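import Cfsg.Statements.S1224
import Cfsg.Agent.Lib.Involution.SECounting

set_option autoImplicit false
open Cfsg

namespace Cfsg.Agent.S1224

open Cfsg.Agent.Lib.Involution Subgroup


/-- Let H be a strongly embedded subgroup of the finite group G and x ≠ y two cosets in G/H. Then the number of involutions i of G with i • x = y equals the number of involutions lying in H. -/
theorem result {G : Type*} [Group G] [Finite G] (H : Subgroup G) (hH : Cfsg.IsStronglyEmbedded H) (x y : G ⧸ H) (hxy : x ≠ y) : Nat.card {i : G // orderOf i = 2 ∧ i • x = y} = Nat.card {t : G // orderOf t = 2 ∧ t ∈ H} := by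
  revert hxy
  induction x using QuotientGroup.induction_on with
  | H g =>
  induction y using QuotientGroup.induction_on with
  | H k =>
  intro hxy
  have hne : g⁻¹ * k ∉ H := fun h => hxy (QuotientGroup.eq.mpr h)
  rw [← swap_eq hH _ hne]
  refine Nat.card_congr (Equiv.subtypeEquiv (MulAut.conj g⁻¹).toEquiv fun w => ?_)
  rw [MulAction.Quotient.smul_mk, smul_eq_mul, eq_comm (b := (QuotientGroup.mk k : G ⧸ H)), QuotientGroup.eq]
  show orderOf w = 2 ∧ k⁻¹ * (w * g) ∈ H ↔ orderOf (g⁻¹ * w * g⁻¹⁻¹) = 2 ∧ (g⁻¹ * k)⁻¹ * (g⁻¹ * w * g⁻¹⁻¹) ∈ H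
  rw [orderOf_conj, show (g⁻¹ * k)⁻¹ * (g⁻¹ * w * g⁻¹⁻¹) = k⁻¹ * (w * g) by group]

end Cfsg.Agent.S1224
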