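import Cfsg.Statements.S0895
import Cfsg.Agent.Lib.Char.FrobSchur
import Mathlib.Tactic

set_option autoImplicit false
open scoped ComplexConjugate Matrix
open Cfsg

namespace Cfsg.Agent.S0895

open Cfsg.Agent.Lib.Char

theorem result {G : Type*} [Group G] [Fintype G] (χ : G → ℂ) (hχ : Cfsg.IsIrrCharacter G χ) (hreal : ∀ g : G, (χ g).im = 0) (d : ℕ) (hd : χ 1 = d) (hodd : Odd d) : (Nat.card G : ℂ)⁻¹ * ∑ s : G, χ (s * s) = 1 := by
  classical
  obtain ⟨n, ρ, hρ, rfl⟩ := hχ
  haveI := hρ
  have hn : Odd n := by
    rw [Representation.char_one, Module.finrank_fin_fun] at hd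
    have : n = d := by exact_mod_cast hd
    rwa [this]
  obtain ⟨hν, ⟨M, hM0, hM⟩, hsym⟩ := (fsInd_spec ρ).2 hreal
  change fsInd ρ.character = 1
  rcases hν with h | h
  · exact h
  · exfalso
    have hinv := (mem_invariants_formRep ρ M).mp hM
    let U : Subrepresentation ρ :=
      { toSubmodule := LinearMap.ker (Matrix.toLin' M)
        apply_mem_toSubmodule := fun g v hv => by
          rw [LinearMap.mem_ker, Matrix.toLin'_apply] at hv ⊢
          have h1 : (LinearMap.toMatrix' (ρ g⁻¹))ᵀ * M * LinearMap.toMatrix' (ρ g⁻¹) = M := hinv g⁻¹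
          rw [← h1, ← Matrix.mulVec_mulVec, ← Matrix.mulVec_mulVec, LinearMap.toMatrix'_mulVec,
            ← Module.End.mul_apply, ← map_mul, inv_mul_cancel, map_one, Module.End.one_apply, hv,
            Matrix.mulVec_zero] }
    have hdet : M.det ≠ 0 := by
      rcases hρ.eq_bot_or_eq_top U with hU | hU
      · intro h0
        obtain ⟨v, hv0, hv⟩ := Matrix.exists_mulVec_eq_zero_iff.mpr h0
        have hmem : v ∈ U.toSubmodule := by
          show v ∈ LinearMap.ker (Matrix.toLin' M)
          rw [LinearMap.mem_ker, Matrix.toLin'_apply, hv]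
        rw [hU] at hmem
        exact hv0 ((Submodule.mem_bot ℂ).mp hmem)
      · exfalso
        apply hM0
        refine Matrix.toLin'.injective (LinearMap.ext fun v => ?_)
        have hmem : v ∈ U.toSubmodule := by rw [hU]; exact Submodule.mem_top
        rw [map_zero, LinearMap.zero_apply]
        exact LinearMap.mem_ker.mp hmem
    have h2 := congrArg Matrix.det (hsym M hM)
    rw [Matrix.det_transpose, h, Matrix.det_smul, Fintype.card_fin, hn.neg_one_pow] at h2
    exact hdet (by linear_combination h2 / 2)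

end Cfsg.Agent.S0895
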