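import Cfsg.Statements.S0190
import Cfsg.Agent.Lib.Char.Induced

set_option autoImplicit false
open Cfsg

namespace Cfsg.Agent.S0190

/-- For a transitive action of a finite group on X, the permutation character g ↦ (number of fixed points of g) is the function induced from the principal character of the stabilizer of any point. -/
theorem result {G : Type*} [Group G] [Fintype G] (X : Type*) [MulAction G X] [Finite X] [MulAction.IsPretransitive G X] (x : X) : (fun g : G => (Nat.card (MulAction.fixedBy X g) : ℂ)) = Cfsg.indFun (MulAction.stabilizer G x) (fun _ => 1) := by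
  classical
  have := Fintype.ofFinite X
  funext g
  set S := MulAction.stabilizer G x
  have hS : (Nat.card S : ℂ) ≠ 0 := Lib.Char.card_ne_zero_complex S
  have h1 : ∀ y : G, Cfsg.extendByZero S (fun _ => (1 : ℂ)) (y⁻¹ * g * y) =
      if g • y • x = y • x then 1 else 0 := by
    intro y
    have hiff : y⁻¹ * g * y ∈ S ↔ g • y • x = y • x := by
      rw [MulAction.mem_stabilizer_iff, mul_smul, mul_smul, inv_smul_eq_iff]
    split_ifs with h
    · rw [Lib.Char.extendByZero_mem _ _ (hiff.mpr h)]
    · rw [Lib.Char.extendByZero_not_mem _ _ (mt hiff.mp h)]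
  simp only [Cfsg.indFun, h1]
  have h2 : ∀ z : X, (Finset.univ.filter fun y : G => y • x = z).card = Nat.card S := by
    intro z
    obtain ⟨y₀, rfl⟩ := MulAction.exists_smul_eq G x z
    rw [← Fintype.card_subtype, ← Nat.card_eq_fintype_card]
    refine Nat.card_congr (Equiv.subtypeEquiv (Equiv.mulLeft y₀⁻¹) fun y => ?_)
    rw [MulAction.mem_stabilizer_iff, Equiv.coe_mulLeft, mul_smul, inv_smul_eq_iff]
  rw [← Finset.sum_fiberwise Finset.univ (fun y : G => y • x), Finset.sum_congr rfl
    (g := fun z : X => (Nat.card S : ℂ) * if g • z = z then 1 else 0) fun z _ => ?_]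
  · rw [← Finset.mul_sum, ← mul_assoc, inv_mul_cancel₀ hS, one_mul, Finset.sum_boole,
      ← Fintype.card_subtype, ← Nat.card_eq_fintype_card]
    rfl
  · rw [Finset.sum_congr rfl (g := fun _ => if g • z = z then (1 : ℂ) else 0) fun y hy => by
      rw [(Finset.mem_filter.mp hy).2], Finset.sum_const, h2, nsmul_eq_mul]

end Cfsg.Agent.S0190
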