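import Cfsg.Statements.S0157
import Cfsg.Agent.Lib.Char.Induced
import Cfsg.Agent.Lib.Char.Linear
import Cfsg.Agent.S0190

set_option autoImplicit false
open Cfsg

namespace Cfsg.Agent.S0157

/-- For a transitive action of a finite group on a finite set with at least two points: the action is 2-transitive if and only if the function sending g to (number of fixed points of g) − 1 is an irreducible character. -/
theorem result {G : Type*} [Group G] [Finite G] (X : Type*) [MulAction G X] [Finite X] [MulAction.IsPretransitive G X] (hX : 2 ≤ Nat.card X) : Cfsg.IsIrrCharacter G (fun g => (Nat.card (MulAction.fixedBy X g) : ℂ) - 1) ↔ MulAction.IsMultiplyPretransitive G X 2 := by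
  classical
  have := Fintype.ofFinite G
  have := Fintype.ofFinite X
  obtain ⟨x⟩ : Nonempty X := (Nat.card_pos_iff.mp (by omega)).1
  set H := MulAction.stabilizer G x
  set π : G → ℂ := fun g => (Nat.card (MulAction.fixedBy X g) : ℂ) with hπ
  have hind : π = Cfsg.indFun H (fun _ => 1) := S0190.result X x
  have hπc : Cfsg.IsCharacter G π := hind ▸ Lib.Char.isCharacter_indFun H Lib.Char.isCharacter_one
  have hπcf := Lib.Char.isClassFunction_of_isCharacter hπc
  have hone : Cfsg.classInner π (fun _ => (1 : ℂ)) = 1 := by
    rw [hind, Lib.Char.classInner_indFun H _ (fun _ _ => rfl)]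
    exact Lib.Char.classInner_irr_self (Lib.Char.isIrrCharacter_one (G := H))
  have hburn : Cfsg.classInner π π = (Nat.card (MulAction.orbitRel.Quotient H X) : ℂ) := by
    conv_lhs => arg 1; rw [hind]
    rw [Lib.Char.classInner_indFun H _ hπcf]
    have hb := MulAction.sum_card_fixedBy_eq_card_orbits_mul_card_group H X
    simp only [Cfsg.classInner, one_mul, hπ, map_natCast, Nat.card_eq_fintype_card]
    rw [inv_mul_eq_iff_eq_mul₀ (Nat.cast_ne_zero.mpr Fintype.card_ne_zero), mul_comm]
    exact_mod_cast hb
  have hψc : Cfsg.IsCharacter G (fun g => π g - 1) := by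
    refine Lib.Char.isCharacter_iff_natCast.mpr ⟨fun a b => by simp [hπcf a b], fun χ => ?_⟩
    obtain ⟨m, hm⟩ := Lib.Char.classInner_natCast hπc (Lib.Char.isCharacter_of_isIrr χ.2)
    have e : (fun g => π g - 1) = π - fun _ => (1 : ℂ) := rfl
    rw [e, Lib.Char.classInner_sub_left, hm]
    by_cases h1 : (χ : G → ℂ) = fun _ => 1
    · rw [h1] at hm ⊢
      rw [hone] at hm
      exact ⟨0, by rw [← hm, Lib.Char.classInner_irr_self Lib.Char.isIrrCharacter_one]; simp⟩
    · exact ⟨m, by rw [Lib.Char.classInner_irr_ne Lib.Char.isIrrCharacter_one χ.2 (Ne.symm h1), sub_zero]⟩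
  have hnorm : Cfsg.classInner (fun g => π g - 1) (fun g => π g - 1) =
      (Nat.card (MulAction.orbitRel.Quotient H X) : ℂ) - 1 := by
    have e : (fun g => π g - 1) = π - fun _ => (1 : ℂ) := rfl
    rw [e, Lib.Char.classInner_sub_left, Lib.Char.classInner_sub_right,
      Lib.Char.classInner_sub_right, hburn, hone,
      Lib.Char.classInner_irr_self Lib.Char.isIrrCharacter_one,
      Lib.Char.classInner_conj_symm π, hone]
    simp
  rw [MulAction.is_two_pretransitive_iff]
  have key : Nat.card (MulAction.orbitRel.Quotient H X) = 2 ↔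
      ∀ {a b c d : X}, a ≠ b → c ≠ d → ∃ g : G, g • a = c ∧ g • b = d := by
    have hxne : ∃ y : X, y ≠ x := by
      have : Nontrivial X := Finite.one_lt_card_iff_nontrivial.mp (by omega)
      exact exists_ne x
    obtain ⟨y₀, hy₀⟩ := hxne
    have hx : ∀ z : X, (Quotient.mk'' z : MulAction.orbitRel.Quotient H X) = Quotient.mk'' x →
        z = x := by
      intro z hz
      obtain ⟨h, rfl⟩ := MulAction.orbitRel_apply.mp (Quotient.exact' hz)
      exact h.2
    constructor
    · intro h2 a b c d hab hcd
      obtain ⟨g₁, hg₁⟩ := MulAction.exists_smul_eq G a x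
      obtain ⟨g₂, hg₂⟩ := MulAction.exists_smul_eq G c x
      obtain ⟨u, v, huv, hall⟩ := Nat.card_eq_two_iff.mp h2
      have hne : ∀ z : X, z ≠ x → (Quotient.mk'' z : MulAction.orbitRel.Quotient H X) =
          Quotient.mk'' y₀ := by
        intro z hz
        have hm : ∀ q : MulAction.orbitRel.Quotient H X, q = u ∨ q = v := fun q => by
          have : q ∈ ({u, v} : Set _) := hall ▸ Set.mem_univ q
          simpa using this
        rcases hm (Quotient.mk'' z) with e | e <;> rcases hm (Quotient.mk'' y₀) with e' | e' <;>
          rcases hm (Quotient.mk'' x) with e'' | e'' <;>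
          first
            | exact e.trans e'.symm
            | exact absurd (hx z (e.trans e''.symm)) hz
            | exact absurd (hx y₀ (e'.trans e''.symm)) hy₀
      have hb : g₁ • b ≠ x := fun e => hab (by
        have := e.trans hg₁.symm
        exact (MulAction.injective g₁ this).symm)
      have hd : g₂ • d ≠ x := fun e => hcd (by
        have := e.trans hg₂.symm
        exact (MulAction.injective g₂ this).symm)
      obtain ⟨h, hh⟩ := MulAction.orbitRel_apply.mp
        (Quotient.exact' ((hne _ hd).trans (hne _ hb).symm))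
      refine ⟨g₂⁻¹ * (h : G) * g₁, ?_, ?_⟩
      · rw [mul_smul, mul_smul, hg₁, show (h : G) • x = x from h.2, inv_smul_eq_iff, hg₂]
      · rw [mul_smul, mul_smul]
        exact inv_smul_eq_iff.mpr hh
    · intro h
      refine Nat.card_eq_two_iff.mpr ⟨Quotient.mk'' x, Quotient.mk'' y₀, fun e => hy₀ (hx y₀ e.symm),
        ?_⟩
      rw [Set.eq_univ_iff_forall]
      intro q
      induction q using Quotient.inductionOn' with
      | _ z =>
        by_cases hz : z = x
        · exact Or.inl (by rw [hz])
        · refine Or.inr (Quotient.sound' (MulAction.orbitRel_apply.mpr ?_))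
          obtain ⟨g, hg, hg'⟩ := h (Ne.symm hy₀) (Ne.symm hz)
          exact ⟨⟨g, hg⟩, hg'⟩
  rw [← key]
  constructor
  · intro hirr
    have h := Lib.Char.classInner_irr_self hirr
    rw [hnorm, sub_eq_iff_eq_add] at h
    norm_num at h
    rw [Nat.card_eq_fintype_card]
    exact_mod_cast h
  · intro h
    refine Lib.Char.isIrrCharacter_of_norm_one hψc ?_
    rw [hnorm, h]
    norm_num

end Cfsg.Agent.S0157
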