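import Cfsg.Statements.S1079

import Cfsg.Agent.Lib.SteinbergPres.Cover.Embed
import Cfsg.Agent.Lib.SteinbergPres.Cover.Checks
import Cfsg.Agent.S1077
set_option autoImplicit false
open Cfsg

namespace Cfsg.Agent.S1079

open Cfsg.Agent.Lib.Chev Cfsg.Agent.Lib.SteinbergPres.Cover

/-- packed root embedding of E6 in E8 -/
def io6 : ℕ := 197826344582926165870947970743180924148311991970668180805546008227381352219946377108106560900955329900548830782003492134775948981394880634343157650874801381242681034812894499

/-- packed root embedding of E7 in E8 -/
def io7 : ℕ := 2430810997004866598444401240238742686892022899567541319682954425287167460260763023210395046641608905787741593400045937092517025071470630088513929100882265937055017271469174884988986077504446333275414838194854552575824525579080592657593264928194488327118387149962421491912665312065144265886464730302321677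

set_option maxRecDepth 4000 in
theorem emb6 : embCheck E6.fast E8.fast io6 = true := by decide +kernel

set_option maxRecDepth 4000 in
theorem emb7 : embCheck E7.fast E8.fast io7 = true := by decide +kernel


/-- `|Z(Ḡ)| = gcd(3, q-1)` for E₆ and `gcd(2, q-1)` for E₇ over a field with `q` elements (the centre is dual to the weight lattice modulo the root lattice). -/
theorem result {K : Type*} [Field K] [Fintype K] {q : ℕ} (hq : Fintype.card K = q)
    (p : Cfsg.Lie.ChevalleyDatum × ℕ) (hp : p ∈ [(Cfsg.Lie.chevE6, 3), (Cfsg.Lie.chevE7, 2)]) :
    Nat.card (Subgroup.center (p.1.SteinbergGroup K)) = Nat.gcd p.2 (q - 1) := by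
  subst hq
  simp only [List.mem_cons, List.not_mem_nil, or_false] at hp
  have hinj := fun c hc => cartanMap_injective_of_smith (F := K) E8.checked smith_E8 (by decide) c hc
  rcases hp with rfl | rfl
  · obtain ⟨θ, -, hker, hθ⟩ := Cfsg.Agent.S1077.result (K := K) Cfsg.Lie.chevE6 (by simp)
    rw [← hker, ker_eq_map (C := E6.checked) θ hθ cover_E6, Subgroup.card_map_of_injective
      (tau_injective E6.checked E8.checked emb6 hinj θ hθ cover_E6),
      E6.checked.card_ker_cartanMap smith_E6, show E6.fast.l = 6 from rfl, Nat.gcd_comm]
    simp [Finset.prod_range_succ]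
  · obtain ⟨θ, -, hker, hθ⟩ := Cfsg.Agent.S1077.result (K := K) Cfsg.Lie.chevE7 (by simp)
    rw [← hker, ker_eq_map (C := E7.checked) θ hθ cover_E7, Subgroup.card_map_of_injective
      (tau_injective E7.checked E8.checked emb7 hinj θ hθ cover_E7),
      E7.checked.card_ker_cartanMap smith_E7, show E7.fast.l = 7 from rfl, Nat.gcd_comm]
    simp [Finset.prod_range_succ]

end Cfsg.Agent.S1079
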