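import Cfsg.Statements.S1517
import Cfsg.Agent.Lib.Dade.CoherenceSystem
import Mathlib.Tactic

set_option autoImplicit false
open scoped ComplexConjugate
open Cfsg

namespace Cfsg.Agent.S1517

open Cfsg.Agent.Lib.Char Cfsg.Agent.Lib.Dade

variable {L : Type*} [Group L] [Fintype L] {G : Type*} [Group G] [Fintype G]
variable {S : Set (L → ℂ)} {τ : (L → ℂ) → G → ℂ} {R : (L → ℂ) → Finset (G → ℂ)}
variable (hS : IsCoherenceSystem S τ R)
include hS

theorem diff_mem (hdeg : ∀ φ ∈ S, ∀ ψ ∈ S, φ 1 = ψ 1) {a b : L → ℂ} (ha : a ∈ S) (hb : b ∈ S) :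
    a - b ∈ zspanOn S {1}ᶜ :=
  mem_zspanOn.mpr ⟨zspan_sub (zspan_subset ha) (zspan_subset hb),
    by rw [Pi.sub_apply, hdeg a ha b hb, sub_self]⟩

theorem split (hdeg : ∀ φ ∈ S, ∀ ψ ∈ S, φ 1 = ψ 1) {χ φ : L → ℂ} (hχ : χ ∈ S) (hφ : φ ∈ S)
    (h1 : φ ≠ χ) (h2 : φ ≠ conjFun χ) {N : ℕ} (hN : classInner χ χ = N) :
    ∃ A B : Finset (G → ℂ), A ⊆ R χ ∧ B ⊆ R φ ∧ A.card = N ∧
      τ (χ - φ) = ∑ α ∈ A, α - ∑ β ∈ B, β := by
  classical
  obtain ⟨M, -, hM, -, hM1, hM2⟩ := system_norm hS hφ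
  obtain ⟨_, -, hN', -, hN1, hN2⟩ := system_norm hS hχ
  rw [hN'] at hN
  rw [hN] at hN'
  have hcφ := hS.conj_mem φ hφ
  have hcχ := hS.conj_mem χ hχ
  have hneq : χ ≠ conjFun φ := fun e => h2 (by rw [e, conjFun_conjFun])
  have o1 : classInner φ χ = 0 := hS.orthogonal φ hφ χ hχ h1
  have o2 : classInner χ φ = 0 := hS.orthogonal χ hχ φ hφ h1.symm
  have o3 : classInner φ (conjFun χ) = 0 := hS.orthogonal φ hφ _ hcχ h2
  have o4 : classInner χ (conjFun φ) = 0 := hS.orthogonal χ hχ _ hcφ hneq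
  set x := τ (χ - φ) with hx
  have hm := diff_mem hS hdeg hχ hφ
  have hxgen : IsGeneralizedCharacter G x := hS.isometry.2.2.2 _ hm
  have hs1 : classInner x (∑ α ∈ R χ, α) = N := by
    rw [← hS.sum_eq χ hχ, hx, hS.isometry.2.2.1 _ hm _ (system_diff hS hχ), classInner_sub_left,
      classInner_sub_right, classInner_sub_right, hN', hN1, o1, o3, sub_zero, sub_zero, sub_zero]
  have hs2 : classInner (-x) (∑ α ∈ R φ, α) = M := by
    rw [← hS.sum_eq φ hφ, hx, classInner_neg_left, hS.isometry.2.2.1 _ hm _ (system_diff hS hφ),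
      classInner_sub_left, classInner_sub_right, classInner_sub_right, hM, hM1, o2, o4]
    ring
  obtain ⟨c, hc, hc1, hA⟩ := exists_proj (R χ) (hS.virtual χ hχ) hxgen N hs1
  obtain ⟨e, he, he1, hB⟩ := exists_proj (R φ) (hS.virtual φ hφ) (generalized_neg hxgen) M hs2
  have hxx : classInner x x = ((N + M : ℝ) : ℂ) := by
    rw [hx, hS.isometry.2.2.1 _ hm _ hm, classInner_sub_left, classInner_sub_right,
      classInner_sub_right, hN', hM, o1, o2]
    push_cast; ring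
  have hb := bessel ((R χ).disjSum (R φ)) (Sum.elim (fun α => α) (fun α => α))
    (Sum.elim c fun α => -e α) (fun _ => 1) x (N + M) hxx ?_ ?_ ?_
  rotate_left
  · rintro (i | i) hi (j | j) hj hij <;>
      simp only [Finset.inl_mem_disjSum, Finset.inr_mem_disjSum, Sum.elim_inl, Sum.elim_inr] at hi hj ⊢
    · rw [hS.orthonormal χ hχ i hi j hj, if_neg (fun h => hij (by rw [h]))]
    · rw [classInner_conj_symm, hS.disjoint χ hχ φ hφ o1 o3 j hj i hi, map_zero]
    · exact hS.disjoint χ hχ φ hφ o1 o3 i hi j hj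
    · rw [hS.orthonormal φ hφ i hi j hj, if_neg (fun h => hij (by rw [h]))]
  · rintro (i | i) hi <;>
      simp only [Finset.inl_mem_disjSum, Finset.inr_mem_disjSum, Sum.elim_inl, Sum.elim_inr,
        Complex.ofReal_one] at hi ⊢
    · rw [hS.orthonormal χ hχ i hi i hi, if_pos rfl]
    · rw [hS.orthonormal φ hφ i hi i hi, if_pos rfl]
  · rintro (i | i) hi <;>
      simp only [Finset.inl_mem_disjSum, Finset.inr_mem_disjSum, Sum.elim_inl, Sum.elim_inr,
        Complex.ofReal_one, mul_one] at hi ⊢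
    · exact hc i hi
    · rw [Complex.ofReal_neg, ← he i hi, classInner_neg_left, neg_neg]
  simp only [Finset.sum_disjSum, Sum.elim_inl, Sum.elim_inr, mul_one, neg_sq] at hb
  obtain ⟨A, hAU, hAc, hA1, hA0⟩ := hA (by linarith [hb.1])
  obtain ⟨B, hBU, -, hB1, hB0⟩ := hB (by linarith [hb.1])
  refine ⟨A, B, hAU, hBU, hAc, ?_⟩
  rw [hb.2 (by linarith [hb.1]), sub_eq_add_neg, ← Finset.sum_neg_distrib]
  congr 1
  · rw [← Finset.sum_subset hAU (fun α hα hn => by rw [hA0 α hα hn, Complex.ofReal_zero, zero_smul])]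
    exact Finset.sum_congr rfl fun α hα => by rw [hA1 α hα, Complex.ofReal_one, one_smul]
  · rw [← Finset.sum_subset hBU (fun α hα hn => by
      rw [hB0 α hα hn, neg_zero, Complex.ofReal_zero, zero_smul])]
    exact Finset.sum_congr rfl fun α hα => by
      rw [hB1 α hα, Complex.ofReal_neg, Complex.ofReal_one, neg_smul, one_smul]

theorem exists_center (hdeg : ∀ φ ∈ S, ∀ ψ ∈ S, φ 1 = ψ 1) {χ : L → ℂ} (hχ : χ ∈ S) {N : ℕ}
    (hN : classInner χ χ = N) :
    ∃ A : Finset (G → ℂ), A ⊆ R χ ∧ A.card = N ∧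
      ∀ φ ∈ S, φ ≠ χ → classInner (∑ α ∈ A, α) (τ (χ - φ)) = N := by
  classical
  have hconj : ∀ A : Finset (G → ℂ), A ⊆ R χ → A.card = N →
      classInner (∑ α ∈ A, α) (τ (χ - conjFun χ)) = N := fun A hA hAc => by
    rw [hS.sum_eq χ hχ, inner_sum_R hS hχ hA subset_rfl, Finset.inter_eq_left.mpr hA, hAc]
  by_cases hex : ∃ φ ∈ S, φ ≠ χ ∧ φ ≠ conjFun χ
  · obtain ⟨φ, hφ, h1, h2⟩ := hex
    obtain ⟨A, B, hA, hB, hAc, hx⟩ := split hS hdeg hχ hφ h1 h2 hN
    have hAx : classInner (∑ α ∈ A, α) (τ (χ - φ)) = N := by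
      rw [hx, classInner_sub_right, inner_sum_R hS hχ hA hA, Finset.inter_self, hAc,
        classInner_conj_symm, R_inner_zero hS hχ hφ h1 h2 hB hA, map_zero, sub_zero]
    refine ⟨A, hA, hAc, fun ψ hψ hψχ => ?_⟩
    by_cases hψc : ψ = conjFun χ
    · rw [hψc]; exact hconj A hA hAc
    by_cases hψφ : ψ = φ
    · rw [hψφ]; exact hAx
    by_cases hψφc : ψ = conjFun φ
    · have e : χ - ψ = (χ - φ) + (φ - conjFun φ) := by rw [hψφc]; abel
      rw [e, hS.isometry.1 _ (diff_mem hS hdeg hχ hφ) _ (system_diff hS hφ), classInner_add_right,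
        hAx, hS.sum_eq φ hφ, classInner_conj_symm, R_inner_zero hS hχ hφ h1 h2 subset_rfl hA,
        map_zero, add_zero]
    obtain ⟨A', B', hA', hB', hAc', hx'⟩ := split hS hdeg hχ hψ hψχ hψc hN
    have hAB' : classInner (∑ α ∈ A, α) (∑ β ∈ B', β) = 0 := by
      rw [classInner_conj_symm, R_inner_zero hS hχ hψ hψχ hψc hB' hA, map_zero]
    have hBB : classInner (∑ α ∈ B, α) (∑ β ∈ B', β) = 0 :=
      R_inner_zero hS hψ hφ (Ne.symm hψφ) (fun e => hψφc (by rw [e, conjFun_conjFun])) hB hB'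
    have h := hS.isometry.2.2.1 _ (diff_mem hS hdeg hχ hφ) _ (diff_mem hS hdeg hχ hψ)
    rw [hx, hx', classInner_sub_left, classInner_sub_right, classInner_sub_right,
      inner_sum_R hS hχ hA hA', hAB', hBB, R_inner_zero hS hχ hφ h1 h2 hB hA',
      classInner_sub_left, classInner_sub_right, classInner_sub_right, hN,
      hS.orthogonal χ hχ ψ hψ (Ne.symm hψχ), hS.orthogonal φ hφ χ hχ h1,
      hS.orthogonal φ hφ ψ hψ (Ne.symm hψφ), sub_zero, sub_zero, sub_zero, sub_zero] at h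
    simp only [sub_zero] at h
    have hcard : (A ∩ A').card = N := by exact_mod_cast h
    have e1 : A ∩ A' = A := Finset.eq_of_subset_of_card_le Finset.inter_subset_left (by omega)
    rw [hx', classInner_sub_right, hAB', inner_sum_R hS hχ hA hA', e1, hAc, sub_zero]
  · push Not at hex
    obtain ⟨A, hA, hAc⟩ := Finset.exists_subset_card_eq
      (show N ≤ (R χ).card by rw [card_R hS hχ hN]; omega)
    exact ⟨A, hA, hAc, fun φ hφ hne => by rw [hex φ hφ hne]; exact hconj A hA hAc⟩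

end Cfsg.Agent.S1517

namespace Cfsg.Agent.S1517

open Cfsg.Agent.Lib.Char Cfsg.Agent.Lib.Dade

theorem result {L : Type*} [Group L] [Fintype L] {G : Type*} [Group G] [Fintype G] (S : Set (L → ℂ)) (τ : (L → ℂ) → (G → ℂ)) (R : (L → ℂ) → Finset (G → ℂ)) (hS : Cfsg.IsCoherenceSystem S τ R) (hdeg : ∀ φ ∈ S, ∀ ψ ∈ S, φ 1 = ψ 1) : Cfsg.IsCoherent S {1}ᶜ τ := by
  classical
  obtain ⟨χ, hχ⟩ := hS.nonempty
  obtain ⟨N, -, hN, -, -, -⟩ := system_norm hS hχ
  obtain ⟨A, hA, hAc, hg⟩ := exists_center hS hdeg hχ hN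
  set X : G → ℂ := ∑ α ∈ A, α with hX
  have hm : ∀ φ ∈ S, χ - φ ∈ zspanOn S {1}ᶜ := fun φ hφ => diff_mem hS hdeg hχ hφ
  have hτ0 : τ 0 = 0 := by
    have := hS.isometry.2.1 (χ - χ) (hm χ hχ) 0
    rwa [zero_smul, zero_smul] at this
  have hg' : ∀ φ ∈ S, classInner X (τ (χ - φ)) = (N : ℂ) - classInner χ φ := by
    intro φ hφ
    rcases eq_or_ne φ χ with rfl | h
    · rw [sub_self, hτ0, classInner_zero_right, hN, sub_self]
    · rw [hX, hg φ hφ h, hS.orthogonal χ hχ φ hφ h.symm, sub_zero]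
  have hXX : classInner X X = N := by rw [hX, inner_sum_R hS hχ hA hA, Finset.inter_self, hAc]
  set F := (system_finite hS).toFinset with hF
  have hFS : (F : Set (L → ℂ)) = S := Set.Finite.coe_toFinset _
  have hFm : ∀ {φ}, φ ∈ F → φ ∈ S := fun h => (Set.Finite.mem_toFinset _).mp h
  obtain ⟨T, hT, hTiso⟩ := exists_isometry F (fun φ => X - τ (χ - φ))
    (fun a ha b hb h => hS.orthogonal a (hFm ha) b (hFm hb) h)
    (fun a ha => system_ne_zero hS (hFm ha))
    (fun a ha => generalized_sub (generalized_sum _ _ fun α hα => hS.virtual χ hχ α (hA hα))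
      (hS.isometry.2.2.2 _ (hm a (hFm ha))))
    (fun a ha b hb => by
      rw [classInner_sub_left, classInner_sub_right, classInner_sub_right,
        hS.isometry.2.2.1 _ (hm a (hFm ha)) _ (hm b (hFm hb)), hg' b (hFm hb), hXX,
        classInner_conj_symm X (τ (χ - a)), hg' a (hFm ha), classInner_sub_left,
        classInner_sub_right, classInner_sub_right, hN, map_sub, map_natCast, ← classInner_conj_symm]
      ring)
  rw [hFS] at hTiso
  refine ⟨⟨χ - conjFun χ, system_diff hS hχ, system_diff_ne hS hχ⟩, T, hTiso, fun α hα => ?_⟩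
  have hgen : α ∈ Submodule.span ℤ ((fun φ => χ - φ) '' S) := by
    obtain ⟨hα1, hα0⟩ := mem_zspanOn.mp hα
    have : ∀ β ∈ zspan S, ∃ n : ℤ, β 1 = n * χ 1 ∧
        β - n • χ ∈ Submodule.span ℤ ((fun φ => χ - φ) '' S) := by
      intro β hβ
      induction hβ using Submodule.span_induction with
      | mem x hx =>
        refine ⟨1, by rw [hdeg x hx χ hχ, Int.cast_one, one_mul], ?_⟩
        rw [one_smul, ← neg_sub χ x]
        exact Submodule.neg_mem _ (Submodule.subset_span ⟨x, hx, rfl⟩)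
      | zero => exact ⟨0, by simp, by simp⟩
      | add y z _ _ hy hz =>
        obtain ⟨m, hm1, hm2⟩ := hy
        obtain ⟨k, hk1, hk2⟩ := hz
        refine ⟨m + k, by rw [Pi.add_apply, hm1, hk1]; push_cast; ring, ?_⟩
        rw [add_smul, show y + z - (m • χ + k • χ) = (y - m • χ) + (z - k • χ) by abel]
        exact Submodule.add_mem _ hm2 hk2
      | smul m y _ hy =>
        obtain ⟨k, hk1, hk2⟩ := hy
        refine ⟨m * k, by rw [Pi.smul_apply, hk1, zsmul_eq_mul]; push_cast; ring, ?_⟩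
        rw [mul_smul, ← smul_sub]
        exact Submodule.smul_mem _ m hk2
    obtain ⟨n, hn1, hn2⟩ := this α hα1
    obtain ⟨d, hd, hd1, -⟩ := system_degree hS hχ
    rw [hα0, hd1] at hn1
    have hn0 : n = 0 := by
      rcases mul_eq_zero.mp hn1.symm with h | h
      · exact_mod_cast h
      · exact absurd (by exact_mod_cast h : d = 0) hd.ne'
    rwa [hn0, zero_smul, sub_zero] at hn2
  refine eqOn_of_gens (M := spanOne S) (fun a ha b hb => hTiso.1 a ha.1 b hb.1)
    (fun a ha n => hTiso.2.1 a ha.1 n) hS.isometry.1 (fun a ha n => hS.isometry.2.1 a ha n)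
    (by rintro _ ⟨φ, hφ, rfl⟩; exact hm φ hφ) ?_ hgen
  rintro _ ⟨φ, hφ, rfl⟩
  have hχF : χ ∈ F := (Set.Finite.mem_toFinset _).mpr hχ
  have hφF : φ ∈ F := (Set.Finite.mem_toFinset _).mpr hφ
  show T (χ - φ) = τ (χ - φ)
  rw [zspan_isometry_sub hTiso (zspan_subset hχ) (zspan_subset hφ), hT χ hχF, hT φ hφF]
  show X - τ (χ - χ) - (X - τ (χ - φ)) = _
  rw [sub_self, hτ0]
  abel

end Cfsg.Agent.S1517
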