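import Cfsg.Statements.S1535
import Cfsg.Agent.S1528
import Cfsg.Agent.Lib.Dade.FeitStep
import Cfsg.Agent.Lib.Dade.DegreeBound
import Cfsg.Agent.Lib.FPF.FrobeniusKernel
import Mathlib.Tactic

set_option autoImplicit false
open scoped ComplexConjugate
open Cfsg

namespace Cfsg.Agent.S1535

open Cfsg.Agent.Lib.Char Cfsg.Agent.Lib.Dade

universe u

/-- A kernel containing the centralisers of its nontrivial elements is nilpotent. -/
theorem isNilpotent_kernel {N : Type u} [Group N] [Finite N] (H : Subgroup N) [H.Normal]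
    (hH2 : H ≠ ⊤) (hC : ∀ h ∈ H, h ≠ 1 → Subgroup.centralizer ({h} : Set N) ≤ H) :
    Group.IsNilpotent H := by
  obtain ⟨x, -, hx⟩ := SetLike.exists_of_lt (lt_top_iff_ne_top.mpr hH2)
  have hx1 : x ≠ 1 := fun h => hx (h ▸ H.one_mem)
  obtain ⟨r, hr, hrd⟩ := Nat.exists_prime_and_dvd
    (fun h => hx1 (orderOf_eq_one_iff.mp h) : orderOf x ≠ 1)
  have hy : orderOf (x ^ (orderOf x / r)) = r := orderOf_pow_orderOf_div (orderOf_pos x).ne' hrd
  refine Lib.FPF.isNilpotent_of_prime_element hr (h := x ^ (orderOf x / r))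
    (by nth_rw 2 [← hy]; exact pow_orderOf_eq_one _) fun n hn hcomm => ?_
  by_contra hn1
  have h1 : x ^ (orderOf x / r) ∈ H := hC n hn hn1 (Subgroup.mem_centralizer_singleton_iff.mpr hcomm)
  refine hx (hC _ h1 (fun h => ?_) (Subgroup.mem_centralizer_singleton_iff.mpr
    (Commute.self_pow x _).eq))
  rw [h, orderOf_one] at hy
  exact hr.ne_one hy.symm

theorem result {N : Type*} [Group N] [Fintype N] {G : Type*} [Group G] [Fintype G] (H : Subgroup N) [H.Normal] (hH1 : H ≠ ⊥) (hH2 : H ≠ ⊤) (hC : ∀ h ∈ H, h ≠ 1 → Subgroup.centralizer ({h} : Set N) ≤ H) (he : Nat.card H ≠ H.index + 1) (τ : (N → ℂ) → (G → ℂ)) (hτ : Cfsg.IsLinearIsometryOn (Cfsg.zspanOn {χ : N → ℂ | Cfsg.IsIrrCharacter N χ ∧ ∃ h ∈ H, χ h ≠ χ 1} {1}ᶜ) τ) (hτ1 : ∀ α ∈ Cfsg.zspanOn {χ : N → ℂ | Cfsg.IsIrrCharacter N χ ∧ ∃ h ∈ H, χ h ≠ χ 1} {1}ᶜ, τ α 1 = 0) : Cfsg.IsCoherent {χ : N → ℂ | Cfsg.IsIrrCharacter N χ ∧ ∃ h ∈ H, χ h ≠ χ 1} {1}ᶜ τ ∨ ∃ p : ℕ, p.Prime ∧ (∃ m : ℕ, Nat.card H = p ^ m) ∧ ¬ IsMulCommutative H ∧ (⁅H, H⁆.subgroupOf H).index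 ≤ 4 * H.index ^ 2 + 1 := by
  classical
  have := Fintype.ofFinite H
  have hnil : Group.IsNilpotent H := isNilpotent_kernel H hH2 hC
  set e := H.index with he'
  have he0 : 0 < e := Nat.pos_of_ne_zero Subgroup.index_ne_zero_of_finite
  have hnt : Nontrivial H := H.nontrivial_iff_ne_bot.mpr hH1
  -- induction from the nontrivial characters of `H`
  have hinert : ∀ θ : IrrCharacter H, (θ : H → ℂ) ≠ (fun _ => 1) → inertia H (θ : H → ℂ) = H :=
    fun θ hθ => le_antisymm (fun g hg => by
      by_contra hgN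
      exact hθ (S1528.eq_one_of_fixed H hC hgN θ.2 hg))
      (le_inertia H (isClassFunction_of_isIrr θ.2))
  let Φ : IrrCharacter H → N → ℂ := fun θ => indFun H (θ : H → ℂ)
  have hΦirr : ∀ θ : IrrCharacter H, (θ : H → ℂ) ≠ (fun _ => 1) → IsIrrCharacter N (Φ θ) :=
    fun θ hθ => isIrrCharacter_indFun H θ.2 (hinert θ hθ)
  let one : IrrCharacter H := ⟨fun _ => 1, isIrrCharacter_one⟩
  let U : Finset (IrrCharacter H) := Finset.univ.erase one
  have hU : ∀ θ, θ ∈ U ↔ (θ : H → ℂ) ≠ fun _ => 1 := fun θ =>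
    ⟨fun h h' => (Finset.mem_erase.mp h).1 (Subtype.ext h'),
      fun h => Finset.mem_erase.mpr ⟨fun h' => h (congrArg Subtype.val h'), Finset.mem_univ _⟩⟩
  set S : Finset (N → ℂ) := U.image Φ with hSdef
  have hS : {χ : N → ℂ | IsIrrCharacter N χ ∧ ∃ h ∈ H, χ h ≠ χ 1} = (S : Set (N → ℂ)) := by
    ext χ
    rw [hSdef, Finset.coe_image]
    constructor
    · rintro ⟨hχ, hker⟩
      obtain ⟨φ, hφ, rfl⟩ := S1528.result H hC χ hχ hker
      refine ⟨⟨φ, hφ⟩, Finset.mem_coe.mpr ((hU _).mpr fun h => ?_), rfl⟩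
      obtain ⟨x, hx, hne⟩ := hker
      refine hne ?_
      show indFun H φ x = indFun H φ 1
      rw [show φ = fun _ => (1 : ℂ) from h, show x = ((⟨x, hx⟩ : H) : N) from rfl,
        indFun_apply_of_mem, show (1 : N) = ((1 : H) : N) from rfl, indFun_apply_of_mem]
      rfl
    · rintro ⟨θ, hθ, rfl⟩
      have hθ1 := (hU θ).mp (Finset.mem_coe.mp hθ)
      refine ⟨hΦirr θ hθ1, ?_⟩
      by_contra hc
      push Not at hc
      have h1 := classInner_indFun_right H (θ : H → ℂ) (isClassFunction_of_isIrr (hΦirr θ hθ1))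
      have hconst : (fun n : H => Φ θ n) = Φ θ 1 • fun _ => (1 : ℂ) := funext fun n => by
        rw [Pi.smul_apply, smul_eq_mul, mul_one]; exact hc n n.2
      rw [hconst, classInner_smul_left, classInner_irr_ne isIrrCharacter_one θ.2 (Ne.symm hθ1),
        mul_zero] at h1
      rw [show indFun H (θ : H → ℂ) = Φ θ from rfl, classInner_irr_self (hΦirr θ hθ1)] at h1
      exact one_ne_zero h1
  rw [hS] at hτ hτ1 ⊢
  have hdegΦ : ∀ θ : IrrCharacter H, charDegree (Φ θ) = e * charDegree (θ : H → ℂ) := fun θ =>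
    charDegree_indFun H (isCharacter_of_isIrr θ.2)
  have hfib : ∀ l ∈ U, (U.filter fun m => Φ m = Φ l).card = e := by
    intro l hl
    have hl1 := (hU l).mp hl
    rw [← Finset.card_image_of_injective _ Subtype.val_injective,
      show e = (orbit H (l : H → ℂ)).card by
        rw [card_orbit H _ (irr_degree_ne_zero l.2), hinert l hl1]]
    congr 1
    ext ψ
    simp only [Finset.mem_image, Finset.mem_filter, mem_orbit]
    constructor
    · rintro ⟨m, ⟨hm, hme⟩, rfl⟩
      by_contra hc
      push Not at hc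
      have h0 : classInner (fun n : H => Φ l n) (m : H → ℂ) = 0 := by
        simp only [Φ]
        rw [indFun_restrict_normal, classInner_smul_left, classInner_sum_left,
          Finset.sum_eq_zero fun x _ => classInner_irr_ne
            (isIrrCharacter_conjChar H x l.2) m.2 (hc x), mul_zero]
      rw [← classInner_indFun_right H (m : H → ℂ) (isClassFunction_indFun H _)] at h0
      change classInner (Φ l) (Φ m) = 0 at h0
      rw [hme, classInner_irr_self (hΦirr l hl1)] at h0
      exact one_ne_zero h0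
    · rintro ⟨g, rfl⟩
      refine ⟨⟨conjChar H g (l : H → ℂ), isIrrCharacter_conjChar H g l.2⟩, ⟨(hU _).mpr fun h => ?_, ?_⟩,
        rfl⟩
      · refine hl1 ?_
        have h2 := congrArg (conjChar H g⁻¹) h
        rw [← conjChar_mul, mul_inv_cancel, conjChar_one] at h2
        rw [h2]
        rfl
      · show indFun H (conjChar H g (l : H → ℂ)) = indFun H (l : H → ℂ)
        funext y
        by_cases hy : y ∈ H
        · rw [show y = ((⟨y, hy⟩ : H) : N) from rfl, indFun_apply_of_mem, indFun_apply_of_mem]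
          congr 1
          refine Fintype.sum_equiv (Equiv.mulLeft g) _ _ fun x => ?_
          rw [Equiv.coe_mulLeft, conjChar_mul]
        · rw [indFun_apply_of_not_mem H _ hy, indFun_apply_of_not_mem H _ hy]
  -- a linear character
  have ha1 : 1 < (commutator H).index :=
    Subgroup.one_lt_index_of_ne_top (Group.IsSolvable.commutator_lt_top_of_nontrivial H).ne
  obtain ⟨l₁, hl₁, hl₁1⟩ : ∃ θ ∈ U, charDegree (θ : H → ℂ) = 1 := by
    by_contra hc
    push Not at hc
    rw [← card_charDegree_one, Finite.one_lt_card_iff_nontrivial] at ha1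
    obtain ⟨⟨a, ha⟩, ⟨b, hb⟩, hab⟩ := ha1.exists_pair_ne
    have key : ∀ χ : IrrCharacter H, charDegree (χ : H → ℂ) = 1 → χ = one := fun χ hχ => by
      by_contra h
      exact hc χ (Finset.mem_erase.mpr ⟨h, Finset.mem_univ _⟩) hχ
    exact hab (Subtype.ext ((key a ha).trans (key b hb).symm))
  let d : (N → ℂ) → ℕ := fun x => charDegree x / e
  have hdΦ : ∀ θ, d (Φ θ) = charDegree (θ : H → ℂ) := fun θ => by
    show charDegree (Φ θ) / e = _
    rw [hdegΦ, Nat.mul_div_cancel_left _ he0]
  have h1S : Φ l₁ ∈ S := Finset.mem_image_of_mem Φ hl₁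
  have hd1 : d (Φ l₁) = 1 := by rw [hdΦ, hl₁1]
  have hd : ∀ x ∈ S, x 1 = d x * Φ l₁ 1 := by
    intro x hx
    obtain ⟨θ, hθ, rfl⟩ := Finset.mem_image.mp hx
    rw [apply_one_eq_charDegree (isCharacter_of_isIrr (hΦirr θ ((hU θ).mp hθ))),
      apply_one_eq_charDegree (isCharacter_of_isIrr (hΦirr l₁ ((hU l₁).mp hl₁))), hdegΦ, hdegΦ, hdΦ,
      hl₁1, mul_one]
    push_cast
    ring
  have htwo : ∃ x ∈ S, x ≠ Φ l₁ := by
    by_contra hc
    push Not at hc
    have hfull : U.filter (fun m => Φ m = Φ l₁) = U :=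
      Finset.filter_true_of_mem fun m hm => hc _ (Finset.mem_image_of_mem Φ hm)
    have h1 := hfib l₁ hl₁
    rw [hfull] at h1
    have h2 : Nat.card H = ∑ θ : IrrCharacter H, charDegree (θ : H → ℂ) ^ 2 := sum_charDegree_sq.symm
    rw [← Finset.add_sum_erase _ _ (Finset.mem_univ one),
      show charDegree (one : H → ℂ) = 1 from charDegree_one,
      Finset.sum_congr rfl (g := fun _ => 1) fun θ hθ => by
        have h3 := hdegΦ θ
        rw [hc _ (Finset.mem_image_of_mem Φ (show θ ∈ U from hθ)), hdegΦ l₁, hl₁1] at h3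
        rw [← Nat.eq_of_mul_eq_mul_left he0 h3, one_pow],
      Finset.sum_const, show (Finset.univ.erase one).card = e from h1, smul_eq_mul, mul_one, one_pow,
      add_comm] at h2
    exact he h2
  have hsum : ∀ m : ℕ, 1 < m →
      degBelow H m = 1 + e * ∑ x ∈ S.filter (fun x => d x < m), d x ^ 2 := by
    intro m hm
    have hone : one ∈ Finset.univ.filter (fun χ : IrrCharacter H => charDegree (χ : H → ℂ) < m) := by
      rw [Finset.mem_filter, show charDegree (one : H → ℂ) = 1 from charDegree_one]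
      exact ⟨Finset.mem_univ _, hm⟩
    rw [degBelow, ← Finset.add_sum_erase _ _ hone,
      show charDegree (one : H → ℂ) = 1 from charDegree_one, one_pow]
    congr 1
    rw [← Finset.filter_erase, show Finset.univ.erase one = U from rfl, hSdef, Finset.filter_image,
      Finset.mul_sum]
    rw [← Finset.sum_fiberwise_of_maps_to (g := Φ)
      (t := (U.filter fun θ => d (Φ θ) < m).image Φ) fun θ hθ => ?_]
    · refine Finset.sum_congr rfl fun x hx => ?_
      obtain ⟨l, hl, rfl⟩ := Finset.mem_image.mp hx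
      obtain ⟨hlU, hlm⟩ := Finset.mem_filter.mp hl
      rw [Finset.sum_congr rfl (g := fun _ => d (Φ l) ^ 2) fun θ hθ => by
        rw [← hdΦ θ, (Finset.mem_filter.mp hθ).2], Finset.sum_const, smul_eq_mul]
      congr 1
      rw [← hfib l hlU, Finset.filter_filter]
      congr 1
      refine Finset.filter_congr fun θ _ => ⟨fun h => h.2, fun h => ⟨?_, h⟩⟩
      rw [← hdΦ θ, h]
      exact hlm
    · refine Finset.mem_image_of_mem Φ ?_
      rw [Finset.mem_filter] at hθ ⊢
      rw [hdΦ]
      exact hθ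
  -- the two cases
  by_cases hbase : ∀ θ : IrrCharacter H, 1 < charDegree (θ : H → ℂ) →
      2 * e * charDegree (θ : H → ℂ) + 1 < degBelow H (charDegree (θ : H → ℂ))
  · left
    refine coherent_of_feit S (fun x hx => ?_) hτ hτ1 hd hd1 h1S htwo fun x hx hne => ?_
    · obtain ⟨θ, hθ, rfl⟩ := Finset.mem_image.mp hx
      exact hΦirr θ ((hU θ).mp hθ)
    · obtain ⟨θ, hθ, rfl⟩ := Finset.mem_image.mp hx
      rw [hdΦ] at hne ⊢
      have hm : 1 < charDegree (θ : H → ℂ) := by
        have := charDegree_pos θ.2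
        omega
      have h := hbase θ hm
      rw [hsum _ hm] at h
      have h' : e * (2 * charDegree (θ : H → ℂ)) <
          e * ∑ x ∈ S.filter (fun x => d x < charDegree (θ : H → ℂ)), d x ^ 2 := by
        rw [show e * (2 * charDegree (θ : H → ℂ)) = 2 * e * charDegree (θ : H → ℂ) by ring]
        omega
      exact Nat.lt_of_mul_lt_mul_left h'
  push Not at hbase
  obtain ⟨θ, hm, hθ⟩ := hbase
  right
  obtain ⟨p, hp, hpd⟩ := Nat.exists_prime_and_dvd (show charDegree (θ : H → ℂ) ≠ 1 by omega)
  have : Fact p.Prime := ⟨hp⟩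
  obtain ⟨P, K, f, hP, hK, hf, hPi, hKcard⟩ := exists_prod_decomp (X := H) p
  have := Fintype.ofFinite P
  have := Fintype.ofFinite K
  have hpH : p ∣ Nat.card H := hpd.trans (charDegree_dvd_card θ.2)
  by_cases hKbot : Nat.card K = 1
  · have hPgroup : IsPGroup p H := by
      obtain ⟨n, hn⟩ := IsPGroup.iff_card.mp hP
      refine IsPGroup.of_card (n := n) ?_
      rw [← hn, ← Nat.card_congr f.toEquiv, Nat.card_prod, hKbot, mul_one]
    obtain ⟨n, hn⟩ := IsPGroup.iff_card.mp hPgroup
    have hnab : ¬ IsMulCommutative H := by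
      intro hab
      obtain ⟨k, ρ, hρ, hρ'⟩ := θ.2
      have h1 : (θ : H → ℂ) 1 = 1 := by
        rw [← hρ', Representation.char_one,
          Representation.IsIrreducible.finrank_eq_one_of_isMulCommutative ρ, Nat.cast_one]
      rw [(charDegree_eq_one_iff θ.2).mpr h1] at hm
      omega
    refine ⟨p, hp, ⟨n, hn⟩, hnab, ?_⟩
    have hidx : (⁅H, H⁆.subgroupOf H).index = (commutator H).index := by
      rw [← Subgroup.map_subtype_commutator, Subgroup.subgroupOf,
        Subgroup.comap_map_eq_self_of_injective H.subtype_injective]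
    rw [hidx]
    by_contra hbig
    push Not at hbig
    have h1 := linear_le_degBelow (X := H) hm
    have h2 := sq_le_degBelow hPgroup θ hm
    rcases Nat.lt_or_ge (2 * e) (charDegree (θ : H → ℂ)) with h | h
    · nlinarith
    · nlinarith
  · exfalso
    have hPnt : Nontrivial P := by
      rw [← Finite.one_lt_card_iff_nontrivial]
      rcases (Nat.card P).eq_zero_or_pos with h | h
      · exact absurd h Nat.card_pos.ne'
      · by_contra hc
        apply hPi
        rw [← hKcard, ← one_mul (Nat.card K), ← show Nat.card P = 1 by omega, ← Nat.card_prod,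
          Nat.card_congr f.toEquiv]
        exact hpH
    have hKnt : Nontrivial K := by
      rw [← Finite.one_lt_card_iff_nontrivial]
      have : 0 < Nat.card K := Nat.card_pos
      omega
    -- each factor has more than `e` linear characters
    have key : ∀ {A : Type _} [Group A] [Finite A] (π : H →* A) (σ : A →* H),
        (∀ a, π (σ a) = a) → ∀ (good : ℕ → Prop), (∀ x : H, π x = 1 ↔ good (orderOf x)) →
        Group.IsNilpotent A → Nontrivial A → e + 1 ≤ (commutator A).index := by
      intro A _ _ π σ hπσ good hgood hAnil hAnt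
      have hA1 : 1 < (commutator A).index :=
        Subgroup.one_lt_index_of_ne_top (Group.IsSolvable.commutator_lt_top_of_nontrivial A).ne
      rw [← card_linear, Finite.one_lt_card_iff_nontrivial] at hA1
      have := (linearEquiv A).nontrivial
      obtain ⟨ψ, hψ⟩ := exists_ne (1 : A →* ℂˣ)
      have hfinA : Finite (A →* ℂˣ) := Finite.of_equiv _ (linearEquiv A).symm
      set l := ψ.comp π with hl
      have hl1 : (fun n : H => (l n : ℂ)) ≠ fun _ => 1 := by
        intro h
        refine hψ (MonoidHom.ext fun a => Units.ext ?_)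
        have := congrFun h (σ a)
        simpa [hl, hπσ] using this
      have horb : ∀ g : N, ∀ x : H, π x = 1 → (l ((MulAut.conjNormal g) x) : ℂ) = 1 := by
        intro g x hx
        have h2 : π ((MulAut.conjNormal g) x) = 1 := by
          rw [hgood, MulEquiv.orderOf_eq, ← hgood]
          exact hx
        simp [hl, h2]
      have hcard : ((orbit H (fun n : H => (l n : ℂ))).card) = e := by
        rw [card_orbit H _ (by simp), hinert ⟨_, isIrrCharacter_linear l⟩ hl1]
      have := Fintype.ofFinite (A →* ℂˣ)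
      let g : (A →* ℂˣ) → H → ℂ := fun χ n => (χ (π n) : ℂ)
      have hsub : insert (fun _ => (1 : ℂ)) (orbit H (fun n : H => (l n : ℂ))) ⊆
          (Finset.univ : Finset (A →* ℂˣ)).image g := by
        intro χ hχ
        rcases Finset.mem_insert.mp hχ with rfl | h
        · exact Finset.mem_image.mpr ⟨1, Finset.mem_univ _, funext fun n => by simp [g]⟩
        · obtain ⟨y, rfl⟩ := (mem_orbit H).mp h
          refine Finset.mem_image.mpr ⟨(l.comp (MulAut.conjNormal (H := H) y).toMonoidHom).comp σ,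
            Finset.mem_univ _, funext fun n => ?_⟩
          rw [conjChar_eq_comp]
          have hn : π (n * (σ (π n))⁻¹) = 1 := by rw [map_mul, map_inv, hπσ, mul_inv_cancel]
          have h2 := horb y _ hn
          rw [map_mul, map_inv, map_mul, map_inv, Units.val_mul, Units.val_inv_eq_inv_val,
            mul_inv_eq_one₀ (Units.ne_zero _)] at h2
          exact h2.symm
      have hnot : (fun _ => (1 : ℂ)) ∉ orbit H (fun n : H => (l n : ℂ)) := by
        intro h
        obtain ⟨y, hy⟩ := (mem_orbit H).mp h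
        refine hl1 ?_
        have h2 := congrArg (conjChar H y⁻¹) hy
        rw [← conjChar_mul, mul_inv_cancel, conjChar_one] at h2
        rw [h2]
        rfl
      have h3 := Finset.card_le_card hsub
      rw [Finset.card_insert_of_notMem hnot, hcard] at h3
      refine h3.trans (Finset.card_image_le.trans (le_of_eq ?_))
      rw [← card_linear, ← Nat.card_congr (linearEquiv A), Finset.card_univ, Nat.card_eq_fintype_card]
    let σP : P →* H := P.subtype
    let σK : K →* H := K.subtype
    let πP : H →* P := (MonoidHom.fst P K).comp f.symm.toMonoidHom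
    let πK : H →* K := (MonoidHom.snd P K).comp f.symm.toMonoidHom
    have hπP : ∀ a, πP (σP a) = a := fun a => by
      have : f.symm (a : H) = (a, 1) := by rw [MulEquiv.symm_apply_eq, hf]; simp
      simp [πP, σP, this]
    have hπK : ∀ a, πK (σK a) = a := fun a => by
      have : f.symm (a : H) = (1, a) := by rw [MulEquiv.symm_apply_eq, hf]; simp
      simp [πK, σK, this]
    obtain ⟨n, hn⟩ := IsPGroup.iff_card.mp hP
    have hgP : ∀ x : H, πP x = 1 ↔ (orderOf x).Coprime p := by
      intro x
      constructor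
      · intro h
        have hx : x = ((πK x : K) : H) := by
          conv_lhs => rw [← f.apply_symm_apply x, hf]
          rw [show (f.symm x).1 = 1 from h]
          simp [πK]
        rw [hx, Subgroup.orderOf_coe]
        exact hK.coprime_dvd_left (orderOf_dvd_natCard _)
      · intro h
        obtain ⟨k, hk⟩ := IsPGroup.iff_orderOf.mp hP (πP x)
        exact orderOf_eq_one_iff.mp (Nat.eq_one_of_dvd_coprimes (h.pow_right k)
          (orderOf_map_dvd πP x) hk.dvd)
    have hgK : ∀ x : H, πK x = 1 ↔ ∃ k, orderOf x = p ^ k := by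
      intro x
      constructor
      · intro h
        have hx : x = ((πP x : P) : H) := by
          conv_lhs => rw [← f.apply_symm_apply x, hf]
          rw [show (f.symm x).2 = 1 from h]
          simp [πP]
        obtain ⟨k, hk⟩ := IsPGroup.iff_orderOf.mp hP (πP x)
        exact ⟨k, by rw [hx, Subgroup.orderOf_coe, hk]⟩
      · rintro ⟨k, hk⟩
        exact orderOf_eq_one_iff.mp (Nat.eq_one_of_dvd_coprimes (hK.pow_right k)
          (orderOf_dvd_natCard _) (hk ▸ orderOf_map_dvd πK x))
    have hb := degBelow_prod f hP hK (e := e)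
      (key πP σP hπP (fun r => r.Coprime p) hgP inferInstance hPnt)
      (key πK σK hπK (fun r => ∃ k, r = p ^ k) hgK inferInstance hKnt) θ hpd
    omega

end Cfsg.Agent.S1535
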