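import Cfsg.Statements.S1523
import Cfsg.Agent.Lib.CharTools.ClassMult
import Cfsg.Agent.Lib.Char.Integral
import Cfsg.Agent.Lib.Char.BrauerPerm
import Cfsg.Agent.Lib.Char.Degree
import Mathlib.Tactic

set_option autoImplicit false
open scoped ComplexConjugate
open Cfsg

namespace Cfsg.Agent.S1523

open Cfsg.Agent.Lib Cfsg.Agent.Lib.Char Cfsg.Agent.Lib.CharTools

/-- An invariant sum of algebraic integers over a free action is divisible by the group order. -/
theorem isIntegral_sum_free {P X : Type*} [Group P] [Fintype P] [Fintype X] [MulAction P X]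
    (hfree : ∀ (w : P) (x : X), w • x = x → w = 1) (F : X → ℂ)
    (hF : ∀ (w : P) (x : X), F (w • x) = F x) (hint : ∀ x, IsIntegral ℤ (F x)) :
    IsIntegral ℤ ((∑ x, F x) / (Nat.card P : ℂ)) := by
  classical
  rw [← Finset.sum_fiberwise Finset.univ (fun x => Quotient.mk (MulAction.orbitRel P X) x) F,
    Finset.sum_div]
  refine IsIntegral.sum _ fun q _ => ?_
  obtain ⟨x₀, rfl⟩ := Quotient.exists_rep q
  have hfib : Finset.univ.filter (fun x => Quotient.mk (MulAction.orbitRel P X) x =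
      Quotient.mk (MulAction.orbitRel P X) x₀) = Finset.univ.image fun w : P => w • x₀ := by
    ext x
    simp only [Finset.mem_filter, Finset.mem_univ, true_and, Finset.mem_image]
    constructor
    · intro h
      exact MulAction.orbitRel_apply.mp (Quotient.exact h)
    · rintro ⟨w, rfl⟩
      exact Quotient.sound (MulAction.orbitRel_apply.mpr ⟨w, rfl⟩)
  have hinj : Function.Injective fun w : P => w • x₀ := fun a b h => by
    have h' : (b⁻¹ * a) • x₀ = x₀ := by
      rw [mul_smul, show a • x₀ = b • x₀ from h, inv_smul_smul]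
    exact (inv_mul_eq_one.mp (hfree _ _ h')).symm
  rw [hfib, Finset.sum_image fun a _ b _ h => hinj h, Finset.sum_congr rfl fun w _ => hF w x₀,
    Finset.sum_const, Finset.card_univ, nsmul_eq_mul, ← Nat.card_eq_fintype_card,
    mul_div_assoc, mul_comm, div_mul_cancel₀ _ (card_ne_zero_complex P)]
  exact hint x₀

theorem result {G : Type*} [Group G] [Finite G] (p : ℕ) [Fact p.Prime] (P : Sylow p G) (hTI : Cfsg.IsTISubset ((P : Subgroup G) : Set G)) (hodd : Odd (Nat.card (Subgroup.normalizer ((P : Subgroup G) : Set G)))) (Z : Subgroup G) (hZ1 : Z ≠ ⊥) (hZP : Z ≤ P) (hZn : ∀ x ∈ Subgroup.normalizer ((P : Subgroup G) : Set G), ∀ z ∈ Z, x * z * x⁻¹ ∈ Z) (hZc : ∀ z ∈ Z, ∀ y ∈ (P : Subgroup G), z * y = y * z) (hCL : ∀ z ∈ Z, ∀ z' ∈ Z, z ≠ 1 → z' ≠ 1 → Nat.card ↥(Subgroup.normalizer ((P : Subgroup G) : Set G) ⊓ Subgroup.centralizer ({z} : Set G)) = Nat.card ↥(Subgroup.normalizer ((P : Subgroup G) : Set G) ⊓ Subgroup.centralizer ({z'} : Set G)))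 (ψ : G → ℂ) (hψ : Cfsg.IsIrrCharacter G ψ) (hconst : ∀ z ∈ Z, ∀ z' ∈ Z, z ≠ 1 → z' ≠ 1 → ψ z = ψ z') (z : G) (hz : z ∈ Z) (hz1 : z ≠ 1) : ∃ n d : ℤ, ψ z = n ∧ ψ 1 = d ∧ (Nat.card (P : Subgroup G) : ℤ) ∣ d - n := by
  classical
  have := Fintype.ofFinite G
  set L := Subgroup.normalizer ((P : Subgroup G) : Set G) with hL
  have hcP : (Nat.card (P : Subgroup G) : ℂ) ≠ 0 := card_ne_zero_complex _
  have hti : ∀ g : G, ∀ x ∈ (P : Subgroup G), x ≠ 1 → g * x * g⁻¹ ∈ (P : Subgroup G) → g ∈ L :=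
    fun g x hx hx1 hg => by_contra fun h => hx1 (hTI g h x hx hg)
  -- the value on `Z` is an integer
  obtain ⟨d₀, hd₀⟩ := exists_natDegree (isCharacter_of_isIrr hψ)
  obtain ⟨m, hm⟩ := exists_nat_sum_subgroup (isCharacter_of_isIrr hψ) Z
  rw [← Finset.add_sum_erase _ _ (show (1 : G) ∈ Finset.univ.filter (· ∈ Z) by simp),
    Finset.sum_congr rfl (g := fun _ => ψ z) fun x hx => by
      obtain ⟨hx1, hxZ⟩ := Finset.mem_erase.mp hx
      exact hconst x (Finset.mem_filter.mp hxZ).2 z hz hx1 hz1, Finset.sum_const, nsmul_eq_mul, hd₀] at hm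
  set t := ((Finset.univ.filter (· ∈ Z)).erase (1 : G)).card with ht
  have ht0 : 0 < t := Finset.card_pos.mpr ⟨z, Finset.mem_erase.mpr ⟨hz1, by simp [hz]⟩⟩
  have ht0' : (t : ℂ) ≠ 0 := Nat.cast_ne_zero.mpr ht0.ne'
  have hrat : ψ z = ((((Nat.card Z : ℚ) * m - d₀) / t : ℚ) : ℂ) := by
    push_cast
    rw [eq_div_iff ht0']
    linear_combination hm
  obtain ⟨n, hn⟩ := exists_int_of_isIntegral (q := ((Nat.card Z : ℚ) * m - d₀) / t)
    (hrat ▸ char_isIntegral (isCharacter_of_isIrr hψ) z)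
  have hzn : ψ z = (n : ℂ) := by rw [hrat, hn, Rat.cast_intCast]
  refine ⟨n, d₀, hzn, by rw [hd₀]; norm_cast, ?_⟩
  have hcf := isClassFunction_of_isIrr hψ
  have hzv : ∀ x ∈ Z, x ≠ 1 → ψ x = ψ z := fun x hx hx1 => hconst x hx z hz hx1 hz1
  -- the conjugates of `z` in `P`
  have hzP : ∀ x : G, IsConj x z → x ∈ (P : Subgroup G) → x ∈ Z ∧ x ≠ 1 ∧
      ∃ g ∈ L, g * x * g⁻¹ = z := by
    intro x hx hxP
    obtain ⟨g, hg⟩ := isConj_iff.mp hx
    have hx1 : x ≠ 1 := fun h => hz1 (by rw [← hg, h]; group)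
    have hgL : g ∈ L := hti g x hxP hx1 (hg ▸ hZP hz)
    refine ⟨?_, hx1, g, hgL, hg⟩
    have := hZn g⁻¹ (L.inv_mem hgL) z hz
    rw [← hg] at this
    simpa [mul_assoc] using this
  have hinvne : ∀ x y : G, IsConj x z → IsConj y z → x ∈ (P : Subgroup G) → y ∈ (P : Subgroup G) →
      x * y ≠ 1 := by
    intro x y hx hy hxP hyP h
    obtain ⟨-, hx1, g, hgL, hg⟩ := hzP x hx hxP
    obtain ⟨-, -, g', hgL', hg'⟩ := hzP y hy hyP
    have hyx : y = x⁻¹ := eq_inv_of_mul_eq_one_right h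
    have hxL : x ∈ L := Subgroup.le_normalizer hxP
    have hc : IsConj (⟨x, hxL⟩ : L) (⟨x, hxL⟩ : L)⁻¹ := by
      refine isConj_iff.mpr ⟨⟨g'⁻¹ * g, L.mul_mem (L.inv_mem hgL') hgL⟩, Subtype.ext ?_⟩
      show g'⁻¹ * g * x * (g'⁻¹ * g)⁻¹ = x⁻¹
      rw [← hyx]
      calc g'⁻¹ * g * x * (g'⁻¹ * g)⁻¹ = g'⁻¹ * (g * x * g⁻¹) * g' := by group
        _ = y := by rw [hg, ← hg']; group
    exact hx1 (congrArg Subtype.val (eq_one_of_isConj_inv hodd hc))
  -- the subgroup `P` moves the conjugates of `z` outside `P` freely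
  have hfree : ∀ x : G, IsConj x z → x ∉ (P : Subgroup G) → ∀ w ∈ (P : Subgroup G),
      w * x * w⁻¹ = x → w = 1 := by
    intro x hx hxP w hw hwx
    by_contra hw1
    have hcomm : x * w * x⁻¹ = w := by
      rw [mul_inv_eq_iff_eq_mul, eq_comm, ← mul_inv_eq_iff_eq_mul]; exact hwx
    have hxL : x ∈ L := hti x w hw hw1 (by rw [hcomm]; exact hw)
    obtain ⟨g, hg⟩ := isConj_iff.mp hx
    have hxp : IsPGroup p (Subgroup.zpowers x) := by
      obtain ⟨k, hk⟩ := IsPGroup.iff_orderOf.mp P.2 ⟨z, hZP hz⟩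
      refine IsPGroup.of_card (n := k) ?_
      rw [Nat.card_zpowers, ← hk, Subgroup.orderOf_mk, ← hg]
      exact (orderOf_injective (MulAut.conj g).toMonoidHom (MulEquiv.injective _) x).symm
    have hsup := hxp.to_sup_of_normal_right' P.2 (by
      rw [Subgroup.zpowers_le]; exact hxL)
    have := P.3 hsup le_sup_right
    exact hxP (this ▸ Subgroup.mem_sup_left (Subgroup.mem_zpowers x))
  let IN : G × G → Prop := fun q => IsConj q.1 z ∧ IsConj q.2 z ∧
    ¬ (q.1 ∈ (P : Subgroup G) ∧ q.2 ∈ (P : Subgroup G))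
  have hconj : ∀ (w : (P : Subgroup G)) (x : G), IsConj x z → IsConj ((w : G) * x * (w : G)⁻¹) z :=
    fun w x hx => ((isConj_iff.mpr ⟨(w : G), rfl⟩ : IsConj x ((w : G) * x * (w : G)⁻¹)).symm).trans hx
  have hmemP : ∀ (w : (P : Subgroup G)) (x : G),
      (w : G) * x * (w : G)⁻¹ ∈ (P : Subgroup G) ↔ x ∈ (P : Subgroup G) := fun w x => by
    constructor
    · intro h
      have := (P : Subgroup G).mul_mem ((P : Subgroup G).mul_mem ((P : Subgroup G).inv_mem w.2) h) w.2
      simpa [mul_assoc] using this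
    · intro h
      exact (P : Subgroup G).mul_mem ((P : Subgroup G).mul_mem w.2 h) ((P : Subgroup G).inv_mem w.2)
  letI act' : MulAction (P : Subgroup G) {q : G × G // IN q} :=
    { smul := fun w q => ⟨((w : G) * q.1.1 * (w : G)⁻¹, (w : G) * q.1.2 * (w : G)⁻¹), hconj w _ q.2.1, hconj w _ q.2.2.1, fun h => q.2.2.2
        ⟨(hmemP w _).mp h.1, (hmemP w _).mp h.2⟩⟩
      one_smul := fun q => by
        apply Subtype.ext
        apply Prod.ext
        · show ((1 : (P : Subgroup G)) : G) * q.1.1 * ((1 : (P : Subgroup G)) : G)⁻¹ = q.1.1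
          simp
        · show ((1 : (P : Subgroup G)) : G) * q.1.2 * ((1 : (P : Subgroup G)) : G)⁻¹ = q.1.2
          simp
      mul_smul := fun v w q => by
        apply Subtype.ext
        apply Prod.ext
        · show ((v * w : (P : Subgroup G)) : G) * q.1.1 * ((v * w : (P : Subgroup G)) : G)⁻¹ =
            (v : G) * ((w : G) * q.1.1 * (w : G)⁻¹) * (v : G)⁻¹
          simp [mul_assoc]
        · show ((v * w : (P : Subgroup G)) : G) * q.1.2 * ((v * w : (P : Subgroup G)) : G)⁻¹ =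
            (v : G) * ((w : G) * q.1.2 * (w : G)⁻¹) * (v : G)⁻¹
          simp [mul_assoc] }
  have key : ∀ F : G × G → ℂ, (∀ (w : (P : Subgroup G)) (q : G × G),
      F ((w : G) * q.1 * (w : G)⁻¹, (w : G) * q.2 * (w : G)⁻¹) = F q) →
      (∀ q, IsIntegral ℤ (F q)) →
      IsIntegral ℤ ((∑ q ∈ Finset.univ.filter IN, F q) / (Nat.card (P : Subgroup G) : ℂ)) := by
    intro F hF hint
    rw [← Finset.sum_subtype_eq_sum_filter]
    rw [Finset.subtype_univ]
    refine isIntegral_sum_free (fun w q hq => ?_) (fun q : {q : G × G // IN q} => F q.1) (fun w q => hF w q.1) fun q => hint _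
    have h1 : (w : G) * q.1.1 * (w : G)⁻¹ = q.1.1 := congrArg (fun r => r.1.1) hq
    have h2 : (w : G) * q.1.2 * (w : G)⁻¹ = q.1.2 := congrArg (fun r => r.1.2) hq
    by_cases hp : q.1.1 ∈ (P : Subgroup G)
    · exact Subtype.ext (hfree _ q.2.2.1 (fun h => q.2.2.2 ⟨hp, h⟩) w w.2 h2)
    · exact Subtype.ext (hfree _ q.2.1 hp w w.2 h1)
  -- the two class products
  let F : G × G → ℂ := fun q => ψ (q.1 * q.2) - ψ (q.1 * q.2⁻¹)
  have hFinv : ∀ (w : (P : Subgroup G)) (q : G × G),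
      F ((w : G) * q.1 * (w : G)⁻¹, (w : G) * q.2 * (w : G)⁻¹) = F q := by
    intro w q
    show ψ ((w : G) * q.1 * (w : G)⁻¹ * ((w : G) * q.2 * (w : G)⁻¹)) -
      ψ ((w : G) * q.1 * (w : G)⁻¹ * ((w : G) * q.2 * (w : G)⁻¹)⁻¹) = _
    rw [show (w : G) * q.1 * (w : G)⁻¹ * ((w : G) * q.2 * (w : G)⁻¹) =
        (w : G) * (q.1 * q.2) * (w : G)⁻¹ by group,
      show (w : G) * q.1 * (w : G)⁻¹ * ((w : G) * q.2 * (w : G)⁻¹)⁻¹ =
        (w : G) * (q.1 * q.2⁻¹) * (w : G)⁻¹ by group, hcf, hcf]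
  have hFint : ∀ q, IsIntegral ℤ (F q) := fun q =>
    (char_isIntegral (isCharacter_of_isIrr hψ) _).sub (char_isIntegral (isCharacter_of_isIrr hψ) _)
  let S := Finset.univ.filter fun q : G × G => IsConj q.1 z ∧ IsConj q.2 z
  have htot : ∑ q ∈ S, F q = 0 := by
    have e1 : ∑ q ∈ S, ψ (q.1 * q.2) =
        ∑ x : G, ∑ y : G, classInd z x * classInd z y * ψ (x * y) := by
      rw [Finset.sum_filter, Fintype.sum_prod_type]
      refine Finset.sum_congr rfl fun x _ => Finset.sum_congr rfl fun y _ => ?_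
      by_cases h1 : IsConj x z <;> by_cases h2 : IsConj y z <;>
        simp only [classInd, h1, h2, and_self, and_false, false_and, and_true, if_true, if_false,
          one_mul, mul_one, mul_zero, zero_mul]
    have e2 : ∑ q ∈ S, ψ (q.1 * q.2⁻¹) =
        ∑ x : G, ∑ y : G, classInd z x * classInd z⁻¹ y * ψ (x * y) := by
      rw [Finset.sum_filter, Fintype.sum_prod_type]
      refine Finset.sum_congr rfl fun x _ => Fintype.sum_equiv (Equiv.inv G) _ _ fun y => ?_
      have hiff : IsConj y⁻¹ z⁻¹ ↔ IsConj y z :=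
        ⟨fun h => by simpa using isConj_map_inv h, isConj_map_inv⟩
      rw [Equiv.inv_apply]
      by_cases h1 : IsConj x z <;> by_cases h2 : IsConj y z <;>
        simp only [classInd, h1, h2, hiff, and_self, and_false, false_and, and_true, if_true, if_false,
          one_mul, mul_one, mul_zero, zero_mul]
    rw [Finset.sum_sub_distrib, e1, e2, sum_classes_mul hψ, sum_classes_mul hψ,
      show ψ z⁻¹ = ψ z by
        rw [char_inv (isCharacter_of_isIrr hψ), hzn]; simp,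
      show Subgroup.centralizer ({z⁻¹} : Set G) = Subgroup.centralizer ({z} : Set G) by
        ext c
        rw [Subgroup.mem_centralizer_singleton_iff, Subgroup.mem_centralizer_singleton_iff]
        exact ⟨fun h => (Commute.inv_right_iff.mp h), fun h => Commute.inv_right h⟩, sub_self]
  let O := Finset.univ.filter fun x : G => IsConj x z ∧ x ∈ (P : Subgroup G)
  have hPP : ∑ q ∈ O ×ˢ O, F q = (O.card : ℂ) * ((n : ℂ) - (d₀ : ℂ)) := by
    rw [Finset.sum_product, Finset.sum_congr rfl (g := fun _ => ((n : ℂ) - (d₀ : ℂ))) fun x hx => ?_]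
    · rw [Finset.sum_const, nsmul_eq_mul]
    obtain ⟨hxc, hxP⟩ := (Finset.mem_filter.mp hx).2
    have hxZ := (hzP x hxc hxP).1
    rw [Finset.sum_eq_single x]
    · show ψ (x * x) - ψ (x * x⁻¹) = _
      rw [mul_inv_cancel, hd₀, hzv _ (Z.mul_mem hxZ hxZ) (hinvne x x hxc hxc hxP hxP), hzn]
    · intro y hy hyx
      obtain ⟨hyc, hyP⟩ := (Finset.mem_filter.mp hy).2
      have hyZ := (hzP y hyc hyP).1
      show ψ (x * y) - ψ (x * y⁻¹) = 0
      rw [hzv _ (Z.mul_mem hxZ hyZ) (hinvne x y hxc hyc hxP hyP),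
        hzv _ (Z.mul_mem hxZ (Z.inv_mem hyZ)) (fun h => hyx (mul_inv_eq_one.mp h).symm), sub_self]
    · exact fun h => absurd hx h
  have hsplit : ∀ F' : G × G → ℂ,
      ∑ q ∈ S, F' q = ∑ q ∈ O ×ˢ O, F' q + ∑ q ∈ Finset.univ.filter IN, F' q := by
    intro F'
    rw [← Finset.sum_union]
    · refine Finset.sum_congr ?_ fun _ _ => rfl
      ext q
      simp only [S, O, IN, Finset.mem_union, Finset.mem_product, Finset.mem_filter, Finset.mem_univ,
        true_and]
      tauto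
    · refine Finset.disjoint_left.mpr fun q hq hq' => (Finset.mem_filter.mp hq').2.2.2 ?_
      obtain ⟨h1, h2⟩ := Finset.mem_product.mp hq
      exact ⟨(Finset.mem_filter.mp h1).2.2, (Finset.mem_filter.mp h2).2.2⟩
  have hI1 : IsIntegral ℤ (((O.card : ℂ) * ((d₀ : ℂ) - n)) / (Nat.card (P : Subgroup G) : ℂ)) := by
    have h := hsplit F
    rw [htot, hPP] at h
    rw [show ((O.card : ℂ) * ((d₀ : ℂ) - n)) = ∑ q ∈ Finset.univ.filter IN, F q by linear_combination h]
    exact key F hFinv hFint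
  obtain ⟨r, hr⟩ := exists_int_of_isIntegral
    (q := ((O.card : ℚ) * ((d₀ : ℚ) - n)) / (Nat.card (P : Subgroup G) : ℚ)) (by push_cast; exact hI1)
  rw [div_eq_iff (Nat.cast_ne_zero.mpr Nat.card_pos.ne')] at hr
  have hdvd : (Nat.card (P : Subgroup G) : ℤ) ∣ (O.card : ℤ) * ((d₀ : ℤ) - n) :=
    ⟨r, by rw [mul_comm _ r]; exact_mod_cast hr⟩
  -- the number of conjugates of `z` in `P` is prime to `p`
  refine IsCoprime.dvd_of_dvd_mul_left ?_ hdvd
  rw [Int.isCoprime_iff_nat_coprime, Int.natAbs_natCast, Int.natAbs_natCast]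
  obtain ⟨k, hk⟩ := IsPGroup.iff_card.mp P.2
  rw [hk]
  refine Nat.Coprime.pow_left _ ((Nat.Prime.coprime_iff_not_dvd Fact.out).mpr fun hpO => ?_)
  have hI2 := key (fun _ => 1) (fun _ _ => rfl) (fun _ => isIntegral_one)
  have hS := hsplit fun _ => 1
  simp only [Finset.sum_const, Finset.card_product, nsmul_eq_mul, mul_one, Nat.cast_mul] at hI2 hS
  obtain ⟨u, hu⟩ := exists_int_of_isIntegral
    (q := ((Finset.univ.filter IN).card : ℚ) / (Nat.card (P : Subgroup G) : ℚ)) (by push_cast; exact hI2)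
  rw [div_eq_iff (Nat.cast_ne_zero.mpr Nat.card_pos.ne')] at hu
  have hScard : S.card = (Subgroup.centralizer ({z} : Set G)).index ^ 2 := by
    rw [sq, ← card_conjClass_eq_index z, ← Finset.card_product]
    congr 1
    ext q
    simp [S]
  have hS' : S.card = O.card * O.card + (Finset.univ.filter IN).card := by exact_mod_cast hS
  have hPC : (P : Subgroup G) ≤ Subgroup.centralizer ({z} : Set G) := fun y hy =>
    Subgroup.mem_centralizer_singleton_iff.mpr (hZc z hz y hy).symm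
  have hnd : ¬ p ∣ (Subgroup.centralizer ({z} : Set G)).index := fun h =>
    P.not_dvd_index (h.trans (Subgroup.index_dvd_of_le hPC))
  have hkpos : p ∣ Nat.card (P : Subgroup G) := by
    obtain ⟨j, hj⟩ := IsPGroup.iff_orderOf.mp P.2 ⟨z, hZP hz⟩
    have hj0 : j ≠ 0 := fun h => by
      rw [h, pow_zero, orderOf_eq_one_iff] at hj
      exact hz1 (congrArg Subtype.val hj)
    exact (dvd_pow_self p hj0).trans (hj ▸ orderOf_dvd_natCard _)
  have hpIN : (p : ℤ) ∣ ((Finset.univ.filter IN).card : ℤ) := by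
    have h : ((Finset.univ.filter IN).card : ℤ) = u * (Nat.card (P : Subgroup G) : ℤ) := by
      exact_mod_cast hu
    rw [h]
    exact (Int.natCast_dvd_natCast.mpr hkpos).mul_left u
  refine hnd ((Fact.out : p.Prime).dvd_of_dvd_pow (n := 2) ?_)
  rw [← hScard, hS']
  exact Nat.dvd_add (hpO.mul_left _) (Int.natCast_dvd_natCast.mp hpIN)

end Cfsg.Agent.S1523
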