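import Cfsg.Statements.S5979
import Cfsg.Agent.Lib.Elusive.Involution

set_option autoImplicit false
open scoped MatrixGroups
open Cfsg
open Cfsg.Agent.Lib.Elusive
open scoped Kronecker Matrix

namespace Cfsg.Agent.S5979

section
open Module Cfsg.Agent.Lib.Elusive
open scoped Kronecker Matrix

variable {F : Type*} [Field F] {n a b : ℕ}

theorem kron_mulVec (A : Matrix (Fin a) (Fin a) F) (B : Matrix (Fin b) (Fin b) F) (u : Fin a → F) (w : Fin b → F)
    (i : Fin a) (j : Fin b) :
    (A ⊗ₖ B) *ᵥ (fun z => u z.1 * w z.2) |> fun V => V (i, j) = (A *ᵥ u) i * (B *ᵥ w) j := by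
  simp only [Matrix.mulVec, dotProduct, Finset.sum_mul_sum, Fintype.sum_prod_type, Matrix.kronecker_apply]
  exact Finset.sum_congr rfl fun k _ => Finset.sum_congr rfl fun l _ => by ring

theorem kron_pow (A : Matrix (Fin a) (Fin a) F) (B : Matrix (Fin b) (Fin b) F) (k : ℕ) :
    (A ⊗ₖ B) ^ k = (A ^ k) ⊗ₖ (B ^ k) := by
  induction k with
  | zero => simp
  | succ k ih => rw [pow_succ, ih, pow_succ, pow_succ, ← Matrix.mul_kronecker_mul]

theorem pow_conj {V W : Type*} [AddCommGroup V] [Module F V] [AddCommGroup W] [Module F W] {X : Module.End F V}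
    {Y : Module.End F W} {T : V ≃ₗ[F] W} (hT : ∀ v, T (X v) = Y (T v)) (k : ℕ) (v : V) :
    T ((X ^ k) v) = (Y ^ k) (T v) := by
  induction k generalizing v with
  | zero => rfl
  | succ k ih => rw [pow_succ, Module.End.mul_apply, ih, hT, pow_succ, Module.End.mul_apply]

theorem ker_conj_eq {V W : Type*} [AddCommGroup V] [Module F V] [AddCommGroup W] [Module F W] {X : Module.End F V}
    {Y : Module.End F W} {T : V ≃ₗ[F] W} (hT : ∀ v, T (X v) = Y (T v)) (z : F) :
    finrank F (LinearMap.ker (X - z • LinearMap.id)) = finrank F (LinearMap.ker (Y - z • LinearMap.id)) := by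
  rw [← finrank_ker_conj T (X - z • LinearMap.id),
    show T.conj (X - z • LinearMap.id) = Y - z • LinearMap.id from
      LinearMap.ext fun w => by simp [LinearEquiv.conj_apply, hT]]

/-- Coordinates for a conjugate of a reindexed matrix. -/
theorem exists_coords (e : Fin n ≃ Fin a × Fin b) (Q : GL (Fin n) F) (k : GL (Fin a × Fin b) F) :
    ∃ T : (Fin n → F) ≃ₗ[F] (Fin a × Fin b → F), ∀ v,
      T (Matrix.toLin' ((Q * Cfsg.Geo.glReindex e.symm k * Q⁻¹ : GL (Fin n) F) : Matrix (Fin n) (Fin n) F) v) =
        Matrix.toLin' (k : Matrix (Fin a × Fin b) (Fin a × Fin b) F) (T v) := by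
  let L : (Fin n → F) ≃ₗ[F] (Fin n → F) :=
    { Matrix.toLin' ((Q⁻¹ : GL (Fin n) F) : Matrix (Fin n) (Fin n) F) with
      invFun := fun v => (Q : Matrix (Fin n) (Fin n) F) *ᵥ v
      left_inv := fun v => by simp [Matrix.mulVec_mulVec]
      right_inv := fun v => by simp [Matrix.mulVec_mulVec] }
  refine ⟨L.trans (LinearEquiv.funCongrLeft F F e.symm), fun v => ?_⟩
  have hx : ((Q⁻¹ : GL (Fin n) F) : Matrix (Fin n) (Fin n) F) *
      ((Q * Cfsg.Geo.glReindex e.symm k * Q⁻¹ : GL (Fin n) F) : Matrix (Fin n) (Fin n) F) =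
      (k : Matrix (Fin a × Fin b) (Fin a × Fin b) F).submatrix e e * ((Q⁻¹ : GL (Fin n) F) : Matrix (Fin n) (Fin n) F) := by
    rw [← Units.val_mul, show Q⁻¹ * (Q * Cfsg.Geo.glReindex e.symm k * Q⁻¹) = Cfsg.Geo.glReindex e.symm k * Q⁻¹ by group,
      Units.val_mul]
    rfl
  show LinearEquiv.funCongrLeft F F e.symm (((Q⁻¹ : GL (Fin n) F) : Matrix (Fin n) (Fin n) F) *ᵥ
    (((Q * Cfsg.Geo.glReindex e.symm k * Q⁻¹ : GL (Fin n) F) : Matrix (Fin n) (Fin n) F) *ᵥ v)) = _
  rw [Matrix.mulVec_mulVec, hx, ← Matrix.mulVec_mulVec, Matrix.submatrix_mulVec_equiv]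
  funext z
  simp [LinearEquiv.funCongrLeft_apply, LinearMap.funLeft_apply, L, Matrix.toLin'_apply]
  rfl

/-- A conjugate of a Kronecker product, seen in coordinates. -/
theorem exists_kron {x : GL (Fin n) F} {e : Fin n ≃ Fin a × Fin b} {P g : GL (Fin n) F}
    (h : g⁻¹ * x * g ∈ Cfsg.Geo.tensorProductSubgroup a b e P) :
    ∃ (A : Matrix (Fin a) (Fin a) F) (B : Matrix (Fin b) (Fin b) F) (T : (Fin n → F) ≃ₗ[F] (Fin a × Fin b → F)),
      ∀ v, T (Matrix.toLin' (x : Matrix (Fin n) (Fin n) F) v) = Matrix.toLin' (A ⊗ₖ B) (T v) := by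
  obtain ⟨_, ⟨k, ⟨A, B, hk⟩, rfl⟩, hP⟩ := h
  obtain ⟨T, hT⟩ := exists_coords e (g * P) k
  have h2 : P * Cfsg.Geo.glReindex e.symm k * P⁻¹ = g⁻¹ * x * g := hP
  have hx : g * P * Cfsg.Geo.glReindex e.symm k * (g * P)⁻¹ = x := by
    rw [show g * P * Cfsg.Geo.glReindex e.symm k * (g * P)⁻¹ = g * (P * Cfsg.Geo.glReindex e.symm k * P⁻¹) * g⁻¹ by group,
      h2]
    group
  rw [hx, hk] at hT
  exact ⟨A, B, T, hT⟩

/-- Small moved space: the first factor is scalar. -/
theorem scalar_of_fixed {A : Matrix (Fin a) (Fin a) F} {B : Matrix (Fin b) (Fin b) F} {z : F} (hz : z ≠ 0)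
    {c : ℕ} (hc : finrank F (LinearMap.ker (Matrix.toLin' (A ⊗ₖ B) - z • LinearMap.id)) + c = a * b)
    (hcb : c < b) : ∃ α : F, A = α • (1 : Matrix (Fin a) (Fin a) F) := by
  classical
  set W := LinearMap.ker (Matrix.toLin' (A ⊗ₖ B) - z • LinearMap.id)
  have key : ∀ u : Fin a → F, u ≠ 0 → ∃ s : F, A *ᵥ u = s • u := by
    intro u hu
    let L : (Fin b → F) →ₗ[F] (Fin a × Fin b → F) :=
      { toFun := fun w z => u z.1 * w z.2
        map_add' := fun w w' => funext fun z => mul_add _ _ _
        map_smul' := fun s w => funext fun z => by simp [mul_left_comm] }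
    obtain ⟨i₀, hi₀⟩ := Function.ne_iff.1 hu
    have hinj : Function.Injective L := fun w w' h => funext fun j =>
      mul_left_cancel₀ hi₀ (congrFun h (i₀, j))
    have hne : LinearMap.range L ⊓ W ≠ ⊥ := fun hb => by
      have h1 := Submodule.finrank_sup_add_finrank_inf_eq (LinearMap.range L) W
      rw [hb, finrank_bot, add_zero, LinearMap.finrank_range_of_inj hinj, finrank_fin_fun] at h1
      have h2 := Submodule.finrank_le (LinearMap.range L ⊔ W)
      rw [Module.finrank_pi, Fintype.card_prod, Fintype.card_fin, Fintype.card_fin] at h2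
      omega
    obtain ⟨_, ⟨⟨w, rfl⟩, hw⟩, hw0⟩ := Submodule.exists_mem_ne_zero_of_ne_bot hne
    have heq : ∀ i j, (A *ᵥ u) i * (B *ᵥ w) j = z * (u i * w j) := fun i j => by
      have h1 := LinearMap.mem_ker.1 hw
      rw [LinearMap.sub_apply, sub_eq_zero] at h1
      have h' := congrFun h1 (i, j)
      rw [Matrix.toLin'_apply] at h'
      exact (kron_mulVec A B u w i j).symm.trans h'
    obtain ⟨j, hj⟩ : ∃ j, w j ≠ 0 := Function.ne_iff.1 fun h => hw0 (by rw [show w = 0 from h, map_zero])
    have hBj : (B *ᵥ w) j ≠ 0 := fun h => by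
      have := heq i₀ j
      rw [h, mul_zero] at this
      exact mul_ne_zero hz (mul_ne_zero hi₀ hj) this.symm
    exact ⟨z * w j / (B *ᵥ w) j, funext fun i => by
      rw [Pi.smul_apply, smul_eq_mul, div_mul_eq_mul_div, eq_div_iff hBj, heq i j]; ring⟩
  obtain ⟨α, hα⟩ := LinearMap.exists_eq_smul_id_of_forall_notLinearIndependent (f := Matrix.toLin' A) fun u => by
    rw [LinearIndependent.pair_iff]
    push Not
    rcases eq_or_ne u 0 with rfl | hu
    · exact ⟨1, 0, by simp, by simp⟩
    · obtain ⟨s, hs⟩ := key u hu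
      exact ⟨s, -1, by rw [Matrix.toLin'_apply, hs]; simp, by simp⟩
  exact ⟨α, Matrix.toLin'.injective (by rw [hα, map_smul, Matrix.toLin'_one]; rfl)⟩

/-- With a scalar first factor all eigenspace dimensions are multiples of the first degree. -/
theorem finrank_scalar (B : Matrix (Fin b) (Fin b) F) (α z : F) :
    finrank F (LinearMap.ker (Matrix.toLin' ((α • (1 : Matrix (Fin a) (Fin a) F)) ⊗ₖ B) - z • LinearMap.id)) =
      a * finrank F (LinearMap.ker (α • Matrix.toLin' B - z • LinearMap.id)) := by
  classical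
  have h := ker_conj_eq (X := Matrix.toLin' ((α • (1 : Matrix (Fin a) (Fin a) F)) ⊗ₖ B))
    (Y := blockMap fun _ : Fin a => α • Matrix.toLin' B) (T := LinearEquiv.curry F F (Fin a) (Fin b))
    (fun v => funext fun i => funext fun j => by
      simp [blockMap_apply, Matrix.mulVec, dotProduct, Fintype.sum_prod_type, Matrix.one_apply,
        LinearEquiv.coe_curry, Function.curry, Finset.mul_sum, mul_assoc]) z
  rw [h, show blockMap (fun _ : Fin a => α • Matrix.toLin' B) - z • LinearMap.id =
      blockMap fun _ : Fin a => α • Matrix.toLin' B - z • LinearMap.id from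
    LinearMap.ext fun v => funext fun k => by simp [blockMap_apply], finrank_ker_blockMap]
  simp

theorem not_dvd_of_fixed {A : Matrix (Fin a) (Fin a) F} {B : Matrix (Fin b) (Fin b) F} {z : F} (hz : z ≠ 0)
    {c : ℕ} (hc : finrank F (LinearMap.ker (Matrix.toLin' (A ⊗ₖ B) - z • LinearMap.id)) + c = a * b)
    (hcb : c < b) : a ∣ c := by
  obtain ⟨α, rfl⟩ := scalar_of_fixed hz hc hcb
  rw [finrank_scalar] at hc
  exact (Nat.dvd_add_right ⟨_, rfl⟩).1 (hc ▸ dvd_mul_right a b)

theorem diag_fixed (d : Fin n → F) (z : F) [DecidableEq F] :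
    finrank F (LinearMap.ker (Matrix.toLin' (Matrix.diagonal d) - z • LinearMap.id)) +
      Fintype.card {i : Fin n // d i - z ≠ 0} = n := by
  classical
  have hsub : Matrix.toLin' (Matrix.diagonal d) - z • LinearMap.id = Matrix.toLin' (Matrix.diagonal fun i => d i - z) := by
    rw [← Matrix.diagonal_sub, map_sub, ← Matrix.smul_one_eq_diagonal, map_smul, Matrix.toLin'_one]
  have h := LinearMap.finrank_range_add_finrank_ker (Matrix.toLin' (Matrix.diagonal fun i => d i - z))
  rw [finrank_fin_fun] at h
  have hr := Matrix.rank_diagonal (fun i : Fin n => d i - z)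
  have hr' : finrank F (LinearMap.range (Matrix.toLin' (Matrix.diagonal fun i => d i - z))) =
      Fintype.card {i : Fin n // d i - z ≠ 0} := hr
  rw [hsub]
  omega

/-- An element of order `r` of small moved space has no conjugate of tensor form. -/
theorem pow_case [Fintype F] {p : ℕ} [Fact p.Prime] [CharP F p] {r : ℕ} [Fact r.Prime] (hrp : r ≠ p)
    (hi : 2 ≤ orderOf (Fintype.card F : ZMod r)) (ha : 2 ≤ a) (hlt : a < b)
    {A : Matrix (Fin a) (Fin a) F} {B : Matrix (Fin b) (Fin b) F}
    (hpow : (A ⊗ₖ B) ^ r = 1)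
    (hc : finrank F (LinearMap.ker (Matrix.toLin' (A ⊗ₖ B) - (1 : F) • LinearMap.id)) +
      orderOf (Fintype.card F : ZMod r) = a * b) : False := by
  classical
  set i := orderOf (Fintype.card F : ZMod r) with hidef
  have hndvd : ¬ r ∣ Fintype.card F - 1 := fun h => by
    rw [dvd_card_sub_one_iff] at h; omega
  rw [kron_pow] at hpow
  have hentry : ∀ i k j l, (A ^ r) i k * (B ^ r) j l = if i = k ∧ j = l then 1 else 0 := fun i k j l => by
    have := congrFun (congrFun hpow (i, j)) (k, l)
    simpa [Matrix.one_apply, Prod.ext_iff] using this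
  obtain ⟨α, hA⟩ : ∃ α : F, A = α • (1 : Matrix (Fin a) (Fin a) F) := by
    rcases lt_or_ge i b with hib | hib
    · exact scalar_of_fixed one_ne_zero hc hib
    let i₀ : Fin a := ⟨0, by omega⟩
    let j₀ : Fin b := ⟨0, by omega⟩
    have hAB : (A ^ r) i₀ i₀ * (B ^ r) j₀ j₀ = 1 := by simp [hentry]
    set c := (A ^ r) i₀ i₀
    have hc0 : c ≠ 0 := left_ne_zero_of_mul_eq_one hAB
    have hAr : A ^ r = c • (1 : Matrix (Fin a) (Fin a) F) := by
      ext i k
      refine mul_right_cancel₀ (right_ne_zero_of_mul_eq_one hAB) ?_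
      rw [hentry, Matrix.smul_apply, Matrix.one_apply]
      split_ifs <;> simp_all
    obtain ⟨l, hl, hlr⟩ := exists_root (r := r) hndvd hc0
    obtain ⟨R, hS⟩ := step_pow (r := r) (x := Matrix.toLin' A) hrp hl fun v => by
      rw [← Matrix.toLin'_pow, hAr, hlr, map_smul, Matrix.toLin'_one]; rfl
    rw [Nat.card_eq_fintype_card, ← hidef] at hS
    by_cases hR : R = ⊥
    · refine ⟨l, Matrix.toLin'.injective ?_⟩
      have hker := hS.isCompl.sup_eq_top
      rw [hR, sup_bot_eq] at hker
      rw [map_smul, Matrix.toLin'_one]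
      exact sub_eq_zero.1 (LinearMap.ker_eq_top.1 hker)
    · exfalso
      have h1 := hS.dvd R hS.invR (by rw [inf_comm]; exact hS.isCompl.inf_eq_bot)
      have h2 := Nat.le_of_dvd (Nat.pos_of_ne_zero fun h => hR (Submodule.finrank_eq_zero.1 h)) h1
      have h3 := Submodule.finrank_le R
      rw [finrank_fin_fun] at h3
      omega
  subst hA
  rw [finrank_scalar] at hc
  set Y := α • Matrix.toLin' B with hY
  have hYr : ∀ v, (Y ^ r) v = (1 : F) ^ r • v := by
    have hαB : (α • B) ^ r = 1 := by
      ext j l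
      have := hentry ⟨0, by omega⟩ ⟨0, by omega⟩ j l
      simp only [smul_pow, one_pow, Matrix.smul_apply, Matrix.one_apply_eq, smul_eq_mul, mul_one] at this
      simpa [smul_pow, Matrix.one_apply] using this
    intro v
    rw [one_pow, one_smul, hY, ← map_smul, ← Matrix.toLin'_pow, hαB, Matrix.toLin'_one, LinearMap.id_apply]
  obtain ⟨R, hS⟩ := step_pow (r := r) hrp one_ne_zero hYr
  rw [Nat.card_eq_fintype_card, ← hidef] at hS
  have hsum := hS.finrank_add
  rw [finrank_fin_fun] at hsum
  obtain ⟨m, hm⟩ := hS.dvd R hS.invR (by rw [inf_comm]; exact hS.isCompl.inf_eq_bot)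
  rw [hm] at hsum
  have : a * b = a * finrank F (LinearMap.ker (Y - (1 : F) • LinearMap.id)) + a * (i * m) := by
    rw [← mul_add, hsum]
  have h2 : a * (i * m) = i := by omega
  rcases Nat.eq_zero_or_pos m with hm0 | hm0
  · rw [hm0, mul_zero, mul_zero] at h2; omega
  · have h3 : a * i ≤ a * (i * m) := Nat.mul_le_mul_left a (Nat.le_mul_of_pos_right i hm0)
    have h4 : 2 * i ≤ a * i := Nat.mul_le_mul_right i ha
    omega

theorem order_le_of_dvd [Fintype F] {p : ℕ} [Fact p.Prime] [CharP F p] {r : ℕ} [Fact r.Prime] (hrp : r ≠ p)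
    (hdvd : r ∣ Nat.card (GL (Fin n) F)) : orderOf (Fintype.card F : ZMod r) ≤ n := by
  rw [Matrix.card_GL_field] at hdvd
  obtain ⟨j, -, hj⟩ := ((Fact.out : r.Prime).prime.dvd_finsetProd_iff _).1 hdvd
  rw [show Fintype.card F ^ n - Fintype.card F ^ (j : ℕ) = Fintype.card F ^ (j : ℕ) * (Fintype.card F ^ (n - j) - 1) by
    rw [Nat.mul_sub, mul_one, ← pow_add, Nat.add_sub_cancel' j.2.le]] at hj
  rcases (Fact.out : r.Prime).dvd_mul.1 hj with h | h
  · obtain ⟨f, -, hf⟩ := FiniteField.card F p
    rw [hf, ← pow_mul] at h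
    exact absurd ((Nat.prime_dvd_prime_iff_eq Fact.out Fact.out).1 ((Fact.out : r.Prime).dvd_of_dvd_pow h)) hrp
  · have hj2 := j.2
    refine (Nat.le_of_dvd (by omega) (orderOf_dvd_of_pow_eq_one (n := n - (j : ℕ)) ?_)).trans (Nat.sub_le _ _)
    rw [← ZMod.natCast_eq_zero_iff, Nat.cast_sub (Nat.one_le_pow _ _ Fintype.card_pos), sub_eq_zero,
      Nat.cast_pow, Nat.cast_one] at h
    exact h

/-- Kronecker product of invertible matrices. -/
def kronGL (A : GL (Fin a) F) (B : GL (Fin b) F) : GL (Fin a × Fin b) F where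
  val := (A : Matrix (Fin a) (Fin a) F) ⊗ₖ (B : Matrix (Fin b) (Fin b) F)
  inv := ((A⁻¹ : GL (Fin a) F) : Matrix (Fin a) (Fin a) F) ⊗ₖ ((B⁻¹ : GL (Fin b) F) : Matrix (Fin b) (Fin b) F)
  val_inv := by rw [← Matrix.mul_kronecker_mul, Units.mul_inv, Units.mul_inv, Matrix.one_kronecker_one]
  inv_val := by rw [← Matrix.mul_kronecker_mul, Units.inv_mul, Units.inv_mul, Matrix.one_kronecker_one]

theorem kron_member (e : Fin n ≃ Fin a × Fin b) (P : GL (Fin n) F) (A : GL (Fin a) F) (B : GL (Fin b) F) :
    P * Cfsg.Geo.glReindex e.symm (kronGL A B) * P⁻¹ ∈ Cfsg.Geo.tensorProductSubgroup a b e P :=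
  ⟨_, ⟨kronGL A B, ⟨A, B, rfl⟩, rfl⟩, rfl⟩

theorem member_sq (e : Fin n ≃ Fin a × Fin b) (P : GL (Fin n) F) {A : GL (Fin a) F} {B : GL (Fin b) F} {c : F}
    (hA : ((A * A : GL (Fin a) F) : Matrix (Fin a) (Fin a) F) ⊗ₖ ((B * B : GL (Fin b) F) : Matrix (Fin b) (Fin b) F) = c • 1)
    (v : Fin n → F) :
    Matrix.toLin' ((P * Cfsg.Geo.glReindex e.symm (kronGL A B) * P⁻¹ : GL (Fin n) F) : Matrix (Fin n) (Fin n) F)
      (Matrix.toLin' ((P * Cfsg.Geo.glReindex e.symm (kronGL A B) * P⁻¹ : GL (Fin n) F) : Matrix (Fin n) (Fin n) F) v) = c • v := by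
  set R := Cfsg.Geo.glReindex e.symm (kronGL A B)
  rw [Matrix.toLin'_apply, Matrix.toLin'_apply, Matrix.mulVec_mulVec, ← Units.val_mul,
    show P * R * P⁻¹ * (P * R * P⁻¹) = P * (R * R) * P⁻¹ by group]
  have hR : ((R * R : GL (Fin n) F) : Matrix (Fin n) (Fin n) F) = c • 1 := by
    rw [← map_mul]
    show Matrix.reindexAlgEquiv F F e.symm ((kronGL A B * kronGL A B : GL (Fin a × Fin b) F) : Matrix (Fin a × Fin b) (Fin a × Fin b) F) = _
    rw [Units.val_mul]
    show Matrix.reindexAlgEquiv F F e.symm ((_ ⊗ₖ _) * (_ ⊗ₖ _)) = _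
    rw [← Matrix.mul_kronecker_mul, ← Units.val_mul, ← Units.val_mul, hA, map_smul, map_one]
  rw [Units.val_mul, Units.val_mul, hR, mul_smul_comm, smul_mul_assoc, mul_one, Units.mul_inv, Matrix.smul_mulVec,
    Matrix.one_mulVec]

end


/-- Elements of prime order of PSL_n(q) and the stabilizers of tensor decompositions with factors of different dimensions. Here `T = PSL_n(F)` for a field `F` with `q` elements and `n = a·b` with `2 ≤ a < b`; a tensor decomposition `F^n ≅ F^a ⊗ F^b` is given by a bijection `e` of index sets and a change of basis `P`, and `H` is the subgroup of matrices of determinant 1 in its stabilizer (the conjugate by `P` of the group of Kronecker products `g₁ ⊗ g₂`) — a subgroup of type GL_a(q) ⊗ GL_b(q) (maximality is not assumed); Ω is the set of cosets of `H` in `T`, so an element of `T` of prime order `r` (a matrix `x` of determinant 1 with `x^r` scalar, `x` not scalar) fixes a point of Ω exactly when some conjugate of `x` by a matrix of determinant 1 lies in `H`. Let `r` be a prime dividing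 the index of `H`. Then every element of `T` of order `r` fixes a point of Ω if and only if `r = 2`, `a = 2`, `q` is odd and `(q − 1)_2 ≤ (n)_2` (2-parts). -/
theorem result {F : Type*} [Field F] [Fintype F] {p : ℕ} [Fact p.Prime] [CharP F p] {q : ℕ} (hq : Fintype.card F = q)
    (n a b : ℕ) (hab : n = a * b) (ha : 2 ≤ a) (hlt : a < b) (e : Fin n ≃ Fin a × Fin b) (P : GL (Fin n) F)
    (r : ℕ) [Fact r.Prime]
    (hΩ : r ∣ (Cfsg.Geo.tensorProductSubgroup a b e P).relIndex (Cfsg.Geo.specialLinear (Fin n) F)) :
    (∀ x ∈ Cfsg.Geo.specialLinear (Fin n) F, (∃ z : F, ((x ^ r : GL (Fin n) F) : Matrix (Fin n) (Fin n) F) = z • (1 : Matrix (Fin n) (Fin n) F)) →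
      (∀ z : F, (x : Matrix (Fin n) (Fin n) F) ≠ z • (1 : Matrix (Fin n) (Fin n) F)) →
      ∃ g ∈ Cfsg.Geo.specialLinear (Fin n) F, g⁻¹ * x * g ∈ Cfsg.Geo.tensorProductSubgroup a b e P) ↔
    (r = 2 ∧ a = 2 ∧ Odd q ∧ padicValNat 2 (q - 1) ≤ padicValNat 2 n) := by
  classical

  subst hq
  have hr : r.Prime := Fact.out
  have hn6 : 6 ≤ n := by
    rw [hab]
    exact (show 6 = 2 * 3 from rfl).trans_le (Nat.mul_le_mul ha (by omega))
  constructor
  · intro h
    -- every choice of test element gives a Kronecker product with the same invariants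
    have test : ∀ (M : Matrix.SpecialLinearGroup (Fin n) F) (z : F),
        ((M ^ r : Matrix.SpecialLinearGroup (Fin n) F) : Matrix (Fin n) (Fin n) F) = z • (1 : Matrix (Fin n) (Fin n) F) →
        (∀ z : F, (M : Matrix (Fin n) (Fin n) F) ≠ z • (1 : Matrix (Fin n) (Fin n) F)) →
        ∃ (A : Matrix (Fin a) (Fin a) F) (B : Matrix (Fin b) (Fin b) F)
          (T : (Fin n → F) ≃ₗ[F] (Fin a × Fin b → F)),
          ∀ v, T (Matrix.toLin' (M : Matrix (Fin n) (Fin n) F) v) = Matrix.toLin' (Matrix.kronecker A B) (T v) := by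
      intro M z hz hns
      obtain ⟨g, -, hg⟩ := h (Matrix.SpecialLinearGroup.toGL M) (Units.ext M.det_coe)
        ⟨z, by rw [← map_pow]; exact hz⟩ hns
      exact exists_kron hg
    by_cases hrp : r = p
    · -- a transvection
      exfalso
      have hi : (⟨0, by omega⟩ : Fin n) ≠ ⟨1, by omega⟩ := by simp
      set i₀ : Fin n := ⟨0, by omega⟩
      set i₁ : Fin n := ⟨1, by omega⟩
      let M : Matrix.SpecialLinearGroup (Fin n) F :=
        ⟨Matrix.transvection i₀ i₁ 1, Matrix.det_transvection_of_ne _ _ hi _⟩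
      have hMpow : ∀ k : ℕ, ((M ^ k : Matrix.SpecialLinearGroup (Fin n) F) : Matrix (Fin n) (Fin n) F) =
          Matrix.transvection i₀ i₁ (k : F) := by
        intro k
        induction k with
        | zero => simp
        | succ k ih =>
          rw [pow_succ, Matrix.SpecialLinearGroup.coe_mul, ih, Nat.cast_succ]
          exact Matrix.transvection_mul_transvection_same _ _ hi _ _
      obtain ⟨A, B, T, hT⟩ := test M 1 (by
        rw [hMpow, hrp, CharP.cast_eq_zero, Matrix.transvection_zero, one_smul]) fun z hz => by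
        have := congrFun (congrFun hz i₀) i₁
        simp [M, Matrix.transvection, hi] at this
      have hfix : Module.finrank F (LinearMap.ker (Matrix.toLin' (M : Matrix (Fin n) (Fin n) F) - (1 : F) • LinearMap.id)) + 1 = n := by
        have hk : LinearMap.ker (Matrix.toLin' (M : Matrix (Fin n) (Fin n) F) - (1 : F) • LinearMap.id) =
            LinearMap.ker (LinearMap.proj i₁ : (Fin n → F) →ₗ[F] F) := by
          ext v
          simp only [M, LinearMap.mem_ker, LinearMap.sub_apply, one_smul, LinearMap.id_apply, Matrix.toLin'_apply,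
            Matrix.transvection, Matrix.add_mulVec, Matrix.one_mulVec, add_sub_cancel_left, LinearMap.proj_apply,
            Matrix.single_mulVec]
          constructor
          · intro hv
            simpa using congrFun hv i₀
          · intro hv
            funext j
            simp [hv, Function.update_apply]
        have hsum := LinearMap.finrank_range_add_finrank_ker (LinearMap.proj i₁ : (Fin n → F) →ₗ[F] F)
        rw [LinearMap.range_eq_top.2 (LinearMap.proj_surjective i₁), finrank_top, Module.finrank_self,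
          Module.finrank_fin_fun] at hsum
        rw [hk]; omega
      rw [ker_conj_eq hT] at hfix
      have := Nat.le_of_dvd one_pos (not_dvd_of_fixed one_ne_zero (hfix.trans hab) (by omega))
      omega
    by_cases hi1 : orderOf (Fintype.card F : ZMod r) = 1
    · have hdvd : r ∣ Fintype.card F - 1 := dvd_card_sub_one_iff.2 hi1
      set i₀ : Fin n := ⟨0, by omega⟩
      set i₁ : Fin n := ⟨1, by omega⟩
      have h01 : i₀ ≠ i₁ := by simp [i₀, i₁]
      -- diagonal test elements
      have diag : ∀ (d : Fin n → F) (c : F), ∏ i, d i = 1 → (∀ i, d i ^ r = c) → (∃ i j, d i ≠ d j) →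
          ∃ (A : Matrix (Fin a) (Fin a) F) (B : Matrix (Fin b) (Fin b) F), ∀ z : F,
            Module.finrank F (LinearMap.ker (Matrix.toLin' (Matrix.kronecker A B) - z • LinearMap.id)) +
              Fintype.card {i : Fin n // d i - z ≠ 0} = n := by
        intro d c hd hpow hne
        obtain ⟨A, B, T, hT⟩ := test ⟨Matrix.diagonal d, by rw [Matrix.det_diagonal, hd]⟩ c (by
            refine (Matrix.SpecialLinearGroup.coe_pow _ _).trans ?_
            show Matrix.diagonal d ^ r = _
            rw [Matrix.diagonal_pow, Matrix.smul_one_eq_diagonal]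
            exact congrArg Matrix.diagonal (funext hpow)) fun z hz => by
          obtain ⟨i, j, hij⟩ := hne
          refine hij ?_
          have e1 := congrFun (congrFun hz i) i
          have e2 := congrFun (congrFun hz j) j
          simp at e1 e2
          rw [e1, e2]
        exact ⟨A, B, fun z => by rw [← ker_conj_eq hT]; exact diag_fixed d z⟩
      have count : ∀ (d : Fin n → F) (z : F) (S : Finset (Fin n)), (∀ i, d i ≠ z ↔ i ∈ S) →
          Fintype.card {i : Fin n // d i - z ≠ 0} = S.card := fun d z S hS =>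
        Fintype.card_of_subtype S fun i => by rw [sub_ne_zero, hS]
      rcases eq_or_ne r 2 with hr2 | hr2
      · -- `r = 2`
        have h2 : (2 : F) ≠ 0 := by
          have := (CharP.cast_eq_zero_iff F p 2).not.2 fun hd => hrp (hr2.trans
            ((Nat.prime_dvd_prime_iff_eq Fact.out Nat.prime_two).1 hd).symm)
          exact_mod_cast this
        have hne1 : (-1 : F) ≠ 1 := fun e => h2 (by linear_combination -e)
        refine ⟨hr2, ?_, odd_card h2, ?_⟩
        · by_contra ha'
          let d : Fin n → F := fun i => if i = i₀ ∨ i = i₁ then -1 else 1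
          have hS : ∀ i, d i ≠ 1 ↔ i ∈ ({i₀, i₁} : Finset (Fin n)) := fun i => by
            simp only [d, Finset.mem_insert, Finset.mem_singleton]
            split_ifs with hi <;> simp [hi, hne1]
          have hd : ∏ i, d i = 1 := by
            rw [← Finset.prod_subset (Finset.subset_univ ({i₀, i₁} : Finset (Fin n))) fun i _ hi => by
              simp only [Finset.mem_insert, Finset.mem_singleton] at hi
              simp [d, hi], Finset.prod_pair h01]
            simp [d]
          obtain ⟨A, B, hAB⟩ := diag d 1 hd (fun i => by rw [hr2]; simp only [d]; split_ifs <;> ring)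
            ⟨i₀, ⟨2, by omega⟩, by simp [d, i₀, i₁, hne1]⟩
          have := hAB 1
          rw [count d 1 _ hS, Finset.card_pair h01] at this
          have := Nat.le_of_dvd two_pos (not_dvd_of_fixed one_ne_zero (this.trans hab) (by omega))
          omega
        · by_contra hv
          push Not at hv
          obtain ⟨l, hl, hln⟩ := exists_npow_neg_one h2 (show n ≠ 0 by omega) hv
          let d : Fin n → F := fun i => if i = i₀ then -l else l
          have hS : ∀ i, d i ≠ l ↔ i ∈ ({i₀} : Finset (Fin n)) := fun i => by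
            simp only [d, Finset.mem_singleton]
            split_ifs with hi
            · simp [hi]
              exact fun e => mul_ne_zero h2 hl (by linear_combination -e)
            · simp [hi]
          have hd : ∏ i, d i = 1 := by
            have hflip : ∏ i : Fin n, d i = (∏ _i : Fin n, l) * ∏ i : Fin n, (if i = i₀ then (-1 : F) else 1) := by
              rw [← Finset.prod_mul_distrib]
              exact Finset.prod_congr rfl fun i _ => by simp only [d]; split_ifs <;> ring
            rw [hflip, Fintype.prod_ite_eq', Finset.prod_const, Finset.card_univ, Fintype.card_fin, hln]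
            ring
          obtain ⟨A, B, hAB⟩ := diag d (l * l) hd (fun i => by rw [hr2]; simp only [d]; split_ifs <;> ring)
            ⟨i₀, i₁, by
              simp [d, h01.symm]
              exact fun e => mul_ne_zero h2 hl (by linear_combination -e)⟩
          have := hAB l
          rw [count d l _ hS, Finset.card_singleton] at this
          have := Nat.le_of_dvd one_pos (not_dvd_of_fixed hl (this.trans hab) (by omega))
          omega
      · -- odd `r` dividing `q - 1`
        exfalso
        obtain ⟨g, hg⟩ := exists_prime_orderOf_dvd_card' (G := Fˣ) r (by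
          rwa [Nat.card_units, Nat.card_eq_fintype_card])
        set w : F := ((g : Fˣ) : F) with hw
        have hw0 : w ≠ 0 := Units.ne_zero g
        have hwr : w ^ r = 1 := by rw [hw, ← Units.val_pow_eq_pow_val, ← hg, pow_orderOf_eq_one, Units.val_one]
        have hw1 : w ≠ 1 := fun e => by
          rw [show g = 1 from Units.ext e, orderOf_one] at hg
          exact hr.one_lt.ne hg
        have hww : w * w ≠ 1 := fun e => by
          have h' : orderOf g ∣ 2 := orderOf_dvd_of_pow_eq_one (Units.ext (by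
            rw [Units.val_pow_eq_pow_val, pow_two, Units.val_one]; exact e))
          rw [hg] at h'
          exact hr2 ((Nat.prime_dvd_prime_iff_eq hr Nat.prime_two).1 h')
        have hwi : w⁻¹ ≠ w := fun e => hww (by nth_rewrite 1 [← e]; exact inv_mul_cancel₀ hw0)
        let d : Fin n → F := fun i => if i = i₀ then w else if i = i₁ then w⁻¹ else 1
        have hS : ∀ i, d i ≠ 1 ↔ i ∈ ({i₀, i₁} : Finset (Fin n)) := fun i => by
          simp only [d, Finset.mem_insert, Finset.mem_singleton]
          split_ifs with hi hj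
          · simp [hi, hw1]
          · simp [hj, hw1]
          · simp [hi, hj]
        have hS' : ∀ i, d i ≠ w ↔ i ∈ (Finset.univ.erase i₀) := fun i => by
          simp only [d, Finset.mem_erase, Finset.mem_univ, and_true]
          split_ifs with hi hj
          · simp [hi]
          · simp [hi, hwi]
          · simp [hi, hw1.symm]
        have hd : ∏ i, d i = 1 := by
          rw [← Finset.prod_subset (Finset.subset_univ ({i₀, i₁} : Finset (Fin n))) fun i _ hi => by
            simp only [Finset.mem_insert, Finset.mem_singleton, not_or] at hi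
            simp [d, hi.1, hi.2], Finset.prod_pair h01]
          simp [d, h01.symm, hw0]
        obtain ⟨A, B, hAB⟩ := diag d 1 hd (fun i => by
          simp only [d]; split_ifs <;> simp [hwr]) ⟨i₀, i₁, by simp [d, h01.symm, Ne.symm hwi]⟩
        have e1 := hAB 1
        rw [count d 1 _ hS, Finset.card_pair h01] at e1
        obtain ⟨α, hα⟩ := scalar_of_fixed one_ne_zero (e1.trans hab) (by omega)
        have e2 := hAB w
        rw [count d w _ hS', Finset.card_erase_of_mem (Finset.mem_univ _), Finset.card_univ, Fintype.card_fin,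
          hα, show Matrix.kronecker (α • (1 : Matrix (Fin a) (Fin a) F)) B =
            Matrix.kroneckerMap (· * ·) (α • (1 : Matrix (Fin a) (Fin a) F)) B from rfl, finrank_scalar] at e2
        set k := Module.finrank F (LinearMap.ker (α • Matrix.toLin' B - w • LinearMap.id))
        have h1 : a * k = 1 := by omega
        have := Nat.eq_one_of_mul_eq_one_right h1
        omega
    · -- the order of `q` modulo `r` is at least two
      exfalso
      have hq0 : (Fintype.card F : ZMod r) ≠ 0 := by
        obtain ⟨f, -, hf⟩ := FiniteField.card F p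
        rw [hf, Nat.cast_pow]
        exact pow_ne_zero _ fun h0 => hrp
          ((Nat.prime_dvd_prime_iff_eq hr Fact.out).1 ((ZMod.natCast_eq_zero_iff p r).1 h0))
      have hipos : 0 < orderOf (Fintype.card F : ZMod r) := Nat.pos_of_dvd_of_pos
        (ZMod.orderOf_dvd_card_sub_one hq0) (by have := hr.two_le; omega)
      set i := orderOf (Fintype.card F : ZMod r) with hi
      have hin : i ≤ n := order_le_of_dvd hrp (hΩ.trans ((Subgroup.relIndex_dvd_card _ _).trans
        (Subgroup.card_subgroup_dvd_card _)))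
      obtain ⟨M, hM, hk⟩ := exists_root_elt (F := F) (r := r) hrp (t := 1) (k := n - i) (by omega)
        (show n = 1 * i + (n - i) by omega)
      obtain ⟨A, B, T, hT⟩ := test M 1 (by
          apply Matrix.toLin'.injective
          rw [Matrix.SpecialLinearGroup.coe_pow, Matrix.toLin'_pow, one_smul, Matrix.toLin'_one]
          exact LinearMap.ext hM) fun z hz => by
        have hz1 : Matrix.toLin' (M : Matrix (Fin n) (Fin n) F) = z • LinearMap.id := by
          rw [hz, map_smul, Matrix.toLin'_one]
        rcases eq_or_ne z 1 with hz' | hz'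
        · rw [hz1, hz', sub_self, LinearMap.ker_zero, finrank_top, Module.finrank_fin_fun] at hk
          omega
        · have hd := M.det_coe
          rw [hz, Matrix.det_smul, Matrix.det_one, mul_one, Fintype.card_fin] at hd
          have hzr : z ^ r = 1 := by
            have := congrFun (hM (Pi.single ⟨0, by omega⟩ 1)) ⟨0, by omega⟩
            rw [hz1, _root_.smul_pow] at this
            simpa [← Module.End.one_eq_id] using this
          have h1 : orderOf z ∣ r := orderOf_dvd_of_pow_eq_one hzr
          have hz0 : z ≠ 0 := fun e => by rw [e, zero_pow hr.ne_zero] at hzr; exact zero_ne_one hzr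
          have h3 : orderOf z = r := ((Nat.dvd_prime hr).1 h1).resolve_left fun e => hz' (orderOf_eq_one_iff.1 e)
          refine hi1 (hi.trans (dvd_card_sub_one_iff.1 ?_))
          exact h3 ▸ orderOf_dvd_of_pow_eq_one (FiniteField.pow_card_sub_one_eq_one z hz0)
      rw [ker_conj_eq hT] at hk
      refine pow_case hrp (by omega) ha hlt (A := A) (B := B) ?_ (by
        have : Module.finrank F (LinearMap.ker (Matrix.toLin' (Matrix.kronecker A B) - (1 : F) • LinearMap.id)) + i = a * b := by
          omega
        exact this)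
      apply Matrix.toLin'.injective
      rw [Matrix.toLin'_one]
      refine LinearMap.ext fun w => ?_
      obtain ⟨v, rfl⟩ := T.surjective w
      have hp' := pow_conj hT r v
      rw [hM] at hp'
      rw [Matrix.toLin'_pow]
      exact hp'.symm
  · rintro ⟨hr2, ha2, hodd, hv⟩ x hx hxpow hns
    subst ha2 hr2
    have h2 := two_ne_zero_of_odd (F := F) rfl hodd
    have hn0 : n ≠ 0 := by omega
    let xs : Matrix.SpecialLinearGroup (Fin n) F := ⟨(x : Matrix (Fin n) (Fin n) F), congrArg Units.val hx⟩
    have key : ∀ (A : GL (Fin 2) F) (B : GL (Fin b) F) (Q : Matrix.SpecialLinearGroup (Fin n) F),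
        Matrix.toLin' ((Q⁻¹ * xs * Q : Matrix.SpecialLinearGroup (Fin n) F) : Matrix (Fin n) (Fin n) F) =
          Matrix.toLin' ((P * Cfsg.Geo.glReindex e.symm (kronGL A B) * P⁻¹ : GL (Fin n) F) : Matrix (Fin n) (Fin n) F) →
        ∃ g ∈ Cfsg.Geo.specialLinear (Fin n) F, g⁻¹ * x * g ∈ Cfsg.Geo.tensorProductSubgroup 2 b e P := by
      intro A B Q hQ
      refine ⟨Matrix.SpecialLinearGroup.toGL Q, Units.ext Q.det_coe, ?_⟩
      rw [show x = Matrix.SpecialLinearGroup.toGL xs from Units.ext rfl, ← map_inv, ← map_mul, ← map_mul,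
        show Matrix.SpecialLinearGroup.toGL (Q⁻¹ * xs * Q) = P * Cfsg.Geo.glReindex e.symm (kronGL A B) * P⁻¹ from
          Units.ext (Matrix.toLin'.injective hQ)]
      exact kron_member e P A B
    obtain ⟨z, hz⟩ := hxpow
    have hxs : ∃ c : F, ((xs ^ 2 : Matrix.SpecialLinearGroup (Fin n) F) : Matrix (Fin n) (Fin n) F) = c • (1 : Matrix (Fin n) (Fin n) F) :=
      ⟨z, by rw [Matrix.SpecialLinearGroup.coe_pow]; rw [Units.val_pow_eq_pow_val] at hz; exact hz⟩
    rcases invol_cases hn0 hxs with ⟨-, l, hl, hx2⟩ | ⟨-, c, hc, hx2⟩ | ⟨h2', -⟩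
    · set X : Module.End F (Fin n → F) := Matrix.toLin' (xs : Matrix (Fin n) (Fin n) F) with hX
      have hdet : LinearMap.det X = 1 := by rw [hX, LinearMap.det_toLin', xs.det_coe]
      rw [eigen_det h2 hl hx2, Module.finrank_fin_fun] at hdet
      have hcompl := Submodule.finrank_add_eq_of_isCompl (isCompl_eigen h2 hl hx2)
      rw [Module.finrank_fin_fun] at hcompl
      obtain ⟨j, hj⟩ : Even (Module.finrank F (LinearMap.ker (X + l • LinearMap.id))) :=
        Nat.not_odd_iff_even.1 fun ho => npow_ne_neg_one h2 hv hl (by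
          rw [ho.neg_one_pow, mul_neg, mul_one, neg_eq_iff_eq_neg] at hdet
          exact hdet)
      let d : Fin b → Fˣ := fun i => if (i : ℕ) < j then -Units.mk0 l hl else Units.mk0 l hl
      let B : GL (Fin b) F := Units.map (Matrix.diagonalRingHom (Fin b) F).toMonoidHom (MulEquiv.piUnits.symm d)
      have hB : (B : Matrix (Fin b) (Fin b) F) = Matrix.diagonal fun i => ((d i : Fˣ) : F) := rfl
      have hsq : ((1 * 1 : GL (Fin 2) F) : Matrix (Fin 2) (Fin 2) F) ⊗ₖ ((B * B : GL (Fin b) F) : Matrix (Fin b) (Fin b) F) = (l * l) • 1 := by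
        rw [one_mul, Units.val_one, Units.val_mul, hB, Matrix.diagonal_mul_diagonal,
          show (fun i => ((d i : Fˣ) : F) * (d i : F)) = fun _ => l * l from funext fun i => by
            simp only [d]; split_ifs <;> simp,
          ← Matrix.smul_one_eq_diagonal, Matrix.kronecker_smul, Matrix.one_kronecker_one]
      obtain ⟨Q, hQ⟩ := sl_conj_semisimple (A := xs) (y := Matrix.toLin'
          ((P * Cfsg.Geo.glReindex e.symm (kronGL 1 B) * P⁻¹ : GL (Fin n) F) : Matrix (Fin n) (Fin n) F))
        hn0 h2 hl hx2 (member_sq e P hsq) (by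
          obtain ⟨L, hL⟩ := exists_coords e P (kronGL 1 B)
          have hk1 : ((kronGL 1 B : GL (Fin 2 × Fin b) F) : Matrix (Fin 2 × Fin b) (Fin 2 × Fin b) F) =
              ((1 : F) • (1 : Matrix (Fin 2) (Fin 2) F)) ⊗ₖ (B : Matrix (Fin b) (Fin b) F) := by
            rw [one_smul]; rfl
          rw [hk1] at hL
          rw [ker_conj_eq hL l, finrank_scalar, one_smul, hB]
          have h' := diag_fixed (fun i => ((d i : Fˣ) : F)) l
          have hcnt : Fintype.card {i : Fin b // ((d i : Fˣ) : F) - l ≠ 0} = min b j := by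
            rw [Fintype.card_subtype, Finset.filter_congr (q := fun i : Fin b => (i : ℕ) < j) fun i _ => by
              simp only [d]
              split_ifs with hi
              · simp only [hi, Units.val_neg, Units.val_mk0, iff_true]
                exact fun e => mul_ne_zero h2 hl (by linear_combination -e)
              · simp [hi], Fin.card_filter_val_lt]
          rw [hcnt] at h'
          rw [← hX]
          omega)
      exact key 1 B Q hQ
    · have hc0 : c ≠ 0 := fun h => hc 0 (by rw [h]; ring)
      let A : GL (Fin 2) F := ⟨!![0, c; 1, 0], !![0, 1; c⁻¹, 0],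
        by ext i j; fin_cases i <;> fin_cases j <;> simp [hc0],
        by ext i j; fin_cases i <;> fin_cases j <;> simp [hc0]⟩
      have hsq : ((A * A : GL (Fin 2) F) : Matrix (Fin 2) (Fin 2) F) ⊗ₖ ((1 * 1 : GL (Fin b) F) : Matrix (Fin b) (Fin b) F) = c • 1 := by
        rw [one_mul, Units.val_one, Units.val_mul,
          show ((A : GL (Fin 2) F) : Matrix (Fin 2) (Fin 2) F) * A = c • (1 : Matrix (Fin 2) (Fin 2) F) by
            ext i j; fin_cases i <;> fin_cases j <;> simp [A, Matrix.one_apply],
          Matrix.smul_kronecker, Matrix.one_kronecker_one]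
      obtain ⟨Q, hQ⟩ := sl_conj_nonsquare (A := xs) (y := Matrix.toLin'
          ((P * Cfsg.Geo.glReindex e.symm (kronGL A 1) * P⁻¹ : GL (Fin n) F) : Matrix (Fin n) (Fin n) F))
        hn0 hc hx2 (member_sq e P hsq)
      exact key A 1 Q hQ
    · exact absurd h2' h2

end Cfsg.Agent.S5979
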