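import Cfsg.Statements.S5607
import Cfsg.Agent.Lib.Golay.Cent
import Cfsg.Agent.Lib.Golay.FixCounts
-- import your own Cfsg.Agent.* helpers here

set_option autoImplicit false
open scoped Pointwise
open Cfsg

namespace Cfsg.Agent.S5607

open Cfsg
open Cfsg.Agent.Lib.Golay
open scoped Pointwise

theorem sextet_fixed :
    (cent2BList ++ cent2BTrans ++ [rep2B]).all (fun c => famFix c cent2BSextet) = true ∧
      isSextetList cent2BSextet = true := by
  constructor <;> decide +kernel

theorem famFix_spec {c : ℕ} {a : List ℕ} (hv : valid c = true) (h : famFix c a = true) :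
    toPerm c • fam a = fam a := by
  simp only [famFix, List.all_eq_true, List.elem_eq_mem, decide_eq_true_eq] at h
  refine Finset.eq_of_subset_of_card_le ?_ (by rw [Finset.card_smul_finset])
  intro s hs
  obtain ⟨_, hu, rfl⟩ := Finset.mem_smul_finset.1 hs
  obtain ⟨t, ht, rfl⟩ := mem_fam.1 hu
  exact mem_fam.2 ⟨_, h t ht, (smul_toSet hv t).symm⟩

theorem cent_sextet {x : Equiv.Perm GolayPt} (hx : x ∈ cent2B) :
    x • fam cent2BSextet = fam cent2BSextet := by
  obtain ⟨-, -, -, hall, hkey, -⟩ := cent2B_facts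
  have hv : valid rep2B = true := (rep_valid (by simp)).2
  obtain ⟨c, hc, he⟩ := (testBit_keySet (fun c => img c 0) cent2BTrans (ix (x (pt 0)))).1
    (by rw [hkey]; exact testBit_full _ (ix_lt _))
  have hcc := List.all_eq_true.1 hall c hc
  simp only [Bool.and_eq_true] at hcc
  have hcv := valid_of_inM24 hcc.1
  have hcm : toPerm c ∈ cent2B := mem_cent2B.2 ⟨toPerm_mem_M24 hcc.1,
    (twines_single _).1 ((commJ_iff hv hcv (by simpa using hv)).1 hcc.2)⟩
  have hy : (toPerm c)⁻¹ * x ∈ cent2B ⊓ MulAction.stabilizer (Equiv.Perm GolayPt) (pt 0) := by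
    refine Subgroup.mem_inf.2 ⟨mul_mem (inv_mem hcm) hx, ?_⟩
    rw [MulAction.mem_stabilizer_iff, mul_smul, inv_smul_eq_iff, Equiv.Perm.smul_def,
      Equiv.Perm.smul_def, toPerm_pt hcv (by norm_num : 0 < 24), he, pt_ix]
  obtain ⟨p, hp, hpe⟩ := (cent2B_stab _).1 hy
  have hpv : valid p = true := by
    have := List.all_eq_true.1 cent2B_facts.1 p hp
    simp only [Bool.and_eq_true] at this
    exact valid_of_inM24 this.1.1
  have h1 := famFix_spec hpv (List.all_eq_true.1 sextet_fixed.1 p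
    (List.mem_append_left _ (List.mem_append_left _ hp)))
  have h2 := famFix_spec hcv (List.all_eq_true.1 sextet_fixed.1 c
    (List.mem_append_left _ (List.mem_append_right _ hc)))
  rw [hpe, mul_smul, inv_smul_eq_iff, h2] at h1
  exact h1


/-- For a fixed-point-free involution t of the group of the length-24 code: its centraliser in that group has order 7680, is transitive on the 24 points, and is contained, together with t, in the stabiliser of some sextet. -/
theorem result (t : Equiv.Perm Cfsg.GolayPt) (ht : t ∈ Cfsg.M24) (h₂ : orderOf t = 2) (h₀ : ∀ p, t p ≠ p) : Nat.card {c : Equiv.Perm Cfsg.GolayPt // c ∈ Cfsg.M24 ∧ c * t = t * c} = 7680 ∧ (∀ p q : Cfsg.GolayPt, ∃ c ∈ Cfsg.M24, c * t = t * c ∧ c p = q) ∧ ∃ S ∈ Cfsg.sextets, t • S = S ∧ ∀ c ∈ Cfsg.M24, c * t = t * c → c • S = S := by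
  obtain ⟨k, hk, ⟨h, -⟩ | ⟨-, he⟩⟩ := inv_classes ht h₂
  · exact absurd (h.symm.trans (fixedPts_card_zero.2 h₀)) (by decide)
  have hiff : ∀ c : Equiv.Perm GolayPt,
      (c ∈ M24 ∧ c * t = t * c) ↔ k * c * k⁻¹ ∈ cent2B := by
    intro c
    rw [mem_cent2B, ← mem_M24_conj hk, ← he]
    refine and_congr_right fun _ => ?_
    constructor
    · intro h
      calc k * c * k⁻¹ * (k * t * k⁻¹) = k * (c * t) * k⁻¹ := by group
        _ = _ := by rw [h]; group
    · intro h
      calc c * t = k⁻¹ * (k * c * k⁻¹ * (k * t * k⁻¹)) * k := by group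
        _ = _ := by rw [h]; group
  refine ⟨?_, fun p q => ?_, k⁻¹ • fam cent2BSextet, ?_, ?_, fun c hc hct => ?_⟩
  · rw [← cent2B_card]
    exact Nat.card_congr
      { toFun := fun c => ⟨k * c * k⁻¹, (hiff c).1 c.2⟩
        invFun := fun c => ⟨k⁻¹ * c * k, (hiff _).2 (by simp [mul_assoc])⟩
        left_inv := fun c => Subtype.ext (by simp [mul_assoc])
        right_inv := fun c => Subtype.ext (by simp [mul_assoc]) }
  · obtain ⟨σ, hσ, h1⟩ := cent2B_trans (k p)
    obtain ⟨τ, hτ, h2⟩ := cent2B_trans (k q)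
    obtain ⟨hM, hcomm⟩ := (hiff (k⁻¹ * (τ * σ⁻¹) * k)).2
      (by simpa [mul_assoc] using mul_mem hτ (inv_mem hσ))
    refine ⟨_, hM, hcomm, ?_⟩
    simp only [Equiv.Perm.mul_apply]
    rw [← h1]
    simp [h2]
  · exact smul_mem_sextets (inv_mem hk) (sextet_model.mem _ sextet_fixed.2).2
  · have h1 := famFix_spec (rep_valid (r := rep2B) (by simp)).2
      (List.all_eq_true.1 sextet_fixed.1 rep2B (List.mem_append_right _ (by simp)))
    rw [← he, mul_smul, mul_smul] at h1
    rw [eq_inv_smul_iff]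
    exact h1
  · have h1 := cent_sextet ((hiff c).1 ⟨hc, hct⟩)
    rw [mul_smul, mul_smul] at h1
    rw [eq_inv_smul_iff]
    exact h1

end Cfsg.Agent.S5607
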