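import Cfsg.Statements.S1592
import Cfsg.Agent.Lib.Golay.Ternary

set_option autoImplicit false
open Cfsg
open Cfsg.Agent.Lib.Golay

namespace Cfsg.Agent.S1592

set_option maxRecDepth 100000

theorem small {y : ArrayPt → ZMod 3} (hy : y ∈ ternaryGolayCode)
    (hlt : (ternarySupport y).card < 6) : y = 0 := by
  obtain ⟨g, rfl⟩ := tcode_eq.1 hy
  by_contra hne0
  have hg : g ≠ 0 := fun e => hne0 (by subst e; funext r; simp [tEnc])
  rcases tWeights g hg with w | w | w <;> omega

theorem five_common {x y : ArrayPt → ZMod 3} (hx : x ∈ ternaryGolayCode)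
    (hy : y ∈ ternaryGolayCode) (hx6 : (ternarySupport x).card = 6)
    (hy6 : (ternarySupport y).card = 6)
    (h5 : 5 ≤ (ternarySupport x ∩ ternarySupport y).card) : y = x ∨ y = -x := by
  classical
  set I := ternarySupport x ∩ ternarySupport y with hI
  set P := I.filter fun r => x r + y r = 0 with hP
  set M := I.filter fun r => ¬ (x r + y r = 0) with hM
  have hPM : P.card + M.card = I.card := by
    rw [hP, hM, Finset.card_filter_add_card_filter_not]
  have hU : (ternarySupport x ∪ ternarySupport y).card + I.card = 12 := by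
    rw [hI, Finset.card_union_add_card_inter, hx6, hy6]
  have hz : ∀ a b : ZMod 3, a ≠ 0 → b ≠ 0 → ¬ a + b = 0 → a - b = 0 := by decide
  have hsub : ∀ (z : ArrayPt → ZMod 3) (Q : Finset ArrayPt), Q ⊆ I →
      (∀ r ∈ Q, z r = 0) → ternarySupport z ⊆ ternarySupport x ∪ ternarySupport y →
      (ternarySupport z).card + Q.card ≤ (ternarySupport x ∪ ternarySupport y).card := by
    intro z Q hQ hz0 hzu
    rw [← Finset.card_union_of_disjoint]
    · exact Finset.card_le_card (Finset.union_subset hzu (hQ.trans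
        (Finset.inter_subset_left.trans Finset.subset_union_left)))
    · rw [Finset.disjoint_left]
      intro r hr hrQ
      exact (Finset.mem_filter.1 hr).2 (hz0 r hrQ)
  have hu : ∀ (u v : ZMod 3), u ≠ 0 → v = 0 → u ≠ 0 := fun u _ h _ => h
  have s1 := hsub (x + y) P (Finset.filter_subset _ _) (fun r hr => (Finset.mem_filter.1 hr).2)
    (fun r hr => by
      simp only [ternarySupport, Finset.mem_filter, Finset.mem_univ, true_and, Pi.add_apply,
        Finset.mem_union] at hr ⊢
      by_contra hcon; push Not at hcon; rw [hcon.1, hcon.2] at hr; simp at hr)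
  have s2 := hsub (x - y) M (Finset.filter_subset _ _) (fun r hr => by
      obtain ⟨hrI, hne⟩ := Finset.mem_filter.1 hr
      obtain ⟨h1, h2⟩ := Finset.mem_inter.1 hrI
      exact hz _ _ (Finset.mem_filter.1 h1).2 (Finset.mem_filter.1 h2).2 hne)
    (fun r hr => by
      simp only [ternarySupport, Finset.mem_filter, Finset.mem_univ, true_and, Pi.sub_apply,
        Finset.mem_union] at hr ⊢
      by_contra hcon; push Not at hcon; rw [hcon.1, hcon.2] at hr; simp at hr)
  rcases Nat.lt_or_ge P.card 3 with h | h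
  · left
    exact (sub_eq_zero.1 (small (ternaryGolayCode.sub_mem hx hy) (by omega))).symm
  · right
    exact eq_neg_of_add_eq_zero_right (small (ternaryGolayCode.add_mem hx hy) (by omega))

theorem supp_neg (x : ArrayPt → ZMod 3) : ternarySupport (-x) = ternarySupport x := by
  simp [ternarySupport]

theorem hexads12_card : hexads12.card = 132 := by
  classical
  have h := Finset.card_eq_sum_card_fiberwise
    (s := (Finset.univ : Finset (Fin 6 → ZMod 3)).filter fun f => (ternarySupport (tEnc f)).card = 6)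
    (f := fun f => ternarySupport (tEnc f)) (t := hexads12)
    (fun f hf => mem_hexads12.2 ⟨⟨f, rfl⟩,
      (Finset.mem_filter.1 hf).2⟩)
  rw [tcount.1, Finset.sum_congr rfl (g := fun _ => 2) ?_] at h
  · simp only [Finset.sum_const, smul_eq_mul] at h; omega
  intro b hb
  obtain ⟨⟨f, rfl⟩, hb6⟩ := mem_hexads12.1 hb
  have hneg : tEnc (-f) = -tEnc f := by funext r; simp [tEnc]
  rw [show Finset.filter (fun g => ternarySupport (tEnc g) = ternarySupport (tEnc f))
    (Finset.filter (fun g => (ternarySupport (tEnc g)).card = 6) Finset.univ) = {f, -f} from ?_]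
  · refine Finset.card_pair fun e => ?_
    have h3 : ∀ z : ZMod 3, z = -z → z = 0 := by decide
    have : f = 0 := funext fun j => h3 _ (congrFun e j)
    subst this
    simp [tEnc, ternarySupport] at hb6
  ext g
  simp only [Finset.mem_filter, Finset.mem_univ, true_and, Finset.mem_insert, Finset.mem_singleton]
  constructor
  · rintro ⟨hg6, hg⟩
    rcases five_common (tEnc_mem f) (tEnc_mem g) hb6 hg6 (by rw [hg, Finset.inter_self]; omega)
      with e | e
    · exact Or.inl (tEnc_injective e)
    · exact Or.inr (tEnc_injective (hneg ▸ e))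
  · rintro (rfl | rfl)
    · exact ⟨hb6, rfl⟩
    · rw [hneg, supp_neg]; exact ⟨hb6, rfl⟩

theorem hex_eq_of_five {a b : Finset ArrayPt} (ha : a ∈ hexads12) (hb : b ∈ hexads12)
    (h : 5 ≤ (a ∩ b).card) : a = b := by
  obtain ⟨⟨f, rfl⟩, ha6⟩ := mem_hexads12.1 ha
  obtain ⟨⟨g, rfl⟩, hb6⟩ := mem_hexads12.1 hb
  rcases five_common (tEnc_mem f) (tEnc_mem g) ha6 hb6 h with e | e
  · rw [e]
  · rw [e, supp_neg]

theorem cover_five : ∀ s ∈ (Finset.univ : Finset ArrayPt).powersetCard 5,
    (hexads12.filter fun h => s ⊆ h).card = 1 := by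
  classical
  intro s hs
  set U := hexads12.biUnion fun b => b.powersetCard 5 with hU
  have hsub : U ⊆ (Finset.univ : Finset ArrayPt).powersetCard 5 := by
    intro t ht
    obtain ⟨b, -, hb⟩ := Finset.mem_biUnion.1 ht
    exact Finset.mem_powersetCard.2 ⟨Finset.subset_univ t, (Finset.mem_powersetCard.1 hb).2⟩
  have hUc : U.card = 792 := by
    rw [hU, Finset.card_biUnion]
    · rw [Finset.sum_congr rfl (g := fun _ => 6) (fun b hb => by
        rw [Finset.card_powersetCard, (mem_hexads12.1 hb).2]; rfl)]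
      rw [Finset.sum_const, hexads12_card]; rfl
    · intro a ha b hb hab
      simp only [Function.onFun, Finset.disjoint_left]
      intro t hta htb
      obtain ⟨h1, h5⟩ := Finset.mem_powersetCard.1 hta
      obtain ⟨h2, -⟩ := Finset.mem_powersetCard.1 htb
      exact hab (hex_eq_of_five ha hb (h5 ▸ Finset.card_le_card (Finset.subset_inter h1 h2)))
  have heq : U = (Finset.univ : Finset ArrayPt).powersetCard 5 :=
    Finset.eq_of_subset_of_card_le hsub (by rw [hUc, Finset.card_powersetCard]; decide)
  rw [← heq] at hs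
  obtain ⟨b, hb, hsb⟩ := Finset.mem_biUnion.1 hs
  obtain ⟨hsb, hs5⟩ := Finset.mem_powersetCard.1 hsb
  rw [Finset.card_eq_one]
  refine ⟨b, ?_⟩
  ext a
  simp only [Finset.mem_filter, Finset.mem_singleton]
  exact ⟨fun ⟨ha, hsa⟩ => hex_eq_of_five ha hb (hs5 ▸ Finset.card_le_card (Finset.subset_inter hsa hsb)),
    fun e => e ▸ ⟨hb, hsb⟩⟩

/-- The supports of the weight-6 words of the length-12 ternary code form a Steiner system S(5, 6, 12) with 132 blocks. -/
theorem result : Cfsg.IsSteinerSystem 5 6 {h : Finset Cfsg.ArrayPt | ∃ x ∈ Cfsg.ternaryGolayCode, Cfsg.ternarySupport x = h ∧ h.card = 6} ∧ {h : Finset Cfsg.ArrayPt | ∃ x ∈ Cfsg.ternaryGolayCode, Cfsg.ternarySupport x = h ∧ h.card = 6}.ncard = 132 := by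
  rw [hexads12_eq]
  refine ⟨⟨fun b hb => (mem_hexads12.1 (Finset.mem_coe.1 hb)).2, fun s hs => ?_⟩, ?_⟩
  · obtain ⟨h, hh⟩ := Finset.card_eq_one.1
      (cover_five s (Finset.mem_powersetCard.2 ⟨Finset.subset_univ s, hs⟩))
    refine ⟨h, ?_, fun b hb => ?_⟩
    · have := hh ▸ Finset.mem_singleton_self h
      simpa using this
    · have : b ∈ hexads12.filter (fun h => s ⊆ h) := by
        simpa using hb
      rw [hh] at this
      simpa using this
  · rw [Set.ncard_coe_finset]
    exact hexads12_card

end Cfsg.Agent.S1592
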