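import Cfsg.Statements.S5453
import Cfsg.Agent.Lib.Involution.FischerBlocks
import Cfsg.Agent.Lib.Involution.FischerClasses
import Cfsg.Agent.Lib.Involution.FischerCentral
import Cfsg.Agent.Lib.Involution.FischerFrames

set_option autoImplicit false
open Cfsg

namespace Cfsg.Agent.S5453

open Subgroup

open Cfsg.Agent.Lib.Involution.UnitaryTransp Cfsg.Agent.Lib.AutPSU
open Cfsg.Agent.Lib.Involution Cfsg.Agent.Lib.ThreeTransp Cfsg.Agent.Lib.Involution.FischerRel

/-- Pairwise commuting elements with the same central square. -/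
theorem prod_sq {H : Type*} [Group H] {s : H} (hs : ∀ x : H, Commute s x) :
    ∀ l : List H, (∀ a ∈ l, a * a = s) → (∀ a ∈ l, ∀ b ∈ l, Commute a b) → l.prod * l.prod = s ^ l.length
  | [], _, _ => by simp
  | a :: l, h1, h2 => by
    have hc : Commute l.prod a := (Commute.list_prod_right _ _ fun b hb => h2 a List.mem_cons_self b (List.mem_cons_of_mem _ hb)).symm
    rw [List.prod_cons, List.length_cons, pow_succ', ← prod_sq hs l (fun b hb => h1 b (List.mem_cons_of_mem _ hb))
      (fun b hb c hc => h2 b (List.mem_cons_of_mem _ hb) c (List.mem_cons_of_mem _ hc)), ← h1 a List.mem_cons_self,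
      hc.mul_mul_mul_comm]

theorem commutator_central_left {H : Type*} [Group H] {c : H} (hc : ∀ x : H, Commute c x) (x y : H) :
    (x * c) * y * (x * c)⁻¹ * y⁻¹ = x * y * x⁻¹ * y⁻¹ := by
  rw [mul_inv_rev, mul_assoc x c y, (hc y).eq]; group

theorem commutator_central_right {H : Type*} [Group H] {c : H} (hc : ∀ x : H, Commute c x) (x y : H) :
    x * (y * c) * x⁻¹ * (y * c)⁻¹ = x * y * x⁻¹ * y⁻¹ := by
  rw [mul_inv_rev, ← mul_assoc x y c, mul_assoc (x * y) c x⁻¹, (hc x⁻¹).eq]; group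

/-- Lifts to a central extension by an involution: all involutions lift when the quotient is of type M(22). -/
theorem main {C : Type*} [Group C] {Q : Type*} [Group Q] [Finite Q] (π : C →* Q) (hπ : Function.Surjective π)
    (z : C) (hz : ∀ x : C, Commute z x) (hz2 : z * z = 1) (hker : ∀ x : C, π x = 1 → x = 1 ∨ x = z)
    (hπz : π z = 1) {E : Set Q} (M : FischerTwentyTwo.Hyp E) :
    ∀ x : Q, orderOf x = 2 → ∃ y : C, orderOf y = 2 ∧ π y = x := by
  classical
  choose f hf using hπ
  have hlift : ∀ x y : C, π x = π y → y = x ∨ y = x * z := fun x y e => by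
    rcases hker (x⁻¹ * y) (by rw [map_mul, map_inv, e, inv_mul_cancel]) with h | h
    · exact Or.inl (by rw [← mul_inv_cancel_left x y, h, mul_one])
    · exact Or.inr (by rw [← h, mul_inv_cancel_left])
  have hcl : ∀ x y : C, π x = π y → ∀ w : C, Commute x w → Commute y w := fun x y e w h => by
    rcases hlift x y e with rfl | rfl
    · exact h
    · exact h.mul_left (hz w)
  -- lifts of commuting members commute
  have hcomm : ∀ e ∈ E, ∀ a : Q, Commute e a → Commute (f a) (f e) := by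
    intro e he a hea
    have hK := FischerTwentyTwo.centralizer_eq_link M he
    obtain ⟨-, hqs, -⟩ := (FischerTwentyTwo.simple_and_quasisimple M.grp M.prim M.type).2 e he
    haveI := hqs.1
    set K := LinkGroup E e
    have hperf : ⁅K, K⁆ = K := Subgroup.commutator_eq_self
    set N := (centralizer ({f e} : Set C)).map π with hN
    have hKN : K ≤ N := by
      conv_lhs => rw [← hperf]
      rw [Subgroup.commutator_le]
      intro b hb c hc
      refine ⟨f b * f c * (f b)⁻¹ * (f c)⁻¹, mem_centralizer_singleton_iff.2 ?_, by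
        simp [hf, commutatorElement_def]⟩
      have hcj : ∀ u ∈ K, MulAut.conj (f e) (f u) = f u ∨ MulAut.conj (f e) (f u) = f u * z := fun u hu => by
        refine hlift _ _ ?_
        rw [hK] at hu
        rw [MulAut.conj_apply, map_mul, map_mul, map_inv, hf, hf, ← mem_centralizer_singleton_iff.1 hu,
          mul_inv_cancel_right]
      have key : MulAut.conj (f e) (f b * f c * (f b)⁻¹ * (f c)⁻¹) = f b * f c * (f b)⁻¹ * (f c)⁻¹ := by
        rw [map_mul, map_mul, map_mul, map_inv, map_inv]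
        rcases hcj b hb with h | h <;> rcases hcj c hc with h' | h' <;> rw [h, h'] <;>
          simp only [commutator_central_left hz, commutator_central_right hz]
      rw [MulAut.conj_apply, mul_inv_eq_iff_eq_mul] at key
      exact key.symm
    obtain ⟨y, hy, hya⟩ := hKN (show a ∈ K by rw [hK]; exact mem_centralizer_singleton_iff.2 hea.eq.symm)
    exact hcl y (f a) (by rw [hf, hya]) _ (mem_centralizer_singleton_iff.1 hy)
  have hπsq : ∀ e ∈ E, π (f e * f e) = 1 := fun e he => by rw [map_mul, hf, M.sq he]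
  obtain ⟨-, ⟨e₀, he₀, -⟩, -⟩ := M.prim
  set s := f e₀ * f e₀ with hs
  have hs1 : s = 1 ∨ s = z := hker _ (hπsq e₀ he₀)
  have hsc : ∀ x : C, Commute s x := fun x => by
    rcases hs1 with h | h <;> rw [h] <;> [exact Commute.one_left x; exact hz x]
  have hss : s * s = 1 := by rcases hs1 with h | h <;> rw [h] <;> [exact one_mul 1; exact hz2]
  have hsq : ∀ e ∈ E, f e * f e = s := by
    intro e he
    obtain ⟨g, hg⟩ := M.conj e₀ he₀ e he
    rcases hlift (f g * f e₀ * (f g)⁻¹) (f e) (by simp [hf, hg]) with h | h <;> rw [h]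
    · rw [show f g * f e₀ * (f g)⁻¹ * (f g * f e₀ * (f g)⁻¹) = f g * s * (f g)⁻¹ by rw [hs]; group,
        ← (hsc (f g)).eq, mul_inv_cancel_right]
    · rw [((hz (f g * f e₀ * (f g)⁻¹))).mul_mul_mul_comm, hz2, mul_one,
        show f g * f e₀ * (f g)⁻¹ * (f g * f e₀ * (f g)⁻¹) = f g * s * (f g)⁻¹ by rw [hs]; group,
        ← (hsc (f g)).eq, mul_inv_cancel_right]
  have hprod : ∀ l : List Q, (∀ a ∈ l, a ∈ E) → (∀ a ∈ l, ∀ b ∈ l, Commute a b) →
      π (l.map f).prod = l.prod ∧ (l.map f).prod * (l.map f).prod = s ^ l.length := by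
    intro l h1 h2
    refine ⟨by rw [map_list_prod, List.map_map, show π ∘ f = id from funext hf, List.map_id], ?_⟩
    rw [prod_sq hsc, List.length_map]
    · simpa using fun a ha => hsq a (h1 a ha)
    · simp only [List.mem_map, forall_exists_index, and_imp, forall_apply_eq_imp_iff₂]
      exact fun a ha b hb => (hcomm a (h1 a ha) b (h2 a ha b hb)).symm
  -- the common square is trivial
  set L := M.lk he₀
  have hF := L.card_F
  obtain ⟨q₁, hq₁, c₁, hc₁, e₁⟩ := L.surj (FischerTwentyTwo.pl 1 0 0)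
    ⟨fun e => by simpa [FischerTwentyTwo.pl] using congrFun e 0, FischerTwentyTwo.pl_orth hF _ _ _ _ _ _⟩
  obtain ⟨q₂, hq₂, c₂, hc₂, e₂⟩ := L.surj (FischerTwentyTwo.pl 0 1 0)
    ⟨fun e => by simpa [FischerTwentyTwo.pl] using congrFun e 2, FischerTwentyTwo.pl_orth hF _ _ _ _ _ _⟩
  obtain ⟨q₃, hq₃, c₃, hc₃, e₃⟩ := L.surj (FischerTwentyTwo.pl 0 0 1)
    ⟨fun e => by simpa [FischerTwentyTwo.pl] using congrFun e 4, FischerTwentyTwo.pl_orth hF _ _ _ _ _ _⟩
  obtain ⟨l, -, hll, hlE, hlc, hlp⟩ := FischerTwentyTwo.four_to_three M he₀ L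
    (u₁ := FischerTwentyTwo.pl 1 0 0) (u₂ := FischerTwentyTwo.pl 0 1 0) (u₃ := FischerTwentyTwo.pl 0 0 1)
    (by simp [FischerTwentyTwo.pl_orth hF])
    (fun p q r e => ⟨by simpa [FischerTwentyTwo.cb, FischerTwentyTwo.pl] using congrFun e 0,
      by simpa [FischerTwentyTwo.cb, FischerTwentyTwo.pl] using congrFun e 2,
      by simpa [FischerTwentyTwo.cb, FischerTwentyTwo.pl] using congrFun e 4⟩)
    hq₁ hq₂ hq₃ ⟨c₁, hc₁, e₁⟩ ⟨c₂, hc₂, e₂⟩ ⟨c₃, hc₃, e₃⟩
  have horth : ∀ {u v : Fin 6 → L.F} {a b : Q} {c c' : L.F}, a ∈ FischerTwentyTwo.Nb E e₀ →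
      b ∈ FischerTwentyTwo.Nb E e₀ → c ≠ 0 → c' ≠ 0 → u = c • L.pt a → v = c' • L.pt b → hm 2 u v = 0 →
      Commute a b := by
    intro u v a b c c' ha hb hc hc' eu ev h0
    refine (L.comm a ha b hb).2 ?_
    rw [eu, ev, hm_smul_left', hm_smul_right, mul_eq_zero, mul_eq_zero] at h0
    exact (h0.resolve_left hc).resolve_left (pow_ne_zero _ hc')
  have h12 := horth hq₁ hq₂ hc₁ hc₂ e₁ e₂ (FischerTwentyTwo.pl_orth hF _ _ _ _ _ _)
  have h13 := horth hq₁ hq₃ hc₁ hc₃ e₁ e₃ (FischerTwentyTwo.pl_orth hF _ _ _ _ _ _)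
  have h23 := horth hq₂ hq₃ hc₂ hc₃ e₂ e₃ (FischerTwentyTwo.pl_orth hF _ _ _ _ _ _)
  obtain ⟨p4, s4⟩ := hprod [q₁, q₂, q₃, e₀]
    (by simp [hq₁.1, hq₂.1, hq₃.1, he₀])
    (by simp [h12, h12.symm, h13, h13.symm, h23, h23.symm, hq₁.2.2, hq₁.2.2.symm, hq₂.2.2, hq₂.2.2.symm,
      hq₃.2.2, hq₃.2.2.symm])
  obtain ⟨p3, s3⟩ := hprod l hlE hlc
  have hs0 : s = 1 := by
    simp only [List.length_cons, List.length_nil, pow_succ, pow_zero, one_mul, hss] at s4
    rw [hll, pow_succ, pow_two, hss, one_mul] at s3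
    rcases hlift _ _ (p4.trans ((show ([q₁, q₂, q₃, e₀] : List Q).prod = l.prod by
        rw [hlp]; simp [mul_assoc]).trans p3.symm)) with h | h <;> rw [h] at s3
    · exact s3.symm.trans s4
    · rw [(hz _).mul_mul_mul_comm, hz2, mul_one] at s3
      exact s3.symm.trans s4
  intro x hx
  obtain ⟨m, -, -, l', -, -, hl'E, hl'c, hl'p⟩ := FischerTwentyTwo.involution_prod M hx
  obtain ⟨p', s'⟩ := hprod l' hl'E hl'c
  rw [hs0, one_pow] at s'
  refine ⟨_, orderOf_eq_prime (by rw [pow_two, s']) (fun h1 => ?_), p'.trans hl'p⟩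
  rw [← hl'p, ← p', h1, map_one, orderOf_one] at hx
  norm_num at hx


/-- Let G be a finite group with an involution d whose centralizer C is quasisimple, such that C modulo the subgroup generated by d is of type M(22) with respect to some conjugacy class of 3-transpositions generating it and also has an involution whose own centralizer is quasisimple with quotient by it isomorphic to the projective special unitary group of dimension 6 over the field with four elements and which is not weakly closed in that centralizer; and suppose some conjugate of d other than d commutes with d. Then every involution of C modulo the subgroup generated by d is the image of an involution of C, and d is not a square in G. -/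
theorem result {G : Type*} [Group G] [Finite G] (d : G) (hd : orderOf d = 2) (hq : Cfsg.IsQuasisimple ↥(Subgroup.centralizer ({d} : Set G))) [hzn : ((Subgroup.zpowers d).subgroupOf (Subgroup.centralizer ({d} : Set G))).Normal] (htype : ∃ E : Set (↥(Subgroup.centralizer ({d} : Set G)) ⧸ (Subgroup.zpowers d).subgroupOf (Subgroup.centralizer ({d} : Set G))), Cfsg.IsThreeTranspositionClass E ∧ Cfsg.IsOfTypeM22 _ E) (hinvol : ∃ d' : ↥(Subgroup.centralizer ({d} : Set G)) ⧸ (Subgroup.zpowers d).subgroupOf (Subgroup.centralizer ({d} : Set G)), orderOf d' = 2 ∧ Cfsg.IsQuasisimple ↥(Subgroup.centralizer ({d'} : Set _)) ∧ (∃ (K : Type) (_ : Field K) (_ : Fintype K), Fintype.card K = 4 ∧ ∃ _ : ((Subgroup.zpowers d').subgroupOf (Subgroup.centralizer ({d'} : Set _))).Normal, Nonempty (↥(Subgroup.centralizer ({d'} : Set _)) ⧸ (Subgroup.zpowers d').subgroupOf (Subgroup.centralizer ({d'} : Set _)) ≃* Cfsg.PSU 6 K 2)) ∧ ∃ g, g * d' * g⁻¹ ∈ Subgroup.centralizer ({d'} : Set _) ∧ g *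 d' * g⁻¹ ≠ d') (hnwc : ∃ g : G, g * d * g⁻¹ ∈ Subgroup.centralizer ({d} : Set G) ∧ g * d * g⁻¹ ≠ d) : (∀ x : ↥(Subgroup.centralizer ({d} : Set G)) ⧸ (Subgroup.zpowers d).subgroupOf (Subgroup.centralizer ({d} : Set G)), orderOf x = 2 → ∃ y : ↥(Subgroup.centralizer ({d} : Set G)), orderOf y = 2 ∧ (QuotientGroup.mk y : ↥(Subgroup.centralizer ({d} : Set G)) ⧸ (Subgroup.zpowers d).subgroupOf (Subgroup.centralizer ({d} : Set G))) = x) ∧ ¬ ∃ g : G, g ^ 2 = d := by
  classical
  obtain ⟨E, ⟨hT, ⟨e₀, he₀, hEc⟩, hgen⟩, hM⟩ := htype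
  have M : FischerTwentyTwo.Hyp E := FischerBlocks.hyp ⟨⟨hT, fun g e he => by
    rw [hEc] at he ⊢
    exact (show IsConj e₀ e from he).trans (isConj_iff.2 ⟨g, rfl⟩), hgen⟩, hM⟩
  have hd2 : d * d = 1 := by rw [← pow_two, ← hd, pow_orderOf_eq_one]
  have hd1 : d ≠ 1 := fun e => by rw [e, orderOf_one] at hd; norm_num at hd
  have hdC : d ∈ Subgroup.centralizer ({d} : Set G) := mem_centralizer_singleton_iff.2 rfl
  have hz : ∀ x : ↥(Subgroup.centralizer ({d} : Set G)), Commute ⟨d, hdC⟩ x := fun x =>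
    Subtype.ext (mem_centralizer_singleton_iff.1 x.2).symm
  have hker : ∀ x : ↥(Subgroup.centralizer ({d} : Set G)),
      (QuotientGroup.mk' ((Subgroup.zpowers d).subgroupOf (Subgroup.centralizer ({d} : Set G)))) x = 1 →
        x = 1 ∨ x = ⟨d, hdC⟩ := by
    intro x hx
    rw [QuotientGroup.mk'_apply, QuotientGroup.eq_one_iff, mem_subgroupOf,
      mem_zpowers_iff_mem_range_orderOf, hd, Finset.mem_image] at hx
    obtain ⟨i, hi, e⟩ := hx
    rw [Finset.mem_range] at hi
    interval_cases i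
    · exact Or.inl (Subtype.ext (by simpa using e.symm))
    · exact Or.inr (Subtype.ext (by simpa using e.symm))
  have hπz : (QuotientGroup.mk' ((Subgroup.zpowers d).subgroupOf (Subgroup.centralizer ({d} : Set G)))) ⟨d, hdC⟩ = 1 :=
    (QuotientGroup.eq_one_iff _).2 (mem_subgroupOf.2 (mem_zpowers d))
  have h := main _ (QuotientGroup.mk'_surjective _) ⟨d, hdC⟩ hz (Subtype.ext hd2) hker hπz M
  refine ⟨h, ?_⟩
  rintro ⟨g, hg⟩
  have hgC : g ∈ Subgroup.centralizer ({d} : Set G) := by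
    rw [mem_centralizer_singleton_iff, ← hg, pow_two, mul_assoc]
  set γ : ↥(Subgroup.centralizer ({d} : Set G)) := ⟨g, hgC⟩
  have hγ : γ * γ = ⟨d, hdC⟩ := Subtype.ext ((pow_two g).symm.trans hg)
  have hne : γ * γ ≠ 1 := fun e => hd1 (congrArg Subtype.val (hγ ▸ e))
  by_cases h1 : (QuotientGroup.mk' ((Subgroup.zpowers d).subgroupOf (Subgroup.centralizer ({d} : Set G)))) γ = 1
  · rcases hker γ h1 with e | e <;> apply hne <;> rw [e]
    · exact one_mul 1
    · exact Subtype.ext hd2
  obtain ⟨y, hy, hyg⟩ := h _ (orderOf_eq_prime (by rw [pow_two, ← map_mul, hγ, hπz]) h1)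
  have hy2 : y * y = 1 := by rw [← pow_two, ← hy, pow_orderOf_eq_one]
  apply hne
  rcases hker (y⁻¹ * γ) (by rw [map_mul, map_inv, hyg, inv_mul_cancel]) with e | e <;> rw [inv_mul_eq_iff_eq_mul] at e <;> rw [e]
  · rw [mul_one, hy2]
  · rw [(hz y).mul_mul_mul_comm, hy2, one_mul]
    exact Subtype.ext hd2

end Cfsg.Agent.S5453
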