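import Cfsg.Statements.S0743
import Cfsg.Agent.Lib.Perm.Tuples
import Mathlib.GroupTheory.PGroup
import Mathlib.GroupTheory.GroupAction.SubMulAction

set_option autoImplicit false
open Cfsg

namespace Cfsg.Agent.S0743

open MulAction in
theorem transitive_of_pgroups {H : Type*} [Group H] [Finite H] {Y : Type*} [MulAction H Y] [Finite Y]
    {p : ℕ} [Fact p.Prime]
    (h : ∀ a : Y, ∃ P : Subgroup H, IsPGroup p P ∧ fixedPoints P Y = {a}) (a b : Y) :
    b ∈ orbit H a := by
  classical
  by_contra hb
  obtain ⟨P, hP, hfix⟩ := h a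
  obtain ⟨Q, hQ, hfix'⟩ := h b
  have key : ∀ (R : Subgroup H) (c : Y), IsPGroup p R → fixedPoints R Y = {c} →
      Nat.card (orbit H a) ≡ (if c ∈ orbit H a then 1 else 0) [MOD p] := by
    intro R c hR hc
    let S : SubMulAction R Y :=
      { carrier := orbit H a
        smul_mem' := fun r y hy => by
          obtain ⟨u, rfl⟩ := hy
          exact ⟨(r : H) * u, mul_smul _ _ _⟩ }
    have := hR.card_modEq_card_fixedPoints S
    refine this.trans (congrArg (· % p) ?_)
    split_ifs with hca
    · refine Nat.card_eq_one_iff_unique.mpr ⟨⟨fun u v => ?_⟩, ⟨⟨⟨c, hca⟩, fun r => Subtype.ext ?_⟩⟩⟩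
      · have h1 : ∀ w : fixedPoints R S, ((w : S) : Y) = c := fun w => by
          have : ((w : S) : Y) ∈ fixedPoints R Y := fun r => congrArg Subtype.val (w.2 r)
          rw [hc] at this
          exact this
        exact Subtype.ext (Subtype.ext ((h1 u).trans (h1 v).symm))
      · have : c ∈ fixedPoints R Y := hc.symm ▸ rfl
        exact this r
    · refine Nat.card_eq_zero.mpr (Or.inl ⟨fun w => hca ?_⟩)
      have : ((w : S) : Y) ∈ fixedPoints R Y := fun r => congrArg Subtype.val (w.2 r)
      rw [hc] at this
      have h2 : ((w : S) : Y) = c := this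
      exact h2 ▸ (w : S).2
  have h1 := key P a hP hfix
  have h2 := key Q b hQ hfix'
  rw [if_pos (mem_orbit_self a)] at h1
  rw [if_neg hb] at h2
  have := h1.symm.trans h2
  rw [Nat.modEq_zero_iff_dvd, Nat.dvd_one] at this
  exact (Fact.out : p.Prime).ne_one this


/-- Gleason's Lemma: let `p` be a prime and `1 ≤ k < n`; if every `k`-subset of the `n` points is exactly the fixed-point set of some `p`-subgroup of `G`, then `G` is `k`-transitive. -/
theorem result {α : Type*} [Fintype α] [DecidableEq α] (G : Subgroup (Equiv.Perm α)) {p k : ℕ} (hp : p.Prime) (hk : 1 ≤ k) (hkn : k < Fintype.card α) (h : ∀ s : Finset α, s.card = k → ∃ P : Subgroup G, IsPGroup p P ∧ MulAction.fixedPoints P α = (s : Set α)) : MulAction.IsMultiplyPretransitive G α k := by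
  classical
  have : Fact p.Prime := ⟨hp⟩
  refine Lib.Perm.multiply_of_moves hkn fun x i b hb => ?_
  let R : Finset α := (Finset.univ.erase i).map x
  have hR : R.card + 1 = k := by
    rw [Finset.card_map, Finset.card_erase_of_mem (Finset.mem_univ i), Finset.card_univ, Fintype.card_fin]
    omega
  let K := fixingSubgroup G (R : Set α)
  have hxi : x i ∉ R := by simp [R]
  have hbR : b ∉ R := by
    simp only [R, Finset.mem_map, Finset.mem_erase, Finset.mem_univ, and_true, not_exists, not_and]
    exact fun j hj => hb j hj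
  refine (MulAction.mem_orbit_iff.mp (transitive_of_pgroups (p := p) (H := K) (Y := SubMulAction.ofFixingSubgroup G (R : Set α))
    (fun a => ?_) ⟨x i, hxi⟩ ⟨b, hbR⟩)).elim fun u hu =>
    ⟨u, fun j hj => (mem_fixingSubgroup_iff G).mp u.2 (x j) (by simp [R, hj]), congrArg Subtype.val hu⟩
  · have ha : (a : α) ∉ R := a.2
    obtain ⟨P, hP, hfix⟩ := h (insert (a : α) R) (by rw [Finset.card_insert_of_notMem ha]; exact hR)
    have hPK : P ≤ K := fun g hg => (mem_fixingSubgroup_iff G).mpr fun y hy => by
      have : y ∈ MulAction.fixedPoints P α := by rw [hfix]; simp only [Finset.coe_insert]; exact Or.inr hy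
      exact this ⟨g, hg⟩
    refine ⟨P.subgroupOf K, hP.comap_of_injective K.subtype K.subtype_injective, Set.ext fun y => ?_⟩
    rw [Set.mem_singleton_iff]
    constructor
    · intro hy
      have : (y : α) ∈ MulAction.fixedPoints P α := fun g =>
        congrArg Subtype.val (hy ⟨⟨g, hPK g.2⟩, g.2⟩)
      rw [hfix, Finset.coe_insert] at this
      rcases this with e | e
      · exact Subtype.ext e
      · exact absurd e y.2
    · rintro rfl g
      have : (y : α) ∈ MulAction.fixedPoints P α := by rw [hfix]; simp
      exact Subtype.ext (this ⟨_, g.2⟩)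

end Cfsg.Agent.S0743
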