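import Cfsg.Statements.S0736
import Mathlib.NumberTheory.Padics.PadicVal.Basic
import Mathlib.Combinatorics.Enumerative.DoubleCounting

set_option autoImplicit false
open Cfsg

namespace Cfsg.Agent.S0736

open Finset in
theorem not_dvd_choose {p a k : ℕ} (hp : p.Prime) (hk : p ^ a ∣ k) :
    ¬ p ∣ (k + p ^ a - 1).choose k := by
  have := Fact.mk hp
  have hq : 0 < p ^ a := pow_pos hp.pos a
  intro hd
  have h1 : padicValNat p ((k + p ^ a - 1).choose k) ≠ 0 := by
    have := one_le_padicValNat_of_dvd (Nat.choose_pos (show k ≤ k + p ^ a - 1 by omega)).ne' hd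
    omega
  apply h1
  rw [show k + p ^ a - 1 = (p ^ a - 1) + k by omega,
    padicValNat_choose' (b := Nat.log p (p ^ a - 1 + k) + 1) (Nat.lt_succ_self _), card_eq_zero,
    filter_eq_empty_iff]
  intro i _ hle
  rcases le_or_gt i a with hi | hi
  · have : p ^ i ∣ k := (pow_dvd_pow p hi).trans hk
    rw [Nat.mod_eq_zero_of_dvd this, zero_add] at hle
    exact absurd hle (not_le.mpr (Nat.mod_lt _ (pow_pos hp.pos i)))
  · have hdi : p ^ a ∣ p ^ i := pow_dvd_pow p hi.le
    have hd' : p ^ a ∣ k % p ^ i := (Nat.dvd_mod_iff hdi).mpr hk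
    have hlt := Nat.mod_lt k (pow_pos hp.pos i)
    have hle' : k % p ^ i + p ^ a ≤ p ^ i := by
      obtain ⟨u, hu⟩ := hd'
      obtain ⟨w, hw⟩ := hdi
      have huw : u < w := by rw [hu, hw] at hlt; exact lt_of_mul_lt_mul_left' hlt
      rw [hu, hw, ← Nat.mul_succ]
      exact Nat.mul_le_mul_left _ huw
    have := Nat.mod_le (p ^ a - 1) (p ^ i)
    omega

/-- A `k`-homogeneous permutation group of degree `n`, `k ≥ 2`, with `k + q - 1 ≤ n` for every prime power `q` dividing `k`, is `(k-1)`-homogeneous. -/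
theorem result {α : Type*} [Fintype α] [DecidableEq α] (G : Subgroup (Equiv.Perm α)) {k : ℕ} (hk : 2 ≤ k) (hG : MulAction.IsPretransitive G (Set.powersetCard α k)) (hq : ∀ q : ℕ, IsPrimePow q → q ∣ k → k + q - 1 ≤ Fintype.card α) : MulAction.IsPretransitive G (Set.powersetCard α (k - 1)) := by
  classical
  open Finset in
  open scoped Pointwise in
  refine ⟨fun s₀ t₀ => ?_⟩
  by_cases hn : Fintype.card α ≤ k - 1
  · refine ⟨1, ?_⟩
    rw [one_smul]
    apply Subtype.ext
    have hu : ∀ u : Set.powersetCard α (k - 1), (u : Finset α) = univ := fun u =>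
      eq_univ_of_card _ (le_antisymm (card_le_univ _) (hn.trans (Set.powersetCard.card_eq u).ge))
    rw [hu, hu]
  let P : Finset α → Prop := fun t => ∃ g : G, g • (s₀ : Finset α) = t
  let cnt : Finset α → ℕ := fun S => ((S.powersetCard (k - 1)).filter P).card
  have hPg : ∀ (g : G) (t : Finset α), P t → P (g • t) := fun g t ⟨h, ht⟩ =>
    ⟨g * h, by rw [mul_smul, ht]⟩
  have hcnt : ∀ S S' : Finset α, S.card = k → S'.card = k → cnt S = cnt S' := by
    intro S S' hS hS'
    obtain ⟨g, hg⟩ := hG.exists_smul_eq (⟨S, hS⟩ : Set.powersetCard α k) ⟨S', hS'⟩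
    have hg' : g • S = S' := congrArg Subtype.val hg
    refine card_nbij' (fun t => g • t) (fun t => g⁻¹ • t) ?_ ?_
      (fun t _ => inv_smul_smul g t) (fun t _ => smul_inv_smul g t)
    · intro t ht
      simp only [mem_coe, mem_filter, mem_powersetCard] at ht ⊢
      exact ⟨⟨hg' ▸ Finset.smul_finset_subset_smul_finset ht.1.1,
        by rw [card_smul_finset]; exact ht.1.2⟩, hPg g t ht.2⟩
    · intro t ht
      simp only [mem_coe, mem_filter, mem_powersetCard] at ht ⊢
      refine ⟨⟨?_, by rw [card_smul_finset]; exact ht.1.2⟩, hPg g⁻¹ t ht.2⟩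
      rw [← inv_smul_smul g S, hg']
      exact Finset.smul_finset_subset_smul_finset ht.1.1
  obtain ⟨S₀, hsub, hS₀⟩ := exists_superset_card_eq (s := (s₀ : Finset α)) (n := k)
    (by rw [Set.powersetCard.card_eq]; omega) (by omega)
  have hpos : 0 < cnt S₀ := card_pos.mpr ⟨(s₀ : Finset α), mem_filter.mpr
    ⟨mem_powersetCard.mpr ⟨hsub, Set.powersetCard.card_eq _⟩, 1, one_smul _ _⟩⟩
  have hdvd : k ∣ cnt S₀ := by
    rw [Nat.dvd_iff_prime_pow_dvd_dvd]
    intro p a hp hpa
    rcases Nat.eq_zero_or_pos a with rfl | ha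
    · simp
    set q := p ^ a with hqdef
    have hq0 : 0 < q := pow_pos hp.pos a
    have hle := hq q (hp.isPrimePow.pow ha.ne') hpa
    obtain ⟨T, -, hT⟩ := exists_superset_card_eq (s := (∅ : Finset α)) (n := k + q - 1)
      (by simp) hle
    have key := card_mul_eq_card_mul (s := T.powersetCard k)
      (t := (T.powersetCard (k - 1)).filter P) (m := cnt S₀) (n := q)
      (fun S t => t ⊆ S) ?_ ?_
    · rw [card_powersetCard, hT] at key
      have hco : Nat.Coprime q ((k + q - 1).choose k) :=
        Nat.Coprime.pow_left a ((hp.coprime_iff_not_dvd).mpr (not_dvd_choose hp hpa))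
      exact hco.dvd_of_dvd_mul_left ⟨_, by rw [key, mul_comm]⟩
    · intro S hS
      rw [mem_powersetCard] at hS
      rw [← hcnt S S₀ hS.2 hS₀, bipartiteAbove]
      congr 1
      ext t
      simp only [mem_filter, mem_powersetCard]
      exact ⟨fun h => ⟨⟨h.2, h.1.1.2⟩, h.1.2⟩, fun h => ⟨⟨⟨h.1.1.trans hS.1, h.1.2⟩, h.2⟩, h.1.1⟩⟩
    · intro t ht
      simp only [mem_filter, mem_powersetCard] at ht
      have hk1 : (T \ t).card = q := by rw [card_sdiff_of_subset ht.1.1, hT, ht.1.2]; omega
      rw [← hk1, bipartiteBelow]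
      symm
      refine card_bij (fun x _ => insert x t) ?_ ?_ ?_
      · intro x hx
        simp only [mem_sdiff] at hx
        simp only [mem_filter, mem_powersetCard]
        exact ⟨⟨insert_subset hx.1 ht.1.1, by rw [card_insert_of_notMem hx.2, ht.1.2]; omega⟩,
          subset_insert _ _⟩
      · intro x hx y hy h
        simp only [mem_sdiff] at hx hy
        have : x ∈ insert y t := h ▸ mem_insert_self x t
        exact (mem_insert.mp this).resolve_right hx.2
      · intro S hS
        simp only [mem_filter, mem_powersetCard] at hS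
        obtain ⟨x, hx⟩ : ∃ x, S \ t = {x} := card_eq_one.mp (by
          rw [card_sdiff_of_subset hS.2, hS.1.2, ht.1.2]; omega)
        have hxm : x ∈ S \ t := by rw [hx]; exact mem_singleton_self x
        simp only [mem_sdiff] at hxm
        refine ⟨x, mem_sdiff.mpr ⟨hS.1.1 hxm.1, hxm.2⟩, ?_⟩
        rw [insert_eq, ← hx, sdiff_union_of_subset hS.2]
  have hfull : cnt S₀ = k := by
    refine le_antisymm ?_ (Nat.le_of_dvd hpos hdvd)
    refine (card_filter_le _ _).trans ?_
    rw [card_powersetCard, hS₀, Nat.choose_symm_of_eq_add (show k = (k - 1) + 1 by omega),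
      Nat.choose_one_right]
  obtain ⟨S, htS, hS⟩ := exists_superset_card_eq (s := (t₀ : Finset α)) (n := k)
    (by rw [Set.powersetCard.card_eq]; omega) (by omega)
  have hall : (S.powersetCard (k - 1)).filter P = S.powersetCard (k - 1) := by
    refine eq_of_subset_of_card_le (filter_subset _ _) ?_
    rw [show ((S.powersetCard (k - 1)).filter P).card = cnt S from rfl, hcnt S S₀ hS hS₀, hfull,
      card_powersetCard, hS, Nat.choose_symm_of_eq_add (show k = (k - 1) + 1 by omega),
      Nat.choose_one_right]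
  have : P (t₀ : Finset α) := by
    have hm : (t₀ : Finset α) ∈ (S.powersetCard (k - 1)).filter P := by
      rw [hall]; exact mem_powersetCard.mpr ⟨htS, Set.powersetCard.card_eq _⟩
    exact (mem_filter.mp hm).2
  obtain ⟨g, hg⟩ := this
  exact ⟨g, Subtype.ext hg⟩

end Cfsg.Agent.S0736
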