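import Cfsg.Statements.S5433
import Cfsg.Agent.Lib.LargeExtra.Basic
-- import your own Cfsg.Agent.* helpers here

set_option autoImplicit false
open Cfsg

namespace Cfsg.Agent.S5433

/-- Let Q be a large extraspecial 2-subgroup of the finite group G (extraspecial; centralizer equal to its centre; normal in the centralizer of its centre; normalizing no non-trivial subgroup of odd order), and L a normal subgroup of G containing Q. Then G is the product of L and the normalizer of Q. -/
theorem result {G : Type*} [Group G] [Finite G] (Q : Subgroup G) (hQ : Cfsg.IsLargeExtraspecial Q) (L : Subgroup G) [L.Normal] (hQL : Q ≤ L) : L ⊔ Subgroup.normalizer (Q : Set G) = ⊤ := by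
  open Lib.LargeExtra in
  obtain ⟨hL1, hL2, hL3, -⟩ := hQ
  obtain ⟨z, hzZ, hz2, hzall⟩ := exists_z hL1
  obtain ⟨P, hP⟩ := (show IsPGroup 2 (Q.subgroupOf L) from
    hL1.1.1.comap_of_injective L.subtype L.subtype_injective).exists_le_sylow
  have hfr := Sylow.normalizer_sup_eq_top P
  rw [eq_top_iff, ← hfr, sup_comm]
  refine sup_le_sup le_rfl ?_
  intro g hg
  apply hL3
  set T : Subgroup G := (P : Subgroup L).map L.subtype with hT
  have hQT : Q ≤ T := fun x hx => ⟨⟨x, hQL hx⟩, hP (show x ∈ Q from hx), rfl⟩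
  -- the centre of `T` is the centre of `Q`
  have hTc : ∀ x ∈ T, (∀ y ∈ T, y * x = x * y) → x ∈ Z Q := by
    intro x _ hx
    rw [Z, ← hL2, Subgroup.mem_centralizer_iff]
    exact fun y hy => hx y (hQT hy)
  haveI : Nontrivial T := ⟨⟨z, hQT (Z_le Q hzZ)⟩, 1, fun e => by
    have := congrArg Subtype.val e
    rw [OneMemClass.coe_one] at this
    rw [show z = 1 from this, orderOf_one] at hz2
    omega⟩
  haveI := (P.isPGroup'.map L.subtype).center_nontrivial
  obtain ⟨⟨x, hx⟩, hx1⟩ := exists_ne (1 : Subgroup.center T)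
  rw [Subgroup.mem_center_iff] at hx
  have hxZ := hTc x x.2 (fun y hy => congrArg Subtype.val (hx ⟨y, hy⟩))
  have hxz : (x : G) = z := (hzall _ hxZ).resolve_left fun e => hx1 (Subtype.ext (Subtype.ext e))
  have hgx : g * z * g⁻¹ = z := by
    have hgxT : g * (x : G) * g⁻¹ ∈ T := (Subgroup.mem_normalizer_iff.mp hg _).mp x.2
    rw [← hxz]
    rcases hzall _ (hTc _ hgxT (fun y hy => by
      have hy' : g⁻¹ * y * g ∈ T := by
        simpa using (Subgroup.mem_normalizer_iff.mp (inv_mem hg) y).mp hy
      have := congrArg Subtype.val (hx ⟨_, hy'⟩)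
      simp only [Subgroup.coe_mul] at this
      calc y * (g * (x : G) * g⁻¹) = g * ((g⁻¹ * y * g) * x) * g⁻¹ := by group
        _ = g * (x * (g⁻¹ * y * g)) * g⁻¹ := by rw [this]
        _ = _ := by group)) with h | h
    · rw [hxz] at h ⊢
      exfalso
      rw [conj_eq_one_iff] at h
      rw [h, orderOf_one] at hz2; omega
    · rw [h, hxz]
  rw [Subgroup.mem_centralizer_iff]
  intro y hy
  rcases hzall y hy with rfl | rfl
  · simp
  · exact (mul_inv_eq_iff_eq_mul.mp hgx).symm

end Cfsg.Agent.S5433
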