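import Cfsg.Statements.S5421
import Cfsg.Agent.Lib.LargeExtra.Basic
import Cfsg.Agent.Lib.Components.Cores
-- import your own Cfsg.Agent.* helpers here

set_option autoImplicit false
open Cfsg

namespace Cfsg.Agent.S5421

/-- Let Q be an extraspecial 2-subgroup of the finite group G whose centralizer in G is its centre Z and which is normal in the centralizer of Z. If some involution b of Q outside Z has Z inside the largest normal 2-subgroup of the centralizer of b, then Q is a large extraspecial 2-subgroup of G. -/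
theorem result {G : Type*} [Group G] [Finite G] (Q : Subgroup G) (hL1 : Cfsg.IsExtraspecial 2 ↥Q) (hL2 : Subgroup.centralizer (Q : Set G) = ((Subgroup.center ↥Q).map Q.subtype)) (hL3 : Subgroup.centralizer (((Subgroup.center ↥Q).map Q.subtype) : Set G) ≤ Subgroup.normalizer (Q : Set G)) (b : G) (hbQ : b ∈ Q) (hbZ : b ∉ ((Subgroup.center ↥Q).map Q.subtype)) (hb : orderOf b = 2) (hZ : ((Subgroup.center ↥Q).map Q.subtype) ≤ (Cfsg.pCore 2 ↥(Subgroup.centralizer ({b} : Set G))).map (Subgroup.centralizer ({b} : Set G)).subtype) : Cfsg.IsLargeExtraspecial Q := by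
  open Lib.LargeExtra in
  refine ⟨hL1, hL2, hL3, fun K hK hQK => ?_⟩
  obtain ⟨z, hzZ, hz2, hzall⟩ := exists_z hL1
  set C := Subgroup.centralizer ({b} : Set G) with hC
  have hbb : b * b = 1 := by rw [← pow_two, ← hb, pow_orderOf_eq_one]
  have hzz : z * z = 1 := by rw [← pow_two, ← hz2, pow_orderOf_eq_one]
  -- elements of `K` commuting with `b` commute with `z`, so are trivial
  have hfix : ∀ k ∈ K, b * k = k * b → k = 1 := by
    intro k hk hbk
    have hzP := hZ hzZ
    obtain ⟨z', hz'P, hz'⟩ := hzP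
    have hkC : k ∈ C := by rw [hC, Subgroup.mem_centralizer_singleton_iff]; exact hbk.symm
    refine eq_one_of_commute hL1 hL2 hL3 hK hQK hk hzall
      (commute_of_mem_two_group hK ((Lib.Components.pCore_isPGroup 2).map C.subtype) (hQK (Z_le Q hzZ)) hk
        ⟨z', hz'P, hz'⟩ ?_)
    refine ⟨⟨k, hkC⟩ * z'⁻¹ * ⟨k, hkC⟩⁻¹, (pCore_normal 2 _).conj_mem _ (inv_mem hz'P) _, ?_⟩
    rw [← hz']; rfl
  have hfz : ∀ k ∈ K, z * k = k * z → k = 1 := fun k hk h => eq_one_of_commute hL1 hL2 hL3 hK hQK hk hzall h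
  -- involutions acting without fixed points invert
  have hinv : ∀ y : G, y * y = 1 → y ∈ Subgroup.normalizer (K : Set G) → (∀ k ∈ K, y * k = k * y → k = 1) →
      ∀ k ∈ K, y * k * y⁻¹ = k⁻¹ := by
    intro y hy hyN hyf k hk
    let f : K →* K := ((MulAut.conj y).toMonoidHom.comp K.subtype).codRestrict K
      (fun x => conj_mem hyN x.2)
    have hff : MonoidHom.FixedPointFree f := fun x hx => by
      apply Subtype.ext
      refine hyf x x.2 ?_
      have := congrArg Subtype.val hx
      simpa [f, mul_inv_eq_iff_eq_mul] using this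
    have hfi : Function.Involutive f := fun x => by
      apply Subtype.ext
      show y * (y * (x : G) * y⁻¹) * y⁻¹ = x
      rw [show y * (y * (x : G) * y⁻¹) * y⁻¹ = (y * y) * x * (y * y)⁻¹ by group, hy]; simp
    have := congrArg Subtype.val (congrFun (hff.coe_eq_inv_of_involutive hfi) ⟨k, hk⟩)
    simpa [f] using this
  -- `b * z` is conjugate to `b` under `Q`
  have hQN : ∀ q ∈ Q, q ∈ Subgroup.normalizer (K : Set G) := hQK
  have hbC : (⟨b, hbQ⟩ : Q) ∉ Subgroup.center Q := fun h => hbZ ⟨_, h, rfl⟩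
  rw [Subgroup.mem_center_iff] at hbC
  push Not at hbC
  obtain ⟨q, hq⟩ := hbC
  have hcZ : (q : G) * b * (q : G)⁻¹ * b⁻¹ = z := by
    open scoped commutatorElement in
    have hcm : ⁅q, (⟨b, hbQ⟩ : Q)⁆ ∈ Subgroup.center Q := hL1.1.2.2 ▸
      Subgroup.commutator_mem_commutator (Subgroup.mem_top _) (Subgroup.mem_top _)
    rcases hzall _ ⟨_, hcm, rfl⟩ with h | h
    · exfalso; apply hq
      exact commutatorElement_eq_one_iff_mul_comm.mp (Q.subtype_injective (h.trans (map_one _).symm))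
    · rw [← h]; simp [commutatorElement_def]
  have hzb : z * b = b * z := by
    obtain ⟨z', hz', rfl⟩ := hzZ
    exact congrArg Subtype.val ((Subgroup.mem_center_iff.mp hz' ⟨b, hbQ⟩)).symm
  rw [Subgroup.eq_bot_iff_forall]
  intro k hk
  have hi1 := hinv b hbb (hQN b hbQ) hfix k hk
  have hi2 := hinv z hzz (hQN z (Z_le Q hzZ)) hfz k⁻¹ (inv_mem hk)
  -- `z * b` centralizes `k`
  have hk' : (q : G)⁻¹ * k * q ∈ K := by
    simpa using conj_mem (hQN _ (inv_mem q.2)) hk
  have hcomm : (z * b) * k * (z * b)⁻¹ = k := by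
    rw [show (z * b) * k * (z * b)⁻¹ = z * (b * k * b⁻¹) * z⁻¹ by group, hi1, hi2, inv_inv]
  have hqb : (q : G) * b * (q : G)⁻¹ = z * b := by rw [← hcZ]; group
  have h1 : b * ((q : G)⁻¹ * k * q) = (q : G)⁻¹ * k * q * b := by
    rw [← mul_inv_eq_iff_eq_mul]
    calc b * ((q : G)⁻¹ * k * q) * b⁻¹
        = (q : G)⁻¹ * (((q : G) * b * (q : G)⁻¹) * k * ((q : G) * b * (q : G)⁻¹)⁻¹) * q := by group
      _ = _ := by rw [hqb, hcomm]
  have h2 := hfix _ hk' h1
  calc k = (q : G) * ((q : G)⁻¹ * k * q) * (q : G)⁻¹ := by group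
    _ = 1 := by rw [h2]; simp

end Cfsg.Agent.S5421
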