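import Cfsg.Statements.S5422
import Cfsg.Agent.S5421
import Cfsg.Agent.Lib.Singular.Basic
-- import your own Cfsg.Agent.* helpers here

set_option autoImplicit false
open Cfsg Agent Agent.Lib.Singular

namespace Cfsg.Agent.S5422

/-- Let Q be an extraspecial 2-subgroup of the finite group G whose centralizer in G is its centre Z and which is normal in the centralizer of Z; suppose Q has width at least 2 (order 2^(2w+1) with w ≥ 2) and g is an element of G not normalizing Z with g Z g⁻¹ inside Q. Then Z lies inside g Q g⁻¹; writing V for the subgroup generated by Z and g Z g⁻¹ (a four-group), the normalizer of V induces on V its full automorphism group, that is, the centralizer of V has index 6 in the normalizer of V; and Q is a large extraspecial 2-subgroup of G. -/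
theorem result {G : Type*} [Group G] [Finite G] (Q : Subgroup G) (hL1 : Cfsg.IsExtraspecial 2 ↥Q) (hL2 : Subgroup.centralizer (Q : Set G) = ((Subgroup.center ↥Q).map Q.subtype)) (hL3 : Subgroup.centralizer (((Subgroup.center ↥Q).map Q.subtype) : Set G) ≤ Subgroup.normalizer (Q : Set G)) (w : ℕ) (hw : 2 ≤ w) (hcard : Nat.card ↥Q = 2 ^ (2 * w + 1)) (g : G) (hg : g ∉ Subgroup.normalizer (((Subgroup.center ↥Q).map Q.subtype) : Set G)) (hZg : (((Subgroup.center ↥Q).map Q.subtype)).map (MulAut.conj g).toMonoidHom ≤ Q) : ((Subgroup.center ↥Q).map Q.subtype) ≤ (Q).map (MulAut.conj g).toMonoidHom ∧ (Subgroup.centralizer ((((Subgroup.center ↥Q).map Q.subtype) ⊔ (((Subgroup.center ↥Q).map Q.subtype)).map (MulAut.conj g).toMonoidHom : Subgroup G) : Set G)).relIndex (Subgroup.normalizer ((((Subgroup.center ↥Q).map Q.subtype) ⊔ (((Subgroup.center ↥Q).map Q.subtype)).map (MulAut.conj g).toMonoidHom : Subgroup G) : Set G)) = 6 ∧ Cfsg.IsLargeExtraspecial Q := by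
  classical
  obtain ⟨z, hzZ, hz2, hzall⟩ := Lib.LargeExtra.exists_z hL1
  have hzQ : z ∈ Q := Lib.LargeExtra.Z_le Q hzZ
  have hleZ : ∀ a ∈ Q, a * z = z * a := fun a ha => by
    have h1 : a ∈ Q := ha
    obtain ⟨z', hz', rfl⟩ := hzZ
    exact congrArg Subtype.val (Subgroup.mem_center_iff.1 hz' ⟨a, h1⟩)
  have hCZ : ∀ c, c * z = z * c → c ∈ Subgroup.centralizer (((Subgroup.center ↥Q).map Q.subtype) : Set G) := fun c hc => by
    rw [Subgroup.mem_centralizer_iff]
    intro x hx
    rcases hzall x hx with rfl | rfl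
    · simp
    · exact hc.symm
  have hG : Good Q z := good_of hz2 hL1 (hL2.le.trans (Lib.LargeExtra.Z_le Q)) hleZ
    fun c hc a ha => Lib.LargeExtra.conj_mem (hL3 (hCZ c hc)) ha
  let P : G → Subgroup G := fun y => Subgroup.closure {a | ∃ h : G, h * z * h⁻¹ = y ∧ h⁻¹ * a * h ∈ Q}
  have hP : ∀ h : G, P (h * z * h⁻¹) = Q.map (MulAut.conj h).toMonoidHom := by
    intro h
    apply le_antisymm
    · refine (Subgroup.closure_le _).2 ?_
      rintro a ⟨k, hk, ha⟩
      have hc : h⁻¹ * k * z = z * (h⁻¹ * k) := by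
        have e := congrArg (fun t => h⁻¹ * t * k) hk
        simpa [mul_assoc] using e
      refine ⟨h⁻¹ * a * h, ?_, ?_⟩
      · have := hG.norm _ hc _ ha
        simpa [mul_assoc] using this
      · simp [mul_assoc]
    · rintro _ ⟨a, ha, rfl⟩
      exact Subgroup.subset_closure ⟨h, rfl, by simpa [mul_assoc] using ha⟩
  have hPz : P z = Q := by
    have := hP 1
    rw [one_mul, inv_one, mul_one] at this
    rw [this]; ext; simp
  have hconj : ∀ k y a, a ∈ P y → k * a * k⁻¹ ∈ P (k * y * k⁻¹) := by
    intro k y a ha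
    induction ha using Subgroup.closure_induction with
    | mem a ha =>
      obtain ⟨h, rfl, ha⟩ := ha
      exact Subgroup.subset_closure ⟨k * h, by group, by simpa [mul_assoc] using ha⟩
    | one => simp
    | mul a b _ _ ha hb => rw [show k * (a * b) * k⁻¹ = k * a * k⁻¹ * (k * b * k⁻¹) by group]; exact mul_mem ha hb
    | inv a _ ha => rw [show k * a⁻¹ * k⁻¹ = (k * a * k⁻¹)⁻¹ by group]; exact inv_mem ha
  set x := g * z * g⁻¹ with hx
  have hxQ : x ∈ Q := hZg ⟨z, hzZ, rfl⟩
  have hxz : x ≠ z := fun e => hg (by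
    rw [Subgroup.mem_normalizer_iff]
    intro a
    constructor
    · intro ha
      rcases hzall a ha with rfl | rfl
      · simp
      · rw [← hx, e]; exact hzZ
    · intro ha
      rcases hzall _ ha with h | h
      · rw [conj_eq_one_iff.1 h]; exact one_mem _
      · rw [mul_left_cancel (mul_right_cancel (h.trans e.symm) : g * a = g * z)]; exact hzZ)
  have hxx : x * x = 1 := by
    rw [hx, show g * z * g⁻¹ * (g * z * g⁻¹) = g * (z * z) * g⁻¹ by group, hG.sq]; group
  have hx1 : x ≠ 1 := fun e => hG.ne (conj_eq_one_iff.1 e)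
  have hGz : Good (P z) z := by rw [hPz]; exact hG
  have hGx : Good (P x) x := by
    rw [hx, hP]
    have back : ∀ a ∈ Q.map (MulAut.conj g).toMonoidHom, g⁻¹ * a * g ∈ Q := by
      rintro _ ⟨a, ha, rfl⟩; simpa [mul_assoc] using ha
    have fwd : ∀ a ∈ Q, g * a * g⁻¹ ∈ Q.map (MulAut.conj g).toMonoidHom := fun a ha => ⟨a, ha, rfl⟩
    refine ⟨hxx, hx1, fwd z hzQ, ?_, ?_, ?_, ?_, ?_, ?_⟩
    · intro a ha
      have := congrArg (fun t => g * t * g⁻¹) (hG.le _ (back a ha))
      simpa [mul_assoc] using this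
    · intro c hc a ha
      have hc' : g⁻¹ * c * g * z = z * (g⁻¹ * c * g) := by
        have := congrArg (fun t => g⁻¹ * t * g) hc
        simpa [mul_assoc] using this
      have := fwd _ (hG.norm _ hc' _ (back a ha))
      simpa [mul_assoc] using this
    · intro a ha b hb
      refine (hG.comm _ (back a ha) _ (back b hb)).imp (fun e => ?_) (fun e => ?_) <;>
        · have := congrArg (fun t => g * t * g⁻¹) e
          simpa [mul_assoc] using this
    · intro a ha
      refine (hG.sqr _ (back a ha)).imp (fun e => ?_) (fun e => ?_) <;>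
        · have := congrArg (fun t => g * t * g⁻¹) e
          simpa [mul_assoc] using this
    · intro c hc
      refine (hG.cent (g⁻¹ * c * g) fun a ha => ?_).imp (fun e => ?_) (fun e => ?_)
      · have := congrArg (fun t => g⁻¹ * t * g) (hc _ (fwd a ha))
        simpa [mul_assoc] using this
      all_goals
        have := congrArg (fun t => g * t * g⁻¹) e
        simpa [mul_assoc] using this
    · obtain ⟨v, hv, h1, h2⟩ := hG.nontriv
      exact ⟨_, fwd v hv, fun e => h1 (conj_eq_one_iff.1 e), fun e => h2 (mul_left_cancel (mul_right_cancel e))⟩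
  have hzgQ : z ∈ Q.map (MulAut.conj g).toMonoidHom := by
    have := Lib.Singular.symm P hconj hGz hGx (by rw [hPz]; exact hxQ)
    rwa [hx, hP] at this
  refine ⟨?_, ?_, ?_⟩
  · intro a ha
    rcases hzall a ha with rfl | rfl
    · exact one_mem _
    · exact hzgQ
  · set V := (((Subgroup.center ↥Q).map Q.subtype) ⊔ (((Subgroup.center ↥Q).map Q.subtype)).map (MulAut.conj g).toMonoidHom : Subgroup G) with hV
    have hxzc : x * z = z * x := hG.le x hxQ
    have hzV : z ∈ V := Subgroup.mem_sup_left hzZ
    have hxV : x ∈ V := Subgroup.mem_sup_right ⟨z, hzZ, rfl⟩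
    have hVmem : ∀ v ∈ V, v = 1 ∨ v = z ∨ v = x ∨ v = z * x := by
      let W : Subgroup G :=
        { carrier := {v | v = 1 ∨ v = z ∨ v = x ∨ v = z * x}
          one_mem' := Or.inl rfl
          mul_mem' := fun {a b} ha hb => by
            have h3 : z * (z * x) = x := by rw [← mul_assoc, hG.sq, one_mul]
            have h4 : x * (z * x) = z := by rw [← mul_assoc, hxzc, mul_assoc, hxx, mul_one]
            have h5 : z * x * z = x := by rw [mul_assoc, hxzc, h3]
            have h6 : z * x * x = z := by rw [mul_assoc, hxx, mul_one]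
            have h7 : z * x * (z * x) = 1 := by rw [mul_assoc, h4, hG.sq]
            rcases ha with rfl | rfl | rfl | rfl <;> rcases hb with rfl | rfl | rfl | rfl <;>
              simp [hG.sq, hxx, hxzc, h3, h4, h5, h6, h7]
          inv_mem' := fun {a} ha => by
            rcases ha with rfl | rfl | rfl | rfl
            · simp
            · exact Or.inr (Or.inl (inv_eq_of_mul_eq_one_right hG.sq))
            · exact Or.inr (Or.inr (Or.inl (inv_eq_of_mul_eq_one_right hxx)))
            · refine Or.inr (Or.inr (Or.inr (inv_eq_of_mul_eq_one_right ?_)))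
              rw [mul_assoc, ← mul_assoc x z x, hxzc, mul_assoc z x x, hxx, mul_one, hG.sq] }
      have : V ≤ W := by
        refine sup_le (fun a ha => ?_) ?_
        · rcases hzall a ha with rfl | rfl
          exacts [Or.inl rfl, Or.inr (Or.inl rfl)]
        · rintro _ ⟨a, ha, rfl⟩
          rcases hzall a ha with rfl | rfl
          exacts [Or.inl (map_one _), Or.inr (Or.inr (Or.inl rfl))]
      exact fun v hv => this hv
    set N := Subgroup.normalizer (V : Set G) with hN
    let S := {v : G // v ∈ V ∧ v ≠ 1}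
    let f : ↥N →* Equiv.Perm S :=
      { toFun := fun n =>
          { toFun := fun v => ⟨(n : G) * v.1 * (n : G)⁻¹, (Subgroup.mem_normalizer_iff.1 n.2 v.1).1 v.2.1, fun e => v.2.2 (conj_eq_one_iff.1 e)⟩
            invFun := fun v => ⟨(n : G)⁻¹ * v.1 * n, (Subgroup.mem_normalizer_iff.1 n.2 _).2 (by simpa [mul_assoc] using v.2.1), fun e => v.2.2 (by simpa [mul_assoc] using congrArg (fun t => (n : G) * t * (n : G)⁻¹) e)⟩
            left_inv := fun v => by ext; simp [mul_assoc]
            right_inv := fun v => by ext; simp [mul_assoc] }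
        map_one' := by ext v; simp
        map_mul' := fun a b => by ext v; simp [mul_assoc] }
    have hker : (Subgroup.centralizer (V : Set G)).subgroupOf N = f.ker := by
      ext n
      rw [Subgroup.mem_subgroupOf, Subgroup.mem_centralizer_iff, MonoidHom.mem_ker]
      constructor
      · intro h
        ext v
        show (n : G) * v.1 * (n : G)⁻¹ = v.1
        rw [← h v.1 v.2.1, mul_inv_cancel_right]
      · intro h v hv
        by_cases hv1 : v = 1
        · simp [hv1]
        · have := congrArg (fun σ : Equiv.Perm S => (σ ⟨v, hv, hv1⟩).1) h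
          exact (mul_inv_eq_iff_eq_mul.1 (this : (n : G) * v * (n : G)⁻¹ = v)).symm
    haveI : Fintype S := Fintype.ofFinite _
    have hne : z * x ≠ 1 := fun e => hxz (by
      rw [eq_inv_of_mul_eq_one_right e]; exact inv_eq_of_mul_eq_one_right hG.sq)
    have hzxz : z * x ≠ z := fun e => hx1 (mul_eq_left.1 e)
    have hzxx : z * x ≠ x := fun e => hG.ne (mul_eq_right.1 e)
    have hS3 : Fintype.card S = 3 := by
      let a : S := ⟨z, hzV, hG.ne⟩
      let b : S := ⟨x, hxV, hx1⟩
      let c : S := ⟨z * x, mul_mem hzV hxV, hne⟩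
      have : (Finset.univ : Finset S) = {a, b, c} := by
        ext v
        simp only [Finset.mem_univ, Finset.mem_insert, Finset.mem_singleton, true_iff]
        rcases hVmem v.1 v.2.1 with h | h | h | h
        exacts [absurd h v.2.2, Or.inl (Subtype.ext h), Or.inr (Or.inl (Subtype.ext h)), Or.inr (Or.inr (Subtype.ext h))]
      rw [← Finset.card_univ, this]
      exact Finset.card_eq_three.2 ⟨a, b, c, fun e => hxz (congrArg Subtype.val e).symm,
        fun e => hzxz (congrArg Subtype.val e).symm, fun e => hzxx (congrArg Subtype.val e).symm, rfl⟩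
    have hcardP : Nat.card (Equiv.Perm S) = 6 := by
      rw [Nat.card_eq_fintype_card, Fintype.card_perm, hS3]; rfl
    obtain ⟨q, hq, hqx⟩ := exists_mover hG hxQ hx1 hxz
    obtain ⟨q', hq', hq'z⟩ := exists_mover hGx (Lib.Singular.symm P hconj hGz hGx (by rw [hPz]; exact hxQ)) hG.ne (Ne.symm hxz)
    have hqz : q * z * q⁻¹ = z := by rw [hG.le q hq, mul_inv_cancel_right]
    have hq'x : q' * x * q'⁻¹ = x := by rw [hGx.le q' hq', mul_inv_cancel_right]
    have hqN : ∀ r : G, (∀ v ∈ V, r * v * r⁻¹ ∈ V) → r ∈ N := fun r h => by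
      rw [hN]; exact Subgroup.mem_normalizer_fintype h
    have hNq : q ∈ N := hqN q fun v hv => by
      rcases hVmem v hv with rfl | rfl | rfl | rfl
      · simp
      · rw [hqz]; exact hzV
      · rw [hqx]; exact mul_mem hzV hxV
      · rw [show q * (z * x) * q⁻¹ = (q * z * q⁻¹) * (q * x * q⁻¹) by group, hqz, hqx]
        exact mul_mem hzV (mul_mem hzV hxV)
    have hNq' : q' ∈ N := hqN q' fun v hv => by
      rcases hVmem v hv with rfl | rfl | rfl | rfl
      · simp
      · rw [hq'z]; exact mul_mem hxV hzV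
      · rw [hq'x]; exact hxV
      · rw [show q' * (z * x) * q'⁻¹ = (q' * z * q'⁻¹) * (q' * x * q'⁻¹) by group, hq'z, hq'x]
        exact mul_mem (mul_mem hxV hzV) hxV
    set s := f ⟨q, hNq⟩ with hs
    set t := f ⟨q', hNq'⟩ with ht
    have hsv : ∀ v : S, (s v).1 = q * v.1 * q⁻¹ := fun v => rfl
    have htv : ∀ v : S, (t v).1 = q' * v.1 * q'⁻¹ := fun v => rfl
    have hqzx : q * (z * x) * q⁻¹ = x := by
      rw [show q * (z * x) * q⁻¹ = (q * z * q⁻¹) * (q * x * q⁻¹) by group, hqz, hqx, ← mul_assoc, hG.sq, one_mul]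
    have ho2 : orderOf s = 2 := by
      refine orderOf_eq_prime (Equiv.ext fun v => Subtype.ext ?_) fun e => ?_
      · show (s (s v)).1 = v.1
        rw [hsv, hsv]
        rcases hVmem v.1 v.2.1 with h | h | h | h <;> rw [h]
        · group
        · rw [hqz, hqz]
        · rw [hqx, hqzx]
        · rw [hqzx, hqx]
      · have := congrArg (fun σ : Equiv.Perm S => (σ ⟨x, hxV, hx1⟩).1) e
        simp only [hsv, Equiv.Perm.one_apply] at this
        exact hzxx (hqx ▸ this)
    have ho3 : orderOf (s * t) = 3 := by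
      haveI : Fact (Nat.Prime 3) := ⟨Nat.prime_three⟩
      refine orderOf_eq_prime (Equiv.ext fun v => Subtype.ext ?_) fun e => ?_
      · show (s (t (s (t (s (t v)))))).1 = v.1
        rw [hsv, htv, hsv, htv, hsv, htv]
        have mz : q * (q' * z * q'⁻¹) * q⁻¹ = x := by
          rw [hq'z, show q * (x * z) * q⁻¹ = (q * x * q⁻¹) * (q * z * q⁻¹) by group, hqx, hqz, mul_assoc, hxzc, ← mul_assoc, hG.sq, one_mul]
        have mx : q * (q' * x * q'⁻¹) * q⁻¹ = z * x := by rw [hq'x, hqx]
        have mzx : q * (q' * (z * x) * q'⁻¹) * q⁻¹ = z := by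
          rw [show q * (q' * (z * x) * q'⁻¹) * q⁻¹ = (q * (q' * z * q'⁻¹) * q⁻¹) * (q * (q' * x * q'⁻¹) * q⁻¹) by group, mz, mx,
            ← mul_assoc, hxzc, mul_assoc, hxx, mul_one]
        rcases hVmem v.1 v.2.1 with h | h | h | h <;> rw [h]
        · group
        · rw [mz, mx, mzx]
        · rw [mx, mzx, mz]
        · rw [mzx, mz, mx]
      · have := congrArg (fun σ : Equiv.Perm S => (σ ⟨z, hzV, hG.ne⟩).1) e
        simp only [Equiv.Perm.mul_apply, hsv, htv, Equiv.Perm.one_apply] at this
        rw [hq'z, show q * (x * z) * q⁻¹ = (q * x * q⁻¹) * (q * z * q⁻¹) by group, hqx, hqz, mul_assoc, hxzc, ← mul_assoc, hG.sq, one_mul] at this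
        exact hxz this
    rw [Subgroup.relIndex, hker, Subgroup.index_ker]
    have d2 : 2 ∣ Nat.card f.range := by
      rw [← ho2]; exact Subgroup.orderOf_dvd_natCard _ ⟨_, rfl⟩
    have d3 : 3 ∣ Nat.card f.range := by
      rw [← ho3]; exact Subgroup.orderOf_dvd_natCard _ (mul_mem ⟨_, rfl⟩ ⟨_, rfl⟩)
    have d6 := Subgroup.card_subgroup_dvd_card f.range
    rw [hcardP] at d6
    exact Nat.dvd_antisymm d6 (Nat.Coprime.mul_dvd_of_dvd_of_dvd (by norm_num : Nat.Coprime 2 3) d2 d3)
  · refine Cfsg.Agent.S5421.result Q hL1 hL2 hL3 x hxQ (fun h => ?_) (orderOf_eq_prime (by rw [pow_two, hxx]) hx1) ?_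
    · exact (hzall x h).elim hx1 hxz
    · intro a ha
      have hsub : ∀ b ∈ Q.map (MulAut.conj g).toMonoidHom, b ∈ Subgroup.centralizer ({x} : Set G) := fun b hb =>
        Subgroup.mem_centralizer_singleton_iff.2 (hGx.le b (by rw [hx, hP]; exact hb))
      haveI : ((Q.map (MulAut.conj g).toMonoidHom).subgroupOf (Subgroup.centralizer ({x} : Set G))).Normal := by
        refine ⟨fun b hb c => ?_⟩
        rw [Subgroup.mem_subgroupOf] at hb ⊢
        have hPx : P x = Q.map (MulAut.conj g).toMonoidHom := hP g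
        rw [← hPx] at hb ⊢
        exact hGx.norm c.1 (Subgroup.mem_centralizer_singleton_iff.1 c.2) _ hb
      have hp : IsPGroup 2 ↥((Q.map (MulAut.conj g).toMonoidHom).subgroupOf (Subgroup.centralizer ({x} : Set G))) :=
        (hL1.1.1.map _).comap_of_injective _ (Subgroup.subtype_injective _)
      have haQ : a ∈ Q.map (MulAut.conj g).toMonoidHom := by
        rcases hzall a ha with rfl | rfl
        exacts [one_mem _, hzgQ]
      exact ⟨⟨a, hsub a haQ⟩, Lib.Components.le_pCore hp haQ, rfl⟩

end Cfsg.Agent.S5422
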