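import Cfsg.Statements.S5408
import Cfsg.Agent.Lib.Monster.Setting
import Cfsg.Agent.Lib.Leech.Index
-- import your own Cfsg.Agent.* helpers here

set_option autoImplicit false
open Cfsg

namespace Cfsg.Agent.S5408

open Cfsg

/-- Integer vectors with even sum. -/
def Kev : AddSubgroup (GolayPt → ℤ) where
  carrier := {x | (2 : ℤ) ∣ ∑ i, x i}
  zero_mem' := by simp
  add_mem' := fun {a b} ha hb => by
    show (2 : ℤ) ∣ ∑ i, (a i + b i)
    rw [Finset.sum_add_distrib]; exact dvd_add ha hb
  neg_mem' := fun {a} ha => by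
    show (2 : ℤ) ∣ ∑ i, (- a i)
    rw [Finset.sum_neg_distrib]; exact dvd_neg.2 ha

theorem index_Kev : Kev.index = 2 := by
  rw [AddSubgroup.index_eq_two_iff]
  refine ⟨Pi.single none 1, fun b => ?_⟩
  show Xor ((2 : ℤ) ∣ ∑ i, (b i + (Pi.single none (1 : ℤ) : GolayPt → ℤ) i)) ((2 : ℤ) ∣ ∑ i, b i)
  rw [Finset.sum_add_distrib, Finset.sum_pi_single', if_pos (Finset.mem_univ _), xor_iff_iff_not]
  omega

theorem parCode4_le : Lib.Leech.parCode4 ≤ Kev := fun _ h => Lib.Leech.sum_even_of_parCode h.1

/-- The vector `4x`. -/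
def four : ↥Kev →+ ↥leechLattice where
  toFun x := ⟨fun i => 4 * (x : GolayPt → ℤ) i, Lib.Leech.mem_iff.2 ⟨0, fun i => 2 * (x : GolayPt → ℤ) i, Or.inl rfl,
    fun i => by ring, by
      have h := x.2
      change (2 : ℤ) ∣ ∑ i, (x : GolayPt → ℤ) i at h
      rw [← Finset.mul_sum]; omega, by
      convert Submodule.zero_mem golayCode using 1
      funext i
      show ((2 * (x : GolayPt → ℤ) i : ℤ) : ZMod 2) = 0
      rw [ZMod.intCast_zmod_eq_zero_iff_dvd]; exact dvd_mul_right _ _⟩⟩
  map_zero' := Subtype.ext (funext fun i => by simp)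
  map_add' x y := Subtype.ext (funext fun i => by simp [mul_add])

theorem four_double (x : ↥Kev) : (∃ w : ↥leechLattice, four x = w + w) ↔ (x : GolayPt → ℤ) ∈ Lib.Leech.parCode4 := by
  constructor
  · rintro ⟨w, hw⟩
    have h : ∀ i, (w : GolayPt → ℤ) i = 2 * (x : GolayPt → ℤ) i := fun i => by
      have := congrArg (fun t : ↥leechLattice => (t : GolayPt → ℤ) i) hw
      change 4 * (x : GolayPt → ℤ) i = (w : GolayPt → ℤ) i + (w : GolayPt → ℤ) i at this
      omega
    obtain ⟨m, y, hm, hy, hs, hc⟩ := Lib.Leech.mem_iff.1 w.2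
    obtain rfl : m = 0 := by have := hy none; rw [h] at this; omega
    have hyx : y = (x : GolayPt → ℤ) := funext fun i => by have := hy i; rw [h] at this; omega
    subst hyx
    refine ⟨hc, ?_⟩
    rw [Finset.sum_congr rfl (fun i _ => h i), ← Finset.mul_sum] at hs
    omega
  · intro hx
    refine ⟨⟨_, Lib.Leech.map_parCode4_le ⟨_, hx, rfl⟩⟩, Subtype.ext (funext fun i => ?_)⟩
    show 4 * (x : GolayPt → ℤ) i = 2 * (x : GolayPt → ℤ) i + 2 * (x : GolayPt → ℤ) i
    ring

/-- The span of the frame vectors. -/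
def frames : AddSubgroup ↥leechLattice := AddSubgroup.closure (Set.range fun p : GolayPt × GolayPt => Lib.Monster.Psi.fr p.1 p.2)

theorem four_mem (x : ↥Kev) : four x ∈ frames := by
  obtain ⟨t, ht⟩ := x.2
  have e : four x = (∑ i, (x : GolayPt → ℤ) i • Lib.Monster.Psi.fr i none) - t • Lib.Monster.Psi.fr none none := by
    apply Subtype.ext
    rw [AddSubgroup.coe_sub, AddSubgroup.val_finsetSum]
    funext p
    rw [Pi.sub_apply, Finset.sum_apply]
    simp only [AddSubgroup.coe_zsmul, Pi.smul_apply, smul_eq_mul, Lib.Monster.Psi.fr, Lib.Leech.frame, mul_add, Finset.sum_add_distrib]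
    show 4 * (x : GolayPt → ℤ) p = _
    rw [← Finset.sum_mul, ht, Finset.sum_eq_single p (fun b _ hb => by rw [if_neg (Ne.symm hb), mul_zero])
      (fun h => absurd (Finset.mem_univ p) h), if_pos rfl]
    ring
  rw [e]
  have hm : ∀ i j : GolayPt, Lib.Monster.Psi.fr i j ∈ frames := fun i j => AddSubgroup.subset_closure ⟨(i, j), rfl⟩
  exact sub_mem (sum_mem fun i _ => zsmul_mem (hm i none) _) (zsmul_mem (hm none none) _)

theorem singular {P : Type*} [Group P] {ψ : ↥leechLattice → P ⧸ Subgroup.center P} (S : Lib.Monster.Psi ψ) :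
    ∀ w ∈ frames, S.qform w = 0 ∧ ∀ u ∈ frames, S.bform w u = 0 := by
  have hb : ∀ p : GolayPt × GolayPt, ∀ u ∈ frames, S.bform (Lib.Monster.Psi.fr p.1 p.2) u = 0 := by
    intro p u hu
    induction hu using AddSubgroup.closure_induction with
    | mem a ha => obtain ⟨q, rfl⟩ := ha; exact S.bform_frames _ _ _ _
    | zero => exact map_zero (S.bHom _)
    | add a b _ _ ha hb => rw [S.bform_add, ha, hb, add_zero]
    | neg a _ ha => exact (map_neg (S.bHom (Lib.Monster.Psi.fr p.1 p.2)) a).trans (by rw [show S.bHom (Lib.Monster.Psi.fr p.1 p.2) a = 0 from ha, neg_zero])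
  have hb2 : ∀ w ∈ frames, ∀ u ∈ frames, S.bform w u = 0 := by
    intro w hw u hu
    rw [S.bform_symm]
    induction hw using AddSubgroup.closure_induction with
    | mem a ha => obtain ⟨q, rfl⟩ := ha; rw [S.bform_symm]; exact hb q u hu
    | zero => exact map_zero (S.bHom _)
    | add a b _ _ ha hb => rw [S.bform_add, ha, hb, add_zero]
    | neg a _ ha => exact (map_neg (S.bHom u) a).trans (by rw [show S.bHom u a = 0 from ha, neg_zero])
  intro w hw
  refine ⟨?_, hb2 w hw⟩
  induction hw using AddSubgroup.closure_induction with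
  | mem a ha => obtain ⟨q, rfl⟩ := ha; exact S.qform_frames _ _
  | zero =>
    have h := S.qform_add 0 0
    rw [add_zero, show S.bform 0 0 = 0 from map_zero (S.bHom 0), add_zero] at h
    exact left_eq_add.1 h
  | add a b ha hb' iha ihb => rw [S.qform_add, iha, ihb, hb2 a ha b hb']; simp
  | neg a ha iha => rw [Lib.Monster.Psi.qform, S.map_neg]; exact iha

/-- Let G be a finite group of Monster type at the involution z with Q the extraspecial normal subgroup of order 2^25 of C = C_G(z) (so C/Q is identified with the first Conway group with Q modulo its centre the Leech lattice modulo 2, and z is not weakly closed in Q). Then Q is of plus type: it contains an elementary abelian subgroup of order 2^13. -/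
theorem result {G : Type*} [Group G] [Finite G] (z : G) (Q : Subgroup (Subgroup.centralizer ({z} : Set G))) [Q.Normal] (hM : Cfsg.IsOfMonsterType z Q) : ∃ E : Subgroup Q, Cfsg.IsElementaryAbelian 2 E ∧ Nat.card E = 2 ^ 13 := by
  obtain ⟨hcard, ψ, S⟩ := Lib.Monster.psi_of_monsterType hM
  let f : Multiplicative ↥Kev →* Q ⧸ Subgroup.center Q :=
    { toFun := fun x => ψ (four x.toAdd)
      map_one' := by rw [toAdd_one, map_zero, S.map_zero]
      map_mul' := fun x y => by rw [toAdd_mul, map_add, S.add] }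
  have hker : f.ker = (Lib.Leech.parCode4.addSubgroupOf Kev).toSubgroup := by
    ext x
    rw [MonoidHom.mem_ker]
    show ψ (four x.toAdd) = 1 ↔ (x.toAdd : Cfsg.GolayPt → ℤ) ∈ Lib.Leech.parCode4
    rw [S.ker, four_double]
  have hf : Nat.card f.range = 4096 := by
    rw [← Subgroup.index_ker, hker, AddSubgroup.index_toSubgroup]
    show Lib.Leech.parCode4.relIndex Kev = 4096
    have h := AddSubgroup.relIndex_mul_index parCode4_le
    rw [Lib.Leech.index_parCode4, index_Kev] at h
    omega
  have hzero : ∀ x : ↥Kev, S.qform (four x) = 0 ∧ ∀ y : ↥Kev, S.bform (four x) (four y) = 0 := by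
    intro x
    exact ⟨(singular S _ (four_mem x)).1, fun y => (singular S _ (four_mem x)).2 _ (four_mem y)⟩
  refine ⟨f.range.comap (QuotientGroup.mk' _), ⟨⟨⟨?_⟩⟩, ?_⟩, ?_⟩
  · rintro ⟨a, ⟨x, hx⟩⟩ ⟨b, ⟨y, hy⟩⟩
    apply Subtype.ext
    show a * b = b * a
    have h := (hzero x.toAdd).2 y.toAdd
    rw [Lib.Monster.Psi.bform, show ψ (four x.toAdd) = QuotientGroup.mk a from hx,
      show ψ (four y.toAdd) = QuotientGroup.mk b from hy, Lib.Monster.commF_mk, Lib.Monster.chi_eq_zero] at h
    exact commutatorElement_eq_one_iff_mul_comm.1 h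
  · rintro a ⟨x, hx⟩
    have h := (hzero x.toAdd).1
    rw [Lib.Monster.Psi.qform, show ψ (four x.toAdd) = QuotientGroup.mk a from hx,
      Lib.Monster.sqF_mk S.card_center, Lib.Monster.chi_eq_zero] at h
    rw [pow_two]
    exact h
  · have h1 := Subgroup.card_mul_index (f.range.comap (QuotientGroup.mk' (Subgroup.center Q)))
    rw [Subgroup.index_comap_of_surjective _ (QuotientGroup.mk'_surjective _)] at h1
    have h2 := Subgroup.card_mul_index f.range
    have h3 := Subgroup.card_eq_card_quotient_mul_card_subgroup (Subgroup.center Q)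
    rw [hf] at h2
    rw [hcard, S.card_center] at h3
    rw [hcard] at h1
    have h5 : 0 < f.range.index := Nat.pos_of_ne_zero Subgroup.index_ne_zero_of_finite
    refine Nat.eq_of_mul_eq_mul_right h5 ?_
    rw [h1]
    norm_num at h2 h3 ⊢
    omega

end Cfsg.Agent.S5408
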