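import Cfsg.Statements.S3780
import Cfsg.Agent.Lib.PGroupFrattini
import Mathlib

set_option autoImplicit false
open Cfsg

namespace Cfsg.Agent.S3780


open Subgroup

lemma sub_one_pow_prime {R : Type*} [Ring R] {p : ℕ} (hp : p.Prime) (a : R) (hap : a ^ p = 1) :
    ∃ r : R, (a - 1) ^ p = (p : R) * r := by
  obtain ⟨r, hr⟩ := ((Commute.one_right a).neg_right).exists_add_pow_prime_eq hp
  rw [← sub_eq_add_neg, hap] at hr
  rcases hp.eq_two_or_odd' with h2 | h2
  · refine ⟨1 + a * -1 * r, ?_⟩
    subst h2
    rw [hr, mul_add, mul_one, neg_one_sq, Nat.cast_ofNat, one_add_one_eq_two]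
    simp [mul_assoc]
  · refine ⟨a * -1 * r, ?_⟩
    rw [hr, h2.neg_one_pow, add_neg_cancel, zero_add, ← mul_assoc, ← mul_assoc]

lemma exists_small {V : Type*} [CommGroup V] [Finite V] {p : ℕ} [hp : Fact p.Prime] (hV : IsPGroup p V) :
    ∃ S : Finset V, Subgroup.closure (S : Set V) = ⊤ ∧ p ^ S.card * Nat.card (frattini V) ≤ Nat.card V := by
  classical
  haveI := Fintype.ofFinite V
  obtain ⟨S, hS, hmax⟩ := (Finset.univ.filter fun S : Finset V =>
    p ^ S.card * Nat.card (frattini V) ≤ Nat.card (frattini V ⊔ closure (S : Set V) : Subgroup V)).exists_max_image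
    Finset.card ⟨∅, by simp⟩
  simp only [Finset.mem_filter, Finset.mem_univ, true_and] at hS hmax
  refine ⟨S, ?_, hS.trans (Subgroup.card_le_card_group _)⟩
  apply frattini_nongenerating
  rw [sup_comm]
  by_contra hne
  obtain ⟨x, -, hx⟩ := SetLike.exists_of_lt (lt_top_iff_ne_top.mpr hne)
  have hxS : x ∉ S := fun h => hx (mem_sup_right (subset_closure h))
  have hlt : frattini V ⊔ closure (S : Set V) < frattini V ⊔ closure (↑(insert x S) : Set V) := by
    refine lt_of_le_of_ne (sup_le_sup_left (Subgroup.closure_mono (by simp)) _) fun h => hx (h ▸ ?_)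
    exact mem_sup_right (subset_closure (by simp))
  have h1 : p * Nat.card (frattini V ⊔ closure (S : Set V) : Subgroup V) ≤
      Nat.card (frattini V ⊔ closure (↑(insert x S) : Set V) : Subgroup V) := by
    obtain ⟨a, ha⟩ := IsPGroup.iff_card.mp (hV.to_subgroup (frattini V ⊔ closure (S : Set V)))
    obtain ⟨b, hb⟩ := IsPGroup.iff_card.mp (hV.to_subgroup (frattini V ⊔ closure (↑(insert x S) : Set V)))
    have h2 : p ^ a < p ^ b := by
      rw [← ha, ← hb]
      exact lt_of_le_of_ne (Subgroup.card_le_of_le hlt.le) fun h => hlt.ne (eq_of_le_of_card_ge hlt.le h.ge)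
    rw [ha, hb, ← pow_succ']
    exact Nat.pow_le_pow_right hp.out.pos ((Nat.pow_lt_pow_iff_right hp.out.one_lt).mp h2)
  have h3 := hmax (insert x S) (by
    rw [Finset.card_insert_of_notMem hxS, pow_succ', mul_assoc]
    exact (Nat.mul_le_mul_left p hS).trans h1)
  rw [Finset.card_insert_of_notMem hxS] at h3
  omega

/-- Let V be a finite abelian p-group and α an automorphism of V of order p whose fixed-point subgroup has order p^n. Then V can be generated by pn elements: some subset of V with at most pn elements generates V. -/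
theorem result {V : Type*} [CommGroup V] [Finite V] {p : ℕ} [Fact p.Prime] (hV : IsPGroup p V) (α : MulAut V) (hα : orderOf α = p) (n : ℕ) (hfix : Nat.card {v : V // α v = v} = p ^ n) : ∃ S : Finset V, S.card ≤ p * n ∧ Subgroup.closure (S : Set V) = ⊤ := by
  obtain ⟨S, hS, hcard⟩ := exists_small hV
  refine ⟨S, ?_, hS⟩
  have hp := (Fact.out : p.Prime)
  -- the torsion part is small
  let R := AddMonoid.End (Additive V)
  let a : R := (MulEquiv.toAdditive α).toAddMonoidHom
  have hpow : ∀ (i : ℕ) (v : Additive V), (a ^ i : R) v = Additive.ofMul ((α ^ i) (Additive.toMul v)) := by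
    intro i
    induction i with
    | zero => exact fun v => rfl
    | succ i ih =>
      intro v
      rw [pow_succ', pow_succ', MulAut.mul_apply]
      show a ((a ^ i : R) v) = _
      rw [ih]
      rfl
  have hap : a ^ p = 1 := AddMonoidHom.ext fun v => (hpow p v).trans (by
    rw [← hα, pow_orderOf_eq_one]
    rfl)
  obtain ⟨r, hr⟩ := sub_one_pow_prime hp a hap
  let K : ℕ → AddSubgroup (Additive V) := fun k => ((a - 1) ^ k : R).ker ⊓ (p : R).ker
  have hK1 : Nat.card (K 1) ≤ p ^ n := by
    rw [← hfix]
    refine Nat.card_le_card_of_injective (fun v => ⟨Additive.toMul (v : Additive V), ?_⟩) ?_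
    · have h1 : ((a - 1) ^ 1 : R) (v : Additive V) = 0 := v.2.1
      rw [pow_one] at h1
      have h2 : a (v : Additive V) - (v : Additive V) = 0 := h1
      exact congrArg Additive.toMul (sub_eq_zero.mp h2)
    · intro u v h
      exact Subtype.ext (congrArg Subtype.val h :)
  have hstep : ∀ k, Nat.card (K (k + 1)) ≤ Nat.card (K k) * Nat.card (K 1) := by
    intro k
    let g : K (k + 1) →+ K 1 := AddMonoidHom.codRestrict (((a - 1) ^ k : R).comp (K (k + 1)).subtype) _ fun v => by
      refine ⟨?_, ?_⟩
      · show ((a - 1) ^ 1 : R) (((a - 1) ^ k : R) v) = 0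
        have h1 : ((a - 1) ^ (k + 1) : R) v = 0 := v.2.1
        rw [pow_succ'] at h1
        rw [pow_one]
        exact h1
      · show (p : R) (((a - 1) ^ k : R) v) = 0
        have h1 : (p : R) v = 0 := v.2.2
        rw [show (p : R) (((a - 1) ^ k : R) v) = ((p : R) * (a - 1) ^ k) v from rfl, (Nat.cast_commute p _).eq]
        show ((a - 1) ^ k : R) ((p : R) v) = 0
        rw [h1, map_zero]
    rw [← g.ker.card_mul_index, AddSubgroup.index_ker]
    refine Nat.mul_le_mul ?_ (Finite.card_subtype_le _)
    refine Nat.card_le_card_of_injective (fun v => ⟨((v : K (k + 1)) : Additive V), ?_, (v : K (k + 1)).2.2⟩) ?_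
    · exact congrArg Subtype.val (AddMonoidHom.mem_ker.mp v.2)
    · intro u v h
      exact Subtype.ext (Subtype.ext (congrArg Subtype.val h :))
  have hKk : ∀ k, Nat.card (K k) ≤ p ^ (n * k) := by
    intro k
    induction k with
    | zero =>
      rw [mul_zero, pow_zero, Finite.card_le_one_iff_subsingleton]
      refine ⟨fun u v => Subtype.ext ?_⟩
      have h1 : (1 : R) (u : Additive V) = 0 := by have := u.2.1; rwa [pow_zero] at this
      have h2 : (1 : R) (v : Additive V) = 0 := by have := v.2.1; rwa [pow_zero] at this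
      exact h1.trans h2.symm
    | succ k ih =>
      refine (hstep k).trans ?_
      rw [mul_add, mul_one, pow_add]
      exact Nat.mul_le_mul ih hK1
  let f : V →* V := powMonoidHom p
  have hker : Nat.card f.ker ≤ p ^ (n * p) := by
    refine le_trans (Nat.card_le_card_of_injective (fun v => (⟨Additive.ofMul (v : V), ?_, ?_⟩ : K p)) ?_) (hKk p)
    · show ((a - 1) ^ p : R) (Additive.ofMul (v : V)) = 0
      rw [hr]
      show (p : R) (r (Additive.ofMul (v : V))) = 0
      rw [AddMonoid.End.natCast_apply, ← map_nsmul]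
      have : p • Additive.ofMul (v : V) = 0 := congrArg Additive.ofMul (MonoidHom.mem_ker.mp v.2)
      rw [this, map_zero]
    · show (p : R) (Additive.ofMul (v : V)) = 0
      rw [AddMonoid.End.natCast_apply]
      exact congrArg Additive.ofMul (MonoidHom.mem_ker.mp v.2)
    · intro u v h
      exact Subtype.ext (congrArg Subtype.val h :)
  have h2 : Nat.card V ≤ p ^ (n * p) * Nat.card (frattini V) := by
    rw [← f.ker.card_mul_index, index_ker]
    refine Nat.mul_le_mul hker (Subgroup.card_le_of_le ?_)
    rintro _ ⟨x, rfl⟩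
    exact Lib.PGroupFrattini.pow_mem_frattini hV x
  have h3 := hcard.trans h2
  rw [mul_comm p n]
  exact (Nat.pow_le_pow_iff_right hp.two_le).mp (Nat.le_of_mul_le_mul_right h3 Nat.card_pos)

end Cfsg.Agent.S3780
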