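import Cfsg.Statements.S5552
import Cfsg.Agent.Lib.Leech.Functional
-- import your own Cfsg.Agent.* helpers here

set_option autoImplicit false
open Cfsg Agent.Lib.Leech

namespace Cfsg.Agent.S5552

/-- On the Leech lattice of the definitions, let Q be a function to the field with two elements that is constant on cosets of twice the lattice, is a quadratic form there (Q(u+v+w) + Q(u) + Q(v) + Q(w) = Q(u+v) + Q(u+w) + Q(v+w) for all u, v, w), is invariant under every lattice automorphism, and is not identically zero. Then Q(v) is the squared length of v divided by 16, reduced modulo 2, for every lattice vector v (squared lengths of lattice vectors are multiples of 16). -/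
theorem result (Q : ↥Cfsg.leechLattice → ZMod 2) (hcoset : ∀ v w : ↥Cfsg.leechLattice, Q (v + (w + w)) = Q v) (hquad : ∀ u v w : ↥Cfsg.leechLattice, Q (u + v + w) + Q u + Q v + Q w = Q (u + v) + Q (u + w) + Q (v + w)) (hinv : ∀ (g : ↥Cfsg.Co0) (v : ↥Cfsg.leechLattice), Q (g • v) = Q v) (hne : ∃ v : ↥Cfsg.leechLattice, Q v ≠ 0) (v : ↥Cfsg.leechLattice) : Q v = ((Cfsg.sqNorm (v : Cfsg.GolayPt → ℤ) / 16 : ℤ) : ZMod 2) := by
  classical
  have hnorm16 : ∀ v : ↥Cfsg.leechLattice, (16 : ℤ) ∣ Cfsg.sqNorm (v : Cfsg.GolayPt → ℤ) := by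
    intro v
    obtain ⟨m, y, hm, hy, hs, hw⟩ := mem_iff.1 v.2
    have hc := Agent.Lib.Golay.card_cases (support_mem hw)
    rw [support_cast] at hc
    have e4 : (4 : ℤ) ∣ ∑ i, (y i ^ 2 - if ¬ (2 : ℤ) ∣ y i then 1 else 0) := Finset.dvd_sum fun i _ => by
      by_cases hi : (2 : ℤ) ∣ y i
      · obtain ⟨t, ht⟩ := hi
        rw [ht, if_neg (not_not.2 (dvd_mul_right 2 t))]; exact ⟨t ^ 2, by ring⟩
      · obtain ⟨t, ht⟩ : ∃ t, y i = 2 * t + 1 := ⟨y i / 2, by omega⟩
        rw [if_pos hi, ht]; exact ⟨t ^ 2 + t, by ring⟩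
    rw [Finset.sum_sub_distrib, Finset.sum_boole] at e4
    have es : ∑ i, (v : Cfsg.GolayPt → ℤ) i = 24 * m + 2 * ∑ i, y i := by
      rw [Finset.sum_congr rfl (fun i _ => hy i), Finset.sum_add_distrib, Finset.sum_const, ← Finset.mul_sum,
        nsmul_eq_mul, Finset.card_univ, show Fintype.card Cfsg.GolayPt = 24 from rfl]; rfl
    have en : Cfsg.sqNorm (v : Cfsg.GolayPt → ℤ) = 24 * (m * m) + 4 * m * (∑ i, y i) + 4 * ∑ i, y i ^ 2 := by
      rw [Cfsg.sqNorm, Finset.sum_congr rfl (g := fun i => m * m + 4 * m * y i + 4 * y i ^ 2) (fun i _ => by rw [hy]; ring),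
        Finset.sum_add_distrib, Finset.sum_add_distrib, Finset.sum_const, ← Finset.mul_sum, ← Finset.mul_sum,
        nsmul_eq_mul, Finset.card_univ, show Fintype.card Cfsg.GolayPt = 24 from rfl]; rfl
    rcases hm with rfl | rfl <;> omega
  let q : ↥Cfsg.leechLattice → ZMod 2 := fun v => ((Cfsg.sqNorm (v : Cfsg.GolayPt → ℤ) / 16 : ℤ) : ZMod 2)
  let b₀ : ↥Cfsg.leechLattice → ↥Cfsg.leechLattice → ZMod 2 := fun u v =>
    ((Cfsg.dotInt (u : Cfsg.GolayPt → ℤ) (v : Cfsg.GolayPt → ℤ) / 8 : ℤ) : ZMod 2)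
  have hnadd : ∀ u v : ↥Cfsg.leechLattice, Cfsg.sqNorm ((u + v : ↥Cfsg.leechLattice) : Cfsg.GolayPt → ℤ) =
      Cfsg.sqNorm (u : Cfsg.GolayPt → ℤ) + Cfsg.sqNorm (v : Cfsg.GolayPt → ℤ) +
        2 * Cfsg.dotInt (u : Cfsg.GolayPt → ℤ) (v : Cfsg.GolayPt → ℤ) := fun u v => by
    simp only [Cfsg.sqNorm, Cfsg.dotInt, AddSubgroup.coe_add, Pi.add_apply, Finset.mul_sum, ← Finset.sum_add_distrib]
    exact Finset.sum_congr rfl fun i _ => by ring
  have hdot8 : ∀ u v : ↥Cfsg.leechLattice, (8 : ℤ) ∣ Cfsg.dotInt (u : Cfsg.GolayPt → ℤ) (v : Cfsg.GolayPt → ℤ) := by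
    intro u v
    have := hnorm16 u; have := hnorm16 v; have := hnorm16 (u + v); have := hnadd u v
    omega
  have hqb : ∀ u v, q (u + v) = q u + q v + b₀ u v := fun u v => by
    simp only [q, b₀, ← Int.cast_add]
    congr 1
    have := hnorm16 u; have := hnorm16 v; have := hnadd u v; have := hdot8 u v
    omega
  have hb₀add : ∀ u v w, b₀ (u + v) w = b₀ u w + b₀ v w := fun u v w => by
    simp only [b₀, ← Int.cast_add]
    congr 1
    rw [show Cfsg.dotInt ((u + v : ↥Cfsg.leechLattice) : Cfsg.GolayPt → ℤ) (w : Cfsg.GolayPt → ℤ) =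
      Cfsg.dotInt (u : Cfsg.GolayPt → ℤ) (w : Cfsg.GolayPt → ℤ) + Cfsg.dotInt (v : Cfsg.GolayPt → ℤ) (w : Cfsg.GolayPt → ℤ) by
        simp [Cfsg.dotInt, add_mul, Finset.sum_add_distrib]]
    exact Int.add_ediv_of_dvd_left (hdot8 u w)
  have hqinv : ∀ (g : ↥Cfsg.Co0) v, q (g • v) = q v := fun g v => by
    have e : Cfsg.sqNorm ((g • v : ↥Cfsg.leechLattice) : Cfsg.GolayPt → ℤ) = Cfsg.sqNorm (v : Cfsg.GolayPt → ℤ) := g.2.2 v
    simp only [q, e]
  have hgadd : ∀ (g : ↥Cfsg.Co0) (v w : ↥Cfsg.leechLattice), g • (v + w) = g • v + g • w := fun g => g.2.1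
  -- the polar form of `Q`
  let b : ↥Cfsg.leechLattice → ↥Cfsg.leechLattice → ZMod 2 := fun u v => Q (u + v) + Q u + Q v
  have two : ∀ a : ZMod 2, a + a = 0 := by decide
  have hQ0 : Q 0 = 0 := by
    have := hquad 0 0 0
    simp only [add_zero] at this
    exact (by decide : ∀ a : ZMod 2, a + a + a + a = a + a + a → a = 0) _ this
  have hbadd : ∀ u v w, b (u + v) w = b u w + b v w := fun u v w => by
    simp only [b]
    exact (by decide : ∀ a qu qv qw uv uw vw : ZMod 2, a + qu + qv + qw = uv + uw + vw →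
      a + uv + qw = (uw + qu + qw) + (vw + qv + qw)) _ _ _ _ _ _ _ (hquad u v w)
  let f : ↥Cfsg.leechLattice := ⟨frame none none, frame_mem _ _⟩
  let o : ↥Cfsg.leechLattice := ⟨oddVec, oddVec_mem⟩
  set lam := b f o with hlam
  let β : ↥Cfsg.leechLattice → ↥Cfsg.leechLattice → ZMod 2 := fun u v => b u v + lam * b₀ u v
  have hβadd : ∀ u v w, β (u + v) w = β u w + β v w := fun u v w => by
    simp only [β, hbadd, hb₀add]; ring
  have hβcomm : ∀ u v, β u v = β v u := fun u v => by
    simp only [β, b, b₀, Cfsg.dotInt, add_comm u v]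
    rw [Finset.sum_congr rfl (fun i _ => mul_comm ((u : Cfsg.GolayPt → ℤ) i) _)]
    ring
  have hβinv : ∀ (g : ↥Cfsg.Co0) u v, β (g • u) (g • v) = β u v := fun g u v => by
    have e : b₀ (g • u) (g • v) = b₀ u v := by
      have h1 := hqb (g • u) (g • v)
      rw [← hgadd, hqinv, hqinv, hqinv, hqb] at h1
      exact (add_left_cancel h1).symm
    simp only [β, b, e, ← hgadd, hinv]
  have hdotf : ∀ v : ↥Cfsg.leechLattice, b₀ f v = (((v : Cfsg.GolayPt → ℤ) none : ℤ) : ZMod 2) := fun v => by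
    have : Cfsg.dotInt (f : Cfsg.GolayPt → ℤ) (v : Cfsg.GolayPt → ℤ) = 8 * (v : Cfsg.GolayPt → ℤ) none := by
      simp [Cfsg.dotInt, f, frame, add_mul]
      ring
    simp only [b₀, this, Int.mul_ediv_cancel_left _ (by norm_num : (8 : ℤ) ≠ 0)]
  have hβf : ∀ v, β f v = 0 := by
    have hcong : ∀ (g : ↥Cfsg.Co0), (∃ w : ↥Cfsg.leechLattice, g • f = f + (w + w)) → ∀ v, b f (g • v) = b f v := by
      rintro g ⟨w, hw⟩ v
      have h1 : b (g • f) (g • v) = b f v := by simp only [b, ← hgadd, hinv]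
      rw [hw] at h1
      simp only [b] at h1 ⊢
      rw [show f + (w + w) + g • v = f + g • v + (w + w) by abel, hcoset, hcoset] at h1
      exact h1
    let L : ↥Cfsg.leechLattice →+ ZMod 2 := AddMonoidHom.mk' (fun v => b f v) fun x y => by
      simp only [b]
      exact (by decide : ∀ a qf qx qy fx fy xy : ZMod 2, a + qf + qx + qy = fx + fy + xy →
        a + qf + xy = (fx + qf + qx) + (fy + qf + qy)) _ _ _ _ _ _ _ (by
          have := hquad f x y
          rwa [add_assoc f x y] at this)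
    have hf' := functional_eq L
      (fun c hc v => hcong _ (by
        by_cases hn : (none : Cfsg.GolayPt) ∈ c
        · refine ⟨-f, Subtype.ext (funext fun p => ?_)⟩
          show (if p ∈ c then -(f : Cfsg.GolayPt → ℤ) p else (f : Cfsg.GolayPt → ℤ) p) = _
          by_cases hp : p = none
          · simp [hp, hn, f, frame]
          · simp [f, frame, hp]
        · refine ⟨0, Subtype.ext (funext fun p => ?_)⟩
          show (if p ∈ c then -(f : Cfsg.GolayPt → ℤ) p else (f : Cfsg.GolayPt → ℤ) p) = _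
          by_cases hp : p = none
          · simp [hp, hn, f, frame]
          · simp [f, frame, hp]) v)
      (fun σ hσ v => hcong _ ⟨⟨frame (σ.symm none) none, frame_mem _ _⟩ - f, Subtype.ext (funext fun p => by
          show (f : Cfsg.GolayPt → ℤ) (σ p) = _
          simp only [f, frame, AddSubgroup.coe_add, AddSubgroup.coe_sub, Pi.add_apply, Pi.sub_apply]
          simp only [← Equiv.eq_symm_apply]
          ring)⟩ v)
    intro v
    have h := hf' v
    show b f v + lam * b₀ f v = 0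
    rw [hdotf, show b f v = lam * _ from h, two]
  -- the radical is everything
  have hzero : ∀ u v, β u v = 0 := by
    let R : AddSubgroup ↥Cfsg.leechLattice :=
      { carrier := {u | ∀ v, β u v = 0}
        zero_mem' := fun v => by simp [β, b, b₀, hQ0, Cfsg.dotInt, two]
        add_mem' := fun {a c} ha hc v => by rw [hβadd, ha, hc, add_zero]
        neg_mem' := fun {a} ha v => by
          have := hβadd a (-a) v
          rw [add_neg_cancel, ha, zero_add] at this
          rw [← this]; simp [β, b, b₀, hQ0, Cfsg.dotInt, two] }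
    have htop := eq_top_of_frame (M := R.map Cfsg.leechLattice.subtype)
      (fun x hx => ⟨⟨x, hx⟩ + ⟨x, hx⟩, fun v => by rw [hβadd, two], by
        simp only [AddSubgroup.coe_subtype, AddSubgroup.coe_add, two_zsmul]⟩)
      (fun x ⟨u, _, e⟩ => e ▸ u.2)
      (fun g u hu => by
        obtain ⟨u', hu', e⟩ := hu
        obtain rfl : u' = u := Subtype.ext e
        refine ⟨g • u', fun v => ?_, rfl⟩
        rw [← smul_inv_smul g v, hβinv]
        exact hu' _)
      ⟨f, hβf, rfl⟩
    intro u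
    obtain ⟨u', hu', e⟩ : (u : Cfsg.GolayPt → ℤ) ∈ R.map Cfsg.leechLattice.subtype := htop.symm ▸ u.2
    obtain rfl : u' = u := Subtype.ext e
    exact hu'
  -- the difference is a functional, hence zero
  let D : ↥Cfsg.leechLattice →+ ZMod 2 := AddMonoidHom.mk' (fun v => Q v + lam * q v) fun u v => by
    have h := hzero u v
    simp only [β, b] at h
    rw [hqb]
    exact (by decide : ∀ Quv Qu Qv l qu qv b0 : ZMod 2, Quv + Qu + Qv + l * b0 = 0 →
      Quv + l * (qu + qv + b0) = Qu + l * qu + (Qv + l * qv)) _ _ _ _ _ _ _ h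
  have hDinv : ∀ (g : ↥Cfsg.Co0) v, D (g • v) = D v := fun g v => by
    simp only [D, AddMonoidHom.mk'_apply, hinv, hqinv]
  have hD : ∀ v, D v = 0 := by
    have htop := eq_top_of_frame (M := D.ker.map Cfsg.leechLattice.subtype)
      (fun x hx => ⟨⟨x, hx⟩ + ⟨x, hx⟩, by rw [SetLike.mem_coe, AddMonoidHom.mem_ker, map_add, two], by
        simp only [AddSubgroup.coe_subtype, AddSubgroup.coe_add, two_zsmul]⟩)
      (fun x ⟨u, _, e⟩ => e ▸ u.2)
      (fun g u hu => by
        obtain ⟨u', hu', e⟩ := hu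
        obtain rfl : u' = u := Subtype.ext e
        refine ⟨g • u', ?_, rfl⟩
        rw [SetLike.mem_coe, AddMonoidHom.mem_ker] at hu' ⊢
        rw [hDinv, hu'])
      ⟨f, even_eq_zero D (fun c hc v => hDinv _ v) (fun σ hσ v => hDinv _ v) f fun i => by
        simp only [f, frame]; split_ifs <;> norm_num, rfl⟩
    intro u
    obtain ⟨u', hu', e⟩ : (u : Cfsg.GolayPt → ℤ) ∈ D.ker.map Cfsg.leechLattice.subtype := htop.symm ▸ u.2
    obtain rfl : u' = u := Subtype.ext e
    exact hu'
  have hQq : ∀ u, Q u = lam * q u := fun u => (by decide : ∀ a c : ZMod 2, a + c = 0 → a = c) _ _ (hD u)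
  rcases (by decide : ∀ a : ZMod 2, a = 0 ∨ a = 1) lam with h | h
  · obtain ⟨u, hu⟩ := hne
    exact absurd (by rw [hQq u, h, zero_mul]) hu
  · rw [hQq v, h, one_mul]

end Cfsg.Agent.S5552
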