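import Cfsg.Statements.S0896
import Cfsg.Agent.Lib.Char.BrauerInduction
import Cfsg.Agent.Lib.CharClifford.Elementary
import Cfsg.Agent.Lib.CharClifford.Basic
import Cfsg.Agent.Lib.Char.Clifford
import Cfsg.Agent.Lib.Dade.Lattice
import Mathlib.Tactic
-- import your own Cfsg.Agent.* helpers here

set_option autoImplicit false
open scoped ComplexConjugate
open Cfsg
open Cfsg.Agent.Lib Cfsg.Agent.Lib.Char

namespace Cfsg.Agent.S0896

universe u

/-- Generators of the span of the characters induced from linear characters of `p`-elementary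
subgroups. -/
def genP (G : Type u) [Group G] [Fintype G] (p : ℕ) : Set (G → ℂ) :=
  {f | ∃ (E : Subgroup G) (l : E →* ℂˣ), IsElementary p E ∧ f = indFun E (fun e => (l e : ℂ))}

theorem quasi_elementary_sub {G : Type u} [Group G] [Finite G] {p q : ℕ} (hp : p.Prime)
    (hq : q.Prime) {V : Subgroup G} (hV : PermChar.IsQuasiElementary p V) (h : IsElementary q V) :
    IsElementary p V := by
  obtain ⟨C, hCV, hVC, hCc, hCp, k, hk⟩ := hV
  have : (C.subgroupOf V).Normal := Subgroup.normal_subgroupOf_of_le_normalizer hVC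
  refine CharClifford.isElementary_of_quasi hp hq h (C.subgroupOf V) ?_ ?_ ⟨k, hk⟩
  · exact isCyclic_of_surjective (Subgroup.subgroupOfEquivOfLe hCV).symm
      (Subgroup.subgroupOfEquivOfLe hCV).symm.surjective
  · rwa [Nat.card_congr (Subgroup.subgroupOfEquivOfLe hCV).toEquiv]

/-- A constant prime to `p` is an integral combination of characters induced from linear characters
of `p`-elementary subgroups. -/
theorem exists_p_brauer {G : Type u} [Group G] [Fintype G] (p : ℕ) (hp : p.Prime) :
    ∃ m : ℤ, ¬ (p : ℤ) ∣ m ∧ (fun _ : G => (m : ℂ)) ∈ AddSubgroup.closure (genP G p) := by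
  classical
  set R := AddSubgroup.closure {f : G → ℂ | ∃ H : Subgroup G,
      PermChar.IsQuasiElementary p H ∧ f = fun g => (PermChar.fixNum H g : ℂ)} with hR
  have hmul : ∀ f ∈ R, ∀ g ∈ R, f * g ∈ R := by
    intro f hf g hg
    induction hf using AddSubgroup.closure_induction with
    | mem f hf =>
      obtain ⟨H, hH, rfl⟩ := hf
      induction hg using AddSubgroup.closure_induction with
      | mem g hg =>
        obtain ⟨K, -, rfl⟩ := hg
        obtain ⟨a, ha, hmul'⟩ := PermChar.fixNum_mul H K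
        have he : ((fun g => (PermChar.fixNum H g : ℂ)) * fun g => (PermChar.fixNum K g : ℂ)) =
            ∑ V : Subgroup G, a V • fun g => (PermChar.fixNum V g : ℂ) := by
          funext x
          simp only [Pi.mul_apply, Finset.sum_apply, Pi.smul_apply]
          simp only [nsmul_eq_mul]
          exact_mod_cast hmul' x
        rw [he]
        refine R.sum_mem fun V _ => ?_
        by_cases hV : a V = 0
        · rw [hV, zero_smul]; exact R.zero_mem
        · exact R.nsmul_mem (AddSubgroup.subset_closure ⟨V, hH.mono hp (ha V hV), rfl⟩) _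
      | zero => rw [mul_zero]; exact R.zero_mem
      | add a b _ _ h1 h2 => rw [mul_add]; exact R.add_mem h1 h2
      | neg a _ h1 => rw [mul_neg]; exact R.neg_mem h1
    | zero => rw [zero_mul]; exact R.zero_mem
    | add a b _ _ h1 h2 => rw [add_mul]; exact R.add_mem h1 h2
    | neg a _ h1 => rw [neg_mul]; exact R.neg_mem h1
  obtain ⟨m, hm, hmem⟩ := PermChar.exists_const_not_dvd R hmul p hp fun x => by
    obtain ⟨H, hH, hx⟩ := PermChar.exists_quasiElementary_fixNum x p hp
    exact ⟨_, AddSubgroup.subset_closure ⟨H, hH, rfl⟩, (PermChar.fixNum H x : ℤ),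
      by simp, by exact_mod_cast hx⟩
  refine ⟨m, hm, ?_⟩
  suffices h : ∀ f ∈ R, f ∈ AddSubgroup.closure (genP G p) from h _ hmem
  intro f hf
  induction hf using AddSubgroup.closure_induction with
  | mem f hf =>
    obtain ⟨H, hH, rfl⟩ := hf
    rw [← funext (PermChar.indFun_one_apply H)]
    suffices h : ∀ g ∈ brauerSpan H, indFun H g ∈ AddSubgroup.closure (genP G p) from
      h _ (brauer_induction (G := H) (isCharacter_of_isIrr isIrrCharacter_one))
    intro g hg
    induction hg using AddSubgroup.closure_induction with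
    | mem f hf =>
      obtain ⟨E, l, q, hq, hE, rfl⟩ := hf
      have hEm : IsElementary q (E.map H.subtype) :=
        isElementary_of_equiv (E.equivMapOfInjective H.subtype H.subtype_injective) hE
      refine AddSubgroup.subset_closure ⟨E.map H.subtype,
        l.comp (E.equivMapOfInjective H.subtype H.subtype_injective).symm.toMonoidHom,
        quasi_elementary_sub hp hq (hH.mono hp (Subgroup.map_subtype_le E)) hEm, ?_⟩
      rw [indFun_trans H E]
      rfl
    | zero => rw [indFun_zero]; exact AddSubgroup.zero_mem _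
    | add a b _ _ ha hb => rw [indFun_add]; exact AddSubgroup.add_mem _ ha hb
    | neg a _ ha => rw [indFun_neg]; exact AddSubgroup.neg_mem _ ha
  | zero => exact AddSubgroup.zero_mem _
  | add a b _ _ h1 h2 => exact AddSubgroup.add_mem _ h1 h2
  | neg a _ h1 => exact AddSubgroup.neg_mem _ h1

/-- A weighted count over the orbits of a group acting with orbits of `p`-power length. -/
theorem dvd_sum_of_fixed {A X : Type*} [Group A] [Finite A] [Fintype X] [MulAction A X] (p : ℕ)
    (hp : p.Prime) (hst : ∀ x : X, ∃ k, (MulAction.stabilizer A x).index = p ^ k)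
    (F : X → ℤ) (hF : ∀ (a : A) (x : X), F (a • x) = F x)
    (hfix : ∀ x : X, (∀ a : A, a • x = x) → (p : ℤ) ∣ F x) : (p : ℤ) ∣ ∑ x, F x := by
  classical
  rw [← Finset.sum_fiberwise Finset.univ (fun x => Quotient.mk (MulAction.orbitRel A X) x) F]
  refine Finset.dvd_sum fun q _ => ?_
  obtain ⟨x₀, rfl⟩ := Quotient.exists_rep q
  have hmem : ∀ x, x ∈ Finset.univ.filter (fun x => Quotient.mk (MulAction.orbitRel A X) x =
      Quotient.mk (MulAction.orbitRel A X) x₀) ↔ x ∈ MulAction.orbit A x₀ := fun x => by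
    simp only [Finset.mem_filter, Finset.mem_univ, true_and]
    exact ⟨fun h => MulAction.orbitRel_apply.mp (Quotient.exact h),
      fun h => Quotient.sound (MulAction.orbitRel_apply.mpr h)⟩
  rw [Finset.sum_congr rfl (g := fun _ => F x₀) fun x hx => by
    obtain ⟨a, rfl⟩ := (hmem x).mp hx; exact hF a x₀, Finset.sum_const, nsmul_eq_mul]
  obtain ⟨k, hk⟩ := hst x₀
  rcases Nat.eq_zero_or_pos k with rfl | hk0
  · refine Dvd.dvd.mul_left (hfix x₀ fun a => ?_) _
    have : a ∈ MulAction.stabilizer A x₀ := by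
      rw [Subgroup.index_eq_one.mp (hk.trans (pow_zero p))]
      exact Subgroup.mem_top a
    exact this
  · refine Dvd.dvd.mul_right (Int.natCast_dvd_natCast.mpr ?_) _
    rw [show (Finset.univ.filter fun x => Quotient.mk (MulAction.orbitRel A X) x =
        Quotient.mk (MulAction.orbitRel A X) x₀).card = (MulAction.stabilizer A x₀).index by
      rw [MulAction.index_stabilizer, ← Set.ncard_coe_finset]
      congr 1
      exact Set.ext fun x => hmem x, hk]
    exact dvd_pow_self p hk0.ne'

open scoped ComplexConjugate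

/-- Let N be a normal subgroup of the finite group G with the index of N a power of the prime p, and ϑ an irreducible character of N invariant under conjugation by G. Then there are a p-elementary subgroup E of G with E ⊔ N = ⊤ and an irreducible character φ of the subgroup E ⊓ N, invariant under conjugation by E, such that the inner product of the restriction of ϑ to E ⊓ N with φ is an integer not divisible by p. -/
theorem result {G : Type*} [Group G] [Fintype G] (p : ℕ) (hp : p.Prime) (N : Subgroup G) [hN : N.Normal] (hind : ∃ k : ℕ, N.index = p ^ k) (ϑ : N → ℂ) (hϑ : Cfsg.IsIrrCharacter N ϑ) (hinv : ∀ (g : G) (n : N), ϑ ⟨g * n * g⁻¹, hN.conj_mem (n : G) n.2 g⟩ = ϑ n) : ∃ (E : Subgroup G) (φ : ↥(E ⊓ N) → ℂ), Cfsg.IsElementary p E ∧ E ⊔ N = ⊤ ∧ Cfsg.IsIrrCharacter ↥(E ⊓ N) φ ∧ (∀ (g : G) (hg : g ∈ E) (x : ↥(E ⊓ N)), φ ⟨g * x * g⁻¹, ⟨(E.mul_mem (E.mul_mem hg x.2.1) (E.inv_mem hg)), hN.conj_mem (x : G) x.2.2 g⟩⟩ = φ x) ∧ ∃ m : ℕ, ¬ p ∣ m ∧ (Nat.card ↥(E ⊓ N) : ℂ)⁻¹ * ∑ᶠ x : ↥(E ⊓ N), ϑ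 ⟨(x : G), x.2.2⟩ * conj (φ x) = (m : ℂ) := by
  classical
  have := Fintype.ofFinite N
  by_contra hcon
  push Not at hcon
  obtain ⟨m, hm, hmem⟩ := exists_p_brauer (G := G) p hp
  obtain ⟨k, hk⟩ := hind
  let Φ : (G → ℂ) → ℂ := fun f =>
    (Nat.card N : ℂ)⁻¹ * ∑ n : N, f n * (ϑ n * conj (ϑ n))
  have hΦm : Φ (fun _ => (m : ℂ)) = (m : ℂ) := by
    have h := classInner_irr_self hϑ
    rw [classInner] at h
    simp only [Φ, ← Finset.mul_sum]
    rw [mul_left_comm, h, mul_one]
  suffices h : ∀ f ∈ AddSubgroup.closure (genP G p), ∃ z : ℤ, Φ f = ((p : ℤ) * z : ℤ) by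
    obtain ⟨z, hz⟩ := h _ hmem
    rw [hΦm] at hz
    exact hm ⟨z, by exact_mod_cast hz⟩
  intro f hf
  induction hf using AddSubgroup.closure_induction with
  | zero => exact ⟨0, by simp [Φ]⟩
  | add a b _ _ ha hb =>
    obtain ⟨x, hx⟩ := ha
    obtain ⟨y, hy⟩ := hb
    refine ⟨x + y, ?_⟩
    simp only [Φ, Pi.add_apply, add_mul, Finset.sum_add_distrib, mul_add] at hx hy ⊢
    rw [hx, hy]; push_cast; ring
  | neg a _ ha =>
    obtain ⟨x, hx⟩ := ha
    refine ⟨-x, ?_⟩
    simp only [Φ, Pi.neg_apply, neg_mul, Finset.sum_neg_distrib, mul_neg] at hx ⊢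
    rw [hx]; push_cast; ring
  | mem f hf =>
  obtain ⟨E, l, hE, rfl⟩ := hf
  have := Fintype.ofFinite ↥(E ⊓ N)
  set D := E ⊓ N with hD
  set r : D → ℂ := fun x => ϑ ⟨(x : G), x.2.2⟩ with hr
  set lr : D → ℂ := fun x => (l ⟨(x : G), x.2.1⟩ : ℂ) * r x with hlr
  have hrc : IsCharacter D r :=
    isCharacter_comp (isCharacter_of_isIrr hϑ) (Subgroup.inclusion inf_le_right)
  have hlrc : IsCharacter D lr := isCharacter_mul
    (isCharacter_comp (isCharacter_of_isIrr (isIrrCharacter_linear l)) (Subgroup.inclusion inf_le_left)) hrc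
  set t := (E ⊔ N).index with ht
  -- the value on a generator
  have hcardEN : N.index * Nat.card D = Nat.card E * t := by
    have h1 : N.relIndex (E ⊔ N) = N.relIndex E := Subgroup.relIndex_sup_right E N
    have h2 : N.relIndex (E ⊔ N) * t = N.index := Subgroup.relIndex_mul_index le_sup_right
    have h3 : Nat.card D * N.relIndex E = Nat.card E := by
      rw [hD, Subgroup.relIndex, ← (N.subgroupOf E).card_mul_index]
      congr 1
      exact Nat.card_congr
        { toFun := fun x => ⟨⟨(x : G), x.2.1⟩, x.2.2⟩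
          invFun := fun x => ⟨((x : E) : G), (x : E).2, x.2⟩
          left_inv := fun _ => rfl
          right_inv := fun _ => rfl }
    rw [← h2, h1, ← h3]; ring
  have hval : Φ (indFun E fun e => (l e : ℂ)) = (t : ℂ) * classInner lr r := by
    have hterm : ∀ x : G, ∑ n : N, extendByZero E (fun e => (l e : ℂ)) (x⁻¹ * n * x) *
        (ϑ n * conj (ϑ n)) = ∑ n : N, extendByZero E (fun e => (l e : ℂ)) n * (ϑ n * conj (ϑ n)) := by
      intro x
      refine Fintype.sum_equiv (MulAut.conjNormal (H := N) x⁻¹).toEquiv _ _ fun n => ?_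
      have e1 : ((MulAut.conjNormal (H := N) x⁻¹ n : N) : G) = x⁻¹ * n * x := by simp
      have e2 : ϑ (MulAut.conjNormal (H := N) x⁻¹ n) = ϑ n := by
        refine Eq.trans (congrArg ϑ (Subtype.ext ?_)) (hinv x⁻¹ n)
        simp
      show _ = extendByZero E _ ((MulAut.conjNormal (H := N) x⁻¹ n : N) : G) *
        (ϑ (MulAut.conjNormal (H := N) x⁻¹ n) * conj (ϑ (MulAut.conjNormal (H := N) x⁻¹ n)))
      rw [e1, e2]
    have hsum : ∑ n : N, extendByZero E (fun e => (l e : ℂ)) n * (ϑ n * conj (ϑ n)) =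
        ∑ x : D, lr x * conj (r x) := by
      rw [← Finset.sum_filter_of_ne (p := fun n : N => (n : G) ∈ E) (fun n _ h => by
        by_contra hn; exact h (by rw [extendByZero_not_mem E _ hn, zero_mul]))]
      symm
      refine Finset.sum_bij (fun x _ => (⟨(x : G), x.2.2⟩ : N)) (fun x _ => Finset.mem_filter.mpr ⟨Finset.mem_univ _, x.2.1⟩)
        (fun a _ b _ h => Subtype.ext (congrArg Subtype.val h :)) (fun n hn => ?_) (fun x _ => ?_)
      · exact ⟨⟨n, (Finset.mem_filter.mp hn).2, n.2⟩, Finset.mem_univ _, rfl⟩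
      · rw [extendByZero_mem E _ x.2.1, hlr, hr, mul_assoc]
    simp only [Φ, indFun, classInner]
    rw [Finset.sum_congr rfl fun n _ => mul_assoc _ _ _, ← Finset.mul_sum]
    simp only [Finset.sum_mul]
    rw [Finset.sum_comm, Finset.sum_congr rfl fun x _ => hterm x, hsum, Finset.sum_const,
      Finset.card_univ, ← Nat.card_eq_fintype_card (α := G), nsmul_eq_mul, ← N.card_mul_index]
    have hE0 : (Nat.card E : ℂ) ≠ 0 := card_ne_zero_complex E
    have hN0 : (Nat.card N : ℂ) ≠ 0 := card_ne_zero_complex N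
    have hD0 : (Nat.card D : ℂ) ≠ 0 := card_ne_zero_complex D
    have hc : (N.index : ℂ) * Nat.card D = Nat.card E * t := by exact_mod_cast hcardEN
    push_cast
    field_simp
    linear_combination (∑ x : D, lr x * conj (r x)) * hc
  obtain ⟨z, hz⟩ := classInner_intCast (Dade.generalized_of_isCharacter hlrc) hrc
  rw [hval, hz]
  obtain ⟨i, -, hi⟩ := (Nat.dvd_prime_pow hp).mp
    (hk ▸ Subgroup.index_dvd_of_le (le_sup_right : N ≤ E ⊔ N) : t ∣ p ^ k)
  rcases Nat.eq_zero_or_pos i with rfl | hi0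
  swap
  · obtain ⟨u, hu⟩ := dvd_pow_self p hi0.ne'
    refine ⟨u * z, ?_⟩
    rw [hi, hu]; push_cast; ring
  have htop : E ⊔ N = ⊤ := Subgroup.index_eq_one.mp (hi.trans (pow_zero p))
  suffices hdvd : (p : ℤ) ∣ z by
    obtain ⟨u, hu⟩ := hdvd
    exact ⟨u, by rw [hi, hu]; simp⟩
  -- the conjugation action of `E` on the characters of `E ⊓ N`
  let α : E → D →* D := fun g =>
    { toFun := fun x => ⟨g * x * (g : G)⁻¹, E.mul_mem (E.mul_mem g.2 x.2.1) (E.inv_mem g.2),
        hN.conj_mem (x : G) x.2.2 g⟩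
      map_one' := Subtype.ext (by simp)
      map_mul' := fun a b => Subtype.ext (by simp [mul_assoc]) }
  have hsurj : ∀ g : E, Function.Surjective (α g) := fun g x =>
    ⟨α g⁻¹ x, Subtype.ext (by simp [α, mul_assoc])⟩
  letI act : MulAction E (IrrCharacter D) :=
    { smul := fun g φ => ⟨fun x => (φ : D → ℂ) (α g⁻¹ x), isIrrCharacter_comp φ.2 _ (hsurj g⁻¹)⟩
      one_smul := fun φ => Subtype.ext (funext fun x => congrArg (φ : D → ℂ) (Subtype.ext (by simp [α])))
      mul_smul := fun g h φ => Subtype.ext (funext fun x =>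
        congrArg (φ : D → ℂ) (Subtype.ext (by simp [α, mul_assoc]))) }
  have hsmul : ∀ (g : E) (φ : IrrCharacter D) (x : D),
      ((g • φ : IrrCharacter D) : D → ℂ) x = (φ : D → ℂ) (α g⁻¹ x) := fun _ _ _ => rfl
  choose c hc using fun φ : IrrCharacter D => classInner_natCast hrc (isCharacter_of_isIrr φ.2)
  choose d hd using fun φ : IrrCharacter D => classInner_natCast hlrc (isCharacter_of_isIrr φ.2)
  have hexp : classInner lr r = ∑ φ : IrrCharacter D, ((d φ * c φ : ℕ) : ℂ) := by
    conv_lhs => rw [eq_sum_classInner_smul (isClassFunction_of_isCharacter hlrc)]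
    rw [classInner_sum_left]
    refine Finset.sum_congr rfl fun φ _ => ?_
    rw [classInner_smul_left, hd, classInner_conj_symm, hc, map_natCast, Nat.cast_mul]
  rw [hz] at hexp
  have hzsum : z = ∑ φ : IrrCharacter D, ((d φ * c φ : ℕ) : ℤ) := by exact_mod_cast hexp
  rw [hzsum]
  have hr' : ∀ (g : E) (x : D), r (α g x) = r x := fun g x => hinv g ⟨(x : G), x.2.2⟩
  have hlr' : ∀ (g : E) (x : D), lr (α g x) = lr x := fun g x => by
    simp only [lr]
    rw [hr']
    congr 2
    have e : (⟨((α g x : D) : G), (α g x).2.1⟩ : E) = g * ⟨(x : G), x.2.1⟩ * g⁻¹ := rfl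
    rw [e, map_mul, map_mul, map_inv, mul_comm (l g), mul_assoc, mul_inv_cancel, mul_one]
  have hinner : ∀ (F : D → ℂ), (∀ (g : E) (x : D), F (α g x) = F x) → ∀ (g : E) (φ : IrrCharacter D),
      classInner F ((g • φ : IrrCharacter D) : D → ℂ) = classInner F (φ : D → ℂ) := by
    intro F hF g φ
    simp only [classInner, hsmul]
    congr 1
    refine Fintype.sum_bijective (α g⁻¹)
      (Finite.surjective_iff_bijective.mp (hsurj g⁻¹)) _ _ fun x => ?_
    rw [hF]
  refine dvd_sum_of_fixed (A := E) p hp (fun φ => ?_) _ (fun g φ => ?_) fun φ hφ => ?_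
  · have hle : N.subgroupOf E ≤ MulAction.stabilizer E φ := by
      intro g hg
      rw [MulAction.mem_stabilizer_iff]
      refine Subtype.ext (funext fun x => ?_)
      rw [hsmul]
      have h := isClassFunction_of_isIrr φ.2 x ⟨((g⁻¹ : E) : G), (g⁻¹).2, N.inv_mem hg⟩
      exact h
    obtain ⟨j, -, hj⟩ := (Nat.dvd_prime_pow hp).mp ((Subgroup.index_dvd_of_le hle).trans
      (hk ▸ Subgroup.relIndex_dvd_index_of_normal N E : (N.subgroupOf E).index ∣ p ^ k))
    exact ⟨j, hj⟩
  · have h1 : c (g • φ) = c φ := by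
      have := hinner r hr' g φ
      rw [hc, hc] at this
      exact_mod_cast this
    have h2 : d (g • φ) = d φ := by
      have := hinner lr hlr' g φ
      rw [hd, hd] at this
      exact_mod_cast this
    rw [h1, h2]
  · refine Int.natCast_dvd_natCast.mpr (Dvd.dvd.mul_left ?_ _)
    by_contra hpc
    refine hcon E (φ : D → ℂ) hE htop φ.2 (fun g hg x => ?_) (c φ) hpc ?_
    · have := congrFun (congrArg Subtype.val (hφ ⟨g⁻¹, E.inv_mem hg⟩)) x
      rw [hsmul] at this
      refine Eq.trans (congrArg (φ : D → ℂ) (Subtype.ext ?_)) this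
      simp [α]
    · rw [← hc φ, classInner, finsum_eq_sum_of_fintype]

end Cfsg.Agent.S0896
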