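import Cfsg.Statements.S0898
import Cfsg.Agent.Lib.CharClifford.Basic
import Cfsg.Agent.Lib.Char.Scalar
import Cfsg.Agent.Lib.CharKernel
import Cfsg.Agent.Lib.Char.Degree
import Mathlib.Tactic
-- import your own Cfsg.Agent.* helpers here

set_option autoImplicit false
open Cfsg
open scoped ComplexConjugate
open Cfsg.Agent.Lib Cfsg.Agent.Lib.Char

namespace Cfsg.Agent.S0898

universe u

variable {G : Type u} [Group G] [Fintype G]

/-- A nontrivial irreducible character has zero sum over the cosets of a normal subgroup outside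
its kernel. -/
theorem coset_sum_zero (H : Subgroup G) [H.Normal] [Fintype H] {η : G → ℂ} (hη : IsIrrCharacter G η)
    (hne : ∃ h ∈ H, η h ≠ η 1) (x : G) : ∑ h : H, η (x * h) = 0 := by
  obtain ⟨n, ρ, hρ, rfl⟩ := hη
  haveI := hρ
  set P : Module.End ℂ (Fin n → ℂ) := ∑ h : H, ρ h with hP
  have hcomm : ∀ g, P * ρ g = ρ g * P := by
    intro g
    rw [hP, Finset.sum_mul, Finset.mul_sum]
    simp only [← map_mul]
    refine (Fintype.sum_equiv (MulAut.conjNormal (H := H) g).toEquiv _ _ fun h => ?_).symm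
    congr 1
    show g * (h : G) = ((MulAut.conjNormal (H := H) g h : H) : G) * g
    simp [mul_assoc]
  obtain ⟨c, hc⟩ := CharClifford.exists_smul_of_commute ρ P hcomm
  have hc0 : c = 0 := by
    by_contra hc0
    obtain ⟨h₀, hh₀, hh₀'⟩ := hne
    refine hh₀' ?_
    have e : ρ h₀ * P = P := by
      rw [hP, Finset.mul_sum]
      simp only [← map_mul]
      exact Fintype.sum_equiv (Equiv.mulLeft (⟨h₀, hh₀⟩ : H)) _ _ fun h => rfl
    rw [hc, mul_smul_comm, mul_one] at e
    have e2 : ρ h₀ = 1 := smul_right_injective (Module.End ℂ (Fin n → ℂ)) hc0 e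
    rw [Representation.char_one, (character_eq_degree_iff ρ h₀).mpr e2]
  have h2 : ρ x * P = 0 := by rw [hc, hc0, zero_smul, mul_zero]
  rw [hP, Finset.mul_sum] at h2
  simp only [← map_mul] at h2
  have h3 := congrArg (LinearMap.trace ℂ (Fin n → ℂ)) h2
  rw [map_sum, map_zero] at h3
  exact h3

/-- The first bound. -/
theorem bound (H : Subgroup G) [Fintype H] (hab : ∀ a ∈ H, ∀ b ∈ H, a * b = b * a)
    (hZ : H ⊓ Subgroup.center G = ⊥)
    (hone : ∀ g : G, g ∉ Subgroup.center G → ∀ a b : G,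
      Subgroup.centralizer ({g} : Set G) ⊓ H.map (MulAut.conj a).toMonoidHom ≠ ⊥ →
      Subgroup.centralizer ({g} : Set G) ⊓ H.map (MulAut.conj b).toMonoidHom ≠ ⊥ →
      H.map (MulAut.conj a).toMonoidHom = H.map (MulAut.conj b).toMonoidHom)
    {χ : G → ℂ} (hχ : IsIrrCharacter G χ) (hker : ∃ h ∈ H, χ h ≠ χ 1) (c : ℕ)
    (hc : classInner (fun h : H => χ h) (fun _ => 1) = (c : ℂ)) :
    Nat.card H * c ^ 2 < charDegree χ ^ 2 := by
  classical
  set n := charDegree χ with hn
  have hn1 : χ 1 = (n : ℂ) := apply_one_eq_charDegree (isCharacter_of_isIrr hχ)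
  set N := Subgroup.normalizer (H : Set G) with hN
  have hHN : H ≤ N := Subgroup.le_normalizer
  set Z := Subgroup.center G with hZdef
  have hZN : Z ≤ N := fun z hz => by
    rw [hN, Subgroup.mem_normalizer_iff]
    intro h
    rw [← Subgroup.mem_center_iff.mp hz h, mul_inv_cancel_right]
  have hmap : ∀ a : G, ∀ h ∈ H, a * h * a⁻¹ ∈ H.map (MulAut.conj a).toMonoidHom :=
    fun a h hh => ⟨h, hh, rfl⟩
  -- the elements of `N` meeting `H` in their centraliser
  let inA : G → Prop := fun g => g ∉ Z ∧ ∃ h ∈ H, h ≠ 1 ∧ g * h = h * g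
  have hAN : ∀ g, inA g → g ∈ N := by
    rintro g ⟨hgZ, h, hh, hh1, hgh⟩
    have h1 : Subgroup.centralizer ({g} : Set G) ⊓ H.map (MulAut.conj g).toMonoidHom ≠ ⊥ := by
      intro hb
      have hm : g * h * g⁻¹ ∈ Subgroup.centralizer ({g} : Set G) ⊓ H.map (MulAut.conj g).toMonoidHom :=
        ⟨by rw [hgh, mul_inv_cancel_right]; exact Subgroup.mem_centralizer_singleton_iff.mpr hgh.symm,
          hmap g h hh⟩
      rw [hb, Subgroup.mem_bot, conj_eq_one_iff] at hm
      exact hh1 hm
    have h2 : Subgroup.centralizer ({g} : Set G) ⊓ H.map (MulAut.conj (1 : G)).toMonoidHom ≠ ⊥ := by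
      intro hb
      have hm : 1 * h * 1⁻¹ ∈ Subgroup.centralizer ({g} : Set G) ⊓ H.map (MulAut.conj (1 : G)).toMonoidHom :=
        ⟨by rw [one_mul, inv_one, mul_one]; exact Subgroup.mem_centralizer_singleton_iff.mpr hgh.symm,
          hmap 1 h hh⟩
      rw [hb, Subgroup.mem_bot, conj_eq_one_iff] at hm
      exact hh1 hm
    have e := hone g hgZ g 1 h1 h2
    rw [hN, Subgroup.mem_normalizer_iff]
    intro y
    constructor
    · intro hy
      obtain ⟨y', hy', e'⟩ := e ▸ hmap g y hy
      have e'' : 1 * y' * (1 : G)⁻¹ = g * y * g⁻¹ := e'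
      rw [one_mul, inv_one, mul_one] at e''
      exact e'' ▸ hy'
    · intro hy
      obtain ⟨y', hy', e'⟩ := (e.symm ▸ hmap 1 _ hy :
        1 * (g * y * g⁻¹) * (1 : G)⁻¹ ∈ H.map (MulAut.conj g).toMonoidHom)
      have e'' : g * y' * g⁻¹ = 1 * (g * y * g⁻¹) * (1 : G)⁻¹ := e'
      rw [one_mul, inv_one, mul_one] at e''
      rwa [← mul_left_cancel (mul_right_cancel e'')]
  let A := Finset.univ.filter inA
  -- the conjugates of `A` cover at most all noncentral elements
  have hcount : (Nat.card G : ℝ) * ∑ a ∈ A, Complex.normSq (χ a) ≤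
      (Nat.card N : ℝ) * ((Nat.card G : ℝ) - (Nat.card Z : ℝ) * (n : ℝ) ^ 2) := by
    have hG : ∑ g : G, Complex.normSq (χ g) = (Nat.card G : ℝ) := by
      have h1 := classInner_irr_self hχ
      rw [classInner, inv_mul_eq_iff_eq_mul₀ (card_ne_zero_complex G), mul_one] at h1
      have : ((∑ g : G, Complex.normSq (χ g) : ℝ) : ℂ) = ((Nat.card G : ℝ) : ℂ) := by
        push_cast
        rw [← h1]
        exact Finset.sum_congr rfl fun x _ => (Complex.mul_conj _).symm
      exact_mod_cast this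
    have hG' : ∑ g ∈ Finset.univ.filter (fun g => g ∉ Z), Complex.normSq (χ g) =
        (Nat.card G : ℝ) - (Nat.card Z : ℝ) * (n : ℝ) ^ 2 := by
      rw [← hG, ← Finset.sum_filter_add_sum_filter_not Finset.univ (fun g => g ∈ Z),
        Finset.sum_congr (s₁ := Finset.univ.filter (fun g => g ∈ Z)) rfl (g := fun _ => (n : ℝ) ^ 2)
        fun g hg => by
          rw [Complex.normSq_eq_norm_sq, norm_char_of_mem_center hχ (Finset.mem_filter.mp hg).2,
            hn1, Complex.norm_natCast]]
      rw [Finset.sum_const, nsmul_eq_mul,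
        show (Finset.univ.filter fun g => g ∈ Z).card = Nat.card Z by
          rw [Nat.card_eq_fintype_card]; exact (Fintype.card_subtype _).symm]
      ring
    rw [← hG', Finset.mul_sum]
    have h1 : ∑ a ∈ A, (Nat.card G : ℝ) * Complex.normSq (χ a) =
        ∑ p ∈ (Finset.univ : Finset G) ×ˢ A, Complex.normSq (χ (p.1 * p.2 * p.1⁻¹)) := by
      rw [Finset.sum_product_right]
      refine Finset.sum_congr rfl fun a _ => ?_
      rw [Finset.sum_congr rfl (g := fun _ => Complex.normSq (χ a)) fun x _ => by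
          rw [isClassFunction_of_isIrr hχ a x],
        Finset.sum_const, Finset.card_univ, nsmul_eq_mul, Nat.card_eq_fintype_card]
    rw [h1, ← Finset.sum_fiberwise_of_maps_to (t := Finset.univ.filter (fun g => g ∉ Z))
      (g := fun p : G × G => p.1 * p.2 * p.1⁻¹) fun p hp => by
        rw [Finset.mem_filter]
        refine ⟨Finset.mem_univ _, fun hz => (Finset.mem_filter.mp (Finset.mem_product.mp hp).2).2.1 ?_⟩
        have := (inferInstance : (Subgroup.center G).Normal).conj_mem _ hz p.1⁻¹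
        simpa [mul_assoc] using this,
      Finset.mul_sum]
    refine Finset.sum_le_sum fun g hg => ?_
    rw [Finset.sum_congr rfl (g := fun _ => Complex.normSq (χ g)) fun p hp => by
      rw [(Finset.mem_filter.mp hp).2], Finset.sum_const, nsmul_eq_mul]
    refine mul_le_mul_of_nonneg_right ?_ (Complex.normSq_nonneg _)
    set F := ((Finset.univ : Finset G) ×ˢ A).filter (fun p => p.1 * p.2 * p.1⁻¹ = g)
    rcases F.eq_empty_or_nonempty with hF | ⟨⟨x₀, a₀⟩, hp₀⟩
    · rw [hF, Finset.card_empty, Nat.cast_zero]; positivity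
    rw [Nat.cast_le, Nat.card_eq_fintype_card, ← Finset.card_univ]
    have key : ∀ q ∈ F, x₀⁻¹ * q.1 ∈ N := by
      rintro ⟨x, a⟩ hq
      have hdata : ∀ r ∈ F, Subgroup.centralizer ({g} : Set G) ⊓
          H.map (MulAut.conj r.1).toMonoidHom ≠ ⊥ := by
        intro r hr
        obtain ⟨hr1, hr2⟩ := Finset.mem_filter.mp hr
        obtain ⟨-, h, hh, hh1, hah⟩ := (Finset.mem_filter.mp (Finset.mem_product.mp hr1).2).2
        intro hb
        have hm : r.1 * h * r.1⁻¹ ∈ Subgroup.centralizer ({g} : Set G) ⊓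
            H.map (MulAut.conj r.1).toMonoidHom := by
          refine ⟨Subgroup.mem_centralizer_singleton_iff.mpr ?_, hmap r.1 h hh⟩
          rw [← hr2]
          calc r.1 * h * r.1⁻¹ * (r.1 * r.2 * r.1⁻¹) = r.1 * (h * r.2) * r.1⁻¹ := by group
            _ = r.1 * (r.2 * h) * r.1⁻¹ := by rw [hah]
            _ = r.1 * r.2 * r.1⁻¹ * (r.1 * h * r.1⁻¹) := by group
        rw [hb, Subgroup.mem_bot, conj_eq_one_iff] at hm
        exact hh1 hm
      have e := hone g (Finset.mem_filter.mp hg).2 x x₀ (hdata _ hq) (hdata _ hp₀)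
      rw [hN, Subgroup.mem_normalizer_iff]
      intro y
      constructor
      · intro hy
        obtain ⟨y', hy', e'⟩ := e ▸ hmap x y hy
        have e'' : x₀ * y' * x₀⁻¹ = x * y * x⁻¹ := e'
        have : x₀⁻¹ * x * y * (x₀⁻¹ * x)⁻¹ = y' := by
          calc x₀⁻¹ * x * y * (x₀⁻¹ * x)⁻¹ = x₀⁻¹ * (x * y * x⁻¹) * x₀ := by group
            _ = y' := by rw [← e'']; group
        exact this ▸ hy'
      · intro hy
        obtain ⟨y', hy', e'⟩ := (e.symm ▸ hmap x₀ _ hy :
          x₀ * (x₀⁻¹ * x * y * (x₀⁻¹ * x)⁻¹) * x₀⁻¹ ∈ H.map (MulAut.conj x).toMonoidHom)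
        have e'' : x * y' * x⁻¹ = x₀ * (x₀⁻¹ * x * y * (x₀⁻¹ * x)⁻¹) * x₀⁻¹ := e'
        have : y' = y := by
          calc y' = x⁻¹ * (x * y' * x⁻¹) * x := by group
            _ = y := by rw [e'']; group
        exact this ▸ hy'
    refine Finset.card_le_card_of_injOn (fun q => if h : x₀⁻¹ * q.1 ∈ N then (⟨_, h⟩ : N) else 1)
      (fun q _ => Finset.mem_univ _) ?_
    intro q hq q' hq' e
    simp only [Finset.mem_coe] at hq hq'
    simp only [dif_pos (key q hq), dif_pos (key q' hq')] at e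
    have e1 : q.1 = q'.1 := mul_left_cancel (congrArg Subtype.val e : x₀⁻¹ * q.1 = x₀⁻¹ * q'.1)
    have e2 := (Finset.mem_filter.mp hq).2.trans (Finset.mem_filter.mp hq').2.symm
    rw [e1] at e2
    exact Prod.ext e1 (mul_left_cancel (mul_right_cancel e2))
  -- the computation in `N`
  have := Fintype.ofFinite N
  set H' := H.subgroupOf N with hH'
  have : H'.Normal := Subgroup.normal_in_normalizer
  have := Fintype.ofFinite H'
  set r : N → ℂ := fun x => χ x with hr
  obtain ⟨a, ha⟩ := isCharacter_eq_sum (isCharacter_restrict (isCharacter_of_isIrr hχ) N)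
  let triv : IrrCharacter N → Prop := fun η => ∀ h ∈ H', (η : N → ℂ) h = (η : N → ℂ) 1
  set α : N → ℂ := ∑ η ∈ Finset.univ.filter triv, (a η : ℂ) • (η : N → ℂ) with hα
  set β : N → ℂ := ∑ η ∈ Finset.univ.filter (fun η => ¬ triv η), (a η : ℂ) • (η : N → ℂ) with hβ
  have hrsum : r = α + β := by
    rw [hα, hβ, Finset.sum_filter_add_sum_filter_not]; exact ha
  have hαH : ∀ (x : N) (h : H'), α (x * h) = α x := by
    intro x h
    rw [hα]
    simp only [Finset.sum_apply, Pi.smul_apply]
    refine Finset.sum_congr rfl fun η hη => ?_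
    rw [CharKernel.apply_mul_of_mem' (isCharacter_of_isIrr η.2) ((Finset.mem_filter.mp hη).2 h h.2) x]
  have hβH : ∀ x : N, ∑ h : H', β (x * h) = 0 := by
    intro x
    rw [hβ]
    simp only [Finset.sum_apply, Pi.smul_apply]
    rw [Finset.sum_comm, Finset.sum_eq_zero]
    intro η hη
    have hne := (Finset.mem_filter.mp hη).2
    simp only [triv] at hne
    push Not at hne
    rw [← Finset.smul_sum, coset_sum_zero H' η.2 hne x, smul_zero]
  have hαr : ∀ x : N, (Nat.card H' : ℂ) * α x = ∑ h : H', r (x * h) := by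
    intro x
    simp only [hrsum, Pi.add_apply, Finset.sum_add_distrib, hβH, add_zero, hαH, Finset.sum_const,
      Finset.card_univ, Nat.card_eq_fintype_card, nsmul_eq_mul]
  have hHcard : Nat.card H' = Nat.card H :=
    Nat.card_congr (Subgroup.subgroupOfEquivOfLe hHN).toEquiv
  -- on fixed point free elements `χ` is constant on the coset
  have hfree : ∀ x : N, (x : G) ∉ Z → ¬ inA (x : G) → r x = α x := by
    intro x hxZ hxA
    have hcl := isClassFunction_of_isIrr hχ
    let f : H' → H' := fun h => ⟨x⁻¹ * h * x * (h : N)⁻¹,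
      H'.mul_mem (by simpa using (inferInstance : H'.Normal).conj_mem (h : N) h.2 x⁻¹) (H'.inv_mem h.2)⟩
    have hf : Function.Injective f := by
      intro h h' e
      have e' : ((x : G))⁻¹ * ((h : N) : G) * x * ((h : N) : G)⁻¹ =
          ((x : G))⁻¹ * ((h' : N) : G) * x * ((h' : N) : G)⁻¹ :=
        congrArg (fun t : H' => ((t : N) : G)) e
      by_contra hne
      refine hxA ⟨hxZ, ((h' : N) : G)⁻¹ * ((h : N) : G), H.mul_mem (H.inv_mem h'.2) h.2,
        fun e1 => hne (Subtype.ext (Subtype.ext (inv_mul_eq_one.mp e1).symm)), ?_⟩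
      have e2 : ((h : N) : G) * x * ((h : N) : G)⁻¹ = ((h' : N) : G) * x * ((h' : N) : G)⁻¹ :=
        mul_left_cancel (a := (x : G)⁻¹) (by simpa [mul_assoc] using e')
      calc (x : G) * (((h' : N) : G)⁻¹ * ((h : N) : G))
          = ((h' : N) : G)⁻¹ * (((h' : N) : G) * x * ((h' : N) : G)⁻¹) * ((h : N) : G) := by group
        _ = ((h' : N) : G)⁻¹ * ((h : N) : G) * x := by rw [← e2]; group
    have hconst : ∀ h : H', r (x * h) = r x := by
      intro h
      obtain ⟨h₀, hh₀⟩ := Finite.surjective_of_injective hf h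
      rw [← hh₀]
      show χ ((x : G) * ((x : G)⁻¹ * ((h₀ : N) : G) * x * ((h₀ : N) : G)⁻¹)) = χ x
      rw [show (x : G) * ((x : G)⁻¹ * ((h₀ : N) : G) * x * ((h₀ : N) : G)⁻¹) =
        ((h₀ : N) : G) * x * ((h₀ : N) : G)⁻¹ by group]
      exact hcl _ _
    have h := hαr x
    rw [Finset.sum_congr rfl fun h _ => hconst h, Finset.sum_const, Finset.card_univ,
      ← Nat.card_eq_fintype_card, nsmul_eq_mul] at h
    exact (mul_left_cancel₀ (card_ne_zero_complex H') h).symm
  -- the values at the centre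
  have hαz : ∀ z : N, (z : G) ∈ Z → Complex.normSq (α z) = (c : ℝ) ^ 2 := by
    intro z hz
    obtain ⟨d, ρ, hρ, hρ'⟩ := hχ
    haveI := hρ
    obtain ⟨w, hw⟩ := CharClifford.exists_smul_of_commute ρ (ρ (z : G)) fun g => by rw [← map_mul, ← map_mul, Subgroup.mem_center_iff.mp hz g]
    have hmul : ∀ g : G, χ ((z : G) * g) = w * χ g := fun g => by
      rw [← hρ']
      show LinearMap.trace ℂ _ (ρ ((z : G) * g)) = w * LinearMap.trace ℂ _ (ρ g)
      rw [map_mul, hw, smul_mul_assoc, one_mul, map_smul, smul_eq_mul]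
    have h1 := hαr z
    have hterm : ∀ h : H', r (z * (h : N)) = w * χ ((h : N) : G) := fun h => hmul _
    rw [Finset.sum_congr rfl fun h _ => hterm h, ← Finset.mul_sum] at h1
    have h2 : ∑ h : H', χ ((h : N) : G) = (Nat.card H : ℂ) * c := by
      have := hc
      rw [classInner, inv_mul_eq_iff_eq_mul₀ (card_ne_zero_complex H)] at this
      simp only [map_one, mul_one] at this
      rw [← this]
      exact Fintype.sum_equiv (Subgroup.subgroupOfEquivOfLe hHN).toEquiv _ _ fun h => rfl
    rw [h2, hHcard, mul_left_comm] at h1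
    have h3 := mul_left_cancel₀ (card_ne_zero_complex H) h1
    have hwn : ‖w‖ = 1 := by
      have h4 := norm_char_of_mem_center (G := G) (χ := ρ.character) ⟨d, ρ, hρ, rfl⟩ hz
      have h5 := hmul 1
      rw [mul_one, ← hρ'] at h5
      rw [h5, norm_mul] at h4
      exact (mul_eq_right₀ (norm_ne_zero_iff.mpr (irr_degree_ne_zero ⟨d, ρ, hρ, rfl⟩))).mp h4
    rw [h3, Complex.normSq_eq_norm_sq, norm_mul, hwn, one_mul, Complex.norm_natCast]
  -- sums over `N`
  have hpyth : ∑ x : N, Complex.normSq (r x) =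
      ∑ x : N, Complex.normSq (α x) + ∑ x : N, Complex.normSq (β x) := by
    have horth : classInner α β = 0 := by
      rw [hα, classInner_sum_left]
      refine Finset.sum_eq_zero fun η hη => ?_
      rw [classInner_smul_left, hβ, classInner_sum_right, Finset.sum_eq_zero, mul_zero]
      intro η' hη'
      rw [classInner_smul_right, classInner_irrCharacter, if_neg, mul_zero]
      rintro rfl
      exact (Finset.mem_filter.mp hη').2 (Finset.mem_filter.mp hη).2
    rw [classInner, mul_eq_zero, or_iff_right (inv_ne_zero (card_ne_zero_complex N))] at horth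
    have hcross : ∑ x : N, (α x * conj (β x)).re = 0 := by
      rw [← Complex.re_sum, horth, Complex.zero_re]
    rw [← Finset.sum_add_distrib]
    simp only [hrsum, Pi.add_apply, Complex.normSq_add]
    rw [Finset.sum_add_distrib, Finset.sum_add_distrib, ← Finset.mul_sum, hcross, mul_zero, add_zero]
  have hβN : (Nat.card N : ℝ) ≤ ∑ x : N, Complex.normSq (β x) := by
    obtain ⟨h₀, hh₀, hne⟩ := hker
    obtain ⟨η₀, hη₀, hη₀a⟩ : ∃ η : IrrCharacter N, ¬ triv η ∧ a η ≠ 0 := by
      by_contra hc'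
      push Not at hc'
      refine hne ?_
      have h1 : ∀ x : N, β x = 0 := fun x => by
        rw [hβ, Finset.sum_eq_zero fun η hη => by
          rw [hc' η (Finset.mem_filter.mp hη).2, Nat.cast_zero, zero_smul]]
        rfl
      have hr0 : ∀ x, r x = α x := fun x => by rw [hrsum, Pi.add_apply, h1, add_zero]
      have h2 := hαH 1 ⟨⟨h₀, hHN hh₀⟩, hh₀⟩
      rw [one_mul, ← hr0, ← hr0] at h2
      exact h2
    have hββ : classInner β β = ((∑ η ∈ Finset.univ.filter (fun η => ¬ triv η), a η ^ 2 : ℕ) : ℂ) := by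
      push_cast
      conv_lhs => arg 1; rw [hβ]
      rw [classInner_sum_left]
      refine Finset.sum_congr rfl fun η hη => ?_
      rw [classInner_smul_left, hβ, classInner_sum_right, Finset.sum_eq_single η
        (fun η' _ h => by rw [classInner_smul_right, classInner_irrCharacter, if_neg (Ne.symm h), mul_zero])
        (fun h => absurd hη h), classInner_smul_right, classInner_irr_self η.2, mul_one, map_natCast, sq]
    have h1 : 1 ≤ ∑ η ∈ Finset.univ.filter (fun η => ¬ triv η), a η ^ 2 :=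
      le_trans (Nat.one_le_pow _ _ (Nat.pos_of_ne_zero hη₀a))
        (Finset.single_le_sum (f := fun η => a η ^ 2) (fun _ _ => Nat.zero_le _)
          (Finset.mem_filter.mpr ⟨Finset.mem_univ η₀, hη₀⟩))
    rw [classInner, inv_mul_eq_iff_eq_mul₀ (card_ne_zero_complex N)] at hββ
    have h2 : ∑ x : N, Complex.normSq (β x) = (Nat.card N : ℝ) *
        ((∑ η ∈ Finset.univ.filter (fun η => ¬ triv η), a η ^ 2 : ℕ) : ℝ) := by
      have : ((∑ x : N, Complex.normSq (β x) : ℝ) : ℂ) = ((Nat.card N : ℝ) *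
        ((∑ η ∈ Finset.univ.filter (fun η => ¬ triv η), a η ^ 2 : ℕ) : ℝ) : ℝ) := by
        rw [Complex.ofReal_sum, Finset.sum_congr rfl fun x _ => (Complex.mul_conj (β x)).symm, hββ]
        push_cast
        ring
      exact_mod_cast this
    rw [h2]
    exact le_mul_of_one_le_right (Nat.cast_nonneg _) (by exact_mod_cast h1)
  -- split `N` into the centre, `A` and the rest
  let inZ : N → Prop := fun x => (x : G) ∈ Z
  let inAN : N → Prop := fun x => inA (x : G)
  have hsumA : ∑ x ∈ Finset.univ.filter inAN, Complex.normSq (r x) =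
      ∑ g ∈ A, Complex.normSq (χ g) := by
    refine Finset.sum_bij (fun x _ => (x : G)) (fun x hx => ?_) (fun a _ b _ h => Subtype.ext h)
      (fun g hg => ?_) (fun x _ => rfl)
    · exact Finset.mem_filter.mpr ⟨Finset.mem_univ _, (Finset.mem_filter.mp hx).2⟩
    · exact ⟨⟨g, hAN g (Finset.mem_filter.mp hg).2⟩,
        Finset.mem_filter.mpr ⟨Finset.mem_univ _, (Finset.mem_filter.mp hg).2⟩, rfl⟩
  have hsplit : ∀ F : N → ℝ, ∑ x : N, F x = ∑ x ∈ Finset.univ.filter inZ, F x +
      ∑ x ∈ Finset.univ.filter inAN, F x +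
      ∑ x ∈ Finset.univ.filter (fun x => ¬ inZ x ∧ ¬ inAN x), F x := by
    intro F
    rw [← Finset.sum_filter_add_sum_filter_not Finset.univ inZ F, add_assoc]
    congr 1
    rw [← Finset.sum_filter_add_sum_filter_not (Finset.univ.filter fun x => ¬ inZ x) inAN F,
      Finset.filter_filter, Finset.filter_filter]
    congr 1
    refine Finset.sum_congr ?_ fun _ _ => rfl
    ext x
    simp only [Finset.mem_filter, Finset.mem_univ, true_and]
    exact ⟨fun h => h.2, fun h => ⟨h.1, h⟩⟩
  have hlow : (Nat.card Z : ℝ) * ((Nat.card H : ℝ) * (c : ℝ) ^ 2) ≤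
      ∑ x ∈ Finset.univ.filter inZ, Complex.normSq (α x) +
        ∑ x ∈ Finset.univ.filter inAN, Complex.normSq (α x) := by
    rw [← Finset.sum_union (Finset.disjoint_filter.mpr fun x _ h1 h2 => h2.1 h1)]
    have hinj : Set.InjOn (fun p : Z × H => (⟨(p.1 : G) * p.2, N.mul_mem (hZN p.1.2) (hHN p.2.2)⟩ : N))
        ((Finset.univ : Finset (Z × H)) : Set (Z × H)) := by
      intro p _ q _ e
      have e' : (p.1 : G) * p.2 = q.1 * q.2 := congrArg Subtype.val e
      have h1 : (q.1 : G)⁻¹ * p.1 = q.2 * (p.2 : G)⁻¹ := by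
        rw [eq_mul_inv_iff_mul_eq, mul_assoc, e']; group
      have h2 : (q.1 : G)⁻¹ * p.1 ∈ H ⊓ Z :=
        ⟨h1 ▸ H.mul_mem q.2.2 (H.inv_mem p.2.2), Z.mul_mem (Z.inv_mem q.1.2) p.1.2⟩
      rw [hZ, Subgroup.mem_bot, inv_mul_eq_one] at h2
      exact Prod.ext (Subtype.ext h2.symm)
        (Subtype.ext (mul_left_cancel (h2 ▸ e' : (p.1 : G) * p.2 = p.1 * q.2)))
    refine le_trans (le_of_eq ?_) (Finset.sum_le_sum_of_subset_of_nonneg
      (s := (Finset.univ : Finset (Z × H)).image
        fun p => (⟨(p.1 : G) * p.2, N.mul_mem (hZN p.1.2) (hHN p.2.2)⟩ : N)) ?_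
      fun x _ _ => Complex.normSq_nonneg _)
    · rw [Finset.sum_image hinj, Finset.sum_congr rfl (g := fun _ => (c : ℝ) ^ 2) fun p _ => ?_,
        Finset.sum_const, Finset.card_univ, Fintype.card_prod, nsmul_eq_mul, Nat.cast_mul,
        Nat.card_eq_fintype_card, Nat.card_eq_fintype_card]
      · ring
      · rw [show (⟨(p.1 : G) * p.2, N.mul_mem (hZN p.1.2) (hHN p.2.2)⟩ : N) =
          ⟨p.1, hZN p.1.2⟩ * ((⟨⟨p.2, hHN p.2.2⟩, p.2.2⟩ : H') : N) from rfl, hαH]
        exact hαz _ p.1.2
    · intro x hx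
      obtain ⟨p, -, rfl⟩ := Finset.mem_image.mp hx
      rw [Finset.mem_union, Finset.mem_filter, Finset.mem_filter]
      by_cases hp : (p.2 : G) = 1
      · left; exact ⟨Finset.mem_univ _, by show (p.1 : G) * p.2 ∈ Z; rw [hp, mul_one]; exact p.1.2⟩
      · right
        refine ⟨Finset.mem_univ _, fun hz => hp ?_, p.2, p.2.2, hp, ?_⟩
        · have h1 : (p.2 : G) ∈ H ⊓ Z :=
            ⟨p.2.2, by simpa using Z.mul_mem (Z.inv_mem p.1.2) hz⟩
          rwa [hZ, Subgroup.mem_bot] at h1
        · show (p.1 : G) * p.2 * p.2 = p.2 * (p.1 * p.2)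
          rw [← mul_assoc (p.2 : G), Subgroup.mem_center_iff.mp p.1.2 (p.2 : G)]
  have hzsum : ∑ x ∈ Finset.univ.filter inZ, Complex.normSq (r x) =
      (Nat.card Z : ℝ) * (n : ℝ) ^ 2 := by
    rw [Finset.sum_congr rfl (g := fun _ => (n : ℝ) ^ 2) fun x hx => by
        rw [Complex.normSq_eq_norm_sq, show r x = χ (x : G) from rfl,
          norm_char_of_mem_center hχ (Finset.mem_filter.mp hx).2, hn1, Complex.norm_natCast],
      Finset.sum_const, nsmul_eq_mul]
    congr 2
    rw [← Fintype.card_subtype, ← Nat.card_eq_fintype_card]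
    exact Nat.card_congr
      { toFun := fun x => ⟨x.1, x.2⟩
        invFun := fun z => ⟨⟨z, hZN z.2⟩, z.2⟩
        left_inv := fun _ => rfl
        right_inv := fun _ => rfl }
  have hB : ∑ x ∈ Finset.univ.filter (fun x => ¬ inZ x ∧ ¬ inAN x), Complex.normSq (r x) =
      ∑ x ∈ Finset.univ.filter (fun x => ¬ inZ x ∧ ¬ inAN x), Complex.normSq (α x) :=
    Finset.sum_congr rfl fun x hx => by
      obtain ⟨-, h1, h2⟩ := Finset.mem_filter.mp hx
      rw [hfree x h1 h2]
  have e1 := hsplit fun x => Complex.normSq (r x)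
  have e2 := hsplit fun x => Complex.normSq (α x)
  rw [hB, hzsum, hsumA] at e1
  have hA : (Nat.card N : ℝ) + (Nat.card Z : ℝ) * ((Nat.card H : ℝ) * (c : ℝ) ^ 2) -
      (Nat.card Z : ℝ) * (n : ℝ) ^ 2 ≤ ∑ g ∈ A, Complex.normSq (χ g) := by linarith
  have hGpos : (0 : ℝ) < Nat.card G := by exact_mod_cast Nat.card_pos
  have hNpos : (0 : ℝ) < Nat.card N := by exact_mod_cast Nat.card_pos
  have hZpos : (0 : ℝ) < Nat.card Z := by exact_mod_cast Nat.card_pos
  have hnpos : (0 : ℝ) < (n : ℝ) := by exact_mod_cast charDegree_pos hχ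
  have h := mul_le_mul_of_nonneg_left hA hGpos.le
  have hlt : (Nat.card G : ℝ) * (Nat.card Z : ℝ) *
      ((Nat.card H : ℝ) * (c : ℝ) ^ 2 - (n : ℝ) ^ 2) < 0 := by
    have : (0 : ℝ) < (Nat.card N : ℝ) * ((Nat.card Z : ℝ) * (n : ℝ) ^ 2) := by positivity
    nlinarith [hcount]
  have h' : (Nat.card H : ℝ) * (c : ℝ) ^ 2 < (n : ℝ) ^ 2 := by
    by_contra hge
    push Not at hge
    have : 0 ≤ (Nat.card G : ℝ) * (Nat.card Z : ℝ) *
        ((Nat.card H : ℝ) * (c : ℝ) ^ 2 - (n : ℝ) ^ 2) := mul_nonneg (by positivity) (by linarith)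
    linarith
  exact_mod_cast h'

/-- Let H be an abelian subgroup of the finite group G meeting the centre of G trivially, such that for every non-central g the centralizer of g has nontrivial intersection with at most one conjugate of H. Let χ be an irreducible character of G with χ h ≠ χ 1 for some h in H, and let c be the inner product of the restriction of χ to H with the principal character. Then χ(1)² > (order of H)·c²; and if in addition χ 1 ≠ 1 and no proper normal subgroup of G contains H, then (1 + χ 1)² > order of H (both sides read as real numbers). -/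
theorem result {G : Type*} [Group G] [Fintype G] (H : Subgroup G) [Fintype H] (hab : ∀ a ∈ H, ∀ b ∈ H, a * b = b * a) (hZ : H ⊓ Subgroup.center G = ⊥) (hone : ∀ g : G, g ∉ Subgroup.center G → ∀ a b : G, Subgroup.centralizer ({g} : Set G) ⊓ H.map (MulAut.conj a).toMonoidHom ≠ ⊥ → Subgroup.centralizer ({g} : Set G) ⊓ H.map (MulAut.conj b).toMonoidHom ≠ ⊥ → H.map (MulAut.conj a).toMonoidHom = H.map (MulAut.conj b).toMonoidHom) (χ : G → ℂ) (hχ : Cfsg.IsIrrCharacter G χ) (hker : ∃ h ∈ H, χ h ≠ χ 1) : (χ 1).re ^ 2 > (Nat.card H : ℝ) * (Cfsg.classInner (fun h : H => χ h) (fun _ => 1)).re ^ 2 ∧ (χ 1 ≠ 1 → (∀ M : Subgroup G, M.Normal → H ≤ M → M = ⊤) → (1 + (χ 1).re) ^ 2 > (Nat.card H : ℝ)) := by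
  classical
  have hc := isCharacter_of_isIrr hχ
  have hn := apply_one_eq_charDegree hc
  obtain ⟨c, hcc⟩ := classInner_natCast (isCharacter_restrict hc H)
    (isCharacter_of_isIrr (isIrrCharacter_one (G := H)))
  refine ⟨?_, fun h1 hgen => ?_⟩
  · have := bound H hab hZ hone hχ hker c hcc
    rw [hn, hcc, Complex.natCast_re, Complex.natCast_re]
    exact_mod_cast this
  set n := charDegree χ with hndef
  have hn2 : 2 ≤ n := by
    have := charDegree_pos hχ
    rcases (by omega : n = 1 ∨ 2 ≤ n) with h | h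
    · exact absurd (by rw [hn, h, Nat.cast_one]) h1
    · exact h
  -- the product with the conjugate
  set π : G → ℂ := χ * (fun g => conj (χ g)) with hπ
  have hπc : IsCharacter G π := isCharacter_mul hc (isCharacter_conj hc)
  choose a ha using fun ψ : IrrCharacter G => classInner_natCast hπc (isCharacter_of_isIrr ψ.2)
  choose b hb using fun ψ : IrrCharacter G => classInner_natCast
    (isCharacter_restrict (isCharacter_of_isIrr ψ.2) H) (isCharacter_of_isIrr (isIrrCharacter_one (G := H)))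
  let one : IrrCharacter G := ⟨fun _ => 1, isIrrCharacter_one⟩
  have hexp := eq_sum_classInner_smul (isClassFunction_of_isCharacter hπc)
  simp only [ha] at hexp
  have ha1 : a one = 1 := by
    have h := ha one
    rw [hπ] at h
    simp only [classInner, Pi.mul_apply, map_one, mul_one, one] at h
    have h2 := classInner_irr_self hχ
    simp only [classInner] at h2
    rw [h2] at h
    exact_mod_cast h.symm
  have hb1 : b one = 1 := by
    have h := hb one
    rw [show (fun x : H => (one : G → ℂ) x) = fun _ => (1 : ℂ) from rfl,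
      classInner_irr_self isIrrCharacter_one] at h
    exact_mod_cast h.symm
  have hdeg : n ^ 2 = 1 + ∑ ψ ∈ Finset.univ.erase one, a ψ * charDegree (ψ : G → ℂ) := by
    have h := congrFun hexp 1
    rw [hπ, Pi.mul_apply, hn, map_natCast, ← Nat.cast_mul, Finset.sum_apply,
      Finset.sum_congr rfl (g := fun ψ => ((a ψ * charDegree (ψ : G → ℂ) : ℕ) : ℂ)) fun ψ _ => by
        rw [Pi.smul_apply, smul_eq_mul, apply_one_eq_charDegree (isCharacter_of_isIrr ψ.2),
          Nat.cast_mul],
      ← Nat.cast_sum, Nat.cast_inj, ← Finset.add_sum_erase _ _ (Finset.mem_univ one), ha1] at h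
    rw [sq, h]
    simp [one, charDegree_one]
  have hres : n ≤ 1 + ∑ ψ ∈ Finset.univ.erase one, a ψ * b ψ := by
    obtain ⟨e, he⟩ := isCharacter_eq_sum (isCharacter_restrict hc H)
    have hsum1 : n = ∑ l : IrrCharacter H, e l := by
      have h := congrFun he 1
      have : IsMulCommutative H := ⟨⟨fun x y => Subtype.ext (hab x x.2 y y.2)⟩⟩
      rw [Finset.sum_apply, Finset.sum_congr rfl (g := fun l => ((e l : ℕ) : ℂ)) fun l _ => by
        obtain ⟨r, τ, hτ, hτ'⟩ := l.2
        rw [Pi.smul_apply, smul_eq_mul, show (l : H → ℂ) 1 = 1 by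
          rw [← hτ', Representation.char_one,
            Representation.IsIrreducible.finrank_eq_one_of_isMulCommutative τ, Nat.cast_one],
          mul_one], ← Nat.cast_sum] at h
      rw [show ((1 : H) : G) = 1 from rfl, hn] at h
      exact_mod_cast h
    have hnorm : classInner (fun x : H => χ x) (fun x : H => χ x) =
        ((∑ l : IrrCharacter H, e l ^ 2 : ℕ) : ℂ) := by
      push_cast
      conv_lhs => arg 1; rw [he]
      rw [classInner_sum_left]
      refine Finset.sum_congr rfl fun l _ => ?_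
      rw [classInner_smul_left, he, classInner_sum_right, Finset.sum_eq_single l
        (fun l' _ h => by rw [classInner_smul_right, classInner_irrCharacter, if_neg (Ne.symm h), mul_zero])
        (fun h => absurd (Finset.mem_univ l) h), classInner_smul_right, classInner_irr_self l.2,
        mul_one, map_natCast, sq]
    have hπH : classInner (fun x : H => χ x) (fun x : H => χ x) =
        ((∑ ψ : IrrCharacter G, a ψ * b ψ : ℕ) : ℂ) := by
      have h1 : classInner (fun x : H => χ x) (fun x : H => χ x) =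
          classInner (fun x : H => π x) (fun _ => (1 : ℂ)) := by
        simp only [classInner, hπ, Pi.mul_apply, map_one, mul_one]
      have h2 : (fun x : H => π x) = ∑ ψ : IrrCharacter G, (a ψ : ℂ) • fun x : H => (ψ : G → ℂ) x := by
        funext x
        have := congrFun hexp x
        simpa using this
      rw [h1, h2, classInner_sum_left]
      push_cast
      exact Finset.sum_congr rfl fun ψ _ => by rw [classInner_smul_left, hb]
    rw [hnorm, Nat.cast_inj, ← Finset.add_sum_erase _ _ (Finset.mem_univ one), ha1, hb1] at hπH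
    rw [hsum1]
    refine le_trans (Finset.sum_le_sum fun l _ => Nat.le_self_pow two_ne_zero _) ?_
    omega
  -- the bound for each constituent
  set s := Real.sqrt (Nat.card H : ℝ) with hs
  have hψ : ∀ ψ ∈ Finset.univ.erase one,
      s * (b ψ : ℝ) < (charDegree (ψ : G → ℂ) : ℝ) := by
    intro ψ hψ
    have hψker : ∃ h ∈ H, (ψ : G → ℂ) h ≠ (ψ : G → ℂ) 1 := by
      by_contra hc'
      push Not at hc'
      have hψc := isCharacter_of_isIrr ψ.2
      have htop := hgen (CharKernel.kerChar hψc) (CharKernel.kerChar_normal hψc) fun h hh => hc' h hh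
      refine (Finset.mem_erase.mp hψ).1 (Subtype.ext ?_)
      have hconst : (ψ : G → ℂ) = (ψ : G → ℂ) 1 • fun _ => (1 : ℂ) := funext fun g => by
        rw [Pi.smul_apply, smul_eq_mul, mul_one]
        exact (htop ▸ Subgroup.mem_top g : g ∈ CharKernel.kerChar hψc)
      by_contra hne
      have h := classInner_irr_self ψ.2
      conv_lhs at h => arg 1; rw [hconst]
      rw [classInner_smul_left, classInner_irr_ne isIrrCharacter_one ψ.2 (Ne.symm hne), mul_zero] at h
      exact zero_ne_one h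
    have h := bound H hab hZ hone ψ.2 hψker (b ψ) (hb ψ)
    have h' : (Nat.card H : ℝ) * (b ψ : ℝ) ^ 2 < (charDegree (ψ : G → ℂ) : ℝ) ^ 2 := by exact_mod_cast h
    have h0 : 0 ≤ s * (b ψ : ℝ) := by positivity
    refine lt_of_pow_lt_pow_left₀ 2 (Nat.cast_nonneg _) ?_
    rw [mul_pow, hs, Real.sq_sqrt (Nat.cast_nonneg _)]
    exact h'
  have hex : ∃ ψ ∈ Finset.univ.erase one, a ψ ≠ 0 := by
    by_contra hc'
    push Not at hc'
    rw [Finset.sum_eq_zero fun ψ hψ => by rw [hc' ψ hψ, zero_mul]] at hdeg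
    nlinarith
  have hsum : s * ((n : ℝ) - 1) < (n : ℝ) ^ 2 - 1 := by
    have h1 : ∑ ψ ∈ Finset.univ.erase one, (a ψ : ℝ) * (s * (b ψ : ℝ)) <
        ∑ ψ ∈ Finset.univ.erase one, (a ψ : ℝ) * (charDegree (ψ : G → ℂ) : ℝ) := by
      obtain ⟨ψ, hψm, hψa⟩ := hex
      exact Finset.sum_lt_sum (fun i hi => mul_le_mul_of_nonneg_left (hψ i hi).le (Nat.cast_nonneg _))
        ⟨ψ, hψm, mul_lt_mul_of_pos_left (hψ ψ hψm) (by exact_mod_cast Nat.pos_of_ne_zero hψa)⟩
    have h2 : (n : ℝ) ≤ 1 + ∑ ψ ∈ Finset.univ.erase one, (a ψ : ℝ) * (b ψ : ℝ) := by exact_mod_cast hres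
    have h3 : (n : ℝ) ^ 2 =
        1 + ∑ ψ ∈ Finset.univ.erase one, (a ψ : ℝ) * (charDegree (ψ : G → ℂ) : ℝ) := by exact_mod_cast hdeg
    rw [Finset.sum_congr rfl (g := fun ψ => s * ((a ψ : ℝ) * (b ψ : ℝ))) fun ψ _ => by ring,
      ← Finset.mul_sum] at h1
    have h4 : s * ((n : ℝ) - 1) ≤ s * ∑ ψ ∈ Finset.univ.erase one, (a ψ : ℝ) * (b ψ : ℝ) :=
      mul_le_mul_of_nonneg_left (by linarith) (Real.sqrt_nonneg _)
    linarith
  have hn1 : (2 : ℝ) ≤ (n : ℝ) := by exact_mod_cast hn2
  have hlt : s < (n : ℝ) + 1 := by nlinarith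
  rw [hn, Complex.natCast_re]
  have h0 : (0 : ℝ) ≤ s := Real.sqrt_nonneg _
  have hsq : s ^ 2 = (Nat.card H : ℝ) := Real.sq_sqrt (Nat.cast_nonneg _)
  nlinarith

end Cfsg.Agent.S0898
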