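import Cfsg.Statements.S0899
import Cfsg.Agent.S0898
import Cfsg.Agent.Lib.Coprime.Action
import Cfsg.Agent.Lib.Char.Clifford
import Cfsg.Agent.Lib.Char.Linear
import Cfsg.Agent.S0896
import Cfsg.Agent.Lib.CharAux
import Mathlib.Tactic
-- import your own Cfsg.Agent.* helpers here

set_option autoImplicit false
open Cfsg
open scoped ComplexConjugate
open Cfsg.Agent.Lib Cfsg.Agent.Lib.Char

namespace Cfsg.Agent.S0899

universe u

/-- Every Sylow `p`-subgroup is normal. -/
def NS (p : ℕ) (H : Type u) [Group H] : Prop := ∀ P : Sylow p H, (P : Subgroup H).Normal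

theorem ns_of_equiv {p : ℕ} [Fact p.Prime] {A B : Type u} [Group A] [Group B] [Finite A]
    (e : A ≃* B) (hB : NS p B) : NS p A := by
  intro P
  have h : (Subgroup.comap e.toMonoidHom ((P : Subgroup A).map e.toMonoidHom)).Normal :=
    (hB (P.mapSurjective (f := e.toMonoidHom) e.surjective)).comap e.toMonoidHom
  rwa [Subgroup.comap_map_eq_self_of_injective (f := e.toMonoidHom) e.injective] at h

variable {G : Type u} [Group G] [Finite G] {p : ℕ} [hp : Fact p.Prime]

theorem exists_core {K : Subgroup G} (hK : NS p K) :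
    ∃ T ≤ K, IsPGroup p T ∧ K ≤ Subgroup.normalizer (T : Set G) ∧
      ∀ S ≤ K, IsPGroup p S → S ≤ T := by
  obtain ⟨T₀⟩ := (inferInstance : Nonempty (Sylow p K))
  have hn := hK T₀
  refine ⟨(T₀ : Subgroup K).map K.subtype, Subgroup.map_subtype_le _, T₀.2.map _, ?_, ?_⟩
  · intro k hk
    rw [Subgroup.mem_normalizer_iff]
    intro y
    constructor
    · rintro ⟨t, ht, rfl⟩
      exact ⟨(⟨k, hk⟩ : K) * t * (⟨k, hk⟩ : K)⁻¹, hn.conj_mem t ht _, rfl⟩
    · rintro ⟨t, ht, hty⟩
      refine ⟨(⟨k, hk⟩ : K)⁻¹ * t * (⟨k, hk⟩ : K), by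
        have := hn.conj_mem t ht (⟨k, hk⟩ : K)⁻¹
        rwa [inv_inv] at this, ?_⟩
      show k⁻¹ * (t : G) * k = y
      rw [show (t : G) = k * y * k⁻¹ from hty]
      group
  · intro S hS hSp s hs
    obtain ⟨T', hT'⟩ := (hSp.comap_subtype (K := K)).exists_le_sylow
    haveI := Sylow.unique_of_normal T₀ hn
    exact ⟨⟨s, hS hs⟩, Subsingleton.elim T' T₀ ▸ hT' (show (⟨s, hS hs⟩ : K) ∈ S.subgroupOf K from hs), rfl⟩

theorem core_eq {P : Sylow p G} {K : Subgroup G} (hK : NS p K) (hPK : (P : Subgroup G) ≤ K) :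
    K ≤ Subgroup.normalizer ((P : Subgroup G) : Set G) ∧
      ∀ S ≤ K, IsPGroup p S → S ≤ (P : Subgroup G) := by
  obtain ⟨T, hTK, hT, hKT, hmax⟩ := exists_core hK
  have e : T = (P : Subgroup G) := P.3 hT (hmax _ hPK P.2)
  subst e
  exact ⟨hKT, hmax⟩

theorem normal_of_le_normal {P : Sylow p G} {M : Subgroup G} [hM : M.Normal] (hns : NS p M)
    (hPM : (P : Subgroup G) ≤ M) : (P : Subgroup G).Normal := by
  refine ⟨fun x hx g => (core_eq hns hPM).2 ((P : Subgroup G).map (MulAut.conj g).toMonoidHom)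
    ?_ (P.2.map _) ⟨x, hx, rfl⟩⟩
  rintro _ ⟨y, hy, rfl⟩
  exact hM.conj_mem y (hPM hy) g

/-- A prime power sum over orbits, in the algebraic integers. -/
theorem dvd_sum_of_fixed {A X : Type*} [Group A] [Finite A] [Fintype X] [MulAction A X]
    {R : Type*} [CommRing R] (hA : IsPGroup p A) (F : X → R)
    (hF : ∀ (a : A) (x : X), F (a • x) = F x)
    (hfix : ∀ x : X, (∀ a : A, a • x = x) → (p : R) ∣ F x) : (p : R) ∣ ∑ x, F x := by
  classical
  rw [← Finset.sum_fiberwise Finset.univ (fun x => Quotient.mk (MulAction.orbitRel A X) x) F]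
  refine Finset.dvd_sum fun q _ => ?_
  obtain ⟨x₀, rfl⟩ := Quotient.exists_rep q
  have hmem : ∀ x, x ∈ Finset.univ.filter (fun x => Quotient.mk (MulAction.orbitRel A X) x =
      Quotient.mk (MulAction.orbitRel A X) x₀) ↔ x ∈ MulAction.orbit A x₀ := fun x => by
    simp only [Finset.mem_filter, Finset.mem_univ, true_and]
    exact ⟨fun h => MulAction.orbitRel_apply.mp (Quotient.exact h),
      fun h => Quotient.sound (MulAction.orbitRel_apply.mpr h)⟩
  rw [Finset.sum_congr rfl (g := fun _ => F x₀) fun x hx => by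
    obtain ⟨a, rfl⟩ := (hmem x).mp hx; exact hF a x₀, Finset.sum_const, nsmul_eq_mul]
  obtain ⟨k, hk⟩ := hA.index (MulAction.stabilizer A x₀)
  rcases Nat.eq_zero_or_pos k with rfl | hk0
  · refine Dvd.dvd.mul_left (hfix x₀ fun a => ?_) _
    have : a ∈ MulAction.stabilizer A x₀ := by
      rw [Subgroup.index_eq_one.mp (hk.trans (pow_zero p))]
      exact Subgroup.mem_top a
    exact this
  · refine Dvd.dvd.mul_right (Nat.cast_dvd_cast ?_) _
    rw [show (Finset.univ.filter fun x => Quotient.mk (MulAction.orbitRel A X) x =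
        Quotient.mk (MulAction.orbitRel A X) x₀).card = (MulAction.stabilizer A x₀).index by
      rw [MulAction.index_stabilizer, ← Set.ncard_coe_finset]
      congr 1
      exact Set.ext fun x => hmem x, hk]
    exact dvd_pow_self p hk0.ne'

theorem int_dvd_of_integral {m : ℤ} {n : ℕ} (hn : n ≠ 0) {c : ℂ} (hc : IsIntegral ℤ c)
    (h : (m : ℂ) = (n : ℂ) * c) : (n : ℤ) ∣ m := by
  have hc' : c = (((m : ℚ) / (n : ℚ) : ℚ) : ℂ) := by
    push_cast
    rw [h, mul_div_cancel_left₀ c (Nat.cast_ne_zero.mpr hn)]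
  obtain ⟨z, hz⟩ := exists_int_of_isIntegral (hc' ▸ hc)
  rw [div_eq_iff (Nat.cast_ne_zero.mpr hn)] at hz
  exact ⟨z, by rw [mul_comm]; exact_mod_cast hz⟩

/-- The characters of the normal `p`-complement are linear if `P` centralises only central
elements. -/
theorem degree_eq_one (Q P : Subgroup G) [hQ : Q.Normal] (hP : IsPGroup p P)
    (hQp : (Nat.card Q).Coprime p) (hC : ∀ y ∈ Q, (∀ a ∈ P, a * y = y * a) → ∀ q ∈ Q, q * y = y * q)
    {θ : Q → ℂ} (hθ : IsIrrCharacter Q θ) (hinv : ∀ a ∈ P, conjChar Q a θ = θ)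
    (hd : charDegree θ + 1 < p) : charDegree θ = 1 := by
  classical
  have := Fintype.ofFinite Q
  let A := P
  let act : MulAction A Q := MulAction.compHom Q ((MulAut.conjNormal (H := Q)).comp P.subtype)
  let R := integralClosure ℤ ℂ
  have hint := fun y => char_isIntegral (isCharacter_of_isIrr hθ) y
  let f : Q → R := fun y => ⟨θ y, hint y⟩ * ⟨conj (θ y),
    (hint y).map ((starRingEnd ℂ).toIntAlgHom)⟩
  have hsm : ∀ (a : A) (y : Q), ((a • y : Q) : G) = (a : G) * y * (a : G)⁻¹ := fun a y => rfl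
  have hfix : ∀ y : Q, (∀ a : A, a • y = y) → y ∈ Subgroup.center Q := fun y hy =>
    Subgroup.mem_center_iff.mpr fun q => Subtype.ext
      (hC y y.2 (fun a ha => by
        have h : a * (y : G) * a⁻¹ = y := congrArg Subtype.val (hy ⟨a, ha⟩)
        exact mul_inv_eq_iff_eq_mul.mp h) q q.2)
  set d := charDegree θ with hdd
  have hf : ∀ y : Q, ((f y : R) : ℂ) = θ y * conj (θ y) := fun y => rfl
  let F : Q → R := fun y => f y - if ∀ a : A, a • y = y then ((d ^ 2 : ℕ) : R) else 0
  have hF : ∀ (a : A) (y : Q), F (a • y) = F y := by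
    intro a y
    have h1 : θ (a • y) = θ y := congrFun (hinv a a.2) y
    have h2 : (∀ b : A, b • (a • y) = a • y) ↔ ∀ b : A, b • y = y := by
      constructor
      · intro h b
        have := h (a * b * a⁻¹)
        rw [← mul_smul, inv_mul_cancel_right, mul_smul] at this
        exact MulAction.injective a this
      · intro h b
        rw [← mul_smul, h, h]
    refine congrArg₂ (· - ·) (Subtype.ext ?_) (if_congr h2 rfl rfl)
    rw [hf, hf, h1]
  have hsum := dvd_sum_of_fixed hP F hF fun y hy => by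
    have : F y = 0 := by
      refine Subtype.ext ?_
      simp only [F]
      rw [if_pos hy]
      push_cast
      rw [hf, Complex.mul_conj, Complex.normSq_eq_norm_sq, norm_char_of_mem_center hθ (hfix y hy),
        apply_one_eq_charDegree (isCharacter_of_isIrr hθ), Complex.norm_natCast, ← hdd]
      push_cast
      rw [sub_self]
    rw [this]; exact dvd_zero _
  set C := Finset.univ.filter fun y : Q => ∀ a : A, a • y = y with hCdef
  have hmod : (p : ℤ) ∣ (Nat.card Q : ℤ) - C.card := by
    have h := S0896.dvd_sum_of_fixed p hp.out (A := A) (X := Q)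
      (fun y => hP.index (MulAction.stabilizer A y))
      (fun y : Q => (1 : ℤ) - if ∀ a : A, a • y = y then 1 else 0) (fun a y => by
        have h2 : (∀ b : A, b • (a • y) = a • y) ↔ ∀ b : A, b • y = y := by
          constructor
          · intro h b
            have := h (a * b * a⁻¹)
            rw [← mul_smul, inv_mul_cancel_right, mul_smul] at this
            exact MulAction.injective a this
          · intro h b
            rw [← mul_smul, h, h]
        exact congrArg _ (if_congr h2 rfl rfl))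
      fun y hy => by rw [if_pos hy, sub_self]; exact dvd_zero _
    rw [Finset.sum_sub_distrib, Finset.sum_const, Finset.sum_boole, nsmul_eq_mul, mul_one,
      Finset.card_univ, ← Nat.card_eq_fintype_card] at h
    exact h
  obtain ⟨c, hc⟩ := hsum
  have hc' := congrArg (fun r : R => (r : ℂ)) hc
  simp only [F, Finset.sum_sub_distrib, Finset.sum_ite, Finset.sum_const_zero, add_zero,
    Finset.sum_const] at hc'
  push_cast at hc'
  simp only [hf, Complex.mul_conj] at hc'
  rw [← Complex.ofReal_sum, CharAux.sum_normSq_irr hθ] at hc'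
  simp only [nsmul_eq_mul] at hc'
  have hdiv : (p : ℤ) ∣ (Nat.card Q : ℤ) - C.card * d ^ 2 := by
    refine int_dvd_of_integral hp.out.ne_zero c.2 ?_
    push_cast
    rw [← hc']
    push_cast
    rfl
  have hCp : ¬ (p : ℤ) ∣ (C.card : ℤ) := by
    intro h
    have := dvd_add hmod h
    rw [sub_add_cancel] at this
    exact (Nat.Prime.coprime_iff_not_dvd hp.out).mp hQp.symm (by exact_mod_cast this)
  have h4 : (p : ℤ) ∣ (C.card : ℤ) * ((d : ℤ) ^ 2 - 1) := by
    have := dvd_sub hmod hdiv
    rwa [show (Nat.card Q : ℤ) - C.card - ((Nat.card Q : ℤ) - C.card * d ^ 2) =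
      (C.card : ℤ) * ((d : ℤ) ^ 2 - 1) by ring] at this
  have h5 : (p : ℤ) ∣ ((d : ℤ) - 1) * ((d : ℤ) + 1) := by
    convert ((Int.Prime.dvd_mul' hp.out h4).resolve_left hCp) using 1; ring
  have hdpos : 0 < d := charDegree_pos hθ
  rcases Int.Prime.dvd_mul' hp.out h5 with h | h
  · by_contra hne
    have := Int.le_of_dvd (by omega) h
    omega
  · have := Int.le_of_dvd (by omega) h
    omega

/-- A Sylow `p`-subgroup centralises a normal `p`-complement. -/
theorem centralizes_complement {n : ℕ} (ρ : Representation ℂ G (Fin n → ℂ))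
    (hρ : Function.Injective ρ) (hn : n + 1 < p) (P : Sylow p G) (Q : Subgroup G) [hQ : Q.Normal]
    (hQp : (Nat.card Q).Coprime p) (hidx : Q.index = Nat.card (P : Subgroup G))
    (hind : ∀ K : Subgroup G, K ≠ ⊤ → NS p K) :
    ∀ a ∈ (P : Subgroup G), ∀ y ∈ Q, a * y = y * a := by
  classical
  have := Fintype.ofFinite G
  have := Fintype.ofFinite Q
  have hcopQP : (Nat.card Q).Coprime (Nat.card (P : Subgroup G)) := by
    obtain ⟨k, hk⟩ := IsPGroup.iff_card.mp P.2
    rw [hk]
    exact hQp.pow_right k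
  have hdisj : ∀ S : Subgroup G, IsPGroup p S → Q ⊓ S = ⊥ := fun S hS => by
    obtain ⟨k, hk⟩ := IsPGroup.iff_card.mp hS
    exact Subgroup.inf_eq_bot_of_coprime (hk ▸ hQp.pow_right k)
  have hsup : Q ⊔ (P : Subgroup G) = ⊤ :=
    (Subgroup.isComplement'_of_coprime (by rw [← hidx, Subgroup.card_mul_index]) hcopQP).sup_eq_top
  set N := Subgroup.normalizer (((P : Subgroup G)) : Set G)
  have hkey : ∀ R ≤ Q, R ≠ Q → (P : Subgroup G) ≤ Subgroup.normalizer (R : Set G) →
      ∀ a ∈ (P : Subgroup G), ∀ y ∈ R, a * y = y * a := by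
    intro R hRQ hne hPR a ha y hy
    have hK : (P : Subgroup G) ⊔ R ≠ ⊤ := by
      intro htop
      refine hne (le_antisymm hRQ fun q hq => ?_)
      obtain ⟨s, hs, r, hr, rfl⟩ := (Coprime.mem_sup_of_le_normalizer hPR).mp
        (htop ▸ Subgroup.mem_top q : q ∈ (P : Subgroup G) ⊔ R)
      have hs' : s ∈ Q ⊓ (P : Subgroup G) :=
        ⟨by simpa using Q.mul_mem hq (Q.inv_mem (hRQ hr)), hs⟩
      rw [hdisj _ P.2, Subgroup.mem_bot] at hs'
      rw [hs', one_mul]
      exact hr
    have hKN := (core_eq (hind _ hK) le_sup_left).1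
    have h1 : a * y * a⁻¹ * y⁻¹ ∈ Q ⊓ (P : Subgroup G) := by
      refine ⟨Q.mul_mem (hQ.conj_mem y (hRQ hy) a) (Q.inv_mem (hRQ hy)), ?_⟩
      have := (Subgroup.mem_normalizer_iff.mp
        (hKN (le_sup_right (a := (P : Subgroup G)) hy)) a⁻¹).mp ((P : Subgroup G).inv_mem ha)
      have h2 := (P : Subgroup G).mul_mem ha this
      rwa [show a * (y * a⁻¹ * y⁻¹) = a * y * a⁻¹ * y⁻¹ by group] at h2
    rw [hdisj _ P.2, Subgroup.mem_bot, mul_inv_eq_one, mul_inv_eq_iff_eq_mul] at h1
    exact h1
  set C := Q ⊓ Subgroup.centralizer ((P : Subgroup G) : Set G) with hCdef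
  suffices h : Q ≤ C by
    intro a ha y hy
    exact Subgroup.mem_centralizer_iff.mp (h hy).2 a ha
  have hPN : (P : Subgroup G) ≤ Subgroup.normalizer (Q : Set G) :=
    le_top.trans (Subgroup.normalizer_eq_top_iff.mpr hQ).ge
  haveI hPsol : Group.IsSolvable (P : Subgroup G) := by
    haveI := P.2.isNilpotent
    infer_instance
  by_cases hsolv : Group.IsSolvable Q
  swap
  · have hle : Nat.card Q ∣ Nat.card C := by
      rw [Nat.dvd_iff_prime_pow_dvd_dvd]
      intro q k hq hqk
      haveI := Fact.mk hq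
      obtain ⟨R, hR⟩ := Coprime.exists_invariant_sylow (A := (P : Subgroup G)) (K := Q) hPN
        hcopQP.symm (Or.inl hPsol) q
      have hne : (R : Subgroup Q).map Q.subtype ≠ Q := by
        intro e
        apply hsolv
        have h1 : IsPGroup q ↥((R : Subgroup Q).map Q.subtype) := R.2.map _
        rw [e] at h1
        haveI := h1.isNilpotent
        infer_instance
      have hRC : (R : Subgroup Q).map Q.subtype ≤ C := fun y hy =>
        ⟨Subgroup.map_subtype_le _ hy, Subgroup.mem_centralizer_iff.mpr fun a ha =>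
          hkey _ (Subgroup.map_subtype_le _) hne hR a ha y hy⟩
      refine dvd_trans ?_ (Subgroup.card_dvd_of_le hRC)
      rw [Subgroup.card_map_of_injective Q.subtype_injective]
      exact R.pow_dvd_card_of_pow_dvd_card hqk
    exact (Subgroup.eq_of_le_of_card_ge inf_le_left (Nat.le_of_dvd Nat.card_pos hle)).ge
  rcases eq_or_ne Q ⊥ with hQ0 | hQ0
  · rw [hQ0]; exact bot_le
  have hder : ⁅Q, Q⁆ ≠ Q := by
    intro e
    haveI : Nontrivial Q := (Subgroup.nontrivial_iff_ne_bot Q).mpr hQ0
    refine (Group.IsSolvable.commutator_lt_top_of_nontrivial Q).ne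
      (Subgroup.map_injective Q.subtype_injective ?_)
    rw [Subgroup.map_subtype_commutator, e, ← MonoidHom.range_eq_map, Subgroup.range_subtype]
  have hderC : ∀ u ∈ Q, ∀ v ∈ Q, u * v * u⁻¹ * v⁻¹ ∈ C := fun u hu v hv =>
    ⟨Q.mul_mem (hQ.conj_mem v hv u) (Q.inv_mem hv), Subgroup.mem_centralizer_iff.mpr fun a ha =>
      hkey _ (Subgroup.commutator_le_self Q) hder (le_top.trans
        (Subgroup.normalizer_eq_top_iff.mpr (Subgroup.commutator_normal Q Q)).ge) a ha _
        (Subgroup.commutator_mem_commutator hu hv)⟩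
  by_cases hcent : ∀ y ∈ C, ∀ q ∈ Q, q * y = y * q
  swap
  · set D := Q ⊓ Subgroup.centralizer (C : Set G) with hD
    have hDne : D ≠ Q := by
      intro e
      refine hcent fun y hy q hq => ?_
      exact (Subgroup.mem_centralizer_iff.mp (e.ge hq).2 y hy).symm
    have hPD : (P : Subgroup G) ≤ Subgroup.normalizer (D : Set G) := by
      have hone : ∀ a ∈ (P : Subgroup G), ∀ y ∈ D, a * y * a⁻¹ ∈ D := fun a ha y hy =>
        ⟨hQ.conj_mem y hy.1 a, Subgroup.mem_centralizer_iff.mpr fun c hc => by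
          have h1 : a * c = c * a := Subgroup.mem_centralizer_iff.mp hc.2 a ha
          have h2 : c * y = y * c := Subgroup.mem_centralizer_iff.mp hy.2 c hc
          have h3 : a⁻¹ * c = c * a⁻¹ := by rw [inv_mul_eq_iff_eq_mul, ← mul_assoc, h1, mul_inv_cancel_right]
          calc c * (a * y * a⁻¹) = a * (c * y) * a⁻¹ := by rw [← mul_assoc, ← mul_assoc, ← h1]; group
            _ = a * y * (c * a⁻¹) := by rw [h2]; group
            _ = a * y * a⁻¹ * c := by rw [← h3]; group⟩
      intro a ha
      rw [Subgroup.mem_normalizer_iff]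
      exact fun y => ⟨hone a ha y, fun hy => by
        have := hone a⁻¹ ((P : Subgroup G).inv_mem ha) _ hy
        simpa [mul_assoc] using this⟩
    intro y hy
    refine ⟨hy, Subgroup.mem_centralizer_iff.mpr fun a ha => ?_⟩
    set c := y⁻¹ * (a * y * a⁻¹) with hcdef
    have hcQ : c ∈ Q := Q.mul_mem (Q.inv_mem hy) (hQ.conj_mem y hy a)
    have hcD : c ∈ D := by
      refine ⟨hcQ, Subgroup.mem_centralizer_iff.mpr fun x hx => ?_⟩
      have hyx : y * x * y⁻¹ ∈ C := by simpa using C.mul_mem (hderC y hy x hx.1) hx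
      have h1 : a * (y * x * y⁻¹) = (y * x * y⁻¹) * a := Subgroup.mem_centralizer_iff.mp hyx.2 a ha
      have h2 : a * x = x * a := Subgroup.mem_centralizer_iff.mp hx.2 a ha
      calc x * c = y⁻¹ * ((y * x * y⁻¹) * a) * y * a⁻¹ := by rw [hcdef]; group
        _ = y⁻¹ * (a * (y * x * y⁻¹)) * y * a⁻¹ := by rw [h1]
        _ = y⁻¹ * a * y * (x * a⁻¹) := by group
        _ = y⁻¹ * a * y * (a⁻¹ * x) := by
          congr 1
          rw [eq_inv_mul_iff_mul_eq, ← mul_assoc, h2, mul_inv_cancel_right]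
        _ = c * x := by rw [hcdef]; group
    have hca : a * c = c * a := hkey D inf_le_left hDne hPD a ha c hcD
    have hpow : ∀ j : ℕ, a ^ j * y = y * c ^ j * a ^ j := by
      intro j
      induction j with
      | zero => simp
      | succ j ih =>
        have h3 : a * c ^ j = c ^ j * a := (Commute.pow_right (show Commute a c from hca) j).eq
        calc a ^ (j + 1) * y = a * (a ^ j * y) := by rw [pow_succ', mul_assoc]
          _ = (a * y) * c ^ j * a ^ j := by rw [ih]; group
          _ = y * c * (a * c ^ j) * a ^ j := by rw [hcdef]; group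
          _ = y * c ^ (j + 1) * a ^ (j + 1) := by rw [h3, pow_succ' c, pow_succ' a]; group
    have h1 := hpow (orderOf a)
    rw [pow_orderOf_eq_one, one_mul, mul_one, left_eq_mul] at h1
    have hdvd : orderOf c ∣ Nat.card Q := Subgroup.orderOf_dvd_natCard _ hcQ
    have hc1 : c = 1 := orderOf_eq_one_iff.mp (Nat.eq_one_of_dvd_coprimes hcopQP hdvd
      ((orderOf_dvd_of_pow_eq_one h1).trans (Subgroup.orderOf_dvd_natCard _ ha)))
    rw [hcdef, inv_mul_eq_one, eq_mul_inv_iff_mul_eq] at hc1
    exact hc1.symm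
  -- all constituents are invariant and linear
  have hr : IsCharacter G ρ.character := ⟨n, ρ, rfl⟩
  obtain ⟨e, he⟩ := isCharacter_eq_sum (isCharacter_restrict hr Q)
  have hcoef : ∀ θ : IrrCharacter Q,
      classInner (fun y : Q => ρ.character y) (θ : Q → ℂ) = (e θ : ℂ) := by
    intro θ
    rw [he, classInner_sum_left, Finset.sum_eq_single θ
      (fun b _ hb => by rw [classInner_smul_left, classInner_irrCharacter, if_neg hb, mul_zero])
      (fun h => absurd (Finset.mem_univ θ) h), classInner_smul_left, classInner_irr_self θ.2, mul_one]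
  have hdeg : n = ∑ θ : IrrCharacter Q, e θ * charDegree (θ : Q → ℂ) := by
    have h := congrFun he 1
    rw [show ((1 : Q) : G) = 1 from rfl, Representation.char_one, Module.finrank_fintype_fun_eq_card,
      Fintype.card_fin, Finset.sum_apply, Finset.sum_congr rfl
      (g := fun θ : IrrCharacter Q => ((e θ * charDegree (θ : Q → ℂ) : ℕ) : ℂ)) fun θ _ => by
        rw [Pi.smul_apply, smul_eq_mul, apply_one_eq_charDegree (isCharacter_of_isIrr θ.2),
          Nat.cast_mul], ← Nat.cast_sum, Nat.cast_inj] at h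
    exact h
  have hinvar : ∀ θ : IrrCharacter Q, e θ ≠ 0 → inertia Q (θ : Q → ℂ) = ⊤ := by
    intro θ hθ
    by_contra hne
    set T := inertia Q (θ : Q → ℂ) with hT
    have hQT : Q ≤ T := le_inertia Q (isClassFunction_of_isIrr θ.2)
    have hTdvd : T.index ∣ Nat.card (P : Subgroup G) := hidx ▸ Subgroup.index_dvd_of_le hQT
    have hpT : p ∣ T.index := by
      obtain ⟨k, hk⟩ := IsPGroup.iff_card.mp P.2
      obtain ⟨i, -, hi⟩ := (Nat.dvd_prime_pow hp.out).mp (hk ▸ hTdvd)
      rcases Nat.eq_zero_or_pos i with rfl | hi0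
      · exact absurd (Subgroup.index_eq_one.mp (hi.trans (pow_zero p))) hne
      · exact hi ▸ dvd_pow_self p hi0.ne'
    have horb : (orbit Q (θ : Q → ℂ)).card = T.index := by
      have h := congrFun (sum_conjChar_eq Q (θ : Q → ℂ)) 1
      have hone1 : ∀ g : G, conjChar Q g (θ : Q → ℂ) 1 = (θ : Q → ℂ) 1 := fun g => by
        rw [conjChar_apply]; exact congrArg _ (Subtype.ext (by simp))
      have horb1 : ∀ ψ ∈ orbit Q (θ : Q → ℂ), ψ 1 = (θ : Q → ℂ) 1 := fun ψ hψ => by
        obtain ⟨g, rfl⟩ := (mem_orbit Q).mp hψ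
        exact hone1 g
      rw [Finset.sum_apply, Finset.sum_congr rfl fun x _ => hone1 x,
        Pi.smul_apply, Finset.sum_apply, Finset.sum_congr rfl horb1,
        Finset.sum_const, Finset.sum_const, nsmul_eq_mul, nsmul_eq_mul, smul_eq_mul, ← mul_assoc,
        Finset.card_univ, ← Nat.card_eq_fintype_card] at h
      have h' := mul_right_cancel₀ (irr_degree_ne_zero θ.2) h
      rw [← Nat.cast_mul, Nat.cast_inj, ← hT, ← Subgroup.card_mul_index T] at h'
      exact (Nat.eq_of_mul_eq_mul_left Nat.card_pos h').symm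
    let S : Finset (IrrCharacter Q) := Finset.univ.filter fun ψ => (ψ : Q → ℂ) ∈ orbit Q (θ : Q → ℂ)
    have hcard : S.card = T.index := by
      rw [← horb]
      refine Finset.card_bij (fun ψ _ => (ψ : Q → ℂ)) (fun ψ hψ => (Finset.mem_filter.mp hψ).2)
        (fun a _ b _ h => Subtype.ext h) fun f hf => ?_
      obtain ⟨g, rfl⟩ := (mem_orbit Q).mp hf
      exact ⟨⟨_, isIrrCharacter_conjChar Q g θ.2⟩,
        Finset.mem_filter.mpr ⟨Finset.mem_univ _, hf⟩, rfl⟩
    have hterm : ∀ ψ ∈ S, 1 ≤ e ψ * charDegree (ψ : Q → ℂ) := by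
      intro ψ hψ
      obtain ⟨g, hg⟩ := (mem_orbit Q).mp (Finset.mem_filter.mp hψ).2
      have : e ψ = e θ := by
        have h1 := hcoef ψ
        rw [← hg, ← conjChar_restrict Q (isClassFunction_of_isCharacter hr) g, classInner_conjChar,
          hcoef θ, Nat.cast_inj] at h1
        exact h1.symm
      exact Nat.mul_pos (this ▸ Nat.pos_of_ne_zero hθ) (charDegree_pos ψ.2)
    have h1 : S.card ≤ n := by
      rw [hdeg, Finset.card_eq_sum_ones]
      exact (Finset.sum_le_sum hterm).trans (Finset.sum_le_sum_of_subset (Finset.subset_univ S))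
    have h2 := Nat.le_of_dvd (Nat.pos_of_ne_zero Subgroup.index_ne_zero_of_finite) hpT
    omega
  intro y hy
  refine ⟨hy, Subgroup.mem_centralizer_iff.mpr fun a ha => ?_⟩
  set z : Q := ⟨a * y * a⁻¹, hQ.conj_mem y hy a⟩ * (⟨y, hy⟩ : Q)⁻¹ with hz
  have hterm : ∀ θ : IrrCharacter Q,
      (e θ : ℂ) * (θ : Q → ℂ) z = (e θ : ℂ) * (θ : Q → ℂ) 1 := by
    intro θ
    rcases eq_or_ne (e θ) 0 with h0 | h0
    · simp [h0]
    have hi : ∀ g : G, conjChar Q g (θ : Q → ℂ) = θ := fun g => by
      rw [← mem_inertia, hinvar θ h0]; exact Subgroup.mem_top g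
    have hle : charDegree (θ : Q → ℂ) ≤ n := by
      rw [hdeg]
      exact le_trans (Nat.le_mul_of_pos_left _ (Nat.pos_of_ne_zero h0))
        (Finset.single_le_sum (f := fun ψ : IrrCharacter Q => e ψ * charDegree (ψ : Q → ℂ))
          (fun _ _ => Nat.zero_le _) (Finset.mem_univ θ))
    have hd1 := degree_eq_one Q (P : Subgroup G) P.2 hQp
      (fun w hw hwa => hcent w ⟨hw, Subgroup.mem_centralizer_iff.mpr hwa⟩) θ.2 (fun g _ => hi g)
      (by omega)
    obtain ⟨l, hl⟩ := exists_hom_of_degree_one (isCharacter_of_isIrr θ.2)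
      ((charDegree_eq_one_iff θ.2).mp hd1)
    have h2 := congrFun (hi a) ⟨y, hy⟩
    rw [conjChar_apply, hl, hl] at h2
    congr 1
    rw [hl, hl, hz, map_mul, map_inv, map_one, Units.val_mul, h2, ← Units.val_mul, mul_inv_cancel]
  have hval : ρ.character (z : G) = ρ.character 1 := by
    have h1 := congrFun he z
    have h2 := congrFun he 1
    simp only [Finset.sum_apply, Pi.smul_apply, smul_eq_mul] at h1 h2
    rw [Finset.sum_congr rfl fun θ _ => hterm θ, ← h2] at h1
    exact h1
  have h1 : (z : G) = 1 := hρ ((CharKernel.rep_eq_one_of_char_eq ρ hval).trans (map_one ρ).symm)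
  have h2 : a * y * a⁻¹ * y⁻¹ = 1 := h1
  rwa [mul_inv_eq_one, mul_inv_eq_iff_eq_mul] at h2

/-- The induction step. -/
theorem step {n : ℕ} (ρ : Representation ℂ G (Fin n → ℂ)) (hρ : Function.Injective ρ)
    (hn : n + 1 < p) (hor : (n + 1) ^ 2 ≤ p ∨ (¬ p ^ 2 ∣ Nat.card G → NS p G))
    (hind : ∀ K : Subgroup G, K ≠ ⊤ → NS p K) : NS p G := by
  classical
  intro P
  have := Fintype.ofFinite G
  have := Fintype.ofFinite (P : Subgroup G)
  by_contra hcon
  have hP1 : (P : Subgroup G) ≠ ⊥ := fun h => hcon (h ▸ inferInstance)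
  have hr : IsCharacter G ρ.character := ⟨n, ρ, rfl⟩
  have hr1 : ρ.character 1 = (n : ℂ) := by
    rw [Representation.char_one, Module.finrank_fintype_fun_eq_card, Fintype.card_fin]
  -- `P` is abelian
  have hab : ∀ a ∈ (P : Subgroup G), ∀ b ∈ (P : Subgroup G), a * b = b * a := by
    intro a ha b hb
    obtain ⟨e, he⟩ := isCharacter_eq_sum (isCharacter_restrict hr (P : Subgroup G))
    set z : (P : Subgroup G) := (⟨a, ha⟩ * ⟨b, hb⟩) * (⟨b, hb⟩ * ⟨a, ha⟩)⁻¹ with hz
    have hterm : ∀ θ : IrrCharacter (P : Subgroup G),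
        (e θ : ℂ) * (θ : ↥(P : Subgroup G) → ℂ) z = (e θ : ℂ) * (θ : ↥(P : Subgroup G) → ℂ) 1 := by
      intro θ
      rcases eq_or_ne (e θ) 0 with h0 | h0
      · simp [h0]
      have hle : charDegree (θ : ↥(P : Subgroup G) → ℂ) ≤ n := by
        have h := congrFun he 1
        rw [show ((1 : (P : Subgroup G)) : G) = 1 from rfl, hr1, Finset.sum_apply, Finset.sum_congr rfl
          (g := fun ψ : IrrCharacter (P : Subgroup G) =>
            ((e ψ * charDegree (ψ : ↥(P : Subgroup G) → ℂ) : ℕ) : ℂ)) fun ψ _ => by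
            rw [Pi.smul_apply, smul_eq_mul, apply_one_eq_charDegree (isCharacter_of_isIrr ψ.2),
              Nat.cast_mul], ← Nat.cast_sum, Nat.cast_inj] at h
        rw [h]
        exact le_trans (Nat.le_mul_of_pos_left _ (Nat.pos_of_ne_zero h0))
          (Finset.single_le_sum (f := fun ψ : IrrCharacter (P : Subgroup G) =>
            e ψ * charDegree (ψ : ↥(P : Subgroup G) → ℂ)) (fun _ _ => Nat.zero_le _) (Finset.mem_univ θ))
      obtain ⟨k, hk⟩ := IsPGroup.iff_card.mp P.2
      obtain ⟨i, -, hi⟩ := (Nat.dvd_prime_pow hp.out).mp (hk ▸ charDegree_dvd_card θ.2)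
      have hi0 : i = 0 := by
        by_contra h
        have := Nat.le_self_pow h p
        omega
      obtain ⟨l, hl⟩ := exists_hom_of_degree_one (isCharacter_of_isIrr θ.2)
        ((charDegree_eq_one_iff θ.2).mp (by rw [hi, hi0, pow_zero]))
      congr 1
      rw [hl, hl, hz, map_mul, map_inv, map_mul, map_mul,
        mul_comm (l ⟨b, hb⟩), mul_inv_cancel, map_one]
    have h1 := congrFun he z
    have h2 := congrFun he 1
    simp only [Finset.sum_apply, Pi.smul_apply, smul_eq_mul] at h1 h2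
    rw [Finset.sum_congr rfl fun θ _ => hterm θ, ← h2] at h1
    have h3 : (z : G) = 1 := hρ ((CharKernel.rep_eq_one_of_char_eq ρ h1).trans (map_one ρ).symm)
    exact mul_inv_eq_one.mp h3
  have hnotle : ∀ M : Subgroup G, M.Normal → (P : Subgroup G) ≤ M → M = ⊤ := fun M hM hPM => by
    by_contra hne
    haveI := hM
    exact hcon (normal_of_le_normal (hind M hne) hPM)
  by_cases hPZ : (P : Subgroup G) ⊓ Subgroup.center G = ⊥
  · -- the bound of Feit and Thompson
    have hcomm : ¬ ∀ a ∈ (P : Subgroup G), ∀ g : G, g * a = a * g := by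
      intro h
      refine hP1 (eq_bot_iff.mpr fun a ha => ?_)
      rw [← hPZ]
      exact ⟨ha, Subgroup.mem_center_iff.mpr (h a ha)⟩
    push Not at hcomm
    obtain ⟨a, ha, g, hga⟩ := hcomm
    obtain ⟨e, he⟩ := isCharacter_eq_sum hr
    obtain ⟨χ, hχ0, hχne⟩ : ∃ χ : IrrCharacter G, e χ ≠ 0 ∧
        (χ : G → ℂ) (g * a * g⁻¹ * a⁻¹) ≠ (χ : G → ℂ) 1 := by
      by_contra hc
      push Not at hc
      refine hga ?_
      have h : ρ.character (g * a * g⁻¹ * a⁻¹) = ρ.character 1 := by
        rw [he]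
        simp only [Finset.sum_apply, Pi.smul_apply, smul_eq_mul]
        refine Finset.sum_congr rfl fun χ _ => ?_
        rcases eq_or_ne (e χ) 0 with h0 | h0
        · simp [h0]
        · rw [hc χ h0]
      have h3 := hρ ((CharKernel.rep_eq_one_of_char_eq ρ h).trans (map_one ρ).symm)
      rwa [mul_inv_eq_one, mul_inv_eq_iff_eq_mul] at h3
    have hχc := isCharacter_of_isIrr χ.2
    have hker : ∃ h ∈ (P : Subgroup G), (χ : G → ℂ) h ≠ (χ : G → ℂ) 1 := by
      refine ⟨a, ha, fun h => hχne ?_⟩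
      have := CharKernel.kerChar_normal hχc
      exact (CharKernel.kerChar hχc).mul_mem (this.conj_mem a h g) ((CharKernel.kerChar hχc).inv_mem h)
    have hlin : (χ : G → ℂ) 1 ≠ 1 := by
      intro h
      obtain ⟨l, hl⟩ := exists_hom_of_degree_one hχc h
      refine hχne ?_
      rw [hl, hl]
      simp
    have hTI : ∀ x : G, x ∉ Subgroup.center G → ∀ b : G,
        x ∈ (P : Subgroup G).map (MulAut.conj b).toMonoidHom →
        ∀ S : Subgroup G, IsPGroup p S → S ≤ Subgroup.centralizer ({x} : Set G) →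
          S ≤ (P : Subgroup G).map (MulAut.conj b).toMonoidHom := by
      intro x hx b hxb S hS hSC
      let P' : Sylow p G := P.mapSurjective (f := (MulAut.conj b).toMonoidHom) (MulAut.conj b).surjective
      have hne : Subgroup.centralizer ({x} : Set G) ≠ ⊤ := fun h => hx (Subgroup.mem_center_iff.mpr
        fun y => Subgroup.mem_centralizer_singleton_iff.mp (h ▸ Subgroup.mem_top y))
      have hle : (P' : Subgroup G) ≤ Subgroup.centralizer ({x} : Set G) := by
        intro y hy
        replace hy : y ∈ (P : Subgroup G).map (MulAut.conj b).toMonoidHom := hy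
        rw [Subgroup.mem_centralizer_singleton_iff]
        obtain ⟨u, hu, rfl⟩ := hy
        obtain ⟨v, hv, rfl⟩ := hxb
        rw [← map_mul, ← map_mul, hab u hu v hv]
      exact (core_eq (hind _ hne) hle).2 S hSC hS
    have hone : ∀ g : G, g ∉ Subgroup.center G → ∀ a b : G,
        Subgroup.centralizer ({g} : Set G) ⊓ (P : Subgroup G).map (MulAut.conj a).toMonoidHom ≠ ⊥ →
        Subgroup.centralizer ({g} : Set G) ⊓ (P : Subgroup G).map (MulAut.conj b).toMonoidHom ≠ ⊥ →
        (P : Subgroup G).map (MulAut.conj a).toMonoidHom =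
          (P : Subgroup G).map (MulAut.conj b).toMonoidHom := by
      intro g hg a b hA hB
      obtain ⟨x, hx, hx1⟩ := (Subgroup.ne_bot_iff_exists_ne_one.mp hA)|> fun ⟨x, hx⟩ =>
        (⟨(x : G), x.2, fun h => hx (Subtype.ext h)⟩ : ∃ x : G, _ ∧ x ≠ 1)
      obtain ⟨y, hy, hy1⟩ := (Subgroup.ne_bot_iff_exists_ne_one.mp hB)|> fun ⟨x, hx⟩ =>
        (⟨(x : G), x.2, fun h => hx (Subtype.ext h)⟩ : ∃ x : G, _ ∧ x ≠ 1)
      have hnc : ∀ c x : G, x ∈ (P : Subgroup G).map (MulAut.conj c).toMonoidHom → x ≠ 1 →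
          x ∉ Subgroup.center G := by
        rintro c _ ⟨v, hv, rfl⟩ hv1 hz
        refine hv1 ?_
        have : v ∈ (P : Subgroup G) ⊓ Subgroup.center G := ⟨hv, by
          have h := (inferInstance : (Subgroup.center G).Normal).conj_mem _ hz c⁻¹
          have e : c⁻¹ * (MulAut.conj c).toMonoidHom v * c⁻¹⁻¹ = v := by simp [mul_assoc]
          rwa [e] at h⟩
        rw [hPZ, Subgroup.mem_bot] at this
        rw [this, map_one]
      have hgne : Subgroup.centralizer ({g} : Set G) ≠ ⊤ := fun h => hg (Subgroup.mem_center_iff.mpr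
        fun y => Subgroup.mem_centralizer_singleton_iff.mp (h ▸ Subgroup.mem_top y))
      obtain ⟨T, hTle, hT, -, hmax⟩ := exists_core (hind _ hgne)
      have hxT : x ∈ T := hmax (Subgroup.zpowers x) (Subgroup.zpowers_le.mpr hx.1)
        ((P.2.map _).to_le (Subgroup.zpowers_le.mpr hx.2)) (Subgroup.mem_zpowers x)
      have hyT : y ∈ T := hmax (Subgroup.zpowers y) (Subgroup.zpowers_le.mpr hy.1)
        ((P.2.map _).to_le (Subgroup.zpowers_le.mpr hy.2)) (Subgroup.mem_zpowers y)
      obtain ⟨S, hS⟩ := hT.exists_le_sylow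
      obtain ⟨c, hc⟩ := MulAction.exists_smul_eq G P S
      have hSeq : (S : Subgroup G) = (P : Subgroup G).map (MulAut.conj c).toMonoidHom := by
        rw [← hc]; rfl
      have key : ∀ d w : G, w ∈ (P : Subgroup G).map (MulAut.conj d).toMonoidHom → w ≠ 1 →
          w ∈ (S : Subgroup G) → (P : Subgroup G).map (MulAut.conj d).toMonoidHom = S := by
        intro d w hwd hw1 hwS
        have hcw : (S : Subgroup G) ≤ Subgroup.centralizer ({w} : Set G) := by
          intro u hu
          rw [Subgroup.mem_centralizer_singleton_iff]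
          rw [hSeq] at hu hwS
          obtain ⟨u', hu', rfl⟩ := hu
          obtain ⟨w', hw', rfl⟩ := hwS
          rw [← map_mul, ← map_mul, hab u' hu' w' hw']
        exact S.3 (P.2.map _) (hTI w (hnc d w hwd hw1) d hwd S S.2 hcw)
      rw [key a x hx.2 hx1 (hS hxT), key b y hy.2 hy1 (hS hyT)]
    have hbd := (S0898.result (P : Subgroup G) hab hPZ hone (χ : G → ℂ) χ.2 hker).2 hlin hnotle
    rw [apply_one_eq_charDegree hχc, Complex.natCast_re] at hbd
    have hbd' : Nat.card (P : Subgroup G) < (1 + charDegree (χ : G → ℂ)) ^ 2 := by exact_mod_cast hbd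
    have hχn : charDegree (χ : G → ℂ) ≤ n := by
      have h := congrFun he 1
      rw [hr1, Finset.sum_apply, Finset.sum_congr rfl
        (g := fun ψ : IrrCharacter G => ((e ψ * charDegree (ψ : G → ℂ) : ℕ) : ℂ)) fun ψ _ => by
          rw [Pi.smul_apply, smul_eq_mul, apply_one_eq_charDegree (isCharacter_of_isIrr ψ.2),
            Nat.cast_mul], ← Nat.cast_sum, Nat.cast_inj] at h
      rw [h]
      exact le_trans (Nat.le_mul_of_pos_left _ (Nat.pos_of_ne_zero hχ0))
        (Finset.single_le_sum (f := fun ψ : IrrCharacter G => e ψ * charDegree (ψ : G → ℂ))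
          (fun _ _ => Nat.zero_le _) (Finset.mem_univ χ))
    have hsq : (1 + charDegree (χ : G → ℂ)) ^ 2 ≤ (1 + n) ^ 2 :=
      Nat.pow_le_pow_left (by omega) 2
    rcases hor with hor | hor
    · have : p ≤ Nat.card (P : Subgroup G) := by
        obtain ⟨k, hk⟩ := IsPGroup.iff_card.mp P.2
        rw [hk]
        refine Nat.le_self_pow (fun h0 => hP1 (Subgroup.eq_bot_of_card_eq _ ?_)) p
        rw [hk, h0, pow_zero]
      rw [Nat.add_comm n 1] at hor
      omega
    · by_cases hd : p ^ 2 ∣ Nat.card G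
      · have h1 : p ^ 2 ≤ Nat.card (P : Subgroup G) :=
          Nat.le_of_dvd Nat.card_pos (P.pow_dvd_card_of_pow_dvd_card hd)
        have h2 : (1 + n) ^ 2 ≤ p ^ 2 := Nat.pow_le_pow_left (by omega) 2
        omega
      · exact hcon (hor hd P)
  · -- a central element of `P`
    obtain ⟨⟨z, hz⟩, hz1⟩ := Subgroup.ne_bot_iff_exists_ne_one.mp hPZ
    replace hz1 : z ≠ 1 := fun h => hz1 (Subtype.ext h)
    haveI : IsMulCommutative (P : Subgroup G) :=
      ⟨⟨fun a b => Subtype.ext (hab a a.2 b b.2)⟩⟩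
    open scoped IsMulCommutative in
    let τ : G →* (P : Subgroup G) := MonoidHom.transfer (MonoidHom.id (P : Subgroup G))
    have hτz : z ∉ τ.ker := by
      intro hk
      rw [MonoidHom.mem_ker] at hk
      have key : ∀ (k : ℕ) (g₀ : G), g₀⁻¹ * z ^ k * g₀ ∈ (P : Subgroup G) →
          g₀⁻¹ * z ^ k * g₀ = z ^ k := fun k g₀ _ => by
        rw [mul_assoc, ← Subgroup.mem_center_iff.mp (Subgroup.pow_mem _ hz.2 k) g₀, inv_mul_cancel_left]
      have h1 : z ^ (P : Subgroup G).index = 1 :=
        congrArg Subtype.val ((MonoidHom.transfer_eq_pow (MonoidHom.id (P : Subgroup G)) z key).symm.trans hk)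
      refine hz1 (orderOf_eq_one_iff.mp ?_)
      obtain ⟨k, hk'⟩ := IsPGroup.iff_card.mp P.2
      obtain ⟨i, -, hi⟩ := (Nat.dvd_prime_pow hp.out).mp (hk' ▸ Subgroup.orderOf_dvd_natCard _ hz.1)
      have h2 := orderOf_dvd_of_pow_eq_one h1
      rw [hi] at h2 ⊢
      rcases Nat.eq_zero_or_pos i with rfl | hi0
      · exact pow_zero p
      · exact absurd ((dvd_pow_self p hi0.ne').trans h2) P.not_dvd_index
    set N := τ.ker with hN
    have hNne : N ≠ ⊤ := fun h => hτz (h ▸ Subgroup.mem_top z)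
    obtain ⟨S, hSN, hS, hNS, hmax⟩ := exists_core (hind N hNne)
    haveI hSn : S.Normal := ⟨fun x hx g => by
      refine hmax (S.map (MulAut.conj g).toMonoidHom) ?_ (hS.map _) ⟨x, hx, rfl⟩
      rintro _ ⟨w, hw, rfl⟩
      exact (inferInstance : N.Normal).conj_mem w (hSN hw) g⟩
    have hSP : S ≤ (P : Subgroup G) := by
      obtain ⟨T, hT⟩ := hS.exists_le_sylow
      obtain ⟨c, hc⟩ := MulAction.exists_smul_eq G P T
      intro x hx
      have h1 : c * x * c⁻¹ ∈ (T : Subgroup G) := hT (hSn.conj_mem x hx c)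
      rw [← hc] at h1
      obtain ⟨y, hy, hyx⟩ := h1
      have h2 : y = x := by simpa [MulAut.conj_apply] using hyx
      exact h2 ▸ hy
    have hScent : ∀ x ∈ S, ∀ g : G, x * g = g * x := by
      have := hnotle (Subgroup.centralizer (S : Set G)) inferInstance fun a ha =>
        Subgroup.mem_centralizer_iff.mpr fun x hx => hab x (hSP hx) a ha
      intro x hx g
      exact Subgroup.mem_centralizer_iff.mp (this ▸ Subgroup.mem_top g) x hx
    obtain ⟨T⟩ := (inferInstance : Nonempty (Sylow p N))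
    have hT : ∀ t : N, t ∈ (T : Subgroup N) → (t : G) ∈ S := fun t ht =>
      hmax ((T : Subgroup N).map N.subtype) (Subgroup.map_subtype_le _) (T.2.map _) ⟨t, ht, rfl⟩
    have hTc : Subgroup.normalizer ((T : Subgroup N) : Set N) ≤
        Subgroup.centralizer ((T : Subgroup N) : Set N) := fun x _ =>
      Subgroup.mem_centralizer_iff.mpr fun t ht => Subtype.ext (hScent (t : G) (hT t ht) x)
    set σ := MonoidHom.transferSylow T hTc with hσ
    have hcompl : σ.ker.IsComplement' (T : Subgroup N) := MonoidHom.ker_transferSylow_isComplement' T hTc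
    have hσp : ¬ p ∣ Nat.card σ.ker := by
      have h2 := hcompl.index_eq_card
      rw [← h2]
      exact T.not_dvd_index
    set Q := σ.ker.map N.subtype with hQ
    have hQcard : Nat.card Q = Nat.card σ.ker := Subgroup.card_map_of_injective N.subtype_injective
    have hQcop : (Nat.card Q).Coprime p :=
      ((Nat.Prime.coprime_iff_not_dvd hp.out).mpr (hQcard ▸ hσp)).symm
    haveI hQn : Q.Normal := ⟨by
      rintro _ ⟨y, hy, rfl⟩ g
      refine ⟨⟨g * y * g⁻¹, (inferInstance : N.Normal).conj_mem y y.2 g⟩, ?_, rfl⟩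
      obtain ⟨k, hk⟩ := IsPGroup.iff_card.mp T.2
      set y' : N := ⟨g * y * g⁻¹, (inferInstance : N.Normal).conj_mem y y.2 g⟩
      show σ y' = 1
      have h1 : orderOf (σ y') ∣ orderOf (y : G) := by
        refine (orderOf_map_dvd σ y').trans (dvd_of_eq ?_)
        rw [← Subgroup.orderOf_coe]
        exact (MulEquiv.orderOf_eq (MulAut.conj g) (y : G))
      have h2 : orderOf (σ y') ∣ Nat.card (T : Subgroup N) := orderOf_dvd_natCard _
      have h3 : orderOf (y : G) ∣ Nat.card σ.ker := by
        rw [Subgroup.orderOf_coe]; exact Subgroup.orderOf_dvd_natCard _ hy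
      exact orderOf_eq_one_iff.mp (Nat.eq_one_of_dvd_coprimes
        (Nat.Coprime.pow_left k ((Nat.Prime.coprime_iff_not_dvd hp.out).mpr hσp)) (hk ▸ h2)
        (h1.trans h3))⟩
    have hidx : Q.index = Nat.card (P : Subgroup G) := by
      have h1 : Q.relIndex N * N.index = Q.index :=
        Subgroup.relIndex_mul_index (Subgroup.map_subtype_le _)
      have h2 : Q.relIndex N = Nat.card (T : Subgroup N) := by
        rw [Subgroup.relIndex, hQ, Subgroup.subgroupOf,
          Subgroup.comap_map_eq_self_of_injective N.subtype_injective]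
        exact hcompl.symm.index_eq_card
      obtain ⟨i, hi⟩ := IsPGroup.iff_card.mp T.2
      obtain ⟨j, -, hj⟩ : ∃ j ≤ Nat.log p (Nat.card (P : Subgroup G)), N.index = p ^ j := by
        obtain ⟨k, hk⟩ := IsPGroup.iff_card.mp P.2
        have h3 : N.index ∣ Nat.card (P : Subgroup G) := by
          rw [hN, Subgroup.index_ker]
          exact Subgroup.card_subgroup_dvd_card τ.range
        obtain ⟨j, hjk, hj⟩ := (Nat.dvd_prime_pow hp.out).mp (hk ▸ h3)
        exact ⟨j, by rw [hk, Nat.log_pow hp.out.one_lt]; exact hjk, hj⟩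
      have h4 : Q.index = p ^ (i + j) := by rw [← h1, h2, hi, hj, pow_add]
      obtain ⟨k, hk⟩ := IsPGroup.iff_card.mp P.2
      have h5 : Nat.card G = Nat.card Q * p ^ (i + j) := by rw [← h4, Subgroup.card_mul_index]
      have h6 : Nat.card G = p ^ k * (P : Subgroup G).index := by rw [← hk, Subgroup.card_mul_index]
      rw [h4, hk]
      refine dvd_antisymm ?_ ?_
      · refine Nat.Coprime.dvd_of_dvd_mul_right (Nat.Coprime.pow_left _
          ((Nat.Prime.coprime_iff_not_dvd hp.out).mpr P.not_dvd_index)) ?_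
        rw [← h6, h5]; exact dvd_mul_left _ _
      · refine Nat.Coprime.dvd_of_dvd_mul_left (Nat.Coprime.pow_left _ hQcop.symm) ?_
        rw [← h5, h6]; exact dvd_mul_right _ _
    have hcent := centralizes_complement ρ hρ hn P Q hQcop hidx hind
    have hsup : Q ⊔ (P : Subgroup G) = ⊤ := by
      refine (Subgroup.isComplement'_of_coprime (by rw [← hidx, Subgroup.card_mul_index]) ?_).sup_eq_top
      obtain ⟨k, hk⟩ := IsPGroup.iff_card.mp P.2
      rw [hk]
      exact hQcop.pow_right k
    refine hcon (Subgroup.normalizer_eq_top_iff.mp (eq_top_iff.mpr (hsup ▸ sup_le ?_ Subgroup.le_normalizer)))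
    intro y hy
    rw [Subgroup.mem_normalizer_iff]
    intro a
    constructor
    · intro ha
      rwa [← hcent a ha y hy, mul_inv_cancel_right]
    · intro ha
      have h := hcent _ ha y hy
      -- `y a y⁻¹` commutes with `y`
      rw [inv_mul_cancel_right] at h
      rwa [← mul_left_cancel h] at ha

theorem main (n : ℕ) : ∀ (m : ℕ) (H : Type u) [Group H] [Finite H],
    Nat.card H = m → ∀ (ρ : Representation ℂ H (Fin n → ℂ)), Function.Injective ρ → n + 1 < p →
    ((n + 1) ^ 2 ≤ p ∨ ∀ K : Subgroup H, ¬ p ^ 2 ∣ Nat.card K → NS p K) → NS p H := by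
  intro m
  induction m using Nat.strong_induction_on with
  | _ m ih =>
    intro H _ _ hm ρ hρ hn hor
    refine step ρ hρ hn (hor.imp id fun h hd => ?_) fun K hK => ?_
    · exact ns_of_equiv (Subgroup.topEquiv (G := H)).symm
        (h ⊤ (by rwa [Subgroup.card_top]))
    · refine ih (Nat.card K) ?_ K rfl (ρ.comp K.subtype) (hρ.comp K.subtype_injective) hn
        (hor.imp id fun h K' hd => ?_)
      · rw [← hm]
        exact lt_of_le_of_ne (Subgroup.card_le_card_group K) fun h => hK (Subgroup.eq_top_of_card_eq K h)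
      · exact ns_of_equiv (Subgroup.equivMapOfInjective K' K.subtype K.subtype_injective)
          (h (K'.map K.subtype) (by rwa [Subgroup.card_map_of_injective K.subtype_injective]))

/-- Let G be a finite group with a faithful complex representation of degree n (on Fin n → ℂ) and p a prime. Suppose either that (n + 1) ^ 2 ≤ p, or that n + 1 < p and every subgroup of G whose order is not divisible by p ^ 2 has a normal Sylow p-subgroup. Then every Sylow p-subgroup of G is normal. -/
theorem result {G : Type*} [Group G] [Finite G] (n : ℕ) (ρ : Representation ℂ G (Fin n → ℂ)) (hρ : Function.Injective ρ) (p : ℕ) [Fact p.Prime] (h : (n + 1) ^ 2 ≤ p ∨ (n + 1 < p ∧ ∀ K : Subgroup G, ¬ p ^ 2 ∣ Nat.card K → ∀ Q : Sylow p K, (Q : Subgroup K).Normal)) (P : Sylow p G) : (P : Subgroup G).Normal := by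
  have hn : n + 1 < p := by
    rcases h with h | h
    · rcases Nat.eq_zero_or_pos n with rfl | hn0
      · exact (Fact.out : p.Prime).one_lt
      · nlinarith
    · exact h.1
  exact main n (Nat.card G) G rfl ρ hρ hn (h.imp id fun h => h.2) P

end Cfsg.Agent.S0899
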