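import Cfsg.Statements.S1160
import Cfsg.Agent.Lib.OddLocal.Wielandt
import Cfsg.Agent.Lib.Thompson.Cyclic
-- import your own Cfsg.Agent.* helpers here

set_option autoImplicit false
open Cfsg

namespace Cfsg.Agent.S1160

theorem subgroup_eq_of_card {P : Type*} [Group P] [Finite P] [IsCyclic P] (H K : Subgroup P)
    (h : Nat.card H = Nat.card K) : H = K := by
  classical
  haveI : Fintype P := Fintype.ofFinite P
  have hsub : ∀ S : Subgroup P, (S : Set P).toFinset ⊆ Finset.univ.filter fun x : P => x ^ Nat.card S = 1 :=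
    fun S x hx => by
      rw [Set.mem_toFinset, SetLike.mem_coe] at hx
      exact Finset.mem_filter.mpr ⟨Finset.mem_univ _, orderOf_dvd_iff_pow_eq_one.mp (S.orderOf_dvd_natCard hx)⟩
  have hbound := IsCyclic.card_pow_eq_one_le (α := P) (n := Nat.card H) Nat.card_pos
  have hc : ∀ S : Subgroup P, (S : Set P).toFinset.card = Nat.card S := fun S => by
    rw [Set.toFinset_card, Nat.card_eq_fintype_card]
    rfl
  have h1 := Finset.eq_of_subset_of_card_le (hsub H) (hbound.trans (hc H).ge)
  have h2 := Finset.eq_of_subset_of_card_le (hsub K) (by rw [hc K, ← h]; exact hbound)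
  rw [← h] at h2
  exact SetLike.coe_injective (Set.toFinset_inj.mp (h1.trans h2.symm))

theorem card_lt_of_lt {P : Type*} [Group P] [Finite P] {H K : Subgroup P} (h : H < K) :
    Nat.card H < Nat.card K :=
  Set.ncard_lt_ncard (SetLike.coe_ssubset_coe.mpr h) (Set.toFinite _)

/-- Let `p ≠ 2` be prime and `P` a finite `p`-group acting faithfully by additive automorphisms on a finite elementary abelian `q`-group `E` (`q` prime), such that `|P_a|` is the same for all `a ≠ 0`. Then `P` is cyclic and every non-identity element of `P` fixes only `0`. -/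
theorem result {P E : Type*} [Group P] [Finite P]
    [AddCommGroup E] [Finite E] [DistribMulAction P E] [FaithfulSMul P E]
    {p q : ℕ} [Fact p.Prime] (hp2 : p ≠ 2) (hP : IsPGroup p P) (hq : q.Prime) (hE : ∀ e : E, q • e = 0)
    (hconst : ∀ a b : E, a ≠ 0 → b ≠ 0 →
      Nat.card (MulAction.stabilizer P a) = Nat.card (MulAction.stabilizer P b)) :
    IsCyclic P ∧ ∀ g : P, g ≠ 1 → ∀ a : E, g • a = a → a = 0 := by
  haveI hpf : Fact p.Prime := inferInstance
  have hp := hpf.out
  rcases subsingleton_or_nontrivial E with hE0 | hE0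
  · haveI : Subsingleton P := ⟨fun a b => FaithfulSMul.eq_of_smul_eq_smul fun e : E => Subsingleton.elim _ _⟩
    exact ⟨inferInstance, fun g hg => absurd (Subsingleton.elim g 1) hg⟩
  have hstab : ∀ {g : P} {a : E}, g ∈ MulAction.stabilizer P a ↔ g • a = a := fun {g a} => Iff.rfl
  -- if some nonzero point is fixed by everything, the group is trivial
  have hfixall : ∀ a : E, a ≠ 0 → (∀ g : P, g • a = a) → Subsingleton P := fun a ha h => ⟨fun g k => by
    refine FaithfulSMul.eq_of_smul_eq_smul fun e : E => ?_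
    rcases eq_or_ne e 0 with rfl | he
    · simp
    have htop : MulAction.stabilizer P e = ⊤ := Subgroup.eq_top_of_card_eq _ (by
      rw [hconst e a he ha, show MulAction.stabilizer P a = ⊤ from eq_top_iff.2 fun x _ => h x, Subgroup.card_top])
    rw [hstab.mp (htop ▸ Subgroup.mem_top g : g ∈ MulAction.stabilizer P e),
      hstab.mp (htop ▸ Subgroup.mem_top k : k ∈ MulAction.stabilizer P e)]⟩
  rcases eq_or_ne q p with rfl | hqp
  · obtain ⟨a, ha0⟩ := exists_ne (0 : E)
    have hd : q ∣ Nat.card E := by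
      rw [← addOrderOf_eq_prime (hE a) ha0]; exact addOrderOf_dvd_natCard a
    obtain ⟨b, hb, hb0⟩ := hP.exists_fixed_point_of_prime_dvd_card_of_fixed_point E hd (a := (0 : E))
      (fun g => smul_zero g)
    haveI := hfixall b (Ne.symm hb0) hb
    exact ⟨inferInstance, fun g hg => absurd (Subsingleton.elim g 1) hg⟩
  have hcopqp : q.Coprime p := (Nat.coprime_primes hq hp).mpr hqp
  have hp0 : ∀ v : E, p • v = 0 → v = 0 := fun v hv => AddMonoid.addOrderOf_eq_one_iff.mp
    (Nat.eq_one_of_dvd_coprimes hcopqp (addOrderOf_dvd_of_nsmul_eq_zero (hE v)) (addOrderOf_dvd_of_nsmul_eq_zero hv))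
  have hpinj : ∀ v w : E, p • v = p • w → v = w := fun v w h =>
    sub_eq_zero.mp (hp0 _ (by rw [nsmul_sub, h, sub_self]))
  -- a point whose stabilizer fixes everything
  have htriv : ∀ a : E, a ≠ 0 → (∀ x : P, x • a = a → ∀ v : E, x • v = v) → ∀ g : P, g • a = a → g = 1 :=
    fun a _ h g hg => FaithfulSMul.eq_of_smul_eq_smul fun v : E => by rw [one_smul]; exact h g hg v
  have hle : ∀ a b : E, a ≠ 0 → b ≠ 0 → MulAction.stabilizer P b ≤ MulAction.stabilizer P a →
      MulAction.stabilizer P b = MulAction.stabilizer P a := fun a b ha hb h =>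
    Subgroup.eq_of_le_of_card_ge h (hconst a b ha hb).le
  by_cases hcyc : IsCyclic P
  · refine ⟨hcyc, fun g hg a hga => ?_⟩
    by_contra ha
    have hne : MulAction.stabilizer P a ≠ ⊥ := fun h => hg (Subgroup.mem_bot.mp (h ▸ hstab.mpr hga))
    have hpd : ∀ b : E, b ≠ 0 → p ∣ Nat.card (MulAction.stabilizer P b) := fun b hb => by
      rw [hconst b a hb ha]
      exact ((hP.to_subgroup _).card_eq_or_dvd).resolve_left fun h => hne (Subgroup.eq_bot_of_card_eq _ h)
    obtain ⟨z, hz⟩ := exists_prime_orderOf_dvd_card' p (hpd a ha)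
    have hz1 : (z : P) ≠ 1 := fun h => hp.ne_one (by rw [← hz, ← Subgroup.orderOf_coe, h, orderOf_one])
    refine hz1 (htriv a ha (fun x hx v => ?_) _ z.2) |> fun h => h
    rcases eq_or_ne v 0 with rfl | hv
    · exact smul_zero x
    -- stabilizers of equal order coincide in a cyclic group
    have : MulAction.stabilizer P v = MulAction.stabilizer P a :=
      Cfsg.Agent.S1160.subgroup_eq_of_card _ _ (hconst v a hv ha)
    exact hstab.mp (this.symm ▸ hstab.mpr hx)
  exfalso
  obtain ⟨A, -, hAn, hA, hAc⟩ := Cfsg.Agent.Lib.Thompson.exists_elemAbelian_normal hp2 hP (⊤ : Subgroup P)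
    (fun h => hcyc (Subgroup.topEquiv.isCyclic.mp h))
  haveI := hA.1
  have hcomm : ∀ a ∈ A, ∀ b ∈ A, a * b = b * a := fun a ha b hb =>
    congrArg Subtype.val (mul_comm' (⟨a, ha⟩ : A) ⟨b, hb⟩)
  have hgen : ∀ g ∈ A, ∀ h ∈ A, g ≠ 1 → h ∉ Subgroup.zpowers g → ∀ v : E, g • v = v → h • v = v →
      ∀ a ∈ A, a • v = v := by
    intro g hg h hh hg1 hne v hgv hhv a ha
    have hlt : Subgroup.zpowers g < Subgroup.zpowers g ⊔ Subgroup.zpowers h :=
      lt_of_le_of_ne le_sup_left fun e => hne (e ▸ Subgroup.mem_sup_right (Subgroup.mem_zpowers h))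
    have hzle : Subgroup.zpowers g ⊔ Subgroup.zpowers h ≤ A := sup_le (Subgroup.zpowers_le.2 hg) (Subgroup.zpowers_le.2 hh)
    have h1 := Cfsg.Agent.S1160.card_lt_of_lt hlt
    rw [Nat.card_zpowers, orderOf_eq_prime (hA.2 g hg) hg1] at h1
    have h2 := Subgroup.card_dvd_of_le hzle
    rw [hAc] at h2
    obtain ⟨k, hk, he⟩ := (Nat.dvd_prime_pow hp).mp h2
    have hk2 : k = 2 := by
      rw [he] at h1
      rcases Nat.lt_or_ge k 2 with hk' | hk'
      · exfalso
        have := Nat.pow_le_pow_right hp.pos (Nat.lt_succ_iff.mp hk')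
        rw [pow_one] at this
        omega
      · omega
    have heq : Subgroup.zpowers g ⊔ Subgroup.zpowers h = A :=
      Subgroup.eq_of_le_of_card_ge hzle (by rw [hAc, he, hk2])
    have hst : A ≤ MulAction.stabilizer P v := heq ▸ sup_le (Subgroup.zpowers_le.2 hgv) (Subgroup.zpowers_le.2 hhv)
    exact hst ha
  let f : P → E → E := fun g v => ∑ i ∈ Finset.range p, g ^ i • v
  have hf_fix : ∀ g ∈ A, ∀ v, g • f g v = f g v := by
    intro g hg v
    simp only [f, Finset.smul_sum, ← mul_smul, ← pow_succ']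
    have h0 : g ^ p • v = g ^ 0 • v := by rw [hA.2 g hg, pow_zero]
    have := Finset.sum_range_succ' (fun i => g ^ i • v) p
    rw [Finset.sum_range_succ, h0] at this
    exact (add_right_cancel this).symm
  have hf_of_fix : ∀ (g : P) (v : E), g • v = v → f g v = p • v := fun g v h => by
    have hi : ∀ i, g ^ i • v = v := fun i => (MulAction.stabilizer P v).pow_mem (hstab.mpr h) i
    simp [f, hi]
  have hf_comm : ∀ g ∈ A, ∀ h ∈ A, ∀ v, h • v = v → h • f g v = f g v := fun g hg h hh v hv => by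
    simp only [f, Finset.smul_sum]
    refine Finset.sum_congr rfl fun i _ => ?_
    rw [← mul_smul, hcomm h hh _ (A.pow_mem hg i), mul_smul, hv]
  by_cases hW : ∃ a : E, a ≠ 0 ∧ ∀ g ∈ A, g • a = a
  · obtain ⟨a, ha, haA⟩ := hW
    haveI : Fintype A := Fintype.ofFinite A
    set V1 := fun v : E => (∑ g : A, (g : P) • v) = 0
    have hN : ∀ (x : P) (v : E), x • (∑ g : A, (g : P) • v) = ∑ g : A, (g : P) • (x • v) := fun x v => by
      rw [← Cfsg.Agent.Lib.OddLocal.Wielandt.normHom_apply, ← Cfsg.Agent.Lib.OddLocal.Wielandt.normHom_apply]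
      exact Cfsg.Agent.Lib.OddLocal.Wielandt.smul_normHom A (fun u hu => hAn.conj_mem u hu x) v
    have hNfix : ∀ (v : E), ∀ g ∈ A, g • (∑ k : A, (k : P) • v) = ∑ k : A, (k : P) • v := fun v g hg => by
      rw [Finset.smul_sum]
      exact Fintype.sum_equiv (Equiv.mulLeft (⟨g, hg⟩ : A)) _ _ fun e => by simp [mul_smul]
    have hNA : ∀ v : E, (∀ g ∈ A, g • v = v) → (∑ g : A, (g : P) • v) = Nat.card A • v := fun v h => by
      rw [Finset.sum_congr rfl fun (g : A) _ => h g g.2, Finset.sum_const, Finset.card_univ, Nat.card_eq_fintype_card]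
    have hinj : ∀ v : E, Nat.card A • v = 0 → v = 0 := fun v hv => by
      rw [hAc, sq, mul_smul] at hv; exact hp0 _ (hp0 _ hv)
    have hpair : ∀ u w : E, u ≠ 0 → w ≠ 0 → (∀ g ∈ A, g • u = u) → V1 w →
        MulAction.stabilizer P u = MulAction.stabilizer P w := by
      intro u w hu hw huA hw1
      have hsum : ∀ x : P, x • (u + w) = u + w → x • u = u ∧ x • w = w := by
        intro x hx
        have h1 : ∑ g : A, (g : P) • (x • (u + w)) = ∑ g : A, (g : P) • (u + w) := by rw [hx]
        rw [← hN] at h1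
        simp only [smul_add, Finset.sum_add_distrib, show (∑ g : A, (g : P) • w) = 0 from hw1, hNA u huA,
          add_zero, smul_zero] at h1
        rw [smul_comm] at h1
        have h2 : x • u = u := sub_eq_zero.mp (hinj _ (by rw [nsmul_sub, h1, sub_self]))
        refine ⟨h2, ?_⟩
        rw [smul_add, h2] at hx
        exact add_left_cancel hx
      have hne : u + w ≠ 0 := fun h => hu (hinj u (by
        have : ∑ g : A, (g : P) • (u + w) = 0 := by rw [h]; simp
        simpa [smul_add, Finset.sum_add_distrib, hNA u huA, show (∑ g : A, (g : P) • w) = 0 from hw1] using this))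
      exact (hle u _ hu hne fun x hx => (hsum x hx).1).symm.trans (hle w _ hw hne fun x hx => (hsum x hx).2)
    have hdec : ∀ v : E, Nat.card A • v = (∑ g : A, (g : P) • v) + (Nat.card A • v - ∑ g : A, (g : P) • v) :=
      fun v => by abel
    have hV1 : ∀ v : E, V1 (Nat.card A • v - ∑ g : A, (g : P) • v) := fun v => by
      show ∑ g : A, (g : P) • (_ - _) = 0
      simp only [smul_sub, Finset.sum_sub_distrib]
      have e : ∀ g : A, (g : P) • (Nat.card A • v) = Nat.card A • ((g : P) • v) := fun g => smul_comm _ _ _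
      rw [Finset.sum_congr rfl fun g _ => e g, ← Finset.smul_sum, hNA _ (hNfix v), sub_self]
    have hA1 : ∃ g ∈ A, g ≠ 1 := by
      refine (Subgroup.bot_or_exists_ne_one A).resolve_left fun h => ?_
      rw [h, Subgroup.card_bot] at hAc
      exact (Nat.one_lt_pow two_ne_zero hp.one_lt).ne hAc
    obtain ⟨g, hgA, hg1⟩ := hA1
    refine hg1 (htriv a ha (fun x hx v => ?_) g (haA g hgA))
    have hb : ∃ b : E, b ≠ 0 ∧ V1 b := by
      by_contra hb
      push Not at hb
      refine hg1 (FaithfulSMul.eq_of_smul_eq_smul fun w : E => ?_)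
      rw [one_smul]
      have h0 : Nat.card A • w - ∑ g : A, (g : P) • w = 0 := by
        by_contra hne; exact hb _ hne (hV1 w)
      have hfx := hNfix w g hgA
      rw [← sub_eq_zero.mp h0, smul_comm] at hfx
      exact sub_eq_zero.mp (hinj _ (by rw [nsmul_sub, hfx, sub_self]))
    obtain ⟨b, hb0, hb1⟩ := hb
    have hxb : x • b = b := hstab.mp (hpair a b ha hb0 haA hb1 ▸ hstab.mpr hx)
    have h1 : x • (∑ g : A, (g : P) • v) = ∑ g : A, (g : P) • v := by
      rcases eq_or_ne (∑ g : A, (g : P) • v) 0 with h | h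
      · rw [h, smul_zero]
      · exact hstab.mp ((hpair _ b h hb0 (hNfix v) hb1).symm ▸ hstab.mpr hxb)
    have h2 : x • (Nat.card A • v - ∑ g : A, (g : P) • v) = Nat.card A • v - ∑ g : A, (g : P) • v := by
      rcases eq_or_ne (Nat.card A • v - ∑ g : A, (g : P) • v) 0 with h | h
      · rw [h, smul_zero]
      · exact hstab.mp (hpair a _ ha h haA (hV1 v) ▸ hstab.mpr hx)
    have h3 := congrArg (fun w => x • w) (hdec v)
    simp only [smul_add, h1, h2, smul_comm x (Nat.card A)] at h3
    rw [← hdec] at h3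
    exact sub_eq_zero.mp (hinj _ (by rw [nsmul_sub, h3, sub_self]))
  push Not at hW
  have hfix0 : ∀ v : E, (∀ g ∈ A, g • v = v) → v = 0 := fun v h => by
    by_contra hv
    obtain ⟨g, hg, hne⟩ := hW v hv
    exact hne (h g hg)
  have hfz : ∀ g ∈ A, ∀ h ∈ A, g ≠ 1 → h ∉ Subgroup.zpowers g → ∀ v, h • v = v → f g v = 0 :=
    fun g hg h hh hg1 hne v hv => hfix0 _ (hgen g hg h hh hg1 hne _ (hf_fix g hg v) (hf_comm g hg h hh v hv))
  have hzc : ∀ g ∈ A, ∀ h ∈ A, g ≠ 1 → h ≠ 1 → h ∉ Subgroup.zpowers g → g ∉ Subgroup.zpowers h := by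
    intro g hg h hh hg1 hh1 hne hmem
    have heq : Subgroup.zpowers g = Subgroup.zpowers h :=
      Subgroup.eq_of_le_of_card_ge (Subgroup.zpowers_le.2 hmem) (by
        rw [Nat.card_zpowers, Nat.card_zpowers, orderOf_eq_prime (hA.2 g hg) hg1, orderOf_eq_prime (hA.2 h hh) hh1])
    exact hne (heq.symm ▸ Subgroup.mem_zpowers h)
  have hpair : ∀ g ∈ A, ∀ h ∈ A, g ≠ 1 → h ≠ 1 → h ∉ Subgroup.zpowers g → ∀ a b : E, a ≠ 0 → b ≠ 0 →
      g • a = a → h • b = b → MulAction.stabilizer P a = MulAction.stabilizer P b := by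
    intro g hg h hh hg1 hh1 hne a b ha hb hga hhb
    have hne' := hzc g hg h hh hg1 hh1 hne
    have hsum : ∀ x : P, x • (a + b) = a + b → x • a = a ∧ x • b = b := by
      intro x hx
      set g' := x * g * x⁻¹
      set h' := x * h * x⁻¹
      have hg' : g' ∈ A := hAn.conj_mem g hg x
      have hh' : h' ∈ A := hAn.conj_mem h hh x
      have hg'f : g' • x • a = x • a := by simp [g', ← mul_smul, mul_assoc]; rw [mul_smul, hga]
      have hh'f : h' • x • b = x • b := by simp [h', ← mul_smul, mul_assoc]; rw [mul_smul, hhb]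
      have hadd : ∀ (k : P) (u w : E), f k (u + w) = f k u + f k w := fun k u w => by
        simp [f, smul_add, Finset.sum_add_distrib]
      rw [smul_add] at hx
      have e0 : f g (x • a) + f g (x • b) = p • a := by
        rw [← hadd, hx, hadd, hf_of_fix g a hga, hfz g hg h hh hg1 hne b hhb, add_zero]
      have e1 : f h (x • a) + f h (x • b) = p • b := by
        rw [← hadd, hx, hadd, hf_of_fix h b hhb, hfz h hh g hg hh1 hne' a hga, zero_add]
      have hnotboth : g' ∈ Subgroup.zpowers g → h' ∉ Subgroup.zpowers g := by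
        intro h1 h2
        have hg'1 : g' ≠ 1 := fun e => hg1 (by simpa [g'] using e)
        have heq : Subgroup.zpowers g' = Subgroup.zpowers g :=
          Subgroup.eq_of_le_of_card_ge (Subgroup.zpowers_le.2 h1) (by
            rw [Nat.card_zpowers, Nat.card_zpowers, orderOf_eq_prime (hA.2 _ hg') hg'1, orderOf_eq_prime (hA.2 g hg) hg1])
        rw [← heq, Subgroup.mem_zpowers_iff] at h2
        obtain ⟨k, hk⟩ := h2
        exact hne (Subgroup.mem_zpowers_iff.mpr ⟨k, by simpa [g', h', conj_zpow] using hk⟩)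
      by_cases h2 : h' ∈ Subgroup.zpowers g
      · exfalso
        have h1 : g' ∉ Subgroup.zpowers g := fun h1 => hnotboth h1 h2
        have hh'1 : h' ≠ 1 := fun e => hh1 (by simpa [h'] using e)
        have h3 : h' ∉ Subgroup.zpowers h := fun h3 => by
          obtain ⟨i, hi⟩ := Subgroup.mem_zpowers_iff.mp h3
          have hz : Subgroup.zpowers h' = Subgroup.zpowers g :=
            Subgroup.eq_of_le_of_card_ge (Subgroup.zpowers_le.2 h2) (by
              rw [Nat.card_zpowers, Nat.card_zpowers, orderOf_eq_prime (hA.2 _ hh') hh'1, orderOf_eq_prime (hA.2 g hg) hg1])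
          exact hne' (Subgroup.zpowers_le.2 h3 (hz.symm ▸ Subgroup.mem_zpowers g))
        have hgh : g' ∈ Subgroup.zpowers h := by
          by_contra h4
          rw [hfz h hh g' hg' hh1 h4 _ hg'f, hfz h hh h' hh' hh1 h3 _ hh'f, add_zero] at e1
          exact hb (hp0 b e1.symm)
        -- a swap is impossible in odd order
        have hN : x * x ∈ Subgroup.normalizer (Subgroup.zpowers g : Set P) := by
          obtain ⟨i, hi⟩ := Subgroup.mem_zpowers_iff.mp hgh
          obtain ⟨j, hj⟩ := Subgroup.mem_zpowers_iff.mp h2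
          have he : x * x * g * (x * x)⁻¹ = g ^ (j * i) := by
            rw [show x * x * g * (x * x)⁻¹ = x * g' * x⁻¹ by simp [g', mul_assoc], ← hi, ← conj_zpow,
              show x * h * x⁻¹ = h' from rfl, ← hj, ← zpow_mul]
          refine Cfsg.Agent.Lib.Coprime.mem_normalizer_of_conj_smul_eq (Subgroup.eq_of_le_of_card_ge ?_
            (by rw [Cfsg.Agent.Lib.Coprime.card_conj_smul]))
          intro y hy
          rw [Cfsg.Agent.Lib.Coprime.mem_conj_smul] at hy
          obtain ⟨k, hk⟩ := Subgroup.mem_zpowers_iff.mp hy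
          refine Subgroup.mem_zpowers_iff.mpr ⟨j * i * k, ?_⟩
          rw [zpow_mul, ← he, conj_zpow, hk]
          group
        have hxN : x ∈ Subgroup.normalizer (Subgroup.zpowers g : Set P) := by
          have hodd : (orderOf x).Coprime 2 := by
            obtain ⟨k, hk⟩ := IsPGroup.iff_orderOf.mp hP x
            rw [hk]; exact ((Nat.coprime_primes hp Nat.prime_two).mpr hp2).pow_left k
          obtain ⟨k, hk⟩ := exists_pow_eq_self_of_coprime hodd.symm
          rw [← hk, sq]; exact Subgroup.pow_mem _ hN k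
        exact h1 ((Subgroup.mem_normalizer_iff.mp hxN g).mp (Subgroup.mem_zpowers g))
      · rw [hfz g hg h' hh' hg1 h2 _ hh'f, add_zero] at e0
        have h1 : g' ∈ Subgroup.zpowers g := by
          by_contra h1
          rw [hfz g hg g' hg' hg1 h1 _ hg'f] at e0
          exact ha (hp0 a e0.symm)
        have hgx : g • x • a = x • a := by
          have hg'1 : g' ≠ 1 := fun e => hg1 (by simpa [g'] using e)
          have heq : Subgroup.zpowers g' = Subgroup.zpowers g :=
            Subgroup.eq_of_le_of_card_ge (Subgroup.zpowers_le.2 h1) (by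
              rw [Nat.card_zpowers, Nat.card_zpowers, orderOf_eq_prime (hA.2 _ hg') hg'1, orderOf_eq_prime (hA.2 g hg) hg1])
          have hs : Subgroup.zpowers g' ≤ MulAction.stabilizer P (x • a) := Subgroup.zpowers_le.2 hg'f
          exact hs (heq.symm ▸ Subgroup.mem_zpowers g)
        rw [hf_of_fix g _ hgx] at e0
        have hxa := hpinj _ _ e0
        refine ⟨hxa, ?_⟩
        rw [hxa] at hx
        exact add_left_cancel hx
    have hab : a + b ≠ 0 := fun e => ha (hfix0 a fun k hk => by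
      have hb' : b = -a := (neg_eq_of_add_eq_zero_right e).symm
      have hha : h • a = a := by
        have := hhb; rw [hb', smul_neg, neg_inj] at this; exact this
      exact hgen g hg h hh hg1 hne a hga hha k hk)
    exact (hle a _ ha hab fun x hx => (hsum x hx).1).symm.trans (hle b _ hb hab fun x hx => (hsum x hx).2)
  -- the line decomposition
  obtain ⟨g₁, hg₁, hg₁1⟩ : ∃ g ∈ A, g ≠ 1 := by
    refine (Subgroup.bot_or_exists_ne_one A).resolve_left fun h => ?_
    rw [h, Subgroup.card_bot] at hAc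
    exact (Nat.one_lt_pow two_ne_zero hp.one_lt).ne hAc
  obtain ⟨g₂, hg₂, hg₂z⟩ : ∃ g ∈ A, g ∉ Subgroup.zpowers g₁ := by
    by_contra hc
    push Not at hc
    have := Subgroup.card_dvd_of_le (show A ≤ Subgroup.zpowers g₁ from hc)
    rw [hAc, Nat.card_zpowers, orderOf_eq_prime (hA.2 g₁ hg₁) hg₁1] at this
    have := Nat.le_of_dvd hp.pos this
    nlinarith [hp.two_le]
  let L : Option (Fin p) → P := fun o => match o with | none => g₂ | some j => g₁ * g₂ ^ (j : ℕ)
  have hLA : ∀ o, L o ∈ A := fun o => by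
    cases o with
    | none => exact hg₂
    | some j => exact A.mul_mem hg₁ (A.pow_mem hg₂ _)
  have hg₂1 : g₂ ≠ 1 := fun e => hg₂z (e ▸ Subgroup.one_mem _)
  have hL1 : ∀ o, L o ≠ 1 := fun o => by
    cases o with
    | none => exact hg₂1
    | some j => exact fun e => hzc g₁ hg₁ g₂ hg₂ hg₁1 hg₂1 hg₂z (by
        have e' : g₁ = (g₂ ^ (j : ℕ))⁻¹ := eq_inv_of_mul_eq_one_left e
        rw [e']; exact Subgroup.inv_mem _ (Subgroup.pow_mem _ (Subgroup.mem_zpowers g₂) _))
  have hid : ∀ v : E, ∑ o, f (L o) v = p • v := by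
    intro v
    have h12 : f g₂ (f g₁ v) = 0 :=
      hfz g₂ hg₂ g₁ hg₁ hg₂1 (hzc g₁ hg₁ g₂ hg₂ hg₁1 hg₂1 hg₂z) _ (hf_fix g₁ hg₁ v)
    have hk : ∀ i ∈ Finset.range p, i ≠ 0 → ∑ j : Fin p, (L (some j)) ^ i • v = g₁ ^ i • f g₂ v := by
      intro i hi hi0
      simp only [L, f, Finset.smul_sum]
      have hc : Commute g₁ g₂ := hcomm g₁ hg₁ g₂ hg₂
      let σ : Fin p → Fin p := fun j => ⟨(j : ℕ) * i % p, Nat.mod_lt _ hp.pos⟩
      have hσ : Function.Injective σ := fun a b e => by
        have h1 : (a : ℕ) * i ≡ b * i [MOD p] := congrArg Fin.val e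
        have h2 := Nat.ModEq.cancel_right_of_coprime
          ((hp.coprime_iff_not_dvd.mpr fun hd => absurd (Nat.le_of_dvd (Nat.pos_of_ne_zero hi0) hd)
            (by simpa using hi))) h1
        exact Fin.ext (h2.eq_of_lt_of_lt a.2 b.2)
      rw [← Fin.sum_univ_eq_sum_range (fun j => g₁ ^ i • g₂ ^ j • v) p]
      refine Fintype.sum_equiv (Equiv.ofBijective σ (Finite.injective_iff_bijective.mp hσ)) _ _ fun j => ?_
      rw [(hc.pow_right (j : ℕ)).mul_pow, mul_smul, ← pow_mul]
      congr 2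
      exact pow_eq_pow_mod _ (hA.2 g₂ hg₂)
    rw [Fintype.sum_option]
    show f g₂ v + ∑ j : Fin p, f (L (some j)) v = p • v
    have hswap : f g₂ (f g₁ v) = ∑ i ∈ Finset.range p, g₁ ^ i • f g₂ v := by
      simp only [f, Finset.smul_sum]
      rw [Finset.sum_comm]
      refine Finset.sum_congr rfl fun i _ => Finset.sum_congr rfl fun j _ => ?_
      rw [← mul_smul, ← mul_smul, hcomm _ (A.pow_mem hg₂ j) _ (A.pow_mem hg₁ i)]
    rw [h12] at hswap
    have h3 : ∑ j : Fin p, f (L (some j)) v =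
        p • v + ∑ i ∈ (Finset.range p).erase 0, g₁ ^ i • f g₂ v := by
      simp only [f]
      rw [Finset.sum_comm, ← Finset.add_sum_erase _ _ (Finset.mem_range.mpr hp.pos)]
      congr 1
      · simp
      · exact Finset.sum_congr rfl fun i hi => hk i (Finset.mem_of_mem_erase hi) (Finset.ne_of_mem_erase hi)
    rw [← Finset.add_sum_erase _ _ (Finset.mem_range.mpr hp.pos), pow_zero, one_smul] at hswap
    rw [h3, add_left_comm, ← hswap, add_zero]
  obtain ⟨v₀, hv₀⟩ := exists_ne (0 : E)
  obtain ⟨o₀, ho₀⟩ : ∃ o, f (L o) v₀ ≠ 0 := by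
    by_contra hc
    push Not at hc
    exact hv₀ (hp0 v₀ ((hid v₀).symm.trans (Finset.sum_eq_zero fun o _ => hc o)))
  set a₀ := f (L o₀) v₀
  have ha₀ : L o₀ • a₀ = a₀ := hf_fix _ (hLA o₀) v₀
  obtain ⟨v₁, o₁, ho₁, hne₁⟩ : ∃ v o, f (L o) v ≠ 0 ∧ L o ∉ Subgroup.zpowers (L o₀) := by
    by_contra hc
    push Not at hc
    refine hL1 o₀ (FaithfulSMul.eq_of_smul_eq_smul fun v : E => ?_)
    rw [one_smul]
    refine hpinj _ _ ?_
    rw [← smul_comm, ← hid v, Finset.smul_sum]
    refine Finset.sum_congr rfl fun o _ => ?_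
    rcases eq_or_ne (f (L o) v) 0 with h | h
    · rw [h, smul_zero]
    · have hm : L o₀ ∈ Subgroup.zpowers (L o) := by
        by_contra hn
        exact hzc (L o) (hLA o) (L o₀) (hLA o₀) (hL1 o) (hL1 o₀) hn (hc v o h)
      have hs : Subgroup.zpowers (L o) ≤ MulAction.stabilizer P (f (L o) v) :=
        Subgroup.zpowers_le.2 (hf_fix _ (hLA o) v)
      exact hs hm
  refine hL1 o₀ (htriv a₀ ho₀ (fun x hx v => hpinj _ _ ?_) _ ha₀)
  rw [← smul_comm, ← hid v, Finset.smul_sum]
  refine Finset.sum_congr rfl fun o _ => ?_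
  rcases eq_or_ne (f (L o) v) 0 with h | h
  · rw [h, smul_zero]
  set b₁ := f (L o₁) v₁
  have hb₁ : MulAction.stabilizer P a₀ = MulAction.stabilizer P b₁ :=
    hpair _ (hLA o₀) _ (hLA o₁) (hL1 o₀) (hL1 o₁) hne₁ _ _ ho₀ ho₁ ha₀ (hf_fix _ (hLA o₁) v₁)
  by_cases hm : L o ∈ Subgroup.zpowers (L o₀)
  · have hne₂ : L o₁ ∉ Subgroup.zpowers (L o) := fun hh => hne₁ (Subgroup.zpowers_le.2 hm hh)
    have he := hpair _ (hLA o) _ (hLA o₁) (hL1 o) (hL1 o₁) hne₂ _ _ h ho₁ (hf_fix _ (hLA o) v) (hf_fix _ (hLA o₁) v₁)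
    exact hstab.mp (he.symm ▸ hb₁ ▸ hstab.mpr hx)
  · have he := hpair _ (hLA o₀) _ (hLA o) (hL1 o₀) (hL1 o) hm _ _ ho₀ h ha₀ (hf_fix _ (hLA o) v)
    exact hstab.mp (he ▸ hstab.mpr hx)

end Cfsg.Agent.S1160
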