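import Cfsg.Statements.S1373
import Cfsg.Agent.Lib.Uniq.KappaMain
-- import your own Cfsg.Agent.* helpers here

set_option autoImplicit false
open Cfsg

namespace Cfsg.Agent.S1373

/-- Let G be a minimal simple group of odd order and M a maximal subgroup with standard factorisation M = K U M_σ, K ≠ 1 and U = 1. Then M_σ ∩ C_G(K) has prime order. -/
theorem result {G : Type*} [Group G] [Finite G] (hG : Cfsg.IsMinSimpleOddOrder G)
    (M : Subgroup G) (hM : IsCoatom M) (K U : Subgroup G) (hKU : Cfsg.IsSigmaDecomposition M K U) (hK1 : K ≠ ⊥) (hU : U = ⊥) :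
    (Nat.card ↥(Cfsg.sigmaCore M ⊓ Subgroup.centralizer (K : Set G))).Prime := by
  obtain ⟨N, h⟩ := Lib.Uniq.exists_pair hG hM hKU.hall hK1
  exact h.prime_of_isP1 hG ((Lib.Uniq.isP1_iff hG hM hKU).mpr hU)

end Cfsg.Agent.S1373
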