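import Cfsg.Statements.S1448
import Cfsg.Agent.Lib.Hall.RankTwoAct
import Cfsg.Agent.Lib.Coprime.Abelian
-- import your own Cfsg.Agent.* helpers here

set_option autoImplicit false
open Cfsg

namespace Cfsg.Agent.S1448
open scoped commutatorElement

/-- Let G be a finite group, p an odd prime, R a nontrivial p-subgroup with no elementary abelian subgroup of order p ^ 3, and A a subgroup of odd order coprime to p normalizing R with [R, A] = R. Then 3 < p, and either R is abelian or R is generated by two elementwise-commuting subgroups R₁, R₂ with R₁ non-abelian of order p ^ 3 and exponent p, R₂ cyclic, and the elements of R₂ of order dividing p generating exactly [R₁, R₁]. -/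
theorem result {G : Type*} [Group G] [Finite G] (p : ℕ) [Fact p.Prime] (hp : p ≠ 2) (R A : Subgroup G) (hR : IsPGroup p R) (hR1 : R ≠ ⊥) (hr : Cfsg.PRankLE p 2 R)
    (hA : (A ≤ Subgroup.normalizer (R : Set G))) (hcop : (Nat.card A).Coprime p) (hAodd : Odd (Nat.card A)) (hRA : ⁅R, A⁆ = R) :
    3 < p ∧ (IsMulCommutative R ∨ ∃ R₁ R₂ : Subgroup G, R₁ ⊔ R₂ = R ∧ (∀ a ∈ R₁, ∀ b ∈ R₂, a * b = b * a) ∧
        ¬ IsMulCommutative R₁ ∧ Nat.card R₁ = p ^ 3 ∧ Monoid.exponent R₁ = p ∧ IsCyclic R₂ ∧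
        Subgroup.closure {x : G | x ∈ R₂ ∧ x ^ p = 1} = ⁅R₁, R₁⁆) := by
  classical
  have hAR := hA
  set φ := Lib.Coprime.conjHom hAR
  have hgen : ∀ W : Subgroup R, (∀ a t, φ a t * t⁻¹ ∈ W) → W = ⊤ := by
    intro W hW
    have h1 : ⁅R, A⁆ ≤ W.map R.subtype := by
      rw [Subgroup.commutator_le]
      intro t ht a ha
      refine ⟨_, W.inv_mem (hW ⟨a, ha⟩ ⟨t, ht⟩), ?_⟩
      simp [φ, Lib.Coprime.coe_conjHom_apply, commutatorElement_def, mul_assoc]
    rw [hRA] at h1
    rw [eq_top_iff]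
    intro t _
    obtain ⟨w, hw, hwt⟩ := h1 t.2
    rwa [← Subtype.ext hwt]
  have h3p : 3 < p := by
    have hp2 := (Fact.out : p.Prime).two_le
    by_contra h
    have hp3 : p = 3 := by omega
    subst hp3
    -- operators of odd order prime to `3` act trivially
    refine hR1 ?_
    have hb : ∀ a, φ a = 1 := by
      intro a
      by_contra ha
      have hne : orderOf (φ a) ≠ 1 := fun h => ha (orderOf_eq_one_iff.mp h)
      obtain ⟨ℓ, hℓ, hdvd⟩ := Nat.exists_prime_and_dvd hne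
      have hd : ℓ ∣ Nat.card A := hdvd.trans ((orderOf_map_dvd φ a).trans (_root_.orderOf_dvd_natCard a))
      have hl2 : ℓ ≠ 2 := fun e => hAodd.not_two_dvd_nat (e ▸ hd)
      have hl3 : ℓ ≠ 3 := fun e => by
        have h1 := Nat.eq_one_of_dvd_coprimes hcop (e ▸ hd) dvd_rfl
        omega
      have hlt : 3 < ℓ := by have := hℓ.two_le; omega
      have h1 := Lib.Hall.eq_one_of_prime_gt hp hR hr hℓ hlt (φ a ^ (orderOf (φ a) / ℓ)) (by
        rw [← pow_mul, Nat.div_mul_cancel hdvd, pow_orderOf_eq_one])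
      have h2 := orderOf_pow_orderOf_div (orderOf_pos (φ a)).ne' hdvd
      rw [h1, orderOf_one] at h2
      exact hℓ.ne_one h2.symm
    have hbot := hgen ⊥ fun a t => by rw [hb a]; simp
    rw [eq_bot_iff]
    intro x hx
    have : (⟨x, hx⟩ : R) ∈ (⊥ : Subgroup R) := hbot ▸ Subgroup.mem_top _
    exact Subgroup.mem_bot.mpr (congrArg Subtype.val (Subgroup.mem_bot.mp this))
  refine ⟨h3p, ?_⟩
  rcases Lib.Hall.RankTwoAct.structure_of_act φ hR h3p hr hcop hAodd hgen with h | h
  · exact Or.inl h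
  obtain ⟨U, C, hUC, hCc, hUn, hU3, hUe, hCcyc, hCU⟩ := h
  let e := fun (S : Subgroup R) => Subgroup.equivMapOfInjective S R.subtype R.subtype_injective
  refine Or.inr ⟨U.map R.subtype, C.map R.subtype, ?_, ?_, fun h => hUn ?_, ?_, ?_, ?_, ?_⟩
  · rw [← Subgroup.map_sup, hUC, ← MonoidHom.range_eq_map, Subgroup.range_subtype]
  · rintro _ ⟨a, -, rfl⟩ _ ⟨b, hb, rfl⟩
    exact congrArg Subtype.val (Subgroup.mem_center_iff.mp (hCc hb) a)
  · exact ⟨⟨fun a b => (e U).injective (by rw [map_mul, map_mul]; exact h.is_comm.comm _ _)⟩⟩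
  · rw [Subgroup.card_map_of_injective R.subtype_injective, hU3]
  · rw [← Monoid.exponent_eq_of_mulEquiv (e U), hUe]
  · haveI := hCcyc
    exact isCyclic_of_surjective _ (e C).surjective
  · rw [← Subgroup.map_commutator, ← hCU, MonoidHom.map_closure]
    congr 1
    ext x
    constructor
    · rintro ⟨⟨c, hc, rfl⟩, hx⟩
      exact ⟨c, ⟨hc, Subtype.ext (by simpa using hx)⟩, rfl⟩
    · rintro ⟨c, ⟨hc, hx⟩, rfl⟩
      exact ⟨Subgroup.mem_map_of_mem _ hc, by simpa using congrArg Subtype.val hx⟩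

end Cfsg.Agent.S1448
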