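import Cfsg.Statements.S1412
import Cfsg.Agent.S1448
import Cfsg.Agent.Lib.Uniq.SylowFusion
import Cfsg.Agent.Lib.Uniq.PLengthAll
-- import your own Cfsg.Agent.* helpers here

set_option autoImplicit false
open Cfsg

namespace Cfsg.Agent.S1412
open scoped commutatorElement

/-- Let G be a minimal simple group of odd order, p a prime and P a Sylow p-subgroup of G with no elementary abelian subgroup of order p ^ 3. Then either P is abelian, or P is generated by two elementwise-commuting subgroups P₁, P₂ with P₁ nonabelian of order p ^ 3 and exponent p, P₂ cyclic, and the elements of P₂ of order dividing p generating exactly the centre of P₁. -/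
theorem result {G : Type*} [Group G] [Finite G] (hG : Cfsg.IsMinSimpleOddOrder G) (p : ℕ) [Fact p.Prime] (P : Sylow p G) (hr : Cfsg.PRankLE p 2 (P : Subgroup G)) :
    IsMulCommutative (P : Subgroup G) ∨ ∃ P₁ P₂ : Subgroup G, P₁ ⊔ P₂ = (P : Subgroup G) ∧ (∀ a ∈ P₁, ∀ b ∈ P₂, a * b = b * a) ∧
        ¬ IsMulCommutative P₁ ∧ Nat.card P₁ = p ^ 3 ∧ Monoid.exponent P₁ = p ∧ IsCyclic P₂ ∧
        Subgroup.closure {x : G | x ∈ P₂ ∧ x ^ p = 1} = P₁ ⊓ Subgroup.centralizer (P₁ : Set G) := by
  classical
  have hp : p.Prime := Fact.out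
  by_cases hab : IsMulCommutative (P : Subgroup G)
  · exact Or.inl hab
  have hP1 : (P : Subgroup G) ≠ ⊥ := fun e => hab ⟨⟨fun a b => Subtype.ext (by
    have ha : (a : G) ∈ (⊥ : Subgroup G) := e ▸ a.2
    have hb : (b : G) ∈ (⊥ : Subgroup G) := e ▸ b.2
    simp [Subgroup.mem_bot.mp ha, Subgroup.mem_bot.mp hb])⟩⟩
  set N := Subgroup.normalizer ((P : Subgroup G) : Set G)
  have hPN : (P : Subgroup G) ≤ N := Subgroup.le_normalizer
  set K := (P : Subgroup G).subgroupOf N
  haveI hKn : K.Normal := (Subgroup.normal_subgroupOf_iff_le_normalizer hPN).mpr le_rfl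
  haveI : Group.IsSolvable K := by
    haveI : Group.IsNilpotent K := (P.2.comap_subtype (K := N)).isNilpotent
    infer_instance
  have hcop : (Nat.card K).Coprime K.index := by
    rw [Lib.Coprime.card_subgroupOf hPN]
    obtain ⟨k, hk⟩ := IsPGroup.iff_card.mp P.2
    rw [hk]
    refine Nat.Coprime.pow_left k ((Nat.Prime.coprime_iff_not_dvd hp).mpr ?_)
    show ¬ p ∣ (P : Subgroup G).relIndex N
    exact fun h => P.not_dvd_index (h.trans (Subgroup.relIndex_dvd_index_of_le hPN))
  obtain ⟨R, hR⟩ := Subgroup.exists_right_complement'_of_coprime hcop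
  have hRcard : Nat.card R = K.index := hR.symm.index_eq_card.symm
  have hPd : K ≤ _root_.commutator N := by
    intro x hx
    have h := Lib.Uniq.sylow_le_commutator_normalizer hG P hx
    rw [← Subgroup.map_subtype_commutator] at h
    obtain ⟨y, hy, hyx⟩ := h
    rwa [← Subtype.ext hyx]
  have hKR := Lib.Uniq.commutator_complement_eq hR (by rw [hRcard]; exact hcop) hPd
  set A := R.map N.subtype
  have hAN : A ≤ N := Subgroup.map_subtype_le _
  have hRA : ⁅(P : Subgroup G), A⁆ = (P : Subgroup G) := by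
    have h := congrArg (Subgroup.map N.subtype) hKR
    rwa [Subgroup.map_commutator, Subgroup.map_subgroupOf_eq_of_le hPN] at h
  have hAc : Nat.card A = K.index := by rw [Subgroup.card_map_of_injective N.subtype_injective, hRcard]
  have hp2 : p ≠ 2 := fun e => hP1 (Subgroup.card_eq_one.mp (by
    obtain ⟨k, hk⟩ := IsPGroup.iff_card.mp P.2
    rcases Nat.eq_zero_or_pos k with h | h
    · rw [hk, h, pow_zero]
    · exact absurd ((e ▸ dvd_pow_self p h.ne' : 2 ∣ p ^ k).trans (hk.symm.dvd.trans (Subgroup.card_subgroup_dvd_card _)))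
        hG.1.not_two_dvd_nat))
  have hcopA : (Nat.card A).Coprime p := by
    rw [hAc]
    obtain ⟨k, hk⟩ := IsPGroup.iff_card.mp P.2
    have h := hcop
    rw [Lib.Coprime.card_subgroupOf hPN, hk] at h
    have hk0 : k ≠ 0 := fun h0 => hP1 (Subgroup.card_eq_one.mp (by rw [hk, h0, pow_zero]))
    exact ((Nat.coprime_pow_left_iff (Nat.pos_of_ne_zero hk0) p K.index).mp h).symm
  have hAodd : Odd (Nat.card A) := hG.1.of_dvd_nat A.card_subgroup_dvd_card
  rcases (S1448.result p hp2 (P : Subgroup G) A P.2 hP1 hr hAN hcopA hAodd hRA).2 with h | h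
  · exact absurd h hab
  obtain ⟨R₁, R₂, hsup, hc, hn, hc3, he, hcy, hcl⟩ := h
  refine Or.inr ⟨R₁, R₂, hsup, hc, hn, hc3, he, hcy, hcl.trans ?_⟩
  haveI := Fact.mk hp
  have hR1p : IsPGroup p R₁ := IsPGroup.of_card hc3
  have hZc : Nat.card ↥(Subgroup.center R₁) = p := by
    obtain ⟨i, hi⟩ := IsPGroup.iff_card.mp (hR1p.to_subgroup (Subgroup.center R₁))
    haveI : Nontrivial R₁ := Finite.one_lt_card_iff_nontrivial.mp (hc3 ▸ Nat.one_lt_pow (by norm_num) hp.one_lt)
    have hi0 : i ≠ 0 := fun h => hR1p.bot_lt_center.ne' (Subgroup.card_eq_one.mp (by rw [hi, h, pow_zero]))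
    have hi1 : i ≤ 1 := by
      by_contra h
      refine hn ⟨⟨?_⟩⟩
      have hidx := (Subgroup.center R₁).card_mul_index
      rw [hi, hc3] at hidx
      have hd : (Subgroup.center R₁).index ∣ p := by
        have h2 : p ^ 2 * (Subgroup.center R₁).index ∣ p ^ 2 * p := by
          rw [← pow_succ, ← hidx]
          exact Nat.mul_dvd_mul_right (pow_dvd_pow p (by omega)) _
        exact Nat.dvd_of_mul_dvd_mul_left (pow_pos hp.pos 2) h2
      haveI : IsCyclic (R₁ ⧸ Subgroup.center R₁) := by
        rcases (Nat.dvd_prime hp).mp hd with h1 | h1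
        · haveI : Subsingleton (R₁ ⧸ Subgroup.center R₁) :=
            (Nat.card_eq_one_iff_unique.mp (by rw [← Subgroup.index_eq_card, h1])).1
          infer_instance
        · exact isCyclic_of_prime_card (p := p) (by rw [← Subgroup.index_eq_card, h1])
      intro a b
      exact commutative_of_cyclic_center_quotient (QuotientGroup.mk' (Subgroup.center R₁))
        (QuotientGroup.ker_mk' _).le a b
    rw [hi, show i = 1 by omega, pow_one]
  have hZle : (Subgroup.center R₁).map R₁.subtype = R₁ ⊓ Subgroup.centralizer (R₁ : Set G) := by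
    ext x
    constructor
    · rintro ⟨z, hz, rfl⟩
      exact ⟨z.2, Subgroup.mem_centralizer_iff.mpr fun u hu =>
        congrArg Subtype.val (Subgroup.mem_center_iff.mp hz ⟨u, hu⟩)⟩
    · exact fun hx => ⟨⟨x, hx.1⟩, Subgroup.mem_center_iff.mpr fun u =>
        Subtype.ext (Subgroup.mem_centralizer_iff.mp hx.2 u u.2), rfl⟩
  refine Subgroup.eq_of_le_of_card_ge (le_inf (Subgroup.commutator_le_self R₁) ?_) ?_
  · rw [← hcl, Subgroup.closure_le]
    rintro x ⟨hx, -⟩
    exact Subgroup.mem_centralizer_iff.mpr fun u hu => hc u hu x hx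
  · rw [← hZle, Subgroup.card_map_of_injective R₁.subtype_injective, hZc]
    rcases (hR1p.to_le (Subgroup.commutator_le_self R₁)).card_eq_or_dvd with h | h
    · refine absurd ⟨⟨fun a b => Subtype.ext ?_⟩⟩ hn
      have hb := Subgroup.card_eq_one.mp h
      exact commutatorElement_eq_one_iff_mul_comm.mp
        (Subgroup.mem_bot.mp (hb ▸ Subgroup.commutator_mem_commutator a.2 b.2))
    · exact Nat.le_of_dvd Nat.card_pos h

end Cfsg.Agent.S1412
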