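import Cfsg.Statements.S1453
import Cfsg.Agent.Lib.Hall.Narrow
import Cfsg.Agent.Lib.Uniq.PGroup

set_option autoImplicit false
open Cfsg

namespace Cfsg.Agent.S1453

open Subgroup Cfsg.Agent.Lib
open scoped commutatorElement

theorem mem_two {R : Type*} [Group R] {x : R} :
    x ∈ Subgroup.upperCentralSeries R 2 ↔ ∀ y : R, x * y * x⁻¹ * y⁻¹ ∈ center R := by
  rw [← Subgroup.upperCentralSeries_one]
  exact Subgroup.mem_upperCentralSeries_succ_iff

theorem omega_exp {R : Type*} [Group R] [Finite R] {p : ℕ} [Fact p.Prime] (hp : p ≠ 2) (H : Subgroup R)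
    (hH : ∀ a ∈ H, ∀ b ∈ H, ⁅a, b⁆ ∈ center R) :
    ∀ w ∈ closure {x : R | x ∈ H ∧ x ^ p = 1}, w ∈ H ∧ w ^ p = 1 := by
  intro w hw
  induction hw using closure_induction with
  | mem u hu => exact hu
  | one => exact ⟨one_mem _, one_pow p⟩
  | mul a b _ _ ha hb =>
    refine ⟨mul_mem ha.1 hb.1, ?_⟩
    have hc : ∀ g, Commute ⁅b⁻¹, a⁻¹⁆ g := fun g =>
      (mem_center_iff.mp (hH _ (inv_mem hb.1) _ (inv_mem ha.1)) g).symm
    have hz : ⁅b⁻¹, a⁻¹⁆ ^ p = 1 := by
      rw [← Thompson.commutator_pow_left (hc _), inv_pow, hb.2, inv_one, commutatorElement_one_left]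
    rw [Thompson.mul_pow_class_two (Thompson.mul_comm_eq a b) (hc a) (hc b), ha.2, hb.2, one_mul, one_mul]
    exact Thompson.pow_choose_two_eq_one hp hz
  | inv a _ ha => exact ⟨inv_mem ha.1, by rw [inv_pow, ha.2, inv_one]⟩

theorem aux {R : Type*} [Group R] [Finite R] (p : ℕ) [hp' : Fact p.Prime] (hp : p ≠ 2) (hR : IsPGroup p R) (hr : ¬ Cfsg.PRankLE p 2 R)
    (E : Subgroup R) (hE : Cfsg.IsElementaryAbelian p E) (hE2 : Nat.card E = p ^ 2)
    (hEmax : ∀ B : Subgroup R, Cfsg.IsElementaryAbelian p B → E ≤ B → B = E) :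
    ¬ E ≤ centralizer ((closure {x : R | x ∈ Subgroup.upperCentralSeries R 2 ∧ x ^ p = 1} : Subgroup R) : Set R) ∧
      Nat.card ↥(closure {x : R | x ∈ center R ∧ x ^ p = 1}) = p ∧
      (Cfsg.IsElementaryAbelian p (closure {x : R | x ∈ Subgroup.upperCentralSeries R 2 ∧ x ^ p = 1}) ∧
        Nat.card ↥(closure {x : R | x ∈ Subgroup.upperCentralSeries R 2 ∧ x ^ p = 1}) = p ^ 2) ∧
      (centralizer ((closure {x : R | x ∈ Subgroup.upperCentralSeries R 2 ∧ x ^ p = 1} : Subgroup R) : Set R)).Characteristic ∧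
      (centralizer ((closure {x : R | x ∈ Subgroup.upperCentralSeries R 2 ∧ x ^ p = 1} : Subgroup R) : Set R)).index = p := by
  classical
  haveI hEc : IsMulCommutative E := hE.1
  -- extending `E`
  have hadd : ∀ y : R, y ^ p = 1 → (∀ e ∈ E, y * e = e * y) → y ∈ E := by
    intro y hy hc
    have hB : Cfsg.IsElementaryAbelian p (closure ((E : Set R) ∪ {y})) := by
      have hcomm : IsMulCommutative (closure ((E : Set R) ∪ {y})) := by
        refine isMulCommutative_closure ?_
        rintro a (ha | rfl) b (hb | rfl)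
        · exact setLike_mul_comm ha hb
        · exact (hc a ha).symm
        · exact hc b hb
        · rfl
      refine ⟨hcomm, fun b hb => ?_⟩
      induction hb using closure_induction with
      | mem u hu =>
        rcases hu with hu | rfl
        exacts [hE.2 u hu, hy]
      | one => exact one_pow p
      | mul u v hu hv iu iv => rw [(show Commute u v from setLike_mul_comm hu hv).mul_pow, iu, iv, one_mul]
      | inv u _ iu => rw [inv_pow, iu, inv_one]
    rw [← hEmax _ hB fun e he => subset_closure (Or.inl he)]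
    exact subset_closure (Or.inr rfl)
  have hcenE : ∀ y ∈ center R, y ^ p = 1 → y ∈ E := fun y hy hyp =>
    hadd y hyp fun e _ => (mem_center_iff.mp hy e).symm
  obtain ⟨x, hxE, hxc⟩ : ∃ x ∈ E, x ∉ center R := by
    by_contra hno
    push Not at hno
    refine hr fun B hBc hBp => ?_
    rw [← hE2]
    refine card_le_of_le fun b hb => hadd b (hBp b hb) fun e he => mem_center_iff.mp (hno e he) b
  haveI : Nontrivial R := ⟨⟨x, 1, fun h => hxc (h ▸ one_mem _)⟩⟩
  obtain ⟨z, -, hzc, hzo⟩ := Thompson.exists_central_order_p hR (N := (⊤ : Subgroup R)) top_ne_bot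
  have hzE : z ∈ E := hcenE z hzc (by rw [← hzo, pow_orderOf_eq_one])
  have hU : zpowers x ⊔ zpowers z = E := by
    refine eq_of_le_of_card_ge (sup_le (zpowers_le.mpr hxE) (zpowers_le.mpr hzE)) ?_
    have hlt : zpowers z < zpowers x ⊔ zpowers z :=
      lt_of_le_of_ne le_sup_right fun e => hxc (zpowers_le.mpr hzc (e ▸ mem_sup_left (mem_zpowers x)))
    have h := Thompson.card_mul_p_le hR hlt
    rw [Nat.card_zpowers, hzo, ← pow_two] at h
    exact hE2.le.trans h
  have hsm : ∀ y : R, y ^ p = 1 → y * x = x * y → y ∈ E := by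
    intro y hy hc
    refine hadd y hy fun e he => ?_
    have hle : zpowers x ⊔ zpowers z ≤ centralizer {y} := sup_le
      (zpowers_le.mpr (mem_centralizer_singleton_iff.mpr hc.symm))
      (zpowers_le.mpr (mem_centralizer_singleton_iff.mpr (mem_center_iff.mp hzc y).symm))
    exact (mem_centralizer_singleton_iff.mp (hle (hU.ge he))).symm
  obtain ⟨D⟩ := Lib.Hall.narrowData_of_small hR hr x (hE.2 x hxE) (fun B hBc hBp => by
    rw [← card_map_of_injective (centralizer {x}).subtype_injective, ← hE2]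
    refine card_le_of_le ?_
    rintro _ ⟨b, hb, rfl⟩
    exact hsm _ (by rw [← map_pow, hBp b hb, map_one]) (mem_centralizer_singleton_iff.mp b.2))
  have hEn : ¬ E.Normal := by
    intro hn
    refine hr fun B hBc hBp => ?_
    haveI := hBc
    haveI := hn
    -- `[R, x] ≤ ⟨z⟩`
    have hval : ∀ g : R, ⁅g, x⁆ ∈ zpowers z := by
      intro g
      haveI : (zpowers z).Normal := Thompson.normal_of_le_center (zpowers_le.mpr hzc)
      let N : Subgroup (R ⧸ zpowers z) := E.map (QuotientGroup.mk' (zpowers z))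
      haveI : N.Normal := Subgroup.Normal.map hn _ (QuotientGroup.mk'_surjective _)
      have hN : N ≠ ⊥ := fun h => hxc (zpowers_le.mpr hzc
        ((QuotientGroup.eq_one_iff x).mp (mem_bot.mp (h ▸ mem_map_of_mem _ hxE))))
      obtain ⟨w, hwN, hwc, hwo⟩ := Thompson.exists_central_order_p (hR.to_quotient (zpowers z)) hN
      have hNcard : Nat.card N ≤ p := by
        have h1 := Lib.Coprime.card_map_mul_card_inf_ker (QuotientGroup.mk' (zpowers z)) E
        rw [QuotientGroup.ker_mk', inf_eq_right.mpr (zpowers_le.mpr hzE), Nat.card_zpowers, hzo, hE2, pow_two] at h1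
        exact (Nat.eq_of_mul_eq_mul_right hp'.out.pos h1).le
      have hNeq : zpowers w = N :=
        eq_of_le_of_card_ge (zpowers_le.mpr hwN) (by rw [Nat.card_zpowers, hwo]; exact hNcard)
      rw [← QuotientGroup.eq_one_iff, ← QuotientGroup.mk'_apply, map_commutatorElement,
        commutatorElement_eq_one_iff_mul_comm]
      exact mem_center_iff.mp (zpowers_le.mpr hwc (hNeq ▸ mem_map_of_mem _ hxE)) _
    let V := B ⊓ centralizer {x}
    have hVE : V ≤ E := fun y hy => hsm y (hBp y hy.1) (mem_centralizer_singleton_iff.mp hy.2)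
    have hidx : Nat.card (B ⧸ V.subgroupOf B) ≤ p := by
      rw [← hzo, ← Nat.card_zpowers]
      refine Nat.card_le_card_of_injective (fun q => (⟨⁅(q.out : R), x⁆, hval _⟩ : zpowers z)) fun q r h => ?_
      have e : (r.out : R) * x * (r.out : R)⁻¹ = (q.out : R) * x * (q.out : R)⁻¹ := by
        simpa [commutatorElement_def] using (congrArg Subtype.val h).symm
      have h1 : (q.out : R)⁻¹ * (r.out : R) ∈ centralizer {x} := mem_centralizer_singleton_iff.mpr (by
        calc (q.out : R)⁻¹ * (r.out : R) * x = (q.out : R)⁻¹ * ((r.out : R) * x * (r.out : R)⁻¹) * (r.out : R) := by group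
          _ = x * ((q.out : R)⁻¹ * (r.out : R)) := by rw [e]; group)
      rw [← q.out_eq, ← r.out_eq]
      exact QuotientGroup.eq.mpr (mem_subgroupOf.mpr (mem_inf.mpr ⟨mul_mem (inv_mem q.out.2) r.out.2, h1⟩))
    have hBV := (V.subgroupOf B).card_mul_index
    rw [Lib.Coprime.card_subgroupOf inf_le_left, index_eq_card] at hBV
    by_cases hxB : x ∈ B
    · exact (card_le_of_le fun b hb => hsm b (hBp b hb) (setLike_mul_comm hb hxB)).trans hE2.le
    · have hlt : Nat.card V ≤ p := by
        obtain ⟨i, hi⟩ := IsPGroup.iff_card.mp (hR.to_subgroup V)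
        have hne : V ≠ E := fun h => hxB (h.ge hxE).1
        have h2 : Nat.card V < p ^ 2 := hE2 ▸ lt_of_le_of_ne (card_le_of_le hVE)
          fun h => hne (eq_of_le_of_card_ge hVE h.ge)
        rw [hi] at h2 ⊢
        have := (Nat.pow_lt_pow_iff_right hp'.out.one_lt).mp h2
        simpa using Nat.pow_le_pow_right hp'.out.pos (show i ≤ 1 by omega)
      rw [← hBV, pow_two]
      exact Nat.mul_le_mul hlt hidx
  -- `Ω₁(Z(R))`
  set Z1 := closure {y : R | y ∈ center R ∧ y ^ p = 1} with hZ1
  have hZ1eq : Z1 = zpowers z := by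
    refine le_antisymm ?_ (zpowers_le.mpr (subset_closure ⟨hzc, by rw [← hzo, pow_orderOf_eq_one]⟩))
    rw [hZ1, closure_le]
    rintro y ⟨hyc, hyp⟩
    by_contra hne
    refine hEn ?_
    have hlt : zpowers z < zpowers y ⊔ zpowers z :=
      lt_of_le_of_ne le_sup_right fun e => hne (e ▸ mem_sup_left (mem_zpowers y))
    have h := Thompson.card_mul_p_le hR hlt
    rw [Nat.card_zpowers, hzo, ← pow_two] at h
    have heq : zpowers y ⊔ zpowers z = E :=
      eq_of_le_of_card_ge (sup_le (zpowers_le.mpr (hcenE y hyc hyp)) (zpowers_le.mpr hzE)) (hE2.le.trans h)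
    exact Thompson.normal_of_le_center (heq ▸ sup_le (zpowers_le.mpr hyc) (zpowers_le.mpr hzc))
  -- `W`
  set W := closure {y : R | y ∈ Subgroup.upperCentralSeries R 2 ∧ y ^ p = 1} with hW
  have hWmem : ∀ w ∈ W, w ∈ Subgroup.upperCentralSeries R 2 ∧ w ^ p = 1 :=
    omega_exp hp _ fun a ha b _ => by rw [commutatorElement_def]; exact mem_two.mp ha b
  have hWval : ∀ w ∈ W, ∀ g : R, ⁅w, g⁆ ∈ zpowers z := by
    intro w hw g
    rw [← hZ1eq]
    have h1 : ⁅w, g⁆ ∈ center R := by rw [commutatorElement_def]; exact mem_two.mp (hWmem w hw).1 g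
    refine subset_closure ⟨h1, ?_⟩
    rw [← Thompson.commutator_pow_left ((mem_center_iff.mp h1 w).symm), (hWmem w hw).2, commutatorElement_one_left]
  haveI hWn : W.Normal := ⟨fun w hw g => by
    have h1 : ⁅w, g⁆ ∈ W := by
      obtain ⟨i, hi⟩ := mem_zpowers_iff.mp (hWval w hw g)
      rw [← hi]
      refine Subgroup.zpow_mem W (subset_closure ⟨mem_two.mpr fun y => ?_, by rw [← hzo, pow_orderOf_eq_one]⟩) i
      rw [show z * y * z⁻¹ * y⁻¹ = 1 by rw [← (mem_center_iff.mp hzc y)]; group]
      exact one_mem _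
    rw [show g * w * g⁻¹ = ⁅w, g⁆⁻¹ * w by rw [commutatorElement_def]; group]
    exact mul_mem (inv_mem h1) hw⟩
  have hzW : z ∈ W := subset_closure ⟨mem_two.mpr fun y => by
    rw [show z * y * z⁻¹ * y⁻¹ = 1 by rw [← (mem_center_iff.mp hzc y)]; group]; exact one_mem _,
    by rw [← hzo, pow_orderOf_eq_one]⟩
  have hxW : x ∉ W := by
    intro hxW
    refine hEn ⟨fun e he g => ?_⟩
    have hle : E ≤ W := hU ▸ sup_le (zpowers_le.mpr hxW) (zpowers_le.mpr hzW)
    rw [show g * e * g⁻¹ = ⁅e, g⁆⁻¹ * e by rw [commutatorElement_def]; group]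
    exact mul_mem (inv_mem (zpowers_le.mpr hzE (hWval e (hle he) g))) he
  have hWlarge : p ^ 2 ≤ Nat.card W := by
    have hnc : ¬ IsCyclic (⊤ : Subgroup R) := by
      intro hc
      haveI := hc
      obtain ⟨B, hBc, hBp, hB3⟩ : ∃ B : Subgroup R, IsMulCommutative B ∧ (∀ a ∈ B, a ^ p = 1) ∧
          p ^ 2 < Nat.card B := by
        simp only [Cfsg.PRankLE, not_forall, not_le] at hr
        obtain ⟨F, h1, h2, h3⟩ := hr
        exact ⟨F, h1, h2, h3⟩
      haveI : IsCyclic B := isCyclic_of_injective (inclusion (le_top : B ≤ ⊤)) (inclusion_injective _)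
      have h1 : Monoid.exponent B ∣ p := Monoid.exponent_dvd_of_forall_pow_eq_one fun b =>
        Subtype.ext (by rw [SubmonoidClass.coe_pow]; exact hBp b b.2)
      rw [IsCyclic.exponent_eq_card] at h1
      have h2 := Nat.le_of_dvd hp'.out.pos h1
      have h3 := Nat.le_self_pow two_ne_zero p
      omega
    obtain ⟨U, -, hUn, hUe, hUc, -, -⟩ := Lib.Uniq.exists_normal_pair hp (hR.to_subgroup ⊤) hnc
    haveI : U.Normal := normalizer_eq_top_iff.mp (eq_top_iff.mpr hUn)
    rw [← hUc]
    refine card_le_of_le fun u hu => subset_closure ⟨mem_two.mpr fun y => ?_, hUe.2 u hu⟩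
    -- `U/(U ∩ Z)` is central
    set K := center R
    let N : Subgroup (R ⧸ K) := U.map (QuotientGroup.mk' K)
    haveI : N.Normal := Subgroup.Normal.map inferInstance _ (QuotientGroup.mk'_surjective _)
    rw [← commutatorElement_def, ← QuotientGroup.eq_one_iff, ← QuotientGroup.mk'_apply, map_commutatorElement,
      commutatorElement_eq_one_iff_mul_comm]
    by_cases hN : N = ⊥
    · have h1 : (QuotientGroup.mk' K) u ∈ N := mem_map_of_mem (QuotientGroup.mk' K) hu
      rw [hN, mem_bot] at h1
      rw [h1, one_mul, mul_one]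
    obtain ⟨v, hvN, hvc, hvo⟩ := Thompson.exists_central_order_p (hR.to_quotient K) hN
    have hUne : U ≠ ⊥ := fun h => absurd hUc (by
      rw [h, card_bot]; exact (Nat.one_lt_pow two_ne_zero hp'.out.one_lt).ne)
    obtain ⟨w, hwU, hwc, hwo⟩ := Thompson.exists_central_order_p hR hUne
    have hlow : p ≤ Nat.card ↥(U ⊓ K) := by
      rw [← hwo, ← Nat.card_zpowers]
      exact card_le_of_le (le_inf (zpowers_le.mpr hwU) (zpowers_le.mpr hwc))
    have hNcard : Nat.card N ≤ p := by
      have h1 := Lib.Coprime.card_map_mul_card_inf_ker (QuotientGroup.mk' K) U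
      rw [QuotientGroup.ker_mk', hUc, pow_two] at h1
      exact Nat.le_of_mul_le_mul_right (h1 ▸ Nat.mul_le_mul_left _ hlow) hp'.out.pos
    have hNeq : zpowers v = N := eq_of_le_of_card_ge (zpowers_le.mpr hvN) (by rw [Nat.card_zpowers, hvo]; exact hNcard)
    exact (mem_center_iff.mp (zpowers_le.mpr hvc (hNeq ▸ mem_map_of_mem _ hu)) _).symm
  have hWsmall : Nat.card W ≤ p ^ 2 := by
    let V := W ⊓ centralizer {x}
    have hVz : Nat.card V ≤ p := by
      have hVE : V ≤ E := fun y hy => hsm y (hWmem y hy.1).2 (mem_centralizer_singleton_iff.mp hy.2)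
      obtain ⟨i, hi⟩ := IsPGroup.iff_card.mp (hR.to_subgroup V)
      have hne : V ≠ E := fun h => hxW (h.ge hxE).1
      have h2 : Nat.card V < p ^ 2 := hE2 ▸ lt_of_le_of_ne (card_le_of_le hVE)
        fun h => hne (eq_of_le_of_card_ge hVE h.ge)
      rw [hi] at h2 ⊢
      have := (Nat.pow_lt_pow_iff_right hp'.out.one_lt).mp h2
      simpa using Nat.pow_le_pow_right hp'.out.pos (show i ≤ 1 by omega)
    have hidx : Nat.card (W ⧸ V.subgroupOf W) ≤ p := by
      rw [← hzo, ← Nat.card_zpowers]
      refine Nat.card_le_card_of_injective (fun q => (⟨⁅(q.out : R), x⁆, hWval _ q.out.2 x⟩ : zpowers z)) fun q r h => ?_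
      have e : (r.out : R) * x * (r.out : R)⁻¹ = (q.out : R) * x * (q.out : R)⁻¹ := by
        simpa [commutatorElement_def] using (congrArg Subtype.val h).symm
      have h1 : (q.out : R)⁻¹ * (r.out : R) ∈ centralizer {x} := mem_centralizer_singleton_iff.mpr (by
        calc (q.out : R)⁻¹ * (r.out : R) * x = (q.out : R)⁻¹ * ((r.out : R) * x * (r.out : R)⁻¹) * (r.out : R) := by group
          _ = x * ((q.out : R)⁻¹ * (r.out : R)) := by rw [e]; group)
      rw [← q.out_eq, ← r.out_eq]
      exact QuotientGroup.eq.mpr (mem_subgroupOf.mpr (mem_inf.mpr ⟨mul_mem (inv_mem q.out.2) r.out.2, h1⟩))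
    have hWV := (V.subgroupOf W).card_mul_index
    rw [Lib.Coprime.card_subgroupOf inf_le_left, index_eq_card] at hWV
    rw [← hWV, pow_two]
    exact Nat.mul_le_mul hVz hidx
  have hWcard : Nat.card W = p ^ 2 := le_antisymm hWsmall hWlarge
  have hWc : IsMulCommutative W := IsPGroup.isMulCommutative_of_card_eq_prime_sq hWcard
  haveI := hWc
  set C := centralizer (W : Set R)
  have hxC : x ∉ C := by
    intro h
    have hle : W ≤ E := fun w hw => hsm w (hWmem w hw).2 (mem_centralizer_iff.mp h w hw)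
    exact hxW ((eq_of_le_of_card_ge hle (hE2.le.trans hWlarge)).ge hxE)
  refine ⟨fun h => hxC (h hxE), by rw [hZ1eq, Nat.card_zpowers, hzo],
    ⟨⟨hWc, fun w hw => (hWmem w hw).2⟩, hWcard⟩, ?_, ?_⟩
  · haveI : W.Characteristic := by
      refine characteristic_iff_map_le.mpr fun φ => ?_
      rw [hW, MonoidHom.map_closure, closure_le]
      rintro _ ⟨y, ⟨hy, hyp⟩, rfl⟩
      refine subset_closure ⟨?_, by rw [← map_pow, hyp, map_one]⟩
      exact (SetLike.ext_iff.mp ((inferInstance : (Subgroup.upperCentralSeries R 2).Characteristic).fixed φ) y).mpr hy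
    refine characteristic_iff_le_comap.mpr fun φ c hc => ?_
    refine mem_centralizer_iff.mpr fun w hw => ?_
    obtain ⟨v, rfl⟩ := φ.surjective w
    have hv : v ∈ W := (SetLike.ext_iff.mp ((inferInstance : W.Characteristic).fixed φ) v).mp hw
    show φ v * φ c = φ c * φ v
    rw [← map_mul, mem_centralizer_iff.mp hc v hv, map_mul]
  · obtain ⟨w, hwW, hwz⟩ : ∃ w ∈ W, w ∉ zpowers z := by
      by_contra hno
      push Not at hno
      have h1 := card_le_of_le (show W ≤ zpowers z from hno)
      rw [hWcard, Nat.card_zpowers, hzo] at h1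
      have := hp'.out.two_le
      nlinarith
    have hgen : zpowers w ⊔ zpowers z = W := by
      refine eq_of_le_of_card_ge (sup_le (zpowers_le.mpr hwW) (zpowers_le.mpr hzW)) ?_
      have hlt : zpowers z < zpowers w ⊔ zpowers z :=
        lt_of_le_of_ne le_sup_right fun e => hwz (e ▸ mem_sup_left (mem_zpowers w))
      have h := Thompson.card_mul_p_le hR hlt
      rw [Nat.card_zpowers, hzo, ← pow_two] at h
      exact hWsmall.trans h
    have hidx : C.index ≤ p := by
      rw [index_eq_card, ← hzo, ← Nat.card_zpowers]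
      refine Nat.card_le_card_of_injective (fun q => (⟨⁅w, q.out⁆, hWval _ hwW _⟩ : zpowers z)) fun q r h => ?_
      have e0 : w * q.out * w⁻¹ * q.out⁻¹ = w * r.out * w⁻¹ * r.out⁻¹ := congrArg Subtype.val h
      have e : q.out * w * q.out⁻¹ = r.out * w * r.out⁻¹ := by
        calc q.out * w * q.out⁻¹ = (w * q.out * w⁻¹ * q.out⁻¹)⁻¹ * w := by group
          _ = (w * r.out * w⁻¹ * r.out⁻¹)⁻¹ * w := by rw [e0]
          _ = _ := by group
      rw [← q.out_eq, ← r.out_eq]
      refine QuotientGroup.eq.mpr (mem_centralizer_iff.mpr fun v hv => ?_)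
      have hle : zpowers w ⊔ zpowers z ≤ centralizer {q.out⁻¹ * r.out} := sup_le
        (zpowers_le.mpr (mem_centralizer_singleton_iff.mpr (by
          calc w * (q.out⁻¹ * r.out) = q.out⁻¹ * (q.out * w * q.out⁻¹) * r.out := by group
            _ = q.out⁻¹ * r.out * w := by rw [e]; group)))
        (zpowers_le.mpr (mem_centralizer_singleton_iff.mpr (mem_center_iff.mp hzc _).symm))
      exact mem_centralizer_singleton_iff.mp (hle (hgen.ge hv))
    obtain ⟨i, hi⟩ := hR.index C
    have hi0 : i ≠ 0 := fun h => hxC (by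
      rw [h, pow_zero, index_eq_one] at hi
      rw [hi]; exact mem_top x)
    exact le_antisymm hidx (hi ▸ Nat.le_self_pow hi0 p)


/-- Let p be an odd prime and R a finite p-group with an elementary abelian subgroup of order p ^ 3 and an elementary abelian subgroup E of order p ^ 2 contained in no larger elementary abelian subgroup. Let Z₂ be the second centre of R, W the subgroup generated by the elements of Z₂ of order dividing p, and T = C_R(W). Then E is not contained in T; the elements of order dividing p of the centre of R generate a group of order p; W is elementary abelian of order p ^ 2; and T is characteristic in R of index p. -/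
theorem result {R : Type*} [Group R] [Finite R] (p : ℕ) [Fact p.Prime] (hp : p ≠ 2) (hR : IsPGroup p R) (hr : ¬ Cfsg.PRankLE p 2 R)
    (E : Subgroup R) (hE : Cfsg.IsElementaryAbelian p E) (hE2 : Nat.card E = p ^ 2)
    (hEmax : ∀ B : Subgroup R, Cfsg.IsElementaryAbelian p B → E ≤ B → B = E) :
    ¬ E ≤ Subgroup.centralizer ((Subgroup.closure {x : R | x ∈ Subgroup.upperCentralSeries R 2 ∧ x ^ p = 1} : Subgroup R) : Set R) ∧
      Nat.card ↥(Subgroup.closure {x : R | x ∈ Subgroup.center R ∧ x ^ p = 1}) = p ∧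
      (Cfsg.IsElementaryAbelian p (Subgroup.closure {x : R | x ∈ Subgroup.upperCentralSeries R 2 ∧ x ^ p = 1}) ∧
        Nat.card ↥(Subgroup.closure {x : R | x ∈ Subgroup.upperCentralSeries R 2 ∧ x ^ p = 1}) = p ^ 2) ∧
      (Subgroup.centralizer ((Subgroup.closure {x : R | x ∈ Subgroup.upperCentralSeries R 2 ∧ x ^ p = 1} : Subgroup R) : Set R)).Characteristic ∧
      (Subgroup.centralizer ((Subgroup.closure {x : R | x ∈ Subgroup.upperCentralSeries R 2 ∧ x ^ p = 1} : Subgroup R) : Set R)).index = p := by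
  exact aux p hp hR hr E hE hE2 hEmax

end Cfsg.Agent.S1453
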