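import Cfsg.Statements.S1417
import Cfsg.Agent.Lib.Uniq.TauTwoAbelian
-- import your own Cfsg.Agent.* helpers here

set_option autoImplicit false
open Cfsg

namespace Cfsg.Agent.S1417
open scoped Pointwise

/-- Let G be a minimal simple group of odd order, M a maximal subgroup, p ∈ τ₂(M) and A ≤ M elementary abelian of order p ^ 2. Then (a) M_σ is nilpotent; (b) every Sylow p-subgroup P of M is abelian, and if A ≤ P then the elements of P of order dividing p are exactly those of A and N_G(P) is not contained in M; (c) M normalizes M_σA; (d) M_σ ∩ C_G(A) = 1; (e) M_σ ∩ M* = 1 for every maximal subgroup M* ≠ M containing A; (f) M_σ ∩ C_G(A₁) = 1 for some subgroup A₁ ≤ A of order p. -/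
theorem result {G : Type*} [Group G] [Finite G] (hG : Cfsg.IsMinSimpleOddOrder G)
    (M : Subgroup G) (hM : IsCoatom M) (p : ℕ) [Fact p.Prime] (hp : p ∈ Cfsg.tau2 M) (A : Subgroup G) (hA : (A ≤ M ∧ Cfsg.IsElementaryAbelian p A ∧ Nat.card A = p ^ 2)) :
    Group.IsNilpotent (Cfsg.sigmaCore M) ∧
      (∀ P : Sylow p M, IsMulCommutative (P : Subgroup M) ∧
        (A ≤ (P : Subgroup M).map M.subtype →
          (∀ x ∈ (P : Subgroup M).map M.subtype, x ^ p = 1 ↔ x ∈ A) ∧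
          ¬ Subgroup.normalizer ((((P : Subgroup M).map M.subtype : Subgroup G)) : Set G) ≤ M)) ∧
      M ≤ Subgroup.normalizer ((Cfsg.sigmaCore M ⊔ A : Subgroup G) : Set G) ∧
      Cfsg.sigmaCore M ⊓ Subgroup.centralizer (A : Set G) = ⊥ ∧
      (∀ Mstar : Subgroup G, IsCoatom Mstar → Mstar ≠ M → A ≤ Mstar → Cfsg.sigmaCore M ⊓ Mstar = ⊥) ∧
      ∃ A₁ : Subgroup G, A₁ ≤ A ∧ Nat.card A₁ = p ∧ Cfsg.sigmaCore M ⊓ Subgroup.centralizer (A₁ : Set G) = ⊥ := by
  classical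
  obtain ⟨hAM, hAe, hAc⟩ := hA
  have hpσ := hp.2.1
  obtain ⟨X, hX⟩ := Lib.Uniq.exists_exc hG hM hpσ hAM hAe hAc
  obtain ⟨-, t, -, ht, -, ht1, -, -, hf, -⟩ := hX.exists_fpf hG
  obtain ⟨E, hE, hAE⟩ := Lib.Uniq.exists_compl_ge hG hM hpσ (Lib.Uniq.elem_isPGroup hAe) hAM
  refine ⟨hX.sigmaCore_nilpotent hG, fun P => ⟨?_, fun hAP => ?_⟩, ?_, hX.inf_centralizer_eq_bot hG,
    fun H hH hne hAH => Lib.Uniq.sigmaCore_inf_eq_bot hG hM hpσ hAM hAe hAc hH hne hAH,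
    Subgroup.zpowers t, Subgroup.zpowers_le.mpr ht, ?_, ?_⟩
  · obtain ⟨S, hS⟩ := ((Lib.Uniq.elem_isPGroup hAe).comap_subtype (K := M)).exists_le_sylow
    obtain ⟨m, hm⟩ := MulAction.exists_smul_eq (↥M) S P
    set A' := MulAut.conj (m : G) • A
    have hA'P : A' ≤ (P : Subgroup M).map M.subtype := by
      rintro x ⟨w, hw, rfl⟩
      refine ⟨m * ⟨w, hAM hw⟩ * m⁻¹, ?_, rfl⟩
      rw [← hm, Sylow.coe_subgroup_smul]
      exact Lib.Coprime.conj_mem_conj_smul (hS hw)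
    obtain ⟨X', hX'⟩ := Lib.Uniq.exists_exc hG hM hpσ (hA'P.trans (Subgroup.map_subtype_le _))
      (Lib.Uniq.elem_of_conj (m : G) hAe) ((Lib.Coprime.card_conj_smul _ _).trans hAc)
    exact Lib.Uniq.sylow_abelian_of_exc hG hX' P hA'P
  · exact ⟨fun x hx => hX.mem_iff_pow_eq_one hG P hAP hx, hX.normalizer_sylow_not_le P⟩
  · have hEN := (Lib.Uniq.le_normalizer_compl hG hM hE hpσ hAE hAe hAc).1
    have hKN : M ≤ Subgroup.normalizer ((Cfsg.sigmaCore M : Subgroup G) : Set G) :=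
      Lib.OddLocal.le_normalizer_piCoreOf (Cfsg.sigma M) M
    intro m hm
    obtain ⟨e, he, b, hb, rfl⟩ := hE.2.2.2 m hm
    refine Subgroup.mul_mem _ ?_ (Subgroup.le_normalizer (Subgroup.mem_sup_left hb))
    refine Lib.Coprime.mem_normalizer_of_conj_smul_eq ?_
    rw [Subgroup.smul_sup, Lib.Coprime.conj_smul_eq_self (hKN (hE.1 he)), Lib.Coprime.conj_smul_eq_self (hEN he)]
  · rw [Nat.card_zpowers, orderOf_eq_prime (hAe.2 t ht) ht1]
  · rw [eq_bot_iff]
    intro c hc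
    exact Subgroup.mem_bot.mpr (hf c hc.1
      (Subgroup.mem_centralizer_iff.mp hc.2 t (Subgroup.mem_zpowers t)))

end Cfsg.Agent.S1417
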