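import Cfsg.Statements.S3766
import Cfsg.Agent.Lib.Hall.Solvable
import Mathlib

set_option autoImplicit false
open Cfsg

namespace Cfsg.Agent.S3766


open Subgroup
open scoped commutatorElement

variable {G : Type*} [Group G] [Finite G]

/-- a nilpotent normal subgroup centralises chief factors -/
lemma nilpotent_centralizes (hG : Group.IsSolvable G) (F U V : Subgroup G) [F.Normal] (hF : Group.IsNilpotent F)
    (hUn : U.Normal) (hVn : V.Normal) (hVU : V < U)
    (hchief : ∀ W : Subgroup G, W.Normal → V ≤ W → W ≤ U → W = V ∨ W = U) : ⁅U, F⁆ ≤ V := by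
  haveI := hUn; haveI := hVn
  haveI hW : (⁅U, F⁆ ⊔ V).Normal := inferInstance
  rcases hchief (⁅U, F⁆ ⊔ V) hW le_sup_right (sup_le (commutator_le_left U F) hVU.le) with h | h
  · exact le_sup_left.trans h.le
  · exfalso
    obtain ⟨n, hn⟩ := (Subgroup.isNilpotent_iff_lowerCentralSeries F).mp hF
    set π := QuotientGroup.mk' V
    have heq : U.map π = ⁅U.map π, F.map π⁆ := by
      conv_lhs => rw [← h]
      rw [Subgroup.map_sup, map_commutator, (Subgroup.map_eq_bot_iff V (f := π)).mpr (by simp [π]), sup_bot_eq]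
    have hle : ∀ i, U.map π ≤ (F.map π).lowerCentralSeries i := by
      intro i
      induction i with
      | zero =>
        haveI : (F.map π).Normal := ‹F.Normal›.map π (QuotientGroup.mk'_surjective V)
        rw [Subgroup.lowerCentralSeries_zero, heq]
        exact commutator_le_right _ _
      | succ i ih =>
        rw [Subgroup.lowerCentralSeries_succ, heq]
        exact commutator_mono ih le_rfl
    have h1 := hle n
    rw [← Subgroup.map_lowerCentralSeries, hn, Subgroup.map_bot, le_bot_iff, Subgroup.map_eq_bot_iff, QuotientGroup.ker_mk'] at h1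
    exact hVU.not_ge h1

/-- Let G be a finite solvable group and N a normal subgroup of G. Call a pair V < U of normal subgroups of G a chief factor of G when no normal subgroup of G lies strictly between them; an element g centralizes the chief factor U/V when u g u⁻¹ g⁻¹ ∈ V for all u ∈ U. Then an element of G lies in the Fitting subgroup F(N) if and only if it lies in N and centralizes every chief factor of G; and also if and only if it lies in N and centralizes every chief factor U/V of G with U ≤ F(N). -/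
theorem result {G : Type*} [Group G] [Finite G] (hG : Group.IsSolvable G) (N : Subgroup G) [N.Normal] (g : G) : (g ∈ (Cfsg.fittingSubgroup ↥N).map N.subtype ↔ g ∈ N ∧ ∀ U V : Subgroup G, (U.Normal ∧ V.Normal ∧ V < U ∧ ∀ W : Subgroup G, W.Normal → V ≤ W → W ≤ U → W = V ∨ W = U) → ∀ u ∈ U, u * g * u⁻¹ * g⁻¹ ∈ V) ∧ (g ∈ (Cfsg.fittingSubgroup ↥N).map N.subtype ↔ g ∈ N ∧ ∀ U V : Subgroup G, (U.Normal ∧ V.Normal ∧ V < U ∧ ∀ W : Subgroup G, W.Normal → V ≤ W → W ≤ U → W = V ∨ W = U) → U ≤ (Cfsg.fittingSubgroup ↥N).map N.subtype → ∀ u ∈ U, u * g * u⁻¹ * g⁻¹ ∈ V) := by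
  classical
  haveI := hG
  set F := (Cfsg.fittingSubgroup ↥N).map N.subtype with hFdef
  haveI hFchar : (Cfsg.fittingSubgroup ↥N).Characteristic := Lib.Hall.fittingSubgroup_characteristic
  haveI hFn : F.Normal := ConjAct.normal_of_characteristic_of_normal
  have hFnil : Group.IsNilpotent F := by
    haveI := Lib.Hall.fittingSubgroup_isNilpotent (G := ↥N)
    exact Group.nilpotent_of_surjective (N.subtype.subgroupMap (Cfsg.fittingSubgroup ↥N))
      (N.subtype.subgroupMap_surjective _)
  have hFN : F ≤ N := Subgroup.map_subtype_le _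
  have hfirst : g ∈ F → g ∈ N ∧ ∀ U V : Subgroup G, (U.Normal ∧ V.Normal ∧ V < U ∧ ∀ W : Subgroup G, W.Normal → V ≤ W → W ≤ U → W = V ∨ W = U) → ∀ u ∈ U, u * g * u⁻¹ * g⁻¹ ∈ V := by
    intro hg
    refine ⟨hFN hg, fun U V ⟨hU, hV, hVU, hch⟩ u hu => ?_⟩
    have := nilpotent_centralizes hG F U V hFnil hU hV hVU hch (Subgroup.commutator_mem_commutator hu hg)
    rwa [commutatorElement_def] at this
  have hsecond : (g ∈ N ∧ ∀ U V : Subgroup G, (U.Normal ∧ V.Normal ∧ V < U ∧ ∀ W : Subgroup G, W.Normal → V ≤ W → W ≤ U → W = V ∨ W = U) → U ≤ F → ∀ u ∈ U, u * g * u⁻¹ * g⁻¹ ∈ V) → g ∈ F := by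
    rintro ⟨hgN, hg⟩
    let P : Type _ := {q : Subgroup G × Subgroup G // q.1.Normal ∧ q.2.Normal ∧ q.2 < q.1 ∧
      (∀ W : Subgroup G, W.Normal → q.2 ≤ W → W ≤ q.1 → W = q.2 ∨ W = q.1) ∧ q.1 ≤ F}
    let Cq : P → Subgroup G := fun q =>
      haveI := q.2.2.1
      (Subgroup.centralizer ((q.1.1.map (QuotientGroup.mk' q.1.2) : Subgroup (G ⧸ q.1.2)) : Set (G ⧸ q.1.2))).comap
        (QuotientGroup.mk' q.1.2)
    have hmemC : ∀ (q : P) (x : G), x ∈ Cq q ↔ ∀ u ∈ q.1.1, u * x * u⁻¹ * x⁻¹ ∈ q.1.2 := by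
      intro q x
      haveI := q.2.2.1
      simp only [Cq, Subgroup.mem_comap, Subgroup.mem_centralizer_iff, Subgroup.coe_map, Set.forall_mem_image]
      refine forall₂_congr fun u _ => ?_
      rw [← QuotientGroup.eq_one_iff (N := q.1.2) (u * x * u⁻¹ * x⁻¹), QuotientGroup.mk'_apply, QuotientGroup.mk'_apply,
        QuotientGroup.mk_mul, QuotientGroup.mk_mul, QuotientGroup.mk_mul, QuotientGroup.mk_inv, QuotientGroup.mk_inv,
        mul_inv_eq_one, mul_inv_eq_iff_eq_mul]
    set C := N ⊓ ⨅ q : P, Cq q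
    haveI hCq : ∀ q : P, (Cq q).Normal := fun q => by
      haveI := q.2.2.1
      haveI : (q.1.1.map (QuotientGroup.mk' q.1.2)).Normal := q.2.1.map _ (QuotientGroup.mk'_surjective _)
      exact Subgroup.Normal.comap inferInstance _
    haveI : (⨅ q : P, Cq q).Normal := Subgroup.normal_iInf_normal hCq
    have hgC : g ∈ C := Subgroup.mem_inf.mpr ⟨hgN, Subgroup.mem_iInf.mpr fun q => (hmemC q g).mpr
      (hg q.1.1 q.1.2 ⟨q.2.1, q.2.2.1, q.2.2.2.1, q.2.2.2.2.1⟩ q.2.2.2.2.2)⟩
    suffices hCF : C ≤ F from hCF hgC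
    by_contra hC
    obtain ⟨M, hMC, hM⟩ := Finite.exists_le_minimal
      (p := fun K : Subgroup G => K.Normal ∧ K ≤ C ∧ ¬ K ≤ F) (a := C) ⟨inferInstance, le_rfl, hC⟩
    obtain ⟨hMn, -, hMF⟩ := hM.prop
    haveI := hMn
    have hne : M ≠ ⊥ := fun h => hMF (h ▸ bot_le)
    have hlt := Lib.Hall.commutator_lt_of_solvable hne
    have hMM : ⁅M, M⁆ ≤ F := by
      by_contra h
      exact hlt.not_ge (hM.le_of_le ⟨inferInstance, hlt.le.trans hMC, h⟩ hlt.le)
    let step : Subgroup G → Subgroup G := fun X => ⁅X, M⁆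
    have hnil : ∀ (k : ℕ) (U : Subgroup G), Nat.card U = k → U.Normal → U ≤ F → ∃ i, step^[i] U = ⊥ := by
      intro k
      induction k using Nat.strong_induction_on with
      | _ k ih =>
        intro U hk hU hUF
        by_cases hUb : U = ⊥
        · exact ⟨0, hUb⟩
        haveI := hU
        obtain ⟨V, ⟨hVn, hVU⟩, hVmax⟩ := (Set.toFinite {V : Subgroup G | V.Normal ∧ V < U}).exists_maximal
          ⟨⊥, inferInstance, bot_lt_iff_ne_bot.mpr hUb⟩
        have hch : ∀ W : Subgroup G, W.Normal → V ≤ W → W ≤ U → W = V ∨ W = U := fun W hW h1 h2 =>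
          or_iff_not_imp_right.mpr fun h => le_antisymm (hVmax ⟨hW, lt_of_le_of_ne h2 h⟩ h1) h1
        have hle : step U ≤ V := by
          show ⁅U, M⁆ ≤ V
          rw [Subgroup.commutator_le]
          intro u hu m hm
          rw [commutatorElement_def]
          exact (hmemC ⟨(U, V), hU, hVn, hVU, hch, hUF⟩ m).mp
            (Subgroup.mem_iInf.mp (Subgroup.mem_inf.mp (hMC hm)).2 _) u hu
        have hlt' : Nat.card V < k := hk ▸ lt_of_le_of_ne (Subgroup.card_le_of_le hVU.le)
          fun h => hVU.ne (Subgroup.eq_of_le_of_card_ge hVU.le h.ge)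
        obtain ⟨i, hi⟩ := ih _ hlt' V rfl hVn (hVU.le.trans hUF)
        refine ⟨i + 1, le_bot_iff.mp ?_⟩
        rw [Function.iterate_succ_apply, ← hi]
        have hmono : ∀ (i : ℕ) (X Y : Subgroup G), X ≤ Y → step^[i] X ≤ step^[i] Y := by
          intro i
          induction i with
          | zero => exact fun X Y h => h
          | succ i ih2 =>
            intro X Y h
            rw [Function.iterate_succ_apply, Function.iterate_succ_apply]
            exact ih2 _ _ (Subgroup.commutator_mono h le_rfl)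
        exact hmono i _ _ hle
    obtain ⟨i, hi⟩ := hnil _ ⁅M, M⁆ rfl inferInstance hMM
    have hM1 : ∀ j, M.lowerCentralSeries (j + 1) = step^[j] ⁅M, M⁆ := by
      intro j
      induction j with
      | zero => rfl
      | succ j ih => rw [Subgroup.lowerCentralSeries_succ, ih, Function.iterate_succ_apply']
    have hMnil : Group.IsNilpotent M :=
      (Subgroup.isNilpotent_iff_lowerCentralSeries M).mpr ⟨i + 1, (hM1 i).trans hi⟩
    have hMN : M ≤ N := hMC.trans inf_le_left
    haveI : (M.subgroupOf N).Normal := inferInstance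
    have h1 : M.subgroupOf N ≤ Cfsg.fittingSubgroup ↥N := Lib.Hall.le_fittingSubgroup
      (Group.nilpotent_of_surjective (Subgroup.subgroupOfEquivOfLe hMN).symm.toMonoidHom
        (Subgroup.subgroupOfEquivOfLe hMN).symm.surjective)
    exact hMF fun x hx => ⟨⟨x, hMN hx⟩, h1 (Subgroup.mem_subgroupOf.mpr hx), rfl⟩
  refine ⟨⟨hfirst, fun h => hsecond ⟨h.1, fun U V hUV _ => h.2 U V hUV⟩⟩,
    ⟨fun h => ⟨(hfirst h).1, fun U V hUV _ => (hfirst h).2 U V hUV⟩, hsecond⟩⟩

end Cfsg.Agent.S3766
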