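import Cfsg.Statements.S1445
import Cfsg.Agent.Lib.FitHeight.FpfSylow
import Cfsg.Agent.S3766

set_option autoImplicit false
open Cfsg

namespace Cfsg.Agent.S1445

open Subgroup
open scoped commutatorElement


/-- Let G be a solvable group of odd order, K a normal subgroup and R a subgroup with G = KR and the orders of K and R coprime. Suppose K ∩ C_G(x) = K ∩ C_G(R) for every non-identity x ∈ R, and F(K) ∩ C_G(R) = 1. Then [K, R] is contained in the Fitting subgroup of K. -/
theorem result {G : Type*} [Group G] [Finite G] [Group.IsSolvable G] (hodd : Odd (Nat.card G)) (K R : Subgroup G) [K.Normal] (hKR : K ⊔ R = ⊤) (hcop : (Nat.card K).Coprime (Nat.card R))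
    (hprime : ∀ x ∈ R, x ≠ 1 → K ⊓ Subgroup.centralizer ({x} : Set G) = (K ⊓ Subgroup.centralizer (R : Set G)))
    (hF : Cfsg.fittingOf K ⊓ Subgroup.centralizer (R : Set G) = ⊥) :
    ⁅K, R⁆ ≤ Cfsg.fittingOf K := by
  rcases eq_or_ne R ⊥ with hR | hR
  · rw [hR, Subgroup.commutator_bot_right]; exact bot_le
  obtain ⟨p, hp, hpd⟩ := Nat.exists_prime_and_dvd (R.one_lt_card_iff_ne_bot.mpr hR).ne'
  haveI := Fact.mk hp
  obtain ⟨x₀, hx₀⟩ := exists_prime_orderOf_dvd_card' p hpd
  set x : G := (x₀ : G) with hxdef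
  have hxo : orderOf x = p := by rw [hxdef, Subgroup.orderOf_coe, hx₀]
  have hx1 : x ≠ 1 := fun h => hp.ne_one (by rw [← hxo, h, orderOf_one])
  have hxp : x ^ p = 1 := by rw [← hxo, pow_orderOf_eq_one]
  have hpK : p.Coprime (Nat.card K) := (hcop.coprime_dvd_right hpd).symm
  set F := Cfsg.fittingOf K with hFdef
  have hFK : F ≤ K := map_subtype_le _
  haveI : (Cfsg.fittingSubgroup ↥K).Characteristic := Cfsg.Agent.Lib.Hall.fittingSubgroup_characteristic
  haveI hFn : F.Normal := ConjAct.normal_of_characteristic_of_normal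
  have hfixF : ∀ u ∈ F, x * u = u * x → u = 1 := by
    intro u hu hxu
    have h1 : u ∈ K ⊓ centralizer ({x} : Set G) :=
      ⟨hFK hu, mem_centralizer_singleton_iff.mpr hxu.symm⟩
    rw [hprime x x₀.2 hx1] at h1
    have h2 : u ∈ F ⊓ centralizer (R : Set G) := ⟨hu, h1.2⟩
    rwa [hF, mem_bot] at h2
  have hzx : (Nat.card (zpowers x)).Coprime (Nat.card K) := by rw [Nat.card_zpowers, hxo]; exact hpK
  have hcomm : ∀ k ∈ K, k * x * k⁻¹ * x⁻¹ ∈ F := by
    intro k hk
    have hcK : k * x * k⁻¹ * x⁻¹ ∈ K := by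
      rw [show k * x * k⁻¹ * x⁻¹ = k * (x * k⁻¹ * x⁻¹) by group]
      exact K.mul_mem hk (Subgroup.Normal.conj_mem inferInstance _ (K.inv_mem hk) x)
    refine ((Cfsg.Agent.S3766.result inferInstance K (k * x * k⁻¹ * x⁻¹)).2).mpr ⟨hcK, ?_⟩
    rintro U W ⟨hU, hW, hWU, hch⟩ hUF u hu
    haveI := hW
    let π := QuotientGroup.mk' W
    have hπ : Function.Surjective π := QuotientGroup.mk'_surjective W
    set V : Subgroup (G ⧸ W) := U.map π with hVdef
    haveI hVn : V.Normal := hU.map π hπ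
    have hmin : ∀ M : Subgroup (G ⧸ W), M.Normal → M ≤ V → M = ⊥ ∨ M = V := by
      intro M hM hMV
      have h1 : W ≤ M.comap π := fun w hw => by
        rw [mem_comap, show π w = 1 from (QuotientGroup.eq_one_iff w).mpr hw]; exact one_mem _
      have h2 : M.comap π ≤ U := by
        refine (comap_mono hMV).trans ?_
        rw [hVdef, comap_map_eq, QuotientGroup.ker_mk', sup_eq_left.mpr hWU.le]
      rcases hch _ (hM.comap π) h1 h2 with h | h
      · left; rw [← map_comap_eq_self_of_surjective hπ M, h]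
        exact (Subgroup.map_eq_bot_iff _).mpr (QuotientGroup.ker_mk' W).ge
      · right; rw [← map_comap_eq_self_of_surjective hπ M, h]
    have hVne : V ≠ ⊥ := by
      rw [hVdef, ne_eq, Subgroup.map_eq_bot_iff, QuotientGroup.ker_mk']
      exact not_le_of_gt hWU
    obtain ⟨hVab, l, hl, hVl⟩ := Cfsg.Agent.Lib.Hall.minimal_normal_solvable V hVne hmin
    haveI := hVab
    have hWK : W ≤ K := hWU.le.trans (hUF.trans hFK)
    have hlp : l ≠ p := by
      haveI := Fact.mk hl
      obtain ⟨m, hm⟩ := IsPGroup.iff_card.mp (Cfsg.Agent.Lib.Hall.isPGroup_of_pow_eq_one hVl)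
      have hm0 : m ≠ 0 := fun h => hVne (card_eq_one.mp (by rw [hm, h, pow_zero]))
      have h1 : l ∣ Nat.card K :=
        ((dvd_pow_self l hm0).trans (hm ▸ dvd_rfl)).trans
          ((card_map_dvd U π).trans (card_dvd_of_le (hUF.trans hFK)))
      exact fun h => hp.ne_one (Nat.eq_one_of_dvd_coprimes hpK dvd_rfl (h ▸ h1))
    letI : CommGroup V := { (inferInstance : Group V) with mul_comm := fun a b => mul_comm' a b }
    haveI : Finite (MulAut V) :=
      Finite.of_injective (fun σ : MulAut V => (σ : V → V)) DFunLike.coe_injective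
    let ρ : G →* MulAut V := (MulAut.conjNormal (H := V)).comp π
    let Γ := ρ.range
    let K' : Subgroup Γ := K.map ρ.rangeRestrict
    haveI : K'.Normal := Subgroup.Normal.map inferInstance _ ρ.rangeRestrict_surjective
    haveI : Group.IsSolvable K' :=
      Group.isSolvable_of_surjective (f := ρ.rangeRestrict.subgroupMap K)
        (MonoidHom.subgroupMap_surjective _ _)
    have hsmul : ∀ (g : G) (v : V), (((ρ.rangeRestrict g : Γ) • v : V) : G ⧸ W) = π g * v * (π g)⁻¹ :=
      fun g v => rfl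
    have hfix : ∀ v : V, (ρ.rangeRestrict x : Γ) • v = v → v = 1 := by
      intro v hv
      obtain ⟨w, hw, hwv⟩ := v.2
      have h1 : π x * π w * (π x)⁻¹ = π w := by
        rw [hwv]; exact (hsmul x v).symm.trans (congrArg Subtype.val hv)
      have hk' : ∀ a ∈ zpowers x, w⁻¹ * (a * w * a⁻¹) ∈ W := by
        intro a ha
        obtain ⟨i, rfl⟩ := mem_zpowers_iff.mp ha
        rw [← QuotientGroup.eq_one_iff]
        show π (w⁻¹ * (x ^ i * w * (x ^ i)⁻¹)) = 1
        simp only [map_mul, map_inv, map_zpow]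
        rw [(Commute.zpow_left (mul_inv_eq_iff_eq_mul.mp h1 : Commute (π x) (π w)) i).eq,
          mul_inv_cancel_right, inv_mul_cancel]
      obtain ⟨c, hc, hcw⟩ := Cfsg.Agent.Lib.Coprime.exists_centralizer_mem_coset
        (A := zpowers x) (N := W) (k := w)
        (fun a _ => by rw [normalizer_eq_top]; exact mem_top a)
        (hzx.coprime_dvd_right (card_dvd_of_le hWK)) (Or.inr inferInstance) hk'
      have hcU : c ∈ U := by simpa using U.mul_mem hw (hWU.le hcw)
      have hc1 : c = 1 := hfixF c (hUF hcU) (mem_centralizer_iff.mp hc x (mem_zpowers x))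
      rw [hc1, mul_one] at hcw
      refine Subtype.ext ?_
      rw [← hwv]
      exact (QuotientGroup.eq_one_iff w).mpr (by simpa using W.inv_mem hcw)
    have hirr : ∀ A : Subgroup V, (∀ g : Γ, ∀ a ∈ A, g • a ∈ A) → A = ⊥ ∨ A = ⊤ := by
      intro A hA
      haveI : (A.map V.subtype).Normal := ⟨by
        rintro _ ⟨a, ha, rfl⟩ y
        obtain ⟨g, rfl⟩ := hπ y
        exact ⟨_, hA (ρ.rangeRestrict g) a ha, hsmul g a⟩⟩
      rcases hmin _ this (map_subtype_le A) with h | h
      · left; exact (map_eq_bot_iff_of_injective A V.subtype_injective).mp h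
      · right; exact map_injective V.subtype_injective
          (h.trans ((MonoidHom.range_eq_map V.subtype).symm.trans V.range_subtype).symm)
    have hK'card : Nat.card K' ∣ Nat.card K := card_map_dvd K _
    have h := Cfsg.Agent.Lib.FitHeight.commute_of_fpf_irreducible (Γ := Γ) (V := V) (l := l) (p := p)
      hl hp hlp (fun g hg => Subtype.ext (MulEquiv.ext hg)) hirr (K := K') (f := ρ.rangeRestrict x)
      (by rw [← map_pow, hxp, map_one]) (hpK.coprime_dvd_right hK'card)
      (fun q hq hqd => Or.inl fun h2 => by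
        subst h2
        exact hodd.not_two_dvd_nat ((hqd.trans hK'card).trans (card_subgroup_dvd_card K)))
      (fun v => Subtype.ext (hVl v v.2)) hfix (ρ.rangeRestrict k) (mem_map_of_mem _ hk)
    have h1 : ρ.rangeRestrict (k * x * k⁻¹ * x⁻¹) = 1 := by
      simp only [map_mul, map_inv]
      rw [← h]; group
    have h2 := hsmul (k * x * k⁻¹ * x⁻¹) ⟨π u, mem_map_of_mem π hu⟩
    rw [h1, one_smul] at h2
    rw [← QuotientGroup.eq_one_iff]
    show π (u * (k * x * k⁻¹ * x⁻¹) * u⁻¹ * (k * x * k⁻¹ * x⁻¹)⁻¹) = 1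
    rw [map_mul, map_mul, map_mul, map_inv, map_inv, mul_inv_eq_one, mul_inv_eq_iff_eq_mul]
    exact eq_mul_inv_iff_mul_eq.mp h2
  rw [Subgroup.commutator_le]
  intro k hk r hr
  have hk' : ∀ a ∈ zpowers x, k⁻¹ * (a * k * a⁻¹) ∈ F := by
    intro a ha
    obtain ⟨i, rfl⟩ := mem_zpowers_iff.mp ha
    rw [← QuotientGroup.eq_one_iff]
    show QuotientGroup.mk' F (k⁻¹ * (x ^ i * k * (x ^ i)⁻¹)) = 1
    have h1 : Commute (QuotientGroup.mk' F x) (QuotientGroup.mk' F k) := by
      have := (QuotientGroup.eq_one_iff _).mpr (hcomm k hk)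
      change QuotientGroup.mk' F (k * x * k⁻¹ * x⁻¹) = 1 at this
      simp only [map_mul, map_inv] at this
      exact (mul_inv_eq_iff_eq_mul.mp (mul_inv_eq_one.mp this)).symm
    simp only [map_mul, map_inv, map_zpow]
    rw [(h1.zpow_left i).eq, mul_inv_cancel_right, inv_mul_cancel]
  obtain ⟨c, hc, hn⟩ := Cfsg.Agent.Lib.Coprime.exists_centralizer_mem_coset
    (A := zpowers x) (N := F) (k := k)
    (fun a _ => by rw [normalizer_eq_top]; exact mem_top a)
    (hzx.coprime_dvd_right (card_dvd_of_le hFK)) (Or.inr inferInstance) hk'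
  have hcK : c ∈ K := by simpa using K.mul_mem hk (hFK hn)
  have hcR : c ∈ K ⊓ centralizer ({x} : Set G) :=
    ⟨hcK, mem_centralizer_singleton_iff.mpr (mem_centralizer_iff.mp hc x (mem_zpowers x)).symm⟩
  rw [hprime x x₀.2 hx1] at hcR
  have h1 : c * r = r * c := (mem_centralizer_iff.mp hcR.2 r hr).symm
  set n := k⁻¹ * c
  have hk2 : k = c * n⁻¹ := by simp [n]
  have h3 : ⁅k, r⁆ = c * (n⁻¹ * (r * n * r⁻¹)) * c⁻¹ := by
    rw [hk2, commutatorElement_def]
    calc c * n⁻¹ * r * (c * n⁻¹)⁻¹ * r⁻¹ = c * n⁻¹ * r * n * (r * c)⁻¹ := by group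
      _ = c * n⁻¹ * r * n * (c * r)⁻¹ := by rw [h1]
      _ = _ := by group
  rw [h3]
  exact hFn.conj_mem _ (F.mul_mem (F.inv_mem hn) (hFn.conj_mem _ hn r)) c

end Cfsg.Agent.S1445
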