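import Cfsg.Statements.S1395
import Cfsg.Agent.Lib.OddLocal.Transitivity

set_option autoImplicit false
open Cfsg

namespace Cfsg.Agent.S1395

/-- Let G be a minimal simple group of odd order, A a subgroup satisfying the transitivity hypothesis with K = O_{π(A)'}(C_G(A)), q a prime not dividing the order of A, and P a proper subgroup all of whose prime divisors divide the order of A, containing A as a subnormal subgroup, such that any two maximal A-invariant q-subgroups are conjugate under K. Then (a) K ∩ C_G(P) = O_{π(A)'}(C_G(P)); (b) any two maximal P-invariant q-subgroups are conjugate under O_{π(A)'}(C_G(P)); (c) every maximal P-invariant q-subgroup is a maximal A-invariant q-subgroup; (d) for every maximal P-invariant q-subgroup Q, P ∩ N_G(P)' ≤ N_G(Q)' and N_G(P) is generated by O_{π(A)'}(C_G(P)) and N_G(P) ∩ N_G(Q). -/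
theorem result {G : Type*} [Group G] [Finite G] (hG : Cfsg.IsMinSimpleOddOrder G)
    (A : Subgroup G) (hA : Cfsg.TransitivityHypothesis A) (q : ℕ) (hq : q.Prime) (hqA : ¬ q ∣ Nat.card A)
    (P : Subgroup G) (hP : P ≠ ⊤) (hPπ : (∀ r : ℕ, r.Prime → r ∣ Nat.card P → r ∣ Nat.card A)) (hAP : A ≤ P) (hsn : (A.subgroupOf P).IsSubnormal)
    (htr : ∀ Q₁ ∈ Cfsg.maxInvSubgroups ⊤ A {q}, ∀ Q₂ ∈ Cfsg.maxInvSubgroups ⊤ A {q}, ∃ k ∈ Cfsg.piCoreOf (Cfsg.primesNotDvd (Nat.card A)) (Subgroup.centralizer (A : Set G)), Q₂ = Q₁.map (MulAut.conj k).toMonoidHom) :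
    Cfsg.piCoreOf (Cfsg.primesNotDvd (Nat.card A)) (Subgroup.centralizer (A : Set G)) ⊓ Subgroup.centralizer (P : Set G) = Cfsg.piCoreOf (Cfsg.primesNotDvd (Nat.card A)) (Subgroup.centralizer (P : Set G)) ∧
      (∀ Q₁ ∈ Cfsg.maxInvSubgroups ⊤ P {q}, ∀ Q₂ ∈ Cfsg.maxInvSubgroups ⊤ P {q}, ∃ k ∈ Cfsg.piCoreOf (Cfsg.primesNotDvd (Nat.card A)) (Subgroup.centralizer (P : Set G)), Q₂ = Q₁.map (MulAut.conj k).toMonoidHom) ∧
      Cfsg.maxInvSubgroups ⊤ P {q} ⊆ Cfsg.maxInvSubgroups ⊤ A {q} ∧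
      ∀ Q ∈ Cfsg.maxInvSubgroups ⊤ P {q},
        P ⊓ ⁅Subgroup.normalizer (P : Set G), Subgroup.normalizer (P : Set G)⁆ ≤ ⁅Subgroup.normalizer (Q : Set G), Subgroup.normalizer (Q : Set G)⁆ ∧
        Subgroup.normalizer (P : Set G) = Cfsg.piCoreOf (Cfsg.primesNotDvd (Nat.card A)) (Subgroup.centralizer (P : Set G)) ⊔ (Subgroup.normalizer (P : Set G) ⊓ Subgroup.normalizer (Q : Set G)) := by
  haveI : Fact q.Prime := ⟨hq⟩
  have hgood := Lib.OddLocal.transGood_of_subnormal hG hA hqA hPπ hAP hsn fun Q₁ h₁ Q₂ h₂ => by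
    obtain ⟨k, hk, h⟩ := htr Q₁ h₁ Q₂ h₂
    exact ⟨k, hk, h.symm⟩
  have hc := fun Q hQ => Lib.OddLocal.maxInvSubgroups_subset hG hA hqA hPπ hAP hgood (Q := Q) hQ
  refine ⟨Lib.OddLocal.piCore_inf_centralizer hG hA P hAP, fun Q₁ h₁ Q₂ h₂ => ?_, hc,
    fun Q hQ => Lib.OddLocal.normalizer_eq_of_transGood hG hA hqA hPπ hAP hgood hQ⟩
  obtain ⟨k, hk, h⟩ := hgood.2 Q₁ (hc Q₁ h₁) Q₂ (hc Q₂ h₂) h₁.1.2.2 h₂.1.2.2
  exact ⟨k, hk, h.symm⟩

end Cfsg.Agent.S1395
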