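import Cfsg.Statements.S1404
import Cfsg.Agent.Lib.Uniq.Narrow
import Cfsg.Agent.Lib.Uniq.Sigma
-- import your own Cfsg.Agent.* helpers here

set_option autoImplicit false
open Cfsg

namespace Cfsg.Agent.S1404

/-- Let G be a minimal simple group of odd order, M a maximal subgroup, p a prime in σ(M), and X a nontrivial p-subgroup of M. If gXg⁻¹ ≤ M for some g ∈ G then g = m c with m ∈ M and c ∈ C_G(X); and the normalizer of X is generated by N_M(X) and C_G(X). -/
theorem result {G : Type*} [Group G] [Finite G] (hG : Cfsg.IsMinSimpleOddOrder G)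
    (M : Subgroup G) (hM : IsCoatom M) (p : ℕ) [Fact p.Prime] (hp : p ∈ Cfsg.sigma M)
    (X : Subgroup G) (hXp : IsPGroup p X) (hX1 : X ≠ ⊥) (hXM : X ≤ M) :
    (∀ g : G, X.map (MulAut.conj g).toMonoidHom ≤ M → ∃ m ∈ M, ∃ c ∈ Subgroup.centralizer (X : Set G), g = m * c) ∧
      Subgroup.normalizer (X : Set G) = (M ⊓ Subgroup.normalizer (X : Set G)) ⊔ Subgroup.centralizer (X : Set G) := by
  obtain ⟨P, hPM, hNP⟩ := Lib.Uniq.exists_sigma_sylow hp
  have key : ∀ g : G, X.map (MulAut.conj g).toMonoidHom ≤ M →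
      ∃ m ∈ M, ∃ c ∈ Subgroup.centralizer (X : Set G), g = m * c := by
    intro g hg
    obtain ⟨c, hc, hm⟩ := Lib.Uniq.conj_transitive hG (Lib.Uniq.narrowFitting hG) hM P hPM hNP hXp hX1
      (g := g⁻¹) (h := 1) (fun x hx => by simpa using hg (Subgroup.mem_map_of_mem _ hx))
      (fun x hx => by simpa using hXM hx)
    refine ⟨(c * g⁻¹)⁻¹, inv_mem (by simpa using hm), c, hc, by group⟩
  refine ⟨key, le_antisymm (fun g hg => ?_) (sup_le inf_le_right (Subgroup.centralizer_le_normalizer _))⟩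
  obtain ⟨m, hm, c, hc, rfl⟩ := key g (by
    rintro _ ⟨x, hx, rfl⟩
    exact hXM ((Subgroup.mem_normalizer_iff.mp hg x).mp hx))
  refine mul_mem (Subgroup.mem_sup_left ⟨hm, ?_⟩) (Subgroup.mem_sup_right hc)
  simpa using mul_mem hg (inv_mem (Subgroup.centralizer_le_normalizer _ hc))

end Cfsg.Agent.S1404
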