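import Cfsg.Statements.S1409
import Cfsg.Agent.Lib.Uniq.RankTwoPrimes
-- import your own Cfsg.Agent.* helpers here

set_option autoImplicit false
open Cfsg

namespace Cfsg.Agent.S1409

/-- Let G be a minimal simple group of odd order, M a maximal subgroup, p a prime not in σ(M), and X a subgroup of order p with N_G(X) ≤ M. Then M has p-rank exactly 2, p is not an ideal prime for G, and X is contained in some elementary abelian subgroup of G of order p ^ 2. -/
theorem result {G : Type*} [Group G] [Finite G] (hG : Cfsg.IsMinSimpleOddOrder G)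
    (M : Subgroup G) (hM : IsCoatom M) (p : ℕ) [Fact p.Prime] (hp : p ∉ Cfsg.sigma M) (X : Subgroup G) (hX : Nat.card X = p)
    (hNX : Subgroup.normalizer (X : Set G) ≤ M) :
    (Cfsg.PRankLE p 2 M ∧ ¬ Cfsg.PRankLE p 1 M) ∧ ¬ Cfsg.IsIdealPrime p G ∧
      ∃ A : Subgroup G, Cfsg.IsElementaryAbelian p A ∧ Nat.card A = p ^ 2 ∧ X ≤ A := by
  have hr2 : Cfsg.PRankLE p 2 M := by
    by_contra h
    exact hp (Lib.Uniq.alpha_subset_sigma hG hM ⟨Fact.out, h⟩)
  obtain ⟨A, hAM, hA, hAc, hXA⟩ := Lib.Uniq.exists_elem_two hG hM hp hX hNX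
  have hr1 : ¬ Cfsg.PRankLE p 1 M := Lib.Uniq.not_pRankLE_one hAM hA hAc.ge
  exact ⟨⟨hr2, hr1⟩, Lib.Uniq.not_idealPrime hG hM hr2 hr1, A, hA, hAc, hXA⟩

end Cfsg.Agent.S1409
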