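import Cfsg.Statements.S1439
import Cfsg.Agent.S1409
import Cfsg.Agent.S1418
import Cfsg.Agent.Lib.Uniq.Fitting
import Cfsg.Agent.Lib.Uniq.PLengthAux
import Cfsg.Agent.Lib.OddLocal.CyclicSub
-- import your own Cfsg.Agent.* helpers here

set_option autoImplicit false
open Cfsg

namespace Cfsg.Agent.S1439

/-- Let G be a minimal simple group of odd order and M a maximal subgroup, and let Y be the largest normal subgroup of F(M) involving no prime of σ(M). Then Y is cyclic, every prime divisor of its order lies in τ₂(M), and F(M) is generated by F(M_σ) and Y (a direct product, the orders being coprime). -/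
theorem result {G : Type*} [Group G] [Finite G] (hG : Cfsg.IsMinSimpleOddOrder G)
    (M : Subgroup G) (hM : IsCoatom M) :
    IsCyclic ↥(Cfsg.piCoreOf {q | q.Prime ∧ q ∉ Cfsg.sigma M} (Cfsg.fittingOf M)) ∧
      (∀ p : ℕ, p.Prime → p ∣ Nat.card ↥(Cfsg.piCoreOf {q | q.Prime ∧ q ∉ Cfsg.sigma M} (Cfsg.fittingOf M)) → p ∈ Cfsg.tau2 M) ∧
      Cfsg.fittingOf M = Cfsg.fittingOf (Cfsg.sigmaCore M) ⊔ Cfsg.piCoreOf {q | q.Prime ∧ q ∉ Cfsg.sigma M} (Cfsg.fittingOf M) := by
  have hσM : Cfsg.sigmaCore M ≤ M := Subgroup.map_subtype_le _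
  have hne : ∀ X : Subgroup G, X ≠ ⊥ → X ≤ M → M ≤ Subgroup.normalizer (X : Set G) →
      Subgroup.normalizer (X : Set G) = M := fun X h1 h2 h3 => Lib.Uniq.normalizer_eq_of_normal hG hM h1 h2 h3
  -- the `p`-part of `F(M)` for `p ∉ σ(M)`
  have key : ∀ p : ℕ, p.Prime → p ∉ Cfsg.sigma M →
      IsCyclic ↥(Lib.Components.MaxLocal.locCore p M) ∧
      (p ∣ Nat.card (Cfsg.fittingOf M) → p ∈ Cfsg.tau2 M) := by
    intro p hp hpσ
    haveI := Fact.mk hp
    set L := Lib.Components.MaxLocal.locCore p M with hLdef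
    have hLp : IsPGroup p L := Lib.Components.MaxLocal.locCore_isPGroup p M
    have hLM : L ≤ M := Lib.Components.MaxLocal.locCore_le p M
    have hLn : M ≤ Subgroup.normalizer (L : Set G) := Lib.Components.MaxLocal.le_normalizer_locCore p M
    have hr2 := Lib.Uniq.rank_two_of_not_sigma hG hM hp hpσ
    have hcyc : IsCyclic L := by
      by_contra hnc
      have hL1 : L ≠ ⊥ := fun e => hnc (e ▸ inferInstance)
      have hp2 : p ≠ 2 := Lib.Uniq.ne_two_of_pgroup hG hLp hL1
      obtain ⟨A, hAL, -, hA, hAc, -, -⟩ := Lib.Uniq.exists_normal_pair hp2 hLp hnc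
      obtain ⟨E, hE, hLE⟩ := Lib.Uniq.exists_compl_ge hG hM hpσ hLp hLM
      have hτ : p ∈ Cfsg.tau2 M :=
        ⟨hp, hpσ, hr2, Lib.Uniq.not_pRankLE_one (hAL.trans hLM) hA hAc.ge⟩
      obtain ⟨⟨-, hlines⟩, ⟨-, -, hN⟩, -⟩ :=
        S1418.result hG M hM E hE p hτ A ⟨hAL.trans hLE, hA, hAc⟩
      have hAn : M ≤ Subgroup.normalizer (A : Set G) := by
        intro m hm
        refine Lib.Coprime.mem_normalizer_of_conj_smul_eq
          (Subgroup.eq_of_le_of_card_ge ?_ (Lib.Coprime.card_conj_smul m A).ge)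
        rintro _ ⟨a, ha, rfl⟩
        have h1 : (MulAut.conj m) a ∈ L := (Subgroup.mem_normalizer_iff.mp (hLn hm) a).mp (hAL ha)
        have h2 : (MulAut.conj m) a ^ p = 1 := by rw [← map_pow, hA.2 a ha, map_one]
        rcases eq_or_ne ((MulAut.conj m) a) 1 with h3 | h3
        · exact h3 ▸ A.one_mem
        · exact hlines _ (Subgroup.zpowers_le.2 (hLE h1)) (by rw [Nat.card_zpowers, orderOf_eq_prime h2 h3])
            (Subgroup.mem_zpowers _)
      exact hN (hne A (fun e => hp.ne_one (by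
        rw [e, Subgroup.card_bot] at hAc; exact (Nat.pow_eq_one.mp hAc.symm).resolve_right two_ne_zero))
        (hAL.trans hLM) hAn).le
    refine ⟨hcyc, fun hd => ?_⟩
    have hL1 : L ≠ ⊥ := Lib.Uniq.locCore_ne_bot_of_dvd hp hd
    obtain ⟨x, hx⟩ := exists_prime_orderOf_dvd_card' (G := ↥L) p (by
      obtain ⟨k, hk⟩ := IsPGroup.iff_card.mp hLp
      have hk0 : k ≠ 0 := fun e => hL1 (Subgroup.eq_bot_of_card_eq L (by rw [hk, e, pow_zero]))
      rw [hk]; exact dvd_pow_self p hk0)
    have hX : Nat.card (Subgroup.zpowers (x : G)) = p := by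
      rw [Nat.card_zpowers, Subgroup.orderOf_coe, hx]
    haveI := hcyc
    have hXn : M ≤ Subgroup.normalizer (Subgroup.zpowers (x : G) : Set G) := fun m hm =>
      Lib.Coprime.mem_normalizer_of_conj_smul_eq (Lib.OddLocal.eq_of_card_eq_of_le_cyclic (W := L)
        (by rintro _ ⟨a, ha, rfl⟩; exact (Subgroup.mem_normalizer_iff.mp (hLn hm) a).mp (Subgroup.zpowers_le.2 x.2 ha))
        (Subgroup.zpowers_le.2 x.2) (Lib.Coprime.card_conj_smul _ _))
    obtain ⟨⟨-, hr1⟩, -⟩ := S1409.result hG M hM p hpσ (Subgroup.zpowers (x : G)) hX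
      (hne _ (fun e => hp.ne_one (by rw [← hX, e, Subgroup.card_bot])) (Subgroup.zpowers_le.2 (hLM x.2)) hXn).le
    exact ⟨hp, hpσ, hr2, hr1⟩
  set Y := Cfsg.piCoreOf {q | q.Prime ∧ q ∉ Cfsg.sigma M} (Cfsg.fittingOf M) with hYdef
  have hYF : Y ≤ Cfsg.fittingOf M := Lib.OddLocal.piCoreOf_le _ _
  have hYπ : ∀ p : ℕ, p.Prime → p ∣ Nat.card Y → p ∉ Cfsg.sigma M := fun p hp hd =>
    (Lib.OddLocal.piCoreOf_isPi _ _ p hp hd).2
  refine ⟨?_, fun p hp hd => (key p hp (hYπ p hp hd)).2 (hd.trans (Subgroup.card_dvd_of_le hYF)), ?_⟩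
  · haveI := Lib.Uniq.fittingOf_nilpotent M
    haveI : Group.IsNilpotent ↥Y :=
      Group.nilpotent_of_mulEquiv (Subgroup.subgroupOfEquivOfLe hYF)
    haveI : IsZGroup ↥Y := ⟨fun q hq S => by
      haveI := Fact.mk hq
      by_cases hd : q ∣ Nat.card Y
      · have hle : (S : Subgroup Y).map Y.subtype ≤ Lib.Components.MaxLocal.locCore q M :=
          Lib.Uniq.le_locCore (S.2.map _) ((Subgroup.map_subtype_le _).trans hYF)
        haveI := (key q hq (hYπ q hq hd)).1
        haveI : IsCyclic ↥((S : Subgroup Y).map Y.subtype) :=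
          isCyclic_of_injective (Subgroup.inclusion hle) (Subgroup.inclusion_injective hle)
        exact isCyclic_of_surjective _
          ((S : Subgroup Y).equivMapOfInjective Y.subtype Y.subtype_injective).symm.surjective
      · haveI : Subsingleton (S : Subgroup Y) := (Nat.card_eq_one_iff_unique.mp (by
          rw [Subgroup.card_eq_one]
          exact Subgroup.eq_bot_of_card_eq (S : Subgroup Y) (by
            rw [S.card_eq_multiplicity, Nat.factorization_eq_zero_of_not_dvd hd, pow_zero]))).1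
        exact isCyclic_of_subsingleton⟩
    infer_instance
  · refine le_antisymm (Lib.Uniq.fittingOf_le_of_locCore fun t ht => ?_) (sup_le ?_ hYF)
    · haveI := Fact.mk ht
      set L := Lib.Components.MaxLocal.locCore t M with hLdef
      by_cases hσ : t ∈ Cfsg.sigma M
      · have hLσ : L ≤ Cfsg.sigmaCore M := Lib.Uniq.pgroup_le_sigmaCore hG hM hσ
          (Lib.Components.MaxLocal.locCore_isPGroup t M) (Lib.Components.MaxLocal.locCore_le t M)
        refine le_sup_of_le_left ?_
        haveI : (L.subgroupOf (Cfsg.sigmaCore M)).Normal := (Subgroup.normal_subgroupOf_iff_le_normalizer hLσ).mpr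
          (hσM.trans (Lib.Components.MaxLocal.le_normalizer_locCore t M))
        rw [Cfsg.fittingOf, ← Subgroup.map_subgroupOf_eq_of_le hLσ]
        exact Subgroup.map_mono (Lib.Hall.le_fittingSubgroup
          ((Lib.Components.MaxLocal.locCore_isPGroup t M).comap_subtype (K := Cfsg.sigmaCore M)).isNilpotent)
      · refine le_sup_of_le_right (Lib.OddLocal.le_piCoreOf (Lib.Uniq.locCore_le_fittingOf t ht)
          ((Lib.Uniq.fittingOf_le M).trans (Lib.Components.MaxLocal.le_normalizer_locCore t M)) fun r hr hd => ?_)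
        exact (Lib.Uniq.isPGroup_ne_dvd (Lib.Components.MaxLocal.locCore_isPGroup t M) hr hd) ▸ ⟨ht, hσ⟩
    · set F := Cfsg.fittingOf (Cfsg.sigmaCore M) with hF
      have hFM : F ≤ M := (Lib.Uniq.fittingOf_le _).trans hσM
      haveI : (F.subgroupOf M).Normal := (Subgroup.normal_subgroupOf_iff_le_normalizer hFM).mpr
        ((Lib.OddLocal.le_normalizer_piCoreOf (Cfsg.sigma M) M).trans
          (Lib.Uniq.PL.normalizer_le_normalizer_map_char (Cfsg.sigmaCore M) (Cfsg.fittingSubgroup ↥(Cfsg.sigmaCore M))))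
      haveI := Lib.Uniq.fittingOf_nilpotent (Cfsg.sigmaCore M)
      rw [← Subgroup.map_subgroupOf_eq_of_le hFM, Cfsg.fittingOf]
      exact Subgroup.map_mono (Lib.Hall.le_fittingSubgroup
        (Group.nilpotent_of_mulEquiv (Subgroup.subgroupOfEquivOfLe hFM).symm))

end Cfsg.Agent.S1439
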