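import Cfsg.Statements.S1361
import Cfsg.Agent.Lib.OddLocal.UPart
-- import your own Cfsg.Agent.* helpers here

set_option autoImplicit false
open Cfsg

namespace Cfsg.Agent.S1361

/-- Let G be a minimal simple group of odd order and M a maximal subgroup with standard factorisation M = K U M_σ. If X is a nontrivial subgroup of U centralizing some non-identity element of M_σ, then C_G(X) ≤ M and M is the unique maximal subgroup of G containing C_G(X). -/
theorem result {G : Type*} [Group G] [Finite G] (hG : Cfsg.IsMinSimpleOddOrder G)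
    (M : Subgroup G) (hM : IsCoatom M) (K U : Subgroup G) (hKU : Cfsg.IsSigmaDecomposition M K U) (X : Subgroup G) (hXU : X ≤ U) (hX : X ≠ ⊥)
    (hXc : Cfsg.sigmaCore M ⊓ Subgroup.centralizer (X : Set G) ≠ ⊥) :
    Subgroup.centralizer (X : Set G) ≤ M ∧ ∀ L : Subgroup G, IsCoatom L → Subgroup.centralizer (X : Set G) ≤ L → L = M := by
  obtain ⟨y, hy, hy1⟩ := (Subgroup.bot_or_exists_ne_one _).resolve_left hXc
  have hXy : X ≤ Subgroup.centralizer ({y} : Set G) := fun x hx =>
    Subgroup.mem_centralizer_singleton_iff.mpr (Subgroup.mem_centralizer_iff.mp hy.2 x hx)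
  have hτ : ∀ x ∈ X, ∀ q : ℕ, q.Prime → q ∣ orderOf x → q ∈ Cfsg.tau2 M := fun x hx =>
    Lib.OddLocal.UPart.tau2_of_sigmaHat hG hM hKU (hXU hx) hy.1 hy1 (Subgroup.mem_centralizer_singleton_iff.mp (hXy hx))
  have hXM : X ≤ M := hXU.trans hKU.compl.1
  have hc : IsCyclic X := Lib.OddLocal.UPart.isCyclic_tau2 hG hM hXM (fun q hq hd => by
    haveI := Fact.mk hq
    obtain ⟨x, hx⟩ := exists_prime_orderOf_dvd_card' (G := ↥X) q hd
    exact hτ x x.2 q hq (by rw [Subgroup.orderOf_coe, hx])) hy.1 hy1 hXy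
  obtain ⟨x, hxX⟩ := (Subgroup.isCyclic_iff_exists_zpowers_eq_top X).mp hc
  have hxm : x ∈ X := hxX.le (Subgroup.mem_zpowers x)
  have hx1 : x ≠ 1 := fun e => hX (by rw [← hxX, e, Subgroup.zpowers_one_eq_bot])
  rw [← hxX, Lib.Uniq.centralizer_zpowers]
  exact Lib.Uniq.tau_two_element_unique hG hM (hXM hxm) hx1 (hτ x hxm)
    ⟨hXM hxm, y, hy.1, hy1, Subgroup.mem_centralizer_singleton_iff.mp (hXy hxm)⟩

end Cfsg.Agent.S1361
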