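import Cfsg.Statements.S1421
import Cfsg.Agent.Lib.Uniq.FrobeniusTypeMain
-- import your own Cfsg.Agent.* helpers here

set_option autoImplicit false
open Cfsg

namespace Cfsg.Agent.S1421

/-- Let G be a minimal simple group of odd order, M a maximal subgroup and E a complement to M_σ in M. Suppose that every non-identity element e of E all of whose order's prime divisors lie in τ₁(M) ∪ τ₃(M) has M_σ ∩ C_G(e) = 1. Then E has an abelian normal subgroup A₀ with E ∩ C_G(x) ≤ A₀ for every non-identity x ∈ M_σ, and E has a subgroup E₀ of the same exponent as E such that no non-identity element of E₀ centralizes a non-identity element of M_σ. -/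
theorem result {G : Type*} [Group G] [Finite G] (hG : Cfsg.IsMinSimpleOddOrder G)
    (M : Subgroup G) (hM : IsCoatom M) (E : Subgroup G) (hE : Cfsg.IsComplIn E (Cfsg.sigmaCore M) M)
    (h : ∀ e ∈ E, e ≠ 1 → (∀ p : ℕ, p.Prime → p ∣ orderOf e → p ∈ Cfsg.tau1 M ∪ Cfsg.tau3 M) →
      Cfsg.sigmaCore M ⊓ Subgroup.centralizer ({e} : Set G) = ⊥) :
    (∃ A₀ : Subgroup G, A₀ ≤ E ∧ E ≤ Subgroup.normalizer (A₀ : Set G) ∧ IsMulCommutative A₀ ∧
        ∀ x ∈ Cfsg.sigmaCore M, x ≠ 1 → E ⊓ Subgroup.centralizer ({x} : Set G) ≤ A₀) ∧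
      ∃ E₀ : Subgroup G, E₀ ≤ E ∧ Monoid.exponent E₀ = Monoid.exponent E ∧
        ∀ e ∈ E₀, e ≠ 1 → Cfsg.sigmaCore M ⊓ Subgroup.centralizer ({e} : Set G) = ⊥ := by
  classical
  have hparts : (∀ p ∈ Cfsg.tau2 M, ∀ u ∈ E, ∀ k : ℕ, u ^ p ^ k = 1 →
      Cfsg.sigmaCore M ⊓ Subgroup.centralizer ({u} : Set G) ≠ ⊥ → u ∈ (fittingSubgroup ↥E).map E.subtype) ∧
      ∃ E₀ : Subgroup G, E₀ ≤ E ∧ Monoid.exponent E₀ = Monoid.exponent E ∧
        ∀ y ∈ E₀, ∀ q : ℕ, q.Prime → q ∈ Cfsg.tau2 M → orderOf y = q →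
          Cfsg.sigmaCore M ⊓ Subgroup.centralizer ({y} : Set G) = ⊥ := by
    by_cases hτ : ∀ q ∈ Cfsg.tau2 M, ∀ S : Sylow q G, IsMulCommutative (S : Subgroup G)
    · obtain ⟨h1, h2⟩ := Lib.Uniq.regular_subgroup_abelian hG hM hE hτ h
      exact ⟨fun p hp u hu k hk _ => h1 p hp u hu k hk, h2⟩
    · push Not at hτ
      obtain ⟨p, hp, S, hS⟩ := hτ
      haveI := Fact.mk hp.1
      obtain ⟨honly, h1, h2⟩ := Lib.Uniq.regular_subgroup_nonabelian hG hM hE hp
        (Lib.Uniq.sylow_comm_dichotomy fun hall => hS (hall S))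
      refine ⟨fun q hq u hu k hk hne => ?_, h2⟩
      obtain rfl := honly q hq
      exact h1 u hu k hk hne
  obtain ⟨hF, E₀, hE₀, hexp, hgood⟩ := hparts
  refine ⟨⟨(fittingSubgroup ↥E).map E.subtype, Subgroup.map_subtype_le _,
    Subgroup.le_normalizer_map E.subtype |>.trans' ?_, Lib.Uniq.fitting_compl_comm hG hM hE, ?_⟩, E₀, hE₀, hexp, ?_⟩
  · intro e he
    haveI : (fittingSubgroup ↥E).Normal := Subgroup.sSup_normal _ fun _ hN => hN.1
    exact ⟨⟨e, he⟩, by rw [Subgroup.normalizer_eq_top]; exact Subgroup.mem_top _, rfl⟩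
  · rintro x hx hx1 e ⟨he, hex⟩
    refine Lib.Uniq.abelian_of_prime_pow_parts fun q k hq hqk => ?_
    haveI := Fact.mk hq
    rcases Nat.eq_zero_or_pos k with rfl | hk
    · rw [pow_zero, Nat.div_one, pow_orderOf_eq_one]; exact one_mem _
    set y := e ^ (orderOf e / q ^ k) with hy
    have hyE : y ∈ E := pow_mem he _
    have hyo : orderOf y = q ^ k := orderOf_pow_orderOf_div (orderOf_pos e).ne' hqk
    have hne := Lib.Uniq.inf_centralizer_ne_bot (e := y) hx hx1
      ((show Commute e x from Subgroup.mem_centralizer_singleton_iff.mp hex).pow_left _)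
    rcases Lib.Uniq.tau_cases hG hM hE hq ((dvd_pow_self q hk.ne').trans (hyo ▸ Subgroup.orderOf_dvd_natCard E hyE))
      with h2 | h13
    · exact hF q h2 y hyE k (hyo ▸ pow_orderOf_eq_one y) hne
    · refine absurd (h y hyE (fun e1 => ?_) fun r hr hd => ?_) hne
      · rw [e1, orderOf_one] at hyo
        exact hq.ne_one (Nat.eq_one_of_dvd_one (hyo ▸ dvd_pow_self q hk.ne'))
      · rw [hyo] at hd
        rwa [(Nat.prime_dvd_prime_iff_eq hr hq).mp (hr.dvd_of_dvd_pow hd)]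
  · intro e he he1
    by_contra hne
    obtain ⟨x, hx, hx1⟩ := (Cfsg.sigmaCore M ⊓ Subgroup.centralizer ({e} : Set G)).bot_or_exists_ne_one.resolve_left hne
    obtain ⟨q, hq, hqd⟩ := Nat.exists_prime_and_dvd (mt orderOf_eq_one_iff.mp he1)
    haveI := Fact.mk hq
    set y := e ^ (orderOf e / q) with hy
    have hyo : orderOf y = q := orderOf_pow_orderOf_div (orderOf_pos e).ne' hqd
    have hyne := Lib.Uniq.inf_centralizer_ne_bot (e := y) hx.1 hx1
      ((show Commute e x from (Subgroup.mem_centralizer_singleton_iff.mp hx.2).symm).pow_left _)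
    rcases Lib.Uniq.tau_cases hG hM hE hq (hyo ▸ Subgroup.orderOf_dvd_natCard E (pow_mem (hE₀ he) _)) with h2 | h13
    · exact hyne (hgood y (pow_mem he _) q hq h2 hyo)
    · refine hyne (h y (pow_mem (hE₀ he) _) (fun e1 => hq.ne_one (by rw [← hyo, e1, orderOf_one])) fun r hr hd => ?_)
      rw [hyo] at hd
      rwa [(Nat.prime_dvd_prime_iff_eq hr hq).mp hd]

end Cfsg.Agent.S1421
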