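import Cfsg.Statements.S1446
import Cfsg.Agent.Lib.OddLocal.CyclicFix
-- import your own Cfsg.Agent.* helpers here

set_option autoImplicit false
open Cfsg

namespace Cfsg.Agent.S1446

/-- Let X be a finite group with subgroups K, R, M such that: K and R are nontrivial, K ∩ R = 1, R normalizes K, no non-identity element of R centralizes a non-identity element of K, K ⊔ R is solvable of odd order; M is nilpotent and nontrivial, normalized by K and by R, with order coprime to that of K ⊔ R, M ∩ C(K) = 1, and M ∩ C(x) = M ∩ C(R) for all non-identity x ∈ R. Then R has prime order p, #M = #(M ∩ C(R)) ^ p, and if M ∩ C(R) is cyclic then [K, K] centralizes M. -/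
theorem result {X : Type*} [Group X] [Finite X] (K R M : Subgroup X) (hK1 : K ≠ ⊥) (hR1 : R ≠ ⊥) (hKR : K ⊓ R = ⊥)
    (hRK : R ≤ Subgroup.normalizer (K : Set X)) (hfrob : ∀ r ∈ R, r ≠ 1 → K ⊓ Subgroup.centralizer ({r} : Set X) = ⊥)
    (hsolv : Group.IsSolvable ↥(K ⊔ R)) (hodd : Odd (Nat.card ↥(K ⊔ R)))
    (hM1 : M ≠ ⊥) (hMn : Group.IsNilpotent M) (hKM : K ≤ Subgroup.normalizer (M : Set X)) (hRM : R ≤ Subgroup.normalizer (M : Set X))
    (hcop : (Nat.card ↥(K ⊔ R)).Coprime (Nat.card M)) (hCK : M ⊓ Subgroup.centralizer (K : Set X) = ⊥)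
    (hpr : ∀ x ∈ R, x ≠ 1 → M ⊓ Subgroup.centralizer ({x} : Set X) = M ⊓ Subgroup.centralizer (R : Set X)) :
    (Nat.card R).Prime ∧ Nat.card M = Nat.card ↥(M ⊓ Subgroup.centralizer (R : Set X)) ^ Nat.card R ∧
      (IsCyclic ↥(M ⊓ Subgroup.centralizer (R : Set X)) → ⁅K, K⁆ ≤ Subgroup.centralizer (M : Set X)) := by
  have hn : K ⊔ R ≤ Subgroup.normalizer (M : Set X) := sup_le hKM hRM
  have hK' : ∀ e ∈ R, ∀ u ∈ K, e * u * e⁻¹ ∈ K := fun e he u hu =>
    (Subgroup.mem_normalizer_iff.mp (hRK he) u).mp hu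
  have hfp : ∀ e ∈ R, e ≠ 1 → ∀ u ∈ K, e * u = u * e → u = 1 := fun e he he1 u hu h => by
    have h1 : u ∈ K ⊓ Subgroup.centralizer ({e} : Set X) :=
      ⟨hu, Subgroup.mem_centralizer_singleton_iff.mpr h.symm⟩
    rw [hfrob e he he1, Subgroup.mem_bot] at h1
    exact h1
  have hMs : Group.IsSolvable M := by haveI := hMn; infer_instance
  have hcard : ∀ R₀ : Subgroup X, R₀ ≤ R → R₀ ≠ ⊥ →
      Nat.card M = Nat.card ↥(M ⊓ Subgroup.centralizer (R₀ : Set X)) ^ Nat.card R₀ := by
    intro R₀ hle hne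
    have h := Cfsg.Agent.Lib.OddLocal.Wielandt.formula K R₀ hne (fun e he => hK' e (hle he))
      (fun e he => hfp e (hle he)) _ M rfl hMs ((sup_le_sup_left hle K).trans hn)
      ((hcop.coprime_dvd_left (Subgroup.card_dvd_of_le (sup_le_sup_left hle K))).symm)
    have hb : M ⊓ Subgroup.centralizer ((K ⊔ R₀ : Subgroup X) : Set X) = ⊥ :=
      eq_bot_iff.2 (hCK ▸ inf_le_inf_left M (Subgroup.centralizer_le (SetLike.coe_subset_coe.mpr le_sup_left)))
    rw [hb, hCK] at h
    simpa using h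
  have hcardR := hcard R le_rfl hR1
  refine ⟨?_, hcardR, fun hcyc => ?_⟩
  · have hR2 : Nat.card R ≠ 1 := fun h => hR1 (R.eq_bot_of_card_eq h)
    obtain ⟨q, hq, hqd⟩ := Nat.exists_prime_and_dvd hR2
    haveI := Fact.mk hq
    obtain ⟨r, hr⟩ := exists_prime_orderOf_dvd_card' q hqd
    have hro : orderOf (r : X) = q := by rw [Subgroup.orderOf_coe]; exact hr
    have hr1 : (r : X) ≠ 1 := fun h => hq.ne_one (by rw [← hro, h, orderOf_one])
    have h := hcard (Subgroup.zpowers (r : X)) (Subgroup.zpowers_le.2 r.2) (Subgroup.zpowers_ne_bot.2 hr1)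
    rw [Subgroup.zpowers_eq_closure, Subgroup.centralizer_closure, hpr _ r.2 hr1,
      ← Subgroup.zpowers_eq_closure, Nat.card_zpowers, hro, hcardR] at h
    have hgt : 1 < Nat.card ↥(M ⊓ Subgroup.centralizer (R : Set X)) := by
      refine lt_of_le_of_ne Nat.card_pos fun he => hM1 (M.eq_bot_of_card_eq ?_)
      rw [hcardR, ← he, one_pow]
    rw [Nat.pow_right_injective hgt h]
    exact hq
  · haveI := hMn
    have hF : Cfsg.fittingOf M = M := by
      rw [Cfsg.fittingOf, Cfsg.Agent.Lib.Hall.fittingSubgroup_eq_top, ← MonoidHom.range_eq_map, Subgroup.range_subtype]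
    rw [Subgroup.le_centralizer_iff, ← hF]
    refine Cfsg.Agent.Lib.Uniq.fittingOf_le_of_locCore fun t ht => ?_
    haveI := Fact.mk ht
    rw [Subgroup.le_centralizer_iff]
    have hle := Cfsg.Agent.Lib.Components.MaxLocal.locCore_le t M
    refine Cfsg.Agent.Lib.OddLocal.CyclicFix.commutator_le_centralizer_of_isPGroup K R _
      (Cfsg.Agent.Lib.Components.MaxLocal.locCore_isPGroup t M) hR1 hK' hfp
      (hn.trans (Cfsg.Agent.Lib.OddLocal.CyclicFix.normalizer_le_normalizer_locCore t M))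
      (hcop.coprime_dvd_right (Subgroup.card_dvd_of_le hle))
      (eq_bot_iff.2 (hCK ▸ inf_le_inf_right _ hle)) ?_
    haveI := hcyc
    exact Subgroup.isCyclic_of_le (inf_le_inf_right (Subgroup.centralizer (R : Set X)) hle)

end Cfsg.Agent.S1446
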