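import Cfsg.Statements.S1429
import Cfsg.Agent.S1417
import Cfsg.Agent.Lib.OddLocal.CyclicFix
import Cfsg.Agent.Lib.OddLocal.CyclicSub
import Cfsg.Agent.Lib.Uniq.EStruct
-- import your own Cfsg.Agent.* helpers here

set_option autoImplicit false
open Cfsg

namespace Cfsg.Agent.S1429

/-- Let G be a minimal simple group of odd order and M a maximal subgroup such that κ(M) is not the whole of the primes of M outside σ(M) (M is not of type P₁). Let p divide the order of M with p ∉ σ(M) ∪ κ(M), S a Sylow p-subgroup of M, and A the subgroup generated by the elements of S of order dividing p. Then A has order at most p ^ 2, M_σ ∩ C_G(A) = 1, and M_σ is nilpotent. -/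
theorem result {G : Type*} [Group G] [Finite G] (hG : Cfsg.IsMinSimpleOddOrder G)
    (M : Subgroup G) (hM : IsCoatom M) (hP1 : ¬ (∀ q : ℕ, q.Prime → q ∣ Nat.card M → q ∉ Cfsg.sigma M → q ∈ Cfsg.kappa M))
    (p : ℕ) [Fact p.Prime] (hpM : p ∣ Nat.card M) (hp : p ∉ Cfsg.sigma M ∪ Cfsg.kappa M) (S : Sylow p M) :
    Nat.card ↥(Subgroup.closure {x : G | x ∈ (S : Subgroup M).map M.subtype ∧ x ^ p = 1}) ≤ p ^ 2 ∧
      Cfsg.sigmaCore M ⊓ Subgroup.centralizer ((Subgroup.closure {x : G | x ∈ (S : Subgroup M).map M.subtype ∧ x ^ p = 1} : Subgroup G) : Set G) = ⊥ ∧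
      Group.IsNilpotent (Cfsg.sigmaCore M) := by
  haveI hpf : Fact p.Prime := inferInstance
  have hp' := hpf.out
  have hpσ : p ∉ Cfsg.sigma M := fun h => hp (Or.inl h)
  have hpκ : p ∉ Cfsg.kappa M := fun h => hp (Or.inr h)
  have hr2 := Cfsg.Agent.Lib.Uniq.rank_two_of_not_sigma hG hM hp' hpσ
  set Sg := (S : Subgroup M).map M.subtype with hSg
  have hSM : Sg ≤ M := Subgroup.map_subtype_le _
  set Ω := Subgroup.closure {x : G | x ∈ Sg ∧ x ^ p = 1} with hΩ
  have hΩS : Ω ≤ Sg := (Subgroup.closure_le _).mpr fun x hx => hx.1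
  by_cases hr1 : Cfsg.PRankLE p 1 M
  swap
  · have hτ : p ∈ Cfsg.tau2 M := ⟨hp', hpσ, hr2, hr1⟩
    obtain ⟨A₀, hA₀⟩ : ∃ A₀ : Subgroup M, IsMulCommutative A₀ ∧ (∀ a ∈ A₀, a ^ p = 1) ∧ ¬ Nat.card A₀ ≤ p ^ 1 := by
      simpa only [Cfsg.PRankLE, not_forall, exists_prop] using hr1
    have hA₀p : IsPGroup p A₀ := fun a => ⟨1, Subtype.ext (by simpa using hA₀.2.1 a a.2)⟩
    obtain ⟨j, hj⟩ := IsPGroup.iff_card.mp hA₀p
    have hj2 : j = 2 := by
      have h2 := hr2 A₀ hA₀.1 hA₀.2.1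
      have h3 := hA₀.2.2
      rw [hj] at h2 h3
      have := (Nat.pow_le_pow_iff_right hp'.one_lt).mp h2
      have := mt (Nat.pow_le_pow_iff_right hp'.one_lt).mpr h3
      omega
    obtain ⟨T, hT⟩ := hA₀p.exists_le_sylow
    obtain ⟨m, hm⟩ := MulAction.exists_smul_eq (↥M) T S
    set A := (A₀.map (MulAut.conj m).toMonoidHom).map M.subtype with hA
    have hAS : A ≤ Sg := Subgroup.map_mono (by rw [← hm]; exact Subgroup.map_mono hT)
    have hAe : Cfsg.IsElementaryAbelian p A := by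
      have h0 : Cfsg.IsElementaryAbelian p A₀ := ⟨hA₀.1, hA₀.2.1⟩
      exact Cfsg.Agent.Lib.Uniq.elem_map _ (Cfsg.Agent.Lib.FPF.isElementaryAbelian_map _ h0)
    have hAc : Nat.card A = p ^ 2 := by
      rw [hA, Subgroup.card_map_of_injective M.subtype_injective,
        Subgroup.card_map_of_injective (MulAut.conj m).injective, hj, hj2]
    obtain ⟨hnil, hP, -, hC, -, -⟩ := Cfsg.Agent.S1417.result hG M hM p hτ A ⟨hAS.trans hSM, hAe, hAc⟩
    obtain ⟨hiff, -⟩ := (hP S).2 hAS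
    have hΩA : Ω = A := le_antisymm ((Subgroup.closure_le _).mpr fun x hx => (hiff x hx.1).mp hx.2)
      fun a ha => Subgroup.subset_closure ⟨hAS ha, hAe.2 a ha⟩
    rw [hΩA]
    exact ⟨hAc.le, hC, hnil⟩
  -- rank one: the Sylow subgroup is cyclic
  have hcyc : IsCyclic Sg := by
    haveI : IsZGroup ↥Sg := Cfsg.Agent.Lib.Uniq.rank_one_zgroup hG hSM fun r hr hd => by
      obtain ⟨j, hj⟩ := IsPGroup.iff_card.mp (S.2.map M.subtype)
      rw [hSg, hj] at hd
      exact (Nat.prime_dvd_prime_iff_eq hr hp').mp (hr.dvd_of_dvd_pow hd) ▸ hr1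
    haveI : Group.IsNilpotent ↥Sg := (S.2.map M.subtype).isNilpotent
    infer_instance
  obtain ⟨P, hPno⟩ : ∃ P : Sylow p M, ¬ (IsCyclic P ∧ ∃ x : M, x ∈ (P : Subgroup M) ∧ x ≠ 1 ∧
      ∃ y ∈ Cfsg.sigmaCore M, y ≠ 1 ∧ (x : G) * y = y * x) := by
    by_contra hc
    push Not at hc
    exact hpκ ⟨hp', hpM, hpσ, hc⟩
  obtain ⟨m, hm⟩ := MulAction.exists_smul_eq (↥M) P S
  haveI := hcyc
  have hScyc : IsCyclic (S : Subgroup M) := isCyclic_of_surjective _
    ((S : Subgroup M).equivMapOfInjective M.subtype M.subtype_injective).symm.surjective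
  have hPcyc : IsCyclic P := by
    haveI := hScyc
    exact isCyclic_of_surjective _ (Sylow.equiv S P).surjective
  have hfree : ∀ x ∈ Sg, x ≠ 1 → ∀ y ∈ Cfsg.sigmaCore M, x * y = y * x → y = 1 := by
    rintro _ ⟨x, hx, rfl⟩ hx1 y hy hxy
    by_contra hy1
    apply hPno
    refine ⟨hPcyc, m⁻¹ * x * m, ?_, fun e => hx1 ?_, (m : G)⁻¹ * y * m, ?_, fun e => hy1 ?_, ?_⟩
    · rw [← hm, Sylow.coe_subgroup_smul, SetLike.mem_coe] at hx
      obtain ⟨z, hz, he⟩ := hx
      rw [← he]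
      simp only [MulDistribMulAction.toMonoidEnd_apply, MulDistribMulAction.toMonoidHom_apply]; simp [mul_assoc]; exact hz
    · have he : x = m * (m⁻¹ * x * m) * m⁻¹ := by group
      rw [he, e]; simp
    · have := (Subgroup.mem_normalizer_iff.mp
        (Cfsg.Agent.Lib.OddLocal.le_normalizer_piCoreOf (Cfsg.sigma M) M (M.inv_mem m.2)) y).mp hy
      simpa [Cfsg.sigmaCore, Cfsg.piCoreOf] using this
    · calc y = (m : G) * ((m : G)⁻¹ * y * m) * (m : G)⁻¹ := by group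
        _ = 1 := by rw [e]; group
    · simp only [Subgroup.coe_mul, Subgroup.coe_inv]
      calc (m : G)⁻¹ * x * m * ((m : G)⁻¹ * y * m) = (m : G)⁻¹ * ((x : G) * y) * m := by group
        _ = (m : G)⁻¹ * y * m * ((m : G)⁻¹ * x * m) := by
          rw [show (x : G) * y = y * x from hxy]; group
  obtain ⟨g, hg⟩ := exists_prime_orderOf_dvd_card' (G := Sg) p (by
    rw [hSg, Subgroup.card_map_of_injective M.subtype_injective]
    exact S.dvd_card_of_dvd_card hpM)
  have hgo : orderOf (g : G) = p := by rw [Subgroup.orderOf_coe, hg]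
  have hg1 : (g : G) ≠ 1 := fun e => hp'.ne_one (by rw [← hgo, e, orderOf_one])
  have hΩZ : Ω = Subgroup.zpowers (g : G) := by
    refine le_antisymm ((Subgroup.closure_le _).mpr fun x hx => ?_)
      (Subgroup.zpowers_le.2 (Subgroup.subset_closure ⟨g.2, hgo ▸ pow_orderOf_eq_one (g : G)⟩))
    rcases eq_or_ne x 1 with rfl | hx1
    · exact Subgroup.one_mem _
    · have h := Cfsg.Agent.Lib.OddLocal.eq_of_card_eq_of_le_cyclic (W := Sg) (Subgroup.zpowers_le.2 hx.1)
        (Subgroup.zpowers_le.2 g.2) (by rw [Nat.card_zpowers, Nat.card_zpowers, hgo, orderOf_eq_prime hx.2 hx1])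
      exact h ▸ Subgroup.mem_zpowers x
  refine ⟨?_, ?_, ?_⟩
  · rw [hΩZ, Nat.card_zpowers, hgo]; exact Nat.le_self_pow two_ne_zero p
  · rw [eq_bot_iff]
    intro y hy
    exact Subgroup.mem_bot.mpr (hfree _ g.2 hg1 y hy.1
      (Subgroup.mem_centralizer_iff.mp hy.2 _ (hΩZ ▸ Subgroup.mem_zpowers _)))
  · refine Cfsg.Agent.Lib.OddLocal.CyclicFix.isNilpotent_kernel (Cfsg.sigmaCore M) Ω ?_ ?_ ?_
    · rw [hΩZ]; exact Subgroup.zpowers_ne_bot.2 hg1
    · intro e he u hu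
      exact (Subgroup.mem_normalizer_iff.mp
        (Cfsg.Agent.Lib.OddLocal.le_normalizer_piCoreOf (Cfsg.sigma M) M (hSM (hΩS he))) u).mp hu
    · exact fun e he he1 u hu h => hfree e (hΩS he) he1 u hu h

end Cfsg.Agent.S1429
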