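import Cfsg.Statements.S1362
import Cfsg.Agent.Lib.OddLocal.UPart
-- import your own Cfsg.Agent.* helpers here

set_option autoImplicit false
open Cfsg

namespace Cfsg.Agent.S1362

/-- Let G be a minimal simple group of odd order and M a maximal subgroup with standard factorisation M = K U M_σ, and let A(M) be the set of elements of U M_σ centralizing some non-identity element of M_σ. Then A(M) with M_σ removed is a TI-subset of G. -/
theorem result {G : Type*} [Group G] [Finite G] (hG : Cfsg.IsMinSimpleOddOrder G)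
    (M : Subgroup G) (hM : IsCoatom M) (K U : Subgroup G) (hKU : Cfsg.IsSigmaDecomposition M K U) :
    Cfsg.IsTISubset (Cfsg.sigmaA M U \ (Cfsg.sigmaCore M : Set G)) := by
  have hσM : Cfsg.sigmaCore M ≤ M := Subgroup.map_subtype_le _
  have hUσ : U ⊔ Cfsg.sigmaCore M ≤ M := sup_le hKU.compl.1 hσM
  have hσn := Lib.OddLocal.le_normalizer_piCoreOf (Cfsg.sigma M) M
  have hconj : ∀ m ∈ M, ∀ a ∈ Cfsg.sigmaA M U \ (Cfsg.sigmaCore M : Set G),
      m * a * m⁻¹ ∈ Cfsg.sigmaA M U \ (Cfsg.sigmaCore M : Set G) := by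
    rintro m hm a ⟨⟨⟨haM, y, hy, hy1, hc⟩, ha⟩, haσ⟩
    refine ⟨⟨⟨M.mul_mem (M.mul_mem hm haM) (M.inv_mem hm), m * y * m⁻¹,
      (Subgroup.mem_normalizer_iff.mp (hσn hm) y).mp hy, fun e => hy1 (conj_eq_one_iff.mp e), ?_⟩,
      (Subgroup.mem_normalizer_iff.mp (Lib.OddLocal.UPart.normal_U_sigma hKU hm) a).mp ha⟩,
      fun h => haσ ((Subgroup.mem_normalizer_iff.mp (hσn hm) a).mpr h)⟩
    calc m * a * m⁻¹ * (m * y * m⁻¹) = m * (a * y) * m⁻¹ := by group
      _ = m * y * m⁻¹ * (m * a * m⁻¹) := by rw [hc]; group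
  intro g hg a ha hga
  exfalso
  apply hg
  have hgM : g ∈ M := by
    obtain ⟨⟨⟨haM, y, hy, hy1, hc⟩, haU⟩, haσ⟩ := ha
    obtain ⟨⟨⟨hgaM, y', hy', hy'1, hc'⟩, -⟩, -⟩ := hga
    obtain ⟨r, hr, hrd, hrσ⟩ : ∃ r : ℕ, r.Prime ∧ r ∣ orderOf a ∧ r ∉ Cfsg.sigma M := by
      by_contra hall
      push Not at hall
      exact haσ (Lib.Uniq.le_sigmaCore hG hM (Subgroup.zpowers_le.2 haM) (fun r hr hd => by
        rw [Nat.card_zpowers] at hd; exact hall r hr hd) (Subgroup.mem_zpowers a))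
    haveI := Fact.mk hr
    set x := a ^ (orderOf a / r) with hx
    have hxo : orderOf x = r := orderOf_pow_orderOf_div (orderOf_pos a).ne' hrd
    have hxM : x ∈ M := M.pow_mem haM _
    have hx1 : x ≠ 1 := fun e => hr.ne_one (by rw [← hxo, e, orderOf_one])
    have hxy : Commute x y := (show Commute a y from hc).pow_left _
    have hτr : r ∈ Cfsg.tau2 M := by
      refine (Lib.OddLocal.SigmaPrimeElem.kappa_or_tau2 hG hM hrσ hxM hxo hy hy1 hxy.eq).resolve_left ?_
      have h1 : r ∣ Nat.card U * Nat.card (Cfsg.sigmaCore M) := (hrd.trans ((U ⊔ Cfsg.sigmaCore M).orderOf_dvd_natCard haU)).trans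
        (Dvd.intro _ (Lib.Coprime.card_sup_mul_card_inf_of_le_normalizer (hKU.compl.1.trans hσn)))
      rcases (Nat.Prime.dvd_mul hr).mp h1 with h | h
      · exact (Lib.OddLocal.UPart.prime_U hG hM hKU hr h).2
      · exact absurd (Lib.OddLocal.piCoreOf_isPi (Cfsg.sigma M) M r hr h) hrσ
    have hτ : ∀ z : G, orderOf z = r → ∀ q : ℕ, q.Prime → q ∣ orderOf z → q ∈ Cfsg.tau2 M := fun z hz q hq hd => by
      rw [hz] at hd; rwa [(Nat.prime_dvd_prime_iff_eq hq hr).mp hd]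
    set x' := g * x * g⁻¹ with hx'
    have hx'o : orderOf x' = r := ((MulAut.conj g).orderOf_eq x).trans hxo
    have e : x' = (g * a * g⁻¹) ^ (orderOf a / r) := (conj_pow).symm
    have h1 := Lib.Uniq.tau_two_element_unique hG hM hxM hx1 (hτ x hxo) ⟨hxM, y, hy, hy1, hxy.eq⟩
    have hx'M : x' ∈ M := e ▸ M.pow_mem hgaM _
    have h2 := Lib.Uniq.tau_two_element_unique hG hM hx'M (fun h => hx1 (conj_eq_one_iff.mp h)) (hτ x' hx'o)
      ⟨hx'M, y', hy', hy'1, by rw [e]; exact ((show Commute (g * a * g⁻¹) y' from hc').pow_left _).eq⟩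
    have hle : Subgroup.centralizer ({x} : Set G) ≤ M.map (MulAut.conj g⁻¹).toMonoidHom := fun c hc => by
      refine ⟨g * c * g⁻¹, h2.1 (Subgroup.mem_centralizer_singleton_iff.mpr ?_), by simp [mul_assoc]⟩
      have hcx : c * x = x * c := Subgroup.mem_centralizer_singleton_iff.mp hc
      calc g * c * g⁻¹ * x' = g * (c * x) * g⁻¹ := by rw [hx']; group
        _ = x' * (g * c * g⁻¹) := by rw [hcx, hx']; group
    have hM' := h1.2 _ (Lib.Uniq.coatom_smul g⁻¹ hM) hle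
    have hn : g⁻¹ ∈ Subgroup.normalizer (M : Set G) := Lib.Coprime.mem_normalizer_of_conj_smul_eq hM'
    have hbot : M ≠ ⊥ := fun h => hx1 (Subgroup.mem_bot.mp (h ▸ hxM))
    rw [Lib.Uniq.normalizer_eq_of_normal hG hM hbot le_rfl Subgroup.le_normalizer] at hn
    exact inv_mem_iff.mp hn
  rw [Subgroup.mem_set_normalizer_iff]
  intro h
  exact ⟨hconj g hgM h, fun hh => by simpa [mul_assoc] using hconj g⁻¹ (M.inv_mem hgM) _ hh⟩

end Cfsg.Agent.S1362
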