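import Cfsg.Statements.S1367
import Cfsg.Agent.Lib.Uniq.KappaMain
-- import your own Cfsg.Agent.* helpers here

set_option autoImplicit false
open Cfsg

namespace Cfsg.Agent.S1367

/-- Let G be a minimal simple group of odd order, M a maximal subgroup with standard factorisation M = K U M_σ, K ≠ 1, K* = M_σ ∩ C_G(K), and M* a maximal subgroup with K = M*_σ ∩ C_G(K*) and K* a Hall κ(M*)-subgroup of M*. Then for subgroups X ≤ K* and Y ≤ K of prime order, M is the only maximal subgroup containing C_G(X) and M* the only one containing C_G(Y). -/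
theorem result {G : Type*} [Group G] [Finite G] (hG : Cfsg.IsMinSimpleOddOrder G)
    (M : Subgroup G) (hM : IsCoatom M) (K U : Subgroup G) (hKU : Cfsg.IsSigmaDecomposition M K U) (hK1 : K ≠ ⊥) (Mstar : Subgroup G) (hMstar : IsCoatom Mstar)
    (hKst : K = Cfsg.sigmaCore Mstar ⊓ Subgroup.centralizer ((Cfsg.sigmaCore M ⊓ Subgroup.centralizer (K : Set G)) : Set G))
    (hKstH : Cfsg.IsPiHallOf (Cfsg.kappa Mstar) (Cfsg.sigmaCore M ⊓ Subgroup.centralizer (K : Set G)) Mstar) :
    (∀ X : Subgroup G, X ≤ (Cfsg.sigmaCore M ⊓ Subgroup.centralizer (K : Set G)) → (Nat.card X).Prime →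
        Subgroup.centralizer (X : Set G) ≤ M ∧ ∀ L : Subgroup G, IsCoatom L → Subgroup.centralizer (X : Set G) ≤ L → L = M) ∧
      (∀ Y : Subgroup G, Y ≤ K → (Nat.card Y).Prime →
        Subgroup.centralizer (Y : Set G) ≤ Mstar ∧ ∀ L : Subgroup G, IsCoatom L → Subgroup.centralizer (Y : Set G) ≤ L → L = Mstar) := by
  have h : Lib.Uniq.IsKappaPair M K Mstar := ⟨hM, hKU.hall, hK1, hMstar, hKstH, hKst.symm⟩
  refine ⟨fun X hX hXp => ?_, fun Y hY hYp => ?_⟩
  · haveI := Fact.mk hXp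
    obtain ⟨x, hx, hx1⟩ := X.bot_or_exists_ne_one.resolve_left fun e => hXp.ne_one (by rw [e, Subgroup.card_bot])
    have hxo : orderOf x = Nat.card X := ((Nat.dvd_prime hXp).mp (Subgroup.orderOf_dvd_natCard X hx)).resolve_left
      fun e => hx1 (orderOf_eq_one_iff.mp e)
    have hXz : Subgroup.zpowers x = X := Subgroup.eq_of_le_of_card_ge (Subgroup.zpowers_le.mpr hx)
      (by rw [Nat.card_zpowers, hxo])
    obtain ⟨-, h1, h2⟩ := Lib.Uniq.star_line_unique hG hM hKU.hall hK1 (hX hx) (hxo ▸ hXp)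
    rw [← Lib.Uniq.centralizer_zpowers, hXz] at h1 h2
    exact ⟨h1, h2⟩
  · haveI := Fact.mk hYp
    obtain ⟨x, hx, hx1⟩ := Y.bot_or_exists_ne_one.resolve_left fun e => hYp.ne_one (by rw [e, Subgroup.card_bot])
    have hxo : orderOf x = Nat.card Y := ((Nat.dvd_prime hYp).mp (Subgroup.orderOf_dvd_natCard Y hx)).resolve_left
      fun e => hx1 (orderOf_eq_one_iff.mp e)
    have hYz : Subgroup.zpowers x = Y := Subgroup.eq_of_le_of_card_ge (Subgroup.zpowers_le.mpr hx)
      (by rw [Nat.card_zpowers, hxo])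
    obtain ⟨-, h1, h2⟩ := Lib.Uniq.star_line_unique hG hMstar hKstH (h.symm hG).K_ne (h.fixed.ge (hY hx)) (hxo ▸ hYp)
    rw [← Lib.Uniq.centralizer_zpowers, hYz] at h1 h2
    exact ⟨h1, h2⟩

end Cfsg.Agent.S1367
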