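import Cfsg.Statements.S1375
import Cfsg.Agent.Lib.OddLocal.KappaData
import Cfsg.Agent.Lib.OddLocal.Support
import Cfsg.Agent.Lib.OddLocal.UPart
-- import your own Cfsg.Agent.* helpers here

set_option autoImplicit false
open Cfsg

namespace Cfsg.Agent.S1375

/-- Let G be a minimal simple group of odd order, M a maximal subgroup, x ≠ 1 in M_σ with C_G(x) not contained in M. Then exactly one maximal subgroup N contains C_G(x); for it N_σ = N_F, C_{N_σ}(x) is a normal subgroup of C_G(x) complementing C_M(x), M ∩ N is a complement to N_σ in N, and for every standard factorisation N = K' U' N_σ one has U' ≠ 1 and x ∈ A(N) with x ∉ N_σ. -/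
theorem result {G : Type*} [Group G] [Finite G] (hG : Cfsg.IsMinSimpleOddOrder G)
    (M : Subgroup G) (hM : IsCoatom M) (x : G) (hx : x ∈ Cfsg.sigmaCore M) (hx1 : x ≠ 1) (hxM : ¬ Subgroup.centralizer ({x} : Set G) ≤ M) :
    ∃ N : Subgroup G, (IsCoatom N ∧ Subgroup.centralizer ({x} : Set G) ≤ N) ∧ (∀ L : Subgroup G, IsCoatom L → Subgroup.centralizer ({x} : Set G) ≤ L → L = N) ∧
        Cfsg.sigmaCore N = Cfsg.fittingHallOf N ∧
        Subgroup.centralizer ({x} : Set G) ≤ Subgroup.normalizer ((Cfsg.sigmaCore N ⊓ Subgroup.centralizer ({x} : Set G) : Subgroup G) : Set G) ∧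
        Cfsg.IsComplIn (M ⊓ Subgroup.centralizer ({x} : Set G)) (Cfsg.sigmaCore N ⊓ Subgroup.centralizer ({x} : Set G)) (Subgroup.centralizer ({x} : Set G)) ∧
        Cfsg.IsComplIn (M ⊓ N) (Cfsg.sigmaCore N) N ∧
        ∀ K' U' : Subgroup G, Cfsg.IsSigmaDecomposition N K' U' → U' ≠ ⊥ ∧ x ∈ Cfsg.sigmaA N U' ∧ x ∉ Cfsg.sigmaCore N := by
  obtain ⟨N, hN, huniq, -, hF, hn, hcompC, hcompN, hprime⟩ := Lib.OddLocal.Support.support_data hG
    (Lib.OddLocal.KappaData.disjoint_sigma hG) (Lib.OddLocal.KappaData.data hG) hM hx hx1 hxM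
  refine ⟨N, hN, huniq, hF, hn, hcompC, hcompN, fun K' U' hKU => ?_⟩
  have hxN : x ∈ N := hN.2 (Subgroup.mem_centralizer_singleton_iff.mpr rfl)
  have hxU : x ∈ U' ⊔ Cfsg.sigmaCore N := by
    haveI : ((U' ⊔ Cfsg.sigmaCore N).subgroupOf N).Normal :=
      (Subgroup.normal_subgroupOf_iff_le_normalizer (sup_le hKU.compl.1 (Subgroup.map_subtype_le _))).mpr
        (Lib.OddLocal.UPart.normal_U_sigma hKU)
    have h := Lib.Uniq.le_of_coprime_index (N := (U' ⊔ Cfsg.sigmaCore N).subgroupOf N)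
      (H := Subgroup.zpowers (⟨x, hxN⟩ : N)) (by
        rw [Nat.card_zpowers, Subgroup.orderOf_mk]
        refine Nat.coprime_of_dvd fun r hr h1 h2 => ?_
        haveI := Fact.mk hr
        obtain ⟨hτ, hκ⟩ := hprime r hr h1
        -- the index is a product of primes of `K'`
        have hle : N ≤ (U' ⊔ Cfsg.sigmaCore N) ⊔ K' := fun m hm => by
          obtain ⟨a, ha, b, hb, e⟩ := hKU.compl.2.2.2 m hm
          rw [e]
          exact mul_mem (Subgroup.mem_sup_left (Subgroup.mem_sup_left ha))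
            ((sup_le le_sup_right (le_sup_right.trans le_sup_left) :
              K' ⊔ Cfsg.sigmaCore N ≤ (U' ⊔ Cfsg.sigmaCore N) ⊔ K') hb)
        have heq : (U' ⊔ Cfsg.sigmaCore N) ⊔ K' = N :=
          le_antisymm (sup_le (sup_le hKU.compl.1 (Subgroup.map_subtype_le _)) hKU.hall.1) hle
        have hd : (U' ⊔ Cfsg.sigmaCore N).relIndex N ∣ Nat.card K' := by
          haveI := hKU.hall.1
          have h1 := Lib.Coprime.card_sup_mul_card_inf_of_le_normalizer
            (hKU.hall.1.trans (Lib.OddLocal.UPart.normal_U_sigma hKU))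
          rw [sup_comm, heq, ← Lib.Hall.card_mul_relIndex' (sup_le hKU.compl.1 (Subgroup.map_subtype_le _) :
            U' ⊔ Cfsg.sigmaCore N ≤ N), mul_comm (Nat.card K'), mul_assoc] at h1
          exact Dvd.intro _ (Nat.eq_of_mul_eq_mul_left Nat.card_pos h1)
        exact hκ (hKU.hall.2.1 r hr (h2.trans hd)))
    exact h (Subgroup.mem_zpowers _)
  have hxσ : x ∉ Cfsg.sigmaCore N := fun h => by
    obtain ⟨r, hr, hrd⟩ := Nat.exists_prime_and_dvd (fun e => hx1 (orderOf_eq_one_iff.mp e))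
    exact (hprime r hr hrd).1.2.1
      (Lib.OddLocal.piCoreOf_isPi (Cfsg.sigma N) N r hr (hrd.trans ((Cfsg.sigmaCore N).orderOf_dvd_natCard h)))
  refine ⟨fun e => hxσ (by rwa [e, bot_sup_eq] at hxU), ⟨⟨hxN, ?_⟩, hxU⟩, hxσ⟩
  obtain ⟨a, ha, ha1⟩ := (Subgroup.bot_or_exists_ne_one
    (Cfsg.sigmaCore N ⊓ Subgroup.centralizer ({x} : Set G))).resolve_left fun e => hxM fun c hc => by
      obtain ⟨u, hu, b, hb, he⟩ := hcompC.2.2.2 c hc
      rw [e, Subgroup.mem_bot] at hb
      rw [he, hb, mul_one]; exact hu.1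
  exact ⟨a, ha.1, ha1, (Subgroup.mem_centralizer_singleton_iff.mp ha.2).symm⟩

end Cfsg.Agent.S1375
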