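import Cfsg.Statements.S1380
import Cfsg.Agent.Lib.OddTypes.Char
import Cfsg.Agent.Lib.OddTypes.TypeIGap
-- import your own Cfsg.Agent.* helpers here

set_option autoImplicit false
open Cfsg

namespace Cfsg.Agent.S1380

/-- Let G be a minimal simple group of odd order and M a maximal subgroup with standard factorisation M = K U M_σ. Then M is of Type I if and only if K = 1 and U ≠ 1. -/
theorem result {G : Type*} [Group G] [Finite G] (hG : Cfsg.IsMinSimpleOddOrder G)
    (M : Subgroup G) (hM : IsCoatom M) (K U : Subgroup G) (hKU : Cfsg.IsSigmaDecomposition M K U) :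
    Cfsg.IsOfTypeI M ↔ (K = ⊥ ∧ U ≠ ⊥) := by
  refine ⟨Lib.OddTypes.typeI_imp hG hM hKU, fun h => ?_⟩
  obtain ⟨hK, hU⟩ := h
  refine ⟨Lib.OddTypes.typeF_of hG hM hKU hK hU, Lib.OddTypes.Gap.trichotomy_full hG hM ?_⟩
  rw [Set.eq_empty_iff_forall_notMem]
  intro r hr
  haveI := Fact.mk hr.1
  refine hKU.hall.2.2 r hr.1 hr ?_
  rw [hK]
  simpa [Subgroup.relIndex_bot_left] using hr.2.1

end Cfsg.Agent.S1380
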