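import Cfsg.Statements.S1391
import Cfsg.Agent.Lib.OddTypes.SupportSets
-- import your own Cfsg.Agent.* helpers here

set_option autoImplicit false
open Cfsg

namespace Cfsg.Agent.S1391

/-- Let G be a minimal simple group of odd order, M a maximal subgroup, X = A(M) or A₀(M), and D the set of x ∈ X with C_G(x) not contained in M. Then two elements of X conjugate in G are conjugate in M; D ⊆ A₁(M) and for x ∈ D the centralizer C_G(x) lies in exactly one maximal subgroup; and for x ∈ D and the maximal subgroup L containing C_G(x): M ∩ L complements L_F in L, C_M(x) complements the normal subgroup C_{L_F}(x) of C_G(x), the order of L_F is coprime to that of C_M(y) for every y ∈ X, x ∈ A(L) but x ∉ A₁(L), L is of Type I or II, and if L is of Type II then M is a Frobenius group with kernel M_F. -/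
theorem result {G : Type*} [Group G] [Finite G] (hG : Cfsg.IsMinSimpleOddOrder G)
    (M : Subgroup G) (hM : IsCoatom M) (X : Set G) (hX : X = Cfsg.typeA M ∨ X = Cfsg.typeA0 M) :
    (∀ x ∈ X, ∀ g : G, g * x * g⁻¹ ∈ X → ∃ m ∈ M, m * x * m⁻¹ = g * x * g⁻¹) ∧
      (∀ x ∈ X, ¬ Subgroup.centralizer ({x} : Set G) ≤ M → x ∈ Cfsg.typeA1 M ∧ ∃! L : Subgroup G, IsCoatom L ∧ Subgroup.centralizer ({x} : Set G) ≤ L) ∧
      ∀ x ∈ X, ¬ Subgroup.centralizer ({x} : Set G) ≤ M → ∀ L : Subgroup G, IsCoatom L → Subgroup.centralizer ({x} : Set G) ≤ L →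
        Cfsg.IsComplIn (Cfsg.fittingHallOf L) (M ⊓ L) L ∧
        Subgroup.centralizer ({x} : Set G) ≤ Subgroup.normalizer ((Cfsg.fittingHallOf L ⊓ Subgroup.centralizer ({x} : Set G) : Subgroup G) : Set G) ∧
        Cfsg.IsComplIn (Cfsg.fittingHallOf L ⊓ Subgroup.centralizer ({x} : Set G)) (M ⊓ Subgroup.centralizer ({x} : Set G)) (Subgroup.centralizer ({x} : Set G)) ∧
        (∀ y ∈ X, (Nat.card (Cfsg.fittingHallOf L)).Coprime (Nat.card ↥(M ⊓ Subgroup.centralizer ({y} : Set G)))) ∧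
        (x ∈ Cfsg.typeA L ∧ x ∉ Cfsg.typeA1 L) ∧
        (Cfsg.IsOfTypeI L ∨ Cfsg.IsOfTypeII L) ∧
        (Cfsg.IsOfTypeII L → ∃ E : Subgroup ↥M, Cfsg.IsFrobeniusComplement E ∧ Cfsg.frobeniusKernel E = ((Cfsg.fittingHall ↥M : Subgroup ↥M) : Set ↥M)) := by
  obtain ⟨K, U, hKU⟩ := Lib.OddTypes.exists_KU hG hM
  have hsub : ∀ x ∈ X, x ∈ (Cfsg.sigmaA M U \ {1}) ∪ Lib.OddTypes.zSet M K := by
    intro x hx
    rcases hX with h | h <;> rw [h] at hx
    · exact Or.inl (Lib.OddTypes.typeA_eq hG hM hKU ▸ hx)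
    · exact Lib.OddTypes.typeA0_subset hG hM hKU hx
  refine ⟨fun x hx g hg => Lib.OddTypes.fusion hG hM hKU (hsub x hx) (hsub _ hg), fun x hx hout => ?_,
    fun x hx hout L hL hxL => ?_⟩
  · have hσ := Lib.OddTypes.mem_core_of_out hG hM hKU (hsub x hx) hout
    have hx1 : x ≠ 1 := fun e => hout (by
      rcases hsub x hx with h | h
      · exact absurd e h.2
      · obtain ⟨r, hr, hrd, -⟩ := Lib.OddTypes.zSet_prime hG hM hKU h
        rw [e, orderOf_one] at hrd
        exact absurd hrd hr.not_dvd_one)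
    obtain ⟨N, hN, huniq, -⟩ := S1375.result hG M hM x hσ hx1 hout
    refine ⟨⟨?_, hx1⟩, N, hN, fun L hL => huniq L hL.1 hL.2⟩
    show x ∈ (Cfsg.typeCore M : Set G)
    rw [Lib.OddTypes.typeCore_eq hG hM]
    exact hσ
  · obtain ⟨h1, h2, h3, h4, h5, h6, h7⟩ := Lib.OddTypes.out_data hG hM hKU (hsub x hx) hout hL hxL
    exact ⟨h1, h2, h3, fun y hy => h4 y (hsub y hy), h5, h6, h7⟩

end Cfsg.Agent.S1391
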