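import Cfsg.Statements.S1355
import Cfsg.Agent.Lib.OddLocal.Fifteen
-- import your own Cfsg.Agent.* helpers here

set_option autoImplicit false
open Cfsg

namespace Cfsg.Agent.S1355

/-- Let G be a minimal simple group of odd order and M a maximal subgroup. Then the largest normal nilpotent Hall subgroup M_F of M is nontrivial and contained in M_σ, M_σ is contained in the derived subgroup M', M' is proper in M, and the image of M' in M/M_F is nilpotent. -/
theorem result {G : Type*} [Group G] [Finite G] (hG : Cfsg.IsMinSimpleOddOrder G)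
    (M : Subgroup G) (hM : IsCoatom M) :
    Cfsg.fittingHallOf M ≠ ⊥ ∧ Cfsg.fittingHallOf M ≤ Cfsg.sigmaCore M ∧ Cfsg.sigmaCore M ≤ ⁅M, M⁆ ∧ ⁅M, M⁆ < M ∧
      Group.IsNilpotent ↥((commutator ↥M).map (QuotientGroup.mk' (Cfsg.fittingHall ↥M))) := by
  exact Lib.OddLocal.Fifteen.chain hG hM

end Cfsg.Agent.S1355
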