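import Cfsg.Statements.S1431
import Cfsg.Agent.Lib.OddLocal.KappaStarProps
import Cfsg.Agent.Lib.Uniq.KappaStructure
-- import your own Cfsg.Agent.* helpers here

set_option autoImplicit false
open Cfsg

namespace Cfsg.Agent.S1431

/-- Let G be a minimal simple group of odd order, M a maximal subgroup, K ≠ 1 a Hall κ(M)-subgroup of M and K* = M_σ ∩ C_G(K). Then K* ∩ gMg⁻¹ = 1 for g ∉ M; K ∩ gKg⁻¹ = 1 for g ∈ M outside K K*; for every prime p dividing the order of K* and every Sylow p-subgroup S of M_σ, M is the unique maximal subgroup containing S, and S is not contained in K*; and every subgroup Y of G whose prime divisors lie in σ(M) and with Y ∩ K* ≠ 1 is contained in M_σ. -/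
theorem result {G : Type*} [Group G] [Finite G] (hG : Cfsg.IsMinSimpleOddOrder G)
    (M : Subgroup G) (hM : IsCoatom M) (K : Subgroup G) (hK : Cfsg.IsPiHallOf (Cfsg.kappa M) K M) (hK1 : K ≠ ⊥) :
    (∀ g : G, g ∉ M → (Cfsg.sigmaCore M ⊓ Subgroup.centralizer (K : Set G)) ⊓ M.map (MulAut.conj g).toMonoidHom = ⊥) ∧
      (∀ g ∈ M, g ∉ K ⊔ (Cfsg.sigmaCore M ⊓ Subgroup.centralizer (K : Set G)) → K ⊓ K.map (MulAut.conj g).toMonoidHom = ⊥) ∧
      (∀ (p : ℕ), p.Prime → p ∣ Nat.card ↥(Cfsg.sigmaCore M ⊓ Subgroup.centralizer (K : Set G)) → ∀ S : Sylow p ↥(Cfsg.sigmaCore M),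
        Cfsg.InUniqueMaximal ((S : Subgroup ↥(Cfsg.sigmaCore M)).map (Cfsg.sigmaCore M).subtype) ∧
        (S : Subgroup ↥(Cfsg.sigmaCore M)).map (Cfsg.sigmaCore M).subtype ≤ M ∧
        ¬ (S : Subgroup ↥(Cfsg.sigmaCore M)).map (Cfsg.sigmaCore M).subtype ≤ (Cfsg.sigmaCore M ⊓ Subgroup.centralizer (K : Set G))) ∧
      ∀ Y : Subgroup G, (∀ p : ℕ, p.Prime → p ∣ Nat.card Y → p ∈ Cfsg.sigma M) → Y ⊓ (Cfsg.sigmaCore M ⊓ Subgroup.centralizer (K : Set G)) ≠ ⊥ → Y ≤ Cfsg.sigmaCore M := by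
  obtain ⟨-, hU, hX⟩ := Lib.Uniq.kappa_structure hG hM hK hK1
  exact Lib.OddLocal.KappaStar.star_props hG hM hK hK1 hU hX

end Cfsg.Agent.S1431
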