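import Cfsg.Statements.S1364
import Cfsg.Agent.Lib.Uniq.StarFitting
-- import your own Cfsg.Agent.* helpers here

set_option autoImplicit false
open Cfsg

namespace Cfsg.Agent.S1364

/-- Let G be a minimal simple group of odd order, M a maximal subgroup with standard factorisation M = K U M_σ and K ≠ 1, and put K* = M_σ ∩ C_G(K). Then K* is cyclic, nontrivial and contained in M_F, while M_F itself is not cyclic. -/
theorem result {G : Type*} [Group G] [Finite G] (hG : Cfsg.IsMinSimpleOddOrder G)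
    (M : Subgroup G) (hM : IsCoatom M) (K U : Subgroup G) (hKU : Cfsg.IsSigmaDecomposition M K U) (hK1 : K ≠ ⊥) :
    IsCyclic ↥(Cfsg.sigmaCore M ⊓ Subgroup.centralizer (K : Set G)) ∧ (Cfsg.sigmaCore M ⊓ Subgroup.centralizer (K : Set G)) ≠ ⊥ ∧ (Cfsg.sigmaCore M ⊓ Subgroup.centralizer (K : Set G)) ≤ Cfsg.fittingHallOf M ∧ ¬ IsCyclic (Cfsg.fittingHallOf M) := by
  exact Lib.Uniq.star_cyclic_fitting hG hM hKU hK1

end Cfsg.Agent.S1364
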