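import Cfsg.Statements.S1359
import Cfsg.Agent.Lib.OddLocal.UPart
-- import your own Cfsg.Agent.* helpers here

set_option autoImplicit false
open Cfsg

namespace Cfsg.Agent.S1359

/-- Let G be a minimal simple group of odd order and M a maximal subgroup with standard factorisation M = K U M_σ. Then the subgroup generated by those elements of U which centralize some non-identity element of M_σ is abelian. -/
theorem result {G : Type*} [Group G] [Finite G] (hG : Cfsg.IsMinSimpleOddOrder G)
    (M : Subgroup G) (hM : IsCoatom M) (K U : Subgroup G) (hKU : Cfsg.IsSigmaDecomposition M K U) :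
    IsMulCommutative (Subgroup.closure ((U : Set G) ∩ Cfsg.sigmaHat M)) := by
  obtain ⟨E₀, hE₀⟩ := Lib.OddLocal.UPart.exists_compl hG hM
  obtain ⟨E, hE, hUE⟩ := Lib.OddLocal.UPart.exists_compl_ge_of_sigma' hG hM hE₀ hKU.compl.1
    fun r hr hd => (Lib.OddLocal.UPart.prime_U hG hM hKU hr hd).1
  have hle : Subgroup.closure ((U : Set G) ∩ Cfsg.sigmaHat M) ≤ (Cfsg.fittingSubgroup ↥E).map E.subtype := by
    rw [Subgroup.closure_le]
    rintro u ⟨hu, -, y, hy, hy1, hc⟩
    exact Lib.OddLocal.UPart.mem_fitting_of_tau2 hG hM hE (hUE hu)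
      (Lib.OddLocal.UPart.tau2_of_sigmaHat hG hM hKU hu hy hy1 hc) hy hy1 hc
  haveI := Lib.Uniq.fitting_compl_comm hG hM hE
  exact ⟨⟨fun a b => Subtype.ext (setLike_mul_comm (hle a.2) (hle b.2))⟩⟩

end Cfsg.Agent.S1359
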