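import Cfsg.Statements.S1363
import Cfsg.Agent.Lib.Uniq.TypeP2Main
-- import your own Cfsg.Agent.* helpers here

set_option autoImplicit false
open Cfsg

namespace Cfsg.Agent.S1363

/-- Let G be a minimal simple group of odd order and M a maximal subgroup with standard factorisation M = K U M_σ and K ≠ 1. Then U is abelian and the normalizer of U in G is not contained in M. -/
theorem result {G : Type*} [Group G] [Finite G] (hG : Cfsg.IsMinSimpleOddOrder G)
    (M : Subgroup G) (hM : IsCoatom M) (K U : Subgroup G) (hKU : Cfsg.IsSigmaDecomposition M K U) (hK1 : K ≠ ⊥) :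
    IsMulCommutative U ∧ ¬ Subgroup.normalizer (U : Set G) ≤ M := by
  open Subgroup Lib.Uniq in
  refine ⟨(Lib.OddLocal.Decomposition.abelian_free hG hM hKU hK1).1, fun hle => ?_⟩
  rcases eq_or_ne U ⊥ with rfl | hU1
  · exact hM.1 (top_le_iff.mp (normalizer_eq_top (H := (⊥ : Subgroup G)) ▸ hle))
  obtain ⟨N, hN⟩ := exists_pair hG hM hKU.hall hK1
  obtain ⟨r, hr, hrU⟩ := Nat.exists_prime_and_dvd (mt card_eq_one.mp hU1)
  haveI := Fact.mk hr
  obtain ⟨R⟩ : Nonempty (Sylow r U) := inferInstance
  have hR1 : (R : Subgroup U).map U.subtype ≠ ⊥ := fun e => by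
    rw [map_eq_bot_iff_of_injective _ U.subtype_injective] at e
    exact hr.ne_one (Nat.dvd_one.mp (card_bot (G := U) ▸ e ▸ R.dvd_card_of_dvd_card hrU))
  obtain ⟨H, hH, hNH⟩ := (eq_top_or_exists_le_coatom
    (normalizer (((R : Subgroup U).map U.subtype : Subgroup G) : Set G))).resolve_left fun e => by
      rw [normalizer_eq_top_iff] at e
      rcases hG.2.1.eq_bot_or_eq_top_of_normal _ e with h | h
      · exact hR1 h
      · exact hM.1 (top_le_iff.mp (h ▸ (map_subtype_le _).trans hKU.compl.1))
  exact (type_p2_main hG hM hKU hK1 hU1 hN hrU R hH hNH).2.2.2.1 (inf_le_right.trans hle)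

end Cfsg.Agent.S1363
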