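import Cfsg.Statements.S1372
import Cfsg.Agent.Lib.Uniq.TypeP2Fitting
-- import your own Cfsg.Agent.* helpers here

set_option autoImplicit false
open Cfsg

namespace Cfsg.Agent.S1372

/-- Let G be a minimal simple group of odd order and M a maximal subgroup with standard factorisation M = K U M_σ, K ≠ 1 and U ≠ 1. Then K has prime order, and the Fitting subgroup F(M) contains M_σ and is a TI-subset of G. -/
theorem result {G : Type*} [Group G] [Finite G] (hG : Cfsg.IsMinSimpleOddOrder G)
    (M : Subgroup G) (hM : IsCoatom M) (K U : Subgroup G) (hKU : Cfsg.IsSigmaDecomposition M K U) (hK1 : K ≠ ⊥) (hU1 : U ≠ ⊥) :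
    (Nat.card K).Prime ∧ Cfsg.IsTISubset (Cfsg.fittingOf M : Set G) ∧ Cfsg.sigmaCore M ≤ Cfsg.fittingOf M := by
  exact Lib.Uniq.type_p2_fitting hG hM hKU hK1 hU1

end Cfsg.Agent.S1372
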