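import Cfsg.Statements.S0301
import Cfsg.Agent.Lib.Classical.ExcIso.Four
import Cfsg.Agent.Lib.Classical.QuadOmega.Disc
import Cfsg.Agent.Lib.Classical.SympSimple
import Cfsg.Agent.Lib.Classical.SympOrder

open Matrix QuadraticMap Cfsg.Agent.Lib.Classical.Quad Cfsg.Agent.Lib.Classical.QuadOmega Cfsg.Agent.Lib.Classical.ExcIso

set_option autoImplicit false
open Cfsg

namespace Cfsg.Agent.S0301

attribute [local instance] _root_.Classical.propDecidable

/-- PΩ_5(q) is isomorphic to PSp_4(q) for q odd. -/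
theorem result {F : Type*} [Field F] [Fintype F] (hodd : Odd (Fintype.card F)) : Nonempty (Cfsg.POmega F (Cfsg.quadFormOdd 2 F) ≃* Cfsg.PSp 2 F) := by
  have h2 : (2 : F) ≠ 0 := fun h => by
    have := CharP.ringChar_of_prime_eq_zero Nat.prime_two (R := F) (by exact_mod_cast h)
    have := (FiniteField.even_card_iff_char_two).1 this
    rw [Nat.odd_iff] at hodd
    omega
  let j : Fin 6 → F := ![0, -1, 0, 0, -1, 0]
  let toX : (Unit ⊕ (Fin 2 ⊕ Fin 2) → F) →ₗ[F] (Fin 6 → F) :=
    { toFun := fun v => ![v (.inr (.inl 0)), v (.inl ()), v (.inr (.inl 1)), v (.inr (.inr 1)),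
        -v (.inl ()), v (.inr (.inr 0))]
      map_add' := fun x y => by ext i; fin_cases i <;> simp [add_comm]
      map_smul' := fun c x => by ext i; fin_cases i <;> simp }
  let fromX : (Fin 6 → F) →ₗ[F] (Unit ⊕ (Fin 2 ⊕ Fin 2) → F) :=
    { toFun := fun x => Sum.elim (fun _ => x 1) (Sum.elim ![x 0, x 2] ![x 5, x 3])
      map_add' := fun x y => by ext (u | i | i) <;> first | rfl | (fin_cases i <;> simp)
      map_smul' := fun c x => by ext (u | i | i) <;> first | rfl | (fin_cases i <;> simp) }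
  have h1 : ∀ x, x 1 + x 4 = 0 → toX (fromX x) = x := fun x hx => by
    ext i; fin_cases i <;> simp [toX, fromX]
    linear_combination -hx
  have h2' : ∀ v, fromX (toX v) = v := fun v => by
    ext (u | i | i)
    · rfl
    · fin_cases i <;> simp [toX, fromX]
    · fin_cases i <;> simp [toX, fromX]
  have hpf : ∀ v, Cfsg.quadFormOdd 2 F v = pf (toX v) := fun v => by
    simp [toX, pf, Cfsg.quadFormOdd, Fin.sum_univ_two]
    ring
  let ρ : Matrix.symplecticGroup (Fin 2) F →* Matrix (Fin 4) (Fin 4) F :=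
    { toFun := fun g => Matrix.reindexAlgEquiv F F (finSumFinEquiv (m := 2) (n := 2)) g.1
      map_one' := by simp
      map_mul' := fun g h => map_mul (Matrix.reindexAlgEquiv F F _) g.1 h.1 }
  have hJ : Matrix.reindexAlgEquiv F F (finSumFinEquiv (m := 2) (n := 2)) (Matrix.J (Fin 2) F) =
      alt4 j := by
    ext a b
    obtain ⟨a, rfl⟩ := (finSumFinEquiv (m := 2) (n := 2)).surjective a
    obtain ⟨b, rfl⟩ := (finSumFinEquiv (m := 2) (n := 2)).surjective b
    have i0 : finSumFinEquiv (Sum.inl (0 : Fin 2) : Fin 2 ⊕ Fin 2) = (0 : Fin 4) := rfl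
    have i1 : finSumFinEquiv (Sum.inl (1 : Fin 2) : Fin 2 ⊕ Fin 2) = (1 : Fin 4) := rfl
    have i2 : finSumFinEquiv (Sum.inr (0 : Fin 2) : Fin 2 ⊕ Fin 2) = (2 : Fin 4) := rfl
    have i3 : finSumFinEquiv (Sum.inr (1 : Fin 2) : Fin 2 ⊕ Fin 2) = (3 : Fin 4) := rfl
    rw [Matrix.coe_reindexAlgEquiv, Matrix.reindex_apply, Matrix.submatrix_apply,
      Equiv.symm_apply_apply, Equiv.symm_apply_apply]
    rcases a with a | a <;> rcases b with b | b <;> fin_cases a <;> fin_cases b <;>
      dsimp only [Fin.zero_eta, Fin.mk_one] <;> simp only [i0, i1, i2, i3] <;>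
      simp [Matrix.J, alt4, j]
  have hρJ : ∀ g, act (ρ g) j = j := fun g => by
    refine alt4_injective ?_
    rw [alt4_act, ← hJ]
    conv_rhs => rw [← SymplecticGroup.mem_iff.1 g.2, map_mul, map_mul]
    congr 1
  have hdet : ∀ g, (ρ g).det = 1 := fun g => by
    have h := pf_act (ρ g) j
    rw [hρJ] at h
    simp [pf, j] at h
    linear_combination -h
  have hpol : ∀ g x, x 1 + x 4 = 0 → act (ρ g) x 1 + act (ρ g) x 4 = 0 := fun g x hx => by
    have e : ∀ z : Fin 6 → F, z 1 + z 4 = pf (z + j) - pf z - pf j := fun z => by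
      simp [pf, j]; ring
    have hadd : act (ρ g) (x + j) = act (ρ g) x + j := by
      rw [show act (ρ g) (x + j) = actLin (ρ g) (x + j) from rfl, map_add]
      exact congrArg (act (ρ g) x + ·) (hρJ g)
    rw [e, ← hadd, pf_act, pf_act, hdet, one_mul, one_mul, ← e, hx]
  let R : Matrix.symplecticGroup (Fin 2) F →
      (Unit ⊕ (Fin 2 ⊕ Fin 2) → F) →ₗ[F] (Unit ⊕ (Fin 2 ⊕ Fin 2) → F) :=
    fun g => fromX ∘ₗ actLin (ρ g) ∘ₗ toX
  have htX : ∀ v, toX v 1 + toX v 4 = 0 := fun v => by simp [toX]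
  let ψ : Matrix.symplecticGroup (Fin 2) F →* Cfsg.isometryGroup F (Cfsg.quadFormOdd 2 F) :=
    repHom (Cfsg.quadFormOdd 2 F) R
      (fun g h x => by
        simp only [R, LinearMap.comp_apply, show ∀ (M : Matrix (Fin 4) (Fin 4) F) z, actLin M z = act M z from fun _ _ => rfl]
        rw [h1 _ (hpol h _ (htX x))]
        simp [act_mul])
      (fun x => by simp [R, actLin, act_one, h2'])
      (fun g x => by
        rw [hpf, hpf]
        simp only [R, LinearMap.comp_apply, show ∀ (M : Matrix (Fin 4) (Fin 4) F) z, actLin M z = act M z from fun _ _ => rfl]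
        rw [h1 _ (hpol g _ (htX x))]
        simp [pf_act, hdet])
  have hker : ∀ g ∈ ψ.ker, ∃ c : F, c * c = 1 ∧ ρ g = c • 1 := by
    intro g hg
    refine scalar_of_act_eq _ (hdet g) fun x => ?_
    set c : F := -(x 1 + x 4) / 2 with hc
    set y := x - c • j with hy
    have hy0 : y 1 + y 4 = 0 := by
      simp [hy, j, hc, Matrix.vecHead, Matrix.vecTail]; field_simp; ring
    have h := congrArg toX (mem_ker_repHom.1 hg (fromX y))
    simp only [R, LinearMap.comp_apply, show ∀ (M : Matrix (Fin 4) (Fin 4) F) z, actLin M z = act M z from fun _ _ => rfl] at h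
    rw [h1 _ hy0, h1 _ (hpol g _ hy0)] at h
    rw [show x = y + c • j by simp [hy]]
    change actLin (ρ g) (y + c • j) = _
    rw [map_add, map_smul, show actLin (ρ g) y = y from h]
    exact congrArg (fun z => y + c • z) (hρJ g)
  have hp := Cfsg.Agent.Lib.Classical.sp_commutator_eq_top (F := F) 2 (Or.inr (Or.inl ⟨rfl, by
    have := Fintype.one_lt_card (α := F)
    rw [Nat.odd_iff] at hodd
    omega⟩))
  have hρinj : Function.Injective ρ := fun g h e =>
    Subtype.ext ((Matrix.reindexAlgEquiv F F _).injective e)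
  obtain ⟨Φ⟩ := pOmega_equiv (Cfsg.quadFormOdd 2 F) (eOdd 2) (odd_apply 2)
    (nd_splitQ (nd_sqQ h2) 2) (by simp) ψ (le_omega_of_perfect _ hp ψ)
    (by rw [card_O_odd h2, Cfsg.Agent.Lib.Classical.card_symplecticGroup, mul_assoc])
    ((Nat.card_le_card_of_injective
      (fun g : ψ.ker => (⟨(hker g.1 g.2).choose, (hker g.1 g.2).choose_spec.1⟩ : {c : F // c * c = 1}))
      fun g g' h => Subtype.ext (hρinj (by
        rw [(hker g.1 g.2).choose_spec.2, (hker g'.1 g'.2).choose_spec.2,
          show (hker g.1 g.2).choose = (hker g'.1 g'.2).choose from congrArg Subtype.val h]))).trans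
      (card_sqrt_one_le F))
    (fun g hg => by
      obtain ⟨c, -, e⟩ := hker g hg
      refine Subgroup.mem_center_iff.2 fun h => hρinj ?_
      rw [map_mul, map_mul, e]; simp)
    (grun hp)
  exact ⟨Φ⟩

end Cfsg.Agent.S0301
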