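import Cfsg.Statements.S1056
import Cfsg.Agent.Lib.Chev.SimpleAll
import Cfsg.Agent.S0319
import Cfsg.Agent.S1050

set_option autoImplicit false
open Cfsg Cfsg.Agent.Lib.Chev

namespace Cfsg.Agent.S1056

/-- B₂(F) is simple for every field `F` other than the field with two elements. -/
theorem result {F : Type*} [Field F] (hF : ∃ a : F, a ≠ 0 ∧ a ≠ 1) : IsSimpleGroup ↥(Cfsg.Lie.chevB2.group F) ∧ ¬ IsMulCommutative ↥(Cfsg.Lie.chevB2.group F) := by
  exact B2.checked.simple conn_B2 (Cfsg.Agent.S1050.result (F := F) _ (by simp))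
    (perfOdd perf_B2 hF) (fun P hn hi hs hp hc => @Cfsg.Agent.S0319.result _ _ hn P hi hs hp hc)

end Cfsg.Agent.S1056
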