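import Cfsg.Statements.S1083
import Cfsg.Agent.Lib.OrthChev.OddTwo
import Cfsg.Agent.S1056
import Cfsg.Agent.S1077

set_option autoImplicit false
open Cfsg Cfsg.Agent.Lib.OrthChev

namespace Cfsg.Agent.S1083

/-- B₂(F) ≅ PΩ₅(F) for the form `x₀² + x₁y₁ + x₂y₂`, over every field with more than two elements. -/
theorem result {F : Type*} [Field F] (hF : ∃ a : F, a ≠ 0 ∧ a ≠ 1) :
    Nonempty (↥(Cfsg.Lie.chevB2.group F) ≃* Cfsg.POmega F (Cfsg.quadFormOdd 2 F)) := by
  have : IsSimpleGroup ↥(Cfsg.Lie.chevB2.group F) := (S1056.result hF).1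
  obtain ⟨θ, hθ, hker, -⟩ := S1077.result (K := F) Cfsg.Lie.chevB2 (by simp)
  exact pOmega_equiv OddTwo.indexing OddTwo.repData (OddTwo.omega hF) OddTwo.cover θ hθ hker
    (a := .inr (.inl 0)) (b := .inr (.inl 1)) ⟨by decide, by decide, by decide, by decide⟩

end Cfsg.Agent.S1083
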