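import Cfsg.Statements.S2397

import Cfsg.Agent.Lib.SteinbergPres.Cover.Inst
import Cfsg.Agent.Lib.SteinbergPres.Cover.Checks
set_option autoImplicit false
open Cfsg

namespace Cfsg.Agent.S2397

open Cfsg.Agent.Lib.Chev Cfsg.Agent.Lib.SteinbergPres.Cover

/-- Over a finite field the relators (R3) h̄_r(t₁) h̄_r(t₂) = h̄_r(t₁ t₂) are consequences of (R1) and (R2): for each of the types G₂, B₂, D₄, F₄, E₆, E₇, E₈ (for types B₂ and G₂ the field must have more than two elements — the cases where the Chevalley group is not simple are set aside) the group presented by (R1), (R2) is canonically isomorphic to the one presented by (R1)–(R3), by an isomorphism matching the generators x̄_r(t). -/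
theorem result {K : Type*} [Field K] [Finite K] (D : Cfsg.Lie.ChevalleyDatum) (hD : D ∈ [Cfsg.Lie.chevG2, Cfsg.Lie.chevB2, Cfsg.Lie.chevD4, Cfsg.Lie.chevF4, Cfsg.Lie.chevE6, Cfsg.Lie.chevE7, Cfsg.Lie.chevE8]) (hK : D ∈ [Cfsg.Lie.chevB2, Cfsg.Lie.chevG2] → ∃ x : K, x ≠ 0 ∧ x ≠ 1) :
    ∃ e : D.SteinbergCover K ≃* D.SteinbergGroup K, ∀ (r : ℕ) (t : K), e (D.scGen K r t) = D.stGen K r t := by
  have := Fintype.ofFinite K
  obtain ⟨T, C, hcc⟩ := exists_checked_cover hD
  set X := coverGen C (coverHom C K) (fun r t hr => by rw [coverHom_gen C hr t]; rfl) with hX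
  have hlift : ∀ g, FreeGroup.lift (fun p => PresentedGroup.of (rels := D.steinbergRelsAB K) p) g =
      PresentedGroup.mk (D.steinbergRelsAB K) g := fun g => by
    refine DFunLike.congr_fun (?_ : _ = PresentedGroup.mk (D.steinbergRelsAB K)) g
    exact FreeGroup.ext_hom _ _ fun p => by simp [PresentedGroup.of]
  have h1 : ∀ g ∈ D.steinbergRels K,
      FreeGroup.lift (fun p => PresentedGroup.of (rels := D.steinbergRelsAB K) p) g = 1 := by
    intro g hg
    rw [hlift]
    rcases hg with hg | ⟨r, t, u, hr, ht, hu, rfl⟩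
    · exact PresentedGroup.mk_eq_one_iff.2 (Subgroup.subset_normalClosure hg)
    · simp only [map_mul, map_inv, Cfsg.Lie.ChevalleyDatum.stH, mk_word, mul_inv_eq_one]
      exact X.hWord_mul hcc r hr t u ht hu
  have h2 : ∀ g ∈ D.steinbergRelsAB K,
      FreeGroup.lift (fun p => PresentedGroup.of (rels := D.steinbergRels K) p) g = 1 := by
    intro g hg
    have e : FreeGroup.lift (fun p => PresentedGroup.of (rels := D.steinbergRels K) p) =
        PresentedGroup.mk (D.steinbergRels K) := FreeGroup.ext_hom _ _ fun p => by simp [PresentedGroup.of]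
    rw [e]
    exact PresentedGroup.mk_eq_one_iff.2 (Subgroup.subset_normalClosure (Or.inl hg))
  let a := PresentedGroup.toGroup h2
  let b := PresentedGroup.toGroup h1
  have hab : a.comp b = MonoidHom.id _ := PresentedGroup.ext fun p => by
    simp [a, b, PresentedGroup.toGroup.of]
  have hba : b.comp a = MonoidHom.id _ := PresentedGroup.ext fun p => by
    simp [a, b, PresentedGroup.toGroup.of]
  refine ⟨a.toMulEquiv b hba hab, fun r t => ?_⟩
  show a (D.scGen K r t) = D.stGen K r t
  simp only [Cfsg.Lie.ChevalleyDatum.scGen, Cfsg.Lie.ChevalleyDatum.stGen,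
    Cfsg.Lie.ChevalleyDatum.stX]
  split
  · simp [a, PresentedGroup.toGroup, PresentedGroup.mk]; rfl
  · simp

end Cfsg.Agent.S2397
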