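import Cfsg.Statements.S5061
import Cfsg.Agent.Lib.UnipBS.Main

set_option autoImplicit false
open Cfsg
open scoped commutatorElement

namespace Cfsg.Agent.S5061

/-- Let M be a finite-dimensional vector space over a field k, G ≤ GL(M), and 𝒲 a set of subgroups of G, invariant under conjugation by G, such that any two members of 𝒲 generate a subgroup acting unipotently on M (for some n all products of n endomorphisms g − 1 from it vanish). Then the subgroup generated by all members of 𝒲 acts unipotently on M and is normal in G. -/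
theorem result {k : Type*} [Field k] {M : Type*} [AddCommGroup M] [Module k M] [FiniteDimensional k M]
    {G : Subgroup (LinearMap.GeneralLinearGroup k M)} {W : Set (Subgroup (LinearMap.GeneralLinearGroup k M))} (hWG : ∀ A ∈ W, A ≤ G)
    (hWW : ∀ A ∈ W, ∀ B ∈ W, Cfsg.IsUnipotentOn (A ⊔ B)) (hWconj : ∀ A ∈ W, ∀ g ∈ G, Cfsg.conjBy A g ∈ W) :
    Cfsg.IsUnipotentOn (⨆ A ∈ W, A) ∧ ∀ g ∈ G, Cfsg.conjBy (⨆ A ∈ W, A) g = ⨆ A ∈ W, A := by
  classical
  have toU : ∀ H : Subgroup (LinearMap.GeneralLinearGroup k M),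
      Cfsg.IsUnipotentOn H → UnipBS.Unip H := by
    rintro H ⟨n, hn⟩
    refine ⟨n, le_bot_iff.mp ?_⟩
    rw [UnipBS.spanOf, Submodule.span_pow, Submodule.span_le]
    intro f hf
    rw [Set.mem_pow] at hf
    obtain ⟨f', rfl⟩ := hf
    have hex : ∀ i, ∃ g ∈ H, (g : M →ₗ[k] M) - 1 = (f' i : M →ₗ[k] M) := by
      intro i
      obtain ⟨g, hg, e⟩ := (f' i).2
      exact ⟨g, hg, e⟩
    choose g hg he using hex
    have := hn (List.ofFn g) (by intro x hx; obtain ⟨i, rfl⟩ := List.mem_ofFn.mp hx; exact hg i)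
      (List.length_ofFn ..)
    simp [← List.map_eq_flatMap, List.map_ofFn, Function.comp_def, he] at this
    simpa using this
  have fromU : ∀ H : Subgroup (LinearMap.GeneralLinearGroup k M),
      UnipBS.Unip H → Cfsg.IsUnipotentOn H := by
    rintro H ⟨n, hn⟩
    refine ⟨n, fun l hl hlen => ?_⟩
    have : ∀ (l : List (LinearMap.GeneralLinearGroup k M)), (∀ g ∈ l, g ∈ H) →
        (l.map fun g : LinearMap.GeneralLinearGroup k M => (g : M →ₗ[k] M) - 1).prod
          ∈ UnipBS.spanOf H ^ l.length := by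
      intro l
      induction l with
      | nil => intro _; simpa using (Submodule.one_le.mp le_rfl : (1 : M →ₗ[k] M) ∈ (1 : Submodule k (M →ₗ[k] M)))
      | cons a t ih =>
        intro h
        rw [List.map_cons, List.prod_cons, List.length_cons, pow_succ']
        exact Submodule.mul_mem_mul (UnipBS.mem_spanOf (h a List.mem_cons_self))
          (ih fun g hg => h g (List.mem_cons_of_mem _ hg))
    have h0 := this l hl
    rw [hlen, hn, Submodule.mem_bot] at h0
    simpa [← List.map_eq_flatMap, List.map_map, Function.comp_def] using h0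
  refine ⟨fromU _ ?_, ?_⟩
  · have hX : (⨆ A ∈ W, A) = Subgroup.closure (⋃ A ∈ W, (A : Set _)) := by
      simp only [Subgroup.closure_iUnion, Subgroup.closure_eq]
    rw [hX]
    refine UnipBS.unip_closure ?_ ?_ ?_
    · simp only [Set.mem_iUnion, SetLike.mem_coe]
      rintro x ⟨A, hA, hx⟩
      exact ⟨A, hA, A.inv_mem hx⟩
    · simp only [Set.mem_iUnion, SetLike.mem_coe]
      rintro x ⟨A, hA, hx⟩ y ⟨B, hB, hy⟩
      exact ⟨_, hWconj B hB x (hWG A hA hx), Subgroup.mem_map_of_mem _ hy⟩
    · simp only [Set.mem_iUnion, SetLike.mem_coe]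
      rintro x ⟨A, hA, hx⟩ y ⟨B, hB, hy⟩
      refine (toU _ (hWW A hA B hB)).mono ((Subgroup.closure_le _).mpr ?_)
      rintro u (rfl | rfl)
      exacts [(le_sup_left : A ≤ A ⊔ B) hx, (le_sup_right : B ≤ A ⊔ B) hy]
  · intro g hg
    have key : ∀ g ∈ G, Cfsg.conjBy (⨆ A ∈ W, A) g ≤ ⨆ A ∈ W, A := by
      intro g hg
      simp only [Cfsg.conjBy, Subgroup.map_iSup]
      exact iSup₂_le fun A hA => le_biSup (fun A => A) (hWconj A hA g hg)
    refine le_antisymm (key g hg) ?_
    intro x hx
    exact ⟨g⁻¹ * x * g, key g⁻¹ (G.inv_mem hg) ⟨x, hx, by simp⟩, by simp [mul_assoc]⟩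

end Cfsg.Agent.S5061
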