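import Cfsg.Statements.S1161
import Cfsg.Agent.Lib.OddLinear.Solvable
import Cfsg.Agent.Lib.Hall.Basic
import Cfsg.Agent.Lib.Hall.Solvable
-- import your own Cfsg.Agent.* helpers here

set_option autoImplicit false
open Cfsg
open scoped commutatorElement

namespace Cfsg.Agent.S1161

/-- Let `D` be a finite group of odd order acting faithfully by additive automorphisms on a finite elementary abelian `q`-group `E ≠ 0` (`q` prime), transitively on `E ∖ {0}`. Then the Fitting subgroup `F(D)` is cyclic, its non-identity elements fix only `0`, and `D/F(D)` is abelian (the derived subgroup lies in `F(D)`). -/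
theorem result {D E : Type*} [Group D] [Finite D]
    [AddCommGroup E] [Finite E] [Nontrivial E] [DistribMulAction D E] [FaithfulSMul D E]
    (hodd : Odd (Nat.card D)) {q : ℕ} (hq : q.Prime) (hE : ∀ e : E, q • e = 0)
    (htrans : ∀ a b : E, a ≠ 0 → b ≠ 0 → ∃ d : D, d • a = b) :
    IsCyclic ↥(Cfsg.fittingSubgroup D) ∧
      (∀ g ∈ Cfsg.fittingSubgroup D, g ≠ 1 → ∀ a : E, g • a = a → a = 0) ∧
      commutator D ≤ Cfsg.fittingSubgroup D := by
  classical
  obtain ⟨rfl, -⟩ := Lib.OddLinear.eq_two hodd hq hE htrans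
  haveI := Lib.OddLinear.isSolvable_of_transitive hodd hE htrans
  set F := Cfsg.fittingSubgroup D
  haveI hFnil : Group.IsNilpotent F := Lib.Hall.fittingSubgroup_isNilpotent
  haveI hFn : F.Normal := inferInstance
  -- the Sylow subgroups of `F`
  have key : ∀ (p : ℕ), p.Prime → ∀ P : Sylow p F, IsCyclic P ∧
      ∀ g : P, g ≠ 1 → ∀ a : E, ((g : F) : D) • a = a → a = 0 := by
    intro p hp P
    haveI := Fact.mk hp
    by_cases hp2 : p = 2
    · have h1 : (P : Subgroup F) = ⊥ := by
        rw [← Subgroup.card_eq_one, P.card_eq_multiplicity, Nat.factorization_eq_zero_of_not_dvd,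
          pow_zero]
        intro hd
        exact Nat.not_even_iff_odd.2 hodd (even_iff_two_dvd.2 (hp2 ▸ hd.trans F.card_subgroup_dvd_card))
      haveI : Subsingleton P := ⟨fun a b => Subtype.ext (by
        rw [Subgroup.mem_bot.1 (h1 ▸ a.2 : (a : F) ∈ (⊥ : Subgroup F)),
          Subgroup.mem_bot.1 (h1 ▸ b.2 : (b : F) ∈ (⊥ : Subgroup F))])⟩
      exact ⟨inferInstance, fun g hg => absurd (Subsingleton.elim g 1) hg⟩
    haveI hPn : (P : Subgroup F).Normal :=
      ((Group.isNilpotent_of_finite_tfae (G := ↥F)).out 0 3 rfl rfl :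
        Group.IsNilpotent ↥F ↔ ∀ (p : ℕ) (_hp : Fact p.Prime) (P : Sylow p ↥F), (P : Subgroup ↥F).Normal).1
        hFnil p ⟨hp⟩ P
    haveI : (P : Subgroup F).Characteristic := P.characteristic_of_normal hPn
    let P' : Subgroup D := (P : Subgroup F).map F.subtype
    haveI : P'.Normal := inferInstanceAs ((P : Subgroup F).map F.subtype).Normal
    haveI : FaithfulSMul P' E :=
      ⟨fun {a b} h => Subtype.ext (FaithfulSMul.eq_of_smul_eq_smul (M := D) fun e : E => h e)⟩
    obtain ⟨hc, hf⟩ := S1160.result (P := P') (p := p) hp2 (P.2.map _) Nat.prime_two hE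
      fun a b ha hb => Lib.OddLinear.stabilizer_card_eq_of_normal htrans ha hb
    let e : (P : Subgroup F) ≃* P' := (P : Subgroup F).equivMapOfInjective _ F.subtype_injective
    exact ⟨isCyclic_of_surjective e.symm e.symm.surjective, fun g hg a ha =>
      hf (e g) (fun h => hg ((MulEquiv.map_eq_one_iff e).1 h)) a ha⟩
  haveI : IsZGroup F := ⟨fun p hp P => (key p hp P).1⟩
  have hFc : IsCyclic F := inferInstance
  refine ⟨hFc, fun g hg hg1 a ha => ?_, ?_⟩
  · obtain ⟨p, hp, hpd⟩ := Nat.exists_prime_and_dvd (n := orderOf (⟨g, hg⟩ : F))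
      (fun h => hg1 (congrArg Subtype.val (orderOf_eq_one_iff.1 h)))
    haveI := Fact.mk hp
    set g₀ : F := ⟨g, hg⟩
    set y := g₀ ^ (orderOf g₀ / p)
    have hy : orderOf y = p := orderOf_pow_orderOf_div (orderOf_pos g₀).ne' hpd
    obtain ⟨P, hP⟩ := (IsPGroup.of_card (n := 1) (by rw [Nat.card_zpowers, hy, pow_one]) :
      IsPGroup p (Subgroup.zpowers y)).exists_le_sylow
    refine (key p hp P).2 ⟨y, hP (Subgroup.mem_zpowers y)⟩ (fun h => hp.one_lt.ne ?_) a ?_
    · rw [← hy, show y = 1 from congrArg Subtype.val h, orderOf_one]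
    · show (((g₀ ^ (orderOf g₀ / p) : F)) : D) • a = a
      rw [SubmonoidClass.coe_pow]
      induction orderOf g₀ / p with
      | zero => rw [pow_zero, one_smul]
      | succ k ih =>
        rw [pow_succ, mul_smul]
        show g ^ k • g • a = a
        rw [ha]
        exact ih
  · rw [commutator_def, Subgroup.commutator_le]
    intro u _ v _
    refine Lib.Hall.centralizer_fittingSubgroup_le ?_
    rw [Subgroup.mem_centralizer_iff]
    intro f hf
    have hcomm : ∀ a b : MulAut F, a * b = b * a := by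
      intro a b
      refine MulEquiv.ext fun y => ?_
      haveI := hFc
      obtain ⟨i, hi⟩ := MonoidHom.map_cyclic a.toMonoidHom
      obtain ⟨j, hj⟩ := MonoidHom.map_cyclic b.toMonoidHom
      have ha : ∀ z, a z = z ^ i := hi
      have hb : ∀ z, b z = z ^ j := hj
      show a (b y) = b (a y)
      rw [ha, hb, hb, ha, ← zpow_mul, ← zpow_mul, mul_comm]
    let φ : D →* MulAut F := MulAut.conjNormal
    have h1 : φ ⁅u, v⁆ = 1 := by
      rw [map_commutatorElement]
      exact commutatorElement_eq_one_iff_mul_comm.2 (hcomm _ _)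
    have h2 := congrArg Subtype.val (MulEquiv.congr_fun h1 (⟨f, hf⟩ : F))
    exact (mul_inv_eq_iff_eq_mul.1 h2).symm

end Cfsg.Agent.S1161
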