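import Cfsg.Statements.S5036
import Cfsg.Agent.Lib.Root.Sets
-- import your own Cfsg.Agent.* helpers here

set_option autoImplicit false
open Cfsg

namespace Cfsg.Agent.S5036

open Cfsg.Agent.Lib.Root

variable {G : Type*} [Group G] {S : Set (Subgroup G)} {A B C D : Subgroup G}

theorem inf_conjBy (P Q : Subgroup G) (x : G) : conjBy (P ⊓ Q) x = conjBy P x ⊓ conjBy Q x :=
  Subgroup.map_inf P Q _ (MulAut.conj x).injective

theorem centralizer_conjBy (P : Subgroup G) (x : G) :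
    conjBy (Subgroup.centralizer (P : Set G)) x = Subgroup.centralizer (conjBy P x : Set G) := by
  ext z
  rw [mem_conjBy, Subgroup.mem_centralizer_iff, Subgroup.mem_centralizer_iff]
  constructor
  · intro h p hp
    have hp' := h _ (mem_conjBy.mp hp)
    have := congrArg (fun t => x * t * x⁻¹) hp'
    simpa [mul_assoc] using this
  · intro h p hp
    have hp' := h _ (conj_mem_conjBy x hp)
    have := congrArg (fun t => x⁻¹ * t * x) hp'
    simpa [mul_assoc] using this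

/-- `C = [A,B]` is the centralizer of `B` in `A ⊔ C`. -/
theorem fix_right (hS : IsRootSubgroupSet S) (h1 : RootCommutatorCase S A B) (hC : ⁅A, B⁆ = C) :
    (A ⊔ C) ⊓ Subgroup.centralizer (B : Set G) = C := by
  subst hC
  refine le_antisymm ?_ (le_inf le_sup_right ?_)
  · rintro z ⟨hz, hzB⟩
    obtain ⟨a, ha, c, hc, rfl⟩ := mem_sup_commute (rc_comm_left h1) hz
    suffices a = 1 by rw [this, one_mul]; exact hc
    by_contra ha1
    apply hS.ne_bot _ h1.1
    rw [← h1.2.2.1 a ha ha1, Subgroup.closure_eq_bot_iff]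
    rintro _ ⟨b, hb, rfl⟩
    show a * b * a⁻¹ * b⁻¹ = 1
    have h3 : b * (a * c) = a * c * b := hzB b hb
    have h4 : b * c = c * b := comm_iff.mp (rc_comm_right h1) b hb c hc
    have h5 : b * a = a * b := by
      rw [mul_assoc, ← h4, ← mul_assoc, ← mul_assoc] at h3
      exact mul_right_cancel h3
    rw [← h5]; group
  · intro c hc b hb
    exact comm_iff.mp (rc_comm_right h1) b hb c hc

/-- The two unipotent subgroups normalize `A ⊔ C`. -/
theorem norm_sup (hAB : ⁅A, B⁆ = C) (hBC : ⁅B, C⁆ = ⊥) {b : G} (hb : b ∈ B) : conjBy (A ⊔ C) b ≤ A ⊔ C := by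
  rw [conjBy_sup, conjBy_eq_self_of_comm (comm_symm hBC) hb]
  exact sup_le ((conjBy_le_sup_commutator hb).trans
    (sup_le le_sup_left ((Subgroup.commutator_comm B A).le.trans (hAB.le.trans le_sup_right)))) le_sup_right

theorem norm_all (h1 : RootCommutatorCase S A B) (hC : ⁅A, B⁆ = C) (h2 : RootCommutatorCase S C D) (hA : ⁅C, D⁆ = A)
    {x : G} (hx : x ∈ B ⊔ D) : conjBy (A ⊔ C) x = A ⊔ C := by
  have key : ∀ y ∈ (B : Set G) ∪ D, conjBy (A ⊔ C) y ≤ A ⊔ C := by
    rintro y (hy | hy)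
    · exact norm_sup hC (by rw [← hC]; exact rc_comm_right h1) hy
    · rw [sup_comm A C]
      exact norm_sup hA (by rw [← hA]; exact rc_comm_right h2) hy
  have hle : ∀ y ∈ B ⊔ D, conjBy (A ⊔ C) y ≤ A ⊔ C := by
    intro y hy
    rw [Subgroup.sup_eq_closure] at hy
    induction hy using Subgroup.closure_induction'' with
    | mem y hy => exact key y hy
    | inv_mem y hy => exact key _ (hy.imp inv_mem inv_mem)
    | one => rw [conjBy_one]
    | mul y z _ _ hy hz => rw [← conjBy_mul]; exact (Subgroup.map_mono hz).trans hy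
  refine le_antisymm (hle x hx) fun z hz => ?_
  rw [mem_conjBy]
  have := hle x⁻¹ (inv_mem hx) (conj_mem_conjBy x⁻¹ hz)
  simpa using this

theorem pair_BD (hS : IsRootSubgroupSet S) (hA : A ∈ S) (hB : B ∈ S) (hD : D ∈ S)
    (h1 : RootCommutatorCase S A B) (hC : ⁅A, B⁆ = C) (h2 : RootCommutatorCase S C D) (hA' : ⁅C, D⁆ = A) :
    IsRankOnePair B D := by
  have hCS : C ∈ S := hC ▸ h1.1
  have fC := fix_right hS h1 hC
  have fA : (A ⊔ C) ⊓ Subgroup.centralizer (D : Set G) = A := by rw [sup_comm]; exact fix_right hS h2 hA'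
  have hmemA : ∀ d ∈ D, ∀ a ∈ A, d * a = a * d := fun d hd a ha => (fA.ge ha).2 d hd
  have hdisj : ∀ x ∈ A, x ∈ C → x = 1 := by
    intro x hx hx'
    by_contra hx1
    apply hS.ne_bot _ h1.1
    rw [← h1.2.2.1 x hx hx1, Subgroup.closure_eq_bot_iff]
    rintro _ ⟨b, hb, rfl⟩
    show x * b * x⁻¹ * b⁻¹ = 1
    rw [← (fC.ge hx').2 b hb]; group
  rcases hS.pair B hB D hD with h | h | h
  · exfalso
    apply hS.ne_bot A hA
    rw [← hA']
    refine comm_symm (comm_iff.mpr fun d hd c hc => ?_)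
    have hle : ⁅A, B⁆ ≤ Subgroup.centralizer ({d} : Set G) := by
      refine Subgroup.commutator_le.mpr fun a ha b hb => ?_
      rw [Subgroup.mem_centralizer_singleton_iff]
      have h3 : Commute d a := hmemA d hd a ha
      have h4 : Commute d b := (comm_iff.mp h b hb d hd).symm
      exact ((h3.mul_right h4).mul_right h3.inv_right |>.mul_right h4.inv_right).symm.eq
    exact (Subgroup.mem_centralizer_singleton_iff.mp (hle (hC ▸ hc))).symm
  · exact h
  · exfalso
    have hKle : ⁅B, D⁆ ≤ B ⊔ D := Subgroup.commutator_le.mpr fun b hb d hd =>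
      mul_mem (mul_mem (mul_mem (Subgroup.mem_sup_left hb) (Subgroup.mem_sup_right hd))
        (inv_mem (Subgroup.mem_sup_left hb))) (inv_mem (Subgroup.mem_sup_right hd))
    have hKC : (∀ f ∈ ⁅B, D⁆, ∀ a ∈ A, f * a = a * f) → False := by
      intro hKa
      have hKc : ∀ f ∈ ⁅B, D⁆, ∀ c ∈ C, f * c = c * f := by
        intro f hf c hc
        have hle : ⁅A, B⁆ ≤ Subgroup.centralizer ({f} : Set G) := Subgroup.commutator_le.mpr fun a ha b hb => by
          rw [Subgroup.mem_centralizer_singleton_iff]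
          have h3 : Commute f a := hKa f hf a ha
          have h4 : Commute f b := h.2.1 f hf b (Subgroup.mem_sup_left hb)
          exact ((h3.mul_right h4).mul_right h3.inv_right |>.mul_right h4.inv_right).symm.eq
        exact (Subgroup.mem_centralizer_singleton_iff.mp (hle (hC ▸ hc))).symm
      apply hS.ne_bot C hCS
      rw [← hC]
      refine comm_iff.mpr fun a ha b hb => ?_
      have hN : b * a * b⁻¹ ∈ A ⊔ C := by
        rw [← norm_all h1 hC h2 hA' (Subgroup.mem_sup_left hb)]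
        exact conj_mem_conjBy b (Subgroup.mem_sup_left ha)
      have hbaA : b * a * b⁻¹ ∈ A := by
        refine fA.le ⟨hN, fun d hd => ?_⟩
        obtain ⟨u, hu, v, hv, e⟩ := mem_sup_commute (by rw [← hC]; exact rc_comm_left h1) hN
        have hk : d * b * d⁻¹ * b⁻¹ ∈ ⁅B, D⁆ := Subgroup.commutator_comm D B ▸ comm_elem_mem hd hb
        have hkc : Commute (d * b * d⁻¹ * b⁻¹) (b * a * b⁻¹) := by
          rw [e]; exact Commute.mul_right (hKa _ hk u hu) (hKc _ hk v hv)
        calc d * (b * a * b⁻¹) = (d * b * d⁻¹ * b⁻¹) * b * (d * a) * b⁻¹ := by group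
          _ = (d * b * d⁻¹ * b⁻¹) * b * (a * d) * b⁻¹ := by rw [hmemA d hd a ha]
          _ = ((d * b * d⁻¹ * b⁻¹) * (b * a * b⁻¹)) * (b * d * b⁻¹) := by group
          _ = ((b * a * b⁻¹) * (d * b * d⁻¹ * b⁻¹)) * (b * d * b⁻¹) := by rw [hkc.eq]
          _ = _ := by group
      have hm : a * b * a⁻¹ * b⁻¹ ∈ A := by
        have := mul_mem ha (inv_mem hbaA)
        simpa [mul_assoc] using this
      have := hdisj _ hm (hC ▸ comm_elem_mem ha hb)
      exact mul_inv_eq_iff_eq_mul.mp (mul_inv_eq_one.mp this)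
    have hfix : ∀ f ∈ ⁅B, D⁆, conjBy A f = A := by
      intro f hf
      conv_lhs => rw [← fA]
      rw [inf_conjBy, norm_all h1 hC h2 hA' (hKle hf), centralizer_conjBy,
        conjBy_eq_self_of_commute (A := D) fun d hd => h.2.1 f hf d (Subgroup.mem_sup_right hd), fA]
    rcases hS.pair A hA _ h.1 with h' | h' | h'
    · exact hKC fun f hf a ha => (comm_iff.mp h' a ha f hf).symm
    · obtain ⟨f, hf, hf1⟩ := exists_right h'
      exact hf1 (eq_one_of_normalizes' h' hf (hfix f hf))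
    · have hle : ⁅A, ⁅B, D⁆⁆ ≤ A := Subgroup.commutator_le.mpr fun a ha g hg => by
        have h5 : g * a⁻¹ * g⁻¹ ∈ A := by
          have := conj_mem_conjBy g (inv_mem ha)
          rwa [hfix g hg] at this
        simpa [commutatorElement_def, mul_assoc] using mul_mem ha h5
      obtain ⟨a₀, ha₀, ha₀1⟩ := (⁅A, ⁅B, D⁆⁆).bot_or_exists_ne_one.resolve_left (hS.ne_bot _ h'.1)
      apply hKC
      intro g hg
      have hc : ⁅A, B⁆ ≤ Subgroup.centralizer ({g} : Set G) := by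
        rw [← h1.2.2.1 a₀ (hle ha₀) ha₀1, Subgroup.closure_le]
        rintro _ ⟨b, hb, rfl⟩
        rw [SetLike.mem_coe, Subgroup.mem_centralizer_singleton_iff]
        have h3 : Commute g a₀ := (h'.2.1 a₀ ha₀ g (Subgroup.mem_sup_right hg)).symm
        have h4 : Commute g b := h.2.1 g hg b (Subgroup.mem_sup_left hb)
        exact ((h3.mul_right h4).mul_right h3.inv_right |>.mul_right h4.inv_right).symm.eq
      have hA2 : ⁅C, D⁆ ≤ Subgroup.centralizer ({g} : Set G) := by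
        refine Subgroup.commutator_le.mpr fun c hc' d hd => ?_
        rw [Subgroup.mem_centralizer_singleton_iff]
        have h3 : Commute g c := (Subgroup.mem_centralizer_singleton_iff.mp (hc (hC ▸ hc'))).symm
        have h4 : Commute g d := h.2.1 g hg d (Subgroup.mem_sup_right hd)
        exact ((h3.mul_right h4).mul_right h3.inv_right |>.mul_right h4.inv_right).symm.eq
      intro a ha
      exact (Subgroup.mem_centralizer_singleton_iff.mp (hA2 (hA' ▸ ha))).symm

theorem main (hS : IsRootSubgroupSet S) (hA : A ∈ S) (hB : B ∈ S) (hC : ⁅A, B⁆ ∈ S) (hD : D ∈ S) (hDC : ⁅D, ⁅A, B⁆⁆ = A) :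
    IsRankOnePair B D ∧
    {E | ∃ x ∈ B ⊔ D, E = conjBy A x} = {E | ∃ x ∈ B ⊔ D, E = conjBy ⁅A, B⁆ x} ∧
    {E | ∃ x ∈ B ⊔ D, E = conjBy A x} = (fun b : G => conjBy A b) '' (B : Set G) ∪ {⁅A, B⁆} ∧
    {E | ∃ x ∈ B ⊔ D, E = conjBy A x} = (fun d : G => conjBy ⁅A, B⁆ d) '' (D : Set G) ∪ {A} ∧
    IsSubgroupPartition (A ⊔ ⁅A, B⁆) {E | ∃ x ∈ B ⊔ D, E = conjBy A x} ∧
    ∀ x ∈ (B ⊔ D) ⊓ Subgroup.centralizer ((A ⊔ ⁅A, B⁆ : Subgroup G) : Set G), ∀ y ∈ B ⊔ D, x * y = y * x := by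
  generalize hC' : ⁅A, B⁆ = C at *
  have h1 := rc_of_mem hS hA hB (hC' ▸ hC)
  have hA' : ⁅C, D⁆ = A := (Subgroup.commutator_comm C D).trans hDC
  have h2 := rc_of_mem hS hC hD (hA'.symm ▸ hA)
  have hp := pair_BD hS hA hB hD h1 hC' h2 hA'
  have fC := fix_right hS h1 hC'
  have fA : (A ⊔ C) ⊓ Subgroup.centralizer (D : Set G) = A := by rw [sup_comm]; exact fix_right hS h2 hA'
  have himg : ∀ x ∈ B ⊔ D, ∀ E, conjBy D x = E → conjBy A x = (A ⊔ C) ⊓ Subgroup.centralizer (E : Set G) := by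
    intro x hx E e
    conv_lhs => rw [← fA]
    rw [inf_conjBy, norm_all h1 hC' h2 hA' hx, centralizer_conjBy, e]
  have horb : ∀ x ∈ B ⊔ D, conjBy A x = C ∨ ∃ b ∈ B, conjBy A x = conjBy A b := by
    intro x hx
    have hm : conjBy D x ∈ unipotentSubgroups B D := conjBy_mem_unipotent (right_mem_unipotent hp) hx
    rcases unipotent_cases hp hm with e | ⟨b, hb, e⟩
    · exact Or.inl ((himg x hx _ e).trans fC)
    · exact Or.inr ⟨b, hb, (himg x hx _ e).trans (himg b (Subgroup.mem_sup_left hb) _ rfl).symm⟩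
  obtain ⟨x₀, hx₀, e₀, -⟩ := exists_conj_pair (RankOnePair_symm hp) (C := B) (D := D)
    (right_mem_unipotent (RankOnePair_symm hp)) left_mem_unipotent hp.ne
  rw [sup_comm] at hx₀
  have hC0 : conjBy A x₀ = C := (himg x₀ hx₀ _ e₀).trans fC
  have horb' : ∀ x ∈ B ⊔ D, conjBy A x = A ∨ ∃ d ∈ D, conjBy A x = conjBy C d := by
    intro x hx
    have hm : conjBy D x ∈ unipotentSubgroups D B := by
      refine conjBy_mem_unipotent left_mem_unipotent ?_; rw [sup_comm]; exact hx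
    rcases unipotent_cases (RankOnePair_symm hp) hm with e | ⟨d, hd, e⟩
    · exact Or.inl ((himg x hx _ e).trans fA)
    · refine Or.inr ⟨d, hd, ?_⟩
      have hdx : d * x₀ ∈ B ⊔ D := mul_mem (Subgroup.mem_sup_right hd) hx₀
      rw [← hC0, conjBy_mul, himg _ hdx _ rfl, ← conjBy_mul, e₀]
      exact himg x hx _ e
  have hdisj : A ⊓ C = ⊥ := by
    rw [eq_bot_iff]
    rintro x ⟨hx, hx'⟩
    by_contra hx1
    apply hS.ne_bot C hC
    rw [← hC', ← h1.2.2.1 x hx (fun e => hx1 (by rw [e]; exact one_mem _)), Subgroup.closure_eq_bot_iff]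
    rintro _ ⟨b, hb, rfl⟩
    show x * b * x⁻¹ * b⁻¹ = 1
    rw [← (fC.ge hx').2 b hb]; group
  refine ⟨hp, ?_, ?_, ?_, ⟨?_, ?_, ?_⟩, ?_⟩
  · ext E
    constructor
    · rintro ⟨x, hx, rfl⟩
      exact ⟨x * x₀⁻¹, mul_mem hx (inv_mem hx₀), by rw [← hC0, conjBy_mul, inv_mul_cancel_right]⟩
    · rintro ⟨x, hx, rfl⟩
      exact ⟨x * x₀, mul_mem hx hx₀, by rw [← hC0, conjBy_mul]⟩
  · ext E
    constructor
    · rintro ⟨x, hx, rfl⟩
      rcases horb x hx with e | ⟨b, hb, e⟩
      · exact Or.inr e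
      · exact Or.inl ⟨b, hb, e.symm⟩
    · rintro (⟨b, hb, rfl⟩ | rfl)
      · exact ⟨b, Subgroup.mem_sup_left hb, rfl⟩
      · exact ⟨x₀, hx₀, hC0.symm⟩
  · ext E
    constructor
    · rintro ⟨x, hx, rfl⟩
      rcases horb' x hx with e | ⟨d, hd, e⟩
      · exact Or.inr e
      · exact Or.inl ⟨d, hd, e.symm⟩
    · rintro (⟨d, hd, rfl⟩ | rfl)
      · refine ⟨d * x₀, mul_mem (Subgroup.mem_sup_right hd) hx₀, ?_⟩
        show conjBy C d = _
        rw [← hC0, conjBy_mul]
      · exact ⟨1, one_mem _, (conjBy_one _).symm⟩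
  · rintro E ⟨x, hx, rfl⟩
    rw [himg x hx _ rfl]; exact inf_le_left
  · intro z hz hz1
    obtain ⟨a, ha, c, hc, rfl⟩ := mem_sup_commute (by rw [← hC']; exact rc_comm_left h1) hz
    rcases eq_or_ne a 1 with rfl | ha1
    · exact ⟨C, ⟨x₀, hx₀, hC0.symm⟩, by simpa using hc⟩
    · obtain ⟨b, hb, e⟩ := rc_surj h1 ha ha1 (hC'.symm ▸ inv_mem hc)
      refine ⟨_, ⟨b, Subgroup.mem_sup_left hb, rfl⟩, ?_⟩
      have hac : a * c = c * a := comm_iff.mp (rc_comm_left h1) a ha c (hC'.symm ▸ hc)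
      have e2 : a * c = b * a * b⁻¹ := by rw [hac, ← inv_inv c, ← e]; group
      rw [e2]; exact conj_mem_conjBy b ha
  · rintro _ ⟨x, hx, rfl⟩ _ ⟨y, hy, rfl⟩ hne
    have hne' : conjBy D x ≠ conjBy D y := fun e => hne ((himg x hx _ e).trans (himg y hy _ rfl).symm)
    obtain ⟨w, hw, ew₁, ew₂⟩ := exists_conj_pair (RankOnePair_symm hp)
      (conjBy_mem_unipotent left_mem_unipotent (by rw [sup_comm]; exact hx))
      (conjBy_mem_unipotent left_mem_unipotent (by rw [sup_comm]; exact hy)) hne'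
    rw [sup_comm] at hw
    have ex : conjBy A x = conjBy A w := (himg x hx _ ew₁.symm).trans (himg w hw _ rfl).symm
    have ey : conjBy A y = conjBy C w := by
      rw [← hC0, conjBy_mul, himg _ (mul_mem hw hx₀) _ rfl, ← conjBy_mul, e₀, ew₂]
      exact himg y hy _ rfl
    rw [ex, ey, ← inf_conjBy, hdisj]; exact Subgroup.map_bot _
  · rintro z ⟨hz, hzc⟩ y hy
    refine commute_of_fixes hp (fun E hE => ?_) y hy
    obtain ⟨u, hu, rfl⟩ : ∃ u ∈ B ⊔ D, E = conjBy D u := by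
      obtain ⟨v, hv, rfl⟩ := hE
      exact ⟨v * x₀, mul_mem hv hx₀, by rw [← e₀, conjBy_mul]⟩
    have hw : u⁻¹ * z * u ∈ B ⊔ D := mul_mem (mul_mem (inv_mem hu) hz) hu
    have hcen : conjBy A (u⁻¹ * z * u) = A := by
      refine conjBy_eq_self_of_commute fun a ha => ?_
      have hm : u * a * u⁻¹ ∈ A ⊔ C := by
        rw [← norm_all h1 hC' h2 hA' hu]; exact conj_mem_conjBy u (Subgroup.mem_sup_left ha)
      have h3 : u * a * u⁻¹ * z = z * (u * a * u⁻¹) := hzc _ hm
      calc u⁻¹ * z * u * a = u⁻¹ * (z * (u * a * u⁻¹)) * u := by group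
        _ = u⁻¹ * (u * a * u⁻¹ * z) * u := by rw [h3]
        _ = _ := by group
    have hD' : conjBy D (u⁻¹ * z * u) = D := by
      by_contra hne
      have hm : conjBy D (u⁻¹ * z * u) ∈ unipotentSubgroups D B := by
        refine conjBy_mem_unipotent left_mem_unipotent ?_; rw [sup_comm]; exact hw
      obtain ⟨d, hd, e⟩ := (unipotent_cases (RankOnePair_symm hp) hm).resolve_left hne
      have : conjBy A (u⁻¹ * z * u) = conjBy C d := by
        rw [himg _ hw _ e]
        conv_rhs => rw [← hC0, conjBy_mul, himg _ (mul_mem (Subgroup.mem_sup_right hd) hx₀) _ rfl, ← conjBy_mul, e₀]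
      rw [hcen] at this
      have hAd : conjBy A d⁻¹ = A := by
        refine conjBy_eq_self_of_commute fun a ha => ?_
        exact (fA.ge ha).2 d⁻¹ (inv_mem hd)
      rw [this, conjBy_inv_conjBy, ← this] at hAd
      rw [hAd, inf_idem] at hdisj
      exact hS.ne_bot A hA hdisj
    rw [← conjBy_mul, ← conjBy_mul] at hD'
    calc conjBy (conjBy D u) z = conjBy (conjBy (conjBy (conjBy D u) z) u⁻¹) u := (conjBy_conjBy_inv _ u).symm
      _ = conjBy D u := by rw [hD']

/-- Let S be a set of abstract root subgroups of G, A, B ∈ S with C = ⁅A, B⁆ ∈ S, and D ∈ S with ⁅D, C⁆ = A. Put X = ⟨B, D⟩ and N = AC. Then B, D form a rank one pair; the conjugates of A under X are the conjugates of C under X, namely the conjugates of A by elements of B together with C, equally the conjugates of C by elements of D together with A, and they partition N; and the centralizer of N in X is central in X. -/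
theorem result {G : Type*} [Group G] {S : Set (Subgroup G)} (hS : Cfsg.IsRootSubgroupSet S)
    {A B D : Subgroup G} (hA : A ∈ S) (hB : B ∈ S) (hC : ⁅A, B⁆ ∈ S) (hD : D ∈ S) (hDC : ⁅D, ⁅A, B⁆⁆ = A) :
    Cfsg.IsRankOnePair B D ∧
    {E | ∃ x ∈ B ⊔ D, E = Cfsg.conjBy A x} = {E | ∃ x ∈ B ⊔ D, E = Cfsg.conjBy ⁅A, B⁆ x} ∧
    {E | ∃ x ∈ B ⊔ D, E = Cfsg.conjBy A x} = (fun b : G => Cfsg.conjBy A b) '' (B : Set G) ∪ {⁅A, B⁆} ∧
    {E | ∃ x ∈ B ⊔ D, E = Cfsg.conjBy A x} = (fun d : G => Cfsg.conjBy ⁅A, B⁆ d) '' (D : Set G) ∪ {A} ∧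
    Cfsg.IsSubgroupPartition (A ⊔ ⁅A, B⁆) {E | ∃ x ∈ B ⊔ D, E = Cfsg.conjBy A x} ∧
    ∀ x ∈ (B ⊔ D) ⊓ Subgroup.centralizer ((A ⊔ ⁅A, B⁆ : Subgroup G) : Set G), ∀ y ∈ B ⊔ D, x * y = y * x := by
  open Lib.Root in
  exact main hS hA hB hC hD hDC

end Cfsg.Agent.S5036
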