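import Cfsg.Statements.S5034
import Cfsg.Agent.Lib.Root.Sets
import Cfsg.Agent.Lib.Root.Quadratic

set_option autoImplicit false
open Cfsg

namespace Cfsg.Agent.S5034

open Cfsg.Agent.Lib.Root
open scoped commutatorElement

section
variable {G : Type*} [Group G] {S : Set (Subgroup G)} {A B C : Subgroup G} (hS : IsRootSubgroupSet S)
  (hA : A ∈ S) (hB : B ∈ S) (h : IsRankOnePair A B)

include hS hA hB h in
theorem not_commute_line (hC : C ∈ linePartners S A) {E : Subgroup G} (hE : E ∈ membersIn S (A ⊔ C)) (hne : E ≠ A) :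
    ⁅B, E⁆ ≠ ⊥ := by
  intro h0
  obtain ⟨⟨hCS, -, hac⟩, -, hcov, -⟩ := hC
  obtain ⟨z, hz, hz1⟩ := E.bot_or_exists_ne_one.resolve_left (hS.ne_bot E hE.1)
  have hab : IsMulCommutative ↥(A ⊔ C) := by
    rw [Subgroup.sup_eq_closure]
    refine Subgroup.isMulCommutative_closure ?_
    rintro x (hx | hx) y (hy | hy)
    · exact congrArg Subtype.val ((hS.commutative A hA).is_comm.comm ⟨x, hx⟩ ⟨y, hy⟩)
    · exact comm_iff.1 hac x hx y hy
    · exact (comm_iff.1 hac y hy x hx).symm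
    · exact congrArg Subtype.val ((hS.commutative C hCS).is_comm.comm ⟨x, hx⟩ ⟨y, hy⟩)
  have hzc : ∀ x ∈ A ⊔ B, z * x = x * z := by
    have hle : A ⊔ B ≤ Subgroup.centralizer ({z} : Set G) := sup_le
      (fun a ha => Subgroup.mem_centralizer_singleton_iff.2 (congrArg Subtype.val
        (hab.is_comm.comm (⟨a, Subgroup.mem_sup_left ha⟩ : ↥(A ⊔ C)) ⟨z, hE.2 hz⟩)))
      (fun b hb => Subgroup.mem_centralizer_singleton_iff.2 (comm_iff.1 h0 b hb z hz))
    exact fun x hx => (Subgroup.mem_centralizer_singleton_iff.1 (hle hx)).symm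
  have hzA : z ∉ A := fun hzA => hne (eq_of_mem_inter hS hA hB h hE.1 hzA hz hz1)
  obtain ⟨a, ha, ha1⟩ := exists_left h
  obtain ⟨E', hE', hm⟩ := hcov (z * a) (mul_mem (hE.2 hz) (Subgroup.mem_sup_left ha))
    (fun e => hzA (by rw [eq_inv_of_mul_eq_one_left e]; exact inv_mem ha))
  rw [eq_of_mul_mem hS hA hB h hzc ha ha1 hE'.1 hm] at hm
  exact hzA ((mul_mem_cancel_right ha).1 hm)

include hS hA hB h in
theorem exists_rc_member (hC : C ∈ linePartners S A) :
    ∃ E ∈ membersIn S (A ⊔ C), RootCommutatorCase S B E := by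
  by_contra hno
  have hall : ∀ E ∈ membersIn S (A ⊔ C), IsRankOnePair E B := by
    intro E hE
    rcases hS.pair B hB E hE.1 with h0 | h0 | h0
    · by_cases e : E = A
      · exact e ▸ h
      · exact absurd h0 (not_commute_line hS hA hB h hC hE e)
    · exact RankOnePair_symm h0
    · exact absurd ⟨E, hE, h0⟩ hno
  obtain ⟨⟨hCS, hCA, hac⟩, -, hcov, -⟩ := hC
  have hCB := hall C ⟨hCS, le_sup_right⟩
  obtain ⟨a, ha, ha1⟩ := exists_left h
  obtain ⟨b, hb, hb1, e⟩ := h.cond_left a ha ha1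
  obtain ⟨c, hc, -, e'⟩ := hCB.cond_right b hb hb1
  have h1 := comm_conj hac b⁻¹
  rw [e, ← e'] at h1
  have h2 := comm_conj h1 a
  rw [conjBy_conjBy_inv, conjBy_mul] at h2
  have hd1 : a * c⁻¹ ≠ 1 := fun h' => ha1 (Subgroup.mem_bot.1 (inter_bot hS hA hB h hCS hCA ▸
    (⟨ha, by rw [mul_inv_eq_one.1 h']; exact hc⟩ : a ∈ A ⊓ C)))
  obtain ⟨E, hE, hm⟩ := hcov _ (mul_mem (Subgroup.mem_sup_left ha) (Subgroup.mem_sup_right (inv_mem hc))) hd1
  exact rankOne_not_comm_conj (hall E hE) hm hd1 (comm_symm h2)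

theorem map_conjBy {X : Subgroup G} (P : Subgroup X) (x : X) :
    (conjBy P x).map X.subtype = conjBy (P.map X.subtype) (x : G) := by
  show (P.map _).map _ = (P.map _).map (MulAut.conj (x : G)).toMonoidHom
  rw [Subgroup.map_map, Subgroup.map_map]; rfl

include h in
theorem rankOne_subgroupOf {X : Subgroup G} (hAX : A ≤ X) (hBX : B ≤ X) :
    IsRankOnePair (A.subgroupOf X) (B.subgroupOf X) := by
  have hinj := Subgroup.map_injective X.subtype_injective
  have key : ∀ {A B : Subgroup G}, A ≤ X → B ≤ X → RankOneCondition A B →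
      RankOneCondition (A.subgroupOf X) (B.subgroupOf X) := by
    intro A B hAX hBX hc a ha ha1
    obtain ⟨b, hb, hb1, e⟩ := hc a ha (fun e => ha1 (Subtype.ext e))
    refine ⟨⟨b, hBX hb⟩, hb, fun e' => hb1 (congrArg Subtype.val e'), hinj ?_⟩
    rw [map_conjBy, map_conjBy, Subgroup.map_subgroupOf_eq_of_le hAX, Subgroup.map_subgroupOf_eq_of_le hBX]
    exact e
  exact ⟨fun e => h.ne (by
      rw [← Subgroup.map_subgroupOf_eq_of_le hAX, e, Subgroup.map_subgroupOf_eq_of_le hBX]),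
    haveI := h.nilpotent_left; Group.nilpotent_of_mulEquiv (Subgroup.subgroupOfEquivOfLe hAX).symm,
    haveI := h.nilpotent_right; Group.nilpotent_of_mulEquiv (Subgroup.subgroupOfEquivOfLe hBX).symm,
    key hAX hBX h.cond_left, key hBX hAX h.cond_right⟩

include hS hA hB h in
theorem special_of_line (hC : C ∈ linePartners S A) (hBC : RootCommutatorCase S B C) : IsSpecialRankOnePair A B := by
  refine ⟨h, ?_⟩
  obtain ⟨⟨hCS, -, hac⟩, -⟩ := hC
  set F := ⁅B, C⁆ with hF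
  have hFS : F ∈ S := hBC.1
  have hCfix : ∀ a ∈ A, conjBy C a = C := fun a ha => conjBy_eq_self_of_comm' hac ha
  have hKeq : ∀ a ∈ A, ∀ b ∈ B, b ≠ 1 → conjBy A b⁻¹ = conjBy B a⁻¹ →
      conjBy (conjBy F a⁻¹) b = ⁅A, F⁆ := by
    intro a ha b hb hb1 e
    have e1 : conjBy F a⁻¹ = ⁅conjBy A b⁻¹, C⁆ := by
      rw [e, hF, conjBy, Subgroup.map_commutator]
      exact congrArg _ (hCfix _ (inv_mem ha))
    rw [e1, conjBy, Subgroup.map_commutator]
    change ⁅conjBy (conjBy A b⁻¹) b, conjBy C b⁆ = _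
    rw [conjBy_conjBy_inv]
    have key : ∀ a ∈ A, ∀ c ∈ C, ⁅a, b * c * b⁻¹⁆ = ⁅a, ⁅b, c⁆⁆ := by
      intro a ha c hc
      have h1 : Commute a c := comm_iff.1 hac a ha c hc
      calc ⁅a, b * c * b⁻¹⁆ = ⁅a, ⁅b, c⁆ * c⁆ := by
            congr 1; rw [commutatorElement_def]; group
        _ = ⁅a, ⁅b, c⁆⁆ * (⁅b, c⁆ * ⁅a, c⁆ * ⁅b, c⁆⁻¹) := by simp only [commutatorElement_def]; group
        _ = _ := by rw [commutatorElement_eq_one_iff_mul_comm.2 h1.eq]; group
    refine le_antisymm (Subgroup.commutator_le.2 ?_) (Subgroup.commutator_le.2 ?_)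
    · intro x hx y hy
      obtain ⟨c, hc, rfl⟩ := hy
      rw [MulEquiv.coe_toMonoidHom, MulAut.conj_apply, key x hx c hc]
      exact Subgroup.commutator_mem_commutator hx (Subgroup.commutator_mem_commutator hb hc)
    · intro x hx f hf
      obtain ⟨c, hc, ec⟩ := rc_surj hBC hb hb1 hf
      rw [← ec, ← commutatorElement_def, ← key x hx c hc]
      exact Subgroup.commutator_mem_commutator hx (conj_mem_conjBy b hc)
  obtain ⟨a₀, ha₀, ha₀1⟩ := exists_left h
  obtain ⟨b₀, hb₀, hb₀1, e₀⟩ := h.cond_left a₀ ha₀ ha₀1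
  set K := ⁅A, F⁆ with hK
  have hKS : K ∈ S := hKeq a₀ ha₀ b₀ hb₀ hb₀1 e₀ ▸ hS.conj_mem _ (hS.conj_mem F hFS _) _
  have hAF := rc_of_mem hS hA hFS hKS
  have hcle : ∀ {P Q U : Subgroup G}, P ≤ U → Q ≤ U → ⁅P, Q⁆ ≤ U := fun {P Q U} hP hQ =>
    Subgroup.commutator_le.2 fun p hp q hq =>
      U.mul_mem (U.mul_mem (U.mul_mem (hP hp) (hQ hq)) (U.inv_mem (hP hp))) (U.inv_mem (hQ hq))
  have hCF : ⁅C, F⁆ = ⊥ := rc_comm_right hBC
  have hCK : ⁅C, K⁆ = ⊥ := by
    rw [Subgroup.commutator_comm, Subgroup.commutator_eq_bot_iff_le_centralizer]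
    exact hcle (Subgroup.commutator_eq_bot_iff_le_centralizer.1 hac)
      (Subgroup.commutator_eq_bot_iff_le_centralizer.1 (comm_symm hCF))
  set R := C ⊔ F ⊔ K with hR
  have hC' : C ≤ R := le_sup_left.trans le_sup_left
  have hF' : F ≤ R := le_sup_right.trans le_sup_left
  have hK' : K ≤ R := le_sup_right
  have hRc : ∀ x ∈ R, ∀ y ∈ R, x * y = y * x := by
    have hall : ∀ P, (P = C ∨ P = F ∨ P = K) → ∀ Q, (Q = C ∨ Q = F ∨ Q = K) → ⁅P, Q⁆ = ⊥ := by
      have hself : ∀ P ∈ S, ⁅P, P⁆ = ⊥ := fun P hP => comm_iff.2 fun x hx y hy =>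
        congrArg Subtype.val ((hS.commutative P hP).is_comm.comm ⟨x, hx⟩ ⟨y, hy⟩)
      have hFK : ⁅F, K⁆ = ⊥ := rc_comm_right hAF
      rintro P (rfl | rfl | rfl) Q (rfl | rfl | rfl)
      exacts [hself _ hCS, hCF, hCK, comm_symm hCF, hself _ hFS, hFK, comm_symm hCK, comm_symm hFK, hself _ hKS]
    have h1 : ∀ P, (P = C ∨ P = F ∨ P = K) → R ≤ Subgroup.centralizer (P : Set G) := fun P hP => by
      refine sup_le (sup_le ?_ ?_) ?_ <;> rw [← Subgroup.commutator_eq_bot_iff_le_centralizer]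
      exacts [hall _ (Or.inl rfl) P hP, hall _ (Or.inr (Or.inl rfl)) P hP, hall _ (Or.inr (Or.inr rfl)) P hP]
    have h2 : R ≤ Subgroup.centralizer (R : Set G) :=
      sup_le (sup_le (Subgroup.le_centralizer_iff.1 (h1 _ (Or.inl rfl)))
        (Subgroup.le_centralizer_iff.1 (h1 _ (Or.inr (Or.inl rfl)))))
        (Subgroup.le_centralizer_iff.1 (h1 _ (Or.inr (Or.inr rfl))))
    exact fun x hx y hy => Subgroup.mem_centralizer_iff.1 (h2 hy) x hx
  have hconjA : ∀ a ∈ A, ∀ r ∈ R, a * r * a⁻¹ * r⁻¹ ∈ K := by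
    intro a ha r hr
    have hstep : ∀ f ∈ F, a * f * a⁻¹ * f⁻¹ ∈ K := fun f hf => comm_elem_mem ha hf
    have hgen : R ≤ Subgroup.closure ((C : Set G) ∪ F ∪ K) := sup_le (sup_le
      (fun x hx => Subgroup.subset_closure (Or.inl (Or.inl hx)))
      (fun x hx => Subgroup.subset_closure (Or.inl (Or.inr hx)))) (fun x hx => Subgroup.subset_closure (Or.inr hx))
    have key : r ∈ R ∧ a * r * a⁻¹ * r⁻¹ ∈ K := by
      have hr' := hgen hr
      clear hr
      induction hr' using Subgroup.closure_induction with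
      | mem x hx =>
        rcases hx with (hx | hx) | hx
        · exact ⟨hC' hx, by rw [comm_iff.1 hac a ha x hx]; simp⟩
        · exact ⟨hF' hx, hstep x hx⟩
        · exact ⟨hK' hx, by rw [comm_iff.1 (rc_comm_left hAF) a ha x hx]; simp⟩
      | one => exact ⟨one_mem _, by simp⟩
      | mul x y _ _ hx hy =>
        refine ⟨mul_mem hx.1 hy.1, ?_⟩
        have e : a * (x * y) * a⁻¹ * (x * y)⁻¹ =
            (a * x * a⁻¹ * x⁻¹) * (x * (a * y * a⁻¹ * y⁻¹) * x⁻¹) := by group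
        rw [e, hRc x hx.1 _ (hK' hy.2), mul_inv_cancel_right]
        exact mul_mem hx.2 hy.2
      | inv x _ hx =>
        refine ⟨inv_mem hx.1, ?_⟩
        have e : a * x⁻¹ * a⁻¹ * x⁻¹⁻¹ = x⁻¹ * (a * x * a⁻¹ * x⁻¹)⁻¹ * x := by group
        rw [e, hRc _ (inv_mem hx.1) _ (inv_mem (hK' hx.2)), inv_mul_cancel_right]
        exact inv_mem hx.2
    exact key.2
  have hnA : ∀ a ∈ A, ∀ r ∈ R, a * r * a⁻¹ ∈ R := fun a ha r hr => by
    simpa using mul_mem (hK' (hconjA a ha r hr)) hr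
  have hnB : ∀ y ∈ B, ∀ r ∈ R, y * r * y⁻¹ ∈ R := by
    intro y hy r hr
    have hle : R ≤ R.comap (MulAut.conj y).toMonoidHom := by
      refine sup_le (sup_le ?_ ?_) ?_
      · intro c hc
        show y * c * y⁻¹ ∈ R
        simpa using mul_mem (hF' (comm_elem_mem hy hc)) (hC' hc)
      · intro f hf
        show y * f * y⁻¹ ∈ R
        rw [comm_iff.1 (rc_comm_left hBC) y hy f hf, mul_inv_cancel_right]
        exact hF' hf
      · intro k hk
        show y * k * y⁻¹ ∈ R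
        by_cases hy1 : y = 1
        · simpa [hy1] using hK' hk
        obtain ⟨a, ha, -, e⟩ := h.cond_right y⁻¹ (inv_mem hy) (inv_ne_one.2 hy1)
        rw [← hKeq a ha y⁻¹ (inv_mem hy) (inv_ne_one.2 hy1) e.symm, mem_conjBy, inv_inv] at hk
        obtain ⟨f, hf, e'⟩ := hk
        rw [MulEquiv.coe_toMonoidHom, MulAut.conj_apply] at e'
        rw [← e']
        exact hnA _ (inv_mem ha) f (hF' hf)
    exact hle hr
  set X := A ⊔ B with hX
  have hXR : ∀ x ∈ X, ∀ r ∈ R, x * r * x⁻¹ ∈ R := by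
    have key : X ≤ Subgroup.normalizer (R : Set G) := by
      refine sup_le ?_ ?_ <;> intro x hx <;> rw [Subgroup.mem_normalizer_iff] <;> intro r
      · exact ⟨hnA x hx r, fun h' => by simpa [mul_assoc] using hnA x⁻¹ (inv_mem hx) _ h'⟩
      · exact ⟨hnB x hx r, fun h' => by simpa [mul_assoc] using hnB x⁻¹ (inv_mem hx) _ h'⟩
    exact fun x hx r hr => ((Subgroup.mem_normalizer_iff.1 (key hx)) r).1 hr
  haveI hRcomm : IsMulCommutative R := ⟨⟨fun x y => Subtype.ext (hRc x x.2 y y.2)⟩⟩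
  letI : CommGroup R := { (inferInstance : Group R) with mul_comm := fun x y => Subtype.ext (hRc x x.2 y y.2) }
  letI : DistribMulAction X (Additive R) :=
    { smul := fun x r => Additive.ofMul ⟨(x : G) * (r.toMul : R) * (x : G)⁻¹, hXR x x.2 _ (r.toMul).2⟩
      one_smul := fun r => Additive.toMul.injective (Subtype.ext (by
        show (1 : G) * _ * (1 : G)⁻¹ = _; simp))
      mul_smul := fun x y r => Additive.toMul.injective (Subtype.ext (by
        show ((x : G) * y) * _ * ((x : G) * y)⁻¹ = (x : G) * ((y : G) * _ * (y : G)⁻¹) * (x : G)⁻¹; group))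
      smul_zero := fun x => Additive.toMul.injective (Subtype.ext (by
        show (x : G) * 1 * (x : G)⁻¹ = 1; group))
      smul_add := fun x r s => Additive.toMul.injective (Subtype.ext (by
        show (x : G) * ((r.toMul : R) * (s.toMul : R) : G) * (x : G)⁻¹ =
          ((x : G) * (r.toMul : R) * (x : G)⁻¹) * ((x : G) * (s.toMul : R) * (x : G)⁻¹)
        group)) }
  have hval : ∀ (x : X) (r : Additive R), (((x • r - r).toMul : R) : G) =
      (x : G) * (r.toMul : R) * (x : G)⁻¹ * ((r.toMul : R) : G)⁻¹ := by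
    intro x r
    rw [toMul_sub, div_eq_mul_inv]
    rfl
  have hAX : A ≤ X := le_sup_left
  have hBX : B ≤ X := le_sup_right
  have h' := rankOne_subgroupOf h hAX hBX
  have htop : A.subgroupOf X ⊔ B.subgroupOf X = ⊤ := by
    rw [← Subgroup.subgroupOf_sup hAX hBX, ← hX, Subgroup.subgroupOf_self]
  have hq : Quad (Additive R) (A.subgroupOf X) := by
    intro a ha a' ha' r
    have hm := hconjA a (by exact ha) (r.toMul : R) (r.toMul : R).2
    rw [← hval a r] at hm
    have hfix : ∀ s : Additive R, ((s.toMul : R) : G) ∈ K → a' • s = s := fun s hs => by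
      refine Additive.toMul.injective (Subtype.ext ?_)
      show (a' : G) * _ * (a' : G)⁻¹ = _
      rw [comm_iff.1 (rc_comm_left hAF) (a' : G) ha' _ hs, mul_inv_cancel_right]
    exact hfix _ hm
  have hne : ∃ x y : X, ∃ r : Additive R, y • (x • r - r) ≠ x • r - r := by
    obtain ⟨c, hc, hc1⟩ := C.bot_or_exists_ne_one.resolve_left (hS.ne_bot C hCS)
    obtain ⟨b, hb, hb1⟩ := exists_right h
    obtain ⟨a, ha, ha1⟩ := exists_left h
    refine ⟨⟨b, hBX hb⟩, ⟨a, hAX ha⟩, Additive.ofMul (⟨c, hC' hc⟩ : R), fun e => ?_⟩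
    have e' := congrArg (fun s : Additive R => ((s.toMul : R) : G)) e
    set k := b * c * b⁻¹ * c⁻¹ with hk
    have hv : ((((⟨b, hBX hb⟩ : X) • Additive.ofMul (⟨c, hC' hc⟩ : R) - Additive.ofMul (⟨c, hC' hc⟩ : R)).toMul : R) : G) = k :=
      hval _ _
    have e'' : a * k * a⁻¹ = k := by
      rw [← hv]; exact e'
    rcases rc_inj hS hA hB h hAF ha (show k ∈ F from comm_elem_mem hb hc)
      (by rw [e'', mul_inv_cancel]) with h1 | h1
    · exact ha1 h1
    · rcases rc_inj hS hB hA (RankOnePair_symm h) hBC hb hc h1 with h2 | h2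
      exacts [hb1 h2, hc1 h2]
  intro a ha _ b hb _ e
  have e' : conjBy (A.subgroupOf X) (⟨b, hBX hb⟩ : X)⁻¹ = conjBy (B.subgroupOf X) (⟨a, hAX ha⟩ : X)⁻¹ := by
    apply Subgroup.map_injective X.subtype_injective
    rw [map_conjBy, map_conjBy, Subgroup.map_subgroupOf_eq_of_le hAX, Subgroup.map_subgroupOf_eq_of_le hBX]
    exact e
  exact congrArg Subtype.val
    (special_of_quad h' htop hq hne (a := ⟨a, hAX ha⟩) (b := ⟨b, hBX hb⟩) ha hb e')

end


/-- Let S be a non-degenerate class of abstract root subgroups of G, A ∈ S and B a rank one partner of A. Then some line partner C of A has ⁅B, C⁆ ∈ S, and the rank one pair A, B is special. -/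
theorem result {G : Type*} [Group G] {S : Set (Subgroup G)} (hS : Cfsg.IsRootSubgroupClass S) (hnd : Cfsg.IsNondegenerateRootSet S)
    {A B : Subgroup G} (hA : A ∈ S) (hB : B ∈ Cfsg.rankOnePartners S A) :
    (∃ C ∈ Cfsg.linePartners S A, C ∈ Cfsg.commutatorPartners S B) ∧ Cfsg.IsSpecialRankOnePair A B := by
  obtain ⟨hS, hcl⟩ := hS
  obtain ⟨hBS, h⟩ := hB
  obtain ⟨-, -, ⟨A₁, hA₁, B₁, hB₁, h₁⟩⟩ := hnd
  obtain ⟨g, hg⟩ := hcl.2 _ h₁.1 A hA
  have hpart : ∀ P ∈ S, ∃ P' ∈ S, IsRankOnePair P P' := by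
    intro P hP
    obtain ⟨x, rfl⟩ := hcl.2 A hA P hP
    exact ⟨_, hS.conj_mem B hBS x, rankOne_conj h x⟩
  have hPS := hS.conj_mem A₁ hA₁ g
  have hQS := hS.conj_mem B₁ hB₁ g
  set P := conjBy A₁ g with hP
  set Q := conjBy B₁ g with hQ
  have hcom : ⁅P, Q⁆ = A := by rw [hg, hP, hQ, conjBy, conjBy, conjBy, Subgroup.map_commutator]
  have line : ∀ P' ∈ S, ⁅P', Q⁆ = A → membersIn S (P' ⊔ A) = (fun q : G => conjBy P' q) '' (Q : Set G) ∪ {A} ∧
      P' ∈ linePartners S A := by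
    intro P' hP' e
    obtain ⟨R, hR, hPR⟩ := hpart P' hP'
    obtain ⟨h1, -, h3⟩ := rc_members hS hP' hR hPR hQS (rc_of_mem hS hP' hQS (e ▸ hA))
    rw [e] at h1 h3
    exact ⟨h1, h3⟩
  obtain ⟨hmem, hlineP⟩ := line P hPS hcom
  obtain ⟨E, hE, hBE⟩ := exists_rc_member hS hA hBS h hlineP
  rw [sup_comm A P, hmem] at hE
  have hEA : E ≠ A := fun e => rc_not_rankOne hS hA (e ▸ hBE) (RankOnePair_symm h)
  obtain ⟨q, hq, rfl⟩ := hE.resolve_right hEA
  have hqA : conjBy A q = A := by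
    refine conjBy_eq_self_of_comm (comm_symm ?_) hq
    rw [← hcom]; exact rc_comm_right (rc_of_mem hS hPS hQS (hcom ▸ hA))
  have hline := (line (conjBy P q) (hS.conj_mem P hPS q) (by
    conv_lhs => rw [← conjBy_eq_self_of_mem hq]
    rw [conjBy, conjBy, ← Subgroup.map_commutator, hcom]; exact hqA)).2
  exact ⟨⟨_, hline, hBE.1 |> fun hm => ⟨hS.conj_mem P hPS q, hm⟩⟩, special_of_line hS hA hBS h hline hBE⟩

end Cfsg.Agent.S5034
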