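import Cfsg.Statements.S3951
import Cfsg.Agent.Lib.SchurMult.Bilinear
import Cfsg.Agent.Lib.GS.StemDihedral

set_option autoImplicit false
open Cfsg

namespace Cfsg.Agent.S3951

open scoped commutatorElement

/-- For positive integers `m` and `n` with `n` dividing `m`, the Schur multiplier of the abelian group `ZMod m × ZMod n` (written multiplicatively) is cyclic of order `n`. In particular the elementary abelian group of order `p ^ 2` has multiplier of order `p`. -/
theorem result (m n : ℕ) [NeZero m] [NeZero n] (hnm : n ∣ m) : Cfsg.HasCyclicSchurMultiplier (Multiplicative (ZMod m × ZMod n)) n := by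
  let G := Multiplicative (ZMod m × ZMod n)
  let C := Multiplicative (ZMod n)
  let pa : (ZMod m × ZMod n) →+ ZMod n :=
    (ZMod.castHom hnm (ZMod n)).toAddMonoidHom.comp (AddMonoidHom.fst _ _)
  let β : G →* (G →* C) :=
    MonoidHom.mk' (fun x => AddMonoidHom.toMultiplicative
      ((AddMonoidHom.mulLeft (pa (Multiplicative.toAdd x))).comp (AddMonoidHom.snd (ZMod m) (ZMod n))))
      fun x y => MonoidHom.ext fun z => by
        apply Multiplicative.toAdd.injective
        simp [G, add_mul]
  refine ⟨⟨Cfsg.Agent.Lib.SchurMult.BExt β, inferInstance, inferInstance,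
    Cfsg.Agent.Lib.SchurMult.bProj β, Cfsg.Agent.Lib.SchurMult.bExt_stem β fun c => ?_⟩, ?_⟩
  · obtain ⟨c, rfl⟩ := Multiplicative.ofAdd.surjective c
    obtain ⟨k, rfl⟩ := ZMod.castHom_surjective hnm c
    refine Subgroup.subset_closure ⟨((Multiplicative.ofAdd ((k, 0) : ZMod m × ZMod n)),
      (Multiplicative.ofAdd ((0, 1) : ZMod m × ZMod n))), ?_⟩
    apply Multiplicative.toAdd.injective
    simp [β, pa, C, AddMonoidHom.toMultiplicative]
  · intro Γ _ _ σ hσ
    obtain ⟨hs, hc, hk⟩ := hσ
    obtain ⟨A, hA⟩ := hs (Multiplicative.ofAdd ((1, 0) : ZMod m × ZMod n))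
    obtain ⟨B, hB⟩ := hs (Multiplicative.ofAdd ((0, 1) : ZMod m × ZMod n))
    have hgen : Subgroup.closure ({σ A, σ B} : Set G) = ⊤ := by
      rw [eq_top_iff]
      rintro x -
      obtain ⟨⟨i, j⟩, rfl⟩ := Multiplicative.ofAdd.surjective x
      have : Multiplicative.ofAdd ((i, j) : ZMod m × ZMod n) = σ A ^ i.val * σ B ^ j.val := by
        rw [hA, hB, ← ofAdd_nsmul, ← ofAdd_nsmul, ← ofAdd_add]
        simp
      rw [this]
      exact Subgroup.mul_mem _ (Subgroup.pow_mem _ (Subgroup.subset_closure (by simp)) _)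
        (Subgroup.pow_mem _ (Subgroup.subset_closure (by simp)) _)
    have hcc : ⁅A, B⁆ ∈ Subgroup.center Γ := hc (by
      rw [MonoidHom.mem_ker, map_commutatorElement, commutatorElement_eq_one_iff_mul_comm, mul_comm])
    have hle := Cfsg.Agent.Lib.SchurMult.commutator_le_zpowers σ hc A B hgen hcc
    have hn : ⁅A, B⁆ ^ n = 1 := by
      have hBn : B ^ n ∈ Subgroup.center Γ := hc (by
        rw [MonoidHom.mem_ker, map_pow, hB, ← ofAdd_nsmul]; simp)
      have hconj : A * B * A⁻¹ = ⁅A, B⁆ * B := by rw [commutatorElement_def]; group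
      have h1 : (A * B * A⁻¹) ^ n = B ^ n := by
        rw [conj_pow, Subgroup.mem_center_iff.mp hBn A, mul_inv_cancel_right]
      rw [hconj, (show Commute ⁅A, B⁆ B from (Subgroup.mem_center_iff.mp hcc B).symm).mul_pow] at h1
      exact mul_eq_right.mp h1
    have hcard : Nat.card (Subgroup.zpowers ⁅A, B⁆) ∣ n := by
      rw [Nat.card_zpowers]; exact orderOf_dvd_of_pow_eq_one hn
    haveI : IsCyclic σ.ker := isCyclic_of_injective (Subgroup.inclusion (hk.trans hle))
      (Subgroup.inclusion_injective _)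
    exact Cfsg.Agent.Lib.GS.exists_surj_zmod
      ((Subgroup.card_dvd_of_le (hk.trans hle)).trans hcard)

end Cfsg.Agent.S3951
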