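import Cfsg.Statements.S3966
import Mathlib
import Cfsg.Agent.Lib.GS.StemDihedral

set_option autoImplicit false
open Cfsg

namespace Cfsg.Agent.S3966

open scoped commutatorElement

/-- For even `n ≥ 2` the dicyclic group of order `4 n` is a stem extension of the dihedral group of order `2 n` with kernel of order `2`: there is a surjective homomorphism `QuaternionGroup n →* DihedralGroup n` whose kernel is central, lies in the commutator subgroup and has two elements. Together with the order of the multiplier this exhibits the dicyclic group as a Schur covering group of the dihedral group. -/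
theorem result (n : ℕ) [NeZero n] (hn : Even n) : ∃ σ : QuaternionGroup n →* DihedralGroup n, Cfsg.IsStemExtension σ ∧ Nat.card σ.ker = 2 := by
  have hdvd : n ∣ 2 * n := dvd_mul_left n 2
  let f : ZMod (2 * n) →+* ZMod n := ZMod.castHom hdvd (ZMod n)
  have hfn : f (n : ZMod (2 * n)) = 0 := by simp
  let σ : QuaternionGroup n →* DihedralGroup n :=
    { toFun := fun
        | QuaternionGroup.a i => DihedralGroup.r (f i)
        | QuaternionGroup.xa i => DihedralGroup.sr (f i)
      map_one' := by
        rw [QuaternionGroup.one_def]; simp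
      map_mul' := by
        rintro (i | i) (j | j) <;> simp [map_add, map_sub, hfn] }
  obtain ⟨m, hm⟩ := hn
  have hnn : (n : ZMod (2 * n)) + n = 0 := by
    have := ZMod.natCast_self (2 * n); push_cast at this; linear_combination this
  have hker : σ.ker = Subgroup.zpowers (QuaternionGroup.a (n : ZMod (2 * n))) := by
    apply le_antisymm
    · rintro (i | i) hi
      · rw [MonoidHom.mem_ker] at hi
        change DihedralGroup.r (f i) = DihedralGroup.r 0 at hi
        injection hi with hi
        have h2 : ((i.val : ℕ) : ZMod n) = 0 := by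
          rw [← map_natCast f, ZMod.natCast_zmod_val]; exact hi
        obtain ⟨d, hd⟩ := (ZMod.natCast_eq_zero_iff _ _).mp h2
        refine Subgroup.mem_zpowers_iff.mpr ⟨d, ?_⟩
        rw [zpow_natCast, ← QuaternionGroup.a_one_pow, ← pow_mul, ← hd, QuaternionGroup.a_one_pow,
          ZMod.natCast_zmod_val]
      · rw [MonoidHom.mem_ker] at hi
        change DihedralGroup.sr (f i) = DihedralGroup.r 0 at hi
        cases hi
    · rw [Subgroup.zpowers_le, MonoidHom.mem_ker]
      change DihedralGroup.r (f n) = 1
      rw [hfn, DihedralGroup.r_zero]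
  have hsurj : Function.Surjective σ := by
    rintro (i | i) <;> obtain ⟨j, rfl⟩ := ZMod.castHom_surjective hdvd i
    · exact ⟨QuaternionGroup.a j, rfl⟩
    · exact ⟨QuaternionGroup.xa j, rfl⟩
  refine ⟨σ, ⟨hsurj, ?_, ?_⟩, ?_⟩
  · rw [hker, Subgroup.zpowers_le, Subgroup.mem_center_iff]
    rintro (i | i)
    · simp [add_comm]
    · simp only [QuaternionGroup.xa_mul_a, QuaternionGroup.a_mul_xa]
      congr 1
      linear_combination hnn
  · rw [hker, Subgroup.zpowers_le, commutator_eq_closure]
    refine Subgroup.subset_closure ⟨QuaternionGroup.xa 0, QuaternionGroup.a (m : ZMod (2 * n)), ?_⟩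
    rw [commutatorElement_def]
    have e1 : (QuaternionGroup.xa 0 : QuaternionGroup n)⁻¹ = QuaternionGroup.xa ((n : ZMod (2 * n)) + 0) := rfl
    have e2 : (QuaternionGroup.a (m : ZMod (2 * n)))⁻¹ = QuaternionGroup.a (-(m : ZMod (2 * n))) := rfl
    rw [e1, e2]
    simp only [QuaternionGroup.xa_mul_a, QuaternionGroup.xa_mul_xa, QuaternionGroup.a_mul_a]
    congr 1
    have hm' : (n : ZMod (2 * n)) = (m : ZMod (2 * n)) + m := by rw [← Nat.cast_add, ← hm]
    linear_combination hm'
  · rw [hker, Nat.card_zpowers, QuaternionGroup.orderOf_a, ZMod.val_natCast,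
      Nat.mod_eq_of_lt (by have := NeZero.pos n; omega), Nat.gcd_mul_left_left,
      Nat.mul_div_cancel _ (NeZero.pos n)]

end Cfsg.Agent.S3966
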