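import Cfsg.Statements.S3965
import Mathlib
import Cfsg.Agent.Lib.GS.StemDihedral
import Cfsg.Agent.S3966

set_option autoImplicit false
open Cfsg

namespace Cfsg.Agent.S3965


/-- For even `n ≥ 2` the dihedral group of order `2 n` has Schur multiplier cyclic of order `2`. -/
theorem result (n : ℕ) [NeZero n] (hn : Even n) : Cfsg.HasCyclicSchurMultiplier (DihedralGroup n) 2 := by
  haveI : Fact (Nat.Prime 2) := ⟨Nat.prime_two⟩
  obtain ⟨σ, hσ, hcard⟩ := Cfsg.Agent.S3966.result n hn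
  refine ⟨⟨QuaternionGroup n, inferInstance, inferInstance, σ, hσ,
    ⟨mulEquivOfPrimeCardEq (p := 2) hcard (by simp [Nat.card_eq_fintype_card])⟩⟩, ?_⟩
  intro Γ _ _ τ hτ
  obtain ⟨c, hcn, hc⟩ := Cfsg.Agent.Lib.GS.dihedral_stem_ker τ hτ
  obtain ⟨m, rfl⟩ := hn
  have hle : τ.ker ≤ Subgroup.zpowers (c ^ m) := by
    intro z hz
    obtain ⟨j, rfl, hj⟩ := hc z hz
    obtain ⟨d, hd⟩ : (m : ℤ) ∣ j := by
      push_cast at hj
      rw [← two_mul] at hj
      exact (mul_dvd_mul_iff_left (two_ne_zero : (2 : ℤ) ≠ 0)).mp hj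
    exact Subgroup.mem_zpowers_iff.mpr ⟨d, by rw [hd, zpow_mul, zpow_natCast]⟩
  haveI : IsCyclic τ.ker := isCyclic_of_injective (Subgroup.inclusion hle) (Subgroup.inclusion_injective hle)
  refine Cfsg.Agent.Lib.GS.exists_surj_zmod ((Subgroup.card_dvd_of_le hle).trans ?_)
  rw [Nat.card_zpowers]
  exact orderOf_dvd_of_pow_eq_one (by rw [← pow_mul, mul_two, hcn])

end Cfsg.Agent.S3965
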