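import Cfsg.Statements.S0985
import Mathlib

set_option autoImplicit false
open Cfsg

namespace Cfsg.Agent.S0985

/-- If the number of Sylow p-subgroups of a finite group is not congruent to 1 modulo p^k, then there are two distinct Sylow p-subgroups P and R such that the index of P ∩ R in P is at most p^(k-1). -/
theorem result {G : Type*} [Group G] [Finite G] (p k : ℕ) [Fact p.Prime] (h : ¬ Nat.card (Sylow p G) ≡ 1 [MOD p ^ k]) : ∃ P R : Sylow p G, P ≠ R ∧ ((R : Subgroup G).subgroupOf (P : Subgroup G)).index ≤ p ^ (k - 1) := by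
  classical
  have hp : p.Prime := Fact.out
  by_contra hcon
  push_neg at hcon
  refine h ?_
  obtain ⟨P⟩ : Nonempty (Sylow p G) := inferInstance
  have hstab : ∀ R : Sylow p G, MulAction.stabilizer (P : Subgroup G) R =
      (R : Subgroup G).subgroupOf (P : Subgroup G) := by
    intro R
    ext x
    rw [MulAction.mem_stabilizer_iff, Subgroup.mem_subgroupOf, Subgroup.smul_def,
      Sylow.smul_eq_iff_mem_normalizer]
    constructor
    · intro hx
      have := (P.isPGroup'.inf_normalizer_sylow R).le ⟨x.2, hx⟩
      exact this.2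
    · intro hx; exact Subgroup.le_normalizer hx
  have horb : ∀ R : Sylow p G, Nat.card (MulAction.orbit (P : Subgroup G) R) =
      ((R : Subgroup G).subgroupOf (P : Subgroup G)).index := by
    intro R
    rw [← hstab R, MulAction.index_stabilizer, Nat.card_coe_set_eq]
  have hdiv : ∀ R : Sylow p G, R ≠ P → p ^ k ∣ Nat.card (MulAction.orbit (P : Subgroup G) R) := by
    intro R hR
    rw [horb]
    obtain ⟨j, hj⟩ := P.isPGroup'.index ((R : Subgroup G).subgroupOf (P : Subgroup G))
    rw [hj]
    refine pow_dvd_pow p ?_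
    have := hcon P R hR.symm
    rw [hj, Nat.pow_lt_pow_iff_right hp.one_lt] at this
    omega
  have hone : Nat.card (MulAction.orbit (P : Subgroup G) P) = 1 := by
    rw [horb, Subgroup.subgroupOf_self, Subgroup.index_top]
  have : Fintype (MulAction.orbitRel.Quotient (P : Subgroup G) (Sylow p G)) := Fintype.ofFinite _
  rw [Nat.card_congr (MulAction.selfEquivSigmaOrbits (P : Subgroup G) (Sylow p G)), Nat.card_sigma]
  let w : MulAction.orbitRel.Quotient (P : Subgroup G) (Sylow p G) := Quotient.mk'' P
  rw [← Finset.add_sum_erase _ _ (Finset.mem_univ w)]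
  have hout : ∀ x : MulAction.orbitRel.Quotient (P : Subgroup G) (Sylow p G),
      MulAction.orbit (P : Subgroup G) x.out = x.orbit := fun x =>
    (MulAction.orbitRel.Quotient.orbit_eq_orbit_out x Quotient.out_eq').symm
  have h1 : Nat.card (MulAction.orbit (P : Subgroup G) w.out) = 1 := by
    rw [hout w, MulAction.orbitRel.Quotient.orbit_mk]; exact hone
  rw [h1]
  have h0 : p ^ k ∣ ∑ x ∈ Finset.univ.erase w, Nat.card (MulAction.orbit (P : Subgroup G) x.out) := by
    refine Finset.dvd_sum fun x hx => hdiv _ fun hxP => (Finset.mem_erase.1 hx).1 ?_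
    rw [← Quotient.out_eq' x, hxP]
  exact Nat.ModEq.symm ((Nat.modEq_iff_dvd' (Nat.le_add_right 1 _)).2 (by simpa using h0))

end Cfsg.Agent.S0985
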