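import Cfsg.Statements.S1414
import Cfsg.Agent.Lib.Uniq.Beta
-- import your own Cfsg.Agent.* helpers here

set_option autoImplicit false
open Cfsg

namespace Cfsg.Agent.S1414

/-- Let G be a minimal simple group of odd order, M a maximal subgroup, β(M) the set of ideal primes in α(M), and M_β = O_{β(M)}(M). Then M_β is a Hall β(M)-subgroup of M and of G; M' and M_σ each have a nilpotent Hall β(M)'-subgroup; and for each prime p dividing the order of M with p ∉ β(M), both M' and M_σ have normal p-complements and every prime dividing the index of O_{p'}(M) in M is at most p. -/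
theorem result {G : Type*} [Group G] [Finite G] (hG : Cfsg.IsMinSimpleOddOrder G)
    (M : Subgroup G) (hM : IsCoatom M) :
    Cfsg.IsPiHallOf (Cfsg.beta M) (Cfsg.piCoreOf (Cfsg.beta M) M) M ∧ Cfsg.IsPiHall (Cfsg.beta M) (Cfsg.piCoreOf (Cfsg.beta M) M) ∧
      (∃ H : Subgroup G, Cfsg.IsPiHallOf {q | q.Prime ∧ q ∉ Cfsg.beta M} H ⁅M, M⁆ ∧ Group.IsNilpotent H) ∧
      (∃ H : Subgroup G, Cfsg.IsPiHallOf {q | q.Prime ∧ q ∉ Cfsg.beta M} H (Cfsg.sigmaCore M) ∧ Group.IsNilpotent H) ∧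
      ∀ p : ℕ, p.Prime → p ∣ Nat.card M → p ∉ Cfsg.beta M →
        Cfsg.HasNormalPComplement p ↥⁅M, M⁆ ∧ Cfsg.HasNormalPComplement p ↥(Cfsg.sigmaCore M) ∧
        ∀ q : ℕ, q.Prime → q ∣ (Cfsg.pPrimeCore p ↥M).index → q ≤ p := by
  have hD : ⁅M, M⁆ ≠ ⊤ := fun e => hM.1 (top_le_iff.mp (e ▸ (Subgroup.map_subtype_commutator M ▸ Subgroup.map_subtype_le _)))
  obtain ⟨h1, h2⟩ := Cfsg.Agent.Lib.Uniq.beta_core_hall hG hM
  refine ⟨h1, h2, Cfsg.Agent.Lib.Uniq.exists_nilpotent_hall hG hM le_rfl hD,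
    Cfsg.Agent.Lib.Uniq.exists_nilpotent_hall hG hM (Cfsg.Agent.Lib.Uniq.sigmaCore_le_derived hG hM)
      (fun e => hM.1 (top_le_iff.mp (e ▸ Subgroup.map_subtype_le _))), fun p hp hpM hβ => ?_⟩
  haveI := Fact.mk hp
  exact ⟨Cfsg.Agent.Lib.Uniq.normalPComplement_derived hG hM hpM hβ le_rfl,
    Cfsg.Agent.Lib.Uniq.normalPComplement_derived hG hM hpM hβ (Cfsg.Agent.Lib.Uniq.sigmaCore_le_derived hG hM),
    (Cfsg.Agent.Lib.Uniq.not_beta_structure hG hM hpM hβ).1⟩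

end Cfsg.Agent.S1414
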