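import Cfsg.Statements.S1378
import Cfsg.Agent.Lib.Uniq.SigmaDisjoint
-- import your own Cfsg.Agent.* helpers here

set_option autoImplicit false
open Cfsg

namespace Cfsg.Agent.S1378

/-- Let G be a minimal simple group of odd order. Then every prime dividing the order of G belongs to σ(M) for some maximal subgroup M, and if σ(M) and σ(N) have a prime in common for maximal subgroups M, N then N is conjugate to M; so the sets σ(M_i) over representatives of the conjugacy classes of maximal subgroups partition the prime divisors of #G. -/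
theorem result {G : Type*} [Group G] [Finite G] (hG : Cfsg.IsMinSimpleOddOrder G) :
    (∀ p : ℕ, p.Prime → p ∣ Nat.card G → ∃ M : Subgroup G, IsCoatom M ∧ p ∈ Cfsg.sigma M) ∧
      ∀ M N : Subgroup G, IsCoatom M → IsCoatom N → (Cfsg.sigma M ∩ Cfsg.sigma N).Nonempty → ∃ g : G, N = M.map (MulAut.conj g).toMonoidHom := by
  refine ⟨fun p hp hd => ?_, fun M N hM hN ⟨q, hqM, hqN⟩ => ?_⟩
  · haveI := Fact.mk hp
    obtain ⟨P⟩ : Nonempty (Sylow p G) := inferInstance
    have hP1 : (P : Subgroup G) ≠ ⊥ := fun e =>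
      hp.ne_one (Nat.dvd_one.mp (Subgroup.card_bot (G := G) ▸ e ▸ P.dvd_card_of_dvd_card hd))
    obtain ⟨M, hM, hNM⟩ := Lib.Uniq.exists_coatom_ge
      (Cfsg.Agent.Lib.OddLocal.minSimple_normalizer_ne_top hG hP1 (Lib.Uniq.pgroup_ne_top hG P.2))
    have hPM : (P : Subgroup G) ≤ M := Subgroup.le_normalizer.trans hNM
    exact ⟨M, hM, hp, (P.dvd_card_of_dvd_card hd).trans (Subgroup.card_dvd_of_le hPM), P.subtype hPM, by
      rw [Sylow.coe_subtype, Subgroup.map_subgroupOf_eq_of_le hPM]; exact hNM⟩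
  · obtain ⟨g, hg⟩ := Lib.Uniq.conj_of_sigma_sigma hG hM hN hqM hqN
    exact ⟨g, hg⟩

end Cfsg.Agent.S1378
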