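import Cfsg.Statements.S0005
import Cfsg.Agent.Lib.Hall.Solvable

set_option autoImplicit false
open Cfsg

namespace Cfsg.Agent.S0005

theorem index_eq {G : Type*} [Group G] [Finite G] {m n : ℕ} (hG : Nat.card G = m * n)
    {H : Subgroup G} (hH : Nat.card H = m) : H.index = n := by
  apply mul_left_cancel₀ (Nat.card_pos (α := H)).ne'
  rw [H.card_mul_index, hG, hH]

/-- Hall's Theorem, containment: in a finite solvable group of order m * n with m and n coprime, every subgroup of order coprime to n is contained in a subgroup of order m. -/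
theorem result {G : Type*} [Group G] [Finite G] [Group.IsSolvable G] (m n : ℕ)
    (hG : Nat.card G = m * n) (hmn : m.Coprime n) (K : Subgroup G) (hK : (Nat.card K).Coprime n) :
    ∃ H : Subgroup G, Nat.card H = m ∧ K ≤ H := by
  obtain ⟨H, hH⟩ := Lib.Hall.exists_subgroup_card_eq hG hmn
  obtain ⟨g, hg⟩ := Lib.Hall.exists_le_conj (H := H) (K := K) (by rw [hH, index_eq hG hH]; exact hmn)
    (by rw [index_eq hG hH]; exact hK)
  exact ⟨_, (Lib.Coprime.card_conj_smul g H).trans hH, hg⟩

end Cfsg.Agent.S0005
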