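import Cfsg.Statements.S0007
import Cfsg.Agent.Lib.Coprime.Basic

set_option autoImplicit false
open scoped Pointwise commutatorElement
open Cfsg

namespace Cfsg.Agent.S0007

/-- Subgroups of coprime index: the intersection has index equal to the product of the indices, and every element is a product of an element of the first subgroup and an element of the second. -/
theorem result {G : Type*} [Group G] [Finite G] (H K : Subgroup G)
    (h : H.index.Coprime K.index) :
    (H ⊓ K).index = H.index * K.index ∧ ∀ g : G, ∃ x ∈ H, ∃ y ∈ K, g = x * y := by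
  have hle := Subgroup.index_inf_le (H := H) (K := K)
  have hdvd : H.index * K.index ∣ (H ⊓ K).index :=
    h.mul_dvd_of_dvd_of_dvd (Subgroup.index_dvd_of_le inf_le_left) (Subgroup.index_dvd_of_le inf_le_right)
  have he : (H ⊓ K).index = H.index * K.index :=
    le_antisymm hle (Nat.le_of_dvd (Nat.pos_of_ne_zero Subgroup.index_ne_zero_of_finite) hdvd)
  refine ⟨he, fun g => ?_⟩
  have hr : K.relIndex H = K.index := by
    have h1 := Subgroup.relIndex_mul_index (inf_le_left : H ⊓ K ≤ H)
    rw [he, inf_comm, Subgroup.inf_relIndex_right, mul_comm H.index] at h1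
    exact mul_right_cancel₀ Subgroup.index_ne_zero_of_finite h1
  have hb : Function.Bijective (Subgroup.quotientSubgroupOfEmbeddingOfLE K (le_top : H ≤ ⊤)) := by
    refine (Nat.bijective_iff_injective_and_card _).mpr ⟨Function.Embedding.injective _, ?_⟩
    exact hr.trans K.relIndex_top_right.symm
  obtain ⟨x, hx⟩ := hb.2 (QuotientGroup.mk ⟨g, Subgroup.mem_top g⟩)
  obtain ⟨q, rfl⟩ := QuotientGroup.mk_surjective x
  have hq := QuotientGroup.eq.mp hx
  exact ⟨q, q.2, (q : G)⁻¹ * g, hq, by group⟩

end Cfsg.Agent.S0007
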