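import Cfsg.Statements.S0011
import Mathlib.GroupTheory.Frattini

set_option autoImplicit false
open scoped Pointwise commutatorElement
open Cfsg

namespace Cfsg.Agent.S0011

/-- If the Frattini quotient of a finite group is nilpotent then the group is nilpotent. -/
theorem result {G : Type*} [Group G] [Finite G]
    (h : Group.IsNilpotent (G ⧸ frattini G)) : Group.IsNilpotent G := by
  refine ((Group.isNilpotent_of_finite_tfae (G := G)).out 0 2).mpr fun M hM => ?_
  have hle : (QuotientGroup.mk' (frattini G)).ker ≤ M := by
    rw [QuotientGroup.ker_mk']; exact frattini_le_coatom hM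
  have hs := QuotientGroup.mk'_surjective (frattini G)
  have hn : (M.map (QuotientGroup.mk' (frattini G))).Normal := by
    have hq : ∀ K : Subgroup (G ⧸ frattini G), IsCoatom K → K.Normal :=
      ((Group.isNilpotent_of_finite_tfae (G := G ⧸ frattini G)).out 0 2).mp h
    refine hq _ ⟨?_, ?_⟩
    · intro he
      apply hM.1
      rw [← Subgroup.comap_map_eq_self hle, he, Subgroup.comap_top]
    · intro U hU
      apply Subgroup.comap_injective hs
      rw [Subgroup.comap_top]
      refine hM.2 _ (lt_of_le_of_ne ?_ ?_)
      · rw [← Subgroup.comap_map_eq_self hle]; exact Subgroup.comap_mono hU.le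
      · intro he
        apply hU.ne
        rw [he, Subgroup.map_comap_eq_self_of_surjective hs]
  rw [← Subgroup.comap_map_eq_self hle]
  exact hn.comap _

end Cfsg.Agent.S0011
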