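import Cfsg.Statements.S0012
import Mathlib.GroupTheory.Frattini
import Mathlib.RingTheory.Coprime.Lemmas
import Mathlib.RingTheory.PrincipalIdealDomain
import Mathlib.RingTheory.Int.Basic

set_option autoImplicit false
open scoped Pointwise commutatorElement
open Cfsg

namespace Cfsg.Agent.S0012

theorem coatom_facts {G : Type*} [Group G] [Finite G] {p : ℕ} [Fact p.Prime] (hG : IsPGroup p G)
    {M : Subgroup G} (hM : IsCoatom M) : commutator G ≤ M ∧ ∀ x : G, x ^ p ∈ M := by
  have : Group.IsNilpotent G := hG.isNilpotent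
  have : M.Normal :=
    Subgroup.NormalizerCondition.normal_of_coatom M Group.normalizerCondition_of_isNilpotent hM
  have hsimp : ∀ x : G, x ∉ M → M ⊔ Subgroup.zpowers x = ⊤ := fun x hx =>
    hM.2 _ (lt_of_le_of_ne le_sup_left fun h => hx (h.ge (Subgroup.mem_sup_right (Subgroup.mem_zpowers x))))
  constructor
  · rw [commutator_def, Subgroup.commutator_le]
    intro a _ b _
    by_cases ha : a ∈ M
    · rw [commutatorElement_def, mul_assoc, mul_assoc, ← mul_assoc b]
      exact M.mul_mem ha (Subgroup.Normal.conj_mem inferInstance _ (M.inv_mem ha) b)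
    · have hb : b ∈ M ⊔ Subgroup.zpowers a := hsimp a ha ▸ Subgroup.mem_top b
      rw [← SetLike.mem_coe, Subgroup.normal_mul] at hb
      obtain ⟨m, hm, _, ⟨i, rfl⟩, rfl⟩ := hb
      have e : ⁅a, m * a ^ i⁆ = (a * m * a⁻¹) * m⁻¹ := by rw [commutatorElement_def]; group
      rw [e]
      exact M.mul_mem (Subgroup.Normal.conj_mem inferInstance m hm a) (M.inv_mem hm)
  · intro x
    by_contra hx
    have hxm : x ∉ M := fun h => hx (M.pow_mem h p)
    have hx' : x ∈ M ⊔ Subgroup.zpowers (x ^ p) := hsimp _ hx ▸ Subgroup.mem_top x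
    rw [← SetLike.mem_coe, Subgroup.normal_mul] at hx'
    obtain ⟨m, hm, _, ⟨i, rfl⟩, he⟩ := hx'
    simp only at he
    -- `x ^ (1 - p * i) ∈ M`, and `1 - p * i` is prime to the order of `x`
    have hz : x ^ (1 - (p : ℤ) * i) ∈ M := by
      rw [zpow_sub, zpow_one, zpow_mul, zpow_natCast]
      have : x * ((x ^ p) ^ i)⁻¹ = m := by rw [← eq_mul_inv_iff_mul_eq] at he; exact he.symm
      rw [this]; exact hm
    obtain ⟨k, hk⟩ := IsPGroup.iff_orderOf.mp hG x
    have hcop : IsCoprime (1 - (p : ℤ) * i) ((orderOf x : ℕ) : ℤ) := by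
      rw [hk, Nat.cast_pow]
      exact IsCoprime.pow_right ⟨1, i, by ring⟩
    obtain ⟨a, b, hab⟩ := hcop
    apply hxm
    have hord : x ^ (b * ((orderOf x : ℕ) : ℤ)) = 1 := by
      rw [mul_comm, zpow_mul, zpow_natCast, pow_orderOf_eq_one, one_zpow]
    rw [← zpow_one x, ← hab, zpow_add, hord, mul_one, mul_comm, zpow_mul]
    exact M.zpow_mem hz a

/-- In a finite p-group every commutator and every p-th power lies in the Frattini subgroup, so the Frattini quotient is elementary abelian. -/
theorem result {G : Type*} [Group G] [Finite G] (p : ℕ) [Fact p.Prime]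
    (hG : IsPGroup p G) : commutator G ≤ frattini G ∧ ∀ x : G, x ^ p ∈ frattini G := by
  constructor
  · exact le_iInf₂ fun M hM => (coatom_facts hG hM).1
  · intro x
    exact (show Subgroup.zpowers (x ^ p) ≤ frattini G from
      le_iInf₂ fun M hM => Subgroup.zpowers_le.mpr ((coatom_facts hG hM).2 x))
      (Subgroup.mem_zpowers _)

end Cfsg.Agent.S0012
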