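import Cfsg.Statements.S0013
import Mathlib.GroupTheory.Frattini
import Mathlib.RingTheory.Coprime.Lemmas
import Mathlib.RingTheory.PrincipalIdealDomain
import Mathlib.RingTheory.Int.Basic

set_option autoImplicit false
open scoped Pointwise commutatorElement
open Cfsg

namespace Cfsg.Agent.S0013

theorem Int.emod_eq_zero_or {p : ℕ} [Fact p.Prime] (i : ℤ) :
    (∃ j, i = (p : ℤ) * j) ∨ IsCoprime i (p : ℤ) := by
  have hp : Prime (p : ℤ) := Nat.prime_iff_prime_int.mp Fact.out
  exact (em ((p : ℤ) ∣ i)).imp id fun h => ((Prime.coprime_iff_not_dvd hp).mpr h).symm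

/-- In a finite p-group the Frattini subgroup is the smallest normal subgroup with elementary abelian quotient: it lies below any normal subgroup containing all commutators and all p-th powers. -/
theorem result {G : Type*} [Group G] [Finite G] (p : ℕ) [Fact p.Prime]
    (hG : IsPGroup p G) (N : Subgroup G) [N.Normal] (hcomm : commutator G ≤ N) (hpow : ∀ x : G, x ^ p ∈ N) :
    frattini G ≤ N := by
  intro x hx
  by_contra hxN
  obtain ⟨M, hNM, hM⟩ := Finite.exists_le_maximal
    (p := fun H : Subgroup G => N ≤ H ∧ x ∉ H) (a := N) ⟨le_rfl, hxN⟩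
  have hMn : M.Normal := Subgroup.Normal.of_commutator_le _ (hcomm.trans hNM)
  refine hM.prop.2 (frattini_le_coatom ⟨fun h => hM.prop.2 (h.ge (Subgroup.mem_top x)), fun U hU => ?_⟩ hx)
  rw [eq_top_iff]
  intro y _
  have hxU : x ∈ U := by
    by_contra h
    exact hU.ne (hM.eq_of_le ⟨hNM.trans hU.le, h⟩ hU.le)
  by_contra hy
  have hyM : y ∉ M := fun h => hy (hU.le h)
  have hx' : x ∈ M ⊔ Subgroup.zpowers y := by
    by_contra h
    exact hyM ((hM.eq_of_le ⟨hNM.trans le_sup_left, h⟩ le_sup_left) ▸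
      Subgroup.mem_sup_right (Subgroup.mem_zpowers y))
  rw [← SetLike.mem_coe, Subgroup.normal_mul] at hx'
  obtain ⟨m, hm, _, ⟨i, rfl⟩, rfl⟩ := hx'
  have hi : y ^ i ∈ U := by simpa using U.mul_mem (U.inv_mem (hU.le hm)) hxU
  rcases Int.emod_eq_zero_or (p := p) i with h | h
  · obtain ⟨j, rfl⟩ := h
    exact hM.prop.2 (M.mul_mem hm (by
      simp only [zpow_mul, zpow_natCast]; exact M.zpow_mem (hNM (hpow y)) j))
  · obtain ⟨a, b, hab⟩ := h
    apply hy
    rw [← zpow_one y, ← hab, zpow_add, mul_comm a i, zpow_mul, mul_comm b, zpow_mul, zpow_natCast]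
    exact U.mul_mem (U.zpow_mem hi a) (U.zpow_mem (hU.le (hNM (hpow y))) b)

end Cfsg.Agent.S0013
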