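import Cfsg.Statements.S0014
import Cfsg.Agent.Lib.PGroupFrattini
import Cfsg.Agent.Lib.Coprime.Action

set_option autoImplicit false
open Cfsg

namespace Cfsg.Agent.S0014

/-- Burnside's basis Theorem: in a finite p-group whose Frattini quotient has order p ^ n, every generating set contains n elements that already generate, and no set with fewer than n elements generates. -/
theorem result {G : Type*} [Group G] [Finite G] (p n : ℕ) [Fact p.Prime]
    (hG : IsPGroup p G) (hn : (frattini G).index = p ^ n) :
    (∀ S : Finset G, Subgroup.closure (S : Set G) = ⊤ → ∃ T : Finset G, T ⊆ S ∧ T.card = n ∧ Subgroup.closure (T : Set G) = ⊤) ∧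
    (∀ T : Finset G, Subgroup.closure (T : Set G) = ⊤ → n ≤ T.card) := by
  classical
  haveI : IsMulCommutative (G ⧸ frattini G) := Subgroup.Normal.quotient_commutative_iff_commutator_le.mpr
    (Lib.PGroupFrattini.commutator_le_frattini hG)
  let π := QuotientGroup.mk' (frattini G)
  have hexp : ∀ x : G ⧸ frattini G, x ^ p = 1 := fun x => by
    obtain ⟨y, rfl⟩ := QuotientGroup.mk'_surjective _ x
    rw [← map_pow]
    exact (QuotientGroup.eq_one_iff _).mpr (Lib.PGroupFrattini.pow_mem_frattini hG y)
  have hp : p.Prime := Fact.out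
  have hQ : Nat.card (G ⧸ frattini G) = p ^ n := by rw [← Subgroup.index_eq_card, hn]
  let cl : Finset G → Subgroup (G ⧸ frattini G) := fun U => (Subgroup.closure (U : Set G)).map π
  have hins : ∀ (U : Finset G) (a : G), cl (insert a U) = Subgroup.zpowers (π a) ⊔ cl U := fun U a => by
    show (Subgroup.closure _).map π = _
    rw [Finset.coe_insert, Set.insert_eq, Subgroup.closure_union, Subgroup.map_sup,
      MonoidHom.map_closure, Set.image_singleton, ← Subgroup.zpowers_eq_closure]
  have hgen : ∀ U : Finset G, Subgroup.closure (U : Set G) = ⊤ ↔ cl U = ⊤ := fun U => by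
    constructor
    · intro h
      show (Subgroup.closure _).map π = ⊤
      rw [h, Subgroup.map_top_of_surjective π (QuotientGroup.mk'_surjective _)]
    · intro h
      refine frattini_nongenerating ?_
      have h1 := congrArg (Subgroup.comap π) h
      rwa [Subgroup.comap_map_eq, QuotientGroup.ker_mk', Subgroup.comap_top] at h1
  have hnorm : ∀ (a : G) (K : Subgroup (G ⧸ frattini G)), Subgroup.zpowers (π a) ≤ Subgroup.normalizer (K : Set (G ⧸ frattini G)) :=
    fun a K => by
      haveI : K.Normal := ⟨fun x hx g => by rwa [mul_comm' g x, mul_inv_cancel_right]⟩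
      rw [Subgroup.normalizer_eq_top]; exact le_top
  have hz : ∀ a : G, Nat.card (Subgroup.zpowers (π a)) ∣ p := fun a => by
    rw [Nat.card_zpowers]; exact orderOf_dvd_of_pow_eq_one (hexp _)
  have hbound : ∀ U : Finset G, Nat.card (cl U) ≤ p ^ U.card := by
    intro U
    induction U using Finset.induction with
    | empty =>
      have : cl ∅ = ⊥ := by
        show (Subgroup.closure _).map π = ⊥
        rw [Finset.coe_empty, Subgroup.closure_empty, Subgroup.map_bot]
      rw [this, Subgroup.card_bot]; simp
    | insert a U ha ih =>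
      rw [hins, Finset.card_insert_of_notMem ha, pow_succ, mul_comm]
      have h1 := Lib.Coprime.card_sup_mul_card_inf_of_le_normalizer (hnorm a (cl U))
      calc Nat.card (Subgroup.zpowers (π a) ⊔ cl U : Subgroup (G ⧸ frattini G))
          ≤ Nat.card (Subgroup.zpowers (π a)) * Nat.card (cl U) := by
            rw [← h1]; exact Nat.le_mul_of_pos_right _ Nat.card_pos
        _ ≤ p * p ^ U.card := Nat.mul_le_mul (Nat.le_of_dvd hp.pos (hz a)) ih
  have hlow : ∀ T : Finset G, Subgroup.closure (T : Set G) = ⊤ → n ≤ T.card := fun T hT => by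
    have h := hbound T
    rw [(hgen T).mp hT, Subgroup.card_top, hQ] at h
    exact (Nat.pow_le_pow_iff_right hp.one_lt).mp h
  refine ⟨fun S hS => ?_, hlow⟩
  obtain ⟨T, hT, hTmin⟩ := (S.powerset.filter fun U : Finset G => Subgroup.closure (U : Set G) = ⊤).exists_minimal
    ⟨S, Finset.mem_filter.mpr ⟨Finset.mem_powerset.mpr (Finset.Subset.refl S), hS⟩⟩
  simp only [Finset.mem_filter, Finset.mem_powerset] at hT hTmin
  have hind : ∀ U ⊆ T, p ^ U.card ≤ Nat.card (cl U) := by
    intro U
    induction U using Finset.induction with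
    | empty => intro _; simp [Nat.one_le_iff_ne_zero, Nat.card_pos.ne']
    | insert a U ha ih =>
      intro hsub
      rw [Finset.insert_subset_iff] at hsub
      have hna : π a ∉ cl U := fun h => by
        have hle : cl T ≤ cl (T.erase a) := by
          have e : T = insert a (T.erase a) := (Finset.insert_erase hsub.1).symm
          conv_lhs => rw [e, hins]
          refine sup_le (Subgroup.zpowers_le.mpr ?_) le_rfl
          exact Subgroup.map_mono (Subgroup.closure_mono (Finset.coe_subset.mpr fun u hu =>
            Finset.mem_erase.mpr ⟨fun e : u = a => ha (e ▸ hu), hsub.2 hu⟩)) h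
        have h2 : Subgroup.closure ((T.erase a : Finset G) : Set G) = ⊤ :=
          (hgen _).mpr (top_le_iff.mp ((hgen T).mp hT.2 ▸ hle))
        exact Finset.notMem_erase a T
          (hTmin ⟨(Finset.erase_subset a T).trans hT.1, h2⟩ (Finset.erase_subset a T) hsub.1)
      have hinf : Subgroup.zpowers (π a) ⊓ cl U = ⊥ := by
        rcases (Nat.dvd_prime hp).mp ((Subgroup.card_dvd_of_le (inf_le_left : Subgroup.zpowers (π a) ⊓ cl U ≤ _)).trans (hz a))
          with h | h
        · exact Subgroup.eq_bot_of_card_eq _ h
        · exfalso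
          have he := Subgroup.eq_of_le_of_card_ge (inf_le_left : Subgroup.zpowers (π a) ⊓ cl U ≤ _)
            (by rw [h]; exact Nat.le_of_dvd hp.pos (hz a))
          exact hna (he.symm ▸ Subgroup.mem_zpowers (π a) : π a ∈ Subgroup.zpowers (π a) ⊓ cl U).2
      have h1 := Lib.Coprime.card_sup_mul_card_inf_of_le_normalizer (hnorm a (cl U))
      rw [hinf, Subgroup.card_bot, mul_one] at h1
      have hza : Nat.card (Subgroup.zpowers (π a)) = p :=
        ((Nat.dvd_prime hp).mp (hz a)).resolve_left fun h => hna (by
          rw [Nat.card_zpowers, orderOf_eq_one_iff] at h; rw [h]; exact one_mem _)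
      rw [hins, Finset.card_insert_of_notMem ha, pow_succ, mul_comm, h1, hza]
      exact Nat.mul_le_mul_left p (ih hsub.2)
  refine ⟨T, hT.1, le_antisymm ?_ (hlow T hT.2), hT.2⟩
  have h := hind T (Finset.Subset.refl T)
  rw [(hgen T).mp hT.2, Subgroup.card_top, hQ] at h
  exact (Nat.pow_le_pow_iff_right hp.one_lt).mp h

end Cfsg.Agent.S0014
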