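import Cfsg.Statements.S0015
import Cfsg.Agent.Lib.Coprime.Basic

set_option autoImplicit false
open scoped Pointwise commutatorElement
open Cfsg

namespace Cfsg.Agent.S0015

/-- In a finite nilpotent group, an abelian normal subgroup that is maximal among abelian normal subgroups equals its own centralizer. -/
theorem result {G : Type*} [Group G] [Finite G] [Group.IsNilpotent G]
    (N : Subgroup G) [N.Normal] [IsMulCommutative N]
    (hmax : ∀ M : Subgroup G, M.Normal → IsMulCommutative M → N ≤ M → M = N) :
    Subgroup.centralizer (N : Set G) = N := by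
  classical
  have hle : N ≤ Subgroup.centralizer (N : Set G) := Subgroup.le_centralizer N
  refine le_antisymm ?_ hle
  by_contra hC
  let S (k : ℕ) : Prop := ¬ Subgroup.centralizer (N : Set G) ⊓ Subgroup.upperCentralSeries G k ≤ N
  have hex : ∃ k, S k :=
    ⟨Group.nilpotencyClass G, by simpa [S, Subgroup.upperCentralSeries_nilpotencyClass] using hC⟩
  have hk := Nat.find_spec hex
  obtain ⟨j, hj⟩ : ∃ j, Nat.find hex = j + 1 := by
    refine ⟨Nat.find hex - 1, ?_⟩
    rcases Nat.eq_zero_or_pos (Nat.find hex) with h | h
    · exfalso; rw [h] at hk; exact hk (by simp)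
    · omega
  rw [hj] at hk
  obtain ⟨x, hx, hxN⟩ := SetLike.not_le_iff_exists.mp hk
  have h0 : Subgroup.centralizer (N : Set G) ⊓ Subgroup.upperCentralSeries G j ≤ N :=
    not_not.mp (Nat.find_min hex (show j < Nat.find hex by omega))
  let M : Subgroup G := N ⊔ Subgroup.zpowers x
  have hcomm : IsMulCommutative M := by
    have : M ≤ Subgroup.centralizer (M : Set G) := by
      refine sup_le (Subgroup.le_centralizer_iff.mp (sup_le hle (Subgroup.zpowers_le.mpr hx.1))) ?_
      rw [Subgroup.zpowers_le, Subgroup.mem_centralizer_iff]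
      intro y hy
      have h1 : M ≤ Subgroup.centralizer {x} := by
        refine sup_le ?_ (Subgroup.zpowers_le.mpr ?_)
        · intro n hn
          rw [Subgroup.mem_centralizer_singleton_iff]
          exact (Subgroup.mem_centralizer_iff.mp hx.1 n hn)
        · rw [Subgroup.mem_centralizer_singleton_iff]
      exact Subgroup.mem_centralizer_singleton_iff.mp (h1 hy)
    exact ⟨⟨fun a b => Subtype.ext (Subgroup.mem_centralizer_iff.mp (this b.2) a a.2)⟩⟩
  have hn : M.Normal := by
    refine Subgroup.normalizer_eq_top_iff.mp (eq_top_iff.mpr fun g _ => ?_)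
    apply Lib.Coprime.mem_normalizer_of_conj_smul_eq
    have key : ∀ g : G, MulAut.conj g • M ≤ M := by
      intro g
      rw [show M = N ⊔ Subgroup.zpowers x from rfl, Subgroup.pointwise_smul_subset_iff]
      refine sup_le ?_ (Subgroup.zpowers_le.mpr ?_)
      · rw [← map_inv]; exact (Lib.Coprime.conj_smul_of_normal N g⁻¹).ge.trans (Subgroup.pointwise_smul_le_pointwise_smul_iff.mpr le_sup_left)
      · rw [← map_inv, Lib.Coprime.mem_conj_smul, inv_inv]
        have h1 : x * g * x⁻¹ * g⁻¹ ∈ Subgroup.centralizer (N : Set G) ⊓ Subgroup.upperCentralSeries G j :=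
          ⟨by
            rw [mul_assoc, mul_assoc]
            refine mul_mem hx.1 ?_
            rw [← mul_assoc]
            exact Subgroup.Normal.conj_mem inferInstance _ (inv_mem hx.1) g,
           Subgroup.mem_upperCentralSeries_succ_iff.mp hx.2 g⟩
        have := Subgroup.mul_mem_sup (T := Subgroup.zpowers x) (N.inv_mem (h0 h1)) (Subgroup.mem_zpowers x)
        simpa [mul_assoc] using this
    refine le_antisymm (key g) ?_
    calc M = MulAut.conj g • MulAut.conj g⁻¹ • M := (Lib.Coprime.conj_smul_inv_smul g M).symm
      _ ≤ _ := Subgroup.pointwise_smul_le_pointwise_smul_iff.mpr (key g⁻¹)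
  exact hxN (hmax M hn hcomm le_sup_left ▸ Subgroup.mem_sup_right (Subgroup.mem_zpowers x))

end Cfsg.Agent.S0015
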