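import Cfsg.Statements.S0018
import Cfsg.Agent.Lib.Hall.Solvable

set_option autoImplicit false
open scoped Pointwise commutatorElement
open Cfsg

namespace Cfsg.Agent.S0018

/-- A finite solvable group whose Sylow p-subgroups are abelian has p-length one: a Sylow p-subgroup together with the largest normal subgroup of order prime to p generates a normal subgroup. -/
theorem result {G : Type*} [Group G] [Finite G] [Group.IsSolvable G]
    (p : ℕ) [Fact p.Prime] (P : Sylow p G) (hP : IsMulCommutative P) :
    ((P : Subgroup G) ⊔ Cfsg.pPrimeCore p G).Normal := by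
  let O := Cfsg.pPrimeCore p G
  have hs := QuotientGroup.mk'_surjective O
  have hO : Cfsg.pPrimeCore p (G ⧸ O) = ⊥ := by
    let N := Cfsg.pPrimeCore p (G ⧸ O)
    have hN : N.comap (QuotientGroup.mk' O) ≤ O := by
      refine Lib.Hall.le_pPrimeCore ?_
      have h1 := Lib.Coprime.card_map_mk' O (N.comap (QuotientGroup.mk' O))
      rw [Subgroup.map_comap_eq_self_of_surjective hs, inf_eq_right.mpr
        ((QuotientGroup.ker_mk' O).ge.trans (Subgroup.ker_le_comap _ _))] at h1
      rw [← h1]
      exact (Lib.Hall.coprime_card_pPrimeCore p).mul_left (Lib.Hall.coprime_card_pPrimeCore p)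
    show N = ⊥
    rw [eq_bot_iff, ← Subgroup.map_comap_eq_self_of_surjective hs N]
    exact (Subgroup.map_mono hN).trans (QuotientGroup.map_mk'_self O).le
  let P' : Sylow p (G ⧸ O) := P.mapSurjective hs
  have hle : Cfsg.pCore p (G ⧸ O) ≤ P' := Lib.Hall.pCore_le_sylow P'
  have hc : IsMulCommutative (P' : Subgroup (G ⧸ O)) := by
    have := hP
    show IsMulCommutative ((P : Subgroup G).map (QuotientGroup.mk' O))
    infer_instance
  have hP'le : (P' : Subgroup (G ⧸ O)) ≤ Cfsg.pCore p (G ⧸ O) :=
    (((P' : Subgroup (G ⧸ O)).le_centralizer).trans (Subgroup.centralizer_le hle)).trans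
      (Lib.Hall.centralizer_pCore_le p hO)
  have hn : (P' : Subgroup (G ⧸ O)).Normal := le_antisymm hle hP'le ▸ inferInstance
  have he : (P' : Subgroup (G ⧸ O)).comap (QuotientGroup.mk' O) = (P : Subgroup G) ⊔ O := by
    show ((P : Subgroup G).map (QuotientGroup.mk' O)).comap _ = _
    rw [Subgroup.comap_map_eq, QuotientGroup.ker_mk']
  exact he ▸ hn.comap _

end Cfsg.Agent.S0018
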