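import Cfsg.Statements.S0020
import Cfsg.Agent.Lib.Hall.Systems

set_option autoImplicit false
open Pointwise
open scoped Pointwise commutatorElement
open Cfsg

namespace Cfsg.Agent.S0020

/-- A finite solvable group admits a Sylow system: Sylow subgroups, one for each prime, that pairwise permute as sets. -/
theorem result {G : Type*} [Group G] [Finite G] [Group.IsSolvable G] :
    ∃ S : (p : Nat.Primes) → Sylow (p : ℕ) G,
      ∀ p q : Nat.Primes, (S p : Set G) * (S q : Set G) = (S q : Set G) * (S p : Set G) := by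
  classical
  obtain ⟨K, hK⟩ := Lib.Hall.exists_complementSystem (G := G)
  let P := (Nat.card G).primeFactors
  let f : ℕ → ℕ := fun q => q ^ (Nat.card G).factorization q
  let Kf : ℕ → Subgroup G := fun q => if hq : q.Prime then K ⟨q, hq⟩ else ⊤
  let T : Finset ℕ → Subgroup G := fun s => (P \ s).inf Kf
  have hcard : ∀ s : Finset ℕ, Nat.card (T s) = ∏ q ∈ s, f q := by
    intro s
    have hidx : (T s).index = ∏ q ∈ P \ s, f q := by
      show ((P \ s).inf Kf).index = _
      rw [Lib.Hall.index_finset_inf]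
      · refine Finset.prod_congr rfl fun q hq => ?_
        have hqp := Nat.prime_of_mem_primeFactors (Finset.mem_sdiff.mp hq).1
        simp only [Kf, dif_pos hqp, f]
        exact hK ⟨q, hqp⟩
      · intro i hi j hj hij
        have hip := Nat.prime_of_mem_primeFactors (Finset.mem_sdiff.mp hi).1
        have hjp := Nat.prime_of_mem_primeFactors (Finset.mem_sdiff.mp hj).1
        simp only [Kf, dif_pos hip, dif_pos hjp]
        exact Lib.Hall.system_index_coprime hK fun h => hij (congrArg Subtype.val h)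
    apply mul_right_cancel₀ (T s).index_ne_zero_of_finite
    rw [(T s).card_mul_index, hidx]
    have h1 : ∏ q ∈ s, f q = ∏ q ∈ P ∩ s, f q := by
      refine (Finset.prod_subset Finset.inter_subset_right fun q hq hq' => ?_).symm
      by_cases hqp : q.Prime
      · show q ^ _ = 1
        rw [Nat.factorization_eq_zero_of_not_dvd fun h => hq' (Finset.mem_inter.mpr
          ⟨Nat.mem_primeFactors.mpr ⟨hqp, h, Nat.card_pos.ne'⟩, hq⟩), pow_zero]
      · show q ^ _ = 1
        rw [Nat.factorization_eq_zero_of_not_prime _ hqp, pow_zero]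
    rw [h1, Finset.prod_inter_mul_prod_diff]
    exact (Nat.prod_factorization_pow_eq_self Nat.card_pos.ne').symm
  have hS : ∀ p : Nat.Primes, Nat.card (T {(p : ℕ)}) = f p := fun p => by rw [hcard, Finset.prod_singleton]
  refine ⟨fun p => (haveI : Fact (p : ℕ).Prime := ⟨p.2⟩; Sylow.ofCard (T {(p : ℕ)}) (hS p)), fun p q => ?_⟩
  by_cases hpq : p = q
  · subst hpq; rfl
  show (T {(p : ℕ)} : Set G) * (T {(q : ℕ)} : Set G) = (T {(q : ℕ)} : Set G) * (T {(p : ℕ)} : Set G)
  have hmono : ∀ s t : Finset ℕ, s ⊆ t → T s ≤ T t := fun s t h =>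
    Finset.inf_mono (Finset.sdiff_subset_sdiff (Finset.Subset.refl P) h)
  have hne : (p : ℕ) ≠ q := fun h => hpq (Subtype.ext h)
  have key : ∀ a b : Nat.Primes, (a : ℕ) ≠ b → ({(a : ℕ), (b : ℕ)} : Finset ℕ) = {(p : ℕ), (q : ℕ)} →
      (T {(a : ℕ)} : Set G) * (T {(b : ℕ)} : Set G) = (T {(p : ℕ), (q : ℕ)} : Set G) := by
    intro a b hab hset
    refine Set.eq_of_subset_of_ncard_le ?_ ?_
    · rintro _ ⟨x, hx, y, hy, rfl⟩
      exact mul_mem (hmono _ _ (by rw [← hset]; simp) hx) (hmono _ _ (by rw [← hset]; simp) hy)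
    · rw [← Nat.card_coe_set_eq, ← Nat.card_coe_set_eq]
      have h := Lib.Coprime.card_coe_mul_mul_card_inf (T {(a : ℕ)}) (T {(b : ℕ)})
      rw [Lib.Coprime.inf_eq_bot_of_coprime (by
        rw [hS, hS]; exact Nat.Coprime.pow _ _ ((Nat.coprime_primes a.2 b.2).mpr hab)),
        Subgroup.card_bot, mul_one, hS, hS] at h
      rw [h, show Nat.card (T {(p : ℕ), (q : ℕ)} : Set G) = Nat.card (T {(p : ℕ), (q : ℕ)}) from rfl,
        hcard, ← hset, Finset.prod_pair hab]
  rw [key p q hne rfl, key q p (Ne.symm hne) (Finset.pair_comm _ _)]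

end Cfsg.Agent.S0020
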