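import Cfsg.Statements.S0021
import Cfsg.Agent.Lib.Hall.Systems

set_option autoImplicit false
open Pointwise
open scoped Pointwise commutatorElement
open Cfsg

namespace Cfsg.Agent.S0021

/-- A finite group with a family of pairwise permuting Sylow subgroups, one for each prime, is solvable (this direction rests on Burnside's two-prime Theorem). -/
theorem result {G : Type*} [Group G] [Finite G]
    (S : (p : Nat.Primes) → Sylow (p : ℕ) G)
    (hS : ∀ p q : Nat.Primes, (S p : Set G) * (S q : Set G) = (S q : Set G) * (S p : Set G)) :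
    Group.IsSolvable G := by
  classical
  refine Lib.Hall.isSolvable_of_complements fun p hp => ?_
  let s : Finset Nat.Primes :=
    ((Nat.card G).primeFactors.subtype Nat.Prime : Finset Nat.Primes).erase ⟨p, hp⟩
  have hf : ∀ q : Nat.Primes, Nat.card (S q : Subgroup G) = (q : ℕ) ^ (Nat.card G).factorization q := by
    intro q
    have : Fact (q : ℕ).Prime := ⟨q.2⟩
    exact (S q).card_eq_multiplicity
  obtain ⟨T, hT, -⟩ := Lib.Hall.exists_product s (fun q => (S q : Subgroup G)) (fun i j => hS i j)
    fun i j hij => by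
      simp only [hf]
      exact Nat.Coprime.pow _ _ ((Nat.coprime_primes i.2 j.2).mpr fun h => hij (Subtype.ext h))
  refine ⟨T, ?_⟩
  apply mul_left_cancel₀ (Nat.card_pos (α := T)).ne'
  rw [T.card_mul_index]
  have hprod : Nat.card T = ∏ q ∈ (Nat.card G).primeFactors.erase p, q ^ (Nat.card G).factorization q := by
    rw [hT]
    refine Finset.prod_bij (fun q _ => (q : ℕ)) ?_ ?_ ?_ ?_
    · intro q hq
      obtain ⟨h1, h2⟩ := Finset.mem_erase.mp hq
      exact Finset.mem_erase.mpr ⟨fun h => h1 (Subtype.ext h), Finset.mem_subtype.mp h2⟩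
    · exact fun a _ b _ h => Subtype.ext h
    · intro q hq
      obtain ⟨h1, h2⟩ := Finset.mem_erase.mp hq
      exact ⟨⟨q, Nat.prime_of_mem_primeFactors h2⟩, Finset.mem_erase.mpr
        ⟨fun h => h1 (congrArg Subtype.val h), Finset.mem_subtype.mpr h2⟩, rfl⟩
    · exact fun q _ => hf q
  rw [hprod]
  by_cases hpG : p ∈ (Nat.card G).primeFactors
  · rw [Finset.prod_erase_mul _ _ hpG]
    exact (Nat.prod_factorization_pow_eq_self Nat.card_pos.ne').symm
  · rw [Finset.erase_eq_of_notMem hpG, Nat.factorization_eq_zero_of_not_dvd (n := Nat.card G) (p := p)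
      (fun h => hpG (Nat.mem_primeFactors.mpr ⟨hp, h, Nat.card_pos.ne'⟩)), pow_zero, mul_one]
    exact (Nat.prod_factorization_pow_eq_self Nat.card_pos.ne').symm

end Cfsg.Agent.S0021
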