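import Cfsg.Statements.S0030
import Cfsg.Agent.Lib.Coprime.Action

set_option autoImplicit false
open Cfsg

namespace Cfsg.Agent.S0030

/-- Under coprime action fixed points of a product of two invariant subgroups factor: if K = X Y with X and Y normalised by A then every A-fixed element of K is a product of an A-fixed element of X and an A-fixed element of Y. -/
theorem result {G : Type*} [Group G] [Finite G] (A K : Subgroup G) (hAK : A ≤ Subgroup.normalizer (K : Set G))
    (hcop : (Nat.card A).Coprime (Nat.card K)) (hsolv : Group.IsSolvable A ∨ Group.IsSolvable K)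
    (X Y : Subgroup G) (hX : X ≤ K) (hY : Y ≤ K) (hXA : A ≤ Subgroup.normalizer (X : Set G)) (hYA : A ≤ Subgroup.normalizer (Y : Set G))
    (hXY : ∀ k ∈ K, ∃ x ∈ X, ∃ y ∈ Y, k = x * y) (k : G) (hk : k ∈ K ⊓ Subgroup.centralizer (A : Set G)) :
    ∃ x ∈ X ⊓ Subgroup.centralizer (A : Set G), ∃ y ∈ Y ⊓ Subgroup.centralizer (A : Set G), k = x * y := by
  obtain ⟨x, hx, y, hy, rfl⟩ := hXY k hk.1
  have hconj : ∀ {U : Subgroup G}, A ≤ Subgroup.normalizer (U : Set G) → ∀ {a z : G},
      a ∈ A → z ∈ U → a * z * a⁻¹ ∈ U :=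
    fun {U} hU {a z} ha hz => (Subgroup.mem_normalizer_iff.mp (hU ha) z).mp hz
  obtain ⟨c, hc, hn⟩ := Lib.Coprime.exists_centralizer_mem_coset (A := A) (N := X ⊓ Y) (k := x)
    ((le_inf hXA hYA).trans Subgroup.inf_normalizer_le_normalizer_inf)
    (hcop.coprime_dvd_right (Subgroup.card_dvd_of_le (inf_le_left.trans hX)))
    (hsolv.imp id (Lib.Coprime.isSolvable_of_le (inf_le_left.trans hX))) fun a ha => by
      refine ⟨X.mul_mem (X.inv_mem hx) (hconj hXA ha hx), ?_⟩
      have hfix : a * (x * y) * a⁻¹ = x * y := by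
        rw [(Subgroup.mem_centralizer_iff.mp hk.2) a ha, mul_inv_cancel_right]
      have e : x⁻¹ * (a * x * a⁻¹) = x⁻¹ * (a * (x * y) * a⁻¹) * (a * y * a⁻¹)⁻¹ := by group
      rw [e, hfix, inv_mul_cancel_left]
      exact Y.mul_mem hy (Y.inv_mem (hconj hYA ha hy))
  refine ⟨c, ⟨by simpa using X.mul_mem hx hn.1, hc⟩, c⁻¹ * (x * y), ⟨?_, ?_⟩, by group⟩
  · simpa [mul_assoc] using Y.mul_mem (Y.inv_mem hn.2) hy
  · exact Subgroup.mul_mem _ (Subgroup.inv_mem _ hc) hk.2

end Cfsg.Agent.S0030
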