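import Cfsg.Statements.S0036
import Cfsg.Agent.Lib.Hall.Frobenius

set_option autoImplicit false
open scoped Pointwise commutatorElement
open Cfsg

namespace Cfsg.Agent.S0036

/-- When a Frobenius complement contains an involution, an elementary argument shows the Frobenius kernel is closed under multiplication (hence a subgroup). -/
theorem result {G : Type*} [Group G] [Finite G] (H : Subgroup G) (hH : Cfsg.IsFrobeniusComplement H)
    (t : G) (ht : t ∈ H) (ht1 : t ≠ 1) (ht2 : t * t = 1) :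
    ∀ x ∈ Cfsg.frobeniusKernel H, ∀ y ∈ Cfsg.frobeniusKernel H, x * y ∈ Cfsg.frobeniusKernel H := by
  have htinv : t⁻¹ = t := inv_eq_of_mul_eq_one_right ht2
  have key' : ∀ a : G, a ∉ H → (a * t * a⁻¹) * t ∈ Cfsg.frobeniusKernel H := by
    intro a haH
    rw [Lib.Hall.frobeniusKernel_eq_compl]
    rintro ⟨hx1, c, hc⟩
    let s := a * t * a⁻¹
    have hsinv : s⁻¹ = s := by simp only [s]; rw [mul_inv_rev, mul_inv_rev, inv_inv, htinv, mul_assoc]
    have hmem : ∀ u : G, u⁻¹ = u → u * (s * t) * u = (s * t)⁻¹ → u ∈ MulAut.conj c • H := by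
      intro u hu hinv
      have h2 : s * t ∈ MulAut.conj (u * c) • H := by
        rw [Lib.Coprime.mem_conj_smul]
        have := H.inv_mem (Lib.Coprime.mem_conj_smul.mp hc)
        rw [show (c⁻¹ * (s * t) * c)⁻¹ = c⁻¹ * (s * t)⁻¹ * c by group, ← hinv] at this
        rw [show (u * c)⁻¹ * (s * t) * (u * c) = c⁻¹ * (u⁻¹ * (s * t) * u) * c by group, hu]
        exact this
      rw [Lib.Coprime.mem_conj_smul]
      have := Lib.Hall.fc_inter hH hx1 hc h2
      simpa [mul_assoc] using this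
    have ht' := hmem t htinv (by
      rw [mul_inv_rev, htinv, hsinv, mul_assoc, mul_assoc, ht2, mul_one])
    have hs' := hmem s hsinv (by
      rw [mul_inv_rev, htinv, hsinv, ← mul_assoc s s t]
      have : s * s = 1 := inv_eq_iff_mul_eq_one.mp hsinv
      rw [this, one_mul])
    have hc' : c ∈ H := by
      have h1 : t ∈ MulAut.conj (1 : G) • H := by rwa [map_one, one_smul]
      simpa using Lib.Hall.fc_inter hH ht1 h1 ht'
    have hsH : s ∈ H := by
      rwa [Lib.Coprime.conj_smul_eq_self (Subgroup.le_normalizer hc')] at hs'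
    have ha : a ∈ H := by
      have h1 : s ∈ MulAut.conj (1 : G) • H := by rwa [map_one, one_smul]
      have hs1 : s ≠ 1 := fun h => ht1 (by
        calc t = a⁻¹ * s * a := by simp only [s]; group
          _ = 1 := by rw [h]; group)
      simpa using Lib.Hall.fc_inter hH hs1 h1 (Lib.Coprime.conj_mem_conj_smul ht)
    exact haH ha
  classical
  -- the kernel consists of `1` and the elements `a t a⁻¹ t` for `a` outside `H`
  let f : G ⧸ H → Cfsg.frobeniusKernel H := fun q =>
    if hq : q.out ∈ H then ⟨1, Or.inl rfl⟩ else ⟨_, key' q.out hq⟩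
  have hout : ∀ q : G ⧸ H, q.out ∈ H → q = ((1 : G) : G ⧸ H) := fun q hq => by
    rw [← q.out_eq]; exact QuotientGroup.eq.mpr (by simpa using hq)
  have hcl := Lib.Hall.fc_centralizer_le hH ht ht1
  have hsame : ∀ a b : G, a * t * a⁻¹ = b * t * b⁻¹ → a⁻¹ * b ∈ Subgroup.centralizer ({t} : Set G) := by
    intro a b h
    rw [Subgroup.mem_centralizer_singleton_iff]
    calc a⁻¹ * b * t = a⁻¹ * (b * t * b⁻¹) * b := by group
      _ = t * (a⁻¹ * b) := by rw [← h]; group
  have hne1 : ∀ a : G, a ∉ H → a * t * a⁻¹ * t ≠ 1 := fun a ha h => by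
    have h' : a * t * a⁻¹ = 1 * t * 1⁻¹ := by
      rw [mul_eq_one_iff_eq_inv, htinv] at h; simpa using h
    exact ha (by simpa using hcl (hsame a 1 h'))
  have hfi : Function.Injective f := by
    intro q q' h
    by_cases hq : q.out ∈ H <;> by_cases hq' : q'.out ∈ H
    · rw [hout q hq, hout q' hq']
    all_goals simp only [f, hq, hq', dif_pos, dif_neg, not_false_eq_true] at h
    all_goals replace h := congrArg Subtype.val h
    · exact absurd h.symm (hne1 _ hq')
    · exact absurd h (hne1 _ hq)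
    · rw [← q.out_eq, ← q'.out_eq]
      exact QuotientGroup.eq.mpr (hcl (hsame _ _ (mul_right_cancel h)))
  have hfb : Function.Bijective f := (Nat.bijective_iff_injective_and_card f).mpr
    ⟨hfi, (Lib.Hall.card_frobeniusKernel hH).symm⟩
  have hsurj' : ∀ x ∈ Cfsg.frobeniusKernel H, x ≠ 1 → ∃ q : G ⧸ H, q.out ∉ H ∧
      x = q.out * t * q.out⁻¹ * t := by
    intro x hx hx1
    obtain ⟨q, hq⟩ := hfb.2 ⟨x, hx⟩
    by_cases hqH : q.out ∈ H
    · simp only [f, hqH, dif_pos] at hq
      exact absurd (congrArg Subtype.val hq).symm hx1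
    · simp only [f, hqH, dif_neg, not_false_eq_true, Subtype.mk.injEq] at hq
      exact ⟨q, hqH, hq.symm⟩
  have hcentral : ∀ a ∈ H, a * t * a⁻¹ = t := by
    obtain ⟨g, -, hg⟩ := SetLike.exists_of_lt (lt_top_iff_ne_top.mpr hH.2.1)
    have hind : ∀ a ∈ H, (g * a) * t * (g * a)⁻¹ = (g : G ⧸ H).out * t * (g : G ⧸ H).out⁻¹ := by
      intro a ha
      have hga : g * a ∉ H := fun h => hg ((H.mul_mem_cancel_right ha).mp h)
      obtain ⟨q, hq, e⟩ := hsurj' _ (key' _ hga) (hne1 _ hga)
      have h1 := mul_right_cancel e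
      have h2 := hcl (hsame _ _ h1)
      have h3 : q = (g : G ⧸ H) := by
        rw [← q.out_eq]
        refine QuotientGroup.eq.mpr ?_
        have h4 := H.inv_mem (H.mul_mem ha h2)
        simpa [mul_assoc] using h4
      rw [h1, h3]
    intro a ha
    have h1 := (hind a ha).trans (hind 1 H.one_mem).symm
    calc a * t * a⁻¹ = g⁻¹ * ((g * a) * t * (g * a)⁻¹) * g := by group
      _ = t := by rw [h1]; group
  have key : ∀ a : G, (a * t * a⁻¹) * t ∈ Cfsg.frobeniusKernel H := fun a => by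
    by_cases ha : a ∈ H
    · rw [hcentral a ha, ht2]; exact Or.inl rfl
    · exact key' a ha
  have hsurj : ∀ x ∈ Cfsg.frobeniusKernel H, ∃ a, a * t * a⁻¹ * t = x := by
    intro x hx
    by_cases hx1 : x = 1
    · exact ⟨1, by simp [hx1, ht2]⟩
    · obtain ⟨q, -, hq⟩ := hsurj' x hx hx1
      exact ⟨q.out, hq.symm⟩
  have hkinv : ∀ x ∈ Cfsg.frobeniusKernel H, x⁻¹ ∈ Cfsg.frobeniusKernel H := by
    intro x hx
    rcases hx with rfl | hx
    · exact Or.inl inv_one
    · exact Or.inr fun g h => hx g (by simpa using inv_mem h)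
  have hkconj : ∀ g : G, ∀ x ∈ Cfsg.frobeniusKernel H, g * x * g⁻¹ ∈ Cfsg.frobeniusKernel H := by
    intro g x hx
    rcases hx with rfl | hx
    · exact Or.inl (by simp)
    · refine Or.inr fun a h => hx (g⁻¹ * a) ?_
      rw [Lib.Coprime.mem_conj_smul] at h ⊢
      simpa [mul_assoc] using h
  intro x hx y hy
  obtain ⟨a, hax⟩ := hsurj x hx
  obtain ⟨b, hby⟩ := hsurj y⁻¹ (hkinv y hy)
  subst hax
  have hy' : y = t * (b * t * b⁻¹) := by
    rw [← inv_inv y, ← hby]
    rw [mul_inv_rev, mul_inv_rev, mul_inv_rev, inv_inv, htinv, mul_assoc b]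
  rw [hy', show a * t * a⁻¹ * t * (t * (b * t * b⁻¹)) = (a * t * a⁻¹) * (t * t) * (b * t * b⁻¹) by group, ht2, mul_one]
  have e : (a * t * a⁻¹) * (b * t * b⁻¹) = b * (((b⁻¹ * a) * t * (b⁻¹ * a)⁻¹) * t) * b⁻¹ := by group
  rw [e]
  exact hkconj b _ (key (b⁻¹ * a))

end Cfsg.Agent.S0036
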