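import Cfsg.Statements.S0038
import Cfsg.Agent.Lib.FPF.FrobeniusKernel
import Cfsg.Agent.Lib.Transfer.Hall

set_option autoImplicit false
open Pointwise
open Cfsg

namespace Cfsg.Agent.S0038

open scoped Pointwise
open Subgroup

theorem eq_of_le {G : Type*} [Group G] [Finite G] {H K : Subgroup G} (hH : Cfsg.IsFrobeniusComplement H)
    (hK : Cfsg.IsFrobeniusComplement K) (hle : K ≤ H) : K = H := by
  by_contra hne
  obtain ⟨N, hN, -, hNc, -⟩ := Lib.FPF.exists_frobenius_kernel_nilpotent hH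
  obtain ⟨M, hM, hMn, hMc, hMnil⟩ := Lib.FPF.exists_frobenius_kernel_nilpotent hK
  have hNM : N ≤ M := by
    intro x hx
    rw [← SetLike.mem_coe, hN] at hx
    rw [← SetLike.mem_coe, hM]
    rcases hx with hx | hx
    · exact Or.inl hx
    · exact Or.inr fun g hg => hx g (pointwise_smul_le_pointwise_smul_iff.mpr hle hg)
  have hlt : Nat.card K < Nat.card H :=
    lt_of_le_of_ne (card_le_of_le hle) fun e => hne (eq_of_le_of_card_ge hle e.ge)
  obtain ⟨x, hxM, hxN⟩ : ∃ x ∈ M, x ∉ N := by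
    by_contra hall
    push Not at hall
    have h1 := card_le_of_le (show M ≤ N from hall)
    have h2 := hNc.card_mul
    have h3 := hMc.card_mul
    have h5 : Nat.card N * Nat.card K < Nat.card N * Nat.card H := Nat.mul_lt_mul_of_pos_left hlt Nat.card_pos
    have h4 : Nat.card M * Nat.card K ≤ Nat.card N * Nat.card K := Nat.mul_le_mul_right _ h1
    omega
  rw [← SetLike.mem_coe, hN, Lib.Hall.frobeniusKernel_eq_compl, Set.mem_compl_iff, not_not] at hxN
  obtain ⟨hx1, g, hg⟩ := hxN
  set k := g⁻¹ * x * g with hk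
  have hkH : k ∈ H := Lib.Coprime.mem_conj_smul.1 hg
  have hkM : k ∈ M := by simpa [hk] using hMn.conj_mem x hxM g⁻¹
  have hk1 : k ≠ 1 := fun e => hx1 (by
    calc x = g * k * g⁻¹ := by rw [hk]; group
      _ = 1 := by rw [e]; group)
  have hcop : (Nat.card N).Coprime (Nat.card H) := by
    have h := Lib.Hall.fc_index_mod_card hH
    have : Nat.card N = H.index := by
      rw [← Lib.Hall.card_frobeniusKernel hH, ← hN]; rfl
    rw [this, Nat.Coprime, Nat.gcd_comm, Nat.gcd_rec, h, ← Nat.gcd_rec, Nat.gcd_one_right]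
  have hNle : N ≤ H := by
    intro y hy
    refine Lib.Hall.fc_centralizer_le hH hkH hk1 (mem_centralizer_singleton_iff.2 ?_)
    have := Lib.Transfer.commute_of_coprime_orderOf (G := M) (x := ⟨y, hNM hy⟩) (y := ⟨k, hkM⟩)
      (by
        rw [orderOf_mk, orderOf_mk]
        exact (hcop.coprime_dvd_left (N.orderOf_dvd_natCard hy)).coprime_dvd_right (H.orderOf_dvd_natCard hkH))
    exact congrArg Subtype.val this.eq
  apply hH.2.1
  have : N = ⊥ := by
    rw [eq_bot_iff]; intro y hy; exact mem_bot.2 (disjoint_def.1 hNc.disjoint hy (hNle hy))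
  subst this
  exact isComplement'_bot_left.1 hNc

/-- All Frobenius complements of a finite group are conjugate to one another. -/
theorem result {G : Type*} [Group G] [Finite G] (H H₀ : Subgroup G)
    (hH : Cfsg.IsFrobeniusComplement H) (hH₀ : Cfsg.IsFrobeniusComplement H₀) :
    ∃ g : G, MulAut.conj g • H₀ = H := by
  rcases le_total (Nat.card H₀) (Nat.card H) with h | h
  · obtain ⟨a, ha⟩ := Lib.Hall.fc_le_conj_of_card_le hH hH₀ h
    refine ⟨a⁻¹, ?_⟩
    rw [eq_of_le (Lib.Hall.fc_conj hH a) hH₀ ha, Lib.Coprime.conj_inv_smul_smul]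
  · obtain ⟨a, ha⟩ := Lib.Hall.fc_le_conj_of_card_le hH₀ hH h
    exact ⟨a, (eq_of_le (Lib.Hall.fc_conj hH₀ a) hH ha).symm⟩

end Cfsg.Agent.S0038
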