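import Cfsg.Statements.S0048
import Cfsg.Agent.Lib.Hall.Solvable

set_option autoImplicit false
open scoped Pointwise commutatorElement
open Cfsg

namespace Cfsg.Agent.S0048

/-- In a finite solvable group every maximal subgroup has index a prime power. -/
theorem result {G : Type*} [Group G] [Finite G] [Group.IsSolvable G]
    (M : Subgroup G) (hM : IsCoatom M) : IsPrimePow M.index := by
  let R := M.normalCore
  have hle : (QuotientGroup.mk' R).ker ≤ M := by rw [QuotientGroup.ker_mk']; exact Subgroup.normalCore_le M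
  have hs := QuotientGroup.mk'_surjective R
  rw [← Subgroup.index_map_eq M hs hle]
  let M' := M.map (QuotientGroup.mk' R)
  have hM' : M' ≠ ⊤ := by
    intro he
    apply hM.1
    rw [← Subgroup.comap_map_eq_self hle, show M.map (QuotientGroup.mk' R) = ⊤ from he, Subgroup.comap_top]
  have : Nontrivial (G ⧸ R) := by
    by_contra h
    rw [not_nontrivial_iff_subsingleton] at h
    exact hM' (Subsingleton.elim _ _)
  obtain ⟨N, p, hn, hN, hp, hNp, -, -⟩ := Lib.Hall.exists_normal_pgroup (G := G ⧸ R)
  have : Fact p.Prime := ⟨hp⟩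
  have hNM : ¬ N ≤ M' := by
    intro h
    have h1 : N.comap (QuotientGroup.mk' R) ≤ R :=
      Subgroup.normal_le_normalCore.mpr ((Subgroup.comap_mono h).trans (Subgroup.comap_map_eq_self hle).le)
    apply hN
    rw [eq_bot_iff, ← Subgroup.map_comap_eq_self_of_surjective hs N]
    refine (Subgroup.map_mono h1).trans ?_
    rw [QuotientGroup.map_mk'_self]
  have hsup : M' ⊔ N = ⊤ := by
    apply Subgroup.comap_injective hs
    rw [Subgroup.comap_top]
    refine hM.2 _ (lt_of_le_of_ne ?_ ?_)
    · exact (Subgroup.comap_map_eq_self hle).ge.trans (Subgroup.comap_mono le_sup_left)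
    · intro he
      apply hNM
      have h2 := congrArg (Subgroup.map (QuotientGroup.mk' R)) he
      rw [Subgroup.map_comap_eq_self_of_surjective hs] at h2
      exact le_sup_right.trans h2.ge
  obtain ⟨k, hk⟩ := IsPGroup.iff_card.mp hNp
  have h1 := Lib.Coprime.card_sup_mul_card_inf N M'
  rw [hsup, Subgroup.card_top, hk, ← M'.index_mul_card] at h1
  have h2 : M'.index ∣ p ^ k := ⟨Nat.card (M' ⊓ N : Subgroup (G ⧸ R)), by
    apply mul_left_cancel₀ (Nat.card_pos (α := M')).ne'
    rw [← h1]; ring⟩
  obtain ⟨i, -, hi⟩ := (Nat.dvd_prime_pow hp).mp h2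
  rw [show (M.map (QuotientGroup.mk' R)).index = p ^ i from hi]
  refine IsPrimePow.pow hp.prime.isPrimePow ?_
  rintro rfl
  exact hM' (Subgroup.index_eq_one.mp (by simpa using hi))

end Cfsg.Agent.S0048
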