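import Cfsg.Statements.S0049
import Cfsg.Agent.Lib.Coprime.Basic
import Mathlib.GroupTheory.Frattini

set_option autoImplicit false
open scoped Pointwise commutatorElement
open Cfsg

namespace Cfsg.Agent.S0049

/-- A prime divisor of the order of a finite group also divides the index of the Frattini subgroup. -/
theorem result {G : Type*} [Group G] [Finite G] (p : ℕ) (hp : p.Prime) (hdvd : p ∣ Nat.card G) :
    p ∣ (frattini G).index := by
  by_contra hnd
  have : Fact p.Prime := ⟨hp⟩
  have : Group.IsNilpotent (frattini G) := frattini_nilpotent
  obtain ⟨P⟩ := (inferInstance : Nonempty (Sylow p (frattini G)))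
  have hPn : (P : Subgroup (frattini G)).Characteristic := P.characteristic_of_normal inferInstance
  let P' : Subgroup G := (P : Subgroup (frattini G)).map (frattini G).subtype
  have : P'.Normal := ConjAct.normal_of_characteristic_of_normal
  have hidx : P'.index = (P : Subgroup (frattini G)).index * (frattini G).index :=
    Subgroup.index_map_subtype _
  obtain ⟨e, he⟩ := IsPGroup.iff_card.mp (P.2.map (frattini G).subtype : IsPGroup p P')
  have hnd' : ¬ p ∣ P'.index := by
    rw [hidx]; exact fun h => (hp.dvd_mul.mp h).elim P.not_dvd_index hnd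
  obtain ⟨H, hH⟩ := Subgroup.exists_right_complement'_of_coprime (N := P')
    (by rw [he]; exact Nat.Coprime.pow_left e (hp.coprime_iff_not_dvd.mpr hnd'))
  have htop : H = ⊤ := frattini_nongenerating (eq_top_iff.mpr (hH.sup_eq_top.ge.trans
    (sup_le (le_sup_of_le_right (Subgroup.map_subtype_le _)) le_sup_left)))
  subst htop
  have hbot : P' = ⊥ := Subgroup.isComplement'_top_right.mp hH
  exact hnd' (by rw [hbot, Subgroup.index_bot]; exact hdvd)

end Cfsg.Agent.S0049
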