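import Cfsg.Statements.S0050
import Cfsg.Agent.Lib.Hall.Solvable

set_option autoImplicit false
open scoped Pointwise commutatorElement
open Cfsg

namespace Cfsg.Agent.S0050

/-- Frattini argument for Hall subgroups: if L is a solvable normal subgroup and H a subgroup of L of order coprime to its index in L, then L together with the normaliser of H generates the whole group. -/
theorem result {G : Type*} [Group G] [Finite G] (L : Subgroup G) [L.Normal] (hL : Group.IsSolvable L)
    (H : Subgroup G) (hHL : H ≤ L) (hHall : (Nat.card H).Coprime (H.relIndex L)) :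
    L ⊔ Subgroup.normalizer (H : Set G) = ⊤ := by
  rw [eq_top_iff]
  intro g _
  have hle : MulAut.conj g • H ≤ L :=
    (Subgroup.pointwise_smul_le_pointwise_smul_iff.mpr hHL).trans
      (Lib.Coprime.conj_smul_of_normal L g).le
  obtain ⟨x, hx⟩ := Lib.Hall.exists_conj_eq (H := H.subgroupOf L)
    (K := (MulAut.conj g • H).subgroupOf L)
    (by rw [Lib.Coprime.card_subgroupOf hHL]; exact hHall)
    (by rw [Lib.Coprime.card_subgroupOf hHL, Lib.Coprime.card_subgroupOf hle, Lib.Coprime.card_conj_smul])
  have hx' := congrArg (Subgroup.map L.subtype) hx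
  rw [Lib.Coprime.map_conj_smul, Subgroup.map_subgroupOf_eq_of_le hHL,
    Subgroup.map_subgroupOf_eq_of_le hle] at hx'
  have hn : (x : G)⁻¹ * g ∈ Subgroup.normalizer (H : Set G) := by
    refine Lib.Coprime.mem_normalizer_of_conj_smul_eq ?_
    rw [Lib.Coprime.conj_smul_mul, ← hx', Subgroup.coe_subtype, Lib.Coprime.conj_inv_smul_smul]
  simpa using Subgroup.mul_mem_sup x.2 hn

end Cfsg.Agent.S0050
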