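import Cfsg.Statements.S0051
import Cfsg.Agent.Lib.Hall.Gaschutz

set_option autoImplicit false
open Cfsg

namespace Cfsg.Agent.S0051

/-- Gaschütz's Theorem, existence: an abelian normal subgroup K that is complemented inside a subgroup U ≥ K whose index is coprime to the order of K is complemented in the whole group. -/
theorem result {G : Type*} [Group G] [Finite G] (K U : Subgroup G) [K.Normal] [IsMulCommutative K]
    (hKU : K ≤ U) (hcop : (Nat.card K).Coprime U.index)
    (A : Subgroup G) (hAU : A ≤ U) (hAK : A ⊓ K = ⊥) (hKA : K ⊔ A = U) :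
    ∃ H : Subgroup G, Subgroup.IsComplement' K H := by
  have hn : (K.subgroupOf U).Normal := inferInstance
  refine Lib.Hall.exists_complement_of_relative K hKU hcop (A := A) ?_
  refine Subgroup.isComplement'_of_disjoint_and_mul_eq_univ ?_ ?_
  · rw [Subgroup.disjoint_def]
    intro x hx hxA
    have h : (x : G) ∈ A ⊓ K := ⟨hxA, hx⟩
    rw [hAK, Subgroup.mem_bot] at h
    exact Subtype.ext h
  · rw [← Subgroup.normal_mul, ← Subgroup.subgroupOf_sup hKU hAU, hKA, Subgroup.subgroupOf_self, Subgroup.coe_top]

end Cfsg.Agent.S0051
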