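import Cfsg.Statements.S0054
import Mathlib.GroupTheory.GroupAction.MultipleTransitivity
import Mathlib.GroupTheory.PGroup

set_option autoImplicit false
open Cfsg

namespace Cfsg.Agent.S0054

/-- A regular normal subgroup of a finite 2-transitive group is elementary abelian: it is commutative and all its elements have order dividing one prime. -/
theorem result {G : Type*} [Group G] [Finite G]
    {X : Type*} [Nonempty X] [MulAction G X] (h2 : MulAction.IsMultiplyPretransitive G X 2)
    (N : Subgroup G) [N.Normal] (htrans : MulAction.IsPretransitive N X) (hreg : ∀ x : X, MulAction.stabilizer N x = ⊥) :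
    IsMulCommutative N ∧ ∃ p : ℕ, p.Prime ∧ ∀ n ∈ N, n ^ p = 1 := by
  classical
  obtain ⟨x⟩ := ‹Nonempty X›
  have hmove : ∀ n : N, n ≠ 1 → (n : G) • x ≠ x := fun n hn h => hn (by
    have : n ∈ MulAction.stabilizer N x := h
    rwa [hreg x, Subgroup.mem_bot] at this)
  have hconj : ∀ n m : N, n ≠ 1 → m ≠ 1 → ∃ g : G, g * (n : G) * g⁻¹ = m := by
    intro n m hn hm
    obtain ⟨g, hg1, hg2⟩ := MulAction.is_two_pretransitive_iff.mp h2
      (Ne.symm (hmove n hn)) (Ne.symm (hmove m hm))
    refine ⟨g, ?_⟩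
    let k : N := ⟨g * (n : G) * g⁻¹, Subgroup.Normal.conj_mem inferInstance _ n.2 g⟩
    have hk : (m⁻¹ * k : N) ∈ MulAction.stabilizer N x := by
      show ((m⁻¹ * k : N) : G) • x = x
      have h1 : (k : G) • x = (m : G) • x := by
        show (g * (n : G) * g⁻¹) • x = (m : G) • x
        rw [mul_smul, show g⁻¹ • x = x from inv_smul_eq_iff.mpr hg1.symm, mul_smul, hg2]
      rw [Subgroup.coe_mul, Subgroup.coe_inv, mul_smul, h1, inv_smul_smul]
    rw [hreg x, Subgroup.mem_bot, inv_mul_eq_one] at hk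
    exact (congrArg Subtype.val hk).symm
  rcases subsingleton_or_nontrivial N with hsub | hnt
  · exact ⟨⟨⟨fun a b => Subsingleton.elim _ _⟩⟩, 2, Nat.prime_two, fun n hn =>
      congrArg (fun z : N => (z : G)) (Subsingleton.elim ((⟨n, hn⟩ : N) ^ 2) 1)⟩
  obtain ⟨p, hp, hdvd⟩ := Nat.exists_prime_and_dvd (Finite.one_lt_card (α := N)).ne'
  haveI := Fact.mk hp
  obtain ⟨a, ha⟩ := exists_prime_orderOf_dvd_card' p hdvd
  have ha1 : a ≠ 1 := fun h => hp.ne_one (by rw [← ha, h, orderOf_one])
  have hexp : ∀ n : N, n ^ p = 1 := fun n => by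
    by_cases hn : n = 1
    · rw [hn, one_pow]
    · obtain ⟨g, hg⟩ := hconj a n ha1 hn
      apply Subtype.ext
      rw [Subgroup.coe_pow, ← hg, conj_pow, ← Subgroup.coe_pow, ← ha, pow_orderOf_eq_one,
        Subgroup.coe_one, mul_one, mul_inv_cancel]
  haveI : Nontrivial (Subgroup.center N) :=
    (show IsPGroup p N from fun n => ⟨1, by rw [pow_one]; exact hexp n⟩).center_nontrivial
  obtain ⟨z, hz1⟩ := exists_ne (1 : Subgroup.center N)
  have hcent : ∀ n : N, n ∈ Subgroup.center N := fun n => by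
    by_cases hn : n = 1
    · rw [hn]; exact one_mem _
    · obtain ⟨g, hg⟩ := hconj (z : N) n (fun h => hz1 (Subtype.ext h)) hn
      refine Subgroup.mem_center_iff.mpr fun m => ?_
      have hm : g⁻¹ * (m : G) * g ∈ N := by
        simpa using Subgroup.Normal.conj_mem (inferInstance : N.Normal) _ m.2 g⁻¹
      have h := congrArg (fun y : N => (y : G)) (Subgroup.mem_center_iff.mp z.2 ⟨_, hm⟩)
      simp only [Subgroup.coe_mul] at h
      apply Subtype.ext
      rw [Subgroup.coe_mul, Subgroup.coe_mul, ← hg]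
      calc (m : G) * (g * ((z : N) : G) * g⁻¹) = g * (g⁻¹ * (m : G) * g * ((z : N) : G)) * g⁻¹ := by group
        _ = g * (((z : N) : G) * (g⁻¹ * (m : G) * g)) * g⁻¹ := by rw [h]
        _ = g * ((z : N) : G) * g⁻¹ * (m : G) := by group
  exact ⟨⟨⟨fun a b => (Subgroup.mem_center_iff.mp (hcent b) a)⟩⟩, p, hp, fun n hn =>
    congrArg Subtype.val (hexp ⟨n, hn⟩)⟩

end Cfsg.Agent.S0054
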