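import Cfsg.Statements.S0056
import Cfsg.Agent.Lib.Coprime.Abelian

set_option autoImplicit false
open Cfsg

namespace Cfsg.Agent.S0056

/-- A coprime action on an abelian group that fixes all elements of prime order is trivial. -/
theorem result {G : Type*} [Group G] [Finite G] (A V : Subgroup G) [IsMulCommutative V]
    (hAV : A ≤ Subgroup.normalizer (V : Set G)) (hcop : (Nat.card A).Coprime (Nat.card V))
    (hΩ : ∀ v ∈ V, (orderOf v).Prime → ∀ a ∈ A, a * v = v * a) : A ≤ Subgroup.centralizer (V : Set G) := by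
  have hle := Lib.Coprime.commutator_le_of_le_normalizer' hAV
  have hbot : ⁅V, A⁆ = ⊥ := by
    by_contra hne
    obtain ⟨p, hp, hdvd⟩ := Nat.exists_prime_and_dvd
      ((⁅V, A⁆ : Subgroup G).one_lt_card_iff_ne_bot.mpr hne).ne'
    have : Fact p.Prime := ⟨hp⟩
    obtain ⟨⟨x, hx⟩, ho⟩ := exists_prime_orderOf_dvd_card' p hdvd
    rw [← Subgroup.orderOf_coe] at ho
    have h : x ∈ (V ⊓ Subgroup.centralizer (A : Set G)) ⊓ ⁅V, A⁆ :=
      ⟨⟨hle hx, Subgroup.mem_centralizer_iff.mpr fun a ha =>
        hΩ x (hle hx) (by rw [show orderOf x = p from ho]; exact hp) a ha⟩, hx⟩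
    rw [Lib.Coprime.inf_centralizer_inf_commutator hAV hcop, Subgroup.mem_bot] at h
    subst h
    exact hp.ne_one (by rw [← ho, orderOf_one])
  rw [Subgroup.commutator_eq_bot_iff_le_centralizer] at hbot
  exact Subgroup.le_centralizer_iff.mp hbot

end Cfsg.Agent.S0056
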