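import Cfsg.Statements.S0057
import Cfsg.Agent.Lib.Coprime.Abelian

set_option autoImplicit false
open Pointwise commutatorElement
open Cfsg

namespace Cfsg.Agent.S0057

/-- Under coprime action, if the centraliser of A in K has prime index p in K then the commutator subgroup [K, A] has order exactly p. -/
theorem result {G : Type*} [Group G] [Finite G] (A K : Subgroup G) (hAK : A ≤ Subgroup.normalizer (K : Set G))
    (hcop : (Nat.card A).Coprime (Nat.card K)) (hsolv : Group.IsSolvable A ∨ Group.IsSolvable K)
    (p : ℕ) (hp : p.Prime) (hidx : (K ⊓ Subgroup.centralizer (A : Set G)).relIndex K = p) :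
    Nat.card (⁅K, A⁆ : Subgroup G) = p := by
  let C : Subgroup G := K ⊓ Subgroup.centralizer (A : Set G)
  have : Fact p.Prime := ⟨hp⟩
  have hLK : ⁅K, A⁆ ≤ K := Lib.Coprime.commutator_le_of_le_normalizer' hAK
  have hgen := Lib.Coprime.commutator_sup_centralizer hAK hcop hsolv
  have hLL := Lib.Coprime.commutator_commutator hAK hcop hsolv
  have hKL := Lib.Coprime.left_le_normalizer_commutator K A
  have hAL := Lib.Coprime.right_le_normalizer_commutator K A
  let L : Subgroup G := ⁅K, A⁆
  let M : Subgroup G := L ⊓ Subgroup.centralizer (A : Set G)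
  -- the index of `C_L(A)` in `L` is `p`
  have hMidx : M.relIndex L = p := by
    have hCK : C ≤ K := inf_le_left
    have hML : C ⊓ L = M := le_antisymm (le_inf inf_le_right (inf_le_left.trans inf_le_right))
      (le_inf (le_inf (inf_le_left.trans hLK) inf_le_right) inf_le_left)
    have h1 := Lib.Coprime.card_sup_mul_card_inf_of_le_normalizer (A := C) (N := L) (hCK.trans hKL)
    rw [show C ⊔ L = K by rw [sup_comm]; exact hgen, hML,
      ← (M.subgroupOf L).index_mul_card, Lib.Coprime.card_subgroupOf inf_le_left,
      ← (C.subgroupOf K).index_mul_card, Lib.Coprime.card_subgroupOf hCK] at h1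
    have e : p * (Nat.card C * Nat.card M) = M.relIndex L * (Nat.card C * Nat.card M) := by
      rw [← hidx]
      calc _ = C.relIndex K * Nat.card C * Nat.card M := by ring
        _ = Nat.card C * (M.relIndex L * Nat.card M) := h1
        _ = _ := by ring
    exact (mul_right_cancel₀ (mul_ne_zero Nat.card_pos.ne' Nat.card_pos.ne') e).symm
  -- every Sylow `p`-subgroup of `K` is `A`-invariant
  obtain ⟨P, hP⟩ := Lib.Coprime.exists_invariant_sylow hAK hcop hsolv p
  let P' : Subgroup G := (P : Subgroup K).map K.subtype
  have hall : ∀ k ∈ K, A ≤ Subgroup.normalizer ((MulAut.conj k • P' : Subgroup G) : Set G) := by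
    have hPC : ∀ k ∈ K, ∃ c ∈ C, ∃ q ∈ P', c * q = k := by
      have hinj := Lib.Coprime.card_subgroupOf (inf_le_left : C ≤ K)
      let D : Subgroup K := C.subgroupOf K
      have hDi : D.index = p := hidx
      -- the coset space of `D` has `p` points and `P` moves the base point
      intro k hk
      have hPD : ¬ (P : Subgroup K) ≤ D := fun hle =>
        P.not_dvd_index ((hDi ▸ dvd_refl p : p ∣ D.index).trans (Subgroup.index_dvd_of_le hle))
      have hri : D.relIndex (P : Subgroup K) = p := by
        obtain ⟨e, he⟩ := P.2.index (D.subgroupOf (P : Subgroup K))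
        have hle : D.relIndex (P : Subgroup K) ≤ p := by
          have h1 := Subgroup.relIndex_le_of_le_right (H := D) (le_top : (P : Subgroup K) ≤ ⊤)
            (by rw [Subgroup.relIndex_top_right, hDi]; exact hp.ne_zero)
          rwa [Subgroup.relIndex_top_right, hDi] at h1
        change D.relIndex (P : Subgroup K) = p ^ e at he
        rcases e with _ | e
        · rw [pow_zero, Subgroup.relIndex_eq_one] at he
          exact absurd he hPD
        · refine le_antisymm hle (he ▸ ?_)
          exact Nat.le_self_pow (Nat.succ_ne_zero e) p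
      have hinj : Function.Bijective (fun x : (P : Subgroup K) ⧸ D.subgroupOf (P : Subgroup K) =>
          Subgroup.quotientSubgroupOfEmbeddingOfLE D (le_top : (P : Subgroup K) ≤ ⊤) x) := by
        refine (Nat.bijective_iff_injective_and_card _).mpr ⟨Function.Embedding.injective _, ?_⟩
        exact hri.trans (hDi.symm.trans D.relIndex_top_right.symm)
      obtain ⟨x, hx⟩ := hinj.2 (QuotientGroup.mk ⟨⟨k⁻¹, K.inv_mem hk⟩, Subgroup.mem_top _⟩)
      obtain ⟨q, rfl⟩ := QuotientGroup.mk_surjective x
      have hq := QuotientGroup.eq.mp hx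
      refine ⟨k * (q : K), ?_, (q : K)⁻¹,
        P'.inv_mem (Subgroup.mem_map_of_mem K.subtype q.2), by simp⟩
      have h2 : ((q : K) : G)⁻¹ * k⁻¹ ∈ C := hq
      simpa using C.inv_mem h2
    intro k hk a ha
    obtain ⟨c, hc, q, hq, rfl⟩ := hPC k hk
    refine Lib.Coprime.mem_normalizer_of_conj_smul_eq ?_
    rw [Lib.Coprime.conj_smul_mul, Lib.Coprime.conj_smul_eq_self (Subgroup.le_normalizer hq),
      ← Lib.Coprime.conj_smul_mul, show a * c = c * a from Subgroup.mem_centralizer_iff.mp hc.2 a ha,
      Lib.Coprime.conj_smul_mul, Lib.Coprime.conj_smul_eq_self (hP ha)]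
  have hnorm : L ≤ Subgroup.normalizer (P' : Set G) := by
    show ⁅K, A⁆ ≤ _
    rw [Subgroup.commutator_le]
    intro k hk a ha
    refine mul_mem (Lib.Coprime.mem_normalizer_of_conj_smul_eq ?_) (inv_mem (hP ha))
    rw [Lib.Coprime.conj_smul_mul, Lib.Coprime.conj_smul_mul,
      Lib.Coprime.conj_smul_eq_self (hall k⁻¹ (K.inv_mem hk) ha), Lib.Coprime.conj_smul_inv_smul]
  -- hence `L` is a `p`-group
  let R : Subgroup G := L ⊓ P'
  have hLR : L ≤ Subgroup.normalizer (R : Set G) :=
    (le_inf Subgroup.le_normalizer hnorm).trans Subgroup.inf_normalizer_le_normalizer_inf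
  have hRp : IsPGroup p R := (P.2.map K.subtype).to_inf_right
  have hRA : A ≤ Subgroup.normalizer (R : Set G) :=
    (le_inf hAL hP).trans Subgroup.inf_normalizer_le_normalizer_inf
  have hRM : ¬ R ≤ M := by
    intro hle
    have h1 : p ∣ R.relIndex L := hMidx ▸ Subgroup.relIndex_dvd_of_le_left L hle
    have h2 : R.relIndex L = P'.relIndex L := by
      show (L ⊓ P').relIndex L = _
      rw [inf_comm, Subgroup.inf_relIndex_right]
    have h3 : P'.relIndex (L ⊔ P') = P'.relIndex L := by
      have h4 := Lib.Coprime.card_sup_mul_card_inf_of_le_normalizer (A := L) (N := P') hnorm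
      rw [← (R.subgroupOf L).index_mul_card, Lib.Coprime.card_subgroupOf inf_le_left,
        ← (P'.subgroupOf (L ⊔ P')).index_mul_card, Lib.Coprime.card_subgroupOf le_sup_right] at h4
      have e : P'.relIndex (L ⊔ P') * (Nat.card P' * Nat.card R) =
          R.relIndex L * (Nat.card P' * Nat.card R) := by
        calc _ = P'.relIndex (L ⊔ P') * Nat.card P' * Nat.card R := by ring
          _ = R.relIndex L * Nat.card R * Nat.card P' := h4
          _ = _ := by ring
      rw [← h2]
      exact mul_right_cancel₀ (mul_ne_zero Nat.card_pos.ne' Nat.card_pos.ne') e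
    have h5 : P'.relIndex (L ⊔ P') ∣ P'.relIndex K := by
      rw [← Subgroup.relIndex_mul_relIndex P' (L ⊔ P') K le_sup_right
        (sup_le hLK (Subgroup.map_subtype_le _))]
      exact dvd_mul_right _ _
    have h6 : P'.relIndex K = (P : Subgroup K).index := by
      show (P'.subgroupOf K).index = _
      congr 1
      exact Subgroup.comap_map_eq_self_of_injective K.subtype_injective _
    rw [h2, ← h3] at h1
    exact P.not_dvd_index (h6 ▸ h1.trans h5)
  have hsupR : ∀ x ∈ L, ∃ m ∈ M, x * m⁻¹ ∈ R := by
    intro x hx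
    have hRL : R ≤ L := inf_le_left
    have hns : (M ⊔ R).relIndex L ∣ p := hMidx ▸ Subgroup.relIndex_dvd_of_le_left L le_sup_left
    rcases (Nat.dvd_prime hp).mp hns with h | h
    · have hx' := Subgroup.relIndex_eq_one.mp h hx
      rw [sup_comm, ← SetLike.mem_coe, Subgroup.coe_mul_of_right_le_normalizer_left R M
        (inf_le_left.trans hLR)] at hx'
      obtain ⟨r, hr, m, hm, rfl⟩ := hx'
      exact ⟨m, hm, by simpa using hr⟩
    · exfalso
      have := Subgroup.relIndex_mul_relIndex M (M ⊔ R) L le_sup_left (sup_le inf_le_left hRL)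
      rw [h, hMidx] at this
      have h1 : M.relIndex (M ⊔ R) = 1 := by
        have := hp.pos; nlinarith
      exact hRM (le_sup_right.trans (Subgroup.relIndex_eq_one.mp h1))
  have hLeq : L = R := by
    refine le_antisymm ?_ inf_le_left
    rw [show L = ⁅L, A⁆ from hLL.symm, Subgroup.commutator_le]
    intro x hx a ha
    obtain ⟨m, hm, hr⟩ := hsupR x hx
    let r := x * m⁻¹
    have hax : a * m = m * a := Subgroup.mem_centralizer_iff.mp hm.2 a ha
    have e : ⁅x, a⁆ = r * (a * r⁻¹ * a⁻¹) := by
      calc ⁅x, a⁆ = r * (m * a) * m⁻¹ * r⁻¹ * a⁻¹ := by simp only [r, commutatorElement_def]; group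
        _ = _ := by rw [← hax]; group
    rw [e]
    exact mul_mem hr ((Subgroup.mem_normalizer_iff.mp (hRA ha) _).mp (inv_mem hr))
  have hLp : IsPGroup p L := hLeq ▸ hRp
  -- `C_L(A)` is normal of index `p`, hence central, hence trivial
  have hMn : (M.subgroupOf L).Normal := by
    have : Group.IsNilpotent L := hLp.isNilpotent
    refine Subgroup.NormalizerCondition.normal_of_coatom _ Group.normalizerCondition_of_isNilpotent ⟨?_, ?_⟩
    · intro h
      have := Subgroup.index_eq_one.mpr h
      rw [show (M.subgroupOf L).index = p from hMidx] at this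
      exact hp.ne_one this
    · intro U hU
      have := Subgroup.relIndex_mul_index hU.le
      rw [show (M.subgroupOf L).index = p from hMidx] at this
      rcases (Nat.dvd_prime hp).mp (Dvd.intro_left _ this) with h | h
      · exact Subgroup.index_eq_one.mp h
      · rw [h] at this
        have h1 : (M.subgroupOf L).relIndex U = 1 := by have := hp.pos; nlinarith
        exact absurd (Subgroup.relIndex_eq_one.mp h1) hU.not_ge
  have hnL : L ≤ Subgroup.normalizer (M : Set G) :=
    (Subgroup.normal_subgroupOf_iff_le_normalizer inf_le_left).mp hMn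
  have hAM : ∀ m ∈ M, ∀ a ∈ A, a * m = m * a := fun m hm a ha => Subgroup.mem_centralizer_iff.mp hm.2 a ha
  have hcen : ⁅⁅L, A⁆, M⁆ = ⊥ := by
    refine Subgroup.commutator_commutator_eq_bot_of_rotate ?_ ?_
    · have : ⁅A, M⁆ = ⊥ := by
        rw [Subgroup.commutator_eq_bot_iff_le_centralizer]
        exact fun a ha => Subgroup.mem_centralizer_iff.mpr fun m hm => (hAM m hm a ha).symm
      rw [this, Subgroup.commutator_bot_left]
    · rw [eq_bot_iff]
      refine (Subgroup.commutator_mono ?_ le_rfl).trans
        (le_of_eq (Subgroup.commutator_eq_bot_iff_le_centralizer.mpr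
          (inf_le_right : M ≤ Subgroup.centralizer (A : Set G))))
      exact Lib.Coprime.commutator_le_of_le_normalizer' hnL
  rw [show ⁅L, A⁆ = L from hLL, Subgroup.commutator_eq_bot_iff_le_centralizer] at hcen
  have hLab : IsMulCommutative L := by
    have hq : IsCyclic (L ⧸ M.subgroupOf L) := isCyclic_of_prime_card (p := p) hMidx
    have hker : (QuotientGroup.mk' (M.subgroupOf L)).ker ≤ Subgroup.center L := by
      rw [QuotientGroup.ker_mk']
      intro x hx
      rw [Subgroup.mem_center_iff]
      intro y
      exact Subtype.ext (Subgroup.mem_centralizer_iff.mp (hcen y.2) x hx).symm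
    exact ⟨⟨commutative_of_cyclic_center_quotient (QuotientGroup.mk' (M.subgroupOf L)) hker⟩⟩
  have hdisj := Lib.Coprime.inf_centralizer_inf_commutator (V := L) hAL
    (hcop.coprime_dvd_right (Subgroup.card_dvd_of_le hLK))
  rw [show ⁅L, A⁆ = L from hLL, inf_eq_left.mpr inf_le_left] at hdisj
  have h := (M.subgroupOf L).index_mul_card
  rw [show (M.subgroupOf L).index = p from hMidx, Lib.Coprime.card_subgroupOf inf_le_left, hdisj,
    Subgroup.card_bot, mul_one] at h
  exact h.symm

end Cfsg.Agent.S0057
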