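import Cfsg.Statements.S0059
import Cfsg.Agent.Lib.Coprime.Abelian

set_option autoImplicit false
open Cfsg

namespace Cfsg.Agent.S0059

/-- Let a finite group act on a set on which a normal subgroup K of coprime order and index is transitive, with K or the quotient solvable. Then any complement H of K has a fixed point, and any two H-fixed points are interchanged by an element of K centralising H. -/
theorem result {G : Type*} [Group G] [Finite G] {X : Type*} [Nonempty X] [MulAction G X]
    (K H : Subgroup G) [K.Normal] (hc : Subgroup.IsComplement' K H) (hcop : (Nat.card K).Coprime K.index)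
    (hsolv : Group.IsSolvable K ∨ Group.IsSolvable (G ⧸ K)) (htrans : MulAction.IsPretransitive K X) :
    (∃ x : X, ∀ h ∈ H, h • x = x) ∧
    ∀ x y : X, (∀ h ∈ H, h • x = x) → (∀ h ∈ H, h • y = y) → ∃ k ∈ K ⊓ Subgroup.centralizer (H : Set G), k • x = y := by
  have hidx : K.index = Nat.card H := hc.symm.index_eq_card
  have htr : ∀ x y : X, ∃ k ∈ K, k • x = y := fun x y => by
    obtain ⟨k, hk⟩ := htrans.exists_smul_eq x y
    exact ⟨k, k.2, hk⟩
  refine ⟨?_, fun x y hx hy => ?_⟩
  · obtain ⟨x⟩ := ‹Nonempty X›
    let R : Subgroup G := MulAction.stabilizer G x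
    have hRK : R ⊔ K = ⊤ := by
      rw [eq_top_iff]
      intro g _
      obtain ⟨k, hk, hkx⟩ := htr x (g • x)
      have h : k⁻¹ * g ∈ R := by
        rw [MulAction.mem_stabilizer_iff, mul_smul, ← hkx, inv_smul_smul]
      have := Subgroup.mul_mem_sup (S := K) (T := R) hk h
      rw [sup_comm] at this
      simpa using this
    have hi : (K.subgroupOf R).index = K.index := by
      rw [← K.relIndex_top_right, ← hRK, Subgroup.relIndex_sup_right]; rfl
    obtain ⟨B, hB⟩ := Subgroup.exists_right_complement'_of_coprime (N := K.subgroupOf R) (by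
      rw [hi, Lib.Coprime.card_subgroupOf_inf]
      exact hcop.coprime_dvd_left (Subgroup.card_dvd_of_le inf_le_left))
    have hBc : Nat.card (B.map R.subtype) = K.index := by
      rw [← Nat.card_congr (B.equivMapOfInjective _ R.subtype_injective).toEquiv,
        ← hB.symm.index_eq_card, hi]
    obtain ⟨g, hg⟩ := Lib.Coprime.exists_conj_eq_of_card_eq K hcop hsolv hBc hidx.symm
    refine ⟨g • x, fun h hh => ?_⟩
    rw [← hg, Lib.Coprime.mem_conj_smul] at hh
    have h' : (g⁻¹ * h * g) • x = x := Subgroup.map_subtype_le B hh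
    rw [mul_smul, mul_smul, inv_smul_eq_iff] at h'
    exact h'
  · obtain ⟨k, hk, hkx⟩ := htr x y
    have hN : H ≤ Subgroup.normalizer ((K ⊓ MulAction.stabilizer G x : Subgroup G) : Set G) := by
      refine (le_inf Subgroup.le_normalizer_of_normal ?_).trans
        Subgroup.inf_normalizer_le_normalizer_inf
      exact fun h hh => Subgroup.le_normalizer (MulAction.mem_stabilizer_iff.mpr (hx h hh))
    obtain ⟨c, hcc, hn⟩ := Lib.Coprime.exists_centralizer_mem_coset (A := H)
      (N := K ⊓ MulAction.stabilizer G x) (k := k) hN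
      ((hidx ▸ hcop.symm).coprime_dvd_right (Subgroup.card_dvd_of_le inf_le_left))
      (by
        rcases hsolv with h | h
        · exact Or.inr (Lib.Coprime.isSolvable_of_le inf_le_left h)
        · exact Or.inl (Group.isSolvable_of_surjective (f := hc.symm.QuotientMulEquiv.toMonoidHom)
            hc.symm.QuotientMulEquiv.surjective))
      fun h hh => by
        refine ⟨K.mul_mem (K.inv_mem hk) (Subgroup.Normal.conj_mem ‹K.Normal› k hk h), ?_⟩
        show (k⁻¹ * (h * k * h⁻¹)) • x = x
        rw [mul_smul, mul_smul, mul_smul]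
        conv_lhs => arg 2; arg 2; arg 2; rw [show h⁻¹ • x = x from hx _ (H.inv_mem hh)]
        rw [hkx, hy h hh, ← hkx, inv_smul_smul]
    refine ⟨c, ⟨by simpa using K.mul_mem hk hn.1, hcc⟩, ?_⟩
    have h2 : (k⁻¹ * c) • x = x := hn.2
    rw [mul_smul, inv_smul_eq_iff] at h2
    rw [h2, hkx]

end Cfsg.Agent.S0059
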