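import Cfsg.Statements.S0060
import Cfsg.Agent.Lib.Hall.Basic
import Cfsg.Agent.Lib.Coprime.Basic

set_option autoImplicit false
open Pointwise
open Cfsg

namespace Cfsg.Agent.S0060

/-- Brodkey's Theorem: in a finite group with abelian Sylow p-subgroups and no nontrivial normal p-subgroup, some conjugate of a Sylow p-subgroup meets it trivially. -/
theorem result {G : Type*} [Group G] [Finite G] (p : ℕ) [Fact p.Prime]
    (S : Sylow p G) (hS : IsMulCommutative S) (hOp : Cfsg.pCore p G = ⊥) :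
    ∃ g : G, (S : Subgroup G) ⊓ MulAut.conj g • (S : Subgroup G) = ⊥ := by

  classical
  have := Fintype.ofFinite (Sylow p G)
  obtain ⟨Q, -, hQ'⟩ := Finset.exists_min_image Finset.univ
    (fun Q : Sylow p G => Nat.card ↥((S : Subgroup G) ⊓ (Q : Subgroup G))) Finset.univ_nonempty
  have hQ := fun R => hQ' R (Finset.mem_univ R)
  set D := (S : Subgroup G) ⊓ (Q : Subgroup G) with hDdef
  set C := Subgroup.centralizer (D : Set G) with hCdef
  have hab : ∀ R : Sylow p G, ∀ a ∈ (R : Subgroup G), ∀ b ∈ (R : Subgroup G), a * b = b * a := by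
    intro R
    obtain ⟨g, hg⟩ := MulAction.exists_smul_eq G S R
    intro a ha b hb
    rw [← hg, Sylow.coe_subgroup_smul, Subgroup.mem_pointwise_smul_iff_inv_smul_mem] at ha hb
    haveI := hS
    have h := congrArg Subtype.val (mul_comm' (⟨_, ha⟩ : (S : Subgroup G)) ⟨_, hb⟩)
    simp only [Subgroup.coe_mul, ← smul_mul'] at h
    exact MulAction.injective _ h
  have hSC : (S : Subgroup G) ≤ C := fun x hx =>
    Subgroup.mem_centralizer_iff.mpr fun d hd => hab S d hd.1 x hx
  have hQC : (Q : Subgroup G) ≤ C := fun x hx =>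
    Subgroup.mem_centralizer_iff.mpr fun d hd => hab Q d hd.2 x hx
  have hDR : ∀ R : Sylow p G, D ≤ R := by
    intro R
    obtain ⟨R', hR'⟩ := ((R.2.to_le (inf_le_left : (R : Subgroup G) ⊓ C ≤ R)).comap_subtype (K := C)).exists_le_sylow
    obtain ⟨c, hc⟩ := MulAction.exists_smul_eq C (S.subtype hSC) R'
    have hRC : (R : Subgroup G) ⊓ C ≤ MulAut.conj (c : G) • (S : Subgroup G) := by
      intro x hx
      have h : (⟨x, hx.2⟩ : C) ∈ (R' : Subgroup C) := hR' hx
      rw [← hc, Sylow.coe_subgroup_smul, Subgroup.mem_pointwise_smul_iff_inv_smul_mem,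
        Sylow.coe_subtype, Subgroup.mem_subgroupOf] at h
      rw [Lib.Coprime.mem_conj_smul]
      simpa [mul_assoc] using h
    set Q' := (c : G) • Q
    have hQ'C : (Q' : Subgroup G) ≤ C := by
      intro x hx
      rw [Sylow.coe_subgroup_smul] at hx
      have h := hQC (Lib.Coprime.mem_conj_smul.mp hx)
      have h2 := C.mul_mem (C.mul_mem c.2 h) (C.inv_mem c.2)
      simpa [mul_assoc] using h2
    have hDc : MulAut.conj (c : G) • D = D := by
      apply Lib.Coprime.conj_smul_eq_self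
      exact Subgroup.centralizer_le_normalizer _ c.2
    have hle : (R : Subgroup G) ⊓ (Q' : Subgroup G) ≤ D := by
      intro x hx
      rw [← hDc, hDdef, Lib.Coprime.conj_smul_inf]
      exact ⟨hRC ⟨hx.1, hQ'C hx.2⟩, hx.2⟩
    obtain ⟨g, hg⟩ := MulAction.exists_smul_eq G S R
    have hcard : Nat.card D ≤ Nat.card ↥((R : Subgroup G) ⊓ (Q' : Subgroup G)) := by
      refine (hQ (g⁻¹ • Q')).trans (le_of_eq ?_)
      rw [← Lib.Coprime.card_conj_smul g ((S : Subgroup G) ⊓ _), Lib.Coprime.conj_smul_inf, ← hg,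
        Sylow.coe_subgroup_smul, Sylow.coe_subgroup_smul, Sylow.coe_subgroup_smul, Lib.Coprime.conj_smul_inv_smul]
    exact (Subgroup.eq_of_le_of_card_ge hle hcard).ge.trans inf_le_left
  have hD : D = ⊥ := by
    rw [eq_bot_iff, ← hOp, Lib.Hall.pCore_eq_iInf_sylow]
    exact le_iInf hDR
  obtain ⟨g, hg⟩ := MulAction.exists_smul_eq G S Q
  refine ⟨g, ?_⟩
  rw [← Sylow.coe_subgroup_smul, hg]
  exact hD

end Cfsg.Agent.S0060
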