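import Cfsg.Statements.S0063


set_option autoImplicit false
open scoped Pointwise commutatorElement
open Cfsg

namespace Cfsg.Agent.S0063

universe u
theorem class_le (p : ℕ) [hp : Fact p.Prime] (m : ℕ) : ∀ (G : Type u) [Group G] [Finite G],
    Nat.card G = p ^ m → 1 < m → Group.nilpotencyClass G ≤ m - 1 := by
  induction m using Nat.strongRecOn with | ind m ih => ?_
  intro G _ _ hG hm
  have : Group.IsNilpotent G := (IsPGroup.of_card hG).isNilpotent
  have : Nontrivial G := Finite.one_lt_card_iff_nontrivial.mp
    (by rw [hG]; exact Nat.one_lt_pow (by omega) hp.out.one_lt)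
  obtain ⟨j, hj, hj'⟩ : ∃ j, Nat.card (G ⧸ Subgroup.center G) = p ^ j ∧ j < m := by
    have hd : Nat.card (G ⧸ Subgroup.center G) ∣ p ^ m := hG ▸ Subgroup.card_quotient_dvd_card _
    obtain ⟨j, hjm, hj⟩ := (Nat.dvd_prime_pow hp.out).mp hd
    refine ⟨j, hj, lt_of_le_of_ne hjm ?_⟩
    rintro rfl
    have h1 := (Subgroup.center G).index_mul_card
    rw [Subgroup.index_eq_card, hj, hG] at h1
    have : Nat.card (Subgroup.center G) = 1 := by
      have := pow_pos hp.out.pos j
      nlinarith
    exact Group.IsNilpotent.center_ne_bot (G := G) (Subgroup.card_eq_one.mp this)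
  rw [nilpotencyClass_eq_quotient_center_plus_one]
  rcases Nat.lt_or_ge 1 j with h | h
  · have := ih j hj' (G ⧸ Subgroup.center G) hj h
    omega
  · have hc : IsCyclic (G ⧸ Subgroup.center G) := by
      interval_cases j
      · have : Subsingleton (G ⧸ Subgroup.center G) := (Nat.card_eq_one_iff_unique.mp (by simpa using hj)).1
        infer_instance
      · exact isCyclic_of_prime_card (p := p) (by simpa using hj)
    have hcomm : IsMulCommutative G :=
      MonoidHom.isMulCommutative_of_isCyclic_of_ker_le_center (QuotientGroup.mk' (Subgroup.center G))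
        (by rw [QuotientGroup.ker_mk'])
    have : Subsingleton (G ⧸ Subgroup.center G) := by
      refine QuotientGroup.subsingleton_iff.mpr ?_
      rw [Subgroup.center_eq_top]
    rw [nilpotencyClass_zero_iff_subsingleton.mpr this]
    omega

/-- A finite group of prime-power order p ^ m with m > 1 is nilpotent of class at most m - 1. -/
theorem result {G : Type*} [Group G] [Finite G] (p m : ℕ) [Fact p.Prime]
    (hG : Nat.card G = p ^ m) (hm : 1 < m) : Group.nilpotencyClass G ≤ m - 1 := by
  exact class_le p m G hG hm

end Cfsg.Agent.S0063
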