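import Cfsg.Statements.S0064


set_option autoImplicit false
open scoped Pointwise commutatorElement
open Cfsg

namespace Cfsg.Agent.S0064

/-- A finite group is nilpotent exactly when each of its subgroups is subnormal. -/
theorem result {G : Type*} [Group G] [Finite G] :
    Group.IsNilpotent G ↔ ∀ H : Subgroup G, H.IsSubnormal := by
  constructor
  · intro hG H
    induction H using WellFoundedGT.induction with
    | ind H ih =>
      by_cases h : H = ⊤
      · exact h ▸ Subgroup.IsSubnormal.top
      · exact Subgroup.IsSubnormal.step H (Subgroup.normalizer (H : Set G)) Subgroup.le_normalizer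
          (ih _ (Group.normalizerCondition_of_isNilpotent _ (lt_top_iff_ne_top.mpr h)))
          inferInstance
  · intro h
    refine ((Group.isNilpotent_of_finite_tfae (G := G)).out 0 2).mpr fun M hM => ?_
    obtain ⟨K, hK, hMK, hKt⟩ := (h M).exists_normal_and_le_and_lt_top_of_ne hM.1
    rcases eq_or_lt_of_le hMK with rfl | hlt
    · exact hK
    · exact absurd (hM.2 K hlt) hKt.ne

end Cfsg.Agent.S0064
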