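import Cfsg.Statements.S0066
import Cfsg.Agent.Lib.GS.Zipper

set_option autoImplicit false
open Pointwise
open Cfsg

namespace Cfsg.Agent.S0066

open Subgroup

universe u

theorem aux : ∀ (n : ℕ) (G : Type u) [Group G] [Finite G], Nat.card G = n → ∀ A : Subgroup G,
    (∀ g : G, (A.subgroupOf (A ⊔ MulAut.conj g • A)).IsSubnormal) → A.IsSubnormal := by
  intro n
  induction n using Nat.strong_induction_on with
  | _ n ih => ?_
  intro G _ _ hn A h
  have hsub : ∀ H : Subgroup G, A ≤ H → H ≠ ⊤ → (A.subgroupOf H).IsSubnormal := by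
    intro H hAH hH
    have hlt : Nat.card H < n := by
      rw [← hn]
      exact lt_of_le_of_ne (card_le_card_group H) fun e => hH (eq_top_of_card_eq H e)
    refine ih _ hlt H rfl _ fun g => ?_
    let K := A.subgroupOf H ⊔ MulAut.conj g • A.subgroupOf H
    let J := A ⊔ MulAut.conj (g : G) • A
    have hle : K ≤ J.comap H.subtype := sup_le (fun x hx => mem_sup_left hx) fun x hx => by
      refine mem_sup_right ?_
      rw [mem_pointwise_smul_iff_inv_smul_mem] at hx ⊢
      exact hx
    let φ : K →* J :=
      { toFun := fun x => ⟨((x : H) : G), hle x.2⟩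
        map_one' := rfl
        map_mul' := fun _ _ => rfl }
    exact (h g).comap φ
  rcases Lib.GS.zipper A hsub with hA | ⟨M, hM, hAM, huniq⟩
  · exact hA
  by_contra hA
  have hall : ∀ g : G, MulAut.conj g • A ≤ M := fun g => by
    by_cases hJ : A ⊔ MulAut.conj g • A = ⊤
    · exfalso
      apply hA
      have h1 := h g
      rw [hJ] at h1
      exact h1.trans le_top IsSubnormal.top
    · obtain ⟨K, hK, hJK⟩ := (eq_top_or_exists_le_coatom _).resolve_left hJ
      rw [← huniq K hK (le_sup_left.trans hJK)]
      exact le_sup_right.trans hJK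
  let N := normalClosure (A : Set G)
  have hNM : N ≤ M := (closure_le _).mpr fun y hy => by
    obtain ⟨a, ha, hay⟩ := Group.mem_conjugatesOfSet_iff.mp hy
    obtain ⟨c, rfl⟩ := isConj_iff.mp hay
    exact hall c (smul_mem_pointwise_smul a (MulAut.conj c) A ha)
  have hAN : A ≤ N := fun a ha => le_normalClosure ha
  exact hA (IsSubnormal.trans hAN (hsub N hAN fun e => hM.1 (top_le_iff.mp (e ▸ hNM)))
    (normalClosure_normal.isSubnormal))


/-- Wielandt's subnormality criterion: a subgroup that is subnormal in its join with each of its conjugates is subnormal in the whole finite group. -/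
theorem result {G : Type*} [Group G] [Finite G] (A : Subgroup G)
    (h : ∀ g : G, (A.subgroupOf (A ⊔ MulAut.conj g • A)).IsSubnormal) : A.IsSubnormal := by
  exact aux _ G rfl A h

end Cfsg.Agent.S0066
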