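import Cfsg.Statements.S0067
import Cfsg.Agent.S0066
import Cfsg.Agent.S0064
import Cfsg.Agent.Lib.LocalChar.Core
import Cfsg.Agent.Lib.Hall.Basic
import Cfsg.Agent.Lib.Components.Cores

set_option autoImplicit false
open Pointwise
open Cfsg

namespace Cfsg.Agent.S0067

/-- If the join of a subgroup A with each of its conjugates is nilpotent, then A is subnormal in the finite group and contained in the Fitting subgroup. -/
theorem result {G : Type*} [Group G] [Finite G] (A : Subgroup G)
    (h : ∀ g : G, Group.IsNilpotent (A ⊔ MulAut.conj g • A : Subgroup G)) : A.IsSubnormal ∧ A ≤ Cfsg.fittingSubgroup G := by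
  have hsn : A.IsSubnormal := Cfsg.Agent.S0066.result A fun g => (Cfsg.Agent.S0064.result.mp (h g)) _
  refine ⟨hsn, ?_⟩
  haveI hA : Group.IsNilpotent A := by
    haveI := h 1
    exact Group.nilpotent_of_mulEquiv (Subgroup.subgroupOfEquivOfLe (le_sup_left : A ≤ A ⊔ MulAut.conj (1 : G) • A))
  have htop : (fittingSubgroup G).subgroupOf A = ⊤ := by
    refine Lib.Components.eq_top_of_forall_sylow_le fun q hq => ?_
    haveI := Fact.mk hq
    obtain ⟨P⟩ := (inferInstance : Nonempty (Sylow q A))
    refine ⟨P, fun x hx => ?_⟩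
    have hPn : (P : Subgroup A).IsSubnormal := Cfsg.Agent.S0064.result.mp hA _
    have hP : ((P : Subgroup A).map A.subtype).IsSubnormal := hPn.trans' hsn
    exact Lib.Hall.pCore_le_fittingSubgroup q
      (Lib.LocalChar.le_pCore_of_subnormal hP (P.2.map _) (Subgroup.mem_map_of_mem _ hx))
  exact Subgroup.subgroupOf_eq_top.mp htop

end Cfsg.Agent.S0067
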