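import Cfsg.Statements.S0068
import Cfsg.Agent.Lib.Coprime.Basic
import Mathlib.GroupTheory.FixedPointFree

set_option autoImplicit false
open scoped Pointwise commutatorElement
open Cfsg

namespace Cfsg.Agent.S0068

/-- Frobenius complements of even order: if H complements a nontrivial normal subgroup K, each nonidentity element of H has trivial centraliser in K, and H has even order, then H contains a unique involution s, K is abelian, and s inverts every element of K. -/
theorem result {G : Type*} [Group G] [Finite G] (K H : Subgroup G) [K.Normal]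
    (hc : Subgroup.IsComplement' K H) (hK : K ≠ ⊥) (hfpf : ∀ h ∈ H, h ≠ 1 → K ⊓ Subgroup.centralizer {h} = ⊥)
    (heven : 2 ∣ Nat.card H) :
    (∃ s ∈ H, orderOf s = 2 ∧ (∀ t ∈ H, orderOf t = 2 → t = s) ∧ ∀ k ∈ K, s * k * s⁻¹ = k⁻¹) ∧ IsMulCommutative K := by
  have : Fact (Nat.Prime 2) := ⟨Nat.prime_two⟩
  obtain ⟨⟨s, hs⟩, hos⟩ := exists_prime_orderOf_dvd_card' 2 heven
  rw [← Subgroup.orderOf_coe] at hos
  have hne : ∀ t : G, orderOf t = 2 → t ≠ 1 := fun t ht h1 => by rw [h1, orderOf_one] at ht; omega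
  have hinv : ∀ t ∈ H, orderOf t = 2 → ∀ k ∈ K, t * k * t⁻¹ = k⁻¹ := by
    intro t ht hot
    let φ : K →* K := (MulAut.conjNormal t).toMonoidHom
    have hfp : MonoidHom.FixedPointFree φ := by
      intro k hk
      have h1 : (k : G) ∈ K ⊓ Subgroup.centralizer {t} := by
        refine ⟨k.2, Subgroup.mem_centralizer_singleton_iff.mpr ?_⟩
        have h2 : t * (k : G) * t⁻¹ = k := congrArg Subtype.val hk
        calc (k : G) * t = t * (k : G) * t⁻¹ * t := by rw [h2]
          _ = t * k := by group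
      rw [hfpf t ht (hne t hot), Subgroup.mem_bot] at h1
      exact Subtype.ext h1
    have hinvol : Function.Involutive φ := by
      intro k
      apply Subtype.ext
      show t * (t * (k : G) * t⁻¹) * t⁻¹ = k
      have h2 : t * t = 1 := by rw [← sq, ← hot, pow_orderOf_eq_one]
      calc t * (t * (k : G) * t⁻¹) * t⁻¹ = (t * t) * k * (t * t)⁻¹ := by group
        _ = k := by rw [h2]; group
    intro k hk
    exact congrArg Subtype.val (congrFun (hfp.coe_eq_inv_of_involutive hinvol) ⟨k, hk⟩)
  have hcomm : IsMulCommutative K := by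
    refine ⟨⟨fun a b => Subtype.ext ?_⟩⟩
    have h := hinv s hs hos _ (K.mul_mem a.2 b.2)
    rw [show s * ((a : G) * b) * s⁻¹ = (s * a * s⁻¹) * (s * b * s⁻¹) by group,
      hinv s hs hos _ a.2, hinv s hs hos _ b.2, ← mul_inv_rev, inv_inj] at h
    exact h.symm
  refine ⟨⟨s, hs, hos, fun t ht hot => ?_, hinv s hs hos⟩, hcomm⟩
  by_contra hts
  apply hK
  rw [eq_bot_iff]
  intro k hk
  have hst : s * t ≠ 1 := fun h => hts (by
    rw [mul_eq_one_iff_inv_eq] at h
    rw [← h]
    exact inv_eq_of_mul_eq_one_right (by rw [← sq, ← hos, pow_orderOf_eq_one]))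
  rw [← hfpf (s * t) (H.mul_mem hs ht) hst]
  refine ⟨hk, Subgroup.mem_centralizer_singleton_iff.mpr ?_⟩
  have h1 : (s * t) * k * (s * t)⁻¹ = k := by
    calc (s * t) * k * (s * t)⁻¹ = s * (t * k * t⁻¹) * s⁻¹ := by group
      _ = k := by rw [hinv t ht hot k hk, hinv s hs hos _ (K.inv_mem hk), inv_inv]
  calc k * (s * t) = (s * t) * k * (s * t)⁻¹ * (s * t) := by rw [h1]
    _ = (s * t) * k := by group

end Cfsg.Agent.S0068
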