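import Cfsg.Statements.S0584
import Cfsg.Agent.Lib.Coprime.Basic
import Mathlib.GroupTheory.Frattini

set_option autoImplicit false
open scoped Pointwise commutatorElement
open Cfsg

namespace Cfsg.Agent.S0584

/-- Let B ≤ A be normal subgroups of a finite group G with B contained in the Frattini subgroup of G. If A modulo B is nilpotent then A is nilpotent. -/
theorem result {G : Type*} [Group G] [Finite G] (A B : Subgroup G) [A.Normal] [B.Normal] (hBA : B ≤ A) (hB : B ≤ frattini G) (h : Group.IsNilpotent (↥A ⧸ B.subgroupOf A)) : Group.IsNilpotent A := by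
  suffices hall' : ∀ (p : ℕ) (_ : Fact p.Prime) (P : Sylow p A), (P : Subgroup A).Normal from
    ((Group.isNilpotent_of_finite_tfae (G := A)).out 0 3).mpr hall'
  intro p hp P
  let π := QuotientGroup.mk' (B.subgroupOf A)
  have hs := QuotientGroup.mk'_surjective (B.subgroupOf A)
  have hu : Subsingleton (Sylow p (A ⧸ B.subgroupOf A)) := by
    have hall : ∀ (r : ℕ) (_ : Fact r.Prime) (Q : Sylow r (A ⧸ B.subgroupOf A)),
        (Q : Subgroup (A ⧸ B.subgroupOf A)).Normal :=
      ((Group.isNilpotent_of_finite_tfae (G := A ⧸ B.subgroupOf A)).out 0 3).mp h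
    have hn := hall p hp
    obtain ⟨Q⟩ := (inferInstance : Nonempty (Sylow p (A ⧸ B.subgroupOf A)))
    have := hn Q
    exact ((Sylow.unique_of_normal Q this).instSubsingleton)
  let T : Subgroup A := (P : Subgroup A) ⊔ B.subgroupOf A
  let P' : Subgroup G := (P : Subgroup A).map A.subtype
  have hG : Subgroup.normalizer (P' : Set G) ⊔ B = ⊤ := by
    rw [eq_top_iff]
    intro g _
    let P₂ : Sylow p A := P.mapSurjective (f := (MulAut.conjNormal g : MulAut A).toMonoidHom)
      (MulAut.conjNormal g : MulAut A).surjective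
    have h1 : (P₂ : Subgroup A) ≤ T := by
      have := congrArg Sylow.toSubgroup (Subsingleton.elim (P₂.mapSurjective hs) (P.mapSurjective hs))
      simp only [Sylow.coe_mapSurjective] at this
      calc (P₂ : Subgroup A) ≤ (P₂ : Subgroup A) ⊔ B.subgroupOf A := le_sup_left
        _ = T := Lib.Coprime.eq_of_map_mk'_eq this
    obtain ⟨t, ht⟩ := MulAction.exists_smul_eq T (P.subtype le_sup_left) (P₂.subtype h1)
    have h2 := congrArg (fun Q : Sylow p T => (Q : Subgroup T).map T.subtype) ht
    simp only [Sylow.coe_subtype] at h2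
    rw [show ((t • P.subtype le_sup_left : Sylow p T) : Subgroup T) =
        MulAut.conj t • ((P : Subgroup A).subgroupOf T) from rfl,
      Lib.Coprime.map_conj_smul, Subgroup.map_subgroupOf_eq_of_le le_sup_left,
      Subgroup.map_subgroupOf_eq_of_le h1] at h2
    have h3 := congrArg (Subgroup.map A.subtype) h2
    rw [Lib.Coprime.map_conj_smul] at h3
    have h4 : (P₂ : Subgroup A).map A.subtype = MulAut.conj g • P' := by
      rw [show (P₂ : Subgroup A) = (P : Subgroup A).map (MulAut.conjNormal g : MulAut A).toMonoidHom from rfl,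
        Subgroup.map_map]
      show _ = ((P : Subgroup A).map A.subtype).map (MulAut.conj g).toMonoidHom
      rw [Subgroup.map_map]
      congr 1
    rw [h4] at h3
    have hn : ((t : A) : G)⁻¹ * g ∈ Subgroup.normalizer (P' : Set G) := by
      refine Lib.Coprime.mem_normalizer_of_conj_smul_eq ?_
      rw [Lib.Coprime.conj_smul_mul, ← h3]
      exact Lib.Coprime.conj_inv_smul_smul _ _
    have ht' : ((t : A) : G) ∈ Subgroup.normalizer (P' : Set G) ⊔ B := by
      have h5 : (t : A) ∈ (P : Subgroup A) ⊔ B.subgroupOf A := t.2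
      have h6 := Subgroup.mem_map_of_mem A.subtype h5
      rw [Subgroup.map_sup, Subgroup.map_subgroupOf_eq_of_le hBA] at h6
      exact sup_le_sup_right Subgroup.le_normalizer B h6
    simpa using mul_mem ht' (Subgroup.mem_sup_left hn)
  have htop : Subgroup.normalizer (P' : Set G) = ⊤ :=
    frattini_nongenerating (eq_top_iff.mpr (hG.ge.trans (sup_le_sup_left hB _)))
  have : P'.Normal := Subgroup.normalizer_eq_top_iff.mp htop
  exact Subgroup.Normal.of_map_subtype this

end Cfsg.Agent.S0584
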