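import Cfsg.Statements.S0070
import Cfsg.Agent.Lib.Hall.Basic
import Cfsg.Agent.S0584

set_option autoImplicit false
open scoped Pointwise commutatorElement
open Cfsg

namespace Cfsg.Agent.S0070

/-- The Fitting subgroup commutes with passing to the Frattini quotient: the Fitting subgroup of G modulo its Frattini subgroup is the image of the Fitting subgroup of G. -/
theorem result {G : Type*} [Group G] [Finite G] :
    Cfsg.fittingSubgroup (G ⧸ frattini G) = (Cfsg.fittingSubgroup G).map (QuotientGroup.mk' (frattini G)) := by
  refine le_antisymm ?_ (Lib.Hall.map_fittingSubgroup_le (QuotientGroup.mk'_surjective _))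
  let π := QuotientGroup.mk' (frattini G)
  have hs : Function.Surjective π := QuotientGroup.mk'_surjective _
  let A := (Cfsg.fittingSubgroup (G ⧸ frattini G)).comap π
  have hB : frattini G ≤ A := (QuotientGroup.ker_mk' (frattini G)).ge.trans (Subgroup.ker_le_comap π _)
  have hA : Group.IsNilpotent A := by
    refine Cfsg.Agent.S0584.result A (frattini G) hB le_rfl ?_
    have : Group.IsNilpotent (Cfsg.fittingSubgroup (G ⧸ frattini G)) := Lib.Hall.fittingSubgroup_isNilpotent
    let f := π.subgroupComap (Cfsg.fittingSubgroup (G ⧸ frattini G))
    have hker : f.ker = (frattini G).subgroupOf A := by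
      ext x
      rw [MonoidHom.mem_ker, Subtype.ext_iff, Subgroup.mem_subgroupOf]
      exact QuotientGroup.eq_one_iff (x : G)
    exact Group.nilpotent_of_surjective
      ((QuotientGroup.quotientKerEquivOfSurjective f (π.subgroupComap_surjective_of_surjective _ hs)).symm.trans
        (QuotientGroup.quotientMulEquivOfEq hker)).toMonoidHom (MulEquiv.surjective _)
  calc Cfsg.fittingSubgroup (G ⧸ frattini G) = A.map π :=
        (Subgroup.map_comap_eq_self_of_surjective hs _).symm
    _ ≤ _ := Subgroup.map_mono (Lib.Hall.le_fittingSubgroup hA)

end Cfsg.Agent.S0070
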