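import Cfsg.Statements.S0072
import Cfsg.Agent.Lib.Transfer.Fusion

set_option autoImplicit false
open Cfsg Subgroup
open scoped Pointwise commutatorElement

namespace Cfsg.Agent.S0072

/-- A finite group has a normal p-complement if and only if every p-local subgroup (normalizer of a nontrivial p-subgroup) has one. -/
theorem result {G : Type*} [Group G] [Finite G] (p : ℕ) [Fact p.Prime] : Cfsg.HasNormalPComplement p G ↔ ∀ Q : Subgroup G, IsPGroup p Q → Q ≠ ⊥ → Cfsg.HasNormalPComplement p (Subgroup.normalizer (Q : Set G)) := by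
  refine ⟨fun h Q _ _ => Lib.Transfer.HasNormalPComplement.subgroup h _, fun h => ?_⟩
  refine Lib.Transfer.frobenius_criterion fun Q hQ => ?_
  by_cases hQ1 : Q = ⊥
  · subst hQ1
    intro g _ _
    rw [mem_centralizer_iff]
    intro x hx
    rw [mem_bot.mp hx]; simp
  · exact Lib.Transfer.autPGroup_of_hasNormalPComplement hQ (h Q hQ hQ1)

end Cfsg.Agent.S0072
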