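import Cfsg.Statements.S0073
import Cfsg.Agent.Lib.Transfer.Local

set_option autoImplicit false
open Cfsg Subgroup
open scoped Pointwise commutatorElement

namespace Cfsg.Agent.S0073

theorem abelian_of_pGroup {G : Type*} [Group G] [Finite G] [IsSimpleGroup G] {p : ℕ}
    [Fact p.Prime] (hG : IsPGroup p G) (x y : G) : x * y = y * x := by
  have : Nontrivial (center G) := hG.center_nontrivial
  have h : center G = ⊤ :=
    (IsSimpleGroup.eq_bot_or_eq_top_of_normal (center G) inferInstance).resolve_left
      (fun e => by simpa using nontrivial_iff_ne_bot (center G) |>.mp this e)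
  exact (mem_center_iff.mp (h.symm ▸ mem_top y : y ∈ center G) x)


/-- For a finite non-abelian simple group, either the cube of the least prime divisor of the order divides the order, or 12 does. -/
theorem result {G : Type*} [Group G] [Finite G] [IsSimpleGroup G] (hG : ∃ x y : G, x * y ≠ y * x) : (Nat.card G).minFac ^ 3 ∣ Nat.card G ∨ 12 ∣ Nat.card G := by
  have h1 : Nat.card G ≠ 1 := by
    intro h
    have := (Nat.card_eq_one_iff_unique.mp h).1
    obtain ⟨x, y, hxy⟩ := hG
    exact hxy (Subsingleton.elim _ _)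
  set p := (Nat.card G).minFac with hpdef
  have hp : Fact p.Prime := ⟨Nat.minFac_prime h1⟩
  obtain ⟨P⟩ := (inferInstance : Nonempty (Sylow p G))
  by_cases h3 : p ^ 3 ∣ Nat.card G
  · exact Or.inl h3
  refine Or.inr ?_
  obtain ⟨e, he⟩ := IsPGroup.iff_card.mp P.2
  have hdvd : p ^ e ∣ Nat.card G := he ▸ card_subgroup_dvd_card _
  have he3 : e < 3 := by
    by_contra hlt
    exact h3 ((pow_dvd_pow p (not_lt.mp hlt)).trans hdvd)
  have he0 : e ≠ 0 := by
    intro e0
    have := P.dvd_card_of_dvd_card (Nat.minFac_dvd _)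
    rw [he, e0, pow_zero, Nat.dvd_one] at this
    exact hp.out.ne_one this
  have hab : IsMulCommutative (P : Subgroup G) := by
    obtain rfl | rfl : e = 1 ∨ e = 2 := by omega
    · have : IsCyclic (P : Subgroup G) := isCyclic_of_prime_card (p := p) (by rw [he, pow_one])
      exact IsCyclic.isMulCommutative
    · exact IsPGroup.isMulCommutative_of_card_eq_prime_sq he
  have hnot : ¬ normalizer (P : Set G) ≤ centralizer (P : Set G) := by
    intro hle
    obtain ⟨Q, N, hN, hc⟩ := Lib.Transfer.hasNormalPComplement_of_normalizer_le_centralizer P hle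
    rcases IsSimpleGroup.eq_bot_or_eq_top_of_normal N hN with rfl | rfl
    · have := isComplement'_bot_left.mp hc
      have hGp : IsPGroup p G := Q.2.of_equiv ((MulEquiv.subgroupCongr this).trans topEquiv)
      obtain ⟨x, y, hxy⟩ := hG
      exact hxy (abelian_of_pGroup hGp x y)
    · have := isComplement'_top_left.mp hc
      exact Q.ne_bot_of_dvd_card (Nat.minFac_dvd _) this
  have hnaut : ¬ Lib.Transfer.AutPGroup p (P : Subgroup G) :=
    fun h => hnot (Lib.Transfer.normalizer_le_centralizer_of_coprime P hab h)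
  simp only [Lib.Transfer.AutPGroup, not_forall] at hnaut
  obtain ⟨g, hg, hgo, hgc⟩ := hnaut
  obtain ⟨q, hq, hqp, hqG, F, hF, hmod⟩ := Lib.Transfer.exists_prime_modEq (P : Subgroup G) hg hgo hgc
  have hlt : p < q := lt_of_le_of_ne (Nat.minFac_le_of_dvd hq.two_le hqG) (Ne.symm hqp)
  obtain ⟨j, hj, hFj⟩ := (Nat.dvd_prime_pow hp.out).mp (he ▸ card_subgroup_dvd_card F)
  have hje : j < e := lt_of_le_of_ne hj fun hh => hF (eq_top_of_card_eq F (by rw [hFj, hh, he]))
  rw [he, hFj] at hmod
  have hp2 := hp.out.two_le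
  have hd : q ∣ p ^ e - p ^ j :=
    (Nat.modEq_iff_dvd' (Nat.pow_le_pow_right hp.out.pos hje.le)).mp hmod.symm
  have hq1 : ¬ q ∣ p - 1 := fun h => absurd (Nat.le_of_dvd (by omega) h) (by omega)
  have hfin : e = 2 ∧ q ∣ p + 1 := by
    obtain rfl | rfl : e = 1 ∨ e = 2 := by omega
    · obtain rfl : j = 0 := by omega
      simp at hd; exact absurd hd hq1
    · refine ⟨rfl, ?_⟩
      obtain rfl | rfl : j = 0 ∨ j = 1 := by omega
      · have : p ^ 2 - p ^ 0 = (p + 1) * (p - 1) := by
          rw [pow_zero, ← Nat.sq_sub_sq, one_pow]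
        rw [this] at hd
        exact (hq.dvd_mul.mp hd).resolve_right hq1
      · have : p ^ 2 - p ^ 1 = p * (p - 1) := by rw [Nat.mul_sub, pow_one, mul_one, sq]
        rw [this] at hd
        rcases hq.dvd_mul.mp hd with h | h
        · exact absurd ((Nat.prime_dvd_prime_iff_eq hq hp.out).mp h) hqp
        · exact absurd h hq1
  obtain ⟨rfl, hqd⟩ := hfin
  have hqe : q = p + 1 := le_antisymm (Nat.le_of_dvd (by omega) hqd) hlt
  have hp_eq : p = 2 := by
    rcases hp.out.eq_two_or_odd' with h | h
    · exact h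
    · rcases hq.eq_two_or_odd' with h' | h'
      · omega
      · rw [hqe] at h'
        obtain ⟨a, ha⟩ := h
        obtain ⟨b, hb⟩ := h'
        omega
  have h4 : 4 ∣ Nat.card G := by simpa [hp_eq] using hdvd
  have h3' : 3 ∣ Nat.card G := by simpa [hqe, hp_eq] using hqG
  exact Nat.Coprime.mul_dvd_of_dvd_of_dvd (by norm_num : Nat.Coprime 4 3) h4 h3'

end Cfsg.Agent.S0073
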