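import Cfsg.Statements.S0075
import Cfsg.Agent.Lib.Transfer.Fusion

set_option autoImplicit false
open Cfsg Subgroup
open scoped Pointwise commutatorElement

namespace Cfsg.Agent.S0075

/-- For an abelian Sylow p-subgroup T, its intersection with the subgroup generated by the elements of order prime to p is the commutator of T with its normalizer. -/
theorem result {G : Type*} [Group G] [Finite G] {p : ℕ} [Fact p.Prime] (T : Sylow p G) (hT : IsMulCommutative T) : (T : Subgroup G) ⊓ Cfsg.pResidual p G = ⁅(T : Subgroup G), Subgroup.normalizer (T : Set G)⁆ := by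
  refine le_antisymm ?_ ?_
  · rw [inf_comm]
    refine (Lib.Transfer.pResidual_inf_le_focal T).trans ?_
    rw [focalSubgroup_def, closure_le]
    rintro g ⟨hg, x, hx, u, rfl⟩
    have hu : u * x⁻¹ * u⁻¹ ∈ (T : Subgroup G) := by
      have e : u * x⁻¹ * u⁻¹ = x⁻¹ * ⁅x, u⁆ := by rw [commutatorElement_def]; group
      rw [e]; exact mul_mem (inv_mem hx) hg
    obtain ⟨v, hv, he⟩ := Lib.Transfer.controlsFusion_normalizer T hT x⁻¹ (inv_mem hx) u hu
    have e : ⁅x, u⁆ = ⁅x, v⁆ := by
      rw [commutatorElement_def, commutatorElement_def, mul_assoc x u, mul_assoc x (u * x⁻¹), ← he,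
        ← mul_assoc, ← mul_assoc]
    rw [e]
    exact commutator_mem_commutator hx hv
  · refine le_inf ((Lib.Transfer.commutator_normalizer_le_focal _).trans (focalSubgroup_le _)) ?_
    rw [commutator_le]
    intro x hx u hu
    have hsup : (⟨u, hu⟩ : normalizer (T : Set G)) ∈
        pResidual p (normalizer (T : Set G)) ⊔ (T.subtype le_normalizer : Sylow p (normalizer (T : Set G))) :=
      (Lib.Transfer.pResidual_sup_sylow (p := p) (T.subtype le_normalizer)).symm ▸ mem_top _
    obtain ⟨e, he, t, ht, het⟩ := mem_sup_of_normal_left.mp hsup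
    have ht' : (t : G) ∈ (T : Subgroup G) := mem_subgroupOf.mp (by simpa using ht)
    have he' : (e : G) ∈ pResidual p G := Lib.Transfer.map_pResidual_subtype_le _ ⟨e, he, rfl⟩
    have hu' : u = e * t := (congrArg Subtype.val het).symm
    have hcomm : (t : G) * x⁻¹ = x⁻¹ * t :=
      mem_centralizer_iff.mp (Subgroup.le_centralizer (T : Subgroup G) (inv_mem hx)) t ht'
    have key : ⁅x, u⁆ = (x * e * x⁻¹) * (e : G)⁻¹ := by
      subst hu'
      calc ⁅x, (e : G) * t⁆ = x * e * ((t : G) * x⁻¹) * (t : G)⁻¹ * (e : G)⁻¹ := by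
            rw [commutatorElement_def]; group
        _ = _ := by rw [hcomm]; group
    rw [key]
    exact mul_mem (Normal.conj_mem inferInstance _ he' x) (inv_mem he')

end Cfsg.Agent.S0075
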