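import Cfsg.Statements.S0076
import Cfsg.Agent.Lib.Transfer.Fusion

set_option autoImplicit false
open Cfsg Subgroup
open scoped Pointwise commutatorElement

namespace Cfsg.Agent.S0076

/-- Two P-invariant subsets of a Sylow p-subgroup P that are conjugate in G are conjugate under the normalizer of P. -/
theorem result {G : Type*} [Group G] [Finite G] {p : ℕ} [Fact p.Prime] (P : Sylow p G) (X Y : Set G) (hXP : X ⊆ P) (hYP : Y ⊆ P) (hX : ∀ x ∈ P, (fun y => x * y * x⁻¹) '' X = X) (hY : ∀ x ∈ P, (fun y => x * y * x⁻¹) '' Y = Y) (g : G) (hg : (fun y => g * y * g⁻¹) '' X = Y) : ∃ n ∈ Subgroup.normalizer (P : Set G), (fun y => n * y * n⁻¹) '' X = Y := by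
  have hn : ∀ Z : Set G, (∀ x ∈ P, (fun y => x * y * x⁻¹) '' Z = Z) →
      (P : Subgroup G) ≤ normalizer Z := fun Z h x hx => mem_normalizer_iff_conj_image_eq.mpr (h x hx)
  have key : ∀ (a : G) (y : G), g * y * g⁻¹ ∈ Y ↔ y ∈ X := fun _ y => by
    rw [← hg]
    constructor
    · rintro ⟨z, hz, he⟩
      rwa [mul_left_cancel (mul_right_cancel he)] at hz
    · exact fun hy => ⟨y, hy, rfl⟩
  obtain ⟨n, hn', he⟩ :=
    Lib.Transfer.burnside_fusion_sets P (hn X hX) (hn Y hY) g fun y => (key 1 y).symm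
  refine ⟨n, hn', Set.ext fun y => ⟨?_, fun hy => ?_⟩⟩
  · rintro ⟨z, hz, rfl⟩
    exact (he z).mp hz
  · exact ⟨n⁻¹ * y * n, (he _).mpr (by simpa [mul_assoc] using hy), by simp [mul_assoc]⟩

end Cfsg.Agent.S0076
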