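import Cfsg.Statements.S0078
import Cfsg.Agent.Lib.Transfer.Local

set_option autoImplicit false
open Cfsg Subgroup
open scoped Pointwise commutatorElement

namespace Cfsg.Agent.S0078

/-- In a p-normal group, a Sylow p-subgroup P meets O^p(G) exactly where it meets O^p(V), for any subgroup V containing the normalizer of the centre of P. -/
theorem result {G : Type*} [Group G] [Finite G] {p : ℕ} [Fact p.Prime] (P : Sylow p G) (hn : ∀ Q : Sylow p G, (P : Subgroup G) ⊓ Subgroup.centralizer (P : Set G) ≤ (Q : Subgroup G) → (Q : Subgroup G) ⊓ Subgroup.centralizer (Q : Set G) = (P : Subgroup G) ⊓ Subgroup.centralizer (P : Set G)) (V : Subgroup G) (hV : Subgroup.normalizer (((P : Subgroup G) ⊓ Subgroup.centralizer (P : Set G) : Subgroup G) : Set G) ≤ V) : (P : Subgroup G) ⊓ Cfsg.pResidual p G = (P : Subgroup G) ⊓ (Cfsg.pResidual p V).map V.subtype := by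
  let Z : Subgroup G := (P : Subgroup G) ⊓ centralizer (P : Set G)
  have hW : IsWeaklyClosed Z (P : Subgroup G) := by
    refine ⟨inf_le_left, fun g hg => ?_⟩
    have hR : Z ≤ ((g⁻¹ • P : Sylow p G) : Subgroup G) := fun z hz =>
      Lib.Transfer.mem_smul_sylow.mpr (by simpa [mul_assoc] using hg ⟨z, hz, rfl⟩)
    have he := hn _ hR
    have hk : ∀ z, z ∈ Z ↔ g * z * g⁻¹ ∈ Z := by
      intro z
      conv_lhs => unfold Z; rw [← he]
      constructor
      · rintro ⟨h1, h2⟩
        refine ⟨by have h1' := Lib.Transfer.mem_smul_sylow.mp h1; rw [inv_inv] at h1'; exact h1', ?_⟩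
        show g * z * g⁻¹ ∈ centralizer (P : Set G)
        rw [mem_centralizer_iff]
        intro x hx
        have := mem_centralizer_iff.mp h2 (g⁻¹ * x * g)
          (Lib.Transfer.mem_smul_sylow.mpr (by
            have e : (g⁻¹)⁻¹ * (g⁻¹ * x * g) * g⁻¹ = x := by group
            rw [e]; exact hx))
        calc x * (g * z * g⁻¹) = g * ((g⁻¹ * x * g) * z) * g⁻¹ := by group
          _ = g * (z * (g⁻¹ * x * g)) * g⁻¹ := by rw [this]
          _ = _ := by group
      · rintro ⟨h1, h2⟩
        refine ⟨Lib.Transfer.mem_smul_sylow.mpr (by rw [inv_inv]; exact h1), ?_⟩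
        show z ∈ centralizer ((g⁻¹ • P : Sylow p G) : Set G)
        rw [mem_centralizer_iff]
        intro x hx
        have := mem_centralizer_iff.mp h2 (g * x * g⁻¹)
          (by have hx' := Lib.Transfer.mem_smul_sylow.mp hx; rw [inv_inv] at hx'; exact hx')
        calc x * z = g⁻¹ * ((g * x * g⁻¹) * (g * z * g⁻¹)) * g := by group
          _ = g⁻¹ * ((g * z * g⁻¹) * (g * x * g⁻¹)) * g := by rw [this]
          _ = _ := by group
    exact mem_normalizer_iff_map_conj_eq.mp (mem_normalizer_iff.mpr hk)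
  refine Lib.Transfer.inf_pResidual_eq_of_controlsFusion P V ?_ ?_
  · refine le_trans ?_ hV
    exact (Subgroup.le_centralizer_iff.mp inf_le_right).trans (Subgroup.centralizer_le_normalizer _)
  · intro x hx g hg
    obtain ⟨v, hv, he⟩ :=
      Lib.Transfer.controlsFusion_normalizer_of_weaklyClosed P (Z := Z) inf_le_right hW x hx g hg
    exact ⟨v, hV hv, he⟩

end Cfsg.Agent.S0078
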