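import Cfsg.Statements.S0079
import Cfsg.Agent.Lib.Transfer.Hall

set_option autoImplicit false
open Cfsg Subgroup
open scoped Pointwise commutatorElement

namespace Cfsg.Agent.S0079

/-- A nilpotent Hall subgroup has a normal complement exactly when elements of it that are conjugate in the whole group are already conjugate inside it. -/
theorem result {G : Type*} [Group G] [Finite G] (H : Subgroup G) (hH : Group.IsNilpotent H) (hHall : Nat.Coprime (Nat.card H) H.index) : (∃ N : Subgroup G, N.Normal ∧ N.IsComplement' H) ↔ ∀ x ∈ H, ∀ y ∈ H, (∃ g : G, g * x * g⁻¹ = y) → ∃ h ∈ H, h * x * h⁻¹ = y := by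
  constructor
  · rintro ⟨N, hN, hc⟩ x hx y hy ⟨g, hg⟩
    have : g ∈ N ⊔ H := hc.sup_eq_top ▸ mem_top g
    obtain ⟨n, hn, k, hk, rfl⟩ := mem_sup_of_normal_left.mp this
    refine ⟨k, hk, ?_⟩
    have hz : k * x * k⁻¹ ∈ H := (Lib.Transfer.conj_mem_iff hk).mpr hx
    have h1 : y * (k * x * k⁻¹)⁻¹ ∈ N ⊓ H := by
      refine mem_inf.mpr ⟨?_, mul_mem hy (inv_mem hz)⟩
      have e : y * (k * x * k⁻¹)⁻¹ = n * ((k * x * k⁻¹) * n⁻¹ * (k * x * k⁻¹)⁻¹) := by
        rw [← hg]; group
      rw [e]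
      exact mul_mem hn (hN.conj_mem _ (inv_mem hn) _)
    rw [disjoint_iff.mp hc.disjoint, mem_bot, mul_inv_eq_one] at h1
    exact h1.symm
  · intro h
    exact Lib.Transfer.exists_complement_of_nilpotent_hall H hH hHall
      fun x hx g hg => h x hx _ hg ⟨g, rfl⟩

end Cfsg.Agent.S0079
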