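import Cfsg.Statements.S0082
import Cfsg.Agent.Lib.Transfer.Local
import Mathlib.RingTheory.Coprime.Lemmas
import Mathlib.RingTheory.PrincipalIdealDomain
import Mathlib.RingTheory.Int.Basic
import Mathlib.NumberTheory.Basic
import Mathlib.Data.Nat.Prime.Int

set_option autoImplicit false
open Cfsg Subgroup
open scoped Pointwise commutatorElement

namespace Cfsg.Agent.S0082

/-- With a cyclic Sylow p-subgroup, either there is a normal p-complement or the elements of order prime to p generate the whole group. -/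
theorem result {G : Type*} [Group G] [Finite G] {p : ℕ} [Fact p.Prime] (P : Sylow p G) (hP : IsCyclic P) : Cfsg.HasNormalPComplement p G ∨ Cfsg.pResidual p G = ⊤ := by
  by_contra hcon
  rw [not_or] at hcon
  obtain ⟨hnc, hne⟩ := hcon
  set M := pResidual p G with hM
  have hPM : ¬ (P : Subgroup G) ≤ M := fun h => hne <| by
    rw [eq_top_iff, ← Lib.Transfer.pResidual_sup_sylow P]
    exact sup_le le_rfl h
  apply hnc
  have hab : IsMulCommutative (P : Subgroup G) := IsCyclic.isMulCommutative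
  refine Lib.Transfer.hasNormalPComplement_of_normalizer_le_centralizer P
    (Lib.Transfer.normalizer_le_centralizer_of_coprime P hab fun g hg hgo => ?_)
  obtain ⟨⟨x, hx⟩, hgen⟩ := IsCyclic.exists_generator (α := (P : Subgroup G))
  have hgen' : ∀ y ∈ (P : Subgroup G), y ∈ zpowers x := fun y hy => by
    obtain ⟨i, hi⟩ := hgen ⟨y, hy⟩
    exact ⟨i, congrArg Subtype.val hi⟩
  have hxM : x ∉ M := fun h => hPM fun y hy => zpowers_le.mpr h (hgen' y hy)
  obtain ⟨n, hn⟩ := IsPGroup.iff_orderOf.mp P.2 ⟨x, hx⟩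
  rw [orderOf_mk] at hn
  have hgM : g ∈ M := Lib.Transfer.mem_pResidual hgo
  have hc : g * x * g⁻¹ * x⁻¹ ∈ M := by
    have e : g * x * g⁻¹ * x⁻¹ = g * (x * g⁻¹ * x⁻¹) := by group
    rw [e]; exact mul_mem hgM (Normal.conj_mem inferInstance _ (inv_mem hgM) x)
  have hcP : g * x * g⁻¹ * x⁻¹ ∈ (P : Subgroup G) :=
    mul_mem ((mem_normalizer_iff.mp hg x).mp hx) (inv_mem hx)
  obtain ⟨j, hj⟩ := (mem_zpowers_iff).mp (hgen' _ hcP)
  have hdvd : (p : ℤ) ∣ j := by
    by_contra hpj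
    apply hxM
    have hcop : IsCoprime j ((p ^ n : ℕ) : ℤ) := by
      rw [Nat.cast_pow]
      exact IsCoprime.pow_right (((Prime.coprime_iff_not_dvd (Nat.prime_iff_prime_int.1 (Fact.out : p.Prime))).mpr hpj).symm)
    obtain ⟨a, b, hab'⟩ := hcop
    have : x = (x ^ j) ^ a := by
      conv_lhs => rw [← zpow_one x, ← hab', zpow_add, zpow_mul x b, zpow_natCast, ← hn, ← zpow_natCast,
        ← zpow_mul]
      rw [← zpow_mul, mul_comm a j, mul_comm b, zpow_mul x _ b, zpow_natCast, pow_orderOf_eq_one, one_zpow, mul_one]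
    rw [this, hj]
    exact zpow_mem hc a
  obtain ⟨k, rfl⟩ := hdvd
  set a : ℤ := 1 + p * k
  have hconj : g * x * g⁻¹ = x ^ a := by
    rw [zpow_add, zpow_one, (Commute.self_zpow x _).eq, hj]; group
  have hpow : ∀ i : ℕ, g ^ i * x * (g ^ i)⁻¹ = x ^ (a ^ i) := by
    intro i
    induction i with
    | zero => simp
    | succ i ih =>
      calc g ^ (i + 1) * x * (g ^ (i + 1))⁻¹ = g * (g ^ i * x * (g ^ i)⁻¹) * g⁻¹ := by
            rw [pow_succ']; group
        _ = g * x ^ (a ^ i) * g⁻¹ := by rw [ih]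
        _ = (g * x * g⁻¹) ^ (a ^ i) := (conj_zpow).symm
        _ = _ := by rw [hconj, ← zpow_mul, pow_succ']
  have h1 : (p : ℤ) ^ (n + 1) ∣ a ^ p ^ n - 1 ^ p ^ n :=
    dvd_sub_pow_of_dvd_sub (by simp [a]) n
  have h2 : g ^ p ^ n * x * (g ^ p ^ n)⁻¹ = x := by
    rw [hpow]
    conv_rhs => rw [← zpow_one x]
    rw [zpow_eq_zpow_iff_modEq, hn, Nat.cast_pow]
    refine (Int.modEq_iff_dvd.mpr ?_).symm
    rw [one_pow] at h1
    exact (pow_dvd_pow _ n.le_succ).trans h1
  have h3 : g ∈ zpowers (g ^ p ^ n) := by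
    obtain ⟨m, hm⟩ := exists_pow_eq_self_of_coprime (x := g) (n := p ^ n)
      (Nat.Coprime.pow_left n hgo.symm)
    exact mem_zpowers_iff.mpr ⟨m, by rw [zpow_natCast, hm]⟩
  refine zpowers_le.mpr ?_ h3
  rw [mem_centralizer_iff]
  intro y hy
  obtain ⟨i, rfl⟩ := mem_zpowers_iff.mp (hgen' y hy)
  have hcomm : Commute (g ^ p ^ n) x := by
    calc g ^ p ^ n * x = g ^ p ^ n * x * (g ^ p ^ n)⁻¹ * g ^ p ^ n := by group
      _ = x * g ^ p ^ n := by rw [h2]
  exact (hcomm.zpow_right i).eq.symm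

end Cfsg.Agent.S0082
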