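import Cfsg.Statements.S0083
import Cfsg.Agent.Lib.Transfer.Fusion

set_option autoImplicit false
open Cfsg Subgroup
open scoped Pointwise commutatorElement

namespace Cfsg.Agent.S0083

/-- For an abelian Sylow p-subgroup P, a normal p-complement exists exactly when the normalizer of P is an internal direct product of P with some subgroup. -/
theorem result {G : Type*} [Group G] [Finite G] {p : ℕ} [Fact p.Prime] (P : Sylow p G) (hP : IsMulCommutative P) : Cfsg.HasNormalPComplement p G ↔ ∃ Q : Subgroup G, Q ≤ Subgroup.centralizer (P : Set G) ∧ Q ⊓ (P : Subgroup G) = ⊥ ∧ Q ⊔ (P : Subgroup G) = Subgroup.normalizer (P : Set G) := by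
  constructor
  · intro h
    let N := normalizer ((P : Subgroup G) : Set G)
    refine ⟨(pResidual p N).map N.subtype, ?_, ?_, ?_⟩
    · rintro _ ⟨e, he, rfl⟩
      have hA := Lib.Transfer.autPGroup_of_hasNormalPComplement P.2
        (Lib.Transfer.HasNormalPComplement.subgroup h N)
      have hle : pResidual p N ≤ (centralizer (P : Set G)).subgroupOf N :=
        (closure_le _).mpr fun g hg => hA g g.2 (by rwa [orderOf_coe])
      exact hle he
    · rw [eq_bot_iff]
      rintro _ ⟨⟨e, he, rfl⟩, hP'⟩
      have hP'' : (e : G) ∈ (P : Subgroup G) := hP'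
      have hz := (Lib.Transfer.hasNormalPComplement_iff_inf (P.subtype le_normalizer)).mp
        (Lib.Transfer.HasNormalPComplement.subgroup h N)
      have : e ∈ pResidual p N ⊓ (P.subtype le_normalizer : Subgroup N) :=
        ⟨he, mem_subgroupOf.mpr hP''⟩
      rw [hz, mem_bot] at this
      simp [this]
    · have h2 := congrArg (Subgroup.map N.subtype)
        (Lib.Transfer.pResidual_sup_sylow (p := p) (P.subtype (N := N) le_normalizer))
      rw [Subgroup.map_sup, Sylow.coe_subtype, map_subgroupOf_eq_of_le le_normalizer,
        ← MonoidHom.range_eq_map, range_subtype] at h2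
      exact h2
  · rintro ⟨Q, hQc, -, hQP⟩
    refine Lib.Transfer.hasNormalPComplement_of_normalizer_le_centralizer P ?_
    rw [← hQP]
    exact sup_le hQc (Subgroup.le_centralizer _)

end Cfsg.Agent.S0083
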