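import Cfsg.Statements.S0084
import Cfsg.Agent.Lib.Transfer.Local

set_option autoImplicit false
open Cfsg Subgroup
open scoped Pointwise commutatorElement

namespace Cfsg.Agent.S0084

/-- A group whose Sylow 2-subgroups are Klein four-groups and whose order is prime to 3 has a normal 2-complement. -/
theorem result {G : Type*} [Group G] [Finite G] (T : Sylow 2 G) (hT : IsKleinFour T) (h3 : ¬ 3 ∣ Nat.card G) : Cfsg.HasNormalPComplement 2 G := by
  have hab : IsMulCommutative (T : Subgroup G) :=
    IsPGroup.isMulCommutative_of_card_eq_prime_sq (p := 2) hT.card_four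
  refine Lib.Transfer.hasNormalPComplement_of_normalizer_le_centralizer T
    (Lib.Transfer.normalizer_le_centralizer_of_coprime T hab fun g hg hgo => ?_)
  by_contra hgc
  obtain ⟨q, hq, hq2, hqG, F, hF, hmod⟩ := Lib.Transfer.exists_prime_modEq (T : Subgroup G) hg hgo hgc
  have h4 : Nat.card (T : Subgroup G) = 2 ^ 2 := hT.card_four
  obtain ⟨j, hj, hFj⟩ := (Nat.dvd_prime_pow Nat.prime_two).mp (h4 ▸ card_subgroup_dvd_card F)
  have hj2 : j < 2 := lt_of_le_of_ne hj fun hh => hF (eq_top_of_card_eq F (by rw [hFj, hh, h4]))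
  rw [h4, hFj] at hmod
  have hd := (Nat.modEq_iff_dvd' (Nat.pow_le_pow_right two_pos hj2.le)).mp hmod.symm
  interval_cases j <;> norm_num at hd
  · exact h3 ((Nat.prime_dvd_prime_iff_eq hq Nat.prime_three).mp hd ▸ hqG)
  · exact hq2 ((Nat.prime_dvd_prime_iff_eq hq Nat.prime_two).mp hd)

end Cfsg.Agent.S0084
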