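import Cfsg.Statements.S0085
import Cfsg.Agent.Lib.Transfer.Local

set_option autoImplicit false
open Cfsg Subgroup
open scoped Pointwise commutatorElement

namespace Cfsg.Agent.S0085

/-- A group whose Sylow 2-subgroups are elementary abelian of order 8 and whose order is prime to 3 and to 7 has a normal 2-complement. -/
theorem result {G : Type*} [Group G] [Finite G] (T : Sylow 2 G) (h8 : Nat.card T = 8) (he : ∀ x : T, x * x = 1) (h3 : ¬ 3 ∣ Nat.card G) (h7 : ¬ 7 ∣ Nat.card G) : Cfsg.HasNormalPComplement 2 G := by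
  have hab : IsMulCommutative (T : Subgroup G) := ⟨⟨fun a b => by
    have key : ∀ x : T, x⁻¹ = x := fun x => inv_eq_of_mul_eq_one_right (he x)
    calc a * b = (a * b)⁻¹ := (key _).symm
      _ = b⁻¹ * a⁻¹ := mul_inv_rev a b
      _ = b * a := by rw [key, key]⟩⟩
  refine Lib.Transfer.hasNormalPComplement_of_normalizer_le_centralizer T
    (Lib.Transfer.normalizer_le_centralizer_of_coprime T hab fun g hg hgo => ?_)
  by_contra hgc
  obtain ⟨q, hq, hq2, hqG, F, hF, hmod⟩ := Lib.Transfer.exists_prime_modEq (T : Subgroup G) hg hgo hgc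
  have h4 : Nat.card (T : Subgroup G) = 2 ^ 3 := h8
  obtain ⟨j, hj, hFj⟩ := (Nat.dvd_prime_pow Nat.prime_two).mp (h4 ▸ card_subgroup_dvd_card F)
  have hj2 : j < 3 := lt_of_le_of_ne hj fun hh => hF (eq_top_of_card_eq F (by rw [hFj, hh, h4]))
  rw [h4, hFj] at hmod
  have hd := (Nat.modEq_iff_dvd' (Nat.pow_le_pow_right two_pos hj2.le)).mp hmod.symm
  interval_cases j <;> norm_num at hd
  · exact h7 ((Nat.prime_dvd_prime_iff_eq hq (by decide)).mp hd ▸ hqG)
  · rcases hq.dvd_mul.mp (show q ∣ 2 * 3 by norm_num; exact hd) with h | h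
    · exact hq2 ((Nat.prime_dvd_prime_iff_eq hq Nat.prime_two).mp h)
    · exact h3 ((Nat.prime_dvd_prime_iff_eq hq Nat.prime_three).mp h ▸ hqG)
  · rcases hq.dvd_mul.mp (show q ∣ 2 * 2 by norm_num; exact hd) with h | h <;>
      exact hq2 ((Nat.prime_dvd_prime_iff_eq hq Nat.prime_two).mp h)

end Cfsg.Agent.S0085
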