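import Cfsg.Statements.S0086
import Cfsg.Agent.Lib.Transfer.Basic

set_option autoImplicit false
open Cfsg Subgroup
open scoped Pointwise commutatorElement

namespace Cfsg.Agent.S0086

/-- A normal complement to a Sylow p-subgroup is exactly the set of elements of order prime to p. -/
theorem result {G : Type*} [Group G] [Finite G] {p : ℕ} [Fact p.Prime] (P : Sylow p G) (N : Subgroup G) [N.Normal] (hN : N.IsComplement' (P : Subgroup G)) (x : G) : x ∈ N ↔ Nat.Coprime (orderOf x) p := by
  have hnd : ¬ p ∣ Nat.card N := hN.index_eq_card ▸ P.not_dvd_index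
  constructor
  · intro hx
    refine Nat.Coprime.symm ((Fact.out : p.Prime).coprime_iff_not_dvd.mpr fun hd => hnd ?_)
    exact hd.trans (Subgroup.orderOf_dvd_natCard N hx)
  · intro hx
    obtain ⟨n, hn⟩ := IsPGroup.iff_card.mp P.2
    have hq : IsPGroup p (G ⧸ N) :=
      IsPGroup.of_card (n := n) (by rw [← index_eq_card, hN.symm.index_eq_card, hn])
    exact Lib.Transfer.pResidual_le hq (Lib.Transfer.mem_pResidual hx)

end Cfsg.Agent.S0086
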