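import Cfsg.Statements.S0089
import Cfsg.Agent.Lib.Transfer.Hall

set_option autoImplicit false
open Cfsg Subgroup
open scoped Pointwise commutatorElement

namespace Cfsg.Agent.S0089

/-- When all Sylow subgroups are abelian, the derived subgroup meets the centre trivially. -/
theorem result {G : Type*} [Group G] [Finite G] (h : ∀ p : ℕ, p.Prime → ∀ P : Sylow p G, IsMulCommutative P) : commutator G ⊓ Subgroup.center G = ⊥ := by
  rw [← card_eq_one]
  by_contra hne
  obtain ⟨p, hp, hpd⟩ := Nat.exists_prime_and_dvd hne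
  have : Fact p.Prime := ⟨hp⟩
  obtain ⟨⟨z, hz', hzc⟩, hzo⟩ := exists_prime_orderOf_dvd_card' p hpd
  replace hzo : orderOf z = p := by
    rw [← hzo]
    exact (Subgroup.orderOf_coe (⟨z, hz', hzc⟩ : (commutator G ⊓ center G : Subgroup G)))
  obtain ⟨P, hP⟩ := (IsPGroup.of_card (n := 1) (by rw [Nat.card_zpowers, hzo, pow_one]) :
    IsPGroup p (zpowers z)).exists_le_sylow
  have := Lib.Transfer.eq_one_of_central_of_abelian (P : Subgroup G) (h p hp P) P.card_coprime_index
    (hP (mem_zpowers z)) hzc hz'
  rw [this, orderOf_one] at hzo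
  exact hp.ne_one hzo.symm

end Cfsg.Agent.S0089
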