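import Cfsg.Statements.S0090
import Cfsg.Agent.Lib.Transfer.Hall
import Cfsg.Agent.Lib.Coprime.Action

set_option autoImplicit false
open Cfsg Subgroup
open scoped Pointwise commutatorElement

namespace Cfsg.Agent.S0090

/-- An abelian normal Hall subgroup A splits as the internal direct product of G' ∩ A and Z(G) ∩ A, and [A, G] = G' ∩ A. -/
theorem result {G : Type*} [Group G] [Finite G] (A : Subgroup G) [A.Normal] (hc : IsMulCommutative A) (hHall : Nat.Coprime (Nat.card A) A.index) : ⁅A, (⊤ : Subgroup G)⁆ = commutator G ⊓ A ∧ (commutator G ⊓ A) ⊓ (Subgroup.center G ⊓ A) = ⊥ ∧ (commutator G ⊓ A) ⊔ (Subgroup.center G ⊓ A) = A := by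
  have hcopF : Nat.Coprime A.index (⁅A, A⁆.relIndex A) :=
    hHall.symm.coprime_dvd_right (Lib.Transfer.relIndex_commutator_dvd_card _)
  obtain ⟨h1, -, -⟩ := Lib.Transfer.focal_theorem A hcopF
  have hle : ⁅A, (⊤ : Subgroup G)⁆ ≤ commutator G ⊓ A :=
    le_inf (commutator_mono le_top le_rfl) (commutator_le_left _ _)
  have hge : commutator G ⊓ A ≤ ⁅A, (⊤ : Subgroup G)⁆ := by
    rw [← h1, focalSubgroup_def, closure_le]
    rintro g ⟨-, x, hx, u, rfl⟩
    exact commutator_mem_commutator hx (mem_top u)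
  refine ⟨le_antisymm hle hge, ?_, le_antisymm (sup_le inf_le_right inf_le_right) ?_⟩
  · rw [eq_bot_iff]
    rintro z ⟨⟨hz', hz⟩, hzc, -⟩
    exact Lib.Transfer.eq_one_of_central_of_abelian A hc hHall hz hzc hz'
  · obtain ⟨K, hK⟩ := exists_right_complement'_of_coprime hHall
    have hKA : K ≤ normalizer (A : Set G) := by rw [normalizer_eq_top]; exact le_top
    have hcop : (Nat.card K).Coprime (Nat.card A) := hK.symm.index_eq_card ▸ hHall.symm
    conv_lhs => rw [← Lib.Coprime.commutator_sup_centralizer hKA hcop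
      (Or.inr (Group.isSolvable_of_comm hc.is_comm.comm))]
    refine sup_le_sup ((commutator_mono le_rfl le_top).trans hle) ?_
    rintro a ⟨ha, hac⟩
    refine ⟨mem_center_iff.mpr fun g => ?_, ha⟩
    have hg : g ∈ A ⊔ K := hK.sup_eq_top ▸ mem_top g
    obtain ⟨b, hb, k, hk, rfl⟩ := mem_sup_of_normal_left.mp hg
    have h1 : k * a = a * k := mem_centralizer_iff.mp hac k hk
    have h2 : b * a = a * b := mem_centralizer_iff.mp (A.le_centralizer ha) b hb
    rw [mul_assoc, h1, ← mul_assoc, h2, mul_assoc]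

end Cfsg.Agent.S0090
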