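import Cfsg.Statements.S0091
import Cfsg.Agent.Lib.Transfer.Basic

set_option autoImplicit false
open Cfsg Subgroup
open scoped Pointwise commutatorElement

namespace Cfsg.Agent.S0091

/-- If a nontrivial Sylow p-subgroup controls its own fusion then it is not contained in the derived subgroup. -/
theorem result {G : Type*} [Group G] [Finite G] {p : ℕ} [Fact p.Prime] (P : Sylow p G) (hp : p ∣ Nat.card G) (h : ∀ x ∈ P, ∀ y ∈ P, (∃ g : G, g * x * g⁻¹ = y) → ∃ z ∈ P, z * x * z⁻¹ = y) : ¬ (P : Subgroup G) ≤ commutator G := by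
  intro hle
  have hf := commutator_inf_eq_focalSubgroup P
  rw [inf_eq_right.mpr hle] at hf
  have h2 := Lib.Transfer.focalSubgroup_le_of_controlsFusion (V := (P : Subgroup G)) le_rfl
    (fun x hx g hg => h x hx _ hg ⟨g, rfl⟩)
  rw [← hf] at h2
  have : Group.IsNilpotent (P : Subgroup G) := P.2.isNilpotent
  have : (⊤ : Subgroup (P : Subgroup G)) = ⊥ := by
    refine Lib.Transfer.eq_bot_of_le_commutator_top ?_
    rw [← map_subtype_le_map_subtype, map_commutator, ← MonoidHom.range_eq_map, range_subtype]
    exact h2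
  have hb := P.ne_bot_of_dvd_card hp
  apply hb
  rw [← range_subtype (P : Subgroup G), MonoidHom.range_eq_map, this, Subgroup.map_bot]

end Cfsg.Agent.S0091
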