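import Cfsg.Statements.S0092
import Cfsg.Agent.Lib.Transfer.Hall
import Cfsg.Agent.Lib.Coprime.Conjugacy
import Cfsg.Agent.S0075

set_option autoImplicit false
open Cfsg Subgroup
open scoped Pointwise commutatorElement

namespace Cfsg.Agent.S0092

/-- If the Sylow p-subgroups of O^p(G) are abelian then G splits over O^p(G). -/
theorem result {G : Type*} [Group G] [Finite G] {p : ℕ} [Fact p.Prime] (h : ∀ Q : Sylow p (Cfsg.pResidual p G), IsMulCommutative Q) : ∃ K : Subgroup G, K.IsComplement' (Cfsg.pResidual p G) := by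
  set M := pResidual p G with hMdef
  obtain ⟨P⟩ := (inferInstance : Nonempty (Sylow p G))
  obtain ⟨S, hS⟩ := Lib.Transfer.exists_sylow_inf P M
  set T := (S : Subgroup M).map M.subtype with hTdef
  have hTeq : T = (P : Subgroup G) ⊓ M := by
    rw [hTdef, hS, subgroupOf_map_subtype]
  have hTM : T ≤ M := map_subtype_le _
  have hTc : IsMulCommutative T := by
    have := h S
    exact ⟨⟨fun a b => by
      obtain ⟨a', ha, ea⟩ := a.2
      obtain ⟨b', hb, eb⟩ := b.2
      apply Subtype.ext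
      show (a : G) * b = b * a
      rw [← ea, ← eb]
      exact congrArg (fun z : (S : Subgroup M) => ((z : M) : G)) (this.is_comm.comm ⟨a', ha⟩ ⟨b', hb⟩)⟩⟩
  set N := normalizer (T : Set G) with hNdef
  have hMN : M ⊔ N = ⊤ := by rw [sup_comm]; exact Sylow.normalizer_sup_eq_top S
  have hPN : (P : Subgroup G) ≤ N := fun x hx => by
    have := mem_normalizer_iff.mp (le_normalizer hx : x ∈ normalizer ((P : Subgroup G) : Set G))
    rw [mem_normalizer_iff]
    intro y
    rw [hTeq, mem_inf, mem_inf, ← this]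
    refine and_congr_right fun _ => ⟨fun hy => ?_, fun hy => ?_⟩
    · exact (inferInstance : M.Normal).conj_mem y hy x
    · simpa [mul_assoc] using (inferInstance : M.Normal).conj_mem _ hy x⁻¹
  -- work inside `L = M ⊓ N`
  set L := M ⊓ N with hLdef
  have hTL : T ≤ L := le_inf hTM le_normalizer
  set T' := T.subgroupOf L with hT'
  have hT'n : T'.Normal := (normal_subgroupOf_iff_le_normalizer hTL).mpr inf_le_right
  have hcardT : Nat.card T' = Nat.card T := Nat.card_congr (subgroupOfEquivOfLe hTL).toEquiv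
  have hT'c : IsMulCommutative T' := by
    refine ⟨⟨fun a b => Subtype.ext (Subtype.ext ?_)⟩⟩
    show (a : L).1 * (b : L).1 = (b : L).1 * (a : L).1
    exact congrArg Subtype.val (hTc.is_comm.comm (⟨a.1.1, a.2⟩ : T) ⟨b.1.1, b.2⟩)
  have hHall : Nat.Coprime (Nat.card T') T'.index := by
    obtain ⟨j, hj⟩ := IsPGroup.iff_card.mp (S.2.map M.subtype)
    rw [hcardT, hj]
    refine Nat.Coprime.pow_left j (((Fact.out : p.Prime).coprime_iff_not_dvd).mpr fun hd => ?_)
    apply Lib.Transfer.not_dvd_relIndex_inf P M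
    rw [← hTeq]
    exact hd.trans (relIndex_mul_relIndex T L M hTL inf_le_left ▸ Dvd.intro _ rfl)
  obtain ⟨K, hK⟩ := exists_right_complement'_of_coprime hHall
  have hKcard : Nat.card K = T'.index := hK.symm.index_eq_card.symm
  have hTsub : T ≤ ⁅L, L⁆ := by
    have hres := Lib.Transfer.pResidual_pResidual (G := G) (p := p)
    have h75 := Cfsg.Agent.S0075.result S (h S)
    rw [hres, inf_top_eq] at h75
    rw [hTdef, h75, map_commutator]
    refine commutator_mono ?_ ?_
    · exact hTdef ▸ hTL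
    · rintro _ ⟨x, hx, rfl⟩
      refine mem_inf.mpr ⟨x.2, ?_⟩
      show (x : G) ∈ normalizer (T : Set G)
      rw [mem_normalizer_iff]
      intro y
      by_cases hy : y ∈ M
      · have := mem_normalizer_iff.mp (show x ∈ normalizer ((S : Subgroup M) : Set M) from hx) ⟨y, hy⟩
        rw [hTdef]
        exact ⟨fun ⟨z, hz, e⟩ => ⟨x * ⟨y, hy⟩ * x⁻¹, this.mp ((Subtype.ext e : z = ⟨y, hy⟩) ▸ hz), rfl⟩,
          fun ⟨z, hz, e⟩ => ⟨⟨y, hy⟩, this.mpr ((Subtype.ext e : z = x * ⟨y, hy⟩ * x⁻¹) ▸ hz), rfl⟩⟩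
      · exact iff_of_false (fun e => hy (hTM e))
          fun e => hy ((Lib.Transfer.conj_mem_iff x.2).mp (hTM e))
  have hfix : ∀ t : L, t ∈ T' → (∀ k ∈ K, k * t = t * k) → t = 1 := by
    intro t ht htk
    refine Lib.Transfer.eq_one_of_central_of_abelian T' hT'c hHall ht (mem_center_iff.mpr fun g => ?_) ?_
    · obtain ⟨b, hb, k, hk, rfl⟩ := mem_sup_of_normal_left.mp (hK.sup_eq_top ▸ mem_top g : g ∈ T' ⊔ K)
      rw [mul_assoc, htk k hk, ← mul_assoc, mem_centralizer_iff.mp (T'.le_centralizer ht) b hb, mul_assoc]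
    · refine (mem_map_iff_mem (f := L.subtype) L.subtype_injective).mp ?_
      rw [map_subtype_commutator]
      exact hTsub (mem_subgroupOf.mp ht)
  -- the normalizer of `K` in `N`
  let K₁ : Subgroup G := K.map L.subtype
  let Y : Subgroup G := N ⊓ normalizer (K₁ : Set G)
  have hFr : N ≤ T ⊔ Y := by
    intro x hx
    have hxL : ∀ l, l ∈ L → x * l * x⁻¹ ∈ L := fun l hl => mem_inf.mpr
      ⟨(inferInstance : M.Normal).conj_mem l hl.1 x, mul_mem (mul_mem hx hl.2) (inv_mem hx)⟩
    let φ : L →* L := ((MulAut.conj x).toMonoidHom.comp L.subtype).codRestrict L fun l => hxL l l.2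
    have hφ : Function.Injective φ := fun a b e =>
      Subtype.ext ((MulAut.conj x).injective (congrArg Subtype.val e))
    obtain ⟨t, ht, hte⟩ := Lib.Coprime.exists_mem_conj_eq T' hHall
      (Or.inl (Group.isSolvable_of_comm hT'c.is_comm.comm)) hKcard
      ((card_map_of_injective (K := K) hφ).trans hKcard)
    refine (mul_inv_cancel_left (t : G) x) ▸ mul_mem_sup (mem_subgroupOf.mp ht)
      (mem_inf.mpr ⟨mul_mem (inv_mem (mem_inf.mp t.2).2) hx, ?_⟩)
    rw [mem_normalizer_iff_map_conj_eq]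
    show K₁.map (MulAut.conj ((t : G)⁻¹ * x)).toMonoidHom = K₁
    have : K₁.map (MulAut.conj ((t : G)⁻¹ * x)).toMonoidHom =
        (MulAut.conj t⁻¹ • K.map φ).map L.subtype := by
      show _ = ((K.map φ).map (MulAut.conj t⁻¹).toMonoidHom).map L.subtype
      rw [map_map, map_map, map_map]
      congr 1
      ext l
      simp [φ, mul_assoc]
    rw [this, ← hte, map_inv, inv_smul_smul]
  have hYM : Y ⊓ M ≤ K₁ := by
    intro x hx
    obtain ⟨hxY, hxM⟩ := mem_inf.mp hx
    obtain ⟨hxN, hxK⟩ := mem_inf.mp hxY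
    obtain ⟨b, hb, k, hk, hbk⟩ :=
      mem_sup_of_normal_left.mp (hK.sup_eq_top ▸ mem_top (⟨x, hxM, hxN⟩ : L) : _ ∈ T' ⊔ K)
    have hbN : (b : G) ∈ normalizer (K₁ : Set G) := by
      have hkn : (k : G) ∈ normalizer (K₁ : Set G) := le_normalizer (mem_map_of_mem L.subtype hk)
      have := mul_mem hxK (inv_mem hkn)
      rwa [show x = ((b * k : L) : G) by rw [hbk], Subgroup.coe_mul, mul_inv_cancel_right] at this
    have hb1 : b = 1 := by
      refine hfix b hb fun k' hk' => ?_
      obtain ⟨k'', hk'', e⟩ := (mem_normalizer_iff.mp hbN (k' : G)).mp (mem_map_of_mem L.subtype hk')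
      have hmem : b * k' * b⁻¹ * k'⁻¹ ∈ T' ⊓ K := by
        refine mem_inf.mpr ⟨?_, mul_mem ?_ (inv_mem hk')⟩
        · have e' : b * k' * b⁻¹ * k'⁻¹ = b * (k' * b⁻¹ * k'⁻¹) := by group
          rw [e']; exact mul_mem hb (hT'n.conj_mem _ (inv_mem hb) k')
        · rwa [show b * k' * b⁻¹ = k'' from Subtype.ext e.symm]
      rw [disjoint_iff.mp hK.disjoint, mem_bot] at hmem
      calc k' * b = (b * k' * b⁻¹ * k'⁻¹) * k' * b := by rw [hmem, one_mul]
        _ = b * k' := by group
    exact ⟨k, hk, by rw [← one_mul k, ← hb1, hbk]; rfl⟩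
  obtain ⟨R⟩ := (inferInstance : Nonempty (Sylow p Y))
  refine ⟨(R : Subgroup Y).map Y.subtype, IsComplement'.symm (Lib.Transfer.isComplement'_of_inf_sup ?_ ?_)⟩
  · have hK₁ : ¬ p ∣ Nat.card K₁ := by
      rw [card_map_of_injective L.subtype_injective, hKcard]
      intro hd
      have : Nat.card T ∣ 1 := by
        obtain ⟨j, hj⟩ := IsPGroup.iff_card.mp (S.2.map M.subtype)
        rw [hj]
        rcases j with _ | j
        · simp
        · exact absurd (Nat.Coprime.eq_one_of_dvd (hHall.coprime_dvd_left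
            (hcardT ▸ hj ▸ dvd_pow_self p j.succ_ne_zero)) hd) (Fact.out : p.Prime).ne_one
      apply Lib.Transfer.not_dvd_relIndex_inf P M
      rw [← hTeq]
      exact hd.trans (relIndex_mul_relIndex T L M hTL inf_le_left ▸ Dvd.intro _ rfl)
    rw [eq_bot_iff, ← Lib.Transfer.inf_eq_bot_of_not_dvd hK₁ (R.2.map Y.subtype)]
    exact le_inf (le_trans (le_inf (inf_le_right.trans (map_subtype_le _)) inf_le_left) hYM) inf_le_right
  · rw [eq_top_iff, ← hMN]
    refine sup_le le_sup_left (hFr.trans (sup_le (hTM.trans le_sup_left) ?_))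
    calc Y = (⊤ : Subgroup Y).map Y.subtype := by rw [← MonoidHom.range_eq_map, range_subtype]
      _ = (pResidual p Y ⊔ R).map Y.subtype := by rw [Lib.Transfer.pResidual_sup_sylow]
      _ ≤ M ⊔ (R : Subgroup Y).map Y.subtype := by
        rw [Subgroup.map_sup]
        exact sup_le_sup (Lib.Transfer.map_pResidual_subtype_le Y) le_rfl

end Cfsg.Agent.S0092
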