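import Cfsg.Statements.S0094
import Cfsg.Agent.Lib.Thompson.PGroup
import Cfsg.Agent.Lib.PGroupFrattini

set_option autoImplicit false
open Cfsg Subgroup
open scoped Pointwise commutatorElement

namespace Cfsg.Agent.S0094

/-- In a special p-group every central element has order dividing p. -/
theorem result {P : Type*} [Group P] [Finite P] {p : ℕ} [Fact p.Prime] (h : Cfsg.IsSpecial p P) (z : P) (hz : z ∈ Subgroup.center P) : z ^ p = 1 := by
  obtain ⟨hP, hΦ, hD⟩ := h
  have h2 : ∀ a b w : P, Commute ⁅a, b⁆ w := fun a b w => (mem_center_iff.mp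
    (hD.le (commutator_mem_commutator (mem_top a) (mem_top b))) w).symm
  have key : commutator P ≤ closure {z : P | z ^ p = 1 ∧ z ∈ center P} := by
    rw [_root_.commutator_def, commutator_le]
    intro a _ b _
    refine subset_closure ⟨?_, hD.le (commutator_mem_commutator (mem_top a) (mem_top b))⟩
    rw [← Lib.Thompson.commutator_pow_left (h2 a b a), commutatorElement_eq_one_iff_commute]
    exact (mem_center_iff.mp (hΦ.le (Lib.PGroupFrattini.pow_mem_frattini hP a)) b).symm
  rw [← hD] at hz
  suffices ∀ w ∈ closure {z : P | z ^ p = 1 ∧ z ∈ center P}, w ^ p = 1 ∧ w ∈ center P from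
    (this z (key hz)).1
  intro w hw
  induction hw using closure_induction with
  | mem x hx => exact hx
  | one => exact ⟨one_pow p, one_mem _⟩
  | mul a b _ _ ha hb =>
    exact ⟨by rw [(Commute.symm (mem_center_iff.mp ha.2 b)).mul_pow, ha.1, hb.1, one_mul],
      mul_mem ha.2 hb.2⟩
  | inv a _ ha => exact ⟨by rw [inv_pow, ha.1, inv_one], inv_mem ha.2⟩

end Cfsg.Agent.S0094
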