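import Cfsg.Statements.S0097
import Cfsg.Agent.Lib.Thompson.PGroup
import Cfsg.Agent.Lib.PGroupFrattini

set_option autoImplicit false
open Cfsg Subgroup
open scoped Pointwise commutatorElement

namespace Cfsg.Agent.S0097

/-- For odd p and E extraspecial, the subgroup generated by the elements of order dividing p has exponent dividing p and index at most p. -/
theorem result {E : Type*} [Group E] [Finite E] {p : ℕ} [Fact p.Prime] (hp : p ≠ 2) (h : Cfsg.IsExtraspecial p E) : (Subgroup.closure {x : E | x ^ p = 1}).index ≤ p ∧ ∀ g ∈ Subgroup.closure {x : E | x ^ p = 1}, g ^ p = 1 := by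
  obtain ⟨⟨hP, hΦ, hD⟩, hZ⟩ := h
  have h2 : ⁅commutator E, (⊤ : Subgroup E)⁆ = ⊥ := by
    rw [commutator_eq_bot_iff_le_centralizer, coe_top, hD, centralizer_univ]
  have hc := Lib.Thompson.commute_commutator_of_class_two h2
  refine ⟨?_, fun g hg => Lib.Thompson.pow_eq_one_of_mem_closure hp h2 hg⟩
  have hmul : ∀ x y : E, (x * y) ^ p = x ^ p * y ^ p := fun x y => by
    rw [Lib.Thompson.mul_pow_class_two (Lib.Thompson.mul_comm_eq x y) (hc _ _ x) (hc _ _ y)]
    have hz : ⁅y⁻¹, x⁻¹⁆ ^ p = 1 := by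
      rw [← Lib.Thompson.commutator_pow_left (hc _ _ _), commutatorElement_eq_one_iff_commute]
      exact (mem_center_iff.mp (hΦ.le (Lib.PGroupFrattini.pow_mem_frattini hP _)) _).symm
    rw [Lib.Thompson.pow_choose_two_eq_one hp hz, mul_one]
  let f : E →* E := MonoidHom.mk' (fun x => x ^ p) hmul
  have hk : closure {x : E | x ^ p = 1} = f.ker := by
    refine le_antisymm ((closure_le f.ker).mpr ?_) ?_
    · intro x (hx : x ^ p = 1)
      exact MonoidHom.mem_ker.mpr hx
    · intro x hx
      exact subset_closure (MonoidHom.mem_ker.mp hx : x ^ p = 1)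
  rw [hk, index_ker, ← hZ]
  exact card_le_of_le (by
    rintro _ ⟨x, rfl⟩
    exact hΦ.le (Lib.PGroupFrattini.pow_mem_frattini hP x))

end Cfsg.Agent.S0097
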