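import Cfsg.Statements.S0098
import Cfsg.Agent.Lib.Thompson.ExtraspecialBasis

set_option autoImplicit false
open Cfsg Subgroup
open scoped Pointwise commutatorElement

namespace Cfsg.Agent.S0098

open Lib.Thompson.Extra in
theorem full {E : Type*} [Group E] [Finite E] {p : ℕ} [Fact p.Prime] (h : Cfsg.IsExtraspecial p E)
    (he : Monoid.exponent E = p) : ∃ (z : E) (k : ℕ) (a b : Fin k → E), Data p z ∧ Pairs z a b ∧
      cen a b ≤ zpowers z ∧ Nat.card E = p ^ (2 * k + 1) := by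
  obtain ⟨z, d⟩ := exists_data h
  have hexp : ∀ x : E, x ^ p = 1 := fun x => he ▸ Monoid.pow_exponent_eq_one x
  obtain ⟨k, a, b, hP, -, hmax⟩ := exists_max_pairs d
  have hC : cen a b ≤ zpowers z := by
    intro w hw
    by_contra hwz
    obtain ⟨v, hv, hwv⟩ := exists_partner d hP hw hwz
    exact hmax w hw v hv hwv ⟨hexp w, hexp v⟩
  exact ⟨z, k, a, b, d, hP, hC, card_cons_le d hP hC⟩


/-- For odd p, extraspecial p-groups of exponent p are determined up to isomorphism by their order. -/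
theorem result {E₁ : Type*} {E₂ : Type*} [Group E₁] [Group E₂] [Finite E₁] [Finite E₂] {p : ℕ} [Fact p.Prime] (hp : p ≠ 2) (h₁ : Cfsg.IsExtraspecial p E₁) (h₂ : Cfsg.IsExtraspecial p E₂) (he₁ : Monoid.exponent E₁ = p) (he₂ : Monoid.exponent E₂ = p) (hc : Nat.card E₁ = Nat.card E₂) : Nonempty (E₁ ≃* E₂) := by
  obtain ⟨z, k, a, b, d, hP, hC, hn⟩ := full h₁ he₁
  obtain ⟨z', k', a', b', d', hP', hC', hn'⟩ := full h₂ he₂
  have hk : k = k' := by
    have h := Nat.pow_right_injective (Fact.out : p.Prime).two_le (hn.symm.trans (hc.trans hn'))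
    omega
  subst hk
  refine Lib.Thompson.Extra.iso_of_pairs d d' hP hP' hC hC' (fun _ => 0) (fun i => ?_) (fun i => ?_)
  · simp only [zpow_zero]
    exact ⟨he₁ ▸ Monoid.pow_exponent_eq_one _, he₁ ▸ Monoid.pow_exponent_eq_one _⟩
  · simp only [zpow_zero]
    exact ⟨he₂ ▸ Monoid.pow_exponent_eq_one _, he₂ ▸ Monoid.pow_exponent_eq_one _⟩

end Cfsg.Agent.S0098
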