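import Cfsg.Statements.S0099
import Cfsg.Agent.Lib.Thompson.ExtraspecialBasis

set_option autoImplicit false
open Cfsg Subgroup
open scoped Pointwise commutatorElement

namespace Cfsg.Agent.S0099

open Lib.Thompson.Extra in
/-- Standard generators of the first or second kind. -/
def Kind (E : Type*) [Group E] : Bool → Prop
  | true => ∃ (z : E) (k : ℕ) (a b : Fin k → E), Data 2 z ∧ Pairs z a b ∧ cen a b ≤ zpowers z ∧
      ∀ i, a i ^ 2 = 1 ∧ b i ^ 2 = 1
  | false => ∃ (z : E) (k : ℕ) (a b : Fin (k + 1) → E), Data 2 z ∧ Pairs z a b ∧ cen a b ≤ zpowers z ∧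
      ∀ i, a i ^ 2 = z ^ (Fin.cons 1 (fun _ => 0) : Fin (k + 1) → ℤ) i ∧
        b i ^ 2 = z ^ (Fin.cons 1 (fun _ => 0) : Fin (k + 1) → ℤ) i

open Lib.Thompson.Extra in
theorem exists_kind {E : Type*} [Group E] [Finite E] (h : Cfsg.IsExtraspecial 2 E) :
    ∃ t, Kind E t := by
  haveI : Fact (Nat.Prime 2) := ⟨Nat.prime_two⟩
  obtain ⟨z, d⟩ := exists_data h
  rcases two_types d with ⟨k, a, b, h1, h2, h3⟩ | ⟨k, a, b, h1, h2, h3⟩
  · exact ⟨true, z, k, a, b, d, h1, h2, h3⟩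
  · exact ⟨false, z, k, a, b, d, h1, h2, h3⟩

open Lib.Thompson.Extra in
theorem iso_of_kind {E F : Type*} [Group E] [Group F] [Finite E] [Finite F] {t : Bool}
    (hE : Kind E t) (hF : Kind F t) (hc : Nat.card E = Nat.card F) : Nonempty (E ≃* F) := by
  haveI : Fact (Nat.Prime 2) := ⟨Nat.prime_two⟩
  cases t
  · obtain ⟨z, k, a, b, d, hP, hC, he⟩ := hE
    obtain ⟨z', k', a', b', d', hP', hC', he'⟩ := hF
    have hk : k = k' := by
      have h := Nat.pow_right_injective le_rfl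
        ((card_cons_le d hP hC).symm.trans (hc.trans (card_cons_le d' hP' hC')))
      omega
    subst hk
    exact iso_of_pairs d d' hP hP' hC hC' _ he he'
  · obtain ⟨z, k, a, b, d, hP, hC, he⟩ := hE
    obtain ⟨z', k', a', b', d', hP', hC', he'⟩ := hF
    have hk : k = k' := by
      have h := Nat.pow_right_injective le_rfl
        ((card_cons_le d hP hC).symm.trans (hc.trans (card_cons_le d' hP' hC')))
      omega
    subst hk
    exact iso_of_pairs d d' hP hP' hC hC' (fun _ => 0) (fun i => by simpa using he i)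
      (fun i => by simpa using he' i)


/-- Among three extraspecial 2-groups of equal order, some two are isomorphic. -/
theorem result {E₁ : Type*} {E₂ : Type*} {E₃ : Type*} [Group E₁] [Group E₂] [Group E₃] [Finite E₁] [Finite E₂] [Finite E₃] (h₁ : Cfsg.IsExtraspecial 2 E₁) (h₂ : Cfsg.IsExtraspecial 2 E₂) (h₃ : Cfsg.IsExtraspecial 2 E₃) (h12 : Nat.card E₁ = Nat.card E₂) (h23 : Nat.card E₂ = Nat.card E₃) : Nonempty (E₁ ≃* E₂) ∨ Nonempty (E₂ ≃* E₃) ∨ Nonempty (E₁ ≃* E₃) := by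
  obtain ⟨t₁, k₁⟩ := exists_kind h₁
  obtain ⟨t₂, k₂⟩ := exists_kind h₂
  obtain ⟨t₃, k₃⟩ := exists_kind h₃
  rcases (show t₁ = t₂ ∨ t₂ = t₃ ∨ t₁ = t₃ by cases t₁ <;> cases t₂ <;> cases t₃ <;> simp) with rfl | rfl | rfl
  · exact Or.inl (iso_of_kind k₁ k₂ h12)
  · exact Or.inr (Or.inl (iso_of_kind k₂ k₃ h23))
  · exact Or.inr (Or.inr (iso_of_kind k₁ k₃ (h12.trans h23)))

end Cfsg.Agent.S0099
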