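import Cfsg.Statements.S0101
import Cfsg.Agent.Lib.Transfer.Hall

set_option autoImplicit false
open Cfsg Subgroup
open scoped Pointwise commutatorElement

namespace Cfsg.Agent.S0101

/-- In a perfect central extension, the kernel meets each Sylow p-subgroup P inside the Frattini subgroup of P. -/
theorem result {H : Type*} {G : Type*} [Group H] [Group G] [Finite H] (σ : H →* G) (hσ : Function.Surjective σ) (hc : σ.ker ≤ Subgroup.center H) (hH : commutator H = ⊤) {p : ℕ} [Fact p.Prime] (P : Sylow p H) : σ.ker ⊓ (P : Subgroup H) ≤ (frattini P).map (P : Subgroup H).subtype := by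
  rintro z ⟨hzk, hzP⟩
  refine ⟨⟨z, hzP⟩, ?_, rfl⟩
  have hzc : z ∈ center H := hc hzk
  have := Lib.Transfer.frattini_quotient_commutative P.2
  open scoped IsMulCommutative in
  have h1 := Lib.Transfer.pow_eq_one_of_central (P : Subgroup H)
    (QuotientGroup.mk' (frattini (P : Subgroup H))) hzP hzc (hH ▸ mem_top z)
  have hcop : (orderOf (QuotientGroup.mk' (frattini (P : Subgroup H)) ⟨z, hzP⟩)).Coprime
      (P : Subgroup H).index := by
    obtain ⟨k, hk⟩ := IsPGroup.iff_orderOf.mp (P.2.to_quotient (frattini (P : Subgroup H)))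
      (QuotientGroup.mk' (frattini (P : Subgroup H)) ⟨z, hzP⟩)
    rw [hk]
    exact ((Fact.out : p.Prime).coprime_iff_not_dvd.mpr P.not_dvd_index).pow_left k
  exact (QuotientGroup.eq_one_iff _).mp (Lib.Transfer.eq_one_of_pow_eq_one_of_coprime hcop h1)

end Cfsg.Agent.S0101
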