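import Cfsg.Statements.S0102
import Cfsg.Agent.Lib.Transfer.Hall

set_option autoImplicit false
open Cfsg Subgroup
open scoped Pointwise commutatorElement

namespace Cfsg.Agent.S0102

/-- A finite perfect group with cyclic Sylow p-subgroups has no perfect central extension whose kernel has order divisible by p. -/
theorem result {G : Type*} {H : Type*} [Group G] [Group H] [Finite G] [Finite H] (hG : commutator G = ⊤) {p : ℕ} [Fact p.Prime] (hcyc : ∀ P : Sylow p G, IsCyclic P) (σ : H →* G) (hσ : Function.Surjective σ) (hz : σ.ker ≤ Subgroup.center H) (hH : commutator H = ⊤) : ¬ p ∣ Nat.card σ.ker := by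
  intro hd
  obtain ⟨P⟩ := (inferInstance : Nonempty (Sylow p H))
  have hcyc' := hcyc (P.mapSurjective hσ)
  have hab : IsMulCommutative (P : Subgroup H) := by
    rw [Sylow.coe_mapSurjective] at hcyc'
    refine ⟨⟨fun a b => commutative_of_cyclic_center_quotient (σ.subgroupMap (P : Subgroup H))
      (fun x hx => ?_) a b⟩⟩
    have hx' : σ x = 1 := congrArg Subtype.val hx
    refine mem_center_iff.mpr fun y => Subtype.ext ?_
    exact mem_center_iff.mp (hz hx') y
  apply Lib.Transfer.not_dvd_relIndex_inf P σ.ker
  have hbot : (P : Subgroup H) ⊓ σ.ker = ⊥ := by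
    rw [eq_bot_iff]
    rintro z ⟨hzP, hzk⟩
    exact Lib.Transfer.eq_one_of_central_of_abelian (P : Subgroup H) hab P.card_coprime_index hzP
      (hz hzk) (hH ▸ mem_top z)
  rwa [hbot, relIndex_bot_left]

end Cfsg.Agent.S0102
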