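import Cfsg.Statements.S0103
import Cfsg.Agent.Lib.Transfer.Fusion

set_option autoImplicit false
open Cfsg Subgroup
open scoped Pointwise commutatorElement

namespace Cfsg.Agent.S0103

/-- If a Sylow p-subgroup P intersects every distinct conjugate trivially, then its normalizer controls fusion in P. -/
theorem result {G : Type*} [Group G] [Finite G] {p : ℕ} [Fact p.Prime] (P : Sylow p G) (hTI : ∀ g : G, (P : Subgroup G).map (MulAut.conj g).toMonoidHom ≠ (P : Subgroup G) → (P : Subgroup G) ⊓ (P : Subgroup G).map (MulAut.conj g).toMonoidHom = ⊥) (x y : G) (hx : x ∈ P) (hy : y ∈ P) (hc : ∃ g : G, g * x * g⁻¹ = y) : ∃ n ∈ Subgroup.normalizer (P : Set G), n * x * n⁻¹ = y := by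
  obtain ⟨g, hg⟩ := hc
  by_cases hx1 : x = 1
  · exact ⟨1, one_mem _, by rw [← hg, hx1]; group⟩
  have hmap : (P : Subgroup G).map (MulAut.conj g).toMonoidHom = P := by
    by_contra hne
    have hmem : y ∈ (P : Subgroup G) ⊓ (P : Subgroup G).map (MulAut.conj g).toMonoidHom :=
      ⟨hy, x, hx, hg⟩
    rw [hTI g hne, mem_bot, ← hg, conj_eq_one_iff] at hmem
    exact hx1 hmem
  exact ⟨g, mem_normalizer_iff_map_conj_eq.mpr hmap, hg⟩

end Cfsg.Agent.S0103
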