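import Cfsg.Statements.S0104
import Cfsg.Agent.Lib.Transfer.Fusion

set_option autoImplicit false
open Cfsg Subgroup
open scoped Pointwise commutatorElement

namespace Cfsg.Agent.S0104

/-- A subgroup Z of a Sylow p-subgroup P that is normalized by N_G(P) is weakly closed in P exactly when it is normal in every Sylow p-subgroup containing it. -/
theorem result {G : Type*} [Group G] [Finite G] {p : ℕ} [Fact p.Prime] (P : Sylow p G) (Z : Subgroup G) (hZP : Z ≤ (P : Subgroup G)) (hZN : Subgroup.normalizer (P : Set G) ≤ Subgroup.normalizer (Z : Set G)) : Cfsg.IsWeaklyClosed Z P ↔ ∀ R : Sylow p G, Z ≤ (R : Subgroup G) → (R : Subgroup G) ≤ Subgroup.normalizer (Z : Set G) := by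
  constructor
  · rintro ⟨-, hW⟩ R hR
    obtain ⟨h, hh⟩ := MulAction.exists_smul_eq G R P
    have hZh : h ∈ normalizer (Z : Set G) := by
      rw [mem_normalizer_iff_map_conj_eq]
      refine hW h ?_
      rintro _ ⟨z, hz, rfl⟩
      rw [← hh]
      exact Lib.Transfer.mem_smul_sylow.mpr (by simpa [mul_assoc] using hR hz)
    intro r hr
    have hr' : h * r * h⁻¹ ∈ (P : Subgroup G) := by
      rw [← hh]
      exact Lib.Transfer.mem_smul_sylow.mpr (by simpa [mul_assoc] using hr)
    have := mul_mem (mul_mem (inv_mem hZh) (hZN (le_normalizer hr'))) hZh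
    simpa [mul_assoc] using this
  · intro h
    refine ⟨hZP, fun g hg => ?_⟩
    have hR : Z ≤ ((g⁻¹ • P : Sylow p G) : Subgroup G) := fun z hz =>
      Lib.Transfer.mem_smul_sylow.mpr (by simpa [mul_assoc] using hg ⟨z, hz, rfl⟩)
    obtain ⟨n, hn, he⟩ :=
      Lib.Transfer.exists_normalizer_smul_eq (Z : Set G) (h P hZP) (h _ hR)
    have hgn : g * n ∈ normalizer (P : Set G) := by
      rw [← Sylow.smul_eq_iff_mem_normalizer, mul_smul, he, smul_inv_smul]
    have := mul_mem (hZN hgn) (inv_mem hn)
    rw [mul_inv_cancel_right] at this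
    exact mem_normalizer_iff_map_conj_eq.mp this

end Cfsg.Agent.S0104
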