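import Cfsg.Statements.S0105
import Cfsg.Agent.Lib.Transfer.Hall
import Cfsg.Agent.S0090

set_option autoImplicit false
open Cfsg Subgroup
open scoped Pointwise commutatorElement

namespace Cfsg.Agent.S0105

/-- With an abelian Sylow p-subgroup P, some quotient of G is isomorphic to the part of P central in N_G(P). -/
theorem result {G : Type*} [Group G] [Finite G] {p : ℕ} [Fact p.Prime] (P : Sylow p G) (hP : IsMulCommutative P) : ∃ (N : Subgroup G) (hN : N.Normal), Nonempty (G ⧸ N ≃* ((P : Subgroup G) ⊓ Subgroup.centralizer (Subgroup.normalizer (P : Set G) : Set G) : Subgroup G)) := by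
  set N := normalizer ((P : Subgroup G) : Set G) with hNdef
  have hPN : (P : Subgroup G) ≤ N := le_normalizer
  set A := (P : Subgroup G).subgroupOf N with hA
  have hAn : A.Normal := normal_in_normalizer
  have hAc : IsMulCommutative A := by
    refine ⟨⟨fun a b => Subtype.ext (Subtype.ext ?_)⟩⟩
    show (a : N).1 * (b : N).1 = (b : N).1 * (a : N).1
    exact congrArg Subtype.val
      (hP.is_comm.comm (⟨a.1.1, a.2⟩ : (P : Subgroup G)) ⟨b.1.1, b.2⟩)
  have hcard : Nat.card A = Nat.card (P : Subgroup G) := Nat.card_congr (subgroupOfEquivOfLe hPN).toEquiv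
  have hHall : Nat.Coprime (Nat.card A) A.index := by
    rw [hcard]
    exact P.card_coprime_index.coprime_dvd_right (relIndex_dvd_index_of_le hPN)
  obtain ⟨-, h2, h3⟩ := Cfsg.Agent.S0090.result A hAc hHall
  have hfoc : (P : Subgroup G).focalSubgroup = ⁅N, N⁆ ⊓ (P : Subgroup G) := by
    rw [← commutator_inf_eq_focalSubgroup P]
    exact Lib.Transfer.commutator_inf_eq_of_controlsFusion P hPN
      (Lib.Transfer.controlsFusion_normalizer P hP)
  have hNN : ∀ n : N, n ∈ commutator N ↔ (n : G) ∈ ⁅N, N⁆ := fun n => by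
    rw [← map_subtype_commutator N]
    exact (mem_map_iff_mem N.subtype_injective).symm
  set C := (P : Subgroup G) ⊓ centralizer (normalizer (P : Set G) : Set G) with hC
  let f : C →* (P : Subgroup G) ⧸ (P : Subgroup G).focalSubgroupOf :=
    (QuotientGroup.mk' _).comp (inclusion inf_le_left)
  have hcenter : ∀ n : N, n ∈ center N ↔ (n : G) ∈ centralizer (normalizer (P : Set G) : Set G) := by
    intro n
    rw [mem_center_iff, mem_centralizer_iff]
    exact ⟨fun h g hg => congrArg Subtype.val (h ⟨g, hg⟩), fun h g => Subtype.ext (h g g.2)⟩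
  have hf : Function.Bijective f := by
    constructor
    · rw [injective_iff_map_eq_one]
      intro c hc
      have hc' : (c : G) ∈ (P : Subgroup G).focalSubgroup :=
        ((QuotientGroup.eq_one_iff (N := (P : Subgroup G).focalSubgroupOf) (inclusion inf_le_left c)).mp hc :)
      rw [hfoc] at hc'
      have : (⟨c, hPN c.2.1⟩ : N) ∈ (commutator N ⊓ A) ⊓ (center N ⊓ A) :=
        ⟨⟨(hNN _).mpr hc'.1, mem_subgroupOf.mpr c.2.1⟩, (hcenter _).mpr c.2.2, mem_subgroupOf.mpr c.2.1⟩
      rw [h2, mem_bot] at this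
      exact Subtype.ext (congrArg Subtype.val this :)
    · rintro ⟨⟨x, hx⟩⟩
      have hxA : (⟨x, hPN hx⟩ : N) ∈ (commutator N ⊓ A) ⊔ (center N ⊓ A) := h3.ge (mem_subgroupOf.mpr hx)
      obtain ⟨a, ⟨ha, haA⟩, b, ⟨hb, hbA⟩, hab⟩ := mem_sup_of_normal_left.mp hxA
      refine ⟨⟨b, mem_subgroupOf.mp hbA, (hcenter b).mp hb⟩, ?_⟩
      refine QuotientGroup.eq.mpr ?_
      rw [focalSubgroupOf_def, mem_subgroupOf, hfoc]
      have e : (b : G)⁻¹ * x = ((b⁻¹ * a * b : N) : G) := by
        rw [show x = ((a * b : N) : G) by rw [hab]]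
        simp [mul_assoc]
      show (b : G)⁻¹ * x ∈ _
      rw [e]
      refine mem_inf.mpr ⟨(hNN _).mp ?_, mem_subgroupOf.mp (mul_mem (mul_mem (inv_mem hbA) haA) hbA)⟩
      simpa using (inferInstance : (commutator N).Normal).conj_mem a ha b⁻¹
  exact ⟨_, inferInstance,
    ⟨(transferFocal.quotientKerMulEquivQuotientFocalSubroupOf P).trans (MulEquiv.ofBijective f hf).symm⟩⟩

end Cfsg.Agent.S0105
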