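import Cfsg.Statements.S0107
import Cfsg.Agent.S0111
import Cfsg.Agent.Lib.Transfer.Fusion
import Mathlib.GroupTheory.SpecificGroups.Dihedral

set_option autoImplicit false
open Cfsg Subgroup
open scoped Pointwise commutatorElement

namespace Cfsg.Agent.S0107

/-- A finite group with no nontrivial 2-group quotient and dihedral Sylow 2-subgroups of order at least 8 has a single class of involutions. -/
theorem result {G : Type*} [Group G] [Finite G] (T : Sylow 2 G) (n : ℕ) (hn : 2 ≤ n) (hT : Nonempty ((T : Subgroup G) ≃* DihedralGroup (2 ^ n))) (hO : Cfsg.pResidual 2 G = ⊤) (x y : G) (hx : orderOf x = 2) (hy : orderOf y = 2) : ∃ g : G, g * x * g⁻¹ = y := by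
  have : Fact (Nat.Prime 2) := ⟨Nat.prime_two⟩
  obtain ⟨e⟩ := hT
  set m := 2 ^ n with hm
  let R : Subgroup (DihedralGroup m) := zpowers (DihedralGroup.r 1)
  have hmpos : 0 < m := by positivity
  have : NeZero m := ⟨hmpos.ne'⟩
  let Q : Subgroup G := (R.map e.symm.toMonoidHom).map (T : Subgroup G).subtype
  have hQT : Q ≤ (T : Subgroup G) := map_subtype_le _
  have hQi : Q.relIndex (T : Subgroup G) = 2 := by
    rw [relIndex, subgroupOf, comap_map_eq_self_of_injective (T : Subgroup G).subtype_injective,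
      index_map_of_bijective e.symm.bijective]
    have h1 := R.card_mul_index
    rw [Nat.card_zpowers, DihedralGroup.orderOf_r_one, DihedralGroup.nat_card, mul_comm 2 m] at h1
    exact Nat.eq_of_mul_eq_mul_left hmpos h1
  have hnoM : ∀ M : Subgroup G, M.Normal → M.index ≠ 2 := by
    intro M hM hMi
    have hle := Lib.Transfer.pResidual_le (p := 2) (N := M)
      (IsPGroup.of_card (n := 1) (by rw [← index_eq_card, hMi, pow_one]))
    rw [hO, top_le_iff] at hle
    rw [hle, index_top] at hMi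
    omega
  have hcyc : IsCyclic Q := by
    have : IsCyclic R := inferInstance
    exact isCyclic_of_surjective _
      ((equivMapOfInjective R _ e.symm.injective).trans
        (equivMapOfInjective _ _ (T : Subgroup G).subtype_injective)).surjective
  have hinto : ∀ x : G, orderOf x = 2 → ∃ g : G, g * x * g⁻¹ ∈ Q := by
    intro x hx
    obtain ⟨S, hS⟩ := (IsPGroup.of_card (n := 1) (by rw [Nat.card_zpowers, hx, pow_one]) :
      IsPGroup 2 (zpowers x)).exists_le_sylow
    obtain ⟨g, hg⟩ := MulAction.exists_smul_eq G S T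
    have hgx : g * x * g⁻¹ ∈ (T : Subgroup G) := by
      rw [← hg]
      exact Lib.Transfer.mem_smul_sylow.mpr (by simpa [mul_assoc] using hS (mem_zpowers x))
    by_cases hQx : g * x * g⁻¹ ∈ Q
    · exact ⟨g, hQx⟩
    rcases Cfsg.Agent.S0111.result T Q hQT hQi (g * x * g⁻¹)
      (by rw [← hx]; exact MulEquiv.orderOf_eq (MulAut.conj g) x) hgx hQx with ⟨M, hM, hMi, -⟩ | ⟨g', hg'⟩
    · exact absurd hMi (hnoM M hM)
    · exact ⟨g' * g, by simpa [mul_assoc] using hg'⟩
  obtain ⟨a, ha⟩ := hinto x hx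
  obtain ⟨b, hb⟩ := hinto y hy
  have key : a * x * a⁻¹ = b * y * b⁻¹ := by
    have hox : orderOf (⟨a * x * a⁻¹, ha⟩ : Q) = 2 := by
      rw [orderOf_mk, ← hx]; exact MulEquiv.orderOf_eq (MulAut.conj a) x
    have hoy : orderOf (⟨b * y * b⁻¹, hb⟩ : Q) = 2 := by
      rw [orderOf_mk, ← hy]; exact MulEquiv.orderOf_eq (MulAut.conj b) y
    classical
    have : Fintype Q := Fintype.ofFinite Q
    have hd : 2 ∣ Fintype.card Q := by rw [← hox]; exact orderOf_dvd_card
    have h1 := IsCyclic.card_orderOf_eq_totient (α := Q) hd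
    rw [Nat.totient_two] at h1
    exact congrArg Subtype.val (Finset.card_le_one.mp h1.le _ (Finset.mem_filter.mpr ⟨Finset.mem_univ _, hox⟩) _
      (Finset.mem_filter.mpr ⟨Finset.mem_univ _, hoy⟩) :)
  refine ⟨b⁻¹ * a, ?_⟩
  calc b⁻¹ * a * x * (b⁻¹ * a)⁻¹ = b⁻¹ * (a * x * a⁻¹) * b := by group
    _ = y := by rw [key]; group

end Cfsg.Agent.S0107
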