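import Cfsg.Statements.S0110
import Cfsg.Agent.Lib.Thompson.PGroup

set_option autoImplicit false
open Cfsg Subgroup
open scoped Pointwise commutatorElement

namespace Cfsg.Agent.S0110

/-- In a p-group G, an extraspecial subgroup E with [G, E] ≤ Z(E) satisfies G = E C_G(E). -/
theorem result {G : Type*} [Group G] [Finite G] {p : ℕ} [Fact p.Prime] (hG : IsPGroup p G) (E : Subgroup G) (hE : Cfsg.IsExtraspecial p E) (h : ⁅(⊤ : Subgroup G), E⁆ ≤ E ⊓ Subgroup.centralizer (E : Set G)) : E ⊔ Subgroup.centralizer (E : Set G) = ⊤ := by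
  classical
  have hp : p.Prime := Fact.out
  have hEn : E.Normal := ⟨fun x hx g => by
    have := (h (commutator_mem_commutator (mem_top g) hx)).1
    rw [commutatorElement_def] at this
    simpa using mul_mem this hx⟩
  have e : E ⊓ centralizer (E : Set G) = (center E).map E.subtype := by
    ext x
    constructor
    · intro hx
      exact ⟨⟨x, hx.1⟩, mem_center_iff.mpr fun y => Subtype.ext (mem_centralizer_iff.mp hx.2 y y.2), rfl⟩
    · rintro ⟨c, hc, rfl⟩
      exact ⟨c.2, mem_centralizer_iff.mpr fun y hy => congrArg Subtype.val (mem_center_iff.mp hc ⟨y, hy⟩)⟩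
  have hcardZ : Nat.card (E ⊓ centralizer (E : Set G) : Subgroup G) = p := by
    rw [e, card_subtype, hE.2]
  have hZn : (E ⊓ centralizer (E : Set G)).Normal := inferInstance
  have hZc : E ⊓ centralizer (E : Set G) ≤ center G := by
    have hne : E ⊓ centralizer (E : Set G) ≠ ⊥ := fun e0 => by
      rw [e0, card_bot] at hcardZ; exact hp.ne_one hcardZ.symm
    obtain ⟨z, hz, hzc, hzo⟩ := Lib.Thompson.exists_central_order_p hG hne
    rw [← eq_of_le_of_card_ge (zpowers_le.mpr hz) (by rw [hcardZ, Nat.card_zpowers, hzo])]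
    exact zpowers_le.mpr hzc
  obtain ⟨S, hSE, hES, hcard⟩ := Lib.Thompson.exists_generators hG
    (inf_le_left : E ⊓ centralizer (E : Set G) ≤ E)
  have hCS : centralizer (S : Set G) = centralizer (E : Set G) := by
    refine le_antisymm ?_ (centralizer_le hSE)
    have h1 : closure (S : Set G) ≤ centralizer (centralizer (S : Set G) : Set G) :=
      (closure_le _).mpr fun s hs => mem_centralizer_iff.mpr fun w hw =>
        (mem_centralizer_iff.mp hw s hs).symm
    exact le_centralizer_iff.mp (hES.trans (sup_le h1 (hZc.trans (center_le_centralizer _))))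
  have hidx : (centralizer (E : Set G)).index ≤ p ^ S.card := by
    rw [← hCS, ← relIndex_top_right, ← hcardZ]
    exact Lib.Thompson.relIndex_centralizer_le S fun s hs w _ => by
      have := h (commutator_mem_commutator (mem_top w) (hSE s hs))
      rwa [commutatorElement_def] at this
  have hrel : p ^ S.card ≤ (centralizer (E : Set G)).relIndex E := by
    have h2 := card_mul_index ((centralizer (E : Set G)).subgroupOf E)
    rw [Nat.card_congr (subgroupOfEquivOfLe (inf_le_left :
      E ⊓ centralizer (E : Set G) ≤ E)).toEquiv.symm, inf_subgroupOf_left] at hcard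
    have h3 : Nat.card ((centralizer (E : Set G)).subgroupOf E) = p := by
      rw [← inf_subgroupOf_left, Nat.card_congr (subgroupOfEquivOfLe inf_le_left).toEquiv, hcardZ]
    rw [h3, ← relIndex] at h2
    rw [h3] at hcard
    rw [← h2, mul_comm] at hcard
    exact Nat.le_of_mul_le_mul_left hcard hp.pos
  have h4 := relIndex_mul_index (le_sup_right : centralizer (E : Set G) ≤ E ⊔ centralizer (E : Set G))
  rw [relIndex_sup_right] at h4
  refine index_eq_one.mp ?_
  by_contra hne
  have h5 : 2 ≤ (E ⊔ centralizer (E : Set G)).index :=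
    (Nat.two_le_iff _).mpr ⟨index_ne_zero_of_finite, hne⟩
  have h6 := Nat.mul_le_mul hrel h5
  rw [h4] at h6
  have h7 : 0 < p ^ S.card := pow_pos hp.pos _
  omega

end Cfsg.Agent.S0110
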