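import Cfsg.Statements.S0114
import Cfsg.Agent.Lib.Thompson.MaxClassTwo

set_option autoImplicit false
open Cfsg Subgroup
open scoped Pointwise commutatorElement

namespace Cfsg.Agent.S0114

/-- The central quotient of a 2-group of maximal class is dihedral. -/
theorem result {X : Type*} [Group X] [Finite X] (n : ℕ) (hn : 3 ≤ n) (hX : Nat.card X = 2 ^ n) (hc : Group.nilpotencyClass X = n - 1) : Nonempty (X ⧸ Subgroup.center X ≃* DihedralGroup (2 ^ (n - 2))) := by
  classical
  have : Fact (Nat.Prime 2) := ⟨Nat.prime_two⟩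
  obtain ⟨m, rfl⟩ : ∃ m, n = m + 1 := ⟨n - 1, by omega⟩
  have h := Lib.Thompson.index_lcs_of_maxClass hX hn hc (k := 1) le_rfl (by omega)
  rw [Subgroup.top_lowerCentralSeries_one] at h
  obtain ⟨a, b, r, ha, hb, hb2, hr, hr1, hidx, h4⟩ :=
    Lib.Thompson.maxClassTwo_structure (by omega) hX h
  have hgen : ∀ g : X, ∃ i : ℤ, g = a ^ i ∨ g = b * a ^ i := fun g => by
    rcases em (g ∈ zpowers a) with ⟨i, hi⟩ | hg
    · exact ⟨i, Or.inl hi.symm⟩
    · obtain ⟨i, hi⟩ : b⁻¹ * g ∈ zpowers a := (mul_mem_iff_of_index_two hidx).mpr (by simp [hb, hg])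
      exact ⟨i, Or.inr (by rw [show a ^ i = b⁻¹ * g from hi, mul_inv_cancel_left])⟩
  obtain ⟨t, ht⟩ := h4
  have hd : ∀ i : ℤ, a ^ i = 1 ↔ (2 : ℤ) ^ m ∣ i := fun i => by
    rw [← orderOf_dvd_iff_zpow_eq_one, ha]; norm_num
  have hm2 : (2 : ℤ) ^ m = 2 * 2 ^ (m - 1) := by rw [← pow_succ']; congr 1; omega
  have hZ : center X = zpowers (a ^ 2 ^ (m - 1)) := by
    refine le_antisymm (fun g hg => ?_) (zpowers_le.mpr (mem_center_iff.mpr fun g => ?_))
    · obtain ⟨i, rfl | rfl⟩ := hgen g
      · have h2 := mem_center_iff.mp hg b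
        rw [← mul_inv_eq_iff_eq_mul, Lib.Thompson.conj_zpow_of_eq hr, ← mul_inv_eq_one, ← zpow_sub, hd,
          show r * i - i = 2 * ((2 * t - 1) * i) by rw [show r = 4 * t - 1 by linarith]; ring, hm2] at h2
        have h3 : (2 : ℤ) ^ (m - 1) ∣ i :=
          (IsCoprime.pow_left ⟨t, -1, by ring⟩ : IsCoprime ((2 : ℤ) ^ (m - 1)) (2 * t - 1)).dvd_of_dvd_mul_left
            ((mul_dvd_mul_iff_left two_ne_zero).mp h2)
        obtain ⟨k, rfl⟩ := h3
        exact ⟨k, by
          show (a ^ 2 ^ (m - 1)) ^ k = _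
          rw [zpow_mul, ← zpow_natCast a]; norm_num⟩
      · exfalso
        have h2 := mem_center_iff.mp hg a
        have h3 : b * a * b⁻¹ = a := by
          rw [mul_inv_eq_iff_eq_mul]
          have h6 : b * a ^ i * a = b * a * a ^ i := by
            rw [mul_assoc, ((Commute.refl a).zpow_left i).eq, ← mul_assoc]
          rw [← h2, ← mul_assoc] at h6
          exact (mul_right_cancel h6).symm
        have h4' : a ^ r = a ^ (1 : ℤ) := by rw [zpow_one, ← hr, h3]
        rw [← mul_inv_eq_one, ← zpow_sub, hd] at h4'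
        have h5 : (4 : ℤ) ∣ r - 1 := (show (4 : ℤ) = 2 ^ 2 by norm_num) ▸
          (pow_dvd_pow 2 (by omega)).trans h4'
        omega
    · obtain ⟨i, rfl | rfl⟩ := hgen g
      · exact (((Commute.refl a).zpow_left i).pow_right _).eq
      · have h2 : Commute b (a ^ 2 ^ (m - 1)) := by
          show b * _ = _ * b
          rw [← mul_inv_eq_iff_eq_mul, ← zpow_natCast, Lib.Thompson.conj_zpow_of_eq hr,
            ← mul_inv_eq_one, ← zpow_sub, hd]
          push_cast
          rw [hm2, show r * 2 ^ (m - 1) - 2 ^ (m - 1) = 2 * 2 ^ (m - 1) * (2 * t - 1) by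
            rw [show r = 4 * t - 1 by linarith]; ring]
          exact dvd_mul_right _ _
        exact (h2.mul_left (((Commute.refl a).zpow_left i).pow_right _)).eq
  let π := QuotientGroup.mk' (center X)
  have hπa : orderOf (π a) ∣ 2 ^ (m - 1) := by
    refine orderOf_dvd_of_pow_eq_one ?_
    rw [← map_pow]
    exact (QuotientGroup.eq_one_iff _).mpr (hZ ▸ mem_zpowers _)
  have hπb : π b ^ 2 = 1 := by
    rw [← map_pow]
    exact (QuotientGroup.eq_one_iff _).mpr (hZ ▸ hb2)
  have hπab : π b * π a * (π b)⁻¹ = (π a)⁻¹ := by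
    rw [← map_inv, ← map_mul, ← map_mul, hr, map_zpow, ← mul_eq_one_iff_eq_inv, ← zpow_add_one,
      ← orderOf_dvd_iff_zpow_eq_one]
    exact (Int.natCast_dvd_natCast.mpr hπa).trans (by push_cast; exact hr1)
  rw [show m + 1 - 2 = m - 1 by omega]
  have hN : (π a) ^ 2 ^ (m - 1) = 1 := orderOf_dvd_iff_pow_eq_one.mp hπa
  have hne : NeZero (2 ^ (m - 1)) := ⟨pow_ne_zero _ (by norm_num)⟩
  let e : ZMod (2 ^ (m - 1)) → X ⧸ center X := fun i => (π a) ^ i.val
  have hadd : ∀ i j, e (i + j) = e i * e j := fun i j => by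
    simp only [e]
    rw [ZMod.val_add, ← pow_eq_pow_mod _ hN, pow_add]
  have he0 : e 0 = 1 := by simp only [e]; rw [ZMod.val_zero, pow_zero]
  have hsub : ∀ i j, e (i - j) = e i * (e j)⁻¹ := fun i j =>
    eq_mul_inv_of_mul_eq (by rw [← hadd, sub_add_cancel])
  have hbinv : (π b)⁻¹ = π b := inv_eq_of_mul_eq_one_right (sq (π b) ▸ hπb)
  have hflip : ∀ i, π b * e i = (e i)⁻¹ * π b := fun i => by
    simp only [e]
    rw [← inv_pow, ← hπab, conj_pow, inv_mul_cancel_right]
  have hcomm : ∀ i j, Commute (e i) (e j) := fun i j => (Commute.refl (π a)).pow_pow _ _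
  let φ : DihedralGroup (2 ^ (m - 1)) →* X ⧸ center X := MonoidHom.mk'
    (fun g => match g with
      | .r i => e i
      | .sr i => π b * e i)
    (by
      rintro (i | i) (j | j)
      · rw [DihedralGroup.r_mul_r]; exact hadd i j
      · rw [DihedralGroup.r_mul_sr]
        show π b * e (j - i) = e i * (π b * e j)
        have h6 : e i * π b = π b * (e i)⁻¹ := by
          have h7 := congrArg (fun v => e i * v * (e i)⁻¹) (hflip i)
          simpa [mul_assoc] using h7
        rw [hsub, ← mul_assoc (e i), h6, mul_assoc (π b), ((hcomm j i).inv_right).eq]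
      · rw [DihedralGroup.sr_mul_r]
        show π b * e (i + j) = π b * e i * e j
        rw [hadd, mul_assoc]
      · rw [DihedralGroup.sr_mul_sr]
        show e (j - i) = π b * e i * (π b * e j)
        rw [hflip, mul_assoc, ← mul_assoc (π b), ← sq, hπb, one_mul, hsub,
          ((hcomm j i).inv_right).eq])
  have hsurj : Function.Surjective φ := by
    intro q
    obtain ⟨g, rfl⟩ := QuotientGroup.mk'_surjective _ q
    have hpow : ∀ i : ℤ, π (a ^ i) = e (i : ZMod (2 ^ (m - 1))) := fun i => by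
      simp only [e]
      rw [← zpow_natCast, ZMod.val_intCast, map_zpow]
      refine (zpow_eq_zpow_iff_modEq.mpr ?_)
      exact (Int.ModEq.of_dvd (Int.natCast_dvd_natCast.mpr hπa) (Int.mod_modEq i _)).symm
    obtain ⟨i, rfl | rfl⟩ := hgen g
    · exact ⟨DihedralGroup.r (i : ZMod (2 ^ (m - 1))), (hpow i).symm⟩
    · exact ⟨DihedralGroup.sr (i : ZMod (2 ^ (m - 1))), by
        show π b * e _ = π (b * a ^ i)
        rw [← hpow, map_mul]⟩
  have hcard : Nat.card (X ⧸ center X) = Nat.card (DihedralGroup (2 ^ (m - 1))) := by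
    have h2 := card_mul_index (center X)
    rw [hZ, Nat.card_zpowers, orderOf_pow' a (pow_ne_zero _ (by norm_num)), ha,
      Nat.gcd_eq_right (pow_dvd_pow 2 (Nat.sub_le m 1)), Nat.pow_div (Nat.sub_le m 1) (by norm_num),
      show m - (m - 1) = 1 by omega, pow_one, ← hZ, index_eq_card, hX, pow_succ,
      show 2 ^ m = 2 * 2 ^ (m - 1) by rw [← pow_succ']; congr 1; omega] at h2
    rw [DihedralGroup.nat_card]
    omega
  have hbij : Function.Bijective φ := hsurj.bijective_of_nat_card_le hcard.ge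
  exact ⟨(MulEquiv.ofBijective φ hbij).symm⟩

end Cfsg.Agent.S0114
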