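import Cfsg.Statements.S0116
import Cfsg.Agent.Lib.Transfer.Alperin

set_option autoImplicit false
open Cfsg Subgroup
open scoped Pointwise commutatorElement

namespace Cfsg.Agent.S0116

/-- The Alperin fusion Theorem states that conjugation between subsets of a Sylow p-subgroup P factors through normalizers of tame intersections P ∩ Q_i with other Sylow p-subgroups, carrying the subset along step by step. -/
theorem result {G : Type*} [Group G] [Finite G] {p : ℕ} [Fact p.Prime] (P : Sylow p G) (A : Set G) (g : G) (hA : A ⊆ (P : Set G)) (hAg : (fun a => g⁻¹ * a * g) '' A ⊆ (P : Set G)) : ∃ (n : ℕ) (Q : Fin n → Sylow p G) (x : Fin n → G), (List.ofFn x).prod = g ∧ (∀ i : Fin n, x i ∈ Subgroup.normalizer ((((P : Subgroup G) ⊓ (Q i : Subgroup G)) : Subgroup G) : Set G) ∧ ¬ p ∣ ((P : Subgroup G) ⊓ Subgroup.normalizer ((((P : Subgroup G) ⊓ (Q i : Subgroup G)) : Subgroup G) : Set G)).relIndex (Subgroup.normalizer ((((P : Subgroup G) ⊓ (Q i : Subgroup G))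 : Subgroup G) : Set G)) ∧ ¬ p ∣ ((Q i : Subgroup G) ⊓ Subgroup.normalizer ((((P : Subgroup G) ⊓ (Q i : Subgroup G)) : Subgroup G) : Set G)).relIndex (Subgroup.normalizer ((((P : Subgroup G) ⊓ (Q i : Subgroup G)) : Subgroup G) : Set G))) ∧ (∀ h : 0 < n, A ⊆ (((P : Subgroup G) ⊓ (Q ⟨0, h⟩ : Subgroup G) : Subgroup G) : Set G)) ∧ ∀ i : Fin n, ∀ h : i.val + 1 < n, (fun a => (((List.ofFn x).take (i.val + 1)).prod)⁻¹ * a * ((List.ofFn x).take (i.val + 1)).prod) '' A ⊆ (((P : Subgroup G) ⊓ (Q ⟨i.val + 1, h⟩ : Subgroup G) : Subgroup G) : Set G) := by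
  obtain ⟨l, hl, hprod⟩ := Lib.Transfer.alperin P A g hA hAg
  have hofFn : List.ofFn (fun i : Fin l.length => (l[(i : ℕ)]).2) = l.map Prod.snd :=
    List.ext_getElem (by simp) (fun i _ _ => by simp)
  refine ⟨l.length, fun i => (l[(i : ℕ)]).1, fun i => (l[(i : ℕ)]).2, ?_, fun i => ?_, fun h => ?_,
    fun i h => ?_⟩
  · rw [hofFn]; exact hprod
  · obtain ⟨h1, h2, h3⟩ := Lib.Transfer.AlperinChain.step hl i i.2
    exact ⟨h1, h2, h3⟩
  · have := Lib.Transfer.AlperinChain.prefix_subset hl 0 h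
    simpa using this
  · rw [hofFn]
    exact Lib.Transfer.AlperinChain.prefix_subset hl (i.val + 1) h

end Cfsg.Agent.S0116
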