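import Cfsg.Statements.S0119
import Cfsg.Agent.Lib.Thompson.PGroup
import Cfsg.Agent.Lib.PGroupFrattini

set_option autoImplicit false
open Cfsg Subgroup
open scoped Pointwise commutatorElement

namespace Cfsg.Agent.S0119

/-- If a p'-group A of automorphisms of a p-group G satisfies G = [G, A] and acts trivially on every characteristic abelian subgroup, then G is special with centre equal to the fixed points of A. -/
theorem result {G : Type*} [Group G] [Finite G] {p : ℕ} [Fact p.Prime] (hG : IsPGroup p G) (A : Subgroup (MulAut G)) (hA : Nat.Coprime (Nat.card A) p) (hGA : Subgroup.closure {x : G | ∃ g : G, ∃ a ∈ A, x = g⁻¹ * a g} = ⊤) (hchar : ∀ H : Subgroup G, H.Characteristic → IsMulCommutative H → ∀ a ∈ A, ∀ h ∈ H, a h = h) : Cfsg.IsSpecial p G ∧ (∀ g : G, (g ∈ Subgroup.center G ↔ ∀ a ∈ A, a g = g)) := by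
  classical
  have habel : ∀ H : Subgroup G, H.Characteristic → IsMulCommutative H → H ≤ center G := by
    intro H hH hHc
    intro h hh
    have hle : closure {x : G | ∃ g : G, ∃ a ∈ A, x = g⁻¹ * a g} ≤ centralizer ({h} : Set G) := by
      rw [closure_le]
      rintro x ⟨g, a, ha, rfl⟩
      have hn : g * h * g⁻¹ ∈ H := (inferInstance : H.Normal).conj_mem h hh g
      have := hchar H hH hHc a ha _ hn
      rw [map_mul, map_mul, map_inv, hchar H hH hHc a ha h hh] at this
      rw [SetLike.mem_coe, mem_centralizer_singleton_iff]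
      calc g⁻¹ * a g * h = g⁻¹ * (a g * h * (a g)⁻¹) * a g := by group
        _ = g⁻¹ * (g * h * g⁻¹) * a g := by rw [this]
        _ = h * (g⁻¹ * a g) := by group
    rw [hGA] at hle
    exact mem_center_iff.mpr fun g => mem_centralizer_singleton_iff.mp (hle (mem_top g))
  have hD : commutator G ≤ center G := by
    by_contra hne
    have hX : (commutator G).map (QuotientGroup.mk' (center G)) ≠ ⊥ := fun e => hne (by
      rw [Subgroup.map_eq_bot_iff, QuotientGroup.ker_mk'] at e; exact e)
    have hXn : ((commutator G).map (QuotientGroup.mk' (center G))).Normal :=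
      Normal.map inferInstance _ (QuotientGroup.mk'_surjective _)
    obtain ⟨z, hzX, hzc, hzo⟩ :=
      Lib.Thompson.exists_central_order_p (hG.to_quotient (center G)) hX
    obtain ⟨y, hy, rfl⟩ := hzX
    have hu2 : ∀ (u : (commutator G ⊓ Subgroup.upperCentralSeries G 2 : Subgroup G)) (g : G),
        ⁅(u : G), g⁆ ∈ center G := fun u g => by
      rw [← Subgroup.upperCentralSeries_one]
      exact Subgroup.mem_upperCentralSeries_succ_iff.mp u.2.2 g
    have hcomm : commutator G ⊓ Subgroup.upperCentralSeries G 2 ≤ center G := by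
      refine habel _ inferInstance ⟨⟨fun u v => Subtype.ext ?_⟩⟩
      let f : G →* center G := MonoidHom.mk'
        (fun g => ⟨⁅(u : G), g⁆, hu2 u g⟩)
        (fun g g' => Subtype.ext (by
          have hc : Commute g ⁅(u : G), g'⁆ := mem_center_iff.mp (hu2 u g') g
          show ⁅(u : G), g * g'⁆ = ⁅(u : G), g⁆ * ⁅(u : G), g'⁆
          calc ⁅(u : G), g * g'⁆ = ⁅(u : G), g⁆ * (g * ⁅(u : G), g'⁆ * g⁻¹) := by
                simp only [commutatorElement_def]; group
            _ = _ := by rw [hc.eq, mul_inv_cancel_right]))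
      have hker : commutator G ≤ f.ker := by
        rw [_root_.commutator_def, commutator_le]
        intro r _ r' _
        rw [MonoidHom.mem_ker, map_commutatorElement, commutatorElement_eq_one_iff_commute]
        exact Subtype.ext (mem_center_iff.mp (f r').2 (f r))
      have hv := hker v.2.1
      exact commutatorElement_eq_one_iff_commute.mp (congrArg Subtype.val (MonoidHom.mem_ker.mp hv))
    refine absurd hzo ?_
    have hy2 : y ∈ Subgroup.upperCentralSeries G 2 := by
      rw [Subgroup.mem_upperCentralSeries_succ_iff, Subgroup.upperCentralSeries_one]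
      intro g
      rw [← QuotientGroup.eq_one_iff, ← QuotientGroup.mk'_apply, map_commutatorElement,
        commutatorElement_eq_one_iff_commute]
      exact (mem_center_iff.mp hzc _).symm
    rw [show QuotientGroup.mk' (center G) y = 1 from (QuotientGroup.eq_one_iff y).mpr (hcomm ⟨hy, hy2⟩),
      orderOf_one]
    exact (Fact.out (p := p.Prime)).ne_one.symm
  have hfix : ∀ g : G, (∀ a ∈ A, a g = g) → g ∈ commutator G := by
    intro g hg
    let := Fintype.ofFinite A
    let N : G →* Abelianization G := MonoidHom.mk'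
      (fun g => ∏ a : A, Abelianization.of ((a : MulAut G) g))
      (fun g g' => by simp only [map_mul, Finset.prod_mul_distrib])
    have hN : closure {x : G | ∃ g : G, ∃ a ∈ A, x = g⁻¹ * a g} ≤ N.ker := by
      rw [closure_le]
      rintro x ⟨g, a, ha, rfl⟩
      rw [SetLike.mem_coe, MonoidHom.mem_ker, map_mul, map_inv, inv_mul_eq_one]
      exact (Fintype.prod_equiv (Equiv.mulRight ⟨a, ha⟩)
        (fun b : A => Abelianization.of ((b : MulAut G) (a g)))
        (fun b : A => Abelianization.of ((b : MulAut G) g)) (fun b => rfl)).symm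
    rw [hGA] at hN
    have h1 : N g = 1 := hN (mem_top g)
    change ∏ a : A, Abelianization.of ((a : MulAut G) g) = 1 at h1
    rw [Finset.prod_congr rfl (fun a _ => by rw [hg a a.2]), Finset.prod_const, Finset.card_univ,
      ← Nat.card_eq_fintype_card] at h1
    obtain ⟨m, hm⟩ := hG g
    have h2 : orderOf (Abelianization.of g) ∣ 1 := by
      rw [← Nat.Coprime.gcd_eq_one (hA.pow_right m)]
      exact Nat.dvd_gcd (orderOf_dvd_of_pow_eq_one h1)
        (orderOf_dvd_of_pow_eq_one (by rw [← map_pow, hm, map_one]))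
    exact (QuotientGroup.eq_one_iff g).mp (orderOf_eq_one_iff.mp (Nat.dvd_one.mp h2))
  have hZfix : ∀ g ∈ center G, ∀ a ∈ A, a g = g := fun g hg a ha =>
    hchar (center G) inferInstance inferInstance a ha g hg
  have hZD : center G = commutator G := le_antisymm (fun g hg => hfix g (hZfix g hg)) hD
  refine ⟨⟨hG, ?_, hZD.symm⟩, fun g => ⟨hZfix g, fun h => hD (hfix g h)⟩⟩
  have hc : ∀ u v w : G, Commute ⁅u, v⁆ w := fun u v w => (mem_center_iff.mp
    (hD (commutator_mem_commutator (mem_top u) (mem_top v))) w).symm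
  have hexp : ∀ e : ℕ, (∀ u v : G, ⁅u, v⁆ ^ p ^ (e + 2) = 1) → ∀ u v : G, ⁅u, v⁆ ^ p ^ (e + 1) = 1 := by
    intro e he u v
    let S : Set G := {x | ∃ w : G, x = w ^ p ^ (e + 1)}
    have hS : (closure S).Characteristic := by
      refine characteristic_iff_map_le.mpr fun φ => ?_
      rw [MonoidHom.map_closure]
      refine closure_mono ?_
      rintro _ ⟨_, ⟨w, rfl⟩, rfl⟩
      exact ⟨φ w, map_pow φ w _⟩
    have hSc : IsMulCommutative (closure S) := by
      refine isMulCommutative_closure ?_
      rintro _ ⟨w, rfl⟩ _ ⟨w', rfl⟩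
      refine commutatorElement_eq_one_iff_commute.mp ?_
      rw [Lib.Thompson.commutator_pow_left (hc _ _ _), Lib.Thompson.commutator_pow_right (hc _ _ _),
        ← pow_mul, ← pow_add, show e + 1 + (e + 1) = e + 2 + e by ring, pow_add, pow_mul, he, one_pow]
    rw [← Lib.Thompson.commutator_pow_left (hc _ _ _), commutatorElement_eq_one_iff_commute]
    exact (mem_center_iff.mp (habel _ hS hSc (subset_closure ⟨u, rfl⟩)) v).symm
  have hp1 : ∀ u v : G, ⁅u, v⁆ ^ p = 1 := by
    obtain ⟨n, hn⟩ := IsPGroup.iff_card.mp hG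
    have hbig : ∀ u v : G, ⁅u, v⁆ ^ p ^ (n + 1) = 1 := fun u v => by
      rw [pow_succ, pow_mul, ← hn, pow_card_eq_one', one_pow]
    clear hn
    induction n with
    | zero => simpa using hbig
    | succ n ih => exact ih (hexp n hbig)
  refine le_antisymm (Lib.PGroupFrattini.frattini_le (p := p) Fact.out _ hD fun x => ?_) ?_
  · refine mem_center_iff.mpr fun v => ?_
    refine ((commutatorElement_eq_one_iff_commute).mp ?_ : Commute (x ^ p) v).symm
    rw [Lib.Thompson.commutator_pow_left (hc _ _ _), hp1]
  · rw [hZD]; exact Lib.PGroupFrattini.commutator_le_frattini hG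

end Cfsg.Agent.S0119
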