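import Cfsg.Statements.S0123
import Cfsg.Agent.Lib.Thompson.PGroup

set_option autoImplicit false
open Cfsg Subgroup
open scoped Pointwise commutatorElement

namespace Cfsg.Agent.S0123

/-- For a p-group of small class relative to p (class ≤ 2 with p odd, or class ≤ 3 with p > 3) whose derived subgroup is generated by elements of order dividing p, the p-th power map is multiplicative. -/
theorem result {R : Type*} [Group R] [Finite R] {p : ℕ} [Fact p.Prime] (hR : IsPGroup p R) (hcl : (p ≠ 2 ∧ ⁅commutator R, (⊤ : Subgroup R)⁆ = ⊥) ∨ (3 < p ∧ ⁅⁅commutator R, (⊤ : Subgroup R)⁆, (⊤ : Subgroup R)⁆ = ⊥)) (hder : commutator R ≤ Subgroup.closure {x : R | x ^ p = 1}) (x y : R) : (x * y) ^ p = x ^ p * y ^ p := by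
  rcases hcl with ⟨hp2, h2⟩ | ⟨h3p, h3⟩
  · have hc := Lib.Thompson.commute_commutator_of_class_two h2
    rw [Lib.Thompson.mul_pow_class_two (Lib.Thompson.mul_comm_eq x y) (hc _ _ x) (hc _ _ y),
      Lib.Thompson.pow_choose_two_eq_one hp2 (Lib.Thompson.pow_eq_one_of_mem_closure hp2 h2
        (hder (commutator_mem_commutator (mem_top y⁻¹) (mem_top x⁻¹)))), mul_one]
  · obtain ⟨c, a, b, hcm, hc, ha, hb, hac, hbc⟩ := Lib.Thompson.exists_class_three_data h3 x y
    exact Lib.Thompson.pow_mul_eq_class_three h3p hc ha hb hac hbc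
      (Lib.Thompson.pow_eq_one_of_mem_closure_class_three h3p h3 (hder hcm))

end Cfsg.Agent.S0123
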