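import Cfsg.Statements.S0125
import Cfsg.Agent.Lib.Transfer.Local

set_option autoImplicit false
open Cfsg Subgroup
open scoped Pointwise commutatorElement

namespace Cfsg.Agent.S0125

/-- The centralizer of a self-centralizing normal subgroup A of a Sylow p-subgroup is the direct product of A with a normal p'-subgroup. -/
theorem result {G : Type*} [Group G] [Finite G] {p : ℕ} [Fact p.Prime] (R : Sylow p G) (A : Subgroup G) (hAR : A ≤ (R : Subgroup G)) (hAn : (R : Subgroup G) ≤ Subgroup.normalizer (A : Set G)) (hC : (R : Subgroup G) ⊓ Subgroup.centralizer (A : Set G) = A) : ∃ H : Subgroup G, H ≤ Subgroup.centralizer (A : Set G) ∧ Nat.Coprime (Nat.card H) p ∧ Subgroup.centralizer (A : Set G) ≤ Subgroup.normalizer (H : Set G) ∧ H ⊓ A = ⊥ ∧ H ⊔ A = Subgroup.centralizer (A : Set G) := by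
  set C := centralizer (A : Set G) with hCdef
  set N := normalizer (A : Set G) with hNdef
  have hCN : C ≤ N := Subgroup.centralizer_le_normalizer _
  have hAC : A ≤ C := hC ▸ inf_le_right
  have hnd : ¬ p ∣ A.relIndex C := by
    have : (C.subgroupOf N).Normal := by rw [← normalizerMonoidHom_ker]; infer_instance
    have := Lib.Transfer.not_dvd_relIndex_inf (R.subtype hAn) (C.subgroupOf N)
    rw [Sylow.coe_subtype] at this
    rwa [show (R : Subgroup G).subgroupOf N ⊓ C.subgroupOf N = ((R : Subgroup G) ⊓ C).subgroupOf N from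
      (comap_inf _ _ _).symm, hC, relIndex_subgroupOf hCN] at this
  obtain ⟨S, hS⟩ := Lib.Transfer.exists_sylow_subgroupOf (R.2.to_le hAR) hAC hnd
  have hSc : normalizer (S : Set C) ≤ centralizer (S : Set C) := by
    intro c _
    rw [mem_centralizer_iff]
    intro s hs
    have hs : s ∈ (S : Subgroup C) := hs
    rw [hS] at hs
    exact Subtype.ext (mem_centralizer_iff.mp c.2 s hs)
  have hcompl := Lib.Transfer.hasNormalPComplement_of_normalizer_le_centralizer S hSc
  have hnd' := Lib.Transfer.hasNormalPComplement_iff.mp hcompl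
  refine ⟨(pResidual p C).map C.subtype, map_subtype_le _, ?_, ?_, ?_, ?_⟩
  · rw [card_map_of_injective C.subtype_injective]
    exact Nat.Coprime.symm ((Fact.out : p.Prime).coprime_iff_not_dvd.mpr hnd')
  · intro c hc
    rw [mem_normalizer_iff_map_conj_eq, map_map]
    have : (MulAut.conj c).toMonoidHom.comp C.subtype =
        C.subtype.comp (MulAut.conj (⟨c, hc⟩ : C)).toMonoidHom := by ext; simp
    show (pResidual p C).map ((MulAut.conj c).toMonoidHom.comp C.subtype) = _
    rw [this, ← map_map]
    congr 1
    exact mem_normalizer_iff_map_conj_eq.mp (normalizer_eq_top (H := pResidual p C) ▸ mem_top _)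
  · have h0 := (Lib.Transfer.hasNormalPComplement_iff_inf S).mp hcompl
    rw [hS] at h0
    have := congrArg (Subgroup.map C.subtype) h0
    rwa [map_inf _ _ _ C.subtype_injective, map_subgroupOf_eq_of_le hAC, Subgroup.map_bot] at this
  · have h0 := congrArg (Subgroup.map C.subtype) (Lib.Transfer.pResidual_sup_sylow S)
    rwa [hS, Subgroup.map_sup, map_subgroupOf_eq_of_le hAC, ← MonoidHom.range_eq_map,
      range_subtype] at h0

end Cfsg.Agent.S0125
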