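import Cfsg.Statements.S0129
import Cfsg.Agent.Lib.Thompson.PGroup

set_option autoImplicit false
open Cfsg Subgroup
open scoped Pointwise commutatorElement

namespace Cfsg.Agent.S0129

universe u

theorem centralizer_index_le (p : ℕ) [hp : Fact p.Prime] (a : ℕ) :
    ∀ (G : Type u) [Group G] [Finite G], IsPGroup p G → ∀ A : Subgroup G, A.Normal → IsMulCommutative A →
      Nat.card A = p ^ a → (centralizer (A : Set G)).index ≤ p ^ a.choose 2 := by
  induction a with
  | zero =>
    intro G _ _ _ A _ _ ha
    rw [pow_zero, Subgroup.card_eq_one] at ha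
    subst ha
    have h : centralizer ((⊥ : Subgroup G) : Set G) = ⊤ := eq_top_iff.mpr fun x _ => by
      simp [mem_centralizer_iff]
    rw [show ((⊥ : Subgroup G) : Set G) = {1} from coe_bot] at h
    simp [h]
  | succ a ih =>
    intro G _ _ hG A hAn hAc ha
    classical
    have hA1 : A ≠ ⊥ := fun h => by
      rw [h, card_bot] at ha
      exact (one_lt_pow₀ hp.out.one_lt a.succ_ne_zero).ne ha
    obtain ⟨z, hzA, hzc, hzo⟩ := Lib.Thompson.exists_central_order_p hG hA1
    have hZn : (zpowers z).Normal := Lib.Thompson.normal_of_le_center (zpowers_le.mpr hzc)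
    let π := QuotientGroup.mk' (zpowers z)
    have hπ : Function.Surjective π := QuotientGroup.mk'_surjective _
    have hcard : Nat.card (A.map π) = p ^ a := by
      have h1 := (A.subgroupOf A).card_mul_index
      have h2 := card_mul_index ((zpowers z).subgroupOf A)
      have h3 := index_ker (π.comp A.subtype)
      rw [← MonoidHom.comap_ker, QuotientGroup.ker_mk', MonoidHom.range_eq_map, ← Subgroup.map_map,
        ← MonoidHom.range_eq_map, range_subtype] at h3
      rw [subgroupOf, h3, ← subgroupOf,
        Nat.card_congr (subgroupOfEquivOfLe (zpowers_le.mpr hzA)).toEquiv, Nat.card_zpowers, hzo, ha,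
        pow_succ'] at h2
      exact Nat.eq_of_mul_eq_mul_left hp.out.pos h2
    have hD := ih (G ⧸ zpowers z) (hG.to_quotient _) (A.map π) (hAn.map π hπ) inferInstance hcard
    obtain ⟨S, hSA, hAS, hS⟩ := Lib.Thompson.exists_generators hG (zpowers_le.mpr hzA)
    rw [Nat.card_zpowers, hzo, ha, ← pow_succ] at hS
    have hSc : S.card ≤ a := Nat.le_of_succ_le_succ ((Nat.pow_le_pow_iff_right hp.out.one_lt).mp hS)
    let D := (centralizer (A.map π : Set (G ⧸ zpowers z))).comap π
    have hDi : D.index ≤ p ^ a.choose 2 := by rw [index_comap_of_surjective _ hπ]; exact hD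
    have hrel : (centralizer (S : Set G)).relIndex D ≤ p ^ a := by
      refine (Lib.Thompson.relIndex_centralizer_le (Z := zpowers z) S ?_).trans ?_
      · intro s hs w hw
        rw [← QuotientGroup.eq_one_iff, ← QuotientGroup.mk'_apply]
        have hcw : Commute (π w) (π s) :=
          (mem_centralizer_iff.mp hw (π s) (mem_map_of_mem π (hSA s hs))).symm
        simp only [map_mul, map_inv]
        show π w * π s * (π w)⁻¹ * (π s)⁻¹ = 1
        rw [hcw.eq]; group
      · rw [Nat.card_zpowers, hzo]; exact Nat.pow_le_pow_right hp.out.pos hSc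
    have hle : centralizer (S : Set G) ⊓ D ≤ centralizer (A : Set G) := by
      intro x hx
      have h1 : closure (S : Set G) ⊔ zpowers z ≤ centralizer ({x} : Set G) :=
        sup_le ((closure_le _).mpr fun s hs => mem_centralizer_singleton_iff.mpr
          (mem_centralizer_iff.mp hx.1 s hs))
          (zpowers_le.mpr (mem_centralizer_singleton_iff.mpr ((mem_center_iff.mp hzc x).symm)))
      exact mem_centralizer_iff.mpr fun u hu => mem_centralizer_singleton_iff.mp (h1 (hAS hu))
    have hmul := relIndex_mul_index (inf_le_right : centralizer (S : Set G) ⊓ D ≤ D)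
    rw [inf_relIndex_right] at hmul
    calc (centralizer (A : Set G)).index ≤ (centralizer (S : Set G) ⊓ D).index :=
          Nat.le_of_dvd (Nat.pos_of_ne_zero index_ne_zero_of_finite) (index_dvd_of_le hle)
      _ ≤ p ^ a * p ^ a.choose 2 := by rw [← hmul]; exact Nat.mul_le_mul hrel hDi
      _ = _ := by rw [← pow_add, Nat.choose_succ_succ', Nat.choose_one_right]

/-- The order of a p-group is bounded by p^(a(a+1)/2) when it has a maximal normal abelian subgroup of order p^a. -/
theorem result {G : Type*} [Group G] [Finite G] {p : ℕ} [Fact p.Prime] (hG : IsPGroup p G) (A : Subgroup G) [A.Normal] (hA : IsMulCommutative A) (hmax : ∀ B : Subgroup G, B.Normal → IsMulCommutative B → A ≤ B → B = A) (a : ℕ) (ha : Nat.card A = p ^ a) : Nat.card G ≤ p ^ (a * (a + 1) / 2) := by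
  have hAC : A ≤ centralizer (A : Set G) := le_centralizer_iff_isMulCommutative.mpr hA
  have hCA : centralizer (A : Set G) = A := by
    refine le_antisymm ?_ hAC
    by_contra hne
    have hX : (centralizer (A : Set G)).map (QuotientGroup.mk' A) ≠ ⊥ := fun e => hne (by
      rw [Subgroup.map_eq_bot_iff, QuotientGroup.ker_mk'] at e; exact e)
    have hXn : ((centralizer (A : Set G)).map (QuotientGroup.mk' A)).Normal :=
      Normal.map inferInstance _ (QuotientGroup.mk'_surjective A)
    obtain ⟨z, hzX, hzc, hzo⟩ := Lib.Thompson.exists_central_order_p (hG.to_quotient A) hX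
    obtain ⟨y, hy, rfl⟩ := hzX
    have hN : ((zpowers (QuotientGroup.mk' A y)).comap (QuotientGroup.mk' A)).Normal :=
      (Lib.Thompson.normal_of_le_center (zpowers_le.mpr hzc)).comap _
    have heq : (zpowers (QuotientGroup.mk' A y)).comap (QuotientGroup.mk' A) = A ⊔ zpowers y := by
      rw [← MonoidHom.map_zpowers, comap_map_eq, QuotientGroup.ker_mk', sup_comm]
    have hc : IsMulCommutative (A ⊔ zpowers y : Subgroup G) := by
      rw [show A ⊔ zpowers y = closure ((A : Set G) ∪ {y}) by
        rw [Subgroup.closure_union, closure_eq, zpowers_eq_closure]]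
      refine isMulCommutative_closure ?_
      rintro u (hu | rfl) v (hv | rfl)
      · exact mem_centralizer_iff.mp (hAC hv) u hu
      · exact mem_centralizer_iff.mp hy u hu
      · exact (mem_centralizer_iff.mp hy v hv).symm
      · rfl
    have hy' : y ∈ A := by
      rw [← hmax _ (heq ▸ hN) hc le_sup_left]
      exact mem_sup_right (mem_zpowers y)
    rw [show QuotientGroup.mk' A y = 1 from (QuotientGroup.eq_one_iff y).mpr hy', orderOf_one] at hzo
    exact (Fact.out (p := p.Prime)).ne_one hzo.symm
  have h := centralizer_index_le p a G hG A inferInstance hA ha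
  rw [hCA] at h
  rw [← card_mul_index A, ha]
  refine (Nat.mul_le_mul_left _ h).trans ?_
  rw [← pow_add]
  refine le_of_eq ?_
  congr 1
  have h2 : (a + 1).choose 2 = a + a.choose 2 := by rw [Nat.choose_succ_succ', Nat.choose_one_right]
  rw [← h2, Nat.choose_two_right, Nat.add_sub_cancel, mul_comm]

end Cfsg.Agent.S0129
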