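import Cfsg.Statements.S0130
import Mathlib.Data.Nat.Multiplicity
import Cfsg.Agent.Lib.Thompson.PGroup

set_option autoImplicit false
open Cfsg Subgroup
open scoped Pointwise commutatorElement

namespace Cfsg.Agent.S0130

/-- If A is maximal among the normal abelian subgroups of exponent dividing p^n of a p-group (p^n ≠ 2), then A contains every element of order dividing p^n in its centralizer. -/
theorem result {G : Type*} [Group G] [Finite G] {p : ℕ} [Fact p.Prime] (hG : IsPGroup p G) (n : ℕ) (hn : p ^ n ≠ 2) (A : Subgroup G) [A.Normal] (hA : IsMulCommutative A) (hAe : ∀ a ∈ A, a ^ p ^ n = 1) (hmax : ∀ B : Subgroup G, B.Normal → IsMulCommutative B → (∀ b ∈ B, b ^ p ^ n = 1) → A ≤ B → B = A) (x : G) (hx : x ∈ Subgroup.centralizer (A : Set G)) (hxn : x ^ p ^ n = 1) : x ∈ A := by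
  classical
  have hp : p.Prime := Fact.out
  by_cases hn0 : n = 0
  · subst hn0
    rw [pow_zero, pow_one] at hxn
    rw [hxn]; exact one_mem A
  obtain ⟨e, he⟩ := Nat.Prime.dvd_choose_pow hp two_ne_zero (Ne.symm hn)
  have hAC : A ≤ centralizer (A : Set G) := le_centralizer_iff_isMulCommutative.mpr hA
  have hCn : (centralizer (A : Set G)).Normal := inferInstance
  let π := QuotientGroup.mk' A
  let M : ℕ → Subgroup G := fun i => (Subgroup.upperCentralSeries (G ⧸ A) i).comap π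
  have hM0 : ∀ u, u ∈ M 0 → u ∈ A := fun u hu => by
    rw [mem_comap, Subgroup.upperCentralSeries_zero, mem_bot] at hu
    exact (QuotientGroup.eq_one_iff u).mp hu
  have hMsucc : ∀ i u g, u ∈ M (i + 1) → ⁅u, g⁆ ∈ M i := fun i u g hu => by
    rw [mem_comap] at hu ⊢
    rw [map_commutatorElement]
    exact Subgroup.mem_upperCentralSeries_succ_iff.mp hu _
  have : Group.IsNilpotent (G ⧸ A) := (hG.to_quotient A).isNilpotent
  by_contra hxA
  have hex : ∃ i, ∃ y ∈ centralizer (A : Set G), y ^ p ^ n = 1 ∧ y ∉ A ∧ y ∈ M i :=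
    ⟨Group.nilpotencyClass (G ⧸ A), x, hx, hxn, hxA, by
      rw [mem_comap, Subgroup.upperCentralSeries_nilpotencyClass]; exact mem_top _⟩
  obtain ⟨i, hi⟩ : ∃ i, i = Nat.find hex := ⟨_, rfl⟩
  obtain ⟨y₀, hy₀C, hy₀n, hy₀A, hy₀M⟩ := Nat.find_spec hex
  rw [← hi] at hy₀M
  obtain ⟨y, hyC, hyn, hyA, hyM, hyp⟩ :
      ∃ y ∈ centralizer (A : Set G), y ^ p ^ n = 1 ∧ y ∉ A ∧ y ∈ M i ∧ y ^ p ∈ A := by
    obtain ⟨m, hm⟩ := hG y₀
    have hex2 : ∃ k, y₀ ^ p ^ k ∈ A := ⟨m, hm ▸ one_mem A⟩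
    obtain ⟨k, hk⟩ : ∃ k, k + 1 = Nat.find hex2 := by
      refine ⟨Nat.find hex2 - 1, Nat.sub_add_cancel (Nat.one_le_iff_ne_zero.mpr fun h => hy₀A ?_)⟩
      have := Nat.find_spec hex2
      rw [h] at this
      simpa using this
    refine ⟨y₀ ^ p ^ k, pow_mem hy₀C _, by rw [← pow_mul, mul_comm, pow_mul, hy₀n, one_pow],
      Nat.find_min hex2 (hk ▸ k.lt_succ_self), pow_mem hy₀M _, ?_⟩
    rw [← pow_mul, ← pow_succ, hk]
    exact Nat.find_spec hex2
  have hi0 : i ≠ 0 := fun h => hyA (hM0 y (h ▸ hyM))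
  have hmin : ∀ j < i, ∀ u ∈ centralizer (A : Set G), u ^ p ^ n = 1 → u ∈ M j → u ∈ A :=
    fun j hj u hu hun hum => by_contra fun huA => Nat.find_min hex (hi ▸ hj) ⟨u, hu, hun, huA, hum⟩
  have key : ∀ g : G, ⁅y, ⁅y, g⁆⁆ ∈ A → ⁅y, g⁆ ^ p ^ n = 1 := by
    intro g hd
    let y' := g * y⁻¹ * g⁻¹
    have hh : ⁅y, g⁆ = y * y' := by simp only [commutatorElement_def, y']; group
    have hy'C : y' ∈ centralizer (A : Set G) := hCn.conj_mem _ (inv_mem hyC) g
    have hy'n : y' ^ p ^ n = 1 := by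
      rw [conj_pow, inv_pow, hyn]; group
    rw [hh] at hd ⊢
    have hd' : ⁅y, y'⁆ ∈ A := by
      have h1 : ⁅y, y * y'⁆ = y * ⁅y, y'⁆ * y⁻¹ := by simp only [commutatorElement_def]; group
      rw [h1] at hd
      simpa [mul_assoc] using (inferInstance : A.Normal).conj_mem _ hd y⁻¹
    have hcy : Commute ⁅y, y'⁆ y := mem_centralizer_iff.mp hyC _ hd'
    have hcy' : Commute ⁅y, y'⁆ y' := mem_centralizer_iff.mp hy'C _ hd'
    have hdp : ⁅y, y'⁆ ^ p = 1 := by
      rw [← Lib.Thompson.commutator_pow_left hcy, commutatorElement_eq_one_iff_commute]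
      exact mem_centralizer_iff.mp hy'C _ hyp
    have hcomm : y' * y = y * y' * ⁅y, y'⁆⁻¹ := by
      rw [show y * y' * ⁅y, y'⁆⁻¹ = ⁅y, y'⁆⁻¹ * (y * y') from
        ((hcy.mul_right hcy').inv_left.eq).symm, commutatorElement_def]
      group
    rw [Lib.Thompson.mul_pow_class_two hcomm hcy.inv_left hcy'.inv_left, hyn, hy'n, he, pow_mul,
      inv_pow, hdp, inv_one, one_pow, one_mul, one_mul]
  have hC1 : ∀ g, ⁅y, g⁆ ∈ centralizer (A : Set G) := fun g => by
    rw [commutatorElement_def, mul_assoc, mul_assoc]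
    exact mul_mem hyC (by rw [← mul_assoc]; exact hCn.conj_mem _ (inv_mem hyC) g)
  have hP : ∀ j < i, ∀ g ∈ centralizer (A : Set G), g ∈ M j → ⁅y, g⁆ ∈ A := by
    intro j
    induction j with
    | zero =>
      intro _ g hg hgM
      rw [commutatorElement_eq_one_iff_commute.mpr (mem_centralizer_iff.mp hyC g (hM0 g hgM)).symm]
      exact one_mem A
    | succ j ih =>
      intro hj g hg hgM
      have hhM : ⁅y, g⁆ ∈ M j := by
        rw [← commutatorElement_inv g y]
        exact inv_mem (hMsucc j g y hgM)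
      exact hmin j (Nat.lt_of_succ_lt hj) _ (hC1 g)
        (key g (ih (Nat.lt_of_succ_lt hj) _ (hC1 g) hhM)) hhM
  obtain ⟨i', rfl⟩ := Nat.exists_eq_succ_of_ne_zero hi0
  have hfinal : ∀ g : G, ⁅y, g⁆ ∈ A := fun g =>
    hmin i' i'.lt_succ_self _ (hC1 g)
      (key g (hP i' i'.lt_succ_self _ (hC1 g) (hMsucc i' y g hyM))) (hMsucc i' y g hyM)
  have hB : A ⊔ zpowers y = closure ((A : Set G) ∪ {y}) := by
    rw [Subgroup.closure_union, closure_eq, zpowers_eq_closure]
  have hBc : IsMulCommutative (A ⊔ zpowers y : Subgroup G) := by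
    rw [hB]
    refine isMulCommutative_closure ?_
    rintro u (hu | rfl) v (hv | rfl)
    · exact mem_centralizer_iff.mp (hAC hv) u hu
    · exact mem_centralizer_iff.mp hyC u hu
    · exact (mem_centralizer_iff.mp hyC v hv).symm
    · rfl
  have hcen : zpowers (π y) ≤ center (G ⧸ A) := zpowers_le.mpr (mem_center_iff.mpr fun q => by
    obtain ⟨g, rfl⟩ := QuotientGroup.mk'_surjective A q
    refine ((commutatorElement_eq_one_iff_commute.mp ?_ : Commute (π y) (π g))).symm
    rw [← map_commutatorElement]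
    exact (QuotientGroup.eq_one_iff _).mpr (hfinal g))
  have hBn : (A ⊔ zpowers y).Normal := by
    have := (Lib.Thompson.normal_of_le_center hcen).comap π
    rwa [← MonoidHom.map_zpowers, comap_map_eq, QuotientGroup.ker_mk', sup_comm] at this
  refine hyA ?_
  rw [← hmax _ hBn hBc (fun b hb => ?_) le_sup_left]
  · exact mem_sup_right (mem_zpowers y)
  · obtain ⟨u, hu, w, ⟨k, rfl⟩, rfl⟩ := mem_sup_of_normal_left.mp hb
    rw [Commute.mul_pow (show Commute u (y ^ k) from
      Commute.zpow_right (mem_centralizer_iff.mp hyC u hu) k), hAe u hu, one_mul]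
    show (y ^ k) ^ p ^ n = 1
    rw [← zpow_natCast, zpow_comm, zpow_natCast, hyn, one_zpow]

end Cfsg.Agent.S0130
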