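import Cfsg.Statements.S0131
import Cfsg.Agent.Lib.Transfer.Hall

set_option autoImplicit false
open Cfsg Subgroup
open scoped Pointwise commutatorElement

namespace Cfsg.Agent.S0131

/-- P/P' has a normal complement in G exactly when the focal subgroup G' ∩ P is as small as possible, namely P'. -/
theorem result {G : Type*} [Group G] [Finite G] {p : ℕ} [Fact p.Prime] (P : Sylow p G) : (∃ N : Subgroup G, N.Normal ∧ N ⊓ (P : Subgroup G) = ⁅(P : Subgroup G), (P : Subgroup G)⁆ ∧ N ⊔ (P : Subgroup G) = ⊤) ↔ commutator G ⊓ (P : Subgroup G) = ⁅(P : Subgroup G), (P : Subgroup G)⁆ := by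
  have hcop : Nat.Coprime (P : Subgroup G).index (⁅(P : Subgroup G), (P : Subgroup G)⁆.relIndex (P : Subgroup G)) :=
    (P.card_coprime_index.symm).coprime_dvd_right (Lib.Transfer.relIndex_commutator_dvd_card _)
  obtain ⟨h1, h2, h3⟩ := Lib.Transfer.focal_theorem (P : Subgroup G) hcop
  constructor
  · rintro ⟨N, hN, hNP, hsup⟩
    refine le_antisymm (hNP ▸ ?_) (le_inf (commutator_mono le_top le_top) (commutator_le_self _))
    refine inf_le_inf_right _ ?_
    rw [← Normal.quotient_commutative_iff_commutator_le]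
    refine ⟨⟨?_⟩⟩
    have hrep : ∀ q : G ⧸ N, ∃ a ∈ (P : Subgroup G), q = (a : G ⧸ N) := by
      rintro ⟨g⟩
      have hg : g ∈ N ⊔ (P : Subgroup G) := hsup ▸ mem_top g
      obtain ⟨n, hn, a, ha, rfl⟩ := mem_sup_of_normal_left.mp hg
      refine ⟨a, ha, ?_⟩
      show ((n * a : G) : G ⧸ N) = a
      rw [QuotientGroup.mk_mul, (QuotientGroup.eq_one_iff _).mpr hn, one_mul]
    intro x y
    obtain ⟨a, ha, rfl⟩ := hrep x
    obtain ⟨b, hb, rfl⟩ := hrep y
    rw [← commutatorElement_eq_one_iff_mul_comm]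
    show ((⁅a, b⁆ : G) : G ⧸ N) = 1
    rw [QuotientGroup.eq_one_iff]
    exact (hNP.ge (commutator_mem_commutator ha hb)).1
  · intro h
    exact ⟨_, inferInstance, h2.trans (h1.trans h), h3⟩

end Cfsg.Agent.S0131
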