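import Cfsg.Statements.S0145
import Cfsg.Agent.Lib.Char.Orthogonality

set_option autoImplicit false
open scoped ComplexConjugate
open Cfsg

namespace Cfsg.Agent.S0145

/-- Column orthogonality: the sum over the irreducible characters χ of χ g * conj (χ h) is the order of the centralizer of g if g and h are conjugate, and is 0 otherwise. -/
theorem result {G : Type*} [Group G] [Finite G] (g h : G) : (IsConj g h → ∑ᶠ χ : Cfsg.IrrCharacter G, (χ : G → ℂ) g * conj ((χ : G → ℂ) h) = (Nat.card (Subgroup.centralizer ({g} : Set G)) : ℂ)) ∧ (¬ IsConj g h → ∑ᶠ χ : Cfsg.IrrCharacter G, (χ : G → ℂ) g * conj ((χ : G → ℂ) h) = 0) := by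
  classical
  have := Fintype.ofFinite G
  rw [finsum_eq_sum_of_fintype, Lib.Char.sum_irr_mul_conj]
  refine ⟨fun hc => ?_, fun hc => by rw [if_neg hc]⟩
  rw [if_pos hc]
  have h1 : (Finset.univ.filter fun x => IsConj x h).card = Nat.card ↑(MulAction.orbit (ConjAct G) g) := by
    rw [← Fintype.card_subtype, ← Nat.card_eq_fintype_card]
    refine Nat.card_congr (Equiv.subtypeEquivRight fun x => ?_)
    rw [ConjAct.mem_orbit_conjAct]
    exact ⟨fun hx => hx.trans hc.symm, fun hx => hx.trans hc⟩
  have h2 : Nat.card ↑(MulAction.orbit (ConjAct G) g) *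
      Nat.card (Subgroup.centralizer ({g} : Set G)) = Nat.card G := by
    rw [Nat.card_coe_set_eq,
      ← MulAction.index_stabilizer (ConjAct G) g, ConjAct.stabilizer_eq_centralizer]
    exact Subgroup.index_mul_card _
  have h3 : (Nat.card G : ℂ) ≠ 0 := Lib.Char.card_ne_zero_complex G
  rw [h1, ← h2] at *
  push_cast at h3 ⊢
  field_simp [left_ne_zero_of_mul h3]
  exact div_self (left_ne_zero_of_mul h3)

end Cfsg.Agent.S0145
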