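import Cfsg.Statements.S0147
import Cfsg.Agent.Lib.Char.Induced

set_option autoImplicit false
open Cfsg

namespace Cfsg.Agent.S0147

/-- Transitivity of induction: inducing from H to K and then from K to G is the same as inducing from H to G. -/
theorem result {G : Type*} [Group G] [Fintype G] (H K : Subgroup G) [Fintype K] (hHK : H ≤ K) (θ : H → ℂ) : Cfsg.indFun K (Cfsg.indFun (H.subgroupOf K) (fun x => θ ⟨(x : K), Subgroup.mem_subgroupOf.mp x.2⟩)) = Cfsg.indFun H θ := by
  have := Fintype.ofFinite (H.subgroupOf K)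
  rw [Lib.Char.indFun_trans]
  have h : (H.subgroupOf K).map K.subtype = H := by
    rw [Subgroup.subgroupOf_map_subtype, inf_eq_left.mpr hHK]
  have key : ∀ (L : Subgroup G) (hL : L = H) (F : L → ℂ),
      (∀ x : L, F x = θ ⟨x, hL ▸ x.2⟩) → Cfsg.indFun L F = Cfsg.indFun H θ := by
    rintro L rfl F hF
    rw [show F = θ from funext hF]
  refine key _ h _ fun x => congrArg θ (Subtype.ext ?_)
  obtain ⟨y, rfl⟩ :=
    ((H.subgroupOf K).equivMapOfInjective K.subtype K.subtype_injective).surjective x
  rw [MulEquiv.symm_apply_apply]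
  rfl

end Cfsg.Agent.S0147
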