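import Cfsg.Statements.S0159
import Cfsg.Agent.Lib.Char.Orthogonality

set_option autoImplicit false
open Cfsg

namespace Cfsg.Agent.S0159

/-- The number of solutions of s * s = 1 in a finite group equals the sum, over the irreducible characters χ, of (the average over s of χ (s * s)) times χ 1. -/
theorem result {G : Type*} [Group G] [Fintype G] : (Nat.card {s : G // s * s = 1} : ℂ) = ∑ᶠ χ : Cfsg.IrrCharacter G, ((Nat.card G : ℂ)⁻¹ * ∑ s : G, (χ : G → ℂ) (s * s)) * (χ : G → ℂ) 1 := by
  classical
  rw [finsum_eq_sum_of_fintype]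
  simp only [Finset.sum_mul, mul_assoc, ← Finset.mul_sum]
  rw [Finset.sum_comm]
  have h : ∀ s : G, ∑ χ : Cfsg.IrrCharacter G, (χ : G → ℂ) (s * s) * (χ : G → ℂ) 1 =
      if s * s = 1 then (Nat.card G : ℂ) else 0 := fun s => by
    rw [← Lib.Char.sum_degree_mul (s * s)]
    simp only [mul_comm]
  simp only [h, Finset.sum_ite, Finset.sum_const_zero, add_zero, Finset.sum_const, nsmul_eq_mul]
  rw [mul_left_comm, inv_mul_cancel₀ (Lib.Char.card_ne_zero_complex G), mul_one,
    Nat.card_eq_fintype_card, Fintype.card_subtype]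

end Cfsg.Agent.S0159
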