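import Cfsg.Statements.S0162
import Cfsg.Agent.Lib.Char.BrauerPerm
import Cfsg.Agent.Lib.Char.Degree
import Cfsg.Agent.Lib.Char.Linear

set_option autoImplicit false
open Cfsg

namespace Cfsg.Agent.S0162

/-- If a finite group has odd order, its order is congruent to its number of conjugacy classes modulo 16. -/
theorem result {G : Type*} [Group G] [Finite G] (hodd : Odd (Nat.card G)) : Nat.card G ≡ Nat.card (ConjClasses G) [MOD 16] := by
  classical
  rw [← Lib.Char.card_irr_eq_card_conjClasses, ← Lib.Char.sum_charDegree_sq,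
    ← ZMod.natCast_eq_natCast_iff, Nat.card_eq_fintype_card, ← Finset.card_univ,
    Finset.card_eq_sum_ones, Nat.cast_sum, Nat.cast_sum, ← sub_eq_zero, ← Finset.sum_sub_distrib]
  let c : Cfsg.IrrCharacter G → Cfsg.IrrCharacter G := fun χ =>
    ⟨_, Lib.Char.isIrrCharacter_conj χ.2⟩
  have hcdeg : ∀ χ : Cfsg.IrrCharacter G,
      Cfsg.charDegree (c χ : G → ℂ) = Cfsg.charDegree (χ : G → ℂ) := fun χ => by
    refine Lib.Char.charDegree_eq_of_apply_one ?_
    show (starRingEnd ℂ) ((χ : G → ℂ) 1) = _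
    rw [Lib.Char.apply_one_eq_charDegree (Lib.Char.isCharacter_of_isIrr χ.2), map_natCast]
  have hdvd : ∀ χ : Cfsg.IrrCharacter G, ∃ m : ℕ, Cfsg.charDegree (χ : G → ℂ) ^ 2 = 8 * m + 1 := by
    intro χ
    obtain ⟨r, hr⟩ := Odd.of_dvd_nat hodd (Lib.Char.charDegree_dvd_card χ.2)
    obtain ⟨s, hs⟩ := Nat.even_mul_succ_self r
    exact ⟨s, by rw [hr]; nlinarith [hs]⟩
  refine Finset.sum_involution (fun χ _ => c χ) (fun χ _ => ?_) (fun χ _ hne => ?_)
    (fun _ _ => Finset.mem_univ _) (fun χ _ => Subtype.ext (funext fun g => Complex.conj_conj _))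
  · obtain ⟨m, hm⟩ := hdvd χ
    rw [hcdeg, hm]
    push_cast
    have h16 : (16 : ZMod 16) = 0 := rfl
    linear_combination (m : ZMod 16) * h16
  · intro he
    apply hne
    have hone := Lib.Char.eq_one_of_real hodd χ
      (fun g => Complex.conj_eq_iff_im.mp (congrFun (congrArg Subtype.val he) g))
    rw [hone, Lib.Char.charDegree_one]
    simp

end Cfsg.Agent.S0162
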