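import Cfsg.Statements.S0166
import Cfsg.Agent.S0163
import Cfsg.Agent.Lib.Char.Equiv
import Cfsg.Agent.Lib.Char.Induced
import Mathlib

set_option autoImplicit false
open Cfsg

namespace Cfsg.Agent.S0166

open Module Cfsg.Agent.Lib.Char

universe u v

variable {G : Type u} [Group G] {K : IntermediateField ℚ ℂ}

/-- `χ` is the character of a representation over `K`. -/
def Realized (K : IntermediateField ℚ ℂ) (χ : G → ℂ) : Prop :=
  ∃ (m : ℕ) (ρ : Representation K G (Fin m → K)), ∀ g, ((ρ.character g : K) : ℂ) = χ g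

theorem Realized.of_rep {V : Type v} [AddCommGroup V] [Module K V] [FiniteDimensional K V]
    (ρ : Representation K G V) : Realized K (fun g => ((ρ.character g : K) : ℂ)) := by
  let e := (Module.finBasis K V).equivFun
  refine ⟨finrank K V,
    { toFun := fun g => e.conj (ρ g)
      map_one' := by ext; simp [LinearEquiv.conj_apply]
      map_mul' := fun a b => by ext; simp [LinearEquiv.conj_apply] }, fun g => ?_⟩
  exact congrArg Subtype.val (LinearMap.trace_conj' (ρ g) e)

theorem Realized.add {χ ψ : G → ℂ} (h₁ : Realized K χ) (h₂ : Realized K ψ) : Realized K (χ + ψ) := by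
  obtain ⟨m, ρ, hρ⟩ := h₁
  obtain ⟨n, σ, hσ⟩ := h₂
  have h := Realized.of_rep (ρ.prod σ)
  convert h using 2 with g
  rw [show (ρ.prod σ).character g = ρ.character g + σ.character g from LinearMap.trace_prodMap' (ρ g) (σ g)]
  simp [hρ, hσ]

theorem Realized.zero : Realized K (0 : G → ℂ) :=
  ⟨0, 1, fun g => by simp [Representation.character, Subsingleton.elim (LinearMap.id : (Fin 0 → K) →ₗ[K] _) 0]⟩

theorem Realized.exists_rep {χ : G → ℂ} (h : Realized K χ) :
    ∃ (m : ℕ) (σ : Representation ℂ G (Fin m → ℂ)), σ.character = χ ∧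
      ∀ g i j, LinearMap.toMatrix' (σ g) i j ∈ K := by
  obtain ⟨m, ρ, hρ⟩ := h
  let M : G →* Matrix (Fin m) (Fin m) K :=
    { toFun := fun g => LinearMap.toMatrix' (ρ g)
      map_one' := by rw [map_one]; exact LinearMap.toMatrix'_id
      map_mul' := fun a b => by rw [map_mul]; exact LinearMap.toMatrix'_comp _ _ }
  let σ : Representation ℂ G (Fin m → ℂ) :=
    { toFun := fun g => Matrix.toLin' ((M g).map (algebraMap K ℂ))
      map_one' := by
        rw [map_one, Matrix.map_one _ (map_zero _) (map_one _), Matrix.toLin'_one]; rfl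
      map_mul' := fun a b => by
        rw [map_mul, Matrix.map_mul, Matrix.toLin'_mul]; rfl }
  refine ⟨m, σ, funext fun g => ?_, fun g i j => ?_⟩
  · have h1 : σ.character g = Matrix.trace ((M g).map (algebraMap K ℂ)) := by
      show LinearMap.trace ℂ _ (Matrix.toLin' _) = _
      rw [LinearMap.trace_eq_matrix_trace ℂ (Pi.basisFun ℂ (Fin m))]
      simp [LinearMap.toMatrix_eq_toMatrix']
    have h2 : ρ.character g = Matrix.trace (M g) := by
      show LinearMap.trace K _ (ρ g) = _
      rw [LinearMap.trace_eq_matrix_trace K (Pi.basisFun K (Fin m))]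
      simp [LinearMap.toMatrix_eq_toMatrix', M]
    rw [h1, ← hρ, h2]
    simp [Matrix.trace]
  · show LinearMap.toMatrix' (Matrix.toLin' _) i j ∈ K
    rw [LinearMap.toMatrix'_toLin']
    exact SetLike.coe_mem _

theorem Realized.isCharacter {χ : G → ℂ} (h : Realized K χ) : IsCharacter G χ := by
  obtain ⟨m, σ, hσ, -⟩ := h.exists_rep
  exact ⟨m, σ, hσ⟩

/-- A subrepresentation splits the character. -/
theorem char_split [Finite G] {V : Type v} [AddCommGroup V] [Module K V] [FiniteDimensional K V]
    (ρ : Representation K G V) (U : Subrepresentation ρ) :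
    ∃ U' : Subrepresentation ρ, IsCompl U.toSubmodule U'.toSubmodule ∧
      ∀ g, ρ.character g = U.toRepresentation.character g + U'.toRepresentation.character g := by
  haveI : NeZero (Nat.card G : K) := ⟨Nat.cast_ne_zero.mpr Nat.card_pos.ne'⟩
  haveI : Representation.IsSemisimpleRepresentation ρ :=
    ρ.isSemisimpleRepresentation_iff_isSemisimpleModule_asModule.mpr inferInstance
  obtain ⟨U', hU'⟩ := ComplementedLattice.exists_isCompl U
  have h : IsCompl U.toSubmodule U'.toSubmodule :=
    IsCompl.of_eq (congrArg Subrepresentation.toSubmodule hU'.inf_eq_bot)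
      (congrArg Subrepresentation.toSubmodule hU'.sup_eq_top)
  refine ⟨U', h, fun g => ?_⟩
  show LinearMap.trace K V (ρ g) = LinearMap.trace K _ (U.toRepresentation g) +
    LinearMap.trace K _ (U'.toRepresentation g)
  rw [← LinearMap.trace_prodMap', ← LinearMap.trace_conj' _ (Submodule.prodEquivOfIsCompl _ _ h)]
  congr 1
  ext x
  obtain ⟨y, rfl⟩ := (Submodule.prodEquivOfIsCompl _ _ h).surjective x
  simp only [LinearEquiv.conj_apply, LinearMap.comp_apply, LinearEquiv.coe_coe, LinearEquiv.symm_apply_apply]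
  simp [Subrepresentation.toRepresentation]

/-- A character which is a difference of two characters over `K` is realized over `K`. -/
theorem realized_of_diff [Finite G] : ∀ (m : ℕ) (χ P : G → ℂ) (Q : Representation K G (Fin m → K)),
    IsCharacter G χ → Realized K P → (∀ g, χ g = P g - ((Q.character g : K) : ℂ)) → Realized K χ := by
  classical
  haveI := Fintype.ofFinite G
  intro m
  induction m using Nat.strong_induction_on with
  | _ m ih =>
  intro χ P Q hχ hP heq
  by_cases hm : m = 0
  · subst hm
    convert hP using 1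
    funext g
    rw [heq g]
    simp [Representation.character, Subsingleton.elim (Q g) 0]
  obtain ⟨k, σ, hσ⟩ := hP
  haveI : Invertible (Nat.card G : K) := invertibleOfNonzero (Nat.cast_ne_zero.mpr Nat.card_pos.ne')
  set q : G → ℂ := fun g => ((Q.character g : K) : ℂ) with hq
  have hqc : IsCharacter G q := (Realized.of_rep Q).isCharacter
  have hinner : ∀ {d : ℕ} (R : Representation K G (Fin d → K)),
      classInner (fun g => ((R.character g : K) : ℂ)) q = (finrank K (Q.IntertwiningMap R) : ℂ) := by
    intro d R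
    have h := congrArg (fun x : K => (x : ℂ)) (Representation.card_inv_mul_sum_char_mul_char_eq_finrank Q R)
    simp only [IntermediateField.coe_mul, IntermediateField.coe_inv] at h
    push_cast at h
    rw [← h, classInner]
    congr 1
    refine Finset.sum_congr rfl fun g _ => ?_
    congr 1
    exact (char_inv hqc g).symm
  have hpos : finrank K (Q.IntertwiningMap σ) ≠ 0 := by
    intro h0
    have h1 : classInner P q = classInner χ q + classInner q q := by
      rw [← classInner_add_left]
      congr 1
      funext g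
      simp [heq g, hq]
    obtain ⟨a, ha⟩ := classInner_natCast hχ hqc
    have hP' : (fun g => ((σ.character g : K) : ℂ)) = P := funext hσ
    rw [ha, ← hP', hinner σ, hinner Q, h0] at h1
    have h2 : a + finrank K (Q.IntertwiningMap Q) = 0 := by exact_mod_cast h1.symm
    haveI : Nonempty (Fin m) := ⟨⟨0, Nat.pos_of_ne_zero hm⟩⟩
    have hne : (Representation.IntertwiningMap.id Q) ≠ 0 := by
      intro h
      have := congrArg (fun f : Q.IntertwiningMap Q => f.toLinearMap (fun _ => 1) ⟨0, Nat.pos_of_ne_zero hm⟩) h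
      simp at this
    haveI : Nontrivial (Q.IntertwiningMap Q) := ⟨⟨_, _, hne⟩⟩
    have := Module.finrank_pos (R := K) (M := Q.IntertwiningMap Q)
    omega
  haveI := Module.nontrivial_of_finrank_pos (Nat.pos_of_ne_zero hpos)
  obtain ⟨f, hf⟩ := exists_ne (0 : Q.IntertwiningMap σ)
  obtain ⟨C, hC, hCchar⟩ := char_split Q f.ker
  obtain ⟨D, -, hDchar⟩ := char_split σ f.range
  have hbij : Function.Bijective ((f.toLinearMap.rangeRestrict).comp C.toSubmodule.subtype) := by
    refine ⟨(injective_iff_map_eq_zero _).mpr fun x hx => ?_, fun y => ?_⟩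
    · have hk : (x : Fin m → K) ∈ f.ker.toSubmodule := congrArg Subtype.val hx
      exact Subtype.ext (Submodule.disjoint_def.mp hC.disjoint _ hk x.2)
    · obtain ⟨y, z, rfl⟩ := y
      have hz : z ∈ f.ker.toSubmodule ⊔ C.toSubmodule := by rw [hC.sup_eq_top]; trivial
      obtain ⟨a, ha, b, hb, rfl⟩ := Submodule.mem_sup.mp hz
      refine ⟨⟨b, hb⟩, Subtype.ext ?_⟩
      have ha' : f.toLinearMap a = 0 := ha
      show f.toLinearMap b = f.toLinearMap (a + b)
      rw [map_add, ha', zero_add]
  have hCR : ∀ g, C.toRepresentation.character g = f.range.toRepresentation.character g := by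
    intro g
    let e := LinearEquiv.ofBijective _ hbij
    show LinearMap.trace K _ (C.toRepresentation g) = LinearMap.trace K _ (f.range.toRepresentation g)
    rw [← LinearMap.trace_conj' (C.toRepresentation g) e]
    congr 1
    refine LinearMap.ext fun y => ?_
    obtain ⟨x, rfl⟩ := e.surjective y
    simp only [LinearEquiv.conj_apply, LinearMap.comp_apply, LinearEquiv.coe_coe, LinearEquiv.symm_apply_apply]
    refine Subtype.ext ?_
    exact (LinearMap.congr_fun (f.isIntertwining' g) x.1)
  obtain ⟨d, Q', hQ'⟩ := Realized.of_rep f.ker.toRepresentation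
  have hlt : d < m := by
    have hd : (d : ℂ) = (finrank K f.ker.toSubmodule : ℂ) := by
      have := hQ' 1
      simpa using this
    have hd' : d = finrank K f.ker.toSubmodule := by exact_mod_cast hd
    rw [hd']
    have : f.ker.toSubmodule ≠ ⊤ := fun h => hf (Representation.IntertwiningMap.ext
      (LinearMap.ker_eq_top.mp h))
    simpa using Submodule.finrank_lt this
  refine ih d hlt χ _ Q' hχ (Realized.of_rep D.toRepresentation) fun g => ?_
  rw [heq g, ← hσ g, hQ' g, hCchar g, hDchar g, hCR g]
  push_cast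
  ring

/-- Linear characters of subgroups induce to characters realized over `K`. -/
theorem Realized.indFun_linear [Fintype G] (E : Subgroup G) (l : E →* ℂˣ) (hl : ∀ e, (l e : ℂ) ∈ K) :
    Realized K (indFun E (fun e => (l e : ℂ))) := by
  classical
  let F : G → K := fun x => if h : x ∈ E then ⟨(l ⟨x, h⟩ : ℂ), hl _⟩ else 0
  have hFmul : ∀ x y, y ∈ E → F (x * y) = F x * F y := by
    intro x y hy
    by_cases hx : x ∈ E
    · refine Subtype.ext ?_
      simp only [F, dif_pos hx, dif_pos hy, dif_pos (E.mul_mem hx hy)]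
      rw [show (⟨x * y, E.mul_mem hx hy⟩ : E) = ⟨x, hx⟩ * ⟨y, hy⟩ from rfl, map_mul]
      rfl
    · have : x * y ∉ E := fun h => hx ((E.mul_mem_cancel_right hy).mp h)
      simp [F, hx, this]
  let M : G →* Matrix (G ⧸ E) (G ⧸ E) K :=
    { toFun := fun g => Matrix.of fun i j : G ⧸ E => F (i.out⁻¹ * g * j.out)
      map_one' := by
        ext i j
        by_cases h : i = j
        · subst h
          simp only [Matrix.of_apply, mul_one, inv_mul_cancel, F, dif_pos E.one_mem, Matrix.one_apply_eq]
          rw [show (⟨1, E.one_mem⟩ : E) = 1 from rfl, map_one]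
          rfl
        · have : i.out⁻¹ * j.out ∉ E := fun hm => h (by
            rw [← QuotientGroup.out_eq' i, ← QuotientGroup.out_eq' j, QuotientGroup.eq]; exact hm)
          simp [F, h, this]
      map_mul' := fun a b => by
        refine Matrix.ext fun i k => ?_
        rw [Matrix.mul_apply, Finset.sum_eq_single (((b * k.out : G)) : G ⧸ E)]
        · set j : G ⧸ E := ((b * k.out : G) : G ⧸ E)
          have hj : j.out⁻¹ * (b * k.out) ∈ E := QuotientGroup.eq.mp (QuotientGroup.out_eq' j)
          show F _ = F _ * F _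
          rw [mul_assoc j.out⁻¹, ← hFmul _ _ hj]
          congr 1
          group
        · intro j _ hne
          have : j.out⁻¹ * b * k.out ∉ E := fun hm => hne (by
            rw [← QuotientGroup.out_eq' j, QuotientGroup.eq, ← mul_assoc]; exact hm)
          show F _ * F _ = 0
          simp [F, this]
        · simp }
  let ρ : Representation K G (G ⧸ E → K) :=
    { toFun := fun g => Matrix.toLin' (M g)
      map_one' := by rw [map_one, Matrix.toLin'_one]; rfl
      map_mul' := fun a b => by rw [map_mul, Matrix.toLin'_mul]; rfl }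
  convert Realized.of_rep ρ using 1
  funext g
  have h1 : ρ.character g = ∑ i : G ⧸ E, F (i.out⁻¹ * g * i.out) := by
    show LinearMap.trace K _ (Matrix.toLin' (M g)) = _
    rw [LinearMap.trace_eq_matrix_trace K (Pi.basisFun K (G ⧸ E))]
    simp [LinearMap.toMatrix_eq_toMatrix', Matrix.trace, M]
  have hcl : IsClassFunction E (fun e => (l e : ℂ)) := fun b a => by
    show (l (a * b * a⁻¹) : ℂ) = l b
    rw [map_mul, map_mul, map_inv, mul_comm (l a) (l b), mul_inv_cancel_right]
  have hFe : ∀ x, (F x : ℂ) = extendByZero E (fun e => (l e : ℂ)) x := by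
    intro x
    by_cases h : x ∈ E
    · rw [extendByZero_mem E _ h]; simp [F, h]
    · rw [extendByZero_not_mem E _ h]; simp [F, h]
  let Φ : (G ⧸ E) × E ≃ G :=
    { toFun := fun qh => qh.1.out * (qh.2 : G)
      invFun := fun x => ((x : G ⧸ E), ⟨(x : G ⧸ E).out⁻¹ * x, QuotientGroup.eq.mp (QuotientGroup.out_eq' _)⟩)
      left_inv := fun qh => by
        have hq : ((qh.1.out * (qh.2 : G) : G) : G ⧸ E) = qh.1 := by
          conv_rhs => rw [← QuotientGroup.out_eq' qh.1]
          exact (QuotientGroup.eq.mpr (by simp)).symm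
        refine Prod.ext hq (Subtype.ext ?_)
        simp only [hq, inv_mul_cancel_left]
      right_inv := fun x => mul_inv_cancel_left _ _ }
  rw [h1, indFun, ← Equiv.sum_comp Φ, Fintype.sum_prod_type]
  have hterm : ∀ (i : G ⧸ E) (h : E), extendByZero E (fun e => (l e : ℂ))
      ((Φ (i, h))⁻¹ * g * Φ (i, h)) = (F (i.out⁻¹ * g * i.out) : ℂ) := by
    intro i h
    rw [hFe, ← extendByZero_conj hcl (h := (h : G)⁻¹) (E.inv_mem h.2) (i.out⁻¹ * g * i.out)]
    congr 1
    show (i.out * (h : G))⁻¹ * g * (i.out * (h : G)) = _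
    group
  simp only [hterm, Finset.sum_const, Finset.card_univ, nsmul_eq_mul, ← Nat.card_eq_fintype_card]
  rw [← Finset.mul_sum, ← mul_assoc, inv_mul_cancel₀ (Nat.cast_ne_zero.mpr Nat.card_pos.ne'), one_mul]
  simp

/-- Brauer's splitting field Theorem: a complex representation of a finite group of exponent m is equivalent to a representation by matrices with entries in ℚ adjoined exp(2πi/m). -/
theorem result {G : Type*} [Group G] [Finite G] (n : ℕ) (ρ : Representation ℂ G (Fin n → ℂ)) : ∃ σ : Representation ℂ G (Fin n → ℂ), Nonempty (ρ.Equiv σ) ∧ ∀ g : G, ∀ i j : Fin n, LinearMap.toMatrix' (σ g) i j ∈ Algebra.adjoin ℚ ({Complex.exp (2 * Real.pi * Complex.I / (Monoid.exponent G : ℂ))} : Set ℂ) := by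
  classical
  haveI := Fintype.ofFinite G
  set m := Monoid.exponent G with hm
  have hm0 : m ≠ 0 := Monoid.exponent_ne_zero_of_finite
  set ζ := Complex.exp (2 * Real.pi * Complex.I / (m : ℂ)) with hζ
  have hprim : IsPrimitiveRoot ζ m := Complex.isPrimitiveRoot_exp m hm0
  have halg : IsAlgebraic ℚ ζ := (hprim.isIntegral (Nat.pos_of_ne_zero hm0)).tower_top.isAlgebraic
  let K := IntermediateField.adjoin ℚ ({ζ} : Set ℂ)
  have hmem : ∀ z : ℂ, z ∈ K → z ∈ Algebra.adjoin ℚ ({ζ} : Set ℂ) := by
    intro z hz
    rw [← IntermediateField.adjoin_simple_toSubalgebra_of_isAlgebraic halg]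
    exact hz
  have hroot : ∀ (E : Subgroup G) (l : E →* ℂˣ) (e : E), (l e : ℂ) ∈ K := by
    intro E l e
    have h1 : e ^ m = 1 := Subtype.ext (by
      rw [Subgroup.coe_pow, Subgroup.coe_one]; exact Monoid.pow_exponent_eq_one _)
    have h2 : (l e : ℂ) ^ m = 1 := by rw [← Units.val_pow_eq_pow_val, ← map_pow, h1, map_one, Units.val_one]
    haveI : NeZero m := ⟨hm0⟩
    obtain ⟨i, -, hi⟩ := hprim.eq_pow_of_pow_eq_one h2
    rw [← hi]
    exact pow_mem (IntermediateField.mem_adjoin_simple_self ℚ ζ) i
  let D : AddSubgroup (G → ℂ) :=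
    { carrier := {f | ∃ P Q, Realized K P ∧ Realized K Q ∧ f = P - Q}
      zero_mem' := ⟨0, 0, Realized.zero, Realized.zero, (sub_zero 0).symm⟩
      add_mem' := by
        rintro f f' ⟨P, Q, hP, hQ, rfl⟩ ⟨P', Q', hP', hQ', rfl⟩
        exact ⟨_, _, hP.add hP', hQ.add hQ', by abel⟩
      neg_mem' := by
        rintro f ⟨P, Q, hP, hQ, rfl⟩
        exact ⟨Q, P, hQ, hP, by abel⟩ }
  have hD : ρ.character ∈ D := by
    obtain ⟨l, -, hl⟩ := Cfsg.Agent.S0163.result ρ.character ⟨n, ρ, rfl⟩
    rw [hl]
    refine AddSubgroup.list_sum_mem _ fun f hf => ?_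
    obtain ⟨t, -, rfl⟩ := List.mem_map.mp hf
    rw [Int.cast_smul_eq_zsmul]
    exact D.zsmul_mem ⟨_, 0, Realized.indFun_linear t.1 t.2.1 (hroot t.1 t.2.1), Realized.zero, (sub_zero _).symm⟩ _
  obtain ⟨P, Q, hP, ⟨d, Q', hQ'⟩, hPQ⟩ := hD
  have hR : Realized K ρ.character := realized_of_diff d _ P Q' ⟨n, ρ, rfl⟩ hP fun g => by
    rw [hPQ, Pi.sub_apply, hQ']
  obtain ⟨k, σ, hσ, hent⟩ := hR.exists_rep
  have hkn : k = n := by
    have := congrFun hσ 1
    simpa using this
  subst hkn
  exact ⟨σ, Lib.Char.equiv_of_character_eq k ρ σ (by simp) hσ.symm, fun g i j => hmem _ (hent g i j)⟩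

end Cfsg.Agent.S0166
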