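import Cfsg.Statements.S0167
import Cfsg.Agent.Lib.Char.CharCount

set_option autoImplicit false
open Cfsg

namespace Cfsg.Agent.S0167

/-- An element g of a finite group is a commutator if and only if the sum over the irreducible characters χ of χ g / χ 1 is nonzero. -/
theorem result {G : Type*} [Group G] [Finite G] (g : G) : (∃ a b : G, g = a * b * a⁻¹ * b⁻¹) ↔ ∑ᶠ χ : Cfsg.IrrCharacter G, (χ : G → ℂ) g / (χ : G → ℂ) 1 ≠ 0 := by
  classical
  have := Fintype.ofFinite G
  rw [finsum_eq_sum_of_fintype, ne_eq]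
  have h := Lib.Char.card_commutator_pairs g
  constructor
  · rintro ⟨a, b, rfl⟩ h0
    rw [h0, mul_zero, Nat.cast_eq_zero, Finset.card_eq_zero, Finset.filter_eq_empty_iff] at h
    exact h (Finset.mem_univ (a, b)) rfl
  · intro h0
    by_contra hc
    apply h0
    rw [Finset.filter_eq_empty_iff.mpr (fun p _ hp => hc ⟨p.1, p.2, hp.symm⟩), Finset.card_empty,
      Nat.cast_zero] at h
    exact (mul_eq_zero.mp h.symm).resolve_left (Lib.Char.card_ne_zero_complex G)

end Cfsg.Agent.S0167
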