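import Cfsg.Statements.S0170
import Cfsg.Agent.Lib.Char.Coherent
import Cfsg.Agent.Lib.Char.TI

set_option autoImplicit false
open Cfsg

namespace Cfsg.Agent.S0170

/-- Exceptional characters. Let S be a subset of a finite group contained in its normalizer N and meeting its conjugates by elements outside N only in the identity. Given n ≥ 2 distinct irreducible characters of N of equal degree that vanish on N away from S, there exist a sign ε and n distinct irreducible characters θ_i of G such that inducing χ_i − χ_j to G gives ε (θ_i − θ_j) for all i, j. -/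
theorem result {G : Type*} [Group G] [Fintype G] (S : Set G) (hSN : S ⊆ Subgroup.normalizer S) (hTI : ∀ g : G, g ∉ Subgroup.normalizer S → ∀ s ∈ S, g * s * g⁻¹ ∈ S → s = 1) (n : ℕ) (hn : 2 ≤ n) (χ : Fin n → (Subgroup.normalizer S → ℂ)) (hirr : ∀ i, Cfsg.IsIrrCharacter (Subgroup.normalizer S) (χ i)) (hinj : Function.Injective χ) (hvan : ∀ i, ∀ x : Subgroup.normalizer S, (x : G) ∉ S → χ i x = 0) (hdeg : ∀ i j, χ i 1 = χ j 1) : ∃ ε : ℂ, (ε = 1 ∨ ε = -1) ∧ ∃ θ : Fin n → (G → ℂ), (∀ i, Cfsg.IsIrrCharacter G (θ i)) ∧ Function.Injective θ ∧ ∀ i j, Cfsg.indFun (Subgroup.normalizer S) (χ i) - Cfsg.indFun (Subgroup.normalizer S) (χ j) = ε • (θ i - θ j) := by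
  classical
  have := Fintype.ofFinite (Subgroup.normalizer S)
  let i₀ : Fin n := ⟨0, by omega⟩
  have hs : ∀ i, ∀ x : Subgroup.normalizer S, (x : G) ∉ S → (χ i - χ i₀) x = 0 := fun i x hx => by
    rw [Pi.sub_apply, hvan i x hx, hvan i₀ x hx, sub_self]
  have h1 : ∀ i, (χ i - χ i₀) 1 = 0 := fun i => by rw [Pi.sub_apply, hdeg i i₀, sub_self]
  obtain ⟨ε, hε, μ, hμ, h⟩ := Lib.Char.exists_coherent_family i₀
    (fun i => Cfsg.indFun (Subgroup.normalizer S) (χ i - χ i₀))
    (by rw [sub_self, Lib.Char.indFun_zero])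
    (fun i => ⟨_, _, Lib.Char.isCharacter_indFun _ (Lib.Char.isCharacter_of_isIrr (hirr i)),
      Lib.Char.isCharacter_indFun _ (Lib.Char.isCharacter_of_isIrr (hirr i₀)),
      Lib.Char.indFun_sub _ _ _⟩)
    (fun i => by rw [Lib.Char.indFun_one, h1 i, mul_zero])
    (fun i j hi hj => by
      rw [Lib.Char.classInner_indFun_TI S hTI _ _
        (Lib.Char.isClassFunction_sub (Lib.Char.isClassFunction_of_isIrr (hirr j))
          (Lib.Char.isClassFunction_of_isIrr (hirr i₀))) (hs i) (hs j) (h1 i),
        Lib.Char.classInner_sub_left, Lib.Char.classInner_sub_right,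
        Lib.Char.classInner_sub_right, Lib.Char.classInner_irr (hirr i) (hirr j),
        Lib.Char.classInner_irr_ne (hirr i) (hirr i₀) (fun e => hi (hinj e)),
        Lib.Char.classInner_irr_ne (hirr i₀) (hirr j) (fun e => hj (hinj e.symm)),
        Lib.Char.classInner_irr_self (hirr i₀)]
      constructor
      · intro e
        rw [if_pos (congrArg χ e)]
        norm_num
      · intro e
        rw [if_neg (fun e' => e (hinj e'))]
        norm_num)
  refine ⟨ε, hε, fun i => (μ i : G → ℂ), fun i => (μ i).2, fun i j e => hμ (Subtype.ext e),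
    fun i j => ?_⟩
  have hi := h i
  have hj := h j
  rw [Lib.Char.indFun_sub] at hi hj
  rw [show Cfsg.indFun (Subgroup.normalizer S) (χ i) - Cfsg.indFun (Subgroup.normalizer S) (χ j) =
      (Cfsg.indFun (Subgroup.normalizer S) (χ i) - Cfsg.indFun (Subgroup.normalizer S) (χ i₀)) -
        (Cfsg.indFun (Subgroup.normalizer S) (χ j) - Cfsg.indFun (Subgroup.normalizer S) (χ i₀)) by
      rw [sub_sub_sub_cancel_right], hi, hj, ← smul_sub, sub_sub_sub_cancel_right]

end Cfsg.Agent.S0170
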