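import Cfsg.Statements.S0171
import Cfsg.Agent.Lib.Char.Clifford
import Cfsg.Agent.Lib.Char.BrauerPerm

set_option autoImplicit false
open Cfsg

namespace Cfsg.Agent.S0171

/-- Let G = K H with K normal, K ⊓ H trivial, and no non-identity element of H commuting with a non-identity element of K (a Frobenius group with kernel K and complement H). Then every non-principal irreducible character of K induces to an irreducible character of G. -/
theorem result {G : Type*} [Group G] [Fintype G] (K H : Subgroup G) [K.Normal] (hKH : K ⊓ H = ⊥) (hKH' : K ⊔ H = ⊤) (hfpf : ∀ h ∈ H, h ≠ 1 → ∀ k ∈ K, h * k = k * h → k = 1) (τ : K → ℂ) (hτ : Cfsg.IsIrrCharacter K τ) (hτ1 : τ ≠ fun _ => 1) : Cfsg.IsIrrCharacter G (Cfsg.indFun K τ) := by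
  classical
  refine Lib.Char.isIrrCharacter_indFun K hτ (le_antisymm (fun g hg => ?_)
    (Lib.Char.le_inertia K (Lib.Char.isClassFunction_of_isIrr hτ)))
  obtain ⟨k, hk, h, hh, rfl⟩ : ∃ k ∈ K, ∃ h ∈ H, k * h = g := by
    have hg' : g ∈ ((K ⊔ H : Subgroup G) : Set G) := by rw [hKH']; trivial
    rw [Subgroup.normal_mul] at hg'
    exact Set.mem_mul.mp hg'
  by_contra hgK
  have h1 : h ≠ 1 := fun e => hgK (by simpa [e] using hk)
  have hfix : Lib.Char.conjChar K h τ = τ := by
    have hg2 : Lib.Char.conjChar K (k * h) τ = τ := hg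
    rw [Lib.Char.conjChar_mul,
      Lib.Char.conjChar_of_mem K (Lib.Char.isClassFunction_of_isIrr hτ) hk] at hg2
    exact hg2
  -- every element of the coset `K * h` is a `K`-conjugate of `h`
  let f : K → K := fun x => ⟨(x : G) * h * (x : G)⁻¹ * h⁻¹, by
    have := (inferInstance : K.Normal).conj_mem _ (K.inv_mem x.2) h
    simpa [mul_assoc] using K.mul_mem x.2 this⟩
  have hf : Function.Injective f := by
    intro x y hxy
    have e : (x : G) * h * (x : G)⁻¹ * h⁻¹ = (y : G) * h * (y : G)⁻¹ * h⁻¹ :=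
      congrArg Subtype.val hxy
    have e' := mul_right_cancel e
    have e2 : h * ((y : G)⁻¹ * x) = ((y : G)⁻¹ * x) * h := by
      rw [mul_inv_eq_iff_eq_mul] at e'
      rw [mul_assoc (y : G)⁻¹, e']
      group
    exact (Subtype.ext (inv_mul_eq_one.mp (hfpf h hh h1 _ (K.mul_mem (K.inv_mem y.2) x.2) e2))).symm
  have hsurj := Finite.surjective_of_injective hf
  have hcard := Lib.Char.card_fixed_irr_eq_card_fixed_classes (G := K)
    (fun x => MulAut.conjNormal h x) (fun a b hab => (MulAut.conjNormal h).toMonoidHom.map_isConj hab)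
    (fun χ => Lib.Char.isIrrCharacter_comp χ.2 _ (MulAut.conjNormal h).surjective)
  have hle : Nat.card {C : ConjClasses K //
      ∀ x, ConjClasses.mk x = C → IsConj (MulAut.conjNormal h x) x} ≤ 1 := by
    rw [Finite.card_le_one_iff_subsingleton]
    refine ⟨fun a b => Subtype.ext ?_⟩
    have key : ∀ x : K, IsConj (MulAut.conjNormal h x) x → x = 1 := by
      intro x hx
      obtain ⟨c, hc⟩ := isConj_iff.mp hx
      have hc' : (c : G) * (h * (x : G) * h⁻¹) * (c : G)⁻¹ = (x : G) := by
        have := congrArg Subtype.val hc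
        simpa [MulAut.conjNormal_apply] using this
      obtain ⟨y, hy⟩ := hsurj c
      have hy' : (y : G) * h * (y : G)⁻¹ = (c : G) * h :=
        mul_inv_eq_iff_eq_mul.mp (congrArg Subtype.val hy)
      have hcomm : h * ((y : G)⁻¹ * x * y) = ((y : G)⁻¹ * x * y) * h := by
        have e : (y : G) * h * (y : G)⁻¹ * x = x * ((y : G) * h * (y : G)⁻¹) := by
          rw [hy']
          nth_rw 2 [← hc']
          group
        calc h * ((y : G)⁻¹ * x * y) = (y : G)⁻¹ * ((y : G) * h * (y : G)⁻¹ * x) * y := by group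
          _ = _ := by rw [e]; group
      have := hfpf h hh h1 _ (by
        simpa using (inferInstance : K.Normal).conj_mem x x.2 (y : G)⁻¹) hcomm
      apply Subtype.ext
      calc (x : G) = y * ((y : G)⁻¹ * x * y) * (y : G)⁻¹ := by group
        _ = 1 := by rw [this]; group
    obtain ⟨x, hx⟩ := ConjClasses.mk_surjective a.1
    obtain ⟨y, hy⟩ := ConjClasses.mk_surjective b.1
    rw [← hx, ← hy, key x (a.2 x hx), key y (b.2 y hy)]
  rw [← hcard, Finite.card_le_one_iff_subsingleton] at hle
  refine hτ1 (congrArg (fun χ => χ.1.1) (hle.elim ⟨⟨τ, hτ⟩, ?_⟩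
    ⟨⟨fun _ => 1, Lib.Char.isIrrCharacter_one⟩, rfl⟩))
  rw [Lib.Char.conjChar_eq_comp] at hfix
  exact hfix

end Cfsg.Agent.S0171
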