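import Cfsg.Statements.S0172
import Mathlib

set_option autoImplicit false
open Cfsg

namespace Cfsg.Agent.S0172

open scoped Classical in
theorem commSum_eq {M : Type*} [Group M] [Fintype M] :
    Nat.card (ConjClasses M) * Nat.card M
      = ∑ x : M, (Finset.univ.filter (fun y => Commute x y)).card := by
  rw [← card_comm_eq_card_conjClasses_mul_card, Nat.card_congr
    { toFun := fun p => (⟨p.1.1, ⟨p.1.2, p.2⟩⟩ : Σ x : M, {y // Commute x y})
      invFun := fun s => ⟨(s.1, s.2.1), s.2.2⟩
      left_inv := fun p => rfl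
      right_inv := fun s => rfl }]
  rw [Nat.card_sigma]
  refine Finset.sum_congr rfl fun x _ => ?_
  rw [Nat.card_eq_fintype_card, Fintype.card_subtype]

/-- Class number of a Frobenius group: if G = K H with K normal, K ⊓ H trivial and no non-identity element of H commuting with a non-identity element of K, then |H| * k(G) + 1 = |H| * k(H) + k(K), where k denotes the number of conjugacy classes. -/
theorem result {G : Type*} [Group G] [Finite G] (K H : Subgroup G) [K.Normal] (hKH : K ⊓ H = ⊥) (hKH' : K ⊔ H = ⊤) (hfpf : ∀ h ∈ H, h ≠ 1 → ∀ k ∈ K, h * k = k * h → k = 1) : Nat.card H * Nat.card (ConjClasses G) + 1 = Nat.card H * Nat.card (ConjClasses H) + Nat.card (ConjClasses K) := by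
  classical
  haveI := Fintype.ofFinite G
  let f : G → ℕ := fun x => (Finset.univ.filter (fun y => Commute x y)).card
  have hdisj : ∀ x : G, x ∈ K → x ∈ H → x = 1 := fun x h1 h2 => by
    have : x ∈ K ⊓ H := ⟨h1, h2⟩
    rwa [hKH, Subgroup.mem_bot] at this
  have hprod : ∀ g : G, ∃ k ∈ K, ∃ h ∈ H, g = k * h := by
    intro g
    have : g ∈ ((K ⊔ H : Subgroup G) : Set G) := by rw [hKH']; trivial
    rw [Subgroup.normal_mul] at this
    obtain ⟨k, hk, h, hh, rfl⟩ := this
    exact ⟨k, hk, h, hh, rfl⟩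
  have hmodK : ∀ k ∈ K, ∀ h ∈ H, ∀ h' ∈ H, k * h * k⁻¹ = h' → h = h' := by
    intro k hk h hh h' hh' he
    have h1 : h⁻¹ * h' ∈ K := by
      rw [← he]
      have : h⁻¹ * k * h ∈ K := by
        simpa using Subgroup.Normal.conj_mem ‹K.Normal› k hk h⁻¹
      have := K.mul_mem this (K.inv_mem hk)
      simpa [mul_assoc] using this
    have := hdisj _ h1 (H.mul_mem (H.inv_mem hh) hh')
    exact inv_mul_eq_one.mp this
  have hinj : ∀ k ∈ K, ∀ h ∈ H, h ≠ 1 → k * h * k⁻¹ = h → k = 1 := by
    intro k hk h hh hne he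
    refine hfpf h hh hne k hk ?_
    calc h * k = k * h * k⁻¹ * k := by rw [he]
      _ = k * h := by group
  have hconjcomm : ∀ (g x : G), f (g * x * g⁻¹) = f x := by
    intro g x
    refine Finset.card_bij' (fun y _ => g⁻¹ * y * g) (fun y _ => g * y * g⁻¹) ?_ ?_ ?_ ?_
    · intro y hy
      simp only [Finset.mem_filter, Finset.mem_univ, true_and] at hy ⊢
      unfold Commute SemiconjBy at hy ⊢
      calc x * (g⁻¹ * y * g) = g⁻¹ * (g * x * g⁻¹ * y) * g := by group
        _ = g⁻¹ * (y * (g * x * g⁻¹)) * g := by rw [hy]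
        _ = g⁻¹ * y * g * x := by group
    · intro y hy
      simp only [Finset.mem_filter, Finset.mem_univ, true_and] at hy ⊢
      unfold Commute SemiconjBy at hy ⊢
      calc g * x * g⁻¹ * (g * y * g⁻¹) = g * (x * y) * g⁻¹ := by group
        _ = g * (y * x) * g⁻¹ := by rw [hy]
        _ = g * y * g⁻¹ * (g * x * g⁻¹) := by group
    · intros; group
    · intros; group
  -- centralizers of nontrivial kernel elements lie in the kernel
  have hK : ∀ x ∈ K, x ≠ 1 → ∀ g, Commute x g → g ∈ K := by
    intro x hx hx1 g hg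
    obtain ⟨k, hk, h, hh, rfl⟩ := hprod g
    by_contra hgK
    have hh1 : h ≠ 1 := by rintro rfl; exact hgK (by simpa using hk)
    -- k * h is conjugate to h by an element of K
    have hcard : ∀ h ∈ H, h ≠ 1 → ∀ k ∈ K, ∃ c ∈ K, k * h = c * h * c⁻¹ := by
      intro h hh hh1 k hk
      let φ : K → K := fun c => ⟨(c : G) * (h * (c : G)⁻¹ * h⁻¹),
        K.mul_mem c.2 (Subgroup.Normal.conj_mem ‹K.Normal› _ (K.inv_mem c.2) h)⟩
      have hφ : Function.Injective φ := by
        intro c d hcd
        have he : (c : G) * (h * (c : G)⁻¹ * h⁻¹) = (d : G) * (h * (d : G)⁻¹ * h⁻¹) :=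
          congrArg Subtype.val hcd
        have : ((d : G)⁻¹ * c) * h * ((d : G)⁻¹ * c)⁻¹ = h := by
          calc ((d : G)⁻¹ * c) * h * ((d : G)⁻¹ * c)⁻¹
              = (d : G)⁻¹ * ((c : G) * (h * (c : G)⁻¹ * h⁻¹)) * h * d := by group
            _ = (d : G)⁻¹ * ((d : G) * (h * (d : G)⁻¹ * h⁻¹)) * h * d := by rw [he]
            _ = h := by group
        have := hinj _ (K.mul_mem (K.inv_mem d.2) c.2) h hh hh1 this
        exact Subtype.ext (inv_mul_eq_one.mp this).symm
      obtain ⟨c, hc⟩ := (Finite.injective_iff_surjective.mp hφ) ⟨k, hk⟩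
      refine ⟨c, c.2, ?_⟩
      have hc' : (c : G) * (h * (c : G)⁻¹ * h⁻¹) = k := congrArg Subtype.val hc
      rw [← hc']; group
    obtain ⟨c, hc, he⟩ := hcard h hh hh1 k hk
    have h2 : Commute (c⁻¹ * x * c) h := by
      unfold Commute SemiconjBy at hg ⊢
      rw [he] at hg
      calc c⁻¹ * x * c * h = c⁻¹ * (x * (c * h * c⁻¹)) * c := by group
        _ = c⁻¹ * (c * h * c⁻¹ * x) * c := by rw [hg]
        _ = h * (c⁻¹ * x * c) := by group
    have h3 := hfpf h hh hh1 (c⁻¹ * x * c) (by
      simpa using Subgroup.Normal.conj_mem ‹K.Normal› x hx c⁻¹) h2.symm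
    apply hx1
    calc x = c * (c⁻¹ * x * c) * c⁻¹ := by group
      _ = 1 := by rw [h3]; group
  have hH : ∀ h ∈ H, h ≠ 1 → ∀ g, Commute h g → g ∈ H := by
    intro h hh hh1 g hg
    obtain ⟨k, hk, h', hh', rfl⟩ := hprod g
    have he : k * (h' * h * h'⁻¹) * k⁻¹ = h := by
      unfold Commute SemiconjBy at hg
      calc k * (h' * h * h'⁻¹) * k⁻¹ = (k * h') * h * (k * h')⁻¹ := by group
        _ = h * (k * h') * (k * h')⁻¹ := by rw [hg]
        _ = h := by group
    have h4 : h' * h * h'⁻¹ ∈ H := H.mul_mem (H.mul_mem hh' hh) (H.inv_mem hh')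
    have h5 := hmodK k hk _ h4 h hh he
    rw [h5] at he
    have := hinj k hk h hh hh1 he
    subst this
    simpa using hh'
  have hfK : ∀ x : K, (x : G) ≠ 1 →
      f x = (Finset.univ.filter (fun y : K => Commute x y)).card := by
    intro x hx
    refine Finset.card_bij' (fun y hy => (⟨y, hK x x.2 hx y (Finset.mem_filter.mp hy).2⟩ : K))
      (fun y _ => (y : G)) ?_ ?_ ?_ ?_
    · intro y hy
      simp only [Finset.mem_filter, Finset.mem_univ, true_and] at hy ⊢
      exact Subtype.ext hy
    · intro y hy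
      simp only [Finset.mem_filter, Finset.mem_univ, true_and] at hy ⊢
      exact congrArg Subtype.val hy
    · intros; rfl
    · intros; rfl
  have hfH : ∀ x : H, (x : G) ≠ 1 →
      f x = (Finset.univ.filter (fun y : H => Commute x y)).card := by
    intro x hx
    refine Finset.card_bij' (fun y hy => (⟨y, hH x x.2 hx y (Finset.mem_filter.mp hy).2⟩ : H))
      (fun y _ => (y : G)) ?_ ?_ ?_ ?_
    · intro y hy
      simp only [Finset.mem_filter, Finset.mem_univ, true_and] at hy ⊢
      exact Subtype.ext hy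
    · intro y hy
      simp only [Finset.mem_filter, Finset.mem_univ, true_and] at hy ⊢
      exact congrArg Subtype.val hy
    · intros; rfl
    · intros; rfl
  have hGcard : Nat.card G = Nat.card K * Nat.card H := by
    rw [← Nat.card_prod]
    refine (Nat.card_congr (Equiv.ofBijective (fun p : K × H => (p.1 : G) * p.2) ⟨?_, ?_⟩)).symm
    · rintro ⟨k, h⟩ ⟨k', h'⟩ he
      simp only at he
      have h1 : (k' : G)⁻¹ * k = h' * (h : G)⁻¹ := by
        calc (k' : G)⁻¹ * k = (k' : G)⁻¹ * (k * h) * (h : G)⁻¹ := by group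
          _ = _ := by rw [he]; group
      have h2 := hdisj _ (K.mul_mem (K.inv_mem k'.2) k.2)
        (by rw [h1]; exact H.mul_mem h'.2 (H.inv_mem h.2))
      have h3 : (k : G) = k' := (inv_mul_eq_one.mp h2).symm
      rw [h3] at he
      exact Prod.ext (Subtype.ext h3) (Subtype.ext (mul_left_cancel he))
    · intro g
      obtain ⟨k, hk, h, hh, rfl⟩ := hprod g
      exact ⟨(⟨k, hk⟩, ⟨h, hh⟩), rfl⟩
  have hcompl : (Finset.univ.filter (fun x : G => x ∉ K)) =
      (((Finset.univ : Finset K) ×ˢ (Finset.univ.filter fun h : H => (h : G) ≠ 1))).image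
        (fun p : K × H => (p.1 : G) * p.2 * (p.1 : G)⁻¹) ∧
      Set.InjOn (fun p : K × H => (p.1 : G) * p.2 * (p.1 : G)⁻¹)
        (((Finset.univ : Finset K) ×ˢ (Finset.univ.filter fun h : H => (h : G) ≠ 1)) : Finset (K × H)) := by
    have hinj' : Set.InjOn (fun p : K × H => (p.1 : G) * p.2 * (p.1 : G)⁻¹)
        (((Finset.univ : Finset K) ×ˢ (Finset.univ.filter fun h : H => (h : G) ≠ 1)) : Finset (K × H)) := by
      rintro ⟨k, h⟩ hp ⟨k', h'⟩ _ he
      simp only [Finset.coe_product, Finset.coe_filter, Finset.mem_univ, true_and, Set.mem_prod,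
        Finset.coe_univ, Set.mem_univ, Set.mem_setOf_eq] at hp
      simp only at he
      have h1 : ((k' : G)⁻¹ * k) * h * ((k' : G)⁻¹ * k)⁻¹ = h' := by
        calc ((k' : G)⁻¹ * k) * h * ((k' : G)⁻¹ * k)⁻¹
            = (k' : G)⁻¹ * ((k : G) * h * (k : G)⁻¹) * k' := by group
          _ = (k' : G)⁻¹ * ((k' : G) * h' * (k' : G)⁻¹) * k' := by rw [he]
          _ = h' := by group
      have h2 := hmodK _ (K.mul_mem (K.inv_mem k'.2) k.2) _ h.2 _ h'.2 h1
      rw [← h2] at h1
      have h3 := hinj _ (K.mul_mem (K.inv_mem k'.2) k.2) _ h.2 hp h1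
      exact Prod.ext (Subtype.ext (inv_mul_eq_one.mp h3).symm) (Subtype.ext h2)
    refine ⟨(Finset.eq_of_subset_of_card_le ?_ ?_).symm, hinj'⟩
    · intro x hx
      simp only [Finset.mem_image, Finset.mem_product, Finset.mem_univ, Finset.mem_filter,
        true_and] at hx ⊢
      obtain ⟨⟨k, h⟩, hh1, rfl⟩ := hx
      intro hmem
      apply hh1
      refine hdisj _ ?_ h.2
      have := K.mul_mem (K.mul_mem (K.inv_mem k.2) hmem) k.2
      simpa [mul_assoc] using this
    · rw [Finset.card_image_of_injOn hinj', Finset.card_product, Finset.filter_not,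
        Finset.card_sdiff_of_subset (Finset.filter_subset _ _), Finset.filter_not,
        Finset.card_sdiff_of_subset (Finset.filter_subset _ _)]
      simp only [Finset.card_univ]
      rw [← Fintype.card_subtype, show (Finset.univ.filter fun h : H => (h : G) = 1) = {1} from by
        ext h; simp, Finset.card_singleton]
      simp only [← Nat.card_eq_fintype_card]
      rw [
        hGcard, Nat.mul_sub_one]
  have e1 := commSum_eq (M := G)
  have e2 := commSum_eq (M := K)
  have e3 := commSum_eq (M := H)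
  rw [← Finset.sum_filter_add_sum_filter_not Finset.univ (fun x : G => x ∈ K), hcompl.1,
    Finset.sum_image hcompl.2, Finset.sum_product] at e1
  have hsK : ∑ x ∈ Finset.univ.filter (fun x : G => x ∈ K), f x + Nat.card K
      = Nat.card G + ∑ x : K, (Finset.univ.filter (fun y : K => Commute x y)).card := by
    rw [Finset.sum_subtype (Finset.univ.filter (fun x : G => x ∈ K)) (p := fun x => x ∈ K)
      (fun x => by simp), ← Finset.add_sum_erase _ _ (Finset.mem_univ (1 : K)),
      ← Finset.add_sum_erase _ _ (Finset.mem_univ (1 : K))]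
    rw [Finset.sum_congr rfl (fun x hx => hfK x (fun he => (Finset.ne_of_mem_erase hx)
      (Subtype.ext he)))]
    simp [f, Nat.card_eq_fintype_card]
    ring
  have hsH : ∑ h ∈ Finset.univ.filter (fun h : H => (h : G) ≠ 1), f h + Nat.card H
      = ∑ x : H, (Finset.univ.filter (fun y : H => Commute x y)).card := by
    rw [← Finset.add_sum_erase _ _ (Finset.mem_univ (1 : H)),
      show (Finset.univ.filter fun h : H => (h : G) ≠ 1) = Finset.univ.erase 1 from by
        ext h; simp,
      Finset.sum_congr rfl (fun x hx => hfH x (fun he => (Finset.ne_of_mem_erase hx)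
      (Subtype.ext he)))]
    simp [Nat.card_eq_fintype_card]
    ring
  rw [Finset.sum_congr rfl (fun (k : K) _ => Finset.sum_congr rfl (fun (h : H) _ => hconjcomm k h))]
    at e1
  simp only [Finset.sum_const, smul_eq_mul, Finset.card_univ,
    ← Nat.card_eq_fintype_card] at e1
  rw [← e2] at hsK
  rw [← e3] at hsH
  have e1' : Nat.card (ConjClasses G) * (Nat.card K * Nat.card H) =
      ∑ x ∈ Finset.univ.filter (fun x : G => x ∈ K), f x +
        Nat.card K * ∑ h ∈ Finset.univ.filter (fun h : H => (h : G) ≠ 1), f h := by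
    rw [← hGcard]; exact e1
  rw [hGcard] at hsK
  have hpos : 0 < Nat.card K := Nat.card_pos
  apply Nat.eq_of_mul_eq_mul_left hpos
  linear_combination e1' + hsK + Nat.card K * hsH

end Cfsg.Agent.S0172
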