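import Cfsg.Statements.S0173
import Cfsg.Agent.Lib.Char.BrauerPerm

set_option autoImplicit false
open Cfsg

namespace Cfsg.Agent.S0173

/-- Brauer's permutation lemma for a single automorphism: the number of conjugacy classes mapped to themselves equals the number of irreducible complex characters χ with χ ∘ α = χ. -/
theorem result {G : Type*} [Group G] [Finite G] (α : G ≃* G) : Nat.card {C : ConjClasses G // ConjClasses.map α.toMonoidHom C = C} = Nat.card {χ : Cfsg.IrrCharacter G // (χ : G → ℂ) ∘ α = (χ : G → ℂ)} := by
  refine Eq.trans ?_ (Lib.Char.card_fixed_irr_eq_card_fixed_classes (fun g => α g)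
    (fun a b h => α.toMonoidHom.map_isConj h)
    (fun χ => Lib.Char.isIrrCharacter_comp χ.2 α.toMonoidHom α.surjective)).symm
  refine Nat.card_congr (Equiv.subtypeEquivRight fun C => ?_)
  obtain ⟨a, rfl⟩ := ConjClasses.mk_surjective C
  constructor
  · intro h g hg
    rw [← hg] at h
    exact ConjClasses.mk_eq_mk_iff_isConj.mp h
  · intro h
    exact ConjClasses.mk_eq_mk_iff_isConj.mpr (h a rfl)

end Cfsg.Agent.S0173
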