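import Cfsg.Statements.S0175
import Cfsg.Agent.Lib.Char.Kernel
import Cfsg.Agent.Lib.Char.Induced
import Cfsg.Agent.Lib.Char.Linear
import Cfsg.Agent.Lib.Char.Degree
import Cfsg.Agent.Lib.PermChar.Basic

set_option autoImplicit false
open Cfsg

namespace Cfsg.Agent.S0175

/-- Taketa's Theorem on M-groups: if every irreducible complex character of a finite group is induced from a linear character (a homomorphism to ℂˣ) of some subgroup, the group is solvable. -/
theorem result {G : Type*} [Group G] [Fintype G] (hM : ∀ χ : G → ℂ, Cfsg.IsIrrCharacter G χ → ∃ (H : Subgroup G) (lam : H →* ℂˣ), χ = Cfsg.indFun H (fun h => (lam h : ℂ))) : Group.IsSolvable G := by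
  classical
  have key : ∀ d : ℕ, ∀ χ : G → ℂ, Cfsg.IsIrrCharacter G χ → Cfsg.charDegree χ = d →
      ∀ g ∈ derivedSeries G d, χ g = χ 1 := by
    intro d
    induction d using Nat.strong_induction_on with
    | _ d ih =>
      intro χ hχ hd g hg
      obtain ⟨H, lam, hlam⟩ := hM χ hχ
      have hdH : d = H.index := by
        rw [← hd, hlam]
        refine Lib.Char.charDegree_eq_of_apply_one ?_
        rw [Lib.Char.indFun_one]
        simp
      have hd0 : 0 < d := hdH ▸ Nat.pos_of_ne_zero Subgroup.index_ne_zero_of_finite
      -- the derived subgroup of level `d - 1` lies in `H`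
      have hD : derivedSeries G (d - 1) ≤ H := by
        rcases eq_or_ne d 1 with h1 | h1
        · rw [Subgroup.index_eq_one.mp (hdH.symm.trans h1)]; exact le_top
        intro a ha
        set π : G → ℂ := Cfsg.indFun H (fun _ => 1) with hπ
        have hπc : Cfsg.IsCharacter G π := Lib.Char.isCharacter_indFun H Lib.Char.isCharacter_one
        obtain ⟨m, hm⟩ := Lib.Char.isCharacter_eq_sum hπc
        have hπ1 : π 1 = (d : ℂ) := by rw [hπ, Lib.Char.indFun_one, hdH, mul_one]
        have hm1 : ∀ ψ : Cfsg.IrrCharacter G, m ψ ≠ 0 →
            Cfsg.charDegree (ψ : G → ℂ) < d := by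
          intro ψ hψ
          have hone : m ⟨_, Lib.Char.isIrrCharacter_one⟩ = 1 := by
            have h2 : Cfsg.classInner π (fun _ : G => (1 : ℂ)) = 1 := by
              rw [hπ, Lib.Char.classInner_indFun _ _ (fun _ _ => rfl)]
              exact Lib.Char.classInner_irr_self Lib.Char.isIrrCharacter_one
            rw [hm, Lib.Char.classInner_sum_left,
              Finset.sum_eq_single ⟨_, Lib.Char.isIrrCharacter_one⟩] at h2
            · rw [Lib.Char.classInner_smul_left,
                Lib.Char.classInner_irr_self Lib.Char.isIrrCharacter_one, mul_one] at h2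
              exact_mod_cast h2
            · intro b _ hb
              rw [Lib.Char.classInner_smul_left, Lib.Char.classInner_irr_ne b.2
                Lib.Char.isIrrCharacter_one (fun h => hb (Subtype.ext h)), mul_zero]
            · simp
          have hsum : ∑ φ : Cfsg.IrrCharacter G, m φ * Cfsg.charDegree (φ : G → ℂ) = d := by
            have h2 := congrFun hm 1
            rw [hπ1] at h2
            simp only [Finset.sum_apply, Pi.smul_apply, smul_eq_mul,
              Lib.Char.apply_one_eq_charDegree (Lib.Char.isCharacter_of_isIrr (Subtype.prop _))] at h2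
            exact_mod_cast h2.symm
          have hd1 : Cfsg.charDegree (fun _ : G => (1 : ℂ)) = 1 := Lib.Char.charDegree_one
          by_cases hψ1 : ψ = ⟨_, Lib.Char.isIrrCharacter_one⟩
          · subst hψ1; rw [hd1]; omega
          · have h2 := Finset.sum_le_sum_of_subset (f := fun φ : Cfsg.IrrCharacter G =>
              m φ * Cfsg.charDegree (φ : G → ℂ))
              (Finset.subset_univ {ψ, (⟨_, Lib.Char.isIrrCharacter_one⟩ : Cfsg.IrrCharacter G)})
            rw [Finset.sum_pair hψ1, hone, hd1, hsum] at h2
            have h3 : Cfsg.charDegree (ψ : G → ℂ) ≤ m ψ * Cfsg.charDegree (ψ : G → ℂ) :=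
              Nat.le_mul_of_pos_left _ (Nat.pos_of_ne_zero hψ)
            omega
        have hπa : π a = π 1 := by
          rw [hm]
          simp only [Finset.sum_apply, Pi.smul_apply, smul_eq_mul]
          refine Finset.sum_congr rfl fun ψ _ => ?_
          by_cases hψ : m ψ = 0
          · rw [hψ, Nat.cast_zero, zero_mul, zero_mul]
          · rw [ih _ (hm1 ψ hψ) ψ ψ.2 rfl a
              (derivedSeries_antitone G (by have := hm1 ψ hψ; omega) ha)]
        rw [hπ1, hπ, Lib.PermChar.indFun_one_apply, Nat.cast_inj] at hπa
        haveI : Finite (G ⧸ H) := Finite.of_surjective _ Quotient.mk''_surjective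
        have hall : ∀ q : G ⧸ H, a • q = q := by
          by_contra hcon
          push Not at hcon
          obtain ⟨q, hq⟩ := hcon
          have hlt : Nat.card {q : G ⧸ H // a • q = q} < Nat.card (G ⧸ H) :=
            Finite.card_subtype_lt (x := q) hq
          rw [← Subgroup.index_eq_card, ← hdH] at hlt
          rw [Lib.PermChar.fixNum] at hπa
          omega
        have := (Lib.PermChar.smul_mk_eq_self_iff H a 1).mp (hall _)
        simpa using this
      -- hence the next one lies in every conjugate of the kernel of `lam`
      have hker : derivedSeries G d ≤ lam.ker.map H.subtype := by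
        have h2 : derivedSeries G d ≤ ⁅H, H⁆ := by
          obtain ⟨e, rfl⟩ := Nat.exists_eq_succ_of_ne_zero hd0.ne'
          exact Subgroup.commutator_mono (by simpa using hD) (by simpa using hD)
        refine h2.trans ?_
        rw [← Subgroup.map_subtype_commutator H]
        exact Subgroup.map_mono (Abelianization.commutator_subset_ker lam)
      rw [hlam]
      simp only [Cfsg.indFun]
      congr 1
      refine Finset.sum_congr rfl fun x _ => ?_
      have hc : x⁻¹ * g * x ∈ derivedSeries G d := by
        simpa using (derivedSeries_normal G d).conj_mem g hg x⁻¹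
      obtain ⟨h, hh, he⟩ := hker hc
      have he' : (h : G) = x⁻¹ * g * x := he
      rw [← he', mul_one, inv_mul_cancel, Lib.Char.extendByZero_coe]
      rw [show Cfsg.extendByZero H (fun h => (lam h : ℂ)) 1 = (lam 1 : ℂ) from
        Lib.Char.extendByZero_coe H _ 1, MonoidHom.mem_ker.mp hh, map_one]
  refine ⟨⟨Nat.card G, ?_⟩⟩
  rw [eq_bot_iff]
  intro g hg
  rw [Subgroup.mem_bot]
  refine Lib.Char.eq_one_of_forall_irr fun χ => key _ χ χ.2 rfl g ?_
  refine derivedSeries_antitone G ?_ hg
  have h1 := Lib.Char.irr_degree_dvd_card χ.2
    (Lib.Char.apply_one_eq_charDegree (Lib.Char.isCharacter_of_isIrr χ.2))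
  exact Nat.le_of_dvd Nat.card_pos h1

end Cfsg.Agent.S0175
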