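import Cfsg.Statements.S0178
import Cfsg.Agent.Lib.Char.Induced
import Cfsg.Agent.Lib.Char.Degree
import Cfsg.Agent.Lib.Char.Clifford

set_option autoImplicit false
open Cfsg

namespace Cfsg.Agent.S0178

/-- The degree of an irreducible complex representation of a finite group is at most the index of any abelian subgroup. -/
theorem result {G : Type*} [Group G] [Finite G] {V : Type*} [AddCommGroup V] [Module ℂ V] [FiniteDimensional ℂ V] (ρ : Representation ℂ G V) [ρ.IsIrreducible] (A : Subgroup G) (hA : ∀ a ∈ A, ∀ b ∈ A, a * b = b * a) : Module.finrank ℂ V ≤ A.index := by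
  classical
  have := Fintype.ofFinite G
  have := Fintype.ofFinite A
  obtain ⟨n, σ, hσ, hχ⟩ := Lib.Char.isIrrCharacter_character ρ
  have hirr : Cfsg.IsIrrCharacter G ρ.character := Lib.Char.isIrrCharacter_character ρ
  have hc := Lib.Char.isCharacter_of_isIrr hirr
  have hA' : IsMulCommutative A := ⟨⟨fun a b => Subtype.ext (hA a a.2 b b.2)⟩⟩
  obtain ⟨lam, hlam⟩ := Lib.Char.exists_constituent (Lib.Char.isCharacter_restrict hc A) (by
    intro h
    exact Lib.Char.irr_degree_ne_zero hirr (congrFun h 1))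
  have hdeg : (lam : A → ℂ) 1 = 1 := by
    obtain ⟨m, τ, hτ, hτ'⟩ := lam.2
    rw [← hτ', Representation.char_one,
      Representation.IsIrreducible.finrank_eq_one_of_isMulCommutative τ, Nat.cast_one]
  have hind := Lib.Char.isCharacter_indFun A (Lib.Char.isCharacter_of_isIrr lam.2)
  obtain ⟨m, hm⟩ := Lib.Char.isCharacter_eq_sum hind
  have hm1 : m ⟨_, hirr⟩ ≠ 0 := by
    intro h0
    apply hlam
    have h := congrArg (fun F => Cfsg.classInner F ρ.character) hm
    simp only [Lib.Char.classInner_indFun A _ (Lib.Char.isClassFunction_of_isIrr hirr),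
      Lib.Char.classInner_sum_left, Lib.Char.classInner_smul_left] at h
    rw [Finset.sum_eq_zero] at h
    · rw [Lib.Char.classInner_conj_symm, h, map_zero]
    · intro ψ _
      by_cases hψ : ψ = ⟨_, hirr⟩
      · rw [hψ, h0, Nat.cast_zero, zero_mul]
      · rw [Lib.Char.classInner_irr_ne ψ.2 hirr (fun e => hψ (Subtype.ext e)), mul_zero]
  choose d hd using fun ψ : Cfsg.IrrCharacter G =>
    Lib.Char.exists_natDegree (Lib.Char.isCharacter_of_isIrr ψ.2)
  have h := congrFun hm 1
  simp only [Lib.Char.indFun_one, hdeg, mul_one, Finset.sum_apply, Pi.smul_apply, smul_eq_mul,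
    hd] at h
  have h' : A.index = ∑ ψ : Cfsg.IrrCharacter G, m ψ * d ψ := by exact_mod_cast h
  rw [h']
  refine le_trans (le_trans (le_of_eq ?_) (Nat.le_mul_of_pos_left _ (Nat.pos_of_ne_zero hm1)))
    (Finset.single_le_sum (f := fun ψ => m ψ * d ψ) (fun ψ _ => Nat.zero_le _)
      (Finset.mem_univ (⟨_, hirr⟩ : Cfsg.IrrCharacter G)))
  have e := hd ⟨_, hirr⟩
  simp only [Representation.char_one, Nat.cast_inj] at e
  exact e

end Cfsg.Agent.S0178
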