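import Cfsg.Statements.S0179
import Cfsg.Agent.Lib.Char.Scalar

set_option autoImplicit false
open Cfsg

namespace Cfsg.Agent.S0179

/-- The degree of an irreducible complex representation of a finite group divides the index of the centre. -/
theorem result {G : Type*} [Group G] [Finite G] {V : Type*} [AddCommGroup V] [Module ℂ V] [FiniteDimensional ℂ V] (ρ : Representation ℂ G V) [ρ.IsIrreducible] : Module.finrank ℂ V ∣ (Subgroup.center G).index := by
  have := Fintype.ofFinite G
  have h := Lib.Char.isIrrCharacter_character ρ
  have hd : Cfsg.charDegree ρ.character = Module.finrank ℂ V :=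
    Lib.Char.charDegree_eq_of_apply_one (by simp)
  rw [← hd]
  exact Lib.Char.degree_dvd_index_of_scalar h _ fun z hz => Lib.Char.norm_char_of_mem_center h hz

end Cfsg.Agent.S0179
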