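import Cfsg.Statements.S0180
import Cfsg.Agent.Lib.CharGalois
import Cfsg.Agent.Lib.Char.Kernel

set_option autoImplicit false
open Cfsg

namespace Cfsg.Agent.S0180

/-- Every irreducible complex character of a finite group takes only rational values if and only if g is conjugate to g ^ m for every element g and every m coprime to the group order. -/
theorem result {G : Type*} [Group G] [Finite G] : (∀ χ : Cfsg.IrrCharacter G, ∀ g : G, ∃ q : ℚ, (χ : G → ℂ) g = (q : ℂ)) ↔ ∀ m : ℕ, m.Coprime (Nat.card G) → ∀ g : G, IsConj g (g ^ m) := by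
  constructor
  · intro hrat m hm g
    refine (Lib.Char.isConj_iff_forall_irr _ _).mpr fun χ => ?_
    obtain ⟨σ, hσ⟩ := Lib.CharGalois.exists_aut_pow (Nat.card_pos (α := G)) hm
    obtain ⟨q, hq⟩ := hrat χ g
    have h := Lib.CharGalois.aut_apply_char hσ (Lib.Char.isCharacter_of_isIrr χ.2) g
    rw [← h, hq, map_ratCast]
  · intro hconj χ g
    have hc := Lib.Char.isCharacter_of_isIrr χ.2
    refine Lib.CharGalois.exists_rat_of_fixed
      (Lib.Char.char_isIntegral hc g).tower_top.isAlgebraic fun σ => ?_
    obtain ⟨k, hk, hσ⟩ := Lib.CharGalois.exists_pow_forall_char (G := G) σ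
    rw [hσ χ hc g]
    obtain ⟨c, hc'⟩ := isConj_iff.mp (hconj k hk g)
    rw [← hc', Lib.Char.isClassFunction_of_isCharacter hc g c]

end Cfsg.Agent.S0180
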