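import Cfsg.Statements.S0181
import Cfsg.Agent.Lib.Char.Kernel
import Cfsg.Agent.S0145

set_option autoImplicit false
open Cfsg

namespace Cfsg.Agent.S0181

/-- Let H be a normal subgroup of a finite group G and ρ an irreducible complex representation whose kernel does not contain H. If g commutes with no non-identity element of H, then the character of ρ vanishes at g. -/
theorem result {G : Type*} [Group G] [Finite G] {V : Type*} [AddCommGroup V] [Module ℂ V] [FiniteDimensional ℂ V] (ρ : Representation ℂ G V) [ρ.IsIrreducible] (H : Subgroup G) [H.Normal] (hker : ∃ h ∈ H, ρ h ≠ LinearMap.id) (g : G) (hg : ∀ h ∈ H, h * g = g * h → h = 1) : ρ.character g = 0 := by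
  classical
  have := Fintype.ofFinite G
  obtain ⟨h₀, hh₀, hne⟩ := hker
  let χ : Cfsg.IrrCharacter G := ⟨ρ.character, Lib.Char.isIrrCharacter_character ρ⟩
  have key : ∀ (T : Type _) [Group T] [Finite T] (a : T),
      ∑ ψ : Cfsg.IrrCharacter T, ((Complex.normSq ((ψ : T → ℂ) a) : ℝ)) =
        (Nat.card (Subgroup.centralizer ({a} : Set T)) : ℝ) := by
    intro T _ _ a
    have h := (S0145.result a a).1 (IsConj.refl a)
    rw [finsum_eq_sum_of_fintype] at h
    simp only [Complex.mul_conj] at h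
    exact_mod_cast h
  have hall := key G g
  have hquot := key (G ⧸ H) (QuotientGroup.mk g)
  have hle : (Nat.card (Subgroup.centralizer ({g} : Set G)) : ℝ) ≤
      (Nat.card (Subgroup.centralizer ({(QuotientGroup.mk g : G ⧸ H)} : Set (G ⧸ H))) : ℝ) := by
    refine Nat.cast_le.mpr ?_
    refine Nat.card_le_card_of_injective
      (fun c => ⟨QuotientGroup.mk (c : G), ?_⟩) ?_
    · rw [Subgroup.mem_centralizer_singleton_iff, ← QuotientGroup.mk_mul, ← QuotientGroup.mk_mul]
      exact congrArg _ (Subgroup.mem_centralizer_singleton_iff.mp c.2)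
    · intro a b hab
      have hmem : (a : G)⁻¹ * b ∈ H := QuotientGroup.eq.mp (congrArg Subtype.val hab)
      have hc := Subgroup.mem_centralizer_singleton_iff.mp
        ((Subgroup.centralizer ({g} : Set G)).mul_mem
          ((Subgroup.centralizer ({g} : Set G)).inv_mem a.2) b.2)
      exact Subtype.ext (inv_mul_eq_one.mp (hg _ hmem hc))
  have hinfl : ∑ ψ : Cfsg.IrrCharacter (G ⧸ H),
      Complex.normSq ((ψ : G ⧸ H → ℂ) (QuotientGroup.mk g)) =
      ∑ φ ∈ Finset.univ.filter (fun φ : Cfsg.IrrCharacter G =>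
        ∀ n ∈ H, (φ : G → ℂ) n = (φ : G → ℂ) 1), Complex.normSq ((φ : G → ℂ) g) := by
    rw [Finset.sum_subtype (p := fun φ : Cfsg.IrrCharacter G =>
      ∀ n ∈ H, (φ : G → ℂ) n = (φ : G → ℂ) 1) _ (by simp)]
    exact Fintype.sum_equiv (Lib.Char.inflateEquiv H) _ _ fun ψ =>
      congrArg _ (Lib.Char.inflateEquiv_apply H ψ g).symm
  rw [← hall, ← hquot, hinfl, ← Finset.sum_filter_add_sum_filter_not Finset.univ
    (fun φ : Cfsg.IrrCharacter G => ∀ n ∈ H, (φ : G → ℂ) n = (φ : G → ℂ) 1)] at hle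
  have hrest : ∑ φ ∈ Finset.univ.filter (fun φ : Cfsg.IrrCharacter G =>
      ¬ ∀ n ∈ H, (φ : G → ℂ) n = (φ : G → ℂ) 1), Complex.normSq ((φ : G → ℂ) g) = 0 :=
    le_antisymm (by linarith) (Finset.sum_nonneg fun _ _ => Complex.normSq_nonneg _)
  have hχ : χ ∈ Finset.univ.filter (fun φ : Cfsg.IrrCharacter G =>
      ¬ ∀ n ∈ H, (φ : G → ℂ) n = (φ : G → ℂ) 1) := by
    simp only [Finset.mem_filter, Finset.mem_univ, true_and]
    intro h
    exact hne ((Lib.Char.character_eq_degree_iff ρ h₀).mp (by simpa [χ] using h h₀ hh₀))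
  exact Complex.normSq_eq_zero.mp
    ((Finset.sum_eq_zero_iff_of_nonneg fun _ _ => Complex.normSq_nonneg _).mp hrest χ hχ)

end Cfsg.Agent.S0181
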