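import Cfsg.Statements.S0184
import Cfsg.Agent.Lib.Char.Scalar
import Cfsg.Agent.Lib.Char.Abelian

set_option autoImplicit false
open Cfsg

namespace Cfsg.Agent.S0184

/-- A finite p-group admits a faithful irreducible complex representation if and only if its centre is cyclic. -/
theorem result {G : Type*} [Group G] [Finite G] (p : ℕ) [Fact p.Prime] (hG : IsPGroup p G) : (∃ (n : ℕ) (ρ : Representation ℂ G (Fin n → ℂ)), ρ.IsIrreducible ∧ Function.Injective ρ) ↔ IsCyclic (Subgroup.center G) := by
  classical
  have hG' := hG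
  have := Fintype.ofFinite G
  constructor
  · rintro ⟨n, ρ, hρ, hinj⟩
    have := hρ
    have hn : 0 < n := Nat.pos_of_ne_zero fun e => by
      have := Lib.Char.charDegree_pos (Lib.Char.isIrrCharacter_character ρ)
      rw [Lib.Char.charDegree_eq_of_apply_one ρ.char_one] at this
      simp [e] at this
    let v : Fin n → ℂ := Pi.single ⟨0, hn⟩ 1
    let f : Subgroup.center G →* ℂ :=
      { toFun := fun z => ρ z v ⟨0, hn⟩
        map_one' := by simp [v]
        map_mul' := fun a b => by
          obtain ⟨c, hc⟩ := Lib.Char.exists_scalar_of_mem_center ρ a.2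
          obtain ⟨d, hd⟩ := Lib.Char.exists_scalar_of_mem_center ρ b.2
          simp [hc, hd, v, mul_comm] }
    refine isCyclic_of_injective_ringHom f fun a b hab => ?_
    obtain ⟨c, hc⟩ := Lib.Char.exists_scalar_of_mem_center ρ a.2
    obtain ⟨d, hd⟩ := Lib.Char.exists_scalar_of_mem_center ρ b.2
    have hcd : c = d := by simpa [f, v, hc, hd] using hab
    exact Subtype.ext (hinj (by rw [hc, hd, hcd]))
  · intro hcyc
    by_cases hG : Nontrivial G
    swap
    · have : Subsingleton G := not_nontrivial_iff_subsingleton.mp hG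
      obtain ⟨n, ρ, hρ, -⟩ := Lib.Char.isIrrCharacter_one (G := G)
      exact ⟨n, ρ, hρ, Function.injective_of_subsingleton ρ⟩
    have hnt : Nontrivial (Subgroup.center G) := hG'.center_nontrivial
    obtain ⟨z, hz⟩ := exists_prime_orderOf_dvd_card' (G := Subgroup.center G) p (by
      obtain ⟨k, hk⟩ := (hG'.to_subgroup (Subgroup.center G)).exists_card_eq
      rcases k with _ | k
      · exact absurd (Finite.one_lt_card (α := Subgroup.center G)) (by rw [hk]; simp)
      · rw [hk]
        exact dvd_pow_self p (Nat.succ_ne_zero k))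
    have hzne : (z : G) ≠ 1 := fun e => by
      have : z = 1 := Subtype.ext e
      rw [this, orderOf_one] at hz
      exact (Fact.out : p.Prime).ne_one hz.symm
    obtain ⟨χ, hχ⟩ : ∃ χ : Cfsg.IrrCharacter G, (χ : G → ℂ) z ≠ (χ : G → ℂ) 1 := by
      by_contra hc
      push Not at hc
      exact hzne (Lib.Char.eq_one_of_forall_irr hc)
    obtain ⟨n, ρ, hρ, hρχ⟩ := χ.2
    refine ⟨n, ρ, hρ, ?_⟩
    by_contra hni
    have hK : ρ.toHomUnits.ker ≠ ⊥ := fun h => hni fun a b hab =>
      (MonoidHom.ker_eq_bot_iff _).mp h (Units.ext hab)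
    have hcenter : (ρ.toHomUnits.ker ⊓ Subgroup.center G) ≠ ⊥ := by
      intro h
      have hKnt : Nontrivial ρ.toHomUnits.ker := (Subgroup.nontrivial_iff_ne_bot _).mpr hK
      obtain ⟨k, hk⟩ := (hG'.to_subgroup ρ.toHomUnits.ker).exists_card_eq
      have hmod : Nat.card (MulAction.fixedPoints (ConjAct G) ρ.toHomUnits.ker) ≡
          Nat.card ρ.toHomUnits.ker [MOD p] :=
        ((hG'.of_equiv ConjAct.toConjAct).card_modEq_card_fixedPoints _).symm
      have hone : Nat.card (MulAction.fixedPoints (ConjAct G) ρ.toHomUnits.ker) = 1 := by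
        rw [Nat.card_eq_one_iff_unique]
        refine ⟨⟨fun a b => ?_⟩, ⟨⟨1, fun g => smul_one g⟩⟩⟩
        have key : ∀ a : MulAction.fixedPoints (ConjAct G) ρ.toHomUnits.ker,
            ((a : ρ.toHomUnits.ker) : G) = 1 := by
          intro a
          have hm : ((a : ρ.toHomUnits.ker) : G) ∈ ρ.toHomUnits.ker ⊓ Subgroup.center G := by
            refine ⟨a.1.2, Subgroup.mem_center_iff.mpr fun g => ?_⟩
            have := congrArg Subtype.val (a.2 (ConjAct.toConjAct g))
            rw [ConjAct.Subgroup.val_conj_smul, ConjAct.toConjAct_smul] at this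
            exact mul_inv_eq_iff_eq_mul.mp this
          rwa [h, Subgroup.mem_bot] at hm
        exact Subtype.ext (Subtype.ext ((key a).trans (key b).symm))
      rw [hone, hk] at hmod
      rcases k with _ | k
      · exact absurd (Finite.one_lt_card (α := ρ.toHomUnits.ker)) (by rw [hk]; simp)
      · rw [Nat.ModEq, pow_succ, Nat.mul_mod_left,
          Nat.mod_eq_of_lt (Fact.out : p.Prime).one_lt] at hmod
        omega
    have hWnt : Nontrivial (ρ.toHomUnits.ker ⊓ Subgroup.center G : Subgroup G) :=
      (Subgroup.nontrivial_iff_ne_bot _).mpr hcenter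
    obtain ⟨w, hw⟩ := exists_prime_orderOf_dvd_card'
      (G := (ρ.toHomUnits.ker ⊓ Subgroup.center G : Subgroup G)) p (by
      obtain ⟨k, hk⟩ := (hG'.to_subgroup
        (ρ.toHomUnits.ker ⊓ Subgroup.center G : Subgroup G)).exists_card_eq
      rcases k with _ | k
      · exact absurd (Finite.one_lt_card
          (α := (ρ.toHomUnits.ker ⊓ Subgroup.center G : Subgroup G))) (by rw [hk]; simp)
      · rw [hk]
        exact dvd_pow_self p (Nat.succ_ne_zero k))
    let w' : Subgroup.center G := ⟨w, w.2.2⟩
    have hw' : orderOf w' = p := by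
      rw [← orderOf_injective (Subgroup.center G).subtype Subtype.val_injective w']
      exact (orderOf_injective (Subgroup.subtype _) Subtype.val_injective w).trans hw
    have hzw : Subgroup.zpowers z = Subgroup.zpowers w' := by
      have := hcyc
      have := Fintype.ofFinite (Subgroup.center G)
      have key : ∀ x : Subgroup.center G, orderOf x = p →
          ((Subgroup.zpowers x : Subgroup _) : Set (Subgroup.center G)) =
            {a : Subgroup.center G | a ^ p = 1} := by
        intro x hx
        refine Set.eq_of_subset_of_ncard_le (fun a ha => ?_) ?_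
        · obtain ⟨i, rfl⟩ := Subgroup.mem_zpowers_iff.mp ha
          show (x ^ i) ^ p = 1
          rw [← zpow_natCast, ← zpow_mul, mul_comm, zpow_mul, zpow_natCast, ← hx,
            pow_orderOf_eq_one, one_zpow]
        · rw [show ((Subgroup.zpowers x : Subgroup _) : Set (Subgroup.center G)).ncard = p by
              rw [← Nat.card_coe_set_eq]
              exact (Nat.card_zpowers x).trans hx,
            Set.ncard_eq_toFinset_card']
          refine le_trans (le_of_eq ?_)
            (IsCyclic.card_pow_eq_one_le (α := Subgroup.center G) (Fact.out : p.Prime).pos)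
          congr 1
          ext a
          simp
      exact SetLike.coe_injective ((key z hz).trans (key w' hw').symm)
    obtain ⟨i, hi⟩ := Subgroup.mem_zpowers_iff.mp (hzw ▸ Subgroup.mem_zpowers z)
    apply hχ
    rw [← hρχ, Representation.char_one]
    refine (Lib.Char.character_eq_degree_iff ρ _).mpr ?_
    have hzk : (z : G) ∈ ρ.toHomUnits.ker := by
      rw [← hi, Subgroup.coe_zpow]
      exact Subgroup.zpow_mem _ w.2.1 i
    exact congrArg Units.val (MonoidHom.mem_ker.mp hzk)

end Cfsg.Agent.S0184
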