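import Cfsg.Statements.S0185
import Cfsg.Agent.Lib.Char.Abelian
import Cfsg.Agent.Lib.Char.Ito

set_option autoImplicit false
open Cfsg

namespace Cfsg.Agent.S0185

/-- If a finite group has a faithful complex representation of degree less than the smallest prime dividing its order, the group is abelian. -/
theorem result {G : Type*} [Group G] [Finite G] {V : Type*} [AddCommGroup V] [Module ℂ V] [FiniteDimensional ℂ V] (ρ : Representation ℂ G V) (hfaithful : Function.Injective ρ) (hdeg : ∀ p : ℕ, p.Prime → p ∣ Nat.card G → Module.finrank ℂ V < p) (a b : G) : a * b = b * a := by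
  refine Lib.Char.comm_of_linear_constituents ρ hfaithful (fun {_} χ hne => ?_) a b
  have hle := Lib.Char.constituent_degree_le (Lib.Char.isCharacter_character ρ) χ.2 hne
  rw [Lib.Char.charDegree_eq_of_apply_one ρ.char_one] at hle
  have hd := Lib.Char.charDegree_dvd_card χ.2
  refine (Lib.Char.charDegree_eq_one_iff χ.2).mp ?_
  by_contra h1
  obtain ⟨p, hp, hpd⟩ := Nat.exists_prime_and_dvd h1
  have := hdeg p hp (hpd.trans hd)
  have := Nat.le_of_dvd (Lib.Char.charDegree_pos χ.2) hpd
  omega

end Cfsg.Agent.S0185
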