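import Cfsg.Statements.S0186
import Cfsg.Agent.Lib.Char.Abelian
import Cfsg.Agent.Lib.Char.Ito

set_option autoImplicit false
open Cfsg

namespace Cfsg.Agent.S0186

/-- Let G be a finite simple group of order n and p a prime dividing n. If G has more than n / p^2 conjugacy classes, then every Sylow p-subgroup of G is abelian. -/
theorem result {G : Type*} [Group G] [Finite G] [IsSimpleGroup G] (p : ℕ) [Fact p.Prime] (hp : p ∣ Nat.card G) (hmany : Nat.card G < p ^ 2 * Nat.card (ConjClasses G)) (P : Sylow p G) (a b : G) (ha : a ∈ P) (hb : b ∈ P) : a * b = b * a := by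
  classical
  have := Fintype.ofFinite G
  have := Fintype.ofFinite (P : Subgroup G)
  by_contra hne
  have hdeg : ∀ χ : Cfsg.IrrCharacter G, (χ : G → ℂ) ≠ (fun _ => 1) →
      p ≤ Cfsg.charDegree (χ : G → ℂ) := by
    intro χ hχ
    obtain ⟨n, ρ, hρ, hρχ⟩ := χ.2
    have hinj : Function.Injective ρ := by
      have hker : Lib.Char.charKer (χ : G → ℂ) = ⊥ := by
        refine ((Lib.Char.charKer_normal (Lib.Char.isCharacter_of_isIrr χ.2)).eq_bot_or_eq_top
          ).resolve_right fun htop => hχ ?_
        have hall : ∀ g : G, (χ : G → ℂ) g = (χ : G → ℂ) 1 := fun g =>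
          (Lib.Char.mem_charKer (Lib.Char.isCharacter_of_isIrr χ.2)).mp
            (htop ▸ Subgroup.mem_top g)
        have h1 := Lib.Char.classInner_irr_self χ.2
        simp only [Cfsg.classInner, hall, Finset.sum_const, Finset.card_univ, nsmul_eq_mul,
          ← Nat.card_eq_fintype_card] at h1
        rw [← mul_assoc, inv_mul_cancel₀ (Lib.Char.card_ne_zero_complex G), one_mul,
          Lib.Char.apply_one_eq_charDegree (Lib.Char.isCharacter_of_isIrr χ.2), map_natCast] at h1
        have h2 : Cfsg.charDegree (χ : G → ℂ) * Cfsg.charDegree (χ : G → ℂ) = 1 := by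
          exact_mod_cast h1
        funext g
        rw [hall, Lib.Char.apply_one_eq_charDegree (Lib.Char.isCharacter_of_isIrr χ.2),
          (mul_eq_one.mp h2).1, Nat.cast_one]
      intro x y hxy
      have h1 : ρ (x⁻¹ * y) = 1 := by rw [map_mul, ← hxy, ← map_mul, inv_mul_cancel, map_one]
      have hmem : x⁻¹ * y ∈ Lib.Char.charKer (χ : G → ℂ) := by
        rw [Lib.Char.mem_charKer (Lib.Char.isCharacter_of_isIrr χ.2), ← hρχ, Representation.char_one]
        exact (Lib.Char.character_eq_degree_iff ρ _).mpr h1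
      rw [hker, Subgroup.mem_bot] at hmem
      exact inv_mul_eq_one.mp hmem
    by_contra hlt
    push Not at hlt
    apply hne
    have hab := Lib.Char.comm_of_linear_constituents (G := (P : Subgroup G))
      (ρ.comp (P : Subgroup G).subtype) (hinj.comp Subtype.val_injective) (fun {_} φ hφ => ?_)
      ⟨a, ha⟩ ⟨b, hb⟩
    · exact congrArg Subtype.val hab
    · refine (Lib.Char.charDegree_eq_one_iff φ.2).mp ?_
      have hd := Lib.Char.charDegree_dvd_card φ.2
      have hle := Lib.Char.constituent_degree_le (Lib.Char.isCharacter_character _) φ.2 hφ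
      have hn : Cfsg.charDegree (χ : G → ℂ) = n :=
        Lib.Char.charDegree_eq_of_apply_one (by rw [← hρχ]; simp)
      rw [Lib.Char.charDegree_eq_of_apply_one
        (χ := Representation.character (ρ.comp (P : Subgroup G).subtype)) (n := n)
        (by rw [Representation.char_one]; simp)] at hle
      obtain ⟨k, hk⟩ := P.2.exists_card_eq
      rw [hk] at hd
      obtain ⟨j, -, hj⟩ := (Nat.dvd_prime_pow (Fact.out : p.Prime)).mp hd
      rcases j with _ | j
      · simpa using hj
      · exfalso
        have : p ≤ p ^ (j + 1) := Nat.le_self_pow (Nat.succ_ne_zero j) p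
        omega
  -- a non-abelian Sylow subgroup has order divisible by `p ^ 2`
  have hp2 : p ^ 2 ∣ Nat.card G := by
    obtain ⟨k, hk⟩ := P.2.exists_card_eq
    by_cases hk2 : 2 ≤ k
    · exact ((pow_dvd_pow p hk2).trans hk.symm.dvd).trans (Subgroup.card_subgroup_dvd_card _)
    · exfalso
      apply hne
      have hcyc : IsCyclic (P : Subgroup G) := by
        have hk01 : k = 0 ∨ k = 1 := by omega
        rcases hk01 with rfl | rfl
        · have : Subsingleton (P : Subgroup G) :=
            (Nat.card_eq_one_iff_unique.mp (by simpa using hk)).1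
          exact isCyclic_of_subsingleton
        · exact isCyclic_of_prime_card (p := p) (by simpa using hk)
      exact congrArg Subtype.val (IsCyclic.commGroup.mul_comm (⟨a, ha⟩ : (P : Subgroup G)) ⟨b, hb⟩)
  let one : Cfsg.IrrCharacter G := ⟨fun _ => 1, Lib.Char.isIrrCharacter_one⟩
  have hsum := Lib.Char.sum_charDegree_sq (G := G)
  rw [← Finset.add_sum_erase _ _ (Finset.mem_univ one)] at hsum
  have hle : (Finset.univ.erase one).card * p ^ 2 ≤
      ∑ χ ∈ Finset.univ.erase one, Cfsg.charDegree (χ : G → ℂ) ^ 2 := by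
    rw [← smul_eq_mul]
    exact Finset.card_nsmul_le_sum _ _ _ fun χ hχ => Nat.pow_le_pow_left
      (hdeg χ fun e => (Finset.mem_erase.mp hχ).1 (Subtype.ext e)) 2
  rw [Finset.card_erase_of_mem (Finset.mem_univ _), Finset.card_univ, ← Nat.card_eq_fintype_card,
    Lib.Char.card_irr_eq_card_conjClasses] at hle
  rw [show Cfsg.charDegree (one : G → ℂ) = 1 from Lib.Char.charDegree_one, one_pow] at hsum
  obtain ⟨q, hq⟩ := hp2
  have hk1 : 1 ≤ Nat.card (ConjClasses G) := Nat.card_pos
  have hp0 : 0 < p ^ 2 := pow_pos (Fact.out : p.Prime).pos 2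
  have hqk : q < Nat.card (ConjClasses G) := by
    rw [hq] at hmany
    exact Nat.lt_of_mul_lt_mul_left hmany
  have h3 : q * p ^ 2 ≤ (Nat.card (ConjClasses G) - 1) * p ^ 2 :=
    Nat.mul_le_mul_right _ (by omega)
  have h4 : q * p ^ 2 = p ^ 2 * q := mul_comm _ _
  omega

end Cfsg.Agent.S0186
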