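import Cfsg.Statements.S0189
import Cfsg.Agent.Lib.Char.Orthogonality

set_option autoImplicit false
open Cfsg

namespace Cfsg.Agent.S0189

/-- If a complex character of a finite group vanishes at every non-identity element of a Sylow p-subgroup P, then |P| divides its degree. -/
theorem result {G : Type*} [Group G] [Finite G] (p : ℕ) [Fact p.Prime] (P : Sylow p G) (χ : G → ℂ) (hχ : Cfsg.IsCharacter G χ) (hvan : ∀ g : G, g ∈ P → g ≠ 1 → χ g = 0) : ∃ k : ℕ, χ 1 = (Nat.card P : ℂ) * k := by
  classical
  have := Fintype.ofFinite (P : Subgroup G)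
  obtain ⟨k, hk⟩ := Lib.Char.classInner_natCast (Lib.Char.isCharacter_restrict hχ (P : Subgroup G))
    (Lib.Char.isCharacter_one (G := (P : Subgroup G)))
  refine ⟨k, ?_⟩
  rw [Cfsg.classInner, Finset.sum_eq_single 1] at hk
  · rw [← hk, ← mul_assoc, mul_inv_cancel₀ (Lib.Char.card_ne_zero_complex _)]
    simp
  · intro b _ hb
    rw [hvan b b.2 (fun e => hb (Subtype.ext e)), zero_mul]
  · simp

end Cfsg.Agent.S0189
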