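import Cfsg.Statements.S0191
import Cfsg.Agent.Lib.CharGalois
import Cfsg.Agent.Lib.Char.Degree

set_option autoImplicit false
open Cfsg

namespace Cfsg.Agent.S0191

/-- An irreducible complex representation of a finite group of degree greater than 1 has a character that vanishes somewhere. -/
theorem result {G : Type*} [Group G] [Finite G] {V : Type*} [AddCommGroup V] [Module ℂ V] [FiniteDimensional ℂ V] (ρ : Representation ℂ G V) [ρ.IsIrreducible] (hdeg : 1 < Module.finrank ℂ V) : ∃ g : G, ρ.character g = 0 := by
  classical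
  have := Fintype.ofFinite G
  by_contra hc
  push Not at hc
  have hirr := Lib.Char.isIrrCharacter_character ρ
  have hch := Lib.Char.isCharacter_of_isIrr hirr
  have h1 := Lib.CharGalois.card_nonzero_le_sum_normSq hch (Finset.univ.erase (1 : G))
    (fun g hg k hk => Finset.mem_erase.mpr ⟨fun e => (Finset.mem_erase.mp hg).1
      (Lib.CharGalois.pow_injective hk (e.trans (one_pow k).symm)), Finset.mem_univ _⟩)
  rw [Finset.filter_true_of_mem (fun g _ => hc g)] at h1
  have hnorm := Lib.Char.classInner_irr_self hirr
  rw [Cfsg.classInner, inv_mul_eq_one₀ (Lib.Char.card_ne_zero_complex G)] at hnorm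
  simp only [Complex.mul_conj] at hnorm
  rw [← Complex.ofReal_sum] at hnorm
  have hn : (Nat.card G : ℝ) = ∑ g : G, Complex.normSq (ρ.character g) := by exact_mod_cast hnorm
  rw [← Finset.add_sum_erase _ _ (Finset.mem_univ (1 : G))] at hn
  have hone : Complex.normSq (ρ.character 1) = (Module.finrank ℂ V : ℝ) ^ 2 := by
    simp [sq]
  have hcard : ((Finset.univ.erase (1 : G)).card : ℝ) = (Nat.card G : ℝ) - 1 := by
    rw [Finset.card_erase_of_mem (Finset.mem_univ _), Finset.card_univ, ← Nat.card_eq_fintype_card,
      Nat.cast_sub Nat.card_pos, Nat.cast_one]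
  rw [hone] at hn
  rw [hcard] at h1
  have : (2 : ℝ) ≤ (Module.finrank ℂ V : ℝ) := by exact_mod_cast hdeg
  nlinarith

end Cfsg.Agent.S0191
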