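import Cfsg.Statements.S0192
import Cfsg.Agent.Lib.Char.Orthogonality

set_option autoImplicit false
open Cfsg

namespace Cfsg.Agent.S0192

/-- Brauer's generation criterion. Let G be a finite simple group, H₁ and H₂ subgroups, and χ a non-principal irreducible character. If the multiplicity of the principal character in χ restricted to H₁ ⊓ H₂ is less than the sum of the corresponding multiplicities for H₁ and H₂, then H₁ and H₂ do not generate G. -/
theorem result {G : Type*} [Group G] [Fintype G] [IsSimpleGroup G] (H₁ H₂ : Subgroup G) [Fintype H₁] [Fintype H₂] [Fintype ↥(H₁ ⊓ H₂)] (χ : G → ℂ) (hχ : Cfsg.IsIrrCharacter G χ) (hχ1 : χ ≠ fun _ => 1) (hlt : (Cfsg.classInner (fun x : ↥(H₁ ⊓ H₂) => χ x) (fun _ => 1)).re < (Cfsg.classInner (fun x : H₁ => χ x) (fun _ => 1)).re + (Cfsg.classInner (fun x : H₂ => χ x) (fun _ => 1)).re) : H₁ ⊔ H₂ ≠ ⊤ := by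
  classical
  obtain ⟨n, ρ, hρ, rfl⟩ := hχ
  intro htop
  have key : ∀ (H : Subgroup G) [Fintype H], Cfsg.classInner (fun x : H => ρ.character x)
      (fun _ => (1 : ℂ)) = (Module.finrank ℂ (Representation.invariants (ρ.comp H.subtype)) : ℂ) := by
    intro H _
    rw [← Representation.card_inv_mul_sum_char_eq_finrank]
    simp [Cfsg.classInner]
    rfl
  rw [key, key, key] at hlt
  simp only [Complex.natCast_re] at hlt
  set U₁ := Representation.invariants (ρ.comp H₁.subtype) with hU₁
  set U₂ := Representation.invariants (ρ.comp H₂.subtype) with hU₂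
  set UD := Representation.invariants (ρ.comp (H₁ ⊓ H₂).subtype) with hUD
  have hinf : U₁ ⊓ U₂ = ⊥ := by
    rw [eq_bot_iff]
    rintro v ⟨hv1, hv2⟩
    by_contra hv
    have hle : (⊤ : Subgroup G) ≤ Subgroup.closure {g : G | ρ g v = v} := by
      rw [← htop]
      exact sup_le (fun g hg => Subgroup.subset_closure (hv1 ⟨g, hg⟩))
        (fun g hg => Subgroup.subset_closure (hv2 ⟨g, hg⟩))
    have hfix : ∀ g : G, ρ g v = v := fun g => by
      refine Subgroup.closure_induction (fun x hx => hx) (by simp) (fun a b _ _ ha hb => ?_)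
        (fun a _ ha => ?_) (hle (Subgroup.mem_top g))
      · rw [map_mul, Module.End.mul_apply, hb, ha]
      · exact (ρ.inv_apply_eq_iff).mpr ha.symm
    let S : Subrepresentation ρ := ⟨ℂ ∙ v, fun g w hw => by
      obtain ⟨c, rfl⟩ := Submodule.mem_span_singleton.mp hw
      rw [map_smul, hfix g]
      exact hw⟩
    rcases hρ.eq_bot_or_eq_top S with h | h
    · exact hv (Submodule.span_singleton_eq_bot.mp (congrArg Subrepresentation.toSubmodule h))
    · refine hχ1 (funext fun g => ?_)
      have htop' : (ℂ ∙ v) = ⊤ := congrArg Subrepresentation.toSubmodule h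
      have h1 : ρ g = 1 := LinearMap.ext fun w => by
        obtain ⟨c, rfl⟩ := Submodule.mem_span_singleton.mp (htop' ▸ Submodule.mem_top : w ∈ ℂ ∙ v)
        rw [map_smul, hfix g]
        rfl
      have hd : Module.finrank ℂ (Fin n → ℂ) = 1 := by
        rw [← finrank_top ℂ (Fin n → ℂ), ← htop']
        exact finrank_span_singleton hv
      rw [Representation.character, h1, LinearMap.trace_one, hd, Nat.cast_one]
  have h1 : U₁ ≤ UD := fun v hv g => hv ⟨(g : G), g.2.1⟩
  have h2 : U₂ ≤ UD := fun v hv g => hv ⟨(g : G), g.2.2⟩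
  have hsum := Submodule.finrank_sup_add_finrank_inf_eq U₁ U₂
  rw [hinf, finrank_bot, add_zero] at hsum
  have hmono := Submodule.finrank_mono (sup_le h1 h2)
  rw [hsum] at hmono
  have : ((Module.finrank ℂ U₁ + Module.finrank ℂ U₂ : ℕ) : ℝ) ≤ (Module.finrank ℂ UD : ℝ) := by
    exact_mod_cast hmono
  push_cast at this
  linarith

end Cfsg.Agent.S0192
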