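import Cfsg.Statements.S0194
import Cfsg.Agent.Lib.Char.Clifford
import Cfsg.Agent.Lib.Char.BrauerPerm

set_option autoImplicit false
open scoped ComplexConjugate
open Cfsg

namespace Cfsg.Agent.S0194

/-- Let G have odd order, H be a normal subgroup and θ a non-principal irreducible character of H. Then the function induced from θ is orthogonal to its complex conjugate. -/
theorem result {G : Type*} [Group G] [Fintype G] (hodd : Odd (Nat.card G)) (H : Subgroup G) [H.Normal] (θ : H → ℂ) (hθ : Cfsg.IsIrrCharacter H θ) (hθ1 : θ ≠ fun _ => 1) : Cfsg.classInner (fun g => conj (Cfsg.indFun H θ g)) (Cfsg.indFun H θ) = 0 := by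
  have := Fintype.ofFinite H
  have hconj : (fun g => conj (Cfsg.indFun H θ g)) = Cfsg.indFun H (fun h => conj (θ h)) := by
    funext g
    simp only [Cfsg.indFun, map_mul, map_inv₀, map_natCast, map_sum]
    congr 1
    refine Finset.sum_congr rfl fun x _ => ?_
    by_cases hx : x⁻¹ * g * x ∈ H
    · rw [Lib.Char.extendByZero_mem _ _ hx, Lib.Char.extendByZero_mem _ _ hx]
    · rw [Lib.Char.extendByZero_not_mem _ _ hx, Lib.Char.extendByZero_not_mem _ _ hx, map_zero]
  have hθc : Cfsg.IsIrrCharacter H (fun h => conj (θ h)) := by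
    refine Lib.Char.isIrrCharacter_of_norm_one
      (Lib.Char.isCharacter_conj (Lib.Char.isCharacter_of_isIrr hθ)) ?_
    rw [← map_one (starRingEnd ℂ), ← Lib.Char.classInner_irr_self hθ]
    simp [Cfsg.classInner, map_sum]
  rw [hconj, Lib.Char.classInner_indFun H _ (Lib.Char.isClassFunction_indFun H θ),
    Lib.Char.indFun_restrict_normal, Lib.Char.classInner_smul_right, Lib.Char.classInner_sum_right,
    Finset.sum_eq_zero fun x _ => Lib.Char.classInner_irr_ne hθc
      (Lib.Char.isIrrCharacter_conjChar H x hθ) ?_, mul_zero]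
  intro hx
  apply hθ1
  obtain ⟨k, hk⟩ := hodd
  -- `x ^ 2` fixes `θ`, hence so does `x`
  have h2 : x ^ 2 ∈ Lib.Char.inertia H θ := by
    show Lib.Char.conjChar H (x ^ 2) θ = θ
    rw [sq, Lib.Char.conjChar_mul, ← hx]
    funext n
    have hx' := congrFun hx n
    show conj (θ _) = θ n
    rw [show θ ⟨x * n * x⁻¹, (inferInstance : H.Normal).conj_mem n n.2 x⟩ =
      Lib.Char.conjChar H x θ n from rfl, ← hx', Complex.conj_conj]
  have hxin : x ∈ Lib.Char.inertia H θ := by
    have : (x ^ 2) ^ (k + 1) = x := by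
      rw [← pow_mul, show 2 * (k + 1) = (2 * k + 1) + 1 by ring, pow_succ, ← hk, pow_card_eq_one',
        one_mul]
    rw [← this]
    exact Subgroup.pow_mem _ h2 _
  have hxin' : Lib.Char.conjChar H x θ = θ := hxin
  rw [hxin'] at hx
  exact Lib.Char.eq_one_of_real (Odd.of_dvd_nat ⟨k, hk⟩ (Subgroup.card_subgroup_dvd_card H))
    ⟨θ, hθ⟩ fun g => Complex.conj_eq_iff_im.mp (congrFun hx g)

end Cfsg.Agent.S0194
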