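import Cfsg.Statements.S0196
import Mathlib.Algebra.BigOperators.Ring.Finset
import Mathlib.GroupTheory.GroupAction.Quotient

set_option autoImplicit false
open Cfsg

namespace Cfsg.Agent.S0196

/-- Let A be a subgroup of a finite group G that equals the centralizer of each of its non-identity elements, and let N be its normalizer. Then the index of A in N divides |A| − 1 (N/A permutes the non-identity elements of A in orbits of full length). -/
theorem result {G : Type*} [Group G] [Finite G] (A : Subgroup G) (hA : ∀ x ∈ A, x ≠ 1 → Subgroup.centralizer ({x} : Set G) = A) : (A.subgroupOf (Subgroup.normalizer (A : Set G))).index ∣ Nat.card A - 1 := by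
  classical
  set N := Subgroup.normalizer (A : Set G)
  let X := {x : A // x ≠ 1}
  let _ : MulAction N X :=
    { smul := fun n x => ⟨⟨(n : G) * (x.1 : G) * (n : G)⁻¹,
        (Subgroup.mem_normalizer_iff.mp n.2 _).mp x.1.2⟩, fun e => x.2 (Subtype.ext (by
          simpa using congrArg Subtype.val e))⟩
      one_smul := fun x => Subtype.ext (Subtype.ext (by
        show ((1 : N) : G) * (x.1 : G) * ((1 : N) : G)⁻¹ = x.1
        simp))
      mul_smul := fun a b x => Subtype.ext (Subtype.ext (by
        show ((a * b : N) : G) * (x.1 : G) * ((a * b : N) : G)⁻¹ =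
          (a : G) * ((b : G) * (x.1 : G) * (b : G)⁻¹) * (a : G)⁻¹
        simp [mul_assoc])) }
  have hstab : ∀ x : X, MulAction.stabilizer N x = A.subgroupOf N := by
    intro x
    ext n
    rw [MulAction.mem_stabilizer_iff, Subgroup.mem_subgroupOf]
    conv_rhs => rw [← hA x.1 x.1.2 (fun e => x.2 (Subtype.ext e))]
    rw [Subgroup.mem_centralizer_singleton_iff]
    constructor
    · intro h
      exact mul_inv_eq_iff_eq_mul.mp (congrArg (fun y : X => (y.1 : G)) h)
    · intro h
      exact Subtype.ext (Subtype.ext (mul_inv_eq_iff_eq_mul.mpr h))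
  have hcard : Nat.card X = Nat.card A - 1 := by
    have := Fintype.ofFinite A
    rw [Nat.card_eq_fintype_card, Nat.card_eq_fintype_card, Fintype.card_subtype_compl,
      Fintype.card_subtype_eq]
  rw [← hcard, Nat.card_congr (MulAction.selfEquivSigmaOrbitsQuotientStabilizer N X)]
  have := Fintype.ofFinite (Quotient (MulAction.orbitRel N X))
  rw [Nat.card_sigma]
  refine Finset.dvd_sum fun w _ => ?_
  rw [hstab]
  exact dvd_rfl

end Cfsg.Agent.S0196
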