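import Cfsg.Statements.S0210
import Cfsg.Agent.Lib.Involution.Basic

set_option autoImplicit false
open Cfsg

namespace Cfsg.Agent.S0210

open Cfsg.Agent.Lib.Involution

/-- If x, y are involutions whose product has even order, no element of the subgroup generated by x and y conjugates x to y. -/
theorem result {G : Type*} [Group G] [Finite G] (x y : G) (hx : orderOf x = 2) (hy : orderOf y = 2) (heven : Even (orderOf (x * y))) (d : G) (hd : d ∈ Subgroup.closure ({x, y} : Set G)) : d * x * d⁻¹ ≠ y := by
  exact not_conj_of_even hx hy heven hd

end Cfsg.Agent.S0210
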