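import Cfsg.Statements.S0211
import Cfsg.Agent.Lib.Involution.Basic

set_option autoImplicit false
open Cfsg

namespace Cfsg.Agent.S0211

open Cfsg.Agent.Lib.Involution

/-- Let x, y be involutions with xy of even order n and z = (xy)^(n/2). Then xz is conjugate to x by an element of the subgroup generated by x, y if and only if 4 divides n. -/
theorem result {G : Type*} [Group G] [Finite G] (x y : G) (hx : orderOf x = 2) (hy : orderOf y = 2) (heven : Even (orderOf (x * y))) : (∃ d ∈ Subgroup.closure ({x, y} : Set G), d * x * d⁻¹ = x * (x * y) ^ (orderOf (x * y) / 2)) ↔ 4 ∣ orderOf (x * y) := by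
  obtain ⟨ho, hcx, -⟩ := half_prod hx hy heven (orderOf_pos _).ne'
  obtain ⟨m, hm⟩ := heven
  have hdiv : orderOf (x * y) / 2 = m := by omega
  rw [hdiv] at ho hcx ⊢
  constructor
  · rintro ⟨d, hd, he⟩
    obtain ⟨k, hk⟩ := conj_in_closure hx hy hd
    rw [he, ← hcx.eq, ← zpow_natCast] at hk
    have h1 := zpow_eq_zpow_iff_modEq.mp (mul_right_cancel hk)
    rw [Int.modEq_iff_dvd] at h1
    have h2 : (2 : ℤ) ∣ (k + k - m) :=
      dvd_trans ⟨(m : ℤ), by push_cast [hm]; ring⟩ h1
    omega
  · intro h4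
    have hm2 : 2 ∣ m := by omega
    obtain ⟨j, hj⟩ := hm2
    refine ⟨(x * y) ^ (j : ℤ), zpow_prod_mem_closure_pair x y _, ?_⟩
    rw [zpow_prod_conj hx hy, ← hcx.eq, ← zpow_natCast]
    congr 1
    congr 1
    omega

end Cfsg.Agent.S0211
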