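import Cfsg.Statements.S0212
import Cfsg.Agent.Lib.Involution.SimpleBound

set_option autoImplicit false
open Cfsg

namespace Cfsg.Agent.S0212

open Cfsg.Agent.Lib.Involution

/-- The Brauer–Fowler bound: if G is a finite simple group and t an involution of G whose centralizer has order n, then |G| ≤ (2n^2)!. -/
theorem result {G : Type*} [Group G] [Finite G] [IsSimpleGroup G] (t : G) (ht : orderOf t = 2) : Nat.card G ≤ Nat.factorial (2 * (Nat.card (Subgroup.centralizer ({t} : Set G))) ^ 2) := by
  exact simple_card_le_factorial t ht

end Cfsg.Agent.S0212
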