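import Cfsg.Statements.S0218
import Cfsg.Agent.Lib.Involution.Basic

set_option autoImplicit false
open Cfsg

namespace Cfsg.Agent.S0218

open Cfsg.Agent.Lib.Involution

/-- The generalized quaternion group of order 2^(n+3) contains exactly one element of order 2. -/
theorem result (n : ℕ) : Nat.card {x : QuaternionGroup (2 ^ (n + 1)) // orderOf x = 2} = 1 := by
  rw [Nat.card_eq_one_iff_exists]
  refine ⟨⟨QuaternionGroup.a ((2 ^ (n + 1) : ℕ) : ZMod (2 * 2 ^ (n + 1))), ?_⟩, ?_⟩
  · refine orderOf_two_of ?_ ?_
    · rw [QuaternionGroup.a_mul_a, QuaternionGroup.one_def, QuaternionGroup.a.injEq,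
        ← Nat.cast_add, ← two_mul, ZMod.natCast_self]
    · intro h
      rw [QuaternionGroup.one_def, QuaternionGroup.a.injEq, ZMod.natCast_eq_zero_iff] at h
      have := Nat.le_of_dvd (pow_pos two_pos (n + 1)) h
      have := Nat.pow_pos (a := 2) (n := n + 1) two_pos
      omega
  · rintro ⟨w, hw⟩
    apply Subtype.ext
    rcases w with i | i
    · change QuaternionGroup.a i = _
      have h := pow_orderOf_eq_one (QuaternionGroup.a i)
      rw [hw, pow_two, QuaternionGroup.a_mul_a, QuaternionGroup.one_def,
        QuaternionGroup.a.injEq] at h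
      have hne := ne_one hw
      rw [QuaternionGroup.one_def, Ne, QuaternionGroup.a.injEq] at hne
      rw [QuaternionGroup.a.injEq]
      have hv : i.val ≠ 0 := fun h0 => hne ((ZMod.val_eq_zero i).mp h0)
      have hlt := ZMod.val_lt i
      rw [← ZMod.natCast_zmod_val i, ← Nat.cast_add, ZMod.natCast_eq_zero_iff] at h
      rw [← ZMod.natCast_zmod_val i]
      congr 1
      obtain ⟨c, hc⟩ := h
      rcases c with _ | _ | c
      · omega
      · omega
      · exfalso; nlinarith
    · have h4 := QuaternionGroup.orderOf_xa i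
      omega

end Cfsg.Agent.S0218
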