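import Cfsg.Statements.S0220
import Cfsg.Agent.Lib.Involution.IndexTwo
import Cfsg.Agent.Lib.Involution.Nilpotent

set_option autoImplicit false
open Cfsg

namespace Cfsg.Agent.S0220

open Cfsg.Agent.Lib.Involution

/-- If x is an involution of a finite group G and a Sylow 2-subgroup of the centralizer of x is cyclic, then G has a subgroup of index 2; in particular G is not simple unless it has order 2. -/
theorem result {G : Type*} [Group G] [Finite G] (x : G) (hx : orderOf x = 2) (S : Sylow 2 ↥(Subgroup.centralizer ({x} : Set G))) (hS : IsCyclic (S : Subgroup ↥(Subgroup.centralizer ({x} : Set G)))) : ∃ H : Subgroup G, H.index = 2 := by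
  classical
  let C := Subgroup.centralizer ({x} : Set G)
  have hxC : x ∈ C := Subgroup.mem_centralizer_singleton_iff.mpr rfl
  -- `x` lies in `S`
  have hxS : (⟨x, hxC⟩ : C) ∈ S := by
    have hz : Subgroup.zpowers (⟨x, hxC⟩ : C) ≤ Subgroup.center C := by
      rw [Subgroup.zpowers_le, Subgroup.mem_center_iff]
      rintro ⟨c, hc⟩
      exact Subtype.ext (Subgroup.mem_centralizer_singleton_iff.mp hc)
    have : (Subgroup.zpowers (⟨x, hxC⟩ : C)).Normal :=
      ⟨fun a ha g => by rwa [Subgroup.mem_center_iff.mp (hz ha) g, mul_inv_cancel_right]⟩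
    have hp : IsPGroup 2 (Subgroup.zpowers (⟨x, hxC⟩ : C)) :=
      IsPGroup.of_card (n := 1) (by rw [Nat.card_zpowers, Subgroup.orderOf_mk, hx, pow_one])
    exact IsPGroup.le_sylow_of_normal hp S (Subgroup.mem_zpowers _)
  set S' : Subgroup G := (S : Subgroup C).map C.subtype with hS'
  have e := (S : Subgroup C).equivMapOfInjective C.subtype C.subtype_injective
  have hp' : IsPGroup 2 S' := S.isPGroup'.map _
  have : IsCyclic (S : Subgroup C) := hS
  have hcyc : IsCyclic S' := isCyclic_of_surjective e.toMonoidHom e.surjective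
  obtain ⟨P, hP⟩ := hp'.exists_le_sylow
  have heven : Even (Nat.card G) := by
    rw [even_iff_two_dvd, ← hx]
    exact orderOf_dvd_natCard x
  have huniq : ∀ y ∈ S', orderOf y = 2 → y = x := by
    intro y hy hy2
    have := Fintype.ofFinite S'
    have h1 := IsCyclic.card_orderOf_eq_totient (α := S') (d := 2)
      (by
        rw [← Nat.card_eq_fintype_card, ← hy2]
        exact Subgroup.orderOf_dvd_natCard _ hy)
    rw [Nat.totient_two, Finset.card_eq_one] at h1
    obtain ⟨w, hw⟩ := h1
    have hy' : (⟨y, hy⟩ : S') ∈ ({w} : Finset S') := by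
      rw [← hw, Finset.mem_filter]; exact ⟨Finset.mem_univ _, by rw [← Subgroup.orderOf_coe]; exact hy2⟩
    have hx' : (⟨x, ⟨⟨x, hxC⟩, hxS, rfl⟩⟩ : S') ∈ ({w} : Finset S') := by
      rw [← hw, Finset.mem_filter]; exact ⟨Finset.mem_univ _, by rw [← Subgroup.orderOf_coe]; exact hx⟩
    rw [Finset.mem_singleton] at hy' hx'
    exact congrArg Subtype.val (hy'.trans hx'.symm)
  have hSP : S' = P := by
    by_contra hne
    have : Fact (Nat.Prime 2) := ⟨Nat.prime_two⟩
    have : Group.IsNilpotent (P : Subgroup G) := P.isPGroup'.isNilpotent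
    have hnc : NormalizerCondition (P : Subgroup G) := normalizerCondition_of_isNilpotent
    have hlt : S'.subgroupOf P < ⊤ := by
      rw [lt_top_iff_ne_top, Ne, Subgroup.subgroupOf_eq_top]
      exact fun h => hne (le_antisymm hP h)
    obtain ⟨⟨n, hnP⟩, hn, hn'⟩ := SetLike.exists_of_lt (hnc _ hlt)
    rw [Subgroup.mem_normalizer_iff] at hn
    have hnS : ∀ y : G, y ∈ S' → n * y * n⁻¹ ∈ S' := fun y hy =>
      (hn ⟨y, hP hy⟩).mp hy
    have hnx : n * x * n⁻¹ = x :=
      huniq _ (hnS x ⟨⟨x, hxC⟩, hxS, rfl⟩) ((orderOf_conj n x).trans hx)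
    have hnC : n ∈ C := Subgroup.mem_centralizer_singleton_iff.mpr (mul_inv_eq_iff_eq_mul.mp hnx)
    have hT : IsPGroup 2 ((P : Subgroup G).comap C.subtype) :=
      P.isPGroup'.comap_of_injective _ C.subtype_injective
    have hST : (S : Subgroup C) ≤ (P : Subgroup G).comap C.subtype :=
      fun w hw => hP ⟨w, hw, rfl⟩
    have hTS := S.is_maximal' hT hST
    apply hn'
    have : (⟨n, hnC⟩ : C) ∈ (S : Subgroup C) := by rw [← hTS]; exact hnP
    exact ⟨⟨n, hnC⟩, this, rfl⟩
  exact exists_index_two_of_cyclic_sylow heven P (hSP ▸ hcyc)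

end Cfsg.Agent.S0220
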