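import Cfsg.Statements.S0221
import Cfsg.Agent.S0111
import Cfsg.Agent.Lib.OddLocal.SCN
import Cfsg.Agent.Lib.UniqueInvolution
import Cfsg.Agent.Lib.Thompson.Elementary
import Mathlib

set_option autoImplicit false
open Cfsg

namespace Cfsg.Agent.S0221

open Subgroup

theorem root_cases (n : ℕ) (k : ZMod (2 ^ (n + 1))) (h : k * k = 1) :
    k = 1 ∨ k = -1 ∨ k = 1 + 2 ^ n ∨ k = -1 + 2 ^ n := by
  obtain ⟨j, rfl⟩ := ZMod.intCast_surjective k
  have h' : ((j * j - 1 : ℤ) : ZMod (2 ^ (n + 1))) = 0 := by push_cast; rw [h, sub_self]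
  rw [ZMod.intCast_zmod_eq_zero_iff_dvd] at h'
  push_cast at h'
  have h2 : (2 : ℤ) ∣ j * j - 1 := (dvd_pow_self (2 : ℤ) (Nat.succ_ne_zero n)).trans h'
  have hj : ∃ i, j = 2 * i + 1 := by
    rcases Int.even_or_odd j with ⟨i, hi⟩ | ⟨i, hi⟩
    · subst hi
      have e : (i + i) * (i + i) = 2 * (2 * i * i) := by ring
      rw [e] at h2
      omega
    · exact ⟨i, hi⟩
  obtain ⟨i, rfl⟩ := hj
  -- `2 ^ n` divides `j - 1` or `j + 1`
  have key : (2 : ℤ) ^ n ∣ 2 * i ∨ (2 : ℤ) ^ n ∣ 2 * i + 2 := by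
    rcases n with _ | m
    · left; simp
    rcases Int.even_or_odd i with ⟨w, hw⟩ | ⟨w, hw⟩
    · left
      subst hw
      have e : (2 * (w + w) + 1) * (2 * (w + w) + 1) - 1 = (2 * (2 * w + 1)) * (2 * (w + w)) := by ring
      rw [e, pow_succ' (2 : ℤ) (m + 1), mul_assoc (2 : ℤ)] at h'
      have h'' := Int.dvd_of_mul_dvd_mul_left (by norm_num : (2 : ℤ) ≠ 0) h'
      exact (IsCoprime.dvd_of_dvd_mul_left
        (IsCoprime.pow_left ⟨-w, 1, by ring⟩) h'')
    · right
      subst hw
      have e : (2 * (2 * w + 1) + 1) * (2 * (2 * w + 1) + 1) - 1 =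
          (2 * (2 * w + 1)) * (2 * (2 * w + 1) + 2) := by ring
      rw [e, pow_succ' (2 : ℤ) (m + 1), mul_assoc (2 : ℤ)] at h'
      have h'' := Int.dvd_of_mul_dvd_mul_left (by norm_num : (2 : ℤ) ≠ 0) h'
      exact (IsCoprime.dvd_of_dvd_mul_left
        (IsCoprime.pow_left ⟨-w, 1, by ring⟩) h'')
  have hp : ((2 : ZMod (2 ^ (n + 1))) ^ n) * 2 = 0 := by
    rw [← pow_succ]
    exact_mod_cast ZMod.natCast_self (2 ^ (n + 1))
  rcases key with ⟨t, ht⟩ | ⟨t, ht⟩
  · have hj : ((2 * i + 1 : ℤ) : ZMod (2 ^ (n + 1))) = 2 ^ n * (t : ZMod _) + 1 := by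
      rw [ht]; push_cast; rfl
    rw [hj]
    rcases Int.even_or_odd t with ⟨u, hu⟩ | ⟨u, hu⟩ <;> subst hu <;> push_cast
    · left; linear_combination (u : ZMod (2 ^ (n + 1))) * hp
    · right; right; left; linear_combination (u : ZMod (2 ^ (n + 1))) * hp
  · have hj : ((2 * i + 1 : ℤ) : ZMod (2 ^ (n + 1))) = 2 ^ n * (t : ZMod _) - 1 := by
      rw [show (2 * i + 1 : ℤ) = 2 ^ n * t - 1 by linarith]; push_cast; rfl
    rw [hj]
    rcases Int.even_or_odd t with ⟨u, hu⟩ | ⟨u, hu⟩ <;> subst hu <;> push_cast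
    · right; left; linear_combination (u : ZMod (2 ^ (n + 1))) * hp
    · right; right; right; linear_combination (u : ZMod (2 ^ (n + 1))) * hp

/-- A 2-group of rank at least three has a normal four group `⟨z, e⟩` with `z` central. -/
theorem exists_four {P : Type*} [Group P] [Finite P] (hP : IsPGroup 2 P) (E : Subgroup P)
    (hE : Nat.card E = 8) (hE2 : ∀ x ∈ E, x ^ 2 = 1) :
    ∃ z e : P, z * z = 1 ∧ e * e = 1 ∧ z ≠ 1 ∧ e ≠ 1 ∧ e ≠ z ∧ (∀ s, s * z = z * s) ∧
      ∀ s, s * e * s⁻¹ = e ∨ s * e * s⁻¹ = e * z := by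
  classical
  have : Fact (Nat.Prime 2) := ⟨Nat.prime_two⟩
  have : Nontrivial P := by
    refine Finite.one_lt_card_iff_nontrivial.1 ?_
    have := Subgroup.card_le_card_group E
    omega
  obtain ⟨A, -, hAn, hAc, hCA⟩ :=
    Cfsg.Agent.Lib.OddLocal.exists_selfCentralizing_normal hP (⊥ : Subgroup P) inferInstance
  -- a central involution
  obtain ⟨z, hz, hz1, hzc⟩ : ∃ z : P, z * z = 1 ∧ z ≠ 1 ∧ ∀ s, s * z = z * s := by
    have : Nontrivial (center P) := hP.center_nontrivial
    obtain ⟨k, hk⟩ := IsPGroup.iff_card.1 (hP.to_subgroup (center P))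
    have hk0 : k ≠ 0 := by
      rintro rfl
      have := Finite.one_lt_card (α := center P)
      omega
    obtain ⟨z, hz⟩ := exists_prime_orderOf_dvd_card' (G := center P) 2 (hk ▸ dvd_pow_self 2 hk0)
    rw [← Subgroup.orderOf_coe] at hz
    refine ⟨z, ?_, ?_, fun s => mem_center_iff.1 z.2 s⟩
    · rw [← pow_two, ← hz, pow_orderOf_eq_one]
    · intro e; rw [e, orderOf_one] at hz; norm_num at hz
  have hzA : z ∈ A := by
    rw [← hCA, mem_centralizer_iff]
    exact fun s _ => hzc s
  by_cases hW : ∃ w ∈ A, w * w = 1 ∧ w ≠ 1 ∧ w ≠ z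
  · -- `Ω₁(A)` is bigger than `⟨z⟩`
    have : (zpowers z).Normal := ⟨fun x hx g => by
      obtain ⟨i, rfl⟩ := mem_zpowers_iff.1 hx
      have : Commute g (z ^ i) := (show Commute g z from hzc g).zpow_right i
      rw [this.eq, mul_inv_cancel_right]
      exact zpow_mem_zpowers z i⟩
    have hcA : ∀ x ∈ A, ∀ y ∈ A, x * y = y * x := fun x hx y hy =>
      congrArg Subtype.val (hAc.is_comm.comm (⟨x, hx⟩ : A) ⟨y, hy⟩)
    let W : Subgroup P :=
      { carrier := {x | x ∈ A ∧ x * x = 1}
        one_mem' := ⟨A.one_mem, one_mul 1⟩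
        mul_mem' := by
          rintro a b ⟨ha, ha2⟩ ⟨hb, hb2⟩
          exact ⟨A.mul_mem ha hb, by
            calc a * b * (a * b) = a * (b * a) * b := by group
              _ = a * (a * b) * b := by rw [hcA b hb a ha]
              _ = (a * a) * (b * b) := by group
              _ = 1 := by rw [ha2, hb2, one_mul]⟩
        inv_mem' := by
          rintro a ⟨ha, ha2⟩
          exact ⟨A.inv_mem ha, by rw [← mul_inv_rev, ha2, inv_one]⟩ }
    have : W.Normal := ⟨fun x hx g => ⟨hAn.conj_mem x hx.1 g, by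
      calc g * x * g⁻¹ * (g * x * g⁻¹) = g * (x * x) * g⁻¹ := by group
        _ = 1 := by rw [hx.2, mul_one, mul_inv_cancel]⟩⟩
    set C := W.map (QuotientGroup.mk' (zpowers z))
    haveI : C.Normal := Subgroup.Normal.map inferInstance _ (QuotientGroup.mk'_surjective _)
    obtain ⟨w, hwA, hw2, hw1, hwz⟩ := hW
    have hz12 : ∀ x ∈ zpowers z, x = 1 ∨ x = z := by
      intro x hx
      obtain ⟨i, rfl⟩ := mem_zpowers_iff.1 hx
      rcases Int.even_or_odd i with ⟨u, hu⟩ | ⟨u, hu⟩ <;> subst hu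
      · left; rw [← two_mul, zpow_mul, zpow_two, hz, one_zpow]
      · right; rw [zpow_add, zpow_mul, zpow_two, hz, one_zpow, one_mul, zpow_one]
    haveI : Nontrivial C := by
      rw [nontrivial_iff_ne_bot]
      intro h0
      have hm : (QuotientGroup.mk' (zpowers z)) w ∈ C := mem_map_of_mem _ ⟨hwA, hw2⟩
      rw [h0, mem_bot, QuotientGroup.mk'_apply, QuotientGroup.eq_one_iff] at hm
      rcases hz12 _ hm with e | e
      exacts [hw1 e, hwz e]
    have hQ : IsPGroup 2 (ConjAct (P ⧸ zpowers z)) := hP.to_quotient _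
    have hcard : 2 ∣ Nat.card C := by
      obtain ⟨k, hk⟩ := IsPGroup.iff_card.mp ((hP.to_quotient (zpowers z)).to_subgroup C)
      refine hk ▸ dvd_pow_self 2 fun h0 => ?_
      have := Finite.one_lt_card (α := C)
      rw [hk, h0] at this
      omega
    have h1 : (1 : C) ∈ MulAction.fixedPoints (ConjAct (P ⧸ zpowers z)) C := fun g => smul_one g
    obtain ⟨c, hc, hc1⟩ := hQ.exists_fixed_point_of_prime_dvd_card_of_fixed_point C hcard h1
    obtain ⟨e, he, hec⟩ := c.2
    have hne : ∀ y ∈ zpowers z, e ≠ y := fun y hy h => hc1.symm (Subtype.ext (by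
      rw [← hec, OneMemClass.coe_one, QuotientGroup.mk'_apply, QuotientGroup.eq_one_iff, h]; exact hy))
    refine ⟨z, e, hz, he.2, hz1, hne 1 (one_mem _), hne z (mem_zpowers z), hzc, fun s => ?_⟩
    have hf := congrArg Subtype.val (hc (ConjAct.toConjAct ((QuotientGroup.mk' (zpowers z)) s)))
    simp only [ConjAct.Subgroup.val_conj_smul, ← hec, ConjAct.toConjAct_smul, ← map_inv, ← map_mul] at hf
    rw [QuotientGroup.mk'_apply, QuotientGroup.mk'_apply, QuotientGroup.eq] at hf
    rcases hz12 _ hf with h | h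
    · left; exact inv_mul_eq_one.1 h
    · right
      rw [inv_mul_eq_iff_eq_mul] at h
      calc s * e * s⁻¹ = s * e * s⁻¹ * (z * z) := by rw [hz, mul_one]
        _ = s * e * s⁻¹ * z * z := by group
        _ = e * z := by rw [← h]
  · -- `A` is cyclic
    push Not at hW
    have hAcyc : IsCyclic A := by
      have h := Cfsg.Agent.Lib.UniqueInvolution.isCyclic_of_comm (p := 2) (hP.to_subgroup A) (fun H K hH hK => by
        have hsub : ∀ L : Subgroup A, Nat.card L = 2 → L = zpowers (⟨z, hzA⟩ : A) := by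
          intro L hL
          have hzo : orderOf (⟨z, hzA⟩ : A) = 2 := by
            rw [← Subgroup.orderOf_coe]; exact orderOf_eq_prime (by rw [pow_two]; exact hz) hz1
          refine eq_of_le_of_card_ge (fun x hx => ?_) (by rw [Nat.card_zpowers, hzo, hL])
          have hx2 : (⟨x, hx⟩ : L) ^ 2 = 1 := by rw [← hL]; exact pow_card_eq_one'
          replace hx2 : (x : P) * x = 1 := by
            rw [← pow_two]; exact congrArg (fun y : L => ((y : A) : P)) hx2
          by_cases h1 : (x : P) = 1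
          · rw [show x = 1 from Subtype.ext h1]; exact one_mem _
          · rw [show x = ⟨z, hzA⟩ from Subtype.ext (hW x x.2 hx2 h1)]; exact mem_zpowers _
        rw [hsub H hH, hsub K hK]) ⊤
      exact isCyclic_of_surjective _ (Subgroup.topEquiv (G := A)).surjective
    obtain ⟨⟨a, haA⟩, hgen⟩ := hAcyc.exists_generator
    have hAa : ∀ x ∈ A, x ∈ zpowers a := by
      intro x hx
      obtain ⟨i, hi⟩ := mem_zpowers_iff.1 (hgen ⟨x, hx⟩)
      exact mem_zpowers_iff.2 ⟨i, congrArg Subtype.val hi⟩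
    obtain ⟨N, hN⟩ := IsPGroup.iff_orderOf.1 hP a
    have ha1 : a ≠ 1 := by
      rintro rfl
      have := hAa z hzA
      rw [zpowers_one_eq_bot, mem_bot] at this
      exact hz1 this
    obtain ⟨n, rfl⟩ : ∃ n, N = n + 1 := by
      refine ⟨N - 1, (Nat.succ_pred ?_).symm⟩
      rintro rfl
      exact ha1 (orderOf_eq_one_iff.1 hN)
    have hzeq : ∀ i j : ℤ, a ^ i = a ^ j ↔ (i : ZMod (2 ^ (n + 1))) = j := fun i j => by
      rw [zpow_eq_zpow_iff_modEq, hN, ZMod.intCast_eq_intCast_iff]
    have hh1 : a ^ ((2 : ℤ) ^ n) ≠ 1 := by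
      rw [show ((2 : ℤ) ^ n) = ((2 ^ n : ℕ) : ℤ) by push_cast; rfl, zpow_natCast]
      refine pow_ne_one_of_lt_orderOf (pow_pos (by norm_num) n).ne' ?_
      rw [hN, pow_succ]
      have := pow_pos (show 0 < 2 by norm_num) n
      omega
    have hh2 : a ^ ((2 : ℤ) ^ n) * a ^ ((2 : ℤ) ^ n) = 1 := by
      rw [← zpow_add, show (2 : ℤ) ^ n + 2 ^ n = ((2 ^ (n + 1) : ℕ) : ℤ) by push_cast; ring,
        zpow_natCast, ← hN, pow_orderOf_eq_one]
    have haz : a ^ ((2 : ℤ) ^ n) = z := hW _ (A.zpow_mem haA _) hh2 hh1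
    -- the exponents
    have hk : ∀ s : P, ∃ k : ℤ, s * a * s⁻¹ = a ^ k := fun s => by
      obtain ⟨k, hk⟩ := mem_zpowers_iff.1 (hAa _ (hAn.conj_mem a haA s))
      exact ⟨k, hk.symm⟩
    choose k hk using hk
    have hpow : ∀ (s : P) (i : ℤ), s * a ^ i * s⁻¹ = a ^ (k s * i) := fun s i => by
      rw [zpow_mul, ← hk s, conj_zpow]
    have hinvC : ∀ s : P, Commute s a → s ∈ A := fun s hs => by
      rw [← hCA, mem_centralizer_iff]
      intro y hy
      obtain ⟨i, rfl⟩ := mem_zpowers_iff.1 (hAa y hy)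
      exact (hs.zpow_right i).eq.symm
    have hsquare : ∀ x ∈ E, ((k x : ℤ) : ZMod (2 ^ (n + 1))) * (k x : ℤ) = 1 := fun x hx => by
      have e : a ^ (k x * k x) = a ^ (1 : ℤ) := by
        rw [← hpow x (k x), ← hk x, zpow_one]
        have hxi : x⁻¹ = x := inv_eq_of_mul_eq_one_left (by rw [← pow_two]; exact hE2 x hx)
        calc x * (x * a * x⁻¹) * x⁻¹ = x ^ 2 * a * (x⁻¹ * x⁻¹) := by rw [pow_two]; group
          _ = a := by rw [hE2 x hx, hxi, ← pow_two, hE2 x hx, one_mul, mul_one]
      have := (hzeq _ _).1 e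
      push_cast at this
      exact this
    have : Fintype E := Fintype.ofFinite E
    let f : E → ZMod (2 ^ (n + 1)) := fun x => (k x : ℤ)
    have hfib : ∀ r ∈ (Finset.univ : Finset E).image f, ((Finset.univ : Finset E).filter fun x => f x = r).card ≤ 2 := by
      intro r hr
      obtain ⟨x0, -, rfl⟩ := Finset.mem_image.1 hr
      refine le_trans (Finset.card_le_card_of_injOn (fun x : E => (x0 : P)⁻¹ * x)
        (t := ({1, z} : Finset P)) (fun x hx => ?_) (fun x _ y _ e => Subtype.ext (mul_left_cancel e))) Finset.card_le_two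
      simp only [Finset.coe_insert, Finset.coe_singleton, Set.mem_insert_iff, Set.mem_singleton_iff]
      simp only [Finset.coe_filter, Finset.mem_univ, true_and, Set.mem_setOf_eq, f] at hx
      have hc : Commute ((x0 : P)⁻¹ * x) a := by
        have e : (x : P) * a * (x : P)⁻¹ = x0 * a * (x0 : P)⁻¹ := by rw [hk, hk, hzeq]; exact hx
        show (x0 : P)⁻¹ * x * a = a * ((x0 : P)⁻¹ * x)
        calc (x0 : P)⁻¹ * x * a = (x0 : P)⁻¹ * ((x : P) * a * (x : P)⁻¹) * x := by group
          _ = a * ((x0 : P)⁻¹ * x) := by rw [e]; group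
      have h2 : ((x0 : P)⁻¹ * x) * ((x0 : P)⁻¹ * x) = 1 := by
        rw [← pow_two]
        exact hE2 _ (E.mul_mem (E.inv_mem x0.2) x.2)
      by_cases h1 : (x0 : P)⁻¹ * x = 1
      · exact Or.inl h1
      · exact Or.inr (hW _ (hinvC _ hc) h2 h1)
    have hcnt := Finset.card_le_mul_card_image (Finset.univ : Finset E) 2 hfib
    rw [Finset.card_univ, ← Nat.card_eq_fintype_card, hE] at hcnt
    let R : Finset (ZMod (2 ^ (n + 1))) := {1, -1, 1 + 2 ^ n, -1 + 2 ^ n}
    have hsub : (Finset.univ : Finset E).image f ⊆ R := fun r hr => by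
      obtain ⟨x, -, rfl⟩ := Finset.mem_image.1 hr
      simp only [R, Finset.mem_insert, Finset.mem_singleton]
      exact root_cases n _ (hsquare x x.2)
    have hR4 : R.card ≤ 4 := Finset.card_le_four
    have heq := Finset.eq_of_subset_of_card_le hsub (by omega)
    have hRcard : R.card = 4 := by
      have := Finset.card_le_card hsub
      omega
    have hn2 : 2 ≤ n := by
      have := Finset.card_le_univ R
      rw [ZMod.card, hRcard] at this
      by_contra hn
      interval_cases n
      · norm_num at this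
      · revert hRcard
        decide
    obtain ⟨⟨e, heE⟩, -, hfe⟩ := Finset.mem_image.1
      (heq.symm ▸ (by simp [R] : (1 + 2 ^ n : ZMod (2 ^ (n + 1))) ∈ R))
    have hea : e * a * e⁻¹ = a * z := by
      rw [hk, ← haz, show a * a ^ ((2 : ℤ) ^ n) = a ^ (1 + (2 : ℤ) ^ n) by rw [zpow_add, zpow_one], hzeq]
      push_cast
      exact hfe
    have hez : e ∉ A := fun h => by
      have : e * a * e⁻¹ = a := by
        obtain ⟨i, rfl⟩ := mem_zpowers_iff.1 (hAa e h)
        group
      rw [this] at hea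
      exact hz1 (left_eq_mul.1 hea)
    refine ⟨z, e, hz, by rw [← pow_two]; exact hE2 e heE, hz1, fun h => hez (h ▸ one_mem _),
      fun h => hez (h ▸ hzA), hzc, fun s => ?_⟩
    -- conjugates of `e`
    set e' := s * e * s⁻¹ with he'
    have he'2 : e' * e' = 1 := by
      calc e' * e' = s * e ^ 2 * s⁻¹ := by rw [he', pow_two]; group
        _ = 1 := by rw [hE2 e heE, mul_one, mul_inv_cancel]
    have he'a : e' * a * e'⁻¹ = a * z := by
      obtain ⟨i, hi⟩ := mem_zpowers_iff.1 (hAa _ (hAn.conj_mem a haA s⁻¹))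
      simp only [inv_inv] at hi
      have hei : e * a ^ i * e⁻¹ = a ^ i * z ^ i := by
        rw [← conj_zpow, hea, (show Commute a z from hzc a).mul_zpow]
      have hs1 : s * a ^ i * s⁻¹ = a := by rw [hi]; group
      have hszi : z ^ i = z := by
        rcases Int.even_or_odd i with ⟨u, hu⟩ | ⟨u, hu⟩
        · exfalso
          -- then `a ^ i` would not generate
          have hii : a ^ (k s * i) = a ^ (1 : ℤ) := by rw [← hpow, hs1, zpow_one]
          have := (hzeq _ _).1 hii
          rw [ZMod.intCast_eq_intCast_iff, Int.modEq_iff_dvd] at this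
          push_cast at this
          have h2 := (dvd_pow_self (2 : ℤ) (Nat.succ_ne_zero n)).trans this
          subst hu
          rw [mul_add] at h2
          omega
        · subst hu
          rw [zpow_add, zpow_mul, zpow_two, hz, one_zpow, one_mul, zpow_one]
      calc e' * a * e'⁻¹ = s * (e * (s⁻¹ * a * s) * e⁻¹) * s⁻¹ := by rw [he']; group
        _ = (s * a ^ i * s⁻¹) * (s * z * s⁻¹) := by rw [← hi, hei, hszi]; group
        _ = a * z := by rw [hs1, hzc s, mul_inv_cancel_right]
    have hjA : e⁻¹ * e' ∈ A := hinvC _ (by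
      show e⁻¹ * e' * a = a * (e⁻¹ * e')
      calc e⁻¹ * e' * a = e⁻¹ * (e' * a * e'⁻¹) * e' := by group
        _ = a * (e⁻¹ * e') := by rw [he'a, ← hea]; group)
    obtain ⟨j, hj⟩ := mem_zpowers_iff.1 (hAa _ hjA)
    have hej : e * a ^ j * e⁻¹ = a ^ j * z ^ j := by
      rw [← conj_zpow, hea, (show Commute a z from hzc a).mul_zpow]
    have hei : e⁻¹ = e := inv_eq_of_mul_eq_one_left (by rw [← pow_two]; exact hE2 e heE)
    have hj2 : a ^ (2 * j) * z ^ j = 1 := by
      have e1 : e' = e * a ^ j := by rw [hj, mul_inv_cancel_left]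
      rw [← he'2, e1]
      calc a ^ (2 * j) * z ^ j = (a ^ j * z ^ j) * a ^ j := by
            rw [two_mul, zpow_add, mul_assoc (a ^ j) (z ^ j), ((show Commute (a ^ j) z from hzc _).zpow_right j).eq.symm]
            group
        _ = (e * a ^ j * e⁻¹) * a ^ j := by rw [hej]
        _ = e * a ^ j * (e * a ^ j) := by rw [hei]; group
    have hjeven : Even j := by
      by_contra hjo
      obtain ⟨u, hu⟩ := Int.not_even_iff_odd.1 hjo
      subst hu
      have e2 : a ^ (2 * (2 * u + 1) + (2 : ℤ) ^ n * (2 * u + 1)) = a ^ (0 : ℤ) := by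
        rw [zpow_zero, zpow_add, zpow_mul a ((2 : ℤ) ^ n), haz]
        exact hj2
      have := (hzeq _ _).1 e2
      rw [ZMod.intCast_eq_intCast_iff, Int.modEq_iff_dvd] at this
      push_cast at this
      obtain ⟨m, rfl⟩ : ∃ m, n = m + 2 := ⟨n - 2, by omega⟩
      have h4 : (4 : ℤ) ∣ (0 - (2 * (2 * u + 1) + 2 ^ (m + 2) * (2 * u + 1))) :=
        (Dvd.intro (2 ^ (m + 1)) (by ring) : (4 : ℤ) ∣ 2 ^ (m + 2 + 1)).trans this
      rw [show (2 : ℤ) ^ (m + 2) * (2 * u + 1) = 4 * (2 ^ m * (2 * u + 1)) by ring] at h4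
      omega
    obtain ⟨u, rfl⟩ := hjeven
    have hzj : z ^ (u + u) = 1 := by rw [← two_mul, zpow_mul, zpow_two, hz, one_zpow]
    rw [hzj, mul_one, two_mul, zpow_add] at hj2
    have e1 : e' = e * a ^ (u + u) := by rw [hj, mul_inv_cancel_left]
    by_cases h1 : a ^ (u + u) = 1
    · left; rw [e1, h1, mul_one]
    · right; rw [e1, hW _ (A.zpow_mem haA _) hj2 h1]


/-- Let G be a finite group with no subgroup of index 2 whose 2-rank is at least 3 (it contains an elementary abelian subgroup of order 8). Then the centralizer of every involution of G also contains an elementary abelian subgroup of order 8. -/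
theorem result {G : Type*} [Group G] [Finite G] (hno : ∀ H : Subgroup G, H.index ≠ 2) (hrank : ∃ E : Subgroup G, Nat.card E = 8 ∧ ∀ e ∈ E, e ^ 2 = 1) (x : G) (hx : orderOf x = 2) : ∃ E : Subgroup G, E ≤ Subgroup.centralizer ({x} : Set G) ∧ Nat.card E = 8 ∧ ∀ e ∈ E, e ^ 2 = 1 := by
  classical
  have : Fact (Nat.Prime 2) := ⟨Nat.prime_two⟩
  obtain ⟨E, hE8, hE2⟩ := hrank
  have hEp : IsPGroup 2 E := IsPGroup.of_card (n := 3) (by rw [hE8]; norm_num)
  obtain ⟨P, hEP⟩ := hEp.exists_le_sylow
  obtain ⟨⟨z, hzP⟩, ⟨e, heP⟩, hz, he, hz1, he1, hez, hzc, hec⟩ := exists_four P.isPGroup'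
    (E.subgroupOf (P : Subgroup G)) (by rw [Nat.card_congr (Subgroup.subgroupOfEquivOfLe hEP).toEquiv, hE8])
    (fun y hy => Subtype.ext (hE2 _ hy))
  replace hz : z * z = 1 := congrArg Subtype.val hz
  replace he : e * e = 1 := congrArg Subtype.val he
  replace hz1 : z ≠ 1 := fun h => hz1 (Subtype.ext h)
  replace he1 : e ≠ 1 := fun h => he1 (Subtype.ext h)
  replace hez : e ≠ z := fun h => hez (Subtype.ext h)
  replace hzc : ∀ s ∈ P, s * z = z * s := fun s hs => congrArg Subtype.val (hzc ⟨s, hs⟩)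
  replace hec : ∀ s ∈ P, s * e * s⁻¹ = e ∨ s * e * s⁻¹ = e * z := fun s hs =>
    (hec ⟨s, hs⟩).imp (congrArg Subtype.val) (congrArg Subtype.val)
  -- tools
  have hbig : ∀ (y : G) (s : Set G), (∀ a ∈ s, a ^ 2 = 1 ∧ Commute a y) → (∀ a ∈ s, ∀ b ∈ s, a * b = b * a) →
      8 ≤ Nat.card (Subgroup.closure s) →
      ∃ F : Subgroup G, F ≤ Subgroup.centralizer ({y} : Set G) ∧ Nat.card F = 8 ∧ ∀ f ∈ F, f ^ 2 = 1 := by
    intro y s hs hsc h8
    have hel := Cfsg.Agent.Lib.Thompson.isElementaryAbelian_closure (p := 2) hsc (fun a ha => (hs a ha).1)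
    have hle : Subgroup.closure s ≤ Subgroup.centralizer ({y} : Set G) :=
      (Subgroup.closure_le _).2 fun a ha => Subgroup.mem_centralizer_singleton_iff.2 (hs a ha).2.eq
    obtain ⟨k, hk⟩ := IsPGroup.iff_card.1 (Cfsg.Agent.Lib.Thompson.isPGroup_of_elementary hel)
    have hk3 : 3 ≤ k := by
      by_contra hk3
      have : 2 ^ k ≤ 2 ^ 2 := Nat.pow_le_pow_right (by norm_num) (by omega)
      omega
    obtain ⟨F, hF⟩ := Sylow.exists_subgroup_card_pow_prime 2 (n := 3) (G := Subgroup.closure s)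
      (hk ▸ pow_dvd_pow 2 hk3)
    refine ⟨F.map (Subgroup.closure s).subtype, (Subgroup.map_subtype_le F).trans hle, ?_,
      fun f hf => hel.2 f (Subgroup.map_subtype_le F hf)⟩
    rw [Subgroup.card_map_of_injective (Subgroup.subtype_injective _), hF]
    norm_num
  have hcount : ∀ a b c : G, a ≠ 1 → b ≠ 1 → c ≠ 1 → a * a = 1 → b * b = 1 → a ≠ b → c ≠ a → c ≠ b →
      c ≠ a * b → a * b = b * a →
      8 ≤ Nat.card (Subgroup.closure ({a, b, c} : Set G)) := by
    intro a b c ha hb hc ha2 hb2 hab hca hcb hcab hcomm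
    set H := Subgroup.closure ({a, b, c} : Set G)
    have hm : ∀ v ∈ ({a, b, c} : Set G), v ∈ H := fun v hv => Subgroup.subset_closure hv
    have hA : a ∈ H := hm a (by simp)
    have hB : b ∈ H := hm b (by simp)
    have hC : c ∈ H := hm c (by simp)
    have hab1 : a * b ≠ 1 := fun h => hab (by rw [eq_inv_of_mul_eq_one_left h, inv_eq_of_mul_eq_one_left hb2])
    have haab : a * b ≠ a := fun h => hb (mul_eq_left.1 h)
    have hbab : a * b ≠ b := fun h => ha (mul_eq_right.1 h)
    let f : Bool → Fin 4 → H := fun q i => match i with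
      | 0 => if q then ⟨c, hC⟩ else 1
      | 1 => if q then ⟨c, hC⟩ * ⟨a, hA⟩ else ⟨a, hA⟩
      | 2 => if q then ⟨c, hC⟩ * ⟨b, hB⟩ else ⟨b, hB⟩
      | 3 => if q then ⟨c, hC⟩ * (⟨a, hA⟩ * ⟨b, hB⟩) else ⟨a, hA⟩ * ⟨b, hB⟩
    let g : Fin 4 → G := ![1, a, b, a * b]
    have hg : Function.Injective g := by
      intro i j h
      fin_cases i <;> fin_cases j <;> simp_all [g, eq_comm]
    have hf : ∀ q i, (f q i : G) = (if q then c else 1) * g i := by
      intro q i
      fin_cases i <;> cases q <;> simp [f, g]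
    have hclosed : ∀ i j, ∃ l, g i * g j = g l := by
      have e1 : a * (a * b) = b := by rw [← mul_assoc, ha2, one_mul]
      have e2 : b * (a * b) = a := by rw [hcomm, ← mul_assoc, hb2, one_mul]
      have e3 : a * b * a = b := by rw [hcomm, mul_assoc, ha2, mul_one]
      have e4 : a * b * b = a := by rw [mul_assoc, hb2, mul_one]
      have e5 : a * b * (a * b) = 1 := by rw [← mul_assoc, e3, hb2]
      intro i j
      fin_cases i <;> fin_cases j <;>
        first
        | (refine ⟨0, ?_⟩; simp [g, ha2, hb2, e5]; done)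
        | (refine ⟨1, ?_⟩; simp [g, e2, e4]; done)
        | (refine ⟨2, ?_⟩; simp [g, e1, e3]; done)
        | (refine ⟨3, ?_⟩; simp [g, hcomm]; done)
    have hginv : ∀ i, (g i)⁻¹ = g i := by
      have e5 : a * b * (a * b) = 1 := by
        rw [← mul_assoc, hcomm, mul_assoc b a, ha2, mul_one, hb2]
      intro i
      refine inv_eq_of_mul_eq_one_left ?_
      fin_cases i
      exacts [one_mul 1, ha2, hb2, e5]
    have hcnot : ∀ l, c ≠ g l := by
      intro l
      fin_cases l <;> simp [g, hc, hca, hcb, hcab]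
    have hinj : Function.Injective (fun qi : Bool × Fin 4 => f qi.1 qi.2) := by
      rintro ⟨q, i⟩ ⟨r, j⟩ h
      replace h := congrArg Subtype.val h
      rw [hf, hf] at h
      cases q <;> cases r <;> simp only [Bool.false_eq_true, if_false, if_true, one_mul] at h
      · rw [hg h]
      · exfalso
        obtain ⟨l, hl⟩ := hclosed i j
        exact hcnot l (by rw [← hl, h, mul_assoc]; nth_rw 1 [← hginv j]; rw [inv_mul_cancel, mul_one])
      · exfalso
        obtain ⟨l, hl⟩ := hclosed j i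
        exact hcnot l (by rw [← hl, ← h, mul_assoc]; nth_rw 1 [← hginv i]; rw [inv_mul_cancel, mul_one])
      · rw [hg (mul_left_cancel h)]
    have := Nat.card_le_card_of_injective _ hinj
    simpa using this
  -- conjugate `x` into the Sylow subgroup
  have hxp : IsPGroup 2 (Subgroup.zpowers x) :=
    IsPGroup.of_card (n := 1) (by rw [Nat.card_zpowers, hx, pow_one])
  obtain ⟨Q, hQ⟩ := hxp.exists_le_sylow
  obtain ⟨g₀, hg₀⟩ := MulAction.exists_smul_eq G Q P
  have hxP : g₀ * x * g₀⁻¹ ∈ P := hg₀ ▸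
    ⟨x, hQ (Subgroup.mem_zpowers x), rfl⟩
  -- the subgroup `T` centralising `e`
  let T : Subgroup G := (P : Subgroup G) ⊓ Subgroup.centralizer ({e} : Set G)
  have heT : ∀ t : G, t ∈ T ↔ t ∈ P ∧ t * e = e * t := fun t => by
    simp only [T, Subgroup.mem_inf, Subgroup.mem_centralizer_singleton_iff]
    exact Iff.rfl
  obtain ⟨g, hgT⟩ : ∃ g, g * x * g⁻¹ ∈ T := by
    by_cases hP : (P : Subgroup G) ≤ Subgroup.centralizer ({e} : Set G)
    · exact ⟨g₀, hxP, hP hxP⟩
    by_cases hin : g₀ * x * g₀⁻¹ ∈ T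
    · exact ⟨g₀, hin⟩
    have hi : T.relIndex (P : Subgroup G) = 2 := by
      rw [show T = (P : Subgroup G) ⊓ Subgroup.centralizer ({e} : Set G) from rfl,
        Subgroup.inf_relIndex_left]
      rw [SetLike.le_def] at hP
      push Not at hP
      obtain ⟨t, htP, ht⟩ := hP
      refine Subgroup.index_eq_two_iff.2 ⟨⟨t, htP⟩, fun y => ?_⟩
      simp only [Subgroup.mem_subgroupOf, Subgroup.mem_centralizer_singleton_iff, Subgroup.coe_mul]
      rw [Subgroup.mem_centralizer_singleton_iff] at ht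
      have hte : t * e * t⁻¹ = e * z := (hec t htP).resolve_left fun h => ht
        (mul_inv_eq_iff_eq_mul.1 h)
      have hzy : (y : G) * z * (y : G)⁻¹ = z := by rw [hzc y y.2, mul_inv_cancel_right]
      rcases hec y y.2 with h | h
      · refine Or.inr ⟨mul_inv_eq_iff_eq_mul.1 h, fun h2 => ?_⟩
        have e1 : (y : G) * t * e * ((y : G) * t)⁻¹ = e := by rw [h2, mul_inv_cancel_right]
        have e2 : (y : G) * t * e * ((y : G) * t)⁻¹ = e * z := by
          calc (y : G) * t * e * ((y : G) * t)⁻¹ = y * (t * e * t⁻¹) * (y : G)⁻¹ := by group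
            _ = ((y : G) * e * (y : G)⁻¹) * (y * z * (y : G)⁻¹) := by rw [hte]; group
            _ = e * z := by rw [h, hzy]
        exact hz1 (left_eq_mul.1 (e1.symm.trans e2))
      · refine Or.inl ⟨?_, fun h2 => ?_⟩
        · refine mul_inv_eq_iff_eq_mul.1 ?_
          calc (y : G) * t * e * ((y : G) * t)⁻¹ = y * (t * e * t⁻¹) * (y : G)⁻¹ := by group
            _ = ((y : G) * e * (y : G)⁻¹) * (y * z * (y : G)⁻¹) := by rw [hte]; group
            _ = e := by rw [h, hzy, mul_assoc, hz, mul_one]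
        · rw [h2, mul_inv_cancel_right] at h
          exact hz1 (left_eq_mul.1 h)
    rcases Cfsg.Agent.S0111.result P T inf_le_left hi (g₀ * x * g₀⁻¹)
      ((MulEquiv.orderOf_eq (MulAut.conj g₀) x).trans hx) hxP hin with ⟨M, -, hM, -⟩ | ⟨g, hg⟩
    · exact absurd hM (hno M)
    · exact ⟨g * g₀, by simpa [mul_assoc] using hg⟩
  -- an elementary abelian subgroup of order 8 centralising the conjugate
  set y := g * x * g⁻¹ with hy
  obtain ⟨hyP, hye⟩ := (heT y).1 hgT
  have hy2 : y * y = 1 := by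
    have : x ^ 2 = 1 := hx ▸ pow_orderOf_eq_one x
    calc y * y = g * x ^ 2 * g⁻¹ := by rw [hy, pow_two]; group
      _ = 1 := by rw [this, mul_one, mul_inv_cancel]
  have hy1 : y ≠ 1 := fun h => by
    have := conj_eq_one_iff.1 h
    rw [this, orderOf_one] at hx
    norm_num at hx
  obtain ⟨F, hFy, hF8, hF2⟩ : ∃ F : Subgroup G, F ≤ Subgroup.centralizer ({y} : Set G) ∧
      Nat.card F = 8 ∧ ∀ f ∈ F, f ^ 2 = 1 := by
    have hze : z * e = e * z := (hzc e heP).symm
    by_cases hV : y = z ∨ y = e ∨ y = z * e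
    · -- `y` lies in the four group
      have hcomT : ∀ t ∈ P, t * e = e * t → Commute t y := by
        intro t ht hte
        rcases hV with h | h | h <;> rw [h]
        exacts [hzc t ht, hte, (show Commute t z from hzc t ht).mul_right hte]
      by_cases hEe : ∀ t ∈ E, t * e = e * t
      · exact ⟨E, fun t ht => Subgroup.mem_centralizer_singleton_iff.2 (hcomT t (hEP ht) (hEe t ht)).eq,
          hE8, hE2⟩
      push Not at hEe
      obtain ⟨u, huE, hue⟩ := hEe
      -- `E` contains an element of `T` outside `⟨z, e⟩`, or contains `z, e`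
      by_cases hT : ∃ t ∈ E, t * e = e * t ∧ t ≠ 1 ∧ t ≠ z ∧ t ≠ e ∧ t ≠ z * e
      · obtain ⟨t, htE, hte, ht1, htz, hte', htze⟩ := hT
        refine hbig y {z, e, t} ?_ ?_ (hcount z e t hz1 he1 ht1 hz he hez.symm htz hte' htze hze)
        · intro v hv
          simp only [Set.mem_insert_iff, Set.mem_singleton_iff] at hv
          rcases hv with h | h | h <;> rw [h]
          exacts [⟨by rw [pow_two]; exact hz, hcomT _ hzP hze⟩, ⟨by rw [pow_two]; exact he, hcomT _ heP rfl⟩,
            ⟨hE2 _ htE, hcomT _ (hEP htE) hte⟩]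
        · intro v hv w hw
          simp only [Set.mem_insert_iff, Set.mem_singleton_iff] at hv hw
          rcases hv with h | h | h <;> rcases hw with h' | h' | h' <;> rw [h, h']
          exacts [hze, (hzc t (hEP htE)).symm, hze.symm, hte.symm, hzc _ (hEP htE), hte]
      push Not at hT
      exfalso
      -- then `e` lies in `E`
      have hab : ∀ v ∈ E, ∀ w ∈ E, v * w = w * v := fun v hv w hw => by
        have h1 := hE2 _ (E.mul_mem hv hw)
        rw [pow_two] at h1
        have hv2 : v⁻¹ = v := inv_eq_of_mul_eq_one_left (by rw [← pow_two]; exact hE2 v hv)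
        have hw2 : w⁻¹ = w := inv_eq_of_mul_eq_one_left (by rw [← pow_two]; exact hE2 w hw)
        rw [eq_inv_of_mul_eq_one_left h1, mul_inv_rev, hv2, hw2]
      have heE : e ∉ E := fun h => hue (hab u huE e h)
      have hzeE : z * e ∉ E := fun h => hue (by
        have h1 := hab u huE _ h
        have h2 := hzc u (hEP huE)
        calc u * e = z⁻¹ * (u * (z * e)) := by rw [← mul_assoc u z e, h2]; group
          _ = e * u := by rw [h1]; group)
      have : Nat.card E ≤ 4 := by
        have hm : ∀ v ∈ E, v ∈ ({1, z} : Set G) ∨ v * u⁻¹ ∈ ({1, z} : Set G) := by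
          intro v hv
          have key : ∀ w ∈ E, w * e = e * w → w ∈ ({1, z} : Set G) := fun w hw hwe => by
            by_cases h1 : w = 1
            · exact Or.inl h1
            by_cases h2 : w = z
            · exact Or.inr h2
            by_cases h3 : w = e
            · exact absurd (h3 ▸ hw) heE
            exact absurd (hT w hw hwe h1 h2 h3 ▸ hw) hzeE
          by_cases hve : v * e = e * v
          · exact Or.inl (key v hv hve)
          · refine Or.inr (key _ (E.mul_mem hv (E.inv_mem huE)) (mul_inv_eq_iff_eq_mul.1 ?_))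
            have h1 : v * e * v⁻¹ = e * z := (hec v (hEP hv)).resolve_left fun h => hve (mul_inv_eq_iff_eq_mul.1 h)
            have h2 : u * e * u⁻¹ = e * z := (hec u (hEP huE)).resolve_left fun h => hue (mul_inv_eq_iff_eq_mul.1 h)
            have h3 : u⁻¹ * (e * z) * u = e := by rw [← h2]; group
            have h4 : u⁻¹ * e * u = e * z := by
              calc u⁻¹ * e * u = (u⁻¹ * (e * z) * u) * (u⁻¹ * z * u)⁻¹ := by group
                _ = e * z := by
                  rw [h3, mul_assoc u⁻¹ z u, ← hzc u (hEP huE), inv_mul_cancel_left,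
                    inv_eq_of_mul_eq_one_left hz]
            calc v * u⁻¹ * e * (v * u⁻¹)⁻¹ = v * (u⁻¹ * e * u) * v⁻¹ := by group
              _ = (v * e * v⁻¹) * (v * z * v⁻¹) := by rw [h4]; group
              _ = e := by rw [h1, hzc v (hEP hv), mul_inv_cancel_right, mul_assoc, hz, mul_one]
        have hsub : (E : Set G) ⊆ ({1, z, u, z * u} : Set G) := fun v hv => by
          rcases hm v hv with (h | h) | (h | h)
          · exact Or.inl h
          · exact Or.inr (Or.inl h)
          · exact Or.inr (Or.inr (Or.inl (mul_inv_eq_one.1 h)))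
          · exact Or.inr (Or.inr (Or.inr (by rw [Set.mem_singleton_iff] at h ⊢; exact mul_inv_eq_iff_eq_mul.1 h)))
        have h1 := Set.ncard_le_ncard hsub (Set.toFinite _)
        have hc4 : ({1, z, u, z * u} : Set G).ncard ≤ 4 := by
          refine (Set.ncard_insert_le _ _).trans ?_
          have a1 := Set.ncard_insert_le z ({u, z * u} : Set G)
          have a2 := Set.ncard_insert_le u ({z * u} : Set G)
          rw [Set.ncard_singleton] at a2
          omega
        rw [← Nat.card_coe_set_eq, SetLike.coe_sort_coe] at h1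
        omega
      omega
    · push Not at hV
      refine hbig y {z, e, y} ?_ ?_ (hcount z e y hz1 he1 hy1 hz he hez.symm hV.1 hV.2.1 hV.2.2 hze)
      · intro v hv
        simp only [Set.mem_insert_iff, Set.mem_singleton_iff] at hv
        rcases hv with h | h | h <;> rw [h]
        exacts [⟨by rw [pow_two]; exact hz, (hzc y hyP).symm⟩, ⟨by rw [pow_two]; exact he, hye.symm⟩,
          ⟨by rw [pow_two]; exact hy2, Commute.refl _⟩]
      · intro v hv w hw
        simp only [Set.mem_insert_iff, Set.mem_singleton_iff] at hv hw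
        rcases hv with h | h | h <;> rcases hw with h' | h' | h' <;> rw [h, h']
        exacts [hze, (hzc y hyP).symm, hze.symm, hye.symm, hzc y hyP, hye]
  -- conjugate back
  refine ⟨F.map (MulAut.conj g⁻¹).toMonoidHom, ?_, ?_, ?_⟩
  · rintro _ ⟨f, hf, rfl⟩
    have hfy := Subgroup.mem_centralizer_singleton_iff.1 (hFy hf)
    rw [Subgroup.mem_centralizer_singleton_iff]
    rw [hy] at hfy
    simp only [MulEquiv.coe_toMonoidHom, MulAut.conj_apply, inv_inv]
    calc g⁻¹ * f * g * x = g⁻¹ * (f * (g * x * g⁻¹)) * g := by group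
      _ = x * (g⁻¹ * f * g) := by rw [hfy]; group
  · rw [Subgroup.card_map_of_injective (MulAut.conj g⁻¹).injective, hF8]
  · rintro _ ⟨f, hf, rfl⟩
    rw [← map_pow, hF2 f hf, map_one]

end Cfsg.Agent.S0221
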