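import Cfsg.Statements.S0226
import Cfsg.Agent.Lib.Involution.Basic

set_option autoImplicit false
open Cfsg

namespace Cfsg.Agent.S0226

open Cfsg.Agent.Lib.Involution

/-- A finite group of even order has an odd number of involutions. -/
theorem result {G : Type*} [Group G] [Finite G] (heven : Even (Nat.card G)) : Odd (Nat.card {t : G // orderOf t = 2}) := by
  classical
  have hs : Nat.card {g : G // g ^ 2 = 1} = Nat.card {t : G // orderOf t = 2} + 1 := by
    rw [← Finite.card_option]
    refine Nat.card_congr ?_
    exact {
      toFun := fun g => if h : (g : G) = 1 then none else some ⟨g, orderOf_eq_prime g.2 h⟩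
      invFun := fun o => match o with
        | none => ⟨1, one_pow 2⟩
        | some t => ⟨t, by have := pow_orderOf_eq_one t.1; rwa [t.2] at this⟩
      left_inv := fun ⟨g, hg⟩ => by
        by_cases h : g = 1 <;> simp [h]
      right_inv := fun o => by
        rcases o with _ | ⟨t, ht⟩
        · simp
        · have h1 : t ≠ 1 := ne_one ht
          simp [h1] }
  let f : Function.End G := fun g => g⁻¹
  have hp : Nat.card G ≡ Nat.card {g : G // g ^ 2 = 1} [MOD 2] := by
    have := Fintype.ofFinite G
    have : Fact (Nat.Prime 2) := ⟨Nat.prime_two⟩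
    have h := Equiv.Perm.card_fixedPoints_modEq (f := f) (p := 2) (n := 1)
      (by funext g; exact inv_inv g)
    have he : Nat.card {g : G // g ^ 2 = 1} = Fintype.card f.fixedPoints := by
      rw [← Nat.card_eq_fintype_card]
      exact Nat.card_congr (Equiv.subtypeEquivRight fun g => by
        change g ^ 2 = 1 ↔ g⁻¹ = g
        rw [pow_two, mul_eq_one_iff_inv_eq])
    rw [he, Nat.card_eq_fintype_card]
    exact h
  rw [hs] at hp
  obtain ⟨m, hm⟩ := heven
  rw [Nat.odd_iff]
  rw [Nat.ModEq] at hp
  omega

end Cfsg.Agent.S0226
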