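import Cfsg.Statements.S0228
import Cfsg.Agent.Lib.Involution.Basic

set_option autoImplicit false
open Cfsg

namespace Cfsg.Agent.S0228

open Cfsg.Agent.Lib.Involution

/-- A group of order 12 in which no involution is central is isomorphic to the alternating group on four letters. -/
theorem result {G : Type*} [Group G] [Finite G] (hG : Nat.card G = 12) (hz : ∀ z : G, orderOf z = 2 → z ∉ Subgroup.center G) : Nonempty (G ≃* alternatingGroup (Fin 4)) := by
  classical
  have : Fact (Nat.Prime 3) := ⟨Nat.prime_three⟩
  have : Fact (Nat.Prime 2) := ⟨Nat.prime_two⟩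
  have hz' : ∀ z : G, orderOf z = 2 → z ∈ Subgroup.center G → False := hz
  have h12 : (12 : ℕ).factorization 3 = 1 := by
    rw [show 12 = 4 * 3 by rfl, Nat.factorization_mul (by norm_num) (by norm_num)]
    rw [show (4 : ℕ) = 2 ^ 2 by rfl, Nat.Prime.factorization_pow Nat.prime_two, Nat.Prime.factorization Nat.prime_three]
    simp
  have hcard : ∀ P : Sylow 3 G, Nat.card P = 3 := by
    intro P
    rw [P.card_eq_multiplicity, hG, h12, pow_one]
  let P0 : Sylow 3 G := default
  have hidx : (P0 : Subgroup G).index = 4 := by
    have := (P0 : Subgroup G).card_mul_index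
    rw [hcard P0, hG] at this
    omega
  have hn : Nat.card (Sylow 3 G) = 4 := by
    have h1 := P0.card_dvd_index
    rw [hidx] at h1
    have h2 := card_sylow_modEq_one 3 G
    have h4 : Nat.card (Sylow 3 G) ≤ 4 := Nat.le_of_dvd (by norm_num) h1
    rcases Nat.eq_or_lt_of_le h4 with h5 | h5
    · exact h5
    exfalso
    have h6 : Nat.card (Sylow 3 G) = 1 := by
      rw [Nat.ModEq] at h2
      interval_cases (Nat.card (Sylow 3 G)) <;> simp_all
    have hN : (P0 : Subgroup G).Normal := by
      have : Subsingleton (Sylow 3 G) := (Nat.card_eq_one_iff_unique.mp h6).1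
      exact P0.normal_of_subsingleton
    obtain ⟨a, ha⟩ := exists_prime_orderOf_dvd_card' (G := (P0 : Subgroup G)) 3
      (by rw [hcard P0])
    set C := Subgroup.centralizer ({(a : G)} : Set G) with hC
    have hCeven : 2 ∣ Nat.card C := by
      have hidx2 : C.index ≤ 2 := by
        rw [hC, Subgroup.centralizer_eq_comap_stabilizer (a : G)]
        refine (Subgroup.index_comap_of_surjective _ ConjAct.toConjAct.surjective).trans_le ?_
        have hsub : MulAction.orbit (ConjAct G) (a : G) ⊆ ((P0 : Subgroup G) : Set G) \ {1} := by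
          rintro w ⟨c, rfl⟩
          change ConjAct.ofConjAct c * (a : G) * (ConjAct.ofConjAct c)⁻¹ ∈ _
          refine ⟨hN.conj_mem _ a.2 _, ?_⟩
          simp only [Set.mem_singleton_iff, conj_eq_one_iff]
          intro h
          rw [OneMemClass.coe_eq_one] at h
          simp [h] at ha
        rw [MulAction.index_stabilizer]
        refine (Set.ncard_le_ncard hsub (Set.toFinite _)).trans ?_
        rw [Set.ncard_diff_singleton_of_mem (one_mem (P0 : Subgroup G))]
        change Nat.card (P0 : Subgroup G) - 1 ≤ 2
        rw [hcard P0]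
      have h := C.card_mul_index
      rw [hG] at h
      have hpos : 0 < C.index := Nat.pos_of_ne_zero Subgroup.index_ne_zero_of_finite
      interval_cases C.index <;> omega
    obtain ⟨z, hz⟩ := exists_prime_orderOf_dvd_card' (G := C) 2 hCeven
    have hzo : orderOf (z : G) = 2 := by rw [Subgroup.orderOf_coe]; exact hz
    obtain ⟨T, hT⟩ := (IsPGroup.of_card (p := 2) (n := 1)
      (by rw [Nat.card_zpowers, hzo, pow_one] : Nat.card (Subgroup.zpowers (z : G)) = 2 ^ 1)).exists_le_sylow
    have hTc : Nat.card T = 2 ^ 2 := by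
      rw [T.card_eq_multiplicity, hG, show 12 = 2 ^ 2 * 3 by rfl,
        Nat.factorization_mul (by norm_num) (by norm_num), Nat.Prime.factorization_pow Nat.prime_two,
        Nat.Prime.factorization Nat.prime_three]
      simp
    have hab : IsMulCommutative T := IsPGroup.isMulCommutative_of_card_eq_prime_sq hTc
    apply hz' _ hzo
    set D := Subgroup.centralizer ({(z : G)} : Set G) with hD
    have hD3 : 3 ∣ Nat.card D := by
      rw [← ha, ← Subgroup.orderOf_coe a]
      exact Subgroup.orderOf_dvd_natCard D
        (Subgroup.mem_centralizer_singleton_iff.mpr (Subgroup.mem_centralizer_singleton_iff.mp z.2).symm)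
    have hD4 : 2 ^ 2 ∣ Nat.card D := by
      rw [← hTc]
      refine Subgroup.card_dvd_of_le fun w hw => Subgroup.mem_centralizer_singleton_iff.mpr ?_
      exact congrArg Subtype.val (hab.is_comm.comm ⟨w, hw⟩ ⟨z, hT (Subgroup.mem_zpowers _)⟩)
    have hDtop : D = ⊤ := by
      apply Subgroup.eq_top_of_card_eq
      have h12' : 12 ∣ Nat.card D :=
        (show Nat.Coprime 3 4 by norm_num).mul_dvd_of_dvd_of_dvd hD3 hD4
      exact Nat.dvd_antisymm (Subgroup.card_subgroup_dvd_card D) (hG ▸ h12')
    rw [Subgroup.mem_center_iff]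
    intro g
    have : g ∈ D := by rw [hDtop]; trivial
    exact Subgroup.mem_centralizer_singleton_iff.mp this
  -- the action on the four Sylow 3-subgroups
  have := Fintype.ofFinite (Sylow 3 G)
  have hn' : Fintype.card (Sylow 3 G) = 4 := by rw [← Nat.card_eq_fintype_card]; exact hn
  let f : G →* Equiv.Perm (Fin 4) :=
    (Equiv.permCongrHom (Fintype.equivFinOfCardEq hn')).toMonoidHom.comp
      (MulAction.toPermHom G (Sylow 3 G))
  have hinj : Function.Injective f := by
    rw [injective_iff_map_eq_one]
    intro g hg
    have hg' : ∀ P : Sylow 3 G, g • P = P := by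
      intro P
      have h1 : MulAction.toPermHom G (Sylow 3 G) g = 1 :=
        (Equiv.permCongrHom (Fintype.equivFinOfCardEq hn')).injective (by rw [map_one]; exact hg)
      exact Equiv.congr_fun h1 P
    have hnorm : ∀ P : Sylow 3 G, g ∈ (P : Subgroup G) := by
      intro P
      have h1 : g ∈ Subgroup.normalizer ((P : Subgroup G) : Set G) :=
        Sylow.smul_eq_iff_mem_normalizer.mp (hg' P)
      have h2 : (P : Subgroup G) = Subgroup.normalizer ((P : Subgroup G) : Set G) := by
        refine Subgroup.eq_of_le_of_card_ge (P : Subgroup G).le_normalizer ?_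
        have h3 := (Subgroup.normalizer ((P : Subgroup G) : Set G)).card_mul_index
        rw [show (Subgroup.normalizer ((P : Subgroup G) : Set G)).index = 4 from P.card_eq_index_normalizer.symm.trans hn, hG] at h3
        rw [hcard P]
        omega
      rwa [h2]
    obtain ⟨P, hP⟩ : ∃ P : Sylow 3 G, P ≠ P0 := by
      by_contra h
      push Not at h
      have : Subsingleton (Sylow 3 G) := ⟨fun a b => (h a).trans (h b).symm⟩
      rw [Nat.card_of_subsingleton P0] at hn
      omega
    have hlt : (P : Subgroup G) ⊓ P0 = ⊥ := by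
      by_contra hne
      have h1 : Nat.card ((P : Subgroup G) ⊓ P0 : Subgroup G) ∣ 3 :=
        (Subgroup.card_dvd_of_le inf_le_right).trans (dvd_of_eq (hcard P0))
      rcases (Nat.dvd_prime Nat.prime_three).mp h1 with h | h
      · exact hne (Subgroup.eq_bot_of_card_eq _ h)
      · apply hP
        apply Sylow.ext
        have e1 := Subgroup.eq_of_le_of_card_ge (inf_le_left : (P : Subgroup G) ⊓ P0 ≤ P)
          (by rw [hcard P, h])
        have e2 := Subgroup.eq_of_le_of_card_ge (inf_le_right : (P : Subgroup G) ⊓ P0 ≤ P0)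
          (by rw [hcard P0, h])
        exact e1.symm.trans e2
    have hg0 : g ∈ (P : Subgroup G) ⊓ P0 := ⟨hnorm P, hnorm P0⟩
    rwa [hlt, Subgroup.mem_bot] at hg0
  have hrange : f.range = alternatingGroup (Fin 4) := by
    apply Equiv.Perm.eq_alternatingGroup_of_index_eq_two
    have h := f.range.card_mul_index
    rw [← Nat.card_congr (MonoidHom.ofInjective hinj).toEquiv, hG] at h
    simp only [Nat.card_perm, Nat.card_fin] at h
    have : Nat.factorial 4 = 24 := rfl
    omega
  exact ⟨(MonoidHom.ofInjective hinj).trans (MulEquiv.subgroupCongr hrange)⟩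

end Cfsg.Agent.S0228
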