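import Cfsg.Statements.S0230
import Cfsg.Agent.Lib.Involution.BrauerFowler

set_option autoImplicit false
open Cfsg

namespace Cfsg.Agent.S0230

open Cfsg.Agent.Lib.Involution

/-- Let G be a finite group with two non-conjugate involutions, and let t be an involution whose centralizer has maximal order among centralizers of involutions. Then |G| < |C_G(t)|^3. -/
theorem result {G : Type*} [Group G] [Finite G] (s t : G) (hs : orderOf s = 2) (ht : orderOf t = 2) (hnc : ¬ IsConj s t) (hmax : ∀ u : G, orderOf u = 2 → Nat.card (Subgroup.centralizer ({u} : Set G)) ≤ Nat.card (Subgroup.centralizer ({t} : Set G))) : Nat.card G < Nat.card (Subgroup.centralizer ({t} : Set G)) ^ 3 := by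
  classical
  set c := Nat.card (Subgroup.centralizer ({t} : Set G)) with hc
  let T := {a : G // IsConj t a}
  have hTc : Nat.card T * c = Nat.card G := by
    rw [hc, ← (Subgroup.centralizer ({t} : Set G)).card_mul_index, mul_comm]
    congr 1
    rw [Subgroup.centralizer_eq_comap_stabilizer t]
    refine (Eq.trans (Subgroup.index_comap_of_surjective _ ConjAct.toConjAct.surjective) ?_).symm
    rw [MulAction.index_stabilizer, ← Nat.card_coe_set_eq]
    refine Nat.card_congr (Equiv.subtypeEquivRight fun a => ?_)
    change a ∈ MulAction.orbit (ConjAct G) t ↔ _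
    rw [ConjAct.mem_orbit_conjAct]
    exact ⟨fun h => h.symm, fun h => h.symm⟩
  let J := {z : G // orderOf z = 2 ∧ Commute z s}
  have hex : ∀ a : T, ∃ z : J, Commute (a : G) z := by
    intro a
    have ha : orderOf (a : G) = 2 := (isConj_orderOf a.2).symm.trans ht
    obtain ⟨z, hz, -, hza, hzs⟩ := exists_involution_commute ha hs
      (fun h => hnc (a.2.trans (isConj_of_odd ha hs h)).symm)
    exact ⟨⟨z, hz, hzs⟩, hza.symm⟩
  choose f hf using hex
  have hJ : Nat.card J + 1 ≤ c := by
    refine le_trans ?_ (hmax s hs)
    rw [← Finite.card_option]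
    refine Nat.card_le_card_of_injective (fun o => o.elim (1 : Subgroup.centralizer ({s} : Set G))
      (fun z => ⟨z.1, Subgroup.mem_centralizer_singleton_iff.mpr z.2.2⟩)) ?_
    rintro (_ | z) (_ | w) h <;> simp only [Option.elim_none, Option.elim_some, Subtype.ext_iff,
      OneMemClass.coe_one] at h
    · rfl
    · exact absurd h.symm (ne_one w.2.1)
    · exact absurd h (ne_one z.2.1)
    · rw [Subtype.ext h]
  have hfib : ∀ z : J, Nat.card {a : T // f a = z} + 1 ≤ c := by
    intro z
    refine le_trans ?_ (hmax z z.2.1)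
    rw [← Finite.card_option]
    refine Nat.card_le_card_of_injective (fun o => o.elim (1 : Subgroup.centralizer ({(z : G)} : Set G))
      (fun a => ⟨(a.1 : T).1, Subgroup.mem_centralizer_singleton_iff.mpr (by
        have := hf a.1; rw [a.2] at this; exact this)⟩)) ?_
    rintro (_ | z) (_ | w) h <;> simp only [Option.elim_none, Option.elim_some, Subtype.ext_iff,
      OneMemClass.coe_one] at h
    · rfl
    · exact absurd h.symm (ne_one ((isConj_orderOf w.1.2).symm.trans ht))
    · exact absurd h (ne_one ((isConj_orderOf z.1.2).symm.trans ht))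
    · rw [Subtype.ext (Subtype.ext h)]
  have hT : Nat.card T ≤ Nat.card J * (c - 1) := by
    have := Fintype.ofFinite J
    rw [← Nat.card_congr (Equiv.sigmaFiberEquiv f), Nat.card_sigma]
    calc ∑ z : J, Nat.card {a : T // f a = z} ≤ ∑ _z : J, (c - 1) :=
          Finset.sum_le_sum fun z _ => by have := hfib z; omega
      _ = _ := by rw [Finset.sum_const, Finset.card_univ, ← Nat.card_eq_fintype_card, smul_eq_mul]
  have h1 : Nat.card T * c ≤ (Nat.card J * (c - 1)) * c := Nat.mul_le_mul_right c hT
  have h2 : Nat.card J * (c - 1) < c * c :=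
    lt_of_le_of_lt (Nat.mul_le_mul_right _ (by omega : Nat.card J ≤ c - 1)) (Nat.mul_self_lt_mul_self (by omega))
  rw [← hTc]
  calc Nat.card T * c ≤ (Nat.card J * (c - 1)) * c := h1
    _ < c * c * c := Nat.mul_lt_mul_of_pos_right h2 (by omega)
    _ = c ^ 3 := by ring

end Cfsg.Agent.S0230
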