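import Cfsg.Statements.S0231
import Cfsg.Agent.Lib.Involution.Basic

set_option autoImplicit false
open scoped Pointwise
open Cfsg

namespace Cfsg.Agent.S0231

open Cfsg.Agent.Lib.Involution

/-- Let T be a Sylow 2-subgroup of the finite group G which is not normal and which intersects every other Sylow 2-subgroup trivially. Then G has a single conjugacy class of involutions. -/
theorem result {G : Type*} [Group G] [Finite G] (T : Sylow 2 G) (hnn : ¬ (T : Subgroup G).Normal) (hTI : ∀ g : G, MulAut.conj g • (T : Subgroup G) ≠ T → MulAut.conj g • (T : Subgroup G) ⊓ T = ⊥) (s t : G) (hs : orderOf s = 2) (ht : orderOf t = 2) : IsConj s t := by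
  have hmem : ∀ {P Q : Sylow 2 G} {w : G}, orderOf w = 2 → w ∈ P → w ∈ Q → P = Q := by
    intro P Q w hw hP hQ
    obtain ⟨a, ha⟩ := MulAction.exists_smul_eq G T P
    obtain ⟨b, hb⟩ := MulAction.exists_smul_eq G T Q
    by_contra hne
    have h1 : MulAut.conj (b⁻¹ * a) • (T : Subgroup G) ≠ T := by
      intro h
      apply hne
      have : (b⁻¹ * a) • T = T := Sylow.ext h
      rw [← ha, ← hb]
      calc a • T = b • ((b⁻¹ * a) • T) := by rw [← mul_smul, mul_inv_cancel_left]
        _ = b • T := by rw [this]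
    have h2 := hTI _ h1
    have h3 : MulAut.conj b⁻¹ w ∈ MulAut.conj (b⁻¹ * a) • (T : Subgroup G) ⊓ T := by
      constructor
      · rw [map_mul, mul_smul]
        rw [← ha] at hP
        exact Subgroup.smul_mem_pointwise_smul _ _ _ hP
      · rw [← hb] at hQ
        have := Subgroup.smul_mem_pointwise_smul _ (MulAut.conj b⁻¹) _ hQ
        rw [Sylow.smul_def] at hQ
        change MulAut.conj b⁻¹ • w ∈ _ at this
        rw [Sylow.coe_subgroup_smul, ← mul_smul, ← map_mul, inv_mul_cancel, map_one, one_smul] at this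
        exact this
    rw [h2, Subgroup.mem_bot] at h3
    exact ne_one hw ((MulAut.conj b⁻¹).injective (h3.trans (map_one _).symm))
  have hsyl : ∀ w : G, orderOf w = 2 → ∃ P : Sylow 2 G, w ∈ P := by
    intro w hw
    obtain ⟨P, hP⟩ := (IsPGroup.of_card (p := 2) (n := 1)
      (by rw [Nat.card_zpowers, hw, pow_one] : Nat.card (Subgroup.zpowers w) = 2 ^ 1)).exists_le_sylow
    exact ⟨P, hP (Subgroup.mem_zpowers w)⟩
  have hdiff : ∀ {P Q : Sylow 2 G} {v w : G}, orderOf v = 2 → orderOf w = 2 → v ∈ P → w ∈ Q → P ≠ Q →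
      IsConj v w := by
    intro P Q v w hv hw hP hQ hne
    by_contra hnc
    obtain ⟨z, hz, -, hzv, hzw⟩ := exists_involution_commute hv hw
      (fun h => hnc (isConj_of_odd hv hw h))
    have h2 : ∀ u : G, orderOf u = 2 → Commute z u → ∃ R : Sylow 2 G, z ∈ R ∧ u ∈ R := by
      intro u hu hc
      have hd : orderOf (z * u) ∣ 2 ^ 1 := orderOf_dvd_of_pow_eq_one (by
        rw [pow_one, pow_two, mul_assoc, ← mul_assoc u z, ← hc.eq, mul_assoc, mul_self hu, mul_one,
          mul_self hz])
      obtain ⟨a, -, ha⟩ := (Nat.dvd_prime_pow Nat.prime_two).mp hd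
      obtain ⟨R, hR⟩ := (isPGroup_two_closure_pair hz hu ha).exists_le_sylow
      exact ⟨R, hR (Subgroup.subset_closure (by simp)), hR (Subgroup.subset_closure (by simp))⟩
    obtain ⟨R, hzR, hvR⟩ := h2 v hv hzv
    obtain ⟨R', hzR', hwR'⟩ := h2 w hw hzw
    exact hne ((hmem hv hP hvR).trans ((hmem hz hzR hzR').trans (hmem hw hwR' hQ)))
  obtain ⟨P, hP⟩ := hsyl s hs
  obtain ⟨Q, hQ⟩ := hsyl t ht
  by_cases hPQ : P = Q
  · obtain ⟨g, hg⟩ : ∃ g : G, g • P ≠ P := by
      by_contra h
      push Not at h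
      obtain ⟨a, ha⟩ := MulAction.exists_smul_eq G T P
      have hT : ∀ g : G, g • T = T := by
        intro g
        have := h (a * g * a⁻¹)
        rw [← ha, ← mul_smul, inv_mul_cancel_right, mul_smul] at this
        exact MulAction.injective a this
      exact hnn (Subgroup.normalizer_eq_top_iff.mp
        (top_le_iff.mp fun g _ => Sylow.smul_eq_iff_mem_normalizer.mp (hT g)))
    have hgs : g * s * g⁻¹ ∈ g • P := Subgroup.smul_mem_pointwise_smul _ _ _ hP
    have ho := (orderOf_conj g s).trans hs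
    subst hPQ
    exact (hdiff hs ho hP hgs (Ne.symm hg)).trans (hdiff ho ht hgs hQ hg)
  · exact hdiff hs ht hP hQ hPQ

end Cfsg.Agent.S0231
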