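import Cfsg.Statements.S0232
import Cfsg.Agent.Lib.Involution.BrauerFowler
import Cfsg.Agent.Lib.Involution.IndexTwo

set_option autoImplicit false
open Cfsg

namespace Cfsg.Agent.S0232

open Cfsg.Agent.Lib.Involution

/-- A finite group G of even order greater than 2 has a proper subgroup H with |G| < |H|^3. -/
theorem result {G : Type*} [Group G] [Finite G] (heven : Even (Nat.card G)) (hgt : 2 < Nat.card G) : ∃ H : Subgroup G, H ≠ ⊤ ∧ Nat.card G < (Nat.card H) ^ 3 := by
  induction hn : Nat.card G using Nat.strong_induction_on generalizing G with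
  | _ m ih =>
  subst hn
  obtain ⟨t, ht⟩ := exists_involution_of_even heven
  have hcube : ∀ k : ℕ, 3 ≤ 2 * k → 2 * k < k ^ 3 := by
    intro k hk
    have : 2 ≤ k := by omega
    have : 4 ≤ k * k := by nlinarith
    calc 2 * k < 4 * k := by omega
      _ ≤ k * k * k := Nat.mul_le_mul_right k this
      _ = k ^ 3 := by ring
  by_cases h2 : ∃ K : Subgroup G, K.index = 2
  · obtain ⟨K, hK⟩ := h2
    refine ⟨K, fun h => ?_, ?_⟩
    · rw [h, Subgroup.index_top] at hK
      norm_num at hK
    · have hc := K.card_mul_index
      rw [hK] at hc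
      rw [← hc, mul_comm]
      exact hcube _ (by omega)
  push Not at h2
  by_cases hcen : ∀ s : G, orderOf s = 2 → s ∉ Subgroup.center G
  · exact exists_subgroup_cube h2 hcen ht
  push Not at hcen
  obtain ⟨z, hz, hzc⟩ := hcen
  have : (Subgroup.zpowers z).Normal :=
    ⟨fun a ha g => by
      rwa [Subgroup.mem_center_iff.mp (Subgroup.zpowers_le.mpr hzc ha) g, mul_inv_cancel_right]⟩
  have hcq : Nat.card G = Nat.card (G ⧸ Subgroup.zpowers z) * 2 := by
    rw [Subgroup.card_eq_card_quotient_mul_card_subgroup (Subgroup.zpowers z), Nat.card_zpowers, hz]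
  rcases Nat.even_or_odd (Nat.card (G ⧸ Subgroup.zpowers z)) with he | ho
  · by_cases hq : 2 < Nat.card (G ⧸ Subgroup.zpowers z)
    · obtain ⟨H, hH, hlt⟩ := ih _ (by omega) (G := G ⧸ Subgroup.zpowers z) he hq rfl
      refine ⟨H.comap (QuotientGroup.mk' _), fun h => hH ?_, ?_⟩
      · exact Subgroup.comap_injective (QuotientGroup.mk'_surjective _) (h.trans (Subgroup.comap_top _).symm)
      · have hidx := Subgroup.index_comap_of_surjective H (QuotientGroup.mk'_surjective (Subgroup.zpowers z))
        have hc1 := (H.comap (QuotientGroup.mk' (Subgroup.zpowers z))).card_mul_index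
        rw [hidx] at hc1
        have hc2 := H.card_mul_index
        have hl : 0 < H.index := Nat.pos_of_ne_zero Subgroup.index_ne_zero_of_finite
        have he : Nat.card (H.comap (QuotientGroup.mk' (Subgroup.zpowers z))) = 2 * Nat.card H := by
          refine Nat.eq_of_mul_eq_mul_right hl ?_
          rw [hc1, hcq, mul_assoc, hc2]; ring
        rw [he, mul_pow, hcq]
        omega
    · exfalso
      apply h2 (Subgroup.zpowers z)
      rw [Subgroup.index_eq_card]
      obtain ⟨k, hk⟩ := he
      have := Nat.card_pos (α := G ⧸ Subgroup.zpowers z)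
      omega
  · exfalso
    obtain ⟨j, hj⟩ := ho
    have : Fact (Nat.Prime 2) := ⟨Nat.prime_two⟩
    have hf : (2 : ℕ) ^ ((Nat.card G).factorization 2) = 2 := by
      rw [hcq, hj, Nat.factorization_mul (by omega) (by norm_num), Nat.Prime.factorization Nat.prime_two]
      rw [Finsupp.add_apply, Nat.factorization_eq_zero_of_not_dvd (by omega), Finsupp.single_eq_same]
      rfl
    obtain ⟨H, hH⟩ := exists_index_two_of_cyclic_sylow heven default
      (isCyclic_of_prime_card (p := 2) ((Sylow.card_eq_multiplicity _).trans hf))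
    exact h2 H hH

end Cfsg.Agent.S0232
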