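import Cfsg.Statements.S0233
import Cfsg.Agent.Lib.Involution.BrauerFowler

set_option autoImplicit false
open Cfsg

namespace Cfsg.Agent.S0233

open Cfsg.Agent.Lib.Involution

/-- Let G be a finite group of even order with exactly n involutions whose centre has odd order, and put a = |G|/n. Then G has a proper subgroup H with |G : H| = 2 or |G : H| < a(a+1)/2; over ℕ the latter reads 2·|G:H|·n² < |G|·(|G| + n). -/
theorem result {G : Type*} [Group G] [Finite G] (heven : Even (Nat.card G)) (hZ : Odd (Nat.card (Subgroup.center G))) : ∃ H : Subgroup G, H ≠ ⊤ ∧ (H.index = 2 ∨ 2 * H.index * (Nat.card {t : G // orderOf t = 2}) ^ 2 < Nat.card G * (Nat.card G + Nat.card {t : G // orderOf t = 2})) := by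
  by_cases h2 : ∃ K : Subgroup G, K.index = 2
  · obtain ⟨K, hK⟩ := h2
    refine ⟨K, fun h => ?_, Or.inl hK⟩
    rw [h, Subgroup.index_top] at hK
    norm_num at hK
  push Not at h2
  have hcen : ∀ t : G, orderOf t = 2 → t ∉ Subgroup.center G := by
    intro t ht hm
    have h := Subgroup.orderOf_dvd_natCard _ hm
    rw [ht] at h
    exact Nat.not_even_iff_odd.mpr hZ (even_iff_two_dvd.mpr h)
  obtain ⟨H, hH, hlt⟩ := exists_subgroup_index_lt h2 hcen (by intro h; rw [h] at heven; norm_num at heven)
  exact ⟨H, hH, Or.inr hlt⟩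

end Cfsg.Agent.S0233
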