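import Cfsg.Statements.S0235
import Cfsg.Agent.Lib.Involution.Basic

set_option autoImplicit false
open Cfsg

namespace Cfsg.Agent.S0235

open Cfsg.Agent.Lib.Involution

/-- If x² ≠ 1, the ordered pairs (u, v) of involutions with uv = x correspond bijectively to the involutions t with t x t⁻¹ = x⁻¹ (via (u, v) ↦ u), so the two counts agree. -/
theorem result {G : Type*} [Group G] [Finite G] (x : G) (hx : x ^ 2 ≠ 1) : Nat.card {p : G × G // orderOf p.1 = 2 ∧ orderOf p.2 = 2 ∧ p.1 * p.2 = x} = Nat.card {t : G // orderOf t = 2 ∧ t * x * t⁻¹ = x⁻¹} := by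
  have key : ∀ u : G, orderOf u = 2 →
      ((u * x) ≠ 1 ∧ (u * x) * (u * x) = 1 ↔ u * x * u⁻¹ = x⁻¹) := by
    intro u hu
    rw [inv_self hu]
    constructor
    · rintro ⟨-, h⟩
      rw [eq_inv_iff_mul_eq_one, mul_assoc]
      exact h
    · intro h
      refine ⟨fun h1 => hx ?_, ?_⟩
      · have : x = u := by rw [eq_inv_of_mul_eq_one_right h1, inv_self hu]
        rw [this, pow_two, mul_self hu]
      · rw [eq_inv_iff_mul_eq_one, mul_assoc] at h
        exact h
  refine Nat.card_congr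
    { toFun := fun p => ⟨p.1.1, p.2.1, (key _ p.2.1).mp ?_⟩
      invFun := fun t => ⟨(t.1, t.1 * x), t.2.1,
        orderOf_two_of ((key _ t.2.1).mpr t.2.2).2 ((key _ t.2.1).mpr t.2.2).1,
        mul_mul_self_left t.2.1 x⟩
      left_inv := ?_
      right_inv := fun t => rfl }
  · have e : p.1.1 * x = p.1.2 := (congrArg (p.1.1 * ·) p.2.2.2.symm).trans (mul_mul_self_left p.2.1 p.1.2)
    rw [e]
    exact ⟨ne_one p.2.2.1, mul_self p.2.2.1⟩
  · intro p
    apply Subtype.ext
    apply Prod.ext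
    · rfl
    · change p.1.1 * x = p.1.2
      exact (congrArg (p.1.1 * ·) p.2.2.2.symm).trans (mul_mul_self_left p.2.1 p.1.2)

end Cfsg.Agent.S0235
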