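import Cfsg.Statements.S0236
import Cfsg.Agent.Lib.Involution.Basic

set_option autoImplicit false
open Cfsg

namespace Cfsg.Agent.S0236

open Cfsg.Agent.Lib.Involution

/-- If x is an involution, the number of ordered pairs (u, v) of involutions with uv = x, plus one, equals the number of involutions in the centralizer of x. -/
theorem result {G : Type*} [Group G] [Finite G] (x : G) (hx : orderOf x = 2) : Nat.card {p : G × G // orderOf p.1 = 2 ∧ orderOf p.2 = 2 ∧ p.1 * p.2 = x} + 1 = Nat.card {t : G // orderOf t = 2 ∧ Commute t x} := by
  classical
  rw [← Finite.card_option]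
  refine (Nat.card_congr ?_).symm
  exact {
    toFun := fun t => if h : (t : G) = x then none else
      some ⟨(t.1, t.1 * x), t.2.1, orderOf_two_of
        (by rw [mul_assoc, ← mul_assoc x, ← t.2.2.eq, mul_assoc, mul_self hx, mul_one, mul_self t.2.1])
        (fun h1 => h ((inv_eq_of_mul_eq_one_left h1).symm.trans (inv_self hx))),
        mul_mul_self_left t.2.1 x⟩
    invFun := fun o => match o with
      | none => ⟨x, hx, Commute.refl x⟩
      | some p => ⟨p.1.1, p.2.1, by
          obtain ⟨⟨u, v⟩, hu, hv, huv⟩ := p
          simp only at hu hv huv ⊢
          have hvu : v * u = x := by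
            have e : (u * v)⁻¹ = v * u := by rw [mul_inv_rev, inv_self hu, inv_self hv]
            rw [← e, huv, inv_self hx]
          change u * x = x * u
          conv_lhs => rw [← huv]
          conv_rhs => rw [← hvu]
          rw [mul_mul_self_left hu, mul_assoc, mul_self hu, mul_one]⟩
    left_inv := fun ⟨t, ht⟩ => by
      by_cases h : t = x <;> simp [h]
    right_inv := fun o => by
      rcases o with _ | ⟨⟨u, v⟩, hu, hv, huv⟩
      · simp
      · simp only at hu hv huv
        have hne : u ≠ x := by
          intro h
          rw [← huv] at h
          exact ne_one hv (mul_eq_left.mp h.symm)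
        simp only [hne, dif_neg, not_false_eq_true, Option.some.injEq, Subtype.mk.injEq,
          Prod.mk.injEq, true_and]
        rw [← huv, mul_mul_self_left hu] }

end Cfsg.Agent.S0236
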