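import Cfsg.Statements.S0239
import Cfsg.Agent.Lib.Involution.Basic

set_option autoImplicit false
open Cfsg

namespace Cfsg.Agent.S0239

open Cfsg.Agent.Lib.Involution

/-- If some nontrivial element x of a finite group G is conjugate to x⁻¹, then |G| is even. -/
theorem result {G : Type*} [Group G] [Finite G] (x : G) (hx : x ≠ 1) (hreal : IsConj x x⁻¹) : Even (Nat.card G) := by
  by_contra hev
  rw [Nat.not_even_iff_odd] at hev
  obtain ⟨g, hg⟩ := isConj_iff.mp hreal
  obtain ⟨m, hm⟩ := odd_orderOf_of_odd_card hev g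
  have h2 : g ^ 2 * x = x * g ^ 2 := by
    have e : g ^ 2 * x * (g ^ 2)⁻¹ = x := by
      have : g * (g * x * g⁻¹) * g⁻¹ = x := by rw [hg, ← conj_inv, hg, inv_inv]
      exact (by simp [pow_two, mul_assoc] : g ^ 2 * x * (g ^ 2)⁻¹ = g * (g * x * g⁻¹) * g⁻¹).trans this
    exact mul_inv_eq_iff_eq_mul.mp e
  have hc : Commute ((g ^ 2) ^ (m + 1)) x := (Commute.pow_left h2 _)
  rw [← pow_mul, show 2 * (m + 1) = orderOf g + 1 by omega, pow_succ, pow_orderOf_eq_one,
    one_mul] at hc
  rw [hc.eq, mul_inv_cancel_right] at hg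
  exact hx (eq_one_of_mul_self_of_odd (odd_orderOf_of_odd_card hev x) (mul_eq_one_iff_eq_inv.mpr hg))

end Cfsg.Agent.S0239
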