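import Cfsg.Statements.S0240
import Cfsg.Agent.Lib.Involution.Basic

set_option autoImplicit false
open Cfsg

namespace Cfsg.Agent.S0240

open Cfsg.Agent.Lib.Involution

/-- Let G be a finite group with n involutions and H a subgroup with |H|·(n+1) > |G|. Then some nontrivial h ∈ H is strongly real in G: an involution t of G satisfies t h t⁻¹ = h⁻¹. -/
theorem result {G : Type*} [Group G] [Finite G] (H : Subgroup G) (hH : Nat.card G < Nat.card H * (Nat.card {t : G // orderOf t = 2} + 1)) : ∃ h : G, h ∈ H ∧ h ≠ 1 ∧ ∃ t : G, orderOf t = 2 ∧ t * h * t⁻¹ = h⁻¹ := by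
  classical
  have := Fintype.ofFinite G
  have hlt : Nat.card (G ⧸ H) < Nat.card (Option {t : G // orderOf t = 2}) := by
    rw [Finite.card_option]
    have he := Subgroup.card_eq_card_quotient_mul_card_subgroup H
    rw [he, mul_comm (Nat.card H)] at hH
    exact Nat.lt_of_mul_lt_mul_right hH
  let val : Option {t : G // orderOf t = 2} → G := fun o => o.elim 1 Subtype.val
  have hninj : ¬ Function.Injective (fun o => (QuotientGroup.mk (val o) : G ⧸ H)) :=
    fun hinj => absurd (Nat.card_le_card_of_injective _ hinj) (not_le.mpr hlt)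
  simp only [Function.Injective, not_forall] at hninj
  obtain ⟨a, b, hab, hne⟩ := hninj
  have hmem : (val a)⁻¹ * val b ∈ H := QuotientGroup.eq.mp hab
  rcases a with _ | ⟨a, ha⟩ <;> rcases b with _ | ⟨b, hb⟩
  · exact absurd rfl hne
  · refine ⟨b, by simpa [val] using hmem, ne_one hb, b, hb, ?_⟩
    rw [mul_inv_cancel_right, inv_self hb]
  · refine ⟨a, by simpa [val] using hmem, ne_one ha, a, ha, ?_⟩
    rw [mul_inv_cancel_right, inv_self ha]
  · simp only [val, Option.elim_some] at hmem
    rw [inv_self ha] at hmem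
    refine ⟨a * b, hmem, ?_, a, ha, conj_prod ha hb⟩
    intro h
    apply hne
    simp only [Option.some.injEq, Subtype.mk.injEq]
    exact (inv_self ha).symm.trans (inv_eq_of_mul_eq_one_right h)

end Cfsg.Agent.S0240
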