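import Cfsg.Statements.S0241
import Cfsg.Agent.Lib.Involution.Basic

set_option autoImplicit false
open Cfsg

namespace Cfsg.Agent.S0241

open Cfsg.Agent.Lib.Involution

/-- If x ≠ 1 is conjugate to x⁻¹ in a finite group G and |C_G(x)| is odd, then some involution t satisfies t x t⁻¹ = x⁻¹. -/
theorem result {G : Type*} [Group G] [Finite G] (x : G) (hx : x ≠ 1) (hreal : IsConj x x⁻¹) (hodd : Odd (Nat.card (Subgroup.centralizer ({x} : Set G)))) : ∃ t : G, orderOf t = 2 ∧ t * x * t⁻¹ = x⁻¹ := by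
  obtain ⟨g, hg⟩ := isConj_iff.mp hreal
  have hg2 : g ^ 2 ∈ Subgroup.centralizer ({x} : Set G) := by
    rw [Subgroup.mem_centralizer_singleton_iff]
    have e : g ^ 2 * x * (g ^ 2)⁻¹ = x := by
      have : g * (g * x * g⁻¹) * g⁻¹ = x := by rw [hg, ← conj_inv, hg, inv_inv]
      exact (by simp [pow_two, mul_assoc] : g ^ 2 * x * (g ^ 2)⁻¹ = g * (g * x * g⁻¹) * g⁻¹).trans this
    exact mul_inv_eq_iff_eq_mul.mp e
  obtain ⟨m, hm⟩ := hodd.of_dvd_nat (Subgroup.orderOf_dvd_natCard _ hg2)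
  refine ⟨g ^ orderOf (g ^ 2), orderOf_two_of ?_ ?_, ?_⟩
  · rw [← pow_add, ← two_mul, pow_mul, pow_orderOf_eq_one]
  · intro h
    have hc : Commute g x := by
      have h0 : Commute (g ^ 2) x := (Subgroup.mem_centralizer_singleton_iff.mp hg2)
      have e : g = ((g ^ 2) ^ m)⁻¹ := by
        rw [eq_inv_iff_mul_eq_one, ← pow_mul, ← pow_succ', ← hm]; exact h
      rw [e]; exact (h0.pow_left m).inv_left
    rw [hc.eq, mul_inv_cancel_right] at hg
    have hxm : x ∈ Subgroup.centralizer ({x} : Set G) :=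
      Subgroup.mem_centralizer_singleton_iff.mpr rfl
    exact hx (eq_one_of_mul_self_of_odd (hodd.of_dvd_nat (Subgroup.orderOf_dvd_natCard _ hxm))
      (mul_eq_one_iff_eq_inv.mpr hg))
  · rw [hm, pow_succ, pow_mul]
    have h0 : Commute ((g ^ 2) ^ m) x :=
      Commute.pow_left (Subgroup.mem_centralizer_singleton_iff.mp hg2) m
    calc (g ^ 2) ^ m * g * x * ((g ^ 2) ^ m * g)⁻¹
        = (g ^ 2) ^ m * (g * x * g⁻¹) * ((g ^ 2) ^ m)⁻¹ := by group
      _ = x⁻¹ := by rw [hg, (h0.inv_right).eq, mul_inv_cancel_right]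

end Cfsg.Agent.S0241
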