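import Cfsg.Statements.S0244
import Mathlib


set_option autoImplicit false
open Cfsg

namespace Cfsg.Agent.S0244

/-- Sp_2 = SL_2: a matrix on Fin 1 ⊕ Fin 1 lies in Mathlib's symplectic group iff its determinant is 1. -/
theorem result {R : Type*} [CommRing R] (A : Matrix (Fin 1 ⊕ Fin 1) (Fin 1 ⊕ Fin 1) R) : A ∈ Matrix.symplecticGroup (Fin 1) R ↔ A.det = 1 := by
  rw [SymplecticGroup.mem_iff, ← Matrix.ext_iff]
  have hd : A.det = A (.inl 0) (.inl 0) * A (.inr 0) (.inr 0)
      - A (.inl 0) (.inr 0) * A (.inr 0) (.inl 0) := by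
    rw [← Matrix.det_submatrix_equiv_self (finSumFinEquiv (m := 1) (n := 1)).symm A, Matrix.det_fin_two]
    rfl
  rw [hd]
  constructor
  · intro h
    have := h (.inr 0) (.inl 0)
    simp [Matrix.mul_apply, Matrix.J, Matrix.fromBlocks, Fintype.sum_sum_type] at this
    linear_combination this
  · intro h i j
    rcases i with i | i <;> rcases j with j | j <;> fin_cases i <;> fin_cases j <;>
      simp [Matrix.mul_apply, Matrix.J, Matrix.fromBlocks, Fintype.sum_sum_type] <;>
      first | ring1 | linear_combination h | linear_combination -h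

end Cfsg.Agent.S0244
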