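import Cfsg.Statements.S0250
import Cfsg.Agent.Lib.Classical.Order

set_option autoImplicit false
open Cfsg

namespace Cfsg.Agent.S0250

/-- SL_2(2) is isomorphic to S_3. -/
theorem result {F : Type*} [Field F] [Fintype F] (hF : Fintype.card F = 2) : Nonempty (Matrix.SpecialLinearGroup (Fin 2) F ≃* Equiv.Perm (Fin 3)) := by
  classical
  have hNF : Nat.card F = 2 := by rw [Nat.card_eq_fintype_card, hF]
  have hP : Nat.card (Projectivization F (Fin 2 → F)) = Nat.card (Fin 3) := by
    rw [Projectivization.card_of_finrank_two F (Fin 2 → F) (Module.finrank_fin_fun F), hNF, Nat.card_fin]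
  let e : Projectivization F (Fin 2 → F) ≃ Fin 3 :=
    Finite.equivFinOfCardEq (by rw [hP, Nat.card_fin])
  have hc : Subgroup.center (Matrix.SpecialLinearGroup (Fin 2) F) = ⊥ := by
    refine Subgroup.card_eq_one.1 ?_
    rw [Lib.Classical.card_center_SL, Fintype.card_fin, hF]; rfl
  let φ := e.permCongrHom.toMonoidHom.comp
    (MulAction.toPermHom (Matrix.SpecialLinearGroup (Fin 2) F) (Projectivization F (Fin 2 → F)))
  have hinj : Function.Injective φ := by
    refine e.permCongrHom.injective.comp ((MonoidHom.ker_eq_bot_iff _).1 ?_)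
    rw [Projectivization.SL_mulAction_ker, hc]
  refine ⟨MulEquiv.ofBijective φ ((Nat.bijective_iff_injective_and_card φ).2 ⟨hinj, ?_⟩)⟩
  rw [Lib.Classical.card_SL_two, hF, Nat.card_perm, Nat.card_fin]
  rfl

end Cfsg.Agent.S0250
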