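import Cfsg.Statements.S0251
import Cfsg.Agent.Lib.Classical.Order

set_option autoImplicit false
open Cfsg

namespace Cfsg.Agent.S0251

/-- PSL_2(3) is isomorphic to A_4. -/
theorem result {F : Type*} [Field F] [Fintype F] (hF : Fintype.card F = 3) : Nonempty (Matrix.ProjectiveSpecialLinearGroup (Fin 2) F ≃* alternatingGroup (Fin 4)) := by
  classical
  have hNF : Nat.card F = 3 := by rw [Nat.card_eq_fintype_card, hF]
  let e : Projectivization F (Fin 2 → F) ≃ Fin 4 := Finite.equivFinOfCardEq (by
    rw [Projectivization.card_of_finrank_two F (Fin 2 → F) (Module.finrank_fin_fun F), hNF])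
  let φ := e.permCongrHom.toMonoidHom.comp
    (Projectivization.PSLAction.toPermHom (ι := Fin 2) (K := F))
  have hinj : Function.Injective φ :=
    e.permCongrHom.injective.comp Matrix.ProjectiveSpecialLinearGroup.toPermHom_injective
  have hc : Nat.card φ.range = 12 := by
    rw [← Nat.card_congr (MonoidHom.ofInjective hinj).toEquiv]
    have h := Lib.Classical.two_mul_card_PSL_two_of_odd (F := F) (by rw [hF]; decide)
    rw [hF] at h; omega
  have hidx : φ.range.index = 2 := by
    have := φ.range.card_mul_index
    rw [hc, Nat.card_perm, Nat.card_fin] at this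
    norm_num [Nat.factorial] at this; omega
  exact ⟨(MonoidHom.ofInjective hinj).trans
    (MulEquiv.subgroupCongr (Equiv.Perm.eq_alternatingGroup_of_index_eq_two hidx))⟩

end Cfsg.Agent.S0251
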