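import Cfsg.Statements.S0252
import Cfsg.Agent.Lib.Classical.Order
import Cfsg.Agent.Lib.SmallSimple.Basic

set_option autoImplicit false
open Cfsg

namespace Cfsg.Agent.S0252

/-- PSL_2(4) is isomorphic to A_5. -/
theorem result {F : Type*} [Field F] [Fintype F] (hF : Fintype.card F = 4) : Nonempty (Matrix.ProjectiveSpecialLinearGroup (Fin 2) F ≃* alternatingGroup (Fin 5)) := by
  have : IsSimpleGroup (Matrix.ProjectiveSpecialLinearGroup (Fin 2) F) :=
    Matrix.ProjectiveSpecialLinearGroup.rank_two_simple (by rw [Nat.card_eq_fintype_card, hF])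
  refine Lib.SmallSimple.nonempty_mulEquiv_alternatingFive ?_
  have h := Lib.Classical.card_PSL_two_of_even (F := F) (by rw [hF]; decide)
  rw [hF] at h; first | exact h | omega

end Cfsg.Agent.S0252
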