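import Cfsg.Statements.S0255
import Cfsg.Agent.Lib.SmallSimple.Order168
import Cfsg.Agent.Lib.Classical.Order
import Cfsg.Agent.Lib.Classical.Simple

open Cfsg.Agent.Lib.SmallSimple

set_option autoImplicit false
open Cfsg

namespace Cfsg.Agent.S0255

/-- PSL_2(7) is isomorphic to PSL_3(2). -/
theorem result {F K : Type*} [Field F] [Fintype F] [Field K] [Fintype K] (hF : Fintype.card F = 7) (hK : Fintype.card K = 2) : Nonempty (Matrix.ProjectiveSpecialLinearGroup (Fin 2) F ≃* Matrix.ProjectiveSpecialLinearGroup (Fin 3) K) := by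
  classical
  have : IsSimpleGroup (Matrix.ProjectiveSpecialLinearGroup (Fin 2) F) :=
    Matrix.ProjectiveSpecialLinearGroup.rank_two_simple (by rw [Nat.card_eq_fintype_card, hF]; norm_num)
  have : IsSimpleGroup (Matrix.ProjectiveSpecialLinearGroup (Fin 3) K) :=
    Lib.Classical.isSimpleGroup_PSL (by simp)
  have h1 : Nat.card (Matrix.ProjectiveSpecialLinearGroup (Fin 2) F) = 168 := by
    have h := Lib.Classical.two_mul_card_PSL_two_of_odd (F := F) (by rw [hF]; decide)
    rw [hF] at h; omega
  have h2 : Nat.card (Matrix.ProjectiveSpecialLinearGroup (Fin 3) K) = 168 := by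
    have h := Lib.Classical.card_SL_mul (F := K) hK 3 (by norm_num)
    rw [Lib.Classical.card_SL_eq_gcd_mul_card_PSL, Fintype.card_fin, hK] at h
    simpa [Fin.prod_univ_three] using h
  obtain ⟨e1⟩ := equiv_lineGroup h1
  obtain ⟨e2⟩ := equiv_lineGroup h2
  exact ⟨e1.trans e2.symm⟩

end Cfsg.Agent.S0255
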