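import Cfsg.Statements.S0268
import Mathlib


set_option autoImplicit false
open Cfsg

namespace Cfsg.Agent.S0268

/-- For q odd, -1 is the unique involution of SL_2(q). -/
theorem result {F : Type*} [Field F] [Fintype F] (hF : Odd (Fintype.card F)) (g : Matrix.SpecialLinearGroup (Fin 2) F) (h1 : g ≠ 1) (h2 : g * g = 1) : (g : Matrix (Fin 2) (Fin 2) F) = -1 := by
  have hdet := g.2
  have hm : (g : Matrix (Fin 2) (Fin 2) F) * g = 1 := congrArg Subtype.val h2
  have h2ne : (2 : F) ≠ 0 := by
    intro h
    have : ringChar F = 2 := CharP.ringChar_of_prime_eq_zero Nat.prime_two (by exact_mod_cast h)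
    have := FiniteField.even_card_of_char_two this
    rcases hF with ⟨k, hk⟩; omega
  obtain ⟨M, rfl⟩ : ∃ M, (g : Matrix (Fin 2) (Fin 2) F) = M := ⟨_, rfl⟩
  have e := fun i j => congrFun (congrFun hm i) j
  simp only [Matrix.mul_apply, Fin.sum_univ_two] at e
  rw [Matrix.det_fin_two] at hdet
  have e00 := e 0 0; have e01 := e 0 1; have e10 := e 1 0; have e11 := e 1 1
  simp at e00 e01 e10 e11
  generalize ha : g.1 0 0 = a at *
  generalize hb : g.1 0 1 = b at *
  generalize hc : g.1 1 0 = c at *
  generalize hd : g.1 1 1 = d at *
  by_cases ht : a + d = 0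
  · exfalso
    have : (2 : F) = 0 := by linear_combination (-1 : F) * e00 + (-1 : F) * hdet + a * ht
    exact h2ne this
  · have hb0 : b = 0 := by
      have : b * (a + d) = 0 := by linear_combination e01
      simpa [ht] using this
    have hc0 : c = 0 := by
      have : c * (a + d) = 0 := by linear_combination e10
      simpa [ht] using this
    subst hb0 hc0
    have had : a = d := by
      have : a * (a - d) = 0 := by linear_combination e00 - hdet
      rcases mul_eq_zero.1 this with h | h
      · simp [h] at hdet
      · exact sub_eq_zero.1 h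
    subst had
    rcases mul_self_eq_one_iff.1 (by simpa using hdet) with rfl | rfl
    · exact absurd (Matrix.SpecialLinearGroup.ext _ _ (by
        intro i j; fin_cases i <;> fin_cases j <;> simp_all)) h1
    · ext i j; fin_cases i <;> fin_cases j <;> simp_all

end Cfsg.Agent.S0268
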