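import Cfsg.Statements.S0270
import Cfsg.Agent.Lib.Classical.SympSimple

set_option autoImplicit false
open Cfsg

namespace Cfsg.Agent.S0270

/-- PSp_{2m}(q) is simple for m at least 2 and (m, q) other than (2, 2). -/
theorem result {F : Type*} [Field F] [Fintype F] (m : ℕ) (hm : 2 ≤ m) (h : m = 2 → 3 ≤ Fintype.card F) : IsSimpleGroup (Cfsg.PSp m F) := by
  exact Cfsg.Agent.Lib.Classical.isSimpleGroup_PSp m hm h

end Cfsg.Agent.S0270
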