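import Mathlib
import Cfsg.Statements.S0275
import Cfsg.Agent.S0016
import Cfsg.Agent.S0261
import Cfsg.Agent.S0268
import Cfsg.Agent.S0274

set_option autoImplicit false

open scoped commutatorElement Pointwise

namespace Cfsg.Agent.S0275

/-- If p is odd and H is a subgroup of SL_2(q), q a power of p, with more than one Sylow p-subgroup, then the Sylow 2-subgroups of H are generalised quaternion. -/
theorem result {F : Type*} [Field F] [Fintype F] (p : ℕ) [Fact p.Prime] [CharP F p] (hp : p ≠ 2) (H : Subgroup (Matrix.SpecialLinearGroup (Fin 2) F)) (hH : 1 < Nat.card (Sylow p H)) (S : Sylow 2 H) : ∃ k : ℕ, 1 ≤ k ∧ Nonempty ((S : Subgroup H) ≃* QuaternionGroup (2 ^ k)) := by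
  classical
  haveI : Fact (Nat.Prime 2) := ⟨Nat.prime_two⟩
  have hodd : Odd (Fintype.card F) := by
    obtain ⟨n, hp', hn⟩ := FiniteField.card F p
    rw [hn]; exact (hp'.odd_of_ne_two hp).pow
  have hpow : IsPGroup 2 (S : Subgroup H) := S.isPGroup'
  have huniq : ∀ A B : Subgroup (S : Subgroup H), Nat.card A = 2 → Nat.card B = 2 → A = B := by
    intro A B hA hB
    have key : ∀ (L : Subgroup (S : Subgroup H)), Nat.card L = 2 → ∀ x ∈ L, x ≠ 1 →
        (((x : (S : Subgroup H)) : H) : Matrix.SpecialLinearGroup (Fin 2) F).1 = -1 := by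
      intro L hL x hx hx1
      refine Cfsg.Agent.S0268.result hodd _ (fun h => hx1 ?_) ?_
      · exact Subtype.ext (Subtype.ext h)
      · have := pow_card_eq_one' (x := (⟨x, hx⟩ : L))
        rw [hL, pow_two] at this
        exact congrArg (fun z : L => ((((z : (S : Subgroup H)) : H)) : Matrix.SpecialLinearGroup (Fin 2) F)) this
    haveI : Nontrivial A := Finite.one_lt_card_iff_nontrivial.1 (by omega)
    haveI : Nontrivial B := Finite.one_lt_card_iff_nontrivial.1 (by omega)
    obtain ⟨⟨a, haA⟩, ha1⟩ := exists_ne (1 : A)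
    obtain ⟨⟨b, hbB⟩, hb1⟩ := exists_ne (1 : B)
    have ha1' : a ≠ 1 := fun h => ha1 (Subtype.ext h)
    have hb1' : b ≠ 1 := fun h => hb1 (Subtype.ext h)
    have hab : a = b := by
      refine Subtype.ext (Subtype.ext (Subtype.ext ?_))
      rw [key A hA a haA ha1', key B hB b hbB hb1']
    have hgen : ∀ (L : Subgroup (S : Subgroup H)), Nat.card L = 2 → ∀ x ∈ L, x ≠ 1 → Subgroup.zpowers x = L := by
      intro L hL x hx hx1
      refine Subgroup.eq_of_le_of_card_ge (Subgroup.zpowers_le.2 hx) ?_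
      rw [hL, Nat.card_zpowers]
      have := orderOf_pos x
      have : orderOf x ≠ 1 := fun h => hx1 (orderOf_eq_one_iff.1 h)
      omega
    rw [← hgen A hA a haA ha1', ← hgen B hB b hbB hb1', hab]
  have hnc : ¬ IsCyclic (S : Subgroup H) := by
    intro hc
    obtain ⟨K, hKH, ⟨e⟩⟩ := Cfsg.Agent.S0274.result p hp H hH
    let φ : Matrix.SpecialLinearGroup (Fin 2) (ZMod p) →* H :=
      (Subgroup.inclusion hKH).comp e.symm.toMonoidHom
    have hφ : Function.Injective φ := (Subgroup.inclusion_injective hKH).comp e.symm.injective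
    obtain ⟨Q⟩ : Nonempty (Sylow 2 (Matrix.SpecialLinearGroup (Fin 2) (ZMod p))) := inferInstance
    obtain ⟨k, hk, ⟨eQ⟩⟩ := Cfsg.Agent.S0261.result
      (F := ZMod p) (by rw [ZMod.card]; exact (Fact.out : p.Prime).odd_of_ne_two hp) Q
    obtain ⟨S', hS'⟩ := (Q.isPGroup'.map φ).exists_le_sylow
    obtain ⟨g, hg⟩ := MulAction.exists_smul_eq H S S'
    haveI : IsCyclic (S' : Subgroup H) := (Sylow.equiv S S').isCyclic.1 hc
    haveI : IsCyclic ((Q : Subgroup _).map φ) := isCyclic_of_injective (Subgroup.inclusion hS') (Subgroup.inclusion_injective hS')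
    haveI : IsCyclic (Q : Subgroup (Matrix.SpecialLinearGroup (Fin 2) (ZMod p))) :=
      ((Q : Subgroup _).equivMapOfInjective φ hφ).isCyclic.2 inferInstance
    haveI hcq : IsCyclic (QuaternionGroup (2 ^ k)) := eQ.isCyclic.1 inferInstance
    letI : CommGroup (QuaternionGroup (2 ^ k)) := IsCyclic.commGroup
    have h := mul_comm (QuaternionGroup.a (1 : ZMod (2 * 2 ^ k))) (QuaternionGroup.xa 0)
    rw [QuaternionGroup.a_mul_xa, QuaternionGroup.xa_mul_a] at h
    injection h with h
    have h2 : ((2 : ℕ) : ZMod (2 * 2 ^ k)) = 0 := by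
      rw [zero_sub, zero_add] at h
      push_cast
      calc (2 : ZMod (2 * 2 ^ k)) = 1 + 1 := by norm_num
        _ = -1 + 1 := by rw [h]
        _ = 0 := by ring
    rw [ZMod.natCast_eq_zero_iff] at h2
    have := Nat.le_of_dvd (by norm_num) h2
    have : 2 ≤ 2 ^ k := by calc 2 = 2 ^ 1 := rfl
      _ ≤ 2 ^ k := Nat.pow_le_pow_right (by norm_num) hk
    omega
  rcases Cfsg.Agent.S0016.result 2 hpow huniq with h | ⟨-, n, ⟨e⟩⟩
  · exact absurd h hnc
  · refine ⟨n, Nat.one_le_iff_ne_zero.2 fun h0 => hnc ?_, ⟨e⟩⟩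
    subst h0
    exact e.isCyclic.2 QuaternionGroup.quaternionGroup_one_isCyclic

end Cfsg.Agent.S0275
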