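import Cfsg.Statements.S0281
import Cfsg.Agent.Lib.Classical.Unitary

set_option autoImplicit false
open Cfsg

namespace Cfsg.Agent.S0281

/-- SU_2(q) is isomorphic to SL_2(q). -/
theorem result {F K : Type*} [Field F] [Fintype F] [Field K] [Fintype K] {q : ℕ} (hF : Fintype.card F = q ^ 2) (hK : Fintype.card K = q) : Nonempty (Cfsg.SU 2 F q ≃* Matrix.SpecialLinearGroup (Fin 2) K) := by
  let S : Subfield F := RingHom.eqLocusField (Cfsg.Agent.Lib.UnitaryConj.qHom hF) (RingHom.id F)
  have hS : Nat.card S = q := Cfsg.Agent.Lib.Classical.Herm.card_fixed hF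
  have := Fintype.ofFinite S
  exact Cfsg.Agent.Lib.Classical.Herm.SU_two_equiv hF hK
    (S.subtype.comp (FiniteField.ringEquivOfCardEq (K := K) (K' := S) (by
      rw [hK, ← Nat.card_eq_fintype_card, hS])).toRingHom)

end Cfsg.Agent.S0281
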