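import Cfsg.Statements.S0286
import Cfsg.Agent.Lib.Classical.QuadStd

set_option autoImplicit false
open Cfsg

namespace Cfsg.Agent.S0286

/-- |GO_{2m+1}(q)| = 2 q^(m^2) prod_{i=1}^{m} (q^(2i) - 1) for q odd. -/
theorem result {F : Type*} [Field F] [Fintype F] {q : ℕ} (hF : Fintype.card F = q) (hodd : Odd q) (m : ℕ) : Nat.card (Cfsg.isometryGroup F (Cfsg.quadFormOdd m F)) = 2 * q ^ (m ^ 2) * ∏ i ∈ Finset.range m, (q ^ (2 * (i + 1)) - 1) := by
  subst hF
  refine Cfsg.Agent.Lib.Classical.Quad.card_O_odd (Ring.two_ne_zero fun h => ?_) m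
  have := FiniteField.even_card_of_char_two h
  rw [Nat.odd_iff] at hodd
  omega

end Cfsg.Agent.S0286
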