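import Cfsg.Statements.S0296
import Cfsg.Agent.Lib.Classical.QuadOmega.Main

set_option autoImplicit false
open Cfsg

namespace Cfsg.Agent.S0296

/-- PΩ^+_{2m}(q) is simple for m at least 4. -/
theorem result {F : Type*} [Field F] [Fintype F] (m : ℕ) (hm : 4 ≤ m) : IsSimpleGroup (Cfsg.POmega F (Cfsg.quadFormPlus m F)) := by
  exact Cfsg.Agent.Lib.Classical.QuadOmega.isSimple_POmega_plus (by omega)

end Cfsg.Agent.S0296
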