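import Cfsg.Statements.S0298
import Cfsg.Agent.Lib.Classical.ExcIso.Two
import Cfsg.Agent.Lib.Classical.QuadOmega.Disc

open Matrix QuadraticMap Cfsg.Agent.Lib.Classical.Quad Cfsg.Agent.Lib.Classical.QuadOmega Cfsg.Agent.Lib.Classical.ExcIso

set_option autoImplicit false
open Cfsg

namespace Cfsg.Agent.S0298

attribute [local instance] _root_.Classical.propDecidable

/-- PΩ_3(q) is isomorphic to PSL_2(q) for q odd. -/
theorem result {F : Type*} [Field F] [Fintype F] (hodd : Odd (Fintype.card F)) : Nonempty (Cfsg.POmega F (Cfsg.quadFormOdd 1 F) ≃* Matrix.ProjectiveSpecialLinearGroup (Fin 2) F) := by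
  have h2 : (2 : F) ≠ 0 := fun h => by
    have := CharP.ringChar_of_prime_eq_zero Nat.prime_two (R := F) (by exact_mod_cast h)
    have := (FiniteField.even_card_iff_char_two).1 this
    rw [Nat.odd_iff] at hodd
    omega
  let E : Emb F F (Unit ⊕ (Fin 1 ⊕ Fin 1)) (Fin 2) :=
    { σ := RingHom.id F
      em := fun v => !![v (.inl ()), v (.inr (.inl 0)); v (.inr (.inr 0)), -v (.inl ())]
      add := fun x y => by ext i j; fin_cases i <;> fin_cases j <;> simp <;> ring
      smul := fun c x => by ext i j; fin_cases i <;> fin_cases j <;> simp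
      inj := fun x y h => by
        ext (u | i | i)
        · simpa using congrFun (congrFun h 0) 0
        · obtain rfl := Subsingleton.elim i 0
          simpa using congrFun (congrFun h 0) 1
        · obtain rfl := Subsingleton.elim i 0
          simpa using congrFun (congrFun h 1) 0 }
  have hdetE : ∀ x, Cfsg.quadFormOdd 1 F x = -(E.em x).det := fun x => by
    simp [E, Cfsg.quadFormOdd, Matrix.det_fin_two]
    ring
  let ψ := sandHom (G := Matrix.SpecialLinearGroup (Fin 2) F) E (Cfsg.quadFormOdd 1 F)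
    (fun g => (g : Matrix (Fin 2) (Fin 2) F)) (fun g => ((g⁻¹ : _) : Matrix (Fin 2) (Fin 2) F))
    (fun g h => sl_coe_mul g h) (fun g h => by rw [← sl_coe_mul, _root_.mul_inv_rev]) rfl (by simp)
    (fun g x => by
      refine ⟨fun i => Sum.elim (fun _ => ((g : Matrix (Fin 2) (Fin 2) F) * E.em x *
          ((g⁻¹ : _) : Matrix (Fin 2) (Fin 2) F)) 0 0)
        (Sum.elim (fun _ => ((g : Matrix (Fin 2) (Fin 2) F) * E.em x *
          ((g⁻¹ : _) : Matrix (Fin 2) (Fin 2) F)) 0 1)
          (fun _ => ((g : Matrix (Fin 2) (Fin 2) F) * E.em x *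
          ((g⁻¹ : _) : Matrix (Fin 2) (Fin 2) F)) 1 0)) i, ?_⟩
      have htr : ((g : Matrix (Fin 2) (Fin 2) F) * E.em x *
          ((g⁻¹ : _) : Matrix (Fin 2) (Fin 2) F)).trace = 0 := by
        rw [Matrix.trace_mul_comm, ← Matrix.mul_assoc, ← sl_coe_mul, inv_mul_cancel]
        simp [E, Matrix.trace_fin_two]
      rw [Matrix.trace_fin_two] at htr
      generalize (g : Matrix (Fin 2) (Fin 2) F) * E.em x *
          ((g⁻¹ : _) : Matrix (Fin 2) (Fin 2) F) = X at htr ⊢
      ext i j
      fin_cases i <;> fin_cases j <;> simp [E]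
      linear_combination -htr)
    (fun g x y h => by rw [hdetE, hdetE, h, Matrix.det_mul, Matrix.det_mul, Matrix.SpecialLinearGroup.det_coe,
      Matrix.SpecialLinearGroup.det_coe, one_mul, mul_one])
  have hker : ∀ g ∈ ψ.ker, (g : Matrix (Fin 2) (Fin 2) F) 0 1 = 0 ∧
      (g : Matrix (Fin 2) (Fin 2) F) 1 0 = 0 ∧
      (g : Matrix (Fin 2) (Fin 2) F) 0 0 = (g : Matrix (Fin 2) (Fin 2) F) 1 1 := by
    intro g hg
    have hc : ∀ x, (g : Matrix (Fin 2) (Fin 2) F) * E.em x = E.em x * (g : Matrix (Fin 2) (Fin 2) F) := by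
      intro x
      conv_rhs => rw [← fixed_of_mem_ker hg x]
      rw [Matrix.mul_assoc, ← sl_coe_mul, inv_mul_cancel]
      simp
    have a := hc (Pi.single (.inr (.inl 0)) 1)
    have b := hc (Pi.single (.inr (.inr 0)) 1)
    have a00 := congrFun (congrFun a 0) 0
    have a01 := congrFun (congrFun a 0) 1
    have b00 := congrFun (congrFun b 0) 0
    simp [E, Matrix.mul_apply, Fin.sum_univ_two] at a00 a01 b00
    refine ⟨?_, ?_, ?_⟩ <;> first | assumption | exact a00.symm | exact b00.symm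
  obtain ⟨Φ⟩ := pOmega_equiv (Cfsg.quadFormOdd 1 F) (eOdd 1) (odd_apply 1) (nd_splitQ (nd_sqQ h2) 1)
    (by simp) ψ (le_omega_of_sign _ (eOdd 1) (odd_apply 1) (nd_splitQ (nd_sqQ h2) 1) h2 (sl2_sign h2) ψ)
    (by rw [card_O_odd h2, Cfsg.Agent.Lib.Classical.card_SL_two]; simp [Finset.prod_range_one, mul_assoc])
    (card_ker_le ψ (fun g => (g : Matrix (Fin 2) (Fin 2) F) 0 0)
      (fun g hg => (sl2_central (hker g hg).1 (hker g hg).2.1 (hker g hg).2.2).2)
      (fun g hg g' hg' h => sl2_ext (hker g hg).1 (hker g hg).2.1 (hker g hg).2.2 (hker g' hg').1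
        (hker g' hg').2.1 (hker g' hg').2.2 h))
    (fun g hg => (sl2_central (hker g hg).1 (hker g hg).2.1 (hker g hg).2.2).1) sl2_hc
  exact ⟨Φ⟩

end Cfsg.Agent.S0298
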