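import Cfsg.Statements.S0299
import Cfsg.Agent.Lib.Classical.ExcIso.Two
import Cfsg.Agent.Lib.Classical.QuadOmega.Diag
import Cfsg.Agent.Lib.Classical.QuadOmega.Std

open Matrix QuadraticMap Cfsg.Agent.Lib.Classical.Quad Cfsg.Agent.Lib.Classical.QuadOmega Cfsg.Agent.Lib.Classical.ExcIso
open scoped commutatorElement

set_option autoImplicit false
open Cfsg

namespace Cfsg.Agent.S0299

attribute [local instance] _root_.Classical.propDecidable

/-- PΩ^+_4(q) is isomorphic to PSL_2(q) x PSL_2(q) for q at least 3. -/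
theorem result {F : Type*} [Field F] [Fintype F] (hF : 3 ≤ Fintype.card F) : Nonempty (Cfsg.POmega F (Cfsg.quadFormPlus 2 F) ≃* Matrix.ProjectiveSpecialLinearGroup (Fin 2) F × Matrix.ProjectiveSpecialLinearGroup (Fin 2) F) := by
  let E : Emb F F (Fin 2 ⊕ Fin 2) (Fin 2) :=
    { σ := RingHom.id F
      em := fun v => !![v (.inl 0), -v (.inl 1); v (.inr 1), v (.inr 0)]
      add := fun x y => by ext i j; fin_cases i <;> fin_cases j <;> simp [add_comm]
      smul := fun c x => by ext i j; fin_cases i <;> fin_cases j <;> simp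
      inj := fun x y h => by
        have a00 := congrFun (congrFun h 0) 0
        have a01 := congrFun (congrFun h 0) 1
        have a10 := congrFun (congrFun h 1) 0
        have a11 := congrFun (congrFun h 1) 1
        simp at a00 a01 a10 a11
        ext (i | i) <;> fin_cases i <;> assumption }
  have hdetE : ∀ x, Cfsg.quadFormPlus 2 F x = (E.em x).det := fun x => by
    simp [E, Cfsg.quadFormPlus, Matrix.det_fin_two, Fin.sum_univ_two]
  have hsurj : ∀ M : Matrix (Fin 2) (Fin 2) F, ∃ y, E.em y = M := fun M =>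
    ⟨Sum.elim ![M 0 0, -M 0 1] ![M 1 1, M 1 0], by ext i j; fin_cases i <;> fin_cases j <;> simp [E]⟩
  let ψ := sandHom (G := Matrix.SpecialLinearGroup (Fin 2) F × Matrix.SpecialLinearGroup (Fin 2) F)
    E (Cfsg.quadFormPlus 2 F) (fun g => (g.1 : Matrix (Fin 2) (Fin 2) F))
    (fun g => (g.2 : Matrix (Fin 2) (Fin 2) F).transpose)
    (fun g h => sl_coe_mul g.1 h.1) (fun g h => by rw [← Matrix.transpose_mul, ← sl_coe_mul]; rfl) rfl
    (by simp) (fun g x => hsurj _)
    (fun g x y h => by
      rw [hdetE, hdetE, h, Matrix.det_mul, Matrix.det_mul, Matrix.det_transpose,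
        Matrix.SpecialLinearGroup.det_coe, Matrix.SpecialLinearGroup.det_coe, one_mul, mul_one])
  have hker : ∀ g ∈ ψ.ker, (g.1 : Matrix (Fin 2) (Fin 2) F) 0 1 = 0 ∧
      (g.1 : Matrix (Fin 2) (Fin 2) F) 1 0 = 0 ∧
      (g.1 : Matrix (Fin 2) (Fin 2) F) 0 0 = (g.1 : Matrix (Fin 2) (Fin 2) F) 1 1 ∧ g.2 = g.1 := by
    intro g hg
    have hM : ∀ M, (g.1 : Matrix (Fin 2) (Fin 2) F) * M * (g.2 : Matrix (Fin 2) (Fin 2) F).transpose = M :=
      fun M => by
        obtain ⟨x, rfl⟩ := hsurj M
        exact fixed_of_mem_ker hg x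
    have h1 := hM 1
    rw [Matrix.mul_one] at h1
    have h1' := mul_eq_one_comm.1 h1
    have hc : ∀ M, (g.1 : Matrix (Fin 2) (Fin 2) F) * M = M * (g.1 : Matrix (Fin 2) (Fin 2) F) := fun M => by
      conv_rhs => rw [← hM M]
      rw [Matrix.mul_assoc, h1', Matrix.mul_one]
    have a := hc !![0, 1; 0, 0]
    have b := hc !![0, 0; 1, 0]
    have a00 := congrFun (congrFun a 0) 0
    have a01 := congrFun (congrFun a 0) 1
    have b00 := congrFun (congrFun b 0) 0
    simp [Matrix.mul_apply, Fin.sum_univ_two] at a00 a01 b00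
    replace a00 := a00.symm
    refine ⟨b00, a00, a01, ?_⟩
    have hz := (sl2_central b00 a00 a01).2
    set c := (g.1 : Matrix (Fin 2) (Fin 2) F) 0 0
    have e : (g.1 : Matrix (Fin 2) (Fin 2) F) = c • 1 := by
      ext i j; fin_cases i <;> fin_cases j <;> simp [c, b00, a00, a01]
    refine Subtype.ext ?_
    rw [e, Matrix.smul_mul, Matrix.one_mul] at h1
    have h2 := congrArg (fun M : Matrix (Fin 2) (Fin 2) F => c • M) h1
    simp only [smul_smul, hz, one_smul] at h2
    rw [e]
    calc (g.2 : Matrix (Fin 2) (Fin 2) F) = ((g.2 : Matrix (Fin 2) (Fin 2) F).transpose).transpose :=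
          (Matrix.transpose_transpose _).symm
      _ = _ := by rw [h2, Matrix.transpose_smul, Matrix.transpose_one]
  have hz : ∀ g ∈ ψ.ker, g ∈ Subgroup.center
      (Matrix.SpecialLinearGroup (Fin 2) F × Matrix.SpecialLinearGroup (Fin 2) F) := by
    intro g hg
    obtain ⟨a, b, c, d⟩ := hker g hg
    have h1 := Subgroup.mem_center_iff.1 (sl2_central a b c).1
    refine Subgroup.mem_center_iff.2 fun h => Prod.ext (h1 h.1) ?_
    change h.2 * g.2 = g.2 * h.2
    rw [d]
    exact h1 h.2
  have hnd : Nd (splitQ 2 (zeroQ F)) := nd_splitQ nd_zeroQ 2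
  have hle : ∀ g, ψ g ∈ Cfsg.Omega F (Cfsg.quadFormPlus 2 F) := by
    rcases Nat.lt_or_ge (Fintype.card F) 4 with h4 | h4
    · have h2 : (2 : F) ≠ 0 := fun h => by
        have := CharP.ringChar_of_prime_eq_zero Nat.prime_two (R := F) (by exact_mod_cast h)
        have := (FiniteField.even_card_iff_char_two).1 this
        omega
      refine le_omega_of_sign _ (ePlus 2) (plus_apply 2) hnd h2 (fun θ => MonoidHom.ext fun g => ?_) ψ
      have h1 := DFunLike.congr_fun (sl2_sign h2 (θ.comp (MonoidHom.inl _ _))) g.1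
      have h3 := DFunLike.congr_fun (sl2_sign h2 (θ.comp (MonoidHom.inr _ _))) g.2
      rw [show g = (g.1, 1) * (1, g.2) by simp, map_mul]
      simp only [MonoidHom.comp_apply, MonoidHom.inl_apply, MonoidHom.inr_apply,
        MonoidHom.one_apply] at h1 h3
      rw [h1, h3, mul_one]; rfl
    · intro g
      have hp := sl2_perfect (K := F) h4
      have k1 := le_omega_of_perfect (Cfsg.quadFormPlus 2 F) hp (ψ.comp (MonoidHom.inl _ _)) g.1
      have k2 := le_omega_of_perfect (Cfsg.quadFormPlus 2 F) hp (ψ.comp (MonoidHom.inr _ _)) g.2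
      rw [show g = (g.1, 1) * (1, g.2) by simp, map_mul]
      exact mul_mem k1 k2
  obtain ⟨Φ⟩ := pOmega_equiv (Cfsg.quadFormPlus 2 F) (ePlus 2) (plus_apply 2) hnd
    (by simp) ψ hle
    (by
      rw [card_O_plus, Nat.card_prod, Cfsg.Agent.Lib.Classical.card_SL_two]
      simp
      ring)
    (card_ker_le ψ (fun g => (g.1 : Matrix (Fin 2) (Fin 2) F) 0 0)
      (fun g hg => (sl2_central (hker g hg).1 (hker g hg).2.1 (hker g hg).2.2.1).2)
      (fun g hg g' hg' h => by
        obtain ⟨a, b, c, d⟩ := hker g hg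
        obtain ⟨a', b', c', d'⟩ := hker g' hg'
        have e := sl2_ext a b c a' b' c' h
        exact Prod.ext e (by rw [d, d', e])))
    hz
    (fun g hg => by
      have a := sl2_hc g.1 fun h => Subgroup.mem_center_iff.2 fun k =>
        congrArg Prod.fst (Subgroup.mem_center_iff.1 (hg (h, 1)) (k, 1))
      have b := sl2_hc g.2 fun h => Subgroup.mem_center_iff.2 fun k =>
        congrArg Prod.snd (Subgroup.mem_center_iff.1 (hg (1, h)) (1, k))
      exact Subgroup.mem_center_iff.2 fun h =>
        Prod.ext (Subgroup.mem_center_iff.1 a h.1) (Subgroup.mem_center_iff.1 b h.2))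
  let π := (QuotientGroup.mk' (Subgroup.center (Matrix.SpecialLinearGroup (Fin 2) F))).prodMap
    (QuotientGroup.mk' (Subgroup.center (Matrix.SpecialLinearGroup (Fin 2) F)))
  have hπ : π.ker = Subgroup.center
      (Matrix.SpecialLinearGroup (Fin 2) F × Matrix.SpecialLinearGroup (Fin 2) F) := by
    ext g
    constructor
    · intro hg
      have h1 := (QuotientGroup.eq_one_iff _).1 (congrArg Prod.fst hg)
      have h2 := (QuotientGroup.eq_one_iff _).1 (congrArg Prod.snd hg)
      exact Subgroup.mem_center_iff.2 fun h =>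
        Prod.ext (Subgroup.mem_center_iff.1 h1 h.1) (Subgroup.mem_center_iff.1 h2 h.2)
    · intro hg
      refine Prod.ext ((QuotientGroup.eq_one_iff _).2 ?_) ((QuotientGroup.eq_one_iff _).2 ?_)
      · exact Subgroup.mem_center_iff.2 fun k =>
          congrArg Prod.fst (Subgroup.mem_center_iff.1 hg (k, 1))
      · exact Subgroup.mem_center_iff.2 fun k =>
          congrArg Prod.snd (Subgroup.mem_center_iff.1 hg (1, k))
  exact ⟨Φ.trans ((QuotientGroup.quotientMulEquivOfEq hπ.symm).trans
    (QuotientGroup.quotientKerEquivOfSurjective π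
      ((QuotientGroup.mk'_surjective _).prodMap (QuotientGroup.mk'_surjective _))))⟩

end Cfsg.Agent.S0299
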