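import Cfsg.Statements.S0300
import Cfsg.Agent.Lib.Classical.ExcIso.Two
import Cfsg.Agent.Lib.Classical.QuadOmega.Disc
import Cfsg.Agent.Lib.Classical.UnitaryFlat

open Matrix QuadraticMap Cfsg.Agent.Lib.Classical.Quad Cfsg.Agent.Lib.Classical.QuadOmega Cfsg.Agent.Lib.Classical.ExcIso

set_option autoImplicit false
open Cfsg

namespace Cfsg.Agent.S0300

attribute [local instance] _root_.Classical.propDecidable

/-- PΩ^-_4(q) is isomorphic to PSL_2(q^2). -/
theorem result {F K : Type*} [Field F] [Fintype F] [Field K] [Fintype K] {q : ℕ} (hF : Fintype.card F = q) (hK : Fintype.card K = q ^ 2) (a b : F) (hab : ∀ z₁ z₂ : F, z₁ ^ 2 + a * z₁ * z₂ + b * z₂ ^ 2 = 0 → z₁ = 0 ∧ z₂ = 0) : Nonempty (Cfsg.POmega F (Cfsg.quadFormMinus 1 F a b) ≃* Matrix.ProjectiveSpecialLinearGroup (Fin 2) K) := by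
  obtain ⟨D⟩ := Cfsg.Agent.Lib.Classical.UnitaryFlat.exists_data (K := K) hF hK hab
  have hq : 2 ≤ q := hF ▸ Fintype.one_lt_card
  let s : K →+* K :=
    { toFun := fun z => z ^ q
      map_one' := one_pow q
      map_mul' := fun x y => mul_pow x y q
      map_zero' := zero_pow (by omega)
      map_add' := D.hadd }
  have hss : ∀ z, s (s z) = z := fun z => by
    change (z ^ q) ^ q = z
    rw [← pow_mul, ← pow_two, ← hK, FiniteField.pow_card]
  have hfix : ∀ z : K, s z = z → ∃ x : F, D.f x = z := fun z hz => by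
    obtain ⟨x, y, rfl⟩ := D.surj z
    refine ⟨x, ?_⟩
    have h : (D.θ ^ q - D.θ) * D.f y = 0 := by
      change (D.f x + D.θ * D.f y) ^ q = _ at hz
      rw [D.hadd, mul_pow, D.hfix, D.hfix] at hz
      linear_combination hz
    rw [(mul_eq_zero.1 h).resolve_left (sub_ne_zero.2 D.hne), mul_zero, add_zero]
  let E : Emb F K ((Fin 1 ⊕ Fin 1) ⊕ Fin 2) (Fin 2) :=
    { σ := D.f
      em := fun v => !![D.f (v (.inl (.inl 0))), D.f (v (.inr 0)) + D.θ * D.f (v (.inr 1));
        D.f (v (.inr 0)) + D.θ ^ q * D.f (v (.inr 1)), -D.f (v (.inl (.inr 0)))]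
      add := fun x y => by ext i j; fin_cases i <;> fin_cases j <;> simp <;> ring
      smul := fun c x => by ext i j; fin_cases i <;> fin_cases j <;> simp <;> ring
      inj := fun x y h => by
        have a00 := congrFun (congrFun h 0) 0
        have a01 := congrFun (congrFun h 0) 1
        have a10 := congrFun (congrFun h 1) 0
        have a11 := congrFun (congrFun h 1) 1
        simp at a00 a01 a10 a11
        have h1 : x (.inr 1) = y (.inr 1) := D.f.injective (mul_left_cancel₀ (sub_ne_zero.2 D.hne)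
          (by linear_combination a10 - a01))
        have h0 : x (.inr 0) = y (.inr 0) := D.f.injective (by rw [h1] at a01; linear_combination a01)
        ext ((i | i) | i)
        · obtain rfl := Subsingleton.elim i 0; exact D.f.injective a00
        · obtain rfl := Subsingleton.elim i 0; exact D.f.injective a11
        · fin_cases i <;> assumption }
  have hdetE : ∀ x, D.f (Cfsg.quadFormMinus 1 F a b x) = -(E.em x).det := fun x => by
    simp [E, Cfsg.quadFormMinus, Matrix.det_fin_two, ← D.htr, ← D.hnm]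
    ring
  have hherm : ∀ x, (E.em x).transpose = (E.em x).map s := fun x => by
    have hs : ∀ z : F, s (D.f z) = D.f z := D.hfix
    ext i j
    fin_cases i <;> fin_cases j <;> simp [E, hs, map_add, map_mul] <;>
      first
        | exact (hs _).symm
        | rfl
        | exact Or.inl rfl
        | exact Or.inl (hss D.θ).symm
  let ψ := sandHom (G := Matrix.SpecialLinearGroup (Fin 2) K) E (Cfsg.quadFormMinus 1 F a b)
    (fun g => (g : Matrix (Fin 2) (Fin 2) K)) (fun g => ((g : Matrix (Fin 2) (Fin 2) K).map s).transpose)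
    (fun g h => sl_coe_mul g h) (fun g h => by rw [sl_coe_mul, Matrix.map_mul, Matrix.transpose_mul]) rfl
    (by simp)
    (fun g x => by
      set X := (g : Matrix (Fin 2) (Fin 2) K) * E.em x * ((g : Matrix (Fin 2) (Fin 2) K).map s).transpose
        with hX
      have hXs : X.transpose = X.map s := by
        have hgg : ((g : Matrix (Fin 2) (Fin 2) K).map s).map s = (g : Matrix (Fin 2) (Fin 2) K) :=
          Matrix.ext fun i j => hss _
        rw [hX, Matrix.transpose_mul, Matrix.transpose_mul, Matrix.transpose_transpose, hherm,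
          Matrix.map_mul, Matrix.map_mul, Matrix.transpose_map, hgg, Matrix.mul_assoc]
      obtain ⟨u, hu⟩ := hfix (X 0 0) (congrFun (congrFun hXs 0) 0).symm
      obtain ⟨w, hw⟩ := hfix (X 1 1) (congrFun (congrFun hXs 1) 1).symm
      obtain ⟨z₀, z₁, hz⟩ := D.surj (X 0 1)
      refine ⟨Sum.elim (Sum.elim (fun _ => u) (fun _ => -w)) ![z₀, z₁], ?_⟩
      have h10 : X 1 0 = s (X 0 1) := congrFun (congrFun hXs 0) 1
      ext i j
      fin_cases i <;> fin_cases j
      · simpa [E] using hu
      · simpa [E] using hz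
      · simp only [E]
        simp [h10, ← hz, show ∀ z, s (D.f z) = D.f z from D.hfix]
        exact Or.inl rfl
      · simpa [E] using hw)
    (fun g x y h => D.f.injective (by
      rw [hdetE, hdetE, h, Matrix.det_mul, Matrix.det_mul, Matrix.det_transpose,
        Matrix.SpecialLinearGroup.det_coe, ← RingHom.mapMatrix_apply, ← RingHom.map_det,
        Matrix.SpecialLinearGroup.det_coe, map_one, one_mul, mul_one]))
  have hker : ∀ g ∈ ψ.ker, (g : Matrix (Fin 2) (Fin 2) K) 0 1 = 0 ∧
      (g : Matrix (Fin 2) (Fin 2) K) 1 0 = 0 ∧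
      (g : Matrix (Fin 2) (Fin 2) K) 0 0 = (g : Matrix (Fin 2) (Fin 2) K) 1 1 := by
    intro g hg
    have h1 := fixed_of_mem_ker hg (Sum.elim (Sum.elim (fun _ => 1) (fun _ => -1)) 0)
    rw [show E.em (Sum.elim (Sum.elim (fun _ => 1) (fun _ => -1)) 0) = 1 from by
      ext i j; fin_cases i <;> fin_cases j <;> simp [E], Matrix.mul_one] at h1
    have h1' := mul_eq_one_comm.1 h1
    have hc : ∀ x, (g : Matrix (Fin 2) (Fin 2) K) * E.em x = E.em x * (g : Matrix (Fin 2) (Fin 2) K) := by
      intro x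
      conv_rhs => rw [← fixed_of_mem_ker hg x]
      rw [Matrix.mul_assoc, h1', Matrix.mul_one]
    have a := hc (Pi.single (.inl (.inl 0)) 1)
    have b := hc (Pi.single (.inr 0) 1)
    have a01 := congrFun (congrFun a 0) 1
    have a10 := congrFun (congrFun a 1) 0
    have b01 := congrFun (congrFun b 0) 1
    simp [E, Matrix.mul_apply, Fin.sum_univ_two] at a01 a10 b01
    refine ⟨?_, ?_, ?_⟩ <;> first | assumption | exact a01.symm | exact a10.symm
  obtain ⟨Φ⟩ := pOmega_equiv (Cfsg.quadFormMinus 1 F a b) (eMinus 1) (minus_apply 1 a b)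
    (nd_splitQ (nd_binQ hab) 1) (by simp) ψ
    (le_omega_of_perfect _ (sl2_perfect (by rw [hK]; nlinarith)) ψ)
    (by
      rw [card_O_minus hab, Cfsg.Agent.Lib.Classical.card_SL_two, hF, hK]
      simp only [Finset.prod_range_one]
      have h : (q ^ 2 + 1) * (q ^ 2 - 1) = (q ^ 2) ^ 2 - 1 := by
        rw [show (q ^ 2) ^ 2 - 1 = (q ^ 2) ^ 2 - 1 ^ 2 by simp, Nat.sq_sub_sq]
      rw [← h]
      ring)
    (by
      rw [← rootsTwo_map D.f]
      exact card_ker_le ψ (fun g => (g : Matrix (Fin 2) (Fin 2) K) 0 0)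
        (fun g hg => (sl2_central (hker g hg).1 (hker g hg).2.1 (hker g hg).2.2).2)
        (fun g hg g' hg' h => sl2_ext (hker g hg).1 (hker g hg).2.1 (hker g hg).2.2 (hker g' hg').1
          (hker g' hg').2.1 (hker g' hg').2.2 h))
    (fun g hg => (sl2_central (hker g hg).1 (hker g hg).2.1 (hker g hg).2.2).1) sl2_hc
  exact ⟨Φ⟩

end Cfsg.Agent.S0300
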