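import Cfsg.Statements.S0781
import Cfsg.Agent.Lib.Forms.UnitaryStd
import Cfsg.Agent.Lib.Forms.UnitarySiegel

set_option autoImplicit false
open Cfsg Matrix Cfsg.Agent.Lib.Forms

namespace Cfsg.Agent.S0781

/-- In SU_n(q) with n ≥ 4, or n = 3 and q > 2, every element whose matrix is a unitary transvection x ↦ x + c h(x, v) v (v isotropic) is a commutator ⁅B, C⁆ of two elements of SU_n(q). -/
theorem result {F : Type*} [Field F] [Fintype F] {q : ℕ} (hF : Fintype.card F = q ^ 2) (n : ℕ) (hn : 4 ≤ n ∨ (n = 3 ∧ 3 ≤ q)) (A : ↥(Cfsg.SU n F q)) (v : Fin n → F) (c : F) (hv0 : Cfsg.hermForm n F q v v = 0) (hA : ((A : Matrix.SpecialLinearGroup (Fin n) F) : Matrix (Fin n) (Fin n) F) = Cfsg.unitaryTransvection n q v c) : A ∈ commutatorSet ↥(Cfsg.SU n F q) := by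
  classical
  have H := isUnitary_hermForm hF n
  rcases eq_or_ne v 0 with rfl | hvne
  · refine ⟨1, 1, ?_⟩
    apply Subtype.ext; apply Subtype.ext
    rw [hA]
    simp [Cfsg.unitaryTransvection, commutatorElement_def]
  set T : GL (Fin n) F := tv v (c • hv (Cfsg.hermForm n F q) v) with hTdef
  have hAT : ((A : Matrix.SpecialLinearGroup (Fin n) F) : Matrix (Fin n) (Fin n) F) = (T : Matrix (Fin n) (Fin n) F) := by
    rw [hA, unitaryTransvection_eq hF hv0]
  have hc : c + conjQ hF c = 0 := by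
    obtain ⟨y, hy⟩ := (H.nondegenerate v hvne).2
    have hxy := A.2 y y
    change Cfsg.hermForm n F q (((A : Matrix.SpecialLinearGroup (Fin n) F) : Matrix (Fin n) (Fin n) F) *ᵥ y)
      (((A : Matrix.SpecialLinearGroup (Fin n) F) : Matrix (Fin n) (Fin n) F) *ᵥ y) = _ at hxy
    rw [hAT, hTdef, utv_mulVec H hv0] at hxy
    simp only [H.add_left, H.smul_left, herm_add_right H, herm_smul_right H, hv0, map_mul] at hxy
    rw [show conjQ hF (Cfsg.hermForm n F q y v) = Cfsg.hermForm n F q v y from (H.herm v y).symm]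
      at hxy
    have hyv : Cfsg.hermForm n F q y v ≠ 0 := fun e => hy ((herm_eq_zero_comm H).1 e)
    have : (c + conjQ hF c) * (Cfsg.hermForm n F q y v * Cfsg.hermForm n F q v y) = 0 := by
      linear_combination hxy
    simpa [hyv, hy] using this
  obtain ⟨B, hB, C, hC, hBC⟩ := exists_commutator H
    (by rw [Fintype.card_fin]; omega) hv0 hvne hc
  let f : ↥(Cfsg.SU n F q) →* GL (Fin n) F :=
    Matrix.SpecialLinearGroup.toGL.comp (Cfsg.SU n F q).subtype
  let lift : ∀ g : GL (Fin n) F, g ∈ isoH (Cfsg.hermForm n F q) ⊓ Cfsg.Geo.specialLinear (Fin n) F →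
      ↥(Cfsg.SU n F q) := fun g hg => ⟨⟨_, det_of_mem hg.2⟩, hg.1⟩
  have hf : ∀ g hg, f (lift g hg) = g := fun g hg => Units.ext rfl
  refine ⟨lift B hB, lift C hC, ?_⟩
  have hinj : Function.Injective f := fun a b e => Subtype.ext (Subtype.ext (congrArg Units.val e))
  apply hinj
  rw [map_commutatorElement, hf B hB, hf C hC, commutatorElement_def, hBC]
  exact Units.ext hAT.symm

end Cfsg.Agent.S0781
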