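import Cfsg.Statements.S0303
import Cfsg.Agent.Lib.Classical.ExcIso.Four
import Cfsg.Agent.Lib.Classical.QuadOmega.Disc
import Cfsg.Agent.Lib.Classical.UnitaryFlatSplit
import Cfsg.Agent.Lib.Classical.Unitary
import Cfsg.Agent.S0780
import Cfsg.Agent.S0781

open Matrix QuadraticMap Cfsg.Agent.Lib.Classical.Quad Cfsg.Agent.Lib.Classical.QuadOmega Cfsg.Agent.Lib.Classical.ExcIso Cfsg.Agent.Lib.Classical.UnitaryFlat

set_option autoImplicit false
open Cfsg

namespace Cfsg.Agent.S0303

attribute [local instance] _root_.Classical.propDecidable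

/-- PΩ^-_6(q) is isomorphic to PSU_4(q). -/
theorem result {F K : Type*} [Field F] [Fintype F] [Field K] [Fintype K] {q : ℕ} (hF : Fintype.card F = q) (hK : Fintype.card K = q ^ 2) (a b : F) (hab : ∀ z₁ z₂ : F, z₁ ^ 2 + a * z₁ * z₂ + b * z₂ ^ 2 = 0 → z₁ = 0 ∧ z₂ = 0) : Nonempty (Cfsg.POmega F (Cfsg.quadFormMinus 2 F a b) ≃* Cfsg.PSU 4 K q) := by
  obtain ⟨D⟩ := exists_data (K := K) hF hK hab
  obtain ⟨E⟩ := flat_odd hab 1
  have hq : 2 ≤ q := hF ▸ Fintype.one_lt_card
  let s : K →+* K :=
    { toFun := fun z => z ^ q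
      map_one' := one_pow q
      map_mul' := fun x y => mul_pow x y q
      map_zero' := zero_pow (by omega)
      map_add' := D.hadd }
  have hss : ∀ z, s (s z) = z := fun z => by
    change (z ^ q) ^ q = z
    rw [← pow_mul, ← pow_two, ← hK, FiniteField.pow_card]
  have hsf : ∀ z : F, s (D.f z) = D.f z := D.hfix
  let toX : (Fin (1 + 1 + 1) ⊕ Fin (1 + 1 + 1) → F) → (Fin 6 → K) := fun z =>
    ![iota D z 0, iota D z 1, iota D z 2, s (iota D z 2), -s (iota D z 1), s (iota D z 0)]
  have hadd : ∀ z z', toX (z + z') = toX z + toX z' := fun z z' => by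
    ext i; fin_cases i <;> simp [toX, iota_add, add_comm]
  have hsmul : ∀ (c : F) z, toX (c • z) = D.f c • toX z := fun c z => by
    ext i; fin_cases i <;> simp [toX, iota_smul, hsf]
  have hinj : Function.Injective toX := fun z z' h => (iota_bijective D).1 (funext fun i => by
    fin_cases i
    · simpa [toX] using congrFun h 0
    · simpa [toX] using congrFun h 1
    · simpa [toX] using congrFun h 2)
  have hfix : ∀ y, dl y = (fun i => s (y i)) → ∃ z, toX z = y := fun y hy => by
    obtain ⟨z, hz⟩ := (iota_bijective D).2 ![y 0, y 1, y 2]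
    refine ⟨z, ?_⟩
    have e0 : y 5 = s (y 0) := by simpa [dl] using congrFun hy 0
    have e1 : -y 4 = s (y 1) := by simpa [dl] using congrFun hy 1
    have e2 : y 3 = s (y 2) := by simpa [dl] using congrFun hy 2
    ext i
    fin_cases i <;> simp [toX, hz, e0, ← e1, e2]
  have hdl : ∀ z, dl (toX z) = fun i => s (toX z i) := fun z => by
    ext i; fin_cases i <;> simp [dl, toX, hss]
  have hpf : ∀ z, pf (toX z) = D.f (flatForm a b z) := fun z => by
    rw [← herm_self]
    simp [pf, toX, Cfsg.hermForm, Fin.sum_univ_three, s]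
  let M : Cfsg.SU 4 K q → Matrix (Fin 4) (Fin 4) K := fun g =>
    ((g : Matrix.SpecialLinearGroup (Fin 4) K) : Matrix (Fin 4) (Fin 4) K)
  have hdet : ∀ g, (M g).det = 1 := fun g => g.1.det_coe
  have hunit : ∀ g, (M g).map s * (M g).transpose = 1 := fun g => by
    refine mul_eq_one_comm.1 (Matrix.ext fun i j => ?_)
    have h : Cfsg.hermForm 4 K q (M g *ᵥ Pi.single i 1) (M g *ᵥ Pi.single j 1) =
        Cfsg.hermForm 4 K q (Pi.single i 1) (Pi.single j 1) := g.2 _ _
    simp [Cfsg.hermForm, Matrix.mulVec, dotProduct, Pi.single_apply,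
      ite_pow, zero_pow (by omega : q ≠ 0)] at h
    rw [Matrix.mul_apply, Matrix.one_apply]
    simp only [Matrix.transpose_apply, Matrix.map_apply]
    exact h.trans (by simp [eq_comm])
  have hcl : ∀ g z, ∃ y, toX y = act (M g) (toX z) := fun g z => hfix _ (by
    set y := act (M g) (toX z)
    calc dl y = act ((M g).map s * (M g).transpose) (dl y) := by rw [hunit, act_one]
      _ = act ((M g).map s) (dl (toX z)) := by rw [act_mul, dual_act, hdet, one_smul]
      _ = fun i => s (y i) := by rw [hdl, act_map])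
  let R : Cfsg.SU 4 K q →
      (Fin (1 + 1 + 1) ⊕ Fin (1 + 1 + 1) → F) →ₗ[F] (Fin (1 + 1 + 1) ⊕ Fin (1 + 1 + 1) → F) := fun g =>
    { toFun := fun z => (hcl g z).choose
      map_add' := fun z z' => hinj (by
        rw [(hcl g (z + z')).choose_spec, hadd, hadd, (hcl g z).choose_spec, (hcl g z').choose_spec]
        exact map_add (actLin (M g)) _ _)
      map_smul' := fun c z => hinj (by
        rw [(hcl g (c • z)).choose_spec, RingHom.id_apply, hsmul, hsmul, (hcl g z).choose_spec]
        exact map_smul (actLin (M g)) _ _) }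
  have hR : ∀ g z, toX (R g z) = act (M g) (toX z) := fun g z => (hcl g z).choose_spec
  let ψ₀ : Cfsg.SU 4 K q →* Cfsg.isometryGroup F (flatForm (m := 1 + 1 + 1) a b) :=
    repHom (flatForm a b) R
      (fun g h z => hinj (by rw [hR, hR, hR, ← act_mul]; rfl))
      (fun z => hinj (by rw [hR]; exact act_one _))
      (fun g z => D.f.injective (by rw [← hpf, ← hpf, hR, pf_act, hdet, one_mul]))
  let ψ := E.toMonoidHom.comp ψ₀
  have hker : ∀ g ∈ ψ.ker, ∃ c : K, c * c = 1 ∧ M g = c • 1 := by
    intro g hg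
    have hg0 : g ∈ ψ₀.ker := MonoidHom.mem_ker.2
      (E.injective (((MonoidHom.mem_ker.1 hg : E (ψ₀ g) = 1)).trans (map_one E).symm))
    refine scalar_of_act_eq _ (hdet g) fun x => ?_
    let τ : (Fin 6 → K) → (Fin 6 → K) := fun x => dl fun i => s (x i)
    have hτ : ∀ u, act (M g) (u + τ u) = u + τ u := fun u => by
      obtain ⟨z, hz⟩ := hfix (u + τ u) (by
        ext i; fin_cases i <;> simp [τ, dl, hss] <;> ring)
      rw [← hz, ← hR, mem_ker_repHom.1 hg0 z]
    have hττ : τ (τ x) = x := by ext i; fin_cases i <;> simp [τ, dl, hss]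
    set u := τ x
    have e : (D.θ - s D.θ) • x = D.θ • (u + τ u) - ((D.θ • u) + τ (D.θ • u)) := by
      have e' : τ (D.θ • u) = s D.θ • τ u := by ext i; fin_cases i <;> simp [τ, dl]
      rw [e', hττ]
      module
    have hne : D.θ - s D.θ ≠ 0 := sub_ne_zero.2 fun h => D.hne h.symm
    have hx : (D.θ - s D.θ) • act (M g) x = (D.θ - s D.θ) • x := by
      change _ • actLin (M g) x = _
      rw [← map_smul, e, map_sub, map_smul]
      exact congrArg₂ (fun p r => D.θ • p - r) (hτ u) (hτ _)
    exact smul_right_injective _ hne hx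
  have hp : commutator (Cfsg.SU 4 K q) = ⊤ := by
    rw [eq_top_iff, ← Cfsg.Agent.S0780.result hK 4 (by norm_num) (by norm_num), Subgroup.closure_le]
    rintro A ⟨v, c, hv, hA⟩
    rw [SetLike.mem_coe, commutator_eq_closure]
    exact Subgroup.subset_closure (Cfsg.Agent.S0781.result hK 4 (Or.inl le_rfl) A v c hv hA)
  have hMinj : Function.Injective M := fun g h e => Subtype.ext (Subtype.ext e)
  obtain ⟨Φ⟩ := pOmega_equiv (Cfsg.quadFormMinus 2 F a b) (eMinus 2) (minus_apply 2 a b)
    (nd_splitQ (nd_binQ hab) 2) (by simp) ψ (le_omega_of_perfect _ hp ψ)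
    (by
      have h1 := Cfsg.Agent.Lib.Classical.Herm.card_SU (F := K) hK (n := 4) (by norm_num)
      rw [Cfsg.Agent.Lib.Classical.Herm.card_GU hK] at h1
      rw [card_O_minus hab, hF]
      simp only [Finset.prod_range_succ, Finset.prod_range_zero, one_mul] at h1 ⊢
      norm_num at h1 ⊢
      refine Nat.eq_of_mul_eq_mul_left (show 0 < q + 1 by omega) ?_
      rw [mul_left_comm (q + 1) 2 (Fintype.card _), h1]
      ring)
    (by
      rw [← rootsTwo_map D.f]
      exact (Nat.card_le_card_of_injective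
        (fun g : ψ.ker => (⟨(hker g.1 g.2).choose, (hker g.1 g.2).choose_spec.1⟩ : {c : K // c * c = 1}))
        fun g g' h => Subtype.ext (hMinj (by
          rw [(hker g.1 g.2).choose_spec.2, (hker g'.1 g'.2).choose_spec.2,
            show (hker g.1 g.2).choose = (hker g'.1 g'.2).choose from congrArg Subtype.val h]))).trans
        (card_sqrt_one_le K))
    (fun g hg => by
      obtain ⟨c, -, e⟩ := hker g hg
      refine Subgroup.mem_center_iff.2 fun h => hMinj ?_
      change M h * M g = M g * M h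
      rw [e]; simp)
    (grun hp)
  exact ⟨Φ⟩

end Cfsg.Agent.S0303
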