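import Cfsg.Statements.S0306
import Cfsg.Agent.Lib.Classical.MinusDihedral

set_option autoImplicit false
open Cfsg

namespace Cfsg.Agent.S0306

/-- GO^-_2(q) is dihedral of order 2(q+1). -/
theorem result {F : Type*} [Field F] [Fintype F] {q : ℕ} (hF : Fintype.card F = q) (a b : F) (hab : ∀ z₁ z₂ : F, z₁ ^ 2 + a * z₁ * z₂ + b * z₂ ^ 2 = 0 → z₁ = 0 ∧ z₂ = 0) : Nonempty (Cfsg.isometryGroup F (Cfsg.quadFormMinus 0 F a b) ≃* DihedralGroup (q + 1)) := by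
  subst hF
  obtain ⟨φ⟩ := Cfsg.Agent.Lib.Classical.Quad.isometryGroup_equiv (Cfsg.quadFormMinus 0 F a b)
    (Cfsg.Agent.Lib.Classical.Quad.zeroEquiv.symm.trans (Cfsg.Agent.Lib.Classical.Quad.eMinus 0))
    (Q := Cfsg.Agent.Lib.Classical.Quad.binQ a b) (fun v => by
      rw [LinearEquiv.trans_apply, Cfsg.Agent.Lib.Classical.Quad.minus_apply,
        Cfsg.Agent.Lib.Classical.Quad.splitQ_apply, Finset.sum_eq_zero (fun i _ => i.elim0), zero_add]
      rfl)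
  obtain ⟨ψ⟩ := Cfsg.Agent.Lib.Classical.Quad.isoG_binQ_dihedral hab
  exact ⟨φ.trans ψ⟩

end Cfsg.Agent.S0306
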