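import Cfsg.Statements.S0307
import Cfsg.Agent.Lib.Classical.Order

set_option autoImplicit false
open Cfsg

namespace Cfsg.Agent.S0307

/-- PSL_n(q) is normal in PGL_n(q) with cyclic quotient of order gcd(n, q-1): the image of the natural map PSL_n → PGL_n is the kernel of a surjective homomorphism onto the cyclic group of that order. -/
theorem result {F : Type*} [Field F] [Fintype F] {q : ℕ} (hF : Fintype.card F = q) (n : ℕ) (hn : 1 ≤ n) : ∃ g : Matrix.ProjGenLinGroup (Fin n) F →* Multiplicative (ZMod (Nat.gcd n (q - 1))), Function.Surjective g ∧ g.ker = (Matrix.ProjectiveSpecialLinearGroup.toPGL : Matrix.ProjectiveSpecialLinearGroup (Fin n) F →* Matrix.ProjGenLinGroup (Fin n) F).range := by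
  subst hF
  classical
  have : Nonempty (Fin n) := ⟨⟨0, by omega⟩⟩
  let d := Nat.gcd n (Fintype.card F - 1)
  let P : Subgroup Fˣ := (powMonoidHom n : Fˣ →* Fˣ).range
  have hPi : Nat.card (Fˣ ⧸ P) = d := by
    rw [← Subgroup.index_eq_card, IsCyclic.index_powMonoidHom_range, Lib.Classical.card_units_field,
      Nat.gcd_comm]
  have : IsCyclic (Fˣ ⧸ P) := isCyclic_of_surjective _ (QuotientGroup.mk'_surjective P)
  let e : Fˣ ⧸ P ≃* Multiplicative (ZMod d) :=
    mulEquivOfCyclicCardEq (by rw [hPi]; exact (Nat.card_zmod d).symm)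
  let f : GL (Fin n) F →* Multiplicative (ZMod d) :=
    e.toMonoidHom.comp ((QuotientGroup.mk' P).comp Matrix.GeneralLinearGroup.det)
  have hf : f.comp (Matrix.GeneralLinearGroup.scalar (Fin n)) = 1 := by
    refine MonoidHom.ext fun u => ?_
    simp only [f, MonoidHom.comp_apply, MonoidHom.one_apply, MulEquiv.coe_toMonoidHom,
      EmbeddingLike.map_eq_one_iff, QuotientGroup.mk'_apply, QuotientGroup.eq_one_iff]
    exact ⟨u, Units.ext (by simp [Matrix.GeneralLinearGroup.coe_scalar, Matrix.scalar_apply])⟩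
  refine ⟨Matrix.ProjGenLinGroup.lift f hf, ?_, ?_⟩
  · intro y
    obtain ⟨g, hg⟩ := (e.surjective.comp
      ((QuotientGroup.mk'_surjective P).comp (Matrix.GeneralLinearGroup.det_surjective (n := Fin n) (R := F)))) y
    exact ⟨Matrix.ProjGenLinGroup.mk g, by rw [Matrix.ProjGenLinGroup.lift_mk]; exact hg⟩
  · ext x
    induction x using Matrix.ProjGenLinGroup.induction_on with | mk g =>
    rw [MonoidHom.mem_ker, Matrix.ProjGenLinGroup.lift_mk]
    simp only [f, MonoidHom.comp_apply, MulEquiv.coe_toMonoidHom, EmbeddingLike.map_eq_one_iff,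
      QuotientGroup.mk'_apply, QuotientGroup.eq_one_iff]
    constructor
    · rintro ⟨u, hu⟩
      let g' : GL (Fin n) F := g * Matrix.GeneralLinearGroup.scalar (Fin n) u⁻¹
      have hg' : g' ∈ (Matrix.GeneralLinearGroup.det : GL (Fin n) F →* Fˣ).ker := by
        simp only [g', MonoidHom.mem_ker, map_mul]
        rw [← hu]
        refine Units.ext ?_
        simp [Matrix.GeneralLinearGroup.coe_scalar, Matrix.scalar_apply]

      rw [Lib.Classical.det_ker_eq_range_toGL] at hg'
      obtain ⟨A, hA⟩ := hg'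
      refine ⟨QuotientGroup.mk A, ?_⟩
      rw [Matrix.ProjectiveSpecialLinearGroup.toPGL_mk, hA]
      simp [g']
    · rintro ⟨y, hy⟩
      induction y using QuotientGroup.induction_on with | H A =>
      rw [Matrix.ProjectiveSpecialLinearGroup.toPGL_mk, Matrix.ProjGenLinGroup.mk_eq_mk_iff] at hy
      obtain ⟨u, hu⟩ := hy
      refine ⟨u, Units.ext ?_⟩
      rw [← hu]
      simp [Matrix.GeneralLinearGroup.coe_scalar, Matrix.scalar_apply]

end Cfsg.Agent.S0307
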