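import Cfsg.Statements.S0312
import Cfsg.Agent.Lib.BN.Basic

set_option autoImplicit false
open Cfsg Cfsg.Agent.Lib.BN

namespace Cfsg.Agent.S0312

/-- Every standard parabolic subgroup of a group with a (B,N)-pair equals its own normaliser. -/
theorem result {G : Type*} [Group G] (P : Cfsg.BNPair G) {J : Set G}
    (hJ : J ⊆ P.S) : Subgroup.normalizer (P.parabolic J : Set G) = P.parabolic J := by
  exact normalizer_parabolic_eq P J

end Cfsg.Agent.S0312
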