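import Cfsg.Statements.S0315
import Cfsg.Agent.Lib.BN.Basic

set_option autoImplicit false
open Cfsg Cfsg.Agent.Lib.BN

namespace Cfsg.Agent.S0315

/-- Standard parabolic subgroups intersect as the index sets do: `P_J ⊓ P_K = P_{J ∩ K}`. -/
theorem result {G : Type*} [Group G] (P : Cfsg.BNPair G) {J K : Set G}
    (hJ : J ⊆ P.S) (hK : K ⊆ P.S) : P.parabolic J ⊓ P.parabolic K = P.parabolic (J ∩ K) := by
  rw [overgroup_eq P (le_inf (le_parabolic P J) (le_parabolic P K))]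
  congr 1
  ext x
  constructor
  · rintro ⟨hx, hxJ, hxK⟩
    exact ⟨(mem_parabolic_iff_mem P hJ ⟨x, hx⟩).1 hxJ, (mem_parabolic_iff_mem P hK ⟨x, hx⟩).1 hxK⟩
  · rintro ⟨hxJ, hxK⟩
    exact ⟨hJ hxJ, subset_parabolic P J hxJ, subset_parabolic P K hxK⟩

end Cfsg.Agent.S0315
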