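import Cfsg.Statements.S0316
import Cfsg.Agent.Lib.BN.Basic

set_option autoImplicit false
open Cfsg Cfsg.Agent.Lib.BN

namespace Cfsg.Agent.S0316

/-- The map `J ↦ P_J` is a lattice isomorphism from the power set of the set of distinguished generators onto the
subgroups containing `B`. -/
theorem result {G : Type*} [Group G] (P : Cfsg.BNPair G) :
    ∃ e : Set P.S ≃o {M : Subgroup G // P.B ≤ M},
      ∀ J : Set P.S, ((e J : {M : Subgroup G // P.B ≤ M}) : Subgroup G) = P.parabolic (Subtype.val '' J) := by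
  have hsub : ∀ J : Set P.S, Subtype.val '' J ⊆ P.S := by
    rintro J _ ⟨s, _, rfl⟩
    exact s.2
  let f : Set P.S ↪o {M : Subgroup G // P.B ≤ M} :=
    OrderEmbedding.ofMapLEIff (fun J => ⟨P.parabolic (Subtype.val '' J), le_parabolic P _⟩) fun J K =>
      (parabolic_le_iff P (hsub J) (hsub K)).trans (Set.image_subset_image_iff Subtype.val_injective)
  have hsurj : Function.Surjective f := by
    rintro ⟨M, hM⟩
    refine ⟨{s : P.S | (s : G) ∈ M}, Subtype.ext ?_⟩
    show P.parabolic _ = M
    conv_rhs => rw [overgroup_eq P hM]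
    congr 1
    ext x
    constructor
    · rintro ⟨s, hs, rfl⟩
      exact ⟨s.2, hs⟩
    · rintro ⟨h1, h2⟩
      exact ⟨⟨x, h1⟩, h2, rfl⟩
  exact ⟨RelIso.ofSurjective f hsurj, fun J => rfl⟩

end Cfsg.Agent.S0316
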