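import Cfsg.Statements.S0321
import Cfsg.Agent.Lib.BN.Basic

set_option autoImplicit false
open Cfsg Cfsg.Agent.Lib.BN

namespace Cfsg.Agent.S0321

/-- For `n ∈ N` not in `B`, the union `B ∪ B n B` is (the underlying set of) a subgroup exactly when `n` agrees
modulo `B ⊓ N` with one of the distinguished representatives; thus the distinguished involutions are
determined by `B` and `N`. -/
theorem result {G : Type*} [Group G] (P : Cfsg.BNPair G) {n : G}
    (hn : n ∈ P.N) (hnB : n ∉ P.B) :
    (∃ H : Subgroup G, (H : Set G) = (P.B : Set G) ∪ DoubleCoset.doubleCoset n (P.B : Set G) P.B) ↔ ∃ s ∈ P.S, s⁻¹ * n ∈ P.B := by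
  have hcB : cls P ⟨n, hn⟩ ≠ 1 := fun h => hnB ((cls_eq_one_iff P).1 h)
  rw [← cell_cls P ⟨n, hn⟩]
  constructor
  · rintro ⟨H, hH⟩
    have hBH : P.B ≤ H := fun x hx => by
      show x ∈ (H : Set G)
      rw [hH]; exact Or.inl hx
    have hne : (P.S ∩ H : Set G).Nonempty := by
      by_contra hemp
      rw [Set.not_nonempty_iff_eq_empty] at hemp
      have h1 := overgroup_eq P hBH
      rw [hemp] at h1
      have h2 : n ∈ H := by
        show n ∈ (H : Set G)
        rw [hH]; exact Or.inr (self_mem_cell P ⟨n, hn⟩)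
      rw [h1, BNPair.parabolic, Subgroup.closure_empty, sup_bot_eq] at h2
      exact hnB h2
    obtain ⟨s, hs, hsH⟩ := hne
    rw [hH] at hsH
    rcases hsH with hsB | hsc
    · exact absurd hsB (not_mem_B P ⟨s, hs⟩)
    · exact ⟨s, hs, (cls_eq_iff P).1 (eq_of_mem_cells P (si_mem_cell P ⟨s, hs⟩) hsc)⟩
  · rintro ⟨s, hs, hsn⟩
    have he : si P ⟨s, hs⟩ = cls P ⟨n, hn⟩ := (cls_eq_iff P).2 hsn
    rw [← he]
    refine ⟨P.parabolic {s}, Set.ext fun g => ⟨fun hg => ?_, ?_⟩⟩
    · obtain ⟨L, hL, hc⟩ := exists_word_of_mem_parabolic P (by simpa using hs) hg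
      have hw : ∀ L : List P.S, (∀ r ∈ L, (r : G) ∈ ({s} : Set G)) →
          word P L = 1 ∨ word P L = si P ⟨s, hs⟩ := by
        intro L
        induction L with
        | nil => intro _; exact Or.inl rfl
        | cons r L ih =>
          intro hL
          have hr : r = ⟨s, hs⟩ := Subtype.ext (hL r (by simp))
          rcases ih fun x hx => hL x (by simp [hx]) with h | h
          · exact Or.inr (by rw [word_cons, h, mul_one, hr])
          · exact Or.inl (by rw [word_cons, h, hr, si_mul_self])
      rcases hw L hL with h | h <;> rw [h] at hc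
      · exact Or.inl ((mem_cell_one P).1 hc)
      · exact Or.inr hc
    · rintro (hg | hg)
      · exact le_parabolic P _ hg
      · obtain ⟨b, hb, b', hb', rfl⟩ := (mem_cell_cls P).1 hg
        exact mul_mem (mul_mem (le_parabolic P _ hb) (subset_parabolic P _ rfl))
          (le_parabolic P _ hb')

end Cfsg.Agent.S0321
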