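import Cfsg.Statements.S0322
import Cfsg.Agent.Lib.BN.Basic

set_option autoImplicit false
open Cfsg Cfsg.Agent.Lib.BN

namespace Cfsg.Agent.S0322

/-- A group with a (B,N)-pair of rank one acts doubly transitively on the left cosets of `B`. -/
theorem result {G : Type*} [Group G] (P : Cfsg.BNPair G) (h : P.rank = 1) : MulAction.IsMultiplyPretransitive G (G ⧸ P.B) 2 := by
  obtain ⟨hne, -⟩ : Nonempty P.S ∧ True := by
    refine ⟨?_, trivial⟩
    have : Nat.card P.S ≠ 0 := by
      have : Nat.card P.S = 1 := h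
      omega
    exact (Nat.card_ne_zero.1 this).1
  obtain ⟨s⟩ := hne
  have hsub : Subsingleton P.S := (Nat.card_eq_one_iff_unique.1 h).1
  have hmain : ∀ g : G, g ∉ P.B → ∃ b ∈ P.B, (QuotientGroup.mk g : G ⧸ P.B) = b • (QuotientGroup.mk (s : G)) := by
    intro g hg
    obtain ⟨L, -, hc⟩ := exists_word_of_mem_parabolic P (J := P.S) subset_rfl
      (g := g) (by rw [parabolic_S]; trivial)
    have hw : ∀ L : List P.S, word P L = 1 ∨ word P L = si P s := by
      intro L
      induction L with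
      | nil => exact Or.inl rfl
      | cons r L ih =>
        have hr : r = s := Subsingleton.elim _ _
        rcases ih with h | h
        · exact Or.inr (by rw [word_cons, h, mul_one, hr])
        · exact Or.inl (by rw [word_cons, h, hr, si_mul_self])
    rcases hw L with h | h <;> rw [h] at hc
    · exact absurd ((mem_cell_one P).1 hc) hg
    · obtain ⟨b, hb, b', hb', rfl⟩ := (mem_cell_cls P).1 hc
      refine ⟨b, hb, ?_⟩
      rw [MulAction.Quotient.smul_mk, QuotientGroup.eq]
      simpa [mul_assoc] using inv_mem hb'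
  have step : ∀ x y : G ⧸ P.B, x ≠ y → ∃ g : G,
      g • (QuotientGroup.mk 1 : G ⧸ P.B) = x ∧ g • (QuotientGroup.mk (s : G) : G ⧸ P.B) = y := by
    intro x y hxy
    obtain ⟨x, rfl⟩ := QuotientGroup.mk_surjective x
    obtain ⟨y, rfl⟩ := QuotientGroup.mk_surjective y
    have hg : x⁻¹ * y ∉ P.B := fun hm => hxy (QuotientGroup.eq.2 hm)
    obtain ⟨b, hb, he⟩ := hmain _ hg
    refine ⟨x * b, ?_, ?_⟩
    · rw [MulAction.Quotient.smul_mk, QuotientGroup.eq]
      simpa using hb
    · rw [mul_smul, ← he, MulAction.Quotient.smul_mk]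
      simp
  rw [MulAction.is_two_pretransitive_iff]
  intro a b c d hab hcd
  obtain ⟨g₁, h1, h2⟩ := step a b hab
  obtain ⟨g₂, h3, h4⟩ := step c d hcd
  exact ⟨g₂ * g₁⁻¹, by rw [mul_smul, ← h1, inv_smul_smul, h3], by rw [mul_smul, ← h2, inv_smul_smul, h4]⟩

end Cfsg.Agent.S0322
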