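import Cfsg.Statements.S0323
import Cfsg.Agent.Lib.BN.Basic

set_option autoImplicit false
open scoped Pointwise
open Cfsg Cfsg.Agent.Lib.BN

namespace Cfsg.Agent.S0323

/-- A doubly transitive action on a set with at least three points yields a (B,N)-pair of rank one:
`B` is the stabiliser of a point `x`, `N` the setwise stabiliser of a pair `{x, y}`. -/
theorem result {G Ω : Type*} [Group G] [MulAction G Ω]
    (h2 : MulAction.IsMultiplyPretransitive G Ω 2) {x y z : Ω} (hxy : x ≠ y) (hyz : y ≠ z) (hxz : x ≠ z) :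
    ∃ P : Cfsg.BNPair G, P.B = MulAction.stabilizer G x ∧
      P.N = MulAction.stabilizer G ({x, y} : Set Ω) ∧ P.rank = 1 := by
  rw [MulAction.is_two_pretransitive_iff] at h2
  obtain ⟨s, hsx, hsy⟩ := h2 hxy (Ne.symm hxy)
  set B := MulAction.stabilizer G x with hB
  set N := MulAction.stabilizer G ({x, y} : Set Ω) with hN
  have hmemN : ∀ g : G, g ∈ N ↔ (g • x = x ∧ g • y = y) ∨ (g • x = y ∧ g • y = x) := by
    intro g
    rw [hN, MulAction.mem_stabilizer_iff, Set.smul_set_insert, Set.smul_set_singleton,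
      Set.pair_eq_pair_iff]
  have hsN : s ∈ N := (hmemN s).2 (Or.inr ⟨hsx, hsy⟩)
  have hsB : s ∉ B := fun h => hxy (by
    have h' : s • x = x := h
    rw [hsx] at h'; exact h'.symm)
  have hss : s * s ∈ B := by
    show (s * s) • x = x
    rw [mul_smul, hsx, hsy]
  have hsinv : s⁻¹ • x = y := by rw [inv_smul_eq_iff, hsy]
  have hsN' : ∀ n ∈ N, n ∉ B → n • x = y ∧ n • y = x := by
    intro n hn hnB
    rcases (hmemN n).1 hn with h | h
    · exact absurd h.1 hnB
    · exact h
  have hfix : ∀ t ∈ B ⊓ N, t • x = x ∧ t • y = y := by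
    intro t ht
    rcases (hmemN t).1 ht.2 with h | h
    · exact h
    · exact absurd ((show t • x = x from ht.1).symm.trans h.1) hxy
  have hcell : ∀ g : G, g ∈ B ∨ g ∈ DoubleCoset.doubleCoset s (B : Set G) B := by
    intro g
    by_cases hg : g ∈ B
    · exact Or.inl hg
    · right
      obtain ⟨b, hbx, hby⟩ := h2 hxy (d := g • x) (Ne.symm hg)
      refine DoubleCoset.mem_doubleCoset.2 ⟨b, hbx, (b * s)⁻¹ * g, ?_, by group⟩
      show ((b * s)⁻¹ * g) • x = x
      rw [mul_smul, inv_smul_eq_iff, mul_smul, hsx, hby]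
  have htop : B ⊔ N = ⊤ := by
    rw [eq_top_iff]
    intro g _
    rcases hcell g with hg | hg
    · exact Subgroup.mem_sup_left hg
    · obtain ⟨b, hb, b', hb', rfl⟩ := DoubleCoset.mem_doubleCoset.1 hg
      exact mul_mem (mul_mem (Subgroup.mem_sup_left hb) (Subgroup.mem_sup_right hsN))
        (Subgroup.mem_sup_left hb')
  refine ⟨{
    B := B, N := N, S := {s}
    sup_eq_top := htop
    conj_mem := ?_
    subset := Set.singleton_subset_iff.2 hsN
    sq_mem := fun t ht => by rw [Set.mem_singleton_iff.1 ht]; exact hss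
    inj := fun a ha b hb _ => by rw [Set.mem_singleton_iff.1 ha, Set.mem_singleton_iff.1 hb]
    closure_sup := ?_
    mul_mem_union := ?_
    conj_ne := ?_ }, rfl, rfl, ?_⟩
  · intro n hn t ht
    show (n * t * n⁻¹) • x = x
    obtain ⟨h1, h2⟩ := hfix t ht
    rcases (hmemN n⁻¹).1 (inv_mem hn) with h | h
    · rw [mul_smul, h.1, mul_smul, h1]; exact inv_smul_eq_iff.1 h.1 |>.symm
    · rw [mul_smul, h.1, mul_smul, h2]; exact inv_smul_eq_iff.1 h.1 |>.symm
  · refine le_antisymm (sup_le ((Subgroup.closure_le _).2 (Set.singleton_subset_iff.2 hsN))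
      inf_le_right) fun n hn => ?_
    by_cases hnB : n ∈ B
    · exact Subgroup.mem_sup_right ⟨hnB, hn⟩
    · obtain ⟨h1, h2⟩ := hsN' n hn hnB
      have hm : s⁻¹ * n ∈ B := by
        show (s⁻¹ * n) • x = x
        rw [mul_smul, h1, inv_smul_eq_iff, hsx]
      have := mul_mem (Subgroup.mem_sup_left (T := B ⊓ N) (Subgroup.subset_closure (Set.mem_singleton s)))
        (Subgroup.mem_sup_right (S := Subgroup.closure {s}) (show s⁻¹ * n ∈ B ⊓ N from
          Subgroup.mem_inf.2 ⟨hm, N.mul_mem (N.inv_mem hsN) hn⟩))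
      simpa using this
  · intro a ha n hn b hb
    rw [Set.mem_singleton_iff.1 ha]
    have hcase : (n ∈ B ∧ s * n ∉ B) ∨ (n ∉ B ∧ s * n ∈ B) := by
      by_cases hnB : n ∈ B
      · refine Or.inl ⟨hnB, fun h => hsB ?_⟩
        simpa using mul_mem h (inv_mem hnB)
      · refine Or.inr ⟨hnB, ?_⟩
        show (s * n) • x = x
        rw [mul_smul, (hsN' n hn hnB).1, hsy]
    have hbig : ∀ k ∈ N, k ∉ B → DoubleCoset.doubleCoset k (B : Set G) B =
        DoubleCoset.doubleCoset s (B : Set G) B := by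
      intro k hk hkB
      refine DoubleCoset.doubleCoset_eq_of_mem ?_
      rcases hcell k with h | h
      exacts [absurd h hkB, h]
    have hsmall : ∀ k ∈ B, ∀ g ∈ B, g ∈ DoubleCoset.doubleCoset k (B : Set G) B :=
      fun k hk g hg => DoubleCoset.mem_doubleCoset.2
        ⟨g * k⁻¹, mul_mem hg (inv_mem hk), 1, one_mem _, by group⟩
    rcases hcell (s * b * n) with hg | hg
    · rcases hcase with ⟨h1, h2⟩ | ⟨h1, h2⟩
      · exact Or.inr (hsmall n h1 _ hg)
      · exact Or.inl (hsmall _ h2 _ hg)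
    · rcases hcase with ⟨h1, h2⟩ | ⟨h1, h2⟩
      · exact Or.inl (by rw [hbig _ (mul_mem hsN hn) h2]; exact hg)
      · exact Or.inr (by rw [hbig _ hn h1]; exact hg)
  · intro a ha h
    rw [Set.mem_singleton_iff.1 ha] at h
    obtain ⟨b, hbx, hby⟩ := h2 hxy hxz
    have hm : s * b * s ∈ (B : Set G) := h ▸ ⟨b, hbx, rfl⟩
    have h3 : (s * b * s) • x = x := hm
    rw [mul_smul, mul_smul, hsx, hby] at h3
    have h4 : z = s⁻¹ • x := eq_inv_smul_iff.2 h3
    exact hyz (hsinv.symm.trans h4.symm)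
  · exact Nat.card_unique

end Cfsg.Agent.S0323
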