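import Cfsg.Statements.S0326
import Cfsg.Agent.Lib.Suz.Ovoid

set_option autoImplicit false
open Cfsg

namespace Cfsg.Agent.S0326

/-- The Suzuki–Tits ovoid over a finite field with `q` elements has `q² + 1` points. -/
theorem result {F : Type*} [Field F] [Fintype F] (m : ℕ) :
    Nat.card (Cfsg.suzukiOvoid F m) = Fintype.card F ^ 2 + 1 := by
  let f : Option (F × F) → Projectivization F (Fin 4 → F) := fun o => match o with
    | none => Projectivization.mk F ![1, 0, 0, 0] (fun h => by simpa using congrFun h 0)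
    | some p => Projectivization.mk F ![p.1 * p.2 + p.1 ^ (2 ^ (m + 1) + 2) + p.2 ^ (2 ^ (m + 1)), p.2, p.1, 1]
        (fun h => by simpa using congrFun h 3)
  have hinj : Function.Injective f := by
    intro a b h
    rcases a with _ | ⟨x, y⟩ <;> rcases b with _ | ⟨x', y'⟩ <;> simp only [f] at h
    · rfl
    · obtain ⟨t, ht⟩ := (Projectivization.mk_eq_mk_iff' F _ _ _ _).1 h
      have h0 := congrFun ht 0
      have h3 := congrFun ht 3
      simp at h0 h3
      simp [h3] at h0
    · obtain ⟨t, ht⟩ := (Projectivization.mk_eq_mk_iff' F _ _ _ _).1 h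
      have h3 := congrFun ht 3
      simp at h3
    · obtain ⟨t, ht⟩ := (Projectivization.mk_eq_mk_iff' F _ _ _ _).1 h
      have h1 := congrFun ht 1
      have h2 := congrFun ht 2
      have h3 := congrFun ht 3
      simp at h1 h2 h3
      subst h3
      simp at h1 h2
      simp [h1, h2]
  have hrange : Cfsg.suzukiOvoid F m = Set.range f := by
    ext p
    constructor
    · rintro ⟨v, hv, rfl, h | ⟨x, y, h⟩⟩
      · exact ⟨none, by subst h; rfl⟩
      · exact ⟨some (x, y), by subst h; rfl⟩
    · rintro ⟨o, rfl⟩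
      cases o with
      | none => exact ⟨_, _, rfl, Or.inl rfl⟩
      | some p => exact ⟨_, _, rfl, Or.inr ⟨p.1, p.2, rfl⟩⟩
  rw [hrange, Nat.card_congr (Equiv.ofInjective f hinj).symm]
  simp [sq]

end Cfsg.Agent.S0326
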