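import Cfsg.Statements.S0330
import Cfsg.Agent.Lib.Suz.Facts

set_option autoImplicit false
open Cfsg

namespace Cfsg.Agent.S0330

/-- A Sylow 2-subgroup `P` of the Suzuki group (field with `q = 2^(2m+1)` elements, `m ≥ 1`) has order `q²` and
exponent `4`; its centre coincides with its commutator subgroup and has order `q`. -/
theorem result {F : Type*} [Field F] [Fintype F] {m : ℕ} (hm : 1 ≤ m)
    (hF : Fintype.card F = 2 ^ (2 * m + 1)) (P : Sylow 2 (Cfsg.Sz F m)) :
    Nat.card P = (2 ^ (2 * m + 1)) ^ 2 ∧ Monoid.exponent P = 4 ∧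
      Subgroup.center P = commutator P ∧ Nat.card (Subgroup.center P) = 2 ^ (2 * m + 1) := by
  haveI := Cfsg.Agent.Lib.Suz.charP_two ⟨hm, hF⟩
  have h := Cfsg.Agent.Lib.Suz.sylow_structure ⟨hm, hF⟩ P
  rw [hF] at h
  exact h

end Cfsg.Agent.S0330
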