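import Cfsg.Statements.S0339
import Cfsg.Agent.Lib.ZassFrob.Basic

set_option autoImplicit false
open Cfsg

namespace Cfsg.Agent.S0339

open MulAction Subgroup in
theorem core {G Ω : Type*} [Group G] [MulAction G Ω] [Finite Ω] (hZ : Cfsg.IsZassenhausGroup G Ω)
    (N : Subgroup G) [N.Normal] (hN : N ≠ ⊥) : Cfsg.IsZassenhausGroup N Ω := by
  classical
  haveI := hZ.1
  haveI hGfin : Finite G := Finite.of_injective (MulAction.toPerm (α := G) (β := Ω)) MulAction.toPerm_injective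
  obtain ⟨g₀, hg₀, a₀, b₀, hab₀, hga₀, hgb₀⟩ := hZ.2.2.2.1
  have faith : ∀ x : G, (∀ c : Ω, x • c = c) → x = 1 := fun x h =>
    FaithfulSMul.eq_of_smul_eq_smul (α := Ω) fun c => by rw [one_smul, h c]
  have noreg : ∀ R : Subgroup G, R.Normal → (∀ c d : Ω, ∃ r ∈ R, r • c = d) →
      (∀ r ∈ R, ∀ c : Ω, r • c = c → r = 1) → False := by
    intro R hR htr hfree
    haveI : IsPretransitive R Ω := ⟨fun c d => by
      obtain ⟨r, hr, h⟩ := htr c d; exact ⟨⟨r, hr⟩, h⟩⟩
    obtain ⟨c, hc⟩ := hZ.2.2.2.2 R hR inferInstance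
    exact hc ((eq_bot_iff_forall _).2 fun r hr => Subtype.ext (hfree r r.2 c hr))
  -- transitivity
  have htrans : ∀ c d : Ω, ∃ n ∈ N, n • c = d := by
    obtain ⟨n, hn, hn1⟩ := (bot_or_exists_ne_one N).resolve_left hN
    obtain ⟨p, hp⟩ : ∃ p : Ω, n • p ≠ p := by
      by_contra h; push_neg at h; exact hn1 (faith n h)
    intro c d
    by_cases hcd : c = d
    · exact ⟨1, N.one_mem, by rw [one_smul, hcd]⟩
    obtain ⟨g, h1, h2⟩ := Lib.ZassFrob.exists_map_pair hZ (Ne.symm hp) hcd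
    exact ⟨g * n * g⁻¹, ‹N.Normal›.conj_mem n hn g, by rw [mul_smul, mul_smul, inv_smul_eq_iff.2 h1.symm, h2]⟩
  haveI hNtr : IsPretransitive N Ω := ⟨fun c d => by
    obtain ⟨r, hr, h⟩ := htrans c d; exact ⟨⟨r, hr⟩, h⟩⟩
  obtain ⟨c₀, hc₀⟩ := hZ.2.2.2.2 N inferInstance inferInstance
  obtain ⟨⟨e₀, he₀N⟩, he₀c, he₀1⟩ := (bot_or_exists_ne_one _).resolve_left hc₀
  have he₀' : e₀ ≠ 1 := fun h => he₀1 (Subtype.ext h)
  have he₀c' : e₀ • c₀ = c₀ := he₀c
  have stabne : ∀ a : Ω, ∃ x ∈ N, x ≠ 1 ∧ x • a = a := by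
    intro a
    obtain ⟨n, hn, h⟩ := htrans c₀ a
    exact ⟨n * e₀ * n⁻¹, ‹N.Normal›.conj_mem e₀ he₀N n, fun h1 => he₀' (conj_eq_one_iff.1 h1),
      by rw [mul_smul, mul_smul, inv_smul_eq_iff.2 h.symm, he₀c', h]⟩
  by_cases hsplit : ∃ a b : Ω, a ≠ b ∧ ∃ d ∈ N, d ≠ 1 ∧ d • a = a ∧ d • b = b
  · obtain ⟨a, b, hab, d, hdN, hd1, hda, hdb⟩ := hsplit
    obtain ⟨K, hKa, hKn, -, hKb, hKs, hKc, hKf⟩ := Lib.ZassFrob.exists_kernel hZ hab
    have hKN : K ≤ N := by
      have hdst : d ∈ stabilizer G a := hda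
      let F : K → K := fun y => ⟨(y : G)⁻¹ * (d * y * d⁻¹), mul_mem (inv_mem y.2) (hKn d hdst y y.2)⟩
      have hinj : Function.Injective F := by
        intro y z e
        have e' : (y : G)⁻¹ * (d * y * d⁻¹) = (z : G)⁻¹ * (d * z * d⁻¹) := congrArg Subtype.val e
        have hcomm : (z : G) * (y : G)⁻¹ * d = d * (z * (y : G)⁻¹) := by
          calc (z : G) * (y : G)⁻¹ * d = z * ((y : G)⁻¹ * (d * y * d⁻¹)) * d * (y : G)⁻¹ := by group
            _ = d * (z * (y : G)⁻¹) := by rw [e']; group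
        have hkz : (z : G) * (y : G)⁻¹ ∈ K := mul_mem z.2 (inv_mem y.2)
        by_contra hyz
        have hkz1 : (z : G) * (y : G)⁻¹ ≠ 1 := fun h => hyz (Subtype.ext (mul_inv_eq_one.mp h).symm)
        have hfix : d • (((z : G) * (y : G)⁻¹) • b) = ((z : G) * (y : G)⁻¹) • b := by
          rw [smul_smul, ← hcomm, mul_smul, hdb]
        rcases Lib.ZassFrob.eq_or_eq_of_fix hZ hd1 hab hda hdb hfix with h | h
        · rw [← eq_inv_smul_iff, Lib.ZassFrob.inv_fix (hKa hkz)] at h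
          exact hab h.symm
        · exact hkz1 (Subgroup.mem_bot.mp (hKb ▸ ⟨hkz, h⟩ : (z : G) * (y : G)⁻¹ ∈ (⊥ : Subgroup G)))
      intro k hk
      obtain ⟨y, hy⟩ := (Finite.injective_iff_surjective.mp hinj) ⟨k, hk⟩
      rw [show k = ((y : G)⁻¹ * d * y) * d⁻¹ by
        rw [show k = (y : G)⁻¹ * (d * y * d⁻¹) from (congrArg Subtype.val hy).symm]; group]
      refine N.mul_mem ?_ (N.inv_mem hdN)
      have := ‹N.Normal›.conj_mem d hdN (y : G)⁻¹
      rwa [inv_inv] at this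
    have hKtr : ∀ c : Ω, c ≠ a → ∃ k ∈ K, k • b = c := by
      let f : K → {c : Ω // c ≠ a} := fun k => ⟨(k : G) • b, fun h => hab (by
        rw [← eq_inv_smul_iff, Lib.ZassFrob.inv_fix (hKa k.2)] at h; exact h.symm)⟩
      have hf : Function.Injective f := by
        intro y z e
        have e' : (y : G) • b = (z : G) • b := congrArg Subtype.val e
        have h1 : (z : G)⁻¹ * y ∈ K ⊓ stabilizer G b :=
          ⟨K.mul_mem (K.inv_mem z.2) y.2, show ((z : G)⁻¹ * y) • b = b by rw [mul_smul, e', inv_smul_smul]⟩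
        rw [hKb, Subgroup.mem_bot, inv_mul_eq_one] at h1
        exact Subtype.ext h1.symm
      have hcard : Nat.card {c : Ω // c ≠ a} + 1 = Nat.card Ω := by
        haveI := Fintype.ofFinite Ω
        rw [Nat.card_eq_fintype_card, Nat.card_eq_fintype_card, Fintype.card_subtype_compl,
          Fintype.card_subtype_eq]
        have : 1 ≤ Fintype.card Ω := Fintype.card_pos_iff.2 ⟨a⟩
        omega
      have hbij : Function.Bijective f := (Nat.bijective_iff_injective_and_card f).2 ⟨hf, by omega⟩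
      intro c hc
      obtain ⟨k, hk⟩ := hbij.2 ⟨c, hc⟩
      exact ⟨k, k.2, congrArg Subtype.val hk⟩
    have h2t : ∀ x y : Ω, x ≠ y → ∃ n ∈ N, n • a = x ∧ n • b = y := by
      intro x y hxy
      obtain ⟨n, hn, hnx⟩ := htrans x a
      obtain ⟨k, hk, hky⟩ := hKtr (n • y) (fun h => hxy (MulAction.injective n (hnx.trans h.symm)))
      refine ⟨n⁻¹ * k, N.mul_mem (N.inv_mem hn) (hKN hk), ?_, ?_⟩
      · rw [mul_smul, show k • a = a from hKa hk, ← hnx, inv_smul_smul]
      · rw [mul_smul, hky, inv_smul_smul]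
    refine ⟨inferInstance, ?_, fun g p q r h1 h2 h3 e1 e2 e3 =>
      Subtype.ext (hZ.2.2.1 g p q r h1 h2 h3 e1 e2 e3), ⟨⟨d, hdN⟩, fun h => hd1 (congrArg Subtype.val h), a, b, hab, hda, hdb⟩, ?_⟩
    · rw [is_two_pretransitive_iff]
      intro x y x' y' h h'
      obtain ⟨n, hn, h1, h2⟩ := h2t x y h
      obtain ⟨n', hn', h1', h2'⟩ := h2t x' y' h'
      refine ⟨⟨n' * n⁻¹, N.mul_mem hn' (N.inv_mem hn)⟩, ?_, ?_⟩
      · show (n' * n⁻¹) • x = x'
        rw [mul_smul, inv_smul_eq_iff.2 h1.symm, h1']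
      · show (n' * n⁻¹) • y = y'
        rw [mul_smul, inv_smul_eq_iff.2 h2.symm, h2']
    · intro M hM hMt
      by_contra hreg
      push_neg at hreg
      set R := M.map N.subtype with hR
      -- regular subgroups of `N` normalised by `N`
      have main : ∀ R : Subgroup G, R ≤ N → (∀ n ∈ N, ∀ r ∈ R, n * r * n⁻¹ ∈ R) →
          (∀ c d : Ω, ∃ r ∈ R, r • c = d) → (∀ r ∈ R, ∀ c : Ω, r • c = c → r = 1) →
          (∀ r ∈ R, ∀ s ∈ R, r ≠ 1 → s ≠ 1 → ∃ n ∈ N, n * r * n⁻¹ = s) ∧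
          ∀ x ∈ N, (∀ r ∈ R, r * x = x * r) → x ∈ R := by
        intro R hRN hRn htr hfree
        have hconj : ∀ r ∈ R, ∀ s ∈ R, r ≠ 1 → s ≠ 1 → ∃ n ∈ N, n * r * n⁻¹ = s := by
          intro r hr s hs hr1 hs1
          have hra : r • a ≠ a := fun h => hr1 (hfree r hr a h)
          have hsa : s • a ≠ a := fun h => hs1 (hfree s hs a h)
          obtain ⟨n₁, hn₁, h11, h12⟩ := h2t a (r • a) (Ne.symm hra)
          obtain ⟨n₂, hn₂, h21, h22⟩ := h2t a (s • a) (Ne.symm hsa)
          have hh : n₂ * n₁⁻¹ ∈ N := N.mul_mem hn₂ (N.inv_mem hn₁)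
          have e1 : (n₂ * n₁⁻¹) • a = a := by rw [mul_smul, inv_smul_eq_iff.2 h11.symm, h21]
          have e2 : (n₂ * n₁⁻¹) • (r • a) = s • a := by rw [mul_smul, inv_smul_eq_iff.2 h12.symm, h22]
          refine ⟨n₂ * n₁⁻¹, hh, ?_⟩
          refine (inv_mul_eq_one.1 (hfree _ (R.mul_mem (R.inv_mem hs) (hRn _ hh r hr)) a ?_)).symm
          rw [mul_smul, mul_smul, mul_smul, Lib.ZassFrob.inv_fix e1, e2, inv_smul_smul]
        refine ⟨hconj, fun x hx hcomm => ?_⟩
        obtain ⟨r, hr, hra⟩ := htr a (x • a)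
        obtain ⟨r₁, hr₁⟩ : ∃ y, y = r⁻¹ * x := ⟨_, rfl⟩
        by_cases hRbot : ∀ s ∈ R, s = 1
        · obtain ⟨r', hr', h'⟩ := htr a b
          rw [hRbot r' hr', one_smul] at h'
          exact absurd h' hab
        push_neg at hRbot
        obtain ⟨s, hs, hs1⟩ := hRbot
        -- `R` is abelian
        obtain ⟨q, hq, hqd⟩ := Nat.exists_prime_and_dvd (fun h => hs1 (orderOf_eq_one_iff.1 h) : orderOf s ≠ 1)
        haveI := Fact.mk hq
        set s' := s ^ (orderOf s / q)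
        have hs' : orderOf s' = q := orderOf_pow_orderOf_div (orderOf_pos s).ne' hqd
        have hs'1 : s' ≠ 1 := fun h => hq.ne_one (by rw [← hs', h, orderOf_one])
        have hpg : IsPGroup q R := by
          intro t
          refine ⟨1, Subtype.ext ?_⟩
          rw [pow_one, coe_pow, coe_one]
          by_cases ht : (t : G) = 1
          · rw [ht, one_pow]
          obtain ⟨n, -, hn⟩ := hconj s' (R.pow_mem hs _) t t.2 hs'1 ht
          rw [← hn, conj_pow, ← hs', pow_orderOf_eq_one, mul_one, mul_inv_cancel]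
        haveI : Nontrivial R := ⟨⟨s, hs⟩, 1, fun h => hs1 (congrArg Subtype.val h)⟩
        obtain ⟨z, hz⟩ := (Subgroup.nontrivial_iff_exists_ne_one _).1 hpg.center_nontrivial
        have habel : ∀ u ∈ R, ∀ v ∈ R, u * v = v * u := by
          intro u hu v hv
          by_cases hu1 : u = 1
          · simp [hu1]
          obtain ⟨n, hn, rfl⟩ := hconj z z.2 u hu (fun h => hz.2 (Subtype.ext h)) hu1
          have hv' : n⁻¹ * v * n ∈ R := by have := hRn n⁻¹ (N.inv_mem hn) v hv; rwa [inv_inv] at this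
          have hc : (z : G) * (n⁻¹ * v * n) = n⁻¹ * v * n * z :=
            (congrArg Subtype.val (Subgroup.mem_center_iff.1 hz.1 ⟨_, hv'⟩)).symm
          calc n * z * n⁻¹ * v = n * ((z : G) * (n⁻¹ * v * n)) * n⁻¹ := by group
            _ = v * (n * z * n⁻¹) := by rw [hc]; group
        have hfix : r⁻¹ * x = 1 := by
          refine faith _ fun c => ?_
          obtain ⟨t, ht, htc⟩ := htr a c
          rw [← htc, smul_smul]
          have hcm : r⁻¹ * x * t = t * (r⁻¹ * x) := by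
            rw [mul_assoc, ← hcomm t ht, ← mul_assoc, ← habel t ht r⁻¹ (R.inv_mem hr), mul_assoc]
          rw [hcm, mul_smul, mul_smul, ← hra, inv_smul_smul]
        rw [← inv_mul_eq_one.1 hfix]; exact hr
      have hRN : R ≤ N := map_subtype_le M
      have hRn : ∀ n ∈ N, ∀ r ∈ R, n * r * n⁻¹ ∈ R := by
        rintro n hn _ ⟨r, hr, rfl⟩
        exact ⟨⟨n, hn⟩ * r * ⟨n, hn⟩⁻¹, hM.conj_mem r hr _, rfl⟩
      have hRt : ∀ c e : Ω, ∃ r ∈ R, r • c = e := fun c e => by
        obtain ⟨⟨m, hm⟩, h⟩ := exists_smul_eq M c e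
        exact ⟨m, ⟨m, hm, rfl⟩, h⟩
      have hRf : ∀ r ∈ R, ∀ c : Ω, r • c = c → r = 1 := by
        rintro _ ⟨r, hr, rfl⟩ c hc
        have : (⟨r, hr⟩ : M) ∈ stabilizer M c := hc
        rw [hreg c, Subgroup.mem_bot] at this
        rw [show r = 1 from congrArg Subtype.val this]; rfl
      refine noreg R ⟨fun r hr g => ?_⟩ hRt hRf
      set R' := R.map (MulAut.conj g).toMonoidHom with hR'
      have hR'N : R' ≤ N := by
        rintro _ ⟨t, ht, rfl⟩; exact ‹N.Normal›.conj_mem t (hRN ht) g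
      have hR'n : ∀ n ∈ N, ∀ t ∈ R', n * t * n⁻¹ ∈ R' := by
        rintro n hn _ ⟨t, ht, rfl⟩
        have hn' : g⁻¹ * n * g ∈ N := by have := ‹N.Normal›.conj_mem n hn g⁻¹; rwa [inv_inv] at this
        refine ⟨_, hRn _ hn' t ht, ?_⟩
        simp [mul_assoc]
      have hmem : g * r * g⁻¹ ∈ R' := ⟨r, hr, rfl⟩
      by_cases hint : ∃ t, t ∈ R ∧ t ∈ R' ∧ t ≠ 1
      · obtain ⟨t, ht, ht', ht1⟩ := hint
        have hle : R ≤ R' := fun u hu => by
          by_cases hu1 : u = 1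
          · rw [hu1]; exact one_mem _
          obtain ⟨n, hn, rfl⟩ := (main R hRN hRn hRt hRf).1 t ht u hu ht1 hu1
          exact hR'n n hn t ht'
        have := Subgroup.eq_of_le_of_card_ge hle (by rw [hR', Subgroup.card_map_of_injective (MulEquiv.injective _)])
        rw [this]; exact hmem
      · push_neg at hint
        refine (main R hRN hRn hRt hRf).2 _ (hR'N hmem) fun u hu => ?_
        set t := g * r * g⁻¹
        have h1 : u * t * u⁻¹ * t⁻¹ = 1 := hint _ (by
          have := R.mul_mem hu (hRn t (hR'N hmem) u⁻¹ (R.inv_mem hu))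
          simpa [mul_assoc] using this) (R'.mul_mem (hR'n u (hRN hu) t hmem) (R'.inv_mem hmem))
        rwa [mul_inv_eq_one, mul_inv_eq_iff_eq_mul] at h1
  · -- otherwise `N` is a Frobenius group, and its kernel is a regular normal subgroup of `G`
    push_neg at hsplit
    exfalso
    set a := a₀
    have hfc : Cfsg.IsFrobeniusComplement (stabilizer N a) := by
      refine ⟨fun h => ?_, fun h => ?_, fun g hg => ?_⟩
      · obtain ⟨x, hxN, hx1, hxa⟩ := stabne a
        have : (⟨x, hxN⟩ : N) ∈ stabilizer N a := hxa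
        rw [h, Subgroup.mem_bot] at this
        exact hx1 (congrArg Subtype.val this)
      · obtain ⟨n, hn, hna⟩ := htrans a b₀
        have : (⟨n, hn⟩ : N) ∈ stabilizer N a := h ▸ Subgroup.mem_top _
        exact hab₀ ((show n • a = a from this).symm.trans hna)
      · rw [eq_bot_iff_forall]
        rintro x ⟨hx, hx'⟩
        by_contra hx1
        have hxg : x • (g • a) = g • a := by
          have h' := Subgroup.mem_pointwise_smul_iff_inv_smul_mem.mp hx'
          rw [← map_inv, MulAut.smul_def, MulAut.conj_apply, inv_inv] at h'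
          have h'' : (g⁻¹ * x * g) • a = a := h'
          rwa [mul_smul, mul_smul, inv_smul_eq_iff] at h''
        exact hsplit a (g • a) (fun h => hg h.symm) x x.2 (fun h => hx1 (Subtype.ext h)) hx hxg
    obtain ⟨R0, hset, -, hc⟩ := Lib.FPF.exists_frobenius_kernel hfc
    have hmem : ∀ x : N, x ∈ R0 ↔ (x = 1 ∨ ∀ c : Ω, (x : G) • c ≠ c) := by
      intro x
      rw [← SetLike.mem_coe, hset]
      refine or_congr Iff.rfl ⟨fun h c hxc => ?_, fun h g hg => ?_⟩
      · obtain ⟨n, hn, hnc⟩ := htrans a c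
        refine h ⟨n, hn⟩ ?_
        rw [Subgroup.mem_pointwise_smul_iff_inv_smul_mem, ← map_inv, MulAut.smul_def, MulAut.conj_apply, inv_inv]
        show (n⁻¹ * (x : G) * n) • a = a
        rw [mul_smul, mul_smul, hnc, inv_smul_eq_iff, hnc, hxc]
      · rw [Subgroup.mem_pointwise_smul_iff_inv_smul_mem, ← map_inv, MulAut.smul_def, MulAut.conj_apply, inv_inv] at hg
        refine h ((g : G) • a) ?_
        have h'' : ((g : G)⁻¹ * (x : G) * g) • a = a := hg
        rwa [mul_smul, mul_smul, inv_smul_eq_iff] at h''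
    have hfree : ∀ r ∈ R0.map N.subtype, ∀ c : Ω, r • c = c → r = 1 := by
      rintro _ ⟨r, hr, rfl⟩ c hc'
      rcases (hmem r).1 hr with h | h
      · rw [h]; rfl
      · exact absurd hc' (h c)
    refine noreg (R0.map N.subtype) ⟨?_⟩ ?_ hfree
    · rintro _ ⟨r, hr, rfl⟩ g
      refine ⟨⟨g * (r : G) * g⁻¹, ‹N.Normal›.conj_mem _ r.2 g⟩, (hmem _).2 ?_, rfl⟩
      rcases (hmem r).1 hr with h | h
      · left; exact Subtype.ext (by show g * (r : G) * g⁻¹ = 1; rw [h]; simp)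
      · right
        intro c hc'
        refine h (g⁻¹ • c) ?_
        have h'' : (g * (r : G) * g⁻¹) • c = c := hc'
        rwa [mul_smul, mul_smul, ← eq_inv_smul_iff] at h''
    · let f : R0 → Ω := fun r => ((r : N) : G) • a
      have hf : Function.Injective f := by
        intro y z e
        have e' : ((y : N) : G) • a = ((z : N) : G) • a := e
        have h := hfree (((z : N) : G)⁻¹ * (y : N)) ⟨(z : N)⁻¹ * y, mul_mem (inv_mem z.2) y.2, rfl⟩ a
          (by rw [mul_smul, e', inv_smul_smul])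
        exact Subtype.ext (Subtype.ext (inv_mul_eq_one.1 h).symm)
      have hcard : Nat.card R0 = Nat.card Ω := by
        rw [← hc.index_eq_card, index_stabilizer_of_transitive]
      have hbij : Function.Bijective f := (Nat.bijective_iff_injective_and_card f).2 ⟨hf, hcard⟩
      intro c e
      obtain ⟨r₁, h₁⟩ := hbij.2 c
      obtain ⟨r₂, h₂⟩ := hbij.2 e
      refine ⟨((r₂ : N) : G) * ((r₁ : N) : G)⁻¹, ⟨(r₂ : N) * (r₁ : N)⁻¹, mul_mem r₂.2 (inv_mem r₁.2), rfl⟩, ?_⟩
      rw [mul_smul, inv_smul_eq_iff.2 h₁.symm]; exact h₂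


/-- A non-trivial normal subgroup of a Zassenhaus group is itself a Zassenhaus group on the same set. -/
theorem result {G Ω : Type*} [Group G] [MulAction G Ω] [Finite Ω]
    (hZ : Cfsg.IsZassenhausGroup G Ω) (N : Subgroup G) [N.Normal] (hN : N ≠ ⊥) :
    Cfsg.IsZassenhausGroup N Ω := by
  exact core hZ N hN

end Cfsg.Agent.S0339
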