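import Cfsg.Statements.S0341
import Cfsg.Agent.Lib.FPF.FrobeniusKernel
import Cfsg.Agent.S0636
import Cfsg.Agent.S0041
import Mathlib.FieldTheory.Fixed
import Mathlib.GroupTheory.SpecificGroups.ZGroup
import Mathlib.RingTheory.IntegralDomain

set_option autoImplicit false
open Cfsg

namespace Cfsg.Agent.S0341

/-- If a finite group acts faithfully and doubly transitively, no non-identity element fixes three points, some
non-identity element fixes two points, and some normal subgroup acts regularly, then the number of points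
is `2^p` with `p` prime. -/
theorem result {G Ω : Type*} [Group G]
    [MulAction G Ω] [Fintype Ω] [FaithfulSMul G Ω] (h2 : MulAction.IsMultiplyPretransitive G Ω 2)
    (h3 : ∀ g : G, ∀ a b c : Ω, a ≠ b → b ≠ c → a ≠ c → g • a = a → g • b = b → g • c = c → g = 1)
    (hfix : ∃ g : G, g ≠ 1 ∧ ∃ a b : Ω, a ≠ b ∧ g • a = a ∧ g • b = b)
    (N : Subgroup G) [N.Normal] (hNt : MulAction.IsPretransitive N Ω)
    (hNr : ∀ a : Ω, MulAction.stabilizer N a = ⊥) :
    ∃ p : ℕ, p.Prime ∧ Fintype.card Ω = 2 ^ p := by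
  classical
  haveI : Finite G := Finite.of_injective (fun g : G => fun x : Ω => g • x)
    fun g h e => eq_of_smul_eq_smul (congrFun e)
  have hmap : ∀ {p q p' q' : Ω}, p ≠ q → p' ≠ q' → ∃ g : G, g • p = p' ∧ g • q = q' := fun h h' =>
    (MulAction.is_two_pretransitive_iff.mp h2) h h'
  obtain ⟨g₀, hg₀, a, b, hab, hga, hgb⟩ := hfix
  obtain ⟨c, hca, hcb⟩ : ∃ c : Ω, c ≠ a ∧ c ≠ b := by
    by_contra! h
    refine hg₀ (eq_of_smul_eq_smul (α := Ω) fun x => ?_)
    rw [one_smul]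
    by_cases hxa : x = a
    · rw [hxa, hga]
    · rw [h x hxa, hgb]
  have hreg : ∀ {n m : G}, n ∈ N → m ∈ N → n • a = m • a → n = m := fun {n m} hn hm h => by
    have h1 : (⟨m⁻¹ * n, mul_mem (inv_mem hm) hn⟩ : N) ∈ MulAction.stabilizer N a :=
      show (m⁻¹ * n) • a = a by rw [mul_smul, h, inv_smul_smul]
    rw [hNr, Subgroup.mem_bot] at h1
    exact (inv_mul_eq_one.mp (congrArg Subtype.val h1)).symm
  have hsurj : ∀ x : Ω, ∃ n ∈ N, n • a = x := fun x => by
    obtain ⟨n, hn⟩ := MulAction.exists_smul_eq ↥N a x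
    exact ⟨n, n.2, hn⟩
  have hfixcomm : ∀ g : G, g • a = a → ∀ n ∈ N, g • (n • a) = n • a → g * n = n * g := by
    intro g hg n hn h
    refine mul_inv_eq_iff_eq_mul.mp (hreg (Subgroup.Normal.conj_mem inferInstance n hn g) hn ?_)
    rw [mul_smul, mul_smul, inv_smul_eq_iff.mpr hg.symm, h]
  have hconj : ∀ g : G, g • a = a → ∀ n ∈ N, (g * n * g⁻¹) • a = g • (n • a) := fun g hg n _ => by
    rw [mul_smul, mul_smul, inv_smul_eq_iff.mpr hg.symm]
  obtain ⟨n₀, hn₀, hn₀b⟩ := hsurj b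
  have hn₀1 : n₀ ≠ 1 := fun e => hab (by rw [← hn₀b, e, one_smul])
  have hn₀sq : n₀ * n₀ = 1 := by
    have hc0 := hfixcomm g₀ hga n₀ hn₀ (by rw [hn₀b, hgb])
    have h1 : g₀ • (n₀ * n₀) • a = (n₀ * n₀) • a := by
      rw [smul_smul, show g₀ * (n₀ * n₀) = n₀ * n₀ * g₀ by
        rw [← mul_assoc, hc0, mul_assoc, hc0, ← mul_assoc], mul_smul, hga]
    by_contra h
    have hb : (n₀ * n₀) • a ≠ b := fun e =>
      hn₀1 (mul_eq_left.mp (hreg (mul_mem hn₀ hn₀) hn₀ (e.trans hn₀b.symm)))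
    have ha' : (n₀ * n₀) • a ≠ a := fun e =>
      h (hreg (mul_mem hn₀ hn₀) (one_mem N) (e.trans (one_smul G a).symm))
    exact hg₀ (h3 g₀ a b _ hab hb.symm ha'.symm hga hgb h1)
  have hsq : ∀ n ∈ N, n * n = 1 := by
    intro n hn
    rcases eq_or_ne n 1 with rfl | h1
    · exact one_mul 1
    have hne : a ≠ n • a := fun e => h1 (hreg hn (one_mem N) (e.symm.trans (one_smul G a).symm))
    obtain ⟨g, hg1, hg2⟩ := hmap hab hne
    have : g * n₀ * g⁻¹ = n := hreg (Subgroup.Normal.conj_mem inferInstance n₀ hn₀ g) hn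
      (by rw [hconj g hg1 n₀ hn₀, hn₀b, hg2])
    rw [← this, show g * n₀ * g⁻¹ * (g * n₀ * g⁻¹) = g * (n₀ * n₀) * g⁻¹ by group, hn₀sq, mul_one,
      mul_inv_cancel]
  have hNc : ∀ u ∈ N, ∀ v ∈ N, u * v = v * u := fun u hu v hv => by
    have h := fun z (hz : z ∈ N) => inv_eq_of_mul_eq_one_left (hsq z hz)
    calc u * v = (u * v)⁻¹ := (h _ (mul_mem hu hv)).symm
      _ = v⁻¹ * u⁻¹ := mul_inv_rev _ _
      _ = v * u := by rw [h v hv, h u hu]
  haveI hNcomm : IsMulCommutative ↥N := ⟨⟨fun u v => Subtype.ext (hNc u u.2 v v.2)⟩⟩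
  let S := MulAction.stabilizer G a
  let C := (MulAction.stabilizer G b).subgroupOf S
  have hC : Cfsg.IsFrobeniusComplement C := by
    refine ⟨fun h => hg₀ ?_, fun h => hcb ?_, fun g hg => ?_⟩
    · have : (⟨g₀, hga⟩ : S) ∈ C := hgb
      rw [h, Subgroup.mem_bot] at this
      exact congrArg Subtype.val this
    · obtain ⟨g, h1, h2⟩ := hmap hab hca.symm
      have : (⟨g, h1⟩ : S) ∈ C := by rw [h]; exact Subgroup.mem_top _
      exact (h2 ▸ (this : g • b = b))
    · rw [Subgroup.eq_bot_iff_forall]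
      rintro x ⟨hx, hx'⟩
      have hxb : (x : G) • b = b := hx
      have h' := Subgroup.mem_pointwise_smul_iff_inv_smul_mem.mp hx'
      rw [← map_inv, MulAut.smul_def, MulAut.conj_apply, inv_inv] at h'
      have h'' : ((g : G)⁻¹ * x * g) • b = b := h'
      rw [mul_smul, mul_smul, inv_smul_eq_iff] at h''
      refine Subtype.ext (h3 (x : G) a b ((g : G) • b) hab (fun e => hg e.symm) (fun e => hab ?_) x.2 hxb h'')
      exact MulAction.injective (g : G) (show (g : G) • a = (g : G) • b from g.2.trans e)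
  obtain ⟨K₁, hset, hK₁n, hK₁c, hK₁nil⟩ := Lib.FPF.exists_frobenius_kernel_nilpotent hC
  have := hK₁n
  -- the kernel fixes only `a`
  have hKfix : ∀ k ∈ K₁, k ≠ 1 → ∀ x : Ω, (k : G) • x = x → x = a := by
    intro k hk hk1 x hx
    by_contra hxa
    obtain ⟨g, h1, h2⟩ := hmap hab (Ne.symm hxa)
    rcases (hset ▸ hk : k ∈ Cfsg.frobeniusKernel C) with h | h
    · exact hk1 h
    · refine h ⟨g, h1⟩ ?_
      rw [Subgroup.mem_pointwise_smul_iff_inv_smul_mem, ← map_inv, MulAut.smul_def,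
        MulAut.conj_apply, inv_inv]
      show (g⁻¹ * (k : G) * g) • b = b
      rw [mul_smul, mul_smul, h2, hx, inv_smul_eq_iff, h2]
  let K : Subgroup G := K₁.map S.subtype
  have hKmem : ∀ x ∈ K, x ≠ 1 → ∀ n ∈ N, x * n = n * x → n = 1 := by
    rintro _ ⟨k, hk, rfl⟩ hk1 n hn hc
    refine hreg hn (one_mem N) ?_
    rw [one_smul]
    refine hKfix k hk (fun e => hk1 (by rw [e]; rfl)) _ ?_
    have hc' : (k : G) * n = n * (k : G) := hc
    rw [smul_smul, hc', mul_smul, (k.2 : (k : G) • a = a)]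
  have hcardΩ : Nat.card ↥N = Fintype.card Ω := by
    rw [← Nat.card_eq_fintype_card]
    exact Nat.card_congr (Equiv.ofBijective (fun n : N => (n : G) • a)
      ⟨fun u v e => Subtype.ext (hreg u.2 v.2 e), fun x => by
        obtain ⟨n, hn, e⟩ := hsurj x; exact ⟨⟨n, hn⟩, e⟩⟩)
  have hNp : IsPGroup 2 ↥N := fun x => ⟨1, Subtype.ext (by
    rw [pow_one, pow_two]; exact hsq x x.2)⟩
  haveI : Fact (Nat.Prime 2) := ⟨Nat.prime_two⟩
  have hNne : N ≠ ⊥ := fun e => hn₀1 (by rw [e, Subgroup.mem_bot] at hn₀; exact hn₀)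
  have hKodd : ¬ 2 ∣ Nat.card K := by
    intro h
    obtain ⟨x, hx⟩ := exists_prime_orderOf_dvd_card' 2 h
    have hxo : orderOf (x : G) = 2 := by rw [Subgroup.orderOf_coe]; exact hx
    have hxp : IsPGroup 2 ↥(Subgroup.zpowers (x : G)) := IsPGroup.of_card (n := 1) (by
      rw [Nat.card_zpowers, hxo, pow_one])
    -- an involution on a group of exponent two fixes a nonidentity element
    let f : N → N := fun n => ⟨(x : G) * n * (x : G)⁻¹ * n, mul_mem (Subgroup.Normal.conj_mem inferInstance _ n.2 _) n.2⟩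
    by_cases hall : ∀ n : N, f n = 1
    · have := hKmem x x.2 (fun e => by rw [e, orderOf_one] at hxo; norm_num at hxo) n₀ hn₀ (by
        have h1 : (x : G) * n₀ * (x : G)⁻¹ * n₀ = 1 := congrArg Subtype.val (hall ⟨n₀, hn₀⟩)
        rw [mul_eq_one_iff_eq_inv, inv_eq_of_mul_eq_one_left (hsq n₀ hn₀), mul_inv_eq_iff_eq_mul] at h1
        exact h1)
      exact hn₀1 this
    · push Not at hall
      obtain ⟨n, hn⟩ := hall
      have hm := hKmem x x.2 (fun e => by rw [e, orderOf_one] at hxo; norm_num at hxo) _ (f n).2 (by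
        show (x : G) * ((x : G) * n * (x : G)⁻¹ * n) = (x : G) * n * (x : G)⁻¹ * n * (x : G)
        have hxx : (x : G) * (x : G) = 1 := by rw [← pow_two, ← hxo, pow_orderOf_eq_one]
        have hxi : (x : G)⁻¹ = (x : G) := inv_eq_of_mul_eq_one_left hxx
        have hcm := hNc _ (Subgroup.Normal.conj_mem inferInstance _ n.2 (x : G)) _ n.2
        rw [hcm, hxi]
        calc (x : G) * ((n : G) * ((x : G) * n * (x : G)))
            = (x : G) * n * (x : G) * n * (x : G) := by group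
          _ = (x : G) * n * (x : G)⁻¹ * n * (x : G) := by rw [hxi]
          _ = _ := by rw [hcm, hxi])
      exact hn (Subtype.ext hm)
  have hKfpf : ∀ x ∈ K, x ≠ 1 → N ⊓ Subgroup.centralizer {x} = ⊥ := fun x hx hx1 => by
    rw [Subgroup.eq_bot_iff_forall]
    rintro n ⟨hn, hc⟩
    exact hKmem x hx hx1 n hn (Subgroup.mem_centralizer_singleton_iff.mp hc).symm
  haveI : Group.IsNilpotent ↥K :=
    Group.isNilpotent_congr (K₁.equivMapOfInjective _ (Subgroup.subtype_injective _)) |>.mp hK₁nil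
  haveI : IsZGroup ↥K := by
    rw [isZGroup_iff]
    intro p hp P
    have := Fact.mk hp
    by_contra hcyc
    have hp2 : p ≠ 2 := by
      rintro rfl
      refine hcyc ?_
      have : Nat.card (P : Subgroup ↥K) = 1 := by
        obtain ⟨k, hk⟩ := IsPGroup.iff_card.mp P.2
        rcases k with _ | k
        · simpa using hk
        · exact absurd ((hk ▸ dvd_pow_self 2 k.succ_ne_zero).trans (Subgroup.card_subgroup_dvd_card _)) hKodd
      haveI := (Nat.card_eq_one_iff_unique.mp this).1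
      infer_instance
    obtain ⟨A, -, -, hA, hAc⟩ := S0636.result hp2 P.2 ⊤ (fun h => hcyc (Subgroup.topEquiv.isCyclic.mp h))
    let A' : Subgroup G := (A.map (P : Subgroup ↥K).subtype).map K.subtype
    have hA'K : A' ≤ K := Subgroup.map_subtype_le _
    have e : ↥A ≃* ↥A' := (A.equivMapOfInjective _ (Subgroup.subtype_injective _)).trans
      (Subgroup.equivMapOfInjective _ _ (Subgroup.subtype_injective _))
    have hA'c : IsMulCommutative ↥A' :=
      ⟨⟨fun u v => e.symm.injective (by rw [map_mul, map_mul]; exact hA.1.is_comm.comm _ _)⟩⟩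
    have hcyc' : IsCyclic ↥A' := S0041.result A' N hNne (by rw [Subgroup.normalizer_eq_top]; exact le_top)
      (fun x hx hx1 => hKfpf x (hA'K hx) hx1) (Or.inl hA'c)
    obtain ⟨u, hu⟩ := IsCyclic.exists_ofOrder_eq_natCard (α := ↥A) (h := e.symm.isCyclic.mp hcyc')
    have h1 : orderOf u ∣ p := orderOf_dvd_of_pow_eq_one (Subtype.ext (hA.2 u u.2))
    rw [hu, hAc] at h1
    have h2 := Nat.le_of_dvd hp.pos h1
    have h3 : p ^ 1 < p ^ 2 := Nat.pow_lt_pow_right hp.one_lt (by norm_num)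
    rw [pow_one] at h3
    omega
  have hKab : ∀ x ∈ K, ∀ y ∈ K, x * y = y * x := fun x hx y hy =>
    congrArg Subtype.val ((IsCyclic.commutative (α := ↥K)).is_comm.comm ⟨x, hx⟩ ⟨y, hy⟩)
  have hKorb : ∀ n ∈ N, n ≠ 1 → ∃ k ∈ K, k * n₀ * k⁻¹ = n := by
    intro n hn hn1
    have hne : a ≠ n • a := fun e => hn1 (hreg hn (one_mem N) (e.symm.trans (one_smul G a).symm))
    obtain ⟨g, h1, h2⟩ := hmap hab hne
    have hg : (⟨g, h1⟩ : S) ∈ K₁ ⊔ C := by rw [hK₁c.sup_eq_top]; exact Subgroup.mem_top _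
    rw [← SetLike.mem_coe, Subgroup.normal_mul] at hg
    obtain ⟨k, hk, d, hd, he⟩ := Set.mem_mul.mp hg
    refine ⟨k, ⟨k, hk, rfl⟩, hreg (Subgroup.Normal.conj_mem inferInstance n₀ hn₀ _) hn ?_⟩
    rw [hconj _ (k.2 : (k : G) • a = a) n₀ hn₀, hn₀b, ← h2]
    have he' : (k : G) * (d : G) = g := congrArg Subtype.val he
    rw [← he', mul_smul, (show (d : G) • b = b from hd)]
  -- an element of prime order of the two-point stabiliser
  obtain ⟨h, r, hr, hho, hha, hhb⟩ : ∃ h : G, ∃ r : ℕ, r.Prime ∧ orderOf h = r ∧ h • a = a ∧ h • b = b := by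
    obtain ⟨r, hr, hrd⟩ := Nat.exists_prime_and_dvd (fun e => hg₀ (orderOf_eq_one_iff.mp e))
    refine ⟨g₀ ^ (orderOf g₀ / r), r, hr, orderOf_pow_orderOf_div (orderOf_pos g₀).ne' hrd, ?_, ?_⟩
    · exact pow_mem (show g₀ ∈ MulAction.stabilizer G a from hga) _
    · exact pow_mem (show g₀ ∈ MulAction.stabilizer G b from hgb) _
  refine ⟨r, hr, ?_⟩
  have hh1 : h ≠ 1 := fun e => hr.ne_one (by rw [← hho, e, orderOf_one])
  have hhfix : ∀ n ∈ N, h * n * h⁻¹ = n → n = 1 ∨ n = n₀ := by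
    intro n hn hc
    by_contra hne
    rw [not_or] at hne
    refine hh1 (h3 h a b (n • a) hab (fun e => hne.2 (hreg hn hn₀ (e.symm.trans hn₀b.symm)))
      (fun e => hne.1 (hreg hn (one_mem N) (e.symm.trans (one_smul G a).symm))) hha hhb ?_)
    rw [← hconj h hha n hn, hc]
  have hhn₀ : h * n₀ * h⁻¹ = n₀ := hreg (Subgroup.Normal.conj_mem inferInstance n₀ hn₀ h) hn₀
    (by rw [hconj h hha n₀ hn₀, hn₀b, hhb])
  have hhK : ∀ k ∈ K, ∀ x : G, x • a = a → x * k * x⁻¹ ∈ K := by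
    rintro _ ⟨k, hk, rfl⟩ x hx
    exact ⟨⟨x, hx⟩ * k * ⟨x, hx⟩⁻¹, hK₁n.conj_mem k hk _, rfl⟩
  -- the centraliser of the kernel in `End N` is a field
  letI : CommGroup ↥N := { (inferInstance : Group ↥N) with mul_comm := fun u v => Subtype.ext (hNc u u.2 v v.2) }
  let ρ : G →* AddMonoid.End (Additive ↥N) :=
    { toFun := fun g => MonoidHom.toAdditive (MulAut.conjNormal g : MulAut ↥N).toMonoidHom
      map_one' := by
        refine AddMonoidHom.ext fun x => ?_
        apply Additive.toMul.injective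
        show (MulAut.conjNormal (1 : G) : MulAut ↥N) (Additive.toMul x) = Additive.toMul x
        rw [map_one, MulAut.one_apply]
      map_mul' := fun g g' => by
        refine AddMonoidHom.ext fun x => ?_
        apply Additive.toMul.injective
        show (MulAut.conjNormal (g * g') : MulAut ↥N) (Additive.toMul x) =
          (MulAut.conjNormal g : MulAut ↥N) ((MulAut.conjNormal g' : MulAut ↥N) (Additive.toMul x))
        rw [map_mul, MulAut.mul_apply] }
  let R : Subring (AddMonoid.End (Additive ↥N)) := Subring.centralizer (ρ '' (K : Set G))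
  let v₀ : Additive ↥N := Additive.ofMul ⟨n₀, hn₀⟩
  have hρK : ∀ k ∈ K, ρ k ∈ R := fun k hk => Subring.mem_centralizer_iff.mpr (by
    rintro _ ⟨l, hl, rfl⟩
    rw [← map_mul, ← map_mul, hKab l hl k hk])
  have horb : ∀ v : Additive ↥N, v ≠ 0 → ∃ k ∈ K, ρ k v₀ = v := by
    intro v hv
    obtain ⟨k, hk, hkn⟩ := hKorb ((Additive.toMul v : ↥N) : G) (Additive.toMul v).2
      (fun e => hv (Additive.toMul.injective (Subtype.ext e)))
    exact ⟨k, hk, Additive.toMul.injective (Subtype.ext (show k * n₀ * k⁻¹ = _ from hkn))⟩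
  have hdet : ∀ f g : R, (f : AddMonoid.End (Additive ↥N)) v₀ = (g : AddMonoid.End (Additive ↥N)) v₀ → f = g := by
    intro f g e
    apply Subtype.ext
    refine AddMonoidHom.ext fun v => ?_
    rcases eq_or_ne v 0 with rfl | hv
    · exact (map_zero (f : AddMonoid.End (Additive ↥N))).trans (map_zero (g : AddMonoid.End (Additive ↥N))).symm
    obtain ⟨k, hk, rfl⟩ := horb v hv
    have hf := DFunLike.congr_fun (Subring.mem_centralizer_iff.mp f.2 _ ⟨k, hk, rfl⟩) v₀
    have hg := DFunLike.congr_fun (Subring.mem_centralizer_iff.mp g.2 _ ⟨k, hk, rfl⟩) v₀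
    show (f : AddMonoid.End (Additive ↥N)) (ρ k v₀) = (g : AddMonoid.End (Additive ↥N)) (ρ k v₀)
    rw [show (f : AddMonoid.End (Additive ↥N)) (ρ k v₀) = ρ k ((f : AddMonoid.End (Additive ↥N)) v₀) from hf.symm,
      show (g : AddMonoid.End (Additive ↥N)) (ρ k v₀) = ρ k ((g : AddMonoid.End (Additive ↥N)) v₀) from hg.symm, e]
  have hev : Function.Bijective (fun f : R => (f : AddMonoid.End (Additive ↥N)) v₀) := by
    refine ⟨fun f g e => hdet f g e, fun v => ?_⟩
    rcases eq_or_ne v 0 with rfl | hv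
    · exact ⟨0, rfl⟩
    obtain ⟨k, hk, e⟩ := horb v hv
    exact ⟨⟨ρ k, hρK k hk⟩, e⟩
  have hRform : ∀ f : R, f = 0 ∨ ∃ (k : G) (hk : k ∈ K), f = ⟨ρ k, hρK k hk⟩ := by
    intro f
    rcases eq_or_ne ((f : AddMonoid.End (Additive ↥N)) v₀) 0 with h0 | h0
    · exact Or.inl (hdet f 0 h0)
    · obtain ⟨k, hk, e⟩ := horb _ h0
      exact Or.inr ⟨k, hk, hdet _ _ e.symm⟩
  haveI : Finite ↥R := Finite.of_injective _ hev.1
  have hv₀ : v₀ ≠ 0 := fun e => hn₀1 (congrArg (fun z : Additive ↥N => ((Additive.toMul z : ↥N) : G)) e)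
  have hfield : IsField ↥R :=
    { exists_pair_ne := ⟨0, 1, fun e => hv₀
        (congrArg (fun f : R => (f : AddMonoid.End (Additive ↥N)) v₀) e).symm⟩
      mul_comm := fun f g => by
        rcases hRform f with rfl | ⟨k, hk, rfl⟩
        · rw [zero_mul, mul_zero]
        · exact Subtype.ext (Subring.mem_centralizer_iff.mp g.2 _ ⟨k, hk, rfl⟩)
      mul_inv_cancel := fun {f} hf => by
        obtain ⟨k, hk, rfl⟩ := (hRform f).resolve_left hf
        exact ⟨⟨ρ k⁻¹, hρK _ (inv_mem hk)⟩, Subtype.ext (by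
          show ρ k * ρ k⁻¹ = 1
          rw [← map_mul, mul_inv_cancel, map_one])⟩ }
  letI : Field ↥R := hfield.toField
  haveI : Fintype ↥R := Fintype.ofFinite _
  -- conjugation by `h`
  have hconjR : ∀ x : G, x • a = a → ∀ f ∈ R, ρ x * f * ρ x⁻¹ ∈ R := by
    intro x hx f hf
    refine Subring.mem_centralizer_iff.mpr ?_
    rintro _ ⟨l, hl, rfl⟩
    have hl' : x⁻¹ * l * x ∈ K := by
      simpa using hhK l hl x⁻¹ (inv_smul_eq_iff.mpr hx.symm)
    have := Subring.mem_centralizer_iff.mp hf _ ⟨_, hl', rfl⟩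
    calc ρ l * (ρ x * f * ρ x⁻¹) = ρ x * (ρ (x⁻¹ * l * x) * f) * ρ x⁻¹ := by
          simp only [← mul_assoc, ← map_mul]; group
      _ = ρ x * (f * ρ (x⁻¹ * l * x)) * ρ x⁻¹ := by rw [this]
      _ = ρ x * f * ρ x⁻¹ * ρ l := by
          simp only [mul_assoc, ← map_mul]; group
  let conjAut : ↥S → RingAut ↥R := fun x =>
    { toFun := fun f => ⟨ρ x * f * ρ (x : G)⁻¹, hconjR x x.2 f f.2⟩
      invFun := fun f => ⟨ρ (x : G)⁻¹ * f * ρ x, by
        simpa using hconjR (x : G)⁻¹ (inv_smul_eq_iff.mpr (x.2 : (x : G) • a = a).symm) f f.2⟩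
      left_inv := fun f => Subtype.ext (by
        show ρ (x : G)⁻¹ * (ρ x * f * ρ (x : G)⁻¹) * ρ x = f
        simp only [mul_assoc, ← map_mul, inv_mul_cancel, map_one, mul_one]
        rw [← mul_assoc, ← map_mul, inv_mul_cancel, map_one, one_mul])
      right_inv := fun f => Subtype.ext (by
        show ρ x * (ρ (x : G)⁻¹ * f * ρ x) * ρ (x : G)⁻¹ = f
        simp only [mul_assoc, ← map_mul, mul_inv_cancel, map_one, mul_one]
        rw [← mul_assoc, ← map_mul, mul_inv_cancel, map_one, one_mul])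
      map_mul' := fun f g => Subtype.ext (by
        show ρ x * (f * g : AddMonoid.End (Additive ↥N)) * ρ (x : G)⁻¹ =
          (ρ x * f * ρ (x : G)⁻¹) * (ρ x * g * ρ (x : G)⁻¹)
        rw [show (ρ x * f * ρ (x : G)⁻¹) * (ρ x * g * ρ (x : G)⁻¹) =
          ρ x * f * (ρ (x : G)⁻¹ * ρ x) * g * ρ (x : G)⁻¹ by simp only [mul_assoc],
          ← map_mul, inv_mul_cancel, map_one, mul_one]
        simp only [mul_assoc])
      map_add' := fun f g => Subtype.ext (by
        show ρ x * (f + g : AddMonoid.End (Additive ↥N)) * ρ (x : G)⁻¹ = _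
        rw [mul_add, add_mul]; rfl) }
  let Φ : ↥S →* RingAut ↥R :=
    { toFun := conjAut
      map_one' := RingEquiv.ext fun f => Subtype.ext (by
        show ρ (1 : G) * f * ρ (1 : G)⁻¹ = f
        rw [inv_one, map_one, one_mul, mul_one])
      map_mul' := fun x y => RingEquiv.ext fun f => Subtype.ext (by
        show ρ ((x : G) * y) * f * ρ ((x : G) * y)⁻¹ = ρ x * (ρ y * f * ρ (y : G)⁻¹) * ρ (x : G)⁻¹
        rw [mul_inv_rev, map_mul, map_mul]
        simp only [mul_assoc]) }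
  let hS : ↥S := ⟨h, hha⟩
  have hh0 : ρ h⁻¹ v₀ = v₀ := Additive.toMul.injective (Subtype.ext (by
    show h⁻¹ * n₀ * h⁻¹⁻¹ = n₀
    conv_lhs => rw [← hhn₀]
    group))
  have hfix : ∀ f : R, Φ hS f = f → f = 0 ∨ f = 1 := by
    intro f hf
    have h1 : ρ h ((f : AddMonoid.End (Additive ↥N)) (ρ h⁻¹ v₀)) = (f : AddMonoid.End (Additive ↥N)) v₀ :=
      DFunLike.congr_fun (congrArg Subtype.val hf) v₀
    rw [hh0] at h1
    rcases hhfix _ (Additive.toMul ((f : AddMonoid.End (Additive ↥N)) v₀) : ↥N).2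
      (congrArg (fun z : Additive ↥N => ((Additive.toMul z : ↥N) : G)) h1) with e | e
    · exact Or.inl (hdet f 0 (Additive.toMul.injective (Subtype.ext e)))
    · exact Or.inr (hdet f 1 (Additive.toMul.injective (Subtype.ext e)))
  have hcardR : Nat.card ↥R = Fintype.card Ω :=
    (Nat.card_congr ((Equiv.ofBijective _ hev).trans Additive.toMul)).trans hcardΩ
  have h3Ω : 2 < Fintype.card Ω := by
    rw [Fintype.two_lt_card_iff]
    exact ⟨a, b, c, hab, hca.symm, hcb.symm⟩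
  have hσ : orderOf (Φ hS) = r := by
    have hd : orderOf (Φ hS) ∣ r := hho ▸ (orderOf_map_dvd Φ hS).trans (Subgroup.orderOf_mk _ _).dvd
    refine (hr.eq_one_or_self_of_dvd _ hd).resolve_left fun e => ?_
    rw [orderOf_eq_one_iff] at e
    have : Nat.card ↥R ≤ 2 := by
      refine (Nat.card_le_card_of_surjective (fun i : Fin 2 => ((i : ℕ) : ↥R)) fun f => ?_).trans
        (Nat.card_fin 2).le
      rcases hfix f (by rw [e]; rfl) with rfl | rfl
      · exact ⟨0, by simp⟩
      · exact ⟨1, by simp⟩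
    omega
  let H := Subgroup.zpowers (Φ hS)
  haveI : Finite (RingAut ↥R) := Finite.of_injective _ DFunLike.coe_injective
  haveI : Fintype ↥H := Fintype.ofFinite _
  have hdim := FixedPoints.finrank_eq_card ↥H ↥R
  have hsub : Nat.card (FixedPoints.subfield ↥H ↥R) = 2 := by
    rw [Nat.card_eq_two_iff]
    refine ⟨0, 1, zero_ne_one, Set.eq_univ_of_forall fun f => ?_⟩
    rcases hfix f.1 (f.2 ⟨Φ hS, Subgroup.mem_zpowers _⟩) with e | e
    · exact Or.inl (Subtype.ext e)
    · exact Or.inr (Subtype.ext e)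
  rw [← hcardR, Module.natCard_eq_pow_finrank (K := FixedPoints.subfield ↥H ↥R), hsub, hdim,
    ← Nat.card_eq_fintype_card, Nat.card_zpowers, hσ]

end Cfsg.Agent.S0341
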