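import Cfsg.Statements.S0353
import Cfsg.Agent.Lib.Steiner.Mathieu

set_option autoImplicit false
open Cfsg

namespace Cfsg.Agent.S0353

/-- In an S(5, 8, 24), the symmetric difference of two blocks meeting in four points is a block. -/
theorem result {α : Type*} [Fintype α] [DecidableEq α] (hα : Fintype.card α = 24) {B : Set (Finset α)} (hB : Cfsg.IsSteinerSystem 5 8 B) {b c : Finset α} (hb : b ∈ B) (hc : c ∈ B) (h4 : (b ∩ c).card = 4) : symmDiff b c ∈ B := by
  exact Lib.Steiner.symmDiff24 hα hB hb hc h4

end Cfsg.Agent.S0353
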