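import Cfsg.Statements.S0357
import Cfsg.Agent.Lib.Steiner.Mathieu

set_option autoImplicit false
open Cfsg

namespace Cfsg.Agent.S0357

/-- In a Steiner system S(5, 6, 12), the complement of every block is again a block. -/
theorem result {α : Type*} [Fintype α] [DecidableEq α] (hα : Fintype.card α = 12) {B : Set (Finset α)} (hB : Cfsg.IsSteinerSystem 5 6 B) {b : Finset α} (hb : b ∈ B) : bᶜ ∈ B := by
  classical
  have h := Lib.Steiner.meet12 hα hB hb
  obtain ⟨c, hc⟩ := Finset.card_pos.1 (show 0 < (((Lib.Steiner.blocks B).erase b).filter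
    fun c => (b ∩ c).card = 0).card by rw [Lib.Steiner.meetCard] at h; omega)
  simp only [Finset.mem_filter, Finset.mem_erase, Lib.Steiner.mem_blocks, Finset.card_eq_zero] at hc
  have hsub : c ⊆ bᶜ := fun x hx => Finset.mem_compl.2 fun hxb =>
    Finset.notMem_empty x (hc.2 ▸ Finset.mem_inter.2 ⟨hxb, hx⟩)
  have he : c = bᶜ := Finset.eq_of_subset_of_card_le hsub (by
    rw [Finset.card_compl, hα, hB.1 b hb, hB.1 c hc.1.2])
  exact he ▸ hc.1.2

end Cfsg.Agent.S0357
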