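import Cfsg.Statements.S0380
import Cfsg.Agent.Lib.Golay.M21
import Cfsg.Agent.Lib.Golay.Mathieu

set_option autoImplicit false
open Cfsg

namespace Cfsg.Agent.S0380

/-- A three-point stabiliser in the group of the length-24 code is isomorphic to PSL(3, F) for the field F with 4 elements. -/
theorem result (p q r : Cfsg.GolayPt) (hpq : p ≠ q) (hpr : p ≠ r) (hqr : q ≠ r) (F : Type) [Field F] [Fintype F] (hF : Fintype.card F = 4) : Nonempty (↥(MulAction.stabilizer Cfsg.M24 p ⊓ MulAction.stabilizer Cfsg.M24 q ⊓ MulAction.stabilizer Cfsg.M24 r) ≃* Matrix.ProjectiveSpecialLinearGroup (Fin 3) F) := by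
  classical
  obtain ⟨σ, hσ, he⟩ := Lib.Golay.exists_M24_map (k := 3) (by norm_num) ![p, q, r]
    ![(none : GolayPt), some 0, some 1]
    (by intro i j; fin_cases i <;> fin_cases j <;>
      simp [hpq, hpr, hqr, Ne.symm hpq, Ne.symm hpr, Ne.symm hqr]) (by decide)
  obtain ⟨e⟩ := Lib.Golay.psl34_iso hF
  let H : Subgroup (Equiv.Perm GolayPt) :=
    Lib.Golay.st2 p q ⊓ MulAction.stabilizer (Equiv.Perm GolayPt) r
  have e1 : ↥(MulAction.stabilizer M24 p ⊓ MulAction.stabilizer M24 q ⊓ MulAction.stabilizer M24 r) ≃* H :=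
    Lib.Golay.subEquiv _ _ (fun g hg => hg.1.1.1) fun g => by
      simp [H, Lib.Golay.st2, Lib.Golay.st1, Subgroup.smul_def]
  have e2 : H ≃* Lib.Golay.st3std := Lib.Golay.conjEquiv σ fun g => by
    have h0 : σ p = none := he 0
    have h1 : σ q = some 0 := he 1
    have h2 : σ r = some 1 := he 2
    simp only [H, Lib.Golay.st3std, Subgroup.mem_inf]
    refine and_congr ?_ ?_
    · rw [← h0, ← h1]; exact Lib.Golay.st2_conj hσ p q g
    · rw [← h2, ← Equiv.Perm.smul_def σ r]; exact Lib.Golay.mem_stabilizer_conj σ g r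
  exact ⟨(e1.trans e2).trans e.symm⟩

end Cfsg.Agent.S0380
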