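import Cfsg.Statements.S0390
import Cfsg.Agent.Lib.Leech.Basic
-- import your own Cfsg.Agent.* helpers here

set_option autoImplicit false
open Cfsg

namespace Cfsg.Agent.S0390

/-- The set leechSet is the carrier of an additive subgroup (hence equals leechLattice). -/
theorem result : ∃ L : AddSubgroup (Cfsg.GolayPt → ℤ), (L : Set (Cfsg.GolayPt → ℤ)) = Cfsg.leechSet := by
  exact ⟨Cfsg.leechLattice, Set.ext fun x => ⟨fun h => Lib.Leech.mem_leechSet_of_good (Lib.Leech.mem_iff.1 h),
    fun h => AddSubgroup.subset_closure h⟩⟩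

end Cfsg.Agent.S0390
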