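import Cfsg.Statements.S0392
import Cfsg.Agent.Lib.Leech.Basic
-- import your own Cfsg.Agent.* helpers here

set_option autoImplicit false
open Cfsg

namespace Cfsg.Agent.S0392

/-- Sum of squares of every lattice vector is divisible by 16 (even lattice at scale 1/8). -/
theorem result (x : Cfsg.GolayPt → ℤ) (hx : x ∈ Cfsg.leechLattice) : (16 : ℤ) ∣ Cfsg.sqNorm x := by
  obtain ⟨m, y, hm, hy, hs, hw⟩ := Lib.Leech.mem_iff.1 hx
  have hcard := Lib.Golay.card_cases (Lib.Leech.support_mem hw)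
  rw [Lib.Leech.support_cast] at hcard
  have hsq : ∀ z : ℤ, (4 : ℤ) ∣ z ^ 2 - (if ¬ (2 : ℤ) ∣ z then 1 else 0) := fun z => by
    split_ifs with h
    · obtain ⟨t, rfl⟩ := h; exact ⟨t ^ 2, by ring⟩
    · obtain ⟨t, rfl | rfl⟩ : ∃ t, z = 2 * t + 1 ∨ z = 2 * t := ⟨z / 2, by omega⟩
      · exact ⟨t ^ 2 + t, by ring⟩
      · exact absurd (dvd_mul_right 2 t) h
  have h4 : (4 : ℤ) ∣ ∑ i, y i ^ 2 := by
    have h := Finset.dvd_sum (s := Finset.univ) fun i _ => hsq (y i)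
    rw [Finset.sum_sub_distrib, Finset.sum_boole] at h
    have h' : (4 : ℤ) ∣ (((Finset.univ.filter fun i => ¬ (2 : ℤ) ∣ y i).card : ℕ) : ℤ) := by omega
    simpa using dvd_add h h'
  have e1 : Cfsg.sqNorm x = 24 * m ^ 2 + 4 * m * (∑ i, y i) + 4 * ∑ i, y i ^ 2 := by
    rw [Cfsg.sqNorm, Finset.sum_congr rfl (fun i _ => show x i ^ 2 = m ^ 2 + 4 * m * y i + 4 * y i ^ 2 by rw [hy]; ring),
      Finset.sum_add_distrib, Finset.sum_add_distrib, Finset.sum_const, ← Finset.mul_sum, ← Finset.mul_sum,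
      nsmul_eq_mul, Finset.card_univ, show Fintype.card Cfsg.GolayPt = 24 from rfl]
    push_cast; ring
  have e2 : ∑ i, x i = 24 * m + 2 * ∑ i, y i := by
    rw [Finset.sum_congr rfl (fun i _ => hy i), Finset.sum_add_distrib, Finset.sum_const, ← Finset.mul_sum,
      nsmul_eq_mul, Finset.card_univ, show Fintype.card Cfsg.GolayPt = 24 from rfl]
    rfl
  rw [e2] at hs
  rw [e1]
  obtain ⟨t, ht⟩ := h4
  rcases hm with rfl | rfl <;> rw [ht] <;> omega

end Cfsg.Agent.S0392
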