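import Cfsg.Statements.S0399
import Cfsg.Agent.Lib.Leech.Co1Simple
-- import your own Cfsg.Agent.* helpers here

set_option autoImplicit false
open Cfsg

namespace Cfsg.Agent.S0399

/-- Automorphism group of the lattice modulo its centre is simple of order 4157776806543360000. -/
theorem result : Cfsg.IsCo1 (Cfsg.Co0 ⧸ Subgroup.center Cfsg.Co0) := by
  haveI : Finite ↥Co0 := Nat.finite_of_card_ne_zero (by rw [Lib.Leech.card_Co0]; norm_num)
  have hc : Nat.card (↥Co0 ⧸ Subgroup.center ↥Co0) = 4157776806543360000 := by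
    have h := Subgroup.card_eq_card_quotient_mul_card_subgroup (Subgroup.center ↥Co0)
    rw [Lib.Leech.card_center, Lib.Leech.card_Co0] at h
    exact Nat.eq_of_mul_eq_mul_right (Nat.succ_pos 1) (h.symm.trans (by norm_num))
  haveI : Nontrivial (↥Co0 ⧸ Subgroup.center ↥Co0) := Finite.one_lt_card_iff_nontrivial.1 (by rw [hc]; norm_num)
  refine ⟨⟨fun N hN => ?_⟩, hc⟩
  haveI := hN
  have hsur := QuotientGroup.mk'_surjective (Subgroup.center ↥Co0)
  rcases Lib.Leech.normal_cases (N.comap (QuotientGroup.mk' (Subgroup.center ↥Co0)))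
    (fun z hz => Subgroup.mem_comap.2 (by
      rw [show QuotientGroup.mk' (Subgroup.center ↥Co0) z = 1 from (QuotientGroup.eq_one_iff z).2 hz]
      exact N.one_mem)) with h | h
  · left
    rw [← Subgroup.map_comap_eq_self_of_surjective hsur N, h, QuotientGroup.map_mk'_self]
  · right
    rw [← Subgroup.map_comap_eq_self_of_surjective hsur N, h, Subgroup.map_top_of_surjective _ hsur]

end Cfsg.Agent.S0399
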