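import Cfsg.Statements.S0402
import Cfsg.Agent.Lib.Leech.ConwayStab
-- import your own Cfsg.Agent.* helpers here

set_option autoImplicit false
open Cfsg

namespace Cfsg.Agent.S0402

/-- Stabiliser of a minimal vector is simple of order 42305421312000. -/
theorem result (v : Cfsg.leechLattice) (hv : Cfsg.sqNorm (v : Cfsg.GolayPt → ℤ) = 32) : Cfsg.IsCo2 (MulAction.stabilizer Cfsg.Co0 v) := by
  obtain ⟨g, hg⟩ := Lib.Leech.trans_min (v := v) (w := Lib.Leech.vThree) hv Lib.Leech.norm_vThree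
  obtain ⟨e⟩ := Lib.Leech.stab_equiv ⟨g, hg⟩
  exact ⟨haveI := Lib.Leech.co2_simple.1; e.isSimpleGroup, (Nat.card_congr e.toEquiv).trans Lib.Leech.co2_simple.2⟩

end Cfsg.Agent.S0402
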