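import Cfsg.Statements.S0403
import Cfsg.Agent.Lib.Leech.ConwayStab
-- import your own Cfsg.Agent.* helpers here

set_option autoImplicit false
open Cfsg

namespace Cfsg.Agent.S0403

/-- Stabiliser of a vector of sum of squares 48 is simple of order 495766656000. -/
theorem result (v : Cfsg.leechLattice) (hv : Cfsg.sqNorm (v : Cfsg.GolayPt → ℤ) = 48) : Cfsg.IsCo3 (MulAction.stabilizer Cfsg.Co0 v) := by
  obtain ⟨g, hg⟩ := Lib.Leech.trans_48 (v := v) (w := Lib.Leech.vFive) hv Lib.Leech.vFive_shape.1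
  obtain ⟨e⟩ := Lib.Leech.stab_equiv ⟨g, hg⟩
  exact ⟨haveI := Lib.Leech.co3_simple.1; e.isSimpleGroup, (Nat.card_congr e.toEquiv).trans Lib.Leech.co3_simple.2⟩

end Cfsg.Agent.S0403
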