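import Cfsg.Statements.S0404
import Cfsg.Agent.Lib.Leech.PairGroups
-- import your own Cfsg.Agent.* helpers here

set_option autoImplicit false
open Cfsg

namespace Cfsg.Agent.S0404

/-- Joint stabiliser of two minimal vectors with coordinate dot product −8 is simple of order 898128000. -/
theorem result (v w : Cfsg.leechLattice) (hv : Cfsg.sqNorm (v : Cfsg.GolayPt → ℤ) = 32) (hw : Cfsg.sqNorm (w : Cfsg.GolayPt → ℤ) = 32) (hvw : Cfsg.dotInt (v : Cfsg.GolayPt → ℤ) (w : Cfsg.GolayPt → ℤ) = -8) : Cfsg.IsMcL ↥(MulAction.stabilizer Cfsg.Co0 v ⊓ MulAction.stabilizer Cfsg.Co0 w) := by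
  have hu : sqNorm ((v + w : ↥leechLattice) : GolayPt → ℤ) = 48 := by rw [Lib.Leech.norm_add', hv, hw, hvw]; norm_num
  obtain ⟨c, hc⟩ := Lib.Leech.std_five hu
  have hm : v ∈ Lib.Leech.dotSet (v + w) 24 := by
    refine ⟨hv, ?_⟩
    have h2 : ∑ i, (v : GolayPt → ℤ) i * (v : GolayPt → ℤ) i = 32 := by simpa [sqNorm, pow_two] using hv
    simp only [dotInt] at hvw ⊢
    simp only [AddSubgroup.coe_add, Pi.add_apply, add_mul, Finset.sum_add_distrib, h2]
    rw [Finset.sum_congr rfl fun i _ => mul_comm ((w : GolayPt → ℤ) i) ((v : GolayPt → ℤ) i), hvw]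
    norm_num
  obtain ⟨g, hg, hgv⟩ := Lib.Leech.trans_pair (hc ▸ (Lib.Leech.mem_dotSet_smul c).2 hm)
  have e := (MulEquiv.subgroupCongr (Lib.Leech.inf_stab_add v w)).trans
    (Lib.Leech.pairConj (g⁻¹ * c) (a' := Lib.Leech.vFive) (b' := Lib.Leech.fourFour)
      (by rw [mul_smul, hc, inv_smul_eq_iff, hg]) (by rw [mul_smul, ← hgv, inv_smul_smul]))
  haveI : IsSimpleGroup ↥(MulAction.stabilizer ↥Co0 Lib.Leech.vFive ⊓ MulAction.stabilizer ↥Co0 Lib.Leech.fourFour) :=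
    Lib.Leech.mcl_simple.1
  exact ⟨e.isSimpleGroup, (Nat.card_congr e.toEquiv).trans Lib.Leech.mcl_simple.2⟩

end Cfsg.Agent.S0404
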