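import Cfsg.Statements.S0413
import Cfsg.Agent.Lib.Steiner.Unique

set_option autoImplicit false
open Cfsg

namespace Cfsg.Agent.S0413

/-- Aut of an S(4, 7, 23) is simple of order 10200960 and 4-transitive. -/
theorem result {α : Type*} [Fintype α] [DecidableEq α] (hα : Fintype.card α = 23) {B : Set (Finset α)} (hB : Cfsg.IsSteinerSystem 4 7 B) : Cfsg.IsM23 (Cfsg.setSystemAut B) ∧ MulAction.IsMultiplyPretransitive (Cfsg.setSystemAut B) α 4 := by
  obtain ⟨e, E, hE⟩ := Lib.Steiner.exists_autEquiv (Lib.Steiner.iso_blocks23 hα hB)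
  obtain ⟨F, hF⟩ := Lib.Steiner.autEquiv23
  refine ⟨⟨?_, ?_⟩, Lib.Steiner.pretransitive_transfer e E hE ?_⟩
  · have := Lib.Golay.st1_simple (none : Cfsg.GolayPt)
    exact (E.trans F).isSimpleGroup
  · rw [Nat.card_congr (E.trans F).toEquiv, Lib.Golay.st1_card]
  · rw [MulAction.isMultiplyPretransitive_iff]
    intro x y
    obtain ⟨σ, hσ, hs⟩ := Lib.Golay.exists_M24_map (k := 5) le_rfl
      (Fin.cons none fun i => some (x i)) (Fin.cons none fun i => some (y i))
      (Fin.cons_injective_iff.2 ⟨by simp, (Option.some_injective _).comp x.injective⟩)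
      (Fin.cons_injective_iff.2 ⟨by simp, (Option.some_injective _).comp y.injective⟩)
    have h0 : σ none = none := by simpa using hs 0
    refine ⟨F.symm ⟨σ, hσ, h0⟩, ?_⟩
    ext i
    have h1 : σ (some (x i)) = some (y i) := by simpa using hs i.succ
    have h2 := hF (F.symm ⟨σ, hσ, h0⟩) (x i)
    rw [F.apply_symm_apply] at h2
    exact Option.some_injective _ (h2.symm.trans h1)

end Cfsg.Agent.S0413
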