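import Cfsg.Statements.S0414
import Cfsg.Agent.Lib.Steiner.Unique22

set_option autoImplicit false
open Cfsg

namespace Cfsg.Agent.S0414

/-- Aut of an S(3, 6, 22) has order 887040, is 3-transitive, and contains a simple subgroup of index 2. -/
theorem result {α : Type*} [Fintype α] [DecidableEq α] (hα : Fintype.card α = 22) {B : Set (Finset α)} (hB : Cfsg.IsSteinerSystem 3 6 B) : Nat.card (Cfsg.setSystemAut B) = 887040 ∧ MulAction.IsMultiplyPretransitive (Cfsg.setSystemAut B) α 3 ∧ ∃ H : Subgroup (Cfsg.setSystemAut B), H.index = 2 ∧ Cfsg.IsM22 H := by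
  obtain ⟨e, E, hE⟩ := Lib.Steiner.exists_autEquiv (Lib.Steiner.iso_blocks22 hα hB)
  obtain ⟨F, hF⟩ := Lib.Steiner.autEquiv22
  let G := F.trans E.symm
  have hcard : Nat.card (Cfsg.setSystemAut B) = 887040 := by
    rw [← Nat.card_congr G.toEquiv, Lib.Steiner.stSet_pr_card]
  refine ⟨hcard, Lib.Steiner.pretransitive_transfer e E hE ?_, ?_⟩
  · rw [MulAction.isMultiplyPretransitive_iff]
    intro x y
    obtain ⟨σ, hσ, hs⟩ := Lib.Golay.exists_M24_map (k := 5) le_rfl
      (Fin.cons none (Fin.cons (some 0) fun i => (x i).1))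
      (Fin.cons none (Fin.cons (some 0) fun i => (y i).1))
      (by
        refine Fin.cons_injective_iff.2 ⟨?_, Fin.cons_injective_iff.2
          ⟨?_, Subtype.val_injective.comp x.injective⟩⟩
        · rintro ⟨i, hi⟩
          refine Fin.cases ?_ (fun j => ?_) i hi
          · simp
          · simpa using (Lib.Steiner.notMem_pr.1 (x j).2).1
        · rintro ⟨i, hi⟩
          exact (Lib.Steiner.notMem_pr.1 (x i).2).2 hi)
      (by
        refine Fin.cons_injective_iff.2 ⟨?_, Fin.cons_injective_iff.2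
          ⟨?_, Subtype.val_injective.comp y.injective⟩⟩
        · rintro ⟨i, hi⟩
          refine Fin.cases ?_ (fun j => ?_) i hi
          · simp
          · simpa using (Lib.Steiner.notMem_pr.1 (y j).2).1
        · rintro ⟨i, hi⟩
          exact (Lib.Steiner.notMem_pr.1 (y i).2).2 hi)
    have h0 : σ none = none := by simpa using hs 0
    have h1 : σ (some 0) = some 0 := by simpa using hs 1
    have hst : σ ∈ Lib.Golay.stSet Lib.Steiner.pr :=
      Lib.Steiner.st2_le_stSet ⟨⟨hσ, h0⟩, h1⟩
    refine ⟨F ⟨σ, hst⟩, ?_⟩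
    refine DFunLike.ext _ _ fun i => Subtype.ext ?_
    exact (hF ⟨σ, hst⟩ (x i)).trans (by simpa using hs i.succ.succ)
  · let K := (Lib.Golay.st2 none (some 0)).subgroupOf (Lib.Golay.stSet Lib.Steiner.pr)
    let ι : K ≃* Lib.Golay.st2 none (some 0) := Subgroup.subgroupOfEquivOfLe Lib.Steiner.st2_le_stSet
    let j := Subgroup.equivMapOfInjective K G.toMonoidHom G.injective
    have hs := Lib.Golay.st2_simple (p := none) (q := some 0) (by simp)
    have hH : Nat.card (K.map G.toMonoidHom) = 443520 := by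
      rw [← Nat.card_congr j.toEquiv, Nat.card_congr ι.toEquiv, Lib.Golay.st2_card (by simp)]
    refine ⟨K.map G.toMonoidHom, ?_, ?_, hH⟩
    · have h := Subgroup.index_mul_card (K.map G.toMonoidHom)
      rw [hH, hcard] at h
      omega
    · exact (j.symm.trans ι).isSimpleGroup

end Cfsg.Agent.S0414
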