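import Cfsg.Statements.S0420
import Cfsg.Agent.Lib.Points11.Unique

set_option autoImplicit false
open scoped Pointwise
open Cfsg

namespace Cfsg.Agent.S0420

/-- Simple groups of order 7920 are all isomorphic to the concrete smallest Mathieu group. -/
theorem result {G : Type*} [Group G] [Finite G] (hG : Cfsg.IsM11 G) (d : Finset Cfsg.GolayPt) (hd : d ∈ Cfsg.dodecads) (p : Cfsg.GolayPt) (hp : p ∈ d) : Nonempty (G ≃* ↥(MulAction.stabilizer Cfsg.M24 d ⊓ MulAction.stabilizer Cfsg.M24 p)) := by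
  haveI := hG.1
  obtain ⟨d0, hd0, p0, hp0, huniq⟩ := Cfsg.Agent.Lib.Points11.exists_equiv_standard.{u_1}
  obtain ⟨d1, hd1, p1, hp1, huniq'⟩ := Cfsg.Agent.Lib.Points11.exists_equiv_standard.{0}
  obtain ⟨e⟩ := huniq G hG.2
  haveI := Cfsg.Agent.Lib.Golay.stSetPt_simple hd hp
  haveI := Cfsg.Agent.Lib.Golay.stSetPt_simple hd0 hp0
  obtain ⟨e0⟩ := huniq' (Cfsg.Agent.Lib.Golay.stSetPt d0 p0) (Cfsg.Agent.Lib.Golay.stSetPt_card hd0 hp0)
  obtain ⟨e1⟩ := huniq' (Cfsg.Agent.Lib.Golay.stSetPt d p) (Cfsg.Agent.Lib.Golay.stSetPt_card hd hp)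
  exact ⟨((e.trans e0).trans e1.symm).trans (Cfsg.Agent.Lib.Golay.stabSetPtEquiv d p).symm⟩

end Cfsg.Agent.S0420
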