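import Cfsg.Statements.S0425
import Cfsg.Agent.Lib.Steiner.Unique12

set_option autoImplicit false
open Cfsg

namespace Cfsg.Agent.S0425

/-- Aut of an S(5, 6, 12) is simple of order 95040 and sharply 5-transitive on points. -/
theorem result {α : Type*} [Fintype α] [DecidableEq α] (hα : Fintype.card α = 12) {B : Set (Finset α)} (hB : Cfsg.IsSteinerSystem 5 6 B) : Cfsg.IsM12 (Cfsg.setSystemAut B) ∧ MulAction.IsMultiplyPretransitive (Cfsg.setSystemAut B) α 5 ∧ ∀ x : Fin 5 ↪ α, MulAction.stabilizer (Cfsg.setSystemAut B) x = ⊥ := by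
  obtain ⟨d, hd⟩ := Lib.Steiner.exists_dodecad
  obtain ⟨E⟩ := Lib.Steiner.aut12_equiv hα hB hd
  refine ⟨⟨?_, ?_⟩, Lib.Steiner.aut12_five hα hB,
    Lib.Steiner.stabilizer_bot fun σ hσ x h => Lib.Steiner.fix_five hα hB hσ x h⟩
  · have := Lib.Golay.stSet_simple hd
    exact E.isSimpleGroup
  · rw [Nat.card_congr E.toEquiv, Lib.Golay.stSet_dodecad_card hd]

end Cfsg.Agent.S0425
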