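import Cfsg.Statements.S0427
import Cfsg.Agent.Lib.Steiner.Graph

set_option autoImplicit false
open Cfsg

namespace Cfsg.Agent.S0427

/-- The block graph (adjacent = disjoint) of an S(3, 6, 22) is strongly regular with parameters (77, 16, 0, 4). -/
theorem result {α : Type*} [Fintype α] (hα : Fintype.card α = 22) {B : Set (Finset α)} (hB : Cfsg.IsSteinerSystem 3 6 B) [Fintype B] [DecidableRel (Cfsg.blockGraph B).Adj] : (Cfsg.blockGraph B).IsSRGWith 77 16 0 4 := by
  classical
  have hsum : ∀ (P : Finset α → Prop) [DecidablePred P],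
      (Finset.univ.filter fun e : B => P e).card = ((Lib.Steiner.blocks B).filter P).card := by
    intro P _
    refine Finset.card_bij (fun e _ => (e : Finset α)) ?_ ?_ ?_
    · intro e he; simp at he ⊢; exact he
    · intro a _ b _ h; exact Subtype.ext h
    · intro e he
      simp at he
      exact ⟨⟨e, he.1⟩, by simpa using he.2, rfl⟩
  have hadj : ∀ v w : B, (Cfsg.blockGraph B).Adj v w ↔ Disjoint (v : Finset α) w := by
    intro v w
    simp only [Cfsg.blockGraph, SimpleGraph.fromRel_adj]
    refine ⟨fun h => h.2.elim id fun h' => h'.symm, fun h => ⟨fun he => ?_, Or.inl h⟩⟩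
    subst he
    rw [disjoint_self, Finset.bot_eq_empty] at h
    have := hB.1 v v.2
    rw [h, Finset.card_empty] at this
    omega
  have hcn : ∀ v w : B, v ≠ w → Fintype.card ↑((Cfsg.blockGraph B).commonNeighbors v w) =
      2 * ((v : Finset α) ∩ w).card := by
    intro v w hvw
    rw [← Lib.Steiner.disjoint_both hα hB v.2 w.2 (fun h => hvw (Subtype.ext h)),
      ← hsum (fun e => Disjoint (v : Finset α) e ∧ Disjoint (w : Finset α) e), ← Set.toFinset_card]
    congr 1
    ext e
    simp [SimpleGraph.mem_commonNeighbors, hadj]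
  constructor
  · have h := hsum (fun _ => True)
    simp only [Finset.filter_true, Finset.card_univ] at h
    rw [h, Lib.Steiner.card22 hα hB]
  · intro v
    rw [← SimpleGraph.card_neighborFinset_eq_degree,
      ← Lib.Steiner.disjoint_self_count hα hB v.2, ← hsum (fun e => Disjoint (v : Finset α) e)]
    congr 1
    ext e
    simp [hadj]
  · intro v w h
    rw [hcn v w h.ne, Finset.disjoint_iff_inter_eq_empty.1 ((hadj v w).1 h)]
    rfl
  · intro v w hne h
    rw [hcn v w hne]
    rcases Lib.Steiner.inter22 hα hB v.2 w.2 (fun h => hne (Subtype.ext h)) with h' | h'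
    · exact absurd ((hadj v w).2 (by rw [Finset.disjoint_iff_inter_eq_empty, ← Finset.card_eq_zero, h'])) h
    · rw [h']

end Cfsg.Agent.S0427
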