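import Cfsg.Statements.S0428
import Cfsg.Agent.Lib.Steiner.Graph

set_option autoImplicit false
open Cfsg

namespace Cfsg.Agent.S0428

/-- The point-block graph of an S(3, 6, 22) is strongly regular with parameters (100, 22, 0, 6). -/
theorem result {α : Type*} [Fintype α] (hα : Fintype.card α = 22) {B : Set (Finset α)} (hB : Cfsg.IsSteinerSystem 3 6 B) [Fintype B] [DecidableRel (Cfsg.pointBlockGraph B).Adj] : (Cfsg.pointBlockGraph B).IsSRGWith 100 22 0 6 := by
  classical
  have hsum : ∀ (P : Option (α ⊕ B) → Prop) [DecidablePred P] (f : Finset α → Prop) [DecidablePred f],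
      (∀ e : B, P (some (Sum.inr e)) ↔ f e) →
      (Finset.univ.filter P).card = (if P none then 1 else 0) +
        ((Finset.univ.filter fun a => P (some (Sum.inl a))).card + ((Lib.Steiner.blocks B).filter f).card) := by
    intro P _ f _ hf
    rw [Finset.card_filter, Fintype.sum_option, Fintype.sum_sum_type, ← Finset.card_filter, ← Finset.card_filter]
    congr 2
    refine Finset.card_bij (fun e _ => (e : Finset α)) ?_ ?_ ?_
    · intro e he
      simp only [Finset.mem_filter, Finset.mem_univ, true_and, Lib.Steiner.mem_blocks] at he ⊢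
      exact ⟨e.2, (hf e).1 he⟩
    · intro a _ b _ h; exact Subtype.ext h
    · intro e he
      simp only [Finset.mem_filter, Finset.mem_univ, true_and, Lib.Steiner.mem_blocks] at he ⊢
      exact ⟨⟨e, he.1⟩, (hf _).2 he.2, rfl⟩
  have hne : ∀ e : B, ¬ Disjoint (e : Finset α) e := fun e h => by
    rw [disjoint_self, Finset.bot_eq_empty] at h
    have := hB.1 e e.2
    rw [h, Finset.card_empty] at this
    omega
  have nn : ¬ (Cfsg.pointBlockGraph B).Adj none none := (Cfsg.pointBlockGraph B).irrefl
  have np : ∀ a, (Cfsg.pointBlockGraph B).Adj none (some (Sum.inl a)) := fun a => by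
    simp [Cfsg.pointBlockGraph, SimpleGraph.fromRel_adj, Cfsg.pointBlockRel]
  have nb : ∀ e : B, ¬ (Cfsg.pointBlockGraph B).Adj none (some (Sum.inr e)) := fun e => by
    simp [Cfsg.pointBlockGraph, SimpleGraph.fromRel_adj, Cfsg.pointBlockRel]
  have pp : ∀ a a', ¬ (Cfsg.pointBlockGraph B).Adj (some (Sum.inl a)) (some (Sum.inl a')) := fun a a' => by
    simp [Cfsg.pointBlockGraph, SimpleGraph.fromRel_adj, Cfsg.pointBlockRel]
  have pb : ∀ a (e : B), (Cfsg.pointBlockGraph B).Adj (some (Sum.inl a)) (some (Sum.inr e)) ↔ a ∈ (e : Finset α) := fun a e => by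
    simp [Cfsg.pointBlockGraph, SimpleGraph.fromRel_adj, Cfsg.pointBlockRel]
  have bb : ∀ e e' : B, (Cfsg.pointBlockGraph B).Adj (some (Sum.inr e)) (some (Sum.inr e')) ↔ Disjoint (e : Finset α) e' := by
    intro e e'
    simp only [Cfsg.pointBlockGraph, SimpleGraph.fromRel_adj, Cfsg.pointBlockRel, ne_eq,
      Option.some.injEq, Sum.inr.injEq]
    exact ⟨fun h => h.2.elim id fun h' => h'.symm, fun h => ⟨fun he => hne e (he ▸ h), Or.inl h⟩⟩
  have pn : ∀ a, (Cfsg.pointBlockGraph B).Adj (some (Sum.inl a)) none := fun a => (np a).symm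
  have bn : ∀ e : B, ¬ (Cfsg.pointBlockGraph B).Adj (some (Sum.inr e)) none := fun e h => nb e h.symm
  have bp : ∀ (e : B) a, (Cfsg.pointBlockGraph B).Adj (some (Sum.inr e)) (some (Sum.inl a)) ↔ a ∈ (e : Finset α) := fun e a =>
    ⟨fun h => (pb a e).1 h.symm, fun h => ((pb a e).2 h).symm⟩
  have cs : ∀ v w, Fintype.card ↑((Cfsg.pointBlockGraph B).commonNeighbors v w) =
      (Finset.univ.filter fun z => (Cfsg.pointBlockGraph B).Adj v z ∧ (Cfsg.pointBlockGraph B).Adj w z).card := fun v w => by
    rw [← Set.toFinset_card]; congr 1; ext z; simp [SimpleGraph.mem_commonNeighbors]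
  have ds : ∀ v, (Cfsg.pointBlockGraph B).degree v = (Finset.univ.filter fun z => (Cfsg.pointBlockGraph B).Adj v z).card := fun v => by
    rw [← SimpleGraph.card_neighborFinset_eq_degree]; congr 1; ext z; simp
  have csym : ∀ v w, Fintype.card ↑((Cfsg.pointBlockGraph B).commonNeighbors v w) =
      Fintype.card ↑((Cfsg.pointBlockGraph B).commonNeighbors w v) := fun v w => by
    rw [cs, cs]; exact congrArg Finset.card (Finset.filter_congr fun z _ => and_comm)
  have hmem : ∀ e : B, (Finset.univ.filter fun a => a ∈ (e : Finset α)).card = 6 := fun e => by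
    rw [Finset.filter_univ_mem]; exact hB.1 e e.2
  have hFF : ((Lib.Steiner.blocks B).filter fun _ => False).card = 0 := by simp
  -- the six kinds of pairs
  have c_np : ∀ a, Fintype.card ↑((Cfsg.pointBlockGraph B).commonNeighbors none (some (Sum.inl a))) = 0 := fun a => by
    rw [cs, hsum _ (fun _ => False) (fun e => by simp [nb])]
    simp [nn, pp]
  have c_nb : ∀ e : B, Fintype.card ↑((Cfsg.pointBlockGraph B).commonNeighbors none (some (Sum.inr e))) = 6 := fun e => by
    rw [cs, hsum _ (fun _ => False) (fun e' => by simp [nb]), hFF, if_neg (fun h => nn h.1)]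
    simpa [np, bp] using hmem e
  have c_pp : ∀ a a', a ≠ a' → Fintype.card ↑((Cfsg.pointBlockGraph B).commonNeighbors (some (Sum.inl a)) (some (Sum.inl a'))) = 6 :=
    fun a a' h => by
    rw [cs, hsum _ (fun c => a ∈ c ∧ a' ∈ c) (fun e => by simp [pb]), if_pos ⟨pn a, pn a'⟩,
      Lib.Steiner.through2 hα hB h]
    simp [pp]
  have c_pb : ∀ a (e : B), Fintype.card ↑((Cfsg.pointBlockGraph B).commonNeighbors (some (Sum.inl a)) (some (Sum.inr e))) =
      if a ∈ (e : Finset α) then 0 else 6 := fun a e => by
    rw [cs, hsum _ (fun c => a ∈ c ∧ Disjoint (e : Finset α) c) (fun e' => by simp [pb, bb]),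
      if_neg (fun h => bn e h.2), Lib.Steiner.through_disjoint hα hB e.2]
    simp [pp]
  have c_bb : ∀ e e' : B, e ≠ e' → Fintype.card ↑((Cfsg.pointBlockGraph B).commonNeighbors (some (Sum.inr e)) (some (Sum.inr e'))) =
      3 * ((e : Finset α) ∩ e').card := fun e e' h => by
    rw [cs, hsum _ (fun c => Disjoint (e : Finset α) c ∧ Disjoint (e' : Finset α) c) (fun c => by simp [bb]),
      if_neg (fun h => bn e h.1), Lib.Steiner.disjoint_both hα hB e.2 e'.2 (fun he => h (Subtype.ext he))]
    have : (Finset.univ.filter fun a => (Cfsg.pointBlockGraph B).Adj (some (Sum.inr e)) (some (Sum.inl a)) ∧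
        (Cfsg.pointBlockGraph B).Adj (some (Sum.inr e')) (some (Sum.inl a))) = (e : Finset α) ∩ e' := by
      ext a; simp [bp]
    rw [this]; ring
  refine { card := ?_, regular := ?_, of_adj := ?_, of_not_adj := ?_ }
  · have h := hsum (fun _ => True) (fun _ => True) (fun _ => Iff.rfl)
    simp only [Finset.filter_true, Finset.card_univ, if_true, Lib.Steiner.card22 hα hB, hα] at h
    exact h
  · rintro (_ | a | e)
    · rw [ds, hsum _ (fun _ => False) (fun e => by simp [nb]), hFF, if_neg nn]
      simp [np, hα]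
    · rw [ds, hsum _ (fun c => a ∈ c) (fun e => pb a e), if_pos (pn a), Lib.Steiner.through1 hα hB a]
      simp [pp]
    · rw [ds, hsum _ (fun c => Disjoint (e : Finset α) c) (fun c => bb e c), if_neg (bn e),
        Lib.Steiner.disjoint_self_count hα hB e.2]
      simp [bp, hB.1 e e.2]
  · intro v w h
    rcases v with _ | a | e <;> rcases w with _ | a' | e'
    · exact absurd h nn
    · exact c_np a'
    · exact absurd h (nb e')
    · rw [csym]; exact c_np a
    · exact absurd h (pp a a')
    · rw [c_pb, if_pos ((pb a e').1 h)]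
    · exact absurd h (bn e)
    · rw [csym, c_pb, if_pos ((bp e a').1 h)]
    · rw [c_bb e e' (fun he => h.ne (by rw [he])), Finset.disjoint_iff_inter_eq_empty.1 ((bb e e').1 h)]
      rfl
  · intro v w hvw h
    rcases v with _ | a | e <;> rcases w with _ | a' | e'
    · exact absurd rfl hvw
    · exact absurd (np a') h
    · exact c_nb e'
    · exact absurd (pn a) h
    · exact c_pp a a' (fun he => hvw (by rw [he]))
    · rw [c_pb, if_neg (fun hm => h ((pb a e').2 hm))]
    · rw [csym]; exact c_nb e
    · rw [csym, c_pb, if_neg (fun hm => h ((bp e a').2 hm))]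
    · have hee : e ≠ e' := fun he => hvw (by rw [he])
      rw [c_bb e e' hee]
      rcases Lib.Steiner.inter22 hα hB e.2 e'.2 (fun he => hee (Subtype.ext he)) with h' | h'
      · exact absurd ((bb e e').2 (by rw [Finset.disjoint_iff_inter_eq_empty, ← Finset.card_eq_zero, h'])) h
      · rw [h']

end Cfsg.Agent.S0428
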