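import Cfsg.Statements.S0429
import Cfsg.Agent.Lib.SRG77.Unique

set_option autoImplicit false
open Cfsg

namespace Cfsg.Agent.S0429

/-- Uniqueness of the strongly regular graph with parameters (77, 16, 0, 4). -/
theorem result {V W : Type*} [Fintype V] [Fintype W] {G : SimpleGraph V} {H : SimpleGraph W} [DecidableRel G.Adj] [DecidableRel H.Adj] (hG : G.IsSRGWith 77 16 0 4) (hH : H.IsSRGWith 77 16 0 4) : Nonempty (G ≃g H) := by
  classical
  obtain ⟨E, hE⟩ := Cfsg.Agent.Lib.SRG77.exists_model_equiv hG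
  obtain ⟨F, hF⟩ := Cfsg.Agent.Lib.SRG77.exists_model_equiv hH
  exact ⟨⟨E.symm.trans F, fun {a b} => by
    simpa using (hF (E.symm a) (E.symm b)).trans (hE (E.symm a) (E.symm b)).symm⟩⟩

end Cfsg.Agent.S0429
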