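import Cfsg.Statements.S0430
import Cfsg.Agent.Lib.Steiner.SrgHundred
import Cfsg.Agent.Lib.Steiner.Unique22
-- import your own Cfsg.Agent.* helpers here

set_option autoImplicit false
open Cfsg

namespace Cfsg.Agent.S0430

open Lib.Steiner in
theorem std {V : Type*} [Fintype V] {G : SimpleGraph V} [DecidableRel G.Adj] (hG : G.IsSRGWith 100 22 0 6) :
    Nonempty (Cfsg.pointBlockGraph blocks22 ≃g G) := by
  classical
  obtain ⟨v₀⟩ : Nonempty V := Fintype.card_pos_iff.1 (by rw [hG.card]; norm_num)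
  obtain ⟨i⟩ := srg_iso hG v₀
  obtain ⟨e, he⟩ := iso_blocks22 (card_near hG v₀) (blk_steiner hG v₀)
  exact ⟨(pbIso e he).symm.trans i⟩

/-- Uniqueness of the strongly regular graph with parameters (100, 22, 0, 6). -/
theorem result {V W : Type*} [Fintype V] [Fintype W] {G : SimpleGraph V} {H : SimpleGraph W} [DecidableRel G.Adj] [DecidableRel H.Adj] (hG : G.IsSRGWith 100 22 0 6) (hH : H.IsSRGWith 100 22 0 6) : Nonempty (G ≃g H) := by
  obtain ⟨e⟩ := std hG
  obtain ⟨f⟩ := std hH
  exact ⟨e.symm.trans f⟩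

end Cfsg.Agent.S0430
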