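import Cfsg.Statements.S0439

set_option autoImplicit false
open Cfsg

namespace Cfsg.Agent.S0439

/-- In the symmetric group of degree n ≥ 2, the set of transpositions is a conjugacy class of 3-transpositions which generates the group. -/
theorem result (n : ℕ) (hn : 2 ≤ n) : Cfsg.IsThreeTranspositionClass {σ : Equiv.Perm (Fin n) | σ.IsSwap} := by
  classical
  refine ⟨⟨?_, ?_⟩, ?_, Equiv.Perm.closure_isSwap⟩
  · rintro d ⟨x, y, hxy, rfl⟩
    exact Equiv.Perm.IsSwap.orderOf ⟨x, y, hxy, rfl⟩
  · rintro d ⟨x, y, hxy, rfl⟩ e ⟨u, v, huv, rfl⟩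
    by_cases h1 : x = u
    · subst h1
      by_cases h2 : y = v
      · subst h2; left; simp
      · right
        have := (Equiv.Perm.isThreeCycle_swap_mul_swap_same hxy huv h2).orderOf
        rw [← this, pow_orderOf_eq_one]
    by_cases h2 : x = v
    · subst h2
      rw [Equiv.swap_comm u]
      by_cases h3 : y = u
      · subst h3; left; simp
      · right
        have := (Equiv.Perm.isThreeCycle_swap_mul_swap_same hxy huv.symm h3).orderOf
        rw [← this, pow_orderOf_eq_one]
    by_cases h3 : y = u
    · subst h3
      rw [Equiv.swap_comm x]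
      right
      have := (Equiv.Perm.isThreeCycle_swap_mul_swap_same hxy.symm huv h2).orderOf
      rw [← this, pow_orderOf_eq_one]
    by_cases h4 : y = v
    · subst h4
      rw [Equiv.swap_comm x, Equiv.swap_comm u]
      right
      have := (Equiv.Perm.isThreeCycle_swap_mul_swap_same hxy.symm huv.symm h1).orderOf
      rw [← this, pow_orderOf_eq_one]
    · left
      have hd : Equiv.Perm.Disjoint (Equiv.swap x y) (Equiv.swap u v) := by
        intro z
        by_cases hz : z = x ∨ z = y
        · right
          rcases hz with rfl | rfl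
          · exact Equiv.swap_apply_of_ne_of_ne h1 h2
          · exact Equiv.swap_apply_of_ne_of_ne h3 h4
        · left
          push Not at hz
          exact Equiv.swap_apply_of_ne_of_ne hz.1 hz.2
      rw [hd.commute.mul_pow]
      simp [sq]
  · refine ⟨Equiv.swap ⟨0, by omega⟩ ⟨1, by omega⟩, ⟨_, _, by simp, rfl⟩, ?_⟩
    ext s
    constructor
    · rintro ⟨x, y, hxy, rfl⟩
      exact Equiv.Perm.isConj_swap (by simp) hxy
    · intro hs
      obtain ⟨c, hc⟩ := isConj_iff.1 hs
      rw [← hc, ← Equiv.swap_apply_apply]
      exact ⟨_, _, by simp, rfl⟩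

end Cfsg.Agent.S0439
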