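import Cfsg.Statements.S0440
import Cfsg.Agent.Lib.Classical.TransTwo

set_option autoImplicit false
open Cfsg

namespace Cfsg.Agent.S0440

/-- In the symplectic group in dimension 2n ≥ 2 over the field with two elements, the elements g for which g - 1 has rank one (the symplectic transvections) form a conjugacy class of 3-transpositions generating the group. -/
theorem result (n : ℕ) (hn : 1 ≤ n) : Cfsg.IsThreeTranspositionClass {g : Matrix.symplecticGroup (Fin n) (ZMod 2) | ((g : Matrix (Fin n ⊕ Fin n) (Fin n ⊕ Fin n) (ZMod 2)) - 1).rank = 1} := by
  exact Cfsg.Agent.Lib.Classical.TransTwo.symp_class n hn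

end Cfsg.Agent.S0440
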