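import Cfsg.Statements.S0442
import Mathlib

set_option autoImplicit false
open Cfsg

namespace Cfsg.Agent.S0442

theorem pow_mul_swap {G : Type*} [Group G] (a b : G) (m : ℕ) : (a * b) ^ m * a = a * (b * a) ^ m := by
  induction m with
  | zero => simp
  | succ m ih => rw [pow_succ', mul_assoc, ih, pow_succ']; simp only [mul_assoc]

theorem odd_case {G : Type*} [Group G] (a b : G) (aa : a * a = 1) (bb : b * b = 1) (m : ℕ)
    (h : (a * b) ^ (2 * m + 1) = 1) : b * (a * b) ^ m = (a * b) ^ m * a := by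
  have h2 : (a * b) ^ (m + 1) * (a * b) ^ m = 1 := by rw [← pow_add, show m + 1 + m = 2 * m + 1 by ring, h]
  have hi : (a * b)⁻¹ = b * a := by
    rw [mul_inv_rev, inv_eq_of_mul_eq_one_right aa, inv_eq_of_mul_eq_one_right bb]
  rw [pow_mul_swap, ← hi, inv_pow, ← eq_inv_of_mul_eq_one_left h2, pow_succ', mul_assoc a b,
    ← mul_assoc a a, aa, one_mul]

theorem even_case {G : Type*} [Group G] (a b : G) (aa : a * a = 1) (bb : b * b = 1) (m : ℕ)
    (h : (a * b) ^ (2 * m) = 1) : Commute ((a * b) ^ m) a := by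
  have hi : (a * b)⁻¹ = b * a := by
    rw [mul_inv_rev, inv_eq_of_mul_eq_one_right aa, inv_eq_of_mul_eq_one_right bb]
  have h2 : (a * b) ^ m * (a * b) ^ m = 1 := by rw [← pow_add, ← two_mul, h]
  show _ * a = a * _
  rw [pow_mul_swap, ← hi, inv_pow, ← eq_inv_of_mul_eq_one_left h2]

/-- A standard trick for producing elements of an involution centraliser: for an involution a and an element g, let b be the conjugate g⁻¹ * a * g. If a * b has odd order 2m + 1 then g * (a * b) ^ m commutes with a; if a * b has even order 2m then (a * b) ^ m and (a * (g * a * g⁻¹)) ^ m commute with a. -/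
theorem result {G : Type*} [Group G] (a g : G) (ha : orderOf a = 2) : (∀ m : ℕ, orderOf (a * (g⁻¹ * a * g)) = 2 * m + 1 → Commute (g * (a * (g⁻¹ * a * g)) ^ m) a) ∧ (∀ m : ℕ, orderOf (a * (g⁻¹ * a * g)) = 2 * m → Commute ((a * (g⁻¹ * a * g)) ^ m) a ∧ Commute ((a * (g * a * g⁻¹)) ^ m) a) := by
  have aa : a * a = 1 := by rw [← sq, ← ha, pow_orderOf_eq_one]
  have bb : g⁻¹ * a * g * (g⁻¹ * a * g) = 1 := by
    calc _ = g⁻¹ * (a * a) * g := by group
      _ = 1 := by rw [aa]; group
  refine ⟨fun m hm => ?_, fun m hm => ⟨?_, ?_⟩⟩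
  · have := odd_case a _ aa bb m (by rw [← hm, pow_orderOf_eq_one])
    show _ * a = a * _
    rw [mul_assoc, ← this]
    group
  · exact even_case a _ aa bb m (by rw [← hm, pow_orderOf_eq_one])
  · refine even_case a _ aa ?_ m ?_
    · calc _ = g * (a * a) * g⁻¹ := by group
        _ = 1 := by rw [aa]; group
    · have ai := inv_eq_of_mul_eq_one_right aa
      have e1 : a * (g * a * g⁻¹) = (g * (a * (g⁻¹ * a * g)) * g⁻¹)⁻¹ := by
        simp only [mul_inv_rev, inv_inv, ai, mul_assoc, mul_inv_cancel_left]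
      rw [e1, inv_pow, conj_pow, ← hm, pow_orderOf_eq_one]
      simp

end Cfsg.Agent.S0442
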