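import Cfsg.Statements.S0443

set_option autoImplicit false
open Cfsg

namespace Cfsg.Agent.S0443

/-- Two definitions of a 2-central involution agree: an element t of order 2 of a finite group lies in the centre of some Sylow 2-subgroup if and only if its centraliser contains some Sylow 2-subgroup. -/
theorem result {G : Type*} [Group G] [Finite G] (t : G) (ht : orderOf t = 2) : Cfsg.IsTwoCentralInvolution t ↔ ∃ P : Sylow 2 G, (P : Subgroup G) ≤ Subgroup.centralizer ({t} : Set G) := by
  constructor
  · rintro ⟨-, P, -, hP⟩
    exact ⟨P, fun x hx => Subgroup.mem_centralizer_singleton_iff.2 (hP x hx)⟩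
  · rintro ⟨P, hP⟩
    refine ⟨ht, P, ?_, fun x hx => Subgroup.mem_centralizer_singleton_iff.1 (hP hx)⟩
    have hQ : IsPGroup 2 (Subgroup.zpowers t) :=
      IsPGroup.of_card (n := 1) (by rw [Nat.card_zpowers, ht, pow_one])
    have hN : Subgroup.zpowers t ≤ Subgroup.normalizer ((P : Subgroup G) : Set G) := by
      rw [Subgroup.zpowers_le, Subgroup.mem_normalizer_iff]
      intro x
      constructor
      · intro hx
        have := Subgroup.mem_centralizer_singleton_iff.1 (hP hx)
        rwa [← this, mul_inv_cancel_right]
      · intro hx
        have := Subgroup.mem_centralizer_singleton_iff.1 (hP hx)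
        have h2 : x = t * x * t⁻¹ := by
          rw [mul_assoc (t * x), inv_mul_cancel, mul_one] at this
          calc x = t⁻¹ * (t * x) := by group
            _ = t⁻¹ * (t * (t * x * t⁻¹)) := by rw [← this]
            _ = t * x * t⁻¹ := by group
        rwa [h2]
    have hsup := hQ.to_sup_of_normal_right' P.2 hN
    have := P.3 hsup le_sup_right
    show t ∈ (P : Subgroup G)
    rw [← this]
    exact le_sup_left (a := Subgroup.zpowers t) (Subgroup.mem_zpowers t)

end Cfsg.Agent.S0443
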