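import Cfsg.Statements.S0444
import Cfsg.Agent.Lib.ThreeTrans

set_option autoImplicit false
open Cfsg

namespace Cfsg.Agent.S0444

/-- The action of the dihedral group of order 6 on three points. -/
def dihAct : DihedralGroup 3 → Equiv.Perm (Fin 3)
  | DihedralGroup.r i => (finRotate 3) ^ i.val
  | DihedralGroup.sr i => Equiv.swap 0 1 * (finRotate 3) ^ i.val

theorem dihAct_mul : ∀ x y : DihedralGroup 3, dihAct (x * y) = dihAct x * dihAct y := by
  intro x y; cases x <;> cases y <;> rename_i i j <;> revert i j <;> decide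

theorem dihedral_equiv : Nonempty (DihedralGroup 3 ≃* Equiv.Perm (Fin 3)) := by
  refine ⟨MulEquiv.ofBijective (MonoidHom.mk' dihAct dihAct_mul) ?_⟩
  refine (Fintype.bijective_iff_injective_and_card _).2 ⟨?_, by simp [DihedralGroup.card, Fintype.card_perm, Nat.factorial]⟩
  rw [injective_iff_map_eq_one]
  intro x; cases x <;> rename_i i <;> revert i <;> decide

/-- Two members of a set of 3-transpositions which do not commute generate a subgroup isomorphic to the symmetric group on three letters. -/
theorem result {G : Type*} [Group G] {E : Set G} (hE : Cfsg.IsThreeTranspositionSet E) {d e : G} (hd : d ∈ E) (he : e ∈ E) (h : ¬ Commute d e) : Nonempty (Subgroup.closure ({d, e} : Set G) ≃* Equiv.Perm (Fin 3)) := by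
  obtain ⟨eqv⟩ := dihedral_equiv
  have dd := Lib.ThreeTrans.mul_self_eq_one hE hd
  have ee := Lib.ThreeTrans.mul_self_eq_one hE he
  have h3 := Lib.ThreeTrans.pow_three_of_not_commute hE hd he h
  obtain ⟨x, hx⟩ : ∃ x, x = d * e := ⟨_, rfl⟩
  rw [← hx] at h3
  have dd' : ∀ y : G, d * (d * y) = y := fun y => by rw [← mul_assoc, dd, one_mul]
  have hxd : x * d = d * x ^ 2 := by
    have h4 : x * (d * (d * x ^ 2)) = 1 := by rw [dd', ← pow_succ', h3]
    have hinv : x * d = d * x⁻¹ := by
      rw [hx, mul_inv_rev, Lib.ThreeTrans.inv_eq_self hE hd, Lib.ThreeTrans.inv_eq_self hE he,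
        mul_assoc]
    rw [hinv]
    congr 1
    apply inv_eq_of_mul_eq_one_right
    rw [← pow_succ', h3]
  have hpd : ∀ n : ℕ, x ^ n * d = d * x ^ (2 * n) := by
    intro n
    induction n with
    | zero => simp
    | succ n ih =>
      rw [pow_succ, mul_assoc, hxd, ← mul_assoc, ih, mul_assoc, ← pow_add]
      congr 2
  have hmod : ∀ n k : ℕ, n % 3 = k % 3 → x ^ n = x ^ k := by
    intro n k hnk
    rw [pow_eq_pow_mod n h3, pow_eq_pow_mod k h3, hnk]
  have hsub : ∀ i j : ZMod 3, (j - i).val = (2 * i.val + j.val) % 3 := by decide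
  have hadd : ∀ i j : ZMod 3, (i + j).val = (i.val + j.val) % 3 := by decide
  let f : DihedralGroup 3 → G := fun z => match z with
    | DihedralGroup.r i => x ^ i.val
    | DihedralGroup.sr i => d * x ^ i.val
  have hf : ∀ y z : DihedralGroup 3, f (y * z) = f y * f z := by
    rintro (i | i) (j | j)
    · show x ^ (i + j).val = x ^ i.val * x ^ j.val
      rw [← pow_add]; apply hmod; rw [hadd]; omega
    · show d * x ^ (j - i).val = x ^ i.val * (d * x ^ j.val)
      rw [← mul_assoc, hpd, mul_assoc, ← pow_add]
      congr 1; apply hmod; rw [hsub]; omega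
    · show d * x ^ (i + j).val = d * x ^ i.val * x ^ j.val
      rw [mul_assoc, ← pow_add]; congr 1; apply hmod; rw [hadd]; omega
    · show x ^ (j - i).val = d * x ^ i.val * (d * x ^ j.val)
      rw [mul_assoc, ← mul_assoc (x ^ i.val), hpd, mul_assoc, dd', ← pow_add]
      apply hmod; rw [hsub]; omega
  let φ : DihedralGroup 3 →* G := MonoidHom.mk' f hf
  have hxne : x ≠ 1 := by
    intro h1
    apply h
    rw [hx] at h1
    rw [eq_inv_of_mul_eq_one_left h1]
    exact (Commute.refl e).inv_left
  have hord : orderOf x = 3 := orderOf_eq_prime h3 hxne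
  have hinj : Function.Injective φ := by
    rw [injective_iff_map_eq_one]
    rintro (i | i) hi
    · change x ^ i.val = 1 at hi
      have h0 : orderOf x ∣ i.val := orderOf_dvd_of_pow_eq_one hi
      rw [hord] at h0
      have h0' : i = 0 := by
        apply ZMod.val_injective
        rw [ZMod.val_zero]
        exact Nat.eq_zero_of_dvd_of_lt h0 i.val_lt
      subst h0'; rfl
    · exfalso
      change d * x ^ i.val = 1 at hi
      apply h
      have hdx : Commute d x := by
        rw [eq_inv_of_mul_eq_one_left hi]
        exact ((Commute.refl x).pow_left _).inv_left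
      have h5 : d * (d * e) = d * e * d := by rw [← hx]; exact hdx.eq
      rw [dd'] at h5
      calc d * e = d * (d * e * d) := by rw [← h5]
        _ = e * d := by simp only [mul_assoc, dd']
  have hrange : φ.range = Subgroup.closure ({d, e} : Set G) := by
    apply le_antisymm
    · have hdm : d ∈ Subgroup.closure ({d, e} : Set G) := Subgroup.subset_closure (by simp)
      have hem : e ∈ Subgroup.closure ({d, e} : Set G) := Subgroup.subset_closure (by simp)
      have hxm : x ∈ Subgroup.closure ({d, e} : Set G) := by rw [hx]; exact mul_mem hdm hem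
      rintro _ ⟨(i | i), rfl⟩
      · exact pow_mem hxm _
      · exact mul_mem hdm (pow_mem hxm _)
    · rw [Subgroup.closure_le]
      rintro y (rfl | rfl)
      · exact ⟨DihedralGroup.sr 0, by show y * x ^ (0 : ZMod 3).val = y; simp⟩
      · refine ⟨DihedralGroup.sr 1, ?_⟩
        show d * x ^ (1 : ZMod 3).val = y
        rw [show (1 : ZMod 3).val = 1 from rfl, pow_one, hx, dd']
  exact ⟨((MulEquiv.subgroupCongr hrange).symm.trans (MonoidHom.ofInjective hinj).symm).trans eqv⟩

end Cfsg.Agent.S0444
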