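import Cfsg.Statements.S0445
import Mathlib.LinearAlgebra.Matrix.GeneralLinearGroup.Card
import Mathlib.Algebra.Field.ZMod

set_option autoImplicit false
open Cfsg

namespace Cfsg.Agent.S0445

open Matrix

lemma z2 (x : ZMod 2) (hx : x ≠ 0) : x = 1 := by revert hx; revert x; decide

lemma comm_iff (g : Matrix (Fin 5) (Fin 5) (ZMod 2)) :
    g * transvection 0 1 1 = transvection 0 1 1 * g ↔
      (∀ i, i ≠ 0 → g i 0 = 0) ∧ (∀ j, j ≠ 1 → g 1 j = 0) ∧ g 0 0 = g 1 1 := by
  constructor
  · intro h
    refine ⟨fun i hi => ?_, fun j hj => ?_, ?_⟩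
    · have := congrFun (congrFun h i) 1
      rw [mul_transvection_apply_same, transvection_mul_apply_of_ne _ _ _ _ hi] at this
      simpa using this
    · have := congrFun (congrFun h 0) j
      rw [transvection_mul_apply_same, mul_transvection_apply_of_ne _ _ _ _ hj] at this
      simpa using this.symm
    · have := congrFun (congrFun h 0) 1
      rw [transvection_mul_apply_same, mul_transvection_apply_same] at this
      simpa using this
  · rintro ⟨hc, hr, hd⟩
    ext i j
    by_cases hi : i = 0 <;> by_cases hj : j = 1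
    · subst hi; subst hj
      rw [transvection_mul_apply_same, mul_transvection_apply_same, hd]
    · subst hi
      rw [transvection_mul_apply_same, mul_transvection_apply_of_ne _ _ _ _ hj, hr j hj]
      simp
    · subst hj
      rw [transvection_mul_apply_of_ne _ _ _ _ hi, mul_transvection_apply_same, hc i hi]
      simp
    · rw [transvection_mul_apply_of_ne _ _ _ _ hi, mul_transvection_apply_of_ne _ _ _ _ hj]

def mid (g : Matrix (Fin 5) (Fin 5) (ZMod 2)) : Matrix (Fin 3) (Fin 3) (ZMod 2) :=
  g.submatrix (fun i => i.succ.succ) (fun i => i.succ.succ)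

lemma det_eq (g : Matrix (Fin 5) (Fin 5) (ZMod 2)) (hc : ∀ i, i ≠ 0 → g i 0 = 0)
    (hr : ∀ j, j ≠ 1 → g 1 j = 0) : g.det = g 0 0 * g 1 1 * (mid g).det := by
  rw [det_succ_column_zero, Finset.sum_eq_single 0 ?_ (by simp)]
  · rw [det_succ_row_zero, Finset.sum_eq_single 0 ?_ (by simp)]
    · simp [mid, Matrix.submatrix_submatrix, Function.comp_def, mul_assoc]
    · intro j _ hj
      have : g 1 (Fin.succ j) = 0 := hr _ (by
        intro e; exact hj (Fin.succ_injective _ (e.trans (by rfl))))
      simp [this]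
  · intro i _ hi
    simp [hc i hi]

def build (u : Fin 4 → ZMod 2) (v : Fin 3 → ZMod 2) (M : Matrix (Fin 3) (Fin 3) (ZMod 2)) :
    Matrix (Fin 5) (Fin 5) (ZMod 2) :=
  Matrix.of (Fin.cons (Fin.cons 1 u) (Fin.cons ![0, 1, 0, 0, 0]
    (fun i => Fin.cons 0 (Fin.cons (v i) (M i)))))

lemma build_col (u v M) : ∀ i, i ≠ 0 → build u v M i 0 = 0 := by
  intro i; fin_cases i <;> simp [build] <;> rfl

lemma build_row (u v M) : ∀ j, j ≠ 1 → build u v M 1 j = 0 := by
  intro j; fin_cases j <;> simp [build] <;> rfl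

noncomputable def equivParam :
    {g : SpecialLinearGroup (Fin 5) (ZMod 2) //
      g.1 * transvection (0 : Fin 5) 1 (1 : ZMod 2) = transvection 0 1 1 * g.1} ≃
      (Fin 4 → ZMod 2) × (Fin 3 → ZMod 2) × GeneralLinearGroup (Fin 3) (ZMod 2) where
  toFun g := (fun j => g.1.1 0 j.succ,
    fun i => g.1.1 i.succ.succ 1,
    GeneralLinearGroup.mk'' (mid g.1.1) (by
      obtain ⟨hc, hr, -⟩ := (comm_iff _).1 g.2
      have h := g.1.2
      rw [det_eq _ hc hr] at h
      exact isUnit_iff_exists_inv'.2 ⟨_, h⟩))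
  invFun p := ⟨⟨build p.1 p.2.1 (p.2.2 : Matrix _ _ (ZMod 2)), by
      rw [det_eq _ (build_col _ _ _) (build_row _ _ _)]
      have h : (p.2.2 : Matrix (Fin 3) (Fin 3) (ZMod 2)).det = 1 :=
        z2 _ (Units.ne_zero (GeneralLinearGroup.det p.2.2))
      rw [show mid (build p.1 p.2.1 (p.2.2 : Matrix _ _ (ZMod 2))) = p.2.2 from rfl, h]
      simp [build]⟩,
    (comm_iff _).2 ⟨build_col _ _ _, build_row _ _ _, by simp [build]⟩⟩
  left_inv g := by
    obtain ⟨hc, hr, hd⟩ := (comm_iff _).1 g.2
    have hu := g.1.2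
    rw [det_eq _ hc hr] at hu
    have h0 : g.1.1 0 0 = 1 := z2 _ fun e => by simp [e] at hu
    have h1 : g.1.1 1 1 = 1 := hd ▸ h0
    refine Subtype.ext (SpecialLinearGroup.ext _ _ fun i j => ?_)
    refine Fin.cases ?_ (fun i => ?_) i
    · refine Fin.cases ?_ (fun j => ?_) j
      · simp [build, h0]
      · simp [build]
    · refine Fin.cases ?_ (fun i => ?_) i
      · by_cases hj : j = 1
        · subst hj; simp [build, h1]
        · exact (build_row _ _ _ j hj).trans (hr j hj).symm
      · refine Fin.cases ?_ (fun j => ?_) j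
        · simp [build, hc _ (Fin.succ_ne_zero _)]
        · refine Fin.cases ?_ (fun j => ?_) j
          · simp [build]
          · simp [build, mid]
  right_inv p := by
    refine Prod.ext ?_ (Prod.ext ?_ (Units.ext ?_))
    · funext j; simp [build]
    · funext i; simp [build]
    · ext i j; simp [build, mid]


/-- In the special linear group of dimension 5 over the field with two elements, the centraliser of a transvection has order 21504 = 2 ^ 7 · 168 (it is an extension of an extraspecial group of order 2 ^ 7 by the simple group of order 168). -/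
theorem result (s : Matrix.SpecialLinearGroup (Fin 5) (ZMod 2)) (hs : (s : Matrix (Fin 5) (Fin 5) (ZMod 2)) = Matrix.transvection 0 1 1) : Nat.card (Subgroup.centralizer ({s} : Set (Matrix.SpecialLinearGroup (Fin 5) (ZMod 2)))) = 21504 := by
  have e : ↥(Subgroup.centralizer ({s} : Set (Matrix.SpecialLinearGroup (Fin 5) (ZMod 2)))) ≃
      {g : Matrix.SpecialLinearGroup (Fin 5) (ZMod 2) //
        g.1 * transvection (0 : Fin 5) 1 (1 : ZMod 2) = transvection 0 1 1 * g.1} :=
    Equiv.subtypeEquivRight fun g => by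
      rw [Subgroup.mem_centralizer_singleton_iff, ← hs, ← SpecialLinearGroup.coe_mul,
        ← SpecialLinearGroup.coe_mul]
      exact ⟨fun h => by rw [h], fun h => Subtype.ext h⟩
  haveI : Fact (Nat.Prime 2) := ⟨Nat.prime_two⟩
  rw [Nat.card_congr (e.trans equivParam), Nat.card_prod, Nat.card_prod, card_GL_field]
  simp [Fin.prod_univ_three, ZMod.card]

end Cfsg.Agent.S0445
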