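import Cfsg.Statements.S0446
import Mathlib

set_option autoImplicit false
open Cfsg

namespace Cfsg.Agent.S0446

/-- Every finite group of even order contains a 2-central involution, i.e. an element of order 2 in the centre of some Sylow 2-subgroup. -/
theorem result {G : Type*} [Group G] [Finite G] (h : Even (Nat.card G)) : ∃ t : G, Cfsg.IsTwoCentralInvolution t := by
  have h2 : 2 ∣ Nat.card G := even_iff_two_dvd.1 h
  obtain ⟨P⟩ : Nonempty (Sylow 2 G) := inferInstance
  have hne : (P : Subgroup G) ≠ ⊥ := P.ne_bot_of_dvd_card h2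
  haveI : Nontrivial (P : Subgroup G) := Subgroup.nontrivial_iff_ne_bot _ |>.2 hne
  haveI := P.2.center_nontrivial
  have hZ : IsPGroup 2 (Subgroup.center (P : Subgroup G)) := P.2.to_subgroup _
  obtain ⟨n, hn0, hn⟩ := hZ.nontrivial_iff_card.1 inferInstance
  obtain ⟨z, hz⟩ := exists_prime_orderOf_dvd_card' 2
    (show 2 ∣ Nat.card (Subgroup.center (P : Subgroup G)) by rw [hn]; exact dvd_pow_self 2 hn0.ne')
  refine ⟨((z : (P : Subgroup G)) : G), ?_, P, (z : (P : Subgroup G)).2, fun x hx => ?_⟩
  · rw [Subgroup.orderOf_coe, Subgroup.orderOf_coe, hz]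
  · exact congrArg Subtype.val (Subgroup.mem_center_iff.1 z.2 ⟨x, hx⟩)

end Cfsg.Agent.S0446
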