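import Cfsg.Statements.S0478
import Cfsg.Agent.Lib.JankoThree.Unitary
import Cfsg.Agent.Lib.JankoThree.Simple

set_option autoImplicit false
open Cfsg

namespace Cfsg.Agent.S0478

/-- A triple cover of Janko's third group inside a unitary group: for a field F with four elements, the special unitary group of dimension 9 (with respect to the form with q = 2) has a subgroup whose centre has order 3 and whose quotient by its centre is simple of order 50232960. -/
theorem result : ∃ (F : Type) (_ : Field F) (_ : Fintype F), Fintype.card F = 4 ∧ ∃ H : Subgroup (Cfsg.SU 9 F 2), Nat.card (Subgroup.center H) = 3 ∧ Cfsg.IsJ3 (H ⧸ Subgroup.center H) := by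
  let F := GaloisField 2 2
  letI : Fintype F := Fintype.ofFinite F
  have hF : Fintype.card F = 4 := by rw [← Nat.card_eq_fintype_card, GaloisField.card 2 2 two_ne_zero]; rfl
  obtain ⟨ω, hω⟩ : ∃ ω : F, ω ^ 2 + ω + 1 = 0 := by
    obtain ⟨x, hx0, hx1⟩ : ∃ x : F, x ≠ 0 ∧ x ≠ 1 := by
      classical
      obtain ⟨x, -, hx⟩ := Finset.exists_mem_notMem_of_card_lt_card (s := ({0, 1} : Finset F)) (t := Finset.univ)
        (by rw [Finset.card_univ, hF]; exact lt_of_le_of_lt Finset.card_le_two (by norm_num))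
      simp only [Finset.mem_insert, Finset.mem_singleton, not_or] at hx
      exact ⟨x, hx⟩
    refine ⟨x, ?_⟩
    have h3 := FiniteField.pow_card_sub_one_eq_one x hx0
    rw [hF] at h3
    have : (x - 1) * (x ^ 2 + x + 1) = 0 := by linear_combination h3
    exact (mul_eq_zero.1 this).resolve_left (sub_ne_zero.2 hx1)
  obtain ⟨H, ⟨e⟩⟩ := (⟨hF, hω⟩ : Lib.JankoThree.Setup ω).exists_su
  obtain ⟨hc, -, hJ, hs⟩ : Nat.card ↥(Subgroup.center ↥(Cfsg.Spor.threeJ3 F ω)) = 3 ∧
      Nat.card ↥(Cfsg.Spor.threeJ3 F ω) = 150698880 ∧ Nat.card (Cfsg.Spor.J3 F ω) = 50232960 ∧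
      IsSimpleGroup (Cfsg.Spor.J3 F ω) :=
    have h : Lib.JankoThree.Setup ω := ⟨hF, hω⟩
    ⟨h.card_center, h.card_threeJ3, h.card_quot, h.isSimple_J3⟩
  refine ⟨F, inferInstance, inferInstance, hF, H, (Nat.card_congr (Subgroup.centerCongr e).toEquiv).symm.trans hc, ?_⟩
  have hmap : (Subgroup.center ↥(Cfsg.Spor.threeJ3 F ω)).map e.toMonoidHom = Subgroup.center H := by
    ext x
    rw [Subgroup.mem_map]
    constructor
    · rintro ⟨y, hy, rfl⟩
      exact Subgroup.mem_center_iff.2 fun g => by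
        obtain ⟨g, rfl⟩ := e.surjective g
        show e g * e y = e y * e g
        rw [← map_mul, ← map_mul, Subgroup.mem_center_iff.1 hy g]
    · intro hx
      obtain ⟨y, rfl⟩ := e.surjective x
      refine ⟨y, Subgroup.mem_center_iff.2 fun g => e.injective ?_, rfl⟩
      rw [map_mul, map_mul]
      exact Subgroup.mem_center_iff.1 hx (e g)
  let eq := QuotientGroup.congr (Subgroup.center ↥(Cfsg.Spor.threeJ3 F ω)) (Subgroup.center H) e hmap
  haveI := hs
  haveI : Nontrivial (↥H ⧸ Subgroup.center ↥H) := eq.symm.toEquiv.nontrivial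
  exact ⟨IsSimpleGroup.isSimpleGroup_of_surjective eq.toMonoidHom eq.surjective,
    (Nat.card_congr eq.toEquiv).symm.trans hJ⟩

end Cfsg.Agent.S0478
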