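import Cfsg.Statements.S0481
import Mathlib

set_option autoImplicit false
open Cfsg

namespace Cfsg.Agent.S0481

theorem involution_eq {G : Type*} [Group G] [Finite G] (z : G) (hz : orderOf z = 2) (Q : Subgroup G)
    (hQC : Q ≤ Subgroup.centralizer ({z} : Set G)) (hZ : Nat.card (Subgroup.center Q) = 2)
    (hlarge : Subgroup.centralizer (Q : Set G) ≤ Q) (u : G) (hu : orderOf u = 2)
    (huQ : ∀ q ∈ Q, q * u = u * q) : u = z := by
  have hmem : ∀ w : G, (∀ q ∈ Q, q * w = w * q) → ∃ w' : Subgroup.center Q, ((w' : Q) : G) = w := by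
    intro w hw
    have hwQ : w ∈ Q := hlarge (Subgroup.mem_centralizer_iff.2 hw)
    exact ⟨⟨⟨w, hwQ⟩, Subgroup.mem_center_iff.2 fun q => Subtype.ext (hw q q.2)⟩, rfl⟩
  obtain ⟨u', rfl⟩ := hmem u huQ
  obtain ⟨z', rfl⟩ := hmem z fun q hq => Subgroup.mem_centralizer_singleton_iff.1 (hQC hq)
  have hu1 : u' ≠ 1 := by rintro rfl; simp at hu
  have hz1 : z' ≠ 1 := by rintro rfl; simp at hz
  obtain ⟨w, -, huniq⟩ := (Nat.card_eq_two_iff' (1 : Subgroup.center Q)).1 hZ
  rw [huniq u' hu1, huniq z' hz1]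

/-- Large extraspecial subgroups: let z be an involution of a finite group G whose centraliser C contains a normal 2-subgroup Q with centre of order 2 and all squares central, such that every element of G centralising Q lies in Q. Then C contains a Sylow 2-subgroup of G, and any involution of G whose centraliser contains a Sylow 2-subgroup of G is conjugate to z. -/
theorem result {G : Type*} [Group G] [Finite G] (z : G) (hz : orderOf z = 2) (Q : Subgroup G) (hQC : Q ≤ Subgroup.centralizer ({z} : Set G)) (hQn : ∀ g ∈ Subgroup.centralizer ({z} : Set G), ∀ q ∈ Q, g * q * g⁻¹ ∈ Q) (hQ2 : IsPGroup 2 Q) (hZ : Nat.card (Subgroup.center Q) = 2) (hsq : ∀ x : Q, x ^ 2 ∈ Subgroup.center Q) (hlarge : Subgroup.centralizer (Q : Set G) ≤ Q) : (∃ P : Sylow 2 G, (P : Subgroup G) ≤ Subgroup.centralizer ({z} : Set G)) ∧ ∀ u : G, orderOf u = 2 → (∃ P : Sylow 2 G, (P : Subgroup G) ≤ Subgroup.centralizer ({u} : Set G)) → IsConj z u := by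
  obtain ⟨P, hP⟩ := hQ2.exists_le_sylow
  have key : ∀ v : G, orderOf v = 2 → (∀ x ∈ (P : Subgroup G), x * v = v * x) → v = z :=
    fun v hv h => involution_eq z hz Q hQC hZ hlarge v hv fun q hq => h q (hP hq)
  have hPz : (P : Subgroup G) ≤ Subgroup.centralizer ({z} : Set G) := by
    have hne : (P : Subgroup G) ≠ ⊥ := P.ne_bot_of_dvd_card (hz ▸ orderOf_dvd_natCard z)
    haveI : Nontrivial (P : Subgroup G) := Subgroup.nontrivial_iff_ne_bot _ |>.2 hne
    haveI := P.2.center_nontrivial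
    obtain ⟨n, hn0, hn⟩ := (P.2.to_subgroup (Subgroup.center (P : Subgroup G))).nontrivial_iff_card.1 inferInstance
    obtain ⟨w, hw⟩ := exists_prime_orderOf_dvd_card' 2
      (show 2 ∣ Nat.card (Subgroup.center (P : Subgroup G)) by rw [hn]; exact dvd_pow_self 2 hn0.ne')
    have hwc : ∀ x ∈ (P : Subgroup G), x * ((w : (P : Subgroup G)) : G) = ((w : (P : Subgroup G)) : G) * x :=
      fun x hx => congrArg Subtype.val (Subgroup.mem_center_iff.1 w.2 ⟨x, hx⟩)
    have := key _ (by rw [Subgroup.orderOf_coe, Subgroup.orderOf_coe, hw]) hwc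
    intro x hx
    rw [Subgroup.mem_centralizer_singleton_iff, ← this]
    exact hwc x hx
  refine ⟨⟨P, hPz⟩, fun u hu ⟨P', hP'⟩ => ?_⟩
  obtain ⟨g, hg⟩ := MulAction.exists_smul_eq G P' P
  refine isConj_iff.2 ⟨g⁻¹, ?_⟩
  have h : g * u * g⁻¹ = z := by
    refine key _ (by rw [← hu]; exact (MulAut.conj g).orderOf_eq u) fun x hx => ?_
    rw [← hg, Sylow.coe_subgroup_smul] at hx
    obtain ⟨y, hy, rfl⟩ := hx
    show g * y * g⁻¹ * (g * u * g⁻¹) = g * u * g⁻¹ * (g * y * g⁻¹)
    have := Subgroup.mem_centralizer_singleton_iff.1 (hP' hy)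
    calc g * y * g⁻¹ * (g * u * g⁻¹) = g * (y * u) * g⁻¹ := by group
      _ = g * (u * y) * g⁻¹ := by rw [this]
      _ = _ := by group
  rw [← h]; group

end Cfsg.Agent.S0481
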