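import Cfsg.Statements.S0499
import Cfsg.Agent.S0132
import Cfsg.Agent.Lib.Transfer.Fusion
import Mathlib

set_option autoImplicit false
open Cfsg

namespace Cfsg.Agent.S0499

theorem prime_of_action {G : Type*} [Group G] [Finite G] (Q : Subgroup G) (hQ : Nat.card Q ∣ 8) {h : G}
    (hn : h ∈ Subgroup.normalizer (Q : Set G)) (hc : h ∉ Subgroup.centralizer (Q : Set G))
    {q k : ℕ} (hq : q.Prime) (hq2 : q ≠ 2) (ho : orderOf h = q ^ k) :
    (q = 3 ∧ 4 ∣ Nat.card G ∧ 3 ∣ Nat.card G) ∨ (q = 7 ∧ 56 ∣ Nat.card G) := by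
  have : Fact q.Prime := ⟨hq⟩
  have hH : Subgroup.zpowers h ≤ Subgroup.normalizer (Q : Set G) := Subgroup.zpowers_le.2 hn
  letI : MulAction (Subgroup.zpowers h) Q :=
    { smul := fun a x => ⟨(a : G) * x * (a : G)⁻¹,
        (Subgroup.mem_normalizer_iff.1 (hH a.2) x).1 x.2⟩
      one_smul := fun x => Subtype.ext (by show (1 : G) * x * 1⁻¹ = x; simp)
      mul_smul := fun a b x => Subtype.ext (by
        show (a * b : G) * x * (a * b : G)⁻¹ = a * (b * x * (b : G)⁻¹) * (a : G)⁻¹
        group) }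
  have hp : IsPGroup q (Subgroup.zpowers h) :=
    IsPGroup.of_card (n := k) (by rw [Nat.card_zpowers, ho])
  have hmod := hp.card_modEq_card_fixedPoints Q
  let C : Subgroup Q := (Subgroup.centralizer ({h} : Set G)).subgroupOf Q
  have hfix : MulAction.fixedPoints (Subgroup.zpowers h) Q = (C : Set Q) := by
    ext x
    simp only [MulAction.mem_fixedPoints, SetLike.mem_coe, C, Subgroup.mem_subgroupOf,
      Subgroup.mem_centralizer_singleton_iff]
    constructor
    · intro hx
      have e : h * (x : G) * h⁻¹ = x := congrArg Subtype.val (hx ⟨h, Subgroup.mem_zpowers h⟩)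
      exact (mul_inv_eq_iff_eq_mul.1 e).symm
    · rintro hx ⟨a, ha⟩
      obtain ⟨j, rfl⟩ := Subgroup.mem_zpowers_iff.1 ha
      apply Subtype.ext
      show h ^ j * (x : G) * (h ^ j)⁻¹ = x
      rw [((show Commute (x : G) h from hx).zpow_right j).eq.symm, mul_inv_cancel_right]
  have hCtop : C ≠ ⊤ := by
    intro e
    apply hc
    rw [Subgroup.mem_centralizer_iff]
    intro y hy
    have : (⟨y, hy⟩ : Q) ∈ C := e ▸ Subgroup.mem_top _
    exact Subgroup.mem_centralizer_singleton_iff.1 (Subgroup.mem_subgroupOf.1 this)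
  rw [hfix, SetLike.coe_sort_coe] at hmod
  have hCd := C.card_subgroup_dvd_card
  have hlt : Nat.card C < Nat.card Q :=
    lt_of_le_of_ne (Subgroup.card_le_card_group C) fun e => hCtop (Subgroup.eq_top_of_card_eq C e)
  have hCpos : 0 < Nat.card C := Nat.card_pos
  have hqd : q ∣ Nat.card Q - Nat.card C := (Nat.modEq_iff_dvd' hlt.le).1 hmod.symm
  have hqG : q ∣ Nat.card G := by
    have hk : k ≠ 0 := by
      rintro rfl
      rw [pow_zero, orderOf_eq_one_iff] at ho
      exact hc (ho ▸ one_mem _)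
    exact (dvd_pow_self q hk).trans (ho ▸ orderOf_dvd_natCard h)
  have hQG := Q.card_subgroup_dvd_card
  generalize Nat.card Q = a at *
  generalize Nat.card C = c at *
  have h78 : q ≤ 8 := by
    have := Nat.le_of_dvd (by omega) hqd
    have := Nat.le_of_dvd (by norm_num) hQ
    omega
  have ha8 := Nat.le_of_dvd (by norm_num) hQ
  interval_cases a <;> interval_cases c <;>
    first
    | (norm_num at hQ; done)
    | (norm_num at hCd; done)
    | (interval_cases q <;> first | omega | exact absurd hq (by norm_num))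


/-- A non-abelian finite simple group of even order has order divisible by 12, 16 or 56. -/
theorem result {G : Type*} [Group G] [Finite G] [IsSimpleGroup G]
    (hG : ¬ IsMulCommutative G) (h2 : Even (Nat.card G)) :
    12 ∣ Nat.card G ∨ 16 ∣ Nat.card G ∨ 56 ∣ Nat.card G := by
  classical
  by_contra hcon
  push Not at hcon
  obtain ⟨h12, h16, h56⟩ := hcon
  have : Fact (Nat.Prime 2) := ⟨Nat.prime_two⟩
  have hno : ¬ Cfsg.HasNormalPComplement 2 G := by
    rintro ⟨P, N, hN, hcompl⟩
    rcases hN.eq_bot_or_eq_top with e | e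
    · rw [e, Subgroup.isComplement'_bot_left] at hcompl
      have hP := P.isPGroup'
      rw [hcompl] at hP
      have hnil : Group.IsNilpotent G :=
        (IsPGroup.of_equiv hP Subgroup.topEquiv).isNilpotent
      exact hG (Subgroup.center_eq_top_iff.1 (((inferInstance : (Subgroup.center G).Normal).eq_bot_or_eq_top).resolve_left
        (fun hb => by
          have : Nontrivial (Subgroup.center G) :=
            (IsPGroup.of_equiv hP Subgroup.topEquiv).center_nontrivial
          exact (Subgroup.nontrivial_iff_ne_bot _).1 this hb)))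
    · rw [e, Subgroup.isComplement'_top_left] at hcompl
      exact P.ne_bot_of_dvd_card h2.two_dvd hcompl
  obtain ⟨Q, hQ2, hQ⟩ : ∃ Q : Subgroup G, IsPGroup 2 Q ∧ ¬ Cfsg.Agent.Lib.Transfer.AutPGroup 2 Q := by
    by_contra hh
    simp only [not_exists, not_and, not_not] at hh
    exact hno (Cfsg.Agent.Lib.Transfer.frobenius_criterion hh)
  simp only [Cfsg.Agent.Lib.Transfer.AutPGroup, not_forall] at hQ
  obtain ⟨g, hgN, hgo, hgc⟩ := hQ
  obtain ⟨h, hh, hhc, q, k, hq, hho⟩ := Cfsg.Agent.S0132.exists_prime_power_not_mem _ g hgc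
  have hk : k ≠ 0 := by
    rintro rfl
    rw [pow_zero, orderOf_eq_one_iff] at hho
    exact hhc (hho ▸ one_mem _)
  have hq2 : q ≠ 2 := by
    rintro rfl
    have h2g : 2 ∣ orderOf g := (dvd_pow_self 2 hk).trans (hho ▸ orderOf_dvd_of_mem_zpowers hh)
    exact absurd (Nat.Coprime.eq_one_of_dvd hgo.symm h2g) (by norm_num)
  have hQ8 : Nat.card Q ∣ 8 := by
    obtain ⟨j, hj⟩ := IsPGroup.iff_card.1 hQ2
    rw [hj]
    have hjle : j ≤ 3 := by
      by_contra hj'
      exact h16 ((pow_dvd_pow 2 (show 4 ≤ j by omega)).trans (hj ▸ Q.card_subgroup_dvd_card))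
    exact pow_dvd_pow 2 hjle
  rcases prime_of_action Q hQ8 (Subgroup.zpowers_le.2 hgN hh) hhc hq hq2 hho with ⟨-, h4, h3⟩ | ⟨-, h⟩
  · exact h12 (Nat.Coprime.mul_dvd_of_dvd_of_dvd (by norm_num : Nat.Coprime 4 3) h4 h3)
  · exact h56 h

end Cfsg.Agent.S0499
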