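import Cfsg.Statements.S0505
import Mathlib
import Cfsg.Agent.Lib.Char2.Local

set_option autoImplicit false
open Cfsg

namespace Cfsg.Agent.S0505

/-- Let G be a finite group of even order in which the centralizer of every involution is solvable and has trivial
core (no nontrivial normal subgroup of odd order). Then G is of characteristic 2 type. -/
theorem result {G : Type*} [Group G] [Finite G]
    (h2 : Even (Nat.card G))
    (hs : ∀ t : G, orderOf t = 2 → Group.IsSolvable (Subgroup.centralizer ({t} : Set G)))
    (hc : ∀ t : G, orderOf t = 2 → Cfsg.oddCore (Subgroup.centralizer ({t} : Set G)) = ⊥) :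
    Cfsg.IsCharacteristicTwoType G := by
  refine ⟨h2, fun T hT hT1 => ?_⟩
  haveI : Fact (Nat.Prime 2) := ⟨Nat.prime_two⟩
  refine Lib.Char2.charP_iff.1 (Lib.Char2.charP_two_local (fun t ht => ⟨?_, hc t ht⟩) hT hT1)
  haveI := hs t ht
  rw [Lib.Components.layer_eq_bot_iff]
  exact fun L hL => Lib.Components.qs_not_isSolvable hL.2 inferInstance

end Cfsg.Agent.S0505
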