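import Cfsg.Statements.S0514
import Cfsg.Agent.S0071
import Cfsg.Agent.Lib.Thompson.QuaternionSection

set_option autoImplicit false
open Cfsg

namespace Cfsg.Agent.S0514

open Subgroup in
/-- An automorphism of odd order of a 2-subgroup of a dihedral group fixing an involution is trivial. -/
theorem aut_fix_trivial {R : Type*} [Group R] [Finite R] (hR : IsPGroup 2 R) {n : ℕ} [NeZero n]
    (f : R →* DihedralGroup n) (hf : Function.Injective f) (φ : MulAut R) (hφ : (orderOf φ).Coprime 2)
    (t : R) (ht : orderOf t = 2) (hφt : φ t = t) : φ = 1 := by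
  classical
  let W : Subgroup R := (zpowers (DihedralGroup.r (1 : ZMod n))).comap f
  have hcases : ∀ x : R, x ∈ W ∨ ∃ i, f x = DihedralGroup.sr i := by
    intro x
    rcases h : f x with i | i
    · left
      show f x ∈ zpowers (DihedralGroup.r (1 : ZMod n))
      rw [h, ← ZMod.natCast_zmod_val i, ← DihedralGroup.r_one_pow]
      exact npow_mem_zpowers _ _
    · exact Or.inr ⟨i, rfl⟩
  have hsr : ∀ (x : R) i, f x = DihedralGroup.sr i → x ^ 2 = 1 := by
    intro x i h
    apply hf
    rw [map_pow, h, map_one, pow_two, DihedralGroup.sr_mul_self]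
  have hW2 : ∀ x y : R, x ∉ W → y ∉ W → x * y⁻¹ ∈ W := by
    intro x y hx hy
    obtain ⟨i, hi⟩ := (hcases x).resolve_left hx
    obtain ⟨j, hj⟩ := (hcases y).resolve_left hy
    show f (x * y⁻¹) ∈ zpowers (DihedralGroup.r (1 : ZMod n))
    rw [map_mul, map_inv, hi, hj, DihedralGroup.inv_sr, DihedralGroup.sr_mul_sr,
      ← ZMod.natCast_zmod_val (j - i), ← DihedralGroup.r_one_pow]
    exact npow_mem_zpowers _ _
  haveI : IsCyclic ↥W := isCyclic_of_injective
    ((f.comp W.subtype).codRestrict (zpowers (DihedralGroup.r (1 : ZMod n))) fun x => x.2)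
    fun x y h => Subtype.ext (hf (congrArg Subtype.val h))
  by_cases hY : ∃ y : R, y ^ 2 ≠ 1
  · obtain ⟨y, hy⟩ := hY
    have hyW : y ∈ W := (hcases y).resolve_right fun ⟨i, hi⟩ => hy (hsr y i hi)
    have hWim : ∀ x ∈ W, φ x ∈ W := by
      have h1 : ∀ x : R, x ^ 2 ≠ 1 → φ x ∈ W := fun x hx =>
        (hcases _).resolve_right fun ⟨i, hi⟩ => hx <| φ.injective <| by
          rw [map_pow, hsr _ i hi, map_one]
      intro x hx
      by_cases hx2 : x ^ 2 = 1
      · have hc : Commute x y := congrArg Subtype.val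
          ((IsCyclic.commutative (α := ↥W)).is_comm.comm ⟨x, hx⟩ ⟨y, hyW⟩)
        have h2 : (x * y) ^ 2 ≠ 1 := by rwa [hc.mul_pow, hx2, one_mul]
        have := mul_mem (h1 _ h2) (inv_mem (h1 y hy))
        rwa [← map_inv, ← map_mul, mul_inv_cancel_right] at this
      · exact h1 x hx2
    have hWfix : ∀ x ∈ W, φ x = x := by
      have hmap : W.map φ.toMonoidHom = W := eq_of_le_of_card_ge
        (by rintro _ ⟨x, hx, rfl⟩; exact hWim x hx)
        (le_of_eq (card_map_of_injective φ.injective).symm)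
      let ψ : MulAut ↥W := (φ.subgroupMap W).trans (MulEquiv.subgroupCongr hmap)
      have hψ : ∀ (k : ℕ) (x : ↥W), ((ψ ^ k) x : R) = (φ ^ k) (x : R) := by
        intro k
        induction k with
        | zero => intro x; rfl
        | succ k ih =>
          intro x
          rw [pow_succ, pow_succ, MulAut.mul_apply, MulAut.mul_apply, ih]
          rfl
      have hψo : (orderOf ψ).Coprime 2 := hφ.coprime_dvd_left (orderOf_dvd_of_pow_eq_one (by
        ext x
        rw [hψ, pow_orderOf_eq_one]
        rfl))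
      intro x hx
      exact congrArg Subtype.val
        (DFunLike.congr_fun (Lib.Thompson.Quat.aut_cyclic_trivial (hR.to_subgroup W) ψ hψo) (⟨x, hx⟩ : ↥W))
    ext s
    show φ s = s
    by_cases hs : s ∈ W
    · exact hWfix s hs
    have hs' : φ s ∉ W := fun h => hs (by
      have : φ (φ s) = φ s := hWfix _ h
      rw [φ.injective this] at h; exact h)
    have hd := hW2 _ _ hs' hs
    have hpow : ∀ k : ℕ, (φ ^ k) s = (φ s * s⁻¹) ^ k * s := by
      intro k
      induction k with
      | zero => simp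
      | succ k ih =>
        rw [pow_succ', MulAut.mul_apply, ih, map_mul, map_pow, hWfix _ hd]
        rw [pow_succ]; group
    have h1 := hpow (orderOf φ)
    rw [pow_orderOf_eq_one, MulAut.one_apply, eq_comm, mul_eq_right] at h1
    obtain ⟨k, hk⟩ := hR (φ s * s⁻¹)
    exact mul_inv_eq_one.mp (orderOf_eq_one_iff.mp (Nat.eq_one_of_dvd_coprimes (hφ.pow_right k)
      (orderOf_dvd_of_pow_eq_one h1) (orderOf_dvd_of_pow_eq_one hk)))
  · push Not at hY
    have hcomm : ∀ a b : R, a * b = b * a := fun a b => by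
      have h : ∀ z : R, z⁻¹ = z := fun z => inv_eq_of_mul_eq_one_left (by rw [← pow_two]; exact hY z)
      calc a * b = (a * b)⁻¹ := (h _).symm
        _ = b⁻¹ * a⁻¹ := mul_inv_rev _ _
        _ = b * a := by rw [h, h]
    have ht1 : t ≠ 1 := fun e => by simp [e] at ht
    have hW3 : ∀ a b : R, a ∈ W → b ∈ W → a ≠ 1 → b ≠ 1 → a = b := by
      intro a b ha hb ha1 hb1
      haveI := Fintype.ofFinite ↥W
      have h2 := IsCyclic.card_pow_eq_one_le (α := ↥W) (n := 2) two_pos
      by_contra hab
      have h3 : ({1, (⟨a, ha⟩ : ↥W), ⟨b, hb⟩} : Finset ↥W).card = 3 := by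
        rw [Finset.card_insert_of_notMem, Finset.card_pair]
        · exact fun e => hab (congrArg Subtype.val e)
        · simp only [Finset.mem_insert, Finset.mem_singleton, not_or]
          exact ⟨fun e => ha1 (congrArg Subtype.val e).symm, fun e => hb1 (congrArg Subtype.val e).symm⟩
      have h4 := (Finset.card_le_card (s := ({1, (⟨a, ha⟩ : ↥W), ⟨b, hb⟩} : Finset ↥W))
        (t := Finset.univ.filter fun x : ↥W => x ^ 2 = 1) fun x _ => Finset.mem_filter.mpr
          ⟨Finset.mem_univ _, Subtype.ext (hY _)⟩).trans h2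
      omega
    have hfour : ∀ a b : R, a ≠ 1 → a ≠ t → b ≠ 1 → b ≠ t → a ≠ b → b = t * a := by
      intro a b ha1 hat hb1 hbt hab
      have key : ∀ u v : R, u ≠ v → u ∉ W → v ∉ W → ∀ w ∈ W, w ≠ 1 → u * v = w := fun u v huv hu hv w hw hw1 => by
        have h := hW2 u v hu hv
        rw [inv_eq_of_mul_eq_one_left (by rw [← pow_two]; exact hY v)] at h
        refine hW3 _ _ h hw (fun e => huv ?_) hw1
        rw [mul_eq_one_iff_eq_inv, inv_eq_of_mul_eq_one_left (by rw [← pow_two]; exact hY v)] at e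
        exact e
      have hinv : ∀ z : R, z⁻¹ = z := fun z => inv_eq_of_mul_eq_one_left (by rw [← pow_two]; exact hY z)
      by_cases htW : t ∈ W
      · have hnot : ∀ z : R, z ≠ 1 → z ≠ t → z ∉ W := fun z hz1 hzt hz => hzt (hW3 z t hz htW hz1 ht1)
        have h := key b a (Ne.symm hab) (hnot b hb1 hbt) (hnot a ha1 hat) t htW ht1
        rw [← h, mul_assoc, ← pow_two, hY, mul_one]
      · by_cases haW : a ∈ W
        · have hbW : b ∉ W := fun hb => hab (hW3 a b haW hb ha1 hb1)
          have h := key t b (Ne.symm hbt) htW hbW a haW ha1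
          rw [← h, ← mul_assoc, ← pow_two, hY, one_mul]
        · have haW' : a * t ∈ W := by simpa [hinv] using hW2 a t haW htW
          have hne : a * t ≠ 1 := fun e => hat (by rwa [mul_eq_one_iff_eq_inv, hinv] at e)
          by_cases hbW : b ∈ W
          · rw [hW3 b (a * t) hbW haW' hb1 hne, hcomm]
          · have h := key b t hbt hbW htW _ haW' hne
            exact absurd (mul_right_cancel h).symm hab
    have h2 : φ ^ 2 = 1 := by
      ext a
      show φ (φ a) = a
      rcases eq_or_ne a 1 with rfl | ha1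
      · simp
      rcases eq_or_ne a t with rfl | hat
      · rw [hφt, hφt]
      by_cases hfix : φ a = a
      · rw [hfix, hfix]
      have hb1 : φ a ≠ 1 := fun e => ha1 (φ.injective (e.trans (map_one φ).symm))
      have hbt : φ a ≠ t := fun e => hat (φ.injective (e.trans hφt.symm))
      have hb := hfour a (φ a) ha1 hat hb1 hbt (Ne.symm hfix)
      rw [hb, map_mul, hφt, hb, ← mul_assoc, ← pow_two, hY, one_mul]
    exact orderOf_eq_one_iff.mp (Nat.eq_one_of_dvd_coprimes hφ dvd_rfl (orderOf_dvd_of_pow_eq_one h2))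


/-- In a finite group whose Sylow 2-subgroups are dihedral of order at least 4, the centralizer of any involution has a
normal subgroup of odd order whose index in the centralizer is a power of 2. -/
theorem result {X : Type*} [Group X] [Finite X]
    (S : Sylow 2 X) (n : ℕ) (hn : 2 ≤ n) (hS : Nonempty ((S : Subgroup X) ≃* DihedralGroup n)) (t : X)
    (ht : orderOf t = 2) :
    ∃ N : Subgroup (Subgroup.centralizer ({t} : Set X)), N.Normal ∧ Odd (Nat.card N) ∧ ∃ k : ℕ, N.index = 2 ^ k := by
  classical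
  haveI : Fact (Nat.Prime 2) := ⟨Nat.prime_two⟩
  haveI : NeZero n := ⟨by omega⟩
  let C := Subgroup.centralizer ({t} : Set X)
  have htC : t ∈ C := Subgroup.mem_centralizer_singleton_iff.mpr rfl
  let t' : ↥C := ⟨t, htC⟩
  have htc : ∀ c : ↥C, c * t' = t' * c := fun c =>
    Subtype.ext (Subgroup.mem_centralizer_singleton_iff.mp c.2)
  obtain ⟨P⟩ : Nonempty (Sylow 2 ↥C) := inferInstance
  have ht' : orderOf t' = 2 := (Subgroup.orderOf_mk t htC).trans ht
  have hzp : IsPGroup 2 ↥(Subgroup.zpowers t') :=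
    IsPGroup.of_card (n := 1) (by rw [Nat.card_zpowers, ht', pow_one])
  have hzn : (Subgroup.zpowers t').Normal := ⟨fun z hz c => by
    obtain ⟨k, rfl⟩ := hz
    have : Commute c (t' ^ k) := (show Commute c t' from htc c).zpow_right k
    rw [this.eq, mul_inv_cancel_right]
    exact ⟨k, rfl⟩⟩
  have htP : t' ∈ (P : Subgroup ↥C) := by
    have := P.3 (hzp.to_sup_of_normal_left P.2) le_sup_right
    exact this ▸ Subgroup.mem_sup_left (Subgroup.mem_zpowers t')
  suffices h : ∀ Q : Subgroup ↥C, Q ≤ (P : Subgroup ↥C) → ∀ g ∈ Subgroup.normalizer (Q : Set ↥C),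
      Nat.Coprime (orderOf g) 2 → g ∈ Subgroup.centralizer (Q : Set ↥C) by
    obtain ⟨N, hN, hc⟩ := (S0071.result P).mpr h
    obtain ⟨k, hk⟩ := IsPGroup.iff_card.mp P.2
    refine ⟨N, hN, ?_, k, (hc.symm.index_eq_card).trans hk⟩
    have h2 := P.not_dvd_index
    rw [hc.index_eq_card] at h2
    exact Nat.odd_iff.mpr (Nat.two_dvd_ne_zero.mp h2)
  intro Q hQ g hg hgo
  refine Subgroup.mem_centralizer_iff.mpr fun q hq => ?_
  let R : Subgroup ↥C := Q ⊔ Subgroup.zpowers t'
  have hR : IsPGroup 2 ↥R := P.2.to_le (sup_le hQ (Subgroup.zpowers_le.mpr htP))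
  have hgR : g ∈ Subgroup.normalizer (R : Set ↥C) := by
    refine Subgroup.normalizer_inf_normalizer_le_normalizer_sup _ _ ⟨hg, ?_⟩
    rw [Subgroup.normalizer_eq_top]
    exact Subgroup.mem_top _
  obtain ⟨T, hT⟩ := (hR.map C.subtype).exists_le_sylow
  obtain ⟨e⟩ := hS
  let eT : (T : Subgroup X) ≃* DihedralGroup n := (Sylow.equiv T S).trans e
  let f : ↥R →* DihedralGroup n :=
    eT.toMonoidHom.comp ((Subgroup.inclusion hT).comp (R.equivMapOfInjective C.subtype C.subtype_injective).toMonoidHom)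
  have hf : Function.Injective f :=
    eT.injective.comp ((Subgroup.inclusion_injective hT).comp (R.equivMapOfInjective C.subtype C.subtype_injective).injective)
  let φ : MulAut ↥R := R.normalizerMonoidHom ⟨g, hgR⟩
  have hφ : (orderOf φ).Coprime 2 := hgo.coprime_dvd_left
    ((orderOf_map_dvd R.normalizerMonoidHom ⟨g, hgR⟩).trans (Subgroup.orderOf_mk _ _).dvd)
  have hfix : φ ⟨t', Subgroup.mem_sup_right (Subgroup.mem_zpowers t')⟩ =
      ⟨t', Subgroup.mem_sup_right (Subgroup.mem_zpowers t')⟩ := Subtype.ext (by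
    show g * t' * g⁻¹ = t'
    rw [htc g, mul_inv_cancel_right])
  have h1 := aut_fix_trivial hR f hf φ hφ _ ((Subgroup.orderOf_mk _ _).trans ht') hfix
  have h3 := congrArg Subtype.val
    (DFunLike.congr_fun h1 (⟨q, Subgroup.mem_sup_left hq⟩ : ↥R))
  have h2 : g * q * g⁻¹ = q := h3
  exact (mul_inv_eq_iff_eq_mul.mp h2).symm

end Cfsg.Agent.S0514
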