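import Cfsg.Statements.S0508
import Cfsg.Agent.S0514
import Cfsg.Agent.Lib.BSW.Output
import Cfsg.Agent.Lib.BSW.Recognition
import Cfsg.Agent.Lib.Hall.Basic
import Cfsg.Agent.Lib.Fusion.DihedralType

set_option autoImplicit false
open Cfsg

namespace Cfsg.Agent.S0508

open Cfsg.Agent.Lib

/-- Outside a cyclic subgroup of order `n` of a dihedral group of order `2n` all elements are
involutions inverting that subgroup. -/
theorem dihedral_outside {n : ℕ} (hn : 2 ≤ n) (A : Subgroup (DihedralGroup n)) (hA : IsCyclic A)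
    (hcard : Nat.card A = n) {s : DihedralGroup n} (hs : s ∉ A) :
    s * s = 1 ∧ ∀ x ∈ A, s * x * s⁻¹ = x⁻¹ := by
  haveI : NeZero n := ⟨by omega⟩
  rcases eq_or_lt_of_le hn with rfl | h3
  · have hsq : ∀ x : DihedralGroup 2, x * x = 1 := by decide
    refine ⟨hsq s, fun x _ => ?_⟩
    have hcomm : s * x = x * s := by
      have hinv : ∀ y : DihedralGroup 2, y⁻¹ = y := fun y => inv_eq_of_mul_eq_one_right (hsq y)
      rw [← hinv (s * x), mul_inv_rev, hinv, hinv]
    rw [hcomm, mul_inv_cancel_right, inv_eq_of_mul_eq_one_right (hsq x)]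
  · obtain ⟨c, hc⟩ := IsCyclic.exists_ofOrder_eq_natCard (α := A)
    rw [← Subgroup.orderOf_coe, hcard] at hc
    obtain ⟨i, hi⟩ : ∃ i, (c : DihedralGroup n) = DihedralGroup.r i := by
      cases hcv : (c : DihedralGroup n) with
      | r i => exact ⟨i, rfl⟩
      | sr i => rw [hcv, DihedralGroup.orderOf_sr] at hc; omega
    have hAr : ∀ x ∈ A, ∃ j, x = DihedralGroup.r j := by
      intro x hx
      have hz : Subgroup.zpowers (c : DihedralGroup n) = A := by
        refine Subgroup.eq_of_le_of_card_ge (Subgroup.zpowers_le.2 c.2) ?_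
        rw [Nat.card_zpowers, hc, hcard]
      rw [← hz, ← mem_powers_iff_mem_zpowers] at hx
      obtain ⟨k, rfl⟩ := hx
      exact ⟨i * k, by simp [hi]⟩
    choose f hf using hAr
    have hbij : Function.Bijective (fun x : A => f x x.2) := by
      haveI := Fintype.ofFinite A
      refine (Fintype.bijective_iff_injective_and_card _).2 ⟨fun x y e => ?_, ?_⟩
      · simp only at e
        exact Subtype.ext (by rw [hf x x.2, hf y y.2, e])
      · rw [← Nat.card_eq_fintype_card, hcard, ZMod.card]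
    cases s with
    | r j =>
      obtain ⟨x, hx⟩ := hbij.2 j
      simp only at hx
      exact absurd (by rw [← hx, ← hf x x.2]; exact x.2) hs
    | sr j =>
      refine ⟨DihedralGroup.sr_mul_self j, fun x hx => ?_⟩
      rw [hf x hx, DihedralGroup.inv_sr, DihedralGroup.sr_mul_r, DihedralGroup.sr_mul_sr,
        DihedralGroup.inv_r]
      congr 1
      ring

/-- A cyclic group has at most one involution. -/
theorem cyclic_involution_unique {G : Type*} [Group G] [Finite G] (R : Subgroup G) (hR : IsCyclic R)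
    {x y : G} (hx : x ∈ R) (hy : y ∈ R) (hxo : orderOf x = 2) (hyo : orderOf y = 2) : x = y := by
  classical
  haveI := Fintype.ofFinite R
  by_contra hxy
  have h1 := IsCyclic.card_pow_eq_one_le (α := R) two_pos
  have hx1 : (⟨x, hx⟩ : R) ≠ 1 := fun e => by
    rw [show x = 1 from congrArg Subtype.val e, orderOf_one] at hxo; omega
  have hy1 : (⟨y, hy⟩ : R) ≠ 1 := fun e => by
    rw [show y = 1 from congrArg Subtype.val e, orderOf_one] at hyo; omega
  have hne : (⟨x, hx⟩ : R) ≠ ⟨y, hy⟩ := fun e => hxy (congrArg Subtype.val e)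
  have h2 : ({1, ⟨x, hx⟩, ⟨y, hy⟩} : Finset R) ⊆ Finset.univ.filter fun a : R => a ^ 2 = 1 := by
    intro a ha
    simp only [Finset.mem_insert, Finset.mem_singleton] at ha
    rcases ha with rfl | rfl | rfl
    · simp
    · simp only [Finset.mem_filter, Finset.mem_univ, true_and]
      exact Subtype.ext (by rw [← hxo]; exact pow_orderOf_eq_one x)
    · simp only [Finset.mem_filter, Finset.mem_univ, true_and]
      exact Subtype.ext (by rw [← hyo]; exact pow_orderOf_eq_one y)
  have h3 := (Finset.card_le_card h2).trans h1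
  rw [Finset.card_insert_of_notMem (by simp [hx1.symm, hy1.symm]),
    Finset.card_insert_of_notMem (by simp [hne]), Finset.card_singleton] at h3
  omega

/-- Let G be a finite simple group with a dihedral Sylow 2-subgroup S (of order at least 4), t an involution in the
centre of S, C the centralizer of t and O the core of C (its largest normal subgroup of odd order). Suppose that: if O
is nontrivial then the centralizer of O in S is cyclic of index 2 in S; every element of S not centralizing O inverts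
every element of O; and the normalizer of every nontrivial subgroup of O lies in C. Then G is isomorphic to a projective
special linear group of dimension 2 over a field of odd order. -/
theorem result {G : Type*} [Group G] [Finite G] [IsSimpleGroup G] (S : Sylow 2 G) (n : ℕ)
    (hn : 2 ≤ n) (hS : Nonempty ((S : Subgroup G) ≃* DihedralGroup n)) (t : G) (ht : orderOf t = 2)
    (htS : t ∈ (S : Subgroup G))
    (htZ : ∀ s ∈ (S : Subgroup G), s * t = t * s) (O : Subgroup G)
    (hO : O = (Cfsg.oddCore (Subgroup.centralizer ({t} : Set G))).map (Subgroup.centralizer ({t} : Set G)).subtype)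
    (ha : O ≠ ⊥ → IsCyclic ((S : Subgroup G) ⊓ Subgroup.centralizer (O : Set G) : Subgroup G) ∧
      ((S : Subgroup G) ⊓ Subgroup.centralizer (O : Set G)).relIndex (S : Subgroup G) = 2)
    (hb : ∀ s ∈ (S : Subgroup G), s ∉ Subgroup.centralizer (O : Set G) → ∀ y ∈ O, s * y * s⁻¹ = y⁻¹)
    (hc : ∀ Y : Subgroup G, Y ≤ O → Y ≠ ⊥ → Subgroup.normalizer (Y : Set G) ≤ Subgroup.centralizer ({t} : Set G)) :
    ∃ (F : Type) (_ : Field F) (_ : Fintype F), Odd (Fintype.card F) ∧ Nonempty (G ≃* Matrix.ProjectiveSpecialLinearGroup (Fin 2) F) := by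
  classical
  obtain ⟨e⟩ := hS
  haveI : NeZero n := ⟨by omega⟩
  haveI : Fact (Nat.Prime 2) := ⟨Nat.prime_two⟩
  set C := Subgroup.centralizer ({t} : Set G) with hCdef
  have hSn : Nat.card (S : Subgroup G) = 2 * n := by
    rw [Nat.card_congr e.toEquiv, DihedralGroup.nat_card]
  obtain ⟨k, hk⟩ : ∃ k, n = 2 * k := by
    obtain ⟨a, ha'⟩ := IsPGroup.iff_card.1 S.isPGroup'
    rw [hSn] at ha'
    rcases a with _ | _ | a
    · omega
    · omega
    · exact ⟨2 ^ a, by rw [pow_succ, pow_succ] at ha'; omega⟩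
  have hna : ¬ ∀ a b : G, a * b = b * a := by
    intro h
    letI : CommGroup G := { ‹Group G› with mul_comm := h }
    have hp := IsSimpleGroup.prime_card (α := G)
    have hd := Subgroup.card_subgroup_dvd_card (S : Subgroup G)
    rw [hSn] at hd
    rcases (Nat.dvd_prime hp).1 hd with h1 | h1
    · omega
    · rcases hp.eq_two_or_odd with h2 | h2 <;> omega
  have hSC : (S : Subgroup G) ≤ C := fun x hx =>
    Subgroup.mem_centralizer_singleton_iff.2 (htZ x hx)
  have hOC : O ≤ C := by rw [hO]; exact Subgroup.map_subtype_le _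
  have hCO : C ≤ Subgroup.normalizer (O : Set G) := by
    intro c hc
    have key : ∀ c ∈ C, ∀ y ∈ O, c * y * c⁻¹ ∈ O := by
      intro c hc y hy
      rw [hO] at hy ⊢
      obtain ⟨y, hy, rfl⟩ := hy
      exact ⟨_, (Hall.pPrimeCore_normal 2).conj_mem y hy ⟨c, hc⟩, rfl⟩
    refine Subgroup.mem_normalizer_iff.2 fun y => ⟨key c hc y, fun h => ?_⟩
    have := key c⁻¹ (inv_mem hc) _ h
    simpa [mul_assoc] using this
  have hOodd : (Nat.card O).Coprime 2 := by
    rw [hO, Subgroup.card_map_of_injective C.subtype_injective]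
    exact Hall.coprime_card_pPrimeCore 2
  have hOSco : (Nat.card (S : Subgroup G)).Coprime (Nat.card O) := by
    obtain ⟨a, ha'⟩ := IsPGroup.iff_card.1 S.isPGroup'
    rw [ha']
    exact hOodd.symm.pow_left a
  have hdisj : ∀ x, x ∈ (S : Subgroup G) → x ∈ O → x = 1 := fun x h1 h2 => by
    have h3 : x ∈ (S : Subgroup G) ⊓ O := ⟨h1, h2⟩
    rwa [Coprime.inf_eq_bot_of_coprime hOSco, Subgroup.mem_bot] at h3
  have hCeq : (S : Subgroup G) ⊔ O = C := by
    refine Subgroup.eq_of_le_of_card_ge (sup_le hSC hOC) ?_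
    rw [Coprime.card_sup_of_coprime (hSC.trans hCO) hOSco]
    obtain ⟨N, hN, hNodd, j, hj⟩ := Cfsg.Agent.S0514.result S n hn ⟨e⟩ t ht
    have hle : N ≤ Cfsg.oddCore C := Hall.le_pPrimeCore (Nat.coprime_two_right.2 hNodd)
    obtain ⟨i, -, hi⟩ := (Nat.dvd_prime_pow Nat.prime_two).1 (hj ▸ Subgroup.index_dvd_of_le hle)
    have h1 := (Cfsg.oddCore C).card_mul_index
    rw [hi] at h1
    have hOcard : Nat.card O = Nat.card (Cfsg.oddCore C) := by
      rw [hO, Subgroup.card_map_of_injective C.subtype_injective]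
    rw [← h1, ← hOcard, mul_comm]
    refine Nat.mul_le_mul_right _ (Nat.le_of_dvd Nat.card_pos ?_)
    rw [S.card_eq_multiplicity]
    refine pow_dvd_pow 2 ?_
    rw [← Nat.Prime.pow_dvd_iff_le_factorization Nat.prime_two Nat.card_pos.ne']
    exact (dvd_mul_left _ _).trans (h1 ▸ Subgroup.card_subgroup_dvd_card C)
  have htC : t ∈ C := Subgroup.mem_centralizer_singleton_iff.2 rfl
  have htO : ∀ y ∈ O, t * y = y * t := fun y hy =>
    (Subgroup.mem_centralizer_singleton_iff.1 (hOC hy)).symm
  -- the cyclic subgroup of index two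
  obtain ⟨R, hRS, hRcyc, hRn, htR, hRO, hSO⟩ : ∃ R : Subgroup G, R ≤ (S : Subgroup G) ∧
      IsCyclic R ∧ Nat.card R = n ∧ t ∈ R ∧ (∀ r ∈ R, ∀ y ∈ O, r * y = y * r) ∧
      ∀ s ∈ (S : Subgroup G), s ∉ R → ∀ y ∈ O, s * y * s⁻¹ = y⁻¹ := by
    by_cases hO1 : O = ⊥
    · have htriv : ∀ y ∈ O, y = 1 := fun y hy => by rwa [hO1, Subgroup.mem_bot] at hy
      suffices h : ∃ R : Subgroup G, R ≤ (S : Subgroup G) ∧ IsCyclic R ∧ Nat.card R = n ∧ t ∈ R by
        obtain ⟨R, h1, h2, h3, h4⟩ := h
        exact ⟨R, h1, h2, h3, h4, fun r _ y hy => by rw [htriv y hy, mul_one, one_mul],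
          fun s _ _ y hy => by rw [htriv y hy, mul_one, mul_inv_cancel, inv_one]⟩
      rcases eq_or_lt_of_le hn with hn2 | h3
      · exact ⟨Subgroup.zpowers t, Subgroup.zpowers_le.2 htS, inferInstance,
          by rw [Nat.card_zpowers, ht, hn2], Subgroup.mem_zpowers t⟩
      · refine ⟨Subgroup.zpowers ((e.symm (DihedralGroup.r 1) : (S : Subgroup G)) : G),
          Subgroup.zpowers_le.2 (SetLike.coe_mem _), inferInstance, ?_, ?_⟩
        · rw [Nat.card_zpowers, Subgroup.orderOf_coe, MulEquiv.orderOf_eq,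
            DihedralGroup.orderOf_r_one]
        · have hcm : e ⟨t, htS⟩ * DihedralGroup.r 1 = DihedralGroup.r 1 * e ⟨t, htS⟩ := by
            obtain ⟨z, hz⟩ := e.surjective (DihedralGroup.r 1)
            rw [← hz, ← map_mul, ← map_mul]
            exact congrArg e (Subtype.ext (htZ z z.2).symm)
          cases hv : e ⟨t, htS⟩ with
          | r i =>
            have h1 : (⟨t, htS⟩ : (S : Subgroup G)) = e.symm (DihedralGroup.r 1) ^ i.val := by
              rw [← map_pow, DihedralGroup.r_one_pow, ZMod.natCast_zmod_val, ← hv,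
                MulEquiv.symm_apply_apply]
            rw [show t = ((e.symm (DihedralGroup.r 1) ^ i.val : (S : Subgroup G)) : G) from
              congrArg Subtype.val h1, Subgroup.coe_pow]
            exact pow_mem (Subgroup.mem_zpowers _) _
          | sr i =>
            exfalso
            rw [hv, DihedralGroup.sr_mul_r, DihedralGroup.r_mul_sr,
              DihedralGroup.sr.injEq] at hcm
            have h2 : ((2 : ℕ) : ZMod n) = 0 := by push_cast; linear_combination hcm
            have := Nat.le_of_dvd two_pos ((ZMod.natCast_eq_zero_iff _ _).1 h2)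
            omega
    · obtain ⟨hcyc, hidx⟩ := ha hO1
      refine ⟨(S : Subgroup G) ⊓ Subgroup.centralizer (O : Set G), inf_le_left, hcyc, ?_,
        ⟨htS, Subgroup.mem_centralizer_iff.2 fun y hy => (htO y hy).symm⟩,
        fun r hr y hy => (Subgroup.mem_centralizer_iff.1 hr.2 y hy).symm,
        fun s hs hsR => hb s hs fun h => hsR ⟨hs, h⟩⟩
      have h1 := (((S : Subgroup G) ⊓ Subgroup.centralizer (O : Set G)).subgroupOf
        (S : Subgroup G)).card_mul_index
      rw [Nat.card_congr (Subgroup.subgroupOfEquivOfLe inf_le_left).toEquiv, hSn,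
        show (((S : Subgroup G) ⊓ Subgroup.centralizer (O : Set G)).subgroupOf
          (S : Subgroup G)).index = 2 from hidx] at h1
      omega
  have hRidx : (R.subgroupOf (S : Subgroup G)).index = 2 := by
    have h1 := (R.subgroupOf (S : Subgroup G)).card_mul_index
    rw [Nat.card_congr (Subgroup.subgroupOfEquivOfLe hRS).toEquiv, hRn, hSn, mul_comm 2 n] at h1
    exact Nat.eq_of_mul_eq_mul_left (by omega) h1
  have hRmul : ∀ a ∈ (S : Subgroup G), ∀ b ∈ (S : Subgroup G), a ∉ R → b ∉ R → a * b ∈ R :=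
    fun a ha b hb haR hbR => Subgroup.mem_subgroupOf.1
      ((Subgroup.mul_mem_iff_of_index_two hRidx (a := (⟨a, ha⟩ : (S : Subgroup G)))
        (b := ⟨b, hb⟩)).2 ⟨fun h => absurd h haR, fun h => absurd h hbR⟩)
  have hdih : ∀ s ∈ (S : Subgroup G), s ∉ R → s * s = 1 ∧ ∀ r ∈ R, s * r * s⁻¹ = r⁻¹ := by
    intro s hs hsR
    set A := (R.subgroupOf (S : Subgroup G)).map e.toMonoidHom with hA
    have hAcyc : IsCyclic A := by
      haveI := hRcyc
      exact (((Subgroup.subgroupOfEquivOfLe hRS).symm.trans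
        ((R.subgroupOf (S : Subgroup G)).equivMapOfInjective e.toMonoidHom e.injective)).isCyclic).1
        inferInstance
    have hAn : Nat.card A = n := by
      rw [hA, Subgroup.card_map_of_injective e.injective,
        Nat.card_congr (Subgroup.subgroupOfEquivOfLe hRS).toEquiv, hRn]
    have hsA : e ⟨s, hs⟩ ∉ A := by
      rintro ⟨x, hx, hxe⟩
      rw [e.injective (a₁ := x) (a₂ := ⟨s, hs⟩) hxe] at hx
      exact hsR hx
    obtain ⟨h1, h2⟩ := dihedral_outside hn A hAcyc hAn hsA
    refine ⟨?_, fun r hr => ?_⟩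
    · rw [← map_mul, MulEquiv.map_eq_one_iff] at h1
      exact congrArg Subtype.val h1
    · have h3 := h2 (e ⟨r, hRS hr⟩) ⟨⟨r, hRS hr⟩, hr, rfl⟩
      rw [← map_inv, ← map_inv, ← map_mul, ← map_mul, e.injective.eq_iff] at h3
      exact congrArg Subtype.val h3
  obtain ⟨s, hsS, hsR⟩ : ∃ s ∈ (S : Subgroup G), s ∉ R := by
    by_contra hcon
    push Not at hcon
    have := Subgroup.card_le_of_le hcon
    rw [hRn, hSn] at this
    omega
  have hOcomm : ∀ a ∈ O, ∀ b ∈ O, a * b = b * a := by
    intro a ha b hb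
    have h1 := hSO s hsS hsR (a * b) (mul_mem ha hb)
    rw [show s * (a * b) * s⁻¹ = s * a * s⁻¹ * (s * b * s⁻¹) by group, hSO s hsS hsR a ha,
      hSO s hsS hsR b hb, ← mul_inv_rev, inv_inj] at h1
    exact h1.symm
  have hRcomm : ∀ a ∈ R, ∀ b ∈ R, a * b = b * a := fun a ha b hb => by
    haveI := hRcyc
    exact congrArg Subtype.val ((IsCyclic.isMulCommutative (α := R)).is_comm.comm ⟨a, ha⟩ ⟨b, hb⟩)
  have hO2 : ∀ y ∈ O, y * y = 1 → y = 1 := by
    intro y hy hyy
    have h1 : orderOf y ∣ 2 := orderOf_dvd_of_pow_eq_one (by rw [pow_two, hyy])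
    have h2 := orderOf_dvd_natCard (⟨y, hy⟩ : O)
    rw [Subgroup.orderOf_mk] at h2
    exact orderOf_eq_one_iff.1 (Nat.eq_one_of_dvd_coprimes hOodd h2 h1)
  have hRC : R ≤ Subgroup.normalizer (O : Set G) := hRS.trans (hSC.trans hCO)
  set K := R ⊔ O with hKdef
  have hKmem : ∀ x, x ∈ K ↔ ∃ r ∈ R, ∃ y ∈ O, r * y = x := fun x =>
    Coprime.mem_sup_of_le_normalizer hRC
  have hKC : K ≤ C := sup_le (hRS.trans hSC) hOC
  have hKcomm : ∀ a ∈ K, ∀ b ∈ K, a * b = b * a := by
    intro a ha b hb
    obtain ⟨r, hr, y, hy, rfl⟩ := (hKmem a).1 ha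
    obtain ⟨r', hr', y', hy', rfl⟩ := (hKmem b).1 hb
    calc r * y * (r' * y') = r * (y * r') * y' := by group
      _ = r * (r' * y) * y' := by rw [hRO r' hr' y hy]
      _ = r * r' * (y * y') := by group
      _ = r' * r * (y' * y) := by rw [hRcomm r hr r' hr', hOcomm y hy y' hy']
      _ = r' * (r * y') * y := by group
      _ = r' * (y' * r) * y := by rw [hRO r hr y' hy']
      _ = r' * y' * (r * y) := by group
  have hKn : Nat.card K = n * Nat.card O := by
    rw [hKdef, Coprime.card_sup_of_coprime hRC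
      (hOSco.coprime_dvd_left (Subgroup.card_dvd_of_le hRS)), hRn]
  have hout : ∀ g ∈ C, g ∉ K → ∀ x ∈ O, g * x * g⁻¹ = x⁻¹ := by
    intro g hg hgK x hx
    rw [← hCeq, Coprime.mem_sup_of_le_normalizer (hSC.trans hCO)] at hg
    obtain ⟨a, ha, y, hy, rfl⟩ := hg
    have haR : a ∉ R := fun h => hgK (mul_mem (Subgroup.mem_sup_left h) (Subgroup.mem_sup_right hy))
    calc a * y * x * (a * y)⁻¹ = a * (y * x * y⁻¹) * a⁻¹ := by group
      _ = x⁻¹ := by rw [hOcomm y hy x hx, mul_inv_cancel_right, hSO a ha haR x hx]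
  have hinvo : ∀ x ∈ K, orderOf x = 2 → x = t := by
    intro x hx ho
    obtain ⟨r, hr, y, hy, rfl⟩ := (hKmem x).1 hx
    have h1 : r * y * (r * y) = 1 := by rw [← pow_two, ← ho, pow_orderOf_eq_one]
    have h2 : r * r * (y * y) = 1 := by
      rw [← h1]
      calc r * r * (y * y) = r * (r * y) * y := by group
        _ = r * (y * r) * y := by rw [hRO r hr y hy]
        _ = _ := by group
    have h3 : y * y = 1 := by
      refine hdisj _ ?_ (mul_mem hy hy)
      rw [eq_inv_of_mul_eq_one_right h2]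
      exact inv_mem (mul_mem (hRS hr) (hRS hr))
    rw [hO2 y hy h3, mul_one] at ho ⊢
    exact cyclic_involution_unique R hRcyc hr htR ho ht
  have hsK : s ∉ K := by
    intro h
    obtain ⟨r, hr, y, hy, he⟩ := (hKmem s).1 h
    have : y = 1 := hdisj y (by
      rw [show y = r⁻¹ * s by rw [← he, inv_mul_cancel_left]]
      exact mul_mem (inv_mem (hRS hr)) hsS) hy
    rw [this, mul_one] at he
    exact hsR (he ▸ hr)
  have hsinv : ∀ x ∈ K, s * x * s⁻¹ = x⁻¹ := by
    intro x hx
    obtain ⟨r, hr, y, hy, rfl⟩ := (hKmem x).1 hx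
    calc s * (r * y) * s⁻¹ = s * r * s⁻¹ * (s * y * s⁻¹) := by group
      _ = r⁻¹ * y⁻¹ := by rw [(hdih s hsS hsR).2 r hr, hSO s hsS hsR y hy]
      _ = (r * y)⁻¹ := by rw [← mul_inv_rev, hRO r hr y hy]
  have hso : orderOf s = 2 :=
    BSW.orderOf_eq_two (fun h => hsR (h ▸ one_mem R)) (hdih s hsS hsR).1
  have htK : t ∈ K := Subgroup.mem_sup_left htR
  have hsup : K ⊔ Subgroup.zpowers s = C := by
    refine le_antisymm (sup_le hKC (Subgroup.zpowers_le.2 (hSC hsS))) ?_
    rw [← hCeq]
    refine sup_le (fun a ha => ?_) (le_sup_right.trans le_sup_left)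
    by_cases haR : a ∈ R
    · exact Subgroup.mem_sup_left (Subgroup.mem_sup_left haR)
    · rw [show a = a * s * s by rw [mul_assoc, (hdih s hsS hsR).1, mul_one]]
      exact mul_mem (Subgroup.mem_sup_left (Subgroup.mem_sup_left (hRmul a ha s hsS haR hsR)))
        (Subgroup.mem_sup_right (Subgroup.mem_zpowers s))
  have hcks : K ⊓ Subgroup.centralizer ({s} : Set G) = Subgroup.zpowers t := by
    refine le_antisymm (fun x ⟨hx, hxs⟩ => ?_) (Subgroup.zpowers_le.2 ⟨htK,
      Subgroup.mem_centralizer_singleton_iff.2 (htZ s hsS).symm⟩)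
    have h1 := hsinv x hx
    rw [← Subgroup.mem_centralizer_singleton_iff.1 hxs, mul_inv_cancel_right] at h1
    by_cases hx1 : x = 1
    · rw [hx1]; exact one_mem _
    · rw [hinvo x hx (BSW.orderOf_eq_two hx1 (by nth_rewrite 2 [h1]; exact mul_inv_cancel x))]
      exact Subgroup.mem_zpowers t
  have hTI : ∀ g : G, g ∉ C → K ⊓ K.map (MulAut.conj g).toMonoidHom = ⊥ := by
    intro g hg
    refine (Subgroup.eq_bot_iff_forall _).2 fun x hx => ?_
    by_contra hx1
    obtain ⟨p, hp, hpd⟩ := Nat.exists_prime_and_dvd (mt orderOf_eq_one_iff.1 hx1)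
    have hxo := orderOf_pow_orderOf_div (orderOf_pos x).ne' hpd
    have hmem := pow_mem hx (orderOf x / p)
    generalize x ^ (orderOf x / p) = z at hxo hmem
    obtain ⟨hzK, w, hw, hwz⟩ := hmem
    have hwz' : g * w * g⁻¹ = z := hwz
    have hgt : g * t * g⁻¹ = t → False := fun h =>
      hg (Subgroup.mem_centralizer_singleton_iff.2 (mul_inv_eq_iff_eq_mul.1 h))
    have hwo : orderOf w = p := by rw [← hxo, ← hwz', BSW.orderOf_conj]
    rcases hp.eq_two_or_odd with rfl | hpodd
    · rw [hinvo z hzK hxo, hinvo w hw hwo] at hwz'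
      exact hgt hwz'
    · obtain ⟨r, hr, y, hy, rfl⟩ := (hKmem z).1 hzK
      have hcop : Nat.Coprime p 2 := Nat.coprime_two_right.2 (Nat.odd_iff.2 hpodd)
      have hpow : r ^ p * y ^ p = 1 := by
        rw [← (show Commute r y from hRO r hr y hy).mul_pow, ← hxo, pow_orderOf_eq_one]
      have hyp : y ^ p = 1 := hdisj _ (by
        rw [eq_inv_of_mul_eq_one_right hpow]; exact inv_mem (pow_mem (hRS hr) p)) (pow_mem hy p)
      rw [hyp, mul_one] at hpow
      have hr1 : r = 1 := by
        obtain ⟨a, ha'⟩ := IsPGroup.iff_orderOf.1 S.isPGroup' ⟨r, hRS hr⟩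
        rw [Subgroup.orderOf_mk] at ha'
        refine orderOf_eq_one_iff.1 (Nat.eq_one_of_dvd_coprimes (hcop.pow_right a)
          (orderOf_dvd_of_pow_eq_one hpow) ?_)
        rw [ha']
      rw [hr1, one_mul] at hwz' hzK hxo
      have hy1 : y ≠ 1 := fun h => by rw [h, orderOf_one] at hxo; exact hp.one_lt.ne hxo
      have hcom : g * t * g⁻¹ * y = y * (g * t * g⁻¹) := by
        rw [← hwz']
        calc g * t * g⁻¹ * (g * w * g⁻¹) = g * (t * w) * g⁻¹ := by group
          _ = g * (w * t) * g⁻¹ := by rw [hKcomm t htK w hw]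
          _ = _ := by group
      have hNY : g * t * g⁻¹ ∈ Subgroup.normalizer (Subgroup.zpowers y : Set G) :=
        Subgroup.centralizer_le_normalizer _ (by
          refine Subgroup.mem_centralizer_iff.2 fun a ha => ?_
          obtain ⟨i, rfl⟩ := Subgroup.mem_zpowers_iff.1 ha
          exact ((show Commute (g * t * g⁻¹) y from hcom).zpow_right i).eq.symm)
      have hgC := hc _ (Subgroup.zpowers_le.2 hy) (fun h => hy1 (Subgroup.zpowers_eq_bot.1 h)) hNY
      by_cases hgK : g * t * g⁻¹ ∈ K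
      · exact hgt (hinvo _ hgK (by rw [BSW.orderOf_conj, ht]))
      · have h1 := hout _ hgC hgK y hy
        rw [hcom, mul_inv_cancel_right] at h1
        refine hy1 (hO2 y hy ?_)
        nth_rewrite 2 [h1]
        exact mul_inv_cancel y
  have hconj : ∀ x y : G, orderOf x = 2 → orderOf y = 2 → IsConj x y := by
    have hidxR : ∃ m, R.index = 2 * m ∧ Odd m := by
      refine ⟨(S : Subgroup G).index, ?_, Nat.not_even_iff_odd.1
        (fun h => S.not_dvd_index (even_iff_two_dvd.1 h))⟩
      rw [← Subgroup.relIndex_mul_index hRS,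
        show R.relIndex (S : Subgroup G) = 2 from hRidx]
    have hto : ∀ x : G, orderOf x = 2 → IsConj x t := by
      intro x hx
      push Not at hna
      obtain ⟨g, hgx⟩ := Fusion.exists_conj_mem_of_twice_odd_index (inferInstance : IsSimpleGroup G)
        hna R hidxR (x := x) (by rw [← hx, pow_orderOf_eq_one])
      exact isConj_iff.2 ⟨g, cyclic_involution_unique R hRcyc hgx htR
        (by rw [BSW.orderOf_conj, hx]) ht⟩
    exact fun x y hx hy => (hto x hx).trans (hto y hy).symm
  have hH : BSW.Hyp t K s (k * Nat.card O) :=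
    ⟨ht, by rw [hKn, hk, mul_assoc], hKcomm, hKC, htK, hso, hSC hsS, hsK, hsup, hcks, hsinv, hTI,
      hconj⟩
  obtain ⟨Q, D, hG, hq, hcent, -, hQD, hN, hDTI, hu⟩ := hH.output
  exact BSW.psl_of_output hna Q D hG hq hcent hQD hN hDTI fun h =>
    let ⟨u, hu1, hu2, _⟩ := hu h
    ⟨u, hu1, hu2⟩

end Cfsg.Agent.S0508
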