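import Cfsg.Statements.S0520
import Cfsg.Agent.S0502
import Mathlib

set_option autoImplicit false
open Cfsg

namespace Cfsg.Agent.S0520

universe u

variable {G : Type u} [Group G]

/-- Conjugate of a subgroup. -/
def cnj (g : G) (Q : Subgroup G) : Subgroup G := Q.map (MulAut.conj g).toMonoidHom

theorem cnj_cnj (g h : G) (Q : Subgroup G) : cnj g (cnj h Q) = cnj (g * h) Q := by
  rw [cnj, cnj, cnj, Subgroup.map_map]
  congr 1
  ext x
  simp [MulAut.conj_apply, mul_assoc]

theorem cnj_one (Q : Subgroup G) : cnj 1 Q = Q := by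
  rw [cnj]
  convert Subgroup.map_id Q
  ext x
  simp

theorem cnj_mono (g : G) {P Q : Subgroup G} (h : P ≤ Q) : cnj g P ≤ cnj g Q := Subgroup.map_mono h

theorem cnj_card (g : G) (Q : Subgroup G) : Nat.card (cnj g Q) = Nat.card Q :=
  Subgroup.card_map_of_injective (f := (MulAut.conj g).toMonoidHom) (MulAut.conj g).injective

theorem mem_cnj {g : G} {Q : Subgroup G} {a : G} (ha : a ∈ Q) : g * a * g⁻¹ ∈ cnj g Q :=
  ⟨a, ha, rfl⟩

theorem cnj_eq_of_mem_normalizer {g : G} {Q : Subgroup G} (hg : g ∈ Subgroup.normalizer (Q : Set G)) :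
    cnj g Q = Q := by
  ext x
  constructor
  · rintro ⟨a, ha, rfl⟩
    exact (Subgroup.mem_normalizer_iff.1 hg a).1 ha
  · intro hx
    exact ⟨g⁻¹ * x * g, (Subgroup.mem_normalizer_iff.1 hg _).2 (by simpa [mul_assoc] using hx),
      by simp [MulAut.conj_apply, mul_assoc]⟩

theorem mem_normalizer_of_cnj_eq {g : G} {Q : Subgroup G} (hg : cnj g Q = Q) :
    g ∈ Subgroup.normalizer (Q : Set G) := by
  rw [Subgroup.mem_normalizer_iff]
  intro a
  constructor
  · exact fun ha => hg.le (mem_cnj ha)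
  · intro ha
    obtain ⟨b, hb, hb'⟩ := hg.ge ha
    have : b = a := by simpa [MulAut.conj_apply] using hb'
    exact this ▸ hb

theorem normalizer_cnj_le (g : G) (Q : Subgroup G) :
    cnj g (Subgroup.normalizer (Q : Set G)) ≤ Subgroup.normalizer (cnj g Q : Set G) := by
  rintro _ ⟨a, ha, rfl⟩
  apply mem_normalizer_of_cnj_eq
  show cnj (g * a * g⁻¹) (cnj g Q) = cnj g Q
  rw [cnj_cnj, inv_mul_cancel_right, ← cnj_cnj, cnj_eq_of_mem_normalizer ha]

theorem klein_cnj {g : G} {V : Subgroup G} (hV : IsKleinFour V) : IsKleinFour (cnj g V) :=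
  { card_four := (cnj_card g V).trans hV.card_four
    exponent_two := (Monoid.exponent_eq_of_mulEquiv
      (V.equivMapOfInjective (MulAut.conj g).toMonoidHom (MulAut.conj g).injective)).symm.trans
        hV.exponent_two }

theorem not_rank_le_of_four {V Q : Subgroup G} (hV : IsKleinFour V) (hVQ : V ≤ Q) :
    ¬ Cfsg.PRankLE 2 1 Q := by
  intro h
  have hsq : ∀ a : V, a ^ 2 = 1 := fun a => by
    rw [← hV.exponent_two]; exact Monoid.pow_exponent_eq_one a
  have h4 := h (V.subgroupOf Q) ⟨⟨fun a b => by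
    obtain ⟨⟨a, ha'⟩, ha⟩ := a
    obtain ⟨⟨b, hb'⟩, hb⟩ := b
    exact Subtype.ext (Subtype.ext (congrArg (fun t : V => (t : G))
      (mul_comm_of_exponent_two hV.exponent_two ⟨a, ha⟩ ⟨b, hb⟩)))⟩⟩ fun a ha =>
    Subtype.ext (congrArg (fun t : V => (t : G)) (hsq ⟨(a : G), ha⟩))
  rw [Nat.card_congr (Subgroup.subgroupOfEquivOfLe hVQ).toEquiv, hV.card_four] at h4
  norm_num at h4

theorem exists_four [Finite G] (h : ¬ Cfsg.PRankLE 2 1 G) : ∃ V : Subgroup G, IsKleinFour V := by
  rw [Cfsg.PRankLE] at h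
  push Not at h
  obtain ⟨A, hAc, hA2, hA⟩ := h
  haveI : Finite A := inferInstance
  obtain ⟨a, ha1⟩ : ∃ a : A, a ≠ 1 := by
    by_contra! hall
    have : Nat.card A ≤ 1 := Finite.card_le_one_iff_subsingleton.2 ⟨fun x y => by rw [hall x, hall y]⟩
    omega
  obtain ⟨b, hb1, hba⟩ : ∃ b : A, b ≠ 1 ∧ b ≠ a := by
    by_contra! hall
    have := Nat.card_le_card_of_surjective (![1, a] : Fin 2 → A) fun x => by
      by_cases hx : x = 1
      · exact ⟨0, hx.symm⟩
      · exact ⟨1, (hall x hx).symm⟩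
    rw [Nat.card_fin] at this
    omega
  exact ⟨_, S0502.fourGroup_isKleinFour (a : G) (b : G) (by rw [← sq]; exact hA2 a a.2)
    (by rw [← sq]; exact hA2 b b.2) (congrArg Subtype.val (hAc.is_comm.comm a b))
    (fun e => ha1 (Subtype.ext e)) (fun e => hb1 (Subtype.ext e)) (fun e => hba (Subtype.ext e))⟩

theorem exists_four_le [Finite G] {Q : Subgroup G} (h : ¬ Cfsg.PRankLE 2 1 Q) :
    ∃ V : Subgroup G, IsKleinFour V ∧ V ≤ Q := by
  obtain ⟨V, hV⟩ := exists_four h
  exact ⟨V.map Q.subtype,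
    { card_four := (Subgroup.card_map_of_injective Q.subtype_injective).trans hV.card_four
      exponent_two := (Monoid.exponent_eq_of_mulEquiv
        (V.equivMapOfInjective Q.subtype Q.subtype_injective)).symm.trans hV.exponent_two },
    Subgroup.map_subtype_le V⟩

theorem rank_cnj [Finite G] {g : G} {Q : Subgroup G} (h : ¬ Cfsg.PRankLE 2 1 Q) :
    ¬ Cfsg.PRankLE 2 1 (cnj g Q) := by
  obtain ⟨V, hV, hVQ⟩ := exists_four_le h
  exact not_rank_le_of_four (klein_cnj hV) (cnj_mono g hVQ)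

variable [Finite G]

theorem card_lt {P Q : Subgroup G} (h : P < Q) : Nat.card P < Nat.card Q :=
  (Subgroup.card_le_of_le h.le).lt_of_ne fun e => h.ne (Subgroup.eq_of_le_of_card_ge h.le e.ge)

/-- Elements moving a subgroup of rank two inside `S` lie in the 2-generated core. -/
theorem mem_core {S : Sylow 2 G} {Γ : Subgroup G}
    (hΓ : ∀ Q : Subgroup G, Q ≤ S → ¬ Cfsg.PRankLE 2 1 Q → Subgroup.normalizer (Q : Set G) ≤ Γ) :
    ∀ Q : Subgroup G, Q ≤ S → ¬ Cfsg.PRankLE 2 1 Q → ∀ g : G, cnj g Q ≤ S → g ∈ Γ := by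
  suffices H : ∀ d : ℕ, ∀ Q : Subgroup G, Nat.card G - Nat.card Q = d → Q ≤ S →
      ¬ Cfsg.PRankLE 2 1 Q → ∀ g : G, cnj g Q ≤ S → g ∈ Γ from fun Q => H _ Q rfl
  intro d
  induction d using Nat.strong_induction_on with
  | _ d ih =>
    intro Q hd hQS hQ g hg
    haveI : Fact (Nat.Prime 2) := ⟨Nat.prime_two⟩
    rcases eq_or_lt_of_le hQS with e | hlt
    · subst e
      exact hΓ _ le_rfl hQ (mem_normalizer_of_cnj_eq
        (Subgroup.eq_of_le_of_card_ge hg (cnj_card g _).ge))
    -- normalizers grow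
    have grow : ∀ P : Subgroup G, P < S → P < Subgroup.normalizer (P : Set G) ⊓ S := by
      intro P hP
      haveI : Group.IsNilpotent (S : Subgroup G) := S.2.isNilpotent
      have h1 : P.subgroupOf S < ⊤ := by
        rw [lt_top_iff_ne_top, Ne, Subgroup.subgroupOf_eq_top]
        exact fun h => hP.not_ge h
      have h2 := normalizerCondition_of_isNilpotent _ h1
      refine lt_of_le_of_ne (le_inf Subgroup.le_normalizer hP.le) fun e => ?_
      obtain ⟨x, hx, hx'⟩ := SetLike.exists_of_lt h2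
      refine hx' (e.ge ⟨Subgroup.mem_normalizer_iff.2 fun a => ?_, x.2⟩)
      constructor
      · intro ha
        exact (Subgroup.mem_normalizer_iff.1 hx ⟨a, hP.le ha⟩).1 ha
      · intro ha
        have haS : a ∈ (S : Subgroup G) := by
          have := mul_mem (mul_mem (inv_mem x.2) (hP.le ha)) x.2
          simpa [mul_assoc] using this
        exact (Subgroup.mem_normalizer_iff.1 hx ⟨a, haS⟩).2 ha
    have hQ'lt : cnj g Q < S := lt_of_le_of_ne hg fun e => by
      have := cnj_card g Q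
      rw [e] at this
      exact hlt.ne (Subgroup.eq_of_le_of_card_ge hQS this.le)
    set Q' := cnj g Q with hQ'
    set N' := Subgroup.normalizer (Q' : Set G) with hN'
    set R := Subgroup.normalizer (Q : Set G) ⊓ (S : Subgroup G) with hR
    set R' := N' ⊓ (S : Subgroup G) with hR'
    have hRQ : Nat.card Q < Nat.card R := card_lt (grow Q hlt) 
    have hR'Q : Nat.card Q < Nat.card R' := cnj_card g Q ▸ card_lt (grow Q' hQ'lt)
    have hQR : Q ≤ R := (grow Q hlt).le
    have hR'rank : ¬ Cfsg.PRankLE 2 1 R' := by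
      obtain ⟨V, hV, hVQ⟩ := exists_four_le (rank_cnj (g := g) hQ)
      exact not_rank_le_of_four hV (hVQ.trans (grow Q' hQ'lt).le)
    have hRrank : ¬ Cfsg.PRankLE 2 1 R := by
      obtain ⟨V, hV, hVQ⟩ := exists_four_le hQ
      exact not_rank_le_of_four hV (hVQ.trans hQR)
    have hlim : ∀ P : Subgroup G, Nat.card Q < Nat.card P → Nat.card G - Nat.card P < d := fun P hP => by
      have := Subgroup.card_le_card_group P
      have := Subgroup.card_le_card_group Q
      omega
    -- a Sylow subgroup of the normalizer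
    have hR'p : IsPGroup 2 (R'.subgroupOf N') :=
      (S.2.to_le inf_le_right).of_equiv (Subgroup.subgroupOfEquivOfLe (inf_le_left : R' ≤ N')).symm
    obtain ⟨T, hT⟩ := hR'p.exists_le_sylow
    obtain ⟨W, hW⟩ := (T.2.map N'.subtype).exists_le_sylow
    obtain ⟨h, hh⟩ := MulAction.exists_smul_eq G W S
    have hWS : cnj h (W : Subgroup G) = (S : Subgroup G) := by rw [← hh]; rfl
    have hcR : cnj g R ≤ N' := (cnj_mono g inf_le_left).trans (normalizer_cnj_le g Q)
    have hcRp : IsPGroup 2 ((cnj g R).subgroupOf N') :=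
      ((S.2.to_le (inf_le_right : R ≤ (S : Subgroup G))).map _).of_equiv
        (Subgroup.subgroupOfEquivOfLe hcR).symm
    obtain ⟨U, hU⟩ := hcRp.exists_le_sylow
    obtain ⟨n, hn⟩ := MulAction.exists_smul_eq N' U T
    have hR'W : R' ≤ W := fun a ha =>
      hW ⟨⟨a, ha.1⟩, hT ha, rfl⟩
    have hh1 : cnj h R' ≤ S := hWS ▸ cnj_mono h hR'W
    have hhΓ : h ∈ Γ := ih _ (hlim R' hR'Q) R' rfl inf_le_right hR'rank h hh1
    have hng : cnj (h * (n : G) * g) R ≤ S := by
      rw [← hWS, mul_assoc, ← cnj_cnj, ← cnj_cnj]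
      refine cnj_mono h ?_
      rintro _ ⟨a, ha, rfl⟩
      refine hW ⟨n * ⟨a, hcR ha⟩ * n⁻¹, ?_, rfl⟩
      rw [← hn]
      exact ⟨⟨a, hcR ha⟩, hU ha, rfl⟩
    have hngΓ : h * (n : G) * g ∈ Γ := ih _ (hlim R hRQ) R rfl inf_le_right hRrank _ hng
    have hnΓ : (n : G) ∈ Γ := hΓ Q' hg (rank_cnj hQ) n.2
    have := mul_mem (inv_mem (mul_mem hhΓ hnΓ)) hngΓ
    simpa [mul_assoc] using this

/-- Let G be a finite group of 2-rank at least 2 and S a Sylow 2-subgroup whose commuting graph of Klein four-subgroups is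
connected. Then the commuting graph of Klein four-subgroups of G is disconnected if and only if the 2-generated core — the
subgroup generated by the normalizers N_G(Q) of the subgroups Q of S that contain a Klein four-group — is a proper
subgroup of G. -/
theorem result {G : Type*} [Group G] [Finite G] (h2 : ¬ Cfsg.PRankLE 2 1 G)
    (S : Sylow 2 G) (hS : Cfsg.IsFourConnected (S : Subgroup G)) :
    ¬ Cfsg.IsFourConnected G ↔
      (⨆ Q : {Q : Subgroup G // Q ≤ (S : Subgroup G) ∧ ¬ Cfsg.PRankLE 2 1 Q},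
          Subgroup.normalizer ((Q : Subgroup G) : Set G)) ≠ ⊤ := by
  haveI : Fact (Nat.Prime 2) := ⟨Nat.prime_two⟩
  set Γ := ⨆ Q : {Q : Subgroup G // Q ≤ (S : Subgroup G) ∧ ¬ Cfsg.PRankLE 2 1 Q},
    Subgroup.normalizer ((Q : Subgroup G) : Set G) with hΓdef
  have hΓ : ∀ Q : Subgroup G, Q ≤ S → ¬ Cfsg.PRankLE 2 1 Q → Subgroup.normalizer (Q : Set G) ≤ Γ :=
    fun Q h1 h2 => le_iSup (fun Q : {Q : Subgroup G // Q ≤ (S : Subgroup G) ∧ ¬ Cfsg.PRankLE 2 1 Q} =>
      Subgroup.normalizer ((Q : Subgroup G) : Set G)) ⟨Q, h1, h2⟩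
  let Rel : Subgroup G → Subgroup G → Prop := fun A B =>
    IsKleinFour A ∧ IsKleinFour B ∧ ∀ a ∈ A, ∀ b ∈ B, a * b = b * a
  -- fours in `S` are connected
  have hlift : ∀ U V : Subgroup G, IsKleinFour U → IsKleinFour V → U ≤ S → V ≤ S →
      Relation.ReflTransGen Rel U V := by
    intro U V hU hV hUS hVS
    have hk : ∀ W : Subgroup G, IsKleinFour W → W ≤ S → IsKleinFour (W.subgroupOf S) :=
      fun W hW hWS =>
        { card_four := (Nat.card_congr (Subgroup.subgroupOfEquivOfLe hWS).toEquiv).trans hW.card_four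
          exponent_two := (Monoid.exponent_eq_of_mulEquiv (Subgroup.subgroupOfEquivOfLe hWS)).trans
            hW.exponent_two }
    have hk' : ∀ W : Subgroup (S : Subgroup G), IsKleinFour W →
        IsKleinFour (W.map (S : Subgroup G).subtype) := fun W hW =>
      { card_four := (Subgroup.card_map_of_injective (S : Subgroup G).subtype_injective).trans hW.card_four
        exponent_two := (Monoid.exponent_eq_of_mulEquiv
          (W.equivMapOfInjective _ (S : Subgroup G).subtype_injective)).symm.trans hW.exponent_two }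
    have := (hS _ _ (hk U hU hUS) (hk V hV hVS)).lift (fun W => W.map (S : Subgroup G).subtype)
      (p := Rel) fun A B h => ⟨hk' A h.1, hk' B h.2.1, by
        rintro _ ⟨a, ha, rfl⟩ _ ⟨b, hb, rfl⟩
        exact congrArg Subtype.val (h.2.2 a ha b hb)⟩
    rwa [Function.onFun, Subgroup.map_subgroupOf_eq_of_le hUS, Subgroup.map_subgroupOf_eq_of_le hVS] at this
  have hconj : ∀ (g : G) (U V : Subgroup G), Relation.ReflTransGen Rel U V →
      Relation.ReflTransGen Rel (cnj g U) (cnj g V) := fun g U V h =>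
    h.lift (cnj g) fun A B h => ⟨klein_cnj h.1, klein_cnj h.2.1, by
      rintro _ ⟨a, ha, rfl⟩ _ ⟨b, hb, rfl⟩
      rw [← map_mul, ← map_mul, h.2.2 a ha b hb]⟩
  have hsymm : ∀ U V : Subgroup G, Relation.ReflTransGen Rel U V → Relation.ReflTransGen Rel V U :=
    fun U V h => by
      induction h with
      | refl => exact .refl
      | tail _ h ih => exact ih.head ⟨h.2.1, h.1, fun a ha b hb => (h.2.2 b hb a ha).symm⟩
  have hsyl : ∀ Q : Subgroup G, IsPGroup 2 Q → ∃ g : G, cnj g Q ≤ S := fun Q hQ => by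
    obtain ⟨W, hW⟩ := hQ.exists_le_sylow
    obtain ⟨g, hg⟩ := MulAction.exists_smul_eq G W S
    exact ⟨g, by rw [← hg]; exact cnj_mono g hW⟩
  have hfp : ∀ V : Subgroup G, IsKleinFour V → IsPGroup 2 V := fun V hV =>
    IsPGroup.of_card (n := 2) (by rw [hV.card_four]; norm_num)
  obtain ⟨V₁, hV₁⟩ := exists_four h2
  obtain ⟨g₁, hg₁⟩ := hsyl V₁ (hfp V₁ hV₁)
  set V₀ := cnj g₁ V₁ with hV₀def
  have hV₀ : IsKleinFour V₀ := klein_cnj hV₁
  constructor
  · intro hG htop
    refine hG fun U V hU hV => ?_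
    -- every element stabilizes the component of `V₀`
    have hstab : ∀ g ∈ Γ, Relation.ReflTransGen Rel V₀ (cnj g V₀) := by
      intro g hg
      refine Subgroup.iSup_induction _ (C := fun g => Relation.ReflTransGen Rel V₀ (cnj g V₀)) hg
        ?_ ?_ ?_
      · rintro ⟨Q, hQS, hQ⟩ x hx
        obtain ⟨W, hW, hWQ⟩ := exists_four_le hQ
        have h1 : cnj x W ≤ S := ((cnj_mono x hWQ).trans (cnj_eq_of_mem_normalizer hx).le).trans hQS
        exact (hlift V₀ (cnj x W) hV₀ (klein_cnj hW) hg₁ h1).trans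
          (hconj x W V₀ (hlift W V₀ hW hV₀ (hWQ.trans hQS) hg₁))
      · rw [cnj_one]
      · intro x y hx hy
        rw [← cnj_cnj]
        exact hx.trans (hconj x _ _ hy)
    have hall : ∀ W : Subgroup G, IsKleinFour W → Relation.ReflTransGen Rel V₀ W := by
      intro W hW
      obtain ⟨g, hg⟩ := hsyl W (hfp W hW)
      have h1 := hconj g⁻¹ _ _ (hlift V₀ (cnj g W) hV₀ (klein_cnj hW) hg₁ hg)
      rw [cnj_cnj g⁻¹ g W, inv_mul_cancel, cnj_one] at h1
      exact (hstab g⁻¹ (htop ▸ Subgroup.mem_top _)).trans h1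
    exact (hsymm _ _ (hall U hU)).trans (hall V hV)
  · intro htop hG
    apply htop
    rw [eq_top_iff]
    intro g _
    -- the fours in `Γ`-conjugates of `S` are closed under commuting
    have hclosed : ∀ W : Subgroup G, Relation.ReflTransGen Rel V₀ W → ∃ x ∈ Γ, cnj x W ≤ S := by
      intro W h
      induction h with
      | refl => exact ⟨1, one_mem _, by rw [cnj_one]; exact hg₁⟩
      | @tail A B _ hAB ih =>
        obtain ⟨x, hx, hxA⟩ := ih
        obtain ⟨hA, hB, hc⟩ := hAB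
        have hAN : A ≤ Subgroup.normalizer (B : Set G) := fun a ha => by
          refine mem_normalizer_of_cnj_eq ?_
          ext b
          constructor
          · rintro ⟨c, hc', rfl⟩
            simpa [MulAut.conj_apply, hc a ha c hc'] using hc'
          · intro hb
            exact ⟨b, hb, by simp [MulAut.conj_apply, hc a ha b hb]⟩
        obtain ⟨y, hy⟩ := hsyl (A ⊔ B) (IsPGroup.to_sup_of_normal_right' (hfp A hA) (hfp B hB) hAN)
        refine ⟨y, ?_, (cnj_mono y le_sup_right).trans hy⟩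
        have h1 : y * x⁻¹ ∈ Γ := mem_core hΓ (cnj x A) hxA (not_rank_le_of_four (klein_cnj hA) le_rfl)
          (y * x⁻¹) (by rw [cnj_cnj, inv_mul_cancel_right]; exact (cnj_mono y le_sup_left).trans hy)
        simpa using mul_mem h1 hx
    obtain ⟨x, hx, hxV⟩ := hclosed (cnj g V₀) (hG V₀ (cnj g V₀) hV₀ (klein_cnj hV₀))
    have h1 : x * g ∈ Γ := mem_core hΓ V₀ hg₁ (not_rank_le_of_four hV₀ le_rfl) (x * g)
      (by rw [← cnj_cnj]; exact hxV)
    simpa using mul_mem (inv_mem hx) h1

end Cfsg.Agent.S0520
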