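import Cfsg.Statements.S0521
import Cfsg.Agent.Lib.OddLocal.PStable
import Cfsg.Agent.Lib.OddLocal.PLengthOne
import Cfsg.Agent.Lib.Hall.Solvable
import Cfsg.Agent.Lib.Transfer.Hall
import Cfsg.Agent.Lib.Coprime.Action

set_option autoImplicit false
open Cfsg

namespace Cfsg.Agent.S0521

open Subgroup
open scoped commutatorElement

/-- the case of trivial `p'`-core -/
lemma core_case {Y : Type*} [Group Y] [Finite Y] [Group.IsSolvable Y] (hY : Odd (Nat.card Y))
    {p : ℕ} [hp : Fact p.Prime] (hp2 : p ≠ 2) (hO : Cfsg.pPrimeCore p Y = ⊥) (S : Subgroup Y)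
    (hS : IsPGroup p S) (hRS : Cfsg.pCore p Y ≤ S) (hcyc : IsCyclic (commutator S)) :
    S ≤ Cfsg.pCore p Y := by
  set R := Cfsg.pCore p Y with hR
  have hRp : IsPGroup p R := Cfsg.Agent.Lib.Hall.isPGroup_pCore p
  haveI hRn : R.Normal := Subgroup.sSup_normal _ fun _ h => h.1
  set N : Subgroup Y := (frattini R).map R.subtype with hN
  haveI hNn : N.Normal := ConjAct.normal_of_characteristic_of_normal
  have hNR : N ≤ R := map_subtype_le _
  have hNp : IsPGroup p N := hRp.to_le hNR
  let π := QuotientGroup.mk' N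
  set P : Subgroup (Y ⧸ N) := R.map π with hP
  haveI hPn : P.Normal := hRn.map π (QuotientGroup.mk'_surjective N)
  set C : Subgroup (Y ⧸ N) := centralizer (P : Set (Y ⧸ N)) with hC
  haveI hCn : C.Normal := by rw [hC]; exact Subgroup.normal_centralizer
  let f : Y →* (Y ⧸ N) ⧸ C := (QuotientGroup.mk' C).comp π
  have hker : IsPGroup p f.ker := by
    intro x
    obtain ⟨y, hy⟩ := x
    have key : ∀ z ∈ f.ker, (orderOf z).Coprime p → z = 1 := by
      intro z hz hzo
      have hzC : π z ∈ C := (QuotientGroup.eq_one_iff _).mp hz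
      have hcent : zpowers z ≤ centralizer (R : Set Y) := by
        refine Cfsg.Agent.Lib.Coprime.le_centralizer_of_frattini
          (fun g _ => by rw [normalizer_eq_top]; exact mem_top g) ?_ ?_
        · obtain ⟨c, hc⟩ := IsPGroup.iff_card.mp (hRp.to_subgroup (frattini R))
          rw [hc, Nat.card_zpowers]
          exact hzo.pow_right c
        · intro a ha k hk
          have haC : π a ∈ C := by
            obtain ⟨i, rfl⟩ := mem_zpowers_iff.mp ha
            rw [map_zpow]
            exact zpow_mem hzC i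
          have h1 := mem_centralizer_iff.mp haC (π k) ⟨k, hk, rfl⟩
          rw [← hN, ← QuotientGroup.eq_one_iff]
          show π (a * k * a⁻¹ * k⁻¹) = 1
          simp only [map_mul, map_inv]
          rw [← h1]
          group
      have hzR : z ∈ R := Cfsg.Agent.Lib.Hall.centralizer_pCore_le p hO (hcent (mem_zpowers z))
      obtain ⟨n, hn⟩ := IsPGroup.iff_orderOf.mp hRp ⟨z, hzR⟩
      rw [Subgroup.orderOf_mk] at hn
      rw [hn] at hzo
      rcases Nat.eq_zero_or_pos n with h0 | h0
      · rwa [h0, pow_zero, orderOf_eq_one_iff] at hn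
      · exact absurd ((Nat.coprime_pow_left_iff h0 _ _).mp hzo)
          (by simp [Nat.coprime_self, hp.out.ne_one])
    refine ⟨(orderOf y).factorization p, Subtype.ext ?_⟩
    show y ^ p ^ (orderOf y).factorization p = 1
    refine key _ (pow_mem hy _) ?_
    rw [orderOf_pow' _ (pow_ne_zero _ hp.out.ne_zero), Nat.gcd_eq_right (Nat.ordProj_dvd _ p)]
    exact (Nat.coprime_ordCompl hp.out (orderOf_pos y).ne').symm
  intro a ha
  have hodd : Odd (Nat.card (Y ⧸ N)) := hY.of_dvd_nat (card_quotient_dvd_card N)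
  have hq : ∀ x ∈ P, Commute (π a) ⁅π a, x⁆ := by
    rintro _ ⟨x, hx, rfl⟩
    rw [← map_commutatorElement]
    set D : Subgroup Y := R ⊓ (commutator S).map S.subtype with hD
    have hcD : ⁅a, x⁆ ∈ D := by
      refine ⟨?_, ⟨⁅⟨a, ha⟩, ⟨x, hRS hx⟩⁆, commutator_mem_commutator (mem_top _) (mem_top _), rfl⟩⟩
      rw [commutatorElement_def, show a * x * a⁻¹ * x⁻¹ = (a * x * a⁻¹) * x⁻¹ from rfl]
      exact R.mul_mem (hRn.conj_mem x hx a) (R.inv_mem hx)
    have hDconj : a * ⁅a, x⁆ * a⁻¹ ∈ D := by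
      refine ⟨hRn.conj_mem _ hcD.1 a, ?_⟩
      obtain ⟨w, hw, hwe⟩ := hcD.2
      exact ⟨⟨a, ha⟩ * w * ⟨a, ha⟩⁻¹, (commutator_normal (⊤ : Subgroup S) ⊤).conj_mem w hw _,
        by simp [← hwe]⟩
    haveI hDcyc : IsCyclic D := by
      haveI : IsCyclic ((commutator S).map S.subtype) :=
        isCyclic_of_surjective (S.subtype.subgroupMap (commutator S))
          (MonoidHom.subgroupMap_surjective _ _)
      exact isCyclic_of_injective (inclusion inf_le_right) (inclusion_injective _)
    haveI : IsCyclic (D.map π) := isCyclic_of_surjective (π.subgroupMap D)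
          (MonoidHom.subgroupMap_surjective _ _)
    have hexp : ∀ w ∈ D.map π, w ^ p = 1 := by
      rintro _ ⟨w, hw, rfl⟩
      rw [← map_pow]
      show ((w ^ p : Y) : Y ⧸ N) = 1
      rw [QuotientGroup.eq_one_iff]
      exact ⟨(⟨w, hw.1⟩ : R) ^ p, Cfsg.Agent.Lib.Transfer.pow_mem_frattini hRp _, rfl⟩
    set c : Y ⧸ N := π ⁅a, x⁆ with hc
    rcases eq_or_ne c 1 with hc1 | hc1
    · rw [hc1]; exact Commute.one_right _
    have hcord : orderOf c = p := orderOf_eq_prime (hexp c (mem_map_of_mem π hcD)) hc1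
    have hDz : D.map π = zpowers c := by
      refine (eq_of_le_of_card_ge (zpowers_le.mpr (mem_map_of_mem π hcD)) ?_).symm
      obtain ⟨u, hu⟩ := IsCyclic.exists_ofOrder_eq_natCard (α := D.map π)
      rw [Nat.card_zpowers, hcord, ← hu]
      refine orderOf_le_of_pow_eq_one hp.out.pos (Subtype.ext ?_)
      exact hexp u u.2
    have hconj : π a * c * (π a)⁻¹ ∈ zpowers c := by
      rw [← hDz, hc, ← map_inv, ← map_mul, ← map_mul]
      exact mem_map_of_mem π hDconj
    obtain ⟨k, hk : c ^ k = π a * c * (π a)⁻¹⟩ :=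
      (IsOfFinOrder.mem_powers_iff_mem_zpowers (isOfFinOrder_of_finite c)).mpr hconj
    obtain ⟨m, hm⟩ := hS ⟨a, ha⟩
    have hm' : π a ^ p ^ m = 1 := by
      rw [← map_pow, show a ^ p ^ m = 1 from congrArg Subtype.val hm, map_one]
    have hj : ∀ j : ℕ, π a ^ j * c * (π a ^ j)⁻¹ = c ^ (k ^ j) := by
      intro j
      induction j with
      | zero => simp
      | succ j ih =>
        calc π a ^ (j + 1) * c * (π a ^ (j + 1))⁻¹
            = π a * (π a ^ j * c * (π a ^ j)⁻¹) * (π a)⁻¹ := by rw [pow_succ']; group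
          _ = (π a * c * (π a)⁻¹) ^ (k ^ j) := by rw [ih, conj_pow]
          _ = c ^ (k ^ (j + 1)) := by rw [← hk, ← pow_mul, pow_succ']
    have h1 := hj (p ^ m)
    rw [hm', one_mul, inv_one, mul_one] at h1
    nth_rewrite 1 [← pow_one c] at h1
    rw [pow_eq_pow_iff_modEq, hcord, ← ZMod.natCast_eq_natCast_iff] at h1
    push_cast at h1
    rw [ZMod.pow_card_pow] at h1
    have h2 : c ^ k = c := by
      nth_rewrite 2 [← pow_one c]
      rw [pow_eq_pow_iff_modEq, hcord, ← ZMod.natCast_eq_natCast_iff]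
      simpa using h1.symm
    rw [hk] at h2
    exact mul_inv_eq_iff_eq_mul.mp h2
  have hmem := Cfsg.Agent.Lib.OddLocal.quadratic_mem_pCore (G := Y ⧸ N) (p := p) hp2 hodd
    (P := P) (C := C) hC (hRp.map π) hq
  have hpre : (Cfsg.pCore p ((Y ⧸ N) ⧸ C)).comap f ≤ R := by
    haveI : (Cfsg.pCore p ((Y ⧸ N) ⧸ C)).Normal := Subgroup.sSup_normal _ fun _ h => h.1
    exact Cfsg.Agent.Lib.Hall.le_pCore
      ((Cfsg.Agent.Lib.Hall.isPGroup_pCore p).comap_of_ker_isPGroup f hker)
  exact hpre hmem


/-- Let X be a finite solvable group of odd order, p a prime and S a Sylow p-subgroup of X whose commutator subgroup is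
cyclic. Then the product of the largest normal subgroup of X of order prime to p with S is a normal subgroup of X. -/
theorem result {X : Type*} [Group X] [Finite X] [Group.IsSolvable X]
    (hX : Odd (Nat.card X)) (p : ℕ) [Fact p.Prime] (S : Sylow p X) (hS : IsCyclic (commutator (S : Subgroup X))) :
    (Cfsg.pPrimeCore p X ⊔ (S : Subgroup X)).Normal := by
  have hp := (Fact.out : p.Prime)
  rcases eq_or_ne p 2 with rfl | hp2
  · have hS : (S : Subgroup X) = ⊥ := by
      refine Subgroup.card_eq_one.mp ?_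
      obtain ⟨k, hk⟩ := IsPGroup.iff_card.mp S.2
      have h2 : Odd (2 ^ k) := hk ▸ hX.of_dvd_nat (Subgroup.card_subgroup_dvd_card _)
      rcases k with _ | k
      · simpa using hk
      · exact absurd h2 (Nat.not_odd_iff_even.mpr (Nat.even_pow.mpr ⟨even_two, k.succ_ne_zero⟩))
    rw [hS, sup_bot_eq]
    exact Subgroup.sSup_normal _ fun _ h => h.1
  haveI hn : (Cfsg.pPrimeCore p X).Normal := Subgroup.sSup_normal _ fun _ h => h.1
  let π := QuotientGroup.mk' (Cfsg.pPrimeCore p X)
  have hπ : Function.Surjective π := QuotientGroup.mk'_surjective _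
  let S' : Sylow p (X ⧸ Cfsg.pPrimeCore p X) := S.mapSurjective hπ
  have hle : (S : Subgroup X).map π ≤ Cfsg.pCore p (X ⧸ Cfsg.pPrimeCore p X) := by
    refine core_case (hX.of_dvd_nat (Subgroup.card_quotient_dvd_card _)) hp2
      (Cfsg.Agent.Lib.OddLocal.pPrimeCore_quotient_eq_bot p) _ (S.isPGroup'.map π)
      (Cfsg.Agent.Lib.Hall.pCore_le_sylow S') ?_
    let φ := π.subgroupMap (S : Subgroup X)
    have hφ : Function.Surjective φ := MonoidHom.subgroupMap_surjective _ _
    have e : (commutator (S : Subgroup X)).map φ = commutator ((S : Subgroup X).map π) := by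
      rw [commutator_def, commutator_def, Subgroup.map_commutator,
        Subgroup.map_top_of_surjective φ hφ]
    rw [← e]
    exact isCyclic_of_surjective (φ.subgroupMap _) (MonoidHom.subgroupMap_surjective _ _)
  have heq : (S : Subgroup X).map π = Cfsg.pCore p (X ⧸ Cfsg.pPrimeCore p X) :=
    le_antisymm hle (Cfsg.Agent.Lib.Hall.pCore_le_sylow S')
  have h := Subgroup.comap_map_eq π (S : Subgroup X)
  rw [QuotientGroup.ker_mk', sup_comm] at h
  rw [← h, heq]
  haveI : (Cfsg.pCore p (X ⧸ Cfsg.pPrimeCore p X)).Normal := Subgroup.sSup_normal _ fun _ h => h.1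
  infer_instance

end Cfsg.Agent.S0521
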