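import Cfsg.Statements.S0529
import Cfsg.Agent.Lib.Hall.Supersolvable

set_option autoImplicit false
open Cfsg

namespace Cfsg.Agent.S0529

universe u

theorem exists_tower (k : ℕ) : ∀ (G : Type u) [Group G] [Finite G], Nat.card G = k →
    Cfsg.IsSupersolvable G →
    ∃ (n : ℕ) (H : Fin (n + 1) → Subgroup G), H 0 = ⊥ ∧ H (Fin.last n) = ⊤ ∧ (∀ i, (H i).Normal) ∧
      (∀ i : Fin n, H i.castSucc ≤ H i.succ ∧ ((H i.castSucc).relIndex (H i.succ)).Prime) ∧
      ∀ i j : Fin n, i ≤ j →
        (H j.castSucc).relIndex (H j.succ) ≤ (H i.castSucc).relIndex (H i.succ) := by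
  induction k using Nat.strongRecOn with | ind k ih => ?_
  intro G _ _ hk h
  rcases subsingleton_or_nontrivial G with hs | hs
  · exact ⟨0, fun _ => ⊥, rfl, Subsingleton.elim _ _, fun _ => inferInstance, fun i => i.elim0,
      fun i => i.elim0⟩
  obtain ⟨N, hN, hp, hmax⟩ := Lib.Hall.exists_normal_max_prime h
  obtain ⟨n, H, h0, h1, hn, hs', hmono⟩ := ih _ (hk ▸ Lib.Hall.card_lt_of_prime_normal hp) (G ⧸ N) rfl
    (Lib.Hall.ss_quotient h N)
  let f := QuotientGroup.mk' N
  have hf : Function.Surjective f := QuotientGroup.mk'_surjective N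
  have hrel : ∀ A B : Subgroup (G ⧸ N), (A.comap f).relIndex (B.comap f) = A.relIndex B := fun A B => by
    rw [Subgroup.relIndex_comap, Subgroup.map_comap_eq_self_of_surjective hf]
  have h00 : (H 0).comap f = N := by rw [h0, MonoidHom.comap_bot, QuotientGroup.ker_mk']
  let H' : Fin (n + 2) → Subgroup G := Fin.cons ⊥ fun i => (H i).comap f
  have hstep : ∀ i : Fin n, (H' i.succ.castSucc).relIndex (H' i.succ.succ) =
      (H i.castSucc).relIndex (H i.succ) := fun i => by
    rw [Fin.castSucc_succ]
    simp only [H', Fin.cons_succ]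
    exact hrel _ _
  have hz : (H' (0 : Fin (n + 1)).castSucc).relIndex (H' (0 : Fin (n + 1)).succ) = Nat.card N := by
    simp only [H', Fin.castSucc_zero, Fin.cons_zero, Fin.cons_succ, h00, Subgroup.relIndex_bot_left]
  refine ⟨n + 1, H', rfl, ?_, fun i => ?_, fun i => ⟨?_, ?_⟩, fun i j hij => ?_⟩
  · simp only [H']
    rw [← Fin.succ_last, Fin.cons_succ, h1, Subgroup.comap_top]
  · induction i using Fin.cases with
    | zero => simp only [H', Fin.cons_zero]; infer_instance
    | succ j => simp only [H', Fin.cons_succ]; exact (hn j).comap f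
  · induction i using Fin.cases with
    | zero => exact bot_le
    | succ j =>
      rw [Fin.castSucc_succ]
      simp only [H', Fin.cons_succ]
      exact Subgroup.comap_mono (hs' j).1
  · induction i using Fin.cases with
    | zero => rw [hz]; exact hp
    | succ j => rw [hstep]; exact (hs' j).2
  · induction j using Fin.cases with
    | zero => rw [Fin.le_zero_iff.mp hij]
    | succ j =>
      induction i using Fin.cases with
      | zero =>
        rw [hz, hstep]
        exact hmax _ (hs' j).2 (((Subgroup.relIndex_dvd_card (H j.castSucc) (H j.succ)).trans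
          (Subgroup.card_subgroup_dvd_card _)).trans (Subgroup.card_quotient_dvd_card N))
      | succ i => rw [hstep, hstep]; exact hmono i j (Fin.succ_le_succ_iff.mp hij)


/-- A finite supersolvable group has a chain of normal subgroups, from the trivial subgroup to the whole group, in which every step has prime index and the primes occurring are non-increasing as one goes up the chain. -/
theorem result {G : Type*} [Group G] [Finite G] (hG : Cfsg.IsSupersolvable G) : ∃ (n : ℕ) (H : Fin (n + 1) → Subgroup G), H 0 = ⊥ ∧ H (Fin.last n) = ⊤ ∧ (∀ i, (H i).Normal) ∧ (∀ i : Fin n, H i.castSucc ≤ H i.succ ∧ ((H i.castSucc).relIndex (H i.succ)).Prime) ∧ ∀ i j : Fin n, i ≤ j → (H j.castSucc).relIndex (H j.succ) ≤ (H i.castSucc).relIndex (H i.succ) := by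
  exact exists_tower _ G rfl hG

end Cfsg.Agent.S0529
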