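import Cfsg.Statements.S0530
import Cfsg.Agent.Lib.Hall.Supersolvable

set_option autoImplicit false
open Cfsg

namespace Cfsg.Agent.S0530

universe u

theorem exists_normal_order_p {G : Type u} [Group G] [Finite G] {p n : ℕ} (hp : p.Prime)
    (hp2 : p ≠ 2) (hG : Nat.card G = 2 * p ^ (n + 1)) :
    ∃ N : Subgroup G, N.Normal ∧ Nat.card N = p := by
  have : Fact p.Prime := ⟨hp⟩
  have P : Sylow p G := Classical.arbitrary _
  have hPc : Nat.card P = p ^ (n + 1) := by
    rw [P.card_eq_multiplicity, hG, Nat.factorization_mul two_ne_zero (pow_ne_zero _ hp.pos.ne'),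
      Finsupp.add_apply, hp.factorization_pow, Finsupp.single_eq_same,
      Nat.factorization_eq_zero_of_not_dvd (fun e => hp2 ((Nat.prime_dvd_prime_iff_eq hp Nat.prime_two).mp e)),
      zero_add]
  have hPi : (P : Subgroup G).index = 2 := by
    refine Nat.eq_of_mul_eq_mul_left (pow_pos hp.pos (n + 1)) ?_
    conv_lhs => rw [← hPc, Subgroup.card_mul_index, hG]
    exact mul_comm _ _
  have hPn : (P : Subgroup G).Normal := Subgroup.normal_of_index_eq_two hPi
  have : Nontrivial P := Finite.one_lt_card_iff_nontrivial.mp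
    (hPc ▸ Nat.one_lt_pow (Nat.succ_ne_zero n) hp.one_lt)
  have : Nontrivial (Subgroup.center P) := P.2.center_nontrivial
  obtain ⟨k, hck⟩ := IsPGroup.iff_card.mp (P.2.to_subgroup (Subgroup.center P))
  obtain ⟨x, hx⟩ := exists_prime_orderOf_dvd_card' (G := Subgroup.center P) p (by
    have := Finite.one_lt_card (α := Subgroup.center P)
    rw [hck] at this ⊢
    exact dvd_pow_self p (by rintro rfl; simp at this))
  let z : G := ((x : P) : G)
  have hz : orderOf z = p := by rw [Subgroup.orderOf_coe, Subgroup.orderOf_coe, hx]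
  have hzP : ∀ g ∈ (P : Subgroup G), g * z = z * g := fun g hg =>
    congrArg Subtype.val (Subgroup.mem_center_iff.mp x.2 ⟨g, hg⟩)
  have hidx := (P : Subgroup G).index_eq_two_iff.mp hPi
  obtain ⟨t, ht⟩ := hidx
  have ht0 : t ∉ (P : Subgroup G) := by
    intro h
    rcases ht 1 with ⟨h1, h2⟩ | ⟨h1, h2⟩
    · exact h2 (one_mem _)
    · exact h2 (by simpa using h)
  have hzt : t * z * t⁻¹ ∈ (P : Subgroup G) := hPn.conj_mem z (x : P).2 t
  have htt : t * t ∈ (P : Subgroup G) := Subgroup.mul_self_mem_of_index_two hPi t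
  have hzt' : ∀ g ∈ (P : Subgroup G), g * (t * z * t⁻¹) = (t * z * t⁻¹) * g := fun g hg => by
    have := hzP (t⁻¹ * g * t) (by simpa using hPn.conj_mem g hg t⁻¹)
    calc g * (t * z * t⁻¹) = t * ((t⁻¹ * g * t) * z) * t⁻¹ := by group
      _ = t * (z * (t⁻¹ * g * t)) * t⁻¹ := by rw [this]
      _ = (t * z * t⁻¹) * g := by group
  -- either `z * z^t` is a nontrivial central element, or `t` inverts `z`
  have key : ∀ w : G, orderOf w = p → (∀ g ∈ (P : Subgroup G), g * w = w * g) →
      t * w * t⁻¹ ∈ Subgroup.zpowers w → ∃ N : Subgroup G, N.Normal ∧ Nat.card N = p := by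
    intro w hw hwP hwt
    refine ⟨Subgroup.zpowers w, ⟨fun y hy g => ?_⟩, by rw [Nat.card_zpowers, hw]⟩
    obtain ⟨j, rfl⟩ := Subgroup.mem_zpowers_iff.mp hy
    rw [← conj_zpow]
    refine zpow_mem ?_ j
    by_cases hg : g ∈ (P : Subgroup G)
    · rw [hwP g hg, mul_inv_cancel_right]; exact Subgroup.mem_zpowers w
    · have hgt : g * t⁻¹ ∈ (P : Subgroup G) :=
        (Subgroup.mul_mem_iff_of_index_two hPi).mpr (by simp [hg, ht0])
      obtain ⟨i, hi⟩ := Subgroup.mem_zpowers_iff.mp hwt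
      refine Subgroup.mem_zpowers_iff.mpr ⟨i, ?_⟩
      have hc : Commute (g * t⁻¹) (w ^ i) := Commute.zpow_right (hwP _ hgt) i
      calc w ^ i = (g * t⁻¹) * w ^ i * (g * t⁻¹)⁻¹ := by rw [hc.eq, mul_inv_cancel_right]
        _ = g * w * g⁻¹ := by rw [hi]; group
  by_cases hy : z * (t * z * t⁻¹) = 1
  · refine key z hz hzP ?_
    rw [eq_inv_of_mul_eq_one_right hy]
    exact inv_mem (Subgroup.mem_zpowers z)
  · have hc : Commute z (t * z * t⁻¹) := hzt' z (x : P).2
    refine key (z * (t * z * t⁻¹)) ?_ (fun g hg => ?_) ?_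
    · refine orderOf_eq_prime ?_ hy
      rw [hc.mul_pow, conj_pow, ← hz, pow_orderOf_eq_one, mul_one, mul_inv_cancel, one_mul]
    · rw [← mul_assoc, hzP g hg, mul_assoc, hzt' g hg, ← mul_assoc]
    · have h2 : t * (t * z * t⁻¹) * t⁻¹ = z := by
        calc t * (t * z * t⁻¹) * t⁻¹ = (t * t) * z * (t * t)⁻¹ := by group
          _ = z := by rw [hzP _ htt, mul_inv_cancel_right]
      have h3 : t * (z * (t * z * t⁻¹)) * t⁻¹ = (t * z * t⁻¹) * (t * (t * z * t⁻¹) * t⁻¹) := by group
      rw [h3, h2, ← hc.eq]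
      exact Subgroup.mem_zpowers _

theorem ss_two_mul {p : ℕ} (hp : p.Prime) : ∀ (n : ℕ) (G : Type u) [Group G] [Finite G],
    Nat.card G = 2 * p ^ n → Cfsg.IsSupersolvable G := by
  intro n
  induction n with
  | zero =>
    intro G _ _ hG
    have : Fact (Nat.Prime 2) := ⟨Nat.prime_two⟩
    have : Group.IsNilpotent G := (IsPGroup.of_card (p := 2) (n := 1) (by simpa using hG)).isNilpotent
    exact Lib.Hall.ss_of_nilpotent
  | succ n ih =>
    intro G _ _ hG
    by_cases hp2 : p = 2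
    · have : Fact (Nat.Prime 2) := ⟨Nat.prime_two⟩
      have : Group.IsNilpotent G :=
        (IsPGroup.of_card (p := 2) (n := n + 2) (by rw [hG, hp2, pow_succ' _ (n + 1)])).isNilpotent
      exact Lib.Hall.ss_of_nilpotent
    obtain ⟨N, hN, hc⟩ := exists_normal_order_p hp hp2 hG
    refine Lib.Hall.ss_of_prime_normal hp hc (ih (G ⧸ N) ?_)
    refine Nat.eq_of_mul_eq_mul_right hp.pos ?_
    conv_lhs => rw [← hc, ← Subgroup.card_eq_card_quotient_mul_card_subgroup N, hG]
    rw [pow_succ]; ring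


/-- A finite group whose order is twice a prime power is supersolvable. -/
theorem result {G : Type*} [Group G] [Finite G] (p n : ℕ) (hp : p.Prime) (hG : Nat.card G = 2 * p ^ n) : Cfsg.IsSupersolvable G := by
  exact ss_two_mul hp n _ hG

end Cfsg.Agent.S0530
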