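import Cfsg.Statements.S0534
import Cfsg.Agent.Lib.Hall.Supersolvable
import Cfsg.Agent.Lib.Hall.Solvable

set_option autoImplicit false
open Cfsg

namespace Cfsg.Agent.S0534

theorem exists_subgroup_prod {G A : Type*} [Group G] [CommGroup A] [Finite G] [Finite A]
    [Group.IsSolvable G] (hA : ∀ p : ℕ, p.Prime → p ∣ Nat.card A → p ∣ Nat.card G)
    (hexp : ∀ p : ℕ, p.Prime → p ∣ Nat.card G →
      (Nat.card A).factorization p + 1 = (Nat.card G).factorization p)
    {d : ℕ} (hd : d ∣ Nat.card G * Nat.card A) : ∃ H : Subgroup (G × A), Nat.card H = d := by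
  classical
  let π : Set ℕ := {p | (Nat.card G).factorization p ≤ d.factorization p}
  obtain ⟨m, hm, hmc, hmf⟩ : ∃ m, m ∣ Nat.card G ∧ Nat.Coprime m (Nat.card G / m) ∧
      ∀ p, m.factorization p = if p ∈ π then (Nat.card G).factorization p else 0 := by
    let f : ℕ →₀ ℕ := (Nat.card G).factorization.filter (· ∈ π)
    have hsupp : ∀ p ∈ f.support, p.Prime := fun p hp => by
      rw [Finsupp.support_filter, Finset.mem_filter] at hp
      exact Nat.prime_of_mem_primeFactors hp.1
    have hm : (f.prod (· ^ ·)).factorization = f := Nat.prod_pow_factorization_eq_self hsupp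
    have hm0 : f.prod (· ^ ·) ≠ 0 := Finset.prod_ne_zero_iff.mpr fun p hp =>
      pow_ne_zero _ (hsupp p hp).ne_zero
    have hmd : f.prod (· ^ ·) ∣ Nat.card G := by
      rw [← Nat.factorization_le_iff_dvd hm0 Nat.card_pos.ne', hm]
      intro p
      simp only [f, Finsupp.filter_apply]
      split <;> simp
    refine ⟨_, hmd, ?_, fun p => by rw [hm]; simp [f, Finsupp.filter_apply]⟩
    refine Nat.coprime_of_dvd' fun p hp h1 h2 => ?_
    have e1 := hp.factorization_pos_of_dvd hm0 h1
    have e2 := hp.factorization_pos_of_dvd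
      (Nat.div_pos (Nat.le_of_dvd Nat.card_pos hmd) (Nat.pos_of_ne_zero hm0)).ne' h2
    rw [Nat.factorization_div hmd, Finsupp.tsub_apply, hm] at e2
    rw [hm] at e1
    simp only [f, Finsupp.filter_apply] at e1 e2
    split at e1 <;> simp_all
  obtain ⟨H, hH⟩ := Lib.Hall.exists_subgroup_card_eq (m := m) (n := Nat.card G / m)
    (Nat.mul_div_cancel' hm).symm hmc
  have hd0 : d ≠ 0 := ne_zero_of_dvd_ne_zero (mul_ne_zero Nat.card_pos.ne' Nat.card_pos.ne') hd
  have hm0 : m ≠ 0 := ne_zero_of_dvd_ne_zero Nat.card_pos.ne' hm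
  have hle : ∀ p, d.factorization p ≤ (Nat.card G).factorization p + (Nat.card A).factorization p := by
    intro p
    have := (Nat.factorization_le_iff_dvd hd0 (mul_ne_zero Nat.card_pos.ne' Nat.card_pos.ne')).mpr hd p
    rwa [Nat.factorization_mul Nat.card_pos.ne' Nat.card_pos.ne', Finsupp.add_apply] at this
  have hmd : m ∣ d := by
    rw [← Nat.factorization_le_iff_dvd hm0 hd0]
    intro p
    rw [hmf]
    split <;> simp_all [π]
  have hrA : d / m ∣ Nat.card A := by
    rw [← Nat.factorization_le_iff_dvd (Nat.div_pos (Nat.le_of_dvd (Nat.pos_of_ne_zero hd0) hmd)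
      (Nat.pos_of_ne_zero hm0)).ne' Nat.card_pos.ne', Nat.factorization_div hmd]
    intro p
    rw [Finsupp.tsub_apply, hmf]
    split
    · have := hle p; omega
    · rename_i hp
      simp only [π, Set.mem_setOf_eq, not_le] at hp
      by_cases hpp : p.Prime ∧ p ∣ Nat.card G
      · have := hexp p hpp.1 hpp.2; omega
      · have : (Nat.card G).factorization p = 0 := by
          rw [Nat.factorization_eq_zero_iff]; tauto
        omega
  obtain ⟨K, hK⟩ := Lib.Hall.hasSubgroupOfEveryOrder (Lib.Hall.ss_of_nilpotent (G := A)) _ hrA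
  exact ⟨H.prod K, by rw [Nat.card_congr (Subgroup.prodEquiv H K).toEquiv, Nat.card_prod, hH, hK,
    Nat.mul_div_cancel' hmd]⟩


/-- Let G be a finite solvable group and A a finite abelian group such that every prime dividing the order of A divides the order of G and, for each prime p dividing the order of G, the exponent of p in the order of A is one less than its exponent in the order of G. Then G × A has a subgroup of every order dividing its order. -/
theorem result {G A : Type*} [Group G] [CommGroup A] [Finite G] [Finite A] [Group.IsSolvable G] (hA : ∀ p : ℕ, p.Prime → p ∣ Nat.card A → p ∣ Nat.card G) (hexp : ∀ p : ℕ, p.Prime → p ∣ Nat.card G → (Nat.card A).factorization p + 1 = (Nat.card G).factorization p) : Cfsg.HasSubgroupOfEveryOrder (G × A) := by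
  intro d hd
  rw [Nat.card_prod] at hd
  exact exists_subgroup_prod hA hexp hd

end Cfsg.Agent.S0534
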