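import Cfsg.Statements.S0535
import Cfsg.Agent.Lib.Hall.Converse

set_option autoImplicit false
open scoped Pointwise commutatorElement
open Cfsg

namespace Cfsg.Agent.S0535

universe u

theorem solvable_aux (n : ℕ) : ∀ (G : Type u) [Group G] [Finite G], Nat.card G = n →
    (∀ H : Subgroup G, H ≠ ⊥ → ∀ p : ℕ, p.Prime → p ∣ Nat.card H →
      ∃ K : Subgroup H, K ≠ ⊤ ∧ ∃ k : ℕ, K.index = p ^ k) → Group.IsSolvable G := by
  induction n using Nat.strongRecOn with | ind n ih => ?_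
  intro G _ _ hn h
  by_cases hbot : (⊤ : Subgroup G) = ⊥
  · exact Group.isSolvable_of_top_eq_bot _ hbot
  have key : ∀ p : ℕ, p.Prime → p ∣ Nat.card G →
      ∃ K : Subgroup G, Group.IsSolvable K ∧ ∃ k : ℕ, K.index = p ^ k := by
    intro p hp hpd
    obtain ⟨K, hK, k, hk⟩ := h ⊤ hbot p hp (by rwa [Subgroup.card_top])
    let K' := K.map (⊤ : Subgroup G).subtype
    have hne : K' ≠ ⊤ := fun he => hK (by
      rw [← Subgroup.index_eq_one] at he ⊢
      rw [Subgroup.index_map_subtype, Subgroup.index_top, mul_one] at he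
      exact he)
    refine ⟨K', ih _ (hn ▸ Lib.Coprime.card_lt_of_ne_top hne) K' rfl fun H hH q hq hqd => ?_,
      k, by rw [Subgroup.index_map_subtype, Subgroup.index_top, mul_one, hk]⟩
    have e := H.equivMapOfInjective K'.subtype K'.subtype_injective
    obtain ⟨L, hL, l, hl⟩ := h (H.map K'.subtype)
      (fun he => hH ((Subgroup.map_eq_bot_iff_of_injective _ K'.subtype_injective).mp he))
      q hq (Nat.card_congr e.toEquiv ▸ hqd)
    refine ⟨L.map e.symm.toMonoidHom, fun he => hL ?_, l, by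
      rw [Subgroup.index_map_of_bijective e.symm.bijective, hl]⟩
    rw [← Subgroup.index_eq_one] at he ⊢
    rwa [Subgroup.index_map_of_bijective e.symm.bijective] at he
  by_cases h3 : ∃ p q r : ℕ, (p.Prime ∧ p ∣ Nat.card G) ∧ (q.Prime ∧ q ∣ Nat.card G) ∧
      (r.Prime ∧ r ∣ Nat.card G) ∧ p ≠ q ∧ p ≠ r ∧ q ≠ r
  · obtain ⟨p, q, r, hp, hq, hr, hpq, hpr, hqr⟩ := h3
    obtain ⟨A, hA, a, ha⟩ := key p hp.1 hp.2
    obtain ⟨B, hB, b, hb⟩ := key q hq.1 hq.2
    obtain ⟨C, hC, c, hc⟩ := key r hr.1 hr.2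
    refine Lib.Hall.isSolvable_of_three hA hB hC
      (Lib.Hall.exists_mul_of_coprime_index ?_) (Lib.Hall.exists_mul_of_coprime_index ?_) ?_
    · rw [ha, hb]; exact Nat.Coprime.pow _ _ ((Nat.coprime_primes hp.1 hq.1).mpr hpq)
    · rw [ha, hc]; exact Nat.Coprime.pow _ _ ((Nat.coprime_primes hp.1 hr.1).mpr hpr)
    · rw [hb, hc]; exact Nat.Coprime.pow _ _ ((Nat.coprime_primes hq.1 hr.1).mpr hqr)
  · push Not at h3
    have h1 : Nat.card G ≠ 1 := fun h1 => hbot (by
      have := (Nat.card_eq_one_iff_unique.mp h1).1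
      exact Subsingleton.elim _ _)
    obtain ⟨p, hp, hpd⟩ := Nat.exists_prime_and_dvd h1
    by_cases h2 : ∃ q : ℕ, (q.Prime ∧ q ∣ Nat.card G) ∧ p ≠ q
    · obtain ⟨q, hq, hpq⟩ := h2
      refine Lib.Char.isSolvable_of_card_eq_two_primes hp hq.1 _ G rfl fun r hr hrd => ?_
      by_contra hcon
      push Not at hcon
      exact hcon.2 (h3 p q r ⟨hp, hpd⟩ hq ⟨hr, hrd⟩ hpq (Ne.symm hcon.1)).symm
    · push Not at h2
      exact Lib.Char.isSolvable_of_card_eq_two_primes hp hp _ G rfl fun r hr hrd => Or.inl (h2 r ⟨hr, hrd⟩).symm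

/-- Suppose that for every nontrivial subgroup H of a finite group and every prime p dividing the order of H there is a proper subgroup of H whose index in H is a power of p. Then the group is solvable. -/
theorem result {G : Type*} [Group G] [Finite G] (h : ∀ H : Subgroup G, H ≠ ⊥ → ∀ p : ℕ, p.Prime → p ∣ Nat.card H → ∃ K : Subgroup H, K ≠ ⊤ ∧ ∃ k : ℕ, K.index = p ^ k) : Group.IsSolvable G := by
  exact solvable_aux _ G rfl h

end Cfsg.Agent.S0535
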