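import Cfsg.Statements.S0537
import Cfsg.Agent.Lib.Hall.Schmidt
import Cfsg.Agent.Lib.Coprime.Abelian

set_option autoImplicit false
open Cfsg

namespace Cfsg.Agent.S0537

/-- A finite non-abelian group in which every proper subgroup is abelian is either of prime-power order, or is generated by a cyclic Sylow p-subgroup and a normal Sylow q-subgroup that is elementary abelian, for distinct primes p and q. -/
theorem result {G : Type*} [Group G] [Finite G] (hna : ¬ IsMulCommutative G) (h : ∀ H : Subgroup G, H ≠ ⊤ → IsMulCommutative H) : (∃ p : ℕ, p.Prime ∧ IsPGroup p G) ∨ ∃ p q : ℕ, p.Prime ∧ q.Prime ∧ p ≠ q ∧ ∃ (P : Sylow p G) (Q : Sylow q G), IsCyclic P ∧ (Q : Subgroup G).Normal ∧ Cfsg.IsElementaryAbelian q (Q : Subgroup G) ∧ (P : Subgroup G) ⊔ Q = ⊤ := by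
  classical
  have hnilsub : ∀ H : Subgroup G, H ≠ ⊤ → Group.IsNilpotent H := fun H hH => by
    haveI := h H hH
    letI : CommGroup H := { (inferInstance : Group H) with mul_comm := fun a b => mul_comm' a b }
    exact CommGroup.isNilpotent
  by_cases hn : Group.IsNilpotent G
  · left
    by_contra hp
    push Not at hp
    obtain ⟨e⟩ := ((Group.isNilpotent_of_finite_tfae (G := G)).out 0 4).mp hn
    refine hna ⟨⟨fun a b => ?_⟩⟩
    refine e.symm.injective ?_
    rw [map_mul, map_mul]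
    funext r P
    haveI := Fact.mk (Nat.prime_of_mem_primeFactors r.2)
    have hPt : (P : Subgroup G) ≠ ⊤ := fun ht => hp r (Nat.prime_of_mem_primeFactors r.2) (fun g => by
      obtain ⟨k, hk⟩ := P.2 ⟨g, ht ▸ Subgroup.mem_top g⟩
      exact ⟨k, congrArg Subtype.val hk⟩)
    exact (h _ hPt).is_comm.comm _ _
  right
  obtain ⟨p, q, hp, hq, hpq, P, Q, x, hPx, hQn, hsup, hxC⟩ :=
    Lib.Hall.minimal_non_nilpotent_structure (G := G) ⟨hn, hnilsub⟩
  haveI := Fact.mk hp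
  haveI := Fact.mk hq
  refine ⟨p, q, hp, hq, hpq, P, Q, (MulEquiv.subgroupCongr hPx.symm).isCyclic.mp (Subgroup.isCyclic_zpowers x),
    hQn, ?_, hsup⟩
  have hPQ : (Nat.card (P : Subgroup G)).Coprime (Nat.card (Q : Subgroup G)) := IsPGroup.coprime_card_of_ne p q hpq _ _ P.2 Q.2
  have hPn : (P : Subgroup G) ≤ Subgroup.normalizer ((Q : Subgroup G) : Set G) := by
    rw [Subgroup.normalizer_eq_top]; exact le_top
  have hQt : (Q : Subgroup G) ≠ ⊤ := fun ht => by
    have h1 : x ∈ (Q : Subgroup G) ⊓ P := ⟨ht ▸ Subgroup.mem_top x, hPx.symm ▸ Subgroup.mem_zpowers x⟩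
    rw [disjoint_iff.mp (IsPGroup.disjoint_of_ne _ _ hpq.symm _ _ Q.2 P.2), Subgroup.mem_bot] at h1
    exact hxC (by rw [h1]; exact one_mem _)
  haveI hQc := h _ hQt
  have hQcomm : ∀ a ∈ (Q : Subgroup G), ∀ b ∈ (Q : Subgroup G), a * b = b * a := fun a ha b hb =>
    congrArg Subtype.val (mul_comm' (⟨a, ha⟩ : (Q : Subgroup G)) ⟨b, hb⟩)
  let E : Subgroup G :=
    { carrier := {u | u ∈ (Q : Subgroup G) ∧ u ^ q = 1}
      one_mem' := ⟨one_mem _, one_pow q⟩
      mul_mem' := fun {a b} ha hb => ⟨mul_mem ha.1 hb.1, by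
        rw [Commute.mul_pow (hQcomm a ha.1 b hb.1), ha.2, hb.2, one_mul]⟩
      inv_mem' := fun {a} ha => ⟨inv_mem ha.1, by rw [inv_pow, ha.2, inv_one]⟩ }
  have hEQ : E ≤ (Q : Subgroup G) := fun u hu => hu.1
  haveI : E.Normal := ⟨fun u hu g => ⟨hQn.conj_mem u hu.1 g, by rw [conj_pow, hu.2, mul_one, mul_inv_cancel]⟩⟩
  refine ⟨hQc, fun u hu => ?_⟩
  by_contra hne
  have hlt : E ≠ (Q : Subgroup G) := fun he => hne (he.symm ▸ hu : u ∈ E).2
  have hEP : (P : Subgroup G) ⊔ E ≠ ⊤ := fun ht => hlt (Subgroup.eq_of_le_of_card_ge hEQ (by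
    have hEn : (P : Subgroup G) ≤ Subgroup.normalizer (E : Set G) := by
      rw [Subgroup.normalizer_eq_top]; exact le_top
    have h1 := Lib.Coprime.card_sup_of_coprime hEn (hPQ.coprime_dvd_right (Subgroup.card_dvd_of_le hEQ))
    have h2 := Lib.Coprime.card_sup_of_coprime hPn hPQ
    rw [ht] at h1
    rw [hsup] at h2
    exact (Nat.eq_of_mul_eq_mul_left Nat.card_pos (h2.symm.trans h1)).le))
  haveI hEc := h _ hEP
  have hfixE : ∀ e ∈ E, e ∈ Subgroup.centralizer ((P : Subgroup G) : Set G) := fun e he =>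
    Subgroup.mem_centralizer_iff.mpr fun z hz => congrArg Subtype.val
      (mul_comm' (⟨z, Subgroup.mem_sup_left hz⟩ : ((P : Subgroup G) ⊔ E : Subgroup G)) ⟨e, Subgroup.mem_sup_right he⟩)
  have hK := Lib.Coprime.inf_centralizer_inf_commutator hPn hPQ
  have hcomm : ⁅(Q : Subgroup G), (P : Subgroup G)⁆ ≠ ⊥ := fun hb => by
    rw [Subgroup.commutator_comm, Subgroup.commutator_eq_bot_iff_le_centralizer] at hb
    exact hxC (hb (hPx.symm ▸ Subgroup.mem_zpowers x))
  have hle : ⁅(Q : Subgroup G), (P : Subgroup G)⁆ ≤ (Q : Subgroup G) := Lib.Coprime.commutator_le_of_le_normalizer' hPn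
  obtain ⟨j, hj⟩ := IsPGroup.iff_card.mp (Q.2.to_le hle)
  have hj0 : j ≠ 0 := fun e => hcomm (Subgroup.eq_bot_of_card_eq _ (by simpa [e] using hj))
  obtain ⟨c, hc⟩ := exists_prime_orderOf_dvd_card' (G := ↥⁅(Q : Subgroup G), (P : Subgroup G)⁆) q (hj ▸ dvd_pow_self q hj0)
  have hcE : (c : G) ∈ E := ⟨hle c.2, by
    have h2 := pow_orderOf_eq_one c
    rw [hc] at h2
    exact congrArg Subtype.val h2⟩
  have h1 : (c : G) ∈ (⊥ : Subgroup G) := hK ▸ ⟨⟨hle c.2, hfixE _ hcE⟩, c.2⟩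
  rw [Subgroup.mem_bot] at h1
  exact hq.ne_one (by rw [← hc, ← Subgroup.orderOf_coe, h1, orderOf_one])

end Cfsg.Agent.S0537
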