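import Cfsg.Statements.S0538
import Cfsg.Agent.Lib.LocalP2.SubnormalJoin

set_option autoImplicit false
open Cfsg Subgroup
open scoped Pointwise commutatorElement

namespace Cfsg.Agent.S0538

universe u

/-- Wielandt's join theorem. -/
theorem sup_isSubnormal : ∀ (n : ℕ) (G : Type u) [Group G] [Finite G], Nat.card G = n →
    ∀ A B : Subgroup G, A.IsSubnormal → B.IsSubnormal → (A ⊔ B).IsSubnormal := by
  intro n
  induction n using Nat.strong_induction_on with
  | _ n ih => ?_
  intro G _ _ hn A B hA hB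
  by_cases htriv : (⊥ : Subgroup G) = ⊤
  · have : A ⊔ B = ⊤ := top_le_iff.mp (htriv ▸ bot_le)
    rw [this]; exact Subgroup.IsSubnormal.top
  obtain ⟨N, ⟨hNn, hNb⟩, hNmin⟩ := (Set.toFinite {X : Subgroup G | X.Normal ∧ X ≠ ⊥}).exists_minimal
    ⟨⊤, inferInstance, fun h => htriv h.symm⟩
  have : N.Normal := hNn
  have hcard : Nat.card (G ⧸ N) < n := hn ▸ Lib.Coprime.card_quotient_lt hNb
  have h1 := ih _ hcard (G ⧸ N) rfl (A.map (QuotientGroup.mk' N)) (B.map (QuotientGroup.mk' N))
    (hA.map (QuotientGroup.mk'_surjective N)) (hB.map (QuotientGroup.mk'_surjective N))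
  rw [← Subgroup.map_sup] at h1
  have h2 := h1.comap (QuotientGroup.mk' N)
  rw [comap_map_eq, QuotientGroup.ker_mk'] at h2
  by_cases htop : A ⊔ B ⊔ N = ⊤
  · have hminN : ∀ M : Subgroup G, M.Normal → M ≤ N → M = ⊥ ∨ M = N := fun M hM hle => by
      by_cases hMb : M = ⊥
      · exact Or.inl hMb
      · exact Or.inr (le_antisymm hle (hNmin ⟨hM, hMb⟩ hle))
    have hA' := Lib.LocalP2.minimal_normal_le_nz_of_subnormal _ G rfl N A hNn hminN hA
    have hB' := Lib.LocalP2.minimal_normal_le_nz_of_subnormal _ G rfl N B hNn hminN hB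
    refine (Subgroup.normalizer_eq_top_iff.mp ?_).isSubnormal
    rw [eq_top_iff, ← htop]
    exact sup_le le_normalizer fun x hx => normalizer_inf_normalizer_le_normalizer_sup A B ⟨hA' hx, hB' hx⟩
  · have h3 := ih _ (hn ▸ Lib.Coprime.card_lt_of_ne_top htop) ↥(A ⊔ B ⊔ N) rfl
      (A.subgroupOf (A ⊔ B ⊔ N)) (B.subgroupOf (A ⊔ B ⊔ N)) hA.subgroupOf hB.subgroupOf
    rw [← Subgroup.subgroupOf_sup (le_sup_left.trans le_sup_left) (le_sup_right.trans le_sup_left)] at h3
    exact Subgroup.IsSubnormal.trans le_sup_left h3 h2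


/-- The join of two subnormal subgroups of a finite group is subnormal. -/
theorem result {G : Type*} [Group G] [Finite G] (A B : Subgroup G) (hA : A.IsSubnormal) (hB : B.IsSubnormal) : (A ⊔ B).IsSubnormal := by
  exact sup_isSubnormal _ G rfl A B hA hB

end Cfsg.Agent.S0538
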