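import Cfsg.Statements.S0540
import Cfsg.Agent.Lib.Hall.SubnormalFamily

set_option autoImplicit false
open Pointwise
open Cfsg

namespace Cfsg.Agent.S0540

open Subgroup
open scoped Pointwise

universe u

theorem aux {G : Type u} [Group G] [Finite G] (A : Subgroup G) (U : Set (Subgroup G)) (hU : U.Nonempty)
    (S : Subgroup G → Set (Subgroup G))
    (hS : ∀ V B : Subgroup G, B ∈ S V ↔ (∃ g : G, B = MulAut.conj g • A) ∧ B ≤ V ∧ (B.subgroupOf V).IsSubnormal)
    (h1 : ∀ V ∈ U, A ∈ S V) (h2 : ∀ V ∈ U, ∀ W ∈ U, ∀ B ∈ S W, B ≤ V → B ∈ S V)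
    (h3 : ∀ V ∈ U, ∀ W ∈ U, ∃ X ∈ U, normalizer ((sSup (S V ∩ S W) : Subgroup G) : Set G) ≤ X) :
    ∃ M ∈ U, ∀ V ∈ U, V ≤ M := by
  classical
  have hmax : ∀ V ∈ U, ∃ M ∈ U, V ≤ M ∧ ∀ K ∈ U, M ≤ K → K = M := fun V hV => by
    obtain ⟨M, hVM, hM⟩ := Finite.exists_le_maximal (p := (· ∈ U)) hV
    exact ⟨M, hM.prop, hVM, fun K hK hMK => (hM.eq_of_le hK hMK).symm⟩
  obtain ⟨V₀, hV₀⟩ := hU
  obtain ⟨M₀, hM₀, -, hM₀max⟩ := hmax V₀ hV₀
  suffices huniq : ∀ V ∈ U, ∀ W ∈ U, (∀ K ∈ U, V ≤ K → K = V) → (∀ K ∈ U, W ≤ K → K = W) → V = W by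
    refine ⟨M₀, hM₀, fun V hV => ?_⟩
    obtain ⟨M, hM, hVM, hMmax⟩ := hmax V hV
    exact hVM.trans (huniq M hM M₀ hM₀ hMmax hM₀max).le
  by_contra! hbad
  obtain ⟨V', hV', W', hW', hmV', hmW', hne'⟩ := hbad
  let P : Set (Subgroup G × Subgroup G) := {x | x.1 ∈ U ∧ x.2 ∈ U ∧ (∀ K ∈ U, x.1 ≤ K → K = x.1) ∧
    (∀ K ∈ U, x.2 ≤ K → K = x.2) ∧ x.1 ≠ x.2}
  obtain ⟨⟨V, W⟩, ⟨hV, hW, hmV, hmW, hne⟩, hbest⟩ := P.exists_max_image
    (fun x => (S x.1 ∩ S x.2).ncard) P.toFinite ⟨(V', W'), hV', hW', hmV', hmW', hne'⟩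
  dsimp only at hV hW hmV hmW hne hbest
  let D := S V ∩ S W
  obtain ⟨X, hX, hNX⟩ := h3 V hV W hW
  obtain ⟨M, hM, hXM, hMmax⟩ := hmax X hX
  have hDX : D ⊆ S M := fun B hB =>
    h2 M hM V hV B hB.1 ((le_sSup hB).trans (le_normalizer.trans (hNX.trans hXM)))
  have key : ∀ V₁ ∈ U, (∀ K ∈ U, V₁ ≤ K → K = V₁) → D ⊆ S V₁ → M = V₁ := by
    intro V₁ hV₁ hmV₁ hD
    have hconj : ∀ B ∈ S V₁, ∀ v ∈ V₁, MulAut.conj v • B ∈ S V₁ := by
      intro B hB v hv
      obtain ⟨⟨g, rfl⟩, hle, hsn⟩ := (hS V₁ _).mp hB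
      have hle' : MulAut.conj v • MulAut.conj g • A ≤ V₁ := fun x hx => by
        rw [Lib.Coprime.mem_conj_smul] at hx
        have := V₁.mul_mem (V₁.mul_mem hv (hle hx)) (V₁.inv_mem hv)
        simpa [mul_assoc] using this
      refine (hS V₁ _).mpr ⟨⟨v * g, (Lib.Coprime.conj_smul_mul v g A).symm⟩, hle', ?_⟩
      have h4 := hsn.map (f := (MulAut.conj (⟨v, hv⟩ : V₁)).toMonoidHom) (MulAut.conj (⟨v, hv⟩ : V₁)).surjective
      convert h4 using 1
      ext y
      constructor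
      · intro hy
        rw [mem_subgroupOf, Lib.Coprime.mem_conj_smul] at hy
        refine ⟨⟨v, hv⟩⁻¹ * y * ⟨v, hv⟩, hy, ?_⟩
        simp [mul_assoc]
      · rintro ⟨z, hz, rfl⟩
        rw [mem_subgroupOf, Lib.Coprime.mem_conj_smul]
        have hz' : (z : G) ∈ MulAut.conj g • A := hz
        simpa [mul_assoc] using hz'
    by_cases hD1 : D = S V₁
    · have hN : V₁ ≤ normalizer ((sSup D : Subgroup G) : Set G) := fun v hv => by
        refine Lib.GS.mem_normalizer_of_cmap_le ?_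
        show MulAut.conj v • sSup D ≤ sSup D
        rw [Lib.Hall.conj_smul_sSup]
        refine iSup₂_le fun B hB => le_sSup ?_
        rw [hD1] at hB ⊢
        exact hconj B hB v hv
      exact hmV₁ M hM (hN.trans (hNX.trans hXM))
    by_contra hMV
    let S' : Set (Subgroup V₁) := {C | C.map V₁.subtype ∈ S V₁}
    let S₀' : Set (Subgroup V₁) := {C | C.map V₁.subtype ∈ D}
    have hsub : ∀ B ∈ S V₁, (B.subgroupOf V₁).map V₁.subtype = B := fun B hB =>
      map_subgroupOf_eq_of_le ((hS V₁ B).mp hB).2.1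
    have hssub : S₀' ⊂ S' := by
      refine ⟨fun C hC => hD hC, fun hle => hD1 (Set.Subset.antisymm hD fun B hB => ?_)⟩
      have : B.subgroupOf V₁ ∈ S' := by show _ ∈ S V₁; rw [hsub B hB]; exact hB
      have h5 : (B.subgroupOf V₁).map V₁.subtype ∈ D := hle this
      rwa [hsub B hB] at h5
    obtain ⟨C, hC, hC0, hCN⟩ := Lib.Hall.exists_normalize S' S₀'
      (fun C hC => by
        have h4 := ((hS V₁ _).mp hC).2.2
        rwa [subgroupOf, comap_map_eq_self_of_injective V₁.subtype_injective] at h4)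
      (fun C hC v => by
        show (MulAut.conj v • C).map V₁.subtype ∈ S V₁
        rw [Lib.Coprime.map_conj_smul]
        exact hconj _ hC v v.2) hssub
    have hT : (sSup S₀').map V₁.subtype = sSup D := by
      refine le_antisymm ?_ (sSup_le fun B hB => ?_)
      · rw [map_le_iff_le_comap]
        exact sSup_le fun C hC => map_le_iff_le_comap.mp (le_sSup hC)
      · rw [← hsub B (hD hB)]
        refine map_mono (le_sSup ?_)
        show _ ∈ D
        rw [hsub B (hD hB)]; exact hB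
    have hBX : C.map V₁.subtype ≤ M := by
      have h4 := (map_mono hCN).trans (le_normalizer_map V₁.subtype)
      rw [hT] at h4
      exact h4.trans (hNX.trans hXM)
    have hmem : C.map V₁.subtype ∈ S M := h2 M hM V₁ hV₁ _ hC hBX
    have hlt : (S V ∩ S W).ncard < (S V₁ ∩ S M).ncard := Set.ncard_lt_ncard
      ⟨fun B hB => ⟨hD hB, hDX hB⟩, fun hle => hC0 (hle ⟨hC, hmem⟩)⟩ (Set.toFinite _)
    exact absurd (hbest (V₁, M) ⟨hV₁, hM, hmV₁, hMmax, fun e => hMV e.symm⟩) (not_le.mpr hlt)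
  exact hne ((key V hV hmV Set.inter_subset_left).symm.trans (key W hW hmW Set.inter_subset_right))


/-- A uniqueness lemma of zipper type. Let A be a subgroup of a finite group G and U a nonempty family of subgroups. For V in U write S(V) for the set of conjugates of A that lie in V and are subnormal in V. Assume: A belongs to S(V) for every V in U; a member of some S(W) that lies in V belongs to S(V); and for all V, W in U the normalizer of the join of S(V) ∩ S(W) lies in some member of U. Then U has a greatest element. -/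
theorem result {G : Type*} [Group G] [Finite G] (A : Subgroup G) (U : Set (Subgroup G)) (hU : U.Nonempty) (S : Subgroup G → Set (Subgroup G)) (hS : ∀ V B : Subgroup G, B ∈ S V ↔ (∃ g : G, B = MulAut.conj g • A) ∧ B ≤ V ∧ (B.subgroupOf V).IsSubnormal) (h1 : ∀ V ∈ U, A ∈ S V) (h2 : ∀ V ∈ U, ∀ W ∈ U, ∀ B ∈ S W, B ≤ V → B ∈ S V) (h3 : ∀ V ∈ U, ∀ W ∈ U, ∃ X ∈ U, Subgroup.normalizer ((sSup (S V ∩ S W) : Subgroup G) : Set G) ≤ X) : ∃ M ∈ U, ∀ V ∈ U, V ≤ M := by
  exact aux A U hU S hS h1 h2 h3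

end Cfsg.Agent.S0540
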