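import Cfsg.Statements.S0541
import Cfsg.Agent.Lib.Hall.SubnormalFamily
import Cfsg.Agent.S0064

set_option autoImplicit false
open Pointwise
open Cfsg

namespace Cfsg.Agent.S0541

open Subgroup
open scoped Pointwise

universe u

theorem aux {G : Type u} [Group G] [Finite G] (p : ℕ) [Fact p.Prime] (Z Y : Subgroup G)
    (h : ∀ g : G, IsPGroup p ↥(⨆ y ∈ Y, MulAut.conj (y * g) • Z)) :
    ∃ P : Sylow p G, Y ≤ normalizer ((⨆ g ∈ {g : G | MulAut.conj g • Z ≤ (P : Subgroup G)},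
      MulAut.conj g • Z : Subgroup G) : Set G) := by
  classical
  let W : Subgroup G → Subgroup G := fun Q => ⨆ g ∈ {g : G | MulAut.conj g • Z ≤ Q}, MulAut.conj g • Z
  have hWle : ∀ Q, W Q ≤ Q := fun Q => iSup₂_le fun g hg => hg
  have hWmono : ∀ Q R, Q ≤ R → W Q ≤ W R := fun Q R hQR =>
    iSup₂_le fun g hg => le_iSup₂ (f := fun g (_ : g ∈ {g : G | MulAut.conj g • Z ≤ R}) => MulAut.conj g • Z)
      g (le_trans hg hQR)
  obtain ⟨R, -, hR⟩ := Finite.exists_le_maximal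
    (p := fun Q : Subgroup G => IsPGroup p Q ∧ Y ≤ normalizer (Q : Set G) ∧ W Q = Q) (a := ⊥)
    ⟨IsPGroup.of_bot, by rw [normalizer_eq_top]; exact le_top, le_bot_iff.mp (hWle ⊥)⟩
  obtain ⟨hRp, hRY, hRW⟩ := hR.prop
  obtain ⟨P, hRP⟩ := hRp.exists_le_sylow
  refine ⟨P, ?_⟩
  show Y ≤ normalizer ((W (P : Subgroup G) : Subgroup G) : Set G)
  suffices hWR : W (P : Subgroup G) ≤ R by
    rw [le_antisymm hWR (hRW ▸ hWmono R P hRP)]; exact hRY
  by_contra hWR
  let J := W (P : Subgroup G)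
  have hRJ : R ≤ J := hRW ▸ hWmono R P hRP
  haveI : Group.IsNilpotent J := (P.2.to_le (hWle _)).isNilpotent
  let S' : Set (Subgroup J) := {C | ∃ g : G, C.map J.subtype = MulAut.conj g • Z}
  let S₀' : Set (Subgroup J) := {C | C ∈ S' ∧ C.map J.subtype ≤ R}
  have hgJ : ∀ g : G, MulAut.conj g • Z ≤ (P : Subgroup G) → MulAut.conj g • Z ≤ J := fun g hg =>
    le_iSup₂ (f := fun g (_ : g ∈ {g : G | MulAut.conj g • Z ≤ (P : Subgroup G)}) => MulAut.conj g • Z) g hg
  have hssub : S₀' ⊂ S' := by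
    refine ⟨fun C hC => hC.1, fun hle => hWR (iSup₂_le fun g hg => ?_)⟩
    have h1 : ((MulAut.conj g • Z).subgroupOf J).map J.subtype = MulAut.conj g • Z :=
      map_subgroupOf_eq_of_le (hgJ g hg)
    have h2 := (hle ⟨g, h1⟩ : _ ∈ S₀').2
    rwa [h1] at h2
  obtain ⟨C, ⟨g, hg⟩, hC0, hCN⟩ := Lib.Hall.exists_normalize S' S₀'
    (fun C _ => Cfsg.Agent.S0064.result.mp inferInstance C)
    (fun C hC v => by
      obtain ⟨g, hg⟩ := hC
      exact ⟨(v : G) * g, by rw [Lib.Coprime.map_conj_smul, hg, Lib.Coprime.conj_smul_mul]; rfl⟩) hssub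
  have hT : (sSup S₀').map J.subtype = R := by
    refine le_antisymm ?_ ?_
    · rw [map_le_iff_le_comap]
      exact sSup_le fun C hC => map_le_iff_le_comap.mp hC.2
    · conv_lhs => rw [← hRW]
      refine iSup₂_le fun a ha => ?_
      have h1 : ((MulAut.conj a • Z).subgroupOf J).map J.subtype = MulAut.conj a • Z :=
        map_subgroupOf_eq_of_le (le_trans ha hRJ)
      rw [← h1]
      exact map_mono (le_sSup ⟨⟨a, h1⟩, h1.symm ▸ ha⟩)
  have hgN : MulAut.conj g • Z ≤ normalizer (R : Set G) := by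
    rw [← hg, ← hT]
    exact (map_mono hCN).trans (le_normalizer_map _)
  let M : Subgroup G := ⨆ y ∈ Y, MulAut.conj (y * g) • Z
  have hMN : M ≤ normalizer (R : Set G) := iSup₂_le fun y hy x hx => by
    rw [Lib.Coprime.conj_smul_mul, Lib.Coprime.mem_conj_smul] at hx
    have h1 := mul_mem (mul_mem (hRY hy) (hgN hx)) (inv_mem (hRY hy))
    simpa [mul_assoc] using h1
  have hgM : MulAut.conj g • Z ≤ M := by
    refine le_trans (le_of_eq ?_) (le_iSup₂ (f := fun y (_ : y ∈ Y) => MulAut.conj (y * g) • Z) 1 Y.one_mem)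
    rw [one_mul]
  have hQW : R ⊔ M ≤ W (R ⊔ M) := sup_le (le_trans hRW.ge (hWmono _ _ le_sup_left))
    (iSup₂_le fun y hy =>
      le_iSup₂ (f := fun a (_ : a ∈ {a : G | MulAut.conj a • Z ≤ R ⊔ M}) => MulAut.conj a • Z) (y * g)
        (le_trans (le_iSup₂ (f := fun y (_ : y ∈ Y) => MulAut.conj (y * g) • Z) y hy) le_sup_right))
  have hQY : Y ≤ normalizer ((R ⊔ M : Subgroup G) : Set G) := fun y hy => by
    refine Lib.GS.mem_normalizer_of_cmap_le ?_
    show (R ⊔ M).map (MulAut.conj y).toMonoidHom ≤ R ⊔ M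
    rw [Subgroup.map_sup]
    refine sup_le_sup (le_of_eq (Lib.Coprime.conj_smul_eq_self (hRY hy))) ?_
    show M.map (MulAut.conj y).toMonoidHom ≤ M
    simp only [M, Subgroup.map_iSup]
    refine iSup₂_le fun z hz => ?_
    show MulAut.conj y • MulAut.conj (z * g) • Z ≤ _
    rw [← Lib.Coprime.conj_smul_mul, ← mul_assoc]
    exact le_iSup₂ (f := fun y (_ : y ∈ Y) => MulAut.conj (y * g) • Z) (y * z) (Y.mul_mem hy hz)
  have hQ : IsPGroup p ↥(R ⊔ M) := IsPGroup.to_sup_of_normal_left' hRp (h g) hMN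
  have hle : R ⊔ M ≤ R := hR.le_of_ge ⟨hQ, hQY, le_antisymm (hWle _) hQW⟩ le_sup_left
  apply hC0
  exact ⟨⟨g, hg⟩, hg.le.trans (hgM.trans (le_sup_right.trans hle))⟩


/-- Let Z and Y be subgroups of a finite group G and p a prime. Suppose that for every g in G the subgroup generated by the conjugates of g Z g⁻¹ under Y is a p-group. Then there is a Sylow p-subgroup P of G such that Y normalizes the subgroup generated by all conjugates of Z contained in P. -/
theorem result {G : Type*} [Group G] [Finite G] (p : ℕ) [Fact p.Prime] (Z Y : Subgroup G) (h : ∀ g : G, IsPGroup p ↥(⨆ y ∈ Y, MulAut.conj (y * g) • Z)) : ∃ P : Sylow p G, Y ≤ Subgroup.normalizer ((⨆ g ∈ {g : G | MulAut.conj g • Z ≤ (P : Subgroup G)}, MulAut.conj g • Z : Subgroup G) : Set G) := by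
  exact aux p Z Y h

end Cfsg.Agent.S0541
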