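import Cfsg.Statements.S0542
import Cfsg.Agent.Lib.Coprime.Action

set_option autoImplicit false
open scoped Pointwise commutatorElement
open Cfsg

namespace Cfsg.Agent.S0542

/-- A Sylow p-subgroup of a finite group meets every subnormal subgroup H in a Sylow p-subgroup of H. -/
theorem result {G : Type*} [Group G] [Finite G] (p : ℕ) [Fact p.Prime] (H : Subgroup G) (hH : H.IsSubnormal) (S : Sylow p G) : ∃ Q : Sylow p H, (Q : Subgroup H) = (S : Subgroup G).subgroupOf H := by
  have key : ¬ p ∣ (S : Subgroup G).relIndex H := by
    induction hH with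
    | top => rw [Subgroup.relIndex_top_right]; exact S.not_dvd_index
    | step H K hle hK hN ih =>
      let X : Subgroup G := (S : Subgroup G) ⊓ K
      have hXn : X ≤ Subgroup.normalizer (H : Set G) :=
        inf_le_right.trans ((Subgroup.normal_subgroupOf_iff_le_normalizer hle).mp hN)
      have h1 := Lib.Coprime.card_sup_mul_card_inf_of_le_normalizer hXn
      have h2 := ((X ⊓ H).subgroupOf H).index_mul_card
      have h3 := (X.subgroupOf (X ⊔ H)).index_mul_card
      rw [Lib.Coprime.card_subgroupOf inf_le_right] at h2
      rw [Lib.Coprime.card_subgroupOf le_sup_left] at h3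
      rw [← h2, ← h3] at h1
      have e : X.relIndex (X ⊔ H) = (X ⊓ H).relIndex H := by
        apply mul_right_cancel₀ (mul_ne_zero (Nat.card_pos (α := X)).ne'
          (Nat.card_pos (α := (X ⊓ H : Subgroup G))).ne')
        calc _ = X.relIndex (X ⊔ H) * Nat.card X * Nat.card (X ⊓ H : Subgroup G) := by ring
          _ = Nat.card X * ((X ⊓ H).relIndex H * Nat.card (X ⊓ H : Subgroup G)) := h1
          _ = _ := by ring
      have e2 : (S : Subgroup G).relIndex H = (X ⊓ H).relIndex H := by
        rw [Subgroup.inf_relIndex_right, ← Subgroup.inf_relIndex_right, ← Subgroup.inf_relIndex_right X,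
          show X ⊓ H = (S : Subgroup G) ⊓ H from by
            rw [show X = (S : Subgroup G) ⊓ K from rfl, inf_assoc, inf_eq_right.mpr hle]]
      have hd := Subgroup.relIndex_mul_relIndex X (X ⊔ H) K le_sup_left (sup_le inf_le_right hle)
      rw [e, ← e2, show X.relIndex K = (S : Subgroup G).relIndex K from Subgroup.inf_relIndex_right _ _] at hd
      exact fun h => ih (hd ▸ h.mul_right _)
  exact ⟨(S.2.comap_subtype : IsPGroup p ((S : Subgroup G).subgroupOf H)).toSylow key, rfl⟩

end Cfsg.Agent.S0542
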