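import Cfsg.Statements.S0546
import Cfsg.Agent.Lib.Hall.Carter

set_option autoImplicit false
open Cfsg

namespace Cfsg.Agent.S0546

open scoped commutatorElement

/-- The normal closure of a system normalizer of a finite solvable group is the whole group. -/
theorem result {G : Type*} [Group G] [Finite G] [Group.IsSolvable G] (K : Nat.Primes → Subgroup G) (hK : Cfsg.IsComplementSystem K) : Subgroup.normalClosure ((Cfsg.systemNormalizer K : Subgroup G) : Set G) = ⊤ := by

  by_contra hne
  set M := Subgroup.normalClosure ((Cfsg.systemNormalizer K : Subgroup G) : Set G) with hM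
  haveI : Nontrivial (G ⧸ M) := QuotientGroup.nontrivial_iff.mpr hne
  have hlt := Group.IsSolvable.commutator_lt_top_of_nontrivial (G ⧸ M)
  set N := (commutator (G ⧸ M)).comap (QuotientGroup.mk' M) with hN
  haveI : N.Normal := Subgroup.Normal.comap inferInstance _
  have hGN : Group.IsNilpotent (G ⧸ N) := by
    have hc : commutator G ≤ N := by
      rw [hN, ← Subgroup.map_le_iff_le_comap, _root_.commutator_def, _root_.commutator_def,
        Subgroup.map_commutator, Subgroup.map_top_of_surjective _ (QuotientGroup.mk'_surjective M)]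
    suffices hcomm : ∀ a b : G ⧸ N, a * b = b * a by
      let _ : CommGroup (G ⧸ N) := { (inferInstance : Group (G ⧸ N)) with mul_comm := hcomm }
      infer_instance
    intro a b
    obtain ⟨a, rfl⟩ := QuotientGroup.mk_surjective a
    obtain ⟨b, rfl⟩ := QuotientGroup.mk_surjective b
    rw [← QuotientGroup.mk_mul, ← QuotientGroup.mk_mul, QuotientGroup.eq]
    apply hc
    have : (a * b)⁻¹ * (b * a) = ⁅b⁻¹, a⁻¹⁆ := by rw [commutatorElement_def]; group
    rw [this]
    exact Subgroup.commutator_mem_commutator (Subgroup.mem_top _) (Subgroup.mem_top _)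
  have hsup := Lib.Hall.systemNormalizer_sup_eq_top hK N hGN
  have hMN : M ≤ N := fun x hx => by
    rw [hN, Subgroup.mem_comap, QuotientGroup.mk'_apply, (QuotientGroup.eq_one_iff x).mpr hx]
    exact one_mem _
  have htop : N = ⊤ := by
    rw [eq_top_iff, ← hsup]
    exact sup_le (le_trans Subgroup.subset_normalClosure hMN) le_rfl
  apply hlt.ne
  rw [← Subgroup.map_comap_eq_self_of_surjective (QuotientGroup.mk'_surjective M) (commutator (G ⧸ M)),
    ← hN, htop, Subgroup.map_top_of_surjective _ (QuotientGroup.mk'_surjective M)]

end Cfsg.Agent.S0546
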