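import Cfsg.Statements.S0547
import Cfsg.Agent.Lib.Hall.Primitive
import Mathlib.GroupTheory.GroupAction.Primitive
import Mathlib.Algebra.IsPrimePow

set_option autoImplicit false
open scoped Pointwise commutatorElement
open Cfsg

namespace Cfsg.Agent.S0547

/-- Let a finite solvable group G act faithfully and primitively on a set, and let M be a minimal normal subgroup of G. Then M is transitive with trivial point stabilizers, and the number of points equals the order of M, which is a prime power p ^ d with d ≥ 1. -/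
theorem result {G : Type*} [Group G] [Finite G] [Group.IsSolvable G] {Ω : Type*} [Nonempty Ω] [MulAction G Ω] [FaithfulSMul G Ω] (hprim : MulAction.IsPreprimitive G Ω) (M : Subgroup G) [M.Normal] (hM : M ≠ ⊥) (hmin : ∀ K : Subgroup G, K.Normal → K ≤ M → K = ⊥ ∨ K = M) : MulAction.IsPretransitive M Ω ∧ (∀ ω : Ω, MulAction.stabilizer M ω = ⊥) ∧ ∃ p d : ℕ, p.Prime ∧ 0 < d ∧ Nat.card Ω = p ^ d ∧ Nat.card M = p ^ d := by
  have hfix : MulAction.fixedPoints M Ω ≠ .univ := by
    intro h
    apply hM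
    rw [eq_bot_iff]
    intro m hm
    rw [Subgroup.mem_bot]
    apply eq_of_smul_eq_smul (α := Ω)
    intro ω
    rw [one_smul]
    exact (Set.eq_univ_iff_forall.mp h ω) ⟨m, hm⟩
  have htr : MulAction.IsPretransitive M Ω :=
    MulAction.IsQuasiPreprimitive.isPretransitive_of_normal (G := G) hfix
  obtain ⟨hc, p, hp, hpow⟩ := Lib.Hall.minimal_normal_solvable M hM hmin
  have hreg : ∀ ω : Ω, MulAction.stabilizer M ω = ⊥ := by
    intro ω
    rw [eq_bot_iff]
    intro m hm
    rw [Subgroup.mem_bot]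
    apply Subtype.ext
    apply eq_of_smul_eq_smul (α := Ω)
    intro x
    obtain ⟨a, rfl⟩ := htr.exists_smul_eq ω x
    show m • a • ω = (1 : G) • a • ω
    rw [one_smul, ← mul_smul, mul_comm' m a, mul_smul, MulAction.mem_stabilizer_iff.mp hm]
  refine ⟨htr, hreg, ?_⟩
  obtain ⟨ω⟩ := ‹Nonempty Ω›
  have : Fact p.Prime := ⟨hp⟩
  obtain ⟨d, hd⟩ := IsPGroup.iff_card.mp (Lib.Hall.isPGroup_of_pow_eq_one hpow)
  refine ⟨p, d, hp, Nat.pos_of_ne_zero fun h0 => hM (Subgroup.card_eq_one.mp (by rw [hd, h0, pow_zero])), ?_, hd⟩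
  rw [← hd]
  refine (Nat.card_eq_of_bijective (fun m : M => m • ω) ⟨fun a b h => ?_, fun x => htr.exists_smul_eq ω x⟩).symm
  have : b⁻¹ * a ∈ MulAction.stabilizer M ω := by
    rw [MulAction.mem_stabilizer_iff, mul_smul]
    exact inv_smul_eq_iff.mpr h
  rw [hreg, Subgroup.mem_bot, inv_mul_eq_one] at this
  exact this.symm

end Cfsg.Agent.S0547
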