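import Cfsg.Statements.S0548
import Cfsg.Agent.Lib.Hall.Primitive
import Mathlib.GroupTheory.GroupAction.Primitive

set_option autoImplicit false
open scoped Pointwise commutatorElement
open Cfsg

namespace Cfsg.Agent.S0548

/-- Let a finite solvable group G act faithfully and primitively on a set, let M be a minimal normal subgroup and H the stabilizer of a point. Then H is a complement to M, no non-identity element of H centralizes M, and the only subgroups of M normalized by H are the trivial subgroup and M. -/
theorem result {G : Type*} [Group G] [Finite G] [Group.IsSolvable G] {Ω : Type*} [MulAction G Ω] [FaithfulSMul G Ω] (hprim : MulAction.IsPreprimitive G Ω) (M : Subgroup G) [M.Normal] (hM : M ≠ ⊥) (hmin : ∀ K : Subgroup G, K.Normal → K ≤ M → K = ⊥ ∨ K = M) (ω : Ω) : Subgroup.IsComplement' M (MulAction.stabilizer G ω) ∧ MulAction.stabilizer G ω ⊓ Subgroup.centralizer (M : Set G) = ⊥ ∧ ∀ K : Subgroup G, K ≤ M → MulAction.stabilizer G ω ≤ Subgroup.normalizer (K : Set G) → K = ⊥ ∨ K = M := by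
  have hfix : MulAction.fixedPoints M Ω ≠ .univ := by
    intro h
    apply hM
    rw [eq_bot_iff]
    intro m hm
    rw [Subgroup.mem_bot]
    apply eq_of_smul_eq_smul (α := Ω)
    intro x
    rw [one_smul]
    exact (Set.eq_univ_iff_forall.mp h x) ⟨m, hm⟩
  have : Nontrivial Ω := by
    by_contra h
    rw [not_nontrivial_iff_subsingleton] at h
    exact hfix (Set.eq_univ_of_forall fun x m => Subsingleton.elim _ _)
  let U := MulAction.stabilizer G ω
  have hU : IsCoatom U := MulAction.IsPreprimitive.isCoatom_stabilizer_of_isPreprimitive G ω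
  have hcore : U.normalCore = ⊥ := by
    rw [eq_bot_iff]
    intro g hg
    rw [Subgroup.mem_bot]
    apply eq_of_smul_eq_smul (α := Ω)
    intro x
    obtain ⟨a, rfl⟩ := MulAction.exists_smul_eq G ω x
    have h := Subgroup.normalCore_le U ((Subgroup.normalCore_normal U).conj_mem g hg a⁻¹)
    rw [MulAction.mem_stabilizer_iff, inv_inv, mul_smul, mul_smul, inv_smul_eq_iff] at h
    rw [one_smul, h]
  obtain ⟨hc, -⟩ := Lib.Hall.minimal_normal_solvable M hM hmin
  have := hc
  refine ⟨Lib.Hall.isComplement'_of_normal hU hcore hM hM (Subgroup.le_centralizer M), ?_, fun K hK hKn => ?_⟩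
  · rw [inf_comm]; exact Lib.Hall.centralizer_inf_eq_bot hU hcore hM
  · refine hmin K (Subgroup.normalizer_eq_top_iff.mp (eq_top_iff.mpr
      ((Lib.Hall.sup_eq_top_of_core_eq_bot hU hcore hM).ge.trans (sup_le ?_ hKn)))) hK
    refine le_trans ?_ (Subgroup.centralizer_le_normalizer _)
    exact (Subgroup.le_centralizer M).trans (Subgroup.centralizer_le hK)

end Cfsg.Agent.S0548
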