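import Cfsg.Statements.S0550
import Cfsg.Agent.Lib.Hall.Primitive

set_option autoImplicit false
open scoped Pointwise commutatorElement
open Cfsg

namespace Cfsg.Agent.S0550

/-- Let U be a maximal subgroup with trivial normal core in a finite group G, and A ≠ B two minimal normal subgroups. Then A is the centralizer of B and B that of A, U complements each of them, A and B are non-abelian, and A, B and (A ⊔ B) ∩ U are pairwise isomorphic. -/
theorem result {G : Type*} [Group G] [Finite G] (U : Subgroup G) (hU : IsCoatom U) (hcore : U.normalCore = ⊥) (A B : Subgroup G) [A.Normal] [B.Normal] (hA : A ≠ ⊥) (hB : B ≠ ⊥) (hAmin : ∀ K : Subgroup G, K.Normal → K ≤ A → K = ⊥ ∨ K = A) (hBmin : ∀ K : Subgroup G, K.Normal → K ≤ B → K = ⊥ ∨ K = B) (hAB : A ≠ B) : Subgroup.centralizer (B : Set G) = A ∧ Subgroup.centralizer (A : Set G) = B ∧ Subgroup.IsComplement' A U ∧ Subgroup.IsComplement' B U ∧ ¬ IsMulCommutative A ∧ Nonempty (A ≃* B) ∧ Nonempty (A ≃* ↥((A ⊔ B) ⊓ U)) := by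
  have hd : A ⊓ B = ⊥ := by
    rcases hAmin _ inferInstance (inf_le_left : A ⊓ B ≤ A) with h | h
    · exact h
    · rcases hBmin A inferInstance (inf_eq_left.mp h) with h' | h'
      · exact absurd h' hA
      · exact absurd h' hAB
  have hcAB : A ≤ Subgroup.centralizer (B : Set G) := by
    intro a ha
    rw [Subgroup.mem_centralizer_iff]
    intro b hb
    exact (Subgroup.commute_of_normal_of_disjoint A B inferInstance inferInstance
      (disjoint_iff.mpr hd) a b ha hb).eq.symm
  have hcBA : B ≤ Subgroup.centralizer (A : Set G) := Subgroup.le_centralizer_iff.mp hcAB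
  have h1 : Subgroup.centralizer (B : Set G) = A :=
    ((Lib.Hall.centralizer_minimal hU hcore hB A inferInstance hcAB).resolve_left hA).symm
  have h2 : Subgroup.centralizer (A : Set G) = B :=
    ((Lib.Hall.centralizer_minimal hU hcore hA B inferInstance hcBA).resolve_left hB).symm
  have hAU := Lib.Hall.isComplement'_of_normal hU hcore hA hB hcAB
  have hBU := Lib.Hall.isComplement'_of_normal hU hcore hB hA hcBA
  have hna : ¬ IsMulCommutative A := fun h => hAB (by
    have := h
    exact (hBmin A inferInstance ((Subgroup.le_centralizer A).trans h2.le)).resolve_left hA)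
  -- each of `A`, `B` projects isomorphically onto the quotient of `(A ⊔ B) ⊓ U`
  have key : ∀ (X Y : Subgroup G) [X.Normal] [Y.Normal], X ⊓ Y = ⊥ → Y ⊓ U = ⊥ → Y ⊔ U = ⊤ →
      Nonempty (X ≃* ↥((X ⊔ Y) ⊓ U)) := by
    intro X Y _ _ hXY hYU hYUs
    let π := QuotientGroup.mk' Y
    let D : Subgroup G := (X ⊔ Y) ⊓ U
    have hinj : ∀ Z : Subgroup G, Z ⊓ Y = ⊥ → Function.Injective (π.comp Z.subtype) := by
      intro Z hZ
      rw [← MonoidHom.ker_eq_bot_iff, eq_bot_iff]
      intro z hz
      rw [Subgroup.mem_bot]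
      have h : (z : G) ∈ Z ⊓ Y := ⟨z.2, (QuotientGroup.eq_one_iff _).mp hz⟩
      rw [hZ, Subgroup.mem_bot] at h
      exact Subtype.ext h
    have hDY : D ⊓ Y = ⊥ :=
      eq_bot_iff.mpr ((inf_le_inf_right Y (inf_le_right : D ≤ U)).trans (inf_comm U Y ▸ hYU).le)
    have hr : (π.comp X.subtype).range = (π.comp D.subtype).range := by
      rw [MonoidHom.range_comp, MonoidHom.range_comp, Subgroup.range_subtype, Subgroup.range_subtype]
      refine le_antisymm ?_ ?_
      · rintro _ ⟨x, hx, rfl⟩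
        have h : x ∈ Y ⊔ U := hYUs ▸ Subgroup.mem_top x
        rw [← SetLike.mem_coe, Subgroup.normal_mul] at h
        obtain ⟨y, hy, u, hu, rfl⟩ := h
        refine ⟨u, ⟨?_, hu⟩, ?_⟩
        · have := mul_mem (Subgroup.mem_sup_right (S := X) (Y.inv_mem hy)) (Subgroup.mem_sup_left (T := Y) hx)
          simpa using this
        · rw [map_mul, show π y = 1 from (QuotientGroup.eq_one_iff y).mpr hy, one_mul]
      · rintro _ ⟨z, hz, rfl⟩
        have h : z ∈ X ⊔ Y := hz.1
        rw [← SetLike.mem_coe, Subgroup.mul_normal] at h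
        obtain ⟨x, hx, y, hy, rfl⟩ := h
        exact ⟨x, hx, by rw [map_mul, show π y = 1 from (QuotientGroup.eq_one_iff y).mpr hy, mul_one]⟩
    exact ⟨(MonoidHom.ofInjective (hinj X hXY)).trans
      ((MulEquiv.subgroupCongr hr).trans (MonoidHom.ofInjective (hinj D hDY)).symm)⟩
  obtain ⟨eA⟩ := key A B hd (Lib.Hall.inf_eq_bot_of_le_centralizer hU hcore hA hcBA) hBU.sup_eq_top
  obtain ⟨eB⟩ := key B A (inf_comm A B ▸ hd) (Lib.Hall.inf_eq_bot_of_le_centralizer hU hcore hB hcAB) hAU.sup_eq_top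
  exact ⟨h1, h2, hAU, hBU, hna,
    ⟨eA.trans ((MulEquiv.subgroupCongr (by rw [sup_comm])).trans eB.symm)⟩, ⟨eA⟩⟩

end Cfsg.Agent.S0550
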