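import Cfsg.Statements.S0551
import Cfsg.Agent.Lib.Hall.Primitive

set_option autoImplicit false
open Pointwise
open scoped Pointwise commutatorElement
open Cfsg

namespace Cfsg.Agent.S0551

/-- In a finite solvable group all core-free maximal subgroups are conjugate. -/
theorem result {G : Type*} [Group G] [Finite G] [Group.IsSolvable G] (U V : Subgroup G) (hU : IsCoatom U) (hV : IsCoatom V) (hUc : U.normalCore = ⊥) (hVc : V.normalCore = ⊥) : ∃ g : G, MulAut.conj g • U = V := by
  rcases subsingleton_or_nontrivial G with hs | hnt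
  · exact absurd (Subsingleton.elim U ⊤) hU.1
  obtain ⟨N, p, hN, hN0, hp, hNp, hNc, hNmin⟩ := Lib.Hall.exists_normal_pgroup (G := G)
  have := hNc
  have : Fact p.Prime := ⟨hp⟩
  have hCN := Lib.Hall.centralizer_eq_self hU hUc hN0
  have hUN := Lib.Hall.isComplement'_of_normal hU hUc hN0 hN0 (Subgroup.le_centralizer N)
  have hVN := Lib.Hall.isComplement'_of_normal hV hVc hN0 hN0 (Subgroup.le_centralizer N)
  by_cases htop : N = ⊤
  · subst htop
    refine ⟨1, ?_⟩
    rw [map_one, one_smul, Subgroup.isComplement'_top_left.mp hUN, Subgroup.isComplement'_top_left.mp hVN]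
  have : Nontrivial (G ⧸ N) := by
    by_contra h
    rw [not_nontrivial_iff_subsingleton] at h
    exact htop (QuotientGroup.subsingleton_iff.mp h)
  have hπ := QuotientGroup.mk'_surjective N
  obtain ⟨M', q, hM'n, hM'0, hq, hM'q, -, -⟩ := Lib.Hall.exists_normal_pgroup (G := G ⧸ N)
  have : Fact q.Prime := ⟨hq⟩
  let M := M'.comap (QuotientGroup.mk' N)
  have hNM : N ≤ M := (QuotientGroup.ker_mk' N).ge.trans (Subgroup.ker_le_comap _ _)
  have hMN : ¬ M ≤ N := fun h => hM'0 (by
    rw [eq_bot_iff, ← Subgroup.map_comap_eq_self_of_surjective hπ M']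
    exact (Subgroup.map_mono h).trans (QuotientGroup.map_mk'_self N).le)
  have hcardM : Nat.card M' * Nat.card N = Nat.card M := by
    have h := Lib.Coprime.card_map_mk' N M
    rwa [Subgroup.map_comap_eq_self_of_surjective hπ, inf_eq_right.mpr hNM] at h
  have hpq : p ≠ q := by
    rintro rfl
    obtain ⟨a, ha⟩ := IsPGroup.iff_card.mp hNp
    obtain ⟨b, hb⟩ := IsPGroup.iff_card.mp hM'q
    have hMp : IsPGroup p M := IsPGroup.of_card (n := b + a) (by rw [← hcardM, ha, hb, pow_add])
    have : Group.IsNilpotent M := hMp.isNilpotent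
    have hlt : ⁅N, M⁆ ≠ N := by
      intro he
      obtain ⟨k, hk⟩ := (Subgroup.nilpotent_iff_lowerCentralSeries (G := M)).mp inferInstance
      have hle : ∀ j, N ≤ ((⊤ : Subgroup M).lowerCentralSeries j).map M.subtype := by
        intro j
        induction j with
        | zero => rwa [Subgroup.lowerCentralSeries_zero, ← MonoidHom.range_eq_map, Subgroup.range_subtype]
        | succ j ih =>
          rw [Subgroup.lowerCentralSeries_succ, Subgroup.map_commutator, ← MonoidHom.range_eq_map,
            Subgroup.range_subtype, ← he]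
          exact Subgroup.commutator_mono ih le_rfl
      have := hle k
      rw [hk, Subgroup.map_bot, le_bot_iff] at this
      exact hN0 this
    have h0 : ⁅N, M⁆ = ⊥ :=
      (hNmin _ inferInstance (Subgroup.commutator_le_left N M)).resolve_right hlt
    rw [Subgroup.commutator_eq_bot_iff_le_centralizer] at h0
    exact hMN ((Subgroup.le_centralizer_iff.mp h0).trans hCN.le)
  obtain ⟨a, ha⟩ := IsPGroup.iff_card.mp hNp
  obtain ⟨b, hb⟩ := IsPGroup.iff_card.mp hM'q
  have hidx : (N.subgroupOf M).index = Nat.card M' := by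
    have h := (N.subgroupOf M).index_mul_card
    rw [Lib.Coprime.card_subgroupOf hNM, ← hcardM] at h
    exact mul_right_cancel₀ Nat.card_pos.ne' h
  have hcop : (Nat.card (N.subgroupOf M)).Coprime (N.subgroupOf M).index := by
    rw [hidx, Lib.Coprime.card_subgroupOf hNM, ha, hb]
    exact Nat.Coprime.pow _ _ ((Nat.coprime_primes hp hq).mpr hpq)
  have hcomp : ∀ X : Subgroup G, Subgroup.IsComplement' N X →
      Nat.card (X.subgroupOf M) = (N.subgroupOf M).index := by
    intro X hX
    rw [hidx, Lib.Coprime.card_subgroupOf_inf]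
    have h := Lib.Coprime.card_sup_mul_card_inf N (X ⊓ M)
    have h1 : (X ⊓ M) ⊓ N = ⊥ :=
      eq_bot_iff.mpr ((inf_le_inf_right N inf_le_left).trans (inf_comm N X ▸ hX.disjoint.eq_bot).le)
    have h2 : (X ⊓ M) ⊔ N = M := by
      refine le_antisymm (sup_le inf_le_right hNM) fun m hm => ?_
      have hm' : m ∈ X ⊔ N := by rw [sup_comm, hX.sup_eq_top]; exact Subgroup.mem_top m
      rw [← SetLike.mem_coe, Subgroup.mul_normal] at hm'
      obtain ⟨x, hx, k, hk, rfl⟩ := hm'
      exact Subgroup.mul_mem_sup ⟨hx, (M.mul_mem_cancel_right (hNM hk)).mp hm⟩ hk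
    rw [h1, h2, Subgroup.card_bot, mul_one, ← hcardM] at h
    exact (mul_right_cancel₀ Nat.card_pos.ne' h).symm
  obtain ⟨m, hm⟩ := Lib.Coprime.exists_conj_eq_of_card_eq (N.subgroupOf M) hcop
    (Or.inl inferInstance) (hcomp U hUN) (hcomp V hVN)
  have hm' := congrArg (Subgroup.map M.subtype) hm
  rw [Lib.Coprime.map_conj_smul, Subgroup.subgroupOf_map_subtype, Subgroup.subgroupOf_map_subtype] at hm'
  have hnorm : ∀ X : Subgroup G, IsCoatom X → X.normalCore = ⊥ → Subgroup.IsComplement' N X →
      Subgroup.normalizer ((X ⊓ M : Subgroup G) : Set G) = X := by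
    intro X hX hXc hXN
    have hle : X ≤ Subgroup.normalizer ((X ⊓ M : Subgroup G) : Set G) :=
      (le_inf Subgroup.le_normalizer Subgroup.le_normalizer_of_normal).trans
        Subgroup.inf_normalizer_le_normalizer_inf
    rcases lt_or_eq_of_le hle with hlt | he
    · exfalso
      have : (X ⊓ M).Normal := Subgroup.normalizer_eq_top_iff.mp (hX.2 _ hlt)
      have h0 := Lib.Hall.eq_bot_of_le_of_core_eq_bot hXc (inf_le_left : X ⊓ M ≤ X)
      have h1 := hcomp X hXN
      rw [Lib.Coprime.card_subgroupOf_inf, h0, Subgroup.card_bot, hidx] at h1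
      exact hM'0 (Subgroup.card_eq_one.mp h1.symm)
    · exact he.symm
  refine ⟨M.subtype m, ?_⟩
  have hV' : MulAut.conj (M.subtype m) • Subgroup.normalizer ((U ⊓ M : Subgroup G) : Set G) =
      Subgroup.normalizer ((V ⊓ M : Subgroup G) : Set G) := by
    rw [← hm']
    ext x
    rw [Lib.Coprime.mem_conj_smul]
    constructor
    · intro hx
      apply Lib.Coprime.mem_normalizer_of_conj_smul_eq
      have := Lib.Coprime.conj_smul_eq_self hx
      conv_rhs => rw [← this, ← Lib.Coprime.conj_smul_mul]
      rw [← Lib.Coprime.conj_smul_mul]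
      congr 2
      group
    · intro hx
      apply Lib.Coprime.mem_normalizer_of_conj_smul_eq
      rw [Lib.Coprime.conj_smul_mul, Lib.Coprime.conj_smul_mul, Lib.Coprime.conj_smul_eq_self hx,
        Lib.Coprime.conj_inv_smul_smul]
  rwa [hnorm U hU hUc hUN, hnorm V hV hVc hVN] at hV'

end Cfsg.Agent.S0551
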