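import Cfsg.Statements.S0552
import Cfsg.Agent.Lib.Hall.Solvable

set_option autoImplicit false
open scoped Pointwise commutatorElement
open Cfsg

namespace Cfsg.Agent.S0552

/-- Let σ be an automorphism of a finite solvable group G fixing every element of the Fitting subgroup. If σ is not the identity then the order of σ and the order of G have a common prime factor. -/
theorem result {G : Type*} [Group G] [Finite G] [Group.IsSolvable G] (σ : G ≃* G) (hσ : ∀ x ∈ Cfsg.fittingSubgroup G, σ x = x) (hne : σ ≠ MulEquiv.refl G) : ¬ (orderOf σ).Coprime (Nat.card G) := by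
  intro hcop
  apply hne
  ext x
  have hF : Cfsg.fittingSubgroup G ≤ Cfsg.fittingSubgroup G := le_rfl
  have hmem : x⁻¹ * σ x ∈ Cfsg.fittingSubgroup G := by
    apply Lib.Hall.centralizer_fittingSubgroup_le
    rw [Subgroup.mem_centralizer_iff]
    intro f hf
    have h1 : x * f * x⁻¹ ∈ Cfsg.fittingSubgroup G :=
      Subgroup.Normal.conj_mem inferInstance f hf x
    have h2 := hσ _ h1
    rw [map_mul, map_mul, map_inv, hσ f hf] at h2
    calc f * (x⁻¹ * σ x) = x⁻¹ * (x * f * x⁻¹) * σ x := by group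
      _ = x⁻¹ * (σ x * f * (σ x)⁻¹) * σ x := by rw [h2]
      _ = x⁻¹ * σ x * f := by group
  obtain ⟨f, hf, hxf⟩ : ∃ f ∈ Cfsg.fittingSubgroup G, σ x = x * f := ⟨_, hmem, by group⟩
  have hn : ∀ n : ℕ, (σ ^ n) x = x * f ^ n := by
    intro n
    induction n with
    | zero => simp
    | succ n ih =>
      rw [pow_succ', MulAut.mul_apply, ih, map_mul, map_pow, hσ f hf, hxf, mul_assoc, ← pow_succ']
  have h1 := hn (orderOf σ)
  rw [pow_orderOf_eq_one, MulAut.one_apply, left_eq_mul] at h1
  have h2 : orderOf f = 1 :=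
    Nat.eq_one_of_dvd_coprimes hcop (orderOf_dvd_of_pow_eq_one h1) (orderOf_dvd_natCard f)
  rw [hxf, orderOf_eq_one_iff.mp h2, mul_one]
  rfl

end Cfsg.Agent.S0552
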