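import Cfsg.Statements.S0553
import Cfsg.Agent.Lib.Hall.Solvable
import Mathlib.GroupTheory.Frattini

set_option autoImplicit false
open scoped Pointwise commutatorElement
open Cfsg

namespace Cfsg.Agent.S0553

universe u

theorem normal_sylow_aux (n : ℕ) : ∀ (G : Type u) [Group G] [Finite G] [Group.IsSolvable G] [Nontrivial G],
    Nat.card G = n → (∀ M : Subgroup G, IsCoatom M → (Nat.card M).Coprime M.index) →
    ∃ p : ℕ, p.Prime ∧ p ∣ Nat.card G ∧ ∀ P : Sylow p G, (P : Subgroup G).Normal := by
  induction n using Nat.strongRecOn with | ind n ih => ?_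
  intro G _ _ _ _ hn h
  obtain ⟨N, q, hN, hNne, hq, hNq, -, hmin⟩ := Lib.Hall.exists_normal_pgroup (G := G)
  have : Fact q.Prime := ⟨hq⟩
  have hqN : q ∣ Nat.card N := (hNq.card_eq_or_dvd).resolve_left fun h =>
    hNne (Subgroup.card_eq_one.mp h)
  have hnorm : ∀ {p : ℕ} [Fact p.Prime] (P : Sylow p G), (P : Subgroup G).Normal →
      ∀ Q : Sylow p G, (Q : Subgroup G).Normal := fun {p} _ P hP Q => by
    obtain ⟨g, rfl⟩ := MulAction.exists_smul_eq G P Q
    rw [Sylow.smul_eq_of_normal]; exact hP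
  by_cases hΦ : ∀ M : Subgroup G, IsCoatom M → N ≤ M
  · have : Nontrivial (G ⧸ N) := by
      by_contra hnt
      rw [not_nontrivial_iff_subsingleton] at hnt
      have hNtop : N = ⊤ := QuotientGroup.subsingleton_iff.mp hnt
      obtain ⟨M, hM, -⟩ := (eq_top_or_exists_le_coatom (⊥ : Subgroup G)).resolve_left bot_ne_top
      exact hM.1 (top_le_iff.mp (hNtop ▸ hΦ M hM))
    have hπ := QuotientGroup.mk'_surjective N
    obtain ⟨r, hr, hrd, hrn⟩ := ih _ (hn ▸ Lib.Coprime.card_quotient_lt hNne) (G ⧸ N) rfl fun M hM => by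
      have h1 := h _ (Subgroup.isCoatom_comap_of_surjective hπ hM)
      rw [Subgroup.index_comap_of_surjective M hπ] at h1
      refine h1.coprime_dvd_left ?_
      conv_lhs => rw [← Subgroup.map_comap_eq_self_of_surjective hπ M]
      exact Subgroup.card_map_dvd _ _
    have : Fact r.Prime := ⟨hr⟩
    refine ⟨r, hr, hrd.trans (Subgroup.card_quotient_dvd_card N), ?_⟩
    obtain ⟨P⟩ := (inferInstance : Nonempty (Sylow r G))
    refine fun Q => hnorm P ?_ Q
    let T : Subgroup G := (P : Subgroup G) ⊔ N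
    have hTn : T.Normal := by
      have h1 := (hrn (P.mapSurjective hπ)).comap (QuotientGroup.mk' N)
      rw [Sylow.coe_mapSurjective, Subgroup.comap_map_eq, QuotientGroup.ker_mk'] at h1
      exact h1
    have hF : Subgroup.normalizer ((P : Subgroup G) : Set G) ⊔ T = ⊤ :=
      Sylow.normalizer_sup_eq_top' P le_sup_left
    rw [show Subgroup.normalizer ((P : Subgroup G) : Set G) ⊔ T =
      Subgroup.normalizer ((P : Subgroup G) : Set G) ⊔ N by
        rw [show T = (P : Subgroup G) ⊔ N from rfl, ← sup_assoc, sup_eq_left.mpr Subgroup.le_normalizer]] at hF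
    refine Subgroup.normalizer_eq_top_iff.mp ?_
    by_contra hne
    obtain ⟨M, hM, hPM⟩ := (eq_top_or_exists_le_coatom _).resolve_left hne
    exact hM.1 (top_le_iff.mp (hF ▸ sup_le hPM (hΦ M hM)))
  · push Not at hΦ
    obtain ⟨M, hM, hNM⟩ := hΦ
    have hsup : M ⊔ N = ⊤ := hM.2 _ (lt_of_le_of_ne le_sup_left fun he => hNM (le_sup_right.trans he.ge))
    obtain ⟨k, hk⟩ := IsPGroup.iff_card.mp hNq
    have h1 := Lib.Coprime.card_sup_mul_card_inf N M
    rw [hsup, Subgroup.card_top, ← M.index_mul_card] at h1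
    have h1' : M.index * Nat.card (M ⊓ N : Subgroup G) = Nat.card N := by
      apply mul_left_cancel₀ (Nat.card_pos (α := M)).ne'
      rw [← h1]; ring
    obtain ⟨e, -, he⟩ := (Nat.dvd_prime_pow hq).mp (hk ▸ h1' ▸ dvd_mul_right _ _ : M.index ∣ q ^ k)
    have he0 : e ≠ 0 := by
      rintro rfl; exact hM.1 (Subgroup.index_eq_one.mp (by simpa using he))
    have hqM : ¬ q ∣ Nat.card M := fun hd =>
      hq.ne_one (Nat.eq_one_of_dvd_coprimes (h M hM) hd (he ▸ dvd_pow_self q he0))
    have hMN : M ⊓ N = ⊥ := by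
      rcases (hNq.to_inf_right : IsPGroup q (M ⊓ N : Subgroup G)).card_eq_or_dvd with h2 | h2
      · exact Subgroup.card_eq_one.mp h2
      · exact absurd (h2.trans (Subgroup.card_dvd_of_le inf_le_left)) hqM
    rw [hMN, Subgroup.card_bot, mul_one] at h1'
    have hNi : ¬ q ∣ N.index := by
      have h2 : N.index = Nat.card M := by
        apply mul_right_cancel₀ (Nat.card_pos (α := N)).ne'
        rw [N.index_mul_card, ← h1', mul_comm, M.index_mul_card]
      rwa [h2]
    exact ⟨q, hq, hqN.trans (Subgroup.card_subgroup_dvd_card N),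
      fun Q => hnorm (hNq.toSylow hNi) hN Q⟩

/-- Let G be a nontrivial finite solvable group in which every maximal subgroup has order coprime to its index. Then for some prime p dividing the order of G the Sylow p-subgroups of G are normal. -/
theorem result {G : Type*} [Group G] [Finite G] [Group.IsSolvable G] [Nontrivial G] (h : ∀ M : Subgroup G, IsCoatom M → (Nat.card M).Coprime M.index) : ∃ p : ℕ, p.Prime ∧ p ∣ Nat.card G ∧ ∀ P : Sylow p G, (P : Subgroup G).Normal := by
  exact normal_sylow_aux _ G rfl h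

end Cfsg.Agent.S0553
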