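import Cfsg.Statements.S0554
import Cfsg.Agent.Lib.Hall.Solvable

set_option autoImplicit false
open scoped Pointwise commutatorElement
open Cfsg

namespace Cfsg.Agent.S0554

theorem insert_normal {G : Type*} [Group G] {N : Subgroup G} [N.Normal] :
    ∀ (t : ℕ) (s : Fin t → G) (j : Fin t) (n : G), n ∈ N →
      ∃ m ∈ N, (List.ofFn s).prod * n = (List.ofFn (Function.update s j (s j * m))).prod := by
  intro t
  induction t with
  | zero => exact fun s j => j.elim0
  | succ t ih =>
    intro s j n hn
    cases j using Fin.cases with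
    | zero =>
      let T := (List.ofFn fun i : Fin t => s i.succ).prod
      refine ⟨T * n * T⁻¹, Subgroup.Normal.conj_mem inferInstance n hn T, ?_⟩
      rw [List.ofFn_succ, List.ofFn_succ, List.prod_cons, List.prod_cons, Function.update_self]
      have e : (fun i : Fin t => Function.update s 0 (s 0 * (T * n * T⁻¹)) i.succ) = fun i => s i.succ := by
        funext i; rw [Function.update_of_ne (Fin.succ_ne_zero i)]
      rw [e]
      show s 0 * T * n = s 0 * (T * n * T⁻¹) * T
      group
    | succ j =>
      obtain ⟨m, hm, e⟩ := ih (fun i => s i.succ) j n hn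
      refine ⟨m, hm, ?_⟩
      rw [List.ofFn_succ, List.ofFn_succ, List.prod_cons, List.prod_cons,
        Function.update_of_ne (Fin.succ_ne_zero j).symm, mul_assoc, e]
      congr 3
      funext i
      by_cases h : i = j
      · subst h; rw [Function.update_self, Function.update_self]
      · rw [Function.update_of_ne h, Function.update_of_ne fun h' => h (Fin.succ_injective _ h')]

universe u

theorem prod_sylow_aux (n : ℕ) : ∀ (G : Type u) [Group G] [Finite G] [Group.IsSolvable G], Nat.card G = n →
    ∀ (t : ℕ) (p : Fin t → ℕ), (∀ i, (p i).Prime) →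
    (∀ q : ℕ, q.Prime → q ∣ Nat.card G → ∃ i, p i = q) →
    ∀ (S : (i : Fin t) → Sylow (p i) G) (g : G),
      ∃ s : (i : Fin t) → G, (∀ i, s i ∈ (S i : Subgroup G)) ∧ g = (List.ofFn s).prod := by
  induction n using Nat.strongRecOn with | ind n ih => ?_
  intro G _ _ _ hn t p hp hall S g
  rcases subsingleton_or_nontrivial G with hs | hnt
  · exact ⟨fun _ => 1, fun i => one_mem _, Subsingleton.elim _ _⟩
  obtain ⟨N, q, hN, hNne, hq, hNq, -, -⟩ := Lib.Hall.exists_normal_pgroup (G := G)
  have hπ := QuotientGroup.mk'_surjective N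
  have := fun i => (⟨hp i⟩ : Fact (p i).Prime)
  obtain ⟨s, hs, hg⟩ := ih _ (hn ▸ Lib.Coprime.card_quotient_lt hNne) (G ⧸ N) rfl t p hp
    (fun r hr hrd => hall r hr (hrd.trans (Subgroup.card_quotient_dvd_card N)))
    (fun i => (S i).mapSurjective hπ) (QuotientGroup.mk' N g)
  choose x hx hxs using fun i => Subgroup.mem_map.mp (hs i)
  have hfun : s = ⇑(QuotientGroup.mk' N) ∘ x := funext fun i => (hxs i).symm
  rw [hfun, ← List.map_ofFn, ← map_list_prod] at hg
  have hn' : (List.ofFn x).prod⁻¹ * g ∈ N := QuotientGroup.eq.mp hg.symm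
  have : Fact q.Prime := ⟨hq⟩
  obtain ⟨j, rfl⟩ := hall q hq (((hNq.card_eq_or_dvd).resolve_left fun h =>
    hNne (Subgroup.card_eq_one.mp h)).trans (Subgroup.card_subgroup_dvd_card N))
  have hNS : N ≤ (S j : Subgroup G) :=
    (Lib.Hall.le_pCore hNq).trans (Lib.Hall.pCore_le_sylow (S j))
  obtain ⟨m, hm, e⟩ := insert_normal t x j _ hn'
  refine ⟨Function.update x j (x j * m), fun i => ?_, ?_⟩
  · by_cases h : i = j
    · subst h; rw [Function.update_self]; exact mul_mem (hx _) (hNS hm)
    · rw [Function.update_of_ne h]; exact hx i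
  · rw [← e, mul_inv_cancel_left]

/-- Let G be a finite solvable group and let S assign to each of t distinct primes, including every prime divisor of the order of G, a Sylow subgroup of G. Then every element of G is a product s_0 s_1 ⋯ s_(t-1) with s_i in S i, the factors taken in the given order. -/
theorem result {G : Type*} [Group G] [Finite G] [Group.IsSolvable G] (t : ℕ) (p : Fin t → ℕ) (hp : ∀ i, (p i).Prime) (hinj : Function.Injective p) (hall : ∀ q : ℕ, q.Prime → q ∣ Nat.card G → ∃ i, p i = q) (S : (i : Fin t) → Sylow (p i) G) : ∀ g : G, ∃ s : (i : Fin t) → G, (∀ i, s i ∈ (S i : Subgroup G)) ∧ g = (List.ofFn s).prod := by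
  exact prod_sylow_aux _ G rfl t p hp hall S

end Cfsg.Agent.S0554
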