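import Cfsg.Statements.S0555
import Cfsg.Agent.Lib.Coprime.Basic

set_option autoImplicit false
open scoped Pointwise commutatorElement
open Cfsg

namespace Cfsg.Agent.S0555

/-- Let i ≥ 1. If in the derived series of a group the quotient of the i-th term by the (i+1)-st and the quotient of the (i+1)-st by the (i+2)-nd are both cyclic, then the (i+1)-st and (i+2)-nd terms coincide. -/
theorem result {G : Type*} [Group G] (i : ℕ) (hi : 1 ≤ i) (h₁ : IsCyclic (↥(derivedSeries G i) ⧸ (derivedSeries G (i + 1)).subgroupOf (derivedSeries G i))) (h₂ : IsCyclic (↥(derivedSeries G (i + 1)) ⧸ (derivedSeries G (i + 2)).subgroupOf (derivedSeries G (i + 1)))) : derivedSeries G (i + 1) = derivedSeries G (i + 2) := by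
  let D := derivedSeries G
  have key : ∀ {X Y : Subgroup G} [(Y.subgroupOf X).Normal], IsCyclic (↥X ⧸ Y.subgroupOf X) → Y ≤ X →
      ∃ x ∈ X, ∀ z ∈ X, ∃ n : ℤ, ∃ y ∈ Y, z = x ^ n * y := by
    intro X Y _ hc hle
    obtain ⟨q, hq⟩ := hc.exists_generator
    obtain ⟨x, rfl⟩ := QuotientGroup.mk_surjective q
    refine ⟨x, x.2, fun z hz => ?_⟩
    obtain ⟨n, hn⟩ := hq ((⟨z, hz⟩ : X) : ↥X ⧸ Y.subgroupOf X)
    refine ⟨n, ((x : G) ^ n)⁻¹ * z, ?_, by group⟩
    have h := QuotientGroup.eq.mp (show ((x ^ n : X) : ↥X ⧸ Y.subgroupOf X) = ((⟨z, hz⟩ : X) : ↥X ⧸ Y.subgroupOf X) from hn)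
    simpa [Subgroup.mem_subgroupOf] using h
  have hn : ∀ n, (D n).Normal := fun n => derivedSeries_normal G n
  have hant := derivedSeries_antitone G
  obtain ⟨x, hx, hxg⟩ := key h₁ (hant (by omega))
  obtain ⟨y, hy, hyg⟩ := key h₂ (hant (by omega))
  let Z := D (i + 2)
  have : Z.Normal := hn _
  let π := QuotientGroup.mk' Z
  have hy' : ∀ z ∈ D (i + 1), ∃ n : ℤ, π z = π y ^ n := by
    intro z hz
    obtain ⟨n, w, hw, rfl⟩ := hyg z hz
    exact ⟨n, by rw [map_mul, map_zpow, show π w = 1 from (QuotientGroup.eq_one_iff w).mpr hw, mul_one]⟩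
  have hact : ∀ g : G, ∃ n : ℤ, π g * π y * (π g)⁻¹ = π y ^ n := fun g => by
    obtain ⟨n, hn'⟩ := hy' (g * y * g⁻¹) ((hn (i + 1)).conj_mem y hy g)
    exact ⟨n, by rw [← hn', map_mul, map_mul, map_inv]⟩
  -- the derived subgroup centralises `π y`
  have hcen : (_root_.commutator G).map π ≤ Subgroup.centralizer {π y} := by
    rw [Subgroup.map_le_iff_le_comap, commutator_def, Subgroup.commutator_le]
    intro g _ h _
    rw [Subgroup.mem_comap, Subgroup.mem_centralizer_singleton_iff, map_commutatorElement]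
    have hc : ∀ a b : G, (π a * π b) * π y * (π a * π b)⁻¹ = (π b * π a) * π y * (π b * π a)⁻¹ := by
      intro a b
      obtain ⟨n, hn'⟩ := hact a
      obtain ⟨m, hm⟩ := hact b
      have e : ∀ (c : G ⧸ Z) (k : ℤ), c * π y ^ k * c⁻¹ = (c * π y * c⁻¹) ^ k := fun c k => by
        rw [← MulAut.conj_apply, map_zpow, MulAut.conj_apply]
      calc _ = π a * (π b * π y * (π b)⁻¹) * (π a)⁻¹ := by group
        _ = π y ^ (n * m) := by rw [hm, e, hn', ← zpow_mul]
        _ = π b * (π a * π y * (π a)⁻¹) * (π b)⁻¹ := by rw [hn', e, hm, ← zpow_mul, mul_comm m]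
        _ = _ := by group
    have h1 := hc g⁻¹ h⁻¹
    rw [map_inv, map_inv] at h1
    calc ⁅π g, π h⁆ * π y
        = (π g * π h) * (((π g)⁻¹ * (π h)⁻¹) * π y * ((π g)⁻¹ * (π h)⁻¹)⁻¹) * (π h * π g)⁻¹ * (1 : G ⧸ Z) := by
          rw [commutatorElement_def]; group
      _ = (π g * π h) * (((π h)⁻¹ * (π g)⁻¹) * π y * ((π h)⁻¹ * (π g)⁻¹)⁻¹) * (π h * π g)⁻¹ := by
          rw [h1, mul_one]
      _ = _ := by rw [commutatorElement_def]; group
  have hxy : Commute (π y) (π x) := by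
    have hx' : x ∈ _root_.commutator G := (derivedSeries_one G) ▸ hant hi hx
    exact (Subgroup.mem_centralizer_singleton_iff.mp (hcen (Subgroup.mem_map_of_mem π hx'))).symm
  refine le_antisymm ?_ (hant (by omega))
  show derivedSeries G (i + 1) ≤ Z
  rw [derivedSeries_succ, Subgroup.commutator_le]
  intro a ha b hb
  rw [← QuotientGroup.eq_one_iff, ← QuotientGroup.mk'_apply, map_commutatorElement,
    commutatorElement_eq_one_iff_mul_comm]
  obtain ⟨n, u, hu, rfl⟩ := hxg a ha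
  obtain ⟨m, v, hv, rfl⟩ := hxg b hb
  obtain ⟨k, hk⟩ := hy' u hu
  obtain ⟨l, hl⟩ := hy' v hv
  show π _ * π _ = π _ * π _
  rw [map_mul, map_mul, map_zpow, map_zpow, hk, hl]
  exact ((((Commute.refl _).zpow_zpow n m).mul_right (hxy.symm.zpow_zpow n l)).mul_left
    ((hxy.zpow_zpow k m).mul_right ((Commute.refl _).zpow_zpow k l))).eq

end Cfsg.Agent.S0555
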