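import Cfsg.Statements.S0556
import Cfsg.Agent.Lib.FPF.FrobeniusKernel
import Cfsg.Agent.Lib.Coprime.Basic

set_option autoImplicit false
open Cfsg

namespace Cfsg.Agent.S0556

open Subgroup
open scoped Pointwise

theorem derived_three_of_two {G : Type*} [Group G] (h : derivedSeries G 2 ≤ center G) :
    derivedSeries G 3 = ⊥ := by
  rw [derivedSeries_succ, eq_bot_iff, commutator_le]
  intro a ha b _
  exact mem_bot.mpr (commutatorElement_eq_one_iff_mul_comm.mpr (mem_center_iff.mp (h ha) b).symm)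

theorem aux {G : Type*} [Group G] [Finite G] (A : Subgroup G) (hA : IsCoatom A) [IsMulCommutative A] :
    derivedSeries G 3 = ⊥ := by
  refine derived_three_of_two ?_
  by_cases hn : A.Normal
  · -- the quotient by `A` is cyclic
    haveI := hn
    obtain ⟨x, hx⟩ : ∃ x : G, x ∉ A := SetLike.exists_not_mem_of_ne_top A hA.1 rfl
    have htop : A ⊔ zpowers x = ⊤ := hA.2 _ (lt_of_le_of_ne le_sup_left fun e => hx (e ▸ mem_sup_right (mem_zpowers x)))
    have h1 : derivedSeries G 1 ≤ A := by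
      rw [derivedSeries_succ, derivedSeries_zero, commutator_le]
      intro a _ b _
      rw [← QuotientGroup.eq_one_iff, ← QuotientGroup.mk'_apply, map_commutatorElement, commutatorElement_eq_one_iff_mul_comm, QuotientGroup.mk'_apply, QuotientGroup.mk'_apply]
      have hz : ∀ g : G, (g : G ⧸ A) ∈ zpowers (x : G ⧸ A) := by
        intro g
        have hg : g ∈ A ⊔ zpowers x := htop ▸ mem_top g
        obtain ⟨u, hu, v, hv, rfl⟩ := mem_sup_of_normal_left.mp hg
        obtain ⟨k, rfl⟩ := mem_zpowers_iff.mp hv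
        refine mem_zpowers_iff.mpr ⟨k, ?_⟩
        rw [QuotientGroup.mk_mul, (QuotientGroup.eq_one_iff u).mpr hu, one_mul, QuotientGroup.mk_zpow]
      obtain ⟨i, hi⟩ := mem_zpowers_iff.mp (hz a)
      obtain ⟨j, hj⟩ := mem_zpowers_iff.mp (hz b)
      rw [← hi, ← hj]
      exact ((Commute.refl _).zpow_zpow i j).eq
    refine le_trans (le_of_eq (eq_bot_iff.mpr ?_)) bot_le
    rw [derivedSeries_succ, commutator_le]
    intro a ha b hb
    exact mem_bot.mpr (commutatorElement_eq_one_iff_mul_comm.mpr (setLike_mul_comm (h1 ha) (h1 hb)))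
  have hN : normalizer (A : Set G) = A := by
    by_contra h
    exact hn (normalizer_eq_top_iff.mp (hA.2 _ (lt_of_le_of_ne le_normalizer (Ne.symm h))))
  let Z := center G
  have hZA : Z ≤ A := by
    by_contra h
    have htop : A ⊔ Z = ⊤ := hA.2 _ (lt_of_le_of_ne le_sup_left fun e => h (le_sup_right.trans e.ge))
    refine hn ⟨fun a ha g => ?_⟩
    have hg : g ∈ A ⊔ Z := htop ▸ mem_top g
    obtain ⟨u, hu, v, hv, rfl⟩ := mem_sup_of_normal_right.mp hg
    have h1 : u * v * a * (u * v)⁻¹ = u * a * u⁻¹ := by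
      rw [mul_assoc u v a, ← mem_center_iff.mp hv a]; group
    rw [h1]
    exact mul_mem (mul_mem hu ha) (inv_mem hu)
  have hTI : ∀ g : G, g ∉ A → A ⊓ MulAut.conj g • A ≤ Z := by
    intro g hg x hx
    obtain ⟨hx1, hx2⟩ := hx
    refine mem_center_iff.mpr fun y => ?_
    have h1 : A ≤ centralizer {x} := fun a ha => mem_centralizer_singleton_iff.mpr (setLike_mul_comm ha hx1)
    have h2 : MulAut.conj g • A ≤ centralizer {x} := by
      intro a ha
      refine mem_centralizer_singleton_iff.mpr ?_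
      have h3 := setLike_mul_comm (Lib.Coprime.mem_conj_smul.mp ha) (Lib.Coprime.mem_conj_smul.mp hx2)
      calc a * x = g * (g⁻¹ * a * g * (g⁻¹ * x * g)) * g⁻¹ := by group
        _ = g * (g⁻¹ * x * g * (g⁻¹ * a * g)) * g⁻¹ := by rw [h3]
        _ = x * a := by group
    have h3 : centralizer {x} = ⊤ := by
      refine hA.2 _ (lt_of_le_of_ne h1 fun e => ?_)
      rw [← e] at h2
      have h4 : MulAut.conj g • A = A :=
        eq_of_le_of_card_ge h2 (le_of_eq (Nat.card_congr (Subgroup.equivSMul (MulAut.conj g) A).toEquiv))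
      refine hg (hN ▸ mem_normalizer_iff.mpr fun a => ?_)
      conv_rhs => rw [← h4, Lib.Coprime.mem_conj_smul]
      rw [show g⁻¹ * (g * a * g⁻¹) * g = a by group]
    exact mem_centralizer_singleton_iff.mp (h3 ▸ mem_top y)
  -- the quotient by the centre
  let f : G →* G ⧸ Z := QuotientGroup.mk' Z
  have hf : Function.Surjective f := QuotientGroup.mk'_surjective Z
  let B : Subgroup (G ⧸ Z) := A.map f
  have hmemB : ∀ g : G, f g ∈ B ↔ g ∈ A := by
    intro g
    refine ⟨?_, mem_map_of_mem f⟩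
    rintro ⟨a, ha, hag⟩
    have h1 : a⁻¹ * g ∈ Z := QuotientGroup.eq.mp hag
    have h2 := mul_mem ha (hZA h1)
    rwa [mul_inv_cancel_left] at h2
  have hBt : B ≠ ⊤ := fun e => hA.1 (eq_top_iff.mpr fun g _ => (hmemB g).mp (e ▸ mem_top _))
  by_cases hB1 : B = ⊥
  · -- then `A = Z`, which is normal
    exfalso
    refine hn ?_
    have : A = Z := le_antisymm (fun a ha => (QuotientGroup.eq_one_iff a).mp (mem_bot.mp (hB1 ▸ mem_map_of_mem f ha))) hZA
    rw [this]; infer_instance
  have hFC : IsFrobeniusComplement B := by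
    refine ⟨hB1, hBt, fun g hg => eq_bot_iff.mpr ?_⟩
    obtain ⟨g, rfl⟩ := hf g
    intro x hx
    obtain ⟨hx1, hx2⟩ := mem_inf.mp hx
    obtain ⟨x, rfl⟩ := hf x
    rw [Lib.Coprime.mem_conj_smul, ← map_inv, ← map_mul, ← map_mul] at hx2
    exact mem_bot.mpr ((QuotientGroup.eq_one_iff x).mpr (hTI g (fun h => hg ((hmemB g).mpr h))
      ⟨(hmemB x).mp hx1, Lib.Coprime.mem_conj_smul.mpr ((hmemB _).mp hx2)⟩))
  obtain ⟨K, -, hKn, hKc, hKnil⟩ := Lib.FPF.exists_frobenius_kernel_nilpotent hFC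
  have hK1 : K ≠ ⊥ := fun e => hBt (by rw [← hKc.sup_eq_top, e, bot_sup_eq])
  haveI : Nontrivial K := (nontrivial_iff_ne_bot K).mpr hK1
  haveI := hKnil
  have hBcoat : IsCoatom B := by
    refine ⟨hBt, fun L hL => ?_⟩
    have h1 : A < L.comap f := by
      refine lt_of_le_of_ne (fun a ha => hL.le (mem_map_of_mem f ha)) fun e => hL.ne ?_
      show A.map f = L
      rw [e, map_comap_eq_self_of_surjective hf]
    have h2 := hA.2 _ h1
    exact eq_top_iff.mpr fun g _ => by
      obtain ⟨g, rfl⟩ := hf g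
      exact mem_comap.mp (h2 ▸ mem_top g)
  let C : Subgroup (G ⧸ Z) := (center K).map K.subtype
  haveI : K.Normal := hKn
  haveI : C.Normal := inferInstance
  have hCK : C ≤ K := map_subtype_le _
  have hC1 : C ≠ ⊥ := fun e => Group.IsNilpotent.center_ne_bot (G := K)
    ((map_eq_bot_iff_of_injective _ K.subtype_injective).mp e)
  have hCB : B ⊔ C = ⊤ := hBcoat.2 _ (lt_of_le_of_ne le_sup_left fun e => hC1 (eq_bot_iff.mpr fun c hc =>
    mem_bot.mpr (disjoint_def.mp hKc.disjoint (hCK hc) (e ▸ mem_sup_right hc))))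
  have hKC : K ≤ C := by
    intro k hk
    have h1 : k ∈ B ⊔ C := hCB ▸ mem_top k
    obtain ⟨b, hb, c, hc, rfl⟩ := mem_sup_of_normal_right.mp h1
    have hbK : b ∈ K := (Subgroup.mul_mem_cancel_right _ (hCK hc)).mp hk
    rw [disjoint_def.mp hKc.disjoint hbK hb, one_mul]
    exact hc
  have habel : ∀ a ∈ K, ∀ b ∈ K, a * b = b * a := by
    intro a ha b hb
    obtain ⟨⟨a', ha'⟩, hca, rfl⟩ := hKC ha
    exact (congrArg Subtype.val (mem_center_iff.mp hca ⟨b, hb⟩)).symm
  have hd1 : derivedSeries (G ⧸ Z) 1 ≤ K := by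
    rw [derivedSeries_succ, derivedSeries_zero, commutator_le]
    intro a _ b _
    rw [← QuotientGroup.eq_one_iff, ← QuotientGroup.mk'_apply, map_commutatorElement, commutatorElement_eq_one_iff_mul_comm, QuotientGroup.mk'_apply, QuotientGroup.mk'_apply]
    have hz : ∀ g : G ⧸ Z, ∃ u ∈ A, ((f u : G ⧸ Z) : (G ⧸ Z) ⧸ K) = (g : (G ⧸ Z) ⧸ K) := by
      intro g
      have hg : g ∈ K ⊔ B := hKc.sup_eq_top ▸ mem_top g
      obtain ⟨k, hk, v, hv, rfl⟩ := mem_sup_of_normal_left.mp hg
      obtain ⟨u, hu, rfl⟩ := hv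
      exact ⟨u, hu, by rw [QuotientGroup.mk_mul, (QuotientGroup.eq_one_iff k).mpr hk, one_mul]⟩
    obtain ⟨u, hu, hu'⟩ := hz a
    obtain ⟨v, hv, hv'⟩ := hz b
    rw [← hu', ← hv', ← QuotientGroup.mk_mul, ← QuotientGroup.mk_mul, ← map_mul, ← map_mul,
      setLike_mul_comm hu hv]
  have hd2 : derivedSeries (G ⧸ Z) 2 = ⊥ := by
    rw [derivedSeries_succ, eq_bot_iff, commutator_le]
    intro a ha b hb
    exact mem_bot.mpr (commutatorElement_eq_one_iff_mul_comm.mpr (habel a (hd1 ha) b (hd1 hb)))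
  intro g hg
  have h1 : f g ∈ derivedSeries (G ⧸ Z) 2 := map_derivedSeries_le_derivedSeries f 2 (mem_map_of_mem f hg)
  rw [hd2, mem_bot] at h1
  exact (QuotientGroup.eq_one_iff g).mp h1


/-- If a finite group has a maximal subgroup that is abelian, then the third term of its derived series is trivial (so the group is solvable of derived length at most three). -/
theorem result {G : Type*} [Group G] [Finite G] (A : Subgroup G) (hA : IsCoatom A) [IsMulCommutative A] : derivedSeries G 3 = ⊥ := by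
  exact aux A hA

end Cfsg.Agent.S0556
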