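import Cfsg.Statements.S0557
import Cfsg.Agent.Lib.Transfer.Hall
import Cfsg.Agent.Lib.Coprime.Action

set_option autoImplicit false
open Cfsg

namespace Cfsg.Agent.S0557

open Subgroup

universe u

theorem iterate_succ_focal {G : Type u} [Group G] (n : ℕ) (H : Subgroup G) :
    (fun K : Subgroup G => K.focalSubgroup)^[n + 1] H = (fun K : Subgroup G => K.focalSubgroup)^[n] H.focalSubgroup :=
  rfl

theorem focal_mono {G : Type u} [Group G] {H K : Subgroup G} (h : H ≤ K) : H.focalSubgroup ≤ K.focalSubgroup := by
  rw [focalSubgroup_def, focalSubgroup_def]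
  exact closure_mono fun g ⟨hg, x, hx, u, e⟩ => ⟨h hg, x, h hx, u, e⟩

theorem iterate_map_le {G : Type u} [Group G] (L : Subgroup G) (n : ℕ) : ∀ (H : Subgroup L) (K : Subgroup G),
    H.map L.subtype ≤ K →
      ((fun X : Subgroup L => X.focalSubgroup)^[n] H).map L.subtype ≤ (fun X : Subgroup G => X.focalSubgroup)^[n] K := by
  induction n with
  | zero => intro H K h; exact h
  | succ n ih =>
    intro H K h
    refine ih _ _ ?_
    show H.focalSubgroup.map L.subtype ≤ K.focalSubgroup
    rw [focalSubgroup_def, MonoidHom.map_closure, closure_le]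
    rintro _ ⟨g, ⟨hg, x, hx, u, rfl⟩, rfl⟩
    rw [SetLike.mem_coe, focalSubgroup_def]
    exact subset_closure ⟨h (mem_map_of_mem _ hg), _, h (mem_map_of_mem _ hx), (u : G),
      map_commutatorElement L.subtype x u⟩

theorem aux (n : ℕ) : ∀ {G : Type u} [Group G] [Finite G] (H : Subgroup G), (Nat.card H).Coprime H.index →
    (fun K : Subgroup G => K.focalSubgroup)^[n] H = ⊥ →
    ∃ N : Subgroup G, N.Normal ∧ IsComplement' N H := by
  induction n with
  | zero =>
    intro G _ _ H _ h
    exact ⟨⊤, inferInstance, (show H = ⊥ from h) ▸ isComplement'_top_bot⟩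
  | succ n ih =>
    intro G _ _ H hH h
    rw [iterate_succ_focal] at h
    obtain ⟨-, hker, hsup⟩ := Lib.Transfer.focal_theorem H
      (hH.symm.coprime_dvd_right (Lib.Transfer.relIndex_commutator_dvd_card H))
    let L : Subgroup G := H.transferFocal.ker
    have hfle : H.focalSubgroup ≤ L := hker ▸ inf_le_left
    let H₁ : Subgroup L := H.focalSubgroup.subgroupOf L
    have hidx : H₁.index = H.index := by
      have h1 : H.relIndex (L ⊔ H) = H.relIndex ⊤ := by rw [hsup]
      show H.focalSubgroup.relIndex L = H.index
      rw [← hker, show L ⊓ H = H ⊓ L from inf_comm .., inf_relIndex_right]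
      have h2 := Subgroup.card_mul_index H
      have h3 : Nat.card L * L.index = Nat.card G := Subgroup.card_mul_index L
      have h4 : Nat.card (L ⊓ H : Subgroup G) * H.relIndex L = Nat.card L := by
        rw [inf_comm, ← inf_relIndex_right H L, relIndex, ← Nat.card_congr (subgroupOfEquivOfLe (inf_le_right : H ⊓ L ≤ L)).toEquiv]
        exact card_mul_index _
      have h5 := Lib.Coprime.card_sup_mul_card_inf L H
      rw [sup_comm, hsup, card_top, inf_comm] at h5
      have h6 : Nat.card H * Nat.card L = Nat.card G * Nat.card (L ⊓ H : Subgroup G) := by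
        rw [h5]
      apply Nat.eq_of_mul_eq_mul_left (Nat.card_pos (α := H))
      rw [h2]
      apply Nat.eq_of_mul_eq_mul_left (Nat.card_pos (α := (L ⊓ H : Subgroup G)))
      calc Nat.card (L ⊓ H : Subgroup G) * (Nat.card H * H.relIndex L)
          = Nat.card H * (Nat.card (L ⊓ H : Subgroup G) * H.relIndex L) := by ring
        _ = Nat.card (L ⊓ H : Subgroup G) * Nat.card G := by rw [h4, h6, mul_comm]
    have hH₁ : (Nat.card H₁).Coprime H₁.index := by
      rw [hidx, Nat.card_congr (subgroupOfEquivOfLe hfle).toEquiv]
      exact hH.coprime_dvd_left (card_dvd_of_le (focalSubgroup_le H))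
    have hit : (fun K : Subgroup L => K.focalSubgroup)^[n] H₁ = ⊥ := by
      have h1 := iterate_map_le L n H₁ H.focalSubgroup (by rw [map_subgroupOf_eq_of_le hfle])
      rw [h, le_bot_iff, map_eq_bot_iff_of_injective _ L.subtype_injective] at h1
      exact h1
    obtain ⟨N, hNn, hNc⟩ := ih H₁ hH₁ hit
    have hNcard : Nat.card N = H.index := by rw [← hidx]; exact hNc.index_eq_card.symm
    have hcopN : (Nat.card N).Coprime N.index := by
      rw [hNcard, hNc.symm.index_eq_card, Nat.card_congr (subgroupOfEquivOfLe hfle).toEquiv]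
      exact hH.symm.coprime_dvd_right (card_dvd_of_le (focalSubgroup_le H))
    haveI : N.Characteristic := by
      refine characteristic_iff_map_eq.mpr fun φ => ?_
      refine eq_of_le_of_card_ge ?_ (card_map_of_injective φ.injective).ge
      intro x hx
      obtain ⟨y, hy, rfl⟩ := hx
      rw [← QuotientGroup.eq_one_iff, ← orderOf_eq_one_iff]
      refine Nat.eq_one_of_dvd_coprimes hcopN ?_ (by rw [index_eq_card]; exact _root_.orderOf_dvd_natCard _)
      refine (orderOf_map_dvd (QuotientGroup.mk' N) _).trans ?_
      rw [MulEquiv.coe_toMonoidHom, MulEquiv.orderOf_eq]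
      exact orderOf_dvd_natCard N hy
    refine ⟨N.map L.subtype, inferInstance, ?_⟩
    refine isComplement'_of_coprime ?_ ?_
    · rw [card_map_of_injective L.subtype_injective, hNcard, mul_comm]
      exact card_mul_index H
    · rw [card_map_of_injective L.subtype_injective, hNcard]
      exact hH.symm


/-- Let H be a subgroup of a finite group G with order coprime to its index. If iterating the focal-subgroup construction starting from H reaches the trivial subgroup after finitely many steps, then H has a normal complement in G. -/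
theorem result {G : Type*} [Group G] [Finite G] (H : Subgroup G) (hHall : (Nat.card H).Coprime H.index) (n : ℕ) (hfoc : (fun K : Subgroup G => Subgroup.focalSubgroup K)^[n] H = ⊥) : ∃ N : Subgroup G, N.Normal ∧ Subgroup.IsComplement' N H := by
  obtain ⟨N, hN, hNc⟩ := aux n H hHall hfoc
  exact ⟨N, hN, hNc⟩

end Cfsg.Agent.S0557
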