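import Cfsg.Statements.S0559
import Cfsg.Agent.Lib.Coprime.Basic

set_option autoImplicit false
open Pointwise
open scoped Pointwise commutatorElement
open Cfsg

namespace Cfsg.Agent.S0559

/-- Let G = HK be a finite group (every element a product of an element of H and an element of K), and let A and B be conjugates of H and K. Then every element is a product of an element of A and one of B, and there is g with A = gHg⁻¹ and B = gKg⁻¹ simultaneously. -/
theorem result {G : Type*} [Group G] [Finite G] (H K A B : Subgroup G) (hHK : ∀ g : G, ∃ h ∈ H, ∃ k ∈ K, g = h * k) (hA : ∃ x : G, A = MulAut.conj x • H) (hB : ∃ y : G, B = MulAut.conj y • K) : (∀ g : G, ∃ a ∈ A, ∃ b ∈ B, g = a * b) ∧ ∃ g : G, A = MulAut.conj g • H ∧ B = MulAut.conj g • K := by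
  obtain ⟨x, rfl⟩ := hA
  obtain ⟨y, rfl⟩ := hB
  obtain ⟨h, hh, k, hk, e⟩ := hHK (x⁻¹ * y)
  let g := x * h
  have hA : MulAut.conj x • H = MulAut.conj g • H := by
    rw [show g = x * h from rfl, Lib.Coprime.conj_smul_mul,
      Lib.Coprime.conj_smul_eq_self (Subgroup.le_normalizer hh)]
  have hgy : g = y * k⁻¹ := by
    rw [show y = x * (h * k) by rw [← e]; group]; group; rfl
  have hB : MulAut.conj y • K = MulAut.conj g • K := by
    rw [hgy, Lib.Coprime.conj_smul_mul,
      Lib.Coprime.conj_smul_eq_self (Subgroup.le_normalizer (K.inv_mem hk))]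
  refine ⟨fun z => ?_, g, hA, hB⟩
  obtain ⟨a, ha, b, hb, e'⟩ := hHK (g⁻¹ * z * g)
  refine ⟨g * a * g⁻¹, hA ▸ Lib.Coprime.conj_mem_conj_smul ha, g * b * g⁻¹,
    hB ▸ Lib.Coprime.conj_mem_conj_smul hb, ?_⟩
  calc z = g * (g⁻¹ * z * g) * g⁻¹ := by group
    _ = _ := by rw [e']; group

end Cfsg.Agent.S0559
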