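import Cfsg.Statements.S0563
import Cfsg.Agent.Lib.Hall.KegelWielandt

set_option autoImplicit false
open Pointwise
open Cfsg

namespace Cfsg.Agent.S0563

open scoped Pointwise

/-- If a finite group G is the product AB of two nilpotent subgroups of coprime orders, then G is solvable, and for every Sylow p-subgroup P of A and Sylow q-subgroup Q of B the product set PQ is a subgroup. -/
theorem result {G : Type*} [Group G] [Finite G] (A B : Subgroup G) (hA : Group.IsNilpotent A) (hB : Group.IsNilpotent B) (hcop : (Nat.card A).Coprime (Nat.card B)) (hAB : ∀ g : G, ∃ a ∈ A, ∃ b ∈ B, g = a * b) : Group.IsSolvable G ∧ ∀ (p q : ℕ) [Fact p.Prime] [Fact q.Prime] (P : Sylow p A) (Q : Sylow q B), ∃ S : Subgroup G, (S : Set G) = (((P : Subgroup A).map A.subtype : Subgroup G) : Set G) * (((Q : Subgroup B).map B.subtype : Subgroup G) : Set G) := by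

  have hsol : Group.IsSolvable G := Lib.Hall.CoprimeProduct.isSolvable A B hA hB hcop hAB
  refine ⟨hsol, fun p q _ _ P Q => ?_⟩
  haveI := hsol
  haveI : (P : Subgroup A).Normal :=
    (Group.isNilpotent_of_finite_tfae.out 0 3 rfl rfl).mp hA p inferInstance P
  haveI : (Q : Subgroup B).Normal :=
    (Group.isNilpotent_of_finite_tfae.out 0 3 rfl rfl).mp hB q inferInstance Q
  have hinf : A ⊓ B = ⊥ := Lib.Coprime.inf_eq_bot_of_coprime hcop
  have hcard : Nat.card G = Nat.card A * Nat.card B := by
    have h1 := Lib.Coprime.card_coe_mul_mul_card_inf A B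
    rw [hinf, Subgroup.card_bot, mul_one] at h1
    rw [← h1, show ((A : Set G) * (B : Set G)) = Set.univ from Set.eq_univ_of_forall fun g => by
      obtain ⟨a, ha, b, hb, rfl⟩ := hAB g
      exact Set.mul_mem_mul ha hb]
    exact (Nat.card_congr (Equiv.Set.univ G)).symm
  -- a normal Sylow subgroup of a Hall factor is a Hall subgroup of `G`
  have hhall : ∀ (X Y : Subgroup G) (r : ℕ) [Fact r.Prime] (R : Sylow r X), Nat.card G = Nat.card X * Nat.card Y →
      (Nat.card X).Coprime (Nat.card Y) →
      (Nat.card ((R : Subgroup X).map X.subtype : Subgroup G)).Coprime ((R : Subgroup X).map X.subtype).index := by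
    intro X Y r _ R hXY hc
    have hi : X.index = Nat.card Y := Nat.eq_of_mul_eq_mul_left Nat.card_pos (X.card_mul_index.trans hXY)
    rw [Subgroup.card_map_of_injective X.subtype_injective, Subgroup.index_map_subtype, hi]
    exact Nat.Coprime.mul_right R.card_coprime_index (hc.coprime_dvd_left (Subgroup.card_subgroup_dvd_card _))
  have hn : ∀ (X : Subgroup G) (R : Subgroup X) [R.Normal],
      ((R.map X.subtype).subgroupOf X).Normal := fun X R _ => by
    rwa [Subgroup.subgroupOf, Subgroup.comap_map_eq_self_of_injective X.subtype_injective]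
  obtain ⟨S, hS⟩ := Cfsg.Agent.S0561.result A B _ _ hAB (Subgroup.map_subtype_le _) (hn A (P : Subgroup A))
    (Subgroup.map_subtype_le _) (hn B (Q : Subgroup B)) (hhall A B p P hcard hcop)
    (hhall B A q Q (hcard.trans (mul_comm _ _)) hcop.symm) 1 1
  exact ⟨S, by rwa [map_one, one_smul, one_smul] at hS⟩

end Cfsg.Agent.S0563
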