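import Cfsg.Statements.S0567
import Cfsg.Agent.Lib.Coprime.Action

set_option autoImplicit false
open scoped Pointwise commutatorElement
open Cfsg

namespace Cfsg.Agent.S0567

/-- A subgroup H of a group G is subnormal exactly when, for some m, the subgroup obtained from G by taking the commutator with H m times in succession is contained in H. -/
theorem result {G : Type*} [Group G] (H : Subgroup G) : H.IsSubnormal ↔ ∃ m : ℕ, (fun K : Subgroup G => ⁅K, H⁆)^[m] ⊤ ≤ H := by
  constructor
  · intro hH
    induction hH with
    | top => exact ⟨0, le_top⟩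
    | step H K hle hK hN ih =>
      obtain ⟨m, hm⟩ := ih
      have hmono : ∀ j, (fun X : Subgroup G => ⁅X, H⁆)^[j] ⊤ ≤ (fun X : Subgroup G => ⁅X, K⁆)^[j] ⊤ := by
        intro j
        induction j with
        | zero => exact le_rfl
        | succ j ihj =>
          simp only [Function.iterate_succ_apply']
          exact Subgroup.commutator_mono ihj hle
      refine ⟨m + 1, ?_⟩
      simp only [Function.iterate_succ_apply']
      refine (Subgroup.commutator_mono ((hmono m).trans hm) le_rfl).trans ?_
      rw [Subgroup.commutator_comm]
      exact Lib.Coprime.commutator_le_of_le_normalizer'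
        ((Subgroup.normal_subgroupOf_iff_le_normalizer hle).mp hN)
  · rintro ⟨m, hm⟩
    let f := fun j => (fun X : Subgroup G => ⁅X, H⁆)^[j] ⊤
    have hT : ∀ j, (H ⊔ f j).IsSubnormal := by
      intro j
      induction j with
      | zero =>
        rw [show H ⊔ f 0 = ⊤ from sup_top_eq H]
        exact Subgroup.IsSubnormal.top
      | succ j ihj =>
        have hf : f (j + 1) = ⁅f j, H⁆ := Function.iterate_succ_apply' _ _ _
        have hle : H ⊔ f (j + 1) ≤ H ⊔ f j := by
          rw [hf]
          refine sup_le le_sup_left ?_
          rw [Subgroup.commutator_le]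
          intro x hx h hh
          rw [commutatorElement_def]
          exact mul_mem (mul_mem (mul_mem (Subgroup.mem_sup_right hx) (Subgroup.mem_sup_left hh))
            (inv_mem (Subgroup.mem_sup_right hx))) (inv_mem (Subgroup.mem_sup_left hh))
        refine Subgroup.IsSubnormal.step _ _ hle ihj ((Subgroup.normal_subgroupOf_iff_le_normalizer hle).mpr ?_)
        refine sup_le (le_sup_left.trans Subgroup.le_normalizer) ?_
        have key : ∀ x ∈ f j, MulAut.conj x • (H ⊔ f (j + 1)) ≤ H ⊔ f (j + 1) := by
          intro x hx
          rw [Subgroup.smul_sup]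
          refine sup_le ?_ ?_
          · intro z hz
            have hh := Lib.Coprime.mem_conj_smul.mp hz
            have h1 : ⁅x, x⁻¹ * z * x⁆ ∈ f (j + 1) := hf ▸ Subgroup.commutator_mem_commutator hx hh
            have h2 := mul_mem (Subgroup.mem_sup_right (S := H) h1) (Subgroup.mem_sup_left (T := f (j + 1)) hh)
            convert h2 using 1
            rw [commutatorElement_def]; group
          · rw [hf]
            exact (Lib.Coprime.conj_smul_eq_self (Lib.Coprime.left_le_normalizer_commutator _ _ hx)).le.trans le_sup_right
        intro x hx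
        refine Lib.Coprime.mem_normalizer_of_conj_smul_eq (le_antisymm (key x hx) ?_)
        calc H ⊔ f (j + 1) = MulAut.conj x • MulAut.conj x⁻¹ • (H ⊔ f (j + 1)) :=
              (Lib.Coprime.conj_smul_inv_smul _ _).symm
          _ ≤ _ := Subgroup.pointwise_smul_le_pointwise_smul_iff.mpr (key _ (inv_mem hx))
    have h := hT m
    rwa [show H ⊔ f m = H from sup_eq_left.mpr hm] at h

end Cfsg.Agent.S0567
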