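import Cfsg.Statements.S0568
import Cfsg.Agent.Lib.Hall.Carter

set_option autoImplicit false
open Cfsg

namespace Cfsg.Agent.S0568

/-- Let D be the system normalizer of a Hall complement system of a finite solvable group G, and let A < B be normal subgroups with no normal subgroup of G strictly between them (a chief factor). If G centralizes B modulo A then B ≤ A ⊔ D (D covers the factor); otherwise B ∩ D ≤ A (D avoids it). -/
theorem result {G : Type*} [Group G] [Finite G] [Group.IsSolvable G] (K : Nat.Primes → Subgroup G) (hK : Cfsg.IsComplementSystem K) (A B : Subgroup G) [A.Normal] [B.Normal] (hAB : A < B) (hchief : ∀ N : Subgroup G, N.Normal → A ≤ N → N ≤ B → N = A ∨ N = B) : (⁅B, (⊤ : Subgroup G)⁆ ≤ A → B ≤ A ⊔ Cfsg.systemNormalizer K) ∧ (¬ ⁅B, (⊤ : Subgroup G)⁆ ≤ A → B ⊓ Cfsg.systemNormalizer K ≤ A) := by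

  set π := QuotientGroup.mk' A with hπ
  haveI hBn : (B.map π).Normal := Subgroup.Normal.map inferInstance _ (QuotientGroup.mk'_surjective A)
  have hker : π.ker = A := QuotientGroup.ker_mk' A
  have hK' := Lib.Hall.system_map hK A
  have hmap := Lib.Hall.systemNormalizer_map hK A
  have hcen : ⁅B, (⊤ : Subgroup G)⁆ ≤ A ↔ B.map π ≤ Subgroup.center (G ⧸ A) := by
    rw [← Subgroup.centralizer_univ, ← Subgroup.coe_top, ← Subgroup.commutator_eq_bot_iff_le_centralizer,
      ← Subgroup.map_top_of_surjective π (QuotientGroup.mk'_surjective A), ← Subgroup.map_commutator,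
      Subgroup.map_eq_bot_iff, hker]
  constructor
  · intro h
    have h1 := (hcen.mp h).trans (Lib.Hall.center_le_systemNormalizer (fun p => (K p).map π))
    rw [hmap, Subgroup.map_le_map_iff, hker, sup_comm] at h1
    exact h1
  · intro h
    have hne : ¬ B.map π ≤ Subgroup.center (G ⧸ A) := fun h' => h (hcen.mpr h')
    have hbot := Lib.Hall.inf_systemNormalizer_eq_bot hK' (B.map π) (fun M hM hMB => by
      have hsurj := QuotientGroup.mk'_surjective A
      rcases hchief (M.comap π) (hM.comap π) (hker.ge.trans (Subgroup.ker_le_comap _ _)) (by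
        have := Subgroup.comap_mono (f := π) hMB
        rwa [Subgroup.comap_map_eq, hker, sup_eq_left.mpr hAB.le] at this) with h1 | h1
      · left
        rw [← Subgroup.map_comap_eq_self_of_surjective hsurj M, h1, Subgroup.map_eq_bot_iff, hker]
      · right
        rw [← Subgroup.map_comap_eq_self_of_surjective hsurj M, h1]) hne
    rw [hmap] at hbot
    intro x hx
    obtain ⟨hxB, hxD⟩ := Subgroup.mem_inf.mp hx
    have : π x ∈ (⊥ : Subgroup (G ⧸ A)) :=
      hbot ▸ Subgroup.mem_inf.mpr ⟨Subgroup.mem_map_of_mem π hxB, Subgroup.mem_map_of_mem π hxD⟩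
    rwa [Subgroup.mem_bot, hπ, QuotientGroup.mk'_apply, QuotientGroup.eq_one_iff] at this

end Cfsg.Agent.S0568
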