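import Cfsg.Statements.S0570
import Cfsg.Agent.Lib.Hall.Carter

set_option autoImplicit false
open Cfsg

namespace Cfsg.Agent.S0570

open scoped Pointwise

/-- Let G be a finite group with a nilpotent normal subgroup F such that G modulo F is nilpotent (nilpotent length at most two). Then a subgroup of G is a Carter subgroup if and only if it is the system normalizer of some Hall complement system. -/
theorem result {G : Type*} [Group G] [Finite G] (F : Subgroup G) [F.Normal] (hF : Group.IsNilpotent F) (hGF : Group.IsNilpotent (G ⧸ F)) (C : Subgroup G) : Cfsg.IsCarterSubgroup C ↔ ∃ K : Nat.Primes → Subgroup G, Cfsg.IsComplementSystem K ∧ C = Cfsg.systemNormalizer K := by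

  have : Group.IsSolvable G :=
    Group.isSolvable_of_ker_le_range (Subgroup.subtype F) (QuotientGroup.mk' F) (by simp)
  refine ⟨fun hC => ?_, ?_⟩
  · obtain ⟨K, hK⟩ := Lib.Hall.exists_complementSystem (G := G)
    obtain ⟨g, hg⟩ := Lib.Hall.carter_conj (Lib.Hall.systemNormalizer_isCarter F hF hGF hK) hC
    exact ⟨fun p => MulAut.conj g • K p, Lib.Hall.system_conj hK g, by
      rw [Lib.Hall.systemNormalizer_conj, hg]⟩
  · rintro ⟨K, hK, rfl⟩
    exact Lib.Hall.systemNormalizer_isCarter F hF hGF hK

end Cfsg.Agent.S0570
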