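import Cfsg.Statements.S0572
import Cfsg.Agent.Lib.Coprime.Action

set_option autoImplicit false
open scoped Pointwise commutatorElement
open Cfsg

namespace Cfsg.Agent.S0572

/-- Itô's Theorem: if a group G is the product AB of two abelian subgroups, then the commutator subgroup of G is abelian, i.e. the second term of the derived series is trivial. -/
theorem result {G : Type*} [Group G] (A B : Subgroup G) [IsMulCommutative A] [IsMulCommutative B] (hAB : ∀ g : G, ∃ a ∈ A, ∃ b ∈ B, g = a * b) : derivedSeries G 2 = ⊥ := by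
  let N : Subgroup G := ⁅A, B⁆
  have hG : ∀ g : G, g ∈ Subgroup.normalizer (N : Set G) := fun g => by
    obtain ⟨a, ha, b, hb, rfl⟩ := hAB g
    exact mul_mem (Lib.Coprime.left_le_normalizer_commutator A B ha)
      (Lib.Coprime.right_le_normalizer_commutator A B hb)
  have : N.Normal := Subgroup.normalizer_eq_top_iff.mp (eq_top_iff.mpr fun g _ => hG g)
  have hcA : ∀ {x y : G}, x ∈ A → y ∈ A → x * y = y * x := fun {x y} hx hy =>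
    congrArg Subtype.val (mul_comm' (⟨x, hx⟩ : A) ⟨y, hy⟩)
  have hcB : ∀ {x y : G}, x ∈ B → y ∈ B → x * y = y * x := fun {x y} hx hy =>
    congrArg Subtype.val (mul_comm' (⟨x, hx⟩ : B) ⟨y, hy⟩)
  have hcomm : _root_.commutator G ≤ N := by
    rw [commutator_def, Subgroup.commutator_le]
    intro g _ h _
    obtain ⟨a, ha, b, hb, rfl⟩ := hAB g
    obtain ⟨c, hc, d, hd, rfl⟩ := hAB h
    rw [← QuotientGroup.eq_one_iff, ← QuotientGroup.mk'_apply, map_commutatorElement,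
      commutatorElement_eq_one_iff_mul_comm, map_mul, map_mul]
    have hmix : ∀ {x y : G}, x ∈ A → y ∈ B → Commute (QuotientGroup.mk' N x) (QuotientGroup.mk' N y) := by
      intro x y hx hy
      rw [commute_iff_eq, ← commutatorElement_eq_one_iff_mul_comm, ← map_commutatorElement,
        QuotientGroup.mk'_apply, QuotientGroup.eq_one_iff]
      exact Subgroup.commutator_mem_commutator hx hy
    have hxA : ∀ {x : G}, x ∈ A → Commute (QuotientGroup.mk' N a) (QuotientGroup.mk' N x) := fun {x} hx =>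
      Commute.map (hcA ha hx) _
    exact (((hxA hc).mul_right (hmix ha hd)).mul_left
      (((hmix hc hb).symm).mul_right (Commute.map (hcB hb hd) _))).eq
  -- the generators of `N` commute
  have key : ∀ a ∈ A, ∀ b ∈ B, ∀ a₁ ∈ A, ∀ b₁ ∈ B,
      (a₁ * b₁) * ⁅a, b⁆ * (a₁ * b₁)⁻¹ = (b₁ * a₁) * ⁅a, b⁆ * (b₁ * a₁)⁻¹ := by
    intro a ha b hb a₁ ha₁ b₁ hb₁
    obtain ⟨a₂, ha₂, b₂, hb₂, e2⟩ := hAB (b₁ * a * b₁⁻¹)
    obtain ⟨a₃, ha₃, b₃, hb₃, e3⟩ := hAB (a₁ * b * a₁⁻¹)⁻¹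
    have e3' : a₁ * b * a₁⁻¹ = b₃⁻¹ * a₃⁻¹ := by rw [← mul_inv_rev, ← e3, inv_inv]
    have h2 : b₁ * ⁅a, b⁆ * b₁⁻¹ = ⁅a₂, b⁆ := by
      calc b₁ * ⁅a, b⁆ * b₁⁻¹ = (b₁ * a * b₁⁻¹) * (b₁ * b * b₁⁻¹) * (b₁ * a * b₁⁻¹)⁻¹ * (b₁ * b * b₁⁻¹)⁻¹ := by
            rw [commutatorElement_def]; group
        _ = a₂ * (b₂ * b) * b₂⁻¹ * a₂⁻¹ * b⁻¹ := by
            rw [hcB hb₁ hb, mul_inv_cancel_right, e2]; group
        _ = ⁅a₂, b⁆ := by rw [hcB hb₂ hb, commutatorElement_def]; group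
    have h3 : ∀ x ∈ A, a₁ * ⁅x, b⁆ * a₁⁻¹ = ⁅x, b₃⁻¹⁆ := by
      intro x hx
      calc a₁ * ⁅x, b⁆ * a₁⁻¹ = (a₁ * x * a₁⁻¹) * (a₁ * b * a₁⁻¹) * (a₁ * x * a₁⁻¹)⁻¹ * (a₁ * b * a₁⁻¹)⁻¹ := by
            rw [commutatorElement_def]; group
        _ = x * b₃⁻¹ * (a₃⁻¹ * x⁻¹) * a₃ * b₃ := by
            rw [hcA ha₁ hx, mul_inv_cancel_right, e3']; group
        _ = ⁅x, b₃⁻¹⁆ := by rw [hcA (A.inv_mem ha₃) (A.inv_mem hx), commutatorElement_def]; group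
    have h4 : b₁ * ⁅a, b₃⁻¹⁆ * b₁⁻¹ = ⁅a₂, b₃⁻¹⁆ := by
      have hb3 := B.inv_mem hb₃
      calc b₁ * ⁅a, b₃⁻¹⁆ * b₁⁻¹ = (b₁ * a * b₁⁻¹) * (b₁ * b₃⁻¹ * b₁⁻¹) * (b₁ * a * b₁⁻¹)⁻¹ * (b₁ * b₃⁻¹ * b₁⁻¹)⁻¹ := by
            rw [commutatorElement_def]; group
        _ = a₂ * (b₂ * b₃⁻¹) * b₂⁻¹ * a₂⁻¹ * (b₃⁻¹)⁻¹ := by
            rw [hcB hb₁ hb3, mul_inv_cancel_right, e2]; group
        _ = ⁅a₂, b₃⁻¹⁆ := by rw [hcB hb₂ hb3, commutatorElement_def]; group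
    calc _ = a₁ * (b₁ * ⁅a, b⁆ * b₁⁻¹) * a₁⁻¹ := by group
      _ = ⁅a₂, b₃⁻¹⁆ := by rw [h2, h3 a₂ ha₂]
      _ = b₁ * (a₁ * ⁅a, b⁆ * a₁⁻¹) * b₁⁻¹ := by rw [h3 a ha, h4]
      _ = _ := by group
  have hab : ⁅N, N⁆ = ⊥ := by
    rw [Subgroup.commutator_eq_bot_iff_le_centralizer]
    have h1 : ∀ a ∈ A, ∀ b ∈ B, N ≤ Subgroup.centralizer {⁅a, b⁆} := by
      intro a ha b hb
      show ⁅A, B⁆ ≤ _
      rw [Subgroup.commutator_le]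
      intro a₁ ha₁ b₁ hb₁
      rw [Subgroup.mem_centralizer_singleton_iff]
      have h := congrArg (fun z => (b₁ * a₁)⁻¹ * z * (a₁ * b₁)) (key a ha b hb a₁ ha₁ b₁ hb₁)
      have h' := key a ha b hb a₁⁻¹ (A.inv_mem ha₁) b₁⁻¹ (B.inv_mem hb₁)
      calc ⁅a₁, b₁⁆ * ⁅a, b⁆ = (a₁ * b₁) * ((a₁⁻¹ * b₁⁻¹) * ⁅a, b⁆ * (a₁⁻¹ * b₁⁻¹)⁻¹) * (b₁ * a₁)⁻¹ := by
            rw [commutatorElement_def]; group
        _ = (a₁ * b₁) * ((b₁⁻¹ * a₁⁻¹) * ⁅a, b⁆ * (b₁⁻¹ * a₁⁻¹)⁻¹) * (b₁ * a₁)⁻¹ := by rw [h']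
        _ = ⁅a, b⁆ * ⁅a₁, b₁⁆ := by simp only [commutatorElement_def]; group
    show ⁅A, B⁆ ≤ _
    rw [Subgroup.commutator_le]
    intro a ha b hb
    rw [Subgroup.mem_centralizer_iff]
    intro n hn
    exact Subgroup.mem_centralizer_singleton_iff.mp (h1 a ha b hb hn)
  rw [derivedSeries_succ, derivedSeries_one, eq_bot_iff, ← hab]
  exact Subgroup.commutator_mono hcomm hcomm

end Cfsg.Agent.S0572
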