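import Cfsg.Statements.S0573
import Cfsg.Agent.S0572
import Cfsg.Agent.Lib.Coprime.Product

set_option autoImplicit false
open Cfsg

namespace Cfsg.Agent.S0573

open Subgroup
open scoped Pointwise commutatorElement

theorem flip_hAB {G : Type*} [Group G] {A B : Subgroup G} (hAB : ∀ g : G, ∃ a ∈ A, ∃ b ∈ B, g = a * b) :
    ∀ g : G, ∃ b ∈ B, ∃ a ∈ A, g = b * a := by
  intro g
  obtain ⟨a, ha, b, hb, e⟩ := hAB g⁻¹
  exact ⟨b⁻¹, inv_mem hb, a⁻¹, inv_mem ha, by rw [← mul_inv_rev, ← e, inv_inv]⟩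

/-- An element centralising a factor lies in it, if neither factor contains a normal subgroup. -/
theorem mem_of_commute {G : Type*} [Group G] {A B : Subgroup G} [IsMulCommutative A] [IsMulCommutative B]
    (hAB : ∀ g : G, ∃ a ∈ A, ∃ b ∈ B, g = a * b)
    (hB : ∀ N : Subgroup G, N.Normal → N ≤ B → N = ⊥) {z : G} (hz : ∀ x ∈ A, z * x = x * z) : z ∈ A := by
  obtain ⟨a, ha, b, hb, rfl⟩ := hAB z
  have hbA : ∀ x ∈ A, b * x = x * b := by
    intro x hx
    have h := hz x hx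
    have hax : a * x = x * a := setLike_mul_comm ha hx
    rw [mul_assoc] at h
    rw [show x * (a * b) = a * (x * b) by rw [← mul_assoc, ← hax, mul_assoc]] at h
    exact mul_left_cancel h
  have hN : (zpowers b).Normal := ⟨fun n hn g => by
    obtain ⟨u, hu, v, hv, rfl⟩ := hAB g
    have h1 : b * (u * v) = u * v * b := by
      rw [← mul_assoc, hbA u hu, mul_assoc, setLike_mul_comm hb hv, ← mul_assoc]
    obtain ⟨i, rfl⟩ := mem_zpowers_iff.mp hn
    rw [((show Commute b (u * v) from h1).zpow_left i).symm.eq, mul_inv_cancel_right]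
    exact zpow_mem (mem_zpowers b) i⟩
  have h1 : b = 1 := zpowers_eq_bot.mp (hB _ hN (zpowers_le.mpr hb))
  rw [h1, mul_one]; exact ha

/-- A factor meets the commutator subgroup trivially. -/
theorem inf_commutator_eq_bot {G : Type*} [Group G] {A B : Subgroup G} [IsMulCommutative A] [IsMulCommutative B]
    (hAB : ∀ g : G, ∃ a ∈ A, ∃ b ∈ B, g = a * b) (hA : ∀ N : Subgroup G, N.Normal → N ≤ A → N = ⊥)
    (hB : ∀ N : Subgroup G, N.Normal → N ≤ B → N = ⊥)
    (hab : ∀ a ∈ commutator G, ∀ b ∈ commutator G, a * b = b * a) : A ⊓ commutator G = ⊥ := by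
  refine hA _ ⟨fun u hu g => ?_⟩ inf_le_left
  obtain ⟨a, ha, b, hb, rfl⟩ := hAB g
  obtain ⟨hu1, hu2⟩ := hu
  have hbu : b * u * b⁻¹ ∈ commutator G := Normal.conj_mem inferInstance _ hu2 b
  have h1 : b * u * b⁻¹ ∈ A := by
    refine mem_of_commute hAB hB fun x hx => ?_
    have hc : b * x * b⁻¹ * x⁻¹ ∈ commutator G := by
      rw [← commutatorElement_def]; exact commutator_mem_commutator (mem_top b) (mem_top x)
    have h2 : (b * u * b⁻¹) * (b * x * b⁻¹) = (b * x * b⁻¹) * (b * u * b⁻¹) := by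
      rw [show (b * u * b⁻¹) * (b * x * b⁻¹) = b * (u * x) * b⁻¹ by group, setLike_mul_comm hu1 hx]; group
    have h3 := hab _ hbu _ hc
    have h4 : Commute (b * u * b⁻¹) ((b * x * b⁻¹ * x⁻¹)⁻¹ * (b * x * b⁻¹)) :=
      (Commute.inv_right h3).mul_right h2
    rwa [show (b * x * b⁻¹ * x⁻¹)⁻¹ * (b * x * b⁻¹) = x by group] at h4
  have h5 : a * b * u * (a * b)⁻¹ = b * u * b⁻¹ := by
    rw [show a * b * u * (a * b)⁻¹ = a * (b * u * b⁻¹) * a⁻¹ by group, setLike_mul_comm ha h1, mul_inv_cancel_right]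
  rw [h5]; exact ⟨h1, hbu⟩

/-- Elements of `p`-power order of an abelian factor act trivially on a minimal normal subgroup in `G'`. -/
theorem commute_minimal {G : Type*} [Group G] [Finite G] {p : ℕ} [Fact p.Prime] (M : Subgroup G) [M.Normal]
    (hM : IsPGroup p M) (hM1 : M ≠ ⊥) (hmin : ∀ N : Subgroup G, N.Normal → N ≠ ⊥ → N ≤ M → N = M)
    (hcen : ∀ c ∈ commutator G, ∀ m ∈ M, c * m = m * c) (x : G) (hx : ∃ k, orderOf x = p ^ k) :
    ∀ m ∈ M, x * m = m * x := by
  let N : Subgroup G := M ⊓ centralizer {x}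
  have hN : N.Normal := ⟨fun m hm g => by
    refine ⟨Normal.conj_mem inferInstance _ hm.1 g, mem_centralizer_singleton_iff.mpr ?_⟩
    have hc : ⁅g⁻¹, x⁆ ∈ commutator G := commutator_mem_commutator (mem_top _) (mem_top _)
    have h1 := hcen _ hc m hm.1
    have h2 := mem_centralizer_singleton_iff.mp hm.2
    have h3 : Commute m (g⁻¹ * x * g) := by
      rw [show g⁻¹ * x * g = ⁅g⁻¹, x⁆ * x by rw [commutatorElement_def]; group]
      exact (show Commute m _ from h1.symm).mul_right h2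
    calc g * m * g⁻¹ * x = g * (m * (g⁻¹ * x * g)) * g⁻¹ := by group
      _ = g * ((g⁻¹ * x * g) * m) * g⁻¹ := by rw [h3.eq]
      _ = x * (g * m * g⁻¹) := by group⟩
  have hN1 : N ≠ ⊥ := by
    obtain ⟨k, hk⟩ := hx
    haveI : Nontrivial M := (nontrivial_iff_ne_bot M).mpr hM1
    obtain ⟨j, hj0, hj⟩ := (IsPGroup.nontrivial_iff_card hM).1 inferInstance
    letI : MulAction (zpowers x) M := MulAction.compHom M ((MulAut.conjNormal (H := M)).comp (zpowers x).subtype)
    have hZ : IsPGroup p (zpowers x) := IsPGroup.of_card (n := k) (by rw [Nat.card_zpowers, hk])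
    obtain ⟨m, hm, hm1⟩ := hZ.exists_fixed_point_of_prime_dvd_card_of_fixed_point M (hj ▸ dvd_pow_self p hj0.ne')
      (a := (1 : M)) (fun g => map_one ((MulAut.conjNormal (H := M)) (g : G)))
    intro h
    have h1 : x * (m : G) * x⁻¹ = m := congrArg Subtype.val (hm ⟨x, mem_zpowers x⟩)
    have h2 : (m : G) ∈ N := ⟨m.2, mem_centralizer_singleton_iff.mpr (mul_inv_eq_iff_eq_mul.mp h1).symm⟩
    rw [h, mem_bot] at h2
    exact hm1 (Subtype.ext h2.symm)
  intro m hm
  have h := (hmin N hN hN1 inf_le_left).ge hm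
  exact (mem_centralizer_singleton_iff.mp h.2).symm

theorem aux {G : Type*} [Group G] [Finite G] [Nontrivial G] (A B : Subgroup G) [IsMulCommutative A]
    [IsMulCommutative B] (hAB : ∀ g : G, ∃ a ∈ A, ∃ b ∈ B, g = a * b) :
    ∃ N : Subgroup G, N.Normal ∧ N ≠ ⊥ ∧ (N ≤ A ∨ N ≤ B) := by
  classical
  by_contra hno
  push Not at hno
  have hA : ∀ N : Subgroup G, N.Normal → N ≤ A → N = ⊥ := fun N hN h => by
    by_contra h1; exact (hno N hN h1).1 h
  have hB : ∀ N : Subgroup G, N.Normal → N ≤ B → N = ⊥ := fun N hN h => by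
    by_contra h1; exact (hno N hN h1).2 h
  have hBA := flip_hAB hAB
  have hab : ∀ a ∈ commutator G, ∀ b ∈ commutator G, a * b = b * a := fun a ha b hb => by
    have h := Cfsg.Agent.S0572.result A B hAB
    rw [derivedSeries_succ, derivedSeries_one, eq_bot_iff] at h
    exact commutatorElement_eq_one_iff_mul_comm.mp (mem_bot.mp (h (commutator_mem_commutator ha hb)))
  have hAG := inf_commutator_eq_bot hAB hA hB hab
  have hBG := inf_commutator_eq_bot hBA hB hA hab
  have hG1 : commutator G ≠ ⊥ := by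
    intro h
    have hAn : A.Normal := ⟨fun a ha g => by
      have h1 : ⁅g, a⁆ ∈ commutator G := commutator_mem_commutator (mem_top _) (mem_top _)
      rw [h, mem_bot, commutatorElement_eq_one_iff_mul_comm] at h1
      rwa [h1, mul_inv_cancel_right]⟩
    have hA1 : A = ⊥ := hA A hAn le_rfl
    refine (hno ⊤ inferInstance top_ne_bot).2 fun g _ => ?_
    obtain ⟨a, ha, b, hb, rfl⟩ := hAB g
    rw [hA1, mem_bot] at ha
    rwa [ha, one_mul]
  obtain ⟨p, hp, hpd⟩ := Nat.exists_prime_and_dvd (fun h => hG1 (card_eq_one.mp h) : Nat.card (commutator G) ≠ 1)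
  haveI := Fact.mk hp
  let Ω : Subgroup G :=
    { carrier := {x | x ∈ commutator G ∧ x ^ p = 1}
      one_mem' := ⟨one_mem _, one_pow p⟩
      mul_mem' := fun {x y} hx hy => ⟨mul_mem hx.1 hy.1, by
        rw [(show Commute x y from hab x hx.1 y hy.1).mul_pow, hx.2, hy.2, one_mul]⟩
      inv_mem' := fun {x} hx => ⟨inv_mem hx.1, by rw [inv_pow, hx.2, inv_one]⟩ }
  have hΩn : Ω.Normal := ⟨fun x hx g => ⟨Normal.conj_mem inferInstance _ hx.1 g, by
    rw [conj_pow, hx.2, mul_one, mul_inv_cancel]⟩⟩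
  have hΩ1 : Ω ≠ ⊥ := fun h => by
    obtain ⟨x, hx⟩ := exists_prime_orderOf_dvd_card' (G := commutator G) p hpd
    have hxΩ : (x : G) ∈ Ω := ⟨x.2, by rw [← hx, ← orderOf_coe, pow_orderOf_eq_one]⟩
    rw [h, mem_bot] at hxΩ
    rw [← orderOf_coe, hxΩ, orderOf_one] at hx
    exact hp.ne_one hx.symm
  obtain ⟨M, ⟨hMn, hM1, hMΩ⟩, hMmin⟩ := exists_minimal_of_wellFoundedLT
    (fun N : Subgroup G => N.Normal ∧ N ≠ ⊥ ∧ N ≤ Ω) ⟨Ω, hΩn, hΩ1, le_rfl⟩
  haveI := hMn
  have hmin : ∀ N : Subgroup G, N.Normal → N ≠ ⊥ → N ≤ M → N = M := fun N hN hN1 hle =>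
    le_antisymm hle (hMmin ⟨hN, hN1, hle.trans hMΩ⟩ hle)
  have hMG : M ≤ commutator G := fun m hm => (hMΩ hm).1
  have hMp : IsPGroup p M := fun m => ⟨1, Subtype.ext (by simpa using (hMΩ m.2).2)⟩
  have hcen : ∀ c ∈ commutator G, ∀ m ∈ M, c * m = m * c := fun c hc m hm => hab c hc m (hMG hm)
  let A₀ : Subgroup G := A ⊓ (M ⊔ B)
  let B₀ : Subgroup G := B ⊓ (M ⊔ A)
  let Y : Subgroup G := M ⊔ A₀
  have hY : Y = M ⊔ B₀ := by
    refine le_antisymm (sup_le le_sup_left ?_) (sup_le le_sup_left ?_)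
    · rintro a ⟨ha, ha'⟩
      obtain ⟨m, hm, b, hb, e⟩ := mem_sup_of_normal_left.mp ha'
      have hb' : b ∈ B₀ := ⟨hb, by
        rw [show b = m⁻¹ * a by rw [← e, inv_mul_cancel_left]]
        exact mul_mem (mem_sup_left (inv_mem hm)) (mem_sup_right ha)⟩
      rw [← e]; exact mul_mem (mem_sup_left hm) (mem_sup_right hb')
    · rintro b ⟨hb, hb'⟩
      obtain ⟨m, hm, a, ha, e⟩ := mem_sup_of_normal_left.mp hb'
      have ha' : a ∈ A₀ := ⟨ha, by
        rw [show a = m⁻¹ * b by rw [← e, inv_mul_cancel_left]]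
        exact mul_mem (mem_sup_left (inv_mem hm)) (mem_sup_right hb)⟩
      rw [← e]; exact mul_mem (mem_sup_left hm) (mem_sup_right ha')
  have hA01 : A₀ ≠ ⊥ := by
    intro h
    refine hM1 (eq_bot_iff.mpr fun m hm => ?_)
    obtain ⟨a, ha, b, hb, e⟩ := hAB m
    have ha0 : a ∈ A₀ := ⟨ha, by
      rw [show a = m * b⁻¹ by rw [e, mul_inv_cancel_right]]
      exact mul_mem (mem_sup_left hm) (mem_sup_right (inv_mem hb))⟩
    rw [h, mem_bot] at ha0
    have : m ∈ B ⊓ commutator G := ⟨by rw [e, ha0, one_mul]; exact hb, hMG hm⟩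
    rwa [hBG] at this
  have hconjY : ∀ (C C₀ : Subgroup G), (∀ u ∈ C, ∀ v ∈ C₀, u * v = v * u) →
      ∀ g ∈ C, ∀ y ∈ M ⊔ C₀, g * y * g⁻¹ ∈ M ⊔ C₀ := by
    intro C C₀ hc g hg y hy
    obtain ⟨m, hm, v, hv, rfl⟩ := mem_sup_of_normal_left.mp hy
    rw [show g * (m * v) * g⁻¹ = (g * m * g⁻¹) * (g * v * g⁻¹) by group, hc g hg v hv, mul_inv_cancel_right]
    exact mul_mem (mem_sup_left (hMn.conj_mem m hm g)) (mem_sup_right hv)
  haveI hYn : Y.Normal := ⟨fun y hy g => by
    obtain ⟨a, ha, b, hb, rfl⟩ := hAB g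
    rw [show a * b * y * (a * b)⁻¹ = a * (b * y * b⁻¹) * a⁻¹ by group]
    refine hconjY A A₀ (fun u hu v hv => setLike_mul_comm hu hv.1) a ha _ ?_
    show b * y * b⁻¹ ∈ Y
    rw [hY] at hy ⊢
    exact hconjY B B₀ (fun u hu v hv => setLike_mul_comm hu hv.1) b hb y hy⟩
  let C : Subgroup G := centralizer (Y : Set G)
  haveI : C.Normal := inferInstance
  have hptriv : ∀ x : G, x ∈ A ∨ x ∈ B → (∃ k, orderOf x = p ^ k) → x ∈ C := by
    intro x hx hk
    have h1 := commute_minimal M hMp hM1 hmin hcen x hk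
    refine mem_centralizer_iff.mpr fun y hy => ?_
    have key : ∀ C₀ : Subgroup G, (∀ v ∈ C₀, v * x = x * v) → y ∈ M ⊔ C₀ → y * x = x * y := by
      intro C₀ hc hy'
      obtain ⟨m, hm, v, hv, rfl⟩ := mem_sup_of_normal_left.mp hy'
      exact ((show Commute m x from (h1 m hm).symm).mul_left (hc v hv)).eq
    rcases hx with hx | hx
    · exact key A₀ (fun v hv => setLike_mul_comm hv.1 hx) hy
    · exact key B₀ (fun v hv => setLike_mul_comm hv.1 hx) (hY ▸ hy)
  let f : G →* G ⧸ C := QuotientGroup.mk' C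
  have himg : ∀ D : Subgroup G, (D = A ∨ D = B) → ∀ d : D, ∃ e : ℕ, ¬ p ∣ e ∧ f d ^ e = 1 := by
    intro D hD d
    obtain ⟨k, e, he, hoe⟩ : ∃ k e, ¬ p ∣ e ∧ orderOf (d : G) = p ^ k * e :=
      ⟨_, _, Nat.not_dvd_ordCompl hp (orderOf_pos _).ne', (Nat.ordProj_mul_ordCompl_eq_self _ p).symm⟩
    refine ⟨e, he, ?_⟩
    rw [← map_pow]
    refine (QuotientGroup.eq_one_iff _).mpr (hptriv _ ?_ ⟨k, ?_⟩)
    · rcases hD with rfl | rfl
      exacts [Or.inl (pow_mem d.2 _), Or.inr (pow_mem d.2 _)]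
    · have he0 : 0 < e := Nat.pos_of_ne_zero fun h => he (h ▸ dvd_zero p)
      rw [orderOf_pow_of_dvd he0.ne' (hoe ▸ dvd_mul_left e _), hoe, Nat.mul_div_cancel _ he0]
  have hquot : ¬ p ∣ Nat.card (G ⧸ C) := by
    intro hd
    have hnot : ∀ D : Subgroup G, (D = A ∨ D = B) → ¬ p ∣ Nat.card (D.map f) := by
      intro D hD h
      obtain ⟨⟨_, d, hd', rfl⟩, hdo⟩ := exists_prime_orderOf_dvd_card' (G := D.map f) p h
      replace hdo : orderOf (f d) = p := by rw [← hdo, ← Subgroup.orderOf_coe]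
      obtain ⟨e, he, he1⟩ := himg D hD ⟨d, hd'⟩
      exact he (hdo ▸ orderOf_dvd_of_pow_eq_one he1)
    let g : (A.map f) × (B.map f) → G ⧸ C := fun z => (z.1 : G ⧸ C) * z.2
    have hprod : Nat.card (G ⧸ C) * Nat.card ↥(A.map f ⊓ B.map f) = Nat.card (A.map f) * Nat.card (B.map f) := by
      have h1 := Lib.Coprime.card_coe_mul_mul_card_inf (A.map f) (B.map f)
      rw [show ((A.map f : Subgroup (G ⧸ C)) : Set (G ⧸ C)) * ((B.map f : Subgroup (G ⧸ C)) : Set (G ⧸ C)) = Set.univ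
        from Set.eq_univ_of_forall fun z => by
          obtain ⟨z, rfl⟩ := QuotientGroup.mk'_surjective C z
          obtain ⟨a, ha, b, hb, rfl⟩ := hAB z
          exact ⟨f a, mem_map_of_mem f ha, f b, mem_map_of_mem f hb, (map_mul f a b).symm⟩,
        Nat.card_congr (Equiv.Set.univ _)] at h1
      exact h1
    rcases hp.dvd_mul.mp (hprod ▸ hd.mul_right _) with h | h
    exacts [hnot A (Or.inl rfl) h, hnot B (Or.inr rfl) h]
  have hGC : ∀ c ∈ commutator G, c ∈ C := by
    intro c hc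
    have hstep : ∀ a ∈ A₀, c ^ p * a = a * c ^ p := by
      intro a ha
      have haY : a ∈ Y := mem_sup_right ha
      have hμ' : ⁅c, a⁆ ∈ commutator G := commutator_mem_commutator (mem_top _) (mem_top _)
      have hμY : ⁅c, a⁆ ∈ Y := by
        rw [commutatorElement_def]; exact Y.mul_mem (hYn.conj_mem a haY c) (Y.inv_mem haY)
      obtain ⟨m, hm, a', ha', e⟩ := mem_sup_of_normal_left.mp hμY
      have ha1 : a' = 1 := by
        have : a' ∈ A ⊓ commutator G := ⟨ha'.1, by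
          rw [show a' = m⁻¹ * ⁅c, a⁆ by rw [← e, inv_mul_cancel_left]]
          exact (commutator G).mul_mem ((commutator G).inv_mem (hMG hm)) hμ'⟩
        rwa [hAG, mem_bot] at this
      rw [ha1, mul_one] at e
      have h1 : ∀ n : ℕ, c ^ n * a * (c ^ n)⁻¹ = m ^ n * a := by
        intro n
        induction n with
        | zero => simp
        | succ n ih =>
          rw [pow_succ' c, show c * c ^ n * a * (c * c ^ n)⁻¹ = c * (c ^ n * a * (c ^ n)⁻¹) * c⁻¹ by group, ih,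
            show c * (m ^ n * a) * c⁻¹ = (c * m ^ n) * c⁻¹ * (c * a * c⁻¹ * a⁻¹) * a by group,
            ← commutatorElement_def, ← e, ((show Commute c m from hcen c hc m hm).pow_right n).eq,
            mul_inv_cancel_right, ← pow_succ]
      have h2 := h1 p
      rw [(hMΩ hm).2, one_mul] at h2
      exact mul_inv_eq_iff_eq_mul.mp h2
    have hcp : f c ^ p = 1 := by
      rw [← map_pow]
      refine (QuotientGroup.eq_one_iff _).mpr (mem_centralizer_iff.mpr fun y hy => ?_)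
      obtain ⟨m, hm, a, ha, rfl⟩ := mem_sup_of_normal_left.mp hy
      exact (((show Commute (c ^ p) m from Commute.pow_left (hcen c hc m hm) p).mul_right (hstep a ha))).symm.eq
    have h1 : orderOf (f c) = 1 := by
      rcases (Nat.dvd_prime hp).mp (orderOf_dvd_of_pow_eq_one hcp) with h | h
      · exact h
      · exact absurd (h ▸ _root_.orderOf_dvd_natCard (f c)) hquot
    exact (QuotientGroup.eq_one_iff c).mp (orderOf_eq_one_iff.mp h1)
  -- `A₀ = C_Y(A)` is then normal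
  have hA0n : A₀.Normal := ⟨fun a ha g => by
    refine ⟨mem_of_commute hAB hB fun x hx => ?_, ?_⟩
    · have hc : ⁅g⁻¹, x⁆ ∈ C := hGC _ (commutator_mem_commutator (mem_top _) (mem_top _))
      have h1 : Commute a (g⁻¹ * x * g) := by
        rw [show g⁻¹ * x * g = ⁅g⁻¹, x⁆ * x by rw [commutatorElement_def]; group]
        exact (show Commute a _ from mem_centralizer_iff.mp hc a (mem_sup_right ha)).mul_right
          (setLike_mul_comm ha.1 hx)
      calc g * a * g⁻¹ * x = g * (a * (g⁻¹ * x * g)) * g⁻¹ := by group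
        _ = g * ((g⁻¹ * x * g) * a) * g⁻¹ := by rw [h1.eq]
        _ = x * (g * a * g⁻¹) := by group
    · have h1 : g * a * g⁻¹ ∈ M ⊔ B₀ := hY ▸ hYn.conj_mem a (mem_sup_right ha) g
      exact (sup_le_sup_left inf_le_left M) h1⟩
  exact hA01 (hA A₀ hA0n inf_le_left)


/-- If a nontrivial finite group G is the product AB of abelian subgroups A and B, then some nontrivial normal subgroup of G is contained in A or in B. -/
theorem result {G : Type*} [Group G] [Finite G] [Nontrivial G] (A B : Subgroup G) [IsMulCommutative A] [IsMulCommutative B] (hAB : ∀ g : G, ∃ a ∈ A, ∃ b ∈ B, g = a * b) : ∃ N : Subgroup G, N.Normal ∧ N ≠ ⊥ ∧ (N ≤ A ∨ N ≤ B) := by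
  exact aux A B hAB

end Cfsg.Agent.S0573
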