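import Cfsg.Statements.S0574
import Cfsg.Agent.S0572
import Cfsg.Agent.Lib.Coprime.Product
import Cfsg.Agent.Lib.Hall.KegelWielandt

set_option autoImplicit false
open Cfsg

namespace Cfsg.Agent.S0574

open Subgroup
open scoped commutatorElement Pointwise

universe u

theorem comm_coe {G : Type u} [Group G] {B : Subgroup G} (hB : commutator ↥B ≤ Subgroup.center ↥B)
    {z : G} (hz : z ∈ (commutator ↥B).map B.subtype) : z ∈ B ∧ ∀ b ∈ B, b * z = z * b := by
  obtain ⟨w, hw, rfl⟩ := hz
  exact ⟨w.2, fun b hb => congrArg Subtype.val (mem_center_iff.mp (hB hw) ⟨b, hb⟩)⟩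

theorem main (n : ℕ) : ∀ (G : Type u) [Group G] [Finite G], Nat.card G = n → ∀ (A B : Subgroup G)
    [IsMulCommutative A], commutator ↥B ≤ Subgroup.center ↥B → (∀ g : G, ∃ a ∈ A, ∃ b ∈ B, g = a * b) →
      derivedSeries G (2 * (1 + (Nat.card ↥(commutator ↥B)).primeFactorsList.length)) = ⊥ := by
  induction n using Nat.strong_induction_on with
  | _ n ih => ?_
  intro G _ _ hn A B _ hB hfact
  classical
  set B' := (commutator ↥B).map B.subtype with hB'
  have hcardB' : Nat.card B' = Nat.card ↥(commutator ↥B) := card_map_of_injective B.subtype_injective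
  have hanti : ∀ {m k : ℕ}, m ≤ k → derivedSeries G m = ⊥ → derivedSeries G k = ⊥ := fun {m k} h hm =>
    le_bot_iff.mp (hm ▸ derivedSeries_antitone G h)
  by_cases hbot : B' = ⊥
  · haveI : IsMulCommutative B := ⟨⟨fun u v => by
      have h1 : ⁅u, v⁆ ∈ commutator ↥B := commutator_mem_commutator (mem_top u) (mem_top v)
      rw [(map_eq_bot_iff_of_injective _ B.subtype_injective).mp hbot, mem_bot,
        commutatorElement_eq_one_iff_mul_comm] at h1
      exact h1⟩⟩
    exact hanti (by omega) (Cfsg.Agent.S0572.result A B hfact)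
  have hnilA : Group.IsNilpotent A := by
    let _ : CommGroup A := { (inferInstance : Group A) with mul_comm := mul_comm' }
    infer_instance
  have hnilB : Group.IsNilpotent B :=
    _root_.isNilpotent_of_ker_le_center Abelianization.of (Abelianization.ker_of (G := B) ▸ hB)
  haveI : Group.IsSolvable G := Lib.Hall.KegelWielandt.isSolvable A B hnilA hnilB hfact
  -- choose `z` in `B'` with `⟨A, z⟩` as small as possible
  obtain ⟨z, hz, hzmin⟩ : ∃ z : G, (z ∈ B' ∧ z ≠ 1) ∧ ∀ y : G, y ∈ B' → y ≠ 1 →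
      Nat.card ↥(A ⊔ zpowers z) ≤ Nat.card ↥(A ⊔ zpowers y) := by
    have hex : ∃ m : ℕ, ∃ z : G, (z ∈ B' ∧ z ≠ 1) ∧ Nat.card ↥(A ⊔ zpowers z) = m := by
      obtain ⟨w, hw⟩ := Subgroup.ne_bot_iff_exists_ne_one.mp hbot
      exact ⟨_, w, ⟨w.2, fun e => hw (Subtype.ext e)⟩, rfl⟩
    obtain ⟨z, hz, hzc⟩ := Nat.find_spec hex
    exact ⟨z, hz, fun y hy hy1 => hzc ▸ Nat.find_min' hex ⟨y, ⟨hy, hy1⟩, rfl⟩⟩
  set H := A ⊔ zpowers z with hH
  -- normal closures of elements of `B'` are generated by `A`-conjugates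
  have hncl : ∀ y ∈ B', normalClosure ({y} : Set G) ≤ A ⊔ zpowers y := by
    intro y hy
    refine (closure_le _).mpr fun g hg => ?_
    obtain ⟨y', hy', hyg⟩ := Group.mem_conjugatesOfSet_iff.mp hg
    rw [Set.mem_singleton_iff] at hy'
    subst hy'
    obtain ⟨x, rfl⟩ := isConj_iff.mp hyg
    obtain ⟨a, ha, b, hb, rfl⟩ := hfact x
    have hbz : b * y' * b⁻¹ = y' := by rw [(comm_coe hB hy).2 b hb, mul_inv_cancel_right]
    have e : a * b * y' * (a * b)⁻¹ = a * y' * a⁻¹ := by
      calc a * b * y' * (a * b)⁻¹ = a * (b * y' * b⁻¹) * a⁻¹ := by group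
        _ = _ := by rw [hbz]
    rw [SetLike.mem_coe, e]
    exact mul_mem (mul_mem (mem_sup_left ha) (mem_sup_right (mem_zpowers y'))) (inv_mem (mem_sup_left ha))
  -- `B ∩ H` is abelian
  have hUab : ∀ u ∈ B ⊓ H, ∀ v ∈ B ⊓ H, u * v = v * u := by
    by_contra hcon
    push_neg at hcon
    obtain ⟨u₀, hu₀, v₀, hv₀, hne₀⟩ := hcon
    set y := ⁅u₀, v₀⁆ with hy
    have hy1 : y ≠ 1 := fun e => hne₀ (commutatorElement_eq_one_iff_mul_comm.mp e)
    have hyB : y ∈ B' := ⟨⁅(⟨u₀, hu₀.1⟩ : B), ⟨v₀, hv₀.1⟩⁆,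
      commutator_mem_commutator (mem_top _) (mem_top _), rfl⟩
    have hyH : y ∈ H := by
      rw [hy, commutatorElement_def]
      exact mul_mem (mul_mem (mul_mem hu₀.2 hv₀.2) (inv_mem hu₀.2)) (inv_mem hv₀.2)
    have hHy : A ⊔ zpowers y = H :=
      eq_of_le_of_card_ge (sup_le le_sup_left (zpowers_le.mpr hyH)) (hzmin y hyB hy1)
    set K := normalClosure ({y} : Set G) with hK
    haveI : K.Normal := normalClosure_normal
    set D := ⁅K, K⁆ with hD
    haveI : D.Normal := commutator_normal K K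
    set π := QuotientGroup.mk' D with hπ
    have hKK : ∀ k ∈ K, ∀ k' ∈ K, π k * π k' = π k' * π k := fun k hk k' hk' => by
      rw [← commutatorElement_eq_one_iff_mul_comm, ← map_commutatorElement, hπ, QuotientGroup.mk'_apply,
        QuotientGroup.eq_one_iff]
      exact commutator_mem_commutator hk hk'
    have hyK : y ∈ K := subset_normalClosure rfl
    have hAK : H ≤ A ⊔ K := hHy ▸ sup_le_sup_left (zpowers_le.mpr hyK) A
    have hdec : ∀ u ∈ B ⊓ H, ∃ a ∈ A, ∃ k ∈ K, u = a * k ∧ ∀ k' ∈ K, π a * π k' = π k' * π a := by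
      intro u hu
      have hu' := hAK hu.2
      rw [← SetLike.mem_coe, mul_normal] at hu'
      obtain ⟨a, ha, k, hk, rfl⟩ := hu'
      refine ⟨a, ha, k, hk, rfl, ?_⟩
      have h1 : π a * π y = π y * π a := by
        have h2 : π (a * k) * π y = π y * π (a * k) := by
          rw [← map_mul, ← map_mul, (comm_coe hB hyB).2 _ hu.1]
        rw [map_mul, mul_assoc, hKK k hk y hyK, ← mul_assoc, ← mul_assoc] at h2
        exact mul_right_cancel h2
      have hle : K ≤ (centralizer ({π a} : Set (G ⧸ D))).comap π := by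
        refine (closure_le _).mpr fun g hg => ?_
        obtain ⟨y', hy', hyg⟩ := Group.mem_conjugatesOfSet_iff.mp hg
        rw [Set.mem_singleton_iff] at hy'
        subst hy'
        obtain ⟨x, rfl⟩ := isConj_iff.mp hyg
        obtain ⟨a', ha', b, hb, rfl⟩ := hfact x
        have hbz : b * y * b⁻¹ = y := by rw [(comm_coe hB hyB).2 b hb, mul_inv_cancel_right]
        rw [SetLike.mem_coe, mem_comap, show a' * b * y * (a' * b)⁻¹ = a' * (b * y * b⁻¹) * a'⁻¹ by group, hbz,
          mem_centralizer_singleton_iff]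
        have haa : Commute (π a) (π a') := (show Commute a a' from
          congrArg Subtype.val (mul_comm' (⟨a, ha⟩ : A) ⟨a', ha'⟩)).map π
        rw [map_mul, map_mul, map_inv]
        exact ((haa.mul_right h1).mul_right haa.inv_right).symm.eq
      intro k' hk'
      exact (mem_centralizer_singleton_iff.mp (mem_comap.mp (hle hk'))).symm
    obtain ⟨a, ha, k, hk, eu, hak⟩ := hdec u₀ hu₀
    obtain ⟨a', ha', k', hk', ev, hak'⟩ := hdec v₀ hv₀
    have hyD : y ∈ D := by
      rw [← QuotientGroup.eq_one_iff, ← QuotientGroup.mk'_apply, ← hπ, hy, map_commutatorElement,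
        commutatorElement_eq_one_iff_commute, eu, ev, map_mul, map_mul]
      have h1 : Commute (π a) (π a') := (show Commute a a' from
        congrArg Subtype.val (mul_comm' (⟨a, ha⟩ : A) ⟨a', ha'⟩)).map π
      exact (h1.mul_right (hak k' hk')).mul_left
        (((show Commute (π a') (π k) from hak' k hk).symm).mul_right (hKK k hk k' hk'))
    have hKbot : K ≠ ⊥ := fun e => hy1 (mem_bot.mp (e ▸ hyK))
    exact (Lib.Hall.commutator_lt_of_solvable hKbot).not_ge (normalClosure_le_normal (Set.singleton_subset_iff.mpr hyD))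
  -- `H` is metabelian
  have hH2 : derivedSeries ↥H 2 = ⊥ := by
    haveI : IsMulCommutative ↥(A.subgroupOf H) := by
      refine ⟨⟨fun u v => ?_⟩⟩
      have h' := congrArg (fun x : A => (x : G))
        (mul_comm' (⟨((u : H) : G), u.2⟩ : A) ⟨((v : H) : G), v.2⟩)
      ext
      exact h'
    haveI : IsMulCommutative ↥(B.subgroupOf H) := ⟨⟨fun u v => Subtype.ext (Subtype.ext
      (hUab _ ⟨u.2, u.1.2⟩ _ ⟨v.2, v.1.2⟩))⟩⟩
    refine Cfsg.Agent.S0572.result (A.subgroupOf H) (B.subgroupOf H) fun g => ?_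
    obtain ⟨a, ha, b, hb, e⟩ := hfact g
    have hbH : b ∈ H := by
      have := mul_mem (inv_mem (mem_sup_left ha : a ∈ H)) g.2
      rwa [e, inv_mul_cancel_left] at this
    exact ⟨⟨a, mem_sup_left ha⟩, ha, ⟨b, hbH⟩, hb, Subtype.ext e⟩
  set K := normalClosure ({z} : Set G) with hK
  haveI : K.Normal := normalClosure_normal
  have hKH : K ≤ H := hncl z hz.1
  have hzK : z ∈ K := subset_normalClosure rfl
  have hK1 : K ≠ ⊥ := fun e => hz.2 (mem_bot.mp (e ▸ hzK))
  -- induction
  set π := QuotientGroup.mk' K with hπ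
  haveI : IsMulCommutative ↥(A.map π) := map_isMulCommutative A π
  have hBbar : commutator ↥(B.map π) ≤ center ↥(B.map π) := by
    have hsurj := π.subgroupMap_surjective B
    have h1 : commutator ↥(B.map π) = (commutator ↥B).map (π.subgroupMap B) := by
      rw [_root_.commutator_def, _root_.commutator_def, map_commutator, map_top_of_surjective _ hsurj]
    rw [h1]
    rintro _ ⟨w, hw, rfl⟩
    rw [mem_center_iff]
    intro x
    obtain ⟨x, rfl⟩ := hsurj x
    rw [← map_mul, ← map_mul, mem_center_iff.mp (hB hw) x]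
  have hq := ih _ (hn ▸ Lib.Coprime.card_quotient_lt hK1) (G ⧸ K) rfl (A.map π) (B.map π) hBbar fun x => by
    obtain ⟨g, rfl⟩ := QuotientGroup.mk_surjective x
    obtain ⟨a, ha, b, hb, rfl⟩ := hfact g
    exact ⟨_, mem_map_of_mem _ ha, _, mem_map_of_mem _ hb, rfl⟩
  -- the number of prime factors drops
  set Ω := (Nat.card ↥(commutator ↥B)).primeFactorsList.length with hΩ
  set Ω' := (Nat.card ↥(commutator ↥(B.map π))).primeFactorsList.length with hΩ'
  have hdrop : Ω' < Ω := by
    have hc : (commutator ↥(B.map π)).map (B.map π).subtype = B'.map π := by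
      rw [hB', map_subtype_commutator, map_subtype_commutator, map_commutator]
    have hcard : Nat.card ↥(commutator ↥(B.map π)) = Nat.card ↥(B'.map π) := by
      rw [← hc, card_map_of_injective (B.map π).subtype_injective]
    have h1 := Lib.Coprime.card_map_mul_card_inf_ker π B'
    rw [hπ, QuotientGroup.ker_mk', ← hπ] at h1
    have h2 : 2 ≤ Nat.card ↥(B' ⊓ K) := by
      haveI : Nontrivial ↥(B' ⊓ K) := ⟨⟨⟨z, hz.1, hzK⟩, 1, fun e => hz.2 (congrArg Subtype.val e)⟩⟩
      exact Finite.one_lt_card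
    rw [hΩ, hΩ', hcard, ← hcardB', ← h1, (Nat.perm_primeFactorsList_mul Nat.card_pos.ne' Nat.card_pos.ne').length_eq,
      List.length_append]
    have : (Nat.card ↥(B' ⊓ K)).primeFactorsList ≠ [] := by
      rw [Ne, Nat.primeFactorsList_eq_nil]; omega
    have := List.length_pos_iff.mpr this
    omega
  -- assemble
  have hle : derivedSeries G (2 * (1 + Ω')) ≤ K := by
    rw [← QuotientGroup.ker_mk' K, ← Subgroup.map_eq_bot_iff, ← hπ,
      map_derivedSeries_eq (QuotientGroup.mk'_surjective K)]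
    exact hq
  refine hanti (show 2 * (1 + Ω') + 2 ≤ 2 * (1 + Ω) by omega) (eq_bot_iff.mpr ?_)
  have h2 : ⁅⁅H, H⁆, ⁅H, H⁆⁆ = ⊥ := by
    have h := congrArg (Subgroup.map H.subtype) hH2
    rw [Subgroup.map_bot, show derivedSeries ↥H 2 = ⁅⁅(⊤ : Subgroup H), ⊤⁆, ⁅(⊤ : Subgroup H), ⊤⁆⁆ from rfl,
      map_commutator, map_commutator, ← MonoidHom.range_eq_map, range_subtype] at h
    exact h
  rw [show 2 * (1 + Ω') + 2 = (2 * (1 + Ω') + 1) + 1 from rfl, derivedSeries_succ, derivedSeries_succ, ← h2]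
  exact commutator_mono (commutator_mono (hle.trans hKH) (hle.trans hKH))
    (commutator_mono (hle.trans hKH) (hle.trans hKH))

/-- Let the finite group G be the product AB of an abelian subgroup A and a subgroup B of nilpotency class at most two, and let Ω be the number of prime factors, with multiplicity, of the order of the commutator subgroup of B. Then the term of index 2(1 + Ω) of the derived series of G is trivial. -/
theorem result {G : Type*} [Group G] [Finite G] (A B : Subgroup G) [IsMulCommutative A] (hB : commutator ↥B ≤ Subgroup.center ↥B) (hAB : ∀ g : G, ∃ a ∈ A, ∃ b ∈ B, g = a * b) : derivedSeries G (2 * (1 + (Nat.card ↥(commutator ↥B)).primeFactorsList.length)) = ⊥ := by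

  exact main _ G rfl A B hB hAB

end Cfsg.Agent.S0574
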