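import Cfsg.Statements.S0575
import Cfsg.Agent.Lib.Coprime.Basic
import Mathlib.GroupTheory.Frattini

set_option autoImplicit false
open scoped Pointwise commutatorElement
open Cfsg

namespace Cfsg.Agent.S0575

/-- If H is a normal subgroup of a finite group G, then the Frattini subgroup of H, viewed in G, lies in the Frattini subgroup of G. -/
theorem result {G : Type*} [Group G] [Finite G] (H : Subgroup G) [H.Normal] : (frattini ↥H).map H.subtype ≤ frattini G := by
  refine le_iInf₂ fun M hM => ?_
  by_contra hle
  let F : Subgroup G := (frattini H).map H.subtype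
  have : F.Normal := ConjAct.normal_of_characteristic_of_normal
  have hsup : F ⊔ M = ⊤ := hM.2 _ (lt_of_le_of_ne le_sup_right fun h => hle (le_sup_left.trans h.ge))
  have htop : M.subgroupOf H ⊔ frattini H = ⊤ := by
    rw [eq_top_iff]
    intro h _
    have hh : (h : G) ∈ F ⊔ M := hsup ▸ Subgroup.mem_top _
    rw [← SetLike.mem_coe, Subgroup.normal_mul] at hh
    obtain ⟨_, ⟨f, hf, rfl⟩, m, hm, he⟩ := hh
    have hm' : m ∈ H := by
      have : m = (f : G)⁻¹ * h := by rw [← he]; simp
      rw [this]; exact H.mul_mem (H.inv_mem f.2) h.2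
    have h2 := Subgroup.mul_mem_sup (S := frattini H) (T := M.subgroupOf H) hf
      (show (⟨m, hm'⟩ : H) ∈ M.subgroupOf H from hm)
    rw [sup_comm] at h2
    convert h2
    exact Subtype.ext he.symm
  exact hle (Subgroup.map_le_iff_le_comap.mpr (le_top.trans (frattini_nongenerating htop).ge))

end Cfsg.Agent.S0575
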