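import Cfsg.Statements.S0576
import Cfsg.Agent.Lib.Coprime.Basic
import Mathlib.GroupTheory.Frattini

set_option autoImplicit false
open scoped Pointwise commutatorElement
open Cfsg

namespace Cfsg.Agent.S0576

/-- Let H be a normal subgroup of a finite group G with H contained in the Frattini subgroup of G. Then the group of inner automorphisms of H is contained in the Frattini subgroup of the automorphism group of H. -/
theorem result {G : Type*} [Group G] [Finite G] (H : Subgroup G) [H.Normal] (hH : H ≤ frattini G) : (MulAut.conj : ↥H →* MulAut ↥H).range ≤ frattini (MulAut ↥H) := by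
  refine le_iInf₂ fun M hM => ?_
  by_contra hle
  let ι : ↥H →* MulAut ↥H := MulAut.conj
  let ψ : G →* MulAut ↥H := MulAut.conjNormal
  have hι : ∀ h : H, ψ (h : G) = ι h := fun h => by ext x; rfl
  have : ι.range.Normal := ⟨fun _ ⟨h, e⟩ f => ⟨f h, by ext x; subst e; simp [ι]⟩⟩
  have hsup : ι.range ⊔ M = ⊤ := hM.2 _ (lt_of_le_of_ne le_sup_right fun h => hle (le_sup_left.trans h.ge))
  have htop : M.comap ψ ⊔ frattini G = ⊤ := by
    rw [eq_top_iff]
    intro g _
    have hg : ψ g ∈ ι.range ⊔ M := hsup ▸ Subgroup.mem_top _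
    rw [← SetLike.mem_coe, Subgroup.normal_mul] at hg
    obtain ⟨_, ⟨h, rfl⟩, m, hm, e⟩ := hg
    have h1 : (h : G)⁻¹ * g ∈ M.comap ψ := by
      rw [Subgroup.mem_comap, map_mul, map_inv, hι, ← e]
      simpa using hm
    have h2 := Subgroup.mul_mem_sup (T := M.comap ψ) (hH h.2) h1
    rw [sup_comm] at h2
    simpa using h2
  have h3 := frattini_nongenerating htop
  exact hle (fun _ ⟨h, e⟩ => e ▸ (hι h ▸ (h3.ge (Subgroup.mem_top (h : G)) : ψ (h : G) ∈ M)))

end Cfsg.Agent.S0576
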