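import Cfsg.Statements.S0577
import Cfsg.Agent.Lib.Hall.Schmidt
import Cfsg.Agent.Lib.PGroupFrattini

set_option autoImplicit false
open Cfsg

namespace Cfsg.Agent.S0577

/-- Let G be a finite minimal non-nilpotent group and Q a normal Sylow q-subgroup of G, and let D be the commutator subgroup of Q regarded in G (a normal subgroup). Then G modulo D is non-abelian and all its proper subgroups are abelian. -/
theorem result {G : Type*} [Group G] [Finite G] (hG : Cfsg.IsMinimalNonNilpotent G) (q : ℕ) [Fact q.Prime] (hq : q ∣ Nat.card G) (Q : Sylow q G) (hQ : (Q : Subgroup G).Normal) (D : Subgroup G) [D.Normal] (hD : D = (commutator ↥(Q : Subgroup G)).map (Q : Subgroup G).subtype) : ¬ IsMulCommutative (G ⧸ D) ∧ ∀ K : Subgroup (G ⧸ D), K ≠ ⊤ → IsMulCommutative K := by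
  obtain ⟨p, q₀, hp, hq₀, hpq, P, Q₀, x, hPx, hQ₀n, hsup, hxC⟩ := Lib.Hall.minimal_non_nilpotent_structure hG
  haveI := Fact.mk hp
  haveI := Fact.mk hq₀
  have hqq : q₀ = q := by
    have hqq : q₀ = q ∨ p = q := by
      have h1 : Nat.card G = Nat.card (P : Subgroup G) * Nat.card (Q₀ : Subgroup G) := by
        rw [← Subgroup.card_top (G := G), ← hsup,
          Lib.Coprime.card_sup_of_coprime (by rw [Subgroup.normalizer_eq_top]; exact le_top)
            (IsPGroup.coprime_card_of_ne p q₀ hpq _ _ P.2 Q₀.2)]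
      rw [h1] at hq
      rcases (Fact.out : q.Prime).dvd_mul.mp hq with h | h
      · obtain ⟨i, hi⟩ := IsPGroup.iff_card.mp P.2
        rw [hi] at h
        exact Or.inr ((Nat.prime_dvd_prime_iff_eq Fact.out hp).mp ((Fact.out : q.Prime).dvd_of_dvd_pow h)).symm
      · obtain ⟨i, hi⟩ := IsPGroup.iff_card.mp Q₀.2
        rw [hi] at h
        exact Or.inl ((Nat.prime_dvd_prime_iff_eq Fact.out hq₀).mp ((Fact.out : q.Prime).dvd_of_dvd_pow h)).symm
    refine hqq.resolve_right ?_
    rintro rfl
    obtain ⟨g, hg⟩ := MulAction.exists_smul_eq G Q P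
    have hPn : (P : Subgroup G).Normal := by
      rw [← hg, Sylow.coe_subgroup_smul, Lib.Coprime.conj_smul_of_normal]; exact hQ
    refine hxC (Subgroup.mem_centralizer_iff.mpr fun u hu => ?_)
    exact (Subgroup.commute_of_normal_of_disjoint _ _ hQ₀n hPn
      (IsPGroup.disjoint_of_ne _ _ hpq.symm _ _ Q₀.2 P.2) u x hu (hPx.symm ▸ Subgroup.mem_zpowers x)).eq
  subst hqq
  obtain ⟨g₀, hg₀⟩ := MulAction.exists_smul_eq G Q₀ Q
  obtain rfl : Q₀ = Q := by
    rw [← hg₀]; apply Sylow.ext
    rw [Sylow.coe_subgroup_smul, Lib.Coprime.conj_smul_of_normal]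
  let π := QuotientGroup.mk' D
  have hπ : Function.Surjective π := QuotientGroup.mk'_surjective D
  have hDQ : D ≤ (Q₀ : Subgroup G) := hD ▸ Subgroup.map_subtype_le _
  have hQab : ∀ u ∈ (Q₀ : Subgroup G), ∀ w ∈ (Q₀ : Subgroup G), π u * π w = π w * π u := fun u hu w hw => by
    rw [← commutatorElement_eq_one_iff_mul_comm, ← map_commutatorElement]
    refine (QuotientGroup.eq_one_iff _).mpr ?_
    rw [hD, Subgroup.map_subtype_commutator]
    exact Subgroup.commutator_mem_commutator hu hw
  have hxQ : Subgroup.zpowers x ≤ Subgroup.normalizer ((Q₀ : Subgroup G) : Set G) := by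
    rw [Subgroup.normalizer_eq_top]; exact le_top
  have hcopx : (Nat.card (Subgroup.zpowers x)).Coprime (Nat.card (Q₀ : Subgroup G)) := by
    rw [← hPx]; exact IsPGroup.coprime_card_of_ne p q₀ hpq _ _ P.2 Q₀.2
  constructor
  · intro hab
    apply hxC
    refine Lib.Coprime.le_centralizer_of_frattini hxQ
      (hcopx.coprime_dvd_right (Subgroup.card_subgroup_dvd_card _)) (fun a _ u hu => ?_)
      (Subgroup.mem_zpowers x)
    have h1 : a * u * a⁻¹ * u⁻¹ ∈ D := by
      rw [← QuotientGroup.eq_one_iff]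
      show π (a * u * a⁻¹ * u⁻¹) = 1
      simp only [map_mul, map_inv]
      rw [hab.is_comm.comm (π a) (π u), mul_inv_cancel_right, mul_inv_cancel]
    rw [hD] at h1
    exact Subgroup.map_mono (Lib.PGroupFrattini.commutator_le_frattini Q₀.2) h1
  · intro K hK
    haveI hKnil : Group.IsNilpotent (K.comap π) := hG.2 _ fun h => hK (by
      rw [← Subgroup.map_comap_eq_self_of_surjective hπ K, h, Subgroup.map_top_of_surjective π hπ])
    have hmap : ((K.comap π).map π) = K := Subgroup.map_comap_eq_self_of_surjective hπ K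
    haveI : Group.IsNilpotent K :=
      Group.nilpotent_of_surjective ((MulEquiv.subgroupCongr hmap).toMonoidHom.comp (π.subgroupMap (K.comap π)))
        ((MulEquiv.subgroupCongr hmap).surjective.comp (π.subgroupMap_surjective _))
    let π₂ : G ⧸ D →* G ⧸ (Q₀ : Subgroup G) := QuotientGroup.map D (Q₀ : Subgroup G) (MonoidHom.id G) hDQ
    let f : K →* G ⧸ (Q₀ : Subgroup G) := π₂.comp K.subtype
    haveI : IsCyclic (G ⧸ (Q₀ : Subgroup G)) := by
      refine isCyclic_of_surjective ((QuotientGroup.mk' (Q₀ : Subgroup G)).comp (Subgroup.zpowers x).subtype) fun z => ?_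
      obtain ⟨g, rfl⟩ := QuotientGroup.mk'_surjective _ z
      obtain ⟨a, ha, u, hu, rfl⟩ := Subgroup.mem_sup_of_normal_right.mp (hsup ▸ Subgroup.mem_top g)
      refine ⟨⟨a, hPx ▸ ha⟩, ?_⟩
      show QuotientGroup.mk' _ a = QuotientGroup.mk' _ (a * u)
      rw [map_mul, show QuotientGroup.mk' (Q₀ : Subgroup G) u = 1 from (QuotientGroup.eq_one_iff u).mpr hu, mul_one]
    haveI : IsCyclic f.range := inferInstance
    have hker : f.rangeRestrict.ker ≤ Subgroup.center K := by
      rw [MonoidHom.ker_rangeRestrict]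
      intro y hy
      obtain ⟨u, hu⟩ := hπ (y : G ⧸ D)
      have huQ : u ∈ (Q₀ : Subgroup G) := by
        rw [← QuotientGroup.eq_one_iff]
        have : π₂ (π u) = 1 := by rw [hu]; exact hy
        exact this
      rw [Subgroup.mem_center_iff]
      intro z
      by_contra hne
      have hz : z ∉ Subgroup.centralizer ({y} : Set K) := fun h => hne (Subgroup.mem_centralizer_singleton_iff.mp h)
      obtain ⟨w, -, hwC, s, k, hs, hw⟩ := Lib.Hall.exists_primePow_not_mem _ hz
      apply hwC
      rw [Subgroup.mem_centralizer_singleton_iff]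
      apply Subtype.ext
      show (w : G ⧸ D) * (y : G ⧸ D) = (y : G ⧸ D) * w
      obtain ⟨v, hv⟩ := hπ (w : G ⧸ D)
      by_cases hsq : s = q₀
      · have hvQ : v ∈ (Q₀ : Subgroup G) := by
          rw [← QuotientGroup.eq_one_iff, ← orderOf_eq_one_iff]
          refine Nat.eq_one_of_dvd_coprimes (a := q₀ ^ k) (b := (Q₀ : Subgroup G).index)
            (Nat.Coprime.pow_left _ (hq₀.coprime_iff_not_dvd.mpr Q₀.not_dvd_index)) ?_
            (by rw [Subgroup.index_eq_card]; exact _root_.orderOf_dvd_natCard _)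
          have h1 : orderOf (π₂ (π v)) ∣ orderOf (π v) := orderOf_map_dvd _ _
          rw [hv, Subgroup.orderOf_coe, hw, hsq] at h1
          rw [← hv] at h1
          exact h1
        rw [← hu, ← hv]
        exact hQab v hvQ u huQ
      · have hy' : ∃ i, orderOf y ∣ q₀ ^ i := by
          obtain ⟨i, hi⟩ := IsPGroup.iff_orderOf.mp Q₀.2 ⟨u, huQ⟩
          rw [Subgroup.orderOf_mk] at hi
          exact ⟨i, by rw [← Subgroup.orderOf_coe, ← hu, ← hi]; exact orderOf_map_dvd π u⟩
        obtain ⟨i, hi⟩ := hy'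
        exact congrArg Subtype.val (Lib.Transfer.commute_of_coprime_orderOf (x := w) (y := y) (by
          rw [hw]
          exact ((Nat.coprime_primes hs hq₀).mpr hsq).pow k i |>.coprime_dvd_right hi)).eq
    exact ⟨⟨fun a b => commutative_of_cyclic_center_quotient f.rangeRestrict hker a b⟩⟩

end Cfsg.Agent.S0577
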