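import Cfsg.Statements.S0578
import Cfsg.Agent.Lib.Coprime.Basic
import Cfsg.Agent.S0015
import Mathlib.GroupTheory.Transfer

set_option autoImplicit false
open scoped Pointwise commutatorElement
open Cfsg

namespace Cfsg.Agent.S0578

/-- If in a finite group the normalizer of each abelian subgroup coincides with its centralizer, then the group is abelian. -/
theorem result {G : Type*} [Group G] [Finite G] (h : ∀ A : Subgroup G, IsMulCommutative A → Subgroup.normalizer (A : Set G) = Subgroup.centralizer (A : Set G)) : IsMulCommutative G := by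
  have hsyl : ∀ (p : ℕ) [Fact p.Prime] (P : Sylow p G), IsMulCommutative (P : Subgroup G) := by
    intro p _ P
    have : Group.IsNilpotent P := P.2.isNilpotent
    obtain ⟨N, -, hN⟩ := Finite.exists_le_maximal
      (p := fun K : Subgroup P => K.Normal ∧ IsMulCommutative K) (a := ⊥)
      ⟨inferInstance, ⟨⟨fun a b => Subsingleton.elim _ _⟩⟩⟩
    obtain ⟨hn, hc⟩ := hN.prop
    have hcen := Cfsg.Agent.S0015.result N fun M hM hMc hNM => (hN.eq_of_le ⟨hM, hMc⟩ hNM).symm
    have hc' : IsMulCommutative (N.map (P : Subgroup G).subtype) := inferInstance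
    have hPn : (P : Subgroup G) ≤ Subgroup.normalizer ((N.map (P : Subgroup G).subtype : Subgroup G) : Set G) := by
      have := Subgroup.le_normalizer_map (H := N) (P : Subgroup G).subtype
      rwa [Subgroup.normalizer_eq_top, ← MonoidHom.range_eq_map, Subgroup.range_subtype] at this
    rw [h _ hc'] at hPn
    have htop : Subgroup.centralizer (N : Set P) = ⊤ := by
      rw [eq_top_iff]
      intro x _
      rw [Subgroup.mem_centralizer_iff]
      intro n hn'
      exact Subtype.ext (Subgroup.mem_centralizer_iff.mp (hPn x.2) n (Subgroup.mem_map_of_mem _ hn'))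
    have hNtop : N = ⊤ := hcen.symm.trans htop
    subst hNtop
    exact ⟨⟨fun a b => congrArg Subtype.val (mul_comm' (⟨a, Subgroup.mem_top a⟩ : (⊤ : Subgroup P)) ⟨b, Subgroup.mem_top b⟩)⟩⟩
  have hcomm : _root_.commutator G = ⊥ := by
    rw [← Subgroup.card_eq_one, Nat.eq_one_iff_not_exists_prime_dvd]
    intro p hp hdvd
    have : Fact p.Prime := ⟨hp⟩
    obtain ⟨P⟩ := (inferInstance : Nonempty (Sylow p G))
    have hP := hsyl p P
    have hnc : Subgroup.normalizer ((P : Subgroup G) : Set G) ≤ Subgroup.centralizer ((P : Subgroup G) : Set G) :=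
      (h _ hP).le
    have hle : _root_.commutator G ≤ (MonoidHom.transferSylow P hnc).ker := by
      rw [commutator_def, Subgroup.commutator_le]
      intro a _ b _
      rw [MonoidHom.mem_ker, map_commutatorElement]
      exact commutatorElement_eq_one_iff_mul_comm.mpr (mul_comm' _ _)
    exact MonoidHom.not_dvd_card_ker_transferSylow P hnc (hdvd.trans (Subgroup.card_dvd_of_le hle))
  exact ⟨⟨fun a b => commutatorElement_eq_one_iff_mul_comm.mp (by
    rw [← Subgroup.mem_bot, ← hcomm]
    exact Subgroup.commutator_mem_commutator (Subgroup.mem_top a) (Subgroup.mem_top b))⟩⟩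

end Cfsg.Agent.S0578
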