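import Cfsg.Statements.S0583
import Cfsg.Agent.Lib.Hall.Basic

set_option autoImplicit false
open scoped Pointwise commutatorElement
open Cfsg

namespace Cfsg.Agent.S0583

theorem inf_center_ne_bot {G : Type*} [Group G] [Group.IsNilpotent G] {N : Subgroup G}
    (hn : N.Normal) (hN : N ≠ ⊥) : N ⊓ Subgroup.center G ≠ ⊥ := by
  classical
  have hex : ∃ k, N ⊓ Subgroup.upperCentralSeries G k ≠ ⊥ :=
    ⟨Group.nilpotencyClass G, by rwa [Subgroup.upperCentralSeries_nilpotencyClass, inf_top_eq]⟩
  have hk := Nat.find_spec hex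
  obtain ⟨j, hj⟩ : ∃ j, Nat.find hex = j + 1 := by
    refine ⟨Nat.find hex - 1, ?_⟩
    rcases Nat.eq_zero_or_pos (Nat.find hex) with h | h
    · rw [h, Subgroup.upperCentralSeries_zero, inf_bot_eq] at hk; exact absurd rfl hk
    · omega
  rw [hj] at hk
  refine ne_bot_of_le_ne_bot hk (le_inf inf_le_left fun x hx => ?_)
  rw [Subgroup.mem_center_iff]
  intro g
  have h0 : N ⊓ Subgroup.upperCentralSeries G j = ⊥ := not_ne_iff.mp (Nat.find_min hex (by omega))
  have h1 : x * g * x⁻¹ * g⁻¹ ∈ N := by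
    rw [mul_assoc, mul_assoc]
    exact N.mul_mem hx.1 (by rw [← mul_assoc]; exact hn.conj_mem _ (N.inv_mem hx.1) g)
  have h2 : x * g * x⁻¹ * g⁻¹ ∈ Subgroup.upperCentralSeries G j :=
    Subgroup.mem_upperCentralSeries_succ_iff.mp hx.2 g
  have h3 : x * g * x⁻¹ * g⁻¹ ∈ N ⊓ Subgroup.upperCentralSeries G j := ⟨h1, h2⟩
  rw [h0, Subgroup.mem_bot] at h3
  calc g * x = (x * g * x⁻¹ * g⁻¹)⁻¹ * (x * g) := by group
    _ = x * g := by rw [h3]; group

/-- In a finite group the Fitting subgroup is contained in the centralizer of each minimal normal subgroup. -/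
theorem result {G : Type*} [Group G] [Finite G] (M : Subgroup G) [M.Normal] (hM : M ≠ ⊥) (hmin : ∀ K : Subgroup G, K.Normal → K ≤ M → K = ⊥ ∨ K = M) : Cfsg.fittingSubgroup G ≤ Subgroup.centralizer (M : Set G) := by
  have hF : Group.IsNilpotent (Cfsg.fittingSubgroup G) := Lib.Hall.fittingSubgroup_isNilpotent
  rcases hmin (M ⊓ Cfsg.fittingSubgroup G) inferInstance inf_le_left with h | h
  · intro f hf
    rw [Subgroup.mem_centralizer_iff]
    intro m hm
    exact Subgroup.commute_of_normal_of_disjoint M (Cfsg.fittingSubgroup G) inferInstance inferInstance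
      (disjoint_iff.mpr h) m f hm hf
  · have hMF : M ≤ Cfsg.fittingSubgroup G := inf_eq_left.mp h
    have hne : M.subgroupOf (Cfsg.fittingSubgroup G) ≠ ⊥ := by
      rw [Ne, ← Subgroup.card_eq_one, Lib.Coprime.card_subgroupOf hMF, Subgroup.card_eq_one]
      exact hM
    have h1 := inf_center_ne_bot (Subgroup.Normal.subgroupOf inferInstance _) hne
    let Z : Subgroup G := (Subgroup.center (Cfsg.fittingSubgroup G)).map (Cfsg.fittingSubgroup G).subtype
    have : Z.Normal := ConjAct.normal_of_characteristic_of_normal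
    have h2 : M ⊓ Z = M := by
      refine (hmin _ inferInstance inf_le_left).resolve_left fun h2 => h1 ?_
      rw [eq_bot_iff]
      intro x hx
      rw [Subgroup.mem_bot]
      have hx' : (x : G) ∈ M ⊓ Z := ⟨hx.1, Subgroup.mem_map_of_mem _ hx.2⟩
      rw [h2, Subgroup.mem_bot] at hx'
      exact Subtype.ext hx'
    intro f hf
    rw [Subgroup.mem_centralizer_iff]
    intro m hm
    obtain ⟨z, hz, rfl⟩ := (inf_eq_left.mp h2) hm
    exact (congrArg Subtype.val (Subgroup.mem_center_iff.mp hz ⟨f, hf⟩)).symm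

end Cfsg.Agent.S0583
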