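import Cfsg.Statements.S0585
import Cfsg.Agent.Lib.Coprime.Basic
import Mathlib.GroupTheory.Frattini

set_option autoImplicit false
open scoped Pointwise commutatorElement
open Cfsg

namespace Cfsg.Agent.S0585

/-- If the Frattini subgroup of a finite group G is trivial, then every abelian normal subgroup of G has a complement in G. -/
theorem result {G : Type*} [Group G] [Finite G] (hΦ : frattini G = ⊥) (A : Subgroup G) [A.Normal] [IsMulCommutative A] : ∃ H : Subgroup G, Subgroup.IsComplement' A H := by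
  obtain ⟨H, -, hH⟩ := Finite.exists_le_minimal (p := fun H : Subgroup G => A ⊔ H = ⊤)
    (a := ⊤) (sup_top_eq A)
  have hn : (A ⊓ H).Normal := by
    refine Subgroup.normalizer_eq_top_iff.mp (eq_top_iff.mpr (hH.prop.ge.trans (sup_le ?_ ?_)))
    · refine (le_trans ?_ (Subgroup.centralizer_le_normalizer _)) |> fun h => h
      intro a ha
      rw [Subgroup.mem_centralizer_iff]
      intro z hz
      exact congrArg Subtype.val (mul_comm' (⟨z, hz.1⟩ : A) ⟨a, ha⟩)
    · exact (le_inf Subgroup.le_normalizer_of_normal Subgroup.le_normalizer).trans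
        Subgroup.inf_normalizer_le_normalizer_inf
  have hbot : A ⊓ H = ⊥ := by
    rw [eq_bot_iff, ← hΦ]
    refine le_iInf₂ fun M hM => ?_
    by_contra hle
    have hsup : (A ⊓ H) ⊔ M = ⊤ := hM.2 _ (lt_of_le_of_ne le_sup_right fun h => hle (le_sup_left.trans h.ge))
    have : A ⊔ (H ⊓ M) = ⊤ := by
      rw [eq_top_iff, ← hH.prop]
      refine sup_le le_sup_left fun h hh => ?_
      have h1 : h ∈ (A ⊓ H) ⊔ M := hsup ▸ Subgroup.mem_top h
      rw [← SetLike.mem_coe, Subgroup.normal_mul] at h1
      obtain ⟨a, ha, m, hm, rfl⟩ := h1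
      exact Subgroup.mul_mem_sup ha.1 ⟨(H.mul_mem_cancel_left ha.2).mp hh, hm⟩
    exact hle (inf_le_right.trans ((hH.eq_of_ge this inf_le_left).le.trans inf_le_right))
  refine ⟨H, Subgroup.isComplement'_of_disjoint_and_mul_eq_univ (disjoint_iff.mpr hbot) ?_⟩
  rw [← Subgroup.normal_mul, hH.prop, Subgroup.coe_top]

end Cfsg.Agent.S0585
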