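import Cfsg.Statements.S0586
import Cfsg.Agent.Lib.Hall.Solvable
import Cfsg.Agent.S0583
import Cfsg.Agent.S0585

set_option autoImplicit false
open scoped Pointwise commutatorElement
open Cfsg

namespace Cfsg.Agent.S0586

/-- If the Frattini subgroup of a finite group G is trivial, then the Fitting subgroup of G equals the join of all abelian minimal normal subgroups of G. -/
theorem result {G : Type*} [Group G] [Finite G] (hΦ : frattini G = ⊥) : Cfsg.fittingSubgroup G = sSup {N : Subgroup G | N.Normal ∧ N ≠ ⊥ ∧ IsMulCommutative N ∧ ∀ K : Subgroup G, K.Normal → K ≤ N → K = ⊥ ∨ K = N} := by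
  let S : Subgroup G := sSup {N : Subgroup G | N.Normal ∧ N ≠ ⊥ ∧ IsMulCommutative N ∧
    ∀ K : Subgroup G, K.Normal → K ≤ N → K = ⊥ ∨ K = N}
  let F := Cfsg.fittingSubgroup G
  have hSF : S ≤ F := sSup_le fun N ⟨hn, _, hc, _⟩ => by
    have := hc
    exact Lib.Hall.le_fittingSubgroup (@CommGroup.isNilpotent N { (inferInstance : Group N) with mul_comm := mul_comm' })
  have hSn : S.Normal := Subgroup.sSup_normal _ fun N h => h.1
  have hcent : F ≤ Subgroup.centralizer (S : Set G) := by
    rw [Subgroup.le_centralizer_iff]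
    refine sSup_le fun N ⟨hn, hne, _, hmin⟩ => ?_
    exact Subgroup.le_centralizer_iff.mp (Cfsg.Agent.S0583.result N hne hmin)
  have hScomm : IsMulCommutative S :=
    ⟨⟨fun a b => Subtype.ext (Subgroup.mem_centralizer_iff.mp (hcent (hSF b.2)) a a.2)⟩⟩
  obtain ⟨H, hH⟩ := Cfsg.Agent.S0585.result hΦ S
  have hn : (F ⊓ H).Normal := by
    refine Subgroup.normalizer_eq_top_iff.mp (eq_top_iff.mpr (hH.sup_eq_top.ge.trans (sup_le ?_ ?_)))
    · refine le_trans ?_ (Subgroup.centralizer_le_normalizer _)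
      intro s hs
      rw [Subgroup.mem_centralizer_iff]
      intro z hz
      exact (Subgroup.mem_centralizer_iff.mp (hcent hz.1) s hs).symm
    · exact (le_inf Subgroup.le_normalizer_of_normal Subgroup.le_normalizer).trans
        Subgroup.inf_normalizer_le_normalizer_inf
  have h0 : F ⊓ H = ⊥ := by
    by_contra hne
    obtain ⟨N, hNn, hN, hNle, hmin⟩ := Lib.Hall.exists_minimal_normal_le hne
    have hnil : Group.IsNilpotent F := Lib.Hall.fittingSubgroup_isNilpotent
    have : Group.IsSolvable F := inferInstance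
    have : Group.IsSolvable N := Lib.Coprime.isSolvable_of_le (hNle.trans inf_le_left) this
    obtain ⟨hc, -⟩ := Lib.Hall.minimal_normal_solvable N hN hmin
    have hNS : N ≤ S := le_sSup ⟨hNn, hN, hc, hmin⟩
    exact hN (eq_bot_iff.mpr ((le_inf hNS (hNle.trans inf_le_right)).trans hH.disjoint.eq_bot.le))
  refine le_antisymm (fun f hf => ?_) hSF
  have h : f ∈ S ⊔ H := hH.sup_eq_top ▸ Subgroup.mem_top f
  rw [← SetLike.mem_coe, Subgroup.normal_mul] at h
  obtain ⟨s, hs, u, hu, rfl⟩ := h
  have : u ∈ F ⊓ H := ⟨(F.mul_mem_cancel_left (hSF hs)).mp hf, hu⟩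
  rw [h0, Subgroup.mem_bot] at this
  show s * u ∈ S
  rw [this, mul_one]; exact hs

end Cfsg.Agent.S0586
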