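import Cfsg.Statements.S0587
import Cfsg.Agent.Lib.Hall.Primitive
import Cfsg.Agent.S0583
import Cfsg.Agent.Lib.Coprime.Abelian

set_option autoImplicit false
open scoped Pointwise commutatorElement
open Cfsg

namespace Cfsg.Agent.S0587

/-- Let G be a finite group whose largest normal p-subgroup L is nontrivial, and M a maximal subgroup of G with trivial normal core. Then L is elementary abelian, M is a complement to L, L is a minimal normal subgroup of G, the centralizer of L is L, and for every prime q such that the largest normal q-subgroup of M is nontrivial, the order of L is congruent to 1 modulo q and q ≠ p. -/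
theorem result {G : Type*} [Group G] [Finite G] (p : ℕ) [Fact p.Prime] (hL : Cfsg.pCore p G ≠ ⊥) (M : Subgroup G) (hM : IsCoatom M) (hcore : M.normalCore = ⊥) : Cfsg.IsElementaryAbelian p (Cfsg.pCore p G) ∧ Subgroup.IsComplement' (Cfsg.pCore p G) M ∧ (∀ K : Subgroup G, K.Normal → K ≤ Cfsg.pCore p G → K = ⊥ ∨ K = Cfsg.pCore p G) ∧ Subgroup.centralizer ((Cfsg.pCore p G : Subgroup G) : Set G) = Cfsg.pCore p G ∧ ∀ (q : ℕ) [Fact q.Prime], Cfsg.pCore q ↥M ≠ ⊥ → Nat.card (Cfsg.pCore p G) % q = 1 % q ∧ q ≠ p := by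
  obtain ⟨N, hN, hN0, hNP, hmin⟩ := Lib.Hall.exists_minimal_normal_le hL
  let P := Cfsg.pCore p G
  have hPp : IsPGroup p P := Lib.Hall.isPGroup_pCore p
  have hNp : IsPGroup p N := hPp.to_le hNP
  have : Group.IsNilpotent N := hNp.isNilpotent
  obtain ⟨hc, r, hr, hpow⟩ := Lib.Hall.minimal_normal_solvable N hN0 hmin
  have := hc
  have hrp : r = p := by
    obtain ⟨x, hx, hx1⟩ := N.bot_or_exists_ne_one.resolve_left hN0
    obtain ⟨k, hk⟩ := IsPGroup.iff_orderOf.mp hNp ⟨x, hx⟩
    rw [Subgroup.orderOf_mk] at hk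
    have h2 := orderOf_dvd_of_pow_eq_one (hpow x hx)
    rw [hk] at h2
    rcases k with _ | k
    · exact absurd (orderOf_eq_one_iff.mp (by simpa using hk)) hx1
    · exact ((Nat.prime_dvd_prime_iff_eq Fact.out hr).mp ((dvd_pow_self p k.succ_ne_zero).trans h2)).symm
  subst hrp
  have hCN := Lib.Hall.centralizer_eq_self hM hcore hN0
  have hPN : P = N := le_antisymm
    ((Lib.Hall.pCore_le_fittingSubgroup r).trans ((Cfsg.Agent.S0583.result N hN0 hmin).trans hCN.le)) hNP
  rw [show Cfsg.pCore r G = N from hPN]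
  refine ⟨⟨hc, hpow⟩, Lib.Hall.isComplement'_of_normal hM hcore hN0 hN0 (Subgroup.le_centralizer N),
    hmin, hCN, fun q _ hq => ?_⟩
  let Q : Subgroup G := (Cfsg.pCore q ↥M).map M.subtype
  have hQp : IsPGroup q Q := (Lib.Hall.isPGroup_pCore q).map _
  have hQ0 : Q ≠ ⊥ := fun h => hq ((Subgroup.map_eq_bot_iff_of_injective _ M.subtype_injective).mp h)
  have hQM : Q ≤ M := Subgroup.map_subtype_le _
  have hMQ : M ≤ Subgroup.normalizer (Q : Set G) := by
    have := Subgroup.le_normalizer_map (H := Cfsg.pCore q ↥M) M.subtype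
    rwa [Subgroup.normalizer_eq_top, ← MonoidHom.range_eq_map, Subgroup.range_subtype] at this
  have hNM := Lib.Hall.sup_eq_top_of_core_eq_bot hM hcore hN0
  have hdisj : N ⊓ M = ⊥ := Lib.Hall.inf_eq_bot_of_le_centralizer hM hcore hN0 (Subgroup.le_centralizer N)
  have hnormal : ∀ X : Subgroup G, X ≤ N → M ≤ Subgroup.normalizer (X : Set G) → X.Normal := fun X hX hXM => by
    refine Subgroup.normalizer_eq_top_iff.mp (eq_top_iff.mpr (hNM.ge.trans (sup_le ?_ hXM)))
    exact ((Subgroup.le_centralizer N).trans (Subgroup.centralizer_le hX)).trans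
      (Subgroup.centralizer_le_normalizer _)
  have hfix : N ⊓ Subgroup.centralizer (Q : Set G) = ⊥ := by
    have hn := hnormal (N ⊓ Subgroup.centralizer (Q : Set G)) inf_le_left (by
      refine (le_inf Subgroup.le_normalizer_of_normal ?_).trans Subgroup.inf_normalizer_le_normalizer_inf
      exact hMQ.trans (Lib.Coprime.normalizer_le_normalizer_centralizer Q))
    refine (hmin _ hn inf_le_left).resolve_right fun h => hQ0 ?_
    rw [eq_bot_iff]
    have h1 : Q ≤ Subgroup.centralizer (N : Set G) := Subgroup.le_centralizer_iff.mp (inf_eq_left.mp h)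
    exact (le_inf (h1.trans hCN.le) hQM).trans hdisj.le
  let act : MulAction Q N := MulAction.compHom N
    (Lib.Coprime.conjHom (A := Q) (K := N) Subgroup.le_normalizer_of_normal)
  have hfp : MulAction.fixedPoints Q N = {1} := by
    ext x
    constructor
    · intro hx
      have : (x : G) ∈ N ⊓ Subgroup.centralizer (Q : Set G) := by
        refine ⟨x.2, Subgroup.mem_centralizer_iff.mpr fun a ha => ?_⟩
        have h2 : a * (x : G) * a⁻¹ = x := congrArg Subtype.val (hx ⟨a, ha⟩)
        calc a * (x : G) = a * x * a⁻¹ * a := by group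
          _ = x * a := by rw [h2]
      rw [hfix, Subgroup.mem_bot] at this
      exact Subtype.ext this
    · rintro rfl a
      exact map_one (Lib.Coprime.conjHom Subgroup.le_normalizer_of_normal a)
  have hmod := hQp.card_modEq_card_fixedPoints N
  rw [hfp, Nat.card_coe_set_eq, Set.ncard_singleton] at hmod
  refine ⟨hmod, fun hqp => ?_⟩
  subst hqp
  obtain ⟨n, hn0, hn⟩ := hNp.nontrivial_iff_card.mp ((Subgroup.nontrivial_iff_ne_bot N).mpr hN0)
  rw [hn, Nat.ModEq, Nat.mod_eq_zero_of_dvd (dvd_pow_self q hn0.ne') |> fun h => h] at hmod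
  rw [Nat.one_mod_eq_one.mpr (Fact.out : q.Prime).ne_one] at hmod
  exact zero_ne_one hmod

end Cfsg.Agent.S0587
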