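import Cfsg.Statements.S0588
import Cfsg.Agent.Lib.Coprime.Basic

set_option autoImplicit false
open Cfsg

namespace Cfsg.Agent.S0588

theorem hall_of_centralizer_le {G : Type*} [Group G] [Finite G] (H : Subgroup G)
    (h : ∀ x ∈ H, x ≠ 1 → Subgroup.centralizer ({x} : Set G) ≤ H) :
    (Nat.card H).Coprime H.index := by
  refine Nat.coprime_of_dvd fun p hp hpH hpi => ?_
  have : Fact p.Prime := ⟨hp⟩
  obtain ⟨⟨x, hx⟩, hox⟩ := exists_prime_orderOf_dvd_card' p hpH
  rw [← Subgroup.orderOf_coe] at hox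
  have hx1 : x ≠ 1 := fun h1 => hp.ne_one (by rw [← hox]; simp [h1])
  obtain ⟨S, hS⟩ := (IsPGroup.of_card (n := 1) (by
    rw [Nat.card_zpowers, pow_one]; exact hox) : IsPGroup p (Subgroup.zpowers x)).exists_le_sylow
  have hxS : x ∈ (S : Subgroup G) := hS (Subgroup.mem_zpowers x)
  have : Nontrivial (S : Subgroup G) := ⟨⟨⟨x, hxS⟩, 1, fun h1 => hx1 (congrArg Subtype.val h1)⟩⟩
  obtain ⟨z, hz, hz1⟩ := SetLike.exists_of_lt S.2.bot_lt_center
  rw [Subgroup.mem_bot] at hz1
  have hzH : (z : G) ∈ H := h x hx hx1 (Subgroup.mem_centralizer_singleton_iff.mpr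
    (congrArg Subtype.val (Subgroup.mem_center_iff.mp hz ⟨x, hxS⟩)).symm)
  have hSH : (S : Subgroup G) ≤ H := fun y hy =>
    h z hzH (fun h1 => hz1 (Subtype.ext h1)) (Subgroup.mem_centralizer_singleton_iff.mpr
      (congrArg Subtype.val (Subgroup.mem_center_iff.mp hz ⟨y, hy⟩)))
  exact S.not_dvd_index (hpi.trans (Subgroup.index_dvd_of_le hSH))

/-- If a subgroup H of a finite group G contains the centralizer of every non-identity element of H, then the order of H is coprime to its index. -/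
theorem result {G : Type*} [Group G] [Finite G] (H : Subgroup G) (h : ∀ x ∈ H, x ≠ 1 → Subgroup.centralizer ({x} : Set G) ≤ H) : (Nat.card H).Coprime H.index := by
  exact hall_of_centralizer_le H h

end Cfsg.Agent.S0588
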