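import Cfsg.Statements.S0589
import Cfsg.Agent.Lib.Hall.Frobenius
import Cfsg.Agent.S0588

set_option autoImplicit false
open Pointwise
open Cfsg

namespace Cfsg.Agent.S0589

/-- Let H be a Frobenius complement in a finite group G and L a subgroup of G whose order divides the order of H. Then L is contained in some conjugate of H. -/
theorem result {G : Type*} [Group G] [Finite G] (H : Subgroup G) (hH : Cfsg.IsFrobeniusComplement H) (L : Subgroup G) (hL : Nat.card L ∣ Nat.card H) : ∃ x : G, L ≤ MulAut.conj x • H := by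
  refine Lib.Hall.le_conj_of_covered hH L fun x hx hx1 => ?_
  have hhall := Cfsg.Agent.S0588.result H fun y hy hy1 => Lib.Hall.fc_centralizer_le hH hy hy1
  obtain ⟨p, hp, hdvd⟩ := Nat.exists_prime_and_dvd (fun h => hx1 (orderOf_eq_one_iff.mp h))
  have : Fact p.Prime := ⟨hp⟩
  have hdH : p ∣ Nat.card H := hdvd.trans ((Subgroup.orderOf_dvd_natCard L hx).trans hL)
  let y := x ^ (orderOf x / p)
  have hy : orderOf y = p := by
    rw [orderOf_pow_orderOf_div (orderOf_pos x).ne' hdvd]
  -- a Sylow `p`-subgroup of `H` is one of `G`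
  obtain ⟨P⟩ := (inferInstance : Nonempty (Sylow p H))
  have hP : IsPGroup p ((P : Subgroup H).map H.subtype) := P.2.map _
  have hPi : ¬ p ∣ ((P : Subgroup H).map H.subtype).index := by
    rw [Subgroup.index_map_subtype]
    exact fun h => (hp.dvd_mul.mp h).elim P.not_dvd_index
      ((hp.coprime_iff_not_dvd).mp (hhall.coprime_dvd_left hdH))
  let Q : Sylow p G := hP.toSylow hPi
  obtain ⟨S, hS⟩ := (IsPGroup.of_card (n := 1) (by
    rw [Nat.card_zpowers, pow_one, hy]) : IsPGroup p (Subgroup.zpowers y)).exists_le_sylow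
  obtain ⟨g, hg⟩ := MulAction.exists_smul_eq G Q S
  have hy' : y ∈ MulAut.conj g • H := by
    have h1 : y ∈ MulAut.conj g • ((P : Subgroup H).map H.subtype) := by
      have h2 := hS (Subgroup.mem_zpowers y)
      rw [← hg] at h2
      exact h2
    exact Subgroup.pointwise_smul_le_pointwise_smul_iff.mpr (Subgroup.map_subtype_le _) h1
  have hy1 : y ≠ 1 := fun h => hp.ne_one (by rw [← hy, h, orderOf_one])
  refine ⟨hx1, g, Lib.Hall.fc_centralizer_le (Lib.Hall.fc_conj hH g) hy' hy1
    (Subgroup.mem_centralizer_singleton_iff.mpr ?_)⟩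
  exact ((Commute.refl x).pow_right _).eq

end Cfsg.Agent.S0589
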