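import Cfsg.Statements.S0590

set_option autoImplicit false
open Cfsg Subgroup
open scoped Pointwise commutatorElement

namespace Cfsg.Agent.S0590

/-- Quadratic action on an elementary abelian p-group forces the acting group modulo the kernel of the action to be elementary abelian. -/
theorem result {G : Type*} [Group G] [Finite G] {p : ℕ} [Fact p.Prime] (V H : Subgroup G) (hV : Cfsg.IsElementaryAbelian p V) (hHV : H ≤ Subgroup.normalizer (V : Set G)) (hq : ⁅⁅V, H⁆, H⁆ = ⊥) : ⁅H, H⁆ ≤ Subgroup.centralizer (V : Set G) ∧ ∀ a ∈ H, a ^ p ∈ Subgroup.centralizer (V : Set G) := by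
  obtain ⟨hVc, hVp⟩ := hV
  have hmem : ∀ h ∈ H, ∀ v ∈ V, h * v * h⁻¹ * v⁻¹ ∈ V := fun h hh v hv =>
    mul_mem ((mem_normalizer_iff.mp (hHV hh) v).mp hv) (inv_mem hv)
  have hVcomm : ∀ x ∈ V, ∀ y ∈ V, x * y = y * x := fun x hx y hy =>
    congrArg Subtype.val (mul_comm' (⟨x, hx⟩ : V) ⟨y, hy⟩)
  have hfix : ∀ h ∈ H, ∀ v ∈ V, ∀ g ∈ H,
      g * (h * v * h⁻¹ * v⁻¹) * g⁻¹ = h * v * h⁻¹ * v⁻¹ := by
    intro h hh v hv g hg
    have h1 : h * v * h⁻¹ * v⁻¹ ∈ ⁅V, H⁆ := by
      rw [← commutatorElement_def, ← commutatorElement_inv]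
      exact inv_mem (commutator_mem_commutator hv hh)
    have h2 := mem_centralizer_iff.mp (commutator_eq_bot_iff_le_centralizer.mp hq h1) g hg
    rw [h2, mul_inv_cancel_right]
  let d : G → G → G := fun h v => h * v * h⁻¹ * v⁻¹
  have hmul : ∀ g ∈ H, ∀ h ∈ H, ∀ v ∈ V, d (g * h) v = d h v * d g v := by
    intro g hg h hh v hv
    calc d (g * h) v = g * (d h v) * g⁻¹ * d g v := by simp only [d]; group
      _ = _ := by rw [hfix h hh v hv g hg]
  refine ⟨?_, fun a ha => ?_⟩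
  · rw [commutator_le]
    intro g hg h hh
    rw [mem_centralizer_iff]
    intro v hv
    have h1 : d (g * h) v = d (h * g) v := by
      rw [hmul g hg h hh v hv, hmul h hh g hg v hv]
      exact hVcomm _ (hmem h hh v hv) _ (hmem g hg v hv)
    have h2 : g * h * v * (g * h)⁻¹ = h * g * v * (h * g)⁻¹ := mul_right_cancel h1
    have h3 : ∀ w ∈ V, g * h * w * (g * h)⁻¹ = h * g * w * (h * g)⁻¹ := fun w hw => by
      have h1' : d (g * h) w = d (h * g) w := by
        rw [hmul g hg h hh w hw, hmul h hh g hg w hw]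
        exact hVcomm _ (hmem h hh w hw) _ (hmem g hg w hw)
      exact mul_right_cancel h1'
    have hw : (h * g)⁻¹ * v * (h * g) ∈ V :=
      (mem_normalizer_iff''.mp (hHV (mul_mem hh hg)) v).mp hv
    have h4 := h3 _ hw
    rw [show h * g * ((h * g)⁻¹ * v * (h * g)) * (h * g)⁻¹ = v by group] at h4
    rw [commutatorElement_def]
    calc v * (g * h * g⁻¹ * h⁻¹)
        = (g * h * ((h * g)⁻¹ * v * (h * g)) * (g * h)⁻¹) * (g * h * g⁻¹ * h⁻¹) := by rw [h4]
      _ = g * h * g⁻¹ * h⁻¹ * v := by group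
  · rw [mem_centralizer_iff]
    intro v hv
    have hk : ∀ k : ℕ, d (a ^ k) v = d a v ^ k := by
      intro k
      induction k with
      | zero => simp [d]
      | succ k ih => rw [pow_succ, hmul _ (pow_mem ha k) a ha v hv, ih, ← pow_succ']
    have h1 := hk p
    rw [hVp _ (hmem a ha v hv)] at h1
    have h2 : a ^ p * v * (a ^ p)⁻¹ = v := mul_inv_eq_one.mp h1
    exact (mul_inv_eq_iff_eq_mul.mp h2).symm

end Cfsg.Agent.S0590
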