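import Cfsg.Statements.S0591

set_option autoImplicit false
open Cfsg Subgroup
open scoped Pointwise commutatorElement

namespace Cfsg.Agent.S0591

/-- For a quadratically acting element a on an elementary abelian p-group V, the fixed points C_V(a) have order at least the square root of the order of V. -/
theorem result {G : Type*} [Group G] [Finite G] {p : ℕ} [Fact p.Prime] (V : Subgroup G) (hV : Cfsg.IsElementaryAbelian p V) (a : G) (ha : a ∈ Subgroup.normalizer (V : Set G)) (hq : ⁅⁅V, Subgroup.zpowers a⁆, Subgroup.zpowers a⁆ = ⊥) : Nat.card V ≤ Nat.card ↥(V ⊓ Subgroup.centralizer (Subgroup.zpowers a : Set G)) ^ 2 := by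
  obtain ⟨hVc, hVp⟩ := hV
  have hVcomm : ∀ x ∈ V, ∀ y ∈ V, x * y = y * x := fun x hx y hy =>
    congrArg Subtype.val (mul_comm' (⟨x, hx⟩ : V) ⟨y, hy⟩)
  have hmem : ∀ v ∈ V, a * v * a⁻¹ * v⁻¹ ∈ V := fun v hv =>
    mul_mem ((mem_normalizer_iff.mp ha v).mp hv) (inv_mem hv)
  let f : V →* G :=
    { toFun := fun v => a * v * a⁻¹ * (v : G)⁻¹
      map_one' := by simp
      map_mul' := fun v w => by
        have h1 : (v : G)⁻¹ * (a * w * a⁻¹ * (w : G)⁻¹) = (a * w * a⁻¹ * (w : G)⁻¹) * (v : G)⁻¹ :=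
          hVcomm _ (inv_mem v.2) _ (hmem w w.2)
        have h3 : (w : G)⁻¹ * (v : G)⁻¹ = (v : G)⁻¹ * (w : G)⁻¹ := hVcomm _ (inv_mem w.2) _ (inv_mem v.2)
        calc a * ((v * w : V) : G) * a⁻¹ * ((v * w : V) : G)⁻¹
            = a * v * a⁻¹ * (a * w * a⁻¹) * ((w : G)⁻¹ * (v : G)⁻¹) := by rw [Subgroup.coe_mul]; group
          _ = a * v * a⁻¹ * (a * w * a⁻¹ * (w : G)⁻¹ * (v : G)⁻¹) := by group
          _ = _ := by rw [← h1]; group }
  have hker : Nat.card f.ker ≤ Nat.card ↥(V ⊓ centralizer (zpowers a : Set G)) := by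
    rw [← card_subtype V f.ker]
    refine card_le_of_le ?_
    rintro _ ⟨v, hv, rfl⟩
    refine ⟨v.2, mem_centralizer_iff.mpr ?_⟩
    rintro _ ⟨k, rfl⟩
    have : Commute a (v : G) := mul_inv_eq_iff_eq_mul.mp (mul_inv_eq_one.mp hv)
    exact (this.zpow_left k).eq
  have hrange : Nat.card f.range ≤ Nat.card ↥(V ⊓ centralizer (zpowers a : Set G)) := by
    refine card_le_of_le ?_
    rintro _ ⟨v, rfl⟩
    refine ⟨hmem v v.2, ?_⟩
    refine commutator_eq_bot_iff_le_centralizer.mp hq ?_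
    show a * v * a⁻¹ * (v : G)⁻¹ ∈ _
    rw [← commutatorElement_def, ← commutatorElement_inv]
    exact inv_mem (commutator_mem_commutator v.2 (mem_zpowers a))
  calc Nat.card V = Nat.card f.ker * f.ker.index := (card_mul_index _).symm
    _ = Nat.card f.ker * Nat.card f.range := by rw [index_ker]
    _ ≤ _ := by rw [pow_two]; exact Nat.mul_le_mul hker hrange

end Cfsg.Agent.S0591
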