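import Cfsg.Statements.S0592
import Cfsg.Agent.Lib.PStab.Eigenplane

set_option autoImplicit false
open Cfsg

namespace Cfsg.Agent.S0592

/-- Two quadratically acting generators of a linear group that is not a p-group, with the p'-part of the order of their product dividing q - 1, give a homomorphism onto a subgroup of SL(2, q) that is not a p-group. -/
theorem result {K : Type*} [Field K] [Fintype K] {p : ℕ} [Fact p.Prime] [CharP K p] {W : Type*} [AddCommGroup W] [Module K W] [FiniteDimensional K W] [Finite W] [Nontrivial W] (H : Subgroup (W ≃ₗ[K] W)) (a b : W ≃ₗ[K] W) (hH : H = Subgroup.closure {a, b}) (ha : ∀ w : W, a (a w - w) = a w - w) (hb : ∀ w : W, b (b w - w) = b w - w) (hnp : ¬ IsPGroup p H) (hk : ∃ e k : ℕ, orderOf (a * b) = p ^ e * k ∧ k ∣ Fintype.card K - 1) : ∃ φ : H →* Matrix.SpecialLinearGroup (Fin 2) K, ¬ IsPGroup p φ.range := by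
  haveI : Finite (W ≃ₗ[K] W) :=
    Finite.of_injective (fun f : W ≃ₗ[K] W => (⇑f : W → W)) DFunLike.coe_injective
  have haH : a ∈ H := hH ▸ Subgroup.subset_closure (Or.inl rfl)
  have hbH : b ∈ H := hH ▸ Subgroup.subset_closure (Or.inr rfl)
  let ρ : H →* Module.End K W :=
    { toFun := fun h => (h : W ≃ₗ[K] W).toLinearMap
      map_one' := rfl
      map_mul' := fun _ _ => rfl }
  have hρ : Function.Injective ρ := fun g h e => Subtype.ext (LinearEquiv.toLinearMap_injective e)
  have hgen : Subgroup.closure ({⟨a, haH⟩, ⟨b, hbH⟩} : Set H) = ⊤ := by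
    refine Subgroup.map_injective H.subtype_injective ?_
    rw [MonoidHom.map_closure, ← MonoidHom.range_eq_map, Subgroup.range_subtype, Set.image_pair]
    exact hH.symm
  refine Lib.PStab.exists_hom_sl2_of_eigen (p := p) ρ hρ hgen (LinearMap.ext fun w => ?_)
    (LinearMap.ext fun w => ?_) hnp ?_
  · show (a (a w - w)) - (a w - w) = 0
    rw [ha, sub_self]
  · show (b (b w - w)) - (b w - w) = 0
    rw [hb, sub_self]
  · obtain ⟨e, k, h1, h2⟩ := hk
    refine ⟨e, k, ?_, h2⟩
    rw [← h1, ← Subgroup.orderOf_coe]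
    rfl

end Cfsg.Agent.S0592
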