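import Cfsg.Statements.S0593
import Cfsg.Agent.Lib.PStab.Consequences
import Cfsg.Agent.Lib.LocalChar.Core

set_option autoImplicit false
open Cfsg

namespace Cfsg.Agent.S0593

open scoped commutatorElement

/-- For odd p, a faithful group on an elementary abelian p-group generated by two quadratically acting elements is a p-group or has non-abelian Sylow 2-subgroups. -/
theorem result {G : Type*} [Group G] [Finite G] {p : ℕ} [Fact p.Prime] (hp : p ≠ 2) (V H : Subgroup G) (hV : Cfsg.IsElementaryAbelian p V) (hHV : H ≤ Subgroup.normalizer (V : Set G)) (hf : H ⊓ Subgroup.centralizer (V : Set G) = ⊥) (a b : G) (hab : H = Subgroup.closure {a, b}) (ha : ⁅⁅V, Subgroup.zpowers a⁆, Subgroup.zpowers a⁆ = ⊥) (hb : ⁅⁅V, Subgroup.zpowers b⁆, Subgroup.zpowers b⁆ = ⊥) (hnp : ¬ IsPGroup p H) (T : Sylow 2 H) : ¬ IsMulCommutative T := by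
  have haH : a ∈ H := hab ▸ Subgroup.subset_closure (Or.inl rfl)
  have hbH : b ∈ H := hab ▸ Subgroup.subset_closure (Or.inr rfl)
  have key : (⟨a, haH⟩ : H) ∉ Cfsg.pCore p H ∨ (⟨b, hbH⟩ : H) ∉ Cfsg.pCore p H := by
    by_contra hc
    rw [not_or, not_not, not_not] at hc
    refine hnp ?_
    have htop : Cfsg.pCore p H = ⊤ := by
      rw [eq_top_iff]
      rintro ⟨x, hx⟩ -
      have hle : H ≤ (Cfsg.pCore p H).map H.subtype := by
        conv_lhs => rw [hab]
        rw [Subgroup.closure_le]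
        rintro y (rfl | rfl)
        exacts [⟨_, hc.1, rfl⟩, ⟨_, hc.2, rfl⟩]
      obtain ⟨y, hy, hyx⟩ := hle hx
      exact (Subtype.ext hyx : y = ⟨x, hx⟩) ▸ hy
    have h := Lib.LocalChar.pCore_isPGroup (p := p) (G := H)
    rw [htop] at h
    exact h.of_equiv Subgroup.topEquiv
  rcases key with h | h
  · obtain ⟨L, π, hL, hπ⟩ := Lib.PStab.exists_sl2_of_not_mem_pCore hp hV hHV hf haH
      (Lib.PStab.commute_commutator_of_quadratic (Subgroup.mem_zpowers a) ha) h
    exact Lib.PStab.not_isMulCommutative_sylow_two hp hL π hπ T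
  · obtain ⟨L, π, hL, hπ⟩ := Lib.PStab.exists_sl2_of_not_mem_pCore hp hV hHV hf hbH
      (Lib.PStab.commute_commutator_of_quadratic (Subgroup.mem_zpowers b) hb) h
    exact Lib.PStab.not_isMulCommutative_sylow_two hp hL π hπ T

end Cfsg.Agent.S0593
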