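import Cfsg.Statements.S0594
import Cfsg.Agent.Lib.PStab.Consequences
import Cfsg.Agent.Lib.LocalChar.Core

set_option autoImplicit false
open Cfsg

namespace Cfsg.Agent.S0594

open scoped commutatorElement

/-- For odd p, two quadratic generators of a faithful group that is not a p-group, one of which acts nontrivially on a normal subgroup of order prime to p, force p = 3 and a section isomorphic to SL(2,3). -/
theorem result {G : Type*} [Group G] [Finite G] {p : ℕ} [Fact p.Prime] (hp : p ≠ 2) (V H : Subgroup G) (hV : Cfsg.IsElementaryAbelian p V) (hHV : H ≤ Subgroup.normalizer (V : Set G)) (hf : H ⊓ Subgroup.centralizer (V : Set G) = ⊥) (a b : G) (hab : H = Subgroup.closure {a, b}) (ha : ⁅⁅V, Subgroup.zpowers a⁆, Subgroup.zpowers a⁆ = ⊥) (hb : ⁅⁅V, Subgroup.zpowers b⁆, Subgroup.zpowers b⁆ = ⊥) (hnp : ¬ IsPGroup p H) (Q : Subgroup G) (hQH : Q ≤ H) (hQn : H ≤ Subgroup.normalizer (Q : Set G)) (hQ : (Nat.card Q).Coprime p) (hQa : ⁅Q, Subgroup.zpowers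 a⁆ ≠ ⊥) : p = 3 ∧ ∃ (K L : Subgroup G) (hL : (L.subgroupOf K).Normal), K ≤ H ∧ Nonempty ((K ⧸ L.subgroupOf K) ≃* Matrix.SpecialLinearGroup (Fin 2) (ZMod 3)) := by
  have haH : a ∈ H := hab ▸ Subgroup.subset_closure (Or.inl rfl)
  have hqa := Lib.PStab.commute_commutator_of_quadratic (Subgroup.mem_zpowers a) ha
  have haQ : a ∈ Subgroup.normalizer (Q : Set G) := hQn haH
  -- `a` has order dividing `p`
  have hap : a ^ p = 1 := by
    have hmem : a ^ p ∈ H ⊓ Subgroup.centralizer (V : Set G) := by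
      refine ⟨pow_mem haH p, Subgroup.mem_centralizer_iff.mpr fun x hx => ?_⟩
      have hy : ∀ n : ℕ, a ^ n * x * (a ^ n)⁻¹ = ⁅a, x⁆ ^ n * x := by
        intro n
        induction n with
        | zero => simp
        | succ n ih =>
          rw [pow_succ' a, show a * a ^ n * x * (a * a ^ n)⁻¹ = a * (a ^ n * x * (a ^ n)⁻¹) * a⁻¹ by group,
            ih, show a * (⁅a, x⁆ ^ n * x) * a⁻¹ = (a * ⁅a, x⁆ ^ n) * x * a⁻¹ by group,
            ((hqa x hx).pow_right n).eq, pow_succ ⁅a, x⁆, commutatorElement_def a x]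
          group
      have hyV : ⁅a, x⁆ ∈ V := by
        rw [commutatorElement_def]
        exact mul_mem ((Subgroup.mem_normalizer_iff.mp (hHV haH) x).mp hx) (inv_mem hx)
      have := hy p
      rw [hV.2 _ hyV, one_mul] at this
      exact (mul_inv_eq_iff_eq_mul.mp this).symm
    rw [hf, Subgroup.mem_bot] at hmem
    exact hmem
  set H' := Q ⊔ Subgroup.zpowers a with hH'
  have hH'H : H' ≤ H := sup_le hQH (Subgroup.zpowers_le.mpr haH)
  have hf' : H' ⊓ Subgroup.centralizer (V : Set G) = ⊥ :=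
    le_bot_iff.mp (hf ▸ inf_le_inf_right _ hH'H)
  have haH' : a ∈ H' := Subgroup.mem_sup_right (Subgroup.mem_zpowers a)
  have hQn' : H' ≤ Subgroup.normalizer (Q : Set G) := hH'H.trans hQn
  haveI hnormal : (Q.subgroupOf H').Normal :=
    (Subgroup.normal_subgroupOf_iff_le_normalizer le_sup_left).mpr hQn'
  obtain ⟨L, π, hL, hπ⟩ := Lib.PStab.exists_sl2_of_not_mem_pCore hp hV (hH'H.trans hHV) hf' haH' hqa (by
    intro hmem
    refine hQa ?_
    rw [Subgroup.commutator_eq_bot_iff_le_centralizer]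
    intro x hx
    rw [Subgroup.mem_centralizer_iff]
    intro y hy
    obtain ⟨i, rfl⟩ := Subgroup.mem_zpowers_iff.mp hy
    have hcm : ⁅(⟨x, Subgroup.mem_sup_left hx⟩ : H'), ⟨a, haH'⟩⁆ ∈ Q.subgroupOf H' ⊓ Cfsg.pCore p H' :=
      Subgroup.commutator_le_inf _ _ (Subgroup.commutator_mem_commutator
        (Subgroup.mem_subgroupOf.mpr hx) hmem)
    have hone : ⁅x, a⁆ = 1 := by
      obtain ⟨k, hk⟩ := Lib.LocalChar.pCore_isPGroup (p := p) (G := H') ⟨_, hcm.2⟩
      have h1 : ⁅x, a⁆ ^ p ^ k = 1 := congrArg (fun t : Cfsg.pCore p H' => ((t : H') : G)) hk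
      have h2 : orderOf ⁅x, a⁆ ∣ Nat.card Q := Subgroup.orderOf_dvd_natCard Q hcm.1
      exact orderOf_eq_one_iff.mp (Nat.eq_one_of_dvd_coprimes (Nat.Coprime.pow_right k hQ) h2
        (orderOf_dvd_of_pow_eq_one h1))
    exact ((commutatorElement_eq_one_iff_commute.mp hone).zpow_right i).eq.symm)
  -- every element of `L` has its `p`-th power in `Q`
  by_cases hp3 : p = 3
  · subst hp3
    obtain ⟨M, hM, e⟩ := Lib.PStab.exists_quotient_equiv π hπ
    exact ⟨rfl, L, M, hM, hL.trans hH'H, e⟩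
  exfalso
  have hpow : ∀ l : L, (l : G) ^ p ∈ Q := by
    intro l
    have key : ∀ y : H', ((QuotientGroup.mk' (Q.subgroupOf H')) y) ^ p = 1 := by
      rintro ⟨y, hy⟩
      obtain ⟨q, hq, b', hb', hqb⟩ := Subgroup.mem_sup_of_normal_right.mp (show (⟨y, hy⟩ : H') ∈
          (Subgroup.zpowers a).subgroupOf H' ⊔ Q.subgroupOf H' by
        rw [← Subgroup.subgroupOf_sup (Subgroup.zpowers_le.mpr haH') le_sup_left, sup_comm]
        exact hy)
      rw [← hqb, map_mul, (QuotientGroup.eq_one_iff b').mpr hb' |> fun h => (show QuotientGroup.mk' (Q.subgroupOf H') b' = 1 from h),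
        mul_one, ← map_pow]
      obtain ⟨i, hi⟩ := Subgroup.mem_zpowers_iff.mp (Subgroup.mem_subgroupOf.mp hq)
      have : q ^ p = 1 := Subtype.ext (by
        rw [SubmonoidClass.coe_pow, ← hi, ← zpow_natCast, ← zpow_mul, mul_comm, zpow_mul, zpow_natCast, hap,
          one_zpow]
        rfl)
      rw [this, map_one]
    have := key ⟨l, hL l.2⟩
    rw [← map_pow, QuotientGroup.mk'_apply, QuotientGroup.eq_one_iff, Subgroup.mem_subgroupOf] at this
    exact this
  haveI : (Q.subgroupOf L).Normal := hnormal.comap (Subgroup.inclusion hL)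
  haveI : ((Q.subgroupOf L).map π).Normal := Subgroup.Normal.map inferInstance π hπ
  have htop := Lib.PStab.eq_top_of_prime_pow_mem hp hp3 ((Q.subgroupOf L).map π) (fun y => by
    obtain ⟨l, rfl⟩ := hπ y
    exact ⟨1, ⟨l ^ p, Subgroup.mem_subgroupOf.mpr (by simpa using hpow l), by rw [map_pow, pow_one]⟩⟩)
  obtain ⟨l, hl, hlx⟩ := htop ▸ Subgroup.mem_top (Lib.PStab.ux (1 : ZMod p))
  have h1 : Lib.PStab.ux (1 : ZMod p) ^ Nat.card Q = 1 := by
    rw [← hlx, ← map_pow]
    have : l ^ Nat.card Q = 1 := Subtype.ext (by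
      rw [SubmonoidClass.coe_pow]
      exact orderOf_dvd_iff_pow_eq_one.mp (Subgroup.orderOf_dvd_natCard Q hl))
    rw [this, map_one]
  rw [Lib.PStab.ux_pow] at h1
  have h2 := congrArg (fun w : Matrix.SpecialLinearGroup (Fin 2) (ZMod p) => (w : Matrix (Fin 2) (Fin 2) (ZMod p)) 0 1) h1
  simp [Lib.PStab.coe_ux] at h2
  exact ((Fact.out : p.Prime).coprime_iff_not_dvd.mp hQ.symm) ((ZMod.natCast_eq_zero_iff _ _).mp h2)

end Cfsg.Agent.S0594
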