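import Cfsg.Statements.S0597
import Cfsg.Agent.S0538
import Cfsg.Agent.Lib.Thompson.PGroup
import Cfsg.Agent.Lib.Thompson.Elementary
import Cfsg.Agent.Lib.Components.Cores

set_option autoImplicit false
open Cfsg Subgroup
open scoped Pointwise commutatorElement

namespace Cfsg.Agent.S0597

/-- If two subnormal subgroups of a faithful group on an elementary abelian p-group satisfy [V, E₁, E₂] = 1, then their commutator lies in the largest normal p-subgroup. -/
theorem result {G : Type*} [Group G] [Finite G] {p : ℕ} [Fact p.Prime] (V H : Subgroup G) (hV : Cfsg.IsElementaryAbelian p V) (hHV : H ≤ Subgroup.normalizer (V : Set G)) (hf : H ⊓ Subgroup.centralizer (V : Set G) = ⊥) (E₁ E₂ : Subgroup G) (h₁ : E₁ ≤ H) (h₂ : E₂ ≤ H) (hs₁ : (E₁.subgroupOf H).IsSubnormal) (hs₂ : (E₂.subgroupOf H).IsSubnormal) (hc : ⁅⁅V, E₁⁆, E₂⁆ = ⊥) : ⁅E₁, E₂⁆ ≤ (Cfsg.pCore p H).map H.subtype := by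
  set W := ⁅V, E₁⁆ with hW
  have hE₁V : E₁ ≤ normalizer (V : Set G) := h₁.trans hHV
  have hWV : W ≤ V := le_normalizer_iff_commutator_le_left.mp hE₁V
  have hE₁W : E₁ ≤ normalizer (W : Set G) := normalizer_commutator_ge_right V E₁
  have hWc : E₂ ≤ centralizer (W : Set G) :=
    le_centralizer_iff.mp (commutator_eq_bot_iff_le_centralizer.mp hc)
  set U := E₁ ⊔ E₂ with hU
  have hUH : U ≤ H := sup_le h₁ h₂
  have hUW : U ≤ normalizer (W : Set G) := sup_le hE₁W (hWc.trans (centralizer_le_normalizer _))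
  set D := ⁅E₁, E₂⁆ with hD
  have hDU : D ≤ U := (commutator_mono le_sup_left le_sup_right).trans (commutator_le_self U)
  have hDW : D ≤ centralizer (W : Set G) := commutator_le.mpr fun a ha b hb => by
    rw [commutatorElement_def, mul_assoc, mul_assoc, ← mul_assoc a]
    refine mem_centralizer_iff.mpr fun w hw => ?_
    have hb' := hWc hb
    have h1 : a * b * a⁻¹ ∈ centralizer (W : Set G) := mem_centralizer_iff.mpr fun u hu => by
      have := mem_centralizer_iff.mp hb' _ ((mem_normalizer_iff''.mp (hE₁W ha) u).mp hu)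
      calc u * (a * b * a⁻¹) = a * (a⁻¹ * u * a * b) * a⁻¹ := by group
        _ = a * (b * (a⁻¹ * u * a)) * a⁻¹ := by rw [this]
        _ = _ := by group
    have h2 := mem_centralizer_iff.mp (mul_mem h1 (inv_mem hb')) w hw
    simpa [mul_assoc] using h2
  have hstab : ∀ d ∈ D, ∀ v ∈ V, ⁅v, d⁆ ∈ W := by
    have hK : ∀ a ∈ E₁, ∀ b ∈ E₂, ∀ v ∈ V, ⁅v, ⁅a, b⁆⁆ ∈ W := by
      intro a ha b hb v hv
      -- compute modulo `W`
      have hact : ∀ g ∈ U, ∀ v ∈ V, g * v * g⁻¹ ∈ V := fun g hg v hv =>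
        (mem_normalizer_iff.mp (hHV (hUH hg)) v).mp hv
      have hEW : ∀ a ∈ E₁, ∀ v ∈ V, v⁻¹ * (a * v * a⁻¹) ∈ W := fun a ha v hv => by
        have := commutator_mem_commutator (inv_mem hv : v⁻¹ ∈ V) ha
        simpa [commutatorElement_def, mul_assoc] using this
      have hWconj : ∀ g ∈ U, ∀ w ∈ W, g * w * g⁻¹ ∈ W := fun g hg w hw =>
        (mem_normalizer_iff.mp (hUW hg) w).mp hw
      have haU : a ∈ U := mem_sup_left ha
      have hbU : b ∈ U := mem_sup_right hb
      -- conjugation by `[a,b]` fixes `v` modulo `W`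
      set v₁ := b⁻¹ * v * b
      have hv₁ : v₁ ∈ V := by simpa [v₁] using hact b⁻¹ (inv_mem hbU) v hv
      have e1 : v₁⁻¹ * (a⁻¹ * v₁ * a) ∈ W := by simpa using hEW a⁻¹ (inv_mem ha) v₁ hv₁
      have e2 : v⁻¹ * (b * (a⁻¹ * v₁ * a) * b⁻¹) ∈ W := by
        have h := hWconj b hbU _ e1
        rw [show b * (v₁⁻¹ * (a⁻¹ * v₁ * a)) * b⁻¹ = v⁻¹ * (b * (a⁻¹ * v₁ * a) * b⁻¹) by
          simp only [v₁]; group] at h
        exact h
      set v₂ := b * (a⁻¹ * v₁ * a) * b⁻¹
      have hv₂ : v₂ ∈ V := hact b hbU _ (by simpa using hact a⁻¹ (inv_mem haU) v₁ hv₁)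
      have e3 : v⁻¹ * (a * v₂ * a⁻¹) ∈ W := by
        have h := mul_mem e2 (hEW a ha v₂ hv₂)
        simpa [mul_assoc] using h
      have e4 : a * v₂ * a⁻¹ = ⁅a, b⁆ * v * ⁅a, b⁆⁻¹ := by
        simp only [v₂, v₁, commutatorElement_def]; group
      rw [e4] at e3
      have h := inv_mem (hWconj _ (hDU (commutator_mem_commutator ha hb)) _ e3)
      have hVc : ∀ x ∈ V, ∀ y ∈ V, x * y = y * x := fun x hx y hy => Lib.Thompson.commute_of_elementary hV hx hy
      have hcv : ⁅a, b⁆ * v * ⁅a, b⁆⁻¹ ∈ V := hact _ (hDU (commutator_mem_commutator ha hb)) v hv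
      rw [show ⁅v, ⁅a, b⁆⁆ = v * (⁅a, b⁆ * v⁻¹ * ⁅a, b⁆⁻¹) by simp only [commutatorElement_def]; group]
      have e5 := inv_mem e3
      rw [mul_inv_rev, inv_inv, ← hVc v hv _ (inv_mem hcv)] at e5
      simpa [mul_assoc] using e5
    intro d hd
    rw [hD, Subgroup.commutator_def] at hd
    induction hd using closure_induction with
    | mem d hd =>
      obtain ⟨a, ha, b, hb, rfl⟩ := hd
      exact hK a ha b hb
    | one => intro v _; rw [commutatorElement_one_right]; exact one_mem _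
    | mul x y hx hy ihx ihy =>
      intro v hv
      rw [show ⁅v, x * y⁆ = ⁅v, x⁆ * (x * ⁅v, y⁆ * x⁻¹) by simp only [commutatorElement_def]; group]
      exact mul_mem (ihx v hv) ((mem_normalizer_iff.mp (hUW (hDU (by rw [hD, Subgroup.commutator_def]; exact hx))) _).mp
        (ihy v hv))
    | inv x hx ihx =>
      intro v hv
      rw [show ⁅v, x⁻¹⁆ = x⁻¹ * ⁅v, x⁆⁻¹ * x⁻¹⁻¹ by simp only [commutatorElement_def]; group]
      exact (mem_normalizer_iff.mp (hUW (hDU (inv_mem (by rw [hD, Subgroup.commutator_def]; exact hx)))) _).mp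
        (inv_mem (ihx v hv))
  have hDp : ∀ d ∈ D, d ^ p = 1 := by
    intro d hd
    have hfix : d ^ p ∈ centralizer (V : Set G) := mem_centralizer_iff.mpr fun v hv => by
      have hw := hstab d hd v hv
      have hz : Commute ⁅d, v⁆ d := by
        rw [← commutatorElement_inv v d]
        exact (Commute.inv_left (show Commute ⁅v, d⁆ d from mem_centralizer_iff.mp (hDW hd) _ hw))
      have h1 := Lib.Thompson.commutator_pow_left hz p
      rw [← commutatorElement_inv v d, inv_pow, hV.2 _ (hWV hw), inv_one,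
        commutatorElement_eq_one_iff_commute] at h1
      exact h1.eq.symm
    have : d ^ p ∈ H ⊓ centralizer (V : Set G) := ⟨pow_mem (hUH (hDU hd)) p, hfix⟩
    rwa [hf, mem_bot] at this
  have hDH : D ≤ H := hDU.trans hUH
  have hUn : (U.subgroupOf H).IsSubnormal := by
    rw [hU, Subgroup.subgroupOf_sup h₁ h₂]
    exact S0538.sup_isSubnormal _ H rfl _ _ hs₁ hs₂
  have hDn : U ≤ normalizer (D : Set G) := sup_le (normalizer_commutator_ge_left E₁ E₂) (normalizer_commutator_ge_right E₁ E₂)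
  have hsn : (D.subgroupOf H).IsSubnormal := by
    refine Subgroup.IsSubnormal.step _ _ (fun x hx => hDU hx) hUn ?_
    rw [normal_subgroupOf_iff_le_normalizer (show D.subgroupOf H ≤ U.subgroupOf H from fun x hx => hDU hx)]
    rw [← subgroupOf_normalizer_eq hDH]
    exact fun x hx => hDn hx
  have hDpg : IsPGroup p (D.subgroupOf H) := fun x => ⟨1, Subtype.ext (Subtype.ext (by
    rw [pow_one]; simpa using hDp _ x.2))⟩
  intro x hx
  exact ⟨⟨x, hDH hx⟩, Lib.Components.le_pCore_of_subnormal hsn hDpg hx, rfl⟩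

end Cfsg.Agent.S0597
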