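import Cfsg.Statements.S0602
import Cfsg.Agent.Lib.Thompson.Elementary

set_option autoImplicit false
open Cfsg Subgroup
open scoped Pointwise commutatorElement

namespace Cfsg.Agent.S0602

/-- The Thompson subgroup is characteristic, and nontrivial as soon as p divides the group order. -/
theorem result {G : Type*} [Group G] [Finite G] {p : ℕ} [Fact p.Prime] : (Cfsg.thompsonSubgroup p G).Characteristic ∧ (p ∣ Nat.card G → Cfsg.thompsonSubgroup p G ≠ ⊥) := by
  refine ⟨Lib.Thompson.thompsonSubgroup_characteristic, fun hp h => ?_⟩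
  obtain ⟨A, hA⟩ := Lib.Thompson.exists_maxElementary (G := G) (p := p)
  obtain ⟨x, hx⟩ := exists_prime_orderOf_dvd_card' p hp
  have hA1 : A = ⊥ := le_bot_iff.mp ((le_sSup hA).trans h.le)
  have h2 := hA.2 _ (Lib.Thompson.isElementaryAbelian_zpowers (p := p) (x := x) (hx ▸ pow_orderOf_eq_one x))
  rw [Nat.card_zpowers, hx, hA1, card_bot] at h2
  exact absurd h2 (not_le.mpr (Fact.out (p := p.Prime)).one_lt)

end Cfsg.Agent.S0602
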