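import Cfsg.Statements.S0603
import Cfsg.Agent.Lib.Thompson.Elementary

set_option autoImplicit false
open Cfsg Subgroup
open scoped Pointwise commutatorElement

namespace Cfsg.Agent.S0603

/-- The Thompson subgroup of any subgroup containing J(G) is J(G) itself. -/
theorem result {G : Type*} [Group G] [Finite G] {p : ℕ} [Fact p.Prime] (U : Subgroup G) (hU : Cfsg.thompsonSubgroup p G ≤ U) : Cfsg.thompsonSubgroupOf p U = Cfsg.thompsonSubgroup p G := by
  obtain ⟨A, hA⟩ := Lib.Thompson.exists_maxElementary (G := G) (p := p)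
  rw [Lib.Thompson.thompsonSubgroupOf_eq hA ((le_sSup hA).trans hU)]
  exact congrArg sSup (Set.ext fun B => ⟨fun hB => hB.1, fun hB => ⟨hB, (le_sSup hB).trans hU⟩⟩)

end Cfsg.Agent.S0603
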