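import Cfsg.Statements.S0607
import Cfsg.Agent.Lib.Thompson.Replace
import Cfsg.Agent.S0606
import Cfsg.Agent.S0599

set_option autoImplicit false
open Cfsg Subgroup
open scoped Pointwise commutatorElement

namespace Cfsg.Agent.S0607

/-- The replacement Theorem for the Thompson subgroup: from A of maximal order among elementary abelian p-subgroups one obtains A₀ = [V, A] C_A([V, A]) of the same kind, quadratic on V and nontrivial on V when A is. -/
theorem result {G : Type*} [Group G] [Finite G] {p : ℕ} [Fact p.Prime] (V : Subgroup G) [V.Normal] (hV : Cfsg.IsElementaryAbelian p V) (A : Subgroup G) (hA : A ∈ Cfsg.maxElementaryAbelianSubgroups p G) : (⁅V, A⁆ ⊔ (A ⊓ Subgroup.centralizer ((⁅V, A⁆ : Subgroup G) : Set G))) ∈ Cfsg.maxElementaryAbelianSubgroups p G ∧ ⁅⁅V, ⁅V, A⁆ ⊔ (A ⊓ Subgroup.centralizer ((⁅V, A⁆ : Subgroup G) : Set G))⁆, ⁅V, A⁆ ⊔ (A ⊓ Subgroup.centralizer ((⁅V, A⁆ : Subgroup G) : Set G))⁆ = ⊥ ∧ (⁅V, A⁆ ≠ ⊥ → ⁅V, ⁅V, A⁆ ⊔ (A ⊓ Subgroup.centralizer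 ((⁅V, A⁆ : Subgroup G) : Set G))⁆ ≠ ⊥) := by
  have hAV : A ≤ normalizer (V : Set G) := by rw [normalizer_eq_top]; exact le_top
  have hbest := S0606.result (p := p) V hV A hA
  obtain ⟨hB1, hB2, hB3⟩ := S0599.result V A hV hAV hbest V le_rfl
  obtain ⟨hmaxA, -⟩ := hbest
  obtain ⟨hAe, hAmax⟩ := hA
  have hVc : ∀ x ∈ V, ∀ y ∈ V, x * y = y * x := fun x hx y hy => Lib.Thompson.commute_of_elementary hV hx hy
  have hab : ⁅A, A⁆ ≤ centralizer (V : Set G) := by
    rw [commutator_le]
    intro a ha b hb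
    rw [commutatorElement_eq_one_iff_commute.mpr (Lib.Thompson.commute_of_elementary hAe ha hb)]
    exact one_mem _
  obtain ⟨h1, -⟩ := Lib.Thompson.replacement_subgroup hVc hAV hab hmaxA (le_refl V)
  set X := ⁅V, A⁆ with hX
  set B := A ⊓ centralizer (X : Set G) with hB
  set C := V ⊓ centralizer (A : Set G) with hC
  have hXV : X ≤ V := commutator_le_left V A
  have hAC : A ≤ centralizer (A : Set G) := le_centralizer_iff_isMulCommutative.mpr hAe.1
  have hE : IsElementaryAbelian p (X ⊔ B) :=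
    Lib.Thompson.isElementaryAbelian_sup (Lib.Thompson.isElementaryAbelian_le hV hXV)
      (Lib.Thompson.isElementaryAbelian_le hAe inf_le_left)
      (fun x hx b hb => mem_centralizer_iff.mp hb.2 x hx)
  have hVA : V ⊓ A ≤ B := fun x hx => ⟨hx.2, mem_centralizer_iff.mpr fun y hy => hVc y (hXV hy) x hx.1⟩
  have hVAC : V ⊓ A ≤ C := inf_le_inf_left _ hAC
  have hCA : C ≤ A := fun x hx => by
    refine (Lib.Thompson.mem_maxElementary_of_commute ⟨hAe, hAmax⟩
      (fun a ha => mem_centralizer_iff.mp hx.2 a ha) (hV.2 x hx.1))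
  have hBX : X ⊔ C ⊔ B = X ⊔ B := by
    refine le_antisymm (sup_le (sup_le le_sup_left ?_) le_sup_right) (sup_le_sup_right le_sup_left _)
    exact (le_inf inf_le_left hCA).trans (hVA.trans le_sup_right)
  have hCB : V ⊓ centralizer (B : Set G) = X ⊔ C := hB2
  have hn : B ≤ normalizer ((X ⊔ C : Subgroup G) : Set G) := by
    refine le_trans ?_ (centralizer_le_normalizer _)
    rw [← hCB]
    exact le_centralizer_iff.mp inf_le_right
  have hcard : Nat.card A ≤ Nat.card (X ⊔ B : Subgroup G) := by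
    have h2 := Cfsg.Agent.Lib.Coprime.card_sup_mul_card_inf_of_le_normalizer hn
    rw [sup_comm B, hBX] at h2
    have h3 : Nat.card (B ⊓ (X ⊔ C) : Subgroup G) ≤ Nat.card C := by
      refine card_le_of_le fun x hx => hVAC ⟨?_, hx.1.1⟩
      exact sup_le hXV inf_le_left hx.2
    have h4 : Nat.card A * Nat.card C = Nat.card B * Nat.card (X ⊔ C : Subgroup G) := by
      rw [← hCB]; exact h1.symm
    refine Nat.le_of_mul_le_mul_right ?_ (Nat.card_pos (α := C))
    rw [h4, ← h2]
    exact Nat.mul_le_mul_left _ h3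
  refine ⟨⟨hE, fun D hD => (hAmax D hD).trans hcard⟩, ?_, fun hne h0 => ?_⟩
  · have hV1 : ⁅V, X ⊔ B⁆ ≤ X := by
      rw [commutator_le]
      intro v hv y hy
      have hy' : y ∈ ((X ⊔ B : Subgroup G) : Set G) := hy
      rw [coe_mul_of_right_le_normalizer_left X B
        ((le_centralizer_iff.mp (le_centralizer_iff.mp inf_le_right)).trans (centralizer_le_normalizer _))] at hy'
      obtain ⟨x, hx, b, hb, rfl⟩ := hy'
      have e : ⁅v, x * b⁆ = ⁅v, x⁆ * (x * ⁅v, b⁆ * x⁻¹) := by simp only [commutatorElement_def]; group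
      have hvb : ⁅v, b⁆ ∈ X := commutator_mem_commutator hv hb.1
      show ⁅v, x * b⁆ ∈ X
      rw [e, commutatorElement_eq_one_iff_commute.mpr (hVc v hv x (hXV hx)), one_mul,
        hVc x (hXV hx) _ (hXV hvb), mul_inv_cancel_right]
      exact hvb
    rw [eq_bot_iff]
    refine (commutator_mono hV1 le_rfl).trans (commutator_le.mpr fun x hx y hy => ?_)
    rw [mem_bot, commutatorElement_eq_one_iff_commute]
    exact Lib.Thompson.commute_of_elementary hE (mem_sup_left hx) hy
  · refine hB3 hne (le_bot_iff.mp (h0 ▸ commutator_mono le_rfl le_sup_right))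

end Cfsg.Agent.S0607
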