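import Cfsg.Statements.S0613
import Cfsg.Agent.Lib.Offender.Structure

set_option autoImplicit false
open Cfsg Subgroup
open scoped Pointwise commutatorElement

namespace Cfsg.Agent.S0613

open Cfsg.Agent.Lib.Offender

/-- A minimal nontrivially-acting best offender and a conjugate of it under a non-centralizing element of the p'-core generate SL(2, p) acting naturally on a plane, and p is 2 or 3. -/
theorem result {G : Type*} [Group G] [Finite G] {p : ℕ} [Fact p.Prime] (V H : Subgroup G) (hV : Cfsg.IsElementaryAbelian p V) (hHV : H ≤ Subgroup.normalizer (V : Set G)) (hf : H ⊓ Subgroup.centralizer (V : Set G) = ⊥) (hS1 : Subgroup.centralizer (Cfsg.pPrimeCore p ↥H : Set ↥H) ≤ Cfsg.pPrimeCore p ↥H) (hS3 : H = ⨆ A : {A : Subgroup G // A ≤ H ∧ Cfsg.IsBestOffenderOn p V A}, (A : Subgroup G)) (hH1 : H ≠ ⊥) (A : Subgroup G) (hAH : A ≤ H) (hA : Cfsg.IsBestOffenderOn p V A) (hAV : ⁅V, A⁆ ≠ ⊥) (hmin : ∀ B : Subgroup G,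 B ≤ A → Cfsg.IsBestOffenderOn p V B → ⁅V, B⁆ ≠ ⊥ → B = A) (x : G) (hx : x ∈ ((Cfsg.pPrimeCore p ↥H).map H.subtype)) (hxA : x ∉ Subgroup.centralizer (A : Set G)) : (p = 2 ∨ p = 3) ∧ Nat.card ↥(⁅V, A ⊔ A.map (MulAut.conj x).toMonoidHom⁆) = p ^ 2 ∧ (A ⊔ A.map (MulAut.conj x).toMonoidHom) ⊓ Subgroup.centralizer ((⁅V, A ⊔ A.map (MulAut.conj x).toMonoidHom⁆ : Subgroup G) : Set G) = ⊥ ∧ Nonempty (↥(A ⊔ A.map (MulAut.conj x).toMonoidHom) ≃* Matrix.SpecialLinearGroup (Fin 2) (ZMod p)) := by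
  have s := setting_of_pPrimeCore hV hHV hf hS1
  obtain ⟨a, rfl, t⟩ := s.min_trans ⟨hAH, hA, hAV, hmin⟩
  have hxa : ¬ Commute x a := fun h => hxA (mem_centralizer_iff.mpr fun y hy => by
    obtain ⟨i, rfl⟩ := hy
    exact (h.zpow_right i).symm.eq)
  have h := t.pair s hx hxa
  have e : (zpowers a).map (MulAut.conj x).toMonoidHom = zpowers (x * a * x⁻¹) := MonoidHom.map_zpowers _ a
  rw [e]
  refine ⟨h.pcases s, ?_, ?_, h.iso s⟩
  · rw [h.commutator_eq s]; exact h.card_plane s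
  · rw [h.commutator_eq s, eq_bot_iff]
    rintro g ⟨hg, hc⟩
    exact mem_bot.mpr (h.faithful s (h.le hg) (fun c hc' => (mem_fixV.mp hc').2 g hg)
      fun w hw => (mem_centralizer_iff.mp hc w hw).symm)

end Cfsg.Agent.S0613
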