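import Cfsg.Statements.S0617
import Cfsg.Agent.Lib.Offender.Structure

set_option autoImplicit false
open Cfsg Subgroup
open scoped Pointwise commutatorElement

namespace Cfsg.Agent.S0617

open Cfsg.Agent.Lib.Offender

/-- Structure Theorem for failure of factorization: a faithful group generated by best offenders, with self-centralizing p'-core, is a direct product of copies of SL(2, p) (p = 2 or 3), each acting on its own plane in V, which is the direct product of these planes and C_V(H). -/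
theorem result {G : Type*} [Group G] [Finite G] {p : ℕ} [Fact p.Prime] (V H : Subgroup G) (hV : Cfsg.IsElementaryAbelian p V) (hHV : H ≤ Subgroup.normalizer (V : Set G)) (hf : H ⊓ Subgroup.centralizer (V : Set G) = ⊥) (hS1 : Subgroup.centralizer (Cfsg.pPrimeCore p ↥H : Set ↥H) ≤ Cfsg.pPrimeCore p ↥H) (hS3 : H = ⨆ A : {A : Subgroup G // A ≤ H ∧ Cfsg.IsBestOffenderOn p V A}, (A : Subgroup G)) (hH1 : H ≠ ⊥) : (p = 2 ∨ p = 3) ∧ (∀ E : {E : Subgroup G // ∃ A : Subgroup G, A ≤ H ∧ Cfsg.IsBestOffenderOn p V A ∧ ⁅V, A⁆ ≠ ⊥ ∧ (∀ B : Subgroup G, B ≤ A → Cfsg.IsBestOffenderOn p V B → ⁅V, B⁆ ≠ ⊥ → B = A) ∧ E = ⁅((Cfsg.pPrimeCore p ↥H).map H.subtype), A⁆ ⊔ A}, H ≤ Subgroup.normalizer ((E : Subgroup G) : Set G) ∧ Nonempty (↥(E : Subgroup G) ≃* Matrix.SpecialLinearGroup (Fin 2) (ZMod p)) ∧ Nat.card ↥(⁅V, (E : Subgroup G)⁆) = p ^ 2) ∧ iSupIndep (fun E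 : {E : Subgroup G // ∃ A : Subgroup G, A ≤ H ∧ Cfsg.IsBestOffenderOn p V A ∧ ⁅V, A⁆ ≠ ⊥ ∧ (∀ B : Subgroup G, B ≤ A → Cfsg.IsBestOffenderOn p V B → ⁅V, B⁆ ≠ ⊥ → B = A) ∧ E = ⁅((Cfsg.pPrimeCore p ↥H).map H.subtype), A⁆ ⊔ A} => (E : Subgroup G)) ∧ (⨆ E : {E : Subgroup G // ∃ A : Subgroup G, A ≤ H ∧ Cfsg.IsBestOffenderOn p V A ∧ ⁅V, A⁆ ≠ ⊥ ∧ (∀ B : Subgroup G, B ≤ A → Cfsg.IsBestOffenderOn p V B → ⁅V, B⁆ ≠ ⊥ → B = A) ∧ E = ⁅((Cfsg.pPrimeCore p ↥H).map H.subtype), A⁆ ⊔ A}, (E : Subgroup G)) = H ∧ iSupIndep (fun o : Option {E : Subgroup G // ∃ A : Subgroup G, A ≤ H ∧ Cfsg.IsBestOffenderOn p V A ∧ ⁅V, A⁆ ≠ ⊥ ∧ (∀ B : Subgroup G, B ≤ A → Cfsg.IsBestOffenderOn p V B → ⁅V, B⁆ ≠ ⊥ → B = A) ∧ E = ⁅((Cfsg.pPrimeCore p ↥H).map H.subtype), A⁆ ⊔ A} => o.elim (V ⊓ Subgroup.centralizer (H : Set G)) (fun E => ⁅V, (E : Subgroup G)⁆)) ∧ (V ⊓ Subgroup.centralizer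 (H : Set G)) ⊔ (⨆ E : {E : Subgroup G // ∃ A : Subgroup G, A ≤ H ∧ Cfsg.IsBestOffenderOn p V A ∧ ⁅V, A⁆ ≠ ⊥ ∧ (∀ B : Subgroup G, B ≤ A → Cfsg.IsBestOffenderOn p V B → ⁅V, B⁆ ≠ ⊥ → B = A) ∧ E = ⁅((Cfsg.pPrimeCore p ↥H).map H.subtype), A⁆ ⊔ A}, ⁅V, (E : Subgroup G)⁆) = V := by
  have s := setting_of_pPrimeCore hV hHV hf hS1
  set K := (Cfsg.pPrimeCore p ↥H).map H.subtype
  have key : ∀ E : {E : Subgroup G // ∃ A : Subgroup G, A ≤ H ∧ Cfsg.IsBestOffenderOn p V A ∧ ⁅V, A⁆ ≠ ⊥ ∧ (∀ B : Subgroup G, B ≤ A → Cfsg.IsBestOffenderOn p V B → ⁅V, B⁆ ≠ ⊥ → B = A) ∧ E = ⁅K, A⁆ ⊔ A},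
      ∃ a, Trans p V H a ∧ (E : Subgroup G) = fac K a := by
    rintro ⟨E, A, h1, h2, h3, h4, rfl⟩
    obtain ⟨a, rfl, t⟩ := s.min_trans ⟨h1, h2, h3, h4⟩
    exact ⟨a, t, rfl⟩
  choose f ht he using key
  have hinj : ∀ i j, fac K (f i) = fac K (f j) → i = j :=
    fun i j h => Subtype.ext (by rw [he i, he j, h])
  have hsup : (⨆ i, fac K (f i)) = H := by
    refine le_antisymm (iSup_le fun i => (ht i).fac_le s) (s.le_of_trans hS3 fun A hA => ?_)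
    refine le_trans ?_ (le_iSup _ ⟨⁅K, A⁆ ⊔ A, A, hA.1, hA.2.1, hA.2.2.1, hA.2.2.2, rfl⟩)
    rw [← he]
    exact le_sup_right
  obtain ⟨h5, h6⟩ := planes_family f s ht hinj hsup
  have hne : ∃ A, IsMin p V H A := by
    by_contra h
    push Not at h
    exact hH1 (le_bot_iff.mp (s.le_of_trans hS3 fun A hA => absurd hA (h A)))
  obtain ⟨A, hA⟩ := hne
  obtain ⟨a, -, ta⟩ := s.min_trans hA
  refine ⟨ta.fac_pcases s, fun E => ?_, ?_, ?_, ?_⟩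
  · rw [he E]
    exact ⟨(ht E).H_normalizes_fac s hS3, (ht E).fac_iso s, (ht E).facW_card s⟩
  · simpa only [he] using indep_family f s ht hinj
  · simpa only [he] using hsup
  · simpa only [he] using And.intro h5 h6

end Cfsg.Agent.S0617
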