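import Cfsg.Statements.S0622
import Cfsg.Agent.Lib.Thompson.Stable

set_option autoImplicit false
universe u
open Cfsg Subgroup
open scoped Pointwise commutatorElement

namespace Cfsg.Agent.S0622

/-- Basic properties of the stable normal closure W(S) of Ω₁(Z(S)) in a finite p-group: characteristic, squeezed between Ω₁(Z(S)) and Ω₁(Z(J(S))), nontrivial for S ≠ 1, and transported by group isomorphisms. -/
theorem result {S : Type u} [Group S] [Finite S] {p : ℕ} [Fact p.Prime] (hS : IsPGroup p S) : (Cfsg.stableNormalClosure p S).Characteristic ∧ Cfsg.omegaOne p (Subgroup.center S) ≤ Cfsg.stableNormalClosure p S ∧ Cfsg.stableNormalClosure p S ≤ Cfsg.omegaCenterThompson p S ∧ (Nontrivial S → Cfsg.stableNormalClosure p S ≠ ⊥) ∧ ∀ (S' : Type u) [Group S'] (η : S ≃* S'), (Cfsg.stableNormalClosure p S).map η.toMonoidHom = Cfsg.stableNormalClosure p S' := by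
  refine ⟨Lib.Thompson.stableNormalClosure_characteristic, Lib.Thompson.omega_le_stableNormalClosure,
    Lib.Thompson.stableNormalClosure_le, fun hnt h => ?_, fun S' _ η => Lib.Thompson.map_stableNormalClosure η⟩
  obtain ⟨z, -, hzc, hzo⟩ := Lib.Thompson.exists_central_order_p hS (N := (⊤ : Subgroup S)) top_ne_bot
  have hz : z ∈ stableNormalClosure p S :=
    Lib.Thompson.omega_le_stableNormalClosure (subset_closure ⟨hzc, hzo ▸ pow_orderOf_eq_one z⟩)
  rw [h, mem_bot] at hz
  rw [hz, orderOf_one] at hzo
  exact (Fact.out (p := p.Prime)).ne_one hzo.symm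

end Cfsg.Agent.S0622
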