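import Cfsg.Statements.S0623
import Cfsg.Agent.Lib.Thompson.Stable

set_option autoImplicit false
open Cfsg Subgroup
open scoped Pointwise commutatorElement

namespace Cfsg.Agent.S0623

/-- No element of a finite p-group acts quadratically and nontrivially on the stable normal closure W(S). -/
theorem result {S : Type*} [Group S] [Finite S] {p : ℕ} [Fact p.Prime] (hS : IsPGroup p S) (x : S) (hq : ⁅⁅Cfsg.stableNormalClosure p S, Subgroup.zpowers x⁆, Subgroup.zpowers x⁆ = ⊥) : ⁅Cfsg.stableNormalClosure p S, Subgroup.zpowers x⁆ = ⊥ := by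
  set W := stableNormalClosure p S with hW
  let Q : Set S := {y | ⁅⁅W, zpowers y⁆, zpowers y⁆ = ⊥}
  let U := omegaCenterThompson p S ⊓ centralizer Q
  suffices hU : W ≤ U by
    rw [commutator_eq_bot_iff_le_centralizer]
    intro w hw
    rw [mem_centralizer_iff]
    rintro _ ⟨k, rfl⟩
    have hxw : Commute x w := mem_centralizer_iff.mp (hU hw).2 x hq
    exact (hxw.zpow_left k).eq
  suffices hU : W ≤ W ⊓ U from hU.trans inf_le_right
  refine sInf_le ⟨le_inf Lib.Thompson.omega_le_stableNormalClosure (le_inf Lib.Thompson.omega_center_le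
    ((closure_le _).mpr fun y hy => center_le_centralizer _ hy.1)), ?_⟩
  intro H _ τ hτ
  have hWn := Lib.Thompson.stableNormalClosure_normal hτ
  have hZn := Lib.Thompson.omegaCenterThompson_mem H τ hτ
  obtain ⟨hinj, hfin, ⟨P, hP⟩, -, -, hst⟩ := hτ
  refine ⟨fun v hv h => ?_⟩
  obtain ⟨u, ⟨huW, huZ, huQ⟩, rfl⟩ := hv
  obtain ⟨t, ht, hte⟩ := hWn.conj_mem _ (mem_map_of_mem τ huW) h
  refine ⟨t, ⟨ht, Lib.Thompson.stableNormalClosure_le ht, mem_centralizer_iff.mpr fun y hy => hinj ?_⟩, hte⟩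
  let V := W.map τ
  have hVn : V.Normal := hWn
  -- `d` is quadratic on `V`
  let d := h⁻¹ * τ y * h
  have hq2 : ⁅⁅V, zpowers (τ y)⁆, zpowers (τ y)⁆ = ⊥ := by
    have := congrArg (Subgroup.map τ) hy
    rwa [Subgroup.map_bot, map_commutator, map_commutator, MonoidHom.map_zpowers] at this
  have hqd : ⁅⁅V, zpowers d⁆, zpowers d⁆ = ⊥ := by
    have hmapV : V.map (MulAut.conj h⁻¹).toMonoidHom = V := by
      refine le_antisymm ?_ fun v hv => ⟨h * v * h⁻¹, hVn.conj_mem v hv h, by simp; group⟩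
      rintro _ ⟨v, hv, rfl⟩
      exact hVn.conj_mem v hv h⁻¹
    have hd : (MulAut.conj h⁻¹).toMonoidHom (τ y) = d := by simp [d]
    have := congrArg (Subgroup.map (MulAut.conj h⁻¹).toMonoidHom) hq2
    rwa [Subgroup.map_bot, map_commutator, map_commutator, MonoidHom.map_zpowers, hmapV, hd] at this
  have hD := hst V (map_mono Lib.Thompson.stableNormalClosure_le) d hqd
  have hDS := Cfsg.Agent.Lib.Hall.pCore_le_sylow
    (P.mapSurjective (QuotientGroup.mk'_surjective (centralizer (V : Set H)))) hD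
  obtain ⟨r, hr, hrd⟩ := hDS
  obtain ⟨s, rfl⟩ : r ∈ τ.range := hP ▸ hr
  have hc : (τ s)⁻¹ * d ∈ centralizer (V : Set H) := QuotientGroup.eq.mp hrd
  have hact : ∀ v ∈ V, d * v * d⁻¹ = τ s * v * (τ s)⁻¹ := fun v hv => by
    have h1 := mem_centralizer_iff.mp hc v hv
    calc d * v * d⁻¹ = τ s * ((τ s)⁻¹ * d * v) * ((τ s)⁻¹ * d)⁻¹ * (τ s)⁻¹ := by group
      _ = _ := by rw [← h1]; group
  have hsQ : s ∈ Q := by
    show ⁅⁅W, zpowers s⁆, zpowers s⁆ = ⊥
    apply map_injective hinj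
    rw [Subgroup.map_bot, map_commutator, map_commutator, MonoidHom.map_zpowers]
    have hdn : d ∈ normalizer (V : Set H) := by rw [normalizer_eq_top]; exact mem_top _
    have hle : ⁅V, zpowers d⁆ ≤ V := commutator_le_left V (zpowers d)
    rw [← hqd, Lib.Thompson.commutator_zpowers_congr hle hdn hact,
      Lib.Thompson.commutator_zpowers_congr le_rfl hdn hact]
  have hcomm : d * τ u * d⁻¹ = τ u := by
    rw [hact _ (mem_map_of_mem τ huW), mul_inv_eq_iff_eq_mul, ← map_mul, ← map_mul,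
      mem_centralizer_iff.mp huQ s hsQ]
  rw [map_mul, map_mul, hte]
  calc τ y * (h * τ u * h⁻¹) = h * (d * τ u * d⁻¹) * h⁻¹ * τ y := by simp only [d]; group
    _ = h * τ u * h⁻¹ * τ y := by rw [hcomm]

end Cfsg.Agent.S0623
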