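import Cfsg.Statements.S0624
import Cfsg.Agent.Lib.Thompson.Stable
import Cfsg.Agent.S0607
import Cfsg.Agent.S0623
import Cfsg.Agent.Lib.Coprime.Action

set_option autoImplicit false
open Cfsg Subgroup
open scoped Pointwise commutatorElement

namespace Cfsg.Agent.S0624

/-- The analogue of the ZJ-Theorem: in an action-p-stable group whose largest normal p-subgroup contains its centralizer, the characteristic subgroup W(S) of a Sylow p-subgroup S is normal. -/
theorem result {G : Type*} [Group G] [Finite G] {p : ℕ} [Fact p.Prime] (hst : Cfsg.IsActionPStable p G) (hc : Subgroup.centralizer (Cfsg.pCore p G : Set G) ≤ Cfsg.pCore p G) (S : Sylow p G) : (((Cfsg.stableNormalClosure p ↥(S : Subgroup G)).map (S : Subgroup G).subtype)).Normal := by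
  classical
  have hp : p.Prime := Fact.out
  have hS : IsPGroup p (S : Subgroup G) := S.2
  let W' : Subgroup G := (stableNormalClosure p ↥(S : Subgroup G)).map (S : Subgroup G).subtype
  let Q := pCore p G
  have hQS : Q ≤ (S : Subgroup G) := Cfsg.Agent.Lib.Hall.pCore_le_sylow S
  have hQp : IsPGroup p Q := Cfsg.Agent.Lib.Hall.isPGroup_pCore p
  have hW'S : W' ≤ (S : Subgroup G) := map_subtype_le _
  have hW'e : IsElementaryAbelian p W' :=
    Lib.Thompson.isElementaryAbelian_map _ Lib.Thompson.stableNormalClosure_elementary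
  have hchar := Lib.Thompson.stableNormalClosure_characteristic (p := p) (S := ↥(S : Subgroup G))
  have hWnS : ∀ s ∈ (S : Subgroup G), ∀ w ∈ W', s * w * s⁻¹ ∈ W' := by
    rintro s hs _ ⟨w, hw, rfl⟩
    exact ⟨_, (inferInstance : (stableNormalClosure p ↥(S : Subgroup G)).Normal).conj_mem w hw ⟨s, hs⟩, rfl⟩
  have hzle : ∀ {x : G} {K : Subgroup G}, x ∈ K → zpowers x ≤ K := fun h => zpowers_le.mpr h
  -- W' ≤ Q
  have hWQ : W' ≤ Q := by
    intro w hw
    let N := (frattini ↥Q).map Q.subtype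
    obtain ⟨D, hDn, hCD, ⟨k, hk⟩, hwD⟩ := hst.2.1 w (by
      have h1 : ⁅Q, zpowers w⁆ ≤ W' := commutator_le.mpr fun q hq v hv => by
        have hv' := hzle hw hv
        rw [commutatorElement_def]
        exact mul_mem (hWnS q (hQS hq) v hv') (inv_mem hv')
      refine (commutator_mono h1 (zpowers_le.mpr hw)).trans ?_
      rw [le_centralizer_iff_isMulCommutative.mpr hW'e.1 |> commutator_eq_bot_iff_le_centralizer.mpr]
      exact bot_le)
    have hC : IsPGroup p (sectionKernel Q N) := by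
      rintro ⟨g, hg⟩
      obtain ⟨i, m, hm, hgm⟩ := Nat.exists_eq_pow_mul_and_not_dvd (orderOf_pos g).ne' p hp.ne_one
      have hh : (g ^ p ^ i) ^ m = 1 := by rw [← pow_mul, ← hgm, pow_orderOf_eq_one]
      have hcop : (Nat.card (zpowers (g ^ p ^ i))).Coprime (Nat.card (frattini ↥Q)) := by
        obtain ⟨j, hj⟩ := IsPGroup.iff_card.mp (hQp.to_subgroup (frattini ↥Q))
        rw [Nat.card_zpowers, hj]
        exact Nat.Coprime.pow_right _ (Nat.Coprime.coprime_dvd_left (orderOf_dvd_of_pow_eq_one hh)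
          ((hp.coprime_iff_not_dvd.mpr hm).symm))
      have hQn : zpowers (g ^ p ^ i) ≤ normalizer (Q : Set G) := by rw [normalizer_eq_top]; exact le_top
      have hcen := Cfsg.Agent.Lib.Coprime.le_centralizer_of_frattini hQn hcop (fun a ha x hx => by
        have hag := hzle (pow_mem hg (p ^ i)) ha
        rw [← QuotientGroup.eq_one_iff]
        show QuotientGroup.mk' N (a * x * a⁻¹ * x⁻¹) = 1
        rw [map_mul, map_mul, map_mul, map_inv, map_inv, mul_inv_eq_one, mul_inv_eq_iff_eq_mul]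
        exact (mem_centralizer_iff.mp hag _ (mem_map_of_mem _ hx)).symm)
      obtain ⟨j, hj⟩ := hQp ⟨_, hc (hcen (mem_zpowers (g ^ p ^ i)))⟩
      refine ⟨i + j, Subtype.ext ?_⟩
      rw [SubgroupClass.coe_pow, OneMemClass.coe_one, pow_add, pow_mul]
      exact congrArg Subtype.val hj
    have hDp : IsPGroup p D := by
      obtain ⟨a, ha⟩ := IsPGroup.iff_card.mp hC
      refine IsPGroup.of_card (n := a + k) ?_
      rw [← card_mul_index ((sectionKernel Q N).subgroupOf D),
        Nat.card_congr (subgroupOfEquivOfLe hCD).toEquiv, ha, ← relIndex, hk, pow_add]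
    exact Cfsg.Agent.Lib.Hall.le_pCore hDp hwD
  -- conjugates of W' commute
  let M := normalClosure (W' : Set G)
  have hMn : M.Normal := normalClosure_normal
  have hMQ : M ≤ Q := normalClosure_le_normal hWQ
  have hWM : W' ≤ M := le_normalClosure
  have hWc : ∀ g : G, ∀ x ∈ W', ∀ y ∈ W', (g * x * g⁻¹) * y = y * (g * x * g⁻¹) := by
    intro g x hx y hy
    let V := W'.map (MulAut.conj g).toMonoidHom
    have hVQ : V ≤ Q := by
      rintro _ ⟨v, hv, rfl⟩
      exact (inferInstance : Q.Normal).conj_mem v (hWQ hv) g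
    have hxV : g * x * g⁻¹ ∈ V := ⟨x, hx, rfl⟩
    have hVc : V ≤ centralizer (V : Set G) :=
      le_centralizer_iff_isMulCommutative.mpr (Lib.Thompson.isElementaryAbelian_map _ hW'e).1
    have hQV : ∀ q ∈ Q, ∀ v ∈ V, q * v * q⁻¹ ∈ V := by
      rintro q hq _ ⟨v, hv, rfl⟩
      have hq' : g⁻¹ * q * g ∈ Q := by simpa using (inferInstance : Q.Normal).conj_mem q hq g⁻¹
      refine ⟨_, hWnS _ (hQS hq') v hv, ?_⟩
      simp only [MulEquiv.toMonoidHom_eq_coe, MonoidHom.coe_coe, MulAut.conj_apply]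
      group
    let xs : ↥(S : Subgroup G) := ⟨g * x * g⁻¹, hQS (hVQ hxV)⟩
    have hq : ⁅⁅stableNormalClosure p ↥(S : Subgroup G), zpowers xs⁆, zpowers xs⁆ = ⊥ := by
      apply map_injective (S : Subgroup G).subtype_injective
      rw [Subgroup.map_bot, map_commutator, map_commutator, MonoidHom.map_zpowers]
      show ⁅⁅W', zpowers (g * x * g⁻¹)⁆, zpowers (g * x * g⁻¹)⁆ = ⊥
      rw [eq_bot_iff]
      refine le_trans (commutator_mono (commutator_le.mpr ?_ : ⁅W', zpowers (g * x * g⁻¹)⁆ ≤ V)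
        (zpowers_le.mpr hxV)) ((commutator_eq_bot_iff_le_centralizer.mpr hVc).le)
      intro w hw v hv
      have hv' := hzle hxV hv
      rw [commutatorElement_def]
      exact mul_mem (hQV w (hWQ hw) v hv') (inv_mem hv')
    have h0 := congrArg (Subgroup.map (S : Subgroup G).subtype) (S0623.result hS xs hq)
    rw [Subgroup.map_bot, map_commutator, MonoidHom.map_zpowers] at h0
    exact (mem_centralizer_iff.mp (commutator_eq_bot_iff_le_centralizer.mp h0 hy) _ (mem_zpowers _))
  have hM : IsElementaryAbelian p M := by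
    refine Lib.Thompson.isElementaryAbelian_closure ?_ ?_
    · intro u hu v hv
      obtain ⟨x, hx, hu'⟩ := Group.mem_conjugatesOfSet_iff.mp hu
      obtain ⟨y, hy, hv'⟩ := Group.mem_conjugatesOfSet_iff.mp hv
      obtain ⟨a, rfl⟩ := isConj_iff.mp hu'
      obtain ⟨b, rfl⟩ := isConj_iff.mp hv'
      have h1 := hWc (b⁻¹ * a) x hx y hy
      calc a * x * a⁻¹ * (b * y * b⁻¹) = b * (b⁻¹ * a * x * (b⁻¹ * a)⁻¹ * y) * b⁻¹ := by group
        _ = _ := by rw [h1]; group
    · intro u hu
      obtain ⟨x, hx, hu'⟩ := Group.mem_conjugatesOfSet_iff.mp hu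
      obtain ⟨a, rfl⟩ := isConj_iff.mp hu'
      rw [conj_pow, hW'e.2 x hx]; group
  obtain ⟨A₁, hA₁, hA₁S⟩ := Lib.Thompson.exists_maxElementary_le_sylow (p := p) S
  let J := thompsonSubgroupOf p (S : Subgroup G)
  have hJ : J = sSup {A | A ∈ maxElementaryAbelianSubgroups p G ∧ A ≤ (S : Subgroup G)} :=
    Lib.Thompson.thompsonSubgroupOf_eq hA₁ hA₁S
  have hWJ : W' ≤ centralizer (J : Set G) := by
    rintro _ ⟨w, hw, rfl⟩
    refine mem_centralizer_iff.mpr ?_
    rintro _ ⟨j, hj, rfl⟩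
    exact congrArg (S : Subgroup G).subtype (mem_centralizer_iff.mp
      (Lib.Thompson.omegaCenterThompson_le_centralizer (Lib.Thompson.stableNormalClosure_le hw)) j hj)
  let C := centralizer (M : Set G)
  let D := (pCore p (G ⧸ C)).comap (QuotientGroup.mk' C)
  have hDn : D.Normal := inferInstance
  obtain ⟨R, hR⟩ := Lib.Thompson.exists_sylow_inf_normal S D
  have hquad : ∀ A ∈ maxElementaryAbelianSubgroups p G, A ≤ (S : Subgroup G) →
      ⁅⁅M, A⁆, A⁆ = ⊥ → A ≤ C := by
    intro A hA hAS hq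
    have hAD : A ≤ D := fun a ha => hst.1 M hM a (le_bot_iff.mp (hq ▸
      commutator_mono (commutator_mono le_rfl (zpowers_le.mpr ha)) (zpowers_le.mpr ha)))
    refine le_centralizer_iff.mp ((closure_le _).mpr fun v hv => ?_)
    obtain ⟨x, hx, hv'⟩ := Group.mem_conjugatesOfSet_iff.mp hv
    obtain ⟨g, rfl⟩ := isConj_iff.mp hv'
    have htop := Sylow.normalizer_sup_eq_top R
    rw [hR] at htop
    obtain ⟨n, hn, d, hd, rfl⟩ := mem_sup_of_normal_right.mp (htop ▸ mem_top g)
    obtain ⟨y, hy, hdy⟩ : ∃ y ∈ W', d * x * d⁻¹ = y := by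
      obtain ⟨s, hs, hsd⟩ := Cfsg.Agent.Lib.Hall.pCore_le_sylow
        (S.mapSurjective (QuotientGroup.mk'_surjective C)) hd
      refine ⟨_, hWnS s hs x hx, ?_⟩
      have h1 := mem_centralizer_iff.mp (QuotientGroup.eq.mp hsd : s⁻¹ * d ∈ C) x (hWM hx)
      calc d * x * d⁻¹ = s * (s⁻¹ * d * x) * (s⁻¹ * d)⁻¹ * s⁻¹ := by group
        _ = _ := by rw [← h1]; group
    rw [SetLike.mem_coe, mem_centralizer_iff]
    intro a ha
    have haR : n⁻¹ * a * n ∈ (S : Subgroup G) ⊓ D :=
      (mem_normalizer_iff''.mp hn a).mp ⟨hAS ha, hAD ha⟩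
    have haJ : n⁻¹ * a * n ∈ J := by
      have hA' : A.map (MulAut.conj n⁻¹).toMonoidHom ≤ (S : Subgroup G) := by
        rintro _ ⟨b, hb, rfl⟩
        simp only [MulEquiv.toMonoidHom_eq_coe, MonoidHom.coe_coe, MulAut.conj_apply, inv_inv]
        exact ((mem_normalizer_iff''.mp hn b).mp ⟨hAS hb, hAD hb⟩).1
      rw [hJ]
      exact le_sSup (show A.map (MulAut.conj n⁻¹).toMonoidHom ∈ {A | A ∈ maxElementaryAbelianSubgroups p G ∧ A ≤ (S : Subgroup G)}
        from ⟨Lib.Thompson.map_mem_maxElementary _ hA, hA'⟩) ⟨a, ha, by simp⟩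
    have h2 := mem_centralizer_iff.mp (hWJ hy) _ haJ
    rw [show n * d * x * (n * d)⁻¹ = n * (d * x * d⁻¹) * n⁻¹ by group, hdy]
    calc a * (n * y * n⁻¹) = n * (n⁻¹ * a * n * y) * n⁻¹ := by group
      _ = _ := by rw [h2]; group
  have hMS : M ≤ (S : Subgroup G) := hMQ.trans hQS
  have hJC : J ≤ C := by
    rw [hJ]
    refine sSup_le fun A hA => ?_
    by_cases hne : ⁅M, A⁆ = ⊥
    · exact le_centralizer_iff.mp (commutator_eq_bot_iff_le_centralizer.mp hne)
    · obtain ⟨h0, h0q, h0n⟩ := S0607.result M hM A hA.1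
      exfalso
      refine h0n hne ?_
      rw [commutator_eq_bot_iff_le_centralizer]
      exact le_centralizer_iff.mp (hquad _ h0
        (sup_le ((commutator_le_left M A).trans hMS) (inf_le_left.trans hA.2)) h0q)
  obtain ⟨R', hR'⟩ := Lib.Thompson.exists_sylow_inf_normal S C
  have htop := Sylow.normalizer_sup_eq_top R'
  rw [hR'] at htop
  have hNJ : normalizer (((S : Subgroup G) ⊓ C : Subgroup G) : Set G) ≤ normalizer (J : Set G) := by
    have key : ∀ n ∈ normalizer (((S : Subgroup G) ⊓ C : Subgroup G) : Set G), ∀ x ∈ J, n * x * n⁻¹ ∈ J := by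
      intro n hn
      suffices h : J ≤ J.comap (MulAut.conj n).toMonoidHom from fun x hx => h hx
      conv_lhs => rw [hJ]
      refine sSup_le fun A hA => map_le_iff_le_comap.mp ?_
      refine le_trans ?_ hJ.ge
      refine le_sSup ⟨Lib.Thompson.map_mem_maxElementary _ hA.1, ?_⟩
      rintro _ ⟨a, ha, rfl⟩
      exact ((mem_normalizer_iff.mp hn a).mp
        ⟨hA.2 ha, hJC (hJ.ge (le_sSup (show A ∈ _ from hA) ha))⟩).1
    intro n hn
    rw [mem_normalizer_iff]
    exact fun x => ⟨key n hn x, fun h => by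
      have := key n⁻¹ (inv_mem hn) _ h; simpa [mul_assoc] using this⟩
  let N := normalizer (J : Set G)
  have hJchar := Lib.Thompson.thompsonSubgroup_characteristic (p := p) (G := ↥(S : Subgroup G))
  have hSN : (S : Subgroup G) ≤ N := by
    have key : ∀ s ∈ (S : Subgroup G), ∀ x ∈ J, s * x * s⁻¹ ∈ J := by
      rintro s hs _ ⟨x, hx, rfl⟩
      exact ⟨_, (inferInstance : (thompsonSubgroup p ↥(S : Subgroup G)).Normal).conj_mem x hx ⟨s, hs⟩, rfl⟩
    intro s hs
    rw [mem_normalizer_iff]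
    exact fun x => ⟨key s hs x, fun h => by
      have := key s⁻¹ (inv_mem hs) _ h; simpa [mul_assoc] using this⟩
  let τ : ↥(S : Subgroup G) →* ↥N := Subgroup.inclusion hSN
  have hsub : ∀ K : Subgroup ↥(S : Subgroup G),
      (K.map τ).map N.subtype = K.map (S : Subgroup G).subtype := fun K => by
    rw [Subgroup.map_map]; rfl
  have hQN : Q ≤ N := hQS.trans hSN
  have hQcore : Q.subgroupOf N ≤ pCore p ↥N :=
    Cfsg.Agent.Lib.Hall.le_pCore hQp.comap_subtype
  have hτ : IsStableEmbedding p τ := by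
    refine ⟨Subgroup.inclusion_injective hSN, inferInstance, ⟨S.subtype hSN, ?_⟩, ?_, ?_, ?_⟩
    · ext x
      exact ⟨fun hx => ⟨⟨x, hx⟩, Subtype.ext rfl⟩, fun ⟨s, hs⟩ => by rw [← hs]; exact s.2⟩
    · intro c hcc
      refine hQcore (mem_subgroupOf.mpr (hc (mem_centralizer_iff.mpr fun q hq => ?_)))
      exact congrArg Subtype.val (mem_centralizer_iff.mp hcc ⟨q, hQN hq⟩ (hQcore hq))
    · have e : (thompsonSubgroup p ↥(S : Subgroup G)).map τ = J.subgroupOf N := by
        apply map_injective N.subtype_injective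
        rw [hsub, subgroupOf_map_subtype, inf_eq_left.mpr le_normalizer]
        rfl
      rw [e]
      exact normal_in_normalizer
    · intro V _ hV
      exact hst.2.2 S V ((map_mono hV).trans (hsub _).le)
  have hWN := Lib.Thompson.stableNormalClosure_normal hτ
  refine ⟨fun x hx g => ?_⟩
  obtain ⟨n, hn, c, hcC, rfl⟩ := mem_sup_of_normal_right.mp (htop ▸ mem_top g)
  have h1 : c * x * c⁻¹ = x := by
    rw [← mem_centralizer_iff.mp hcC x (hWM hx), mul_inv_cancel_right]
  rw [show n * c * x * (n * c)⁻¹ = n * (c * x * c⁻¹) * n⁻¹ by group, h1]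
  have hx' : x ∈ ((stableNormalClosure p ↥(S : Subgroup G)).map τ).map N.subtype := by rw [hsub]; exact hx
  obtain ⟨w, hw, rfl⟩ := hx'
  have h2 := mem_map_of_mem N.subtype (hWN.conj_mem w hw ⟨n, hNJ hn⟩)
  rw [hsub] at h2
  exact h2

end Cfsg.Agent.S0624
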