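import Cfsg.Statements.S0633
import Cfsg.Agent.Lib.HallHigman.TheoremB
import Cfsg.Agent.Lib.HallHigman.Prime
import Cfsg.Agent.Lib.Components.Cores
import Cfsg.Agent.Lib.Coprime.Action

set_option autoImplicit false
open Cfsg

namespace Cfsg.Agent.S0633

open Cfsg.Agent.Lib in

/-- Theorem B of Hall and Higman on the minimal polynomial of a p-element of order p^n in a p-solvable linear group on a nonzero vector space in characteristic p with no nontrivial normal p-subgroup: its degree is p^n, except when some p^n₀ - 1 (n₀ ≤ n) is a power of a prime q for which the Sylow q-subgroups are non-abelian, in which case the degree is at least p^(n-n₀)(p^n₀ - 1). -/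
theorem result {F : Type*} [Field F] {p : ℕ} [Fact p.Prime] [CharP F p] {V : Type*} [AddCommGroup V] [Module F V] [FiniteDimensional F V] [Nontrivial V] (H : Subgroup (V ≃ₗ[F] V)) [Finite H] (hsol : Cfsg.IsPSolvable p H) (hOp : Cfsg.pCore p H = ⊥) (x : V ≃ₗ[F] V) (hx : x ∈ H) (n : ℕ) (hn : orderOf x = p ^ n) (r : ℕ) (hr : minpoly F (x : Module.End F V) = (Polynomial.X - 1) ^ r) : r = p ^ n ∨ ∃ n₀ q m : ℕ, 1 ≤ n₀ ∧ n₀ ≤ n ∧ q.Prime ∧ 1 ≤ m ∧ p ^ n₀ - 1 = q ^ m ∧ (∀ Q : Sylow q H, ¬ IsMulCommutative Q) ∧ p ^ (n - n₀) * (p ^ n₀ - 1) ≤ r := by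
  have hp : p.Prime := Fact.out
  have hdeg : (minpoly F (x : Module.End F V)).natDegree = r := by
    rw [hr, Polynomial.natDegree_pow, ← Polynomial.C_1, Polynomial.natDegree_X_sub_C, mul_one]
  rcases Nat.eq_zero_or_pos n with hn0 | hn0
  · left
    subst hn0
    rw [pow_zero, orderOf_eq_one_iff] at hn
    subst hn
    rw [show ((1 : V ≃ₗ[F] V) : Module.End F V) = 1 from rfl, minpoly.one, ← Polynomial.C_1,
      Polynomial.natDegree_X_sub_C] at hdeg
    rw [pow_zero, ← hdeg]
  let ρ : H →* Module.End F V :=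
    { toFun := fun h => ((h : V ≃ₗ[F] V) : Module.End F V), map_one' := rfl, map_mul' := fun _ _ => rfl }
  have hρinj : Function.Injective ρ := fun a b h => Subtype.ext (LinearEquiv.toLinearMap_injective h)
  set X : H := ⟨x, hx⟩
  have hXn : orderOf X = p ^ n := by rw [← hn]; exact Subgroup.orderOf_mk x hx
  have hXpow : X ^ p ^ n = 1 := by rw [← hXn]; exact pow_orderOf_eq_one X
  have hzero : (ρ X - 1) ^ r = 0 := by
    have := minpoly.aeval F (x : Module.End F V)
    rw [hr, map_pow, map_sub, map_one, Polynomial.aeval_X] at this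
    exact this
  have hle : r ≤ p ^ n := by
    have h1 : Polynomial.aeval (x : Module.End F V) ((Polynomial.X - 1 : Polynomial F) ^ p ^ n) = 0 := by
      rw [Lib.HallHigman.sub_one_pow_char, map_sub, map_pow, map_one, Polynomial.aeval_X,
        show (x : Module.End F V) = ρ X from rfl, ← map_pow, hXpow, map_one, sub_self]
    have h2 := Polynomial.natDegree_le_of_dvd (minpoly.dvd F _ h1)
      (pow_ne_zero _ (by rw [← Polynomial.C_1]; exact Polynomial.X_sub_C_ne_zero 1))
    rwa [hdeg, Polynomial.natDegree_pow, ← Polynomial.C_1, Polynomial.natDegree_X_sub_C, mul_one] at h2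
  set y := X ^ p ^ (n - 1) with hy
  have hy1 : y ≠ 1 := fun h => by
    have := Nat.le_of_dvd (Nat.pow_pos hp.pos) (hXn ▸ orderOf_dvd_of_pow_eq_one h)
    have := Nat.pow_lt_pow_right hp.one_lt (show n - 1 < n by omega)
    omega
  have hyp : y ^ p = 1 := by rw [hy, ← pow_mul, ← pow_succ, Nat.sub_add_cancel hn0, hXpow]
  set K := pPrimeCore p H with hK
  haveI hKn : K.Normal := Subgroup.sSup_normal _ fun _ h => h.1
  have hKcop : (Nat.card K).Coprime p := Lib.Components.pPrimeCore_coprime p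
  have hyK : y ∉ Subgroup.centralizer (K : Set H) := fun h => by
    have hy2 := Lib.HallHigman.centralizer_pPrimeCore_le hsol hOp h
    have hord : orderOf y = p := orderOf_eq_prime hyp hy1
    have h3 : p ∣ Nat.card K := by
      rw [← hord, ← Subgroup.orderOf_mk y hy2]
      exact orderOf_dvd_natCard _
    exact hp.coprime_iff_not_dvd.mp hKcop.symm h3
  set A := Subgroup.zpowers X
  have hAK : A ≤ Subgroup.normalizer (K : Set H) := by rw [Subgroup.normalizer_eq_top (H := K)]; exact le_top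
  have hcop : (Nat.card A).Coprime (Nat.card K) := by
    rw [Nat.card_zpowers, hXn]; exact hKcop.symm.pow_left n
  have hAsolv : Group.IsSolvable A := Group.isSolvable_of_comm fun a b => mul_comm' a b
  obtain ⟨q, hq, hqP⟩ : ∃ q : ℕ, q.Prime ∧ ∀ P : Sylow q K, A ≤ Subgroup.normalizer (((P : Subgroup K).map K.subtype : Subgroup H) : Set H) →
      ∃ u ∈ (P : Subgroup K).map K.subtype, y * u * y⁻¹ ≠ u ∧ q ∣ Nat.card K := by
    by_contra hall
    push Not at hall
    apply hyK
    have htop : (Subgroup.centralizer ({y} : Set H)).subgroupOf K = ⊤ := by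
      refine Lib.Components.eq_top_of_forall_sylow_le fun q hq => ?_
      haveI := Fact.mk hq
      obtain ⟨P, hP, hfix⟩ := hall q hq
      refine ⟨P, fun k hk => ?_⟩
      rw [Subgroup.mem_subgroupOf, Subgroup.mem_centralizer_singleton_iff]
      by_cases hdvd : q ∣ Nat.card K
      · by_contra hne
        exact hfix (k : H) ⟨k, hk, rfl⟩ (fun he => hne (mul_inv_eq_iff_eq_mul.mp he).symm) hdvd
      · have hk1 : k = 1 := by
          obtain ⟨m, hm⟩ := IsPGroup.iff_card.mp P.isPGroup'
          rcases Nat.eq_zero_or_pos m with hm0 | hm0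
          · rw [hm0, pow_zero, Subgroup.card_eq_one] at hm
            exact Subgroup.mem_bot.mp (hm ▸ hk)
          · exact absurd ((dvd_pow_self q hm0.ne').trans (hm ▸ Subgroup.card_subgroup_dvd_card (P : Subgroup K))) hdvd
        rw [hk1, OneMemClass.coe_one, one_mul, mul_one]
    rw [Subgroup.mem_centralizer_iff]
    intro k hk
    have h1 : (⟨k, hk⟩ : K) ∈ (Subgroup.centralizer ({y} : Set H)).subgroupOf K := htop ▸ Subgroup.mem_top _
    rw [Subgroup.mem_subgroupOf, Subgroup.mem_centralizer_singleton_iff] at h1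
    exact h1
  haveI := Fact.mk hq
  obtain ⟨P, hP⟩ := Lib.Coprime.exists_invariant_sylow hAK hcop (Or.inl hAsolv) q
  obtain ⟨u, hu, hune, hqdvd⟩ := hqP P hP
  have hqp : q ≠ p := fun h => hp.coprime_iff_not_dvd.mp hKcop.symm (h ▸ hqdvd)
  set Q := (P : Subgroup K).map K.subtype
  have hQ : IsPGroup q Q := P.isPGroup'.map _
  rcases Lib.HallHigman.theoremB hqp ρ Q hQ X (n := n) (r := r) (by omega) (hP (Subgroup.mem_zpowers X)) hXpow
      ⟨u, hu, fun h => hune (hρinj h)⟩ hzero with h | ⟨⟨a, ha, b, hb, hab⟩, n0, m, h1, h2, h3, h4, h5⟩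
  · exact Or.inl (le_antisymm hle h)
  · refine Or.inr ⟨n0, q, m, h1, h2, hq, h3, h4, fun S hS => hab ?_, h5⟩
    obtain ⟨S', hS'⟩ := hQ.exists_le_sylow
    obtain ⟨g, hg⟩ := MulAction.exists_smul_eq H S S'
    have hmem : ∀ z ∈ Q, g⁻¹ * z * g ∈ (S : Subgroup H) := by
      intro z hz
      have h6 := hS' hz
      rw [← hg, Sylow.coe_subgroup_smul, Subgroup.mem_pointwise_smul_iff_inv_smul_mem] at h6
      simpa [MulAut.smul_def] using h6
    have h7 := congrArg Subtype.val (hS.is_comm.comm ⟨_, hmem a ha⟩ ⟨_, hmem b hb⟩)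
    simp only [Subgroup.coe_mul] at h7
    have h8 : g⁻¹ * (a * b) * g = g⁻¹ * (b * a) * g := by
      calc g⁻¹ * (a * b) * g = g⁻¹ * a * g * (g⁻¹ * b * g) := by group
        _ = g⁻¹ * b * g * (g⁻¹ * a * g) := h7
        _ = _ := by group
    exact mul_left_cancel (mul_right_cancel h8)

end Cfsg.Agent.S0633
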