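import Cfsg.Statements.S0635
import Cfsg.Agent.Lib.HallHigman.PLength

set_option autoImplicit false
open Cfsg

namespace Cfsg.Agent.S0635

open scoped commutatorElement Pointwise in
open Cfsg.Agent.Lib in
open Cfsg.Agent.Lib.HallHigman in

/-- The p-length of a p-soluble group is at most the nilpotency class of its Sylow p-subgroups. -/
theorem result {G : Type*} [Group G] [Finite G] {p : ℕ} [Fact p.Prime] (hsol : Cfsg.IsPSolvable p G) (S : Sylow p G) : Cfsg.PLengthLE p (Group.nilpotencyClass ↥(S : Subgroup G)) G := by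
  let Φ : ∀ (H : Type _) [Group H], ℕ → Prop := fun H _ k =>
    ∀ P : Sylow p H, (P : Subgroup H).lowerCentralSeries k = ⊥
  have hconj : ∀ (H : Type _) [Group H] [Finite H] (P T : Sylow p H) (k : ℕ),
      (P : Subgroup H).lowerCentralSeries k = ⊥ → (T : Subgroup H).lowerCentralSeries k = ⊥ := by
    intro H _ _ P T k hk
    obtain ⟨g, hg⟩ := MulAction.exists_smul_eq H P T
    rw [← hg, Sylow.coe_subgroup_smul, Subgroup.pointwise_smul_def]
    refine (Subgroup.map_lowerCentralSeries (P : Subgroup H)
      (MulDistribMulAction.toMonoidEnd (MulAut H) H (MulAut.conj g) : H →* H) k).symm.trans ?_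
    rw [hk]; exact Subgroup.map_bot _
  have hmap : ∀ (H : Type _) [Group H] [Finite H] (N : Subgroup H) [N.Normal] (P : Sylow p H) (k : ℕ),
      (P : Subgroup H).lowerCentralSeries k ≤ N →
      ∀ T : Sylow p (H ⧸ N), (T : Subgroup (H ⧸ N)).lowerCentralSeries k = ⊥ := by
    intro H _ _ N _ P k hk T
    refine hconj _ (P.mapSurjective (QuotientGroup.mk'_surjective N)) T k ?_
    rw [show ((P.mapSurjective (QuotientGroup.mk'_surjective N) : Sylow p (H ⧸ N)) : Subgroup (H ⧸ N)) =
      (P : Subgroup H).map (QuotientGroup.mk' N) from rfl, ← Subgroup.map_lowerCentralSeries,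
      Subgroup.map_eq_bot_iff, QuotientGroup.ker_mk']
    exact hk
  refine pLengthLE_induction Φ ?_ ?_ ?_ (Nat.card G) G _ rfl hsol fun P => hconj G S P _ ?_
  · intro H _ _ k N _ hH T
    obtain ⟨P⟩ : Nonempty (Sylow p H) := inferInstance
    exact hmap H N P k ((hH P).le.trans bot_le) T
  · intro H _ _ hH hdvd
    obtain ⟨P⟩ : Nonempty (Sylow p H) := inferInstance
    exact P.ne_bot_of_dvd_card hdvd (hH P)
  · intro H _ _ _ k hHsol hred _ hH T
    obtain ⟨P⟩ : Nonempty (Sylow p H) := inferInstance
    refine hmap H _ P k ?_ T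
    intro z hz
    refine LocalFusion.centralizer_pCore_le_of_isPSolvable hHsol hred (Subgroup.mem_centralizer_iff.mpr fun u hu => ?_)
    have huP : u ∈ (P : Subgroup H) := IsPGroup.le_sylow_of_normal (Components.pCore_isPGroup p) P hu
    have h2 : ⁅z, u⁆ ∈ (P : Subgroup H).lowerCentralSeries (k + 1) := by
      rw [Subgroup.lowerCentralSeries_succ]
      exact Subgroup.commutator_mem_commutator hz huP
    rw [hH P, Subgroup.mem_bot, commutatorElement_eq_one_iff_commute] at h2
    exact h2.eq.symm
  · haveI : Group.IsNilpotent (S : Subgroup G) := S.isPGroup'.isNilpotent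
    exact Subgroup.lowerCentralSeries_eq_bot_of_nilpotencyClass_le le_rfl

end Cfsg.Agent.S0635
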