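import Cfsg.Statements.S0638
import Cfsg.Agent.Lib.Thompson.Cyclic

set_option autoImplicit false
open Cfsg Subgroup
open scoped Pointwise commutatorElement

namespace Cfsg.Agent.S0638

/-- For odd p, in a non-cyclic metacyclic p-group the elements of order dividing p generate an elementary abelian subgroup of order p². -/
theorem result {R : Type*} [Group R] [Finite R] {p : ℕ} [Fact p.Prime] (hp : p ≠ 2) (hR : IsPGroup p R) (hm : Cfsg.IsMetacyclic R) (hnc : ¬ IsCyclic R) : Cfsg.IsElementaryAbelian p (Cfsg.omegaOne p (⊤ : Subgroup R)) ∧ Nat.card ↥(Cfsg.omegaOne p (⊤ : Subgroup R)) = p ^ 2 := by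
  classical
  have hpp : p.Prime := Fact.out
  obtain ⟨N, hNn, hNc, hQc⟩ := hm
  have := hNn
  have := hNc
  have := hQc
  have hnt : Nontrivial (R ⧸ N) := by
    by_contra h
    rw [not_nontrivial_iff_subsingleton] at h
    refine hnc ?_
    have hN : N = ⊤ := eq_top_iff.mpr fun x _ => (QuotientGroup.eq_one_iff x).mp (Subsingleton.elim _ _)
    subst hN
    exact isCyclic_of_surjective Subgroup.topEquiv Subgroup.topEquiv.surjective
  let π := QuotientGroup.mk' N
  obtain ⟨q, hq⟩ : ∃ q : R ⧸ N, orderOf q = p := by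
    obtain ⟨k, hk⟩ := IsPGroup.iff_card.mp (hR.to_quotient N)
    refine exists_prime_orderOf_dvd_card' p ?_
    have h1 := Finite.one_lt_card_iff_nontrivial.mpr hnt
    rw [hk] at h1 ⊢
    exact dvd_pow_self p (fun h => by simp [h] at h1)
  let T := (zpowers q).comap π
  have hT : ∀ x : R, x ^ p = 1 → x ∈ T := by
    intro x hx
    have hx' : (π x) ^ p = 1 := by rw [← map_pow, hx, map_one]
    show π x ∈ zpowers q
    let := Fintype.ofFinite (R ⧸ N)
    have hsub : (zpowers q : Set (R ⧸ N)).toFinset = Finset.univ.filter (fun y => y ^ p = 1) := by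
      refine Finset.eq_of_subset_of_card_le ?_ ?_
      · intro y hy
        rw [Set.mem_toFinset] at hy
        obtain ⟨i, rfl⟩ := hy
        simp only [Finset.mem_filter, Finset.mem_univ, true_and]
        rw [← zpow_natCast, zpow_comm, zpow_natCast, ← hq, pow_orderOf_eq_one, one_zpow]
      · refine (IsCyclic.card_pow_eq_one_le hpp.pos).trans (le_of_eq ?_)
        rw [← Set.ncard_eq_toFinset_card', ← Nat.card_coe_set_eq]
        exact (hq ▸ Nat.card_zpowers q).symm
    have : π x ∈ (zpowers q : Set (R ⧸ N)).toFinset := by rw [hsub]; simp [hx']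
    simpa using this
  have hNT : N ≤ T := fun x hx => by
    show π x ∈ zpowers q
    rw [show π x = 1 from (QuotientGroup.eq_one_iff x).mpr hx]
    exact one_mem _
  have hidx : (N.subgroupOf T).index = p := by
    have h1 := index_ker (π.comp T.subtype)
    rw [← MonoidHom.comap_ker, QuotientGroup.ker_mk', MonoidHom.range_eq_map, ← Subgroup.map_map,
      ← MonoidHom.range_eq_map, range_subtype, map_comap_eq_self_of_surjective
        (QuotientGroup.mk'_surjective N), Nat.card_zpowers, hq] at h1
    exact h1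
  have : IsCyclic (N.subgroupOf T) :=
    isCyclic_of_surjective (subgroupOfEquivOfLe hNT).symm (subgroupOfEquivOfLe hNT).symm.surjective
  obtain ⟨A, -, -, hA, hA2⟩ := Lib.Thompson.exists_elemAbelian_normal hp hR ⊤
    (fun h => hnc (isCyclic_of_surjective Subgroup.topEquiv Subgroup.topEquiv.surjective))
  have hTnc : ¬ IsCyclic T := fun hc => by
    have hAT : A ≤ T := fun x hx => hT x (hA.2 x hx)
    have hAc : IsCyclic A := by
      have h0 : IsCyclic (A.subgroupOf T) := inferInstance
      exact isCyclic_of_surjective (subgroupOfEquivOfLe hAT) (subgroupOfEquivOfLe hAT).surjective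
    obtain ⟨g, hg⟩ := hAc.exists_generator
    have h2 : orderOf g = p ^ 2 := by rw [orderOf_eq_card_of_forall_mem_zpowers hg, hA2]
    have h3 : orderOf g ≤ p := orderOf_le_of_pow_eq_one hpp.pos (Subtype.ext (by simpa using hA.2 g g.2))
    rw [h2] at h3
    exact absurd h3 (not_le.mpr (lt_self_pow₀ hpp.one_lt one_lt_two))
  obtain ⟨⟨hc, he⟩, hcard⟩ := Lib.Thompson.omega_of_cyclic_index hp (hR.to_subgroup T) hTnc hidx
  have hmap : omegaOne p (⊤ : Subgroup R) = (closure {x : T | x ^ p = 1}).map T.subtype := by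
    rw [MonoidHom.map_closure, omegaOne]
    congr 1
    ext x
    constructor
    · exact fun hx => ⟨⟨x, hT x hx.2⟩, Subtype.ext hx.2, rfl⟩
    · rintro ⟨y, hy, rfl⟩
      exact ⟨mem_top _, congrArg Subtype.val hy⟩
  rw [hmap]
  refine ⟨⟨inferInstance, ?_⟩, by rw [card_subtype, hcard]⟩
  rintro _ ⟨y, hy, rfl⟩
  exact congrArg Subtype.val (he y hy)

end Cfsg.Agent.S0638
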