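import Cfsg.Statements.S0640
import Cfsg.Agent.Lib.Thompson.HuppertMeta

set_option autoImplicit false
open Cfsg Subgroup
open scoped Pointwise commutatorElement

namespace Cfsg.Agent.S0640

/-- For odd p, a prime q ≠ p dividing the order of the automorphism group of a p-group of rank at most 2 divides p² - 1 and is less than p. -/
theorem result {R : Type*} [Group R] [Finite R] {p : ℕ} [Fact p.Prime] (hp : p ≠ 2) (hR : IsPGroup p R) (hrk : Cfsg.PRankLE p 2 R) (q : ℕ) (hq : q.Prime) (hqp : q ≠ p) (hdvd : q ∣ Nat.card (MulAut R)) : q ∣ p ^ 2 - 1 ∧ q < p := by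
  have h := Lib.Thompson.aut_prime_dvd_rank_two hp hR hrk hq hqp hdvd
  refine ⟨h, ?_⟩
  have hp2 : 2 ≤ p := (Fact.out : p.Prime).two_le
  rw [show p ^ 2 - 1 = (p + 1) * (p - 1) by rw [← Nat.sq_sub_sq, one_pow]] at h
  rcases hq.dvd_mul.mp h with h | h
  · have h1 := Nat.le_of_dvd (by omega) h
    obtain ⟨k, hk⟩ := (Fact.out : p.Prime).odd_of_ne_two hp
    by_contra hlt
    have : q = p + 1 := by omega
    have h2 : 2 ∣ q := ⟨k + 1, by omega⟩
    have := (Nat.prime_dvd_prime_iff_eq Nat.prime_two hq).mp h2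
    omega
  · have h1 := Nat.le_of_dvd (by omega) h
    omega

end Cfsg.Agent.S0640
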