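import Cfsg.Statements.S0641

set_option autoImplicit false
open Cfsg Subgroup
open scoped Pointwise commutatorElement

namespace Cfsg.Agent.S0641

/-- Regularity of a p-group passes to quotient groups. -/
theorem result {G : Type*} [Group G] {p : ℕ} [Fact p.Prime] (hG : Cfsg.IsRegularPGroup p G) (N : Subgroup G) [N.Normal] : Cfsg.IsRegularPGroup p (G ⧸ N) := by
  refine ⟨hG.1.to_quotient N, fun x y m => ?_⟩
  obtain ⟨a, rfl⟩ := QuotientGroup.mk'_surjective N x
  obtain ⟨b, rfl⟩ := QuotientGroup.mk'_surjective N y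
  obtain ⟨c, hc, he⟩ := hG.2 a b m
  refine ⟨QuotientGroup.mk' N c, ?_, by rw [← map_pow, ← map_pow, ← map_mul, ← map_pow, he, map_mul, map_mul]⟩
  have hcl : closure ({QuotientGroup.mk' N a, QuotientGroup.mk' N b} : Set (G ⧸ N)) =
      (closure {a, b}).map (QuotientGroup.mk' N) := by
    rw [MonoidHom.map_closure, Set.image_pair]
  have hle : (powerClosure p m ⁅closure ({a, b} : Set G), closure {a, b}⁆).map (QuotientGroup.mk' N) ≤
      powerClosure p m ⁅closure ({QuotientGroup.mk' N a, QuotientGroup.mk' N b} : Set (G ⧸ N)),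
        closure {QuotientGroup.mk' N a, QuotientGroup.mk' N b}⁆ := by
    rw [hcl, ← map_commutator]
    rw [powerClosure, MonoidHom.map_closure]
    refine closure_mono ?_
    rintro _ ⟨w, ⟨v, hv, rfl⟩, rfl⟩
    exact ⟨_, mem_map_of_mem _ hv, map_pow _ _ _⟩
  exact hle (mem_map_of_mem _ hc)

end Cfsg.Agent.S0641
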