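import Cfsg.Statements.S0642
import Cfsg.Agent.Lib.PGroupFrattini

set_option autoImplicit false
open Cfsg Subgroup
open scoped Pointwise commutatorElement

namespace Cfsg.Agent.S0642

/-- Among finite 2-groups the regular ones are exactly the abelian ones. -/
theorem result {G : Type*} [Group G] [Finite G] (hG : IsPGroup 2 G) : Cfsg.IsRegularPGroup 2 G ↔ ∀ a b : G, a * b = b * a := by
  constructor
  · intro h a b
    have : Fact (Nat.Prime 2) := ⟨Nat.prime_two⟩
    let H : Subgroup G := closure {a, b}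
    obtain ⟨c, hc, he⟩ := h.2 a b 1
    let D : Subgroup H := commutator H
    let U : Subgroup H := (powerClosure 2 1 ⁅H, H⁆).subgroupOf H
    have ha : a ∈ H := subset_closure (Set.mem_insert a _)
    have hb : b ∈ H := subset_closure (Set.mem_insert_of_mem a rfl)
    have hcH : c ∈ H := by
      refine (closure_le H).mpr ?_ hc
      rintro _ ⟨w, hw, rfl⟩
      exact pow_mem (commutator_le_self H hw) _
    have hmap : D.map H.subtype = ⁅H, H⁆ := map_subtype_commutator H
    have hUn : U.Normal := by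
      refine ⟨fun u hu g => ?_⟩
      rw [mem_subgroupOf] at hu ⊢
      show (g : G) * u * (g : G)⁻¹ ∈ _
      have hle : powerClosure 2 1 ⁅H, H⁆ ≤
          (powerClosure 2 1 ⁅H, H⁆).comap (MulAut.conj (g : G)).toMonoidHom := by
        refine (closure_le _).mpr ?_
        rintro _ ⟨w, hw, rfl⟩
        refine subset_closure ⟨(g : G) * w * (g : G)⁻¹, ?_, by simp⟩
        rw [← hmap] at hw ⊢
        obtain ⟨w', hw', rfl⟩ := hw
        exact ⟨g * w' * g⁻¹, (inferInstance : D.Normal).conj_mem _ hw' g, rfl⟩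
      exact hle hu
    have hcomm : Commute (QuotientGroup.mk' U ⟨a, ha⟩) (QuotientGroup.mk' U ⟨b, hb⟩) := by
      have hc1 : QuotientGroup.mk' U ⟨c, hcH⟩ = 1 := (QuotientGroup.eq_one_iff _).mpr hc
      have he' : ((⟨a, ha⟩ : H) * ⟨b, hb⟩) ^ 2 = ⟨a, ha⟩ ^ 2 * ⟨b, hb⟩ ^ 2 * ⟨c, hcH⟩ := by
        ext
        simpa using he
      have := congrArg (QuotientGroup.mk' U) he'
      rw [map_mul, map_mul, map_pow, map_pow, map_pow, map_mul, hc1, mul_one, sq, sq, sq] at this
      simp only [mul_assoc, mul_left_cancel_iff] at this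
      rw [← mul_assoc, ← mul_assoc, mul_right_cancel_iff] at this
      exact this.symm
    have hab : IsMulCommutative (H ⧸ U) := by
      have hgen : closure ({QuotientGroup.mk' U ⟨a, ha⟩, QuotientGroup.mk' U ⟨b, hb⟩} : Set (H ⧸ U)) = ⊤ := by
        have h0 : closure ({⟨a, ha⟩, ⟨b, hb⟩} : Set H) = ⊤ := by
          apply map_injective H.subtype_injective
          rw [MonoidHom.map_closure, ← MonoidHom.range_eq_map, range_subtype, Set.image_pair]
          rfl
        have := congrArg (Subgroup.map (QuotientGroup.mk' U)) h0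
        rwa [MonoidHom.map_closure, Set.image_pair,
          map_top_of_surjective _ (QuotientGroup.mk'_surjective U)] at this
      have hc2 : IsMulCommutative (⊤ : Subgroup (H ⧸ U)) := by
        rw [← hgen]
        refine isMulCommutative_closure ?_
        rintro u (rfl | rfl) v (rfl | rfl)
        exacts [rfl, hcomm, hcomm.symm, rfl]
      exact ⟨⟨fun u v => congrArg Subtype.val (mul_comm' (⟨u, mem_top u⟩ : (⊤ : Subgroup (H ⧸ U))) ⟨v, mem_top v⟩)⟩⟩
    have hDU : D ≤ U := (Normal.quotient_commutative_iff_commutator_le (N := U)).mp hab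
    have hΦ : frattini (⁅H, H⁆ : Subgroup G) = ⊤ := by
      apply map_injective (⁅H, H⁆ : Subgroup G).subtype_injective
      rw [← MonoidHom.range_eq_map, range_subtype]
      refine le_antisymm (map_subtype_le _) ?_
      calc ⁅H, H⁆ = D.map H.subtype := hmap.symm
        _ ≤ U.map H.subtype := map_mono hDU
        _ ≤ powerClosure 2 1 ⁅H, H⁆ := (subgroupOf_map_subtype _ _).trans_le inf_le_left
        _ ≤ _ := by
          refine (closure_le _).mpr ?_
          rintro _ ⟨w, hw, rfl⟩
          exact ⟨(⟨w, hw⟩ : (⁅H, H⁆ : Subgroup G)) ^ 2,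
            Lib.PGroupFrattini.pow_mem_frattini (hG.to_subgroup _) _, by simp⟩
    have hbot : (⊥ : Subgroup (⁅H, H⁆ : Subgroup G)) = ⊤ :=
      frattini_nongenerating (by rw [bot_sup_eq]; exact hΦ)
    have h1 : ⁅a, b⁆ ∈ ⁅H, H⁆ := commutator_mem_commutator ha hb
    have h2 : (⟨_, h1⟩ : (⁅H, H⁆ : Subgroup G)) ∈ (⊥ : Subgroup (⁅H, H⁆ : Subgroup G)) :=
      hbot ▸ mem_top _
    exact commutatorElement_eq_one_iff_commute.mp (congrArg Subtype.val (mem_bot.mp h2))
  · exact fun h => ⟨hG, fun a b n => ⟨1, one_mem _, by rw [mul_one]; exact Commute.mul_pow (h a b) _⟩⟩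

end Cfsg.Agent.S0642
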