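import Cfsg.Statements.S0645
import Cfsg.Agent.Lib.Thompson.Cyclic

set_option autoImplicit false
open Cfsg Subgroup
open scoped Pointwise commutatorElement

namespace Cfsg.Agent.S0645

/-- Classification of p-groups with a cyclic maximal subgroup, odd p: a non-abelian one of order p^n has generators a of order p^(n-1) and b of order p, b outside the cyclic subgroup generated by a, with b a b⁻¹ = a^(1 + p^(n-2)). -/
theorem result {G : Type*} [Group G] [Finite G] {p : ℕ} [Fact p.Prime] (hp : p ≠ 2) (n : ℕ) (hn : 3 ≤ n) (hG : Nat.card G = p ^ n) (C : Subgroup G) (hC : IsCyclic C) (hCi : C.index = p) (hna : ∃ x y : G, x * y ≠ y * x) : ∃ a b : G, orderOf a = p ^ (n - 1) ∧ orderOf b = p ∧ b ∉ Subgroup.zpowers a ∧ b * a * b⁻¹ = a ^ (1 + p ^ (n - 2)) := by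
  classical
  have hpp : p.Prime := Fact.out
  have hP : IsPGroup p G := IsPGroup.of_card hG
  have hnc : ¬ IsCyclic G := fun h => by
    obtain ⟨x, y, hxy⟩ := hna
    exact hxy (IsCyclic.isMulCommutative.is_comm.comm x y)
  have hCn := Lib.Thompson.normal_of_index_prime hP hCi
  have := hC
  obtain ⟨⟨-, hexp⟩, hΩ⟩ := Lib.Thompson.omega_of_cyclic_index hp hP hnc hCi
  obtain ⟨a, rfl⟩ := C.isCyclic_iff_exists_zpowers_eq_top.mp hC
  have ha : orderOf a = p ^ (n - 1) := by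
    have h1 := card_mul_index (zpowers a)
    rw [hCi, Nat.card_zpowers, hG, show n = n - 1 + 1 by omega, pow_succ] at h1
    exact Nat.eq_of_mul_eq_mul_right hpp.pos h1
  obtain ⟨b, hbm, hbC⟩ : ∃ b ∈ closure {x : G | x ^ p = 1}, b ∉ zpowers a := by
    by_contra! h
    have hle : closure {x : G | x ^ p = 1} ≤ zpowers a := h
    have : IsCyclic ((closure {x : G | x ^ p = 1}).subgroupOf (zpowers a)) := inferInstance
    obtain ⟨g, hg⟩ : ∃ g : (closure {x : G | x ^ p = 1} : Subgroup G), ∀ y, y ∈ zpowers g :=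
      (isCyclic_of_surjective (subgroupOfEquivOfLe hle) (subgroupOfEquivOfLe hle).surjective).exists_generator
    have h2 : orderOf g = p ^ 2 := by rw [orderOf_eq_card_of_forall_mem_zpowers hg, hΩ]
    have h3 : orderOf g ≤ p := orderOf_le_of_pow_eq_one hpp.pos (Subtype.ext (by simpa using hexp g g.2))
    rw [h2] at h3
    exact absurd h3 (not_le.mpr (lt_self_pow₀ hpp.one_lt one_lt_two))
  have hbp : b ^ p = 1 := hexp b hbm
  have hpZ : Prime (p : ℤ) := Nat.prime_iff_prime_int.mp hpp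
  have hd : ∀ i : ℤ, a ^ i = 1 ↔ (p : ℤ) ^ (n - 1) ∣ i := fun i => by
    rw [← orderOf_dvd_iff_zpow_eq_one, ha, Nat.cast_pow]
  obtain ⟨r, hr⟩ : ∃ r : ℤ, a ^ r = b * a * b⁻¹ := hCn.conj_mem a (mem_zpowers a) b
  have hiter : ∀ k : ℕ, b ^ k * a * (b ^ k)⁻¹ = a ^ (r ^ k) := by
    intro k
    induction k with
    | zero => simp
    | succ k ih =>
      calc b ^ (k + 1) * a * (b ^ (k + 1))⁻¹ = b * (b ^ k * a * (b ^ k)⁻¹) * b⁻¹ := by
            rw [pow_succ']; group
        _ = (b * a * b⁻¹) ^ (r ^ k) := by rw [ih, conj_zpow]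
        _ = a ^ (r ^ (k + 1)) := by rw [← hr, ← zpow_mul, pow_succ']
  have hrp : (p : ℤ) ^ (n - 1) ∣ r ^ p - 1 := by
    rw [← hd, zpow_sub, zpow_one, mul_inv_eq_one, ← hiter p, hbp]
    group
  obtain ⟨hr1, hr2⟩ := Lib.Thompson.mul_sub_one_of_pow_sub_one hp hrp (by omega)
  have hp1 : (p : ℤ) ^ (n - 1) = p * (p : ℤ) ^ (n - 2) := by rw [← pow_succ']; congr 1; omega
  rw [hp1] at hr2
  obtain ⟨k, hk⟩ := (mul_dvd_mul_iff_left hpZ.ne_zero).mp hr2
  have hk' : ¬ (p : ℤ) ∣ k := fun hdk => by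
    have hcomm : b * a * b⁻¹ = a := by
      obtain ⟨l, rfl⟩ := hdk
      rw [← hr, show r = (r - 1) + 1 by ring, zpow_add_one, (hd (r - 1)).mpr ⟨l, by rw [hk, hp1]; ring⟩,
        one_mul]
    obtain ⟨x, y, hxy⟩ := hna
    have htop : zpowers a ⊔ zpowers b = ⊤ := by
      refine eq_top_of_card_eq _ (le_antisymm (Subgroup.card_le_card_group _) ?_)
      rw [← card_mul_index (zpowers a), hCi, mul_comm]
      exact Lib.Thompson.card_mul_p_le hP
        (lt_of_le_of_ne le_sup_left fun e => hbC (e ▸ mem_sup_right (mem_zpowers b)))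
    have hmul : zpowers a ⊔ zpowers b = closure {a, b} := by
      rw [zpowers_eq_closure, zpowers_eq_closure, ← Subgroup.closure_union]; rfl
    have hc : IsMulCommutative (⊤ : Subgroup G) := by
      rw [← htop, hmul]
      refine isMulCommutative_closure ?_
      rintro u (rfl | rfl) v (rfl | rfl)
      · rfl
      · exact (mul_inv_eq_iff_eq_mul.mp hcomm).symm
      · exact mul_inv_eq_iff_eq_mul.mp hcomm
      · rfl
    exact hxy (congrArg Subtype.val (mul_comm' (⟨x, mem_top x⟩ : (⊤ : Subgroup G)) ⟨y, mem_top y⟩))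
  obtain ⟨u, v, huv⟩ : IsCoprime k (p : ℤ) := (hpZ.coprime_iff_not_dvd.mpr hk').symm
  obtain ⟨j, hj⟩ : ∃ j : ℕ, (p : ℤ) ∣ (j : ℤ) - u :=
    ⟨(u % p).toNat, by
      rw [Int.toNat_of_nonneg (Int.emod_nonneg u hpZ.ne_zero)]
      exact ⟨-(u / p), by linear_combination (Int.emod_def u (p : ℤ))⟩⟩
  have hjp : ¬ p ∣ j := by
    intro h
    have h1 : (p : ℤ) ∣ u := by
      have h2 := dvd_sub (Int.natCast_dvd_natCast.mpr h) hj
      rwa [sub_sub_cancel] at h2
    have h3 : (p : ℤ) ∣ 1 := huv ▸ dvd_add (h1.mul_right k) (dvd_mul_left _ v)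
    exact hpp.ne_one (Nat.dvd_one.mp (Int.natCast_dvd_natCast.mp h3))
  refine ⟨a, b ^ j, ha, ?_, ?_, ?_⟩
  · refine orderOf_eq_prime (by rw [← pow_mul, mul_comm, pow_mul, hbp, one_pow]) fun h1 => ?_
    have hb1 : orderOf b = p := orderOf_eq_prime hbp fun e => hbC (e ▸ one_mem _)
    exact hjp (hb1 ▸ orderOf_dvd_of_pow_eq_one h1)
  · intro hmem
    have hcop : Nat.Coprime j (orderOf b) := by
      rw [orderOf_eq_prime hbp fun e => hbC (e ▸ one_mem _)]
      exact ((hpp.coprime_iff_not_dvd).mpr hjp).symm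
    obtain ⟨l, hl⟩ := exists_pow_eq_self_of_coprime hcop
    exact hbC (hl ▸ pow_mem hmem l)
  · rw [hiter, ← zpow_natCast a (1 + p ^ (n - 2)), ← mul_inv_eq_one, ← zpow_sub, hd, hp1]
    push_cast
    have hsq : (p : ℤ) * p ^ (n - 2) ∣ r ^ j - (1 + j * (r - 1)) := by
      have h1 : (r - 1) ^ 2 ∣ r ^ j - (1 + j * (r - 1)) := by
        clear hjp hj
        induction j with
        | zero => simp
        | succ j ih =>
          obtain ⟨c, hc⟩ := ih
          exact ⟨c * r + j, by push_cast; rw [pow_succ]; linear_combination r * hc⟩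
      refine (Dvd.dvd.trans ?_ h1)
      rw [hk, pow_two]
      calc (p : ℤ) * p ^ (n - 2) ∣ (p : ℤ) ^ (n - 2) * p ^ (n - 2) :=
            mul_dvd_mul_right (dvd_pow_self _ (by omega)) _
        _ ∣ _ := Dvd.intro (k * k) (by ring)
    obtain ⟨c, hc⟩ := hsq
    obtain ⟨l, hl⟩ := hj
    exact ⟨c + l * k - v, by linear_combination hc + (j : ℤ) * hk + (p : ℤ) ^ (n - 2) * k * hl +
      (p : ℤ) ^ (n - 2) * huv⟩

end Cfsg.Agent.S0645
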