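import Cfsg.Statements.S0656
import Cfsg.Agent.Lib.PStab.Consequences

set_option autoImplicit false
open Cfsg

namespace Cfsg.Agent.S0656

/-- For odd p, a faithful group on an elementary abelian p-group with no nontrivial normal p-subgroup in which some nontrivial p-element acts quadratically has a section isomorphic to SL(2, p). -/
theorem result {G : Type*} [Group G] [Finite G] {p : ℕ} [Fact p.Prime] (hp : p ≠ 2) (V H : Subgroup G) (hV : Cfsg.IsElementaryAbelian p V) (hHV : H ≤ Subgroup.normalizer (V : Set G)) (hf : H ⊓ Subgroup.centralizer (V : Set G) = ⊥) (hO : Cfsg.pCore p ↥H = ⊥) (x : G) (hxH : x ∈ H) (hx1 : x ≠ 1) (hxp : ∃ k : ℕ, orderOf x = p ^ k) (hq : ⁅⁅V, Subgroup.zpowers x⁆, Subgroup.zpowers x⁆ = ⊥) : ∃ (K L : Subgroup G) (hL : (L.subgroupOf K).Normal), K ≤ H ∧ Nonempty ((K ⧸ L.subgroupOf K) ≃* Matrix.SpecialLinearGroup (Fin 2) (ZMod p)) := by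
  have hxq := Lib.PStab.commute_commutator_of_quadratic (Subgroup.mem_zpowers x) hq
  obtain ⟨L, π, hL, hπ⟩ := Lib.PStab.exists_sl2_of_not_mem_pCore hp hV hHV hf hxH hxq (by
    rw [hO, Subgroup.mem_bot]
    exact fun h => hx1 (congrArg Subtype.val h))
  obtain ⟨M, hM, e⟩ := Lib.PStab.exists_quotient_equiv π hπ
  exact ⟨L, M, hM, hL, e⟩

end Cfsg.Agent.S0656
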