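import Cfsg.Statements.S0657
import Cfsg.Agent.Lib.PStab.Consequences

set_option autoImplicit false
open Cfsg

namespace Cfsg.Agent.S0657

/-- For odd p, a group that fails to be p-stable modulo its largest normal subgroup of order prime to p, and whose upper p-series does not stop there, has a section isomorphic to SL(2, p). -/
theorem result {G : Type*} [Group G] [Finite G] {p : ℕ} [Fact p.Prime] (hp : p ≠ 2) (hO : Cfsg.pPrimeCore p G < Cfsg.pPrimePCore p G) (hns : ¬ Cfsg.IsPStable p (G ⧸ Cfsg.pPrimeCore p G)) : ∃ (K L : Subgroup G) (hL : (L.subgroupOf K).Normal), K ≤ ⊤ ∧ Nonempty ((K ⧸ L.subgroupOf K) ≃* Matrix.SpecialLinearGroup (Fin 2) (ZMod p)) := by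
  set N := Cfsg.pPrimeCore p G
  have hodd : Odd p := (Fact.out : p.Prime).odd_of_ne_two hp
  have hcore : Cfsg.pCore p (G ⧸ N) ≠ ⊥ := fun h => by
    refine hO.ne ?_
    show N = (Cfsg.pCore p (G ⧸ N)).comap (QuotientGroup.mk' N)
    rw [h, MonoidHom.comap_bot, QuotientGroup.ker_mk']
  rw [Cfsg.IsPStable] at hns
  push Not at hns
  obtain ⟨A, P, -, hP, hAP, -, -, hq, hA⟩ := hns hodd hcore
  obtain ⟨_, ⟨a, ha, rfl⟩, hna⟩ := SetLike.not_le_iff_exists.mp hA
  have haA : (a : G ⧸ N) ∈ A := Subgroup.mem_subgroupOf.mp ha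
  obtain ⟨L, π, -, -, hπ, -, -⟩ := Lib.PStab.exists_sl2_natural hP hp le_rfl a.2
    (Lib.PStab.commute_commutator_of_quadratic haA hq) (fun D hDn hD hmem => hna (by
      have hn : ((D.map (QuotientGroup.mk' ((Subgroup.centralizer (P : Set (G ⧸ N))).subgroupOf
          (Subgroup.normalizer (P : Set (G ⧸ N))))))).Normal :=
        Subgroup.Normal.map hDn _ (QuotientGroup.mk'_surjective _)
      haveI := hn
      refine Lib.Hall.le_pCore ?_ (Subgroup.mem_map_of_mem (QuotientGroup.mk' _) hmem)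
      rintro ⟨_, d, hd, rfl⟩
      obtain ⟨n, hn'⟩ := hD d hd
      refine ⟨n, Subtype.ext ?_⟩
      show (QuotientGroup.mk' _ d) ^ p ^ n = 1
      rw [← map_pow]
      exact (QuotientGroup.eq_one_iff _).mpr (Subgroup.mem_subgroupOf.mpr (by simpa using hn'))))
  obtain ⟨M, hM, e⟩ := Lib.PStab.exists_quotient_equiv
    (π.comp ((QuotientGroup.mk' N).subgroupComap L))
    (hπ.comp (MonoidHom.subgroupComap_surjective_of_surjective _ L (QuotientGroup.mk'_surjective N)))
  exact ⟨L.comap (QuotientGroup.mk' N), M, hM, le_top, e⟩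

end Cfsg.Agent.S0657
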