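import Cfsg.Statements.S0660

set_option autoImplicit false
open Cfsg Subgroup
open scoped Pointwise commutatorElement

namespace Cfsg.Agent.S0660

/-- Under a coprime action on an abelian group, an invariant subgroup that is complemented admits an invariant complement. -/
theorem result {G : Type*} [Group G] [Finite G] (V A U : Subgroup G) (hVab : IsMulCommutative V) (hAV : A ≤ Subgroup.normalizer (V : Set G)) (hcop : (Nat.card A).Coprime (Nat.card V)) (hUV : U ≤ V) (hAU : A ≤ Subgroup.normalizer (U : Set G)) (W : Subgroup G) (hWV : W ≤ V) (hUW : U ⊓ W = ⊥) (hUWV : U ⊔ W = V) : ∃ W' : Subgroup G, W' ≤ V ∧ A ≤ Subgroup.normalizer (W' : Set G) ∧ U ⊓ W' = ⊥ ∧ U ⊔ W' = V := by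
  classical
  have hVc : ∀ x ∈ V, ∀ y ∈ V, x * y = y * x := fun x hx y hy =>
    congrArg Subtype.val (mul_comm' (⟨x, hx⟩ : V) ⟨y, hy⟩)
  rcases eq_or_ne (Nat.card A) 0 with hA0 | hA0
  · rw [hA0, Nat.coprime_zero_left, card_eq_one] at hcop
    refine ⟨W, hWV, fun a _ => ?_, hUW, hUWV⟩
    have hW : W = ⊥ := le_bot_iff.mp (hcop ▸ hWV)
    subst hW
    rw [mem_normalizer_iff]
    simp [conj_eq_one_iff]
  have : Finite A := Nat.finite_of_card_ne_zero hA0
  let := Fintype.ofFinite A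
  rcases eq_or_ne (Nat.card V) 0 with hV0 | hV0
  · rw [hV0, Nat.coprime_zero_right, card_eq_one] at hcop
    exact ⟨W, hWV, hcop ▸ bot_le, hUW, hUWV⟩
  have hdec : ∀ v : V, ∃ u : U, ∃ w : W, (u : G) * w = v := fun v => by
    have hv : (v : G) ∈ U ⊔ W := hUWV.ge v.2
    have hn : W ≤ normalizer (U : Set G) := (le_trans hWV fun x hx => centralizer_le_normalizer _
      (mem_centralizer_iff.mpr fun y hy => hVc y (hUV hy) x hx))
    rw [← SetLike.mem_coe, coe_mul_of_right_le_normalizer_left U W hn] at hv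
    obtain ⟨u, hu, w, hw, h⟩ := hv
    exact ⟨⟨u, hu⟩, ⟨w, hw⟩, h⟩
  choose P R hPR using hdec
  have huniq : ∀ u u' : U, ∀ w w' : W, (u : G) * w = u' * w' → u = u' := fun u u' w w' h => by
    have h1 : ((u' : G)⁻¹ * (u : G)) = (w' : G) * (w : G)⁻¹ := by
      rw [eq_mul_inv_iff_mul_eq, mul_assoc, h, inv_mul_cancel_left]
    have h2 : ((u' : G)⁻¹ * (u : G)) ∈ U ⊓ W :=
      ⟨U.mul_mem (U.inv_mem u'.2) u.2, h1 ▸ W.mul_mem w'.2 (W.inv_mem w.2)⟩
    rw [hUW, mem_bot, inv_mul_eq_one] at h2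
    exact Subtype.ext h2.symm
  have hPmul : ∀ v v' : V, P (v * v') = P v * P v' := fun v v' => by
    refine huniq _ _ (R (v * v')) (R v * R v') ?_
    rw [hPR, Subgroup.coe_mul, Subgroup.coe_mul, Subgroup.coe_mul]
    calc (v : G) * v' = (P v : G) * ((R v : G) * (P v' : G)) * R v' := by
          rw [← hPR v, ← hPR v']; simp only [mul_assoc]
      _ = (P v : G) * ((P v' : G) * (R v : G)) * R v' := by rw [hVc _ (hWV (R v).2) _ (hUV (P v').2)]
      _ = _ := by simp only [mul_assoc]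
  have hPU : ∀ v : V, (v : G) ∈ U → (P v : G) = v := fun v hv => by
    have := huniq (P v) ⟨v, hv⟩ (R v) 1 (by rw [hPR]; simp)
    exact congrArg Subtype.val this
  have hnV : ∀ (a : A) (v : G), v ∈ V → (a : G)⁻¹ * v * a ∈ V := fun a v hv =>
    (mem_normalizer_iff''.mp (hAV a.2) v).mp hv
  have hnU : ∀ (a : A) (v : G), v ∈ U → (a : G) * v * (a : G)⁻¹ ∈ U := fun a v hv =>
    (mem_normalizer_iff.mp (hAU a.2) v).mp hv
  have : IsMulCommutative U := ⟨⟨fun x y => Subtype.ext (hVc _ (hUV x.2) _ (hUV y.2))⟩⟩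
  let cgU : CommGroup U := { (inferInstance : Group U) with mul_comm := fun x y => mul_comm' x y }
  let T : A → (V →* U) := fun a => MonoidHom.mk'
    (fun v => ⟨(a : G) * P ⟨(a : G)⁻¹ * v * a, hnV a v v.2⟩ * (a : G)⁻¹, hnU a _ (P _).2⟩)
    (fun v w => Subtype.ext (by
      show (a : G) * P ⟨(a : G)⁻¹ * (v * w : V) * a, _⟩ * (a : G)⁻¹ = _
      have e : (⟨(a : G)⁻¹ * ((v * w : V) : G) * a, hnV a _ (v * w).2⟩ : V) =
          ⟨(a : G)⁻¹ * v * a, hnV a v v.2⟩ * ⟨(a : G)⁻¹ * w * a, hnV a w w.2⟩ := Subtype.ext (by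
        simp only [Subgroup.coe_mul]; group)
      rw [e, hPmul]
      simp only [Subgroup.coe_mul]
      group))
  let Q : V →* U := ∏ a : A, T a
  have hQ : ∀ v, Q v = ∏ a : A, T a v := fun v => by simp [Q, MonoidHom.finsetProd_apply]
  have hQequiv : ∀ (b : A) (v : V), Q v = 1 → Q ⟨(b : G)⁻¹ * v * b, hnV b v v.2⟩ = 1 := by
    intro b v hv
    let cb : U →* U := MonoidHom.mk' (fun u => ⟨((b⁻¹ : A) : G) * u * ((b⁻¹ : A) : G)⁻¹, hnU b⁻¹ u u.2⟩)
      (fun x y => Subtype.ext (by simp only [Subgroup.coe_mul]; group))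
    have h1 : Q ⟨(b : G)⁻¹ * v * b, hnV b v v.2⟩ = cb (Q v) := by
      rw [hQ, hQ, map_prod]
      refine Fintype.prod_equiv (Equiv.mulLeft b) _ _ fun a => Subtype.ext ?_
      show (a : G) * P ⟨(a : G)⁻¹ * ((b : G)⁻¹ * v * b) * a, _⟩ * (a : G)⁻¹ =
        ((b⁻¹ : A) : G) * (((b * a : A) : G) * P ⟨((b * a : A) : G)⁻¹ * v * (b * a : A), _⟩ *
          ((b * a : A) : G)⁻¹) * ((b⁻¹ : A) : G)⁻¹
      have e : (⟨((b * a : A) : G)⁻¹ * v * (b * a : A), hnV (b * a) v v.2⟩ : V) =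
          ⟨(a : G)⁻¹ * ((b : G)⁻¹ * v * b) * a, hnV a _ (hnV b v v.2)⟩ := Subtype.ext (by
        simp only [Subgroup.coe_mul]; group)
      rw [e]
      simp only [Subgroup.coe_mul, Subgroup.coe_inv]
      group
    rw [h1, hv, map_one]
  have hQU : ∀ v : V, (v : G) ∈ U → (Q v : G) = (v : G) ^ Nat.card A := fun v hv => by
    have h1 : ∀ a : A, T a v = ⟨v, hv⟩ := fun a => Subtype.ext (by
      show (a : G) * P ⟨(a : G)⁻¹ * v * a, _⟩ * (a : G)⁻¹ = v
      rw [hPU _ ((mem_normalizer_iff''.mp (hAU a.2) v).mp hv)]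
      group)
    rw [hQ, Finset.prod_congr rfl (fun a _ => h1 a), Finset.prod_const, Finset.card_univ,
      ← Nat.card_eq_fintype_card, SubgroupClass.coe_pow]
  refine ⟨Q.ker.map V.subtype, map_subtype_le _, ?_, ?_, ?_⟩
  · intro b hb
    rw [mem_normalizer_iff'']
    intro x
    constructor
    · rintro ⟨v, hv, rfl⟩
      exact ⟨⟨b⁻¹ * v * b, hnV ⟨b, hb⟩ v v.2⟩, hQequiv ⟨b, hb⟩ v hv, rfl⟩
    · rintro ⟨v, hv, hx⟩
      have hx' : x = b * v * b⁻¹ := by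
        rw [show (v : G) = b⁻¹ * x * b from hx]; group
      refine ⟨⟨((⟨b, hb⟩⁻¹ : A) : G)⁻¹ * v * ((⟨b, hb⟩⁻¹ : A) : G), hnV _ v v.2⟩,
        hQequiv _ v hv, ?_⟩
      rw [hx']; simp
  · refine eq_bot_iff.mpr ?_
    rintro x ⟨hxU, ⟨v, hv, rfl⟩⟩
    have h1 := hQU v hxU
    rw [MonoidHom.mem_ker.mp hv, OneMemClass.coe_one] at h1
    have h2 : orderOf (v : G) ∣ 1 := by
      rw [← hcop.gcd_eq_one]
      refine Nat.dvd_gcd (orderOf_dvd_of_pow_eq_one h1.symm) ?_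
      rw [Subgroup.orderOf_coe]
      exact orderOf_dvd_natCard v
    exact orderOf_eq_one_iff.mp (Nat.dvd_one.mp h2)
  · refine le_antisymm (sup_le hUV (map_subtype_le _)) fun x hx => ?_
    obtain ⟨n, hn⟩ := exists_pow_eq_self_of_coprime
      (x := (Q ⟨x, hx⟩ : G)) (n := Nat.card A) (hcop.coprime_dvd_right (by
        have := Subgroup.orderOf_coe (⟨(Q ⟨x, hx⟩ : G), hUV (Q ⟨x, hx⟩).2⟩ : V)
        simp only at this
        rw [this]; exact orderOf_dvd_natCard _))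
    let u : V := ⟨(Q ⟨x, hx⟩ : G) ^ n, pow_mem (hUV (Q ⟨x, hx⟩).2) n⟩
    have hu : Q u = Q ⟨x, hx⟩ := Subtype.ext (by
      rw [hQU u (pow_mem (Q ⟨x, hx⟩).2 n), ← pow_mul, mul_comm, pow_mul]
      exact hn)
    have hmem : u⁻¹ * ⟨x, hx⟩ ∈ Q.ker := by
      rw [MonoidHom.mem_ker, map_mul, map_inv, hu, inv_mul_cancel]
    have := mul_mem_sup (pow_mem (Q ⟨x, hx⟩).2 n : (u : G) ∈ U) (mem_map_of_mem V.subtype hmem)
    simpa [u] using this

end Cfsg.Agent.S0660
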