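import Cfsg.Statements.S0662
import Cfsg.Agent.Lib.Thompson.MaxClass

set_option autoImplicit false
open Cfsg Subgroup
open scoped Pointwise commutatorElement

namespace Cfsg.Agent.S0662

/-- In a p-group of maximal class of order at least p³ the normal subgroups of index at least p² are exactly the terms of the lower central series, and there are exactly p + 1 normal subgroups of index p. -/
theorem result {G : Type*} [Group G] [Finite G] {p : ℕ} [Fact p.Prime] (n : ℕ) (hG : Nat.card G = p ^ n) (hcl : Group.nilpotencyClass G = n - 1) (hn : 3 ≤ n) : (∀ (N : Subgroup G) [N.Normal] (r : ℕ), 2 ≤ r → N.index = p ^ r → N = (⊤ : Subgroup G).lowerCentralSeries (r - 1)) ∧ Nat.card {N : Subgroup G // N.Normal ∧ N.index = p} = p + 1 := by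
  classical
  have hP : IsPGroup p G := IsPGroup.of_card hG
  have hpp : p.Prime := Fact.out
  constructor
  · intro N _ r hr hN
    have hQ : Nat.card (G ⧸ N) = p ^ r := by rw [← index_eq_card, hN]
    have h0 := Lib.Thompson.lcs_eq_bot hQ (k := r - 1) (by omega) (by omega)
    have hle : (⊤ : Subgroup G).lowerCentralSeries (r - 1) ≤ N := by
      have h1 := Subgroup.map_lowerCentralSeries (S := (⊤ : Subgroup G)) (QuotientGroup.mk' N) (r - 1)
      rw [map_top_of_surjective _ (QuotientGroup.mk'_surjective N), h0, Subgroup.map_eq_bot_iff,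
        QuotientGroup.ker_mk'] at h1
      exact h1
    have hrn : r ≤ n := by
      rw [← Nat.pow_le_pow_iff_right hpp.one_lt, ← hG, ← hN]
      exact Nat.le_of_dvd Nat.card_pos N.index_dvd_card
    have hidx := Lib.Thompson.index_lcs_of_maxClass hG hn hcl (k := r - 1) (by omega) (by omega)
    rw [show r - 1 + 1 = r by omega] at hidx
    refine (eq_of_le_of_card_ge hle ?_).symm
    have h2 := card_mul_index N
    have h3 := card_mul_index ((⊤ : Subgroup G).lowerCentralSeries (r - 1))
    rw [hidx, ← hN] at h3
    exact (Nat.eq_of_mul_eq_mul_right (Nat.pos_of_ne_zero index_ne_zero_of_finite) (h2.trans h3.symm)).le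
  · have hD : (commutator G).index = p ^ 2 := by
      have h := Lib.Thompson.index_lcs_of_maxClass hG hn hcl (k := 1) le_rfl (by omega)
      rwa [Subgroup.top_lowerCentralSeries_one] at h
    let V := G ⧸ commutator G
    let π := QuotientGroup.mk' (commutator G)
    have hπ : Function.Surjective π := QuotientGroup.mk'_surjective _
    have hV : Nat.card V = p ^ 2 := by rw [← index_eq_card, hD]
    have hexp : ∀ v : V, v ^ p = 1 := by
      intro v
      obtain ⟨x, rfl⟩ := hπ v
      by_contra hne
      have ho : orderOf (π x) = p ^ 2 := by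
        obtain ⟨i, hi, ho⟩ := (Nat.dvd_prime_pow hpp).mp (hV ▸ orderOf_dvd_natCard (π x))
        rcases Nat.lt_or_ge i 2 with h | h
        · refine absurd ?_ hne
          exact orderOf_dvd_iff_pow_eq_one.mp (ho ▸ (pow_dvd_pow p (by omega : i ≤ 1)).trans (pow_one p).dvd)
        · rw [ho]; congr 1; omega
      have htop : zpowers (π x) = ⊤ := eq_top_of_card_eq _ (by rw [Nat.card_zpowers, ho]; exact hV.symm)
      have h1 : zpowers x ⊔ frattini G = ⊤ := by
        have h2 := congrArg (Subgroup.comap π) htop
        rw [← MonoidHom.map_zpowers, comap_map_eq, comap_top, QuotientGroup.ker_mk'] at h2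
        exact top_le_iff.mp (h2.ge.trans (sup_le_sup le_rfl (Lib.PGroupFrattini.commutator_le_frattini hP)))
      have hc : IsCyclic G := isCyclic_iff_exists_zpowers_eq_top.mpr ⟨x, frattini_nongenerating h1⟩
      rw [Lib.Thompson.commutator_eq_bot_of_isCyclic, index_bot, hG] at hD
      have := Nat.pow_right_injective hpp.two_le hD
      omega
    have hmemD : ∀ N : {N : Subgroup G // N.Normal ∧ N.index = p}, commutator G ≤ N.1 := by
      rintro ⟨N, hNn, hNi⟩
      have : IsCyclic (G ⧸ N) := isCyclic_of_prime_card (p := p) (by rw [← index_eq_card, hNi])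
      exact (Normal.quotient_commutative_iff_commutator_le (N := N)).mp inferInstance
    have hcard : ∀ K : Subgroup V, Nat.card K = p ↔ K.index = p := fun K => by
      have h := card_mul_index K
      rw [hV, pow_two] at h
      constructor <;> intro h' <;> rw [h'] at h
      · exact Nat.eq_of_mul_eq_mul_left hpp.pos h
      · exact Nat.eq_of_mul_eq_mul_right hpp.pos h
    have : IsMulCommutative (G ⧸ commutator G) :=
      (Normal.quotient_commutative_iff_commutator_le (N := commutator G)).mpr le_rfl
    let e1 : {N : Subgroup G // N.Normal ∧ N.index = p} ≃ {K : Subgroup V // Nat.card K = p} :=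
      { toFun := fun N => ⟨N.1.map π, (hcard _).mpr (by
          rw [index_map_eq _ hπ (by rw [QuotientGroup.ker_mk']; exact hmemD N)]; exact N.2.2)⟩
        invFun := fun K => ⟨K.1.comap π, ⟨fun y hy g => by
            show π (g * y * g⁻¹) ∈ K.1
            rw [show π (g * y * g⁻¹) = π y by
              rw [map_mul, map_mul, map_inv, (show Commute (π g) (π y) from
                IsMulCommutative.is_comm.comm _ _).eq, mul_inv_cancel_right]]
            exact hy⟩, by rw [index_comap_of_surjective _ hπ]; exact (hcard _).mp K.2⟩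
        left_inv := fun N => Subtype.ext (by
          show (N.1.map π).comap π = N.1
          rw [comap_map_eq, QuotientGroup.ker_mk', sup_eq_left]; exact hmemD N)
        right_inv := fun K => Subtype.ext (map_comap_eq_self_of_surjective hπ _) }
    rw [Nat.card_congr e1]
    have hz : ∀ v : {v : V // v ≠ 1}, Nat.card (zpowers v.1) = p := fun v => by
      rw [Nat.card_zpowers]; exact orderOf_eq_prime (hexp v.1) v.2
    let e2 : (Σ K : {K : Subgroup V // Nat.card K = p}, {h : K.1 // h ≠ 1}) → {v : V // v ≠ 1} :=
      fun s => ⟨s.2.1, fun e => s.2.2 (Subtype.ext e)⟩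
    have hbij : Function.Bijective e2 := by
      refine ⟨?_, fun v => ⟨⟨⟨zpowers v.1, hz v⟩, ⟨⟨v.1, mem_zpowers _⟩, fun e => v.2 (congrArg Subtype.val e)⟩⟩, rfl⟩⟩
      rintro ⟨⟨K, hK⟩, ⟨⟨h, hh⟩, hne⟩⟩ ⟨⟨K', hK'⟩, ⟨⟨h', hh'⟩, hne'⟩⟩ heq
      have e : h = h' := congrArg Subtype.val heq
      subst e
      have h1 : h ≠ 1 := fun e => hne (Subtype.ext e)
      have h2 : ∀ L : Subgroup V, Nat.card L = p → h ∈ L → L = zpowers h := fun L hL hm =>
        (eq_of_le_of_card_ge (zpowers_le.mpr hm) (by rw [hL, hz ⟨h, h1⟩])).symm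
      obtain rfl : K = K' := (h2 K hK hh).trans (h2 K' hK' hh').symm
      rfl
    have h5 := Nat.card_congr (Equiv.ofBijective e2 hbij)
    let := Fintype.ofFinite {K : Subgroup V // Nat.card K = p}
    let := Fintype.ofFinite V
    rw [Nat.card_sigma] at h5
    have h6 : ∀ K : {K : Subgroup V // Nat.card K = p}, Nat.card {h : K.1 // h ≠ 1} = p - 1 := fun K => by
      rw [Nat.card_eq_fintype_card, Fintype.card_subtype_compl, Fintype.card_subtype_eq,
        ← Nat.card_eq_fintype_card, K.2]
    rw [Finset.sum_congr rfl (fun K _ => h6 K), Finset.sum_const, Finset.card_univ, smul_eq_mul,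
      Nat.card_eq_fintype_card, Fintype.card_subtype_compl, Fintype.card_subtype_eq,
      ← Nat.card_eq_fintype_card, ← Nat.card_eq_fintype_card, hV] at h5
    have h7 : p ^ 2 - 1 = (p + 1) * (p - 1) := by
      rw [show p ^ 2 - 1 = p ^ 2 - 1 ^ 2 by norm_num, Nat.sq_sub_sq]
    rw [h7] at h5
    exact Nat.eq_of_mul_eq_mul_right (by have := hpp.two_le; omega) h5

end Cfsg.Agent.S0662
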