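import Cfsg.Statements.S0663
import Cfsg.Agent.Lib.Thompson.PGroup
import Cfsg.Agent.Lib.Coprime.Action

set_option autoImplicit false
open Cfsg Subgroup
open scoped Pointwise commutatorElement

namespace Cfsg.Agent.S0663

universe u

variable {L : Type u} [Group L] [Finite L] {p : ℕ} [hp : Fact p.Prime] {N G : Subgroup L}

open Cfsg

theorem iter_facts (hGN : G ≤ normalizer (N : Set L)) :
    ∀ i, iterCommutator N G i ≤ N ∧ G ≤ normalizer (iterCommutator N G i : Set L) := by
  intro i
  induction i with
  | zero => exact ⟨le_rfl, hGN⟩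
  | succ i ih =>
    exact ⟨((le_normalizer_iff_commutator_le_left.mp ih.2)).trans ih.1, normalizer_commutator_ge_right _ _⟩

theorem iter_succ_le (hGN : G ≤ normalizer (N : Set L)) (i : ℕ) :
    iterCommutator N G (i + 1) ≤ iterCommutator N G i :=
  le_normalizer_iff_commutator_le_left.mp (iter_facts hGN i).2

theorem iter_anti (hGN : G ≤ normalizer (N : Set L)) {i j : ℕ} (h : i ≤ j) :
    iterCommutator N G j ≤ iterCommutator N G i := by
  induction h with
  | refl => exact le_rfl
  | step _ ih => exact (iter_succ_le hGN _).trans ih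

theorem commutator_lt (hN : IsPGroup p N) (hG : IsPGroup p G) {H : Subgroup L} (hH : H ≤ N)
    (hGH : G ≤ normalizer (H : Set L)) (hne : H ≠ ⊥) : ⁅H, G⁆ < H := by
  refine lt_of_le_of_ne (le_normalizer_iff_commutator_le_left.mp hGH) fun e => hne ?_
  have hX : IsPGroup p ↥(H ⊔ G) := (hN.to_le hH).to_sup_of_normal_left' hG hGH
  have : Group.IsNilpotent ↥(H ⊔ G) := hX.isNilpotent
  obtain ⟨n, hn⟩ := Subgroup.nilpotent_iff_lowerCentralSeries.mp ‹Group.IsNilpotent ↥(H ⊔ G)›
  have key : ∀ m, H ≤ ((⊤ : Subgroup ↥(H ⊔ G)).lowerCentralSeries m).map (H ⊔ G).subtype := by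
    intro m
    induction m with
    | zero =>
      rw [Subgroup.lowerCentralSeries_zero, ← MonoidHom.range_eq_map, range_subtype]
      exact le_sup_left
    | succ m ih =>
      rw [Subgroup.lowerCentralSeries_succ, map_commutator, ← MonoidHom.range_eq_map, range_subtype]
      exact e.ge.trans (commutator_mono ih le_sup_right)
  have h := key n
  rw [hn, Subgroup.map_bot, le_bot_iff] at h
  exact h

theorem iter_card_le (hN : IsPGroup p N) (hG : IsPGroup p G) (hGN : G ≤ normalizer (N : Set L)) {n : ℕ}
    (hn : Nat.card N = p ^ n) (i : ℕ) :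
    iterCommutator N G i = ⊥ ∨ ∃ k, k + i ≤ n ∧ Nat.card (iterCommutator N G i) = p ^ k := by
  induction i with
  | zero => exact Or.inr ⟨n, le_rfl, hn⟩
  | succ i ih =>
    by_cases hb : iterCommutator N G (i + 1) = ⊥
    · exact Or.inl hb
    rcases ih with h | ⟨k, hk, hcard⟩
    · exact absurd (le_bot_iff.mp ((iter_succ_le hGN i).trans h.le)) hb
    have hlt := commutator_lt hN hG (iter_facts hGN i).1 (iter_facts hGN i).2 (fun h =>
      hb (le_bot_iff.mp ((iter_succ_le hGN i).trans h.le)))
    obtain ⟨k', hk'⟩ := IsPGroup.iff_card.mp (hN.to_le (iter_facts hGN (i + 1)).1)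
    refine Or.inr ⟨k', ?_, hk'⟩
    have h1 : p ^ k' < p ^ k := by
      rw [← hk', ← hcard]; exact Set.ncard_lt_ncard (SetLike.coe_ssubset_coe.mpr hlt) (Set.toFinite _)
    rw [Nat.pow_lt_pow_iff_right hp.out.one_lt] at h1
    omega

theorem iter_bot (hN : IsPGroup p N) (hG : IsPGroup p G) (hGN : G ≤ normalizer (N : Set L)) {n : ℕ}
    (hn : Nat.card N = p ^ n) : iterCommutator N G n = ⊥ := by
  rcases iter_card_le hN hG hGN hn n with h | ⟨k, hk, hcard⟩
  · exact h
  · rw [show k = 0 by omega, pow_zero, card_eq_one] at hcard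
    exact hcard

theorem iter_card_of_top (hN : IsPGroup p N) (hG : IsPGroup p G) (hGN : G ≤ normalizer (N : Set L)) {n : ℕ}
    (hn : Nat.card N = p ^ n) (h : iterCommutator N G (n - 1) ≠ ⊥ ∨ n = 0) :
    ∀ i ≤ n, Nat.card (iterCommutator N G i) = p ^ (n - i) := by
  suffices hlow : ∀ d i, i + d = n → p ^ d ∣ Nat.card (iterCommutator N G i) by
    intro i hi
    have h1 := hlow (n - i) i (by omega)
    rcases iter_card_le hN hG hGN hn i with hb | ⟨k, hk, hcard⟩
    · rw [hb, card_bot] at h1 ⊢
      rcases Nat.eq_zero_or_pos (n - i) with h0 | h0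
      · rw [h0, pow_zero]
      · exact absurd (Nat.le_of_dvd one_pos h1) (not_le.mpr (Nat.one_lt_pow h0.ne' hp.out.one_lt))
    · rw [hcard] at h1 ⊢
      have := (Nat.pow_dvd_pow_iff_le_right hp.out.one_lt).mp h1
      congr 1
      omega
  intro d
  induction d with
  | zero => intro i _; exact one_dvd _
  | succ d ih =>
    intro i hi
    have hne : iterCommutator N G i ≠ ⊥ := fun e => (h.resolve_right (by omega))
      (le_bot_iff.mp ((iter_anti hGN (by omega : i ≤ n - 1)).trans e.le))
    have hlt := commutator_lt hN hG (iter_facts hGN i).1 (iter_facts hGN i).2 hne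
    obtain ⟨a, ha⟩ := IsPGroup.iff_card.mp (hN.to_le (iter_facts hGN i).1)
    obtain ⟨b, hb⟩ := IsPGroup.iff_card.mp (hN.to_le (iter_facts hGN (i + 1)).1)
    have h2 := ih (i + 1) (by omega)
    rw [hb, Nat.pow_dvd_pow_iff_le_right hp.out.one_lt] at h2
    rw [ha, Nat.pow_dvd_pow_iff_le_right hp.out.one_lt]
    have h1 : p ^ b < p ^ a := by
      rw [← hb, ← ha]; exact Set.ncard_lt_ncard (SetLike.coe_ssubset_coe.mpr hlt) (Set.toFinite _)
    rw [Nat.pow_lt_pow_iff_right hp.out.one_lt] at h1
    omega

theorem relIndex_of_card {H K : Subgroup L} (hle : H ≤ K) {a : ℕ} (hK : Nat.card K = p ^ (a + 1))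
    (hH : Nat.card H = p ^ a) : H.relIndex K = p := by
  have h : Nat.card H * H.relIndex K = Nat.card K := by
    rw [relIndex, ← Lib.Coprime.card_subgroupOf hle]
    exact card_mul_index _
  rw [hH, hK, pow_succ] at h
  exact Nat.eq_of_mul_eq_mul_left (pow_pos hp.out.pos a) h

theorem main_structure (hN : IsPGroup p N) (hG : IsPGroup p G) (hGN : G ≤ normalizer (N : Set L)) {n : ℕ}
    (hn : Nat.card N = p ^ n) (h : iterCommutator N G (n - 1) ≠ ⊥ ∨ n = 0) :
    ∀ H : Subgroup L, H ≤ N → G ≤ normalizer (H : Set L) →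
      (∃ i ≤ n, H = iterCommutator N G i) ∧ N ≤ normalizer (H : Set L) := by
  classical
  set c := fun i => iterCommutator N G i
  have hcard := iter_card_of_top hN hG hGN hn h
  have hcov : ∀ i < n, ∀ X : Subgroup L, c (i + 1) ≤ X → X ≤ c i → ¬ X ≤ c (i + 1) → X = c i := by
    intro i hi X h1 h2 h3
    refine eq_of_le_of_card_ge h2 ?_
    obtain ⟨a, ha⟩ := IsPGroup.iff_card.mp (hN.to_le (h2.trans (iter_facts hGN i).1))
    have hlt : Nat.card (c (i + 1)) < Nat.card X :=
      Set.ncard_lt_ncard (SetLike.coe_ssubset_coe.mpr (lt_of_le_of_ne h1 fun e => h3 e.ge)) (Set.toFinite _)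
    rw [hcard (i + 1) (by omega), ha, Nat.pow_lt_pow_iff_right hp.out.one_lt] at hlt
    rw [hcard i (by omega), ha]
    exact Nat.pow_le_pow_right hp.out.pos (by omega)
  have hne : ∀ i < n, ¬ c i ≤ c (i + 1) := fun i hi hle => by
    have := card_le_of_le hle
    rw [hcard i (by omega), hcard (i + 1) (by omega)] at this
    exact absurd this (not_le.mpr (Nat.pow_lt_pow_right hp.out.one_lt (by omega)))
  have hbotn : c n = ⊥ := iter_bot hN hG hGN hn
  -- every term is normal in N with central factors
  have hcentral : ∀ d i, i + d = n → N ≤ normalizer (c i : Set L) ∧ (1 ≤ d → ⁅c i, N⁆ ≤ c (i + 1)) := by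
    intro d
    induction d with
    | zero =>
      intro i hi
      rw [show i = n by omega, hbotn]
      exact ⟨by rw [normalizer_eq_top]; exact le_top, fun h => absurd h (by omega)⟩
    | succ d ih =>
      intro i hi
      obtain ⟨hnorm, -⟩ := ih (i + 1) (by omega)
      suffices hc : ⁅c i, N⁆ ≤ c (i + 1) from
        ⟨le_normalizer_iff_commutator_le_left.mpr (hc.trans (iter_succ_le hGN i)), fun _ => hc⟩
      set X := N ⊔ G with hX
      have hKn : X ≤ normalizer (c (i + 1) : Set L) := sup_le hnorm (iter_facts hGN (i + 1)).2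
      have hXp : IsPGroup p X := hN.to_sup_of_normal_left' hG hGN
      let K := (c (i + 1)).subgroupOf X
      have : K.Normal := normal_subgroupOf_of_le_normalizer hKn
      let π := QuotientGroup.mk' K
      let Nb := (N.subgroupOf X).map π
      have : (N.subgroupOf X).Normal := normal_subgroupOf_of_le_normalizer (sup_le le_normalizer hGN)
      have : Nb.Normal := Normal.map this π (QuotientGroup.mk'_surjective K)
      have hNbne : Nb ≠ ⊥ := by
        intro e
        rw [Subgroup.map_eq_bot_iff, QuotientGroup.ker_mk'] at e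
        refine hne i (by omega) fun x hx => ?_
        exact e (show (⟨x, mem_sup_left ((iter_facts hGN i).1 hx)⟩ : X) ∈ N.subgroupOf X from
          (iter_facts hGN i).1 hx)
      obtain ⟨zb, hzN, hzc, hzo⟩ := Lib.Thompson.exists_central_order_p (hXp.to_quotient K) hNbne
      obtain ⟨z, hzN', rfl⟩ := hzN
      have hz1 : (z : L) ∉ c (i + 1) := fun hm => by
        rw [show π z = 1 from (QuotientGroup.eq_one_iff z).2 hm, orderOf_one] at hzo
        exact hp.out.ne_one hzo.symm
      have hzcomm : ∀ y ∈ X, ⁅(z : L), y⁆ ∈ c (i + 1) := fun y hy => by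
        have h1 : π ⁅z, (⟨y, hy⟩ : X)⁆ = 1 := by
          rw [map_commutatorElement, commutatorElement_eq_one_iff_commute]
          exact (mem_center_iff.mp hzc _).symm
        exact ((QuotientGroup.eq_one_iff (G := X) (N := K) _).mp h1 : _)
      let Zs := zpowers (z : L) ⊔ c (i + 1)
      have hZn : zpowers (z : L) ≤ normalizer (c (i + 1) : Set L) := zpowers_le.mpr (hKn z.2)
      have hZs : ∀ y ∈ X, ∀ u ∈ Zs, ⁅u, y⁆ ∈ c (i + 1) := by
        intro y hy u hu
        rw [← SetLike.mem_coe, coe_mul_of_left_le_normalizer_right _ _ hZn] at hu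
        obtain ⟨a, ⟨m, rfl⟩, w, hw, rfl⟩ := hu
        let π' : X →* X ⧸ K := π
        have h1 : π' ⁅z ^ m * ⟨w, mem_sup_left ((iter_facts hGN (i + 1)).1 hw)⟩, (⟨y, hy⟩ : X)⁆ = 1 := by
          rw [map_commutatorElement, map_mul, map_zpow,
            show π' ⟨w, mem_sup_left ((iter_facts hGN (i + 1)).1 hw)⟩ = 1 from (QuotientGroup.eq_one_iff _).2 hw,
            mul_one, commutatorElement_eq_one_iff_commute]
          exact (Commute.zpow_left (mem_center_iff.mp hzc _).symm m)
        exact ((QuotientGroup.eq_one_iff (G := X) (N := K) _).mp h1 : _)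
      -- `z` lies in `c i`
      have hzi : (z : L) ∈ c i := by
        by_contra hzi
        obtain ⟨j, hjm, hj1, hj2⟩ : ∃ j, j < i ∧ (z : L) ∈ c j ∧ (z : L) ∉ c (j + 1) := by
          have hex : ∃ j, (z : L) ∉ c j := ⟨i, hzi⟩
          have hf := Nat.find_spec hex
          have h0 : Nat.find hex ≠ 0 := fun e => by rw [e] at hf; exact hf hzN'
          refine ⟨Nat.find hex - 1, ?_, ?_, ?_⟩
          · have := Nat.find_le (h := hex) hzi; omega
          · exact not_not.mp (Nat.find_min hex (by omega))
          · rwa [show Nat.find hex - 1 + 1 = Nat.find hex by omega]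
        have hsup : zpowers (z : L) ⊔ c (j + 1) = c j :=
          hcov j (by omega) _ le_sup_right (sup_le (zpowers_le.mpr hj1) (iter_succ_le hGN j))
            (fun e => hj2 (e (mem_sup_left (mem_zpowers _))))
        refine hne (j + 1) (by omega) ?_
        show ⁅c j, G⁆ ≤ c (j + 2)
        have hzn' : zpowers (z : L) ≤ normalizer (c (j + 1) : Set L) :=
          zpowers_le.mpr ((normalizer_commutator_ge_left (c j) G) hj1)
        rw [← hsup, commutator_le]
        intro u hu g hg
        rw [← SetLike.mem_coe, coe_mul_of_left_le_normalizer_right _ _ hzn'] at hu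
        obtain ⟨a, ha, w, hw, rfl⟩ := hu
        have hle : c (i + 1) ≤ c (j + 2) := iter_anti hGN (by omega)
        have hwg : ⁅w, g⁆ ∈ c (j + 2) := commutator_mem_commutator hw hg
        have haX : a ∈ Zs := mem_sup_left ha
        rw [show ⁅a * w, g⁆ = ⁅a, ⁅w, g⁆⁆ * ⁅w, g⁆ * ⁅a, g⁆ by simp only [commutatorElement_def]; group]
        exact mul_mem (mul_mem (hle (hZs _ (mem_sup_left ((iter_facts hGN (j + 2)).1 hwg)) a haX)) hwg)
          (hle (hZs g (mem_sup_right hg) a haX))
      have hsup : Zs = c i := hcov i (by omega) _ le_sup_right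
        (sup_le (zpowers_le.mpr hzi) (iter_succ_le hGN i)) (fun e => hz1 (e (mem_sup_left (mem_zpowers _))))
      rw [← hsup, commutator_le]
      exact fun u hu y hy => hZs y (mem_sup_left hy) u hu
  have hnormal : ∀ i ≤ n, N ≤ normalizer (c i : Set L) := fun i hi => (hcentral (n - i) i (by omega)).1
  classical
  intro H hH hGH
  suffices hex : ∃ i ≤ n, H = c i by
    obtain ⟨i, hi, rfl⟩ := hex
    exact ⟨⟨i, hi, rfl⟩, hnormal i hi⟩
  by_cases hHb : H = ⊥
  · exact ⟨n, le_rfl, hHb.trans hbotn.symm⟩
  obtain ⟨i, hi, h1, h2⟩ : ∃ i, i < n ∧ H ≤ c i ∧ ¬ H ≤ c (i + 1) := by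
    have hex : ∃ j, ¬ H ≤ c j := ⟨n, fun e => hHb (le_bot_iff.mp (hbotn ▸ e))⟩
    have hf := Nat.find_spec hex
    have h0 : Nat.find hex ≠ 0 := fun e => by rw [e] at hf; exact hf hH
    refine ⟨Nat.find hex - 1, ?_, not_not.mp (Nat.find_min hex (by omega)), ?_⟩
    · have := Nat.find_le (h := hex) (n := n) (fun e => hHb (le_bot_iff.mp (hbotn ▸ e))); omega
    · rwa [show Nat.find hex - 1 + 1 = Nat.find hex by omega]
  have hstep : ∀ j, i + 1 ≤ j → j ≤ n → c (j - 1) ≤ H ⊔ c j := by
    intro j hj
    induction j, hj using Nat.le_induction with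
    | base =>
      intro _
      rw [Nat.add_sub_cancel]
      exact (hcov i hi _ le_sup_right (sup_le h1 (iter_succ_le hGN i)) (fun e => h2 (le_sup_left.trans e))).ge
    | succ j hj ih =>
      intro hjn
      rw [Nat.add_sub_cancel]
      have hprev := ih (by omega)
      have hcj : c j = ⁅c (j - 1), G⁆ := by
        show iterCommutator N G j = _
        conv_lhs => rw [show j = j - 1 + 1 by omega]
        rfl
      rw [hcj, commutator_le]
      intro u hu g hg
      have hu' := hprev hu
      suffices key : H ⊔ c j ≤ normalizer ((H ⊔ c (j + 1) : Subgroup L) : Set L) ∧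
          ∀ v ∈ H ⊔ c j, ⁅v, g⁆ ∈ H ⊔ c (j + 1) from key.2 u hu'
      have hnn : H ⊔ c j ≤ normalizer ((H ⊔ c (j + 1) : Subgroup L) : Set L) := by
        refine sup_le (le_sup_left.trans le_normalizer) fun w hw => ?_
        refine mem_normalizer_iff.mpr fun x => ?_
        have hfwd : ∀ w ∈ c j, ∀ x ∈ H ⊔ c (j + 1), w * x * w⁻¹ ∈ H ⊔ c (j + 1) := by
          intro w hw x hx
          rw [show w * x * w⁻¹ = ⁅w, x⁆ * x by rw [commutatorElement_def]; group]
          refine mul_mem (mem_sup_right ((hcentral (n - j) j (by omega)).2 (by omega)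
            (commutator_mem_commutator hw ?_))) hx
          exact sup_le hH (iter_facts hGN (j + 1)).1 hx
        refine ⟨hfwd w hw x, fun hx => ?_⟩
        have := hfwd w⁻¹ (inv_mem hw) _ hx
        simpa [mul_assoc] using this
      refine ⟨hnn, fun v hv => ?_⟩
      rw [sup_eq_closure] at hv
      induction hv using closure_induction with
      | mem v hv =>
        rcases hv with hv | hv
        · exact mem_sup_left ((le_normalizer_iff_commutator_le_left.mp hGH) (commutator_mem_commutator hv hg))
        · exact mem_sup_right (commutator_mem_commutator hv hg)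
      | one => rw [commutatorElement_one_left]; exact one_mem _
      | mul a b ha hb iha ihb =>
        rw [show ⁅a * b, g⁆ = a * ⁅b, g⁆ * a⁻¹ * ⁅a, g⁆ by simp only [commutatorElement_def]; group]
        exact mul_mem ((mem_normalizer_iff.mp (hnn (by rwa [sup_eq_closure])) _).mp ihb) iha
      | inv a ha iha =>
        rw [show ⁅a⁻¹, g⁆ = a⁻¹ * ⁅a, g⁆⁻¹ * a⁻¹⁻¹ by simp only [commutatorElement_def]; group]
        exact (mem_normalizer_iff.mp (hnn (inv_mem (by rwa [sup_eq_closure]))) _).mp (inv_mem iha)
  have hchain : ∀ j, i ≤ j → j ≤ n → c i ≤ H ⊔ c j := by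
    intro j hj
    induction j, hj using Nat.le_induction with
    | base => intro _; exact le_sup_right
    | succ j hj ih =>
      intro hjn
      refine (ih (by omega)).trans (sup_le le_sup_left ?_)
      have := hstep (j + 1) (by omega) hjn
      rwa [Nat.add_sub_cancel] at this
  refine ⟨i, by omega, le_antisymm h1 ?_⟩
  have := hchain n (by omega) le_rfl
  rwa [hbotn, sup_bot_eq] at this


/-- A p-group acts uniserially on a p-group N of order p^n exactly when the iterated commutator chain from N has length n; in that case the chain terms are all the invariant subgroups of N and they are normal in N. -/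
theorem result {L : Type*} [Group L] [Finite L] {p : ℕ} [Fact p.Prime] (N G : Subgroup L) (hN : IsPGroup p N) (hG : IsPGroup p G) (hGN : G ≤ Subgroup.normalizer (N : Set L)) (n : ℕ) (hn : Nat.card N = p ^ n) : ((∀ H : Subgroup L, H ≤ N → G ≤ Subgroup.normalizer (H : Set L) → H ≠ ⊥ → (⁅H, G⁆).relIndex H = p) ↔ Cfsg.iterCommutator N G (n - 1) ≠ ⊥ ∨ n = 0) ∧ ((∀ H : Subgroup L, H ≤ N → G ≤ Subgroup.normalizer (H : Set L) → H ≠ ⊥ → (⁅H, G⁆).relIndex H = p) → ∀ H : Subgroup L, H ≤ N → G ≤ Subgroup.normalizer (H : Set L) → (∃ i ≤ n, H = Cfsg.iterCommutator N G i) ∧ N ≤ Subgroup.normalizer (H : Set L)) := by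
  have hiff : (∀ H : Subgroup L, H ≤ N → G ≤ Subgroup.normalizer (H : Set L) → H ≠ ⊥ → (⁅H, G⁆).relIndex H = p) ↔
      Cfsg.iterCommutator N G (n - 1) ≠ ⊥ ∨ n = 0 := by
    constructor
    · intro h
      rcases Nat.eq_zero_or_pos n with h0 | h0
      · exact Or.inr h0
      left
      have key : ∀ i ≤ n, Nat.card (Cfsg.iterCommutator N G i) = p ^ (n - i) := by
        intro i
        induction i with
        | zero => intro _; rw [Nat.sub_zero]; exact hn
        | succ i ih =>
          intro hi
          have hc := ih (by omega)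
          have hne : Cfsg.iterCommutator N G i ≠ ⊥ := fun e => by
            rw [e, card_bot] at hc
            exact absurd hc.symm (Nat.one_lt_pow (by omega) (Fact.out : p.Prime).one_lt).ne'
          have hrel := h _ (iter_facts hGN i).1 (iter_facts hGN i).2 hne
          have hm : Nat.card (Cfsg.iterCommutator N G (i + 1)) * p = p ^ (n - i) := by
            rw [← hc]
            conv_lhs => arg 2; rw [← hrel]
            rw [relIndex, ← Lib.Coprime.card_subgroupOf (iter_succ_le hGN i)]
            exact card_mul_index _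
          rw [show n - i = n - (i + 1) + 1 by omega, pow_succ] at hm
          exact Nat.eq_of_mul_eq_mul_right (Fact.out : p.Prime).pos hm
      intro e
      have := key (n - 1) (by omega)
      rw [e, card_bot] at this
      exact absurd this.symm (Nat.one_lt_pow (by omega) (Fact.out : p.Prime).one_lt).ne'
    · intro h H hH hGH hne
      obtain ⟨⟨i, hi, rfl⟩, -⟩ := main_structure hN hG hGN hn h H hH hGH
      have hin : i < n := lt_of_le_of_ne hi fun e => hne (e ▸ iter_bot hN hG hGN hn)
      refine relIndex_of_card (iter_succ_le hGN i) (a := n - (i + 1)) ?_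
        (iter_card_of_top hN hG hGN hn h (i + 1) (by omega))
      rw [iter_card_of_top hN hG hGN hn h i hi, show n - i = n - (i + 1) + 1 by omega]
  exact ⟨hiff, fun h H hH hGH => main_structure hN hG hGN hn (hiff.mp h) H hH hGH⟩

end Cfsg.Agent.S0663
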