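import Cfsg.Statements.S0666
import Cfsg.Agent.Lib.FPF.Frobenius
import Cfsg.Agent.Lib.Hall.Frobenius

set_option autoImplicit false
open Cfsg Subgroup
open scoped Pointwise commutatorElement

namespace Cfsg.Agent.S0666

/-- A Frobenius group acting on a nontrivial abelian group of order prime to that of its kernel, with the kernel acting without nontrivial fixed points, has a complement with a nontrivial fixed point. -/
theorem result {G : Type*} [Group G] [Finite G] (V F : Subgroup G) (hVab : IsMulCommutative V) (hV1 : V ≠ ⊥) (hFV : F ≤ Subgroup.normalizer (V : Set G)) (H : Subgroup ↥F) (hH : Cfsg.IsFrobeniusComplement H) (hcop : (Nat.card V).Coprime (Nat.card (Cfsg.frobeniusKernel H))) (hCK : V ⊓ Subgroup.centralizer (Subtype.val '' Cfsg.frobeniusKernel H : Set G) = ⊥) : V ⊓ Subgroup.centralizer ((H.map F.subtype : Subgroup G) : Set G) ≠ ⊥ := by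
  classical
  intro hbot
  obtain ⟨N, hNK, hNn, hNH⟩ := Lib.FPF.exists_frobenius_kernel hH
  have : IsMulCommutative V := hVab
  letI : CommGroup V := { (inferInstance : Group V) with mul_comm := fun a b => mul_comm' a b }
  have := Fintype.ofFinite ↥F
  have := Fintype.ofFinite ↥N
  have := Fintype.ofFinite ↥H
  let act : ↥F → V → V := fun x v => ⟨(x : G) * v * (x : G)⁻¹, (mem_normalizer_iff.mp (hFV x.2) v).mp v.2⟩
  have act_mul : ∀ x y v, act (x * y) v = act x (act y v) := fun x y v => Subtype.ext (by simp [act, mul_assoc])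
  have act_prod : ∀ (x : ↥F) {ι : Type _} (s : Finset ι) (f : ι → V),
      act x (∏ i ∈ s, f i) = ∏ i ∈ s, act x (f i) := by
    intro x ι s f
    induction s using Finset.induction with
    | empty => exact Subtype.ext (by simp [act])
    | insert i s hi ih =>
      rw [Finset.prod_insert hi, Finset.prod_insert hi, ← ih]
      exact Subtype.ext (by simp [act, mul_assoc])
  -- products over the kernel are trivial
  have hN1 : ∀ w : V, ∏ k : ↥N, act k w = 1 := by
    intro w
    have hfix : ∀ m : ↥N, act m (∏ k : ↥N, act k w) = ∏ k : ↥N, act k w := fun m => by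
      rw [act_prod]
      exact Fintype.prod_equiv (Equiv.mulLeft m) _ _ fun k => by
        rw [← act_mul]; rfl
    refine Subtype.ext (mem_bot.mp (hCK ▸ ⟨SetLike.coe_mem _, mem_centralizer_iff.mpr ?_⟩))
    rintro _ ⟨m, hm, rfl⟩
    rw [← hNK] at hm
    have h := congrArg Subtype.val (hfix ⟨m, hm⟩)
    simp only [act] at h
    exact mul_inv_eq_iff_eq_mul.mp h
  -- products over a conjugate of the complement are trivial
  have hH1 : ∀ (k : ↥F) (w : V), ∏ h : ↥H, act (k * h * k⁻¹) w = 1 := by
    intro k w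
    have key : ∀ u : V, ∏ h : ↥H, act h u = 1 := by
      intro u
      have hfix : ∀ m : ↥H, act m (∏ h : ↥H, act h u) = ∏ h : ↥H, act h u := fun m => by
        rw [act_prod]
        exact Fintype.prod_equiv (Equiv.mulLeft m) _ _ fun h => by
          rw [← act_mul]; rfl
      refine Subtype.ext (mem_bot.mp (hbot ▸ ⟨SetLike.coe_mem _, mem_centralizer_iff.mpr ?_⟩))
      rintro _ ⟨m, hm, rfl⟩
      have h := congrArg Subtype.val (hfix ⟨m, hm⟩)
      simp only [act] at h
      exact mul_inv_eq_iff_eq_mul.mp h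
    simp only [act_mul]
    rw [← act_prod, key]
    exact Subtype.ext (by simp [act])
  -- double counting
  have : Nontrivial V := (nontrivial_iff_ne_bot V).mpr hV1
  obtain ⟨v, hv1⟩ := exists_ne (1 : V)
  have hmain : ∏ k : ↥N, ∏ h : ↥H, act ((k : ↥F) * h * (k : ↥F)⁻¹) v = v ^ Nat.card ↥N := by
    rw [Finset.prod_comm, Finset.prod_eq_single (1 : ↥H)]
    · rw [Nat.card_eq_fintype_card, ← Finset.card_univ, ← Finset.prod_const]
      refine Finset.prod_congr rfl fun k _ => Subtype.ext ?_
      simp [act]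
    · intro h _ hne
      let c : ↥N → ↥N := fun k => ⟨(k : ↥F) * ((h : ↥F) * (k : ↥F)⁻¹ * (h : ↥F)⁻¹),
        N.mul_mem k.2 (hNn.conj_mem _ (N.inv_mem k.2) _)⟩
      have hc : Function.Injective c := by
        intro a b hab
        have he : (a : ↥F) * ((h : ↥F) * (a : ↥F)⁻¹ * (h : ↥F)⁻¹) =
            (b : ↥F) * ((h : ↥F) * (b : ↥F)⁻¹ * (h : ↥F)⁻¹) := congrArg Subtype.val hab
        have hcen : (b : ↥F)⁻¹ * (a : ↥F) ∈ centralizer ({(h : ↥F)} : Set ↥F) := by
          rw [mem_centralizer_singleton_iff]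
          calc (b : ↥F)⁻¹ * a * h = (b : ↥F)⁻¹ * (a * (h * (a : ↥F)⁻¹ * (h : ↥F)⁻¹)) * (h * a) := by group
            _ = (b : ↥F)⁻¹ * (b * (h * (b : ↥F)⁻¹ * (h : ↥F)⁻¹)) * (h * a) := by rw [he]
            _ = _ := by group
        have hmem : (b : ↥F)⁻¹ * (a : ↥F) ∈ N ⊓ H := ⟨N.mul_mem (N.inv_mem b.2) a.2,
          Lib.Hall.fc_centralizer_le hH h.2 (fun e => hne (Subtype.ext e)) hcen⟩
        rw [disjoint_iff.mp hNH.disjoint, mem_bot, inv_mul_eq_one] at hmem
        exact Subtype.ext hmem.symm
      rw [← hN1 (act h v)]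
      exact Fintype.prod_bijective c (Finite.injective_iff_bijective.mp hc) _ _ fun k => by
        rw [← act_mul]
        congr 1
        simp [c, mul_assoc]
    · simp
  simp only [hH1, Finset.prod_const_one] at hmain
  have hord : orderOf v ∣ 1 := by
    have hcard : Nat.card ↥N = Nat.card (Cfsg.frobeniusKernel H) := by rw [← hNK]; rfl
    rw [← hcop.gcd_eq_one]
    exact Nat.dvd_gcd (orderOf_dvd_natCard v) (hcard ▸ orderOf_dvd_of_pow_eq_one hmain.symm)
  exact hv1 (orderOf_eq_one_iff.mp (Nat.dvd_one.mp hord))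

end Cfsg.Agent.S0666
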