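import Cfsg.Statements.S0668
import Cfsg.Agent.Lib.Perm.Modules

set_option autoImplicit false
open Cfsg

namespace Cfsg.Agent.S0668

/-- The equivariant linear maps between the permutation modules of two finite `G`-sets form a space whose dimension is the number of `G`-orbits on the product of the two sets. -/
theorem result {G : Type*} [Group G] {K : Type*} [Field K] {Ω₁ Ω₂ : Type*} [Fintype Ω₁] [Fintype Ω₂] [MulAction G Ω₁] [MulAction G Ω₂] : Module.finrank K ((Cfsg.permRep K G Ω₁).linHom (Cfsg.permRep K G Ω₂)).invariants = Nat.card (MulAction.orbitRel.Quotient G (Ω₁ × Ω₂)) := by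
  classical
  have key : ∀ A : (Ω₁ → K) →ₗ[K] (Ω₂ → K),
      A ∈ ((Cfsg.permRep K G Ω₁).linHom (Cfsg.permRep K G Ω₂)).invariants ↔
        ∀ (g : G) x y, A (Pi.single (g • x) 1) (g • y) = A (Pi.single x 1) y := by
    intro A
    have hs : ∀ (g : G) (x : Ω₁), Cfsg.permRep K G Ω₁ g⁻¹ (Pi.single (g • x) (1 : K)) =
        Pi.single x (1 : K) := fun g x => funext fun z => by
      rw [Lib.Perm.permRep_apply, inv_inv]
      by_cases hz : z = x
      · subst hz; simp
      · rw [Pi.single_eq_of_ne hz, Pi.single_eq_of_ne (fun h => hz (MulAction.injective g h))]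
    rw [Representation.mem_invariants]
    constructor
    · intro h g x y
      have := congrFun (LinearMap.congr_fun (h g) (Pi.single (g • x) 1)) (g • y)
      rw [Representation.linHom_apply, LinearMap.comp_apply, LinearMap.comp_apply, hs,
        Lib.Perm.permRep_apply, inv_smul_smul] at this
      exact this.symm
    · intro h g
      refine (Pi.basisFun K Ω₁).ext fun x => funext fun y => ?_
      rw [Pi.basisFun_apply, Representation.linHom_apply, LinearMap.comp_apply, LinearMap.comp_apply]
      conv_lhs => rw [← smul_inv_smul g x, hs, Lib.Perm.permRep_apply]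
      rw [← h g (g⁻¹ • x) (g⁻¹ • y), smul_inv_smul, smul_inv_smul]
  have hq : ∀ (φ : MulAction.orbitRel.Quotient G (Ω₁ × Ω₂) → K) (g : G) (x : Ω₁) (y : Ω₂),
      φ (Quotient.mk'' (g • x, g • y)) = φ (Quotient.mk'' (x, y)) := fun φ g x y => by
    rw [Quotient.sound' (⟨g, rfl⟩ : (g • x, g • y) ∈ MulAction.orbit G (x, y))]
  have e : ((Cfsg.permRep K G Ω₁).linHom (Cfsg.permRep K G Ω₂)).invariants ≃ₗ[K]
      (MulAction.orbitRel.Quotient G (Ω₁ × Ω₂) → K) :=
    { toFun := fun A q => Quotient.liftOn' q (fun z => A.1 (Pi.single z.1 1) z.2) (by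
        rintro a b ⟨g, rfl⟩
        exact (key A.1).mp A.2 g b.1 b.2)
      map_add' := fun A B => funext fun q => by
        induction q using Quotient.inductionOn' with | h z => rfl
      map_smul' := fun c A => funext fun q => by
        induction q using Quotient.inductionOn' with | h z => rfl
      invFun := fun φ => ⟨Lib.Perm.kernelMap fun y x => φ (Quotient.mk'' (x, y)), (key _).mpr fun g x y => by
        rw [Lib.Perm.kernelMap_single, Lib.Perm.kernelMap_single]
        exact hq φ g x y⟩
      left_inv := fun A => Subtype.ext ((Pi.basisFun K Ω₁).ext fun x => funext fun y => by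
        rw [Pi.basisFun_apply, Lib.Perm.kernelMap_single]
        rfl)
      right_inv := fun φ => funext fun q => by
        induction q using Quotient.inductionOn' with
        | h z =>
          show Lib.Perm.kernelMap _ (Pi.single z.1 (1 : K)) z.2 = _
          rw [Lib.Perm.kernelMap_single] }
  have := Fintype.ofFinite (MulAction.orbitRel.Quotient G (Ω₁ × Ω₂))
  rw [e.finrank_eq, Module.finrank_pi, Nat.card_eq_fintype_card]

end Cfsg.Agent.S0668
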