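import Cfsg.Statements.S0672
import Cfsg.Agent.Lib.Perm.Modules
import Mathlib.GroupTheory.Perm.Cycle.Type

set_option autoImplicit false
open Cfsg

namespace Cfsg.Agent.S0672

/-- Ordered triples of distinct points in the same orbit. -/
def Rel (G : Type*) [Group G] {Ω : Type*} [MulAction G Ω] (t u : Ω × Ω × Ω) : Prop :=
  u ∈ MulAction.orbit G t

theorem three_trans {G : Type*} [Group G] [Finite G] {Ω : Type*} [MulAction G Ω]
    [FaithfulSMul G Ω] (h2 : ∀ a b c d : Ω, a ≠ b → c ≠ d → ∃ g : G, g • a = c ∧ g • b = d)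
    (heven : ∀ a : Ω, Even (Nat.card (MulAction.stabilizer G a)))
    (hset : ∀ a b x x' : Ω, a ≠ b → x ≠ a → x ≠ b → x' ≠ a → x' ≠ b →
      Rel G (a, b, x) (a, b, x') ∨ Rel G (a, b, x) (b, a, x'))
    (t u : Ω × Ω × Ω) (ht : t.1 ≠ t.2.1 ∧ t.1 ≠ t.2.2 ∧ t.2.1 ≠ t.2.2)
    (hu : u.1 ≠ u.2.1 ∧ u.1 ≠ u.2.2 ∧ u.2.1 ≠ u.2.2) : Rel G t u := by
  classical
  have symm' : ∀ {a b : Ω × Ω × Ω}, Rel G a b → Rel G b a := fun h => MulAction.mem_orbit_symm.mp h
  have trans' : ∀ {a b c : Ω × Ω × Ω}, Rel G a b → Rel G b c → Rel G a c := fun h h' => by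
    rw [Rel, ← MulAction.orbit_eq_iff.mpr h]; exact h'
  have hS12 : ∀ {a b : Ω × Ω × Ω}, Rel G a b → Rel G (a.2.1, a.1, a.2.2) (b.2.1, b.1, b.2.2) := by
    rintro a b ⟨g, rfl⟩; exact ⟨g, rfl⟩
  have hS23 : ∀ {a b : Ω × Ω × Ω}, Rel G a b → Rel G (a.1, a.2.2, a.2.1) (b.1, b.2.2, b.2.1) := by
    rintro a b ⟨g, rfl⟩; exact ⟨g, rfl⟩
  -- at most two orbits
  have two : ∀ t u : Ω × Ω × Ω, (t.1 ≠ t.2.1 ∧ t.1 ≠ t.2.2 ∧ t.2.1 ≠ t.2.2) →
      (u.1 ≠ u.2.1 ∧ u.1 ≠ u.2.2 ∧ u.2.1 ≠ u.2.2) →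
      Rel G t u ∨ Rel G t (u.2.1, u.1, u.2.2) := by
    intro t u ht hu
    obtain ⟨g, hg1, hg2⟩ := h2 t.1 t.2.1 u.1 u.2.1 ht.1 hu.1
    have h1 : Rel G t (u.1, u.2.1, g • t.2.2) := ⟨g, Prod.ext hg1 (Prod.ext hg2 rfl)⟩
    rcases hset u.1 u.2.1 (g • t.2.2) u.2.2 hu.1
        (fun e => ht.2.1 (MulAction.injective g (hg1.trans e.symm)))
        (fun e => ht.2.2 (MulAction.injective g (hg2.trans e.symm))) (Ne.symm hu.2.1)
        (Ne.symm hu.2.2) with h' | h'
    · exact Or.inl (trans' h1 h')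
    · exact Or.inr (trans' h1 h')
  -- a triple fixed by interchanging the last two points
  obtain ⟨σ, hσ⟩ : ∃ σ : MulAction.stabilizer G t.1, orderOf σ = 2 := by
    have : Fact (Nat.Prime 2) := ⟨Nat.prime_two⟩
    exact exists_prime_orderOf_dvd_card' 2 (even_iff_two_dvd.mp (heven t.1))
  obtain ⟨z, hz⟩ : ∃ z : Ω, (σ : G) • z ≠ z := by
    by_contra hh
    push Not at hh
    have h1 : (σ : G) = 1 := eq_of_smul_eq_smul (α := Ω) fun z => by rw [hh z, one_smul]
    rw [← Subgroup.orderOf_coe, h1, orderOf_one] at hσ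
    omega
  have hσa : (σ : G) • t.1 = t.1 := σ.2
  have hσσ : (σ : G) • (σ : G) • z = z := by
    rw [← mul_smul, ← pow_two, ← hσ, ← Subgroup.coe_pow, pow_orderOf_eq_one]
    exact one_smul G z
  let t₀ : Ω × Ω × Ω := (t.1, z, (σ : G) • z)
  have hd₀ : t₀.1 ≠ t₀.2.1 ∧ t₀.1 ≠ t₀.2.2 ∧ t₀.2.1 ≠ t₀.2.2 := by
    refine ⟨fun e => hz ?_, fun e => hz ?_, Ne.symm hz⟩
    · show (σ : G) • z = z
      rw [← show t.1 = z from e, hσa]
    · have hzz : z = t.1 := MulAction.injective (σ : G) ((show t.1 = (σ : G) • z from e).symm.trans hσa.symm)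
      show (σ : G) • z = z
      rw [hzz, hσa]
  have hfix : Rel G t₀ (t₀.1, t₀.2.2, t₀.2.1) :=
    ⟨(σ : G), Prod.ext hσa (Prod.ext rfl hσσ)⟩
  -- one orbit
  have one : Rel G t₀ (t₀.2.1, t₀.1, t₀.2.2) := by
    by_contra hno
    let f : Ω × Ω × Ω → Prop := fun v => Rel G t₀ v
    have f12 : ∀ v : Ω × Ω × Ω, (v.1 ≠ v.2.1 ∧ v.1 ≠ v.2.2 ∧ v.2.1 ≠ v.2.2) →
        (f (v.2.1, v.1, v.2.2) ↔ ¬ f v) := by
      intro v hv
      rcases two t₀ v hd₀ hv with h | h
      · exact ⟨fun h' => absurd (trans' h' (symm' (hS12 h))) hno, fun h' => absurd h h'⟩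
      · exact ⟨fun _ h' => hno (trans' h (symm' (hS12 h'))), fun _ => h⟩
    have f23 : ∀ v : Ω × Ω × Ω, (v.1 ≠ v.2.1 ∧ v.1 ≠ v.2.2 ∧ v.2.1 ≠ v.2.2) →
        f v → f (v.1, v.2.2, v.2.1) := fun v _ h => trans' hfix (hS23 h)
    have f23' : ∀ v : Ω × Ω × Ω, (v.1 ≠ v.2.1 ∧ v.1 ≠ v.2.2 ∧ v.2.1 ≠ v.2.2) →
        (f (v.1, v.2.2, v.2.1) ↔ f v) := fun v hv =>
      ⟨fun h => f23 (v.1, v.2.2, v.2.1) ⟨hv.2.1, hv.1, Ne.symm hv.2.2⟩ h, f23 v hv⟩
    obtain ⟨a, b, c⟩ := t₀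
    obtain ⟨hab, hac, hbc⟩ := hd₀
    have h0 : f (a, b, c) := ⟨1, one_smul _ _⟩
    -- two ways of reaching (c, b, a)
    have p1 : ¬ f (b, a, c) := fun h => (f12 (a, b, c) ⟨hab, hac, hbc⟩).mp h h0
    have p2 : ¬ f (b, c, a) := fun h => p1 ((f23' (b, a, c) ⟨Ne.symm hab, hbc, hac⟩).mp h)
    have p3 : f (c, b, a) := (f12 (b, c, a) ⟨hbc, Ne.symm hab, Ne.symm hac⟩).mpr p2
    have q1 : f (a, c, b) := f23 (a, b, c) ⟨hab, hac, hbc⟩ h0
    have q2 : ¬ f (c, a, b) := fun h => (f12 (a, c, b) ⟨hac, hab, Ne.symm hbc⟩).mp h q1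
    exact q2 ((f23' (c, a, b) ⟨Ne.symm hac, Ne.symm hbc, hab⟩).mp p3)
  have all : ∀ v : Ω × Ω × Ω, (v.1 ≠ v.2.1 ∧ v.1 ≠ v.2.2 ∧ v.2.1 ≠ v.2.2) → Rel G t₀ v := by
    intro v hv
    rcases two t₀ v hd₀ hv with h | h
    · exact h
    · exact trans' one (hS12 h)
  exact trans' (symm' (all t ht)) (all u hu)

open scoped Pointwise

theorem mem_pair {Ω : Type*} [DecidableEq Ω] {z a b : Ω} (h : z ∈ ({a, b} : Finset Ω)) :
    z = a ∨ z = b := by simpa using h


/-- Let a finite group act faithfully and doubly transitively with point stabilisers of even order, and let `K` have characteristic `p` dividing the degree. If the heart of the permutation module admits no non-zero equivariant map to the permutation module on unordered pairs (phrased: every intertwining map from the sum-zero functions vanishing on the constants is zero), the action is triply transitive. -/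
theorem result {G : Type*} [Group G] [Finite G] {K : Type*} [Field K] {p : ℕ} [Fact p.Prime] [CharP K p] {Ω : Type*} [Fintype Ω] [DecidableEq Ω] [MulAction G Ω] [FaithfulSMul G Ω] (h2 : MulAction.IsMultiplyPretransitive G Ω 2) (hp : p ∣ Fintype.card Ω) (heven : ∀ a : Ω, Even (Nat.card (MulAction.stabilizer G a))) (h : ∀ f : Representation.IntertwiningMap (Cfsg.permSumZero K G Ω).toRepresentation (Cfsg.permRep K G (Set.powersetCard Ω 2)), (∀ v : (Cfsg.permSumZero K G Ω).toSubmodule, (v : Ω → K) ∈ (Cfsg.permConstants K G Ω).toSubmodule → f v = 0) → f = 0) : MulAction.IsMultiplyPretransitive G Ω 3 := by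
  classical
  have h2' : ∀ a b c d : Ω, a ≠ b → c ≠ d → ∃ g : G, g • a = c ∧ g • b = d :=
    fun a b c d hab hcd => MulAction.is_two_pretransitive_iff.mp h2 hab hcd
  have hset : ∀ a b x x' : Ω, a ≠ b → x ≠ a → x ≠ b → x' ≠ a → x' ≠ b →
      Rel G (a, b, x) (a, b, x') ∨ Rel G (a, b, x) (b, a, x') := by
    intro a b x x' hab hxa hxb hxa' hxb'
    by_contra hno
    push Not at hno
    let P : Set.powersetCard Ω 2 := ⟨{a, b}, Finset.card_pair hab⟩
    have hP : ∀ k : G, k • P = P → (k • a = a ∧ k • b = b) ∨ (k • a = b ∧ k • b = a) := by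
      intro k hk
      have h1 : k • a ∈ (P : Finset Ω) := by
        rw [← hk, Set.powersetCard.coe_smul]
        exact Finset.smul_mem_smul_finset (by simp [P])
      have h3 : k • b ∈ (P : Finset Ω) := by
        rw [← hk, Set.powersetCard.coe_smul]
        exact Finset.smul_mem_smul_finset (by simp [P])
      have hne : k • a ≠ k • b := fun e => hab (MulAction.injective k e)
      rcases mem_pair h1 with e1 | e1 <;> rcases mem_pair h3 with e3 | e3
      · exact absurd (e1.trans e3.symm) hne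
      · exact Or.inl ⟨e1, e3⟩
      · exact Or.inr ⟨e1, e3⟩
      · exact absurd (e1.trans e3.symm) hne
    have hnorel : (P, x') ∉ MulAction.orbit G (P, x) := by
      rintro ⟨k, hk⟩
      rcases hP k (congrArg Prod.fst hk) with ⟨e1, e2⟩ | ⟨e1, e2⟩
      · exact hno.1 ⟨k, Prod.ext e1 (Prod.ext e2 (congrArg Prod.snd hk :))⟩
      · exact hno.2 ⟨k, Prod.ext e1 (Prod.ext e2 (congrArg Prod.snd hk :))⟩
    let ψ : Ω → Set.powersetCard Ω 2 → Ω → K := fun z => Lib.Perm.orbitKernel G K (P, z)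
    have htrans : ∀ Q : Set.powersetCard Ω 2, ∃ g : G, g • P = Q := by
      intro Q
      obtain ⟨c, d, hcd, hQ⟩ := Finset.card_eq_two.mp Q.2
      obtain ⟨g, hg1, hg2⟩ := h2' a b c d hab hcd
      refine ⟨g, Subtype.ext ?_⟩
      rw [Set.powersetCard.coe_smul]
      show g • ({a, b} : Finset Ω) = (Q : Finset Ω)
      rw [Finset.smul_finset_insert, Finset.smul_finset_singleton, hg1, hg2, hQ]
    let n : Ω → K := fun z => ∑ w, ψ z P w
    have hn : ∀ (z : Ω) (Q : Set.powersetCard Ω 2), ∑ w, ψ z Q w = n z := by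
      intro z Q
      obtain ⟨g, rfl⟩ := htrans Q
      exact (Fintype.sum_equiv (MulAction.toPerm g) _ _
        fun w => (Lib.Perm.orbitKernel_inv (P, z) g P w).symm).symm
    obtain ⟨u, v, huv, hzero⟩ : ∃ u v : K, (u ≠ 0 ∨ v ≠ 0) ∧ u * n x + v * n x' = 0 := by
      by_cases hx : n x = 0
      · exact ⟨1, 0, Or.inl one_ne_zero, by simp [hx]⟩
      · exact ⟨-(n x'), n x, Or.inr hx, by ring⟩
    let φ : Set.powersetCard Ω 2 → Ω → K := fun Q w => u * ψ x Q w + v * ψ x' Q w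
    have hφ : ∀ (g : G) Q w, φ (g • Q) (g • w) = φ Q w := fun g Q w => by
      simp only [φ, ψ, Lib.Perm.orbitKernel_inv]
    have hrow : ∀ Q, ∑ w, φ Q w = 0 := fun Q => by
      simp only [φ, Finset.sum_add_distrib, ← Finset.mul_sum, hn, hzero]
    have hF := h (Lib.Perm.kernelIntertwiner φ hφ _) (fun w hw => by
      obtain ⟨c, hc⟩ := Lib.Perm.mem_permConstants.mp hw
      funext Q
      show Lib.Perm.kernelMap φ (w : Ω → K) Q = 0
      simp only [Lib.Perm.kernelMap_apply, hc, ← Finset.sum_mul, hrow, zero_mul])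
    have hrc := Lib.Perm.row_constant (K := K) (φ := φ) (fun w hw =>
      DFunLike.congr_fun hF (⟨w, hw⟩ : (Cfsg.permSumZero K G Ω).toSubmodule))
    have haz : ∀ z, z ≠ a → z ≠ b → ψ z P a = 0 := by
      intro z hza hzb
      refine Lib.Perm.orbitKernel_of_notMem ?_
      rintro ⟨k, hk⟩
      have e : k • z = a := congrArg Prod.snd hk
      rcases hP k (congrArg Prod.fst hk) with ⟨e1, e2⟩ | ⟨e1, e2⟩
      · exact hza (MulAction.injective k (e.trans e1.symm))
      · exact hzb (MulAction.injective k (e.trans e2.symm))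
    have h0 : φ P a = 0 := by simp only [φ, haz x hxa hxb, haz x' hxa' hxb', mul_zero, add_zero]
    have hx1 : φ P x = u := by
      have e2 : ψ x' P x = 0 := Lib.Perm.orbitKernel_of_notMem fun hm =>
        hnorel (MulAction.mem_orbit_symm.mp hm)
      simp only [φ, e2, show ψ x P x = 1 from Lib.Perm.orbitKernel_self (P, x), mul_one, mul_zero, add_zero]
    have hx2 : φ P x' = v := by
      have e2 : ψ x P x' = 0 := Lib.Perm.orbitKernel_of_notMem hnorel
      simp only [φ, e2, show ψ x' P x' = 1 from Lib.Perm.orbitKernel_self (P, x'), mul_one, mul_zero, zero_add]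
    rcases huv with hu | hv
    · exact hu (hx1.symm.trans ((hrc P x a).trans h0))
    · exact hv (hx2.symm.trans ((hrc P x' a).trans h0))
  refine ⟨fun x y => ?_⟩
  have hd : ∀ w : Fin 3 ↪ Ω, w 0 ≠ w 1 ∧ w 0 ≠ w 2 ∧ w 1 ≠ w 2 := fun w =>
    ⟨w.injective.ne (by decide), w.injective.ne (by decide), w.injective.ne (by decide)⟩
  obtain ⟨g, hg⟩ := three_trans h2' heven hset (x 0, x 1, x 2) (y 0, y 1, y 2) (hd x) (hd y)
  refine ⟨g, Function.Embedding.ext fun i => ?_⟩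
  fin_cases i
  · exact congrArg Prod.fst hg
  · exact congrArg (fun p => p.2.1) hg
  · exact congrArg (fun p => p.2.2) hg

end Cfsg.Agent.S0672
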