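import Cfsg.Statements.S0674
import Cfsg.Agent.Lib.Perm.Burnside

set_option autoImplicit false
open Cfsg

namespace Cfsg.Agent.S0674

/-- Let `G` be a non-solvable transitive permutation group of prime degree `p` and `K` a field of characteristic `p`. Then the heart of the permutation module is irreducible: an invariant subspace containing the constants and contained in the sum-zero functions is one or the other. -/
theorem result {α : Type*} [Fintype α] [DecidableEq α] {p : ℕ} [Fact p.Prime] (hα : Fintype.card α = p) (G : Subgroup (Equiv.Perm α)) [MulAction.IsPretransitive G α] (hG : ¬ Group.IsSolvable G) {K : Type*} [Field K] [CharP K p] (W : Subrepresentation (Cfsg.permRep K G α)) (h₁ : (Cfsg.permConstants K G α).toSubmodule ≤ W.toSubmodule) (h₂ : W.toSubmodule ≤ (Cfsg.permSumZero K G α).toSubmodule) : W = Cfsg.permConstants K G α ∨ W = Cfsg.permSumZero K G α := by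
  have hα' : Nat.card α = p := by rw [Nat.card_eq_fintype_card, hα]
  obtain ⟨P⟩ : Nonempty (Sylow p G) := inferInstance
  have hPc := Lib.Perm.card_sylow_of_prime (Ω := α) hα' P
  obtain ⟨c, hc⟩ := exists_prime_orderOf_dvd_card' (G := G) p
    (hPc ▸ (P : Subgroup G).card_subgroup_dvd_card)
  obtain ⟨e, he⟩ := Lib.Perm.exists_label_faithful (Ω := α) hα' hc
  have hna : ¬ ∀ g : G, Lib.Perm.IsAffineElt e g := fun h => hG (Lib.Perm.isSolvable_of_affine e h)
  rcases Lib.Perm.submodule_trivial he hna W h₁ h₂ with h | h
  · exact Or.inl (Subrepresentation.toSubmodule_injective h)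
  · exact Or.inr (Subrepresentation.toSubmodule_injective h)

end Cfsg.Agent.S0674
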