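import Cfsg.Statements.S0676
import Cfsg.Agent.Lib.Perm.Burnside
import Cfsg.Agent.S0672

set_option autoImplicit false
open Cfsg

namespace Cfsg.Agent.S0676

open scoped Pointwise


/-- A non-solvable transitive permutation group of prime degree `p` whose Sylow `p`-normaliser has even order is triply transitive. -/
theorem result {α : Type*} [Fintype α] [DecidableEq α] {p : ℕ} [Fact p.Prime] (hα : Fintype.card α = p) (G : Subgroup (Equiv.Perm α)) [MulAction.IsPretransitive G α] (hG : ¬ Group.IsSolvable G) (P : Sylow p G) (heven : Even (Nat.card (Subgroup.normalizer ((P : Subgroup G) : Set G)))) : MulAction.IsMultiplyPretransitive G α 3 := by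
  classical
  have hα' : Nat.card α = p := by rw [Nat.card_eq_fintype_card, hα]
  obtain ⟨c, t, hc, ht, htc⟩ := Lib.Perm.exists_involution (Ω := α) hα' P heven
  obtain ⟨e₀, he₀⟩ := Lib.Perm.exists_label_faithful (Ω := α) hα' hc
  have hp5 := Lib.Perm.five_le_of_not_affine (e := e₀) fun h => hG (Lib.Perm.isSolvable_of_affine e₀ h)
  obtain ⟨-, e, he, hneg⟩ := Lib.Perm.exists_negation (by omega) he₀ ht htc
  have hna : ¬ ∀ g : G, Lib.Perm.IsAffineElt e g := fun h => hG (Lib.Perm.isSolvable_of_affine e h)
  have h2 := Lib.Perm.two_transitive he hna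
  have hstab : ∀ a : α, Even (Nat.card (MulAction.stabilizer G a)) := by
    intro a
    have hd : 2 ∣ Nat.card G := ht ▸ orderOf_dvd_natCard t
    have hmul := Subgroup.index_mul_card (MulAction.stabilizer G a)
    rw [MulAction.index_stabilizer_of_transitive, hα'] at hmul
    rw [← hmul] at hd
    refine even_iff_two_dvd.mpr ((Nat.Coprime.dvd_of_dvd_mul_left ?_ hd))
    rw [Nat.prime_two.coprime_iff_not_dvd]
    intro h
    have := (Nat.prime_dvd_prime_iff_eq Nat.prime_two Fact.out).mp h
    omega
  refine S0672.result (K := ZMod p) (p := p) h2 (dvd_of_eq hα.symm) hstab fun f hf => ?_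
  refine Lib.Perm.eq_zero_of_neg he hna (t := t) hneg (fun Q => ?_) f hf
  obtain ⟨x, y, hxy, hQ⟩ := Finset.card_eq_two.mp Q.2
  refine ⟨((-(e x) - e y : ZMod p).val : ℤ), Subtype.ext ?_⟩
  rw [Set.powersetCard.coe_smul, Set.powersetCard.coe_smul,
    show (Q : Finset α) = {x, y} from hQ, Finset.smul_finset_insert, Finset.smul_finset_singleton,
    Finset.smul_finset_insert, Finset.smul_finset_singleton]
  have key : ∀ z, e (c ^ ((-(e x) - e y : ZMod p).val : ℤ) • z) = e z + (-(e x) - e y) := fun z => by
    rw [he.zpow, Int.cast_natCast, ZMod.natCast_zmod_val]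
  have h1 : t⁻¹ • x = c ^ ((-(e x) - e y : ZMod p).val : ℤ) • y :=
    e.injective (by rw [hneg, key]; ring)
  have h2' : t⁻¹ • y = c ^ ((-(e x) - e y : ZMod p).val : ℤ) • x :=
    e.injective (by rw [hneg, key]; ring)
  rw [h1, h2', Finset.pair_comm]

end Cfsg.Agent.S0676
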