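import Cfsg.Statements.S0677
import Cfsg.Agent.Lib.Perm.Burnside

set_option autoImplicit false
open Cfsg

namespace Cfsg.Agent.S0677

/-- Counting parity: a symmetric set with constant difference counts is trivial. -/
theorem symm_set {p : ℕ} [Fact p.Prime] (hp : p ≠ 2) (D : Finset (ZMod p)) (h0 : (0 : ZMod p) ∈ D)
    (hne : D ≠ Finset.univ)
    (hconst : ∀ u v : ZMod p, u ≠ 0 → v ≠ 0 →
      (D.filter fun d => u - d ∈ D).card = (D.filter fun d => v - d ∈ D).card) : D = {0} := by
  classical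
  have h2 : (2 : ZMod p) ≠ 0 := by
    intro h
    have : ((2 : ℕ) : ZMod p) = 0 := by exact_mod_cast h
    rw [ZMod.natCast_eq_zero_iff] at this
    exact hp ((Nat.prime_dvd_prime_iff_eq Fact.out Nat.prime_two).mp this)
  have par : ∀ u : ZMod p, ((D.filter fun d => u - d ∈ D).card : ZMod 2) = if u / 2 ∈ D then 1 else 0 := by
    intro u
    have hm : ∀ d, d = u - d ↔ d = u / 2 := fun d => by
      rw [eq_div_iff h2]
      constructor <;> intro h <;> linear_combination h
    have hrest : ∑ d ∈ (D.filter fun d => u - d ∈ D).filter (fun d => d ≠ u / 2), (1 : ZMod 2) = 0 := by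
      refine Finset.sum_involution (fun d _ => u - d) (fun d _ => by decide) (fun d hd _ h => ?_) (fun d hd => ?_)
        (fun d _ => by ring)
      · simp only [Finset.mem_filter] at hd
        exact hd.2 ((hm d).mp h.symm)
      · simp only [Finset.mem_filter] at hd ⊢
        refine ⟨⟨hd.1.2, by simpa using hd.1.1⟩, fun h => hd.2 ?_⟩
        have e : u = u / 2 + u / 2 := by rw [← two_mul, mul_div_cancel₀ _ h2]
        linear_combination -h + e
    rw [Finset.card_eq_sum_ones, Nat.cast_sum, Nat.cast_one,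
      ← Finset.sum_filter_add_sum_filter_not _ (fun d => d ≠ u / 2), hrest, zero_add]
    by_cases hu : u / 2 ∈ D
    · rw [if_pos hu, show ((D.filter fun d => u - d ∈ D).filter fun d => ¬ d ≠ u / 2) = {u / 2} by
        ext d
        simp only [Finset.mem_filter, not_not, Finset.mem_singleton]
        exact ⟨fun h => h.2, fun h => ⟨⟨h ▸ hu, by rw [← (hm d).mpr h]; exact h ▸ hu⟩, h⟩⟩]
      rw [Finset.sum_singleton]
    · rw [if_neg hu]
      refine Finset.sum_eq_zero fun d hd => ?_
      simp only [Finset.mem_filter, not_not] at hd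
      exact absurd (hd.2 ▸ hd.1.1) hu
  by_contra hD
  obtain ⟨w, hwD, hw0⟩ : ∃ w ∈ D, w ≠ 0 := by
    by_contra h
    push Not at h
    exact hD (Finset.eq_singleton_iff_unique_mem.mpr ⟨h0, h⟩)
  obtain ⟨z, hz⟩ : ∃ z, z ∉ D := by
    by_contra h
    push Not at h
    exact hne (Finset.eq_univ_iff_forall.mpr h)
  have hz0 : z ≠ 0 := fun h => hz (h ▸ h0)
  have := congrArg (Nat.cast : ℕ → ZMod 2) (hconst (2 * w) (2 * z) (mul_ne_zero h2 hw0) (mul_ne_zero h2 hz0))
  rw [par, par, mul_div_cancel_left₀ _ h2, mul_div_cancel_left₀ _ h2, if_pos hwD, if_neg hz] at this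
  exact one_ne_zero this

open MulAction in
theorem key {G : Type*} [Group G] [Finite G] {α : Type*} [Fintype α] [MulAction G α]
    [FaithfulSMul G α] [IsPretransitive G α] {p : ℕ} [Fact p.Prime] (hα : Nat.card α = p)
    (P : Sylow p G) (heven : Even (Nat.card (Subgroup.normalizer ((P : Subgroup G) : Set G))))
    (H : Subgroup G) (hH : H.index = p) : ∃ a : α, H ≤ stabilizer G a := by
  classical
  have hp : p.Prime := Fact.out
  obtain ⟨c, t, hc, ht, htc⟩ := Lib.Perm.exists_involution (Ω := α) hα P heven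
  obtain ⟨e₀, he₀⟩ := Lib.Perm.exists_label_faithful (Ω := α) hα hc
  have hpH : ¬ p ∣ Nat.card H := by
    intro hd
    have hdvd : p ^ 2 ∣ Nat.card G := by
      rw [← Subgroup.card_mul_index H, hH, pow_two]
      exact Nat.mul_dvd_mul_right hd p
    obtain ⟨Q, hQ⟩ := Sylow.exists_subgroup_card_pow_prime p hdvd
    obtain ⟨R, hR⟩ := (IsPGroup.of_card hQ).exists_le_sylow
    have h1 := Subgroup.card_dvd_of_le hR
    rw [hQ, Lib.Perm.card_sylow_of_prime (Ω := α) hα R, pow_two] at h1
    have := Nat.le_of_dvd hp.pos h1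
    have := hp.two_le
    nlinarith
  by_cases haff : ∀ g : G, Lib.Perm.IsAffineElt e₀ g
  · -- the affine case
    by_cases hH1 : H = ⊥
    · exact ⟨e₀.symm 0, hH1.trans_le bot_le⟩
    have hinj : ∀ g ∈ H, Lib.Perm.slope e₀ g = 1 → g = 1 := by
      intro g hg h1
      have hg' : g = c ^ ((e₀ (g • e₀.symm 0)).val : ℤ) := eq_of_smul_eq_smul (α := α) fun x => by
        apply e₀.injective
        rw [Lib.Perm.slope_spec (haff g) x, h1, one_mul, he₀.zpow, Int.cast_natCast, ZMod.natCast_zmod_val]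
      by_contra hne
      have hz : g ∈ Subgroup.zpowers c := ⟨_, hg'.symm⟩
      have : orderOf g = p := by
        rcases (Nat.dvd_prime hp).mp (hc ▸ Nat.card_zpowers c ▸ Subgroup.orderOf_dvd_natCard _ hz) with h | h
        · exact absurd (orderOf_eq_one_iff.mp h) hne
        · exact h
      exact hpH (this ▸ Subgroup.orderOf_dvd_natCard H hg)
    obtain ⟨⟨g₀, hg₀H⟩, hg₀⟩ := Subgroup.ne_bot_iff_exists_ne_one.mp hH1
    have hs₀ : Lib.Perm.slope e₀ g₀ ≠ 1 := fun h => hg₀ (Subtype.ext (hinj g₀ hg₀H h))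
    let a : α := e₀.symm (e₀ (g₀ • e₀.symm 0) / (1 - Lib.Perm.slope e₀ g₀))
    have hne : (1 : ZMod p) - Lib.Perm.slope e₀ g₀ ≠ 0 := sub_ne_zero.mpr (Ne.symm hs₀)
    have huniq : ∀ x, g₀ • x = x ↔ x = a := fun x => by
      rw [← e₀.injective.eq_iff, Lib.Perm.slope_spec (haff g₀) x, ← e₀.injective.eq_iff (a := x),
        show e₀ a = _ from e₀.apply_symm_apply _, eq_div_iff hne]
      constructor <;> intro h <;> linear_combination -h
    refine ⟨a, fun h hh => ?_⟩
    have hcomm : g₀ * h = h * g₀ := by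
      have hm : ∀ u v : G, Lib.Perm.slope e₀ (u * v) = Lib.Perm.slope e₀ u * Lib.Perm.slope e₀ v :=
        fun u v => Lib.Perm.slope_mul (haff u) (haff v)
      have := hinj ((h * g₀)⁻¹ * (g₀ * h)) (H.mul_mem (H.inv_mem (H.mul_mem hh hg₀H)) (H.mul_mem hg₀H hh))
        (by rw [hm, hm g₀ h, mul_comm (Lib.Perm.slope e₀ g₀), ← hm h g₀, ← hm, inv_mul_cancel]
            simp [Lib.Perm.slope])
      exact (inv_mul_eq_one.mp this).symm
    show h • a = a
    rw [← huniq, ← mul_smul, hcomm, mul_smul, (huniq a).mpr rfl]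
  have hp5 := Lib.Perm.five_le_of_not_affine haff
  have hp2 : p ≠ 2 := by omega
  obtain ⟨hconj, e, he, hneg⟩ := Lib.Perm.exists_negation (by omega) he₀ ht htc
  have hna : ¬ ∀ g : G, Lib.Perm.IsAffineElt e g := fun h =>
    haff fun g => by
      obtain ⟨a, b, hab⟩ := h g
      have hrel : ∀ x, e₀ x = e x + (e₀ (e.symm 0)) := by
        intro x
        have hx : c ^ ((e x).val : ℤ) • e.symm 0 = x := e.injective (by
          rw [he.zpow, Equiv.apply_symm_apply, zero_add, Int.cast_natCast, ZMod.natCast_zmod_val])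
        conv_lhs => rw [← hx, he₀.zpow, Int.cast_natCast, ZMod.natCast_zmod_val]
        ring
      exact ⟨a, b + e₀ (e.symm 0) - a * e₀ (e.symm 0), fun x => by rw [hrel, hab, hrel x]; ring⟩
  have h2 := Lib.Perm.two_transitive he hna
  -- the action on cosets
  have hcard : Nat.card (G ⧸ H) = p := hH
  have hfree : ∀ β : G ⧸ H, c • β ≠ β := by
    intro β hb
    induction β using QuotientGroup.induction_on with | H g => ?_
    have h1 : g⁻¹ * (c * g) ∈ H := QuotientGroup.eq.mp hb.symm
    refine hpH ?_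
    have h2 := Subgroup.orderOf_dvd_natCard H h1
    rwa [show g⁻¹ * (c * g) = g⁻¹ * c * g⁻¹⁻¹ by group, ← MulAut.conj_apply, MulEquiv.orderOf_eq,
      hc] at h2
  obtain ⟨u, hu⟩ := Lib.Perm.exists_label (Ω := G ⧸ H) hcard hc hfree
  have hut := hu.affine_of_conj (g := t) (i := -1) (by rw [zpow_neg_one, hconj])
  generalize hb : u (t • u.symm 0) = b at hut
  let β₀ : G ⧸ H := u.symm (b / 2)
  have h2z : (2 : ZMod p) ≠ 0 := by
    intro h
    have : ((2 : ℕ) : ZMod p) = 0 := by exact_mod_cast h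
    rw [ZMod.natCast_eq_zero_iff] at this
    have := Nat.le_of_dvd two_pos this
    omega
  have hβ₀ : t • β₀ = β₀ := u.injective (by
    simp only [hut, β₀, Equiv.apply_symm_apply]
    push_cast
    field_simp
    ring)
  have ht' : t⁻¹ = t := inv_eq_of_mul_eq_one_right (by rw [← pow_two, ← ht, pow_orderOf_eq_one])
  have hX : ∀ y : G ⧸ H, ∃ i : ℤ, t⁻¹ • y = c ^ i • y := fun y =>
    ⟨((b - 2 * u y).val : ℤ), u.injective (by
      rw [ht', hut, hu.zpow, Int.cast_natCast, ZMod.natCast_zmod_val]; push_cast; ring)⟩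
  -- the slice through the distinguished points
  let x₀ : α := e.symm 0
  let O := orbit G (β₀, x₀)
  let S := stabilizer G β₀
  have hS : ∀ x, (β₀, x) ∈ O ↔ x ∈ orbit S x₀ := fun x => by
    constructor
    · rintro ⟨g, hg⟩
      exact ⟨⟨g, congrArg Prod.fst hg⟩, congrArg Prod.snd hg⟩
    · rintro ⟨g, rfl⟩
      exact ⟨g, Prod.ext g.2 rfl⟩
  have hidx : S.index = p := by
    have : IsPretransitive G (G ⧸ H) := inferInstance
    rw [index_stabilizer_of_transitive, hcard]
  have hintr : ∃ x, (β₀, x) ∉ O := by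
    by_contra hall
    push Not at hall
    have hS' : IsPretransitive S α :=
      (isPretransitive_iff_orbit_eq_univ x₀).mpr (Set.eq_univ_of_forall fun x => (hS x).mp (hall x))
    have h1 : p ∣ Nat.card S := by
      rw [← hα, ← index_stabilizer_of_transitive S x₀]
      exact Subgroup.index_dvd_card _
    have hcardS : Nat.card S = Nat.card H := by
      have e1 := Subgroup.card_mul_index S
      rw [hidx, ← Subgroup.card_mul_index H, hH] at e1
      exact Nat.eq_of_mul_eq_mul_right hp.pos e1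
    exact hpH (hcardS ▸ h1)
  obtain ⟨x₁, hx₁⟩ := hintr
  have htwo : ∀ x, (β₀, x) ∈ O ∨ (β₀, x) ∈ orbit G (β₀, x₁) := by
    intro x₂
    by_contra hno
    push Not at hno
    let ψ : α → (G ⧸ H) → α → ZMod p := fun z => Lib.Perm.orbitKernel G (ZMod p) (β₀, z)
    let n : α → ZMod p := fun z => ∑ w, ψ z β₀ w
    have hn : ∀ z β, ∑ w, ψ z β w = n z := by
      intro z β
      obtain ⟨g, rfl⟩ := exists_smul_eq G β₀ β
      exact (Fintype.sum_equiv (toPerm g) _ _
        fun w => (Lib.Perm.orbitKernel_inv (β₀, z) g β₀ w).symm).symm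
    obtain ⟨k, m, hkm, hzero⟩ : ∃ k m : ZMod p, (k ≠ 0 ∨ m ≠ 0) ∧ k * n x₀ + m * n x₁ = 0 := by
      by_cases hx : n x₀ = 0
      · exact ⟨1, 0, Or.inl one_ne_zero, by simp [hx]⟩
      · exact ⟨-(n x₁), n x₀, Or.inr hx, by ring⟩
    let φ : (G ⧸ H) → α → ZMod p := fun β w => k * ψ x₀ β w + m * ψ x₁ β w
    have hφ : ∀ (g : G) β w, φ (g • β) (g • w) = φ β w := fun g β w => by
      simp only [φ, ψ, Lib.Perm.orbitKernel_inv]
    have hrow : ∀ β, ∑ w, φ β w = 0 := fun β => by
      simp only [φ, Finset.sum_add_distrib, ← Finset.mul_sum, hn, hzero]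
    have hC : ∀ v : (Cfsg.permSumZero (ZMod p) G α).toSubmodule,
        (v : α → ZMod p) ∈ (Cfsg.permConstants (ZMod p) G α).toSubmodule →
          Lib.Perm.kernelIntertwiner φ hφ _ v = 0 := fun v hv => by
      obtain ⟨k', hk'⟩ := Lib.Perm.mem_permConstants.mp hv
      funext β
      show Lib.Perm.kernelMap φ (v : α → ZMod p) β = 0
      simp only [Lib.Perm.kernelMap_apply, hk', ← Finset.sum_mul, hrow, zero_mul]
    have hF := Lib.Perm.eq_zero_of_neg he hna (t := t) hneg hX _ hC
    have hrc := Lib.Perm.row_constant (K := ZMod p) (φ := φ) fun w hw =>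
      DFunLike.congr_fun hF (⟨w, hw⟩ : (Cfsg.permSumZero (ZMod p) G α).toSubmodule)
    have hself : ∀ z, ψ z β₀ z = 1 := fun z => Lib.Perm.orbitKernel_self (β₀, z)
    have hoff : ∀ z w, (β₀, w) ∉ orbit G (β₀, z) → ψ z β₀ w = 0 := fun z w h =>
      Lib.Perm.orbitKernel_of_notMem h
    have v2 : φ β₀ x₂ = 0 := by simp only [φ, hoff x₀ x₂ hno.1, hoff x₁ x₂ hno.2, mul_zero, add_zero]
    have v0 : φ β₀ x₀ = k := by
      simp only [φ, hself, hoff x₁ x₀ (fun h => hx₁ (mem_orbit_symm.mp h)), mul_one, mul_zero, add_zero]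
    have v1 : φ β₀ x₁ = m := by
      simp only [φ, hself, hoff x₀ x₁ hx₁, mul_one, mul_zero, zero_add]
    rcases hkm with h | h
    · exact h (v0.symm.trans ((hrc β₀ x₀ x₂).trans v2))
    · exact h (v1.symm.trans ((hrc β₀ x₁ x₂).trans v2))
  let D : Finset (ZMod p) := Finset.univ.filter fun d => (β₀, e.symm d) ∈ O
  have hmemD : ∀ d, d ∈ D ↔ (β₀, e.symm d) ∈ O := fun d => by simp [D]
  have hshift : ∀ β x, (β, x) ∈ O ↔ e x - (u β - u β₀) ∈ D := by
    intro β x
    rw [hmemD]
    have hb' : c ^ ((u β - u β₀).val : ℤ) • β₀ = β := u.injective (by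
      rw [hu.zpow, Int.cast_natCast, ZMod.natCast_zmod_val]; ring)
    have hx' : c ^ ((u β - u β₀).val : ℤ) • e.symm (e x - (u β - u β₀)) = x := e.injective (by
      rw [he.zpow, Int.cast_natCast, ZMod.natCast_zmod_val, Equiv.apply_symm_apply]; ring)
    conv_lhs => rw [← hb', ← hx']
    exact Lib.Perm.smul_mem_orbit_iff (g := c ^ ((u β - u β₀).val : ℤ))
      (a := (β₀, e.symm (e x - (u β - u β₀)))) (b := (β₀, x₀))
  have hDneg : ∀ d, d ∈ D → -d ∈ D := fun d hd => by
    rw [hmemD] at hd ⊢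
    have h1 : t • e.symm d = e.symm (-d) := e.injective (by
      have := hneg (e.symm d)
      rw [ht'] at this
      rw [this, Equiv.apply_symm_apply, Equiv.apply_symm_apply])
    rw [← h1, ← hβ₀]
    exact (Lib.Perm.smul_mem_orbit_iff (g := t) (a := (β₀, e.symm d)) (b := (β₀, x₀))).mpr hd
  have hD : D = {0} := by
    refine symm_set hp2 D ((hmemD 0).mpr (mem_orbit_self _))
      (fun h => hx₁ ?_) fun v w hv hw => ?_
    · have := (hmemD (e x₁)).mp (h ▸ Finset.mem_univ _)
      rwa [Equiv.symm_apply_apply] at this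
    · have hcnt : ∀ v : ZMod p, (D.filter fun d => v - d ∈ D).card =
          Nat.card {β : G ⧸ H // (β, e.symm 0) ∈ O ∧ (β, e.symm v) ∈ O} := by
        intro v
        rw [← Nat.card_eq_finsetCard]
        refine Nat.card_congr (((Equiv.addRight (u β₀)).trans u.symm).subtypeEquiv fun d => ?_)
        simp only [Finset.mem_filter, Equiv.trans_apply, Equiv.coe_addRight, hshift,
          Equiv.apply_symm_apply, add_sub_cancel_right, zero_sub]
        exact ⟨fun h => ⟨hDneg _ h.1, h.2⟩, fun h => ⟨by simpa using hDneg _ h.1, h.2⟩⟩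
      rw [hcnt, hcnt]
      obtain ⟨g, hg1, hg2⟩ := is_two_pretransitive_iff.mp h2
        (show e.symm 0 ≠ e.symm v from fun h => hv (e.symm.injective h).symm)
        (show e.symm 0 ≠ e.symm w from fun h => hw (e.symm.injective h).symm)
      refine Nat.card_congr ((toPerm g).subtypeEquiv fun β => ?_)
      rw [toPerm_apply]
      conv_rhs => rw [← hg1, ← hg2]
      exact and_congr (Lib.Perm.smul_mem_orbit_iff (g := g) (a := (β, e.symm 0)) (b := (β₀, x₀))).symm
        (Lib.Perm.smul_mem_orbit_iff (g := g) (a := (β, e.symm v)) (b := (β₀, x₀))).symm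
  let β₁ : G ⧸ H := QuotientGroup.mk 1
  refine ⟨e.symm (u β₁ - u β₀), fun g hg => ?_⟩
  have hgβ : g • β₁ = β₁ := by
    show QuotientGroup.mk (g * 1) = QuotientGroup.mk (1 : G)
    rw [QuotientGroup.eq]
    simpa using hg
  have hin : (β₁, e.symm (u β₁ - u β₀)) ∈ O := by
    rw [hshift, Equiv.apply_symm_apply, sub_self, hD]; simp
  have hgin := (Lib.Perm.smul_mem_orbit_iff (g := g)).mpr hin
  rw [Prod.smul_mk, hgβ, hshift, hD, Finset.mem_singleton, sub_eq_zero] at hgin
  show g • _ = _
  apply e.injective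
  exact hgin.trans (e.apply_symm_apply _).symm


/-- In a transitive permutation group of prime degree `p` whose Sylow `p`-normaliser has even order, the point stabilisers are the only subgroups of index `p`. -/
theorem result {α : Type*} [Fintype α] [DecidableEq α] {p : ℕ} [Fact p.Prime] (hα : Fintype.card α = p) (G : Subgroup (Equiv.Perm α)) [MulAction.IsPretransitive G α] (P : Sylow p G) (heven : Even (Nat.card (Subgroup.normalizer ((P : Subgroup G) : Set G)))) (H : Subgroup G) (hH : H.index = p) : ∃ a : α, H = MulAction.stabilizer G a := by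
  classical
  obtain ⟨a, ha⟩ := key (G := G) (α := α) (by rw [Nat.card_eq_fintype_card, hα]) P heven H hH
  refine ⟨a, Subgroup.eq_of_le_of_card_ge ha ?_⟩
  have hs : (MulAction.stabilizer G a).index = p := by
    rw [MulAction.index_stabilizer_of_transitive, Nat.card_eq_fintype_card, hα]
  have e1 := Subgroup.card_mul_index H
  rw [← Subgroup.card_mul_index (MulAction.stabilizer G a), hs, hH] at e1
  exact (Nat.eq_of_mul_eq_mul_right (Fact.out : p.Prime).pos e1).ge

end Cfsg.Agent.S0677
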