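import Cfsg.Statements.S0681
import Cfsg.Agent.Lib.Perm.NearField

set_option autoImplicit false
open Cfsg

namespace Cfsg.Agent.S0681

/-- The affine maps `x ↦ x * a + b`, `a ≠ 0`, of a near-field form a sharply doubly transitive permutation group. -/
theorem result {F : Type*} [Cfsg.NearField F] : ∃ H : Subgroup (Equiv.Perm F), (∀ σ : Equiv.Perm F, σ ∈ H ↔ ∃ a b : F, a ≠ 0 ∧ ∀ x : F, σ x = x * a + b) ∧ MulAction.IsMultiplyPretransitive H F 2 ∧ ∀ x : Fin 2 ↪ F, MulAction.stabilizer H x = ⊥ := by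
  refine ⟨Lib.Perm.nfAffine F, fun σ => Iff.rfl, ?_, fun x => ?_⟩
  · rw [MulAction.is_two_pretransitive_iff]
    intro a b c d hab hcd
    exact Lib.Perm.nfAffine_trans a b c d hab hcd
  · refine (Subgroup.eq_bot_iff_forall _).mpr fun g hg => ?_
    exact Lib.Perm.nfAffine_sharp g (x 0) (x 1) (fun h => absurd (x.injective h) (by decide))
      (DFunLike.congr_fun hg 0) (DFunLike.congr_fun hg 1)

end Cfsg.Agent.S0681
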