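import Cfsg.Statements.S0682
import Cfsg.Agent.Lib.Perm.NearField

set_option autoImplicit false
open Cfsg

namespace Cfsg.Agent.S0682

/-- A finite near-field has prime-power order; its additive group is commutative of prime exponent. -/
theorem result {F : Type*} [Cfsg.NearField F] [Finite F] : ∃ p j : ℕ, p.Prime ∧ 1 ≤ j ∧ Nat.card F = p ^ j ∧ (∀ x y : F, x + y = y + x) ∧ ∀ x : F, p • x = 0 := by
  have h := Lib.Perm.nfAffine_sharplyTwo (F := F)
  obtain ⟨p, j, hp, hj, hc, hexp⟩ := h.exists_prime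
  have h01 : (1 : F) ≠ 0 := (Cfsg.NearField.zero_ne_one).symm
  let t : F → Lib.Perm.nfAffine F := fun b =>
    ⟨Equiv.addRight b, 1, b, h01, fun x => by simp⟩
  have ht : ∀ b, t b ∈ h.kernel := by
    intro b
    rw [h.mem_kernel]
    by_cases hb : b = 0
    · exact Or.inl (Subtype.ext (Equiv.ext fun x => by simp [t, hb]))
    · exact Or.inr fun x hx => hb (add_eq_left.mp (show x + b = x from hx))
  have hcomm : ∀ x y : F, x + y = y + x := by
    intro x y
    have hh : t x * t y = t y * t x :=
      congrArg Subtype.val (h.kernel_comm.is_comm.comm ⟨t x, ht x⟩ ⟨t y, ht y⟩)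
    have h2 : (0 : F) + y + x = 0 + x + y := congrArg (fun g : Lib.Perm.nfAffine F => (g : Equiv.Perm F) 0) hh
    rw [zero_add, zero_add] at h2
    exact h2.symm
  refine ⟨p, j, hp, hj, hc, hcomm, fun x => ?_⟩
  have hpow : ∀ k : ℕ, ((t x ^ k : Lib.Perm.nfAffine F) : Equiv.Perm F) 0 = k • x := by
    intro k
    induction k with
    | zero => simp
    | succ k ih =>
      rw [pow_succ', Subgroup.coe_mul, Equiv.Perm.mul_apply, ih, succ_nsmul]
      rfl
  rw [← hpow p, hexp _ (ht x)]
  rfl

end Cfsg.Agent.S0682
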