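import Cfsg.Statements.S0683
import Cfsg.Agent.Lib.Perm.SharplyTwo

set_option autoImplicit false
open Cfsg

namespace Cfsg.Agent.S0683

variable {G Ω : Type*} [Group G] [MulAction G Ω] [Finite Ω]

theorem translation_exists (h : Lib.Perm.SharplyTwo G Ω) (o b : Ω) :
    ∃ t : G, t ∈ h.kernel ∧ t • o = b := by
  obtain ⟨t, ht⟩ := h.kernel_pretransitive.exists_smul_eq o b
  exact ⟨t, t.2, ht⟩

theorem translation_unique (h : Lib.Perm.SharplyTwo G Ω) {o : Ω} {s t : G} (hs : s ∈ h.kernel)
    (ht : t ∈ h.kernel) (he : s • o = t • o) : s = t := by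
  have h1 : (⟨t⁻¹ * s, mul_mem (inv_mem ht) hs⟩ : h.kernel) ∈ MulAction.stabilizer h.kernel o :=
    show (t⁻¹ * s) • o = o by rw [mul_smul, he, inv_smul_smul]
  rw [h.kernel_stabilizer, Subgroup.mem_bot] at h1
  exact (inv_mul_eq_one.mp (congrArg Subtype.val h1)).symm

omit [Finite Ω] in
theorem multiplier_unique (h : Lib.Perm.SharplyTwo G Ω) {o e : Ω} (hoe : o ≠ e) {s t : G}
    (hs : s • o = o) (ht : t • o = o) (he : s • e = t • e) : s = t := by
  have := h.sharp (t⁻¹ * s) o e hoe (by rw [mul_smul, hs, inv_smul_eq_iff, ht])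
    (by rw [mul_smul, he, inv_smul_smul])
  exact (inv_mul_eq_one.mp this).symm


/-- A finite sharply doubly transitive permutation group is the affine group of a near-field: the permuted set carries a near-field structure for which the group consists exactly of the maps `x ↦ x * a + b` with `a ≠ 0`. -/
theorem result {α : Type*} [Fintype α] [DecidableEq α] (H : Subgroup (Equiv.Perm α)) [MulAction.IsMultiplyPretransitive H α 2] (hsharp : ∀ x : Fin 2 ↪ α, MulAction.stabilizer H x = ⊥) (h2 : 2 ≤ Fintype.card α) : ∃ _ : Cfsg.NearField α, ∀ σ : Equiv.Perm α, σ ∈ H ↔ ∃ a b : α, a ≠ 0 ∧ ∀ x : α, σ x = x * a + b := by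
  classical
  have h : Lib.Perm.SharplyTwo H α :=
    Lib.Perm.SharplyTwo.of_multiply hsharp (by rwa [Nat.card_eq_fintype_card])
  obtain ⟨o⟩ : Nonempty α := Fintype.card_pos_iff.mp (by omega)
  obtain ⟨e, heo⟩ := h.exists_ne o
  choose t htK hto using translation_exists h o
  have hm_ex : ∀ a : α, ∃ m : H, m • o = o ∧ (a ≠ o → m • e = a) := by
    intro a
    by_cases ha : a = o
    · exact ⟨1, one_smul _ _, fun h' => absurd ha h'⟩
    · obtain ⟨m, hm1, hm2⟩ := h.trans o e o a heo.symm (Ne.symm ha)
      exact ⟨m, hm1, fun _ => hm2⟩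
  choose m hmo hme using hm_ex
  have hto1 : t o = 1 := translation_unique h (htK o) (one_mem _) (by rw [hto, one_smul])
  have hme1 : m e = 1 :=
    multiplier_unique h heo.symm (hmo e) (one_smul _ _) (by rw [hme e heo, one_smul])
  have htt : ∀ y z, t z * t y = t (t z • y) := fun y z =>
    translation_unique h (mul_mem (htK z) (htK y)) (htK _) (by rw [mul_smul, hto y, hto])
  have hmt : ∀ (g : H) y, g • o = o → g * t y * g⁻¹ = t (g • y) := fun g y hg =>
    translation_unique h (h.kernel_normal.conj_mem _ (htK y) g) (htK _)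
      (by rw [mul_smul, mul_smul, inv_smul_eq_iff.mpr hg.symm, hto, hto])
  let mulF : α → α → α := fun x a => if a = o then o else m a • x
  have hmul : ∀ x a, a ≠ o → mulF x a = m a • x := fun x a ha => if_neg ha
  have hne : ∀ (g : H) x, g • o = o → x ≠ o → g • x ≠ o := fun g x hg hx hh =>
    hx (MulAction.injective g (hh.trans hg.symm))
  letI : Zero α := ⟨o⟩
  letI : Add α := ⟨fun x y => t y • x⟩
  letI : Neg α := ⟨fun x => (t x)⁻¹ • o⟩
  let F : Cfsg.NearField α :=
  { zero := o
    one := e
    add := fun x y => t y • x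
    neg := fun x => (t x)⁻¹ • o
    mul := mulF
    nsmul := nsmulRec
    zsmul := zsmulRec
    add_assoc := fun x y z => by
      show t z • t y • x = t (t z • y) • x
      rw [← mul_smul, htt]
    zero_add := fun x => hto x
    add_zero := fun x => by
      show t o • x = x
      rw [hto1, one_smul]
    neg_add_cancel := fun x => by
      show t x • (t x)⁻¹ • o = o
      rw [smul_inv_smul]
    mul_assoc := fun x a c => by
      show mulF (mulF x a) c = mulF x (mulF a c)
      by_cases hc : c = o
      · simp [mulF, hc]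
      · by_cases ha : a = o
        · simp [mulF, hc, ha, hmo c]
        · have hac : m c • a ≠ o := hne _ _ (hmo c) ha
          rw [hmul a c hc, hmul _ c hc, hmul x a ha, hmul x _ hac, ← mul_smul]
          congr 1
          refine multiplier_unique h heo.symm ?_ (hmo _) ?_
          · rw [mul_smul, hmo, hmo]
          · rw [mul_smul, hme a ha, hme _ hac]
    one_mul := fun a => by
      show mulF e a = a
      by_cases ha : a = o
      · simp [mulF, ha]
      · rw [hmul e a ha, hme a ha]
    mul_one := fun x => by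
      show mulF x e = x
      rw [hmul x e heo, hme1, one_smul]
    right_distrib := fun x y c => by
      show mulF (t y • x) c = t (mulF y c) • mulF x c
      by_cases hc : c = o
      · simp [mulF, hc, hto1]
      · rw [hmul _ c hc, hmul y c hc, hmul x c hc, ← hmt (m c) y (hmo c), ← mul_smul, ← mul_smul,
          inv_mul_cancel_right]
    mul_zero := fun x => if_pos rfl
    zero_ne_one := heo.symm
    exists_inv := fun a ha => by
      have ha' : a ≠ o := ha
      obtain ⟨g, hg1, hg2⟩ := h.trans o a o e (Ne.symm ha') heo.symm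
      have hb : g • e ≠ o := hne _ _ hg1 heo
      have hmb : m (g • e) = g := multiplier_unique h heo.symm (hmo _) hg1 (by rw [hme _ hb])
      have hma : m a = g⁻¹ := multiplier_unique h heo.symm (hmo _) (inv_smul_eq_iff.mpr hg1.symm)
        (by rw [hme a ha', eq_inv_smul_iff, hg2])
      refine ⟨g • e, ?_, ?_⟩
      · show mulF a (g • e) = e
        rw [hmul _ _ hb, hmb, hg2]
      · show mulF (g • e) a = e
        rw [hmul _ _ ha', hma, inv_smul_smul] }
  refine ⟨F, fun σ => ⟨fun hσ => ?_, ?_⟩⟩
  · let s : H := (t (σ o))⁻¹ * ⟨σ, hσ⟩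
    have hso : s • o = o := by
      show ((t (σ o))⁻¹ * ⟨σ, hσ⟩ : H) • o = o
      rw [mul_smul, inv_smul_eq_iff, hto]
      rfl
    have ha : s • e ≠ o := hne _ _ hso heo
    have hms : m (s • e) = s := multiplier_unique h heo.symm (hmo _) hso (by rw [hme _ ha])
    refine ⟨s • e, σ o, ha, fun x => ?_⟩
    show σ x = t (σ o) • mulF x (s • e)
    rw [hmul _ _ ha, hms, ← mul_smul, mul_inv_cancel_left]
    rfl
  · rintro ⟨a, b, ha, hx⟩
    have ha' : a ≠ o := ha
    have : σ = ((t b * m a : H) : Equiv.Perm α) := Equiv.ext fun x => by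
      rw [hx]
      show t b • mulF x a = (t b * m a) • x
      rw [hmul _ _ ha', mul_smul]
    exact this ▸ (t b * m a).2

end Cfsg.Agent.S0683
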