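import Cfsg.Statements.S0684
import Cfsg.Agent.Lib.Perm.SharpLinear

set_option autoImplicit false
open Cfsg

namespace Cfsg.Agent.S0684

open Cfsg.Agent.Lib.SharpLinear

/-- Point stabiliser of a sharply doubly transitive group not of semilinear type: a maximal normal abelian subgroup `A` of a linear group `H` that is regular on non-zero vectors and has no irreducible cyclic normal subgroup is cyclic and reducible, and the order of `A` divides `p ^ k - 1` for `k` the dimension of a minimal `A`-invariant subspace. -/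
theorem result {p : ℕ} [Fact p.Prime] {V : Type*} [AddCommGroup V] [Module (ZMod p) V] [Finite V] (H : Subgroup (V ≃ₗ[ZMod p] V)) (hreg : ∀ v w : V, v ≠ 0 → w ≠ 0 → ∃! h : H, (h : V ≃ₗ[ZMod p] V) v = w) (hI : ∀ A : Subgroup H, A.Normal → IsCyclic A → ∃ W : Submodule (ZMod p) V, W ≠ ⊥ ∧ W ≠ ⊤ ∧ ∀ a ∈ A, ∀ v ∈ W, ((a : H) : V ≃ₗ[ZMod p] V) v ∈ W) (A : Subgroup H) (hAn : A.Normal) (hAc : IsMulCommutative A) (hAmax : ∀ B : Subgroup H, B.Normal → IsMulCommutative B → A ≤ B → B = A) : IsCyclic A ∧ ∃ W : Submodule (ZMod p) V, W ≠ ⊥ ∧ W ≠ ⊤ ∧ (∀ a ∈ A, ∀ v ∈ W, ((a : H) : V ≃ₗ[ZMod p] V) v ∈ W) ∧ (∀ W' : Submodule (ZMod p) V, W' ≤ W → (∀ a ∈ A, ∀ v ∈ W', ((a : H) : V ≃ₗ[ZMod p] V) v ∈ W') → W' = ⊥ ∨ W' = W) ∧ Nat.card A ∣ p ^ Module.finrank (ZMod p) W - 1 := by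
  classical
  haveI := finite_group (p := p) (V := V)
  rcases subsingleton_or_nontrivial V with hV | hV
  · obtain ⟨W, hW, hW', -⟩ := hI ⊥ inferInstance Bot.isCyclic
    exact absurd (Subsingleton.elim W ⊥) hW
  have hreg' : Reg H := hreg
  haveI := hAc
  haveI hcyc := Lib.ZassSL25.isCyclic_of_isMulCommutative (fpfGroup hreg') A
  obtain ⟨b, rfl⟩ := (Subgroup.isCyclic_iff_exists_zpowers_eq_top A).mp hcyc
  obtain ⟨W₀, hne, hnt, hW₀⟩ := hI _ hAn hcyc
  have hinv : Invar H b W₀ := fun v hv => hW₀ b (Subgroup.mem_zpowers b) v hv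
  obtain ⟨W, hle, hW⟩ := exists_minInv hinv hne
  refine ⟨hcyc, W, hW.2.1, fun e => hnt (top_le_iff.mp (e ▸ hle)), fun a ha v hv => hW.1.zpowers ha v hv,
    fun W' hle' hW' => hW.2.2 W' hle' fun v hv => hW' b (Subgroup.mem_zpowers b) v hv, ?_⟩
  exact card_zpowers_dvd hreg' hW.1

end Cfsg.Agent.S0684
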