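import Cfsg.Statements.S0685
import Cfsg.Agent.Lib.Perm.SharpLinear

set_option autoImplicit false
open Cfsg

namespace Cfsg.Agent.S0685

open Cfsg.Agent.Lib.SharpLinear

/-- In a linear group over the prime field that is regular on non-zero vectors and has no irreducible cyclic normal subgroup, a maximal normal abelian subgroup is properly contained in its centraliser, which is non-abelian. -/
theorem result {p : ℕ} [Fact p.Prime] {V : Type*} [AddCommGroup V] [Module (ZMod p) V] [Finite V] (H : Subgroup (V ≃ₗ[ZMod p] V)) (hreg : ∀ v w : V, v ≠ 0 → w ≠ 0 → ∃! h : H, (h : V ≃ₗ[ZMod p] V) v = w) (hI : ∀ A : Subgroup H, A.Normal → IsCyclic A → ∃ W : Submodule (ZMod p) V, W ≠ ⊥ ∧ W ≠ ⊤ ∧ ∀ a ∈ A, ∀ v ∈ W, ((a : H) : V ≃ₗ[ZMod p] V) v ∈ W) (A : Subgroup H) (hAn : A.Normal) (hAc : IsMulCommutative A) (hAmax : ∀ B : Subgroup H, B.Normal → IsMulCommutative B → A ≤ B → B = A) : A < Subgroup.centralizer (A : Set H) ∧ ¬ IsMulCommutative (Subgroup.centralizer (A : Set H)) := by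
  classical
  haveI := finite_group (p := p) (V := V)
  rcases subsingleton_or_nontrivial V with hV | hV
  · obtain ⟨W, hW, hW', -⟩ := hI ⊥ inferInstance Bot.isCyclic
    exact absurd (Subsingleton.elim W ⊥) hW
  have hreg' : Reg H := hreg
  haveI := hAc
  haveI hcyc := Lib.ZassSL25.isCyclic_of_isMulCommutative (fpfGroup hreg') A
  have hAC : A ≤ Subgroup.centralizer (A : Set H) := fun x hx =>
    Subgroup.mem_centralizer_iff.mpr fun y hy =>
      congrArg Subtype.val (hAc.is_comm.comm ⟨y, hy⟩ ⟨x, hx⟩)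
  obtain ⟨b, rfl⟩ := (Subgroup.isCyclic_iff_exists_zpowers_eq_top A).mp hcyc
  have hnc : ¬ IsMulCommutative (Subgroup.centralizer (Subgroup.zpowers b : Set H)) := by
    intro hC
    haveI := hAn
    have hCeq := hAmax _ inferInstance hC hAC
    obtain ⟨W₀, hne, hnt, hW₀⟩ := hI _ hAn hcyc
    obtain ⟨W, hle, hW⟩ := exists_minInv (b := b)
      (fun v hv => hW₀ b (Subgroup.mem_zpowers b) v hv : Invar H b W₀) hne
    have h1 := index_centralizer_le hreg' hAn hW
    have hdvd := card_zpowers_dvd hreg' hW.1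
    have h2l := two_mul_le hreg' hAn hW fun e => hnt (top_le_iff.mp (e ▸ hle))
    have hceq : Subgroup.centralizer ({b} : Set H) = Subgroup.zpowers b := by
      rw [← hCeq, Subgroup.zpowers_eq_closure, Subgroup.centralizer_closure]
    rw [hceq] at h1
    have hcard := (Subgroup.zpowers b).card_mul_index
    rw [card_eq hreg'] at hcard
    set l := Module.finrank (ZMod p) W with hl
    have hlpos : 0 < l := by
      haveI : Nontrivial W := Submodule.nontrivial_iff_ne_bot.mpr hW.2.1
      exact Module.finrank_pos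
    have hpl : 2 ≤ p ^ l := (Fact.out : p.Prime).two_le.trans (Nat.le_self_pow (by omega) p)
    have hlp : l < p ^ l := Nat.lt_pow_self (Fact.out : p.Prime).one_lt
    have hle' := Nat.le_of_dvd (by omega) hdvd
    have hmul := Nat.mul_le_mul hle' h1
    rw [hcard] at hmul
    have hsq : p ^ l * p ^ l ≤ p ^ Module.finrank (ZMod p) V := by
      rw [← pow_add]; exact Nat.pow_le_pow_right (Fact.out : p.Prime).pos (by omega)
    have h0 : (p ^ l - 1) * p ^ l + p ^ l = p ^ l * p ^ l := by
      rw [← Nat.succ_mul]; congr 1; omega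
    have : (p ^ l - 1) * l ≤ (p ^ l - 1) * p ^ l := Nat.mul_le_mul_left _ hlp.le
    omega
  exact ⟨lt_of_le_of_ne hAC fun e => hnc (e ▸ hAc), hnc⟩

end Cfsg.Agent.S0685
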