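import Cfsg.Statements.S0686
import Cfsg.Agent.Lib.Perm.SharpLinear
import Cfsg.Agent.Lib.UniqueInvolution
import Cfsg.Agent.Lib.ZassSL25.SixTypes

set_option autoImplicit false
open Cfsg

namespace Cfsg.Agent.S0686

open Cfsg.Agent.Lib.SharpLinear Cfsg.Agent.Lib.ZassSL25
open scoped commutatorElement

theorem quaternion_class_two {m : ℕ} [NeZero m]
    (h : ∀ x y z : QuaternionGroup m, x * y * x⁻¹ * y⁻¹ * z = z * (x * y * x⁻¹ * y⁻¹)) : m ∣ 2 := by
  have h1 := h (.xa 0) (.a 1) (.xa 0)
  have ha : (QuaternionGroup.a 1 : QuaternionGroup m)⁻¹ = .a (-1) :=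
    inv_eq_of_mul_eq_one_right (by rw [QuaternionGroup.a_mul_a, add_neg_cancel]; rfl)
  have hx : (QuaternionGroup.xa 0 : QuaternionGroup m)⁻¹ = .xa (m : ZMod (2 * m)) :=
    inv_eq_of_mul_eq_one_right (by
      rw [QuaternionGroup.xa_mul_xa, sub_zero, show ((m : ZMod (2 * m)) + m) = 0 by
        rw [← Nat.cast_add, ← two_mul]; exact ZMod.natCast_self _]
      rfl)
  rw [ha, hx, QuaternionGroup.xa_mul_a, QuaternionGroup.xa_mul_xa, QuaternionGroup.a_mul_a,
    QuaternionGroup.a_mul_xa, QuaternionGroup.xa_mul_a, QuaternionGroup.xa.injEq] at h1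
  have h2 : ((4 : ℕ) : ZMod (2 * m)) = 0 := by
    push_cast
    have h2m : (2 : ZMod (2 * m)) * m = 0 := by
      exact_mod_cast ZMod.natCast_self (2 * m)
    linear_combination h1 + 2 * h2m
  rw [ZMod.natCast_eq_zero_iff] at h2
  exact (Nat.mul_dvd_mul_iff_left two_pos).mp (show 2 * m ∣ 2 * 2 from h2)

/-- In a linear group over the prime field that is regular on non-zero vectors and has no irreducible cyclic normal subgroup, let `A` be a maximal normal abelian subgroup and `N` a normal subgroup centralising `A` that is minimal among non-abelian normal subgroups centralising `A`. Then `N` is quaternion of order 8 or isomorphic to `SL(2,5)`. -/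
theorem result {p : ℕ} [Fact p.Prime] {V : Type*} [AddCommGroup V] [Module (ZMod p) V] [Finite V] (H : Subgroup (V ≃ₗ[ZMod p] V)) (hreg : ∀ v w : V, v ≠ 0 → w ≠ 0 → ∃! h : H, (h : V ≃ₗ[ZMod p] V) v = w) (hI : ∀ A : Subgroup H, A.Normal → IsCyclic A → ∃ W : Submodule (ZMod p) V, W ≠ ⊥ ∧ W ≠ ⊤ ∧ ∀ a ∈ A, ∀ v ∈ W, ((a : H) : V ≃ₗ[ZMod p] V) v ∈ W) (A : Subgroup H) (hAn : A.Normal) (hAc : IsMulCommutative A) (hAmax : ∀ B : Subgroup H, B.Normal → IsMulCommutative B → A ≤ B → B = A) (N : Subgroup H) (hNn : N.Normal) (hNle : N ≤ Subgroup.centralizer (A : Set H)) (hNna : ¬ IsMulCommutative N) (hNmin : ∀ M : Subgroup H, M.Normal → M ≤ N → ¬ IsMulCommutative M → M = N) : Nonempty (N ≃* QuaternionGroup 2) ∨ Nonempty (N ≃* Matrix.SpecialLinearGroup (Fin 2) (ZMod 5)) := by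
  classical
  haveI := finite_group (p := p) (V := V)
  rcases subsingleton_or_nontrivial V with hV | hV
  · obtain ⟨W, hW, hW', -⟩ := hI ⊥ inferInstance Bot.isCyclic
    exact absurd (Subsingleton.elim W ⊥) hW
  have hreg' : Reg H := hreg
  have hfpf := fpfGroup hreg'
  haveI := hNn
  haveI := hAn
  set D := (commutator N).map N.subtype with hD
  haveI : D.Normal := ConjAct.normal_of_characteristic_of_normal
  have hDN : D ≤ N := Subgroup.map_subtype_le _
  by_cases hDc : IsMulCommutative D
  swap
  · haveI : Nontrivial N := by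
      by_contra h
      haveI := not_nontrivial_iff_subsingleton.mp h
      exact hNna ⟨⟨fun _ _ => Subsingleton.elim _ _⟩⟩
    refine Or.inr ((hfpf.subgroup N).nonempty_mulEquiv_sl ?_)
    refine Subgroup.map_injective N.subtype_injective ?_
    rw [← MonoidHom.range_eq_map, Subgroup.range_subtype]
    exact hNmin D inferInstance hDN hDc
  left
  -- the derived group is central
  have hDA : D ≤ A := by
    refine le_of_le_of_eq le_sup_left (hAmax (D ⊔ A) (Subgroup.sup_normal _ _) ?_ le_sup_right)
    have hcomm : ∀ x ∈ D, ∀ y ∈ A, y * x = x * y := fun x hx y hy =>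
      Subgroup.mem_centralizer_iff.mp (hNle (hDN hx)) y hy
    refine ⟨⟨fun u v => Subtype.ext ?_⟩⟩
    obtain ⟨x, hx, y, hy, hu⟩ := Subgroup.mem_sup_of_normal_right.mp u.2
    obtain ⟨x', hx', y', hy', hv⟩ := Subgroup.mem_sup_of_normal_right.mp v.2
    have h1 : x * x' = x' * x := congrArg Subtype.val (hDc.is_comm.comm ⟨x, hx⟩ ⟨x', hx'⟩)
    have h2 : y * y' = y' * y := congrArg Subtype.val (hAc.is_comm.comm ⟨y, hy⟩ ⟨y', hy'⟩)
    show (u : H) * v = v * u
    rw [← hu, ← hv]
    calc x * y * (x' * y') = x * (y * x') * y' := by group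
      _ = (x * x') * (y * y') := by rw [hcomm x' hx' y hy]; group
      _ = (x' * x) * (y' * y) := by rw [h1, h2]
      _ = x' * (x * y') * y := by group
      _ = x' * y' * (x * y) := by rw [← hcomm x hx y' hy']; group
  have hcent : commutator N ≤ Subgroup.center N := fun x hx => Subgroup.mem_center_iff.mpr fun y =>
    Subtype.ext ((Subgroup.mem_centralizer_iff.mp (hNle y.2) x (hDA ⟨x, hx, rfl⟩)).symm)
  haveI : Group.IsNilpotent N :=
    Subgroup.isNilpotent_of_ker_le_center (Abelianization.of (G := N)) (by rwa [Abelianization.ker_of])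
  haveI : Fact (Nat.Prime 2) := ⟨Nat.prime_two⟩
  obtain ⟨T⟩ : Nonempty (Sylow 2 N) := inferInstance
  have hTn : (T : Subgroup N).Normal :=
    (Group.isNilpotent_of_finite_tfae.out 0 3 rfl rfl).mp ‹Group.IsNilpotent N› 2 ‹_› T
  set T' := (T : Subgroup N).map N.subtype with hT'
  have hTnc : ¬ IsMulCommutative T' := by
    intro hTc
    haveI := hTc
    haveI hTcyc := isCyclic_of_isMulCommutative hfpf T'
    haveI : IsZGroup N := by
      refine ⟨fun q hq P => ?_⟩
      haveI := Fact.mk hq
      rcases eq_or_ne q 2 with rfl | hq2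
      · haveI := Sylow.unique_of_normal T hTn
        rw [Subsingleton.elim P T]
        exact isCyclic_of_surjective _
          ((T : Subgroup N).equivMapOfInjective _ N.subtype_injective).symm.surjective
      · haveI := isCyclic_of_isPGroup hfpf hq2 (P.2.map N.subtype)
        exact isCyclic_of_surjective _
          ((P : Subgroup N).equivMapOfInjective _ N.subtype_injective).symm.surjective
    have hNcyc : IsCyclic N := inferInstance
    exact hNna ⟨⟨fun x y => by letI := hNcyc.commGroup; exact mul_comm x y⟩⟩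
  haveI : T'.Normal := by
    haveI := T.characteristic_of_normal hTn
    exact ConjAct.normal_of_characteristic_of_normal
  have hNT : T' = N := hNmin T' inferInstance (Subgroup.map_subtype_le _) hTnc
  have hN2 : IsPGroup 2 N := hNT ▸ T.2.map N.subtype
  have huniq : ∀ X Y : Subgroup N, Nat.card X = 2 → Nat.card Y = 2 → X = Y := by
    have key : ∀ (X : Subgroup N), Nat.card X = 2 → ∀ x ∈ X, x ≠ 1 → orderOf ((x : N) : H) = 2 := by
      intro X hX x hx hx1
      rw [Subgroup.orderOf_coe]
      refine orderOf_eq_prime ?_ hx1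
      have := pow_card_eq_one' (x := (⟨x, hx⟩ : X))
      rw [hX] at this
      exact congrArg Subtype.val this
    intro X Y hX hY
    refine Subgroup.eq_of_le_of_card_ge (fun x hx => ?_) (by rw [hX, hY])
    rcases eq_or_ne x 1 with rfl | hx1
    · exact one_mem _
    haveI : Nontrivial Y := Finite.one_lt_card_iff_nontrivial.mp (by omega)
    obtain ⟨⟨y, hy⟩, hy1⟩ := exists_ne (1 : Y)
    have hy1' : y ≠ 1 := fun e => hy1 (Subtype.ext e)
    have : x = y := Subtype.ext (involution_unique hfpf (key X hX x hx hx1) (key Y hY y hy hy1'))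
    exact this ▸ hy
  rcases Cfsg.Agent.Lib.UniqueInvolution.isCyclic_or_quaternion hN2 huniq with h | ⟨-, n, hn1, ⟨e⟩⟩
  · exact absurd ⟨⟨fun x y => by letI := h.commGroup; exact mul_comm x y⟩⟩ hNna
  · haveI : NeZero (2 ^ n) := ⟨by positivity⟩
    have hdvd := quaternion_class_two (m := 2 ^ n) fun x y z => by
      apply e.symm.injective
      simp only [map_mul, map_inv]
      have hmem : ⁅e.symm x, e.symm y⁆ ∈ commutator N :=
        Subgroup.commutator_mem_commutator (Subgroup.mem_top _) (Subgroup.mem_top _)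
      rw [commutatorElement_def] at hmem
      exact ((Subgroup.mem_center_iff.mp (hcent hmem)) (e.symm z)).symm
    have hn : n = 1 := le_antisymm
      ((Nat.pow_le_pow_iff_right (le_refl 2)).mp (Nat.le_of_dvd two_pos hdvd) |>.trans_eq rfl) hn1
    subst hn
    exact ⟨e.trans (by rw [pow_one])⟩

end Cfsg.Agent.S0686
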