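import Cfsg.Statements.S0688
import Cfsg.Agent.Lib.Perm.SharpLinear
import Cfsg.Agent.Lib.ZassSL25.SixTypes

set_option autoImplicit false
open Cfsg

namespace Cfsg.Agent.S0688

open Cfsg.Agent.Lib.SharpLinear Cfsg.Agent.Lib.ZassSL25

theorem pow_small : ∀ l, 5 ≤ l → 24 * l + 1 < 3 ^ l := by
  intro l hl
  induction l, hl using Nat.le_induction with
  | base => norm_num
  | succ l hl ih =>
    rw [pow_succ]
    omega

set_option synthInstance.maxSize 4000 in
set_option synthInstance.maxHeartbeats 400000 in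
theorem arith_table : ∀ p : ℕ, p < 98 → ∀ k : ℕ, k < 5 → ∀ l : ℕ, l < 5 → ∀ d : ℕ, d < 5 →
    (p ^ k ≤ 24 * l + 1 ∧ 1 ≤ d ∧ d ≤ l ∧ l ≤ k ∧ p ^ (l + k) - 1 ∣ 24 * d * (p ^ l - 1) ∧ 3 ≤ p ∧
    Nat.Prime p) →
    (l + k = 2 ∧ (p = 3 ∨ p = 5 ∨ p = 7 ∨ p = 11 ∨ p = 23)) := by decide +kernel

theorem arith {p n l s d B : ℕ} (hp : p.Prime) (hl : 1 ≤ l) (hln : 2 * l ≤ n)
    (hs : s = 1 ∨ s = 4 ∨ s = 12 ∨ s = 24) (hd : d ≤ l)
    (hcard : p ^ n - 1 = s * (d * B)) (hB : B ∣ p ^ l - 1) :
    p ^ n = 25 ∨ p ^ n = 49 ∨ p ^ n = 121 ∨ p ^ n = 529 ∨ p ^ n = 9 := by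
  have hpl : 2 ≤ p ^ l := hp.two_le.trans (Nat.le_self_pow (by omega) p)
  have hlp : l < p ^ l := Nat.lt_pow_self hp.one_lt
  have hle := Nat.le_of_dvd (by omega) hB
  have hsq : p ^ l * p ^ l ≤ p ^ n := by
    rw [← pow_add]; exact Nat.pow_le_pow_right hp.pos (by omega)
  have hdB : d * B ≤ l * (p ^ l - 1) := Nat.mul_le_mul hd hle
  have hn2 : 2 ≤ p ^ n := hp.two_le.trans (Nat.le_self_pow (by omega) p)
  have hd1 : 1 ≤ d := by
    by_contra hc
    rw [show d = 0 by omega, zero_mul, mul_zero] at hcard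
    omega
  rcases eq_or_ne s 1 with rfl | hs1
  · exfalso
    rw [one_mul] at hcard
    have h1 : l * (p ^ l - 1) ≤ p ^ l * (p ^ l - 1) := Nat.mul_le_mul_right _ hlp.le
    have h0 : p ^ l * (p ^ l - 1) + p ^ l = p ^ l * p ^ l := by
      rw [← Nat.mul_succ]; congr 1; omega
    omega
  have h4 : 4 ∣ s := by rcases hs with rfl | rfl | rfl | rfl <;> first | omega | norm_num
  have hp3 : 3 ≤ p := by
    by_contra hc
    have hp2 : p = 2 := by have := hp.two_le; omega
    subst hp2
    have h1 : 2 ∣ 2 ^ n := dvd_pow_self 2 (by omega)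
    have h2 : 4 ∣ 2 ^ n - 1 := hcard ▸ h4.mul_right _
    omega
  have hdvd : p ^ n - 1 ∣ 24 * d * (p ^ l - 1) := by
    rw [hcard, ← mul_assoc]
    exact Nat.mul_dvd_mul (Nat.mul_dvd_mul_right (by rcases hs with rfl | rfl | rfl | rfl <;> norm_num) d) hB
  have hsplit : p ^ n = p ^ (n - l) * p ^ l := by rw [← pow_add]; congr 1; omega
  have hk : p ^ (n - l) ≤ 24 * l + 1 := by
    have h1 : p ^ n - 1 ≤ 24 * l * (p ^ l - 1) := by
      refine le_trans (Nat.le_of_dvd ?_ hdvd) (Nat.mul_le_mul_right _ (Nat.mul_le_mul_left _ hd))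
      exact Nat.mul_pos (Nat.mul_pos (by norm_num) hd1) (by omega)
    by_contra hc
    have h2 : (24 * l + 2) * p ^ l ≤ p ^ (n - l) * p ^ l := Nat.mul_le_mul_right _ (by omega)
    have h3 : 24 * l * (p ^ l - 1) ≤ 24 * l * p ^ l := Nat.mul_le_mul_left _ (Nat.sub_le _ _)
    rw [add_mul] at h2
    omega
  have hl4 : l < 5 := by
    by_contra hc
    have h1 := pow_small l (by omega)
    have h2 : 3 ^ l ≤ p ^ (n - l) :=
      (Nat.pow_le_pow_left hp3 l).trans (Nat.pow_le_pow_right hp.pos (by omega))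
    omega
  have hk5 : n - l < 5 := by
    by_contra hc
    have h2 : 3 ^ 5 ≤ p ^ (n - l) :=
      (Nat.pow_le_pow_left hp3 5).trans (Nat.pow_le_pow_right hp.pos (by omega))
    omega
  have hp98 : p < 98 := by
    have : p ≤ p ^ (n - l) := Nat.le_self_pow (by omega) p
    omega
  obtain ⟨he, h⟩ := arith_table p hp98 (n - l) hk5 l hl4 d (by omega) ⟨hk, hd1, hd, by omega,
    by rw [show l + (n - l) = n by omega]; exact hdvd, hp3, hp⟩
  rw [show n = 2 by omega]
  rcases h with rfl | rfl | rfl | rfl | rfl <;> norm_num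

theorem not_solvable_alt_five : ¬ Group.IsSolvable (alternatingGroup (Fin 5)) := fun h => by
  haveI := h
  have := Equiv.Perm.fin_5_not_solvable
  exact this (solvable_of_ker_le_range (alternatingGroup (Fin 5)).subtype Equiv.Perm.sign
    (by rw [Subgroup.range_subtype]; exact le_of_eq rfl))

/-- Degrees of the soluble exceptional sharply doubly transitive groups: if a solvable linear group over the prime field is regular on the non-zero vectors of `V` and has no irreducible cyclic normal subgroup, then `V` has 25, 49, 121 or 529 elements. -/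
theorem result {p : ℕ} [Fact p.Prime] {V : Type*} [AddCommGroup V] [Module (ZMod p) V] [Finite V] (H : Subgroup (V ≃ₗ[ZMod p] V)) (hreg : ∀ v w : V, v ≠ 0 → w ≠ 0 → ∃! h : H, (h : V ≃ₗ[ZMod p] V) v = w) (hI : ∀ A : Subgroup H, A.Normal → IsCyclic A → ∃ W : Submodule (ZMod p) V, W ≠ ⊥ ∧ W ≠ ⊤ ∧ ∀ a ∈ A, ∀ v ∈ W, ((a : H) : V ≃ₗ[ZMod p] V) v ∈ W) (hsolv : Group.IsSolvable H) : Nat.card V = 25 ∨ Nat.card V = 49 ∨ Nat.card V = 121 ∨ Nat.card V = 529 := by
  classical
  haveI := finite_group (p := p) (V := V)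
  rcases subsingleton_or_nontrivial V with hV | hV
  · obtain ⟨W, hW, hW', -⟩ := hI ⊥ inferInstance Bot.isCyclic
    exact absurd (Subsingleton.elim W ⊥) hW
  have hreg' : Reg H := hreg
  have hfpf := fpfGroup hreg'
  haveI := hsolv
  haveI : Module.Finite (ZMod p) V := Module.Finite.of_finite
  obtain ⟨N, ⟨hNn, hNZ, hNq⟩, -⟩ := sixTypes_unique hfpf
  haveI := hNn
  haveI := hNZ
  have hsidx : N.index = 1 ∨ N.index = 4 ∨ N.index = 12 ∨ N.index = 24 := by
    have hq : ∀ {L : Type} [Group L] (f : H →* L), Function.Surjective f → f.ker = N →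
        N.index = Nat.card L := fun f hf hk => by
      rw [← hk, Subgroup.index_ker, MonoidHom.range_eq_top.2 hf, Subgroup.card_top]
    rcases hNq with rfl | ⟨f, hf, hk⟩ | ⟨f, hf, hk⟩ | ⟨f, hf, hk⟩ | ⟨f, hf, hk⟩ | ⟨f, hf, hk⟩
    · exact Or.inl Subgroup.index_top
    · exact Or.inr (Or.inl (by rw [hq f hf hk, Nat.card_eq_fintype_card, DihedralGroup.card]))
    · exact Or.inr (Or.inr (Or.inl (by rw [hq f hf hk, card_alt_four])))
    · exact Or.inr (Or.inr (Or.inr (by rw [hq f hf hk, card_perm_four])))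
    · exact absurd (solvable_of_surjective hf) not_solvable_alt_five
    · exact absurd (solvable_of_surjective hf) Equiv.Perm.fin_5_not_solvable
  -- a maximal cyclic normal subgroup inside `N`
  obtain ⟨B, ⟨hBn, hBN, hBc⟩, hBmax⟩ :=
    (Set.toFinite {B : Subgroup H | B.Normal ∧ B ≤ N ∧ IsCyclic B}).exists_maximal
      ⟨⊥, inferInstance, bot_le, Bot.isCyclic⟩
  haveI := hBn
  haveI := hBc
  set C := N ⊓ Subgroup.centralizer (B : Set H) with hC
  have hBC : B ≤ C := le_inf hBN fun x hx => Subgroup.mem_centralizer_iff.mpr fun y hy => by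
    letI := hBc.commGroup
    exact congrArg Subtype.val (mul_comm (⟨y, hy⟩ : B) ⟨x, hx⟩)
  have hCB : C ≤ B := by
    by_contra hne
    haveI : C.Normal := by rw [hC]; infer_instance
    let S : ℕ → Subgroup H := fun k => (derivedSeries C k).map C.subtype
    have hS0 : ¬ S 0 ≤ B := by
      simpa [S, derivedSeries_zero, ← MonoidHom.range_eq_map, Subgroup.range_subtype] using hne
    haveI : Group.IsSolvable C := inferInstance
    obtain ⟨m, hm⟩ := (isSolvable_def C).mp inferInstance
    have hex : ∃ k, S k ≤ B := ⟨m, by simp [S, hm]⟩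
    have hk0 : Nat.find hex ≠ 0 := fun e => hS0 (e ▸ Nat.find_spec hex)
    obtain ⟨k, hk⟩ := Nat.exists_eq_succ_of_ne_zero hk0
    have hSk : ¬ S k ≤ B := Nat.find_min hex (by omega)
    have hSk1 : S (k + 1) ≤ B := by have := Nat.find_spec hex; rwa [hk] at this
    haveI : (S k).Normal := ConjAct.normal_of_characteristic_of_normal
    set D := S k ⊔ B with hD
    have hDC : D ≤ C := sup_le (Subgroup.map_subtype_le _) hBC
    haveI : IsZGroup D := IsZGroup.of_injective
      (f := Subgroup.inclusion (hDC.trans inf_le_left)) (Subgroup.inclusion_injective _)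
    have hcent : ∀ x ∈ D, ∀ y ∈ B, x * y = y * x := fun x hx y hy =>
      ((Subgroup.mem_centralizer_iff.mp (hDC hx).2) y hy).symm
    have hder : ∀ x ∈ D, ∀ y ∈ D, x * y * x⁻¹ * y⁻¹ ∈ B := by
      intro x hx y hy
      obtain ⟨s, hs, c, hc, rfl⟩ := Subgroup.mem_sup_of_normal_right.mp hx
      obtain ⟨t, ht, e, he, rfl⟩ := Subgroup.mem_sup_of_normal_right.mp hy
      have h1 : s * c * (t * e) * (s * c)⁻¹ * (t * e)⁻¹ = s * t * s⁻¹ * t⁻¹ := by
        have hsD : s ∈ D := Subgroup.mem_sup_left hs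
        have htD : t ∈ D := Subgroup.mem_sup_left ht
        have heD : e ∈ D := Subgroup.mem_sup_right he
        calc s * c * (t * e) * (s * c)⁻¹ * (t * e)⁻¹
            = s * (c * (t * e)) * c⁻¹ * s⁻¹ * e⁻¹ * t⁻¹ := by group
          _ = s * ((t * e) * c) * c⁻¹ * s⁻¹ * e⁻¹ * t⁻¹ := by
              rw [hcent _ (mul_mem htD heD) c hc]
          _ = s * t * (e * s⁻¹) * e⁻¹ * t⁻¹ := by group
          _ = s * t * s⁻¹ * t⁻¹ := by rw [← hcent _ (inv_mem hsD) e he]; group
      rw [h1]
      refine hSk1 ?_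
      obtain ⟨s', hs', rfl⟩ := hs
      obtain ⟨t', ht', rfl⟩ := ht
      refine ⟨s' * t' * s'⁻¹ * t'⁻¹, ?_, by simp⟩
      rw [SetLike.mem_coe, derivedSeries_succ]
      simpa [commutatorElement_def] using Subgroup.commutator_mem_commutator hs' ht'
    haveI : Group.IsNilpotent D := by
      refine Subgroup.isNilpotent_of_ker_le_center (Abelianization.of (G := D)) ?_
      rw [Abelianization.ker_of, _root_.commutator_def, Subgroup.commutator_le]
      intro x _ y _
      rw [Subgroup.mem_center_iff]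
      intro z
      refine Subtype.ext ?_
      simp only [commutatorElement_def, Subgroup.coe_mul, Subgroup.coe_inv]
      exact hcent _ z.2 _ (hder _ x.2 _ y.2)
    have hDcyc : IsCyclic D := inferInstance
    exact hSk (le_sup_left.trans (hBmax ⟨Subgroup.sup_normal _ _, hDC.trans inf_le_left, hDcyc⟩ le_sup_right))
  obtain ⟨W₀, hne, hnt, hW₀⟩ := hI B hBn hBc
  obtain ⟨b, rfl⟩ := (Subgroup.isCyclic_iff_exists_zpowers_eq_top B).mp hBc
  obtain ⟨W, hle, hW⟩ := exists_minInv (b := b)
    (fun v hv => hW₀ b (Subgroup.mem_zpowers b) v hv : Invar H b W₀) hne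
  have hceq : Subgroup.centralizer (Subgroup.zpowers b : Set H) = Subgroup.centralizer ({b} : Set H) := by
    rw [Subgroup.zpowers_eq_closure, Subgroup.centralizer_closure]
  have hrel : (Subgroup.zpowers b).relIndex N ≤ Module.finrank (ZMod p) W := by
    rw [le_antisymm hBC hCB, hC, hceq, Subgroup.inf_relIndex_left]
    refine le_trans ?_ (index_centralizer_le hreg' hBn hW)
    rw [← Subgroup.relIndex_top_right]
    exact Subgroup.relIndex_le_of_le_right le_top
      (by rw [Subgroup.relIndex_top_right]; exact Subgroup.index_ne_zero_of_finite)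
  have hlpos : 1 ≤ Module.finrank (ZMod p) W := by
    haveI : Nontrivial W := Submodule.nontrivial_iff_ne_bot.mpr hW.2.1
    exact Module.finrank_pos
  have hcard : p ^ Module.finrank (ZMod p) V - 1 =
      N.index * ((Subgroup.zpowers b).relIndex N * Nat.card (Subgroup.zpowers b)) := by
    rw [← card_eq hreg', ← N.card_mul_index, ← Subgroup.relIndex_bot_left N,
      ← Subgroup.relIndex_mul_relIndex ⊥ (Subgroup.zpowers b) N bot_le hBN,
      Subgroup.relIndex_bot_left]
    ring
  have hV' : Nat.card V = p ^ Module.finrank (ZMod p) V := by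
    haveI := Fintype.ofFinite V
    rw [Nat.card_eq_fintype_card, Module.card_eq_pow_finrank (K := ZMod p), ZMod.card]
  have hres := arith (Fact.out : p.Prime) hlpos
    (two_mul_le hreg' hBn hW fun e => hnt (top_le_iff.mp (e ▸ hle))) hsidx hrel hcard
    (card_zpowers_dvd hreg' hW.1)
  rw [← hV'] at hres
  rcases hres with h | h | h | h | h
  · exact Or.inl h
  · exact Or.inr (Or.inl h)
  · exact Or.inr (Or.inr (Or.inl h))
  · exact Or.inr (Or.inr (Or.inr h))
  · exfalso
    -- nine points: a cyclic normal subgroup of order four would be irreducible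
    rw [hV'] at h
    have hp3 : p = 3 ∧ Module.finrank (ZMod p) V = 2 := by
      have h3 : p ∣ 9 := h ▸ dvd_pow_self p (fun e => by rw [e, pow_zero] at h; omega)
      have hp3 : p = 3 := by
        have hle := Nat.le_of_dvd (by norm_num) h3
        have hpp := (Fact.out : p.Prime)
        interval_cases p <;> first | rfl | omega | (norm_num at hpp)
      refine ⟨hp3, ?_⟩
      subst hp3
      exact Nat.pow_right_injective (show 2 ≤ 3 by norm_num) (h.trans (by norm_num : (9 : ℕ) = 3 ^ 2))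
    obtain ⟨rfl, hn⟩ := hp3
    have h8 : Nat.card H = 8 := by rw [card_eq hreg', h]
    obtain ⟨g, hg⟩ : ∃ g : H, orderOf g = 4 := by
      by_contra hno
      push Not at hno
      have hsq : ∀ g : H, g * g = 1 := fun g => by
        obtain ⟨j, hj, hjo⟩ := (Nat.dvd_prime_pow Nat.prime_two).mp
          (show orderOf g ∣ 2 ^ 3 by rw [← show Nat.card H = 2 ^ 3 from h8]; exact orderOf_dvd_natCard g)
        have hj1 : j ≠ 2 := fun e => hno g (by rw [hjo, e]; norm_num)
        rcases (show j ≤ 1 ∨ j = 3 by omega) with h | h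
        · rw [← pow_two, ← orderOf_dvd_iff_pow_eq_one, hjo]
          exact pow_dvd_pow 2 h |>.trans (by norm_num)
        · exact absurd (by
            rw [orderOf_pow' g two_ne_zero, hjo, h]; norm_num : orderOf (g ^ 2) = 4) (hno _)
      haveI hcm : IsMulCommutative (⊤ : Subgroup H) := ⟨⟨fun x y => Subtype.ext (by
        have h1 := hsq ((x : H) * y)
        have hx := eq_inv_of_mul_eq_one_left (hsq (x : H))
        have hy := eq_inv_of_mul_eq_one_left (hsq (y : H))
        calc (x : H) * y = ((x : H) * y)⁻¹ := eq_inv_of_mul_eq_one_left h1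
          _ = (y : H)⁻¹ * (x : H)⁻¹ := mul_inv_rev _ _
          _ = y * x := by rw [← hx, ← hy])⟩⟩
      haveI := isCyclic_of_isMulCommutative hfpf (⊤ : Subgroup H)
      obtain ⟨x, hx⟩ := IsCyclic.exists_ofOrder_eq_natCard (α := (⊤ : Subgroup H))
      rw [Subgroup.card_top, h8] at hx
      have : orderOf x ∣ 2 := orderOf_dvd_of_pow_eq_one (Subtype.ext (by
        rw [Subgroup.coe_pow, pow_two]; exact hsq _))
      rw [hx] at this
      norm_num at this
    have hnorm : (Subgroup.zpowers g).Normal := Subgroup.normal_of_index_eq_two (by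
      have := (Subgroup.zpowers g).card_mul_index
      rw [Nat.card_zpowers, hg, h8] at this
      omega)
    obtain ⟨U₀, hUne, hUnt, hU₀⟩ := hI _ hnorm inferInstance
    obtain ⟨U, hUle, hU⟩ := exists_minInv (b := g)
      (fun v hv => hU₀ g (Subgroup.mem_zpowers g) v hv : Invar H g U₀) hUne
    have h1 := two_mul_le hreg' hnorm hU fun e => hUnt (top_le_iff.mp (e ▸ hUle))
    have h2 := card_zpowers_dvd hreg' hU.1
    rw [Nat.card_zpowers, hg] at h2
    haveI : Nontrivial U := Submodule.nontrivial_iff_ne_bot.mpr hU.2.1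
    have h3 : 0 < Module.finrank (ZMod 3) U := Module.finrank_pos
    rw [hn] at h1
    rw [show Module.finrank (ZMod 3) U = 1 by omega] at h2
    norm_num at h2

end Cfsg.Agent.S0688
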