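import Cfsg.Statements.S0689
import Mathlib.RingTheory.LittleWedderburn
import Cfsg.Agent.Lib.ZassSL25.Structure

set_option autoImplicit false
open Cfsg

namespace Cfsg.Agent.S0689

theorem card_sl : Nat.card (Matrix.SpecialLinearGroup (Fin 2) (ZMod 5)) = 120 := by
  rw [Nat.card_eq_fintype_card]
  decide +kernel

set_option synthInstance.maxSize 4000 in
set_option synthInstance.maxHeartbeats 400000 in
theorem arith_two : ∀ p : ℕ, p < 240 → ∀ i : ℕ, i < 3 → Nat.Prime p → 7 ≤ p → 120 * i ∣ p * p - 1 → i ≠ 0 →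
    ((p * p - 1) / (120 * i)).Coprime 30 → (p * p - 1) / (120 * i) ∣ p - 1 →
    i = 1 ∧ (p = 11 ∨ p = 29 ∨ p = 59) := by decide +kernel

set_option synthInstance.maxSize 4000 in
set_option synthInstance.maxHeartbeats 400000 in
theorem arith_three : ∀ p : ℕ, p < 16 → ∀ i : ℕ, i < 3 → Nat.Prime p → 7 ≤ p → 120 * i ∣ p ^ 3 - 1 → i ≠ 0 →
    ((p ^ 3 - 1) / (120 * i)).Coprime 30 → ¬ (p ^ 3 - 1) / (120 * i) ∣ p - 1 := by decide +kernel

set_option synthInstance.maxSize 4000 in
set_option synthInstance.maxHeartbeats 400000 in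
theorem arith_four : ∀ p : ℕ, p < 16 → ∀ i : ℕ, i < 3 → Nat.Prime p → 7 ≤ p → 120 * i ∣ p ^ 4 - 1 → i ≠ 0 →
    ((p ^ 4 - 1) / (120 * i)).Coprime 30 → ¬ (p ^ 4 - 1) / (120 * i) ∣ p ^ 2 - 1 := by
  decide +kernel

theorem arith {p n l i a : ℕ} (hp : p.Prime) (hl : 1 ≤ l) (hln : 2 * l ≤ n) (hi : i = 1 ∨ i = 2)
    (hcard : p ^ n - 1 = 120 * i * a) (ha : a ∣ p ^ l - 1) (hcop : a.Coprime 30) :
    i = 1 ∧ n = 2 ∧ (p = 11 ∧ a = 1 ∨ p = 29 ∧ a = 7 ∨ p = 59 ∧ a = 29) := by
  have hn : n ≠ 0 := by omega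
  have hp7 : 7 ≤ p := by
    have h1 : ∀ r, r.Prime → r ∣ 120 → p ≠ r := by
      intro r hr hrd hpr
      subst hpr
      have h2 : p ∣ p ^ n := dvd_pow_self p hn
      have h3 : p ∣ p ^ n - 1 := hcard ▸ Dvd.dvd.mul_right (Dvd.dvd.mul_right hrd i) a
      have h4 := Nat.dvd_sub h2 h3
      rw [Nat.sub_sub_self (Nat.one_le_pow n p hp.pos), Nat.dvd_one] at h4
      exact hp.one_lt.ne' h4
    have := h1 2 Nat.prime_two (by norm_num)
    have := h1 3 Nat.prime_three (by norm_num)
    have := h1 5 Nat.prime_five (by norm_num)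
    have := hp.two_le
    have : p ≠ 4 := fun e => by subst e; norm_num at hp
    have : p ≠ 6 := fun e => by subst e; norm_num at hp
    omega
  have hpl : 2 ≤ p ^ l := hp.two_le.trans (Nat.le_self_pow (by omega) p)
  have hale : a ≤ p ^ l - 1 := Nat.le_of_dvd (by omega) ha
  have h240 : p ^ (n - l) < 240 := by
    have hsplit : p ^ n = p ^ (n - l) * p ^ l := by rw [← pow_add]; congr 1; omega
    have : 120 * i * a ≤ 240 * (p ^ l - 1) := Nat.mul_le_mul (by omega) hale
    by_contra hc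
    have : 240 * p ^ l ≤ p ^ (n - l) * p ^ l := Nat.mul_le_mul_right _ (le_of_not_gt hc)
    omega
  have hd : n - l ≤ 2 := by
    by_contra hc
    have h1 : 7 ^ 3 ≤ p ^ (n - l) :=
      (Nat.pow_le_pow_left hp7 3).trans (Nat.pow_le_pow_right hp.pos (by omega))
    omega
  have hdvd : 120 * i ∣ p ^ n - 1 := ⟨a, hcard⟩
  have ha' : a = (p ^ n - 1) / (120 * i) := by rw [hcard, Nat.mul_div_cancel_left a (by omega)]
  have hi' : i < 3 ∧ i ≠ 0 := by omega
  have hcases : (n = 2 ∧ l = 1) ∨ (n = 3 ∧ l = 1) ∨ (n = 4 ∧ l = 2) := by omega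
  have hp16 : n - l = 2 → p < 16 := by
    intro e
    rw [e, pow_two] at h240
    by_contra hc
    have := Nat.mul_le_mul (le_of_not_gt hc) (le_of_not_gt hc)
    omega
  rcases hcases with ⟨rfl, rfl⟩ | ⟨rfl, rfl⟩ | ⟨rfl, rfl⟩
  · rw [pow_one] at h240 ha
    rw [pow_two] at hdvd ha'
    subst ha'
    obtain ⟨rfl, h⟩ := arith_two p h240 i hi'.1 hp hp7 hdvd hi'.2 hcop ha
    refine ⟨rfl, rfl, ?_⟩
    rcases h with rfl | rfl | rfl <;> norm_num
  · rw [pow_one] at ha
    subst ha'
    exact absurd ha (arith_three p (hp16 rfl) i hi'.1 hp hp7 hdvd hi'.2 hcop)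
  · subst ha'
    exact absurd ha (arith_four p (hp16 rfl) i hi'.1 hp hp7 hdvd hi'.2 hcop)

/-- A group acting freely on the nonzero vectors of a subspace has order dividing their number. -/
theorem card_dvd_free {M X : Type*} [Group M] [MulAction M X]
    (h : ∀ (m : M) (x : X), m • x = x → m = 1) : Nat.card M ∣ Nat.card X := by
  have hst : ∀ x : X, MulAction.stabilizer M x = ⊥ := fun x =>
    (Subgroup.eq_bot_iff_forall _).mpr fun m hm => h m x hm
  rw [Nat.card_congr (MulAction.selfEquivOrbitsQuotientProd hst), Nat.card_prod]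
  exact dvd_mul_left _ _

/-- The insoluble sharply doubly transitive groups: a non-solvable linear group over the prime field that is regular on the non-zero vectors of `V` occurs only for `|V| = 11², 29², 59²`, and is `SL(2,5) × C_m` with `m = 1, 7, 29` respectively. -/
theorem result {p : ℕ} [Fact p.Prime] {V : Type*} [AddCommGroup V] [Module (ZMod p) V] [Finite V] (H : Subgroup (V ≃ₗ[ZMod p] V)) (hreg : ∀ v w : V, v ≠ 0 → w ≠ 0 → ∃! h : H, (h : V ≃ₗ[ZMod p] V) v = w) (hsolv : ¬ Group.IsSolvable H) : (Nat.card V = 121 ∧ Nonempty (H ≃* Matrix.SpecialLinearGroup (Fin 2) (ZMod 5))) ∨ (Nat.card V = 841 ∧ Nonempty (H ≃* Matrix.SpecialLinearGroup (Fin 2) (ZMod 5) × Multiplicative (ZMod 7))) ∨ (Nat.card V = 3481 ∧ Nonempty (H ≃* Matrix.SpecialLinearGroup (Fin 2) (ZMod 5) × Multiplicative (ZMod 29))) := by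
  classical
  rcases subsingleton_or_nontrivial V with hV | hV
  · refine absurd ?_ hsolv
    have : Subsingleton H := ⟨fun x y => Subtype.ext (LinearEquiv.ext fun v => Subsingleton.elim _ _)⟩
    exact ⟨⟨0, Subgroup.eq_bot_iff_forall _ |>.mpr fun g _ => Subsingleton.elim g 1⟩⟩
  haveI : Finite (V ≃ₗ[ZMod p] V) :=
    Finite.of_injective (fun f : V ≃ₗ[ZMod p] V => (f : V → V)) DFunLike.coe_injective
  haveI : Module.Finite (ZMod p) V := Module.Finite.of_finite
  obtain ⟨v₀, hv₀⟩ := exists_ne (0 : V)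
  have hfree : ∀ (h : H) (v : V), v ≠ 0 → (h : V ≃ₗ[ZMod p] V) v = v → h = 1 := fun h v hv e =>
    (hreg v v hv hv).unique e rfl
  have hH : Nat.card H = p ^ Module.finrank (ZMod p) V - 1 := by
    let e : H → {v : V // v ≠ 0} := fun h =>
      ⟨(h : V ≃ₗ[ZMod p] V) v₀, fun e => hv₀ ((LinearEquiv.map_eq_zero_iff _).mp e)⟩
    have he : Function.Bijective e := ⟨fun x y hxy =>
      (hreg v₀ (e x).1 hv₀ (e x).2).unique rfl (congrArg Subtype.val hxy).symm,
      fun w => ⟨(hreg v₀ w.1 hv₀ w.2).exists.choose,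
        Subtype.ext (hreg v₀ w.1 hv₀ w.2).exists.choose_spec⟩⟩
    haveI := Fintype.ofFinite V
    rw [Nat.card_congr (Equiv.ofBijective e he), Nat.card_eq_fintype_card,
      Fintype.card_subtype_compl, Fintype.card_subtype_eq, Module.card_eq_pow_finrank (K := ZMod p),
      ZMod.card]
  -- `H` is a Frobenius complement
  have hFPF : Lib.ZassSL25.FPFGroup H := by
    haveI := Fintype.ofFinite H
    let a : H →* MulAut (Multiplicative V) :=
      { toFun := fun h => AddEquiv.toMultiplicative (h : V ≃ₗ[ZMod p] V).toAddEquiv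
        map_one' := rfl
        map_mul' := fun _ _ => rfl }
    obtain ⟨χ, hχ⟩ := Lib.ZassSL25.exists_fpfChar a fun h hh t ht => by
      by_contra ht1
      exact hh (hfree h t.toAdd (fun e => ht1 (Multiplicative.toAdd.injective e))
        (congrArg Multiplicative.toAdd ht))
    exact hχ.fpfGroup
  obtain ⟨D⟩ := Lib.ZassSL25.exists_nonsolvData hFPF hsolv
  haveI := D.S_normal
  haveI := D.M_normal
  set N := D.S ⊔ D.M with hN
  have hle : N.index ≤ 2 := by
    haveI := Lib.Icosa.finite_mulAut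
    set I := (MulAut.conj : alternatingGroup (Fin 5) →* _).range
    have hcomap : N = I.comap D.act := Subgroup.ext fun g => (D.inner g).symm
    rw [hcomap, Subgroup.index_comap]
    refine le_trans (Subgroup.relIndex_le_of_le_right le_top (by
      rw [Subgroup.relIndex_top_right]; exact Subgroup.index_ne_zero_of_finite)) ?_
    rw [Subgroup.relIndex_top_right]
    have h1 := I.card_mul_index
    rw [Lib.Icosa.card_inner] at h1
    have h2 := Lib.Icosa.card_mulAut_le
    omega
  have hpos : N.index ≠ 0 := Subgroup.index_ne_zero_of_finite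
  let φ : D.S × D.M →* H :=
    { toFun := fun x => (x.1 : H) * x.2
      map_one' := by simp
      map_mul' := fun x y => by
        simp only [Prod.fst_mul, Prod.snd_mul, Subgroup.coe_mul]
        rw [mul_assoc, ← mul_assoc (y.1 : H), (D.commutes _ y.1.2 _ x.2.2).eq]
        group }
  have hφi : Function.Injective φ := (injective_iff_map_eq_one φ).mpr fun x hx => by
    have h1 : (x.1 : H) = (x.2 : H)⁻¹ := eq_inv_of_mul_eq_one_left hx
    have h2 : (x.1 : H) ∈ D.S ⊓ D.M := ⟨x.1.2, by rw [h1]; exact D.M.inv_mem x.2.2⟩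
    rw [D.disjoint, Subgroup.mem_bot] at h2
    refine Prod.ext (Subtype.ext h2) (Subtype.ext ?_)
    simpa [h2] using h1.symm
  have hφr : φ.range = N := by
    refine le_antisymm ?_ (sup_le (fun s hs => ⟨(⟨s, hs⟩, 1), by simp [φ]⟩)
      fun m hm => ⟨(1, ⟨m, hm⟩), by simp [φ]⟩)
    rintro _ ⟨x, rfl⟩
    exact mul_mem (Subgroup.mem_sup_left x.1.2) (Subgroup.mem_sup_right x.2.2)
  obtain ⟨eS⟩ := D.iso
  have hN120 : Nat.card N = 120 * Nat.card D.M := by
    rw [← hφr, ← Nat.card_congr (MonoidHom.ofInjective hφi).toEquiv, Nat.card_prod,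
      Nat.card_congr eS.toEquiv, card_sl]
  -- an element of the enveloping ring of `S` that is neither zero nor invertible
  let act : H → Module.End (ZMod p) V := fun h => ((h : V ≃ₗ[ZMod p] V) : V →ₗ[ZMod p] V)
  have hactmul : ∀ g h, act (g * h) = act g * act h := fun _ _ => rfl
  set R : Subring (Module.End (ZMod p) V) := Subring.closure (Set.range fun s : D.S => act s) with hR
  have hcomm : ∀ r ∈ R, ∀ m : D.M, r * act m = act m * r := by
    intro r hr m
    have hsub : R ≤ Subring.centralizer {act m} := Subring.closure_le.mpr (by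
      rintro _ ⟨s, rfl⟩
      rw [SetLike.mem_coe, Subring.mem_centralizer_iff]
      rintro _ rfl
      show act m * act s = act s * act m
      rw [← hactmul, ← hactmul, (D.commutes _ s.2 _ m.2).eq])
    exact (Subring.mem_centralizer_iff.mp (hsub hr) _ rfl).symm
  obtain ⟨r, hrR, hr0, hrk⟩ : ∃ r ∈ R, r ≠ 0 ∧ LinearMap.ker r ≠ ⊥ := by
    by_contra hcon
    push Not at hcon
    haveI : Finite (Module.End (ZMod p) V) :=
      Finite.of_injective (fun f : Module.End (ZMod p) V => (f : V → V)) DFunLike.coe_injective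
    haveI : NoZeroDivisors R := ⟨fun {x y} hxy => by
      by_contra hne
      push Not at hne
      have hx : (x : Module.End (ZMod p) V) ≠ 0 := fun e => hne.1 (Subtype.ext e)
      refine hne.2 (Subtype.ext (LinearMap.ext fun v => ?_))
      have h2 := LinearMap.congr_fun (congrArg Subtype.val hxy) v
      simp only [Subring.coe_mul, Module.End.mul_apply, ZeroMemClass.coe_zero,
        LinearMap.zero_apply] at h2 ⊢
      exact LinearMap.ker_eq_bot'.mp (hcon _ x.2 hx) _ h2⟩
    haveI : IsDomain R := NoZeroDivisors.to_isDomain _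
    have hfield := Finite.isDomain_to_isField R
    have habel : ∀ s t : D.S, s * t = t * s := fun s t => by
      have h1 := congrArg Subtype.val (hfield.mul_comm (⟨act s, Subring.subset_closure ⟨s, rfl⟩⟩ : R)
        ⟨act t, Subring.subset_closure ⟨t, rfl⟩⟩)
      refine Subtype.ext (Subtype.ext (LinearEquiv.ext fun v => ?_))
      exact LinearMap.congr_fun h1 v
    have h2 : ∀ x y : Matrix.SpecialLinearGroup (Fin 2) (ZMod 5), x * y = y * x := fun x y =>
      eS.symm.injective (by rw [map_mul, map_mul, habel])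
    let A : Matrix.SpecialLinearGroup (Fin 2) (ZMod 5) :=
      ⟨!![1, 1; 0, 1], by simp [Matrix.det_fin_two]⟩
    let B : Matrix.SpecialLinearGroup (Fin 2) (ZMod 5) :=
      ⟨!![1, 0; 1, 1], by simp [Matrix.det_fin_two]⟩
    have h3 : A * B = B * A := h2 A B
    exact absurd (congrArg (fun z : Matrix.SpecialLinearGroup (Fin 2) (ZMod 5) =>
      (z : Matrix (Fin 2) (Fin 2) (ZMod 5)) 0 0) h3) (by decide +kernel)
  have hinvW : ∀ W : Submodule (ZMod p) V, (∀ m : D.M, ∀ w ∈ W, act m w ∈ W) →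
      Nat.card D.M ∣ p ^ Module.finrank (ZMod p) W - 1 := by
    intro W hW
    let A : MulAction D.M {w : W // w ≠ 0} :=
      { smul := fun m w => ⟨⟨act m w.1.1, hW m _ w.1.2⟩, fun e => w.2 (Subtype.ext
          ((LinearEquiv.map_eq_zero_iff ((m : H) : V ≃ₗ[ZMod p] V)).mp (congrArg Subtype.val e)))⟩
        one_smul := fun _ => rfl
        mul_smul := fun _ _ _ => rfl }
    have h1 := card_dvd_free (M := D.M) (X := {w : W // w ≠ 0}) fun m w e =>
      Subtype.ext (hfree m w.1.1 (fun e0 => w.2 (Subtype.ext e0))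
        (congrArg (fun z : {w : W // w ≠ 0} => (z.1 : V)) e))
    haveI := Fintype.ofFinite W
    rwa [Nat.card_eq_fintype_card (α := {w : W // w ≠ 0}), Fintype.card_subtype_compl,
      Fintype.card_subtype_eq, Module.card_eq_pow_finrank (K := ZMod p), ZMod.card] at h1
  obtain ⟨l, hl1, hl2, hlM⟩ : ∃ l, 1 ≤ l ∧ 2 * l ≤ Module.finrank (ZMod p) V ∧
      Nat.card D.M ∣ p ^ l - 1 := by
    have hk : ∀ m : D.M, ∀ w ∈ LinearMap.ker r, act m w ∈ LinearMap.ker r := fun m w hw => by
      rw [LinearMap.mem_ker] at hw ⊢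
      have := LinearMap.congr_fun (hcomm r hrR m) w
      simp only [Module.End.mul_apply] at this
      rw [this, hw, map_zero]
    have hrg : ∀ m : D.M, ∀ w ∈ LinearMap.range r, act m w ∈ LinearMap.range r := by
      rintro m _ ⟨v, rfl⟩
      exact ⟨act m v, LinearMap.congr_fun (hcomm r hrR m) v⟩
    have hadd := LinearMap.finrank_range_add_finrank_ker r
    have h1 : 0 < Module.finrank (ZMod p) (LinearMap.ker r) :=
      Module.finrank_pos_iff.mpr ((Submodule.nontrivial_iff_ne_bot).mpr hrk)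
    have h2 : 0 < Module.finrank (ZMod p) (LinearMap.range r) :=
      Module.finrank_pos_iff.mpr ((Submodule.nontrivial_iff_ne_bot).mpr
        (mt LinearMap.range_eq_bot.mp hr0))
    rcases le_total (Module.finrank (ZMod p) (LinearMap.ker r))
      (Module.finrank (ZMod p) (LinearMap.range r)) with h | h
    · exact ⟨_, h1, by omega, hinvW _ hk⟩
    · exact ⟨_, h2, by omega, hinvW _ hrg⟩
  have hHN : p ^ Module.finrank (ZMod p) V - 1 = 120 * N.index * Nat.card D.M := by
    rw [← hH, ← N.card_mul_index, hN120]; ring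
  obtain ⟨hidx, hn, hpa⟩ := arith (Fact.out : p.Prime) hl1 hl2 (by omega) hHN hlM D.M_coprime
  have hcV : Nat.card V = p ^ 2 := by
    haveI := Fintype.ofFinite V
    rw [Nat.card_eq_fintype_card, Module.card_eq_pow_finrank (K := ZMod p), ZMod.card, hn]
  have hbij : Function.Bijective φ := ⟨hφi, fun h => by
    show h ∈ φ.range
    rw [hφr, Subgroup.index_eq_one.mp hidx]; trivial⟩
  let eH : H ≃* D.S × D.M := (MulEquiv.ofBijective φ hbij).symm
  have hprime : ∀ m : ℕ, m.Prime → Nat.card D.M = m →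
      Nonempty (H ≃* Matrix.SpecialLinearGroup (Fin 2) (ZMod 5) × Multiplicative (ZMod m)) := by
    intro m hm hcard
    haveI := Fact.mk hm
    exact ⟨eH.trans (eS.prodCongr (mulEquivOfPrimeCardEq hcard (by simp)))⟩
  rcases hpa with ⟨rfl, ha⟩ | ⟨rfl, ha⟩ | ⟨rfl, ha⟩
  · refine Or.inl ⟨by rw [hcV]; norm_num, ⟨eH.trans ?_⟩⟩
    haveI : Unique D.M :=
      { default := 1, uniq := fun x => (Nat.card_eq_one_iff_unique.mp ha).1.elim x 1 }
    exact MulEquiv.prodUnique.trans eS
  · exact Or.inr (Or.inl ⟨by rw [hcV]; norm_num, hprime 7 (by norm_num) ha⟩)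
  · exact Or.inr (Or.inr ⟨by rw [hcV]; norm_num, hprime 29 (by norm_num) ha⟩)

end Cfsg.Agent.S0689
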