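import Cfsg.Statements.S0687
import Cfsg.Agent.Lib.Perm.SharpLinear
import Cfsg.Agent.S0688
import Cfsg.Agent.S0689

set_option autoImplicit false
open Cfsg

namespace Cfsg.Agent.S0687

open Cfsg.Agent.Lib.SharpLinear

theorem eq_two_of_sq {p n : ℕ} (hp : p.Prime) {N : ℕ} (hN : p ^ n = N)
    (h : N = 25 ∨ N = 49 ∨ N = 121 ∨ N = 529 ∨ N = 841 ∨ N = 3481) : n = 2 := by
  have key : ∀ q : ℕ, q.Prime → p ^ n = q ^ 2 → n = 2 := by
    intro q hq he
    have hpq : p = q := by
      have hn : n ≠ 0 := fun e => by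
        rw [e, pow_zero] at he
        exact absurd he.symm (Nat.one_lt_pow two_ne_zero hq.one_lt).ne'
      exact (Nat.prime_dvd_prime_iff_eq hp hq).mp (hp.dvd_of_dvd_pow (he ▸ dvd_pow_self p hn))
    subst hpq
    exact Nat.pow_right_injective hp.two_le he
  subst hN
  rcases h with h | h | h | h | h | h
  · exact key 5 (by norm_num) (h.trans (by norm_num))
  · exact key 7 (by norm_num) (h.trans (by norm_num))
  · exact key 11 (by norm_num) (h.trans (by norm_num))
  · exact key 23 (by norm_num) (h.trans (by norm_num))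
  · exact key 29 (by norm_num) (h.trans (by norm_num))
  · exact key 59 (by norm_num) (h.trans (by norm_num))

/-- In a linear group over the prime field that is regular on non-zero vectors and has no irreducible cyclic normal subgroup, a normal subgroup `N` minimal among the non-abelian normal subgroups centralising a maximal normal abelian subgroup `A` is irreducible on `V`, and its centraliser is `A`. -/
theorem result {p : ℕ} [Fact p.Prime] {V : Type*} [AddCommGroup V] [Module (ZMod p) V] [Finite V] (H : Subgroup (V ≃ₗ[ZMod p] V)) (hreg : ∀ v w : V, v ≠ 0 → w ≠ 0 → ∃! h : H, (h : V ≃ₗ[ZMod p] V) v = w) (hI : ∀ A : Subgroup H, A.Normal → IsCyclic A → ∃ W : Submodule (ZMod p) V, W ≠ ⊥ ∧ W ≠ ⊤ ∧ ∀ a ∈ A, ∀ v ∈ W, ((a : H) : V ≃ₗ[ZMod p] V) v ∈ W) (A : Subgroup H) (hAn : A.Normal) (hAc : IsMulCommutative A) (hAmax : ∀ B : Subgroup H, B.Normal → IsMulCommutative B → A ≤ B → B = A) (N : Subgroup H) (hNn : N.Normal) (hNle : N ≤ Subgroup.centralizer (A : Set H)) (hNna : ¬ IsMulCommutative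 N) (hNmin : ∀ M : Subgroup H, M.Normal → M ≤ N → ¬ IsMulCommutative M → M = N) : (∀ W : Submodule (ZMod p) V, (∀ n ∈ N, ∀ v ∈ W, ((n : H) : V ≃ₗ[ZMod p] V) v ∈ W) → W = ⊥ ∨ W = ⊤) ∧ Subgroup.centralizer (N : Set H) = A := by
  classical
  haveI := finite_group (p := p) (V := V)
  rcases subsingleton_or_nontrivial V with hV | hV
  · obtain ⟨W, hW, hW', -⟩ := hI ⊥ inferInstance Bot.isCyclic
    exact absurd (Subsingleton.elim W ⊥) hW
  have hreg' : Reg H := hreg
  haveI : Module.Finite (ZMod p) V := Module.Finite.of_finite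
  have hcV : Nat.card V = p ^ Module.finrank (ZMod p) V := by
    haveI := Fintype.ofFinite V
    rw [Nat.card_eq_fintype_card, Module.card_eq_pow_finrank (K := ZMod p), ZMod.card]
  have hn : Module.finrank (ZMod p) V = 2 := by
    refine eq_two_of_sq (Fact.out : p.Prime) hcV.symm ?_
    by_cases hs : Group.IsSolvable H
    · rcases S0688.result H hreg hI hs with h | h | h | h <;> rw [h] <;> norm_num
    · rcases S0689.result H hreg hs with ⟨h, -⟩ | ⟨h, -⟩ | ⟨h, -⟩ <;> rw [h] <;> norm_num
  have hirr : ∀ W : Submodule (ZMod p) V,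
      (∀ n ∈ N, ∀ v ∈ W, ((n : H) : V ≃ₗ[ZMod p] V) v ∈ W) → W = ⊥ ∨ W = ⊤ := by
    intro W hW
    rcases eq_or_ne W ⊥ with h | hWb
    · exact Or.inl h
    refine Or.inr ?_
    by_contra hWt
    haveI : Nontrivial W := Submodule.nontrivial_iff_ne_bot.mpr hWb
    have h1 : Module.finrank (ZMod p) W = 1 := by
      have := Submodule.finrank_lt hWt
      have : 0 < Module.finrank (ZMod p) W := Module.finrank_pos
      omega
    obtain ⟨⟨w, hw⟩, hw0, hgen⟩ := finrank_eq_one_iff'.mp h1
    have hw0' : w ≠ 0 := fun e => hw0 (Subtype.ext e)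
    refine hNna ⟨⟨fun x y => Subtype.ext ?_⟩⟩
    have hsc : ∀ x : N, ∃ c : ZMod p, act H (x : H) w = c • w := fun x => by
      obtain ⟨c, hc⟩ := hgen ⟨_, hW x x.2 w hw⟩
      exact ⟨c, (congrArg Subtype.val hc).symm⟩
    obtain ⟨c, hc⟩ := hsc x
    obtain ⟨e, he⟩ := hsc y
    have h2 : act H (((y : H) * x)⁻¹ * (x * y)) w = w := by
      rw [act_mul, act_mul, he, map_smul, hc, smul_comm, ← he, ← map_smul, ← hc, ← act_mul, ← act_mul,
        mul_assoc, inv_mul_cancel]
      rfl
    exact (inv_mul_eq_one.mp (hreg'.free hw0' h2)).symm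
  refine ⟨hirr, hAmax _ inferInstance ?_ (Subgroup.le_centralizer_iff.mp hNle)⟩
  haveI := hNn
  set C := Subgroup.centralizer (N : Set H) with hC
  haveI : Finite (Module.End (ZMod p) V) :=
    Finite.of_injective (fun f : Module.End (ZMod p) V => (f : V → V)) DFunLike.coe_injective
  set R : Subring (Module.End (ZMod p) V) := Subring.centralizer (Set.range fun x : N => act H x) with hR
  haveI : NoZeroDivisors R := ⟨fun {x y} hxy => by
    by_contra hne
    push Not at hne
    have hinv : ∀ n ∈ N, ∀ v ∈ LinearMap.ker (x : Module.End (ZMod p) V),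
        ((n : H) : V ≃ₗ[ZMod p] V) v ∈ LinearMap.ker (x : Module.End (ZMod p) V) := by
      intro n hn v hv
      rw [LinearMap.mem_ker] at hv ⊢
      have := LinearMap.congr_fun (Subring.mem_centralizer_iff.mp x.2 _ ⟨⟨n, hn⟩, rfl⟩) v
      simp only [Module.End.mul_apply, hv, map_zero] at this
      exact this.symm
    rcases hirr _ hinv with h | h
    · refine hne.2 (Subtype.ext (LinearMap.ext fun v => ?_))
      have h2 := LinearMap.congr_fun (congrArg Subtype.val hxy) v
      simp only [Subring.coe_mul, Module.End.mul_apply, ZeroMemClass.coe_zero,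
        LinearMap.zero_apply] at h2 ⊢
      exact LinearMap.ker_eq_bot'.mp h _ h2
    · exact hne.1 (Subtype.ext (LinearMap.ker_eq_top.mp h))⟩
  haveI : IsDomain R := NoZeroDivisors.to_isDomain _
  have hfield := Finite.isDomain_to_isField R
  have hmem : ∀ c : C, act H (c : H) ∈ R := fun c => Subring.mem_centralizer_iff.mpr (by
    rintro _ ⟨n, rfl⟩
    refine LinearMap.ext fun v => ?_
    show act H (n : H) (act H (c : H) v) = act H (c : H) (act H (n : H) v)
    rw [← act_mul, ← act_mul, (Subgroup.mem_centralizer_iff.mp c.2) n n.2])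
  refine ⟨⟨fun x y => ?_⟩⟩
  have h1 := congrArg Subtype.val (hfield.mul_comm (⟨_, hmem x⟩ : R) ⟨_, hmem y⟩)
  exact Subtype.ext (Subtype.ext (LinearEquiv.ext fun v => LinearMap.congr_fun h1 v))

end Cfsg.Agent.S0687
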