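import Cfsg.Statements.S0690
import Mathlib
import Cfsg.Agent.Lib.ZassSL25.Main

set_option autoImplicit false
open Cfsg

namespace Cfsg.Agent.S0690

/-- Zassenhaus: a perfect non-trivial group of fixed-point-free automorphisms of a finite group is isomorphic to `SL(2,5)`. -/
theorem result {K : Type*} [Group K] [Finite K] (G : Subgroup (MulAut K)) (hfpf : ∀ φ ∈ G, φ ≠ 1 → ∀ k : K, φ k = k → k = 1) (hperf : commutator G = ⊤) (hne : G ≠ ⊥) : Nonempty (G ≃* Matrix.SpecialLinearGroup (Fin 2) (ZMod 5)) := by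
  haveI : Finite (MulAut K) := Finite.of_injective (fun f : MulAut K => (f : K → K)) fun _ _ e => MulEquiv.ext (congrFun e)
  haveI : Nontrivial G := G.nontrivial_iff_ne_bot.2 hne
  haveI := Fintype.ofFinite G
  have hK : Nontrivial K := by
    by_contra h
    haveI := not_nontrivial_iff_subsingleton.1 h
    exact hne ((Subgroup.eq_bot_iff_forall G).2 fun φ _ => MulEquiv.ext fun k => Subsingleton.elim _ _)
  obtain ⟨χ, hχ⟩ := Lib.ZassSL25.exists_fpfChar G.subtype
    (fun g hg k hk => hfpf g g.2 (fun e => hg (Subtype.ext e)) k hk)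
  exact hχ.fpfGroup.nonempty_mulEquiv_sl hperf

end Cfsg.Agent.S0690
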