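import Cfsg.Statements.S0691
import Cfsg.Agent.Lib.Perm.Mat2
import Mathlib.Algebra.Group.Subgroup.Pointwise

set_option autoImplicit false
open Cfsg

namespace Cfsg.Agent.S0691

open Cfsg.Agent.Lib.Perm Matrix

/-- The generators as quadruples. -/
def gq : List Mat2.Q := [(2, 0, 0, 3), (0, 4, 1, 0), (1, 2, 1, 3)]

/-- Words for the elements. -/
def words : List (List ℕ) :=
  [[], [0], [1], [2], [0, 0], [1, 0], [2, 0], [0, 1], [2, 1], [1, 2],
    [2, 2], [0, 0, 0], [1, 0, 0], [2, 0, 0], [1, 2, 0], [2, 2, 0], [2, 0, 1], [2, 2, 1], [0, 1, 2], [2, 1, 2],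
    [2, 2, 0, 0], [2, 1, 2, 0], [2, 2, 0, 1], [2, 0, 1, 2]]

/-- Left multiplication table. -/
def table : List (List ℕ) :=
  [[1, 2, 3], [4, 5, 6], [7, 4, 8], [8, 9, 10], [11, 12, 13], [2, 11, 9], [9, 14, 15], [12, 1, 16], [13, 6, 17], [18, 13, 19],
    [19, 15, 0], [0, 7, 18], [5, 0, 14], [14, 16, 20], [3, 18, 21], [21, 20, 1], [6, 3, 22], [15, 22, 2], [16, 8, 23], [20, 17, 5],
    [22, 23, 4], [23, 19, 12], [10, 21, 7], [17, 10, 11]]

theorem nodup : (words.map (Mat2.evalQ 5 gq)).Nodup := by decide +kernel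

theorem closed : ∀ k < words.length, ∀ i < 3, (table.getD k []).getD i 0 < words.length ∧
    Mat2.evalQ 5 gq (i :: words.getD k []) =
      Mat2.evalQ 5 gq (words.getD ((table.getD k []).getD i 0) []) := by decide +kernel

theorem length_eq : words.length = 24 := by decide +kernel

theorem free : ∀ k < words.length, k ≠ 0 → Mat2.freeQ 5 1 (Mat2.evalQ 5 gq (words.getD k [])) = true := by
  decide +kernel

instance : Fact (Nat.Prime 5) := ⟨by decide⟩

/-- An exceptional sharply doubly transitive group of degree 5^2: the listed matrices generate a subgroup of GL(2,5) of order 24 acting regularly on the non-zero vectors. -/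
theorem result (A : Matrix.GeneralLinearGroup (Fin 2) (ZMod 5)) (B : Matrix.GeneralLinearGroup (Fin 2) (ZMod 5)) (C : Matrix.GeneralLinearGroup (Fin 2) (ZMod 5)) (hA : (A : Matrix (Fin 2) (Fin 2) (ZMod 5)) = !![2, 0; 0, -2]) (hB : (B : Matrix (Fin 2) (Fin 2) (ZMod 5)) = !![0, -1; 1, 0]) (hC : (C : Matrix (Fin 2) (Fin 2) (ZMod 5)) = !![1, 2; 1, -2]) : Nat.card (Subgroup.closure ({A, B, C} : Set (Matrix.GeneralLinearGroup (Fin 2) (ZMod 5)))) = 24 ∧ ∀ v w : Fin 2 → ZMod 5, v ≠ 0 → w ≠ 0 → ∃! h : Subgroup.closure ({A, B, C} : Set (Matrix.GeneralLinearGroup (Fin 2) (ZMod 5))), Matrix.mulVec ((h : Matrix.GeneralLinearGroup (Fin 2) (ZMod 5)) : Matrix (Fin 2) (Fin 2) (ZMod 5)) v = w := by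
  have hg : ∀ i, (([A, B, C].getD i 1 : Matrix.GeneralLinearGroup (Fin 2) (ZMod 5)) : Matrix (Fin 2) (Fin 2) (ZMod 5)) =
      Mat2.toM 5 (gq.getD i (1, 0, 0, 1)) := fun i => by
    match i with
    | 0 => rw [show ([A, B, C].getD 0 1) = A from rfl, hA]; decide
    | 1 => rw [show ([A, B, C].getD 1 1) = B from rfl, hB]; decide
    | 2 => rw [show ([A, B, C].getD 2 1) = C from rfl, hC]; decide
    | j + 3 => rw [List.getD_eq_default _ _ (by simp), List.getD_eq_default _ _ (by simp [gq]), Units.val_one, Mat2.toM_one]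
  obtain ⟨hcard, hrep⟩ := Mat2.closure_spec [A, B, C] gq hg words table rfl (by rw [length_eq]; norm_num) closed nodup
  rw [length_eq] at hcard
  have hset : ({g | g ∈ [A, B, C]} : Set _) = ({A, B, C} : Set (Matrix.GeneralLinearGroup (Fin 2) (ZMod 5))) := by
    ext g; simp
  rw [hset] at hcard hrep
  refine ⟨hcard, (Mat2.sharply_transitive _ fun h hh v hv hfix => ?_).2 (by rw [hcard]; rfl)⟩
  obtain ⟨k, hk, hk'⟩ := hrep h hh
  by_cases h0 : k = 0
  · subst h0
    refine Units.ext ?_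
    rw [hk', Units.val_one, ← Mat2.toM_one]
    rfl
  · refine absurd (Mat2.fixed_point_free (free k hk h0) v ?_) hv
    rwa [Nat.cast_one, one_smul, ← hk']

end Cfsg.Agent.S0691
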