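import Cfsg.Statements.S0694
import Mathlib.FieldTheory.Finite.Basic
import Mathlib.Algebra.Ring.GeomSum
import Mathlib.RingTheory.Int.Basic
import Mathlib.Data.Nat.Factorization.Induction
import Mathlib.Tactic

set_option autoImplicit false
open Cfsg

namespace Cfsg.Agent.S0694

open Finset

/-- geometric sum -/
def S (q i : ℕ) : ℕ := ∑ j ∈ range i, q ^ j

theorem S_mul (q a b : ℕ) : S q (a * b) = S q a * S (q ^ a) b := by
  induction b with
  | zero => simp [S]
  | succ b ih =>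
    have e : S q (a * b + a) = S q (a * b) + q ^ (a * b) * S q a := by
      simp only [S, sum_range_add, mul_sum, pow_add]
    rw [Nat.mul_succ, e, ih, show S (q ^ a) (b + 1) = S (q ^ a) b + (q ^ a) ^ b from
      sum_range_succ _ _, ← pow_mul]
    ring

theorem S_dvd_S (q : ℕ) {a b : ℕ} (h : a ∣ b) : S q a ∣ S q b := by
  obtain ⟨c, rfl⟩ := h
  rw [S_mul]; exact dvd_mul_right _ _

theorem S_eq (q i : ℕ) (hq : 1 ≤ q) : S q i * (q - 1) + 1 = q ^ i := by
  obtain ⟨u, rfl⟩ : ∃ u, q = u + 1 := ⟨q - 1, by omega⟩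
  rw [Nat.add_sub_cancel, S]
  exact geom_sum_mul_add u i

theorem dvd_iff (q n i : ℕ) (hq : 2 ≤ q) : q ^ i ≡ 1 [MOD n * (q - 1)] ↔ n ∣ S q i := by
  rw [Nat.ModEq.comm, Nat.modEq_iff_dvd' (Nat.one_le_pow _ _ (by omega))]
  rw [show q ^ i - 1 = S q i * (q - 1) by rw [← S_eq q i (by omega)]; omega]
  exact Nat.mul_dvd_mul_iff_right (by omega)

theorem cast_S {R : Type*} [CommRing R] (q i : ℕ) (h : (q : R) = 1) : ((S q i : ℕ) : R) = i := by
  simp [S, h]

theorem cast_eq_one {q r : ℕ} (hq1 : 1 ≤ q) (h : r ∣ q - 1) : (q : ZMod r) = 1 := by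
  have := (ZMod.natCast_eq_zero_iff _ _).mpr h
  rw [Nat.cast_sub hq1, sub_eq_zero, Nat.cast_one] at this
  exact this
theorem pow_dvd_S {q r : ℕ} (hq1 : 1 ≤ q) (h : r ∣ q - 1) (a : ℕ) : r ^ a ∣ S q (r ^ a) := by
  induction a with
  | zero => simp
  | succ a ih =>
    rw [pow_succ, S_mul]
    refine mul_dvd_mul ih ((ZMod.natCast_eq_zero_iff _ _).mp ?_)
    rw [cast_S _ _ (by rw [Nat.cast_pow, cast_eq_one hq1 h, one_pow]), ZMod.natCast_self]

theorem two_pow_dvd_S {q : ℕ} (h : 4 ∣ q + 1) (a : ℕ) : 2 ^ (a + 2) ∣ S q (2 ^ (a + 1)) := by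
  induction a with
  | zero => simpa [S, sum_range_succ, add_comm] using h
  | succ a ih =>
    rw [pow_succ, pow_succ 2 (a + 1), S_mul]
    refine mul_dvd_mul ih ((ZMod.natCast_eq_zero_iff _ _).mp ?_)
    have hq : (q : ZMod 2) = 1 := by
      have : q % 2 = 1 := by omega
      rw [← ZMod.natCast_mod, this, Nat.cast_one]
    rw [cast_S _ _ (by rw [Nat.cast_pow, hq, one_pow]), ZMod.natCast_self]

theorem sq_not_dvd {q r : ℕ} (hr : r.Prime) (hq1 : 1 ≤ q) (h : r ∣ q - 1)
    (h4 : r = 2 → 4 ∣ q - 1) : ¬ r ^ 2 ∣ S q r := by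
  intro hd
  have hd' : ((S q r : ℕ) : ZMod (r ^ 2)) = 0 := (ZMod.natCast_eq_zero_iff _ _).mpr hd
  obtain ⟨u, hu⟩ := h
  have hx : (q : ZMod (r ^ 2)) = 1 + (r : ZMod (r ^ 2)) * u := by
    rw [← Nat.cast_mul, ← hu, Nat.cast_sub hq1, Nat.cast_one]; ring
  have hr2 : ((r : ZMod (r ^ 2))) ^ 2 = 0 := by rw [← Nat.cast_pow, ZMod.natCast_self]
  have hpow : ∀ j : ℕ, (q : ZMod (r ^ 2)) ^ j = 1 + (j : ZMod (r ^ 2)) * r * u := by
    intro j
    induction j with
    | zero => simp
    | succ j ih => rw [pow_succ (q : ZMod (r ^ 2)) j, ih, hx]; push_cast; linear_combination ((j : ZMod (r ^ 2)) * u * u) * hr2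
  have hsum : ((S q r : ℕ) : ZMod (r ^ 2)) = r := by
    simp only [S, Nat.cast_sum, Nat.cast_pow, hpow, sum_add_distrib, sum_const, card_range,
      nsmul_eq_mul, mul_one, ← sum_mul]
    rw [← Nat.cast_sum, ← Nat.cast_mul, ← Nat.cast_mul]
    suffices h : r ^ 2 ∣ (∑ j ∈ range r, j) * r * u by
      rw [(ZMod.natCast_eq_zero_iff _ _).mpr h, add_zero]
    rcases hr.eq_two_or_odd' with rfl | ho
    · obtain ⟨v, hv⟩ := h4 rfl
      rw [show ∑ j ∈ range 2, j = 1 by simp [sum_range_succ]]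
      exact ⟨v, by omega⟩
    · obtain ⟨w, hw⟩ := ho
      have := sum_range_id_mul_two r
      have he : ∑ j ∈ range r, j = r * w := by
        rw [show r - 1 = 2 * w by omega] at this
        nlinarith
      exact ⟨w * u, by rw [he]; ring⟩
  rw [hsum, ZMod.natCast_eq_zero_iff] at hd'
  have := Nat.le_of_dvd hr.pos hd'
  have := hr.two_le
  nlinarith

theorem not_pow_dvd {q r : ℕ} (hr : r.Prime) (hq1 : 1 ≤ q) (h : r ∣ q - 1) :
    ∀ (b m : ℕ), (b = 0 ∨ (r = 2 → 4 ∣ q - 1)) → ¬ r ∣ m → ¬ r ^ (b + 1) ∣ S q (m * r ^ b) := by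
  intro b
  induction b with
  | zero =>
    intro m _ hm hd
    rw [pow_one, pow_zero, mul_one, ← ZMod.natCast_eq_zero_iff, cast_S _ _ (cast_eq_one hq1 h),
      ZMod.natCast_eq_zero_iff] at hd
    exact hm hd
  | succ b ih =>
    intro m hb hm hd
    have h4 := hb.resolve_left (Nat.succ_ne_zero b)
    rw [pow_succ r b, ← mul_assoc, S_mul] at hd
    set Q := q ^ (m * r ^ b) with hQ
    have hQ1 : 1 ≤ Q := Nat.one_le_pow _ _ (by omega)
    have hQd : q - 1 ∣ Q - 1 := ⟨S q (m * r ^ b), by rw [hQ, ← S_eq q (m * r ^ b) hq1, mul_comm]; omega⟩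
    have hT : r ∣ S Q r ∧ ¬ r ^ 2 ∣ S Q r :=
      ⟨by simpa using pow_dvd_S hQ1 (h.trans hQd) 1,
        sq_not_dvd hr hQ1 (h.trans hQd) fun e => (h4 e).trans hQd⟩
    obtain ⟨w, hw⟩ := hT.1
    rw [hw, pow_succ, ← mul_assoc (S q (m * r ^ b)), mul_comm (S q (m * r ^ b)) r, mul_assoc r,
      mul_comm _ r] at hd
    have hd2 := (Nat.mul_dvd_mul_iff_left hr.pos).mp hd
    have hwr : ¬ r ∣ w := fun hdw => hT.2 (by rw [hw, sq]; exact Nat.mul_dvd_mul_left r hdw)
    exact ih m (Or.inr h4) hm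
      ((Nat.Coprime.pow_left (b + 1) ((hr.coprime_iff_not_dvd).mpr hwr)).dvd_of_dvd_mul_right hd2)

/-- The Dickson pair condition: for a prime power `q` and `n > 1`, (every prime factor of `n` divides `q - 1`, and `4 ∣ n → 4 ∣ q - 1`) holds exactly when `q ^ n ≡ 1` modulo `n * (q - 1)` but `q ^ i` is not, for `0 < i < n`. -/
theorem result (q n : ℕ) (hq : IsPrimePow q) (hn : 1 < n) : ((∀ r : ℕ, r.Prime → r ∣ n → r ∣ q - 1) ∧ (4 ∣ n → 4 ∣ q - 1)) ↔ (q ^ n ≡ 1 [MOD n * (q - 1)] ∧ ∀ i : ℕ, 0 < i → i < n → ¬ q ^ i ≡ 1 [MOD n * (q - 1)]) := by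
  classical
  open Finset in
  have hq2 : 2 ≤ q := hq.two_le
  simp only [dvd_iff q n _ hq2]
  constructor
  · rintro ⟨hA, h4⟩
    refine ⟨?_, ?_⟩
    · rw [Nat.dvd_iff_prime_pow_dvd_dvd]
      intro r a hr hra
      rcases Nat.eq_zero_or_pos a with rfl | ha
      · simp
      · exact (pow_dvd_S (by omega) (hA r hr ((dvd_pow_self r ha.ne').trans hra)) a).trans (S_dvd_S q hra)
    · intro i hi hin hd
      have hn' : n ∣ S q n := by
        rw [Nat.dvd_iff_prime_pow_dvd_dvd]
        intro r a hr hra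
        rcases Nat.eq_zero_or_pos a with rfl | ha
        · simp
        · exact (pow_dvd_S (by omega) (hA r hr ((dvd_pow_self r ha.ne').trans hra)) a).trans
            (S_dvd_S q hra)
      set g := Nat.gcd i n with hg
      have hg' : n ∣ S q g := by
        rw [← dvd_iff q n g hq2, Nat.ModEq.comm, Nat.modEq_iff_dvd' (Nat.one_le_pow _ _ (by omega)),
          hg, ← Nat.pow_sub_one_gcd_pow_sub_one]
        have e : ∀ j, n ∣ S q j → n * (q - 1) ∣ q ^ j - 1 := fun j hj => by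
          rw [← Nat.modEq_iff_dvd' (Nat.one_le_pow _ _ (by omega))]
          exact ((dvd_iff q n j hq2).mpr hj).symm
        exact Nat.dvd_gcd (e i hd) (e n hn')
      have hgn : g ∣ n := Nat.gcd_dvd_right _ _
      have hne : g ≠ n := fun e => by
        have : n ≤ i := e ▸ Nat.gcd_le_left n hi
        omega
      obtain ⟨c, hc⟩ := hgn
      have hc1 : c ≠ 1 := fun e => hne (by rw [hc, e, mul_one])
      obtain ⟨r, hr, hrc⟩ := Nat.exists_prime_and_dvd hc1
      obtain ⟨c', rfl⟩ := hrc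
      have hn0 : n ≠ 0 := by omega
      obtain ⟨a, m, hm, hnm⟩ := Nat.exists_eq_pow_mul_and_not_dvd hn0 r hr.ne_one
      have hrn : r ∣ n := ⟨g * c', by rw [hc]; ring⟩
      obtain ⟨b, rfl⟩ : ∃ b, a = b + 1 := ⟨a - 1, by
        rcases Nat.eq_zero_or_pos a with rfl | h
        · rw [hnm, pow_zero, one_mul] at hrn; exact absurd hrn hm
        · omega⟩
      have hdiv : g ∣ m * r ^ b := by
        refine ⟨c', Nat.eq_of_mul_eq_mul_left hr.pos ?_⟩
        calc r * (m * r ^ b) = n := by rw [hnm]; ring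
          _ = r * (g * c') := by rw [hc]; ring
      refine not_pow_dvd hr (by omega) (hA r hr hrn) b m ?_ hm
        (((Dvd.intro m hnm.symm).trans hg').trans (S_dvd_S q hdiv))
      by_cases hb : b = 0
      · exact Or.inl hb
      · refine Or.inr fun e => h4 ?_
        subst e
        exact (pow_dvd_pow 2 (show 2 ≤ b + 1 by omega)).trans (Dvd.intro m hnm.symm)
  · rintro ⟨hn', hmin⟩
    have hcop : ∀ r, r.Prime → r ∣ n → ¬ r ∣ q := by
      intro r hr hrn hrq
      have h := (ZMod.natCast_eq_zero_iff _ _).mpr (hrn.trans hn')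
      have h0 : (q : ZMod r) = 0 := (ZMod.natCast_eq_zero_iff _ _).mpr hrq
      have := Fact.mk hr
      obtain ⟨n', rfl⟩ : ∃ n', n = n' + 1 := ⟨n - 1, by omega⟩
      simp [S, sum_range_succ', h0] at h
    have key : ∀ r : ℕ, r.Prime → r ∣ n → (¬ r ∣ q - 1 ∨ (r = 2 ∧ 4 ∣ n ∧ ¬ 4 ∣ q - 1)) → False := by
      intro r hr hrn hbad
      obtain ⟨a, m, hm, hnm⟩ := Nat.exists_eq_pow_mul_and_not_dvd (show n ≠ 0 by omega) r hr.ne_one
      have ha : 0 < a := by
        rcases Nat.eq_zero_or_pos a with rfl | h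
        · rw [hnm, pow_zero, one_mul] at hrn; exact absurd hrn hm
        · exact h
      obtain ⟨e, he0, helt, hed⟩ : ∃ e, 0 < e ∧ e < r ^ a ∧ r ^ a ∣ S q e := by
        rcases hbad with hb | ⟨rfl, h4, hq4⟩
        · refine ⟨Nat.totient (r ^ a), Nat.totient_pos.mpr (pow_pos hr.pos a),
            Nat.totient_lt _ (Nat.one_lt_pow ha.ne' hr.one_lt), ?_⟩
          have hc : Nat.Coprime q (r ^ a) :=
            Nat.Coprime.pow_right a ((hr.coprime_iff_not_dvd).mpr (hcop r hr hrn)).symm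
          have h := (Nat.modEq_iff_dvd' (Nat.one_le_pow _ _ (by omega))).mp
            (Nat.ModEq.pow_totient hc).symm
          rw [show q ^ (r ^ a).totient - 1 = S q (r ^ a).totient * (q - 1) by
            rw [← S_eq q (r ^ a).totient (by omega)]; omega] at h
          exact (Nat.Coprime.pow_left a ((hr.coprime_iff_not_dvd).mpr hb)).dvd_of_dvd_mul_right h
        · have ha2 : 2 ≤ a := by
            by_contra hc
            obtain rfl : a = 1 := by omega
            rw [hnm, pow_one] at h4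
            exact hm (by omega)
          obtain ⟨b, rfl⟩ : ∃ b, a = b + 2 := ⟨a - 2, by omega⟩
          refine ⟨2 ^ (b + 1), by positivity, Nat.pow_lt_pow_right (by norm_num) (by omega),
            two_pow_dvd_S ?_ b⟩
          have := hcop 2 Nat.prime_two hrn
          omega
      have hm0 : 0 < m := Nat.pos_of_ne_zero fun h => hm (h ▸ dvd_zero r)
      -- a multiple of `e` below `n` with `m` dividing the sum
      have hmain : ∀ k : ℕ, k ∣ n → ∃ f, 0 < f ∧ f ≤ k ∧ k ∣ S q f := by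
        intro k
        induction k using Nat.recOnPosPrimePosCoprime with
        | prime_pow s b hs hb =>
          intro hk
          have hsn : s ∣ n := (dvd_pow_self s hb.ne').trans hk
          by_cases h1 : s ∣ q - 1
          · exact ⟨s ^ b, pow_pos hs.pos b, le_rfl, pow_dvd_S (by omega) h1 b⟩
          · refine ⟨Nat.totient (s ^ b), Nat.totient_pos.mpr (pow_pos hs.pos b), Nat.totient_le _, ?_⟩
            have hc : Nat.Coprime q (s ^ b) :=
              Nat.Coprime.pow_right b ((hs.coprime_iff_not_dvd).mpr (hcop s hs hsn)).symm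
            have h := (Nat.modEq_iff_dvd' (Nat.one_le_pow _ _ (by omega))).mp
              (Nat.ModEq.pow_totient hc).symm
            rw [show q ^ (s ^ b).totient - 1 = S q (s ^ b).totient * (q - 1) by
              rw [← S_eq q (s ^ b).totient (by omega)]; omega] at h
            exact (Nat.Coprime.pow_left b ((hs.coprime_iff_not_dvd).mpr h1)).dvd_of_dvd_mul_right h
        | zero => intro hk; exact absurd (zero_dvd_iff.mp hk) (by omega)
        | one => intro _; exact ⟨1, one_pos, le_rfl, one_dvd _⟩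
        | coprime x y hx hy hxy ihx ihy =>
          intro hk
          obtain ⟨f₁, a1, b1, c1⟩ := ihx ((dvd_mul_right x y).trans hk)
          obtain ⟨f₂, a2, b2, c2⟩ := ihy ((dvd_mul_left y x).trans hk)
          exact ⟨f₁ * f₂, Nat.mul_pos a1 a2, Nat.mul_le_mul b1 b2, hxy.mul_dvd_of_dvd_of_dvd
            (c1.trans (S_dvd_S q (dvd_mul_right _ _))) (c2.trans (S_dvd_S q (dvd_mul_left _ _)))⟩
      obtain ⟨f, hf0, hfle, hfd⟩ := hmain m (Dvd.intro_left _ hnm.symm)
      refine hmin (e * f) (Nat.mul_pos he0 hf0) ?_ ?_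
      · calc e * f ≤ e * m := Nat.mul_le_mul_left e hfle
          _ < r ^ a * m := Nat.mul_lt_mul_of_pos_right helt hm0
          _ = n := hnm.symm
      · rw [hnm]
        exact (Nat.Coprime.pow_left a ((hr.coprime_iff_not_dvd).mpr hm)).mul_dvd_of_dvd_of_dvd
          (hed.trans (S_dvd_S q (dvd_mul_right _ _))) (hfd.trans (S_dvd_S q (dvd_mul_left _ _)))
    refine ⟨fun r hr hrn => ?_, fun h4 => ?_⟩
    · by_contra hb; exact key r hr hrn (Or.inl hb)
    · by_contra hb; exact key 2 Nat.prime_two ((by norm_num : 2 ∣ 4).trans h4) (Or.inr ⟨rfl, h4, hb⟩)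

end Cfsg.Agent.S0694
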