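import Cfsg.Statements.S0695
import Cfsg.Agent.Lib.Perm.Regular

set_option autoImplicit false
open Cfsg

namespace Cfsg.Agent.S0695

/-- A regular normal subgroup of a doubly primitive group of finite degree at least 2 is an elementary abelian 2-group (and the degree is a power of 2), unless the degree is 3. -/
theorem result {G : Type*} [Group G] {X : Type*} [Fintype X] [MulAction G X] (hX : 2 ≤ Fintype.card X) (h2 : MulAction.IsMultiplyPreprimitive G X 2) (N : Subgroup G) [N.Normal] (htrans : MulAction.IsPretransitive N X) (hreg : ∀ x : X, MulAction.stabilizer N x = ⊥) : Fintype.card X = 3 ∨ (IsMulCommutative N ∧ (∀ n ∈ N, n ^ 2 = 1) ∧ ∃ m : ℕ, Fintype.card X = 2 ^ m) := by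
  classical
  obtain ⟨a⟩ : Nonempty X := Fintype.card_pos_iff.mp (by omega)
  by_cases h3 : Fintype.card X = 3
  · exact Or.inl h3
  right
  have hcard : Nat.card X = Fintype.card X := Nat.card_eq_fintype_card
  have hexp := Lib.Perm.regular_two_primitive h2 htrans hreg a (by rw [hcard]; exact h3)
  have hN : Finite N := Nat.finite_of_card_ne_zero (by rw [Lib.Perm.regular_card htrans hreg a, hcard]; omega)
  refine ⟨⟨⟨fun u v => ?_⟩⟩, hexp, ?_⟩
  · have hu : u⁻¹ = u := inv_eq_of_mul_eq_one_right (Subtype.ext (by simpa [pow_two] using hexp u u.2))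
    have hv : v⁻¹ = v := inv_eq_of_mul_eq_one_right (Subtype.ext (by simpa [pow_two] using hexp v v.2))
    have huv : (u * v)⁻¹ = u * v :=
      inv_eq_of_mul_eq_one_right (Subtype.ext (by simpa [pow_two] using hexp (u * v : N) (u * v).2))
    rw [← huv, mul_inv_rev, hu, hv]
  · have hP : IsPGroup 2 N := fun n => ⟨1, Subtype.ext (by simpa using hexp n n.2)⟩
    have : Fact (Nat.Prime 2) := ⟨Nat.prime_two⟩
    obtain ⟨m, hm⟩ := IsPGroup.iff_card.mp hP
    exact ⟨m, by rw [← hcard, ← Lib.Perm.regular_card htrans hreg a, hm]⟩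

end Cfsg.Agent.S0695
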