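import Cfsg.Statements.S0696
import Cfsg.Agent.Lib.Perm.Regular

set_option autoImplicit false
open Cfsg

namespace Cfsg.Agent.S0696

/-- A triply primitive group of degree at least 3 having a regular normal subgroup has degree 3 or 4. -/
theorem result {G : Type*} [Group G] {X : Type*} [Fintype X] [MulAction G X] (hX : 3 ≤ Fintype.card X) (h3 : MulAction.IsMultiplyPreprimitive G X 3) (N : Subgroup G) [N.Normal] (htrans : MulAction.IsPretransitive N X) (hreg : ∀ x : X, MulAction.stabilizer N x = ⊥) : Fintype.card X = 3 ∨ Fintype.card X = 4 := by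
  classical
  by_cases hc : Fintype.card X = 3
  · exact Or.inl hc
  obtain ⟨a⟩ : Nonempty X := Fintype.card_pos_iff.mp (by omega)
  have hcard : Nat.card X = Fintype.card X := Nat.card_eq_fintype_card
  have h2 := MulAction.isMultiplyPreprimitive_of_le G X h3 (m := 2) (by omega)
    (by rw [ENat.card_eq_coe_fintype_card]; exact_mod_cast hX)
  have hexp := Lib.Perm.regular_two_primitive h2 htrans hreg a (by rw [hcard]; exact hc)
  have h4 := Lib.Perm.regular_three_primitive h3 htrans hreg hexp (by omega)
  omega

end Cfsg.Agent.S0696
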