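import Cfsg.Statements.S0699
import Cfsg.Agent.Lib.Perm.NormalMultiMain

set_option autoImplicit false
open Cfsg

namespace Cfsg.Agent.S0699

open MulAction Lib.Perm

/-- Wagner's Theorem: a non-trivial normal subgroup of a triply transitive permutation group of odd degree at least 5 is triply transitive. -/
theorem result {α : Type*} [Fintype α] [DecidableEq α] (G : Subgroup (Equiv.Perm α)) (hodd : Odd (Fintype.card α)) (h5 : 5 ≤ Fintype.card α) (hG : MulAction.IsMultiplyPretransitive G α 3) (N : Subgroup G) [N.Normal] (hN : N ≠ ⊥) : MulAction.IsMultiplyPretransitive N α 3 := by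
  rw [← Nat.card_eq_fintype_card] at hodd h5
  rcases normal_multiply_transitive 1 G α (by omega) hG N hN with h | ⟨-, -, he, htr, hreg⟩
  · exact three_transitive_of_odd hodd hG N h
  · exfalso
    obtain ⟨a⟩ : Nonempty α := (Nat.card_pos_iff.mp (by omega)).1
    obtain ⟨p, hp, hpn⟩ := Nat.exists_prime_and_dvd (show Nat.card α ≠ 1 by omega)
    have : Fact p.Prime := ⟨hp⟩
    obtain ⟨x, hx⟩ := exists_prime_orderOf_dvd_card' p (show p ∣ Nat.card N by rwa [regular_card htr hreg a])
    have h2 : p ∣ 2 := hx ▸ orderOf_dvd_of_pow_eq_one (Subtype.ext (by simpa using he x x.2))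
    rw [Nat.prime_dvd_prime_iff_eq hp Nat.prime_two] at h2
    subst h2
    rw [Nat.odd_iff] at hodd
    omega

end Cfsg.Agent.S0699
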