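import Cfsg.Statements.S0700
import Cfsg.Agent.Lib.Perm.NormalMulti
import Cfsg.Agent.Lib.FPF.Frobenius

set_option autoImplicit false
open Cfsg

namespace Cfsg.Agent.S0700

open MulAction Lib.Perm
open scoped Pointwise

section

variable {G : Type*} [Group G] [Finite G] {X : Type*} [Finite X] [MulAction G X] [FaithfulSMul G X]
  (h2 : IsMultiplyPretransitive G X 2) (N : Subgroup G) [N.Normal]

/-- The least block of `N` containing two points. -/
def hull (a b : X) : Set X := ⋂ B : {B : Set X // IsBlock N B ∧ a ∈ B ∧ b ∈ B}, B.1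

theorem hull_block (a b : X) : IsBlock N (hull N a b) :=
  IsBlock.iInter fun B => B.2.1

theorem hull_mem (a b : X) : a ∈ hull N a b ∧ b ∈ hull N a b :=
  ⟨Set.mem_iInter.mpr fun B => B.2.2.1, Set.mem_iInter.mpr fun B => B.2.2.2⟩

theorem hull_le {a b : X} {B : Set X} (hB : IsBlock N B) (ha : a ∈ B) (hb : b ∈ B) : hull N a b ⊆ B :=
  fun _ hx => Set.mem_iInter.mp hx ⟨B, hB, ha, hb⟩

theorem smul_block {B : Set X} (hB : IsBlock N B) (g : G) : IsBlock N (g • B) := by
  rw [isBlock_iff_smul_eq_or_disjoint]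
  intro n
  have hn : g⁻¹ * (n : G) * g ∈ N := by
    simpa using Subgroup.Normal.conj_mem inferInstance (n : G) n.2 g⁻¹
  have e : n • g • B = g • ((⟨g⁻¹ * (n : G) * g, hn⟩ : N) • B) := by
    show (n : G) • g • B = g • (g⁻¹ * (n : G) * g) • B
    rw [← mul_smul, ← mul_smul]
    congr 1
    group
  rcases isBlock_iff_smul_eq_or_disjoint.mp hB ⟨g⁻¹ * (n : G) * g, hn⟩ with h | h
  · left; rw [e, h]
  · right; rw [e]; exact Set.disjoint_image_of_injective (MulAction.injective g) h

include h2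

theorem hull_card {a b c d : X} (hab : a ≠ b) (hcd : c ≠ d) :
    (hull N a b).ncard ≤ (hull N c d).ncard := by
  obtain ⟨g, hga, hgb⟩ := is_two_pretransitive_iff.mp h2 hcd hab
  refine (Set.ncard_le_ncard (hull_le N (smul_block N (hull_block N c d) g)
    (hga ▸ Set.smul_mem_smul_set (hull_mem N c d).1) (hgb ▸ Set.smul_mem_smul_set (hull_mem N c d).2))
    (Set.toFinite _)).trans ?_
  exact Set.ncard_image_le (Set.toFinite _)

theorem hull_eq {a b x y : X} (hab : a ≠ b) (hxy : x ≠ y) (hx : x ∈ hull N a b) (hy : y ∈ hull N a b) :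
    hull N x y = hull N a b :=
  Set.eq_of_subset_of_ncard_le (hull_le N (hull_block N a b) hx hy) (hull_card h2 N hab hxy)
    (Set.toFinite _)

theorem two_point_trivial {B : Set X} (hB : IsBlock N B) {a b : X} (ha : a ∈ B) (hb : b ∈ B)
    (hab : a ≠ b) (hu : B ≠ Set.univ) :
    ∀ n ∈ N, ∀ x y : X, x ≠ y → n • x = x → n • y = y → n = 1 := by
  have hproper : ∀ x y : X, x ≠ y → hull N x y ≠ Set.univ := by
    intro x y hxy e
    apply hu
    refine Set.eq_of_subset_of_ncard_le (Set.subset_univ _) ?_ (Set.toFinite _)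
    calc (Set.univ : Set X).ncard = (hull N x y).ncard := by rw [e]
      _ ≤ (hull N a b).ncard := hull_card h2 N hxy hab
      _ ≤ B.ncard := Set.ncard_le_ncard (hull_le N hB ha hb) (Set.toFinite _)
  have hstay : ∀ n : N, ∀ x z : X, n • x = x → n • z ∈ hull N x z := fun n x z hx => by
    rw [← (hull_block N x z).smul_eq_of_mem (hull_mem N x z).1
      (show n • x ∈ hull N x z by rw [hx]; exact (hull_mem N x z).1)]
    exact Set.smul_mem_smul_set (hull_mem N x z).2
  intro n hn x y hxy hx hy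
  let n' : N := ⟨n, hn⟩
  have hout : ∀ z, z ∉ hull N x y → n • z = z := by
    intro z hz
    by_contra hnz
    have hzx : x ≠ z := fun e => hz (e ▸ (hull_mem N x y).1)
    have hzy : y ≠ z := fun e => hz (e ▸ (hull_mem N x y).2)
    have e1 := hull_eq h2 N hzx (Ne.symm hnz) (hull_mem N x z).2 (hstay n' x z hx)
    have e2 := hull_eq h2 N hzy (Ne.symm hnz) (hull_mem N y z).2 (hstay n' y z hy)
    have hy' : y ∈ hull N x z := e1 ▸ e2 ▸ (hull_mem N y z).1
    exact hz (hull_eq h2 N hzx hxy (hull_mem N x z).1 hy' ▸ (hull_mem N x z).2)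
  refine eq_of_smul_eq_smul (α := X) fun z => ?_
  rw [one_smul]
  by_cases hz : z ∈ hull N x y
  · by_cases hzx : z = x
    · rw [hzx]; exact hx
    obtain ⟨c, hc⟩ := (Set.ne_univ_iff_exists_notMem _).mp (hproper x y hxy)
    by_contra hnz
    have hcx : x ≠ c := fun e => hc (e ▸ (hull_mem N x y).1)
    have h1 : n • z ∈ hull N c z := hstay n' c z (hout c hc)
    have h2' : n • z ∈ hull N x z := hstay n' x z hx
    have hcz : c ≠ z := fun e => hc (e ▸ hz)
    have e1 := hull_eq h2 N hcz (Ne.symm hnz) (hull_mem N c z).2 h1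
    have e2 := hull_eq h2 N (Ne.symm hzx) (Ne.symm hnz) (hull_mem N x z).2 h2'
    have e3 := hull_eq h2 N hxy (Ne.symm hzx) (hull_mem N x y).1 hz
    exact hc (e3 ▸ e2 ▸ e1 ▸ (hull_mem N c z).1)
  · exact hout z hz

theorem primitive_of_nonregular (hN : N ≠ ⊥)
    (hmin : ∀ M : Subgroup G, M.Normal → M ≤ N → M = ⊥ ∨ M = N)
    (hnr : ∃ a : X, stabilizer N a ≠ ⊥) : IsPreprimitive N X := by
  have hprim : IsPreprimitive G X := isPreprimitive_of_is_two_pretransitive h2
  have htr : IsPretransitive N X := transitive_of_normal N hN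
  obtain ⟨a, ha⟩ := hnr
  refine IsPreprimitive.of_isTrivialBlock_base a fun {B} h0 hB => ?_
  by_contra hnt
  rw [IsTrivialBlock, not_or] at hnt
  obtain ⟨b, hb, hba⟩ : ∃ b ∈ B, b ≠ a := by
    by_contra h
    push Not at h
    exact hnt.1 fun x hx y hy => (h x hx).trans (h y hy).symm
  have htriv := two_point_trivial h2 N hB h0 hb hba.symm hnt.2
  let H : Subgroup N := stabilizer N a
  have hH : Cfsg.IsFrobeniusComplement H := by
    refine ⟨ha, fun e => ?_, fun g hg => ?_⟩
    · obtain ⟨g, hg⟩ := exists_smul_eq N a b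
      have : g ∈ H := e ▸ Subgroup.mem_top g
      exact hba (hg.symm.trans this)
    · rw [eq_bot_iff]
      rintro x ⟨hx, hx'⟩
      replace hx' : g⁻¹ * x * g ∈ H := Lib.Coprime.mem_conj_smul.mp hx'
      have hxa : x • g • a = g • a := by
        have h1 : (g⁻¹ * x * g) • a = a := hx'
        rw [mul_smul, mul_smul, inv_smul_eq_iff] at h1
        exact h1
      exact Subgroup.mem_bot.mpr (Subtype.ext (htriv x x.2 a (g • a) (fun e => hg e.symm) hx hxa))
  obtain ⟨K, hK, -, hKc⟩ := Lib.FPF.exists_frobenius_kernel hH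
  have hmemK : ∀ x : N, x ∈ K ↔ x = 1 ∨ ∀ z : X, x • z ≠ z := by
    intro x
    rw [← SetLike.mem_coe, hK]
    simp only [Cfsg.frobeniusKernel, Set.mem_ofPred_eq, Lib.Coprime.mem_conj_smul]
    refine or_congr Iff.rfl ⟨fun h z hz => ?_, fun h g hg => ?_⟩
    · obtain ⟨g, rfl⟩ := exists_smul_eq N a z
      exact h g (show (g⁻¹ * x * g) • a = a by rw [mul_smul, mul_smul, hz, inv_smul_smul])
    · have h1 : (g⁻¹ * x * g) • a = a := hg
      rw [mul_smul, mul_smul, inv_smul_eq_iff] at h1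
      exact h _ h1
  let K' : Subgroup G := K.map N.subtype
  have hK'n : K'.Normal := ⟨by
    rintro _ ⟨x, hx, rfl⟩ g
    refine ⟨⟨g * x * g⁻¹, Subgroup.Normal.conj_mem inferInstance (x : G) x.2 g⟩, (hmemK _).mpr ?_, rfl⟩
    rcases (hmemK x).mp hx with rfl | h
    · exact Or.inl (Subtype.ext (by simp))
    · refine Or.inr fun z hz => h (g⁻¹ • z) ?_
      have h1 : (g * (x : G) * g⁻¹) • z = z := hz
      rw [mul_smul, mul_smul] at h1
      exact eq_inv_smul_iff.mpr h1⟩
  rcases hmin K' hK'n (Subgroup.map_subtype_le K) with e | e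
  · rw [Subgroup.map_eq_bot_iff_of_injective _ N.subtype_injective] at e
    apply hH.2.1
    have := hKc.sup_eq_top
    rwa [e, bot_sup_eq] at this
  · have e' : K = ⊤ := Subgroup.map_injective N.subtype_injective
      (e.trans (by rw [← MonoidHom.range_eq_map, Subgroup.range_subtype]))
    apply hH.1
    have := hKc.disjoint.eq_bot
    rwa [e', top_inf_eq] at this

theorem simple_of_primitive (hN : N ≠ ⊥)
    (hmin : ∀ M : Subgroup G, M.Normal → M ≤ N → M = ⊥ ∨ M = N)
    (hp : IsPreprimitive N X) : IsSimpleGroup N := by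
  classical
  have : Nontrivial N := N.nontrivial_iff_ne_bot.2 hN
  have hprim : IsPreprimitive G X := isPreprimitive_of_is_two_pretransitive h2
  refine ⟨fun M₀ hM₀ => ?_⟩
  by_contra hno
  rw [not_or] at hno
  let P : Subgroup G → Prop := fun M => M ≤ N ∧ (∀ n ∈ N, ∀ m ∈ M, n * m * n⁻¹ ∈ M) ∧ M ≠ ⊥
  have hP₀ : P (M₀.map N.subtype) := by
    refine ⟨Subgroup.map_subtype_le M₀, ?_, fun e => hno.1 ((Subgroup.map_eq_bot_iff_of_injective _ N.subtype_injective).mp e)⟩
    rintro n hn _ ⟨m, hm, rfl⟩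
    exact ⟨⟨n, hn⟩ * m * ⟨n, hn⟩⁻¹, hM₀.conj_mem m hm _, rfl⟩
  obtain ⟨M, hMle, hMmin⟩ := Finite.exists_le_minimal (p := P) hP₀
  have hMN : M ≠ N := fun e => hno.2 (Subgroup.map_injective N.subtype_injective
    ((le_antisymm (Subgroup.map_subtype_le M₀) (e ▸ hMle)).trans
      (by rw [← MonoidHom.range_eq_map, Subgroup.range_subtype])))
  let cj : G → Subgroup G := fun g => M.map (MulAut.conj g).toMonoidHom
  have hmemcj : ∀ g x, x ∈ cj g ↔ g⁻¹ * x * g ∈ M := fun g x => by
    constructor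
    · rintro ⟨t, ht, rfl⟩; simpa [mul_assoc] using ht
    · intro h; exact ⟨_, h, by simp [mul_assoc]⟩
  have hcjP : ∀ g, P (cj g) := fun g => by
    refine ⟨fun x hx => ?_, fun n hn x hx => ?_, fun e => hMmin.prop.2.2
      ((Subgroup.map_eq_bot_iff_of_injective _ (MulAut.conj g).injective).mp e)⟩
    · have := Subgroup.Normal.conj_mem (H := N) inferInstance _ (hMmin.prop.1 ((hmemcj g x).mp hx)) g
      simpa [mul_assoc] using this
    · rw [hmemcj] at hx ⊢
      have := hMmin.prop.2.1 (g⁻¹ * n * g) (by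
        simpa using Subgroup.Normal.conj_mem (H := N) inferInstance n hn g⁻¹) _ hx
      simpa [mul_assoc] using this
  have hne2 : ∀ g, cj g ≠ M → ∀ x ∈ M, ∀ y ∈ cj g, x * y = y * x := by
    intro g hg x hx y hy
    have hinf : M ⊓ cj g = ⊥ := by
      by_contra h
      have hP1 : P (M ⊓ cj g) := ⟨inf_le_left.trans hMmin.prop.1,
        fun n hn m hm => ⟨hMmin.prop.2.1 n hn m hm.1, (hcjP g).2.1 n hn m hm.2⟩, h⟩
      have hle : M ≤ cj g := (le_antisymm inf_le_left (hMmin.le_of_le hP1 inf_le_left)).symm.le.trans inf_le_right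
      exact hg (Subgroup.eq_of_le_of_card_ge hle (le_of_eq
        (Subgroup.card_map_of_injective (MulAut.conj g).injective))).symm
    have h1 : x * y * x⁻¹ * y⁻¹ ∈ M ⊓ cj g := by
      refine ⟨?_, ?_⟩
      · rw [mul_assoc x, mul_assoc x]
        exact M.mul_mem hx (hMmin.prop.2.1 y ((hcjP g).1 hy) _ (M.inv_mem hx))
      · exact (cj g).mul_mem ((hcjP g).2.1 x (hMmin.prop.1 hx) y hy) ((cj g).inv_mem hy)
    rw [hinf, Subgroup.mem_bot, mul_inv_eq_one, mul_inv_eq_iff_eq_mul] at h1
    exact h1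
  obtain ⟨g₁, hg₁⟩ : ∃ g, cj g ≠ M := by
    by_contra h
    push Not at h
    have hn : M.Normal := ⟨fun m hm g => h g ▸ (hmemcj g _).mpr (by simpa [mul_assoc] using hm)⟩
    rcases hmin M hn hMmin.prop.1 with e | e
    · exact hMmin.prop.2.2 e
    · exact hMN e
  have htrans : ∀ L : Subgroup G, P L → ∀ x y : X, ∃ m ∈ L, m • x = y := by
    intro L hL x y
    let L' : Subgroup N := L.subgroupOf N
    have : L'.Normal := ⟨fun m hm n => hL.2.1 n n.2 _ hm⟩
    have hne : L' ≠ ⊥ := fun e => hL.2.2 ((Subgroup.eq_bot_iff_forall _).mpr fun m hm => by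
      have h1 : (⟨m, hL.1 hm⟩ : N) ∈ L' := hm
      rw [e, Subgroup.mem_bot] at h1
      exact congrArg Subtype.val h1)
    have := transitive_of_normal (X := X) L' hne
    obtain ⟨m, hm⟩ := exists_smul_eq L' x y
    exact ⟨((m : N) : G), m.2, hm⟩
  have hsemi : ∀ x ∈ M, ∀ z : X, x • z = z → x = 1 := fun x hx z hz => by
    refine eq_of_smul_eq_smul (α := X) fun w => ?_
    obtain ⟨m, hm, rfl⟩ := htrans _ (hcjP g₁) z w
    rw [one_smul, ← mul_smul, hne2 g₁ hg₁ x hx m hm, mul_smul, hz]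
  obtain ⟨a⟩ : Nonempty X := by
    by_contra h
    rw [not_nonempty_iff] at h
    obtain ⟨x, hx, hx1⟩ := M.bot_or_exists_ne_one.resolve_left hMmin.prop.2.2
    exact hx1 (eq_of_smul_eq_smul (α := X) fun w => isEmptyElim w)
  have hord : ∀ t ∈ M, ∀ t' ∈ M, t ≠ 1 → t' ≠ 1 → orderOf t' = orderOf t := by
    intro t ht t' ht' h1 h1'
    obtain ⟨g, hga, hgt⟩ := is_two_pretransitive_iff.mp h2
      (show a ≠ t • a from fun e => h1 (hsemi t ht a e.symm))
      (show a ≠ t' • a from fun e => h1' (hsemi t' ht' a e.symm))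
    set s := g * t * g⁻¹ with hs
    have hsM : s ∈ cj g := (hmemcj g s).mpr (by simpa [hs, mul_assoc] using ht)
    have hsa : s • a = t' • a := by
      rw [hs, mul_smul, mul_smul, show g⁻¹ • a = a from inv_smul_eq_iff.mpr hga.symm]
      exact hgt
    have hcase : orderOf s = orderOf t' := by
      by_cases hgM : cj g = M
      · rw [hgM] at hsM
        have e2 : t'⁻¹ * s = 1 := hsemi _ (M.mul_mem (M.inv_mem ht') hsM) a (by
          rw [mul_smul, hsa, inv_smul_smul])
        rw [inv_mul_eq_one.mp e2]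
      · have hc : Commute t' s := hne2 g hgM t' ht' s hsM
        have hpow : ∀ k : ℕ, s ^ k • a = t' ^ k • a := by
          intro k
          induction k with
          | zero => simp
          | succ k ih =>
            rw [pow_succ' s, mul_smul, ih, ← mul_smul, ← (hc.pow_left k).eq, mul_smul, hsa,
              ← mul_smul, ← pow_succ]
        refine orderOf_eq_orderOf_iff.mpr fun k => ⟨fun e => ?_, fun e => ?_⟩
        · exact hsemi _ (M.pow_mem ht' k) a (by rw [← hpow, e, one_smul])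
        · refine eq_of_smul_eq_smul (α := X) fun w => ?_
          obtain ⟨m, hm, rfl⟩ := htrans M hMmin.prop a w
          have hc2 : Commute m (s ^ k) := Commute.pow_right (hne2 g hgM m hm s hsM) k
          rw [one_smul, ← mul_smul, ← hc2.eq, mul_smul, hpow, e, one_smul]
    rw [← hcase, hs]
    exact orderOf_injective (MulAut.conj g).toMonoidHom (MulEquiv.injective _) t
  obtain ⟨x, hx, hx1⟩ := M.bot_or_exists_ne_one.resolve_left hMmin.prop.2.2
  have hMc : 1 < Nat.card M := M.one_lt_card_iff_ne_bot.mpr hMmin.prop.2.2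
  obtain ⟨p, hp', hpd⟩ := Nat.exists_prime_and_dvd hMc.ne'
  have := Fact.mk hp'
  obtain ⟨z, hz⟩ := exists_prime_orderOf_dvd_card' p hpd
  have hz1 : (z : G) ≠ 1 := fun e => hp'.ne_one (by
    rw [← hz, (Subtype.ext e : z = (1 : M)), orderOf_one])
  have hexp : ∀ m : M, m ^ p = 1 := fun m => by
    by_cases hm : (m : G) = 1
    · exact Subtype.ext (by simp [hm])
    · refine Subtype.ext ?_
      rw [Subgroup.coe_pow, Subgroup.coe_one, ← hz, ← Subgroup.orderOf_coe, ← hord z z.2 m m.2 hz1 hm]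
      exact pow_orderOf_eq_one _
  have hMp : IsPGroup p M := fun m => ⟨1, by rw [pow_one]; exact hexp m⟩
  have : Nontrivial M := M.nontrivial_iff_ne_bot.2 hMmin.prop.2.2
  have := hMp.center_nontrivial
  let Z : Subgroup G := (Subgroup.center M).map M.subtype
  have hPZ : P Z := by
    refine ⟨(Subgroup.map_subtype_le _).trans hMmin.prop.1, ?_, fun e =>
      (Subgroup.nontrivial_iff_ne_bot _).mp this ((Subgroup.map_eq_bot_iff_of_injective _ M.subtype_injective).mp e)⟩
    rintro n hn _ ⟨c, hc, rfl⟩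
    refine ⟨⟨n * c * n⁻¹, hMmin.prop.2.1 n hn c c.2⟩, Subgroup.mem_center_iff.mpr fun m => Subtype.ext ?_, rfl⟩
    have h1 : n⁻¹ * (m : G) * n ∈ M := by simpa using hMmin.prop.2.1 n⁻¹ (N.inv_mem hn) m m.2
    have h2 : n⁻¹ * (m : G) * n * (c : G) = (c : G) * (n⁻¹ * (m : G) * n) :=
      congrArg Subtype.val (Subgroup.mem_center_iff.mp hc ⟨_, h1⟩)
    show (m : G) * (n * (c : G) * n⁻¹) = n * (c : G) * n⁻¹ * m
    calc (m : G) * (n * (c : G) * n⁻¹) = n * (n⁻¹ * (m : G) * n * c) * n⁻¹ := by group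
      _ = n * ((c : G) * (n⁻¹ * (m : G) * n)) * n⁻¹ := by rw [h2]
      _ = n * (c : G) * n⁻¹ * m := by group
  have hMab : ∀ u ∈ M, ∀ v ∈ M, u * v = v * u := by
    intro u hu v hv
    obtain ⟨c, hc, rfl⟩ := hMmin.le_of_le hPZ (Subgroup.map_subtype_le _) hu
    exact (congrArg Subtype.val (Subgroup.mem_center_iff.mp hc ⟨v, hv⟩)).symm
  apply hg₁
  refine Subgroup.eq_of_le_of_card_ge (fun c hc => ?_) (le_of_eq
    (Subgroup.card_map_of_injective (MulAut.conj g₁).injective).symm)
  obtain ⟨m, hm, hma⟩ := htrans M hMmin.prop a (c • a)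
  have hfix : m⁻¹ * c = 1 := by
    refine eq_of_smul_eq_smul (α := X) fun w => ?_
    obtain ⟨m', hm', rfl⟩ := htrans M hMmin.prop a w
    have h1 : (m⁻¹ * c) * m' = m' * (m⁻¹ * c) := by
      rw [mul_assoc, ← hne2 g₁ hg₁ m' hm' c hc, ← mul_assoc, hMab _ (M.inv_mem hm) _ hm', mul_assoc]
    rw [one_smul, ← mul_smul, h1, mul_smul, mul_smul, ← hma, inv_smul_smul]
  rw [← inv_mul_eq_one.mp hfix]
  exact hm

end

/-- Burnside's Theorem on doubly transitive groups: a minimal normal subgroup of a finite doubly transitive permutation group is elementary abelian and regular, or simple and primitive. -/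
theorem result {α : Type*} [Fintype α] [DecidableEq α] (G : Subgroup (Equiv.Perm α)) (hG : MulAction.IsMultiplyPretransitive G α 2) (N : Subgroup G) [N.Normal] (hN : N ≠ ⊥) (hmin : ∀ M : Subgroup G, M.Normal → M ≤ N → M = ⊥ ∨ M = N) : (IsMulCommutative N ∧ (∃ p : ℕ, p.Prime ∧ ∀ n ∈ N, n ^ p = 1) ∧ ∀ a : α, MulAction.stabilizer N a = ⊥) ∨ (IsSimpleGroup N ∧ MulAction.IsPreprimitive N α) := by
  classical
  have hprim : IsPreprimitive G α := isPreprimitive_of_is_two_pretransitive hG
  have htr : IsPretransitive N α := transitive_of_normal N hN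
  by_cases hreg : ∀ a : α, stabilizer N a = ⊥
  · left
    obtain ⟨a⟩ : Nonempty α := by
      by_contra h
      rw [not_nonempty_iff] at h
      exact hN ((Subgroup.eq_bot_iff_forall N).mpr fun n _ =>
        Subtype.ext (Equiv.ext fun w => isEmptyElim w))
    obtain ⟨hc, p, k, hp, -, -, hexp⟩ := elementary_abelian hN
      (regular_conj htr hreg (a := a) fun b c hb hc => by
        obtain ⟨g, h1, h2⟩ := is_two_pretransitive_iff.mp hG hb.symm hc.symm
        exact ⟨g, h1, h2⟩)
    exact ⟨hc, ⟨p, hp, hexp⟩, hreg⟩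
  · right
    push Not at hreg
    have hp := primitive_of_nonregular hG N hN hmin hreg
    exact ⟨simple_of_primitive hG N hN hmin hp, hp⟩

end Cfsg.Agent.S0700
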