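import Cfsg.Statements.S0701

set_option autoImplicit false
open Cfsg

namespace Cfsg.Agent.S0701

/-- The centraliser in the full symmetric group of a transitive permutation group `G` is semiregular, and it is transitive if and only if `G` is regular. -/
theorem result {α : Type*} (G : Subgroup (Equiv.Perm α)) [MulAction.IsPretransitive G α] : (∀ c ∈ Subgroup.centralizer (G : Set (Equiv.Perm α)), ∀ a : α, c a = a → c = 1) ∧ (MulAction.IsPretransitive (Subgroup.centralizer (G : Set (Equiv.Perm α))) α ↔ ∀ a : α, MulAction.stabilizer G a = ⊥) := by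
  have h1 : ∀ c ∈ Subgroup.centralizer (G : Set (Equiv.Perm α)), ∀ (g : G) (x : α),
      c (g • x) = g • c x := fun c hc g x =>
    (congrArg (fun σ : Equiv.Perm α => σ x) (hc (g : Equiv.Perm α) g.2)).symm
  refine ⟨fun c hc a ha => Equiv.ext fun x => ?_, fun h a => ?_, fun h => ⟨fun a b => ?_⟩⟩
  · obtain ⟨g, rfl⟩ := MulAction.exists_smul_eq G a x
    rw [h1 c hc g a, ha]; rfl
  · refine (Subgroup.eq_bot_iff_forall _).mpr fun g hg => Subtype.ext (Equiv.ext fun x => ?_)
    obtain ⟨c, rfl⟩ := h.exists_smul_eq a x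
    show g • (c : Equiv.Perm α) a = (c : Equiv.Perm α) a
    rw [← h1 c.1 c.2 g a, hg]
  · classical
    have hex := fun x => MulAction.exists_smul_eq G a x
    choose g hg using hex
    have huniq : ∀ (s t : G) (z : α), s • z = t • z → s = t := by
      intro s t z hst
      have : t⁻¹ * s ∈ MulAction.stabilizer G z := by
        rw [MulAction.mem_stabilizer_iff, mul_smul, hst, inv_smul_smul]
      rw [h z, Subgroup.mem_bot, inv_mul_eq_one] at this
      exact this.symm
    let f : α → α := fun x => g x • b
    have hf : Function.Bijective f := by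
      constructor
      · intro x y hxy
        rw [← hg x, ← hg y, huniq _ _ b hxy]
      · intro y
        obtain ⟨s, hs⟩ := MulAction.exists_smul_eq G b y
        exact ⟨s • a, by show g _ • b = y; rw [huniq _ _ a (hg (s • a)), hs]⟩
    refine ⟨⟨Equiv.ofBijective f hf, fun s hs => Equiv.ext fun x => ?_⟩, ?_⟩
    · show (⟨s, hs⟩ : G) • g x • b = g ((⟨s, hs⟩ : G) • x) • b
      rw [← mul_smul, huniq (g ((⟨s, hs⟩ : G) • x)) (⟨s, hs⟩ * g x) a (by rw [hg, mul_smul, hg])]
    · show g a • b = b
      rw [huniq (g a) 1 a (by rw [hg, one_smul]), one_smul]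

end Cfsg.Agent.S0701
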