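import Cfsg.Statements.S0702
import Mathlib.Tactic.Group
import Mathlib.GroupTheory.Index
import Mathlib.Algebra.Group.Subgroup.Finite

set_option autoImplicit false
open Cfsg

namespace Cfsg.Agent.S0702

/-- For a transitive permutation group `G` on a finite set, the centraliser of `G` in the symmetric group is isomorphic to `N_G(G_ω)/G_ω`, and its orbit of `ω` is the set of fixed points of `G_ω`. -/
theorem result {α : Type*} [Finite α] (G : Subgroup (Equiv.Perm α)) [MulAction.IsPretransitive G α] (a : α) : Nonempty (Subgroup.centralizer (G : Set (Equiv.Perm α)) ≃* Subgroup.normalizer ((MulAction.stabilizer G a : Subgroup G) : Set G) ⧸ (MulAction.stabilizer G a).subgroupOf (Subgroup.normalizer ((MulAction.stabilizer G a : Subgroup G) : Set G))) ∧ MulAction.orbit (Subgroup.centralizer (G : Set (Equiv.Perm α))) a = MulAction.fixedPoints (MulAction.stabilizer G a) α := by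
  classical
  let H := MulAction.stabilizer G a
  let N := Subgroup.normalizer ((H : Subgroup G) : Set G)
  choose s hs using fun x => MulAction.exists_smul_eq G a x
  have hwd : ∀ k ∈ N, ∀ (g : G) (x : α), g • a = x → (s x * k⁻¹) • a = (g * k⁻¹) • a := by
    intro k hk g x hg
    have h1 : (s x)⁻¹ * g ∈ H := by
      show ((s x)⁻¹ * g) • a = a
      rw [mul_smul, hg]; conv_lhs => arg 2; rw [← hs x]
      rw [inv_smul_smul]
    have h2 := (Subgroup.mem_normalizer_iff.mp hk _).mp h1
    have h3 : (k * ((s x)⁻¹ * g) * k⁻¹) • a = a := h2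
    rw [show g * k⁻¹ = s x * k⁻¹ * (k * ((s x)⁻¹ * g) * k⁻¹) by group,
      mul_smul (s x * k⁻¹) (k * ((s x)⁻¹ * g) * k⁻¹) a, h3]
  let F : N → α → α := fun k x => (s x * (k : G)⁻¹) • a
  have hF : ∀ (k : N) (g : G), F k (g • a) = (g * (k : G)⁻¹) • a := fun k g => hwd _ k.2 g _ rfl
  have hF1 : ∀ x, F 1 x = x := fun x => by simp [F, hs]
  have hFmul : ∀ (u v : N) x, F (u * v) x = F u (F v x) := fun u v x => by
    show _ = F u ((s x * (v : G)⁻¹) • a)
    rw [hF]
    simp [F, mul_assoc]
  let P : N → Equiv.Perm α := fun k => ⟨F k, F k⁻¹, fun x => by rw [← hFmul, inv_mul_cancel, hF1],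
    fun x => by rw [← hFmul, mul_inv_cancel, hF1]⟩
  have hPmem : ∀ k, P k ∈ Subgroup.centralizer (G : Set (Equiv.Perm α)) := by
    intro k g hg
    refine Equiv.ext fun x => ?_
    obtain ⟨u, rfl⟩ := MulAction.exists_smul_eq G a x
    show (⟨g, hg⟩ : G) • F k (u • a) = F k ((⟨g, hg⟩ : G) • u • a)
    rw [hF, ← mul_smul, ← mul_smul, hF, mul_assoc]
  let φ : N →* Subgroup.centralizer (G : Set (Equiv.Perm α)) :=
    { toFun := fun k => ⟨P k, hPmem k⟩
      map_one' := Subtype.ext (Equiv.ext hF1)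
      map_mul' := fun u v => Subtype.ext (Equiv.ext fun x => hFmul u v x) }
  have hcomm : ∀ (c : Subgroup.centralizer (G : Set (Equiv.Perm α))) (g : G) (x : α),
      (c : Equiv.Perm α) (g • x) = g • (c : Equiv.Perm α) x := fun c g x =>
    (congrArg (fun σ : Equiv.Perm α => σ x) (c.2 (g : Equiv.Perm α) g.2)).symm
  have hφa : ∀ k, ((φ k : Subgroup.centralizer (G : Set (Equiv.Perm α))) : Equiv.Perm α) a = (k : G)⁻¹ • a := fun k => by
    show F k a = _
    conv_lhs => arg 2; rw [← one_smul G a]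
    rw [hF, one_mul]
  have hker : φ.ker = H.subgroupOf N := by
    ext k
    rw [MonoidHom.mem_ker, Subgroup.mem_subgroupOf]
    constructor
    · intro h
      have h1 := hφa k
      rw [h] at h1
      exact inv_mem_iff.mp (show (k : G)⁻¹ ∈ H from h1.symm)
    · intro h
      refine Subtype.ext (Equiv.ext fun x => ?_)
      obtain ⟨g, rfl⟩ := MulAction.exists_smul_eq G a x
      rw [hcomm, hφa, show (k : G)⁻¹ • a = a from inv_mem h]
      rfl
  have hfix : ∀ y ∈ MulAction.fixedPoints H α, ∃ k : N, ((φ k : Subgroup.centralizer (G : Set (Equiv.Perm α))) : Equiv.Perm α) a = y := by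
    intro y hy
    have hle : H ≤ (H.map (MulAut.conj (s y)).toMonoidHom) := by
      intro h hh
      refine ⟨(s y)⁻¹ * h * s y, ?_, by simp [MulAut.conj_apply]; group⟩
      show ((s y)⁻¹ * h * s y) • a = a
      rw [mul_smul, mul_smul, hs, show h • y = y from hy ⟨h, hh⟩, inv_smul_eq_iff, hs]
    have heq := Subgroup.eq_of_le_of_card_ge hle
      (Nat.card_congr (H.equivMapOfInjective _ (MulAut.conj (s y)).injective).toEquiv).ge
    have hN : s y ∈ N := by
      rw [Subgroup.mem_normalizer_iff]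
      intro h
      conv_rhs => rw [heq]
      constructor
      · intro hh; exact ⟨h, hh, rfl⟩
      · rintro ⟨h', hh', he⟩
        exact (MulAut.conj (s y)).injective he ▸ hh'
    refine ⟨⟨s y, hN⟩⁻¹, ?_⟩
    rw [hφa]
    simpa using hs y
  have hsurj : Function.Surjective φ := by
    intro c
    have hy : (c : Equiv.Perm α) a ∈ MulAction.fixedPoints H α := fun h => by
      exact (hcomm c (h : G) a).symm.trans (congrArg _ h.2)
    obtain ⟨k, hk⟩ := hfix _ hy
    refine ⟨k, Subtype.ext (Equiv.ext fun x => ?_)⟩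
    obtain ⟨g, rfl⟩ := MulAction.exists_smul_eq G a x
    rw [hcomm, hcomm, hk]
  refine ⟨⟨((QuotientGroup.quotientMulEquivOfEq hker.symm).trans
    (QuotientGroup.quotientKerEquivOfSurjective φ hsurj)).symm⟩, Set.ext fun y => ⟨?_, fun hy => ?_⟩⟩
  · rintro ⟨c, rfl⟩ h
    exact (hcomm c (h : G) a).symm.trans (congrArg _ h.2)
  · obtain ⟨k, hk⟩ := hfix y hy
    exact ⟨φ k, hk⟩

end Cfsg.Agent.S0702
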