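import Cfsg.Statements.S0703
import Cfsg.Agent.Lib.Perm.Centralizer
import Mathlib.GroupTheory.Perm.Cycle.Type
import Mathlib.Data.Nat.Prime.Basic

set_option autoImplicit false
open Cfsg

namespace Cfsg.Agent.S0703

/-- An abelian transitive minimal normal subgroup `M` of a permutation group on a finite set is self-centralising in the symmetric group, regular, elementary abelian, and is the unique minimal normal subgroup. -/
theorem result {α : Type*} [Finite α] (G : Subgroup (Equiv.Perm α)) (M : Subgroup G) [M.Normal] (hM : M ≠ ⊥) (hmin : ∀ L : Subgroup G, L.Normal → L ≤ M → L = ⊥ ∨ L = M) (hab : IsMulCommutative M) (htrans : MulAction.IsPretransitive M α) : Subgroup.centralizer ((M.map G.subtype : Subgroup (Equiv.Perm α)) : Set (Equiv.Perm α)) = M.map G.subtype ∧ (∀ a : α, MulAction.stabilizer M a = ⊥) ∧ (∃ p : ℕ, p.Prime ∧ ∀ m ∈ M, m ^ p = 1) ∧ ∀ L : Subgroup G, L.Normal → L ≠ ⊥ → (∀ L' : Subgroup G, L'.Normal → L' ≤ L → L' = ⊥ ∨ L' = L) → L = M := by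
  classical
  have := Fintype.ofFinite α
  obtain ⟨a⟩ : Nonempty α := by
    by_contra h
    rw [not_nonempty_iff] at h
    exact hM ((Subgroup.eq_bot_iff_forall _).mpr fun g _ => Subtype.ext (Subsingleton.elim _ _))
  have hcen : ∀ m ∈ M, (m : Equiv.Perm α) ∈
      Subgroup.centralizer ((M.map G.subtype : Subgroup (Equiv.Perm α)) : Set (Equiv.Perm α)) :=
    fun m hm => Lib.Perm.coe_mem_centralizer fun k hk =>
      congrArg Subtype.val (hab.is_comm.comm ⟨k, hk⟩ ⟨m, hm⟩)
  have hC : Subgroup.centralizer ((M.map G.subtype : Subgroup (Equiv.Perm α)) : Set (Equiv.Perm α)) =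
      M.map G.subtype := by
    refine le_antisymm (fun c hc => ?_) ?_
    · obtain ⟨⟨m, hm⟩, hma⟩ := htrans.exists_smul_eq a (c a)
      exact ⟨m, hm, Lib.Perm.centralizer_eq_of_apply htrans (hcen m hm) hc hma⟩
    · rintro _ ⟨m, hm, rfl⟩
      exact hcen m hm
  refine ⟨hC, fun x => (Subgroup.eq_bot_iff_forall _).mpr fun m hm => ?_, ?_, fun L hL hL1 hLmin => ?_⟩
  · apply Subtype.ext
    apply Subtype.ext
    exact Lib.Perm.centralizer_eq_of_apply htrans (hcen m m.2) (Subgroup.one_mem _) hm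
  · obtain ⟨p, hp, hpd⟩ := Nat.exists_prime_and_dvd
      (show Nat.card M ≠ 1 from fun h => hM (Subgroup.card_eq_one.mp h))
    have : Fact p.Prime := ⟨hp⟩
    let L : Subgroup G :=
      { carrier := {m | m ∈ M ∧ m ^ p = 1}
        one_mem' := ⟨one_mem _, one_pow _⟩
        mul_mem' := fun {u v} hu hv => ⟨mul_mem hu.1 hv.1, by
          rw [(show Commute u v from congrArg Subtype.val (hab.is_comm.comm ⟨u, hu.1⟩ ⟨v, hv.1⟩)).mul_pow,
            hu.2, hv.2, one_mul]⟩
        inv_mem' := fun {u} hu => ⟨inv_mem hu.1, by rw [inv_pow, hu.2, inv_one]⟩ }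
    have hLn : L.Normal := ⟨fun m hm g => ⟨Subgroup.Normal.conj_mem inferInstance m hm.1 g,
      by rw [conj_pow, hm.2, mul_one, mul_inv_cancel]⟩⟩
    rcases hmin L hLn (fun m hm => hm.1) with h | h
    · obtain ⟨⟨m, hm⟩, hmo⟩ := exists_prime_orderOf_dvd_card' p hpd
      rw [Subgroup.orderOf_mk] at hmo
      have hmL : m ∈ L := ⟨hm, by rw [← hmo, pow_orderOf_eq_one]⟩
      rw [h, Subgroup.mem_bot] at hmL
      rw [hmL, orderOf_one] at hmo
      exact absurd hmo.symm hp.ne_one
    · exact ⟨p, hp, fun m hm => ((h.symm ▸ hm : m ∈ L)).2⟩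
  · by_contra hne
    have := hL
    have hinf : L ⊓ M = ⊥ := by
      rcases hmin (L ⊓ M) inferInstance inf_le_right with h | h
      · exact h
      · rcases hLmin M inferInstance (h ▸ inf_le_left) with h' | h'
        · exact absurd h' hM
        · exact absurd h'.symm hne
    have hle : L ≤ M := fun l hl => by
      have h1 := Lib.Perm.coe_mem_centralizer (g := l) (M := M)
        fun m hm => (Lib.Perm.commute_of_disjoint_normal hinf hl hm).symm
      rw [hC] at h1
      obtain ⟨m, hm, hml⟩ := h1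
      exact Subtype.ext hml ▸ hm
    exact hL1 (by rw [← hinf, inf_eq_left.mpr hle])

end Cfsg.Agent.S0703
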