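import Cfsg.Statements.S0704
import Cfsg.Agent.Lib.Perm.Centralizer

set_option autoImplicit false
open Cfsg

namespace Cfsg.Agent.S0704

theorem cent_eq {α : Type*} {G : Subgroup (Equiv.Perm α)} {M N : Subgroup G}
    (hc : ∀ m ∈ M, ∀ n ∈ N, m * n = n * m) (hMt : MulAction.IsPretransitive M α)
    (hNt : MulAction.IsPretransitive N α) (a : α) :
    Subgroup.centralizer ((M.map G.subtype : Subgroup (Equiv.Perm α)) : Set (Equiv.Perm α)) =
      N.map G.subtype := by
  refine le_antisymm (fun c hcc => ?_) ?_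
  · obtain ⟨⟨n, hn⟩, hna⟩ := hNt.exists_smul_eq a (c a)
    exact ⟨n, hn, Lib.Perm.centralizer_eq_of_apply hMt
      (Lib.Perm.coe_mem_centralizer fun m hm => hc m hm n hn) hcc hna⟩
  · rintro _ ⟨n, hn, rfl⟩
    exact Lib.Perm.coe_mem_centralizer fun m hm => hc m hm n hn

theorem regular_of_commute {α : Type*} {G : Subgroup (Equiv.Perm α)} {M N : Subgroup G}
    (hc : ∀ m ∈ M, ∀ n ∈ N, m * n = n * m) (hNt : MulAction.IsPretransitive N α) (a : α) :
    MulAction.stabilizer M a = ⊥ := by
  refine (Subgroup.eq_bot_iff_forall _).mpr fun m hm => Subtype.ext (Subtype.ext ?_)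
  exact Lib.Perm.centralizer_eq_of_apply hNt
    (Lib.Perm.coe_mem_centralizer fun n hn => (hc m m.2 n hn).symm) (Subgroup.one_mem _) hm


/-- Two distinct transitive minimal normal subgroups `M`, `N` of a permutation group are regular, non-abelian, isomorphic, each other's centraliser in the symmetric group, and the only minimal normal subgroups. -/
theorem result {α : Type*} (G : Subgroup (Equiv.Perm α)) (M N : Subgroup G) [M.Normal] [N.Normal] (hM : M ≠ ⊥) (hN : N ≠ ⊥) (hMmin : ∀ L : Subgroup G, L.Normal → L ≤ M → L = ⊥ ∨ L = M) (hNmin : ∀ L : Subgroup G, L.Normal → L ≤ N → L = ⊥ ∨ L = N) (hMN : M ≠ N) (hMt : MulAction.IsPretransitive M α) (hNt : MulAction.IsPretransitive N α) : (∀ a : α, MulAction.stabilizer M a = ⊥) ∧ (∀ a : α, MulAction.stabilizer N a = ⊥) ∧ ¬ IsMulCommutative M ∧ Nonempty (M ≃* N) ∧ Subgroup.centralizer ((M.map G.subtype : Subgroup (Equiv.Perm α)) : Set (Equiv.Perm α)) = N.map G.subtype ∧ Subgroup.centralizer ((N.map G.subtype : Subgroup (Equiv.Perm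 α)) : Set (Equiv.Perm α)) = M.map G.subtype ∧ ∀ L : Subgroup G, L.Normal → L ≠ ⊥ → (∀ L' : Subgroup G, L'.Normal → L' ≤ L → L' = ⊥ ∨ L' = L) → L = M ∨ L = N := by
  classical
  obtain ⟨a⟩ : Nonempty α := by
    by_contra h
    rw [not_nonempty_iff] at h
    exact hM ((Subgroup.eq_bot_iff_forall _).mpr fun g _ => Subtype.ext (Subsingleton.elim _ _))
  have hinf : M ⊓ N = ⊥ := by
    rcases hMmin (M ⊓ N) inferInstance inf_le_left with h | h
    · exact h
    · rcases hNmin M inferInstance (h ▸ inf_le_right) with h' | h'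
      · exact absurd h' hM
      · exact absurd h' hMN
  have hc : ∀ m ∈ M, ∀ n ∈ N, m * n = n * m := fun m hm n hn =>
    Lib.Perm.commute_of_disjoint_normal hinf hm hn
  have hc' : ∀ n ∈ N, ∀ m ∈ M, n * m = m * n := fun n hn m hm => (hc m hm n hn).symm
  have hCM := cent_eq hc hMt hNt a
  have hregM := fun x => regular_of_commute hc hNt x
  have hregN := fun x => regular_of_commute hc' hMt x
  refine ⟨hregM, hregN, fun hab => ?_, ?_, hCM, cent_eq hc' hNt hMt a, fun L hL hL1 hLmin => ?_⟩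
  · apply hMN
    have h2 := cent_eq (M := M) (N := M) (fun u hu v hv => congrArg Subtype.val (hab.is_comm.comm ⟨u, hu⟩ ⟨v, hv⟩)) hMt hMt a
    rw [hCM] at h2
    exact (Subgroup.map_injective G.subtype_injective h2).symm
  · have inj : ∀ (K : Subgroup G), (∀ x : α, MulAction.stabilizer K x = ⊥) → ∀ u v : K, u • a = v • a → u = v := by
      intro K hK u v h
      have h1 : v⁻¹ * u ∈ MulAction.stabilizer K a := by
        rw [MulAction.mem_stabilizer_iff, mul_smul, h, inv_smul_smul]
      rw [hK, Subgroup.mem_bot, inv_mul_eq_one] at h1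
      exact h1.symm
    choose φ hφ using fun m : M => hNt.exists_smul_eq a (m⁻¹ • a)
    refine ⟨MulEquiv.ofBijective (MonoidHom.mk' φ fun u v => inj N hregN _ _ ?_) ⟨fun u v h => ?_, fun n => ?_⟩⟩
    · rw [hφ, mul_inv_rev, mul_smul, mul_smul, hφ]
      show v⁻¹ • u⁻¹ • a = ((φ u : G) : Equiv.Perm α) ((((v⁻¹ : M) : G) : Equiv.Perm α) a)
      rw [← Equiv.Perm.mul_apply, ← Subgroup.coe_mul, ← hc _ (v⁻¹).2 _ (φ u).2]
      show v⁻¹ • u⁻¹ • a = v⁻¹ • φ u • a
      rw [hφ]
    · have h1 : u⁻¹ • a = v⁻¹ • a := by rw [← hφ, ← hφ]; exact congrArg (· • a) h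
      exact inv_injective (inj M hregM _ _ h1)
    · obtain ⟨m, hm⟩ := hMt.exists_smul_eq a (n • a)
      exact ⟨m⁻¹, inj N hregN _ _ (by rw [MonoidHom.mk'_apply, hφ, inv_inv, hm])⟩
  · by_contra hne
    push Not at hne
    have := hL
    have hinfL : L ⊓ M = ⊥ := by
      rcases hMmin (L ⊓ M) inferInstance inf_le_right with h | h
      · exact h
      · rcases hLmin M inferInstance (h ▸ inf_le_left) with h' | h'
        · exact absurd h' hM
        · exact absurd h'.symm hne.1
    have hle : L ≤ N := fun l hl => by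
      have h1 := Lib.Perm.coe_mem_centralizer (g := l) (M := M)
        fun m hm => (Lib.Perm.commute_of_disjoint_normal hinfL hl hm).symm
      rw [hCM] at h1
      obtain ⟨n, hn, hnl⟩ := h1
      exact Subtype.ext hnl ▸ hn
    rcases hNmin L hL hle with h | h
    · exact hL1 h
    · exact hne.2 h

end Cfsg.Agent.S0704
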