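import Cfsg.Statements.S0705
import Cfsg.Agent.Lib.Perm.Tuples

set_option autoImplicit false
open scoped Pointwise
open Cfsg

namespace Cfsg.Agent.S0705

open scoped Pointwise


/-- A generously `k`-transitive permutation group (every `(k+1)`-subset has its full symmetric group induced by the setwise stabiliser) of degree greater than `k` is `k`-transitive, and for a `k`-subset the setwise and pointwise stabilisers have the same orbits outside it. -/
theorem result {α : Type*} [Fintype α] [DecidableEq α] (G : Subgroup (Equiv.Perm α)) {k : ℕ} (hk : k < Fintype.card α) (hgen : ∀ s : Finset α, s.card = k + 1 → ∀ σ : Equiv.Perm ↥s, ∃ g ∈ G, ∀ x : ↥s, g (x : α) = σ x) : MulAction.IsMultiplyPretransitive G α k ∧ ∀ s : Finset α, s.card = k → ∀ a b : α, a ∉ s → b ∉ s → (∃ g ∈ G, g • s = s ∧ g a = b) → ∃ g ∈ G, (∀ x ∈ s, g x = x) ∧ g a = b := by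
  classical
  refine ⟨Lib.Perm.multiply_of_moves hk fun x i b hb => ?_, fun s hs a b ha hb ⟨g, hg, hgs, hgab⟩ => ?_⟩
  · by_cases hxb : x i = b
    · exact ⟨1, fun j _ => one_smul _ _, by rw [one_smul]; exact hxb⟩
    let S := insert b (Finset.univ.map x)
    have hbS : b ∉ Finset.univ.map x := by
      simp only [Finset.mem_map, Finset.mem_univ, true_and, not_exists]
      intro j hj
      by_cases hji : j = i
      · exact hxb (hji ▸ hj)
      · exact hb j hji hj
    have hS : S.card = k + 1 := by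
      rw [Finset.card_insert_of_notMem hbS, Finset.card_map, Finset.card_univ, Fintype.card_fin]
    have hmem : ∀ j, x j ∈ S := fun j => Finset.mem_insert_of_mem (Finset.mem_map.mpr ⟨j, Finset.mem_univ _, rfl⟩)
    obtain ⟨f, hf, hfσ⟩ := hgen S hS (Equiv.swap ⟨x i, hmem i⟩ ⟨b, Finset.mem_insert_self _ _⟩)
    refine ⟨⟨f, hf⟩, fun j hj => ?_, ?_⟩
    · show f (x j) = x j
      rw [hfσ ⟨x j, hmem j⟩, Equiv.swap_apply_of_ne_of_ne]
      · exact fun e => hj (x.injective (congrArg Subtype.val e))
      · exact fun e => hb j hj (congrArg Subtype.val e)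
    · show f (x i) = b
      rw [hfσ ⟨x i, hmem i⟩, Equiv.swap_apply_left]
  · have hinv : ∀ y, g y ∈ s ↔ y ∈ s := fun y => by
      conv_lhs => rw [← hgs]
      exact Finset.smul_mem_smul_finset_iff (β := α) g (b := y)
    have hinv' : ∀ y, g⁻¹ y ∈ s ↔ y ∈ s := fun y => by
      rw [← hinv (g⁻¹ y), Equiv.Perm.inv_def, Equiv.apply_symm_apply]
    let π : Equiv.Perm α := Equiv.Perm.ofSubtype (g⁻¹.subtypePerm (p := fun y => y ∈ s) fun y => hinv' y)
    have hπb : π b = b := Equiv.Perm.ofSubtype_apply_of_not_mem _ hb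
    have hπs : ∀ y ∈ s, π y = g⁻¹ y := fun y hy => Equiv.Perm.ofSubtype_apply_of_mem _ hy
    have hS : (insert b s).card = k + 1 := by rw [Finset.card_insert_of_notMem hb, hs]
    have hπi : ∀ y, π y ∈ insert b s ↔ y ∈ insert b s := fun y => by
      by_cases hy : y ∈ s
      · simp only [Finset.mem_insert, hπs y hy, (hinv' y), hy, or_true]
      · rw [show π y = y from Equiv.Perm.ofSubtype_apply_of_not_mem _ hy]
    obtain ⟨f, hf, hfσ⟩ := hgen (insert b s) hS (π.subtypePerm hπi)
    refine ⟨f * g, mul_mem hf hg, fun y hy => ?_, ?_⟩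
    · rw [Equiv.Perm.mul_apply, hfσ ⟨g y, Finset.mem_insert_of_mem ((hinv y).mpr hy)⟩,
        Equiv.Perm.subtypePerm_apply]
      show π (g y) = y
      rw [hπs _ ((hinv y).mpr hy), Equiv.Perm.inv_def, Equiv.symm_apply_apply]
    · rw [Equiv.Perm.mul_apply, hgab, hfσ ⟨b, Finset.mem_insert_self _ _⟩, Equiv.Perm.subtypePerm_apply]
      exact hπb

end Cfsg.Agent.S0705
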