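import Cfsg.Statements.S0706
import Cfsg.Agent.S0705
import Mathlib.GroupTheory.Sylow
import Mathlib.GroupTheory.Perm.Cycle.Type

set_option autoImplicit false
open Cfsg

namespace Cfsg.Agent.S0706

open scoped Pointwise

/-- In a generously `k`-transitive permutation group, for a prime `p ≤ k` and a `k`-set `Γ`, there are no `p` points outside `Γ` lying in distinct orbits of the pointwise stabiliser of `Γ` all of length prime to `p` (at most `p - 1` such orbits). -/
theorem result {α : Type*} [Fintype α] [DecidableEq α] (G : Subgroup (Equiv.Perm α)) {k : ℕ} (hk : k < Fintype.card α) (hgen : ∀ s : Finset α, s.card = k + 1 → ∀ σ : Equiv.Perm ↥s, ∃ g ∈ G, ∀ x : ↥s, g (x : α) = σ x) {p : ℕ} (hp : p.Prime) (hpk : p ≤ k) (Γ : Finset α) (hΓ : Γ.card = k) (f : Fin p → α) (hf : ∀ i, f i ∉ Γ) (hdist : ∀ i j, i ≠ j → f j ∉ MulAction.orbit (fixingSubgroup G (Γ : Set α)) (f i)) : ∃ i, p ∣ Nat.card (MulAction.orbit (fixingSubgroup G (Γ : Set α)) (f i)) := by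
  classical
  have := Fact.mk hp
  have hktr := (Cfsg.Agent.S0705.result G hk hgen).1
  by_contra hcon
  push Not at hcon
  set H := fixingSubgroup G (Γ : Set α) with hHdef
  have memH : ∀ g : G, g ∈ H ↔ ∀ x ∈ Γ, g • x = x := fun g => by
    simp [hHdef, mem_fixingSubgroup_iff]
  obtain ⟨P0, hP0, hP0c⟩ := Finset.exists_subset_card_eq (s := Γ) (n := p) (by omega)
  let S : Subgroup G := MulAction.stabilizer G (Γ : Set α) ⊓ fixingSubgroup G ((Γ \ P0 : Finset α) : Set α)
  have hSΓ : ∀ g ∈ S, ∀ x, g • x ∈ Γ ↔ x ∈ Γ := fun g hg x => by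
    have h1 : g • (Γ : Set α) = (Γ : Set α) := hg.1
    have h2 := Set.smul_mem_smul_set_iff (a := g) (s := (Γ : Set α)) (x := x)
    rw [h1] at h2
    exact h2
  have lift : ∀ x, x ∉ Γ → ∀ σ : Equiv.Perm α, (∀ y, y ∉ Γ → σ y = y) →
      ∃ g : G, g • x = x ∧ ∀ y ∈ Γ, g • y = σ y := by
    intro x hx σ hσ
    have hinv : ∀ y, σ y ∈ insert x Γ ↔ y ∈ insert x Γ := by
      intro y
      by_cases hy : y ∈ Γ
      · have : σ y ∈ Γ := by
          by_contra h
          have := hσ _ h
          exact h (by rw [σ.injective this]; exact hy)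
        simp [hy, this]
      · rw [hσ y hy]
    obtain ⟨g, hg, hgσ⟩ := hgen (insert x Γ) (by rw [Finset.card_insert_of_notMem hx, hΓ])
      (σ.subtypePerm hinv)
    exact ⟨⟨g, hg⟩, (hgσ ⟨x, Finset.mem_insert_self _ _⟩).trans (hσ x hx),
      fun y hy => hgσ ⟨y, Finset.mem_insert_of_mem hy⟩⟩
  have horb : ∀ g ∈ S, ∀ x, x ∉ Γ → g • x ∈ MulAction.orbit H x := by
    intro g hg x hx
    have hi : ∀ y, (g : Equiv.Perm α) y ∈ Γ ↔ y ∈ Γ := hSΓ g hg
    let σ : Equiv.Perm α := Equiv.Perm.ofSubtype ((g : Equiv.Perm α).subtypePerm (p := fun y => y ∈ Γ) hi)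
    obtain ⟨g', hg'x, hg'⟩ := lift x hx σ fun y hy => Equiv.Perm.ofSubtype_apply_of_not_mem _ hy
    have hh : g * g'⁻¹ ∈ H := (memH _).mpr fun y hy => by
      have h1 : g' • ((g⁻¹ : G) • y) = y := by
        have hy' : (g⁻¹ : G) • y ∈ Γ := by
          rw [← hSΓ g hg, smul_inv_smul]; exact hy
        rw [hg' _ hy']
        show σ ((g⁻¹ : G) • y) = y
        rw [show σ ((g⁻¹ : G) • y) = _ from Equiv.Perm.ofSubtype_apply_of_mem _ hy']
        exact smul_inv_smul g y
      conv_lhs => rw [← h1]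
      rw [mul_smul, inv_smul_smul, smul_inv_smul]
    refine ⟨⟨g * g'⁻¹, hh⟩, ?_⟩
    show (g * g'⁻¹) • x = g • x
    rw [mul_smul, inv_smul_eq_iff.mpr hg'x.symm]
  let R : Sylow p S := default
  have hfix : ∀ i, ∃ y, y ∈ MulAction.orbit H (f i) ∧ ∀ r : R, ((r : S) : G) • y = y := by
    intro i
    let A : SubMulAction R α :=
      { carrier := MulAction.orbit H (f i)
        smul_mem' := fun r y hy => by
          have hyΓ : y ∉ Γ := by
            obtain ⟨h, rfl⟩ := hy
            intro hm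
            have h2 := (memH _).mp (h⁻¹).2 _ hm
            have h3 : ((h⁻¹ : H) : G) • (h • f i) = f i := inv_smul_smul (h : G) (f i)
            exact hf i (h3.symm.trans h2 ▸ hm)
          have h1 := horb ((r : S) : G) (r : S).2 y hyΓ
          rw [MulAction.orbit_eq_iff.mpr hy] at h1
          exact h1 }
    obtain ⟨y, hy⟩ := R.isPGroup'.nonempty_fixed_point_of_prime_not_dvd_card A (hcon i)
    exact ⟨y.1, y.2, fun r => congrArg Subtype.val (hy r)⟩
  choose y hyo hyfix using hfix
  have hyΓ : ∀ i, y i ∉ Γ := by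
    intro i hm
    obtain ⟨h, hh⟩ := hyo i
    have h2 := (memH _).mp (h⁻¹).2 _ hm
    have h3 : ((h⁻¹ : H) : G) • (h • f i) = f i := inv_smul_smul (h : G) (f i)
    rw [show h • f i = y i from hh, h2] at h3
    exact hf i (h3 ▸ hm)
  have hyinj : Function.Injective y := by
    intro i j h
    by_contra hne
    apply hdist i j hne
    rw [← MulAction.orbit_eq_iff.mpr (hyo i), h, MulAction.orbit_eq_iff.mpr (hyo j)]
    exact MulAction.mem_orbit_self _
  let Γ' := (Γ \ P0) ∪ Finset.univ.map ⟨y, hyinj⟩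
  have hΓ' : Γ'.card = k := by
    rw [Finset.card_union_of_disjoint, Finset.card_sdiff_of_subset hP0, Finset.card_map,
      Finset.card_univ, Fintype.card_fin, hΓ, hP0c]
    · omega
    · rw [Finset.disjoint_left]
      intro z hz hz'
      simp only [Finset.mem_map, Finset.mem_univ, true_and, Function.Embedding.coeFn_mk] at hz'
      obtain ⟨i, rfl⟩ := hz'
      exact hyΓ i (Finset.mem_sdiff.mp hz).1
  obtain ⟨c, hc⟩ := hktr.exists_smul_eq
    ((Γ'.equivFinOfCardEq hΓ').symm.toEmbedding.trans (Function.Embedding.subtype _))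
    ((Γ.equivFinOfCardEq hΓ).symm.toEmbedding.trans (Function.Embedding.subtype _))
  have hcΓ : ∀ z ∈ Γ, c⁻¹ • z ∈ Γ' := by
    intro z hz
    have h1 := congrArg (fun e : Fin k ↪ α => e (Γ.equivFinOfCardEq hΓ ⟨z, hz⟩)) hc
    simp only [Function.Embedding.smul_apply, Function.Embedding.trans_apply,
      Equiv.coe_toEmbedding, Equiv.symm_apply_apply, Function.Embedding.subtype_apply] at h1
    rw [← h1, inv_smul_smul]
    exact Subtype.property _
  let ι : R →* H :=
    { toFun := fun r => ⟨c * ((r : S) : G) * c⁻¹, (memH _).mpr fun z hz => by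
        have hr : ((r : S) : G) • (c⁻¹ • z) = c⁻¹ • z := by
          rcases Finset.mem_union.mp (hcΓ z hz) with h | h
          · exact (mem_fixingSubgroup_iff G).mp (r : S).2.2 _ h
          · simp only [Finset.mem_map, Finset.mem_univ, true_and, Function.Embedding.coeFn_mk] at h
            obtain ⟨i, hi⟩ := h
            rw [← hi]
            exact hyfix i r
        rw [mul_smul, mul_smul, hr, smul_inv_smul]⟩
      map_one' := by ext; simp
      map_mul' := fun a b => by ext; simp [mul_assoc] }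
  have hι : Function.Injective ι := fun a b h => by
    have h1 := congrArg (fun h : H => (h : G)) h
    simp only [ι, MonoidHom.coe_mk, OneHom.coe_mk] at h1
    exact Subtype.ext (Subtype.ext (mul_left_cancel (mul_right_cancel h1)))
  have hRH : Nat.card R ∣ Nat.card H := Subgroup.card_dvd_of_injective ι hι
  let π : S →* Equiv.Perm ↥Γ :=
    { toFun := fun g => ((g : G) : Equiv.Perm α).subtypePerm (hSΓ g g.2)
      map_one' := by ext; rfl
      map_mul' := fun _ _ => by ext; rfl }
  have hker : π.ker = H.subgroupOf S := by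
    ext g
    rw [Subgroup.mem_subgroupOf, memH, MonoidHom.mem_ker]
    exact ⟨fun h z hz => congrArg Subtype.val (Equiv.ext_iff.mp h ⟨z, hz⟩),
      fun h => Equiv.ext fun z => Subtype.ext (h z.1 z.2)⟩
  have hle : H ≤ S := fun g hg => by
    refine ⟨?_, (mem_fixingSubgroup_iff G).mpr fun z hz => (memH g).mp hg z (Finset.mem_sdiff.mp hz).1⟩
    refine MulAction.mem_stabilizer_iff.mpr (Set.Subset.antisymm ?_ ?_)
    · rintro _ ⟨z, hz, rfl⟩
      show g • z ∈ (Γ : Set α)
      rw [(memH g).mp hg z hz]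
      exact hz
    · exact fun z hz => ⟨z, hz, (memH g).mp hg z hz⟩
  have hrange : p ∣ Nat.card π.range := by
    have hcyc : p ∣ Fintype.card (Equiv.Perm ↥P0) := by
      rw [Fintype.card_perm, Fintype.card_coe, hP0c]
      exact Nat.dvd_factorial hp.pos le_rfl
    obtain ⟨τ, hτ⟩ := exists_prime_orderOf_dvd_card p hcyc
    let σ : Equiv.Perm α := Equiv.Perm.ofSubtype τ
    have hσ : ∀ z, z ∉ P0 → σ z = z := fun z hz => Equiv.Perm.ofSubtype_apply_of_not_mem _ hz
    obtain ⟨g, -, hg⟩ := lift (f ⟨0, hp.pos⟩) (hf _) σ fun z hz => hσ z fun h => hz (hP0 h)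
    have hσΓ : ∀ z ∈ Γ, σ z ∈ Γ := fun z hz => by
      by_cases h : z ∈ P0
      · rw [show σ z = _ from Equiv.Perm.ofSubtype_apply_of_mem τ h]
        exact hP0 (τ ⟨z, h⟩).2
      · rw [hσ z h]; exact hz
    have hgS : g ∈ S := by
      refine ⟨?_, ?_⟩
      · refine MulAction.mem_stabilizer_iff.mpr (Set.eq_of_subset_of_ncard_le ?_ ?_)
        · rintro _ ⟨z, hz, rfl⟩
          show g • z ∈ (Γ : Set α)
          rw [hg z hz]
          exact hσΓ z hz
        · rw [Set.ncard_smul_set]
      · refine (mem_fixingSubgroup_iff G).mpr fun z hz => ?_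
        rw [hg z (Finset.mem_sdiff.mp hz).1, hσ z (Finset.mem_sdiff.mp hz).2]
    have hord : orderOf (π ⟨g, hgS⟩) = p := by
      have hval : ∀ n : ℕ, ∀ z : ↥Γ, (((π ⟨g, hgS⟩) ^ n) z : α) = (σ ^ n) z := by
        intro n
        induction n with
        | zero => intro z; rfl
        | succ n ih =>
          intro z
          rw [pow_succ', pow_succ', Equiv.Perm.mul_apply, Equiv.Perm.mul_apply, ← ih z]
          exact hg _ (Subtype.property _)
      refine orderOf_eq_prime ?_ ?_
      · refine Equiv.ext fun z => Subtype.ext ?_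
        rw [hval, ← map_pow, ← hτ, pow_orderOf_eq_one, map_one]
        rfl
      · intro h
        have hτ1 : τ = 1 := Equiv.ext fun z => Subtype.ext (by
          have h2 := hval 1 ⟨z.1, hP0 z.2⟩
          rw [pow_one, pow_one, h] at h2
          rw [show σ z.1 = _ from Equiv.Perm.ofSubtype_apply_coe τ z] at h2
          exact h2.symm)
        rw [hτ1, orderOf_one] at hτ
        exact hp.one_lt.ne hτ
    rw [← hord]
    exact π.range.orderOf_dvd_natCard ⟨⟨g, hgS⟩, rfl⟩
  have hSc : p * Nat.card H ∣ Nat.card S := by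
    rw [← Subgroup.card_mul_index π.ker, hker, Nat.card_congr (Subgroup.subgroupOfEquivOfLe hle).toEquiv,
      mul_comm p]
    refine Nat.mul_dvd_mul_left _ ?_
    rwa [← hker, Subgroup.index_ker]
  have hpow : p ^ ((Nat.card H).factorization p + 1) ∣ Nat.card S := by
    refine dvd_trans ?_ hSc
    rw [pow_succ, mul_comm]
    exact Nat.mul_dvd_mul_left p (Nat.ordProj_dvd _ p)
  have h1 : p ^ ((Nat.card H).factorization p + 1) ∣ Nat.card H := by
    refine dvd_trans ?_ hRH
    rw [R.card_eq_multiplicity]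
    exact pow_dvd_pow p ((hp.pow_dvd_iff_le_factorization Nat.card_pos.ne').mp hpow)
  exact Nat.pow_succ_factorization_not_dvd Nat.card_pos.ne' hp h1

end Cfsg.Agent.S0706
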