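import Cfsg.Statements.S0707
import Mathlib.GroupTheory.GroupAction.Primitive
import Mathlib.GroupTheory.OrderOfElement
import Mathlib.GroupTheory.SpecificGroups.Cyclic

set_option autoImplicit false
open Cfsg

namespace Cfsg.Agent.S0707

open scoped Pointwise


/-- In a primitive permutation group, distinct points have distinct stabilisers unless the group is regular of prime degree. -/
theorem result {α : Type*} (G : Subgroup (Equiv.Perm α)) [MulAction.IsPreprimitive G α] (h : ¬ (Nat.card α).Prime ∨ ∃ a : α, MulAction.stabilizer G a ≠ ⊥) {a b : α} (hab : a ≠ b) : MulAction.stabilizer G a ≠ MulAction.stabilizer G b := by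
  classical
  intro heq
  have hblock : MulAction.IsBlock G ({x | MulAction.stabilizer G x = MulAction.stabilizer G a} : Set α) := by
    rw [MulAction.isBlock_iff_smul_eq_of_nonempty]
    rintro g ⟨y, hy1, hy2⟩
    rw [Set.mem_smul_set_iff_inv_smul_mem] at hy1
    have e1 : ∀ (u : G) (z : α), MulAction.stabilizer G z = MulAction.stabilizer G a →
        MulAction.stabilizer G (u • z) = (MulAction.stabilizer G a).map (MulAut.conj u).toMonoidHom := fun u z hz => by
      rw [MulAction.stabilizer_smul_eq_stabilizer_map_conj, hz]
    have key : (MulAction.stabilizer G a).map (MulAut.conj g).toMonoidHom = MulAction.stabilizer G a := by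
      rw [← e1 g (g⁻¹ • y) hy1, smul_inv_smul]
      exact hy2
    ext z
    rw [Set.mem_smul_set_iff_inv_smul_mem]
    constructor
    · intro hz
      show MulAction.stabilizer G z = _
      rw [← smul_inv_smul g z, e1 g _ hz, key]
    · intro hz
      show MulAction.stabilizer G (g⁻¹ • z) = _
      apply Subgroup.map_injective (f := (MulAut.conj g).toMonoidHom) (MulAut.conj g).injective
      show (MulAction.stabilizer G (g⁻¹ • z)).map (MulAut.conj g).toMonoidHom = (MulAction.stabilizer G a).map (MulAut.conj g).toMonoidHom
      rw [key, ← MulAction.stabilizer_smul_eq_stabilizer_map_conj, smul_inv_smul]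
      exact hz
  have hall : ∀ x : α, MulAction.stabilizer G x = MulAction.stabilizer G a := by
    rcases MulAction.IsPreprimitive.isTrivialBlock_of_isBlock hblock with h' | h'
    · exact absurd (h' (show a ∈ ({x | MulAction.stabilizer G x = MulAction.stabilizer G a} : Set α) from rfl)
        (show b ∈ ({x | MulAction.stabilizer G x = MulAction.stabilizer G a} : Set α) from heq.symm)) hab
    · intro x
      exact (h' ▸ Set.mem_univ x : x ∈ {x | MulAction.stabilizer G x = MulAction.stabilizer G a})
  have hbot : MulAction.stabilizer G a = ⊥ := (Subgroup.eq_bot_iff_forall _).mpr fun g hg =>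
    Subtype.ext (Equiv.ext fun x => by
      have : g ∈ MulAction.stabilizer G x := (hall x).symm ▸ hg
      exact this)
  rcases h with h | ⟨c, hc⟩
  · apply h
    have : Nontrivial α := ⟨a, b, hab⟩
    have hco := MulAction.IsPreprimitive.isCoatom_stabilizer_of_isPreprimitive (G := G) a
    rw [hbot] at hco
    obtain ⟨g, hg⟩ : ∃ g : G, g • a = b := MulAction.exists_smul_eq G a b
    have hg1 : g ≠ 1 := fun e => hab (by rw [← hg, e, one_smul])
    have hgen : ∀ u : G, u ≠ 1 → Subgroup.zpowers u = ⊤ := fun u hu =>
      hco.2 _ (bot_lt_iff_ne_bot.mpr fun e => hu (Subgroup.zpowers_eq_bot.mp e))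
    have hfo : IsOfFinOrder g := by
      by_contra hinf
      have hinj := (injective_zpow_iff_not_isOfFinOrder.mpr hinf)
      have h2 : g ^ (2 : ℤ) ≠ 1 := fun e => by
        have := hinj (e.trans (zpow_zero g).symm); omega
      obtain ⟨i, hi⟩ : g ∈ Subgroup.zpowers (g ^ (2 : ℤ)) := by rw [hgen _ h2]; exact Subgroup.mem_top g
      have := hinj ((zpow_mul g 2 i).trans (hi.trans (zpow_one g).symm))
      omega
    have hcard : Nat.card α = orderOf g := by
      rw [← Nat.card_zpowers, hgen g hg1, Subgroup.card_top,
        ← MulAction.index_stabilizer_of_transitive G a, hbot, Subgroup.index_bot]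
    rw [hcard]
    obtain ⟨q, hq, hqd⟩ := Nat.exists_prime_and_dvd (show orderOf g ≠ 1 from fun e => hg1 (orderOf_eq_one_iff.mp e))
    have hpos := hfo.orderOf_pos
    have ho : orderOf (g ^ (orderOf g / q)) = q := by
      rw [orderOf_pow_of_dvd (Nat.div_pos (Nat.le_of_dvd hpos hqd) hq.pos).ne' (Nat.div_dvd_of_dvd hqd),
        Nat.div_div_self hqd hpos.ne']
    have h5 := hgen (g ^ (orderOf g / q)) (fun e => by rw [e, orderOf_one] at ho; exact hq.ne_one ho.symm)
    have h6 : orderOf g = q := by
      rw [← Nat.card_zpowers, hgen g hg1, ← h5, Nat.card_zpowers, ho]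
    rwa [h6]
  · exact hc ((hall c).trans hbot)

end Cfsg.Agent.S0707
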