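import Cfsg.Statements.S0708
import Mathlib.GroupTheory.GroupAction.MultipleTransitivity
import Mathlib.GroupTheory.Perm.Cycle.Type
import Mathlib.SetTheory.Cardinal.Finite
import Mathlib.Data.Fintype.CardEmbedding

set_option autoImplicit false
open Cfsg

namespace Cfsg.Agent.S0708

/-- Tits' argument: a sharply 4-transitive group (no finiteness assumed) has finite degree at most 11, and at most 6 when the degree is even. -/
theorem result {G : Type*} [Group G] {Ω : Type*} [MulAction G Ω] (h4 : MulAction.IsMultiplyPretransitive G Ω 4) (hsharp : ∀ x : Fin 4 ↪ Ω, MulAction.stabilizer G x = ⊥) (hne : Nonempty (Fin 4 ↪ Ω)) : Finite Ω ∧ Nat.card Ω ≤ 11 ∧ (Even (Nat.card Ω) → Nat.card Ω ≤ 6) := by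
  classical
  obtain ⟨e⟩ := hne
  have emb : ∀ p q r s : Ω, p ≠ q → p ≠ r → p ≠ s → q ≠ r → q ≠ s → r ≠ s →
      Function.Injective ![p, q, r, s] := by
    intro p q r s _ _ _ _ _ _ i j h
    fin_cases i <;> fin_cases j <;> simp_all
  have key : ∀ g h : G, ∀ p q r s : Ω, p ≠ q → p ≠ r → p ≠ s → q ≠ r → q ≠ s → r ≠ s →
      g • p = h • p → g • q = h • q → g • r = h • r → g • s = h • s → g = h := by
    intro g h p q r s n1 n2 n3 n4 n5 n6 e1 e2 e3 e4
    have hmem : h⁻¹ * g ∈ MulAction.stabilizer G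
        (⟨![p, q, r, s], emb p q r s n1 n2 n3 n4 n5 n6⟩ : Fin 4 ↪ Ω) := by
      refine MulAction.mem_stabilizer_iff.mpr (Function.Embedding.ext fun i => ?_)
      fin_cases i <;> simp [mul_smul, e1, e2, e3, e4]
    rw [hsharp, Subgroup.mem_bot, inv_mul_eq_one] at hmem
    exact hmem.symm
  have move : ∀ p q r s p' q' r' s' : Ω, p ≠ q → p ≠ r → p ≠ s → q ≠ r → q ≠ s → r ≠ s →
      p' ≠ q' → p' ≠ r' → p' ≠ s' → q' ≠ r' → q' ≠ s' → r' ≠ s' →
      ∃ g : G, g • p = p' ∧ g • q = q' ∧ g • r = r' ∧ g • s = s' := by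
    intro p q r s p' q' r' s' n1 n2 n3 n4 n5 n6 m1 m2 m3 m4 m5 m6
    obtain ⟨g, hg⟩ := h4.exists_smul_eq (⟨![p, q, r, s], emb p q r s n1 n2 n3 n4 n5 n6⟩ : Fin 4 ↪ Ω)
      ⟨![p', q', r', s'], emb p' q' r' s' m1 m2 m3 m4 m5 m6⟩
    exact ⟨g, congrArg (fun e : Fin 4 ↪ Ω => e 0) hg, congrArg (fun e : Fin 4 ↪ Ω => e 1) hg,
      congrArg (fun e : Fin 4 ↪ Ω => e 2) hg, congrArg (fun e : Fin 4 ↪ Ω => e 3) hg⟩
  set p := e 0
  set q := e 1
  set u := e 2
  set v := e 3
  have hne' : ∀ i j : Fin 4, i ≠ j → e i ≠ e j := fun i j h => fun h' => h (e.injective h')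
  have d01 : p ≠ q := hne' 0 1 (by decide)
  have d02 : p ≠ u := hne' 0 2 (by decide)
  have d03 : p ≠ v := hne' 0 3 (by decide)
  have d12 : q ≠ u := hne' 1 2 (by decide)
  have d13 : q ≠ v := hne' 1 3 (by decide)
  have d23 : u ≠ v := hne' 2 3 (by decide)
  obtain ⟨a, ap, aq, au, av⟩ := move p q u v q p u v d01 d02 d03 d12 d13 d23
    d01.symm d12 d13 d02 d03 d23
  have ha2 : a * a = 1 := key _ _ p q u v d01 d02 d03 d12 d13 d23
    (by rw [mul_smul, ap, aq, one_smul]) (by rw [mul_smul, aq, ap, one_smul])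
    (by rw [mul_smul, au, au, one_smul]) (by rw [mul_smul, av, av, one_smul])
  have haa : ∀ x : Ω, a • a • x = x := fun x => by rw [← mul_smul, ha2, one_smul]
  set F : Set Ω := MulAction.fixedBy Ω a
  have hpF : p ∉ F := fun h => d01 (h.symm.trans ap)
  have hqF : q ∉ F := fun h => d01 (aq.symm.trans h)
  have ha1 : a ≠ 1 := fun h => d01 (by rw [← ap, h, one_smul])
  have hF4 : ∀ t : Finset Ω, (↑t : Set Ω) ⊆ F → t.card ≤ 3 := by
    intro t ht
    by_contra hc
    obtain ⟨t', ht', htc⟩ := Finset.exists_subset_card_eq (s := t) (n := 4) (by omega)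
    let em : Fin 4 ↪ Ω := (t'.equivFinOfCardEq htc).symm.toEmbedding.trans (Function.Embedding.subtype _)
    have : a ∈ MulAction.stabilizer G em := MulAction.mem_stabilizer_iff.mpr
      (Function.Embedding.ext fun i => ht (ht' (Subtype.property _)))
    rw [hsharp, Subgroup.mem_bot] at this
    exact ha1 this
  have hFfin : F.Finite := by
    by_contra h
    obtain ⟨t, ht, htc⟩ := Set.Infinite.exists_subset_card_eq h 4
    have := hF4 t ht
    omega
  have := hFfin.to_subtype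
  have hFle : Nat.card F ≤ 3 := by
    rw [Nat.card_coe_set_eq, Set.ncard_eq_toFinset_card F hFfin]
    exact hF4 _ (by simp)
  have hF2 : 2 ≤ Nat.card F := by
    rw [Nat.card_coe_set_eq]
    exact (Set.one_lt_ncard hFfin).mpr ⟨u, au, v, av, d23⟩
  -- the remaining moved points inject into the permutations of `F`
  let W : Set Ω := {x | x ∉ F ∧ x ≠ p ∧ x ≠ q}
  have hWfin : Finite W ∧ Nat.card W ≤ (Nat.card F).factorial := by
    rcases isEmpty_or_nonempty W with hW | ⟨⟨r, hrF, hrp, hrq⟩⟩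
    · exact ⟨inferInstance, by simp⟩
    have hmv : ∀ x ∈ W, p ≠ x ∧ p ≠ a • x ∧ q ≠ x ∧ q ≠ a • x ∧ x ≠ a • x := by
      rintro x ⟨hxF, hxp, hxq⟩
      exact ⟨hxp.symm, fun h => hxq (by rw [← haa x, ← h, ap]), hxq.symm,
        fun h => hxp (by rw [← haa x, ← h, aq]), fun h => hxF h.symm⟩
    obtain ⟨r1, r2, r3, r4, r5⟩ := hmv r ⟨hrF, hrp, hrq⟩
    have hg : ∀ x : W, ∃ g : G, g • p = p ∧ g • q = q ∧ g • r = (x : Ω) ∧ g * a = a * g := by
      intro x
      obtain ⟨x1, x2, x3, x4, x5⟩ := hmv x x.2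
      obtain ⟨g, g1, g2, g3, g4⟩ := move p q r (a • r) p q x (a • (x : Ω)) d01 r1 r2 r3 r4 r5
        d01 x1 x2 x3 x4 x5
      refine ⟨g, g1, g2, g3, key _ _ p q r (a • r) d01 r1 r2 r3 r4 r5 ?_ ?_ ?_ ?_⟩
      · rw [mul_smul, mul_smul, ap, g1, g2, ap]
      · rw [mul_smul, mul_smul, aq, g1, g2, aq]
      · rw [mul_smul, mul_smul, g3, g4]
      · rw [mul_smul, mul_smul, g4, haa, haa, g3]
    choose g g1 g2 g3 g4 using hg
    have hgF : ∀ x, ∀ z ∈ F, g x • z ∈ F := fun x z hz => by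
      show a • g x • z = g x • z
      rw [← mul_smul, ← g4, mul_smul, hz]
    let Φ : W → (F → F) := fun x z => ⟨g x • (z : Ω), hgF x z z.2⟩
    have hΦ : ∀ x y, Φ x = Φ y → x = y := by
      intro x y h
      have hz : ∀ z ∈ F, g x • z = g y • z := fun z hz =>
        congrArg Subtype.val (congrFun h ⟨z, hz⟩)
      have := key (g x) (g y) p q u v d01 d02 d03 d12 d13 d23 (by rw [g1, g1]) (by rw [g2, g2])
        (hz u au) (hz v av)
      exact Subtype.ext (by rw [← g3 x, this, g3 y])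
    have hΦi : ∀ x, Function.Injective (Φ x) := fun x z w h =>
      Subtype.ext (MulAction.injective (g x) (congrArg Subtype.val h))
    let Ψ : W → (F ↪ F) := fun x => ⟨Φ x, hΦi x⟩
    have hΨ : Function.Injective Ψ := fun x y h => hΦ x y (congrArg DFunLike.coe h)
    refine ⟨Finite.of_injective Ψ hΨ, (Nat.card_le_card_of_injective Ψ hΨ).trans (le_of_eq ?_)⟩
    have := Fintype.ofFinite F
    rw [Nat.card_eq_fintype_card, Fintype.card_embedding_eq, Nat.card_eq_fintype_card,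
      Nat.descFactorial_self]
  obtain ⟨hWf, hWle⟩ := hWfin
  have hcov : (Set.univ : Set Ω) ⊆ ({p, q} : Set Ω) ∪ F ∪ W := by
    intro x _
    simp only [Set.mem_union, Set.mem_insert_iff, Set.mem_singleton_iff, W, Set.mem_setOf_eq]
    tauto
  have hfinU : (({p, q} : Set Ω) ∪ F ∪ W).Finite :=
    ((Set.toFinite _).union hFfin).union (Set.toFinite W)
  have hΩ : Finite Ω := Set.finite_univ_iff.mp (hfinU.subset hcov)
  have hcard : Nat.card Ω ≤ 2 + Nat.card F + (Nat.card F).factorial := by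
    rw [← Set.ncard_univ]
    refine (Set.ncard_le_ncard hcov hfinU).trans ((Set.ncard_union_le _ _).trans ?_)
    rw [Set.ncard_pair d01 |>.symm]
    refine Nat.add_le_add ((Set.ncard_union_le _ _).trans (le_of_eq ?_)) ?_
    · rw [Nat.card_coe_set_eq]
    · rw [← Nat.card_coe_set_eq]; exact hWle
  have hfac : (Nat.card F).factorial ≤ 6 := (Nat.factorial_le hFle).trans (le_of_eq rfl)
  refine ⟨hΩ, by omega, fun heven => ?_⟩
  have := Fintype.ofFinite Ω
  have hmod := Equiv.Perm.card_compl_support_modEq (p := 2) (n := 1)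
    (σ := MulAction.toPerm a) (by
      refine Equiv.ext fun x => ?_
      simp [pow_succ, Equiv.Perm.mul_apply]
      exact haa x)
  have hsupp : (MulAction.toPerm a : Equiv.Perm Ω).supportᶜ.card = Nat.card F := by
    rw [Nat.card_coe_set_eq, ← Set.ncard_coe_finset]
    congr 1
    ext x
    simp [F, Equiv.Perm.mem_support]
  rw [hsupp, ← Nat.card_eq_fintype_card] at hmod
  rw [Nat.even_iff] at heven
  unfold Nat.ModEq at hmod
  have h2 : Nat.card F = 2 := by omega
  rw [h2] at hcard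
  rw [Nat.factorial_two] at hcard
  omega

end Cfsg.Agent.S0708
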