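import Cfsg.Statements.S0709
import Mathlib.GroupTheory.GroupAction.MultipleTransitivity
import Mathlib.Algebra.Group.Subgroup.Finite
import Mathlib.GroupTheory.Perm.Basic
import Mathlib.GroupTheory.OrderOfElement

set_option autoImplicit false
open Cfsg

namespace Cfsg.Agent.S0709

variable {G : Type*} [Group G] [Finite G]

theorem closed_is_subgroup (X : Set G) (h1 : (1 : G) ∈ X) (hmul : ∀ a ∈ X, ∀ b ∈ X, a * b ∈ X) :
    ∃ S : Subgroup G, (S : Set G) = X := by
  refine ⟨{ carrier := X, one_mem' := h1, mul_mem' := fun ha hb => hmul _ ha _ hb, inv_mem' := ?_ }, rfl⟩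
  intro a ha
  have hpow : ∀ k : ℕ, a ^ k ∈ X := by
    intro k
    induction k with
    | zero => simpa using h1
    | succ k ih => rw [pow_succ]; exact hmul _ ih _ ha
  have : a⁻¹ = a ^ (orderOf a - 1) := by
    rw [inv_eq_iff_mul_eq_one, ← pow_succ', Nat.sub_add_cancel (orderOf_pos a), pow_orderOf_eq_one]
  rw [this]
  exact hpow _

/-- Witt's Lemma for constructing transitive extensions. Points `q 1, …, q t` (`t ≥ 2`) of a finite set are given; `G` fixes `q i` for `i ≥ 3` and is doubly transitive on the remaining points; `s 1 ∈ G` swaps `q 1, q 2`; for `2 ≤ i ≤ t-1`, `s i` swaps `q i, q (i+1)` and fixes the other `q j`; with `H` the stabiliser of `q 1, q 2` in `G`: `s i ^ 2 ∈ H`, `(s i * s (i+1)) ^ 3 ∈ H`, `(s i * s j) ^ 2 ∈ H` for `j ≥ i + 2`, and `s i` (`i ≥ 2`) normalises the stabiliser of `q 2` in `G`. Then `G` and the `s i` generate a `t`-transitive group whose pointwise stabiliser of the `q`'s is `H`. -/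
theorem result {α : Type*} [Fintype α] [DecidableEq α] (t : ℕ) (ht : 2 ≤ t) (q : ℕ → α) (hq : ∀ i j : ℕ, 1 ≤ i → i ≤ t → 1 ≤ j → j ≤ t → q i = q j → i = j) (G : Subgroup (Equiv.Perm α)) (hfix : ∀ g ∈ G, ∀ i : ℕ, 3 ≤ i → i ≤ t → g (q i) = q i) (h2 : ∀ a b c d : α, (∀ i, 3 ≤ i → i ≤ t → a ≠ q i ∧ b ≠ q i ∧ c ≠ q i ∧ d ≠ q i) → a ≠ b → c ≠ d → ∃ g ∈ G, g a = c ∧ g b = d) (s : ℕ → Equiv.Perm α) (hs1 : s 1 ∈ G) (hs1q : s 1 (q 1) = q 2 ∧ s 1 (q 2) = q 1) (hsq : ∀ i : ℕ, 2 ≤ i → i + 1 ≤ t → s i (q i) = q (i + 1) ∧ s i (q (i + 1)) = q i ∧ ∀ j : ℕ, 1 ≤ j → j ≤ t → j ≠ i → j ≠ i + 1 → s i (q j) = q j) (H : Subgroup (Equiv.Perm α)) (hH : H = G ⊓ MulAction.stabilizer (Equiv.Perm α) (q 1) ⊓ MulAction.stabilizer (Equiv.Perm α) (q 2)) (hsq2 : ∀ i : ℕ, 1 ≤ i → i + 1 ≤ t → s i ^ 2 ∈ H) (hbraid : ∀ i : ℕ, 1 ≤ i → i + 2 ≤ t → (s i * s (i + 1)) ^ 3 ∈ H) (hcomm : ∀ i j : ℕ, 1 ≤ i → i + 2 ≤ j → j + 1 ≤ t → (s i * s j) ^ 2 ∈ H ∧ (s j * s i) ^ 2 ∈ H) (hnorm : ∀ i : ℕ,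 2 ≤ i → i + 1 ≤ t → ∀ g ∈ G ⊓ MulAction.stabilizer (Equiv.Perm α) (q 2), s i * g * (s i)⁻¹ ∈ G ⊓ MulAction.stabilizer (Equiv.Perm α) (q 2)) : MulAction.IsMultiplyPretransitive ↥(Subgroup.closure ((G : Set (Equiv.Perm α)) ∪ {x | ∃ i : ℕ, 2 ≤ i ∧ i + 1 ≤ t ∧ x = s i})) α t ∧ Subgroup.closure ((G : Set (Equiv.Perm α)) ∪ {x | ∃ i : ℕ, 2 ≤ i ∧ i + 1 ≤ t ∧ x = s i}) ⊓ fixingSubgroup (Equiv.Perm α) {x | ∃ i : ℕ, 1 ≤ i ∧ i ≤ t ∧ x = q i} = H := by
  classical
  let K : Subgroup (Equiv.Perm α) := G ⊓ MulAction.stabilizer (Equiv.Perm α) (q 2)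
  let Gm : ℕ → Subgroup (Equiv.Perm α) := fun m =>
    Subgroup.closure ((G : Set (Equiv.Perm α)) ∪ {x | ∃ i : ℕ, 2 ≤ i ∧ i + 1 ≤ m ∧ x = s i})
  let L : ℕ → Subgroup (Equiv.Perm α) := fun m =>
    Subgroup.closure ((K : Set (Equiv.Perm α)) ∪ {x | ∃ i : ℕ, 1 ≤ i ∧ i + 2 ≤ m ∧ x = s i})
  have hne : ∀ i j : ℕ, 1 ≤ i → i ≤ t → 1 ≤ j → j ≤ t → i ≠ j → q i ≠ q j :=
    fun i j a b c d e h => e (hq i j a b c d h)
  have hGle : ∀ m, G ≤ Gm m := fun m x hx => Subgroup.subset_closure (Or.inl hx)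
  have hsmem : ∀ m i, 1 ≤ i → i + 1 ≤ m → s i ∈ Gm m := by
    intro m i hi hm
    rcases eq_or_lt_of_le hi with rfl | hi2
    · exact hGle m hs1
    · exact Subgroup.subset_closure (Or.inr ⟨i, hi2, hm, rfl⟩)
  have hG2 : Gm 2 = G := by
    refine le_antisymm ((Subgroup.closure_le _).mpr ?_) (hGle 2)
    rintro x (hx | ⟨i, hi, hi', -⟩)
    · exact hx
    · omega
  have hKH : H ≤ K := by rw [hH]; exact le_inf (inf_le_left.trans inf_le_left) inf_le_right
  have hGm_fix : ∀ m, 2 ≤ m → m ≤ t → ∀ g ∈ Gm m, ∀ j, m < j → j ≤ t → g (q j) = q j := by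
    intro m hm2 hmt g hg j hj hjt
    suffices Gm m ≤ MulAction.stabilizer (Equiv.Perm α) (q j) from this hg
    refine (Subgroup.closure_le _).mpr ?_
    rintro x (hx | ⟨i, hi, hi', rfl⟩)
    · exact hfix x hx j (by omega) hjt
    · exact (hsq i hi (by omega)).2.2 j (by omega) hjt (by omega) (by omega)
  have hL_fix : ∀ m, 2 ≤ m → m ≤ t → L m ≤ MulAction.stabilizer (Equiv.Perm α) (q m) := by
    intro m hm2 hmt
    refine (Subgroup.closure_le _).mpr ?_
    rintro x (hx | ⟨i, hi, hi', rfl⟩)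
    · rcases eq_or_lt_of_le hm2 with rfl | h3
      · exact hx.2
      · exact hfix x hx.1 m h3 hmt
    · rcases eq_or_lt_of_le hi with rfl | h2i
      · exact hfix _ hs1 m (by omega) hmt
      · exact (hsq i h2i (by omega)).2.2 m (by omega) hmt (by omega) (by omega)
  have hLle : ∀ m, L m ≤ Gm m := by
    intro m
    refine (Subgroup.closure_le _).mpr ?_
    rintro x (hx | ⟨i, hi, hi', rfl⟩)
    · exact hGle m hx.1
    · exact hsmem m i hi (by omega)
  have hLK : ∀ m, K ≤ L m := fun m x hx => Subgroup.subset_closure (Or.inl hx)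
  have hHL : ∀ m, H ≤ L m := fun m => hKH.trans (hLK m)
  have hnormL : ∀ m i, 2 ≤ m → m ≤ i → i + 1 ≤ t → ∀ g ∈ L m, s i * g * (s i)⁻¹ ∈ L m := by
    intro m i hm hmi hit g hg
    suffices L m ≤ (L m).comap (MulAut.conj (s i)).toMonoidHom from this hg
    refine (Subgroup.closure_le _).mpr ?_
    rintro x (hx | ⟨j, hj, hj', rfl⟩)
    · exact hLK m (hnorm i (by omega) hit x hx)
    · have hjL : s j ∈ L m := Subgroup.subset_closure (Or.inr ⟨j, hj, hj', rfl⟩)
      have h1 := hHL m (hcomm j i hj (by omega) hit).1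
      have h2 := hHL m (hsq2 i (by omega) hit)
      have he : s i * s j * (s i)⁻¹ = (s j)⁻¹ * (s j * s i) ^ 2 * (s i ^ 2)⁻¹ := by
        simp only [pow_two]
        group
      show s i * s j * (s i)⁻¹ ∈ L m
      rw [he]
      exact mul_mem (mul_mem (inv_mem hjL) h1) (inv_mem h2)
  -- main induction
  have main : ∀ m, 2 ≤ m → m ≤ t →
      (∀ g ∈ Gm m, g ∈ L m ∨ ∃ a ∈ L m, ∃ b ∈ L m, g = a * s (m - 1) * b) ∧
      (∀ g ∈ Gm m, g (q m) = q m → g ∈ L m) ∧
      (∀ x : α, (∀ j, m < j → j ≤ t → x ≠ q j) → ∃ g ∈ Gm m, g (q m) = x) ∧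
      (3 ≤ m → L m = Gm (m - 1)) := by
    intro m hm
    induction m, hm using Nat.le_induction with
    | base =>
      intro _
      have h12 : q 1 ≠ q 2 := hne 1 2 le_rfl (by omega) (by omega) ht (by decide)
      have htr : ∀ x, (∀ j, 2 < j → j ≤ t → x ≠ q j) → ∃ g ∈ Gm 2, g (q 2) = x := by
        intro x hx
        by_cases hx2 : x = q 2
        · exact ⟨1, one_mem _, hx2.symm⟩
        have hq' : ∀ i, i = 1 ∨ i = 2 → ∀ j, 3 ≤ j → j ≤ t → q i ≠ q j := fun i hi j hj hjt =>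
          hne i j (by omega) (by omega) (by omega) hjt (by omega)
        obtain ⟨g, hg, hg1, -⟩ := h2 (q 2) (q 1) x (q 2) (fun j hj hjt =>
          ⟨hq' 2 (by simp) j hj hjt, hq' 1 (by simp) j hj hjt, hx j hj hjt, hq' 2 (by simp) j hj hjt⟩)
          h12.symm hx2
        exact ⟨g, hGle 2 hg, hg1⟩
      have hstab : ∀ g ∈ Gm 2, g (q 2) = q 2 → g ∈ L 2 := fun g hg hg2 =>
        hLK 2 ⟨hG2 ▸ hg, hg2⟩
      refine ⟨fun g hg => ?_, hstab, htr, fun h => absurd h (by decide)⟩
      by_cases hgq : g (q 2) = q 2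
      · exact Or.inl (hstab g hg hgq)
      right
      have hgG : g ∈ G := hG2 ▸ hg
      -- choose `a` fixing `q 2` with `a (q 1) = g (q 2)`
      have hnot : ∀ j, 3 ≤ j → j ≤ t → g (q 2) ≠ q j := fun j hj hjt h =>
        hne 2 j (by omega) ht (by omega) hjt (by omega) (g.injective (h.trans (hfix g hgG j hj hjt).symm))
      obtain ⟨a, ha, ha1, ha2⟩ := h2 (q 1) (q 2) (g (q 2)) (q 2) (fun j hj hjt =>
        ⟨hne 1 j le_rfl (by omega) (by omega) hjt (by omega), hne 2 j (by omega) ht (by omega) hjt (by omega),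
          hnot j hj hjt, hne 2 j (by omega) ht (by omega) hjt (by omega)⟩) h12 hgq
      refine ⟨a, hLK 2 ⟨ha, ha2⟩, (s 1)⁻¹ * a⁻¹ * g,
        hLK 2 ⟨(mul_mem (mul_mem (inv_mem hs1) (inv_mem ha)) hgG : (s 1)⁻¹ * a⁻¹ * g ∈ G), ?_⟩, by group⟩
      show ((s 1)⁻¹ * a⁻¹ * g) (q 2) = q 2
      simp only [Equiv.Perm.mul_apply, ← ha1]
      rw [show a⁻¹ (a (q 1)) = q 1 from a.symm_apply_apply _]
      exact (Equiv.symm_apply_eq (s 1)).mpr hs1q.2.symm
    | succ m hm ih =>
      intro hmt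
      obtain ⟨hdec, hst, htr, hLeq⟩ := ih (by omega)
      have hσq := hsq m hm hmt
      set σ := s m with hσ
      have hLsucc : L (m + 1) = Gm m := by
        refine le_antisymm ((Subgroup.closure_le _).mpr ?_) ((Subgroup.closure_le _).mpr ?_)
        · rintro x (hx | ⟨i, hi, hi', rfl⟩)
          · exact hGle m hx.1
          · exact hsmem m i hi (by omega)
        · have hK2 : G ≤ L (m + 1) := by
            intro g hg
            have hs1L : s 1 ∈ L (m + 1) := Subgroup.subset_closure (Or.inr ⟨1, le_rfl, by omega, rfl⟩)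
            by_cases hgq : g (q 2) = q 2
            · exact hLK _ ⟨hg, hgq⟩
            have h12 : q 1 ≠ q 2 := hne 1 2 le_rfl (by omega) (by omega) ht (by decide)
            have hnot : ∀ j, 3 ≤ j → j ≤ t → g (q 2) ≠ q j := fun j hj hjt h =>
              hne 2 j (by omega) ht (by omega) hjt (by omega) (g.injective (h.trans (hfix g hg j hj hjt).symm))
            obtain ⟨a, ha, ha1, ha2⟩ := h2 (q 1) (q 2) (g (q 2)) (q 2) (fun j hj hjt =>
              ⟨hne 1 j le_rfl (by omega) (by omega) hjt (by omega), hne 2 j (by omega) ht (by omega) hjt (by omega),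
                hnot j hj hjt, hne 2 j (by omega) ht (by omega) hjt (by omega)⟩) h12 hgq
            have hb : (s 1)⁻¹ * a⁻¹ * g ∈ K := by
              refine ⟨(mul_mem (mul_mem (inv_mem hs1) (inv_mem ha)) hg : (s 1)⁻¹ * a⁻¹ * g ∈ G), ?_⟩
              show ((s 1)⁻¹ * a⁻¹ * g) (q 2) = q 2
              simp only [Equiv.Perm.mul_apply, ← ha1]
              rw [show a⁻¹ (a (q 1)) = q 1 from a.symm_apply_apply _]
              exact (Equiv.symm_apply_eq (s 1)).mpr hs1q.2.symm
            have := mul_mem (mul_mem (hLK (m + 1) ⟨ha, ha2⟩) hs1L) (hLK (m + 1) hb)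
            rwa [show a * s 1 * ((s 1)⁻¹ * a⁻¹ * g) = g by group] at this
          rintro x (hx | ⟨i, hi, hi', rfl⟩)
          · exact hK2 hx
          · exact Subgroup.subset_closure (Or.inr ⟨i, by omega, by omega, rfl⟩)
      -- the double coset union
      let X : Set (Equiv.Perm α) := {g | g ∈ Gm m ∨ ∃ a ∈ Gm m, ∃ b ∈ Gm m, g = a * σ * b}
      have hσ2 : σ ^ 2 ∈ L m := hHL m (hsq2 m (by omega) hmt)
      have hkey : ∀ g ∈ Gm m, σ * g * σ ∈ X := by
        intro g hg
        rcases hdec g hg with hgL | ⟨a, ha, b, hb, rfl⟩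
        · left
          have := mul_mem (hLle m (hnormL m m hm le_rfl hmt g hgL)) (hLle m hσ2)
          rwa [show σ * g * σ⁻¹ * σ ^ 2 = σ * g * σ by group] at this
        · right
          set u := s (m - 1) with hu
          have hbr : (u * σ) ^ 3 ∈ L m := by
            have := hHL m (hbraid (m - 1) (by omega) (by omega))
            rwa [show m - 1 + 1 = m by omega] at this
          have huG : u ∈ Gm m := hsmem m (m - 1) (by omega) (by omega)
          have ha' := hnormL m m hm le_rfl hmt a ha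
          have hb' := hnormL m m hm le_rfl hmt b hb
          refine ⟨σ * a * σ⁻¹ * (u⁻¹ * (u * σ) ^ 3), ?_, (σ ^ 2)⁻¹ * u⁻¹ * ((σ ^ 2)⁻¹ * (σ * b * σ⁻¹) * σ ^ 2), ?_, ?_⟩
          · exact mul_mem (hLle m ha') (mul_mem (inv_mem huG) (hLle m hbr))
          · exact mul_mem (mul_mem (inv_mem (hLle m hσ2)) (inv_mem huG))
              (hLle m (mul_mem (mul_mem (inv_mem hσ2) hb') hσ2))
          · simp only [pow_succ, pow_zero, one_mul]
            group
      have hXmul : ∀ g ∈ X, ∀ g' ∈ X, g * g' ∈ X := by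
        rintro g (hg | ⟨a, ha, b, hb, rfl⟩) g' (hg' | ⟨c, hc, d, hd, rfl⟩)
        · exact Or.inl (mul_mem hg hg')
        · exact Or.inr ⟨g * c, mul_mem hg hc, d, hd, by group⟩
        · exact Or.inr ⟨a, ha, b * g', mul_mem hb hg', by group⟩
        · have h := hkey (b * c) (mul_mem hb hc)
          rw [show a * σ * b * (c * σ * d) = a * (σ * (b * c) * σ) * d by group]
          rcases h with h | ⟨e, he, f, hf, h⟩
          · exact Or.inl (mul_mem (mul_mem ha h) hd)
          · exact Or.inr ⟨a * e, mul_mem ha he, f * d, mul_mem hf hd, by rw [h]; group⟩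
      obtain ⟨S, hS⟩ := closed_is_subgroup X (Or.inl (one_mem _)) hXmul
      have hGsucc : ∀ g ∈ Gm (m + 1), g ∈ X := by
        intro g hg
        rw [← hS]
        refine (Subgroup.closure_le _).mpr ?_ hg
        rw [hS]
        rintro x (hx | ⟨i, hi, hi', rfl⟩)
        · exact Or.inl (hGle m hx)
        · rcases Nat.lt_or_ge i m with h | h
          · exact Or.inl (hsmem m i (by omega) h)
          · obtain rfl : i = m := by omega
            exact Or.inr ⟨1, one_mem _, 1, one_mem _, by simp [hσ]⟩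
      have hmono : Gm m ≤ Gm (m + 1) := hLsucc ▸ hLle (m + 1)
      refine ⟨fun g hg => ?_, fun g hg hgq => ?_, fun x hx => ?_, fun _ => hLsucc⟩
      · rw [hLsucc, Nat.add_sub_cancel]
        exact hGsucc g hg
      · rw [hLsucc]
        rcases hGsucc g hg with h | ⟨a, ha, b, hb, rfl⟩
        · exact h
        · exfalso
          simp only [Equiv.Perm.mul_apply, hGm_fix m hm (by omega) b hb (m + 1) (by omega) hmt,
            hσq.2.1] at hgq
          exact hne m (m + 1) (by omega) (by omega) (by omega) hmt (by omega)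
            (a.injective (hgq.trans (hGm_fix m hm (by omega) a ha (m + 1) (by omega) hmt).symm))
      · by_cases hxm : x = q (m + 1)
        · exact ⟨1, one_mem _, hxm.symm⟩
        · obtain ⟨g, hg, hgx⟩ := htr x fun j hj hjt => by
            rcases Nat.lt_or_ge (m + 1) j with h | h
            · exact hx j h hjt
            · obtain rfl : j = m + 1 := by omega
              exact hxm
          exact ⟨g * σ, mul_mem (hmono hg) (hsmem _ m (by omega) le_rfl),
            by rw [Equiv.Perm.mul_apply, hσq.2.1, hgx]⟩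
  -- transitivity on tuples
  have tup : ∀ m, 2 ≤ m → m ≤ t → ∀ x : ℕ → α,
      (∀ i j, 1 ≤ i → i ≤ m → 1 ≤ j → j ≤ m → x i = x j → i = j) →
      (∀ i j, 1 ≤ i → i ≤ m → m < j → j ≤ t → x i ≠ q j) →
      ∃ g ∈ Gm m, ∀ i, 1 ≤ i → i ≤ m → g (q i) = x i := by
    intro m hm
    induction m, hm using Nat.le_induction with
    | base =>
      intro _ x hxi hxq
      obtain ⟨g, hg, hg1, hg2⟩ := h2 (q 1) (q 2) (x 1) (x 2) (fun j hj hjt =>
        ⟨hne 1 j le_rfl (by omega) (by omega) hjt (by omega), hne 2 j (by omega) ht (by omega) hjt (by omega),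
          hxq 1 j le_rfl (by omega) hj hjt, hxq 2 j (by omega) le_rfl hj hjt⟩)
        (hne 1 2 le_rfl (by omega) (by omega) ht (by decide))
        (fun h => absurd (hxi 1 2 le_rfl (by omega) (by omega) le_rfl h) (by decide))
      refine ⟨g, hGle 2 hg, fun i hi hi' => ?_⟩
      rcases (show i = 1 ∨ i = 2 by omega) with rfl | rfl
      · exact hg1
      · exact hg2
    | succ m hm ih =>
      intro hmt x hxi hxq
      obtain ⟨g0, hg0, hg0q⟩ := (main (m + 1) (by omega) hmt).2.2.1 (x (m + 1)) fun j hj hjt =>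
        hxq (m + 1) j (by omega) le_rfl hj hjt
      obtain ⟨g, hg, hgq⟩ := ih (by omega) (fun i => g0⁻¹ (x i))
        (fun i j hi hi' hj hj' h => hxi i j hi (by omega) hj (by omega) (g0⁻¹.injective h))
        (fun i j hi hi' hj hjt h => by
          rcases Nat.lt_or_ge (m + 1) j with hj2 | hj2
          · apply hxq i j hi (by omega) hj2 hjt
            rw [← hGm_fix (m + 1) (by omega) hmt g0 hg0 j hj2 hjt, ← h]
            exact (g0.apply_symm_apply _).symm
          · obtain rfl : j = m + 1 := by omega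
            have : x i = x (m + 1) := by
              rw [← hg0q, ← h]
              exact (g0.apply_symm_apply _).symm
            have := hxi i (m + 1) hi (by omega) (by omega) le_rfl this
            omega)
      have hmono : Gm m ≤ Gm (m + 1) :=
        ((main (m + 1) (by omega) hmt).2.2.2 (by omega)).symm.trans_le (hLle (m + 1))
      refine ⟨g0 * g, mul_mem hg0 (hmono hg), fun i hi hi' => ?_⟩
      rcases Nat.lt_or_ge m i with h | h
      · obtain rfl : i = m + 1 := by omega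
        rw [Equiv.Perm.mul_apply, hGm_fix m hm (by omega) g hg (m + 1) h hmt, hg0q]
      · rw [Equiv.Perm.mul_apply, hgq i hi h]
        exact g0.apply_symm_apply _
  have hfixer : ∀ m, 2 ≤ m → m ≤ t → ∀ g ∈ Gm m, (∀ i, 1 ≤ i → i ≤ m → g (q i) = q i) → g ∈ H := by
    intro m hm
    induction m, hm using Nat.le_induction with
    | base =>
      intro _ g hg hgq
      rw [hH]
      exact ⟨⟨hG2 ▸ hg, hgq 1 le_rfl (by omega)⟩, hgq 2 (by omega) le_rfl⟩
    | succ m hm ih =>
      intro hmt g hg hgq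
      have := (main (m + 1) (by omega) hmt).2.1 g hg (hgq (m + 1) (by omega) le_rfl)
      rw [(main (m + 1) (by omega) hmt).2.2.2 (by omega), Nat.add_sub_cancel] at this
      exact ih (by omega) g this fun i hi hi' => hgq i hi (by omega)
  refine ⟨?_, ?_⟩
  · have hbase : ∀ x : Fin t ↪ α, ∃ g ∈ Gm t, ∀ i : Fin t, g (q ((i : ℕ) + 1)) = x i := by
      intro x
      have : Nonempty (Fin t) := ⟨⟨0, by omega⟩⟩
      obtain ⟨g, hg, hgq⟩ := tup t ht le_rfl
        (fun i => if h : i - 1 < t then x ⟨i - 1, h⟩ else q i)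
        (fun i j hi hi' hj hj' h => by
          simp only [dif_pos (show i - 1 < t by omega), dif_pos (show j - 1 < t by omega)] at h
          have := congrArg Fin.val (x.injective h)
          simp only at this
          omega)
        (fun i j hi hi' hj hjt => absurd hjt (by omega))
      refine ⟨g, hg, fun i => ?_⟩
      rw [hgq ((i : ℕ) + 1) (by omega) i.isLt]
      simp
    refine MulAction.isMultiplyPretransitive_iff.mpr fun x y => ?_
    obtain ⟨g, hg, hgx⟩ := hbase x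
    obtain ⟨g', hg', hgy⟩ := hbase y
    refine ⟨⟨g' * g⁻¹, mul_mem hg' (inv_mem hg)⟩, Function.Embedding.ext fun i => ?_⟩
    show (g' * g⁻¹) (x i) = y i
    rw [← hgx i, Equiv.Perm.mul_apply, show g⁻¹ (g (q ((i : ℕ) + 1))) = _ from g.symm_apply_apply _, hgy i]
  · refine le_antisymm ?_ ?_
    · rintro g ⟨hg, hg'⟩
      refine hfixer t ht le_rfl g hg fun i hi hi' => ?_
      exact (mem_fixingSubgroup_iff _).mp hg' _ ⟨i, hi, hi', rfl⟩
    · intro g hg
      rw [hH] at hg
      refine ⟨hGle t hg.1.1, (mem_fixingSubgroup_iff _).mpr ?_⟩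
      rintro _ ⟨i, hi, hi', rfl⟩
      rcases (show i = 1 ∨ i = 2 ∨ 3 ≤ i by omega) with rfl | rfl | h3
      · exact hg.1.2
      · exact hg.2
      · exact hfix g hg.1.1 i h3 hi'

end Cfsg.Agent.S0709
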