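import Cfsg.Statements.S0710
import Cfsg.Agent.Lib.Perm.PrimeDegree

set_option autoImplicit false
open Cfsg

namespace Cfsg.Agent.S0710

/-- No transitive permutation group on 13 points has order `13 * 12 * 11 * 10 * 9 * 8`. -/
theorem result {α : Type*} [Fintype α] [DecidableEq α] (hα : Fintype.card α = 13) (G : Subgroup (Equiv.Perm α)) [MulAction.IsPretransitive G α] : Nat.card G ≠ 13 * 12 * 11 * 10 * 9 * 8 := by
  intro h
  have hp : Fact (Nat.Prime 13) := ⟨by decide⟩
  have hG : Finite G := inferInstance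
  obtain ⟨P⟩ : Nonempty (Sylow 13 G) := inferInstance
  have hα' : Nat.card α = 13 := by rw [Nat.card_eq_fintype_card, hα]
  have hPc : Nat.card P = 13 := Lib.Perm.card_sylow_of_prime (Ω := α) hα' P
  have h1 : Nat.card (Sylow 13 G) % 13 = 1 := by
    have := card_sylow_modEq_one 13 G
    simpa [Nat.ModEq] using this
  -- the normalizer of P has order dividing 13 * 12
  have hnorm : Nat.card (Sylow 13 G) * Nat.card (Subgroup.normalizer ((P : Subgroup G) : Set G)) = Nat.card G := by
    rw [P.card_eq_index_normalizer]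
    exact Subgroup.index_mul_card _
  obtain ⟨⟨x, hxP⟩, hx⟩ := exists_prime_orderOf_dvd_card' (G := (P : Subgroup G)) 13 (dvd_of_eq hPc.symm)
  rw [Subgroup.orderOf_mk] at hx
  have hzP : Subgroup.zpowers x = (P : Subgroup G) := by
    refine Subgroup.eq_of_le_of_card_ge (Subgroup.zpowers_le.mpr hxP) ?_
    rw [Nat.card_zpowers, hx, hPc]
  have hd := Lib.Perm.card_normalizer_dvd_of_prime (Ω := α) hα' hx
  rw [hzP] at hd
  have hge : 13 ∣ Nat.card (Subgroup.normalizer ((P : Subgroup G) : Set G)) :=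
    (dvd_of_eq hPc.symm).trans (Subgroup.card_dvd_of_le Subgroup.le_normalizer)
  obtain ⟨d, hd'⟩ := hge
  rw [hd', h] at hnorm
  rw [hd'] at hd
  have hd12 : d ∣ 12 := (Nat.mul_dvd_mul_iff_left (by norm_num)).mp hd
  have hdle : d ≤ 12 := Nat.le_of_dvd (by norm_num) hd12
  have key : Nat.card (Sylow 13 G) * d = 95040 := by linarith
  have hm : (Nat.card (Sylow 13 G) * d) % 13 = d % 13 := by
    rw [Nat.mul_mod, h1, one_mul, Nat.mod_mod]
  rw [key] at hm
  interval_cases d <;> first | omega | (norm_num at hd12)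

end Cfsg.Agent.S0710
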