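import Cfsg.Statements.S0712

set_option autoImplicit false
open Cfsg

namespace Cfsg.Agent.S0712

/-- Jordan: a primitive group in which the pointwise stabiliser of a set `s` is doubly transitive on the complement of `s` (which has at least 2 points) is `(|s| + 2)`-transitive. -/
theorem result {α : Type*} [Fintype α] [DecidableEq α] (G : Subgroup (Equiv.Perm α)) (hG : MulAction.IsPreprimitive G α) (s : Set α) {m : ℕ} (hsm : s.ncard = m) (hm : m + 2 ≤ Fintype.card α) (h2 : MulAction.IsMultiplyPretransitive (fixingSubgroup G s) (SubMulAction.ofFixingSubgroup G s) 2) : MulAction.IsMultiplyPretransitive G α (m + 2) := by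
  have := h2
  have hprim : MulAction.IsPreprimitive (fixingSubgroup G s) (SubMulAction.ofFixingSubgroup G s) :=
    MulAction.isPreprimitive_of_is_two_pretransitive h2
  have hcard : Nat.card α = Fintype.card α := Nat.card_eq_fintype_card
  have hm' : MulAction.IsMultiplyPretransitive G α m := by
    rcases m with _ | k
    · exact MulAction.is_zero_pretransitive
    · have := (hG.isMultiplyPreprimitive hsm (by omega) hprim)
      have := MulAction.IsMultiplyPreprimitive.isMultiplyPretransitive (M := G) (α := α) (n := k + 2)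
      exact MulAction.isMultiplyPretransitive_of_le (n := k + 2) (by omega) (by omega)
  refine ⟨fun x y => ?_⟩
  obtain ⟨e⟩ : Nonempty (Fin m ≃ s) := Finite.card_eq.mp (by rw [Nat.card_fin, Nat.card_coe_set_eq, hsm])
  let c : Fin m ↪ α := e.toEmbedding.trans (Function.Embedding.subtype _)
  have norm : ∀ z : Fin (m + 2) ↪ α, ∃ (g : G) (z' : Fin 2 ↪ SubMulAction.ofFixingSubgroup G s),
      (∀ i : Fin m, g • z (Fin.castAdd 2 i) = c i) ∧ ∀ j : Fin 2, g • z (Fin.natAdd m j) = (z' j : α) := by
    intro z
    obtain ⟨g, hg⟩ := MulAction.exists_smul_eq G ((Fin.castAddEmb 2).trans z : Fin m ↪ α) c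
    have hg' : ∀ i : Fin m, g • z (Fin.castAdd 2 i) = c i := fun i => DFunLike.congr_fun hg i
    refine ⟨g, ⟨fun j => ⟨g • z (Fin.natAdd m j), ?_⟩, fun i j hij => ?_⟩, hg', fun j => rfl⟩
    · rw [SubMulAction.mem_ofFixingSubgroup_iff]
      intro hs
      have h3 : g • z (Fin.natAdd m j) = g • z (Fin.castAdd 2 (e.symm ⟨_, hs⟩)) := by
        rw [hg']; simp [c]
      have := congrArg Fin.val (z.injective (MulAction.injective g h3))
      simp only [Fin.val_natAdd, Fin.val_castAdd] at this
      omega
    · have := z.injective (MulAction.injective g (congrArg Subtype.val hij))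
      exact (Fin.natAdd_injective 2 m) this
  obtain ⟨g, x', hx, hx'⟩ := norm x
  obtain ⟨k, y', hy, hy'⟩ := norm y
  obtain ⟨f, hf⟩ := MulAction.exists_smul_eq (fixingSubgroup G s) x' y'
  refine ⟨k⁻¹ * (f : G) * g, Function.Embedding.ext fun i => ?_⟩
  rw [Function.Embedding.smul_apply, mul_smul, mul_smul, inv_smul_eq_iff]
  refine Fin.addCases (fun i => ?_) (fun j => ?_) i
  · rw [hx, hy]
    exact (mem_fixingSubgroup_iff G).mp f.2 _ (e i).2
  · rw [hx', hy', ← hf]
    rfl

end Cfsg.Agent.S0712
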