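import Cfsg.Statements.S0714
import Cfsg.Agent.Lib.Perm.Modules

set_option autoImplicit false
open Cfsg

namespace Cfsg.Agent.S0714

open Equiv in
theorem sumZero_le {α : Type*} [Fintype α] [DecidableEq α] (hα : 5 ≤ Fintype.card α) {K : Type*}
    [Field K] (W : Subrepresentation (Cfsg.permRep K (alternatingGroup α) α)) {f : α → K}
    (hf : f ∈ W.toSubmodule) (hnc : ¬ ∃ k, ∀ x, f x = k) :
    (Cfsg.permSumZero K (alternatingGroup α) α).toSubmodule ≤ W.toSubmodule := by
  classical
  have hact : ∀ (g : Perm α), Perm.sign g = 1 → ∀ w ∈ W.toSubmodule, (fun x => w (g x)) ∈ W.toSubmodule := by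
    intro g hg w hw
    have := W.apply_mem_toSubmodule (⟨g, hg⟩ : alternatingGroup α)⁻¹ hw
    convert this using 1
    funext x
    rw [Lib.Perm.permRep_apply, inv_inv]
    rfl
  -- a vector with two zeros
  obtain ⟨v, hvW, hv0, p, q, hpq, hp, hq⟩ : ∃ v ∈ W.toSubmodule, v ≠ 0 ∧
      ∃ p q : α, p ≠ q ∧ v p = 0 ∧ v q = 0 := by
    obtain ⟨a, b, hab⟩ : ∃ a b, f a ≠ f b := by
      by_contra h
      push Not at h
      rcases isEmpty_or_nonempty α with hα' | ⟨⟨a⟩⟩
      · simp [Fintype.card_eq_zero] at hα
      · exact hnc ⟨f a, fun x => h x a⟩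
    have hne : a ≠ b := fun h => hab (h ▸ rfl)
    obtain ⟨c, hc⟩ : ∃ c, c ∉ ({a, b} : Finset α) := by
      by_contra h
      push Not at h
      have := Finset.card_le_card (fun x _ => h x : (Finset.univ : Finset α) ⊆ {a, b})
      rw [Finset.card_univ, Finset.card_pair hne] at this
      omega
    simp only [Finset.mem_insert, Finset.mem_singleton, not_or] at hc
    let g : Perm α := swap a c * swap a b
    have hg : Perm.sign g = 1 := by
      simp [g, Perm.sign_mul, Perm.sign_swap hne, Perm.sign_swap (Ne.symm hc.1)]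
    have hga : g a = b := by
      simp [g, swap_apply_of_ne_of_ne (Ne.symm hne) (Ne.symm hc.2)]
    refine ⟨(fun x => f (g x)) - f, W.toSubmodule.sub_mem (hact g hg f hf) hf, fun h => ?_, ?_⟩
    · have := congrFun h a
      simp [hga] at this
      exact hab.symm (sub_eq_zero.mp this)
    · have hcard : 2 ≤ ((Finset.univ : Finset α) \ {a, b, c}).card := by
        rw [Finset.card_sdiff, Finset.inter_univ, Finset.card_univ]
        have := Finset.card_le_three (a := a) (b := b) (c := c)
        omega
      obtain ⟨p, hp, q, hq, hpq⟩ := Finset.one_lt_card.mp hcard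
      simp only [Finset.mem_sdiff, Finset.mem_univ, true_and, Finset.mem_insert,
        Finset.mem_singleton, not_or] at hp hq
      have hfix : ∀ z, z ≠ a → z ≠ b → z ≠ c → g z = z := fun z h1 h2 h3 => by
        simp [g, swap_apply_of_ne_of_ne h1 h2, swap_apply_of_ne_of_ne h1 h3]
      exact ⟨p, q, hpq, by simp [hfix p hp.1 hp.2.1 hp.2.2], by simp [hfix q hq.1 hq.2.1 hq.2.2]⟩
  -- a difference of two unit vectors
  obtain ⟨a, b, c, d, hab, hcd, hac, had, hbc, hbd, hva, hvc⟩ : ∃ a b c d : α, a ≠ b ∧ c ≠ d ∧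
      a ≠ c ∧ a ≠ d ∧ b ≠ c ∧ b ≠ d ∧ v a ≠ v b ∧ v c = v d := by
    by_cases h : ∃ a b, a ∉ ({p, q} : Finset α) ∧ b ∉ ({p, q} : Finset α) ∧ v a ≠ v b
    · obtain ⟨a, b, ha, hb, hv⟩ := h
      simp only [Finset.mem_insert, Finset.mem_singleton, not_or] at ha hb
      exact ⟨a, b, p, q, fun e => hv (e ▸ rfl), hpq, ha.1, ha.2, hb.1, hb.2, hv, hp.trans hq.symm⟩
    · push Not at h
      have hcard : 2 < ((Finset.univ : Finset α) \ {p, q}).card := by
        rw [Finset.card_sdiff, Finset.inter_univ, Finset.card_univ, Finset.card_pair hpq]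
        omega
      obtain ⟨r, hr, s, hs, t, ht, hrs, hrt, hst⟩ := Finset.two_lt_card.mp hcard
      simp only [Finset.mem_sdiff, Finset.mem_univ, true_and] at hr hs ht
      have hvt : v t ≠ 0 := by
        intro h0
        apply hv0
        funext x
        by_cases hx : x ∈ ({p, q} : Finset α)
        · rcases Finset.mem_insert.mp hx with rfl | hx
          · exact hp
          · rw [Finset.mem_singleton] at hx; subst hx; exact hq
        · rw [h x t hx ht]; exact h0
      simp only [Finset.mem_insert, Finset.mem_singleton, not_or] at hr hs ht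
      exact ⟨p, t, r, s, Ne.symm ht.1, hrs, Ne.symm hr.1, Ne.symm hs.1, Ne.symm hrt, Ne.symm hst,
        by rw [hp]; exact Ne.symm hvt,
        h r s (by simp [hr]) (by simp [hs])⟩
  have hdiff : (Pi.single a 1 - Pi.single b 1 : α → K) ∈ W.toSubmodule := by
    have hg : Perm.sign (swap a b * swap c d) = 1 := by
      simp [Perm.sign_mul, Perm.sign_swap hab, Perm.sign_swap hcd]
    have hm := W.toSubmodule.sub_mem (hact _ hg v hvW) hvW
    have heq : (fun x => v ((swap a b * swap c d) x)) - v =
        (v b - v a) • (Pi.single a 1 - Pi.single b 1 : α → K) := by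
      funext x
      by_cases hxa : x = a
      · subst hxa; simp [swap_apply_of_ne_of_ne hac had, hab]
      by_cases hxb : x = b
      · subst hxb; simp [swap_apply_of_ne_of_ne hbc hbd, Ne.symm hab]
      by_cases hxc : x = c
      · subst hxc; simp [hxa, hxb, swap_apply_of_ne_of_ne (Ne.symm had) (Ne.symm hbd), hvc]
      by_cases hxd : x = d
      · subst hxd; simp [hxa, hxb, swap_apply_of_ne_of_ne (Ne.symm hac) (Ne.symm hbc), hvc]
      · simp [hxa, hxb, swap_apply_of_ne_of_ne hxa hxb, swap_apply_of_ne_of_ne hxc hxd]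
    rw [heq] at hm
    have hne : v b - v a ≠ 0 := sub_ne_zero.mpr (Ne.symm hva)
    simpa [smul_smul, hne] using W.toSubmodule.smul_mem (v b - v a)⁻¹ hm
  have h2 : MulAction.IsMultiplyPretransitive (alternatingGroup α) α 2 := by
    have h3 : MulAction.IsMultiplyPretransitive (alternatingGroup α) α (Nat.card α - 2) :=
      alternatingGroup.isMultiplyPretransitive α
    exact MulAction.isMultiplyPretransitive_of_le (n := Nat.card α - 2)
      (by rw [Nat.card_eq_fintype_card]; omega) (Nat.sub_le _ _)
  have hall : ∀ x y : α, (Pi.single x 1 - Pi.single y 1 : α → K) ∈ W.toSubmodule := by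
    intro x y
    by_cases hxy : x = y
    · subst hxy; simp
    obtain ⟨g, hgx, hgy⟩ := MulAction.is_two_pretransitive_iff.mp h2 hab hxy
    have := W.apply_mem_toSubmodule g hdiff
    convert this using 1
    funext z
    have hiff : ∀ w, g⁻¹ • z = w ↔ z = g • w := fun w => inv_smul_eq_iff
    simp [Lib.Perm.permRep_apply, Pi.single_apply, hiff, hgx, hgy]
  intro w hw
  have : w = ∑ x, w x • (Pi.single x 1 - Pi.single a 1 : α → K) := by
    simp only [smul_sub, Finset.sum_sub_distrib, ← Finset.sum_smul, Lib.Perm.mem_permSumZero.mp hw,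
      zero_smul, sub_zero]
    exact pi_eq_sum_univ' w
  rw [this]
  exact W.toSubmodule.sum_mem fun x _ => W.toSubmodule.smul_mem _ (hall x a)


/-- Over any field, the permutation module of the alternating group of degree at least 5 has exactly four invariant subspaces: zero, the constant functions, the functions with coordinate sum zero, and everything. -/
theorem result {α : Type*} [Fintype α] [DecidableEq α] (hα : 5 ≤ Fintype.card α) {K : Type*} [Field K] (W : Subrepresentation (Cfsg.permRep K (alternatingGroup α) α)) : W.toSubmodule = ⊥ ∨ W = Cfsg.permConstants K (alternatingGroup α) α ∨ W = Cfsg.permSumZero K (alternatingGroup α) α ∨ W.toSubmodule = ⊤ := by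
  classical
  by_cases hc : ∀ f ∈ W.toSubmodule, ∃ k, ∀ x, f x = k
  · by_cases hb : W.toSubmodule = ⊥
    · exact Or.inl hb
    refine Or.inr (Or.inl (Subrepresentation.toSubmodule_injective (le_antisymm
      (fun f hf => Lib.Perm.mem_permConstants.mpr (hc f hf)) ?_)))
    obtain ⟨v, hv, hv0⟩ := Submodule.exists_mem_ne_zero_of_ne_bot hb
    obtain ⟨k, hk⟩ := hc v hv
    have hk0 : k ≠ 0 := fun h => hv0 (funext fun x => by simp [hk, h])
    intro f hf
    obtain ⟨m, hm⟩ := Lib.Perm.mem_permConstants.mp hf
    have : f = (m / k) • v := funext fun x => by simp [hm, hk, hk0]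
    exact this ▸ W.toSubmodule.smul_mem _ hv
  · push Not at hc
    obtain ⟨f, hf, hnc⟩ := hc
    have hS := sumZero_le hα W hf (by push Not; exact hnc)
    by_cases hle : W.toSubmodule ≤ (Cfsg.permSumZero K (alternatingGroup α) α).toSubmodule
    · exact Or.inr (Or.inr (Or.inl (Subrepresentation.toSubmodule_injective (le_antisymm hle hS))))
    · obtain ⟨z, hz, hz'⟩ := SetLike.not_le_iff_exists.mp hle
      rw [Lib.Perm.mem_permSumZero] at hz'
      refine Or.inr (Or.inr (Or.inr (Submodule.eq_top_iff'.mpr fun u => ?_)))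
      have h1 : u - ((∑ x, u x) / ∑ x, z x) • z ∈ W.toSubmodule := hS (by
        rw [Lib.Perm.mem_permSumZero]
        simp [Finset.sum_sub_distrib, ← Finset.mul_sum, hz'])
      simpa using W.toSubmodule.add_mem h1 (W.toSubmodule.smul_mem ((∑ x, u x) / ∑ x, z x) hz)

end Cfsg.Agent.S0714
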