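import Cfsg.Statements.S0717
import Cfsg.Agent.Lib.Perm.CharRank

set_option autoImplicit false
open Cfsg

namespace Cfsg.Agent.S0717

/-- All suborbits of a transitive group are self-paired (every pair of points is interchanged by some group element) if and only if the permutation character is multiplicity-free and each of its irreducible constituents is real-valued. -/
theorem result {G : Type*} [Group G] [Fintype G] {Ω : Type*} [Fintype Ω] [MulAction G Ω] [MulAction.IsPretransitive G Ω] : (∀ a b : Ω, ∃ g : G, g • a = b ∧ g • b = a) ↔ ∀ χ : G → ℂ, Cfsg.IsIrrCharacter G χ → Cfsg.classInner (fun g : G => (Nat.card (MulAction.fixedBy Ω g) : ℂ)) χ ≠ 0 → Cfsg.classInner (fun g : G => (Nat.card (MulAction.fixedBy Ω g) : ℂ)) χ = 1 ∧ ∀ g : G, (starRingEnd ℂ) (χ g) = χ g := by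
  classical
  constructor
  · intro hsw χ hχ h0
    obtain ⟨a⟩ : Nonempty Ω := by
      by_contra hne
      apply h0
      have : IsEmpty Ω := not_nonempty_iff.mp hne
      simp [Cfsg.classInner]
    refine ⟨?_, Cfsg.Agent.Lib.Perm.CharOrbital.real_of_generous a hsw hχ h0⟩
    rw [← Cfsg.Agent.Lib.Perm.CharMult.permRep_character] at h0 ⊢
    refine ((Cfsg.Agent.Lib.Perm.CharMult.multiplicity_free_iff _).mpr ?_ χ hχ).resolve_left h0
    intro S T hS hT
    have hinv : ∀ {U : (Ω → ℂ) →ₗ[ℂ] (Ω → ℂ)},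
        Cfsg.Agent.Lib.Perm.CharMult.Commutes (Cfsg.permRep ℂ G Ω) U →
        Cfsg.Agent.Lib.Perm.Orbital.IsInv G (LinearMap.toMatrix' U) := by
      intro U hU g x y
      have h1 : Cfsg.permRep ℂ G Ω g (Pi.single y (1 : ℂ)) = Pi.single (g • y) 1 := by
        funext z
        show (Pi.single y (1 : ℂ) : Ω → ℂ) (g⁻¹ • z) = _
        rw [Pi.single_apply, Pi.single_apply]
        simp only [inv_smul_eq_iff]
      rw [LinearMap.toMatrix'_apply, LinearMap.toMatrix'_apply, ← h1,
        hU g]
      show U (Pi.single y 1) (g⁻¹ • g • x) = _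
      rw [inv_smul_smul]
    have hS' := Cfsg.Agent.Lib.Perm.CharOrbital.isInv_symm hsw (hinv hS)
    have hT' := Cfsg.Agent.Lib.Perm.CharOrbital.isInv_symm hsw (hinv hT)
    have hST := Cfsg.Agent.Lib.Perm.CharOrbital.isInv_symm hsw
      (Cfsg.Agent.Lib.Perm.Orbital.isInv_mul (hinv hS) (hinv hT))
    rw [Matrix.transpose_mul, hS', hT'] at hST
    refine LinearMap.toMatrix'.injective ?_
    rw [LinearMap.toMatrix'_comp, LinearMap.toMatrix'_comp]
    exact hST.symm
  · intro h a b
    exact Cfsg.Agent.Lib.Perm.CharOrbital.generous_of_real a h b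

end Cfsg.Agent.S0717
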