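import Cfsg.Statements.S0718
import Cfsg.Agent.Lib.Perm.CharMult

set_option autoImplicit false
open Cfsg

namespace Cfsg.Agent.S0718

/-- Multiplicity-freeness of the permutation character is equivalent to commutativity of the centraliser ring, i.e. of the algebra of `G`-equivariant endomorphisms of the complex permutation module. -/
theorem result {G : Type*} [Group G] [Fintype G] {Ω : Type*} [Fintype Ω] [MulAction G Ω] : (∀ χ : G → ℂ, Cfsg.IsIrrCharacter G χ → Cfsg.classInner (fun g : G => (Nat.card (MulAction.fixedBy Ω g) : ℂ)) χ = 0 ∨ Cfsg.classInner (fun g : G => (Nat.card (MulAction.fixedBy Ω g) : ℂ)) χ = 1) ↔ ∀ S T : (Ω → ℂ) →ₗ[ℂ] (Ω → ℂ), S ∈ ((Cfsg.permRep ℂ G Ω).linHom (Cfsg.permRep ℂ G Ω)).invariants → T ∈ ((Cfsg.permRep ℂ G Ω).linHom (Cfsg.permRep ℂ G Ω)).invariants → S ∘ₗ T = T ∘ₗ S := by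
  classical
  rw [← Cfsg.Agent.Lib.Perm.CharMult.permRep_character,
    Cfsg.Agent.Lib.Perm.CharMult.multiplicity_free_iff]
  simp only [Cfsg.Agent.Lib.Perm.CharMult.mem_invariants_iff]

end Cfsg.Agent.S0718
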