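import Cfsg.Statements.S0719
import Cfsg.Agent.Lib.Perm.RankThree

set_option autoImplicit false
open Cfsg

namespace Cfsg.Agent.S0719

/-- Groups of Wielandt type: if a primitive group of degree `2m` has rank 3 and permutation character `1 + χ₁ + χ₂` with irreducible `χ₁, χ₂` of degrees `m - 1` and `m`, then `m = 2a² + 2a + 1` for some positive integer `a` and the two non-trivial subdegrees are `a(2a+1)` and `(a+1)(2a+1)`. -/
theorem result {G : Type*} [Group G] [Fintype G] {Ω : Type*} [Fintype Ω] [MulAction G Ω] (hprim : MulAction.IsPreprimitive G Ω) {m : ℕ} (hm : Fintype.card Ω = 2 * m) (a₀ : Ω) (hrank : Nat.card (MulAction.orbitRel.Quotient (MulAction.stabilizer G a₀) Ω) = 3) (χ₁ χ₂ : G → ℂ) (h₁ : Cfsg.IsIrrCharacter G χ₁) (h₂ : Cfsg.IsIrrCharacter G χ₂) (hπ : (fun g : G => (Nat.card (MulAction.fixedBy Ω g) : ℂ)) = fun g => 1 + χ₁ g + χ₂ g) (hd₁ : χ₁ 1 = (m : ℂ) - 1) (hd₂ : χ₂ 1 = m) : ∃ a : ℕ, 0 < a ∧ m = 2 *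 a ^ 2 + 2 * a + 1 ∧ ∀ b : Ω, b ≠ a₀ → Nat.card (MulAction.orbit (MulAction.stabilizer G a₀) b) = a * (2 * a + 1) ∨ Nat.card (MulAction.orbit (MulAction.stabilizer G a₀) b) = (a + 1) * (2 * a + 1) := by
  classical
  have hn : Nontrivial Ω := by
    rw [← Fintype.one_lt_card_iff_nontrivial]
    by_contra hc
    have : Nat.card (MulAction.orbitRel.Quotient (MulAction.stabilizer G a₀) Ω) ≤ Nat.card Ω :=
      Nat.card_le_card_of_surjective Quotient.mk'' Quotient.mk''_surjective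
    rw [hrank, Nat.card_eq_fintype_card] at this
    omega
  obtain ⟨b₀, hb₀⟩ := exists_ne a₀
  obtain ⟨a, ha, hma, -⟩ := Cfsg.Agent.Lib.Perm.CharOrbital.rank_three a₀ hprim hm hrank χ₁ χ₂
    h₁ h₂ hπ hd₁ hd₂ hb₀
  refine ⟨a, ha, by exact_mod_cast hma, fun b hb => ?_⟩
  obtain ⟨x, -, hmx, hk⟩ := Cfsg.Agent.Lib.Perm.CharOrbital.rank_three a₀ hprim hm hrank χ₁ χ₂
    h₁ h₂ hπ hd₁ hd₂ hb
  obtain rfl : x = a := by
    have h : 2 * x ^ 2 + 2 * x = 2 * a ^ 2 + 2 * a := by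
      have := hma.symm.trans hmx
      push_cast at this
      exact_mod_cast (show (2 : ℤ) * x ^ 2 + 2 * x = 2 * a ^ 2 + 2 * a by linarith)
    nlinarith
  rcases hk with h | h
  · left; exact_mod_cast h
  · right; exact_mod_cast h

end Cfsg.Agent.S0719
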