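import Cfsg.Statements.S0720
import Cfsg.Agent.Lib.Perm.TwoPrimeFinal
import Mathlib.GroupTheory.GroupAction.Jordan
import Mathlib.GroupTheory.Perm.Cycle.Type
-- import your own Cfsg.Agent.* helpers here

set_option autoImplicit false
open Cfsg

namespace Cfsg.Agent.S0720

/-- Wielandt's Theorem on primitive groups of degree `2p`: such a group is doubly transitive, or it has rank 3, `p = 2a² + 2a + 1`, and subdegrees `a(2a+1)` and `(a+1)(2a+1)`. -/
theorem result {α : Type*} [Fintype α] [DecidableEq α] {p : ℕ} (hp : p.Prime) (hα : Fintype.card α = 2 * p) (G : Subgroup (Equiv.Perm α)) (hG : MulAction.IsPreprimitive G α) (a₀ : α) : MulAction.IsMultiplyPretransitive G α 2 ∨ (Nat.card (MulAction.orbitRel.Quotient (MulAction.stabilizer G a₀) α) = 3 ∧ ∃ a : ℕ, 0 < a ∧ p = 2 * a ^ 2 + 2 * a + 1 ∧ ∀ b : α, b ≠ a₀ → Nat.card (MulAction.orbit (MulAction.stabilizer G a₀) b) = a * (2 * a + 1) ∨ Nat.card (MulAction.orbit (MulAction.stabilizer G a₀) b) = (a + 1) * (2 * a + 1)) := by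
  classical
  have : Fact p.Prime := ⟨hp⟩
  have htr : MulAction.IsPretransitive G α := hG.toIsPretransitive
  have hcard : Nat.card α = 2 * p := by rw [Nat.card_eq_fintype_card, hα]
  have hdvd : p ∣ Nat.card G := by
    have h := MulAction.index_stabilizer_of_transitive (G := G) a₀
    rw [hcard] at h
    exact (dvd_mul_left p 2).trans (h ▸ Subgroup.index_dvd_card _)
  obtain ⟨x, hx⟩ := exists_prime_orderOf_dvd_card' p hdvd
  have hx' : orderOf (x : Equiv.Perm α) = p := by rw [Subgroup.orderOf_coe, hx]
  by_cases hsupp : (x : Equiv.Perm α).support.card < 2 * p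
  · left
    have hcyc : (x : Equiv.Perm α).IsCycle :=
      Equiv.Perm.isCycle_of_prime_order (hx' ▸ hp) (by rwa [hx'])
    have hc : (x : Equiv.Perm α).support.card = p := by rw [← hcyc.orderOf, hx']
    have := hp.two_le
    refine MulAction.IsPreprimitive.is_two_pretransitive (n := p - 1) hG
      (s := ((x : Equiv.Perm α).support : Set α)ᶜ) ?_ (by omega)
      (Equiv.Perm.isPretransitive_of_isCycle_mem hcyc x.2)
    rw [← Finset.coe_compl, Set.ncard_coe_finset, Finset.card_compl, hc, hα]
    omega
  · have hall : ∀ y : α, x • y ≠ y := by
      intro y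
      have hu : (x : Equiv.Perm α).support = Finset.univ :=
        Finset.eq_univ_of_card _ (le_antisymm (Finset.card_le_univ _) (by rw [hα]; omega))
      have hy : y ∈ (x : Equiv.Perm α).support := hu ▸ Finset.mem_univ y
      exact Equiv.Perm.mem_support.mp hy
    have hpow : ∀ (y : α) (n : ℕ), x ^ n • y = y ↔ p ∣ n := by
      intro y n
      constructor
      · intro h
        by_contra hn
        apply hall y
        have hco : Nat.Coprime n (orderOf x) := by
          rw [hx]; exact ((hp.coprime_iff_not_dvd).mpr hn).symm
        obtain ⟨m, hm⟩ := exists_pow_eq_self_of_coprime hco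
        have : ∀ k, (x ^ n) ^ k • y = y := fun k => by
          induction k with
          | zero => simp
          | succ k ih => rw [pow_succ, mul_smul, h, ih]
        rw [← hm]; exact this m
      · rintro ⟨k, rfl⟩
        rw [pow_mul, ← hx, pow_orderOf_eq_one, one_pow, one_smul]
    obtain ⟨b, hb⟩ : ∃ b : α, ∀ n : ℕ, x ^ n • a₀ ≠ b := by
      by_contra hc
      push Not at hc
      have hsurj : Function.Surjective fun u : ZMod p => x ^ u.val • a₀ := fun y => by
        obtain ⟨n, hn⟩ := hc y
        refine ⟨(n : ZMod p), ?_⟩
        show x ^ (n : ZMod p).val • a₀ = y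
        rw [ZMod.val_natCast, ← hn]
        conv_rhs => rw [← pow_mod_orderOf, hx]
      have := Fintype.card_le_of_surjective _ hsurj
      rw [hα, ZMod.card] at this
      have := hp.pos
      omega
    let base : Fin 2 → α := ![a₀, b]
    let S : Cfsg.Agent.Lib.Perm.TwoPrime.Cyc p G α :=
      { pt := fun i u => x ^ u.val • base i
        bij := by
          rw [Fintype.bijective_iff_injective_and_card]
          refine ⟨?_, by simp [hα]⟩
          have hsame : ∀ (y : α) (u w : ZMod p), x ^ u.val • y = x ^ w.val • y → u = w := by
            intro y u w h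
            rcases le_total u.val w.val with hle | hle
            · obtain ⟨k, hk⟩ := Nat.le.dest hle
              rw [← hk, pow_add, mul_smul] at h
              have h2 := (hpow y k).mp (MulAction.injective _ h).symm
              have hlt := w.val_lt
              have : k = 0 := Nat.eq_zero_of_dvd_of_lt h2 (by omega)
              exact ZMod.val_injective p (by omega)
            · obtain ⟨k, hk⟩ := Nat.le.dest hle
              rw [← hk, pow_add, mul_smul] at h
              have h2 := (hpow y k).mp (MulAction.injective _ h)
              have hlt := u.val_lt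
              have : k = 0 := Nat.eq_zero_of_dvd_of_lt h2 (by omega)
              exact ZMod.val_injective p (by omega)
          have hcross : ∀ u w : ZMod p, x ^ u.val • a₀ ≠ x ^ w.val • b := by
            intro u w h
            have hwp := w.val_lt
            apply hb (p - w.val + u.val)
            rw [pow_add, mul_smul, h, ← mul_smul, ← pow_add, Nat.sub_add_cancel hwp.le, ← hx,
              pow_orderOf_eq_one, one_smul]
          rintro ⟨i, u⟩ ⟨j, w⟩ h
          fin_cases i <;> fin_cases j <;> simp [base] at h ⊢
          · exact hsame _ _ _ h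
          · exact absurd h (hcross u w)
          · exact absurd h.symm (hcross w u)
          · exact hsame _ _ _ h
        sig := x
        shift := fun i u => by
          rw [← mul_smul, ← pow_succ']
          have : (u.val + 1) % p = (u + 1).val := by
            rw [ZMod.val_add, ZMod.val_one]
          rw [← this]
          conv_lhs => rw [← pow_mod_orderOf, hx] }
    have hpt : S.pt 0 0 = a₀ := by simp [S, base]
    have := S.main hG
    rw [hpt] at this
    exact this

end Cfsg.Agent.S0720
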