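import Cfsg.Statements.S0722
import Mathlib.GroupTheory.GroupAction.Primitive
import Mathlib.Algebra.Group.Subgroup.Pointwise

set_option autoImplicit false
open Cfsg

namespace Cfsg.Agent.S0722

open scoped Pointwise


/-- In a primitive group `H`, with `N` a minimal normal subgroup and `K` a point stabiliser, `K ⊓ N` is maximal among proper `K`-invariant subgroups of `N`. -/
theorem result {α : Type*} [Finite α] (H : Subgroup (Equiv.Perm α)) [MulAction.IsPreprimitive H α] (N : Subgroup H) [N.Normal] (hN : N ≠ ⊥) (hmin : ∀ M : Subgroup H, M.Normal → M ≤ N → M = ⊥ ∨ M = N) (a : α) (X : Subgroup H) (hX : X ≤ N) (hKX : MulAction.stabilizer H a ⊓ N ≤ X) (hinv : MulAction.stabilizer H a ≤ Subgroup.normalizer (X : Set H)) : X = MulAction.stabilizer H a ⊓ N ∨ X = N := by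
  classical
  have hnt : Nontrivial α := by
    by_contra h
    rw [not_nontrivial_iff_subsingleton] at h
    exact hN ((Subgroup.eq_bot_iff_forall _).mpr fun g _ => Subtype.ext (Subsingleton.elim _ _))
  have hco := MulAction.IsPreprimitive.isCoatom_stabilizer_of_isPreprimitive (G := H) a
  rcases hco.le_iff.mp (le_sup_right : MulAction.stabilizer H a ≤ X ⊔ MulAction.stabilizer H a) with h | h
  · right
    refine le_antisymm hX fun n hn => ?_
    have h1 : n ∈ ((X ⊔ MulAction.stabilizer H a : Subgroup H) : Set H) := by rw [h]; exact Subgroup.mem_top n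
    rw [Subgroup.coe_mul_of_right_le_normalizer_left X (MulAction.stabilizer H a) hinv] at h1
    obtain ⟨x, hx, k, hk, rfl⟩ := h1
    refine mul_mem hx (hKX ⟨hk, ?_⟩)
    simpa using mul_mem (inv_mem (hX hx)) hn
  · left
    exact le_antisymm (le_inf (le_sup_left.trans h.le) hX) hKX

end Cfsg.Agent.S0722
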