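import Cfsg.Statements.S0723
import Cfsg.Agent.S0721
import Cfsg.Agent.S0722
import Cfsg.Agent.Lib.Perm.Subdirect
import Mathlib.GroupTheory.GroupAction.Primitive

set_option autoImplicit false
open Cfsg

namespace Cfsg.Agent.S0723

/-- The core of the O'Nan–Scott Theorem. Let `H` be a primitive permutation group on a finite set whose unique minimal normal subgroup `N` is non-abelian, and `K` a point stabiliser. Then there are a non-abelian simple group `T` and an isomorphism `N ≃* T^m` (`m ≥ 1`) under which `K ⊓ N` becomes either a product `∏ K_i` of proper subgroups `K_i < T`, or the set of functions constant on each block of a partition of the index set into blocks of one common size `k ≥ 2`. -/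
theorem result {α : Type*} [Finite α] (H : Subgroup (Equiv.Perm α)) [MulAction.IsPreprimitive H α] (N : Subgroup H) [N.Normal] (hN : N ≠ ⊥) (hmin : ∀ M : Subgroup H, M.Normal → M ≤ N → M = ⊥ ∨ M = N) (huniq : ∀ L : Subgroup H, L.Normal → L ≠ ⊥ → (∀ M : Subgroup H, M.Normal → M ≤ L → M = ⊥ ∨ M = L) → L = N) (hnab : ¬ IsMulCommutative N) (a : α) : ∃ (T : Type) (_ : Group T) (m : ℕ) (e : N ≃* (Fin m → T)), IsSimpleGroup T ∧ ¬ IsMulCommutative T ∧ 0 < m ∧ ((∃ K : Fin m → Subgroup T, (∀ i, K i ≠ ⊤) ∧ ∀ n : N, (n : H) ∈ MulAction.stabilizer H a ↔ ∀ i, e n i ∈ K i) ∨ (∃ (k : ℕ) (c : Fin m → Fin m), 2 ≤ k ∧ (∀ j : Fin m, Nat.card {i : Fin m // c i = j} = k ∨ Nat.card {i : Fin m // c i = j} = 0) ∧ ∀ n : N, (n : H) ∈ MulAction.stabilizer H a ↔ ∀ i j : Fin m, c i = c j → e n i = e n j)) := by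
  classical
  obtain ⟨T, hTg, m, hTs, hm, ⟨e⟩⟩ := Cfsg.Agent.S0721.result N hN hmin
  let _ := hTg
  have _ := hTs
  have hTn : ¬ IsMulCommutative T := fun h => hnab ⟨⟨fun x y => e.injective (by
    rw [map_mul, map_mul]; funext i; exact h.is_comm.comm (e x i) (e y i))⟩⟩
  have : Finite T := by
    refine Finite.of_injective (fun t => e.symm (Function.const (Fin m) t)) fun s t h => ?_
    exact congrFun (e.symm.injective h) ⟨0, hm⟩
  have hnt : Nontrivial α := by
    by_contra h
    rw [not_nontrivial_iff_subsingleton] at h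
    exact hN ((Subgroup.eq_bot_iff_forall _).mpr fun g _ => Subtype.ext (Subsingleton.elim _ _))
  set K := MulAction.stabilizer H a with hK
  let R : Subgroup (Fin m → T) := (K.subgroupOf N).map e.toMonoidHom
  have hR : ∀ n : N, (n : H) ∈ K ↔ e n ∈ R := by
    intro n
    refine ⟨fun h => ⟨n, h, rfl⟩, ?_⟩
    rintro ⟨n', hn', he⟩
    rw [← e.injective he]
    exact hn'
  let π : Fin m → (R →* T) := fun i => (Pi.evalMonoidHom (fun _ => T) i).comp R.subtype
  -- conjugation by the point stabiliser
  let φ : H → MulAut (Fin m → T) := fun g => e.symm.trans ((MulAut.conjNormal g).trans e)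
  have hφR : ∀ g ∈ K, ∀ v, φ g v ∈ R ↔ v ∈ R := by
    intro g hg v
    obtain ⟨n, rfl⟩ := e.surjective v
    rw [← hR]
    show e (MulAut.conjNormal g (e.symm (e n))) ∈ R ↔ _
    rw [e.symm_apply_apply, ← hR, MulAut.conjNormal_apply]
    exact ⟨fun h => by simpa [mul_assoc] using mul_mem (mul_mem (inv_mem hg) h) hg,
      fun h => mul_mem (mul_mem hg h) (inv_mem hg)⟩
  have hσ : ∀ (g : H) (i : Fin m), ∃ (j : Fin m) (ψ : T →* T), Function.Injective ψ ∧
      ∀ v, φ g v i = ψ (v j) := fun g i =>
    Lib.Perm.exists_proj hTn ((Pi.evalMonoidHom (fun _ => T) i).comp (φ g).toMonoidHom) fun t => by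
      obtain ⟨v, hv⟩ := (φ g).surjective (Function.const _ t)
      exact ⟨v, by show φ g v i = t; rw [hv]; rfl⟩
  choose σ ψ hψ hφ using hσ
  have hψs : ∀ g i, Function.Surjective (ψ g i) := fun g i => Finite.surjective_of_injective (hψ g i)
  -- transitivity of the stabiliser on the factors
  have hNK : ∀ x : H, ∃ n ∈ N, ∃ k ∈ K, x = n * k := by
    have hco := MulAction.IsPreprimitive.isCoatom_stabilizer_of_isPreprimitive (G := H) a
    have hnle : ¬ N ≤ K := by
      intro hle
      apply hN
      refine (Subgroup.eq_bot_iff_forall _).mpr fun x hx => ?_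
      refine Subtype.ext (Equiv.ext fun b => ?_)
      obtain ⟨g, rfl⟩ := MulAction.exists_smul_eq H a b
      have h1 : (g⁻¹ * x * g) • a = a := hle (Subgroup.Normal.conj_mem' inferInstance x hx g)
      rw [mul_smul, mul_smul, inv_smul_eq_iff] at h1
      exact h1
    have htop : N ⊔ K = ⊤ := hco.2 _ (lt_of_le_of_ne le_sup_right fun h => hnle (le_sup_left.trans h.ge))
    intro x
    have hx : x ∈ ((N ⊔ K : Subgroup H) : Set H) := htop ▸ Subgroup.mem_top x
    rw [Subgroup.normal_mul] at hx
    obtain ⟨n, hn, k, hk, rfl⟩ := hx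
    exact ⟨n, hn, k, hk, rfl⟩
  have hclosed : ∀ O : Finset (Fin m), O.Nonempty → (∀ g ∈ K, ∀ i, i ∉ O → σ g i ∉ O) →
      O = Finset.univ := by
    intro O ⟨i0, hi0⟩ hO
    let P : Subgroup (Fin m → T) := Subgroup.pi Set.univ fun i => if i ∈ O then ⊤ else ⊥
    have memP : ∀ v, v ∈ P ↔ ∀ i, i ∉ O → v i = 1 := by
      intro v
      simp only [P, Subgroup.mem_pi, Set.mem_univ, true_imp_iff]
      refine forall_congr' fun i => ?_
      by_cases h : i ∈ O <;> simp [h]
    let M : Subgroup H := (P.comap e.toMonoidHom).map N.subtype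
    have hMn : M.Normal := by
      refine ⟨?_⟩
      rintro _ ⟨n, hn, rfl⟩ x
      obtain ⟨n0, hn0, k, hk, rfl⟩ := hNK x
      refine ⟨⟨n0, hn0⟩ * MulAut.conjNormal k n * ⟨n0, hn0⟩⁻¹, ?_, ?_⟩
      · show e _ ∈ P
        have hk' : e (MulAut.conjNormal k n) = φ k (e n) := by simp [φ]
        rw [map_mul, map_mul, map_inv, hk', memP]
        intro i hi
        rw [Pi.mul_apply, Pi.mul_apply, Pi.inv_apply, hφ k i, (memP (e n)).mp hn _ (hO k hk i hi), map_one,
          mul_one, mul_inv_cancel]
      · simp [mul_assoc]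
    obtain ⟨t, ht⟩ := exists_ne (1 : T)
    rcases hmin M hMn (Subgroup.map_subtype_le _) with hM | hM
    · exfalso
      have hmem : (e.symm (Pi.mulSingle i0 t) : H) ∈ M :=
        ⟨_, (memP _).mpr (fun i hi => by
          simp [Pi.mulSingle_eq_of_ne (show i ≠ i0 from fun h => hi (h ▸ hi0))]), rfl⟩
      rw [hM, Subgroup.mem_bot, ← Subgroup.coe_one N, Subtype.coe_inj] at hmem
      have := congrFun (congrArg e hmem) i0
      simp at this
      exact ht this
    · refine Finset.eq_univ_iff_forall.mpr fun i => ?_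
      by_contra hi
      have hmem : (e.symm (Pi.mulSingle i t) : H) ∈ M := by rw [hM]; exact Subtype.property _
      obtain ⟨n, hn, hne⟩ := hmem
      rw [Subtype.coe_inj.mp hne] at hn
      have := (memP _).mp hn i hi
      simp at this
      exact ht this
  by_cases hfull : ∀ i, Function.Surjective (π i)
  · -- diagonal case
    refine ?_
    let c : Fin m → Fin m := fun i =>
      ({j | (π j).ker = (π i).ker} : Finset (Fin m)).min' ⟨i, by simp⟩
    have hck : ∀ i, (π (c i)).ker = (π i).ker := fun i => by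
      have := Finset.min'_mem ({j | (π j).ker = (π i).ker} : Finset (Fin m)) ⟨i, by simp⟩
      simpa using this
    have hceq : ∀ i j, c i = c j ↔ (π i).ker = (π j).ker := by
      refine fun i j => ⟨fun h => by rw [← hck i, h, hck j], fun h => ?_⟩
      simp only [c, h]
    have hcc : ∀ i, c (c i) = c i := fun i => (hceq _ _).mpr (hck i)
    let χ : ∀ i : Fin m, T ≃* T := fun i =>
      (QuotientGroup.quotientKerEquivOfSurjective (π (c i)) (hfull _)).symm.trans
        ((QuotientGroup.quotientMulEquivOfEq (hck i)).trans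
          (QuotientGroup.quotientKerEquivOfSurjective (π i) (hfull i)))
    have hχ : ∀ i (r : R), χ i ((r : Fin m → T) (c i)) = (r : Fin m → T) i := by
      intro i r
      have h1 : (QuotientGroup.quotientKerEquivOfSurjective (π (c i)) (hfull _)).symm (π (c i) r)
          = QuotientGroup.mk r := by
        rw [MulEquiv.symm_apply_eq]; rfl
      show (QuotientGroup.quotientKerEquivOfSurjective (π i) (hfull i))
        (QuotientGroup.quotientMulEquivOfEq (hck i)
          ((QuotientGroup.quotientKerEquivOfSurjective (π (c i)) (hfull _)).symm (π (c i) r))) = _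
      rw [h1]; rfl
    have hχid : ∀ i t, c i = i → χ i t = t := by
      intro i t hi
      obtain ⟨r, rfl⟩ := hfull i t
      have := hχ i r
      rw [hi] at this
      exact this
    let e' : N ≃* (Fin m → T) := e.trans (MulEquiv.piCongrRight fun i => (χ i).symm)
    have hmem : ∀ n : N, (n : H) ∈ K ↔ ∀ i j, c i = c j → e' n i = e' n j := by
      intro n
      rw [hR]
      refine ⟨fun h i j hij => ?_, fun h => ?_⟩
      · have hval : ∀ l, e' n l = e n (c l) := fun l => by
          show (χ l).symm (e n l) = _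
          rw [MulEquiv.symm_apply_eq]
          exact (hχ l ⟨_, h⟩).symm
        rw [hval, hval, hij]
      · obtain ⟨r, hr⟩ := Lib.Perm.exists_lift_simple hTn (fun l : {l // c l = l} => π l.1)
          (fun l => hfull _) (fun l l' hll h' => hll (Subtype.ext (by
            rw [← l.2, ← l'.2]; exact (hceq _ _).mpr h'))) (fun l => e n l.1)
        suffices (r : Fin m → T) = e n from this ▸ r.2
        funext i
        have h1 : e' n i = e n (c i) := by
          rw [h i (c i) (hcc i).symm]
          show (χ (c i)).symm (e n (c i)) = _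
          rw [MulEquiv.symm_apply_eq, hχid _ _ (hcc i)]
        have h2 : e n i = χ i (e n (c i)) := by
          rw [← h1]; exact ((χ i).apply_symm_apply _).symm
        rw [h2, ← hχ i r]
        exact congrArg (χ i) (hr ⟨c i, hcc i⟩)
    -- the stabiliser respects the blocks
    have hresp : ∀ g ∈ K, ∀ i j, c (σ g i) = c (σ g j) ↔ c i = c j := by
      intro g hg i j
      have hker : ∀ i (r : R), π i ⟨φ g r, (hφR g hg _).mpr r.2⟩ = 1 ↔ π (σ g i) r = 1 := by
        intro i r
        show φ g r i = 1 ↔ _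
        rw [hφ]
        exact map_eq_one_iff _ (hψ g i)
      rw [hceq, hceq]
      constructor
      · intro h
        ext r
        obtain ⟨v, hv⟩ := (φ g).surjective (r : Fin m → T)
        have hvR : v ∈ R := (hφR g hg v).mp (by rw [hv]; exact r.2)
        have he : (⟨φ g v, (hφR g hg _).mpr hvR⟩ : R) = r := Subtype.ext hv
        simp only [MonoidHom.mem_ker]
        rw [← he, hker i ⟨v, hvR⟩, hker j ⟨v, hvR⟩, ← MonoidHom.mem_ker, h, MonoidHom.mem_ker]
      · intro h
        ext r
        simp only [MonoidHom.mem_ker]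
        rw [← hker i r, ← hker j r, ← MonoidHom.mem_ker, h, MonoidHom.mem_ker]
    have hσb : ∀ g : H, Function.Bijective (σ g) := by
      intro g
      refine Finite.surjective_iff_bijective.mp fun j => ?_
      by_contra h
      push Not at h
      obtain ⟨t, ht⟩ := exists_ne (1 : T)
      apply ht
      have h1 : φ g (Pi.mulSingle j t) = φ g 1 := by
        funext i
        rw [hφ, hφ, Pi.mulSingle_eq_of_ne (h i), Pi.one_apply]
      simpa using congrFun ((φ g).injective h1) j
    let size : Fin m → ℕ := fun i => Nat.card {l // c l = c i}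
    have hsize : ∀ g ∈ K, ∀ i, size (σ g i) = size i := fun g hg i =>
      (Nat.card_congr (Equiv.ofBijective
        (fun l : {l // c l = c i} => (⟨σ g l.1, (hresp g hg _ _).mpr l.2⟩ : {l // c l = c (σ g i)}))
        ⟨fun x y h => Subtype.ext ((hσb g).1 (congrArg Subtype.val h)), fun ⟨l, hl⟩ => by
          obtain ⟨x, rfl⟩ := (hσb g).2 l
          exact ⟨⟨x, (hresp g hg x i).mp hl⟩, rfl⟩⟩)).symm
    let i0 : Fin m := ⟨0, hm⟩
    have hall : ∀ i, size i = size i0 := by
      have := hclosed ({i | size i = size i0} : Finset (Fin m)) ⟨i0, by simp⟩ fun g hg i hi => by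
        simp only [Finset.mem_filter, Finset.mem_univ, true_and] at hi ⊢
        rwa [hsize g hg]
      intro i
      simpa using this.ge (Finset.mem_univ i)
    have hk2 : 2 ≤ size i0 := by
      by_contra hlt
      have hid : ∀ i, c i = i := by
        intro i
        have hs : size i ≤ 1 := by rw [hall]; omega
        have := (Finite.card_le_one_iff_subsingleton).mp hs
        exact congrArg Subtype.val (Subsingleton.elim (⟨c i, hcc i⟩ : {l // c l = c i}) ⟨i, rfl⟩)
      have hle : ∀ n : N, (n : H) ∈ K := fun n => (hmem n).mpr fun i j h => by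
        rw [hid, hid] at h; rw [h]
      apply hN
      refine (Subgroup.eq_bot_iff_forall _).mpr fun x hx => ?_
      refine Subtype.ext (Equiv.ext fun b => ?_)
      obtain ⟨g, rfl⟩ := MulAction.exists_smul_eq H a b
      have h1 : (g⁻¹ * x * g) • a = a := hle ⟨_, Subgroup.Normal.conj_mem' inferInstance x hx g⟩
      rw [mul_smul, mul_smul, inv_smul_eq_iff] at h1
      exact h1
    refine ⟨T, inferInstance, m, e', hTs, hTn, hm, Or.inr ⟨size i0, c, hk2, fun j => ?_, hmem⟩⟩
    by_cases hj : ∃ i, c i = j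
    · obtain ⟨i, rfl⟩ := hj
      exact Or.inl (hall i)
    · exact Or.inr (Nat.card_eq_zero.mpr (Or.inl ⟨fun x => hj ⟨x.1, x.2⟩⟩))
  · -- product case
    push Not at hfull
    obtain ⟨i0, hi0⟩ := hfull
    let Ki : Fin m → Subgroup T := fun i => (π i).range
    have himg : ∀ g ∈ K, ∀ i, Ki i = (Ki (σ g i)).map (ψ g i) := by
      intro g hg i
      ext t
      constructor
      · rintro ⟨r, rfl⟩
        obtain ⟨v, hv⟩ := (φ g).surjective (r : Fin m → T)
        have hvR : v ∈ R := (hφR g hg v).mp (by rw [hv]; exact r.2)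
        exact ⟨v (σ g i), ⟨⟨v, hvR⟩, rfl⟩, by rw [← hφ, hv]; rfl⟩
      · rintro ⟨_, ⟨r, rfl⟩, rfl⟩
        exact ⟨⟨φ g r, (hφR g hg _).mpr r.2⟩, hφ g i r⟩
    have hproper : ∀ i, Ki i ≠ ⊤ := by
      have := hclosed ({i | Ki i ≠ ⊤} : Finset (Fin m))
        ⟨i0, by simpa [Ki, MonoidHom.range_eq_top] using hi0⟩ fun g hg i hi => by
          simp only [Finset.mem_filter, Finset.mem_univ, true_and, not_not] at hi ⊢
          by_contra hne
          apply hne
          rw [himg g hg i] at hi
          exact Subgroup.map_injective (hψ g i) (hi.trans ((Subgroup.map_top_of_surjective _ (hψs g i))).symm)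
      intro i
      simpa using this.ge (Finset.mem_univ i)
    let X : Subgroup H := ((Subgroup.pi Set.univ Ki).comap e.toMonoidHom).map N.subtype
    have hX : ∀ n : N, (n : H) ∈ X ↔ ∀ i, e n i ∈ Ki i := by
      intro n
      refine ⟨?_, fun h => ⟨n, fun i _ => h i, rfl⟩⟩
      rintro ⟨n', hn', he⟩ i
      rw [Subtype.coe_inj.mp he] at hn'
      exact hn' i (Set.mem_univ i)
    have hinv : ∀ g ∈ K, ∀ x ∈ X, g * x * g⁻¹ ∈ X := by
      rintro g hg _ ⟨n, hn, rfl⟩
      show ((MulAut.conjNormal g n : N) : H) ∈ X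
      refine (hX _).mpr fun i => ?_
      have hk' : e (MulAut.conjNormal g n) = φ g (e n) := by simp [φ]
      rw [hk', hφ, himg g hg i]
      exact Subgroup.mem_map_of_mem _ (hn _ (Set.mem_univ _))
    have hle : K ⊓ N ≤ X := by
      rintro x ⟨hx, hxN⟩
      exact (hX ⟨x, hxN⟩).mpr fun i => ⟨⟨_, (hR ⟨x, hxN⟩).mp hx⟩, rfl⟩
    have hnorm : K ≤ Subgroup.normalizer (X : Set H) := fun g hg =>
      Subgroup.mem_normalizer_iff.mpr fun x => ⟨hinv g hg x, fun h => by
        simpa [mul_assoc] using hinv g⁻¹ (inv_mem hg) _ h⟩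
    rcases Cfsg.Agent.S0722.result H N hN hmin a X (Subgroup.map_subtype_le _) hle hnorm with h | h
    · refine ⟨T, inferInstance, m, e, hTs, hTn, hm, Or.inl ⟨Ki, hproper, fun n => ?_⟩⟩
      rw [← hX, h]
      exact ⟨fun hk => ⟨hk, n.2⟩, fun hk => hk.1⟩
    · exfalso
      apply hproper i0
      rw [eq_top_iff]
      intro t _
      have := (hX (e.symm (Pi.mulSingle i0 t))).mp (by rw [h]; exact Subtype.property _) i0
      simpa using this

end Cfsg.Agent.S0723
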