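import Cfsg.Statements.S0724
import Cfsg.Agent.Lib.Perm.Basic
import Mathlib.Algebra.Polynomial.BigOperators
import Mathlib.Algebra.Polynomial.Eval.Degree

set_option autoImplicit false
open Cfsg

namespace Cfsg.Agent.S0724

open Polynomial in
theorem dvd_sum_eval {G : Type*} [Group G] [Fintype G] {Ω : Type*} [Finite Ω] [MulAction G Ω]
    (P : ℤ[X]) : (Nat.card G : ℤ) ∣ ∑ g : G, P.eval (Nat.card (MulAction.fixedBy Ω g) : ℤ) := by
  induction P using Polynomial.induction_on' with
  | add p q hp hq => simpa [Finset.sum_add_distrib] using dvd_add hp hq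
  | monomial k c =>
    simp only [eval_monomial, ← Finset.mul_sum]
    exact dvd_mul_of_dvd_right (by exact_mod_cast Lib.Perm.card_dvd_sum_pow (G := G) (Ω := Ω) k) c


/-- Blichfeldt's Theorem: if a finite set `L` of natural numbers contains the number of fixed points of every non-identity element of a permutation group `G` of degree `n`, then the order of `G` divides `∏ (n - l)` over `l ∈ L`. -/
theorem result {α : Type*} [Fintype α] [DecidableEq α] (G : Subgroup (Equiv.Perm α)) (L : Finset ℕ) (hL : ∀ g ∈ G, g ≠ 1 → Nat.card (MulAction.fixedBy α g) ∈ L) : Nat.card G ∣ ∏ l ∈ L, (Fintype.card α - l) := by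
  classical
  have := Fintype.ofFinite G
  have key := dvd_sum_eval (G := G) (Ω := α) (∏ l ∈ L, (Polynomial.X - Polynomial.C (l : ℤ)))
  rw [Finset.sum_eq_single 1 (fun g _ hg => ?_) (by simp)] at key
  · simp only [Polynomial.eval_prod, Polynomial.eval_sub, Polynomial.eval_X, Polynomial.eval_C,
      Lib.Perm.card_fixedBy_one, Nat.card_eq_fintype_card (α := α)] at key
    by_cases hbig : ∃ l ∈ L, Fintype.card α < l
    · obtain ⟨l, hl, hlt⟩ := hbig
      rw [Finset.prod_eq_zero hl (by omega)]
      exact dvd_zero _
    · push Not at hbig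
      rw [← Int.natCast_dvd_natCast, Nat.cast_prod]
      refine dvd_trans key (dvd_of_eq (Finset.prod_congr rfl fun l hl => ?_))
      rw [Nat.cast_sub (hbig l hl)]
  · rw [Polynomial.eval_prod]
    refine Finset.prod_eq_zero (hL g.1 g.2 (fun h => hg (Subtype.ext h))) ?_
    rw [Polynomial.eval_sub, Polynomial.eval_X, Polynomial.eval_C, sub_eq_zero]
    rfl

end Cfsg.Agent.S0724
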