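import Cfsg.Statements.S0726

set_option autoImplicit false
open Cfsg

namespace Cfsg.Agent.S0726

/-- The left and right regular permutation representations of a group are each other's centralisers in the symmetric group: the centraliser of the left regular image is the right regular image, and a transitive subgroup centralising the left regular image is the whole right regular image. -/
theorem result {G : Type*} [Group G] : Subgroup.centralizer ((MulAction.toPermHom G G).range : Set (Equiv.Perm G)) = (MulAction.toPermHom Gᵐᵒᵖ G).range ∧ ∀ H : Subgroup (Equiv.Perm G), H ≤ Subgroup.centralizer ((MulAction.toPermHom G G).range : Set (Equiv.Perm G)) → MulAction.IsPretransitive H G → H = (MulAction.toPermHom Gᵐᵒᵖ G).range := by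
  refine ⟨?_, fun H hH ht => ?_⟩
  · ext σ
    constructor
    · intro hσ
      refine ⟨MulOpposite.op (σ 1), Equiv.ext fun x => ?_⟩
      have := congrArg (fun τ : Equiv.Perm G => τ 1) (hσ (MulAction.toPermHom G G x) ⟨x, rfl⟩)
      simpa using this
    · rintro ⟨a, rfl⟩ _ ⟨g, rfl⟩
      refine Equiv.ext fun x => ?_
      simp [mul_assoc]
  · have key : Subgroup.centralizer ((MulAction.toPermHom G G).range : Set (Equiv.Perm G)) ≤
        (MulAction.toPermHom Gᵐᵒᵖ G).range := by
      intro σ hσ
      refine ⟨MulOpposite.op (σ 1), Equiv.ext fun x => ?_⟩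
      have := congrArg (fun τ : Equiv.Perm G => τ 1) (hσ (MulAction.toPermHom G G x) ⟨x, rfl⟩)
      simpa using this
    refine le_antisymm (hH.trans key) ?_
    rintro _ ⟨a, rfl⟩
    obtain ⟨⟨h, hh⟩, ha⟩ := ht.exists_smul_eq (1 : G) a.unop
    obtain ⟨b, rfl⟩ := key (hH hh)
    have : b = a := by
      apply MulOpposite.unop_injective
      have ha' : MulAction.toPermHom Gᵐᵒᵖ G b (1 : G) = a.unop := ha
      simpa using ha'
    exact this ▸ hh

end Cfsg.Agent.S0726
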