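import Cfsg.Statements.S0727
import Cfsg.Agent.Lib.Zass.SharpEven

set_option autoImplicit false
open Cfsg

namespace Cfsg.Agent.S0727

open Cfsg.Agent.Lib.Zass

/-- A sharply triply transitive permutation group of degree `2^f + 1` is isomorphic to the projective general linear group of degree 2 over the field with `2^f` elements. -/
theorem result {α : Type*} [Fintype α] [DecidableEq α] {f : ℕ} (hf : 1 ≤ f) (hα : Fintype.card α = 2 ^ f + 1) (G : Subgroup (Equiv.Perm α)) (h3 : MulAction.IsMultiplyPretransitive G α 3) (hsharp : ∀ x : Fin 3 ↪ α, MulAction.stabilizer G x = ⊥) : ∃ (F : Type) (_ : Field F) (_ : Fintype F), Fintype.card F = 2 ^ f ∧ Nonempty (G ≃* Matrix.ProjGenLinGroup (Fin 2) F) := by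
  have h1 : 2 ≤ 2 ^ f := le_trans (by norm_num) (Nat.pow_le_pow_right two_pos hf)
  have hS := sharp3_of_perm G (by omega) h3 (fix_of_stabilizer hsharp)
  have hodd : Odd (Fintype.card α) := by
    rw [hα]; exact Even.add_one (Nat.even_pow.mpr ⟨even_two, by omega⟩)
  obtain ⟨g, -, hg, K, iF, iT, hK, hiso⟩ := pgl_of_sharp3_odd hS hodd
  exact ⟨K, iF, iT, by omega, hiso⟩

end Cfsg.Agent.S0727
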