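import Cfsg.Statements.S0733
import Mathlib.GroupTheory.GroupAction.Primitive
import Mathlib.Algebra.Module.ZMod

set_option autoImplicit false
open Cfsg

namespace Cfsg.Agent.S0733

open MulAction
open scoped Pointwise

/-- A permutation group of affine type — generated by the translations of a finite vector space `V` over `ZMod p` together with a group `G₀` of linear automorphisms — is primitive on `V` if and only if `G₀` is irreducible on `V`. -/
theorem result {p : ℕ} [Fact p.Prime] {V : Type*} [AddCommGroup V] [Module (ZMod p) V] [Finite V] [Nontrivial V] (G₀ : Subgroup (V ≃ₗ[ZMod p] V)) (G : Subgroup (Equiv.Perm V)) (hG : ∀ σ : Equiv.Perm V, σ ∈ G ↔ ∃ g ∈ G₀, ∃ b : V, ∀ x : V, σ x = (g : V ≃ₗ[ZMod p] V) x + b) : MulAction.IsPreprimitive G V ↔ ∀ W : Submodule (ZMod p) V, (∀ g ∈ G₀, ∀ v ∈ W, (g : V ≃ₗ[ZMod p] V) v ∈ W) → W = ⊥ ∨ W = ⊤ := by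
  let T : V → G := fun b => ⟨Equiv.addRight b, (hG _).mpr ⟨1, G₀.one_mem, b, fun x => rfl⟩⟩
  let L : G₀ → G := fun g => ⟨(g : V ≃ₗ[ZMod p] V).toEquiv, (hG _).mpr ⟨g, g.2, 0, fun x => (add_zero _).symm⟩⟩
  have hT : ∀ b x, T b • x = x + b := fun _ _ => rfl
  have hL : ∀ (g : G₀) x, L g • x = (g : V ≃ₗ[ZMod p] V) x := fun _ _ => rfl
  have : IsPretransitive G V := ⟨fun x y => ⟨T (y - x), by rw [hT, add_sub_cancel]⟩⟩
  constructor
  · intro hprim W hW
    have hB : IsBlock G (W : Set V) := by
      rw [isBlock_iff_smul_eq_or_disjoint]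
      intro σ
      obtain ⟨g, hg, b, hb⟩ := (hG σ).mp σ.2
      have hgW : ∀ v, v ∈ W → g⁻¹ v ∈ W := fun v hv => hW _ (inv_mem hg) v hv
      have hmem : ∀ y, y ∈ σ • (W : Set V) ↔ y - b ∈ W := by
        intro y
        rw [Set.mem_smul_set]
        constructor
        · rintro ⟨x, hx, rfl⟩
          show (σ : Equiv.Perm V) x - b ∈ W
          rw [hb, add_sub_cancel_right]; exact hW g hg x hx
        · intro hy
          refine ⟨g⁻¹ (y - b), hgW _ hy, ?_⟩
          show (σ : Equiv.Perm V) _ = y
          rw [hb, show g (g⁻¹ (y - b)) = y - b from g.apply_symm_apply _, sub_add_cancel]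
      by_cases hbW : b ∈ W
      · left; ext y; rw [hmem, SetLike.mem_coe]; exact W.sub_mem_iff_left hbW
      · right
        rw [Set.disjoint_left]
        intro y hy hy'
        rw [hmem] at hy
        exact hbW (by simpa using W.sub_mem hy' hy)
    rcases hprim.isTrivialBlock_of_isBlock hB with h | h
    · exact Or.inl ((Submodule.eq_bot_iff W).mpr fun x hx => h hx W.zero_mem)
    · exact Or.inr (SetLike.coe_injective (by rw [h]; rfl))
  · intro hirr
    refine IsPreprimitive.of_isTrivialBlock_base (0 : V) fun {B} h0 hB => ?_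
    have hBT : ∀ b ∈ B, T b • B = B := fun b hb =>
      hB.smul_eq_of_mem h0 (by rw [hT, zero_add]; exact hb)
    have hadd : ∀ x ∈ B, ∀ b ∈ B, x + b ∈ B := fun x hx b hb => by
      rw [← hBT b hb, ← hT b x]; exact Set.smul_mem_smul_set hx
    let W : Submodule (ZMod p) V :=
      { carrier := B
        add_mem' := fun ha hb => hadd _ ha _ hb
        zero_mem' := h0
        smul_mem' := fun c x hx => by
          rw [← ZMod.natCast_zmod_val c, Nat.cast_smul_eq_nsmul]
          induction c.val with
          | zero => rw [zero_smul]; exact h0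
          | succ n ih => rw [succ_nsmul]; exact hadd _ ih _ hx }
    have hWB : ∀ x, x ∈ W ↔ x ∈ B := fun x => Iff.rfl
    rcases hirr W (fun g hg v hv => by
      have h := hB.smul_eq_of_mem (g := L ⟨g, hg⟩) h0 (by rw [hL]; simpa using h0)
      rw [hWB, ← h, ← hL ⟨g, hg⟩ v]
      exact Set.smul_mem_smul_set ((hWB v).mp hv)) with h | h
    · left
      intro x hx y hy
      have hx' := (hWB x).mpr hx
      have hy' := (hWB y).mpr hy
      rw [h, Submodule.mem_bot] at hx' hy'
      rw [hx', hy']
    · right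
      exact Set.eq_univ_of_forall fun x => (hWB x).mp (h ▸ Submodule.mem_top)

end Cfsg.Agent.S0733
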