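import Cfsg.Statements.S0734
import Mathlib.Combinatorics.SimpleGraph.Connectivity.Connected
import Mathlib.GroupTheory.GroupAction.Primitive

set_option autoImplicit false
open Cfsg

namespace Cfsg.Agent.S0734

open MulAction
open scoped Pointwise

/-- Higman's criterion for primitivity: a transitive action on a finite set is primitive if and only if every non-trivial orbital graph (edges = images of a fixed pair of distinct points) is connected. -/
theorem result {G : Type*} [Group G] {Ω : Type*} [Finite Ω] [MulAction G Ω] [MulAction.IsPretransitive G Ω] [Nontrivial Ω] : MulAction.IsPreprimitive G Ω ↔ ∀ a b : Ω, a ≠ b → (SimpleGraph.fromRel fun x y : Ω => ∃ g : G, g • a = x ∧ g • b = y).Connected := by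
  constructor
  · intro hprim a b hab
    set Γ := SimpleGraph.fromRel fun x y : Ω => ∃ g : G, g • a = x ∧ g • b = y with hΓ
    have hadj : ∀ (g : G) x y, Γ.Adj x y → Γ.Adj (g • x) (g • y) := by
      intro g x y h
      obtain ⟨hne, h⟩ := (SimpleGraph.fromRel_adj _ x y).mp h
      refine (SimpleGraph.fromRel_adj _ _ _).mpr ⟨fun e => hne (smul_left_cancel g e), ?_⟩
      rcases h with ⟨k, h1, h2⟩ | ⟨k, h1, h2⟩
      · exact Or.inl ⟨g * k, by rw [mul_smul, h1], by rw [mul_smul, h2]⟩
      · exact Or.inr ⟨g * k, by rw [mul_smul, h1], by rw [mul_smul, h2]⟩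
    have hreach : ∀ (g : G) x y, Γ.Reachable x y → Γ.Reachable (g • x) (g • y) := fun g x y h =>
      h.map ⟨fun z => g • z, fun {u v} huv => hadj g u v huv⟩
    have hB : IsBlock G {x | Γ.Reachable a x} := by
      rw [isBlock_iff_smul_eq_or_disjoint]
      intro g
      have hmem : ∀ y, y ∈ g • {x | Γ.Reachable a x} ↔ Γ.Reachable (g • a) y := by
        intro y
        rw [Set.mem_smul_set_iff_inv_smul_mem]
        exact ⟨fun h => by simpa using hreach g _ _ h, fun h => show Γ.Reachable _ _ by simpa using hreach g⁻¹ _ _ h⟩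
      by_cases h : Γ.Reachable a (g • a)
      · left; ext y; rw [hmem]; exact ⟨fun hy => h.trans hy, fun hy => h.symm.trans hy⟩
      · right
        rw [Set.disjoint_left]
        intro y hy hy'
        exact h (SimpleGraph.Reachable.trans hy' ((hmem y).mp hy).symm)
    have hne : Γ.Adj a b :=
      (SimpleGraph.fromRel_adj _ a b).mpr ⟨hab, Or.inl ⟨1, one_smul _ a, one_smul _ b⟩⟩
    rcases hprim.isTrivialBlock_of_isBlock hB with h | h
    · exact absurd (h (SimpleGraph.Reachable.refl a) hne.reachable) hab
    · refine (SimpleGraph.connected_iff _).mpr ⟨fun x y => ?_, ⟨a⟩⟩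
      exact (show Γ.Reachable a x from h.symm.subset (Set.mem_univ x)).symm.trans
        (show Γ.Reachable a y from h.symm.subset (Set.mem_univ y))
  · intro hconn
    obtain ⟨a₀⟩ : Nonempty Ω := inferInstance
    refine IsPreprimitive.of_isTrivialBlock_base a₀ fun {B} h0 hB => ?_
    by_cases hs : B.Subsingleton
    · exact Or.inl hs
    right
    rw [Set.not_subsingleton_iff] at hs
    obtain ⟨a, ha, b, hb, hab⟩ := hs
    refine Set.eq_univ_of_forall fun y => ?_
    obtain ⟨w⟩ := (hconn a b hab).preconnected a y
    suffices ∀ x z : Ω, ∀ (_ : (SimpleGraph.fromRel fun x y : Ω => ∃ g : G, g • a = x ∧ g • b = y).Walk x z),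
        x ∈ B → z ∈ B from this a y w ha
    intro x z w
    induction w with
    | nil => exact id
    | @cons u v t h _ ih =>
      intro hu
      apply ih
      obtain ⟨-, h | h⟩ := (SimpleGraph.fromRel_adj _ u v).mp h
      · obtain ⟨g, h1, h2⟩ := h
        rw [← hB.smul_eq_of_mem ha (h1 ▸ hu), ← h2]
        exact Set.smul_mem_smul_set hb
      · obtain ⟨g, h1, h2⟩ := h
        rw [← hB.smul_eq_of_mem hb (h2 ▸ hu), ← h1]
        exact Set.smul_mem_smul_set ha

end Cfsg.Agent.S0734
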