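import Cfsg.Statements.S0735
import Mathlib.GroupTheory.GroupAction.MultipleTransitivity
import Mathlib.GroupTheory.GroupAction.Primitive
import Mathlib.GroupTheory.Perm.Cycle.Type

set_option autoImplicit false
open Cfsg

namespace Cfsg.Agent.S0735

open MulAction
open scoped Pointwise

/-- A 2-homogeneous permutation group (transitive on 2-subsets) of even order is doubly transitive; a non-trivial 2-homogeneous group is primitive. -/
theorem result {α : Type*} [Fintype α] [DecidableEq α] (G : Subgroup (Equiv.Perm α)) (h2 : MulAction.IsPretransitive G (Set.powersetCard α 2)) (hα : 3 ≤ Fintype.card α) : (Even (Nat.card G) → MulAction.IsMultiplyPretransitive G α 2) ∧ (G ≠ ⊥ → MulAction.IsPreprimitive G α) := by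
  classical
  have hpair : ∀ a b c d : α, a ≠ b → c ≠ d →
      ∃ g : G, (g • a = c ∧ g • b = d) ∨ (g • a = d ∧ g • b = c) := by
    intro a b c d hab hcd
    obtain ⟨g, hg⟩ := h2.exists_smul_eq
      (⟨{a, b}, Finset.card_pair hab⟩ : Set.powersetCard α 2) ⟨{c, d}, Finset.card_pair hcd⟩
    refine ⟨g, ?_⟩
    have h : g • ({a, b} : Finset α) = {c, d} := congrArg Subtype.val hg
    have ha : g • a ∈ ({c, d} : Finset α) := h ▸ Finset.smul_mem_smul_finset (by simp)
    have hb : g • b ∈ ({c, d} : Finset α) := h ▸ Finset.smul_mem_smul_finset (by simp)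
    have hne : g • a ≠ g • b := fun e => hab (smul_left_cancel g e)
    simp only [Finset.mem_insert, Finset.mem_singleton] at ha hb
    rcases ha with e | e <;> rcases hb with e' | e'
    · exact absurd (e.trans e'.symm) hne
    · exact Or.inl ⟨e, e'⟩
    · exact Or.inr ⟨e, e'⟩
    · exact absurd (e.trans e'.symm) hne
  constructor
  · intro heven
    obtain ⟨s, hs⟩ := exists_prime_orderOf_dvd_card' 2 heven.two_dvd
    obtain ⟨a₀, ha₀⟩ : ∃ a₀ : α, s • a₀ ≠ a₀ := by
      by_contra h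
      push Not at h
      have : s = 1 := eq_of_smul_eq_smul (α := α) fun a => by rw [h a, one_smul]
      rw [this, orderOf_one] at hs
      omega
    have hs2 : s • s • a₀ = a₀ := by
      rw [← mul_smul, ← sq, show s ^ 2 = 1 from hs ▸ pow_orderOf_eq_one s, one_smul]
    rw [is_two_pretransitive_iff]
    intro a b c d hab hcd
    obtain ⟨g, hg⟩ := hpair a₀ (s • a₀) a b (Ne.symm ha₀) hab
    obtain ⟨g₁, h1⟩ : ∃ g₁ : G, g₁ • a₀ = a ∧ g₁ • s • a₀ = b := by
      rcases hg with hg | ⟨e1, e2⟩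
      · exact ⟨g, hg⟩
      · exact ⟨g * s, by rw [mul_smul, e2], by rw [mul_smul, hs2, e1]⟩
    obtain ⟨k, hk⟩ := hpair a₀ (s • a₀) c d (Ne.symm ha₀) hcd
    obtain ⟨g₂, h2'⟩ : ∃ g₂ : G, g₂ • a₀ = c ∧ g₂ • s • a₀ = d := by
      rcases hk with hk | ⟨e1, e2⟩
      · exact ⟨k, hk⟩
      · exact ⟨k * s, by rw [mul_smul, e2], by rw [mul_smul, hs2, e1]⟩
    exact ⟨g₂ * g₁⁻¹, by rw [mul_smul, ← h1.1, inv_smul_smul, h2'.1],
      by rw [mul_smul, ← h1.2, inv_smul_smul, h2'.2]⟩
  · intro hne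
    obtain ⟨g₀, hg₀⟩ := Subgroup.nontrivial_iff_exists_ne_one G |>.mp ((Subgroup.nontrivial_iff_ne_bot G).mpr hne)
    obtain ⟨a, ha⟩ : ∃ a : α, g₀ a ≠ a := by
      by_contra h
      push Not at h
      exact hg₀.2 (Equiv.ext h)
    have htr : IsPretransitive G α := ⟨fun x y => by
      by_cases hxy : x = y
      · exact ⟨1, by rw [one_smul, hxy]⟩
      obtain ⟨g, ⟨e1, e2⟩ | ⟨e1, e2⟩⟩ := hpair a (g₀ a) x y (Ne.symm ha) hxy
      · exact ⟨g * ⟨g₀, hg₀.1⟩ * g⁻¹, by
          rw [mul_smul, mul_smul, ← e1, inv_smul_smul]; exact e2⟩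
      · refine ⟨g * ⟨g₀, hg₀.1⟩⁻¹ * g⁻¹, ?_⟩
        rw [mul_smul, mul_smul, ← e2, inv_smul_smul, show g₀ a = (⟨g₀, hg₀.1⟩ : G) • a from rfl,
          inv_smul_smul]
        exact e1⟩
    refine IsPreprimitive.of_isTrivialBlock_base a fun {B} h0 hB => ?_
    by_cases hs : B.Subsingleton
    · exact Or.inl hs
    right
    obtain ⟨b, hb, hba⟩ : ∃ b ∈ B, b ≠ a := by
      by_contra h
      push Not at h
      exact hs fun x hx y hy => (h x hx).trans (h y hy).symm
    refine Set.eq_univ_of_forall fun c => ?_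
    by_cases hca : c = a
    · exact hca ▸ h0
    obtain ⟨g, ⟨e1, e2⟩ | ⟨e1, e2⟩⟩ := hpair a b a c hba.symm (Ne.symm hca)
    · rw [← hB.smul_eq_of_mem h0 (e1.symm ▸ h0), ← e2]
      exact Set.smul_mem_smul_set hb
    · rw [← hB.smul_eq_of_mem hb (e2.symm ▸ h0), ← e1]
      exact Set.smul_mem_smul_set h0

end Cfsg.Agent.S0735
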