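import Cfsg.Statements.S0744
import Cfsg.Agent.Lib.Perm.Tuples
import Mathlib.GroupTheory.GroupAction.Quotient

set_option autoImplicit false
open Cfsg

namespace Cfsg.Agent.S0744

open MulAction in
/-- A group whose point stabilizers have one order and are all half-transitive on the other
points, with one orbit length, is transitive unless the stabilizers fix everything. -/
theorem orbit_eq {H : Type*} [Group H] [Finite H] {Y : Type*} [MulAction H Y] [Finite Y] {l m : ℕ}
    (hl : ∀ a : Y, Nat.card (stabilizer H a) = l)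
    (hm : ∀ a b : Y, a ≠ b → Nat.card ↥(stabilizer H a ⊓ stabilizer H b) = m) (hlm : l ≠ m)
    (a b : Y) : b ∈ orbit H a := by
  by_contra hb
  let S := stabilizer H a
  have hsz : ∀ y, y ≠ a → Nat.card (orbit S y) * m = l := by
    intro y hy
    rw [← hm a y hy.symm, ← hl a, Nat.card_congr (orbitEquivQuotientStabilizer S y)]
    show _ = Nat.card S
    rw [← Subgroup.index_mul_card (stabilizer S y), Subgroup.index_eq_card]
    congr 1
    refine (Nat.card_congr ?_).symm
    exact
      { toFun := fun g => ⟨((g : S) : H), (g : S).2, g.2⟩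
        invFun := fun g => ⟨⟨g, g.2.1⟩, g.2.2⟩
        left_inv := fun _ => rfl
        right_inv := fun _ => rfl }
  have hl0 : l ≠ 0 := by rw [← hl a]; exact Nat.card_pos.ne'
  have horb : ∀ c : Y, Nat.card (orbit H c) * l = Nat.card H := fun c => by
    rw [← hl c, ← Nat.card_prod]
    exact Nat.card_congr (orbitProdStabilizerEquivGroup H c)
  have hba : b ≠ a := fun e => hb (by rw [e]; exact mem_orbit_self a)
  obtain ⟨d, hd⟩ : ∃ d, d = Nat.card (orbit S b) := ⟨_, rfl⟩
  have hm0 : m ≠ 0 := fun e => hl0 (by rw [← hsz b hba, e, mul_zero])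
  have hall : ∀ y, y ≠ a → Nat.card (orbit S y) = d := fun y hy =>
    Nat.eq_of_mul_eq_mul_right (Nat.pos_of_ne_zero hm0) (by rw [hsz y hy, hd, hsz b hba])
  have hdvd : ∀ T : Set Y, a ∉ T → (∀ g : S, ∀ y ∈ T, g • y ∈ T) → d ∣ Nat.card T := by
    intro T haT hT
    let U : SubMulAction S Y := { carrier := T, smul_mem' := fun g y hy => hT g y hy }
    have := Fintype.ofFinite (orbitRel.Quotient S U)
    have e := Nat.card_congr (selfEquivSigmaOrbits S U)
    rw [Nat.card_sigma] at e
    refine (show Nat.card T = Nat.card U from rfl).symm ▸ e ▸ Finset.dvd_sum fun ω _ => dvd_of_eq ?_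
    have hne : ((ω.out : U) : Y) ≠ a := fun h => haT (h ▸ (ω.out : U).2)
    rw [← hall _ hne]
    refine Nat.card_congr ?_
    exact
      { toFun := fun z => ⟨⟨z, by obtain ⟨g, hg⟩ := z.2; exact hg ▸ hT g _ (ω.out : U).2⟩,
          by obtain ⟨g, hg⟩ := z.2; exact ⟨g, Subtype.ext hg⟩⟩
        invFun := fun z => ⟨((z : U) : Y), by obtain ⟨g, hg⟩ := z.2; exact ⟨g, congrArg Subtype.val hg⟩⟩
        left_inv := fun _ => rfl
        right_inv := fun _ => rfl }
  have h1 : d ∣ Nat.card (orbit H b) :=
    hdvd _ (fun h => hb (mem_orbit_symm.mp h)) fun g y hy => by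
      obtain ⟨u, rfl⟩ := hy; exact ⟨(g : H) * u, mul_smul _ _ _⟩
  have h2 : d ∣ Nat.card ↥(orbit H a \ {a}) :=
    hdvd _ (fun h => h.2 rfl) fun g y hy => by
      refine ⟨?_, fun e => hy.2 ?_⟩
      · obtain ⟨u, rfl⟩ := hy.1; exact ⟨(g : H) * u, mul_smul _ _ _⟩
      · exact MulAction.injective g (e.trans g.2.symm)
  have heq : Nat.card (orbit H a) = Nat.card (orbit H b) :=
    Nat.eq_of_mul_eq_mul_right (Nat.pos_of_ne_zero hl0) (by rw [horb, horb])
  rw [← heq] at h1
  have hcard : Nat.card ↥(orbit H a \ {a}) + 1 = Nat.card (orbit H a) := by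
    rw [Nat.card_coe_set_eq, Nat.card_coe_set_eq]
    exact Set.ncard_sdiff_singleton_add_one (mem_orbit_self a) (Set.toFinite _)
  rw [← hcard] at h1
  have hd1 : d = 1 := Nat.dvd_one.mp ((Nat.dvd_add_right h2).mp h1)
  exact hlm (by rw [← hsz b hba, ← hd, hd1, one_mul])


/-- If for some `k > 1` the pointwise stabilisers of all `(k-1)`-subsets have the same order `> 1` and those of all `k`-subsets have the same order, then the group is `(k-1)`-transitive. -/
theorem result {α : Type*} [Fintype α] [DecidableEq α] (G : Subgroup (Equiv.Perm α)) {k : ℕ} (hk : 1 < k) (hkn : k ≤ Fintype.card α) (l m : ℕ) (hl : 1 < l) (hkm1 : ∀ s : Finset α, s.card = k - 1 → Nat.card (fixingSubgroup G (s : Set α)) = l) (hkm : ∀ s : Finset α, s.card = k → Nat.card (fixingSubgroup G (s : Set α)) = m) : MulAction.IsMultiplyPretransitive G α (k - 1) := by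
  classical
  obtain ⟨k', rfl⟩ : ∃ k', k = k' + 1 := ⟨k - 1, by omega⟩
  simp only [Nat.add_sub_cancel] at hkm1 ⊢
  have hlm : l ≠ m := by
    intro he
    obtain ⟨s, hs⟩ := (Finset.univ : Finset α).powersetCard_nonempty.mpr
      (show k' ≤ Finset.univ.card by rw [Finset.card_univ]; omega)
    rw [Finset.mem_powersetCard] at hs
    have hall : ∀ y ∉ s, ∀ g ∈ fixingSubgroup G (s : Set α), g • y = y := by
      intro y hy g hg
      have hle : fixingSubgroup G ((insert y s : Finset α) : Set α) ≤ fixingSubgroup G (s : Set α) :=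
        fixingSubgroup_antitone G α (by simp)
      have h2 := Subgroup.eq_of_le_of_card_ge hle
        (by rw [hkm1 s hs.2, hkm _ (by rw [Finset.card_insert_of_notMem hy, hs.2]), he])
      rw [← h2] at hg
      exact (mem_fixingSubgroup_iff G).mp hg y (by simp)
    have h3 : fixingSubgroup G (s : Set α) = ⊥ := (Subgroup.eq_bot_iff_forall _).mpr fun g hg =>
      Subtype.ext (Equiv.ext fun y => by
        by_cases hy : y ∈ s
        · exact (mem_fixingSubgroup_iff G).mp hg y hy
        · exact hall y hy g hg)
    have := hkm1 s hs.2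
    rw [h3, Subgroup.card_bot] at this
    omega
  refine Lib.Perm.multiply_of_moves (by omega) fun x i b hb => ?_
  let R : Finset α := (Finset.univ.erase i).map x
  have hR : R.card + 1 = k' := by
    rw [Finset.card_map, Finset.card_erase_of_mem (Finset.mem_univ i), Finset.card_univ, Fintype.card_fin]
    have := i.pos
    omega
  let K := fixingSubgroup G (R : Set α)
  have hxi : x i ∉ R := by simp [R]
  have hbR : b ∉ R := by
    simp only [R, Finset.mem_map, Finset.mem_erase, Finset.mem_univ, and_true, not_exists, not_and]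
    exact fun j hj => hb j hj
  refine (MulAction.mem_orbit_iff.mp (orbit_eq (H := K) (Y := SubMulAction.ofFixingSubgroup G (R : Set α))
    (fun a => ?_) (fun a c hac => ?_) hlm ⟨x i, hxi⟩ ⟨b, hbR⟩)).elim fun u hu =>
    ⟨u, fun j hj => (mem_fixingSubgroup_iff G).mp u.2 (x j) (by simp [R, hj]), congrArg Subtype.val hu⟩
  · rw [← hkm1 (insert (a : α) R) (by rw [Finset.card_insert_of_notMem a.2]; exact hR)]
    refine Nat.card_congr ?_
    exact
      { toFun := fun g => ⟨((g : K) : G), (mem_fixingSubgroup_iff G).mpr fun y hy => by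
          simp only [Finset.coe_insert, Set.mem_insert_iff] at hy
          rcases hy with rfl | hy
          · exact congrArg Subtype.val g.2
          · exact (mem_fixingSubgroup_iff G).mp (g : K).2 y hy⟩
        invFun := fun g => ⟨⟨g, fixingSubgroup_antitone G α (by simp) g.2⟩,
          Subtype.ext ((mem_fixingSubgroup_iff G).mp g.2 a (by simp))⟩
        left_inv := fun _ => rfl
        right_inv := fun _ => rfl }
  · have hc' : (c : α) ∉ insert (a : α) R := by
      simp only [Finset.mem_insert, not_or]
      exact ⟨fun e => hac (Subtype.ext e.symm), c.2⟩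
    rw [← hkm (insert (c : α) (insert (a : α) R))
      (by rw [Finset.card_insert_of_notMem hc', Finset.card_insert_of_notMem a.2, hR])]
    refine Nat.card_congr ?_
    exact
      { toFun := fun g => ⟨((g : K) : G), (mem_fixingSubgroup_iff G).mpr fun y hy => by
          simp only [Finset.coe_insert, Set.mem_insert_iff] at hy
          rcases hy with rfl | rfl | hy
          · exact congrArg Subtype.val g.2.2
          · exact congrArg Subtype.val g.2.1
          · exact (mem_fixingSubgroup_iff G).mp (g : K).2 y hy⟩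
        invFun := fun g => ⟨⟨g, fixingSubgroup_antitone G α
            (fun y hy => by simp only [Finset.coe_insert]; exact Or.inr (Or.inr hy)) g.2⟩,
          Subtype.ext ((mem_fixingSubgroup_iff G).mp g.2 a (by simp)),
          Subtype.ext ((mem_fixingSubgroup_iff G).mp g.2 c (by simp))⟩
        left_inv := fun _ => rfl
        right_inv := fun _ => rfl }

end Cfsg.Agent.S0744
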