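import Cfsg.Statements.S0745
import Cfsg.Agent.Lib.LWag.Small
import Cfsg.Agent.S0735
import Cfsg.Agent.S0744

set_option autoImplicit false
open Cfsg

namespace Cfsg.Agent.S0745

open Lib.LWag MulAction

/-- Possible degrees for `k = 4`. -/
theorem four_check : ∀ r < 7, ∀ h < 24, (2 ≤ r ∧ Odd h ∧ 4 ≤ r * h ∧ r ∣ 6 ∧ r * (r * h - 1) ∣ 24) →
    r * h = 9 ∧ h = 3 := by decide +kernel

set_option synthInstance.maxSize 2048 in
/-- Possible degrees for `k = 5`. -/
theorem five_check : ∀ r < 25, ∀ h < 32, (2 ≤ r ∧ Odd h ∧ 4 ≤ r * h ∧ r ∣ 24 ∧ r * (r * h - 1) ∣ 120 ∧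
    (h < 3 ∨ (r * h) % 2 = 0)) → (r * h = 4 ∧ h = 1) ∨ (r * h = 6 ∧ (h = 1 ∨ h = 3)) := by decide +kernel

/-- Let `G` have degree `n` and `3 ≤ k ≤ n`; suppose `G` is `(k-2)`-transitive but not `(k-1)`-transitive, and is `(k-1)`-homogeneous and `k`-homogeneous. Then `k = n` and `G` is the alternating group, or `n = 5, k = 4, |G| = 20`, or `n = 6, k = 5, |G| = 120`, or `n = 9, k = 5, |G| ∈ {504, 1512}`. -/
theorem result {α : Type*} [Fintype α] [DecidableEq α] (G : Subgroup (Equiv.Perm α)) {k : ℕ} (hk : 3 ≤ k) (hkn : k ≤ Fintype.card α) (ht : MulAction.IsMultiplyPretransitive G α (k - 2)) (hnt : ¬ MulAction.IsMultiplyPretransitive G α (k - 1)) (hh1 : MulAction.IsPretransitive G (Set.powersetCard α (k - 1))) (hh : MulAction.IsPretransitive G (Set.powersetCard α k)) : (k = Fintype.card α ∧ G = alternatingGroup α) ∨ (Fintype.card α = 5 ∧ k = 4 ∧ Nat.card G = 20) ∨ (Fintype.card α = 6 ∧ k = 5 ∧ Nat.card G = 120) ∨ (Fintype.card α = 9 ∧ k = 5 ∧ (Nat.card G = 504 ∨ Nat.card G = 1512)) := by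
  classical
  set n := Fintype.card α with hn
  have img1 := exists_image hh1
  have img := exists_image hh
  obtain ⟨k', rfl⟩ : ∃ k', k = k' + 2 := ⟨k - 2, by omega⟩
  simp only [Nat.add_sub_cancel] at ht
  rw [show k' + 2 - 1 = k' + 1 by omega] at hnt hh1 img1
  have const1 : ∀ s t : Finset α, s.card = k' + 1 → t.card = k' + 1 →
      Nat.card (fixIn G s) = Nat.card (fixIn G t) := fun s t hs ht => by
    obtain ⟨g, hg, rfl⟩ := img1 s t hs ht
    exact (card_fixIn_image hg s).symm
  have const : ∀ s t : Finset α, s.card = k' + 2 → t.card = k' + 2 →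
      Nat.card (fixIn G s) = Nat.card (fixIn G t) := fun s t hs ht => by
    obtain ⟨g, hg, rfl⟩ := img s t hs ht
    exact (card_fixIn_image hg s).symm
  -- the stabilizers of `k - 1` points are trivial
  have hsem : Semireg G k' := by
    refine semireg_of_card fun t htc => ?_
    by_contra hgt
    obtain ⟨s, -, hs⟩ := Finset.exists_subset_card_eq (s := (Finset.univ : Finset α)) (n := k' + 2)
      (by rw [Finset.card_univ]; omega)
    have := S0744.result G (k := k' + 2) (by omega) hkn _ (Nat.card (fixIn G s))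
      (by omega : 1 < Nat.card (fixIn G t))
      (fun u hu => by rw [card_fixingSubgroup_eq]; exact const1 _ _ (by omega) htc)
      (fun u hu => by rw [card_fixingSubgroup_eq]; exact const _ _ hu hs)
    rw [show k' + 2 - 1 = k' + 1 by omega] at this
    exact hnt this
  have full_absurd : ∀ Δ : Finset α, Δ.card = k' + 1 → Full G Δ → False := fun Δ hΔ hf =>
    hnt (trans_of_full hΔ hf fun t ht' => img1 Δ t hΔ ht')
  by_cases hkeq : k' + 2 = n
  · -- the alternating group
    refine Or.inl ⟨hkeq, ?_⟩
    have hA : alternatingGroup α ≤ G := _root_.IsMultiplyPretransitive.alternatingGroup_le α G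
      (by rw [Nat.card_eq_fintype_card, ← hn, ← hkeq, Nat.add_sub_cancel]; exact ht)
    refine le_antisymm (fun g hg => ?_) hA
    by_contra hodd
    rw [Equiv.Perm.mem_alternatingGroup] at hodd
    have hg' : Equiv.Perm.sign g = -1 := (Int.units_eq_one_or _).resolve_left hodd
    have htop : G = ⊤ := eq_top_iff.mpr fun σ _ => by
      rcases Int.units_eq_one_or (Equiv.Perm.sign σ) with h | h
      · exact hA (Equiv.Perm.mem_alternatingGroup.mpr h)
      · have := mul_mem (hA (Equiv.Perm.mem_alternatingGroup.mpr (show Equiv.Perm.sign (σ * g⁻¹) = 1 by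
          rw [map_mul, map_inv, h, hg']; simp))) hg
        simpa using this
    obtain ⟨Δ, -, hΔ⟩ := Finset.exists_subset_card_eq (s := (Finset.univ : Finset α)) (n := k' + 1)
      (by rw [Finset.card_univ]; omega)
    exact full_absurd Δ hΔ fun σ => ⟨Equiv.Perm.ofSubtype σ, htop ▸ Subgroup.mem_top _,
      fun x => Equiv.Perm.ofSubtype_apply_coe σ x⟩
  have hlt : k' + 2 < n := lt_of_le_of_ne hkn hkeq
  by_cases hk4 : 4 ≤ k'
  · exfalso
    rcases hsem.structure_thm ht hk4 (by omega) with ⟨Δ, h1, h2⟩ | ⟨h1, -⟩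
    · exact full_absurd Δ h1 h2
    · omega
  obtain ⟨s, -, hs⟩ := Finset.exists_subset_card_eq (s := (Finset.univ : Finset α)) (n := k')
    (by rw [Finset.card_univ]; omega)
  have hG := card_eq_of_trans ht hs
  generalize hh' : Nat.card (fixIn G s) = h at hG
  have hh0 : 0 < h := hh' ▸ Nat.card_pos
  have hdvd : h ∣ n - k' := hh' ▸ hsem.card_dvd hs
  have hne : h ≠ n - k' := fun e => hnt (hsem.trans_of_card ht (by omega) hs (hh'.trans e))
  have hd1 := choose_dvd (by omega) hh1
  have hd2 := choose_dvd (by omega) hh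
  rw [← hn, hG] at hd1 hd2
  have e1 := Nat.descFactorial_eq_factorial_mul_choose n (k' + 1)
  have e2 := Nat.descFactorial_eq_factorial_mul_choose n (k' + 2)
  have h1 : n.descFactorial (k' + 1) ∣ (k' + 1).factorial * (n.descFactorial k' * h) := by
    rw [e1]; exact Nat.mul_dvd_mul_left _ hd1
  have h2 : n.descFactorial (k' + 2) ∣ (k' + 2).factorial * (n.descFactorial k' * h) := by
    rw [e2]; exact Nat.mul_dvd_mul_left _ hd2
  have hP : 0 < n.descFactorial k' := Nat.descFactorial_pos.mpr (by omega)
  rw [Nat.descFactorial_succ, mul_comm (n - k'), Nat.mul_left_comm _ (n.descFactorial k')] at h1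
  replace h1 := Nat.dvd_of_mul_dvd_mul_left hP h1
  rw [Nat.descFactorial_succ, Nat.descFactorial_succ, ← mul_assoc, mul_comm _ (n.descFactorial k'),
    Nat.mul_left_comm _ (n.descFactorial k')] at h2
  replace h2 := Nat.dvd_of_mul_dvd_mul_left hP h2
  obtain ⟨r, hr⟩ := hdvd
  have hr2 : 2 ≤ r := by
    rcases Nat.lt_or_ge r 2 with h' | h'
    · interval_cases r <;> simp only [mul_zero, mul_one] at hr <;> omega
    · exact h'
  rw [show n - (k' + 1) = h * r - 1 by omega, hr] at h2
  rw [hr] at h1
  have hA : r ∣ (k' + 1).factorial := by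
    rw [mul_comm h r] at h1
    exact Nat.dvd_of_mul_dvd_mul_right hh0 h1
  have hB : r * (r * h - 1) ∣ (k' + 2).factorial := by
    refine Nat.dvd_of_mul_dvd_mul_right hh0 ?_
    refine dvd_trans (dvd_of_eq ?_) h2
    rw [mul_comm h r]; ring
  have hodd : k' ≠ 1 → Odd h := fun hk1 => by
    rw [← Nat.not_even_iff_odd]
    intro hev
    obtain ⟨Δ, -, hΔ⟩ := Finset.exists_subset_card_eq (s := (Finset.univ : Finset α)) (n := k' + 1)
      (by rw [Finset.card_univ]; omega)
    refine full_absurd Δ hΔ (hsem.full_of_even ht (by omega) (fun t htc => ?_) Δ hΔ (by omega))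
    obtain ⟨g, hg, rfl⟩ := exists_map_set ht (by omega) s t hs.le (hs.trans htc.symm)
    rw [card_fixIn_image hg, hh']
    exact hev
  have hk1 : 1 ≤ k' := by omega
  interval_cases k'
  · -- `k = 3`
    exfalso
    have hoddG : ¬ Even (Nat.card G) := fun he => hnt ((S0735.result G hh1 (by omega)).1 he)
    rw [hG, Nat.descFactorial_one, Nat.even_mul, not_or] at hoddG
    obtain ⟨hno, hho⟩ := hoddG
    have hr' : r = 2 := by
      have := Nat.le_of_dvd (by norm_num) hA
      norm_num [Nat.factorial] at this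
      omega
    subst hr'
    norm_num [Nat.factorial] at hB
    have := Nat.le_of_dvd (by norm_num) hB
    have hh2 : h ≤ 2 := by omega
    interval_cases h
    · omega
    · simp at hho
  · -- `k = 4`
    refine Or.inr ?_
    norm_num [Nat.factorial] at hA hB
    by_cases hn5 : n = 5
    · refine Or.inl ⟨hn5, by norm_num, ?_⟩
      have : h = 1 := by
        rw [hn5] at hr hne
        have : h ≤ 3 := by
          by_contra h4
          nlinarith
        interval_cases h
        · rfl
        · omega
        · omega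
      rw [hG, ← hn, hn5, this]; decide
    exfalso
    have hr6 : r < 7 := by have := Nat.le_of_dvd (by norm_num) hA; omega
    have hh24 : h < 24 := by
      by_contra h24
      have h3 := Nat.le_of_dvd (by norm_num) hB
      have : 48 ≤ r * h := by nlinarith
      nlinarith [Nat.sub_add_cancel (show 1 ≤ r * h by omega)]
    obtain ⟨e, rfl⟩ := four_check r hr6 h hh24 ⟨hr2, hodd (by norm_num), by rw [mul_comm]; omega, hA, hB⟩
    have hn11 : n = 11 := by rw [mul_comm] at e; omega
    haveI := ht
    refine no_eleven hn11 ?_ (by rw [hG, ← hn, hn11]; decide)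
    rw [← is_one_pretransitive_iff]
    exact isMultiplyPretransitive_of_le' (n := 2) (by norm_num)
      (by rw [ENat.card_eq_coe_fintype_card, ← hn, hn11]; norm_num)
  · -- `k = 5`
    refine Or.inr (Or.inr ?_)
    norm_num [Nat.factorial] at hA hB
    by_cases hn6 : n = 6
    · refine Or.inl ⟨hn6, by norm_num, ?_⟩
      have : h = 1 := by
        rw [hn6] at hr hne
        have : h ≤ 3 := by
          by_contra h4
          nlinarith
        interval_cases h
        · rfl
        · omega
        · omega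
      rw [hG, ← hn, hn6, this]; decide
    have hr24 : r < 25 := by have := Nat.le_of_dvd (by norm_num) hA; omega
    have hh32 : h < 32 := by
      by_contra h32
      have h3 := Nat.le_of_dvd (by norm_num) hB
      have : 64 ≤ r * h := by nlinarith
      nlinarith [Nat.sub_add_cancel (show 1 ≤ r * h by omega)]
    have hev : 3 ≤ h → Even (r * h) := fun h3 => by
      rw [mul_comm, ← hr]
      exact (hsem.odd_core ht le_rfl (by omega) s hs (hh' ▸ hodd (by norm_num)) (hh' ▸ h3)).2
    rcases five_check r hr24 h hh32 ⟨hr2, hodd (by norm_num), by rw [mul_comm]; omega, hA, hB, (Nat.lt_or_ge h 3).imp_right fun h3 => Nat.even_iff.mp (hev h3)⟩ with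
      ⟨e, rfl⟩ | ⟨e, he⟩
    · exfalso
      refine no_seven (by rw [← hn]; rw [mul_comm] at e; omega) ht hsem fun t htc => ?_
      obtain ⟨g, hg, rfl⟩ := exists_map_set ht (by omega) s t hs.le (hs.trans htc.symm)
      rw [card_fixIn_image hg, hh']
    · have hn9 : n = 9 := by rw [mul_comm] at e; omega
      refine Or.inr ⟨hn9, by norm_num, ?_⟩
      rw [hG, ← hn, hn9]
      rcases he with rfl | rfl <;> decide

end Cfsg.Agent.S0745
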