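import Cfsg.Statements.S0751
import Cfsg.Agent.Lib.Forms.WittHerm

set_option autoImplicit false
open Cfsg

namespace Cfsg.Agent.S0751

/-- Witt's Lemma for Hermitian forms. Let σ be a non-identity involutive automorphism of a finite field F and B a non-degenerate σ-sesquilinear form on a finite-dimensional F-space V which is conjugate-symmetric (σ (B x y) = B y x). Then every linear equivalence between subspaces X, Y of V preserving B extends to a B-preserving linear automorphism of V. -/
theorem result {F V : Type*} [Field F] [Finite F] [AddCommGroup V] [Module F V] [FiniteDimensional F V] (σ : F →+* F) (hσ : σ ≠ RingHom.id F) (hσ2 : ∀ a : F, σ (σ a) = a) (B : V →ₛₗ[σ] V →ₗ[F] F) (hS : B.IsSymm) (hB : B.Nondegenerate) (X Y : Submodule F V) (φ : X ≃ₗ[F] Y) (hφ : ∀ x x' : X, B (φ x : V) (φ x' : V) = B (x : V) (x' : V)) : ∃ g : V ≃ₗ[F] V, (∀ u v : V, B (g u) (g v) = B u v) ∧ ∀ x : X, g (x : V) = (φ x : V) := by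
  classical
  let σ' : F ≃+* F := RingEquiv.ofBijective σ (Finite.injective_iff_bijective.1 σ.injective)
  have H : Cfsg.Agent.Lib.Forms.HermData σ' (fun x y : V => B y x) :=
    { ne_refl := fun e => hσ (RingHom.ext fun a => congrArg (fun f : F ≃+* F => f a) e)
      involutive := hσ2
      add_left := fun x y z => by simp
      smul_left := fun c x z => by simp
      herm := fun x y => (hS.eq x y).symm
      sep := fun x hx => by
        by_contra hcon
        push Not at hcon
        exact hx (hB.2 x hcon) }
  obtain ⟨g, hg, hgx⟩ := H.witt (Module.finrank F V - Module.finrank F X) X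
    (Y.subtype.comp φ.toLinearMap) (by have := Submodule.finrank_le X; omega)
    (Subtype.val_injective.comp φ.injective) (fun x x' => hφ x' x)
  exact ⟨g, fun u v => hg v u, hgx⟩

end Cfsg.Agent.S0751
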