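import Cfsg.Statements.S0753


set_option autoImplicit false
open Cfsg Matrix

namespace Cfsg.Agent.S0753

/-- If σ is a ring endomorphism of the field F other than the identity and B is a σ-sesquilinear conjugate-symmetric form with B v v = 0 for every v, then B = 0. -/
theorem result {F V : Type*} [Field F] [AddCommGroup V] [Module F V] (σ : F →+* F) (hσ : σ ≠ RingHom.id F) (B : V →ₛₗ[σ] V →ₗ[F] F) (hS : B.IsSymm) (h0 : ∀ v : V, B v v = 0) : B = 0 := by
  have hsy : ∀ u w, σ (B u w) = B w u := fun u w => hS.eq u w
  refine LinearMap.ext₂ fun u w => ?_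
  by_contra hne
  simp only [LinearMap.zero_apply] at hne
  have hskew : ∀ u w, B w u = -B u w := fun u w => by
    have := h0 (u + w)
    simp only [map_add, LinearMap.add_apply, h0, zero_add, add_zero] at this
    linear_combination this
  apply hσ
  ext a
  have e1 := hsy (a • u) w
  rw [hskew (a • u) w, map_smulₛₗ, LinearMap.smul_apply, smul_eq_mul, map_mul, hsy u w,
    hskew u w] at e1
  have e2 : σ (σ a) = σ a := mul_right_cancel₀ (neg_ne_zero.2 hne) (by linear_combination e1)
  exact σ.injective e2

end Cfsg.Agent.S0753
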