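import Cfsg.Statements.S0754


set_option autoImplicit false
open Cfsg Matrix

namespace Cfsg.Agent.S0754

/-- In a field F with q^2 elements, every non-zero μ with μ^q = μ (that is, μ in the subfield of order q) has exactly q + 1 solutions λ of λ^(q+1) = μ. -/
theorem result {F : Type*} [Field F] [Fintype F] {q : ℕ} (hF : Fintype.card F = q ^ 2) (μ : F) (hμ : μ ≠ 0) (hμq : μ ^ q = μ) : Nat.card {x : F // x ^ (q + 1) = μ} = q + 1 := by
  classical
  have h1 : 1 < Fintype.card F := Fintype.one_lt_card
  have hq : 2 ≤ q := by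
    by_contra hc
    interval_cases q <;> simp_all
  have hqq : q ^ 2 - 1 = (q + 1) * (q - 1) := by rw [← Nat.sq_sub_sq, one_pow]
  have hcard : Nat.card Fˣ = (q + 1) * (q - 1) := by
    rw [Nat.card_eq_fintype_card, Fintype.card_units, hF, hqq]
  let f : Fˣ →* Fˣ := powMonoidHom (q + 1)
  have hker : Nat.card f.ker = q + 1 := by
    rw [IsCyclic.card_powMonoidHom_ker, hcard, Nat.gcd_mul_right_left]
  have hrange : Nat.card f.range = q - 1 := by
    rw [IsCyclic.card_powMonoidHom_range, hcard, Nat.gcd_mul_right_left,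
      Nat.mul_div_cancel_left _ (by omega : 0 < q + 1)]
  have heq : f.range = (powMonoidHom (q - 1) : Fˣ →* Fˣ).ker := by
    refine Subgroup.eq_of_le_of_card_ge ?_ ?_
    · rintro _ ⟨x, rfl⟩
      rw [MonoidHom.mem_ker, powMonoidHom_apply, powMonoidHom_apply, ← pow_mul, ← hcard,
        pow_card_eq_one']
    · rw [IsCyclic.card_powMonoidHom_ker, hcard, Nat.gcd_mul_left_left, hrange]
  obtain ⟨x0, hx0⟩ : Units.mk0 μ hμ ∈ f.range := by
    rw [heq, MonoidHom.mem_ker, powMonoidHom_apply]
    ext
    rw [Units.val_pow_eq_pow_val, Units.val_mk0, Units.val_one]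
    have := hμq
    rw [show q = q - 1 + 1 by omega, pow_succ] at this
    exact mul_right_cancel₀ hμ (this.trans (one_mul μ).symm)
  have hx0' : (x0 : F) ^ (q + 1) = μ := by
    have := congrArg Units.val hx0
    simpa [f] using this
  refine (Nat.card_congr ?_).trans hker
  refine
    { toFun := fun x => ⟨Units.mk0 (x.1 / x0) (div_ne_zero (fun e => hμ ?_) x0.ne_zero), ?_⟩
      invFun := fun k => ⟨(k.1 : F) * x0, ?_⟩
      left_inv := fun x => ?_
      right_inv := fun k => ?_ }
  · rw [← x.2, e, zero_pow (by omega)]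
  · rw [MonoidHom.mem_ker]
    ext
    simp [f, div_pow, x.2, hx0', hμ]
  · have := congrArg Units.val (MonoidHom.mem_ker.1 k.2)
    simp [f] at this
    rw [mul_pow, this, hx0', one_mul]
  · ext; simp
  · ext; simp

end Cfsg.Agent.S0754
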