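import Cfsg.Statements.S0755
import Cfsg.Agent.Lib.Forms.SymmBasis

set_option autoImplicit false
open Cfsg Matrix Cfsg.Agent.Lib.Forms

namespace Cfsg.Agent.S0755

/-- Classification of Hermitian forms over finite fields: if σ is a non-identity involutive automorphism of the finite field F and B is a non-degenerate conjugate-symmetric σ-sesquilinear form on the finite-dimensional space V, then V has a B-orthonormal basis. -/
theorem result {F V : Type*} [Field F] [Finite F] [AddCommGroup V] [Module F V] [FiniteDimensional F V] (σ : F →+* F) (hσ : σ ≠ RingHom.id F) (hσ2 : ∀ a : F, σ (σ a) = a) (B : V →ₛₗ[σ] V →ₗ[F] F) (hS : B.IsSymm) (hB : B.Nondegenerate) : ∃ b : Module.Basis (Fin (Module.finrank F V)) F V, ∀ i j, B (b i) (b j) = if i = j then 1 else 0 := by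
  classical
  let σ' : F ≃+* F := RingEquiv.ofBijective σ (Finite.injective_iff_bijective.1 σ.injective)
  obtain ⟨b, hb⟩ := exists_orthonormal_family σ' (fun e => hσ (RingHom.ext fun a =>
      congrArg (fun f : F ≃+* F => f a) e)) hσ2 (Module.finrank F V) V (fun x y => B y x)
    (fun x y z => by simp) (fun c x z => by simp) (fun x y => (hS.eq x y).symm)
    (fun x hx => by
      by_contra hcon
      push Not at hcon
      exact hx (hB.2 x hcon)) rfl
  have hli : LinearIndependent F b := by
    rw [Fintype.linearIndependent_iff]
    intro g hg i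
    have := congrArg (B (b i)) hg
    simpa [map_sum, hb] using this
  refine ⟨basisOfLinearIndependentOfCardEqFinrank' b hli (by simp), fun i j => ?_⟩
  rw [coe_basisOfLinearIndependentOfCardEqFinrank', hb]
  simp [eq_comm]

end Cfsg.Agent.S0755
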