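import Cfsg.Statements.S0757
import Cfsg.Agent.Lib.Forms.SymmBasis

set_option autoImplicit false
open Cfsg Matrix Cfsg.Agent.Lib.Forms

namespace Cfsg.Agent.S0757

/-- The two diagonal forms Σ x_i^2 and Σ_(i<n) x_i^2 + α x_n^2 on F^(n+1), with α a non-square and 2 ≠ 0 in F, are inequivalent quadratic forms (so over a finite field of odd order there are exactly two classes of non-singular symmetric bilinear forms in each dimension). -/
theorem result {F : Type*} [Field F] (h2 : (2 : F) ≠ 0) (n : ℕ) (α : F) (hα : ¬ IsSquare α) : ¬ (QuadraticMap.weightedSumSquares F (fun _ : Fin (n + 1) => (1 : F))).Equivalent (QuadraticMap.weightedSumSquares F (fun i : Fin (n + 1) => if i = Fin.last n then α else (1 : F))) := by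
  classical
  rintro ⟨f⟩
  set w : Fin (n + 1) → F := fun i => if i = Fin.last n then α else 1
  have hpol : ∀ (c : Fin (n + 1) → F) (i j : Fin (n + 1)),
      QuadraticMap.polarBilin (QuadraticMap.weightedSumSquares F c) (Pi.single i 1) (Pi.single j 1)
        = if i = j then 2 * c i else 0 := by
    intro c i j
    simp only [QuadraticMap.polarBilin_apply_apply, QuadraticMap.polar,
      QuadraticMap.weightedSumSquares_apply, ← Finset.sum_sub_distrib]
    rw [Finset.sum_eq_single i (fun l _ hl => by simp [hl]) (by simp)]
    rcases eq_or_ne i j with rfl | hij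
    · simp; ring
    · simp [hij]
  let B := QuadraticMap.polarBilin (QuadraticMap.weightedSumSquares F w)
  have hf : ∀ x, QuadraticMap.weightedSumSquares F w (f x) =
      QuadraticMap.weightedSumSquares F (fun _ => (1 : F)) x := f.map_app
  obtain ⟨r, hr⟩ := prod_diag_square B (Pi.basisFun F (Fin (n + 1)))
    ((Pi.basisFun F (Fin (n + 1))).map f.toLinearEquiv) (fun i => 2 * w i) (fun _ => 2 * 1)
    (fun i j => by simpa [B] using hpol w i j) (fun i j => by
      have e := hpol (fun _ => (1 : F)) i j
      rw [QuadraticMap.polarBilin_apply_apply, QuadraticMap.polar, ← hf, ← hf, ← hf] at e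
      simp only [B, Module.Basis.map_apply, Pi.basisFun_apply, QuadraticMap.polarBilin_apply_apply,
        QuadraticMap.polar]
      change QuadraticMap.weightedSumSquares F w (f (Pi.single i 1) + f (Pi.single j 1)) -
        QuadraticMap.weightedSumSquares F w (f (Pi.single i 1)) -
        QuadraticMap.weightedSumSquares F w (f (Pi.single j 1)) = _
      simpa using e)
  rw [Finset.prod_mul_distrib, Finset.prod_mul_distrib, Finset.prod_const_one, mul_one,
    Finset.prod_const, Finset.card_univ, Fintype.card_fin,
    Fintype.prod_eq_single (Fin.last n) (fun i hi => by simp [w, hi])] at hr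
  simp only [w, if_pos] at hr
  have h2n : (2 : F) ^ (n + 1) ≠ 0 := pow_ne_zero _ h2
  have h1 : r ^ 2 * α = 1 := by
    apply mul_left_cancel₀ h2n
    linear_combination -hr
  have hr0 : r ≠ 0 := fun e => by simp [e] at h1
  refine hα ⟨r⁻¹, ?_⟩
  field_simp
  linear_combination h1

end Cfsg.Agent.S0757
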