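import Cfsg.Statements.S0758


set_option autoImplicit false
open Cfsg Matrix

namespace Cfsg.Agent.S0758

/-- For a finite field F of odd order q and a non-square α: the form x² + y² is isotropic iff q ≡ 1 mod 4, and the form x² + α y² is isotropic iff q ≡ 3 mod 4. -/
theorem result {F : Type*} [Field F] [Fintype F] (h2 : (2 : F) ≠ 0) (α : F) (hα : ¬ IsSquare α) : ((∃ x y : F, (x ≠ 0 ∨ y ≠ 0) ∧ x ^ 2 + y ^ 2 = 0) ↔ Fintype.card F % 4 = 1) ∧ ((∃ x y : F, (x ≠ 0 ∨ y ≠ 0) ∧ x ^ 2 + α * y ^ 2 = 0) ↔ Fintype.card F % 4 = 3) := by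
  classical
  haveI : NeZero (2 : F) := ⟨h2⟩
  have hodd : Fintype.card F % 2 = 1 :=
    FiniteField.odd_card_of_char_ne_two fun e => h2 (by
      have := ringChar.spec F 2
      simpa using this.2 (e ▸ dvd_rfl))
  have hm1 : IsSquare (-1 : F) ↔ Fintype.card F % 4 = 1 := by
    rw [FiniteField.isSquare_neg_one_iff]; omega
  refine ⟨⟨?_, fun h => ?_⟩, ⟨?_, fun h => ?_⟩⟩
  · rintro ⟨x, y, hne, hxy⟩
    have hy : y ≠ 0 := fun hy => by
      subst hy
      simp at hxy hne
      exact hne hxy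
    refine hm1.1 ⟨x / y, ?_⟩
    field_simp
    linear_combination -hxy
  · obtain ⟨s, hs⟩ := hm1.2 h
    exact ⟨s, 1, Or.inr one_ne_zero, by linear_combination -hs⟩
  · rintro ⟨x, y, hne, hxy⟩
    have hy : y ≠ 0 := fun hy => by
      subst hy
      simp at hxy hne
      exact hne hxy
    by_contra h4
    obtain ⟨s, hs⟩ := hm1.2 (by omega)
    refine hα ⟨s * (x / y), ?_⟩
    field_simp
    linear_combination hxy + x ^ 2 * hs
  · have hn1 : ¬ IsSquare (-1 : F) := fun e => by have := hm1.1 e; omega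
    have hne : ringChar F ≠ 2 := fun e => h2 (by
      have := ringChar.spec F 2
      simpa using this.2 (e ▸ dvd_rfl))
    have hα0 : α ≠ 0 := fun e => hα (e ▸ IsSquare.zero)
    have hsq : IsSquare (-α) := by
      rw [← quadraticChar_one_iff_isSquare (neg_ne_zero.2 hα0), ← neg_one_mul, map_mul,
        quadraticChar_neg_one_iff_not_isSquare.2 hn1, quadraticChar_neg_one_iff_not_isSquare.2 hα]
      norm_num
    obtain ⟨s, hs⟩ := hsq
    exact ⟨s, 1, Or.inr one_ne_zero, by linear_combination -hs⟩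

end Cfsg.Agent.S0758
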