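import Cfsg.Statements.S0759
import Cfsg.Agent.Lib.Forms.SymmType

set_option autoImplicit false
open Cfsg

namespace Cfsg.Agent.S0759

/-- Type of the orthonormal form: over a finite field of odd order q and for m ≥ 1, the quadratic form Σ_(i<2m) x_i² on F^(2m) admits an m-dimensional subspace on which it vanishes identically if and only if it is not the case that q ≡ 3 (mod 4) and m is odd. -/
theorem result {F : Type*} [Field F] [Fintype F] (h2 : (2 : F) ≠ 0) (m : ℕ) (hm : 1 ≤ m) : (∃ W : Submodule F (Fin (2 * m) → F), Module.finrank F W = m ∧ ∀ w ∈ W, ∑ i, w i ^ 2 = 0) ↔ ¬ (Fintype.card F % 4 = 3 ∧ Odd m) := by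
  classical
  let B : LinearMap.BilinForm F (Fin (2 * m) → F) := Matrix.toBilin' 1
  have hB : ∀ x y, B x y = ∑ i, x i * y i := fun x y => by
    simp [B, Matrix.toBilin'_apply', dotProduct]
  have hb : ∀ i j, B (Pi.basisFun F _ i) (Pi.basisFun F _ j) = if i = j then (fun _ => (1 : F)) i else 0 :=
    fun i j => by simp [hB, Pi.single_apply, eq_comm]
  have key := Cfsg.Agent.Lib.Forms.ti_iff h2 B (Pi.basisFun F (Fin (2 * m))) (fun _ => (1 : F)) hb
    (fun _ => one_ne_zero) (N := m) (by simp)
  have hiff : ∀ W : Submodule F (Fin (2 * m) → F), (∀ w ∈ W, ∑ i, w i ^ 2 = 0) ↔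
      ∀ x ∈ W, ∀ y ∈ W, B x y = 0 := by
    intro W
    refine ⟨fun h x hx y hy => ?_, fun h w hw => by simpa [hB, sq] using h w hw w hw⟩
    have e := h (x + y) (add_mem hx hy)
    simp only [Pi.add_apply, add_sq, Finset.sum_add_distrib, h x hx, h y hy, zero_add, add_zero,
      mul_assoc, ← Finset.mul_sum, mul_eq_zero, h2, false_or] at e
    rw [hB]; exact e
  simp only [hiff]
  rw [key, Finset.prod_const_one, mul_one]
  rcases Nat.even_or_odd m with he | ho
  · simp [he.neg_one_pow, Nat.not_odd_iff_even.2 he]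
  · rw [ho.neg_one_pow, FiniteField.isSquare_neg_one_iff]
    simp [ho]

end Cfsg.Agent.S0759
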