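import Cfsg.Statements.S0760
import Cfsg.Agent.Lib.Classical.QuadOmega.Generation

open QuadraticMap Cfsg.Agent.Lib.Classical.Quad Cfsg.Agent.Lib.Classical.QuadOmega

set_option autoImplicit false
open Cfsg

namespace Cfsg.Agent.S0760

/-- Witt index is well defined: if Q is a quadratic form on a finite-dimensional space V over a finite field with non-degenerate polar form, and W₁, W₂ are subspaces on which Q vanishes that are maximal with this property, then W₁ and W₂ have the same dimension, and twice this dimension is at most dim V. -/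
theorem result {F V : Type*} [Field F] [Finite F] [AddCommGroup V] [Module F V] [FiniteDimensional F V] (Q : QuadraticForm F V) (hQ : (QuadraticMap.polarBilin Q).Nondegenerate) (W₁ W₂ : Submodule F V) (h₁ : ∀ w ∈ W₁, Q w = 0) (h₂ : ∀ w ∈ W₂, Q w = 0) (hmax₁ : ∀ W : Submodule F V, W₁ ≤ W → (∀ w ∈ W, Q w = 0) → W = W₁) (hmax₂ : ∀ W : Submodule F V, W₂ ≤ W → (∀ w ∈ W, Q w = 0) → W = W₂) : Module.finrank F W₁ = Module.finrank F W₂ ∧ 2 * Module.finrank F W₁ ≤ Module.finrank F V := by
  classical
  have := Fintype.ofFinite F
  have : Finite V := Module.finite_of_finite F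
  have hN := nd_of_nondegenerate hQ
  have key : ∀ A B : Submodule F V, TSing Q A → TSing Q B →
      (∀ W : Submodule F V, A ≤ W → (∀ w ∈ W, Q w = 0) → W = A) →
      Module.finrank F B ≤ Module.finrank F A := by
    intro A B hA hB hmax
    by_contra! hlt
    let b := Module.finBasis F B
    let U : Submodule F V := Submodule.span F (Set.range fun i : Fin (Module.finrank F A) => ((b (Fin.castLE hlt.le i) : B) : V))
    have hli : LinearIndependent F fun i : Fin (Module.finrank F A) => ((b (Fin.castLE hlt.le i) : B) : V) :=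
      ((b.linearIndependent.comp _ (Fin.castLE_injective _)).map' B.subtype (Submodule.ker_subtype B))
    have hU : Module.finrank F U = Module.finrank F A := by
      rw [finrank_span_eq_card hli, Fintype.card_fin]
    have hUB : U ≤ B := Submodule.span_le.2 (by rintro _ ⟨i, rfl⟩; exact (b _).2)
    obtain ⟨g, hg⟩ := exists_map_TSing hN (fun x hx => hB x (hUB hx)) hA hU
    have h := hmax (imgS g B) (fun a ha => by
      rw [← hg, mem_imgS] at ha
      obtain ⟨s, hs, rfl⟩ := ha
      exact mem_imgS.2 ⟨s, hUB hs, rfl⟩) (TSing.img hB g)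
    have := finrank_imgS g B
    rw [h] at this
    omega
  exact ⟨le_antisymm (key W₂ W₁ h₂ h₁ hmax₂) (key W₁ W₂ h₁ h₂ hmax₁),
    hN.two_mul_finrank_le W₁ fun x hx y hy => TSing.polar_eq (Q := Q) h₁ hx hy⟩

end Cfsg.Agent.S0760
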