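import Cfsg.Statements.S0761
import Cfsg.Agent.Lib.Forms.SymmBasis

set_option autoImplicit false
open Cfsg Matrix Cfsg.Agent.Lib.Forms

namespace Cfsg.Agent.S0761

/-- Hyperbolic partners: let B be a non-degenerate bilinear form on a finite-dimensional space, either alternating, or symmetric with 2 ≠ 0. If Z is a subspace on which B vanishes, x ∉ Z is isotropic and orthogonal to Z, then there is an isotropic y with B x y = 1 which is orthogonal to Z. -/
theorem result {F V : Type*} [Field F] [AddCommGroup V] [Module F V] [FiniteDimensional F V] (B : LinearMap.BilinForm F V) (hB : B.Nondegenerate) (hform : B.IsAlt ∨ (B.IsSymm ∧ (2 : F) ≠ 0)) (x : V) (Z : Submodule F V) (hxZ : x ∉ Z) (hx : B x x = 0) (hxz : ∀ z ∈ Z, B x z = 0) (hZ : ∀ z ∈ Z, ∀ z' ∈ Z, B z z' = 0) : ∃ y : V, B y y = 0 ∧ B x y = 1 ∧ ∀ z ∈ Z, B z y = 0 := by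
  have hsym : ∀ u w : V, B u w = 0 → B w u = 0 := fun u w h => by
    rcases hform with hA | ⟨hS, -⟩
    · rw [← hA.neg_eq, h, neg_zero]
    · rw [← h]; exact (hS.eq u w).symm
  obtain ⟨f, hfx, hf⟩ := Submodule.exists_dual_map_eq_bot_of_notMem hxZ inferInstance
  have hfz : ∀ z ∈ Z, f z = 0 := fun z hz => by
    have := Submodule.mem_map_of_mem (f := f) hz
    rwa [hf, Submodule.mem_bot] at this
  obtain ⟨y₁, hy₁⟩ : ∃ y, ∀ w, B y w = f w :=
    ⟨(B.toDual hB).symm f, fun w => LinearMap.BilinForm.apply_toDual_symm_apply (hB := hB) f w⟩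
  have hxy₁ : B x y₁ ≠ 0 := fun h => hfx (by rw [← hy₁]; exact hsym _ _ h)
  set y₀ := (B x y₁)⁻¹ • y₁ with hy₀
  have hxy₀ : B x y₀ = 1 := by rw [hy₀, map_smul, smul_eq_mul, inv_mul_cancel₀ hxy₁]
  have hzy₀ : ∀ z ∈ Z, B z y₀ = 0 := fun z hz => by
    rw [hy₀, map_smul, hsym _ _ (show B y₁ z = 0 by rw [hy₁, hfz z hz]), smul_zero]
  rcases hform with hA | ⟨hS, h2⟩
  · exact ⟨y₀, hA.self_eq_zero y₀, hxy₀, hzy₀⟩
  · refine ⟨y₀ + (-(B y₀ y₀) / 2) • x, ?_, ?_, fun z hz => ?_⟩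
    · simp only [map_add, map_smul, LinearMap.add_apply, LinearMap.smul_apply, hx, hxy₀,
        (hS.eq y₀ x).trans hxy₀, smul_eq_mul]
      field_simp
      ring
    · simp [hxy₀, hx]
    · simp [hzy₀ z hz, hsym _ _ (hxz z hz)]

end Cfsg.Agent.S0761
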