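import Cfsg.Statements.S0762


set_option autoImplicit false
open Cfsg Matrix

namespace Cfsg.Agent.S0762

/-- In characteristic two over a finite field, a quadratic form on a space of dimension at least 3 vanishes on some non-zero vector. -/
theorem result {F V : Type*} [Field F] [Finite F] [CharP F 2] [AddCommGroup V] [Module F V] [FiniteDimensional F V] (Q : QuadraticForm F V) (h3 : 3 ≤ Module.finrank F V) : ∃ v : V, v ≠ 0 ∧ Q v = 0 := by
  classical
  haveI := Fintype.ofFinite F
  obtain ⟨u, hu⟩ : ∃ u : V, u ≠ 0 := by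
    have : Nontrivial V := Module.nontrivial_of_finrank_pos (R := F) (by omega)
    exact exists_ne 0
  by_cases hQu : Q u = 0
  · exact ⟨u, hu, hQu⟩
  obtain ⟨w, hw, hwu⟩ : ∃ w ∈ LinearMap.ker (QuadraticMap.polarBilin Q u),
      w ∉ Submodule.span F {u} := by
    refine SetLike.not_le_iff_exists.1 fun hle => ?_
    have h1 := Submodule.finrank_mono hle
    rw [finrank_span_singleton hu] at h1
    have h2 := LinearMap.finrank_range_add_finrank_ker (QuadraticMap.polarBilin Q u)
    have h3 := Submodule.finrank_le (LinearMap.range (QuadraticMap.polarBilin Q u))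
    rw [Module.finrank_self] at h3
    omega
  rw [LinearMap.mem_ker, QuadraticMap.polarBilin_apply_apply] at hw
  obtain ⟨c, hc⟩ := FiniteField.isSquare_of_char_two (ringChar.eq F 2) (Q w / Q u)
  refine ⟨w + c • u, fun e => hwu ?_, ?_⟩
  · rw [eq_neg_of_add_eq_zero_left e, ← neg_smul]
    exact Submodule.smul_mem _ _ (Submodule.mem_span_singleton_self u)
  · rw [QuadraticMap.map_add (f := ⇑Q), QuadraticMap.map_smul, QuadraticMap.polar_smul_right,
      QuadraticMap.polar_comm, hw, smul_zero, add_zero, smul_eq_mul, ← hc, div_mul_cancel₀ _ hQu,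
      CharTwo.add_self_eq_zero]

end Cfsg.Agent.S0762
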