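import Cfsg.Statements.S0763


set_option autoImplicit false
open Cfsg Matrix

namespace Cfsg.Agent.S0763

/-- Binary quadratic forms in characteristic two over a finite field: if Q is a quadratic form on a 2-dimensional space whose polar form is non-degenerate, then either there are vectors v, w with Q v = Q w = 0 and polar value 1 (Q is xy in these coordinates), or there are v, w and μ with Q v = 1, Q w = μ, polar value 1 and x² + x + μ without roots in F (Q is x² + xy + μy²). -/
theorem result {F V : Type*} [Field F] [Finite F] [CharP F 2] [AddCommGroup V] [Module F V] (Q : QuadraticForm F V) (h2 : Module.finrank F V = 2) (hQ : (QuadraticMap.polarBilin Q).Nondegenerate) : (∃ v w : V, LinearIndependent F ![v, w] ∧ Q v = 0 ∧ Q w = 0 ∧ QuadraticMap.polar Q v w = 1) ∨ (∃ (v w : V) (μ : F), LinearIndependent F ![v, w] ∧ (∀ x : F, x ^ 2 + x + μ ≠ 0) ∧ Q v = 1 ∧ Q w = μ ∧ QuadraticMap.polar Q v w = 1) := by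
  classical
  haveI := Fintype.ofFinite F
  haveI : FiniteDimensional F V := Module.finite_of_finrank_eq_succ h2
  have hpart : ∀ v : V, v ≠ 0 → ∃ w, QuadraticMap.polar Q v w = 1 := fun v hv => by
    obtain ⟨w, hw⟩ : ∃ w, QuadraticMap.polarBilin Q v w ≠ 0 := by
      by_contra hcon
      push Not at hcon
      exact hv (hQ.1 v hcon)
    exact ⟨(QuadraticMap.polarBilin Q v w)⁻¹ • w, by
      rw [← QuadraticMap.polarBilin_apply_apply, map_smul, smul_eq_mul, inv_mul_cancel₀ hw]⟩
  have hvv : ∀ v : V, QuadraticMap.polar Q v v = 0 := fun v => by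
    rw [QuadraticMap.polar_self, two_nsmul, CharTwo.add_self_eq_zero]
  have hind : ∀ v w : V, QuadraticMap.polar Q v w = 1 → LinearIndependent F ![v, w] := fun v w h => by
    rw [LinearIndependent.pair_iff]
    intro s t hst
    have h1 := congrArg (QuadraticMap.polarBilin Q v) hst
    have h3 := congrArg (QuadraticMap.polarBilin Q w) hst
    simp only [map_add, map_smul, map_zero, QuadraticMap.polarBilin_apply_apply, hvv, h,
      QuadraticMap.polar_comm (⇑Q) w v, smul_eq_mul, mul_zero, mul_one, zero_add, add_zero] at h1 h3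
    exact ⟨h3, h1⟩
  by_cases hiso : ∃ v : V, v ≠ 0 ∧ Q v = 0
  · obtain ⟨v, hv, hQv⟩ := hiso
    obtain ⟨w, hw⟩ := hpart v hv
    have h' : QuadraticMap.polar Q v (w + Q w • v) = 1 := by
      rw [QuadraticMap.polar_add_right, QuadraticMap.polar_smul_right, hvv, smul_zero, add_zero, hw]
    refine Or.inl ⟨v, w + Q w • v, hind _ _ h', hQv, ?_, h'⟩
    rw [QuadraticMap.map_add (f := ⇑Q), QuadraticMap.map_smul, QuadraticMap.polar_smul_right,
      QuadraticMap.polar_comm, hw, hQv, smul_zero, add_zero, smul_eq_mul, mul_one,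
      CharTwo.add_self_eq_zero]
  · push Not at hiso
    haveI : Nontrivial V := Module.nontrivial_of_finrank_pos (R := F) (by omega)
    obtain ⟨u, hu⟩ := exists_ne (0 : V)
    obtain ⟨c, hc⟩ := FiniteField.isSquare_of_char_two (ringChar.eq F 2) (Q u)⁻¹
    have hQu := hiso u hu
    have hQv : Q (c • u) = 1 := by
      rw [QuadraticMap.map_smul, smul_eq_mul, ← hc, inv_mul_cancel₀ hQu]
    have hv : c • u ≠ 0 := fun e => by
      rw [e, QuadraticMap.map_zero] at hQv
      exact zero_ne_one hQv
    obtain ⟨w, hw⟩ := hpart _ hv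
    refine Or.inr ⟨c • u, w, Q w, hind _ _ hw, fun x hx => ?_, hQv, rfl, hw⟩
    refine hiso (w + x • (c • u)) (fun e => ?_) ?_
    · have := congrArg (fun y => QuadraticMap.polar (⇑Q) (c • u) y) e
      rw [QuadraticMap.polar_add_right, QuadraticMap.polar_smul_right Q x, hvv, hw, smul_zero,
        add_zero, ← QuadraticMap.polarBilin_apply_apply, map_zero] at this
      exact one_ne_zero this
    · rw [QuadraticMap.map_add (f := ⇑Q), QuadraticMap.map_smul, QuadraticMap.polar_smul_right,
        QuadraticMap.polar_comm, hw, hQv, smul_eq_mul, smul_eq_mul, mul_one, mul_one]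
      linear_combination hx

end Cfsg.Agent.S0763
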