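import Cfsg.Statements.S0766
import Cfsg.Agent.Lib.Forms.SympStd

set_option autoImplicit false
open Cfsg Cfsg.Agent.Lib.Forms

namespace Cfsg.Agent.S0766

/-- The subgroup generated by the symplectic transvections acts transitively on ordered pairs (u, v) with f(u, v) = 1. -/
theorem result {F : Type*} [Field F] (m : ℕ) (u v u' v' : Fin m ⊕ Fin m → F) (h : Cfsg.sympForm m F u v = 1) (h' : Cfsg.sympForm m F u' v' = 1) : ∃ A ∈ Subgroup.closure {A : Matrix.symplecticGroup (Fin m) F | ∃ (w : Fin m ⊕ Fin m → F) (c : F), (A : Matrix (Fin m ⊕ Fin m) (Fin m ⊕ Fin m) F) = Cfsg.sympTransvection m w c}, (A : Matrix (Fin m ⊕ Fin m) (Fin m ⊕ Fin m) F).mulVec u = u' ∧ (A : Matrix (Fin m ⊕ Fin m) (Fin m ⊕ Fin m) F).mulVec v = v' := by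
  obtain ⟨g, ⟨A, hA, rfl⟩, h1, h2⟩ := exists_trans_pairs (stdB_isAlt m) _ (U := ⊤)
    (fun w _ c => sympT_mem_map_closure m w c) (u := u) (v := v) (u' := u') (v' := v')
    trivial trivial trivial trivial (by rw [stdB_apply, h]) (by rw [stdB_apply, h'])
  exact ⟨A, hA, h1, h2⟩

end Cfsg.Agent.S0766
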