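import Cfsg.Statements.S0767
import Cfsg.Agent.Lib.Forms.SympStd

set_option autoImplicit false
open Cfsg Cfsg.Agent.Lib.Forms

namespace Cfsg.Agent.S0767

/-- The root group of a point: T_v(c) T_v(d) = T_v(c + d), and for A in the symplectic group with A v = a v, the conjugate A T_v(c) A⁻¹ is again some T_v(d). -/
theorem result {F : Type*} [Field F] (m : ℕ) (v : Fin m ⊕ Fin m → F) : (∀ c d : F, Cfsg.sympTransvection m v c * Cfsg.sympTransvection m v d = Cfsg.sympTransvection m v (c + d)) ∧ ∀ (A : Matrix (Fin m ⊕ Fin m) (Fin m ⊕ Fin m) F) (a : F), A ∈ Matrix.symplecticGroup (Fin m) F → A.mulVec v = a • v → ∀ c : F, ∃ d : F, A * Cfsg.sympTransvection m v c * A⁻¹ = Cfsg.sympTransvection m v d := by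
  refine ⟨fun c d => ?_, fun A a hA hv c => ⟨c * a * a, ?_⟩⟩
  · rw [sympTransvection_eq, sympTransvection_eq, sympTransvection_eq, ← Units.val_mul, sympT,
      sympT, tv_add (sympT_dot (stdB_isAlt m) v c) (sympT_dot (stdB_isAlt m) v d), sympT, add_smul]
  · have e := sympT_conj (stdB_isAlt m) ((mem_iso_stdB_iff m (spToGL m F ⟨A, hA⟩)).2 hA) v c
    rw [spToGL_val] at e
    rw [show A.mulVec v = a • v from hv, sympT_smul (stdB_isAlt m)] at e
    rw [sympTransvection_eq, sympTransvection_eq, ← e, Units.val_mul, Units.val_mul,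
      Matrix.coe_units_inv]
    rfl

end Cfsg.Agent.S0767
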