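import Cfsg.Statements.S0768
import Cfsg.Agent.Lib.Forms.SympMaximal

set_option autoImplicit false
open scoped LinearAlgebra.Projectivization
open Cfsg Cfsg.Agent.Lib.Forms

namespace Cfsg.Agent.S0768

/-- Primitivity: for m ≥ 1 and F finite, the symplectic group of the form sympForm (as a subgroup of the general linear group) acts primitively on the projective space of F^(2m). -/
theorem result {F : Type*} [Field F] [Finite F] (m : ℕ) (hm : 1 ≤ m) : MulAction.IsPreprimitive ↥(Cfsg.spGL m F) (ℙ F (Fin m ⊕ Fin m → F)) := by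
  classical
  have hA := stdB_isAlt (F := F) m
  have hB := stdB_nondegenerate (F := F) m
  have htrans : MulAction.IsPretransitive (↥(Cfsg.spGL m F)) (ℙ F (Fin m ⊕ Fin m → F)) := by
    refine ⟨fun p q => ?_⟩
    have ex : ∀ x : Fin m ⊕ Fin m → F, x ≠ 0 → ∃ z, stdB m F x z = 1 := by
      intro x hx
      obtain ⟨z, hz⟩ : ∃ z, stdB m F x z ≠ 0 := by
        by_contra hcon; push Not at hcon; exact hx (hB.1 x hcon)
      exact ⟨(stdB m F x z)⁻¹ • z, by simp [hz]⟩
    obtain ⟨z, hz⟩ := ex _ p.rep_nonzero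
    obtain ⟨z', hz'⟩ := ex _ q.rep_nonzero
    obtain ⟨g, hg, h1, -⟩ := exists_trans_pairs hA (isoGroup (stdB m F)) (U := ⊤)
      (fun w _ c => sympT_mem hA w c) (u' := q.rep) (v' := z') trivial trivial trivial trivial hz hz'
    refine ⟨⟨g, by rw [spGL_eq]; exact hg⟩, ?_⟩
    conv_lhs => rw [← p.mk_rep]
    conv_rhs => rw [← q.mk_rep]
    rw [Subgroup.smul_def, Projectivization.smul_mk, Projectivization.mk_eq_mk_iff']
    exact ⟨1, by rw [one_smul]; exact h1.symm⟩
  haveI : Nontrivial (ℙ F (Fin m ⊕ Fin m → F)) := by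
    refine ⟨Projectivization.mk F (Pi.single (Sum.inl ⟨0, hm⟩) 1) (by simp),
      Projectivization.mk F (Pi.single (Sum.inr ⟨0, hm⟩) 1) (by simp), fun h => ?_⟩
    rw [Projectivization.mk_eq_mk_iff'] at h
    obtain ⟨a, ha⟩ := h
    simpa using congrFun ha (Sum.inl ⟨0, hm⟩)
  let v₀ : Fin m ⊕ Fin m → F := Pi.single (Sum.inl ⟨0, hm⟩) 1
  have hv₀ : v₀ ≠ 0 := by simp [v₀]
  rw [← MulAction.isCoatom_stabilizer_iff_preprimitive _ (Projectivization.mk F v₀ hv₀)]
  set W := Submodule.span F {v₀} with hW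
  have hmax := isotropic_stab_isMaximalIn hA hB (W := W) (by simp [hW, hv₀]) (by
    intro u hu v hv
    obtain ⟨a, rfl⟩ := Submodule.mem_span_singleton.1 hu
    obtain ⟨b, rfl⟩ := Submodule.mem_span_singleton.1 hv
    simp [hA.self_eq_zero])
  rw [← spGL_eq] at hmax
  have hst : MulAction.stabilizer (↥(Cfsg.spGL m F)) (Projectivization.mk F v₀ hv₀) =
      (Geo.subspaceStabilizer W).subgroupOf (Cfsg.spGL m F) := by
    ext g
    rw [MulAction.mem_stabilizer_iff, Subgroup.smul_def, Projectivization.smul_mk,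
      Projectivization.mk_eq_mk_iff', Subgroup.mem_subgroupOf, mem_subspaceStabilizer]
    constructor
    · rintro ⟨a, ha⟩ w hw
      obtain ⟨b, rfl⟩ := Submodule.mem_span_singleton.1 hw
      rw [Matrix.mulVec_smul]
      exact W.smul_mem _ (Submodule.mem_span_singleton.2 ⟨a, ha⟩)
    · intro h
      exact Submodule.mem_span_singleton.1 (h v₀ (Submodule.mem_span_singleton_self v₀))
  rw [hst]
  refine ⟨fun h => hmax.1.ne ?_, fun M hM => ?_⟩
  · rw [inf_eq_right]
    exact Subgroup.subgroupOf_eq_top.1 h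
  · have h1 : Geo.subspaceStabilizer W ⊓ Cfsg.spGL m F ≤ M.map (Cfsg.spGL m F).subtype :=
      fun g hg => ⟨⟨g, hg.2⟩, hM.le hg.1, rfl⟩
    rcases hmax.2 _ h1 (Subgroup.map_subtype_le M) with h | h
    · exfalso
      obtain ⟨g, hg, hg'⟩ := SetLike.exists_of_lt hM
      exact hg' (h.le ⟨g, hg, rfl⟩).1
    · refine eq_top_iff.2 fun g _ => ?_
      obtain ⟨g', hg', e⟩ := h.ge g.2
      rwa [← Subtype.ext (show (g' : GL (Fin m ⊕ Fin m) F) = g from e)]

end Cfsg.Agent.S0768
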