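import Cfsg.Statements.S0769


set_option autoImplicit false
open Cfsg Matrix

namespace Cfsg.Agent.S0769

/-- Order of the Borel subgroup of GL_n(q): the invertible lower-triangular n × n matrices over a field with q elements number q^(n(n-1)/2) (q-1)^n (unitriangular part times the diagonal torus). -/
theorem result {F : Type*} [Field F] [Fintype F] {q : ℕ} (hF : Fintype.card F = q) (n : ℕ) : Nat.card {g : Matrix.GeneralLinearGroup (Fin n) F // ∀ i j : Fin n, i < j → (g : Matrix (Fin n) (Fin n) F) i j = 0} = q ^ (n * (n - 1) / 2) * (q - 1) ^ n := by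
  classical
  let M := Matrix (Fin n) (Fin n) F
  have hdet : ∀ A : M, (∀ i j : Fin n, i < j → A i j = 0) → A.det = ∏ i, A i i := fun A hA =>
    Matrix.det_of_lowerTriangular A (fun i j h => hA i j h)
  let e : {g : Matrix.GeneralLinearGroup (Fin n) F //
      ∀ i j : Fin n, i < j → (g : M) i j = 0} ≃
      (Fin n → Fˣ) × ((Σ i : Fin n, Fin i) → F) :=
    { toFun := fun g => (fun i => Units.mk0 ((g.1 : M) i i) (fun h0 => by
        have h := ((Matrix.isUnit_iff_isUnit_det _).1 g.1.isUnit).ne_zero
        rw [hdet _ g.2, Finset.prod_ne_zero_iff] at h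
        exact h i (Finset.mem_univ i) h0),
        fun p => (g.1 : M) p.1 ⟨p.2, p.2.2.trans p.1.2⟩)
      invFun := fun x => ⟨Matrix.GeneralLinearGroup.mkOfDetNeZero (Matrix.of fun i j =>
          if i = j then (x.1 i : F) else if h : (j : ℕ) < i then x.2 ⟨i, ⟨j, h⟩⟩ else 0) (by
        rw [hdet _ (fun i j h => by
          rw [Matrix.of_apply, if_neg h.ne, dif_neg (not_lt.2 (Fin.le_def.1 h.le))])]
        simp [Finset.prod_ne_zero_iff]), fun i j h => by
        change Matrix.of _ i j = 0
        rw [Matrix.of_apply, if_neg h.ne, dif_neg (not_lt.2 (Fin.le_def.1 h.le))]⟩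
      left_inv := fun g => by
        apply Subtype.ext
        apply Units.ext
        ext i j
        change (Matrix.of _ : M) i j = _
        rw [Matrix.of_apply]
        split_ifs with h1 h2
        · subst h1; rfl
        · rfl
        · exact (g.2 i j (lt_of_le_of_ne (not_lt.1 h2) h1)).symm
      right_inv := fun x => by
        refine Prod.ext (funext fun i => Units.ext ?_) (funext fun p => ?_)
        · change (Matrix.of _ : M) i i = _
          rw [Matrix.of_apply, if_pos rfl]
        · obtain ⟨i, j⟩ := p
          change (Matrix.of _ : M) i ⟨j, j.2.trans i.2⟩ = _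
          have hne : i ≠ ⟨j, j.2.trans i.2⟩ := fun e => by
            have := congrArg Fin.val e
            simp at this
            omega
          rw [Matrix.of_apply, if_neg hne, dif_pos j.2] }
  rw [Nat.card_congr e, Nat.card_eq_fintype_card, Fintype.card_prod, Fintype.card_fun,
    Fintype.card_fun, Fintype.card_units, Fintype.card_sigma, hF]
  simp only [Fintype.card_fin]
  rw [Fin.sum_univ_eq_sum_range (fun i => i) n, Finset.sum_range_id, mul_comm]

end Cfsg.Agent.S0769
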