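import Cfsg.Statements.S0770


set_option autoImplicit false
open Cfsg Matrix

namespace Cfsg.Agent.S0770

/-- For a field with at least 3 elements, an invertible matrix normalises the subgroup of invertible diagonal matrices of GL_n if and only if it is monomial (exactly one non-zero entry in each row). -/
theorem result {F : Type*} [Field F] (hF : ∃ a : F, a ≠ 0 ∧ a ≠ 1) (n : ℕ) (g : Matrix.GeneralLinearGroup (Fin n) F) : g ∈ Subgroup.normalizer ((Units.map (Matrix.diagonalRingHom (Fin n) F).toMonoidHom).range : Subgroup (Matrix.GeneralLinearGroup (Fin n) F)) ↔ ∀ i : Fin n, ∃! j : Fin n, (g : Matrix (Fin n) (Fin n) F) i j ≠ 0 := by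
  classical
  obtain ⟨a, ha0, ha1⟩ := hF
  set D := (Units.map (Matrix.diagonalRingHom (Fin n) F).toMonoidHom).range
  have hD : ∀ d : (Fin n → F)ˣ, ((Units.map (Matrix.diagonalRingHom (Fin n) F).toMonoidHom d :
      Matrix.GeneralLinearGroup (Fin n) F) : Matrix (Fin n) (Fin n) F) = Matrix.diagonal (d : Fin n → F) :=
    fun d => rfl
  set G := (g : Matrix (Fin n) (Fin n) F) with hG
  have hrow : ∀ i, ∃ j, G i j ≠ 0 := fun i => by
    by_contra hcon
    push Not at hcon
    exact ((Matrix.isUnit_iff_isUnit_det _).1 g.isUnit).ne_zero (Matrix.det_eq_zero_of_row_eq_zero i hcon)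
  have hconj : ∀ (d d' : (Fin n → F)ˣ),
      g * Units.map (Matrix.diagonalRingHom (Fin n) F).toMonoidHom d * g⁻¹ =
        Units.map (Matrix.diagonalRingHom (Fin n) F).toMonoidHom d' ↔
      ∀ i j, G i j * (d : Fin n → F) j = (d' : Fin n → F) i * G i j := by
    intro d d'
    rw [mul_inv_eq_iff_eq_mul, Units.ext_iff, Units.val_mul, Units.val_mul, hD, hD, ← Matrix.ext_iff]
    simp only [Matrix.mul_diagonal, Matrix.diagonal_mul, ← hG]
  rw [Subgroup.mem_set_normalizer_iff]
  constructor
  · intro h i
    obtain ⟨j, hj⟩ := hrow i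
    refine ⟨j, hj, fun j' hj' => ?_⟩
    by_contra hne
    let d : (Fin n → F)ˣ :=
      { val := fun l => if l = j then a else 1
        inv := fun l => if l = j then a⁻¹ else 1
        val_inv := by funext l; by_cases e : l = j <;> simp [e, ha0]
        inv_val := by funext l; by_cases e : l = j <;> simp [e, ha0] }
    obtain ⟨d', hd'⟩ := (h _).1 (⟨d, rfl⟩ : Units.map (Matrix.diagonalRingHom (Fin n) F).toMonoidHom d ∈ D)
    have e := (hconj d d').1 hd'.symm
    have e1 := e i j
    have e2 := e i j'
    simp [d, hne] at e1 e2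
    have e2' : (d' : Fin n → F) i = 1 := mul_right_cancel₀ hj' (by linear_combination -e2)
    rw [e2', one_mul] at e1
    exact ha1 (mul_left_cancel₀ hj (by linear_combination e1))
  · intro h
    choose σ hσ hσu using h
    have hσinj : Function.Injective σ := by
      intro i i' e
      by_contra hne
      apply ((Matrix.isUnit_iff_isUnit_det _).1 g.isUnit).ne_zero
      rw [← Matrix.det_updateRow_add_smul_self (g : Matrix (Fin n) (Fin n) F) hne
        (-(G i (σ i) / G i' (σ i)))]
      refine Matrix.det_eq_zero_of_row_eq_zero i fun l => ?_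
      rw [Matrix.updateRow_self, Pi.add_apply, Pi.smul_apply, smul_eq_mul, ← hG]
      by_cases hl : l = σ i
      · subst hl
        have := e ▸ hσ i'
        field_simp
        ring
      · have h1 : G i l = 0 := by by_contra hne'; exact hl (hσu i l hne')
        have h2 : G i' l = 0 := by by_contra hne'; exact hl (e ▸ hσu i' l hne')
        rw [h1, h2]; ring
    let s : Equiv.Perm (Fin n) := Equiv.ofBijective σ (Finite.injective_iff_bijective.1 hσinj)
    have hz : ∀ i j, j ≠ s i → G i j = 0 := fun i j hj => by
      by_contra hne'; exact hj (hσu i j hne')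
    intro x
    constructor
    · rintro ⟨d, rfl⟩
      refine ⟨⟨fun i => (d : Fin n → F) (s i), fun i => ((d⁻¹ : (Fin n → F)ˣ) : Fin n → F) (s i),
        funext fun i => congrFun d.val_inv (s i), funext fun i => congrFun d.inv_val (s i)⟩, ?_⟩
      refine ((hconj _ _).2 fun i j => ?_).symm
      rcases eq_or_ne j (s i) with rfl | hj
      · exact mul_comm _ _
      · rw [hz i j hj, zero_mul, mul_zero]
    · rintro ⟨d', hd'⟩
      refine ⟨⟨fun j => (d' : Fin n → F) (s.symm j), fun j => ((d'⁻¹ : (Fin n → F)ˣ) : Fin n → F) (s.symm j),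
        funext fun i => congrFun d'.val_inv (s.symm i), funext fun i => congrFun d'.inv_val (s.symm i)⟩, ?_⟩
      refine mul_left_cancel (a := g) (mul_right_cancel (b := g⁻¹) ?_)
      refine ((hconj _ d').2 fun i j => ?_).trans hd'
      rcases eq_or_ne j (s i) with rfl | hj
      · simp [mul_comm]
      · rw [hz i j hj, zero_mul, mul_zero]

end Cfsg.Agent.S0770
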