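import Cfsg.Statements.S0771
import Cfsg.Agent.Lib.Forms.StabBasic

set_option autoImplicit false
open Cfsg

namespace Cfsg.Agent.S0771

/-- Maximal parabolic of GL_n(q): the stabiliser of the coordinate subspace spanned by the first k basis vectors has order q^(k(n-k)) · |GL_k(q)| · |GL_(n-k)(q)| (unipotent radical of order q^(k(n-k)) and Levi complement GL_k × GL_(n-k)). -/
theorem result {F : Type*} [Field F] [Fintype F] {q : ℕ} (hF : Fintype.card F = q) (n k : ℕ) (hk : k ≤ n) : Nat.card ↥(Cfsg.stabilizing (Cfsg.glToMat (Fin n) F) {v : Fin n → F | ∀ i : Fin n, k ≤ (i : ℕ) → v i = 0}) = q ^ (k * (n - k)) * (∏ i : Fin k, (q ^ k - q ^ (i : ℕ))) * ∏ i : Fin (n - k), (q ^ (n - k) - q ^ (i : ℕ)) := by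
  classical
  subst hF
  obtain ⟨r, rfl⟩ := Nat.exists_eq_add_of_le hk
  rw [Nat.add_sub_cancel_left]
  let e : Fin k ⊕ Fin r ≃ Fin (k + r) := finSumFinEquiv
  let E : Matrix (Fin (k + r)) (Fin (k + r)) F ≃+* Matrix (Fin k ⊕ Fin r) (Fin k ⊕ Fin r) F :=
    (Matrix.reindexAlgEquiv F F e.symm).toRingEquiv
  have hE : ∀ (M : Matrix (Fin (k + r)) (Fin (k + r)) F) i j, E M i j = M (e i) (e j) :=
    fun M i j => by simp [E, Matrix.reindexAlgEquiv_apply, Matrix.reindex_apply]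
  have hmem : ∀ g : Matrix.GeneralLinearGroup (Fin (k + r)) F,
      g ∈ Cfsg.stabilizing (Cfsg.glToMat (Fin (k + r)) F)
        {v : Fin (k + r) → F | ∀ i : Fin (k + r), k ≤ (i : ℕ) → v i = 0} ↔
        (E (g : Matrix (Fin (k + r)) (Fin (k + r)) F)).toBlocks₂₁ = 0 := by
    intro g
    rw [Cfsg.Agent.Lib.Forms.mem_stabilizing_iff_mapsTo]
    constructor
    · intro h
      ext i j
      have := h (Pi.single (e (Sum.inl j)) 1) (fun l hl => Pi.single_eq_of_ne (fun he => by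
        rw [he] at hl; simp [e] at hl; omega) _) (e (Sum.inr i)) (by simp [e])
      simpa [Matrix.toBlocks₂₁, hE, Matrix.mulVec_single] using this
    · intro h v hv l hl
      obtain ⟨(i | i), rfl⟩ := e.surjective l
      · simp [e] at hl; omega
      show ((g : Matrix (Fin (k + r)) (Fin (k + r)) F).mulVec v) (e (Sum.inr i)) = 0
      rw [Matrix.mulVec, dotProduct, ← e.sum_comp, Fintype.sum_sum_type]
      have h1 : ∀ j : Fin r, v (e (Sum.inr j)) = 0 := fun j => hv _ (by simp [e])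
      have h2 : ∀ j : Fin k, (g : Matrix (Fin (k + r)) (Fin (k + r)) F) (e (Sum.inr i)) (e (Sum.inl j)) = 0 :=
        fun j => by
          have := congrFun (congrFun h i) j
          simpa [Matrix.toBlocks₂₁, hE] using this
      simp [h1, h2]
  let U := {M : (Matrix (Fin k ⊕ Fin r) (Fin k ⊕ Fin r) F)ˣ // (M : Matrix (Fin k ⊕ Fin r) (Fin k ⊕ Fin r) F).toBlocks₂₁ = 0}
  have h1 : Nat.card ↥(Cfsg.stabilizing (Cfsg.glToMat (Fin (k + r)) F)
      {v : Fin (k + r) → F | ∀ i : Fin (k + r), k ≤ (i : ℕ) → v i = 0}) = Nat.card U :=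
    Nat.card_congr ((Units.mapEquiv E.toMulEquiv).toEquiv.subtypeEquiv fun g => by
      rw [hmem g]; rfl)
  have hinv : ∀ M : U, IsUnit (M.1 : Matrix (Fin k ⊕ Fin r) (Fin k ⊕ Fin r) F).toBlocks₁₁.det ∧
      IsUnit (M.1 : Matrix (Fin k ⊕ Fin r) (Fin k ⊕ Fin r) F).toBlocks₂₂.det := by
    rintro ⟨M, hM⟩
    have h : IsUnit (M : Matrix (Fin k ⊕ Fin r) (Fin k ⊕ Fin r) F).det := (Matrix.isUnit_iff_isUnit_det (M : Matrix (Fin k ⊕ Fin r) (Fin k ⊕ Fin r) F)).1 M.isUnit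
    rw [← Matrix.fromBlocks_toBlocks (M : Matrix (Fin k ⊕ Fin r) (Fin k ⊕ Fin r) F), hM, Matrix.det_fromBlocks_zero₂₁] at h
    exact IsUnit.mul_iff.1 h
  let mkU : GL (Fin k) F × GL (Fin r) F × Matrix (Fin k) (Fin r) F → U := fun p =>
    ⟨Matrix.GeneralLinearGroup.mk'' (Matrix.fromBlocks (p.1 : Matrix (Fin k) (Fin k) F) p.2.2 0 (p.2.1 : Matrix (Fin r) (Fin r) F)) (by
      rw [Matrix.det_fromBlocks_zero₂₁]
      exact ((Matrix.isUnit_iff_isUnit_det _).1 p.1.isUnit).mul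
        ((Matrix.isUnit_iff_isUnit_det _).1 p.2.1.isUnit)), by
      simp [Matrix.GeneralLinearGroup.mk'', Matrix.nonsingInvUnit]⟩
  have hval : ∀ p, ((mkU p).1 : Matrix (Fin k ⊕ Fin r) (Fin k ⊕ Fin r) F) =
      Matrix.fromBlocks (p.1 : Matrix (Fin k) (Fin k) F) p.2.2 0 (p.2.1 : Matrix (Fin r) (Fin r) F) :=
    fun p => rfl
  have hb : Function.Bijective mkU := by
    refine ⟨fun p p' hp => ?_, fun M => ?_⟩
    · have h := congrArg (fun M : U => (M.1 : Matrix (Fin k ⊕ Fin r) (Fin k ⊕ Fin r) F)) hp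
      simp only [hval, Matrix.fromBlocks_inj] at h
      exact Prod.ext (Units.ext h.1) (Prod.ext (Units.ext h.2.2.2) h.2.1)
    · refine ⟨(Matrix.GeneralLinearGroup.mk'' _ (hinv M).1, Matrix.GeneralLinearGroup.mk'' _ (hinv M).2,
        (M.1 : Matrix (Fin k ⊕ Fin r) (Fin k ⊕ Fin r) F).toBlocks₁₂), Subtype.ext (Units.ext ?_)⟩
      rw [hval]
      conv_rhs => rw [← Matrix.fromBlocks_toBlocks (M.1 : Matrix (Fin k ⊕ Fin r) (Fin k ⊕ Fin r) F), M.2]
      rfl
  rw [h1, ← Nat.card_eq_of_bijective mkU hb, Nat.card_prod, Nat.card_prod, Matrix.card_GL_field,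
    Matrix.card_GL_field]
  have hM : Nat.card (Matrix (Fin k) (Fin r) F) = Fintype.card F ^ (k * r) := by
    change Nat.card (Fin k → Fin r → F) = _
    rw [Nat.card_eq_fintype_card, Fintype.card_fun, Fintype.card_fun, ← pow_mul]
    simp [mul_comm]
  rw [hM]
  ring

end Cfsg.Agent.S0771
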