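import Cfsg.Statements.S0772
import Cfsg.Agent.Lib.Forms.Parabolic

set_option autoImplicit false
open Cfsg Cfsg.Agent.Lib.Forms

namespace Cfsg.Agent.S0772

/-- Maximal parabolics are maximal: over a finite field, for 0 < k < n the stabiliser in GL_n of the span of the first k coordinate vectors is a maximal proper subgroup. -/
theorem result {F : Type*} [Field F] [Finite F] (n k : ℕ) (hk0 : 0 < k) (hkn : k < n) : IsCoatom (Cfsg.stabilizing (Cfsg.glToMat (Fin n) F) {v : Fin n → F | ∀ i : Fin n, k ≤ (i : ℕ) → v i = 0}) := by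
  classical
  haveI := Fintype.ofFinite F
  set W : Submodule F (Fin n → F) :=
    { carrier := {v | ∀ i : Fin n, k ≤ (i : ℕ) → v i = 0}
      add_mem' := fun ha hb i hi => by simp [ha i hi, hb i hi]
      zero_mem' := fun i _ => rfl
      smul_mem' := fun c a ha i hi => by simp [ha i hi] } with hWdef
  show IsCoatom (Geo.subspaceStabilizer W)
  have h0 : W ≠ ⊥ := by
    intro h
    have hmem : (Pi.single ⟨0, by omega⟩ 1 : Fin n → F) ∈ W := by
      intro i hi
      have : i ≠ ⟨0, by omega⟩ := by
        intro e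
        rw [e] at hi
        simp at hi
        omega
      simp [this]
    rw [h, Submodule.mem_bot] at hmem
    simpa using congrFun hmem ⟨0, by omega⟩
  have h1 : W ≠ ⊤ := by
    intro h
    have hmem : (Pi.single ⟨n - 1, by omega⟩ 1 : Fin n → F) ∈ W := h ▸ trivial
    simpa using hmem ⟨n - 1, by omega⟩ (by simp; omega)
  refine ⟨fun h => ?_, fun M hM => ?_⟩
  · obtain ⟨g, -, hg⟩ := exists_tv_notMem_stabilizer h0 h1
    exact hg (h ▸ Subgroup.mem_top g)
  · obtain ⟨g, hg, hgn⟩ := SetLike.exists_of_lt hM
    have hSL := specialLinear_le_of_stabilizer M (inf_le_left.trans hM.le) hg hgn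
    refine eq_top_iff.2 fun x _ => ?_
    set d : Fin n → F := Function.update 1 ⟨0, by omega⟩ ((x : Matrix (Fin n) (Fin n) F).det)
      with hd
    have hdet : (Matrix.diagonal d).det = (x : Matrix (Fin n) (Fin n) F).det := by
      rw [Matrix.det_diagonal, hd, Finset.prod_update_of_mem (Finset.mem_univ _)]
      simp
    obtain ⟨D, hD⟩ : IsUnit (Matrix.diagonal d) := by
      rw [Matrix.isUnit_iff_isUnit_det, hdet]
      exact (Matrix.isUnit_iff_isUnit_det _).1 x.isUnit
    have hDM : D ∈ M := hM.le (mem_subspaceStabilizer.2 fun w hw i hi => by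
      rw [hD, Matrix.mulVec_diagonal, hw i hi, mul_zero])
    have : x * D⁻¹ ∈ M := hSL (by
      rw [Geo.specialLinear, MonoidHom.mem_ker, map_mul, map_inv, mul_inv_eq_one]
      apply Units.ext
      simp [hD, hdet])
    simpa using M.mul_mem this hDM

end Cfsg.Agent.S0772
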