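import Cfsg.Statements.S0773
import Cfsg.Agent.Lib.Forms.StabBasic

set_option autoImplicit false
open Cfsg

namespace Cfsg.Agent.S0773

/-- The stabilisers in GL_n(F), F finite, of the coordinate subspaces of dimensions k and n − k are isomorphic groups, but when 2k ≠ n (and 0 < k < n) no element of GL_n conjugates one onto the other. -/
theorem result {F : Type*} [Field F] [Finite F] (n k : ℕ) (hk0 : 0 < k) (hkn : k < n) (h2 : 2 * k ≠ n) : Nonempty (↥(Cfsg.stabilizing (Cfsg.glToMat (Fin n) F) {v : Fin n → F | ∀ i : Fin n, k ≤ (i : ℕ) → v i = 0}) ≃* ↥(Cfsg.stabilizing (Cfsg.glToMat (Fin n) F) {v : Fin n → F | ∀ i : Fin n, n - k ≤ (i : ℕ) → v i = 0})) ∧ ∀ g : Matrix.GeneralLinearGroup (Fin n) F, (Cfsg.stabilizing (Cfsg.glToMat (Fin n) F) {v : Fin n → F | ∀ i : Fin n, k ≤ (i : ℕ) → v i = 0}).map (MulAut.conj g).toMonoidHom ≠ Cfsg.stabilizing (Cfsg.glToMat (Fin n) F) {v : Fin n → F | ∀ i : Fin n, n - k ≤ (i : ℕ) → v i = 0} := by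
  classical
  let W : ℕ → Set (Fin n → F) := fun a => {v | ∀ i : Fin n, a ≤ (i : ℕ) → v i = 0}
  have mem : ∀ (a : ℕ) (g : Matrix.GeneralLinearGroup (Fin n) F),
      g ∈ Cfsg.stabilizing (Cfsg.glToMat (Fin n) F) (W a) ↔
        ∀ i j : Fin n, a ≤ (i : ℕ) → (j : ℕ) < a → (g : Matrix (Fin n) (Fin n) F) i j = 0 := by
    intro a g
    rw [Cfsg.Agent.Lib.Forms.mem_stabilizing_iff_mapsTo]
    constructor
    · intro h i j hi hj
      have := h (Pi.single j 1) (fun l hl => Pi.single_eq_of_ne (fun he => by subst he; omega) _) i hi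
      simpa [Matrix.mulVec_single] using this
    · intro h v hv i hi
      show ((g : Matrix (Fin n) (Fin n) F).mulVec v) i = 0
      rw [Matrix.mulVec, dotProduct]
      refine Finset.sum_eq_zero fun j _ => ?_
      rcases Nat.lt_or_ge (j : ℕ) a with hj | hj
      · show (g : Matrix (Fin n) (Fin n) F) i j * v j = 0
        rw [h i j hi hj, zero_mul]
      · show (g : Matrix (Fin n) (Fin n) F) i j * v j = 0
        rw [hv j hj, mul_zero]
  constructor
  · let φ : Matrix.GeneralLinearGroup (Fin n) F → Matrix.GeneralLinearGroup (Fin n) F := fun g =>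
      ⟨((g⁻¹ : Matrix.GeneralLinearGroup (Fin n) F) : Matrix (Fin n) (Fin n) F).transpose.submatrix
          Fin.revPerm Fin.revPerm,
        (g : Matrix (Fin n) (Fin n) F).transpose.submatrix Fin.revPerm Fin.revPerm,
        by rw [Matrix.submatrix_mul_equiv, ← Matrix.transpose_mul, ← Units.val_mul, mul_inv_cancel,
          Units.val_one, Matrix.transpose_one, Matrix.submatrix_one_equiv],
        by rw [Matrix.submatrix_mul_equiv, ← Matrix.transpose_mul, ← Units.val_mul, inv_mul_cancel,
          Units.val_one, Matrix.transpose_one, Matrix.submatrix_one_equiv]⟩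
    have hinvol : ∀ g, φ (φ g) = g := fun g => by
      ext i j
      simp [φ]
    have hmul : ∀ g h, φ (g * h) = φ g * φ h := fun g h => Units.ext (by
      show Matrix.submatrix _ _ _ = Matrix.submatrix _ _ _ * Matrix.submatrix _ _ _
      rw [Matrix.submatrix_mul_equiv, ← Matrix.transpose_mul, mul_inv_rev, Units.val_mul])
    have hmaps : ∀ a b : ℕ, a + b = n → ∀ g, g ∈ Cfsg.stabilizing (Cfsg.glToMat (Fin n) F) (W a) →
        φ g ∈ Cfsg.stabilizing (Cfsg.glToMat (Fin n) F) (W b) := by
      intro a b hab g hg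
      rw [mem] at hg ⊢
      intro i j hi hj
      have h' := (mem a g⁻¹).1 (inv_mem ((mem a g).2 hg)) j.rev i.rev
        (by simp [Fin.val_rev]; omega) (by simp [Fin.val_rev]; omega)
      exact h'
    exact ⟨{ toFun := fun g => ⟨φ g.1, hmaps k (n - k) (by omega) g.1 g.2⟩
             invFun := fun g => ⟨φ g.1, hmaps (n - k) k (by omega) g.1 g.2⟩
             left_inv := fun g => Subtype.ext (hinvol _)
             right_inv := fun g => Subtype.ext (hinvol _)
             map_mul' := fun g h => Subtype.ext (hmul _ _) }⟩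
  intro g heq
  let L : ℕ → Submodule F (Fin n → F) := fun a =>
    { carrier := W a
      add_mem' := fun hu hv i hi => by simp [hu i hi, hv i hi]
      zero_mem' := fun i _ => rfl
      smul_mem' := fun c v hv i hi => by simp [hv i hi] }
  set U := (L k).map (Matrix.toLin' (g : Matrix (Fin n) (Fin n) F)) with hUdef
  have hcard : ∀ a, a ≤ n → Nat.card (L a) = Nat.card F ^ a := by
    intro a ha
    let e : L a ≃ (Fin a → F) :=
      { toFun := fun v i => v.1 ⟨i, by omega⟩
        invFun := fun u => ⟨fun i => if h : (i : ℕ) < a then u ⟨i, h⟩ else 0,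
          fun i hi => dif_neg (by omega)⟩
        left_inv := fun v => Subtype.ext (funext fun i => by
          by_cases h : (i : ℕ) < a
          · simp [h]
          · simp [h]; exact (v.2 i (by omega)).symm)
        right_inv := fun u => funext fun i => by simp }
    rw [Nat.card_congr e, Nat.card_fun, Nat.card_eq_fintype_card (α := Fin a), Fintype.card_fin]
  have hginj : Function.Injective (Matrix.toLin' (g : Matrix (Fin n) (Fin n) F)) := by
    intro x y hxy
    have := congrArg (fun w => ((g⁻¹ : Matrix.GeneralLinearGroup (Fin n) F) : Matrix (Fin n) (Fin n) F).mulVec w) hxy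
    simpa [Matrix.toLin'_apply, Matrix.mulVec_mulVec, ← Units.val_mul] using this
  have hUcard : Nat.card U = Nat.card F ^ k := by
    rw [← hcard k hkn.le]
    exact (Nat.card_congr ((L k).equivMapOfInjective _ hginj).toEquiv).symm
  have hUinv : ∀ h ∈ Cfsg.stabilizing (Cfsg.glToMat (Fin n) F) (W (n - k)), ∀ u ∈ U,
      (h : Matrix (Fin n) (Fin n) F).mulVec u ∈ U := by
    intro h hh u hu
    rw [← heq] at hh
    obtain ⟨p, hp, rfl⟩ := hh
    obtain ⟨w, hw, rfl⟩ := hu
    refine ⟨(p : Matrix (Fin n) (Fin n) F).mulVec w, (hp w).1 hw, ?_⟩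
    show Matrix.toLin' (g : Matrix (Fin n) (Fin n) F) _ =
      (((g * p * g⁻¹ : Matrix.GeneralLinearGroup (Fin n) F)) : Matrix (Fin n) (Fin n) F).mulVec _
    rw [Matrix.toLin'_apply, Matrix.toLin'_apply, Matrix.mulVec_mulVec, Matrix.mulVec_mulVec,
      ← Units.val_mul, ← Units.val_mul, inv_mul_cancel_right]
  have hel : ∀ i l : Fin n, i ≠ l → ((i : ℕ) < n - k ∨ n - k ≤ (l : ℕ)) → ∀ u ∈ U, u l ≠ 0 →
      (Pi.single i 1 : Fin n → F) ∈ U := by
    intro i l hil hor u hu hul
    let t : Matrix.GeneralLinearGroup (Fin n) F :=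
      Matrix.GeneralLinearGroup.mk'' (Matrix.transvection i l 1) (by
        rw [Matrix.det_transvection_of_ne i l hil]; exact isUnit_one)
    have ht : t ∈ Cfsg.stabilizing (Cfsg.glToMat (Fin n) F) (W (n - k)) := by
      rw [mem]
      intro a b ha hb
      show Matrix.transvection i l (1 : F) a b = 0
      rw [Matrix.transvection, Matrix.add_apply, Matrix.one_apply_ne (by intro e; subst e; omega),
        Matrix.single_apply, if_neg, add_zero]
      rintro ⟨rfl, rfl⟩; omega
    have := U.sub_mem (hUinv t ht u hu) hu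
    have hval : (t : Matrix (Fin n) (Fin n) F).mulVec u - u = u l • (Pi.single i 1 : Fin n → F) := by
      show (Matrix.transvection i l (1 : F)).mulVec u - u = _
      rw [Matrix.transvection, Matrix.add_mulVec, Matrix.one_mulVec, add_sub_cancel_left,
        Matrix.single_mulVec]
      ext a
      simp [Pi.single_apply, Function.update_apply, mul_comm]
    rw [hval] at this
    simpa [hul] using U.smul_mem (u l)⁻¹ this
  have hspan : ∀ (S : Finset (Fin n)), (∀ i ∈ S, (Pi.single i 1 : Fin n → F) ∈ U) → ∀ v : Fin n → F,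
      (∀ i ∉ S, v i = 0) → v ∈ U := by
    intro S hS v hv
    have : v = ∑ i ∈ S, v i • (Pi.single i 1 : Fin n → F) := by
      ext a
      rcases em (a ∈ S) with h | h
      · simp [Finset.sum_apply, Pi.single_apply, h]
      · simp [Finset.sum_apply, Pi.single_apply, h, hv a h]
    rw [this]
    exact U.sum_mem fun i hi => U.smul_mem _ (hS i hi)
  have hq : 1 < Nat.card F := Finite.one_lt_card
  -- no vector of `U` leaves the coordinate subspace
  have hUW : ∀ u ∈ U, ∀ l : Fin n, n - k ≤ (l : ℕ) → u l = 0 := by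
    intro u hu l hl
    by_contra hul
    have hne : ∀ i ≠ l, (Pi.single i 1 : Fin n → F) ∈ U := fun i hi => hel i l hi (Or.inr hl) u hu hul
    have htop : ∀ v, v ∈ U := by
      intro v
      have h2' : v - (v l * (u l)⁻¹) • u ∈ U :=
        hspan (Finset.univ.erase l) (fun i hi => hne i (Finset.ne_of_mem_erase hi)) _ (fun i hi => by
          have : i = l := by simpa using hi
          subst this
          simp [hul])
      simpa using U.add_mem h2' (U.smul_mem (v l * (u l)⁻¹) hu)
    have : Nat.card U = Nat.card F ^ n := by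
      rw [← hcard n le_rfl]
      exact Nat.card_congr (Equiv.subtypeEquivRight fun v => iff_of_true (htop v) (fun i hi => absurd i.isLt (by omega)))
    rw [hUcard] at this
    exact hkn.ne (Nat.pow_right_injective hq this)
  obtain ⟨u, hu, hu0⟩ : ∃ u ∈ U, u ≠ 0 := by
    refine Submodule.exists_mem_ne_zero_of_ne_bot fun h => ?_
    have h1 := hUcard
    rw [h] at h1
    simp at h1
    exact absurd h1.symm (Nat.one_lt_pow hk0.ne' hq).ne'
  obtain ⟨l, hul⟩ := Function.ne_iff.1 hu0
  have hl : (l : ℕ) < n - k := by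
    by_contra h
    exact hul (hUW u hu l (by omega))
  have hWU : ∀ v ∈ L (n - k), v ∈ U := by
    intro v hv
    have h2' : v - (v l * (u l)⁻¹) • u ∈ U :=
      hspan ((Finset.univ.filter fun i : Fin n => (i : ℕ) < n - k).erase l)
        (fun i hi => by
          simp only [Finset.mem_erase, Finset.mem_filter] at hi
          exact hel i l hi.1 (Or.inl hi.2.2) u hu hul)
        _ (fun i hi => by
          rcases eq_or_ne i l with rfl | hil
          · simp [show u i ≠ 0 from hul]
          · have hi' : n - k ≤ (i : ℕ) := by simp [hil] at hi; omega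
            simp [hv i hi', hUW u hu i hi'])
    simpa using U.add_mem h2' (U.smul_mem (v l * (u l)⁻¹) hu)
  have : Nat.card U = Nat.card F ^ (n - k) := by
    rw [← hcard (n - k) (by omega)]
    exact Nat.card_congr (Equiv.subtypeEquivRight fun v => ⟨fun h i hi => hUW v h i hi, hWU v⟩)
  rw [hUcard] at this
  exact h2 (by have := Nat.pow_right_injective hq this; omega)

end Cfsg.Agent.S0773
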