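import Cfsg.Statements.S0774
import Cfsg.Agent.Lib.Forms.SympTI
import Cfsg.Agent.S0769

set_option autoImplicit false
open Cfsg

namespace Cfsg.Agent.S0774

/-- Borel subgroup of the symplectic group: the elements of Sp_2m(q) stabilising each of the totally isotropic coordinate subspaces ⟨e_0, ..., e_k⟩ (k < m) form a subgroup of order q^(m²) (q − 1)^m. -/
theorem result {F : Type*} [Field F] [Fintype F] {q : ℕ} (hF : Fintype.card F = q) (m : ℕ) : Nat.card ↥(⨅ k : Fin m, Cfsg.stabilizing (Cfsg.spToMat m F) {v : Fin m ⊕ Fin m → F | (∀ i : Fin m, (k : ℕ) < (i : ℕ) → v (Sum.inl i) = 0) ∧ ∀ i : Fin m, v (Sum.inr i) = 0}) = q ^ (m ^ 2) * (q - 1) ^ m := by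
  classical
  subst hF
  let e : Fin m → (Fin m ⊕ Fin m → F) := fun i => Pi.single (Sum.inl i) 1
  have he : ∀ i j, Cfsg.sympForm m F (e i) (e j) = 0 := fun i j => by
    simp [e, Cfsg.sympForm, Matrix.J, Matrix.mulVec_single, dotProduct, Matrix.fromBlocks]
  have hli : LinearIndependent F e :=
    (Pi.linearIndependent_single_one (Fin m ⊕ Fin m) F).comp Sum.inl Sum.inl_injective
  let u : Cfsg.Agent.Lib.Forms.TIFrame (Cfsg.sympForm m F) m := ⟨e, hli, he⟩
  let flag : Fin m → Set (Fin m ⊕ Fin m → F) := fun k =>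
    {v | (∀ i : Fin m, (k : ℕ) < (i : ℕ) → v (Sum.inl i) = 0) ∧ ∀ i : Fin m, v (Sum.inr i) = 0}
  set S := ⨅ k : Fin m, Cfsg.stabilizing (Cfsg.spToMat m F) (flag k) with hSdef
  have hmem : ∀ g : Matrix.symplecticGroup (Fin m) F,
      g ∈ S ↔ ∀ k, (g : Matrix (Fin m ⊕ Fin m) (Fin m ⊕ Fin m) F).mulVec (e k) ∈ flag k := by
    intro g
    rw [hSdef, Subgroup.mem_iInf]
    refine ⟨fun h k => (h k (e k)).1 ⟨fun i hi => by simp [e, Pi.single_apply]; intro h; subst h; omega,
      fun i => by simp [e]⟩, fun h k => ?_⟩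
    rw [Cfsg.Agent.Lib.Forms.mem_stabilizing_iff_mapsTo]
    intro v hv
    have hv' : v = ∑ i : Fin m, v (Sum.inl i) • e i := by
      ext (a | a)
      · simp [e, Finset.sum_apply, Pi.single_apply]
      · simp [e, Finset.sum_apply, hv.2 a]
    have hterm : ∀ i : Fin m, v (Sum.inl i) •
        (g : Matrix (Fin m ⊕ Fin m) (Fin m ⊕ Fin m) F).mulVec (e i) ∈ flag k := fun i => by
      rcases Nat.lt_or_ge (k : ℕ) (i : ℕ) with hki | hki
      · rw [hv.1 i hki, zero_smul]
        exact ⟨fun _ _ => rfl, fun _ => rfl⟩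
      · exact ⟨fun j hj => by rw [Pi.smul_apply, (h i).1 j (by omega), smul_zero],
          fun j => by rw [Pi.smul_apply, (h i).2 j, smul_zero]⟩
    show (g : Matrix (Fin m ⊕ Fin m) (Fin m ⊕ Fin m) F).mulVec v ∈ flag k
    rw [hv', Matrix.mulVec_sum]
    simp only [Matrix.mulVec_smul]
    exact ⟨fun j hj => by
        rw [Finset.sum_apply]; exact Finset.sum_eq_zero fun i _ => (hterm i).1 j hj,
      fun j => by rw [Finset.sum_apply]; exact Finset.sum_eq_zero fun i _ => (hterm i).2 j⟩
  have hsub : Cfsg.Agent.Lib.Forms.fixFrame u.1 ≤ S := fun g hg => (hmem g).2 fun k => by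
    rw [show (g : Matrix (Fin m ⊕ Fin m) (Fin m ⊕ Fin m) F).mulVec (e k) = e k from hg k]
    exact ⟨fun i hi => by simp [e, Pi.single_apply]; intro h; subst h; omega, fun i => by simp [e]⟩
  let T := {M : Matrix.GeneralLinearGroup (Fin m) F // ∀ i j : Fin m, i < j →
    (M : Matrix (Fin m) (Fin m) F) i j = 0}
  have hrow : ∀ g ∈ S, IsUnit (Matrix.of fun k i =>
      ((g : Matrix.symplecticGroup (Fin m) F) : Matrix (Fin m ⊕ Fin m) (Fin m ⊕ Fin m) F).mulVec (e k)
        (Sum.inl i)) := by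
    intro g hg
    rw [← Matrix.linearIndependent_rows_iff_isUnit, Fintype.linearIndependent_iff]
    intro c hc
    refine Fintype.linearIndependent_iff.1 hli c ?_
    have hinj : Function.Injective fun x => (g : Matrix (Fin m ⊕ Fin m) (Fin m ⊕ Fin m) F).mulVec x := by
      intro x y hxy
      have := congrArg (fun w => ((g⁻¹ : Matrix.symplecticGroup (Fin m) F) :
        Matrix (Fin m ⊕ Fin m) (Fin m ⊕ Fin m) F).mulVec w) hxy
      simpa [Matrix.mulVec_mulVec, ← Submonoid.coe_mul] using this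
    apply hinj
    show (g : Matrix (Fin m ⊕ Fin m) (Fin m ⊕ Fin m) F).mulVec _ =
      (g : Matrix (Fin m ⊕ Fin m) (Fin m ⊕ Fin m) F).mulVec 0
    rw [Matrix.mulVec_zero, Matrix.mulVec_sum]
    ext (a | a)
    · simpa [Matrix.row, Matrix.mulVec_smul, Finset.sum_apply, mul_comm] using congrFun hc a
    · rw [Finset.sum_apply]
      refine Finset.sum_eq_zero fun i _ => ?_
      rw [Matrix.mulVec_smul, Pi.smul_apply, ((hmem g).1 hg i).2 a, smul_zero]
  let f : S → T := fun g => ⟨(hrow g.1 g.2).unit, fun i j hij => by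
    rw [IsUnit.unit_spec]; exact ((hmem g.1).1 g.2 i).1 j (by exact_mod_cast hij)⟩
  have h1 := Cfsg.Agent.Lib.Forms.card_sub_eq_mul u.1 S hsub T f (fun M => by
      let v : Fin m → (Fin m ⊕ Fin m → F) := fun k => Sum.elim ((M.1 : Matrix (Fin m) (Fin m) F) k) 0
      have hv0 : ∀ i j, Cfsg.sympForm m F (v i) (v j) = 0 := fun i j => by
        simp [v, Cfsg.sympForm, Matrix.J, Matrix.mulVec, dotProduct, Matrix.fromBlocks,
          Fintype.sum_sum_type]
      have hvli : LinearIndependent F v := by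
        rw [Fintype.linearIndependent_iff]
        intro c hc
        refine Fintype.linearIndependent_iff.1
          (Matrix.linearIndependent_rows_iff_isUnit.2 M.1.isUnit) c ?_
        ext a
        simpa [v, Finset.sum_apply, Matrix.row] using congrFun hc (Sum.inl a)
      obtain ⟨g, hg⟩ := Cfsg.Agent.Lib.Forms.exists_sp_frame u ⟨v, hvli, hv0⟩
      have hg' : ∀ k, (g : Matrix (Fin m ⊕ Fin m) (Fin m ⊕ Fin m) F).mulVec (e k) = v k := hg
      have hgS : g ∈ S := (hmem g).2 fun k => by
        rw [hg' k]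
        exact ⟨fun i hi => by simpa [v] using M.2 k i (by exact_mod_cast hi), fun i => by simp [v]⟩
      refine ⟨⟨g, hgS⟩, Subtype.ext (Units.ext ?_)⟩
      rw [IsUnit.unit_spec]
      ext a b
      simp [hg', v])
    (fun g h => ⟨fun hgh i => by
        have h' := congrArg (fun M : T => (M.1 : Matrix (Fin m) (Fin m) F) i) hgh
        simp only [f, IsUnit.unit_spec] at h'
        ext (a | a)
        · exact congrFun h' a
        · exact (((hmem g.1).1 g.2 i).2 a).trans (((hmem h.1).1 h.2 i).2 a).symm,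
      fun hgh => Subtype.ext (Units.ext (by
        simp only [f, IsUnit.unit_spec]
        ext a b
        exact congrFun (hgh a) (Sum.inl b)))⟩)
  have hT := Cfsg.Agent.S0769.result (F := F) rfl m
  change Nat.card T = _ at hT
  rw [hT] at h1
  have h2 := Cfsg.Agent.Lib.Forms.card_sp_eq_frame_mul u
  have hpos := Cfsg.Agent.Lib.Forms.card_frame_pos u
  rw [Cfsg.Agent.Lib.Forms.card_symp_frame] at h2 hpos
  have key : ∀ k : ℕ, (∏ i ∈ Finset.range k,
      (Fintype.card F ^ (2 * k - i) - Fintype.card F ^ i)) *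
      Fintype.card F ^ (k * (k + 1) / 2) =
      Fintype.card F ^ (k ^ 2) * ∏ i ∈ Finset.range k, (Fintype.card F ^ (2 * (i + 1)) - 1) := by
    intro k
    have e1 : ∀ i ∈ Finset.range k, Fintype.card F ^ (2 * k - i) - Fintype.card F ^ i =
        Fintype.card F ^ i * (Fintype.card F ^ (2 * (k - 1 - i + 1)) - 1) := fun i hi => by
      rw [Finset.mem_range] at hi
      rw [Nat.mul_sub_one, ← pow_add]
      congr 2
      omega
    rw [Finset.prod_congr rfl e1, Finset.prod_mul_distrib,
      Finset.prod_range_reflect (fun i => Fintype.card F ^ (2 * (i + 1)) - 1) k,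
      Finset.prod_pow_eq_pow_sum, mul_right_comm, ← pow_add]
    congr 2
    have hs := Finset.sum_range_id_mul_two k
    have h3 : (∑ i ∈ Finset.range k, i) * 2 + k * 2 = k * (k + 1) := by
      rw [hs]; cases k with
      | zero => rfl
      | succ k => simp only [Nat.add_sub_cancel]; ring
    have h4 : k * (k + 1) / 2 = (∑ i ∈ Finset.range k, i) + k := by
      rw [← h3, ← add_mul, Nat.mul_div_cancel _ (by norm_num : 0 < 2)]
    rw [h4, sq]
    nlinarith [h3]
  have h3 := Cfsg.Agent.Lib.Classical.card_symplecticGroup (F := F) m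
  rw [← key m] at h3
  rw [h3] at h2
  rw [h1, ← Nat.eq_of_mul_eq_mul_left hpos h2, mul_right_comm, ← pow_add]
  congr 2
  have hs : ∀ k : ℕ, k * (k - 1) / 2 + k * (k + 1) / 2 = k ^ 2 := by
    intro k
    cases k with
    | zero => rfl
    | succ k =>
      have e1 : (k + 1) * (k + 1 + 1) = (k + 1) * k + (k + 1) * 2 := by ring
      rw [e1, Nat.add_mul_div_right _ _ (by norm_num : 0 < 2), Nat.add_sub_cancel]
      have h2' : 2 ∣ (k + 1) * k := (Nat.even_mul_succ_self k).two_dvd.trans (dvd_of_eq (mul_comm _ _))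
      obtain ⟨t, ht⟩ := h2'
      rw [ht, Nat.mul_div_cancel_left _ (by norm_num : 0 < 2)]
      nlinarith
  exact hs m

end Cfsg.Agent.S0774
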