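import Cfsg.Statements.S0775
import Cfsg.Agent.Lib.Forms.SympTI

set_option autoImplicit false
open Cfsg

namespace Cfsg.Agent.S0775

/-- Maximal parabolics of the symplectic group: if W is a k-dimensional subspace of F^(2m) on which the symplectic form vanishes identically, its stabiliser in Sp_2m(q) has order q^(k(k+1)/2 + 2k(m−k)) · |Sp_(2m−2k)(q)| · |GL_k(q)|. -/
theorem result {F : Type*} [Field F] [Fintype F] {q : ℕ} (hF : Fintype.card F = q) (m k : ℕ) (hk : k ≤ m) (W : Submodule F (Fin m ⊕ Fin m → F)) (hWk : Module.finrank F W = k) (hW : ∀ u ∈ W, ∀ v ∈ W, Cfsg.sympForm m F u v = 0) : Nat.card ↥(Cfsg.stabilizing (Cfsg.spToMat m F) (W : Set (Fin m ⊕ Fin m → F))) = q ^ (k * (k + 1) / 2 + 2 * k * (m - k)) * (q ^ ((m - k) ^ 2) * ∏ i ∈ Finset.range (m - k), (q ^ (2 * (i + 1)) - 1)) * ∏ i : Fin k, (q ^ k - q ^ (i : ℕ)) := by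
  classical
  subst hF
  let b := Module.finBasisOfFinrankEq F W hWk
  let u : Cfsg.Agent.Lib.Forms.TIFrame (Cfsg.sympForm m F) k :=
    ⟨fun i => (b i : Fin m ⊕ Fin m → F), b.linearIndependent.map' W.subtype W.ker_subtype,
      fun i j => hW _ (b i).2 _ (b j).2⟩
  set S := Cfsg.stabilizing (Cfsg.spToMat m F) (W : Set (Fin m ⊕ Fin m → F)) with hS
  have hsub : Cfsg.Agent.Lib.Forms.fixFrame u.1 ≤ S := by
    intro g hg
    rw [hS, Cfsg.Agent.Lib.Forms.mem_stabilizing_iff_mapsTo]
    intro w hw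
    have hw' : (⟨w, hw⟩ : W) = ∑ i, b.repr ⟨w, hw⟩ i • b i := (b.sum_repr _).symm
    have := congrArg Subtype.val hw'
    simp only [Submodule.coe_sum, Submodule.coe_smul] at this
    show (g : Matrix (Fin m ⊕ Fin m) (Fin m ⊕ Fin m) F).mulVec w ∈ W
    rw [this, Matrix.mulVec_sum]
    refine W.sum_mem fun i _ => ?_
    rw [Matrix.mulVec_smul, hg i]
    exact W.smul_mem _ (b i).2
  let f : S → {s : Fin k → W // LinearIndependent F s} := fun g =>
    ⟨fun i => ⟨((g : Matrix.symplecticGroup (Fin m) F) : Matrix (Fin m ⊕ Fin m) (Fin m ⊕ Fin m) F).mulVec (b i), (g.2 (b i)).1 (b i).2⟩, by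
      refine LinearIndependent.of_comp W.subtype ?_
      refine u.2.1.map' (Matrix.toLin' ((g : Matrix.symplecticGroup (Fin m) F) : Matrix (Fin m ⊕ Fin m) (Fin m ⊕ Fin m) F)) ?_
      rw [LinearMap.ker_eq_bot]
      intro x y hxy
      have := congrArg (fun w => (((g : Matrix.symplecticGroup (Fin m) F)⁻¹ : Matrix.symplecticGroup (Fin m) F) :
        Matrix (Fin m ⊕ Fin m) (Fin m ⊕ Fin m) F).mulVec w) hxy
      simpa [Matrix.toLin'_apply, Matrix.mulVec_mulVec, ← Submonoid.coe_mul] using this⟩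
  have h1 := Cfsg.Agent.Lib.Forms.card_sub_eq_mul u.1 S hsub _ f (fun s => by
      let v : Cfsg.Agent.Lib.Forms.TIFrame (Cfsg.sympForm m F) k :=
        ⟨fun i => (s.1 i : Fin m ⊕ Fin m → F), s.2.map' W.subtype W.ker_subtype,
          fun i j => hW _ (s.1 i).2 _ (s.1 j).2⟩
      obtain ⟨g, hg⟩ := Cfsg.Agent.Lib.Forms.exists_sp_frame u v
      have hgS : g ∈ S := by
        rw [hS, Cfsg.Agent.Lib.Forms.mem_stabilizing_iff_mapsTo]
        intro w hw
        have hw' : (⟨w, hw⟩ : W) = ∑ i, b.repr ⟨w, hw⟩ i • b i := (b.sum_repr _).symm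
        have := congrArg Subtype.val hw'
        simp only [Submodule.coe_sum, Submodule.coe_smul] at this
        show (g : Matrix (Fin m ⊕ Fin m) (Fin m ⊕ Fin m) F).mulVec w ∈ W
        rw [this, Matrix.mulVec_sum]
        refine W.sum_mem fun i _ => ?_
        rw [Matrix.mulVec_smul, show (g : Matrix (Fin m ⊕ Fin m) (Fin m ⊕ Fin m) F).mulVec (b i) = _ from hg i]
        exact W.smul_mem _ (s.1 i).2
      exact ⟨⟨g, hgS⟩, Subtype.ext (funext fun i => Subtype.ext (hg i))⟩)
    (fun g h => ⟨fun e i => congrArg Subtype.val (congrFun (congrArg Subtype.val e) i),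
      fun e => Subtype.ext (funext fun i => Subtype.ext (e i))⟩)
  rw [card_linearIndependent (K := F) (V := W) (by rw [hWk]), hWk] at h1
  have h2 := Cfsg.Agent.Lib.Forms.card_sp_eq_frame_mul u
  have hpos := Cfsg.Agent.Lib.Forms.card_frame_pos u
  rw [Cfsg.Agent.Lib.Forms.card_symp_frame] at h2 hpos
  obtain ⟨j, rfl⟩ : ∃ j, m = j + k := ⟨m - k, by omega⟩
  rw [Nat.add_sub_cancel]
  have key : ∀ k j : ℕ, (∏ i ∈ Finset.range k,
      (Fintype.card F ^ (2 * (j + k) - i) - Fintype.card F ^ i)) *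
      (Fintype.card F ^ (k * (k + 1) / 2 + 2 * k * j) * (Fintype.card F ^ (j ^ 2) *
        ∏ i ∈ Finset.range j, (Fintype.card F ^ (2 * (i + 1)) - 1))) =
      Fintype.card F ^ ((j + k) ^ 2) *
        ∏ i ∈ Finset.range (j + k), (Fintype.card F ^ (2 * (i + 1)) - 1) := by
    intro k
    induction k with
    | zero => intro j; simp
    | succ k ih =>
      intro j
      have ih' := ih (j + 1)
      have e1 : j + 1 + k = j + (k + 1) := by omega
      rw [e1] at ih'
      rw [← ih', Finset.prod_range_succ, Finset.prod_range_succ (n := j)]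
      have e2 : Fintype.card F ^ (2 * (j + (k + 1)) - k) - Fintype.card F ^ k =
          Fintype.card F ^ k * (Fintype.card F ^ (2 * (j + 1)) - 1) := by
        rw [Nat.mul_sub_one, ← pow_add]
        congr 2
        omega
      have e3 : (k + 1) * (k + 1 + 1) / 2 = k * (k + 1) / 2 + (k + 1) := by
        have : (k + 1) * (k + 1 + 1) = k * (k + 1) + (k + 1) * 2 := by ring
        rw [this, Nat.add_mul_div_right _ _ (by norm_num : 0 < 2)]
      rw [e2, e3]
      simp only [pow_add, pow_mul, mul_add, add_mul, add_sq, mul_one, one_mul, one_pow]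
      ring
  have h3 := Cfsg.Agent.Lib.Classical.card_symplecticGroup (F := F) (j + k)
  rw [← key k j] at h3
  rw [h3] at h2
  have hK := Nat.eq_of_mul_eq_mul_left hpos h2
  rw [h1, ← hK]
  ring

end Cfsg.Agent.S0775
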