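import Cfsg.Statements.S0776
import Cfsg.Agent.Lib.Forms.StabProd
import Cfsg.Agent.Lib.Forms.Alternating
import Cfsg.Agent.Lib.Forms.SympStd

set_option autoImplicit false
open Cfsg

namespace Cfsg.Agent.S0776

/-- If W ≤ F^(2m) is a 2k-dimensional subspace on which the symplectic form is non-degenerate, then the stabiliser of W in Sp_2m(F) is isomorphic to Sp_2k(F) × Sp_(2m−2k)(F). -/
theorem result {F : Type*} [Field F] (m k : ℕ) (hk : k ≤ m) (W : Submodule F (Fin m ⊕ Fin m → F)) (hWk : Module.finrank F W = 2 * k) (hW : ∀ u ∈ W, (∀ v ∈ W, Cfsg.sympForm m F u v = 0) → u = 0) : Nonempty (↥(Cfsg.stabilizing (Cfsg.spToMat m F) (W : Set (Fin m ⊕ Fin m → F))) ≃* Matrix.symplecticGroup (Fin k) F × Matrix.symplecticGroup (Fin (m - k)) F) := by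
  classical
  let B := Cfsg.Agent.Lib.Forms.stdB m F
  have hA := Cfsg.Agent.Lib.Forms.stdB_isAlt m (F := F)
  have hB := Cfsg.Agent.Lib.Forms.stdB_nondegenerate m (F := F)
  have hWnd : (B.restrict W).SeparatingLeft := fun u hu => Subtype.ext (hW u u.2 fun v hv => by
    rw [← Cfsg.Agent.Lib.Forms.stdB_apply]; exact hu ⟨v, hv⟩)
  set P := LinearMap.BilinForm.orthogonal B W with hP
  have hPd : Module.finrank F P = 2 * (m - k) := by
    have h0 := LinearMap.BilinForm.finrank_orthogonal hB W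
    rw [hWk, Module.finrank_fintype_fun_eq_card, Fintype.card_sum, Fintype.card_fin] at h0
    change Module.finrank F P = m + m - 2 * k at h0
    omega
  have hdis : Disjoint W P := by
    rw [Submodule.disjoint_def]
    refine fun x hx hx' => hW x hx fun v hv => ?_
    rw [← Cfsg.Agent.Lib.Forms.stdB_apply]
    exact hA.isRefl _ _ (hx' v hv)
  have hc : IsCompl W P := by
    refine ⟨hdis, codisjoint_iff.2 (Submodule.eq_top_of_finrank_eq ?_)⟩
    have h2 := Submodule.finrank_sup_add_finrank_inf_eq W P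
    rw [disjoint_iff.1 hdis, finrank_bot, hWk, hPd] at h2
    rw [Module.finrank_fintype_fun_eq_card, Fintype.card_sum, Fintype.card_fin]
    omega
  have hPnd : (B.restrict P).SeparatingLeft := fun u hu => by
    refine Subtype.ext (hB.1 u fun y => ?_)
    obtain ⟨a, ha, c, hc', rfl⟩ := Submodule.mem_sup.1
      (hc.codisjoint.eq_top ▸ Submodule.mem_top : y ∈ W ⊔ P)
    rw [map_add, hA.isRefl _ _ (u.2 a ha)]
    simpa using hu ⟨c, hc'⟩
  have hsep : ∀ (j : ℕ) (a : Fin j ⊕ Fin j → F), (∀ a', Cfsg.sympForm j F a a' = 0) → a = 0 :=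
    fun j a ha => (Cfsg.Agent.Lib.Forms.stdB_nondegenerate j).1 a fun a' => by
      rw [Cfsg.Agent.Lib.Forms.stdB_apply]; exact ha a'
  obtain ⟨e₁, he₁⟩ := Cfsg.Agent.Lib.Forms.exists_alt_isometry (Cfsg.Agent.Lib.Forms.stdB k F)
    (Cfsg.Agent.Lib.Forms.stdB_isAlt k) (Cfsg.Agent.Lib.Forms.stdB_nondegenerate k).1 (B.restrict W)
    (fun x => hA (x : Fin m ⊕ Fin m → F)) hWnd (by
      rw [hWk, Module.finrank_fintype_fun_eq_card, Fintype.card_sum, Fintype.card_fin]; omega)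
  obtain ⟨e₂, he₂⟩ := Cfsg.Agent.Lib.Forms.exists_alt_isometry (Cfsg.Agent.Lib.Forms.stdB (m - k) F)
    (Cfsg.Agent.Lib.Forms.stdB_isAlt (m - k)) (Cfsg.Agent.Lib.Forms.stdB_nondegenerate (m - k)).1
    (B.restrict P) (fun x => hA (x : Fin m ⊕ Fin m → F)) hPnd (by
      rw [hPd, Module.finrank_fintype_fun_eq_card, Fintype.card_sum, Fintype.card_fin]; omega)
  let E := (e₁.prodCongr e₂).trans (Submodule.prodEquivOfIsCompl W P hc)
  have hiso : ∀ (j : ℕ) (h : Matrix.symplecticGroup (Fin j) F) u v,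
      Cfsg.sympForm j F ((Cfsg.spToMat j F h).mulVec u) ((Cfsg.spToMat j F h).mulVec v) =
        Cfsg.sympForm j F u v := fun j h u v => by
    have := (Cfsg.Agent.Lib.Forms.mem_iso_stdB_iff j (Cfsg.Agent.Lib.Forms.spToGL j F h)).2 h.2 u v
    exact (Cfsg.Agent.Lib.Forms.stdB_apply j _ _).symm.trans
      (this.trans (Cfsg.Agent.Lib.Forms.stdB_apply j _ _))
  have hex : ∀ (j : ℕ) (M : Matrix (Fin j ⊕ Fin j) (Fin j ⊕ Fin j) F),
      (∀ u v, Cfsg.sympForm j F (M.mulVec u) (M.mulVec v) = Cfsg.sympForm j F u v) →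
      ∃ h, Cfsg.spToMat j F h = M := fun j M hM => by
    refine ⟨⟨M, (Cfsg.Agent.Lib.Forms.stdB_iff_matrix j M).1 fun u v => ?_⟩, rfl⟩
    rw [Cfsg.Agent.Lib.Forms.stdB_apply, Cfsg.Agent.Lib.Forms.stdB_apply]
    exact hM u v
  exact Cfsg.Agent.Lib.Forms.stab_equiv_prod (Cfsg.spToMat m F) (Cfsg.spToMat k F)
    (Cfsg.spToMat (m - k) F) Subtype.val_injective Subtype.val_injective Subtype.val_injective
    (Cfsg.sympForm m F) (Cfsg.sympForm k F) (Cfsg.sympForm (m - k) F) (hiso m) (hex m) (hiso k) (hex k)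
    (hiso _) (hex _) (fun a => by simp [Cfsg.sympForm]) (fun a => by simp [Cfsg.sympForm])
    (fun a => by simp [Cfsg.sympForm]) (fun a => by simp [Cfsg.sympForm]) (hsep k) E
    (fun x y => by
      rw [← Cfsg.Agent.Lib.Forms.stdB_apply, ← Cfsg.Agent.Lib.Forms.stdB_apply,
        ← Cfsg.Agent.Lib.Forms.stdB_apply, ← he₁, ← he₂]
      have h12 : B (e₁ x.1 : Fin m ⊕ Fin m → F) (e₂ y.2 : Fin m ⊕ Fin m → F) = 0 :=
        (e₂ y.2).2 _ (e₁ x.1).2
      have h21 : B (e₂ x.2 : Fin m ⊕ Fin m → F) (e₁ y.1 : Fin m ⊕ Fin m → F) = 0 :=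
        hA.isRefl _ _ ((e₂ x.2).2 _ (e₁ y.1).2)
      simp [E, B, h12, h21] at *)
    _ (fun v => by
      obtain ⟨⟨a, b⟩, rfl⟩ := E.surjective v
      rw [E.symm_apply_apply, SetLike.mem_coe]
      simp only [E, LinearEquiv.trans_apply, LinearEquiv.prodCongr_apply,
        Submodule.coe_prodEquivOfIsCompl']
      refine ⟨fun h => ?_, fun h => by subst h; simp⟩
      have : (e₂ b : Fin m ⊕ Fin m → F) ∈ W := by simpa using W.sub_mem h (e₁ a).2
      have := Submodule.disjoint_def.1 hdis _ this (e₂ b).2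
      simpa using this)

end Cfsg.Agent.S0776
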