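import Cfsg.Statements.S0777
import Cfsg.Agent.Lib.Forms.StabBasic

set_option autoImplicit false
open Cfsg

namespace Cfsg.Agent.S0777

/-- Weyl group of type C_m: for q ≥ 4 the diagonal matrices of Sp_2m(q) form a torus T ≅ (C_(q−1))^m (the elements stabilising every coordinate axis), and the normaliser of T in Sp_2m(q) has order 2^m · m! · (q − 1)^m. -/
theorem result {F : Type*} [Field F] [Fintype F] {q : ℕ} (hF : Fintype.card F = q) (hq : 4 ≤ q) (m : ℕ) : Nat.card ↥(Subgroup.normalizer (⨅ i : Fin m ⊕ Fin m, Cfsg.stabilizing (Cfsg.spToMat m F) ((Submodule.span F {(Pi.single i (1 : F) : Fin m ⊕ Fin m → F)} : Submodule F (Fin m ⊕ Fin m → F)) : Set (Fin m ⊕ Fin m → F)) : Set (Matrix.symplecticGroup (Fin m) F))) = 2 ^ m * Nat.factorial m * (q - 1) ^ m := by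
  classical
  subst hF
  rw [Set.iInf_eq_iInter, ← Subgroup.coe_iInf]
  set T : Subgroup (Matrix.symplecticGroup (Fin m) F) :=
    ⨅ i : Fin m ⊕ Fin m, Cfsg.stabilizing (Cfsg.spToMat m F)
      ((Submodule.span F {(Pi.single i (1 : F) : Fin m ⊕ Fin m → F)} : Submodule F (Fin m ⊕ Fin m → F)) :
        Set (Fin m ⊕ Fin m → F)) with hT
  let mono : (Fin m ⊕ Fin m → Fin m ⊕ Fin m) → (Fin m ⊕ Fin m → F) →
      Matrix (Fin m ⊕ Fin m) (Fin m ⊕ Fin m) F := fun σ c =>
    Matrix.of fun z x => if z = σ x then c x else 0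
  have hmono : ∀ σ c, mono σ c ∈ Matrix.symplecticGroup (Fin m) F ↔
      ∀ x y, c x * Matrix.J (Fin m) F (σ x) (σ y) * c y = Matrix.J (Fin m) F x y := by
    intro σ c
    rw [SymplecticGroup.mem_iff', ← Matrix.ext_iff]
    refine forall_congr' fun x => forall_congr' fun y => ?_
    rw [Matrix.mul_apply]
    simp [mono, Matrix.mul_apply]
  have hmemT : ∀ t, t ∈ T ↔ ∀ x z, z ≠ x →
      (t : Matrix (Fin m ⊕ Fin m) (Fin m ⊕ Fin m) F) z x = 0 := by
    intro t
    rw [hT, Subgroup.mem_iInf]
    refine forall_congr' fun x => ?_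
    rw [Cfsg.Agent.Lib.Forms.mem_stabilizing_iff_mapsTo]
    constructor
    · intro h z hz
      obtain ⟨c, hc⟩ := Submodule.mem_span_singleton.1 (h _ (Submodule.mem_span_singleton_self _))
      have := congrFun hc z
      simpa [Matrix.mulVec_single, hz] using this.symm
    · intro h v hv
      obtain ⟨c, rfl⟩ := Submodule.mem_span_singleton.1 hv
      refine Submodule.mem_span_singleton.2 ⟨c * (t : Matrix (Fin m ⊕ Fin m) (Fin m ⊕ Fin m) F) x x, ?_⟩
      ext z
      rcases eq_or_ne z x with rfl | hz
      · simp [Matrix.mulVec_smul, Matrix.mulVec_single]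
      · simp [Matrix.mulVec_smul, Matrix.mulVec_single, hz, h z hz]
  -- elements of the torus separate the coordinates
  have hsep : ∀ x z : Fin m ⊕ Fin m, x ≠ z → ∃ t ∈ T,
      (t : Matrix (Fin m ⊕ Fin m) (Fin m ⊕ Fin m) F) x x ≠
        (t : Matrix (Fin m ⊕ Fin m) (Fin m ⊕ Fin m) F) z z := by
    intro x z hxz
    obtain ⟨a, ha0, ha1, ha2⟩ : ∃ a : F, a ≠ 0 ∧ a ≠ 1 ∧ a ≠ -1 := by
      obtain ⟨a, -, ha⟩ := Finset.exists_mem_notMem_of_card_lt_card
        (s := ({0, 1, -1} : Finset F)) (t := Finset.univ) (lt_of_le_of_lt Finset.card_le_three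
          (by rw [Finset.card_univ]; omega))
      simp only [Finset.mem_insert, Finset.mem_singleton, not_or] at ha
      exact ⟨a, ha⟩
    have hainv : a ≠ a⁻¹ := fun e => by
      have : a * a = 1 := by nth_rewrite 2 [e]; exact mul_inv_cancel₀ ha0
      rcases mul_self_eq_one_iff.1 this with h | h <;> contradiction
    have hainv1 : a⁻¹ ≠ 1 := fun e => ha1 (inv_eq_one.1 e)
    let i₀ : Fin m := Sum.elim id id x
    let c : Fin m ⊕ Fin m → F :=
      Sum.elim (fun i => if i = i₀ then a else 1) (fun i => if i = i₀ then a⁻¹ else 1)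
    have hc : mono id c ∈ Matrix.symplecticGroup (Fin m) F := (hmono _ _).2 (by
      rintro (i | i) (j | j) <;> rcases eq_or_ne i j with rfl | hij <;>
        simp [Matrix.J, c, Matrix.one_apply, *] <;> by_cases h : i = i₀ <;> simp [h, ha0])
    refine ⟨⟨_, hc⟩, (hmemT _).2 fun u v huv => if_neg huv, ?_⟩
    show mono id c x x ≠ mono id c z z
    simp only [mono, Matrix.of_apply, id, if_true]
    rcases x with i | i <;> rcases z with j | j
    · have : j ≠ i := fun h => hxz (by rw [h])
      simp [c, i₀, this, ha1]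
    · by_cases h : j = i <;> simp [c, i₀, h, hainv, ha1]
    · by_cases h : j = i <;> simp [c, i₀, h, hainv.symm, hainv1]
    · have : j ≠ i := fun h => hxz (by rw [h])
      simp [c, i₀, this, hainv1]
  -- signed partners
  let σf : Equiv.Perm (Fin m) → (Fin m → Bool) → (Fin m ⊕ Fin m → Fin m ⊕ Fin m) := fun p s =>
    Sum.elim (fun i => if s i then Sum.inr (p i) else Sum.inl (p i))
      (fun i => if s i then Sum.inl (p i) else Sum.inr (p i))
  let cf : (Fin m → Bool) → (Fin m → Fˣ) → (Fin m ⊕ Fin m → F) := fun s a =>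
    Sum.elim (fun i => (a i : F)) (fun i => if s i then -((a i : F))⁻¹ else ((a i : F))⁻¹)
  have hP : ∀ p s a, mono (σf p s) (cf s a) ∈ Matrix.symplecticGroup (Fin m) F := fun p s a =>
    (hmono _ _).2 (by
      rintro (i | i) (j | j) <;> cases hs : s i <;> cases ht : s j <;> by_cases hij : i = j <;>
        simp_all [σf, cf, Matrix.J, Matrix.one_apply])
  let Φ : Equiv.Perm (Fin m) × (Fin m → Bool) × (Fin m → Fˣ) → Matrix.symplecticGroup (Fin m) F :=
    fun d => ⟨mono (σf d.1 d.2.1) (cf d.2.1 d.2.2), hP _ _ _⟩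
  have hcne : ∀ s a x, cf s a x ≠ 0 := by
    intro s a x
    rcases x with i | i <;> simp [cf] <;> split_ifs <;> simp
  have hσinj : ∀ (p : Equiv.Perm (Fin m)) s, Function.Injective (σf p s) := by
    intro p s x y h
    rcases x with i | i <;> rcases y with j | j <;> cases hs : s i <;> cases ht : s j <;>
      simp [σf, hs, ht] at h <;> (try subst h) <;> first | rfl | simp_all
  have hinv : ∀ g : Matrix.symplecticGroup (Fin m) F, Function.Injective fun v =>
      (g : Matrix (Fin m ⊕ Fin m) (Fin m ⊕ Fin m) F).mulVec v := by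
    intro g x y hxy
    have := congrArg (fun w => ((g⁻¹ : Matrix.symplecticGroup (Fin m) F) :
      Matrix (Fin m ⊕ Fin m) (Fin m ⊕ Fin m) F).mulVec w) hxy
    simpa [Matrix.mulVec_mulVec, ← Submonoid.coe_mul] using this
  have hfwd : ∀ d, Φ d ∈ Subgroup.normalizer (T : Set (Matrix.symplecticGroup (Fin m) F)) := by
    intro d
    set g := Φ d
    have hg : ∀ z x, (g : Matrix (Fin m ⊕ Fin m) (Fin m ⊕ Fin m) F) z x =
        if z = σf d.1 d.2.1 x then cf d.2.1 d.2.2 x else 0 := fun z x => rfl
    have hsub : ∀ t ∈ T, g * t * g⁻¹ ∈ T := by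
      intro t ht
      rw [hmemT] at ht ⊢
      intro x z hzx
      obtain ⟨y, rfl⟩ := (Finite.injective_iff_surjective.1 (hσinj d.1 d.2.1)) x
      have h1 : ((g * t * g⁻¹ : Matrix.symplecticGroup (Fin m) F) :
          Matrix (Fin m ⊕ Fin m) (Fin m ⊕ Fin m) F) * (g : Matrix (Fin m ⊕ Fin m) (Fin m ⊕ Fin m) F) =
          (g : Matrix (Fin m ⊕ Fin m) (Fin m ⊕ Fin m) F) * (t : Matrix (Fin m ⊕ Fin m) (Fin m ⊕ Fin m) F) := by
        rw [← Submonoid.coe_mul, inv_mul_cancel_right, Submonoid.coe_mul]
      have h2 := congrFun (congrFun h1 z) y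
      rw [Matrix.mul_apply, Matrix.mul_apply, Finset.sum_eq_single (σf d.1 d.2.1 y) (fun b _ hb => by
          rw [hg, if_neg hb, mul_zero]) (by simp), Finset.sum_eq_single y (fun b _ hb => by
          rw [ht y b hb, mul_zero]) (by simp), hg, hg, if_pos rfl, if_neg hzx, zero_mul] at h2
      exact (mul_eq_zero.1 h2).resolve_right (hcne _ _ _)
    rw [Subgroup.mem_normalizer_iff]
    intro t
    refine ⟨hsub t, fun h => ?_⟩
    let f : T → T := fun u => ⟨g * u.1 * g⁻¹, hsub u.1 u.2⟩
    have hf : Function.Injective f := fun a b e => Subtype.ext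
      (mul_left_cancel (mul_right_cancel (congrArg Subtype.val e)))
    haveI : Finite (Matrix.symplecticGroup (Fin m) F) := Finite.of_injective _ Subtype.val_injective
    obtain ⟨u, hu⟩ := Finite.injective_iff_surjective.1 hf ⟨_, h⟩
    have e : g * u.1 * g⁻¹ = g * t * g⁻¹ := congrArg Subtype.val hu
    exact mul_left_cancel (mul_right_cancel e) ▸ u.2
  have hsurj : ∀ g ∈ Subgroup.normalizer (T : Set (Matrix.symplecticGroup (Fin m) F)), ∃ d, Φ d = g := by
    intro g hg
    set G := (g : Matrix (Fin m ⊕ Fin m) (Fin m ⊕ Fin m) F)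
    have hex : ∀ x, ∃ z, G z x ≠ 0 := fun x => by
      by_contra hcon
      push Not at hcon
      have e : G.mulVec (Pi.single x 1) = G.mulVec 0 := by
        ext z; simp [Matrix.mulVec_single, hcon z]
      simpa using congrFun (hinv g e) x
    choose σ hσ using hex
    have huniq : ∀ x z, z ≠ σ x → G z x = 0 := by
      intro x z hz
      by_contra hzx
      obtain ⟨t, ht, hne⟩ := hsep z (σ x) hz
      have ht' : g⁻¹ * t * g ∈ T := by
        have := (Subgroup.mem_normalizer_iff''.1 hg t).1 ht
        exact this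
      have h1 : (t : Matrix (Fin m ⊕ Fin m) (Fin m ⊕ Fin m) F) * G =
          G * ((g⁻¹ * t * g : Matrix.symplecticGroup (Fin m) F) :
            Matrix (Fin m ⊕ Fin m) (Fin m ⊕ Fin m) F) := by
        rw [← Submonoid.coe_mul, ← Submonoid.coe_mul, mul_assoc g⁻¹, mul_inv_cancel_left]
      have key : ∀ w, G w x ≠ 0 → (t : Matrix (Fin m ⊕ Fin m) (Fin m ⊕ Fin m) F) w w =
          ((g⁻¹ * t * g : Matrix.symplecticGroup (Fin m) F) :
            Matrix (Fin m ⊕ Fin m) (Fin m ⊕ Fin m) F) x x := by
        intro w hw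
        have h2 := congrFun (congrFun h1 w) x
        rw [Matrix.mul_apply, Matrix.mul_apply, Finset.sum_eq_single w (fun b _ hb => by
            rw [(hmemT t).1 ht b w (Ne.symm hb), zero_mul]) (by simp), Finset.sum_eq_single x
            (fun b _ hb => by rw [(hmemT _).1 ht' x b hb, mul_zero]) (by simp), mul_comm (G w x)] at h2
        exact mul_right_cancel₀ hw h2
      exact hne ((key z hzx).trans (key (σ x) (hσ x)).symm)
    have hG : G = mono σ (fun x => G (σ x) x) := by
      ext z x
      simp only [mono, Matrix.of_apply]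
      split_ifs with h
      · rw [h]
      · exact huniq x z h
    have hJ : ∀ x y, G (σ x) x * Matrix.J (Fin m) F (σ x) (σ y) * G (σ y) y = Matrix.J (Fin m) F x y :=
      (hmono σ fun x => G (σ x) x).1 (by rw [← hG]; exact g.2)
    let p : Fin m → Fin m := fun i => Sum.elim id id (σ (Sum.inl i))
    let s : Fin m → Bool := fun i => (σ (Sum.inl i)).isRight
    have hinl : ∀ i, σ (Sum.inl i) = if s i then Sum.inr (p i) else Sum.inl (p i) := by
      intro i
      simp only [s, p]
      rcases σ (Sum.inl i) with j | j <;> simp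
    have hinr : ∀ i, σ (Sum.inr i) = if s i then Sum.inl (p i) else Sum.inr (p i) := by
      intro i
      have h := hJ (Sum.inl i) (Sum.inr i)
      rw [hinl i] at h
      generalize σ (Sum.inr i) = w at h
      rcases w with j | j <;> cases hs : s i <;> simp [hs, Matrix.J, Matrix.one_apply] at h ⊢
      all_goals (try (by_contra hne; simp [hne, Ne.symm hne] at h))
    have hσsurj : Function.Surjective σ := by
      intro z
      by_contra hcon
      push Not at hcon
      have : ∀ w, ((g * g⁻¹ : Matrix.symplecticGroup (Fin m) F) :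
          Matrix (Fin m ⊕ Fin m) (Fin m ⊕ Fin m) F) z w = 0 := fun w => by
        rw [Submonoid.coe_mul, Matrix.mul_apply]
        exact Finset.sum_eq_zero fun b _ => by
          rw [show (g : Matrix (Fin m ⊕ Fin m) (Fin m ⊕ Fin m) F) z b = 0 from
            huniq b z fun e => hcon b e.symm, zero_mul]
      have := this z
      rw [mul_inv_cancel] at this
      simp at this
    have hσi : Function.Injective σ := Finite.injective_iff_surjective.2 hσsurj
    have hpinj : Function.Injective p := by
      intro i j hij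
      have e1 := hinl i
      have e2 := hinl j
      have e3 := hinr j
      cases hs : s i <;> cases ht : s j <;> simp [hs, ht, hij] at e1 e2 e3
      · exact Sum.inl_injective (hσi (e1.trans e2.symm))
      · exact absurd (hσi (e1.trans e3.symm)) (by simp)
      · exact absurd (hσi (e1.trans e3.symm)) (by simp)
      · exact Sum.inl_injective (hσi (e1.trans e2.symm))
    refine ⟨(Equiv.ofBijective p (Finite.injective_iff_bijective.1 hpinj), s,
      fun i => Units.mk0 _ (hσ (Sum.inl i))), Subtype.ext ?_⟩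
    show mono (σf (Equiv.ofBijective p (Finite.injective_iff_bijective.1 hpinj)) s)
      (cf s fun i => Units.mk0 _ (hσ (Sum.inl i))) = G
    refine Eq.trans ?_ hG.symm
    have hσeq : σf (Equiv.ofBijective p (Finite.injective_iff_bijective.1 hpinj)) s = σ := by
      funext x
      rcases x with i | i <;> simp [σf, hinl, hinr]
    rw [hσeq]
    refine congrArg (mono σ) (funext fun x => ?_)
    rcases x with i | i
    · simp [cf]
    · have h := hJ (Sum.inl i) (Sum.inr i)
      rw [hinl i, hinr i] at h
      have h0 := hσ (Sum.inl i)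
      rw [hinl i] at h0
      cases hs : s i <;> simp [hs, Matrix.J] at h h0 <;> simp [cf, hinl, hinr, hs]
      · exact (eq_inv_of_mul_eq_one_left (by linear_combination h)).symm
      · rw [neg_eq_iff_eq_neg]
        exact (eq_inv_of_mul_eq_one_left (by linear_combination -h)).symm
  have hb : Function.Bijective (fun d => (⟨Φ d, hfwd d⟩ :
      ↥(Subgroup.normalizer (T : Set (Matrix.symplecticGroup (Fin m) F))))) := by
    refine ⟨fun d d' e => ?_, fun g => ?_⟩
    · obtain ⟨p, s, a⟩ := d
      obtain ⟨p', s', a'⟩ := d'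
      have e' : mono (σf p s) (cf s a) = mono (σf p' s') (cf s' a') :=
        congrArg (fun z : ↥(Subgroup.normalizer (T : Set (Matrix.symplecticGroup (Fin m) F))) =>
          ((z.1 : Matrix.symplecticGroup (Fin m) F) : Matrix (Fin m ⊕ Fin m) (Fin m ⊕ Fin m) F)) e
      have h : ∀ x, σf p s x = σf p' s' x ∧ cf s a x = cf s' a' x := by
        intro x
        have := congrFun (congrFun e' (σf p s x)) x
        simp only [mono, Matrix.of_apply, if_true] at this
        by_cases hx : σf p s x = σf p' s' x
        · rw [if_pos hx] at this; exact ⟨hx, this⟩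
        · rw [if_neg hx] at this; exact absurd this (hcne _ _ _)
      have hps : ∀ i, p i = p' i ∧ s i = s' i := fun i => by
        have := (h (Sum.inl i)).1
        cases hs : s i <;> cases hs' : s' i <;> simp [σf, hs, hs'] at this <;> simp [this]
      refine Prod.ext (Equiv.ext fun i => (hps i).1) (Prod.ext (funext fun i => (hps i).2)
        (funext fun i => Units.ext ?_))
      simpa [cf] using (h (Sum.inl i)).2
    · obtain ⟨d, hd⟩ := hsurj g.1 g.2
      exact ⟨d, Subtype.ext hd⟩
  rw [← Nat.card_eq_of_bijective _ hb, Nat.card_prod, Nat.card_prod, Nat.card_perm, Nat.card_fun,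
    Nat.card_fun, Nat.card_fin, Nat.card_units, Nat.card_eq_fintype_card (α := F)]
  simp
  ring

end Cfsg.Agent.S0777
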