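import Cfsg.Statements.S0778


set_option autoImplicit false
open Cfsg Matrix

namespace Cfsg.Agent.S0778

/-- The elements of Sp_2m(F) stabilising both W = ⟨e_1..e_m⟩ and U = ⟨f_1..f_m⟩ form a subgroup isomorphic to GL_m(F) (block-diagonal matrices diag(X, X^(−ᵀ)) up to the sign convention of J), for m ≥ 1 or m = 0 alike. -/
theorem result {F : Type*} [Field F] (m : ℕ) : Nonempty (↥(Cfsg.stabilizing (Cfsg.spToMat m F) {v : Fin m ⊕ Fin m → F | ∀ i : Fin m, v (Sum.inr i) = 0} ⊓ Cfsg.stabilizing (Cfsg.spToMat m F) {v : Fin m ⊕ Fin m → F | ∀ i : Fin m, v (Sum.inl i) = 0}) ≃* Matrix.GeneralLinearGroup (Fin m) F) := by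
  classical
  have hblock : ∀ A : ↥(Cfsg.stabilizing (Cfsg.spToMat m F) {v : Fin m ⊕ Fin m → F | ∀ i : Fin m, v (Sum.inr i) = 0} ⊓ Cfsg.stabilizing (Cfsg.spToMat m F) {v : Fin m ⊕ Fin m → F | ∀ i : Fin m, v (Sum.inl i) = 0}),
      ∃ P R : Matrix (Fin m) (Fin m) F, ((A : Matrix.symplecticGroup (Fin m) F) :
        Matrix (Fin m ⊕ Fin m) (Fin m ⊕ Fin m) F) = Matrix.fromBlocks P 0 0 R ∧ P * Rᵀ = 1 := by
    rintro ⟨A, h1, h2⟩
    set M := (A : Matrix (Fin m ⊕ Fin m) (Fin m ⊕ Fin m) F)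
    have e21 : M.toBlocks₂₁ = 0 := by
      ext i j
      have := (h1 (Pi.single (Sum.inl j) 1)).1 (fun k => by simp) i
      simpa [Matrix.toBlocks₂₁, M] using this
    have e12 : M.toBlocks₁₂ = 0 := by
      ext i j
      have := (h2 (Pi.single (Sum.inr j) 1)).1 (fun k => by simp) i
      simpa [Matrix.toBlocks₁₂, M] using this
    have eM : M = Matrix.fromBlocks M.toBlocks₁₁ 0 0 M.toBlocks₂₂ := by
      conv_lhs => rw [← Matrix.fromBlocks_toBlocks M, e21, e12]
    refine ⟨M.toBlocks₁₁, M.toBlocks₂₂, eM, ?_⟩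
    have hJ := SymplecticGroup.mem_iff.1 A.2
    rw [show ((A : Matrix (Fin m ⊕ Fin m) (Fin m ⊕ Fin m) F)) = _ from eM, Matrix.J,
      Matrix.fromBlocks_transpose, Matrix.fromBlocks_multiply, Matrix.fromBlocks_multiply,
      Matrix.fromBlocks_inj] at hJ
    simpa using hJ.2.1
  choose P R hPR hinv using hblock
  have hmulP : ∀ A B, P (A * B) = P A * P B ∧ R (A * B) = R A * R B := fun A B => by
    have h := hPR (A * B)
    rw [Subgroup.coe_mul, Submonoid.coe_mul, hPR A, hPR B, Matrix.fromBlocks_multiply,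
      Matrix.fromBlocks_inj] at h
    exact ⟨by simpa using h.1.symm, by simpa using h.2.2.2.symm⟩
  let f : _ →* Matrix.GeneralLinearGroup (Fin m) F := MonoidHom.mk'
    (fun A => ⟨P A, (R A)ᵀ, hinv A, mul_eq_one_comm.1 (hinv A)⟩)
    (fun A B => Units.ext (hmulP A B).1)
  refine ⟨MulEquiv.ofBijective f ⟨fun A B h => ?_, fun g => ?_⟩⟩
  · have hP : P A = P B := congrArg Units.val h
    have hR : R A = R B := Matrix.transpose_injective (congrArg Units.inv h)
    apply Subtype.ext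
    apply Subtype.ext
    rw [hPR A, hPR B, hP, hR]
  · set X := Matrix.fromBlocks (g : Matrix (Fin m) (Fin m) F) 0 0
      (((g⁻¹ : Matrix.GeneralLinearGroup (Fin m) F) : Matrix (Fin m) (Fin m) F))ᵀ with hX
    have hXmem : X ∈ Matrix.symplecticGroup (Fin m) F := by
      rw [SymplecticGroup.mem_iff, hX, Matrix.J, Matrix.fromBlocks_transpose,
        Matrix.fromBlocks_multiply, Matrix.fromBlocks_multiply, Matrix.fromBlocks_inj]
      refine ⟨by simp, ?_, ?_, by simp⟩ <;> simp [← Matrix.transpose_mul]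
    have hinj : ∀ (v : Fin m → F), (g : Matrix (Fin m) (Fin m) F) *ᵥ v = 0 → v = 0 := fun v hv => by
      have := congrArg (((g⁻¹ : Matrix.GeneralLinearGroup (Fin m) F) : Matrix (Fin m) (Fin m) F) *ᵥ ·) hv
      simpa [Matrix.mulVec_mulVec] using this
    have hinj' : ∀ (v : Fin m → F),
        (((g⁻¹ : Matrix.GeneralLinearGroup (Fin m) F) : Matrix (Fin m) (Fin m) F))ᵀ *ᵥ v = 0 → v = 0 :=
      fun v hv => by
      have := congrArg (((g : Matrix (Fin m) (Fin m) F))ᵀ *ᵥ ·) hv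
      simpa [Matrix.mulVec_mulVec, ← Matrix.transpose_mul] using this
    let A0 : Matrix.symplecticGroup (Fin m) F := ⟨X, hXmem⟩
    have hA0 : A0 ∈ Cfsg.stabilizing (Cfsg.spToMat m F) {v : Fin m ⊕ Fin m → F | ∀ i : Fin m, v (Sum.inr i) = 0} ⊓ Cfsg.stabilizing (Cfsg.spToMat m F) {v : Fin m ⊕ Fin m → F | ∀ i : Fin m, v (Sum.inl i) = 0} := by
      refine ⟨fun v => ?_, fun v => ?_⟩
      · change (∀ i, v (Sum.inr i) = 0) ↔ ∀ i, (X *ᵥ v) (Sum.inr i) = 0
        simp only [hX, Matrix.fromBlocks_mulVec, Sum.elim_inr, Matrix.zero_mulVec, zero_add]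
        refine ⟨fun h i => ?_, fun h => congrFun (hinj' _ (funext h))⟩
        rw [show v ∘ Sum.inr = 0 from funext h, Matrix.mulVec_zero]; rfl
      · change (∀ i, v (Sum.inl i) = 0) ↔ ∀ i, (X *ᵥ v) (Sum.inl i) = 0
        simp only [hX, Matrix.fromBlocks_mulVec, Sum.elim_inl, Matrix.zero_mulVec, add_zero]
        refine ⟨fun h i => ?_, fun h => congrFun (hinj _ (funext h))⟩
        rw [show v ∘ Sum.inl = 0 from funext h, Matrix.mulVec_zero]; rfl
    refine ⟨⟨A0, hA0⟩, Units.ext ?_⟩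
    exact ((Matrix.fromBlocks_inj).1 (hPR ⟨A0, hA0⟩).symm).1

end Cfsg.Agent.S0778
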