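import Cfsg.Statements.S0782
import Cfsg.Agent.Lib.Forms.UnitaryTIStab

set_option autoImplicit false
open Cfsg

namespace Cfsg.Agent.S0782

/-- Maximal parabolics of SU_n(q): if W is a k-dimensional subspace of F^n (n ≥ 1, |F| = q²) on which the Hermitian form vanishes, then (q + 1) times the order of its stabiliser in SU_n(q) equals q^(k(2n−3k)) · |GL_k(q²)| · |GU_(n−2k)(q)|, where |GU_m(q)| = q^(m(m−1)/2) Π_(i=1..m) (q^i − (−1)^i). -/
theorem result {F : Type*} [Field F] [Fintype F] {q : ℕ} (hF : Fintype.card F = q ^ 2) (n k : ℕ) (hn : 1 ≤ n) (hk : 2 * k ≤ n) (W : Submodule F (Fin n → F)) (hWk : Module.finrank F W = k) (hW : ∀ u ∈ W, ∀ v ∈ W, Cfsg.hermForm n F q u v = 0) : (q + 1) * Nat.card ↥((Cfsg.stabilizing (Cfsg.slToMat n F) (W : Set (Fin n → F))).subgroupOf (Cfsg.SU n F q)) = q ^ (k * (2 * n - 3 * k)) * (∏ i : Fin k, ((q ^ 2) ^ k - (q ^ 2) ^ (i : ℕ))) * (q ^ ((n - 2 * k) * ((n - 2 * k) - 1) / 2) * ∏ i ∈ Finset.range (n - 2 * k), (if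 Even i then q ^ (i + 1) + 1 else q ^ (i + 1) - 1)) := by
  classical
  rw [Cfsg.Agent.Lib.Forms.card_suStab_mul hF hn W hW]
  have h1 := Cfsg.Agent.Lib.Forms.card_guStab_mul hF W hWk hW
  rw [Cfsg.Agent.Lib.Forms.card_herm_frame hF] at h1
  have hq := Cfsg.Agent.Lib.Classical.Herm.two_le_q hF
  obtain ⟨j, rfl⟩ : ∃ j, n = j + 2 * k := ⟨n - 2 * k, by omega⟩
  have hG := fun m => Cfsg.Agent.Lib.Classical.Herm.card_GU hF m
  set G : ℕ → ℕ := fun m => Nat.card ↥(Cfsg.GU m F q) with hGdef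
  have hg : ∀ i, Cfsg.Agent.Lib.Classical.Herm.cnt (i + 2) F q 0 - 1 =
      (if Even i then (q ^ (i + 2) - 1) * (q ^ (i + 1) + 1) else (q ^ (i + 2) + 1) * (q ^ (i + 1) - 1)) := by
    intro i
    rw [Cfsg.Agent.Lib.Classical.Herm.cnt_zero_eq hF, Nat.add_sub_cancel]
    simp [Nat.even_add]
  have hstep : ∀ i, G (i + 2) = q ^ (2 * i + 1) *
      (Cfsg.Agent.Lib.Classical.Herm.cnt (i + 2) F q 0 - 1) * G i := by
    intro i
    simp only [hGdef, hG, hg, Finset.prod_range_succ]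
    have e : (i + 2) * (i + 2 - 1) / 2 = i * (i - 1) / 2 + (2 * i + 1) := by
      cases i with
      | zero => rfl
      | succ i =>
        rw [show i + 1 + 2 - 1 = i + 2 by omega, Nat.add_sub_cancel]
        have : (i + 1 + 2) * (i + 2) = (i + 1) * i + (2 * (i + 1) + 1) * 2 := by ring
        rw [this, Nat.add_mul_div_right _ _ (by norm_num : 0 < 2)]
    rw [e, pow_add]
    by_cases hi : Even i
    · have : ¬ Even (i + 1) := by simp [Nat.even_add_one, hi]
      simp only [if_pos hi, if_neg this]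
      ring
    · have : Even (i + 1) := by simp [Nat.even_add_one, hi]
      simp only [if_neg hi, if_pos this]
      ring
  have key : ∀ k j : ℕ, (∏ i ∈ Finset.range k, q ^ (2 * i) *
      (Cfsg.Agent.Lib.Classical.Herm.cnt (j + 2 * k - 2 * i) F q 0 - 1)) *
      q ^ (k * (2 * j + k)) * G j = G (j + 2 * k) := by
    intro k
    induction k with
    | zero => intro j; simp
    | succ k ih =>
      intro j
      have ih' := ih (j + 2)
      have e1 : j + 2 + 2 * k = j + 2 * (k + 1) := by ring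
      have e2 : j + 2 * (k + 1) - 2 * k = j + 2 := by omega
      rw [e1, hstep j] at ih'
      rw [← ih', Finset.prod_range_succ, e2]
      have e3 : q ^ (2 * k) * q ^ ((k + 1) * (2 * j + (k + 1))) =
          q ^ (k * (2 * (j + 2) + k)) * q ^ (2 * j + 1) := by
        rw [← pow_add, ← pow_add]; congr 1; ring
      calc _ = (∏ i ∈ Finset.range k, q ^ (2 * i) *
          (Cfsg.Agent.Lib.Classical.Herm.cnt (j + 2 * (k + 1) - 2 * i) F q 0 - 1)) *
          (q ^ (2 * k) * q ^ ((k + 1) * (2 * j + (k + 1)))) *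
          (Cfsg.Agent.Lib.Classical.Herm.cnt (j + 2) F q 0 - 1) * G j := by ring
        _ = _ := by rw [e3]; ring
  have hpos : 0 < ∏ i ∈ Finset.range k, q ^ (2 * i) *
      (Cfsg.Agent.Lib.Classical.Herm.cnt (j + 2 * k - 2 * i) F q 0 - 1) := by
    refine Nat.pos_of_ne_zero fun h0 => ?_
    have hk' := key k j
    rw [h0, zero_mul, zero_mul] at hk'
    exact (Nat.card_pos (α := ↥(Cfsg.GU (j + 2 * k) F q))).ne' hk'.symm
  have hj : j + 2 * k - 2 * k = j := Nat.add_sub_cancel _ _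
  rw [show Nat.card ↥(Cfsg.GU (j + 2 * k) F q) = G (j + 2 * k) from rfl, ← key k j] at h1
  rw [hj, ← hG j, show k * (2 * (j + 2 * k) - 3 * k) = k * (2 * j + k) by congr 1; omega]
  refine Nat.eq_of_mul_eq_mul_right hpos (h1.trans ?_)
  ring

end Cfsg.Agent.S0782
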