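import Cfsg.Statements.S0783
import Cfsg.Agent.Lib.Classical.Unitary

set_option autoImplicit false
open Cfsg

namespace Cfsg.Agent.S0783

/-- PGU_n(q)/PSU_n(q) is cyclic of order (n, q+1): for n ≥ 2 and |F| = q² there is a surjective homomorphism from GU_n(q) onto the cyclic group of order gcd(n, q + 1) whose kernel is generated by the determinant-one elements together with the centre. -/
theorem result {F : Type*} [Field F] [Fintype F] {q : ℕ} (hF : Fintype.card F = q ^ 2) (n : ℕ) (hn : 2 ≤ n) : ∃ φ : ↥(Cfsg.GU n F q) →* Multiplicative (ZMod (Nat.gcd n (q + 1))), Function.Surjective φ ∧ φ.ker = (Matrix.GeneralLinearGroup.det : Matrix.GeneralLinearGroup (Fin n) F →* Fˣ).ker.subgroupOf (Cfsg.GU n F q) ⊔ Subgroup.center ↥(Cfsg.GU n F q) := by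
  classical
  have hq := Cfsg.Agent.Lib.Classical.Herm.two_le_q hF
  set d := Nat.gcd n (q + 1) with hd
  set μ := (powMonoidHom (q + 1) : Fˣ →* Fˣ).ker with hμ
  have hμc : Nat.card μ = q + 1 := Cfsg.Agent.Lib.Classical.Herm.card_norm_one hF
  let ψ : μ ≃* Multiplicative (ZMod (q + 1)) := mulEquivOfCyclicCardEq (by rw [hμc, Nat.card_congr Multiplicative.toAdd, Nat.card_zmod])
  let c : Multiplicative (ZMod (q + 1)) →* Multiplicative (ZMod d) :=
    AddMonoidHom.toMultiplicative (ZMod.castHom (Nat.gcd_dvd_right n (q + 1)) (ZMod d)).toAddMonoidHom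
  let D : ↥(Cfsg.GU n F q) →* μ := (Cfsg.Agent.Lib.Classical.Herm.detGU n F q).codRestrict μ fun g => by
    rw [hμ, ← Cfsg.Agent.Lib.Classical.Herm.range_detGU hF (by omega : 1 ≤ n)]
    exact ⟨g, rfl⟩
  have hc : Function.Surjective c := fun x => by
    obtain ⟨y, hy⟩ := ZMod.castHom_surjective (Nat.gcd_dvd_right n (q + 1)) x.toAdd
    exact ⟨Multiplicative.ofAdd y, congrArg Multiplicative.ofAdd hy⟩
  have hD : Function.Surjective D := fun l => by
    have hl : (l : Fˣ) ∈ (Cfsg.Agent.Lib.Classical.Herm.detGU n F q).range := by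
      rw [Cfsg.Agent.Lib.Classical.Herm.range_detGU hF (by omega : 1 ≤ n)]; exact l.2
    obtain ⟨g, hg⟩ := hl
    exact ⟨g, Subtype.ext hg⟩
  have hnd : (n : ZMod d) = 0 := (ZMod.natCast_eq_zero_iff n d).2 (Nat.gcd_dvd_left n (q + 1))
  have hpow : ∀ l : μ, c (ψ (l ^ n)) = 1 := fun l => by
    rw [map_pow, map_pow]
    apply Multiplicative.toAdd.injective
    rw [toAdd_pow, toAdd_one, nsmul_eq_mul, hnd, zero_mul]
  have hroot : ∀ l : μ, c (ψ l) = 1 → ∃ z : μ, z ^ n = l := by
    intro l hl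
    set a := (ψ l).toAdd with ha
    have h0 : ZMod.castHom (Nat.gcd_dvd_right n (q + 1)) (ZMod d) a = 0 :=
      congrArg Multiplicative.toAdd hl
    rw [← ZMod.natCast_rightInverse a, map_natCast, ZMod.natCast_eq_zero_iff] at h0
    obtain ⟨t, ht⟩ := h0
    refine ⟨ψ.symm (Multiplicative.ofAdd ((Nat.gcdA n (q + 1) : ZMod (q + 1)) * (t : ZMod (q + 1)))), ?_⟩
    apply ψ.injective
    rw [map_pow, ψ.apply_symm_apply]
    apply Multiplicative.toAdd.injective
    rw [toAdd_pow, toAdd_ofAdd, nsmul_eq_mul, ← ha, ← ZMod.natCast_rightInverse a, ht, Nat.cast_mul]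
    have hb := congrArg (fun z : ℤ => (z : ZMod (q + 1))) (Nat.gcd_eq_gcd_ab n (q + 1))
    simp only [Int.cast_natCast, Int.cast_add, Int.cast_mul, ZMod.natCast_self, zero_mul, add_zero] at hb
    rw [hb]; ring
  refine ⟨c.comp (ψ.toMonoidHom.comp D), hc.comp (ψ.surjective.comp hD), ?_⟩
  have hscal : ∀ z : μ, ∃ g : ↥(Cfsg.GU n F q), g ∈ Subgroup.center ↥(Cfsg.GU n F q) ∧ D g = z ^ n := by
    intro z
    have hz : ((z : Fˣ) : F) ^ (q + 1) = 1 := by
      rw [← Units.val_pow_eq_pow_val, show (z : Fˣ) ^ (q + 1) = 1 from z.2, Units.val_one]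
    obtain ⟨g, hg, hgd⟩ := Cfsg.Agent.Lib.Classical.Herm.exists_diag hF (n := n)
      (fun _ => ((z : Fˣ) : F)) fun _ => hz
    refine ⟨⟨g, hg⟩, Subgroup.mem_center_iff.2 fun h => Subtype.ext (Units.ext ?_), Subtype.ext (Units.ext ?_)⟩
    · show ((h : Matrix.GeneralLinearGroup (Fin n) F) : Matrix (Fin n) (Fin n) F) *
        (g : Matrix (Fin n) (Fin n) F) = (g : Matrix (Fin n) (Fin n) F) *
        ((h : Matrix.GeneralLinearGroup (Fin n) F) : Matrix (Fin n) (Fin n) F)
      rw [hgd]; ext i j; simp [mul_comm]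
    · show (g : Matrix (Fin n) (Fin n) F).det = (((z ^ n : μ) : Fˣ) : F)
      rw [hgd, Matrix.det_diagonal]; simp
  refine le_antisymm (fun x hx => ?_) (sup_le (fun x hx => ?_) fun z hz => ?_)
  · obtain ⟨z, hz⟩ := hroot (D x) hx
    obtain ⟨g, hgc, hgD⟩ := hscal z
    rw [← inv_mul_cancel_right x g]
    refine Subgroup.mul_mem_sup ?_ hgc
    rw [Subgroup.mem_subgroupOf, MonoidHom.mem_ker]
    have h1 : D (x * g⁻¹) = 1 := by rw [map_mul, map_inv, hgD, hz, mul_inv_cancel]
    exact congrArg Subtype.val h1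
  · have h1 : D x = 1 := Subtype.ext hx
    rw [MonoidHom.mem_ker, MonoidHom.comp_apply, MonoidHom.comp_apply, h1, map_one, map_one]
  · -- central elements are scalar
    set M := ((z : Matrix.GeneralLinearGroup (Fin n) F) : Matrix (Fin n) (Fin n) F) with hM
    have hcomm : ∀ g : ↥(Cfsg.GU n F q), ∀ v : Fin n → F,
        ((g : Matrix.GeneralLinearGroup (Fin n) F) : Matrix (Fin n) (Fin n) F).mulVec (M.mulVec v) =
          M.mulVec (((g : Matrix.GeneralLinearGroup (Fin n) F) : Matrix (Fin n) (Fin n) F).mulVec v) := by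
      intro g v
      have e := congrArg (fun w : ↥(Cfsg.GU n F q) =>
        ((w : Matrix.GeneralLinearGroup (Fin n) F) : Matrix (Fin n) (Fin n) F))
        (Subgroup.mem_center_iff.1 hz g)
      simp only [Subgroup.coe_mul, Units.val_mul] at e
      rw [Matrix.mulVec_mulVec, Matrix.mulVec_mulVec, hM, e]
    obtain ⟨ζ, hζ, hζ2⟩ := Cfsg.Agent.Lib.Classical.Herm.exists_primitive_norm_one hF
    have hζ1 : (ζ : F) ≠ 1 := fun h => hζ2 (Units.ext (by rw [Units.val_mul, h, one_mul, Units.val_one]))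
    have hζn : (ζ : F) ^ (q + 1) = 1 := by rw [← Units.val_pow_eq_pow_val, hζ, Units.val_one]
    have hline : ∀ w : Fin n → F, Cfsg.hermForm n F q w w = 1 →
        M.mulVec w = Cfsg.hermForm n F q (M.mulVec w) w • w := by
      intro w hw
      obtain ⟨g, hg, hgx⟩ := Cfsg.Agent.Lib.Classical.Herm.exists_refl hF ((ζ : F) - 1) w (by
        rw [hw, Cfsg.Agent.Lib.Classical.Herm.conj_sub hF, one_pow]
        rw [pow_succ] at hζn
        linear_combination hζn)
      have e := hcomm ⟨g, hg⟩ w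
      simp only [hgx, Matrix.mulVec_add, Matrix.mulVec_smul, hw, mul_one] at e
      have e1 := add_left_cancel e
      rw [mul_comm, ← smul_smul] at e1
      have h0 : (ζ : F) - 1 ≠ 0 := sub_ne_zero.2 hζ1
      have e2 := congrArg (fun v => ((ζ : F) - 1)⁻¹ • v) e1
      simp only [smul_smul, inv_mul_cancel₀ h0, one_smul] at e2
      refine e2.symm.trans ?_
      rw [mul_comm (Cfsg.hermForm n F q (M.mulVec w) w), ← mul_assoc, inv_mul_cancel₀ h0, one_mul]
    have hne : ∀ i : Fin n, Cfsg.hermForm n F q (Pi.single i 1) (Pi.single i 1) = 1 := fun i => by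
      rw [Cfsg.Agent.Lib.Classical.Herm.herm_single_right hF]; simp
    let i0 : Fin n := ⟨0, by omega⟩
    set l := Cfsg.hermForm n F q (M.mulVec (Pi.single i0 1)) (Pi.single i0 1) with hl
    have hMd : M = Matrix.diagonal fun _ => l := by
      refine Matrix.ext_of_mulVec_single fun j => ?_
      obtain ⟨g, hg, hgv⟩ := Cfsg.Agent.Lib.Classical.Herm.exists_GU_map hF (hne i0) (hne j)
      have e := hcomm ⟨g, hg⟩ (Pi.single i0 1)
      simp only at e
      rw [hline _ (hne i0), Matrix.mulVec_smul, hgv] at e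
      rw [← e, ← hl]
      ext a; simp [Pi.single_apply]
    have hlM : (D z : Fˣ).val = l ^ n := by
      show M.det = _
      rw [hMd, Matrix.det_diagonal]; simp
    have hln : l ^ (q + 1) = 1 := by
      have e := Cfsg.Agent.Lib.Classical.Herm.mem_GU.1 z.2 (Pi.single i0 1) (Pi.single i0 1)
      rw [hne, show ((z : Matrix.GeneralLinearGroup (Fin n) F) : Matrix (Fin n) (Fin n) F) = M from rfl,
        hline _ (hne i0), Cfsg.Agent.Lib.Classical.Herm.herm_smul_left,
        Cfsg.Agent.Lib.Classical.Herm.herm_smul_right, hne, mul_one, ← hl, ← pow_succ'] at e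
      exact e
    have hl0 : l ≠ 0 := fun h => by simp [h] at hln
    let L : μ := ⟨Units.mk0 l hl0, Units.ext (by simpa using hln)⟩
    have hDz : D z = L ^ n := Subtype.ext (Units.ext (by rw [hlM]; simp [L]))
    rw [MonoidHom.mem_ker, MonoidHom.comp_apply, MonoidHom.comp_apply, hDz]
    exact hpow L

end Cfsg.Agent.S0783
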