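import Cfsg.Statements.S0785
import Cfsg.Agent.Lib.Forms.OrthBasic

set_option autoImplicit false
open Cfsg Matrix Cfsg.Agent.Lib.Forms

namespace Cfsg.Agent.S0785

/-- det(I) = {±1}: for a quadratic form on F^n whose polar form is non-degenerate, every element of the isometry group has determinant 1 or −1, and as soon as Q takes a non-zero value some isometry has determinant −1. -/
theorem result {F : Type*} [Field F] {n : ℕ} (Q : QuadraticForm F (Fin n → F)) (hQ : (QuadraticMap.polarBilin Q).Nondegenerate) : (∀ g : ↥(Cfsg.isometryGroup F ⇑Q), ((g : Matrix.GeneralLinearGroup (Fin n) F) : Matrix (Fin n) (Fin n) F).det = 1 ∨ ((g : Matrix.GeneralLinearGroup (Fin n) F) : Matrix (Fin n) (Fin n) F).det = -1) ∧ ((∃ v, Q v ≠ 0) → ∃ g : ↥(Cfsg.isometryGroup F ⇑Q), ((g : Matrix.GeneralLinearGroup (Fin n) F) : Matrix (Fin n) (Fin n) F).det = -1) := by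
  refine ⟨fun g => ?_, ?_⟩
  · set M := ((g : Matrix.GeneralLinearGroup (Fin n) F) : Matrix (Fin n) (Fin n) F) with hM
    have hQg : ∀ x, Q (M *ᵥ x) = Q x := fun x => g.2 x x
    have hpol : ∀ x y, QuadraticMap.polarBilin Q (M *ᵥ x) (M *ᵥ y) =
        QuadraticMap.polarBilin Q x y := fun x y => by
      simp only [QuadraticMap.polarBilin_apply_apply, QuadraticMap.polar, ← Matrix.mulVec_add, hQg]
    set A := LinearMap.BilinForm.toMatrix' (QuadraticMap.polarBilin Q) with hA
    have hA0 : A.det ≠ 0 := LinearMap.BilinForm.nondegenerate_iff_det_ne_zero (Pi.basisFun F (Fin n)) |>.1 hQ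
    have h1 : M.transpose * A * M = A := by
      have hcomp : LinearMap.BilinForm.comp (QuadraticMap.polarBilin Q) (Matrix.toLin' M)
          (Matrix.toLin' M) = QuadraticMap.polarBilin Q := by
        refine LinearMap.ext₂ fun x y => ?_
        simpa using hpol x y
      have h := congrArg LinearMap.BilinForm.toMatrix' hcomp
      rw [LinearMap.BilinForm.toMatrix'_comp, LinearMap.toMatrix'_toLin'] at h
      exact h
    have h2 := congrArg Matrix.det h1
    rw [Matrix.det_mul, Matrix.det_mul, Matrix.det_transpose] at h2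
    have h3 : (M.det - 1) * (M.det + 1) = 0 := by
      apply mul_left_cancel₀ hA0
      linear_combination h2
    rcases mul_eq_zero.1 h3 with e | e
    · exact Or.inl (sub_eq_zero.1 e)
    · exact Or.inr (eq_neg_of_add_eq_zero_left e)
  · rintro ⟨v, hv⟩
    have hd := reflectionMatrix_det Q hv
    refine ⟨⟨Matrix.GeneralLinearGroup.mkOfDetNeZero (Cfsg.reflectionMatrix ⇑Q v)
      (by rw [hd]; exact neg_ne_zero.2 one_ne_zero), fun x _ => reflectionMatrix_isometry Q hv x⟩, hd⟩

end Cfsg.Agent.S0785
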