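import Cfsg.Statements.S0790
import Cfsg.Agent.Lib.Classical.QuadOmega.Disc

open Cfsg.Agent.Lib.Classical.QuadOmega Cfsg.Agent.Lib.Classical.Quad QuadraticMap

set_option autoImplicit false
open Cfsg

namespace Cfsg.Agent.S0790

/-- −1 ∈ Ω⁺_2m(q) iff q^m ≡ 1 (mod 4), for q odd and m ≥ 1 (so that in the other case SO⁺_2m(q) = 2 × Ω⁺_2m(q)). -/
theorem result {F : Type*} [Field F] [Fintype F] {q : ℕ} (hF : Fintype.card F = q) (hodd : Odd q) (m : ℕ) (hm : 1 ≤ m) : (∃ g : ↥(Cfsg.isometryGroup F (Cfsg.quadFormPlus m F)), g ∈ Cfsg.Omega F (Cfsg.quadFormPlus m F) ∧ ((g : Matrix.GeneralLinearGroup (Fin m ⊕ Fin m) F) : Matrix (Fin m ⊕ Fin m) (Fin m ⊕ Fin m) F) = -1) ↔ q ^ m % 4 = 1 := by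
  have h2 : (2 : F) ≠ 0 := two_ne_zero_of_odd (hF ▸ hodd)
  rw [exists_omega_matrix_iff _ (ePlus m) (plus_apply m) (-1) (scaleHom m (zeroQ F) fun _ => -1)
    (fun v => by
      rw [Matrix.neg_mulVec, Matrix.one_mulVec, scaleHom_apply]
      ext (i | i) <;> simp [ePlus]), scaleHom_mem_iff nd_zeroQ h2]
  simp only [Units.val_neg, Units.val_one, Finset.prod_const, Finset.card_univ, Fintype.card_fin]
  exact isSquare_neg_one_pow hF hodd m

end Cfsg.Agent.S0790
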