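import Cfsg.Statements.S0791
import Cfsg.Agent.Lib.Classical.QuadOmega.Disc

open Cfsg.Agent.Lib.Classical.QuadOmega Cfsg.Agent.Lib.Classical.Quad QuadraticMap

set_option autoImplicit false
open Cfsg

namespace Cfsg.Agent.S0791

/-- −1 ∈ Ω⁻_2m(q) iff q^m ≡ −1 (mod 4), for q odd and m ≥ 1; for the minus-type form quadFormMinus (m−1) with anisotropic binary part. -/
theorem result {F : Type*} [Field F] [Fintype F] {q : ℕ} (hF : Fintype.card F = q) (hodd : Odd q) (m : ℕ) (hm : 1 ≤ m) (a b : F) (hab : ∀ z₁ z₂ : F, z₁ ^ 2 + a * z₁ * z₂ + b * z₂ ^ 2 = 0 → z₁ = 0 ∧ z₂ = 0) : (∃ g : ↥(Cfsg.isometryGroup F (Cfsg.quadFormMinus (m - 1) F a b)), g ∈ Cfsg.Omega F (Cfsg.quadFormMinus (m - 1) F a b) ∧ ((g : Matrix.GeneralLinearGroup ((Fin (m - 1) ⊕ Fin (m - 1)) ⊕ Fin 2) F) : Matrix ((Fin (m - 1) ⊕ Fin (m - 1)) ⊕ Fin 2) ((Fin (m - 1) ⊕ Fin (m - 1)) ⊕ Fin 2) F) = -1) ↔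 q ^ m % 4 = 3 := by
  obtain ⟨k, rfl⟩ : ∃ k, m = k + 1 := ⟨m - 1, by omega⟩
  rw [Nat.add_sub_cancel, exists_omega_matrix_iff _ (eMinus k) (minus_apply k a b) (-1)
    (negOne (splitQ k (binQ a b))) (fun v => by
      rw [Matrix.neg_mulVec, Matrix.one_mulVec, negOne_apply, map_neg])]
  exact negOne_mem_minus hF hodd hab k

end Cfsg.Agent.S0791
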