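import Cfsg.Statements.S0793
import Cfsg.Agent.Lib.Forms.OrthBasic

set_option autoImplicit false
open Cfsg Matrix Cfsg.Agent.Lib.Forms

namespace Cfsg.Agent.S0793

/-- Root elements: if Q(u) = Q(v) = 0 and f(u, v) = 0 (f the polar form), then for every c the Siegel matrix T_(u,v)(c) preserves Q, fixes u and v, and T(c) T(d) = T(c + d). -/
theorem result {F : Type*} [Field F] {n : ℕ} (Q : QuadraticForm F (Fin n → F)) (u v : Fin n → F) (hu : Q u = 0) (hv : Q v = 0) (huv : QuadraticMap.polar ⇑Q u v = 0) : (∀ c x, Q ((Cfsg.siegelMatrix ⇑Q u v c).mulVec x) = Q x) ∧ (∀ c, (Cfsg.siegelMatrix ⇑Q u v c).mulVec u = u ∧ (Cfsg.siegelMatrix ⇑Q u v c).mulVec v = v) ∧ ∀ c d, Cfsg.siegelMatrix ⇑Q u v c * Cfsg.siegelMatrix ⇑Q u v d = Cfsg.siegelMatrix ⇑Q u v (c + d) := by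
  have hpu : QuadraticMap.polar ⇑Q u u = 0 := by simp [QuadraticMap.polar_self, hu]
  have hpv : QuadraticMap.polar ⇑Q v v = 0 := by simp [QuadraticMap.polar_self, hv]
  have hvu : QuadraticMap.polar ⇑Q v u = 0 := by rw [QuadraticMap.polar_comm, huv]
  refine ⟨fun c x => ?_, fun c => ⟨?_, ?_⟩, fun c d => Matrix.ext_of_mulVec_single fun i => ?_⟩
  · change Q (Cfsg.siegelMatrix ⇑Q u v c *ᵥ x) = Q x
    rw [siegelMatrix_mulVec, sub_eq_add_neg, ← neg_smul, QuadraticMap.map_add (f := ⇑Q), QuadraticMap.map_add (f := ⇑Q),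
      QuadraticMap.polar_add_left, QuadraticMap.polar_smul_left, QuadraticMap.map_smul,
      QuadraticMap.map_smul, QuadraticMap.polar_smul_right, QuadraticMap.polar_smul_right,
      QuadraticMap.polar_smul_right, hu, hv, hvu, QuadraticMap.polar_comm ⇑Q x v,
      QuadraticMap.polar_comm ⇑Q x u]
    simp only [smul_eq_mul]
    ring
  · change Cfsg.siegelMatrix ⇑Q u v c *ᵥ u = u
    rw [siegelMatrix_mulVec, hpu, hvu]; simp
  · change Cfsg.siegelMatrix ⇑Q u v c *ᵥ v = v
    rw [siegelMatrix_mulVec, hpv, huv]; simp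
  · set x := (Pi.single i 1 : Fin n → F)
    rw [← Matrix.mulVec_mulVec, siegelMatrix_mulVec, siegelMatrix_mulVec, siegelMatrix_mulVec]
    simp only [← QuadraticMap.polarBilin_apply_apply, map_add, map_sub, map_smul]
    simp only [QuadraticMap.polarBilin_apply_apply, hpu, hpv, huv, hvu, smul_eq_mul, mul_zero,
      add_zero, sub_zero]
    module

end Cfsg.Agent.S0793
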