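import Cfsg.Statements.S0794
import Cfsg.Agent.Lib.Classical.QuadOmega.Apply

open Cfsg.Agent.Lib.Classical.QuadOmega Cfsg.Agent.Lib.Classical.Quad QuadraticMap

set_option autoImplicit false
open Cfsg

namespace Cfsg.Agent.S0794

/-- For q odd, n ≥ 5 and Q with non-degenerate polar form: an isometry whose matrix is a Siegel transformation T_(u,v)(c) (u, v singular and orthogonal) is a commutator in the isometry group, so lies in Ω. -/
theorem result {F : Type*} [Field F] [Fintype F] (h2 : (2 : F) ≠ 0) {n : ℕ} (hn : 5 ≤ n) (Q : QuadraticForm F (Fin n → F)) (hQ : (QuadraticMap.polarBilin Q).Nondegenerate) (u v : Fin n → F) (hu : Q u = 0) (hv : Q v = 0) (huv : QuadraticMap.polar ⇑Q u v = 0) (c : F) (g : ↥(Cfsg.isometryGroup F ⇑Q)) (hg : ((g : Matrix.GeneralLinearGroup (Fin n) F) : Matrix (Fin n) (Fin n) F) = Cfsg.siegelMatrix ⇑Q u v c) : g ∈ commutatorSet ↥(Cfsg.isometryGroup F ⇑Q) ∧ g ∈ Cfsg.Omega F ⇑Q := by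
  have hG := good_of_nd (nd_of_nondegenerate hQ) h2 (by rw [Module.finrank_fin_fun]; exact hn)
  have e : isoEquiv ⇑Q (LinearEquiv.refl F _) (fun v => rfl) g = sie Q u (c • v) :=
    iso_ext fun x => (congrArg (fun M => Matrix.mulVec M x) hg).trans
      (siegelMatrix_mulVec Q hu hv huv c x)
  obtain ⟨A, -, B, -, hAB⟩ := sie_eq_commutator_sing hG hu (s := c • v)
    (by rw [QuadraticMap.map_smul, hv, smul_zero]) (by rw [polar_smul_right, huv, smul_zero])
  set E := isoEquiv ⇑Q (LinearEquiv.refl F _) (fun v => rfl) with hE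
  have hc : g ∈ commutatorSet ↥(Cfsg.isometryGroup F ⇑Q) := by
    refine ⟨E.symm A, E.symm B, E.injective ?_⟩
    rw [map_commutatorElement, MulEquiv.apply_symm_apply, MulEquiv.apply_symm_apply, e, hAB]
  refine ⟨hc, ?_⟩
  unfold Cfsg.Omega
  rw [commutator_eq_closure]
  exact Subgroup.subset_closure hc

end Cfsg.Agent.S0794
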