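import Cfsg.Statements.S0795
import Cfsg.Agent.Lib.Classical.QuadOmega.Apply

open Cfsg.Agent.Lib.Classical.QuadOmega Cfsg.Agent.Lib.Classical.Quad QuadraticMap

set_option autoImplicit false
open Cfsg

namespace Cfsg.Agent.S0795

/-- Generation of Ω by root elements: for q odd, n ≥ 5 and Q with non-degenerate polar form on F^n, the commutator subgroup of the isometry group equals the subgroup generated by the isometries whose matrices are Siegel transformations T_(u,v)(c) with u, v singular and orthogonal. -/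
theorem result {F : Type*} [Field F] [Fintype F] (h2 : (2 : F) ≠ 0) {n : ℕ} (hn : 5 ≤ n) (Q : QuadraticForm F (Fin n → F)) (hQ : (QuadraticMap.polarBilin Q).Nondegenerate) : Cfsg.Omega F ⇑Q = Subgroup.closure {g : ↥(Cfsg.isometryGroup F ⇑Q) | ∃ (u v : Fin n → F) (c : F), Q u = 0 ∧ Q v = 0 ∧ QuadraticMap.polar ⇑Q u v = 0 ∧ ((g : Matrix.GeneralLinearGroup (Fin n) F) : Matrix (Fin n) (Fin n) F) = Cfsg.siegelMatrix ⇑Q u v c} := by
  have hG := good_of_nd (nd_of_nondegenerate hQ) h2 (by rw [Module.finrank_fin_fun]; exact hn)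
  set E := isoEquiv ⇑Q (LinearEquiv.refl F _) (fun v => rfl) with hE
  refine le_antisymm (fun g hg => ?_) ((Subgroup.closure_le _).2 ?_)
  · rw [mem_omega_iff ⇑Q (LinearEquiv.refl F _) (fun v => rfl), commutator_eq hG] at hg
    set S : Set ↥(Cfsg.isometryGroup F ⇑Q) := {g | ∃ (u v : Fin n → F) (c : F), Q u = 0 ∧ Q v = 0 ∧
      QuadraticMap.polar ⇑Q u v = 0 ∧ ((g : Matrix.GeneralLinearGroup (Fin n) F) :
        Matrix (Fin n) (Fin n) F) = Cfsg.siegelMatrix ⇑Q u v c}
    have hle : siegelGroup Q ≤ (Subgroup.closure S).map E.toMonoidHom := by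
      refine siegelGroup_le_of_sing hG fun x s hx hs hxs => ?_
      refine ⟨E.symm (sie Q x s), Subgroup.subset_closure ⟨x, s, 1, hx, hs, hxs, ?_⟩,
        E.apply_symm_apply _⟩
      refine Matrix.ext_of_mulVec_single fun i => ?_
      rw [siegelMatrix_mulVec Q hx hs hxs, one_smul]
      conv_rhs => rw [← E.apply_symm_apply (sie Q x s)]
      rfl
    obtain ⟨g', hg', he⟩ := hle hg
    rwa [← E.injective he]
  · rintro g ⟨u, v, c, hu, hv, huv, hgm⟩
    rw [SetLike.mem_coe, mem_omega_iff ⇑Q (LinearEquiv.refl F _) (fun v => rfl), commutator_eq hG,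
      show isoEquiv ⇑Q (LinearEquiv.refl F _) (fun v => rfl) g = sie Q u (c • v) from
        iso_ext fun x => (congrArg (fun M => Matrix.mulVec M x) hgm).trans
      (siegelMatrix_mulVec Q hu hv huv c x)]
    exact sie_mem hu (by rw [polar_smul_right, huv, smul_zero])

end Cfsg.Agent.S0795
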