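import Cfsg.Statements.S0796


set_option autoImplicit false
open Cfsg Matrix

namespace Cfsg.Agent.S0796

/-- If G is finite and acts faithfully and primitively on X, H is the stabiliser of a point, A is a normal subgroup of H whose normal closure in G is G, then for every non-trivial normal subgroup K of G the quotient G ⧸ K is isomorphic to A ⧸ B for some normal subgroup B of A. -/
theorem result {G X : Type*} [Group G] [Finite G] [MulAction G X] [FaithfulSMul G X] (hprim : MulAction.IsPreprimitive G X) (x : X) (A : Subgroup G) (hA : A ≤ MulAction.stabilizer G x) (hAn : (A.subgroupOf (MulAction.stabilizer G x)).Normal) (hgen : Subgroup.normalClosure (A : Set G) = ⊤) (K : Subgroup G) [K.Normal] (hK : K ≠ ⊥) : ∃ (B : Subgroup A) (_ : B.Normal), Nonempty (G ⧸ K ≃* A ⧸ B) := by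
  classical
  set S := MulAction.stabilizer G x
  have hK' : MulAction.IsPretransitive K X := by
    haveI := hprim
    refine MulAction.IsQuasiPreprimitive.isPretransitive_of_normal (G := G) ?_
    intro hfix
    apply hK
    rw [eq_bot_iff]
    intro k hk
    rw [Subgroup.mem_bot]
    apply FaithfulSMul.eq_of_smul_eq_smul (α := X)
    intro y
    have : y ∈ MulAction.fixedPoints K X := hfix ▸ Set.mem_univ y
    simpa using this ⟨k, hk⟩
  have hle : Subgroup.normalClosure (A : Set G) ≤ K ⊔ A := by
    refine (Subgroup.closure_le _).2 ?_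
    intro z hz
    rw [Group.mem_conjugatesOfSet_iff] at hz
    obtain ⟨a, ha, hconj⟩ := hz
    obtain ⟨g, rfl⟩ := isConj_iff.1 hconj
    obtain ⟨⟨k, hk⟩, hkx⟩ := hK'.exists_smul_eq x (g • x)
    have hs : k⁻¹ * g ∈ S := by
      rw [MulAction.mem_stabilizer_iff, mul_smul, inv_smul_eq_iff]
      exact hkx.symm
    have hsa : (k⁻¹ * g) * a * (k⁻¹ * g)⁻¹ ∈ A := by
      have := hAn.conj_mem ⟨a, hA ha⟩ (by simpa [Subgroup.mem_subgroupOf] using ha) ⟨_, hs⟩
      simpa [Subgroup.mem_subgroupOf] using this
    have e : g * a * g⁻¹ = k * ((k⁻¹ * g) * a * (k⁻¹ * g)⁻¹) * k⁻¹ := by group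
    rw [SetLike.mem_coe, e]
    exact mul_mem (mul_mem (Subgroup.mem_sup_left hk) (Subgroup.mem_sup_right hsa))
      (inv_mem (Subgroup.mem_sup_left hk))
  rw [hgen, top_le_iff] at hle
  let f : A →* G ⧸ K := (QuotientGroup.mk' K).comp A.subtype
  have hf : Function.Surjective f := by
    intro y
    obtain ⟨g, rfl⟩ := QuotientGroup.mk'_surjective K y
    have hg : g ∈ A ⊔ K := by rw [sup_comm, hle]; trivial
    rw [← SetLike.mem_coe, Subgroup.mul_normal] at hg
    obtain ⟨a, ha, k, hk, rfl⟩ := hg
    refine ⟨⟨a, ha⟩, ?_⟩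
    change QuotientGroup.mk' K a = QuotientGroup.mk' K (a * k)
    rw [map_mul, (QuotientGroup.eq_one_iff k).2 hk |> fun e => show QuotientGroup.mk' K k = 1 from e,
      mul_one]
  exact ⟨f.ker, inferInstance, ⟨(QuotientGroup.quotientKerEquivOfSurjective f hf).symm⟩⟩

end Cfsg.Agent.S0796
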