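import Cfsg.Statements.S0797
import Cfsg.Agent.Lib.Classical.QuadOmega.Generation

open QuadraticMap Cfsg.Agent.Lib.Classical.Quad Cfsg.Agent.Lib.Classical.QuadOmega

set_option autoImplicit false
open Cfsg

namespace Cfsg.Agent.S0797

/-- O^ε_2m(q) ≅ Ω.2² for q odd: if F is finite of odd characteristic, n ≥ 2 is even and Q has non-degenerate polar form on F^n, the isometry group of Q has exactly three subgroups of index 2. -/
theorem result {F : Type*} [Field F] [Fintype F] (h2 : (2 : F) ≠ 0) {n : ℕ} (hn : 2 ≤ n) (heven : Even n) (Q : QuadraticForm F (Fin n → F)) (hQ : (QuadraticMap.polarBilin Q).Nondegenerate) : Nat.card {H : Subgroup ↥(Cfsg.isometryGroup F ⇑Q) // H.index = 2} = 3 := by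
  rw [← card_index_two (nd_of_nondegenerate hQ) h2 (by simpa using hn)]
  refine Nat.card_congr
    { toFun := fun H => ⟨H.1.map (matEquiv Q).toMonoidHom, (Subgroup.index_map_equiv H.1 (matEquiv Q)).trans H.2⟩
      invFun := fun K => ⟨K.1.comap (matEquiv Q).toMonoidHom, by
        rw [Subgroup.index_comap_of_surjective _ (matEquiv Q).surjective]; exact K.2⟩
      left_inv := fun H => Subtype.ext (Subgroup.comap_map_eq_self_of_injective (matEquiv Q).injective _)
      right_inv := fun K => Subtype.ext (Subgroup.map_comap_eq_self_of_surjective (matEquiv Q).surjective _) }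

end Cfsg.Agent.S0797
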