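import Cfsg.Statements.S0798
import Cfsg.Agent.Lib.Classical.QuadOmega.Generation

open QuadraticMap Cfsg.Agent.Lib.Classical.Quad Cfsg.Agent.Lib.Classical.QuadOmega

set_option autoImplicit false
open Cfsg

namespace Cfsg.Agent.S0798

/-- For q odd, n ≥ 2 even, Q with non-degenerate polar form (n, |F|) ≠ (4, 3), and a fixed c ≠ 0: the subgroup of the isometry group generated by the reflections r_v with Q(v) ∈ c·(F^×)² has index 2. -/
theorem result {F : Type*} [Field F] [Fintype F] (h2 : (2 : F) ≠ 0) {n : ℕ} (hn : 2 ≤ n) (heven : Even n) (Q : QuadraticForm F (Fin n → F)) (hQ : (QuadraticMap.polarBilin Q).Nondegenerate) (h43 : ¬ (n = 4 ∧ Fintype.card F = 3)) (c : F) (hc : c ≠ 0) : (Subgroup.closure {g : ↥(Cfsg.isometryGroup F ⇑Q) | ∃ (v : Fin n → F) (t : F), t ≠ 0 ∧ Q v = c * t ^ 2 ∧ ((g : Matrix.GeneralLinearGroup (Fin n) F) : Matrix (Fin n) (Fin n) F) = Cfsg.reflectionMatrix ⇑Q v}).index = 2 := by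
  classical
  rw [← Subgroup.index_map_equiv _ (matEquiv Q), MonoidHom.map_closure]
  refine Eq.trans (congrArg (fun S => (Subgroup.closure S).index) ?_)
    (index_closure_class (nd_of_nondegenerate hQ) h2 (by simpa using hn) (by simpa using heven)
      (by simpa using h43) hc)
  ext r
  constructor
  · rintro ⟨g, ⟨v, t, ht, hv, hg⟩, rfl⟩
    exact ⟨v, t, ht, hv, (coe_eq_reflection_iff Q
      (hv ▸ mul_ne_zero hc (pow_ne_zero 2 ht)) g).1 hg⟩
  · rintro ⟨v, t, ht, hv, rfl⟩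
    refine ⟨(matEquiv Q).symm (refl Q v), ⟨v, t, ht, hv, ?_⟩, (matEquiv Q).apply_symm_apply _⟩
    exact (coe_eq_reflection_iff Q (hv ▸ mul_ne_zero hc (pow_ne_zero 2 ht)) _).2
      ((matEquiv Q).apply_symm_apply _)

end Cfsg.Agent.S0798
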