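import Cfsg.Agent.Lib.PSLTwo.PairMax
import Cfsg.Statements.S0799

set_option linter.style.longLine false
set_option linter.style.haveILetI false

open Matrix MulAction OnePoint
open scoped MatrixGroups
open Cfsg.Agent.Lib.PSLTwo

namespace Cfsg.Agent.S0799

/-- A point stabiliser in `L` normalizes a Sylow subgroup. -/
theorem exists_sylow {F E : Type*} [Field F] [Fintype F] [DecidableEq F] [Field E] [DecidableEq E] [Finite E]
    [Algebra F E] (hE : Nat.card E = Fintype.card F ^ 2) {p : ℕ} [Fact p.Prime] [CharP F p] (a : OnePoint F) :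
    ∃ S : Sylow p (Lsub F), ∀ g : Lsub F, (g : PGL(2, F)) • a = a →
      g ∈ Subgroup.normalizer ((S : Subgroup (Lsub F)) : Set (Lsub F)) := by
  classical
  have hpp : p.Prime := Fact.out
  have P := (poles (F := F) (E := E) (p := p) hE).subgroup (Lsub F)
  obtain ⟨n, -, hn⟩ := FiniteField.card F p
  have hdvd : p ∣ Nat.card (Lsub F) := by
    have h1 : p ∣ Nat.gcd 2 (Fintype.card F - 1) * Nat.card (Lsub F) := by
      rw [card_Lsub_mul]; exact Dvd.dvd.mul_right (hn ▸ dvd_pow_self _ n.pos.ne') _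
    rcases hpp.dvd_mul.mp h1 with h | h
    · exfalso
      have h2 := h.trans (Nat.gcd_dvd_right 2 (Fintype.card F - 1))
      have h3 : p ∣ Fintype.card F := hn ▸ dvd_pow_self _ n.pos.ne'
      have := Nat.dvd_sub h3 h2
      rw [Nat.sub_sub_self Fintype.card_pos] at this
      exact hpp.one_lt.ne' (Nat.dvd_one.mp this)
    · exact h
  obtain ⟨S⟩ : Nonempty (Sylow p (Lsub F)) := inferInstance
  haveI : Nontrivial (S : Subgroup (Lsub F)) := by
    rw [← Finite.one_lt_card_iff_nontrivial, S.card_eq_multiplicity]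
    exact Nat.one_lt_pow (hpp.factorization_pos_of_dvd Nat.card_pos.ne' hdvd).ne' hpp.one_lt
  haveI := S.isPGroup'.center_nontrivial
  obtain ⟨k, hk, hk'⟩ := ((S.isPGroup'.to_subgroup (Subgroup.center (S : Subgroup (Lsub F)))).nontrivial_iff_card).mp
    inferInstance
  obtain ⟨z, hz⟩ := exists_prime_orderOf_dvd_card' (G := Subgroup.center (S : Subgroup (Lsub F))) p
    (hk' ▸ dvd_pow_self _ hk.ne')
  set z' : Lsub F := ((z : (S : Subgroup (Lsub F))) : Lsub F) with hz'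
  have hoz : orderOf z' = p := by rw [hz', Subgroup.orderOf_coe, Subgroup.orderOf_coe, hz]
  have hzp : z' ^ p = 1 := hoz ▸ pow_orderOf_eq_one z'
  have hz1 : z' ≠ 1 := fun h => hpp.one_lt.ne (by rw [← hoz, h, orderOf_one])
  obtain ⟨b, hb⟩ := P.exists_fix z'
  obtain ⟨b', rfl⟩ := pElem_isRat hE (g := (z' : PGL(2, F))) (fun h => hz1 (Subtype.ext h))
    (congrArg Subtype.val hzp) hb
  have hSb : ∀ g ∈ (S : Subgroup (Lsub F)), g • inc E b' = inc E b' := fun g hg => by
    have hc : z' * g = g * z' :=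
      congrArg Subtype.val ((Subgroup.mem_center_iff.mp z.2 ⟨g, hg⟩).symm)
    refine P.pElem_fix hz1 hzp hb ?_
    rw [← mul_smul, hc, mul_smul, hb]
  obtain ⟨l, hlL, hl⟩ := exists_Lsub_map b' a
  set l' : Lsub F := ⟨l, hlL⟩
  have hla : l' • inc E b' = inc E a := by rw [← hl, inc_smul]; rfl
  refine ⟨l' • S, fun g hg => ?_⟩
  have hS : ((l' • S : Sylow p (Lsub F)) : Subgroup (Lsub F)) = P.unip (inc E a) := by
    refine ((l' • S).is_maximal' (P.isPGroup_unip (inc E a)) ?_).symm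
    rw [Sylow.coe_subgroup_smul]
    rintro _ ⟨s, hs, rfl⟩
    refine ⟨?_, ?_⟩
    · show (l' * s * l'⁻¹) • inc E a = inc E a
      rw [← hla, mul_smul, mul_smul, inv_smul_smul, hSb s hs]
    · obtain ⟨j, hj⟩ := S.isPGroup' ⟨s, hs⟩
      show (l' * s * l'⁻¹) ^ p = 1
      rw [conj_pow, P.pow_p_eq_one_of_pow (k := j) (congrArg Subtype.val hj), mul_one, mul_inv_cancel]
  rw [hS, Subgroup.mem_normalizer_iff]
  have hga : g • inc E a = inc E a := by
    show (g : PGL(2, F)) • inc E a = inc E a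
    rw [← inc_smul, hg]
  intro x
  rw [P.mem_unip, P.mem_unip, conj_pow, mul_inv_eq_one, mul_eq_left]
  have e : (g * x * g⁻¹) • inc E a = inc E a ↔ x • inc E a = inc E a := by
    rw [mul_smul, mul_smul, show g⁻¹ • inc E a = inc E a from inv_smul_eq_iff.mpr hga.symm]
    constructor
    · exact fun h => smul_left_cancel g (h.trans hga.symm)
    · exact fun h => by rw [h, hga]
  rw [e]

/-- Dickson's classification of the subgroups of PSL_2(q), q a power of the prime p, d = gcd(2, q − 1): every subgroup H is (a) cyclic or dihedral with k dividing (q+1)/d or (q−1)/d (cyclic of order k, or dihedral of order 2k), (b) isomorphic to a subgroup of the normaliser of a Sylow p-subgroup, (c) isomorphic to A_4, S_4 or A_5, or (d) isomorphic to PSL_2(K) or PGL_2(K) for a finite field K with |K|^m = q. -/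
theorem result {F : Type*} [Field F] [Fintype F] {q : ℕ} (hF : Fintype.card F = q) (p : ℕ) [Fact p.Prime] [CharP F p] (H : Subgroup (Matrix.ProjectiveSpecialLinearGroup (Fin 2) F)) : (∃ k : ℕ, (k ∣ (q + 1) / Nat.gcd 2 (q - 1) ∨ k ∣ (q - 1) / Nat.gcd 2 (q - 1)) ∧ ((IsCyclic H ∧ Nat.card H = k) ∨ Nonempty (H ≃* DihedralGroup k))) ∨ (∃ (P : Sylow p (Matrix.ProjectiveSpecialLinearGroup (Fin 2) F)) (K : Subgroup (Matrix.ProjectiveSpecialLinearGroup (Fin 2) F)), K ≤ Subgroup.normalizer ((P : Subgroup (Matrix.ProjectiveSpecialLinearGroup (Fin 2) F)) : Set (Matrix.ProjectiveSpecialLinearGroup (Fin 2) F)) ∧ Nonempty (H ≃* K)) ∨ Nonempty (H ≃* alternatingGroup (Fin 4)) ∨ Nonempty (H ≃* Equiv.Perm (Fin 4)) ∨ Nonempty (H ≃* alternatingGroup (Fin 5)) ∨ (∃ (K : Type) (_ : Field K) (_ : Fintype K) (m : ℕ), Fintype.card K ^ m = q ∧ (Nonempty (H ≃* Matrix.ProjectiveSpecialLinearGroup (Fin 2) K) ∨ Nonempty (H ≃* Matrix.ProjGenLinGroup (Fin 2) K))) := by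
  classical
  subst hF
  obtain ⟨E, _, _, _, hE⟩ := exists_quadExt F
  set X := H.map (toP F) with hX
  have hXL : X ≤ Lsub F := map_toP_le H
  let eX : H ≃* X := H.equivMapOfInjective _ toP_injective
  have hcyc : ∀ u v : OnePoint E, IsTorusPair F u v → X ⊓ torus F u v ≤ torus F u v ⊓ Lsub F := fun u v _ g hg =>
    ⟨hg.2, hXL hg.1⟩
  have hkdvd : ∀ u v : OnePoint E, IsTorusPair F u v → ∀ j, j ∣ Nat.card (torus F u v ⊓ Lsub F : Subgroup PGL(2, F)) →
      j ∣ (Fintype.card F + 1) / Nat.gcd 2 (Fintype.card F - 1) ∨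
        j ∣ (Fintype.card F - 1) / Nat.gcd 2 (Fintype.card F - 1) := fun u v huv j hj => by
    obtain ⟨k, hk, hT, -, -, -⟩ := pair_data hE huv
    rw [hT, hk] at hj
    rcases card_torus_cases hE huv with e | e <;> rw [e] at hj
    · exact Or.inr hj
    · exact Or.inl hj
  rcases classify (p := p) hE X with ⟨c, hc⟩ | ⟨u, v, huv, hu, hc⟩ | ⟨u, v, huv, j, -, -, hj, hc, -, ⟨e⟩⟩ |
    ⟨-, -, ⟨e⟩⟩ | ⟨-, -, ⟨e⟩⟩ | ⟨-, -, ⟨e⟩⟩ | ⟨K, γ, -, hK⟩
  · obtain ⟨S, hS⟩ := exists_sylow (p := p) hE c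
    have hH : ∀ h ∈ H, pslEquiv h ∈ Subgroup.normalizer ((S : Subgroup (Lsub F)) : Set (Lsub F)) :=
      fun h hh => hS _ (hc ⟨h, hh, rfl⟩)
    refine Or.inr (Or.inl ⟨S.mapSurjective (f := (pslEquiv (F := F)).symm.toMonoidHom) (pslEquiv (F := F)).symm.surjective, H, ?_,
      ⟨MulEquiv.refl H⟩⟩)
    intro h hh
    show h ∈ Subgroup.normalizer (((S : Subgroup (Lsub F)).map (pslEquiv (F := F)).symm.toMonoidHom : Subgroup (Matrix.ProjectiveSpecialLinearGroup (Fin 2) F)) : Set _)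
    rw [← Subgroup.map_equiv_normalizer_eq]
    exact ⟨pslEquiv h, hH h hh, pslEquiv.symm_apply_apply h⟩
  · have hle : X ≤ torus F u v ⊓ Lsub F := le_inf hc hXL
    haveI : IsCyclic (torus F u v) := (poles (F := F) (E := E) (p := p) hE).cyc u v huv.1
    haveI : IsCyclic X := isCyclic_of_injective (Subgroup.inclusion hc) (Subgroup.inclusion_injective _)
    refine Or.inl ⟨Nat.card H, ?_, Or.inl ⟨isCyclic_of_injective eX.toMonoidHom eX.injective, rfl⟩⟩
    exact hkdvd u v huv _ (Nat.card_congr eX.toEquiv ▸ Subgroup.card_dvd_of_le hle)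
  · exact Or.inl ⟨j, hkdvd u v huv _ (hj ▸ Subgroup.card_dvd_of_le (hcyc u v huv)), Or.inr ⟨eX.trans e⟩⟩
  · exact Or.inr (Or.inr (Or.inl ⟨eX.trans e⟩))
  · exact Or.inr (Or.inr (Or.inr (Or.inl ⟨eX.trans e⟩)))
  · exact Or.inr (Or.inr (Or.inr (Or.inr (Or.inl ⟨eX.trans e⟩))))
  · obtain ⟨m, -, hm⟩ := exists_card_pow K
    obtain ⟨K₀, _, _, hc, ⟨e⟩⟩ := exists_small_field K
    refine Or.inr (Or.inr (Or.inr (Or.inr (Or.inr ⟨K₀, inferInstance, inferInstance, m, ?_, ?_⟩))))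
    · rw [hm, ← hc, Nat.card_eq_fintype_card]
    · rcases hK with h | ⟨-, h⟩
      · exact Or.inr ⟨eX.trans (((X.equivMapOfInjective _ (MulAut.conj γ).injective).trans
          (MulEquiv.subgroupCongr h)).trans ((subPGLEquiv K).symm.trans (pglCongr e.symm)))⟩
      · exact Or.inl ⟨eX.trans (((X.equivMapOfInjective _ (MulAut.conj γ).injective).trans
          (MulEquiv.subgroupCongr h)).trans ((subPSLEquiv K).symm.trans (pslCongr e.symm)))⟩

end Cfsg.Agent.S0799
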