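import Cfsg.Statements.S0800


set_option autoImplicit false
open Cfsg Matrix

namespace Cfsg.Agent.S0800

/-- Tori of SL_2(q): if g ∈ SL_2(q) has order coprime to the characteristic p, then the order of g divides q − 1 or q + 1. -/
theorem result {F : Type*} [Field F] [Fintype F] {q : ℕ} (hF : Fintype.card F = q) (p : ℕ) [Fact p.Prime] [CharP F p] (g : Matrix.SpecialLinearGroup (Fin 2) F) (hg : Nat.Coprime (orderOf g) p) : orderOf g ∣ q - 1 ∨ orderOf g ∣ q + 1 := by
  classical
  set M := (g : Matrix (Fin 2) (Fin 2) F) with hM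
  set χ := M.charpoly with hχ
  have hdeg : χ.natDegree = 2 := by rw [hχ, Matrix.charpoly_natDegree_eq_dim]; simp
  have hpow : ∀ k : ℕ, χ ∣ Polynomial.X ^ k - 1 → g ^ k = 1 := by
    rintro k ⟨r, hr⟩
    have h := congrArg (Polynomial.aeval M) hr
    rw [map_sub, map_pow, Polynomial.aeval_X, map_one, map_mul, hχ, Matrix.aeval_self_charpoly,
      zero_mul, sub_eq_zero] at h
    apply Subtype.ext
    rw [Matrix.SpecialLinearGroup.coe_pow, Matrix.SpecialLinearGroup.coe_one, ← hM, h]
  have hfrob : ∀ a : F, a ≠ 0 → Polynomial.X - Polynomial.C a ∣ Polynomial.X ^ (q - 1) - 1 := by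
    intro a ha
    rw [Polynomial.dvd_iff_isRoot, Polynomial.IsRoot, Polynomial.eval_sub, Polynomial.eval_pow,
      Polynomial.eval_X, Polynomial.eval_one, sub_eq_zero, ← hF]
    exact FiniteField.pow_card_sub_one_eq_one a ha
  have hχ' : χ = Polynomial.X ^ 2 - Polynomial.C M.trace * Polynomial.X + Polynomial.C 1 := by
    rw [hχ, Matrix.charpoly_fin_two, g.det_coe]
  by_cases hroot : ∃ a : F, χ.IsRoot a
  · obtain ⟨a, ha⟩ := hroot
    rw [hχ', Polynomial.IsRoot] at ha
    simp at ha
    have ha0 : a ≠ 0 := fun e => by simp [e] at ha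
    have hfact : χ = (Polynomial.X - Polynomial.C a) * (Polynomial.X - Polynomial.C a⁻¹) := by
      have ht : M.trace = a + a⁻¹ := by field_simp; linear_combination -ha
      have h1 : Polynomial.C a * Polynomial.C a⁻¹ = (1 : Polynomial F) := by
        rw [← Polynomial.C_mul, mul_inv_cancel₀ ha0, Polynomial.C_1]
      rw [hχ', ht, Polynomial.C_add, Polynomial.C_1]
      linear_combination -h1
    rcases eq_or_ne a a⁻¹ with he | hne
    · -- a repeated eigenvalue `±1`
      left
      have hz : (M - Matrix.scalar (Fin 2) a) ^ 2 = 0 := by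
        have h := Matrix.aeval_self_charpoly M
        rw [← hχ, hfact, ← he, map_mul, map_sub, Polynomial.aeval_X, Polynomial.aeval_C] at h
        rw [sq]
        convert h using 2 <;> simp [Matrix.algebraMap_eq_diagonal, Matrix.scalar_apply]
      set N := M - Matrix.scalar (Fin 2) a with hN
      have hzp : N ^ p = 0 := pow_eq_zero_of_le (Fact.out : p.Prime).two_le hz
      have hMN : M = N + Matrix.scalar (Fin 2) a := by rw [hN]; abel
      haveI : CharP (Matrix (Fin 2) (Fin 2) F) p := Matrix.charP p
      have hMp : M ^ p = Matrix.scalar (Fin 2) (a ^ p) := by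
        rw [hMN, add_pow_char_of_commute p (Matrix.scalar_commute a (fun r => Commute.all a r) N).symm,
          hzp, zero_add, map_pow]
      have hord : orderOf g ∣ p * (q - 1) := by
        refine orderOf_dvd_of_pow_eq_one ?_
        apply Subtype.ext
        rw [pow_mul, Matrix.SpecialLinearGroup.coe_pow, Matrix.SpecialLinearGroup.coe_pow, ← hM, hMp,
          ← map_pow, ← hF, FiniteField.pow_card_sub_one_eq_one _ (pow_ne_zero p ha0), map_one,
          Matrix.SpecialLinearGroup.coe_one]
      exact (Nat.Coprime.dvd_mul_left hg).1 hord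
    · left
      refine orderOf_dvd_of_pow_eq_one (hpow _ ?_)
      rw [hfact]
      exact (Polynomial.pairwise_coprime_X_sub_C (s := id) Function.injective_id hne).mul_dvd
        (hfrob a ha0) (hfrob _ (inv_ne_zero ha0))
  · right
    refine orderOf_dvd_of_pow_eq_one (hpow _ ?_)
    have hmon : χ.Monic := Matrix.charpoly_monic M
    have hirr : Irreducible χ := by
      refine (Polynomial.irreducible_iff_roots_eq_zero_of_degree_le_three (by omega) (by omega)).2 ?_
      rw [Multiset.eq_zero_iff_forall_notMem]
      exact fun a ha => hroot ⟨a, Polynomial.isRoot_of_mem_roots ha⟩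
    haveI := Fact.mk hirr
    rw [← AdjoinRoot.mk_eq_zero (f := χ), map_sub, map_pow, AdjoinRoot.mk_X, map_one, sub_eq_zero]
    set x := AdjoinRoot.root χ
    set t := AdjoinRoot.of χ M.trace with ht
    have hroot1 : x ^ 2 - t * x + 1 = 0 := by
      have := (congrArg (fun P => Polynomial.eval₂ (AdjoinRoot.of χ) x P) hχ').symm.trans
        (AdjoinRoot.eval₂_root χ)
      simpa [x, t, Polynomial.eval₂_add, Polynomial.eval₂_sub] using this
    haveI : CharP (AdjoinRoot χ) p := charP_of_injective_ringHom (AdjoinRoot.of χ).injective p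
    obtain ⟨N, -, hN⟩ := FiniteField.card F p
    have hq : q = p ^ (N : ℕ) := by rw [← hF, hN]
    have htq : t ^ q = t := by rw [ht, ← map_pow, ← hF, FiniteField.pow_card]
    have hroot2 : (x ^ q) ^ 2 - t * x ^ q + 1 = 0 := by
      have h : (x ^ 2 - t * x + 1) ^ q = 0 ^ q := congrArg (fun y => y ^ q) hroot1
      rw [zero_pow (by rw [← hF]; exact Fintype.card_ne_zero), hq, add_pow_char_pow, sub_pow_char_pow,
        one_pow, mul_pow, ← hq, htq, ← pow_mul, mul_comm 2 q, pow_mul] at h
      exact h
    have h3 : (x ^ q - x) * (x ^ q + x - t) = 0 := by linear_combination hroot2 - hroot1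
    rcases mul_eq_zero.1 h3 with h4 | h4
    · exfalso
      -- then the root would lie in the base field
      have h5 : χ ∣ Polynomial.X ^ q - Polynomial.X := by
        rw [← AdjoinRoot.mk_eq_zero (f := χ), map_sub, map_pow, AdjoinRoot.mk_X]
        exact h4
      obtain ⟨r, hr⟩ := h5
      have hne : (Polynomial.X ^ q - Polynomial.X : Polynomial F) ≠ 0 :=
        FiniteField.X_pow_card_sub_X_ne_zero F (by rw [← hF]; exact Fintype.one_lt_card)
      have hd : (Polynomial.X ^ q - Polynomial.X : Polynomial F).natDegree = q :=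
        FiniteField.X_pow_card_sub_X_natDegree_eq F (by rw [← hF]; exact Fintype.one_lt_card)
      have hroots := FiniteField.roots_X_pow_card_sub_X F
      rw [hF, hr, Polynomial.roots_mul (hr ▸ hne),
        Multiset.eq_zero_of_forall_notMem (fun a ha => hroot ⟨a, Polynomial.isRoot_of_mem_roots ha⟩),
        zero_add] at hroots
      rw [hr, Polynomial.natDegree_mul hirr.ne_zero (fun e => hne (by rw [hr, e, mul_zero])),
        hdeg] at hd
      have hc := Polynomial.card_roots' r
      rw [hroots] at hc
      simp [hF] at hc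
      omega
    · rw [pow_succ]
      linear_combination x * h4 - hroot1

end Cfsg.Agent.S0800
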