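import Cfsg.Agent.Lib.PSLTwo.SmallField
import Cfsg.Statements.S0802

set_option linter.style.longLine false
set_option linter.style.haveILetI false

open Matrix MulAction OnePoint
open scoped MatrixGroups
open Cfsg.Agent.Lib.PSLTwo

namespace Cfsg.Agent.S0802

/-- PSL_2(p^n) has a subgroup isomorphic to A_4 if and only if it is not the case that p = 2 and n is odd. -/
theorem result {F : Type*} [Field F] [Fintype F] (p n : ℕ) [Fact p.Prime] [CharP F p] (hF : Fintype.card F = p ^ n) : (∃ H : Subgroup (Matrix.ProjectiveSpecialLinearGroup (Fin 2) F), Nonempty (H ≃* alternatingGroup (Fin 4))) ↔ ¬ (p = 2 ∧ Odd n) := by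
  classical
  have hpp : p.Prime := Fact.out
  obtain ⟨E, _, _, _, hE⟩ := exists_quadExt F
  constructor
  · rintro ⟨H, ⟨e⟩⟩ ⟨rfl, hn⟩
    set X := H.map (toP F) with hX
    have hc : Nat.card X = 12 := by
      rw [← Nat.card_congr (H.equivMapOfInjective _ toP_injective).toEquiv, Nat.card_congr e.toEquiv,
        Nat.card_eq_fintype_card]
      decide +kernel
    have hev : Even (Fintype.card F) := hF ▸ even_two.pow_of_ne_zero (fun h => by simp [h] at hn)
    have h3 : Fintype.card F % 3 = 2 := by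
      obtain ⟨j, rfl⟩ := hn
      rw [hF, pow_succ, pow_mul, Nat.mul_mod, Nat.pow_mod]
      norm_num
    rcases classify (p := 2) hE X with ⟨c, hc'⟩ | ⟨u, v, huv, -, hc'⟩ | ⟨u, v, huv, k, -, hk, -, -, hcd, -⟩ |
      ⟨hp, -, -⟩ | ⟨hp, -, -⟩ | ⟨hp, -, -⟩ | ⟨K, γ, hq, hK⟩
    · have hd := Subgroup.card_dvd_of_le hc'
      rw [hc, card_stab_point] at hd
      have h1 : 3 ∣ Fintype.card F * (Fintype.card F - 1) := (by norm_num : (3 : ℕ) ∣ 12).trans hd
      rcases (Nat.Prime.dvd_mul Nat.prime_three).mp h1 with d | d <;> omega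
    · have hd := Subgroup.card_dvd_of_le hc'
      rw [hc] at hd
      have h2 : 2 ∣ Nat.card (torus F u v) := (by norm_num : (2 : ℕ) ∣ 12).trans hd
      obtain ⟨r, hr⟩ := hev
      have := Fintype.card_pos (α := F)
      rcases card_torus_cases hE huv with e | e <;> omega
    · obtain ⟨r, hr⟩ := hev
      have := Fintype.card_pos (α := F)
      rw [show k = 6 by omega] at hk
      have h2 : 2 ∣ Nat.card (torus F u v) := (by norm_num : (2 : ℕ) ∣ 6).trans hk
      rcases card_torus_cases hE huv with e | e <;> omega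
    · exact hp (by norm_num)
    · exact hp (by norm_num)
    · rcases hp with h | h
      · exact h (by norm_num)
      · omega
    · obtain ⟨b, hb, e'⟩ := card_subfield_eq_pow 2 K
      have h4 : 4 ≤ Nat.card K := by
        have : 2 ∣ Nat.card K := e' ▸ dvd_pow_self _ (by omega)
        omega
      have := nat_cube_mono h4
      rw [show 4 * (4 ^ 2 - 1) = 60 by rfl] at this
      rcases card_of_subfield hK with c | ⟨-, c⟩ <;> omega
  · intro hne
    by_cases hp2 : p = 2
    · subst hp2
      have he : Even n := Nat.not_odd_iff_even.mp fun h => hne ⟨rfl, h⟩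
      obtain ⟨K, hK⟩ := exists_subfield 2 hF he.two_dvd two_ne_zero
      haveI := Fintype.ofFinite K
      obtain ⟨S, ⟨e⟩⟩ := exists_alt_four_of_four (K := K) (by rw [← Nat.card_eq_fintype_card, hK]; rfl)
      have hL : Lsub F = ⊤ := Lsub_eq_top_of_even (by
        rw [hF]; refine even_two.pow_of_ne_zero fun h => ?_
        rw [h, pow_zero] at hF
        exact Fintype.one_lt_card.ne' hF)
      obtain ⟨H, -, ⟨e'⟩⟩ := exists_psl_subgroup (X := S.map (ProjGenLinGroup.map K.subtype)) (hL ▸ le_top)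
      exact ⟨H, ⟨e'.trans ((S.equivMapOfInjective _ (pgl_map_injective K.subtype)).symm.trans e)⟩⟩
    · have hodd : Odd (Fintype.card F) := hF ▸ (hpp.odd_of_ne_two hp2).pow
      have h2 : (2 : F) ≠ 0 := Ring.two_ne_zero (ringChar_ne_two hodd)
      obtain ⟨a, b, hxy⟩ := exists_sum_sq_neg_one F
      obtain ⟨H, -, ⟨e'⟩⟩ := exists_psl_subgroup (qA_le_Lsub hxy h2)
      obtain ⟨e⟩ := qA_iso hxy h2
      exact ⟨H, ⟨e'.trans e⟩⟩

end Cfsg.Agent.S0802
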