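import Cfsg.Agent.Lib.PSLTwo.SmallField
import Cfsg.Statements.S0803

set_option linter.style.longLine false
set_option linter.style.haveILetI false

open Matrix MulAction OnePoint
open scoped MatrixGroups
open Cfsg.Agent.Lib.PSLTwo

namespace Cfsg.Agent.S0803

/-- PSL_2(q) has a subgroup isomorphic to S_4 iff q² ≡ 1 (mod 16). -/
theorem result {F : Type*} [Field F] [Fintype F] {q : ℕ} (hF : Fintype.card F = q) : (∃ H : Subgroup (Matrix.ProjectiveSpecialLinearGroup (Fin 2) F), Nonempty (H ≃* Equiv.Perm (Fin 4))) ↔ q ^ 2 % 16 = 1 := by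
  classical
  subst hF
  have hmod : ∀ m : ℕ, m ^ 2 % 16 = (m % 16) ^ 2 % 16 := fun m => Nat.pow_mod _ _ _
  obtain ⟨E, _, _, _, hE⟩ := exists_quadExt F
  constructor
  · rintro ⟨H, ⟨e⟩⟩
    set X := H.map (toP F) with hX
    have eX : X ≃* Equiv.Perm (Fin 4) := (H.equivMapOfInjective _ toP_injective).symm.trans e
    rcases Nat.even_or_odd (Fintype.card F) with he | ho
    · exfalso
      obtain ⟨p, hp⟩ := CharP.exists F
      haveI : Fact p.Prime := ⟨CharP.char_is_prime F p⟩
      obtain ⟨n, -, hn⟩ := FiniteField.card F p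
      obtain rfl : p = 2 := ((Nat.prime_dvd_prime_iff_eq Nat.prime_two Fact.out).mp
        (Nat.prime_two.dvd_of_dvd_pow (n := (n : ℕ)) (hn ▸ he.two_dvd))).symm
      have hc : Nat.card X = 24 := by rw [Nat.card_congr eX.toEquiv, Nat.card_perm, Nat.card_fin]; rfl
      have P := poles (F := F) (E := E) (p := 2) hE
      obtain ⟨s, t, hs, ht, hst⟩ : ∃ s t : Equiv.Perm (Fin 4), s * s = 1 ∧ t * t = 1 ∧ s * t ≠ t * s :=
        ⟨c[0, 1], c[1, 2], by decide +kernel, by decide +kernel, by decide +kernel⟩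
      let f : Equiv.Perm (Fin 4) →* PGL(2, F) := X.subtype.comp eX.symm.toMonoidHom
      have fmem : ∀ g, f g ∈ X := fun g => (eX.symm g).2
      have hnc : f s * f t ≠ f t * f s := fun h => hst (eX.symm.injective (Subtype.ext (by
        have : f (s * t) = f (t * s) := by rw [map_mul, map_mul, h]
        exact this)))
      have hfix : ∀ z : OnePoint E, ¬ ∀ g ∈ X, g • z = z := fun z hz => hnc
        (P.uni (f s) (f t) z (hz _ (fmem s)) (hz _ (fmem t)) (by rw [pow_two, ← map_mul, hs, map_one])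
          (by rw [pow_two, ← map_mul, ht, map_one]))
      rcases classify (p := 2) hE X with ⟨c, hc'⟩ | ⟨u, v, huv, -, hc'⟩ | ⟨u, v, huv, k, -, hk, -, -, hcd, -⟩ |
        ⟨hp, -, -⟩ | ⟨hp, -, -⟩ | ⟨hp, -, -⟩ | ⟨K, γ, hq, hK⟩
      · exact hfix (inc E c) fun g hg => by rw [← inc_smul, hc' hg]
      · exact hfix u fun g hg => (hc' hg).1
      · obtain ⟨r, hr⟩ := he
        have := Fintype.card_pos (α := F)
        rw [show k = 12 by omega] at hk
        have h2 : 2 ∣ Nat.card (torus F u v) := (by norm_num : (2 : ℕ) ∣ 12).trans hk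
        rcases card_torus_cases hE huv with e | e <;> omega
      · exact hp (by norm_num)
      · exact hp (by norm_num)
      · rcases hp with h | h
        · exact h (by norm_num)
        · omega
      · obtain ⟨b, hb, e'⟩ := card_subfield_eq_pow 2 K
        have h4 : 4 ≤ Nat.card K := by
          have : 2 ∣ Nat.card K := e' ▸ dvd_pow_self _ (by omega)
          omega
        have := nat_cube_mono h4
        rw [show 4 * (4 ^ 2 - 1) = 60 by rfl] at this
        rcases card_of_subfield hK with c | ⟨-, c⟩ <;> omega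
    · have h2 : (2 : F) ≠ 0 := Ring.two_ne_zero (ringChar_ne_two ho)
      obtain ⟨a, b, hxy⟩ := exists_sum_sq_neg_one F
      obtain ⟨γ, hγ⟩ := exists_conj_qN hxy h2 ⟨eX⟩
      have hsq := (qN_le_Lsub_iff hxy h2).mp (hγ ▸ conj_le_Lsub (map_toP_le H) γ)
      rw [FiniteField.isSquare_two_iff] at hsq
      rw [Nat.odd_iff] at ho
      rw [hmod]
      rcases (show Fintype.card F % 16 = 1 ∨ Fintype.card F % 16 = 7 ∨ Fintype.card F % 16 = 9 ∨
        Fintype.card F % 16 = 15 by omega) with r | r | r | r <;> rw [r] <;> norm_num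
  · intro h
    rw [hmod] at h
    have h16 : Fintype.card F % 16 = 1 ∨ Fintype.card F % 16 = 7 ∨ Fintype.card F % 16 = 9 ∨
        Fintype.card F % 16 = 15 := by
      have := Nat.mod_lt (Fintype.card F) (show 16 > 0 by norm_num)
      interval_cases hh : Fintype.card F % 16 <;> simp_all
    have ho : Odd (Fintype.card F) := by rw [Nat.odd_iff]; omega
    have h2 : (2 : F) ≠ 0 := Ring.two_ne_zero (ringChar_ne_two ho)
    obtain ⟨a, b, hxy⟩ := exists_sum_sq_neg_one F
    have hsq : IsSquare (2 : F) := by rw [FiniteField.isSquare_two_iff]; omega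
    obtain ⟨H, -, ⟨e'⟩⟩ := exists_psl_subgroup ((qN_le_Lsub_iff hxy h2).mpr hsq)
    obtain ⟨e⟩ := qN_iso hxy h2
    exact ⟨H, ⟨e'.trans e⟩⟩

end Cfsg.Agent.S0803
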