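import Cfsg.Agent.Lib.PSLTwo.SmallField
import Cfsg.Statements.S0804

set_option linter.style.longLine false
set_option linter.style.haveILetI false

open Matrix MulAction OnePoint
open scoped MatrixGroups
open Cfsg.Agent.Lib.PSLTwo

namespace Cfsg.Agent.S0804

/-- PSL_2(q) has a subgroup isomorphic to A_5 iff 5 ∣ q(q² − 1). -/
theorem result {F : Type*} [Field F] [Fintype F] {q : ℕ} (hF : Fintype.card F = q) : (∃ H : Subgroup (Matrix.ProjectiveSpecialLinearGroup (Fin 2) F), Nonempty (H ≃* alternatingGroup (Fin 5))) ↔ 5 ∣ q * (q ^ 2 - 1) := by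
  classical
  subst hF
  constructor
  · rintro ⟨H, ⟨e⟩⟩
    have hc : Nat.card H = 60 := by
      rw [Nat.card_congr e.toEquiv, Nat.card_eq_fintype_card]; decide +kernel
    rw [← card_Lsub_mul, card_Lsub]
    exact ((by norm_num : 5 ∣ 60).trans (hc ▸ Subgroup.card_subgroup_dvd_card H)).mul_left _
  · intro h
    obtain ⟨p, hp⟩ := CharP.exists F
    haveI : Fact p.Prime := ⟨CharP.char_is_prime F p⟩
    obtain ⟨n, -, hn⟩ := FiniteField.card F p
    have hmod : ∀ m : ℕ, m ^ 2 % 5 = (m % 5) ^ 2 % 5 := fun m => Nat.pow_mod _ _ _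
    have h5 : Fintype.card F % 5 = 0 ∨ Fintype.card F % 5 = 1 ∨ Fintype.card F % 5 = 4 := by
      rcases (Nat.Prime.dvd_mul (by norm_num : Nat.Prime 5)).mp h with d | d
      · exact Or.inl (Nat.mod_eq_zero_of_dvd d)
      · have h1 : 1 ≤ Fintype.card F ^ 2 := Nat.one_le_pow _ _ Fintype.card_pos
        have h4 : Fintype.card F ^ 2 % 5 = 1 := by omega
        rw [hmod] at h4
        rcases (show Fintype.card F % 5 = 0 ∨ Fintype.card F % 5 = 1 ∨ Fintype.card F % 5 = 2 ∨
          Fintype.card F % 5 = 3 ∨ Fintype.card F % 5 = 4 by omega) with r | r | r | r | r <;> rw [r] at h4 <;>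
          norm_num at h4 <;> omega
    rcases Nat.even_or_odd (Fintype.card F) with he | ho
    · obtain rfl : p = 2 := ((Nat.prime_dvd_prime_iff_eq Nat.prime_two Fact.out).mp
        (Nat.prime_two.dvd_of_dvd_pow (n := (n : ℕ)) (hn ▸ he.two_dvd))).symm
      have hev : Even (n : ℕ) := by
        by_contra hne
        obtain ⟨j, hj⟩ := Nat.not_even_iff_odd.mp hne
        rw [hn, hj, pow_succ, pow_mul, Nat.mul_mod, Nat.pow_mod] at h5
        have : 4 ^ j % 5 = 1 ∨ 4 ^ j % 5 = 4 := by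
          clear h5 hj
          induction j with
          | zero => exact Or.inl rfl
          | succ j ih => rw [pow_succ, Nat.mul_mod]; rcases ih with r | r <;> rw [r] <;> norm_num
        norm_num at h5
        omega
      obtain ⟨K, hK⟩ := exists_subfield 2 hn hev.two_dvd two_ne_zero
      haveI := Fintype.ofFinite K
      obtain ⟨e⟩ := pgl_four_iso (K := K) (by rw [← Nat.card_eq_fintype_card, hK]; rfl)
      obtain ⟨H, -, ⟨e'⟩⟩ := exists_psl_subgroup (X := subPGL K) (Lsub_eq_top_of_even (F := F) he ▸ le_top)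
      exact ⟨H, ⟨e'.trans ((subPGLEquiv K).symm.trans e)⟩⟩
    · have h2 : (2 : F) ≠ 0 := Ring.two_ne_zero (ringChar_ne_two ho)
      obtain ⟨a, b, hxy⟩ := exists_sum_sq_neg_one F
      obtain ⟨s, hs⟩ : IsSquare (5 : F) := isSquare_five_iff.mpr (Or.inl (by omega))
      have hs' : s ^ 2 = 5 := by rw [sq]; exact hs.symm
      obtain ⟨⟨e⟩, -⟩ := qA5_iso hxy h2 hs'
      obtain ⟨H, -, ⟨e'⟩⟩ := exists_psl_subgroup (qA5_le_Lsub hxy h2 hs')
      exact ⟨H, ⟨e'.trans e⟩⟩

end Cfsg.Agent.S0804
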