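import Cfsg.Agent.Lib.PSLTwo.SmallField
import Cfsg.Agent.Lib.PSLTwo.SubfieldMax
import Cfsg.Statements.S0805

set_option linter.style.longLine false
set_option linter.style.haveILetI false

open Matrix MulAction OnePoint
open scoped MatrixGroups
open Cfsg.Agent.Lib.PSLTwo

namespace Cfsg.Agent.S0805

/-- Subfield subgroups: let F be a finite field of odd order q and K a finite field with |K|^m = q, m ≥ 1. Then PSL_2(F) has a subgroup isomorphic to PSL_2(K), and has a subgroup isomorphic to PGL_2(K) if and only if m is even. -/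
theorem result {F K : Type*} [Field F] [Fintype F] [Field K] [Fintype K] {q : ℕ} (hF : Fintype.card F = q) (hodd : Odd q) (m : ℕ) (hm : 1 ≤ m) (hK : Fintype.card K ^ m = q) : (∃ H : Subgroup (Matrix.ProjectiveSpecialLinearGroup (Fin 2) F), Nonempty (H ≃* Matrix.ProjectiveSpecialLinearGroup (Fin 2) K)) ∧ ((∃ H : Subgroup (Matrix.ProjectiveSpecialLinearGroup (Fin 2) F), Nonempty (H ≃* Matrix.ProjGenLinGroup (Fin 2) K)) ↔ Even m) := by
  classical
  obtain ⟨p, _, _, a, K', ha, hqa, hK', hF', ⟨eK⟩⟩ := subfield_setup (r := m) rfl (hF.trans hK.symm) (by omega)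
  subst hF
  have hm' : Fintype.card F = Nat.card K' ^ m := by rw [hK', hK]
  refine ⟨?_, ?_, ?_⟩
  · obtain ⟨H, -, ⟨e⟩⟩ := exists_psl_subgroup (subPSL_le_Lsub K')
    exact ⟨H, ⟨e.trans ((subPSLEquiv K').symm.trans (pslCongr eK.symm))⟩⟩
  · rintro ⟨H, ⟨e⟩⟩
    obtain ⟨E, _, _, _, hE⟩ := exists_quadExt F
    have h2 : (2 : F) ≠ 0 := Ring.two_ne_zero (ringChar_ne_two hodd)
    obtain ⟨x, y, hxy⟩ := exists_sum_sq_neg_one F
    set X := H.map (toP F) with hX
    have eX : X ≃* PGL(2, K) := (H.equivMapOfInjective _ toP_injective).symm.trans e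
    have hXL : X ≤ Lsub F := map_toP_le H
    have hKodd : Odd (Fintype.card K) := by
      have := hK ▸ hodd
      exact (Nat.odd_pow_iff (by omega)).mp this
    obtain ⟨E', _, _, _, hE'⟩ := exists_quadExt K
    have hcX : Nat.card X = Fintype.card K * (Fintype.card K ^ 2 - 1) := by
      rw [Nat.card_congr eX.toEquiv, card_pgl]
    have h3 : 3 ≤ Fintype.card K := by
      have := Fintype.one_lt_card (α := K); obtain ⟨r, hr⟩ := hKodd; omega
    by_cases hK3 : Fintype.card K = 3
    · obtain ⟨e3⟩ := pgl_three_iso (K := K) hK3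
      obtain ⟨γ, hγ⟩ := exists_conj_qN hxy h2 ⟨eX.trans e3⟩
      have hsq := (qN_le_Lsub_iff hxy h2).mp (hγ ▸ conj_le_Lsub hXL γ)
      by_contra hne
      obtain ⟨j, rfl⟩ := Nat.not_even_iff_odd.mp hne
      rw [FiniteField.isSquare_two_iff, ← hK, hK3, pow_succ, pow_mul, Nat.mul_mod, Nat.pow_mod] at hsq
      norm_num at hsq
    · have h5 : 5 ≤ Fintype.card K := by obtain ⟨r, hr⟩ := hKodd; omega
      have h120 := nat_cube_mono h5
      norm_num at h120
      have h2K : (2 : K) ≠ 0 := Ring.two_ne_zero (ringChar_ne_two hKodd)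
      obtain ⟨x', y', hxy'⟩ := exists_sum_sq_neg_one K
      obtain ⟨eA⟩ := qA_iso hxy' h2K
      set A := ((qA hxy' h2K).map eX.symm.toMonoidHom).map X.subtype with hA
      have eA' : A ≃* alternatingGroup (Fin 4) :=
        (((qA hxy' h2K).map eX.symm.toMonoidHom).equivMapOfInjective _ X.subtype_injective).symm.trans
          ((((qA hxy' h2K).equivMapOfInjective _ eX.symm.injective).symm).trans eA)
      obtain ⟨γ, hγ⟩ := exists_conj_qA hxy h2 ⟨eA'⟩
      have hqA : qA hxy h2 ≤ X.map (MulAut.conj γ).toMonoidHom := hγ ▸ Subgroup.map_mono (Subgroup.map_subtype_le _)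
      have hcard : Nat.card (X.map (MulAut.conj γ).toMonoidHom) = Fintype.card K * (Fintype.card K ^ 2 - 1) := by
        rw [card_conj_map, hcX]
      rcases big_of_noFix (p := p) hE (qA_no_fix hE hxy h2 hqA : NoFix E _) with ⟨-, hc, -⟩ | ⟨-, hc, -⟩ |
        ⟨-, hc, -⟩ | ⟨K₁, δ, -, h⟩
      · omega
      · omega
      · omega
      · have hc := card_of_subfield h
        rw [hcard] at hc
        have hK1 : Nat.card K₁ = Fintype.card K ∧
            (X.map (MulAut.conj γ).toMonoidHom).map (MulAut.conj δ).toMonoidHom = subPGL K₁ := by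
          rcases Nat.lt_trichotomy (Nat.card K₁) (Fintype.card K) with hlt | heq | hgt
          · have := nat_cube_lt hlt (by omega)
            omega
          · refine ⟨heq, h.resolve_right fun h' => ?_⟩
            have := congrArg (fun S : Subgroup PGL(2, F) => 2 * Nat.card S) h'.2
            simp only [card_conj_map, two_mul_card_subPSL K₁ h'.1, heq] at this
            rw [hcX] at this
            omega
          · exfalso
            obtain ⟨b, hb, hKb⟩ := card_subfield_eq_pow p K₁
            have hab : a < b := by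
              by_contra hle
              have := Nat.pow_le_pow_right (Fact.out : p.Prime).pos (not_lt.mp hle)
              omega
            have h3K : 3 * Fintype.card K ≤ Nat.card K₁ := by
              have hp3 : 3 ≤ p := by
                have := (Fact.out : p.Prime).two_le
                by_contra h'
                have hp2 : p = 2 := by omega
                rw [hqa, hp2] at hKodd
                exact absurd ((Nat.odd_pow_iff ha).mp hKodd) (by decide)
              rw [hqa, hKb]
              calc 3 * p ^ a ≤ p * p ^ a := Nat.mul_le_mul_right _ hp3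
                _ = p ^ (a + 1) := by ring
                _ ≤ p ^ b := Nat.pow_le_pow_right (by omega) hab
            have := Nat.mul_le_mul h3K (Nat.sub_le_sub_right (Nat.pow_le_pow_left hgt.le 2) 1)
            rw [mul_assoc] at this
            omega
        obtain ⟨hK1, hK1'⟩ := hK1
        have hle : subPGL K₁ ≤ Lsub F := hK1' ▸ conj_le_Lsub (conj_le_Lsub hXL γ) δ
        exact (forall_square_iff hodd K₁ (by rw [hK1, hK])).mp ((subPGL_le_Lsub_iff K₁).mp hle)
  · intro hev
    obtain ⟨H, -, ⟨e⟩⟩ := exists_psl_subgroup ((subPGL_le_Lsub_iff K').mpr ((forall_square_iff hodd K' hm').mpr hev))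
    exact ⟨H, ⟨e.trans ((subPGLEquiv K').symm.trans (pglCongr eK.symm))⟩⟩

end Cfsg.Agent.S0805
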