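import Cfsg.Agent.Lib.PSLTwo.PairMax
import Cfsg.Statements.S0806

set_option linter.style.longLine false
set_option linter.style.haveILetI false

open Matrix MulAction OnePoint
open scoped MatrixGroups
open Cfsg.Agent.Lib.PSLTwo

namespace Cfsg.Agent.S0806

/-- Minimal index (Galois): if q ∉ {2, 3, 5, 7, 9, 11} then every proper subgroup of PSL_2(q) has index ≥ q + 1, and some subgroup has index exactly q + 1. -/
theorem result {F : Type*} [Field F] [Fintype F] {q : ℕ} (hF : Fintype.card F = q) (hq : q ∉ ({2, 3, 5, 7, 9, 11} : Finset ℕ)) : (∀ H : Subgroup (Matrix.ProjectiveSpecialLinearGroup (Fin 2) F), H ≠ ⊤ → q + 1 ≤ H.index) ∧ ∃ H : Subgroup (Matrix.ProjectiveSpecialLinearGroup (Fin 2) F), H.index = q + 1 := by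
  classical
  subst hF
  simp only [Finset.mem_insert, Finset.mem_singleton] at hq
  push Not at hq
  have h2 := Fintype.one_lt_card (α := F)
  have h4 : 4 ≤ Fintype.card F := by omega
  obtain ⟨E, _, _, _, hE⟩ := exists_quadExt F
  obtain ⟨p, hp⟩ := CharP.exists F
  haveI : Fact p.Prime := ⟨CharP.char_is_prime F p⟩
  set d := Nat.gcd 2 (Fintype.card F - 1) with hd
  have hd2 : d ≤ 2 := Nat.le_of_dvd two_pos (Nat.gcd_dvd_left _ _)
  have hd0 : 0 < d := Nat.gcd_pos_of_pos_left _ two_pos
  have hev : Even (Fintype.card F) → d = 1 := fun he => by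
    rcases (Nat.dvd_prime Nat.prime_two).mp (Nat.gcd_dvd_left 2 (Fintype.card F - 1)) with e | e
    · exact e
    · have := Nat.gcd_dvd_right 2 (Fintype.card F - 1)
      rw [e] at this
      obtain ⟨r, hr⟩ := he
      omega
  have hL : d * Nat.card (Lsub F) = Fintype.card F * (Fintype.card F - 1) * (Fintype.card F + 1) := by
    rw [hd, card_Lsub_mul, mul_assoc]
    congr 1
    have := Nat.sq_sub_sq (Fintype.card F) 1
    rw [one_pow] at this
    rw [this, mul_comm]
  have hodd5 : Odd (Fintype.card F) → 13 ≤ Fintype.card F := fun ho => by obtain ⟨r, hr⟩ := ho; omega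
  refine ⟨fun H hH => ?_, ?_⟩
  · set X := H.map (toP F) with hX
    have hXL : X ≤ Lsub F := map_toP_le H
    have hcX : Nat.card H = Nat.card X := Nat.card_congr (H.equivMapOfInjective _ toP_injective).toEquiv
    have hne : X ≠ Lsub F := fun e => hH (Subgroup.eq_top_of_card_eq _ (by rw [hcX, e, card_Lsub]))
    suffices hs : d * Nat.card X ≤ Fintype.card F * (Fintype.card F - 1) by
      have h1 := Subgroup.card_mul_index H
      rw [hcX, ← card_Lsub] at h1
      have h3 : d * Nat.card X * (Fintype.card F + 1) ≤ d * Nat.card X * H.index := by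
        rw [mul_assoc d _ H.index, h1, hL]
        exact Nat.mul_le_mul_right _ hs
      exact Nat.le_of_mul_le_mul_left h3 (Nat.mul_pos hd0 Nat.card_pos)
    have h3q : 3 * Fintype.card F ≤ Fintype.card F * (Fintype.card F - 1) := by
      rw [mul_comm 3]; exact Nat.mul_le_mul_left _ (by omega)
    have hp2 : ¬ p ∣ 2 → Odd (Fintype.card F) := fun h => by
      obtain ⟨n, -, hn⟩ := FiniteField.card F p
      exact hn ▸ ((Fact.out : p.Prime).odd_of_ne_two fun e => h (e ▸ dvd_rfl)).pow
    have h156 : Odd (Fintype.card F) → 13 * 12 ≤ Fintype.card F * (Fintype.card F - 1) := fun ho =>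
      Nat.mul_le_mul (hodd5 ho) (by have := hodd5 ho; omega)
    rcases classify (p := p) hE X with ⟨c, hc⟩ | ⟨u, v, huv, -, hc⟩ | ⟨u, v, huv, k, -, -, -, hc, -, -⟩ |
      ⟨hp', hc, -⟩ | ⟨hp', hc, -⟩ | ⟨hp', hc, -⟩ | ⟨K, γ, hq3, hK⟩
    · rcases Nat.even_or_odd (Fintype.card F) with he | ho
      · rw [hev he, one_mul]
        have := Nat.le_of_dvd Nat.card_pos (Subgroup.card_dvd_of_le hc)
        rwa [card_stab_point] at this
      · have := Nat.le_of_dvd Nat.card_pos (Subgroup.card_dvd_of_le (le_inf hc hXL))
        have := two_mul_card_stab_Lsub ho c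
        have := Nat.mul_le_mul_right (Nat.card X) hd2
        omega
    · obtain ⟨k, hk, -, hD, -, -⟩ := pair_data hE huv
      have := Nat.le_of_dvd Nat.card_pos (Subgroup.card_dvd_of_le (le_inf (hc.trans (torus_le_pairStab u v)) hXL))
      have h1 : d * (2 * k) ≤ 2 * Nat.card (torus F u v) := by
        rw [mul_left_comm, hk]; exact Nat.mul_le_mul_left 2 (Nat.mul_div_le _ _)
      have := Nat.mul_le_mul_left d this
      rw [hD] at this
      rcases card_torus_cases hE huv with e | e <;> omega
    · obtain ⟨k, hk, -, hD, -, -⟩ := pair_data hE huv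
      have := Nat.le_of_dvd Nat.card_pos (Subgroup.card_dvd_of_le (le_inf hc hXL))
      have h1 : d * (2 * k) ≤ 2 * Nat.card (torus F u v) := by
        rw [mul_left_comm, hk]; exact Nat.mul_le_mul_left 2 (Nat.mul_div_le _ _)
      have := Nat.mul_le_mul_left d this
      rw [hD] at this
      rcases card_torus_cases hE huv with e | e <;> omega
    · have := h156 (hp2 fun h => hp' (h.trans (by norm_num)))
      rw [hc]; omega
    · have := h156 (hp2 fun h => hp' (h.trans (by norm_num)))
      rw [hc]; omega
    · have := h156 (hp2 fun h => by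
        rcases hp' with h' | h'
        · exact h' (h.trans (by norm_num))
        · subst h'; norm_num at h)
      rw [hc]; omega
    · obtain ⟨m, hm, hm'⟩ := exists_card_pow K
      have hm2 : 2 ≤ m := by
        by_contra hlt
        obtain rfl : m = 1 := by omega
        rw [pow_one] at hm'
        rcases Nat.even_or_odd (Fintype.card F) with he | ho
        · refine hne (le_antisymm hXL ?_)
          rcases card_of_subfield hK with c | ⟨ho', -⟩
          · rw [Subgroup.eq_top_of_card_eq X (by rw [c, ← hm', card_pgl])]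
            exact le_top
          · exact absurd he (hm' ▸ Nat.not_even_iff_odd.mpr ho')
        · exact hne (eq_Lsub_of_full ho hXL hm'.symm hK)
      have hsq : Nat.card K ^ 2 ≤ Fintype.card F := hm' ▸ Nat.pow_le_pow_right (by omega) hm2
      have hle : Nat.card X ≤ Nat.card K * (Nat.card K ^ 2 - 1) := by
        rcases card_of_subfield hK with c | ⟨-, c⟩ <;> omega
      calc d * Nat.card X ≤ 2 * (Nat.card K * (Nat.card K ^ 2 - 1)) := Nat.mul_le_mul hd2 hle
        _ = (2 * Nat.card K) * (Nat.card K ^ 2 - 1) := by ring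
        _ ≤ Fintype.card F * (Fintype.card F - 1) := Nat.mul_le_mul
            (le_trans (by rw [sq]; exact Nat.mul_le_mul_right _ (by omega)) hsq) (Nat.sub_le_sub_right hsq 1)
  · refine ⟨(stabilizer PGL(2, F) (∞ : OnePoint F) ⊓ Lsub F).comap (toP F), ?_⟩
    set B := (stabilizer PGL(2, F) (∞ : OnePoint F) ⊓ Lsub F).comap (toP F) with hB
    have hBc : d * Nat.card B = Fintype.card F * (Fintype.card F - 1) := by
      rw [Nat.card_congr (B.equivMapOfInjective _ toP_injective).toEquiv, hB, map_comap_toP inf_le_right]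
      rcases Nat.even_or_odd (Fintype.card F) with he | ho
      · rw [hev he, one_mul, Lsub_eq_top_of_even (F := F) he, inf_top_eq, card_stab_point]
      · have : d = 2 := by
          obtain ⟨r, hr⟩ := ho
          rw [hd, hr, Nat.add_sub_cancel, Nat.gcd_mul_right_right]
        rw [this]; exact two_mul_card_stab_Lsub ho _
    have h1 := congrArg (d * ·) (Subgroup.card_mul_index B)
    simp only [← mul_assoc, hBc] at h1
    rw [← card_Lsub, hL] at h1
    exact Nat.eq_of_mul_eq_mul_left (Nat.mul_pos (by omega) (by omega)) h1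

end Cfsg.Agent.S0806
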