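import Cfsg.Agent.Lib.PSLTwo.KleinConj
import Cfsg.Statements.S0807

set_option linter.style.longLine false
set_option linter.style.haveILetI false

open Matrix MulAction OnePoint
open scoped MatrixGroups
open Cfsg.Agent.Lib.PSLTwo

namespace Cfsg.Agent.S0807

/-- For q odd, twelve times the number of Klein four-subgroups of PSL_2(q) equals the order of PSL_2(q). -/
theorem result {F : Type*} [Field F] [Fintype F] {q : ℕ} (hF : Fintype.card F = q) (hodd : Odd q) : 12 * Nat.card {V : Subgroup (Matrix.ProjectiveSpecialLinearGroup (Fin 2) F) // IsKleinFour V} = Nat.card (Matrix.ProjectiveSpecialLinearGroup (Fin 2) F) := by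
  classical
  subst hF
  have h2 : (2 : F) ≠ 0 := Ring.two_ne_zero (ringChar_ne_two hodd)
  obtain ⟨a, b, hxy⟩ := exists_sum_sq_neg_one F
  haveI : (Lsub F).Normal := Lsub_normal
  have hVL : qV hxy ≤ Lsub F := (qV_le_qA hxy h2).trans (qA_le_Lsub hxy h2)
  let S := {W : Subgroup PGL(2, F) // W ≤ Lsub F ∧ IsKleinFour W}
  let f : PGL(2, F) → S := fun g =>
    ⟨(qV hxy).map (MulAut.conj g).toMonoidHom, conj_le_Lsub hVL g,
      (isKleinFour_map (f := (MulAut.conj g).toMonoidHom) (MulAut.conj g).injective _).mpr (isKleinFour_qV hxy h2)⟩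
  have hf : ∀ g g', f g = f g' ↔ g⁻¹ * g' ∈ qN hxy := by
    intro g g'
    constructor
    · intro h
      refine map_conj_qN_fix hxy h2 ?_
      have h' := congrArg Subtype.val h
      simp only [f] at h'
      rw [← map_conj_map_conj, ← h', map_conj_inv]
    · intro h
      refine Subtype.ext ?_
      have : (qV hxy).map (MulAut.conj (g⁻¹ * g')).toMonoidHom = qV hxy := by
        refine Subgroup.eq_of_le_of_card_ge ?_ (le_of_eq (card_conj_map _ _).symm)
        rintro _ ⟨v, hv, rfl⟩
        exact (Subgroup.mem_normalizer_iff.mp h v).mp hv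
      simp only [f]
      rw [show g' = g * (g⁻¹ * g') by group, ← map_conj_map_conj (qV hxy) g (g⁻¹ * g'), this]
  let F' : PGL(2, F) ⧸ qN hxy → S := Quotient.lift f fun g g' h =>
    (hf g g').mpr (QuotientGroup.leftRel_apply.mp h)
  have hF' : Function.Bijective F' := by
    constructor
    · intro u v
      induction u using QuotientGroup.induction_on with | _ g =>
      induction v using QuotientGroup.induction_on with | _ g' =>
      exact fun h => QuotientGroup.eq.mpr ((hf g g').mp h)
    · rintro ⟨W, hW, hK⟩
      obtain ⟨γ, hγ⟩ := exists_conj_qV hxy h2 hW hK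
      refine ⟨QuotientGroup.mk γ⁻¹, Subtype.ext ?_⟩
      show (qV hxy).map (MulAut.conj γ⁻¹).toMonoidHom = W
      rw [← hγ, map_conj_inv]
  have hS : Nat.card {V : Subgroup (Matrix.ProjectiveSpecialLinearGroup (Fin 2) F) // IsKleinFour V} = Nat.card S :=
    Nat.card_congr
      { toFun := fun V => ⟨V.1.map (toP F), map_toP_le _, (isKleinFour_map toP_injective _).mpr V.2⟩
        invFun := fun W => ⟨W.1.comap (toP F), (isKleinFour_map toP_injective _).mp (by
          rw [map_comap_toP W.2.1]; exact W.2.2)⟩
        left_inv := fun V => Subtype.ext (Subgroup.comap_map_eq_self_of_injective toP_injective _)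
        right_inv := fun W => Subtype.ext (map_comap_toP W.2.1) }
  have h24 := Subgroup.card_mul_index (qN hxy)
  rw [card_qN hxy h2, Subgroup.index_eq_card, Nat.card_congr (Equiv.ofBijective F' hF'),
    ← two_mul_card_Lsub hodd, card_Lsub] at h24
  rw [hS]
  omega

end Cfsg.Agent.S0807
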