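import Cfsg.Agent.Lib.PSLTwo.KleinConj
import Cfsg.Statements.S0808

set_option linter.style.longLine false
set_option linter.style.haveILetI false

open Matrix MulAction OnePoint
open scoped MatrixGroups
open Cfsg.Agent.Lib.PSLTwo

namespace Cfsg.Agent.S0808

/-- Conjugacy classes of four-groups in PSL_2(q), q odd: if q ≡ 3 or 5 (mod 8) all Klein four-subgroups are conjugate; if q ≡ 1 or 7 (mod 8) there are two Klein four-subgroups which are not conjugate, and every Klein four-subgroup is conjugate to one of them. -/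
theorem result {F : Type*} [Field F] [Fintype F] {q : ℕ} (hF : Fintype.card F = q) (hodd : Odd q) : ((q % 8 = 3 ∨ q % 8 = 5) → ∀ V W : Subgroup (Matrix.ProjectiveSpecialLinearGroup (Fin 2) F), IsKleinFour V → IsKleinFour W → ∃ g : Matrix.ProjectiveSpecialLinearGroup (Fin 2) F, W = V.map (MulAut.conj g).toMonoidHom) ∧ ((q % 8 = 1 ∨ q % 8 = 7) → ∃ V₁ V₂ : Subgroup (Matrix.ProjectiveSpecialLinearGroup (Fin 2) F), IsKleinFour V₁ ∧ IsKleinFour V₂ ∧ (¬ ∃ g : Matrix.ProjectiveSpecialLinearGroup (Fin 2) F, V₂ = V₁.map (MulAut.conj g).toMonoidHom) ∧ ∀ W : Subgroup (Matrix.ProjectiveSpecialLinearGroup (Fin 2) F), IsKleinFour W → (∃ g : Matrix.ProjectiveSpecialLinearGroup (Fin 2) F, W = V₁.map (MulAut.conj g).toMonoidHom) ∨ (∃ g : Matrix.ProjectiveSpecialLinearGroup (Fin 2) F, W = V₂.map (MulAut.conj g).toMonoidHom)) := by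
  classical
  subst hF
  have h2 : (2 : F) ≠ 0 := Ring.two_ne_zero (ringChar_ne_two hodd)
  obtain ⟨a, b, hxy⟩ := exists_sum_sq_neg_one F
  haveI : (Lsub F).Normal := Lsub_normal
  have hVL : qV hxy ≤ Lsub F := (qV_le_qA hxy h2).trans (qA_le_Lsub hxy h2)
  -- from an element of `L` to one of `PSL₂`
  have lift : ∀ (V W : Subgroup (Matrix.ProjectiveSpecialLinearGroup (Fin 2) F)) (l : PGL(2, F)), l ∈ Lsub F →
      W.map (toP F) = (V.map (toP F)).map (MulAut.conj l).toMonoidHom →
      ∃ g : Matrix.ProjectiveSpecialLinearGroup (Fin 2) F, W = V.map (MulAut.conj g).toMonoidHom := by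
    intro V W l hl h
    obtain ⟨g, rfl⟩ : ∃ g, toP F g = l := by rw [← MonoidHom.mem_range, ← Lsub_eq_toPGL]; exact hl
    exact ⟨g, Subgroup.map_injective toP_injective (by rw [h, map_conj_map_toP])⟩
  constructor
  · intro h8 V W hV hW
    have hns : ¬ IsSquare (2 : F) := by rw [FiniteField.isSquare_two_iff]; omega
    have hSL : qS hxy h2 ∉ Lsub F := fun hS => hns ((qN_le_Lsub_iff hxy h2).mp fun g hg => by
      by_contra hgL
      exact hgL (by
        have hA : qN hxy ⊓ Lsub F = qA hxy h2 := qN_inf_Lsub hxy h2 hns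
        exact absurd (hA ▸ (⟨qS_mem_qN hxy h2, hS⟩ : qS hxy h2 ∈ qN hxy ⊓ Lsub F)) (qS_not_mem_qA hxy h2)))
    have hstd : ∀ U : Subgroup (Matrix.ProjectiveSpecialLinearGroup (Fin 2) F), IsKleinFour U →
        ∃ l ∈ Lsub F, (U.map (toP F)).map (MulAut.conj l).toMonoidHom = qV hxy := by
      intro U hU
      obtain ⟨γ, hγ⟩ := exists_conj_qV hxy h2 (map_toP_le U) ((isKleinFour_map toP_injective U).mpr hU)
      by_cases hγL : γ ∈ Lsub F
      · exact ⟨γ, hγL, hγ⟩
      · refine ⟨qS hxy h2 * γ, mul_mem_Lsub hSL hγL, ?_⟩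
        rw [← map_conj_map_conj, hγ]
        refine Subgroup.eq_of_le_of_card_ge ?_ (le_of_eq (card_conj_map _ _).symm)
        rintro _ ⟨v, hv, rfl⟩
        exact (Subgroup.mem_normalizer_iff.mp (qS_mem_qN hxy h2) v).mp hv
    obtain ⟨l, hl, hlV⟩ := hstd V hV
    obtain ⟨m, hm, hmW⟩ := hstd W hW
    refine lift V W (m⁻¹ * l) (mul_mem (inv_mem hm) hl) ?_
    rw [← map_conj_map_conj, hlV, ← hmW, map_conj_inv]
  · intro h8
    have hsq : IsSquare (2 : F) := by rw [FiniteField.isSquare_two_iff]; omega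
    have hNL := (qN_le_Lsub_iff hxy h2).mpr hsq
    obtain ⟨g₀, hg₀⟩ : ∃ g : PGL(2, F), g ∉ Lsub F := by
      by_contra h
      push Not at h
      have := two_mul_card_Lsub (F := F) hodd
      rw [(Subgroup.eq_top_iff' _).mpr h, Subgroup.card_top] at this
      have := Nat.card_pos (α := PGL(2, F))
      omega
    set V₂' := (qV hxy).map (MulAut.conj g₀).toMonoidHom with hV₂'
    have hV₂L : V₂' ≤ Lsub F := conj_le_Lsub hVL g₀
    refine ⟨(qV hxy).comap (toP F), V₂'.comap (toP F), ?_, ?_, ?_, ?_⟩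
    · rw [← isKleinFour_map toP_injective, map_comap_toP hVL]; exact isKleinFour_qV hxy h2
    · rw [← isKleinFour_map toP_injective, map_comap_toP hV₂L]
      exact (isKleinFour_map (f := (MulAut.conj g₀).toMonoidHom) (MulAut.conj g₀).injective _).mpr
        (isKleinFour_qV hxy h2)
    · rintro ⟨g, hg⟩
      have h := congrArg (Subgroup.map (toP F)) hg
      rw [map_conj_map_toP, map_comap_toP hVL, map_comap_toP hV₂L] at h
      have hmem : g₀⁻¹ * toP F g ∈ qN hxy := map_conj_qN_fix hxy h2 (by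
        rw [← map_conj_map_conj, ← h, hV₂', map_conj_inv])
      refine hg₀ ?_
      have hgL : toP F g ∈ Lsub F := by rw [Lsub_eq_toPGL]; exact ⟨g, rfl⟩
      have := mul_mem hgL (inv_mem (hNL hmem))
      rwa [_root_.mul_inv_rev, inv_inv, mul_inv_cancel_left] at this
    · intro W hW
      obtain ⟨γ, hγ⟩ := exists_conj_qV hxy h2 (map_toP_le W) ((isKleinFour_map toP_injective W).mpr hW)
      by_cases hγL : γ ∈ Lsub F
      · refine Or.inl (lift _ W γ⁻¹ (inv_mem hγL) ?_)
        rw [map_comap_toP hVL, ← hγ, map_conj_inv]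
      · refine Or.inr (lift _ W (γ⁻¹ * g₀⁻¹) (mul_mem_Lsub (fun h => hγL ((Subgroup.inv_mem_iff _).mp h))
          (fun h => hg₀ ((Subgroup.inv_mem_iff _).mp h))) ?_)
        rw [map_comap_toP hV₂L, ← map_conj_map_conj, hV₂', map_conj_inv, ← hγ, map_conj_inv]

end Cfsg.Agent.S0808
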