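import Cfsg.Agent.Lib.PSLTwo.MaxTools
import Cfsg.Statements.S0809

set_option linter.style.longLine false
set_option linter.style.haveILetI false

open Matrix MulAction OnePoint
open scoped MatrixGroups
open Cfsg.Agent.Lib.PSLTwo

namespace Cfsg.Agent.S0809

variable {F E : Type*} [Field F] [Fintype F] [DecidableEq F] [Field E] [DecidableEq E] [Finite E]
  [Algebra F E] (hE : Nat.card E = Fintype.card F ^ 2)

include hE in
/-- The axis of an involution of `L`. -/
theorem inv_axis (hodd : Odd (Fintype.card F)) {a : PGL(2, F)} (haL : a ∈ Lsub F) (ha : a * a = 1) (ha1 : a ≠ 1) :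
    ∃ u v : OnePoint E, IsTorusPair F u v ∧ a ∈ torus F u v ∧ (IsRat F u ↔ Fintype.card F % 4 = 1) := by
  classical
  obtain ⟨p, hp⟩ := CharP.exists F
  haveI : Fact p.Prime := ⟨CharP.char_is_prime F p⟩
  obtain ⟨n, -, hn⟩ := FiniteField.card F p
  have P := poles (F := F) (E := E) (p := p) hE
  obtain ⟨u, hu⟩ := P.exists_fix a
  obtain ⟨v, hv, hvu⟩ : ∃ v, a • v = v ∧ v ≠ u := by
    by_contra hno
    push Not at hno
    have hp1 := (P.pElem a u ha1 hu).mpr hno
    have h2 : orderOf a = 2 := orderOf_eq_prime (by rw [pow_two, ha]) ha1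
    have := (Nat.prime_dvd_prime_iff_eq Nat.prime_two Fact.out).mp (h2 ▸ orderOf_dvd_of_pow_eq_one hp1)
    rw [hn, Nat.odd_pow_iff n.pos.ne', ← this] at hodd
    exact absurd hodd (by decide)
  have huv : IsTorusPair F u v := torusPair_of_fix hE hvu.symm ha1 hu hv
  refine ⟨u, v, huv, ⟨hu, hv⟩, ?_⟩
  obtain ⟨g, hg1, hg2⟩ := exists_torus_not_Lsub hE hodd huv
  have h2T := card_inf_Lsub hodd (T := torus F u v) ⟨g, hg1, hg2⟩
  have h2d : 2 ∣ Nat.card (torus F u v ⊓ Lsub F : Subgroup PGL(2, F)) := by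
    have h1 : orderOf a ∣ _ := Subgroup.orderOf_dvd_natCard (torus F u v ⊓ Lsub F) ⟨⟨hu, hv⟩, haL⟩
    rwa [orderOf_eq_prime (by rw [pow_two, ha] : a ^ 2 = 1) ha1] at h1
  obtain ⟨r, hr⟩ := hodd
  constructor
  · intro hrat
    have := (card_torus hE huv).1 hrat
    omega
  · intro h4
    by_contra hrat
    have := (card_torus hE huv).2 hrat
    omega

include hE in
theorem commute_iff (hodd : Odd (Fintype.card F)) {a : PGL(2, F)} (ha : a * a = 1) (ha1 : a ≠ 1) {u v : OnePoint E}
    (huv : IsTorusPair F u v) (hau : a ∈ torus F u v) (g : PGL(2, F)) :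
    g * a = a * g ↔ g ∈ pairStab F u v := by
  classical
  obtain ⟨p, hp⟩ := CharP.exists F
  haveI : Fact p.Prime := ⟨CharP.char_is_prime F p⟩
  have P := poles (F := F) (E := E) (p := p) hE
  haveI : IsCyclic (torus F u v) := P.cyc u v huv.1
  constructor
  · intro h
    have hfix : ∀ z : OnePoint E, a • z = z → a • (g • z) = g • z := fun z hz => by
      rw [← mul_smul, ← h, mul_smul, hz]
    rw [mem_pairStab]
    rcases P.pair_inj ha1 huv.1 hau.1 hau.2 (hfix u hau.1) with e | e <;>
      rcases P.pair_inj ha1 huv.1 hau.1 hau.2 (hfix v hau.2) with e' | e'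
    · exact absurd (smul_left_cancel g (e.trans e'.symm)) huv.1
    · exact Or.inl ⟨e, e'⟩
    · exact Or.inr ⟨e, e'⟩
    · exact absurd (smul_left_cancel g (e.trans e'.symm)) huv.1
  · intro hg
    have hc : g * a * g⁻¹ ∈ torus F u v := by
      rcases mem_pairStab.mp hg with ⟨e1, e2⟩ | ⟨e1, e2⟩
      · exact mul_mem (mul_mem ⟨e1, e2⟩ hau) (inv_mem (⟨e1, e2⟩ : g ∈ torus F u v))
      · refine ⟨?_, ?_⟩
        · show (g * a * g⁻¹) • u = u
          rw [mul_smul, mul_smul, inv_smul_eq_iff.mpr e2.symm, hau.2, e2]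
        · show (g * a * g⁻¹) • v = v
          rw [mul_smul, mul_smul, inv_smul_eq_iff.mpr e1.symm, hau.1, e1]
    have := cyclic_involution_unique (a := (⟨_, hc⟩ : torus F u v)) (b := ⟨a, hau⟩)
      (Subtype.ext (by show g * a * g⁻¹ * (g * a * g⁻¹) = 1; rw [show g * a * g⁻¹ * (g * a * g⁻¹) = g * (a * a) * g⁻¹ by group, ha, mul_one, mul_inv_cancel]))
      (Subtype.ext ha)
      (fun e => ha1 (by
        have := congrArg Subtype.val e
        simpa using this))
      (fun e => ha1 (congrArg Subtype.val e))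
    exact mul_inv_eq_iff_eq_mul.mp (congrArg Subtype.val this)

include hE in
theorem conj_in_L (hodd : Odd (Fintype.card F)) {a b : PGL(2, F)} (haL : a ∈ Lsub F) (ha : a * a = 1) (ha1 : a ≠ 1)
    (hbL : b ∈ Lsub F) (hb : b * b = 1) (hb1 : b ≠ 1) : ∃ l ∈ Lsub F, l * a * l⁻¹ = b := by
  classical
  obtain ⟨p, hp⟩ := CharP.exists F
  haveI : Fact p.Prime := ⟨CharP.char_is_prime F p⟩
  obtain ⟨u, v, huv, hau, hka⟩ := inv_axis hE hodd haL ha ha1
  obtain ⟨u', v', huv', hbu, hkb⟩ := inv_axis hE hodd hbL hb hb1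
  haveI : IsCyclic (torus F u' v') := (poles (F := F) (E := E) (p := p) hE).cyc u' v' huv'.1
  obtain ⟨g, hgu, hgv⟩ := conj_pair hE huv huv' (hka.trans hkb.symm)
  obtain ⟨t, ht, htL⟩ := exists_torus_not_Lsub hE hodd huv'
  obtain ⟨l, hlL, hlu, hlv⟩ : ∃ l ∈ Lsub F, l • u = u' ∧ l • v = v' := by
    by_cases hgL : g ∈ Lsub F
    · exact ⟨g, hgL, hgu, hgv⟩
    · exact ⟨t * g, mul_mem_Lsub htL hgL, by rw [mul_smul, hgu, ht.1], by rw [mul_smul, hgv, ht.2]⟩
  refine ⟨l, hlL, ?_⟩
  have hc : l * a * l⁻¹ ∈ torus F u' v' := by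
    refine ⟨?_, ?_⟩
    · show (l * a * l⁻¹) • u' = u'
      rw [mul_smul, mul_smul, inv_smul_eq_iff.mpr hlu.symm, hau.1, hlu]
    · show (l * a * l⁻¹) • v' = v'
      rw [mul_smul, mul_smul, inv_smul_eq_iff.mpr hlv.symm, hau.2, hlv]
  exact congrArg Subtype.val (cyclic_involution_unique (a := (⟨_, hc⟩ : torus F u' v')) (b := ⟨b, hbu⟩)
    (Subtype.ext (by show l * a * l⁻¹ * (l * a * l⁻¹) = 1; rw [show l * a * l⁻¹ * (l * a * l⁻¹) = l * (a * a) * l⁻¹ by group, ha, mul_one, mul_inv_cancel]))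
    (Subtype.ext hb) (fun e => ha1 (by have := congrArg Subtype.val e; simpa using this))
    (fun e => hb1 (congrArg Subtype.val e)))

/-- In SL_2(q), q odd: any two subgroups of order 4 are conjugate, and the normaliser of a subgroup of order 4 has order 2(q − 1) if q ≡ 1 (mod 4) and 2(q + 1) if q ≡ 3 (mod 4); consequently all involutions of PSL_2(q) are conjugate. -/
theorem result {F : Type*} [Field F] [Fintype F] {q : ℕ} (hF : Fintype.card F = q) (hodd : Odd q) (A : Subgroup (Matrix.SpecialLinearGroup (Fin 2) F)) (hA : Nat.card A = 4) : (∀ B : Subgroup (Matrix.SpecialLinearGroup (Fin 2) F), Nat.card B = 4 → ∃ g : Matrix.SpecialLinearGroup (Fin 2) F, B = A.map (MulAut.conj g).toMonoidHom) ∧ (q % 4 = 1 → Nat.card ↥(Subgroup.normalizer (A : Set (Matrix.SpecialLinearGroup (Fin 2) F))) = 2 * (q - 1)) ∧ (q % 4 = 3 → Nat.card ↥(Subgroup.normalizer (A : Set (Matrix.SpecialLinearGroup (Fin 2) F))) = 2 * (q + 1)) ∧ (∀ x y : Matrix.ProjectiveSpecialLinearGroup (Fin 2) F, orderOf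 x = 2 → orderOf y = 2 → IsConj x y) := by
  classical
  subst hF
  obtain ⟨E, _, _, _, hE⟩ := exists_quadExt F
  have h2 : (2 : F) ≠ 0 := Ring.two_ne_zero (ringChar_ne_two hodd)
  let π : Matrix.SpecialLinearGroup (Fin 2) F →* PGL(2, F) :=
    Matrix.ProjGenLinGroup.mk.comp Matrix.SpecialLinearGroup.toGL
  have hπL : ∀ g, π g ∈ Lsub F := fun g => ⟨g, rfl⟩
  have hker : ∀ g, π g = 1 ↔ g = 1 ∨ g = -1 := by
    intro g
    show ProjGenLinGroup.mk (Matrix.SpecialLinearGroup.toGL g) = 1 ↔ _
    rw [mk_eq_one_iff]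
    constructor
    · rintro ⟨e1, e2, e3⟩
      simp only [Matrix.SpecialLinearGroup.toGL, Units.val_mk, MonoidHom.coe_mk, OneHom.coe_mk] at e1 e2 e3
      have hd := g.2
      rw [det_fin_two] at hd
      have hsq : (g : Matrix (Fin 2) (Fin 2) F) 0 0 * (g : Matrix (Fin 2) (Fin 2) F) 0 0 = 1 := by
        rw [e1, zero_mul, sub_zero, ← e3] at hd; exact hd
      rcases mul_self_eq_one_iff.mp hsq with h | h
      · left; ext i j; fin_cases i <;> fin_cases j <;> simp [e1, e2, h, ← e3]
      · right; ext i j; fin_cases i <;> fin_cases j <;> simp [e1, e2, h, ← e3]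
    · rintro (rfl | rfl) <;> refine ⟨?_, ?_, ?_⟩ <;> simp
  have hne1 : (-1 : Matrix.SpecialLinearGroup (Fin 2) F) ≠ 1 := fun h => by
    have := congrFun (congrFun (congrArg Subtype.val h) 0) 0
    simp at this
    exact h2 (by linear_combination -this)
  have hinv : ∀ g : Matrix.SpecialLinearGroup (Fin 2) F, g * g = 1 → g = 1 ∨ g = -1 := by
    intro g hg
    by_contra hne
    obtain ⟨h1, h3⟩ := not_or.mp hne
    have e := congrArg Subtype.val hg
    have hd := g.2
    rw [det_fin_two] at hd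
    have e00 := congrFun (congrFun e 0) 0
    have e01 := congrFun (congrFun e 0) 1
    have e10 := congrFun (congrFun e 1) 0
    simp [Matrix.mul_apply, Fin.sum_univ_two] at e00 e01 e10
    set M := (g : Matrix (Fin 2) (Fin 2) F)
    have k00 : M 0 0 * (M 0 0 + M 1 1) = 2 := by linear_combination e00 + hd
    have hs : M 0 0 + M 1 1 ≠ 0 := fun h => h2 (by rw [h, mul_zero] at k00; exact k00.symm)
    have z01 : M 0 1 = 0 := (mul_eq_zero.mp (show M 0 1 * (M 0 0 + M 1 1) = 0 by linear_combination e01)).resolve_right hs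
    have z10 : M 1 0 = 0 := (mul_eq_zero.mp (show M 1 0 * (M 0 0 + M 1 1) = 0 by linear_combination e10)).resolve_right hs
    rw [z01, z10] at hd e00
    have heq : M 0 0 = M 1 1 := by
      have hne0 : M 0 0 ≠ 0 := fun h => by rw [h] at hd; simp at hd
      exact mul_left_cancel₀ hne0 (by linear_combination e00 - hd)
    have hmem : π g = 1 := by
      show ProjGenLinGroup.mk (Matrix.SpecialLinearGroup.toGL g) = 1
      rw [mk_eq_one_iff]; exact ⟨z01, z10, heq⟩
    rcases (hker g).mp hmem with h | h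
    · exact h1 h
    · exact h3 h
  have hgen : ∀ B : Subgroup (Matrix.SpecialLinearGroup (Fin 2) F), Nat.card B = 4 →
      ∃ g, g * g = -1 ∧ B = Subgroup.zpowers g := by
    intro B hB
    obtain ⟨g, hgB, hg1, hg2⟩ : ∃ g ∈ B, g ≠ 1 ∧ g ≠ -1 := by
      by_contra h
      push Not at h
      have hsub : (B : Set (Matrix.SpecialLinearGroup (Fin 2) F)) ⊆ {1, -1} := fun g hg => by
        by_cases e : g = 1
        · exact Or.inl e
        · exact Or.inr (h g hg e)
      have := Set.ncard_le_ncard hsub (Set.toFinite _)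
      rw [← Nat.card_coe_set_eq, SetLike.coe_sort_coe, hB] at this
      have := Set.ncard_insert_le (1 : Matrix.SpecialLinearGroup (Fin 2) F) {-1}
      rw [Set.ncard_singleton] at this
      omega
    have hsq1 : g * g ≠ 1 := fun e => (hinv g e).elim hg1 hg2
    have ho : orderOf g = 4 := by
      have hd : orderOf g ∣ 2 ^ 2 := by
        have := B.orderOf_dvd_natCard hgB
        rwa [hB] at this
      obtain ⟨j, hj, hj'⟩ := (Nat.dvd_prime_pow Nat.prime_two).mp hd
      have h1 : g ^ (2 ^ j) = 1 := hj' ▸ pow_orderOf_eq_one g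
      interval_cases j
      · rw [pow_zero, pow_one] at h1; exact absurd h1 hg1
      · rw [pow_one, pow_two] at h1; exact absurd h1 hsq1
      · exact hj'
    refine ⟨g, ?_, (Subgroup.eq_of_le_of_card_ge (Subgroup.zpowers_le.mpr hgB) (by rw [Nat.card_zpowers, ho, hB])).symm⟩
    refine (hinv (g * g) ?_).resolve_left hsq1
    have := pow_orderOf_eq_one g
    rw [ho] at this
    rw [← this]; simp [pow_succ, mul_assoc]
  obtain ⟨g, hg, rfl⟩ := hgen A hA
  have hπg : π g * π g = 1 := by rw [← map_mul, hg]; exact (hker _).mpr (Or.inr rfl)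
  have hπg1 : π g ≠ 1 := fun e => hne1 (by
    rcases (hker g).mp e with rfl | rfl
    · rw [one_mul] at hg; exact hg.symm
    · rw [neg_mul_neg, one_mul] at hg; exact hg.symm)
  have hconj : ∀ x : Matrix.SpecialLinearGroup (Fin 2) F, ∀ h, h * h = -1 → π x * π g * (π x)⁻¹ = π h →
      Subgroup.zpowers h = (Subgroup.zpowers g).map (MulAut.conj x).toMonoidHom := by
    intro x h hh e
    rw [MonoidHom.map_zpowers]
    have e1 : π ((x * g * x⁻¹) * h⁻¹) = 1 := by rw [map_mul, map_mul, map_mul, map_inv, map_inv, e, mul_inv_cancel]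
    show Subgroup.zpowers h = Subgroup.zpowers (x * g * x⁻¹)
    rcases (hker _).mp e1 with e2 | e2
    · rw [mul_inv_eq_one.mp e2]
    · have e3 : x * g * x⁻¹ = -h := by
        rw [mul_inv_eq_iff_eq_mul.mp e2, neg_mul, one_mul]
      have e4 : (-h : Matrix.SpecialLinearGroup (Fin 2) F) = h⁻¹ := eq_inv_of_mul_eq_one_left (by rw [neg_mul, hh, neg_neg])
      rw [e3, e4, Subgroup.zpowers_inv]
  refine ⟨fun B hB => ?_, ?_⟩
  · obtain ⟨h, hh, rfl⟩ := hgen B hB
    have hπh : π h * π h = 1 := by rw [← map_mul, hh]; exact (hker _).mpr (Or.inr rfl)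
    have hπh1 : π h ≠ 1 := fun e => hne1 (by
      rcases (hker h).mp e with rfl | rfl
      · rw [one_mul] at hh; exact hh.symm
      · rw [neg_mul_neg, one_mul] at hh; exact hh.symm)
    obtain ⟨l, ⟨x, rfl⟩, hl⟩ := conj_in_L hE hodd (hπL g) hπg hπg1 (hπL h) hπh hπh1
    exact ⟨x, hconj x h hh hl⟩
  · obtain ⟨u, v, huv, hau, hk⟩ := inv_axis hE hodd (hπL g) hπg hπg1
    have hN : Subgroup.normalizer (Subgroup.zpowers g : Set (Matrix.SpecialLinearGroup (Fin 2) F)) =
        (pairStab F u v).comap π := by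
      ext x
      rw [Subgroup.mem_comap, ← commute_iff hE hodd hπg hπg1 huv hau]
      constructor
      · intro hx
        have hm : x * g * x⁻¹ ∈ Subgroup.zpowers g :=
          (Subgroup.mem_normalizer_iff.mp hx g).mp (Subgroup.mem_zpowers g)
        obtain ⟨k, hk'⟩ := Subgroup.mem_zpowers_iff.mp hm
        have e := congrArg π hk'
        rw [map_zpow, map_mul, map_mul, map_inv] at e
        obtain ⟨j, rfl | rfl⟩ := Int.even_or_odd' k
        · exfalso
          rw [_root_.zpow_mul, zpow_two, hπg, _root_.one_zpow, eq_mul_inv_iff_mul_eq, one_mul] at e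
          exact hπg1 (mul_eq_left.mp e.symm)
        · rw [_root_.zpow_add, _root_.zpow_mul, zpow_two, hπg, _root_.one_zpow, one_mul, zpow_one] at e
          exact (eq_mul_inv_iff_mul_eq.mp e).symm
      · intro hx
        have := hconj x g hg (by rw [hx, mul_inv_cancel_right])
        rw [Subgroup.mem_normalizer_iff]
        intro y
        conv_rhs => rw [this]
        constructor
        · exact fun hy => ⟨y, hy, rfl⟩
        · rintro ⟨z, hz, e⟩
          obtain rfl : z = y := (MulAut.conj x).injective e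
          exact hz
    have hr : π.range = Lsub F := rfl
    have hk2 : π.ker = Subgroup.zpowers (-1 : Matrix.SpecialLinearGroup (Fin 2) F) := by
      ext x
      rw [MonoidHom.mem_ker, hker]
      constructor
      · rintro (rfl | rfl)
        · exact one_mem _
        · exact Subgroup.mem_zpowers _
      · intro hx
        obtain ⟨k, rfl⟩ := Subgroup.mem_zpowers_iff.mp hx
        obtain ⟨j, rfl | rfl⟩ := Int.even_or_odd' k
        · left; rw [_root_.zpow_mul, zpow_two, neg_mul_neg, one_mul, _root_.one_zpow]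
        · right; rw [_root_.zpow_add, _root_.zpow_mul, zpow_two, neg_mul_neg, one_mul, _root_.one_zpow, one_mul, zpow_one]
    have hk3 : Nat.card π.ker = 2 := by
      rw [hk2, Nat.card_zpowers]
      exact orderOf_eq_prime (by rw [pow_two, neg_mul_neg, one_mul]) hne1
    have hcard : Nat.card ((pairStab F u v).comap π) = 2 * Nat.card (torus F u v) := by
      have h1 := Subgroup.card_mul_index ((pairStab F u v).comap π)
      have h3 := Subgroup.card_mul_index π.ker
      rw [hk3, Subgroup.index_ker, hr] at h3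
      rw [Subgroup.index_comap, hr, ← Subgroup.inf_relIndex_right] at h1
      have h4 : Nat.card (pairStab F u v ⊓ Lsub F : Subgroup PGL(2, F)) *
          (pairStab F u v ⊓ Lsub F).relIndex (Lsub F) = Nat.card (Lsub F) := by
        have := Subgroup.card_mul_index ((pairStab F u v ⊓ Lsub F).subgroupOf (Lsub F))
        rwa [Nat.card_congr (Subgroup.subgroupOfEquivOfLe inf_le_right).toEquiv] at this
      rw [(pairStab_Lsub_spec hE hodd huv).1] at h4
      rw [← h3, ← h4, ← mul_assoc] at h1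
      refine Nat.eq_of_mul_eq_mul_right (Nat.pos_of_ne_zero fun e => ?_) h1
      rw [e, mul_zero] at h4
      exact Nat.card_pos.ne h4
    refine ⟨fun h1 => ?_, fun h3 => ?_, fun x y hx hy => ?_⟩
    · rw [hN, hcard, (card_torus hE huv).1 (hk.mpr h1)]
    · rw [hN, hcard, (card_torus hE huv).2 (fun h => by have := hk.mp h; omega)]
    · have key : ∀ z : Matrix.ProjectiveSpecialLinearGroup (Fin 2) F, orderOf z = 2 →
          toP F z ∈ Lsub F ∧ toP F z * toP F z = 1 ∧ toP F z ≠ 1 := fun z hz => by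
        refine ⟨Lsub_eq_toPGL (F := F) ▸ ⟨z, rfl⟩, ?_, fun e => ?_⟩
        · have e := pow_orderOf_eq_one z
          rw [hz, pow_two] at e
          rw [← map_mul, e, map_one]
        · rw [toP_injective (e.trans (map_one _).symm), orderOf_one] at hz; omega
      obtain ⟨xa, xb, xc⟩ := key x hx
      obtain ⟨ya, yb, yc⟩ := key y hy
      obtain ⟨l, hl, e⟩ := conj_in_L hE hodd xa xb xc ya yb yc
      rw [Lsub_eq_toPGL] at hl
      obtain ⟨c, rfl⟩ := hl
      exact isConj_iff.mpr ⟨c, toP_injective (by rw [map_mul, map_mul, map_inv]; exact e)⟩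

end Cfsg.Agent.S0809
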