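import Cfsg.Agent.Lib.PSLTwo.SubfieldMax
import Cfsg.Agent.Lib.Char.Burnside
import Cfsg.Statements.S0810

set_option linter.style.longLine false
set_option linter.style.haveILetI false

open Matrix MulAction OnePoint
open scoped MatrixGroups
open Cfsg.Agent.Lib.PSLTwo

namespace Cfsg.Agent.S0810

theorem solvable_of_commutators {G : Type*} [Group G] (A : Subgroup G) (hA : ∀ a ∈ A, ∀ b ∈ A, a * b = b * a)
    (h : ∀ g k : G, g * k * g⁻¹ * k⁻¹ ∈ A) : Group.IsSolvable G := by
  rw [isSolvable_def]
  refine ⟨2, ?_⟩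
  have h1 : derivedSeries G 1 ≤ A := by
    rw [derivedSeries_succ, derivedSeries_zero, Subgroup.commutator_le]
    intro g _ k _
    rw [commutatorElement_def]
    exact h g k
  rw [eq_bot_iff, derivedSeries_succ, Subgroup.commutator_le]
  intro g hg k hk
  rw [Subgroup.mem_bot, commutatorElement_def, hA g (h1 hg) k (h1 hk)]
  group

theorem solvable_of_dvd {G : Type*} [Group G] [Finite G] (h : Nat.card G ∣ 24) : Group.IsSolvable G := by
  refine Cfsg.Agent.Lib.Char.isSolvable_of_card_eq_two_primes Nat.prime_two Nat.prime_three _ G rfl fun r hr hd => ?_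
  have := Nat.le_of_dvd (by norm_num) (hd.trans h)
  have hd' : r ∣ 24 := hd.trans h
  interval_cases r
  all_goals first
    | exact Or.inl rfl
    | exact Or.inr rfl
    | omega
    | exact absurd hr (by norm_num)

variable {F : Type*} [Field F] [Fintype F]

theorem simple_of_card (h : 4 ≤ Fintype.card F) : IsSimpleGroup (Matrix.ProjectiveSpecialLinearGroup (Fin 2) F) :=
  Matrix.ProjectiveSpecialLinearGroup.rank_two_simple (by rw [Nat.card_eq_fintype_card]; exact h)

theorem not_comm : ∃ a b : Matrix.ProjectiveSpecialLinearGroup (Fin 2) F, a * b ≠ b * a := by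
  let u : Matrix.SpecialLinearGroup (Fin 2) F := ⟨!![1, 1; 0, 1], by simp [det_fin_two]⟩
  let w : Matrix.SpecialLinearGroup (Fin 2) F := ⟨!![1, 0; 1, 1], by simp [det_fin_two]⟩
  refine ⟨QuotientGroup.mk u, QuotientGroup.mk w, fun h => ?_⟩
  have h' := congrArg (toP F) h
  rw [map_mul, map_mul] at h'
  change ProjGenLinGroup.mk (Matrix.SpecialLinearGroup.toGL u) * ProjGenLinGroup.mk (Matrix.SpecialLinearGroup.toGL w) =
    ProjGenLinGroup.mk (Matrix.SpecialLinearGroup.toGL w) * ProjGenLinGroup.mk (Matrix.SpecialLinearGroup.toGL u) at h'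
  simp only [← map_mul] at h'
  rw [ProjGenLinGroup.mk_eq_mk_iff] at h'
  obtain ⟨c, hc⟩ := h'
  have e := congrArg (fun g : GL (Fin 2) F => ((g : Matrix (Fin 2) (Fin 2) F) 0 0, (g : Matrix (Fin 2) (Fin 2) F) 0 1)) hc
  simp [map_mul, Matrix.mul_apply, Fin.sum_univ_two] at e
  simp [u, w] at e
  obtain ⟨e1, e2⟩ := e
  rw [e2, Units.val_one] at e1
  exact one_ne_zero (show (1 : F) = 0 by linear_combination e1)

/-- PSL_2(q) is minimal simple iff q is 2^r (r prime), 3^r (r an odd prime), a prime greater than 5 congruent to 2 or 3 mod 5, or 5. -/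
theorem result {F : Type*} [Field F] [Fintype F] {q : ℕ} (hF : Fintype.card F = q) : Cfsg.IsMinimalSimple (Matrix.ProjectiveSpecialLinearGroup (Fin 2) F) ↔ ((∃ r : ℕ, r.Prime ∧ q = 2 ^ r) ∨ (∃ r : ℕ, r.Prime ∧ r ≠ 2 ∧ q = 3 ^ r) ∨ (q.Prime ∧ 5 < q ∧ (q % 5 = 2 ∨ q % 5 = 3)) ∨ q = 5) := by
  classical
  subst hF
  obtain ⟨p, hp⟩ := CharP.exists F
  haveI : Fact p.Prime := ⟨CharP.char_is_prime F p⟩
  have hpp : p.Prime := Fact.out
  obtain ⟨n, -, hn⟩ := FiniteField.card F p
  have hp2 := hpp.two_le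
  obtain ⟨E, _, _, _, hE⟩ := exists_quadExt F
  constructor
  · rintro ⟨hS, -, hsol⟩
    have hns : ∀ X : Subgroup PGL(2, F), X ≤ Lsub F → X ≠ Lsub F → Group.IsSolvable X := fun X h1 h2 => by
      obtain ⟨H, hH, ⟨e⟩⟩ := exists_psl_subgroup h1
      haveI := hsol H (fun e' => h2 (by rw [← hH, e', ← MonoidHom.range_eq_map, Lsub_eq_toPGL]))
      exact Group.isSolvable_of_surjective (f := e.toMonoidHom) e.surjective
    have hqge : 4 ≤ Fintype.card F := by
      by_contra hlt
      have hd : Nat.card (Matrix.ProjectiveSpecialLinearGroup (Fin 2) F) ∣ 24 := by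
        have h := card_Lsub_mul (F := F)
        rw [card_Lsub] at h
        refine dvd_trans (dvd_mul_left _ (Nat.gcd 2 (Fintype.card F - 1))) ?_
        rw [h]
        have := Fintype.one_lt_card (α := F)
        interval_cases Fintype.card F <;> norm_num
      haveI := solvable_of_dvd hd
      obtain ⟨a, b, hab⟩ := not_comm (F := F)
      exact hab (IsSimpleGroup.comm_iff_isSolvable.mpr inferInstance a b)
    have hsub : ∀ K : Subfield F, 4 ≤ Nat.card K → Nat.card K = Fintype.card F := by
      intro K h4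
      by_contra hne
      haveI := Fintype.ofFinite K
      have hlt : Nat.card K < Fintype.card F :=
        lt_of_le_of_ne (by rw [← Nat.card_eq_fintype_card (α := F)]; exact Finite.card_subtype_le _) hne
      haveI := hns (subPSL K) (subPSL_le_Lsub K) (fun e => by
        have h1 := card_subPSL K
        rw [e] at h1
        have h2 := card_Lsub_mul (F := F)
        have h3 := nat_cube_lt hlt Fintype.one_lt_card
        have hg : Nat.gcd 2 (Nat.card K - 1) = Nat.gcd 2 (Fintype.card F - 1) := by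
          obtain ⟨b, hb, hKb⟩ := card_subfield_eq_pow p K
          have hmod : ∀ m, m ≠ 0 → Nat.gcd 2 (p ^ m - 1) = if p = 2 then 1 else 2 := fun m hm => by
            split_ifs with h2
            · subst h2
              have : 2 ∣ 2 ^ m := dvd_pow_self _ hm
              have hpos : 1 ≤ 2 ^ m := Nat.one_le_pow _ _ two_pos
              exact (Nat.coprime_two_left.mpr (Nat.odd_iff.mpr (by omega)))
            · obtain ⟨r, hr⟩ := (hpp.odd_of_ne_two h2).pow (n := m)
              rw [hr, Nat.add_sub_cancel, Nat.gcd_mul_right_right]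
          rw [hKb, hn, hmod b (by omega), hmod n n.pos.ne']
        rw [hg] at h1
        omega)
      haveI := simple_of_card (F := K) (by rw [← Nat.card_eq_fintype_card]; exact h4)
      haveI : Group.IsSolvable (Matrix.ProjectiveSpecialLinearGroup (Fin 2) K) :=
        Group.isSolvable_of_surjective (f := (subPSLEquiv K).symm.toMonoidHom) (subPSLEquiv K).symm.surjective
      obtain ⟨a, b, hab⟩ := not_comm (F := K)
      exact hab (IsSimpleGroup.comm_iff_isSolvable.mpr inferInstance a b)
    have hA5 : Odd (Fintype.card F) → (Fintype.card F % 5 = 1 ∨ Fintype.card F % 5 = 4) → False := by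
      intro ho h5
      have h2 : (2 : F) ≠ 0 := Ring.two_ne_zero (ringChar_ne_two ho)
      obtain ⟨a, b, hxy⟩ := exists_sum_sq_neg_one F
      obtain ⟨s, hs⟩ : IsSquare (5 : F) := isSquare_five_iff.mpr (Or.inl (by omega))
      have hs' : s ^ 2 = 5 := by rw [sq]; exact hs.symm
      obtain ⟨⟨e⟩, h60⟩ := qA5_iso hxy h2 hs'
      have h9 : 9 ≤ Fintype.card F := by rw [Nat.odd_iff] at ho; omega
      haveI := hns _ (qA5_le_Lsub hxy h2 hs') (fun e' => by
        have hL := two_card_L ho
        rw [← e', h60] at hL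
        have := nat_cube_mono h9
        rw [show 9 * (9 ^ 2 - 1) = 720 by rfl] at this
        omega)
      haveI : Group.IsSolvable (alternatingGroup (Fin 5)) :=
        Group.isSolvable_of_surjective (f := e.toMonoidHom) e.surjective
      haveI := alternatingGroup.isSimpleGroup (α := Fin 5) (by simp)
      have hc := IsSimpleGroup.comm_iff_isSolvable.mpr (inferInstance : Group.IsSolvable (alternatingGroup (Fin 5)))
      exact absurd (hc ⟨c[0, 1, 2], Equiv.Perm.mem_alternatingGroup.mpr (by decide +kernel)⟩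
        ⟨c[0, 1, 3], Equiv.Perm.mem_alternatingGroup.mpr (by decide +kernel)⟩) (by decide +kernel)
    by_cases hn1 : (n : ℕ) = 1
    · rw [hn1, pow_one] at hn
      have hodd : Odd (Fintype.card F) := hn ▸ hpp.odd_of_ne_two (by omega)
      by_cases h5 : p = 5
      · exact Or.inr (Or.inr (Or.inr (hn.trans h5)))
      refine Or.inr (Or.inr (Or.inl ⟨hn ▸ hpp, ?_, ?_⟩))
      · rw [Nat.odd_iff] at hodd; omega
      · have hp5 : p % 5 ≠ 0 := fun h0 => h5
          ((Nat.prime_dvd_prime_iff_eq (by norm_num) hpp).mp (Nat.dvd_of_mod_eq_zero h0)).symm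
        by_contra hne
        exact hA5 hodd (by omega)
    · have hnp : (n : ℕ).Prime := by
        by_contra hnp
        have hrp := Nat.minFac_prime hn1
        have hrn : (n : ℕ).minFac < n := lt_of_le_of_ne (Nat.minFac_le n.pos) fun e => hnp (e ▸ hrp)
        obtain ⟨K, hK⟩ := exists_subfield p hn (Nat.minFac_dvd n) hrp.ne_zero
        have h4 : 4 ≤ Nat.card K := by
          rw [hK]
          calc 4 = 2 ^ 2 := rfl
            _ ≤ p ^ 2 := Nat.pow_le_pow_left hp2 2
            _ ≤ p ^ (n : ℕ).minFac := Nat.pow_le_pow_right hpp.pos hrp.two_le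
        have := hsub K h4
        rw [hK, hn] at this
        exact hrn.ne (Nat.pow_right_injective hp2 this)
      rcases (show p = 2 ∨ p = 3 ∨ 4 ≤ p by omega) with rfl | rfl | h4
      · exact Or.inl ⟨n, hnp, hn⟩
      · refine Or.inr (Or.inl ⟨n, hnp, fun h2 => ?_, hn⟩)
        rw [h2] at hn
        exact hA5 (by rw [hn]; decide) (by rw [hn]; norm_num)
      · exfalso
        obtain ⟨K, hK⟩ := exists_subfield p hn (one_dvd _) one_ne_zero
        have := hsub K (by rw [hK, pow_one]; exact h4)
        rw [hK, hn] at this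
        exact hn1 (Nat.pow_right_injective hp2 this).symm
  · intro hcases
    have hq4 : 4 ≤ Fintype.card F := by
      rcases hcases with ⟨r, hr, e⟩ | ⟨r, hr, -, e⟩ | ⟨-, h, -⟩ | e
      · have := Nat.pow_le_pow_right (show 1 ≤ 2 by norm_num) hr.two_le; omega
      · have := Nat.pow_le_pow_right (show 1 ≤ 3 by norm_num) hr.two_le; omega
      · omega
      · omega
    haveI := simple_of_card hq4
    refine ⟨inferInstance, fun hc => ?_, fun H hH => ?_⟩
    · obtain ⟨a, b, hab⟩ := not_comm (F := F)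
      exact hab (hc.is_comm.comm a b)
    set X := H.map (toP F) with hX
    suffices hs : Group.IsSolvable X from
      Group.isSolvable_of_surjective (f := (H.equivMapOfInjective _ toP_injective).symm.toMonoidHom)
        (H.equivMapOfInjective _ toP_injective).symm.surjective
    have hXL : X ≤ Lsub F := map_toP_le H
    have hXne : X ≠ Lsub F := fun e => hH (Subgroup.eq_top_of_card_eq _ (by
      rw [Nat.card_congr (H.equivMapOfInjective _ toP_injective).toEquiv, ← hX, e, card_Lsub]))
    have P := poles (F := F) (E := E) (p := p) hE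
    -- a prime power: exponent and the subfields
    have hfacts : ((n : ℕ).Prime ∧ (p = 2 ∨ (p = 3 ∧ (n : ℕ) ≠ 2))) ∨
        ((n : ℕ) = 1 ∧ (p = 5 ∨ p % 5 = 2 ∨ p % 5 = 3)) := by
      have key : ∀ a r, a.Prime → r ≠ 0 → Fintype.card F = a ^ r → p = a ∧ (n : ℕ) = r := fun a r ha hr e => by
        rw [hn] at e
        have : p = a := (Nat.prime_dvd_prime_iff_eq hpp ha).mp
          (hpp.dvd_of_dvd_pow (n := r) (e ▸ dvd_pow_self _ n.pos.ne'))
        exact ⟨this, Nat.pow_right_injective ha.two_le (this ▸ e)⟩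
      rcases hcases with ⟨r, hr, e⟩ | ⟨r, hr, hr2, e⟩ | ⟨hq, -, h5⟩ | e
      · obtain ⟨e1, e2⟩ := key 2 r Nat.prime_two hr.ne_zero e
        exact Or.inl ⟨e2 ▸ hr, Or.inl e1⟩
      · obtain ⟨e1, e2⟩ := key 3 r Nat.prime_three hr.ne_zero e
        exact Or.inl ⟨e2 ▸ hr, Or.inr ⟨e1, e2 ▸ hr2⟩⟩
      · obtain ⟨e1, e2⟩ := key _ 1 hq one_ne_zero (pow_one _).symm
        exact Or.inr ⟨e2, Or.inr (e1 ▸ h5)⟩
      · obtain ⟨e1, e2⟩ := key 5 1 (by norm_num) one_ne_zero (by rw [e, pow_one])
        exact Or.inr ⟨e2, Or.inl e1⟩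
    rcases classify (p := p) hE X with ⟨c, hc⟩ | ⟨u, v, huv, -, hc⟩ | ⟨u, v, huv, k, -, -, -, hc, -, -⟩ |
      ⟨-, hc, -⟩ | ⟨-, hc, -⟩ | ⟨hp60, hc, -⟩ | ⟨K, γ, hq3, hK⟩
    · have hfix : ∀ g : X, (g : PGL(2, F)) • inc E c = inc E c := fun g => by rw [← inc_smul, hc g.2]
      exact solvable_of_commutators ((P.unip (inc E c)).subgroupOf X)
        (fun a ha b hb => Subtype.ext (P.uni _ _ _ ha.1 hb.1 ha.2 hb.2).eq)
        (fun g k => ⟨hfix (g * k * g⁻¹ * k⁻¹), P.comm _ _ _ (hfix g) (hfix k)⟩)
    · haveI : IsCyclic (torus F u v) := P.cyc u v huv.1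
      letI := IsCyclic.commGroup (α := torus F u v)
      exact Group.isSolvable_of_comm fun a b => Subtype.ext
        (congrArg Subtype.val (mul_comm (⟨a, hc a.2⟩ : torus F u v) ⟨b, hc b.2⟩) :)
    · haveI : IsCyclic (torus F u v) := P.cyc u v huv.1
      letI := IsCyclic.commGroup (α := torus F u v)
      refine solvable_of_commutators ((torus F u v).subgroupOf X)
        (fun a ha b hb => Subtype.ext
          (congrArg Subtype.val (mul_comm (⟨a, ha⟩ : torus F u v) ⟨b, hb⟩) :)) fun g k => ?_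
      have hswap : ∀ x : PGL(2, F), x ∈ pairStab F u v →
          (x • u = u ∧ x • v = v ∧ x⁻¹ • u = u ∧ x⁻¹ • v = v) ∨ (x • u = v ∧ x • v = u ∧ x⁻¹ • u = v ∧ x⁻¹ • v = u) := by
        intro x hx
        rcases mem_pairStab.mp hx with ⟨e1, e2⟩ | ⟨e1, e2⟩
        · exact Or.inl ⟨e1, e2, inv_smul_eq_iff.mpr e1.symm, inv_smul_eq_iff.mpr e2.symm⟩
        · exact Or.inr ⟨e1, e2, inv_smul_eq_iff.mpr e2.symm, inv_smul_eq_iff.mpr e1.symm⟩
      show (g : PGL(2, F)) * k * (g : PGL(2, F))⁻¹ * (k : PGL(2, F))⁻¹ ∈ torus F u v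
      refine ⟨?_, ?_⟩ <;> show _ • _ = _ <;>
        rcases hswap _ (hc g.2) with ⟨a1, a2, a3, a4⟩ | ⟨a1, a2, a3, a4⟩ <;>
        rcases hswap _ (hc k.2) with ⟨b1, b2, b3, b4⟩ | ⟨b1, b2, b3, b4⟩ <;>
        simp [mul_smul, a1, a2, a3, a4, b1, b2, b3, b4]
    · exact solvable_of_dvd (by rw [hc]; norm_num)
    · exact solvable_of_dvd (by rw [hc])
    · exfalso
      have h5L : 5 ∣ Fintype.card F * (Fintype.card F ^ 2 - 1) := by
        rw [← card_Lsub_mul]
        exact ((by norm_num : 5 ∣ 60).trans (hc ▸ Subgroup.card_dvd_of_le hXL)).mul_left _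
      rcases hfacts with ⟨hnp, hp' | ⟨hp', hn2⟩⟩ | ⟨hn1, hp'⟩
      · subst hp'
        rcases hp60 with h | h
        · exact h (by norm_num)
        · omega
      · subst hp'
        obtain ⟨j, hj⟩ := hnp.odd_of_ne_two hn2
        rcases (Nat.Prime.dvd_mul (by norm_num : Nat.Prime 5)).mp h5L with d | d
        · rw [hn] at d
          exact absurd ((Nat.prime_dvd_prime_iff_eq (by norm_num) Nat.prime_three).mp
            ((by norm_num : Nat.Prime 5).dvd_of_dvd_pow d)) (by norm_num)
        · have : Fintype.card F ^ 2 % 5 = 4 := by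
            rw [hn, hj, ← pow_mul, mul_comm, pow_mul, Nat.pow_mod]
            norm_num
            rw [pow_succ, pow_mul, Nat.mul_mod, Nat.pow_mod]
            norm_num
          omega
      · rw [hn1, pow_one] at hn
        rcases hp' with h | h
        · subst h
          rcases hp60 with h' | h'
          · exact h' (by norm_num)
          · omega
        · rw [hn] at h5L
          rcases (Nat.Prime.dvd_mul (by norm_num : Nat.Prime 5)).mp h5L with d | d
          · have := (Nat.prime_dvd_prime_iff_eq (by norm_num) hpp).mp d; omega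
          · have : p ^ 2 % 5 = 4 := by
              rw [Nat.pow_mod]; rcases h with r | r <;> rw [r]
            omega
    · obtain ⟨b, hb, hKb⟩ := card_subfield_eq_pow p K
      obtain ⟨m, hm, hm'⟩ := exists_card_pow K
      have hbn : b ∣ (n : ℕ) := ⟨m, Nat.pow_right_injective hp2 (show p ^ (n : ℕ) = p ^ (b * m) by rw [← hn, hm', hKb, ← pow_mul])⟩
      have hfull : b ≠ (n : ℕ) := fun e => by
        have hKF : Nat.card K = Fintype.card F := by rw [hKb, e, hn]
        rcases Nat.even_or_odd (Fintype.card F) with he | ho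
        · refine hXne (le_antisymm hXL ?_)
          rcases card_of_subfield hK with c | ⟨ho', -⟩
          · rw [Subgroup.eq_top_of_card_eq X (by rw [c, hKF, card_pgl])]
            exact le_top
          · exact absurd he (hKF ▸ Nat.not_even_iff_odd.mpr ho')
        · exact hXne (eq_Lsub_of_full ho hXL hKF hK)
      rcases hfacts with ⟨hnp, hp'⟩ | ⟨hn1, -⟩
      · obtain rfl : b = 1 := ((Nat.dvd_prime hnp).mp hbn).resolve_right hfull
        rcases hp' with rfl | ⟨rfl, -⟩
        · rw [hKb] at hq3; norm_num at hq3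
        · refine solvable_of_dvd ?_
          rcases card_of_subfield hK with c | ⟨-, c⟩ <;> rw [hKb, show 3 ^ 1 * ((3 ^ 1) ^ 2 - 1) = 24 by rfl] at c
          · rw [c]
          · exact ⟨2, by omega⟩
      · rw [hn1] at hbn
        exact absurd (Nat.dvd_one.mp hbn) (hn1 ▸ hfull)

end Cfsg.Agent.S0810
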