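import Cfsg.Agent.Lib.PSLTwo.PairMax
import Cfsg.Statements.S0811

set_option linter.style.longLine false

open Matrix MulAction OnePoint
open scoped MatrixGroups
open Cfsg.Agent.Lib.PSLTwo

namespace Cfsg.Agent.S0811

/-- For q ∉ {2, 7, 9}, PSL_2(q) has a maximal subgroup isomorphic to the dihedral group of order 2(q + 1)/d, d = gcd(2, q − 1). -/
theorem result {F : Type*} [Field F] [Fintype F] {q : ℕ} (hF : Fintype.card F = q) (hq : q ∉ ({2, 7, 9} : Finset ℕ)) : ∃ H : Subgroup (Matrix.ProjectiveSpecialLinearGroup (Fin 2) F), IsCoatom H ∧ Nonempty (H ≃* DihedralGroup ((q + 1) / Nat.gcd 2 (q - 1))) := by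
  classical
  obtain ⟨E, _, _, _, hE⟩ := exists_quadExt F
  obtain ⟨u, v, huv, hu⟩ := exists_nonrat_pair (F := F) hE
  obtain ⟨k, hk, -, hD, ⟨e'⟩, -⟩ := pair_data hE huv
  rw [(card_torus hE huv).2 hu, hF] at hk
  subst hk
  simp only [Finset.mem_insert, Finset.mem_singleton] at hq
  push Not at hq
  have h2 := Fintype.one_lt_card (α := F)
  have hM : MaxIn (pairStab F u v ⊓ Lsub F) (Lsub F) := by
    by_cases h4 : 4 ≤ Fintype.card F
    · exact maxIn_pair hE huv h4 (fun h => absurd h hu) (fun _ => ⟨by omega, by omega⟩)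
    · obtain rfl : q = 3 := by omega
      have hodd : Odd (Fintype.card F) := by rw [hF]; decide
      have hL := two_card_L hodd
      rw [hF] at hL
      rw [show (3 + 1) / Nat.gcd 2 (3 - 1) = 2 by norm_num] at hD
      rw [show 3 * (3 ^ 2 - 1) = 24 by rfl] at hL
      refine ⟨lt_of_le_of_ne inf_le_right fun e => ?_, fun X hX1 hX2 => ?_⟩
      · rw [e] at hD; omega
      · have hd2 := Subgroup.card_dvd_of_le hX2
        obtain ⟨j, hj⟩ := Subgroup.card_dvd_of_le hX1
        rw [hD] at hj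
        rw [hj, show Nat.card (Lsub F) = 4 * 3 by omega] at hd2
        rcases (Nat.dvd_prime Nat.prime_three).mp (Nat.dvd_of_mul_dvd_mul_left (by norm_num) hd2) with rfl | rfl
        · exact Or.inl (Subgroup.eq_of_le_of_card_ge hX1 (by omega)).symm
        · exact Or.inr (Subgroup.eq_of_le_of_card_ge hX2 (by omega))
  obtain ⟨H, hH, ⟨e⟩⟩ := exists_psl_subgroup (X := pairStab F u v ⊓ Lsub F) inf_le_right
  exact ⟨H, (isCoatom_iff_maxIn H).mpr (hH ▸ hM), ⟨e.trans e'⟩⟩

end Cfsg.Agent.S0811
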