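import Cfsg.Agent.Lib.PSLTwo.PairMax
import Cfsg.Statements.S0812

set_option linter.style.longLine false

open Matrix MulAction OnePoint
open scoped MatrixGroups
open Cfsg.Agent.Lib.PSLTwo

namespace Cfsg.Agent.S0812

/-- For q ∉ {2, 3, 5, 7, 9, 11}, PSL_2(q) has a maximal subgroup isomorphic to the dihedral group of order 2(q − 1)/d, d = gcd(2, q − 1). -/
theorem result {F : Type*} [Field F] [Fintype F] {q : ℕ} (hF : Fintype.card F = q) (hq : q ∉ ({2, 3, 5, 7, 9, 11} : Finset ℕ)) : ∃ H : Subgroup (Matrix.ProjectiveSpecialLinearGroup (Fin 2) F), IsCoatom H ∧ Nonempty (H ≃* DihedralGroup ((q - 1) / Nat.gcd 2 (q - 1))) := by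
  classical
  obtain ⟨E, _, _, _, hE⟩ := exists_quadExt F
  obtain ⟨u, v, huv, hu⟩ := exists_rat_pair (F := F) hE
  obtain ⟨k, hk, -, hD, ⟨e'⟩, -⟩ := pair_data hE huv
  rw [(card_torus hE huv).1 hu, hF] at hk
  subst hk
  simp only [Finset.mem_insert, Finset.mem_singleton] at hq
  push Not at hq
  have h2 := Fintype.one_lt_card (α := F)
  have hM : MaxIn (pairStab F u v ⊓ Lsub F) (Lsub F) :=
    maxIn_pair hE huv (by omega) (fun _ ho => by obtain ⟨r, hr⟩ := ho; omega) (fun h => absurd hu h)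
  obtain ⟨H, hH, ⟨e⟩⟩ := exists_psl_subgroup (X := pairStab F u v ⊓ Lsub F) inf_le_right
  exact ⟨H, (isCoatom_iff_maxIn H).mpr (hH ▸ hM), ⟨e.trans e'⟩⟩

end Cfsg.Agent.S0812
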