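import Cfsg.Statements.S0814
import Cfsg.Agent.Lib.AutPSp.Count

set_option autoImplicit false
open Cfsg

namespace Cfsg.Agent.S0814

/-- |Aut(PSp_2m(q))| = gcd(2, q−1) · f · |PSp_2m(q)| for q = p^f, m ≥ 2, (m, q) ≠ (2, 2), with an extra factor 2 exactly when m = 2 and p = 2. -/
theorem result {F : Type*} [Field F] [Fintype F] (p f : ℕ) [Fact p.Prime] (hf : 1 ≤ f) (hF : Fintype.card F = p ^ f) (m : ℕ) (hm : 2 ≤ m) (h22 : m = 2 → 3 ≤ p ^ f) : Nat.card (MulAut (Cfsg.PSp m F)) = (if m = 2 ∧ p = 2 then 2 else 1) * Nat.gcd 2 (p ^ f - 1) * f * Nat.card (Cfsg.PSp m F) := by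
  classical
  have hp2 : (2 : F) = 0 ↔ p = 2 := by
    haveI : CharP F p := charP_of_card_eq_prime_pow (R := F) (f := f) hF
    rw [show (2 : F) = ((2 : ℕ) : F) by norm_num, CharP.cast_eq_zero_iff F p]
    exact Nat.prime_dvd_prime_iff_eq Fact.out Nat.prime_two
  split_ifs with h
  · obtain ⟨rfl, hp⟩ := h
    rw [Cfsg.Agent.Lib.AutPSp.card_aut_exo (hp2.2 hp) (hF ▸ h22 rfl) hf hF]
    ring
  · rw [Cfsg.Agent.Lib.AutPSp.card_aut_std (by omega) ?_ hf hF]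
    · ring
    by_cases hm2 : m = 2
    · exact Or.inl fun h0 => h ⟨hm2, hp2.1 h0⟩
    · exact Or.inr (by omega)

end Cfsg.Agent.S0814
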