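import Cfsg.Statements.S0816
import Cfsg.Agent.Lib.AutOmega.AutCard
import Cfsg.Agent.S2604
-- import your own Cfsg.Agent.* helpers here

set_option autoImplicit false
open Cfsg

open Cfsg.Agent.Lib.AutOmega Cfsg.Agent.Lib.Classical.Quad Cfsg.Agent.Lib.Classical.QuadOmega Cfsg.Agent.Lib.Classical.QuadF2

namespace Cfsg.Agent.S0816

/-- |Aut(PΩ_(2m+1)(q))| = 2 f · |PΩ_(2m+1)(q)| for q = p^f odd and m ≥ 3 (for the form quadFormOdd). -/
theorem result {F : Type*} [Field F] [Fintype F] (p f : ℕ) [Fact p.Prime] (hf : 1 ≤ f) (hF : Fintype.card F = p ^ f) (hodd : Odd p) (m : ℕ) (hm : 3 ≤ m) : Nat.card (MulAut (Cfsg.POmega F (Cfsg.quadFormOdd m F))) = 2 * f * Nat.card (Cfsg.POmega F (Cfsg.quadFormOdd m F)) := by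
  have hp : p ≠ 2 := fun h => by subst h; simp [Nat.odd_iff] at hodd
  have h2 : (2 : F) ≠ 0 := two_ne_zero_of_odd (hF ▸ hodd.pow)
  obtain ⟨e⟩ := Cfsg.Agent.S2604.result hf hF hp hm
  haveI : NeZero f := ⟨by omega⟩
  rw [card_aut_of_out (fun v => Cfsg.Agent.Lib.AutOmegaOdd.Qo_apply v)
    (show Good (Cfsg.Agent.Lib.AutOmegaOdd.Qo m F) from good_of_split (good_odd h2 hm) (eOdd m)),
    Nat.card_congr e.toEquiv, Nat.card_congr Multiplicative.toAdd, Nat.card_prod, Nat.card_zmod,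
    Nat.card_zmod]

end Cfsg.Agent.S0816
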