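import Cfsg.Statements.S1082
import Cfsg.Agent.Lib.OrthChev.PlusFour
import Cfsg.Agent.S1054
import Cfsg.Agent.S1077

set_option autoImplicit false
open Cfsg Cfsg.Agent.Lib.OrthChev

namespace Cfsg.Agent.S1082

/-- D₄(F) ≅ PΩ₈⁺(F), the commutator subgroup of the orthogonal group of `Σ xᵢ yᵢ` modulo its centre. -/
theorem result {F : Type*} [Field F] : Nonempty (↥(Cfsg.Lie.chevD4.group F) ≃* Cfsg.POmega F (Cfsg.quadFormPlus 4 F)) := by
  have : IsSimpleGroup ↥(Cfsg.Lie.chevD4.group F) := (S1054.result Cfsg.Lie.chevD4 (by simp)).1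
  obtain ⟨θ, hθ, hker, -⟩ := S1077.result (K := F) Cfsg.Lie.chevD4 (by simp)
  exact pOmega_equiv PlusFour.indexing PlusFour.repData PlusFour.omega PlusFour.cover θ hθ hker
    (a := .inl 0) (b := .inl 1) ⟨PlusFour.bar_ne _, PlusFour.bar_ne _, by decide, by decide⟩

end Cfsg.Agent.S1082
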