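import Cfsg.Statements.S0817
import Cfsg.Agent.Lib.AutOmega.AutCard
import Cfsg.Agent.S2607
import Cfsg.Agent.S2608
-- import your own Cfsg.Agent.* helpers here

set_option autoImplicit false
open Cfsg

open Cfsg.Agent.Lib.AutOmega Cfsg.Agent.Lib.Classical.Quad Cfsg.Agent.Lib.Classical.QuadOmega Cfsg.Agent.Lib.Classical.QuadF2

namespace Cfsg.Agent.S0817

/-- |Aut(PΩ⁺_2m(q))| for q = p^f, m ≥ 4: |PΩ⁺_2m(q)| times f, times 3 when m = 4, times 2 if p = 2, and times 8 or 4 if p is odd according as m(q−1)/2 is even or odd. -/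
theorem result {F : Type*} [Field F] [Fintype F] (p f : ℕ) [Fact p.Prime] (hf : 1 ≤ f) (hF : Fintype.card F = p ^ f) (m : ℕ) (hm : 4 ≤ m) : Nat.card (MulAut (Cfsg.POmega F (Cfsg.quadFormPlus m F))) = (if m = 4 then 3 else 1) * (if p = 2 then 2 else (if Even (m * (p ^ f - 1) / 2) then 8 else 4)) * f * Nat.card (Cfsg.POmega F (Cfsg.quadFormPlus m F)) := by
  haveI : NeZero f := ⟨by omega⟩
  rw [card_aut_of_out (fun v => plusQ_apply (F := F) m v) (good_plusQ (by omega))]
  congr 1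
  by_cases hp : p = 2
  · subst hp
    rw [if_pos rfl]
    have h := Cfsg.Agent.S2607.result hf hF hm
    by_cases h4 : m = 4
    · rw [if_pos h4] at h ⊢
      obtain ⟨e⟩ := h
      rw [Nat.card_congr e.toEquiv, Nat.card_prod, Nat.card_perm, Nat.card_fin,
        Nat.card_congr Multiplicative.toAdd, Nat.card_zmod]
      rfl
    · rw [if_neg h4] at h ⊢
      obtain ⟨e⟩ := h
      rw [Nat.card_congr e.toEquiv, Nat.card_congr Multiplicative.toAdd, Nat.card_prod, Nat.card_zmod,
        Nat.card_zmod, one_mul]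
  rw [if_neg hp]
  have hiff : Even (m * (p ^ f - 1) / 2) ↔ ¬ (p ^ f % 4 = 3 ∧ Odd m) := even_half_iff
    ((Fact.out : p.Prime).odd_of_ne_two hp).pow
  have h := Cfsg.Agent.S2608.result hf hF hp hm
  by_cases h4 : m = 4
  · rw [if_pos h4] at h ⊢
    obtain ⟨e⟩ := h
    rw [if_pos (hiff.2 fun h => by rw [h4] at h; exact absurd h.2 (by decide)),
      Nat.card_congr e.toEquiv, Nat.card_prod, Nat.card_perm, Nat.card_fin,
      Nat.card_congr Multiplicative.toAdd, Nat.card_zmod]
    rfl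
  rw [if_neg h4] at h ⊢
  by_cases hc : p ^ f % 4 = 3 ∧ Odd m
  · rw [if_pos hc] at h
    obtain ⟨e⟩ := h
    rw [if_neg fun h => hiff.1 h hc, Nat.card_congr e.toEquiv, Nat.card_congr Multiplicative.toAdd,
      Nat.card_prod, Nat.card_prod, Nat.card_zmod, Nat.card_zmod]
    ring
  · rw [if_neg hc] at h
    obtain ⟨e⟩ := h
    rw [if_pos (hiff.2 hc), Nat.card_congr e.toEquiv, Nat.card_prod, DihedralGroup.nat_card,
      Nat.card_congr Multiplicative.toAdd, Nat.card_zmod, one_mul]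

end Cfsg.Agent.S0817
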