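import Cfsg.Statements.S2606
import Cfsg.Agent.Lib.AutOmega.OutMinus

set_option autoImplicit false
open Cfsg Cfsg.Agent.Lib.AutOmega Cfsg.Agent.Lib.Classical.QuadOmega

namespace Cfsg.Agent.S2606

/-- Outer automorphism group of PΩ⁻_2m(q), m ≥ 4, q = p^f odd: it is dihedral of order 8 times cyclic of order f when q ≡ 3 (mod 4) and m is odd, and otherwise the direct product of a group of order 2 with a cyclic group of order 2f. -/
theorem result {F : Type*} [Field F] [Fintype F] {p f m : ℕ} [Fact p.Prime] (hf : 1 ≤ f) (hF : Fintype.card F = p ^ f) (hp : p ≠ 2) (hm : 4 ≤ m) (a b : F) (hab : ∀ z₁ z₂ : F, z₁ ^ 2 + a * z₁ * z₂ + b * z₂ ^ 2 = 0 → z₁ = 0 ∧ z₂ = 0) : if p ^ f % 4 = 3 ∧ Odd m then Nonempty (Cfsg.Out (Cfsg.POmega F (Cfsg.quadFormMinus (m - 1) F a b)) ≃* DihedralGroup 4 × Multiplicative (ZMod f)) else Nonempty (Cfsg.Out (Cfsg.POmega F (Cfsg.quadFormMinus (m - 1) F a b)) ≃* Multiplicative (ZMod 2 × ZMod (2 * f))) := by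
  have hodd : Odd (Fintype.card F) := by
    rw [hF]; exact ((Fact.out : p.Prime).odd_of_ne_two hp).pow
  have h2 : (2 : F) ≠ 0 := two_ne_zero_of_odd hodd
  obtain ⟨D, hν, -, hg0⟩ := exists_dat_minus (F := F) (a := a) (b := b) hab (show 3 ≤ m - 1 by omega) h2
  have hiff : sqSign ((-1 : F) ^ (m - 1 + 1)) = -1 ↔ Odd m ∧ p ^ f % 4 = 3 := by
    rw [sqSign_negOne_pow hodd, hF, show m - 1 + 1 = m by omega]
  split_ifs with h
  · have hfo : Odd f := by
      by_contra hne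
      obtain ⟨k, hk⟩ := Nat.not_odd_iff_even.1 hne
      obtain ⟨j, hj⟩ := (Fact.out : p.Prime).odd_of_ne_two hp
      have := h.1
      rw [hk, ← two_mul, pow_mul, Nat.pow_mod, hj,
        show (2 * j + 1) ^ 2 = 4 * (j * j + j) + 1 by ring, Nat.mul_add_mod] at this
      simp at this
    refine out_dihedral hfo hF hp hab (show 3 ≤ m - 1 by omega) D ?_
    rw [hν, hiff.2 ⟨h.2, h.1⟩]
    decide
  · refine out_abelian hf hF hp hab (show 3 ≤ m - 1 by omega) D ?_ hg0
    rw [hν]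
    rcases Int.units_eq_one_or (sqSign ((-1 : F) ^ (m - 1 + 1))) with e | e
    · rw [e]
    · exact absurd ⟨(hiff.1 e).2, (hiff.1 e).1⟩ h

end Cfsg.Agent.S2606
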