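import Cfsg.Statements.S0818
import Cfsg.Agent.Lib.AutOmega.AutCard
import Cfsg.Agent.S2605
import Cfsg.Agent.S2606
-- import your own Cfsg.Agent.* helpers here

set_option autoImplicit false
open Cfsg

open Cfsg.Agent.Lib.AutOmega Cfsg.Agent.Lib.Classical.Quad Cfsg.Agent.Lib.Classical.QuadOmega Cfsg.Agent.Lib.Classical.QuadF2

namespace Cfsg.Agent.S0818

/-- |Aut(PΩ⁻_2m(q))| for q = p^f, m ≥ 4 (form quadFormMinus (m−1) with anisotropic binary part): |PΩ⁻_2m(q)| times f, times 2 if p = 2, and times 4 or 8 if p is odd according as m(q−1)/2 is even or odd. -/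
theorem result {F : Type*} [Field F] [Fintype F] (p f : ℕ) [Fact p.Prime] (hf : 1 ≤ f) (hF : Fintype.card F = p ^ f) (m : ℕ) (hm : 4 ≤ m) (a b : F) (hab : ∀ z₁ z₂ : F, z₁ ^ 2 + a * z₁ * z₂ + b * z₂ ^ 2 = 0 → z₁ = 0 ∧ z₂ = 0) : Nat.card (MulAut (Cfsg.POmega F (Cfsg.quadFormMinus (m - 1) F a b))) = (if p = 2 then 2 else (if Even (m * (p ^ f - 1) / 2) then 4 else 8)) * f * Nat.card (Cfsg.POmega F (Cfsg.quadFormMinus (m - 1) F a b)) := by
  rw [card_aut_of_out (fun v => minusQ_apply (F := F) (m - 1) a b v)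
    (good_minusQ hab (show 3 ≤ m - 1 by omega))]
  congr 1
  by_cases hp : p = 2
  · subst hp
    rw [if_pos rfl, (Cfsg.Agent.S2605.result hf hF hm a b hab).2]
  rw [if_neg hp]
  haveI : NeZero f := ⟨by omega⟩
  haveI : NeZero (2 * f) := ⟨by omega⟩
  have hiff : Even (m * (p ^ f - 1) / 2) ↔ ¬ (p ^ f % 4 = 3 ∧ Odd m) := even_half_iff
    ((Fact.out : p.Prime).odd_of_ne_two hp).pow
  have h := Cfsg.Agent.S2606.result hf hF hp hm a b hab
  by_cases hc : p ^ f % 4 = 3 ∧ Odd m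
  · rw [if_pos hc] at h
    obtain ⟨e⟩ := h
    rw [if_neg fun h => hiff.1 h hc, Nat.card_congr e.toEquiv, Nat.card_prod, DihedralGroup.nat_card,
      Nat.card_congr Multiplicative.toAdd, Nat.card_zmod]
  · rw [if_neg hc] at h
    obtain ⟨e⟩ := h
    rw [if_pos (hiff.2 hc), Nat.card_congr e.toEquiv, Nat.card_congr Multiplicative.toAdd,
      Nat.card_prod, Nat.card_zmod, Nat.card_zmod]
    ring

end Cfsg.Agent.S0818
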