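import Cfsg.Statements.S0819


set_option autoImplicit false
open Cfsg

namespace Cfsg.Agent.S0819

/-- No element of PSL_3(4) has order 15. -/
theorem result {F : Type*} [Field F] [Fintype F] (hF : Fintype.card F = 4) (g : Matrix.ProjectiveSpecialLinearGroup (Fin 3) F) : orderOf g ≠ 15 := by
  classical
  intro hord
  haveI : CharP F 2 := charP_of_card_eq_prime_pow (f := 2) (p := 2) (by rw [hF]; norm_num)
  have h2 : (2 : F) = 0 := CharP.cast_eq_zero F 2
  have hcube : ∀ a : F, a ≠ 0 → a ^ 3 = 1 := fun a ha => by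
    have := FiniteField.pow_card_sub_one_eq_one a ha
    rwa [hF] at this
  have hroot : ∀ a : F, a ≠ 0 → a ≠ 1 → a ^ 2 + a + 1 = 0 := fun a ha ha1 => by
    have : (a - 1) * (a ^ 2 + a + 1) = 0 := by linear_combination hcube a ha
    exact (mul_eq_zero.1 this).resolve_left (sub_ne_zero.2 ha1)
  obtain ⟨x, rfl⟩ := QuotientGroup.mk_surjective g
  have hscal : ∀ (y : Matrix.SpecialLinearGroup (Fin 3) F) (c : F),
      (y : Matrix (Fin 3) (Fin 3) F) = Matrix.scalar (Fin 3) c →
      (QuotientGroup.mk y : Matrix.ProjectiveSpecialLinearGroup (Fin 3) F) = 1 := by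
    intro y c hc
    rw [QuotientGroup.eq_one_iff, Matrix.SpecialLinearGroup.mem_center_iff]
    refine ⟨c, ?_, hc.symm⟩
    have := y.2
    rw [hc, Matrix.scalar_apply, Matrix.det_diagonal, Finset.prod_const, Finset.card_univ] at this
    exact this
  have hne : ∀ e : ℕ, 0 < e → e < 15 → ∀ c : F,
      (x : Matrix (Fin 3) (Fin 3) F) ^ e ≠ Matrix.scalar (Fin 3) c := by
    intro e he he' c hc
    have h1 := hscal (x ^ e) c (by rw [Matrix.SpecialLinearGroup.coe_pow]; exact hc)
    rw [QuotientGroup.mk_pow] at h1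
    exact absurd (Nat.le_of_dvd he (hord ▸ orderOf_dvd_of_pow_eq_one h1)) (by omega)
  set X := (x : Matrix (Fin 3) (Fin 3) F) with hX
  have h15 : (QuotientGroup.mk x : Matrix.ProjectiveSpecialLinearGroup (Fin 3) F) ^ 15 = 1 :=
    hord ▸ pow_orderOf_eq_one _
  rw [← QuotientGroup.mk_pow, QuotientGroup.eq_one_iff, Matrix.SpecialLinearGroup.mem_center_iff] at h15
  obtain ⟨l, hl3, hl⟩ := h15
  rw [Fintype.card_fin] at hl3
  rw [Matrix.SpecialLinearGroup.coe_pow, ← hX, Matrix.scalar_apply, ← Matrix.smul_one_eq_diagonal] at hl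
  set N := l • X ^ 3 with hN
  have hl0 : l ≠ 0 := fun e => by rw [e] at hl3; simp at hl3
  have hN5 : N ^ 5 = 1 := by
    rw [hN, smul_pow, ← pow_mul, show 3 * 5 = 15 from rfl, ← hl, smul_smul,
      show l ^ 5 * l = 1 by linear_combination (l ^ 3 + 1) * hl3, one_smul]
  have hN1 : N ≠ 1 := by
    intro e
    refine hne 3 (by norm_num) (by norm_num) l⁻¹ ?_
    rw [Matrix.scalar_apply, ← Matrix.smul_one_eq_diagonal, ← e, hN, smul_smul, inv_mul_cancel₀ hl0,
      one_smul]
  let q : F → Matrix (Fin 3) (Fin 3) F := fun o => N * N + o • N + 1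
  obtain ⟨ω, hω0, hω1⟩ : ∃ ω : F, ω ≠ 0 ∧ ω ≠ 1 := by
    obtain ⟨a, -, ha⟩ := Finset.exists_mem_notMem_of_card_lt_card
      (s := ({0, 1} : Finset F)) (t := Finset.univ) (lt_of_le_of_lt Finset.card_le_two
        (by rw [Finset.card_univ, hF]; norm_num))
    simp only [Finset.mem_insert, Finset.mem_singleton, not_or] at ha
    exact ⟨a, ha⟩
  have hωr := hroot ω hω0 hω1
  have hfac : (N - 1) * q ω * q (ω ^ 2) = 0 := by
    have hsum : ω + ω ^ 2 = 1 := by linear_combination hωr - h2
    have h4 : q ω * q (ω ^ 2) = N ^ 4 + N ^ 3 + N ^ 2 + N + 1 := by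
      simp only [q]
      have hp : ω * ω ^ 2 = 1 := by rw [← pow_succ']; exact hcube ω hω0
      simp only [add_mul, mul_add, smul_mul_assoc, mul_smul_comm, smul_smul, mul_one, one_mul,
        ← pow_two, ← pow_succ, ← pow_succ', ← pow_add, ← pow_mul, Nat.reduceMul, Matrix.mul_assoc]
      have h2m : ∀ A : Matrix (Fin 3) (Fin 3) F, A + A = 0 := fun A => by
        ext i j; simp only [Matrix.add_apply, Matrix.zero_apply]; linear_combination A i j * h2
      ext i j
      simp only [Matrix.add_apply, Matrix.smul_apply, smul_eq_mul]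
      have e3 : (N * N * N) = N ^ 3 := by rw [pow_succ, pow_two]
      linear_combination ((N ^ 3) i j + N i j) * hsum + (N ^ 2) i j * hp + (N ^ 2) i j * h2
    rw [mul_assoc, h4]
    have : (N - 1) * (N ^ 4 + N ^ 3 + N ^ 2 + N + 1) = N ^ 5 - 1 := by noncomm_ring
    rw [this, hN5, sub_self]
  obtain ⟨o, ho0, ho1, v, hv, hqv⟩ : ∃ o : F, o ≠ 0 ∧ o ≠ 1 ∧ ∃ v, v ≠ 0 ∧ (q o).mulVec v = 0 := by
    by_contra hcon
    push Not at hcon
    have hu : ∀ o : F, o ≠ 0 → o ≠ 1 → IsUnit (q o) := fun o h0 h1 => by
      rw [Matrix.isUnit_iff_isUnit_det, isUnit_iff_ne_zero]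
      intro hd
      obtain ⟨v, hv, hv'⟩ := Matrix.exists_mulVec_eq_zero_iff.2 hd
      exact hcon o h0 h1 v hv hv'
    have hω2 : ω ^ 2 ≠ 1 := fun e => hω0 (by linear_combination hωr - e - h2)
    rw [(hu _ (pow_ne_zero 2 hω0) hω2).mul_left_eq_zero, (hu ω hω0 hω1).mul_left_eq_zero] at hfac
    exact hN1 (sub_eq_zero.1 hfac)
  have hor := hroot o ho0 ho1
  have hnoeig : ∀ (c : F) (u : Fin 3 → F), u ≠ 0 → N.mulVec u = c • u → (q o).mulVec u ≠ 0 := by
    intro c u hu hc hq
    have e : (c * c + o * c + 1) • u = 0 := by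
      rw [← hq]
      simp only [q, Matrix.add_mulVec, Matrix.smul_mulVec, ← Matrix.mulVec_mulVec,
        Matrix.one_mulVec, hc, Matrix.mulVec_smul, smul_smul, add_smul, one_smul]
    have e' := (smul_eq_zero.1 e).resolve_right hu
    rcases eq_or_ne c 0 with rfl | hc0
    · simp at e'
    rcases eq_or_ne c 1 with rfl | hc1
    · exact ho0 (by linear_combination e' - h2)
    · have := hroot c hc0 hc1
      have : (o - 1) * c = 0 := by linear_combination e' - this
      exact ho1 (sub_eq_zero.1 ((mul_eq_zero.1 this).resolve_right hc0))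
  set w := N.mulVec v with hw
  have hw2 : N.mulVec w = o • w + v := by
    have e : N.mulVec w + o • w + v = 0 := by
      rw [← hqv]
      simp only [q, Matrix.add_mulVec, Matrix.smul_mulVec, ← Matrix.mulVec_mulVec,
        Matrix.one_mulVec, hw]
    funext i
    have := congrFun e i
    simp only [Pi.add_apply, Pi.smul_apply, smul_eq_mul, Pi.zero_apply] at this ⊢
    linear_combination this - (o * w i + v i) * h2
  have hli : LinearIndependent F ![v, w] := by
    rw [LinearIndependent.pair_iff' hv]
    exact fun c hc => hnoeig c v hv hc.symm hqv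
  let L := Matrix.toLin' (q o)
  let W := LinearMap.ker L
  have hW : ∀ u, u ∈ W ↔ (q o).mulVec u = 0 := fun u => by
    simp [W, L, LinearMap.mem_ker, Matrix.toLin'_apply]
  have hcomm : ∀ (k : ℕ) (u : Fin 3 → F), (q o).mulVec u = 0 → (q o).mulVec ((X ^ k).mulVec u) = 0 := by
    intro k u hu
    have hc : Commute (q o) (X ^ k) := by
      have h1 : Commute N (X ^ k) := ((Commute.refl X).pow_pow 3 k).smul_left l
      exact ((h1.mul_left h1).add_left (h1.smul_left o)).add_left (Commute.one_left _)
    rw [Matrix.mulVec_mulVec, hc.eq, ← Matrix.mulVec_mulVec, hu, Matrix.mulVec_zero]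
  have hNW : ∀ u, (q o).mulVec u = 0 → (q o).mulVec (N.mulVec u) = 0 := fun u hu => by
    rw [hN, Matrix.smul_mulVec, Matrix.mulVec_smul, hcomm 3 u hu, smul_zero]
  have hvw : v ∈ W ∧ w ∈ W := ⟨(hW v).2 hqv, (hW w).2 (hNW v hqv)⟩
  have hspan : W = Submodule.span F (Set.range ![v, w]) := by
    refine (Submodule.eq_of_le_of_finrank_le ?_ ?_).symm
    · rw [Submodule.span_le]; rintro _ ⟨i, rfl⟩; fin_cases i <;> [exact hvw.1; exact hvw.2]
    rw [finrank_span_eq_card hli, Fintype.card_fin]
    by_contra hcon
    have htop : W = ⊤ := Submodule.eq_top_of_finrank_eq (le_antisymm (Submodule.finrank_le W) (by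
      rw [Module.finrank_fintype_fun_eq_card, Fintype.card_fin]; omega))
    -- a third independent vector gives an eigenvector
    have hall : ∀ u, (q o).mulVec u = 0 := fun u => (hW u).1 (htop ▸ Submodule.mem_top)
    obtain ⟨u, -, hu⟩ : ∃ u ∈ W, u ∉ Submodule.span F (Set.range ![v, w]) := by
      by_contra hh
      push Not at hh
      have := Submodule.finrank_mono (show W ≤ _ from hh)
      rw [finrank_span_eq_card hli, Fintype.card_fin] at this
      exact hcon this
    have hdep : ¬ LinearIndependent F ![v, w, u, N.mulVec u] := fun h => by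
      have := h.fintype_card_le_finrank
      simp at this
    rw [Fintype.linearIndependent_iff] at hdep
    push Not at hdep
    obtain ⟨c, hc, i, hi⟩ := hdep
    simp [Fin.sum_univ_four] at hc
    have hb : c 3 ≠ 0 := by
      intro h3
      rw [h3, zero_smul, add_zero] at hc
      rcases eq_or_ne (c 2) 0 with h | h
      · rw [h, zero_smul, add_zero] at hc
        have h01 := Fintype.linearIndependent_iff.1 hli ![c 0, c 1] (by simpa [Fin.sum_univ_two] using hc)
        refine hi ?_
        fin_cases i
        · exact h01 0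
        · exact h01 1
        · exact h
        · exact h3
      · refine hu ?_
        have e2 : u = (-(c 0) / c 2) • v + (-(c 1) / c 2) • w := by
          funext j
          have := congrFun hc j
          simp only [Pi.add_apply, Pi.smul_apply, smul_eq_mul, Pi.zero_apply] at this ⊢
          field_simp
          linear_combination this
        rw [e2]
        exact add_mem (Submodule.smul_mem _ _ (Submodule.subset_span ⟨0, rfl⟩))
          (Submodule.smul_mem _ _ (Submodule.subset_span ⟨1, rfl⟩))
    -- both sides of the relation lie in a common line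
    let z := c 0 • v + c 1 • w
    have hz : z = -(c 2 • u + c 3 • N.mulVec u) := by
      funext j
      have := congrFun hc j
      simp only [z, Pi.add_apply, Pi.smul_apply, Pi.neg_apply, smul_eq_mul, Pi.zero_apply] at this ⊢
      linear_combination this
    have hNu2 : N.mulVec (N.mulVec u) = o • N.mulVec u + u := by
      have e := hall u
      simp only [q, Matrix.add_mulVec, Matrix.smul_mulVec, ← Matrix.mulVec_mulVec, Matrix.one_mulVec] at e
      funext j
      have := congrFun e j
      simp only [Pi.add_apply, Pi.smul_apply, smul_eq_mul, Pi.zero_apply] at this ⊢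
      linear_combination this - (o * (N.mulVec u) j + u j) * h2
    have hz0 : z ≠ 0 := by
      intro h0
      rw [h0] at hz
      have hu0 : u ≠ 0 := fun e => hu (e ▸ Submodule.zero_mem _)
      refine hnoeig (-(c 2) / c 3) u hu0 ?_ (hall u)
      funext j
      have := congrFun hz j
      simp only [Pi.add_apply, Pi.smul_apply, Pi.neg_apply, smul_eq_mul, Pi.zero_apply] at this ⊢
      field_simp
      linear_combination this
    have hNz : N.mulVec z ∈ Submodule.span F (Set.range ![v, w]) := by
      simp only [z, Matrix.mulVec_add, Matrix.mulVec_smul, hw2, ← hw]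
      exact add_mem (Submodule.smul_mem _ _ (Submodule.subset_span ⟨1, rfl⟩))
        (Submodule.smul_mem _ _ (add_mem (Submodule.smul_mem _ _ (Submodule.subset_span ⟨1, rfl⟩))
          (Submodule.subset_span ⟨0, rfl⟩)))
    have hzmem : z ∈ Submodule.span F (Set.range ![v, w]) :=
      add_mem (Submodule.smul_mem _ _ (Submodule.subset_span ⟨0, rfl⟩))
        (Submodule.smul_mem _ _ (Submodule.subset_span ⟨1, rfl⟩))
    -- Nz and z lie in span(u, Nu) ∩ span(v, w)
    have key : (c 3 • N.mulVec z) - (c 2 + o * c 3) • z =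
        (c 2 * (c 2 + o * c 3) - c 3 * c 3) • u := by
      rw [hz]
      simp only [Matrix.mulVec_neg, Matrix.mulVec_add, Matrix.mulVec_smul, hNu2]
      module
    have hcoef : c 2 * (c 2 + o * c 3) - c 3 * c 3 = 0 := by
      by_contra hne0
      refine hu ?_
      have hm : (c 2 * (c 2 + o * c 3) - c 3 * c 3) • u ∈ Submodule.span F (Set.range ![v, w]) :=
        key ▸ sub_mem (Submodule.smul_mem _ _ hNz) (Submodule.smul_mem _ _ hzmem)
      simpa [hne0] using Submodule.smul_mem _ (c 2 * (c 2 + o * c 3) - c 3 * c 3)⁻¹ hm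
    rw [hcoef, zero_smul, sub_eq_zero] at key
    refine hnoeig ((c 3)⁻¹ * (c 2 + o * c 3)) z hz0 ?_ (hall z)
    rw [← smul_smul, ← key, smul_smul, inv_mul_cancel₀ hb, one_smul]
  -- the element of order three acts on `W` as a scalar
  set Y := X ^ 5 with hY
  obtain ⟨a, b, hab⟩ : ∃ a b : F, Y.mulVec v = a • v + b • w := by
    have : Y.mulVec v ∈ Submodule.span F (Set.range ![v, w]) := hspan ▸ (hW _).2 (hcomm 5 v hqv)
    obtain ⟨c, hc⟩ := (Submodule.mem_span_range_iff_exists_fun F).1 this
    exact ⟨c 0, c 1, by rw [← hc]; simp [Fin.sum_univ_two]⟩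
  have hYN : Y * N = N * Y := by
    rw [hY, hN, mul_smul_comm, smul_mul_assoc, ← pow_add, ← pow_add]
  have habw : Y.mulVec w = a • w + b • (o • w + v) := by
    rw [hw, Matrix.mulVec_mulVec, hYN, ← Matrix.mulVec_mulVec, hab, Matrix.mulVec_add,
      Matrix.mulVec_smul, Matrix.mulVec_smul, ← hw, hw2]
  have hY3 : (Y ^ 3).mulVec v = l • v := by
    rw [hY, ← pow_mul, show 5 * 3 = 15 from rfl, ← hl, Matrix.smul_mulVec, Matrix.one_mulVec]
  have hb0 : b = 0 := by
    rw [pow_succ, pow_two, ← Matrix.mulVec_mulVec, hab, ← Matrix.mulVec_mulVec] at hY3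
    simp only [Matrix.mulVec_add, Matrix.mulVec_smul, hab, habw] at hY3
    have hc := (LinearIndependent.pair_iff.1 hli
      (a * (a * a + b * b) + b * (a * b + b * (a + b * o)) - l)
      (a * (a * b + b * (a + b * o)) + b * (b * b + (a + b * o) * (a + b * o))) (by
      rw [← sub_eq_zero] at hY3
      rw [← hY3]
      module)).2
    by_contra hb
    -- `t = a / b` would satisfy `t² + o t + o = 0`
    set t := a / b with ht
    have hat : a = t * b := (div_mul_cancel₀ a hb).symm
    have e : b ^ 3 * (t ^ 2 + o * t + (1 + o ^ 2)) = 0 := by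
      rw [hat] at hc
      linear_combination hc - (t ^ 2 * b ^ 3 + o * t * b ^ 3) * h2
    have e' := (mul_eq_zero.1 e).resolve_left (pow_ne_zero 3 hb)
    set s := t * o ^ 2
    have hto : t = o * s := by
      have : o ^ 3 = 1 := hcube o ho0
      show t = o * (t * o ^ 2)
      linear_combination -t * this
    rw [hto] at e'
    have hs : s ^ 2 + s = o ^ 2 := by
      have h3 := hcube o ho0
      linear_combination o * e' - (s ^ 2 + s + 1) * h3 - hor
    rcases eq_or_ne s 0 with h | h
    · rw [h] at hs; exact ho0 (pow_eq_zero_iff two_ne_zero |>.1 (by linear_combination -hs))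
    rcases eq_or_ne s 1 with h1 | h1
    · rw [h1] at hs; exact ho0 (pow_eq_zero_iff two_ne_zero |>.1 (by linear_combination h2 - hs))
    · exact ho0 (by linear_combination hor - hroot s h h1 + hs)
  rw [hb0, zero_smul, add_zero] at hab habw
  -- `q o` has no nilpotent part
  have hsep : ∀ z, (q o * q o).mulVec z = 0 → (q o).mulVec z = 0 := by
    intro z hz
    haveI : CharP (Matrix (Fin 3) (Fin 3) F) 2 :=
      charP_of_injective_algebraMap (algebraMap F (Matrix (Fin 3) (Fin 3) F)).injective 2
    have hsq : ∀ A B : Matrix (Fin 3) (Fin 3) F, Commute A B → (A + B) ^ 2 = A ^ 2 + B ^ 2 :=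
      fun A B h => add_pow_char_of_commute 2 h
    have hpow : ∀ k : ℕ, q o ^ (2 ^ k) = N ^ (2 ^ (k + 1)) + o ^ (2 ^ k) • N ^ (2 ^ k) + 1 := by
      intro k
      induction k with
      | zero => simp [q, pow_two]
      | succ k ih =>
        rw [pow_succ 2 k, pow_mul, ih, hsq _ _ (Commute.one_right _),
          hsq _ _ (((Commute.refl N).pow_pow _ _).smul_right _), one_pow, smul_pow (o ^ 2 ^ k) (N ^ 2 ^ k), ← pow_mul, ← pow_mul,
          ← pow_mul]
        simp only [pow_succ]
    have h16 : q o ^ 16 = q o := by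
      have h := hpow 4
      have e1 : N ^ 32 = N * N := by
        rw [show 32 = 5 * 6 + 2 from rfl, pow_add, pow_mul, hN5, one_pow, one_mul, pow_two]
      have e2 : N ^ 16 = N := by
        rw [show 16 = 5 * 3 + 1 from rfl, pow_succ, pow_mul, hN5, one_pow, one_mul]
      have e3 : o ^ 16 = o := by
        rw [show 16 = 3 * 5 + 1 from rfl, pow_succ, pow_mul, hcube o ho0, one_pow, one_mul]
      norm_num at h
      rw [h, e1, e2, e3]
    rw [← h16, show 16 = 14 + 2 from rfl, pow_add, pow_two, ← Matrix.mulVec_mulVec, hz,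
      Matrix.mulVec_zero]
  obtain ⟨z, hz⟩ : ∃ z, z ∉ W := by
    by_contra hh
    push Not at hh
    have htop : W = ⊤ := eq_top_iff.2 fun u _ => hh u
    have := congrArg (fun S : Submodule F (Fin 3 → F) => Module.finrank F S) htop
    simp only [finrank_top] at this
    rw [hspan, finrank_span_eq_card hli, Module.finrank_fintype_fun_eq_card] at this
    simp at this
  set u := (q o).mulVec z with hu
  have huW : u ∉ W := fun hmem => hz ((hW z).2 (hsep z (by
    rw [← Matrix.mulVec_mulVec]; exact (hW u).1 hmem)))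
  have hu0 : u ≠ 0 := fun e => huW (e ▸ W.zero_mem)
  obtain ⟨c, hc⟩ : ∃ c : F, Y.mulVec u = c • u := by
    have hr1 : Module.finrank F (LinearMap.range L) = 1 := by
      have h := LinearMap.finrank_range_add_finrank_ker L
      change _ + Module.finrank F W = _ at h
      rw [hspan, finrank_span_eq_card hli, Module.finrank_fintype_fun_eq_card] at h
      simp at h
      omega
    have hmem : u ∈ LinearMap.range L := ⟨z, Matrix.toLin'_apply _ _⟩
    have hmem' : Y.mulVec u ∈ LinearMap.range L := by
      refine ⟨Y.mulVec z, ?_⟩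
      have hcY : Commute (q o) Y := by
        have h1 : Commute N Y := ((Commute.refl X).pow_pow 3 5).smul_left l
        exact ((h1.mul_left h1).add_left (h1.smul_left o)).add_left (Commute.one_left _)
      rw [Matrix.toLin'_apply, hu, Matrix.mulVec_mulVec, Matrix.mulVec_mulVec, hcY.eq]
    have heq : Submodule.span F {u} = LinearMap.range L :=
      Submodule.eq_of_le_of_finrank_le ((Submodule.span_singleton_le_iff_mem _ _).2 hmem)
        (by rw [hr1, finrank_span_singleton hu0])
    obtain ⟨c, hc⟩ := Submodule.mem_span_singleton.1 (heq ▸ hmem')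
    exact ⟨c, hc.symm⟩
  let P : Matrix (Fin 3) (Fin 3) F := Matrix.of fun i j => ![v i, w i, u i] j
  have hP : P.det ≠ 0 := by
    intro hd
    obtain ⟨d, hd0, hPd⟩ := Matrix.exists_mulVec_eq_zero_iff.2 hd
    have e : d 0 • v + d 1 • w + d 2 • u = 0 := by
      funext i
      have := congrFun hPd i
      simp [P, Matrix.mulVec, dotProduct, Fin.sum_univ_three] at this ⊢
      linear_combination this
    rcases eq_or_ne (d 2) 0 with h | h
    · rw [h, zero_smul, add_zero] at e
      have h01 := LinearIndependent.pair_iff.1 hli _ _ e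
      refine hd0 (funext fun i => ?_)
      fin_cases i <;> simp [h, h01]
    · refine huW ?_
      have e2 : u = (-(d 0) / d 2) • v + (-(d 1) / d 2) • w := by
        funext j
        have := congrFun e j
        simp only [Pi.add_apply, Pi.smul_apply, smul_eq_mul, Pi.zero_apply] at this ⊢
        field_simp
        linear_combination this
      rw [e2]
      exact add_mem (W.smul_mem _ hvw.1) (W.smul_mem _ hvw.2)
  have hYP : Y * P = P * Matrix.diagonal ![a, a, c] := by
    ext i j
    have : (Y * P) i j = Y.mulVec (fun r => P r j) i := rfl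
    rw [this, Matrix.mul_diagonal]
    fin_cases j
    · show Y.mulVec v i = v i * a
      rw [hab, Pi.smul_apply, smul_eq_mul, mul_comm]
    · show Y.mulVec w i = w i * a
      rw [habw, Pi.smul_apply, smul_eq_mul, mul_comm]
    · show Y.mulVec u i = u i * c
      rw [hc, Pi.smul_apply, smul_eq_mul, mul_comm]
  have hdet := congrArg Matrix.det hYP
  rw [Matrix.det_mul, Matrix.det_mul, Matrix.det_diagonal, Fin.prod_univ_three, hY, Matrix.det_pow,
    hX, x.2, one_pow, one_mul] at hdet
  have hac : a * a * c = 1 := by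
    have := mul_left_cancel₀ hP (show P.det * (a * a * c) = P.det * 1 by rw [mul_one]; simpa using hdet.symm)
    exact this
  have ha0 : a ≠ 0 := fun e => by rw [e] at hac; simp at hac
  have hca : c = a := by linear_combination a * hac - c * hcube a ha0
  refine hne 5 (by norm_num) (by norm_num) a ?_
  have hd : Matrix.diagonal ![a, a, c] = a • (1 : Matrix (Fin 3) (Fin 3) F) := by
    rw [hca, Matrix.smul_one_eq_diagonal]
    congr 1; funext i; fin_cases i <;> rfl
  rw [hd, mul_smul_comm, mul_one] at hYP
  have := congrArg (fun M => M * P⁻¹) hYP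
  simp only [smul_mul_assoc, mul_assoc, Matrix.mul_nonsing_inv P (isUnit_iff_ne_zero.2 hP), mul_one] at this
  rw [Matrix.scalar_apply, ← Matrix.smul_one_eq_diagonal]
  exact this

end Cfsg.Agent.S0819
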