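import Cfsg.Statements.S0820


set_option autoImplicit false
open Cfsg

namespace Cfsg.Agent.S0820

/-- Any two elements of order 2 of PSL_3(4) are conjugate. -/
theorem result {F : Type*} [Field F] [Fintype F] (hF : Fintype.card F = 4) (x y : Matrix.ProjectiveSpecialLinearGroup (Fin 3) F) (hx : orderOf x = 2) (hy : orderOf y = 2) : IsConj x y := by
  classical
  haveI : CharP F 2 := charP_of_card_eq_prime_pow (f := 2) (p := 2) (by rw [hF]; norm_num)
  have h2 : (2 : F) = 0 := CharP.cast_eq_zero F 2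
  have hcube : ∀ a : F, a ≠ 0 → a ^ 3 = 1 := fun a ha => by
    have := FiniteField.pow_card_sub_one_eq_one a ha
    rwa [hF] at this
  suffices key : ∀ x : Matrix.ProjectiveSpecialLinearGroup (Fin 3) F, orderOf x = 2 →
      ∃ g : Matrix.SpecialLinearGroup (Fin 3) F, (QuotientGroup.mk g : Matrix.ProjectiveSpecialLinearGroup (Fin 3) F) = x ∧
        ∃ P : Matrix.SpecialLinearGroup (Fin 3) F, (g : Matrix (Fin 3) (Fin 3) F) * (P : Matrix (Fin 3) (Fin 3) F) =
          (P : Matrix (Fin 3) (Fin 3) F) * (1 + Matrix.single 0 1 1) by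
    obtain ⟨g, rfl, P, hP⟩ := key x hx
    obtain ⟨h, rfl, Q, hQ⟩ := key y hy
    refine isConj_iff.2 ⟨QuotientGroup.mk (Q * P⁻¹), ?_⟩
    rw [← QuotientGroup.mk_mul, ← QuotientGroup.mk_inv, ← QuotientGroup.mk_mul]
    congr 1
    have hPP : (P : Matrix (Fin 3) (Fin 3) F) * ((P⁻¹ : Matrix.SpecialLinearGroup (Fin 3) F) : Matrix (Fin 3) (Fin 3) F) = 1 := by
      rw [← Matrix.SpecialLinearGroup.coe_mul, mul_inv_cancel, Matrix.SpecialLinearGroup.coe_one]
    have e : Q * P⁻¹ * g = h * (Q * P⁻¹) := by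
      have hgP : g * P = P * (P⁻¹ * g * P) := by group
      apply Subtype.ext
      have e2 : ((P⁻¹ * g * P : Matrix.SpecialLinearGroup (Fin 3) F) : Matrix (Fin 3) (Fin 3) F) =
          1 + Matrix.single 0 1 1 := by
        rw [mul_assoc, Matrix.SpecialLinearGroup.coe_mul, Matrix.SpecialLinearGroup.coe_mul, hP, ← mul_assoc,
          ← Matrix.SpecialLinearGroup.coe_mul, inv_mul_cancel, Matrix.SpecialLinearGroup.coe_one, one_mul]
      have e3 : Q * P⁻¹ * g = Q * (P⁻¹ * g * P) * P⁻¹ := by group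
      rw [e3, Matrix.SpecialLinearGroup.coe_mul, Matrix.SpecialLinearGroup.coe_mul, e2, ← hQ]
      simp only [Matrix.SpecialLinearGroup.coe_mul, Matrix.mul_assoc]
    rw [e, mul_inv_cancel_right]
  intro x hx
  obtain ⟨g₀, rfl⟩ := QuotientGroup.mk_surjective x
  have hx2 : (QuotientGroup.mk g₀ : Matrix.ProjectiveSpecialLinearGroup (Fin 3) F) ^ 2 = 1 :=
    hx ▸ pow_orderOf_eq_one _
  have hx1 : (QuotientGroup.mk g₀ : Matrix.ProjectiveSpecialLinearGroup (Fin 3) F) ≠ 1 := fun e => by
    rw [e, orderOf_one] at hx; exact absurd hx (by norm_num)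
  rw [← QuotientGroup.mk_pow, QuotientGroup.eq_one_iff, Matrix.SpecialLinearGroup.mem_center_iff] at hx2
  obtain ⟨r, hr, hr2⟩ := hx2
  rw [Fintype.card_fin] at hr
  have hr0 : r ≠ 0 := fun e => by rw [e] at hr; simp at hr
  -- rescale to an involution
  let z : Matrix.SpecialLinearGroup (Fin 3) F := ⟨Matrix.scalar (Fin 3) r, by simp [hr]⟩
  have hz : z ∈ Subgroup.center (Matrix.SpecialLinearGroup (Fin 3) F) :=
    Matrix.SpecialLinearGroup.mem_center_iff.2 ⟨r, by rw [Fintype.card_fin]; exact hr, rfl⟩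
  set g := z * g₀ with hg
  have hgx : (QuotientGroup.mk g : Matrix.ProjectiveSpecialLinearGroup (Fin 3) F) = QuotientGroup.mk g₀ := by
    rw [hg, QuotientGroup.mk_mul, (QuotientGroup.eq_one_iff z).2 hz, one_mul]
  refine ⟨g, hgx, ?_⟩
  set M := (g : Matrix (Fin 3) (Fin 3) F) with hM
  have hM2 : M * M = 1 := by
    have e0 : (g₀ : Matrix (Fin 3) (Fin 3) F) * (g₀ : Matrix (Fin 3) (Fin 3) F) = Matrix.scalar (Fin 3) r := by
      rw [hr2, Matrix.SpecialLinearGroup.coe_pow, sq]
    have e1 : M = r • (g₀ : Matrix (Fin 3) (Fin 3) F) := by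
      rw [hM, hg, Matrix.SpecialLinearGroup.coe_mul]
      show Matrix.scalar (Fin 3) r * _ = _
      ext i j; simp
    rw [e1, Matrix.smul_mul, Matrix.mul_smul, smul_smul, e0]
    ext i j
    simp [Matrix.diagonal_apply, Matrix.one_apply]
    split_ifs <;> [linear_combination hr; rfl]
  set N := M - 1 with hN
  have hN2 : N * N = 0 := by
    have h22 : M + M = 0 := by
      ext i j; simp only [Matrix.add_apply, Matrix.zero_apply]; linear_combination M i j * h2
    rw [hN, sub_mul, mul_sub, hM2, mul_one, one_mul]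
    have h11 : (1 : Matrix (Fin 3) (Fin 3) F) + 1 = 0 := by
      ext i j; simp only [Matrix.add_apply, Matrix.zero_apply]
      linear_combination (1 : Matrix (Fin 3) (Fin 3) F) i j * h2
    linear_combination (norm := abel) h11 - h22
  have hN0 : N ≠ 0 := fun e => hx1 (by
    rw [← hgx, QuotientGroup.eq_one_iff]
    have : g = 1 := Subtype.ext (sub_eq_zero.1 e)
    rw [this]; exact one_mem _)
  let L := Matrix.toLin' N
  have hLv : ∀ v, L v = N.mulVec v := fun v => Matrix.toLin'_apply N v
  have hLL : ∀ v, L (L v) = 0 := fun v => by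
    rw [hLv, hLv, Matrix.mulVec_mulVec, hN2, Matrix.zero_mulVec]
  have hL0 : L ≠ 0 := fun e => hN0 (Matrix.toLin'.injective (by rw [map_zero]; exact e))
  obtain ⟨v, hv⟩ : ∃ v, L v ≠ 0 := by
    by_contra hcon
    push Not at hcon
    exact hL0 (LinearMap.ext hcon)
  have hker : 2 ≤ Module.finrank F (LinearMap.ker L) := by
    have h := LinearMap.finrank_range_add_finrank_ker L
    have hle : Module.finrank F (LinearMap.range L) ≤ Module.finrank F (LinearMap.ker L) :=
      Submodule.finrank_mono (by rintro _ ⟨w, rfl⟩; exact hLL w)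
    rw [Module.finrank_fintype_fun_eq_card, Fintype.card_fin] at h
    omega
  obtain ⟨k, hk, hk'⟩ : ∃ k, L k = 0 ∧ k ∉ Submodule.span F {L v} := by
    by_contra hcon
    push Not at hcon
    have := Submodule.finrank_mono (show LinearMap.ker L ≤ Submodule.span F {L v} from fun w hw => hcon w hw)
    rw [finrank_span_singleton hv] at this
    omega
  let P₀ : Matrix (Fin 3) (Fin 3) F := Matrix.of fun i j => ![L v i, v i, k i] j
  have hP0 : P₀.det ≠ 0 := by
    intro hd
    obtain ⟨c, hc, hPc⟩ := Matrix.exists_mulVec_eq_zero_iff.2 hd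
    have e : c 0 • L v + c 1 • v + c 2 • k = 0 := by
      ext i
      have := congrFun hPc i
      simp [P₀, Matrix.mulVec, dotProduct, Fin.sum_univ_three] at this ⊢
      linear_combination this
    have e1 := congrArg L e
    simp [map_add, map_smul, hLL, hk, hv] at e1
    rw [e1, zero_smul, add_zero] at e
    rcases eq_or_ne (c 2) 0 with h | h
    · rw [h, zero_smul, add_zero, smul_eq_zero] at e
      refine hc (funext fun i => ?_)
      fin_cases i <;> simp [e1, h, e.resolve_right hv]
    · refine hk' (Submodule.mem_span_singleton.2 ⟨-(c 0) / c 2, ?_⟩)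
      have e2 := congrArg (fun w => (c 2)⁻¹ • w) e
      simp only [smul_add, smul_smul, smul_zero, inv_mul_cancel₀ h, one_smul] at e2
      rw [eq_comm, eq_neg_of_add_eq_zero_right e2, ← neg_smul]
      congr 1
      ring
  let d := P₀.det⁻¹
  let P₁ : Matrix (Fin 3) (Fin 3) F := Matrix.of fun i j => ![L v i, v i, d * k i] j
  have hP1 : P₁.det = 1 := by
    have : P₁ = P₀.updateCol 2 (d • fun i => P₀ i 2) := by
      ext i j; fin_cases j <;> simp [P₁, P₀, Matrix.updateCol_apply]
    rw [this, Matrix.det_updateCol_smul, show (fun i => P₀ i 2) = P₀.col 2 from rfl]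
    have hself : P₀.updateCol 2 (P₀.col 2) = P₀ := by
      ext i j; by_cases h : j = 2 <;> simp [Matrix.updateCol_apply, Matrix.col, h]
    rw [hself]
    exact inv_mul_cancel₀ hP0
  refine ⟨⟨P₁, hP1⟩, ?_⟩
  show M * P₁ = P₁ * (1 + Matrix.single 0 1 1)
  rw [show M = 1 + N by rw [hN]; abel, add_mul, one_mul, mul_add, mul_one]
  congr 1
  ext i j
  have hcol : (N * P₁) i j = L (fun l => P₁ l j) i := by rw [hLv]; rfl
  rw [hcol]
  fin_cases j
  · simp [P₁, Matrix.mul_apply, Matrix.single_apply, Fin.sum_univ_three, hLL]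
  · simp [P₁, Matrix.mul_apply, Matrix.single_apply, Fin.sum_univ_three]
  · have : L (fun l => P₁ l 2) = 0 := by
      rw [show (fun l => P₁ l 2) = d • k from by ext l; simp [P₁], map_smul, hk, smul_zero]
    simp [this, Matrix.mul_apply, Matrix.single_apply, Fin.sum_univ_three]

end Cfsg.Agent.S0820
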