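import Cfsg.Statements.S0821
import Cfsg.Agent.Lib.Classical.SympTwoRank
import Cfsg.Agent.Lib.Classical.OddOrthTwoRank

set_option autoImplicit false
open Cfsg

namespace Cfsg.Agent.S0821

/-- PSp_2m(q) ≇ PΩ_(2m+1)(q) for q odd and m ≥ 3 (they have the same order). -/
theorem result {F : Type*} [Field F] [Fintype F] (hodd : Odd (Fintype.card F)) (m : ℕ) (hm : 3 ≤ m) : IsEmpty (Cfsg.PSp m F ≃* Cfsg.POmega F (Cfsg.quadFormOdd m F)) := by
  have h2 : (2 : F) ≠ 0 := by
    intro h
    have hchar : ringChar F = 2 := by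
      have h' : ((2 : ℕ) : F) = 0 := by simpa using h
      exact (Nat.prime_dvd_prime_iff_eq (CharP.char_is_prime F (ringChar F)) Nat.prime_two).1
        ((ringChar.spec F 2).1 h')
    have := FiniteField.even_card_of_char_two hchar
    rw [Nat.odd_iff] at hodd
    omega
  refine ⟨fun φ => ?_⟩
  obtain ⟨E, hEc, hE2, hEab⟩ := Cfsg.Agent.Lib.Classical.OddOrth.exists_elementary h2 hm (F := F)
  set S := Matrix.symplecticGroup (Fin m) F
  let π : S →* Cfsg.PSp m F := QuotientGroup.mk' _
  have hπs : Function.Surjective π := QuotientGroup.mk'_surjective _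
  let A : Subgroup S := (E.comap φ.toMonoidHom).comap π
  have hker : ∀ g : S, π g = 1 → g ∈ Subgroup.center S := fun g hg => (QuotientGroup.eq_one_iff g).1 hg
  have hcen : ∀ g ∈ A, g * g ∈ Subgroup.center S := fun g hg =>
    hker _ (φ.injective (by rw [map_mul, map_mul, map_one]; exact hE2 _ hg))
  have hcom : ∀ g ∈ A, ∀ h ∈ A, g * h * g⁻¹ * h⁻¹ ∈ Subgroup.center S := by
    intro g hg h hh
    refine hker _ (φ.injective ?_)
    rw [map_mul, map_mul, map_mul, map_inv, map_inv, map_mul, map_mul, map_mul, map_inv, map_inv, map_one]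
    have hcc : φ (π g) * φ (π h) = φ (π h) * φ (π g) := hEab _ hg _ hh
    rw [hcc, mul_inv_cancel_right, mul_inv_cancel]
  have hle : Subgroup.center S ≤ A := fun g hg => by
    change φ (π g) ∈ E
    rw [show π g = 1 from (QuotientGroup.eq_one_iff g).2 hg, map_one]
    exact E.one_mem
  have hlt := Cfsg.Agent.Lib.Classical.card_lt_of_scalar_squares h2 hm A hcen hcom hle
  have hAc : Nat.card A = 2 ^ (2 * m - 1) * 2 := by
    have h1 := A.card_mul_index
    rw [Subgroup.index_comap_of_surjective _ hπs, Subgroup.index_comap_of_surjective _ φ.surjective] at h1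
    have h3 := E.card_mul_index
    have h4 := (Subgroup.center S).card_mul_index
    have h5 : (Subgroup.center S).index = Nat.card (Cfsg.POmega F (Cfsg.quadFormOdd m F)) :=
      (Subgroup.index_eq_card _).trans (Nat.card_congr φ.toEquiv)
    have hcc : Nat.card (Subgroup.center S) = 2 := by
      rw [Cfsg.Agent.Lib.Classical.card_center_sp m (by omega)]
      refine Nat.gcd_eq_left ?_
      rw [Nat.odd_iff] at hodd
      omega
    rw [hEc] at h3
    rw [hcc, h5] at h4
    have hidx : 0 < E.index := by
      rcases Nat.eq_zero_or_pos E.index with h0 | h0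
      · rw [h0, mul_zero] at h3
        have : Finite (Cfsg.POmega F (Cfsg.quadFormOdd m F)) := Finite.of_equiv _ φ.toEquiv
        exact absurd h3.symm Nat.card_pos.ne'
      · exact h0
    refine Nat.eq_of_mul_eq_mul_right hidx ?_
    rw [h1, ← h4, ← h3]; ring
  rw [hAc, ← pow_succ, show 2 * m - 1 + 1 = 2 * m by omega] at hlt
  exact lt_irrefl _ hlt

end Cfsg.Agent.S0821
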