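import Cfsg.Statements.S0823
import Cfsg.Agent.Lib.Classical.SmallPerm
import Cfsg.Agent.Lib.Classical.QuadStd

open QuadraticMap Cfsg.Agent.Lib.Classical.Quad Cfsg.Agent.Lib.Classical.QuadOmega Cfsg.Agent.Lib.Classical.SmallPerm

set_option autoImplicit false
open Cfsg

namespace Cfsg.Agent.S0823

abbrev Z := ZMod 3

/-- Basis vectors. -/
def embRows : Unit ⊕ (Fin 1 ⊕ Fin 1) → Fin 4 → Z :=
  Sum.elim (fun _ => ![0, 0, 1, 2]) (Sum.elim ![![0, 1, 1, 1]] ![![2, 0, 2, 2]])

/-- Dual vectors. -/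
def decRows : Unit ⊕ (Fin 1 ⊕ Fin 1) → Fin 4 → Z :=
  Sum.elim (fun _ => ![0, 0, 2, 1]) (Sum.elim ![![2, 0, 2, 2]] ![![0, 1, 1, 1]])

def embL : (Unit ⊕ (Fin 1 ⊕ Fin 1) → Z) →ₗ[Z] (Fin 4 → Z) :=
  Matrix.mulVecLin (Matrix.of fun i j => embRows j i)

def decL : (Fin 4 → Z) →ₗ[Z] (Unit ⊕ (Fin 1 ⊕ Fin 1) → Z) := Matrix.mulVecLin (Matrix.of decRows)

/-- The sign as a scalar. -/
def sgnHom : Equiv.Perm (Fin 4) →* Zˣ :=
  (Units.map (Int.castRingHom Z).toMonoidHom).comp Equiv.Perm.sign

lemma dec_emb : ∀ v, decL (embL v) = v := by decide +kernel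

lemma sum_emb : ∀ v, ∑ i, embL v i = 0 := by decide +kernel

lemma emb_dec : ∀ w : Fin 4 → Z, ∑ i, w i = 0 → embL (decL w) = w := by decide +kernel

lemma val_dec : ∀ w : Fin 4 → Z, ∑ i, w i = 0 →
    Cfsg.quadFormOdd 1 Z (decL w) = 2 * ∑ i, w i * w i := by decide +kernel

/-- The twisted deleted permutation module of `S₄`. -/
noncomputable def piece : Piece Z 4 (Unit ⊕ (Fin 1 ⊕ Fin 1)) (Cfsg.quadFormOdd 1 Z) where
  emb := embL
  D := decL
  s := sgnHom
  hs σ v := by
    rcases Int.units_eq_one_or (Equiv.Perm.sign σ) with h | h <;>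
      simp [sgnHom, h, Cfsg.quadFormOdd]
  left := dec_emb
  sum := sum_emb
  compat w hw σ := by rw [emb_dec w hw]
  val w hw σ := by
    rw [val_dec _ ((Equiv.sum_comp σ w).trans hw), val_dec w hw,
      Equiv.sum_comp σ fun i => w i * w i]

lemma faithful : ∀ σ : Equiv.Perm (Fin 4),
    (∀ j, (sgnHom σ : Z) • decL (fun i => embL (Pi.single j 1) (σ.symm i)) = Pi.single j 1) →
      σ = 1 := by decide +kernel

lemma det_swap : ∀ a b : Fin 4, a ≠ b →
    (Matrix.of fun i j => ((sgnHom (Equiv.swap a b) : Z) •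
      decL (fun k => embL (Pi.single j 1) (Equiv.swap a b k))) i).det = 1 := by decide +kernel

/-- SO_3(3) ≅ S_4: the determinant-one isometries of the form x_0² + x_1y_1 over the field with 3 elements form a group isomorphic to the symmetric group on 4 letters. -/
theorem result {F : Type*} [Field F] [Fintype F] (hF : Fintype.card F = 3) : Nonempty (↥(Cfsg.specialIsometryGroup F (Cfsg.quadFormOdd 1 F)) ≃* Equiv.Perm (Fin 4)) := by
  have e2 : Fintype.card Z = Fintype.card F := by rw [hF, ZMod.card]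
  let f : Z →+* F := (FiniteField.ringEquivOfCardEq e2 : Z →+* F)
  let RK : QuadraticForm F (Unit ⊕ (Fin 1 ⊕ Fin 1) → F) :=
    (splitQ 1 (sqQ F)).comp (eOdd 1).symm.toLinearMap
  have e : (⇑RK) = Cfsg.quadFormOdd 1 F := funext fun v => by
    obtain ⟨p, rfl⟩ := (eOdd 1).surjective v
    simp [RK, odd_apply]
  have hK : ∀ v : Unit ⊕ (Fin 1 ⊕ Fin 1) → Z,
      RK (fun i => f (v i)) = f (Cfsg.quadFormOdd 1 Z v) := fun v => by
    rw [e]; simp only [Cfsg.quadFormOdd, map_add, map_sum, map_mul, map_pow]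
  let ψ := ((MulEquiv.subgroupCongr (congrArg (Cfsg.isometryGroup F) e)).toMonoidHom.comp
    (extendHom f _ RK hK)).comp piece.hom
  have hinj : Function.Injective ψ := fun x y h =>
    piece.hom_injective (fun σ hσ => faithful σ fun j => by
      have h := hσ (Pi.single j 1)
      rw [Piece.R_apply] at h
      exact h)
    (extendHom_injective f _ _ hK ((MulEquiv.subgroupCongr (congrArg (Cfsg.isometryGroup F) e)).injective h))
  let χ : Equiv.Perm (Fin 4) →* Fˣ :=
    (Matrix.GeneralLinearGroup.det.comp (Cfsg.isometryGroup F (Cfsg.quadFormOdd 1 F)).subtype).comp ψ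
  have hdet : ∀ σ, ψ σ ∈ Cfsg.specialIsometryGroup F (Cfsg.quadFormOdd 1 F) := fun σ => by
    refine MonoidHom.mem_ker.2 ?_
    change χ σ = 1
    induction σ using Equiv.Perm.swap_induction_on with
    | one => exact map_one χ
    | swap_mul σ a b hab ih =>
      rw [map_mul, ih, mul_one]
      refine Units.ext ?_
      change (((LinearMap.toMatrix' (piece.R (Equiv.swap a b))).map f) :
        Matrix (Unit ⊕ (Fin 1 ⊕ Fin 1)) (Unit ⊕ (Fin 1 ⊕ Fin 1)) F).det = 1
      rw [← RingHom.mapMatrix_apply, ← RingHom.map_det,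
        show LinearMap.toMatrix' (piece.R (Equiv.swap a b)) = Matrix.of fun i j =>
          ((sgnHom (Equiv.swap a b) : Z) • decL (fun k => embL (Pi.single j 1) (Equiv.swap a b k))) i from by
            ext i j
            rw [LinearMap.toMatrix'_apply, Piece.R_apply]
            simp [Equiv.swap_inv, piece, Pi.single_apply]
            ,
        det_swap a b hab, map_one]
  let ψ' := ψ.codRestrict (Cfsg.specialIsometryGroup F (Cfsg.quadFormOdd 1 F)) hdet
  refine ⟨(MulEquiv.ofBijective ψ' ((Nat.bijective_iff_injective_and_card ψ').2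
    ⟨fun x y h => hinj (congrArg Subtype.val h), ?_⟩)).symm⟩
  have h2 : (2 : F) ≠ 0 := fun h => by
    have := CharP.ringChar_of_prime_eq_zero Nat.prime_two (R := F) (by exact_mod_cast h)
    have := (FiniteField.even_card_iff_char_two).1 this
    omega
  set O := Cfsg.isometryGroup F (Cfsg.quadFormOdd 1 F)
  have hidx : (Cfsg.specialIsometryGroup F (Cfsg.quadFormOdd 1 F)).index = 2 := by
    have hu : Nat.card Fˣ = 2 := by rw [Nat.card_units, Nat.card_eq_fintype_card, hF]
    have hneg : (-1 : Matrix.GeneralLinearGroup (Unit ⊕ (Fin 1 ⊕ Fin 1)) F) ∈ O :=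
      show ∀ u v : Unit ⊕ (Fin 1 ⊕ Fin 1) → F, _ from fun u _ => by
        simp [Cfsg.quadFormOdd, Matrix.neg_mulVec]
    have hd : (Matrix.GeneralLinearGroup.det.comp O.subtype) ⟨-1, hneg⟩ ≠ 1 := fun h => by
      have h' := congrArg Units.val h
      simp [Matrix.det_neg] at h'
      exact h2 (by linear_combination -h')
    rw [show Cfsg.specialIsometryGroup F (Cfsg.quadFormOdd 1 F) =
      (Matrix.GeneralLinearGroup.det.comp O.subtype).ker from rfl, Subgroup.index_ker]
    refine le_antisymm ((Nat.card_le_card_of_injective _ Subtype.val_injective).trans hu.le) ?_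
    exact Finite.one_lt_card_iff_nontrivial.2 ⟨⟨⟨_, ⟨⟨-1, hneg⟩, rfl⟩⟩, 1,
      fun h => hd (congrArg Subtype.val h)⟩⟩
  have h := (Cfsg.specialIsometryGroup F (Cfsg.quadFormOdd 1 F)).card_mul_index
  rw [hidx, card_O_odd h2, hF] at h
  rw [Nat.card_perm, Nat.card_fin, show Nat.factorial 4 = 24 from rfl]
  norm_num [Finset.prod_range_one] at h ⊢
  omega

end Cfsg.Agent.S0823
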