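import Cfsg.Statements.S0826
import Cfsg.Agent.Lib.Forms.Alternating
import Cfsg.Agent.Lib.Forms.SympStd

set_option autoImplicit false
open Cfsg

namespace Cfsg.Agent.S0826

/-- S_2n ≤ Sp_(2n−2)(2) for n ≥ 3: there is an injective homomorphism from the symmetric group on 2n letters into the symplectic group of degree 2n − 2 over the field with two elements. -/
theorem result (n : ℕ) (hn : 3 ≤ n) : ∃ f : Equiv.Perm (Fin (2 * n)) →* Matrix.symplecticGroup (Fin (n - 1)) (ZMod 2), Function.Injective f := by
  classical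
  have h2 : (2 : (ZMod 2)) = 0 := by decide
  have hsq : ∀ a : (ZMod 2), a * a = a := by decide
  haveI : Fact (Nat.Prime 2) := ⟨Nat.prime_two⟩
  let last : Fin (2 * n) := ⟨2 * n - 1, by omega⟩
  let i0 : Fin (2 * n) := ⟨0, by omega⟩
  have hi0 : i0 ≠ last := fun h => by simp [i0, last] at h; omega
  let L : (Fin (2 * n) → (ZMod 2)) →ₗ[(ZMod 2)] (ZMod 2) × (ZMod 2) :=
    { toFun := fun v => (∑ i, v i, v last)
      map_add' := fun u v => by simp [Finset.sum_add_distrib]
      map_smul' := fun c v => by simp [Finset.mul_sum] }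
  let U := LinearMap.ker L
  have hU : ∀ v, v ∈ U ↔ ∑ i, v i = 0 ∧ v last = 0 := fun v => by
    simp [U, L, LinearMap.mem_ker, Prod.ext_iff]
  have hUd : Module.finrank (ZMod 2) U = (n - 1) + (n - 1) := by
    have h := LinearMap.finrank_range_add_finrank_ker L
    have hs : LinearMap.range L = ⊤ := by
      rw [LinearMap.range_eq_top]
      intro p
      refine ⟨Pi.single last p.2 + Pi.single i0 (p.1 + p.2), ?_⟩
      simp [L, Finset.sum_add_distrib, Finset.sum_pi_single', hi0.symm, Prod.ext_iff]
      linear_combination p.2 * h2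
    rw [hs, finrank_top, Module.finrank_prod, Module.finrank_self, Module.finrank_fintype_fun_eq_card,
      Fintype.card_fin] at h
    change 1 + 1 + Module.finrank (ZMod 2) U = 2 * n at h
    omega
  let D : LinearMap.BilinForm (ZMod 2) (Fin (2 * n) → (ZMod 2)) := Matrix.toBilin' 1
  have hD : ∀ u v, D u v = ∑ i, u i * v i := fun u v => by simp [D, Matrix.toBilin'_apply', dotProduct]
  have hA : (D.restrict U).IsAlt := fun u => by
    show D u.1 u.1 = 0
    rw [hD]; simp only [hsq]; exact ((hU _).1 u.2).1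
  have hnd : (D.restrict U).SeparatingLeft := by
    intro u hu
    have hc : ∀ i, i ≠ last → u.1 i = u.1 i0 := by
      intro i hi
      rcases eq_or_ne i i0 with rfl | hne
      · rfl
      have hmem : (Pi.single i 1 + Pi.single i0 1 : Fin (2 * n) → (ZMod 2)) ∈ U := by
        rw [hU]
        refine ⟨?_, by simp [hi.symm, hi0.symm]⟩
        simp [Finset.sum_add_distrib]
        exact h2 ▸ (one_add_one_eq_two)
      have := hu ⟨_, hmem⟩
      change D u.1 _ = 0 at this
      simp [hD, mul_add, Finset.sum_add_distrib, Pi.single_apply] at this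
      linear_combination this - u.1 i0 * h2
    have h1 := ((hU _).1 u.2)
    have h0 : u.1 i0 = 0 := by
      have e : ∀ i, u.1 i = if i = last then 0 else u.1 i0 := fun i => by
        split_ifs with h
        · rw [h]; exact h1.2
        · exact hc i h
      have hs := h1.1
      rw [Finset.sum_congr rfl fun i _ => e i, Finset.sum_ite, Finset.sum_const_zero, zero_add,
        Finset.sum_const, Finset.filter_ne', Finset.card_erase_of_mem (Finset.mem_univ _),
        Finset.card_univ, Fintype.card_fin] at hs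
      obtain ⟨t, ht⟩ : ∃ t, 2 * n - 1 = 2 * t + 1 := ⟨n - 1, by omega⟩
      rw [ht, nsmul_eq_mul] at hs
      push_cast at hs
      linear_combination hs - (t : (ZMod 2)) * u.1 i0 * h2
    refine Subtype.ext (funext fun i => ?_)
    rcases eq_or_ne i last with rfl | h
    · exact h1.2
    · rw [hc i h]; exact h0
  obtain ⟨e, he⟩ := Cfsg.Agent.Lib.Forms.exists_alt_isometry (Cfsg.Agent.Lib.Forms.stdB (n - 1) (ZMod 2))
    (Cfsg.Agent.Lib.Forms.stdB_isAlt (n - 1)) (Cfsg.Agent.Lib.Forms.stdB_nondegenerate (n - 1)).1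
    (D.restrict U) hA hnd (by
      rw [hUd, Module.finrank_fintype_fun_eq_card, Fintype.card_sum, Fintype.card_fin])
  let act : Equiv.Perm (Fin (2 * n)) → (Fin (2 * n) → (ZMod 2)) → (Fin (2 * n) → (ZMod 2)) := fun σ v =>
    fun i => v (σ.symm i) + v (σ.symm last)
  have hcard : ((2 * n : ℕ) : (ZMod 2)) = 0 := by push_cast; rw [h2, zero_mul]
  have hactU : ∀ σ, ∀ v ∈ U, act σ v ∈ U := fun σ v hv => by
    rw [hU] at hv ⊢
    refine ⟨?_, by simp [act]; linear_combination v (σ.symm last) * h2⟩
    simp only [act, Finset.sum_add_distrib, Equiv.sum_comp σ.symm v, hv.1, zero_add, Finset.sum_const,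
      Finset.card_univ, Fintype.card_fin, nsmul_eq_mul, hcard, zero_mul]
  let ρ : Equiv.Perm (Fin (2 * n)) → (U →ₗ[(ZMod 2)] U) := fun σ =>
    { toFun := fun v => ⟨act σ v, hactU σ v v.2⟩
      map_add' := fun u v => Subtype.ext (funext fun i => by simp [act]; ring)
      map_smul' := fun c v => Subtype.ext (funext fun i => by simp [act, mul_add]) }
  have hρmul : ∀ σ τ v, ρ (σ * τ) v = ρ σ (ρ τ v) := fun σ τ v => Subtype.ext (funext fun i => by
    simp [ρ, act, Equiv.Perm.mul_def]
    linear_combination -(v.1 (τ.symm last)) * h2)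
  have hρiso : ∀ σ u v, (D.restrict U) (ρ σ u) (ρ σ v) = (D.restrict U) u v := fun σ u v => by
    show D (act σ u.1) (act σ v.1) = D u.1 v.1
    rw [hD, hD]
    simp only [act, add_mul, mul_add, Finset.sum_add_distrib, ← Finset.mul_sum, ← Finset.sum_mul,
      Equiv.sum_comp σ.symm u.1, Equiv.sum_comp σ.symm v.1, ((hU _).1 u.2).1, ((hU _).1 v.2).1,
      zero_mul, mul_zero, add_zero, Equiv.sum_comp σ.symm (fun i => u.1 i * v.1 i), Finset.sum_const,
      Finset.card_univ, Fintype.card_fin, nsmul_eq_mul, hcard]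
  let M : Equiv.Perm (Fin (2 * n)) → Matrix (Fin (n - 1) ⊕ Fin (n - 1)) (Fin (n - 1) ⊕ Fin (n - 1)) (ZMod 2) :=
    fun σ => LinearMap.toMatrix' (e.symm.toLinearMap ∘ₗ ρ σ ∘ₗ e.toLinearMap)
  have hMv : ∀ σ x, (M σ).mulVec x = e.symm (ρ σ (e x)) := fun σ x => by
    simp [M, LinearMap.toMatrix'_mulVec]
  have hM : ∀ σ, M σ ∈ Matrix.symplecticGroup (Fin (n - 1)) (ZMod 2) := fun σ =>
    (Cfsg.Agent.Lib.Forms.stdB_iff_matrix _ _).1 fun u v => by
      rw [hMv, hMv, ← he, e.apply_symm_apply, e.apply_symm_apply, hρiso, he]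
  let f : Equiv.Perm (Fin (2 * n)) →* Matrix.symplecticGroup (Fin (n - 1)) (ZMod 2) :=
    MonoidHom.mk' (fun σ => ⟨M σ, hM σ⟩) fun σ τ => Subtype.ext (Matrix.ext_iff_mulVec.2 fun x => by
      rw [Submonoid.coe_mul, ← Matrix.mulVec_mulVec, hMv, hMv, hMv, e.apply_symm_apply, hρmul])
  refine ⟨f, (injective_iff_map_eq_one f).2 fun σ hσ => ?_⟩
  have hid : ∀ v : U, act σ v.1 = v.1 := fun v => by
    have e1 : M σ = 1 := congrArg Subtype.val hσ
    have := hMv σ (e.symm v)
    rw [e1, Matrix.one_mulVec, e.apply_symm_apply] at this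
    exact (congrArg Subtype.val (e.symm.injective this)).symm
  have hpair : ∀ i j, i ≠ j → i ≠ last → j ≠ last → σ i = i ∨ σ i = j := by
    intro i j hij hi hj
    have hmem : (Pi.single i 1 + Pi.single j 1 : Fin (2 * n) → (ZMod 2)) ∈ U := by
      rw [hU]
      exact ⟨by simp [Finset.sum_add_distrib]; exact h2 ▸ (one_add_one_eq_two),
        by simp [hi.symm, hj.symm]⟩
    have h := hid ⟨_, hmem⟩
    obtain ⟨u, hu⟩ : ∃ u : Fin (2 * n) → (ZMod 2), u = Pi.single i 1 + Pi.single j 1 := ⟨_, rfl⟩
    change act σ (Pi.single i 1 + Pi.single j 1) = Pi.single i 1 + Pi.single j 1 at h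
    rw [← hu] at h
    have hval : ∀ a, u a = if a = i ∨ a = j then 1 else 0 := fun a => by
      rcases eq_or_ne a i with rfl | ha
      · simp [hu, hij]
      · simp [hu, Pi.single_apply, ha]
    have hc : u (σ.symm last) = 0 := by
      by_contra hc
      have hc1 : σ.symm last = i ∨ σ.symm last = j := by
        by_contra hh; exact hc (by rw [hval, if_neg hh])
      obtain ⟨b, hb⟩ := Finset.exists_mem_notMem_of_card_lt_card
        (s := ({i, j, σ i, σ j} : Finset (Fin (2 * n)))) (t := Finset.univ)
        (lt_of_le_of_lt Finset.card_le_four (by rw [Finset.card_univ, Fintype.card_fin]; omega))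
      simp only [Finset.mem_insert, Finset.mem_singleton, not_or] at hb
      have := congrFun h b
      simp only [act] at this
      rw [hval b, hval (σ.symm b), hval (σ.symm last),
        if_neg (show ¬ (σ.symm b = i ∨ σ.symm b = j) by
          rintro (e | e) <;> rw [Equiv.symm_apply_eq] at e <;> tauto),
        if_pos hc1, if_neg (show ¬ (b = i ∨ b = j) by tauto), zero_add] at this
      exact one_ne_zero this
    have := congrFun h (σ i)
    simp only [act, hc, add_zero, Equiv.symm_apply_apply] at this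
    rw [hval i, hval (σ i), if_pos (Or.inl rfl)] at this
    by_contra hh
    rw [if_neg hh] at this
    exact one_ne_zero this
  have hfix : ∀ i, i ≠ last → σ i = i := by
    intro i hi
    obtain ⟨j, hj⟩ := Finset.exists_mem_notMem_of_card_lt_card
      (s := ({i, last} : Finset (Fin (2 * n)))) (t := Finset.univ)
      (lt_of_le_of_lt Finset.card_le_two (by rw [Finset.card_univ, Fintype.card_fin]; omega))
    obtain ⟨k, hk⟩ := Finset.exists_mem_notMem_of_card_lt_card
      (s := ({i, last, j} : Finset (Fin (2 * n)))) (t := Finset.univ)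
      (lt_of_le_of_lt Finset.card_le_three (by rw [Finset.card_univ, Fintype.card_fin]; omega))
    simp only [Finset.mem_insert, Finset.mem_singleton, not_or] at hj hk
    rcases hpair i j (Ne.symm hj.2.1) hi hj.2.2 with h | h
    · exact h
    · rcases hpair i k (Ne.symm hk.2.1) hi hk.2.2.1 with h' | h'
      · exact h'
      · exact absurd (h.symm.trans h') (Ne.symm hk.2.2.2)
  refine Equiv.ext fun i => ?_
  rcases eq_or_ne i last with rfl | hi
  · by_contra hne
    exact hne (σ.injective (hfix _ hne))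
  · exact hfix i hi

end Cfsg.Agent.S0826
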