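import Cfsg.Statements.S0828
import Cfsg.Agent.Lib.Forms.SympTI

set_option autoImplicit false
open Cfsg

namespace Cfsg.Agent.S0828

/-- The symplectic generalised quadrangle over a field with q elements: the number of 2-dimensional subspaces of F^4 on which the symplectic form vanishes is (q + 1)(q² + 1), and every non-zero vector lies in exactly q + 1 of them. -/
theorem result {F : Type*} [Field F] [Fintype F] {q : ℕ} (hF : Fintype.card F = q) : Nat.card {W : Submodule F (Fin 2 ⊕ Fin 2 → F) // Module.finrank F W = 2 ∧ ∀ u ∈ W, ∀ v ∈ W, Cfsg.sympForm 2 F u v = 0} = (q + 1) * (q ^ 2 + 1) ∧ ∀ v : Fin 2 ⊕ Fin 2 → F, v ≠ 0 → Nat.card {W : Submodule F (Fin 2 ⊕ Fin 2 → F) // Module.finrank F W = 2 ∧ v ∈ W ∧ ∀ u ∈ W, ∀ w ∈ W, Cfsg.sympForm 2 F u w = 0} = q + 1 := by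
  classical
  subst hF
  have hq : 1 < Fintype.card F := Fintype.one_lt_card
  haveI : Finite (Submodule F (Fin 2 ⊕ Fin 2 → F)) := Finite.of_injective _ SetLike.coe_injective
  constructor
  · have h := Cfsg.Agent.Lib.Forms.card_ti_mul (h := Cfsg.sympForm 2 F)
      Cfsg.Agent.Lib.Forms.sympForm_span_zero 2
    rw [Cfsg.Agent.Lib.Forms.card_symp_frame, Nat.card_eq_fintype_card (α := F)] at h
    set q := Fintype.card F
    set N := Nat.card {W : Submodule F (Fin 2 ⊕ Fin 2 → F) //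
      Module.finrank F W = 2 ∧ ∀ u ∈ W, ∀ v ∈ W, Cfsg.sympForm 2 F u v = 0}
    simp [Fin.prod_univ_two, Finset.prod_range_succ] at h
    obtain ⟨r, hr⟩ : ∃ r, q = r + 2 := ⟨q - 2, by omega⟩
    rw [hr] at h ⊢
    have a1 : (r + 2) ^ 2 - 1 = r ^ 2 + 4 * r + 3 := by ring_nf; omega
    have a2 : (r + 2) ^ 2 - (r + 2) = r ^ 2 + 3 * r + 2 := by ring_nf; omega
    have a3 : (r + 2) ^ 4 - 1 = (r ^ 2 + 4 * r + 3) * (r ^ 2 + 4 * r + 5) := by ring_nf; omega
    have a4 : (r + 2) ^ 3 - (r + 2) = (r ^ 2 + 4 * r + 3) * (r + 2) := by ring_nf; omega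
    rw [a1, a2, a3, a4] at h
    have hp : 0 < (r ^ 2 + 4 * r + 3) * (r ^ 2 + 3 * r + 2) := by positivity
    refine Nat.eq_of_mul_eq_mul_right hp (h.trans ?_)
    ring
  intro v hv
  set q := Fintype.card F
  have halt : ∀ x, Cfsg.sympForm 2 F x x = 0 := fun x => by
    rw [← Cfsg.Agent.Lib.Forms.stdB_apply]; exact (Cfsg.Agent.Lib.Forms.stdB_isAlt 2).self_eq_zero x
  let B := Cfsg.Agent.Lib.Forms.stdB 2 F
  let u : Cfsg.Agent.Lib.Forms.TIFrame (fun x y => B x y) 1 :=
    ⟨fun _ => v, by rw [linearIndependent_unique_iff]; exact hv,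
      fun _ _ => (Cfsg.Agent.Lib.Forms.stdB_isAlt 2).self_eq_zero v⟩
  have hext := Cfsg.Agent.Lib.Forms.card_alt_extensions B (Cfsg.Agent.Lib.Forms.stdB_isAlt 2)
    (Cfsg.Agent.Lib.Forms.stdB_nondegenerate 2) u
  rw [Module.finrank_fintype_fun_eq_card] at hext
  let Lines := {W : Submodule F (Fin 2 ⊕ Fin 2 → F) //
    Module.finrank F W = 2 ∧ v ∈ W ∧ ∀ u ∈ W, ∀ w ∈ W, Cfsg.sympForm 2 F u w = 0}
  let P := {w : Fin 2 ⊕ Fin 2 → F // B w w = 0 ∧ (∀ i, B (u.1 i) w = 0) ∧
    w ∉ Submodule.span F (Set.range u.1)}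
  have hrange : Submodule.span F (Set.range u.1) = Submodule.span F {v} := by
    simp [u, Set.range_const]
  haveI := Fintype.ofFinite Lines
  let g : (Σ W : Lines, {w : W.1 // (w : Fin 2 ⊕ Fin 2 → F) ∉ Submodule.span F ({v} : Set _)}) → P :=
    fun p => ⟨(p.2.1 : Fin 2 ⊕ Fin 2 → F), (Cfsg.Agent.Lib.Forms.stdB_isAlt 2).self_eq_zero _,
      fun _ => (Cfsg.Agent.Lib.Forms.stdB_apply 2 _ _).trans (p.1.2.2.2 _ p.1.2.2.1 _ p.2.1.2),
      by rw [hrange]; exact p.2.2⟩
  have hpair : ∀ (W : Lines) (w : W.1), (w : Fin 2 ⊕ Fin 2 → F) ∉ Submodule.span F ({v} : Set _) →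
      W.1 = Submodule.span F ({v, (w : Fin 2 ⊕ Fin 2 → F)} : Set _) := by
    intro W w hw
    refine (Submodule.eq_of_le_of_finrank_le (Submodule.span_le.2 ?_) ?_).symm
    · rintro x (rfl | rfl)
      · exact W.2.2.1
      · exact w.2
    · rw [W.2.1]
      have h2 : LinearIndependent F ![v, (w : Fin 2 ⊕ Fin 2 → F)] := by
        rw [LinearIndependent.pair_iff' hv]
        intro a ha
        exact hw (Submodule.mem_span_singleton.2 ⟨a, ha⟩)
      have h3 := finrank_span_eq_card h2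
      rw [Matrix.range_cons_cons_empty, Fintype.card_fin] at h3
      exact le_of_eq h3.symm
  have hb : Function.Bijective g := by
    refine ⟨fun p p' hp => ?_, fun w => ?_⟩
    · have hval : (p.2.1 : Fin 2 ⊕ Fin 2 → F) = p'.2.1 := congrArg Subtype.val hp
      have hW : p.1 = p'.1 := Subtype.ext (by
        rw [hpair p.1 p.2.1 p.2.2, hpair p'.1 p'.2.1 p'.2.2, hval])
      obtain ⟨W, w⟩ := p
      obtain ⟨W', w'⟩ := p'
      simp only at hW
      subst hW
      congr
      exact Subtype.ext (Subtype.ext hval)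
    · have hw : w.1 ∉ Submodule.span F ({v} : Set _) := fun h =>
        w.2.2.2 ((SetLike.ext_iff.1 hrange _).2 h)
      have h2 : LinearIndependent F ![v, w.1] := by
        rw [LinearIndependent.pair_iff' hv]
        intro a ha
        exact hw (Submodule.mem_span_singleton.2 ⟨a, ha⟩)
      have hti := Cfsg.Agent.Lib.Forms.sympForm_span_zero (m := 2) (F := F) {v, w.1} (by
        have e1 : B v w.1 = 0 := w.2.2.1 0
        rintro x (rfl | rfl) y (rfl | rfl)
        · exact halt _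
        · rw [← Cfsg.Agent.Lib.Forms.stdB_apply]; exact e1
        · rw [← Cfsg.Agent.Lib.Forms.stdB_apply, (Cfsg.Agent.Lib.Forms.stdB_isAlt 2).isRefl.eq_iff]
          exact e1
        · exact halt _)
      refine ⟨⟨⟨Submodule.span F {v, w.1}, ?_, Submodule.subset_span (by simp), hti⟩,
        ⟨w.1, Submodule.subset_span (by simp)⟩, hw⟩, rfl⟩
      have h3 := finrank_span_eq_card h2
      rwa [Matrix.range_cons_cons_empty, Fintype.card_fin] at h3
  have hfib : ∀ W : Lines, Nat.card {w : W.1 // (w : Fin 2 ⊕ Fin 2 → F) ∉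
      Submodule.span F ({v} : Set _)} = q ^ 2 - q := by
    intro W
    have hle : (Submodule.span F ({v} : Set _)) ≤ W.1 := by
      rw [Submodule.span_le]; simpa using W.2.2.1
    rw [Nat.card_congr (Equiv.subtypeSubtypeEquivSubtypeInter (fun w => w ∈ W.1)
      fun w => w ∉ Submodule.span F ({v} : Set _))]
    change Nat.card ↥((W.1 : Set (Fin 2 ⊕ Fin 2 → F)) \ (Submodule.span F ({v} : Set _) : Set _)) = _
    rw [Nat.card_coe_set_eq, Set.ncard_diff (SetLike.coe_subset_coe.2 hle), ← Nat.card_coe_set_eq,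
      ← Nat.card_coe_set_eq]
    change Nat.card W.1 - Nat.card (Submodule.span F ({v} : Set _)) = _
    rw [Module.natCard_eq_pow_finrank (K := F) (V := W.1),
      Module.natCard_eq_pow_finrank (K := F) (V := Submodule.span F ({v} : Set _)), W.2.1,
      finrank_span_singleton hv, Nat.card_eq_fintype_card]
    simp [q]
  have htot : Nat.card P = Nat.card Lines * (q ^ 2 - q) := by
    rw [← Nat.card_eq_of_bijective g hb, Nat.card_sigma, Finset.sum_congr rfl fun W _ => hfib W,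
      Finset.sum_const, Finset.card_univ, Nat.card_eq_fintype_card, smul_eq_mul]
  change Nat.card Lines = q + 1
  obtain ⟨r, hr⟩ : ∃ r, q = r + 2 := ⟨q - 2, by omega⟩
  have e : Nat.card P = q ^ 3 - q := by rw [show Nat.card P = _ from hext]; simp [q]
  rw [e, hr, show (r + 2) ^ 2 - (r + 2) = (r + 2) * (r + 1) by ring_nf; omega,
    show (r + 2) ^ 3 - (r + 2) = (r + 3) * ((r + 2) * (r + 1)) by ring_nf; omega] at htot
  rw [hr]
  exact (Nat.eq_of_mul_eq_mul_right (by positivity) htot).symm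

end Cfsg.Agent.S0828
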