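import Cfsg.Statements.S0829
import Cfsg.Agent.Lib.Forms.UnitaryTI

set_option autoImplicit false
open Cfsg

namespace Cfsg.Agent.S0829

/-- The unitary quadrangle of PSU_4(q): with |F| = q², the number of 2-dimensional subspaces of F^4 on which the Hermitian form Σ x_i y_i^q vanishes is (q + 1)(q³ + 1). -/
theorem result {F : Type*} [Field F] [Fintype F] {q : ℕ} (hF : Fintype.card F = q ^ 2) : Nat.card {W : Submodule F (Fin 4 → F) // Module.finrank F W = 2 ∧ ∀ u ∈ W, ∀ v ∈ W, Cfsg.hermForm 4 F q u v = 0} = (q + 1) * (q ^ 3 + 1) := by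
  classical
  have h := Cfsg.Agent.Lib.Forms.card_ti_mul (h := Cfsg.hermForm 4 F q)
    (fun S hS => (Cfsg.Agent.Lib.Forms.hermData hF 4).span_zero S hS) 2
  rw [Cfsg.Agent.Lib.Forms.card_herm_frame hF, Nat.card_eq_fintype_card (α := F), hF] at h
  have hq := Cfsg.Agent.Lib.Classical.Herm.two_le_q hF
  set N := Nat.card {W : Submodule F (Fin 4 → F) // Module.finrank F W = 2 ∧
    ∀ u ∈ W, ∀ v ∈ W, Cfsg.hermForm 4 F q u v = 0}
  simp [Fin.prod_univ_two, Finset.prod_range_succ, Cfsg.Agent.Lib.Classical.Herm.cnt_zero_eq hF,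
    ← pow_mul, Nat.even_iff] at h
  have e : q ^ 4 - q ^ 2 = q ^ 2 * (q ^ 2 - 1) := by rw [Nat.mul_sub_one, ← pow_add]
  rw [e] at h
  have h4 : 0 < q ^ 4 - 1 := Nat.sub_pos_of_lt (Nat.one_lt_pow (by norm_num) (by omega))
  have h2 : 0 < q ^ 2 - 1 := Nat.sub_pos_of_lt (Nat.one_lt_pow (by norm_num) (by omega))
  have hp : 0 < (q ^ 4 - 1) * (q ^ 2 * (q ^ 2 - 1)) := by positivity
  refine Nat.eq_of_mul_eq_mul_right hp (h.trans ?_)
  ring

end Cfsg.Agent.S0829
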