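import Cfsg.Statements.S0831
import Cfsg.Agent.Lib.Classical.QuadOmega.SingularPlus

open Cfsg.Agent.Lib.Classical.QuadOmega Cfsg.Agent.Lib.Classical.Quad QuadraticMap

set_option autoImplicit false
open Cfsg

namespace Cfsg.Agent.S0831

/-- The two families of maximal totally singular subspaces of the hyperbolic quadric: for the form Σ x_i y_i on F^(2m), m ≥ 1, and m-dimensional subspaces U, W, X on which it vanishes, the parities of m − dim(U ∩ W), m − dim(W ∩ X) and m − dim(U ∩ X) sum to an even number (so 'even codimension of the intersection' is an equivalence relation), and there exist two such subspaces meeting in codimension 1 (so there are exactly two classes). -/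
theorem result {F : Type*} [Field F] (m : ℕ) (hm : 1 ≤ m) : (∀ U W X : Submodule F (Fin m ⊕ Fin m → F), (Module.finrank F U = m ∧ ∀ w ∈ U, Cfsg.quadFormPlus m F w = 0) → (Module.finrank F W = m ∧ ∀ w ∈ W, Cfsg.quadFormPlus m F w = 0) → (Module.finrank F X = m ∧ ∀ w ∈ X, Cfsg.quadFormPlus m F w = 0) → Even ((m - Module.finrank F ↥(U ⊓ W)) + (m - Module.finrank F ↥(W ⊓ X)) + (m - Module.finrank F ↥(U ⊓ X)))) ∧ ∃ U W : Submodule F (Fin m ⊕ Fin m → F), (Module.finrank F U = m ∧ ∀ w ∈ U, Cfsg.quadFormPlus m F w = 0) ∧ (Module.finrank F W = m ∧ ∀ w ∈ W, Cfsg.quadFormPlus m F w = 0) ∧ Module.finrank F ↥(U ⊓ W) + 1 = m := by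
  refine ⟨fun U W X hU hW hX => ?_, ?_⟩
  · rw [← maxTS_iff] at hU hW hX
    have h := parS_trans (nd_plusQ m) hU hW hX
    have key : ∀ S : Submodule F (Fin m ⊕ Fin m → F), MaxTS (plusQ m F) S → Module.finrank F S = m :=
      fun S hS => ((maxTS_iff m S).1 hS).1
    rw [parS, parS, parS, parS, inf_idem, key W hW, inf_comm W U, inf_comm X W, inf_comm X U,
      ← pow_add, ← pow_add] at h
    have a1 := Submodule.finrank_mono (inf_le_left : U ⊓ W ≤ U)
    have a2 := Submodule.finrank_mono (inf_le_left : W ⊓ X ≤ W)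
    have a3 := Submodule.finrank_mono (inf_le_left : U ⊓ X ≤ U)
    rw [key U hU] at a1 a3
    rw [key W hW] at a2
    set x := Module.finrank F ↥(U ⊓ W)
    set y := Module.finrank F ↥(W ⊓ X)
    set z := Module.finrank F ↥(U ⊓ X)
    have h' := (parS_eq_iff (m := 2 * m) (a := y + m) (b := x + z) (by omega) (by omega)).1 h
    rw [Nat.even_iff]
    omega
  · have hU := maxTS_xPlane (F := F) m
    set w : Fin m ⊕ Fin m → F := Pi.single (.inl ⟨0, hm⟩) 1 + Pi.single (.inr ⟨0, hm⟩) 1 with hw
    have hQw : plusQ m F w = 1 := by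
      simp [plusQ_apply, Cfsg.quadFormPlus, hw, Pi.single_apply]
    have hwne : plusQ m F w ≠ 0 := by rw [hQw]; exact one_ne_zero
    have h' : ∀ q ∈ xPlane m F ⊓ imgS (refl (plusQ m F) w) (xPlane m F),
        polar (plusQ m F) q w = 0 := by
      rintro q ⟨hq, hq'⟩
      obtain ⟨u, hu, rfl⟩ := mem_imgS.1 hq'
      have h0 : plusQ m F (u - (refl (plusQ m F) w).1 u) = 0 := hU.sing _ (sub_mem hu hq)
      rw [refl_apply hwne, sub_sub_cancel, QuadraticMap.map_smul, hQw, smul_eq_mul, mul_one,
        mul_self_eq_zero, div_one] at h0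
      rw [refl_apply_perp hwne h0, h0]
    have h := flip_case (nd_plusQ m) (hU.img (refl (plusQ m F) w)) hU hwne h'
    rw [← imgS_mul, refl_mul_self hwne, imgS_one, inf_idem] at h
    refine ⟨xPlane m F, imgS (refl (plusQ m F) w) (xPlane m F), (maxTS_iff m _).1 hU,
      (maxTS_iff m _).1 (hU.img _), ?_⟩
    rw [((maxTS_iff m _).1 hU).1] at h
    exact h.symm

end Cfsg.Agent.S0831
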