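import Cfsg.Statements.S0832
import Cfsg.Agent.Lib.Classical.QuadOmega.SingularPlus

open Cfsg.Agent.Lib.Classical.QuadOmega Cfsg.Agent.Lib.Classical.Quad QuadraticMap

set_option autoImplicit false
open Cfsg

namespace Cfsg.Agent.S0832

/-- For the form Σ x_i y_i on F^(2m) over a finite field, m ≥ 1: an (m−1)-dimensional subspace on which the form vanishes is contained in exactly two m-dimensional subspaces on which it vanishes. -/
theorem result {F : Type*} [Field F] [Finite F] (m : ℕ) (hm : 1 ≤ m) (U : Submodule F (Fin m ⊕ Fin m → F)) (hU : Module.finrank F U + 1 = m ∧ ∀ u ∈ U, Cfsg.quadFormPlus m F u = 0) : Nat.card {W : Submodule F (Fin m ⊕ Fin m → F) // Module.finrank F W = m ∧ (∀ w ∈ W, Cfsg.quadFormPlus m F w = 0) ∧ U ≤ W} = 2 := by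
  have hQ := nd_plusQ (F := F) m
  have hn := finrank_plus (F := F) m
  have hUs : TSing (plusQ m F) U := fun u hu => (plusQ_apply m u).trans (hU.2 u hu)
  -- one maximal subspace above U
  set X := xPlane m F
  have hX := maxTS_xPlane (F := F) m
  have hXs := hX.sing
  set W₁ := U ⊔ (X ⊓ perpS (plusQ m F) U) with hW₁
  have hW₁s : TSing (plusQ m F) W₁ := by
    intro v hv
    obtain ⟨u, hu, x, hx, rfl⟩ := Submodule.mem_sup.1 hv
    rw [QuadraticMap.map_add ⇑(plusQ m F), hUs u hu, hXs x hx.1, polar_comm,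
      mem_perpS.1 hx.2 u hu]
    simp
  have hW₁d : m ≤ Module.finrank F W₁ := by
    have e1 := Submodule.finrank_sup_add_finrank_inf_eq U (X ⊓ perpS (plusQ m F) U)
    have e2 := Submodule.finrank_sup_add_finrank_inf_eq X (perpS (plusQ m F) U)
    have e3 := finrank_perpS hQ U
    have e4 : X ⊔ perpS (plusQ m F) U ≤ perpS (plusQ m F) (X ⊓ U) := sup_le
      (fun x hx => mem_perpS.2 fun s hs => hXs.polar_eq hx hs.1)
      (fun x hx => mem_perpS.2 fun s hs => mem_perpS.1 hx s hs.2)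
    have e5 := Submodule.finrank_mono e4
    have e6 := finrank_perpS hQ (X ⊓ U)
    have e7 : U ⊓ (X ⊓ perpS (plusQ m F) U) ≤ X ⊓ U := le_inf (inf_le_right.trans inf_le_left) inf_le_left
    have e8 := Submodule.finrank_mono e7
    have e9 : 2 * Module.finrank F X = Module.finrank F (Fin m ⊕ Fin m → F) := hX.dim
    have e10 := hU.1
    change m ≤ Module.finrank F ↥(U ⊔ (X ⊓ perpS (plusQ m F) U))
    omega
  have hW₁M : MaxTS (plusQ m F) W₁ := by
    refine ⟨hW₁s, ?_⟩
    have e3 := finrank_perpS hQ W₁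
    have e4 : W₁ ≤ perpS (plusQ m F) W₁ := fun x hx => mem_perpS.2 fun s hs => hW₁s.polar_eq hx hs
    have e5 := Submodule.finrank_mono e4
    omega
  -- a second one
  obtain ⟨w, hwU, hw⟩ : ∃ w ∈ perpS (plusQ m F) U, plusQ m F w ≠ 0 := by
    by_contra! h
    have hs : TSing (plusQ m F) (perpS (plusQ m F) U) := h
    have e4 : perpS (plusQ m F) U ≤ perpS (plusQ m F) (perpS (plusQ m F) U) :=
      fun x hx => mem_perpS.2 fun s hs' => hs.polar_eq hx hs'
    have e5 := Submodule.finrank_mono e4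
    have e6 := finrank_perpS hQ (perpS (plusQ m F) U)
    have e3 := finrank_perpS hQ U
    have e10 := hU.1
    omega
  set W₂ := imgS (refl (plusQ m F) w) W₁ with hW₂
  have hW₂M : MaxTS (plusQ m F) W₂ := hW₁M.img _
  have hU1 : U ≤ W₁ := le_sup_left
  have hU2 : U ≤ W₂ := fun u hu => mem_imgS.2 ⟨u, hU1 hu, refl_apply_perp hw (by
    rw [polar_comm]; exact mem_perpS.1 hwU u hu)⟩
  have hne : W₁ ≠ W₂ := fun e => by
    have := parS_refl hQ hW₁M hW₁M hw
    rw [← hW₂, ← e] at this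
    exact absurd this (by rcases Int.units_eq_one_or (parS W₁ W₁) with h | h <;> rw [h] <;> decide)
  have hd : ∀ A B : Submodule F (Fin m ⊕ Fin m → F), MaxTS (plusQ m F) A → MaxTS (plusQ m F) B →
      U ≤ A → U ≤ B → A ≠ B → Module.finrank F ↥(A ⊓ B) + 1 = m := by
    intro A B hA hB hUA hUB hAB
    have e1 := Submodule.finrank_mono (le_inf hUA hUB)
    have e2 : A ⊓ B < A := lt_of_le_of_ne inf_le_left fun e => hAB
      (Submodule.eq_of_le_of_finrank_le (e ▸ inf_le_right)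
        (by have := hA.dim; have := hB.dim; omega))
    have e3 := Submodule.finrank_lt_finrank_of_lt e2
    have := hA.dim
    have := hU.1
    omega
  rw [Nat.card_eq_two_iff]
  refine ⟨⟨W₁, ((maxTS_iff m _).1 hW₁M).1, ((maxTS_iff m _).1 hW₁M).2, hU1⟩,
    ⟨W₂, ((maxTS_iff m _).1 hW₂M).1, ((maxTS_iff m _).1 hW₂M).2, hU2⟩,
    fun e => hne (congrArg Subtype.val e), ?_⟩
  refine Set.eq_univ_of_forall fun ⟨W, hWd, hWq, hUW⟩ => ?_
  by_contra hW
  simp only [Set.mem_insert_iff, Set.mem_singleton_iff, Subtype.mk.injEq, not_or] at hW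
  have hWM : MaxTS (plusQ m F) W := (maxTS_iff m _).2 ⟨hWd, hWq⟩
  have h := parS_trans hQ hW₁M hW₂M hWM
  have a1 := hd W₂ W₁ hW₂M hW₁M hU2 hU1 (Ne.symm hne)
  have a2 := hd W W₂ hWM hW₂M hUW hU2 hW.2
  have a3 := hd W W₁ hWM hW₁M hUW hU1 hW.1
  have a4 : Module.finrank F ↥(W₂ ⊓ W₂) = m := by rw [inf_idem]; exact ((maxTS_iff m _).1 hW₂M).1
  obtain ⟨k, rfl⟩ : ∃ k, m = k + 1 := ⟨m - 1, by omega⟩
  rw [parS, parS, parS, parS, a4, show Module.finrank F ↥(W₂ ⊓ W₁) = k by omega,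
    show Module.finrank F ↥(W ⊓ W₂) = k by omega, show Module.finrank F ↥(W ⊓ W₁) = k by omega,
    pow_succ] at h
  simp at h

end Cfsg.Agent.S0832
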