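import Cfsg.Statements.S0833
import Cfsg.Agent.Lib.Forms.SymmType
import Cfsg.Agent.S0752

set_option autoImplicit false
open Cfsg

namespace Cfsg.Agent.S0833

/-- If B₁, B₂ are non-degenerate alternating forms on U (dim 2k) and W (dim 2l), then B₁ ⊗ B₂ on U ⊗ W is symmetric, non-degenerate, and vanishes identically on some subspace of dimension 2kl (half of dim U ⊗ W). -/
theorem result {F U W : Type*} [Field F] [Fintype F] [AddCommGroup U] [Module F U] [FiniteDimensional F U] [AddCommGroup W] [Module F W] [FiniteDimensional F W] (B₁ : LinearMap.BilinForm F U) (B₂ : LinearMap.BilinForm F W) (h₁ : B₁.Nondegenerate) (h₂ : B₂.Nondegenerate) (hA₁ : B₁.IsAlt) (hA₂ : B₂.IsAlt) (k l : ℕ) (hU : Module.finrank F U = 2 * k) (hW : Module.finrank F W = 2 * l) : (B₁.tmul B₂).IsSymm ∧ (B₁.tmul B₂).Nondegenerate ∧ (∃ X : Submodule F (TensorProduct F U W), Module.finrank F X = 2 * k * l ∧ ∀ x ∈ X, ∀ y ∈ X, (B₁.tmul B₂) x y = 0) := by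
  classical
  have hs : (B₁.tmul B₂).IsSymm := by
    have key : B₁.tmul B₂ = LinearMap.BilinForm.flip (B₁.tmul B₂) := by
      refine TensorProduct.ext' fun u w => ?_
      refine TensorProduct.ext' fun u' w' => ?_
      rw [LinearMap.BilinForm.flip_apply, LinearMap.BilinForm.tensorDistrib_tmul,
        LinearMap.BilinForm.tensorDistrib_tmul, ← hA₁.neg_eq u u', ← hA₂.neg_eq w w']
      simp only [smul_eq_mul]; ring
    exact ⟨fun x y => by
      rw [RingHom.id_apply]
      exact (LinearMap.congr_fun (LinearMap.congr_fun key x) y).trans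
        (LinearMap.BilinForm.flip_apply _ x y)⟩
  refine ⟨hs, Cfsg.Agent.Lib.Forms.tensor_nondegenerate B₁ B₂ h₁ h₂ hs, ?_⟩
  obtain ⟨m, r, b, hb1, hb2, hb3, hb4⟩ := Cfsg.Agent.S0752.result B₁ hA₁
  have hr : r = 0 := by
    by_contra hr
    exact b.ne_zero _ (h₁.1 (b (Sum.inr ⟨0, Nat.pos_of_ne_zero hr⟩)) fun y => hb4 _ y)
  subst hr
  have hm : m = k := by
    have := Module.finrank_eq_card_basis b
    simp [hU] at this; omega
  subst hm
  let c := Module.finBasis F W
  let v : Fin m × Fin (Module.finrank F W) → TensorProduct F U W :=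
    fun p => b.tensorProduct c (Sum.inl (Sum.inl p.1), p.2)
  have hli : LinearIndependent F v := (b.tensorProduct c).linearIndependent.comp _ (by
    rintro ⟨i, j⟩ ⟨i', j'⟩ h; simpa using h)
  refine ⟨Submodule.span F (Set.range v), ?_, fun x hx y hy => ?_⟩
  · rw [finrank_span_eq_card hli]; simp [hW]; ring
  · induction hx, hy using Submodule.span_induction₂ with
    | mem_mem x y hx hy =>
      obtain ⟨p, rfl⟩ := hx
      obtain ⟨p', rfl⟩ := hy
      simp [v, LinearMap.BilinForm.tensorDistrib_tmul, hb2]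
    | zero_left y hy => simp
    | zero_right x hx => simp
    | add_left x y z _ _ _ e1 e2 => simp [e1, e2]
    | add_right x y z _ _ _ e1 e2 => simp [e1, e2]
    | smul_left r x y _ _ e => simp [e]
    | smul_right r x y _ _ e => simp [e]

end Cfsg.Agent.S0833
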