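import Cfsg.Statements.S0834
import Cfsg.Agent.Lib.Forms.SymmType

set_option autoImplicit false
open Cfsg

namespace Cfsg.Agent.S0834

/-- Over a finite field with 2 ≠ 0: if B₁ on U (dim 2k, k ≥ 1) and B₂ on W (dim 2l, l ≥ 1) are non-degenerate symmetric forms admitting no totally isotropic subspaces of dimensions k, resp. l (minus type), then B₁ ⊗ B₂ admits a totally isotropic subspace of dimension 2kl (plus type). -/
theorem result {F U W : Type*} [Field F] [Fintype F] [AddCommGroup U] [Module F U] [FiniteDimensional F U] [AddCommGroup W] [Module F W] [FiniteDimensional F W] (h2 : (2 : F) ≠ 0) (B₁ : LinearMap.BilinForm F U) (B₂ : LinearMap.BilinForm F W) (h₁ : B₁.Nondegenerate) (h₂ : B₂.Nondegenerate) (hS₁ : B₁.IsSymm) (hS₂ : B₂.IsSymm) (k l : ℕ) (hk : 1 ≤ k) (hl : 1 ≤ l) (hU : Module.finrank F U = 2 * k) (hW : Module.finrank F W = 2 * l) (hm₁ : ¬ (∃ X : Submodule F (U), Module.finrank F X = k ∧ ∀ x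 ∈ X, ∀ y ∈ X, (B₁) x y = 0)) (hm₂ : ¬ (∃ X : Submodule F (W), Module.finrank F X = l ∧ ∀ x ∈ X, ∀ y ∈ X, (B₂) x y = 0)) : (∃ X : Submodule F (TensorProduct F U W), Module.finrank F X = 2 * k * l ∧ ∀ x ∈ X, ∀ y ∈ X, (B₁.tmul B₂) x y = 0) := by
  classical
  obtain ⟨b, a, ha, hb⟩ := Cfsg.Agent.Lib.Forms.exists_diag_basis h2 B₁ hS₁ h₁
  obtain ⟨c, d, hd, hc⟩ := Cfsg.Agent.Lib.Forms.exists_diag_basis h2 B₂ hS₂ h₂
  refine Cfsg.Agent.Lib.Forms.exists_ti_of_isSquare h2 (B₁.tmul B₂) (b.tensorProduct c)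
    (fun p => a p.1 * d p.2) (Cfsg.Agent.Lib.Forms.tensor_diag B₁ B₂ b c a d hb hc)
    (fun p => mul_ne_zero (ha _) (hd _)) (N := 2 * k * l) (by simp [hU, hW]; ring) ?_
  refine ⟨(-1 : F) ^ (k * l) * ((∏ i, a i) ^ l * (∏ j, d j) ^ k), ?_⟩
  rw [Fintype.prod_prod_type]
  simp only [Finset.prod_mul_distrib, Finset.prod_const, Finset.card_univ, Fintype.card_fin, hU, hW,
    Finset.prod_pow]
  ring_nf

end Cfsg.Agent.S0834
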