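import Cfsg.Statements.S0836


set_option autoImplicit false
open Cfsg Matrix

namespace Cfsg.Agent.S0836

/-- For i ≠ j and any scalar c, the elementary transvection 1 + c E_ij is a commutator ⁅g, h⁆ of two elements of SL_n(F) provided n ≥ 3, or n = 2 and F contains x ≠ 0 with x² ≠ 1. -/
theorem result {F : Type*} [Field F] (n : ℕ) (hn : 3 ≤ n ∨ (n = 2 ∧ ∃ x : F, x ≠ 0 ∧ x ^ 2 ≠ 1)) (i j : Fin n) (hij : i ≠ j) (c : F) (t : Matrix.SpecialLinearGroup (Fin n) F) (ht : (t : Matrix (Fin n) (Fin n) F) = Matrix.transvection i j c) : t ∈ commutatorSet (Matrix.SpecialLinearGroup (Fin n) F) := by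
  classical
  rcases hn with hn | ⟨rfl, x, hx0, hx⟩
  · obtain ⟨k, hki, hkj⟩ : ∃ k : Fin n, k ≠ i ∧ k ≠ j := by
      by_contra hcon
      push Not at hcon
      have := Finset.card_le_card (show (Finset.univ : Finset (Fin n)) ⊆ {i, j} from fun k _ => by
        by_cases h : k = i
        · simp [h]
        · simp [hcon k h])
      rw [Finset.card_univ, Fintype.card_fin] at this
      have := Finset.card_le_two (a := i) (b := j)
      omega
    set a := Matrix.SpecialLinearGroup.transvection hki.symm c
    set b := Matrix.SpecialLinearGroup.transvection hkj (1 : F)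
    refine ⟨a, b, ?_⟩
    rw [commutatorElement_def, mul_inv_eq_iff_eq_mul, mul_inv_eq_iff_eq_mul]
    apply Subtype.ext
    simp only [Matrix.SpecialLinearGroup.coe_mul, ht, a, b,
      Matrix.SpecialLinearGroup.transvection_coe, Matrix.transvection]
    simp [mul_add, add_mul, hki, hki.symm, hkj, hkj.symm, hij, hij.symm, Matrix.single_mul_single_same]
    abel
  · set a := Matrix.SpecialLinearGroup.diag2n hij x hx0
    have hx2 : x ^ 2 - 1 ≠ 0 := sub_ne_zero.2 hx
    set b := Matrix.SpecialLinearGroup.transvection hij (c / (x ^ 2 - 1))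
    refine ⟨a, b, ?_⟩
    rw [commutatorElement_def, mul_inv_eq_iff_eq_mul, mul_inv_eq_iff_eq_mul]
    apply Subtype.ext
    simp only [Matrix.SpecialLinearGroup.coe_mul, ht, a, b,
      Matrix.SpecialLinearGroup.transvection_coe, Matrix.SpecialLinearGroup.diag2n_coe,
      Matrix.transvection]
    fin_cases i <;> fin_cases j <;> (first | exact absurd rfl hij | skip) <;>
      ext r s <;> fin_cases r <;> fin_cases s <;>
      simp [Matrix.mul_apply, Fin.sum_univ_two, Matrix.single_apply, Matrix.one_apply,
        Matrix.diagonal_apply] <;> field_simp <;> ring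

end Cfsg.Agent.S0836
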