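import Cfsg.Statements.S0837
import Cfsg.Agent.Lib.Forms.StabProd
import Cfsg.Agent.Lib.Forms.UnitaryTI

set_option autoImplicit false
open Cfsg

namespace Cfsg.Agent.S0837

/-- If W ≤ F^n (|F| = q²) is a k-dimensional subspace on which the Hermitian form Σ x_i y_i^q is non-degenerate, then the stabiliser of W in GU_n(q) is isomorphic to GU_k(q) × GU_(n−k)(q). -/
theorem result {F : Type*} [Field F] [Fintype F] {q : ℕ} (hF : Fintype.card F = q ^ 2) (n k : ℕ) (hk : k ≤ n) (W : Submodule F (Fin n → F)) (hWk : Module.finrank F W = k) (hW : ∀ u ∈ W, (∀ v ∈ W, Cfsg.hermForm n F q u v = 0) → u = 0) : Nonempty (↥((Cfsg.stabilizing (Cfsg.glToMat (Fin n) F) (W : Set (Fin n → F))).subgroupOf (Cfsg.GU n F q)) ≃* ↥(Cfsg.GU k F q) × ↥(Cfsg.GU (n - k) F q)) := by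
  classical
  have H := Cfsg.Agent.Lib.Forms.hermData hF n
  set P := H.perp' W with hP
  have hPd : Module.finrank F P = n - k := by
    have h0 := H.finrank_perp'_eq W
    rw [hWk, Module.finrank_fintype_fun_eq_card, Fintype.card_fin] at h0
    change Module.finrank F P + k = n at h0
    omega
  have hdis : Disjoint W P := by
    rw [Submodule.disjoint_def]
    exact fun x hx hx' => hW x hx hx'
  have hc : IsCompl W P := by
    refine ⟨hdis, codisjoint_iff.2 (Submodule.eq_top_of_finrank_eq ?_)⟩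
    have h2 := Submodule.finrank_sup_add_finrank_inf_eq W P
    rw [disjoint_iff.1 hdis, finrank_bot, hWk, hPd] at h2
    rw [Module.finrank_fintype_fun_eq_card, Fintype.card_fin]
    omega
  have hbasis : ∀ (j : ℕ) (U : Submodule F (Fin n → F)), Module.finrank F U = j →
      (∀ u ∈ U, (∀ v ∈ U, Cfsg.hermForm n F q u v = 0) → u = 0) →
      ∃ e : (Fin j → F) ≃ₗ[F] U, ∀ a a', Cfsg.hermForm n F q (e a : Fin n → F) (e a') =
        Cfsg.hermForm j F q a a' := by
    intro j U hUd hU
    obtain ⟨b, hb⟩ := Cfsg.Agent.Lib.Forms.exists_orthonormal_family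
      (Cfsg.Agent.Lib.Forms.conjQ hF) H.ne_refl H.involutive j U
      (fun a c => Cfsg.hermForm n F q a c) (fun _ _ _ => H.add_left _ _ _)
      (fun _ _ _ => H.smul_left _ _ _) (fun _ _ => H.herm _ _) (fun a ha => by
        by_contra hcon
        push Not at hcon
        exact ha (Subtype.ext (hU a a.2 fun v hv => hcon ⟨v, hv⟩))) hUd
    let f : Fin j → (Fin n → F) := fun i => (b i : Fin n → F)
    have hf : ∀ i l, Cfsg.hermForm n F q (f i) (f l) = if i = l then 1 else 0 := hb
    have hli : LinearIndependent F b := by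
      rw [Fintype.linearIndependent_iff]
      intro c hc i
      have h0 : ∑ l, c l • f l = 0 := by
        have := congrArg Subtype.val hc
        simpa [f] using this
      have := H.sum_orthonormal hf c (Pi.single i 1)
      rw [h0, H.zero_left] at this
      simpa [Pi.single_apply] using this.symm
    let Bs := basisOfLinearIndependentOfCardEqFinrank' b hli (by simp [hUd])
    refine ⟨Bs.equivFun.symm, fun a a' => ?_⟩
    have he : ∀ a, (Bs.equivFun.symm a : Fin n → F) = ∑ i, a i • f i := fun a => by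
      rw [Module.Basis.equivFun_symm_apply]
      simp [Bs, f]
    rw [he, he, H.sum_orthonormal hf]
    rfl
  obtain ⟨e₁, he₁⟩ := hbasis k W hWk hW
  obtain ⟨e₂, he₂⟩ := hbasis (n - k) P hPd (fun u hu hu' => by
    by_contra h0
    obtain ⟨y, hy⟩ := H.sep u h0
    obtain ⟨a, ha, c, hc', rfl⟩ := Submodule.mem_sup.1
      (hc.codisjoint.eq_top ▸ Submodule.mem_top : y ∈ W ⊔ P)
    exact hy (by rw [H.add_right, hu a ha, hu' c hc', add_zero]))
  let E := (e₁.prodCongr e₂).trans (Submodule.prodEquivOfIsCompl W P hc)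
  have hex : ∀ (j : ℕ) (M : Matrix (Fin j) (Fin j) F),
      (∀ u v, Cfsg.hermForm j F q (M.mulVec u) (M.mulVec v) = Cfsg.hermForm j F q u v) →
      ∃ h : ↥(Cfsg.GU j F q), ((h : Matrix.GeneralLinearGroup (Fin j) F) : Matrix (Fin j) (Fin j) F) = M := by
    intro j M hM
    have Hj := Cfsg.Agent.Lib.Forms.hermData hF j
    have hd : M.det ≠ 0 := Cfsg.Agent.Lib.Forms.exists_mul_eq_one _ Hj.zero_left
      (fun a ha => by by_contra h0; obtain ⟨y, hy⟩ := Hj.sep a h0; exact hy (ha y)) M hM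
    exact ⟨⟨Matrix.GeneralLinearGroup.mkOfDetNeZero M hd,
      Cfsg.Agent.Lib.Classical.Herm.mem_GU.2 hM⟩, rfl⟩
  have hiso : ∀ (j : ℕ) (h : ↥(Cfsg.GU j F q)) u v,
      Cfsg.hermForm j F q (((h : Matrix.GeneralLinearGroup (Fin j) F) : Matrix (Fin j) (Fin j) F).mulVec u)
        (((h : Matrix.GeneralLinearGroup (Fin j) F) : Matrix (Fin j) (Fin j) F).mulVec v) =
        Cfsg.hermForm j F q u v := fun j h => Cfsg.Agent.Lib.Classical.Herm.mem_GU.1 h.2
  have hinj : ∀ j : ℕ, Function.Injective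
      ((Cfsg.glToMat (Fin j) F).comp (Cfsg.GU j F q).subtype) :=
    fun j a b h => Subtype.ext (Units.ext h)
  have Hk := Cfsg.Agent.Lib.Forms.hermData hF k
  have Hr := Cfsg.Agent.Lib.Forms.hermData hF (n - k)
  obtain ⟨φ⟩ := Cfsg.Agent.Lib.Forms.stab_equiv_prod ((Cfsg.glToMat (Fin n) F).comp (Cfsg.GU n F q).subtype)
    ((Cfsg.glToMat (Fin k) F).comp (Cfsg.GU k F q).subtype)
    ((Cfsg.glToMat (Fin (n - k)) F).comp (Cfsg.GU (n - k) F q).subtype) (hinj n) (hinj k) (hinj _)
    (Cfsg.hermForm n F q) (Cfsg.hermForm k F q) (Cfsg.hermForm (n - k) F q) (hiso n) (hex n) (hiso k)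
    (hex k) (hiso _) (hex _) Hk.zero_left Hk.zero_right Hr.zero_left Hr.zero_right
    (fun a ha => by by_contra h0; obtain ⟨y, hy⟩ := Hk.sep a h0; exact hy (ha y)) E
    (fun x y => by
      rw [← he₁, ← he₂]
      simp only [E, LinearEquiv.trans_apply, LinearEquiv.prodCongr_apply,
        Submodule.coe_prodEquivOfIsCompl']
      have h12 : Cfsg.hermForm n F q (e₁ x.1 : Fin n → F) (e₂ y.2) = 0 :=
        H.eq_zero_comm.1 ((e₂ y.2).2 _ (e₁ x.1).2)
      have h21 : Cfsg.hermForm n F q (e₂ x.2 : Fin n → F) (e₁ y.1) = 0 := (e₂ x.2).2 _ (e₁ y.1).2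
      rw [H.add_left, H.add_right, H.add_right, h12, h21, add_zero, zero_add])
    (W : Set (Fin n → F)) (fun v => by
      obtain ⟨⟨a, b⟩, rfl⟩ := E.surjective v
      rw [E.symm_apply_apply, SetLike.mem_coe]
      simp only [E, LinearEquiv.trans_apply, LinearEquiv.prodCongr_apply,
        Submodule.coe_prodEquivOfIsCompl']
      refine ⟨fun h => ?_, fun h => by subst h; simp⟩
      have : (e₂ b : Fin n → F) ∈ W := by simpa using W.sub_mem h (e₁ a).2
      have := Submodule.disjoint_def.1 hdis _ this (e₂ b).2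
      simpa using this)
  exact ⟨φ⟩

end Cfsg.Agent.S0837
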