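import Cfsg.Statements.S0838
import Cfsg.Agent.Lib.Forms.SymmBasis

set_option autoImplicit false
open Cfsg Matrix Cfsg.Agent.Lib.Forms

namespace Cfsg.Agent.S0838

/-- Over a finite field with 2 ≠ 0 and n odd: two quadratic forms Q₁, Q₂ on F^n with non-degenerate polar forms are similar — there are an invertible linear map g and a scalar c ≠ 0 with Q₂ (g v) = c · Q₁ v for all v. -/
theorem result {F : Type*} [Field F] [Fintype F] (h2 : (2 : F) ≠ 0) {n : ℕ} (hn : Odd n) (Q₁ Q₂ : QuadraticForm F (Fin n → F)) (h₁ : (QuadraticMap.polarBilin Q₁).Nondegenerate) (h₂ : (QuadraticMap.polarBilin Q₂).Nondegenerate) : ∃ (g : (Fin n → F) ≃ₗ[F] (Fin n → F)) (c : F), c ≠ 0 ∧ ∀ v, Q₂ (g v) = c * Q₁ v := by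
  classical
  obtain ⟨m, rfl⟩ : ∃ m, n = 2 * m + 1 := hn
  obtain ⟨α, hα⟩ := FiniteField.exists_nonsquare (F := F) (fun e => h2 (by
    have := ringChar.spec F 2
    simpa using this.2 (e ▸ dvd_rfl)))
  have hα0 : α ≠ 0 := fun e => hα (e ▸ IsSquare.zero)
  have hnorm : ∀ (Q : QuadraticForm F (Fin (2 * m + 1) → F)),
      (QuadraticMap.polarBilin Q).Nondegenerate →
      ∃ (b : Module.Basis (Fin (2 * m + 1)) F (Fin (2 * m + 1) → F)) (d : F), d ≠ 0 ∧
        (d = 1 ∨ d = α) ∧ ∀ i j, QuadraticMap.polarBilin Q (b i) (b j) =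
          if i = j then (if i = Fin.last (2 * m) then d else 1) else 0 := by
    intro Q hQ
    obtain ⟨b, h1, h2', h3⟩ := exists_normal_family h2 hα (2 * m) _ (QuadraticMap.polarBilin Q)
      (fun x y => QuadraticMap.polar_comm _ _ _) (fun x hx => by
        by_contra hcon
        push Not at hcon
        exact hx (hQ.1 x hcon)) (by simp)
    refine (?_ : ∃ d : F, d ≠ 0 ∧ (d = 1 ∨ d = α) ∧ ∀ i j, QuadraticMap.polarBilin Q (b i) (b j) =
      if i = j then (if i = Fin.last (2 * m) then d else 1) else 0).elim fun d hd => ?_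
    · refine ⟨QuadraticMap.polarBilin Q (b (Fin.last _)) (b (Fin.last _)), ?_, h3, fun i j => ?_⟩
      · rcases h3 with e | e <;> rw [e]
        · exact one_ne_zero
        · exact hα0
      · rcases eq_or_ne i j with rfl | hij
        · rcases eq_or_ne i (Fin.last (2 * m)) with rfl | hi
          · simp
          · simp only [if_neg hi, if_true]; exact h2' i hi
        · rw [if_neg hij, h1 i j hij]
    · have hli := LinearMap.BilinForm.linearIndependent_of_iIsOrtho
        (B := QuadraticMap.polarBilin Q) (v := b) (fun i j hij => h1 i j hij) (fun i => by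
          rw [hd.2.2 i i, if_pos rfl]; split_ifs
          · exact hd.1
          · exact one_ne_zero)
      exact ⟨basisOfLinearIndependentOfCardEqFinrank' b hli (by simp), d, hd.1, hd.2.1,
        by simpa only [coe_basisOfLinearIndependentOfCardEqFinrank'] using hd.2.2⟩
  obtain ⟨b₁, d₁, hd₁, -, hb₁⟩ := hnorm Q₁ h₁
  obtain ⟨b₂, d₂, hd₂, hd₂', hb₂⟩ := hnorm Q₂ h₂
  -- rescale the first form to the discriminant of the second
  set c := d₂ / d₁ with hc
  have hc0 : c ≠ 0 := div_ne_zero hd₂ hd₁
  have h₁c : (QuadraticMap.polarBilin (c • Q₁)).Nondegenerate := by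
    refine ⟨fun x hx => h₁.1 x fun y => ?_, fun x hx => h₁.2 x fun y => ?_⟩ <;>
    · have := hx y
      simp only [QuadraticMap.polarBilin_apply_apply, FunLike.coe_smul,
        QuadraticMap.polar_smul, smul_eq_mul, mul_eq_zero, hc0, false_or] at this ⊢
      exact this
  obtain ⟨b, d, hd, hd', hb⟩ := hnorm (c • Q₁) h₁c
  obtain ⟨r, hr⟩ := prod_diag_square (QuadraticMap.polarBilin (c • Q₁)) b₁ b
    (fun i => c * if i = Fin.last (2 * m) then d₁ else 1)
    (fun i => if i = Fin.last (2 * m) then d else 1)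
    (fun i j => by
      have e := hb₁ i j
      simp only [QuadraticMap.polarBilin_apply_apply, FunLike.coe_smul,
        QuadraticMap.polar_smul, smul_eq_mul] at e ⊢
      rw [e]; simp) hb
  rw [Finset.prod_mul_distrib, Finset.prod_const, Finset.card_univ, Fintype.card_fin,
    Fintype.prod_eq_single (Fin.last (2 * m)) (fun i hi => if_neg hi),
    Fintype.prod_eq_single (Fin.last (2 * m)) (fun i hi => if_neg hi), if_pos rfl, if_pos rfl] at hr
  have hsq : d = (r * c ^ m) ^ 2 * d₂ := by
    have hcd : c * d₁ = d₂ := div_mul_cancel₀ _ hd₁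
    rw [hr, ← hcd]; ring
  have hdd : d = d₂ := by
    have hne : r * c ^ m ≠ 0 := fun e => hd (by rw [hsq, e]; simp)
    rcases hd' with e | e <;> rcases hd₂' with e' | e' <;> rw [e, e'] <;> rw [e, e'] at hsq
    · exfalso
      refine hα ⟨(r * c ^ m)⁻¹, ?_⟩
      rw [← mul_inv]
      exact eq_inv_of_mul_eq_one_right (by linear_combination -hsq)
    · exfalso
      exact hα ⟨r * c ^ m, by linear_combination hsq⟩
  subst hdd
  let g := b.equiv b₂ (Equiv.refl _)
  refine ⟨g, c, hc0, fun v => ?_⟩
  have hcomp : QuadraticMap.polarBilin (Q₂.comp g.toLinearMap) =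
      QuadraticMap.polarBilin (c • Q₁) := by
    refine b.ext fun i => b.ext fun j => ?_
    rw [hb i j, ← hb₂ i j]
    simp [QuadraticMap.polar, g]
  have := LinearMap.congr_fun (LinearMap.congr_fun hcomp v) v
  simp only [QuadraticMap.polarBilin_apply_apply, QuadraticMap.polar_self, two_nsmul,
    QuadraticMap.comp_apply, QuadraticMap.smul_apply, smul_eq_mul] at this
  apply mul_left_cancel₀ h2
  simp only [LinearEquiv.coe_coe] at this
  linear_combination this

end Cfsg.Agent.S0838
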