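import Cfsg.Statements.S0839


set_option autoImplicit false
open Cfsg Matrix

namespace Cfsg.Agent.S0839

/-- Every transvection t ∈ SL_(n+2)(F) (rank(t − 1) = 1, (t − 1)² = 0) is conjugate in SL_(n+2)(F) to 1 + v·e_0ᵀ for some column vector v with v_0 = 0 (the group A of matrices that are the identity except in the first column below the diagonal); the dimension is written n + 2 ≥ 2. -/
theorem result {F : Type*} [Field F] (n : ℕ) (t : Matrix.SpecialLinearGroup (Fin (n + 2)) F) (ht : Cfsg.IsTransvection (t : Matrix (Fin (n + 2)) (Fin (n + 2)) F)) : ∃ (g : Matrix.SpecialLinearGroup (Fin (n + 2)) F) (v : Fin (n + 2) → F), v 0 = 0 ∧ ((g⁻¹ * t * g : Matrix.SpecialLinearGroup (Fin (n + 2)) F) : Matrix (Fin (n + 2)) (Fin (n + 2)) F) = 1 + Matrix.vecMulVec v (Pi.single 0 1) := by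
  classical
  obtain ⟨hr, hsq⟩ := ht
  set T := (t : Matrix (Fin (n + 2)) (Fin (n + 2)) F) with hT
  obtain ⟨a, ha, hsp⟩ : ∃ a ∈ LinearMap.range (T - 1).mulVecLin, a ≠ 0 ∧
      ∀ b ∈ LinearMap.range (T - 1).mulVecLin, ∃ c : F, c • a = b := by
    rw [Matrix.rank] at hr
    obtain ⟨⟨a, ha⟩, ha0, hsp⟩ := finrank_eq_one_iff'.1 hr
    refine ⟨a, ha, by simpa using ha0, fun b hb => ?_⟩
    obtain ⟨c, hc⟩ := hsp ⟨b, hb⟩
    exact ⟨c, congrArg Subtype.val hc⟩
  choose φ hφ using fun j => hsp.2 _ ⟨Pi.single j 1, rfl⟩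
  have hN : T - 1 = Matrix.vecMulVec a φ := by
    ext i j
    have := congrFun (hφ j) i
    simp only [Matrix.mulVecLin_apply, Matrix.mulVec_single_one, Pi.smul_apply, smul_eq_mul,
      Matrix.col_apply] at this
    rw [Matrix.vecMulVec_apply, ← this, mul_comm]
  obtain ⟨j₀, hj₀⟩ : ∃ j, φ j ≠ 0 := by
    by_contra hcon
    push Not at hcon
    rw [show φ = 0 from funext hcon, Matrix.vecMulVec_zero] at hN
    rw [hN, Matrix.rank_zero] at hr
    exact zero_ne_one hr
  have hφa : φ ⬝ᵥ a = 0 := by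
    rw [hN, Matrix.vecMulVec_mul_vecMulVec, Matrix.vecMulVec_smul] at hsq
    obtain ⟨i, hi⟩ := Function.ne_iff.1 hsp.1
    have := congrFun (congrFun hsq i) j₀
    simp only [Matrix.smul_apply, Matrix.vecMulVec_apply, smul_eq_mul, Matrix.zero_apply,
      mul_eq_zero] at this
    rcases this with e | e | e
    · exact e
    · exact absurd e hi
    · exact absurd e hj₀
  let H₀ : Matrix (Fin (n + 2)) (Fin (n + 2)) F :=
    ((1 : Matrix _ _ F).updateRow j₀ φ).submatrix (Equiv.swap 0 j₀) id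
  have hd₀ : H₀.det ≠ 0 := by
    have h1 : ((1 : Matrix (Fin (n + 2)) (Fin (n + 2)) F).updateRow j₀ φ).det = φ j₀ := by
      have e : φ = ∑ k, φ k • (1 : Matrix (Fin (n + 2)) (Fin (n + 2)) F) k := by
        ext l; simp [Matrix.one_apply, Finset.sum_apply]
      conv_lhs => rw [e]
      rw [Matrix.det_updateRow_sum]
      simp
    simp only [H₀]
    rw [Matrix.det_permute, h1]
    refine mul_ne_zero ?_ hj₀
    rcases Int.units_eq_one_or (Equiv.Perm.sign (Equiv.swap (0 : Fin (n + 2)) j₀)) with h | h <;>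
      simp [h]
  let H : Matrix.SpecialLinearGroup (Fin (n + 2)) F :=
    ⟨H₀.updateRow 1 (H₀.det⁻¹ • H₀ 1), by
      rw [Matrix.det_updateRow_smul, Matrix.updateRow_eq_self, inv_mul_cancel₀ hd₀]⟩
  have hrow : Pi.single (0 : Fin (n + 2)) (1 : F) ᵥ* (H : Matrix (Fin (n + 2)) (Fin (n + 2)) F) = φ := by
    rw [Matrix.single_one_vecMul]
    change (H₀.updateRow 1 _) 0 = φ
    rw [Matrix.updateRow_ne (by simp)]
    funext l
    simp [H₀, Matrix.submatrix_apply]
  set Hm := (H : Matrix (Fin (n + 2)) (Fin (n + 2)) F)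
  set Gm := ((H⁻¹ : Matrix.SpecialLinearGroup (Fin (n + 2)) F) : Matrix (Fin (n + 2)) (Fin (n + 2)) F)
  have hHG : Hm * Gm = 1 := by
    rw [← Matrix.SpecialLinearGroup.coe_mul, mul_inv_cancel, Matrix.SpecialLinearGroup.coe_one]
  refine ⟨H⁻¹, Hm *ᵥ a, ?_, ?_⟩
  · rw [← hrow, ← Matrix.dotProduct_mulVec, single_dotProduct, one_mul] at hφa
    exact hφa
  · rw [inv_inv, Matrix.SpecialLinearGroup.coe_mul, Matrix.SpecialLinearGroup.coe_mul,
      show (t : Matrix (Fin (n + 2)) (Fin (n + 2)) F) = 1 + Matrix.vecMulVec a φ by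
        rw [← hN]; abel,
      mul_add, mul_one, add_mul, Matrix.mul_vecMulVec, Matrix.vecMulVec_mul]
    change Hm * Gm + Matrix.vecMulVec (Hm *ᵥ a) (φ ᵥ* Gm) = _
    rw [hHG, ← hrow, Matrix.vecMul_vecMul, hHG, Matrix.vecMul_one]

end Cfsg.Agent.S0839
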