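import Cfsg.Statements.S0841
import Mathlib.Tactic.Group
import Mathlib.Tactic
import Mathlib.GroupTheory.Commutator.Basic

set_option autoImplicit false
open Cfsg
open scoped commutatorElement

namespace Cfsg.Agent.S0841

theorem result {G : Type*} [Group G] (hG : commutator G ≤ Subgroup.center G) (x y : G) (n : ℕ) : (x * y) ^ n = x ^ n * y ^ n * (y⁻¹ * x⁻¹ * y * x) ^ (n * (n - 1) / 2) := by
  set c := y⁻¹ * x⁻¹ * y * x with hc
  have hcz : c ∈ Subgroup.center G := by
    apply hG
    have : c = Bracket.bracket y⁻¹ x⁻¹ := by rw [hc, commutatorElement_def]; group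
    rw [this, commutator_def]
    exact Subgroup.commutator_mem_commutator (Subgroup.mem_top _) (Subgroup.mem_top _)
  have hcomm : ∀ (a : G) (k : ℕ), a * c ^ k = c ^ k * a := fun a k =>
    Subgroup.mem_center_iff.mp (pow_mem hcz k) a
  have hswap : ∀ k : ℕ, y ^ k * x = x * y ^ k * c ^ k := by
    intro k
    induction k with
    | zero => simp
    | succ k ih =>
      have hyx : y * x = x * y * c := by rw [hc]; group
      calc y ^ (k + 1) * x = y * (y ^ k * x) := by rw [pow_succ']; group
        _ = (y * x) * y ^ k * c ^ k := by rw [ih]; group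
        _ = x * y * (c * y ^ k) * c ^ k := by rw [hyx]; group
        _ = x * y * (y ^ k * c) * c ^ k := by
            rw [← pow_one c, ← hcomm (y ^ k) 1]
        _ = x * y ^ (k + 1) * c ^ (k + 1) := by rw [pow_succ' y, pow_succ' c]; group
  induction n with
  | zero => simp
  | succ n ih =>
    have ht : (n + 1) * (n + 1 - 1) / 2 = n * (n - 1) / 2 + n := by
      rw [← Nat.choose_two_right, ← Nat.choose_two_right, Nat.choose_succ_succ, Nat.choose_one_right,
        add_comm]
    rw [pow_succ (x * y), ih, ht]
    generalize n * (n - 1) / 2 = m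
    calc x ^ n * y ^ n * c ^ m * (x * y)
        = x ^ n * y ^ n * (x * y * c ^ m) := by rw [hcomm (x * y) m]; group
      _ = x ^ n * (y ^ n * x) * y * c ^ m := by group
      _ = x ^ n * x * y ^ n * (c ^ n * y) * c ^ m := by rw [hswap]; group
      _ = x ^ n * x * y ^ n * (y * c ^ n) * c ^ m := by rw [hcomm y n]
      _ = x ^ (n + 1) * y ^ (n + 1) * (c ^ n * c ^ m) := by
          rw [pow_succ, pow_succ y]; group
      _ = x ^ (n + 1) * y ^ (n + 1) * (c ^ m * c ^ n) := by rw [hcomm (c ^ n) m]
      _ = x ^ (n + 1) * y ^ (n + 1) * c ^ (m + n) := by rw [pow_add c m n]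

end Cfsg.Agent.S0841
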