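import Cfsg.Statements.S0845
import Cfsg.Agent.Lib.Involution.QuaternionChars
import Cfsg.Agent.Lib.CharTools.Basic
import Cfsg.Agent.Lib.Char.Linear

set_option autoImplicit false
open Cfsg

namespace Cfsg.Agent.S0845

open Cfsg.Agent.Lib.Involution

/-- Suppose a Sylow 2-subgroup S of the finite group G is generalized quaternion of order at least 16. Then G has a normal subgroup M of even order such that G / M is non-abelian, that is, M does not contain the commutator subgroup of G. -/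
theorem result {G : Type*} [Group G] [Finite G] (S : Sylow 2 G) (n : ℕ) (e : (S : Subgroup G) ≃* QuaternionGroup (2 ^ (n + 2))) : ∃ M : Subgroup G, M.Normal ∧ Even (Nat.card M) ∧ ¬ commutator G ≤ M := by
  haveI := Fintype.ofFinite G
  obtain ⟨z, χ₁, χ₂, hz, -, -, -, hdeg, -, hk, -⟩ := quaternion_chars S n e
  have hc := Cfsg.Agent.Lib.Char.isCharacter_of_isIrr χ₁.2
  refine ⟨_, Cfsg.Agent.Lib.Char.charKer_normal hc, ?_, ?_⟩
  · rw [even_iff_two_dvd, ← hz.1, ← Subgroup.orderOf_mk z ((Cfsg.Agent.Lib.Char.mem_charKer hc).mpr hk)]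
    exact orderOf_dvd_natCard _
  intro hle
  obtain ⟨ψ, hψ, hψe⟩ := Cfsg.Agent.Lib.Char.exists_irr_deflation χ₁.2 (commutator G)
    (fun n hn => (Cfsg.Agent.Lib.Char.mem_charKer hc).mp (hle hn))
  have h1 : ψ 1 = 1 := by
    have : IsMulCommutative (G ⧸ commutator G) := ⟨⟨fun x y => mul_comm (G := Abelianization G) x y⟩⟩
    obtain ⟨m, τ, hτ, hτ'⟩ := hψ
    rw [← hτ', Representation.char_one,
      Representation.IsIrreducible.finrank_eq_one_of_isMulCommutative τ, Nat.cast_one]
  have h2 : (χ₁ : G → ℂ) 1 = 1 := (hψe 1).symm.trans h1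
  rw [hdeg] at h2
  exact Cfsg.Agent.Lib.Char.irr_degree_ne_zero χ₂.2 (add_eq_right.mp h2)

end Cfsg.Agent.S0845
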