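import Cfsg.Statements.S0849
import Mathlib.Tactic.Group
import Mathlib.Tactic

set_option autoImplicit false
open Cfsg

namespace Cfsg.Agent.S0849

theorem result {G : Type*} [Group G] [Fintype G] (H : Subgroup G) (S : Set G) (hSH : S ⊆ H) (hHS : ∀ h ∈ H, ∀ s ∈ S, h * s * h⁻¹ ∈ S) (hTI : ∀ g : G, g ∉ H → ∀ s ∈ S, g * s * g⁻¹ ∉ S) (hinv : ∀ s ∈ S, s⁻¹ ∈ S) (φ : H → ℂ) (hφ : Cfsg.IsClassFunction H φ) (hφS : ∀ x : H, (x : G) ∉ S → φ x = 0) (u v : G) (hu : orderOf u = 2) (hv : orderOf v = 2) : ∑ᶠ p ∈ {p : G × G | IsConj u p.1 ∧ IsConj v p.2}, Cfsg.indFun H φ (p.1 * p.2) = (H.index : ℂ) * ∑ᶠ p ∈ {p : H × H | IsConj u (p.1 : G) ∧ IsConj v (p.2 : G)}, φ (p.1 * p.2) := by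
  classical
  set I : Finset (G × G) := Finset.univ.filter (fun p => IsConj u p.1 ∧ IsConj v p.2) with hI
  set J : Finset (H × H) :=
    Finset.univ.filter (fun p => IsConj u (p.1 : G) ∧ IsConj v (p.2 : G)) with hJ
  rw [finsum_mem_eq_toFinset_sum, finsum_mem_eq_toFinset_sum]
  rw [show Set.toFinset {p : G × G | IsConj u p.1 ∧ IsConj v p.2} = I by
        ext p; simp [hI],
    show Set.toFinset {p : H × H | IsConj u (p.1 : G) ∧ IsConj v (p.2 : G)} = J by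
        ext p; simp [hJ]]
  set E : G → ℂ := extendByZero H φ with hE
  have hEin : ∀ h : H, E (h : G) = φ h := fun h => Subtype.val_injective.extend_apply φ (0 : G → ℂ) h
  have hEout : ∀ g : G, g ∉ S → E g = 0 := by
    intro g hg
    by_cases hgH : g ∈ H
    · rw [show g = ((⟨g, hgH⟩ : H) : G) from rfl, hEin]
      exact hφS _ hg
    · rw [hE, extendByZero, Function.extend_apply' φ (0 : G → ℂ) g (fun ⟨a, ha⟩ => hgH (ha ▸ a.2))]
      rfl
  have hsq : ∀ {w a : G}, orderOf w = 2 → IsConj w a → a * a = (1 : G) := by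
    intro w a hw ha
    obtain ⟨c, rfl⟩ := isConj_iff.mp ha
    have hw2 : w * w = 1 := by rw [← pow_two, ← hw, pow_orderOf_eq_one]
    calc c * w * c⁻¹ * (c * w * c⁻¹) = c * (w * w) * c⁻¹ := by group
      _ = 1 := by rw [hw2]; group
  have hconj : ∀ x : G, ∑ p ∈ I, E (x⁻¹ * (p.1 * p.2) * x) = ∑ p ∈ I, E (p.1 * p.2) := by
    intro x
    refine Finset.sum_nbij' (fun p => (x⁻¹ * p.1 * x, x⁻¹ * p.2 * x))
      (fun p => (x * p.1 * x⁻¹, x * p.2 * x⁻¹)) ?_ ?_ ?_ ?_ ?_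
    · intro p hp
      simp only [Finset.mem_coe, hI, Finset.mem_filter, Finset.mem_univ, true_and] at hp ⊢
      exact ⟨hp.1.trans (isConj_iff.mpr ⟨x⁻¹, by group⟩), hp.2.trans (isConj_iff.mpr ⟨x⁻¹, by group⟩)⟩
    · intro p hp
      simp only [Finset.mem_coe, hI, Finset.mem_filter, Finset.mem_univ, true_and] at hp ⊢
      exact ⟨hp.1.trans (isConj_iff.mpr ⟨x, rfl⟩), hp.2.trans (isConj_iff.mpr ⟨x, rfl⟩)⟩
    · intro p _; simp [mul_assoc]
    · intro p _; simp [mul_assoc]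
    · intro p _; congr 1; group
  have hL : ∑ p ∈ I, indFun H φ (p.1 * p.2) = (H.index : ℂ) * ∑ p ∈ I, E (p.1 * p.2) := by
    simp only [indFun, ← hE]
    rw [← Finset.mul_sum, Finset.sum_comm, Finset.sum_congr rfl (fun x _ => hconj x), Finset.sum_const,
      Finset.card_univ, nsmul_eq_mul, ← Nat.card_eq_fintype_card, ← Subgroup.card_mul_index H]
    have hne : (Nat.card H : ℂ) ≠ 0 := Nat.cast_ne_zero.mpr Nat.card_pos.ne'
    push_cast
    field_simp
  rw [hL]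
  congr 1
  have hin : ∀ p ∈ I, p.1 * p.2 ∈ S → p.1 ∈ H ∧ p.2 ∈ H := by
    intro p hp hs
    simp only [hI, Finset.mem_filter, Finset.mem_univ, true_and] at hp
    have ha := hsq hu hp.1
    have hb := hsq hv hp.2
    have ha' : p.1⁻¹ = p.1 := inv_eq_of_mul_eq_one_right ha
    have hb' : p.2⁻¹ = p.2 := inv_eq_of_mul_eq_one_right hb
    have h1 : p.1 ∈ H := by
      by_contra hn
      apply hTI p.1 hn _ hs
      have : p.1 * (p.1 * p.2) * p.1⁻¹ = (p.1 * p.2)⁻¹ := by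
        rw [mul_inv_rev, hb', ha', ← mul_assoc p.1, ha, one_mul]
      rw [this]
      exact hinv _ hs
    refine ⟨h1, ?_⟩
    have h2 : p.2 = p.1⁻¹ * (p.1 * p.2) := by group
    rw [h2]
    exact mul_mem (inv_mem h1) (hSH hs)
  symm
  refine Finset.sum_bij_ne_zero (fun p _ _ => ((p.1 : G), (p.2 : G))) ?_ ?_ ?_ ?_
  · intro p hp _; simp [hI, hJ] at hp ⊢; exact hp
  · intro a _ _ b _ _ hab
    simp only [Prod.mk.injEq] at hab
    exact Prod.ext (Subtype.ext hab.1) (Subtype.ext hab.2)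
  · intro p hp hne
    have hs : p.1 * p.2 ∈ S := by
      by_contra hn; exact hne (hEout _ hn)
    obtain ⟨h1, h2⟩ := hin p hp hs
    refine ⟨(⟨p.1, h1⟩, ⟨p.2, h2⟩), ?_, ?_, rfl⟩
    · simp [hI, hJ] at hp ⊢; exact hp
    · rw [← hEin]; exact hne
  · intro p _ _
    exact (hEin _).symm

end Cfsg.Agent.S0849
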