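import Cfsg.Statements.S0850
import Cfsg.Agent.Lib.Char.TI
import Mathlib.GroupTheory.Perm.Cycle.Type
import Mathlib.GroupTheory.PGroup

set_option autoImplicit false
open scoped ComplexConjugate
open Cfsg

namespace Cfsg.Agent.S0850

open Cfsg.Agent.Lib.Char


theorem result {G : Type*} [Group G] [Fintype G] (K : Subgroup G) (hTI : ∀ g : G, g ∉ Subgroup.normalizer (K : Set G) → ∀ k ∈ K, g * k * g⁻¹ ∈ K → k = 1) (hlt : K < Subgroup.normalizer (K : Set G)) (hC : ∀ k ∈ K, k ≠ 1 → Subgroup.centralizer ({k} : Set G) ≤ K) : (∀ x ∈ Subgroup.normalizer (K : Set G), x ∉ K → ∀ g : G, g * x * g⁻¹ ∉ K) ∧ ∀ (ϑ : Subgroup.normalizer (K : Set G) → ℂ), Cfsg.IsClassFunction (Subgroup.normalizer (K : Set G)) ϑ → (∀ x : Subgroup.normalizer (K : Set G), (x : G) ∉ K → ϑ x = 0) → ϑ 1 = 0 → ∀ x : Subgroup.normalizer (K : Set G), Cfsg.indFun (Subgroup.normalizer (K : Set G)) ϑ x = ϑ x := by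
  classical
  set N := Subgroup.normalizer (K : Set G) with hN
  have part1 : ∀ x ∈ N, x ∉ K → ∀ g : G, g * x * g⁻¹ ∉ K := by
    intro x hxN hxK g hgx
    have hx1 : x ≠ 1 := fun h => hxK (h ▸ K.one_mem)
    have hord1 : orderOf x ≠ 1 := fun h => hx1 (orderOf_eq_one_iff.mp h)
    set r := (orderOf x).minFac with hr
    haveI := Fact.mk (Nat.minFac_prime hord1)
    obtain ⟨c, hc⟩ := Nat.minFac_dvd (orderOf x)
    set y := x ^ c with hy
    have hc0 : c ≠ 0 := fun h => by rw [h, mul_zero] at hc; exact (orderOf_pos x).ne' hc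
    have hoy : orderOf y = r := by
      rw [hy, orderOf_pow_of_dvd hc0 ⟨r, by rw [hc, mul_comm]⟩, hc,
        Nat.mul_div_cancel _ (Nat.pos_of_ne_zero hc0)]
    have hgy : g * y * g⁻¹ ∈ K := by rw [hy, ← conj_pow]; exact pow_mem hgx c
    have hyK : y ∉ K := by
      intro hyK
      have hy1 : y ≠ 1 := fun h => (Fact.out : r.Prime).ne_one (hoy.symm.trans (orderOf_eq_one_iff.mpr h))
      by_cases hgN : g ∈ N
      · exact hxK ((Subgroup.mem_normalizer_iff.mp hgN x).mpr hgx)
      · exact hy1 (hTI g hgN y hyK hgy)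
    have hyN : y ∈ N := pow_mem hxN c
    have hrK : r ∣ Nat.card K := by
      have h1 : orderOf (g * y * g⁻¹) = r := by
        rw [show g * y * g⁻¹ = (MulAut.conj g).toMonoidHom y from rfl,
          orderOf_injective (MulAut.conj g).toMonoidHom (MulAut.conj g).injective, hoy]
      rw [← h1, ← Subgroup.orderOf_mk (g * y * g⁻¹) hgy]
      exact orderOf_dvd_natCard _
    let P := Subgroup.zpowers y
    have hP : IsPGroup r P := IsPGroup.of_card (n := 1) (by rw [Nat.card_zpowers, hoy, pow_one])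
    have hPN : P ≤ N := Subgroup.zpowers_le.mpr hyN
    have hclosed : ∀ (u : P) (k : K), (u : G) * k * (u : G)⁻¹ ∈ K := fun u k =>
      (Subgroup.mem_normalizer_iff.mp (hPN u.2) k).mp k.2
    letI : SMul P K := ⟨fun u k => ⟨_, hclosed u k⟩⟩
    have hsmul : ∀ (u : P) (k : K), ((u • k : K) : G) = u * k * (u : G)⁻¹ := fun _ _ => rfl
    letI : MulAction P K :=
      { one_smul := fun k => Subtype.ext (by simp [hsmul])
        mul_smul := fun u v k => Subtype.ext (by simp [hsmul, mul_assoc]) }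
    obtain ⟨k, hk, hk1⟩ := hP.exists_fixed_point_of_prime_dvd_card_of_fixed_point K hrK
      (a := (1 : K)) (fun u => Subtype.ext (by simp [hsmul]))
    have hcomm : y * k = k * y := by
      have := congrArg Subtype.val (hk ⟨y, Subgroup.mem_zpowers y⟩)
      rw [hsmul] at this
      exact mul_inv_eq_iff_eq_mul.mp this
    apply hyK
    refine hC k k.2 (fun h => hk1 (Subtype.ext h.symm)) ?_
    rw [Subgroup.mem_centralizer_singleton_iff, hcomm]
  refine ⟨part1, fun ϑ hϑ hϑ0 hϑ1 x => ?_⟩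
  by_cases hxK : (x : G) ∈ K
  · by_cases hx1 : x = 1
    · subst hx1
      rw [Subgroup.coe_one, indFun_one, hϑ1, mul_zero]
    · exact indFun_TI_apply (T := (K : Set G)) hTI ϑ hϑ hϑ0 x hxK hx1
  · rw [hϑ0 x hxK]
    simp only [indFun]
    rw [Finset.sum_eq_zero, mul_zero]
    intro y _
    by_cases hm : y⁻¹ * (x : G) * y ∈ N
    · rw [extendByZero_mem N ϑ hm]
      refine hϑ0 _ fun h => part1 x x.2 hxK y⁻¹ ?_
      simpa using h
    · exact extendByZero_not_mem N ϑ hm

end Cfsg.Agent.S0850
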