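import Cfsg.Statements.S0851
import Cfsg.Agent.Lib.Dade.KernelChars
import Mathlib.Tactic

set_option autoImplicit false
open scoped ComplexConjugate
open Cfsg

namespace Cfsg.Agent.S0851

open Cfsg.Agent.Lib.Char Cfsg.Agent.Lib.Dade

theorem result {G : Type*} [Group G] [Fintype G] (K : Subgroup G) (hTI : ∀ g : G, g ∉ Subgroup.normalizer (K : Set G) → ∀ k ∈ K, g * k * g⁻¹ ∈ K → k = 1) (hlt : K < Subgroup.normalizer (K : Set G)) (hC : ∀ k ∈ K, k ≠ 1 → Subgroup.centralizer ({k} : Set G) ≤ K) (hab : ∀ a ∈ K, ∀ b ∈ K, a * b = b * a) : (Nat.card {χ : Cfsg.IrrCharacter (Subgroup.normalizer (K : Set G)) // ∃ k : Subgroup.normalizer (K : Set G), (k : G) ∈ K ∧ (χ : ↥(Subgroup.normalizer (K : Set G)) → ℂ) k ≠ (χ : ↥(Subgroup.normalizer (K : Set G)) → ℂ) 1} = 1 ∧ ∃ p : ℕ, p.Prime ∧ Cfsg.IsElementaryAbelian p K ∧ Nat.card K = (K.subgroupOf (Subgroup.normalizer (K : Set G))).index + 1) ∨ ∃ (ε : ℂ) (f : {χ : Cfsg.IrrCharacter (Subgroup.normalizer (K : Set G)) // ∃ k : Subgroup.normalizer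 (K : Set G), (k : G) ∈ K ∧ (χ : ↥(Subgroup.normalizer (K : Set G)) → ℂ) k ≠ (χ : ↥(Subgroup.normalizer (K : Set G)) → ℂ) 1} → Cfsg.IrrCharacter G), (ε = 1 ∨ ε = -1) ∧ Function.Injective f ∧ ∀ χ ξ, Cfsg.indFun (Subgroup.normalizer (K : Set G)) ((χ.1 : ↥(Subgroup.normalizer (K : Set G)) → ℂ) - (ξ.1 : ↥(Subgroup.normalizer (K : Set G)) → ℂ)) = ε • ((f χ : G → ℂ) - (f ξ : G → ℂ)) := by
  classical
  set L := Subgroup.normalizer (K : Set G) with hL
  have := Fintype.ofFinite L
  set N0 := K.subgroupOf L with hN0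
  have := Fintype.ofFinite N0
  have hcomm : ∀ a b : N0, a * b = b * a := fun a b =>
    Subtype.ext (Subtype.ext (hab _ a.2 _ b.2))
  have hN0n : N0.Normal := ⟨fun n hn x => (Subgroup.mem_normalizer_iff.mp x.2 n).mp hn⟩
  let R := {χ : IrrCharacter L // ∃ k : L, (k : G) ∈ K ∧ (χ : L → ℂ) k ≠ (χ : L → ℂ) 1}
  by_cases hK1 : K = ⊥
  · right
    have hempty : IsEmpty R := ⟨fun r => by
      obtain ⟨k, hk, hne⟩ := r.2
      refine hne ?_
      rw [hK1, Subgroup.mem_bot] at hk
      rw [Subtype.ext hk (a2 := (1 : L))]⟩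
    exact ⟨1, fun r => hempty.elim r, Or.inl rfl, fun r => hempty.elim r, fun r => hempty.elim r⟩
  have hF : Cfsg.Agent.Lib.OddPartition.IsFrobTI L K := by
    refine ⟨hlt, hK1, fun x hx h hh => (Subgroup.mem_normalizer_iff.mp hx h).mp hh, hC,
      fun g x hx hx1 hg => by_contra fun h => hx1 (hTI g h x hx hg)⟩
  have hker := kernel_centralizer hF
  have hRmem : ∀ r : R, (r.1 : L → ℂ) ∈ relChars N0 := fun r => ⟨r.1.2, r.2⟩
  have hlin : ∀ θ : IrrCharacter N0, (θ : N0 → ℂ) 1 = 1 := by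
    have : IsMulCommutative N0 := ⟨⟨hcomm⟩⟩
    intro θ
    obtain ⟨k, ρ, hρ, hρ'⟩ := θ.2
    rw [← hρ', Representation.char_one,
      Representation.IsIrreducible.finrank_eq_one_of_isMulCommutative ρ, Nat.cast_one]
  set e := N0.index with he
  have hRdeg : ∀ r : R, (r.1 : L → ℂ) 1 = (e : ℂ) := fun r => by
    obtain ⟨θ, hθ, -, h⟩ := exists_of_mem_relChars hker (hRmem r)
    rw [h, indFun_one, show θ 1 = 1 from hlin ⟨θ, hθ⟩, mul_one]
  by_cases hone : Nat.card R = 1
  · left
    obtain ⟨hsub, ⟨r₀⟩⟩ := Nat.card_eq_one_iff_unique.mp hone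
    obtain ⟨θ₀, hθ₀, hθ₀1, hr₀⟩ := exists_of_mem_relChars hker (hRmem r₀)
    have himg : ((Finset.univ : Finset (IrrCharacter N0)).erase ⟨fun _ => 1, isIrrCharacter_one⟩).image
        Subtype.val = orbit N0 θ₀ := by
      ext ψ
      simp only [Finset.mem_image, Finset.mem_erase, Finset.mem_univ, and_true, mem_orbit]
      constructor
      · rintro ⟨θ, hθ1, rfl⟩
        have hθ1' : (θ : N0 → ℂ) ≠ fun _ => 1 := fun h => hθ1 (Subtype.ext h)
        have hmem := ind_mem_relChars hker θ.2 hθ1'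
        have heq := congrArg (fun r : R => (r.1 : L → ℂ))
          (hsub.elim ⟨⟨_, hmem.1⟩, hmem.2⟩ r₀)
        rw [hr₀] at heq
        change indFun N0 (θ : N0 → ℂ) = indFun N0 θ₀ at heq
        by_contra hc
        push Not at hc
        have h0 : classInner (fun n : N0 => indFun N0 θ₀ n) (θ : N0 → ℂ) = 0 := by
          rw [indFun_restrict_normal, classInner_smul_left, classInner_sum_left,
            Finset.sum_eq_zero fun x _ => classInner_irr_ne
              (isIrrCharacter_conjChar N0 x hθ₀) θ.2 (hc x), mul_zero]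
        rw [← classInner_indFun_right N0 (θ : N0 → ℂ) (isClassFunction_indFun N0 _), heq,
          classInner_irr_self (ind_kernel_irr hker hθ₀ hθ₀1)] at h0
        exact one_ne_zero h0
      · rintro ⟨g, rfl⟩
        refine ⟨⟨conjChar N0 g θ₀, isIrrCharacter_conjChar N0 g hθ₀⟩, fun h => hθ₀1 ?_, rfl⟩
        have h2 := congrArg (fun θ : IrrCharacter N0 => conjChar N0 g⁻¹ (θ : N0 → ℂ)) h
        simp only [← conjChar_mul, mul_inv_cancel, conjChar_one] at h2
        rw [h2]
        rfl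
    have hcard : Nat.card K = e + 1 := by
      have h1 := congrArg Finset.card himg
      rw [Finset.card_image_of_injective _ Subtype.val_injective,
        card_orbit N0 _ (irr_degree_ne_zero hθ₀), inertia_kernel hker hθ₀ hθ₀1,
        Finset.card_erase_of_mem (Finset.mem_univ _), Finset.card_univ] at h1
      have h2 : Nat.card N0 = Fintype.card (IrrCharacter N0) := by
        rw [← sum_charDegree_sq (G := N0), ← Finset.card_univ, Finset.card_eq_sum_ones]
        exact Finset.sum_congr rfl fun θ _ => by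
          rw [(charDegree_eq_one_iff θ.2).mpr (hlin θ), one_pow]
      have h3 : Nat.card N0 = Nat.card K := Nat.card_congr (Subgroup.subgroupOfEquivOfLe hlt.le).toEquiv
      have h4 : 0 < Nat.card K := Nat.card_pos
      have h1' : Fintype.card (IrrCharacter N0) - 1 = e := h1
      omega
    -- the nontrivial elements of `K` are conjugate
    have htrans : ∀ x ∈ K, x ≠ 1 → ∀ y ∈ K, y ≠ 1 → ∃ g : L, (g : G) * x * (g : G)⁻¹ = y := by
      intro x hx hx1 y hy hy1
      let P := {z : G // z ∈ K ∧ z ≠ 1}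
      let F : L ⧸ N0 → P := fun q => ⟨(q.out : G) * x * (q.out : G)⁻¹,
        (Subgroup.mem_normalizer_iff.mp q.out.2 x).mp hx, fun h => hx1 (conj_eq_one_iff.mp h)⟩
      have hFinj : Function.Injective F := by
        intro q q' h
        rw [← QuotientGroup.out_eq' q, ← QuotientGroup.out_eq' q', QuotientGroup.eq]
        have h' : (q.out : G) * x * (q.out : G)⁻¹ = (q'.out : G) * x * (q'.out : G)⁻¹ :=
          congrArg Subtype.val h
        refine hC x hx hx1 (Subgroup.mem_centralizer_singleton_iff.mpr ?_)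
        show (q.out : G)⁻¹ * q'.out * x = x * ((q.out : G)⁻¹ * q'.out)
        calc (q.out : G)⁻¹ * q'.out * x
            = (q.out : G)⁻¹ * ((q'.out : G) * x * (q'.out : G)⁻¹) * q'.out := by group
          _ = x * ((q.out : G)⁻¹ * q'.out) := by rw [← h']; group
      have hsurj : Function.Surjective F := by
        refine (hFinj.bijective_of_nat_card_le (le_of_eq ?_)).2
        rw [← Subgroup.index_eq_card, ← he]
        have : Nat.card P + 1 = Nat.card K := by
          rw [show Nat.card P = ((K : Set G) \ {1}).ncard from Nat.card_coe_set_eq _,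
            Set.ncard_sdiff_singleton_add_one K.one_mem (Set.toFinite _), ← Nat.card_coe_set_eq]
          rfl
        omega
      obtain ⟨q, hq⟩ := hsurj ⟨y, hy, hy1⟩
      exact ⟨q.out, congrArg Subtype.val hq⟩
    obtain ⟨p, hp, hpd⟩ := Nat.exists_prime_and_dvd
      (fun h => hK1 (Subgroup.card_eq_one.mp h) : Nat.card K ≠ 1)
    have : Fact p.Prime := ⟨hp⟩
    obtain ⟨z, hz⟩ := exists_prime_orderOf_dvd_card' (G := K) p hpd
    refine ⟨hone, p, hp, ⟨⟨⟨fun a b => Subtype.ext (hab _ a.2 _ b.2)⟩⟩, fun a ha => ?_⟩, hcard⟩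
    rcases eq_or_ne a 1 with rfl | ha1
    · exact one_pow p
    obtain ⟨g, hg⟩ := htrans z z.2 (fun h => hp.ne_one (by
      rw [← hz, ← Subgroup.orderOf_coe, h, orderOf_one])) a ha ha1
    rw [← hg, conj_pow, ← hz, ← Subgroup.orderOf_coe, pow_orderOf_eq_one, mul_one, mul_inv_cancel]
  · right
    rcases isEmpty_or_nonempty R with hempty | ⟨⟨r₀⟩⟩
    · exact ⟨1, fun r => hempty.elim r, Or.inl rfl, fun r => hempty.elim r, fun r => hempty.elim r⟩
    have := Fintype.ofFinite R
    obtain ⟨hiso, hzero⟩ := indFun_isometry hF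
    have hE : ∀ r : R, (r.1 : L → ℂ) - (r₀.1 : L → ℂ) ∈ zspanOn (relChars N0) {1}ᶜ := fun r =>
      mem_zspanOn.mpr ⟨zspan_sub (zspan_subset (hRmem r)) (zspan_subset (hRmem r₀)), by
        rw [Pi.sub_apply, hRdeg, hRdeg, sub_self]⟩
    obtain ⟨ε, hε, μ, hμ, hμeq⟩ := exists_coherent_family r₀
      (fun r : R => indFun L ((r.1 : L → ℂ) - (r₀.1 : L → ℂ))) (by rw [sub_self, indFun_zero])
      (fun r => hiso.2.2.2 _ (hE r)) (fun r => hzero _ (hE r)) fun r s hr hs => by
        rw [hiso.2.2.1 _ (hE r) _ (hE s), classInner_sub_left, classInner_sub_right,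
          classInner_sub_right, classInner_irrCharacter, classInner_irrCharacter,
          classInner_irrCharacter, classInner_irrCharacter,
          if_neg (show ¬ r.1 = r₀.1 from fun h => hr (Subtype.ext h)),
          if_neg (show ¬ r₀.1 = s.1 from fun h => hs (Subtype.ext h.symm)), if_pos rfl]
        refine ⟨fun h => ?_, fun h => ?_⟩
        · rw [h, if_pos rfl]; norm_num
        · rw [if_neg fun h' => h (Subtype.ext h')]; norm_num
    refine ⟨ε, μ, hε, hμ, fun χ ξ => ?_⟩
    rw [show (χ.1 : L → ℂ) - (ξ.1 : L → ℂ) = ((χ.1 : L → ℂ) - (r₀.1 : L → ℂ)) -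
      ((ξ.1 : L → ℂ) - (r₀.1 : L → ℂ)) by abel, indFun_sub, hμeq, hμeq, ← smul_sub]
    congr 1
    abel

end Cfsg.Agent.S0851
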