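import Cfsg.Statements.S0852
import Cfsg.Agent.Lib.Dade.TIExceptional
import Cfsg.Agent.Lib.CharClifford.NormOne
import Cfsg.Agent.Lib.Char.Integral
import Mathlib.Tactic

set_option autoImplicit false
open scoped ComplexConjugate
open Cfsg

namespace Cfsg.Agent.S0852

open Cfsg.Agent.Lib Cfsg.Agent.Lib.Char Cfsg.Agent.Lib.Dade

theorem result {G : Type*} [Group G] [Fintype G] (K : Subgroup G) (hTI : ∀ g : G, g ∉ Subgroup.normalizer (K : Set G) → ∀ k ∈ K, g * k * g⁻¹ ∈ K → k = 1) (hlt : K < Subgroup.normalizer (K : Set G)) (hC : ∀ k ∈ K, k ≠ 1 → Subgroup.centralizer ({k} : Set G) ≤ K) [Fintype ↥(Subgroup.normalizer (K : Set G))] (S : Set (↥(Subgroup.normalizer (K : Set G)) → ℂ)) (hS : S = {χ : ↥(Subgroup.normalizer (K : Set G)) → ℂ | Cfsg.IsIrrCharacter ↥(Subgroup.normalizer (K : Set G)) χ ∧ ∃ k : ↥(Subgroup.normalizer (K : Set G)), (k : G) ∈ K ∧ χ k ≠ χ 1}) (htwo : ∃ χ ∈ S, ∃ ξ ∈ S, χ ≠ ξ) (star : (↥(Subgroup.normalizer (K : Set G)) → ℂ)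 → (G → ℂ)) (hstar : Cfsg.IsLinearIsometryOn (Cfsg.zspan S) star) (hext : ∀ α ∈ Cfsg.zspanOn S ({1}ᶜ : Set ↥(Subgroup.normalizer (K : Set G))), star α = Cfsg.indFun (Subgroup.normalizer (K : Set G)) α) (ψ : G → ℂ) (hψ : Cfsg.IsIrrCharacter G ψ) : (∃ χ ∈ S, ψ = star χ ∨ ψ = -star χ) ↔ ∃ a ∈ K, ∃ b ∈ K, a ≠ 1 ∧ b ≠ 1 ∧ ψ a ≠ ψ b := by
  classical
  have hn : (K.subgroupOf (Subgroup.normalizer (K : Set G))).Normal :=
    ⟨fun n hn x => (Subgroup.mem_normalizer_iff.mp x.2 n).mp hn⟩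
  have hSeq : S = relChars (K.subgroupOf (Subgroup.normalizer (K : Set G))) := hS.trans rfl
  have hK1 : K ≠ ⊥ := by
    intro hbot
    obtain ⟨χ, hχ, -⟩ := htwo
    rw [hS] at hχ
    obtain ⟨-, k, hk, hne⟩ := hχ
    have hk1 := Subgroup.mem_bot.mp (hbot.le hk)
    exact hne (by rw [Subtype.ext hk1 (a2 := (1 : (Subgroup.normalizer (K : Set G))))])
  have hF : Cfsg.Agent.Lib.OddPartition.IsFrobTI (Subgroup.normalizer (K : Set G)) K :=
    ⟨hlt, hK1, fun x hx h hh => (Subgroup.mem_normalizer_iff.mp hx h).mp hh, hC,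
      fun g x hx hx1 hg => by_contra fun h => hx1 (hTI g h x hx hg)⟩
  subst hSeq
  have hirr : ∀ χ ∈ relChars (K.subgroupOf (Subgroup.normalizer (K : Set G))), IsIrrCharacter G (star χ) ∨ IsIrrCharacter G (-star χ) :=
    fun χ hχ => CharClifford.irr_or_neg_of_norm_one (hstar.2.2.2 χ (zspan_subset hχ))
      (by rw [hstar.2.2.1 χ (zspan_subset hχ) χ (zspan_subset hχ), classInner_irr_self hχ.1])
  obtain ⟨r, hr⟩ := restrict_kernel hF hstar hext (generalized_of_isCharacter (isCharacter_of_isIrr hψ))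
  constructor
  · rintro ⟨χ, hχ, hψχ⟩
    by_contra hc
    push Not at hc
    obtain ⟨s, hs0, hs⟩ : ∃ s : ℂ, s ≠ 0 ∧ ψ = s • star χ := by
      rcases hψχ with h | h
      · exact ⟨1, one_ne_zero, by rw [h, one_smul]⟩
      · exact ⟨-1, neg_ne_zero.mpr one_ne_zero, by rw [h, neg_smul, one_smul]⟩
    have hval : ∀ k : (Subgroup.normalizer (K : Set G)), (k : G) ∈ K → k ≠ 1 → ψ k = s * χ k + (r : ℂ) := by
      intro k hk hk1
      rw [hr k hk hk1, Finset.sum_eq_single ⟨χ, hχ.1⟩ (fun η hη hne => by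
        rw [hs, classInner_smul_left, hstar.2.2.1 χ (zspan_subset hχ) _
          (zspan_subset (mem_relFinset.mp hη)), classInner_irr_ne hχ.1 η.2
          (fun h => hne (Subtype.ext h.symm)), mul_zero, zero_mul])
        (fun h => absurd (mem_relFinset.mpr hχ) h)]
      show classInner ψ (star χ) * χ k + _ = _
      rw [hs, classInner_smul_left, hstar.2.2.1 χ (zspan_subset hχ) χ (zspan_subset hχ),
        classInner_irr_self hχ.1, mul_one]
    obtain ⟨k₀, hk₀, hk₀1⟩ := Subgroup.ne_bot_iff_exists_ne_one.mp hK1 |>.elim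
      fun a ha => (⟨⟨a, hF.lt.le a.2⟩, a.2, fun h => ha (Subtype.ext (congrArg Subtype.val h :))⟩ :
        ∃ k : (Subgroup.normalizer (K : Set G)), (k : G) ∈ K ∧ k ≠ 1)
    have hconst : ∀ k : (Subgroup.normalizer (K : Set G)), (k : G) ∈ K → k ≠ 1 → χ k = χ k₀ := by
      intro k hk hk1
      have h := hc k hk k₀ hk₀ (fun h => hk1 (Subtype.ext h)) (fun h => hk₀1 (Subtype.ext h))
      rw [hval k hk hk1, hval k₀ hk₀ hk₀1] at h
      exact mul_left_cancel₀ hs0 (add_right_cancel h)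
    obtain ⟨ξ, hξ, hξχ⟩ : ∃ ξ ∈ relChars (K.subgroupOf (Subgroup.normalizer (K : Set G))), ξ ≠ χ := by
      obtain ⟨a, ha, b, hb, hab⟩ := htwo
      by_cases h : a = χ
      · exact ⟨b, hb, fun e => hab (h.trans e.symm)⟩
      · exact ⟨a, ha, h⟩
    have hξone : ξ ≠ fun _ => 1 := by
      obtain ⟨-, h, -, hne⟩ := hξ
      rintro rfl
      exact hne rfl
    have h1 := classInner_irr_ne hχ.1 hξ.1 (Ne.symm hξχ)
    have h2 := classInner_irr_ne isIrrCharacter_one hξ.1 (Ne.symm hξone)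
    simp only [classInner, mul_eq_zero, inv_eq_zero, card_ne_zero_complex, false_or, one_mul] at h1 h2
    rw [Finset.sum_congr rfl (g := fun x => χ k₀ * conj (ξ x) +
      if x = 1 then (χ 1 - χ k₀) * conj (ξ 1) else 0) fun x _ => by
        by_cases hx : (x : G) ∈ K
        · by_cases hx1 : x = 1
          · subst hx1; rw [if_pos rfl]; ring
          · rw [if_neg hx1, hconst x hx hx1, add_zero]
        · have hx1 : x ≠ 1 := fun h => hx (by rw [h]; exact K.one_mem)
          rw [if_neg hx1, relChars_off (kernel_centralizer hF) hξ hx, map_zero, mul_zero, mul_zero,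
            add_zero],
      Finset.sum_add_distrib, ← Finset.mul_sum, h2, mul_zero, zero_add, Finset.sum_ite_eq',
      if_pos (Finset.mem_univ _), mul_eq_zero, sub_eq_zero, map_eq_zero] at h1
    rcases h1 with h1 | h1
    · obtain ⟨-, h, hh, hne⟩ := hχ
      refine hne ?_
      rcases eq_or_ne h 1 with e | e
      · rw [e]
      · rw [hconst h hh e, h1]
    · exact irr_degree_ne_zero hξ.1 h1
  · rintro ⟨a, ha, b, hb, ha1, hb1, hne⟩
    by_contra hc
    push Not at hc
    refine hne ?_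
    have h0 : ∀ η ∈ relFinset (Subgroup.normalizer (K : Set G)) K, classInner ψ (star (η : (Subgroup.normalizer (K : Set G)) → ℂ)) = 0 := by
      intro η hη
      have hη' := mem_relFinset.mp hη
      obtain ⟨h1, h2⟩ := hc _ hη'
      rcases hirr _ hη' with h | h
      · exact classInner_irr_ne hψ h h1
      · have := classInner_irr_ne hψ h h2
        rwa [classInner_neg_right, neg_eq_zero] at this
    have key : ∀ x, ∀ hx : x ∈ K, x ≠ 1 → ψ x = (r : ℂ) := fun x hx hx1 => by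
      have := hr ⟨x, hF.lt.le hx⟩ hx (fun h => hx1 (congrArg Subtype.val h :))
      rw [Finset.sum_eq_zero fun η hη => by rw [h0 η hη, zero_mul], zero_add] at this
      exact this
    rw [key a ha ha1, key b hb hb1]

end Cfsg.Agent.S0852
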