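import Cfsg.Statements.S0853
import Cfsg.Agent.Lib.Dade.TIExceptional
import Cfsg.Agent.Lib.CharClifford.NormOne
import Cfsg.Agent.Lib.Char.Integral
import Mathlib.Tactic

set_option autoImplicit false
open scoped ComplexConjugate
open Cfsg

namespace Cfsg.Agent.S0853

open Cfsg.Agent.Lib Cfsg.Agent.Lib.Char Cfsg.Agent.Lib.Dade

theorem result {G : Type*} [Group G] [Fintype G] (K : Subgroup G) (hTI : ∀ g : G, g ∉ Subgroup.normalizer (K : Set G) → ∀ k ∈ K, g * k * g⁻¹ ∈ K → k = 1) (hlt : K < Subgroup.normalizer (K : Set G)) (hC : ∀ k ∈ K, k ≠ 1 → Subgroup.centralizer ({k} : Set G) ≤ K) [Fintype ↥(Subgroup.normalizer (K : Set G))] (S : Set (↥(Subgroup.normalizer (K : Set G)) → ℂ)) (hS : S = {χ : ↥(Subgroup.normalizer (K : Set G)) → ℂ | Cfsg.IsIrrCharacter ↥(Subgroup.normalizer (K : Set G)) χ ∧ ∃ k : ↥(Subgroup.normalizer (K : Set G)), (k : G) ∈ K ∧ χ k ≠ χ 1}) (htwo : ∃ χ ∈ S, ∃ ξ ∈ S, χ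 ≠ ξ) (star : (↥(Subgroup.normalizer (K : Set G)) → ℂ) → (G → ℂ)) (hstar : Cfsg.IsLinearIsometryOn (Cfsg.zspan S) star) (hext : ∀ α ∈ Cfsg.zspanOn S ({1}ᶜ : Set ↥(Subgroup.normalizer (K : Set G))), star α = Cfsg.indFun (Subgroup.normalizer (K : Set G)) α) : ∃ m : ℤ, ∀ χ ∈ S, ∀ k : ↥(Subgroup.normalizer (K : Set G)), (k : G) ∈ K → k ≠ 1 → star χ k - χ k = (m : ℂ) * χ 1 / ((K.subgroupOf (Subgroup.normalizer (K : Set G))).index : ℂ) := by
  classical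
  have hn : (K.subgroupOf (Subgroup.normalizer (K : Set G))).Normal :=
    ⟨fun n hn x => (Subgroup.mem_normalizer_iff.mp x.2 n).mp hn⟩
  have hSeq : S = relChars (K.subgroupOf (Subgroup.normalizer (K : Set G))) := hS.trans rfl
  have hK1 : K ≠ ⊥ := by
    intro hbot
    obtain ⟨χ, hχ, -⟩ := htwo
    rw [hS] at hχ
    obtain ⟨-, k, hk, hne⟩ := hχ
    have hk1 := Subgroup.mem_bot.mp (hbot.le hk)
    exact hne (by rw [Subtype.ext hk1 (a2 := (1 : (Subgroup.normalizer (K : Set G))))])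
  have hF : Cfsg.Agent.Lib.OddPartition.IsFrobTI (Subgroup.normalizer (K : Set G)) K :=
    ⟨hlt, hK1, fun x hx h hh => (Subgroup.mem_normalizer_iff.mp hx h).mp hh, hC,
      fun g x hx hx1 hg => by_contra fun h => hx1 (hTI g h x hx hg)⟩
  subst hSeq
  obtain ⟨χ₁, hχ₁, hχ₁1⟩ := exists_rel_degree_index hF
  have hg₁ := hstar.2.2.2 χ₁ (zspan_subset hχ₁)
  obtain ⟨r, hr⟩ := restrict_kernel hF hstar hext hg₁
  have h1val : ∀ k : (Subgroup.normalizer (K : Set G)), (k : G) ∈ K → k ≠ 1 → star χ₁ k - χ₁ k = (r : ℂ) := by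
    intro k hk hk1
    rw [hr k hk hk1, Finset.sum_eq_single ⟨χ₁, hχ₁.1⟩ (fun η hη hne => by
        rw [hstar.2.2.1 χ₁ (zspan_subset hχ₁) _ (zspan_subset (mem_relFinset.mp hη)),
          classInner_irr_ne hχ₁.1 η.2 (fun h => hne (Subtype.ext h.symm)), zero_mul])
        (fun h => absurd (mem_relFinset.mpr hχ₁) h),
      show classInner (star χ₁) (star χ₁) = 1 by
        rw [hstar.2.2.1 χ₁ (zspan_subset hχ₁) χ₁ (zspan_subset hχ₁), classInner_irr_self hχ₁.1],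
      one_mul]
    ring
  obtain ⟨a, ha⟩ := Subgroup.ne_bot_iff_exists_ne_one.mp hK1
  obtain ⟨k₀, hk₀, hk₀1⟩ : ∃ k : (Subgroup.normalizer (K : Set G)), (k : G) ∈ K ∧ k ≠ 1 :=
    ⟨⟨a, hF.lt.le a.2⟩, a.2, fun h => ha (Subtype.ext (congrArg Subtype.val h :))⟩
  have hint : IsIntegral ℤ (r : ℂ) := by
    rw [← h1val k₀ hk₀ hk₀1]
    obtain ⟨u, v, hu, hv, huv⟩ := hg₁
    rw [huv]
    exact ((char_isIntegral hu _).sub (char_isIntegral hv _)).sub
      (char_isIntegral (isCharacter_of_isIrr hχ₁.1) _)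
  obtain ⟨m, hm⟩ := exists_int_of_isIntegral hint
  refine ⟨m, fun χ hχ k hk hk1 => ?_⟩
  obtain ⟨c, hc⟩ := exists_rel_degree hF hχ
  have hmem : χ - (c : ℤ) • χ₁ ∈ zspanOn (relChars (K.subgroupOf (Subgroup.normalizer (K : Set G)))) {1}ᶜ :=
    mem_zspanOn.mpr ⟨zspan_sub (zspan_subset hχ) (zspan_smul _ (zspan_subset hχ₁)), by
      rw [Pi.sub_apply, Pi.smul_apply, hc, hχ₁1, zsmul_eq_mul, Int.cast_natCast, sub_self]⟩
  have h2 : star (χ - (c : ℤ) • χ₁) = star χ - (c : ℤ) • star χ₁ := by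
    have hneg : star ((-(c : ℤ)) • χ₁) = (-(c : ℤ)) • star χ₁ := hstar.2.1 χ₁ (zspan_subset hχ₁) _
    rw [sub_eq_add_neg, ← neg_smul, hstar.1 _ (zspan_subset hχ) _
      (zspan_smul _ (zspan_subset hχ₁)), hneg, neg_smul, ← sub_eq_add_neg]
  have h3 := indFun_apply_kernel hF hmem (x := k) ⟨hk, fun h => hk1 (Subtype.ext h)⟩
  rw [← hext _ hmem, h2] at h3
  simp only [Pi.sub_apply, Pi.smul_apply, Pi.mul_apply, Pi.natCast_apply, zsmul_eq_mul, Int.cast_natCast] at h3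
  have h4 := h1val k hk hk1
  rw [show (r : ℂ) = (m : ℂ) by rw [hm, Rat.cast_intCast]] at h4
  have he0 : ((K.subgroupOf (Subgroup.normalizer (K : Set G))).index : ℂ) ≠ 0 := Nat.cast_ne_zero.mpr Subgroup.index_ne_zero_of_finite
  rw [hc]
  field_simp
  linear_combination h3 + (c : ℂ) * h4

end Cfsg.Agent.S0853
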