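import Cfsg.Statements.S0855
import Cfsg.Agent.Lib.Char.Ito
import Cfsg.Agent.Lib.Char.Degree
import Mathlib.Tactic
-- import your own Cfsg.Agent.* helpers here

set_option autoImplicit false
open Cfsg

namespace Cfsg.Agent.S0855

open Cfsg.Agent.Lib.Char

universe u

/-- Characters of prime power degree give an abelian normal complement. -/
theorem aux (p : ℕ) (hp : p.Prime) : ∀ (n : ℕ) (G : Type u) [Group G] [Finite G], Nat.card G = n →
    (∀ χ : IrrCharacter G, ∃ k : ℕ, charDegree (χ : G → ℂ) = p ^ k) →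
    ∃ A : Subgroup G, A.Normal ∧ (∀ a ∈ A, ∀ b ∈ A, a * b = b * a) ∧
      Nat.Coprime (Nat.card A) p ∧ ∃ k : ℕ, A.index = p ^ k := by
  intro n
  induction n using Nat.strong_induction_on with
  | _ n ih =>
  intro G _ _ hn hdeg
  classical
  have := Fintype.ofFinite G
  have : Fact p.Prime := ⟨hp⟩
  by_cases hpG : p ∣ Nat.card G
  · -- a normal subgroup of index `p`
    have hfin : Finite (G →* ℂˣ) := Finite.of_equiv _ (linearEquiv G).symm
    have hidx : p ∣ (commutator G).index := by
      have hs := sum_charDegree_sq (G := G)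
      rw [← Finset.sum_filter_add_sum_filter_not Finset.univ
        (fun χ : IrrCharacter G => charDegree (χ : G → ℂ) = 1),
        Finset.sum_congr rfl (g := fun _ => 1) fun χ hχ => by
          rw [(Finset.mem_filter.mp hχ).2, one_pow],
        Finset.sum_const, smul_eq_mul, mul_one, ← Fintype.card_subtype, ← Nat.card_eq_fintype_card,
        card_charDegree_one] at hs
      refine (Nat.dvd_add_left (Finset.dvd_sum fun χ hχ => ?_)).mp (hs.symm ▸ hpG)
      obtain ⟨k, hk⟩ := hdeg χ
      have hk0 : k ≠ 0 := fun h => (Finset.mem_filter.mp hχ).2 (by rw [hk, h, pow_zero])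
      rw [hk, ← pow_mul]
      exact dvd_pow_self p (by omega)
    obtain ⟨l, hl⟩ := exists_prime_orderOf_dvd_card' (G := G →* ℂˣ) p (by
      rw [Nat.card_congr (linearEquiv G), card_linear]; exact hidx)
    set N := l.ker with hN
    have hl1 : l ≠ 1 := fun h => hp.ne_one (by rw [← hl, h, orderOf_one])
    have hNidx : N.index = p := by
      rw [hN, Subgroup.index_ker]
      have hle : l.range ≤ rootsOfUnity p ℂ := by
        rintro _ ⟨g, rfl⟩
        rw [mem_rootsOfUnity]
        have := DFunLike.congr_fun (show l ^ p = 1 by rw [← hl]; exact pow_orderOf_eq_one l) g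
        simpa using this
      have hdvd := Subgroup.card_dvd_of_le hle
      have : NeZero p := ⟨hp.ne_zero⟩
      rw [Complex.card_rootsOfUnity] at hdvd
      refine ((Nat.dvd_prime hp).mp hdvd).resolve_left fun h => hl1 ?_
      have h1 : l.range = ⊥ := Subgroup.card_eq_one.mp h
      exact MonoidHom.ext fun g => by
        have : l g ∈ l.range := ⟨g, rfl⟩
        rw [h1, Subgroup.mem_bot] at this
        exact this
    have := Fintype.ofFinite N
    obtain ⟨A, hAn, hAab, hAco, k, hk⟩ := ih (Nat.card N) (by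
      rw [← hn, ← N.card_mul_index, hNidx]
      exact lt_mul_of_one_lt_right Nat.card_pos hp.one_lt) N rfl fun θ => by
      obtain ⟨χ, hχ⟩ := exists_constituent (isCharacter_indFun N (isCharacter_of_isIrr θ.2))
        (fun h => irr_degree_ne_zero θ.2 (by
          have h1 := congrFun h 1
          rw [indFun_one] at h1
          exact (mul_eq_zero.mp h1).resolve_left
            (Nat.cast_ne_zero.mpr Subgroup.index_ne_zero_of_finite)))
      have h2 : classInner (fun x : N => (χ : G → ℂ) x) (θ : N → ℂ) ≠ 0 := by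
        rw [← classInner_indFun_right N _ (isClassFunction_of_isIrr χ.2), classInner_conj_symm]
        simpa using hχ
      obtain ⟨ψ, hψ, hind, m, -, hψN⟩ := exists_clifford_correspondent N χ.2 θ.2 h2
      have hd : charDegree ψ = m * charDegree (θ : N → ℂ) := charDegree_eq_of_apply_one (by
        rw [Nat.cast_mul, ← apply_one_eq_charDegree (isCharacter_of_isIrr θ.2), ← hψN 1]
        rfl)
      obtain ⟨j, hj⟩ := hdeg χ
      have hdvd : charDegree (θ : N → ℂ) ∣ p ^ j := by
        have := Fintype.ofFinite (inertia N (θ : N → ℂ))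
        rw [← hj, ← hind, charDegree_indFun _ (isCharacter_of_isIrr hψ), hd]
        exact (dvd_mul_left _ _).mul_left _
      obtain ⟨i, -, hi⟩ := (Nat.dvd_prime_pow hp).mp hdvd
      exact ⟨i, hi⟩
    have hmem : ∀ x : N, x ∈ A ↔ (orderOf x).Coprime p := fun x => by
      constructor
      · intro hx
        exact Nat.Coprime.coprime_dvd_left (Subgroup.orderOf_dvd_natCard A hx) hAco
      · intro hx
        rw [← QuotientGroup.eq_one_iff, ← orderOf_eq_one_iff]
        have h1 : orderOf ((x : N ⧸ A)) ∣ p ^ k := by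
          rw [← hk, Subgroup.index_eq_card]; exact orderOf_dvd_natCard _
        exact Nat.eq_one_of_dvd_coprimes (hx.pow_right k)
          (orderOf_map_dvd (QuotientGroup.mk' A) x) h1
    refine ⟨A.map N.subtype, ⟨?_⟩, ?_, ?_, ?_⟩
    · rintro _ ⟨a, ha, rfl⟩ g
      refine ⟨⟨g * a * g⁻¹, (inferInstance : N.Normal).conj_mem a a.2 g⟩, (hmem _).mpr ?_, rfl⟩
      rw [← Subgroup.orderOf_coe]
      have h1 : orderOf (g * (a : G) * g⁻¹) = orderOf (a : G) :=
        orderOf_injective (MulAut.conj g).toMonoidHom (MulEquiv.injective _) (a : G)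
      rw [h1, Subgroup.orderOf_coe]
      exact (hmem a).mp ha
    · rintro _ ⟨a, ha, rfl⟩ _ ⟨b, hb, rfl⟩
      exact congrArg Subtype.val (hAab a ha b hb)
    · rwa [Subgroup.card_map_of_injective N.subtype_injective]
    · exact ⟨k + 1, by rw [Subgroup.index_map_subtype, hk, hNidx, pow_succ]⟩
  · refine ⟨⊤, inferInstance, fun a _ b _ => ?_, ?_, 0, by simp⟩
    · have h1 : ∀ χ : IrrCharacter G, charDegree (χ : G → ℂ) = 1 := fun χ => by
        obtain ⟨k, hk⟩ := hdeg χ
        rcases Nat.eq_zero_or_pos k with h | h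
        · rw [hk, h, pow_zero]
        · exact absurd ((dvd_pow_self p h.ne').trans (hk ▸ charDegree_dvd_card χ.2)) hpG
      have h2 : (commutator G).index = Nat.card G := by
        rw [← card_charDegree_one, ← sum_charDegree_sq (G := G),
          Nat.card_congr (Equiv.subtypeUnivEquiv h1), Nat.card_eq_fintype_card,
          Finset.sum_congr rfl (g := fun _ => 1) (fun χ _ => by rw [h1 χ, one_pow]),
          Finset.sum_const, Finset.card_univ, smul_eq_mul, mul_one]
      have h3 : commutator G = ⊥ := by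
        have h4 := (commutator G).card_mul_index
        rw [h2] at h4
        exact Subgroup.card_eq_one.mp ((Nat.mul_eq_right Nat.card_pos.ne').mp h4)
      exact ((commutator_eq_bot_iff G).mp h3).is_comm.comm a b
    · rw [Subgroup.card_top]; exact (hp.coprime_iff_not_dvd.mpr hpG).symm

theorem result {G : Type*} [Group G] [Finite G] (p : ℕ) (hp : p.Prime) : (∀ χ : Cfsg.IrrCharacter G, ∃ k : ℕ, (χ : G → ℂ) 1 = (p : ℂ) ^ k) ↔ ∃ A : Subgroup G, A.Normal ∧ (∀ a ∈ A, ∀ b ∈ A, a * b = b * a) ∧ Nat.Coprime (Nat.card A) p ∧ ∃ k : ℕ, A.index = p ^ k := by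
  classical
  have := Fintype.ofFinite G
  constructor
  · intro h
    refine aux p hp _ G rfl fun χ => ?_
    obtain ⟨k, hk⟩ := h χ
    exact ⟨k, charDegree_eq_of_apply_one (by rw [hk, Nat.cast_pow])⟩
  · rintro ⟨A, hA, hab, -, k, hk⟩ χ
    have hd := degree_dvd_index_of_abelian A χ.2 hab
    rw [hk] at hd
    obtain ⟨i, -, hi⟩ := (Nat.dvd_prime_pow hp).mp hd
    exact ⟨i, by rw [apply_one_eq_charDegree (isCharacter_of_isIrr χ.2), hi, Nat.cast_pow]⟩

end Cfsg.Agent.S0855
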