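import Cfsg.Statements.S0857
import Cfsg.Agent.Lib.CharClifford.Gallagher
import Cfsg.Agent.Lib.Dade.CoherenceExt
import Cfsg.Agent.Lib.Char.Degree
import Mathlib.Tactic
-- import your own Cfsg.Agent.* helpers here

set_option autoImplicit false
open Cfsg
open scoped ComplexConjugate
open Cfsg.Agent.Lib Cfsg.Agent.Lib.Char

namespace Cfsg.Agent.S0857

/-- Let L < K be normal subgroups of the finite group G with no normal subgroup of G strictly between them and with K / L abelian (the commutator subgroup of K lies in L). Let ϑ be an irreducible character of K invariant under conjugation by G. Then the restriction of ϑ to L is irreducible; or it equals e times an irreducible character of L with e ^ 2 equal to the index of L in K; or it is the sum of a family of pairwise distinct irreducible characters of L indexed by a set whose size is the index of L in K. -/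
theorem result {G : Type*} [Group G] [Fintype G] (K L : Subgroup G) [hK : K.Normal] [L.Normal] (hLK : L < K) (hchief : ∀ M : Subgroup G, M.Normal → L ≤ M → M ≤ K → M = L ∨ M = K) (hab : ⁅K, K⁆ ≤ L) (ϑ : K → ℂ) (hϑ : Cfsg.IsIrrCharacter K ϑ) (hinv : ∀ (g : G) (n : K), ϑ ⟨g * n * g⁻¹, hK.conj_mem (n : G) n.2 g⟩ = ϑ n) : Cfsg.IsIrrCharacter L (fun x : L => ϑ ⟨(x : G), hLK.le x.2⟩) ∨ (∃ (φ : L → ℂ) (e : ℕ), Cfsg.IsIrrCharacter L φ ∧ (fun x : L => ϑ ⟨(x : G), hLK.le x.2⟩) = (e : ℂ) • φ ∧ e ^ 2 = L.relIndex K) ∨ (∃ F : Finset (L → ℂ), (∀ φ ∈ F, Cfsg.IsIrrCharacter L φ) ∧ F.card = L.relIndex K ∧ (fun x : L => ϑ ⟨(x : G), hLK.le x.2⟩) = ∑ φ ∈ F, φ) := by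
  classical
  set N := L.subgroupOf K with hN
  have : N.Normal := ⟨fun n hn x => (inferInstance : L.Normal).conj_mem _ hn _⟩
  have := Fintype.ofFinite N
  have := Fintype.ofFinite K
  let ι : N ≃* L := Subgroup.subgroupOfEquivOfLe hLK.le
  set res : N → ℂ := fun n => ϑ n with hres
  have hback : ∀ {f : N → ℂ}, IsIrrCharacter N f → IsIrrCharacter L (fun x => f (ι.symm x)) :=
    fun hf => CharClifford.isIrrCharacter_comp_equiv ι.symm hf
  have hresL : (fun x : L => ϑ ⟨(x : G), hLK.le x.2⟩) = fun x => res (ι.symm x) := rfl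
  -- conjugation by elements of `G`
  let α : G → K →* K := fun g => (MulAut.conjNormal g : MulAut K).toMonoidHom
  have hαN : ∀ (g : G) (n : K), α g n ∈ N ↔ n ∈ N := fun g n => by
    show g * (n : G) * g⁻¹ ∈ L ↔ (n : G) ∈ L
    exact ⟨fun h => by simpa [mul_assoc] using (inferInstance : L.Normal).conj_mem _ h g⁻¹,
      fun h => (inferInstance : L.Normal).conj_mem _ h g⟩
  have hαϑ : ∀ (g : G) (x : K), ϑ (α g x) = ϑ x := fun g x => hinv g x
  have hcom : ∀ a b : K, a * b * a⁻¹ * b⁻¹ ∈ N := fun a b =>
    hab (Subgroup.commutator_mem_commutator a.2 b.2)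
  have hnormal : ∀ M : Subgroup K, N ≤ M → (∀ (g : G), ∀ x ∈ M, α g x ∈ M) → M = N ∨ M = ⊤ := by
    intro M hNM hM
    have hn : (M.map K.subtype).Normal := ⟨by
      rintro _ ⟨x, hx, rfl⟩ g
      exact ⟨α g x, hM g x hx, rfl⟩⟩
    rcases hchief (M.map K.subtype) hn (fun l hl => ⟨⟨l, hLK.le hl⟩, hNM hl, rfl⟩)
      (Subgroup.map_subtype_le M) with h | h
    · left
      ext x
      show x ∈ M ↔ (x : G) ∈ L
      rw [← h]
      exact ⟨fun hx => ⟨x, hx, rfl⟩, fun ⟨y, hy, e⟩ => (Subtype.ext e : y = x) ▸ hy⟩
    · right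
      rw [eq_top_iff]
      intro x _
      obtain ⟨y, hy, e⟩ : (x : G) ∈ M.map K.subtype := by rw [h]; exact x.2
      exact (Subtype.ext e : y = x) ▸ hy
  -- a constituent
  obtain ⟨φ, hφne⟩ := exists_constituent (isCharacter_restrict (isCharacter_of_isIrr hϑ) N)
    (fun h => irr_degree_ne_zero hϑ (congrFun h 1))
  obtain ⟨e, he⟩ := classInner_natCast (isCharacter_restrict (isCharacter_of_isIrr hϑ) N)
    (isCharacter_of_isIrr φ.2)
  have he0 : e ≠ 0 := fun h => hφne (by rw [he, h, Nat.cast_zero])
  have hclif := clifford N hϑ φ.2 hφne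
  rw [he] at hclif
  set T := inertia N (φ : N → ℂ) with hT
  have hNT : N ≤ T := le_inertia N (isClassFunction_of_isIrr φ.2)
  have hTinv : ∀ (g : G), ∀ t ∈ T, α g t ∈ T := by
    intro g t ht
    let αN : N →* N :=
      { toFun := fun n => ⟨α g n, (hαN g n).mpr n.2⟩
        map_one' := Subtype.ext (map_one _)
        map_mul' := fun a b => Subtype.ext (map_mul _ _ _) }
    have hαsurj : Function.Surjective αN := fun n => ⟨⟨α g⁻¹ n, (hαN g⁻¹ n).mpr n.2⟩, by
      apply Subtype.ext; apply Subtype.ext
      show g * (g⁻¹ * ((n : K) : G) * g⁻¹⁻¹) * g⁻¹ = _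
      group⟩
    have hφ' : IsIrrCharacter N (fun n => (φ : N → ℂ) (αN n)) :=
      isIrrCharacter_comp φ.2 αN hαsurj
    have hφ'ne : classInner (fun n : N => ϑ n) (fun n => (φ : N → ℂ) (αN n)) ≠ 0 := by
      have h1 : classInner (fun n : N => ϑ n) (fun n => (φ : N → ℂ) (αN n)) =
          classInner (fun n : N => ϑ n) (φ : N → ℂ) := by
        simp only [classInner]
        congr 1
        have hbij : Function.Bijective αN := Finite.surjective_iff_bijective.mp hαsurj
        refine Fintype.sum_bijective αN hbij _ _ fun n => ?_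
        show ϑ (n : K) * _ = ϑ (α g n) * _
        rw [hαϑ]
      rw [h1]; exact hφne
    obtain ⟨k, hk⟩ := conjugate_of_constituents N hϑ φ.2 hφ' hφne hφ'ne
    have hconj : conjChar N t (conjChar N k (φ : N → ℂ)) = conjChar N k (φ : N → ℂ) := by
      rw [← conjChar_mul, show k * t = (k * t * k⁻¹ * t⁻¹) * (t * k) by group, conjChar_mul,
        conjChar_of_mem N (isClassFunction_of_isIrr φ.2) (hcom k t), conjChar_mul,
        show conjChar N t (φ : N → ℂ) = φ from ht]
    rw [hk] at hconj
    show conjChar N (α g t) (φ : N → ℂ) = φ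
    funext n
    obtain ⟨m, rfl⟩ := hαsurj n
    refine Eq.trans ?_ (congrFun hconj m)
    show (φ : N → ℂ) _ = (φ : N → ℂ) _
    refine congrArg _ (Subtype.ext ?_)
    show α g t * α g (m : K) * (α g t)⁻¹ = α g (t * (m : K) * t⁻¹)
    simp only [map_mul, map_inv]
  rcases hnormal T hNT hTinv with hTN | hTtop
  · -- the constituent induces irreducibly
    right; right
    have hirr := isIrrCharacter_indFun N φ.2 hTN
    have heq : indFun N (φ : N → ℂ) = ϑ := by
      by_contra hne
      refine hφne ?_
      rw [← classInner_indFun_right N _ (isClassFunction_of_isIrr hϑ),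
        classInner_irr_ne hϑ hirr (Ne.symm hne)]
    have he1 : e = 1 := by
      have h1 := clifford_degree N hϑ φ.2 hφne
      rw [he, ← hT, hTN] at h1
      conv_lhs at h1 => rw [← heq, indFun_one]
      have h2 : (e : ℂ) * (N.index : ℂ) = (N.index : ℂ) :=
        (mul_right_cancel₀ (irr_degree_ne_zero φ.2) h1).symm
      exact_mod_cast (mul_eq_right₀ (Nat.cast_ne_zero.mpr Subgroup.index_ne_zero_of_finite)).mp h2
    refine ⟨(orbit N (φ : N → ℂ)).image (fun f x => f (ι.symm x)), fun f hf => ?_, ?_, ?_⟩
    · obtain ⟨f', hf', rfl⟩ := Finset.mem_image.mp hf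
      obtain ⟨g, rfl⟩ := (mem_orbit N).mp hf'
      exact hback (isIrrCharacter_conjChar N g φ.2)
    · rw [Finset.card_image_of_injective _ fun f f' h => funext fun n => by
          simpa using congrFun h (ι n),
        card_orbit N _ (irr_degree_ne_zero φ.2), ← hT, hTN]
      rfl
    · rw [hresL, Finset.sum_image (fun f _ f' _ h => funext fun n => by simpa using congrFun h (ι n))]
      funext x
      rw [hres]
      show (fun n : N => ϑ n) (ι.symm x) = _
      rw [hclif, he1]
      simp [Finset.sum_apply]
  -- the constituent is invariant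
  have hφinv : ∀ k : K, conjChar N k (φ : N → ℂ) = φ := fun k => by
    have : k ∈ T := hTtop ▸ Subgroup.mem_top k
    exact this
  have horb : orbit N (φ : N → ℂ) = {(φ : N → ℂ)} := by
    ext f
    rw [mem_orbit, Finset.mem_singleton]
    exact ⟨fun ⟨g, hg⟩ => hg.symm.trans (hφinv g), fun h => ⟨1, (hφinv 1).trans h.symm⟩⟩
  rw [horb, Finset.sum_singleton] at hclif
  let stab : Set (K →* ℂˣ) := {l | N ≤ l.ker ∧ (fun x => (l x : ℂ) * ϑ x) = ϑ}
  let M : Subgroup K := ⨅ l ∈ stab, l.ker
  have hM : ∀ x, x ∈ M ↔ ∀ l ∈ stab, l x = 1 := fun x => by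
    simp [M, Subgroup.mem_iInf, MonoidHom.mem_ker]
  have hNM : N ≤ M := fun x hx => (hM x).mpr fun l hl => hl.1 hx
  have hMinv : ∀ (g : G), ∀ x ∈ M, α g x ∈ M := by
    intro g x hx
    rw [hM] at hx ⊢
    intro l hl
    refine hx (l.comp (α g)) ⟨fun n hn => hl.1 ((hαN g n).mpr hn), funext fun y => ?_⟩
    have := congrFun hl.2 (α g y)
    rw [hαϑ] at this
    exact this
  rcases hnormal M hNM hMinv with hMN | hMtop
  · -- vanishing off `L`
    right; left
    refine ⟨fun x => (φ : N → ℂ) (ι.symm x), e, hback φ.2, ?_, ?_⟩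
    · rw [hresL]; funext x; exact congrFun hclif (ι.symm x)
    have hvan : ∀ x : K, x ∉ N → ϑ x = 0 := by
      intro x hx
      rw [← hMN, hM] at hx
      push Not at hx
      obtain ⟨l, hl, hlx⟩ := hx
      have h := congrFun hl.2 x
      by_contra h0
      exact hlx (Units.ext (by simpa using (mul_eq_right₀ h0).mp h))
    have h := classInner_irr_self hϑ
    rw [classInner, inv_mul_eq_iff_eq_mul₀ (card_ne_zero_complex K), mul_one,
      ← Finset.sum_filter_of_ne (p := fun x : K => x ∈ N) (fun x _ h => by
        by_contra hx; exact h (by rw [hvan x hx, zero_mul]))] at h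
    have h2 : ∑ x ∈ Finset.univ.filter (fun x : K => x ∈ N), ϑ x * conj (ϑ x) =
        (e : ℂ) ^ 2 * (Nat.card N : ℂ) := by
      have h3 : classInner (fun n : N => ϑ n) (fun n : N => ϑ n) = (e : ℂ) ^ 2 := by
        rw [hclif, classInner_smul_left, classInner_smul_right, classInner_irr_self φ.2,
          map_natCast]
        ring
      rw [classInner, inv_mul_eq_iff_eq_mul₀ (card_ne_zero_complex N)] at h3
      rw [mul_comm, ← h3]
      exact (Finset.sum_subtype _ (fun x => by simp) fun x : K => ϑ x * conj (ϑ x))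
    rw [h2, ← N.card_mul_index, Nat.cast_mul, mul_comm] at h
    exact_mod_cast mul_left_cancel₀ (card_ne_zero_complex N) h
  · -- the twists are distinct
    left
    let A := {l : K →* ℂˣ // N ≤ l.ker}
    have hcard : Nat.card A = N.index := by
      let Φ : ((K ⧸ N) →* ℂˣ) ≃ A :=
        { toFun := fun l => ⟨l.comp (QuotientGroup.mk' N), fun n hn => by
            show l (n : K ⧸ N) = 1
            rw [(QuotientGroup.eq_one_iff n).mpr hn, map_one]⟩
          invFun := fun l => QuotientGroup.lift N l.1 l.2
          left_inv := fun l => QuotientGroup.monoidHom_ext _ (by ext x; rfl)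
          right_inv := fun l => Subtype.ext (by ext x; rfl) }
      rw [← Nat.card_congr Φ, Nat.card_congr (linearEquiv (K ⧸ N)), card_linear]
      have hb : commutator (K ⧸ N) = ⊥ := by
        rw [commutator_eq_bot_iff]
        refine ⟨⟨fun a b => ?_⟩⟩
        induction a using QuotientGroup.induction_on with | H a => ?_
        induction b using QuotientGroup.induction_on with | H b => ?_
        rw [← QuotientGroup.mk_mul, ← QuotientGroup.mk_mul, QuotientGroup.eq]
        have := hcom b⁻¹ a⁻¹
        simpa [mul_assoc] using this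
      rw [hb, Subgroup.index_bot, Subgroup.index_eq_card]
    have : Finite A := Nat.finite_of_card_ne_zero (by
      rw [hcard]; exact Subgroup.index_ne_zero_of_finite)
    have := Fintype.ofFinite A
    let u : A → K → ℂ := fun l x => (l.1 x : ℂ) * ϑ x
    have huirr : ∀ l, IsIrrCharacter K (u l) := fun l => isIrrCharacter_linear_mul hϑ l.1
    have huinj : Function.Injective u := by
      intro l l' h
      have hstab : l'.1 / l.1 ∈ stab := by
        refine ⟨fun n hn => ?_, funext fun x => ?_⟩
        · rw [MonoidHom.mem_ker, MonoidHom.div_apply, MonoidHom.mem_ker.mp (l'.2 hn),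
            MonoidHom.mem_ker.mp (l.2 hn), div_one]
        · have hx := congrFun h x
          simp only [u] at hx
          rw [MonoidHom.div_apply, Units.val_div_eq_div_val, div_mul_eq_mul_div, ← hx,
            mul_div_cancel_left₀ _ (Units.ne_zero _)]
      refine Subtype.ext (MonoidHom.ext fun x => ?_)
      have h1 := (hM x).mp (hMtop ▸ Subgroup.mem_top x) _ hstab
      rw [MonoidHom.div_apply, div_eq_one] at h1
      exact h1.symm
    have huind : ∀ l, classInner (indFun N (φ : N → ℂ)) (u l) = (e : ℂ) := fun l => by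
      have h1 : (fun n : N => u l n) = fun n : N => ϑ n := funext fun n => by
        simp only [u, MonoidHom.mem_ker.mp (l.2 n.2), Units.val_one, one_mul]
      rw [classInner_indFun N _ (isClassFunction_of_isIrr (huirr l)), h1, classInner_conj_symm, he,
        map_natCast]
    have horth : ∀ l ∈ (Finset.univ : Finset A), ∀ l' ∈ (Finset.univ : Finset A), l ≠ l' →
        classInner (u l) (u l') = 0 := fun l _ l' _ h =>
      classInner_irr_ne (huirr l) (huirr l') fun hh => h (huinj hh)
    have hnn := Dade.classInner_self_re_nonneg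
      (indFun N (φ : N → ℂ) - ∑ l : A, ((e : ℕ) : ℂ) • u l)
    rw [Dade.classInner_remainder Finset.univ u (fun _ => (e : ℂ)) _ horth (fun l _ => by
        rw [huind, classInner_irr_self (huirr l), mul_one]),
      CharClifford.classInner_indFun_self_invariant N φ.2 hφinv,
      Finset.sum_congr rfl (g := fun _ => ((e * e : ℕ) : ℂ)) (fun l _ => by
        rw [classInner_irr_self (huirr l), map_natCast, mul_one, Nat.cast_mul]),
      Finset.sum_const, Finset.card_univ, ← Nat.card_eq_fintype_card, hcard, nsmul_eq_mul,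
      ← Nat.cast_mul, Complex.sub_re, Complex.natCast_re, Complex.natCast_re, sub_nonneg,
      Nat.cast_le] at hnn
    have he1 : e = 1 := by
      have hpos : 0 < N.index := Nat.pos_of_ne_zero Subgroup.index_ne_zero_of_finite
      have h2 : e * e ≤ 1 := Nat.le_of_mul_le_mul_left (by rwa [mul_one]) hpos
      nlinarith [Nat.pos_of_ne_zero he0]
    rw [hresL]
    convert hback φ.2 using 1
    funext x
    have := congrFun hclif (ι.symm x)
    rw [he1] at this
    simpa using this

end Cfsg.Agent.S0857
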