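import Cfsg.Statements.S0858
import Cfsg.Agent.S0857
import Cfsg.Agent.Lib.Char.Ito
import Mathlib.Tactic
-- import your own Cfsg.Agent.* helpers here

set_option autoImplicit false
open Cfsg
open scoped ComplexConjugate
open Cfsg.Agent.Lib Cfsg.Agent.Lib.Char

namespace Cfsg.Agent.S0858

/-- Let N be a normal subgroup of the finite group G with G / N solvable, and suppose that for every subgroup H containing N and all subgroups L < K between N and H that are normal in H with no subgroup normal in H strictly between them, the index of L in K is not a perfect square. Then every irreducible character χ of G is induced from an irreducible character ψ of some subgroup H containing N such that the restriction of ψ to N is irreducible. -/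
theorem result {G : Type*} [Group G] [Fintype G] (N : Subgroup G) [N.Normal] (hsolv : Group.IsSolvable (G ⧸ N)) (hchief : ∀ (H K L : Subgroup G), N ≤ L → L < K → K ≤ H → (∀ h ∈ H, ∀ k ∈ K, h * k * h⁻¹ ∈ K) → (∀ h ∈ H, ∀ l ∈ L, h * l * h⁻¹ ∈ L) → (∀ M : Subgroup G, L ≤ M → M ≤ K → (∀ h ∈ H, ∀ m ∈ M, h * m * h⁻¹ ∈ M) → M = L ∨ M = K) → ¬ IsSquare (L.relIndex K)) (χ : G → ℂ) (hχ : Cfsg.IsIrrCharacter G χ) : ∃ (H : Subgroup G) (hNH : N ≤ H) (ψ : H → ℂ), Cfsg.IsIrrCharacter H ψ ∧ Cfsg.indFun H ψ = χ ∧ Cfsg.IsIrrCharacter N (fun n : N => ψ ⟨(n : G), hNH n.2⟩) := by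
  classical
  suffices aux : ∀ (n : ℕ) (T : Subgroup G), Nat.card T = n → N ≤ T → ∀ χ : T → ℂ,
      IsIrrCharacter T χ → ∃ (H : Subgroup G) (hNH : N ≤ H) (ψ : H → ℂ), IsIrrCharacter H ψ ∧
        indFun H ψ = indFun T χ ∧ IsIrrCharacter N (fun n : N => ψ ⟨(n : G), hNH n.2⟩) by
    have h := isIrrCharacter_comp hχ (⊤ : Subgroup G).subtype fun g => ⟨⟨g, trivial⟩, rfl⟩
    obtain ⟨H, hNH, ψ, h1, h2, h3⟩ := aux _ ⊤ rfl le_top _ h
    refine ⟨H, hNH, ψ, h1, h2.trans ?_, h3⟩
    funext g
    have hc : ∀ x : G, extendByZero (⊤ : Subgroup G) (χ ∘ (⊤ : Subgroup G).subtype) (x⁻¹ * g * x) =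
        χ g := fun x => by
      rw [extendByZero_mem _ _ (Subgroup.mem_top _)]
      have := isClassFunction_of_isIrr hχ g x⁻¹
      simpa using this
    rw [indFun, Finset.sum_congr rfl fun x _ => hc x, Finset.sum_const, Finset.card_univ,
      ← Nat.card_eq_fintype_card, Subgroup.card_top, nsmul_eq_mul, ← mul_assoc,
      inv_mul_cancel₀ (card_ne_zero_complex G), one_mul]
  intro n
  induction n using Nat.strong_induction_on with
  | _ n ih =>
  intro T hn hNT χ hχ
  have := Fintype.ofFinite T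
  let P : Subgroup G → Prop := fun K => N ≤ K ∧ K ≤ T ∧
    (∀ h ∈ T, ∀ k ∈ K, h * k * h⁻¹ ∈ K) ∧
      IsIrrCharacter (K.subgroupOf T) (fun x : K.subgroupOf T => χ x)
  have hTT : P T := by
    refine ⟨hNT, le_rfl, fun h hh k hk => T.mul_mem (T.mul_mem hh hk) (T.inv_mem hh), ?_⟩
    exact isIrrCharacter_comp hχ (T.subgroupOf T).subtype fun g => ⟨⟨g, g.2⟩, rfl⟩
  obtain ⟨K, -, hKP, hKmin⟩ := Finite.exists_le_minimal (p := P) hTT
  obtain ⟨hNK, hKT, hKn, hKirr⟩ := hKP
  by_cases hKN : K = N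
  · subst hKN
    let ι : K.subgroupOf T ≃* K := Subgroup.subgroupOfEquivOfLe hKT
    exact ⟨T, hNT, χ, hχ, rfl, CharClifford.isIrrCharacter_comp_equiv ι.symm hKirr⟩
  -- the next term below `K`
  let R : Subgroup G → Prop := fun L => N ≤ L ∧ L < K ∧ ∀ h ∈ T, ∀ l ∈ L, h * l * h⁻¹ ∈ L
  have hNR : R N := ⟨le_rfl, lt_of_le_of_ne hNK (Ne.symm hKN),
    fun h _ l hl => (inferInstance : N.Normal).conj_mem l hl h⟩
  obtain ⟨L, -, hLP, hLmax⟩ := Finite.exists_le_maximal (p := R) hNR
  obtain ⟨hNL, hLK, hLn⟩ := hLP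
  have hchief' : ∀ M : Subgroup G, L ≤ M → M ≤ K → (∀ h ∈ T, ∀ m ∈ M, h * m * h⁻¹ ∈ M) →
      M = L ∨ M = K := by
    intro M hLM hMK hMn
    by_contra hc
    push Not at hc
    exact hc.1 (le_antisymm (hLmax ⟨hNL.trans hLM, lt_of_le_of_ne hMK hc.2, hMn⟩ hLM) hLM)
  have hab : ⁅K, K⁆ ≤ L := by
    set M := ⁅K, K⁆ ⊔ L with hM
    have hMK : M ≤ K := sup_le (Subgroup.commutator_le.mpr fun a ha b hb =>
      K.mul_mem (K.mul_mem (K.mul_mem ha hb) (K.inv_mem ha)) (K.inv_mem hb)) hLK.le
    have hMn : ∀ h ∈ T, ∀ m ∈ M, h * m * h⁻¹ ∈ M := by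
      intro h hh m hm
      have h1 : M.map (MulAut.conj h).toMonoidHom ≤ M := by
        rw [hM, Subgroup.map_sup, Subgroup.map_commutator]
        refine sup_le_sup (Subgroup.commutator_mono ?_ ?_) ?_ <;> rintro _ ⟨x, hx, rfl⟩
        · exact hKn h hh x hx
        · exact hKn h hh x hx
        · exact hLn h hh x hx
      exact h1 ⟨m, hm, rfl⟩
    rcases hchief' M le_sup_right hMK hMn with h | h
    · exact h ▸ le_sup_left
    exfalso
    set L' := L.subgroupOf K with hL'
    have : L'.Normal := ⟨fun x hx k => hLn k (hKT k.2) x hx⟩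
    have hs1 : Group.IsSolvable (K ⧸ N.subgroupOf K) := by
      have := hsolv
      refine Group.isSolvable_of_isSolvable_injective
        (f := QuotientGroup.map (N.subgroupOf K) N K.subtype (fun x hx => hx)) ?_
      rw [← MonoidHom.ker_eq_bot_iff, eq_bot_iff]
      intro q hq
      induction q using QuotientGroup.induction_on with | H q => ?_
      rw [MonoidHom.mem_ker] at hq
      replace hq : ((K.subtype q : G) : G ⧸ N) = 1 := hq
      rw [QuotientGroup.eq_one_iff] at hq
      exact Subgroup.mem_bot.mpr ((QuotientGroup.eq_one_iff q).mpr hq)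
    have hs2 : Group.IsSolvable (K ⧸ L') := Group.isSolvable_of_surjective
      (f := QuotientGroup.map (N.subgroupOf K) L' (MonoidHom.id K) (fun x hx => hNL hx))
      (fun q => by obtain ⟨g, rfl⟩ := QuotientGroup.mk_surjective q; exact ⟨g, rfl⟩)
    obtain ⟨k, hkK, hkL⟩ := SetLike.exists_of_lt hLK
    have : Nontrivial (K ⧸ L') :=
      ⟨⟨(⟨k, hkK⟩ : K), 1, fun h => hkL ((QuotientGroup.eq_one_iff (N := L') (⟨k, hkK⟩ : K)).mp h)⟩⟩
    refine (Group.IsSolvable.commutator_lt_top_of_nontrivial (K ⧸ L')).ne ?_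
    have hsup : commutator K ⊔ L' = ⊤ := by
      refine Subgroup.map_injective K.subtype_injective ?_
      rw [Subgroup.map_sup, Subgroup.map_subtype_commutator, hL',
        Subgroup.map_subgroupOf_eq_of_le hLK.le, ← hM, h, ← MonoidHom.range_eq_map,
        K.range_subtype]
    have h2 := congrArg (Subgroup.map (QuotientGroup.mk' L')) hsup
    rwa [Subgroup.map_sup, QuotientGroup.map_mk'_self, sup_bot_eq, commutator_def,
      Subgroup.map_commutator, Subgroup.map_top_of_surjective _ (QuotientGroup.mk'_surjective L'),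
      ← commutator_def] at h2
  set K' := K.subgroupOf T with hK'
  set L' := L.subgroupOf T with hL'
  have : K'.Normal := ⟨fun x hx t => hKn t t.2 x hx⟩
  have : L'.Normal := ⟨fun x hx t => hLn t t.2 x hx⟩
  have := Fintype.ofFinite L'
  have hlt : L' < K' := by
    refine lt_of_le_of_ne (fun x hx => hLK.le hx) fun h => hLK.ne ?_
    rw [← Subgroup.map_subgroupOf_eq_of_le (hLK.le.trans hKT), ← hL', h, hK',
      Subgroup.map_subgroupOf_eq_of_le hKT]
  have hchiefT : ∀ M : Subgroup T, M.Normal → L' ≤ M → M ≤ K' → M = L' ∨ M = K' := by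
    intro M hMn hLM hMK
    rcases hchief' (M.map T.subtype)
      (fun l hl => ⟨⟨l, hKT (hLK.le hl)⟩, hLM hl, rfl⟩)
      (fun x ⟨y, hy, e⟩ => e ▸ hMK hy)
      (fun h hh m ⟨y, hy, e⟩ => ⟨⟨h, hh⟩ * y * ⟨h, hh⟩⁻¹, hMn.conj_mem y hy _, by rw [← e]; rfl⟩)
      with h | h
    · exact Or.inl (by rw [hL', ← h]; exact (Subgroup.comap_map_eq_self_of_injective T.subtype_injective M).symm)
    · exact Or.inr (by rw [hK', ← h]; exact (Subgroup.comap_map_eq_self_of_injective T.subtype_injective M).symm)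
  have habT : ⁅K', K'⁆ ≤ L' := Subgroup.commutator_le.mpr fun a ha b hb =>
    hab (Subgroup.commutator_mem_commutator ha hb)
  have hrel : L'.relIndex K' = L.relIndex K := Subgroup.relIndex_subgroupOf hKT
  rcases S0857.result K' L' hlt hchiefT habT (fun x : K' => χ x) hKirr
    (fun g x => isClassFunction_of_isIrr hχ x g) with hirr | ⟨φ, e, hφ, -, he⟩ | ⟨F, hF, hFc, hFs⟩
  · exact absurd (hKmin ⟨hNL, hLK.le.trans hKT, hLn, hirr⟩ hLK.le) hLK.not_ge
  · exact absurd ⟨e, by rw [← hrel, ← he, sq]⟩ (hchief T K L hNL hLK hKT hKn hLn hchief')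
  · have h2 : 1 < F.card := by
      rw [hFc, hrel]
      have h0 : L.relIndex K ≠ 0 := Subgroup.index_ne_zero_of_finite
      have h1 : L.relIndex K ≠ 1 := fun h => hLK.not_ge (Subgroup.relIndex_eq_one.mp h)
      omega
    obtain ⟨φ, hφ, φ', hφ', hne⟩ := Finset.one_lt_card.mp h2
    have hin : ∀ f ∈ F, classInner (fun x : L' => χ x) f = 1 := by
      intro f hf
      rw [show (fun x : L' => χ x) = ∑ φ ∈ F, φ from hFs, classInner_sum_left,
        Finset.sum_eq_single f (fun g hg hgf => classInner_irr_ne (hF g hg) (hF f hf) hgf)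
          (fun h => absurd hf h), classInner_irr_self (hF f hf)]
    have hne0 : classInner (fun x : L' => χ x) φ ≠ 0 := by rw [hin φ hφ]; exact one_ne_zero
    set U := inertia L' φ with hU
    obtain ⟨ψ, hψ, hind, -⟩ := exists_clifford_correspondent L' hχ (hF φ hφ) hne0
    have hUT : U ≠ ⊤ := by
      intro htop
      obtain ⟨g, hg⟩ := conjugate_of_constituents L' hχ (hF φ hφ) (hF φ' hφ') hne0
        (by rw [hin φ' hφ']; exact one_ne_zero)
      have : g ∈ U := htop ▸ Subgroup.mem_top g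
      exact hne ((show conjChar L' g φ = φ from this).symm.trans hg)
    set U' := U.map T.subtype with hU'
    let ι := U.equivMapOfInjective T.subtype T.subtype_injective
    have hcard : Nat.card U' < n := by
      rw [← hn, hU', Subgroup.card_map_of_injective T.subtype_injective]
      exact lt_of_le_of_ne (Nat.le_of_dvd Nat.card_pos (Subgroup.card_subgroup_dvd_card U))
        fun h => hUT (Subgroup.eq_top_of_card_eq U h)
    have hNU : N ≤ U' := fun x hx =>
      ⟨⟨x, hNT hx⟩, le_inertia L' (isClassFunction_of_isIrr (hF φ hφ)) (hNL hx), rfl⟩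
    obtain ⟨H, hNH, ξ, h1, h2', h3⟩ := ih _ hcard U' rfl hNU (fun x => ψ (ι.symm x))
      (CharClifford.isIrrCharacter_comp_equiv ι.symm hψ)
    refine ⟨H, hNH, ξ, h1, h2'.trans ?_, h3⟩
    have := Fintype.ofFinite U
    conv_rhs => rw [← hind, indFun_trans T U]

end Cfsg.Agent.S0858
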