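import Cfsg.Statements.S0859
import Cfsg.Agent.Lib.CharClifford.CoreMaximal
import Cfsg.Agent.Lib.Char.Monomial
import Mathlib.Tactic
-- import your own Cfsg.Agent.* helpers here

set_option autoImplicit false
open Cfsg
open scoped ComplexConjugate commutatorElement
open Cfsg.Agent.Lib Cfsg.Agent.Lib.Char

namespace Cfsg.Agent.S0859

universe u

/-- A character on the whole group is induced from the whole group. -/
theorem indFun_top_eq {G : Type u} [Group G] [Fintype G] {χ : G → ℂ} (hχ : IsClassFunction G χ) :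
    indFun (⊤ : Subgroup G) (fun x => χ (x : G)) = χ := by
  funext g
  have hc : ∀ x : G, extendByZero (⊤ : Subgroup G) (fun x => χ (x : G)) (x⁻¹ * g * x) = χ g :=
    fun x => by
      rw [extendByZero_mem _ _ (Subgroup.mem_top _)]
      have := hχ g x⁻¹
      simpa using this
  rw [indFun, Finset.sum_congr rfl fun x _ => hc x, Finset.sum_const, Finset.card_univ,
    ← Nat.card_eq_fintype_card, Subgroup.card_top, nsmul_eq_mul, ← mul_assoc,
    inv_mul_cancel₀ (card_ne_zero_complex G), one_mul]

/-- A character inducing to an irreducible character is irreducible. -/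
theorem irr_of_indFun_irr {G : Type u} [Group G] [Fintype G] (H : Subgroup G) {ξ : H → ℂ}
    (hξ : IsCharacter H ξ) (h : IsIrrCharacter G (indFun H ξ)) : IsIrrCharacter H ξ := by
  classical
  have := Fintype.ofFinite H
  obtain ⟨a, ha⟩ := isCharacter_eq_sum hξ
  choose b hb using fun μ : IrrCharacter H =>
    classInner_natCast (isCharacter_indFun H (isCharacter_of_isIrr μ.2)) (isCharacter_of_isIrr h)
  have hlin : ∀ s : Finset (IrrCharacter H), indFun H (∑ μ ∈ s, (a μ : ℂ) • (μ : H → ℂ)) =
      ∑ μ ∈ s, (a μ : ℂ) • indFun H (μ : H → ℂ) := fun s => by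
    induction s using Finset.induction with
    | empty => simp [indFun_zero]
    | insert μ s hμ ih => rw [Finset.sum_insert hμ, Finset.sum_insert hμ, indFun_add, indFun_smul, ih]
  have hsum : ∑ μ : IrrCharacter H, a μ * b μ = 1 := by
    have h1 : classInner (indFun H ξ) (indFun H ξ) = 1 := classInner_irr_self h
    conv_lhs at h1 => arg 1; rw [ha, hlin]
    rw [classInner_sum_left, Finset.sum_congr rfl (g := fun μ => ((a μ * b μ : ℕ) : ℂ)) fun μ _ => by
      rw [classInner_smul_left, hb, Nat.cast_mul], ← Nat.cast_sum] at h1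
    exact_mod_cast h1
  have hb0 : ∀ μ : IrrCharacter H, a μ ≠ 0 → 0 < b μ := by
    intro μ hμ
    refine Nat.pos_of_ne_zero fun h0 => ?_
    have h1 := hb μ
    rw [h0, Nat.cast_zero, classInner_indFun H _ (isClassFunction_of_isIrr h), classInner_conj_symm,
      map_eq_zero] at h1
    obtain ⟨c, hc⟩ := isCharacter_eq_sum (isCharacter_restrict (isCharacter_of_isIrr h) H)
    have hcμ : c μ = 0 := by
      rw [hc, classInner_sum_left, Finset.sum_eq_single μ
        (fun ν _ hν => by rw [classInner_smul_left, classInner_irrCharacter, if_neg hν, mul_zero])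
        (fun hh => absurd (Finset.mem_univ μ) hh), classInner_smul_left, classInner_irr_self μ.2,
        mul_one] at h1
      exact_mod_cast h1
    -- `μ` occurs in the restriction of its induced character
    obtain ⟨ν, hν⟩ := exists_constituent (isCharacter_indFun H (isCharacter_of_isIrr μ.2))
      (fun h0 => irr_degree_ne_zero μ.2 (by
        have h2 := congrFun h0 1
        rw [indFun_one] at h2
        exact (mul_eq_zero.mp h2).resolve_left
          (Nat.cast_ne_zero.mpr Subgroup.index_ne_zero_of_finite)))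
    by_cases hνξ : (ν : G → ℂ) = indFun H ξ
    · rw [hνξ, hb μ, h0, Nat.cast_zero] at hν
      exact hν rfl
    · -- other constituents cannot occur
      obtain ⟨m, hm⟩ := classInner_natCast (isCharacter_indFun H (isCharacter_of_isIrr μ.2))
        (isCharacter_of_isIrr ν.2)
      have hz : classInner (indFun H ξ) (ν : G → ℂ) = 0 :=
        classInner_irr_ne h ν.2 fun e => hνξ e.symm
      rw [ha, hlin, classInner_sum_left] at hz
      choose d hd using fun μ' : IrrCharacter H =>
        classInner_natCast (isCharacter_indFun H (isCharacter_of_isIrr μ'.2)) (isCharacter_of_isIrr ν.2)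
      rw [Finset.sum_congr rfl (g := fun μ' => ((a μ' * d μ' : ℕ) : ℂ)) fun μ' _ => by
        rw [classInner_smul_left, hd, Nat.cast_mul], ← Nat.cast_sum, Nat.cast_eq_zero,
        Finset.sum_eq_zero_iff] at hz
      exact hν (by rw [hd μ, (mul_eq_zero.mp (hz μ (Finset.mem_univ _))).resolve_left hμ, Nat.cast_zero])
  obtain ⟨μ, -, hμ⟩ := Finset.exists_ne_zero_of_sum_ne_zero (hsum ▸ one_ne_zero :
    ∑ μ : IrrCharacter H, a μ * b μ ≠ 0)
  have hle : a μ * b μ ≤ 1 :=
    hsum ▸ Finset.single_le_sum (f := fun μ => a μ * b μ) (fun _ _ => Nat.zero_le _) (Finset.mem_univ μ)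
  have ha1 : a μ = 1 := by
    have h1 : a μ ≠ 0 := fun h => hμ (by rw [h, zero_mul])
    have h2 : a μ * 1 ≤ a μ * b μ := Nat.mul_le_mul_left _ (hb0 μ h1)
    omega
  have hrest : ∀ ν, ν ≠ μ → a ν = 0 := by
    intro ν hν
    by_contra h0
    have h3 : a μ * b μ + a ν * b ν ≤ 1 := by
      rw [← hsum, ← Finset.sum_pair (f := fun μ => a μ * b μ) hν.symm]
      exact Finset.sum_le_sum_of_subset (Finset.subset_univ _)
    have h4 : 0 < a μ * b μ := Nat.pos_of_ne_zero hμ
    have h5 : 0 < a ν * b ν := Nat.mul_pos (Nat.pos_of_ne_zero h0) (hb0 ν h0)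
    omega
  rw [ha, Finset.sum_eq_single μ (fun ν _ hν => by simp [hrest ν hν])
    (fun hh => absurd (Finset.mem_univ μ) hh), ha1, Nat.cast_one, one_smul]
  exact μ.2

/-- An irreducible character of a solvable group with irreducible restriction to a normal subgroup
with abelian Sylow subgroups is monomial. -/
theorem aux : ∀ (n : ℕ) (G : Type u) [Group G] [Fintype G] [Group.IsSolvable G],
    Nat.card G = n → ∀ (N : Subgroup G) [N.Normal],
    (∀ (p : ℕ), p.Prime → ∀ Q : Subgroup G, Q ≤ N → IsPGroup p Q →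
      ∀ a ∈ Q, ∀ b ∈ Q, a * b = b * a) →
    ∀ χ : G → ℂ, IsIrrCharacter G χ → IsIrrCharacter N (fun x : N => χ x) →
      ∃ (U : Subgroup G) (lam : U → ℂ), IsCharacter U lam ∧ lam 1 = 1 ∧ indFun U lam = χ := by
  intro n
  induction n using Nat.strong_induction_on with
  | _ n ih =>
  intro G _ _ _ hn N _ hab χ hχ hχN
  classical
  by_cases h1 : χ 1 = 1
  · exact ⟨⊤, fun x => χ (x : G), isCharacter_restrict (isCharacter_of_isIrr hχ) ⊤, h1,
      indFun_top_eq (isClassFunction_of_isIrr hχ)⟩
  obtain ⟨d, ρ, hirr, rfl⟩ := hχ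
  haveI := hirr
  have hχ' : IsIrrCharacter G ρ.character := ⟨d, ρ, hirr, rfl⟩
  have := Fintype.ofFinite N
  let R : G →* Module.End ℂ (Fin d → ℂ) := ρ
  set Z := N ⊓ (Subgroup.center (G ⧸ R.ker)).comap (QuotientGroup.mk' R.ker) with hZ
  have hZcomm : ∀ x : G, x ∈ (Subgroup.center (G ⧸ R.ker)).comap (QuotientGroup.mk' R.ker) ↔
      ∀ g, ρ x * ρ g = ρ g * ρ x := by
    intro x
    rw [Subgroup.mem_comap, Subgroup.mem_center_iff, QuotientGroup.forall_mk]
    refine forall_congr' fun g => ?_
    rw [QuotientGroup.mk'_apply, ← QuotientGroup.mk_mul, ← QuotientGroup.mk_mul, QuotientGroup.eq]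
    show R ((g * x)⁻¹ * (x * g)) = 1 ↔ R x * R g = R g * R x
    rw [← map_mul, ← map_mul]
    constructor
    · intro h
      calc R (x * g) = R (g * x) * R ((g * x)⁻¹ * (x * g)) := by rw [← map_mul, mul_inv_cancel_left]
        _ = R (g * x) := by rw [h, mul_one]
    · intro h
      rw [map_mul R (g * x)⁻¹, h, ← map_mul, inv_mul_cancel, map_one]
  by_cases hNZ : N ≤ Z
  · exfalso
    have hnorm : ∀ x : N, ρ.character x * conj (ρ.character x) = (d : ℂ) ^ 2 := by
      intro x
      obtain ⟨c, hc⟩ := exists_scalar_of_commute_all ρ ((hZcomm x).mp (hNZ x.2).2)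
      have h := norm_character_of_eq_smul ρ _ hc
      rw [Module.finrank_fintype_fun_eq_card, Fintype.card_fin] at h
      rw [Complex.mul_conj, Complex.normSq_eq_norm_sq, h]
      push_cast
      ring
    have h := classInner_irr_self hχN
    rw [classInner, Finset.sum_congr rfl fun x _ => hnorm x, Finset.sum_const, Finset.card_univ,
      ← Nat.card_eq_fintype_card, nsmul_eq_mul, inv_mul_cancel_left₀ (card_ne_zero_complex N)] at h
    have hd : d = 1 := by
      have : d ^ 2 = 1 := by exact_mod_cast h
      exact (Nat.pow_eq_one.mp this).resolve_right two_ne_zero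
    refine h1 ?_
    rw [Representation.char_one, Module.finrank_fintype_fun_eq_card, Fintype.card_fin, hd,
      Nat.cast_one]
  obtain ⟨M, hMle, ⟨hMn, hZM, hMZ⟩, hMmin⟩ := Finite.exists_le_minimal
    (p := fun M : Subgroup G => M.Normal ∧ Z ≤ M ∧ ¬ M ≤ Z) (a := N) ⟨inferInstance, inf_le_left, hNZ⟩
  have := Fintype.ofFinite M
  have hMM : ⁅M, M⁆ ≤ Z := by
    by_contra hc
    have hle : ⁅M, M⁆ ⊔ Z ≤ M := sup_le (Subgroup.commutator_le.mpr fun a ha b hb =>
      M.mul_mem (M.mul_mem (M.mul_mem ha hb) (M.inv_mem ha)) (M.inv_mem hb)) hZM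
    have hge := hMmin ⟨inferInstance, le_sup_right, fun h => hc (le_sup_left.trans h)⟩ hle
    let π := QuotientGroup.mk' Z
    have hb : M.map π ≠ ⊥ := by
      rw [Ne, Subgroup.map_eq_bot_iff, QuotientGroup.ker_mk']; exact hMZ
    refine (Hall.commutator_lt_of_solvable hb).ne ?_
    have h := congrArg (Subgroup.map π) (le_antisymm hle hge)
    rwa [Subgroup.map_sup, QuotientGroup.map_mk'_self, sup_bot_eq, Subgroup.map_commutator] at h
  have hcommM : ∀ a ∈ M, ∀ b ∈ M, ρ a * ρ b = ρ b * ρ a := by
    let f : M →* G ⧸ R.ker := (QuotientGroup.mk' R.ker).comp M.subtype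
    have hsurj : Function.Surjective f.rangeRestrict := f.rangeRestrict_surjective
    have hc : ∀ a b : f.range, ⁅a, b⁆ ∈ Subgroup.center f.range := by
      intro a b
      obtain ⟨x, rfl⟩ := hsurj a
      obtain ⟨y, rfl⟩ := hsurj b
      rw [Subgroup.mem_center_iff]
      intro c
      apply Subtype.ext
      have h := (hMM (Subgroup.commutator_mem_commutator x.2 y.2)).2
      replace h := Subgroup.mem_comap.mp h
      rw [Subgroup.mem_center_iff] at h
      have h' := h (c : G ⧸ R.ker)
      simp only [map_commutatorElement] at h'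
      exact h'
    have : Group.IsNilpotent f.range := by
      have hab' : ∀ a b : f.range ⧸ Subgroup.center f.range, a * b = b * a := by
        intro a b
        induction a using QuotientGroup.induction_on with | H a => ?_
        induction b using QuotientGroup.induction_on with | H b => ?_
        rw [← QuotientGroup.mk_mul, ← QuotientGroup.mk_mul, QuotientGroup.eq]
        have := hc b⁻¹ a⁻¹
        rw [commutatorElement_def] at this
        simpa [mul_assoc] using this
      letI : CommGroup (f.range ⧸ Subgroup.center f.range) :=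
        { (inferInstance : Group (f.range ⧸ Subgroup.center f.range)) with mul_comm := hab' }
      exact Group.of_quotient_center_nilpotent (inferInstance : Group.IsNilpotent (f.range ⧸ Subgroup.center f.range))
    obtain ⟨e⟩ := ((Group.isNilpotent_of_finite_tfae (G := f.range)).out 0 4 rfl rfl).mp this
    have hcomm : ∀ a b : f.range, a * b = b * a := by
      intro a b
      apply e.symm.injective
      rw [map_mul, map_mul]
      funext p P
      haveI : Fact (p : ℕ).Prime := ⟨Nat.prime_of_mem_primeFactors p.2⟩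
      show (e.symm a p P) * (e.symm b p P) = (e.symm b p P) * (e.symm a p P)
      obtain ⟨P₀, hP₀⟩ := Sylow.mapSurjective_surjective hsurj (p : ℕ) P
      have hP₀' : (P₀ : Subgroup M).map f.rangeRestrict = (P : Subgroup f.range) :=
        congrArg (fun S : Sylow (p : ℕ) f.range => (S : Subgroup f.range)) hP₀
      have key : ∀ u ∈ (P : Subgroup f.range), ∀ v ∈ (P : Subgroup f.range), u * v = v * u := by
        intro u hu v hv
        rw [← hP₀'] at hu hv
        obtain ⟨u, hu, rfl⟩ := hu
        obtain ⟨v, hv, rfl⟩ := hv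
        have h := hab p (Fact.out) ((P₀ : Subgroup M).map M.subtype)
          ((Subgroup.map_subtype_le _).trans hMle) (P₀.2.map M.subtype) _ ⟨u, hu, rfl⟩ _ ⟨v, hv, rfl⟩
        rw [← map_mul, ← map_mul, show u * v = v * u from Subtype.ext h]
      exact Subtype.ext (key _ (e.symm a p P).2 _ (e.symm b p P).2)
    intro a ha b hb
    have h : f (⟨a, ha⟩ * ⟨b, hb⟩) = f (⟨b, hb⟩ * ⟨a, ha⟩) := by
      rw [map_mul, map_mul]
      exact congrArg Subtype.val (hcomm (f.rangeRestrict ⟨a, ha⟩) (f.rangeRestrict ⟨b, hb⟩))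
    have h' := QuotientGroup.eq.mp h
    rw [MonoidHom.mem_ker] at h'
    show R a * R b = R b * R a
    rw [← map_mul, ← map_mul]
    calc R (a * b) = R (a * b) * R ((a * b)⁻¹ * (b * a)) := by
          rw [show R ((a * b)⁻¹ * (b * a)) = 1 from h', mul_one]
      _ = R (b * a) := by rw [← map_mul, mul_inv_cancel_left]
  obtain ⟨θ, hθ⟩ := exists_constituent (isCharacter_restrict (isCharacter_of_isIrr hχ') M)
    (fun h => irr_degree_ne_zero hχ' (congrFun h 1))
  have hT : inertia M (θ : M → ℂ) ≠ ⊤ := fun htop => hMZ fun a ha =>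
    ⟨hMle ha, (hZcomm a).mpr (commute_all_of_inertia_top ρ M θ hθ htop ha
      fun x hx => hcommM a ha x hx)⟩
  set T := inertia M (θ : M → ℂ) with hTdef
  obtain ⟨ξ, hξ, hind, -⟩ := exists_clifford_correspondent M hχ' θ.2 hθ
  -- `N` meets every coset of `T`
  have hsup : N ⊔ T = ⊤ := by
    rw [eq_top_iff]
    intro g _
    set M' := M.subgroupOf N with hM'
    have : M'.Normal := ⟨fun x hx y => hMn.conj_mem _ hx _⟩
    have := Fintype.ofFinite M'
    let ι : M' ≃* M := Subgroup.subgroupOfEquivOfLe hMle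
    have hin : ∀ f : M → ℂ, classInner (fun x : M' => ρ.character ((x : N) : G)) (fun x => f (ι x)) =
        classInner (fun x : M => ρ.character x) f := fun f => by
      simp only [classInner, Nat.card_congr ι.toEquiv]
      congr 1
      exact Fintype.sum_equiv ι.toEquiv _ _ fun x => rfl
    have hθg : classInner (fun x : M => ρ.character x) (conjChar M g (θ : M → ℂ)) ≠ 0 := by
      rw [← conjChar_restrict M (isClassFunction_of_isIrr hχ') g, classInner_conjChar]
      exact hθ
    obtain ⟨k, hk⟩ := conjugate_of_constituents M' hχN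
      (CharClifford.isIrrCharacter_comp_equiv ι θ.2)
      (CharClifford.isIrrCharacter_comp_equiv ι (isIrrCharacter_conjChar M g θ.2))
      ((hin _).trans_ne hθ) ((hin _).trans_ne hθg)
    have hgk : g * (k : G)⁻¹ ∈ T := by
      show conjChar M (g * (k : G)⁻¹) (θ : M → ℂ) = θ
      have h2 : conjChar M g (θ : M → ℂ) = conjChar M (k : G) (θ : M → ℂ) := funext fun x => by
        obtain ⟨x, rfl⟩ := ι.surjective x
        exact (congrFun hk x).symm
      rw [conjChar_mul, h2, ← conjChar_mul, mul_inv_cancel, conjChar_one]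
    have := (N ⊔ T).mul_mem (Subgroup.mem_sup_right hgk) (Subgroup.mem_sup_left k.2)
    simpa using this
  have := Fintype.ofFinite T
  set T' := T.subgroupOf N with hT'
  have := Fintype.ofFinite T'
  have hres : (fun x : N => ρ.character x) = indFun T' (fun x => ξ ⟨((x : N) : G), x.2⟩) := by
    funext x
    conv_lhs => rw [← hind]
    exact CharClifford.indFun_restrict_of_sup T N hsup (isClassFunction_of_isIrr hξ) x
  have hξ' : IsIrrCharacter T' (fun x => ξ ⟨((x : N) : G), x.2⟩) := by
    refine irr_of_indFun_irr T' ?_ (hres ▸ hχN)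
    exact isCharacter_comp (isCharacter_of_isIrr hξ)
      ({ toFun := fun x => ⟨((x : N) : G), x.2⟩, map_one' := rfl, map_mul' := fun _ _ => rfl } : T' →* T)
  set NT := N.subgroupOf T with hNT
  have : NT.Normal := ⟨fun x hx y => (inferInstance : N.Normal).conj_mem _ hx _⟩
  have hξN : IsIrrCharacter NT (fun x : NT => ξ x) :=
    CharClifford.isIrrCharacter_comp_equiv
      ({ toFun := fun x => ⟨⟨((x : T) : G), x.2⟩, (x : T).2⟩
         invFun := fun x => ⟨⟨((x : N) : G), x.2⟩, (x : N).2⟩
         left_inv := fun _ => rfl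
         right_inv := fun _ => rfl
         map_mul' := fun _ _ => rfl } : NT ≃* T') hξ'
  have hlt : Nat.card T < n := by
    rw [← hn]
    exact lt_of_le_of_ne (Subgroup.card_le_card_group T) fun h => hT (Subgroup.eq_top_of_card_eq T h)
  obtain ⟨U, lam, hlam, hlam1, hU⟩ := ih _ hlt T rfl NT
    (fun p hp Q hQ hQp a ha b hb => by
      have h := hab p hp (Q.map T.subtype) (fun x ⟨y, hy, e⟩ => e ▸ hQ hy) (hQp.map T.subtype)
        _ ⟨a, ha, rfl⟩ _ ⟨b, hb, rfl⟩
      exact Subtype.ext h) ξ hξ hξN
  have := Fintype.ofFinite U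
  refine ⟨U.map T.subtype, fun x => lam ((U.equivMapOfInjective T.subtype T.subtype_injective).symm x),
    isCharacter_comp hlam (U.equivMapOfInjective T.subtype T.subtype_injective).symm.toMonoidHom,
    by simp [hlam1], ?_⟩
  rw [← hind, ← hU, indFun_trans T U]

/-- Let G be a finite solvable group and N a normal subgroup such that for every prime p every Sylow p-subgroup of N is abelian. Suppose every irreducible character of G is induced from an irreducible character of some subgroup containing N whose restriction to N is irreducible. Then every irreducible character of G is induced from a character of degree 1 of some subgroup. -/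
theorem result {G : Type*} [Group G] [Fintype G] [Group.IsSolvable G] (N : Subgroup G) [N.Normal] (hab : ∀ (p : ℕ) [Fact p.Prime] (P : Sylow p N), ∀ a ∈ P, ∀ b ∈ P, a * b = b * a) (hrel : ∀ χ : G → ℂ, Cfsg.IsIrrCharacter G χ → ∃ (H : Subgroup G) (hNH : N ≤ H) (ψ : H → ℂ), Cfsg.IsIrrCharacter H ψ ∧ Cfsg.indFun H ψ = χ ∧ Cfsg.IsIrrCharacter N (fun n : N => ψ ⟨(n : G), hNH n.2⟩)) (χ : G → ℂ) (hχ : Cfsg.IsIrrCharacter G χ) : ∃ (U : Subgroup G) (lam : U → ℂ), Cfsg.IsCharacter U lam ∧ lam 1 = 1 ∧ Cfsg.indFun U lam = χ := by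
  classical
  obtain ⟨H, hNH, ψ, hψ, hind, hψN⟩ := hrel χ hχ
  have := Fintype.ofFinite H
  set N' := N.subgroupOf H with hN'
  have : N'.Normal := ⟨fun x hx y => (inferInstance : N.Normal).conj_mem _ hx _⟩
  obtain ⟨U, lam, hlam, hlam1, hU⟩ := aux _ H rfl N' (fun p hp Q hQ hQp a ha b hb => by
      haveI : Fact p.Prime := ⟨hp⟩
      have hQN : Q.map H.subtype ≤ N := fun x ⟨y, hy, e⟩ => e ▸ hQ hy
      obtain ⟨P, hP⟩ := (((hQp.map H.subtype).comap_of_injective N.subtype
        N.subtype_injective)).exists_le_sylow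
      have h := hab p P ⟨(a : G), hQN ⟨a, ha, rfl⟩⟩ (hP ⟨a, ha, rfl⟩) ⟨(b : G), hQN ⟨b, hb, rfl⟩⟩
        (hP ⟨b, hb, rfl⟩)
      have h2 : (a : G) * b = b * a := congrArg Subtype.val h
      exact Subtype.ext h2) ψ hψ
    (CharClifford.isIrrCharacter_comp_equiv (Subgroup.subgroupOfEquivOfLe hNH) hψN)
  have := Fintype.ofFinite U
  refine ⟨U.map H.subtype, fun x => lam ((U.equivMapOfInjective H.subtype H.subtype_injective).symm x),
    isCharacter_comp hlam (U.equivMapOfInjective H.subtype H.subtype_injective).symm.toMonoidHom,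
    by simp [hlam1], ?_⟩
  rw [← hind, ← hU, indFun_trans H U]

end Cfsg.Agent.S0859
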