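import Cfsg.Statements.S0860
import Cfsg.Agent.Lib.Char.BrauerPerm

set_option autoImplicit false
open scoped ComplexConjugate
open Cfsg

namespace Cfsg.Agent.S0860

open Cfsg.Agent.Lib.Char


theorem result {G : Type*} [Group G] [Finite G] {A : Type*} [Group A] [MulAction A (Cfsg.IrrCharacter G)] [MulAction A (ConjClasses G)] (hcompat : ∀ (a : A) (χ : Cfsg.IrrCharacter G) (g g' : G), ConjClasses.mk g' = a • ConjClasses.mk g → ((a • χ : Cfsg.IrrCharacter G) : G → ℂ) g' = (χ : G → ℂ) g) (a : A) : Nat.card {χ : Cfsg.IrrCharacter G // a • χ = χ} = Nat.card {C : ConjClasses G // a • C = C} := by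
  classical
  haveI := Fintype.ofFinite G
  let τ : G → G := fun g => (a⁻¹ • ConjClasses.mk g).out
  have hτ : ∀ g, ConjClasses.mk (τ g) = a⁻¹ • ConjClasses.mk g := fun g => Quotient.out_eq _
  have hcomp : ∀ χ : Cfsg.IrrCharacter G, ((a • χ : Cfsg.IrrCharacter G) : G → ℂ) = (χ : G → ℂ) ∘ τ :=
    fun χ => funext fun g => hcompat a χ (τ g) g (by rw [hτ, smul_inv_smul])
  have h := card_fixed_irr_eq_card_fixed_classes τ (fun x y hxy => by
      rw [← ConjClasses.mk_eq_mk_iff_isConj, hτ, hτ, ConjClasses.mk_eq_mk_iff_isConj.mpr hxy])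
    (fun χ => by rw [← hcomp χ]; exact (a • χ).2)
  refine ((Nat.card_congr (Equiv.subtypeEquivRight fun χ => ?_)).trans h).trans
    (Nat.card_congr (Equiv.subtypeEquivRight fun C => ?_))
  · rw [← hcomp χ, Subtype.ext_iff]
  · induction C using Quotient.inductionOn with
    | _ x =>
      have e1 : (Quotient.mk _ x : ConjClasses G) = ConjClasses.mk x := rfl
      rw [e1]
      constructor
      · intro hC
        have h2 := ConjClasses.mk_eq_mk_iff_isConj.mpr (hC x rfl)
        rw [hτ, inv_smul_eq_iff] at h2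
        exact h2.symm
      · intro hC g hg
        rw [← ConjClasses.mk_eq_mk_iff_isConj, hτ, hg, inv_smul_eq_iff, hC]

end Cfsg.Agent.S0860
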