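import Cfsg.Statements.S0861
import Cfsg.Agent.Lib.CharNonvanishing
import Cfsg.Agent.Lib.CharGalois
import Cfsg.Agent.Lib.Char.Kernel
import Cfsg.Agent.Lib.Char.Linear
import Cfsg.Agent.Lib.Char.Degree
import Cfsg.Agent.Lib.Char.Integral
import Mathlib.GroupTheory.Sylow
import Mathlib.GroupTheory.Commutator.Basic
import Mathlib.Tactic

set_option autoImplicit false
open scoped ComplexConjugate
open Cfsg

namespace Cfsg.Agent.S0861

open Cfsg.Agent.Lib.Char Cfsg.Agent.Lib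

theorem result {G : Type*} [Group G] [Finite G] (p : ℕ) [Fact p.Prime] (P : Sylow p G) [(P : Subgroup G).Normal] (hab : ∀ a ∈ P, ∀ b ∈ P, a * b = b * a) (g : G) (hg : g ∈ P) (hC : Subgroup.centralizer ({g} : Set G) = P) : Nat.card (Cfsg.IrrCharacter G) ≤ Nat.card P ∧ (Nat.card (Cfsg.IrrCharacter G) = Nat.card P → commutator G ≤ P) := by
  classical
  have := Fintype.ofFinite G
  have hind : (Subgroup.centralizer ({g} : Set G)).index = (P : Subgroup G).index := by rw [hC]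
  have hne : ∀ χ : IrrCharacter G, (χ : G → ℂ) g ≠ 0 := fun χ =>
    CharNonvanishing.apply_ne_zero (Fact.out : p.Prime) (P : Subgroup G) P.2 hab χ.2 hg
      (by rw [hind]; exact P.not_dvd_index)
  have hcol : ∑ χ : IrrCharacter G, Complex.normSq ((χ : G → ℂ) g) = (Nat.card P : ℝ) := by
    apply Complex.ofReal_injective
    push_cast
    simp only [← Complex.mul_conj]
    rw [sum_irr_mul_conj, if_pos (IsConj.refl g), card_conjClass_eq_index, hind,
      ← (P : Subgroup G).card_mul_index, Nat.cast_mul, mul_div_assoc, div_self, mul_one]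
    exact Nat.cast_ne_zero.mpr Subgroup.FiniteIndex.index_ne_zero
  set T : Finset (IrrCharacter G) := Finset.univ.filter fun χ =>
    ¬ ∀ x ∈ (P : Subgroup G), (χ : G → ℂ) x = (χ : G → ℂ) 1 with hT
  have hTσ : ∀ χ ∈ T, ∀ σ : ℂ ≃+* ℂ, CharGalois.autIrr σ χ ∈ T := by
    intro χ hχ σ
    rw [hT, Finset.mem_filter] at hχ ⊢
    exact ⟨Finset.mem_univ _, fun h => hχ.2 fun x hx => σ.injective (by simpa using h x hx)⟩
  have h1 := CharGalois.card_le_sum_normSq_irr g T (fun χ _ => hne χ) hTσ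
  have hdeg : ∀ χ ∈ Tᶜ, Complex.normSq ((χ : G → ℂ) g) = (charDegree (χ : G → ℂ) : ℝ) ^ 2 := by
    intro χ hχ
    have h2 : ∀ x ∈ (P : Subgroup G), (χ : G → ℂ) x = (χ : G → ℂ) 1 := by simpa [hT] using hχ
    rw [h2 g hg, apply_one_eq_charDegree (isCharacter_of_isIrr χ.2), Complex.normSq_natCast, sq]
  have h2 : (Tᶜ.card : ℝ) ≤ ∑ χ ∈ Tᶜ, Complex.normSq ((χ : G → ℂ) g) := by
    rw [Finset.card_eq_sum_ones, Nat.cast_sum]
    refine Finset.sum_le_sum fun χ hχ => ?_
    rw [hdeg χ hχ, Nat.cast_one]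
    exact one_le_pow₀ (by exact_mod_cast charDegree_pos χ.2)
  have hsplit := Finset.sum_add_sum_compl T fun χ : IrrCharacter G => Complex.normSq ((χ : G → ℂ) g)
  have hcards : (T.card : ℝ) + Tᶜ.card = Nat.card (IrrCharacter G) := by
    rw [Nat.card_eq_fintype_card, ← Finset.card_add_card_compl T]; push_cast; rfl
  refine ⟨?_, fun heq => ?_⟩
  · have : (Nat.card (IrrCharacter G) : ℝ) ≤ (Nat.card P : ℝ) := by linarith
    exact_mod_cast this
  have heq' : (Nat.card (IrrCharacter G) : ℝ) = (Nat.card P : ℝ) := by exact_mod_cast heq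
  have hlin : ∀ χ ∈ Tᶜ, (χ : G → ℂ) 1 = 1 := by
    intro χ hχ
    have hs : ∑ χ ∈ Tᶜ, (Complex.normSq ((χ : G → ℂ) g) - 1) ≤ 0 := by
      rw [Finset.sum_sub_distrib, Finset.sum_const, nsmul_eq_mul, mul_one]
      linarith
    have hnn : ∀ ψ ∈ Tᶜ, 0 ≤ Complex.normSq ((ψ : G → ℂ) g) - 1 := fun ψ hψ => by
      rw [hdeg ψ hψ, sub_nonneg]; exact one_le_pow₀ (by exact_mod_cast charDegree_pos ψ.2)
    have h3 := Finset.single_le_sum hnn hχ
    have h4 := hnn χ hχ
    have h5 : (charDegree (χ : G → ℂ) : ℝ) ^ 2 = 1 := by rw [← hdeg χ hχ]; linarith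
    have h6 : charDegree (χ : G → ℂ) ^ 2 = 1 := by exact_mod_cast h5
    rw [← charDegree_eq_one_iff χ.2]
    exact (pow_eq_one_iff_of_nonneg (Nat.zero_le _) two_ne_zero).mp h6
  intro c hc
  rw [← QuotientGroup.eq_one_iff (N := (P : Subgroup G)), ← isConj_one_left, isConj_iff_forall_irr]
  intro ψ
  have hirr : IsIrrCharacter G (fun x => (ψ : G ⧸ (P : Subgroup G) → ℂ) (QuotientGroup.mk' _ x)) :=
    isIrrCharacter_comp ψ.2 _ (QuotientGroup.mk'_surjective _)
  set χ : IrrCharacter G := ⟨_, hirr⟩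
  have hχT : χ ∈ Tᶜ := by
    simp only [hT, Finset.mem_compl, Finset.mem_filter, Finset.mem_univ, true_and, not_not]
    intro x hx
    show (ψ : G ⧸ (P : Subgroup G) → ℂ) _ = (ψ : G ⧸ (P : Subgroup G) → ℂ) _
    rw [QuotientGroup.mk'_apply, QuotientGroup.mk'_apply, (QuotientGroup.eq_one_iff x).mpr hx]
    rfl
  obtain ⟨l, hl⟩ := exists_hom_of_degree_one (isCharacter_of_isIrr hirr) (hlin χ hχT)
  have hlc : l c = 1 := MonoidHom.mem_ker.mp (Abelianization.commutator_subset_ker l hc)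
  show (ψ : G ⧸ (P : Subgroup G) → ℂ) (QuotientGroup.mk' _ c) = _
  have e : (fun x => (ψ : G ⧸ (P : Subgroup G) → ℂ) (QuotientGroup.mk' _ x)) c =
      (fun x => (ψ : G ⧸ (P : Subgroup G) → ℂ) (QuotientGroup.mk' _ x)) 1 :=
    (hl c).trans ((congrArg Units.val (hlc.trans l.map_one.symm)).trans (hl 1).symm)
  simpa using e

end Cfsg.Agent.S0861
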