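import Cfsg.Statements.S0862
import Cfsg.Agent.Lib.CharClifford.Extend

set_option autoImplicit false
open Cfsg

namespace Cfsg.Agent.S0862

open Cfsg.Agent.Lib.CharClifford Cfsg.Agent.Lib.Char

theorem result {G : Type*} [Group G] [Finite G] (N : Subgroup G) [N.Normal] (ϑ : N → ℂ) (hϑ : Cfsg.IsIrrCharacter N ϑ) (d : ℕ) (hd : ϑ 1 = d) (hcop : Nat.Coprime N.index d) (hext : ∃ η : G → ℂ, Cfsg.IsIrrCharacter G η ∧ (∀ n : N, η n = ϑ n)) (μ : G → ℂ) (hμ : Cfsg.IsCharacter G μ ∧ μ 1 = 1) (hμN : ∀ n : N, μ n = Cfsg.detChar ϑ n) : ∃! χ : G → ℂ, Cfsg.IsIrrCharacter G χ ∧ (∀ n : N, χ n = ϑ n) ∧ Cfsg.detChar χ = μ := by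
  obtain ⟨l, hl⟩ := exists_hom_of_linear hμ.1 hμ.2
  rw [show μ = fun g => (l g : ℂ) from funext hl]
  exact existsUnique_extension_det hϑ d hd hcop hext l (fun n => by rw [← hl]; exact hμN n)

end Cfsg.Agent.S0862
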