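import Cfsg.Statements.S0866
import Cfsg.Agent.Lib.CharClifford.Extend

set_option autoImplicit false
open Cfsg

namespace Cfsg.Agent.S0866

open Cfsg.Agent.Lib.CharClifford Cfsg.Agent.Lib.Char

theorem result {G : Type*} [Group G] [Finite G] (N : Subgroup G) [hN : N.Normal] (ϑ : N → ℂ) (hϑ : Cfsg.IsIrrCharacter N ϑ) (hinv : ∀ (g : G) (n : N), ϑ ⟨g * n * g⁻¹, hN.conj_mem (n : G) n.2 g⟩ = ϑ n) (d : ℕ) (hd : ϑ 1 = d) (hcop : Nat.Coprime N.index d) : (∃ χ : G → ℂ, Cfsg.IsIrrCharacter G χ ∧ (∀ n : N, χ n = ϑ n)) ↔ ∃ μ : G → ℂ, Cfsg.IsCharacter G μ ∧ μ 1 = 1 ∧ ∀ n : N, μ n = Cfsg.detChar ϑ n := by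
  constructor
  · rintro ⟨χ, hχ, hres⟩
    obtain ⟨_, σ, _, _, _, hdet⟩ := exists_detHom hχ
    refine ⟨fun g => (detHom σ g : ℂ), isCharacter_of_hom _, by simp, fun n => ?_⟩
    rw [← detChar_restrict hχ hϑ hres n, hdet]
  · rintro ⟨μ, hμ, hμ1, hres⟩
    obtain ⟨l, hl⟩ := exists_hom_of_linear hμ hμ1
    exact extends_of_det hϑ (fun g => funext fun n => hinv g n) d hd hcop l
      (fun n => by rw [← hl]; exact hres n)

end Cfsg.Agent.S0866
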