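import Cfsg.Statements.S0863
import Cfsg.Agent.S0866

set_option autoImplicit false
open Cfsg

namespace Cfsg.Agent.S0863

theorem result {G : Type*} [Group G] [Finite G] (N : Subgroup G) [hN : N.Normal] (hsolv : Group.IsSolvable (G ⧸ N)) (ϑ : N → ℂ) (hϑ : Cfsg.IsIrrCharacter N ϑ) (hinv : ∀ (g : G) (n : N), ϑ ⟨g * n * g⁻¹, hN.conj_mem (n : G) n.2 g⟩ = ϑ n) (d : ℕ) (hd : ϑ 1 = d) (hcop : Nat.Coprime N.index d) : (∃ χ : G → ℂ, Cfsg.IsIrrCharacter G χ ∧ (∀ n : N, χ n = ϑ n)) ↔ ∃ μ : G → ℂ, Cfsg.IsCharacter G μ ∧ μ 1 = 1 ∧ ∀ n : N, μ n = Cfsg.detChar ϑ n := by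
  exact Cfsg.Agent.S0866.result N ϑ hϑ hinv d hd hcop

end Cfsg.Agent.S0863
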