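import Cfsg.Statements.S0864
import Cfsg.Agent.Lib.CharClifford.Linear

set_option autoImplicit false
open Cfsg

namespace Cfsg.Agent.S0864

open Cfsg.Agent.Lib.CharClifford

theorem result {G : Type*} [Group G] [Finite G] (N : Subgroup G) [hN : N.Normal] (lam : N → ℂ) (hlam : Cfsg.IsCharacter N lam ∧ lam 1 = 1) (hinv : ∀ (g : G) (n : N), lam ⟨g * n * g⁻¹, hN.conj_mem (n : G) n.2 g⟩ = lam n) (hsyl : ∀ p : ℕ, p.Prime → p ∣ orderOf lam → ∃ (H : Subgroup G) (hNH : N ≤ H) (ν : H → ℂ), Nat.Coprime H.index p ∧ (∃ k : ℕ, N.relIndex H = p ^ k) ∧ Cfsg.IsCharacter H ν ∧ ν 1 = 1 ∧ ∀ n : N, ν ⟨(n : G), hNH n.2⟩ = lam n) : ∃ μ : G → ℂ, Cfsg.IsCharacter G μ ∧ μ 1 = 1 ∧ ∀ n : N, μ n = lam n := by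
  obtain ⟨φ, hφ⟩ := exists_hom_of_linear hlam.1 hlam.2
  have hlam' : lam = fun g => (φ g : ℂ) := funext hφ
  obtain ⟨μ, hμ⟩ := exists_extension_of_local φ (fun g n => Units.ext (by rw [← hφ, ← hφ]; exact hinv g n))
    (fun p hp hpd => by
      obtain ⟨H, hNH, ν, hcop, -, hν, hν1, hνN⟩ := hsyl p hp (by rw [hlam', orderOf_hom_eq]; exact hpd)
      obtain ⟨ψ, hψ⟩ := exists_hom_of_linear hν hν1
      exact ⟨H, hNH, ψ, hcop, fun n => Units.ext (by rw [← hψ, ← hφ]; exact hνN n)⟩)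
  refine ⟨fun g => (μ g : ℂ), isCharacter_of_hom μ, by simp, fun n => ?_⟩
  rw [hφ, ← hμ]

end Cfsg.Agent.S0864
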