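import Cfsg.Statements.S0865
import Cfsg.Agent.Lib.CharClifford.Linear

set_option autoImplicit false
open Cfsg

namespace Cfsg.Agent.S0865

open Cfsg.Agent.Lib.CharClifford

theorem result {G : Type*} [Group G] [Finite G] (N : Subgroup G) [hN : N.Normal] (lam : N → ℂ) (hlam : Cfsg.IsCharacter N lam ∧ lam 1 = 1) (hinv : ∀ (g : G) (n : N), lam ⟨g * n * g⁻¹, hN.conj_mem (n : G) n.2 g⟩ = lam n) (hcop : Nat.Coprime N.index (orderOf lam)) : ∃ μ : G → ℂ, (Cfsg.IsCharacter G μ ∧ μ 1 = 1 ∧ (∀ n : N, μ n = lam n) ∧ orderOf μ = orderOf lam) ∧ ∀ μ' : G → ℂ, Cfsg.IsCharacter G μ' ∧ μ' 1 = 1 → (∀ n : N, μ' n = lam n) → Nat.Coprime N.index (orderOf μ') → μ' = μ := by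
  obtain ⟨φ, hφ⟩ := exists_hom_of_linear hlam.1 hlam.2
  obtain rfl : lam = fun g => (φ g : ℂ) := funext hφ
  rw [orderOf_hom_eq] at hcop
  obtain ⟨μ, hres, hord, huniq⟩ :=
    exists_extension_coprime φ (fun g n => Units.ext (hinv g n)) hcop
  refine ⟨fun g => (μ g : ℂ), ⟨isCharacter_of_hom μ, by simp, fun n => by simp [hres n],
    by rw [orderOf_hom_eq, orderOf_hom_eq, hord]⟩, ?_⟩
  rintro μ' ⟨hμ', hμ'1⟩ hres' hc'
  obtain ⟨ψ, hψ⟩ := exists_hom_of_linear hμ' hμ'1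
  obtain rfl : μ' = fun g => (ψ g : ℂ) := funext hψ
  rw [orderOf_hom_eq] at hc'
  rw [huniq ψ (fun n => Units.ext (hres' n)) hc']

end Cfsg.Agent.S0865
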