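import Cfsg.Statements.S0868
import Cfsg.Agent.Lib.CharClifford.Gallagher
import Cfsg.Agent.Lib.Char.Degree
import Cfsg.Agent.Lib.Char.Kernel
import Cfsg.Agent.Lib.CharAux
import Mathlib.Tactic

set_option autoImplicit false
open scoped ComplexConjugate
open Cfsg

namespace Cfsg.Agent.S0868

open Cfsg.Agent.Lib.Char Cfsg.Agent.Lib.CharAux

variable {G : Type*} [Group G] [Fintype G] (N : Subgroup G) [N.Normal] [Fintype N]

theorem avg_left {f : G → ℂ} (hf : IsClassFunction G f) (g : G) :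
    (Nat.card N : ℂ)⁻¹ * ∑ n : N, f ((n : G) * g) = cosetAvg N f (g : G ⧸ N) := by
  rw [cosetAvg_apply_mk]
  congr 1
  refine Finset.sum_congr rfl fun n _ => ?_
  simpa [mul_assoc] using (hf ((n : G) * g) g).symm

theorem cosetAvg_one_eq {f : G → ℂ} :
    cosetAvg N f 1 = (Nat.card N : ℂ)⁻¹ * ∑ n : N, f n := by
  rw [← QuotientGroup.mk_one, cosetAvg_apply_mk]
  simp

/-- An extension of an irreducible character of `N` has mean square one on every coset. -/
theorem norm_coset {χ : G → ℂ} (hχ : IsCharacter G χ) (hχN : IsIrrCharacter N (fun n : N => χ n))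
    (g : G) : (Nat.card N : ℂ)⁻¹ * ∑ n : N, χ ((n : G) * g) * conj (χ ((n : G) * g)) = 1 := by
  have hc := isCharacter_mul hχ (isCharacter_conj hχ)
  have hq := isCharacter_cosetAvg N hc
  have h1 : cosetAvg N (χ * fun x => conj (χ x)) 1 = 1 := by
    rw [cosetAvg_one_eq]
    exact classInner_irr_self hχN
  obtain ⟨l, hl⟩ := exists_hom_of_degree_one hq h1
  have h2 := avg_left N (isClassFunction_of_isCharacter hc) g
  simp only [Pi.mul_apply] at h2
  rw [h2, hl]
  set z : ℂ := (l (g : G ⧸ N) : ℂ) with hz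
  have hn : ‖z‖ = 1 := by
    refine norm_eq_one_of_pow_orderOf (g := (g : G ⧸ N)) ?_
    rw [hz, ← Units.val_pow_eq_pow_val, ← map_pow, pow_orderOf_eq_one, map_one, Units.val_one]
  have hpos : ∃ r : ℝ, 0 ≤ r ∧ z = (r : ℂ) := by
    refine ⟨(Nat.card N : ℝ)⁻¹ * ∑ n : N, Complex.normSq (χ ((n : G) * g)), ?_, ?_⟩
    · exact mul_nonneg (by positivity) (Finset.sum_nonneg fun n _ => Complex.normSq_nonneg _)
    · rw [hz, ← hl, ← h2]
      push_cast
      simp [Complex.mul_conj]
  obtain ⟨r, hr, e⟩ := hpos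
  rw [e, Complex.norm_real, Real.norm_of_nonneg hr] at hn
  rw [e, hn, Complex.ofReal_one]

theorem result {G : Type*} [Group G] [Fintype G] (N : Subgroup G) [N.Normal] [Fintype N] (χ : G → ℂ) (hχ : Cfsg.IsIrrCharacter G χ) (hχN : Cfsg.IsIrrCharacter N (fun n : N => χ n)) (ψ : G → ℂ) (hψ : Cfsg.IsIrrCharacter G ψ) (η : G → ℂ) (hη : η = fun g => (Nat.card N : ℂ)⁻¹ * ∑ n : N, ψ ((n : G) * g) * conj (χ ((n : G) * g))) : (Cfsg.classInner (fun n : N => ψ n) (fun n : N => χ n) ≠ 0 → Cfsg.IsIrrCharacter G η) ∧ (Cfsg.classInner (fun n : N => ψ n) (fun n : N => χ n) = 0 → η = 0) ∧ (ψ = χ → η = fun _ => 1) := by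
  classical
  have hχc := isCharacter_of_isIrr hχ
  have hψc := isCharacter_of_isIrr hψ
  refine ⟨fun h => ?_, fun h => ?_, fun h => ?_⟩
  · obtain ⟨β, hβ, hβN, he⟩ := Lib.CharClifford.gallagher_exists N hχN hχc (fun _ => rfl) hψ h
    suffices η = β by rw [this]; exact hβ
    funext g
    rw [hη]
    simp only [he, Pi.mul_apply,
      fun n : N => (char_mul_of_eq_one (isCharacter_of_isIrr hβ) (hβN n) g).1, mul_assoc]
    rw [← Finset.mul_sum, mul_left_comm, norm_coset N hχc hχN g, mul_one]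
  · have hc := isCharacter_mul hψc (isCharacter_conj hχc)
    have hq := isCharacter_cosetAvg N hc
    have h0 : cosetAvg N (ψ * fun x => conj (χ x)) = 0 := by
      refine eq_zero_of_charDegree_eq_zero hq (charDegree_eq_of_apply_one ?_)
      rw [cosetAvg_one_eq, Nat.cast_zero]
      exact h
    funext g
    rw [hη]
    have h1 := (avg_left N (isClassFunction_of_isCharacter hc) g).trans (congrFun h0 (g : G ⧸ N))
    simpa only [Pi.mul_apply, Pi.zero_apply] using h1
  · rw [hη, h]
    funext g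
    exact norm_coset N hχc hχN g

end Cfsg.Agent.S0868
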