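import Cfsg.Statements.S0869
import Cfsg.Agent.Lib.PermChar.Ring
import Mathlib.RingTheory.Int.Basic

set_option autoImplicit false
open Cfsg

namespace Cfsg.Agent.S0869

theorem result {S : Type*} [Finite S] [Nonempty S] (R : AddSubgroup (S → ℤ)) (hmul : ∀ f ∈ R, ∀ g ∈ R, f * g ∈ R) (h1 : (1 : S → ℤ) ∉ R) : ∃ (x : S) (p : ℕ), p.Prime ∧ ∀ f ∈ R, (p : ℤ) ∣ f x := by
  classical
  haveI := Fintype.ofFinite S
  by_contra hcon
  push Not at hcon
  let c : ℤ →+ (S → ℤ) :=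
    { toFun := fun m _ => m, map_zero' := rfl, map_add' := fun _ _ => rfl }
  obtain ⟨a, ha⟩ := Int.subgroup_cyclic (R.comap c)
  have hall : ∀ p : ℕ, p.Prime → ¬ (p : ℤ) ∣ a := by
    intro p hp hpa
    obtain ⟨m, hm, hmem⟩ := Cfsg.Agent.Lib.PermChar.exists_const_not_dvd R hmul p hp (fun x => by
      obtain ⟨f, hf, hfx⟩ := hcon x p hp
      exact ⟨f, hf, f x, rfl, hfx⟩)
    have : m ∈ R.comap c := hmem
    rw [ha, AddSubgroup.mem_closure_singleton] at this
    obtain ⟨k, rfl⟩ := this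
    exact hm (hpa.trans (dvd_mul_left a k))
  have ha1 : a.natAbs = 1 := by
    by_contra hne
    obtain ⟨p, hp, hpd⟩ := Nat.exists_prime_and_dvd hne
    exact hall p hp (Int.natCast_dvd.mpr hpd)
  apply h1
  have : (1 : ℤ) ∈ R.comap c := by
    rw [ha, AddSubgroup.mem_closure_singleton]
    rcases Int.natAbs_eq a with h | h <;> rw [ha1] at h
    · exact ⟨1, by simp [h]⟩
    · exact ⟨-1, by simp [h]⟩
  exact this

end Cfsg.Agent.S0869
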