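import Cfsg.Statements.S0870
import Cfsg.Agent.Lib.PermChar.Basic

set_option autoImplicit false
open Cfsg

namespace Cfsg.Agent.S0870

open Cfsg.Agent.Lib.PermChar

theorem result {G : Type*} [Group G] [Fintype G] (H K : Subgroup G) : ∃ a : Subgroup G → ℕ, (∀ U, a U ≠ 0 → U ≤ H) ∧ Cfsg.indFun H (fun _ => 1) * Cfsg.indFun K (fun _ => 1) = ∑ U : Subgroup G, (a U : ℂ) • Cfsg.indFun U (fun _ => 1) := by
  obtain ⟨a, ha, hsum⟩ := fixNum_mul H K
  refine ⟨a, ha, funext fun g => ?_⟩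
  simp only [Pi.mul_apply, Finset.sum_apply, Pi.smul_apply, smul_eq_mul, indFun_one_apply]
  exact_mod_cast hsum g

end Cfsg.Agent.S0870
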