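import Cfsg.Statements.S0872
import Cfsg.Agent.Lib.PermChar.Basic
import Cfsg.Agent.Lib.PermChar.Ring

set_option autoImplicit false
open Cfsg

namespace Cfsg.Agent.S0872

open Cfsg.Agent.Lib.PermChar

theorem result {G : Type*} [Group G] [Fintype G] (p : ℕ) (hp : p.Prime) : ∃ (m : ℤ) (a : Subgroup G → ℤ), ¬ (p : ℤ) ∣ m ∧ (∀ H, a H ≠ 0 → (∃ C : Subgroup G, C ≤ H ∧ H ≤ Subgroup.normalizer (C : Set G) ∧ IsCyclic C ∧ Nat.Coprime (Nat.card C) p ∧ ∃ k : ℕ, C.relIndex H = p ^ k)) ∧ (fun _ : G => (m : ℂ)) = ∑ H : Subgroup G, (a H : ℂ) • Cfsg.indFun H (fun _ => 1) := by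
  classical
  let f : Subgroup G → G → ℂ := fun H g => (fixNum H g : ℂ)
  let R : AddSubgroup (G → ℂ) :=
    { carrier := {F | ∃ a : Subgroup G → ℤ, (∀ H, a H ≠ 0 → IsQuasiElementary p H) ∧
        F = ∑ H, (a H : ℂ) • f H}
      zero_mem' := ⟨0, by simp, by simp⟩
      add_mem' := by
        rintro F F' ⟨a, ha, rfl⟩ ⟨b, hb, rfl⟩
        refine ⟨a + b, fun H h => ?_, ?_⟩
        · by_cases h1 : a H = 0
          · exact hb H (by simpa [h1] using h)
          · exact ha H h1
        · simp [Finset.sum_add_distrib, add_smul]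
      neg_mem' := by
        rintro F ⟨a, ha, rfl⟩
        exact ⟨-a, fun H h => ha H (by simpa using h), by simp⟩ }
  have hgen : ∀ H K, IsQuasiElementary p H → f H * f K ∈ R := by
    intro H K hH
    obtain ⟨a, ha, hsum⟩ := fixNum_mul H K
    refine ⟨fun U => (a U : ℤ), fun U h => hH.mono hp (ha U (by simpa using h)), funext fun g => ?_⟩
    have h := congrArg (Nat.cast (R := ℂ)) (hsum g)
    push_cast at h
    simpa [f, Finset.sum_apply] using h
  have hmul : ∀ F ∈ R, ∀ F' ∈ R, F * F' ∈ R := by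
    rintro F ⟨a, ha, rfl⟩ F' ⟨b, -, rfl⟩
    rw [Finset.sum_mul]
    refine sum_mem fun H _ => ?_
    by_cases h : a H = 0
    · simp [h]
    rw [Finset.mul_sum]
    refine sum_mem fun K _ => ?_
    have : (a H : ℂ) • f H * (b K : ℂ) • f K = (a H * b K) • (f H * f K) := by
      funext g; simp; ring
    rw [this]
    exact R.zsmul_mem (hgen H K (ha H h)) _
  obtain ⟨m, hm, a, ha, heq⟩ := exists_const_not_dvd R hmul p hp (fun x => by
    obtain ⟨H, hH, hn⟩ := exists_quasiElementary_fixNum x p hp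
    refine ⟨f H, ⟨Pi.single H 1, fun K hK => ?_, ?_⟩, (fixNum H x : ℤ), by simp [f], by exact_mod_cast hn⟩
    · by_contra hne
      exact hK (Pi.single_eq_of_ne (by rintro rfl; exact hne hH) _)
    · funext g
      simp [Finset.sum_apply, Pi.single_apply, apply_ite (fun t : ℤ => (t : ℂ)), ite_apply])
  refine ⟨m, a, hm, ha, heq.trans (Finset.sum_congr rfl fun H _ => ?_)⟩
  rw [show Cfsg.indFun H (fun _ => 1) = f H from funext fun g => indFun_one_apply H g]

end Cfsg.Agent.S0872
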