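import Cfsg.Statements.S0873
import Cfsg.Agent.Lib.CharClifford.Linear
import Mathlib.GroupTheory.PGroup

set_option autoImplicit false
open Cfsg

namespace Cfsg.Agent.S0873

theorem result {G : Type*} [Group G] [Finite G] (p : ℕ) [Fact p.Prime] (C P : Subgroup G) [hC : C.Normal] (hP : IsPGroup p P) (hcop : Nat.Coprime (Nat.card C) p) (hCP : C ⊔ P = ⊤) (lam : C → ℂ) (hlam : Cfsg.IsCharacter C lam ∧ lam 1 = 1) (hinv : ∀ (g : G) (c : C), lam ⟨g * c * g⁻¹, hC.conj_mem (c : G) c.2 g⟩ = lam c) (hker : ∀ c : C, (c : G) ∈ Subgroup.centralizer (P : Set G) → lam c = 1) : lam = fun _ => 1 := by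
  obtain ⟨φ, hφ⟩ := Cfsg.Agent.Lib.CharClifford.exists_hom_of_linear hlam.1 hlam.2
  funext c₀
  let X := {c : C // φ c = φ c₀}
  letI : SMul P X := ⟨fun u x =>
    ⟨⟨(u : G) * x.1 * (u : G)⁻¹, hC.conj_mem (x.1 : G) x.1.2 u⟩, by
      apply Units.ext
      rw [← hφ, hinv u x.1, hφ, x.2]⟩⟩
  have hsmul : ∀ (u : P) (x : X), (((u • x).1 : C) : G) = (u : G) * x.1 * (u : G)⁻¹ := fun _ _ => rfl
  letI : MulAction P X :=
    { one_smul := fun x => Subtype.ext (Subtype.ext (by rw [hsmul]; simp))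
      mul_smul := fun a b x => Subtype.ext (Subtype.ext (by rw [hsmul, hsmul, hsmul]; simp [mul_assoc])) }
  have hcard : Nat.card X = Nat.card φ.ker := by
    refine Nat.card_congr
      { toFun := fun x => ⟨x.1 * c₀⁻¹, by simp [MonoidHom.mem_ker, x.2]⟩
        invFun := fun k => ⟨k.1 * c₀, by rw [map_mul, MonoidHom.mem_ker.mp k.2, one_mul]⟩
        left_inv := fun x => by simp
        right_inv := fun k => by simp }
  have hnd : ¬ p ∣ Nat.card X := by
    rw [hcard]
    intro hd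
    exact ((Fact.out : p.Prime).coprime_iff_not_dvd.mp hcop.symm) (hd.trans (Subgroup.card_subgroup_dvd_card _))
  obtain ⟨x, hx⟩ := hP.nonempty_fixed_point_of_prime_not_dvd_card X hnd
  have hc : (x.1 : G) ∈ Subgroup.centralizer (P : Set G) := by
    rw [Subgroup.mem_centralizer_iff]
    intro u hu
    have := congrArg (fun y : X => ((y.1 : C) : G)) (hx ⟨u, hu⟩)
    simp only [hsmul] at this
    exact mul_inv_eq_iff_eq_mul.mp this
  rw [hφ, ← x.2, ← hφ]
  exact hker _ hc

end Cfsg.Agent.S0873
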