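import Cfsg.Statements.S0874
import Cfsg.Agent.Lib.CharClifford.Elementary
import Mathlib.Tactic

set_option autoImplicit false
open scoped ComplexConjugate
open Cfsg

namespace Cfsg.Agent.S0874

open Cfsg.Agent.Lib.Char Cfsg.Agent.Lib

universe u

variable {G : Type u} [Group G] [Fintype G]

/-- The integer span of the characters induced from `p`-elementary subgroups. -/
def localSpan (G : Type u) [Group G] [Fintype G] (p : ℕ) : AddSubgroup (G → ℂ) :=
  AddSubgroup.closure {f | ∃ (E : Subgroup G) (χ : E → ℂ),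
    IsElementary p E ∧ IsCharacter E χ ∧ f = indFun E χ}

theorem fixNum_mem {p : ℕ} (hp : p.Prime) {H : Subgroup G} (hH : PermChar.IsQuasiElementary p H) :
    (fun g => (PermChar.fixNum H g : ℂ)) ∈ localSpan G p := by
  classical
  obtain ⟨C, hCH, hHC, hCc, hCp, hk⟩ := hH
  let C' : Subgroup H := C.subgroupOf H
  have hC'n : C'.Normal := Subgroup.normal_subgroupOf_of_le_normalizer hHC
  have hC'c : IsCyclic C' := isCyclic_of_surjective (Subgroup.subgroupOfEquivOfLe hCH).symm
    (Subgroup.subgroupOfEquivOfLe hCH).symm.surjective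
  have hC'p : Nat.Coprime (Nat.card C') p := by
    rwa [Nat.card_congr (Subgroup.subgroupOfEquivOfLe hCH).toEquiv]
  obtain ⟨k, hk'⟩ := hk
  have h1 : (fun _ : H => (1 : ℂ)) ∈ brauerSpan H :=
    qe_span _ H rfl p hp C' hC'n hC'c hC'p ⟨k, hk'⟩ _ isIrrCharacter_one
  rw [← funext (PermChar.indFun_one_apply H)]
  generalize (fun _ : H => (1 : ℂ)) = f at h1 ⊢
  induction h1 using AddSubgroup.closure_induction with
  | mem f hf =>
    obtain ⟨E, l, q, hq, hE, rfl⟩ := hf
    refine AddSubgroup.subset_closure ⟨E.map H.subtype,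
      fun e => ((l.comp (E.equivMapOfInjective H.subtype H.subtype_injective).symm.toMonoidHom) e : ℂ),
      isElementary_of_equiv (E.equivMapOfInjective H.subtype H.subtype_injective) ?_,
      isCharacter_of_isIrr (isIrrCharacter_linear _), ?_⟩
    · refine CharClifford.isElementary_of_quasi hp hq hE (C'.subgroupOf E) ?_ ?_ ?_
      · exact isCyclic_of_injective
          ((E.subtype.comp (C'.subgroupOf E).subtype).codRestrict C' fun x => x.2)
          (fun a b h => by
            have := congrArg Subtype.val h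
            exact Subtype.ext (Subtype.ext this))
      · exact hC'p.coprime_dvd_left (Subgroup.card_dvd_of_injective
          ((E.subtype.comp (C'.subgroupOf E).subtype).codRestrict C' fun x => x.2)
          (fun a b h => by
            have := congrArg Subtype.val h
            exact Subtype.ext (Subtype.ext this)))
      · obtain ⟨j, -, hj⟩ := (Nat.dvd_prime_pow hp).mp
          ((show C'.index = p ^ k from hk') ▸ Subgroup.relIndex_dvd_index_of_normal (H := C') E)
        exact ⟨j, hj⟩
    · rw [indFun_trans H E]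
      rfl
  | zero => rw [indFun_zero]; exact AddSubgroup.zero_mem _
  | add a b _ _ ha hb => rw [indFun_add]; exact AddSubgroup.add_mem _ ha hb
  | neg a _ ha => rw [indFun_neg]; exact AddSubgroup.neg_mem _ ha

theorem result {G : Type*} [Group G] [Fintype G] (p : ℕ) (hp : p.Prime) : ∃ (m : ℤ) (l : List ((E : Subgroup G) × ((E → ℂ) × ℤ))), ¬ (p : ℤ) ∣ m ∧ (∀ t ∈ l, Cfsg.IsElementary p t.1 ∧ Cfsg.IsCharacter t.1 t.2.1) ∧ (fun _ : G => (m : ℂ)) = (l.map fun t => (t.2.2 : ℂ) • Cfsg.indFun t.1 t.2.1).sum := by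
  classical
  set R := AddSubgroup.closure {f : G → ℂ | ∃ H : Subgroup G,
      PermChar.IsQuasiElementary p H ∧ f = fun g => (PermChar.fixNum H g : ℂ)} with hR
  have hmul : ∀ f ∈ R, ∀ g ∈ R, f * g ∈ R := by
    intro f hf g hg
    induction hf using AddSubgroup.closure_induction with
    | mem f hf =>
      obtain ⟨H, hH, rfl⟩ := hf
      induction hg using AddSubgroup.closure_induction with
      | mem g hg =>
        obtain ⟨K, -, rfl⟩ := hg
        obtain ⟨a, ha, hmul'⟩ := PermChar.fixNum_mul H K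
        have he : ((fun g => (PermChar.fixNum H g : ℂ)) * fun g => (PermChar.fixNum K g : ℂ)) =
            ∑ V : Subgroup G, a V • fun g => (PermChar.fixNum V g : ℂ) := by
          funext x
          simp only [Pi.mul_apply, Finset.sum_apply, Pi.smul_apply]
          simp only [nsmul_eq_mul]
          exact_mod_cast hmul' x
        rw [he]
        refine R.sum_mem fun V _ => ?_
        by_cases hV : a V = 0
        · rw [hV, zero_smul]; exact R.zero_mem
        · exact R.nsmul_mem (AddSubgroup.subset_closure ⟨V, hH.mono hp (ha V hV), rfl⟩) _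
      | zero => rw [mul_zero]; exact R.zero_mem
      | add a b _ _ h1 h2 => rw [mul_add]; exact R.add_mem h1 h2
      | neg a _ h1 => rw [mul_neg]; exact R.neg_mem h1
    | zero => rw [zero_mul]; exact R.zero_mem
    | add a b _ _ h1 h2 => rw [add_mul]; exact R.add_mem h1 h2
    | neg a _ h1 => rw [neg_mul]; exact R.neg_mem h1
  obtain ⟨m, hm, hmem⟩ := PermChar.exists_const_not_dvd R hmul p hp fun x => by
    obtain ⟨H, hH, hx⟩ := PermChar.exists_quasiElementary_fixNum x p hp
    exact ⟨_, AddSubgroup.subset_closure ⟨H, hH, rfl⟩, (PermChar.fixNum H x : ℤ),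
      by simp, by exact_mod_cast hx⟩
  have hloc : (fun _ : G => (m : ℂ)) ∈ localSpan G p := by
    refine (AddSubgroup.closure_le _).mpr ?_ hmem
    rintro f ⟨H, hH, rfl⟩
    exact fixNum_mem hp hH
  refine ⟨m, ?_⟩
  suffices h : ∀ f ∈ localSpan G p, ∃ l : List ((E : Subgroup G) × ((E → ℂ) × ℤ)),
      (∀ t ∈ l, IsElementary p t.1 ∧ IsCharacter t.1 t.2.1) ∧
        f = (l.map fun t => (t.2.2 : ℂ) • indFun t.1 t.2.1).sum by
    obtain ⟨l, hl1, hl2⟩ := h _ hloc
    exact ⟨l, hm, hl1, hl2⟩
  intro f hf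
  induction hf using AddSubgroup.closure_induction with
  | mem f hf =>
    obtain ⟨E, χ, hE, hχ, rfl⟩ := hf
    exact ⟨[⟨E, χ, 1⟩], fun t ht => by rw [List.mem_singleton] at ht; subst ht; exact ⟨hE, hχ⟩,
      by simp⟩
  | zero => exact ⟨[], by simp, by simp⟩
  | add a b _ _ h1 h2 =>
    obtain ⟨l1, a1, rfl⟩ := h1
    obtain ⟨l2, a2, rfl⟩ := h2
    exact ⟨l1 ++ l2, fun t ht => (List.mem_append.mp ht).elim (a1 t) (a2 t), by simp⟩
  | neg a _ h1 =>
    obtain ⟨l1, a1, rfl⟩ := h1
    refine ⟨l1.map fun t => ⟨t.1, t.2.1, -t.2.2⟩, fun t ht => ?_, ?_⟩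
    · obtain ⟨s, hs, rfl⟩ := List.mem_map.mp ht
      exact a1 s hs
    · rw [List.map_map, List.sum_neg, List.map_map]
      congr 1
      refine List.map_congr_left fun t _ => ?_
      simp

end Cfsg.Agent.S0874
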