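import Cfsg.Statements.S0875
import Cfsg.Agent.Lib.CharClifford.Elementary
import Mathlib.RingTheory.IntegralDomain
import Mathlib.Tactic

set_option autoImplicit false
open scoped ComplexConjugate
open Cfsg

namespace Cfsg.Agent.S0875

open Cfsg.Agent.Lib.Char Cfsg.Agent.Lib

universe u

theorem exists_exponent {m n : ℕ} (hcop : m.Coprime n) :
    ∃ a : ℕ, a ≡ 1 [MOD n] ∧ a ≡ 0 [MOD m] := by
  obtain ⟨a, h0, h1⟩ := Nat.chineseRemainder hcop 0 1
  exact ⟨a, h1, h0⟩

/-- The `n`-part of an element lies in the given class exactly when it has such a decomposition. -/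
theorem decomp_iff {G : Type u} [Group G] [Fintype G] {m n a : ℕ} (hmn : Nat.card G = m * n)
    (hcop : m.Coprime n) (ha1 : a ≡ 1 [MOD n]) (ha0 : a ≡ 0 [MOD m]) {g : G}
    (hg : Nat.Coprime (orderOf g) m) (x : G) :
    (∃ v : G, IsConj v g ∧ (∃ u : G, x = u * v ∧ Commute u v ∧ Nat.Coprime (orderOf u) n ∧
      Nat.Coprime (orderOf v) m)) ↔ IsConj (x ^ a) g := by
  have hdvd : ∀ y : G, orderOf y ∣ m * n := fun y => hmn ▸ orderOf_dvd_natCard y
  constructor
  · rintro ⟨v, hv, u, rfl, hc, hu, hv'⟩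
    have h1 : u ^ a = 1 := orderOf_dvd_iff_pow_eq_one.mp
      ((hu.dvd_of_dvd_mul_right (hdvd u)).trans (Nat.modEq_zero_iff_dvd.mp ha0))
    have h2 : v ^ a = v := by
      have := (pow_eq_pow_iff_modEq (x := v)).mpr (ha1.of_dvd (hv'.dvd_of_dvd_mul_left (hdvd v)))
      rwa [pow_one] at this
    rwa [hc.mul_pow, h1, h2, one_mul]
  · intro h
    have ho : orderOf (x ^ a) = orderOf g := by
      obtain ⟨c, hc⟩ := isConj_iff.mp h
      rw [← hc, show c * x ^ a * c⁻¹ = MulAut.conj c (x ^ a) from rfl, MulEquiv.orderOf_eq]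
    refine ⟨x ^ a, h, x * (x ^ a)⁻¹, by group, ?_, ?_, ho ▸ hg⟩
    · exact ((Commute.refl x).pow_right a).mul_left (Commute.refl (x ^ a)).inv_left
    · refine (Nat.Coprime.coprime_dvd_left (orderOf_dvd_of_pow_eq_one (n := m) ?_) hcop)
      rw [((Commute.refl x).pow_right a).inv_right.mul_pow, inv_pow, ← pow_mul, mul_inv_eq_one,
        pow_eq_pow_iff_modEq]
      refine Nat.ModEq.of_dvd (hdvd x) ?_
      have := Nat.ModEq.mul_left' m ha1
      rw [mul_one] at this
      rw [mul_comm a m]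
      exact this.symm

/-- The local computation on an elementary subgroup. -/
theorem local_integral {E : Type u} [Group E] [Fintype E] {m n a p : ℕ} (hp : p.Prime)
    (hE : IsElementary p E) (hcop : m.Coprime n) (hcard : Nat.card E ∣ m * n)
    (ha1 : a ≡ 1 [MOD n]) (ha0 : a ≡ 0 [MOD m]) (F : E → ℂ) (hF : ∀ e, IsIntegral ℤ (F e))
    (l : E →* ℂˣ) :
    IsIntegral ℤ (classInner (fun e => (n : ℂ) * F (e ^ a)) (fun e => (l e : ℂ))) := by
  classical
  let φ : E →* E :=
    { toFun := fun e => e ^ a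
      map_one' := one_pow a
      map_mul' := CharClifford.mul_pow_of_elementary hp hE hcop hcard ha1 ha0 }
  have hφn : ∀ e, (φ e) ^ n = 1 := fun e => by
    show (e ^ a) ^ n = 1
    rw [← pow_mul]
    refine orderOf_dvd_iff_pow_eq_one.mp (((orderOf_dvd_natCard e).trans hcard).trans ?_)
    exact Nat.mul_dvd_mul_right (Nat.modEq_zero_iff_dvd.mp ha0) n
  have hidem : ∀ e, φ (φ e) = φ e := fun e => by
    show (φ e) ^ a = φ e
    have := (pow_eq_pow_iff_modEq (x := φ e)).mpr
      (ha1.of_dvd (orderOf_dvd_of_pow_eq_one (hφn e)))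
    rwa [pow_one] at this
  have hfix : ∀ r : φ.range, φ r = r := by
    rintro ⟨_, e, rfl⟩
    exact hidem e
  let Φ : φ.range × φ.ker ≃ E :=
    { toFun := fun t => (t.1 : E) * (t.2 : E)
      invFun := fun e => (⟨φ e, e, rfl⟩, ⟨(φ e)⁻¹ * e, by
        rw [MonoidHom.mem_ker, map_mul, map_inv, hidem, inv_mul_cancel]⟩)
      left_inv := fun t => by
        have h : φ ((t.1 : E) * (t.2 : E)) = (t.1 : E) := by
          rw [map_mul, hfix, MonoidHom.mem_ker.mp t.2.2, mul_one]
        exact Prod.ext (Subtype.ext h) (Subtype.ext (by simp [h]))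
      right_inv := fun e => by simp }
  have hval : ∀ t : φ.range × φ.ker, (Φ t) ^ a = (t.1 : E) := fun t => by
    show φ ((t.1 : E) * (t.2 : E)) = _
    rw [map_mul, hfix, MonoidHom.mem_ker.mp t.2.2, mul_one]
  have hsum : ∑ e : E, (n : ℂ) * F (e ^ a) * conj (l e : ℂ) =
      (n : ℂ) * (∑ r : φ.range, F r * conj (l (r : E) : ℂ)) *
        ∑ k : φ.ker, conj (l (k : E) : ℂ) := by
    rw [← Φ.sum_comp, Fintype.sum_prod_type, Finset.mul_sum (a := (n : ℂ)), Finset.sum_mul]
    refine Finset.sum_congr rfl fun r _ => ?_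
    rw [Finset.mul_sum]
    refine Finset.sum_congr rfl fun k _ => ?_
    rw [hval (r, k)]
    show _ * _ * conj (l ((r : E) * (k : E)) : ℂ) = _
    rw [map_mul, Units.val_mul, map_mul]
    ring
  have hrdvd : Nat.card φ.range ∣ n := by
    have hd : Nat.card φ.range ∣ m * n := (Subgroup.card_subgroup_dvd_card _).trans hcard
    refine Nat.Coprime.dvd_of_dvd_mul_left ?_ hd
    refine Nat.coprime_of_dvd fun q hq hq1 hq2 => ?_
    have := Fact.mk hq
    obtain ⟨r, hr⟩ := exists_prime_orderOf_dvd_card' q hq1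
    have hrn : orderOf (r : E) ∣ n := by
      obtain ⟨e, he⟩ := r.2
      exact orderOf_dvd_of_pow_eq_one (he ▸ hφn e)
    rw [Subgroup.orderOf_coe, hr] at hrn
    exact hq.ne_one (Nat.eq_one_of_dvd_coprimes hcop hq2 hrn)
  obtain ⟨c, hc⟩ := hrdvd
  have hE' : Nat.card E = Nat.card φ.range * Nat.card φ.ker := by
    rw [← Nat.card_prod, Nat.card_congr Φ]
  have hint : ∀ e : E, IsIntegral ℤ (conj (l e : ℂ)) := fun e =>
    char_isIntegral (isCharacter_conj (isCharacter_of_isIrr (isIrrCharacter_linear l))) e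
  rw [classInner, hsum, hE']
  let lk : φ.ker →* ℂ :=
    { toFun := fun k => conj (l (k : E) : ℂ)
      map_one' := by simp
      map_mul' := fun a b => by simp }
  rw [show (∑ k : φ.ker, conj (l (k : E) : ℂ)) = ∑ k : φ.ker, lk k from rfl, sum_hom_units lk]
  have hr0 : (Nat.card φ.range : ℂ) ≠ 0 := card_ne_zero_complex _
  have hk0 : (Nat.card φ.ker : ℂ) ≠ 0 := card_ne_zero_complex _
  split_ifs with h
  · rw [← Nat.card_eq_fintype_card, show ((Nat.card φ.range * Nat.card φ.ker : ℕ) : ℂ)⁻¹ *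
      ((n : ℂ) * (∑ r : φ.range, F r * conj (l (r : E) : ℂ)) * (Nat.card φ.ker : ℂ)) =
      (c : ℂ) * ∑ r : φ.range, F r * conj (l (r : E) : ℂ) by
        rw [show (n : ℂ) = (Nat.card φ.range : ℂ) * c by rw [← Nat.cast_mul, ← hc]]
        push_cast
        field_simp]
    refine IsIntegral.mul ?_ (IsIntegral.sum _ fun r _ => (hF _).mul (hint _))
    exact_mod_cast isIntegral_algebraMap (R := ℤ) (A := ℂ) (x := (c : ℤ))
  · simpa using isIntegral_zero

theorem result {G : Type*} [Group G] [Fintype G] (m n : ℕ) (hmn : Nat.card G = m * n) (hcop : Nat.Coprime m n) (g : G) (hg : Nat.Coprime (orderOf g) m) (ϑ : G → ℂ) (hϑ1 : ∀ x : G, (∃ v : G, IsConj v g ∧ (∃ u : G, x = u * v ∧ Commute u v ∧ Nat.Coprime (orderOf u) n ∧ Nat.Coprime (orderOf v) m)) → ϑ x = n) (hϑ0 : ∀ x : G, (¬ ∃ v : G, IsConj v g ∧ (∃ u : G, x = u * v ∧ Commute u v ∧ Nat.Coprime (orderOf u) n ∧ Nat.Coprime (orderOf v) m)) → ϑ x = 0) : ∃ c : Cfsg.IrrCharacter G → ℂ, (∀ χ, c χ ∈ Cfsg.AlgInt) ∧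 ϑ = ∑ᶠ χ : Cfsg.IrrCharacter G, c χ • (χ : G → ℂ) := by
  classical
  obtain ⟨a, ha1, ha0⟩ := exists_exponent hcop
  let F : G → ℂ := fun v => if IsConj v g then 1 else 0
  have hF : ∀ x, IsIntegral ℤ (F x) := fun x => by
    simp only [F]; split_ifs <;> [exact isIntegral_one; exact isIntegral_zero]
  have hθ : ϑ = fun x => (n : ℂ) * F (x ^ a) := by
    funext x
    have hiff := decomp_iff hmn hcop ha1 ha0 hg x
    simp only [F]
    by_cases h : IsConj (x ^ a) g
    · rw [if_pos h, hϑ1 x (hiff.mpr h), mul_one]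
    · rw [if_neg h, hϑ0 x (fun hh => h (hiff.mp hh)), mul_zero]
  have hcf : IsClassFunction G ϑ := by
    rw [hθ]
    intro x y
    have hc : IsConj ((y * x * y⁻¹) ^ a) (x ^ a) := by
      rw [conj_pow]; exact (isConj_iff.mpr ⟨y, rfl⟩).symm
    show (n : ℂ) * F ((y * x * y⁻¹) ^ a) = (n : ℂ) * F (x ^ a)
    simp only [F]
    rw [if_congr ⟨fun h => hc.symm.trans h, fun h => hc.trans h⟩ rfl rfl]
  refine ⟨fun χ => classInner ϑ χ, fun χ => ?_, ?_⟩
  · show classInner ϑ χ ∈ integralClosure ℤ ℂ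
    rw [mem_integralClosure_iff]
    have hB := brauer_induction (isCharacter_of_isIrr χ.2)
    generalize (χ : G → ℂ) = f at hB ⊢
    induction hB using AddSubgroup.closure_induction with
    | mem f hf =>
      obtain ⟨E, l, q, hq, hE, rfl⟩ := hf
      rw [classInner_indFun_right E _ hcf]
      have := local_integral hq hE hcop (hmn ▸ Subgroup.card_subgroup_dvd_card E) ha1 ha0
        (fun e : E => F e) (fun e => hF e) l
      simpa [hθ] using this
    | zero => rw [classInner_zero_right]; exact isIntegral_zero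
    | add a b _ _ h1 h2 => rw [classInner_add_right]; exact h1.add h2
    | neg a _ h1 => rw [classInner_neg_right]; exact h1.neg
  · rw [finsum_eq_sum_of_fintype]
    exact eq_sum_classInner_smul hcf

end Cfsg.Agent.S0875
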