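import Cfsg.Statements.S0876
import Cfsg.Agent.S0875
import Cfsg.Agent.Lib.Block.Apply
import Mathlib.Tactic

set_option autoImplicit false
open Cfsg

namespace Cfsg.Agent.S0876

open Cfsg.Agent.Lib Cfsg.Agent.Lib.Block

theorem result {G : Type*} [Group G] [Finite G] (p : ℕ) (M : Ideal Cfsg.AlgInt) (hM : Cfsg.IsPModular p M) (x y a b : G) (ha : Cfsg.IsPPart p x a) (hb : Cfsg.IsPPart p y b) : IsConj (a⁻¹ * x) (b⁻¹ * y) ↔ ∀ χ : Cfsg.IrrCharacter G, Cfsg.MemLocalIdeal M ((χ : G → ℂ) x - (χ : G → ℂ) y) := by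
  classical
  have := Fintype.ofFinite G
  have hp : Fact p.Prime := ⟨hM.1⟩
  have := hM.2.1.isPrime
  obtain ⟨s, hs1, hs2, hs3, hs4⟩ := ha
  obtain ⟨t, ht1, ht2, ht3, ht4⟩ := hb
  subst hs1 ht1
  rw [inv_mul_cancel_left, inv_mul_cancel_left]
  have hmem : ∀ (χ : IrrCharacter G) (g : G), (χ : G → ℂ) g ∈ locRing M := fun χ g => irr_mem_locRing χ g
  have hcong : ∀ χ : IrrCharacter G, MemLocalIdeal M ((χ : G → ℂ) (a * s) - (χ : G → ℂ) (b * t)) ↔
      MemLocalIdeal M ((χ : G → ℂ) s - (χ : G → ℂ) t) := fun χ => by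
    rw [← redC_eq_iff (hmem _ _) (hmem _ _), ← redC_eq_iff (hmem _ _) (hmem _ _),
      redC_char_pPart hM (Char.isCharacter_of_isIrr χ.2) hs2 hs3 hs4,
      redC_char_pPart hM (Char.isCharacter_of_isIrr χ.2) ht2 ht3 ht4]
  simp only [hcong]
  constructor
  · intro h χ
    obtain ⟨c, rfl⟩ := isConj_iff.mp h
    rw [Char.isClassFunction_of_isIrr χ.2 s c, sub_self]
    simpa using natCast_mem_of_dvd hM (dvd_zero p)
  · intro h
    by_contra hne
    obtain ⟨e, n, hpn, hcard⟩ :=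
      Nat.exists_eq_pow_mul_and_not_dvd (Nat.card_pos (α := G)).ne' p hp.out.ne_one
    have hcop : Nat.Coprime (p ^ e) n :=
      Nat.Coprime.pow_left e ((Nat.Prime.coprime_iff_not_dvd hp.out).2 hpn)
    have hreg : ∀ u : G, ¬ p ∣ orderOf u → Nat.Coprime (orderOf u) (p ^ e) := fun u hu =>
      Nat.Coprime.pow_right e ((Nat.Prime.coprime_iff_not_dvd hp.out).2 hu).symm
    obtain ⟨k, hk1, hk0⟩ := S0875.exists_exponent hcop
    have hfix : ∀ u : G, ¬ p ∣ orderOf u → u ^ k = u := fun u hu => by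
      have := (pow_eq_pow_iff_modEq (x := u)).mpr
        (hk1.of_dvd ((hreg u hu).dvd_of_dvd_mul_left (hcard ▸ orderOf_dvd_natCard u)))
      rwa [pow_one] at this
    set P : G → Prop := fun x => ∃ v : G, IsConj v s ∧ (∃ u : G, x = u * v ∧ Commute u v ∧
      Nat.Coprime (orderOf u) n ∧ Nat.Coprime (orderOf v) (p ^ e)) with hP
    set ϑ : G → ℂ := fun x => if P x then (n : ℂ) else 0 with hϑ
    obtain ⟨c, hc, hsum⟩ := S0875.result (p ^ e) n hcard hcop s (hreg s hs4) ϑ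
      (fun x hx => if_pos hx) (fun x hx => if_neg hx)
    have hPs : P s := (S0875.decomp_iff hcard hcop hk1 hk0 (hreg s hs4) s).mpr (by rw [hfix s hs4])
    have hPt : ¬ P t := fun hh => hne ((by
      have := (S0875.decomp_iff hcard hcop hk1 hk0 (hreg s hs4) t).mp hh
      rwa [hfix t ht4] at this : IsConj t s)).symm
    have hn : (n : ℂ) = ∑ χ : IrrCharacter G, c χ * ((χ : G → ℂ) s - (χ : G → ℂ) t) := by
      have h1 := congrFun hsum s
      have h2 := congrFun hsum t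
      simp only [hϑ, if_pos hPs, if_neg hPt, finsum_eq_sum_of_fintype, Finset.sum_apply, Pi.smul_apply,
        smul_eq_mul] at h1 h2
      simp only [mul_sub, Finset.sum_sub_distrib, ← h1, ← h2, sub_zero]
    refine hpn ((natCast_memLocalIdeal_iff hM).mp ?_)
    have hcl : ∀ χ : IrrCharacter G, c χ ∈ locRing M := fun χ => integral_mem_locRing (hc χ)
    have hloc : ∀ χ : IrrCharacter G, c χ * ((χ : G → ℂ) s - (χ : G → ℂ) t) ∈ locRing M := fun χ =>
      mul_mem (hcl χ) (sub_mem (hmem χ s) (hmem χ t))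
    rw [← redC_eq_zero_iff (natCast_mem (locRing M) n), hn, redC_sum _ (fun χ _ => hloc χ),
      Finset.sum_eq_zero]
    intro χ _
    rw [redC_mul (hcl χ) (sub_mem (hmem χ s) (hmem χ t)), redC_eq_zero_of_memLocalIdeal (h χ), mul_zero]

end Cfsg.Agent.S0876
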