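import Cfsg.Statements.S0877
import Cfsg.Agent.S0875
import Cfsg.Agent.Lib.Char.Kernel
import Cfsg.Agent.Lib.CharGalois
import Cfsg.Agent.Lib.CharClifford.NormOne
import Mathlib.GroupTheory.NoncommCoprod
import Mathlib.Tactic

set_option autoImplicit false
open scoped ComplexConjugate
open Cfsg

namespace Cfsg.Agent.S0877

open Cfsg.Agent.Lib.Char Cfsg.Agent.Lib.CharClifford

variable {G : Type*} [Group G] [Finite G]

omit [Finite G] in
theorem isElementary_range {E : Type*} [Group E] {p : ℕ} (hp : p.Prime) (hE : IsElementary p E)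
    (f : E →* G) : IsElementary p f.range := by
  obtain ⟨x, hx, hco, k, hk⟩ := hE
  refine ⟨f.rangeRestrict x, ?_, hco.coprime_dvd_left (orderOf_map_dvd _ x), ?_⟩
  · rw [Subgroup.mem_center_iff]
    intro y
    obtain ⟨e, rfl⟩ := f.rangeRestrict_surjective y
    rw [← map_mul, ← map_mul, Subgroup.mem_center_iff.mp hx e]
  · have h := (Subgroup.zpowers x).index_map_dvd (f := f.rangeRestrict) f.rangeRestrict_surjective
    rw [MonoidHom.map_zpowers, hk] at h
    obtain ⟨i, -, hi⟩ := (Nat.dvd_prime_pow hp).mp h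
    exact ⟨i, hi⟩

theorem card_dvd_of_exponent {m n : ℕ} (hmn : Nat.card G = m * n) (hcop : m.Coprime n)
    (R : Subgroup G) (hR : ∀ y ∈ R, orderOf y ∣ m) : Nat.card R ∣ m := by
  refine Nat.Coprime.dvd_of_dvd_mul_right (Nat.coprime_of_dvd fun q hq h1 h2 => ?_)
    (hmn ▸ Subgroup.card_subgroup_dvd_card R)
  have := Fact.mk hq
  obtain ⟨y, hy⟩ := exists_prime_orderOf_dvd_card' q h1
  have h3 := hR y y.2
  rw [Subgroup.orderOf_coe, hy] at h3
  exact hq.ne_one (Nat.eq_one_of_dvd_coprimes hcop h3 h2)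

variable (H : Subgroup G) (hHall : Nat.Coprime (Nat.card H) H.index)
variable (helem : ∀ (E : Subgroup G) (p : ℕ), p.Prime → Cfsg.IsElementary p E →
  Nat.card E ∣ Nat.card H → ∃ g : G, E.map (MulAut.conj g).toMonoidHom ≤ H)

include helem in
theorem exists_conj_mem {x : G} (hx : orderOf x ∣ Nat.card H) : ∃ c : G, c * x * c⁻¹ ∈ H := by
  obtain ⟨p, hp, hpp⟩ := Nat.exists_infinite_primes (orderOf x + 1)
  have hel : IsElementary p (Subgroup.zpowers x) := by
    refine ⟨⟨x, Subgroup.mem_zpowers x⟩, ?_, ?_, 0, ?_⟩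
    · rw [Subgroup.mem_center_iff]
      rintro ⟨y, hy⟩
      obtain ⟨i, rfl⟩ := Subgroup.mem_zpowers_iff.mp hy
      exact Subtype.ext ((Commute.refl x).zpow_left i).eq
    · rw [Subgroup.orderOf_mk]
      exact ((hpp.coprime_iff_not_dvd).mpr fun h =>
        absurd (Nat.le_of_dvd (orderOf_pos x) h) (by omega)).symm
    · rw [pow_zero, Subgroup.index_eq_one, eq_top_iff]
      rintro ⟨y, hy⟩ -
      obtain ⟨i, rfl⟩ := Subgroup.mem_zpowers_iff.mp hy
      exact Subgroup.mem_zpowers_iff.mpr ⟨i, by ext; simp⟩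
  obtain ⟨c, hc⟩ := helem _ p hpp hel (by rwa [Nat.card_zpowers])
  exact ⟨c, hc ⟨x, Subgroup.mem_zpowers x, rfl⟩⟩

include hHall helem in
theorem part_dvd_centralizer (hfus : ∀ x ∈ H, ∀ y ∈ H, IsConj x y → ∃ h ∈ H, h * x * h⁻¹ = y)
    {h : G} (hh : h ∈ H) :
    Nat.gcd (Nat.card (Subgroup.centralizer ({h} : Set G))) (Nat.card H) ∣
      Nat.card ↥(H ⊓ Subgroup.centralizer ({h} : Set G)) := by
  set C := Subgroup.centralizer ({h} : Set G) with hC
  rw [Nat.dvd_iff_prime_pow_dvd_dvd]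
  intro p k hp hpk
  rcases Nat.eq_zero_or_pos k with rfl | hk0
  · simp
  have := Fact.mk hp
  have hpkC : p ^ k ∣ Nat.card C := hpk.trans (Nat.gcd_dvd_left _ _)
  have hpkH : p ^ k ∣ Nat.card H := hpk.trans (Nat.gcd_dvd_right _ _)
  obtain ⟨P, hP⟩ := Sylow.exists_subgroup_card_pow_prime p hpkC
  have hcomm : ∀ (u : P) (z : Subgroup.zpowers h), Commute (((u : C) : G)) (z : G) := by
    rintro ⟨⟨u, hu⟩, -⟩ ⟨z, hz⟩
    obtain ⟨i, rfl⟩ := Subgroup.mem_zpowers_iff.mp hz
    exact Commute.zpow_right (Subgroup.mem_centralizer_singleton_iff.mp hu) i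
  let f : P × Subgroup.zpowers h →* G :=
    MonoidHom.noncommCoprod (C.subtype.comp P.subtype) (Subgroup.zpowers h).subtype hcomm
  have hel : IsElementary p (P × Subgroup.zpowers h) := by
    obtain ⟨j, r, hpr, hr⟩ := Nat.exists_eq_pow_mul_and_not_dvd (orderOf_pos h).ne' p hp.ne_one
    let x : P × Subgroup.zpowers h := (1, ⟨h, Subgroup.mem_zpowers h⟩ ^ (p ^ j))
    have hox : orderOf x = r := by
      rw [Prod.orderOf]
      simp only [x, orderOf_one, Nat.lcm_one_left]
      rw [orderOf_pow, Subgroup.orderOf_mk, hr, Nat.gcd_eq_right (Dvd.intro r rfl),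
        Nat.mul_div_cancel_left _ (pow_pos hp.pos j)]
    refine ⟨x, ?_, ?_, k + j, ?_⟩
    · rw [Subgroup.mem_center_iff]
      rintro ⟨u, z, hz⟩
      refine Prod.ext (by simp [x]) (Subtype.ext ?_)
      obtain ⟨i, rfl⟩ := Subgroup.mem_zpowers_iff.mp hz
      show h ^ i * ((⟨h, Subgroup.mem_zpowers h⟩ : Subgroup.zpowers h) ^ (p ^ j)).1 =
        ((⟨h, Subgroup.mem_zpowers h⟩ : Subgroup.zpowers h) ^ (p ^ j)).1 * h ^ i
      rw [SubmonoidClass.coe_pow]
      exact (((Commute.refl h).zpow_left i).pow_right _).eq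
    · rw [hox]
      exact ((hp.coprime_iff_not_dvd).mpr hpr).symm
    · have hc := (Subgroup.zpowers x).card_mul_index
      rw [Nat.card_zpowers, hox, Nat.card_prod, hP, Nat.card_zpowers, hr] at hc
      have hr0 : 0 < r := Nat.pos_of_ne_zero fun e => by simp [e] at hpr
      apply Nat.eq_of_mul_eq_mul_left hr0
      rw [hc]; ring
  have hordf : ∀ y ∈ f.range, orderOf y ∣ Nat.card H := by
    rintro _ ⟨⟨u, z⟩, rfl⟩
    refine orderOf_dvd_of_pow_eq_one ?_
    rw [← map_pow, show ((u, z) : P × Subgroup.zpowers h) ^ Nat.card H = 1 from ?_, map_one]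
    refine Prod.ext ?_ ?_
    · show u ^ Nat.card H = 1
      exact orderOf_dvd_iff_pow_eq_one.mp ((hP ▸ orderOf_dvd_natCard u).trans hpkH)
    · show z ^ Nat.card H = 1
      refine orderOf_dvd_iff_pow_eq_one.mp ((orderOf_dvd_natCard z).trans ?_)
      rw [Nat.card_zpowers]
      exact Subgroup.orderOf_dvd_natCard H hh
  obtain ⟨c, hc⟩ := helem f.range p hp (isElementary_range hp hel f)
    (card_dvd_of_exponent H.card_mul_index.symm hHall _ hordf)
  have hch : c * h * c⁻¹ ∈ H := hc ⟨h, ⟨(1, ⟨h, Subgroup.mem_zpowers h⟩),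
    (show (C.subtype.comp P.subtype) 1 * h = h by simp)⟩, rfl⟩
  obtain ⟨l, hl, hlh⟩ := hfus _ hch h hh (isConj_iff.mpr ⟨c⁻¹, by group⟩)
  have hcu : ∀ u : P, l * c * ((u : C) : G) * (l * c)⁻¹ ∈ H ⊓ C := by
    intro u
    have h1 : c * ((u : C) : G) * c⁻¹ ∈ H := hc ⟨_, ⟨(u, 1),
      (show ((u : C) : G) * 1 = _ from mul_one _)⟩, rfl⟩
    refine ⟨?_, Subgroup.mem_centralizer_singleton_iff.mpr ?_⟩
    · have := H.mul_mem (H.mul_mem hl h1) (H.inv_mem hl)
      simpa [mul_assoc] using this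
    · have e : l * c * h * (l * c)⁻¹ = h :=
        (show l * c * h * (l * c)⁻¹ = l * (c * h * c⁻¹) * l⁻¹ by group).trans hlh
      have hu : ((u : C) : G) * h = h * ((u : C) : G) :=
        Subgroup.mem_centralizer_singleton_iff.mp (u : C).2
      calc l * c * ((u : C) : G) * (l * c)⁻¹ * h
          = l * c * ((u : C) : G) * (l * c)⁻¹ * (l * c * h * (l * c)⁻¹) := by rw [e]
        _ = l * c * (((u : C) : G) * h) * (l * c)⁻¹ := by group
        _ = l * c * (h * ((u : C) : G)) * (l * c)⁻¹ := by rw [hu]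
        _ = l * c * h * (l * c)⁻¹ * (l * c * ((u : C) : G) * (l * c)⁻¹) := by group
        _ = _ := by rw [e]
  let g : P →* ↥(H ⊓ C) :=
    ((MulAut.conj (l * c)).toMonoidHom.comp (C.subtype.comp P.subtype)).codRestrict _ hcu
  rw [← hP]
  exact Subgroup.card_dvd_of_injective g fun u v e => by
    have e' := congrArg Subtype.val e
    exact Subtype.ext (Subtype.ext ((MulAut.conj (l * c)).injective e'))

variable {a : ℕ} (ha1 : a ≡ 1 [MOD Nat.card H]) (ha0 : a ≡ 0 [MOD H.index])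

include ha1 in
theorem pow_a_of_dvd {x : G} (hx : orderOf x ∣ Nat.card H) : x ^ a = x := by
  have := (pow_eq_pow_iff_modEq (x := x)).mpr (ha1.of_dvd hx)
  rwa [pow_one] at this

include ha0 in
theorem orderOf_pow_a_dvd (x : G) : orderOf (x ^ a) ∣ Nat.card H := by
  refine orderOf_dvd_of_pow_eq_one ?_
  rw [← pow_mul]
  refine orderOf_dvd_iff_pow_eq_one.mp ((orderOf_dvd_natCard x).trans ?_)
  rw [← H.card_mul_index, mul_comm a]
  exact Nat.mul_dvd_mul_left _ (Nat.modEq_zero_iff_dvd.mp ha0)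

include hHall ha1 ha0 in
/-- Divisibility for the elements of a centraliser with trivial part. -/
theorem card_centralizer_le {h : G} (hh : h ∈ H) :
    Nat.card (Subgroup.centralizer ({h} : Set G)) ≤
      Nat.gcd (Nat.card (Subgroup.centralizer ({h} : Set G))) (Nat.card H) *
        Nat.card {g : G // g ^ a = h} := by
  classical
  set C := Subgroup.centralizer ({h} : Set G) with hC
  have := Fintype.ofFinite C
  set n' := Nat.gcd (Nat.card C) (Nat.card H) with hn'
  set m' := Nat.gcd (Nat.card C) H.index with hm'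
  have hcop : m'.Coprime n' :=
    ((hHall.symm).coprime_dvd_left (Nat.gcd_dvd_right _ _)).coprime_dvd_right (Nat.gcd_dvd_right _ _)
  have hmn : Nat.card C = m' * n' := by
    rw [hm', hn', ← Nat.Coprime.gcd_mul _ hHall.symm, mul_comm H.index, H.card_mul_index,
      Nat.gcd_eq_left (Subgroup.card_subgroup_dvd_card C)]
  let ϑ : C → ℂ := fun x => if x ^ a = 1 then (n' : ℂ) else 0
  have hiff : ∀ x : C, (∃ v : C, IsConj v 1 ∧ (∃ u : C, x = u * v ∧ Commute u v ∧
      Nat.Coprime (orderOf u) n' ∧ Nat.Coprime (orderOf v) m')) ↔ x ^ a = 1 := by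
    intro x
    constructor
    · rintro ⟨v, hv, u, rfl, -, hu, -⟩
      rw [isConj_one_left.mp hv, mul_one]
      refine orderOf_dvd_iff_pow_eq_one.mp ?_
      have h1 : orderOf u ∣ m' := hu.dvd_of_dvd_mul_right (hmn ▸ orderOf_dvd_natCard u)
      exact (h1.trans (Nat.gcd_dvd_right _ _)).trans (Nat.modEq_zero_iff_dvd.mp ha0)
    · intro hx
      refine ⟨1, IsConj.refl 1, x, (mul_one x).symm, Commute.one_right x, ?_, by simp⟩
      refine Nat.coprime_of_dvd fun q hq h1 h2 => ?_
      have h3 : q ∣ a := h1.trans (orderOf_dvd_of_pow_eq_one hx)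
      have h4 : q ∣ Nat.card H := h2.trans (Nat.gcd_dvd_right _ _)
      have h5 := (ha1.of_dvd h4).symm.trans (Nat.modEq_zero_iff_dvd.mpr h3)
      exact hq.ne_one (Nat.dvd_one.mp (Nat.modEq_zero_iff_dvd.mp h5))
  obtain ⟨c, hc, hϑ⟩ := S0875.result m' n' hmn hcop (1 : C) (by simp) ϑ
    (fun x hx => if_pos ((hiff x).mp hx)) (fun x hx => if_neg (mt (hiff x).mpr hx))
  have h1 := congrArg (fun f => classInner f (fun _ : C => (1 : ℂ))) hϑ
  simp only [finsum_eq_sum_of_fintype, classInner_sum_left, classInner_smul_left] at h1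
  rw [Finset.sum_eq_single (⟨fun _ => 1, isIrrCharacter_one⟩ : IrrCharacter C) (fun χ _ hχ => by
    rw [classInner_irr_ne χ.2 isIrrCharacter_one (fun e => hχ (Subtype.ext e)), mul_zero])
    (fun hh' => absurd (Finset.mem_univ _) hh'), classInner_irr_self isIrrCharacter_one, mul_one] at h1
  set N' := (Finset.univ.filter fun x : C => x ^ a = 1).card with hN'
  have hval : classInner ϑ (fun _ : C => (1 : ℂ)) = (((n' * N' : ℕ) : ℚ) / (Nat.card C : ℚ) : ℚ) := by
    simp only [classInner, ϑ, map_one, mul_one, ← Finset.sum_filter, Finset.sum_const, nsmul_eq_mul]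
    rw [← hN']
    push_cast
    ring
  have hint : IsIntegral ℤ (classInner ϑ (fun _ : C => (1 : ℂ))) := by
    rw [h1]; exact (mem_integralClosure_iff ℤ ℂ).mp (hc _)
  rw [hval] at hint
  obtain ⟨z, hz⟩ := Cfsg.Agent.Lib.CharGalois.exists_int_of_ratCast hint
  have hdvd : (n' * N' : ℕ) = (z : ℤ) * (Nat.card C : ℤ) := by
    have hz' : (((n' * N' : ℕ) : ℚ) / (Nat.card C : ℚ)) = (z : ℚ) := by exact_mod_cast hz
    rw [div_eq_iff (by exact_mod_cast Nat.card_pos.ne')] at hz'
    exact_mod_cast hz'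
  have hpos : 0 < n' * N' := Nat.mul_pos (Nat.gcd_pos_of_pos_left _ Nat.card_pos)
    (Finset.card_pos.mpr ⟨1, by simp⟩)
  have hle : Nat.card C ≤ n' * N' := by
    have hz1 : 1 ≤ z := by
      by_contra hc'
      have : z * (Nat.card C : ℤ) ≤ 0 := mul_nonpos_of_nonpos_of_nonneg (by omega) (by positivity)
      omega
    have : (Nat.card C : ℤ) ≤ z * Nat.card C := le_mul_of_one_le_left (by positivity) hz1
    omega
  refine hle.trans (Nat.mul_le_mul_left _ ?_)
  rw [hN', ← Fintype.card_subtype, ← Nat.card_eq_fintype_card]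
  refine Nat.card_le_card_of_injective
    (fun u : {x : C // x ^ a = 1} => (⟨(u.1 : G) * h, ?_⟩ : {g : G // g ^ a = h})) fun u v e => ?_
  · rw [(show Commute (u.1 : G) h from Subgroup.mem_centralizer_singleton_iff.mp u.1.2).mul_pow,
      pow_a_of_dvd H ha1 (Subgroup.orderOf_dvd_natCard H hh), ← SubmonoidClass.coe_pow, u.2,
      OneMemClass.coe_one, one_mul]
  · exact Subtype.ext (Subtype.ext (mul_right_cancel (congrArg Subtype.val e)))

/-- The conjugators into `H`. -/
noncomputable def conjInto (x : G) : ℕ := Nat.card {y : G // y⁻¹ * x * y ∈ H}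

theorem conjInto_mul (hfus : ∀ x ∈ H, ∀ y ∈ H, IsConj x y → ∃ h ∈ H, h * x * h⁻¹ = y)
    {h : G} (hh : h ∈ H) :
    conjInto H h * Nat.card ↥(H ⊓ Subgroup.centralizer ({h} : Set G)) =
      Nat.card (Subgroup.centralizer ({h} : Set G)) * Nat.card H := by
  classical
  set C := Subgroup.centralizer ({h} : Set G) with hC
  rw [conjInto, ← Nat.card_prod, ← Nat.card_prod]
  have hmem : ∀ y : G, y⁻¹ * h * y ∈ H → ∃ p : C × H, (p.1 : G) * p.2 = y := by
    intro y hy
    obtain ⟨l, hl, hlh⟩ := hfus h hh _ hy (isConj_iff.mpr ⟨y⁻¹, by group⟩)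
    refine ⟨(⟨y * l, Subgroup.mem_centralizer_singleton_iff.mpr ?_⟩, ⟨l⁻¹, H.inv_mem hl⟩), by simp⟩
    calc y * l * h = y * (l * h * l⁻¹) * l := by group
      _ = y * (y⁻¹ * h * y) * l := by rw [hlh]
      _ = h * (y * l) := by group
  choose s hs using fun y : {y : G // y⁻¹ * h * y ∈ H} => hmem y.1 y.2
  refine (Nat.card_congr (Equiv.ofBijective (fun t : {y : G // y⁻¹ * h * y ∈ H} × ↥(H ⊓ C) =>
      ((⟨(s t.1).1 * t.2, C.mul_mem (s t.1).1.2 t.2.2.2⟩,
        ⟨(t.2 : G)⁻¹ * (s t.1).2, H.mul_mem (H.inv_mem t.2.2.1) (s t.1).2.2⟩) : C × H))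
      ⟨fun t t' e => ?_, fun p => ?_⟩))
  · have e1 : ((s t.1).1 : G) * t.2 = (s t'.1).1 * t'.2 := congrArg (fun p : C × H => (p.1 : G)) e
    have e2 : (t.2 : G)⁻¹ * (s t.1).2 = (t'.2 : G)⁻¹ * (s t'.1).2 :=
      congrArg (fun p : C × H => (p.2 : G)) e
    have e0 : t.1 = t'.1 := Subtype.ext (by
      rw [← hs t.1, ← hs t'.1]
      calc ((s t.1).1 : G) * (s t.1).2 = ((s t.1).1 * t.2) * ((t.2 : G)⁻¹ * (s t.1).2) := by group
        _ = ((s t'.1).1 * t'.2) * ((t'.2 : G)⁻¹ * (s t'.1).2) := by rw [e1, e2]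
        _ = _ := by group)
    refine Prod.ext e0 (Subtype.ext ?_)
    rw [e0] at e1
    exact mul_left_cancel e1
  · have hy : ((p.1 : G) * p.2)⁻¹ * h * ((p.1 : G) * p.2) ∈ H := by
      have hp1 : (p.1 : G) * h = h * p.1 := Subgroup.mem_centralizer_singleton_iff.mp p.1.2
      rw [show ((p.1 : G) * p.2)⁻¹ * h * ((p.1 : G) * p.2) = (p.2 : G)⁻¹ * h * p.2 by
        calc ((p.1 : G) * p.2)⁻¹ * h * ((p.1 : G) * p.2)
            = (p.2 : G)⁻¹ * (p.1 : G)⁻¹ * (h * p.1) * p.2 := by group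
          _ = (p.2 : G)⁻¹ * (p.1 : G)⁻¹ * (p.1 * h) * p.2 := by rw [hp1]
          _ = _ := by group]
      exact H.mul_mem (H.mul_mem (H.inv_mem p.2.2) hh) p.2.2
    set y : {y : G // y⁻¹ * h * y ∈ H} := ⟨_, hy⟩ with hydef
    have hd : ((s y).1 : G)⁻¹ * p.1 = (s y).2 * (p.2 : G)⁻¹ := by
      rw [eq_mul_inv_iff_mul_eq, mul_assoc, show (p.1 : G) * p.2 = (s y).1 * (s y).2 from (hs y).symm]
      group
    refine ⟨(y, ⟨((s y).1 : G)⁻¹ * p.1, ?_, C.mul_mem (C.inv_mem (s y).1.2) p.1.2⟩), ?_⟩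
    · rw [hd]; exact H.mul_mem (s y).2.2 (H.inv_mem p.2.2)
    · refine Prod.ext (Subtype.ext ?_) (Subtype.ext ?_)
      · show ((s y).1 : G) * (((s y).1 : G)⁻¹ * p.1) = p.1
        group
      · show (((s y).1 : G)⁻¹ * p.1)⁻¹ * (s y).2 = p.2
        rw [hd]; group

variable [Fintype G] [Fintype H]

include helem ha0 in
theorem conjInto_pow_pos (g : G) : 0 < conjInto H (g ^ a) := by
  obtain ⟨c, hc⟩ := exists_conj_mem H helem (orderOf_pow_a_dvd H ha0 g)
  have : Nonempty {y : G // y⁻¹ * g ^ a * y ∈ H} := ⟨⟨c⁻¹, by simpa using hc⟩⟩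
  exact Nat.card_pos

omit [Finite G] in
theorem conjInto_conj (x y : G) : conjInto H (y * x * y⁻¹) = conjInto H x := by
  refine Nat.card_congr ((Equiv.mulLeft y⁻¹).subtypeEquiv fun z => ?_)
  simp [mul_assoc]

include helem ha0 in
/-- Summation along the map `g ↦ g ^ a`. -/
theorem sum_pow (f : G → ℂ) (hf : IsClassFunction G f) :
    ∑ g : G, f (g ^ a) = ∑ h : H,
      (Nat.card G : ℂ) * (Nat.card {g : G // g ^ a = (h : G)} : ℂ) * (f h / (conjInto H (h : G) : ℂ)) := by
  classical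
  set f' : G → ℂ := fun x => f x / (conjInto H x : ℂ) with hf'
  have hf'c : ∀ x y : G, f' (y * x * y⁻¹) = f' x := fun x y => by
    simp only [hf', conjInto_conj, hf x y]
  have h1 : ∑ g : G, f (g ^ a) = ∑ y : G, ∑ g : G, if y⁻¹ * g ^ a * y ∈ H then f' (g ^ a) else 0 := by
    rw [Finset.sum_comm]
    refine Finset.sum_congr rfl fun g _ => ?_
    rw [← Finset.sum_filter, Finset.sum_const, ← Fintype.card_subtype, ← Nat.card_eq_fintype_card,
      nsmul_eq_mul]
    show f (g ^ a) = (conjInto H (g ^ a) : ℂ) * (f (g ^ a) / (conjInto H (g ^ a) : ℂ))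
    rw [mul_div_cancel₀]
    exact Nat.cast_ne_zero.mpr (conjInto_pow_pos H helem ha0 g).ne'
  have h2 : ∀ y : G, (∑ g : G, if y⁻¹ * g ^ a * y ∈ H then f' (g ^ a) else 0) =
      ∑ g : G, if g ^ a ∈ H then f' (g ^ a) else 0 := by
    intro y
    rw [← (MulAut.conj y).toEquiv.sum_comp (fun g : G => if y⁻¹ * g ^ a * y ∈ H then f' (g ^ a) else 0)]
    refine Finset.sum_congr rfl fun g _ => ?_
    simp only [MulEquiv.toEquiv_eq_coe, MulEquiv.coe_toEquiv, MulAut.conj_apply, conj_pow, hf'c]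
    rw [show y⁻¹ * (y * g ^ a * y⁻¹) * y = g ^ a by group]
  rw [h1, Finset.sum_congr rfl fun y _ => h2 y, Finset.sum_const, Finset.card_univ,
    ← Nat.card_eq_fintype_card, nsmul_eq_mul]
  have h3 : (∑ g : G, if g ^ a ∈ H then f' (g ^ a) else 0) =
      ∑ h : H, (Nat.card {g : G // g ^ a = (h : G)} : ℂ) * f' h := by
    have e : ∀ g : G, (if g ^ a ∈ H then f' (g ^ a) else 0) = ∑ h : H, if g ^ a = (h : G) then f' h else 0 := by
      intro g
      split_ifs with hg
      · rw [Finset.sum_eq_single (⟨g ^ a, hg⟩ : H)]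
        · rw [if_pos rfl]
        · intro b _ hb; rw [if_neg fun e => hb (Subtype.ext e.symm)]
        · intro hh; exact absurd (Finset.mem_univ _) hh
      · exact (Finset.sum_eq_zero fun h _ => if_neg fun e => hg (by rw [e]; exact h.2)).symm
    rw [Finset.sum_congr rfl fun g _ => e g, Finset.sum_comm]
    refine Finset.sum_congr rfl fun h _ => ?_
    rw [← Finset.sum_filter, Finset.sum_const, ← Fintype.card_subtype, ← Nat.card_eq_fintype_card,
      nsmul_eq_mul]
  rw [h3, Finset.mul_sum]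
  exact Finset.sum_congr rfl fun h _ => by rw [mul_assoc]

include hHall helem ha1 ha0 in
theorem card_fibre (hfus : ∀ x ∈ H, ∀ y ∈ H, IsConj x y → ∃ h ∈ H, h * x * h⁻¹ = y) (h : H) :
    Nat.card H * Nat.card {g : G // g ^ a = (h : G)} = conjInto H (h : G) := by
  classical
  have hle : ∀ h : H, conjInto H (h : G) ≤ Nat.card H * Nat.card {g : G // g ^ a = (h : G)} := by
    intro h
    have h1 := card_centralizer_le H hHall ha1 ha0 h.2
    have h2 := Nat.le_of_dvd Nat.card_pos (part_dvd_centralizer H hHall helem hfus h.2)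
    refine Nat.le_of_mul_le_mul_right ?_
      (Nat.card_pos (α := ↥(H ⊓ Subgroup.centralizer ({(h : G)} : Set G))))
    rw [conjInto_mul H hfus h.2]
    calc Nat.card (Subgroup.centralizer ({(h : G)} : Set G)) * Nat.card H
        ≤ Nat.card ↥(H ⊓ Subgroup.centralizer ({(h : G)} : Set G)) *
          Nat.card {g : G // g ^ a = (h : G)} * Nat.card H :=
          Nat.mul_le_mul_right _ (h1.trans (Nat.mul_le_mul_right _ h2))
      _ = _ := by ring
  have hpos : ∀ h : H, 0 < conjInto H (h : G) := fun h => by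
    have := conjInto_pow_pos H helem ha0 (h : G)
    rwa [pow_a_of_dvd H ha1 (Subgroup.orderOf_dvd_natCard H h.2)] at this
  have hsum := sum_pow H helem ha0 (fun _ => (1 : ℂ)) (fun _ _ => rfl)
  have hR : (Nat.card H : ℝ) = ∑ h : H,
      ((Nat.card H * Nat.card {g : G // g ^ a = (h : G)} : ℕ) : ℝ) / (conjInto H (h : G) : ℝ) := by
    apply Complex.ofReal_injective
    rw [Finset.sum_const, Finset.card_univ, ← Nat.card_eq_fintype_card, nsmul_eq_mul, mul_one] at hsum
    have hG : (Nat.card G : ℂ) ≠ 0 := card_ne_zero_complex G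
    push_cast
    calc (Nat.card H : ℂ) = (Nat.card H : ℂ) * ((Nat.card G : ℂ)⁻¹ * (Nat.card G : ℂ)) := by
          rw [inv_mul_cancel₀ hG, mul_one]
      _ = _ := by
          conv_lhs => arg 2; arg 2; rw [hsum]
          rw [Finset.mul_sum, Finset.mul_sum]
          refine Finset.sum_congr rfl fun h _ => ?_
          field_simp
  have hge : ∀ h : H, (1 : ℝ) ≤
      ((Nat.card H * Nat.card {g : G // g ^ a = (h : G)} : ℕ) : ℝ) / (conjInto H (h : G) : ℝ) := fun h => by
    rw [le_div_iff₀ (by exact_mod_cast hpos h), one_mul]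
    exact_mod_cast hle h
  have heq := (Finset.sum_eq_sum_iff_of_le (s := Finset.univ) fun h _ => hge h).mp
    (by rw [← hR, Finset.sum_const, Finset.card_univ, ← Nat.card_eq_fintype_card, nsmul_eq_mul, mul_one]) h
    (Finset.mem_univ h)
  rw [eq_div_iff (by exact_mod_cast (hpos h).ne'), one_mul] at heq
  exact_mod_cast heq.symm

include hHall helem ha1 ha0 in
theorem sum_pow_eq (hfus : ∀ x ∈ H, ∀ y ∈ H, IsConj x y → ∃ h ∈ H, h * x * h⁻¹ = y)
    (f : G → ℂ) (hf : IsClassFunction G f) :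
    ∑ g : G, f (g ^ a) = (H.index : ℂ) * ∑ h : H, f h := by
  rw [sum_pow H helem ha0 f hf, Finset.mul_sum]
  refine Finset.sum_congr rfl fun h _ => ?_
  have hpos : 0 < conjInto H (h : G) := by
    have := conjInto_pow_pos H helem ha0 (h : G)
    rwa [pow_a_of_dvd H ha1 (Subgroup.orderOf_dvd_natCard H h.2)] at this
  rw [← card_fibre H hHall helem ha1 ha0 hfus h, ← H.card_mul_index]
  have h1 : (Nat.card {g : G // g ^ a = (h : G)} : ℂ) ≠ 0 := by
    intro e
    rw [Nat.cast_eq_zero] at e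
    have := card_fibre H hHall helem ha1 ha0 hfus h
    rw [e, mul_zero] at this
    omega
  have h2 : (Nat.card H : ℂ) ≠ 0 := card_ne_zero_complex H
  push_cast
  field_simp

end Cfsg.Agent.S0877

namespace Cfsg.Agent.S0877

open Cfsg.Agent.Lib.Char Cfsg.Agent.Lib.CharClifford

theorem result {G : Type*} [Group G] [Finite G] (H : Subgroup G) (hHall : Nat.Coprime (Nat.card H) H.index) (hfus : ∀ x ∈ H, ∀ y ∈ H, IsConj x y → ∃ h ∈ H, h * x * h⁻¹ = y) (helem : ∀ (E : Subgroup G) (p : ℕ), p.Prime → Cfsg.IsElementary p E → Nat.card E ∣ Nat.card H → ∃ g : G, E.map (MulAut.conj g).toMonoidHom ≤ H) : ∃ K : Subgroup G, K.Normal ∧ K ⊔ H = ⊤ ∧ K ⊓ H = ⊥ := by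
  classical
  have := Fintype.ofFinite G
  have := Fintype.ofFinite H
  obtain ⟨a, ha1, ha0⟩ := S0875.exists_exponent (m := H.index) (n := Nat.card H) hHall.symm
  choose c hc using fun g : G => exists_conj_mem H helem (orderOf_pow_a_dvd H ha0 g)
  let pick : G → H := fun g => ⟨_, hc g⟩
  have hpick : ∀ g, IsConj (g ^ a) (pick g : G) := fun g => isConj_iff.mpr ⟨c g, rfl⟩
  have hcf : ∀ θ : H → ℂ, IsClassFunction H θ → ∀ g : G, ∀ h : H, IsConj (g ^ a) (h : G) →
      θ (pick g) = θ h := by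
    intro θ hθ g h hgh
    obtain ⟨l, hl, e⟩ := hfus _ h.2 _ (pick g).2 (hgh.symm.trans (hpick g))
    rw [show pick g = ⟨l, hl⟩ * h * (⟨l, hl⟩ : H)⁻¹ from Subtype.ext e.symm, hθ]
  have hcard := H.card_mul_index
  have hext : ∀ θ : IrrCharacter H, IsIrrCharacter G (fun g => (θ : H → ℂ) (pick g)) := by
    intro θ
    have hθc := isClassFunction_of_isIrr θ.2
    set T : G → ℂ := fun g => (θ : H → ℂ) (pick g) with hT
    have hTc : IsClassFunction G T := fun g y => by
      refine hcf _ hθc _ _ ?_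
      rw [conj_pow]
      exact (isConj_iff.mpr ⟨y, rfl⟩ : IsConj (g ^ a) (y * g ^ a * y⁻¹)).symm.trans (hpick g)
    have hgen : IsGeneralizedCharacter G T := by
      refine brauer_characterization hTc fun E p hp hE => ?_
      let φ : E →* G :=
        { toFun := fun e => (e : G) ^ a
          map_one' := by simp
          map_mul' := fun x y => by
            have h := mul_pow_of_elementary hp hE (m := H.index) (n := Nat.card H) hHall.symm
              ((Subgroup.card_subgroup_dvd_card E).trans (by rw [← hcard, mul_comm])) ha1 ha0 x y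
            simpa using congrArg Subtype.val h }
      obtain ⟨d, hd⟩ := helem φ.range p hp (isElementary_range hp hE φ)
        (card_dvd_of_exponent hcard.symm hHall _ (by
          rintro _ ⟨e, rfl⟩; exact orderOf_pow_a_dvd H ha0 (e : G)))
      let ψ : E →* H := ((MulAut.conj d).toMonoidHom.comp φ).codRestrict H
        fun e => hd ⟨φ e, ⟨e, rfl⟩, rfl⟩
      refine ⟨fun e => (θ : H → ℂ) (ψ e), 0, isCharacter_comp (isCharacter_of_isIrr θ.2) ψ,
        isCharacter_zero, ?_⟩
      rw [sub_zero]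
      funext e
      exact hcf _ hθc _ _ (isConj_iff.mpr ⟨d, rfl⟩)
    have hnorm : classInner T T = 1 := by
      have hp : ∀ g, T (g ^ a) = T g := fun g => by
        refine hcf _ hθc _ _ ?_
        rw [pow_a_of_dvd H ha1 (orderOf_pow_a_dvd H ha0 g)]
        exact hpick g
      have hTH : ∀ h : H, T (h : G) = (θ : H → ℂ) h := fun h => hcf _ hθc _ _
        (by rw [pow_a_of_dvd H ha1 (Subgroup.orderOf_dvd_natCard H h.2)])
      have h := sum_pow_eq H hHall helem ha1 ha0 hfus (fun g => T g * conj (T g))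
        (fun g y => by simp only [hTc g y])
      simp only [hp, hTH] at h
      rw [classInner, h, ← classInner_irr_self θ.2, classInner, ← hcard]
      have h2 : (H.index : ℂ) ≠ 0 := Nat.cast_ne_zero.mpr Subgroup.FiniteIndex.index_ne_zero
      push_cast
      field_simp
    rcases irr_or_neg_of_norm_one hgen hnorm with h | h
    · exact h
    · exfalso
      have h1 := apply_one_eq_charDegree (isCharacter_of_isIrr h)
      have h2 : T 1 = (θ : H → ℂ) 1 := hcf _ hθc _ _ (by simp)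
      rw [Pi.neg_apply, h2, apply_one_eq_charDegree (isCharacter_of_isIrr θ.2)] at h1
      have h3 : ((charDegree (θ : H → ℂ) + charDegree (-T) : ℕ) : ℂ) = 0 := by
        push_cast; linear_combination -h1
      rw [Nat.cast_eq_zero] at h3
      have := charDegree_pos θ.2
      omega
  set K : Subgroup G := ⨅ θ : IrrCharacter H, charKer (fun g => (θ : H → ℂ) (pick g)) with hK
  have hmem : ∀ g : G, g ∈ K ↔ g ^ a = 1 := by
    intro g
    rw [hK, Subgroup.mem_iInf]
    have h1 : ∀ θ : IrrCharacter H, (θ : H → ℂ) (pick 1) = (θ : H → ℂ) 1 := fun θ =>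
      hcf _ (isClassFunction_of_isIrr θ.2) _ _ (by simp)
    constructor
    · intro hg
      have hone : IsConj (pick g) (1 : H) := (isConj_iff_forall_irr _ _).mpr fun θ => by
        have := (mem_charKer (isCharacter_of_isIrr (hext θ))).mp (hg θ)
        rw [this, h1]
      have h2 := hpick g
      rw [isConj_one_left.mp hone, OneMemClass.coe_one] at h2
      exact isConj_one_left.mp h2
    · intro hg θ
      refine (mem_charKer (isCharacter_of_isIrr (hext θ))).mpr ?_
      rw [h1]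
      exact hcf _ (isClassFunction_of_isIrr θ.2) _ _ (by rw [hg]; exact IsConj.refl 1)
  have hKn : K.Normal := ⟨fun x hx y => by
    rw [hmem] at hx ⊢
    rw [conj_pow, hx, mul_one, mul_inv_cancel]⟩
  have hKH : K ⊓ H = ⊥ := eq_bot_iff.mpr fun x hx => by
    rw [Subgroup.mem_bot, ← pow_a_of_dvd H ha1 (Subgroup.orderOf_dvd_natCard H hx.2)]
    exact (hmem x).mp hx.1
  have hKc : Nat.card K = H.index := by
    have h := card_fibre H hHall helem ha1 ha0 hfus (1 : H)
    have e1 : conjInto H ((1 : H) : G) = Nat.card G :=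
      Nat.card_congr (Equiv.subtypeUnivEquiv fun y => by simp)
    rw [e1, ← hcard] at h
    have h' := Nat.eq_of_mul_eq_mul_left Nat.card_pos h
    rw [← h']
    exact Nat.card_congr (Equiv.subtypeEquivRight fun g => by rw [hmem]; simp)
  have hcompl : Subgroup.IsComplement' K H := Subgroup.isComplement'_of_card_mul_and_disjoint
    (by rw [hKc, mul_comm, hcard]) (disjoint_iff.mpr hKH)
  exact ⟨K, hKn, hcompl.sup_eq_top, hKH⟩

end Cfsg.Agent.S0877
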