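import Cfsg.Statements.S0878
import Cfsg.Agent.Lib.Zassenhaus.Basic
import Mathlib.Tactic

set_option autoImplicit false
open Cfsg

namespace Cfsg.Agent.S0878

open Cfsg.Agent.Lib

theorem result {G Ω : Type*} [Group G] [Finite G] [MulAction G Ω] [Fintype Ω] (hZ : Cfsg.IsZassenhausGroup G Ω) (a : Ω) (H : Subgroup G) (hHa : H ≤ MulAction.stabilizer G a) (hHcard : Nat.card H + 1 = Fintype.card Ω) (hHfix : ∀ u ∈ H, u ≠ 1 → ∀ c : Ω, u • c = c → c = a) : (∀ g : G, g ∉ MulAction.stabilizer G a → ∀ u ∈ H, g * u * g⁻¹ ∈ H → u = 1) ∧ Subgroup.normalizer (H : Set G) = MulAction.stabilizer G a := by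
  classical
  have hkey : ∀ g : G, ∀ u ∈ H, g * u * g⁻¹ ∈ H → u ≠ 1 → g • a = a := by
    intro g u hu hgu hu1
    refine hHfix _ hgu (fun e => hu1 ?_) _ ?_
    · rwa [mul_inv_eq_one, mul_eq_left] at e
    · rw [smul_smul, inv_mul_cancel_right, mul_smul]
      congr 1
      exact hHa hu
  refine ⟨fun g hg u hu hgu => by_contra fun h => hg (hkey g u hu hgu h), le_antisymm (fun g hg => ?_) ?_⟩
  · obtain ⟨u, hu, hu1⟩ : ∃ u ∈ H, u ≠ 1 := by
      by_contra hc
      push Not at hc
      have h1 : Nat.card H = 1 := by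
        rw [(Subgroup.eq_bot_iff_forall H).mpr hc, Subgroup.card_bot]
      obtain ⟨hf, -, -, ⟨g0, hg0, c, d, hcd, hgc, hgd⟩, -⟩ := hZ
      refine hg0 (hf.eq_of_smul_eq_smul fun e => ?_)
      rw [one_smul]
      by_cases hec : e = c
      · rw [hec, hgc]
      by_cases hed : e = d
      · rw [hed, hgd]
      exfalso
      have h3 : 3 ≤ Fintype.card Ω := by
        have : ({c, d, e} : Finset Ω).card ≤ Fintype.card Ω := Finset.card_le_univ _
        rwa [Finset.card_insert_of_notMem (by simp [hcd, Ne.symm hec]),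
          Finset.card_pair (Ne.symm hed)] at this
      omega
    exact hkey g u hu ((hg u).mp hu) hu1
  · intro x hx n
    refine ⟨Zassenhaus.kernel_conj_mem hZ a H hHa hHcard hHfix hx, fun hn => ?_⟩
    have := Zassenhaus.kernel_conj_mem hZ a H hHa hHcard hHfix ((MulAction.stabilizer G a).inv_mem hx) hn
    simpa [mul_assoc] using this

end Cfsg.Agent.S0878
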