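import Cfsg.Statements.S0879
import Cfsg.Agent.Lib.Zassenhaus.Basic
import Mathlib.Tactic

set_option autoImplicit false
open Cfsg

namespace Cfsg.Agent.S0879

open Cfsg.Agent.Lib MulAction

theorem result {G Ω : Type*} [Group G] [Finite G] [MulAction G Ω] [Fintype Ω] (hZ : Cfsg.IsZassenhausGroup G Ω) {a b : Ω} (hab : a ≠ b) : (∀ g : G, g ∉ Subgroup.normalizer ((MulAction.stabilizer G a ⊓ MulAction.stabilizer G b : Subgroup G) : Set G) → ∀ x ∈ (MulAction.stabilizer G a ⊓ MulAction.stabilizer G b : Subgroup G), g * x * g⁻¹ ∈ (MulAction.stabilizer G a ⊓ MulAction.stabilizer G b : Subgroup G) → x = 1) ∧ ((MulAction.stabilizer G a ⊓ MulAction.stabilizer G b : Subgroup G).subgroupOf (Subgroup.normalizer ((MulAction.stabilizer G a ⊓ MulAction.stabilizer G b : Subgroup G) : Set G))).index = 2 := by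
  classical
  set D : Subgroup G := stabilizer G a ⊓ stabilizer G b with hD
  have hpres : ∀ g : G, ∀ x ∈ D, g * x * g⁻¹ ∈ D → x ≠ 1 →
      (g • a = a ∧ g • b = b) ∨ (g • a = b ∧ g • b = a) := by
    intro g x hx hgx hx1
    have hne : g * x * g⁻¹ ≠ 1 := fun e => hx1 (by rwa [mul_inv_eq_one, mul_eq_left] at e)
    have hfix : ∀ c : Ω, x • c = c → (g * x * g⁻¹) • (g • c) = g • c := fun c hc => by
      rw [smul_smul, inv_mul_cancel_right, mul_smul, hc]
    rcases Zassenhaus.two_point_fixed hZ hab hgx hne (hfix a hx.1) with h | h <;>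
      rcases Zassenhaus.two_point_fixed hZ hab hgx hne (hfix b hx.2) with h' | h'
    · exact absurd (MulAction.injective g (h.trans h'.symm)) hab
    · exact Or.inl ⟨h, h'⟩
    · exact Or.inr ⟨h, h'⟩
    · exact absurd (MulAction.injective g (h.trans h'.symm)) hab
  have hnorm : ∀ g : G, ((g • a = a ∧ g • b = b) ∨ (g • a = b ∧ g • b = a)) →
      g ∈ Subgroup.normalizer (D : Set G) := by
    intro g hg n
    have key : ∀ c : Ω, (g * n * g⁻¹) • (g • c) = g • c ↔ n • c = c := fun c => by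
      rw [smul_smul, inv_mul_cancel_right, mul_smul, smul_left_cancel_iff]
    show (n • a = a ∧ n • b = b) ↔ ((g * n * g⁻¹) • a = a ∧ (g * n * g⁻¹) • b = b)
    rcases hg with ⟨h1, h2⟩ | ⟨h1, h2⟩
    · have e1 := key a; have e2 := key b
      rw [h1] at e1; rw [h2] at e2
      rw [e1, e2]
    · have e1 := key a; have e2 := key b
      rw [h1] at e1; rw [h2] at e2
      rw [e1, e2]; exact and_comm
  refine ⟨fun g hg x hx hgx => by_contra fun h => hg (hnorm g (hpres g x hx hgx h)), ?_⟩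
  obtain ⟨x₀, hx₀, hx₀1⟩ := Zassenhaus.exists_two_point hZ hab
  obtain ⟨w, hwa, hwb⟩ := Zassenhaus.exists_map_pair hZ hab hab.symm
  rw [Subgroup.index_eq_two_iff]
  refine ⟨⟨w, hnorm w (Or.inr ⟨hwa, hwb⟩)⟩, fun g => ?_⟩
  simp only [Subgroup.mem_subgroupOf, Subgroup.coe_mul]
  rcases hpres g x₀ hx₀ (((g.2 : (g : G) ∈ Subgroup.normalizer (D : Set G)) x₀).mp hx₀) hx₀1 with
    ⟨h1, h2⟩ | ⟨h1, h2⟩
  · refine Or.inr ⟨⟨h1, h2⟩, fun hh => ?_⟩
    have h3 : ((g : G) * w) • a = a := hh.1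
    rw [mul_smul, hwa, h2] at h3
    exact hab h3.symm
  · refine Or.inl ⟨⟨?_, ?_⟩, fun hh => ?_⟩
    · show ((g : G) * w) • a = a
      rw [mul_smul, hwa, h2]
    · show ((g : G) * w) • b = b
      rw [mul_smul, hwb, h1]
    · have h3 : (g : G) • a = a := hh.1
      rw [h1] at h3
      exact hab h3.symm

end Cfsg.Agent.S0879
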