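import Cfsg.Statements.S0880
import Cfsg.Agent.Lib.ZassFrob.OddStab

set_option autoImplicit false
open Cfsg

namespace Cfsg.Agent.S0880

open MulAction Cfsg.Agent.Lib.ZassFrob

/-- Let G be a finite simple Zassenhaus group on Ω with n points whose two-point stabilizer E has odd order less than n - 2. Then there are two elements of G, each fixing no point of Ω, that are not conjugate. -/
theorem result {G Ω : Type*} [Group G] [Finite G] [MulAction G Ω] [Fintype Ω] (hZ : Cfsg.IsZassenhausGroup G Ω) {a b : Ω} (hab : a ≠ b) [IsSimpleGroup G] (hodd : Odd (Nat.card ↥(MulAction.stabilizer G a ⊓ MulAction.stabilizer G b : Subgroup G))) (hlt : Nat.card ↥(MulAction.stabilizer G a ⊓ MulAction.stabilizer G b : Subgroup G) < Fintype.card Ω - 2) : ∃ x y : G, (∀ c : Ω, x • c ≠ c) ∧ (∀ c : Ω, y • c ≠ c) ∧ ¬ IsConj x y := by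
  classical
  haveI := Fintype.ofFinite G
  set d := Nat.card ↥(MulAction.stabilizer G a ⊓ MulAction.stabilizer G b) with hdd
  set n := Fintype.card Ω with hn
  have hn2 : 2 < n := by rw [hn, ← Nat.card_eq_fintype_card]; exact two_lt_card hZ hab
  have hd3 : 3 ≤ d := by
    obtain ⟨k, hk⟩ := hodd
    have : d ≠ 1 := fun e => twoPt_ne_bot hZ hab (Subgroup.card_eq_one.mp e)
    omega
  have hsum1 : ∑ g : G, (Finset.univ.filter fun x : Ω => g • x = x).card = n * ((n - 1) * d) := by
    simp only [Finset.card_filter]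
    rw [Finset.sum_comm]
    have : ∀ x : Ω, (∑ g : G, if g • x = x then 1 else 0) = (n - 1) * d := by
      intro x
      obtain ⟨y, hy⟩ : ∃ y, y ≠ x := by
        by_contra h
        push Not at h
        exact hab ((h a).trans (h b).symm)
      rw [← Finset.card_filter, ← Fintype.card_subtype]
      have e : Nat.card (MulAction.stabilizer G x) = (n - 1) * d := by
        rw [card_stab hZ hy.symm, Nat.card_eq_fintype_card (α := Ω)]
        congr 1
        obtain ⟨g, h1, h2⟩ := exists_map_pair hZ hy.symm hab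
        refine Nat.card_congr ((MulAut.conj g).toEquiv.subtypeEquiv fun k => ?_)
        show _ ↔ (g * k * g⁻¹ ∈ MulAction.stabilizer G a ⊓ MulAction.stabilizer G b)
        rw [Subgroup.mem_inf, Subgroup.mem_inf, MulAction.mem_stabilizer_iff, MulAction.mem_stabilizer_iff,
          MulAction.mem_stabilizer_iff, MulAction.mem_stabilizer_iff, ← h1, ← h2]
        simp [mul_smul]
      rw [← e, Nat.card_eq_fintype_card]
      rfl
    rw [Finset.sum_congr rfl fun x _ => this x, Finset.sum_const, Finset.card_univ, smul_eq_mul, ← hn]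
  have hsum2 : ∑ g : G, (Finset.univ.offDiag.filter fun p : Ω × Ω => g • p.1 = p.1 ∧ g • p.2 = p.2).card =
      (n * n - n) * d := by
    simp only [Finset.card_filter]
    rw [Finset.sum_comm]
    have : ∀ p ∈ (Finset.univ : Finset Ω).offDiag,
        (∑ g : G, if g • p.1 = p.1 ∧ g • p.2 = p.2 then 1 else 0) = d := by
      intro p hp
      obtain ⟨g, h1, h2⟩ := exists_map_pair hZ (Finset.mem_offDiag.mp hp).2.2 hab
      rw [← Finset.card_filter, ← Fintype.card_subtype, ← Nat.card_eq_fintype_card]
      refine Nat.card_congr ((MulAut.conj g).toEquiv.subtypeEquiv fun k => ?_)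
      show _ ↔ (g * k * g⁻¹ ∈ MulAction.stabilizer G a ⊓ MulAction.stabilizer G b)
      rw [Subgroup.mem_inf, MulAction.mem_stabilizer_iff, MulAction.mem_stabilizer_iff, ← h1, ← h2]
      simp [mul_smul]
    rw [Finset.sum_congr rfl this, Finset.sum_const, Finset.offDiag_card, Finset.card_univ,
      smul_eq_mul, ← hn]
  set Z := Finset.univ.filter fun g : G => ∀ c : Ω, g • c ≠ c with hZdef
  have hcount : 2 * (Z.card : ℤ) = ((n : ℤ) - 1) * (n * d - n + 2) := by
    have hpt : ∀ g : G, (2 : ℤ) * (if g ∈ Z then 1 else 0) =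
        2 - 2 * ((Finset.univ.filter fun x : Ω => g • x = x).card : ℤ) +
          ((Finset.univ.offDiag.filter fun p : Ω × Ω => g • p.1 = p.1 ∧ g • p.2 = p.2).card : ℤ) -
          (if g = 1 then (2 - 2 * (n : ℤ) + ((n * n - n : ℕ) : ℤ)) else 0) := by
      intro g
      set F := Finset.univ.filter fun x : Ω => g • x = x with hF
      have e : (Finset.univ.offDiag.filter fun p : Ω × Ω => g • p.1 = p.1 ∧ g • p.2 = p.2) = F.offDiag := by
        ext p; simp [hF, Finset.mem_offDiag]; tauto
      rw [e, Finset.offDiag_card]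
      have hmem : g ∈ Z ↔ F.card = 0 := by
        simp [hZdef, hF, Finset.filter_eq_empty_iff]
      by_cases hg : g = 1
      · subst hg
        have : F = Finset.univ := by simp [hF]
        have hne : (1 : G) ∉ Z := by rw [hmem, this, Finset.card_univ]; omega
        rw [if_pos rfl, if_neg hne, this, Finset.card_univ, ← hn]
        ring
      · have hle : F.card ≤ 2 := by
          by_contra h
          obtain ⟨x, y, z, hx, hy, hz, hxy, hxz, hyz⟩ := Finset.two_lt_card_iff.mp (not_le.mp h)
          simp only [hF, Finset.mem_filter] at hx hy hz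
          exact hg (hZ.2.2.1 g x y z hxy hyz hxz hx.2 hy.2 hz.2)
        rw [if_neg hg]
        simp only [hmem]
        interval_cases hh : F.card <;> simp
    have h := Finset.sum_congr (rfl : (Finset.univ : Finset G) = Finset.univ) fun g _ => hpt g
    simp only [← Finset.mul_sum, Finset.sum_boole, Finset.filter_mem_eq_inter, Finset.univ_inter,
      Finset.sum_sub_distrib, Finset.sum_add_distrib, Finset.sum_ite_eq', Finset.mem_univ, if_true,
      ← Nat.cast_sum, hsum1, hsum2, Finset.sum_const, Finset.card_univ, nsmul_eq_mul] at h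
    have hG : Fintype.card G = n * (n - 1) * d := by
      rw [← Nat.card_eq_fintype_card, card_group hZ hab, Nat.card_eq_fintype_card (α := Ω)]
    rw [hG] at h
    push_cast [Nat.cast_sub (show 1 ≤ n by omega), Nat.cast_sub (show n ≤ n * n by nlinarith)] at h
    linear_combination h
  have hpos : Z.Nonempty := by
    rw [← Finset.card_pos]
    have h1 : (0 : ℤ) < ((n : ℤ) - 1) * (n * d - n + 2) :=
      mul_pos (by omega) (by nlinarith [show (3 : ℤ) ≤ d by exact_mod_cast hd3])
    omega
  obtain ⟨x, hx⟩ := hpos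
  have hx' := (Finset.mem_filter.mp hx).2
  by_contra hall
  push Not at hall
  have hclass : ∀ y, y ∈ Z ↔ y ∈ MulAction.orbit (ConjAct G) x := fun y => by
    rw [ConjAct.mem_orbit_conjAct, isConj_comm]
    refine ⟨fun hy => hall x y hx' (Finset.mem_filter.mp hy).2, fun hy => ?_⟩
    obtain ⟨g, hg⟩ := isConj_iff.mp hy
    refine Finset.mem_filter.mpr ⟨Finset.mem_univ _, fun c hc => hx' (g⁻¹ • c) ?_⟩
    rw [← hg, mul_smul, mul_smul] at hc
    exact smul_left_cancel g (by rw [hc, smul_inv_smul])
  have hdvd : Z.card ∣ Nat.card G := by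
    have h1 := Nat.card_congr (MulAction.orbitEquivQuotientStabilizer (ConjAct G) x)
    rw [← Subgroup.index_eq_card] at h1
    have h2 : Z.card = Nat.card (MulAction.orbit (ConjAct G) x) :=
      (Fintype.card_coe Z).symm.trans (Nat.card_eq_fintype_card.symm.trans
        (Nat.card_congr (Equiv.subtypeEquivRight hclass)))
    rw [h2, h1]
    exact (Subgroup.index_dvd_card _).trans (dvd_of_eq (Nat.card_congr ConjAct.ofConjAct.toEquiv))
  rw [card_group hZ hab, Nat.card_eq_fintype_card (α := Ω), ← hn] at hdvd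
  obtain ⟨k, hk⟩ := hdvd
  have hk' : ((n : ℤ) * ((n : ℤ) - 1) * d) = Z.card * k := by
    have := congrArg (fun m : ℕ => (m : ℤ)) hk
    push_cast [Nat.cast_sub (show 1 ≤ n by omega)] at this
    exact this
  -- `n d - n + 2` divides `2 n d`, and is prime to `n / gcd`
  have h1 : 2 * (n : ℤ) * d = (n * d - n + 2) * k := by
    refine mul_left_cancel₀ (show ((n : ℤ) - 1) ≠ 0 by omega) ?_
    linear_combination 2 * hk' + (k : ℤ) * hcount
  have hklt : (k : ℤ) < 3 := by
    by_contra hge
    have h3 : (n * d - n + 2 : ℤ) * 3 ≤ (n * d - n + 2) * k :=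
      mul_le_mul_of_nonneg_left (not_lt.mp hge) (by nlinarith [show (3 : ℤ) ≤ d by exact_mod_cast hd3])
    nlinarith [show (3 : ℤ) ≤ d by exact_mod_cast hd3]
  have hk0 : (0 : ℤ) ≤ k := Int.natCast_nonneg k
  interval_cases (k : ℤ)
  · nlinarith
  · nlinarith
  · nlinarith

end Cfsg.Agent.S0880
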