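import Cfsg.Statements.S0882
import Mathlib
import Cfsg.Agent.Lib.ZassFrob.OddStab

set_option autoImplicit false
open Cfsg

namespace Cfsg.Agent.S0882

open Cfsg.Agent.Lib.ZassFrob MulAction

/-- Let G be a finite simple Zassenhaus group on Ω with n = h + 1 points whose two-point stabilizer E has odd order e with 2e < h - 1. Then any two involutions of G are conjugate, and the number of involutions is e * (h + 1) if h is even and e * h if h is odd. -/
theorem result {G Ω : Type*} [Group G] [Finite G] [MulAction G Ω] [Fintype Ω] (hZ : Cfsg.IsZassenhausGroup G Ω) {a b : Ω} (hab : a ≠ b) [IsSimpleGroup G] (h e : ℕ) (hh : Fintype.card Ω = h + 1) (he : Nat.card ↥(MulAction.stabilizer G a ⊓ MulAction.stabilizer G b : Subgroup G) = e) (hodd : Odd e) (hlt : 2 * e < h - 1) : (∀ x y : G, orderOf x = 2 → orderOf y = 2 → IsConj x y) ∧ Nat.card {x : G // orderOf x = 2} = (if Even h then e * (h + 1) else e * h) := by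
  classical
  have he' : Odd (Nat.card ↥(stabilizer G a ⊓ stabilizer G b)) := by rw [he]; exact hodd
  have hnil : ∀ q : ℕ, q.Prime → q ∣ Nat.card ↥(stabilizer G a ⊓ stabilizer G b) →
      ¬ ∃ N : Subgroup G, N.Normal ∧ N.index = q ^ (Nat.card G).factorization q := by
    rintro q hq hqd ⟨N, hN, hidx⟩
    have hdvd : Nat.card ↥(stabilizer G a ⊓ stabilizer G b) ∣ Nat.card G :=
      Subgroup.card_subgroup_dvd_card _
    have hpos : 0 < (Nat.card G).factorization q :=
      hq.factorization_pos_of_dvd Nat.card_pos.ne' (hqd.trans hdvd)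
    rcases hN.eq_bot_or_eq_top with rfl | rfl
    · rw [Subgroup.index_bot] at hidx
      have h2 : 2 ∣ Nat.card G := by
        rw [card_group hZ hab]
        refine Dvd.dvd.mul_right ?_ _
        rw [← even_iff_two_dvd, Nat.card_eq_fintype_card, hh, Nat.add_sub_cancel,
          mul_comm]
        exact Nat.even_mul_succ_self h
      rw [hidx] at h2
      have := (Nat.prime_dvd_prime_iff_eq Nat.prime_two hq).mp (Nat.prime_two.dvd_of_dvd_pow h2)
      exact he'.not_two_dvd_nat (this ▸ hqd)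
    · rw [Subgroup.index_top] at hidx
      exact hq.one_lt.ne' (by
        rcases Nat.pow_eq_one.mp hidx.symm with h1 | h1
        · exact h1
        · omega)
  obtain ⟨hcyc, hinv⟩ := odd_stab_inverted hZ hab he' hnil
  set E := stabilizer G a ⊓ stabilizer G b with hE
  have hodd_ord : ∀ x ∈ E, Odd (orderOf x) := fun x hx =>
    he'.of_dvd_nat (Subgroup.orderOf_dvd_natCard _ hx)
  -- every element interchanging `a` and `b` is an involution
  have hswap : ∀ s : G, s • a = b → s • b = a → s ≠ 1 ∧ s * s = 1 := by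
    intro s hsa hsb
    refine ⟨fun h => hab (by rw [← hsa, h, one_smul]), ?_⟩
    have hss : s * s ∈ E := ⟨by show (s * s) • a = a; rw [mul_smul, hsa, hsb],
      by show (s * s) • b = b; rw [mul_smul, hsb, hsa]⟩
    have h := hinv s hsa hsb _ hss
    rw [show s * (s * s) * s⁻¹ = s * s by group] at h
    obtain ⟨k, hk⟩ := hodd_ord _ hss
    have h2 : (s * s) ^ 2 = 1 := by rw [pow_two]; nth_rw 2 [h]; exact mul_inv_cancel _
    calc s * s = (s * s) ^ (2 * k + 1) * (((s * s) ^ 2) ^ k)⁻¹ := by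
          rw [pow_succ', ← pow_mul]; group
      _ = 1 := by rw [← hk, pow_orderOf_eq_one, h2]; simp
  obtain ⟨s, hsa, hsb⟩ := exists_map_pair hZ hab (Ne.symm hab)
  have hword : ∀ x : G, orderOf x = 2 ↔ x ≠ 1 ∧ x * x = 1 := fun x => by
    rw [orderOf_eq_prime_iff, pow_two]; tauto
  have hto : ∀ x : G, orderOf x = 2 → ∃ g : G, g * x * g⁻¹ = s := by
    intro x hx
    obtain ⟨hx1, hxx⟩ := (hword x).mp hx
    haveI := hZ.1
    obtain ⟨p, hp⟩ : ∃ p : Ω, x • p ≠ p := by
      by_contra hcon; push Not at hcon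
      exact hx1 (FaithfulSMul.eq_of_smul_eq_smul (α := Ω) fun p => by rw [hcon p, one_smul])
    obtain ⟨g, h1, h2⟩ := exists_map_pair hZ (Ne.symm hp) hab
    set w := g * x * g⁻¹ with hw
    have hwa : w • a = b := by rw [hw, mul_smul, mul_smul, inv_smul_eq_iff.mpr h1.symm, h2]
    have hwb : w • b = a := by
      rw [hw, mul_smul, mul_smul, inv_smul_eq_iff.mpr h2.symm, smul_smul x x, hxx, one_smul, h1]
    set δ := s⁻¹ * w with hδ
    have hδE : δ ∈ E := ⟨by show δ • a = a; rw [hδ, mul_smul, hwa, ← hsa, inv_smul_smul],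
      by show δ • b = b; rw [hδ, mul_smul, hwb, ← hsb, inv_smul_smul]⟩
    obtain ⟨k, hk⟩ := hodd_ord _ hδE
    set c := δ ^ (k + 1) with hc
    have hcc : c * c = δ := by
      rw [hc, ← pow_add, show k + 1 + (k + 1) = orderOf δ + 1 by omega, pow_succ,
        pow_orderOf_eq_one, one_mul]
    have hcs : s * c * s⁻¹ = c⁻¹ := hinv s hsa hsb c (E.pow_mem hδE _)
    refine ⟨c * g, ?_⟩
    calc c * g * x * (c * g)⁻¹ = c * (s * δ) * c⁻¹ := by rw [hδ, hw]; group
      _ = c * (s * c) := by rw [← hcc]; group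
      _ = c * (s * c * s⁻¹) * s := by group
      _ = s := by rw [hcs, mul_inv_cancel, one_mul]
  refine ⟨fun x y hx hy => ?_, ?_⟩
  · obtain ⟨g, hg⟩ := hto x hx
    obtain ⟨g', hg'⟩ := hto y hy
    exact isConj_iff.mpr ⟨g'⁻¹ * g, by
      calc g'⁻¹ * g * x * (g'⁻¹ * g)⁻¹ = g'⁻¹ * (g * x * g⁻¹) * g' := by group
        _ = g'⁻¹ * (g' * y * g'⁻¹) * g' := by rw [hg, hg']
        _ = y := by group⟩
  set W : Set G := {x | orderOf x = 2} with hW
  have hWc : ∀ g : G, ∀ w ∈ W, g * w * g⁻¹ ∈ W := fun g w hw => by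
    show orderOf (g * w * g⁻¹) = 2
    rw [← MulAut.conj_apply, MulEquiv.orderOf_eq]; exact hw
  have hcount := card_swapped_pairs hZ hab W hWc
  set f : ℕ := if Even h then 1 else 0 with hf
  have hfix : ∀ w ∈ W, Nat.card {x : Ω // w • x ≠ x} = Fintype.card Ω - f := by
    intro w hw
    obtain ⟨hw1, hww⟩ := (hword w).mp hw
    rw [Nat.card_eq_fintype_card, Fintype.card_subtype_compl]
    congr 1
    have hle : Fintype.card {x : Ω // w • x = x} ≤ 1 := by
      refine Fintype.card_le_one_iff.mpr fun ⟨p, hp⟩ ⟨q, hq⟩ => Subtype.ext ?_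
      by_contra hpq
      obtain ⟨g, h1, h2⟩ := exists_map_pair hZ hpq hab
      have hm : g * w * g⁻¹ ∈ E :=
        ⟨by show (g * w * g⁻¹) • a = a; rw [mul_smul, mul_smul, inv_smul_eq_iff.mpr h1.symm, hp, h1],
         by show (g * w * g⁻¹) • b = b; rw [mul_smul, mul_smul, inv_smul_eq_iff.mpr h2.symm, hq, h2]⟩
      have := hodd_ord _ hm
      rw [show orderOf (g * w * g⁻¹) = 2 from hWc g w hw] at this
      exact absurd this (by decide)
    haveI : Fact (Nat.Prime 2) := ⟨Nat.prime_two⟩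
    have hmod := Equiv.Perm.card_fixedPoints_modEq (p := 2) (n := 1)
      (f := fun x : Ω => w • x) (by
        funext x; show w • (w • x) = x; rw [smul_smul, hww, one_smul])
    rw [hh] at hmod
    have hmod' : (h + 1) % 2 = Fintype.card {x : Ω // w • x = x} % 2 := hmod
    rw [hf]
    split_ifs with hev
    · obtain ⟨k, rfl⟩ := hev; omega
    · obtain ⟨k, rfl⟩ := Nat.not_even_iff_odd.mp hev; omega
  have hJ : Nat.card {w : G // w ∈ W ∧ w • a = b} = e := by
    rw [← he]
    refine (Nat.card_eq_of_bijective (fun δ : E => (⟨s * δ, ?_, ?_⟩ :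
      {w : G // w ∈ W ∧ w • a = b})) ⟨fun δ δ' h => Subtype.ext (mul_left_cancel
        (congrArg Subtype.val h)), fun w => ?_⟩).symm
    · exact (hword _).mpr (hswap _ (by rw [mul_smul, mem_stabilizer_iff.mp δ.2.1, hsa])
        (by rw [mul_smul, mem_stabilizer_iff.mp δ.2.2, hsb]))
    · rw [mul_smul, mem_stabilizer_iff.mp δ.2.1, hsa]
    · have hwb : (w : G) • b = a := by
        calc (w : G) • b = (w : G) • ((w : G) • a) := congrArg _ w.2.2.symm
          _ = a := by rw [smul_smul, ((hword _).mp w.2.1).2, one_smul]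
      exact ⟨⟨s⁻¹ * w, by show (s⁻¹ * (w : G)) • a = a; rw [mul_smul, w.2.2, ← hsa, inv_smul_smul],
        by show (s⁻¹ * (w : G)) • b = b; rw [mul_smul, hwb, ← hsb, inv_smul_smul]⟩,
        Subtype.ext (mul_inv_cancel_left _ _)⟩
  haveI := Fintype.ofFinite W
  have hleft : Nat.card {p : W × Ω // (p.1 : G) • p.2 ≠ p.2} = Nat.card W * (Fintype.card Ω - f) := by
    rw [Nat.card_congr ((Equiv.subtypeProdEquivSigmaSubtype
        fun (w : W) (x : Ω) => (w : G) • x ≠ x)),
      Nat.card_sigma, Finset.sum_congr rfl (fun (w : W) _ => hfix w.1 w.2), Finset.sum_const,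
      Finset.card_univ, smul_eq_mul, ← Nat.card_eq_fintype_card]
  rw [hleft, hJ, Nat.card_eq_fintype_card (α := Ω), hh, Nat.add_sub_cancel] at hcount
  show Nat.card W = _
  rw [hf] at hcount
  split_ifs at hcount ⊢ with hev
  · rw [Nat.add_sub_cancel] at hcount
    refine Nat.eq_of_mul_eq_mul_right (show 0 < h by omega) ?_
    rw [hcount]; ring
  · rw [Nat.sub_zero] at hcount
    refine Nat.eq_of_mul_eq_mul_right (show 0 < h + 1 by omega) ?_
    rw [hcount]; ring

end Cfsg.Agent.S0882
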