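import Cfsg.Statements.S0883
import Mathlib
import Cfsg.Agent.Lib.ZassFrob.Basic
import Cfsg.Agent.Lib.RankOne.Nilpotent

set_option autoImplicit false
open Cfsg

namespace Cfsg.Agent.S0883

open Cfsg.Agent.Lib.ZassFrob MulAction

/-- Let G be a finite simple Zassenhaus group on Ω with h + 1 points whose two-point stabilizer E has odd order e with 2e < h - 1, and let H be the subgroup of the stabilizer of a consisting of the identity and the elements fixing no point other than a (given here as a subgroup of the stabilizer of order one less than the number of points whose non-identity elements fix only a; it is the Frobenius kernel of the stabilizer). If a non-identity element u of H is a product of two involutions of G, then u is an involution. -/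
theorem result {G Ω : Type*} [Group G] [Finite G] [MulAction G Ω] [Fintype Ω] (hZ : Cfsg.IsZassenhausGroup G Ω) {a b : Ω} (hab : a ≠ b) [IsSimpleGroup G] (h e : ℕ) (hh : Fintype.card Ω = h + 1) (he : Nat.card ↥(MulAction.stabilizer G a ⊓ MulAction.stabilizer G b : Subgroup G) = e) (hodd : Odd e) (hlt : 2 * e < h - 1) (H : Subgroup G) (hHa : H ≤ MulAction.stabilizer G a) (hHcard : Nat.card H + 1 = Fintype.card Ω) (hHfix : ∀ u ∈ H, u ≠ 1 → ∀ c : Ω, u • c = c → c = a) (u : G) (hu : u ∈ H) (hu1 : u ≠ 1) (x y : G) (hx : orderOf x = 2) (hy : orderOf y = 2) (hxy : x * y = u) : orderOf u = 2 := by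
  classical
  have hx' : x ≠ 1 ∧ x * x = 1 := by
    rw [orderOf_eq_prime_iff, pow_two] at hx; exact ⟨hx.2, hx.1⟩
  have hy' : y ≠ 1 ∧ y * y = 1 := by
    rw [orderOf_eq_prime_iff, pow_two] at hy; exact ⟨hy.2, hy.1⟩
  have xi := inv_eq_of_mul_eq_one_right hx'.2
  have yi := inv_eq_of_mul_eq_one_right hy'.2
  have hua : u • a = a := hHa hu
  -- both involutions fix `a`
  have hxa : x • a = a := by
    refine hHfix u hu hu1 _ ?_
    have e : u * x = x * u⁻¹ := by rw [← hxy, mul_inv_rev, xi, yi, mul_assoc]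
    rw [smul_smul, e, mul_smul, inv_fix hua]
  have hya : y • a = a := by
    have : y = x * u := by rw [← hxy, ← mul_assoc, hx'.2, one_mul]
    rw [this, mul_smul, hua, hxa]
  -- the rank-one set-up at `a`
  obtain ⟨g, hg⟩ := exists_move hZ a b
  set t := g * x * g⁻¹ with ht
  have ht1 : t ≠ 1 := fun h => hx'.1 (conj_eq_one_iff.mp h)
  have htt : t * t = 1 := by
    rw [ht]; simp only [mul_assoc, inv_mul_cancel_left]
    rw [← mul_assoc x x, hx'.2, one_mul, mul_inv_cancel]
  have hodd' : ∀ c : Ω, a ≠ c → Odd (Nat.card ↥(stabilizer G a ⊓ stabilizer G c)) := fun c hc => by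
    have h1 := card_stab hZ hab
    rw [card_stab hZ hc] at h1
    have h2 := two_lt_card hZ hab
    rw [Nat.eq_of_mul_eq_mul_left (by omega) h1, he]
    exact hodd
  have hta : t • a ≠ a := by
    intro h
    have hxga : x • (g⁻¹ • a) = g⁻¹ • a := by
      rw [ht, mul_smul, mul_smul, ← eq_inv_smul_iff] at h
      exact h
    have hne : g⁻¹ • a ≠ a := fun h' => hab (by rw [← hg]; exact (eq_inv_smul_iff.mp h'.symm).symm)
    have := (hodd' _ hne.symm).of_dvd_nat (Subgroup.orderOf_dvd_natCard _
      (show x ∈ stabilizer G a ⊓ stabilizer G (g⁻¹ • a) from ⟨hxa, hxga⟩))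
    rw [hx] at this
    exact absurd this (by decide)
  obtain ⟨K, hKle, hKn, hKnil, hKb, hKs, hKc, -⟩ := exists_kernel hZ (Ne.symm hta)
  have hHc : Nat.card H + 1 = Nat.card Ω := by rw [hHcard, Nat.card_eq_fintype_card]
  obtain rfl := kernel_unique hZ (Ne.symm hta) hHa hHfix hHc hKle hKn hKb hKs hKc
  have heven : Even (Nat.card H) := by
    have hdvd : 2 ∣ Nat.card (stabilizer G a) :=
      hx ▸ Subgroup.orderOf_dvd_natCard (x := x) _ hxa
    rw [card_stab hZ (Ne.symm hta), ← hKc, Nat.add_sub_cancel] at hdvd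
    rw [even_iff_two_dvd]
    exact (Nat.prime_two.dvd_mul.mp hdvd).resolve_right
      (hodd' _ (Ne.symm hta)).not_two_dvd_nat
  have hS : IsRankOneSetup G Ω a t H :=
    ⟨hZ.2.1, htt, ht1, hta, hKle, hKn, hKb, hKs, heven, hodd' _ (Ne.symm hta)⟩
  haveI := hKnil
  have h2 := Lib.RankOne.invol_mul hS (s := x) (s' := y) ⟨hxa, hx'.1, hx'.2⟩ ⟨hya, hy'.1, hy'.2⟩
  rw [hxy] at h2
  exact orderOf_eq_prime (by rw [pow_two]; exact h2) hu1

end Cfsg.Agent.S0883
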