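import Cfsg.Statements.S0884
import Mathlib
import Cfsg.Agent.S0882
import Cfsg.Agent.S0883
import Cfsg.Agent.Lib.ZassFrob.Basic

set_option autoImplicit false
open Cfsg

namespace Cfsg.Agent.S0884

open Cfsg.Agent.Lib.ZassFrob MulAction

/-- Let G be a finite simple Zassenhaus group on Ω with h + 1 points whose two-point stabilizer E has odd order e with 2e < h - 1, and let H be the subgroup of the stabilizer of a consisting of the identity and the elements fixing no point other than a (given here as a subgroup of the stabilizer of order one less than the number of points whose non-identity elements fix only a; it is the Frobenius kernel of the stabilizer). Then at least e conjugacy classes of G contain no element of H. -/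
theorem result {G Ω : Type*} [Group G] [Finite G] [MulAction G Ω] [Fintype Ω] (hZ : Cfsg.IsZassenhausGroup G Ω) {a b : Ω} (hab : a ≠ b) [IsSimpleGroup G] (h e : ℕ) (hh : Fintype.card Ω = h + 1) (he : Nat.card ↥(MulAction.stabilizer G a ⊓ MulAction.stabilizer G b : Subgroup G) = e) (hodd : Odd e) (hlt : 2 * e < h - 1) (H : Subgroup G) (hHa : H ≤ MulAction.stabilizer G a) (hHcard : Nat.card H + 1 = Fintype.card Ω) (hHfix : ∀ u ∈ H, u ≠ 1 → ∀ c : Ω, u • c = c → c = a) : e ≤ Nat.card {C : ConjClasses G // ∀ g : G, ConjClasses.mk g = C → g ∉ H} := by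
  classical
  obtain ⟨-, hN⟩ := S0882.result hZ hab h e hh he hodd hlt
  have hword : ∀ x : G, orderOf x = 2 ↔ x ≠ 1 ∧ x * x = 1 := fun x => by
    rw [orderOf_eq_prime_iff, pow_two]; tauto
  have hconj2 : ∀ (g x : G), orderOf (g * x * g⁻¹) = orderOf x := fun g x => by
    rw [← MulAut.conj_apply, MulEquiv.orderOf_eq]
  set Avoid := {C : ConjClasses G // ∀ g : G, ConjClasses.mk g = C → g ∉ H} with hAvoid
  let I := {x : G // orderOf x = 2}
  -- the pairs whose product avoids every conjugate of `H`
  let T := {p : I × I // ∀ g : G, IsConj ((p.1 : G) * p.2) g → g ∉ H}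
  have hupper : Nat.card T ≤ Nat.card Avoid * Nat.card G := by
    rw [← Nat.card_prod]
    obtain ⟨R, hR⟩ : ∃ R : ConjClasses G → G, ∀ C, ConjClasses.mk (R C) = C :=
      ⟨Function.surjInv ConjClasses.mk_surjective, Function.surjInv_eq _⟩
    have hg : ∀ x : G, ∃ g : G, g * x * g⁻¹ = R (ConjClasses.mk x) := fun x =>
      isConj_iff.mp (ConjClasses.mk_eq_mk_iff_isConj.mp (hR (ConjClasses.mk x)).symm)
    choose g hg using hg
    let i₀ : ConjClasses G → G := fun C =>
      if h : ∃ i : G, i * R C * i⁻¹ = (R C)⁻¹ then h.choose else 1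
    let cls : T → Avoid := fun p => ⟨ConjClasses.mk ((p.1.1 : G) * p.1.2),
      fun g hg => p.2 g (ConjClasses.mk_eq_mk_iff_isConj.mp hg).symm⟩
    let φ : T → G := fun p => g ((p.1.1 : G) * p.1.2) * (p.1.1 : G) *
      (g ((p.1.1 : G) * p.1.2))⁻¹ * i₀ (cls p).1 * g ((p.1.1 : G) * p.1.2)
    -- `φ p` conjugates the product to the representative of its class
    have key : ∀ p : T, (φ p)⁻¹ * R (cls p).1 * φ p = (p.1.1 : G) * p.1.2 := by
      intro p
      set u : G := (p.1.1 : G)
      set v : G := (p.1.2 : G)
      set c := g (u * v) with hc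
      set r := R (cls p).1 with hr
      have hcr : c * (u * v) * c⁻¹ = r := hg (u * v)
      have hu2 : u * u = 1 := ((hword _).mp p.1.1.2).2
      have hu := inv_eq_of_mul_eq_one_right hu2
      have hv := inv_eq_of_mul_eq_one_right ((hword _).mp p.1.2.2).2
      have hinv : c * u * c⁻¹ * r * (c * u * c⁻¹)⁻¹ = r⁻¹ := by
        rw [← hcr]
        calc c * u * c⁻¹ * (c * (u * v) * c⁻¹) * (c * u * c⁻¹)⁻¹ =
            c * (u * (u * v) * u⁻¹) * c⁻¹ := by group
          _ = c * (v⁻¹ * u⁻¹) * c⁻¹ := by rw [← mul_assoc u u, hu2, one_mul, hv, hu]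
          _ = (c * (u * v) * c⁻¹)⁻¹ := by group
      have hex : ∃ i : G, i * r * i⁻¹ = r⁻¹ := ⟨_, hinv⟩
      have hi : i₀ (cls p).1 * r * (i₀ (cls p).1)⁻¹ = r⁻¹ := by
        simp only [i₀, ← hr, dif_pos hex]; exact hex.choose_spec
      set i := i₀ (cls p).1
      have hW : c * u * c⁻¹ * i * r = r * (c * u * c⁻¹ * i) := by
        calc c * u * c⁻¹ * i * r = c * u * c⁻¹ * (i * r * i⁻¹) * i := by group
          _ = (c * u * c⁻¹ * r * (c * u * c⁻¹)⁻¹)⁻¹ * (c * u * c⁻¹ * i) := by rw [hi]; group
          _ = r * (c * u * c⁻¹ * i) := by rw [hinv, inv_inv]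
      show (c * u * c⁻¹ * i * c)⁻¹ * r * (c * u * c⁻¹ * i * c) = u * v
      calc (c * u * c⁻¹ * i * c)⁻¹ * r * (c * u * c⁻¹ * i * c)
          = c⁻¹ * ((c * u * c⁻¹ * i)⁻¹ * (r * (c * u * c⁻¹ * i))) * c := by group
        _ = c⁻¹ * r * c := by rw [← hW]; group
        _ = u * v := by rw [← hcr]; group
    refine Nat.card_le_card_of_injective (fun p => (cls p, φ p)) fun p q hpq => ?_
    obtain ⟨hcl, hφ⟩ := Prod.mk.inj hpq
    have hx : (p.1.1 : G) * p.1.2 = q.1.1 * q.1.2 := by
      rw [← key p, ← key q, hφ, hcl]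
    have hu : (p.1.1 : G) = q.1.1 := by
      have h := hφ
      simp only [φ] at h
      rw [hcl, hx] at h
      exact mul_left_cancel (mul_right_cancel (mul_right_cancel (mul_right_cancel h)))
    refine Subtype.ext (Prod.ext (Subtype.ext hu) (Subtype.ext ?_))
    rw [hu] at hx
    exact mul_left_cancel hx
  have hΩ : Nat.card Ω = h + 1 := by rw [Nat.card_eq_fintype_card, hh]
  have hHh : Nat.card H = h := by omega
  have hG : Nat.card G = (h + 1) * h * e := by rw [card_group hZ hab, hΩ, he, Nat.add_sub_cancel]
  have hI : Nat.card I = if Even h then e * (h + 1) else e * h := hN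
  -- a product lying in a conjugate of `H` is trivial or an involution
  have hsmall : ∀ u v : I, ¬(∀ g : G, IsConj ((u : G) * v) g → g ∉ H) → v = u ∨
      (Even h ∧ ∀ p : Ω, (u : G) • p = p → (v : G) • p = p) := by
    intro u v hn
    push Not at hn
    obtain ⟨w, hconj, hw⟩ := hn
    obtain ⟨c, hc⟩ := isConj_iff.mp hconj
    have hu2 : (u : G) * u = 1 := ((hword _).mp u.2).2
    have hv2 : (v : G) * v = 1 := ((hword _).mp v.2).2
    by_cases hw1 : w = 1
    · left
      refine Subtype.ext ?_
      rw [hw1] at hc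
      have h1 := eq_inv_of_mul_eq_one_left (conj_eq_one_iff.mp hc)
      rw [inv_eq_of_mul_eq_one_right hv2] at h1
      exact h1.symm
    · right
      have hw2 : orderOf w = 2 := S0883.result hZ hab h e hh he hodd hlt H hHa hHcard hHfix w hw
        hw1 (c * u * c⁻¹) (c * v * c⁻¹) ((hconj2 _ _).trans u.2) ((hconj2 _ _).trans v.2)
        (by rw [← hc]; group)
      refine ⟨?_, fun p hp => ?_⟩
      · have := Subgroup.orderOf_dvd_natCard H hw
        rw [hw2, hHh] at this
        exact even_iff_two_dvd.mpr this
      · have hwa : w • a = a := hHa hw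
        have huw : (c * u * c⁻¹) • a = a := by
          refine hHfix w hw hw1 _ ?_
          have e1 : w * (c * u * c⁻¹) = c * u * c⁻¹ * w⁻¹ := by
            rw [← hc]
            calc c * ((u : G) * v) * c⁻¹ * (c * u * c⁻¹) = c * (u * (v * u)) * c⁻¹ := by group
              _ = c * u * c⁻¹ * (c * ((v : G)⁻¹ * (u : G)⁻¹)⁻¹⁻¹ * c⁻¹) := by
                rw [inv_inv, inv_eq_of_mul_eq_one_right hv2, inv_eq_of_mul_eq_one_right hu2]; group
              _ = c * u * c⁻¹ * (c * ((u : G) * v) * c⁻¹)⁻¹ := by group
          rw [smul_smul, e1, mul_smul, inv_fix hwa]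
        have hvw : (c * v * c⁻¹) • a = a := by
          have : c * v * c⁻¹ = c * u * c⁻¹ * w := by
            rw [← hc]
            calc c * (v : G) * c⁻¹ = c * ((u : G) * u * v) * c⁻¹ := by rw [hu2, one_mul]
              _ = _ := by group
          rw [this, mul_smul, hwa, huw]
        rw [mul_smul, mul_smul, ← eq_inv_smul_iff] at huw hvw
        -- an involution fixes at most one point
        have hpa : p = c⁻¹ • a := by
          by_contra hne
          obtain ⟨g, h1, h2⟩ := exists_map_pair hZ hne hab
          have hm : g * u * g⁻¹ ∈ stabilizer G a ⊓ stabilizer G b :=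
            ⟨show (g * u * g⁻¹) • a = a by
              rw [mul_smul, mul_smul, inv_smul_eq_iff.mpr h1.symm, hp, h1],
             show (g * u * g⁻¹) • b = b by
              rw [mul_smul, mul_smul, inv_smul_eq_iff.mpr h2.symm, huw, h2]⟩
          have h3 := Subgroup.orderOf_dvd_natCard _ hm
          rw [hconj2, u.2, he] at h3
          exact hodd.not_two_dvd_nat h3
        rw [hpa]; exact hvw
  -- the complementary pairs
  let k := if Even h then e else 1
  have hU : Nat.card {p : I × I // ¬∀ g : G, IsConj ((p.1 : G) * p.2) g → g ∉ H} ≤ Nat.card I * k := by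
    rw [Nat.card_congr (Equiv.subtypeProdEquivSigmaSubtype
      fun u v : I => ¬∀ g : G, IsConj ((u : G) * v) g → g ∉ H)]
    haveI := Fintype.ofFinite I
    rw [Nat.card_sigma]
    refine (Finset.sum_le_card_nsmul _ _ k fun u _ => ?_).trans_eq (by
      rw [Finset.card_univ, Nat.card_eq_fintype_card, smul_eq_mul])
    simp only [k]
    split_ifs with hev
    · -- the involutions sharing the fixed point of `u`
      obtain ⟨p, hp⟩ : ∃ p : Ω, (u : G) • p = p := by
        haveI : Fact (Nat.Prime 2) := ⟨Nat.prime_two⟩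
        have hmod := Equiv.Perm.card_fixedPoints_modEq (p := 2) (n := 1)
          (f := fun x : Ω => (u : G) • x) (by
            funext x; show (u : G) • ((u : G) • x) = x
            rw [smul_smul, ((hword _).mp u.2).2, one_smul])
        rw [hh] at hmod
        by_contra hcon
        push Not at hcon
        haveI : IsEmpty (Function.fixedPoints fun x : Ω => (u : G) • x) := ⟨fun x => hcon x x.2⟩
        rw [Fintype.card_eq_zero] at hmod
        have hmod' : (h + 1) % 2 = 0 % 2 := hmod
        obtain ⟨j, rfl⟩ := hev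
        omega
      have hcountp : Nat.card {v : I // (v : G) • p = p} ≤ e := by
        have hle : Nat.card Ω * Nat.card {v : I // (v : G) • p = p} ≤ Nat.card I := by
          have hmv : ∀ q : Ω, ∃ g : G, g • p = q := fun q => exists_move hZ p q
          choose m hm using hmv
          rw [← Nat.card_prod]
          refine Nat.card_le_card_of_injective (fun z =>
            (⟨m z.1 * (z.2.1 : G) * (m z.1)⁻¹, (hconj2 _ _).trans z.2.1.2⟩ : I)) fun z z' hz => ?_
          have hz' : m z.1 * (z.2.1 : G) * (m z.1)⁻¹ = m z'.1 * (z'.2.1 : G) * (m z'.1)⁻¹ :=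
            congrArg Subtype.val hz
          have hq : z.1 = z'.1 := by
            by_contra hne
            obtain ⟨g, h1, h2⟩ := exists_map_pair hZ hne hab
            set y := m z.1 * (z.2.1 : G) * (m z.1)⁻¹ with hy
            have f1 : y • z.1 = z.1 := by
              rw [hy, mul_smul, mul_smul, inv_smul_eq_iff.mpr (hm z.1).symm, z.2.2, hm]
            have f2 : y • z'.1 = z'.1 := by
              rw [hz', mul_smul, mul_smul, inv_smul_eq_iff.mpr (hm z'.1).symm, z'.2.2, hm]
            have hm' : g * y * g⁻¹ ∈ stabilizer G a ⊓ stabilizer G b :=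
              ⟨show (g * y * g⁻¹) • a = a by
                rw [mul_smul, mul_smul, inv_smul_eq_iff.mpr h1.symm, f1, h1],
               show (g * y * g⁻¹) • b = b by
                rw [mul_smul, mul_smul, inv_smul_eq_iff.mpr h2.symm, f2, h2]⟩
            have h3 := Subgroup.orderOf_dvd_natCard _ hm'
            rw [hconj2, hy, hconj2, z.2.1.2, he] at h3
            exact hodd.not_two_dvd_nat h3
          refine Prod.ext hq (Subtype.ext (Subtype.ext ?_))
          rw [hq] at hz'
          exact mul_left_cancel (mul_right_cancel hz')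
        rw [hI, if_pos hev, hΩ, mul_comm e] at hle
        exact Nat.le_of_mul_le_mul_left hle (by omega)
      refine le_trans (Nat.card_le_card_of_injective (fun v => (⟨v.1, ?_⟩ :
        {v : I // (v : G) • p = p})) fun v v' hv => Subtype.ext
          (by simpa using congrArg Subtype.val hv)) hcountp
      rcases hsmall u v.1 v.2 with h1 | h1
      · rw [h1]; exact hp
      · exact h1.2 p hp
    · refine Finite.card_le_one_iff_subsingleton.mpr ⟨fun v v' => Subtype.ext ?_⟩
      rcases hsmall u v.1 v.2 with h1 | h1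
      · rcases hsmall u v'.1 v'.2 with h2 | h2
        · rw [h1, h2]
        · exact absurd h2.1 hev
      · exact absurd h1.1 hev
  have hsplit : Nat.card I * Nat.card I ≤ Nat.card Avoid * Nat.card G + Nat.card I * k := by
    rw [← Nat.card_prod, ← Nat.card_congr (Equiv.sumCompl fun p : I × I =>
      ∀ g : G, IsConj ((p.1 : G) * p.2) g → g ∉ H), Nat.card_sum]
    exact Nat.add_le_add hupper hU
  rw [hG, hI] at hsplit
  show e ≤ Nat.card Avoid
  by_contra hlt'
  push Not at hlt'
  have he0 : 0 < e := hodd.pos
  simp only [k] at hsplit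
  split_ifs at hsplit
  · nlinarith [Nat.mul_le_mul_right ((h + 1) * h * e) (Nat.succ_le_of_lt hlt'),
      Nat.mul_pos (Nat.mul_pos (show 0 < h + 1 by omega) (show 0 < h by omega)) he0]
  · have h2 : e + 1 < h + 1 := by omega
    nlinarith [Nat.mul_le_mul_right ((h + 1) * h * e) (Nat.succ_le_of_lt hlt'),
      Nat.mul_lt_mul_of_pos_left h2 (Nat.mul_pos he0 (show 0 < h by omega))]

end Cfsg.Agent.S0884
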