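import Cfsg.Statements.S0887
import Cfsg.Agent.Lib.CharClifford.Divides

set_option autoImplicit false
open Cfsg

namespace Cfsg.Agent.S0887

open Cfsg.Agent.Lib.CharClifford Cfsg.Agent.Lib.Char

theorem result {G : Type*} [Group G] [Fintype G] (N : Subgroup G) [N.Normal] [Fintype N] (χ : G → ℂ) (hχ : Cfsg.IsIrrCharacter G χ) (ϑ : N → ℂ) (hϑ : Cfsg.IsIrrCharacter N ϑ) (hcon : Cfsg.classInner (fun n : N => χ n) ϑ ≠ 0) (c d : ℕ) (hc : χ 1 = c) (hd : ϑ 1 = d) : d ∣ c ∧ c / d ∣ N.index := by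
  classical
  set T := inertia N ϑ with hT
  letI : Fintype T := Fintype.ofFinite _
  have hNT : N ≤ T := le_inertia N (isClassFunction_of_isIrr hϑ)
  obtain ⟨ψ, hψ, -, hψe, -⟩ := exists_correspondent N hϑ T rfl hNT hχ hcon
  have hover : classInner (resLe hNT ψ) ϑ ≠ 0 := hψe ▸ hcon
  have hres := restrict_stabilized N hϑ T hNT (fun t ht => ht) hψ hover
  obtain ⟨e, he⟩ := classInner_natCast (isCharacter_restrict (isCharacter_of_isIrr hχ) N)
    (isCharacter_of_isIrr hϑ)
  rw [hψe, he] at hres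
  haveI : (N.subgroupOf T).Normal := (inferInstance : N.Normal).subgroupOf T
  let E : N.subgroupOf T ≃* N := Subgroup.subgroupOfEquivOfLe hNT
  have hdvd : e ∣ (N.subgroupOf T).index :=
    ramification_dvd_index (N.subgroupOf T) hψ (isIrrCharacter_comp_equiv E hϑ) e (fun m => by
      exact (congrArg ψ (Subtype.ext rfl)).trans (congrFun hres (E m)))
  have hdeg := clifford_degree N hχ hϑ hcon
  rw [he, hc, hd, ← hT] at hdeg
  have hc' : c = e * T.index * d := by exact_mod_cast hdeg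
  have hd0 : d ≠ 0 := fun h0 => irr_degree_ne_zero hϑ (by rw [hd, h0, Nat.cast_zero])
  refine ⟨⟨e * T.index, by rw [hc', mul_comm]⟩, ?_⟩
  rw [hc', Nat.mul_div_cancel _ (Nat.pos_of_ne_zero hd0), ← Subgroup.relIndex_mul_index hNT]
  exact mul_dvd_mul_right hdvd _

end Cfsg.Agent.S0887
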