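import Cfsg.Statements.S0889
import Cfsg.Agent.Lib.CharClifford.Berger
import Cfsg.Agent.Lib.CharClifford.AbelianInertia
import Cfsg.Agent.S0859
import Mathlib.Tactic
-- import your own Cfsg.Agent.* helpers here

set_option autoImplicit false
open Cfsg

open Cfsg.Agent.Lib Cfsg.Agent.Lib.Char

namespace Cfsg.Agent.S0889

universe u

variable {G : Type u} [Group G] [Fintype G]

/-- Pairs of a maximal subgroup and an inducing irreducible character. -/
theorem exists_maximal_pair {χ : G → ℂ} (hχ : IsIrrCharacter G χ) (S : Subgroup G) (hS : S ≠ ⊤)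
    {η : S → ℂ} (hη : IsCharacter S η) (hind : indFun S η = χ) :
    ∃ H : Subgroup G, IsCoatom H ∧ S ≤ H ∧ ∃ ξ : H → ℂ, IsIrrCharacter H ξ ∧ indFun H ξ = χ := by
  obtain ⟨H, hH, hSH⟩ := (IsCoatomic.eq_top_or_exists_le_coatom S).resolve_left hS
  have := Fintype.ofFinite H
  have := Fintype.ofFinite (S.subgroupOf H)
  set ξ := indFun (S.subgroupOf H) fun x => η ⟨(x : H), x.2⟩ with hξ
  have hξc : IsCharacter H ξ := isCharacter_indFun _
    (isCharacter_comp hη (Subgroup.subgroupOfEquivOfLe hSH).toMonoidHom)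
  have he : indFun H ξ = χ := by rw [hξ, CharClifford.indFun_subgroupOf hSH η, hind]
  exact ⟨H, hH, hSH, ξ, S0859.irr_of_indFun_irr H hξc (he.symm ▸ hχ), he⟩

/-- Let G be a finite solvable group and χ an irreducible character of G such that for every normal subgroup N the restriction of χ to N is a natural-number multiple of one irreducible character of N. Then χ is not induced from a character of any proper subgroup. -/
theorem result {G : Type*} [Group G] [Fintype G] [Group.IsSolvable G] (χ : G → ℂ) (hχ : Cfsg.IsIrrCharacter G χ) (hqp : ∀ (N : Subgroup G), N.Normal → ∃ (ϑ : N → ℂ) (e : ℕ), Cfsg.IsIrrCharacter N ϑ ∧ (fun n : N => χ n) = (e : ℂ) • ϑ) (K : Subgroup G) (hK : K ≠ ⊤) (ψ : K → ℂ) (hψ : Cfsg.IsCharacter K ψ) : Cfsg.indFun K ψ ≠ χ := by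
  classical
  intro hind
  let Good : Subgroup G → Prop := fun H =>
    IsCoatom H ∧ ∃ ξ : H → ℂ, IsIrrCharacter H ξ ∧ indFun H ξ = χ
  obtain ⟨H₀, hH₀, -, hξ₀⟩ := exists_maximal_pair hχ K hK hψ hind
  obtain ⟨H, hH, hmax⟩ := Finset.exists_max_image (Finset.univ.filter Good)
    (fun H => Nat.card H.normalCore) ⟨H₀, Finset.mem_filter.mpr ⟨Finset.mem_univ _, hH₀, hξ₀⟩⟩
  obtain ⟨hco, ξ, hξ, hξχ⟩ := (Finset.mem_filter.mp hH).2
  have := Fintype.ofFinite H
  have hsolv : Group.IsSolvable (G ⧸ H.normalCore) :=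
    Group.isSolvable_of_surjective (f := QuotientGroup.mk' H.normalCore)
      (QuotientGroup.mk'_surjective _)
  by_cases hCH : H.normalCore = H
  · -- the normal case
    haveI hHn : H.Normal := hCH ▸ (inferInstance : H.normalCore.Normal)
    obtain ⟨ϑ, e, hϑ, hres⟩ := hqp H hHn
    have hξeq : ξ = ϑ := by
      by_contra hne
      have h1 : classInner (fun h : H => χ h) ξ = 1 := by
        rw [classInner_conj_symm ξ, ← classInner_indFun H ξ (isClassFunction_of_isIrr hχ), hξχ,
          classInner_irr_self hχ, map_one]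
      rw [hres, classInner_smul_left, classInner_irr_ne hϑ hξ (Ne.symm hne), mul_zero] at h1
      exact zero_ne_one h1
    have hinv : inertia H ξ = ⊤ := by
      refine eq_top_iff.mpr fun g _ => funext fun n => ?_
      have he0 : (e : ℂ) ≠ 0 := fun h => by
        have h2 := congrFun hres 1
        rw [Pi.smul_apply, h, zero_smul] at h2
        exact irr_degree_ne_zero hχ h2
      refine mul_left_cancel₀ he0 ?_
      have h2 := congrFun hres n
      have h3 := congrFun hres ⟨g * n * g⁻¹, hHn.conj_mem _ n.2 g⟩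
      simp only [Pi.smul_apply, smul_eq_mul] at h2 h3
      rw [conjChar_apply, hξeq, ← h2, ← h3]
      exact isClassFunction_of_isIrr hχ n g
    have h1 := classInner_indFun_self H hξ
    rw [hinv, hξχ, classInner_irr_self hχ, Subgroup.card_top, eq_comm,
      inv_mul_eq_one₀ (card_ne_zero_complex H), Nat.cast_inj] at h1
    exact hco.1 (Subgroup.eq_top_of_card_eq H h1)
  obtain ⟨M, L, hM, hL, hCM, hML, hsup, hinf, hne, hcop, hfaith, habel⟩ :=
    CharClifford.exists_core_layers_comm H hco hCH
  obtain ⟨θ, e, hθ, hθe⟩ := hqp M hM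
  obtain ⟨φ, f, hφ, hφf⟩ := hqp H.normalCore inferInstance
  obtain ⟨S, η, hLS, hS, hη, hηχ⟩ := CharClifford.berger_step hχ H hξ hξχ H.normalCore M L hCM hML
    hsup hinf hne hcop hfaith habel hθ hθe hφ hφf
  obtain ⟨H', hH', hSH', hξ'⟩ := exists_maximal_pair hχ S hS hη hηχ
  have hle : L ≤ H'.normalCore := Subgroup.normal_le_normalCore.mpr (hLS.trans hSH')
  have h1 := hmax H' (Finset.mem_filter.mpr ⟨Finset.mem_univ _, hH', hξ'⟩)
  have h2 : H.normalCore < L := by
    refine lt_of_le_of_ne (hCM.trans hML) fun h => hne ?_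
    exact le_antisymm (inf_le_left.trans h.ge) (le_inf h.le H.normalCore_le)
  have h3 : Nat.card H.normalCore < Nat.card L := by
    refine lt_of_le_of_ne (Subgroup.card_le_of_le h2.le) fun h => h2.ne ?_
    exact Subgroup.eq_of_le_of_card_ge h2.le h.ge
  have h4 := Subgroup.card_le_of_le hle
  omega

end Cfsg.Agent.S0889
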