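import Cfsg.Statements.S0890
import Cfsg.Agent.Lib.CharClifford.CoreMaximal
import Cfsg.Agent.Lib.CharClifford.Divides
import Cfsg.Agent.Lib.Char.Degree
import Cfsg.Agent.Lib.Char.Scalar
import Mathlib.Tactic
-- import your own Cfsg.Agent.* helpers here

set_option autoImplicit false
open Cfsg
open scoped ComplexConjugate Pointwise
open Cfsg.Agent.Lib Cfsg.Agent.Lib.Char

namespace Cfsg.Agent.S0890

/-- Let L ≤ H < G with L normal in G, H a maximal subgroup and G / L solvable. Let ϑ be an irreducible character of H whose restriction to L is irreducible and whose induction χ to G is irreducible. Then there is a normal subgroup M of G containing L such that the restriction of χ to M is not a natural-number multiple of a single irreducible character of M. -/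
theorem result {G : Type*} [Group G] [Fintype G] (L H : Subgroup G) [L.Normal] (hLH : L ≤ H) (hmax : IsCoatom H) (hsolv : Group.IsSolvable (G ⧸ L)) (ϑ : H → ℂ) (hϑ : Cfsg.IsIrrCharacter H ϑ) (hϑL : Cfsg.IsIrrCharacter L (fun x : L => ϑ ⟨(x : G), hLH x.2⟩)) (hind : Cfsg.IsIrrCharacter G (Cfsg.indFun H ϑ)) : ∃ M : Subgroup G, M.Normal ∧ L ≤ M ∧ ¬ ∃ (φ : M → ℂ) (e : ℕ), Cfsg.IsIrrCharacter M φ ∧ (fun m : M => Cfsg.indFun H ϑ m) = (e : ℂ) • φ := by
  classical
  set χ := indFun H ϑ with hχ
  by_contra hcon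
  push Not at hcon
  have hϑc := isCharacter_of_isIrr hϑ
  have hϑcf := isClassFunction_of_isIrr hϑ
  set C := H.normalCore with hC
  have hCH : C ≤ H := H.normalCore_le
  have hLC : L ≤ C := Subgroup.normal_le_normalCore.mpr hLH
  -- irreducibility of the restrictions
  have hirr : ∀ {X : Type _} [Group X] [Finite X] (f : X →* H) (i : L →* X),
      (∀ l : L, (f (i l) : G) = l) → IsIrrCharacter X (fun x => ϑ (f x)) := by
    intro X _ _ f i hi
    refine CharClifford.irr_of_comp i (isCharacter_comp hϑc f) ?_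
    convert hϑL using 1
    funext l
    exact congrArg ϑ (Subtype.ext (hi l))
  set θ : C → ℂ := fun c => ϑ ⟨(c : G), hCH c.2⟩ with hθdef
  have hθ : IsIrrCharacter C θ :=
    hirr (Subgroup.inclusion hCH) (Subgroup.inclusion hLC) fun _ => rfl
  have hmem : ∀ (c : C) (g : G), g⁻¹ * (c : G) * g ∈ C := fun c g => by
    simpa using (inferInstance : C.Normal).conj_mem (c : G) c.2 g⁻¹
  have hval : ∀ c : C, χ c = (Nat.card H : ℂ)⁻¹ * ∑ g : G, θ ⟨_, hmem c g⟩ := fun c => by
    rw [hχ, indFun]
    congr 1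
    refine Finset.sum_congr rfl fun g _ => ?_
    rw [extendByZero_mem H ϑ (hCH (hmem c g))]
  -- `θ` is invariant
  obtain ⟨φ₀, e₀, hφ₀, he₀⟩ := hcon C inferInstance hLC
  have hconjirr : ∀ g : G, IsIrrCharacter C (fun c => θ ⟨_, hmem c g⟩) := fun g => by
    have h := isIrrCharacter_conjChar C g⁻¹ hθ
    convert h using 1
    funext c
    simp only [conjChar, inv_inv]
  have hφeq : ∀ g : G, (fun c => θ ⟨_, hmem c g⟩) = φ₀ := by
    intro g
    by_contra hne
    have h0 : classInner (fun c : C => χ c) (fun c => θ ⟨_, hmem c g⟩) = 0 := by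
      rw [he₀, classInner_smul_left, classInner_irr_ne hφ₀ (hconjirr g) (Ne.symm hne), mul_zero]
    rw [show (fun c : C => χ c) = (Nat.card H : ℂ)⁻¹ • ∑ x : G, (fun c => θ ⟨_, hmem c x⟩) from
        funext fun c => by rw [Pi.smul_apply, Finset.sum_apply, smul_eq_mul]; exact hval c,
      classInner_smul_left, classInner_sum_left, mul_eq_zero,
      or_iff_right (inv_ne_zero (card_ne_zero_complex H))] at h0
    have h1 : ∀ x : G, classInner (fun c => θ ⟨_, hmem c x⟩) (fun c => θ ⟨_, hmem c g⟩) =
        if (fun c => θ ⟨_, hmem c x⟩) = (fun c => θ ⟨_, hmem c g⟩) then ((1 : ℕ) : ℂ) else ((0 : ℕ) : ℂ) := by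
      intro x
      split_ifs with h
      · rw [h, classInner_irr_self (hconjirr g), Nat.cast_one]
      · rw [classInner_irr_ne (hconjirr x) (hconjirr g) h, Nat.cast_zero]
    rw [Finset.sum_congr rfl fun x _ => h1 x] at h0
    simp only [← apply_ite, ← Nat.cast_sum, Nat.cast_eq_zero, Finset.sum_eq_zero_iff] at h0
    have := h0 g (Finset.mem_univ g)
    simp at this
  have hθeq : θ = φ₀ := by
    rw [← hφeq 1]
    funext c
    exact congrArg θ (Subtype.ext (by simp))
  have hinv : ∀ (g : G) (c : C), θ ⟨_, hmem c g⟩ = θ c := fun g c =>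
    (congrFun (hφeq g) c).trans (congrFun hθeq c).symm
  set m := H.index with hm
  have hm1 : 1 < m := Subgroup.one_lt_index_of_ne_top hmax.1
  have hχC : ∀ c : C, χ c = (m : ℂ) * θ c := fun c => by
    rw [hval c, Finset.sum_congr rfl (g := fun _ => θ c) (fun g _ => hinv g c), Finset.sum_const,
      Finset.card_univ, ← Nat.card_eq_fintype_card, ← H.card_mul_index, nsmul_eq_mul, Nat.cast_mul,
      mul_assoc, ← mul_assoc, inv_mul_cancel₀ (card_ne_zero_complex H), one_mul]
  have hχirr : IsIrrCharacter G χ := hind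
  by_cases hCeq : C = H
  · -- `H` is normal
    have h := classInner_indFun H ϑ (isClassFunction_of_isIrr hχirr)
    rw [← hχ, classInner_irr_self hχirr,
      show (fun h : H => χ h) = (m : ℂ) • ϑ from funext fun h =>
        hχC ⟨(h : G), hCeq.symm ▸ h.2⟩,
      classInner_smul_right, classInner_irr_self hϑ, mul_one, map_natCast] at h
    have : m = 1 := by exact_mod_cast h.symm
    omega
  have hsolvC : Group.IsSolvable (G ⧸ C) := by
    have := hsolv
    exact Group.isSolvable_of_surjective
      (f := QuotientGroup.map L C (MonoidHom.id G) (fun x hx => hLC hx))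
      (fun q => by obtain ⟨g, rfl⟩ := QuotientGroup.mk_surjective q; exact ⟨g, rfl⟩)
  obtain ⟨M, K, hMn, hKn, hCM, hMK, hMH, hMHC, hKH, hco, hfaith⟩ :=
    CharClifford.exists_core_layers H hmax hCeq
  replace hMHC : M ⊓ H = C := hMHC
  have := Fintype.ofFinite M
  have := Fintype.ofFinite K
  have hmM : H.relIndex M = m := by
    have h := Subgroup.relIndex_top_right H
    rw [hm, ← h, ← hMH, Subgroup.relIndex, Subgroup.relIndex]
    -- the cosets of `H` meet `M`
    rw [Subgroup.index_eq_card, Subgroup.index_eq_card]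
    let f : M ⧸ H.subgroupOf M → ↥(M ⊔ H) ⧸ H.subgroupOf (M ⊔ H) := Quotient.map'
      (fun x => ⟨(x : G), Subgroup.mem_sup_left x.2⟩) fun a b hab => by
        rw [QuotientGroup.leftRel_apply] at hab ⊢
        exact hab
    refine Nat.card_eq_of_bijective f ⟨?_, ?_⟩
    · intro a b
      induction a using QuotientGroup.induction_on with | H a => ?_
      induction b using QuotientGroup.induction_on with | H b => ?_
      intro hab
      exact QuotientGroup.eq.mpr (QuotientGroup.eq (s := H.subgroupOf (M ⊔ H)).mp hab)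
    · intro q
      induction q using QuotientGroup.induction_on with | H x => ?_
      have hx : (x : G) ∈ ((M : Set G) * (H : Set G)) := by
        rw [← Subgroup.normal_mul]; exact x.2
      obtain ⟨k, hk, h, hh, e⟩ := Set.mem_mul.mp hx
      refine ⟨QuotientGroup.mk (⟨k, hk⟩ : M), QuotientGroup.eq.mpr ?_⟩
      show k⁻¹ * (x : G) ∈ H
      rw [← e, inv_mul_cancel_left]
      exact hh
  -- on `M`
  obtain ⟨φ, e, hφ, he⟩ := hcon M hMn (hLC.trans hCM)
  have hcard : Nat.card M = Nat.card C * m := by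
    rw [← hmM, Subgroup.relIndex, ← (H.subgroupOf M).card_mul_index, ← hMHC]
    congr 1
    exact Nat.card_congr
      { toFun := fun x => ⟨(x : M), (x : M).2, x.2⟩
        invFun := fun x => ⟨⟨(x : G), x.2.1⟩, x.2.2⟩
        left_inv := fun _ => rfl
        right_inv := fun _ => rfl }
  have hoff : ∀ x : M, (x : G) ∉ C → χ x = 0 := fun x hx => by
    rw [hχ, indFun, Finset.sum_eq_zero, mul_zero]
    intro g _
    refine extendByZero_not_mem H ϑ fun hg => hx ?_
    have h1 : g⁻¹ * (x : G) * g ∈ C := by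
      rw [← hMHC]
      exact ⟨by simpa using hMn.conj_mem (x : G) x.2 g⁻¹, hg⟩
    have h2 := (inferInstance : C.Normal).conj_mem _ h1 g
    simpa [mul_assoc] using h2
  have he2 : e ^ 2 = m := by
    have h1 : classInner (fun x : M => χ x) (fun x : M => χ x) = (e : ℂ) ^ 2 := by
      rw [he, classInner_smul_left, classInner_smul_right, classInner_irr_self hφ, map_natCast]
      ring
    have h2 : ∑ x : M, χ x * conj (χ x) = (m : ℂ) ^ 2 * (Nat.card C : ℂ) := by
      rw [← Finset.sum_filter_of_ne (p := fun x : M => (x : G) ∈ C) (fun x _ h => by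
        by_contra hx; exact h (by rw [hoff x hx, zero_mul]))]
      have h3 : ∑ c : C, θ c * conj (θ c) = (Nat.card C : ℂ) := by
        have h := classInner_irr_self hθ
        rwa [classInner, inv_mul_eq_iff_eq_mul₀ (card_ne_zero_complex C), mul_one] at h
      rw [← h3, Finset.mul_sum]
      symm
      refine Finset.sum_bij (fun c _ => (⟨(c : G), hCM c.2⟩ : M)) (fun c _ => by simp)
        (fun a _ b _ h => Subtype.ext (congrArg Subtype.val h :)) (fun x hx => ?_) (fun c _ => ?_)
      · exact ⟨⟨x, (Finset.mem_filter.mp hx).2⟩, Finset.mem_univ _, rfl⟩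
      · show (m : ℂ) ^ 2 * (θ c * conj (θ c)) = χ c * conj (χ c)
        rw [hχC c, map_mul, map_natCast]; ring
    rw [classInner, h2, hcard, Nat.cast_mul] at h1
    have hc0 : (Nat.card C : ℂ) ≠ 0 := card_ne_zero_complex C
    have hm0 : (m : ℂ) ≠ 0 := Nat.cast_ne_zero.mpr (by omega)
    field_simp at h1
    exact_mod_cast h1.symm
  have he0 : 0 < e := Nat.pos_of_ne_zero fun h => by rw [h] at he2; simp at he2; omega
  -- on `K`
  obtain ⟨ψ, e', hψ, he'⟩ := hcon K hKn ((hLC.trans hCM).trans hMK)
  set MK := M.subgroupOf K with hMKdef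
  have : MK.Normal := ⟨fun n hn x => hMn.conj_mem _ hn _⟩
  let incM : M →* K := Subgroup.inclusion hMK
  obtain ⟨f, hf⟩ := classInner_natCast (isCharacter_comp (isCharacter_of_isIrr hψ) incM)
    (isCharacter_of_isIrr hφ)
  have hψM : (fun x : M => (e' : ℂ) * ψ (incM x)) = (e : ℂ) • φ := by
    rw [← he]; funext x
    exact (congrFun he' (incM x)).symm
  have hef : e' * f = e := by
    have h1 : classInner (fun x : M => (e' : ℂ) * ψ (incM x)) φ = (e : ℂ) := by
      rw [hψM, classInner_smul_left, classInner_irr_self hφ, mul_one]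
    rw [show (fun x : M => (e' : ℂ) * ψ (incM x)) = (e' : ℂ) • fun x : M => ψ (incM x) from rfl,
      classInner_smul_left, show classInner (fun x : M => ψ (incM x)) φ = (f : ℂ) from hf] at h1
    exact_mod_cast h1
  have he'0 : (e' : ℂ) ≠ 0 := Nat.cast_ne_zero.mpr fun h => by
    rw [h, zero_mul] at hef; omega
  have hψf : ∀ x : M, ψ (incM x) = (f : ℂ) * φ x := fun x => by
    apply mul_left_cancel₀ he'0
    rw [← mul_assoc, ← Nat.cast_mul, hef]
    exact congrFun hψM x
  have hf1 : f = 1 := by
    let ι : MK ≃* M := Subgroup.subgroupOfEquivOfLe hMK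
    have h1 : f ∣ MK.index := CharClifford.ramification_dvd_index MK hψ
      (CharClifford.isIrrCharacter_comp_equiv ι hφ) f fun n => hψf (ι n)
    have h2 : f ∣ H.relIndex M := by
      rw [hmM, ← he2, ← hef]; exact (dvd_mul_left f e').pow two_ne_zero
    exact Nat.eq_one_of_dvd_coprimes hco h2 h1
  rw [hf1, mul_one] at hef
  rw [hef] at he'
  have he'c : (e : ℂ) ≠ 0 := Nat.cast_ne_zero.mpr he0.ne'
  -- the part of `H` in `K`
  set Hk := H.subgroupOf K with hHk
  have := Fintype.ofFinite Hk
  set η : Hk → ℂ := fun x => ϑ ⟨((x : K) : G), x.2⟩ with hη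
  have hηirr : IsIrrCharacter Hk η := by
    let f' : Hk →* H :=
      { toFun := fun x => ⟨((x : K) : G), x.2⟩
        map_one' := rfl
        map_mul' := fun _ _ => rfl }
    let i' : L →* Hk :=
      { toFun := fun l => ⟨⟨l, hMK (hCM (hLC l.2))⟩, hCH (hLC l.2)⟩
        map_one' := rfl
        map_mul' := fun _ _ => rfl }
    exact hirr f' i' fun _ => rfl
  have hKtop : K ⊔ H = ⊤ := eq_top_iff.mpr (hMH.ge.trans (sup_le_sup_right hMK H))
  have hres : ∀ x : K, χ x = indFun Hk η x := fun x =>
    CharClifford.indFun_restrict_of_sup H K hKtop hϑcf x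
  have hcons : classInner (fun x : Hk => ψ x) η = (e : ℂ) := by
    rw [← classInner_indFun_right Hk η (isClassFunction_of_isIrr hψ),
      show indFun Hk η = fun x : K => χ x from funext fun x => (hres x).symm, he',
      classInner_smul_right, classInner_irr_self hψ, mul_one, map_natCast]
  have hψ1 : ψ 1 = (e : ℂ) * η 1 := by
    have h1 : (e : ℂ) * ψ 1 = (m : ℂ) * θ 1 := by
      have := congrFun he' (1 : K)
      rw [Pi.smul_apply, smul_eq_mul] at this
      rw [← this]
      exact hχC 1
    rw [show θ 1 = η 1 from rfl, ← he2, Nat.cast_pow] at h1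
    exact mul_left_cancel₀ he'c (by rw [h1]; ring)
  have hψH : ∀ x : Hk, ψ x = (e : ℂ) * η x := by
    have hlc := isCharacter_restrict (isCharacter_of_isIrr hψ) Hk
    obtain ⟨z, hz⟩ := Classical.skolem.mp fun μ : IrrCharacter Hk =>
      classInner_natCast hlc (isCharacter_of_isIrr μ.2)
    have hexp := eq_sum_classInner_smul (isClassFunction_of_isCharacter hlc)
    have h1 := congrFun hexp 1
    simp only [Finset.sum_apply, Pi.smul_apply, smul_eq_mul, hz] at h1
    let η' : IrrCharacter Hk := ⟨η, hηirr⟩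
    have hze : z η' = e := by
      have := hz η'
      rw [show classInner (fun x : Hk => ψ x) (η' : Hk → ℂ) = (e : ℂ) from hcons] at this
      exact_mod_cast this.symm
    rw [← Finset.add_sum_erase _ _ (Finset.mem_univ η'), hze,
      show ψ ((1 : Hk) : K) = (e : ℂ) * η 1 from hψ1, left_eq_add,
      Finset.sum_congr rfl (g := fun μ : IrrCharacter Hk => ((z μ * charDegree (μ : Hk → ℂ) : ℕ) : ℂ))
        (fun μ _ => by rw [apply_one_eq_charDegree (isCharacter_of_isIrr μ.2), Nat.cast_mul]),
      ← Nat.cast_sum, Nat.cast_eq_zero, Finset.sum_eq_zero_iff] at h1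
    intro x
    have h2 := congrFun hexp x
    simp only [Finset.sum_apply, Pi.smul_apply, smul_eq_mul, hz] at h2
    rw [h2, Finset.sum_eq_single η' (fun μ hμ hne => by
      rw [(mul_eq_zero.mp (h1 μ (Finset.mem_erase.mpr ⟨hne, hμ⟩))).resolve_right
        (charDegree_pos μ.2).ne', Nat.cast_zero, zero_mul]) (fun h => absurd (Finset.mem_univ _) h),
      hze]
  have hval2 : ∀ x : Hk, χ (x : K) = (m : ℂ) * η x := fun x => by
    rw [show χ ((x : K) : G) = (e : ℂ) * ψ x from congrFun he' (x : K), hψH, ← he2, Nat.cast_pow]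
    ring
  -- `η` vanishes off the core
  have hvan : ∀ x : Hk, ((x : K) : G) ∉ C → η x = 0 := by
    intro x hx
    by_contra hne
    set h := ((x : K) : G) with hh
    have hterm : ∀ g : G, extendByZero H ϑ (g⁻¹ * h * g) =
        if g⁻¹ * h * g ∈ H then η x else 0 := by
      intro g
      split_ifs with hg
      · rw [extendByZero_mem H ϑ hg]
        have hgK : g⁻¹ * h * g ∈ K := by simpa using hKn.conj_mem h (x : K).2 g⁻¹
        have h1 := hval2 ⟨⟨_, hgK⟩, hg⟩
        have h2 := hval2 x
        have h3 : χ (g⁻¹ * h * g) = χ h := by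
          have := isClassFunction_of_isIrr hχirr h g⁻¹
          rwa [inv_inv] at this
        exact mul_left_cancel₀ (Nat.cast_ne_zero.mpr (by omega : m ≠ 0))
          (h1.symm.trans (h3.trans h2))
      · exact extendByZero_not_mem H ϑ hg
    have h1 : (Nat.card H : ℂ)⁻¹ * ∑ g : G, extendByZero H ϑ (g⁻¹ * h * g) = (m : ℂ) * η x :=
      hval2 x
    rw [Finset.sum_congr rfl fun g _ => hterm g, ← Finset.sum_filter, Finset.sum_const, nsmul_eq_mul,
      inv_mul_eq_iff_eq_mul₀ (card_ne_zero_complex H), ← mul_assoc, ← Nat.cast_mul,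
      hm, H.card_mul_index] at h1
    have h2 := mul_right_cancel₀ hne h1
    have hall : ∀ g : G, g⁻¹ * h * g ∈ H := fun g => by
      have h3 : (Finset.univ.filter fun g : G => g⁻¹ * h * g ∈ H) = Finset.univ := by
        refine Finset.eq_univ_of_card _ ?_
        rw [← Nat.card_eq_fintype_card]
        exact_mod_cast h2
      exact (Finset.mem_filter.mp (h3.ge (Finset.mem_univ g))).2
    refine hx (hfaith h ⟨(x : K).2, x.2⟩ fun g hg => ?_)
    show g * h * g⁻¹ * h⁻¹ ∈ C
    rw [← hMHC]
    refine ⟨?_, ?_⟩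
    · rw [mul_assoc, mul_assoc]
      exact M.mul_mem hg (by rw [← mul_assoc]; exact hMn.conj_mem _ (M.inv_mem hg) h)
    · have h4 := hall g⁻¹
      rw [inv_inv] at h4
      exact H.mul_mem h4 (H.inv_mem x.2)
  have hn := classInner_irr_self hηirr
  rw [classInner, inv_mul_eq_iff_eq_mul₀ (card_ne_zero_complex Hk), mul_one,
    ← Finset.sum_filter_of_ne (p := fun x : Hk => ((x : K) : G) ∈ C) (fun x _ h => by
      by_contra hx; exact h (by rw [hvan x hx, zero_mul]))] at hn
  have h3 : ∑ c : C, θ c * conj (θ c) = (Nat.card C : ℂ) := by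
    have h := classInner_irr_self hθ
    rwa [classInner, inv_mul_eq_iff_eq_mul₀ (card_ne_zero_complex C), mul_one] at h
  have h4 : ∑ x ∈ Finset.univ.filter (fun x : Hk => ((x : K) : G) ∈ C), η x * conj (η x) =
      (Nat.card C : ℂ) := by
    rw [← h3]
    symm
    refine Finset.sum_bij (fun c _ => (⟨⟨(c : G), hMK (hCM c.2)⟩, hCH c.2⟩ : Hk)) (fun c _ => by simp)
      (fun a _ b _ h => Subtype.ext (congrArg (fun t : Hk => ((t : K) : G)) h :)) (fun x hx => ?_)
      (fun c _ => rfl)
    exact ⟨⟨_, (Finset.mem_filter.mp hx).2⟩, Finset.mem_univ _, rfl⟩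
  rw [h4, Nat.cast_inj] at hn
  refine hKH (Subgroup.eq_of_le_of_card_ge (le_inf ((hCM.trans hMK)) hCH) ?_).symm
  rw [hn]
  exact le_of_eq (Nat.card_congr
    { toFun := fun x => ⟨⟨x.1, x.2.1⟩, x.2.2⟩
      invFun := fun x => ⟨((x : K) : G), x.1.2, x.2⟩
      left_inv := fun _ => rfl
      right_inv := fun _ => rfl })

end Cfsg.Agent.S0890
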