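import Cfsg.Statements.S0892
import Cfsg.Agent.Lib.SchurAlt.AltBound
import Cfsg.Agent.Lib.SchurAlt.AltFourBound
-- import your own Cfsg.Agent.* helpers here

set_option autoImplicit false
open Cfsg

namespace Cfsg.Agent.S0892

/-- Let n ≥ 4 with n ≠ 6 and n ≠ 7, and let Γ be a finite group with a subgroup Z contained in both the centre and the commutator subgroup of Γ such that Γ / Z is isomorphic to the alternating group on n letters. Then Z has order at most 2. -/
theorem result (n : ℕ) (hn : 4 ≤ n) (h6 : n ≠ 6) (h7 : n ≠ 7) {Γ : Type*} [Group Γ] [Finite Γ] (Z : Subgroup Γ) [Z.Normal] (hZc : Z ≤ Subgroup.center Γ) (hZd : Z ≤ commutator Γ) (e : Γ ⧸ Z ≃* alternatingGroup (Fin n)) : Nat.card Z ≤ 2 := by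
  classical
  set π : Γ →* Equiv.Perm (Fin n) :=
    ((alternatingGroup (Fin n)).subtype.comp e.toMonoidHom).comp (QuotientGroup.mk' Z) with hπ
  have hker : π.ker = Z := by
    ext x
    rw [MonoidHom.mem_ker, hπ]
    simp only [MonoidHom.comp_apply, Subgroup.coe_subtype, MulEquiv.coe_toMonoidHom,
      OneMemClass.coe_eq_one, MulEquiv.map_eq_one_iff, QuotientGroup.mk'_apply,
      QuotientGroup.eq_one_iff]
  have hrange : π.range = alternatingGroup (Fin n) := by
    ext p
    refine ⟨fun ⟨x, hx⟩ => hx ▸ (e (QuotientGroup.mk' Z x)).2, fun hp => ?_⟩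
    obtain ⟨x, hx⟩ := QuotientGroup.mk'_surjective Z (e.symm ⟨p, hp⟩)
    exact ⟨x, by simp only [hπ, MonoidHom.comp_apply, hx]; simp⟩
  obtain ⟨b, hb2, hb⟩ : ∃ b : Γ, b * b = 1 ∧
      ∀ z, π z = 1 → z ∈ commutator Γ → z ∈ Subgroup.zpowers b := by
    rcases eq_or_lt_of_le hn with rfl | h5
    · exact Lib.SchurAlt.ker_le_zpowers_four hrange (hker.le.trans hZc)
    · exact Lib.SchurAlt.ker_le_zpowers h5 h6 h7 hrange (hker.le.trans hZc)
  have hle : Z ≤ Subgroup.zpowers b := fun z hz => hb z (MonoidHom.mem_ker.mp (hker.ge hz)) (hZd hz)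
  calc Nat.card Z ≤ Nat.card (Subgroup.zpowers b) :=
        Nat.le_of_dvd Nat.card_pos (Subgroup.card_dvd_of_le hle)
    _ = orderOf b := Nat.card_zpowers b
    _ ≤ 2 := orderOf_le_of_pow_eq_one (by norm_num) (by rw [pow_two, hb2])

end Cfsg.Agent.S0892
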