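import Cfsg.Statements.S0893
import Cfsg.Agent.Lib.CharClifford.Extraspecial
import Cfsg.Agent.Lib.Char.Induced
import Cfsg.Agent.Lib.Char.Linear
import Mathlib.Tactic

set_option autoImplicit false
open scoped ComplexConjugate
open Cfsg

namespace Cfsg.Agent.S0893

open Cfsg.Agent.Lib.Char Cfsg.Agent.Lib.CharClifford

theorem result {P : Type*} [Group P] [Fintype P] (p n : ℕ) [Fact p.Prime] (hP : Cfsg.IsExtraspecial p P) (hcard : Nat.card P = p ^ (2 * n + 1)) (A : Subgroup P) (hab : ∀ a ∈ A, ∀ b ∈ A, a * b = b * a) (hA : Nat.card A = p ^ (n + 1)) (lam : A → ℂ) (hlam : Cfsg.IsCharacter A lam ∧ lam 1 = 1) (hZ : ∃ a : A, (a : P) ∈ Subgroup.center P ∧ lam a ≠ 1) : Cfsg.IsIrrCharacter P (Cfsg.indFun A lam) ∧ ∀ x : P, x ∉ Subgroup.center P → Cfsg.indFun A lam x = 0 := by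
  classical
  have hp : p.Prime := Fact.out
  obtain ⟨⟨a, haA⟩, haZ, ha1⟩ := hZ
  obtain ⟨l, hl⟩ := exists_hom_of_degree_one hlam.1 hlam.2
  have haZ' : a ∈ Subgroup.center P := haZ
  have ha' : a ≠ 1 := fun e => ha1 (by rw [hl, show (⟨a, haA⟩ : A) = 1 from Subtype.ext e]; simp)
  have hZA : Subgroup.center P ≤ A := by
    rw [center_le_zpowers hP haZ' ha']
    exact Subgroup.zpowers_le.mpr haA
  have hne : ∀ z ∈ Subgroup.center P, ∀ hzA : z ∈ A, z ≠ 1 → l ⟨z, hzA⟩ ≠ 1 := by
    intro z hz hzA hz1 e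
    refine ha1 ?_
    rw [center_le_zpowers hP hz hz1] at haZ'
    obtain ⟨i, hi⟩ := Subgroup.mem_zpowers_iff.mp haZ'
    rw [hl, show (⟨a, haA⟩ : A) = ⟨z, hzA⟩ ^ i from Subtype.ext (by simp [hi]), map_zpow, e, one_zpow]
    simp
  have hscal : ∀ z ∈ Subgroup.center P, ∀ hzA : z ∈ A, ∀ g : P,
      indFun A lam (z * g) = (l ⟨z, hzA⟩ : ℂ) * indFun A lam g := by
    intro z hz hzA g
    simp only [indFun]
    rw [mul_left_comm]
    congr 1
    rw [Finset.mul_sum]
    refine Finset.sum_congr rfl fun y _ => ?_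
    have e : y⁻¹ * (z * g) * y = z * (y⁻¹ * g * y) := by
      have := Subgroup.mem_center_iff.mp hz y⁻¹
      rw [← mul_assoc, this]
      group
    rw [e]
    by_cases hy : y⁻¹ * g * y ∈ A
    · rw [extendByZero_mem A lam hy, extendByZero_mem A lam (A.mul_mem hzA hy), hl, hl,
        ← Units.val_mul, ← map_mul]
      rfl
    · rw [extendByZero_not_mem A lam hy, extendByZero_not_mem A lam fun h => hy (by
        simpa using A.mul_mem (A.inv_mem hzA) h), mul_zero]
  have hzero : ∀ x : P, x ∉ Subgroup.center P → indFun A lam x = 0 := fun x hx =>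
    eq_zero_of_scalar_center hP (isClassFunction_indFun A lam) (fun z hz hz1 =>
      ⟨(l ⟨z, hZA hz⟩ : ℂ), fun e => hne z hz (hZA hz) hz1 (Units.ext e), hscal z hz (hZA hz)⟩) hx
  refine ⟨isIrrCharacter_of_norm_one (isCharacter_indFun A hlam.1) ?_, hzero⟩
  have hidx : A.index = p ^ n := by
    have h := Subgroup.card_mul_index A
    rw [hA, hcard, show 2 * n + 1 = (n + 1) + n by ring, pow_add p (n + 1) n] at h
    exact Nat.eq_of_mul_eq_mul_left (pow_pos hp.pos _) h
  have hone : indFun A lam 1 = ((p ^ n : ℕ) : ℂ) := by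
    rw [indFun_one, hlam.2, mul_one, hidx]
  have hval : ∀ z ∈ Subgroup.center P, indFun A lam z * conj (indFun A lam z) = ((p ^ n : ℕ) : ℂ) ^ 2 := by
    intro z hz
    have h := hscal z hz (hZA hz) 1
    rw [mul_one, hone] at h
    rw [h, map_mul, Complex.conj_natCast]
    have := linear_conj_mul l ⟨z, hZA hz⟩
    linear_combination ((p ^ n : ℕ) : ℂ) ^ 2 * this
  rw [classInner, ← Finset.sum_subset (Finset.subset_univ
    (Finset.univ.filter fun g : P => g ∈ Subgroup.center P)) fun g _ hg => by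
      rw [hzero g (by simpa using hg), zero_mul]]
  rw [Finset.sum_congr rfl fun g hg => hval g (Finset.mem_filter.mp hg).2, Finset.sum_const,
    ← Fintype.card_subtype, ← Nat.card_eq_fintype_card, show Nat.card {x // x ∈ Subgroup.center P} = p from hP.2, hcard,
    nsmul_eq_mul]
  have : (p : ℂ) ≠ 0 := Nat.cast_ne_zero.mpr hp.ne_zero
  push_cast
  field_simp
  ring

end Cfsg.Agent.S0893
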