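import Cfsg.Statements.S0894
import Cfsg.Agent.Lib.CharClifford.Extraspecial
import Cfsg.Agent.Lib.Char.Linear
import Mathlib.Tactic

set_option autoImplicit false
open scoped ComplexConjugate
open Cfsg

namespace Cfsg.Agent.S0894

open Cfsg.Agent.Lib.Char Cfsg.Agent.Lib.CharClifford

theorem result {P : Type*} [Group P] [Finite P] (p n : ℕ) [Fact p.Prime] (hP : Cfsg.IsExtraspecial p P) (hcard : Nat.card P = p ^ (2 * n + 1)) : (∀ χ : Cfsg.IrrCharacter P, (χ : P → ℂ) 1 = 1 ∨ (χ : P → ℂ) 1 = (p : ℂ) ^ n) ∧ Nat.card {χ : Cfsg.IrrCharacter P // (χ : P → ℂ) 1 = (p : ℂ) ^ n} = p - 1 := by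
  classical
  have := Fintype.ofFinite P
  have hp : p.Prime := Fact.out
  have hdich : ∀ χ : IrrCharacter P, charDegree (χ : P → ℂ) = 1 ∨ charDegree (χ : P → ℂ) = p ^ n := by
    intro χ
    have hc := isCharacter_of_isIrr χ.2
    by_cases hk : Subgroup.center P ≤ charKer (χ : P → ℂ)
    · left
      rw [charDegree_eq_one_iff χ.2]
      have := charKer_normal hc
      obtain ⟨ψ, hψ, hψe⟩ := exists_irr_deflation χ.2 (Subgroup.center P)
        (fun z hz => (mem_charKer hc).mp (hk hz))
      obtain ⟨d, ρ, hρ, hρe⟩ := hψ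
      have : IsMulCommutative (P ⧸ Subgroup.center P) := ⟨⟨fun x y => by
        obtain ⟨x, rfl⟩ := QuotientGroup.mk_surjective x
        obtain ⟨y, rfl⟩ := QuotientGroup.mk_surjective y
        rw [← mul_inv_eq_one, mul_inv_rev, ← mul_assoc, ← QuotientGroup.mk_inv, ← QuotientGroup.mk_inv,
          ← QuotientGroup.mk_mul, ← QuotientGroup.mk_mul, ← QuotientGroup.mk_mul,
          QuotientGroup.eq_one_iff]
        exact extraspecial_commutator_mem_center hP x y⟩⟩
      rw [← hψe 1, ← hρe, QuotientGroup.mk_one, Representation.char_one,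
        Representation.IsIrreducible.finrank_eq_one_of_isMulCommutative ρ, Nat.cast_one]
    · right
      have hd0 := (charDegree_pos χ.2).ne'
      have hscal : ∀ z ∈ Subgroup.center P, z ≠ 1 →
          ∃ c : ℂ, c ≠ 1 ∧ ∀ g, (χ : P → ℂ) (z * g) = c * (χ : P → ℂ) g := by
        intro z hz hz1
        refine ⟨(χ : P → ℂ) z / (χ : P → ℂ) 1, fun e => hk ?_, fun g => ?_⟩
        · rw [center_le_zpowers hP hz hz1, Subgroup.zpowers_le, mem_charKer hc]
          exact (div_eq_one_iff_eq (irr_degree_ne_zero χ.2)).mp e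
        · rw [div_mul_eq_mul_div, eq_div_iff (irr_degree_ne_zero χ.2)]
          exact (apply_mul_of_norm_eq hc (norm_char_of_mem_center χ.2 hz) g).1
      have hzero : ∀ x : P, x ∉ Subgroup.center P → (χ : P → ℂ) x = 0 := fun x hx =>
        eq_zero_of_scalar_center hP (isClassFunction_of_isCharacter hc) hscal hx
      have hn := classInner_irr_self χ.2
      rw [classInner, ← Finset.sum_subset (Finset.subset_univ
        (Finset.univ.filter fun g : P => g ∈ Subgroup.center P)) (fun g _ hg => by
          rw [hzero g (by simpa using hg), zero_mul]),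
        Finset.sum_congr rfl (g := fun _ => ((charDegree (χ : P → ℂ) : ℕ) : ℂ) ^ 2) (fun g hg => by
          rw [Complex.mul_conj', norm_char_of_mem_center χ.2 (Finset.mem_filter.mp hg).2,
            apply_one_eq_charDegree hc, Complex.norm_natCast]
          push_cast; ring),
        Finset.sum_const, ← Fintype.card_subtype, ← Nat.card_eq_fintype_card,
        show Nat.card {x // x ∈ Subgroup.center P} = p from hP.2, hcard, nsmul_eq_mul,
        inv_mul_eq_one₀ (by exact_mod_cast (pow_pos hp.pos _).ne')] at hn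
      have h1 : p ^ (2 * n + 1) = p * charDegree (χ : P → ℂ) ^ 2 := by exact_mod_cast hn
      rw [pow_succ', Nat.mul_left_cancel_iff hp.pos, mul_comm 2 n, pow_mul] at h1
      exact (Nat.pow_left_injective two_ne_zero h1).symm
  refine ⟨fun χ => ?_, ?_⟩
  · rw [apply_one_eq_charDegree (isCharacter_of_isIrr χ.2)]
    rcases hdich χ with h | h <;> rw [h]
    · left; simp
    · right; simp
  · have hn1 : n ≠ 0 := by
      intro h0
      subst h0
      have htop : Subgroup.center P = ⊤ :=
        Subgroup.eq_top_of_card_eq _ (by rw [hP.2, hcard]; simp)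
      have hbot : commutator P = ⊥ := by
        rw [commutator_def, Subgroup.commutator_eq_bot_iff_le_centralizer, Subgroup.coe_top,
          Subgroup.centralizer_univ, htop]
      have h2 := hP.2
      rw [← hP.1.2.2, hbot, Subgroup.card_bot] at h2
      exact hp.ne_one h2.symm
    have hpn1 : p ^ n ≠ 1 := fun e => hn1 ((Nat.pow_eq_one.mp e).resolve_left hp.ne_one)
    have hidx : (commutator P).index = p ^ (2 * n) := by
      have h := Subgroup.card_mul_index (commutator P)
      rw [hP.1.2.2, hP.2, hcard, pow_succ', Nat.mul_left_cancel_iff hp.pos] at h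
      rw [hP.1.2.2]
      exact h
    set S₁ := Finset.univ.filter fun χ : IrrCharacter P => charDegree (χ : P → ℂ) = 1 with hS₁
    set S₂ := Finset.univ.filter fun χ : IrrCharacter P => ¬ charDegree (χ : P → ℂ) = 1 with hS₂
    have hc1 : S₁.card = p ^ (2 * n) := by
      rw [← hidx, ← card_charDegree_one, Nat.card_eq_fintype_card, Fintype.card_subtype]
    have hsum := sum_charDegree_sq (G := P)
    rw [← Finset.sum_filter_add_sum_filter_not Finset.univ
        (fun χ : IrrCharacter P => charDegree (χ : P → ℂ) = 1),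
      Finset.sum_congr rfl (g := fun _ => 1) (fun χ hχ => by rw [(Finset.mem_filter.mp hχ).2, one_pow]),
      Finset.sum_congr (s₁ := S₂) rfl (g := fun _ => p ^ (2 * n)) (fun χ hχ => by
        rw [(hdich χ).resolve_left (Finset.mem_filter.mp hχ).2, ← pow_mul, mul_comm n 2]),
      Finset.sum_const, Finset.sum_const, smul_eq_mul, smul_eq_mul, mul_one, hcard, ← hS₁, hc1,
      pow_succ'] at hsum
    have hS : S₂.card = p - 1 := by
      have hpos : 0 < p ^ (2 * n) := pow_pos hp.pos _
      have h3 : (1 + S₂.card) * p ^ (2 * n) = p * p ^ (2 * n) := by rw [← hsum]; ring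
      have h4 := Nat.eq_of_mul_eq_mul_right hpos h3
      omega
    rw [← hS, Nat.card_eq_fintype_card, Fintype.card_subtype]
    refine congrArg Finset.card (Finset.filter_congr fun χ _ => ?_)
    rw [apply_one_eq_charDegree (isCharacter_of_isIrr χ.2)]
    constructor
    · intro h e
      rw [e, Nat.cast_one] at h
      exact hpn1 (by exact_mod_cast h.symm)
    · intro h
      rw [(hdich χ).resolve_left h]; simp

end Cfsg.Agent.S0894
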