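import Cfsg.Statements.S0897
import Cfsg.Agent.S0896
import Cfsg.Agent.Lib.CharKernel
import Cfsg.Agent.Lib.CharClifford.Divides
import Cfsg.Agent.Lib.CharClifford.Extend
import Cfsg.Agent.Lib.Char.Degree
import Mathlib.Tactic
-- import your own Cfsg.Agent.* helpers here

set_option autoImplicit false
open Cfsg
open scoped ComplexConjugate commutatorElement
open Cfsg.Agent.Lib Cfsg.Agent.Lib.Char

namespace Cfsg.Agent.S0897

/-- Let N be a normal subgroup of the finite group G with the index of N a power of the prime p, and P a Sylow p-subgroup of G such that P ⊓ N lies in the centre of P and every character of degree 1 of P ⊓ N is the restriction of a character of degree 1 of P. Then every irreducible character of N invariant under conjugation by G is the restriction of an irreducible character of G. -/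
theorem result {G : Type*} [Group G] [Fintype G] (p : ℕ) [Fact p.Prime] (N : Subgroup G) [hN : N.Normal] (hind : ∃ k : ℕ, N.index = p ^ k) (P : Sylow p G) (hcent : ∀ x ∈ (P : Subgroup G) ⊓ N, ∀ y ∈ (P : Subgroup G), x * y = y * x) (hlin : ∀ lam : ↥((P : Subgroup G) ⊓ N) → ℂ, Cfsg.IsCharacter ↥((P : Subgroup G) ⊓ N) lam → lam 1 = 1 → ∃ μ : ↥(P : Subgroup G) → ℂ, Cfsg.IsCharacter ↥(P : Subgroup G) μ ∧ μ 1 = 1 ∧ ∀ x : ↥((P : Subgroup G) ⊓ N), μ ⟨(x : G), x.2.1⟩ = lam x) (ϑ : N → ℂ) (hϑ : Cfsg.IsIrrCharacter N ϑ) (hinv : ∀ (g : G) (n : N), ϑ ⟨g * n * g⁻¹, hN.conj_mem (n : G) n.2 g⟩ = ϑ n) : ∃ χ : G → ℂ, Cfsg.IsIrrCharacter G χ ∧ ∀ n : N, χ n = ϑ n := by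
  classical
  have hp : p.Prime := Fact.out
  have := Fintype.ofFinite N
  obtain ⟨E, φ, hE, htop, hφ, -, m, hm, hinner⟩ := S0896.result p hp N hind ϑ hϑ hinv
  obtain ⟨k, hk⟩ := hind
  obtain ⟨x, Q, hx, hdec⟩ := CharClifford.exists_mul_decomp hp hE
  -- the Sylow subgroup of `E` is conjugate into `P`
  obtain ⟨S, hS⟩ := (Q.isPGroup'.map E.subtype).exists_le_sylow
  obtain ⟨g, hg⟩ := MulAction.exists_smul_eq G S P
  have hQP : ∀ y ∈ (Q : Subgroup E), g * (y : G) * g⁻¹ ∈ (P : Subgroup G) := fun y hy => by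
    rw [← hg, Sylow.coe_subgroup_smul]
    exact ⟨(y : G), hS ⟨y, hy, rfl⟩, rfl⟩
  have hNg : ∀ n ∈ N, g * n * g⁻¹ ∈ N := fun n hn => hN.conj_mem n hn g
  -- the `p'`-part lies in `N`
  obtain ⟨x', hx', hco, l, hl⟩ := id hE
  have hcentral : ∀ z ∈ Subgroup.zpowers x, ∀ e : E, e * z = z * e := fun z hz e =>
    Subgroup.mem_center_iff.mp ((Subgroup.zpowers_le.mpr hx) hz) e
  have hcommQ : commutator E ≤ ⁅(Q : Subgroup E), (Q : Subgroup E)⁆ := by
    rw [commutator_def, Subgroup.commutator_le]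
    intro a _ b _
    obtain ⟨z, hz, y, hy, rfl⟩ := hdec a
    obtain ⟨w, hw, v, hv, rfl⟩ := hdec b
    rw [show ⁅z * y, w * v⁆ = ⁅y, v⁆ by
      rw [commutatorElement_def, commutatorElement_def]
      calc z * y * (w * v) * (z * y)⁻¹ * (w * v)⁻¹
          = z * (y * w) * v * y⁻¹ * z⁻¹ * v⁻¹ * w⁻¹ := by group
        _ = (z * w) * (y * v * y⁻¹) * z⁻¹ * v⁻¹ * w⁻¹ := by rw [hcentral w hw y]; group
        _ = (y * v * y⁻¹) * (z * w) * z⁻¹ * v⁻¹ * w⁻¹ := by
          rw [← hcentral (z * w) (mul_mem hz hw)]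
        _ = y * v * y⁻¹ * (w * v⁻¹) * w⁻¹ := by
          rw [hcentral w hw z]; group
        _ = y * v * y⁻¹ * (v⁻¹ * w) * w⁻¹ := by rw [hcentral w hw v⁻¹]
        _ = y * v * y⁻¹ * v⁻¹ := by group]
    exact Subgroup.commutator_mem_commutator hy hv
  set D := (P : Subgroup G) ⊓ N with hD
  have hDab : IsMulCommutative D := ⟨⟨fun a b => Subtype.ext (hcent a a.2 b b.2.1)⟩⟩
  have hkill : ∀ d : D, (d : G) ∈ ⁅(P : Subgroup G), (P : Subgroup G)⁆ → d = 1 := by
    intro d hd
    refine CharKernel.eq_one_of_forall_irr fun χ => ?_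
    have h1 : (χ : D → ℂ) 1 = 1 := by
      obtain ⟨r, τ, hτ, hτ'⟩ := χ.2
      rw [← hτ', Representation.char_one,
        Representation.IsIrreducible.finrank_eq_one_of_isMulCommutative τ, Nat.cast_one]
    obtain ⟨μ, hμ, hμ1, hμe⟩ := hlin _ (isCharacter_of_isIrr χ.2) h1
    obtain ⟨f, hf⟩ := exists_hom_of_degree_one hμ hμ1
    rw [h1, ← hμe, hf]
    have h2 : (⟨(d : G), d.2.1⟩ : (P : Subgroup G)) ∈ commutator (P : Subgroup G) := by
      rw [← Subgroup.map_subtype_commutator] at hd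
      obtain ⟨c, hc, hce⟩ := hd
      rwa [show (⟨(d : G), d.2.1⟩ : (P : Subgroup G)) = c from Subtype.ext hce.symm]
    rw [(Abelianization.commutator_subset_ker f h2 : f _ = 1), Units.val_one]
  set M := N.subgroupOf E with hM
  have hMc : ∀ e : M, (e : E) ∈ commutator E → e = 1 := by
    intro e he
    have h1 : ((e : E) : G) ∈ ((⁅(Q : Subgroup E), (Q : Subgroup E)⁆).map E.subtype) :=
      ⟨e, hcommQ he, rfl⟩
    have h2 : g * ((e : E) : G) * g⁻¹ ∈ ⁅(P : Subgroup G), (P : Subgroup G)⁆ := by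
      have h3 : ((⁅(Q : Subgroup E), (Q : Subgroup E)⁆).map E.subtype).map
          (MulAut.conj g).toMonoidHom ≤ ⁅(P : Subgroup G), (P : Subgroup G)⁆ := by
        rw [Subgroup.map_commutator, Subgroup.map_commutator]
        refine Subgroup.commutator_mono ?_ ?_ <;>
        · rintro _ ⟨_, ⟨y, hy, rfl⟩, rfl⟩
          exact hQP y hy
      exact h3 ⟨_, h1, rfl⟩
    have hP : g * ((e : E) : G) * g⁻¹ ∈ (P : Subgroup G) :=
      Subgroup.commutator_le.mpr (fun a ha b hb =>
        (P : Subgroup G).mul_mem ((P : Subgroup G).mul_mem ((P : Subgroup G).mul_mem ha hb)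
          ((P : Subgroup G).inv_mem ha)) ((P : Subgroup G).inv_mem hb)) h2
    have h4 := congrArg Subtype.val (hkill ⟨_, hP, hNg _ e.2⟩ h2)
    exact Subtype.ext (Subtype.ext (conj_eq_one_iff.mp h4))
  let ι : ↥(E ⊓ N) ≃* M :=
    { toFun := fun x => ⟨⟨(x : G), x.2.1⟩, x.2.2⟩
      invFun := fun x => ⟨((x : E) : G), (x : E).2, x.2⟩
      left_inv := fun _ => rfl
      right_inv := fun _ => rfl
      map_mul' := fun _ _ => rfl }
  -- the intersection with `N` is abelian
  have hxN : ∀ z ∈ Subgroup.zpowers x, ∀ e : M, z * (e : E) = (e : E) * z := fun z hz e =>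
    (hcentral z hz e).symm
  have hMab : ∀ a b : M, a * b = b * a := by
    intro a b
    apply Subtype.ext
    apply mul_inv_eq_one.mp
    have hab : (⟨(a : E) * b * ((b : E) * a)⁻¹, M.mul_mem (M.mul_mem a.2 b.2)
        (M.inv_mem (M.mul_mem b.2 a.2))⟩ : M) = 1 := by
      refine hMc _ ?_
      show (a : E) * b * ((b : E) * a)⁻¹ ∈ commutator E
      rw [mul_inv_rev, ← mul_assoc]
      exact Subgroup.commutator_mem_commutator (Subgroup.mem_top _) (Subgroup.mem_top _)
    exact congrArg Subtype.val hab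
  have hφ1 : φ 1 = 1 := by
    have : IsMulCommutative ↥(E ⊓ N) :=
      ⟨⟨fun a b => ι.injective (by rw [map_mul, map_mul]; exact hMab _ _)⟩⟩
    obtain ⟨r, τ, hτ, hτ'⟩ := hφ
    rw [← hτ', Representation.char_one,
      Representation.IsIrreducible.finrank_eq_one_of_isMulCommutative τ, Nat.cast_one]
  obtain ⟨lφ, hlφ⟩ := exists_hom_of_degree_one (isCharacter_of_isIrr hφ) hφ1
  obtain ⟨η, hη⟩ := CharClifford.exists_extension_of_commutator M (lφ.comp ι.symm.toMonoidHom)
    fun e he => by rw [hMc e he, map_one]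
  -- the induced character
  have hcardE : (E.index : ℕ) * Nat.card ↥(E ⊓ N) = Nat.card N := by
    have h1 : N.relIndex E = N.index := by
      rw [← Subgroup.relIndex_sup_right E N, htop, Subgroup.relIndex_top_right]
    have h2 : Nat.card ↥(E ⊓ N) * N.index = Nat.card E := by
      rw [← h1, Nat.card_congr ι.toEquiv, hM, Subgroup.relIndex, Subgroup.card_mul_index]
    have h3 := E.card_mul_index
    have h4 := N.card_mul_index
    refine Nat.eq_of_mul_eq_mul_right (Nat.pos_of_ne_zero (Subgroup.index_ne_zero_of_finite (H := N))) ?_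
    rw [mul_assoc, h2, h4, mul_comm, h3]
  set f := indFun E (fun e => (η e : ℂ)) with hf
  have hfres : classInner (fun n : N => f n) ϑ = (m : ℂ) := by
    have hterm : ∀ y : G, ∑ n : N, extendByZero E (fun e => (η e : ℂ)) (y⁻¹ * n * y) *
        conj (ϑ n) = ∑ n : N, extendByZero E (fun e => (η e : ℂ)) n * conj (ϑ n) := by
      intro y
      refine Fintype.sum_equiv (MulAut.conjNormal (H := N) y⁻¹).toEquiv _ _ fun n => ?_
      have e1 : ((MulAut.conjNormal (H := N) y⁻¹ n : N) : G) = y⁻¹ * n * y := by simp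
      have e2 : ϑ (MulAut.conjNormal (H := N) y⁻¹ n) = ϑ n := by
        refine Eq.trans (congrArg ϑ (Subtype.ext ?_)) (hinv y⁻¹ n)
        simp
      show _ = extendByZero E _ ((MulAut.conjNormal (H := N) y⁻¹ n : N) : G) *
        conj (ϑ (MulAut.conjNormal (H := N) y⁻¹ n))
      rw [e1, e2]
    have hsum : ∑ n : N, extendByZero E (fun e => (η e : ℂ)) n * conj (ϑ n) =
        conj (∑ z : ↥(E ⊓ N), ϑ ⟨(z : G), z.2.2⟩ * conj (φ z)) := by
      rw [← Finset.sum_filter_of_ne (p := fun n : N => (n : G) ∈ E) (fun n _ h => by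
        by_contra hn; exact h (by rw [extendByZero_not_mem E _ hn, zero_mul])), map_sum]
      symm
      refine Finset.sum_bij (fun z _ => (⟨(z : G), z.2.2⟩ : N))
        (fun z _ => Finset.mem_filter.mpr ⟨Finset.mem_univ _, z.2.1⟩)
        (fun a _ b _ h => Subtype.ext (congrArg Subtype.val h :)) (fun n hn => ?_) (fun z _ => ?_)
      · exact ⟨⟨n, (Finset.mem_filter.mp hn).2, n.2⟩, Finset.mem_univ _, rfl⟩
      · have h := hη (ι z)
        rw [MonoidHom.comp_apply, MulEquiv.coe_toMonoidHom, MulEquiv.symm_apply_apply] at h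
        rw [map_mul, Complex.conj_conj, hlφ z, ← h, extendByZero_mem E _ z.2.1, mul_comm]
        rfl
    rw [finsum_eq_sum_of_fintype] at hinner
    simp only [hf, indFun, classInner]
    rw [Finset.sum_congr rfl fun n _ => mul_assoc _ _ _, ← Finset.mul_sum]
    simp only [Finset.sum_mul]
    rw [Finset.sum_comm, Finset.sum_congr rfl fun y _ => hterm y, hsum, Finset.sum_const,
      Finset.card_univ, ← Nat.card_eq_fintype_card (α := G), nsmul_eq_mul,
      inv_mul_eq_iff_eq_mul₀ (card_ne_zero_complex N)]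
    rw [inv_mul_eq_iff_eq_mul₀ (card_ne_zero_complex ↥(E ⊓ N))] at hinner
    rw [hinner, map_mul, map_natCast, map_natCast, ← hcardE, ← E.card_mul_index, Nat.cast_mul,
      Nat.cast_mul]
    field_simp [card_ne_zero_complex E]
  -- a constituent with ramification one
  have hfc : IsCharacter G f :=
    isCharacter_indFun E (isCharacter_of_isIrr (isIrrCharacter_linear η))
  choose a ha using fun χ : IrrCharacter G => classInner_natCast hfc (isCharacter_of_isIrr χ.2)
  choose b hb using fun χ : IrrCharacter G =>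
    classInner_natCast (isCharacter_restrict (isCharacter_of_isIrr χ.2) N) (isCharacter_of_isIrr hϑ)
  have hsum2 : m = ∑ χ : IrrCharacter G, a χ * b χ := by
    have h1 : (fun n : N => f n) = ∑ χ : IrrCharacter G, (a χ : ℂ) • fun n : N => (χ : G → ℂ) n := by
      funext n
      have := congrFun (eq_sum_classInner_smul (isClassFunction_of_isCharacter hfc)) n
      simpa [ha] using this
    rw [h1, classInner_sum_left, Finset.sum_congr rfl (g := fun χ => ((a χ * b χ : ℕ) : ℂ))
      fun χ _ => by rw [classInner_smul_left, hb, Nat.cast_mul]] at hfres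
    exact_mod_cast hfres.symm
  obtain ⟨χ, hχ⟩ : ∃ χ : IrrCharacter G, ¬ p ∣ b χ := by
    by_contra hc
    push Not at hc
    exact hm (hsum2 ▸ Finset.dvd_sum fun χ _ => (hc χ).mul_left _)
  have hne : classInner (fun n : N => (χ : G → ℂ) n) ϑ ≠ 0 := by
    rw [hb χ, Nat.cast_ne_zero]
    exact fun h => hχ (h ▸ dvd_zero p)
  have horb : orbit N ϑ = {ϑ} := by
    ext f'
    rw [mem_orbit, Finset.mem_singleton]
    exact ⟨fun ⟨y, hy⟩ => hy.symm.trans (funext fun n => hinv y n),
      fun h => ⟨1, (conjChar_one N ϑ).trans h.symm⟩⟩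
  have hcl := clifford N χ.2 hϑ hne
  rw [horb, Finset.sum_singleton, hb χ] at hcl
  have hb1 : b χ = 1 := by
    have hdvd := CharClifford.ramification_dvd_index N χ.2 hϑ (b χ) fun n => congrFun hcl n
    rw [hk] at hdvd
    obtain ⟨i, -, hi⟩ := (Nat.dvd_prime_pow hp).mp hdvd
    rcases Nat.eq_zero_or_pos i with h0 | h0
    · rw [hi, h0, pow_zero]
    · exact absurd (hi ▸ dvd_pow_self p h0.ne') hχ
  refine ⟨χ, χ.2, fun n => ?_⟩
  have := congrFun hcl n
  rw [hb1] at this
  simpa using this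

end Cfsg.Agent.S0897
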