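import Cfsg.Statements.S0900
import Cfsg.Agent.Lib.CharClifford.Gallagher
import Mathlib.Tactic

set_option autoImplicit false
open scoped ComplexConjugate
open Cfsg

namespace Cfsg.Agent.S0900

open Cfsg.Agent.Lib.Char

variable {G : Type*} [Group G] [Fintype G] (N : Subgroup G) [N.Normal] [Fintype N]

theorem norm_restrict_eq_iff {χ : G → ℂ} (hχ : IsIrrCharacter G χ) :
    classInner (fun n : N => χ n) (fun n : N => χ n) = (N.index : ℂ) ↔
      ∀ g : G, g ∉ N → χ g = 0 := by
  classical
  have h := classInner_irr_self hχ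
  simp only [classInner, Complex.mul_conj, ← Complex.ofReal_sum] at h ⊢
  rw [inv_mul_eq_one₀ (card_ne_zero_complex G)] at h
  rw [inv_mul_eq_iff_eq_mul₀ (card_ne_zero_complex N), ← Nat.cast_mul, Subgroup.card_mul_index, h,
    Complex.ofReal_inj]
  have hsplit : ∑ g : G, Complex.normSq (χ g) = (∑ n : N, Complex.normSq (χ n)) +
      ∑ g ∈ Finset.univ.filter (fun g : G => g ∉ N), Complex.normSq (χ g) := by
    rw [← Finset.sum_filter_add_sum_filter_not Finset.univ (fun g : G => g ∈ N),
      Finset.sum_subtype (p := fun g : G => g ∈ N) _ (by simp) fun g => Complex.normSq (χ g)]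
  rw [hsplit, left_eq_add, Finset.sum_eq_zero_iff_of_nonneg fun g _ => Complex.normSq_nonneg _]
  simp [Complex.normSq_eq_zero]

theorem result {G : Type*} [Group G] [Fintype G] (N : Subgroup G) [hN : N.Normal] [Fintype N] (χ : G → ℂ) (hχ : Cfsg.IsIrrCharacter G χ) (ϑ : N → ℂ) (hϑ : Cfsg.IsIrrCharacter N ϑ) (hcon : Cfsg.classInner (fun n : N => χ n) ϑ ≠ 0) : ((∃ e : ℕ, (fun n : N => χ n) = (e : ℂ) • ϑ ∧ e ^ 2 = N.index) ↔ ((∀ g : G, g ∉ N → χ g = 0) ∧ ∀ (g : G) (n : N), ϑ ⟨g * n * g⁻¹, hN.conj_mem (n : G) n.2 g⟩ = ϑ n)) ∧ ((∃ e : ℕ, (fun n : N => χ n) = (e : ℂ) • ϑ ∧ e ^ 2 = N.index) ↔ (∀ (g : G) (n : N), ϑ ⟨g * n * g⁻¹, hN.conj_mem (n : G) n.2 g⟩ = ϑ n ∧ ∀ ψ : G → ℂ, Cfsg.IsIrrCharacter G ψ → Cfsg.classInner (Cfsg.indFun N ϑ) ψ ≠ 0 → ψ = χ)) := by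
  classical
  have hχc := isCharacter_of_isIrr hχ
  have hϑcf := isClassFunction_of_isIrr hϑ
  obtain ⟨k, hk⟩ := classInner_natCast (isCharacter_restrict hχc N) (isCharacter_of_isIrr hϑ)
  have hk0 : (k : ℂ) ≠ 0 := hk ▸ hcon
  have hP : ∀ e : ℕ, (fun n : N => χ n) = (e : ℂ) • ϑ → (e : ℂ) = k ∧
      classInner (fun n : N => χ n) (fun n : N => χ n) = (e : ℂ) ^ 2 := fun e he => by
    constructor
    · rw [← hk, he, classInner_smul_left, classInner_irr_self hϑ, mul_one]
    · rw [he, classInner_smul_left, classInner_smul_right, classInner_irr_self hϑ,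
        Complex.conj_natCast]
      ring
  have hPinv : ∀ e : ℕ, (fun n : N => χ n) = (e : ℂ) • ϑ → ∀ g, conjChar N g ϑ = ϑ := by
    intro e he g
    funext n
    have h1 := congrFun (conjChar_restrict N (isClassFunction_of_isIrr hχ) g) n
    have h2 := congrFun he ⟨g * n * g⁻¹, hN.conj_mem _ n.2 g⟩
    have h3 := congrFun he n
    simp only [Pi.smul_apply, smul_eq_mul, conjChar_apply] at h1 h2 h3 ⊢
    exact mul_left_cancel₀ ((hP e he).1 ▸ hk0) (h2.symm.trans (h1.trans h3))
  have hres : (∀ g, conjChar N g ϑ = ϑ) → (fun n : N => χ n) = (k : ℂ) • ϑ := fun hinv => by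
    rw [clifford N hχ hϑ hcon, hk]
    congr 1
    have horb : orbit N ϑ = {ϑ} := by
      ext ψ
      rw [mem_orbit, Finset.mem_singleton]
      exact ⟨fun ⟨g, hg⟩ => hg ▸ hinv g, fun h => ⟨1, (hinv 1).trans h.symm⟩⟩
    rw [horb, Finset.sum_singleton]
  have hind : classInner (indFun N ϑ) χ = (k : ℂ) := by
    rw [classInner_indFun N ϑ (isClassFunction_of_isIrr hχ), classInner_conj_symm, hk,
      Complex.conj_natCast]
  constructor
  · constructor
    · rintro ⟨e, he, hidx⟩
      refine ⟨(norm_restrict_eq_iff N hχ).mp ?_, fun g n => congrFun (hPinv e he g) n⟩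
      rw [(hP e he).2, ← hidx]
      push_cast
      rfl
    · rintro ⟨hvan, hinv⟩
      have he := hres fun g => funext (hinv g)
      refine ⟨k, he, ?_⟩
      have h1 := ((hP k he).2).symm.trans ((norm_restrict_eq_iff N hχ).mpr hvan)
      exact_mod_cast h1
  · constructor
    · rintro ⟨e, he, hidx⟩ g n
      refine ⟨congrFun (hPinv e he g) n, fun ψ hψ hne => ?_⟩
      have hek := (hP e he).1
      have hn := Lib.CharClifford.classInner_indFun_self_invariant N hϑ (hPinv e he)
      have hzero : indFun N ϑ - (e : ℂ) • χ = 0 := by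
        refine eq_zero_of_classInner_self _ ?_
        rw [classInner_sub_left, classInner_sub_right, classInner_sub_right, classInner_smul_left,
          classInner_smul_right, classInner_smul_left, classInner_smul_right, hn, hind,
          classInner_irr_self hχ, classInner_conj_symm (indFun N ϑ) χ, hind, Complex.conj_natCast,
          Complex.conj_natCast, ← hek]
        have : ((e : ℂ)) ^ 2 = (N.index : ℂ) := by exact_mod_cast congrArg (Nat.cast (R := ℂ)) hidx
        linear_combination -this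
      by_contra hψχ
      rw [sub_eq_zero.mp hzero, classInner_smul_left, classInner_irr_ne hχ hψ (Ne.symm hψχ),
        mul_zero] at hne
      exact hne rfl
    · intro hR
      have hinv : ∀ g, conjChar N g ϑ = ϑ := fun g => funext fun n => (hR g n).1
      have he := hres hinv
      refine ⟨k, he, ?_⟩
      have hn := Lib.CharClifford.classInner_indFun_self_invariant N hϑ hinv
      have hsum : indFun N ϑ = (k : ℂ) • χ := by
        rw [eq_sum_classInner_smul (isClassFunction_indFun N ϑ), Finset.sum_eq_single ⟨χ, hχ⟩]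
        · rw [hind]
        · intro ψ _ hne
          by_cases h0 : classInner (indFun N ϑ) (ψ : G → ℂ) = 0
          · rw [h0, zero_smul]
          · exact absurd (Subtype.ext ((hR 1 1).2 ψ ψ.2 h0)) hne
        · intro h; exact absurd (Finset.mem_univ _) h
      rw [hsum, classInner_smul_left, classInner_smul_right, classInner_irr_self hχ,
        Complex.conj_natCast, mul_one, ← Nat.cast_mul, ← sq] at hn
      exact_mod_cast hn

end Cfsg.Agent.S0900
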