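import Cfsg.Statements.S0901
import Cfsg.Agent.Lib.Block.LocalRing
import Mathlib.Algebra.Algebra.ZMod
import Mathlib.RingTheory.RootsOfUnity.Minpoly
import Mathlib.RingTheory.RootsOfUnity.Complex
import Mathlib.RingTheory.IntegralDomain
import Mathlib.RingTheory.Adjoin.FG
import Mathlib.LinearAlgebra.Finsupp.Pi
-- import your own Cfsg.Agent.* helpers here

set_option autoImplicit false
open Cfsg

open Cfsg Cfsg.Agent.Lib.Block
open Cfsg.Agent.Lib

namespace Cfsg.Agent.S0901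

/-- Let M be a maximal ideal of the ring of algebraic integers containing the prime p, and let U be the set of complex roots of unity of order prime to p. Then reduction modulo M is injective on U, and every algebraic integer not in M is congruent modulo M to an element of U (so U maps bijectively onto the nonzero residues). -/
theorem result (p : ℕ) [Fact p.Prime] (M : Ideal Cfsg.AlgInt) (hM : Cfsg.IsPModular p M) : (∀ ε₁ ε₂ : Cfsg.AlgInt, (∃ m : ℕ, ¬ p ∣ m ∧ (ε₁ : ℂ) ^ m = 1) → (∃ m : ℕ, ¬ p ∣ m ∧ (ε₂ : ℂ) ^ m = 1) → ε₁ - ε₂ ∈ M → ε₁ = ε₂) ∧ (∀ a : Cfsg.AlgInt, a ∉ M → ∃ ε : Cfsg.AlgInt, (∃ m : ℕ, ¬ p ∣ m ∧ (ε : ℂ) ^ m = 1) ∧ a - ε ∈ M) := by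
  classical
  haveI := hM.2.1
  haveI : Fact p.Prime := ⟨hM.1⟩
  letI : Field (AlgInt ⧸ M) := Ideal.Quotient.field M
  have hp0 : ((p : ℕ) : AlgInt ⧸ M) = 0 := by
    rw [← map_natCast (Ideal.Quotient.mk M), Ideal.Quotient.eq_zero_iff_mem]
    exact hM.2.2
  haveI : CharP (AlgInt ⧸ M) p := (CharP.charP_iff_prime_eq_zero hM.1).2 hp0
  have key : ∀ (z : AlgInt) (n : ℕ), ¬ p ∣ n → z ^ n = 1 → Ideal.Quotient.mk M z = 1 → z = 1 := by
    intro z n hn hz h1
    by_contra hne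
    have hs : ∑ i ∈ Finset.range n, z ^ i = 0 := by
      have := geom_sum_mul z n
      rw [hz, sub_self] at this
      exact (mul_eq_zero.1 this).resolve_right (sub_ne_zero.2 hne)
    have := congrArg (Ideal.Quotient.mk M) hs
    simp only [map_sum, map_pow, h1, one_pow, Finset.sum_const, Finset.card_range, nsmul_eq_mul,
      mul_one, map_zero] at this
    exact hn ((CharP.cast_eq_zero_iff _ p n).1 this)
  refine ⟨fun ε₁ ε₂ h1 h2 h => ?_, fun a ha => ?_⟩
  · obtain ⟨m₁, hm₁, e₁⟩ := h1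
    obtain ⟨m₂, hm₂, e₂⟩ := h2
    have e₁' : ε₁ ^ m₁ = 1 := Subtype.ext (by simpa using e₁)
    have e₂' : ε₂ ^ m₂ = 1 := Subtype.ext (by simpa using e₂)
    have hm : ¬ p ∣ m₁ * m₂ := fun hd => (hM.1.dvd_mul.1 hd).elim hm₁ hm₂
    have hpos : 0 < m₂ := Nat.pos_of_ne_zero fun h0 => hm₂ (h0 ▸ dvd_zero p)
    have hinv : ε₂ * ε₂ ^ (m₂ - 1) = 1 := by
      rw [← pow_succ', Nat.sub_add_cancel hpos, e₂']
    have hz := key (ε₁ * ε₂ ^ (m₂ - 1)) (m₁ * m₂) hm (by
      rw [mul_pow, pow_mul, e₁', one_pow, ← pow_mul, show (m₂ - 1) * (m₁ * m₂) = m₂ * (m₁ * (m₂ - 1)) by ring,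
        pow_mul, e₂', one_pow, one_mul]) (by
      rw [map_mul, show Ideal.Quotient.mk M ε₁ = Ideal.Quotient.mk M ε₂ from Ideal.Quotient.eq.2 h,
        ← map_mul, hinv, map_one])
    calc ε₁ = ε₁ * (ε₂ * ε₂ ^ (m₂ - 1)) := by rw [hinv, mul_one]
      _ = ε₂ * (ε₁ * ε₂ ^ (m₂ - 1)) := by ring
      _ = ε₂ := by rw [hz, mul_one]
  · set b := Ideal.Quotient.mk M a with hb
    have hb0 : b ≠ 0 := fun h => ha (Ideal.Quotient.eq_zero_iff_mem.1 h)
    letI : Algebra (ZMod p) (AlgInt ⧸ M) := ZMod.algebra _ p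
    have hbi : IsIntegral (ZMod p) b := by
      have h1 : IsIntegral ℤ a := integralClosure.isIntegral a
      exact (map_isIntegral_int (Ideal.Quotient.mk M) h1).tower_top
    haveI : Module.Finite (ZMod p) (Algebra.adjoin (ZMod p) ({b} : Set (AlgInt ⧸ M))) :=
      Module.Finite.iff_fg.2 hbi.fg_adjoin_singleton
    haveI : Finite (Algebra.adjoin (ZMod p) ({b} : Set (AlgInt ⧸ M))) :=
      Module.finite_of_finite (ZMod p)
    obtain ⟨i, j, hne, hij⟩ := Finite.exists_ne_map_eq_of_infinite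
      fun k : ℕ => (⟨b ^ k, pow_mem (Algebra.self_mem_adjoin_singleton (ZMod p) b) k⟩ :
        Algebra.adjoin (ZMod p) ({b} : Set (AlgInt ⧸ M)))
    have hfin : IsOfFinOrder b := by
      have hij' : b ^ i = b ^ j := congrArg Subtype.val hij
      rcases lt_or_gt_of_ne hne with h | h
      · refine isOfFinOrder_iff_pow_eq_one.2 ⟨j - i, by omega, ?_⟩
        rw [pow_sub₀ b hb0 h.le, hij', mul_inv_cancel₀ (pow_ne_zero _ hb0)]
      · refine isOfFinOrder_iff_pow_eq_one.2 ⟨i - j, by omega, ?_⟩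
        rw [pow_sub₀ b hb0 h.le, hij', mul_inv_cancel₀ (pow_ne_zero _ hb0)]
    set n := orderOf b with hn
    have hn0 : n ≠ 0 := hfin.orderOf_pos.ne'
    have hpn : ¬ p ∣ n := by
      rintro ⟨m, hm⟩
      have h0 : (b ^ m) ^ p = 1 := by rw [← pow_mul, mul_comm, ← hm, hn, pow_orderOf_eq_one]
      have h1 : (b ^ m - 1) ^ p = 0 := by rw [sub_pow_char, one_pow, h0, sub_self]
      have hdvd := orderOf_dvd_of_pow_eq_one (sub_eq_zero.1 (eq_zero_of_pow_eq_zero h1))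
      rw [← hn] at hdvd
      rcases Nat.eq_zero_or_pos m with rfl | hm0
      · exact hn0 (by rw [hm, mul_zero])
      · have hle := Nat.le_of_dvd hm0 hdvd
        rw [hm] at hle
        nlinarith [hM.1.two_le]
    have hζ := Complex.isPrimitiveRoot_exp n hn0
    set ζ := Complex.exp (2 * Real.pi * Complex.I / n)
    obtain ⟨ε, hε⟩ : ∃ ε : AlgInt, (ε : ℂ) = ζ :=
      ⟨⟨ζ, hζ.isIntegral (Nat.pos_of_ne_zero hn0)⟩, rfl⟩
    have hεp : IsPrimitiveRoot ε n :=
      ⟨Subtype.ext (by simpa [hε] using hζ.pow_eq_one),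
        fun l hl => hζ.dvd_of_pow_eq_one l (by rw [← hε]; simpa using congrArg Subtype.val hl)⟩
    haveI : NeZero n := ⟨hn0⟩
    have hprim : IsPrimitiveRoot (Ideal.Quotient.mk M ε) n := by
      refine ⟨by rw [← map_pow, hεp.pow_eq_one, map_one], fun l hl => hεp.dvd_of_pow_eq_one l ?_⟩
      exact key _ n hpn (by rw [← pow_mul, mul_comm, pow_mul, hεp.pow_eq_one, one_pow])
        (by rw [map_pow, hl])
    obtain ⟨k, -, hk⟩ := hprim.eq_pow_of_pow_eq_one (ξ := b) (pow_orderOf_eq_one b)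
    have hεk : (ε ^ k) ^ n = 1 := by rw [← pow_mul, mul_comm, pow_mul, hεp.pow_eq_one, one_pow]
    refine ⟨ε ^ k, ⟨n, hpn, by simpa using congrArg Subtype.val hεk⟩, ?_⟩
    rw [← Ideal.Quotient.eq, map_pow, hk]

end Cfsg.Agent.S0901
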