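import Cfsg.Statements.S0902
import Cfsg.Agent.Lib.Block.HeightZero
import Cfsg.Agent.Lib.Block.Apply
-- import your own Cfsg.Agent.* helpers here

set_option autoImplicit false
open Cfsg

open Cfsg Cfsg.Agent.Lib.Block
open Cfsg.Agent.Lib

namespace Cfsg.Agent.S0902

/-- If two irreducible characters of a finite group lie in the same block relative to one maximal ideal M of the algebraic integers containing the prime p, then at every element the difference of their central characters is an algebraic integer lying in every maximal ideal containing p; in particular they lie in the same block relative to any such ideal. -/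
theorem result {G : Type*} [Group G] [Finite G] (p : ℕ) [Fact p.Prime] (M : Ideal Cfsg.AlgInt) (hM : Cfsg.IsPModular p M) (χ ψ : Cfsg.IrrCharacter G) (h : Cfsg.SameBlock M (χ : G → ℂ) (ψ : G → ℂ)) (M' : Ideal Cfsg.AlgInt) (hM' : Cfsg.IsPModular p M') (g : G) : ∃ r : Cfsg.AlgInt, r ∈ M' ∧ (r : ℂ) = Cfsg.centralChar (χ : G → ℂ) g - Cfsg.centralChar (ψ : G → ℂ) g := by
  haveI := hM.2.1
  haveI := hM'.2.1
  haveI := Fintype.ofFinite G
  have hB := isPBlock_blockOf (M := M) χ
  obtain ⟨φ, hφ, h0⟩ := exists_height_zero hB p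
  have link : ∀ η : IrrCharacter G, η ∈ blockOf M (χ : G → ℂ) →
      SameBlock M' (η : G → ℂ) (φ : G → ℂ) := by
    intro η hη
    by_contra hn
    exact regInner_ne_zero_of_height_zero hM hB hφ hη h0 (regInner_eq_zero hM' hn)
  have hs : SameBlock M' (χ : G → ℂ) (ψ : G → ℂ) :=
    sameBlock_trans (link χ (mem_blockOf_self χ)) (sameBlock_symm (link ψ h))
  have hint : IsIntegral ℤ (centralChar (χ : G → ℂ) g - centralChar (ψ : G → ℂ) g) :=
    (Char.isIntegral_classSize_mul_div χ.2 g).sub (Char.isIntegral_classSize_mul_div ψ.2 g)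
  refine ⟨⟨_, hint⟩, ?_, rfl⟩
  exact algInt_memLocalIdeal_iff.1 (hs g)

end Cfsg.Agent.S0902
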