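import Cfsg.Statements.S0903
import Cfsg.Agent.Lib.Block.ModP
-- import your own Cfsg.Agent.* helpers here

set_option autoImplicit false
open Cfsg Cfsg.Agent.Lib.Block
open Cfsg.Agent.Lib

namespace Cfsg.Agent.S0903

/-- Let P be a p-subgroup of the finite group G, let c centralize P and let g, h ∈ G. The number of pairs (x, y) with x conjugate to g, y conjugate to h and x * y = c is congruent modulo p to the number of such pairs in which x and y both centralize P. (This is why the Brauer map on class sums is multiplicative.) -/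
theorem result {G : Type*} [Group G] [Finite G] (p : ℕ) [Fact p.Prime] (P : Subgroup G) (hP : IsPGroup p P) (c : G) (hc : c ∈ Subgroup.centralizer (P : Set G)) (g h : G) : Nat.card {xy : G × G // IsConj g xy.1 ∧ IsConj h xy.2 ∧ xy.1 * xy.2 = c} ≡ Nat.card {xy : G × G // IsConj g xy.1 ∧ IsConj h xy.2 ∧ xy.1 * xy.2 = c ∧ xy.1 ∈ Subgroup.centralizer (P : Set G) ∧ xy.2 ∈ Subgroup.centralizer (P : Set G)} [MOD p] := by
  classical
  haveI := Fintype.ofFinite G
  have hc' : c ∈ (Subgroup.centralizer (P : Set G) : Set G) := hc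
  have hh := congrArg (fun z : MonoidAlgebra (ZMod p) G => z.coeff c)
    (restr_centralizer_mul (k := ZMod p) (p := p) hP (a := classSum (ZMod p) g) (b := classSum (ZMod p) h)
      (fun u _ => isClassCoeff_classSum g u) (fun u _ => isClassCoeff_classSum h u))
  simp only [coeff_restr_of_mem hc', coeff_mul_eq_sum, coeff_restr, Set.indicator_apply,
    coeff_classSum, SetLike.mem_coe] at hh
  rw [← ZMod.natCast_eq_natCast_iff] -- compare the two counts
  have hcount : ∀ (A B : G → Prop),
      (Nat.card {xy : G × G // A xy.1 ∧ B xy.2 ∧ xy.1 * xy.2 = c} : ZMod p) =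
        ∑ y : G, (if A y then (1 : ZMod p) else 0) * (if B (y⁻¹ * c) then 1 else 0) := by
    intro A B
    have e : Nat.card {xy : G × G // A xy.1 ∧ B xy.2 ∧ xy.1 * xy.2 = c} =
        Nat.card {y : G // A y ∧ B (y⁻¹ * c)} := Nat.card_congr
      { toFun := fun xy => ⟨xy.1.1, xy.2.1, by
          rw [inv_mul_eq_iff_eq_mul.2 xy.2.2.2.symm]; exact xy.2.2.1⟩
        invFun := fun y => ⟨(y.1, y.1⁻¹ * c), y.2.1, y.2.2, mul_inv_cancel_left _ _⟩
        left_inv := fun xy => by
          obtain ⟨⟨a, b⟩, ha, hb, hab⟩ := xy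
          simp only [Subtype.mk.injEq, Prod.mk.injEq, true_and]
          rw [← hab, inv_mul_cancel_left]
        right_inv := fun y => rfl }
    rw [e, Nat.card_eq_fintype_card, Fintype.card_subtype, Finset.natCast_card_filter]
    refine Finset.sum_congr rfl fun y _ => ?_
    by_cases hA : A y <;> simp [hA]
  have e2 : Nat.card {xy : G × G // IsConj g xy.1 ∧ IsConj h xy.2 ∧ xy.1 * xy.2 = c ∧
      xy.1 ∈ Subgroup.centralizer (P : Set G) ∧ xy.2 ∈ Subgroup.centralizer (P : Set G)} =
      Nat.card {xy : G × G // (IsConj g xy.1 ∧ xy.1 ∈ Subgroup.centralizer (P : Set G)) ∧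
        (IsConj h xy.2 ∧ xy.2 ∈ Subgroup.centralizer (P : Set G)) ∧ xy.1 * xy.2 = c} :=
    Nat.card_congr (Equiv.subtypeEquivRight fun xy => by tauto)
  rw [e2, hcount (fun x => IsConj g x) (fun y => IsConj h y),
    hcount (fun x => IsConj g x ∧ x ∈ Subgroup.centralizer (P : Set G))
      (fun y => IsConj h y ∧ y ∈ Subgroup.centralizer (P : Set G)), hh]
  refine Finset.sum_congr rfl fun y _ => ?_
  by_cases h1 : IsConj g y <;> by_cases h2 : y ∈ Subgroup.centralizer (P : Set G) <;>
    by_cases h3 : y⁻¹ * c ∈ Subgroup.centralizer (P : Set G) <;>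
    simp only [h1, h2, h3, and_true, and_false, false_and, if_true, if_false]

end Cfsg.Agent.S0903
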