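import Cfsg.Statements.S0910
import Cfsg.Agent.Lib.Block.Principal
import Cfsg.Agent.Lib.Block.Defect
import Cfsg.Agent.Lib.Char.Burnside
import Cfsg.Agent.Lib.Char.Linear
-- import your own Cfsg.Agent.* helpers here

set_option autoImplicit false
open Cfsg

open Cfsg Cfsg.Agent.Lib.Block
open Cfsg.Agent.Lib

namespace Cfsg.Agent.S0910

/-- Let G be a non-abelian finite simple group and p a prime. If an irreducible character χ lies in the principal block (relative to a maximal ideal of the algebraic integers containing p) and χ 1 is a power of p, then χ is the principal character. -/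
theorem result {G : Type*} [Group G] [Finite G] (p : ℕ) [Fact p.Prime] (M : Ideal Cfsg.AlgInt) (hM : Cfsg.IsPModular p M) [IsSimpleGroup G] (hna : ∃ a b : G, a * b ≠ b * a) (χ : Cfsg.IrrCharacter G) (hχ : χ ∈ Cfsg.principalBlock M G) (k : ℕ) (hdeg : (χ : G → ℂ) 1 = (p : ℂ) ^ k) : (χ : G → ℂ) = fun _ => 1 := by
  classical
  haveI := hM.2.1
  haveI : Fact p.Prime := ⟨hM.1⟩
  haveI := Fintype.ofFinite G
  obtain ⟨a, b, hab⟩ := hna
  have hlin : ∀ l : G →* ℂˣ, l = 1 := by
    intro l
    rcases (inferInstance : l.ker.Normal).eq_bot_or_eq_top with h | h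
    · exact absurd ((MonoidHom.ker_eq_bot_iff l).1 h (by rw [map_mul, map_mul, mul_comm])) hab
    · exact MonoidHom.ext fun x => MonoidHom.mem_ker.1 (h ▸ Subgroup.mem_top x)
  rcases Nat.eq_zero_or_pos k with rfl | hk
  · obtain ⟨l, hl⟩ := Char.exists_hom_of_degree_one (Char.isCharacter_of_isIrr χ.2) (by rw [hdeg, pow_zero])
    funext x
    rw [hl, hlin l]
    simp
  exfalso
  have hdvd : p ^ k ∣ Nat.card G := Char.irr_degree_dvd_card χ.2 (by rw [hdeg]; push_cast; rfl)
  obtain ⟨P⟩ := (inferInstance : Nonempty (Sylow p G))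
  have hPn : Nontrivial (P : Subgroup G) := by
    rw [Subgroup.nontrivial_iff_ne_bot]
    exact P.ne_bot_of_dvd_card ((dvd_pow_self p hk.ne').trans hdvd)
  haveI := P.2.center_nontrivial
  obtain ⟨⟨x, hxZ⟩, hx1⟩ := exists_ne (1 : Subgroup.center (P : Subgroup G))
  have hx : (x : G) ≠ 1 := fun h => hx1 (Subtype.ext (Subtype.ext h))
  have hle : (P : Subgroup G) ≤ Subgroup.centralizer ({(x : G)} : Set G) := fun w hw =>
    Subgroup.mem_centralizer_singleton_iff.2
      (congrArg Subtype.val (Subgroup.mem_center_iff.1 hxZ ⟨w, hw⟩))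
  have hpi : ¬ p ∣ (Subgroup.centralizer ({(x : G)} : Set G)).index := fun h =>
    P.not_dvd_index (h.trans (Subgroup.index_dvd_of_le hle))
  have hcop : Nat.Coprime (p ^ k) (Subgroup.centralizer ({(x : G)} : Set G)).index :=
    ((hM.1.coprime_iff_not_dvd).2 hpi).pow_left k
  rcases Char.char_eq_zero_or_norm_eq χ.2 (n := p ^ k) (by rw [hdeg]; push_cast; rfl) x hcop with h | h
  · have h1 := sameBlock_iff.1 (show SameBlock M (oneIrr G : G → ℂ) (χ : G → ℂ) from hχ) (x : G)
    rw [show centralChar (χ : G → ℂ) (x : G) = 0 by rw [centralChar, h, mul_zero, zero_div],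
      redC_zero] at h1
    have e : centralChar (oneIrr G : G → ℂ) (x : G) =
        ((Subgroup.centralizer ({(x : G)} : Set G)).index : ℂ) := by
      simp [centralChar, oneIrr_apply]
    rw [e] at h1
    exact hpi ((redC_natCast_eq_zero_iff hM).1 h1)
  · obtain ⟨m, ρ, hρ, hρe⟩ := χ.2
    rw [← hρe] at h hdeg
    have hm : m = p ^ k := by
      have : (m : ℂ) = ((p ^ k : ℕ) : ℂ) := by push_cast; simpa using hdeg
      exact_mod_cast this
    have hscal := Char.apply_eq_smul_of_norm_eq ρ (x : G) (by rw [h, ← hm]; simp)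
    let Z : Subgroup G := (Subgroup.center (Module.End ℂ (Fin m → ℂ))ˣ).comap ρ.toHomUnits
    have hgZ : (x : G) ∈ Z := by
      rw [Subgroup.mem_comap, Subgroup.mem_center_iff]
      intro u
      refine Units.ext ?_
      show (u : Module.End ℂ (Fin m → ℂ)) * ρ (x : G) = ρ (x : G) * u
      rw [hscal, mul_smul_comm, smul_mul_assoc, mul_one, one_mul]
    have hZ : Z = ⊤ := (inferInstance : Z.Normal).eq_bot_or_eq_top.resolve_left fun hb => hx (by
      rwa [hb, Subgroup.mem_bot] at hgZ)
    rcases (inferInstance : ρ.toHomUnits.ker.Normal).eq_bot_or_eq_top with hb | ht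
    · refine hab ((MonoidHom.ker_eq_bot_iff _).1 hb ?_)
      rw [map_mul, map_mul]
      exact Subgroup.mem_center_iff.1 (show ρ.toHomUnits b ∈ Subgroup.center _ from
        Subgroup.mem_comap.1 (show b ∈ Z by rw [hZ]; exact Subgroup.mem_top b)) _
    · have h1 : ∀ y, ρ y = 1 := fun y => congrArg Units.val
        (MonoidHom.mem_ker.mp (ht ▸ Subgroup.mem_top y : y ∈ ρ.toHomUnits.ker))
      have hn := Char.classInner_irr_self (χ := ρ.character) ⟨m, ρ, hρ, rfl⟩
      simp [classInner, Representation.character, h1] at hn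
      have h2 : m * m = 1 := by exact_mod_cast hn
      rw [(mul_eq_one.1 h2).1] at hm
      exact absurd hm (Nat.one_lt_pow hk.ne' hM.1.one_lt).ne

end Cfsg.Agent.S0910
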