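import Cfsg.Statements.S0904
import Cfsg.Agent.Lib.Block.Principal
import Cfsg.Agent.Lib.Block.Exist
import Cfsg.Agent.S0910
import Cfsg.Agent.Lib.Block.Defect
import Cfsg.Agent.Lib.Char.Regular
-- import your own Cfsg.Agent.* helpers here

set_option autoImplicit false
open Cfsg

open Cfsg Cfsg.Agent.Lib.Block
open Cfsg.Agent.Lib

namespace Cfsg.Agent.S0904

/-- No element of order `p` commutes with one of order `r`. -/
theorem no_commuting_elements {G : Type*} [Group G] [Finite G] [IsSimpleGroup G] {p q r a b : ℕ}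
    (hp : p.Prime) (hq : q.Prime) (hr : r.Prime) (hpq : p ≠ q) (hpr : p ≠ r) (hqr : q ≠ r)
    (hcard : Nat.card G = p ^ a * q ^ b * r) (hna : ∃ g h : G, g * h ≠ h * g) {x y : G}
    (hx : orderOf x = r) (hy : orderOf y = p) (hxy : Commute x y) : False := by
  classical
  haveI := Fact.mk hp
  haveI := Fintype.ofFinite G
  obtain ⟨M, hM⟩ := exists_isPModular hp
  haveI := hM.2.1
  set z := x * y with hz
  have hzo : orderOf z = r * p := by
    rw [hxy.orderOf_mul_eq_mul_orderOf_of_coprime
      (by rw [hx, hy]; exact (Nat.coprime_primes hr hp).2 hpr.symm), hx, hy]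
  have hzp : p ∣ orderOf z := hzo ▸ dvd_mul_left p r
  have hzr : r ∣ orderOf z := hzo ▸ dvd_mul_right r p
  have h := weak_orthogonality hM (isPBlock_principalBlock (G := G)) regular_one hzp
  rw [← Finset.add_sum_erase _ _ (Finset.mem_univ (oneIrr G)), if_pos oneIrr_mem, oneIrr_apply,
    oneIrr_apply, map_one, one_mul] at h
  have hdiv : IsIntegral ℤ ((∑ χ ∈ Finset.univ.erase (oneIrr G),
      (if χ ∈ principalBlock M G then (χ : G → ℂ) 1 * (starRingEnd ℂ) ((χ : G → ℂ) z) else 0)) / (q : ℂ)) := by
    rw [Finset.sum_div]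
    refine IsIntegral.sum _ fun χ hχ => ?_
    split_ifs with hB
    · set n := charDegree (χ : G → ℂ) with hn
      have hχ1 := irr_one_eq_natCast χ
      by_cases hrn : r ∣ n
      · have hz0 : (χ : G → ℂ) z = 0 := by
          haveI := Fact.mk hr
          refine Char.apply_eq_zero_of_defect_zero χ.2 hr ?_ hzr
          have h1 : (Nat.card G).factorization r = 1 := by
            rw [hcard, Nat.factorization_mul (mul_ne_zero (pow_ne_zero _ hp.ne_zero) (pow_ne_zero _ hq.ne_zero)) hr.ne_zero,
              Nat.factorization_mul (pow_ne_zero _ hp.ne_zero) (pow_ne_zero _ hq.ne_zero)]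
            simp [hp.factorization_pow, hq.factorization_pow, hr.factorization_self, Finsupp.single_apply, hpr, hqr]
          rwa [h1, pow_one]
        rw [hz0, map_zero, mul_zero, zero_div]
        exact isIntegral_zero
      by_cases hqn : q ∣ n
      · obtain ⟨e, he⟩ := hqn
        rw [hχ1, ← hn, he, Nat.cast_mul, mul_assoc, mul_div_cancel_left₀ _ (Nat.cast_ne_zero.2 hq.ne_zero)]
        rw [← Char.char_inv (Char.isCharacter_of_isIrr χ.2)]
        exact (isIntegral_algebraMap (x := (e : ℤ))).mul (Char.char_isIntegral (Char.isCharacter_of_isIrr χ.2) _)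
      · exfalso
        obtain ⟨k, -, hk⟩ : ∃ k ≤ a, n = p ^ k := by
          refine (Nat.dvd_prime_pow hp).1 ?_
          have hdvd : n ∣ p ^ a * q ^ b * r := hcard ▸ charDegree_dvd_card χ
          have c1 : Nat.Coprime n r := ((hr.coprime_iff_not_dvd).2 hrn).symm
          have c2 : Nat.Coprime n (q ^ b) := (((hq.coprime_iff_not_dvd).2 hqn).symm).pow_right b
          exact c2.dvd_of_dvd_mul_right (c1.dvd_of_dvd_mul_right hdvd)
        refine (Finset.mem_erase.1 hχ).1 (Subtype.ext ?_)
        exact (S0910.result p M hM hna χ hB k (by rw [hχ1, ← hn, hk, Nat.cast_pow])).trans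
          (funext fun g => (oneIrr_apply g).symm)
    · rw [zero_div]; exact isIntegral_zero
  rw [eq_neg_of_add_eq_zero_right h] at hdiv
  have h1 : IsIntegral ℤ (((1 : ℕ) : ℂ) / (q : ℂ)) := by simpa [neg_div] using hdiv.neg
  exact hq.not_dvd_one (Char.dvd_of_isIntegral_div hq.ne_zero h1)


/-- Let G be a finite simple group of order p ^ a * q ^ b * r with p, q, r distinct primes. Then every Sylow r-subgroup S of G satisfies C_G(S) = S. -/
theorem result {G : Type*} [Group G] [Finite G] [IsSimpleGroup G] (p q r a b : ℕ) (hp : p.Prime) (hq : q.Prime) [Fact r.Prime] (hpq : p ≠ q) (hpr : p ≠ r) (hqr : q ≠ r) (hcard : Nat.card G = p ^ a * q ^ b * r) (S : Sylow r G) : Subgroup.centralizer (S : Set G) = (S : Subgroup G) := by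
  classical
  haveI := Fact.mk hp
  haveI := Fact.mk hq
  have hr : r.Prime := Fact.out
  refine le_antisymm ?_ ?_
  · have hSc : Nat.card (S : Subgroup G) = r := by
      rw [S.card_eq_multiplicity, hcard]
      have h1 : (p ^ a * q ^ b * r).factorization r = 1 := by
        rw [Nat.factorization_mul (mul_ne_zero (pow_ne_zero _ hp.ne_zero) (pow_ne_zero _ hq.ne_zero)) hr.ne_zero,
          Nat.factorization_mul (pow_ne_zero _ hp.ne_zero) (pow_ne_zero _ hq.ne_zero)]
        simp [hp.factorization_pow, hq.factorization_pow, hr.factorization_self, Finsupp.single_apply, hpr, hqr]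
      rw [h1, pow_one]
    by_cases hab : ∀ g h : G, g * h = h * g
    · have hn : (S : Subgroup G).Normal := ⟨fun n hn g => by rwa [hab g n, mul_inv_cancel_right]⟩
      rcases hn.eq_bot_or_eq_top with h | h
      · rw [h, Subgroup.card_bot] at hSc
        exact absurd hSc hr.ne_one.symm
      · rw [h]; exact le_top
    push Not at hab
    haveI : IsCyclic (S : Subgroup G) := isCyclic_of_prime_card hSc
    obtain ⟨⟨x, hxS⟩, hx⟩ := IsCyclic.exists_ofOrder_eq_natCard (α := (S : Subgroup G))
    rw [Subgroup.orderOf_mk, hSc] at hx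
    intro c hc
    have hcx : Commute x c := Subgroup.mem_centralizer_iff.1 hc x hxS
    by_contra hcS
    -- some element of prime order other than `r` commutes with `x`
    have key : ∀ ℓ : ℕ, ℓ.Prime → ℓ ∣ Nat.card (Subgroup.centralizer ({x} : Set G)) → ℓ = r := by
      intro ℓ hℓ hdvd
      haveI := Fact.mk hℓ
      obtain ⟨⟨y, hyC⟩, hy⟩ := exists_prime_orderOf_dvd_card' ℓ hdvd
      rw [Subgroup.orderOf_mk] at hy
      have hyx : Commute x y := (Subgroup.mem_centralizer_singleton_iff.1 hyC).symm
      have hℓG : ℓ ∣ p ^ a * q ^ b * r := hcard ▸ hy ▸ orderOf_dvd_natCard y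
      rcases hℓ.dvd_mul.1 hℓG with h | h
      · rcases hℓ.dvd_mul.1 h with h | h
        · obtain rfl := (Nat.prime_dvd_prime_iff_eq hℓ hp).1 (hℓ.dvd_of_dvd_pow h)
          exact (no_commuting_elements (q := q) (a := a) (b := b) hℓ hq hr hpq hpr hqr hcard hab hx hy hyx).elim
        · obtain rfl := (Nat.prime_dvd_prime_iff_eq hℓ hq).1 (hℓ.dvd_of_dvd_pow h)
          exact (no_commuting_elements (q := p) (a := b) (b := a) hℓ hp hr hpq.symm hqr hpr
            (by rw [hcard]; ring) hab hx hy hyx).elim
      · exact (Nat.prime_dvd_prime_iff_eq hℓ hr).1 h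
    have hC : Nat.card (Subgroup.centralizer ({x} : Set G)) =
        r ^ (Nat.card (Subgroup.centralizer ({x} : Set G))).primeFactorsList.length :=
      Nat.eq_prime_pow_of_unique_prime_dvd Nat.card_pos.ne' fun {d} hd hdd => key d hd hdd
    have hle : (S : Subgroup G) ≤ Subgroup.centralizer ({x} : Set G) := by
      intro w hw
      rw [Subgroup.mem_centralizer_singleton_iff]
      have := IsCyclic.commutative (α := (S : Subgroup G))
      exact congrArg Subtype.val (this.is_comm.comm ⟨w, hw⟩ ⟨x, hxS⟩)
    have heq := S.3 (IsPGroup.of_card hC) hle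
    exact hcS (heq ▸ Subgroup.mem_centralizer_singleton_iff.2 hcx.symm.eq)
  · intro s hs
    rw [Subgroup.mem_centralizer_iff]
    intro t ht
    have hS1 : Nat.card (S : Subgroup G) = r := by
      rw [S.card_eq_multiplicity, hcard]
      have h1 : (p ^ a * q ^ b * r).factorization r = 1 := by
        rw [Nat.factorization_mul (mul_ne_zero (pow_ne_zero _ hp.ne_zero) (pow_ne_zero _ hq.ne_zero)) hr.ne_zero,
          Nat.factorization_mul (pow_ne_zero _ hp.ne_zero) (pow_ne_zero _ hq.ne_zero)]
        simp [hp.factorization_pow, hq.factorization_pow, hr.factorization_self, Finsupp.single_apply, hpr, hqr]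
      rw [h1, pow_one]
    haveI : IsCyclic (S : Subgroup G) := isCyclic_of_prime_card hS1
    have := IsCyclic.commutative (α := (S : Subgroup G))
    exact congrArg Subtype.val (this.is_comm.comm ⟨t, ht⟩ ⟨s, hs⟩)

end Cfsg.Agent.S0904
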