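import Cfsg.Statements.S0905
import Cfsg.Agent.Lib.Block.ModP
import Cfsg.Agent.Lib.Hall.Basic
-- import your own Cfsg.Agent.* helpers here

set_option autoImplicit false
open Cfsg Cfsg.Agent.Lib.Block
open Cfsg.Agent.Lib

namespace Cfsg.Agent.S0905

/-- Let F be a field of characteristic p and let g be an element of the finite group G no conjugate of which centralizes O_p(G). Then the class sum of g is a nilpotent element of the group algebra F[G]. -/
theorem result {G : Type*} [Group G] [Finite G] (p : ℕ) [Fact p.Prime] (F : Type*) [Field F] [CharP F p] (g : G) (hg : ∀ x : G, IsConj g x → x ∉ Subgroup.centralizer (Cfsg.pCore p G : Set G)) : IsNilpotent (∑ᶠ x ∈ ConjClasses.carrier (ConjClasses.mk g), MonoidAlgebra.single x (1 : F) : MonoidAlgebra F G) := by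
  classical
  haveI : Finite (ConjClasses.carrier (ConjClasses.mk g)) := inferInstance
  haveI := Fintype.ofFinite G
  have heq : (∑ᶠ x ∈ ConjClasses.carrier (ConjClasses.mk g), MonoidAlgebra.single x (1 : F) : MonoidAlgebra F G) =
      classSum F g := by
    rw [finsum_mem_def, finsum_eq_sum_of_fintype]
    conv_rhs => rw [eq_sum_single (classSum F g)]
    refine Finset.sum_congr rfl fun x _ => ?_
    rw [coeff_classSum, Set.indicator_apply]
    have hiff : x ∈ ConjClasses.carrier (ConjClasses.mk g) ↔ IsConj g x := by
      rw [ConjClasses.mem_carrier_iff_mk_eq, ConjClasses.mk_eq_mk_iff_isConj]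
      exact ⟨IsConj.symm, IsConj.symm⟩
    by_cases h : IsConj g x
    · rw [if_pos h, if_pos (hiff.2 h)]
    · rw [if_neg h, if_neg (fun h' => h (hiff.1 h')), MonoidAlgebra.single_zero]
  rw [heq]
  exact isNilpotent_classSum (p := p) (Hall.isPGroup_pCore p) g hg

end Cfsg.Agent.S0905
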