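import Cfsg.Statements.S0911
import Cfsg.Agent.Lib.Block.Defect
-- import your own Cfsg.Agent.* helpers here

set_option autoImplicit false
open Cfsg Cfsg.Agent.Lib.Block
open Cfsg.Agent.Lib

namespace Cfsg.Agent.S0911

/-- The min–max Theorem for defect classes. Let B be a block of the finite group G relative to a maximal ideal M of the algebraic integers containing the prime p, let g represent a defect class of B and let D be a Sylow p-subgroup of the centralizer of g (viewed in G). For any h: (a) if the idempotent coefficient of B at h is a local integer outside the local ideal, then some conjugate of D contains a Sylow p-subgroup of the centralizer of h; (b) if the central character of some member of B at h is outside the local ideal, then some conjugate of D is contained in a Sylow p-subgroup of the centralizer of h. -/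
theorem result {G : Type*} [Group G] [Finite G] (p : ℕ) [Fact p.Prime] (M : Ideal Cfsg.AlgInt) (hM : Cfsg.IsPModular p M) (B : Set (Cfsg.IrrCharacter G)) (hB : Cfsg.IsPBlock M B) (g : G) (hg : Cfsg.IsDefectClass M B g) (D : Sylow p (Subgroup.centralizer ({g} : Set G))) (h : G) : (Cfsg.MemLocalRing M (Cfsg.blockCoeff B h) → ¬ Cfsg.MemLocalIdeal M (Cfsg.blockCoeff B h) → ∃ (x : G) (Q : Sylow p (Subgroup.centralizer ({h} : Set G))), (Q : Subgroup (Subgroup.centralizer ({h} : Set G))).map (Subgroup.centralizer ({h} : Set G)).subtype ≤ ((D : Subgroup (Subgroup.centralizer ({g} : Set G))).map (Subgroup.centralizer ({g} : Set G)).subtype).map (MulAut.conj x).toMonoidHom) ∧ ((∃ χ ∈ B, ¬ Cfsg.MemLocalIdeal M (Cfsg.centralChar (χ : G → ℂ) h)) → ∃ (x : G) (Q : Sylow p (Subgroup.centralizer ({h} : Set G))), ((D : Subgroup (Subgroup.centralizer ({g} : Set G))).map (Subgroup.centralizer ({g} : Set G)).subtype).map (MulAut.conj x).toMonoidHom ≤ (Q : Subgroup (Subgroup.centralizer ({h} : Set G))).map (Subgroup.centralizer ({h} : Set G)).subtype) := by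
  classical
  haveI := hM.2.1
  obtain ⟨χ₀, hχ₀⟩ := isPBlock_nonempty hB
  have hDdef : IsDefectGroup p M B ((D : Subgroup (Subgroup.centralizer ({g} : Set G))).map
      (Subgroup.centralizer ({g} : Set G)).subtype) := ⟨g, hg, D, rfl⟩
  constructor
  · intro h1 h2
    have he : redC M (blockCoeff B h) ≠ 0 := fun h0 => h2 ((redC_eq_zero_iff h1).1 h0)
    obtain ⟨Q⟩ := (inferInstance : Nonempty (Sylow p (Subgroup.centralizer ({h} : Set G))))
    obtain ⟨x, hx⟩ := conjLE_defect_of_support hM hB hDdef he
      (P := (Q : Subgroup (Subgroup.centralizer ({h} : Set G))).map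
        (Subgroup.centralizer ({h} : Set G)).subtype) (Q.2.map _)
      (le_centralizer_singleton_iff.1 (Subgroup.map_subtype_le _))
    refine ⟨x⁻¹, Q, ?_⟩
    have h3 := Subgroup.map_mono (f := (MulAut.conj x⁻¹).toMonoidHom) hx
    rwa [map_conj_map_conj, inv_mul_cancel, map_conj_one] at h3
  · rintro ⟨χ, hχ, hne⟩
    have hc : redC M (centralChar (χ : G → ℂ) h) ≠ 0 :=
      fun h0 => hne ((redC_eq_zero_iff (centralChar_mem_locRing χ h)).1 h0)
    obtain ⟨x, hx, hcx⟩ := exists_conj_centralizes_defect hM hB hχ hDdef hc
    obtain ⟨y, hy⟩ := conj_mem_of_isConj hcx hx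
    have hle := le_centralizer_singleton_iff.2 hy
    obtain ⟨Q, hQ⟩ := (((D.2.map (Subgroup.centralizer ({g} : Set G)).subtype).map
      (MulAut.conj y).toMonoidHom).comap_subtype
        (K := Subgroup.centralizer ({h} : Set G))).exists_le_sylow
    refine ⟨y, Q, fun v hv => ?_⟩
    exact ⟨⟨v, hle hv⟩, hQ hv, rfl⟩

end Cfsg.Agent.S0911
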