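import Cfsg.Statements.S0915
import Cfsg.Agent.Lib.Block.Defect
import Cfsg.Agent.Lib.Block.PParts
import Cfsg.Agent.Lib.Fusion.Normal
import Cfsg.Agent.Lib.LocalFusion.PSolvable
-- import your own Cfsg.Agent.* helpers here

set_option autoImplicit false
open Cfsg

open Cfsg Cfsg.Agent.Lib.Block
open Cfsg.Agent.Lib

namespace Cfsg.Agent.S0915

/-- Let G be a finite p-solvable group with trivial largest normal subgroup of order prime to p. Then any two irreducible characters of G lie in the same block relative to every maximal ideal M of the algebraic integers containing p: G has a single p-block. -/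
theorem result {G : Type*} [Group G] [Finite G] (p : ℕ) [Fact p.Prime] (M : Ideal Cfsg.AlgInt) (hM : Cfsg.IsPModular p M) (hsolv : Cfsg.IsPSolvable p G) (hcore : Cfsg.pPrimeCore p G = ⊥) (χ ψ : Cfsg.IrrCharacter G) : Cfsg.SameBlock M (χ : G → ℂ) (ψ : G → ℂ) := by
  classical
  haveI := hM.2.1
  haveI : Fact p.Prime := ⟨hM.1⟩
  haveI := Fintype.ofFinite G
  have hB := isPBlock_blockOf (M := M) χ
  have hC := LocalFusion.centralizer_pCore_le_of_isPSolvable hsolv hcore
  haveI : (pCore p G).Normal := Fusion.pCore_normal
  have key : ∀ φ : IrrCharacter G, ∀ g : G, g ≠ 1 →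
      redC M ((eIdem (blockOf M (χ : G → ℂ))).coeff g) * redC M (centralChar (φ : G → ℂ) g) = 0 := by
    intro φ g hg
    by_contra hne
    have hreg := regular_of_redC_blockCoeff_ne_zero hM hB (by
      rw [← coeff_eIdem]; exact left_ne_zero_of_mul hne)
    have hgC := mem_centralizer_of_lambda hM Fusion.isPGroup_pCore φ (right_ne_zero_of_mul hne)
    exact hg (eq_one_of_isPElem_of_regular (isPElem_of_mem Fusion.isPGroup_pCore (hC hgC)) hreg)
  have h : ∀ φ : IrrCharacter G, redC M (omega (φ : G → ℂ) (eIdem (blockOf M (χ : G → ℂ)))) =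
      redC M ((eIdem (blockOf M (χ : G → ℂ))).coeff 1) := by
    intro φ
    rw [redC_omega_eq_sum φ (isClassCoeff_eIdem _) (intR_eIdem hB),
      Finset.sum_eq_single (ConjClasses.mk (1 : G))]
    · have h1 : (ConjClasses.mk (1 : G)).out = 1 := by
        have h2 : ConjClasses.mk ((ConjClasses.mk (1 : G)).out) = ConjClasses.mk (1 : G) :=
          Quotient.out_eq _
        exact isConj_one_right.1 (ConjClasses.mk_eq_mk_iff_isConj.1 h2).symm
      have hc1 : Subgroup.centralizer ({(1 : G)} : Set G) = ⊤ := by
        ext u; simp [Subgroup.mem_centralizer_singleton_iff]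
      rw [h1, show centralChar (φ : G → ℂ) 1 = 1 by
        rw [centralChar, hc1, Subgroup.index_top, Nat.cast_one, one_mul, div_self (deg_ne_zero φ)],
        redC_one, mul_one]
    · intro C _ hC'
      refine key φ _ fun h1 => hC' ?_
      rw [← show ConjClasses.mk C.out = C from Quotient.out_eq C, h1]
    · exact fun hn => absurd (Finset.mem_univ _) hn
  have hh := (h χ).trans (h ψ).symm
  rw [omega_eIdem, omega_eIdem, if_pos (mem_blockOf_self χ), redC_one] at hh
  by_contra hn
  rw [if_neg (show ψ ∉ blockOf M (χ : G → ℂ) from hn), redC_zero] at hh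
  exact one_ne_zero hh

end Cfsg.Agent.S0915
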