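import Cfsg.Statements.S0920
import Cfsg.Agent.Lib.Block.FirstMain
-- import your own Cfsg.Agent.* helpers here

set_option autoImplicit false
open Cfsg

open Cfsg Cfsg.Agent.Lib.Block
open Cfsg.Agent.Lib

namespace Cfsg.Agent.S0920

/-- Brauer's First Main Theorem. Let D be a p-subgroup of the finite group G with normalizer N, and fix a maximal ideal M of the algebraic integers containing p. Then (i) every block b of N having D as a defect group induces some block B of G having D as a defect group; (ii) every block of G with defect group D is induced by exactly one block of N with defect group D. -/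
theorem result {G : Type*} [Group G] [Finite G] (p : ℕ) [Fact p.Prime] (M : Ideal Cfsg.AlgInt) (hM : Cfsg.IsPModular p M) (D : Subgroup G) (hD : IsPGroup p D) : (∀ b : Set (Cfsg.IrrCharacter (Subgroup.normalizer (D : Set G))), Cfsg.IsPBlock M b → Cfsg.IsDefectGroup p M b (D.subgroupOf (Subgroup.normalizer (D : Set G))) → ∃ B : Set (Cfsg.IrrCharacter G), Cfsg.IsPBlock M B ∧ Cfsg.IsDefectGroup p M B D ∧ Cfsg.IsInducedBlock M (Subgroup.normalizer (D : Set G)) b B) ∧ (∀ B : Set (Cfsg.IrrCharacter G), Cfsg.IsPBlock M B → Cfsg.IsDefectGroup p M B D → ∃! b : Set (Cfsg.IrrCharacter (Subgroup.normalizer (D : Set G))), Cfsg.IsPBlock M b ∧ Cfsg.IsDefectGroup p M b (D.subgroupOf (Subgroup.normalizer (D : Set G))) ∧ Cfsg.IsInducedBlock M (Subgroup.normalizer (D : Set G)) b B) := by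
  haveI := hM.2.1
  have hDN : D ≤ Subgroup.normalizer (D : Set G) := Subgroup.le_normalizer
  have hCN : Subgroup.centralizer (D : Set G) ≤ Subgroup.normalizer (D : Set G) :=
    Subgroup.centralizer_le_normalizer _
  refine ⟨fun b hb hdef => ?_, fun B hB hdef => ?_⟩
  · obtain ⟨B, hind⟩ := inducedBlockDefined_of_brauer hM hD hDN hCN le_rfl hb
    exact ⟨B, hind.2.1, isDefectGroup_of_induced_normalizer hM hD hind hdef, hind⟩
  · obtain ⟨b, hind⟩ := exists_inducing_block hM hD hDN hCN le_rfl hB hdef le_rfl
    refine ⟨b, ⟨hind.1, isDefectGroup_normalizer_of_induced hM hind hdef, hind⟩, ?_⟩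
    rintro b' ⟨-, hdef', hind'⟩
    exact eq_of_induced_normalizer hM hD hind' hind hdef'

end Cfsg.Agent.S0920
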