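import Cfsg.Statements.S0923
import Cfsg.Agent.Lib.Block.Parts
-- import your own Cfsg.Agent.* helpers here

set_option autoImplicit false
open Cfsg

open Cfsg Cfsg.Agent.Lib.Block
open Cfsg.Agent.Lib

namespace Cfsg.Agent.S0923

/-- Brauer's Second Main Theorem, in terms of ordinary characters. Let x be a p-element of the finite group G with centralizer C, let χ lie in the block B of G and let b be a block of C that does not induce B (relative to a maximal ideal M of the algebraic integers containing p). Form the class function ϑ(c) = χ(x c) on C and its b-part (the sum over ψ ∈ b of the inner product of ϑ with ψ, times ψ). Then the b-part of ϑ vanishes at every p-regular element of C. (Equivalently, the generalized decomposition numbers of χ with respect to b are zero.) -/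
theorem result {G : Type*} [Group G] [Finite G] (p : ℕ) [Fact p.Prime] (M : Ideal Cfsg.AlgInt) (hM : Cfsg.IsPModular p M) (x : G) (hx : ∃ k : ℕ, orderOf x = p ^ k) (B : Set (Cfsg.IrrCharacter G)) (hB : Cfsg.IsPBlock M B) (χ : Cfsg.IrrCharacter G) (hχ : χ ∈ B) (b : Set (Cfsg.IrrCharacter (Subgroup.centralizer ({x} : Set G)))) (hb : Cfsg.IsPBlock M b) (hnot : ¬ Cfsg.IsInducedBlock M (Subgroup.centralizer ({x} : Set G)) b B) (y : Subgroup.centralizer ({x} : Set G)) (hy : ¬ p ∣ orderOf y) : Cfsg.blockPart b (fun c : Subgroup.centralizer ({x} : Set G) => (χ : G → ℂ) (x * (c : G))) y = 0 := by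
  haveI := hM.2.1
  classical
  haveI := Fintype.ofFinite (Subgroup.centralizer ({x} : Set G))
  obtain ⟨B', hB'⟩ := inducedBlockDefined_centralizer hM hx hb
  refine blockPart_translate_eq_zero hM hx hB' (fun h => hnot ?_) hy
  rwa [eq_of_mem_of_mem hB hB'.2.1 hχ h]

end Cfsg.Agent.S0923
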