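import Cfsg.Statements.S0924
import Cfsg.Agent.Lib.Block.Parts
-- import your own Cfsg.Agent.* helpers here

set_option autoImplicit false
open Cfsg

open Cfsg Cfsg.Agent.Lib.Block
open Cfsg.Agent.Lib

namespace Cfsg.Agent.S0924

/-- Let χ be an irreducible character of the finite group G and g ∈ G, and fix a maximal ideal M of the algebraic integers containing the prime p. If the p-part of g is contained in no defect group of the block of χ, then χ g = 0. -/
theorem result {G : Type*} [Group G] [Finite G] (p : ℕ) [Fact p.Prime] (M : Ideal Cfsg.AlgInt) (hM : Cfsg.IsPModular p M) (χ : Cfsg.IrrCharacter G) (g x : G) (hx : Cfsg.IsPPart p g x) (hD : ∀ D : Subgroup G, Cfsg.IsDefectGroup p M (Cfsg.blockOf M (χ : G → ℂ)) D → x ∉ D) : (χ : G → ℂ) g = 0 := by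
  haveI := hM.2.1
  classical
  haveI := Fintype.ofFinite G
  haveI := Fintype.ofFinite (Subgroup.centralizer ({x} : Set G))
  obtain ⟨y, hxy, hcom, hxp, hy⟩ := hx
  have hyC : y ∈ Subgroup.centralizer ({x} : Set G) :=
    Subgroup.mem_centralizer_singleton_iff.2 hcom.symm.eq
  have h := sum_blocks_blockPart (M := M)
    (isClassFunction_translate (Char.isClassFunction_of_isIrr χ.2) x) ⟨y, hyC⟩
  simp only [hxy] at h
  rw [← h]
  refine Finset.sum_eq_zero fun b hb => ?_
  obtain ⟨B', hB'⟩ := inducedBlockDefined_centralizer hM hxp (mem_blocks.1 hb)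
  refine blockPart_translate_eq_zero hM hxp hB' (fun hmem => ?_)
    (y := ⟨y, hyC⟩) (by rwa [Subgroup.orderOf_mk])
  obtain ⟨Q, hQ⟩ := exists_isDefectGroup hM hB'.1
  obtain ⟨E, hE, hQE⟩ := exists_defect_ge_of_induced hM hB' hQ
  rw [eq_of_mem_of_mem hB'.2.1 (isPBlock_blockOf χ) hmem (mem_blockOf_self χ)] at hE
  refine hD E hE (hQE ⟨⟨x, self_mem_centralizer x⟩, ?_, rfl⟩)
  haveI : (Subgroup.zpowers (⟨x, self_mem_centralizer x⟩ :
      Subgroup.centralizer ({x} : Set G))).Normal := by
    refine ⟨fun n hn c => ?_⟩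
    obtain ⟨m, rfl⟩ := hn
    refine ⟨m, ?_⟩
    have hc : Commute c (⟨x, self_mem_centralizer x⟩ : Subgroup.centralizer ({x} : Set G)) :=
      Subtype.ext (Subgroup.mem_centralizer_singleton_iff.1 c.2)
    simp only
    rw [(hc.zpow_right m).eq, mul_inv_cancel_right]
  have hp' : IsPElem p (⟨x, self_mem_centralizer x⟩ : Subgroup.centralizer ({x} : Set G)) := by
    obtain ⟨k, hk⟩ := hxp
    exact ⟨k, by rwa [Subgroup.orderOf_mk]⟩
  exact le_defect_of_normal hM hB'.1 (IsPElem.isPGroup_zpowers hp') hQ (Subgroup.mem_zpowers _)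

end Cfsg.Agent.S0924
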