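import Cfsg.Statements.S0925
import Cfsg.Agent.Lib.Block.Parts
-- import your own Cfsg.Agent.* helpers here

set_option autoImplicit false
open Cfsg

open Cfsg Cfsg.Agent.Lib.Block
open Cfsg.Agent.Lib

namespace Cfsg.Agent.S0925

/-- (i) Let ϑ be a class function on the finite group G and x a p-element, and suppose ϑ vanishes at every element whose p-part is conjugate to x. Then for every block B (relative to a maximal ideal M of the algebraic integers containing p) the B-part of ϑ — the sum over χ ∈ B of the inner product of ϑ with χ, times χ — also vanishes at every such element. (ii) Block orthogonality, its corollary: if the p-parts of g and h are not conjugate, then the sum over χ ∈ B of χ g * χ h⁻¹ is zero for every block B. -/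
theorem result {G : Type*} [Group G] [Finite G] (p : ℕ) [Fact p.Prime] (M : Ideal Cfsg.AlgInt) (hM : Cfsg.IsPModular p M) : (∀ (ϑ : G → ℂ), Cfsg.IsClassFunction G ϑ → ∀ x : G, (∃ k : ℕ, orderOf x = p ^ k) → (∀ u z : G, Cfsg.IsPPart p u z → IsConj x z → ϑ u = 0) → ∀ B : Set (Cfsg.IrrCharacter G), Cfsg.IsPBlock M B → ∀ u z : G, Cfsg.IsPPart p u z → IsConj x z → Cfsg.blockPart B ϑ u = 0) ∧ (∀ g h x y : G, Cfsg.IsPPart p g x → Cfsg.IsPPart p h y → ¬ IsConj x y → ∀ B : Set (Cfsg.IrrCharacter G), Cfsg.IsPBlock M B → ∑ᶠ χ ∈ B, (χ : G → ℂ) g * (χ : G → ℂ) h⁻¹ = 0) := by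
  haveI := hM.2.1
  classical
  haveI := Fintype.ofFinite G
  have orth : ∀ g h x y : G, IsPPart p g x → IsPPart p h y → ¬ IsConj x y →
      ∀ B : Set (IrrCharacter G), IsPBlock M B →
      ∑ χ : IrrCharacter G, (if χ ∈ B then (χ : G → ℂ) g * (starRingEnd ℂ) ((χ : G → ℂ) h) else 0) =
        0 := by
    intro g h x y hgx hhy hxy B hB
    obtain ⟨s, hgs, hcom, hxp, hs⟩ := hgx
    set C := Subgroup.centralizer ({x} : Set G) with hC
    haveI := Fintype.ofFinite C
    have hsC : s ∈ C := Subgroup.mem_centralizer_singleton_iff.2 hcom.symm.eq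
    let s' : C := ⟨s, hsC⟩
    have hs' : ¬ p ∣ orderOf s' := by rwa [Subgroup.orderOf_mk]
    let F : C → ℂ := fun w =>
      ∑ χ : IrrCharacter G, (χ : G → ℂ) (x * (w : G)) * (starRingEnd ℂ) ((χ : G → ℂ) h)
    have hterm : ∀ χ : IrrCharacter G,
        (if χ ∈ B then (χ : G → ℂ) g * (starRingEnd ℂ) ((χ : G → ℂ) h) else 0) =
        ∑ b ∈ (blocks M C).filter (fun b => IsInducedBlock M C b B), ∑ k : C,
          blockCoeff b k * ((χ : G → ℂ) (x * ((k * s' : C) : G)) *
            (starRingEnd ℂ) ((χ : G → ℂ) h)) := by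
      intro χ
      have key := sum_induced_blockPart hM hxp B hB χ (y := s') hs'
      have : (if χ ∈ B then (χ : G → ℂ) g * (starRingEnd ℂ) ((χ : G → ℂ) h) else 0) =
          (if χ ∈ B then (χ : G → ℂ) (x * (s' : G)) else 0) *
            (starRingEnd ℂ) ((χ : G → ℂ) h) := by
        split_ifs
        · rw [show x * (s' : G) = g from hgs]
        · rw [zero_mul]
      rw [this, ← key, Finset.sum_mul]
      refine Finset.sum_congr rfl fun b _ => ?_
      rw [blockPart_eq_sum b (isClassFunction_translate (Char.isClassFunction_of_isIrr χ.2) x),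
        Finset.sum_mul]
      exact Finset.sum_congr rfl fun k _ => by ring
    rw [Finset.sum_congr rfl fun χ _ => hterm χ, Finset.sum_comm]
    refine Finset.sum_eq_zero fun b hb => ?_
    rw [Finset.sum_comm]
    simp only [← Finset.mul_sum]
    show ∑ k : C, blockCoeff b k * F (k * s') = 0
    have hF : IsClassFunction C F := by
      intro w c
      simp only [F]
      refine Finset.sum_congr rfl fun χ _ => ?_
      rw [show (χ : G → ℂ) (x * ((c * w * c⁻¹ : C) : G)) = (χ : G → ℂ) (x * (w : G)) from
        isClassFunction_translate (Char.isClassFunction_of_isIrr χ.2) x w c]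
    have hFreg : ∀ w : C, ¬ p ∣ orderOf w → F w = 0 := by
      intro w hw
      simp only [F]
      rw [Char.sum_irr_mul_conj, if_neg]
      intro hconj
      have hxw : IsPPart p (x * (w : G)) x :=
        isPPart_mul hxp (by rwa [Subgroup.orderOf_coe])
          (Subgroup.mem_centralizer_singleton_iff.1 w.2).symm
      obtain ⟨c, hc⟩ := isConj_iff.1 hconj
      have h2 := IsPPart.conj hxw c
      rw [hc] at h2
      exact hxy (isConj_iff.2 ⟨c, (IsPPart.unique h2 hhy)⟩)
    have h0 : pair F (eIdem b * MonoidAlgebra.single s' (1 : ℂ)) = 0 := by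
      set a := eIdem b * MonoidAlgebra.single s' (1 : ℂ) with ha
      have e : (Fintype.card C : ℂ) * pair F a = ∑ w : C, F w * conjSum a w := by
        simp only [conjSum, Finset.mul_sum]
        rw [Finset.sum_comm, pair_eq_sum, Finset.mul_sum]
        have : ∀ c : C, ∑ w : C, F w * a.coeff (c * w * c⁻¹) = ∑ w : C, a.coeff w * F w := by
          intro c
          refine Fintype.sum_equiv (MulAut.conj c).toEquiv _ _ fun w => ?_
          simp [hF w c, mul_comm]
        simp only [this]
        simp [Finset.sum_const, Finset.mul_sum]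
      rw [Finset.sum_eq_zero fun w _ => ?_] at e
      · exact (mul_eq_zero.1 e).resolve_left (Nat.cast_ne_zero.2 Fintype.card_ne_zero)
      · by_cases hw : p ∣ orderOf w
        · have hbb := (mem_blocks.1 (Finset.mem_filter.1 hb).1)
          rw [ha, conjSum_mul_single_eq_zero hM (isIdempotentElem_eIdem b) (intR_eIdem hbb) hs'
            (isClassCoeff_eIdem b s') hw, mul_zero]
        · rw [hFreg w hw, zero_mul]
    rw [sum_blockCoeff_mul_eq_pair]
    exact h0
  refine ⟨fun ϑ _ x hx hvan B hB u z hu hz => ?_, fun g h x y hg hh hxy B hB => ?_⟩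
  · rw [blockPart_apply]
    simp only [classInner, Finset.mul_sum, Finset.sum_mul]
    have e : ∀ χ : IrrCharacter G, (if χ ∈ B then ∑ w : G, (Nat.card G : ℂ)⁻¹ *
        (ϑ w * (starRingEnd ℂ) ((χ : G → ℂ) w)) * (χ : G → ℂ) u else 0) =
        ∑ w : G, (Nat.card G : ℂ)⁻¹ * ϑ w *
          (if χ ∈ B then (χ : G → ℂ) u * (starRingEnd ℂ) ((χ : G → ℂ) w) else 0) := fun χ => by
      split_ifs
      · exact Finset.sum_congr rfl fun w _ => by ring
      · simp
    rw [Finset.sum_congr rfl fun χ _ => e χ, Finset.sum_comm]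
    refine Finset.sum_eq_zero fun w _ => ?_
    rw [← Finset.mul_sum]
    obtain ⟨t, ht⟩ := exists_isPPart (p := p) w
    by_cases hxt : IsConj x t
    · rw [hvan w t ht hxt, mul_zero, zero_mul]
    · rw [orth u w z t hu ht (fun h => hxt (hz.trans h)) B hB, mul_zero]
  · rw [finsum_mem_eq_sum_ite]
    refine Eq.trans (Finset.sum_congr rfl fun χ _ => ?_) (orth g h x y hg hh hxy B hB)
    rw [Char.char_inv (Char.isCharacter_of_isIrr χ.2)]

end Cfsg.Agent.S0925
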