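import Cfsg.Statements.S0926
import Cfsg.Agent.Lib.Block.Parts
import Cfsg.Agent.S0924
-- import your own Cfsg.Agent.* helpers here

set_option autoImplicit false
open Cfsg

open Cfsg Cfsg.Agent.Lib.Block
open Cfsg.Agent.Lib

namespace Cfsg.Agent.S0926

/-- Let B be a block of the finite group G with defect group D (relative to a maximal ideal M of the algebraic integers containing p), let χ ∈ B have height zero, and let x be a p-element. Then some conjugate of x lies in D if and only if χ does not vanish on the whole p-section of x (the elements whose p-part is conjugate to x). -/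
theorem result {G : Type*} [Group G] [Finite G] (p : ℕ) [Fact p.Prime] (M : Ideal Cfsg.AlgInt) (hM : Cfsg.IsPModular p M) (B : Set (Cfsg.IrrCharacter G)) (hB : Cfsg.IsPBlock M B) (D : Subgroup G) (hD : Cfsg.IsDefectGroup p M B D) (χ : Cfsg.IrrCharacter G) (hχ : χ ∈ B) (h0 : Cfsg.blockHeight p B (χ : G → ℂ) = 0) (x : G) (hx : ∃ k : ℕ, orderOf x = p ^ k) : (∃ g : G, g * x * g⁻¹ ∈ D) ↔ ∃ u : G, (∃ z : G, Cfsg.IsPPart p u z ∧ IsConj x z) ∧ (χ : G → ℂ) u ≠ 0 := by
  haveI := hM.2.1
  classical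
  constructor
  · rintro ⟨g, hg⟩
    obtain ⟨-, -, y, hy, hyD⟩ := IsDefectGroup.props hM hB hD
    obtain ⟨-, hreg, hkey⟩ := defectClass_facts hM hB hy
    have hxp : IsPElem p (g * x * g⁻¹) := IsPElem.conj hx g
    have hcom : Commute (g * x * g⁻¹) y := Subgroup.mem_centralizer_iff.1 hyD _ hg
    refine ⟨g * x * g⁻¹ * y, ⟨g * x * g⁻¹, isPPart_mul hxp hreg hcom, isConj_iff.2 ⟨g, rfl⟩⟩,
      fun h0' => (hkey χ hχ h0).2 ?_⟩
    rw [← redC_char_pPart hM (Char.isCharacter_of_isIrr χ.2) hcom hxp hreg, h0', redC_zero]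
  · rintro ⟨u, ⟨z, hz, hxz⟩, hne⟩
    by_contra hcon
    refine hne ?_
    have hblock : B = blockOf M (χ : G → ℂ) := blockOf_eq_of_mem hB hχ
    obtain ⟨c, hc⟩ := isConj_iff.1 hxz
    exact (show (χ : G → ℂ) u = 0 from by
      by_contra hne'
      exact hne' (S0924.result p M hM χ u z hz (fun E hE hzE => hcon (by
        rw [← hblock] at hE
        obtain ⟨d, hd⟩ := exists_conj_defect hM hB hE hD
        refine ⟨d * c, ?_⟩
        rw [← hd]
        exact ⟨z, hzE, by simp [← hc, mul_assoc]⟩))))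

end Cfsg.Agent.S0926
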