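import Cfsg.Statements.S0927
import Cfsg.Agent.Lib.Block.Apply
-- import your own Cfsg.Agent.* helpers here

set_option autoImplicit false
open Cfsg Cfsg.Agent.Lib.Block
open Cfsg.Agent.Lib

namespace Cfsg.Agent.S0927

/-- Let B be a block of the finite group G relative to a maximal ideal M of the algebraic integers containing p, let y represent a defect class of B and let P be a Sylow p-subgroup of the centralizer of y. (a) If x ∈ P and χ ∈ B has height zero, then χ (x * y) is not in the local ideal at M. (b) If x lies in the centre of P, then for every χ ∈ B the central character of χ at x * y is not in the local ideal at M. -/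
theorem result {G : Type*} [Group G] [Finite G] (p : ℕ) [Fact p.Prime] (M : Ideal Cfsg.AlgInt) (hM : Cfsg.IsPModular p M) (B : Set (Cfsg.IrrCharacter G)) (hB : Cfsg.IsPBlock M B) (y : G) (hy : Cfsg.IsDefectClass M B y) (P : Sylow p (Subgroup.centralizer ({y} : Set G))) (x : Subgroup.centralizer ({y} : Set G)) (hx : x ∈ (P : Subgroup (Subgroup.centralizer ({y} : Set G)))) : (∀ χ ∈ B, Cfsg.blockHeight p B (χ : G → ℂ) = 0 → ¬ Cfsg.MemLocalIdeal M ((χ : G → ℂ) ((x : G) * y))) ∧ ((∀ w ∈ (P : Subgroup (Subgroup.centralizer ({y} : Set G))), x * w = w * x) → ∀ χ ∈ B, ¬ Cfsg.MemLocalIdeal M (Cfsg.centralChar (χ : G → ℂ) ((x : G) * y))) := by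
  classical
  haveI := hM.2.1
  obtain ⟨hd, hreg, hkey⟩ := defectClass_facts hM hB hy
  have hxp : IsPElem p (x : G) :=
    isPElem_of_mem (P.2.map (Subgroup.centralizer ({y} : Set G)).subtype) ⟨x, hx, rfl⟩
  have hcom : Commute (x : G) y := Subgroup.mem_centralizer_singleton_iff.1 x.2
  have hval : ∀ χ ∈ B, blockHeight p B (χ : G → ℂ) = 0 → redC M ((χ : G → ℂ) ((x : G) * y)) ≠ 0 := by
    intro χ hχ h0
    rw [redC_char_pPart hM (Char.isCharacter_of_isIrr χ.2) hcom hxp hreg]
    exact (hkey χ hχ h0).2
  refine ⟨fun χ hχ h0 h => hval χ hχ h0 ((redC_eq_zero_iff (irr_mem_locRing χ _)).2 h), ?_⟩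
  intro hcen χ hχ h
  obtain ⟨χ₀, hχ₀, h00⟩ := exists_height_zero hB p
  have h1 := (redC_eq_zero_iff (centralChar_mem_locRing χ _)).2 h
  rw [← sameBlock_iff.1 (sameBlock_of_mem hB hχ₀ hχ) ((x : G) * y)] at h1
  refine redC_centralChar_ne_zero_of_eq hM χ₀ (hval χ₀ hχ₀ h00) ?_ h1
  rw [(hkey χ₀ hχ₀ h00).1]
  have hCle : Subgroup.centralizer ({(x : G) * y} : Set G) ≤ Subgroup.centralizer ({y} : Set G) := by
    intro c hc
    rw [Subgroup.mem_centralizer_singleton_iff] at hc ⊢
    obtain ⟨n, hn⟩ := (exists_pow_of_parts rfl hcom hxp hreg).2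
    have h2 : Commute c (((x : G) * y) ^ n) := Commute.zpow_right hc n
    rwa [show ((x : G) * y) ^ n = y from hn] at h2
  have hPle : (P : Subgroup (Subgroup.centralizer ({y} : Set G))).map
      (Subgroup.centralizer ({y} : Set G)).subtype ≤
      Subgroup.centralizer ({(x : G) * y} : Set G) := by
    rintro _ ⟨w, hw, rfl⟩
    rw [Subgroup.mem_centralizer_singleton_iff]
    have hwx : Commute (w : G) (x : G) := (congrArg Subtype.val (hcen w hw)).symm
    exact (hwx.mul_right (Subgroup.mem_centralizer_singleton_iff.1 w.2)).eq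
  have f1 := factorization_card_eq ((x : G) * y) p
  have f2 := factorization_card_eq y p
  have l1 : (Nat.card (Subgroup.centralizer ({(x : G) * y} : Set G))).factorization p ≤
      (Nat.card (Subgroup.centralizer ({y} : Set G))).factorization p :=
    (Nat.factorization_le_iff_dvd Nat.card_pos.ne' Nat.card_pos.ne').2 (Subgroup.card_dvd_of_le hCle) p
  have l2 : (Nat.card (Subgroup.centralizer ({y} : Set G))).factorization p ≤
      (Nat.card (Subgroup.centralizer ({(x : G) * y} : Set G))).factorization p := by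
    have := Subgroup.card_dvd_of_le hPle
    rw [card_sylow_centralizer hM] at this
    exact (hM.1.pow_dvd_iff_le_factorization Nat.card_pos.ne').1 this
  omega

end Cfsg.Agent.S0927
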