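import Cfsg.Statements.S0928
import Cfsg.Agent.Lib.Block.Brauer
import Cfsg.Agent.Lib.Block.Exist
-- import your own Cfsg.Agent.* helpers here

set_option autoImplicit false
open Cfsg

open Cfsg Cfsg.Agent.Lib.Block
open Cfsg.Agent.Lib

namespace Cfsg.Agent.S0928

/-- Let χ be an irreducible character of the finite group G and p a prime. If χ g = 0 for every element g of order p, then the exponent of p in the degree χ(1) equals the exponent of p in the order of G (χ has p-defect zero). -/
theorem result {G : Type*} [Group G] [Finite G] (p : ℕ) [Fact p.Prime] (χ : Cfsg.IrrCharacter G) (hvan : ∀ g : G, orderOf g = p → (χ : G → ℂ) g = 0) : (Cfsg.charDegree (χ : G → ℂ)).factorization p = (Nat.card G).factorization p := by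
  classical
  have hp : p.Prime := Fact.out
  obtain ⟨M, hM⟩ := exists_isPModular hp
  haveI := hM.2.1
  haveI := resField_charP (M := M) hM
  haveI := Fintype.ofFinite G
  set B := blockOf M (χ : G → ℂ) with hBdef
  have hB : IsPBlock M B := isPBlock_blockOf χ
  have hχ : χ ∈ B := mem_blockOf_self χ
  by_cases hd0 : blockDefect p B = 0
  · obtain ⟨χ₀, hχ₀, h00⟩ := exists_height_zero hB p
    have h1 := blockDefect_eq_of_min hχ₀ h00
    have h2 := le_of_height_zero h00 hχ
    have h3 := factorization_charDegree_le χ p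
    have h4 := factorization_charDegree_le χ₀ p
    omega
  exfalso
  obtain ⟨D, hD⟩ := exists_isDefectGroup hM hB
  obtain ⟨hDp, hDcard, -⟩ := IsDefectGroup.props hM hB hD
  haveI : Nontrivial D := Finite.one_lt_card_iff_nontrivial.1 (by
    rw [hDcard]; exact Nat.one_lt_pow hd0 hp.one_lt)
  haveI := hDp.center_nontrivial
  obtain ⟨z, hz⟩ := exists_prime_orderOf_dvd_card' (G := Subgroup.center D) p (by
    obtain ⟨k, hk⟩ := IsPGroup.iff_card.1 (hDp.to_subgroup (Subgroup.center D))
    rcases Nat.eq_zero_or_pos k with rfl | hk0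
    · rw [pow_zero] at hk
      exact absurd (Finite.one_lt_card_iff_nontrivial.2 ‹Nontrivial (Subgroup.center D)›) (by omega)
    · exact hk ▸ dvd_pow_self p hk0.ne')
  set C := Subgroup.centralizer (D : Set G) with hC
  haveI := Fintype.ofFinite C
  set z₀ : G := ((z : D) : G) with hz₀
  have hz₀o : orderOf z₀ = p := by
    rw [hz₀, Subgroup.orderOf_coe, Subgroup.orderOf_coe, hz]
  have hz₀C : z₀ ∈ C := Subgroup.mem_centralizer_iff.2 fun d hd =>
    congrArg Subtype.val (Subgroup.mem_center_iff.1 z.2 ⟨d, hd⟩)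
  have hzc : ∀ x ∈ C, Commute x z₀ := fun x hx =>
    (Subgroup.mem_centralizer_iff.1 hx z₀ (z : D).2).symm
  set S : MonoidAlgebra ℂ G := ofFun fun x => if x ^ p = 1 then (1 : ℂ) else 0 with hS
  have hSc : IsClassCoeff S := fun u x => by
    simp only [hS, coeff_ofFun, conj_pow]
    exact if_congr (by rw [mul_inv_eq_one, mul_eq_left]) rfl rfl
  have hSR : IntR M S := fun x => by
    simp only [hS, coeff_ofFun]
    split_ifs
    exacts [one_mem _, zero_mem _]
  have hω : omega (χ : G → ℂ) S = 1 := by
    rw [omega_eq_sum, Finset.sum_eq_single (1 : G)]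
    · simp only [hS, coeff_ofFun, one_pow, if_true, one_mul]
      exact div_self (deg_ne_zero χ)
    · intro x _ hx
      simp only [hS, coeff_ofFun]
      split_ifs with h
      · rw [hvan x (orderOf_eq_prime h hx), mul_zero]
      · rw [zero_mul]
    · simp
  let z₁ : C := ⟨z₀, hz₀C⟩
  haveI : (Subgroup.zpowers z₁).Normal := by
    refine ⟨fun n hn c => ?_⟩
    obtain ⟨m, rfl⟩ := hn
    have hc : Commute c z₁ := Subtype.ext (hzc c c.2)
    exact ⟨m, by simp only; rw [(hc.zpow_right m).eq, mul_inv_cancel_right]⟩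
  have hQ : IsPGroup p (Subgroup.zpowers z₁) :=
    IsPGroup.of_card (n := 1) (by rw [Nat.card_zpowers, pow_one, Subgroup.orderOf_mk, hz₀o])
  haveI := Fintype.ofFinite (Subgroup.zpowers z₁)
  set T := toSub C (restr (C : Set G) (toF M S)) with hT
  obtain ⟨n, hn⟩ : IsNilpotent T := by
    refine isNilpotent_of_coset_sums (p := p) hQ fun x => ?_
    have e : ∀ q : Subgroup.zpowers z₁, T.coeff (x * (q : C)) = T.coeff x := by
      intro q
      obtain ⟨m, hm⟩ := Subgroup.mem_zpowers_iff.1 q.2
      rw [hT, coeff_toSub, coeff_toSub, coeff_restr_of_mem (SetLike.mem_coe.2 (x * (q : C)).2),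
        coeff_restr_of_mem (SetLike.mem_coe.2 x.2), coeff_toF, coeff_toF]
      congr 1
      simp only [hS, coeff_ofFun]
      refine if_congr ?_ rfl rfl
      have hq : ((q : C) : G) = z₀ ^ m := by rw [← hm]; simp [z₁]
      rw [Subgroup.coe_mul, hq, ((hzc x x.2).zpow_right m).mul_pow, ← zpow_natCast (z₀ ^ m),
        ← zpow_mul, mul_comm m, zpow_mul, zpow_natCast, ← hz₀o, pow_orderOf_eq_one, one_zpow, mul_one]
    rw [Finset.sum_congr rfl fun q _ => e q, Finset.sum_const, Finset.card_univ,
      ← Nat.card_eq_fintype_card, Nat.card_zpowers, Subgroup.orderOf_mk, hz₀o, nsmul_eq_mul,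
      CharP.cast_eq_zero, zero_mul]
  have hpow : ∀ j : ℕ, toSub C (restr (C : Set G) (toF M (S ^ j))) = T ^ j := by
    intro j
    induction j with
    | zero => rw [pow_zero, pow_zero, toF_one, restr_one, toSub_one]
    | succ j ih =>
      rw [pow_succ, pow_succ, toF_mul (hSR.pow j) hSR,
        restr_centralizer_mul (p := p) hDp (fun u _ => isClassCoeff_toF (hSc.pow j) u)
          (fun u _ => isClassCoeff_toF hSc u),
        toSub_mul_of_supp _ _ fun x hx => coeff_restr_of_notMem fun h => hx h, ih]
  have hzero : ∀ x ∈ C, redC M ((S ^ n).coeff x) = 0 := by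
    intro x hx
    have := congrArg (fun t : MonoidAlgebra (ResField M) C => t.coeff ⟨x, hx⟩) (hpow n)
    simp only [hn, coeff_toSub, coeff_restr_of_mem (SetLike.mem_coe.2 hx), coeff_toF] at this
    simpa using this
  have h1 : redC M (omega (χ : G → ℂ) (S ^ n)) = 0 := by
    rw [redC_omega_eq_sum χ (hSc.pow n) (hSR.pow n)]
    refine Finset.sum_eq_zero fun K _ => ?_
    by_cases hl : redC M (centralChar (χ : G → ℂ) K.out) = 0
    · rw [hl, mul_zero]
    obtain ⟨x, hx, hconj⟩ := exists_conj_centralizes_defect hM hB hχ hD hl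
    rw [(hSc.pow n).conj hconj, hzero x hx, zero_mul]
  rw [omega_pow χ hSc, hω, one_pow, redC_one] at h1
  exact one_ne_zero h1

end Cfsg.Agent.S0928
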