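import Cfsg.Statements.S0931
import Cfsg.Agent.Lib.Block.NormalP
-- import your own Cfsg.Agent.* helpers here

set_option autoImplicit false
open Cfsg

open Cfsg Cfsg.Agent.Lib.Block
open Cfsg.Agent.Lib

namespace Cfsg.Agent.S0931

/-- Let H be a subgroup of the finite group G and fix a maximal ideal M of the algebraic integers containing the prime p. If the block b of H induces the block B of G, then b has defect 0 if and only if B has defect 0. -/
theorem result {G : Type*} [Group G] [Finite G] (p : ℕ) [Fact p.Prime] (M : Ideal Cfsg.AlgInt) (hM : Cfsg.IsPModular p M) (H : Subgroup G) (b : Set (Cfsg.IrrCharacter H)) (B : Set (Cfsg.IrrCharacter G)) (hind : Cfsg.IsInducedBlock M H b B) : Cfsg.blockDefect p b = 0 ↔ Cfsg.blockDefect p B = 0 := by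
  haveI := hM.2.1
  haveI : Fact p.Prime := ⟨hM.1⟩
  obtain ⟨hb, hB, -⟩ := id hind
  obtain ⟨D, hD⟩ := exists_isDefectGroup hM hb
  obtain ⟨E, hE, hDE⟩ := exists_defect_ge_of_induced hM hind hD
  obtain ⟨-, hDc, -⟩ := IsDefectGroup.props hM hb hD
  obtain ⟨hEp, hEc, -⟩ := IsDefectGroup.props hM hB hE
  constructor
  · intro h0
    rw [h0, pow_zero, Subgroup.card_eq_one] at hDc
    by_contra hne
    haveI : Nontrivial E := by
      rw [Subgroup.nontrivial_iff_ne_bot]
      intro hbot
      rw [Subgroup.card_eq_one.2 hbot] at hEc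
      exact (Nat.one_lt_pow hne hM.1.one_lt).ne hEc
    haveI := hEp.center_nontrivial
    obtain ⟨⟨x, hxZ⟩, hx1⟩ := exists_ne (1 : Subgroup.center E)
    obtain ⟨g, hg, -⟩ := exists_conj_center_of_induced hM hind hD hE (x := (x : G)) x.2
      fun w hw => (congrArg Subtype.val (Subgroup.mem_center_iff.1 hxZ ⟨w, hw⟩)).symm
    rw [hDc, Subgroup.map_bot, Subgroup.mem_bot, mul_inv_eq_one, mul_eq_left] at hg
    exact hx1 (Subtype.ext (Subtype.ext hg))
  · intro h0
    rw [h0, pow_zero] at hEc
    have h1 := Subgroup.card_le_of_le hDE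
    rw [hEc, ← Nat.card_congr (D.equivMapOfInjective _ (Subgroup.subtype_injective H)).toEquiv, hDc] at h1
    by_contra hne
    exact absurd h1 (not_le.2 (Nat.one_lt_pow hne hM.1.one_lt))

end Cfsg.Agent.S0931
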