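import Cfsg.Statements.S0933
import Cfsg.Agent.Lib.Block.Apply
-- import your own Cfsg.Agent.* helpers here

set_option autoImplicit false
open Cfsg Cfsg.Agent.Lib.Block
open Cfsg.Agent.Lib

namespace Cfsg.Agent.S0933

/-- Let H be a subgroup of the finite group G and ξ an irreducible character of H such that the induced function ξ^G is an irreducible character of G. Then, relative to any maximal ideal M of the algebraic integers containing the prime p, the block of ξ induces the block of ξ^G. -/
theorem result {G : Type*} [Group G] [Fintype G] (p : ℕ) [Fact p.Prime] (M : Ideal Cfsg.AlgInt) (hM : Cfsg.IsPModular p M) (H : Subgroup G) (ξ : Cfsg.IrrCharacter H) (hind : Cfsg.IsIrrCharacter G (Cfsg.indFun H (ξ : H → ℂ))) : Cfsg.IsInducedBlock M H (Cfsg.blockOf M (ξ : H → ℂ)) (Cfsg.blockOf M (Cfsg.indFun H (ξ : H → ℂ))) := by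
  haveI := hM.2.1
  set χ : IrrCharacter G := ⟨indFun H (ξ : H → ℂ), hind⟩ with hχdef
  refine isInducedBlock_iff.2 ⟨isPBlock_blockOf ξ, isPBlock_blockOf χ, fun ξ' hξ' χ' hχ' g => ?_⟩
  have h1 : redC M (inducedCentralChar H (ξ' : H → ℂ) g) =
      redC M (inducedCentralChar H (ξ : H → ℂ) g) := by
    rw [inducedCentralChar_eq, inducedCentralChar_eq]
    exact (redC_omega_eq_of_sameBlock hξ' (isClassCoeff_toSub (isClassCoeff_classSum g))
      (intR_toSub (intR_classSum g))).symm
  rw [h1, ← centralChar_indFun]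
  exact (sameBlock_iff (χ := χ) (ψ := χ')).1 hχ' g

end Cfsg.Agent.S0933
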