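import Cfsg.Statements.S0934
import Cfsg.Agent.Lib.Block.Apply
-- import your own Cfsg.Agent.* helpers here

set_option autoImplicit false
open Cfsg Cfsg.Agent.Lib.Block
open Cfsg.Agent.Lib

namespace Cfsg.Agent.S0934

/-- Let H be a subgroup of the finite group G and fix a maximal ideal M of the algebraic integers containing the prime p. If the block b of H induces the block B of G and ξ ∈ b, then there is χ ∈ B whose restriction to H has nonzero inner product with ξ. -/
theorem result {G : Type*} [Group G] [Fintype G] (p : ℕ) [Fact p.Prime] (M : Ideal Cfsg.AlgInt) (hM : Cfsg.IsPModular p M) (H : Subgroup G) [Fintype H] (b : Set (Cfsg.IrrCharacter H)) (B : Set (Cfsg.IrrCharacter G)) (hind : Cfsg.IsInducedBlock M H b B) (ξ : Cfsg.IrrCharacter H) (hξ : ξ ∈ b) : ∃ χ ∈ B, Cfsg.classInner (fun h : H => (χ : G → ℂ) h) (ξ : H → ℂ) ≠ 0 := by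
  classical
  haveI := hM.2.1
  by_contra hcon
  push Not at hcon
  obtain ⟨χ, hχ⟩ := isPBlock_nonempty hind.2.1
  have h1 := redC_omega_toSub_eq hind hξ hχ (isClassCoeff_eIdem B) (intR_eIdem hind.2.1)
  rw [← omega_indFun H _ (isClassCoeff_eIdem B), omega_eIdem, if_pos hχ, redC_one] at h1
  refine zero_ne_one (α := ResField M) ?_
  rw [← h1, omega]
  have h2 : pair (indFun H (ξ : H → ℂ)) (eIdem B) = 0 := by
    conv_lhs => rw [Char.eq_sum_classInner_smul (Char.isClassFunction_indFun H (ξ : H → ℂ))]
    rw [pair_eq_sum]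
    simp only [Finset.sum_apply, Pi.smul_apply, smul_eq_mul, Finset.mul_sum]
    rw [Finset.sum_comm]
    refine Finset.sum_eq_zero fun φ _ => ?_
    by_cases hφ : φ ∈ B
    · have h3 : classInner (indFun H (ξ : H → ℂ)) (φ : G → ℂ) = 0 := by
        rw [Char.classInner_indFun H _ (Char.isClassFunction_of_isIrr φ.2),
          Char.classInner_conj_symm, hcon φ hφ, map_zero]
      exact Finset.sum_eq_zero fun x _ => by rw [h3]; ring
    · have h3 := omega_eIdem B φ
      rw [if_neg hφ, omega, div_eq_zero_iff] at h3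
      have h4 := h3.resolve_right (deg_ne_zero φ)
      rw [pair_eq_sum] at h4
      calc _ = classInner (indFun H (ξ : H → ℂ)) (φ : G → ℂ) *
            ∑ x, (eIdem B).coeff x * (φ : G → ℂ) x := by
            rw [Finset.mul_sum]; exact Finset.sum_congr rfl fun x _ => by ring
        _ = 0 := by rw [h4, mul_zero]
  rw [h2, zero_div, redC_zero]

end Cfsg.Agent.S0934
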