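import Cfsg.Statements.S0935
import Cfsg.Agent.Lib.Block.HeightZero
import Cfsg.Agent.Lib.Block.Apply
-- import your own Cfsg.Agent.* helpers here

set_option autoImplicit false
open Cfsg

open Cfsg Cfsg.Agent.Lib.Block
open Cfsg.Agent.Lib

namespace Cfsg.Agent.S0935

/-- Let H be a subgroup of the finite group G and χ an irreducible character of G whose restriction to H is irreducible; fix a maximal ideal M of the algebraic integers containing the prime p and suppose χ and its restriction have height zero in their blocks B and b. If e is a block of H whose induced block is defined, then e induces B if and only if e = b. -/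
theorem result {G : Type*} [Group G] [Finite G] (p : ℕ) [Fact p.Prime] (M : Ideal Cfsg.AlgInt) (hM : Cfsg.IsPModular p M) (H : Subgroup G) (χ : Cfsg.IrrCharacter G) (hres : Cfsg.IsIrrCharacter H (fun h : H => (χ : G → ℂ) h)) (hχ0 : Cfsg.blockHeight p (Cfsg.blockOf M (χ : G → ℂ)) (χ : G → ℂ) = 0) (hψ0 : Cfsg.blockHeight p (Cfsg.blockOf M (fun h : H => (χ : G → ℂ) h)) (fun h : H => (χ : G → ℂ) h) = 0) (e : Set (Cfsg.IrrCharacter H)) (he : Cfsg.InducedBlockDefined M H e) : Cfsg.IsInducedBlock M H e (Cfsg.blockOf M (χ : G → ℂ)) ↔ e = Cfsg.blockOf M (fun h : H => (χ : G → ℂ) h) := by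
  haveI := hM.2.1
  set ψ : IrrCharacter H := ⟨fun h : H => (χ : G → ℂ) h, hres⟩ with hψ
  have key : ∀ B : Set (IrrCharacter G), IsInducedBlock M H e B →
      (B = blockOf M (χ : G → ℂ) ↔ e = blockOf M (ψ : H → ℂ)) := by
    intro B hind
    obtain ⟨ξ, hξ⟩ := isPBlock_nonempty hind.1
    obtain ⟨φ, hφ⟩ := isPBlock_nonempty hind.2.1
    have h := redC_omega_toSub_eq hind hξ hφ
      (a := regElem p (χ : G → ℂ)) (isClassCoeff_regElem (Char.isClassFunction_of_isIrr χ.2))
      (intR_regElem χ)
    rw [toSub_regElem, show regElem p (fun h : H => (χ : G → ℂ) h) = regElem p (ψ : H → ℂ) from rfl]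
      at h
    constructor
    · rintro rfl
      by_contra hne
      refine redC_omega_regElem_ne_zero hM hind.2.1 (mem_blockOf_self χ) hφ hχ0 ?_
      rw [← h, omega_regElem_eq_zero hM fun hs => hne (eq_of_mem_of_mem hind.1 (isPBlock_blockOf ψ)
        hξ (sameBlock_symm hs)), redC_zero]
    · rintro rfl
      by_contra hne
      refine redC_omega_regElem_ne_zero hM hind.1 (mem_blockOf_self ψ) hξ hψ0 ?_
      rw [h, omega_regElem_eq_zero hM fun hs => hne (eq_of_mem_of_mem hind.2.1 (isPBlock_blockOf χ)
        hφ (sameBlock_symm hs)), redC_zero]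
  obtain ⟨B, hB⟩ := he
  exact ⟨fun h => (key _ h).1 rfl, fun h => (key B hB).2 h ▸ hB⟩

end Cfsg.Agent.S0935
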