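import Cfsg.Statements.S0937
import Cfsg.Agent.Lib.Block.HeightZero
import Cfsg.Agent.Lib.Block.Apply
-- import your own Cfsg.Agent.* helpers here

set_option autoImplicit false
open Cfsg

open Cfsg Cfsg.Agent.Lib.Block
open Cfsg.Agent.Lib

namespace Cfsg.Agent.S0937

/-- Let H be a subgroup of the finite group G and fix a maximal ideal M of the algebraic integers containing the prime p. If the block b of H induces the block B of G and χ ∈ B has height zero, then there is ξ ∈ b of height zero whose multiplicity in the restriction of χ to H is a natural number not divisible by p. -/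
theorem result {G : Type*} [Group G] [Fintype G] (p : ℕ) [Fact p.Prime] (M : Ideal Cfsg.AlgInt) (hM : Cfsg.IsPModular p M) (H : Subgroup G) [Fintype H] (b : Set (Cfsg.IrrCharacter H)) (B : Set (Cfsg.IrrCharacter G)) (hind : Cfsg.IsInducedBlock M H b B) (χ : Cfsg.IrrCharacter G) (hχ : χ ∈ B) (h0 : Cfsg.blockHeight p B (χ : G → ℂ) = 0) : ∃ ξ ∈ b, Cfsg.blockHeight p b (ξ : H → ℂ) = 0 ∧ ∃ n : ℕ, Cfsg.classInner (fun h : H => (χ : G → ℂ) h) (ξ : H → ℂ) = (n : ℂ) ∧ ¬ p ∣ n := by
  haveI := hM.2.1
  classical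
  obtain ⟨hb, hB, -⟩ := id hind
  obtain ⟨ξ₀, hξ₀⟩ := isPBlock_nonempty hb
  have hres := Char.isCharacter_restrict (Char.isCharacter_of_isIrr χ.2) H
  choose m hm using fun η : IrrCharacter H =>
    Char.classInner_natCast hres (Char.isCharacter_of_isIrr η.2)
  have hexp : regElem p (fun h : H => (χ : G → ℂ) h) =
      ∑ η : IrrCharacter H, (m η : ℂ) • regElem p (η : H → ℂ) := by
    refine alg_ext fun x => ?_
    simp only [coeff_sum_apply, MonoidAlgebra.coeff_smul_apply, coeff_regElem, smul_eq_mul]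
    split_ifs
    · simp
    · have := congrFun (Char.eq_sum_classInner_smul (Char.isClassFunction_of_isCharacter hres)) x⁻¹
      simpa [hm] using this
  have h := redC_omega_toSub_eq hind hξ₀ hχ
    (a := regElem p (χ : G → ℂ)) (isClassCoeff_regElem (Char.isClassFunction_of_isIrr χ.2))
    (intR_regElem χ)
  have hne : redC M (omega (ξ₀ : H → ℂ) (toSub H (regElem p (χ : G → ℂ)))) ≠ 0 := by
    rw [h]
    exact redC_omega_regElem_ne_zero hM hB hχ hχ h0
  have hmem : ∀ η : IrrCharacter H, omega (ξ₀ : H → ℂ) (regElem p (η : H → ℂ)) ∈ locRing M :=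
    fun η => omega_mem_locRing ξ₀ (isClassCoeff_regElem (Char.isClassFunction_of_isIrr η.2))
      (intR_regElem η)
  rw [toSub_regElem, hexp, omega_sum] at hne
  simp only [omega_smul] at hne
  rw [redC_sum _ fun η _ => mul_mem (nat_mem _) (hmem η)] at hne
  obtain ⟨η, -, hη⟩ := Finset.exists_ne_zero_of_sum_ne_zero hne
  rw [redC_mul (nat_mem _) (hmem η)] at hη
  have h1 := left_ne_zero_of_mul hη
  have h2 := right_ne_zero_of_mul hη
  have hηb : η ∈ b := by
    by_contra hn
    refine h2 ?_
    rw [omega_regElem_eq_zero hM fun hs => hn ((mem_iff_sameBlock hb hξ₀).2 hs), redC_zero]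
  refine ⟨η, hηb, ?_, m η, hm η, fun hd => h1 ((redC_natCast_eq_zero_iff hM).2 hd)⟩
  by_contra hh
  exact h2 (redC_omega_regElem_eq_zero hM hb hηb hξ₀ hh)

end Cfsg.Agent.S0937
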