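import Cfsg.Statements.S0938
import Cfsg.Agent.Lib.Block.Normal
import Cfsg.Agent.Lib.Block.Apply
-- import your own Cfsg.Agent.* helpers here

set_option autoImplicit false
open Cfsg

open Cfsg Cfsg.Agent.Lib.Block
open Cfsg.Agent.Lib

namespace Cfsg.Agent.S0938

/-- Let B be a block of the finite group G relative to a maximal ideal M of the algebraic integers containing the prime p, and let χ ∈ B. Then the kernel of B (the set of g with ψ g = ψ 1 for all ψ ∈ B) is a normal subgroup of order prime to p contained in the kernel of χ, and it contains every normal subgroup of order prime to p on which χ takes the value χ(1); that is, it is O_p' of the kernel of χ. -/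
theorem result {G : Type*} [Group G] [Finite G] (p : ℕ) [Fact p.Prime] (M : Ideal Cfsg.AlgInt) (hM : Cfsg.IsPModular p M) (B : Set (Cfsg.IrrCharacter G)) (hB : Cfsg.IsPBlock M B) (χ : Cfsg.IrrCharacter G) (hχ : χ ∈ B) : ∃ K : Subgroup G, K.Normal ∧ (K : Set G) = Cfsg.blockKer B ∧ ¬ p ∣ Nat.card K ∧ (∀ g ∈ K, (χ : G → ℂ) g = (χ : G → ℂ) 1) ∧ ∀ N : Subgroup G, N.Normal → ¬ p ∣ Nat.card N → (∀ g ∈ N, (χ : G → ℂ) g = (χ : G → ℂ) 1) → N ≤ K := by
  haveI := hM.2.1
  classical
  haveI := Fintype.ofFinite G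
  let K : Subgroup G := ⨅ ψ ∈ B, Char.charKer (ψ : G → ℂ)
  have hmem : ∀ g, g ∈ K ↔ ∀ ψ ∈ B, (ψ : G → ℂ) g = (ψ : G → ℂ) 1 := fun g => by
    simp only [K, Subgroup.mem_iInf]
    exact forall₂_congr fun ψ _ => Char.mem_charKer (Char.isCharacter_of_isIrr ψ.2)
  refine ⟨K, ⟨fun n hn g => ?_⟩, Set.ext fun g => hmem g, fun hp => ?_,
    fun g hg => (hmem g).1 hg χ hχ, fun N hN hpN htriv g hg => ?_⟩
  · rw [hmem] at hn ⊢
    intro ψ hψ
    rw [Char.isClassFunction_of_isIrr ψ.2 n g]
    exact hn ψ hψ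
  · haveI : Fact p.Prime := ⟨hM.1⟩
    obtain ⟨x, hx⟩ := exists_prime_orderOf_dvd_card' p hp
    have h0 := blockCoeff_eq_zero_of_singular hM hB (x := (x : G))
      (by rw [Subgroup.orderOf_coe, hx])
    rw [blockCoeff_eq_sum, mul_eq_zero] at h0
    have h1 := h0.resolve_left (inv_ne_zero (Char.card_ne_zero_complex G))
    have e : ∀ ψ : IrrCharacter G, (if ψ ∈ B then (ψ : G → ℂ) 1 *
        (starRingEnd ℂ) ((ψ : G → ℂ) x) else 0) =
        ((if ψ ∈ B then charDegree (ψ : G → ℂ) ^ 2 else 0 : ℕ) : ℂ) := fun ψ => by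
      split_ifs with hψ
      · rw [(hmem _).1 x.2 ψ hψ, irr_one_eq_natCast, map_natCast]
        push_cast
        ring
      · simp
    simp only [e, ← Nat.cast_sum, Nat.cast_eq_zero, Finset.sum_eq_zero_iff] at h1
    have h2 := h1 χ (Finset.mem_univ _)
    rw [if_pos hχ] at h2
    exact (charDegree_pos χ).ne' (pow_eq_zero_iff (by norm_num) |>.1 h2)
  · rw [hmem]
    intro ψ hψ
    exact trivial_on_of_sameBlock N hM hpN (sameBlock_of_mem hB hχ hψ) htriv hg

end Cfsg.Agent.S0938
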