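import Cfsg.Statements.S0939
import Cfsg.Agent.Lib.Block.Normal
import Cfsg.Agent.Lib.Hall.Basic
-- import your own Cfsg.Agent.* helpers here

set_option autoImplicit false
open Cfsg

open Cfsg Cfsg.Agent.Lib.Block
open Cfsg.Agent.Lib

namespace Cfsg.Agent.S0939

/-- Let G be a finite group with a normal p-complement (the largest normal subgroup O_p'(G) of order prime to p has p-power index). Then, relative to any maximal ideal M of the algebraic integers containing p, the principal block of G is the set of irreducible characters χ with χ n = χ 1 for every n ∈ O_p'(G). -/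
theorem result {G : Type*} [Group G] [Finite G] (p : ℕ) [Fact p.Prime] (M : Ideal Cfsg.AlgInt) (hM : Cfsg.IsPModular p M) (hnc : ∃ k : ℕ, (Cfsg.pPrimeCore p G).index = p ^ k) : Cfsg.principalBlock M G = {χ : Cfsg.IrrCharacter G | ∀ n ∈ Cfsg.pPrimeCore p G, (χ : G → ℂ) n = (χ : G → ℂ) 1} := by
  haveI := hM.2.1
  haveI := Fintype.ofFinite G
  haveI := Fintype.ofFinite (pPrimeCore p G)
  obtain ⟨k, hk⟩ := hnc
  let one : IrrCharacter G := ⟨fun _ => 1, Char.isIrrCharacter_one⟩
  ext χ
  show SameBlock M (one : G → ℂ) (χ : G → ℂ) ↔ _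
  constructor
  · intro h n hn
    exact trivial_on_of_sameBlock _ hM (Hall.not_dvd_card_pPrimeCore hM.1) h
      (fun _ _ => rfl) hn
  · intro h
    exact sameBlock_of_constituent _ hM hk
      (θ := ⟨fun _ => 1, Char.isIrrCharacter_one⟩)
      (θ' := ⟨fun _ => 1, Char.isIrrCharacter_one⟩)
      (constituent_one_of_trivial_on _ one fun _ _ => rfl)
      (constituent_one_of_trivial_on _ χ h) (sameBlock_refl _)

end Cfsg.Agent.S0939
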