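import Cfsg.Statements.S0940
import Cfsg.Agent.Lib.Block.Principal
import Cfsg.Agent.Lib.Block.Apply
-- import your own Cfsg.Agent.* helpers here

set_option autoImplicit false
open Cfsg

open Cfsg Cfsg.Agent.Lib.Block
open Cfsg.Agent.Lib

namespace Cfsg.Agent.S0940

/-- Let G be a finite group and M a maximal ideal of the algebraic integers containing the prime p. For every p-regular g, the idempotent coefficient of the principal block at g (the inverse of the group order times the sum over χ in the principal block of χ 1 * conj (χ g)) is congruent modulo the local ideal at M to N / R, where N is the number of pairs (x, y) with x of p-power order, y of order prime to p and x * y = g, and R is the number of elements of G of order prime to p. -/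
theorem result {G : Type*} [Group G] [Finite G] (p : ℕ) [Fact p.Prime] (M : Ideal Cfsg.AlgInt) (hM : Cfsg.IsPModular p M) (g : G) (hg : ¬ p ∣ orderOf g) : Cfsg.MemLocalIdeal M (Cfsg.blockCoeff (Cfsg.principalBlock M G) g - (Nat.card {xy : G × G // (∃ k : ℕ, orderOf xy.1 = p ^ k) ∧ ¬ p ∣ orderOf xy.2 ∧ xy.1 * xy.2 = g} : ℂ) / (Nat.card {y : G // ¬ p ∣ orderOf y} : ℂ)) := by
  haveI := hM.2.1
  classical
  haveI := resField_charP (M := M) hM
  haveI := Fintype.ofFinite G
  set U : MonoidAlgebra ℂ G :=
    ofFun fun x => if ∃ j : ℕ, orderOf x = p ^ j then (1 : ℂ) else 0 with hU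
  have hUR : IntR M U := fun x => by
    simp only [hU, coeff_ofFun]
    split_ifs
    exacts [one_mem _, zero_mem _]
  have hUmul : ∀ a : MonoidAlgebra ℂ G, (U * a).coeff g =
      ∑ x : G, if ∃ j : ℕ, orderOf x = p ^ j then
        (a * MonoidAlgebra.single g⁻¹ (1 : ℂ)).coeff x else 0 := by
    intro a
    rw [coeff_mul_eq_sum]
    refine Fintype.sum_equiv (Equiv.inv G) _ _ fun x => ?_
    simp only [hU, coeff_ofFun, Equiv.inv_apply, orderOf_inv,
      MonoidAlgebra.coeff_mul_single_apply, inv_inv, mul_one]
    split_ifs <;> simp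
  set e := eIdem (principalBlock M G) with he
  set S := regSum p G with hS
  set R : ℂ := (Nat.card {y : G // ¬ p ∣ orderOf y} : ℂ) with hR
  have hec : IsClassCoeff e := isClassCoeff_eIdem _
  have heR : IntR M e := intR_eIdem isPBlock_principalBlock
  have hSe : S * e = S := by
    refine eq_of_omega_eq (isClassCoeff_regSum.mul hec) isClassCoeff_regSum fun χ => ?_
    rw [omega_mul χ isClassCoeff_regSum, he, omega_eIdem]
    split_ifs with h
    · rw [mul_one]
    · rw [mul_zero, hS, omega_regSum_eq_zero hM h]
  have hRmem : R ∈ locRing M := natCast_mem _ _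
  set y := S - R • e with hy
  have hyc : IsClassCoeff y := isClassCoeff_regSum.sub (hec.smul R)
  have hyR : IntR M y := intR_regSum.sub (IntR.smul hRmem heR)
  obtain ⟨n, hn⟩ := exists_pow_toF_eq_zero hyc hyR fun χ => by
    rw [hy, omega_sub, omega_smul, he, omega_eIdem]
    split_ifs with h
    · rw [mul_one, redC_sub (omega_mem_locRing χ isClassCoeff_regSum intR_regSum) hRmem,
        ← redC_omega_eq_of_sameBlock (show SameBlock M (oneIrr G : G → ℂ) (χ : G → ℂ) from h)
          isClassCoeff_regSum intR_regSum, omega_oneIrr_regSum, ← hR, sub_self]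
    · rw [mul_zero, hS, omega_regSum_eq_zero hM h, sub_zero, redC_zero]
  have hgR : IntR M (MonoidAlgebra.single g⁻¹ (1 : ℂ)) := fun x => by
    rw [coeff_single_if]
    split_ifs
    exacts [one_mem _, zero_mem _]
  have hUy : redC M ((U * y).coeff g) = 0 := by
    rw [hUmul, redC_sum _ fun x _ => by
      split_ifs
      exacts [(hyR.mul hgR) x, zero_mem _]]
    have hnil : IsNilpotent (toF M (y * MonoidAlgebra.single g⁻¹ (1 : ℂ))) := by
      refine ⟨n, ?_⟩
      rw [toF_mul hyR hgR, (((isClassCoeff_toF hyc).commute _)).mul_pow, hn, zero_mul]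
    rw [← pElemSum_eq_zero_of_isNilpotent (p := p) hnil, pElemSum]
    refine Finset.sum_congr rfl fun x _ => ?_
    split_ifs
    · rw [coeff_toF]
    · exact redC_zero
  have hUe : (U * e).coeff g = blockCoeff (principalBlock M G) g := by
    rw [hUmul, ← Finset.add_sum_erase _ _ (Finset.mem_univ (1 : G)), Finset.erase_eq,
      if_pos ⟨0, by simp⟩]
    set a := e * MonoidAlgebra.single g⁻¹ (1 : ℂ) with ha
    have hsing : ∀ x : G, x ≠ 1 → (∃ j : ℕ, orderOf x = p ^ j) → conjSum a x = 0 := by
      intro x hx1 hxp
      refine conjSum_mul_single_eq_zero hM (isIdempotentElem_eIdem _) heR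
        (by rwa [orderOf_inv]) (hec g⁻¹) ?_
      obtain ⟨j, hj⟩ := hxp
      rcases Nat.eq_zero_or_pos j with rfl | hj0
      · exact absurd (orderOf_eq_one_iff.1 (by simpa using hj)) hx1
      · exact hj ▸ dvd_pow_self p hj0.ne'
    have hrest : ∑ x ∈ Finset.univ \ {(1 : G)},
        (if ∃ j : ℕ, orderOf x = p ^ j then a.coeff x else 0) = 0 := by
      have h1 : (Fintype.card G : ℂ) * ∑ x ∈ Finset.univ \ {(1 : G)},
          (if ∃ j : ℕ, orderOf x = p ^ j then a.coeff x else 0) =
          ∑ x : G, if x ≠ 1 ∧ ∃ j : ℕ, orderOf x = p ^ j then conjSum a x else 0 := by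
        have h2 : ∀ c : G, (∑ x ∈ Finset.univ \ {(1 : G)},
            (if ∃ j : ℕ, orderOf x = p ^ j then a.coeff x else 0)) =
            ∑ x : G, if x ≠ 1 ∧ ∃ j : ℕ, orderOf x = p ^ j then a.coeff (c * x * c⁻¹) else 0 := by
          intro c
          rw [← Finset.sum_subset (Finset.subset_univ (Finset.univ \ {(1 : G)}))
            (f := fun x => if x ≠ 1 ∧ ∃ j : ℕ, orderOf x = p ^ j then
              a.coeff (c * x * c⁻¹) else 0) (fun x _ hx => if_neg fun h => hx (by simp [h.1]))]
          refine (Finset.sum_bij (fun x _ => c * x * c⁻¹) ?_ ?_ ?_ ?_).symm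
          · intro x hx
            simp only [Finset.mem_sdiff, Finset.mem_univ, Finset.mem_singleton, true_and] at hx ⊢
            intro h
            exact hx (by simpa using (mul_inv_eq_one.1 h))
          · intro x _ x' _ h
            simpa using h
          · intro x hx
            refine ⟨c⁻¹ * x * c, ?_, by group⟩
            simp only [Finset.mem_sdiff, Finset.mem_univ, Finset.mem_singleton, true_and] at hx ⊢
            intro h
            refine hx ?_
            have := congrArg (fun t => c * t * c⁻¹) h
            simpa [mul_assoc] using this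
          · intro x hx
            simp only [Finset.mem_sdiff, Finset.mem_univ, Finset.mem_singleton, true_and] at hx
            simp only [orderOf_conj_eq, ne_eq, hx, not_false_iff, true_and]
        rw [← nsmul_eq_mul, ← Finset.card_univ, ← Finset.sum_const,
          Finset.sum_congr rfl fun c _ => h2 c, Finset.sum_comm]
        refine Finset.sum_congr rfl fun x _ => ?_
        split_ifs with h
        · rfl
        · simp
      rw [Finset.sum_eq_zero (s := (Finset.univ : Finset G)) fun x _ => ?_] at h1
      · exact (mul_eq_zero.1 h1).resolve_left (Nat.cast_ne_zero.2 Fintype.card_ne_zero)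
      · split_ifs with h
        · exact hsing x h.1 h.2
        · rfl
    rw [hrest, add_zero]
    simp [ha, MonoidAlgebra.coeff_mul_single_apply, he]
  have hN : (Nat.card {xy : G × G // (∃ k : ℕ, orderOf xy.1 = p ^ k) ∧ ¬ p ∣ orderOf xy.2 ∧
      xy.1 * xy.2 = g} : ℂ) = (U * S).coeff g := by
    rw [Nat.card_congr (β := {x : G // (∃ k : ℕ, orderOf x = p ^ k) ∧ ¬ p ∣ orderOf (x⁻¹ * g)})
      { toFun := fun xy => ⟨xy.1.1, xy.2.1, by
          rw [show xy.1.1⁻¹ * g = xy.1.2 from inv_mul_eq_iff_eq_mul.2 xy.2.2.2.symm]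
          exact xy.2.2.1⟩
        invFun := fun x => ⟨(x.1, x.1⁻¹ * g), x.2.1, x.2.2, mul_inv_cancel_left _ _⟩
        left_inv := fun xy => Subtype.ext (Prod.ext rfl (inv_mul_eq_iff_eq_mul.2 xy.2.2.2.symm))
        right_inv := fun x => rfl }, Nat.card_eq_fintype_card, Fintype.card_subtype,
      ← Finset.sum_boole, coeff_mul_eq_sum]
    refine Finset.sum_congr rfl fun x _ => ?_
    simp only [hU, hS, coeff_ofFun, coeff_regSum]
    split_ifs <;> simp_all
  have hsplit : (U * S).coeff g = (U * y).coeff g + R * (U * e).coeff g := by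
    rw [hy, mul_sub, mul_smul_comm]
    simp
  have hmem : (U * y).coeff g ∈ locRing M := (hUR.mul hyR) g
  have hb : blockCoeff (principalBlock M G) g ∈ locRing M := heR g
  have hR0 : redC M R ≠ 0 := by
    rw [Ne, hR, redC_natCast_eq_zero_iff hM]
    exact not_dvd_card_regular hM.1
  have hR00 : R ≠ 0 := fun h => hR0 (by rw [h, redC_zero])
  rw [hN, hsplit, hUe,
    show blockCoeff (principalBlock M G) g - ((U * y).coeff g +
      R * blockCoeff (principalBlock M G) g) / R = -((U * y).coeff g * R⁻¹) by
      field_simp; ring,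
    ← redC_eq_zero_iff (neg_mem (mul_mem hmem (inv_mem_locRing hRmem hR0)))]
  rw [show -((U * y).coeff g * R⁻¹) = (U * y).coeff g * (-R⁻¹) by ring,
    redC_mul hmem (neg_mem (inv_mem_locRing hRmem hR0)), hUy, zero_mul]

end Cfsg.Agent.S0940
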