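import Cfsg.Statements.S0941
import Cfsg.Agent.Lib.Block.NormalP
-- import your own Cfsg.Agent.* helpers here

set_option autoImplicit false
open Cfsg

open Cfsg Cfsg.Agent.Lib.Block
open Cfsg.Agent.Lib

namespace Cfsg.Agent.S0941

/-- Let P be a normal p-subgroup of the finite group G such that the index of C_G(P) is a power of p, and fix a maximal ideal M of the algebraic integers containing p. Then (i) two irreducible characters of G ⧸ P lie in the same block if and only if their inflations to G do, and (ii) every block of G contains the inflation of some irreducible character of G ⧸ P; so inflation induces a bijection between the blocks of G ⧸ P and the blocks of G. -/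
theorem result {G : Type*} [Group G] [Finite G] (p : ℕ) [Fact p.Prime] (M : Ideal Cfsg.AlgInt) (hM : Cfsg.IsPModular p M) (P : Subgroup G) [P.Normal] (hP : IsPGroup p P) (hC : ∃ k : ℕ, (Subgroup.centralizer (P : Set G)).index = p ^ k) : (∀ χ ψ : Cfsg.IrrCharacter (G ⧸ P), Cfsg.SameBlock M (χ : G ⧸ P → ℂ) (ψ : G ⧸ P → ℂ) ↔ Cfsg.SameBlock M ((χ : G ⧸ P → ℂ) ∘ QuotientGroup.mk) ((ψ : G ⧸ P → ℂ) ∘ QuotientGroup.mk)) ∧ ∀ B : Set (Cfsg.IrrCharacter G), Cfsg.IsPBlock M B → ∃ χ : Cfsg.IrrCharacter (G ⧸ P), ∃ θ ∈ B, (θ : G → ℂ) = (χ : G ⧸ P → ℂ) ∘ QuotientGroup.mk := by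
  classical
  haveI := hM.2.1
  haveI : Fact p.Prime := ⟨hM.1⟩
  obtain ⟨k, hk⟩ := hC
  have infl : ∀ χ : IrrCharacter (G ⧸ P), IsIrrCharacter G ((χ : G ⧸ P → ℂ) ∘ QuotientGroup.mk) :=
    fun χ => ((Char.inflateEquiv P χ).1).2
  refine ⟨fun χ ψ => ⟨fun h => ?_, fun h => ?_⟩, fun B hB => ?_⟩
  · refine (sameBlock_iff (χ := ⟨_, infl χ⟩) (ψ := ⟨_, infl ψ⟩)).2 fun g => ?_
    obtain ⟨m, hm, -⟩ := centralChar_inflate P g
    show redC M (centralChar ((χ : G ⧸ P → ℂ) ∘ QuotientGroup.mk) g) =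
      redC M (centralChar ((ψ : G ⧸ P → ℂ) ∘ QuotientGroup.mk) g)
    rw [hm, hm, redC_mul (nat_mem m) (centralChar_mem_locRing χ _),
      redC_mul (nat_mem m) (centralChar_mem_locRing ψ _), sameBlock_iff.1 h]
  · set e := blockOf M (χ : G ⧸ P → ℂ) with he
    have heB : IsPBlock M e := isPBlock_blockOf χ
    have hreg : ∀ g : G, ¬ p ∣ orderOf g → ∀ φ : IrrCharacter (G ⧸ P),
        centralChar ((φ : G ⧸ P → ℂ) ∘ QuotientGroup.mk) g =
          centralChar (φ : G ⧸ P → ℂ) (QuotientGroup.mk g) := by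
      intro g hg φ
      obtain ⟨m, hm, hm1⟩ := centralChar_inflate P g
      have hgC := mem_of_regular_of_index (Subgroup.centralizer (P : Set G)) hM hk hg
      rw [hm, hm1 (le_centralizer_singleton_iff.2 hgC), Nat.cast_one, one_mul]
      intro u hu
      rw [Subgroup.mem_comap, Subgroup.mem_centralizer_singleton_iff] at hu
      have hw : (QuotientGroup.mk' P) (u * g * u⁻¹) = QuotientGroup.mk' P g := by
        rw [map_mul, map_mul, map_inv]
        exact mul_inv_eq_iff_eq_mul.2 hu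
      obtain ⟨w, hwP, hwe⟩ : ∃ w ∈ P, u * g * u⁻¹ = w * g :=
        ⟨u * g * u⁻¹ * g⁻¹, (QuotientGroup.eq_one_iff _).1 (show QuotientGroup.mk' P (u * g * u⁻¹ * g⁻¹) = 1 by
          rw [map_mul, hw, map_inv, mul_inv_cancel]), by simp⟩
      have h1 : IsPPart p (w * g) w := isPPart_mul (isPElem_of_mem hP hwP) hg
        (Subgroup.mem_centralizer_iff.1 hgC w hwP)
      rw [← hwe] at h1
      have h2 := IsPPart.unique h1 (isPPart_one_of_regular (by rwa [orderOf_conj_eq]))
      rw [h2, one_mul, mul_inv_eq_iff_eq_mul] at hwe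
      exact Subgroup.mem_centralizer_singleton_iff.2 hwe
    have h1 : redC M (omega (χ : G ⧸ P → ℂ) (eIdem e)) = redC M (omega (ψ : G ⧸ P → ℂ) (eIdem e)) := by
      haveI := Fintype.ofFinite (G ⧸ P)
      rw [redC_omega_eq_sum χ (isClassCoeff_eIdem e) (intR_eIdem heB),
        redC_omega_eq_sum ψ (isClassCoeff_eIdem e) (intR_eIdem heB)]
      refine Finset.sum_congr rfl fun C _ => ?_
      by_cases h0 : redC M ((eIdem e).coeff C.out) = 0
      · rw [h0, zero_mul, zero_mul]
      rw [coeff_eIdem] at h0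
      have hr := regular_of_redC_blockCoeff_ne_zero hM heB h0
      obtain ⟨g, hg⟩ := QuotientGroup.mk_surjective C.out
      obtain ⟨z, hz⟩ := exists_isPPart (p := p) g
      have hzP : z ∈ P := (QuotientGroup.eq_one_iff z).1
        (IsPPart.unique (isPPart_map (QuotientGroup.mk' P) hz)
          (isPPart_one_of_regular (show ¬ p ∣ orderOf (QuotientGroup.mk' P g) by
            rw [show QuotientGroup.mk' P g = C.out from hg]; exact hr)))
      obtain ⟨s, hs1, -, -, hs4⟩ := hz
      have hsg : (QuotientGroup.mk s : G ⧸ P) = C.out := by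
        rw [← hg, ← hs1, QuotientGroup.mk_mul, (QuotientGroup.eq_one_iff z).2 hzP, one_mul]
      rw [← hsg, ← hreg s hs4 χ, ← hreg s hs4 ψ]
      exact congrArg _ ((sameBlock_iff (χ := ⟨_, infl χ⟩) (ψ := ⟨_, infl ψ⟩)).1 h s)
    rw [omega_eIdem, omega_eIdem, if_pos (mem_blockOf_self χ), redC_one] at h1
    by_contra hn
    rw [if_neg (show ψ ∉ e from hn), redC_zero] at h1
    exact one_ne_zero h1
  · obtain ⟨θ, hθ, htriv⟩ := exists_mem_trivial_on hM hP hB
    obtain ⟨φ, hφ, he⟩ := Char.exists_irr_deflation θ.2 P htriv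
    exact ⟨⟨φ, hφ⟩, θ, hθ, funext fun g => (he g).symm⟩

end Cfsg.Agent.S0941
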