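import Cfsg.Statements.S0943
import Cfsg.Agent.Lib.Block.Central
-- import your own Cfsg.Agent.* helpers here

set_option autoImplicit false
open Cfsg Cfsg.Agent.Lib.Block
open Cfsg.Agent.Lib

namespace Cfsg.Agent.S0943

/-- Let χ be an irreducible character of the finite group G and u, v ∈ G. If χ (x * y) = χ (u * v) whenever x is conjugate to u and y is conjugate to v, then χ u * χ v = χ 1 * χ (u * v). (Multiply the class sums of u and v and apply the central character of χ.) -/
theorem result {G : Type*} [Group G] [Finite G] (χ : Cfsg.IrrCharacter G) (u v : G) (hc : ∀ x y : G, IsConj u x → IsConj v y → (χ : G → ℂ) (x * y) = (χ : G → ℂ) (u * v)) : (χ : G → ℂ) u * (χ : G → ℂ) v = (χ : G → ℂ) 1 * (χ : G → ℂ) (u * v) := by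
  haveI := Fintype.ofFinite G
  classical
  have hcls := Char.isClassFunction_of_isIrr χ.2
  have h1 := omega_mul χ (isClassCoeff_classSum u) (classSum ℂ v)
  have hK : (∑ y : G, if IsConj v y then (1 : ℂ) else 0) ≠ 0 := by
    rw [Finset.sum_boole, Nat.cast_ne_zero, Finset.card_ne_zero]
    exact ⟨v, Finset.mem_filter.2 ⟨Finset.mem_univ _, IsConj.refl v⟩⟩
  have hKu : (∑ y : G, if IsConj u y then (1 : ℂ) else 0) ≠ 0 := by
    rw [Finset.sum_boole, Nat.cast_ne_zero, Finset.card_ne_zero]
    exact ⟨u, Finset.mem_filter.2 ⟨Finset.mem_univ _, IsConj.refl u⟩⟩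
  have hp : ∀ g : G, pair (χ : G → ℂ) (classSum ℂ g) =
      (∑ y : G, if IsConj g y then (1 : ℂ) else 0) * (χ : G → ℂ) g := by
    intro g
    rw [pair_eq_sum, Finset.sum_mul]
    refine Finset.sum_congr rfl fun y _ => ?_
    rw [coeff_classSum]
    split_ifs with h
    · obtain ⟨c, rfl⟩ := isConj_iff.1 h
      rw [hcls g c]
    · simp
  have hprod : pair (χ : G → ℂ) (classSum ℂ u * classSum ℂ v) =
      (∑ y : G, if IsConj u y then (1 : ℂ) else 0) * (∑ y : G, if IsConj v y then (1 : ℂ) else 0) *
        (χ : G → ℂ) (u * v) := by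
    conv_lhs => rw [eq_sum_single (classSum ℂ u), eq_sum_single (classSum ℂ v), Finset.sum_mul_sum,
      pair_sum]
    simp only [pair_sum, MonoidAlgebra.single_mul_single, pair_single]
    rw [Finset.sum_mul_sum, Finset.sum_mul]
    refine Finset.sum_congr rfl fun x _ => ?_
    rw [Finset.sum_mul]
    refine Finset.sum_congr rfl fun y _ => ?_
    rw [coeff_classSum, coeff_classSum]
    split_ifs with hx hy
    · rw [hc x y hx hy]
    all_goals simp
  simp only [omega, hp, hprod] at h1
  have h0 := deg_ne_zero χ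
  field_simp at h1
  linear_combination -h1

end Cfsg.Agent.S0943
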