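import Cfsg.Statements.S0944
import Cfsg.Agent.Lib.Block.Central
import Cfsg.Agent.Lib.Char.Basic
-- import your own Cfsg.Agent.* helpers here

set_option autoImplicit false
open Cfsg

open Cfsg Cfsg.Agent.Lib.Block
open Cfsg.Agent.Lib

namespace Cfsg.Agent.S0944

/-- Let χ be an irreducible character of the finite group G and u an involution. Then χ u is a rational integer n with n ≡ χ 1 (mod 2). -/
theorem result {G : Type*} [Group G] [Finite G] (χ : Cfsg.IrrCharacter G) (u : G) (hu : orderOf u = 2) : ∃ n : ℤ, (χ : G → ℂ) u = (n : ℂ) ∧ (2 : ℤ) ∣ (Cfsg.charDegree (χ : G → ℂ) : ℤ) - n := by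
  have hcast := irr_one_eq_natCast χ
  obtain ⟨d, ρ, hρ, hρe⟩ := χ.2
  rw [← hρe] at hcast ⊢
  obtain ⟨b, μ, h1, -, hc⟩ := Char.exists_eigenbasis ρ u
  have hμ : ∀ i, μ i = 1 ∨ μ i = -1 := fun i => by
    have := h1 i
    rw [hu] at this
    exact sq_eq_one_iff.1 this
  refine ⟨∑ i, (if μ i = 1 then 1 else -1 : ℤ), ?_, ?_⟩
  · have e := hc 1
    rw [pow_one] at e
    rw [e]
    push_cast
    refine Finset.sum_congr rfl fun i _ => ?_
    rcases hμ i with h | h <;> norm_num [h]
  · have e := hc 0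
    simp only [pow_zero, Finset.sum_const, Finset.card_univ, nsmul_eq_mul, mul_one] at e
    rw [e] at hcast
    have hd : ((charDegree ρ.character : ℕ) : ℤ) = ∑ _i : Fin (Module.finrank ℂ (Fin d → ℂ)), (1 : ℤ) := by
      simp only [Finset.sum_const, Finset.card_univ, nsmul_eq_mul, mul_one, Fintype.card_fin]
      have : (charDegree ρ.character : ℂ) = (Fintype.card (Fin (Module.finrank ℂ (Fin d → ℂ))) : ℂ) := hcast.symm
      rw [Fintype.card_fin] at this
      exact_mod_cast this
    rw [hd, ← Finset.sum_sub_distrib]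
    refine Finset.dvd_sum fun i _ => ?_
    split_ifs <;> norm_num

end Cfsg.Agent.S0944
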