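import Cfsg.Statements.S0945
import Cfsg.Agent.Lib.Block.Homocyclic
-- import your own Cfsg.Agent.* helpers here

set_option autoImplicit false
open Cfsg

open Cfsg
open Cfsg.Agent.Lib

namespace Cfsg.Agent.S0945

/-- Let P be a Sylow 2-subgroup of the finite group G isomorphic to Z/2^m × Z/2^m with m ≥ 1. Then (i) the index of C_G(P) in N_G(P) is 1 or 3, and (ii) if it is not 1, then for every z ≠ 1 in P, C_G(z) ∩ N_G(P) = C_G(P). -/
theorem result {G : Type*} [Group G] [Finite G] (P : Sylow 2 G) (m : ℕ) (hm : 1 ≤ m) (e : (P : Subgroup G) ≃* Multiplicative (ZMod (2 ^ m) × ZMod (2 ^ m))) : ((Subgroup.centralizer (P : Set G)).relIndex (Subgroup.normalizer (P : Set G)) = 1 ∨ (Subgroup.centralizer (P : Set G)).relIndex (Subgroup.normalizer (P : Set G)) = 3) ∧ ((Subgroup.centralizer (P : Set G)).relIndex (Subgroup.normalizer (P : Set G)) ≠ 1 → ∀ z ∈ (P : Subgroup G), z ≠ 1 → Subgroup.centralizer ({z} : Set G) ⊓ Subgroup.normalizer (P : Set G) = Subgroup.centralizer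 (P : Set G)) := by
  obtain ⟨-, hfix, -⟩ := Block.Homocyclic.normalizer_facts P m hm e
  refine ⟨Block.Homocyclic.relIndex_cases P m hm e, fun _ z hz hz1 => ?_⟩
  haveI : Fact (Nat.Prime 2) := ⟨Nat.prime_two⟩
  refine le_antisymm ?_ ?_
  · rintro n ⟨hnz, hn⟩
    obtain ⟨k, hk⟩ := IsPGroup.iff_orderOf.1 P.2 ⟨z, hz⟩
    rw [Subgroup.orderOf_mk] at hk
    rcases k with _ | k
    · exact absurd (orderOf_eq_one_iff.1 (by simpa using hk)) hz1
    refine hfix n hn (z ^ 2 ^ k) (pow_mem hz _) ?_ ?_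
    · rw [orderOf_pow, hk, Nat.gcd_eq_right (pow_dvd_pow 2 k.le_succ), pow_succ,
        Nat.mul_div_cancel_left _ (by positivity)]
    · have hc : Commute n z := Subgroup.mem_centralizer_singleton_iff.1 hnz
      rw [(hc.pow_right (2 ^ k)).eq, mul_inv_cancel_right]
  · intro n hn
    exact ⟨Subgroup.mem_centralizer_singleton_iff.2
      (Subgroup.mem_centralizer_iff.1 hn z hz).symm, Subgroup.centralizer_le_normalizer _ hn⟩

end Cfsg.Agent.S0945
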