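import Cfsg.Statements.S0949
import Cfsg.Agent.Lib.SquareSylow.Main

set_option autoImplicit false
open Cfsg

namespace Cfsg.Agent.S0949

/-- Let the finite group G have a Sylow 2-subgroup P isomorphic to Z/2^m × Z/2^m with m ≥ 2, and suppose G has no nontrivial normal subgroup of odd order. Then P is normal in G, C_G(P) = P, and the index of P is 1 or 3. -/
theorem result {G : Type*} [Group G] [Finite G] (P : Sylow 2 G) (m : ℕ) (hm : 2 ≤ m) (e : (P : Subgroup G) ≃* Multiplicative (ZMod (2 ^ m) × ZMod (2 ^ m))) (hO : ∀ N : Subgroup G, N.Normal → Odd (Nat.card N) → N = ⊥) : (P : Subgroup G).Normal ∧ Subgroup.centralizer (P : Set G) = (P : Subgroup G) ∧ ((P : Subgroup G).index = 1 ∨ (P : Subgroup G).index = 3) := by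
  have hO' : oddCore G = ⊥ :=
    hO _ (Agent.Lib.Hall.pPrimeCore_normal 2) (Nat.coprime_two_right.1 (Agent.Lib.Hall.coprime_card_pPrimeCore 2))
  haveI := Agent.Lib.SquareSylow.normal_of_square m hm _ G P rfl e hO'
  exact ⟨inferInstance, Agent.Lib.SquareSylow.centralizer_index_of_normal m (by omega) P e hO'⟩

end Cfsg.Agent.S0949
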