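import Cfsg.Statements.S0950
import Cfsg.Agent.Lib.Block.Homocyclic
import Cfsg.Agent.Lib.Transfer.Fusion
-- import your own Cfsg.Agent.* helpers here

set_option autoImplicit false
open Cfsg

open Cfsg
open Cfsg.Agent.Lib

namespace Cfsg.Agent.S0950

/-- Let S be a Sylow 2-subgroup of the finite group G that is isomorphic to the quaternion group of order 8, and suppose S has no normal complement in G. Then any two subgroups of order 4 of S are conjugate by an element of the normalizer of S. -/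
theorem result {G : Type*} [Group G] [Finite G] (S : Sylow 2 G) (e : (S : Subgroup G) ≃* QuaternionGroup 2) (hnc : ∀ N : Subgroup G, N.Normal → ¬ Subgroup.IsComplement' N (S : Subgroup G)) (A B : Subgroup G) (hA : A ≤ S) (hB : B ≤ S) (hA4 : Nat.card A = 4) (hB4 : Nat.card B = 4) : ∃ n ∈ Subgroup.normalizer ((S : Subgroup G) : Set G), B = A.map (MulAut.conj n).toMonoidHom := by
  classical
  haveI : Fact (Nat.Prime 2) := ⟨Nat.prime_two⟩
  have hdec : ∀ q : QuaternionGroup 2, (q * q = 1 → q = 1 ∨ q = QuaternionGroup.a 2) ∧ q ^ 4 = 1 ∧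
      (q * q ≠ 1 → q = QuaternionGroup.a 1 ∨ q⁻¹ = QuaternionGroup.a 1 ∨
        q = QuaternionGroup.xa 0 ∨ q⁻¹ = QuaternionGroup.xa 0 ∨
        q = QuaternionGroup.xa 1 ∨ q⁻¹ = QuaternionGroup.xa 1) := by decide
  set z : G := ((e.symm (QuaternionGroup.a 2) : (S : Subgroup G)) : G) with hz
  have hinv : ∀ x ∈ (S : Subgroup G), x * x = 1 → x = 1 ∨ x = z := by
    intro x hx hxx
    rcases (hdec (e ⟨x, hx⟩)).1 (by rw [← map_mul]; exact (congrArg e (Subtype.ext hxx)).trans (map_one e))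
      with h | h
    · exact Or.inl (congrArg Subtype.val (e.injective (h.trans (map_one e).symm)))
    · exact Or.inr (congrArg Subtype.val (show (⟨x, hx⟩ : (S : Subgroup G)) = _ from
        (e.symm_apply_apply _).symm.trans (congrArg e.symm h)))
  have h4 : ∀ x ∈ (S : Subgroup G), x ^ 4 = 1 := fun x hx => by
    have := congrArg Subtype.val (e.injective ((map_pow e (⟨x, hx⟩ : (S : Subgroup G)) 4).trans
      ((hdec _).2.1.trans (map_one e).symm)))
    simpa using this
  set Y₁ := Subgroup.zpowers ((e.symm (QuaternionGroup.a 1) : (S : Subgroup G)) : G)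
  set Y₂ := Subgroup.zpowers ((e.symm (QuaternionGroup.xa 0) : (S : Subgroup G)) : G)
  set Y₃ := Subgroup.zpowers ((e.symm (QuaternionGroup.xa 1) : (S : Subgroup G)) : G)
  have hthree : ∀ x ∈ (S : Subgroup G), x * x ≠ 1 →
      Subgroup.zpowers x = Y₁ ∨ Subgroup.zpowers x = Y₂ ∨ Subgroup.zpowers x = Y₃ := by
    intro x hx hxx
    have hne : e ⟨x, hx⟩ * e ⟨x, hx⟩ ≠ 1 := fun h => hxx (by
      rw [← map_mul] at h
      exact congrArg Subtype.val (e.injective (h.trans (map_one e).symm)))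
    have key : ∀ q, (e ⟨x, hx⟩ = q ∨ (e ⟨x, hx⟩)⁻¹ = q) →
        Subgroup.zpowers x = Subgroup.zpowers ((e.symm q : (S : Subgroup G)) : G) := by
      rintro q (rfl | rfl)
      · rw [MulEquiv.symm_apply_apply]
      · rw [map_inv, MulEquiv.symm_apply_apply, Subgroup.coe_inv, Subgroup.zpowers_inv]
    rcases (hdec (e ⟨x, hx⟩)).2.2 hne with h | h | h | h | h | h
    · exact Or.inl (key _ (Or.inl h))
    · exact Or.inl (key _ (Or.inr h))
    · exact Or.inr (Or.inl (key _ (Or.inl h)))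
    · exact Or.inr (Or.inl (key _ (Or.inr h)))
    · exact Or.inr (Or.inr (key _ (Or.inl h)))
    · exact Or.inr (Or.inr (key _ (Or.inr h)))
  have hord : ∀ x ∈ (S : Subgroup G), x * x ≠ 1 → orderOf x = 4 := fun x hx hxx =>
    orderOf_eq_prime_pow (p := 2) (n := 1) (by rw [pow_one, pow_two]; exact hxx) (h4 x hx)
  have hzc : ∀ (g x : G), orderOf x = 4 → g * x * g⁻¹ ∈ Subgroup.zpowers x →
      g * x * g⁻¹ = x ∨ g * x * g⁻¹ = x⁻¹ := by
    intro g x hx hmem
    have ho : orderOf (g * x * g⁻¹) = 4 := (MulEquiv.orderOf_eq (MulAut.conj g) x).trans hx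
    have hx4 : x ^ 4 = 1 := hx ▸ pow_orderOf_eq_one x
    have hfo : IsOfFinOrder x := isOfFinOrder_of_finite x
    obtain ⟨k, hk⟩ := hfo.mem_powers_iff_mem_zpowers.2 hmem
    simp only at hk
    have hk' : x ^ (k % 4) = g * x * g⁻¹ := by rw [← hx, pow_mod_orderOf, hk]
    have hlt : k % 4 < 4 := Nat.mod_lt _ (by norm_num)
    interval_cases h : k % 4
    · rw [pow_zero] at hk'
      rw [← hk', orderOf_one] at ho
      exact absurd ho (by norm_num)
    · left; rw [← hk', pow_one]
    · have h2 : (g * x * g⁻¹) ^ 2 = 1 := by rw [← hk', ← pow_mul, hx4]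
      have := orderOf_dvd_of_pow_eq_one h2
      rw [ho] at this
      exact absurd this (by norm_num)
    · right
      rw [← hk']
      exact eq_inv_of_mul_eq_one_left (by rw [← pow_succ, hx4])
  by_contra hcon
  refine absurd (Transfer.hasNormalPComplement_iff_forall.1 (Transfer.frobenius_criterion
    (Transfer.autPGroup_of_sylow S fun Q hQ g hg hgo => ?_)) S) fun ⟨N, hN, hc⟩ => hnc N hN hc
  rw [Subgroup.mem_centralizer_iff]
  intro x hx
  have hxS := hQ hx
  have hgx : g * x * g⁻¹ ∈ Q := (Subgroup.mem_normalizer_iff.1 hg x).1 hx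
  have hgmem : g ∈ Subgroup.zpowers (g ^ 2) := by
    have hc2 : Nat.Coprime 2 (orderOf g) := hgo.symm
    obtain ⟨k, hk⟩ := exists_pow_eq_self_of_coprime hc2
    exact ⟨(k : ℤ), by simpa using hk⟩
  suffices hh : g * x * g⁻¹ = x by
    exact (mul_inv_eq_iff_eq_mul.1 hh).symm
  by_cases hxx : x * x = 1
  · rcases hinv x hxS hxx with h1 | h1
    · rw [h1, mul_one, mul_inv_cancel]
    · have h2 : g * x * g⁻¹ * (g * x * g⁻¹) = 1 := by
        rw [show g * x * g⁻¹ * (g * x * g⁻¹) = g * (x * x) * g⁻¹ by group, hxx, mul_one, mul_inv_cancel]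
      rcases hinv _ (hQ hgx) h2 with h3 | h3
      · have hx1 : x = 1 := conj_eq_one_iff.1 h3
        rw [hx1, mul_one, mul_inv_cancel]
      · rw [h3, h1]
  have hx4 := hord x hxS hxx
  have hfix2 : g ^ 2 * x * (g ^ 2)⁻¹ = x → g * x * g⁻¹ = x := by
    intro h
    have hmem : g ^ 2 ∈ Subgroup.centralizer ({x} : Set G) :=
      Subgroup.mem_centralizer_singleton_iff.2 (mul_inv_eq_iff_eq_mul.1 h)
    have := (Subgroup.zpowers_le.2 hmem) hgmem
    rw [Subgroup.mem_centralizer_singleton_iff.1 this, mul_inv_cancel_right]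
  by_cases hmem : g * x * g⁻¹ ∈ Subgroup.zpowers x
  · rcases hzc g x hx4 hmem with h | h
    · exact h
    · refine hfix2 ?_
      have : g ^ 2 * x * (g ^ 2)⁻¹ = g * (g * x * g⁻¹) * g⁻¹ := by rw [pow_two]; group
      rw [this, h, ← conj_inv, h, inv_inv]
  exfalso
  have hQS : (S : Subgroup G) ≤ Q := by
    have hlt : Subgroup.zpowers x < Q := SetLike.lt_iff_le_and_exists.2
      ⟨Subgroup.zpowers_le.2 hx, _, hgx, hmem⟩
    have hcS : Nat.card (S : Subgroup G) = 8 := by
      rw [Nat.card_congr e.toEquiv, Nat.card_eq_fintype_card, QuaternionGroup.card]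
    have h1 := Subgroup.card_dvd_of_le hQ
    have h2 : Nat.card (Subgroup.zpowers x) < Nat.card Q :=
      Set.ncard_lt_ncard (SetLike.coe_ssubset_coe.mpr hlt) (Set.toFinite _)
    rw [Nat.card_zpowers, hx4] at h2
    rw [hcS] at h1
    have h3 : Nat.card Q = 8 := by
      have := Nat.le_of_dvd (by norm_num) h1
      interval_cases h : Nat.card Q <;> first | rfl | omega
    exact (Subgroup.eq_of_le_of_card_ge hQ (by rw [h3, hcS])).ge
  have hgN : g ∈ Subgroup.normalizer ((S : Subgroup G) : Set G) := by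
    rwa [le_antisymm hQS hQ]
  have hconjS : ∀ n ∈ Subgroup.normalizer ((S : Subgroup G) : Set G),
      n * x * n⁻¹ ∈ (S : Subgroup G) := fun n hn => (Subgroup.mem_normalizer_iff.1 hn x).1 hxS
  have hsq : ∀ n : G, n * x * n⁻¹ * (n * x * n⁻¹) ≠ 1 := by
    intro n h
    rw [show n * x * n⁻¹ * (n * x * n⁻¹) = n * (x * x) * n⁻¹ by group, conj_eq_one_iff] at h
    exact hxx h
  have hY : ∀ n : G, (Subgroup.zpowers x).map (MulAut.conj n).toMonoidHom =
      Subgroup.zpowers (n * x * n⁻¹) := fun n => by rw [MonoidHom.map_zpowers]; rfl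
  have d1 : Subgroup.zpowers x ≠ Subgroup.zpowers (g * x * g⁻¹) := fun h =>
    hmem (h ▸ Subgroup.mem_zpowers _)
  have d2 : Subgroup.zpowers x ≠ Subgroup.zpowers (g ^ 2 * x * (g ^ 2)⁻¹) := by
    intro h
    have hN2 : g ^ 2 ∈ Subgroup.normalizer ((Subgroup.zpowers x : Subgroup G) : Set G) := by
      refine Subgroup.mem_normalizer_iff.2 fun u => ?_
      conv_rhs => rw [h, ← hY]
      constructor
      · intro hu; exact ⟨u, hu, rfl⟩
      · rintro ⟨v, hv, hve⟩
        simp only [MulEquiv.coe_toMonoidHom, MulAut.conj_apply] at hve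
        rwa [← mul_left_cancel (mul_right_cancel hve)]
    have := (Subgroup.zpowers_le.2 hN2) hgmem
    exact hmem ((Subgroup.mem_normalizer_iff.1 this x).1 (Subgroup.mem_zpowers x))
  have d3 : Subgroup.zpowers (g * x * g⁻¹) ≠ Subgroup.zpowers (g ^ 2 * x * (g ^ 2)⁻¹) := by
    intro h
    apply d1
    have e2 : g ^ 2 * x * (g ^ 2)⁻¹ = g * (g * x * g⁻¹) * g⁻¹ := by rw [pow_two]; group
    have h1 := h
    rw [e2, ← hY g] at h1
    have h2 : (Subgroup.zpowers (g * x * g⁻¹)).map (MulAut.conj g).toMonoidHom =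
        Subgroup.zpowers (g * (g * x * g⁻¹) * g⁻¹) := by rw [MonoidHom.map_zpowers]; rfl
    rw [← h2] at h1
    exact Subgroup.map_injective (MulAut.conj g).injective h1
  have hA' : ∀ A : Subgroup G, A ≤ S → Nat.card A = 4 →
      A = Subgroup.zpowers x ∨ A = Subgroup.zpowers (g * x * g⁻¹) ∨
        A = Subgroup.zpowers (g ^ 2 * x * (g ^ 2)⁻¹) := by
    intro A hA hA4
    obtain ⟨a, ha, haa⟩ : ∃ a ∈ A, a * a ≠ 1 := by
      by_contra hall
      push Not at hall
      have hsub : (A : Set G) ⊆ ({1, z} : Set G) := fun a ha => hinv a (hA ha) (hall a ha)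
      have h1 := Set.ncard_le_ncard hsub
      have h2 : ({1, z} : Set G).ncard ≤ 2 := by
        refine le_trans (Set.ncard_insert_le _ _) ?_
        rw [Set.ncard_singleton]
      rw [← Nat.card_coe_set_eq] at h1
      have h3 : Nat.card A ≤ 2 := h1.trans h2
      omega
    have hAeq : A = Subgroup.zpowers a := by
      refine (Subgroup.eq_of_le_of_card_ge (Subgroup.zpowers_le.2 ha) ?_).symm
      rw [hA4, Nat.card_zpowers, hord a (hA ha) haa]
    rw [hAeq]
    exact Block.Homocyclic.mem_three (hthree x hxS hxx) (hthree _ (hconjS g hgN) (hsq g))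
      (hthree _ (hconjS _ (pow_mem hgN 2)) (hsq _)) (hthree a (hA ha) haa) d1 d2 d3
  refine hcon ?_
  have hform : ∀ A : Subgroup G, A ≤ S → Nat.card A = 4 → ∃ n ∈ Subgroup.normalizer ((S : Subgroup G) : Set G),
      A = (Subgroup.zpowers x).map (MulAut.conj n).toMonoidHom := by
    intro A hA hA4
    rcases hA' A hA hA4 with h | h | h
    · exact ⟨1, one_mem _, by rw [h, hY]; simp⟩
    · exact ⟨g, hgN, by rw [h, hY]⟩
    · exact ⟨g ^ 2, pow_mem hgN 2, by rw [h, hY]⟩
  obtain ⟨n, hn, rfl⟩ := hform A hA hA4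
  obtain ⟨m, hm, rfl⟩ := hform B hB hB4
  refine ⟨m * n⁻¹, mul_mem hm (inv_mem hn), ?_⟩
  rw [hY, hY, MonoidHom.map_zpowers]
  congr 1
  simp only [MulEquiv.coe_toMonoidHom, MulAut.conj_apply]
  group

end Cfsg.Agent.S0950
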