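import Cfsg.Statements.S0951
import Cfsg.Agent.Lib.Involution.QEightCount

set_option autoImplicit false
open Cfsg

namespace Cfsg.Agent.S0951

open Cfsg.Agent.Lib.Involution

/-- Let S be a Sylow 2-subgroup of the finite group G isomorphic to the quaternion group of order 8. Suppose G has no nontrivial normal subgroup of odd order and G ≠ S. Then, relative to any maximal ideal M of the algebraic integers containing 2, the principal block of G consists of exactly 7 irreducible characters. -/
theorem result {G : Type*} [Group G] [Finite G] (M : Ideal Cfsg.AlgInt) (hM : Cfsg.IsPModular 2 M) (S : Sylow 2 G) (e : (S : Subgroup G) ≃* QuaternionGroup 2) (hO : ∀ N : Subgroup G, N.Normal → Odd (Nat.card N) → N = ⊥) (hG : (S : Subgroup G) ≠ ⊤) : Nat.card (Cfsg.principalBlock M G) = 7 := by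
  haveI := Fintype.ofFinite G
  obtain ⟨z, hzS, hz, -⟩ := quaternion_isolated S 0 e
  have hO' := oddCore_eq_bot_iff.mpr hO
  obtain ⟨x, y, -, hx2, hs, hy, hxy⟩ := qEight_setting S e hO' hzS hz hG
  refine qEight_card_block hs (hx2 ▸ zstar_center hz hO') (fun l => ?_) hM
  have h1 : ∀ v : G, orderOf v = 4 → l v = l x := fun v hv => by
    obtain ⟨a, ha⟩ := isConj_iff.mp (hs.fused v hv)
    rw [← ha, map_mul, map_mul, map_inv, mul_inv_cancel_comm]
  have h2 := h1 _ hxy
  rw [map_mul, h1 y hy] at h2
  exact mul_eq_left.mp h2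

end Cfsg.Agent.S0951
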