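import Cfsg.Statements.S0953
import Cfsg.Agent.Lib.Block.SylowCount
-- import your own Cfsg.Agent.* helpers here

set_option autoImplicit false
open Cfsg

open Cfsg Cfsg.Agent.Lib.Block
open Cfsg.Agent.Lib

namespace Cfsg.Agent.S0953

/-- Let P be a Sylow p-subgroup of the finite group G with normalizer N, and fix a maximal ideal M of the algebraic integers containing p. The number of blocks of G having P as a defect group equals the number of conjugacy classes of N consisting of elements of order prime to p that centralize P. -/
theorem result {G : Type*} [Group G] [Finite G] (p : ℕ) [Fact p.Prime] (M : Ideal Cfsg.AlgInt) (hM : Cfsg.IsPModular p M) (P : Sylow p G) : Nat.card {B : Set (Cfsg.IrrCharacter G) // Cfsg.IsPBlock M B ∧ Cfsg.IsDefectGroup p M B (P : Subgroup G)} = Nat.card {C : ConjClasses (Subgroup.normalizer ((P : Subgroup G) : Set G)) // ∀ n : Subgroup.normalizer ((P : Subgroup G) : Set G), ConjClasses.mk n = C → ¬ p ∣ orderOf n ∧ (n : G) ∈ Subgroup.centralizer ((P : Subgroup G) : Set G)} := by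
  haveI := hM.2.1
  rw [card_blocks_sylow_defect hM P]
  set P' : Sylow p (Subgroup.normalizer ((P : Subgroup G) : Set G)) := P.subtype Subgroup.le_normalizer
    with hP'
  have hcoe : (P' : Subgroup (Subgroup.normalizer ((P : Subgroup G) : Set G))) =
      (P : Subgroup G).subgroupOf (Subgroup.normalizer ((P : Subgroup G) : Set G)) := by
    rw [hP', Sylow.coe_subtype]
  haveI : (P' : Subgroup (Subgroup.normalizer ((P : Subgroup G) : Set G))).Normal := by
    rw [hcoe]
    exact Subgroup.normal_subgroupOf_of_le_normalizer le_rfl
  rw [card_blocks_of_normal_sylow hM P']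
  refine Nat.card_congr (Equiv.subtypeEquivRight fun C => ?_)
  refine forall_congr' fun n => imp_congr_right fun _ => and_congr Iff.rfl ?_
  rw [hcoe, Subgroup.mem_centralizer_iff, Subgroup.mem_centralizer_iff]
  exact ⟨fun h u hu => congrArg Subtype.val (h ⟨u, Subgroup.le_normalizer hu⟩ hu),
    fun h u hu => Subtype.ext (h u hu)⟩

end Cfsg.Agent.S0953
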