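import Cfsg.Statements.S0955
import Cfsg.Agent.Lib.Block.Green
import Cfsg.Agent.Lib.Fusion.Normal
-- import your own Cfsg.Agent.* helpers here

set_option autoImplicit false
open Cfsg

open Cfsg Cfsg.Agent.Lib.Block
open Cfsg.Agent.Lib

namespace Cfsg.Agent.S0955

/-- Let D be a defect group of a block of the finite group G relative to a maximal ideal M of the algebraic integers containing the prime p. Then D is the largest normal p-subgroup of its own normalizer: O_p(N_G(D)) = D. -/
theorem result {G : Type*} [Group G] [Finite G] (p : ℕ) [Fact p.Prime] (M : Ideal Cfsg.AlgInt) (hM : Cfsg.IsPModular p M) (B : Set (Cfsg.IrrCharacter G)) (hB : Cfsg.IsPBlock M B) (D : Subgroup G) (hD : Cfsg.IsDefectGroup p M B D) : (Cfsg.pCore p (Subgroup.normalizer (D : Set G))).map (Subgroup.normalizer (D : Set G)).subtype = D := by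
  haveI := hM.2.1
  obtain ⟨hDp, -⟩ := IsDefectGroup.props hM hB hD
  set N := Subgroup.normalizer (D : Set G) with hN
  have hDN : D ≤ N := Subgroup.le_normalizer
  set Q := (pCore p N).map N.subtype with hQ
  have hQp : IsPGroup p Q := (Fusion.isPGroup_pCore (X := N)).map _
  have hDQ : D ≤ Q := fun u hu => ⟨⟨u, hDN hu⟩,
    Fusion.le_pCore (Subgroup.normal_subgroupOf_of_le_normalizer le_rfl)
      (hDp.comap_of_injective N.subtype N.subtype_injective) hu, rfl⟩
  obtain ⟨P, hP⟩ := hQp.exists_le_sylow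
  obtain ⟨y, -, hyD, -, hPP⟩ := exists_sylow_inf_eq_defect hM hB hD P (hDQ.trans hP)
  refine le_antisymm (fun u hu => ?_) hDQ
  rw [← hPP, Subgroup.mem_inf, Subgroup.mem_map_equiv]
  refine ⟨hP hu, hP ?_⟩
  obtain ⟨v, hv, rfl⟩ := hu
  have hyN : y ∈ N := Subgroup.centralizer_le_normalizer _ hyD
  refine ⟨⟨y, hyN⟩ * v * ⟨y, hyN⟩⁻¹, (Fusion.pCore_normal (X := N)).conj_mem v hv _, ?_⟩
  simp [MulAut.conj_symm_apply]

end Cfsg.Agent.S0955
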