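import Cfsg.Statements.S0957
import Cfsg.Agent.Lib.Block.DefectClass
-- import your own Cfsg.Agent.* helpers here

set_option autoImplicit false
open Cfsg

open Cfsg Cfsg.Agent.Lib.Block
open Cfsg.Agent.Lib

namespace Cfsg.Agent.S0957

/-- Let P be a Sylow p-subgroup of the finite group G, let g, h ∈ G and let p ^ d be the order of a Sylow p-subgroup of the centralizer of g. Then the number of pairs (y, z) with y conjugate to g, z conjugate to h and z * y⁻¹ ∈ P is divisible by the order of P divided by p ^ d. -/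
theorem result {G : Type*} [Group G] [Finite G] (p : ℕ) [Fact p.Prime] (P : Sylow p G) (g h : G) (S : Sylow p (Subgroup.centralizer ({g} : Set G))) : Nat.card P / Nat.card S ∣ Nat.card {yz : G × G // IsConj g yz.1 ∧ IsConj h yz.2 ∧ yz.2 * yz.1⁻¹ ∈ (P : Subgroup G)} := by
  classical
  haveI := Fintype.ofFinite G
  let f : G → ℕ := fun y => if IsConj g y then Nat.card {z : G // IsConj h z ∧ z * y⁻¹ ∈ (P : Subgroup G)} else 0
  have hcount : Nat.card {yz : G × G // IsConj g yz.1 ∧ IsConj h yz.2 ∧ yz.2 * yz.1⁻¹ ∈ (P : Subgroup G)} = ∑ y, f y := by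
    rw [Nat.card_congr (Equiv.subtypeProdEquivSigmaSubtype (fun y z => IsConj g y ∧ IsConj h z ∧ z * y⁻¹ ∈ (P : Subgroup G))), Nat.card_sigma]
    refine Finset.sum_congr rfl fun y _ => ?_
    by_cases hy : IsConj g y
    · simp only [f, if_pos hy, hy, true_and]
    · haveI : IsEmpty {b : G // IsConj g y ∧ IsConj h b ∧ b * y⁻¹ ∈ (P : Subgroup G)} := ⟨fun b => hy b.2.1⟩
      simp only [f, if_neg hy, Nat.card_of_isEmpty]
  have hf : ∀ u ∈ (P : Subgroup G), ∀ x, f (u * x * u⁻¹) = f x := by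
    intro u hu x
    have hg : IsConj g (u * x * u⁻¹) ↔ IsConj g x :=
      ⟨fun hh => hh.trans (isConj_iff.2 ⟨u⁻¹, by group⟩), fun hh => hh.trans (isConj_iff.2 ⟨u, rfl⟩)⟩
    by_cases hx : IsConj g x
    · simp only [f, if_pos hx, if_pos (hg.2 hx)]
      refine (Nat.card_congr (Equiv.subtypeEquiv (MulAut.conj u).toEquiv fun z => ?_)).symm
      simp only [MulEquiv.toEquiv_eq_coe, MulEquiv.coe_toEquiv, MulAut.conj_apply]
      refine and_congr ⟨fun hh => hh.trans (isConj_iff.2 ⟨u, rfl⟩), fun hh => hh.trans (isConj_iff.2 ⟨u⁻¹, by group⟩)⟩ ?_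
      rw [show u * z * u⁻¹ * (u * x * u⁻¹)⁻¹ = u * (z * x⁻¹) * u⁻¹ by group,
        mul_mem_cancel_right (inv_mem hu), mul_mem_cancel_left hu]
    · simp only [f, if_neg hx, if_neg (mt hg.1 hx)]
  obtain ⟨T, hT⟩ := exists_orbit_sum (P : Subgroup G) f hf
  rw [hcount, hT]
  refine Finset.dvd_sum fun y _ => ?_
  by_cases hy : IsConj g y
  · rw [smul_eq_mul]
    refine dvd_mul_of_dvd_left ?_ _
    obtain ⟨x, rfl⟩ := isConj_iff.1 hy
    have hp : p.Prime := Fact.out
    obtain ⟨a, ha⟩ := IsPGroup.iff_card.1 P.2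
    have hK : IsPGroup p ((P : Subgroup G) ⊓ Subgroup.centralizer ({x * g * x⁻¹} : Set G) : Subgroup G) :=
      P.2.to_le inf_le_left
    obtain ⟨k, hk⟩ := IsPGroup.iff_card.1 hK
    have hdvd : Nat.card ((P : Subgroup G) ⊓ Subgroup.centralizer ({x * g * x⁻¹} : Set G) : Subgroup G) ∣
        Nat.card (Subgroup.centralizer ({g} : Set G)) := by
      rw [← card_centralizer_conj x g]
      exact Subgroup.card_dvd_of_le inf_le_right
    rw [hk] at hdvd
    have hkS := (hp.pow_dvd_iff_le_factorization Nat.card_pos.ne').1 hdvd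
    rw [hk, S.card_eq_multiplicity]
    refine Nat.div_dvd_div_left ?_ (Nat.pow_dvd_pow p hkS)
    rw [P.card_eq_multiplicity]
    exact Nat.pow_dvd_pow p ((hp.pow_dvd_iff_le_factorization Nat.card_pos.ne').1
      ((Nat.ordProj_dvd _ p).trans (Subgroup.card_subgroup_dvd_card _)))
  · simp only [f, if_neg hy, smul_zero]
    exact dvd_zero _

end Cfsg.Agent.S0957
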