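import Cfsg.Statements.S0958
import Cfsg.Agent.Lib.Block.FirstMain
-- import your own Cfsg.Agent.* helpers here

set_option autoImplicit false
open Cfsg

open Cfsg Cfsg.Agent.Lib.Block
open Cfsg.Agent.Lib

namespace Cfsg.Agent.S0958

/-- Let P be a p-subgroup of the finite group G and H a subgroup with P ⊔ C_G(P) ≤ H ≤ N_G(P); fix a maximal ideal M of the algebraic integers containing p. Then a block B of G is induced by some block of H if and only if some conjugate of P is contained in a defect group of B. -/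
theorem result {G : Type*} [Group G] [Finite G] (p : ℕ) [Fact p.Prime] (M : Ideal Cfsg.AlgInt) (hM : Cfsg.IsPModular p M) (P H : Subgroup G) (hP : IsPGroup p P) (hPH : P ⊔ Subgroup.centralizer (P : Set G) ≤ H) (hHN : H ≤ Subgroup.normalizer (P : Set G)) (B : Set (Cfsg.IrrCharacter G)) (hB : Cfsg.IsPBlock M B) : (∃ b : Set (Cfsg.IrrCharacter H), Cfsg.IsInducedBlock M H b B) ↔ ∃ D : Subgroup G, Cfsg.IsDefectGroup p M B D ∧ ∃ x : G, P.map (MulAut.conj x).toMonoidHom ≤ D := by
  haveI := hM.2.1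
  haveI : Fact p.Prime := ⟨hM.1⟩
  have hPH' : P ≤ H := le_sup_left.trans hPH
  have hCH : Subgroup.centralizer (P : Set G) ≤ H := le_sup_right.trans hPH
  constructor
  · rintro ⟨b, hind⟩
    obtain ⟨hb, -, -⟩ := id hind
    haveI : (P.subgroupOf H).Normal := Subgroup.normal_subgroupOf_of_le_normalizer hHN
    obtain ⟨E, hE⟩ := exists_isDefectGroup hM hb
    have hle := le_defect_of_normal hM hb (Q := P.subgroupOf H)
      (hP.comap_of_injective _ (Subgroup.subtype_injective _)) hE
    obtain ⟨F, hF, hEF⟩ := exists_defect_ge_of_induced hM hind hE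
    refine ⟨F, hF, conjLE_of_le (le_trans ?_ hEF)⟩
    exact fun u hu => ⟨⟨u, hPH' hu⟩, hle hu, rfl⟩
  · rintro ⟨D, hD, x, hx⟩
    refine exists_inducing_block hM hP hPH' hCH hHN hB (IsDefectGroup.map_conj hM hB hD x⁻¹) ?_
    intro u hu
    exact ⟨x * u * x⁻¹, hx ⟨u, hu, rfl⟩, by simp [mul_assoc]⟩

end Cfsg.Agent.S0958
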