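import Cfsg.Statements.S0959
import Cfsg.Agent.Lib.Block.Defect
-- import your own Cfsg.Agent.* helpers here

set_option autoImplicit false
open Cfsg Cfsg.Agent.Lib.Block
open Cfsg.Agent.Lib

namespace Cfsg.Agent.S0959

/-- Let B be a block of the finite group G with defect group D (relative to a maximal ideal M of the algebraic integers containing the prime p), and let P be a p-subgroup. Then there is an element g whose idempotent coefficient for B is a local integer outside the local ideal at M and which has a conjugate centralizing P, if and only if some conjugate of P is contained in D. -/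
theorem result {G : Type*} [Group G] [Finite G] (p : ℕ) [Fact p.Prime] (M : Ideal Cfsg.AlgInt) (hM : Cfsg.IsPModular p M) (B : Set (Cfsg.IrrCharacter G)) (hB : Cfsg.IsPBlock M B) (D : Subgroup G) (hD : Cfsg.IsDefectGroup p M B D) (P : Subgroup G) (hP : IsPGroup p P) : (∃ g : G, Cfsg.MemLocalRing M (Cfsg.blockCoeff B g) ∧ ¬ Cfsg.MemLocalIdeal M (Cfsg.blockCoeff B g) ∧ ∃ c : G, IsConj g c ∧ c ∈ Subgroup.centralizer (P : Set G)) ↔ ∃ x : G, P.map (MulAut.conj x).toMonoidHom ≤ D := by
  haveI := hM.2.1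
  constructor
  · rintro ⟨g, hR, hne, c, hgc, hc⟩
    refine conjLE_defect_of_support hM hB hD ?_ hP hc
    rw [← coeff_eIdem, ← (isClassCoeff_eIdem B).conj hgc, coeff_eIdem]
    exact fun h0 => hne ((redC_eq_zero_iff hR).1 h0)
  · rintro ⟨x, hx⟩
    obtain ⟨hp, -, g, hg, hgD⟩ := IsDefectGroup.props hM hB hD
    refine ⟨g, hg.1, hg.2.1, x⁻¹ * g * x⁻¹⁻¹, isConj_iff.2 ⟨x⁻¹, rfl⟩, ?_⟩
    rw [Subgroup.mem_centralizer_iff]
    intro u hu
    have h1 := Subgroup.mem_centralizer_iff.1 hgD (x * u * x⁻¹) (hx ⟨u, hu, rfl⟩)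
    calc u * (x⁻¹ * g * x⁻¹⁻¹) = x⁻¹ * ((x * u * x⁻¹) * g) * x := by group
      _ = x⁻¹ * (g * (x * u * x⁻¹)) * x := by rw [h1]
      _ = x⁻¹ * g * x⁻¹⁻¹ * u := by group

end Cfsg.Agent.S0959
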