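import Cfsg.Statements.S0963
import Cfsg.Agent.Lib.Block.Normal
import Cfsg.Agent.Lib.Block.Apply
-- import your own Cfsg.Agent.* helpers here

set_option autoImplicit false
open Cfsg

open Cfsg Cfsg.Agent.Lib.Block
open Cfsg.Agent.Lib

namespace Cfsg.Agent.S0963

/-- Let N be a normal subgroup of the finite group G, χ an irreducible character of G and θ an irreducible character of N. Then θ occurs in the restriction of χ to N if and only if, for every n ∈ N, the central character of χ at n (class size in G times χ n over χ 1) equals the sum of θ m / θ 1 over the elements m of N conjugate in G to n. -/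
theorem result {G : Type*} [Group G] [Fintype G] (N : Subgroup G) [N.Normal] [Fintype N] (χ : Cfsg.IrrCharacter G) (θ : Cfsg.IrrCharacter N) : Cfsg.classInner (fun n : N => (χ : G → ℂ) n) (θ : N → ℂ) ≠ 0 ↔ ∀ n : N, Cfsg.centralChar (χ : G → ℂ) (n : G) = Cfsg.inducedCentralChar N (θ : N → ℂ) (n : G) := by
  classical
  refine ⟨fun h n => centralChar_eq_of_constituent N h n, fun h => ?_⟩
  obtain ⟨ψ, hψ⟩ := exists_constituent_restrict N χ
  have hc := isClassCoeff_fromSub_gClosure N ({θ} : Set (IrrCharacter N))
  set a := fromSub N (eIdem (gClosure N ({θ} : Set (IrrCharacter N)))) with ha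
  have key : omega (χ : G → ℂ) a = omega (θ : N → ℂ) (toSub N a) := by
    conv_lhs => rw [eq_sum_classSum hc, omega_sum]
    conv_rhs => rw [eq_sum_classSum hc, Cfsg.Agent.Lib.Block.toSub_sum, omega_sum]
    refine Finset.sum_congr rfl fun C _ => ?_
    rw [omega_smul, toSub_smul, omega_smul]
    by_cases hC : C.out ∈ N
    · rw [omega_classSum_irr, ← inducedCentralChar_eq, ← h ⟨C.out, hC⟩]
    · rw [gClosure_supp N _ _ hC, zero_mul, zero_mul]
  rw [omega_eq_omega_of_constituent N hψ hc (gClosure_supp N _), toSub_fromSub, omega_eIdem,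
    omega_eIdem, if_pos (subset_gClosure N _ (Set.mem_singleton θ))] at key
  split_ifs at key with hmem
  · obtain ⟨g, θ', hθ', he⟩ := hmem
    rw [Set.mem_singleton_iff] at hθ'
    subst hθ'
    rw [← Char.classInner_conjChar N g,
      Char.conjChar_restrict N (Char.isClassFunction_of_isIrr χ.2), he]
    exact hψ
  · exact absurd key zero_ne_one

end Cfsg.Agent.S0963
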