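import Cfsg.Statements.S0965
import Cfsg.Agent.Lib.Block.Normal
import Cfsg.Agent.Lib.Block.Apply
-- import your own Cfsg.Agent.* helpers here

set_option autoImplicit false
open Cfsg

open Cfsg Cfsg.Agent.Lib.Block
open Cfsg.Agent.Lib

namespace Cfsg.Agent.S0965

/-- Let N be a normal subgroup of the finite group G and let B, b be blocks of G and of N relative to a maximal ideal M of the algebraic integers containing the prime p. Then some χ ∈ B has a constituent in b on restriction to N if and only if, for all χ ∈ B, θ ∈ b and n ∈ N, the central character of χ at n is congruent modulo the local ideal at M to the sum of θ m / θ 1 over the elements m ∈ N conjugate in G to n. -/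
theorem result {G : Type*} [Group G] [Fintype G] (p : ℕ) [Fact p.Prime] (M : Ideal Cfsg.AlgInt) (hM : Cfsg.IsPModular p M) (N : Subgroup G) [N.Normal] [Fintype N] (B : Set (Cfsg.IrrCharacter G)) (hB : Cfsg.IsPBlock M B) (b : Set (Cfsg.IrrCharacter N)) (hb : Cfsg.IsPBlock M b) : (∃ χ ∈ B, ∃ θ ∈ b, Cfsg.classInner (fun n : N => (χ : G → ℂ) n) (θ : N → ℂ) ≠ 0) ↔ ∀ χ ∈ B, ∀ θ ∈ b, ∀ n : N, Cfsg.MemLocalIdeal M (Cfsg.centralChar (χ : G → ℂ) (n : G) - Cfsg.inducedCentralChar N (θ : N → ℂ) (n : G)) := by
  haveI := hM.2.1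
  classical
  constructor
  · rintro ⟨χ₀, hχ₀, θ₀, hθ₀, hcon⟩ χ hχ θ hθ n
    rw [← redC_eq_iff (centralChar_mem_locRing χ _) (inducedCentralChar_mem N θ _),
      sameBlock_iff.1 (sameBlock_of_mem hB hχ hχ₀) _, centralChar_eq_of_constituent N hcon,
      inducedCentralChar_eq, inducedCentralChar_eq]
    exact redC_omega_eq_of_sameBlock (sameBlock_of_mem hb hθ₀ hθ)
      (isClassCoeff_toSub (isClassCoeff_classSum _)) (intR_toSub (intR_classSum _))
  · intro h
    obtain ⟨χ, hχ⟩ := isPBlock_nonempty hB
    obtain ⟨θ, hθ⟩ := isPBlock_nonempty hb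
    obtain ⟨ψ, hψ⟩ := exists_constituent_restrict N χ
    have hc := isClassCoeff_fromSub_gClosure N b
    have hR := intR_fromSub_gClosure N hb
    set a := fromSub N (eIdem (gClosure N b)) with ha
    have key : redC M (omega (θ : N → ℂ) (toSub N a)) = redC M (omega (χ : G → ℂ) a) := by
      conv_lhs => rw [eq_sum_classSum hc, Cfsg.Agent.Lib.Block.toSub_sum, omega_sum]
      rw [redC_omega_eq_sum χ hc hR, redC_sum]
      · refine Finset.sum_congr rfl fun C _ => ?_
        rw [toSub_smul, omega_smul, ← inducedCentralChar_eq,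
          redC_mul (hR _) (inducedCentralChar_mem N θ _)]
        by_cases hC : C.out ∈ N
        · rw [(redC_eq_iff (centralChar_mem_locRing χ _) (inducedCentralChar_mem N θ _)).2
            (h χ hχ θ hθ ⟨C.out, hC⟩)]
        · rw [ha, gClosure_supp N _ _ hC, redC_zero, zero_mul, zero_mul]
      · intro C _
        rw [toSub_smul, omega_smul, ← inducedCentralChar_eq]
        exact mul_mem (hR _) (inducedCentralChar_mem N θ _)
    rw [omega_eq_omega_of_constituent N hψ hc (gClosure_supp N _), toSub_fromSub, omega_eIdem,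
      omega_eIdem, if_pos (subset_gClosure N _ hθ), redC_one] at key
    have hmem : ψ ∈ gClosure N b := by
      by_contra hn
      rw [if_neg hn, redC_zero] at key
      exact one_ne_zero key
    obtain ⟨g, θ₁, hθ₁, he⟩ := hmem
    refine ⟨χ, hχ, θ₁, hθ₁, ?_⟩
    rw [← Char.classInner_conjChar N g,
      Char.conjChar_restrict N (Char.isClassFunction_of_isIrr χ.2), he]
    exact hψ

end Cfsg.Agent.S0965
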