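import Cfsg.Statements.S0966
import Cfsg.Agent.Lib.Block.Normal
import Cfsg.Agent.Lib.Block.Apply
-- import your own Cfsg.Agent.* helpers here

set_option autoImplicit false
open Cfsg

open Cfsg Cfsg.Agent.Lib.Block
open Cfsg.Agent.Lib

namespace Cfsg.Agent.S0966

/-- Let N be a normal subgroup of p-power index in the finite group G and b a block of N relative to a maximal ideal M of the algebraic integers containing p. Then there is exactly one block B of G containing a character whose restriction to N has a constituent in b. -/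
theorem result {G : Type*} [Group G] [Fintype G] (p : ℕ) [Fact p.Prime] (M : Ideal Cfsg.AlgInt) (hM : Cfsg.IsPModular p M) (N : Subgroup G) [N.Normal] [Fintype N] (hidx : ∃ k : ℕ, N.index = p ^ k) (b : Set (Cfsg.IrrCharacter N)) (hb : Cfsg.IsPBlock M b) : ∃! B : Set (Cfsg.IrrCharacter G), Cfsg.IsPBlock M B ∧ ∃ χ ∈ B, ∃ θ ∈ b, Cfsg.classInner (fun n : N => (χ : G → ℂ) n) (θ : N → ℂ) ≠ 0 := by
  haveI := hM.2.1
  obtain ⟨k, hk⟩ := hidx
  obtain ⟨θ, hθ⟩ := isPBlock_nonempty hb
  obtain ⟨χ, hχ⟩ := Char.exists_irr_over N θ.2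
  refine ⟨blockOf M (χ : G → ℂ),
    ⟨isPBlock_blockOf χ, χ, mem_blockOf_self χ, θ, hθ, hχ⟩, ?_⟩
  rintro B' ⟨hB', χ', hχ', θ', hθ', hcon⟩
  exact eq_of_mem_of_mem hB' (isPBlock_blockOf χ) hχ'
    (sameBlock_of_constituent N hM hk hχ hcon (sameBlock_of_mem hb hθ hθ'))

end Cfsg.Agent.S0966
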