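import Cfsg.Statements.S0967
import Cfsg.Agent.Lib.Block.Normal
import Cfsg.Agent.Lib.Block.Apply
-- import your own Cfsg.Agent.* helpers here

set_option autoImplicit false
open Cfsg

open Cfsg Cfsg.Agent.Lib.Block
open Cfsg.Agent.Lib

namespace Cfsg.Agent.S0967

/-- Let N be a normal subgroup of the finite group G of order prime to p and fix a maximal ideal M of the algebraic integers containing p. If χ is an irreducible character of G ⧸ N and ψ lies in the block of its inflation χ ∘ (quotient map), then ψ is itself inflated from an irreducible character ψ' of G ⧸ N lying in the block of χ. (Over a normal p'-subgroup, blocks of the quotient are whole blocks of G.) -/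
theorem result {G : Type*} [Group G] [Finite G] (p : ℕ) [Fact p.Prime] (M : Ideal Cfsg.AlgInt) (hM : Cfsg.IsPModular p M) (N : Subgroup G) [N.Normal] (hN : ¬ p ∣ Nat.card N) (χ : Cfsg.IrrCharacter (G ⧸ N)) (ψ : Cfsg.IrrCharacter G) (hψ : ψ ∈ Cfsg.blockOf M ((χ : G ⧸ N → ℂ) ∘ QuotientGroup.mk)) : ∃ ψ' : Cfsg.IrrCharacter (G ⧸ N), (ψ : G → ℂ) = (ψ' : G ⧸ N → ℂ) ∘ QuotientGroup.mk ∧ Cfsg.SameBlock M (χ : G ⧸ N → ℂ) (ψ' : G ⧸ N → ℂ) := by
  haveI := hM.2.1
  classical
  haveI := Fintype.ofFinite G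
  haveI := Fintype.ofFinite (G ⧸ N)
  let χ' : IrrCharacter G := ⟨(χ : G ⧸ N → ℂ) ∘ QuotientGroup.mk' N,
    Char.isIrrCharacter_comp χ.2 _ (QuotientGroup.mk'_surjective N)⟩
  have hs : SameBlock M (χ' : G → ℂ) (ψ : G → ℂ) := hψ
  have htriv : ∀ n ∈ N, (χ' : G → ℂ) n = (χ' : G → ℂ) 1 := fun n hn => by
    simp [χ', (QuotientGroup.eq_one_iff n).2 hn]
  have hψN : ∀ n ∈ N, (ψ : G → ℂ) n = (ψ : G → ℂ) 1 := fun n hn =>
    trivial_on_of_sameBlock N hM hN hs htriv hn
  obtain ⟨ψ₀, hψ₀, he⟩ := Char.exists_irr_deflation ψ.2 N hψN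
  refine ⟨⟨ψ₀, hψ₀⟩, funext fun g => (he g).symm, sameBlock_iff.2 fun q => ?_⟩
  set a : MonoidAlgebra ℂ G :=
    ofFun fun x => (Nat.card N : ℂ)⁻¹ * (classSum ℂ q).coeff (QuotientGroup.mk x : G ⧸ N) with ha
  have hc : IsClassCoeff a := fun u x => by
    simp only [ha, coeff_ofFun, QuotientGroup.mk_mul, QuotientGroup.mk_inv]
    rw [isClassCoeff_classSum q (QuotientGroup.mk u) (QuotientGroup.mk x)]
  have hR : IntR M a := fun x => by
    simp only [ha, coeff_ofFun]
    exact mul_mem (inv_natCast_mem_locRing hM hN) (intR_classSum q _)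
  have key : ∀ (η : IrrCharacter (G ⧸ N)) (η' : IrrCharacter G),
      (∀ g : G, (η' : G → ℂ) g = (η : G ⧸ N → ℂ) (QuotientGroup.mk g)) →
      omega (η' : G → ℂ) a = centralChar (η : G ⧸ N → ℂ) q := by
    intro η η' h
    rw [← omega_classSum_irr, omega_eq_sum, omega_eq_sum, h 1, QuotientGroup.mk_one]
    congr 1
    rw [← Finset.sum_fiberwise Finset.univ (fun x : G => (QuotientGroup.mk x : G ⧸ N))]
    refine Finset.sum_congr rfl fun r _ => ?_
    rw [Finset.sum_congr rfl (g := fun _ => (Nat.card N : ℂ)⁻¹ *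
      ((classSum ℂ q).coeff r * (η : G ⧸ N → ℂ) r)) (fun x hx => by
        rw [h x, ha, coeff_ofFun, (Finset.mem_filter.1 hx).2, mul_assoc]),
      Finset.sum_const, nsmul_eq_mul, ← mul_assoc]
    have hcard : (Finset.univ.filter fun x : G => (QuotientGroup.mk x : G ⧸ N) = r).card =
        Nat.card N := by
      obtain ⟨y, rfl⟩ := QuotientGroup.mk_surjective r
      rw [← Fintype.card_subtype, ← Nat.card_eq_fintype_card]
      refine Nat.card_congr (Equiv.subtypeEquiv (Equiv.mulLeft y⁻¹) fun x => ?_)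
      rw [Equiv.coe_mulLeft, eq_comm, QuotientGroup.eq]
    rw [hcard, mul_inv_cancel₀ (Char.card_ne_zero_complex N), one_mul]
  rw [← key χ χ' (fun g => rfl), ← key ⟨ψ₀, hψ₀⟩ ψ (fun g => (he g).symm)]
  exact redC_omega_eq_of_sameBlock hs hc hR

end Cfsg.Agent.S0967
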