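import Cfsg.Statements.S0970
import Cfsg.Agent.S4671
import Cfsg.Agent.Lib.Block.Covering
-- import your own Cfsg.Agent.* helpers here

set_option autoImplicit false
open Cfsg

open Cfsg Cfsg.Agent.Lib.Block
open Cfsg.Agent.Lib

namespace Cfsg.Agent.S0970

/-- Let N be a normal subgroup of the finite group G and fix a maximal ideal M of the algebraic integers containing the prime p. Let b be a block of N that is invariant under conjugation by G, and B a block of G covering b (some χ ∈ B has a constituent in b) whose defect is at least that of every block covering b. If P is a defect group of B, then p does not divide the index of P ⊔ N, the subgroup P ∩ N of N is a defect group of b, and the defect of B equals the defect of b plus the exponent of p in the index of N. -/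
theorem result {G : Type*} [Group G] [Fintype G] (p : ℕ) [Fact p.Prime] (M : Ideal Cfsg.AlgInt) (hM : Cfsg.IsPModular p M) (N : Subgroup G) [hN : N.Normal] [Fintype N] (b : Set (Cfsg.IrrCharacter N)) (hb : Cfsg.IsPBlock M b) (hinv : ∀ g : G, ∀ θ ∈ b, ∀ θ' : Cfsg.IrrCharacter N, (∀ n : N, (θ' : N → ℂ) n = (θ : N → ℂ) ⟨g * n * g⁻¹, hN.conj_mem n n.2 g⟩) → θ' ∈ b) (B : Set (Cfsg.IrrCharacter G)) (hB : Cfsg.IsPBlock M B) (hcov : ∃ χ ∈ B, ∃ θ ∈ b, Cfsg.classInner (fun n : N => (χ : G → ℂ) n) (θ : N → ℂ) ≠ 0) (hmax : ∀ B' : Set (Cfsg.IrrCharacter G), Cfsg.IsPBlock M B' → (∃ χ ∈ B', ∃ θ ∈ b, Cfsg.classInner (fun n : N => (χ : G → ℂ) n) (θ : N → ℂ) ≠ 0) → Cfsg.blockDefect p B' ≤ Cfsg.blockDefect p B) (P : Subgroup G) (hP : Cfsg.IsDefectGroup p M B P) : ¬ p ∣ (P ⊔ N).index ∧ Cfsg.IsDefectGroup p M b ((P ⊓ N).subgroupOf N) ∧ Cfsg.blockDefect p B = Cfsg.blockDefect p b + N.index.factorization p := by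
  haveI := hM.2.1.isPrime
  classical
  haveI : Fact p.Prime := inferInstance
  have hinv' : ∀ g : G, ∀ θ ∈ b, Lib.Block.conjIrr N g θ ∈ b :=
    fun g θ hθ => Lib.Block.conjIrr_mem_of_inv N hinv g hθ
  obtain ⟨c, hc, -, hccov, hcd⟩ := Cfsg.Agent.S4671.result p M hM N B hB P hP
  have hbz := (Lib.BrauerPairs.covers_iff N hM hB hb).1 hcov
  obtain ⟨g, hg⟩ := Lib.Block.exists_conj_of_cover N hM hB hb hc hbz
    ((Lib.BrauerPairs.covers_iff N hM hB hc).1 hccov)
  have hcb : c = b := by
    rw [hg]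
    exact Lib.BrauerPairs.mapBlock_eq_of_stabilizes N hb (Lib.Block.stabilizesBlock_of_inv N hinv' g)
  rw [hcb] at hcd
  obtain ⟨B₁, hB₁, hcov₁, hd₁⟩ := Lib.Block.exists_defect_ge N hM hb hinv'
  have hge := hd₁.trans (hmax B₁ hB₁ ((Lib.BrauerPairs.covers_iff N hM hB₁ hb).2 hcov₁))
  obtain ⟨hPp, hPc, -⟩ := Lib.Block.IsDefectGroup.props hM hB hP
  obtain ⟨-, hbc, -⟩ := Lib.Block.IsDefectGroup.props hM hb hcd
  rw [Nat.card_congr (Subgroup.subgroupOfEquivOfLe (inf_le_right : P ⊓ N ≤ N)).toEquiv] at hbc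
  have hmul := congrArg (fun k => Nat.factorization k p) (Lib.Coprime.card_sup_mul_card_inf N P)
  simp only [hPc, hbc] at hmul
  have hp : p.Prime := Fact.out
  simp only [Nat.factorization_mul Nat.card_pos.ne' (pow_ne_zero _ hp.ne_zero),
    Nat.factorization_mul (pow_ne_zero _ hp.ne_zero) (Nat.card_pos (α := N)).ne', Finsupp.add_apply,
    Nat.factorization_pow, Finsupp.smul_apply, smul_eq_mul, hp.factorization_self, mul_one] at hmul
  have hvG : ∀ H : Subgroup G, (Nat.card G).factorization p =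
      H.index.factorization p + (Nat.card H).factorization p := fun H => by
    rw [← Subgroup.index_mul_card H,
      Nat.factorization_mul Subgroup.index_ne_zero_of_finite Nat.card_pos.ne', Finsupp.add_apply]
  have h1 := hvG (P ⊔ N)
  have h2 := hvG N
  refine ⟨fun hdvd => ?_, hcd, by omega⟩
  have := ((Fact.out : p.Prime).dvd_iff_one_le_factorization Subgroup.index_ne_zero_of_finite).1 hdvd
  omega

end Cfsg.Agent.S0970
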