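import Cfsg.Statements.S0973
import Cfsg.Agent.Lib.Block.LocalBlocks
-- import your own Cfsg.Agent.* helpers here

set_option autoImplicit false
open Cfsg

open Cfsg Cfsg.Agent.Lib.Block
open Cfsg.Agent.Lib

namespace Cfsg.Agent.S0973

/-- Let B be a block of the finite group G with defect group P (relative to a maximal ideal M of the algebraic integers containing p), and let L = P ⊔ C_G(P). Then (i) some block b of L with defect group P (viewed in L) induces B, and (ii) if b and b' are blocks of L both inducing B, there is n ∈ N_G(P) carrying b to b': for every θ ∈ b there is θ' ∈ b' with θ' x = θ (n x n⁻¹) for all x ∈ L. -/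
theorem result {G : Type*} [Group G] [Finite G] (p : ℕ) [Fact p.Prime] (M : Ideal Cfsg.AlgInt) (hM : Cfsg.IsPModular p M) (B : Set (Cfsg.IrrCharacter G)) (hB : Cfsg.IsPBlock M B) (P : Subgroup G) (hP : Cfsg.IsDefectGroup p M B P) : (∃ b : Set (Cfsg.IrrCharacter ↥(P ⊔ Subgroup.centralizer (P : Set G))), Cfsg.IsDefectGroup p M b (P.subgroupOf (P ⊔ Subgroup.centralizer (P : Set G))) ∧ Cfsg.IsInducedBlock M (P ⊔ Subgroup.centralizer (P : Set G)) b B) ∧ ∀ b b' : Set (Cfsg.IrrCharacter ↥(P ⊔ Subgroup.centralizer (P : Set G))), Cfsg.IsInducedBlock M (P ⊔ Subgroup.centralizer (P : Set G)) b B → Cfsg.IsInducedBlock M (P ⊔ Subgroup.centralizer (P : Set G)) b' B → ∃ n ∈ Subgroup.normalizer (P : Set G), ∀ θ ∈ b, ∃ θ' ∈ b', ∀ x : ↥(P ⊔ Subgroup.centralizer (P : Set G)), ∀ hx : n * (x : G) * n⁻¹ ∈ P ⊔ Subgroup.centralizer (P : Set G), (θ' : ↥(P ⊔ Subgroup.centralizer (P : Set G)) → ℂ) x = (θ : ↥(P ⊔ Subgroup.centralizer (P : Set G)) → ℂ) ⟨n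 * (x : G) * n⁻¹, hx⟩ := by
  haveI := hM.2.1
  haveI : Fact p.Prime := ⟨hM.1⟩
  obtain ⟨hPp, -, -⟩ := IsDefectGroup.props hM hB hP
  have hLN : P ⊔ Subgroup.centralizer (P : Set G) ≤ Subgroup.normalizer (P : Set G) :=
    sup_le Subgroup.le_normalizer (Subgroup.centralizer_le_normalizer _)
  refine ⟨?_, fun b b' hb hb' => ?_⟩
  · obtain ⟨b, hb⟩ := exists_inducing_block hM hPp le_sup_left le_sup_right hLN hB hP le_rfl
    exact ⟨b, isDefectGroup_of_inducing hM le_sup_left hLN hb hP, hb⟩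
  · obtain ⟨n, hn, rfl⟩ := exists_conj_of_induced_local hM hP hb hb'
    refine ⟨n⁻¹, inv_mem hn, fun θ hθ =>
      ⟨BrauerPairs.mapIrr (BrauerPairs.normEquiv (normalizer_le_normalizer_sup P hn)) θ, ⟨θ, hθ, rfl⟩,
        fun x hx => ?_⟩⟩
    show (θ : ↥(P ⊔ Subgroup.centralizer (P : Set G)) → ℂ) _ = _
    refine congrArg _ (Subtype.ext ?_)
    show n⁻¹ * (x : G) * n = n⁻¹ * (x : G) * n⁻¹⁻¹
    rw [inv_inv]

end Cfsg.Agent.S0973
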