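import Cfsg.Statements.S0986
import Mathlib

set_option autoImplicit false
open Cfsg

namespace Cfsg.Agent.S0986

/-- Let P and Q be distinct Sylow p-subgroups of a finite group G chosen so that the order of P ∩ Q is as large as possible among intersections of two distinct Sylow p-subgroups, and let N be the normalizer of P ∩ Q. Then N has more than one Sylow p-subgroup, any two distinct Sylow p-subgroups of N intersect exactly in P ∩ Q, and each Sylow p-subgroup of N lies in exactly one Sylow p-subgroup of G. -/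
theorem result {G : Type*} [Group G] [Finite G] (p : ℕ) [Fact p.Prime] (P Q : Sylow p G) (hPQ : P ≠ Q) (hmax : ∀ P' Q' : Sylow p G, P' ≠ Q' → Nat.card ↥((P' : Subgroup G) ⊓ (Q' : Subgroup G)) ≤ Nat.card ↥((P : Subgroup G) ⊓ (Q : Subgroup G))) : 1 < Nat.card (Sylow p ↥(Subgroup.normalizer (((P : Subgroup G) ⊓ (Q : Subgroup G) : Subgroup G) : Set G))) ∧ (∀ S T : Sylow p ↥(Subgroup.normalizer (((P : Subgroup G) ⊓ (Q : Subgroup G) : Subgroup G) : Set G)), S ≠ T → (S : Subgroup _) ⊓ (T : Subgroup _) = ((P : Subgroup G) ⊓ (Q : Subgroup G)).subgroupOf (Subgroup.normalizer (((P : Subgroup G) ⊓ (Q : Subgroup G) : Subgroup G) : Set G))) ∧ ∀ S : Sylow p ↥(Subgroup.normalizer (((P : Subgroup G) ⊓ (Q : Subgroup G) : Subgroup G) : Set G)), ∃! T : Sylow p G, (S : Subgroup _).map (Subgroup.normalizer (((P : Subgroup G) ⊓ (Q : Subgroup G) : Subgroup G) : Set G)).subtype ≤ (T : Subgroup G) := by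
  set D := (P : Subgroup G) ⊓ (Q : Subgroup G) with hD
  set N := Subgroup.normalizer (D : Set G) with hN
  have hDN : D ≤ N := Subgroup.le_normalizer
  have uniq : ∀ (T T' : Sylow p G) (H : Subgroup G), Nat.card D < Nat.card H → H ≤ (T : Subgroup G) →
      H ≤ (T' : Subgroup G) → T = T' := by
    intro T T' H hlt h1 h2
    by_contra hne
    have := Subgroup.card_le_of_le (le_inf h1 h2)
    have := hmax T T' hne
    omega
  have hgrow : ∀ R : Sylow p G, D ≤ (R : Subgroup G) → D ≠ R → Nat.card D < Nat.card ↥((R : Subgroup G) ⊓ N) := by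
    intro R hDR hne
    haveI : Group.IsNilpotent (R : Subgroup G) := R.isPGroup'.isNilpotent
    have hlt : D.subgroupOf (R : Subgroup G) < ⊤ := by
      rw [lt_top_iff_ne_top, Ne, Subgroup.subgroupOf_eq_top]
      exact fun h => hne (le_antisymm hDR h)
    have h1 := Group.normalizerCondition_of_isNilpotent (G := (R : Subgroup G)) _ hlt
    have hle : D ≤ (R : Subgroup G) ⊓ N := le_inf hDR hDN
    refine lt_of_le_of_ne (Subgroup.card_le_of_le hle) fun e => ?_
    have e' := Subgroup.eq_of_le_of_card_ge hle e.ge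
    obtain ⟨x, hx, hxD⟩ := SetLike.exists_of_lt h1
    apply hxD
    rw [Subgroup.mem_subgroupOf, e']
    refine ⟨x.2, ?_⟩
    show (x : G) ∈ Subgroup.normalizer (D : Set G); rw [Subgroup.mem_normalizer_iff]
    intro z
    rw [Subgroup.mem_normalizer_iff] at hx
    constructor
    · intro hz
      exact (hx ⟨z, hDR hz⟩).1 hz
    · intro hz
      have hzR : z ∈ (R : Subgroup G) := by
        simpa [mul_assoc] using mul_mem (mul_mem (inv_mem x.2) (hDR hz)) x.2
      exact (hx ⟨z, hzR⟩).2 hz
  have hPD : D ≠ P := by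
    intro e
    have hle : (P : Subgroup G) ≤ Q := e ▸ inf_le_right
    exact hPQ (Sylow.ext (P.is_maximal' Q.isPGroup' hle).symm)
  have hQD : D ≠ Q := by
    intro e
    have hle : (Q : Subgroup G) ≤ P := e ▸ inf_le_left
    exact hPQ (Sylow.ext (Q.is_maximal' P.isPGroup' hle))
  have hgP := hgrow P inf_le_left hPD
  have hgQ := hgrow Q inf_le_right hQD
  have hmapcard : ∀ S : Subgroup N, Nat.card (S.map N.subtype) = Nat.card S := fun S =>
    (Nat.card_congr (S.equivMapOfInjective _ N.subtype_injective).toEquiv).symm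
  have hsub : ∀ R : Sylow p G, ∃ S : Sylow p N, ((R : Subgroup G) ⊓ N) ≤ (S : Subgroup N).map N.subtype := by
    intro R
    obtain ⟨S, hS⟩ := ((R.isPGroup'.to_le (inf_le_left : (R : Subgroup G) ⊓ N ≤ R)).comap_subtype (K := N)).exists_le_sylow
    refine ⟨S, fun x hx => ⟨⟨x, hx.2⟩, hS ?_, rfl⟩⟩
    exact hx
  obtain ⟨S₁, hS₁⟩ := hsub P
  obtain ⟨S₂, hS₂⟩ := hsub Q
  have hbig : ∀ S : Sylow p N, Nat.card D < Nat.card ((S : Subgroup N).map N.subtype) := by
    intro S
    refine lt_of_lt_of_le hgP ((Subgroup.card_le_of_le hS₁).trans (le_of_eq ?_))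
    rw [hmapcard, hmapcard, S₁.card_eq_multiplicity, S.card_eq_multiplicity]
  have hover : ∀ S : Sylow p N, ∃! T : Sylow p G, (S : Subgroup N).map N.subtype ≤ (T : Subgroup G) := by
    intro S
    obtain ⟨T, hT⟩ := (S.isPGroup'.map N.subtype).exists_le_sylow
    exact ⟨T, hT, fun T' hT' => uniq T' T _ (hbig S) hT' hT⟩
  refine ⟨?_, fun S T hne => ?_, hover⟩
  · have hne : S₁ ≠ S₂ := by
      rintro rfl
      obtain ⟨T, hT, -⟩ := hover S₁
      exact hPQ ((uniq P T _ hgP inf_le_left (hS₁.trans hT)).trans (uniq Q T _ hgQ inf_le_left (hS₂.trans hT)).symm)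
    haveI : Nontrivial (Sylow p N) := ⟨⟨S₁, S₂, hne⟩⟩
    exact Finite.one_lt_card
  · haveI : (D.subgroupOf N).Normal := by rw [hN]; infer_instance
    have hDp : IsPGroup p (D.subgroupOf N) :=
      (P.isPGroup'.to_le (inf_le_left : D ≤ (P : Subgroup G))).comap_subtype
    have hle : D.subgroupOf N ≤ (S : Subgroup N) ⊓ (T : Subgroup N) :=
      le_inf (hDp.le_sylow_of_normal S) (hDp.le_sylow_of_normal T)
    refine (Subgroup.eq_of_le_of_card_ge hle (not_lt.1 fun hlt => hne ?_)).symm
    obtain ⟨U, hU, -⟩ := hover S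
    obtain ⟨V, hV, -⟩ := hover T
    have hlt' : Nat.card D < Nat.card (((S : Subgroup N) ⊓ (T : Subgroup N)).map N.subtype) := by
      rw [hmapcard]; rwa [Nat.card_congr (Subgroup.subgroupOfEquivOfLe hDN).toEquiv] at hlt
    have hUV := uniq U V _ hlt' ((Subgroup.map_mono inf_le_left).trans hU) ((Subgroup.map_mono inf_le_right).trans hV)
    subst hUV
    have hK : IsPGroup p ((U : Subgroup G).subgroupOf N) := U.isPGroup'.comap_subtype
    have h1 := S.is_maximal' hK (Subgroup.map_le_iff_le_comap.1 hU)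
    have h2 := T.is_maximal' hK (Subgroup.map_le_iff_le_comap.1 hV)
    exact Sylow.ext (h1.symm.trans h2)

end Cfsg.Agent.S0986
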