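import Cfsg.Statements.S0987
import Cfsg.Agent.Lib.SmallSimple.Basic

set_option autoImplicit false
open Cfsg

namespace Cfsg.Agent.S0987

/-- If a finite group has order pqr for primes p < q < r, then its Sylow r-subgroups are normal. -/
theorem result {G : Type*} [Group G] [Finite G] (p q r : ℕ) (hp : p.Prime) (hq : q.Prime) [Fact r.Prime] (hpq : p < q) (hqr : q < r) (hG : Nat.card G = p * q * r) (R : Sylow r G) : (R : Subgroup G).Normal := by
  classical
  have : Fact q.Prime := ⟨hq⟩
  have hr : r.Prime := Fact.out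
  have hp2 := hp.two_le
  have hq2 := hq.two_le
  have hR : Nat.card (R : Subgroup G) = r := by
    have := Lib.SmallSimple.card_sylow_subgroup R (k := 1) (m := p * q) (by rw [hG, pow_one]; ring)
      (by rw [hr.dvd_mul, Nat.prime_dvd_prime_iff_eq hr hp, Nat.prime_dvd_prime_iff_eq hr hq]; omega)
    rw [this, pow_one]
  rw [← Subgroup.normalizer_eq_top_iff]
  by_contra hne
  set N := Subgroup.normalizer ((R : Subgroup G) : Set G) with hN
  have hidx := (R : Subgroup G).card_mul_index
  rw [hR, hG] at hidx
  have hRi : (R : Subgroup G).index = p * q := Nat.eq_of_mul_eq_mul_left hr.pos (by rw [hidx]; ring)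
  have hnd : Nat.card (Sylow r G) ∣ p * q := hRi ▸ R.card_dvd_index
  have hmod : Nat.card (Sylow r G) % r = 1 := by
    have := card_sylow_modEq_one r G
    rwa [Nat.ModEq, Nat.one_mod_eq_one.2 hr.ne_one] at this
  have hn1 : Nat.card (Sylow r G) ≠ 1 := fun h => hne (Subgroup.index_eq_one.1
    ((Lib.SmallSimple.card_sylow_eq_index R).symm.trans h))
  have hnpq : Nat.card (Sylow r G) = p * q := by
    obtain ⟨a, b, ha, hb, hab⟩ := Nat.dvd_mul.1 hnd
    rcases (Nat.dvd_prime hp).1 ha with rfl | rfl <;> rcases (Nat.dvd_prime hq).1 hb with rfl | rfl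
    · exact absurd hab.symm (by simpa using hn1)
    · rw [← hab, one_mul, Nat.mod_eq_of_lt hqr] at hmod; omega
    · rw [← hab, mul_one, Nat.mod_eq_of_lt (hpq.trans hqr)] at hmod; omega
    · exact hab.symm
  have hNR : (R : Subgroup G) = N := by
    refine Subgroup.eq_of_le_of_card_ge Subgroup.le_normalizer (le_of_eq ?_)
    have h1 := N.card_mul_index
    rw [← Lib.SmallSimple.card_sylow_eq_index R, hnpq, hG] at h1
    rw [hR]
    exact Nat.eq_of_mul_eq_mul_right (Nat.mul_pos hp.pos hq.pos) (h1.trans (by ring))
  have hab : IsMulCommutative (R : Subgroup G) := by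
    have := isCyclic_of_prime_card hR
    infer_instance
  have hC : N ≤ Subgroup.centralizer ((R : Subgroup G) : Set G) := by
    rw [← hNR]; exact Subgroup.le_centralizer _
  have hK := MonoidHom.ker_transferSylow_isComplement' R hC
  set K := (MonoidHom.transferSylow R hC).ker with hKdef
  have hKc : Nat.card K = p * q := by rw [← hK.index_eq_card, hRi]
  obtain ⟨Q⟩ : Nonempty (Sylow q K) := inferInstance
  have hQ : Nat.card (Q : Subgroup K) = q := by
    have := Lib.SmallSimple.card_sylow_subgroup Q (k := 1) (m := p) (by rw [hKc, pow_one, mul_comm])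
      (fun h => absurd (Nat.le_of_dvd hp.pos h) (by omega))
    rw [this, pow_one]
  have hQn : (Q : Subgroup K).Normal := by
    rw [← Subgroup.normalizer_eq_top_iff, ← Subgroup.index_eq_one,
      ← Lib.SmallSimple.card_sylow_eq_index Q]
    have hQi := (Q : Subgroup K).card_mul_index
    rw [hQ, hKc, mul_comm p q] at hQi
    have hd : Nat.card (Sylow q K) ∣ p := (Nat.eq_of_mul_eq_mul_left hq.pos hQi) ▸ Q.card_dvd_index
    rcases (Nat.dvd_prime hp).1 hd with h | h
    · exact h
    · have := card_sylow_modEq_one q K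
      rw [h, Nat.ModEq, Nat.mod_eq_of_lt hpq, Nat.one_mod_eq_one.2 hq.ne_one] at this
      omega
  have : (Q : Subgroup K).Characteristic := Q.characteristic_of_normal hQn
  set M := (Q : Subgroup K).map K.subtype with hMdef
  have hM : M.Normal := inferInstance
  have hMc : Nat.card M = q := by
    rw [hMdef, Subgroup.card_map_of_injective K.subtype_injective, hQ]
  have hcy : IsCyclic M := isCyclic_of_prime_card (p := q) hMc
  -- R centralises M
  let φ : (R : Subgroup G) →* MulAut M := MulAut.conjNormal.comp (R : Subgroup G).subtype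
  have hφ : ∀ x, φ x = 1 := by
    intro x
    have h1 : orderOf (φ x) ∣ Nat.card (R : Subgroup G) :=
      (orderOf_map_dvd φ x).trans (orderOf_dvd_natCard x)
    have h2 : orderOf (φ x) ∣ Nat.card (MulAut M) := orderOf_dvd_natCard _
    rw [hR] at h1
    rw [hcy.card_mulAut, hMc, Nat.totient_prime hq] at h2
    have hco : Nat.Coprime r (q - 1) := hr.coprime_iff_not_dvd.2 fun h =>
      absurd (Nat.le_of_dvd (by omega) h) (by omega)
    exact orderOf_eq_one_iff.1 (Nat.eq_one_of_dvd_coprimes hco h1 h2)
  have hMN : M ≤ N := by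
    intro m hm
    refine Subgroup.centralizer_le_normalizer _ (Subgroup.mem_centralizer_iff.2 fun x hx => ?_)
    have := congrArg (fun a : MulAut M => ((a ⟨m, hm⟩ : M) : G)) (hφ ⟨x, hx⟩)
    simp only [φ, MonoidHom.comp_apply, Subgroup.subtype_apply, MulAut.conjNormal_apply,
      MulAut.one_apply] at this
    calc x * m = x * m * x⁻¹ * x := by group
      _ = m * x := by rw [this]
  have := Subgroup.card_dvd_of_le (hMN.trans hNR.ge)
  rw [hMc, hR, Nat.prime_dvd_prime_iff_eq hq hr] at this
  omega

end Cfsg.Agent.S0987
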