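import Cfsg.Statements.S0988
import Cfsg.Agent.Lib.SmallSimple.Basic
import Cfsg.Agent.S0144
import Cfsg.Agent.S0073

set_option autoImplicit false
open Cfsg

namespace Cfsg.Agent.S0988

theorem aux {G : Type*} [Group G] [Finite G] [IsSimpleGroup G] (hna : ¬ IsMulCommutative G) (r : ℕ)
    (hr : r.Prime) (h3 : 3 < r) (hG : Nat.card G = 12 * r) : r = 5 := by
  have := Fact.mk hr
  obtain ⟨h1, hmod, -⟩ := Lib.SmallSimple.card_sylow_facts (p := r) hna (hG ▸ dvd_mul_left r 12)
  obtain ⟨P⟩ : Nonempty (Sylow r G) := inferInstance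
  have hnd : ¬ r ∣ 12 := by
    intro h
    have h6 : r ∣ 2 * 6 := h
    rcases hr.dvd_mul.1 h6 with h | h
    · have := Nat.le_of_dvd (by norm_num) h; omega
    · have hle := Nat.le_of_dvd (by norm_num) h
      interval_cases r <;> first | omega | norm_num at hr
  have hP : Nat.card (P : Subgroup G) = r := by
    have := Lib.SmallSimple.card_sylow_subgroup P (k := 1) (m := 12) (by rw [hG, pow_one, mul_comm]) hnd
    simpa using this
  have hidx : (P : Subgroup G).index = 12 := by
    have h := (P : Subgroup G).card_mul_index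
    rw [hP, hG, mul_comm 12 r] at h
    exact Nat.eq_of_mul_eq_mul_left hr.pos h
  have hd : Nat.card (Sylow r G) ∣ 12 := hidx ▸ P.card_dvd_index
  have hne : Nat.card (Sylow r G) ≠ 12 := hidx ▸
    Lib.SmallSimple.card_sylow_ne_index hna P (hG ▸ dvd_mul_left r 12)
      (by have := isCyclic_of_prime_card hP; exact ⟨⟨fun a b => (IsCyclic.commGroup).mul_comm a b⟩⟩)
  generalize Nat.card (Sylow r G) = n at *
  have hle : n ≤ 12 := Nat.le_of_dvd (by norm_num) hd
  have hdr : r ∣ n - 1 := Nat.dvd_of_mod_eq_zero (Nat.sub_mod_eq_zero_of_mod_eq (by rw [hmod, Nat.one_mod_eq_one.2 hr.ne_one]))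
  have hrle : r ≤ n - 1 := Nat.le_of_dvd (by omega) hdr
  interval_cases n <;> interval_cases r <;> first | omega | norm_num at hr


/-- If a finite simple group has order p^2 * q * r with p, q and r prime, then its order is 60. -/
theorem result {G : Type*} [Group G] [Finite G] [IsSimpleGroup G] (p q r : ℕ) (hp : p.Prime) (hq : q.Prime) (hr : r.Prime) (hG : Nat.card G = p ^ 2 * q * r) : Nat.card G = 60 := by
  have hnp : ¬ (Nat.card G).Prime := by
    rw [hG, show p ^ 2 * q * r = p * (p * q * r) by ring]
    refine Nat.not_prime_mul hp.ne_one ?_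
    have := Nat.mul_le_mul (Nat.mul_le_mul hp.two_le hq.two_le) hr.two_le
    omega
  have hna := Lib.SmallSimple.not_isMulCommutative_of_card hnp
  have hns : ¬ Group.IsSolvable G := fun h =>
    hna ⟨⟨IsSimpleGroup.comm_iff_isSolvable.2 h⟩⟩
  have hqp : q ≠ p := by
    rintro rfl
    exact hns (S0144.result q r 3 1 hp hr (by rw [hG]; ring))
  have hrp : r ≠ p := by
    rintro rfl
    exact hns (S0144.result r q 3 1 hp hq (by rw [hG]; ring))
  have hrq : r ≠ q := by
    rintro rfl
    exact hns (S0144.result p r 2 2 hp hr (by rw [hG]; ring))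
  have h12 : 12 ∣ Nat.card G := by
    refine (S0073.result ?_).resolve_left ?_
    · by_contra hc
      push Not at hc
      exact hna ⟨⟨hc⟩⟩
    · intro h
      have hm := Nat.minFac_prime (n := Nat.card G) (fun h1 => hns (by
        have : Subsingleton G := (Nat.card_eq_one_iff_unique.1 h1).1
        infer_instance))
      generalize (Nat.card G).minFac = m at hm h
      rw [hG] at h
      have hcop : ∀ s : ℕ, s.Prime → m ≠ s → (m ^ 3).Coprime s := fun s hs hne =>
        ((Nat.coprime_primes hm hs).2 hne).pow_left 3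
      by_cases hmp : m = p
      · subst hmp
        have := (hcop r hr (Ne.symm hrp)).dvd_of_dvd_mul_right h
        have := (hcop q hq (Ne.symm hqp)).dvd_of_dvd_mul_right this
        exact absurd (Nat.pow_dvd_pow_iff_le_right hp.one_lt |>.1 this) (by norm_num)
      · by_cases hmq : m = q
        · subst hmq
          have := (hcop r hr (Ne.symm hrq)).dvd_of_dvd_mul_right h
          have := ((hcop p hp hmp).pow_right 2).dvd_of_dvd_mul_left this
          exact absurd (Nat.le_of_dvd hm.pos this) (by
            have := Nat.pow_lt_pow_right hm.one_lt (show 1 < 3 by norm_num)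
            simpa using this)
        · have := ((hcop p hp hmp).pow_right 2 |>.mul_right (hcop q hq hmq)).dvd_of_dvd_mul_left h
          have hmr := (Nat.prime_dvd_prime_iff_eq hm hr).1 ((dvd_pow_self m three_ne_zero).trans this)
          subst hmr
          exact absurd (Nat.le_of_dvd hm.pos this) (by
            have := Nat.pow_lt_pow_right hm.one_lt (show 1 < 3 by norm_num)
            simpa using this)
  rw [hG] at h12
  have hp2 : p = 2 := by
    by_contra hne
    have h4 : Nat.Coprime (2 ^ 2) (p ^ 2) := ((Nat.coprime_primes Nat.prime_two hp).2 (Ne.symm hne)).pow 2 2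
    have h4d : 2 ^ 2 ∣ q * r := h4.dvd_of_dvd_mul_left (by
      rw [← mul_assoc]
      exact (show 2 ^ 2 ∣ 12 by norm_num).trans h12)
    by_cases h2q : q = 2
    · subst h2q
      have : 2 ∣ r := (Nat.mul_dvd_mul_iff_left (show 0 < 2 by norm_num)).1 h4d
      exact hrq ((Nat.prime_dvd_prime_iff_eq Nat.prime_two hr).1 this).symm
    · have h : 2 ^ 2 ∣ r := (((Nat.coprime_primes Nat.prime_two hq).2 (Ne.symm h2q)).pow_left 2).dvd_of_dvd_mul_left h4d
      have := (Nat.prime_dvd_prime_iff_eq Nat.prime_two hr).1 ((dvd_pow_self 2 two_ne_zero).trans h)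
      subst this
      norm_num at h
  subst hp2
  have h3 : 3 ∣ q * r := by
    have : 3 ∣ 2 ^ 2 * (q * r) := by rw [← mul_assoc]; exact (show 3 ∣ 12 by norm_num).trans h12
    exact (by norm_num : Nat.Coprime 3 (2 ^ 2)).dvd_of_dvd_mul_left this
  have hgt : ∀ s : ℕ, s.Prime → s ≠ 2 → s ≠ 3 → 3 < s := fun s hs h1 h2 => by
    have := hs.two_le; omega
  rcases Nat.prime_three.dvd_mul.1 h3 with h | h
  · have := ((Nat.prime_dvd_prime_iff_eq Nat.prime_three hq).1 h).symm
    subst this
    rw [aux hna r hr (hgt r hr hrp hrq) (by rw [hG]; ring)] at hG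
    rw [hG]; norm_num
  · have := ((Nat.prime_dvd_prime_iff_eq Nat.prime_three hr).1 h).symm
    subst this
    rw [aux hna q hq (hgt q hq hqp (Ne.symm hrq)) (by rw [hG]; ring)] at hG
    rw [hG]; norm_num

end Cfsg.Agent.S0988
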