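import Cfsg.Statements.S0995
import Cfsg.Agent.Lib.SmallSimple.Basic

set_option autoImplicit false
open Cfsg

namespace Cfsg.Agent.S0995

/-- Let G be a finite perfect group containing an element z of prime order p whose centralizer is the cyclic group it generates. Let t be the number of conjugacy classes of elements of order p. Then t divides p - 1, the number of Sylow p-subgroups has the form 1 + n * p, and |G| * t = (p - 1) * p * (1 + n * p). -/
theorem result {G : Type*} [Group G] [Finite G] (hperf : commutator G = ⊤) (p : ℕ) [Fact p.Prime] (z : G) (hz : orderOf z = p) (hC : Subgroup.centralizer ({z} : Set G) = Subgroup.zpowers z) : ∃ n t : ℕ, t = Nat.card {c : ConjClasses G // ∃ g : G, ConjClasses.mk g = c ∧ orderOf g = p} ∧ t ∣ p - 1 ∧ Nat.card (Sylow p G) = 1 + n * p ∧ Nat.card G * t = (p - 1) * p * (1 + n * p) := by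
  classical
  have hp : p.Prime := Fact.out
  set Z := Subgroup.zpowers z with hZ
  have hZc : Nat.card Z = p := by rw [hZ, Nat.card_zpowers, hz]
  obtain ⟨P, hZP⟩ := (IsPGroup.of_card (n := 1) (p := p) (G := Z) (by rw [hZc, pow_one])).exists_le_sylow
  have hz1 : z ≠ 1 := fun h => hp.ne_one (by rw [← hz, h, orderOf_one])
  have hPZ : (P : Subgroup G) = Z := by
    refine le_antisymm (fun x hx => ?_) hZP
    have : Nontrivial (P : Subgroup G) := Subgroup.nontrivial_iff_exists_ne_one _ |>.2
      ⟨z, hZP (Subgroup.mem_zpowers z), hz1⟩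
    have := P.isPGroup'.center_nontrivial
    obtain ⟨c, hc, hc1⟩ := Subgroup.exists_ne_one_of_nontrivial (Subgroup.center (P : Subgroup G))
    rw [Subgroup.mem_center_iff] at hc
    have hcz : (c : G) ∈ Z := by
      rw [← hC, Subgroup.mem_centralizer_singleton_iff]
      exact (congrArg Subtype.val (hc ⟨z, hZP (Subgroup.mem_zpowers z)⟩)).symm
    have hgen : z ∈ Subgroup.zpowers (c : G) :=
      mem_zpowers_of_prime_card hZc (g := (⟨c, hcz⟩ : Z)) (g' := ⟨z, Subgroup.mem_zpowers z⟩)
        (fun h => hc1 (Subtype.ext (by simpa using congrArg Subtype.val h))) |> fun ⟨k, hk⟩ =>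
          ⟨k, by simpa using congrArg Subtype.val hk⟩
    obtain ⟨k, hk⟩ := hgen
    rw [← hC, Subgroup.mem_centralizer_singleton_iff, ← hk]
    have : Commute x (c : G) := congrArg Subtype.val (hc ⟨x, hx⟩)
    exact this.zpow_right k
  have hPc : Nat.card (P : Subgroup G) = p := by rw [hPZ, hZc]
  have hcardS : ∀ R : Sylow p G, Nat.card (R : Subgroup G) = p := fun R =>
    (Nat.card_congr (R.equiv P).toEquiv).trans hPc
  set s := Nat.card (Sylow p G) with hs
  obtain ⟨n, hn⟩ : ∃ n, s = 1 + n * p := by
    have h := card_sylow_modEq_one p G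
    rw [← hs, Nat.ModEq, Nat.one_mod_eq_one.2 hp.ne_one] at h
    exact ⟨s / p, by rw [← h]; exact (Nat.mod_add_div' s p).symm⟩
  -- elements of order p
  let E := {g : G // orderOf g = p}
  have hcent : ∀ g : E, Nat.card (Subgroup.centralizer ({g.1} : Set G)) = p := by
    rintro ⟨g, hg⟩
    obtain ⟨R, hR⟩ := (IsPGroup.of_card (n := 1) (p := p) (G := Subgroup.zpowers g)
      (by rw [Nat.card_zpowers, hg, pow_one])).exists_le_sylow
    obtain ⟨a, ha⟩ := MulAction.exists_smul_eq G P R
    have hgR : g ∈ (P : Subgroup G).map (MulAut.conj a).toMonoidHom := by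
      have := hR (Subgroup.mem_zpowers g); rw [← ha] at this; exact this
    obtain ⟨w, hw, rfl⟩ := hgR
    rw [hPZ] at hw
    have hw1 : w ≠ 1 := fun h => hp.ne_one (by rw [← hg, h, map_one, orderOf_one])
    have hzw : z ∈ Subgroup.zpowers w :=
      mem_zpowers_of_prime_card hZc (g := (⟨w, hw⟩ : Z)) (g' := ⟨z, Subgroup.mem_zpowers z⟩)
        (fun h => hw1 (congrArg Subtype.val h)) |> fun ⟨k, hk⟩ => ⟨k, by simpa using congrArg Subtype.val hk⟩
    have heq : Subgroup.centralizer ({(MulAut.conj a).toMonoidHom w} : Set G) = Z.map (MulAut.conj a).toMonoidHom := by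
      apply le_antisymm
      · intro x hx
        rw [Subgroup.mem_map_equiv, MulAut.conj_symm_apply, ← hC, Subgroup.mem_centralizer_singleton_iff]
        rw [Subgroup.mem_centralizer_singleton_iff, MulEquiv.coe_toMonoidHom, MulAut.conj_apply] at hx
        obtain ⟨k, rfl⟩ := hzw
        have : Commute (a⁻¹ * x * a) w := by
          show a⁻¹ * x * a * w = w * (a⁻¹ * x * a)
          calc a⁻¹ * x * a * w = a⁻¹ * (x * (a * w * a⁻¹)) * a := by group
            _ = a⁻¹ * (a * w * a⁻¹ * x) * a := by rw [hx]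
            _ = w * (a⁻¹ * x * a) := by group
        exact this.zpow_right k
      · rintro _ ⟨x, hx, rfl⟩
        rw [Subgroup.mem_centralizer_singleton_iff, ← map_mul, ← map_mul]
        obtain ⟨i, rfl⟩ := hx
        obtain ⟨j, rfl⟩ := hw
        exact congrArg _ (zpow_mul_comm z i j)
    rw [heq, Subgroup.card_map_of_injective (MulEquiv.injective _), hZc]
  have hclass : ∀ g : E, Nat.card {h : G // IsConj g.1 h} * p = Nat.card G := by
    intro g
    conv_lhs => arg 2; rw [← hcent g, Subgroup.nat_card_centralizer_nat_card_stabilizer]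
    rw [show Nat.card G = Nat.card (ConjAct G) from rfl, ← Subgroup.index_mul_card (MulAction.stabilizer (ConjAct G) g.1)]
    rw [MulAction.index_stabilizer, ← Nat.card_coe_set_eq]
    congr 1
    exact Nat.card_congr (Equiv.subtypeEquivRight fun h => by
      rw [ConjAct.mem_orbit_conjAct, isConj_comm])
  have hE : Nat.card E = s * (p - 1) := by
    have hne : ∀ (R : Sylow p G), ∀ x ∈ (R : Subgroup G), x ≠ 1 → Subgroup.zpowers x = R := by
      intro R x hx hx1
      refine Subgroup.eq_of_le_of_card_ge (Subgroup.zpowers_le.2 hx) ?_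
      rw [hcardS R, Nat.card_zpowers]
      have hd := Subgroup.orderOf_dvd_natCard (R : Subgroup G) hx
      rw [hcardS R] at hd
      exact (((Nat.dvd_prime hp).1 hd).resolve_left (fun h => hx1 (orderOf_eq_one_iff.1 h))).ge
    let f : (Σ R : Sylow p G, {x : (R : Subgroup G) // x ≠ 1}) → E := fun y => ⟨y.2.1.1, by
      have hd := Subgroup.orderOf_dvd_natCard (y.1 : Subgroup G) y.2.1.2
      rw [hcardS] at hd
      exact ((Nat.dvd_prime hp).1 hd).resolve_left
        (fun h => y.2.2 (Subtype.ext (orderOf_eq_one_iff.1 h)))⟩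
    have hf : Function.Bijective f := by
      constructor
      · rintro ⟨R, ⟨x, hx⟩, hx1⟩ ⟨R', ⟨x', hx'⟩, hx1'⟩ h
        obtain rfl : x = x' := congrArg Subtype.val h
        obtain rfl : R = R' := Sylow.ext (by
          rw [← hne R x hx (fun h => hx1 (Subtype.ext h)), hne R' x hx' (fun h => hx1' (Subtype.ext h))])
        rfl
      · rintro ⟨g, hg⟩
        obtain ⟨R, hR⟩ := (IsPGroup.of_card (n := 1) (p := p) (G := Subgroup.zpowers g)
          (by rw [Nat.card_zpowers, hg, pow_one])).exists_le_sylow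
        exact ⟨⟨R, ⟨g, hR (Subgroup.mem_zpowers g)⟩, fun h => hp.ne_one (by
          rw [← hg, show g = 1 from congrArg Subtype.val h, orderOf_one])⟩, rfl⟩
    have hR' : ∀ R : Sylow p G, Nat.card {x : (R : Subgroup G) // x ≠ 1} = p - 1 := fun R => by
      have : Fintype (R : Subgroup G) := Fintype.ofFinite _
      rw [Nat.card_eq_fintype_card, Fintype.card_subtype_compl, Fintype.card_subtype_eq,
        ← Nat.card_eq_fintype_card, hcardS R]
    have : Fintype (Sylow p G) := Fintype.ofFinite _
    rw [← Nat.card_congr (Equiv.ofBijective f hf), Nat.card_sigma, Finset.sum_congr rfl (fun R _ => hR' R),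
      Finset.sum_const, Finset.card_univ, smul_eq_mul, hs, Nat.card_eq_fintype_card]
  set t := Nat.card {c : ConjClasses G // ∃ g : G, ConjClasses.mk g = c ∧ orderOf g = p} with ht
  have htot : t * Nat.card G = p * (s * (p - 1)) := by
    have : Fintype {c : ConjClasses G // ∃ g : G, ConjClasses.mk g = c ∧ orderOf g = p} := Fintype.ofFinite _
    let q : E → {c : ConjClasses G // ∃ g : G, ConjClasses.mk g = c ∧ orderOf g = p} :=
      fun g => ⟨ConjClasses.mk g.1, g.1, rfl, g.2⟩
    rw [← hE, Nat.card_congr (Equiv.sigmaFiberEquiv q).symm, Nat.card_sigma, Finset.mul_sum, ht,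
      Nat.card_eq_fintype_card, ← Finset.card_univ, ← smul_eq_mul, ← Finset.sum_const]
    refine Finset.sum_congr rfl fun c _ => ?_
    obtain ⟨c, g, rfl, hg⟩ := c
    rw [← hclass ⟨g, hg⟩, mul_comm]
    congr 1
    exact Nat.card_congr
      { toFun := fun h => ⟨⟨h.1, by
          obtain ⟨a, ha⟩ := isConj_iff.1 h.2
          rw [← ha, ← MulAut.conj_apply, MulEquiv.orderOf_eq, hg]⟩,
          Subtype.ext (ConjClasses.mk_eq_mk_iff_isConj.2 h.2.symm)⟩
        invFun := fun h => ⟨h.1.1, (ConjClasses.mk_eq_mk_iff_isConj.1 (congrArg Subtype.val h.2)).symm⟩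
        left_inv := fun h => rfl
        right_inv := fun h => rfl }
  have hord : Nat.card G * t = (p - 1) * p * s := by rw [mul_comm]; rw [htot]; ring
  refine ⟨n, t, ht, ?_, hn, by rw [hord, hn]⟩
  have hdvd : p * s ∣ Nat.card G := by
    refine Nat.Coprime.mul_dvd_of_dvd_of_dvd ?_ (hPc ▸ (P : Subgroup G).card_subgroup_dvd_card) ?_
    · rw [hn]; simp [Nat.coprime_add_mul_right_right]
    · rw [hs, Lib.SmallSimple.card_sylow_eq_index P]; exact Subgroup.index_dvd_card _
  obtain ⟨e, he⟩ := hdvd
  refine ⟨e, ?_⟩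
  rw [he] at hord
  have hpos : 0 < p * s := Nat.mul_pos hp.pos (by rw [hn]; omega)
  exact Nat.eq_of_mul_eq_mul_left hpos (by rw [show p * s * (p - 1) = (p - 1) * p * s by ring, ← hord]; ring)

end Cfsg.Agent.S0995
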