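import Cfsg.Statements.S0996
import Cfsg.Agent.Lib.Brauer43.Main

set_option autoImplicit false
open Cfsg

namespace Cfsg.Agent.S0996

/-- Let G be a finite perfect group containing an element z of prime order p whose centralizer is the cyclic group it generates, and suppose the number 1 + n * p of Sylow p-subgroups satisfies n < (p + 3) / 2. Then p > 3 and G is isomorphic to the projective special linear group of dimension 2 over the field with p elements, or p - 1 is a power of 2 and G is isomorphic to that group over the field with p - 1 elements. -/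
theorem result {G : Type*} [Group G] [Finite G] (hperf : commutator G = ⊤) (p : ℕ) [Fact p.Prime] (z : G) (hz : orderOf z = p) (hC : Subgroup.centralizer ({z} : Set G) = Subgroup.zpowers z) (hn : 2 * Nat.card (Sylow p G) < (p + 1) * (p + 2)) : (∃ (F : Type) (_ : Field F) (_ : Fintype F), Fintype.card F = p ∧ 3 < p ∧ Nonempty (G ≃* Matrix.ProjectiveSpecialLinearGroup (Fin 2) F)) ∨ (∃ (m : ℕ) (F : Type) (_ : Field F) (_ : Fintype F), Fintype.card F = 2 ^ m ∧ p = 2 ^ m + 1 ∧ 3 < p ∧ Nonempty (G ≃* Matrix.ProjectiveSpecialLinearGroup (Fin 2) F)) := by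
  classical
  haveI := Fintype.ofFinite G
  obtain ⟨P, hP⟩ := Cfsg.Agent.Lib.Char.SC.exists_sylow hz hC
  have hPc : Nat.card (P : Subgroup G) = p := by rw [hP, Nat.card_zpowers, hz]
  have hzP : z ∈ (P : Subgroup G) := by rw [hP]; exact Subgroup.mem_zpowers z
  have hmod : Nat.card (Sylow p G) % p = 1 := by
    have h : Nat.card (Sylow p G) % p = 1 % p := card_sylow_modEq_one p G
    rwa [Nat.mod_eq_of_lt (Fact.out : p.Prime).one_lt] at h
  set n := Nat.card (Sylow p G) / p with hndef
  have hcard : Nat.card (Sylow p G) = 1 + n * p := by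
    conv_lhs => rw [← Nat.mod_add_div (Nat.card (Sylow p G)) p, hmod, mul_comm p]
  have hself : Cfsg.Agent.Lib.Char.UC.C P = (P : Subgroup G) := by
    apply le_antisymm
    · calc Cfsg.Agent.Lib.Char.UC.C P ≤ Subgroup.centralizer ({z} : Set G) :=
            Subgroup.centralizer_le (Set.singleton_subset_iff.2 hzP)
        _ = (P : Subgroup G) := by rw [hC, hP]
    · haveI : IsCyclic (P : Subgroup G) := isCyclic_of_prime_card hPc
      letI : CommGroup (P : Subgroup G) := IsCyclic.commGroup
      intro x hx
      refine Subgroup.mem_centralizer_iff.2 fun y hy => ?_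
      exact congrArg Subtype.val (mul_comm (⟨y, hy⟩ : (P : Subgroup G)) ⟨x, hx⟩)
  have hsmall : 2 * n ≤ p + 2 := by
    rw [hcard] at hn
    by_contra hh
    have h3 : (p + 3) * p ≤ 2 * n * p := Nat.mul_le_mul_right p (by omega)
    nlinarith
  exact Cfsg.Agent.Lib.Brauer43.iso_psl (P := P) (n := n) ⟨hperf, hPc, hself, hcard, Cfsg.Agent.Lib.Brauer43.noF_of_small hsmall⟩

end Cfsg.Agent.S0996
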