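import Cfsg.Statements.S1002
import Cfsg.Agent.Lib.Brauer43.PerfectMain

set_option autoImplicit false
open Cfsg

namespace Cfsg.Agent.S1002

/-- No finite simple group has order 1004913 = 3^3 * 7 * 13 * 409. -/
theorem result {G : Type*} [Group G] [Finite G] [IsSimpleGroup G] : Nat.card G ≠ 1004913 := by
  intro h
  haveI : Finite G := Nat.finite_of_card_ne_zero (by rw [h]; norm_num)
  haveI : Fact (Nat.Prime 409) := ⟨by norm_num⟩
  have hnc : ¬ IsMulCommutative G := by
    intro hc
    letI : CommGroup G :=
      { (inferInstance : Group G) with mul_comm := fun a b => hc.is_comm.comm a b }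
    exact absurd (h ▸ (IsSimpleGroup.prime_card : (Nat.card G).Prime)) (by norm_num)
  obtain ⟨-, hlt⟩ := (Cfsg.Agent.Lib.Brauer43.Perfect.shape_of_simple (p := 409) hnc
    (by rw [h]; norm_num) (by rw [h]; norm_num)).card_lt
  rw [h] at hlt
  norm_num at hlt

end Cfsg.Agent.S1002
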