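import Cfsg.Statements.S1004
import Cfsg.Agent.Lib.SmallSimple.Sylow168

open Cfsg.Agent.Lib.SmallSimple

set_option autoImplicit false
open Cfsg

namespace Cfsg.Agent.S1004

lemma dih_mul : ∀ a b, dih168 (a * b) = dih168 a * dih168 b := by decide +kernel

lemma dih_inj : ∀ a b, dih168 a = dih168 b → a = b := by decide +kernel

lemma dih_mem : ∀ d, ∃ i ∈ gens2, el168 i = dih168 d := by decide +kernel

set_option synthInstance.maxSize 2048 in
lemma centre2 : ∀ i ∈ gens2, el168 i ≠ 1 → (∀ j ∈ gens2, el168 j * el168 i = el168 i * el168 j) →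
    ∀ k, el168 k * el168 i = el168 i * el168 k ↔ k ∈ gens2 := by
  decide +kernel

/-- Let G be a simple group of order 168 and T a Sylow 2-subgroup. Then T is dihedral of order 8, T is its own normalizer, and T is the centralizer of any non-identity element of T that commutes with every element of T. -/
theorem result {G : Type*} [Group G] [Finite G] [IsSimpleGroup G] (h : Nat.card G = 168) (T : Sylow 2 G) : Nonempty (↥(T : Subgroup G) ≃* DihedralGroup 4) ∧ Subgroup.normalizer ((T : Subgroup G) : Set G) = T ∧ ∀ z : G, z ∈ (T : Subgroup G) → z ≠ 1 → (∀ t ∈ (T : Subgroup G), t * z = z * t) → Subgroup.centralizer ({z} : Set G) = T := by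
  obtain ⟨φ, E, hφ, hE⟩ := exists_table h
  have hS : IsTblSub gens2 := by decide +kernel
  have hS8 : gens2.card = 8 := by decide +kernel
  set P := tblSub hφ hE hS with hP
  have hPc : Nat.card P = 8 := (card_tblSub hφ hE hS).trans hS8
  let P' : Sylow 2 G := Sylow.ofCard P (by
    have := Fact.mk Nat.prime_two
    rw [hPc, h, show (168 : ℕ) = 2 ^ 3 * 21 from rfl, Nat.factorization_mul (by norm_num) (by norm_num),
      Finsupp.add_apply, Nat.prime_two.factorization_pow, Finsupp.single_eq_same,
      Nat.factorization_eq_zero_of_not_dvd (by decide : ¬ 2 ∣ 21)]; rfl)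
  obtain ⟨g, hg⟩ := MulAction.exists_smul_eq G P' T
  have hT : P.map (MulAut.conj g).toMonoidHom = (T : Subgroup G) := by
    rw [← hg, Sylow.smul_def, Sylow.pointwise_smul_def]; rfl
  have hmem : ∀ d, ∃ x ∈ P, φ x = dih168 d := fun d => by
    obtain ⟨i, hi, e⟩ := dih_mem d
    exact ⟨E i, (mem_tblSub hφ hE hS i).2 hi, by rw [hE, e]⟩
  choose f hfP hf using hmem
  let ψ : DihedralGroup 4 →* P := MonoidHom.mk' (fun d => ⟨f d, hfP d⟩) fun a b =>
    Subtype.ext (hφ (by change φ (f (a * b)) = φ (f a * f b); rw [map_mul, hf, hf, hf, dih_mul]))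
  have hψ : Function.Bijective ψ := (Nat.bijective_iff_injective_and_card ψ).2 ⟨fun a b e =>
    dih_inj a b (by rw [← hf, ← hf]; exact congrArg (fun x : P => φ x) e), by
    rw [hPc, DihedralGroup.nat_card]⟩
  have hN : Subgroup.normalizer (P : Set G) = P := by
    refine (Subgroup.eq_of_le_of_card_ge Subgroup.le_normalizer ?_).symm
    rw [card_normalizer_tblSub hφ hE hS, hPc]
    decide +kernel
  have hN' : Subgroup.normalizer ((T : Subgroup G) : Set G) = T := by
    rw [← hT, ← Subgroup.map_equiv_normalizer_eq, hN]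
  refine ⟨⟨((MulEquiv.ofBijective ψ hψ).trans ((P.equivMapOfInjective _ (MulAut.conj g).injective).trans
    (MulEquiv.subgroupCongr hT))).symm⟩, hN', ?_⟩
  intro z hz hz1 hzc
  rw [← hT] at hz hzc ⊢
  obtain ⟨y, hy, rfl⟩ := hz
  obtain ⟨i, rfl⟩ := E.surjective y
  have hzi := (mem_tblSub hφ hE hS i).1 hy
  have hne : el168 i ≠ 1 := fun e => hz1 (by
    rw [show E i = 1 from hφ (by rw [hE, e, map_one]), map_one])
  have hc : ∀ j ∈ gens2, el168 j * el168 i = el168 i * el168 j := fun j hj => by
    have h0 := hzc _ ⟨E j, (mem_tblSub hφ hE hS j).2 hj, rfl⟩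
    have this : (MulAut.conj g) (E j * E i) = (MulAut.conj g) (E i * E j) := by
      rw [map_mul (MulAut.conj g), map_mul (MulAut.conj g)]; exact h0
    rw [← hE j, ← hE i, ← map_mul φ, ← map_mul φ]
    exact congrArg φ ((MulAut.conj g).injective this)
  have hcen : ∀ k, el168 k * el168 i = el168 i * el168 k ↔ k ∈ gens2 := centre2 i hzi hne hc
  refine le_antisymm (fun x hx => ?_) ?_
  · obtain ⟨x', rfl⟩ := (MulAut.conj g).surjective x
    obtain ⟨k, rfl⟩ := E.surjective x'
    refine ⟨E k, (mem_tblSub hφ hE hS k).2 ((hcen k).1 ?_), rfl⟩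
    have := Subgroup.mem_centralizer_iff.1 hx _ rfl
    change (MulAut.conj g) (E i) * (MulAut.conj g) (E k) = (MulAut.conj g) (E k) * (MulAut.conj g) (E i) at this
    rw [← map_mul (MulAut.conj g), ← map_mul (MulAut.conj g)] at this
    rw [← hE k, ← hE i, ← map_mul φ, ← map_mul φ]
    exact congrArg φ ((MulAut.conj g).injective this).symm
  · intro x hx
    rw [Subgroup.mem_centralizer_iff]
    rintro _ rfl
    exact (hzc x hx).symm

end Cfsg.Agent.S1004
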