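import Cfsg.Statements.S1005
import Cfsg.Agent.Lib.SmallSimple.Table168

open Cfsg.Agent.Lib.SmallSimple

set_option autoImplicit false
open Cfsg

namespace Cfsg.Agent.S1005

lemma orders : ∀ i : Ix168, el168 i ^ 4 = 1 ∨ el168 i ^ 3 = 1 ∨ el168 i ^ 7 = 1 ∨ el168 i = 1 := by
  decide +kernel

lemma conj2 : ∀ i : Ix168, (el168 i ^ 2 = 1 ∧ el168 i ≠ 1) →
    ∃ k, el168 k * el168 i = el168 (.inr (0, 0, 0)) * el168 k := by
  decide +kernel

/-- In a simple group of order 168 every element has order 1, 2, 3, 4 or 7; there are exactly 21 elements of order 2, and any two of them are conjugate. -/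
theorem result {G : Type*} [Group G] [Finite G] [IsSimpleGroup G] (h : Nat.card G = 168) : (∀ g : G, orderOf g = 1 ∨ orderOf g = 2 ∨ orderOf g = 3 ∨ orderOf g = 4 ∨ orderOf g = 7) ∧ Nat.card {g : G // orderOf g = 2} = 21 ∧ ∀ s t : G, orderOf s = 2 → orderOf t = 2 → IsConj s t := by
  obtain ⟨φ, E, hφ, hE⟩ := exists_table h
  refine ⟨fun g => ?_, ?_, fun s t hs ht => ?_⟩
  · obtain ⟨i, rfl⟩ := E.surjective g
    have := orders i
    simp only [← hE, ← map_one φ, ← map_pow, hφ.eq_iff] at this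
    rcases this with h' | h' | h' | h'
    · have := Fact.mk Nat.prime_two
      rcases (Nat.dvd_prime_pow Nat.prime_two (m := 2)).1 (orderOf_dvd_of_pow_eq_one (show E i ^ (2 ^ 2) = 1 from h')) with ⟨k, hk, hk'⟩
      interval_cases k <;> simp [hk']
    · rcases (Nat.dvd_prime (by norm_num : Nat.Prime 3)).1 (orderOf_dvd_of_pow_eq_one h') with h'' | h'' <;> simp [h'']
    · rcases (Nat.dvd_prime (by norm_num : Nat.Prime 7)).1 (orderOf_dvd_of_pow_eq_one h') with h'' | h'' <;> simp [h'']
    · simp [h']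
  · have := Fact.mk Nat.prime_two
    rw [card_setOf_table hE _ (fun q => q ^ 2 = 1 ∧ q ≠ 1) fun g => orderOf_eq_prime_table hφ g]
    decide +kernel
  · have := Fact.mk Nat.prime_two
    have key : ∀ g : G, orderOf g = 2 → IsConj g (E (.inr (0, 0, 0))) := fun g hg => by
      rw [isConj_table hφ hE, hE]
      obtain ⟨i, rfl⟩ := E.surjective g
      rw [orderOf_eq_prime_table hφ, hE] at hg
      rw [hE]
      exact conj2 i hg
    exact (key s hs).trans (key t ht).symm

end Cfsg.Agent.S1005
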