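import Cfsg.Statements.S1006
import Cfsg.Agent.Lib.SmallSimple.Table168

open Cfsg.Agent.Lib.SmallSimple

set_option autoImplicit false
open Cfsg

namespace Cfsg.Agent.S1006

lemma conj3 : ∀ i : Ix168, (el168 i ^ 3 = 1 ∧ el168 i ≠ 1) →
    ∃ k, el168 k * el168 i = el168 (.inl (0, 1)) * el168 k := by
  decide +kernel

lemma conj4 : ∀ i : Ix168, (el168 i ^ 4 = 1 ∧ el168 i ^ 2 ≠ 1) →
    ∃ k, el168 k * el168 i = el168 (.inr (0, 3, 0)) * el168 k := by
  decide +kernel

lemma conj7 : ∀ i : Ix168, (el168 i ^ 7 = 1 ∧ el168 i ≠ 1) →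
    (∃ k, el168 k * el168 i = el168 (.inl (1, 0)) * el168 k) ∨
      ∃ k, el168 k * el168 i = el168 (.inl (6, 0)) * el168 k := by
  decide +kernel

set_option maxHeartbeats 4000000 in
lemma class7a :
    (Finset.univ.filter fun i => ∃ k, el168 k * el168 (.inl (1, 0)) = el168 i * el168 k).card = 24 := by
  decide +kernel

set_option maxHeartbeats 4000000 in
lemma class7b :
    (Finset.univ.filter fun i => ∃ k, el168 k * el168 (.inl (6, 0)) = el168 i * el168 k).card = 24 := by
  decide +kernel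

lemma noninv7a : ¬ ∃ k, el168 k * el168 (.inl (1, 0)) = (el168 (.inl (1, 0)))⁻¹ * el168 k := by
  decide +kernel

lemma noninv7b : ¬ ∃ k, el168 k * el168 (.inl (6, 0)) = (el168 (.inl (6, 0)))⁻¹ * el168 k := by
  decide +kernel

lemma class7 (j : Ix168) (hj : j = .inl (1, 0) ∨ j = .inl (6, 0)) :
    (Finset.univ.filter fun i => ∃ k, el168 k * el168 j = el168 i * el168 k).card = 24 ∧
      ¬ ∃ k, el168 k * el168 j = (el168 j)⁻¹ * el168 k := by
  rcases hj with rfl | rfl
  · exact ⟨class7a, noninv7a⟩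
  · exact ⟨class7b, noninv7b⟩

/-- In a simple group of order 168 there are 56 elements of order 3, all conjugate; 42 elements of order 4, all conjugate; and 48 elements of order 7 falling into two conjugacy classes of size 24, an element of order 7 not being conjugate to its inverse. -/
theorem result {G : Type*} [Group G] [Finite G] [IsSimpleGroup G] (h : Nat.card G = 168) : Nat.card {g : G // orderOf g = 3} = 56 ∧ (∀ s t : G, orderOf s = 3 → orderOf t = 3 → IsConj s t) ∧ Nat.card {g : G // orderOf g = 4} = 42 ∧ (∀ s t : G, orderOf s = 4 → orderOf t = 4 → IsConj s t) ∧ Nat.card {g : G // orderOf g = 7} = 48 ∧ ∀ x : G, orderOf x = 7 → Nat.card {g : G // IsConj x g} = 24 ∧ ¬ IsConj x x⁻¹ := by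
  obtain ⟨φ, E, hφ, hE⟩ := exists_table h
  have := Fact.mk (show Nat.Prime 3 by norm_num)
  have := Fact.mk (show Nat.Prime 7 by norm_num)
  have h3 : ∀ g : G, orderOf g = 3 → IsConj g (E (.inl (0, 1))) := fun g hg => by
    obtain ⟨i, rfl⟩ := E.surjective g
    rw [orderOf_eq_prime_table hφ, hE] at hg
    rw [isConj_table hφ hE, hE, hE]
    exact conj3 i hg
  have h4 : ∀ g : G, orderOf g = 4 → IsConj g (E (.inr (0, 3, 0))) := fun g hg => by
    obtain ⟨i, rfl⟩ := E.surjective g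
    rw [orderOf_eq_four_table hφ, hE] at hg
    rw [isConj_table hφ hE, hE, hE]
    exact conj4 i hg
  refine ⟨?_, fun s t hs ht => (h3 s hs).trans (h3 t ht).symm, ?_,
    fun s t hs ht => (h4 s hs).trans (h4 t ht).symm, ?_, fun x hx => ?_⟩
  · rw [card_setOf_table hE _ (fun q => q ^ 3 = 1 ∧ q ≠ 1) fun g => orderOf_eq_prime_table hφ g]
    decide +kernel
  · rw [card_setOf_table hE _ (fun q => q ^ 4 = 1 ∧ q ^ 2 ≠ 1) fun g => orderOf_eq_four_table hφ g]
    decide +kernel
  · rw [card_setOf_table hE _ (fun q => q ^ 7 = 1 ∧ q ≠ 1) fun g => orderOf_eq_prime_table hφ g]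
    decide +kernel
  obtain ⟨i, rfl⟩ := E.surjective x
  rw [orderOf_eq_prime_table hφ, hE] at hx
  obtain ⟨j, hj, hij⟩ : ∃ j, (j = Sum.inl (1, 0) ∨ j = Sum.inl (6, 0)) ∧
      ∃ k, el168 k * el168 i = el168 j * el168 k :=
    (conj7 i hx).elim (fun e => ⟨_, Or.inl rfl, e⟩) (fun e => ⟨_, Or.inr rfl, e⟩)
  have hconj : IsConj (E i) (E j) := by rw [isConj_table hφ hE, hE, hE]; exact hij
  have hiff : ∀ g, IsConj (E i) g ↔ ∃ k, el168 k * el168 j = φ g * el168 k := fun g => by
    rw [← hE j, ← isConj_table hφ hE]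
    exact ⟨hconj.symm.trans, hconj.trans⟩
  obtain ⟨hjc, hjn⟩ := class7 j hj
  refine ⟨?_, fun hc => hjn ?_⟩
  · rw [card_setOf_table hE _ (fun q => ∃ k, el168 k * el168 j = q * el168 k) hiff]
    exact hjc
  · obtain ⟨c, hc'⟩ := isConj_iff.1 hconj
    have hji : IsConj (E j) (E j)⁻¹ := hconj.symm.trans (hc.trans (by
      rw [isConj_iff]; exact ⟨c, by rw [← hc']; group⟩))
    rw [isConj_table hφ hE, map_inv, hE] at hji
    exact hji

end Cfsg.Agent.S1006
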