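import Cfsg.Statements.S1009
import Mathlib

set_option autoImplicit false
open Cfsg

namespace Cfsg.Agent.S1009

/-- Brodkey's Theorem: if a finite group has abelian Sylow p-subgroups, then there are two Sylow p-subgroups whose intersection equals the intersection of all Sylow p-subgroups. -/
theorem result {G : Type*} [Group G] [Finite G] (p : ℕ) [Fact p.Prime] (hab : ∀ P : Sylow p G, IsMulCommutative ↥(P : Subgroup G)) : ∃ P Q : Sylow p G, (P : Subgroup G) ⊓ (Q : Subgroup G) = ⨅ R : Sylow p G, (R : Subgroup G) := by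
  classical
  obtain ⟨⟨P, Q⟩, -, hmin⟩ := (Set.finite_univ : (Set.univ : Set (Sylow p G × Sylow p G)).Finite).exists_minimalFor
    (fun PQ => Nat.card ((PQ.1 : Subgroup G) ⊓ (PQ.2 : Subgroup G) : Subgroup G)) _ ⟨(default, default), trivial⟩
  refine ⟨P, Q, le_antisymm (le_iInf fun R => ?_) (le_inf (iInf_le _ P) (iInf_le _ Q))⟩
  set D := (P : Subgroup G) ⊓ (Q : Subgroup G)
  set C := Subgroup.centralizer (D : Set G)
  have hcent : ∀ A : Sylow p G, D ≤ (A : Subgroup G) → (A : Subgroup G) ≤ C := fun A hA x hx =>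
    Subgroup.mem_centralizer_iff.2 fun d hd => congrArg Subtype.val ((hab A).is_comm.comm ⟨d, hA hd⟩ ⟨x, hx⟩)
  have hP := hcent P inf_le_left
  have hQ := hcent Q inf_le_right
  have hK : IsPGroup p (((R : Subgroup G) ⊓ C).subgroupOf C) :=
    (R.isPGroup'.to_le inf_le_left).of_equiv (Subgroup.subgroupOfEquivOfLe inf_le_right).symm
  obtain ⟨T, hT⟩ := hK.exists_le_sylow
  obtain ⟨c, hc⟩ := MulAction.exists_smul_eq C (P.subtype hP) T
  have hmemT : ∀ y : G, y ∈ (R : Subgroup G) → y ∈ C → y ∈ ((c : G) • P : Sylow p G) := fun y hy hyC => by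
    have h : (⟨y, hyC⟩ : C) ∈ c • P.subtype hP := hc ▸ hT (show (⟨y, hyC⟩ : C) ∈ ((R : Subgroup G) ⊓ C).subgroupOf C from ⟨hy, hyC⟩)
    change (⟨y, hyC⟩ : C) ∈ ((c • P.subtype hP : Sylow p C) : Subgroup C) at h
    rw [Sylow.smul_subtype] at h
    exact h
  set Q' : Sylow p G := (c : G) • Q
  have hQ'C : (Q' : Subgroup G) ≤ C := by
    rintro _ ⟨x, hx, rfl⟩
    exact mul_mem (mul_mem c.2 (hQ hx)) (inv_mem c.2)
  have hle : (R : Subgroup G) ⊓ (Q' : Subgroup G) ≤ D := by
    intro y hy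
    obtain ⟨a, ha, hay⟩ := hmemT y hy.1 (hQ'C hy.2)
    obtain ⟨b, hb, hby⟩ := hy.2
    have e : a = b := mul_left_cancel (mul_right_cancel (show (c : G) * a * (c : G)⁻¹ = (c : G) * b * (c : G)⁻¹ from hay.trans hby.symm))
    subst e
    have hya : y = a := by
      rw [← hay]
      show (c : G) * a * (c : G)⁻¹ = a
      have := Subgroup.mem_centralizer_iff.1 c.2 a ⟨ha, hb⟩
      rw [← this, mul_inv_cancel_right]
    rw [hya]; exact ⟨ha, hb⟩
  have h1 := hmin (j := (R, Q')) trivial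
  have heq : (R : Subgroup G) ⊓ (Q' : Subgroup G) = D :=
    Subgroup.eq_of_le_of_card_ge hle (h1 (Subgroup.card_le_of_le hle))
  exact heq.ge.trans inf_le_left

end Cfsg.Agent.S1009
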