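import Cfsg.Statements.S1012
import Cfsg.Agent.Lib.SmallSimple.Basic

set_option autoImplicit false
open Cfsg

namespace Cfsg.Agent.S1012

/-- A group of order 24 containing no element of order 6 is isomorphic to the symmetric group of degree 4. -/
theorem result {G : Type*} [Group G] [Finite G] (h : Nat.card G = 24) (h6 : ∀ g : G, orderOf g ≠ 6) : Nonempty (G ≃* Equiv.Perm (Fin 4)) := by
  classical
  have : Fact (Nat.Prime 3) := ⟨Nat.prime_three⟩
  have h6' : ∀ a b : G, orderOf a = 2 → orderOf b = 3 → a * b ≠ b * a := fun a b ha hb hc =>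
    h6 (a * b) (by rw [(Commute.orderOf_mul_eq_mul_orderOf_of_coprime hc (by rw [ha, hb]; decide)), ha, hb])
  obtain ⟨P⟩ : Nonempty (Sylow 3 G) := inferInstance
  have hP : Nat.card (P : Subgroup G) = 3 := by
    simpa using Lib.SmallSimple.card_sylow_subgroup P (k := 1) (m := 8) h (by norm_num)
  have hcy : IsCyclic (P : Subgroup G) := isCyclic_of_prime_card hP
  have hPi : (P : Subgroup G).index = 8 := by
    have := (P : Subgroup G).card_mul_index; rw [hP, h] at this; omega
  obtain ⟨b, hb⟩ := hcy.exists_ofOrder_eq_natCard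
  have hb3 : orderOf (b : G) = 3 := by rw [Subgroup.orderOf_coe, hb, hP]
  set N := Subgroup.normalizer ((P : Subgroup G) : Set G) with hN
  have hCN : ∀ x ∈ Subgroup.centralizer ((P : Subgroup G) : Set G), x ^ 2 = 1 → x = 1 := by
    intro x hx hx2
    by_contra h1
    exact h6' x b (orderOf_eq_prime hx2 h1) hb3 (Subgroup.mem_centralizer_iff.1 hx b b.2).symm
  have hcardC : ¬ 2 ∣ Nat.card (Subgroup.centralizer ((P : Subgroup G) : Set G)) := by
    intro hd
    obtain ⟨x, hx⟩ := exists_prime_orderOf_dvd_card' (p := 2) (hp := ⟨Nat.prime_two⟩) hd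
    have h2 : (x : G) ^ 2 = 1 := by
      rw [← SubmonoidClass.coe_pow, ← hx, pow_orderOf_eq_one]; rfl
    have := hCN x x.2 h2
    have hx1 : x = 1 := Subtype.ext this
    simp [hx1] at hx
  have hn : Nat.card (Sylow 3 G) = 4 := by
    have hd : Nat.card (Sylow 3 G) ∣ 8 := hPi ▸ P.card_dvd_index
    have hm := card_sylow_modEq_one 3 G
    rw [Nat.ModEq] at hm
    have hne : Nat.card (Sylow 3 G) ≠ 1 := by
      intro h1
      have hNt : N = ⊤ := Subgroup.index_eq_one.1 ((Lib.SmallSimple.card_sylow_eq_index P).symm.trans h1)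
      have hk := Subgroup.card_dvd_of_injective _ (QuotientGroup.kerLift_injective (P : Subgroup G).normalizerMonoidHom)
      rw [hcy.card_mulAut, hP, Nat.totient_prime Nat.prime_three] at hk
      have hNc : Nat.card N = 24 := by rw [hNt, Subgroup.card_top, h]
      have hmul := Subgroup.card_eq_card_quotient_mul_card_subgroup
        (P : Subgroup G).normalizerMonoidHom.ker
      rw [hNc] at hmul
      have hker : 2 ∣ Nat.card (P : Subgroup G).normalizerMonoidHom.ker := by
        rcases (Nat.dvd_prime Nat.prime_two).1 hk with h' | h' <;> rw [h'] at hmul <;> omega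
      rw [Subgroup.normalizerMonoidHom_ker] at hker
      refine hcardC (hker.trans ?_)
      rw [← Nat.card_congr (Subgroup.subgroupOfEquivOfLe (H := Subgroup.centralizer ((P : Subgroup G) : Set G))
        (K := N) (Subgroup.centralizer_le_normalizer _)).toEquiv]
    have hle := Nat.le_of_dvd (by norm_num) hd
    generalize Nat.card (Sylow 3 G) = n at *
    interval_cases n <;> omega
  let e : Sylow 3 G ≃ Fin 4 := Finite.equivFinOfCardEq hn
  let φ := e.permCongrHom.toMonoidHom.comp (MulAction.toPermHom G (Sylow 3 G))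
  have hker : φ.ker = ⊥ := by
    rw [show φ.ker = (MulAction.toPermHom G (Sylow 3 G)).ker from MonoidHom.ker_comp_of_injective _ _ e.permCongrHom.injective]
    set K := (MulAction.toPermHom G (Sylow 3 G)).ker with hK
    have hKN : K ≤ N := by
      intro x hx
      exact Sylow.smul_eq_iff_mem_normalizer.1 (by
        simpa using Equiv.ext_iff.1 (show MulAction.toPerm x = (1 : Equiv.Perm (Sylow 3 G)) from hx) P)
    have hNc : Nat.card N = 6 := by
      have := N.card_mul_index
      rw [← Lib.SmallSimple.card_sylow_eq_index P, hn, h] at this; omega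
    have hKd : Nat.card K ∣ 6 := hNc ▸ Subgroup.card_dvd_of_le hKN
    have h3 : ¬ 3 ∣ Nat.card K := by
      intro h3
      obtain ⟨c, hc⟩ := exists_prime_orderOf_dvd_card' (p := 3) h3
      obtain ⟨R, hR⟩ := (IsPGroup.of_card (n := 1) (G := Subgroup.zpowers (c : G)) (p := 3)
        (by rw [Nat.card_zpowers, Subgroup.orderOf_coe, hc, pow_one])).exists_le_sylow
      have hRc : (R : Subgroup G) = Subgroup.zpowers (c : G) := by
        refine (Subgroup.eq_of_le_of_card_ge hR ?_).symm
        rw [Nat.card_zpowers, Subgroup.orderOf_coe, hc]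
        exact le_of_eq (by simpa using Lib.SmallSimple.card_sylow_subgroup R (k := 1) (m := 8) h (by norm_num))
      have hall : ∀ S : Sylow 3 G, (S : Subgroup G) ≤ K := by
        intro S
        obtain ⟨g, rfl⟩ := MulAction.exists_smul_eq G R S
        rintro _ ⟨y, hy, rfl⟩
        have hyK : y ∈ K := by
          have hy' : y ∈ Subgroup.zpowers (c : G) := hRc ▸ hy
          exact Subgroup.zpowers_le.2 c.2 hy'
        exact (inferInstance : K.Normal).conj_mem y hyK g
      have hsub : ∀ S : Sylow 3 G, S = P := fun S => by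
        refine Sylow.ext (Subgroup.eq_of_le_of_card_ge (fun y hy => ?_) (le_of_eq ?_))
        · exact ((S.isPGroup'.inf_normalizer_sylow P).le ⟨hy, hKN (hall S hy)⟩).2
        · rw [hP]
          exact (by simpa using (Lib.SmallSimple.card_sylow_subgroup S (k := 1) (m := 8) h (by norm_num)).symm)
      have : Subsingleton (Sylow 3 G) := ⟨fun a b => (hsub a).trans (hsub b).symm⟩
      have := Finite.card_le_one_iff_subsingleton.2 this
      omega
    by_contra hb'
    have hK2 : Nat.card K = 2 := by
      have h1 : Nat.card K ≠ 1 := fun h1 => hb' (Subgroup.card_eq_one.1 h1)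
      have hle := Nat.le_of_dvd (by norm_num) hKd
      generalize Nat.card K = n at *
      interval_cases n <;> omega
    obtain ⟨t, ht⟩ := exists_prime_orderOf_dvd_card' (p := 2) (hp := ⟨Nat.prime_two⟩) (dvd_of_eq hK2.symm)
    have ht2 : orderOf (t : G) = 2 := by rw [Subgroup.orderOf_coe, ht]
    refine h6' t b ht2 hb3 ?_
    have hmem : (b : G) * t * (b : G)⁻¹ ∈ K := (inferInstance : K.Normal).conj_mem t t.2 b
    have huniq : ∀ u : K, u ≠ 1 → u = t := by
      intro u hu
      have ht1 : t ≠ 1 := fun h => by simp [h] at ht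
      obtain ⟨x, y, hxy, huniv⟩ := Nat.card_eq_two_iff.1 hK2
      have hu' := Set.eq_univ_iff_forall.1 huniv u
      have ht' := Set.eq_univ_iff_forall.1 huniv t
      have h1' := Set.eq_univ_iff_forall.1 huniv (1 : K)
      simp only [Set.mem_insert_iff, Set.mem_singleton_iff] at hu' ht' h1'
      rcases hu' with rfl | rfl <;> rcases ht' with rfl | rfl <;> rcases h1' with h1' | h1' <;>
        simp_all
    have h1 := congrArg Subtype.val (huniq ⟨_, hmem⟩ (fun h => by
      have := congrArg Subtype.val h
      simp only [OneMemClass.coe_one, conj_eq_one_iff] at this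
      rw [this] at ht2; simp at ht2))
    simp only at h1
    calc (t : G) * b = ((b : G) * t * (b : G)⁻¹) * b := by rw [h1]
      _ = b * t := by group
  exact ⟨MulEquiv.ofBijective φ ((Nat.bijective_iff_injective_and_card φ).2
    ⟨(MonoidHom.ker_eq_bot_iff _).1 hker, by rw [h, Nat.card_perm, Nat.card_fin]; rfl⟩)⟩

end Cfsg.Agent.S1012
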