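import Mathlib
import Cfsg.Statements.S1013


set_option autoImplicit false

open scoped commutatorElement Pointwise

namespace Cfsg.Agent.S1013

/-- Let G be a transitive permutation group of prime degree p having more than one Sylow p-subgroup, and suppose a Sylow p-subgroup P has prime index in its normalizer. Then G is simple. -/
theorem result {α : Type*} [Fintype α] [DecidableEq α] {p : ℕ} [Fact p.Prime] (hα : Fintype.card α = p) (G : Subgroup (Equiv.Perm α)) [MulAction.IsPretransitive ↥G α] (P : Sylow p ↥G) (hn : 1 < Nat.card (Sylow p ↥G)) (ht : (((P : Subgroup ↥G).subgroupOf (Subgroup.normalizer ((P : Subgroup ↥G) : Set ↥G))).index).Prime) : IsSimpleGroup ↥G := by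
  classical
  haveI : MulAction.IsPreprimitive ↥G α :=
    MulAction.IsPreprimitive.of_prime_card (by rw [Nat.card_eq_fintype_card, hα]; exact Fact.out)
  haveI : Nonempty α := Fintype.card_pos_iff.1 (hα ▸ (Fact.out : p.Prime).pos)
  have hp : p.Prime := Fact.out
  obtain ⟨a⟩ := ‹Nonempty α›
  have hdvd : ∀ N : Subgroup ↥G, N.Normal → N ≠ ⊥ → p ∣ Nat.card N := by
    intro N hN hne
    have hfix : MulAction.fixedPoints N α ≠ Set.univ := by
      intro h
      refine hne (eq_bot_iff.2 fun x hx => Subgroup.mem_bot.2 (Subtype.ext (Equiv.ext fun b => ?_)))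
      have hb : b ∈ MulAction.fixedPoints N α := h ▸ Set.mem_univ b
      exact hb ⟨x, hx⟩
    haveI := MulAction.IsQuasiPreprimitive.isPretransitive_of_normal (N := N) hfix
    have := (MulAction.stabilizer N a).index_dvd_card
    rwa [MulAction.index_stabilizer_of_transitive, Nat.card_eq_fintype_card (α := α), hα] at this
  have hpG : p ∣ Nat.card G := by
    have := (MulAction.stabilizer G a).index_dvd_card
    rwa [MulAction.index_stabilizer_of_transitive, Nat.card_eq_fintype_card (α := α), hα] at this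
  have hsq : ¬ p ^ 2 ∣ Nat.card G := by
    intro h
    have h' := h.trans G.card_subgroup_dvd_card
    rw [Nat.card_perm, Nat.card_eq_fintype_card, hα, ← Nat.mul_factorial_pred hp.ne_zero, pow_two,
      Nat.mul_dvd_mul_iff_left hp.pos, hp.dvd_factorial] at h'
    have := hp.pos
    omega
  have hP : Nat.card (P : Subgroup ↥G) = p := by
    rw [P.card_eq_multiplicity]
    have h1 := hp.factorization_pos_of_dvd Nat.card_pos.ne' hpG
    have h2 : (Nat.card G).factorization p < 2 := by
      by_contra h2
      exact hsq ((hp.pow_dvd_iff_le_factorization Nat.card_pos.ne').2 (by omega))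
    rw [show (Nat.card G).factorization p = 1 by omega, pow_one]
  haveI : Nontrivial ↥G := by
    rw [← Finite.one_lt_card_iff_nontrivial]
    have := Nat.le_of_dvd Nat.card_pos hpG
    have := hp.two_le
    omega
  refine ⟨fun N hN => or_iff_not_imp_left.2 fun hne => ?_⟩
  haveI := hN
  -- every Sylow subgroup lies in `N`
  have hPN : (P : Subgroup ↥G) ≤ N := by
    obtain ⟨x, hx⟩ := exists_prime_orderOf_dvd_card' (G := N) p (hdvd N hN hne)
    have hc : Nat.card (Subgroup.zpowers (x : ↥G)) = p ^ (Nat.card G).factorization p := by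
      rw [Nat.card_zpowers, Subgroup.orderOf_coe, hx, ← P.card_eq_multiplicity, hP]
    obtain ⟨g, hg⟩ := MulAction.exists_smul_eq ↥G (Sylow.ofCard _ hc) P
    rw [← hg, Sylow.coe_subgroup_smul, Sylow.coe_ofCard]
    rintro _ ⟨z, hz, rfl⟩
    exact hN.conj_mem z (Subgroup.zpowers_le.2 x.2 hz) g
  set M := Subgroup.normalizer ((P : Subgroup ↥G) : Set ↥G) with hMdef
  have hfr : M ⊔ N = ⊤ := Sylow.normalizer_sup_eq_top' P hPN
  have hidx : N.index = N.relIndex M := by
    rw [← Subgroup.relIndex_top_right, ← hfr, Subgroup.relIndex_sup_right]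
  have hq : ((P : Subgroup ↥G).relIndex M).Prime := ht
  rcases (Nat.dvd_prime hq).1 (hidx ▸ Subgroup.relIndex_dvd_of_le_left M hPN) with h1 | h1
  · exact Subgroup.index_eq_one.1 h1
  exfalso
  -- otherwise `P` is its own normaliser in `N`
  have hNM : N ⊓ M ≤ (P : Subgroup ↥G) := by
    have hmul := Subgroup.relIndex_mul_relIndex (P : Subgroup ↥G) (N ⊓ M) M
      (le_inf hPN Subgroup.le_normalizer) inf_le_right
    rw [Subgroup.inf_relIndex_right, ← hidx, h1] at hmul
    exact Subgroup.relIndex_eq_one.1 (Nat.eq_of_mul_eq_mul_right hq.pos (hmul.trans (one_mul _).symm))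
  haveI : IsCyclic (P : Subgroup ↥G) := isCyclic_of_prime_card hP
  let Q : Sylow p N := P.subtype hPN
  have hQ : Subgroup.normalizer ((Q : Subgroup N) : Set N) ≤
      Subgroup.centralizer ((Q : Subgroup N) : Set N) := by
    intro n hn
    have hnM : (n : ↥G) ∈ M := by
      rw [hMdef, Subgroup.mem_normalizer_iff]
      intro z
      have hQe : (Q : Subgroup N) = (P : Subgroup ↥G).subgroupOf N := Sylow.coe_subtype _ _
      constructor
      · intro hz
        have := (Subgroup.mem_normalizer_iff.1 hn ⟨z, hPN hz⟩).1 (by rw [hQe, Subgroup.mem_subgroupOf]; exact hz)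
        rw [hQe, Subgroup.mem_subgroupOf] at this
        exact this
      · intro hz
        have hzN : z ∈ N := by
          have := hN.conj_mem _ (hPN hz) (n : ↥G)⁻¹
          simpa [mul_assoc] using this
        have := (Subgroup.mem_normalizer_iff.1 hn ⟨z, hzN⟩).2 (by rw [hQe, Subgroup.mem_subgroupOf]; exact hz)
        rw [hQe, Subgroup.mem_subgroupOf] at this
        exact this
    have hnP : (n : ↥G) ∈ (P : Subgroup ↥G) := hNM ⟨n.2, hnM⟩
    rw [Subgroup.mem_centralizer_iff]
    intro z hz
    have hzP : (z : ↥G) ∈ (P : Subgroup ↥G) := by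
      rw [SetLike.mem_coe, Sylow.coe_subtype, Subgroup.mem_subgroupOf] at hz
      exact hz
    letI : CommGroup (P : Subgroup ↥G) := IsCyclic.commGroup
    have hcm := congrArg Subtype.val (mul_comm (⟨_, hzP⟩ : (P : Subgroup ↥G)) ⟨_, hnP⟩)
    exact Subtype.ext hcm
  have hK := MonoidHom.ker_transferSylow_isComplement' Q hQ
  set φ := MonoidHom.transferSylow Q hQ with hφdef
  have hQc : Nat.card (Q : Subgroup N) = p := by
    rw [Sylow.coe_subtype, Nat.card_congr (Subgroup.subgroupOfEquivOfLe hPN).toEquiv, hP]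
  have hmul := hK.card_mul
  rw [hQc] at hmul
  have hpK : ¬ p ∣ Nat.card φ.ker := by
    intro h
    refine hsq ?_
    rw [pow_two]
    exact (Nat.mul_dvd_mul_right h p).trans (hmul ▸ N.card_subgroup_dvd_card)
  have hmem : ∀ m : N, m ∈ φ.ker ↔ ¬ p ∣ orderOf m := by
    intro m
    refine ⟨fun hm h => hpK (h.trans (φ.ker.orderOf_dvd_natCard hm)), fun hm => ?_⟩
    rw [MonoidHom.mem_ker, ← orderOf_eq_one_iff]
    have h2 := orderOf_dvd_natCard (φ m)
    rw [hQc] at h2
    exact Nat.eq_one_of_dvd_coprimes ((hp.coprime_iff_not_dvd).2 hm) h2 (orderOf_map_dvd φ m)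
  haveI hK' : (φ.ker.map N.subtype).Normal := by
    refine ⟨?_⟩
    rintro _ ⟨m, hm, rfl⟩ g
    refine ⟨⟨_, hN.conj_mem _ m.2 g⟩, ?_, rfl⟩
    rw [SetLike.mem_coe, hmem] at hm ⊢
    rw [← Subgroup.orderOf_coe] at hm ⊢
    show ¬ p ∣ orderOf (MulAut.conj g (m : ↥G))
    rwa [MulEquiv.orderOf_eq]
  have hbot : φ.ker.map N.subtype = ⊥ := by
    by_contra hne'
    have := hdvd _ hK' hne'
    rw [Nat.card_congr (φ.ker.equivMapOfInjective _ N.subtype_injective).toEquiv.symm] at this
    exact hpK this
  rw [Subgroup.map_eq_bot_iff_of_injective _ N.subtype_injective] at hbot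
  rw [hbot, Subgroup.card_bot, one_mul] at hmul
  have hNP : (P : Subgroup ↥G) = N := Subgroup.eq_of_le_of_card_ge hPN (by rw [hP, ← hmul])
  have hM : M = ⊤ := by
    rw [hMdef, Subgroup.normalizer_eq_top_iff, hNP]; exact hN
  rw [P.card_eq_index_normalizer] at hn
  change 1 < M.index at hn
  rw [hM, Subgroup.index_top] at hn
  omega

end Cfsg.Agent.S1013
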