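import Cfsg.Statements.S1014
import Cfsg.Agent.Lib.SmallSimple.PrimeDegree

set_option autoImplicit false
open Cfsg

namespace Cfsg.Agent.S1014

/-- No finite simple group has order 1104 = 2^4 * 3 * 23. -/
theorem result {G : Type*} [Group G] [Finite G] [IsSimpleGroup G] : Nat.card G ≠ 1104 := by
  intro h
  have hG := Lib.SmallSimple.not_isMulCommutative_of_card (G := G) (by rw [h]; norm_num)
  have : Fact (Nat.Prime 23) := ⟨by norm_num⟩
  obtain ⟨P⟩ : Nonempty (Sylow 23 G) := inferInstance
  obtain ⟨h1, h2, -⟩ := Lib.SmallSimple.card_sylow_facts (p := 23) hG (by rw [h]; norm_num)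
  have hP : Nat.card (P : Subgroup G) = 23 := by
    simpa using Lib.SmallSimple.card_sylow_subgroup P (k := 1) (m := 48) h (by norm_num)
  have hd := P.card_dvd_index
  have hi := (P : Subgroup G).card_mul_index
  rw [hP, h] at hi
  rw [show (P : Subgroup G).index = 48 by omega] at hd
  have hle := Nat.le_of_dvd (by norm_num) hd
  have hn : Nat.card (Sylow 23 G) = 23 + 1 := by
    generalize Nat.card (Sylow 23 G) = n at *
    interval_cases n <;> omega
  have hN := (Subgroup.normalizer ((P : Subgroup G) : Set G)).card_mul_index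
  rw [← Lib.SmallSimple.card_sylow_eq_index P, hn, h] at hN
  have h4 := Lib.SmallSimple.card_normalizer_dvd_of_card_sylow hG (by norm_num) P hP hn
  rw [show Nat.card ↥(Subgroup.normalizer ((P : Subgroup G) : Set G)) = 46 by omega] at h4
  norm_num at h4

end Cfsg.Agent.S1014
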