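import Cfsg.Statements.S1015
import Cfsg.Agent.Lib.SmallSimple.Intersection

set_option autoImplicit false
open Cfsg

namespace Cfsg.Agent.S1015

/-- No finite simple group has order 1200 = 2^4 * 3 * 5^2. -/
theorem result {G : Type*} [Group G] [Finite G] [IsSimpleGroup G] : Nat.card G ≠ 1200 := by
  intro h
  have hG := Lib.SmallSimple.not_isMulCommutative_of_card (G := G) (by rw [h]; norm_num)
  have : Fact (Nat.Prime 5) := ⟨Nat.prime_five⟩
  obtain ⟨P⟩ : Nonempty (Sylow 5 G) := inferInstance
  obtain ⟨h1, h2, h3⟩ := Lib.SmallSimple.card_sylow_facts (p := 5) hG (by rw [h]; norm_num)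
  have hP : Nat.card (P : Subgroup G) = 25 := by
    simpa using Lib.SmallSimple.card_sylow_subgroup P (k := 2) (m := 48) h (by norm_num)
  have hd := P.card_dvd_index
  have hi := (P : Subgroup G).card_mul_index
  rw [hP, h] at hi
  rw [show (P : Subgroup G).index = 48 by omega] at hd
  have hle := Nat.le_of_dvd (by norm_num) hd
  rw [h] at h3
  have hmod : ¬ Nat.card (Sylow 5 G) ≡ 1 [MOD 5 ^ 2] := by
    rw [Nat.ModEq]
    generalize Nat.card (Sylow 5 G) = n at *
    interval_cases n <;> first | omega | (norm_num [Nat.factorial] at *)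
  obtain ⟨e, he, hem, hdiv⟩ := Lib.SmallSimple.exists_large_subgroup hG (m := 48) h (by norm_num) hmod
  rw [h] at hdiv
  have := Nat.le_of_dvd (by norm_num) hem
  interval_cases e <;> first | (norm_num at hem; done) | (norm_num [Nat.factorial] at hdiv; done)

end Cfsg.Agent.S1015
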