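import Mathlib
import Cfsg.Statements.S1017
import Cfsg.Agent.Lib.SmallSimple.PointFix
import Cfsg.Agent.Lib.SmallSimple.Order459648

set_option autoImplicit false

open scoped commutatorElement Pointwise

namespace Cfsg.Agent.S1017

open Subgroup

/-- No finite simple group has order 2016 = 2^5 * 3^2 * 7. -/
theorem result {G : Type*} [Group G] [Finite G] [IsSimpleGroup G] : Nat.card G ≠ 2016 := by
  intro h
  have hG := Lib.SmallSimple.not_isMulCommutative_of_card (G := G) (by rw [h]; norm_num)
  haveI : Fact (Nat.Prime 7) := ⟨by norm_num⟩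
  haveI : Fact (Nat.Prime 2) := ⟨Nat.prime_two⟩
  obtain ⟨P⟩ : Nonempty (Sylow 7 G) := inferInstance
  obtain ⟨h1, h2, -⟩ := Lib.SmallSimple.card_sylow_facts (p := 7) hG (by rw [h]; norm_num)
  have hP : Nat.card (P : Subgroup G) = 7 := by
    simpa using Lib.SmallSimple.card_sylow_subgroup P (k := 1) (m := 288) (by rw [h]; norm_num) (by norm_num)
  have hsq : ¬ 7 ^ 2 ∣ Nat.card G := by rw [h]; norm_num
  have hidx : (P : Subgroup G).index = 288 := by
    have := (P : Subgroup G).card_mul_index; rw [hP, h] at this; omega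
  have hd : Nat.card (Sylow 7 G) ∣ 288 := hidx ▸ P.card_dvd_index
  set N := normalizer ((P : Subgroup G) : Set G) with hNdef
  set C := centralizer ((P : Subgroup G) : Set G) with hCdef
  have hNi : N.index = Nat.card (Sylow 7 G) := P.card_eq_index_normalizer.symm
  have hNmul := N.card_mul_index
  rw [h, hNi] at hNmul
  obtain ⟨i, hi6, hNC⟩ := Lib.SmallSimple.exists_normalizer_index (P : Subgroup G) hP
  have hnle := Lib.SmallSimple.not_normalizer_le_centralizer hG P (by rw [h]; norm_num)
  change Nat.card N = Nat.card C * i at hNC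
  have hi1 : i ≠ 1 := by
    rintro rfl
    refine hnle fun g hg => ?_
    have hCN : C ≤ N := centralizer_le_normalizer _
    rw [mul_one] at hNC
    exact (eq_of_le_of_card_ge hCN hNC.le).ge hg
  haveI : IsCyclic (P : Subgroup G) := isCyclic_of_prime_card hP
  have hPC : (P : Subgroup G) ≤ C := le_centralizer _
  have hC7 : 7 ∣ Nat.card C := hP ▸ card_dvd_of_le hPC
  have hcases : Nat.card (Sylow 7 G) ∈ ({1, 8, 36, 288} : Finset ℕ) := by
    rw [show ({1, 8, 36, 288} : Finset ℕ) = (Nat.divisors 288).filter (· % 7 = 1) by decide]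
    exact Finset.mem_filter.2 ⟨Nat.mem_divisors.2 ⟨hd, by norm_num⟩, by omega⟩
  simp only [Finset.mem_insert, Finset.mem_singleton] at hcases
  have hi' : i = 2 ∨ i = 3 ∨ i = 6 := by
    have := Nat.le_of_dvd (by norm_num) hi6
    interval_cases i <;> omega
  rcases hcases with hn | hn | hn | hn
  · omega
  · rw [hn] at hNmul
    -- an element of order 2 or 3 centralises `P`
    obtain ⟨r, hr, hr7, hr2, hrC⟩ : ∃ r, r.Prime ∧ r ≠ 7 ∧ 2 ≤ r ∧ r ∣ Nat.card C := by
      rcases hi' with rfl | rfl | rfl
      · exact ⟨3, Nat.prime_three, by norm_num, by norm_num, by omega⟩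
      · exact ⟨2, Nat.prime_two, by norm_num, le_rfl, by omega⟩
      · exact ⟨2, Nat.prime_two, by norm_num, le_rfl, by omega⟩
    haveI : Fact r.Prime := ⟨hr⟩
    obtain ⟨c, hc⟩ := exists_prime_orderOf_dvd_card' r hrC
    rw [← Subgroup.orderOf_coe] at hc
    have hCN : C ≤ N := centralizer_le_normalizer _
    obtain ⟨hdvd, hpos, hsum⟩ := Lib.SmallSimple.moved_facts hsq hP le_normalizer
      (fun hN => by change N = ⊤ at hN; rw [hN, index_top] at hNi; omega) hr hr7 hc c.2
      (fun n hn => mul_mem (mul_mem (inv_mem hn) (hCN c.2)) hn)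
    have := Nat.le_of_dvd hpos hdvd
    change _ + _ = N.index at hsum
    omega
  · rw [hn] at hNmul
    have hN56 : Nat.card N = 56 := by omega
    have hC28 : Nat.card C = 28 := by
      rcases hi' with rfl | rfl | rfl <;> omega
    obtain ⟨x, hxC, hx2, hCx, P', hP', hne, hP'x⟩ :=
      Lib.SmallSimple.exists_involution_two_conjugates (by norm_num) hP (by rw [hN56]) (by rw [hC28])
        (by rw [h]; norm_num)
    set H := centralizer ({x} : Set G) with hHdef
    have hH : H ≠ ⊤ := by
      intro hH
      have hx : x ∈ center G := by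
        rw [mem_center_iff]
        intro g
        have : g ∈ H := hH ▸ mem_top g
        exact mem_centralizer_singleton_iff.1 this
      rcases (inferInstance : (center G).Normal).eq_bot_or_eq_top with hz | hz
      · rw [hz, mem_bot] at hx
        rw [hx, orderOf_one] at hx2
        omega
      · exact hG (center_eq_top_iff.1 hz)
    obtain ⟨hdvd, hpos, hsum⟩ := Lib.SmallSimple.moved_facts hsq hP (hPC.trans hCx) hH
      Nat.prime_two (by norm_num) hx2 hxC (fun n hn => hCx (by
        rw [mem_centralizer_iff]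
        intro z hz
        have h1 := mem_centralizer_iff.1 hxC (n * z * n⁻¹) ((mem_normalizer_iff.1 hn z).1 hz)
        calc z * (n⁻¹ * x * n) = n⁻¹ * ((n * z * n⁻¹) * x) * n := by group
          _ = n⁻¹ * (x * (n * z * n⁻¹)) * n := by rw [h1]
          _ = (n⁻¹ * x * n) * z := by group))
    have hle := Nat.le_of_dvd hpos hdvd
    refine hne (Lib.SmallSimple.unique_of_card_lt hsq hP hP' hPC (centralizer_le_normalizer _) hCx hP'x ?_)
    have hHmul := H.card_mul_index
    rw [h] at hHmul
    rw [hC28]
    nlinarith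
  · rw [hn] at hNmul
    have hN7 : Nat.card N = 7 := by omega
    rcases hi' with rfl | rfl | rfl <;> omega

end Cfsg.Agent.S1017
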