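import Cfsg.Statements.S1018
import Cfsg.Agent.Lib.SmallSimple.Basic

set_option autoImplicit false
open Cfsg

namespace Cfsg.Agent.S1018

/-- Let P be a Sylow p-subgroup of order p of a finite group G, and consider the action of G on the left cosets of the normalizer N of P. Then every element of order p fixes exactly one coset, and an element of N that does not centralize P fixes at most as many cosets as there are orbits of P. -/
theorem result {G : Type*} [Group G] [Finite G] (p : ℕ) [Fact p.Prime] (P : Sylow p G) (hP : Nat.card ↥(P : Subgroup G) = p) : (∀ y : G, orderOf y = p → Nat.card (MulAction.fixedBy (G ⧸ Subgroup.normalizer ((P : Subgroup G) : Set G)) y) = 1) ∧ ∀ x : G, x ∈ Subgroup.normalizer ((P : Subgroup G) : Set G) → x ∉ Subgroup.centralizer ((P : Subgroup G) : Set G) → Nat.card (MulAction.fixedBy (G ⧸ Subgroup.normalizer ((P : Subgroup G) : Set G)) x) ≤ Nat.card (MulAction.orbitRel.Quotient ↥(P : Subgroup G) (G ⧸ Subgroup.normalizer ((P : Subgroup G) : Set G))) := by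
  classical
  have hp : p.Prime := Fact.out
  set Q : Subgroup G := (P : Subgroup G) with hQ
  set N := Subgroup.normalizer (Q : Set G) with hN
  have hgen : ∀ y ∈ N, orderOf y = p → y ∈ Q := by
    intro y hy hyo
    have hP' : IsPGroup p (Subgroup.zpowers y) :=
      IsPGroup.of_card (n := 1) (by rw [Nat.card_zpowers, hyo, pow_one])
    exact ((hP'.inf_normalizer_sylow P).le ⟨Subgroup.mem_zpowers y, hy⟩).2
  have hfix : ∀ (y g : G), y • (QuotientGroup.mk g : G ⧸ N) = QuotientGroup.mk g ↔ g⁻¹ * y * g ∈ N := by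
    intro y g
    rw [MulAction.Quotient.smul_mk, QuotientGroup.eq]
    rw [show (y • g)⁻¹ * g = (g⁻¹ * y * g)⁻¹ by simp [smul_eq_mul, mul_assoc], inv_mem_iff]
  have hone : ∀ y : G, orderOf y = p → Nat.card (MulAction.fixedBy (G ⧸ N) y) = 1 := by
    intro y hy
    obtain ⟨R, hR⟩ := (IsPGroup.of_card (n := 1) (p := p) (G := Subgroup.zpowers y)
      (by rw [Nat.card_zpowers, hy, pow_one])).exists_le_sylow
    obtain ⟨a, ha⟩ := MulAction.exists_smul_eq G P R
    have hya : a⁻¹ * y * a ∈ Q := by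
      have h1 := hR (Subgroup.mem_zpowers y)
      rw [← ha] at h1
      obtain ⟨w, hw, hwy⟩ := h1
      have : a * w * a⁻¹ = y := hwy
      rw [← this, show a⁻¹ * (a * w * a⁻¹) * a = w by group]; exact hw
    refine Nat.card_eq_one_iff_exists.2 ⟨⟨QuotientGroup.mk a, (hfix y a).2 (Subgroup.le_normalizer hya)⟩, ?_⟩
    rintro ⟨u, hu⟩
    induction u using QuotientGroup.induction_on with | H g =>
    refine Subtype.ext ?_
    have hyg : g⁻¹ * y * g ∈ Q := hgen _ ((hfix y g).1 hu) (by
      rw [show g⁻¹ * y * g = MulAut.conj g⁻¹ y by simp, MulEquiv.orderOf_eq, hy])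
    -- g⁻¹ a normalises Q
    show (QuotientGroup.mk g : G ⧸ N) = QuotientGroup.mk a
    rw [QuotientGroup.eq]
    have hgenQ : ∀ v ∈ Q, v ≠ 1 → Subgroup.zpowers v = Q := fun v hv hv1 => by
      refine Subgroup.eq_of_le_of_card_ge (Subgroup.zpowers_le.2 hv) ?_
      rw [hP, Nat.card_zpowers]
      have hd := Subgroup.orderOf_dvd_natCard Q hv
      rw [hP] at hd
      exact (((Nat.dvd_prime hp).1 hd).resolve_left (fun h => hv1 (orderOf_eq_one_iff.1 h))).ge
    have hne : ∀ b : G, b⁻¹ * y * b ≠ 1 := fun b h => by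
      have h' := congrArg orderOf h
      rw [show b⁻¹ * y * b = MulAut.conj b⁻¹ y by simp, MulEquiv.orderOf_eq, hy, orderOf_one] at h'
      exact hp.ne_one h'
    rw [hN, Subgroup.mem_normalizer_iff_map_conj_eq]
    conv_lhs => rw [← hgenQ _ hya (hne a), MonoidHom.map_zpowers]
    conv_rhs => rw [← hgenQ _ hyg (hne g)]
    simp [mul_assoc]
  refine ⟨hone, fun x hxN hxC => ?_⟩
  have : Fintype (MulAction.orbitRel.Quotient Q (G ⧸ N)) := Fintype.ofFinite _
  refine Nat.card_le_card_of_injective (fun w => (Quotient.mk'' w.1 : MulAction.orbitRel.Quotient Q (G ⧸ N))) ?_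
  rintro ⟨w, hw⟩ ⟨v, hv⟩ h
  obtain ⟨⟨u, hu⟩, huv⟩ : w ∈ MulAction.orbit Q v := Quotient.eq''.1 h
  refine Subtype.ext ?_
  change u • v = w at huv
  by_cases hu1 : u = 1
  · simpa [hu1] using huv.symm
  have hu' : x * u * x⁻¹ ∈ Q := (Subgroup.mem_normalizer_iff.1 hxN u).1 hu
  have hd := Subgroup.orderOf_dvd_natCard Q (mul_mem (inv_mem hu) hu')
  rw [hP] at hd
  rcases (Nat.dvd_prime hp).1 hd with h1 | h1
  · exfalso
    rw [orderOf_eq_one_iff, inv_mul_eq_one] at h1
    apply hxC
    rw [Subgroup.mem_centralizer_iff]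
    intro r hr
    have huo : Subgroup.zpowers u = Q := by
      refine Subgroup.eq_of_le_of_card_ge (Subgroup.zpowers_le.2 hu) ?_
      rw [hP, Nat.card_zpowers]
      have hd := Subgroup.orderOf_dvd_natCard Q hu
      rw [hP] at hd
      exact (((Nat.dvd_prime hp).1 hd).resolve_left (fun h => hu1 (orderOf_eq_one_iff.1 h))).ge
    obtain ⟨k, rfl⟩ : r ∈ Subgroup.zpowers u := huo ▸ hr
    have : Commute u x := by
      show u * x = x * u
      calc u * x = x * u * x⁻¹ * x := by rw [← h1]
        _ = x * u := by group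
    exact (this.zpow_left k)
  · -- v is fixed by an element of order p, so it is the base point
    have hxu : (x * u * x⁻¹) • v = u • v := by
      rw [mul_smul, mul_smul, show x⁻¹ • v = v from inv_smul_eq_iff.2 hv.symm, huv]
      exact hw
    have hfixv : (u⁻¹ * (x * u * x⁻¹)) • v = v := by rw [mul_smul, hxu, inv_smul_smul]
    have hbase : (QuotientGroup.mk 1 : G ⧸ N) ∈ MulAction.fixedBy (G ⧸ N) (u⁻¹ * (x * u * x⁻¹)) :=
      (hfix _ 1).2 (by simpa using Subgroup.le_normalizer (mul_mem (inv_mem hu) hu'))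
    have := (Nat.card_eq_one_iff_unique.1 (hone _ h1)).1
    have hveq : v = (QuotientGroup.mk 1 : G ⧸ N) :=
      congrArg Subtype.val (Subsingleton.elim (⟨v, hfixv⟩ : MulAction.fixedBy (G ⧸ N) _) ⟨_, hbase⟩)
    show w = v
    rw [← huv, hveq, (hfix u 1).2 (by simpa using Subgroup.le_normalizer hu)]

end Cfsg.Agent.S1018
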