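import Cfsg.Statements.S1019
import Mathlib

set_option autoImplicit false
open Cfsg

namespace Cfsg.Agent.S1019

/-- Let H be a subgroup of a finite group G and x an element of H. In the action of G on the left cosets of H, the number of cosets fixed by x, multiplied by the size of the conjugacy class of x, equals the index of H multiplied by the number of conjugates of x that lie in H. -/
theorem result {G : Type*} [Group G] [Finite G] (H : Subgroup G) (x : G) (hx : x ∈ H) : Nat.card (MulAction.fixedBy (G ⧸ H) x) * Nat.card {g : G // IsConj x g} = H.index * Nat.card {g : G // IsConj x g ∧ g ∈ H} := by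
  classical
  let C : Subgroup G := Subgroup.centralizer ({x} : Set G)
  let f : G → {g : G // IsConj x g} := fun a => ⟨a * x * a⁻¹, isConj_iff.2 ⟨a, rfl⟩⟩
  have hwd : ∀ a b : G, (QuotientGroup.leftRel C) a b → f a = f b := by
    intro a b hab
    rw [QuotientGroup.leftRel_apply, Subgroup.mem_centralizer_singleton_iff] at hab
    refine Subtype.ext ?_
    show a * x * a⁻¹ = b * x * b⁻¹
    calc a * x * a⁻¹ = a * (x * (a⁻¹ * b)) * b⁻¹ := by group
      _ = a * ((a⁻¹ * b) * x) * b⁻¹ := by rw [hab]
      _ = b * x * b⁻¹ := by group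
  let ψ : G ⧸ C → {g : G // IsConj x g} := Quotient.lift f hwd
  have hψ : Function.Bijective ψ := by
    constructor
    · intro u v huv
      induction u using QuotientGroup.induction_on with | H a =>
      induction v using QuotientGroup.induction_on with | H b =>
      have h' : a * x * a⁻¹ = b * x * b⁻¹ := congrArg Subtype.val huv
      rw [QuotientGroup.eq, Subgroup.mem_centralizer_singleton_iff]
      calc a⁻¹ * b * x = a⁻¹ * (b * x * b⁻¹) * b := by group
        _ = a⁻¹ * (a * x * a⁻¹) * b := by rw [h']
        _ = x * (a⁻¹ * b) := by group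
    · rintro ⟨g, hg⟩
      obtain ⟨a, ha⟩ := isConj_iff.1 hg
      exact ⟨QuotientGroup.mk a, Subtype.ext ha⟩
  have hC : Nat.card C * Nat.card {g : G // IsConj x g} = Nat.card G := by
    rw [← Nat.card_congr (Equiv.ofBijective ψ hψ), ← Subgroup.index_eq_card, Subgroup.card_mul_index]
  have hS1 : Nat.card {a : G // a⁻¹ * x * a ∈ H} = Nat.card H * Nat.card (MulAction.fixedBy (G ⧸ H) x) := by
    rw [← QuotientGroup.card_preimage_mk]
    refine Nat.card_congr (Equiv.subtypeEquivRight fun a => ?_)
    rw [Set.mem_preimage, MulAction.mem_fixedBy, MulAction.Quotient.smul_mk, QuotientGroup.eq]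
    have : (x • a)⁻¹ * a = (a⁻¹ * x * a)⁻¹ := by simp [smul_eq_mul, mul_assoc]
    rw [this, inv_mem_iff]
  have hS2 : Nat.card {a : G // a * x * a⁻¹ ∈ H} = Nat.card C * Nat.card {g : G // IsConj x g ∧ g ∈ H} := by
    rw [← Nat.card_congr (Equiv.subtypeSubtypeEquivSubtypeInter (fun g => IsConj x g) (fun g => g ∈ H)),
      ← Nat.card_congr ((Equiv.ofBijective ψ hψ).subtypeEquiv (p := fun c => ((ψ c : {g : G // IsConj x g}) : G) ∈ H)
        (fun c => Iff.rfl))]
    exact QuotientGroup.card_preimage_mk C {c | ((ψ c : {g : G // IsConj x g}) : G) ∈ H}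
  have hS : Nat.card {a : G // a * x * a⁻¹ ∈ H} = Nat.card {a : G // a⁻¹ * x * a ∈ H} :=
    Nat.card_congr ((Equiv.inv G).subtypeEquiv fun a => by simp)
  refine Nat.eq_of_mul_eq_mul_left (Nat.mul_pos (Nat.card_pos (α := H)) (Nat.card_pos (α := C))) ?_
  calc Nat.card H * Nat.card C * (Nat.card (MulAction.fixedBy (G ⧸ H) x) * Nat.card {g : G // IsConj x g})
      = (Nat.card H * Nat.card (MulAction.fixedBy (G ⧸ H) x)) * (Nat.card C * Nat.card {g : G // IsConj x g}) := by ring
    _ = (Nat.card C * Nat.card {g : G // IsConj x g ∧ g ∈ H}) * (Nat.card H * H.index) := by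
        rw [← hS1, ← hS, hS2, hC, Subgroup.card_mul_index]
    _ = _ := by ring

end Cfsg.Agent.S1019
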