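import Cfsg.Statements.S1024
import Cfsg.Agent.Lib.Chev.All

set_option autoImplicit false
open Cfsg Cfsg.Agent.Lib.Chev

namespace Cfsg.Agent.S1024

/-- `x_r(0) = 1`, and `x_r(t) = 1` forces `t = 0`: the map `t ↦ x_r(t)` is injective. -/
theorem result {F : Type*} [Field F] (D : Cfsg.Lie.ChevalleyDatum) (hD : D ∈ [Cfsg.Lie.chevG2, Cfsg.Lie.chevB2, Cfsg.Lie.chevD4, Cfsg.Lie.chevF4, Cfsg.Lie.chevE6, Cfsg.Lie.chevE7, Cfsg.Lie.chevE8]) (r : ℕ) (hr : r < D.nroots) (t : F) :
    D.x F r t = 1 ↔ t = 0 := by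
  obtain ⟨T, C⟩ := exists_checked hD
  refine ⟨fun h => ?_, fun h => by subst h; exact C.x_zero r⟩
  revert t
  refine C.root_induction (P := fun r => ∀ t : F, D.x F r t = 1 → t = 0) ?_ ?_ r hr
  · intro i hi t h
    have hp := C.root.simple_lt i hi
    have h1 := congrFun (congrArg (fun M => Matrix.mulVec M (bv D F (D.neg (D.simple i)))) h)
      (Sum.inl ⟨i, hi⟩)
    simp only [Matrix.one_mulVec] at h1
    rw [x_bv_neg' C.root hp] at h1
    simp only [bv_apply, bh_apply, Finset.sum_apply, Pi.sub_apply, Pi.add_apply, Pi.smul_apply,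
      Pi.zero_apply, Sum.elim_inl, smul_eq_mul, mul_ite, mul_one, mul_zero, Finset.sum_ite_eq,
      Finset.mem_range, hi, if_true, C.root.coroot_simple i hi i hi] at h1
    simpa using h1
  · intro i hi s hs ih t h
    have e : t = eta T F i s * (eta T F i s * t) := by rw [← mul_assoc, eta_sq, one_mul]
    have h2 := C.conj (F := F) hi hs (eta T F i s * t)
    rw [← e, h, one_mul] at h2
    have hn : IsUnit (D.nMat F (D.simple i) 1) := ⟨C.ng i, C.val_ng i⟩
    have h3 := ih (eta T F i s * t) (hn.mul_eq_left.1 h2)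
    exact (mul_eq_zero.1 h3).resolve_left (eta_ne_zero i s)

end Cfsg.Agent.S1024
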