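import Cfsg.Statements.S1026
import Cfsg.Agent.Lib.Chev.All
import Cfsg.Agent.Lib.Chev.Torus
import Cfsg.Agent.Lib.Chev.Unipotent

set_option autoImplicit false
open Cfsg Cfsg.Agent.Lib.Chev

namespace Cfsg.Agent.S1026

/-- Every element of `U` has a unique expression `∏_{r ∈ Φ⁺} x_r(t_r)`, the product over the positive roots in increasing index order (the coefficient family `t`, supported on the positive roots, exists and is unique); and conversely every such ordered product is the matrix of an element of `U`. -/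
theorem result {F : Type*} [Field F] (D : Cfsg.Lie.ChevalleyDatum) (hD : D ∈ [Cfsg.Lie.chevG2, Cfsg.Lie.chevB2, Cfsg.Lie.chevD4, Cfsg.Lie.chevF4, Cfsg.Lie.chevE6, Cfsg.Lie.chevE7, Cfsg.Lie.chevE8]) :
    (∀ g : GL D.Idx F, g ∈ D.posUnipotent F →
      ∃! t : ℕ → F, (∀ r, ¬ D.IsPosRoot r → t r = 0) ∧
        (g : Matrix D.Idx D.Idx F) = D.wordMat F (D.posRoots.map fun r => (r, t r))) ∧
    (∀ t : ℕ → F, ∃ g : GL D.Idx F, g ∈ D.posUnipotent F ∧
      (g : Matrix D.Idx D.Idx F) = D.wordMat F (D.posRoots.map fun r => (r, t r))) := by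
  obtain ⟨T, C⟩ := exists_checked hD
  refine ⟨fun g hg => ?_, fun t => ?_⟩
  · rw [posUnipotent_eq] at hg
    obtain ⟨t, rfl⟩ := C.exists_ordered C.closedSet_pos hg
    classical
    refine ⟨fun r => if D.IsPosRoot r then t r else 0, ⟨fun r hr => by simp [hr], ?_⟩, ?_⟩
    · rw [C.posRoots_eq, ← C.val_wg]
      congr 2
      exact List.map_congr_left fun r hr => by
        have : D.IsPosRoot r := (C.mem_rootList.1 hr).2
        simp [this]
    · rintro t' ⟨hz, he⟩
      rw [C.posRoots_eq, ← C.val_wg] at he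
      have h := C.ordered_inj _ (C.rootList_sorted _) (fun r hr => (C.mem_rootList.1 hr).2) t t'
        (Units.ext he)
      funext r
      show t' r = if D.IsPosRoot r then t r else 0
      by_cases hr : D.IsPosRoot r
      · rw [if_pos hr, h r (C.mem_rootList.2 ⟨hr.1, hr⟩)]
      · rw [if_neg hr, hz r hr]
  · refine ⟨C.wg (D.posRoots.map fun r => (r, t r)), ?_, C.val_wg _⟩
    rw [posUnipotent_eq]
    refine C.wg_mem _ fun p hp => ?_
    obtain ⟨r, hr, rfl⟩ := List.mem_map.1 hp
    rw [C.posRoots_eq] at hr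
    exact (C.mem_rootList.1 hr).2

end Cfsg.Agent.S1026
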