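import Cfsg.Statements.S1027
import Cfsg.Agent.Lib.Chev.All
import Cfsg.Agent.Lib.Chev.Torus
import Cfsg.Agent.Lib.Chev.Unipotent

set_option autoImplicit false
open Cfsg Cfsg.Agent.Lib.Chev

namespace Cfsg.Agent.S1027

/-- For the subgroup `U` generated by the root elements `x_r(t)` of the positive roots `r`: `|U| = q^N` over a field with `q` elements, where `N` is the number of positive roots (half the number of roots). -/
theorem result {F : Type*} [Field F] [Fintype F] (D : Cfsg.Lie.ChevalleyDatum) (hD : D ∈ [Cfsg.Lie.chevG2, Cfsg.Lie.chevB2, Cfsg.Lie.chevD4, Cfsg.Lie.chevF4, Cfsg.Lie.chevE6, Cfsg.Lie.chevE7, Cfsg.Lie.chevE8]) :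
    Nat.card (D.posUnipotent F) = Fintype.card F ^ (D.nroots / 2) := by
  obtain ⟨T, C⟩ := exists_checked hD
  classical
  have R := C.root
  set P := (Finset.range D.nroots).filter fun r => D.IsPosRoot r with hP
  have hmem : ∀ r, r ∈ P ↔ D.IsPosRoot r := fun r => by
    simp only [hP, Finset.mem_filter, Finset.mem_range]
    exact ⟨fun h => h.2, fun h => ⟨h.1, h⟩⟩
  let f : (P → F) → ↥(D.posUnipotent F) := fun t =>
    ⟨C.wg ((C.rootList {r | D.IsPosRoot r}).map fun r => (r, if h : r ∈ P then t ⟨r, h⟩ else 0)), by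
      rw [posUnipotent_eq]
      refine C.wg_mem _ fun p hp => ?_
      obtain ⟨r, hr, rfl⟩ := List.mem_map.1 hp
      exact (C.mem_rootList.1 hr).2⟩
  have hf : Function.Bijective f := by
    constructor
    · intro t t' h
      funext ⟨r, hr⟩
      have := C.ordered_inj _ (C.rootList_sorted _) (fun r hr => (C.mem_rootList.1 hr).2) _ _
        (congrArg Subtype.val h) r (C.mem_rootList.2 ⟨((hmem r).1 hr).1, (hmem r).1 hr⟩)
      simpa [hr] using this
    · rintro ⟨g, hg⟩
      rw [posUnipotent_eq] at hg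
      obtain ⟨t, rfl⟩ := C.exists_ordered C.closedSet_pos hg
      refine ⟨fun r => t r.1, Subtype.ext ?_⟩
      show C.wg _ = C.wg _
      congr 1
      exact List.map_congr_left fun r hr => by
        have : r ∈ P := (hmem r).2 (C.mem_rootList.1 hr).2
        simp [this]
  rw [← Nat.card_eq_of_bijective f hf, Nat.card_fun, Nat.card_eq_fintype_card (α := F)]
  congr 1
  rw [Nat.card_eq_finsetCard]
  have hneg : ((Finset.range D.nroots).filter fun r => ¬ D.IsPosRoot r).card = P.card := by
    refine Finset.card_bij (fun r _ => D.neg r) (fun r hr => ?_) (fun r hr s hs h => ?_) (fun r hr => ?_)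
    · obtain ⟨h1, h2⟩ := Finset.mem_filter.1 hr
      have h1 := Finset.mem_range.1 h1
      rw [hmem, R.pos_iff]
      refine ⟨R.neg_lt r h1, ?_⟩
      rw [R.key_neg r h1]
      have := R.key_ne r h1
      have : ¬ 0 < T.aux.key r := fun h => h2 ((R.pos_iff r).2 ⟨h1, h⟩)
      omega
    · exact R.neg_inj (Finset.mem_range.1 (Finset.mem_filter.1 hr).1)
        (Finset.mem_range.1 (Finset.mem_filter.1 hs).1) h
    · obtain ⟨h1, h2⟩ := (R.pos_iff r).1 ((hmem r).1 hr)
      refine ⟨D.neg r, Finset.mem_filter.2 ⟨Finset.mem_range.2 (R.neg_lt r h1), fun h => ?_⟩, R.neg_neg' h1⟩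
      have := ((R.pos_iff _).1 h).2
      rw [R.key_neg r h1] at this
      omega
  have := Finset.card_filter_add_card_filter_not (s := Finset.range D.nroots) (fun r => D.IsPosRoot r)
  rw [hneg, Finset.card_range, ← hP] at this
  omega

end Cfsg.Agent.S1027
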