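import Cfsg.Statements.S1028
import Cfsg.Agent.Lib.Chev.All
import Cfsg.Agent.Lib.Chev.Torus
import Cfsg.Agent.Lib.Chev.Unipotent

set_option autoImplicit false
open Cfsg Cfsg.Agent.Lib.Chev

namespace Cfsg.Agent.S1028

/-- Elements of `U` (the subgroup generated by the root elements of the positive roots) are unipotent linear maps: `(u - 1)^n = 0` with `n = rank + nroots` the dimension of the module. -/
theorem result {F : Type*} [Field F] (D : Cfsg.Lie.ChevalleyDatum) (hD : D ∈ [Cfsg.Lie.chevG2, Cfsg.Lie.chevB2, Cfsg.Lie.chevD4, Cfsg.Lie.chevF4, Cfsg.Lie.chevE6, Cfsg.Lie.chevE7, Cfsg.Lie.chevE8]) (g : GL D.Idx F) (hg : g ∈ D.posUnipotent F) :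
    ((g : Matrix D.Idx D.Idx F) - 1) ^ (D.rank + D.nroots) = 0 := by
  obtain ⟨T, C⟩ := exists_checked hD
  classical
  have hu := C.isUni_of_mem hg
  set M := (g : Matrix D.Idx D.Idx F) - 1 with hM
  let pos : D.Idx → ℕ := fun a => (Finset.univ.filter fun c => C.lev c < C.lev a).card
  have hpos : ∀ a b, M a b ≠ 0 → pos b < pos a := by
    intro a b h
    have hab : a ≠ b := by
      rintro rfl
      exact h (by rw [hM, Matrix.sub_apply, (hu a a).1 rfl, Matrix.one_apply_eq, sub_self])
    rw [hM, Matrix.sub_apply, Matrix.one_apply_ne hab, sub_zero] at h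
    have hlt := (hu a b).2 hab h
    refine Finset.card_lt_card ((Finset.ssubset_iff_of_subset fun c hc => ?_).2 ⟨b, ?_, ?_⟩)
    · simp at hc ⊢; omega
    · simp [hlt]
    · simp
  have hk : ∀ k a b, (M ^ k) a b ≠ 0 → pos b + k ≤ pos a := by
    intro k
    induction k with
    | zero =>
      intro a b h
      by_cases hab : a = b
      · subst hab; simp
      · simp [Matrix.one_apply_ne hab] at h
    | succ k ih =>
      intro a b h
      rw [pow_succ, Matrix.mul_apply] at h
      obtain ⟨c, -, hc⟩ := Finset.exists_ne_zero_of_sum_ne_zero h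
      have := ih a c (left_ne_zero_of_mul hc)
      have := hpos c b (right_ne_zero_of_mul hc)
      omega
  ext a b
  by_contra h
  have h1 := hk _ a b h
  have h2 : pos a < Fintype.card D.Idx :=
    Finset.card_lt_univ_of_notMem (x := a) (by simp)
  simp only [Cfsg.Lie.ChevalleyDatum.Idx, Fintype.card_sum, Fintype.card_fin] at h2
  omega

end Cfsg.Agent.S1028
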