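import Cfsg.Statements.S1035
import Cfsg.Agent.Lib.Chev.Orders

set_option autoImplicit false
open Cfsg Cfsg.Agent.Lib.Chev

namespace Cfsg.Agent.S1035

/-- `d · |H| = (q - 1)^rank` over a field with `q` elements, with `d = 1` (G₂, F₄, E₈), `gcd(3, q-1)` (E₆), `gcd(2, q-1)` (E₇, B₂), `gcd(2, q-1)²` (D₄). -/
theorem result {F : Type*} [Field F] [Fintype F] {q : ℕ} (hq : Fintype.card F = q)
    (p : Cfsg.Lie.ChevalleyDatum × ℕ)
    (hp : p ∈ [(Cfsg.Lie.chevG2, 1), (Cfsg.Lie.chevF4, 1), (Cfsg.Lie.chevE8, 1), (Cfsg.Lie.chevE6, Nat.gcd 3 (q - 1)),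
      (Cfsg.Lie.chevE7, Nat.gcd 2 (q - 1)), (Cfsg.Lie.chevB2, Nat.gcd 2 (q - 1)), (Cfsg.Lie.chevD4, Nat.gcd 2 (q - 1) ^ 2)]) :
    p.2 * Nat.card (p.1.diagonalSubgroup F) = (q - 1) ^ p.1.rank := by
  simp only [List.mem_cons, List.not_mem_nil, or_false] at hp
  subst hq
  rcases hp with rfl | rfl | rfl | rfl | rfl | rfl | rfl
  · have h := G2.checked.card_diag (F := F)
    rw [G2.checked.card_ker_cartanMap smith_G2, show G2.fast.l = 2 from rfl] at h
    simpa [Finset.prod_range_succ, Nat.gcd_comm] using h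
  · have h := F4.checked.card_diag (F := F)
    rw [F4.checked.card_ker_cartanMap smith_F4, show F4.fast.l = 4 from rfl] at h
    simpa [Finset.prod_range_succ, Nat.gcd_comm] using h
  · have h := E8.checked.card_diag (F := F)
    rw [E8.checked.card_ker_cartanMap smith_E8, show E8.fast.l = 8 from rfl] at h
    simpa [Finset.prod_range_succ, Nat.gcd_comm] using h
  · have h := E6.checked.card_diag (F := F)
    rw [E6.checked.card_ker_cartanMap smith_E6, show E6.fast.l = 6 from rfl] at h
    simpa [Finset.prod_range_succ, Nat.gcd_comm] using h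
  · have h := E7.checked.card_diag (F := F)
    rw [E7.checked.card_ker_cartanMap smith_E7, show E7.fast.l = 7 from rfl] at h
    simpa [Finset.prod_range_succ, Nat.gcd_comm] using h
  · have h := B2.checked.card_diag (F := F)
    rw [B2.checked.card_ker_cartanMap smith_B2, show B2.fast.l = 2 from rfl] at h
    simpa [Finset.prod_range_succ, Nat.gcd_comm] using h
  · have h := D4.checked.card_diag (F := F)
    rw [D4.checked.card_ker_cartanMap smith_D4, show D4.fast.l = 4 from rfl] at h
    simpa [Finset.prod_range_succ, Nat.gcd_comm, pow_two] using h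

end Cfsg.Agent.S1035
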