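import Cfsg.Statements.S1041
import Cfsg.Agent.Lib.Chev.All
import Cfsg.Agent.Lib.Chev.Torus
import Cfsg.Agent.Lib.Chev.Unipotent

set_option autoImplicit false
open Cfsg Cfsg.Agent.Lib.Chev

namespace Cfsg.Agent.S1041

/-- `U` and `V` generate the whole Chevalley group. -/
theorem result {F : Type*} [Field F] (D : Cfsg.Lie.ChevalleyDatum) (hD : D ∈ [Cfsg.Lie.chevG2, Cfsg.Lie.chevB2, Cfsg.Lie.chevD4, Cfsg.Lie.chevF4, Cfsg.Lie.chevE6, Cfsg.Lie.chevE7, Cfsg.Lie.chevE8]) : D.posUnipotent F ⊔ D.negUnipotent F = D.group F := by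
  obtain ⟨T, C⟩ := exists_checked hD
  refine le_antisymm (sup_le ?_ ?_) ?_
  · rw [posUnipotent_eq]
    exact C.grp_le fun r hr t => Subgroup.subset_closure ⟨⟨r, hr.1⟩, t, x_eq_xMat hr.1 t⟩
  · rw [negUnipotent_eq]
    exact C.grp_le fun r hr t => Subgroup.subset_closure ⟨⟨r, hr.1⟩, t, x_eq_xMat hr.1 t⟩
  · unfold Cfsg.Lie.ChevalleyDatum.group
    rw [Subgroup.closure_le]
    rintro g ⟨r, t, hg⟩
    have he : g = C.xg r.val t := C.eq_xg (hg.trans (x_eq_xMat r.2 t).symm)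
    rw [he]
    have hne : T.key r.val ≠ 0 := C.root.key_ne r.val r.2
    rcases lt_or_gt_of_ne hne with h | h
    · exact Subgroup.mem_sup_right (Subgroup.subset_closure
        ⟨r.val, t, (C.root.neg_iff _).2 ⟨r.2, h⟩, rfl⟩)
    · exact Subgroup.mem_sup_left (Subgroup.subset_closure
        ⟨r.val, t, (C.root.pos_iff _).2 ⟨r.2, h⟩, rfl⟩)

end Cfsg.Agent.S1041
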