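import Cfsg.Statements.S1044
import Cfsg.Agent.Lib.Chev.All
import Cfsg.Agent.Lib.Chev.Struct

set_option autoImplicit false
open Cfsg Cfsg.Agent.Lib.Chev Cfsg.Agent.Lib

namespace Cfsg.Agent.S1044

/-- For a fundamental root `p` the set `B ∪ B n_p B` is (the carrier of) a subgroup of the general linear group. -/
theorem result {F : Type*} [Field F] (D : Cfsg.Lie.ChevalleyDatum) (hD : D ∈ [Cfsg.Lie.chevG2, Cfsg.Lie.chevB2, Cfsg.Lie.chevD4, Cfsg.Lie.chevF4, Cfsg.Lie.chevE6, Cfsg.Lie.chevE7, Cfsg.Lie.chevE8]) (i : ℕ) (hi : i < D.rank) (n : GL D.Idx F)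
    (hn : (n : Matrix D.Idx D.Idx F) = D.nMat F (D.simple i) 1) :
    ∃ P : Subgroup (GL D.Idx F), (P : Set (GL D.Idx F)) =
      (D.borelSubgroup F : Set (GL D.Idx F)) ∪ DoubleCoset.doubleCoset n (D.borelSubgroup F : Set (GL D.Idx F)) (D.borelSubgroup F) := by
  obtain ⟨T, C⟩ := exists_checked hD
  obtain rfl : n = C.ng i := Units.ext (hn.trans (C.val_ng i).symm)
  have hB := C.borel_le_group (F := F)
  set P := C.bnPair F with hP
  refine ⟨(P.parabolic {((C.toS F i hi : P.S) : ↥(D.group F))}).map (D.group F).subtype,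
    Set.ext fun x => ⟨?_, ?_⟩⟩
  · rintro ⟨y, hy, rfl⟩
    obtain ⟨L, hL, hc⟩ := BN.exists_word_of_mem_parabolic P
      (Set.singleton_subset_iff.2 (C.toS F i hi).2) hy
    have hw : BN.word P L = 1 ∨ BN.word P L = BN.si P (C.toS F i hi) := by
      clear hc
      induction L with
      | nil => exact Or.inl rfl
      | cons s L ih =>
        rw [BN.word_cons, show s = C.toS F i hi from Subtype.ext (hL s (by simp))]
        rcases ih (fun t ht => hL t (by simp [ht])) with h | h <;> rw [h]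
        · exact Or.inr (mul_one _)
        · exact Or.inl (BN.si_mul_self P _)
    rcases hw with h | h <;> rw [h] at hc
    · exact Or.inl ((BN.mem_cell_one P).1 hc)
    · obtain ⟨b, hb, b', hb', e⟩ := (BN.mem_cell_cls P).1 hc
      exact Or.inr (DoubleCoset.mem_doubleCoset.2 ⟨b, hb, b', hb', congrArg Subtype.val e⟩)
  · rintro (hx | hx)
    · exact ⟨⟨x, hB hx⟩, Subgroup.mem_sup_left hx, rfl⟩
    · obtain ⟨b, hb, b', hb', rfl⟩ := DoubleCoset.mem_doubleCoset.1 hx
      refine Subgroup.mem_map.2 ⟨(⟨b, hB hb⟩ : ↥(D.group F)) *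
        ((C.toS F i hi : P.S) : ↥(D.group F)) * ⟨b', hB hb'⟩, ?_, rfl⟩
      exact mul_mem (mul_mem (Subgroup.mem_sup_left (show (⟨b, hB hb⟩ : ↥(D.group F)) ∈ P.B from hb))
        (Subgroup.mem_sup_right (Subgroup.subset_closure (Set.mem_singleton _))))
        (Subgroup.mem_sup_left (show (⟨b', hB hb'⟩ : ↥(D.group F)) ∈ P.B from hb'))

end Cfsg.Agent.S1044
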