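import Cfsg.Statements.S1045
import Cfsg.Agent.Lib.Chev.All
import Cfsg.Agent.Lib.Chev.Struct

set_option autoImplicit false
open Cfsg Cfsg.Agent.Lib.Chev

namespace Cfsg.Agent.S1045

/-- For a fundamental root `p`, the subgroup `U_p` generated by the `X_s`, `s` positive and `s ≠ p`, is normalised by `X_p` and `X_{-p}`, and `U = U_p ⊔ X_p`. -/
theorem result {F : Type*} [Field F] (D : Cfsg.Lie.ChevalleyDatum) (hD : D ∈ [Cfsg.Lie.chevG2, Cfsg.Lie.chevB2, Cfsg.Lie.chevD4, Cfsg.Lie.chevF4, Cfsg.Lie.chevE6, Cfsg.Lie.chevE7, Cfsg.Lie.chevE8]) (i : ℕ) (hi : i < D.rank) :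
    D.rootSubgroup F (D.simple i) ⊔ D.rootSubgroup F (D.neg (D.simple i)) ≤
        Subgroup.normalizer (Subgroup.closure {g : GL D.Idx F | ∃ (s : ℕ) (t : F), D.IsPosRoot s ∧ s ≠ D.simple i ∧
          (g : Matrix D.Idx D.Idx F) = D.x F s t} : Set (GL D.Idx F)) ∧
      Subgroup.closure {g : GL D.Idx F | ∃ (s : ℕ) (t : F), D.IsPosRoot s ∧ s ≠ D.simple i ∧
          (g : Matrix D.Idx D.Idx F) = D.x F s t} ⊔ D.rootSubgroup F (D.simple i) = D.posUnipotent F := by
  obtain ⟨T, C⟩ := exists_checked hD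
  have hp := C.root.pos_simple hi
  set S : Subgroup (GL D.Idx F) := grp D F (C.posBut i) with hS
  have hset : Subgroup.closure {g : GL D.Idx F | ∃ (s : ℕ) (t : F), D.IsPosRoot s ∧ s ≠ D.simple i ∧
      (g : Matrix D.Idx D.Idx F) = D.x F s t} = S := by
    refine le_antisymm ((Subgroup.closure_le _).2 ?_) (C.grp_le fun r hr t => ?_)
    · rintro x ⟨s, t, hs, hne, e⟩
      rw [C.eq_xg e]
      exact C.xg_mem (S := C.posBut i) ⟨hs, hne⟩ t
    · exact Subgroup.subset_closure ⟨r, t, hr.1, hr.2, rfl⟩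
  rw [hset]
  have hn : C.ng i ∈ Subgroup.normalizer (S : Set (GL D.Idx F)) := by
    refine C.mem_normalizer_of_conj (fun y hy => C.ng_conj_posBut hi hy) fun y hy => ?_
    have hq := inv_mem (C.ng_sq_mem (F := F) hi)
    have h1 := C.diag_normalizes (S := C.posBut i) (fun r hr => hr.1.1) hq (C.ng_conj_posBut hi hy)
    convert h1 using 1
    group
  have hX : D.rootSubgroup F (D.simple i) ≤ Subgroup.normalizer (S : Set (GL D.Idx F)) := by
    refine (Subgroup.closure_le _).2 ?_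
    rintro g ⟨t, e⟩
    rw [C.eq_xg e]
    refine C.mem_normalizer_of_conj (fun y hy => ?_) fun y hy => ?_
    · rw [C.xg_inv]
      simpa using C.xg_norm_posBut hi (-t) hy
    · rw [C.xg_inv]
      exact C.xg_norm_posBut hi t hy
  refine ⟨sup_le hX ((Subgroup.closure_le _).2 ?_), le_antisymm ?_ ?_⟩
  · rintro g ⟨t, e⟩
    have h1 := C.ng_xg hi hp.1 (eta T F i (D.simple i) * t)
    rw [C.root.refl_simple hi, ← mul_assoc, eta_sq, one_mul, ← mul_inv_eq_iff_eq_mul] at h1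
    rw [C.eq_xg e, ← h1]
    exact mul_mem (mul_mem hn (hX (Subgroup.subset_closure ⟨_, rfl⟩))) (inv_mem hn)
  · refine sup_le ?_ ((Subgroup.closure_le _).2 ?_)
    · exact C.grp_le fun r hr t => C.xg_mem_pos hr.1 t
    · rintro g ⟨t, e⟩
      rw [C.eq_xg e]
      exact C.xg_mem_pos hp t
  · intro u hu
    obtain ⟨y, hy, a, rfl⟩ := C.exists_posBut_mul hi hu
    exact mul_mem (Subgroup.mem_sup_left hy)
      (Subgroup.mem_sup_right (Subgroup.subset_closure ⟨a, rfl⟩))

end Cfsg.Agent.S1045
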