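import Cfsg.Statements.S1046
import Cfsg.Agent.Lib.Chev.All
import Cfsg.Agent.Lib.Chev.Struct

set_option autoImplicit false
open Cfsg Cfsg.Agent.Lib.Chev

namespace Cfsg.Agent.S1046

/-- Two elements of `H` conjugate in the Chevalley group are conjugate by an element of `N`. -/
theorem result {F : Type*} [Field F] (D : Cfsg.Lie.ChevalleyDatum) (hD : D ∈ [Cfsg.Lie.chevG2, Cfsg.Lie.chevB2, Cfsg.Lie.chevD4, Cfsg.Lie.chevF4, Cfsg.Lie.chevE6, Cfsg.Lie.chevE7, Cfsg.Lie.chevE8]) (h₁ h₂ g : GL D.Idx F) (h1 : h₁ ∈ D.diagonalSubgroup F) (h2 : h₂ ∈ D.diagonalSubgroup F)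
    (hg : g ∈ D.group F) (hc : g * h₁ * g⁻¹ = h₂) :
    ∃ n ∈ D.monomialSubgroup F, n * h₁ * n⁻¹ = h₂ := by
  obtain ⟨T, C⟩ := exists_checked hD
  obtain ⟨b, hb, n, hn, u, hu, rfl⟩ := C.exists_bnu hg
  refine ⟨n, hn, ?_⟩
  have hk := C.mono_conj_diag hn h₁ h1
  have hS : ∀ r ∈ C.inv n, r < D.nroots := fun r hr => hr.1.1
  have hu' : h₁⁻¹ * u * h₁ ∈ grp D F (C.inv n) := by
    simpa using C.diag_normalizes hS (inv_mem h1) hu
  have e : (b * (n * h₁ * n⁻¹)) * n * (h₁⁻¹ * u * h₁) = (h₂ * b) * n * u := by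
    calc (b * (n * h₁ * n⁻¹)) * n * (h₁⁻¹ * u * h₁)
        = (b * n * u) * h₁ * (b * n * u)⁻¹ * (b * n * u) := by group
      _ = (h₂ * b) * n * u := by rw [hc]; group
  obtain ⟨e1, -⟩ := (C.bnu_unique (mul_mem hb (Subgroup.mem_sup_right hk))
    (mul_mem (Subgroup.mem_sup_right h2) hb) hn hn hu' hu e).2 rfl
  obtain ⟨v, hv, h, hh, rfl⟩ := C.mem_borel.1 hb
  set k := n * h₁ * n⁻¹ with hkdef
  have e2 : v * k = h₂ * v := by
    have : v * k * h = h₂ * v * h := by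
      rw [mul_assoc, C.diag_comm hk hh, ← mul_assoc, e1, mul_assoc]
    exact mul_right_cancel this
  have h3 : (h₂ * v * h₂⁻¹)⁻¹ * v ∈ D.posUnipotent F ⊓ D.diagonalSubgroup F := by
    refine Subgroup.mem_inf.2 ⟨mul_mem (inv_mem (C.diag_normalizes_pos h2 hv)) hv, ?_⟩
    have : (h₂ * v * h₂⁻¹)⁻¹ * v = h₂ * k⁻¹ := by
      rw [← e2]; group
    rw [this]
    exact mul_mem h2 (inv_mem hk)
  rw [C.pos_inf_diag, Subgroup.mem_bot, ← e2] at h3
  have : h₂ * k⁻¹ = 1 := by rw [← h3]; group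
  exact (mul_inv_eq_one.1 this).symm

end Cfsg.Agent.S1046
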