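import Cfsg.Statements.S1057
import Cfsg.Agent.Lib.Chev.SUThreePts

set_option autoImplicit false
open Cfsg Cfsg.Agent.Lib.Chev

namespace Cfsg.Agent.S1057

/-- G₂(2)′ ≅ PSU₃(3). -/
theorem result {F K : Type*} [Field F] [Fintype F] [Field K] [Fintype K] (hF : Fintype.card F = 2) (hK : Fintype.card K = 9) :
    Nonempty (↥(commutator ↥(Cfsg.Lie.chevG2.group F)) ≃* Cfsg.PSU 3 K 3) := by
  classical
  obtain ⟨φ, hr, hcard⟩ := G2Two.exists_action hF
  obtain ⟨Q, hQ, hperf, hQcard, ⟨eQ⟩⟩ := G2Two.exists_embedding hK φ.range hr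
  set N := commutator ↥(Cfsg.Lie.chevG2.group F)
  have hle : Q ≤ N.map φ := by
    have h1 : Q = ⁅Q, Q⁆ := by
      conv_lhs => rw [← Q.range_subtype, MonoidHom.range_eq_map, ← hperf, commutator_def, Subgroup.map_commutator,
        ← MonoidHom.range_eq_map, Q.range_subtype]
    rw [h1, show N = ⁅(⊤ : Subgroup ↥(Cfsg.Lie.chevG2.group F)), ⊤⁆ from commutator_def _,
      Subgroup.map_commutator, ← MonoidHom.range_eq_map]
    exact Subgroup.commutator_mono hQ hQ
  have hNQ : Nat.card ↥(N.map φ) ≤ Nat.card ↥N := Nat.le_of_dvd Nat.card_pos (N.card_map_dvd φ)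
  have hQN : Q = N.map φ := Subgroup.eq_of_le_of_card_ge hle (by omega)
  have hsurj : Function.Surjective (φ.subgroupMap N) := φ.subgroupMap_surjective N
  have hbij : Function.Bijective (φ.subgroupMap N) :=
    (Nat.bijective_iff_surjective_and_card _).2 ⟨hsurj, by rw [← hQN] at hNQ ⊢; omega⟩
  exact ⟨(MulEquiv.ofBijective _ hbij).trans ((MulEquiv.subgroupCongr hQN.symm).trans eQ)⟩

end Cfsg.Agent.S1057
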