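import Cfsg.Statements.S1078

import Cfsg.Agent.Lib.SteinbergPres.Cover.Embed
import Cfsg.Agent.Lib.SteinbergPres.Cover.Checks
import Cfsg.Agent.S1077
set_option autoImplicit false
open Cfsg

namespace Cfsg.Agent.S1078

open Cfsg.Agent.Lib.Chev Cfsg.Agent.Lib.SteinbergPres.Cover

/-- For G₂, F₄, E₈ the presented group has trivial centre (the universal and adjoint groups coincide). -/
theorem result {K : Type*} [Field K] (D : Cfsg.Lie.ChevalleyDatum) (hD : D ∈ [Cfsg.Lie.chevG2, Cfsg.Lie.chevF4, Cfsg.Lie.chevE8]) :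
    Subgroup.center (D.SteinbergGroup K) = ⊥ := by
  obtain ⟨θ, -, hker, hθ⟩ := Cfsg.Agent.S1077.result (K := K) D (by
    simp only [List.mem_cons, List.not_mem_nil, or_false] at hD ⊢; tauto)
  rw [← hker]
  simp only [List.mem_cons, List.not_mem_nil, or_false] at hD
  rcases hD with rfl | rfl | rfl
  · rw [ker_eq_map (C := G2.checked) θ hθ cover_G2, Subgroup.eq_bot_iff_forall]
    rintro _ ⟨c, hc, rfl⟩
    rw [cartanMap_injective_of_smith G2.checked smith_G2 (by decide) c hc, map_one]
  · rw [ker_eq_map (C := F4.checked) θ hθ cover_F4, Subgroup.eq_bot_iff_forall]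
    rintro _ ⟨c, hc, rfl⟩
    rw [cartanMap_injective_of_smith F4.checked smith_F4 (by decide) c hc, map_one]
  · rw [ker_eq_map (C := E8.checked) θ hθ cover_E8, Subgroup.eq_bot_iff_forall]
    rintro _ ⟨c, hc, rfl⟩
    rw [cartanMap_injective_of_smith E8.checked smith_E8 (by decide) c hc, map_one]

end Cfsg.Agent.S1078
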