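import Cfsg.Statements.S1087
import Cfsg.Agent.Lib.Chev.TwistD4
import Cfsg.Agent.Lib.Chev.TwistBN

set_option autoImplicit false
open Cfsg Cfsg.Agent.Lib.Chev

namespace Cfsg.Agent.S1087

/-- ³D₄(q) has a (B,N)-pair: B¹ = G¹ ∩ B and N¹ = G¹ ∩ N, intersections with the ambient Chevalley group's B = UH and N. -/
theorem result {K : Type*} [Field K] [Fintype K] {q : ℕ} (hq : IsPrimePow q) (hK : Fintype.card K = q ^ 3) :
    ∃ P : Cfsg.BNPair ↥(Cfsg.Lie.twistedD4 K q),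
      P.B = (Cfsg.Lie.chevD4.borelSubgroup K ⊓ Cfsg.Lie.twistedD4 K q).subgroupOf (Cfsg.Lie.twistedD4 K q) ∧
      P.N = (Cfsg.Lie.chevD4.monomialSubgroup K ⊓ Cfsg.Lie.twistedD4 K q).subgroupOf (Cfsg.Lie.twistedD4 K q) := by
  obtain ⟨φ, hφ⟩ := exists_frob hq (by norm_num) hK
  exact (D4.tw_orth φ).exists_bnPairT (D4.gens φ hφ hK) (D4.diag_fixed_le φ hφ hK)

end Cfsg.Agent.S1087
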