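import Cfsg.Statements.S1088
import Cfsg.Agent.Lib.Chev.TwistD4

set_option autoImplicit false
open Cfsg Cfsg.Agent.Lib.Chev

namespace Cfsg.Agent.S1088

/-- |U¹| = |G¹ ∩ U| = q ^ 12 for ³D₄(q). -/
theorem result {K : Type*} [Field K] [Fintype K] {q : ℕ} (hq : IsPrimePow q) (hK : Fintype.card K = q ^ 3) :
    Nat.card ↥(Cfsg.Lie.chevD4.posUnipotent K ⊓ Cfsg.Lie.twistedD4 K q) = q ^ 12 := by
  obtain ⟨φ, hφ⟩ := exists_frob hq (by norm_num) hK
  exact D4.card_unipotent φ hφ hq.one_lt.le hK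

end Cfsg.Agent.S1088
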