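import Cfsg.Statements.S1095
import Cfsg.Agent.Lib.Chev.All

set_option autoImplicit false
open Cfsg Cfsg.Agent.Lib.Chev

namespace Cfsg.Agent.S1095

/-- `n_p` (p = p_{i+1} fundamental) is the signed monomial matrix `h_{p_j} ↦ h_{p_j} - A_{p_j,p} h_p`, `e_s ↦ η_s e_{w_p(s)}`, with `η_s = ±1`, `η_p = η_{-p} = -1`, `η_s η_{w_p(s)} = (-1)^{A_{p,s}}`, `η_s η_{-s} = 1`. -/
theorem result {F : Type*} [Field F] (D : Cfsg.Lie.ChevalleyDatum) (hD : D ∈ [Cfsg.Lie.chevG2, Cfsg.Lie.chevB2, Cfsg.Lie.chevD4, Cfsg.Lie.chevF4, Cfsg.Lie.chevE6, Cfsg.Lie.chevE7, Cfsg.Lie.chevE8]) (i : ℕ) (hi : i < D.rank) :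
    ∃ η : ℕ → ℤ, (∀ s < D.nroots, η s = 1 ∨ η s = -1) ∧ η (D.simple i) = -1 ∧ η (D.neg (D.simple i)) = -1 ∧
      (∀ s < D.nroots, η s * η (D.reflectRoot i s) = (-1) ^ (D.cartan i s).natAbs ∧ η s * η (D.neg s) = 1) ∧
      D.nMat F (D.simple i) 1 = Matrix.of (fun (row col : D.Idx) =>
        Sum.elim
          (fun j' : Fin D.rank => Sum.elim
            (fun j : Fin D.rank => (if j' = j then (1 : F) else 0) - (if (j' : ℕ) = i then ((D.cartan j (D.simple i) : ℤ) : F) else 0))
            (fun _ => (0 : F)) col)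
          (fun s' : Fin D.nroots => Sum.elim
            (fun _ => (0 : F))
            (fun s : Fin D.nroots => if (s' : ℕ) = D.reflectRoot i s then ((η s : ℤ) : F) else 0) col)
          row) := by
  obtain ⟨T, C⟩ := exists_checked hD
  have R := C.root
  have hp := R.simple_lt i hi
  refine ⟨fun s => sgn (T.en i s), fun s _ => ?_, ?_, ?_, fun s hs => ⟨R.en_refl i hi s hs, ?_⟩, ?_⟩
  · show sgn (T.en i s) = 1 ∨ sgn (T.en i s) = -1
    cases T.en i s
    · exact Or.inl rfl
    · exact Or.inr rfl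
  · show sgn (T.en i (D.simple i)) = -1
    have h : T.en i (D.simple i) = true := R.en_simple i hi
    rw [h]; rfl
  · show sgn (T.en i (D.neg (D.simple i))) = -1
    have h : T.en i (D.neg (D.simple i)) = T.en i (D.simple i) := R.en_neg i hi _ hp
    have h' : T.en i (D.simple i) = true := R.en_simple i hi
    rw [h, h']; rfl
  · show sgn (T.en i s) * sgn (T.en i (D.neg s)) = 1
    have h : T.en i (D.neg s) = T.en i s := R.en_neg i hi s hs
    rw [h, sgn_sq]
  · have N : NAction D T.aux F i := C.nAction hi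
    ext row col
    rcases col with j | v
    · have h := congrFun (N.bh j j.2) row
      simp only [mulVec_bh] at h
      rw [h]
      rcases row with j' | u
      · simp [bh_apply, Fin.ext_iff]
      · simp [bh_apply]
    · have h := congrFun (N.bv v v.2) row
      simp only [mulVec_bv] at h
      rw [h]
      rcases row with j' | u
      · simp [bv_apply]
      · by_cases hu : (u : ℕ) = D.reflectRoot i v <;> simp [bv_apply, hu, Fast.aux]

end Cfsg.Agent.S1095
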