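import Cfsg.Statements.S1097

import Cfsg.Agent.Lib.SteinbergPres.Cover.Inst
import Cfsg.Agent.Lib.SteinbergPres.Cover.Checks
set_option autoImplicit false
open Cfsg

namespace Cfsg.Agent.S1097

open Cfsg.Agent.Lib.Chev Cfsg.Agent.Lib.SteinbergPres.Cover

/-- Any homomorphism from the presented group to the Chevalley group with `x̄_r(t) ↦ x_r(t)` has kernel contained in `H̄ = ⟨h̄_p(t) : p fundamental, t ≠ 0⟩`. -/
theorem result {K : Type*} [Field K] (D : Cfsg.Lie.ChevalleyDatum) (hD : D ∈ [Cfsg.Lie.chevG2, Cfsg.Lie.chevB2, Cfsg.Lie.chevD4, Cfsg.Lie.chevF4, Cfsg.Lie.chevE6, Cfsg.Lie.chevE7, Cfsg.Lie.chevE8]) (θ : D.SteinbergGroup K →* ↥(D.group K))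
    (hθ : ∀ (r : ℕ) (t : K), r < D.nroots → ((θ (D.stGen K r t) : GL D.Idx K) : Matrix D.Idx D.Idx K) = D.x K r t) :
    θ.ker ≤ Subgroup.closure {h | ∃ (i : ℕ) (t : K), i < D.rank ∧ t ≠ 0 ∧ h = PresentedGroup.mk (D.steinbergRels K) (D.stH (D.simple i) t)} := by
  obtain ⟨T, C, hcc⟩ := exists_checked_cover hD
  set X := stGrp C θ hθ with hX
  rw [← mem_ker_pr X rfl]
  refine (X.ker_le hcc).trans (inf_le_right.trans (le_of_eq (congrArg Subgroup.closure ?_)))
  refine Set.ext fun h => exists_congr fun i => exists_congr fun t => ?_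
  rw [Cfsg.Lie.ChevalleyDatum.stH, mk_word]
  exact Iff.rfl

end Cfsg.Agent.S1097
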