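import Cfsg.Statements.S1099
import Cfsg.Agent.Lib.Chev.GraphIsoAll

set_option autoImplicit false
open Cfsg Cfsg.Agent.Lib.Chev

namespace Cfsg.Agent.S1099

/-- Graph automorphism of G₂ in characteristic 3 (K perfect): `x_a(t) ↦ x_b(t³)`, `x_b(t) ↦ x_a(t)`, `x_{-a}(t) ↦ x_{-b}(t³)`, `x_{-b}(t) ↦ x_{-a}(t)` extend to an automorphism of the group. -/
theorem result {K : Type*} [Field K] [CharP K 3] (hperf : ∀ x : K, ∃ y : K, y ^ 3 = x) :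
    ∃ α : ↥(Cfsg.Lie.chevG2.group K) ≃* ↥(Cfsg.Lie.chevG2.group K), ∀ (g : ↥(Cfsg.Lie.chevG2.group K)) (t : K),
      (((g : GL Cfsg.Lie.chevG2.Idx K) : Matrix _ _ K) = Cfsg.Lie.chevG2.x K Cfsg.Lie.g2a t →
        ((α g : GL Cfsg.Lie.chevG2.Idx K) : Matrix _ _ K) = Cfsg.Lie.chevG2.x K Cfsg.Lie.g2b (t ^ 3)) ∧
      (((g : GL Cfsg.Lie.chevG2.Idx K) : Matrix _ _ K) = Cfsg.Lie.chevG2.x K Cfsg.Lie.g2b t →
        ((α g : GL Cfsg.Lie.chevG2.Idx K) : Matrix _ _ K) = Cfsg.Lie.chevG2.x K Cfsg.Lie.g2a t) ∧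
      (((g : GL Cfsg.Lie.chevG2.Idx K) : Matrix _ _ K) = Cfsg.Lie.chevG2.x K Cfsg.Lie.g2ma t →
        ((α g : GL Cfsg.Lie.chevG2.Idx K) : Matrix _ _ K) = Cfsg.Lie.chevG2.x K Cfsg.Lie.g2mb (t ^ 3)) ∧
      (((g : GL Cfsg.Lie.chevG2.Idx K) : Matrix _ _ K) = Cfsg.Lie.chevG2.x K Cfsg.Lie.g2mb t →
        ((α g : GL Cfsg.Lie.chevG2.Idx K) : Matrix _ _ K) = Cfsg.Lie.chevG2.x K Cfsg.Lie.g2ma t) := by
  haveI : Fact (Nat.Prime 3) := ⟨by norm_num⟩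
  haveI : CharP K G2.iso.p := ‹CharP K 3›
  haveI : ExpChar K G2.iso.p := ExpChar.prime (by norm_num [G2.iso])
  obtain ⟨α, hα⟩ := G2.isoData.exists_graph G2.checked (F := K) hperf
  have key : (G2.iso.ρ Cfsg.Lie.g2a = Cfsg.Lie.g2b ∧ G2.iso.lam Cfsg.Lie.g2a = 3) ∧
      (G2.iso.ρ Cfsg.Lie.g2b = Cfsg.Lie.g2a ∧ G2.iso.lam Cfsg.Lie.g2b = 1) ∧
      (G2.iso.ρ Cfsg.Lie.g2ma = Cfsg.Lie.g2mb ∧ G2.iso.lam Cfsg.Lie.g2ma = 3) ∧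
      (G2.iso.ρ Cfsg.Lie.g2mb = Cfsg.Lie.g2ma ∧ G2.iso.lam Cfsg.Lie.g2mb = 1) := by decide +kernel
  obtain ⟨⟨a1, a2⟩, ⟨b1, b2⟩, ⟨c1, c2⟩, d1, d2⟩ := key
  refine ⟨α, fun g t => ⟨fun e => ?_, fun e => ?_, fun e => ?_, fun e => ?_⟩⟩
  · simpa [a1, a2] using hα g Cfsg.Lie.g2a t (by decide +kernel) e
  · simpa [b1, b2] using hα g Cfsg.Lie.g2b t (by decide +kernel) e
  · simpa [c1, c2] using hα g Cfsg.Lie.g2ma t (by decide +kernel) e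
  · simpa [d1, d2] using hα g Cfsg.Lie.g2mb t (by decide +kernel) e

end Cfsg.Agent.S1099
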