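import Cfsg.Statements.S1100
import Cfsg.Agent.Lib.Chev.All
import Cfsg.Agent.Lib.Chev.Struct

set_option autoImplicit false
open Cfsg Cfsg.Agent.Lib.Chev

namespace Cfsg.Agent.S1100

/-- Canonical form `g = b n_w u` (`b ∈ B`, `u ∈ U_w⁻ = ⟨X_r : r > 0, n_w X_r n_w⁻¹ ≤ V⟩`): such a decomposition exists for every element of the group; the coset `n_w H` is determined by `g`; and for a fixed representative `n_w` the factors `b`, `u` are unique. -/
theorem result {F : Type*} [Field F] (D : Cfsg.Lie.ChevalleyDatum) (hD : D ∈ [Cfsg.Lie.chevG2, Cfsg.Lie.chevB2, Cfsg.Lie.chevD4, Cfsg.Lie.chevF4, Cfsg.Lie.chevE6, Cfsg.Lie.chevE7, Cfsg.Lie.chevE8]) :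
    (∀ g ∈ D.group F, ∃ b ∈ D.borelSubgroup F, ∃ n ∈ D.monomialSubgroup F,
      ∃ u ∈ Subgroup.closure {x : GL D.Idx F | ∃ (r : ℕ) (t : F), D.IsPosRoot r ∧
            (D.rootSubgroup F r).map (MulAut.conj n).toMonoidHom ≤ D.negUnipotent F ∧ (x : Matrix D.Idx D.Idx F) = D.x F r t},
        g = b * n * u) ∧
    (∀ (b b' n n' u u' : GL D.Idx F), b ∈ D.borelSubgroup F → b' ∈ D.borelSubgroup F →
      n ∈ D.monomialSubgroup F → n' ∈ D.monomialSubgroup F →
      u ∈ Subgroup.closure {x : GL D.Idx F | ∃ (r : ℕ) (t : F), D.IsPosRoot r ∧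
            (D.rootSubgroup F r).map (MulAut.conj n).toMonoidHom ≤ D.negUnipotent F ∧ (x : Matrix D.Idx D.Idx F) = D.x F r t} →
      u' ∈ Subgroup.closure {x : GL D.Idx F | ∃ (r : ℕ) (t : F), D.IsPosRoot r ∧
            (D.rootSubgroup F r).map (MulAut.conj n').toMonoidHom ≤ D.negUnipotent F ∧ (x : Matrix D.Idx D.Idx F) = D.x F r t} →
      b * n * u = b' * n' * u' → n⁻¹ * n' ∈ D.diagonalSubgroup F ∧ (n = n' → b = b' ∧ u = u')) := by
  obtain ⟨T, C⟩ := exists_checked hD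
  have key : ∀ n ∈ D.monomialSubgroup F, ∀ r, D.IsPosRoot r →
      ((D.rootSubgroup F r).map (MulAut.conj n).toMonoidHom ≤ D.negUnipotent F ↔ r ∈ C.inv n) := by
    intro n hn r hr
    obtain ⟨c, hc, hconj⟩ := C.sg_conj hn hr.1
    constructor
    · intro h
      refine ⟨hr, (C.key_trichotomy (C.sg_lt hn hr.1)).resolve_left fun hp => ?_⟩
      have h1 : C.xg (C.sg n r) (c * 1) ∈ D.borelSubgroup F ⊓ D.negUnipotent F := by
        refine Subgroup.mem_inf.2 ⟨C.xg_mem_borel hp _, h ?_⟩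
        refine ⟨C.xg r 1, ?_, hconj 1⟩
        exact Subgroup.subset_closure ⟨1, rfl⟩
      rw [C.borel_inf_neg, Subgroup.mem_bot] at h1
      exact mul_ne_zero hc one_ne_zero (C.xg_eq_one (C.sg_lt hn hr.1) h1)
    · intro h
      rw [Subgroup.map_le_iff_le_comap]
      refine (Subgroup.closure_le _).2 ?_
      rintro g ⟨t, hg⟩
      show n * g * n⁻¹ ∈ D.negUnipotent F
      rw [C.eq_xg hg, hconj t]
      exact C.xg_mem_neg h.2 _
  have hset : ∀ n ∈ D.monomialSubgroup F,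
      Subgroup.closure {x : GL D.Idx F | ∃ (r : ℕ) (t : F), D.IsPosRoot r ∧
        (D.rootSubgroup F r).map (MulAut.conj n).toMonoidHom ≤ D.negUnipotent F ∧
          (x : Matrix D.Idx D.Idx F) = D.x F r t} = grp D F (C.inv n) := by
    intro n hn
    refine le_antisymm ((Subgroup.closure_le _).2 ?_) (C.grp_le fun r hr t => ?_)
    · rintro x ⟨r, t, hr, hle, e⟩
      rw [C.eq_xg e]
      exact C.xg_mem ((key n hn r hr).1 hle) t
    · exact Subgroup.subset_closure ⟨r, t, hr.1, (key n hn r hr.1).2 hr, rfl⟩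
  refine ⟨fun g hg => ?_, fun b b' n n' u u' hb hb' hn hn' hu hu' e => ?_⟩
  · obtain ⟨b, hb, n, hn, u, hu, e⟩ := C.exists_bnu hg
    exact ⟨b, hb, n, hn, u, (hset n hn).symm ▸ hu, e⟩
  · rw [hset n hn] at hu
    rw [hset n' hn'] at hu'
    exact C.bnu_unique hb hb' hn hn' hu hu' e

end Cfsg.Agent.S1100
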