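import Cfsg.Statements.S1118
import Mathlib
import Cfsg.Agent.Lib.RankOne.Basic

set_option autoImplicit false
open Cfsg

namespace Cfsg.Agent.S1118

open Cfsg.Agent.Lib.RankOne MulAction

/-- In the rank-one set-up (`G` finite and doubly transitive on `Ω`, `t` an involution moving `a`, `Q` normal in `G_a` with `G_a = Q D`, `Q ⊓ D = 1` for the two-point stabiliser `D = G_a ⊓ G_{t • a}`, `|Q|` even, `|D|` odd), the normaliser of a subset of `Q` containing a non-identity element lies in `G_a`; consequently `N_G(Q) = N_G(G_a) = G_a`. -/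
theorem result {G Ω : Type*} [Group G] [Finite G] [MulAction G Ω] {a : Ω} {t : G} {Q : Subgroup G}
    (hS : Cfsg.IsRankOneSetup G Ω a t Q) :
    (∀ X : Set G, X ⊆ (Q : Set G) → (∃ x ∈ X, x ≠ 1) → Subgroup.normalizer X ≤ MulAction.stabilizer G a) ∧
      Subgroup.normalizer (Q : Set G) = MulAction.stabilizer G a ∧
      Subgroup.normalizer (MulAction.stabilizer G a : Set G) = MulAction.stabilizer G a := by
  refine ⟨fun X hX h => normalizer_le hS hX h, ?_, ?_⟩
  · obtain ⟨s, hs, hs1, -⟩ := exists_invol_Q hS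
    refine le_antisymm (normalizer_le hS le_rfl ⟨s, hs, hs1⟩) fun g hg => ?_
    refine Subgroup.mem_normalizer_iff.mpr fun x => ⟨hS.conj_mem g hg x, fun h => ?_⟩
    have := hS.conj_mem g⁻¹ (inv_mem hg) _ h
    simpa [mul_assoc] using this
  · refine le_antisymm (fun g hg => ?_) Subgroup.le_normalizer
    obtain ⟨s, hs, hs1, hss⟩ := exists_invol_Q hS
    have h := (Subgroup.mem_normalizer_iff.mp hg s).mp (hS.le hs)
    have hconj : g * s * g⁻¹ * (g * s * g⁻¹) = 1 := by
      simp only [mul_assoc, inv_mul_cancel_left]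
      rw [← mul_assoc s s, hss, one_mul, mul_inv_cancel]
    refine (eq_base_of_invol hS h (fun h' => hs1 (conj_eq_one_iff.mp h')) hconj (c := g • a) ?_)
    rw [mul_smul, mul_smul, inv_smul_smul, fix_of_mem_Q hS hs]

end Cfsg.Agent.S1118
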