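import Cfsg.Statements.S1120
import Mathlib
import Cfsg.Agent.Lib.RankOne.Structure
import Cfsg.Agent.S0502
import Cfsg.Agent.Lib.Coprime.Abelian
import Cfsg.Agent.Lib.Hall.Basic

set_option autoImplicit false
open Cfsg

namespace Cfsg.Agent.S1120

open Cfsg.Agent.Lib.RankOne MulAction

/-- In the rank-one set-up (`G` finite and doubly transitive on `Ω`, `t` an involution moving `a`, `Q` normal in `G_a` with `G_a = Q D`, `Q ⊓ D = 1` for the two-point stabiliser `D = G_a ⊓ G_{t • a}`, `|Q|` even, `|D|` odd), if `G` has 2-rank at least 2 then `O_{2'}(G)` equals the normal core of `G_a`. -/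
theorem result {G Ω : Type*} [Group G] [Finite G] [MulAction G Ω] {a : Ω} {t : G} {Q : Subgroup G}
    (hS : Cfsg.IsRankOneSetup G Ω a t Q)
    (h2 : ∃ x y : G, x ≠ 1 ∧ y ≠ 1 ∧ x ≠ y ∧ x * x = 1 ∧ y * y = 1 ∧ x * y = y * x) :
    Cfsg.pPrimeCore 2 G = (MulAction.stabilizer G a).normalCore := by
  obtain ⟨x, y, hx1, hy1, hxy, hx, hy, hcomm⟩ := h2
  obtain ⟨p, hp, -⟩ := fix_unique hS hx1 hx
  have hyp : y • p = p :=
    fix_eq hS hx1 hx (by rw [smul_smul, hcomm, mul_smul, hp]) hp
  set B := S0502.fourGroup x y hx hy hcomm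
  have hK := S0502.fourGroup_isKleinFour x y hx hy hcomm hx1 hy1 hxy.symm
  have hBfix : ∀ b ∈ B, b • p = p := by
    rintro b (rfl | rfl | rfl | rfl)
    · exact one_smul G p
    · exact hp
    · exact hyp
    · rw [mul_smul, hyp, hp]
  have hBsq : ∀ b ∈ B, b * b = 1 := fun b hb =>
    congrArg Subtype.val (IsKleinFour.mul_self (⟨b, hb⟩ : B) : (⟨b, hb⟩ : B) * ⟨b, hb⟩ = 1)
  have hBc : ∀ u ∈ B, ∀ v ∈ B, u * v = v * u := fun u hu v hv => by
    have := hBsq _ (mul_mem hu hv)
    calc u * v = (u * v)⁻¹ := (inv_eq_of_mul_eq_one_right this).symm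
      _ = v * u := by
        rw [mul_inv_rev, inv_eq_of_mul_eq_one_right (hBsq u hu),
          inv_eq_of_mul_eq_one_right (hBsq v hv)]
  have hB4 : Nat.card B = 2 ^ 2 := hK.card_four
  haveI : (pPrimeCore 2 G).Normal := Lib.Hall.pPrimeCore_normal 2
  have hcop : (Nat.card B).Coprime (Nat.card (pPrimeCore 2 G)) := by
    rw [hB4]; exact (Lib.Hall.coprime_card_pPrimeCore 2).symm.pow_left 2
  have hgen := Lib.Coprime.fixGen_eq_of_elementary (K := pPrimeCore 2 G) Nat.prime_two hBc
    (fun b hb => by rw [pow_two]; exact hBsq b hb) hB4 Subgroup.le_normalizer_of_normal hcop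
  have hOp : pPrimeCore 2 G ≤ stabilizer G p := by
    rw [← hgen]
    refine iSup₂_le fun b hb => ?_
    rintro o ⟨-, ho⟩
    refine fix_eq hS hb.2 (hBsq b hb.1) ?_ (hBfix b hb.1)
    rw [smul_smul, ← Subgroup.mem_centralizer_singleton_iff.mp ho, mul_smul, hBfix b hb.1]
  have hOa : pPrimeCore 2 G ≤ stabilizer G a := by
    intro o ho
    obtain ⟨g, hg⟩ := exists_move hS p a
    have := hOp ((Lib.Hall.pPrimeCore_normal 2).conj_mem o ho g⁻¹)
    rw [inv_inv, mem_stabilizer_iff, mul_smul, mul_smul, hg, inv_smul_eq_iff, hg] at this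
    exact this
  refine le_antisymm (Subgroup.normal_le_normalCore.mpr hOa) (Lib.Hall.le_pPrimeCore ?_)
  have hle : (stabilizer G a).normalCore ≤ twoPt a t := by
    intro n hn
    refine mem_twoPt.mpr ⟨Subgroup.normalCore_le _ hn, ?_⟩
    have := Subgroup.normalCore_le _ ((Subgroup.normalCore_normal _).conj_mem n hn t)
    rw [mem_stabilizer_iff, inv_eq hS, mul_smul, mul_smul] at this
    have h' := congrArg (fun q => t • q) this
    simpa only [smul_smul t t, hS.mul_self, one_smul] using h'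
  exact Nat.coprime_two_right.mpr (hS.odd_card.of_dvd_nat (Subgroup.card_dvd_of_le hle))

end Cfsg.Agent.S1120
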