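import Cfsg.Statements.S1124
import Mathlib
import Cfsg.Agent.Lib.RankOne.Structure

set_option autoImplicit false
open scoped Pointwise
open Cfsg

namespace Cfsg.Agent.S1124

open Cfsg.Agent.Lib.RankOne

/-- Let `t` be an element of order 2 of a finite group normalising a subgroup `X` of odd order, `Y = C_X(t)` and `Z` the set of elements of `X` inverted by `t`. Then `(y, z) ↦ y z` is a bijection `Y × Z → X`, so `|X| = |Y| |Z|`, and the subgroup generated by `Z` is normal in `X`. -/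
theorem result {M : Type*} [Group M] [Finite M]
    (t : M) (ht : orderOf t = 2) (X : Subgroup M) (hodd : Odd (Nat.card X))
    (hnorm : ∀ x ∈ X, t * x * t⁻¹ ∈ X) :
    (∀ x ∈ X, ∃! p : M × M, p.1 ∈ X ⊓ Subgroup.centralizer {t} ∧ p.2 ∈ Cfsg.invertedBy X t ∧ x = p.1 * p.2) ∧
      Nat.card X = Nat.card ↥(X ⊓ Subgroup.centralizer {t}) * Nat.card (Cfsg.invertedBy X t) ∧
      ∀ x ∈ X, MulAut.conj x • Subgroup.closure (Cfsg.invertedBy X t) = Subgroup.closure (Cfsg.invertedBy X t) := by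
  have ht2 : t * t = 1 := by rw [← pow_two, ← ht, pow_orderOf_eq_one]
  have main : ∀ x ∈ X, ∃! p : M × M, p.1 ∈ X ⊓ Subgroup.centralizer {t} ∧
      p.2 ∈ Cfsg.invertedBy X t ∧ x = p.1 * p.2 := by
    intro x hx
    obtain ⟨y, z, hy, hyt, hz, he⟩ := exists_factor ht2 hodd hnorm hx
    refine ⟨(y, z), ⟨⟨hy, Subgroup.mem_centralizer_singleton_iff.mpr hyt⟩, hz, he⟩, ?_⟩
    rintro ⟨y', z'⟩ ⟨⟨hy', hyt'⟩, hz', he'⟩
    obtain ⟨h1, h2⟩ := factor_unique hodd (Subgroup.mem_centralizer_singleton_iff.mp hyt') hyt hz' hz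
      (he'.symm.trans he)
    exact Prod.ext h1 h2
  refine ⟨main, ?_, ?_⟩
  · rw [← Nat.card_prod]
    refine (Nat.card_eq_of_bijective
      (fun p : ↥(X ⊓ Subgroup.centralizer {t}) × Cfsg.invertedBy X t =>
        (⟨p.1 * p.2, X.mul_mem p.1.2.1 p.2.2.1⟩ : X)) ⟨fun p p' h => ?_, fun x => ?_⟩).symm
    · obtain ⟨h1, h2⟩ := factor_unique hodd (Subgroup.mem_centralizer_singleton_iff.mp p.1.2.2)
        (Subgroup.mem_centralizer_singleton_iff.mp p'.1.2.2) p.2.2 p'.2.2 (congrArg Subtype.val h)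
      exact Prod.ext (Subtype.ext h1) (Subtype.ext h2)
    · obtain ⟨p, ⟨h1, h2, h3⟩, -⟩ := main x x.2
      exact ⟨(⟨_, h1⟩, ⟨_, h2⟩), Subtype.ext h3.symm⟩
  · have le : ∀ x ∈ X, ∀ c ∈ Subgroup.closure (Cfsg.invertedBy X t),
        x * c * x⁻¹ ∈ Subgroup.closure (Cfsg.invertedBy X t) := by
      intro x hx
      obtain ⟨y, z, hy, hyt, hz, rfl⟩ := exists_factor ht2 hodd hnorm hx
      intro c hc
      have hzc := mul_mem (mul_mem (Subgroup.subset_closure hz) hc)
        (inv_mem (Subgroup.subset_closure hz))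
      have conj : ∀ d ∈ Subgroup.closure (Cfsg.invertedBy X t),
          y * d * y⁻¹ ∈ Subgroup.closure (Cfsg.invertedBy X t) := by
        intro d hd
        induction hd using Subgroup.closure_induction with
        | mem d hd =>
          refine Subgroup.subset_closure ⟨X.mul_mem (X.mul_mem hy hd.1) (X.inv_mem hy), ?_⟩
          calc t * (y * d * y⁻¹) * t⁻¹ = (t * y) * d * (t * y)⁻¹ := by group
            _ = y * (t * d * t⁻¹) * y⁻¹ := by rw [← hyt]; group
            _ = (y * d * y⁻¹)⁻¹ := by rw [hd.2]; group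
        | one => simp
        | mul d e _ _ hd he =>
          rw [show y * (d * e) * y⁻¹ = (y * d * y⁻¹) * (y * e * y⁻¹) by group]
          exact mul_mem hd he
        | inv d _ hd =>
          rw [show y * d⁻¹ * y⁻¹ = (y * d * y⁻¹)⁻¹ by group]
          exact inv_mem hd
      have := conj _ hzc
      rwa [show y * (z * c * z⁻¹) * y⁻¹ = y * z * c * (y * z)⁻¹ by group] at this
    intro x hx
    ext c
    rw [Subgroup.mem_pointwise_smul_iff_inv_smul_mem, ← map_inv, MulAut.smul_def, MulAut.conj_apply]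
    refine ⟨fun h => ?_, fun h => le _ (X.inv_mem hx) c h⟩
    have := le x hx _ h
    simpa [mul_assoc] using this

end Cfsg.Agent.S1124
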