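import Cfsg.Statements.S1125
import Mathlib
import Cfsg.Agent.Lib.RankOne.Structure

set_option autoImplicit false
open Cfsg

namespace Cfsg.Agent.S1125

open Cfsg.Agent.Lib.RankOne MulAction

/-- In the rank-one set-up (`G` finite and doubly transitive on `Ω`, `t` an involution moving `a`, `Q` normal in `G_a` with `G_a = Q D`, `Q ⊓ D = 1` for the two-point stabiliser `D = G_a ⊓ G_{t • a}`, `|Q|` even, `|D|` odd), let `X ⊆ D` fix at least three points of `Ω`. Then `C_G(X)` is doubly transitive on the fixed-point set of `X`, `|C_Q(X)|` is even, and `C_{G_a}(X) = C_Q(X) C_D(X)`. -/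
theorem result {G Ω : Type*} [Group G] [Finite G] [MulAction G Ω] {a : Ω} {t : G} {Q : Subgroup G}
    (hS : Cfsg.IsRankOneSetup G Ω a t Q)
    (X : Set G) (hX : X ⊆ ((MulAction.stabilizer G a ⊓ MulAction.stabilizer G (t • a)) : Set G))
    (h3 : ∃ b c d : Ω, b ≠ c ∧ b ≠ d ∧ c ≠ d ∧ ∀ x ∈ X, x • b = b ∧ x • c = c ∧ x • d = d) :
    (∀ b₁ b₂ c₁ c₂ : Ω, (∀ x ∈ X, x • b₁ = b₁ ∧ x • b₂ = b₂ ∧ x • c₁ = c₁ ∧ x • c₂ = c₂) →
        b₁ ≠ b₂ → c₁ ≠ c₂ → ∃ g ∈ Subgroup.centralizer X, g • b₁ = c₁ ∧ g • b₂ = c₂) ∧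
      Even (Nat.card ↥(Subgroup.centralizer X ⊓ Q)) ∧
      (Subgroup.centralizer X ⊓ Q) ⊔ (Subgroup.centralizer X ⊓ (MulAction.stabilizer G a ⊓ MulAction.stabilizer G (t • a))) = Subgroup.centralizer X ⊓ MulAction.stabilizer G a := by
  obtain ⟨e₁, e₂, e₃, h12, h13, h23, hfix⟩ := h3
  have h3' : ∃ b c d : Ω, b ≠ c ∧ b ≠ d ∧ c ≠ d ∧ ∀ x ∈ X, x • b = b ∧ x • c = c ∧ x • d = d :=
    ⟨e₁, e₂, e₃, h12, h13, h23, hfix⟩
  refine ⟨fun b₁ b₂ c₁ c₂ h hb hc => centralizer_two_trans hS h3' (fun x hx => (h x hx).1)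
    (fun x hx => (h x hx).2.1) (fun x hx => (h x hx).2.2.1) (fun x hx => (h x hx).2.2.2) hb hc,
    ?_, ?_⟩
  · obtain ⟨w, hwX, hw, hwa, -⟩ := centralizer_swap hS hX h3'
    have hw1 : w ≠ 1 := fun h => base_ne hS (by rw [← hwa, h, one_smul])
    obtain ⟨c, hc, -⟩ := fix_unique hS hw1 hw
    have hca : c ≠ a := fun h => base_ne hS (by rw [← hwa, ← h]; exact hc)
    have hcX : ∀ x ∈ X, x • c = c := fun x hx => fix_eq hS hw1 hw
      (by rw [smul_smul, ← Subgroup.mem_centralizer_iff.mp hwX x hx, mul_smul, hc]) hc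
    obtain ⟨g, hg, hgc, -⟩ := centralizer_two_trans hS h3' hcX (fun x hx => (hX hx).1)
      (fun x hx => (hX hx).1) (fun x hx => (hX hx).2) hca (base_ne hS).symm
    have hm : g * w * g⁻¹ ∈ Subgroup.centralizer X ⊓ Q := by
      refine ⟨(Subgroup.centralizer X).mul_mem ((Subgroup.centralizer X).mul_mem hg hwX)
        ((Subgroup.centralizer X).inv_mem hg), mem_Q_of_invol hS ?_ ?_⟩
      · rw [mul_smul, mul_smul, inv_smul_eq_iff.mpr hgc.symm, hc, hgc]
      · simp only [mul_assoc, inv_mul_cancel_left]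
        rw [← mul_assoc w w, hw, one_mul, mul_inv_cancel]
    have ho : orderOf (g * w * g⁻¹) = 2 := orderOf_eq_prime (by
        rw [pow_two]; simp only [mul_assoc, inv_mul_cancel_left]
        rw [← mul_assoc w w, hw, one_mul, mul_inv_cancel])
      (fun h => hw1 (conj_eq_one_iff.mp h))
    have := Subgroup.orderOf_dvd_natCard _ hm
    rw [ho] at this
    exact even_iff_two_dvd.mpr this
  · refine le_antisymm (sup_le (inf_le_inf_left _ hS.le) (inf_le_inf_left _ inf_le_left)) ?_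
    rintro g ⟨hgX, hga⟩
    obtain ⟨q, hq, d, hd, rfl⟩ := decomp hS (g := g) hga
    have hqb : ∀ x ∈ X, x • (q • (t • a)) = q • (t • a) := fun x hx => by
      have h1 : (q * d) • (t • a) = q • (t • a) := by rw [mul_smul, mem_stabilizer_iff.mp hd.2]
      rw [← h1, smul_smul, Subgroup.mem_centralizer_iff.mp hgX x hx, mul_smul, (hX hx).2]
    have hqX : q ∈ Subgroup.centralizer X := Subgroup.mem_centralizer_iff.mpr fun x hx => by
      have := q_ext hS (hS.conj_mem x (hX hx).1 q hq) hq (base_ne hS)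
        (by rw [mul_smul, mul_smul, inv_smul_eq_of_fix (hX hx).2, hqb x hx])
      exact mul_inv_eq_iff_eq_mul.mp this
    have hdX : d ∈ Subgroup.centralizer X := by
      have := mul_mem (inv_mem hqX) hgX; rwa [inv_mul_cancel_left] at this
    exact Subgroup.mul_mem_sup ⟨hqX, hq⟩ ⟨hdX, hd⟩

end Cfsg.Agent.S1125
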