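import Cfsg.Statements.S1126
import Mathlib
import Cfsg.Agent.Lib.RankOne.Structure

set_option autoImplicit false
open Cfsg

namespace Cfsg.Agent.S1126

open Cfsg.Agent.Lib.RankOne

/-- In the rank-one set-up (`G` finite and doubly transitive on `Ω`, `t` an involution moving `a`, `Q` normal in `G_a` with `G_a = Q D`, `Q ⊓ D = 1` for the two-point stabiliser `D = G_a ⊓ G_{t • a}`, `|Q|` even, `|D|` odd), a subset `X ⊆ D` fixing at least three points of `Ω` is conjugate by an element of `D` into `V = C_D(t)`. -/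
theorem result {G Ω : Type*} [Group G] [Finite G] [MulAction G Ω] {a : Ω} {t : G} {Q : Subgroup G}
    (hS : Cfsg.IsRankOneSetup G Ω a t Q)
    (X : Set G) (hX : X ⊆ ((MulAction.stabilizer G a ⊓ MulAction.stabilizer G (t • a)) : Set G))
    (h3 : ∃ b c d : Ω, b ≠ c ∧ b ≠ d ∧ c ≠ d ∧ ∀ x ∈ X, x • b = b ∧ x • c = c ∧ x • d = d) :
    ∃ k ∈ (MulAction.stabilizer G a ⊓ MulAction.stabilizer G (t • a)), ∀ x ∈ X, (k * x * k⁻¹) * t = t * (k * x * k⁻¹) := by
  obtain ⟨w, hwX, hw, hwa, -⟩ := centralizer_swap hS hX h3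
  have hk := swap_mem_K hS hw hwa
  set k := t * w with hkdef
  have hko := orderOf_odd_of_mem hS.odd_card hk.1
  set m := sqrtOdd k with hm
  have hmD := sqrtOdd_mem hk.1 (x := k)
  rw [← hm] at hmD
  have hmi : t * m * t⁻¹ = m⁻¹ := sqrtOdd_inverted hk.2
  refine ⟨m, hmD, fun x hx => ?_⟩
  have hwm : m⁻¹ * t * m = w := by
    rw [← hmi, inv_eq hS]
    calc t * m * t * t * m = t * m * (t * t) * m := by group
      _ = t * (m * m) := by rw [hS.mul_self]; group
      _ = w := by rw [hm, sqrtOdd_mul_self hko, hkdef, tt_mul hS]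
  have hxw : x * w = w * x := Subgroup.mem_centralizer_iff.mp hwX x hx
  calc m * x * m⁻¹ * t = m * (x * (m⁻¹ * t * m)) * m⁻¹ := by group
    _ = m * (m⁻¹ * t * m * x) * m⁻¹ := by rw [hwm, hxw]
    _ = t * (m * x * m⁻¹) := by group

end Cfsg.Agent.S1126
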