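import Cfsg.Statements.S1127
import Mathlib
import Cfsg.Agent.Lib.RankOne.Structure

set_option autoImplicit false
open Cfsg

namespace Cfsg.Agent.S1127

open Cfsg.Agent.Lib.RankOne MulAction

/-- In the rank-one set-up (`G` finite and doubly transitive on `Ω`, `t` an involution moving `a`, `Q` normal in `G_a` with `G_a = Q D`, `Q ⊓ D = 1` for the two-point stabiliser `D = G_a ⊓ G_{t • a}`, `|Q|` even, `|D|` odd): if `s` is an involution of `G_a` and `r ∈ Q` satisfy `t s t = r⁻¹ t r`, then `C_D(t) = C_D(s)`; moreover `C_D(t) ⊓ C_D(K) = C_D(I ∩ G_a)`, where `K` is the set of elements of `D` inverted by `t` and `I ∩ G_a` the set of involutions of `G_a`. -/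
theorem result {G Ω : Type*} [Group G] [Finite G] [MulAction G Ω] {a : Ω} {t : G} {Q : Subgroup G}
    (hS : Cfsg.IsRankOneSetup G Ω a t Q) :
    (∀ s r : G, s ∈ Cfsg.involutionsIn (MulAction.stabilizer G a : Set G) → r ∈ Q → t * s * t = r⁻¹ * t * r →
        (MulAction.stabilizer G a ⊓ MulAction.stabilizer G (t • a)) ⊓ Subgroup.centralizer {t} = (MulAction.stabilizer G a ⊓ MulAction.stabilizer G (t • a)) ⊓ Subgroup.centralizer {s}) ∧
      (MulAction.stabilizer G a ⊓ MulAction.stabilizer G (t • a)) ⊓ Subgroup.centralizer {t} ⊓ Subgroup.centralizer (Cfsg.invertedBy (MulAction.stabilizer G a ⊓ MulAction.stabilizer G (t • a)) t) =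
        (MulAction.stabilizer G a ⊓ MulAction.stabilizer G (t • a)) ⊓ Subgroup.centralizer (Cfsg.involutionsIn (MulAction.stabilizer G a : Set G)) := by
  constructor
  · intro s r hs hr he
    ext d
    simp only [Subgroup.mem_inf, Subgroup.mem_centralizer_singleton_iff]
    exact and_congr_right fun hd => commute_iff hS hs.1 hr he (mem_twoPt.mpr hd)
  · obtain ⟨r, s, hr, -, hs, he⟩ := exists_structure hS
    refine le_antisymm ?_ ?_
    · rintro w ⟨⟨hwD, hwt⟩, hwK⟩
      refine ⟨hwD, Subgroup.mem_centralizer_iff.mpr fun u hu => ?_⟩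
      obtain ⟨k, hk, rfl⟩ := K_transitive hS hs hu
      have h1 : Commute w s :=
        (commute_iff hS hs.1 hr he hwD).mp (Subgroup.mem_centralizer_singleton_iff.mp hwt)
      have h2 : Commute w k := (Subgroup.mem_centralizer_iff.mp hwK k hk).symm
      exact ((h2.inv_right.mul_right h1).mul_right h2).eq.symm
    · rintro d ⟨hdD, hdI⟩
      have hdI' : ∀ u ∈ Cfsg.involutionsIn (stabilizer G a : Set G), d * u = u * d :=
        fun u hu => (Subgroup.mem_centralizer_iff.mp hdI u hu).symm
      have hdt := (commute_iff hS hs.1 hr he hdD).mpr (hdI' s hs)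
      refine ⟨⟨hdD, Subgroup.mem_centralizer_singleton_iff.mpr hdt⟩,
        Subgroup.mem_centralizer_iff.mpr fun k hk => ?_⟩
      obtain ⟨hkD, hkt⟩ := (mem_K_iff hS).mp hk
      have hu : k⁻¹ * s * k ∈ Cfsg.involutionsIn (stabilizer G a : Set G) := by
        refine ⟨mul_mem (mul_mem (inv_mem hkD.1) hs.1) hkD.1, ?_, ?_⟩
        · intro h
          exact hs.2.1 (conj_eq_one_iff.mp (show k⁻¹ * s * (k⁻¹)⁻¹ = 1 by rwa [inv_inv]))
        · simp only [mul_assoc, mul_inv_cancel_left]
          rw [← mul_assoc s s, hs.2.2, one_mul, inv_mul_cancel]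
      have h1 : (k * d * k⁻¹) * t = t * (k * d * k⁻¹) := by
        refine (commute_iff hS hs.1 hr he (mul_mem (mul_mem hkD hdD) (inv_mem hkD))).mpr ?_
        calc k * d * k⁻¹ * s = k * (d * (k⁻¹ * s * k)) * k⁻¹ := by group
          _ = s * (k * d * k⁻¹) := by rw [hdI' _ hu]; group
      have h2 : k⁻¹ * d * k = k * d * k⁻¹ := by
        have e : t * (k * d * k⁻¹) * t = k * d * k⁻¹ := by
          rw [← h1, mul_assoc, hS.mul_self, mul_one]
        rw [← e, ← hk.2, inv_eq hS]
        calc t * k * t * d * k = t * k * (t * d) * k := by group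
          _ = t * k * (d * t) * k := by rw [hdt]
          _ = t * (k * d * (t * k * t)) * t := by
            simp only [mul_assoc, hS.mul_self, mul_one]
          _ = t * (k * d * (t * k * t)) * t := rfl
      have h3 : Commute d (k * k) := by
        calc d * (k * k) = k * (k⁻¹ * d * k) * k := by group
          _ = k * k * d := by rw [h2]; group
      exact ((commute_of_commute_sq (orderOf_odd_of_mem hS.odd_card hkD) h3)).eq.symm

end Cfsg.Agent.S1127
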