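import Cfsg.Statements.S1128
import Mathlib
import Cfsg.Agent.Lib.RankOne.Structure

set_option autoImplicit false
open Cfsg

namespace Cfsg.Agent.S1128

open Cfsg.Agent.Lib.RankOne MulAction

/-- In the rank-one set-up (`G` finite and doubly transitive on `Ω`, `t` an involution moving `a`, `Q` normal in `G_a` with `G_a = Q D`, `Q ⊓ D = 1` for the two-point stabiliser `D = G_a ⊓ G_{t • a}`, `|Q|` even, `|D|` odd), with the action faithful and `G` containing two distinct commuting involutions: every non-identity element of `D` inverted by `t` acts fixed-point-freely on `Q`. -/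
theorem result {G Ω : Type*} [Group G] [Finite G] [MulAction G Ω] [FaithfulSMul G Ω] {a : Ω} {t : G} {Q : Subgroup G}
    (hS : Cfsg.IsRankOneSetup G Ω a t Q)
    (h2 : ∃ x y : G, x ≠ 1 ∧ y ≠ 1 ∧ x ≠ y ∧ x * x = 1 ∧ y * y = 1 ∧ x * y = y * x)
    (x : G) (hx : x ∈ Cfsg.invertedBy (MulAction.stabilizer G a ⊓ MulAction.stabilizer G (t • a)) t) (hx1 : x ≠ 1) :
    Q ⊓ Subgroup.centralizer {x} = ⊥ := by
  rw [Subgroup.eq_bot_iff_forall]
  rintro q ⟨hq, hqx⟩
  by_contra hq1
  have hc : Commute q x := Subgroup.mem_centralizer_singleton_iff.mp hqx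
  refine hx1 (eq_one_of_inverted hS hS.mul_self rfl hx.1 hx.2 (c := q • (t • a))
    (fun h => base_ne hS ?_) (fun h => hq1 (eq_one_of_fix_base hS hq h)) ?_)
  · rwa [← eq_inv_smul_iff, inv_smul_eq_of_fix (fix_of_mem_Q hS hq)] at h
  · rw [smul_smul, ← hc.eq, mul_smul, mem_stabilizer_iff.mp hx.1.2]

end Cfsg.Agent.S1128
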