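import Cfsg.Statements.S1134
import Mathlib
import Cfsg.Agent.Lib.RankOne.Structure

set_option autoImplicit false
open Cfsg

namespace Cfsg.Agent.S1134

open Cfsg.Agent.Lib.RankOne MulAction

/-- In the rank-one set-up (`G` finite and doubly transitive on `Ω`, `t` an involution moving `a`, `Q` normal in `G_a` with `G_a = Q D`, `Q ⊓ D = 1` for the two-point stabiliser `D = G_a ⊓ G_{t • a}`, `|Q|` even, `|D|` odd), with the action faithful and `G` containing two distinct commuting involutions, with `V = C_D(t)`: subsets of `V` conjugate in `G` are conjugate in `V`. -/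
theorem result {G Ω : Type*} [Group G] [Finite G] [MulAction G Ω] [FaithfulSMul G Ω] {a : Ω} {t : G} {Q : Subgroup G}
    (hS : Cfsg.IsRankOneSetup G Ω a t Q)
    (h2 : ∃ x y : G, x ≠ 1 ∧ y ≠ 1 ∧ x ≠ y ∧ x * x = 1 ∧ y * y = 1 ∧ x * y = y * x)
    (X : Set G) (hX : X ⊆ (((MulAction.stabilizer G a ⊓ MulAction.stabilizer G (t • a)) ⊓ Subgroup.centralizer {t} : Subgroup G) : Set G)) (g : G)
    (hY : (fun x => g * x * g⁻¹) '' X ⊆ (((MulAction.stabilizer G a ⊓ MulAction.stabilizer G (t • a)) ⊓ Subgroup.centralizer {t} : Subgroup G) : Set G)) :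
    ∃ v ∈ (MulAction.stabilizer G a ⊓ MulAction.stabilizer G (t • a)) ⊓ Subgroup.centralizer {t}, (fun x => v * x * v⁻¹) '' X = (fun x => g * x * g⁻¹) '' X := by
  obtain ⟨c, hc, -⟩ := fix_unique hS hS.ne_one hS.mul_self
  have hca : c ≠ a := fun h => hS.not_mem (h ▸ hc)
  have hcb : c ≠ t • a := fun h => base_ne hS (by
    rw [h, t_smul_base hS] at hc; exact hc.symm)
  set Y : Set G := (fun x => g * x * g⁻¹) '' X with hYdef
  have hYt : ∀ y ∈ Y, y * t = t * y := fun y hy =>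
    Subgroup.mem_centralizer_singleton_iff.mp (hY hy).2
  have h3 : ∃ b c d : Ω, b ≠ c ∧ b ≠ d ∧ c ≠ d ∧ ∀ x ∈ Y, x • b = b ∧ x • c = c ∧ x • d = d :=
    ⟨a, t • a, c, (base_ne hS).symm, hca.symm, hcb.symm, fun y hy =>
      ⟨(hY hy).1.1, (hY hy).1.2, centralizer_t_fix hS hc (hYt y hy)⟩⟩
  have hgfix : ∀ p : Ω, (∀ x ∈ X, x • p = p) → ∀ y ∈ Y, y • (g • p) = g • p := by
    rintro p hp _ ⟨x, hx, rfl⟩
    rw [mul_smul, mul_smul, inv_smul_smul, hp x hx]
  obtain ⟨c', hc', hc'a, hc'b⟩ := centralizer_two_trans hS h3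
    (hgfix a fun x hx => (hX hx).1.1) (hgfix (t • a) fun x hx => (hX hx).1.2)
    (fun y hy => (hY hy).1.1) (fun y hy => (hY hy).1.2)
    (fun h => base_ne hS (MulAction.injective g h).symm) (base_ne hS).symm
  set g1 := c' * g with hg1
  have hg1D : g1 ∈ twoPt a t :=
    mem_twoPt.mpr ⟨by rw [mul_smul, hc'a], by rw [mul_smul, hc'b]⟩
  have hg1x : ∀ x ∈ X, g1 * x * g1⁻¹ = g * x * g⁻¹ := by
    intro x hx
    have h : g * x * g⁻¹ * c' = c' * (g * x * g⁻¹) :=
      Subgroup.mem_centralizer_iff.mp hc' _ ⟨x, hx, rfl⟩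
    calc g1 * x * g1⁻¹ = c' * (g * x * g⁻¹) * c'⁻¹ := by rw [hg1]; group
      _ = g * x * g⁻¹ := by rw [← h]; group
  set w := g1 * t * g1⁻¹ with hwdef
  have hw : w * w = 1 := by
    simp only [hwdef, mul_assoc, inv_mul_cancel_left]
    rw [← mul_assoc t t, hS.mul_self, one_mul, mul_inv_cancel]
  have hwa : w • a = t • a := by
    rw [hwdef, mul_smul, mul_smul, inv_smul_eq_of_fix hg1D.1, mem_stabilizer_iff.mp hg1D.2]
  have hk := swap_mem_K hS hw hwa
  set k := t * w with hkdef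
  have hko := orderOf_odd_of_mem hS.odd_card hk.1
  set m := sqrtOdd k with hm
  have hmi : t * m * t⁻¹ = m⁻¹ := sqrtOdd_inverted hk.2
  have hwm : m⁻¹ * t * m = w := by
    rw [← hmi, inv_eq hS]
    calc t * m * t * t * m = t * m * (t * t) * m := by group
      _ = t * (m * m) := by rw [hS.mul_self]; group
      _ = w := by rw [hm, sqrtOdd_mul_self hko, hkdef, tt_mul hS]
  have hyw : ∀ x ∈ X, Commute (g * x * g⁻¹) m := by
    intro x hx
    have h1 : Commute (g * x * g⁻¹) t := hYt _ ⟨x, hx, rfl⟩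
    have h2 : Commute (g * x * g⁻¹) w := by
      rw [← hg1x x hx, hwdef]
      have hxt : Commute x t := Subgroup.mem_centralizer_singleton_iff.mp (hX hx).2
      show g1 * x * g1⁻¹ * (g1 * t * g1⁻¹) = g1 * t * g1⁻¹ * (g1 * x * g1⁻¹)
      calc g1 * x * g1⁻¹ * (g1 * t * g1⁻¹) = g1 * (x * t) * g1⁻¹ := by group
        _ = g1 * t * g1⁻¹ * (g1 * x * g1⁻¹) := by rw [hxt.eq]; group
    exact commute_sqrtOdd (h1.mul_right h2)
  refine ⟨m * g1, ⟨mul_mem (sqrtOdd_mem hk.1) hg1D, Subgroup.mem_centralizer_singleton_iff.mpr ?_⟩,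
    Set.image_congr fun x hx => ?_⟩
  · calc m * g1 * t = m * w * g1 := by rw [hwdef]; group
      _ = t * (m * g1) := by rw [← hwm]; group
  · calc m * g1 * x * (m * g1)⁻¹ = m * (g * x * g⁻¹) * m⁻¹ := by rw [← hg1x x hx]; group
      _ = g * x * g⁻¹ := by rw [← (hyw x hx).eq]; group

end Cfsg.Agent.S1134
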