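import Cfsg.Statements.S1167
import Cfsg.Agent.Lib.Zass.Sharp

set_option autoImplicit false
open Cfsg

namespace Cfsg.Agent.S1167

open MulAction Cfsg.Agent.Lib.Zass Cfsg.Agent.Lib.ZassFrob

/-- Let `G` be a finite simple Zassenhaus group on `Ω`, `U` a normal subgroup of `G_a` regular on `Ω` minus `a` which is an abelian 2-group, and `v` an involution with `v • a ≠ a`. Then there is a unique `u₀ ∈ U`, `u₀ ≠ 1`, with `v u₀ v = u₀ v u₀`. -/
theorem result {G Ω : Type*} [Group G] [Finite G] [MulAction G Ω] [Finite Ω]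
    (hZ : Cfsg.IsZassenhausGroup G Ω) [IsSimpleGroup G] {a : Ω}
    (U : Subgroup G) (hUle : U ≤ MulAction.stabilizer G a)
    (hUn : ∀ h ∈ MulAction.stabilizer G a, ∀ u ∈ U, h * u * h⁻¹ ∈ U)
    (hreg : ∀ c d : Ω, c ≠ a → d ≠ a → ∃! u : U, (u : G) • c = d)
    (hU2 : IsPGroup 2 U) (hUab : ∀ u ∈ U, ∀ u' ∈ U, u * u' = u' * u)
    (v : G) (hv1 : v ≠ 1) (hv2 : v * v = 1) (hva : v • a ≠ a) :
    ∃! u₀ : G, u₀ ∈ U ∧ u₀ ≠ 1 ∧ v * u₀ * v = u₀ * v * u₀ := by
  classical
  haveI := Fintype.ofFinite Ω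
  haveI := hZ.1
  haveI : MulAction.IsPretransitive G Ω := by
    haveI := hZ.2.1
    exact MulAction.isPretransitive_of_is_two_pretransitive
  set b := v • a with hb
  have hvb : v • b = a := by rw [hb, smul_smul, hv2, one_smul]
  have hab : a ≠ b := fun e => hva e.symm
  have hK : IsKernel U a b := ⟨hab, hUle, hUn, fun y hy => hreg b y hab.symm hy⟩
  have hUc : IsMulCommutative U := ⟨⟨fun x y => Subtype.ext (hUab _ x.2 _ y.2)⟩⟩
  haveI : Fact (Nat.Prime 2) := ⟨Nat.prime_two⟩
  obtain ⟨f, hf⟩ := IsPGroup.iff_card.mp hU2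
  have hcard := hK.card_eq
  have hn3 := two_lt_card hZ hab
  have hf0 : f ≠ 0 := fun e => by rw [e, pow_zero] at hf; omega
  set H := MulAction.stabilizer G a ⊓ MulAction.stabilizer G b with hH
  have hdd : Nat.card H ∣ 2 ^ f - 1 := by
    have := card_twoPt_dvd hZ hab
    rwa [show Nat.card Ω - 2 = 2 ^ f - 1 by omega] at this
  have hqo : Odd (2 ^ f - 1) :=
    Nat.Even.sub_odd Nat.one_le_two_pow (Nat.even_pow.mpr ⟨even_two, hf0⟩) odd_one
  have hodd : Odd (Nat.card H) := Odd.of_dvd_nat hqo hdd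
  obtain ⟨hinv, hle⟩ := odd_struct _ G U hZ hK hUc rfl hodd
  have hd : Nat.card H = 2 ^ f - 1 := by
    obtain ⟨m, hm⟩ := hdd
    rw [hf, hm, mul_comm] at hle
    have hm2 : m ≤ 2 := Nat.le_of_mul_le_mul_right hle Nat.card_pos
    obtain ⟨j, hj⟩ := hqo
    interval_cases m <;> omega
  obtain ⟨K, _, _, e, A, hA0, hKc, hea, heb, hUact, hUsurj, -, -, hs⟩ :=
    pgl_coords Nat.prime_two hf0 U hK hUc hf
      (fun g hg x hxa hxb hx => eq_one_of_fix3 hZ hab hxb.symm hxa.symm hg.1 hg.2 hx) hd v rfl hvb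
      (hinv v rfl hvb)
  haveI : CharP K 2 := by
    have h2 : ringChar K = 2 := by
      rw [FiniteField.even_card_iff_char_two, hKc, Nat.pow_mod]
      simp [hf0]
    exact h2 ▸ ringChar.charP K
  have h20 : (2 : K) = 0 := CharTwo.two_eq_zero
  obtain ⟨t, ht⟩ := (FiniteField.isSquare_of_char_two (CharP.eq K (ringChar.charP K) ‹CharP K 2›) A)
  have ht0 : t ≠ 0 := fun e => hA0 (by rw [ht, e, mul_zero])
  have htt : ∀ z : K, z + z = 0 := fun z => CharTwo.add_self_eq_zero z
  obtain ⟨u, hu, hua⟩ := hUsurj t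
  have hut : ∀ x : K, u • e (some x) = e (some (x + t)) := fun x => by
    rw [hua (some x)]; simp [affine]
  have hun : u • e none = e none := hua none
  have hvn : v • e none = e (some 0) := hs none
  have hv0 : v • e (some 0) = e none := by rw [hs (some 0), recip_zero]
  have hvx : ∀ x : K, x ≠ 0 → v • e (some x) = e (some (A / x)) := fun x hx => by
    rw [hs (some x), recip_some hx]
  refine ⟨u, ⟨hu, fun e1 => ht0 ?_, eq_of_smul_eq_smul (α := Ω) fun y => ?_⟩, ?_⟩
  · have := hut 0
    rw [e1, one_smul, zero_add] at this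
    exact (Option.some.inj (e.injective this)).symm
  · obtain ⟨x, rfl⟩ := e.surjective y
    simp only [mul_smul]
    rcases x with _ | x
    · rw [hvn, hut, zero_add, hvx t ht0, hun, hvn, hut, zero_add, ht, mul_div_cancel_right₀ _ ht0]
    · by_cases hx : x = 0
      · rw [hx, hv0, hun, hvn, hut, zero_add, hvx t ht0, hut, ht, mul_div_cancel_right₀ _ ht0, htt]
      by_cases hxt : x = t
      · rw [hxt, hvx t ht0, hut, hut, htt, hv0, hun, ht, mul_div_cancel_right₀ _ ht0, htt, hv0]
      have hxt' : x + t ≠ 0 := fun e1 => hxt (by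
        rw [← sub_eq_zero, CharTwo.sub_eq_add]; exact e1)
      have h1 : A / x + t ≠ 0 := fun e1 => hxt' (by
        rw [ht] at e1
        field_simp at e1
        rcases mul_eq_zero.mp (show t * (x + t) = 0 by linear_combination e1) with h | h
        · exact absurd h ht0
        · exact h)
      rw [hvx x hx, hut, hvx _ h1, hut, hvx _ hxt', hut, ht]
      congr 2
      rw [show t * t / (t * t / x + t) = t * x / (x + t) by
          rw [div_add' _ _ _ hx, div_div_eq_mul_div, show t * t + t * x = t * (x + t) by ring,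
            mul_assoc t t x, mul_div_mul_left _ _ ht0],
        eq_comm, eq_div_iff hxt', add_mul, div_mul_cancel₀ _ hxt']
      linear_combination t * htt t
  · rintro w ⟨hw, -, hweq⟩
    obtain ⟨z, hz⟩ := hUact w hw
    have hwz : ∀ x : K, w • e (some x) = e (some (x + z)) := fun x => by
      rw [hz (some x)]; simp [affine]
    have hwn : w • e none = e none := hz none
    have h1 := congrArg (fun g : G => g • e none) hweq
    simp only [mul_smul, hvn, hwn, hwz, zero_add] at h1
    have hz0 : z ≠ 0 := fun e1 => by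
      rw [e1, hv0] at h1; exact Option.some_ne_none _ (e.injective h1).symm
    rw [hvx z hz0] at h1
    have h2 : A / z = z := Option.some.inj (e.injective h1)
    rw [ht, div_eq_iff hz0] at h2
    have hzt : z = t := by
      have h3 : (z + t) * (z + t) = 0 := by linear_combination -h2 + (z * t + t * t) * h20
      have h4 := mul_self_eq_zero.mp h3
      rw [← CharTwo.sub_eq_add, sub_eq_zero] at h4
      exact h4
    refine eq_of_smul_eq_smul (α := Ω) fun y => ?_
    obtain ⟨x, rfl⟩ := e.surjective y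
    rw [hz x, hua x, hzt]

end Cfsg.Agent.S1167
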