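import Cfsg.Statements.S1168
import Mathlib
import Cfsg.Agent.Lib.FieldAddMaps

set_option autoImplicit false
open Cfsg

namespace Cfsg.Agent.S1168

/-- For a finite field `F` of characteristic 2: if `q : F → F` is quadratic over the prime field, i.e. `(x, y) ↦ q (x + y) + q x + q y` is additive in each variable, then `q x = Σ c_{σ,τ} σ(x) τ(x)` for some coefficients indexed by pairs of field automorphisms. -/
theorem result {F : Type*} [Field F] [Fintype F] [CharP F 2]
    (q : F → F)
    (hq : ∀ x y z : F, q (x + y + z) + q (x + y) + q (x + z) + q (y + z) + q x + q y + q z = 0) :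
    ∃ (s : Finset ((F ≃+* F) × (F ≃+* F))) (c : (F ≃+* F) × (F ≃+* F) → F),
      ∀ x : F, q x = ∑ p ∈ s, c p * (p.1 x * p.2 x) := by
  classical
  haveI : Fact (Nat.Prime 2) := ⟨Nat.prime_two⟩
  haveI : Fintype (F ≃+* F) := Fintype.ofInjective _ DFunLike.coe_injective
  letI : Algebra (ZMod 2) F := ZMod.algebra F 2
  haveI : Module.Finite (ZMod 2) F := Module.Finite.of_finite
  let e := Module.finBasis (ZMod 2) F
  set n := Module.finrank (ZMod 2) F
  have h2 : ∀ x : F, x + x = 0 := CharTwo.add_self_eq_zero
  let P : F → F → F := fun x y => q (x + y) + q x + q y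
  have hP : ∀ x y z, P (x + y) z = P x z + P y z := fun x y z => by
    have := hq x y z
    simp only [P]
    linear_combination this + (-1 : F) * h2 (q (x + z)) + (-1 : F) * h2 (q (y + z)) + (-1 : F) * h2 (q z) +
      (-1 : F) * h2 (q x) + (-1 : F) * h2 (q y) + (0 : F)
  have hPc : ∀ x y, P x y = P y x := fun x y => by simp only [P, add_comm x y]; ring
  have hq0 : q 0 = 0 := by
    have := hq 0 0 0
    simp only [add_zero] at this
    linear_combination this + (-3 : F) * h2 (q 0)
  have hP0 : ∀ y, P 0 y = 0 := fun y => by simp only [P, zero_add, hq0, add_zero]; exact h2 _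
  -- a bilinear map with the given diagonal
  let co : Fin n → F →+ ZMod 2 := fun i => (e.coord i).toAddMonoidHom
  let m : ZMod 2 →+ F := (algebraMap (ZMod 2) F).toAddMonoidHom
  let C : Fin n → Fin n → F := fun i j => if i < j then P (e i) (e j) else if i = j then q (e i) else 0
  let B : F →+ F →+ F := AddMonoidHom.mk' (fun x => AddMonoidHom.mk'
      (fun y => ∑ i, ∑ j, C i j * (m (co i x) * m (co j y)))
      (fun y z => by simp only [map_add, mul_add, Finset.sum_add_distrib]))
    (fun x x' => by
      ext y
      simp only [AddMonoidHom.mk'_apply, AddMonoidHom.add_apply, map_add, add_mul, mul_add, Finset.sum_add_distrib])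
  have hBe : ∀ i j, B (e i) (e j) = C i j := fun i j => by
    have hco : ∀ k l, m (co k (e l)) = if k = l then 1 else 0 := fun k l => by
      simp only [m, co, LinearMap.toAddMonoidHom_coe, Module.Basis.coord_apply, Module.Basis.repr_self,
        RingHom.toAddMonoidHom_eq_coe, AddMonoidHom.coe_coe, Finsupp.single_apply]
      by_cases h : l = k
      · rw [if_pos h, if_pos h.symm, map_one]
      · rw [if_neg h, if_neg (Ne.symm h), map_zero]
    show ∑ k, ∑ l, C k l * (m (co k (e i)) * m (co l (e j))) = C i j
    simp [hco]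
  let D : F → F := fun x => q x + B x x
  have hDadd : ∀ x y, D (x + y) = D x + D y + (P x y + B x y + B y x) := fun x y => by
    simp only [D, P, map_add, AddMonoidHom.add_apply]
    linear_combination (-1 : F) * h2 (q x) + (-1 : F) * h2 (q y)
  let E : F →+ F →+ F := AddMonoidHom.mk' (fun x => AddMonoidHom.mk' (fun y => P x y + B x y + B y x)
      (fun y z => by rw [hPc x (y + z), hP, hPc y x, hPc z x]; simp only [map_add, AddMonoidHom.add_apply]; ring))
    (fun x x' => by
      ext y
      simp only [AddMonoidHom.mk'_apply, AddMonoidHom.add_apply, hP, map_add]; ring)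
  have hE : ∀ i j, E (e i) (e j) = 0 := fun i j => by
    show P (e i) (e j) + B (e i) (e j) + B (e j) (e i) = 0
    rw [hBe, hBe]
    simp only [C]
    rcases lt_trichotomy i j with h | h | h
    · rw [if_pos h, if_neg h.not_gt, if_neg h.ne']; rw [add_zero]; exact h2 _
    · subst h
      simp only [lt_irrefl, if_false, if_true, P, h2, hq0]
      rw [zero_add]; exact by linear_combination h2 (q (e i)) + h2 (q (e i))
    · rw [if_pos h, if_neg h.not_gt, if_neg h.ne', add_zero, hPc]; exact h2 _
  have hz : ∀ f : F →+ F, (∀ i, f (e i) = 0) → f = 0 := fun f hf => by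
    have : f.toZModLinearMap 2 = 0 := e.ext fun i => hf i
    exact AddMonoidHom.ext fun x => LinearMap.congr_fun this x
  have hE0 : ∀ x y, E x y = 0 := fun x y => by
    have h1 : ∀ i, E (e i) = 0 := fun i => hz _ (hE i)
    have h3 : E.flip y = 0 := hz _ fun i => by rw [AddMonoidHom.flip_apply, h1]; rfl
    exact DFunLike.congr_fun h3 x
  have hD : AddMonoidHom.mk' D (fun x y => by
      rw [hDadd, show P x y + B x y + B y x = 0 from hE0 x y, add_zero]) = 0 := hz _ fun i => by
    show q (e i) + B (e i) (e i) = 0
    rw [hBe]; simp only [C, lt_irrefl, if_false, if_true]; exact h2 _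
  obtain ⟨c, hc⟩ := Lib.FieldAddMaps.exists_bilinear 2 B
  refine ⟨Finset.univ, c, fun x => ?_⟩
  rw [← hc]
  have := DFunLike.congr_fun hD x
  exact CharTwo.add_eq_zero.1 this

end Cfsg.Agent.S1168
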