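import Cfsg.Statements.S1176
import Cfsg.Agent.Lib.Involution.Basic
import Cfsg.Agent.Lib.Involution.Nilpotent

set_option autoImplicit false
open Cfsg

namespace Cfsg.Agent.S1176

open Cfsg.Agent.Lib.Involution
open scoped commutatorElement

/-- Let x₀ be an involution of the finite group G and D its conjugacy class. Assume (a) for each x ∈ D the subgroup W(x) generated by the members of D commuting with x is a 2-group of nilpotency class at most 2, and (b) the product of two distinct commuting members of D again lies in D. Then for all x, y ∈ D, if xy has even order greater than 2, its order is 4. -/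
theorem result {G : Type*} [Group G] [Finite G] (x₀ : G) (hx₀ : orderOf x₀ = 2) (ha : ∀ x : G, IsConj x₀ x → IsPGroup 2 ↥(Subgroup.closure {y : G | IsConj x₀ y ∧ Commute y x}) ∧ ⁅⁅Subgroup.closure {y : G | IsConj x₀ y ∧ Commute y x}, Subgroup.closure {y : G | IsConj x₀ y ∧ Commute y x}⁆, Subgroup.closure {y : G | IsConj x₀ y ∧ Commute y x}⁆ = ⊥) (hb : ∀ x y : G, IsConj x₀ x → IsConj x₀ y → x ≠ y → Commute x y → IsConj x₀ (x * y)) (x y : G) (hx : IsConj x₀ x) (hy : IsConj x₀ y) (heven : Even (orderOf (x * y))) (hgt : 2 < orderOf (x * y)) : orderOf (x * y) = 4 := by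
  have hxo : orderOf x = 2 := (isConj_orderOf hx).symm.trans hx₀
  have hyo : orderOf y = 2 := (isConj_orderOf hy).symm.trans hx₀
  set z := (x * y) ^ (orderOf (x * y) / 2) with hzdef
  obtain ⟨hzo, hzx, hzy⟩ := half_prod hxo hyo heven (orderOf_pos _).ne'
  rw [← hzdef] at hzo hzx hzy
  obtain ⟨k, hk⟩ := heven
  have hhalf : orderOf (x * y) / 2 = k := by omega
  -- `z` lies in the class
  have hzD : IsConj x₀ z := by
    rcases Nat.even_or_odd k with ⟨j, hj⟩ | ⟨j, hj⟩
    · have e := zpow_prod_conj hxo hyo (j : ℤ)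
      rw [← Nat.cast_add, ← hj, zpow_natCast (x * y) k, ← hhalf, ← hzdef] at e
      have hxz : IsConj x₀ (z * x) := hx.trans (isConj_iff.mpr ⟨_, e⟩)
      have := hb _ _ hxz hx (fun h => ne_one hzo (mul_eq_right.mp h))
        (hzx.mul_left (Commute.refl x))
      rwa [mul_assoc, mul_self hxo, mul_one] at this
    · have hc : (x * y) ^ (-(j : ℤ)) * y * ((x * y) ^ (-(j : ℤ)))⁻¹ = x * z := by
        have h1 : ((x * y) ^ (-(j : ℤ)))⁻¹ = (x * y) ^ (j : ℤ) := by rw [zpow_neg, inv_inv]
        have hy' : y = x * (x * y) := (mul_mul_self_left hxo y).symm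
        rw [h1]
        calc (x * y) ^ (-(j : ℤ)) * y * (x * y) ^ (j : ℤ)
            = ((x * y) ^ (-(j : ℤ)) * x) * (x * y) * (x * y) ^ (j : ℤ) := by
              conv_lhs => enter [1, 2]; rw [hy']
              simp only [mul_assoc]
          _ = x * ((x * y) ^ (j : ℤ) * (x * y) * (x * y) ^ (j : ℤ)) := by
              rw [prod_zpow_mul_left hxo hyo, neg_neg]; simp only [mul_assoc]
          _ = x * z := by
              rw [hzdef, hhalf, ← zpow_add_one, ← zpow_add, ← zpow_natCast]
              congr 2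
              omega
      have hxz : IsConj x₀ (x * z) := hy.trans (isConj_iff.mpr ⟨_, hc⟩)
      have := hb _ _ hx hxz (fun h => ne_one hzo (mul_eq_left.mp h.symm))
        (((Commute.refl x).mul_right hzx.symm))
      rwa [mul_mul_self_left hxo] at this
  set W := Subgroup.closure {w : G | IsConj x₀ w ∧ Commute w z} with hW
  obtain ⟨hW2, hWc⟩ := ha z hzD
  rw [← hW] at hW2 hWc
  have hxW : x ∈ W := Subgroup.subset_closure ⟨hx, hzx.symm⟩
  have hyW : y ∈ W := Subgroup.subset_closure ⟨hy, hzy.symm⟩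
  have h4 : (x * y) ^ 4 = 1 := by
    have hcm : ⁅⁅x, y⁆, y⁆ ∈ ⁅⁅W, W⁆, W⁆ :=
      Subgroup.commutator_mem_commutator (Subgroup.commutator_mem_commutator hxW hyW) hyW
    rw [hWc, Subgroup.mem_bot] at hcm
    have hxy : ⁅x, y⁆ = (x * y) ^ 2 := by
      rw [commutatorElement_def, inv_self hxo, inv_self hyo, pow_two]; simp only [mul_assoc]
    have hyi : y * (x * y) * y⁻¹ = (x * y)⁻¹ := by
      rw [← mul_assoc y x y, mul_inv_cancel_right, mul_inv_rev, inv_self hxo, inv_self hyo]
    rw [hxy, commutatorElement_def] at hcm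
    have h5 : (x * y) ^ 2 * (y * ((x * y) ^ 2)⁻¹ * y⁻¹) = 1 := by
      simpa only [mul_assoc] using hcm
    have h6 : y * ((x * y) ^ 2)⁻¹ * y⁻¹ = (x * y) ^ 2 := by
      rw [← conj_inv, ← conj_pow, hyi, inv_pow, inv_inv]
    rw [h6, ← pow_add] at h5
    exact h5
  have hd := orderOf_dvd_of_pow_eq_one h4
  have := Nat.le_of_dvd (by norm_num) hd
  omega

end Cfsg.Agent.S1176
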