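import Cfsg.Statements.S1177
import Cfsg.Agent.Lib.Involution.Basic

set_option autoImplicit false
open Cfsg

namespace Cfsg.Agent.S1177

open Cfsg.Agent.Lib.Involution

/-- Let A be a nontrivial elementary abelian 2-subgroup of a finite group G which is a T.I. set (each conjugate of A meets A trivially or equals A) and which does not commute elementwise with any conjugate of A other than A itself. Then for every a ∈ A, a ≠ 1, every conjugate of A contained in C_G(a) is equal to A (A is weakly closed in C_G(a)). -/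
theorem result {G : Type*} [Group G] [Finite G] (A : Subgroup G) (hA : Cfsg.IsElementaryAbelian 2 A) (hA1 : A ≠ ⊥) (hTI : ∀ g : G, A.map (MulAut.conj g).toMonoidHom ⊓ A = ⊥ ∨ A.map (MulAut.conj g).toMonoidHom = A) (hb : ∀ g : G, (∀ a ∈ A, ∀ b ∈ A.map (MulAut.conj g).toMonoidHom, a * b = b * a) → A.map (MulAut.conj g).toMonoidHom = A) (a : G) (ha : a ∈ A) (ha1 : a ≠ 1) (g : G) (hg : A.map (MulAut.conj g).toMonoidHom ≤ Subgroup.centralizer ({a} : Set G)) : A.map (MulAut.conj g).toMonoidHom = A := by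
  set B := A.map (MulAut.conj g).toMonoidHom with hB
  have hcomm : ∀ a ∈ A, ∀ b ∈ A, a * b = b * a := fun a ha b hb =>
    congrArg Subtype.val (hA.1.is_comm.comm ⟨a, ha⟩ ⟨b, hb⟩)
  have hBcomm : ∀ a ∈ B, ∀ b ∈ B, a * b = b * a := by
    rintro _ ⟨u, hu, rfl⟩ _ ⟨v, hv, rfl⟩
    rw [← map_mul, hcomm u hu v hv, map_mul]
  have hsmul : ∀ (c : G) (x : G) (X : Subgroup G), x ∈ X.map (MulAut.conj c).toMonoidHom ↔ c⁻¹ * x * c ∈ X := by
    intro c x X
    constructor
    · rintro ⟨u, hu, rfl⟩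
      simpa [MulAut.conj_apply, mul_assoc] using hu
    · intro h
      exact ⟨_, h, by simp [MulAut.conj_apply, mul_assoc]⟩
  rcases hTI g with hdisj | heq
  swap; · exact heq
  refine hb g fun x hx y hy => ?_
  -- every element of `B` normalises `A`
  have hBA : ∀ b ∈ B, ∀ x ∈ A, b * x * b⁻¹ ∈ A := by
    intro b hbB x hxA
    have hab : b * a * b⁻¹ = a := by
      rw [Subgroup.mem_centralizer_singleton_iff.mp (hg hbB), mul_inv_cancel_right]
    rcases hTI b with h | h
    · exfalso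
      apply ha1
      rw [← Subgroup.mem_bot, ← h]
      exact ⟨⟨a, ha, hab⟩, ha⟩
    · exact h ▸ ⟨x, hxA, rfl⟩
  -- an element of `A` commuting with a nontrivial element of `B` normalises `B`
  have hAB : ∀ c ∈ A, (∃ b ∈ B, b ≠ 1 ∧ c * b = b * c) → ∀ b' ∈ B, c * b' = b' * c := by
    rintro c hc ⟨b, hbB, hb1, hcb⟩ b' hb'
    have hn : c * b' * c⁻¹ ∈ B := by
      rcases hTI (g⁻¹ * c * g) with h | h
      · exfalso
        apply hb1
        have h1 : g⁻¹ * b * g ∈ A := (hsmul g b A).mp hbB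
        have h2 : g⁻¹ * b * g = 1 := by
          rw [← Subgroup.mem_bot, ← h]
          refine ⟨(hsmul _ _ A).mpr ?_, h1⟩
          have : c⁻¹ * b * c = b := by rw [mul_assoc, ← hcb, inv_mul_cancel_left]
          convert h1 using 1
          calc (g⁻¹ * c * g)⁻¹ * (g⁻¹ * b * g) * (g⁻¹ * c * g) = g⁻¹ * (c⁻¹ * b * c) * g := by group
            _ = _ := by rw [this]
        simpa [mul_assoc, mul_eq_one_iff_eq_inv] using congrArg (fun w => g * w * g⁻¹) h2
      · have h1 : g⁻¹ * b' * g ∈ A := (hsmul g b' A).mp hb'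
        rw [hB, hsmul]
        have h2 : (g⁻¹ * c * g) * (g⁻¹ * b' * g) * (g⁻¹ * c * g)⁻¹ ∈ A := h ▸ ⟨_, h1, rfl⟩
        convert h2 using 1
        group
    have hd : c * b' * c⁻¹ * b'⁻¹ ∈ B ⊓ A := by
      refine ⟨B.mul_mem hn (B.inv_mem hb'), ?_⟩
      rw [show c * b' * c⁻¹ * b'⁻¹ = c * (b' * c⁻¹ * b'⁻¹) by group]
      exact A.mul_mem hc (hBA b' hb' _ (inv_mem hc))
    rw [hdisj, Subgroup.mem_bot] at hd
    exact mul_inv_eq_iff_eq_mul.mp (mul_inv_eq_one.mp hd)
  by_contra hne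
  -- injective map from `B` to `A₀`
  let A₀ : Subgroup G := A ⊓ Subgroup.centralizer (B : Set G)
  have hxA₀ : x ∉ A₀ := fun h => hne ((Subgroup.mem_centralizer_iff.mp h.2 y hy).symm)
  have hmem : ∀ b : B, x * ((b : G) * x * (b : G)⁻¹) ∈ A₀ := by
    rintro ⟨b, hbB⟩
    have hm : x * (b * x * b⁻¹) ∈ A := mul_mem hx (hBA b hbB x hx)
    refine ⟨hm, ?_⟩
    by_cases hb1 : b = 1
    · subst hb1
      have hxx : x * (1 * x * 1⁻¹) = 1 := by
        rw [one_mul, inv_one, mul_one, ← pow_two]; exact hA.2 x hx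
      change x * (1 * x * 1⁻¹) ∈ Subgroup.centralizer (B : Set G)
      rw [hxx]; exact one_mem _
    · refine Subgroup.mem_centralizer_iff.mpr fun b' hb' => (hAB _ hm ⟨b, hbB, hb1, ?_⟩ b' hb').symm
      have hbb : b * b = 1 := by
        obtain ⟨u, hu, rfl⟩ := hbB
        rw [← map_mul, ← pow_two, hA.2 u hu, map_one]
      have hbi : b⁻¹ = b := inv_eq_of_mul_eq_one_right hbb
      have he : b * (x * (b * x * b⁻¹)) * b⁻¹ = x * (b * x * b⁻¹) := by
        rw [hbi]
        conv_rhs => rw [hcomm x hx (b * x * b) (by have := hBA b hbB x hx; rwa [hbi] at this)]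
        calc b * (x * (b * x * b)) * b = (b * x * b) * x * (b * b) := by group
          _ = b * x * b * x := by rw [hbb, mul_one]
      exact (mul_inv_eq_iff_eq_mul.mp he).symm
  let f : B → A₀ := fun b => ⟨_, hmem b⟩
  have hf : Function.Injective f := by
    rintro ⟨b₁, h₁⟩ ⟨b₂, h₂⟩ he
    simp only [f, Subtype.mk.injEq] at he
    have h3 := mul_left_cancel he
    by_contra hb12
    refine hne (hAB x hx ⟨b₂⁻¹ * b₁, mul_mem (inv_mem h₂) h₁, fun h => hb12 (Subtype.ext (inv_mul_eq_one.mp h).symm), ?_⟩ y hy)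
    calc x * (b₂⁻¹ * b₁) = b₂⁻¹ * (b₂ * x * b₂⁻¹) * b₁ := by group
      _ = b₂⁻¹ * (b₁ * x * b₁⁻¹) * b₁ := by rw [h3]
      _ = b₂⁻¹ * b₁ * x := by group
  have h1 : Nat.card B ≤ Nat.card A₀ := Nat.card_le_card_of_injective f hf
  have h2 : Nat.card B = Nat.card A :=
    Nat.card_congr (A.equivMapOfInjective (MulAut.conj g).toMonoidHom (MulAut.conj g).injective).symm.toEquiv
  have h3 : A₀ = A := Subgroup.eq_of_le_of_card_ge inf_le_left (h2 ▸ h1)
  exact hxA₀ (h3.symm ▸ hx)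

end Cfsg.Agent.S1177
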