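import Cfsg.Statements.S1178
import Cfsg.Agent.Lib.Involution.Basic

set_option autoImplicit false
open Cfsg

namespace Cfsg.Agent.S1178

open Cfsg.Agent.Lib.Involution

/-- Let A be a subgroup of a Sylow 2-subgroup S of the finite group G which is weakly closed in S. If a conjugate g A g⁻¹ commutes elementwise with A, then g A g⁻¹ = A. -/
theorem result {G : Type*} [Group G] [Finite G] (S : Sylow 2 G) (A : Subgroup G) (hW : Cfsg.IsWeaklyClosed A (S : Subgroup G)) (g : G) (hc : ∀ a ∈ A, ∀ b ∈ A.map (MulAut.conj g).toMonoidHom, a * b = b * a) : A.map (MulAut.conj g).toMonoidHom = A := by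
  have : Fact (Nat.Prime 2) := ⟨Nat.prime_two⟩
  set B := A.map (MulAut.conj g).toMonoidHom with hB
  have hA2 : IsPGroup 2 A := S.isPGroup'.to_le hW.1
  have hn : B ≤ Subgroup.normalizer (A : Set G) := fun b hb => by
    rw [Subgroup.mem_normalizer_iff]
    intro a
    constructor
    · intro ha; rw [← hc a ha b hb, mul_inv_cancel_right]; exact ha
    · intro ha
      have h := hc _ ha b hb
      rw [inv_mul_cancel_right] at h
      have h' : b * a * b⁻¹ = a := (mul_left_cancel h).symm
      rwa [h'] at ha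
  obtain ⟨Q, hQ⟩ := (IsPGroup.to_sup_of_normal_left' hA2 (hA2.map _) hn).exists_le_sylow
  obtain ⟨c, hc'⟩ := MulAction.exists_smul_eq G Q S
  have hle : ∀ {X : Subgroup G}, X ≤ Q → X.map (MulAut.conj c).toMonoidHom ≤ S := by
    rintro X hX _ ⟨x, hx, rfl⟩
    rw [← hc']
    exact Subgroup.smul_mem_pointwise_smul _ _ _ (hX hx)
  have hcA : A.map (MulAut.conj c).toMonoidHom = A := hW.2 c (hle (le_sup_left.trans hQ))
  have hcB : B.map (MulAut.conj c).toMonoidHom ≤ S := hle (le_sup_right.trans hQ)
  have hcomp : ∀ (u v : G) (X : Subgroup G),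
      (X.map (MulAut.conj v).toMonoidHom).map (MulAut.conj u).toMonoidHom = X.map (MulAut.conj (u * v)).toMonoidHom := by
    intro u v X
    rw [Subgroup.map_map]
    congr 1
    ext w
    simp [mul_assoc]
  rw [hB, hcomp] at hcB
  have hcgA := hW.2 _ hcB
  rw [← hcA, ← hcomp] at hcgA
  rw [hB]
  rw [hcA] at hcgA
  exact Subgroup.map_injective (MulAut.conj c).injective (hcgA.trans hcA.symm)

end Cfsg.Agent.S1178
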