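import Cfsg.Statements.S1182
import Cfsg.Agent.Lib.Involution.IsolatedMore

set_option autoImplicit false
open Cfsg

namespace Cfsg.Agent.S1182

open Cfsg.Agent.Lib.Involution

/-- Let z be an isolated involution of the finite group G and H a subgroup normalized by z. If x, y ∈ H both commute with z and y = h x h⁻¹ for some h ∈ H, then y = c x c⁻¹ for some c ∈ H commuting with z. -/
theorem result {G : Type*} [Group G] [Finite G] (z : G) (hz : Cfsg.IsIsolatedInvolution z) (H : Subgroup G) (hzH : z ∈ Subgroup.normalizer (H : Set G)) (x y : G) (hx : x ∈ H) (hy : y ∈ H) (hxz : Commute x z) (hyz : Commute y z) (h : G) (hh : h ∈ H) (hconj : h * x * h⁻¹ = y) : ∃ c ∈ H, Commute c z ∧ c * x * c⁻¹ = y := by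
  exact iso_conj_in hz hzH hh hxz hyz hconj

end Cfsg.Agent.S1182
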