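import Cfsg.Statements.S1183
import Cfsg.Agent.Lib.Involution.IsolatedMore
import Cfsg.Agent.Lib.Involution.TransferEval
import Cfsg.Agent.Lib.Transfer.Basic

set_option autoImplicit false
open Cfsg

namespace Cfsg.Agent.S1183

open Cfsg.Agent.Lib.Involution

/-- Let z be an isolated involution of the finite group G and C = C_G(z). Then the subgroup of G generated by its elements of odd order is all of G if and only if the subgroup of C generated by its elements of odd order is all of C. -/
theorem result {G : Type*} [Group G] [Finite G] (z : G) (hz : Cfsg.IsIsolatedInvolution z) : Cfsg.pResidual 2 G = ⊤ ↔ Cfsg.pResidual 2 ↥(Subgroup.centralizer ({z} : Set G)) = ⊤ := by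
  classical
  have : Fact (Nat.Prime 2) := ⟨Nat.prime_two⟩
  set C := Subgroup.centralizer ({z} : Set G) with hC
  have hiff : ∀ (X : Type _) [Group X] [Finite X], Cfsg.pResidual 2 X = ⊤ ↔ ∀ K : Subgroup X, K.index ≠ 2 := by
    intro X _ _
    have : (Cfsg.pResidual 2 X).Characteristic := Cfsg.Agent.Lib.Transfer.pResidual_characteristic
    constructor
    · intro h K hK
      have : K.Normal := Subgroup.normal_of_index_eq_two hK
      have hle : Cfsg.pResidual 2 X ≤ K := Cfsg.Agent.Lib.Transfer.pResidual_le (p := 2)
        (IsPGroup.of_card (n := 1) (by rw [pow_one, ← Subgroup.index_eq_card, hK]))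
      rw [h, top_le_iff] at hle
      rw [hle, Subgroup.index_top] at hK
      norm_num at hK
    · intro h
      by_contra hne
      obtain ⟨x, -, hx⟩ := SetLike.exists_of_lt (lt_top_iff_ne_top.mpr hne)
      obtain ⟨K, hK⟩ := exists_index_two_of_hom Cfsg.Agent.Lib.Transfer.isPGroup_quotient_pResidual
        (QuotientGroup.mk' (Cfsg.pResidual 2 X)) (g := x) (fun he => hx ((QuotientGroup.eq_one_iff x).mp he))
      exact h K hK
  rw [hiff, hiff]
  constructor
  · intro hG K hK
    have : K.Normal := Subgroup.normal_of_index_eq_two hK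
    have hcard : Nat.card (C ⧸ K) = 2 := by rw [← Subgroup.index_eq_card, hK]
    have : IsCyclic (C ⧸ K) := isCyclic_of_prime_card hcard
    letI : CommGroup (C ⧸ K) :=
      { (inferInstance : Group (C ⧸ K)) with mul_comm := IsCyclic.isMulCommutative.is_comm.comm }
    obtain ⟨P, hP⟩ := (IsPGroup.of_card (p := 2) (n := 1)
      (by rw [Nat.card_zpowers, hz.1, pow_one] : Nat.card (Subgroup.zpowers z) = 2 ^ 1)).exists_le_sylow
    have hPC : (P : Subgroup G) ≤ C := fun q hq => Subgroup.mem_centralizer_singleton_iff.mpr
      (iso_commute_of_mem hz P.isPGroup' (hP (Subgroup.mem_zpowers z)) hq).eq.symm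
    have hodd : ¬ 2 ∣ C.index := fun h => P.not_dvd_index (h.trans (Subgroup.index_dvd_of_le hPC))
    obtain ⟨x, -, hx⟩ := SetLike.exists_of_lt (lt_top_iff_ne_top.mpr (show K ≠ ⊤ by
      intro h; rw [h, Subgroup.index_top] at hK; norm_num at hK))
    have h1 := transfer_eq_pow_of_fusion (QuotientGroup.mk' K) x (fun k g hg => by
      have hxz : Commute ((x : G) ^ k) z :=
        Commute.pow_left (Subgroup.mem_centralizer_singleton_iff.mp x.2) k
      obtain ⟨c, -, hcz, hce⟩ := iso_conj_in hz (H := ⊤) (x := (x : G) ^ k) (y := g⁻¹ * (x : G) ^ k * g)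
        (by rw [Subgroup.normalizer_eq_top_iff.mpr inferInstance]; trivial) (h := g⁻¹) (Subgroup.mem_top _)
        hxz (Subgroup.mem_centralizer_singleton_iff.mp hg) (by rw [inv_inv])
      have e : (⟨_, hg⟩ : C) = ⟨c, Subgroup.mem_centralizer_singleton_iff.mpr hcz⟩ * x ^ k *
          (⟨c, Subgroup.mem_centralizer_singleton_iff.mpr hcz⟩ : C)⁻¹ := Subtype.ext hce.symm
      rw [e, map_mul, map_mul, map_inv, mul_right_comm, mul_inv_cancel, one_mul])
    obtain ⟨H, hH⟩ := exists_index_two_of_hom (IsPGroup.of_card (n := 1) (by rw [hcard, pow_one]))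
      (MonoidHom.transfer (QuotientGroup.mk' K)) (g := (x : G)) (by
        rw [h1]
        intro h
        have hd : orderOf (QuotientGroup.mk' K x) ∣ 2 := hcard ▸ orderOf_dvd_natCard _
        have hne : orderOf (QuotientGroup.mk' K x) ≠ 1 := fun he =>
          hx ((QuotientGroup.eq_one_iff x).mp (orderOf_eq_one_iff.mp he))
        rcases (Nat.dvd_prime Nat.prime_two).mp hd with h' | h'
        · exact hne h'
        · exact hodd (h' ▸ orderOf_dvd_of_pow_eq_one h))
    exact hG H hH
  · intro hC2 N hN
    have : N.Normal := Subgroup.normal_of_index_eq_two hN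
    have hcard : Nat.card (G ⧸ N) = 2 := by rw [← Subgroup.index_eq_card, hN]
    refine hC2 (N.subgroupOf C) ?_
    rw [show (N.subgroupOf C).index = N.relIndex C from rfl]
    rcases (Nat.dvd_prime Nat.prime_two).mp (hN ▸ Subgroup.relIndex_dvd_index_of_normal N C) with h | h
    · exfalso
      rw [Subgroup.relIndex_eq_one] at h
      have hall : ∀ g : G, g ∈ N := by
        intro g
        obtain ⟨k, hk, hc⟩ := exists_invOdd hz g
        have hkN : k ∈ N := by
          rw [← QuotientGroup.eq_one_iff]
          rw [← orderOf_eq_one_iff]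
          have hd : orderOf (QuotientGroup.mk k : G ⧸ N) ∣ 2 := hcard ▸ orderOf_dvd_natCard _
          have ho : Odd (orderOf (QuotientGroup.mk k : G ⧸ N)) :=
            hk.1.of_dvd_nat (orderOf_map_dvd (QuotientGroup.mk' N) k)
          rcases (Nat.dvd_prime Nat.prime_two).mp hd with h' | h'
          · exact h'
          · rw [h'] at ho; exact absurd ho (by decide)
        have := N.mul_mem hkN (N.inv_mem (h (mem_centralizer_of_conj hc)))
        simpa using this
      rw [show N = ⊤ from eq_top_iff.mpr fun g _ => hall g, Subgroup.index_top] at hN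
      norm_num at hN
    · exact h

end Cfsg.Agent.S1183
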