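import Cfsg.Statements.S1184
import Cfsg.Agent.Lib.Involution.IsolatedMore

set_option autoImplicit false
open Cfsg

namespace Cfsg.Agent.S1184

open Cfsg.Agent.Lib.Involution

/-- Let z be an isolated involution of the finite group G. If s and t are distinct conjugates of z, then st does not commute with z. -/
theorem result {G : Type*} [Group G] [Finite G] (z : G) (hz : Cfsg.IsIsolatedInvolution z) (g h : G) (hne : g * z * g⁻¹ ≠ h * z * h⁻¹) : ¬ Commute (g * z * g⁻¹ * (h * z * h⁻¹)) z := by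
  intro hc
  set s := g * z * g⁻¹ with hs
  set t := h * z * h⁻¹ with ht
  have hso : orderOf s = 2 := (orderOf_conj g z).trans hz.1
  have hto : orderOf t = 2 := (orderOf_conj h z).trans hz.1
  obtain ⟨k, hk⟩ := conj_of_odd hz.1 hso (by rw [hs]; exact iso_odd hz g)
  have hzinv : z * (z * s) * z⁻¹ = (z * s)⁻¹ := conj_prod hz.1 hso
  have hsts : s * (s * t) * s⁻¹ = (s * t)⁻¹ := conj_prod hso hto
  have hodd : Odd (orderOf (s * t)) := by rw [hs, ht]; exact iso_conj_odd hz g h
  have hoddzs : Odd (orderOf (z * s)) := by rw [hs]; exact iso_odd hz g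
  set p := s * t with hp
  set q := z * s with hq
  have hqinv : q * p * q⁻¹ = p⁻¹ := by
    calc q * p * q⁻¹ = z * (s * p * s⁻¹) * z⁻¹ := by rw [hq]; group
      _ = p⁻¹ := by rw [hsts, (hc.inv_left.symm).eq, mul_inv_cancel_right]
  have hq2 : Commute (q ^ 2) p := by
    have h2 : q ^ 2 * p * (q ^ 2)⁻¹ = p := by
      calc q ^ 2 * p * (q ^ 2)⁻¹ = q * (q * p * q⁻¹) * q⁻¹ := by simp [pow_two, mul_assoc]
        _ = p := by rw [hqinv, ← conj_inv, hqinv, inv_inv]
    exact mul_inv_eq_iff_eq_mul.mp h2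
  obtain ⟨j, hj⟩ := exists_sqrt_of_odd hoddzs
  have hqp : Commute q p := by
    rw [← hj, ← pow_mul, mul_comm j 2, pow_mul]
    exact hq2.pow_left j
  have hp1 : p = 1 := by
    rw [hqp.eq, mul_inv_cancel_right] at hqinv
    exact eq_one_of_mul_self_of_odd hodd (mul_eq_one_iff_eq_inv.mpr hqinv)
  exact hne ((inv_self hso).symm.trans (inv_eq_of_mul_eq_one_right hp1))

end Cfsg.Agent.S1184
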