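import Cfsg.Statements.S1231
import Cfsg.Agent.Lib.Involution.StronglyEmbedded

set_option autoImplicit false
open Cfsg

namespace Cfsg.Agent.S1231

open Cfsg.Agent.Lib.Involution

/-- Let H be a subgroup of the finite group G, p a prime, k ≥ 1, and P a Sylow p-subgroup of H whose p-rank is at least k. Then N_G(X) ≤ H for every subgroup X of P of p-rank at least k if and only if H ∩ gHg⁻¹ has p-rank less than k for every g ∉ H. -/
theorem result {G : Type*} [Group G] [Finite G] {p : ℕ} [Fact p.Prime] (k : ℕ) (hk : 1 ≤ k) (H : Subgroup G) (P : Sylow p ↥H) (hP : ¬ Cfsg.PRankLE p (k - 1) ↥(P : Subgroup ↥H)) : (∀ X : Subgroup G, X ≤ (P : Subgroup ↥H).map H.subtype → ¬ Cfsg.PRankLE p (k - 1) ↥X → Subgroup.normalizer (X : Set G) ≤ H) ↔ (∀ g : G, g ∉ H → Cfsg.PRankLE p (k - 1) ↥(H ⊓ H.map (MulAut.conj g).toMonoidHom)) := by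
  have hmono : ∀ {X Y : Subgroup G}, X ≤ Y → ¬ Cfsg.PRankLE p (k - 1) ↥X → ¬ Cfsg.PRankLE p (k - 1) ↥Y := by
    intro X Y hle hX hY
    apply hX
    intro A hA hAp
    have e := Nat.card_congr (A.equivMapOfInjective (Subgroup.inclusion hle) (Subgroup.inclusion_injective hle)).toEquiv
    rw [e]
    refine hY _ ?_ ?_
    · refine ⟨⟨?_⟩⟩
      rintro ⟨_, a, ha, rfl⟩ ⟨_, b, hb, rfl⟩
      apply Subtype.ext
      exact congrArg (Subgroup.inclusion hle) (congrArg Subtype.val (hA.is_comm.comm ⟨a, ha⟩ ⟨b, hb⟩))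
    · rintro _ ⟨a, ha, rfl⟩
      rw [← map_pow, hAp a ha, map_one]
  have hconj : ∀ (g : G) {X : Subgroup G}, ¬ Cfsg.PRankLE p (k - 1) ↥X →
      ¬ Cfsg.PRankLE p (k - 1) ↥(X.map (MulAut.conj g).toMonoidHom) := by
    intro g X hX hY
    apply hX
    intro A hA hAp
    let e := X.equivMapOfInjective (MulAut.conj g).toMonoidHom (MulAut.conj g).injective
    have h' := Nat.card_congr (A.equivMapOfInjective e.toMonoidHom e.injective).toEquiv
    rw [h']
    refine hY _ ?_ ?_
    · refine ⟨⟨?_⟩⟩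
      rintro ⟨_, a, ha, rfl⟩ ⟨_, b, hb, rfl⟩
      apply Subtype.ext
      simp only [Subgroup.coe_mul, ← map_mul]
      exact congrArg e.toMonoidHom (congrArg Subtype.val (hA.is_comm.comm ⟨a, ha⟩ ⟨b, hb⟩))
    · rintro _ ⟨a, ha, rfl⟩
      rw [← map_pow, hAp a ha, map_one]
  constructor
  · intro hN g hg A hA hAp
    by_contra hbig
    push Not at hbig
    set E := A.map (H ⊓ H.map (MulAut.conj g).toMonoidHom).subtype with hE
    have hEle : E ≤ H ⊓ H.map (MulAut.conj g).toMonoidHom := Subgroup.map_subtype_le _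
    have hEp : IsPGroup p E := by
      refine IsPGroup.map (fun a => ⟨1, ?_⟩) _
      rw [pow_one]
      exact Subtype.ext (hAp a.1 a.2)
    have hEbig : ¬ Cfsg.PRankLE p (k - 1) ↥E := by
      intro h
      let e := A.equivMapOfInjective _ (H ⊓ H.map (MulAut.conj g).toMonoidHom).subtype_injective
      have h1 := h ⊤ ⟨⟨fun a b => Subtype.ext (by
        obtain ⟨u, hu⟩ := e.surjective a.1
        obtain ⟨v, hv⟩ := e.surjective b.1
        change a.1 * b.1 = b.1 * a.1
        rw [← hu, ← hv, ← map_mul, hA.is_comm.comm u v, map_mul])⟩⟩ (by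
        intro a _
        obtain ⟨u, rfl⟩ := e.surjective a
        rw [← map_pow, show u ^ p = 1 from Subtype.ext (hAp u.1 u.2), map_one])
      rw [Subgroup.card_top, ← Nat.card_congr e.toEquiv] at h1
      omega
    refine hg (H.inv_mem_iff.mp (mem_of_conj_le H P (fun X => ¬ Cfsg.PRankLE p (k - 1) ↥X) hmono hconj
      hN hEp (hEle.trans inf_le_left) hEbig ?_))
    rintro _ ⟨x, hx, rfl⟩
    have := mem_map_conj.mp (hEle hx).2
    simpa using this
  · intro h X hXP hX n hn
    by_contra hn'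
    refine hmono (le_inf (hXP.trans (Subgroup.map_subtype_le _)) fun x hx => ?_) hX (h n hn')
    rw [mem_map_conj]
    refine Subgroup.map_subtype_le _ (hXP ?_)
    simpa using (Subgroup.mem_normalizer_iff.mp (inv_mem hn) x).mp hx

end Cfsg.Agent.S1231
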