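import Cfsg.Statements.S1241
import Cfsg.Agent.Lib.Involution.TransferEval

set_option autoImplicit false
open Cfsg

namespace Cfsg.Agent.S1241

open Cfsg.Agent.Lib.Involution

/-- Let G be a finite group, p a prime, H a subgroup of index prime to p, K a subgroup of H normal in H with H/K commutative, and g ∈ H ∖ K an element of p-power order such that for all integers m and all a ∈ G with a g^m a⁻¹ ∈ H one has a g^m a⁻¹ ∈ g^m K. Then g ∉ G'. -/
theorem result {G : Type*} [Group G] [Finite G] {p : ℕ} [Fact p.Prime] (H K : Subgroup G) (hHK : K ≤ H) (hKn : (K.subgroupOf H).Normal) (hab : ∀ x ∈ H, ∀ y ∈ H, x * y * x⁻¹ * y⁻¹ ∈ K) (hidx : Nat.Coprime p H.index) (g : G) (hgH : g ∈ H) (hgK : g ∉ K) (hgp : ∃ k : ℕ, orderOf g = p ^ k) (hctrl : ∀ (m : ℤ) (a : G), a * g ^ m * a⁻¹ ∈ H → (a * g ^ m * a⁻¹) * (g ^ m)⁻¹ ∈ K) : g ∉ commutator G := by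
  intro hgc
  have : (K.subgroupOf H).Normal := hKn
  letI : CommGroup (H ⧸ K.subgroupOf H) :=
    { (inferInstance : Group (H ⧸ K.subgroupOf H)) with
      mul_comm := fun a b => by
        induction a using QuotientGroup.induction_on with
        | H a =>
        induction b using QuotientGroup.induction_on with
        | H b =>
        rw [← QuotientGroup.mk_mul, ← QuotientGroup.mk_mul, QuotientGroup.eq, Subgroup.mem_subgroupOf]
        have h := hab _ (H.inv_mem b.2) _ (H.inv_mem a.2)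
        simp only [inv_inv] at h
        simpa [mul_assoc] using h }
  have : H.FiniteIndex := inferInstance
  let φ := QuotientGroup.mk' (K.subgroupOf H)
  have h1 := transfer_eq_pow_of_fusion φ ⟨g, hgH⟩ (fun k a ha => by
    have h0 : a⁻¹ * g ^ (k : ℤ) * a⁻¹⁻¹ ∈ H := by
      rw [zpow_natCast, inv_inv]; exact ha
    have h := hctrl (k : ℤ) a⁻¹ h0
    simp only [zpow_natCast, inv_inv] at h
    rw [QuotientGroup.mk'_apply, QuotientGroup.mk'_apply, eq_comm, QuotientGroup.eq, Subgroup.mem_subgroupOf]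
    simp only [Subgroup.coe_mul, Subgroup.coe_inv, SubmonoidClass.coe_pow]
    have h2 := hKn.conj_mem ⟨_, H.mul_mem ha (H.inv_mem (H.pow_mem hgH k))⟩ (Subgroup.mem_subgroupOf.mpr h)
      ⟨_, H.inv_mem (H.pow_mem hgH k)⟩
    rw [Subgroup.mem_subgroupOf] at h2
    simpa [mul_assoc] using h2)
  have h2 : MonoidHom.transfer φ g = 1 := Abelianization.commutator_subset_ker _ hgc
  rw [h2] at h1
  obtain ⟨k, hk⟩ := hgp
  have hd : orderOf (φ ⟨g, hgH⟩) ∣ p ^ k := by
    refine (orderOf_map_dvd φ _).trans ?_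
    rw [← hk, Subgroup.orderOf_mk]
  have hd2 : orderOf (φ ⟨g, hgH⟩) ∣ H.index := orderOf_dvd_of_pow_eq_one h1.symm
  have h3 := Nat.eq_one_of_dvd_coprimes (Nat.Coprime.pow_left k hidx) hd hd2
  rw [orderOf_eq_one_iff, QuotientGroup.mk'_apply, QuotientGroup.eq_one_iff, Subgroup.mem_subgroupOf] at h3
  exact hgK h3

end Cfsg.Agent.S1241
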