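import Cfsg.Statements.S1242
import Cfsg.Agent.Lib.Involution.TransferEval
import Cfsg.Agent.Lib.Transfer.Basic

set_option autoImplicit false
open Cfsg

namespace Cfsg.Agent.S1242

open Cfsg.Agent.Lib.Involution
open Cfsg.Agent.Lib.Transfer

/-- Let G be a finite group, p a prime and H a subgroup of index prime to p such that any two elements of H of p-power order that are conjugate in G are conjugate in H. Then (O^p(G)·G') ∩ H = O^p(H)·H', where O^p denotes the subgroup generated by the elements of order prime to p. -/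
theorem result {G : Type*} [Group G] [Finite G] {p : ℕ} [Fact p.Prime] (H : Subgroup G) (hidx : Nat.Coprime p H.index) (hfus : ∀ g ∈ H, (∃ k : ℕ, orderOf g = p ^ k) → ∀ a : G, a * g * a⁻¹ ∈ H → ∃ h ∈ H, h * g * h⁻¹ = a * g * a⁻¹) : (Cfsg.pResidual p G ⊔ commutator G) ⊓ H = (Cfsg.pResidual p ↥H ⊔ commutator ↥H).map H.subtype := by
  classical
  have : (Cfsg.pResidual p H).Characteristic := Cfsg.Agent.Lib.Transfer.pResidual_characteristic
  have : (Cfsg.pResidual p G).Characteristic := Cfsg.Agent.Lib.Transfer.pResidual_characteristic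
  set RH := Cfsg.pResidual p H ⊔ commutator H with hRH
  apply le_antisymm
  swap
  · refine le_inf ?_ (Subgroup.map_subtype_le _)
    rw [hRH, Subgroup.map_sup]
    refine sup_le_sup (Cfsg.Agent.Lib.Transfer.map_pResidual_subtype_le H) ?_
    rw [commutator_def, commutator_def, Subgroup.map_commutator]
    exact Subgroup.commutator_mono le_top le_top
  have : RH.Normal := Subgroup.sup_normal _ _
  letI : CommGroup (H ⧸ RH) :=
    { (inferInstance : Group (H ⧸ RH)) with
      mul_comm := fun a b => by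
        induction a using QuotientGroup.induction_on with
        | H a =>
        induction b using QuotientGroup.induction_on with
        | H b =>
        rw [← QuotientGroup.mk_mul, ← QuotientGroup.mk_mul, QuotientGroup.eq]
        refine (le_sup_right : commutator H ≤ RH) ?_
        rw [commutator_def]
        convert Subgroup.commutator_mem_commutator (Subgroup.mem_top b⁻¹) (Subgroup.mem_top a⁻¹) using 1
        simp [commutatorElement_def, mul_assoc] }
  have hpA : IsPGroup p (H ⧸ RH) := (Cfsg.Agent.Lib.Transfer.isPGroup_quotient_pResidual (G := H) (p := p)).of_surjective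
    (QuotientGroup.map (Cfsg.pResidual p H) RH (MonoidHom.id _) (by rw [Subgroup.comap_id]; exact le_sup_left))
    (fun q => by
      induction q using QuotientGroup.induction_on with
      | H a => exact ⟨QuotientGroup.mk a, rfl⟩)
  set V := MonoidHom.transfer (QuotientGroup.mk' RH) with hV
  have hVker : Cfsg.pResidual p G ⊔ commutator G ≤ V.ker :=
    sup_le (Cfsg.Agent.Lib.Transfer.pResidual_le_ker V hpA) (Abelianization.commutator_subset_ker V)
  rintro y ⟨hy, hyH⟩
  have hp := (Fact.out : p.Prime)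
  obtain ⟨k, m, hm, he⟩ := Nat.exists_eq_pow_mul_and_not_dvd (orderOf_pos y).ne' p hp.ne_one
  have hm0 : m ≠ 0 := by rintro rfl; exact hm (dvd_zero p)
  have hcop : Nat.Coprime (p ^ k) m := Nat.Coprime.pow_left k (hp.coprime_iff_not_dvd.mpr hm)
  -- the `p`-part
  have hord : orderOf (y ^ m) = p ^ k := by
    rw [orderOf_pow' _ hm0, he, Nat.gcd_mul_left_left, Nat.mul_div_cancel _ (Nat.pos_of_ne_zero hm0)]
  have hxH : y ^ m ∈ H := pow_mem hyH m
  have h1 := transfer_eq_pow_of_fusion (QuotientGroup.mk' RH) ⟨y ^ m, hxH⟩ (fun i a ha => by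
    have hpi : ∃ j : ℕ, orderOf ((y ^ m) ^ i) = p ^ j := by
      obtain ⟨j, -, hj⟩ := (Nat.dvd_prime_pow hp).mp (hord ▸ orderOf_pow_dvd (x := y ^ m) i)
      exact ⟨j, hj⟩
    obtain ⟨h, hh, he'⟩ := hfus _ (pow_mem hxH i) hpi a⁻¹ (by rw [inv_inv]; exact ha)
    rw [inv_inv] at he'
    have e : (⟨_, ha⟩ : H) = ⟨h, hh⟩ * ⟨y ^ m, hxH⟩ ^ i * (⟨h, hh⟩ : H)⁻¹ := Subtype.ext he'.symm
    rw [e, map_mul, map_mul, map_inv, mul_right_comm, mul_inv_cancel, one_mul])
  rw [show MonoidHom.transfer (QuotientGroup.mk' RH) (y ^ m) = 1 from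
    MonoidHom.mem_ker.mp (hVker (pow_mem hy m))] at h1
  have h2 : (⟨y ^ m, hxH⟩ : H) ∈ RH := by
    rw [← QuotientGroup.eq_one_iff, ← orderOf_eq_one_iff]
    refine Nat.eq_one_of_dvd_coprimes (Nat.Coprime.pow_left k hidx) ?_ (orderOf_dvd_of_pow_eq_one h1.symm)
    refine (orderOf_map_dvd (QuotientGroup.mk' RH) _).trans ?_
    rw [Subgroup.orderOf_mk, hord]
  have h3 : (⟨y ^ p ^ k, pow_mem hyH _⟩ : H) ∈ RH := by
    refine (le_sup_left : Cfsg.pResidual p H ≤ RH) (Cfsg.Agent.Lib.Transfer.mem_pResidual ?_)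
    rw [Subgroup.orderOf_mk, orderOf_pow' _ (pow_ne_zero _ hp.ne_zero), he, Nat.gcd_mul_right_left,
      Nat.mul_div_cancel_left _ (pow_pos hp.pos k)]
    exact (hp.coprime_iff_not_dvd.mpr hm).symm
  refine ⟨⟨y, hyH⟩, ?_, rfl⟩
  have hb : ((1 : ℕ) : ℤ) = (p ^ k : ℕ) * Nat.gcdA (p ^ k) m + (m : ℕ) * Nat.gcdB (p ^ k) m := by
    rw [← Nat.gcd_eq_gcd_ab, hcop]
  have e : (⟨y, hyH⟩ : H) = (⟨y ^ p ^ k, pow_mem hyH _⟩ : H) ^ Nat.gcdA (p ^ k) m *
      (⟨y ^ m, hxH⟩ : H) ^ Nat.gcdB (p ^ k) m := by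
    apply Subtype.ext
    simp only [Subgroup.coe_mul, SubgroupClass.coe_zpow, ← zpow_natCast, ← zpow_mul, ← zpow_add]
    rw [← hb, Nat.cast_one, zpow_one]
  rw [e]
  exact RH.mul_mem (RH.zpow_mem h3 _) (RH.zpow_mem h2 _)

end Cfsg.Agent.S1242
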