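import Cfsg.Statements.S1243
import Cfsg.Agent.Lib.Involution.Basic

set_option autoImplicit false
open Cfsg

namespace Cfsg.Agent.S1243

open Cfsg.Agent.Lib.Involution

/-- Let T be a Sylow p-subgroup of the finite group G and W ≤ T a subgroup weakly closed in T. If d and g d g⁻¹ both centralize W, then g d g⁻¹ = h d h⁻¹ for some h ∈ N_G(W). -/
theorem result {G : Type*} [Group G] [Finite G] {p : ℕ} [Fact p.Prime] (T : Sylow p G) (W : Subgroup G) (hW : Cfsg.IsWeaklyClosed W (T : Subgroup G)) (d g : G) (hd : d ∈ Subgroup.centralizer (W : Set G)) (hgd : g * d * g⁻¹ ∈ Subgroup.centralizer (W : Set G)) : ∃ h ∈ Subgroup.normalizer (W : Set G), h * d * h⁻¹ = g * d * g⁻¹ := by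
  set W' := W.map (MulAut.conj g).toMonoidHom with hW'
  set d' := g * d * g⁻¹ with hd'
  let C := Subgroup.centralizer ({d'} : Set G)
  have h1 : W ≤ C := fun w hw => Subgroup.mem_centralizer_singleton_iff.mpr
    (Subgroup.mem_centralizer_iff.mp hgd w hw)
  have h2 : W' ≤ C := by
    rintro _ ⟨w, hw, rfl⟩
    rw [Subgroup.mem_centralizer_singleton_iff]
    simp only [MulEquiv.coe_toMonoidHom, MulAut.conj_apply]
    rw [hd', show g * w * g⁻¹ * (g * d * g⁻¹) = g * (w * d) * g⁻¹ by group,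
      Subgroup.mem_centralizer_iff.mp hd w hw]
    group
  have hWp : IsPGroup p W := T.isPGroup'.to_le hW.1
  have hW'p : IsPGroup p W' := hWp.map _
  obtain ⟨R, hR⟩ := (hWp.comap_of_injective C.subtype C.subtype_injective).exists_le_sylow
  obtain ⟨R', hR'⟩ := (hW'p.comap_of_injective C.subtype C.subtype_injective).exists_le_sylow
  obtain ⟨c, hc⟩ := MulAction.exists_smul_eq C R' R
  obtain ⟨Q, hQ⟩ := (R.isPGroup'.map C.subtype).exists_le_sylow
  obtain ⟨b, hb⟩ := MulAction.exists_smul_eq G Q T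
  have hmem : ∀ u ∈ (R : Subgroup C).map C.subtype, b * u * b⁻¹ ∈ (T : Subgroup G) := by
    intro u hu
    rw [← hb]
    exact Subgroup.smul_mem_pointwise_smul _ _ _ (hQ hu)
  have hA : W.map (MulAut.conj b).toMonoidHom = W := hW.2 b (by
    rintro _ ⟨w, hw, rfl⟩
    exact hmem w ⟨⟨w, h1 hw⟩, hR hw, rfl⟩)
  have hB : W.map (MulAut.conj (b * (c : G) * g)).toMonoidHom = W := hW.2 _ (by
    rintro _ ⟨w, hw, rfl⟩
    have hw' : g * w * g⁻¹ ∈ W' := ⟨w, hw, rfl⟩
    have h3 : (c : G) * (g * w * g⁻¹) * (c : G)⁻¹ ∈ (R : Subgroup C).map C.subtype := by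
      refine ⟨c * ⟨_, h2 hw'⟩ * c⁻¹, ?_, rfl⟩
      rw [← hc]
      exact Subgroup.smul_mem_pointwise_smul _ _ _ (hR' hw')
    have := hmem _ h3
    simpa [MulAut.conj_apply, mul_assoc] using this)
  have hn : ∀ x : G, W.map (MulAut.conj x).toMonoidHom = W → x ∈ Subgroup.normalizer (W : Set G) := by
    intro x hx
    rw [Subgroup.mem_normalizer_iff]
    intro w
    constructor
    · intro hw; rw [← hx]; exact ⟨w, hw, rfl⟩
    · intro hw
      rw [← hx] at hw
      obtain ⟨v, hv, he⟩ := hw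
      exact (MulAut.conj x).injective he ▸ hv
  refine ⟨b⁻¹ * (b * c * g), mul_mem (inv_mem (hn b hA)) (hn _ hB), ?_⟩
  calc b⁻¹ * (b * c * g) * d * (b⁻¹ * (b * c * g))⁻¹ = (c : G) * d' * (c : G)⁻¹ := by rw [hd']; group
    _ = d' := by
      rw [show (c : G) * d' = d' * c from Subgroup.mem_centralizer_singleton_iff.mp c.2, mul_inv_cancel_right]

end Cfsg.Agent.S1243
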