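import Cfsg.Statements.S1244
import Cfsg.Agent.Lib.Involution.TransferEval
import Cfsg.Agent.Lib.Transfer.Fusion

set_option autoImplicit false
open Cfsg

namespace Cfsg.Agent.S1244

open Cfsg.Agent.Lib.Involution

/-- Let G be a finite group with no subgroup of index 2 whose Sylow 2-subgroup S is commutative, and let R ≤ S be a subgroup whose 2-rank is exactly one less than the 2-rank r of S. Then every involution of S is conjugate, by an element of N_G(S), to an element of R. -/
theorem result {G : Type*} [Group G] [Finite G] (hG : ∀ H : Subgroup G, H.index ≠ 2) (S : Sylow 2 G) (hS : IsMulCommutative (S : Subgroup G)) (r : ℕ) (hr1 : 1 ≤ r) (hSr : Cfsg.PRankLE 2 r (S : Subgroup G) ∧ ¬ Cfsg.PRankLE 2 (r - 1) (S : Subgroup G)) (R : Subgroup G) (hRS : R ≤ S) (hRr : Cfsg.PRankLE 2 (r - 1) R ∧ (r = 1 ∨ ¬ Cfsg.PRankLE 2 (r - 2) R)) (t : G) (ht : orderOf t = 2) (htS : t ∈ S) : ∃ n ∈ Subgroup.normalizer ((S : Subgroup G) : Set G), n * t * n⁻¹ ∈ R := by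
  classical
  have : Fact (Nat.Prime 2) := ⟨Nat.prime_two⟩
  have := Fintype.ofFinite G
  letI : CommGroup (S : Subgroup G) :=
    { (inferInstance : Group (S : Subgroup G)) with mul_comm := hS.is_comm.comm }
  set N := Subgroup.normalizer ((S : Subgroup G) : Set G) with hN
  have hfix : ∀ x : (S : Subgroup G), (∀ n ∈ N, n * (x : G) * n⁻¹ = x) → x = 1 := by
    intro x hx
    have h1 := transfer_eq_pow_of_fusion (MonoidHom.id (S : Subgroup G)) x (fun k g hg => by
      obtain ⟨n, hn, hne⟩ := Cfsg.Agent.Lib.Transfer.controlsFusion_normalizer S hS ((x : G) ^ k) (pow_mem x.2 k) g⁻¹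
        (by rw [inv_inv]; exact hg)
      apply Subtype.ext
      simp only [MonoidHom.id_apply, SubmonoidClass.coe_pow]
      rw [inv_inv] at hne
      rw [← hne, ← conj_pow, hx n hn])
    have h2 : MonoidHom.transfer (MonoidHom.id (S : Subgroup G)) (x : G) = 1 := by
      by_contra h
      obtain ⟨K, hK⟩ := exists_index_two_of_hom S.isPGroup' _ h
      exact hG K hK
    rw [h2, MonoidHom.id_apply] at h1
    obtain ⟨k, hk⟩ := IsPGroup.iff_orderOf.mp S.isPGroup' x
    rw [← orderOf_eq_one_iff]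
    have hd : orderOf x ∣ (S : Subgroup G).index := orderOf_dvd_of_pow_eq_one h1.symm
    refine Nat.eq_one_of_dvd_coprimes ?_ (dvd_of_eq hk) hd
    exact Nat.Coprime.pow_left k (Nat.prime_two.coprime_iff_not_dvd.mpr S.not_dvd_index)
  let f : N →* MulAut (S : Subgroup G) := (S : Subgroup G).normalizerMonoidHom
  have hf : ∀ (n : N) (a : (S : Subgroup G)), ((f n a : (S : Subgroup G)) : G) = (n : G) * a * (n : G)⁻¹ :=
    fun n a => rfl
  set a0 : (S : Subgroup G) := ⟨t, htS⟩ with ha0
  set O : Finset (S : Subgroup G) := Finset.univ.image (fun n : N => f n a0) with hO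
  have hprod : ∏ a ∈ O, a = 1 := by
    refine hfix _ fun n hn => ?_
    rw [← hf ⟨n, hn⟩, map_prod]
    congr 1
    refine Finset.prod_nbij (fun a => f ⟨n, hn⟩ a) ?_ (fun a _ b _ h => (f ⟨n, hn⟩).injective h) ?_ (fun a _ => rfl)
    · intro a ha
      rw [hO, Finset.mem_image] at ha ⊢
      obtain ⟨m, -, rfl⟩ := ha
      exact ⟨⟨n, hn⟩ * m, Finset.mem_univ _, by rw [map_mul]; rfl⟩
    · intro a ha
      rw [hO, Finset.mem_coe, Finset.mem_image] at ha
      obtain ⟨m, -, rfl⟩ := ha
      refine ⟨f (⟨n, hn⟩⁻¹ * m) a0, ?_, ?_⟩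
      · rw [hO, Finset.mem_coe, Finset.mem_image]; exact ⟨_, Finset.mem_univ _, rfl⟩
      · change f ⟨n, hn⟩ (f (⟨n, hn⟩⁻¹ * m) a0) = _
        rw [← MulAut.mul_apply, ← map_mul, mul_inv_cancel_left]
  have hodd : Odd O.card := by
    let St : Subgroup N :=
      { carrier := {n | f n a0 = a0}
        one_mem' := by simp
        mul_mem' := by intro a b ha hb; simp only [Set.mem_setOf_eq] at *; rw [map_mul, MulAut.mul_apply, hb, ha]
        inv_mem' := by
          intro a ha
          simp only [Set.mem_setOf_eq] at *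
          conv_lhs => rw [← ha]
          rw [← MulAut.mul_apply, ← map_mul, inv_mul_cancel, map_one, MulAut.one_apply] }
    have hcard : St.index = O.card := by
      rw [Subgroup.index_eq_card, ← Nat.card_eq_finsetCard]
      refine Nat.card_eq_of_bijective (fun q => Quotient.liftOn' q (fun n => (⟨f n a0, by simp [hO]⟩ : O)) ?_) ⟨?_, ?_⟩
      · intro a b hab
        rw [QuotientGroup.leftRel_apply] at hab
        have : f (a⁻¹ * b) a0 = a0 := hab
        apply Subtype.ext
        calc f a a0 = f a (f (a⁻¹ * b) a0) := by rw [this]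
          _ = f b a0 := by rw [← MulAut.mul_apply, ← map_mul, mul_inv_cancel_left]
      · intro x y
        induction x using Quotient.inductionOn' with
        | _ a =>
        induction y using Quotient.inductionOn' with
        | _ b =>
        intro h
        simp only [Quotient.liftOn'_mk'', Subtype.mk.injEq] at h
        rw [Quotient.eq'', QuotientGroup.leftRel_apply]
        change f (a⁻¹ * b) a0 = a0
        rw [map_mul, MulAut.mul_apply, ← h, ← MulAut.mul_apply, ← map_mul, inv_mul_cancel, map_one, MulAut.one_apply]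
      · rintro ⟨a, ha⟩
        rw [hO, Finset.mem_image] at ha
        obtain ⟨m, -, rfl⟩ := ha
        exact ⟨Quotient.mk'' m, rfl⟩
    have hle : (S : Subgroup G).subgroupOf N ≤ St := by
      intro n hn
      apply Subtype.ext
      rw [hf]
      have := congrArg Subtype.val (mul_comm (⟨(n : G), hn⟩ : (S : Subgroup G)) a0)
      simp only [Subgroup.coe_mul] at this
      rw [this, mul_inv_cancel_right]
    rw [← hcard, ← Nat.not_even_iff_odd, even_iff_two_dvd]
    exact fun h => S.not_dvd_index ((h.trans (Subgroup.index_dvd_of_le hle)).trans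
      (Subgroup.relIndex_dvd_index_of_le (S : Subgroup G).le_normalizer))
  by_contra hnone
  push Not at hnone
  -- the elementary abelian subgroup of involutions of `S`
  let Ω : Subgroup (S : Subgroup G) := (powMonoidHom 2 : (S : Subgroup G) →* (S : Subgroup G)).ker
  let W : Subgroup Ω := (R.subgroupOf (S : Subgroup G)).subgroupOf Ω
  have hΩ : ∀ a : (S : Subgroup G), a ∈ Ω ↔ a ^ 2 = 1 := fun a => MonoidHom.mem_ker
  have hOΩ : ∀ a ∈ O, a ∈ Ω := by
    intro a ha
    rw [hO, Finset.mem_image] at ha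
    obtain ⟨m, -, rfl⟩ := ha
    rw [hΩ, ← map_pow]
    have : a0 ^ 2 = 1 := Subtype.ext (by simp only [ha0, SubmonoidClass.coe_pow, OneMemClass.coe_one]; rw [← ht, pow_orderOf_eq_one])
    rw [this, map_one]
  have hOW : ∀ a (ha : a ∈ O), (⟨a, hOΩ a ha⟩ : Ω) ∉ W := by
    intro a ha hW
    rw [hO, Finset.mem_image] at ha
    obtain ⟨m, -, rfl⟩ := ha
    exact hnone (m : G) m.2 hW
  have hW2 : W.index = 2 := by
    have hΩc : Nat.card Ω ≤ 2 ^ r :=
      hSr.1 Ω ⟨⟨fun a b => Subtype.ext (mul_comm _ _)⟩⟩ (fun a ha => (hΩ a).mp ha)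
    have hWc : 2 ^ (r - 1) ≤ Nat.card W := by
      rcases hRr.2 with h | h
      · subst h; rw [Nat.sub_self, pow_zero]; exact Nat.card_pos
      · have hex : ∃ A : Subgroup R, (∀ a ∈ A, a ^ 2 = 1) ∧ 2 ^ (r - 2) < Nat.card A := by
          by_contra hall
          push Not at hall
          exact h fun A _ hA => hall A hA
        obtain ⟨A, hA, hlt⟩ := hex
        obtain ⟨j, hj⟩ := (IsPGroup.to_subgroup (S.isPGroup'.to_le hRS) A).exists_card_eq
        have h2 : 2 ^ (r - 1) ≤ Nat.card A := by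
          rw [hj] at hlt ⊢
          exact Nat.pow_le_pow_right two_pos (by
            have := (Nat.pow_lt_pow_iff_right (by norm_num : 1 < 2)).mp hlt
            omega)
        refine h2.trans (Nat.card_le_card_of_injective (fun a : A =>
          (⟨⟨⟨(a : R), hRS a.1.2⟩, (hΩ _).mpr (Subtype.ext (by simpa using congrArg Subtype.val (hA a.1 a.2)))⟩, a.1.2⟩ : W)) ?_)
        intro a b hab
        exact Subtype.ext (Subtype.ext (congrArg (fun w : W => ((w : Ω) : (S : Subgroup G)).1) hab))
    have hc := W.card_mul_index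
    have h1 : W.index ≠ 1 := by
      intro h
      rw [Subgroup.index_eq_one] at h
      have ha : a0 ∈ O := by rw [hO, Finset.mem_image]; exact ⟨1, Finset.mem_univ _, by simp⟩
      exact hOW a0 ha (h ▸ Subgroup.mem_top _)
    have h0 : W.index ≠ 0 := Subgroup.index_ne_zero_of_finite
    have h3 : 2 ^ (r - 1) * W.index ≤ 2 ^ r := le_trans (Nat.mul_le_mul_right _ hWc) (hc ▸ hΩc)
    obtain ⟨s, rfl⟩ : ∃ s, r = s + 1 := Nat.exists_eq_succ_of_ne_zero (by omega)
    rw [Nat.add_sub_cancel, pow_succ] at h3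
    have := Nat.le_of_mul_le_mul_left h3 (pow_pos two_pos s)
    omega
  have ha0O : a0 ∈ O := by rw [hO, Finset.mem_image]; exact ⟨1, Finset.mem_univ _, by simp⟩
  have hmk : ∀ a ∈ O.attach, (QuotientGroup.mk (⟨a.1, hOΩ a.1 a.2⟩ : Ω) : Ω ⧸ W) =
      QuotientGroup.mk (⟨a0, hOΩ a0 ha0O⟩ : Ω) := by
    intro a _
    rw [QuotientGroup.eq]
    by_contra hcon
    exact hcon ((Subgroup.mul_mem_iff_of_index_two hW2).mpr (iff_of_false
      (fun h => hOW a.1 a.2 (W.inv_mem_iff.mp h)) (hOW a0 ha0O)))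
  have h1 : (QuotientGroup.mk' W) (∏ a ∈ O.attach, (⟨a.1, hOΩ a.1 a.2⟩ : Ω)) = 1 := by
    rw [show (∏ a ∈ O.attach, (⟨a.1, hOΩ a.1 a.2⟩ : Ω)) = 1 from Subtype.ext (by
      rw [SubmonoidClass.coe_finset_prod, OneMemClass.coe_one]
      exact (Finset.prod_attach O (fun a => a)).trans hprod), map_one]
  simp only [map_prod, QuotientGroup.mk'_apply] at h1
  rw [Finset.prod_congr rfl hmk, Finset.prod_const, Finset.card_attach] at h1
  obtain ⟨j, hj⟩ := hodd
  set e : Ω ⧸ W := QuotientGroup.mk (⟨a0, hOΩ a0 ha0O⟩ : Ω)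
  have he : e ^ 2 = 1 := by
    rw [← orderOf_dvd_iff_pow_eq_one]
    exact (orderOf_dvd_natCard e).trans (dvd_of_eq ((Subgroup.index_eq_card W).symm.trans hW2))
  rw [hj, pow_add, pow_mul, he, one_pow, one_mul, pow_one] at h1
  exact hOW a0 ha0O ((QuotientGroup.eq_one_iff _).mp h1)

end Cfsg.Agent.S1244
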