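import Cfsg.Statements.S1246
import Cfsg.Agent.Lib.Components.Local
import Cfsg.Agent.Lib.Components.Extended

set_option autoImplicit false
open Cfsg

namespace Cfsg.Agent.S1246

open Cfsg.Agent.Lib.Components Subgroup

variable {G : Type*} [Group G] [Finite G] {p : ℕ} [Fact p.Prime]

omit [Fact p.Prime] in
lemma pgroup_le_core {H Q : Subgroup G} (hQH : Q ≤ H) (hQ : IsPGroup p Q) (hN : H ≤ normalizer (Q : Set G)) :
    Q ≤ (pCore p ↥H).map H.subtype := by
  haveI : (Q.subgroupOf H).Normal := normal_subgroupOf_of_le_normalizer hN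
  intro q hq
  exact ⟨⟨q, hQH hq⟩, le_pCore (N := Q.subgroupOf H) hQ.comap_subtype (show (⟨q, hQH hq⟩ : H) ∈ Q.subgroupOf H from hq), rfl⟩

lemma le_normalizer_core (H : Subgroup G) :
    normalizer (H : Set G) ≤ normalizer (((pCore p ↥H).map H.subtype : Subgroup G) : Set G) := by
  intro g hg
  set Q := (pCore p ↥H).map H.subtype with hQ
  refine mem_normalizer_fintype fun q hq => ?_
  have hQH : Q ≤ H := map_subtype_le _
  have hHN : H ≤ normalizer (Q : Set G) := le_normalizer_map_subtype' H
  have h : Q.map (MulAut.conj g).toMonoidHom ≤ Q := by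
    refine pgroup_le_core ?_ ((pCore_isPGroup p).map H.subtype |>.map _) ?_
    · rintro - ⟨u, hu, rfl⟩
      exact (mem_normalizer_iff.mp hg u).mp (hQH hu)
    · intro x hx
      refine mem_normalizer_fintype fun y hy => ?_
      obtain ⟨u, hu, rfl⟩ := hy
      refine ⟨(g⁻¹ * x * g) * u * (g⁻¹ * x * g)⁻¹, (mem_normalizer_iff.mp (hHN ?_) u).mp hu, ?_⟩
      · simpa [mul_assoc] using (mem_normalizer_iff.mp (inv_mem hg) x).mp hx
      · simp [mul_assoc]
  exact h ⟨q, hq, rfl⟩
where
  le_normalizer_map_subtype' (H : Subgroup G) :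
      H ≤ normalizer (((pCore p ↥H).map H.subtype : Subgroup G) : Set G) := by
    intro x hx
    refine mem_normalizer_fintype fun y hy => ?_
    obtain ⟨u, hu, rfl⟩ := hy
    exact ⟨⟨x, hx⟩ * u * ⟨x, hx⟩⁻¹, (inferInstance : (pCore p ↥H).Normal).conj_mem u hu _, rfl⟩

lemma gfs_pgroup_iff {H : Type*} [Group H] [Finite H] :
    IsPGroup p ↥(generalizedFittingSubgroup H) ↔ centralizer (pCore p H : Set H) ≤ pCore p H := by
  rw [← gfs_eq_pCore_iff]
  constructor
  · intro h
    exact le_antisymm (le_pCore h) ((pCore_le_fittingSubgroup p).trans le_sup_right)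
  · intro h
    rw [h]
    exact pCore_isPGroup p

/-- One step up. -/
lemma charp_step {V W : Subgroup G} (hVW : V ≤ W) (hW : IsPGroup p W) (hN : W ≤ normalizer (V : Set G))
    (h : centralizer (pCore p ↥(centralizer (V : Set G)) : Set ↥(centralizer (V : Set G))) ≤
      pCore p ↥(centralizer (V : Set G))) :
    centralizer (pCore p ↥(centralizer (W : Set G)) : Set ↥(centralizer (W : Set G))) ≤
      pCore p ↥(centralizer (W : Set G)) := by
  set H := centralizer (V : Set G) with hH
  set C := centralizer (W : Set G) with hC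
  have hCH : C ≤ H := centralizer_le hVW
  refine charp_of_no_pprime fun x hx hc => ?_
  set Q := (pCore p ↥H).map H.subtype with hQ
  have hQH : Q ≤ H := map_subtype_le _
  have hQp : IsPGroup p Q := (pCore_isPGroup p).map H.subtype
  have hNH : normalizer (V : Set G) ≤ normalizer (H : Set G) := normalizer_le_normalizer_centralizer' V
  have hWQ : W ≤ normalizer (Q : Set G) := (hN.trans hNH).trans (le_normalizer_core H)
  have hCQ : C ≤ normalizer (Q : Set G) := hCH.trans ((le_normalizer.trans (le_normalizer_core H)))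
  have hxQ := axb hQp hW hWQ x.2 (hCQ x.2) (by rwa [Subgroup.orderOf_coe]) (fun q hq => by
    have hD : Q ⊓ C ≤ (pCore p ↥C).map C.subtype := pgroup_le_core inf_le_right hQp.to_inf_left
      ((le_inf hCQ le_normalizer).trans inf_normalizer_le_normalizer_inf)
    obtain ⟨q', hq', rfl⟩ := hD hq
    have h2 := congrArg Subtype.val (mem_centralizer_iff.1 hx q' hq')
    exact mem_centralizer_singleton_iff.2 h2)
  have h1 : (⟨(x : G), hCH x.2⟩ : H) ∈ pCore p ↥H := h (mem_centralizer_iff.2 fun q hq => Subtype.ext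
    (mem_centralizer_singleton_iff.1 (hxQ (mem_map_of_mem _ hq))))
  have h3 := congrArg Subtype.val
    (eq_one_of_mem_pGroup_of_coprime (pCore_isPGroup p) h1 (by rwa [Subgroup.orderOf_mk, Subgroup.orderOf_coe]))
  exact Subtype.ext h3


/-- Let V ≤ U be p-subgroups of the finite group G. If the generalized Fitting subgroup of C_G(V) is a p-group, then so is that of C_G(U). -/
theorem result {G : Type*} [Group G] [Finite G] {p : ℕ} [Fact p.Prime] (U V : Subgroup G) (hVU : V ≤ U) (hU : IsPGroup p U) (hV : IsPGroup p ↥(Cfsg.generalizedFittingSubgroup ↥(Subgroup.centralizer (V : Set G)))) : IsPGroup p ↥(Cfsg.generalizedFittingSubgroup ↥(Subgroup.centralizer (U : Set G))) := by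
  rw [gfs_pgroup_iff] at hV ⊢
  suffices key : ∀ n : ℕ, ∀ W : Subgroup G, W ≤ U → Nat.card U - Nat.card W = n →
      centralizer (pCore p ↥(centralizer (W : Set G)) : Set ↥(centralizer (W : Set G))) ≤
        pCore p ↥(centralizer (W : Set G)) →
      centralizer (pCore p ↥(centralizer (U : Set G)) : Set ↥(centralizer (U : Set G))) ≤
        pCore p ↥(centralizer (U : Set G)) from key _ V hVU rfl hV
  intro n
  induction n using Nat.strong_induction_on with
  | _ n ih =>
    intro W hWU hn hW
    rcases eq_or_lt_of_le hWU with rfl | hlt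
    · exact hW
    set W' := U ⊓ normalizer (W : Set G) with hW'
    have hWW' : W < W' := by
      refine lt_of_le_of_ne (le_inf hWU le_normalizer) fun heq => ?_
      haveI := hU.isNilpotent
      have hlt' : W.subgroupOf U < ⊤ := lt_top_iff_ne_top.2 fun h => hlt.not_ge (subgroupOf_eq_top.1 h)
      have h1 := normalizerCondition_of_isNilpotent _ hlt'
      refine h1.not_ge fun u hu => ?_
      have h2 : (u : G) ∈ W' := mem_inf.2 ⟨u.2, mem_normalizer_fintype fun w hw =>
        (mem_normalizer_iff.1 hu ⟨w, hWU hw⟩).1 hw⟩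
      rw [← heq] at h2
      exact h2
    refine ih _ ?_ W' inf_le_left rfl (charp_step hWW'.le (hU.to_le inf_le_left) inf_le_right hW)
    have h2 := Set.ncard_lt_ncard (SetLike.coe_ssubset_coe.2 hWW') (Set.toFinite _)
    rw [← Nat.card_coe_set_eq, ← Nat.card_coe_set_eq] at h2
    have h3 : Nat.card W' ≤ Nat.card U := Subgroup.card_le_of_le inf_le_left
    simp only [SetLike.coe_sort_coe] at h2
    omega

end Cfsg.Agent.S1246
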