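import Cfsg.Statements.S1247
import Cfsg.Agent.Lib.Components.MaxLocal
import Cfsg.Agent.Lib.Transfer.Basic

set_option autoImplicit false
open Cfsg

namespace Cfsg.Agent.S1247

open Cfsg.Agent.Lib.Components Cfsg.Agent.Lib.Components.MaxLocal Subgroup
open scoped commutatorElement

section Inner

variable {X : Type*} [Group X] [Finite X] {T : Subgroup X} (hT : T.IsSubnormal)
  (hTF : T ≤ generalizedFittingSubgroup X) (hTC : generalizedFittingSubgroup X ⊓ centralizer (T : Set X) ≤ T)
include hT hTF hTC

lemma layer_le_sub : layer X ≤ T := by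
  rw [layer_le_iff]
  intro L hL
  rcases comp_subnormal_dichotomy hL hT with h | h
  · exact h
  · exact fun x hx => hTC ⟨comp_le_gfs hL hx, commutator_eq_bot_iff_le_centralizer.1 h hx⟩

lemma cent_part_le (r : ℕ) [Fact r.Prime] :
    pCore r X ⊓ centralizer ((pCore r X ⊓ T : Subgroup X) : Set X) ≤ T := by
  rintro y ⟨hy, hyC⟩
  refine hTC ⟨fitting_le_gfs (pCore_le_fittingSubgroup r hy), ?_⟩
  have hyF : y ∈ fittingSubgroup X := pCore_le_fittingSubgroup r hy
  refine mem_centralizer_iff.2 fun t ht => ?_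
  suffices hle : T ≤ centralizer {y} from mem_centralizer_singleton_iff.1 (hle ht)
  refine (subnormal_le_gfs_decomp hT hTF).trans (sup_le ?_ ?_)
  · refine (layer_le_of_subnormal hT).trans fun e he => mem_centralizer_singleton_iff.2 ?_
    exact (mem_centralizer_iff.1 (commutator_eq_bot_iff_le_centralizer.1 layer_commute_fitting he) y hyF).symm
  · rintro f ⟨hf, hfT⟩
    have hsup := fittingSubgroup_le_sup (G := X) r hf
    obtain ⟨a, ha, b, hb, rfl⟩ := mem_sup_of_normal_right.1 hsup
    have hab : Commute a b := (mem_centralizer_iff.1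
      (commutator_eq_bot_iff_le_centralizer.1 (pPrimeCore_commute_pCore (p := r)) hb) a ha)
    have hcop : (orderOf a).Coprime (orderOf b) := by
      have hbc : (orderOf b).Coprime r := coprime_orderOf_of_mem (pPrimeCore_coprime r) hb
      obtain ⟨j, hj⟩ := pCore_isPGroup r ⟨a, ha⟩
      have hja : a ^ r ^ j = 1 := by simpa using congrArg Subtype.val hj
      exact ((hbc.symm.pow_left j).coprime_dvd_left (orderOf_dvd_of_pow_eq_one hja))
    have haT : a ∈ T := by
      obtain ⟨u, v, huv⟩ : IsCoprime ((orderOf a : ℕ) : ℤ) (orderOf b : ℤ) := Nat.isCoprime_iff_coprime.2 hcop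
      have h1 : a = (a * b) ^ (v * (orderOf b : ℤ)) := by
        rw [hab.mul_zpow, mul_comm v, zpow_mul b, zpow_natCast, pow_orderOf_eq_one, one_zpow, mul_one]
        conv_lhs => rw [← zpow_one a, ← huv]
        rw [zpow_add, mul_comm u, zpow_mul, zpow_natCast, pow_orderOf_eq_one, one_zpow, one_mul, mul_comm v]
      rw [h1]
      exact zpow_mem (show a * b ∈ T from hfT) _
    refine mul_mem (mem_centralizer_singleton_iff.2 (mem_centralizer_iff.1 hyC a ⟨ha, haT⟩)) ?_
    exact mem_centralizer_singleton_iff.2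
      (mem_centralizer_iff.1 (commutator_eq_bot_iff_le_centralizer.1 (pPrimeCore_commute_pCore (p := r)) hb) y hy).symm

lemma center_part_le (r : ℕ) [Fact r.Prime] :
    pCore r X ⊓ centralizer (pCore r X : Set X) ≤ pCore r X ⊓ T := fun y hy =>
  ⟨hy.1, cent_part_le hT hTF hTC r ⟨hy.1, centralizer_le (by exact_mod_cast inf_le_left) hy.2⟩⟩

/-- An element of order prime to `r` centralizing the part in `T` centralizes `O_r`. -/
lemma centralize_core (r : ℕ) [Fact r.Prime] {x : X} (hx : (orderOf x).Coprime r)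
    (hC : x ∈ centralizer ((pCore r X ⊓ T : Subgroup X) : Set X)) : pCore r X ≤ centralizer {x} :=
  axb (pCore_isPGroup r) (pCore_isPGroup r).to_inf_left
    (by rw [normalizer_eq_top]; exact le_top) hC (by rw [normalizer_eq_top]; exact mem_top _) hx
    fun q hq => mem_centralizer_singleton_iff.2
      (mem_centralizer_iff.1 hC q ⟨hq.1, cent_part_le hT hTF hTC r hq⟩)

end Inner


/-- Let G be a non-abelian finite simple group, A a maximal subgroup, F = F*(A) its generalized Fitting subgroup (viewed in G), and S ≤ F a subgroup subnormal in F with C_F(S) ≤ S. Let B be any subgroup of G containing S. Then (a) for every prime q not dividing |F(A)|, O_q(B) ∩ A = 1; and (b) for every prime p dividing |F(A)|, O_p(B) commutes elementwise with the subgroup of F generated by its elements of order prime to p. -/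
theorem result {G : Type*} [Group G] [Finite G] [IsSimpleGroup G] (hna : ¬ IsMulCommutative G) (A : Subgroup G) (hA : IsCoatom A) (S : Subgroup G) (hSF : S ≤ (Cfsg.generalizedFittingSubgroup ↥A).map A.subtype) (hSsn : (S.subgroupOf ((Cfsg.generalizedFittingSubgroup ↥A).map A.subtype)).IsSubnormal) (hSC : (Cfsg.generalizedFittingSubgroup ↥A).map A.subtype ⊓ Subgroup.centralizer (S : Set G) ≤ S) (B : Subgroup G) (hSB : S ≤ B) : (∀ q : ℕ, q.Prime → ¬ q ∣ Nat.card (Cfsg.fittingSubgroup ↥A) → (Cfsg.pCore q ↥B).map B.subtype ⊓ A = ⊥) ∧ (∀ p : ℕ, p.Prime → p ∣ Nat.card (Cfsg.fittingSubgroup ↥A) → ∀ x ∈ (Cfsg.pCore p ↥B).map B.subtype, ∀ y ∈ (Cfsg.pResidual p ↥(Cfsg.generalizedFittingSubgroup ↥A)).map ((Cfsg.generalizedFittingSubgroup ↥A).subtype) , x * (A.subtype y) = (A.subtype y) * x) := by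
  set F := generalizedFittingSubgroup ↥A with hF
  set T := S.subgroupOf A with hTdef
  have hFA : F.map A.subtype ≤ A := map_subtype_le _
  have hSA : S ≤ A := hSF.trans hFA
  have hTF : T ≤ F := by
    rintro x hx
    obtain ⟨y, hy, hyx⟩ := hSF (mem_subgroupOf.1 hx)
    exact (Subtype.ext hyx : y = x) ▸ hy
  have hT : T.IsSubnormal := by
    refine Subgroup.IsSubnormal.trans hTF ?_ (by rw [hF, generalizedFittingSubgroup]; exact Subgroup.Normal.isSubnormal inferInstance)
    exact Subgroup.IsSubnormal.comap ((A.subtype.subgroupMap F)) hSsn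
  have hTC : F ⊓ centralizer (T : Set A) ≤ T := by
    rintro x ⟨hx, hxC⟩
    exact mem_subgroupOf.2 (hSC ⟨mem_map_of_mem _ hx, mem_centralizer_iff.2 fun s hs =>
      congrArg Subtype.val (mem_centralizer_iff.1 hxC ⟨s, hSA hs⟩ (mem_subgroupOf.2 hs))⟩)
  have hE := layer_le_sub hT hTF hTC
  have hFit : ∀ x : ↥A, (∀ r, r.Prime → pCore r ↥A ≤ centralizer {x}) → layer ↥A ≤ centralizer {x} →
      x ∈ fittingSubgroup ↥A := by
    intro x hxr hxE
    refine centralizer_gfs_le_fitting (mem_centralizer_iff.2 fun y hy => ?_)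
    suffices hle : generalizedFittingSubgroup ↥A ≤ centralizer {x} from mem_centralizer_singleton_iff.1 (hle hy)
    rw [generalizedFittingSubgroup, fittingSubgroup_eq_iSup]
    exact sup_le hxE (iSup_le fun r => hxr r r.2)
  -- normalization of the cores of `B` by `T`
  have hTB : ∀ (q : ℕ) (t : ↥A), t ∈ T → (t : G) ∈ normalizer (locCore q B : Set G) := fun q t ht =>
    le_normalizer_locCore q B (hSB (mem_subgroupOf.1 ht))
  have hRn : ∀ q : ℕ, T ≤ normalizer (((locCore q B).subgroupOf A : Subgroup ↥A) : Set ↥A) := by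
    intro q t ht
    refine mem_normalizer_fintype fun x hx => ?_
    exact mem_subgroupOf.2 ((mem_normalizer_iff.1 (hTB q t ht) _).1 (mem_subgroupOf.1 hx))
  have hRE : ∀ q : ℕ, q.Prime → ⁅(layer ↥A), (locCore q B).subgroupOf A⁆ = ⊥ := by
    intro q hq
    haveI := Fact.mk hq
    set R := (locCore q B).subgroupOf A with hR
    have hRp : IsPGroup q R := (locCore_isPGroup q B).comap_subtype
    have hER : layer ↥A ≤ normalizer (R : Set ↥A) := hE.trans (hRn q)
    refine commutator_eq_bot_of_perfect layer_perfect ?_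
    rw [commutator_eq_bot_iff_le_centralizer]
    have h1 : ⁅R, layer ↥A⁆ ≤ R ⊓ layer ↥A :=
      le_inf (le_normalizer_iff_commutator_le_left.1 hER)
        (le_normalizer_iff_commutator_le_right.1 (by rw [normalizer_eq_top]; exact le_top))
    refine h1.trans fun x hx => ?_
    have hsn : (R ⊓ layer ↥A).IsSubnormal := by
      refine Subgroup.IsSubnormal.trans inf_le_right ?_ (Subgroup.Normal.isSubnormal inferInstance)
      refine Subgroup.Normal.isSubnormal (normal_subgroupOf_of_le_normalizer ?_)
      exact (le_inf hER le_normalizer).trans inf_normalizer_le_normalizer_inf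
    exact commutator_eq_bot_iff_le_centralizer.1 (show ⁅pCore q ↥A, layer ↥A⁆ = ⊥ by
        rw [commutator_comm]; exact layer_commute_pCore)
      (le_pCore_of_subnormal hsn hRp.to_inf_left hx)
  have hRN : ∀ q r : ℕ, q.Prime → r.Prime → q ≠ r →
      ⁅pCore r ↥A ⊓ T, (locCore q B).subgroupOf A⁆ = ⊥ := by
    intro q r hq hr hne
    haveI := Fact.mk hq
    haveI := Fact.mk hr
    set R := (locCore q B).subgroupOf A with hR
    have hRp : IsPGroup q R := (locCore_isPGroup q B).comap_subtype
    rw [eq_bot_iff, ← IsPGroup.disjoint_of_ne q r hne _ _ hRp (pCore_isPGroup (G := ↥A) r) |>.eq_bot]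
    refine le_inf ?_ ?_
    · exact le_normalizer_iff_commutator_le_right.1 (inf_le_right.trans (hRn q))
    · exact (commutator_mono inf_le_left le_rfl).trans
        (le_normalizer_iff_commutator_le_left.1 (by rw [normalizer_eq_top]; exact le_top))
  constructor
  · intro q hq hdvd
    haveI := Fact.mk hq
    rw [Subgroup.eq_bot_iff_forall]
    rintro x ⟨hxB, hxA⟩
    set x' : ↥A := ⟨x, hxA⟩ with hx'
    have hxR : x' ∈ (locCore q B).subgroupOf A := mem_subgroupOf.2 hxB
    obtain ⟨j, hj⟩ := (locCore_isPGroup q B) ⟨x, hxB⟩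
    have hxj : orderOf x' ∣ q ^ j := by
      refine orderOf_dvd_of_pow_eq_one (Subtype.ext ?_)
      simpa using congrArg Subtype.val hj
    have hq0 : pCore q ↥A = ⊥ := by
      by_contra hne
      obtain ⟨n, hn⟩ := IsPGroup.iff_card.1 (pCore_isPGroup (G := ↥A) q)
      refine hdvd (dvd_trans ?_ (card_dvd_of_le (pCore_le_fittingSubgroup q)))
      rw [hn]
      refine dvd_pow_self q fun h0 => hne (Subgroup.eq_bot_of_card_eq _ ?_)
      rw [hn, h0, pow_zero]
    have hxF : x' ∈ fittingSubgroup ↥A := by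
      refine hFit x' (fun r hr => ?_) fun e he => mem_centralizer_singleton_iff.2
        ((mem_centralizer_iff.1 (commutator_eq_bot_iff_le_centralizer.1 (hRE q hq) he) x' hxR).symm)
      haveI := Fact.mk hr
      rcases eq_or_ne q r with rfl | hne
      · rw [hq0]; exact bot_le
      refine centralize_core hT hTF hTC r
        (((Nat.coprime_primes hq hr).2 hne).pow_left j |>.coprime_dvd_left hxj) (mem_centralizer_iff.2 fun n hn => ?_)
      exact (mem_centralizer_iff.1 (commutator_eq_bot_iff_le_centralizer.1 (hRN q r hq hr hne) hn) x' hxR).symm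
    have h1 : orderOf x' = 1 := by
      refine Nat.eq_one_of_dvd_coprimes ?_ hxj (Subgroup.orderOf_dvd_natCard _ hxF)
      exact (hq.coprime_iff_not_dvd.2 hdvd).pow_left j
    exact congrArg Subtype.val (orderOf_eq_one_iff.1 h1)
  intro p hp hdvd x hx y hy
  haveI := Fact.mk hp
  set P := locCore p B with hP
  set Q := pCore p ↥A with hQ
  set Y := (Q ⊓ T).map A.subtype with hY
  -- the centralizer of the part in `T` lies in `A`
  have hcore : ∀ r : ℕ, r.Prime → pCore r ↥A ≠ ⊥ →
      centralizer (((pCore r ↥A ⊓ T).map A.subtype : Subgroup G) : Set G) ≤ A := by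
    intro r hr hne
    haveI := Fact.mk hr
    haveI : Nontrivial (pCore r ↥A) := (nontrivial_iff_ne_bot _).2 hne
    have hZ : pCore r ↥A ⊓ centralizer (pCore r ↥A : Set ↥A) ≠ ⊥ := by
      haveI := (pCore_isPGroup (G := ↥A) r).center_nontrivial
      obtain ⟨⟨z, hz⟩, hz1⟩ := exists_ne (1 : center (pCore r ↥A))
      intro h0
      refine hz1 (Subtype.ext (Subtype.ext ?_))
      refine (Subgroup.eq_bot_iff_forall _).1 h0 (z : ↥A) ⟨z.2, mem_centralizer_iff.2 fun u hu => ?_⟩
      exact congrArg Subtype.val (mem_center_iff.1 hz ⟨u, hu⟩)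
    refine ((centralizer_le (by exact_mod_cast map_mono (f := A.subtype) (center_part_le hT hTF hTC r))).trans
      (Subgroup.centralizer_le_normalizer _)).trans (normalizer_le_max hA ?_ (map_subtype_le _) (le_normalizer_map_subtype _))
    exact fun h => hZ ((map_eq_bot_iff_of_injective _ A.subtype_injective).1 h)
  have hQne : Q ≠ ⊥ := by
    intro h0
    have h1 := fittingSubgroup_le_sup (G := ↥A) p
    rw [← hQ, h0, bot_sup_eq] at h1
    exact pPrimeCore_not_dvd (G := ↥A) p (hdvd.trans (card_dvd_of_le h1))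
  have hCY : centralizer (Y : Set G) ≤ A := hcore p hp hQne
  have hYP : Y ≤ normalizer (P : Set G) := by
    rintro - ⟨t, ht, rfl⟩
    exact hTB p t ht.2
  have hYp : IsPGroup p Y := (pCore_isPGroup p).to_inf_left.map _
  -- elements of `T` of order prime to `p` centralizing `Q ⊓ T` and the part of `P` in `A`
  have haxb : ∀ t : ↥A, t ∈ T → (orderOf t).Coprime p → t ∈ centralizer ((Q ⊓ T : Subgroup ↥A) : Set ↥A) →
      (locCore p B).subgroupOf A ≤ centralizer {t} → P ≤ centralizer {(t : G)} := by
    intro t ht hcop hC hR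
    refine axb (locCore_isPGroup p B) hYp hYP ?_ (hTB p t ht) (by rwa [Subgroup.orderOf_coe]) fun w hw => ?_
    · rintro - ⟨u, hu, rfl⟩
      exact congrArg Subtype.val (mem_centralizer_iff.1 hC u hu)
    · exact mem_centralizer_singleton_iff.2 (congrArg Subtype.val
        (mem_centralizer_singleton_iff.1 (hR (show (⟨w, hCY hw.2⟩ : ↥A) ∈ (locCore p B).subgroupOf A from hw.1))) :)
  set K := (centralizer (P : Set G)).subgroupOf A with hK
  have hmemK : ∀ t : ↥A, P ≤ centralizer {(t : G)} → t ∈ K := fun t ht =>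
    mem_subgroupOf.2 (mem_centralizer_iff.2 fun w hw => mem_centralizer_singleton_iff.1 (ht hw))
  have hEK : layer ↥A ≤ K := by
    have hres : pResidual p ↥(layer ↥A) = ⊤ := by
      haveI := Lib.Transfer.pResidual_characteristic (G := ↥(layer ↥A)) (p := p)
      rw [← top_le_iff]
      have hsol : Group.IsSolvable (↥(layer ↥A) ⧸ pResidual p ↥(layer ↥A)) :=
        haveI := (Lib.Transfer.isPGroup_quotient_pResidual (p := p) (G := ↥(layer ↥A))).isNilpotent
        inferInstance
      obtain ⟨n, hn⟩ := hsol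
      have hder : ∀ m, derivedSeries ↥(layer ↥A) m = ⊤ := by
        intro m
        induction m with
        | zero => rfl
        | succ m ih =>
          rw [derivedSeries_succ, ih]
          apply map_injective (layer ↥A).subtype_injective
          rw [map_commutator, ← MonoidHom.range_eq_map, range_subtype, layer_perfect]
      have := map_derivedSeries_eq (QuotientGroup.mk'_surjective (pResidual p ↥(layer ↥A))) n
      rw [hder, hn, Subgroup.map_eq_bot_iff, QuotientGroup.ker_mk'] at this
      exact this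
    intro e he
    have h1 : (⟨e, he⟩ : ↥(layer ↥A)) ∈ pResidual p ↥(layer ↥A) := hres ▸ mem_top _
    have h2 : pResidual p ↥(layer ↥A) ≤ K.subgroupOf (layer ↥A) := by
      rw [pResidual, closure_le]
      intro t ht
      refine mem_subgroupOf.2 (hmemK _ (haxb _ (hE t.2) (by rwa [Subgroup.orderOf_coe]) ?_ ?_))
      · exact centralizer_le (by exact_mod_cast inf_le_left)
          (commutator_eq_bot_iff_le_centralizer.1 (layer_commute_pCore (p := p)) t.2)
      · intro w hw
        exact mem_centralizer_singleton_iff.2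
          (mem_centralizer_iff.1 (commutator_eq_bot_iff_le_centralizer.1 (hRE p hp) t.2) w hw)
    exact mem_subgroupOf.1 (h2 h1)
  have hNK : ∀ r : ℕ, r.Prime → p ≠ r → pCore r ↥A ⊓ T ≤ K := by
    intro r hr hne t ht
    haveI := Fact.mk hr
    have hcop : (orderOf t).Coprime p := by
      obtain ⟨j, hj⟩ := pCore_isPGroup r ⟨t, ht.1⟩
      have hjt : t ^ r ^ j = 1 := by simpa using congrArg Subtype.val hj
      exact (((Nat.coprime_primes hr hp).2 hne.symm).pow_left j).coprime_dvd_left (orderOf_dvd_of_pow_eq_one hjt)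
    refine hmemK t (haxb t ht.2 hcop (mem_centralizer_iff.2 fun u hu => ?_) fun w hw => ?_)
    · have hd := IsPGroup.disjoint_of_ne p r hne _ _ (pCore_isPGroup (G := ↥A) p) (pCore_isPGroup (G := ↥A) r)
      exact mem_centralizer_iff.1 (commutator_eq_bot_iff_le_centralizer.1
        (commutator_eq_bot_of_disjoint_normalizing (disjoint_iff.1 hd.symm)
          (by rw [normalizer_eq_top]; exact le_top) (by rw [normalizer_eq_top]; exact le_top)) ht.1) u hu.1
    · exact mem_centralizer_singleton_iff.2
        (mem_centralizer_iff.1 (commutator_eq_bot_iff_le_centralizer.1 (hRN p r hp hr hne) ht) w hw)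
  have hRK : ∀ r : ℕ, r.Prime → p ≠ r → pCore r ↥A ≤ K := by
    intro r hr hne
    haveI := Fact.mk hr
    by_cases h0 : pCore r ↥A = ⊥
    · rw [h0]; exact bot_le
    have hPC : P ≤ centralizer (((pCore r ↥A ⊓ T).map A.subtype : Subgroup G) : Set G) := by
      intro w hw
      refine mem_centralizer_iff.2 ?_
      rintro - ⟨n, hn, rfl⟩
      exact (mem_centralizer_iff.1 (mem_subgroupOf.1 (hNK r hr hne hn)) w hw).symm
    intro v hv
    refine hmemK v fun w hw => ?_
    obtain ⟨j, hj⟩ := (locCore_isPGroup p B) ⟨w, hw⟩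
    have hcop : (orderOf (⟨w, hcore r hr h0 (hPC hw)⟩ : ↥A)).Coprime r := by
      refine (((Nat.coprime_primes hp hr).2 hne).pow_left j).coprime_dvd_left (orderOf_dvd_of_pow_eq_one ?_)
      exact Subtype.ext (by simpa using congrArg Subtype.val hj)
    have h1 := centralize_core hT hTF hTC r hcop (mem_centralizer_iff.2 fun n hn =>
      Subtype.ext (mem_centralizer_iff.1 (hPC hw) n (mem_map_of_mem _ hn))) hv
    exact mem_centralizer_singleton_iff.2 (congrArg Subtype.val (mem_centralizer_singleton_iff.1 h1)).symm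
  let M : Subgroup ↥A := layer ↥A ⊔ ⨆ r : {r : ℕ // r.Prime ∧ p ≠ r}, pCore (r : ℕ) ↥A
  haveI : M.Normal := by
    haveI : (⨆ r : {r : ℕ // r.Prime ∧ p ≠ r}, pCore (r : ℕ) ↥A).Normal := Subgroup.iSup_normal _
    exact Subgroup.sup_normal _ _
  have hMK : M ≤ K := sup_le hEK (iSup_le fun r => hRK r r.2.1 r.2.2)
  have hFM : F ≤ M ⊔ Q := by
    rw [hF, generalizedFittingSubgroup, fittingSubgroup_eq_iSup]
    refine sup_le (le_sup_of_le_left le_sup_left) (iSup_le fun r => ?_)
    rcases eq_or_ne p (r : ℕ) with h | h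
    · rw [← h]; exact le_sup_right
    · exact le_sup_of_le_left (le_sup_of_le_right (le_iSup (fun r : {r : ℕ // r.Prime ∧ p ≠ r} =>
        pCore (r : ℕ) ↥A) ⟨r, r.2, h⟩))
  obtain ⟨y', hy', rfl⟩ := hy
  refine (mem_centralizer_iff.1 (mem_subgroupOf.1 (?_ : (y' : ↥A) ∈ K)) x hx)
  have hgen : pResidual p ↥F ≤ K.subgroupOf F := by
    rw [pResidual, closure_le]
    intro t ht
    refine mem_subgroupOf.2 (hMK ?_)
    obtain ⟨a, ha, b, hb, hab⟩ := mem_sup_of_normal_left.1 (hFM t.2)
    rw [← QuotientGroup.eq_one_iff]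
    set π := QuotientGroup.mk' M
    show π t = 1
    obtain ⟨j, hj⟩ := pCore_isPGroup p ⟨b, hb⟩
    have hbj : b ^ p ^ j = 1 := by simpa using congrArg Subtype.val hj
    have h1 : π t = π b := by
      have ha1 : π a = 1 := (QuotientGroup.eq_one_iff a).2 ha
      rw [← hab, map_mul, ha1, one_mul]
    refine orderOf_eq_one_iff.1 (Nat.eq_one_of_dvd_coprimes (b := p ^ j) ?_ (dvd_refl (orderOf (π t))) ?_)
    · exact Nat.Coprime.coprime_dvd_left (orderOf_map_dvd π (t : ↥A)) (by
        rw [Subgroup.orderOf_coe]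
        exact Nat.Coprime.pow_right j ht)
    · exact orderOf_dvd_of_pow_eq_one (by rw [h1, ← map_pow, hbj, map_one])
  exact mem_subgroupOf.1 (hgen hy')

end Cfsg.Agent.S1247
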