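import Cfsg.Statements.S1248
import Cfsg.Agent.Lib.U3Sylow.Basic

set_option autoImplicit false
open Cfsg

namespace Cfsg.Agent.S1248

/-- Let F be a field with 16 elements and S a Sylow 2-subgroup of PSU(3) over F (the unitary group U₃(4)). Then |S| = 64; the centre Z(S) is a Klein four-group and coincides with the subgroup generated by the involutions of S and with the derived subgroup; and every element of S ⧸ Z(S) squares to the identity, S ⧸ Z(S) having order 16. -/
theorem result {F : Type*} [Field F] [Fintype F] (hF : Fintype.card F = 16) (S : Sylow 2 (Cfsg.PSU 3 F 4)) : Nat.card S = 64 ∧ IsKleinFour (Subgroup.center (S : Subgroup (Cfsg.PSU 3 F 4))) ∧ Subgroup.center (S : Subgroup (Cfsg.PSU 3 F 4)) = Subgroup.closure {x : (S : Subgroup (Cfsg.PSU 3 F 4)) | orderOf x = 2} ∧ Subgroup.center (S : Subgroup (Cfsg.PSU 3 F 4)) = commutator (S : Subgroup (Cfsg.PSU 3 F 4)) ∧ Nat.card ((S : Subgroup (Cfsg.PSU 3 F 4)) ⧸ Subgroup.center (S : Subgroup (Cfsg.PSU 3 F 4)))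 = 16 ∧ ∀ x : (S : Subgroup (Cfsg.PSU 3 F 4)) ⧸ Subgroup.center (S : Subgroup (Cfsg.PSU 3 F 4)), x ^ 2 = 1 := by
  classical
  have hF' : Fintype.card F = 4 ^ 2 := by rw [hF]; norm_num
  haveI := Cfsg.Agent.Lib.U3Sylow.charTwo (n := 2) (F := F) (by rw [hF]; norm_num)
  obtain ⟨H⟩ := Cfsg.Agent.Lib.U3Sylow.exists_shape_sylow hF' ⟨2, rfl⟩ S
  haveI := H.finite hF'
  refine ⟨by rw [H.card_eq hF']; norm_num, ?_, H.center_eq_closure hF', H.center_eq_commutator hF',
    by rw [← Subgroup.index_eq_card, H.index_center hF']; norm_num, H.quot_sq hF'⟩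
  have hc := H.card_center hF'
  refine ⟨hc, ?_⟩
  haveI : Nontrivial (Subgroup.center (S : Subgroup (Cfsg.PSU 3 F 4))) :=
    Finite.one_lt_card_iff_nontrivial.1 (by rw [hc]; norm_num)
  refine (Nat.Prime.eq_one_or_self_of_dvd Nat.prime_two _ (Monoid.exponent_dvd_of_forall_pow_eq_one
    fun x => ?_)).resolve_left fun h => ?_
  · refine Subtype.ext ?_
    rw [SubmonoidClass.coe_pow, sq]
    exact (H.sq_eq_one hF').2 ((H.mem_center hF').1 x.2)
  · exact (not_subsingleton _) (Monoid.exp_eq_one_iff.1 h)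

end Cfsg.Agent.S1248
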