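import Cfsg.Statements.S1253
import Cfsg.Agent.Lib.Involution.IsolatedSylow

set_option autoImplicit false
open Cfsg

namespace Cfsg.Agent.S1253

open Cfsg.Agent.Lib.Involution
open scoped Pointwise

/-- Let z be an isolated involution of the finite group G with centralizer C, p an odd prime and P a Sylow p-subgroup of G normalized by z. Then P ∩ C has p-power-free index in C (it is a Sylow p-subgroup of C), and |P : C_P(z)| equals the number of elements x ∈ P with z x z⁻¹ = x⁻¹. -/
theorem result {G : Type*} [Group G] [Finite G] (z : G) (hz : Cfsg.IsIsolatedInvolution z) {p : ℕ} [Fact p.Prime] (hp : p ≠ 2) (P : Sylow p G) (hzP : z ∈ Subgroup.normalizer ((P : Subgroup G) : Set G)) : ¬ p ∣ ((P : Subgroup G) ⊓ Subgroup.centralizer ({z} : Set G)).relIndex (Subgroup.centralizer ({z} : Set G)) ∧ ((P : Subgroup G) ⊓ Subgroup.centralizer ({z} : Set G)).relIndex (P : Subgroup G) = Nat.card {x : G // x ∈ P ∧ z * x * z⁻¹ = x⁻¹} := by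
  have hodd : ∀ x ∈ (P : Subgroup G), Odd (orderOf x) := by
    intro x hx
    obtain ⟨k, hk⟩ := (IsPGroup.iff_orderOf.mp P.2) ⟨x, hx⟩
    rw [Subgroup.orderOf_mk] at hk
    rw [hk]; exact ((Fact.out : p.Prime).odd_of_ne_two hp).pow
  set C := Subgroup.centralizer ({z} : Set G) with hC
  constructor
  · have R : Sylow p C := default
    have hzR : z ∈ Subgroup.normalizer (((R : Subgroup C).map C.subtype : Subgroup G) : Set G) := by
      rw [Subgroup.mem_normalizer_iff]
      intro v
      have key : ∀ w : G, w ∈ (R : Subgroup C).map C.subtype → z * w * z⁻¹ = w := by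
        rintro w ⟨⟨w, hw⟩, -, rfl⟩
        exact mul_inv_eq_iff_eq_mul.mpr (Subgroup.mem_centralizer_singleton_iff.mp hw).symm
      refine ⟨fun h => by rw [key v h]; exact h, fun h => ?_⟩
      have h2 : v = z * (z * v * z⁻¹) * z⁻¹ := by
        calc v = (z * z) * v * (z * z)⁻¹ := by rw [mul_self hz.1]; group
          _ = _ := by group
      rw [h2, key _ h]; exact h
    obtain ⟨P', hRP', hzP'⟩ := exists_iso_invariant_sylow hz (R.2.map C.subtype) hzR
    obtain ⟨c, hc, hcP⟩ := iso_invariant_sylow_conj hz P' P hzP' hzP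
    have hle : MulAut.conj c • (R : Subgroup C).map C.subtype ≤ (P : Subgroup G) ⊓ C := by
      refine le_inf (hcP ▸ Subgroup.pointwise_smul_le_pointwise_smul_iff.mpr hRP') ?_
      intro v hv
      rw [Cfsg.Agent.Lib.Coprime.mem_conj_smul] at hv
      have := mul_mem (mul_mem hc (Subgroup.map_subtype_le _ hv)) (inv_mem hc)
      simpa [mul_assoc] using this
    intro hdvd
    have hp' : IsPGroup p (((P : Subgroup G) ⊓ C).subgroupOf C) := (P.2.to_inf_left).comap_subtype
    obtain ⟨T, hT⟩ := hp'.exists_le_sylow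
    have h1 : Nat.card R ≤ Nat.card (((P : Subgroup G) ⊓ C).subgroupOf C) := by
      rw [Cfsg.Agent.Lib.Coprime.card_subgroupOf inf_le_right]
      refine le_trans ?_ (Subgroup.card_le_of_le hle)
      rw [Cfsg.Agent.Lib.Coprime.card_conj_smul, Subgroup.card_map_of_injective C.subtype_injective]
    have heq : ((P : Subgroup G) ⊓ C).subgroupOf C = (T : Subgroup C) := by
      refine Subgroup.eq_of_le_of_card_ge hT ?_
      rw [T.card_eq_multiplicity, ← R.card_eq_multiplicity]; exact h1
    rw [Subgroup.relIndex, heq] at hdvd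
    exact T.not_dvd_index hdvd
  · rw [Subgroup.relIndex, Subgroup.index_eq_card]
    have hf : ∀ x : (P : Subgroup G), (x : G) * z * (x : G)⁻¹ * z⁻¹ ∈ (P : Subgroup G) := fun x => by
      have := mul_mem x.2 ((Subgroup.mem_normalizer_iff.mp hzP _).mp (inv_mem x.2))
      simpa [mul_assoc] using this
    have hzf : ∀ x : G, z * (x * z * x⁻¹ * z⁻¹) * z⁻¹ = (x * z * x⁻¹ * z⁻¹)⁻¹ := fun x => by
      have e : (z⁻¹ : G) = z := inv_self hz.1
      calc z * (x * z * x⁻¹ * z⁻¹) * z⁻¹ = z * x * z * x⁻¹ * (z⁻¹ * z⁻¹) := by group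
        _ = z * x * z * x⁻¹ := by rw [e, mul_self hz.1, mul_one]
        _ = z * x * z⁻¹ * x⁻¹ := by rw [e]
        _ = _ := by group
    refine Nat.card_eq_of_bijective (fun q => Quotient.liftOn' q
      (fun x : (P : Subgroup G) => (⟨(x : G) * z * (x : G)⁻¹ * z⁻¹, hf x, hzf x⟩ :
        {x : G // x ∈ P ∧ z * x * z⁻¹ = x⁻¹})) ?_) ⟨?_, ?_⟩
    · intro a b h
      rw [QuotientGroup.leftRel_apply, Subgroup.mem_subgroupOf, Subgroup.mem_inf] at h
      refine Subtype.ext ?_
      show (a : G) * z * (a : G)⁻¹ * z⁻¹ = (b : G) * z * (b : G)⁻¹ * z⁻¹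
      rw [conj_of_mem_centralizer (g := (a : G)) (k := (b : G)) h.2]
    · intro q r
      induction q using QuotientGroup.induction_on with
      | H a =>
        induction r using QuotientGroup.induction_on with
        | H b =>
          intro h
          have h' : (b : G) * z * (b : G)⁻¹ = (a : G) * z * (a : G)⁻¹ :=
            (mul_right_cancel (congrArg Subtype.val h)).symm
          rw [QuotientGroup.eq, Subgroup.mem_subgroupOf, Subgroup.mem_inf]
          exact ⟨((a⁻¹ * b : (P : Subgroup G))).2, mem_centralizer_of_conj h'⟩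
    · rintro ⟨k, hkP, hk⟩
      obtain ⟨i, hi⟩ := exists_sqrt_of_odd (hodd k hkP)
      refine ⟨QuotientGroup.mk ⟨k ^ i, pow_mem hkP i⟩, Subtype.ext ?_⟩
      show k ^ i * z * (k ^ i)⁻¹ * z⁻¹ = k
      rw [conj_of_inverts hz.1 (inverts_pow hk i), hi, mul_inv_cancel_right]

end Cfsg.Agent.S1253
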