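import Cfsg.Statements.S1258
import Cfsg.Agent.Lib.Components.Basic
-- import your own Cfsg.Agent.* helpers here

set_option autoImplicit false
open Cfsg

namespace Cfsg.Agent.S1258

/-- If the central quotient of a finite group X is non-abelian simple, then X = X' Z(X) and the commutator subgroup X' is quasisimple. -/
theorem result {X : Type*} [Group X] [Finite X] (hs : IsSimpleGroup (X ⧸ Subgroup.center X)) (hna : ¬ IsMulCommutative (X ⧸ Subgroup.center X)) : commutator X ⊔ Subgroup.center X = ⊤ ∧ Cfsg.IsQuasisimple ↥(commutator X) := by
  have hQ := Lib.Components.qs_of_simple (X := X ⧸ Subgroup.center X) hna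
  have h1 : (commutator X).map (QuotientGroup.mk' (Subgroup.center X)) = ⊤ := by
    rw [_root_.commutator_def, Subgroup.map_commutator,
      Subgroup.map_top_of_surjective _ (QuotientGroup.mk'_surjective _), ← _root_.commutator_def]
    exact Group.isPerfect_def.1 hQ.1
  have h2 : commutator X ⊔ Subgroup.center X = ⊤ := by
    rw [sup_comm, ← QuotientGroup.comap_map_mk', h1, Subgroup.comap_top]
  refine ⟨h2, Lib.Components.qs_of_central_extension ?_
    ((QuotientGroup.mk' (Subgroup.center X)).comp (commutator X).subtype) ?_ ?_ hQ⟩
  · rw [Subgroup.isPerfect_iff,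
      ← Lib.Components.commutator_sup_center_eq (le_refl (Subgroup.center X)), h2,
      ← _root_.commutator_def]
  · rw [← MonoidHom.range_eq_top, MonoidHom.range_comp, Subgroup.range_subtype, h1]
  · intro a ha
    rw [← MonoidHom.comap_ker, QuotientGroup.ker_mk', Subgroup.mem_comap] at ha
    exact Subgroup.mem_center_iff.2 fun b => Subtype.ext (Subgroup.mem_center_iff.1 ha b)

end Cfsg.Agent.S1258
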