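import Cfsg.Statements.S1262
import Cfsg.Agent.Lib.Components.Basic
-- import your own Cfsg.Agent.* helpers here

set_option autoImplicit false
open Cfsg

namespace Cfsg.Agent.S1262

/-- Let L be a component of the finite group G and H a solvable subgroup normalized by L. Then ⁅L, H⁆ = 1. -/
theorem result {G : Type*} [Group G] [Finite G] (L H : Subgroup G) (hL : Cfsg.IsComponent L) (hsolv : Group.IsSolvable ↥H) (hinv : L ≤ Subgroup.normalizer (H : Set G)) : ⁅L, H⁆ = ⊥ := by
  have hL' := Lib.Components.isComponent_subgroupOf hL hinv
  haveI : Group.IsSolvable ↥H := hsolv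
  haveI : (H.subgroupOf (Subgroup.normalizer (H : Set G))).Normal :=
    Subgroup.normal_subgroupOf_of_le_normalizer le_rfl
  have hs : Group.IsSolvable ↥(H.subgroupOf (Subgroup.normalizer (H : Set G))) :=
    Group.isSolvable_of_isSolvable_injective
      (f := (Subgroup.subgroupOfEquivOfLe H.le_normalizer).toMonoidHom)
      (Subgroup.subgroupOfEquivOfLe H.le_normalizer).injective
  have := congrArg (Subgroup.map (Subgroup.normalizer (H : Set G)).subtype)
    (Lib.Components.comp_commute_normal_solvable hL' hs)
  rwa [Subgroup.map_commutator, Subgroup.map_bot, Subgroup.map_subgroupOf_eq_of_le hinv,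
    Subgroup.map_subgroupOf_eq_of_le H.le_normalizer] at this

end Cfsg.Agent.S1262
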