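import Cfsg.Statements.S1263
import Cfsg.Agent.Lib.Components.Bender
-- import your own Cfsg.Agent.* helpers here

set_option autoImplicit false
open Cfsg

namespace Cfsg.Agent.S1263
open Subgroup Cfsg.Agent.Lib.Components
open scoped commutatorElement


/-- For a finite group G, Z(E(G)) is the subgroup generated by the centres Z(L) of the components L of G (all viewed as subgroups of G). -/
theorem result {G : Type*} [Group G] [Finite G] : (Subgroup.center ↥(Cfsg.layer G)).map (Cfsg.layer G).subtype = ⨆ L : {K : Subgroup G // Cfsg.IsComponent K}, (Subgroup.center ↥(L : Subgroup G)).map (L : Subgroup G).subtype := by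
  classical
  rw [map_center_eq]
  refine le_antisymm ?_ (iSup_le fun L => ?_)
  · let T := ⨆ L : {K : Subgroup G // Cfsg.IsComponent K},
      (Subgroup.center ↥(L : Subgroup G)).map (L : Subgroup G).subtype
    have key : ∀ s : Set (Subgroup G), s.Finite → (∀ L ∈ s, Cfsg.IsComponent L) →
        ∀ x ∈ sSup s, (∀ L ∈ s, x ∈ centralizer (L : Set G)) → x ∈ T := by
      intro s hs
      induction s, hs using Set.Finite.induction_on with
      | empty =>
        intro _ x hx _
        rw [sSup_empty, mem_bot] at hx
        exact hx ▸ one_mem T
      | @insert a t hat _ ih =>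
        intro hcomp x hx hc
        have ha := hcomp a (Set.mem_insert _ _)
        have hct : sSup t ≤ centralizer (a : Set G) :=
          commutator_eq_bot_iff_le_centralizer.1 (commutator_sSup_eq_bot fun L hL =>
            comp_commute (hcomp L (Set.mem_insert_of_mem _ hL)) ha (fun e => hat (e ▸ hL)))
        rw [sSup_insert, ← SetLike.mem_coe,
          coe_mul_of_right_le_normalizer_left a (sSup t) (hct.trans (centralizer_le_normalizer a))] at hx
        obtain ⟨l, hl, r, hr, rfl⟩ := hx
        have hlc : l ∈ centralizer (a : Set G) := by
          have h1 : l * r * r⁻¹ ∈ centralizer (a : Set G) :=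
            mul_mem (hc a (Set.mem_insert _ _)) (inv_mem (hct hr))
          rwa [mul_inv_cancel_right] at h1
        have hlT : l ∈ T := by
          refine le_iSup (fun L : {K : Subgroup G // Cfsg.IsComponent K} =>
            (Subgroup.center ↥(L : Subgroup G)).map (L : Subgroup G).subtype) ⟨a, ha⟩ ?_
          rw [map_center_eq]
          exact ⟨hl, hlc⟩
        refine mul_mem hlT (ih (fun L hL => hcomp L (Set.mem_insert_of_mem _ hL)) r hr fun L hL => ?_)
        have h2 : l ∈ centralizer (L : Set G) :=
          commutator_eq_bot_iff_le_centralizer.1 (comp_commute ha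
            (hcomp L (Set.mem_insert_of_mem _ hL)) (fun e => hat (e ▸ hL))) hl
        have h3 : l⁻¹ * (l * r) ∈ centralizer (L : Set G) :=
          mul_mem (inv_mem h2) (hc L (Set.mem_insert_of_mem _ hL))
        rwa [inv_mul_cancel_left] at h3
    intro x hx
    exact key _ (Set.toFinite _) (fun L hL => hL) x hx.1
      (fun L hL => centralizer_le (by exact_mod_cast comp_le_layer hL) hx.2)
  · rw [map_center_eq]
    refine le_inf (inf_le_left.trans (comp_le_layer L.2)) ?_
    rw [← commutator_eq_bot_iff_le_centralizer, commutator_comm]
    refine commutator_sSup_eq_bot fun K hK => ?_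
    by_cases h : K = L
    · rw [h, commutator_comm, commutator_eq_bot_iff_le_centralizer]
      exact inf_le_right
    · exact commutator_eq_bot_mono (comp_commute hK L.2 h) le_rfl inf_le_left

end Cfsg.Agent.S1263
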