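import Cfsg.Statements.S1264
import Cfsg.Agent.Lib.Components.Bender
-- import your own Cfsg.Agent.* helpers here

set_option autoImplicit false
open Cfsg

namespace Cfsg.Agent.S1264
open Subgroup Cfsg.Agent.Lib.Components
open scoped commutatorElement


/-- Let G be finite, C = C_G(F(G)) the centralizer of the Fitting subgroup, and N a solvable subgroup of C normalized by C. Then N ≤ Z(F(G)). -/
theorem result {G : Type*} [Group G] [Finite G] (N : Subgroup G) (hN : N ≤ Subgroup.centralizer (Cfsg.fittingSubgroup G : Set G)) (hnorm : Subgroup.centralizer (Cfsg.fittingSubgroup G : Set G) ≤ Subgroup.normalizer (N : Set G)) (hsolv : Group.IsSolvable ↥N) : N ≤ (Subgroup.center ↥(Cfsg.fittingSubgroup G)).map (Cfsg.fittingSubgroup G).subtype := by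
  let C := centralizer (Cfsg.fittingSubgroup G : Set G)
  haveI : C.Normal := normal_centralizer
  have hsn : N.IsSubnormal :=
    Subgroup.IsSubnormal.step N C hN (Subgroup.Normal.isSubnormal ‹C.Normal›)
      (normal_subgroupOf_of_le_normalizer hnorm)
  have hs : Group.IsSolvable ↥(solRad G ⊓ C : Subgroup G) := by
    haveI := solRad_solvable (G := G)
    exact Group.isSolvable_of_isSolvable_injective
      (f := inclusion (inf_le_left : solRad G ⊓ C ≤ solRad G)) (inclusion_injective _)
  have hRF : solRad G ⊓ C ≤ Cfsg.fittingSubgroup G := solvable_normal_le_fitting hs inf_le_right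
  rw [map_center_eq]
  exact le_inf ((le_inf (le_solRad_of_subnormal hsn hsolv) hN).trans hRF) hN

end Cfsg.Agent.S1264
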