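import Cfsg.Statements.S1265
import Cfsg.Agent.Lib.Components.Bender
-- import your own Cfsg.Agent.* helpers here

set_option autoImplicit false
open Cfsg

namespace Cfsg.Agent.S1265
open Subgroup Cfsg.Agent.Lib.Components
open scoped commutatorElement


/-- For a finite group G, the centralizer of the generalized Fitting subgroup F*(G) is contained in F*(G). -/
theorem result {G : Type*} [Group G] [Finite G] : Subgroup.centralizer (Cfsg.generalizedFittingSubgroup G : Set G) ≤ Cfsg.generalizedFittingSubgroup G := by
  exact centralizer_gfs_le

end Cfsg.Agent.S1265
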