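import Cfsg.Statements.S1266
import Cfsg.Agent.Lib.Components.Local
-- import your own Cfsg.Agent.* helpers here

set_option autoImplicit false
open Cfsg

namespace Cfsg.Agent.S1266
open Subgroup Cfsg.Agent.Lib.Components
open scoped commutatorElement


/-- Let P be a p-subgroup of the finite group G and N = N_G(P). Then the preimage in N of E(N / O_{p'}(N)) centralizes O_p(G). -/
theorem result {G : Type*} [Group G] [Finite G] (p : ℕ) [Fact p.Prime] (P : Subgroup G) (hP : IsPGroup p ↥P) : (((Cfsg.layer (↥(Subgroup.normalizer ((P : Subgroup G) : Set G)) ⧸ Cfsg.pPrimeCore p ↥(Subgroup.normalizer ((P : Subgroup G) : Set G)))).comap (QuotientGroup.mk' (Cfsg.pPrimeCore p ↥(Subgroup.normalizer ((P : Subgroup G) : Set G))))).map (Subgroup.normalizer ((P : Subgroup G) : Set G)).subtype) ≤ Subgroup.centralizer (Cfsg.pCore p G : Set G) := by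
  let N := normalizer ((P : Subgroup G) : Set G)
  let O := Cfsg.pPrimeCore p ↥N
  let q := QuotientGroup.mk' O
  have hX : (Cfsg.layer (↥N ⧸ O)).comap q = Cfsg.pLayer p ↥N ⊔ O := by
    rw [← pLayer_map, QuotientGroup.comap_map_mk', sup_comm]
  rw [hX, Subgroup.map_sup]
  let D := Cfsg.pCore p G ⊓ centralizer (P : Set G)
  have hDN : D ≤ N := inf_le_right.trans (centralizer_le_normalizer P)
  have hDn : N ≤ normalizer (D : Set G) := by
    refine le_trans ?_ inf_normalizer_le_normalizer_inf
    refine le_inf (by rw [normalizer_eq_top]; exact le_top) fun g hg => ?_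
    refine mem_normalizer_iff.2 fun c => ?_
    have hgn := mem_normalizer_iff.1 hg
    simp only [mem_centralizer_iff, SetLike.mem_coe]
    constructor
    · intro hc' l hl
      have h1 := hc' (g⁻¹ * l * g) ((hgn _).2 (by simpa [mul_assoc] using hl))
      calc l * (g * c * g⁻¹) = g * ((g⁻¹ * l * g) * c) * g⁻¹ := by group
        _ = g * (c * (g⁻¹ * l * g)) * g⁻¹ := by rw [h1]
        _ = g * c * g⁻¹ * l := by group
    · intro hc' l hl
      have h1 := hc' _ ((hgn l).1 hl)
      calc l * c = g⁻¹ * ((g * l * g⁻¹) * (g * c * g⁻¹)) * g := by group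
        _ = g⁻¹ * ((g * c * g⁻¹) * (g * l * g⁻¹)) * g := by rw [h1]
        _ = c * l := by group
  haveI : (D.subgroupOf N).Normal := normal_subgroupOf_of_le_normalizer hDn
  haveI : (P.subgroupOf N).Normal := normal_subgroupOf_of_le_normalizer le_rfl
  have hDp : IsPGroup p ↥(D.subgroupOf N) :=
    ((pCore_isPGroup (G := G) p).to_inf_left).comap_subtype
  have hPp : IsPGroup p ↥(P.subgroupOf N) := hP.comap_subtype
  have key : ∀ H : Subgroup ↥N, H.Normal → IsPGroup p ↥H →
      ⁅Cfsg.pLayer p ↥N, H⁆ = ⊥ ∧ ⁅O, H⁆ = ⊥ := by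
    intro H hn hp
    haveI := hn
    have hO : ⁅O, H⁆ = ⊥ := commutator_eq_bot_of_disjoint_normalizing
      (inf_comm O H ▸ inf_eq_bot_of_pGroup_coprime hp (pPrimeCore_coprime p))
      (by rw [normalizer_eq_top]; exact le_top) (by rw [normalizer_eq_top]; exact le_top)
    refine ⟨?_, hO⟩
    have hsol : Group.IsSolvable ↥(H.map q) := by
      haveI := (hp.map q).isNilpotent
      infer_instance
    haveI : (H.map q).Normal := hn.map q (QuotientGroup.mk'_surjective _)
    have h1 := layer_commute_solvable (H := H.map q) hsol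
    rw [← pLayer_map, ← map_commutator, Subgroup.map_eq_bot_iff, QuotientGroup.ker_mk'] at h1
    have h2 : ⁅Cfsg.pLayer p ↥N, H⁆ ≤ H ⊓ O := le_inf (commutator_le_right _ H) h1
    rwa [inf_eq_bot_of_pGroup_coprime hp (pPrimeCore_coprime p), le_bot_iff] at h2
  obtain ⟨hLD, hOD⟩ := key _ inferInstance hDp
  obtain ⟨hLP, hOP⟩ := key _ inferInstance hPp
  have down : ∀ (A : Subgroup ↥N) (B : Subgroup G), B ≤ N → ⁅A, B.subgroupOf N⁆ = ⊥ →
      ⁅A.map N.subtype, B⁆ = ⊥ := by
    intro A B hB h
    have := congrArg (Subgroup.map N.subtype) h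
    rwa [map_commutator, Subgroup.map_bot, map_subgroupOf_eq_of_le hB] at this
  have hPQ : P ≤ normalizer (Cfsg.pCore p G : Set G) := by rw [normalizer_eq_top]; exact le_top
  refine sup_le (commutator_eq_bot_iff_le_centralizer.1 ?_) (commutator_eq_bot_iff_le_centralizer.1 ?_)
  · exact axb_perfect (pCore_isPGroup p) hP hPQ
      (perfect_map _ (perfect_sSup fun K hK => pcomp_perfect hK)) (down _ _ le_normalizer hLP)
      (le_top.trans (normalizer_eq_top (H := Cfsg.pCore p G)).ge) (down _ _ hDN hLD)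
  · refine axb_coprime (pCore_isPGroup p) hP hPQ ?_ (down _ _ le_normalizer hOP)
      (le_top.trans (normalizer_eq_top (H := Cfsg.pCore p G)).ge) (down _ _ hDN hOD)
    rw [card_map_of_injective (subtype_injective _)]
    exact pPrimeCore_coprime p

end Cfsg.Agent.S1266
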