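import Cfsg.Statements.S1267
import Cfsg.Agent.Lib.Components.Local
-- import your own Cfsg.Agent.* helpers here

set_option autoImplicit false
open Cfsg

namespace Cfsg.Agent.S1267
open Subgroup Cfsg.Agent.Lib.Components
open scoped commutatorElement


/-- Let G be finite and P ≤ O_p(G). Then E(N_G(P)) = E(G). -/
theorem result {G : Type*} [Group G] [Finite G] (p : ℕ) [Fact p.Prime] (P : Subgroup G) (hP : P ≤ Cfsg.pCore p G) : (Cfsg.layer ↥(Subgroup.normalizer ((P : Subgroup G) : Set G))).map (Subgroup.normalizer ((P : Subgroup G) : Set G)).subtype = Cfsg.layer G := by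
  let N := normalizer ((P : Subgroup G) : Set G)
  let Q := Cfsg.pCore p G
  have hPp : IsPGroup p ↥P := (pCore_isPGroup p).to_le hP
  have hEQ : ∀ K : Subgroup G, Cfsg.IsComponent K → K ≤ N := fun K hK =>
    (((comp_le_layer hK).trans (commutator_eq_bot_iff_le_centralizer.1 (layer_commute_pCore (p := p)))).trans
      (centralizer_le (by exact_mod_cast hP))).trans (centralizer_le_normalizer P)
  refine le_antisymm ?_ (layer_le_iff.2 fun K hK => comp_le_layer_subtype hK (hEQ K hK))
  rw [map_le_iff_le_comap, layer_le_iff]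
  intro L hL
  rw [← map_le_iff_le_comap]
  by_contra hLE
  let L' := L.map N.subtype
  have hLp : ⁅L', L'⁆ = L' := perfect_map _ (comp_perfect hL)
  have down : ∀ B : Subgroup G, B ≤ N → ⁅L, B.subgroupOf N⁆ = ⊥ → ⁅L', B⁆ = ⊥ := by
    intro B hB h
    have := congrArg (Subgroup.map N.subtype) h
    rwa [map_commutator, Subgroup.map_bot, map_subgroupOf_eq_of_le hB] at this
  have solv : ∀ B : Subgroup G, B ≤ N → N ≤ normalizer (B : Set G) → Group.IsSolvable ↥B →
      ⁅L', B⁆ = ⊥ := by
    intro B hB hn hs
    haveI : (B.subgroupOf N).Normal := normal_subgroupOf_of_le_normalizer hn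
    refine down B hB (comp_commute_normal_solvable hL ?_)
    exact Group.isSolvable_of_isSolvable_injective (f := (subgroupOfEquivOfLe hB).toMonoidHom)
      (subgroupOfEquivOfLe hB).injective
  have psolv : ∀ (r : ℕ) (B : Subgroup G), r.Prime → IsPGroup r ↥B → Group.IsSolvable ↥B := by
    intro r B hr hB
    haveI := Fact.mk hr
    haveI := hB.isNilpotent
    infer_instance
  have hp' : p.Prime := Fact.out
  have hLP : ⁅L', P⁆ = ⊥ := solv P le_normalizer le_rfl (psolv p P hp' hPp)
  have hD : ⁅L', Q ⊓ N⁆ = ⊥ :=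
    solv (Q ⊓ N) inf_le_right
      ((le_inf (by rw [normalizer_eq_top]; exact le_top) le_normalizer).trans
        inf_normalizer_le_normalizer_inf)
      (psolv p _ hp' ((pCore_isPGroup p).to_inf_left))
  have hLQ : ⁅L', Q⁆ = ⊥ := axb_perfect (pCore_isPGroup p) hPp
    (by rw [normalizer_eq_top]; exact le_top) hLp hLP (by rw [normalizer_eq_top]; exact le_top)
    (commutator_eq_bot_mono hD le_rfl (inf_le_inf_left _ (centralizer_le_normalizer P)))
  have hF : ⁅Cfsg.fittingSubgroup G, L'⁆ = ⊥ := by
    rw [fittingSubgroup_eq_iSup]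
    refine commutator_iSup_eq_bot _ fun r => ?_
    rw [commutator_comm]
    haveI := Fact.mk r.2
    by_cases hr : (r : ℕ) = p
    · rw [hr]; exact hLQ
    · have h1 : Cfsg.pCore (r : ℕ) G ≤ Cfsg.pPrimeCore p G := by
        obtain ⟨n, hn⟩ := IsPGroup.iff_card.1 (pCore_isPGroup (G := G) (r : ℕ))
        refine le_pPrimeCore ?_
        rw [hn]
        exact Nat.Coprime.pow_left n ((Nat.coprime_primes r.2 hp').2 hr)
      have h2 : Cfsg.pCore (r : ℕ) G ≤ N :=
        (((commutator_eq_bot_iff_le_centralizer.1 (pPrimeCore_commute_pCore (p := p))).trans'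
          h1).trans (centralizer_le (by exact_mod_cast hP))).trans (centralizer_le_normalizer P)
      exact solv _ h2 (by rw [normalizer_eq_top]; exact le_top) (psolv r _ r.2 (pCore_isPGroup _))
  have hLF : L' ≤ Cfsg.fittingSubgroup G := by
    refine le_fitting_of_centralize (fun K hK => ?_) hF
    rw [commutator_comm]
    refine down K (hEQ K hK) (comp_commute hL (isComponent_subgroupOf hK (hEQ K hK)) fun e => hLE ?_)
    rw [e, map_subgroupOf_eq_of_le (hEQ K hK)]
    exact comp_le_layer hK
  refine qs_not_isSolvable ((qs_congr (L.equivMapOfInjective N.subtype N.subtype_injective)).1 hL.2) ?_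
  haveI := fittingSubgroup_solvable (G := G)
  exact Group.isSolvable_of_isSolvable_injective (inclusion_injective hLF)

end Cfsg.Agent.S1267
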