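import Cfsg.Statements.S1269
import Cfsg.Agent.Lib.Components.Diagonal
import Cfsg.Agent.S1266
-- import your own Cfsg.Agent.* helpers here

set_option autoImplicit false
open Cfsg

namespace Cfsg.Agent.S1269
open Subgroup Cfsg.Agent.Lib.Components
open scoped commutatorElement

/-- Three subgroup lemma modulo a subgroup normalized by all three. -/
lemma commutator_le_of_perfect_mod {G : Type*} [Group G] {L M D : Subgroup G}
    (hL : ⁅L, L⁆ = L) (hLn : L ≤ normalizer (D : Set G)) (hMn : M ≤ normalizer (D : Set G))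
    (h : ⁅⁅M, L⁆, L⁆ ≤ D) : ⁅L, M⁆ ≤ D := by
  let T := normalizer (D : Set G)
  haveI : (D.subgroupOf T).Normal := normal_subgroupOf_of_le_normalizer le_rfl
  let q := QuotientGroup.mk' (D.subgroupOf T)
  have hT : ∀ A : Subgroup G, A ≤ T → (A.subgroupOf T).map T.subtype = A := fun A hA =>
    map_subgroupOf_eq_of_le hA
  have hLT : ⁅L.subgroupOf T, L.subgroupOf T⁆ = L.subgroupOf T := by
    apply map_injective T.subtype_injective
    rw [map_commutator, hT L hLn, hL]
  have hk : ∀ A : Subgroup ↥T, A.map q = ⊥ ↔ A.map T.subtype ≤ D := by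
    intro A
    rw [Subgroup.map_eq_bot_iff, QuotientGroup.ker_mk']
    exact ⟨fun h => by rintro _ ⟨a, ha, rfl⟩; exact h ha, fun h a ha => h ⟨a, ha, rfl⟩⟩
  have h1 := commutator_eq_bot_of_perfect (M := (M.subgroupOf T).map q)
    (perfect_map q hLT) (by
      rw [← map_commutator, ← map_commutator, hk, map_commutator, map_commutator, hT M hMn, hT L hLn]
      exact h)
  rw [← map_commutator, hk, map_commutator, hT L hLn, hT M hMn] at h1
  exact h1

/-- The normalizer of a subgroup normalizes its centralizer. -/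
lemma normalizer_le_normalizer_centralizer {G : Type*} [Group G] (R : Subgroup G) :
    normalizer (R : Set G) ≤ normalizer (centralizer (R : Set G) : Set G) := by
  intro g hg
  refine mem_normalizer_iff.2 fun c => ?_
  have hgn := mem_normalizer_iff.1 hg
  simp only [mem_centralizer_iff, SetLike.mem_coe]
  constructor
  · intro hc' l hl
    have h1 := hc' (g⁻¹ * l * g) ((hgn _).2 (by simpa [mul_assoc] using hl))
    calc l * (g * c * g⁻¹) = g * ((g⁻¹ * l * g) * c) * g⁻¹ := by group
      _ = g * (c * (g⁻¹ * l * g)) * g⁻¹ := by rw [h1]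
      _ = g * c * g⁻¹ * l := by group
  · intro hc' l hl
    have h1 := hc' _ ((hgn l).1 hl)
    calc l * c = g⁻¹ * ((g * l * g⁻¹) * (g * c * g⁻¹)) * g := by group
      _ = g⁻¹ * ((g * c * g⁻¹) * (g * l * g⁻¹)) * g := by rw [h1]
      _ = c * l := by group


/-- Let G be finite with O_{p'}(G) = 1, P a p-subgroup, N = N_G(P), and x an element of the preimage in N of E(N / O_{p'}(N)). Then x normalizes every component L of G. -/
theorem result {G : Type*} [Group G] [Finite G] (p : ℕ) [Fact p.Prime] (hO : Cfsg.pPrimeCore p G = ⊥) (P : Subgroup G) (hP : IsPGroup p ↥P) (L : Subgroup G) (hL : Cfsg.IsComponent L) (x : G) (hx : x ∈ (((Cfsg.layer (↥(Subgroup.normalizer ((P : Subgroup G) : Set G)) ⧸ Cfsg.pPrimeCore p ↥(Subgroup.normalizer ((P : Subgroup G) : Set G)))).comap (QuotientGroup.mk' (Cfsg.pPrimeCore p ↥(Subgroup.normalizer ((P : Subgroup G) : Set G))))).map (Subgroup.normalizer ((P : Subgroup G) : Set G)).subtype)) : L.map (MulAut.conj x).toMonoidHom = L := by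
  let N := normalizer ((P : Subgroup G) : Set G)
  let O := Cfsg.pPrimeCore p ↥N
  let Z := Cfsg.layer G ⊓ Cfsg.pCore p G
  let R : Subgroup G := P ⊔ Z
  let CR := centralizer (R : Set G)
  have h66 := S1266.result p P hP
  have hPn : (P.subgroupOf N).Normal := normal_subgroupOf_of_le_normalizer le_rfl
  have hPp : IsPGroup p ↥(P.subgroupOf N) := hP.comap_subtype
  have hOP : ⁅O, P.subgroupOf N⁆ = ⊥ := commutator_eq_bot_of_disjoint_normalizing
    (inf_comm O (P.subgroupOf N) ▸ inf_eq_bot_of_pGroup_coprime hPp (pPrimeCore_coprime p))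
    (le_top.trans (normalizer_eq_top (H := P.subgroupOf N)).ge)
    (le_top.trans (normalizer_eq_top (H := O)).ge)
  have hX : (Cfsg.layer (↥N ⧸ O)).comap (QuotientGroup.mk' O) = Cfsg.pLayer p ↥N ⊔ O := by
    rw [← pLayer_map, QuotientGroup.comap_map_mk', sup_comm]
  have hLP : ⁅Cfsg.pLayer p ↥N, P.subgroupOf N⁆ = ⊥ := by
    have hsol : Group.IsSolvable ↥((P.subgroupOf N).map (QuotientGroup.mk' O)) := by
      haveI := (hPp.map (QuotientGroup.mk' O)).isNilpotent
      infer_instance
    haveI : ((P.subgroupOf N).map (QuotientGroup.mk' O)).Normal :=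
      hPn.map _ (QuotientGroup.mk'_surjective _)
    have h1 := layer_commute_solvable (H := (P.subgroupOf N).map (QuotientGroup.mk' O)) hsol
    rw [← pLayer_map, ← map_commutator, Subgroup.map_eq_bot_iff, QuotientGroup.ker_mk'] at h1
    have h2 : ⁅Cfsg.pLayer p ↥N, P.subgroupOf N⁆ ≤ P.subgroupOf N ⊓ O :=
      le_inf (commutator_le_right _ (P.subgroupOf N)) h1
    rwa [inf_eq_bot_of_pGroup_coprime hPp (pPrimeCore_coprime p), le_bot_iff] at h2
  have down : ∀ A : Subgroup ↥N, ⁅A, P.subgroupOf N⁆ = ⊥ →
      A.map N.subtype ≤ centralizer (P : Set G) := by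
    intro A h
    have h' := congrArg (Subgroup.map N.subtype) h
    rw [map_commutator, Subgroup.map_bot, map_subgroupOf_eq_of_le le_normalizer] at h'
    exact commutator_eq_bot_iff_le_centralizer.1 h'
  have hCR : ∀ A : Subgroup ↥N, A ≤ Cfsg.pLayer p ↥N ⊔ O → ⁅A, P.subgroupOf N⁆ = ⊥ →
      A.map N.subtype ≤ CR := by
    intro A hA h
    have h1 : A.map N.subtype ≤ centralizer (Cfsg.pCore p G : Set G) := by
      refine le_trans ?_ h66
      exact map_mono (hX ▸ hA)
    exact le_centralizer_iff.1 (sup_le (le_centralizer_iff.1 (down A h))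
      (le_centralizer_iff.1 (h1.trans (centralizer_le (by exact_mod_cast (inf_le_right : Z ≤ _))))))
  have hO' : O.map N.subtype ≤ CR := hCR O le_sup_right hOP
  have hK' : (Cfsg.pLayer p ↥N).map N.subtype ≤ CR := hCR _ le_sup_left hLP
  have hCRN : CR ≤ N :=
    (centralizer_le (by exact_mod_cast (le_sup_left : P ≤ R))).trans (centralizer_le_normalizer P)
  let D := (Cfsg.pPrimeCore p ↥CR).map CR.subtype
  have hDc : (Nat.card ↥D).Coprime p := by
    rw [card_map_of_injective CR.subtype_injective]; exact pPrimeCore_coprime p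
  have hNR : normalizer (R : Set G) ≤ normalizer (D : Set G) := by
    intro g hg
    refine mem_normalizer_of_map_conj_eq ?_
    have hgC : CR.map (MulAut.conj g).toMonoidHom = CR :=
      map_conj_eq_of_mem_normalizer (normalizer_le_normalizer_centralizer R hg)
    let e : ↥CR ≃* ↥CR := ((MulAut.conj g).subgroupMap CR).trans (MulEquiv.subgroupCongr hgC)
    have h1 := characteristic_iff_map_eq.1 (inferInstance : (Cfsg.pPrimeCore p ↥CR).Characteristic) e
    show ((Cfsg.pPrimeCore p ↥CR).map CR.subtype).map (MulAut.conj g).toMonoidHom =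
      (Cfsg.pPrimeCore p ↥CR).map CR.subtype
    conv_rhs => rw [← h1, Subgroup.map_map]
    rw [Subgroup.map_map]
    rfl
  have hNNR : N ≤ normalizer (R : Set G) := by
    intro g hg
    refine mem_normalizer_of_map_conj_eq ?_
    rw [Subgroup.map_sup, map_conj_eq_of_mem_normalizer hg, map_conj_eq_of_mem_normalizer
      (H := Z) (le_top.trans (normalizer_eq_top (H := Z)).ge (mem_top g))]
  have hOD : O.map N.subtype ≤ D := by
    rw [← map_subgroupOf_eq_of_le hO']
    refine map_mono ?_
    haveI : ((O.map N.subtype).subgroupOf CR).Normal := by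
      refine normal_subgroupOf_of_le_normalizer (hCRN.trans ?_)
      have h1 := le_normalizer_map (H := O) N.subtype
      rwa [normalizer_eq_top, ← MonoidHom.range_eq_map, range_subtype] at h1
    refine le_pPrimeCore ?_
    rw [Nat.card_congr (subgroupOfEquivOfLe hO').toEquiv, card_map_of_injective N.subtype_injective]
    exact pPrimeCore_coprime p
  have hfix : ∀ y : G, y ∈ CR → (orderOf y).Coprime p →
      (∀ s ∈ normalizer (R : Set G), s ∈ Cfsg.layer G → ⁅s, y⁆ ∈ D) → y ∈ normalizer (L : Set G) :=
    fun y hy hc h => mem_normalizer_comp_of_local hO hP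
      (centralizer_le (by exact_mod_cast (le_sup_left : P ≤ R)) hy) hc hDc
      (fun s hs hsE _ => h s hs hsE) hL
  have hOfix : O.map N.subtype ≤ normalizer (L : Set G) := fun y hy =>
    hfix y (hO' hy) (coprime_orderOf_of_mem hDc (hOD hy)) fun s hs _ => by
      rw [commutatorElement_def]
      exact mul_mem ((mem_normalizer_iff.1 (hNR hs) y).1 (hOD hy)) (inv_mem (hOD hy))
  have hEfix : Cfsg.layer G ≤ normalizer (L : Set G) := comp_normal_in_layer hL
  let M₀ := Cfsg.layer G ⊓ CR
  have hM₀N : M₀ ≤ N := inf_le_right.trans hCRN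
  haveI hM₀n : (M₀.subgroupOf N).Normal := by
    refine normal_subgroupOf_of_le_normalizer (le_trans (le_inf ?_ ?_) inf_normalizer_le_normalizer_inf)
    · exact le_top.trans (normalizer_eq_top (H := Cfsg.layer G)).ge
    · exact hNNR.trans (normalizer_le_normalizer_centralizer R)
  have hpL : (Cfsg.pLayer p ↥N).map N.subtype ≤ normalizer (L : Set G) := by
    rw [map_le_iff_le_comap]
    refine sSup_le fun K hK => ?_
    rw [← map_le_iff_le_comap]
    let q := QuotientGroup.mk' O
    haveI : ((M₀.subgroupOf N).map q).Normal := hM₀n.map q (QuotientGroup.mk'_surjective _)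
    rcases comp_normal_dichotomy hK.2.1 (M := (M₀.subgroupOf N).map q) with h | h
    · rw [map_le_iff_le_comap, QuotientGroup.comap_map_mk'] at h
      refine (map_mono h).trans ?_
      rw [Subgroup.map_sup, map_subgroupOf_eq_of_le hM₀N]
      exact sup_le hOfix (inf_le_left.trans hEfix)
    · let K' := K.map N.subtype
      have hKp : ⁅K', K'⁆ = K' := perfect_map _ (pcomp_perfect hK)
      have hKC : K' ≤ CR := (map_mono (le_sSup hK)).trans hK'
      rw [← map_commutator, Subgroup.map_eq_bot_iff, QuotientGroup.ker_mk'] at h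
      have h' := map_mono (f := N.subtype) h
      rw [map_commutator, map_subgroupOf_eq_of_le hM₀N] at h'
      let M := Cfsg.layer G ⊓ normalizer (R : Set G)
      have hMK : ⁅M, K'⁆ ≤ M₀ := by
        refine le_inf ((commutator_mono inf_le_left le_rfl).trans (commutator_le_left _ K')) ?_
        refine (commutator_mono inf_le_right hKC).trans ?_
        exact le_normalizer_iff_commutator_le_right.1 (normalizer_le_normalizer_centralizer R)
      have h3 : ⁅K', M⁆ ≤ D := commutator_le_of_perfect_mod hKp
        (((hKC.trans hCRN).trans hNNR).trans hNR) (inf_le_right.trans hNR)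
        (((commutator_mono hMK le_rfl).trans (commutator_comm M₀ K').le).trans (h'.trans hOD))
      refine perfect_le_of_pprime_elements (p := p) hKp fun y hy hc => hfix y (hKC hy) hc fun s hs hsE => ?_
      rw [← commutatorElement_inv]
      exact inv_mem (h3 (commutator_mem_commutator hy ⟨hsE, hs⟩))
  refine map_conj_eq_of_mem_normalizer ?_
  rw [hX, Subgroup.map_sup] at hx
  exact sup_le hpL hOfix hx

end Cfsg.Agent.S1269
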