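import Cfsg.Statements.S1271
import Cfsg.Agent.Lib.Components.Diagonal
-- import your own Cfsg.Agent.* helpers here

set_option autoImplicit false
open Cfsg

namespace Cfsg.Agent.S1271
open Subgroup Cfsg.Agent.Lib.Components
open scoped commutatorElement


/-- Let G be finite with O_{p'}(G) = 1. Suppose that for every component L of G and every subgroup H ≥ L in which L is normal, the quotient H / C_H(L) is balanced for the prime p. Then G is balanced for p. -/
theorem result {G : Type*} [Group G] [Finite G] (p : ℕ) [Fact p.Prime] (hO : Cfsg.pPrimeCore p G = ⊥) (h : ∀ L : Subgroup G, Cfsg.IsComponent L → ∀ H : Subgroup G, L ≤ H → (L.subgroupOf H).Normal → ∀ [((Subgroup.centralizer (L : Set G)).subgroupOf H).Normal], Cfsg.IsBalancedFor p (↥H ⧸ (Subgroup.centralizer (L : Set G)).subgroupOf H)) : Cfsg.IsBalancedFor p G := by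
  intro x hx
  have hxp : IsPGroup p ↥(zpowers x) :=
    IsPGroup.of_card (n := 1) (by rw [Nat.card_zpowers, hx, pow_one])
  let Y := Cfsg.centralizerPPrimeCore p x
  suffices hY : Y = ⊥ by rw [show Cfsg.centralizerPPrimeCore p x = ⊥ from hY]; exact bot_le
  refine eq_bot_of_centralizes_comps hO (cppc_coprime x) (fun L hL => ?_) (cppc_centralizes_pCore hxp)
  by_cases hne : ⁅L, zpowers x⁆ = L
  swap
  · exact comp_centralized_of_commutator_ne hO hx hL hne
  have hxL : x ∈ normalizer (L : Set G) := by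
    have := normalizer_commutator_ge_right L (zpowers x) (mem_zpowers x)
    rwa [hne] at this
  have hCn : normalizer (L : Set G) ≤ normalizer (centralizer (L : Set G) : Set G) := fun g hg => by
    refine mem_normalizer_iff.2 fun c => ?_
    have hgn := mem_normalizer_iff.1 hg
    simp only [mem_centralizer_iff, SetLike.mem_coe]
    constructor
    · intro hc' l hl
      have h1 := hc' (g⁻¹ * l * g) ((hgn _).2 (by simpa [mul_assoc] using hl))
      calc l * (g * c * g⁻¹) = g * ((g⁻¹ * l * g) * c) * g⁻¹ := by group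
        _ = g * (c * (g⁻¹ * l * g)) * g⁻¹ := by rw [h1]
        _ = g * c * g⁻¹ * l := by group
    · intro hc' l hl
      have h1 := hc' _ ((hgn l).1 hl)
      calc l * c = g⁻¹ * ((g * l * g⁻¹) * (g * c * g⁻¹)) * g := by group
        _ = g⁻¹ * ((g * c * g⁻¹) * (g * l * g⁻¹)) * g := by rw [h1]
        _ = c * l := by group
  let CN := normalizer (L : Set G) ⊓ centralizer ({x} : Set G)
  let H := L ⊔ CN
  have hHN : H ≤ normalizer (L : Set G) := sup_le le_normalizer inf_le_left
  haveI hLn : (L.subgroupOf H).Normal := normal_subgroupOf_of_le_normalizer hHN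
  haveI : ((centralizer (L : Set G)).subgroupOf H).Normal :=
    normal_subgroupOf_of_le_normalizer (hHN.trans hCn)
  have hbal := h L hL H le_sup_left hLn
  let K := (centralizer (L : Set G)).subgroupOf H
  let q := QuotientGroup.mk' K
  let Lb := (L.subgroupOf H).map q
  haveI : Lb.Normal := hLn.map q (QuotientGroup.mk'_surjective _)
  obtain ⟨s, hsL, ⟨n, hn⟩, hsc⟩ := exists_pElement_not_central hL.2 (comp_dvd_card (p := p) hO hL)
  have hs1 : q ⟨s, le_sup_left (b := CN) hsL⟩ ≠ 1 := fun e => hsc (by have e' := (QuotientGroup.eq_one_iff _).1 e; exact e')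
  haveI : Nontrivial ↥Lb :=
    ⟨⟨⟨_, mem_map_of_mem q (show (⟨s, le_sup_left (b := CN) hsL⟩ : ↥H) ∈ L.subgroupOf H from hsL)⟩, 1,
      fun e => hs1 (congrArg Subtype.val e)⟩⟩
  have hLbq : Cfsg.IsQuasisimple ↥Lb :=
    qs_of_surjective ((qs_congr (subgroupOfEquivOfLe (le_sup_left : L ≤ H))).2 hL.2)
      (q.subgroupMap (L.subgroupOf H)) (q.subgroupMap_surjective _)
  have hLbd : p ∣ Nat.card ↥Lb := by
    have h1 : (q ⟨s, le_sup_left (b := CN) hsL⟩) ^ p ^ n = 1 := by
      rw [← map_pow, show (⟨s, le_sup_left (b := CN) hsL⟩ : ↥H) ^ p ^ n = 1 from Subtype.ext (by simpa using hn), map_one]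
    obtain ⟨k, -, hk⟩ := (Nat.dvd_prime_pow Fact.out).1 (orderOf_dvd_of_pow_eq_one h1)
    rcases Nat.eq_zero_or_pos k with rfl | hk0
    · exact absurd (orderOf_eq_one_iff.1 (by simpa using hk)) hs1
    · refine dvd_trans ?_ (Subgroup.orderOf_dvd_natCard Lb (mem_map_of_mem q
        (show (⟨s, le_sup_left (b := CN) hsL⟩ : ↥H) ∈ L.subgroupOf H from hsL)))
      rw [hk]; exact dvd_pow_self p hk0.ne'
  -- the quotient has trivial `p'`-core
  have hOb : Cfsg.pPrimeCore p (↥H ⧸ K) = ⊥ := by
    have h1 := qs_centralized_of_core hLbq hLbd (pPrimeCore_coprime (G := ↥H ⧸ K) p)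
      (le_top.trans (normalizer_eq_top (H := Cfsg.pPrimeCore p (↥H ⧸ K))).ge)
      (le_top.trans (normalizer_eq_top (H := Lb)).ge)
    rw [eq_bot_iff]
    intro z hz
    obtain ⟨g, rfl⟩ := QuotientGroup.mk'_surjective K z
    refine (QuotientGroup.eq_one_iff _).2 ?_
    have hgn : (g : G) ∈ normalizer (L : Set G) := hHN g.2
    have hfix : L.map (MulAut.conj (g : G)).toMonoidHom = L := map_conj_eq_of_mem_normalizer hgn
    let α : ↥L →* ↥L := ((MulAut.conj (g : G)).toMonoidHom.comp L.subtype).codRestrict L fun u =>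
      hfix.le (mem_map_of_mem _ u.2)
    have hα := aut_eq_self_of_central (Group.isPerfect_def.1 hL.2.1) α (fun u => by
      have hu : (⟨u, le_sup_left (b := CN) u.2⟩ : ↥H) ∈ L.subgroupOf H := u.2
      have h2 : q ⟨u, le_sup_left (b := CN) u.2⟩ * q g = q g * q ⟨u, le_sup_left (b := CN) u.2⟩ :=
        (mem_centralizer_iff.1 (commutator_eq_bot_iff_le_centralizer.1 h1 (mem_map_of_mem q hu))
          (q g) hz).symm
      have h3 : q (g * ⟨u, le_sup_left (b := CN) u.2⟩ * g⁻¹ * ⟨u, le_sup_left (b := CN) u.2⟩⁻¹) = 1 := by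
        rw [map_mul, map_mul, map_mul, map_inv, map_inv, ← h2, mul_inv_cancel_right, mul_inv_cancel]
      have h4 : (g : G) * u * (g : G)⁻¹ * (u : G)⁻¹ ∈ centralizer (L : Set G) := by
        have e' := (QuotientGroup.eq_one_iff _).1 h3
        exact e'
      exact mem_center_iff.2 fun b => Subtype.ext (mem_centralizer_iff.1 h4 b b.2))
    refine mem_centralizer_iff.2 fun l hl => ?_
    have h5 : (g : G) * l * (g : G)⁻¹ = l := congrArg Subtype.val (hα ⟨l, hl⟩)
    calc l * (g : G) = ((g : G) * l * (g : G)⁻¹) * g := by rw [h5]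
      _ = (g : G) * l := by group
  have hxH : x ∈ H := mem_sup_right ⟨hxL, mem_centralizer_singleton_iff.2 rfl⟩
  have hxb : orderOf (q ⟨x, hxH⟩) = p := by
    refine orderOf_eq_prime ?_ fun e => ?_
    · rw [← map_pow, show (⟨x, hxH⟩ : ↥H) ^ p = 1 from Subtype.ext (by simp [← hx, pow_orderOf_eq_one]),
        map_one]
    · have h1 : x ∈ centralizer (L : Set G) := by have e' := (QuotientGroup.eq_one_iff _).1 e; exact e'
      refine comp_ne_bot hL ?_
      rw [← hne, commutator_comm]
      exact commutator_eq_bot_iff_le_centralizer.2 (zpowers_le.2 h1)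
  have hYH : Y ≤ H := (le_inf (cppc_normalizes_comp hO hxp hL) (cppc_le_centralizer x)).trans le_sup_right
  have hnormY : ∀ g : ↥H, q g ∈ centralizer {q ⟨x, hxH⟩} → (g : G) ∈ normalizer (Y : Set G) := by
    intro g hg
    have hg' : (g : G) ∈ L ⊔ CN := g.2
    rw [← SetLike.mem_coe, coe_mul_of_right_le_normalizer_left L CN inf_le_left] at hg'
    obtain ⟨l, hl, c, hc, hlc⟩ := hg'
    have hcY := centralizer_le_normalizer_cppc (p := p) x hc.2
    rw [← hlc]
    refine mul_mem ?_ hcY
    let lH : ↥H := ⟨l, le_sup_left (b := CN) hl⟩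
    let cH : ↥H := ⟨c, mem_sup_right hc⟩
    have hge : g = lH * cH := Subtype.ext hlc.symm
    have hcx : cH * ⟨x, hxH⟩ = ⟨x, hxH⟩ * cH := Subtype.ext (mem_centralizer_singleton_iff.1 hc.2)
    have h2 : q lH * q ⟨x, hxH⟩ = q ⟨x, hxH⟩ * q lH := by
      have h2' := mem_centralizer_singleton_iff.1 hg
      rw [hge, map_mul, mul_assoc, ← map_mul q cH, hcx, map_mul, ← mul_assoc, ← mul_assoc] at h2'
      exact mul_right_cancel h2'
    have h3 : q (lH * ⟨x, hxH⟩ * lH⁻¹ * ⟨x, hxH⟩⁻¹) = 1 := by
      rw [map_mul, map_mul, map_mul, map_inv, map_inv, h2, mul_inv_cancel_right, mul_inv_cancel]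
    have h4 : l * x * l⁻¹ * x⁻¹ ∈ centralizer (L : Set G) := by
      have e' := (QuotientGroup.eq_one_iff _).1 h3
      exact e'
    have h5 : l * x * l⁻¹ * x⁻¹ ∈ L := by
      rw [show l * x * l⁻¹ * x⁻¹ = l * (x * l⁻¹ * x⁻¹) by group]
      exact mul_mem hl ((mem_normalizer_iff.1 hxL _).1 (inv_mem hl))
    have hz : L ⊓ centralizer (L : Set G) ≤ Cfsg.layer G ⊓ Cfsg.pCore p G := by
      refine le_inf (inf_le_left.trans (comp_le_layer hL)) ?_
      have hsn : (L ⊓ centralizer (L : Set G)).IsSubnormal := by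
        rw [← map_center_eq]
        exact (Subgroup.Normal.isSubnormal inferInstance).trans' hL.1
      refine le_pCore_of_subnormal hsn (isPGroup_of_no_pprime_elements fun z hz hco => ?_)
      have hzp : zpowers z ≤ L ⊓ centralizer (L : Set G) := zpowers_le.2 hz
      have hn : ((zpowers z).subgroupOf (L ⊓ centralizer (L : Set G))).Normal := ⟨fun a ha g => by
        have hcm : IsMulCommutative ↥(L ⊓ centralizer (L : Set G)) :=
          le_centralizer_iff_isMulCommutative.1
            (inf_le_right.trans (centralizer_le (by exact_mod_cast inf_le_left)))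
        rwa [mul_comm' g a, mul_inv_cancel_right]⟩
      have h6 := le_pPrimeCore_of_subnormal (p := p) (IsSubnormal.step _ _ hzp hsn hn)
        (by rwa [Nat.card_zpowers]) (mem_zpowers z)
      rw [hO, mem_bot] at h6
      exact h6
    have h6 : l ∈ normalizer ((zpowers x ⊔ Cfsg.layer G ⊓ Cfsg.pCore p G : Subgroup G) : Set G) := by
      refine mem_normalizer_of_map_conj_eq (eq_of_le_of_card_ge ?_
        (card_map_of_injective (MulAut.conj l).injective).ge)
      rw [Subgroup.map_sup, MonoidHom.map_zpowers, map_conj_eq_of_mem_normalizer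
        (H := Cfsg.layer G ⊓ Cfsg.pCore p G) (by rw [normalizer_eq_top]; exact mem_top l)]
      refine sup_le (zpowers_le.2 ?_) le_sup_right
      have e : (MulAut.conj l).toMonoidHom x = (l * x * l⁻¹ * x⁻¹) * x := by simp [mul_assoc]
      rw [e]
      exact mul_mem (mem_sup_right (hz ⟨h5, h4⟩)) (mem_sup_left (mem_zpowers x))
    refine mem_normalizer_of_map_conj_eq (eq_of_le_of_card_ge ?_
      (card_map_of_injective (MulAut.conj l).injective).ge)
    rintro _ ⟨y, hy, rfl⟩
    have h7 := mul_mem (cppc_commutator_witness hxp hy h6) hy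
    rw [commutatorElement_def, inv_mul_cancel_right] at h7
    exact h7
  have hYb : (Y.subgroupOf H).map q ≤ Cfsg.centralizerPPrimeCore p (q ⟨x, hxH⟩) := by
    refine le_cppc ?_ ?_ ?_
    · refine (cppc_coprime (p := p) x).coprime_dvd_left ((card_map_dvd _ _).trans ?_)
      rw [Nat.card_congr (subgroupOfEquivOfLe hYH).toEquiv]
    · rintro _ ⟨y, hy, rfl⟩
      rw [mem_centralizer_singleton_iff, ← map_mul, ← map_mul]
      exact congrArg q (Subtype.ext (mem_centralizer_singleton_iff.1 (cppc_le_centralizer x hy)))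
    · intro z hz
      obtain ⟨g, rfl⟩ := QuotientGroup.mk'_surjective K z
      exact le_normalizer_map q ⟨g, le_normalizer_comap H.subtype (hnormY g hz), rfl⟩
  have h8 : (Y.subgroupOf H).map q = ⊥ :=
    le_bot_iff.1 (hYb.trans ((hbal (q ⟨x, hxH⟩) hxb).trans hOb.le))
  rw [Subgroup.map_eq_bot_iff, QuotientGroup.ker_mk'] at h8
  rw [commutator_comm, commutator_eq_bot_iff_le_centralizer]
  exact fun y hy => h8 (show (⟨y, hYH hy⟩ : ↥H) ∈ Y.subgroupOf H from hy)

end Cfsg.Agent.S1271
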