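import Cfsg.Statements.S1273
import Cfsg.Agent.Lib.Components.AxB
-- import your own Cfsg.Agent.* helpers here

set_option autoImplicit false
open Cfsg

namespace Cfsg.Agent.S1273
open Subgroup Cfsg.Agent.Lib.Components
open scoped commutatorElement


/-- Let K be a p-component of the finite group X and N a normal subgroup of K whose index in K is prime to p. Then N = K. -/
theorem result {X : Type*} [Group X] [Finite X] (p : ℕ) [Fact p.Prime] (K : Subgroup X) (hK : Cfsg.IsPComponent p K) (N : Subgroup ↥K) [N.Normal] (hidx : (N.index).Coprime p) : N = ⊤ := by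
  have hnd : ¬ p ∣ N.index := fun h =>
    (Fact.out : p.Prime).coprime_iff_not_dvd.1 hidx.symm h
  have h1 : elemGen p K ≤ N.map K.subtype := by
    refine (closure_le _).2 ?_
    rintro x ⟨hx, n, hn⟩
    have hq : (QuotientGroup.mk' N ⟨x, hx⟩) ^ p ^ n = 1 := by
      rw [← map_pow]
      have : (⟨x, hx⟩ : ↥K) ^ p ^ n = 1 := Subtype.ext (by simpa using hn)
      rw [this, map_one]
    have d1 := orderOf_dvd_of_pow_eq_one hq
    have d2 : orderOf (QuotientGroup.mk' N ⟨x, hx⟩) ∣ N.index := orderOf_dvd_natCard _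
    have d3 := Nat.eq_one_of_dvd_coprimes ((hidx.symm).pow_left n) d1 d2
    exact ⟨⟨x, hx⟩, (QuotientGroup.eq_one_iff _).1 (orderOf_eq_one_iff.1 d3), rfl⟩
  rw [pcomp_elemGen hK] at h1
  apply map_injective K.subtype_injective
  rw [← MonoidHom.range_eq_map, range_subtype]
  exact le_antisymm (map_subtype_le _) h1

end Cfsg.Agent.S1273
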