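import Cfsg.Statements.S1274
import Cfsg.Agent.Lib.Components.AxB
-- import your own Cfsg.Agent.* helpers here

set_option autoImplicit false
open Cfsg

namespace Cfsg.Agent.S1274
open Subgroup Cfsg.Agent.Lib.Components
open scoped commutatorElement


/-- A p-component K of the finite group X is a normal subgroup of L_{p'}(X). -/
theorem result {X : Type*} [Group X] [Finite X] (p : ℕ) [Fact p.Prime] (K : Subgroup X) (hK : Cfsg.IsPComponent p K) : (K.subgroupOf (Cfsg.pLayer p X)).Normal := by
  exact normal_subgroupOf_of_le_normalizer (pLayer_le_normalizer hK)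

end Cfsg.Agent.S1274
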