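import Cfsg.Statements.S1276
import Cfsg.Agent.Lib.Components.AxB
-- import your own Cfsg.Agent.* helpers here

set_option autoImplicit false
open Cfsg

namespace Cfsg.Agent.S1276
open Subgroup Cfsg.Agent.Lib.Components
open scoped commutatorElement


/-- Let K be a 2-component of the finite group X. Then K is quasisimple if and only if ⁅K, O(K)⁆ = 1. -/
theorem result {X : Type*} [Group X] [Finite X] (K : Subgroup X) (hK : Cfsg.IsPComponent 2 K) : Cfsg.IsQuasisimple ↥K ↔ ⁅K, ((Cfsg.oddCore ↥K).map K.subtype)⁆ = ⊥ := by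
  rw [pPrimeCore_subnormal hK.1]
  constructor
  · intro h
    exact commutator_eq_bot_mono ((pcomp_quasisimple_iff hK).1 h) le_rfl inf_le_right
  · intro h
    have hk : (QuotientGroup.mk' (Cfsg.pPrimeCore 2 ↥K)).ker ≤ center ↥K := by
      rw [QuotientGroup.ker_mk', ← pPrimeCore_subgroupOf hK.1]
      intro a ha
      exact mem_center_iff.2 fun b => Subtype.ext
        ((mem_centralizer_iff.1 (commutator_eq_bot_iff_le_centralizer.1 h b.2) a ⟨a.2, ha⟩).symm)
    exact qs_of_central_extension (Subgroup.isPerfect_iff.2 (pcomp_perfect hK)) _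
      (QuotientGroup.mk'_surjective _) hk (pcomp_quotient_qs hK)

end Cfsg.Agent.S1276
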