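import Cfsg.Statements.S1277
import Cfsg.Agent.Lib.Components.AxB
-- import your own Cfsg.Agent.* helpers here

set_option autoImplicit false
open Cfsg

namespace Cfsg.Agent.S1277
open Subgroup Cfsg.Agent.Lib.Components
open scoped commutatorElement


/-- For a finite group X with core O(X): the image of E(X) in X / O(X) is all of E(X / O(X)) if and only if every 2-component of X is a component, i.e. L_{2'}(X) ≤ E(X). -/
theorem result {X : Type*} [Group X] [Finite X] : (Cfsg.layer X).map (QuotientGroup.mk' (Cfsg.oddCore X)) = Cfsg.layer (X ⧸ Cfsg.oddCore X) ↔ Cfsg.pLayer 2 X ≤ Cfsg.layer X := by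
  constructor
  · intro h
    refine sSup_le fun K hK => ?_
    let q := QuotientGroup.mk' (Cfsg.pPrimeCore 2 X)
    obtain ⟨L, hL, hLK⟩ : ∃ L, Cfsg.IsComponent L ∧ L.map q = K.map q := by
      have hle : K.map q ≤ sSup {M | ∃ L, (Cfsg.IsComponent L ∧ L.map q ≠ ⊥) ∧ L.map q = M} := by
        refine (comp_le_layer hK.2.1).trans (h.ge.trans ?_)
        rw [map_le_iff_le_comap, layer_le_iff]
        intro L hL
        rw [← map_le_iff_le_comap]
        by_cases h0 : L.map q = ⊥
        · exact h0.le.trans bot_le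
        · exact le_sSup ⟨L, ⟨hL, h0⟩, rfl⟩
      obtain ⟨L, ⟨hL, -⟩, h1⟩ := comp_mem_of_le_sSup hK.2.1 (S := {M | ∃ L, (Cfsg.IsComponent L ∧ L.map q ≠ ⊥) ∧ L.map q = M}) (by
        rintro M ⟨L, ⟨hL, hne⟩, rfl⟩
        exact isComponent_map hL q (QuotientGroup.mk'_surjective _) hne) hle
      exact ⟨L, hL, h1⟩
    have h2 : K ≤ L := by
      rw [pcomp_eq hK]
      exact pcompOf_le_of_subnormal hL.1 hLK.ge
    exact h2.trans (comp_le_layer hL)
  · intro h
    refine le_antisymm (layer_map_le _ (QuotientGroup.mk'_surjective _)) ?_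
    rw [← pLayer_map]
    exact map_mono h

end Cfsg.Agent.S1277
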