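import Cfsg.Statements.S1278
import Cfsg.Agent.Lib.Components.AxB
-- import your own Cfsg.Agent.* helpers here

set_option autoImplicit false
open Cfsg

namespace Cfsg.Agent.S1278
open Subgroup Cfsg.Agent.Lib.Components
open scoped commutatorElement


/-- Let K ≠ L be 2-components of the finite group X. Then ⁅K, L⁆ ≤ O(K) ⊓ O(L), and if K is quasisimple then ⁅K, L⁆ = 1. -/
theorem result {X : Type*} [Group X] [Finite X] (K L : Subgroup X) (hK : Cfsg.IsPComponent 2 K) (hL : Cfsg.IsPComponent 2 L) (hne : K ≠ L) : ⁅K, L⁆ ≤ ((Cfsg.oddCore ↥K).map K.subtype) ⊓ ((Cfsg.oddCore ↥L).map L.subtype) ∧ (Cfsg.IsQuasisimple ↥K → ⁅K, L⁆ = ⊥) := by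
  have h := pcomp_commutator_le hK hL hne
  rw [pPrimeCore_subnormal hK.1, pPrimeCore_subnormal hL.1]
  refine ⟨le_inf (le_inf (h.trans (inf_le_left.trans inf_le_left)) (h.trans inf_le_right))
    (le_inf (h.trans (inf_le_left.trans inf_le_right)) (h.trans inf_le_right)), fun hq => ?_⟩
  have h1 := (pcomp_quasisimple_iff hK).1 hq
  refine commutator_eq_bot_of_perfect (pcomp_perfect hK) ?_
  rw [commutator_comm L K, commutator_comm]
  exact commutator_eq_bot_mono h1 le_rfl (h.trans inf_le_right)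

end Cfsg.Agent.S1278
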