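import Cfsg.Statements.S1279
import Cfsg.Agent.Lib.Components.Local
-- import your own Cfsg.Agent.* helpers here

set_option autoImplicit false
open Cfsg

namespace Cfsg.Agent.S1279
open Subgroup Cfsg.Agent.Lib.Components
open scoped commutatorElement


/-- Let A be a noncyclic elementary abelian p-subgroup of the finite group G such that C_G(a) is solvable for every non-identity a ∈ A. Then a ↦ O_{p'}(C_G(a)) is a solvable A-signalizer functor on G. -/
theorem result {G : Type*} [Group G] [Finite G] (p : ℕ) [Fact p.Prime] (A : Subgroup G) (hA : Cfsg.IsElementaryAbelian p A) (hA2 : p ^ 2 ≤ Nat.card ↥A) (hsolv : ∀ a ∈ A, a ≠ 1 → Group.IsSolvable ↥(Subgroup.centralizer ({a} : Set G))) : Cfsg.IsSolvableSignalizerFunctor p A (fun a => Cfsg.centralizerPPrimeCore p a) := by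
  have hcomm : ∀ a ∈ A, ∀ b ∈ A, a * b = b * a := fun a ha b hb =>
    congrArg Subtype.val (hA.1.1.comm ⟨a, ha⟩ ⟨b, hb⟩)
  have hp : ∀ a ∈ A, IsPGroup p ↥(zpowers a) := fun a ha => by
    intro y
    obtain ⟨k, hk⟩ := mem_zpowers_iff.1 y.2
    refine ⟨1, Subtype.ext ?_⟩
    rw [pow_one, SubmonoidClass.coe_pow, ← hk, ← zpow_natCast, ← zpow_mul, mul_comm, zpow_mul,
      zpow_natCast, hA.2 a ha, one_zpow, OneMemClass.coe_one]
  refine ⟨⟨fun a _ _ => cppc_le_centralizer a,
    fun a _ _ => (Fact.out : p.Prime).coprime_iff_not_dvd.1 (cppc_coprime a).symm,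
    fun a ha _ b hb x hx => ?_, fun a ha ha1 b hb hb1 => ?_⟩, fun a ha ha1 => ?_⟩
  · exact (mem_normalizer_iff.1 (centralizer_le_normalizer_cppc a
      (mem_centralizer_singleton_iff.2 (hcomm b hb a ha))) x).1 hx
  · haveI := hsolv b hb hb1
    exact cppc_balance a b (hcomm a ha b hb) (hp a ha) pLayer_eq_bot_of_isSolvable
  · haveI := hsolv a ha ha1
    exact Group.isSolvable_of_isSolvable_injective (inclusion_injective (cppc_le_centralizer (p := p) a))

end Cfsg.Agent.S1279
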