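import Cfsg.Statements.S1281
import Cfsg.Agent.Lib.Components.Signalizer
-- import your own Cfsg.Agent.* helpers here

set_option autoImplicit false
open Cfsg

namespace Cfsg.Agent.S1281
open Subgroup Cfsg.Agent.Lib.Coprime Cfsg.Agent.Lib.Components
open scoped Pointwise


/-- Let θ be a solvable A-signalizer functor on the finite group G (A a noncyclic elementary abelian p-subgroup) and N a normal subgroup of order prime to p. Then for all non-identity a, b ∈ A, the image of θ a in G / N meets the centralizer of the image of b inside the image of θ b. -/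
theorem result {G : Type*} [Group G] [Finite G] (p : ℕ) [Fact p.Prime] (A : Subgroup G) (hA : Cfsg.IsElementaryAbelian p A) (hA2 : p ^ 2 ≤ Nat.card ↥A) (θ : G → Subgroup G) (hθ : Cfsg.IsSolvableSignalizerFunctor p A θ) (N : Subgroup G) [N.Normal] (hN : ¬ p ∣ Nat.card ↥N) (a b : G) (ha : a ∈ A) (ha1 : a ≠ 1) (hb : b ∈ A) (hb1 : b ≠ 1) : (θ a).map (QuotientGroup.mk' N) ⊓ Subgroup.centralizer {QuotientGroup.mk' N b} ≤ (θ b).map (QuotientGroup.mk' N) := by
  rintro v ⟨⟨u, hu, rfl⟩, hv⟩
  let q := QuotientGroup.mk' N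
  have hzp : zpowers b ≤ A := zpowers_le.2 hb
  have hz : ∀ z ∈ zpowers b, u⁻¹ * (z * u * z⁻¹) ∈ θ a ⊓ N := by
    intro z hz
    refine mem_inf.2 ⟨mul_mem (inv_mem hu) (hθ.1.2.2.1 a ha ha1 z (hzp hz) u hu), ?_⟩
    refine (QuotientGroup.eq_one_iff _).1 ?_
    show q (u⁻¹ * (z * u * z⁻¹)) = 1
    have hc : q z * q u = q u * q z := by
      obtain ⟨i, rfl⟩ := mem_zpowers_iff.1 hz
      rw [map_zpow]
      exact (Commute.zpow_left (show Commute (q b) (q u) from
        (mem_centralizer_singleton_iff.1 hv).symm) i).eq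
    rw [map_mul, map_mul, map_mul, map_inv, map_inv, hc, mul_inv_cancel_right, inv_mul_cancel]
  obtain ⟨c, hc, huc⟩ := exists_centralizer_mem_coset (A := zpowers b) (N := θ a ⊓ N) (k := u)
    ((hzp.trans (le_inf (Sig.inv_iff.1 (hθ.1.2.2.1 a ha ha1))
      ((le_top : A ≤ ⊤).trans (normalizer_eq_top (H := N)).ge))).trans inf_normalizer_le_normalizer_inf)
    (((Sig.coprime_elem hA (hθ.1.2.1 a ha ha1)).coprime_dvd_left (card_dvd_of_le hzp)).coprime_dvd_right
      (card_dvd_of_le inf_le_left))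
    (Or.inr (isSolvable_of_le inf_le_left (hθ.2 a ha ha1))) hz
  rw [zpowers_eq_closure, centralizer_closure] at hc
  refine ⟨c, hθ.1.2.2.2 a ha ha1 b hb hb1
    (mem_inf.2 ⟨by simpa using mul_mem hu (mem_inf.1 huc).1, hc⟩), ?_⟩
  exact (QuotientGroup.eq.2 (mem_inf.1 huc).2).symm

end Cfsg.Agent.S1281
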