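import Cfsg.Statements.S1282
import Cfsg.Agent.Lib.Components.Signalizer
-- import your own Cfsg.Agent.* helpers here

set_option autoImplicit false
open Cfsg

namespace Cfsg.Agent.S1282
open Subgroup Cfsg.Agent.Lib.Coprime Cfsg.Agent.Lib.Components
open scoped Pointwise


/-- Let A be an elementary abelian p-subgroup of rank at least 3 of the finite group G, q ≠ p a prime, and Q₁, Q₂ q-subgroups normalized by A with D = Q₁ ∩ Q₂ different from both. Then there is a non-identity a ∈ A such that, for i = 1 and i = 2, N_{Q_i}(D) ∩ C_G(a) is not contained in D. -/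
theorem result {G : Type*} [Group G] [Finite G] (p : ℕ) [Fact p.Prime] (A : Subgroup G) (hA : Cfsg.IsElementaryAbelian p A) (hA3 : p ^ 3 ≤ Nat.card ↥A) (q : ℕ) [Fact q.Prime] (hqp : q ≠ p) (Q₁ Q₂ : Subgroup G) (h₁ : IsPGroup q ↥Q₁) (h₂ : IsPGroup q ↥Q₂) (hA₁ : A ≤ Subgroup.normalizer (Q₁ : Set G)) (hA₂ : A ≤ Subgroup.normalizer (Q₂ : Set G)) (hD₁ : Q₁ ⊓ Q₂ ≠ Q₁) (hD₂ : Q₁ ⊓ Q₂ ≠ Q₂) : ∃ a ∈ A, a ≠ 1 ∧ ¬ (Subgroup.normalizer ((Q₁ ⊓ Q₂ : Subgroup G) : Set G) ⊓ Q₁ ⊓ Subgroup.centralizer {a} ≤ Q₁ ⊓ Q₂) ∧ ¬ (Subgroup.normalizer ((Q₁ ⊓ Q₂ : Subgroup G) : Set G) ⊓ Q₂ ⊓ Subgroup.centralizer {a} ≤ Q₁ ⊓ Q₂) := by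
  let N := normalizer ((Q₁ ⊓ Q₂ : Subgroup G) : Set G)
  have hAD : A ≤ N := (le_inf hA₁ hA₂).trans inf_normalizer_le_normalizer_inf
  have hc : ∀ {Q : Subgroup G}, IsPGroup q ↥Q → (Nat.card ↥A).Coprime (Nat.card ↥(N ⊓ Q)) :=
    fun hQ => Sig.coprime_elem hA fun h => by
      obtain ⟨k, hk⟩ := IsPGroup.iff_card.1 hQ
      have h' := h.trans ((card_dvd_of_le inf_le_right).trans hk.dvd)
      exact hqp ((Nat.prime_dvd_prime_iff_eq Fact.out Fact.out).1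
        ((Fact.out : p.Prime).dvd_of_dvd_pow h')).symm
  have hN : ∀ {Q : Subgroup G}, A ≤ normalizer (Q : Set G) →
      A ≤ normalizer ((N ⊓ Q : Subgroup G) : Set G) := fun hQ =>
    (le_inf (hAD.trans le_normalizer) hQ).trans inf_normalizer_le_normalizer_inf
  exact Sig.exists_common_fixed hA hA3 (hc h₁) (hc h₂) (hN hA₁) (hN hA₂)
    (Sig.not_normalizer_inf_le h₁ inf_le_left hD₁) (Sig.not_normalizer_inf_le h₂ inf_le_right hD₂)

end Cfsg.Agent.S1282
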