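import Cfsg.Statements.S1284
import Cfsg.Agent.Lib.Components.Signalizer
-- import your own Cfsg.Agent.* helpers here

set_option autoImplicit false
open Cfsg

namespace Cfsg.Agent.S1284
open Subgroup Cfsg.Agent.Lib.Coprime Cfsg.Agent.Lib.Components
open scoped Pointwise


/-- Let θ be a solvable A-signalizer functor on the finite group G, A elementary abelian of rank at least 3, q a prime dividing some |θ a|, and Q maximal among the q-subgroups in the family of θ. Then (a) for every member H of the family, some c in the intersection of the θ a (a ∈ A non-identity) makes c Q c⁻¹ ∩ H a Sylow q-subgroup of H; and (b) for every nontrivial subgroup B ≤ A, C_Q(B) is a Sylow q-subgroup of the intersection of the θ b over the non-identity b ∈ B. -/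
theorem result {G : Type*} [Group G] [Finite G] (p : ℕ) [Fact p.Prime] (A : Subgroup G) (hA : Cfsg.IsElementaryAbelian p A) (hA3 : p ^ 3 ≤ Nat.card ↥A) (θ : G → Subgroup G) (hθ : Cfsg.IsSolvableSignalizerFunctor p A θ) (q : ℕ) [Fact q.Prime] (hq : ∃ a ∈ A, a ≠ 1 ∧ q ∣ Nat.card ↥(θ a)) (Q : Subgroup G) (hQW : Q ∈ Cfsg.signalizerFamily p A θ) (hQq : IsPGroup q ↥Q) (hQmax : ∀ R ∈ Cfsg.signalizerFamily p A θ, IsPGroup q ↥R → Q ≤ R → R = Q) : (∀ H : Subgroup G, H ∈ Cfsg.signalizerFamily p A θ → ∃ c ∈ Cfsg.signalizerInf A θ, ∃ S : Sylow q ↥H, (S : Subgroup ↥H).map H.subtype = Q.map (MulAut.conj c).toMonoidHom ⊓ H) ∧ (∀ B : Subgroup G, B ≤ A → B ≠ ⊥ → ∃ S : Sylow q ↥(Cfsg.signalizerInf B θ), (S : Subgroup ↥(Cfsg.signalizerInf B θ)).map (Cfsg.signalizerInf B θ).subtype = Q ⊓ Subgroup.centralizer (B : Set G)) := by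
  refine ⟨fun H hH => ?_, fun B hB hB1 => ?_⟩
  · have hHA := Sig.fam_normalizer hH
    obtain ⟨S, hS⟩ := exists_invariant_sylow hHA (Sig.fam_coprime hA hH)
      (Or.inl (Sig.solvable_elem hA)) q
    let Sm : Subgroup G := (S : Subgroup ↥H).map H.subtype
    obtain ⟨R, hSR, hR, hRq, hRm⟩ := Sig.exists_max_ge (Sig.fam_mono hH (map_subtype_le _) hS :
      Sm ∈ Cfsg.signalizerFamily p A θ) (S.2.map _)
    obtain ⟨c, hc, hcR⟩ := Sig.transitivity hA hA3 hθ Q R hQW hQq hQmax hR hRq hRm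
    refine ⟨c, hc, S, ?_⟩
    rw [hcR]
    refine le_antisymm (le_inf hSR (map_subtype_le _)) ?_
    have h1 : IsPGroup q ↥((R ⊓ H).subgroupOf H) := (hRq.to_inf_left : IsPGroup q ↥(R ⊓ H)).comap_subtype
    have h2 : (S : Subgroup ↥H) ≤ (R ⊓ H).subgroupOf H := fun x hx => ⟨hSR (mem_map_of_mem _ hx), x.2⟩
    rw [← S.is_maximal' h1 h2, map_subgroupOf_eq_of_le inf_le_right]
  · let J := Cfsg.signalizerInf B θ
    have hJ : J ∈ Cfsg.signalizerFamily p A θ := Sig.sigInf_mem hθ hB hB1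
    have hJC := Sig.sigInf_le_centralizer hθ hB
    let C := centralizer (B : Set G)
    have hAC : A ≤ normalizer (C : Set G) := (Sig.le_centralizer_of_le hA hB).trans le_normalizer
    obtain ⟨S, hS, hSA⟩ := exists_invariant_sylow_ge (Sig.fam_normalizer hJ) (Sig.fam_coprime hA hJ)
      (Or.inl (Sig.solvable_elem hA)) (p := q) (U := Q ⊓ C) (Sig.fam_inf_centralizer hQW hB)
      hQq.to_inf_left ((le_inf (Sig.fam_normalizer hQW) hAC).trans inf_normalizer_le_normalizer_inf)
    refine ⟨S, ?_⟩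
    let Sm : Subgroup G := (S : Subgroup ↥J).map J.subtype
    obtain ⟨R, hSR, hR, hRq, hRm⟩ := Sig.exists_max_ge (Sig.fam_mono hJ (map_subtype_le _) hSA :
      Sm ∈ Cfsg.signalizerFamily p A θ) (S.2.map _)
    obtain ⟨c, hc, hcR⟩ := Sig.transitivity hA hA3 hθ Q R hQW hQq hQmax hR hRq hRm
    have hcC : c ∈ C := centralizer_le hB (Sig.sigInf_le_centralizer hθ le_rfl hc)
    have hle : Sm ≤ MulAut.conj c • (Q ⊓ C) := by
      rw [Subgroup.smul_inf, show MulAut.conj c • Q = R from hcR,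
        show MulAut.conj c • C = C from conj_smul_eq_self (le_normalizer hcC)]
      exact le_inf hSR ((map_subtype_le _).trans hJC)
    exact (eq_of_le_of_card_ge hS ((card_le_of_le hle).trans (card_conj_smul _ _).le)).symm

end Cfsg.Agent.S1284
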