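import Cfsg.Statements.S1285
import Cfsg.Agent.Lib.Components.Signalizer
-- import your own Cfsg.Agent.* helpers here

set_option autoImplicit false
open Cfsg

namespace Cfsg.Agent.S1285
open Subgroup Cfsg.Agent.Lib.Coprime Cfsg.Agent.Lib.Components
open scoped Pointwise


/-- Let θ be a solvable A-signalizer functor on the finite group G with A elementary abelian of rank at least 3, and suppose that for some prime q every θ a (a ∈ A non-identity) is a q-group. Then θ is complete. -/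
theorem result {G : Type*} [Group G] [Finite G] (p : ℕ) [Fact p.Prime] (A : Subgroup G) (hA : Cfsg.IsElementaryAbelian p A) (hA3 : p ^ 3 ≤ Nat.card ↥A) (θ : G → Subgroup G) (hθ : Cfsg.IsSolvableSignalizerFunctor p A θ) (q : ℕ) [Fact q.Prime] (hq : ∀ a ∈ A, a ≠ 1 → IsPGroup q ↥(θ a)) : Cfsg.IsCompleteSignalizerFunctor p A θ := by
  refine ⟨hθ.1, ?_⟩
  have hbot : (⊥ : Subgroup G) ∈ Cfsg.signalizerFamily p A θ := by
    refine ⟨inferInstance, ?_, fun b _ u hu => by simp_all, fun a ha ha1 => inf_le_left.trans bot_le⟩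
    rw [card_bot]
    exact (Fact.out : p.Prime).not_dvd_one
  obtain ⟨Q, -, hQW, hQq, hQmax⟩ := Sig.exists_max_ge hbot (IsPGroup.of_bot (p := q))
  refine ⟨Q, hQW.2.2.1, hQW.2.1, fun a ha ha1 => le_antisymm (hQW.2.2.2 a ha ha1) (le_inf ?_ (hθ.1.1 a ha ha1))⟩
  obtain ⟨R, hR, hRW, hRq, hRm⟩ := Sig.exists_max_ge (Sig.theta_mem hθ ha ha1) (hq a ha ha1)
  obtain ⟨c, hc, hcQ⟩ := Sig.transitivity hA hA3 hθ R Q hRW hRq hRm hQW hQq hQmax
  have h1 : MulAut.conj c • θ a ≤ Q := (map_mono hR).trans hcQ.le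
  rwa [conj_smul_eq_self (le_normalizer (Sig.sigInf_le ha ha1 hc))] at h1

end Cfsg.Agent.S1285
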