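import Cfsg.Statements.S1286
import Cfsg.Agent.Lib.Components.Signalizer
import Mathlib.GroupTheory.Perm.Fin
-- import your own Cfsg.Agent.* helpers here

set_option autoImplicit false
open Cfsg

namespace Cfsg.Agent.S1286
open Subgroup Cfsg.Agent.Lib.Coprime Cfsg.Agent.Lib.Components
open scoped Pointwise


/-- There exist a finite group X, an elementary abelian subgroup A of order 4 and a solvable A-signalizer functor θ on X for the prime 2 which is not complete. -/
theorem result : ∃ (X : Type) (_ : Group X) (_ : Finite X) (A : Subgroup X) (θ : X → Subgroup X), Cfsg.IsElementaryAbelian 2 A ∧ Nat.card ↥A = 4 ∧ Cfsg.IsSolvableSignalizerFunctor 2 A θ ∧ ¬ Cfsg.IsCompleteSignalizerFunctor 2 A θ := by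
  let a : Equiv.Perm (Fin 5) := Equiv.swap 0 1
  let b : Equiv.Perm (Fin 5) := Equiv.swap 2 3
  let s : Equiv.Perm (Fin 5) := Equiv.swap 2 3 * Equiv.swap 3 4
  let t : Equiv.Perm (Fin 5) := Equiv.swap 0 1 * Equiv.swap 1 4
  let A : Subgroup (Equiv.Perm (Fin 5)) :=
    { carrier := {x | x = 1 ∨ x = a ∨ x = b ∨ x = a * b}
      mul_mem' := by
        rintro x y (rfl | rfl | rfl | rfl) (rfl | rfl | rfl | rfl) <;>
          simp only [Set.mem_setOf_eq] <;> decide
      one_mem' := Or.inl rfl
      inv_mem' := by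
        rintro x (rfl | rfl | rfl | rfl) <;> simp only [Set.mem_setOf_eq] <;> decide }
  have hmemA : ∀ x, x ∈ A ↔ (x = 1 ∨ x = a ∨ x = b ∨ x = a * b) := fun x => Iff.rfl
  let θ : Equiv.Perm (Fin 5) → Subgroup (Equiv.Perm (Fin 5)) :=
    fun x => if x = a then zpowers s else if x = b then zpowers t else ⊥
  have hθa : θ a = zpowers s := if_pos rfl
  have hθb : θ b = zpowers t := (if_neg (by decide)).trans (if_pos rfl)
  have hθc : θ (a * b) = ⊥ := (if_neg (by decide)).trans (if_neg (by decide))
  have hpow : ∀ {g z : Equiv.Perm (Fin 5)}, g ^ 3 = 1 → z ∈ zpowers g → z = 1 ∨ z = g ∨ z = g * g := by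
    intro g z hg hz
    obtain ⟨n, rfl⟩ := mem_powers_iff_mem_zpowers.2 hz
    have e : g ^ n = g ^ (n % 3) := by
      conv_lhs => rw [← Nat.div_add_mod n 3, pow_add, pow_mul, hg, one_pow, one_mul]
    show g ^ n = 1 ∨ g ^ n = g ∨ g ^ n = g * g
    rcases (by omega : n % 3 = 0 ∨ n % 3 = 1 ∨ n % 3 = 2) with h | h | h <;> rw [e, h]
    · exact Or.inl (pow_zero g)
    · exact Or.inr (Or.inl (pow_one g))
    · exact Or.inr (Or.inr (pow_two g))
  have hs3 : s ^ 3 = 1 := by decide
  have ht3 : t ^ 3 = 1 := by decide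
  have hcard : ∀ {g : Equiv.Perm (Fin 5)}, g ^ 3 = 1 → g ≠ 1 → ¬ 2 ∣ Nat.card ↥(zpowers g) := by
    intro g hg hg1
    rw [Nat.card_zpowers, orderOf_eq_prime (hp := ⟨by norm_num⟩) hg hg1]
    norm_num
  refine ⟨Equiv.Perm (Fin 5), inferInstance, inferInstance, A, θ, ⟨IsMulCommutative.of_setLike_mul_comm ?_, ?_⟩,
    ?_, ⟨⟨?_, ?_, ?_, ?_⟩, ?_⟩, ?_⟩
  · rintro x (rfl | rfl | rfl | rfl) y (rfl | rfl | rfl | rfl) <;> decide
  · rintro x (rfl | rfl | rfl | rfl) <;> decide
  · have e : ∀ x, x ∈ A ↔ x ∈ ({1, a, b, a * b} : Finset (Equiv.Perm (Fin 5))) := fun x => by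
      simp [hmemA]
    rw [Nat.card_congr (Equiv.subtypeEquivRight e), Nat.card_eq_fintype_card, Fintype.card_coe]
    decide
  · rintro x (rfl | rfl | rfl | rfl) hx1
    · exact absurd rfl hx1
    · rw [hθa, zpowers_le]; exact mem_centralizer_singleton_iff.2 (by decide)
    · rw [hθb, zpowers_le]; exact mem_centralizer_singleton_iff.2 (by decide)
    · rw [hθc]; exact bot_le
  · rintro x (rfl | rfl | rfl | rfl) hx1
    · exact absurd rfl hx1
    · rw [hθa]; exact hcard hs3 (by decide)
    · rw [hθb]; exact hcard ht3 (by decide)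
    · rw [hθc, card_bot]; norm_num
  · rintro x (rfl | rfl | rfl | rfl) hx1 y hy z hz
    · exact absurd rfl hx1
    · rw [hθa] at hz ⊢
      have h1 : y * s * y⁻¹ = s ∨ y * s * y⁻¹ = s * s := by
        rcases hy with rfl | rfl | rfl | rfl <;> decide
      have hys : y * s * y⁻¹ ∈ zpowers s := by
        rcases h1 with e | e <;> rw [e]
        exacts [mem_zpowers s, mul_mem (mem_zpowers s) (mem_zpowers s)]
      rcases hpow hs3 hz with rfl | rfl | rfl
      · simp
      · exact hys
      · simpa [mul_assoc] using mul_mem hys hys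
    · rw [hθb] at hz ⊢
      have h1 : y * t * y⁻¹ = t ∨ y * t * y⁻¹ = t * t := by
        rcases hy with rfl | rfl | rfl | rfl <;> decide
      have hys : y * t * y⁻¹ ∈ zpowers t := by
        rcases h1 with e | e <;> rw [e]
        exacts [mem_zpowers t, mul_mem (mem_zpowers t) (mem_zpowers t)]
      rcases hpow ht3 hz with rfl | rfl | rfl
      · simp
      · exact hys
      · simpa [mul_assoc] using mul_mem hys hys
    · rw [hθc, mem_bot] at hz ⊢
      simp [hz]
  · rintro x (rfl | rfl | rfl | rfl) hx1 y hy hy1 z ⟨hz, hzy⟩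
    · exact absurd rfl hx1
    · rw [hθa] at hz
      rcases hy with rfl | rfl | rfl | rfl
      · exact absurd rfl hy1
      · rw [hθa]; exact hz
      all_goals
        rcases hpow hs3 hz with rfl | rfl | rfl
        · exact one_mem _
        all_goals exact absurd (mem_centralizer_singleton_iff.1 hzy) (by decide)
    · rw [hθb] at hz
      rcases hy with rfl | rfl | rfl | rfl
      · exact absurd rfl hy1
      · rcases hpow ht3 hz with rfl | rfl | rfl
        · exact one_mem _
        all_goals exact absurd (mem_centralizer_singleton_iff.1 hzy) (by decide)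
      · rw [hθb]; exact hz
      · rcases hpow ht3 hz with rfl | rfl | rfl
        · exact one_mem _
        all_goals exact absurd (mem_centralizer_singleton_iff.1 hzy) (by decide)
    · rw [hθc] at hz
      rw [mem_bot.1 hz]
      exact one_mem _
  · rintro x (rfl | rfl | rfl | rfl) hx1
    · exact absurd rfl hx1
    · rw [hθa]; exact Group.isSolvable_of_comm fun u v => mul_comm' u v
    · rw [hθb]; exact Group.isSolvable_of_comm fun u v => mul_comm' u v
    · rw [hθc]; infer_instance
  · rintro ⟨-, X, -, hX, hXe⟩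
    have hs : s ∈ X := by
      have := (hXe a (Or.inr (Or.inl rfl)) (by decide)).ge
      rw [hθa] at this
      exact (this (mem_zpowers s)).1
    have ht : t ∈ X := by
      have := (hXe b (Or.inr (Or.inr (Or.inl rfl))) (by decide)).ge
      rw [hθb] at this
      exact (this (mem_zpowers t)).1
    have hg : s * s * t * s * t ∈ X := mul_mem (mul_mem (mul_mem (mul_mem hs hs) ht) hs) ht
    refine hX ?_
    have h2 : orderOf (s * s * t * s * t) = 2 :=
      orderOf_eq_prime (hp := ⟨Nat.prime_two⟩) (by decide) (by decide)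
    exact h2 ▸ Subgroup.orderOf_dvd_natCard X hg

end Cfsg.Agent.S1286
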