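import Cfsg.Statements.S1288
import Cfsg.Agent.Lib.Components.Signalizer
import Cfsg.Agent.Lib.Components.Local
-- import your own Cfsg.Agent.* helpers here

set_option autoImplicit false
open Cfsg

namespace Cfsg.Agent.S1288
open Subgroup Cfsg.Agent.Lib.Coprime Cfsg.Agent.Lib.Components
open scoped Pointwise


/-- Let A be a noncyclic elementary abelian p-subgroup of a finite group H normalizing a solvable subgroup K of order prime to p, q a prime dividing |K|, and U ≤ K a subgroup of order prime to q such that ⁅U, C_K(B)⁆ has order prime to q for every subgroup B of index p in A. Then U ≤ O_{q'}(K). -/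
theorem result {H : Type*} [Group H] [Finite H] (p : ℕ) [Fact p.Prime] (A K : Subgroup H) (hA : Cfsg.IsElementaryAbelian p A) (hA2 : p ^ 2 ≤ Nat.card ↥A) (hK : ¬ p ∣ Nat.card ↥K) (hKs : Group.IsSolvable ↥K) (hAK : A ≤ Subgroup.normalizer (K : Set H)) (q : ℕ) [Fact q.Prime] (hqK : q ∣ Nat.card ↥K) (U : Subgroup H) (hU : U ≤ K) (hUq : ¬ q ∣ Nat.card ↥U) (hcomm : ∀ B : Subgroup H, B ≤ A → B.relIndex A = p → ¬ q ∣ Nat.card ↥⁅U, K ⊓ Subgroup.centralizer (B : Set H)⁆) : U ≤ (Cfsg.pPrimeCore q ↥K).map K.subtype := by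
  let O := Cfsg.pPrimeCore q ↥K
  let f := QuotientGroup.mk' O
  let V := Cfsg.pCore q (↥K ⧸ O)
  let M : Subgroup ↥K := V.comap f
  let Mg : Subgroup H := M.map K.subtype
  haveI := hKs
  haveI : M.Normal := inferInstance
  have hchar : ∀ e : ↥K ≃* ↥K, M.map e.toMonoidHom ≤ M := fun e => by
    rw [map_le_iff_le_comap]
    intro x hx
    have hO : O ≤ O.comap e.toMonoidHom := fun y hy => pPrimeCore_map_le q e.toMonoidHom e.surjective (mem_map_of_mem _ hy)
    let g := QuotientGroup.map O O e.toMonoidHom hO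
    have hg : Function.Surjective g := by
      intro z
      obtain ⟨y, rfl⟩ := QuotientGroup.mk'_surjective O z
      obtain ⟨y, rfl⟩ := e.surjective y
      exact ⟨f y, rfl⟩
    show g (f x) ∈ V
    exact pCore_map_le q g hg (mem_map_of_mem g (show f x ∈ V from hx))
  have hMn : A ≤ normalizer (Mg : Set H) := by
    refine Sig.inv_iff.1 ?_
    rintro b hb _ ⟨x, hx, rfl⟩
    let e : ↥K ≃* ↥K := K.normalizerMonoidHom ⟨b, hAK hb⟩
    exact ⟨e x, hchar e (mem_map_of_mem e.toMonoidHom hx), rfl⟩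
  have hMK : Mg ≤ K := map_subtype_le _
  have hKM : K ≤ normalizer (Mg : Set H) := by
    have h := le_normalizer_map (H := M) K.subtype
    rwa [normalizer_eq_top, ← MonoidHom.range_eq_map, range_subtype] at h
  have hcop := Sig.coprime_elem hA hK
  obtain ⟨S, hS⟩ := exists_invariant_sylow hMn (hcop.coprime_dvd_right (card_dvd_of_le hMK))
    (Or.inl (Sig.solvable_elem hA)) q
  let Sm : Subgroup H := (S : Subgroup ↥Mg).map Mg.subtype
  have hSK : Sm ≤ K := (map_subtype_le _).trans hMK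
  have hV : IsPGroup q ↥V := pCore_isPGroup q
  have hVS : V ≤ (Sm.subgroupOf K).map f := by
    let g : ↥Mg →* ↥V := ((f.comp (inclusion hMK)).codRestrict V fun m => by
      obtain ⟨x, hx, hxm⟩ := m.2
      have e : inclusion hMK m = x := Subtype.ext hxm.symm
      show f (inclusion hMK m) ∈ V
      rw [e]; exact hx)
    have hgs : Function.Surjective g := by
      rintro ⟨v, hv⟩
      obtain ⟨k, rfl⟩ := QuotientGroup.mk'_surjective O v
      exact ⟨⟨k, mem_map_of_mem K.subtype (show k ∈ M from hv)⟩, rfl⟩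
    intro v hv
    have htop : (S.mapSurjective hgs : Subgroup ↥V) = ⊤ :=
      ((S.mapSurjective hgs).is_maximal' (Q := ⊤) (hV.of_equiv Subgroup.topEquiv.symm) le_top).symm
    obtain ⟨s, hs, hsv⟩ := htop.ge (mem_top (⟨v, hv⟩ : ↥V))
    exact ⟨⟨s, hMK s.2⟩, mem_map_of_mem Mg.subtype hs, congrArg Subtype.val hsv⟩
  let Ub := (U.subgroupOf K).map f
  have hgen := Sig.gen_hyperplane hA hA2 (hcop.coprime_dvd_right (card_dvd_of_le hSK)) hS
  let Z : Subgroup H := ((centralizer (Ub : Set (↥K ⧸ O))).comap f).map K.subtype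
  have hSZ : Sm ≤ Z := by
    refine hgen.trans (iSup_le fun ⟨B, hBA, hBi⟩ => ?_)
    rintro s ⟨hs, hsB⟩
    obtain ⟨E, hEA, hEB, hEi⟩ : ∃ E : Subgroup H, E ≤ A ∧ E ≤ B ∧ E.relIndex A = p := by
      have h1 := Sig.card_mul_relIndex hBA
      have hp := (Fact.out : p.Prime)
      rcases eq_or_ne (B.relIndex A) 1 with e | e
      · have hA1 : A ≠ ⊥ := fun e' => by
          rw [e', card_bot] at hA2
          exact absurd hA2 (not_le.2 (Nat.one_lt_pow two_ne_zero hp.one_lt))
        obtain ⟨E, hE, hEi⟩ := Sig.exists_index_prime hA hA1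
        exact ⟨E, hE, hE.trans (relIndex_eq_one.1 e), hEi⟩
      · refine ⟨B, hBA, le_rfl, ?_⟩
        obtain ⟨n, hn⟩ := Sig.card_eq_pow hA
        obtain ⟨k, -, hk⟩ := (Nat.dvd_prime_pow hp).1 (hn ▸ Dvd.intro_left _ h1 :
          B.relIndex A ∣ p ^ n)
        rcases k with _ | _ | k
        · exact absurd (hk.trans (pow_zero p)) e
        · exact hk.trans (pow_one p)
        · exfalso
          have : p ^ 1 < p ^ (k + 1 + 1) := Nat.pow_lt_pow_right hp.one_lt (by omega)
          rw [pow_one, ← hk] at this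
          exact absurd hBi (not_le.2 this)
    have hsE : s ∈ K ⊓ centralizer (E : Set H) := ⟨hSK hs, centralizer_le hEB hsB⟩
    let W : Subgroup H := ⁅U, K ⊓ centralizer (E : Set H)⁆ ⊓ Mg
    have hWq : (Nat.card ↥W).Coprime q :=
      Nat.Coprime.coprime_dvd_left (card_dvd_of_le inf_le_left)
        (((Fact.out : q.Prime).coprime_iff_not_dvd).2 (hcomm E hEA hEi)).symm
    refine ⟨⟨s, hSK hs⟩, mem_comap.2 (mem_centralizer_iff.2 ?_), rfl⟩
    rintro _ ⟨u, hu, rfl⟩
    have hw : (u : H) * s * (u : H)⁻¹ * s⁻¹ ∈ W :=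
      mem_inf.2 ⟨commutator_mem_commutator (show (u : H) ∈ U from hu) hsE,
        mul_mem ((mem_normalizer_iff.1 (hKM u.2) s).1 (map_subtype_le _ hs))
          (inv_mem (map_subtype_le _ hs))⟩
    let w : ↥K := u * ⟨s, hSK hs⟩ * u⁻¹ * ⟨s, hSK hs⟩⁻¹
    have hwW : f w ∈ (W.subgroupOf K).map f ⊓ V := by
      refine ⟨mem_map_of_mem f hw, ?_⟩
      obtain ⟨x, hx, hxw⟩ := hw.2
      rw [show w = x from Subtype.ext hxw.symm]
      exact hx
    have hbot : (W.subgroupOf K).map f ⊓ V = ⊥ := by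
      have hc' : (Nat.card ↥((W.subgroupOf K).map f)).Coprime q := by
        refine Nat.Coprime.coprime_dvd_left ((card_map_dvd _ _).trans ?_) hWq
        rw [← card_map_of_injective K.subtype_injective, subgroupOf_map_subtype]
        exact card_dvd_of_le inf_le_left
      rw [inf_comm]
      exact inf_eq_bot_of_pGroup_coprime hV hc'
    rw [hbot, mem_bot] at hwW
    simp only [w, map_mul, map_inv] at hwW
    exact mul_inv_eq_iff_eq_mul.1 (mul_inv_eq_one.1 hwW)
  have hUV : Ub ≤ centralizer (V : Set (↥K ⧸ O)) := by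
    rw [← Subgroup.le_centralizer_iff]
    refine hVS.trans ?_
    rintro _ ⟨s, hs, rfl⟩
    obtain ⟨x, hx, hxs⟩ := hSZ hs
    rw [show s = x from Subtype.ext hxs.symm]
    exact hx
  have hcq := charp_quotient (p := q) (G := ↥K) pLayer_eq_bot_of_isSolvable
  have hUb : Ub = ⊥ := by
    have hc' : (Nat.card ↥Ub).Coprime q := by
      refine Nat.Coprime.coprime_dvd_left ((card_map_dvd _ _).trans ?_)
        (((Fact.out : q.Prime).coprime_iff_not_dvd).2 hUq).symm
      rw [Nat.card_congr (subgroupOfEquivOfLe hU).toEquiv]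
    exact le_bot_iff.1 ((le_inf (hUV.trans hcq) le_rfl).trans (inf_eq_bot_of_pGroup_coprime hV hc').le)
  rw [Subgroup.map_eq_bot_iff, QuotientGroup.ker_mk'] at hUb
  exact fun u hu => ⟨⟨u, hU hu⟩, hUb (show (⟨u, hU hu⟩ : ↥K) ∈ U.subgroupOf K from hu), rfl⟩

end Cfsg.Agent.S1288
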