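import Cfsg.Statements.S1289
import Cfsg.Agent.Lib.Components.AxB
-- import your own Cfsg.Agent.* helpers here

set_option autoImplicit false
open Cfsg

namespace Cfsg.Agent.S1289
open Subgroup Cfsg.Agent.Lib.Components
open scoped commutatorElement


/-- A p-component K of the finite group X is subnormal, perfect, of order divisible by p, and minimal among the subnormal perfect subgroups of X of order divisible by p. -/
theorem result {X : Type*} [Group X] [Finite X] (p : ℕ) [Fact p.Prime] (K : Subgroup X) (hK : Cfsg.IsPComponent p K) : K.IsSubnormal ∧ ⁅K, K⁆ = K ∧ p ∣ Nat.card ↥K ∧ ∀ H : Subgroup X, H ≤ K → H.IsSubnormal → ⁅H, H⁆ = H → p ∣ Nat.card ↥H → H = K := by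
  refine ⟨hK.1, pcomp_perfect hK, pcomp_dvd_card hK, fun H hle hH hHp hdvd => ?_⟩
  let q := QuotientGroup.mk' (Cfsg.pPrimeCore p X)
  refine hK.2.2 H hH hle (le_antisymm (map_mono hle) ?_)
  rcases comp_subnormal_dichotomy hK.2.1 (H := H.map q) (hH.map (QuotientGroup.mk'_surjective _)) with h | h
  · exact h
  · exfalso
    have h1 : H.map q = ⊥ := eq_bot_of_perfect_le_center_of (perfect_map q hHp)
      (commutator_eq_bot_mono h (map_mono hle) le_rfl)
    rw [Subgroup.map_eq_bot_iff, QuotientGroup.ker_mk'] at h1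
    exact pPrimeCore_not_dvd p (hdvd.trans (card_dvd_of_le h1))

end Cfsg.Agent.S1289
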