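import Cfsg.Statements.S1297
import Cfsg.Agent.Lib.Components.Balanced
-- import your own Cfsg.Agent.* helpers here

set_option autoImplicit false
open Cfsg

namespace Cfsg.Agent.S1297
open Subgroup Cfsg.Agent.Lib.Components


/-- Let G be finite. Suppose that for every involution x, writing C = C_G(x), every component K of C / O(C) has K / Z(K) locally balanced. Then G is balanced. -/
theorem result {G : Type*} [Group G] [Finite G] (h : ∀ x : G, orderOf x = 2 → ∀ K : Subgroup (↥(Subgroup.centralizer ({x} : Set G)) ⧸ Cfsg.oddCore ↥(Subgroup.centralizer ({x} : Set G))), Cfsg.IsComponent K → Cfsg.IsLocallyBalanced (↥K ⧸ Subgroup.center ↥K)) : Cfsg.IsBalanced G := by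
  haveI : Fact (Nat.Prime 2) := ⟨Nat.prime_two⟩
  have hloc : ∀ x : G, orderOf x = 2 → ∀ K : Subgroup (↥(centralizer ({x} : Set G)) ⧸
      Cfsg.pPrimeCore 2 ↥(centralizer ({x} : Set G))), Cfsg.IsComponent K →
      Cfsg.IsLocallyKBalanced 2 1 (↥K ⧸ center ↥K) := by
    intro x hx K hK H hH A hA hAc
    rw [pow_one] at hAc
    obtain ⟨a, ha, ha1⟩ := (bot_or_exists_ne_one A).resolve_left fun e => by
      rw [e, card_bot] at hAc; omega
    have h2 := h x hx K hK H hH a (orderOf_eq_prime (hA.2 a ha) ha1)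
    exact le_bot_iff.1 (h2 ▸ signalizerDelta_le ha ha1)
  have hkb := isKBalanced_of_components (le_refl 1) hloc
  have key : ∀ x y : G, orderOf x = 2 → orderOf y = 2 → x * y = y * x →
      Cfsg.centralizerPPrimeCore 2 x ⊓ centralizer {y} ≤
        Cfsg.centralizerPPrimeCore 2 y ⊓ centralizer {x} := by
    intro x y hx hy hxy
    have hA : Cfsg.IsElementaryAbelian 2 (zpowers x) := by
      refine ⟨inferInstance, fun z hz => ?_⟩
      obtain ⟨i, rfl⟩ := mem_zpowers_iff.1 hz
      rw [← zpow_natCast, ← zpow_mul, mul_comm, zpow_mul, zpow_natCast,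
        show x ^ 2 = 1 from hx ▸ pow_orderOf_eq_one x, one_zpow]
    have h1 := hkb (zpowers x) hA (by rw [Nat.card_zpowers, hx, pow_one]) y hy fun a ha => by
      obtain ⟨i, rfl⟩ := mem_zpowers_iff.1 ha
      exact (Commute.zpow_left hxy i).eq
    have h2 : Cfsg.signalizerDelta 2 (zpowers x) = Cfsg.centralizerPPrimeCore 2 x := by
      refine le_antisymm (signalizerDelta_le (mem_zpowers x) fun e => by simp [e] at hx) ?_
      refine le_iInf ?_
      rintro ⟨z, hz, hz1⟩
      have hz2 : z = x := by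
        have h3 : orderOf z = 2 := orderOf_eq_prime (hA.2 z hz) hz1
        obtain ⟨i, rfl⟩ := mem_zpowers_iff.1 hz
        rcases Int.even_or_odd i with ⟨j, rfl⟩ | ⟨j, rfl⟩
        · refine absurd ?_ hz1
          rw [← two_mul, zpow_mul, show x ^ (2 : ℤ) = 1 by
            rw [zpow_ofNat]; exact hx ▸ pow_orderOf_eq_one x, one_zpow]
        · rw [zpow_add_one, zpow_mul, show x ^ (2 : ℤ) = 1 by
            rw [zpow_ofNat]; exact hx ▸ pow_orderOf_eq_one x, one_zpow, one_mul]
      exact (congrArg (Cfsg.centralizerPPrimeCore 2) hz2).ge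
    rw [h2] at h1
    exact le_inf h1 (inf_le_left.trans (cppc_le_centralizer x))
  exact fun x y hx hy hxy => le_antisymm (key x y hx hy hxy) (key y x hy hx hxy.symm)

end Cfsg.Agent.S1297
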