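import Cfsg.Statements.S1299
import Cfsg.Agent.Lib.Components.HyperplaneSystem
import Cfsg.Agent.Lib.Components.Local

set_option autoImplicit false
open Cfsg Subgroup Cfsg.Agent.Lib.Components

namespace Cfsg.Agent.S1299

/-- Let G be finite and k-balanced for the prime p (k ≥ 1), A an elementary abelian p-subgroup of order at least p^(k+2) such that O_{p'}(C_G(a)) is solvable for every non-identity a ∈ A. For a ∈ A put θ a = the subgroup generated by the Δ_G(D) ∩ C_G(a) over the subgroups D ≤ A of order p^k. Then θ is an A-signalizer functor. -/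
theorem result {G : Type*} [Group G] [Finite G] (p k : ℕ) [Fact p.Prime] (hk : 1 ≤ k) (hbal : Cfsg.IsKBalanced p k G) (A : Subgroup G) (hA : Cfsg.IsElementaryAbelian p A) (hAk : p ^ (k + 2) ≤ Nat.card ↥A) (hsolv : ∀ a ∈ A, a ≠ 1 → Group.IsSolvable ↥(Cfsg.centralizerPPrimeCore p a)) : Cfsg.IsSignalizerFunctor p A (fun a => ⨆ D : {D : Subgroup G // D ≤ A ∧ Nat.card ↥D = p ^ k}, Cfsg.signalizerDelta p (D : Subgroup G) ⊓ Subgroup.centralizer {a}) := by
  have hp : p.Prime := Fact.out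
  set θ := fun a : G => ⨆ D : {D : Subgroup G // D ≤ A ∧ Nat.card ↥D = p ^ k},
    Cfsg.signalizerDelta p (D : Subgroup G) ⊓ Subgroup.centralizer {a} with hθ
  have hA2 : p ^ 2 ≤ Nat.card A := le_trans (Nat.pow_le_pow_right hp.pos (by omega)) hAk
  have hAC : ∀ d ∈ A, A ≤ centralizer ({d} : Set G) := fun d hd x hx =>
    mem_centralizer_singleton_iff.2 (Sig.comm_of hA hx hd)
  -- balance
  have hb : ∀ D : Subgroup G, D ≤ A → Nat.card D = p ^ k → ∀ b ∈ A, b ≠ 1 →
      signalizerDelta p D ⊓ centralizer {b} ≤ centralizerPPrimeCore p b := fun D hD hDc b hb hb1 =>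
    hbal D (Sig.elem_mono hA hD) hDc b (Sig.orderOf_elem hA hb hb1) fun d hd => Sig.comm_of hA (hD hd) hb
  let Z : Subgroup G → Subgroup G := fun H => signalizerDelta p H ⊓ centralizer (H : Set G)
  have hstar : ∀ D H : Subgroup G, D ≤ A → Nat.card D = p ^ k → H ≤ A →
      signalizerDelta p D ⊓ centralizer (H : Set G) ≤ Z H := fun D H hD hDc hH =>
    le_inf (le_iInf fun h => le_trans (inf_le_inf_left _ (centralizer_le
      (Set.singleton_subset_iff.2 h.2.1))) (hb D hD hDc h (hH h.2.1) h.2.2)) inf_le_right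
  have hΔA : ∀ D : Subgroup G, D ≤ A → A ≤ normalizer (signalizerDelta p D : Set G) := by
    intro D hD x hx
    have key : ∀ x ∈ A, ∀ y ∈ signalizerDelta p D, x * y * x⁻¹ ∈ signalizerDelta p D := by
      intro x hx y hy
      simp only [signalizerDelta, mem_iInf] at hy ⊢
      intro d
      exact (mem_normalizer_iff.1 (centralizer_le_normalizer_cppc (d : G) (hAC d (hD d.2.1) hx)) y).1 (hy d)
    rw [mem_normalizer_iff]
    refine fun y => ⟨key x hx y, fun hy => ?_⟩
    simpa [mul_assoc] using key x⁻¹ (inv_mem hx) _ hy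
  have hAn : ∀ H : Subgroup G, H ≤ A → A ≤ normalizer (centralizer (H : Set G) : Set G) := fun H hH =>
    (Sig.le_centralizer_of_le hA hH).trans le_normalizer
  have hANa : ∀ a ∈ A, A ≤ normalizer (centralizer ({a} : Set G) : Set G) := fun a ha =>
    (hAC a ha).trans le_normalizer
  have hsub : ∀ H : Subgroup G, p ^ k ≤ Nat.card H → H ≤ A →
      ∃ D : Subgroup G, D ≤ H ∧ Nat.card D = p ^ k := fun H hH hHA => by
    obtain ⟨D, hDH, hDc⟩ := Sylow.exists_subgroup_le_card_pow_prime_of_le_card (n := k) hp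
      (Sig.elem_pGroup (Sig.elem_mono hA hHA)) (H := ⊤) (by simpa using hH)
    refine ⟨D.map H.subtype, map_subtype_le D, ?_⟩
    rw [card_map_of_injective H.subtype_injective, hDc]
  have hidx : ∀ H : Subgroup G, H ≤ A → H.relIndex A ≤ p * p → p ^ k ≤ Nat.card H := fun H hH hi => by
    refine Nat.le_of_mul_le_mul_right ?_ (Nat.mul_pos hp.pos hp.pos)
    calc p ^ k * (p * p) = p ^ (k + 2) := by rw [pow_add, pow_two]
      _ ≤ Nat.card A := hAk
      _ = Nat.card H * H.relIndex A := (Sig.card_mul_relIndex hH).symm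
      _ ≤ _ := Nat.mul_le_mul_left _ hi
  have hZC : ∀ H, Sig.IsHyperplane p A H → Z H ≤ centralizer (H : Set G) := fun H _ => inf_le_right
  have hZA : ∀ H, Sig.IsHyperplane p A H → A ≤ normalizer (Z H : Set G) := fun H hH =>
    (le_inf (hΔA H hH.1) (hAn H hH.1)).trans inf_normalizer_le_normalizer_inf
  have hP : ∀ H H' H'', Sig.IsHyperplane p A H → Sig.IsHyperplane p A H' → Sig.IsHyperplane p A H'' →
      (Z H ⊔ Z H') ⊓ centralizer (H'' : Set G) ≤ Z H'' := by
    intro H H' H'' hH hH' hH''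
    obtain ⟨D, hD, hDc⟩ := hsub (H ⊓ H') (hidx _ (inf_le_left.trans hH.1)
      (relIndex_inf_le.trans (Nat.mul_le_mul hH.2 hH'.2))) (inf_le_left.trans hH.1)
    have hle : ∀ K : Subgroup G, D ≤ K → Z K ≤ signalizerDelta p D := fun K hK =>
      inf_le_left.trans (le_iInf fun d => iInf_le_of_le ⟨d.1, hK d.2.1, d.2.2⟩ le_rfl)
    exact (inf_le_inf_right _ (sup_le (hle H (hD.trans inf_le_left)) (hle H' (hD.trans inf_le_right)))).trans
      (hstar D H'' ((hD.trans inf_le_left).trans hH.1) hDc hH''.1)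
  have hθle : ∀ a ∈ A, a ≠ 1 → θ a ≤ centralizerPPrimeCore p a := fun a ha ha1 =>
    iSup_le fun D => hb D D.2.1 D.2.2 a ha ha1
  have hθp : ∀ a ∈ A, a ≠ 1 → ¬ p ∣ Nat.card (θ a) := fun a ha ha1 hd =>
    hp.coprime_iff_not_dvd.1 (cppc_coprime a).symm (hd.trans (card_dvd_of_le (hθle a ha ha1)))
  have hconj : ∀ a ∈ A, ∀ b ∈ A, ∀ x ∈ θ a, b * x * b⁻¹ ∈ θ a := by
    intro a ha b hb' x hx
    induction hx using iSup_induction' with
    | hp D x hx =>
      exact mem_iSup_of_mem D ((mem_normalizer_iff.1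
        (((le_inf (hΔA D D.2.1) (hANa a ha)).trans inf_normalizer_le_normalizer_inf) hb') x).1 hx)
    | h1 => simp [one_mem]
    | hmul u v _ _ hu hv =>
      rw [show b * (u * v) * b⁻¹ = (b * u * b⁻¹) * (b * v * b⁻¹) by group]
      exact mul_mem hu hv
  have hθA : ∀ a ∈ A, A ≤ normalizer (θ a : Set G) := fun a ha x hx => by
    rw [mem_normalizer_iff]
    refine fun y => ⟨hconj a ha x hx y, fun hy => ?_⟩
    simpa [mul_assoc] using hconj a ha x⁻¹ (inv_mem hx) _ hy
  refine ⟨fun a _ _ => iSup_le fun _ => inf_le_right, hθp, fun a ha _ => hconj a ha, ?_⟩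
  intro a ha ha1 b hb' hb1
  have hcop := Sig.coprime_elem hA (hθp a ha ha1)
  have hgen : θ a ≤ ⨆ H : {H : Subgroup G // Sig.IsHyperplane p A H}, θ a ⊓ Z H := by
    refine iSup_le fun D => (Sig.gen_hyperplane hA hA2 (hcop.coprime_dvd_right (card_dvd_of_le
      (le_iSup (fun D : {D : Subgroup G // D ≤ A ∧ Nat.card ↥D = p ^ k} =>
        signalizerDelta p (D : Subgroup G) ⊓ centralizer {a}) D)))
      ((le_inf (hΔA D D.2.1) (hANa a ha)).trans inf_normalizer_le_normalizer_inf)).trans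
      (iSup_le fun B => le_trans ?_ (le_iSup (fun H : {H : Subgroup G // Sig.IsHyperplane p A H} =>
        θ a ⊓ Z H) ⟨B.1, B.2⟩))
    exact le_inf (inf_le_left.trans (le_iSup (fun D : {D : Subgroup G // D ≤ A ∧ Nat.card ↥D = p ^ k} =>
        signalizerDelta p (D : Subgroup G) ⊓ centralizer {a}) D))
      ((inf_le_inf_right _ inf_le_left).trans (hstar D B.1 D.2.1 D.2.2 B.2.1))
  have hsol : Group.IsSolvable ↥(θ a) := by
    haveI := hsolv a ha ha1
    exact Group.isSolvable_of_isSolvable_injective (inclusion_injective (hθle a ha ha1))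
  refine (Sig.gen_hyperplane hA hA2 (hcop.coprime_dvd_right (card_dvd_of_le inf_le_left))
    ((le_inf (hθA a ha) (hANa b hb')).trans inf_normalizer_le_normalizer_inf)).trans
    (iSup_le ?_)
  rintro ⟨B, hB, hBi⟩
  set H := B ⊔ zpowers b with hH
  have hHA : H ≤ A := sup_le hB (zpowers_le.2 hb')
  have hHi : H.relIndex A ≤ p := by
    refine le_trans (Nat.le_of_dvd ?_ (relIndex_dvd_of_le_left A le_sup_left)) hBi
    exact Nat.pos_of_ne_zero (index_ne_zero_of_finite (H := B.subgroupOf A))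
  rintro y ⟨⟨hy, hyb⟩, hyB⟩
  have hyH : y ∈ centralizer (H : Set G) := by
    have : H ≤ centralizer ({y} : Set G) := sup_le
      (fun x hx => mem_centralizer_singleton_iff.2 (mem_centralizer_iff.1 hyB x hx))
      (zpowers_le.2 (mem_centralizer_singleton_iff.2 (mem_centralizer_singleton_iff.1 hyb).symm))
    exact mem_centralizer_iff.2 fun x hx => mem_centralizer_singleton_iff.1 (this hx)
  have hyZ := Sig.fixed_le_of_system hA hA2 Z hZC hZA hP (θ a) hsol hcop (hθA a ha) hgen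
    ⟨hHA, hHi⟩ ⟨hy, hyH⟩
  obtain ⟨D, hDH, hDc⟩ := hsub H (hidx H hHA (hHi.trans (Nat.le_mul_of_pos_left p hp.pos))) hHA
  refine mem_iSup_of_mem ⟨D, hDH.trans hHA, hDc⟩ ⟨?_, hyb⟩
  have hle : signalizerDelta p H ≤ signalizerDelta p D :=
    le_iInf fun d => iInf_le_of_le ⟨d.1, hDH d.2.1, d.2.2⟩ le_rfl
  exact hle hyZ.1

end Cfsg.Agent.S1299
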