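import Cfsg.Statements.S1300
import Cfsg.Agent.Lib.Components.AxB
-- import your own Cfsg.Agent.* helpers here

set_option autoImplicit false
open Cfsg

namespace Cfsg.Agent.S1300
open Subgroup Cfsg.Agent.Lib.Components
open scoped commutatorElement


/-- For a finite group G, balance in the sense of commuting involutions is the same as 1-balance for the prime 2. -/
theorem result {G : Type*} [Group G] [Finite G] : Cfsg.IsBalanced G ↔ Cfsg.IsKBalanced 2 1 G := by
  classical
  constructor
  · intro h A hA hcard b hb hcomm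
    haveI : Nontrivial ↥A := Finite.one_lt_card_iff_nontrivial.1 (by rw [hcard]; norm_num)
    obtain ⟨a, ha⟩ := exists_ne (1 : ↥A)
    have ha1 : (a : G) ≠ 1 := fun e => ha (Subtype.ext e)
    have hao : orderOf (a : G) = 2 := by
      haveI := Fact.mk Nat.prime_two
      exact orderOf_eq_prime (hA.2 a a.2) ha1
    have h1 : Cfsg.signalizerDelta 2 A ≤ Cfsg.centralizerPPrimeCore 2 (a : G) :=
      iInf_le (fun c : {c : G // c ∈ A ∧ c ≠ 1} => Cfsg.centralizerPPrimeCore 2 (c : G)) ⟨a, a.2, ha1⟩
    refine (inf_le_inf_right _ h1).trans ?_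
    rw [h a b hao hb (hcomm a a.2)]
    exact inf_le_left
  · intro h x y hx hy hxy
    have key : ∀ u v : G, orderOf u = 2 → orderOf v = 2 → u * v = v * u →
        Cfsg.centralizerPPrimeCore 2 u ⊓ centralizer {v} ≤
          Cfsg.centralizerPPrimeCore 2 v ⊓ centralizer {u} := by
      intro u v hu hv huv
      have hcard : Nat.card ↥(zpowers u) = 2 ^ 1 := by rw [Nat.card_zpowers, hu, pow_one]
      have hsq : ∀ c ∈ zpowers u, c ^ 2 = 1 := fun c hc => by
        obtain ⟨k, rfl⟩ := hc
        rw [← zpow_natCast, ← zpow_mul, mul_comm, zpow_mul, zpow_natCast, ← hu, pow_orderOf_eq_one,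
          one_zpow]
      have hcomm : ∀ c ∈ zpowers u, c * v = v * c := fun c hc => by
        obtain ⟨k, rfl⟩ := hc
        exact ((show Commute u v from huv).zpow_left k).eq
      refine le_inf (le_trans (inf_le_inf_right _ ?_)
        (h (zpowers u) ⟨inferInstance, hsq⟩ hcard v hv hcomm)) (inf_le_left.trans (map_subtype_le _))
      refine le_iInf fun c => ?_
      obtain ⟨c, hc, hc1⟩ := c
      obtain ⟨k, rfl⟩ := hc
      have : u ^ k = u := by
        have h2 : u ^ k = u ^ (k % 2) := by rw [← zpow_mod_orderOf u k, hu]; norm_num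
        rcases Int.emod_two_eq k with h3 | h3 <;> rw [h3] at h2
        · exact absurd (by simpa using h2) hc1
        · simpa using h2
      simp only [this, le_refl]
    exact le_antisymm (key x y hx hy hxy) (key y x hy hx hxy.symm)

end Cfsg.Agent.S1300
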