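import Cfsg.Statements.S1303
import Cfsg.Agent.Lib.Components.Cores
-- import your own Cfsg.Agent.* helpers here

set_option autoImplicit false
open Cfsg

namespace Cfsg.Agent.S1303
open Subgroup Cfsg.Agent.Lib.Components


/-- The group X = SL(2, 3): it is 2-constrained, O_{2'}(X) = 1, its centre A = Z(X) contains every involution of X = C_X(A), and X has a subgroup of order 3 (normalized by A) not contained in O_{2'}(X). -/
theorem result : Cfsg.IsPConstrained 2 (Matrix.SpecialLinearGroup (Fin 2) (ZMod 3)) ∧ Cfsg.pPrimeCore 2 (Matrix.SpecialLinearGroup (Fin 2) (ZMod 3)) = ⊥ ∧ (∀ t : Matrix.SpecialLinearGroup (Fin 2) (ZMod 3), orderOf t = 2 → t ∈ Subgroup.center (Matrix.SpecialLinearGroup (Fin 2) (ZMod 3))) ∧ ∃ Q : Subgroup (Matrix.SpecialLinearGroup (Fin 2) (ZMod 3)), Nat.card ↥Q = 3 ∧ ¬ (Q ≤ Cfsg.pPrimeCore 2 (Matrix.SpecialLinearGroup (Fin 2) (ZMod 3))) := by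
  haveI : Fact (Nat.Prime 2) := ⟨Nat.prime_two⟩
  let X := Matrix.SpecialLinearGroup (Fin 2) (ZMod 3)
  have hcard : Nat.card X = 24 := by rw [Nat.card_eq_fintype_card]; decide
  let Q : Subgroup X :=
    { carrier := {g | g ^ 4 = 1}
      one_mem' := one_pow 4
      mul_mem' := by
        have h : ∀ a b : X, a ^ 4 = 1 → b ^ 4 = 1 → (a * b) ^ 4 = 1 := by decide
        exact fun {a b} ha hb => h a b ha hb
      inv_mem' := fun {a} ha => by
        show a⁻¹ ^ 4 = 1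
        rw [inv_pow, show a ^ 4 = 1 from ha, inv_one] }
  haveI hQn : Q.Normal := ⟨fun a ha g => by
    show (g * a * g⁻¹) ^ 4 = 1
    rw [conj_pow, show a ^ 4 = 1 from ha, mul_one, mul_inv_cancel]⟩
  have hQp : IsPGroup 2 ↥Q := fun a => ⟨2, Subtype.ext (by rw [SubmonoidClass.coe_pow]; exact a.2)⟩
  have hO : Cfsg.pPrimeCore 2 X = ⊥ := by
    have hN := pPrimeCore_coprime (G := X) 2
    haveI : (Cfsg.pPrimeCore 2 X).Normal := inferInstance
    rw [Subgroup.eq_bot_iff_forall]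
    intro x hx
    by_contra hx1
    have hd : orderOf x ∣ 24 := hcard ▸ orderOf_dvd_natCard x
    have hco : (orderOf x).Coprime (2 ^ 3) :=
      (hN.coprime_dvd_left (Subgroup.orderOf_dvd_natCard _ hx)).pow_right 3
    have h3 : x ^ 3 = 1 := orderOf_dvd_iff_pow_eq_one.1 (hco.dvd_of_dvd_mul_left (by norm_num; exact hd))
    have key : ∀ x : X, x ^ 3 = 1 → x ≠ 1 → ∃ h : X, (h * x * h⁻¹ * x⁻¹) ^ 4 = 1 ∧ h * x * h⁻¹ * x⁻¹ ≠ 1 := by
      decide
    obtain ⟨h, h4, hne⟩ := key x h3 hx1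
    refine hne (mem_bot.1 ((inf_eq_bot_of_pGroup_coprime hQp hN).le (mem_inf.2 ⟨h4, ?_⟩)))
    exact mul_mem (Subgroup.Normal.conj_mem inferInstance x hx h) (inv_mem hx)
  have hM : Q ≤ Cfsg.pPrimePCore 2 X := by
    refine map_le_iff_le_comap.1 ?_
    haveI := hQn.map (QuotientGroup.mk' (Cfsg.pPrimeCore 2 X)) (QuotientGroup.mk'_surjective _)
    exact le_pCore (hQp.map _)
  refine ⟨fun P x hx => ?_, hO, ?_, ?_⟩
  · have key : ∀ x : X, (∀ g : X, g ^ 4 = 1 → g * x = x * g) → x ^ 4 = 1 := by decide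
    refine hM (key x fun g hg => mem_centralizer_iff.1 hx g ?_)
    let M := Cfsg.pPrimePCore 2 X
    haveI : (Q.subgroupOf M).Normal := inferInstance
    have hle : Q.subgroupOf M ≤ (P : Subgroup ↥M) := by
      obtain ⟨R, hR⟩ := (hQp.comap_subtype : IsPGroup 2 ↥(Q.subgroupOf M)).exists_le_sylow
      obtain ⟨u, rfl⟩ := MulAction.exists_smul_eq ↥M R P
      intro w hw
      refine ⟨u⁻¹ * w * u, hR ?_, by simp [mul_assoc]⟩
      have := Subgroup.Normal.conj_mem (inferInstance : (Q.subgroupOf M).Normal) w hw u⁻¹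
      rwa [inv_inv] at this
    exact ⟨⟨g, hM hg⟩, hle hg, rfl⟩
  · intro t ht
    have key : ∀ t : X, t ^ 2 = 1 → ∀ g : X, g * t = t * g := by decide
    exact mem_center_iff.2 (key t (orderOf_dvd_iff_pow_eq_one.1 (dvd_of_eq ht)))
  · have key : ∃ x : X, x ^ 3 = 1 ∧ x ≠ 1 := by decide
    obtain ⟨x, h3, h1⟩ := key
    refine ⟨zpowers x, by rw [Nat.card_zpowers, orderOf_eq_prime (hp := ⟨Nat.prime_three⟩) h3 h1], fun h => ?_⟩
    rw [hO, le_bot_iff, zpowers_eq_bot] at h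
    exact h1 h

end Cfsg.Agent.S1303
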