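import Mathlib
import Cfsg.Statements.S1305
import Cfsg.Agent.Lib.LocalChar.LBalance

set_option autoImplicit false

open scoped commutatorElement Pointwise

open Cfsg.Agent.Lib.LocalChar

namespace Cfsg.Agent.S1305

open Cfsg.Agent.Lib.Components Subgroup
open scoped commutatorElement

/-- A component of order divisible by `p` is a `p`-component. -/
theorem pcomp_of_comp {G : Type*} [Group G] [Finite G] {p : ℕ} [Fact p.Prime] {K : Subgroup G}
    (hK : Cfsg.IsComponent K) (hdvd : p ∣ Nat.card ↥K) : Cfsg.IsPComponent p K := by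
  haveI := Cfsg.pPrimeCore_normal p G
  set q := QuotientGroup.mk' (Cfsg.pPrimeCore p G) with hq
  have hne : K.map q ≠ ⊥ := by
    rw [Ne, Subgroup.map_eq_bot_iff, QuotientGroup.ker_mk']
    exact fun h => pPrimeCore_not_dvd p (hdvd.trans (card_dvd_of_le h))
  have hc := isComponent_map hK q (QuotientGroup.mk'_surjective _) hne
  have he : K = pcompOf p (K.map q) := by
    refine le_antisymm ?_ (pcompOf_le_of_subnormal hK.1 le_rfl)
    conv_lhs => rw [← comp_elemGen hK.2 hdvd]
    exact elemGen_mono (le_comap_map q K)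
  rw [he]
  exact isPComponent_pcompOf hc

/-- A perfect subgroup that acts on a quasisimple group by central automorphisms centralizes it. -/
theorem centralize_of_central {G : Type*} [Group G] [Finite G] {L : Subgroup G}
    (hL : Cfsg.IsQuasisimple ↥L) {k : G} (hk : k ∈ normalizer (L : Set G))
    (h : ∀ l ∈ L, k * l * k⁻¹ * l⁻¹ ∈ centralizer (L : Set G)) : k ∈ centralizer (L : Set G) := by
  let φ : ↥L →* ↥L := (L.normalizerMonoidHom ⟨k, hk⟩).toMonoidHom
  have h1 : ∀ x : ↥L, φ x * x⁻¹ ∈ center ↥L := fun x => mem_center_iff.2 fun y => Subtype.ext (by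
    simpa [φ] using mem_centralizer_iff.1 (h x x.2) y y.2)
  refine mem_centralizer_iff.2 fun l hl => ?_
  have h2 : k * l * k⁻¹ = l := by
    simpa [φ] using congrArg Subtype.val (aut_eq_self_of_central hL.1.commutator_eq_top φ h1 ⟨l, hl⟩)
  rw [mul_inv_eq_iff_eq_mul] at h2
  exact h2.symm

/-- A component of the centralizer of an involution `a` inside `E(G)` lies in `L ⊔ L^a` for a component `L`. -/
theorem exists_comp_sup {G : Type*} [Group G] [Finite G] {a : G} (ha : a * a = 1) {K : Subgroup G}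
    (hKE : K ≤ Cfsg.layer G) (hKa : K ≤ centralizer ({a} : Set G))
    (hK : Cfsg.IsComponent (K.subgroupOf (centralizer ({a} : Set G)))) :
    ∃ L : Subgroup G, Cfsg.IsComponent L ∧ ¬ K ≤ centralizer (L : Set G) ∧
      K ≤ (L ⊔ L.map (MulAut.conj a).toMonoidHom) ⊓ centralizer {a} := by
  have hKq : Cfsg.IsQuasisimple ↥K := (qs_congr (subgroupOfEquivOfLe hKa)).1 hK.2
  have hKperf : ⁅K, K⁆ = K := isQuasisimple_perfect hKq
  have hainv : a⁻¹ = a := inv_eq_of_mul_eq_one_right ha
  obtain ⟨L, hL, hKL⟩ : ∃ L : Subgroup G, Cfsg.IsComponent L ∧ ¬ K ≤ centralizer (L : Set G) := by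
    by_contra h
    push Not at h
    refine qs_ne_bot hKq (hKperf ▸ commutator_eq_bot_iff_le_centralizer.2 ?_)
    refine le_centralizer_iff.2 (hKE.trans (layer_le_iff.2 fun L hL => le_centralizer_iff.1 (h L hL)))
  refine ⟨L, hL, hKL, ?_⟩
  set L' := L.map (MulAut.conj a).toMonoidHom with hL'
  have hL'c : Cfsg.IsComponent L' := isComponent_map_equiv hL (MulAut.conj a)
  have hL'm : ∀ l ∈ L, a * l * a ∈ L' := fun l hl => ⟨l, hl, by simp [hainv]⟩
  set F : Subgroup G := (L ⊔ L') ⊓ centralizer {a} with hF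
  set D : Subgroup G := Cfsg.layer G ⊓ centralizer {a} with hD
  have hKD : K ≤ D := le_inf hKE hKa
  have hKc : Cfsg.IsComponent (K.subgroupOf D) := by
    refine ⟨?_, (qs_congr (subgroupOfEquivOfLe hKD)).2 hKq⟩
    have := hK.1.comap (inclusion (inf_le_right : D ≤ centralizer {a}))
    exact this
  have hn : D ≤ normalizer (F : Set G) := by
    refine le_trans (le_inf ?_ (inf_le_right.trans le_normalizer)) inf_normalizer_le_normalizer_inf
    refine inf_le_left.trans (le_trans (le_inf (comp_normal_in_layer hL) (comp_normal_in_layer hL'c)) ?_)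
    intro g hg
    refine mem_normalizer_of_map_conj_eq ?_
    rw [Subgroup.map_sup, map_conj_eq_of_mem_normalizer hg.1, map_conj_eq_of_mem_normalizer hg.2]
  have hFD : F ≤ D := inf_le_inf_right _ (sup_le (comp_le_layer hL) (comp_le_layer hL'c))
  haveI : (F.subgroupOf D).Normal := normal_subgroupOf_of_le_normalizer hn
  rcases comp_normal_dichotomy hKc (M := F.subgroupOf D) with h | h
  · intro k hk
    exact h (show (⟨k, hKD hk⟩ : ↥D) ∈ K.subgroupOf D from hk)
  exfalso
  apply hKL
  have hcom : ∀ k ∈ K, ∀ f ∈ F, k * f = f * k := by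
    intro k hk f hf
    have h1 : ⁅(⟨k, hKD hk⟩ : ↥D), (⟨f, hFD hf⟩ : ↥D)⁆ = 1 :=
      mem_bot.1 (h ▸ commutator_mem_commutator hk hf)
    exact congrArg Subtype.val (commutatorElement_eq_one_iff_mul_comm.1 h1)
  by_cases hLL : L' = L
  · -- `a` normalises `L`
    have hFL : F ≤ L := by rw [hF, hLL, sup_idem]; exact inf_le_left
    have haL : ∀ l ∈ L, a * l * a ∈ L := fun l hl => hLL ▸ hL'm l hl
    have hdec : ∀ k ∈ K, ∃ x ∈ L, ∃ r ∈ centralizer (L : Set G),
        k = x * r ∧ x⁻¹ * (a * x * a) ∈ centralizer (L : Set G) := by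
      intro k hk
      have hk' : k ∈ L ⊔ (centralizer (L : Set G) ⊓ Cfsg.layer G) := by
        refine (layer_le_iff.2 fun M hM => ?_) (hKE hk)
        by_cases hML : M = L
        · exact hML ▸ le_sup_left
        · exact (le_inf (commutator_eq_bot_iff_le_centralizer.1 (comp_commute hM hL hML))
            (comp_le_layer hM)).trans le_sup_right
      rw [← SetLike.mem_coe, coe_mul_of_right_le_normalizer_left _ _
        (inf_le_left.trans (Subgroup.centralizer_le_normalizer _))] at hk'
      obtain ⟨x, hx, r, hr, rfl⟩ := hk'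
      have hrc : r ∈ centralizer (L : Set G) := (mem_inf.1 hr).1
      refine ⟨x, hx, r, hrc, rfl, ?_⟩
      have hfix : a * (x * r) * a = x * r := by
        rw [← mem_centralizer_singleton_iff.1 (hKa hk), mul_assoc, ha, mul_one]
      have hra : a * r * a ∈ centralizer (L : Set G) := by
        refine mem_centralizer_iff.2 fun l hl => ?_
        have h1 := mem_centralizer_iff.1 hrc (a * l * a) (haL l hl)
        calc l * (a * r * a) = a * ((a * l * a) * r) * a := by
              simp only [← mul_assoc, ha, one_mul]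
          _ = a * r * a * l := by
              rw [h1]; simp only [mul_assoc, ha, mul_one]
      have e : x⁻¹ * (a * x * a) = r * (a * r * a)⁻¹ := by
        rw [eq_mul_inv_iff_mul_eq, mul_assoc, inv_mul_eq_iff_eq_mul]
        calc a * x * a * (a * r * a) = a * (x * r) * a := by
              simp only [mul_assoc]; rw [← mul_assoc a a, ha, one_mul]
          _ = x * r := hfix
      rw [e]
      exact mul_mem hrc (inv_mem hra)
    have hKF : K ≤ F ⊔ centralizer (L : Set G) := by
      conv_lhs => rw [← hKperf]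
      refine commutator_le.2 fun k hk k' hk' => ?_
      obtain ⟨x, hx, r, hr, rfl, hxa⟩ := hdec k hk
      obtain ⟨y, hy, s, hs, rfl, hya⟩ := hdec k' hk'
      have e : ⁅x * r, y * s⁆ = ⁅x, y⁆ * ⁅r, s⁆ := by
        have c1 : Commute r x := (mem_centralizer_iff.1 hr x hx).symm
        have c2 : Commute r y := (mem_centralizer_iff.1 hr y hy).symm
        have c3 : Commute s x := (mem_centralizer_iff.1 hs x hx).symm
        have c4 : Commute s y := (mem_centralizer_iff.1 hs y hy).symm
        simp only [commutatorElement_def, mul_inv_rev]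
        calc x * r * (y * s) * (r⁻¹ * x⁻¹) * (s⁻¹ * y⁻¹)
            = x * (r * y) * s * r⁻¹ * x⁻¹ * s⁻¹ * y⁻¹ := by group
          _ = x * y * (r * s * r⁻¹ * x⁻¹) * s⁻¹ * y⁻¹ := by rw [c2.eq]; group
          _ = x * y * x⁻¹ * (r * s * r⁻¹ * s⁻¹ * y⁻¹) := by
              rw [((c1.mul_left c3).mul_left c1.inv_left).inv_right.eq]; group
          _ = x * y * x⁻¹ * y⁻¹ * (r * s * r⁻¹ * s⁻¹) := by
              rw [(((c2.mul_left c4).mul_left c2.inv_left).mul_left c4.inv_left).inv_right.eq]; group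
      rw [e]
      refine mul_mem (mem_sup_left (mem_inf.2 ⟨mem_sup_left ?_, mem_centralizer_singleton_iff.2 ?_⟩))
        (mem_sup_right ?_)
      · rw [commutatorElement_def]; exact mul_mem (mul_mem (mul_mem hx hy) (inv_mem hx)) (inv_mem hy)
      · have hx' : a * x * a = x * (x⁻¹ * (a * x * a)) := by group
        have hy' : a * y * a = y * (y⁻¹ * (a * y * a)) := by group
        set z := x⁻¹ * (a * x * a) with hz
        set w := y⁻¹ * (a * y * a) with hw
        have hzL : z ∈ L := mul_mem (inv_mem hx) (haL x hx)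
        have hwL : w ∈ L := mul_mem (inv_mem hy) (haL y hy)
        have e2 : ⁅a * x * a, a * y * a⁆ = ⁅x, y⁆ := by
          rw [hx', hy']
          have c1 : Commute z y := (mem_centralizer_iff.1 hxa y hy).symm
          have c3 : Commute w x := (mem_centralizer_iff.1 hya x hx).symm
          have c4 : Commute w y := (mem_centralizer_iff.1 hya y hy).symm
          have c5 : Commute z w := (mem_centralizer_iff.1 hxa w hwL).symm
          simp only [commutatorElement_def, mul_inv_rev]
          calc x * z * (y * w) * (z⁻¹ * x⁻¹) * (w⁻¹ * y⁻¹)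
              = x * (z * (y * w)) * z⁻¹ * x⁻¹ * w⁻¹ * y⁻¹ := by group
            _ = x * y * (w * x⁻¹) * w⁻¹ * y⁻¹ := by rw [(c1.mul_right c5).eq]; group
            _ = _ := by rw [c3.inv_right.eq]; group
        have e3 : ⁅a * x * a, a * y * a⁆ = a * ⁅x, y⁆ * a := by
          simp only [commutatorElement_def, mul_inv_rev, hainv, mul_assoc]
          simp only [← mul_assoc a a, ha, one_mul]
        calc ⁅x, y⁆ * a = (a * ⁅x, y⁆ * a) * a := by rw [← e3, e2]
          _ = a * ⁅x, y⁆ := by rw [mul_assoc, ha, mul_one]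
      · rw [commutatorElement_def]; exact mul_mem (mul_mem (mul_mem hr hs) (inv_mem hr)) (inv_mem hs)
    have hFn : F ≤ normalizer (centralizer (L : Set G) : Set G) :=
      (hFL.trans le_normalizer).trans ((normal_subgroupOf_iff_le_normalizer (Subgroup.centralizer_le_normalizer _)).1
        (Subgroup.normal_subgroupOf_centralizer_normalizer _))
    rw [← hKperf]
    refine commutator_le.2 fun k hk k' hk' => ?_
    have h1 := hKF hk
    have h2 := hKF hk'
    rw [← SetLike.mem_coe, coe_mul_of_left_le_normalizer_right _ _ hFn] at h1 h2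
    obtain ⟨f, hf, c, hc, rfl⟩ := h1
    obtain ⟨f', hf', c', hc', rfl⟩ := h2
    have c1 : Commute f f' := by
      have h3 : f * c * f' = f' * (f * c) := hcom _ hk f' hf'
      have h4 : c * f' = f' * c := (mem_centralizer_iff.1 hc f' (hFL hf')).symm
      rw [mul_assoc, h4, ← mul_assoc, ← mul_assoc] at h3
      exact mul_right_cancel h3
    have c2 : Commute c f := (mem_centralizer_iff.1 hc f (hFL hf)).symm
    have c3 : Commute c f' := (mem_centralizer_iff.1 hc f' (hFL hf')).symm
    have c4 : Commute c' f := (mem_centralizer_iff.1 hc' f (hFL hf)).symm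
    have c5 : Commute c' f' := (mem_centralizer_iff.1 hc' f' (hFL hf')).symm
    have e : ⁅f * c, f' * c'⁆ = ⁅c, c'⁆ := by
      simp only [commutatorElement_def, mul_inv_rev]
      calc f * c * (f' * c') * (c⁻¹ * f⁻¹) * (c'⁻¹ * f'⁻¹)
          = f * (c * f') * c' * c⁻¹ * f⁻¹ * c'⁻¹ * f'⁻¹ := by group
        _ = f * f' * (c * c' * c⁻¹ * f⁻¹) * c'⁻¹ * f'⁻¹ := by rw [c3.eq]; group
        _ = f * f' * f⁻¹ * (c * c' * c⁻¹ * c'⁻¹ * f'⁻¹) := by
            rw [((c2.mul_left c4).mul_left c2.inv_left).inv_right.eq]; group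
        _ = f * f' * f⁻¹ * f'⁻¹ * (c * c' * c⁻¹ * c'⁻¹) := by
            rw [(((c3.mul_left c5).mul_left c3.inv_left).mul_left c5.inv_left).inv_right.eq]; group
        _ = c * c' * c⁻¹ * c'⁻¹ := by rw [c1.eq]; group
    rw [e, commutatorElement_def]
    exact mul_mem (mul_mem (mul_mem hc hc') (inv_mem hc)) (inv_mem hc')
  · -- `a` moves `L`
    intro k hk
    have hkL : k ∈ normalizer (L : Set G) := comp_normal_in_layer hL (hKE hk)
    refine centralize_of_central hL.2 hkL fun l hl => mem_centralizer_iff.2 fun m hm => ?_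
    have hL'L : L ≤ centralizer (L' : Set G) :=
      commutator_eq_bot_iff_le_centralizer.1 (comp_commute hL hL'c (fun e => hLL e.symm))
    have hla := hL'm l hl
    have hfF : l * (a * l * a) ∈ F := by
      refine mem_inf.2 ⟨mul_mem (mem_sup_left hl) (mem_sup_right hla), mem_centralizer_singleton_iff.2 ?_⟩
      have hcl : a * l * a * l = l * (a * l * a) := mem_centralizer_iff.1 (hL'L hl) _ hla
      calc l * (a * l * a) * a = l * a * l := by simp only [mul_assoc, ha, mul_one]
        _ = a * (a * l * a * l) := by simp only [← mul_assoc, ha, one_mul]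
        _ = _ := by rw [hcl]
    have h1 := hcom k hk _ hfF
    set x := k * l * k⁻¹ with hx
    have hk' : k ∈ normalizer (L' : Set G) := comp_normal_in_layer hL'c (hKE hk)
    set y := k * (a * l * a) * k⁻¹ with hy
    have hyL : y ∈ L' := (mem_normalizer_iff.1 hk' _).1 hla
    have hxy : x * y = l * (a * l * a) := by
      calc x * y = k * (l * (a * l * a)) * k⁻¹ := by rw [hx, hy]; group
        _ = _ := by rw [h1]; group
    have hxL : x ∈ L := (mem_normalizer_iff.1 hkL _).1 hl
    have hml : ∀ z ∈ L', m * z = z * m := fun z hz => (mem_centralizer_iff.1 (hL'L hm) z hz).symm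
    have hlv : Commute l⁻¹ ((a * l * a) * y⁻¹) :=
      (mem_centralizer_iff.1 (hL'L (inv_mem hl)) _ (mul_mem hla (inv_mem hyL))).symm
    have e : x * l⁻¹ = (a * l * a) * y⁻¹ := by
      calc x * l⁻¹ = l * (a * l * a) * y⁻¹ * l⁻¹ := by rw [← hxy]; group
        _ = l * (l⁻¹ * ((a * l * a) * y⁻¹)) := by rw [hlv.eq]; group
        _ = _ := by group
    rw [show k * l * k⁻¹ * l⁻¹ = x * l⁻¹ from rfl, e]
    exact hml _ (mul_mem hla (inv_mem hyL))

/-- Let G be a finite group of component type with the B-property and no nontrivial normal subgroup of odd order. Let a be an involution and K a component of C_G(a) such that (a) |K| is maximal among the orders of components of centralizers of involutions of G, (b) subject to (a) the 2-rank of the centralizer of K in C_G(a) is as large as possible, and (c) K has 2-rank at least 2. If B is an elementary abelian 2-subgroup of that centralizer of the largest possible order, then K is a component of C_G(b) for every non-identity b ∈ B. -/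
theorem result {G : Type*} [Group G] [Finite G] (hO : Cfsg.oddCore G = ⊥) (hB : Cfsg.HasBProperty G) (hct : Cfsg.IsComponentType G) (a : G) (ha : orderOf a = 2) (K : Subgroup G) (hKa : K ≤ Subgroup.centralizer ({a} : Set G)) (hK : Cfsg.IsComponent (K.subgroupOf (Subgroup.centralizer ({a} : Set G)))) (hmax : ∀ y : G, orderOf y = 2 → ∀ K' : Subgroup G, K' ≤ Subgroup.centralizer ({y} : Set G) → Cfsg.IsComponent (K'.subgroupOf (Subgroup.centralizer ({y} : Set G))) → Nat.card ↥K' ≤ Nat.card ↥K ∧ (Nat.card ↥K' = Nat.card ↥K → ∀ k : ℕ, Cfsg.PRankLE 2 k ↥(Subgroup.centralizer ({a} : Set G) ⊓ Subgroup.centralizer (K : Set G)) → Cfsg.PRankLE 2 k ↥(Subgroup.centralizer ({y} : Set G) ⊓ Subgroup.centralizer (K' : Set G)))) (hrk : ¬ Cfsg.PRankLE 2 1 ↥K) (B : Subgroup G) (hBle : B ≤ Subgroup.centralizer ({a} : Set G) ⊓ Subgroup.centralizer (K : Set G)) (hBel : Cfsg.IsElementaryAbelian 2 B) (hBmax : ∀ B' : Subgroup G, B' ≤ Subgroup.centralizer ({a} : Set G) ⊓ Subgroup.centralizer (K : Set G) →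 Cfsg.IsElementaryAbelian 2 B' → Nat.card ↥B' ≤ Nat.card ↥B) (b : G) (hb : b ∈ B) (hb1 : b ≠ 1) : K ≤ Subgroup.centralizer ({b} : Set G) ∧ Cfsg.IsComponent (K.subgroupOf (Subgroup.centralizer ({b} : Set G))) := by
  haveI : Fact (Nat.Prime 2) := ⟨Nat.prime_two⟩
  have _hct := hct
  rw [Cfsg.PRankLE] at hrk
  push Not at hrk
  obtain ⟨A, hAc, hA2, hAcard⟩ := hrk
  rw [pow_one] at hAcard
  have hAp : IsPGroup 2 ↥A := fun x => ⟨1, Subtype.ext (by simpa using hA2 x x.2)⟩
  have hA4 : 4 ≤ Nat.card ↥A := by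
    obtain ⟨n, hn⟩ := IsPGroup.iff_card.1 hAp
    rw [hn] at hAcard ⊢
    rcases n with _ | _ | n
    · simp at hAcard
    · simp at hAcard
    · calc 4 = 2 ^ 2 := by norm_num
        _ ≤ _ := Nat.pow_le_pow_right (by norm_num) (by omega)
  have hKeven : 2 ∣ Nat.card ↥K := by
    obtain ⟨n, hn⟩ := IsPGroup.iff_card.1 hAp
    refine dvd_trans ?_ (card_subgroup_dvd_card A)
    rcases n with _ | n
    · rw [hn] at hA4; simp at hA4
    · exact hn ▸ dvd_pow_self 2 (by omega)
  have ha2 : a * a = 1 := by rw [← pow_two, ← ha]; exact pow_orderOf_eq_one a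
  have hainv : a⁻¹ = a := inv_eq_of_mul_eq_one_right ha2
  have hKCa : ∀ x ∈ K, x * a = a * x := fun x hx => mem_centralizer_singleton_iff.1 (hKa hx)
  have hbK : ∀ x ∈ K, x * b = b * x := fun x hx => mem_centralizer_iff.1 (hBle hb).2 x hx
  have hKb : K ≤ centralizer ({b} : Set G) := fun x hx => mem_centralizer_singleton_iff.2 (hbK x hx)
  refine ⟨hKb, ?_⟩
  have hb2 : b * b = 1 := by rw [← pow_two]; exact hBel.2 b hb
  have hob : orderOf b = 2 := orderOf_eq_prime (hBel.2 b hb) hb1
  haveI := hBel.1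
  -- maximality puts `a` in `B`
  have hBcomm : ∀ x ∈ B, ∀ y ∈ B, x * y = y * x := fun x hx y hy =>
    congrArg Subtype.val (mul_comm' (⟨x, hx⟩ : ↥B) ⟨y, hy⟩)
  have haB : a ∈ B := by
    have hBa : ∀ x ∈ B, x * a = a * x := fun x hx => mem_centralizer_singleton_iff.1 (hBle hx).1
    have hle : B ⊔ zpowers a ≤ centralizer ({a} : Set G) ⊓ centralizer (K : Set G) := by
      refine sup_le hBle (zpowers_le.2 (mem_inf.2 ⟨mem_centralizer_singleton_iff.2 rfl, mem_centralizer_iff.2 hKCa⟩))
    have hel : Cfsg.IsElementaryAbelian 2 (B ⊔ zpowers a) := by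
      have hcl : B ⊔ zpowers a = closure ((B : Set G) ∪ {a}) := by
        rw [Subgroup.closure_union, closure_eq, zpowers_eq_closure]
      have hgen : ∀ x ∈ (B : Set G) ∪ {a}, ∀ y ∈ (B : Set G) ∪ {a}, x * y = y * x := by
        rintro x (hx | rfl) y (hy | rfl)
        · exact hBcomm x hx y hy
        · exact hBa x hx
        · exact (hBa y hy).symm
        · rfl
      haveI := isMulCommutative_closure hgen
      refine ⟨hcl ▸ this, fun x hx => ?_⟩
      rw [hcl] at hx
      induction hx using closure_induction with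
      | mem x hx =>
        rcases hx with hx | rfl
        · exact hBel.2 x hx
        · rw [pow_two]; exact ha2
      | one => simp
      | mul x y hxc hyc hx hy =>
        rw [Commute.mul_pow (congrArg Subtype.val (mul_comm' (⟨x, hxc⟩ : ↥(closure ((B : Set G) ∪ {a})))
          ⟨y, hyc⟩)), hx, hy, one_mul]
      | inv x _ hx => rw [inv_pow, hx, inv_one]
    have h1 := hBmax _ hle hel
    have h2 : B = B ⊔ zpowers a := eq_of_le_of_card_ge le_sup_left h1
    rw [h2]; exact mem_sup_right (mem_zpowers a)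
  set Y : Subgroup G := centralizer ({b} : Set G) with hY
  have haY : a ∈ Y := mem_centralizer_singleton_iff.2 (hBcomm a haB b hb)
  set a' : ↥Y := ⟨a, haY⟩ with ha'
  set K' := K.subgroupOf Y with hK'
  have hK'a : K' ≤ centralizer ({a'} : Set ↥Y) := fun x hx =>
    mem_centralizer_singleton_iff.2 (Subtype.ext (hKCa x hx))
  let ι : ↥(centralizer ({a'} : Set ↥Y)) →* ↥(centralizer ({a} : Set G)) :=
    { toFun := fun x => ⟨((x : ↥Y) : G), mem_centralizer_singleton_iff.2
        (congrArg Subtype.val (mem_centralizer_singleton_iff.1 x.2))⟩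
      map_one' := rfl
      map_mul' := fun _ _ => rfl }
  have hKq : Cfsg.IsQuasisimple ↥K := (qs_congr (subgroupOfEquivOfLe hKa)).1 hK.2
  have hK'c : Cfsg.IsComponent (K'.subgroupOf (centralizer ({a'} : Set ↥Y))) :=
    ⟨hK.1.comap ι, (qs_congr ((subgroupOfEquivOfLe hK'a).trans (subgroupOfEquivOfLe hKb))).2 hKq⟩
  have hKlayer : K' ≤ Cfsg.layer ↥Y := by
    have hp : Cfsg.IsPComponent 2 (K'.subgroupOf (centralizer ({a'} : Set ↥Y))) := by
      refine pcomp_of_comp hK'c ?_
      rw [Nat.card_congr ((subgroupOfEquivOfLe hK'a).trans (subgroupOfEquivOfLe hKb)).toEquiv]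
      exact hKeven
    have hT : IsPGroup 2 ↥(zpowers a') := IsPGroup.of_card (n := 1) (by
      rw [Nat.card_zpowers, ← orderOf_coe, pow_one]; exact ha)
    have hc : centralizer ((zpowers a' : Subgroup ↥Y) : Set ↥Y) = centralizer ({a'} : Set ↥Y) := by
      rw [zpowers_eq_closure, centralizer_closure]
    have hbal := Cfsg.Agent.Lib.LocalChar.pLayer_centralizer_le hT
    rw [hc] at hbal
    have h1 : K' ≤ Cfsg.pLayer 2 ↥Y := by
      have h2 := (map_mono (f := (centralizer ({a'} : Set ↥Y)).subtype) (le_sSup hp)).trans hbal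
      rwa [map_subgroupOf_eq_of_le hK'a] at h2
    refine h1.trans (sSup_le fun M hM => comp_le_layer ⟨hM.1, (pcomp_quasisimple_iff hM).2 ?_⟩)
    have h3 := hB b hob
    have h4 : ⁅M, Cfsg.pPrimeCore 2 ↥Y⁆.map Y.subtype ≤ Cfsg.oddCore G :=
      (map_mono (commutator_mono (le_sSup hM) le_rfl)).trans h3
    rw [hO, le_bot_iff] at h4
    exact (map_eq_bot_iff_of_injective _ Y.subtype_injective).1 h4
  obtain ⟨L, hL, hKL, hKM⟩ := exists_comp_sup (Subtype.ext ha2 : a' * a' = 1) hKlayer hK'a hK'c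
  set LG := L.map Y.subtype with hLG
  have hLGY : LG ≤ Y := map_subtype_le L
  have hLGc : Cfsg.IsComponent (LG.subgroupOf Y) := by
    rw [hLG, subgroupOf, comap_map_eq_self_of_injective Y.subtype_injective]; exact hL
  have hmaxL := hmax b hob LG hLGY hLGc
  have hcardL : Nat.card ↥LG = Nat.card ↥L := card_map_of_injective Y.subtype_injective
  have hcardK : Nat.card ↥K' = Nat.card ↥K := Nat.card_congr (subgroupOfEquivOfLe hKb).toEquiv
  set L' := L.map (MulAut.conj a').toMonoidHom with hL'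
  by_cases hLL : L' = L
  · rw [hLL, sup_idem] at hKM
    have h1 : K' ≤ L := hKM.trans inf_le_left
    have h2 : K' = L := eq_of_le_of_card_ge h1 (by rw [hcardK, ← hcardL]; exact hmaxL.1)
    show Cfsg.IsComponent K'
    rw [h2]; exact hL
  exfalso
  have hainv' : a'⁻¹ = a' := Subtype.ext hainv
  have ha'2 : a' * a' = 1 := Subtype.ext ha2
  have hL'c : Cfsg.IsComponent L' := isComponent_map_equiv hL (MulAut.conj a')
  have hL'm : ∀ l ∈ L, a' * l * a' ∈ L' := fun l hl => ⟨l, hl, by simp [hainv']⟩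
  have hL'L : L ≤ centralizer (L' : Set ↥Y) :=
    commutator_eq_bot_iff_le_centralizer.1 (comp_commute hL hL'c (fun e => hLL e.symm))
  have hcl : ∀ l ∈ L, ∀ m ∈ L', l * m = m * l := fun l hl m hm => (mem_centralizer_iff.1 (hL'L hl) m hm).symm
  -- the diagonal map
  let f : ↥L →* ↥Y :=
    { toFun := fun l => (l : ↥Y) * (a' * l * a')
      map_one' := by simp [ha'2]
      map_mul' := fun l m => by
        have h1 := hcl (m : ↥Y) m.2 _ (hL'm (l : ↥Y) l.2)
        calc ((l * m : ↥L) : ↥Y) * (a' * ((l * m : ↥L) : ↥Y) * a')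
            = (l : ↥Y) * ((m : ↥Y) * (a' * (l : ↥Y) * a')) * (a' * (m : ↥Y) * a') := by
              simp only [Subgroup.coe_mul, mul_assoc]; rw [← mul_assoc a' a', ha'2, one_mul]
          _ = _ := by rw [h1]; group }
  have hKR : K' ≤ f.range := by
    have hperf : ⁅K', K'⁆ = K' := isQuasisimple_perfect ((qs_congr (subgroupOfEquivOfLe hKb)).2 hKq)
    rw [← hperf]
    have hdec : ∀ k ∈ K', ∃ l : ↥L, ∃ z, z ∈ L ∧ z ∈ L' ∧ k = f l * z := by
      intro k hk
      have hk1 := (mem_inf.1 (hKM hk)).1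
      rw [← SetLike.mem_coe, coe_mul_of_left_le_normalizer_right _ _
        (hL'L.trans (Subgroup.centralizer_le_normalizer _))] at hk1
      obtain ⟨l, hl, m, hm, rfl⟩ := hk1
      have hfix : a' * (l * m) * a' = l * m := by
        rw [← mem_centralizer_singleton_iff.1 (hK'a hk), mul_assoc, ha'2, mul_one]
      have hm' : a' * m * a' ∈ L := by
        obtain ⟨m0, hm0, rfl⟩ := hm
        simp [hainv', mul_assoc, ha'2]
        simpa [← mul_assoc, ha'2] using hm0
      refine ⟨⟨l, hl⟩, (a' * l * a')⁻¹ * m, ?_, mul_mem (inv_mem (hL'm l hl)) hm, ?_⟩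
      · have e : l⁻¹ * (a' * m * a') = (a' * l * a')⁻¹ * m := by
          have h0 : (a' * m * a') * (a' * l * a') = l * m := by
            rw [hcl _ hm' _ (hL'm l hl)]
            refine Eq.trans ?_ hfix
            simp only [mul_assoc]; rw [← mul_assoc a' a', ha'2, one_mul]
          have e0 : l⁻¹ * (a' * m * a') = m * (a' * l * a')⁻¹ := by
            rw [eq_mul_inv_iff_mul_eq, mul_assoc, h0]; group
          have hzB := hcl _ (mul_mem (inv_mem hl) hm') _ (hL'm l hl)
          calc l⁻¹ * (a' * m * a') = (a' * l * a')⁻¹ * (l⁻¹ * (a' * m * a') * (a' * l * a')) := by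
                rw [hzB]; group
            _ = _ := by rw [e0]; group
        rw [← e]; exact mul_mem (inv_mem hl) hm'
      · show _ = l * (a' * l * a') * ((a' * l * a')⁻¹ * m)
        group
    refine commutator_le.2 fun k hk k' hk' => ?_
    obtain ⟨l, z, hz, hz', rfl⟩ := hdec k hk
    obtain ⟨m, w, hw, hw', rfl⟩ := hdec k' hk'
    have hcen : ∀ u : ↥L, ∀ v, v ∈ L → v ∈ L' → Commute v (f u) := fun u v hv hv' =>
      Commute.mul_right (hcl _ u.2 v hv').symm (hcl v hv _ (hL'm _ u.2))
    refine ⟨⁅l, m⁆, ?_⟩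
    rw [map_commutatorElement]
    have c5 : Commute z w := hcl z hz w hw'
    simp only [commutatorElement_def, mul_inv_rev]
    symm
    calc f l * z * (f m * w) * (z⁻¹ * (f l)⁻¹) * (w⁻¹ * (f m)⁻¹)
        = f l * (z * (f m * w)) * z⁻¹ * (f l)⁻¹ * w⁻¹ * (f m)⁻¹ := by group
      _ = f l * f m * (w * (f l)⁻¹) * w⁻¹ * (f m)⁻¹ := by
          rw [((hcen m z hz hz').mul_right c5).eq]; group
      _ = _ := by rw [(hcen l w hw hw').inv_right.eq]; group
  have hle1 : Nat.card ↥f.range ≤ Nat.card ↥L :=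
    Nat.card_le_card_of_surjective f.rangeRestrict f.rangeRestrict_surjective
  have hle2 : Nat.card ↥K' ≤ Nat.card ↥f.range := Subgroup.card_le_of_le hKR
  have heqK : Nat.card ↥LG = Nat.card ↥K := le_antisymm hmaxL.1 (by omega)
  have hfinj : Function.Injective f := by
    have h : Function.Bijective f.rangeRestrict := by
      rw [Nat.bijective_iff_surjective_and_card]
      exact ⟨f.rangeRestrict_surjective, by omega⟩
    exact fun x y e => h.1 (Subtype.ext e)
  have hRK : f.range = K' := (eq_of_le_of_card_ge hKR (by omega)).symm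
  -- `B₀`
  have hsplit : ∀ t : ↥Y, (t : G) ∈ B →
      L.map (MulAut.conj t).toMonoidHom = L ∨ L.map (MulAut.conj t).toMonoidHom = L' := by
    intro t ht
    by_contra h
    push Not at h
    set Lt := L.map (MulAut.conj t).toMonoidHom
    have hLt : Cfsg.IsComponent Lt := isComponent_map_equiv hL (MulAut.conj t)
    have h1 : K' ≤ centralizer (Lt : Set ↥Y) := (hKM.trans inf_le_left).trans (sup_le
      (commutator_eq_bot_iff_le_centralizer.1 (comp_commute hL hLt (fun e => h.1 e.symm)))
      (commutator_eq_bot_iff_le_centralizer.1 (comp_commute hL'c hLt (fun e => h.2 e.symm))))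
    apply hKL
    intro k hk
    refine mem_centralizer_iff.2 fun l hl => ?_
    have h2 := mem_centralizer_iff.1 (h1 hk) (t * l * t⁻¹) ⟨l, hl, rfl⟩
    have hkt : k * t = t * k := Subtype.ext (mem_centralizer_iff.1 (hBle ht).2 _ hk)
    apply mul_left_cancel (a := t)
    calc t * (l * k) = (t * l * t⁻¹) * (t * k) := by group
      _ = (t * l * t⁻¹) * (k * t) := by rw [hkt]
      _ = k * (t * l * t⁻¹) * t := by rw [← mul_assoc, h2]
      _ = (k * t) * l := by group
      _ = t * (k * l) := by rw [hkt]; group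
  set B0 : Subgroup ↥Y := B.subgroupOf Y ⊓ normalizer (L : Set ↥Y) with hB0
  have hBY : B ≤ Y := fun x hx => mem_centralizer_singleton_iff.2 (hBcomm x hx b hb)
  have hB0L : ∀ t ∈ B0, ∀ l ∈ L, t * l = l * t := by
    intro t ht l hl
    obtain ⟨htB, htN⟩ := mem_inf.1 ht
    have hat : a' * t = t * a' := Subtype.ext (hBcomm a haB t htB)
    have hl' : t * l * t⁻¹ ∈ L := (mem_normalizer_iff.1 htN l).1 hl
    have h1 : f ⟨t * l * t⁻¹, hl'⟩ = f ⟨l, hl⟩ := by
      show t * l * t⁻¹ * (a' * (t * l * t⁻¹) * a') = l * (a' * l * a')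
      have hfl : f ⟨l, hl⟩ ∈ K' := hRK ▸ ⟨_, rfl⟩
      have h2 : f ⟨l, hl⟩ * t = t * f ⟨l, hl⟩ := Subtype.ext (mem_centralizer_iff.1 (hBle htB).2 _ hfl)
      have hat' : t⁻¹ * a' = a' * t⁻¹ :=
        ((show Commute a' t from hat).inv_right).symm.eq
      calc t * l * t⁻¹ * (a' * (t * l * t⁻¹) * a')
          = t * l * (t⁻¹ * a') * t * l * (t⁻¹ * a') := by group
        _ = t * (l * (a' * l * a')) * t⁻¹ := by rw [hat']; group
        _ = _ := by rw [show l * (a' * l * a') = f ⟨l, hl⟩ from rfl, ← h2]; group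
    have h3 := congrArg Subtype.val (hfinj h1)
    exact mul_inv_eq_iff_eq_mul.1 h3
  have hB0L' : ∀ t ∈ B0, ∀ m ∈ L', t * m = m * t := by
    rintro t ht _ ⟨l, hl, rfl⟩
    have h1 : Commute t l := hB0L t ht l hl
    have h2 : Commute t a' := (Subtype.ext (hBcomm _ (mem_inf.1 ht).1 a haB) : t * a' = a' * t)
    exact (h2.mul_right h1).mul_right h2.inv_right
  have hBcard : Nat.card ↥B ≤ 2 * Nat.card ↥B0 := by
    rw [← Nat.card_congr (subgroupOfEquivOfLe hBY).toEquiv]
    set B' := B.subgroupOf Y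
    have hsub : (B' : Set ↥Y) ⊆ (B0 : Set ↥Y) ∪ (fun t => a' * t) '' (B0 : Set ↥Y) := by
      intro t ht
      rcases hsplit t ht with h | h
      · exact Or.inl (mem_inf.2 ⟨ht, mem_normalizer_of_map_conj_eq h⟩)
      · refine Or.inr ⟨a' * t, mem_inf.2 ⟨mul_mem (show (a' : ↥Y) ∈ B' from haB) ht, ?_⟩, ?_⟩
        · refine mem_normalizer_of_map_conj_eq ?_
          rw [← Cfsg.Agent.Lib.LocalFusion.map_conj_mul, h, hL', Cfsg.Agent.Lib.LocalFusion.map_conj_mul,
            ha'2, Cfsg.Agent.Lib.LocalFusion.map_conj_one]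
        · show a' * (a' * t) = t
          rw [← mul_assoc, ha'2, one_mul]
    calc Nat.card ↥B' = (B' : Set ↥Y).ncard := (Nat.card_coe_set_eq _)
      _ ≤ _ := Set.ncard_le_ncard hsub
      _ ≤ _ := Set.ncard_union_le _ _
      _ ≤ (B0 : Set ↥Y).ncard + (B0 : Set ↥Y).ncard := Nat.add_le_add_left (Set.ncard_image_le (Set.toFinite _)) _
      _ = _ := by rw [← Nat.card_coe_set_eq]; simp [two_mul]
  -- the four-group inside `L'`
  set A1 : Subgroup ↥L := ((A.map K.subtype).subgroupOf Y).comap f with hA1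
  set E : Subgroup ↥Y := (A1.map L.subtype).map (MulAut.conj a').toMonoidHom with hE
  have hEL : E ≤ L' := map_mono (map_subtype_le _)
  have hA1mem : ∀ x : ↥L, x ∈ A1 → ∃ y ∈ A, (y : G) = (f x : G) := fun x ⟨y, hy, e⟩ => ⟨y, hy, e⟩
  have hA1card : Nat.card ↥A ≤ Nat.card ↥A1 := by
    have hle : (A.map K.subtype).subgroupOf Y ≤ f.range := by
      rw [hRK]; exact comap_mono (map_subtype_le A)
    rw [← card_map_of_injective (f := f) hfinj, hA1, map_comap_eq_self hle,
      Nat.card_congr (subgroupOfEquivOfLe ((map_subtype_le A).trans hKb)).toEquiv,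
      card_map_of_injective K.subtype_injective]
  have hEcard : Nat.card ↥E = Nat.card ↥A1 := by
    rw [hE, card_map_of_injective (MulAut.conj a').injective, card_map_of_injective L.subtype_injective]
  have hEcomm : ∀ x ∈ E, ∀ y ∈ E, x * y = y * x := by
    rintro _ ⟨_, ⟨u, hu, rfl⟩, rfl⟩ _ ⟨_, ⟨v, hv, rfl⟩, rfl⟩
    rw [← map_mul, ← map_mul, ← map_mul, ← map_mul]
    congr 2
    apply hfinj
    obtain ⟨p, hp, hpe⟩ := hA1mem u hu
    obtain ⟨r, hr, hre⟩ := hA1mem v hv
    refine Subtype.ext ?_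
    rw [map_mul, map_mul, Subgroup.coe_mul, Subgroup.coe_mul, ← hpe, ← hre]
    exact congrArg Subtype.val (congrArg Subtype.val (mul_comm' (⟨p, hp⟩ : ↥A) ⟨r, hr⟩))
  have hE2 : ∀ x ∈ E, x ^ 2 = 1 := by
    rintro _ ⟨_, ⟨u, hu, rfl⟩, rfl⟩
    obtain ⟨p, hp, hpe⟩ := hA1mem u hu
    have : u ^ 2 = 1 := hfinj (Subtype.ext (by
      rw [map_pow, map_one, SubmonoidClass.coe_pow, ← hpe]
      simpa using congrArg Subtype.val (hA2 p hp)))
    rw [← map_pow, ← map_pow, this, map_one, map_one]
  have hBE : ∀ t ∈ B0, ∀ m ∈ E, t * m = m * t := fun t ht m hm => hB0L' t ht m (hEL hm)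
  have hinf : B0 ⊓ E = ⊥ := by
    rw [eq_bot_iff]
    intro x hx
    obtain ⟨⟨_, ⟨u, hu, rfl⟩, hx'⟩, hxB⟩ :=
      (⟨(mem_inf.1 hx).2, (mem_inf.1 hx).1⟩ : x ∈ E ∧ x ∈ B0)
    have h1 : a' * x * a' = x := by
      have : a' * x = x * a' := Subtype.ext (hBcomm a haB _ (mem_inf.1 hxB).1)
      rw [this, mul_assoc, ha'2, mul_one]
    have h2 : (u : ↥Y) = x := by
      have : a' * (u : ↥Y) * a' = x := by rw [← hx']; simp [hainv']
      rw [← this] at h1 ⊢
      calc (u : ↥Y) = a' * (a' * (u : ↥Y) * a') * a' := by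
            simp only [← mul_assoc, ha'2, one_mul]; rw [mul_assoc, ha'2, mul_one]
        _ = _ := h1
    have h3 : f u = 1 := by
      show (u : ↥Y) * (a' * u * a') = 1
      rw [h2, h1]; exact Subtype.ext (by rw [Subgroup.coe_mul, ← pow_two]; exact hBel.2 _ (mem_inf.1 hxB).1)
    rw [hfinj.eq_iff' (map_one f)] at h3
    rw [mem_bot, ← h2, h3]; rfl
  have hnorm : E ≤ normalizer (B0 : Set ↥Y) :=
    (show E ≤ centralizer (B0 : Set ↥Y) from fun m hm => mem_centralizer_iff.2 fun t ht => hBE t ht m hm).trans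
      (Subgroup.centralizer_le_normalizer _)
  have hsupcard : Nat.card ↥(B0 ⊔ E) = Nat.card ↥B0 * Nat.card ↥E := by
    have := card_sup_mul_card_inf_eq hnorm
    rwa [hinf, card_bot, mul_one] at this
  obtain ⟨k, hk⟩ := IsPGroup.iff_card.1 (show IsPGroup 2 ↥B from fun x => ⟨1, Subtype.ext (by simpa using hBel.2 x x.2)⟩)
  have hrank : Cfsg.PRankLE 2 k ↥(centralizer ({a} : Set G) ⊓ centralizer (K : Set G)) := by
    intro W hW hW2
    rw [← hk, ← card_map_of_injective (centralizer ({a} : Set G) ⊓ centralizer (K : Set G)).subtype_injective]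
    refine hBmax _ (map_subtype_le _) ⟨?_, ?_⟩
    · haveI := hW; exact Subgroup.map_isMulCommutative W _
    · rintro _ ⟨w, hw, rfl⟩
      rw [← map_pow, hW2 w hw, map_one]
  have hrankb := hmaxL.2 heqK k hrank
  set S := centralizer ({b} : Set G) ⊓ centralizer (LG : Set G) with hS
  have hW : (B0 ⊔ E).map Y.subtype ≤ S := by
    refine le_inf (map_subtype_le _) ?_
    rw [map_le_iff_le_comap]
    refine sup_le (fun t ht => ?_) fun m hm => ?_
    · refine mem_centralizer_iff.2 ?_
      rintro _ ⟨l, hl, rfl⟩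
      exact congrArg Subtype.val (hB0L t ht l hl).symm
    · refine mem_centralizer_iff.2 ?_
      rintro _ ⟨l, hl, rfl⟩
      exact congrArg Subtype.val (hcl l hl m (hEL hm))
  have hgen : ∀ x ∈ (B0 : Set ↥Y) ∪ E, ∀ y ∈ (B0 : Set ↥Y) ∪ E, x * y = y * x := by
    rintro x (hx | hx) y (hy | hy)
    · exact Subtype.ext (hBcomm _ (mem_inf.1 hx).1 _ (mem_inf.1 hy).1)
    · exact hBE x hx y hy
    · exact (hBE y hy x hx).symm
    · exact hEcomm x hx y hy
  haveI hcomm := isMulCommutative_closure hgen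
  have hcl2 : B0 ⊔ E = closure ((B0 : Set ↥Y) ∪ E) := by rw [Subgroup.closure_union, closure_eq, closure_eq]
  have h2e : ∀ x ∈ B0 ⊔ E, x ^ 2 = 1 := by
    intro x hx
    rw [← SetLike.mem_coe, coe_mul_of_right_le_normalizer_left _ _ hnorm] at hx
    obtain ⟨t, ht, m, hm, rfl⟩ := hx
    rw [Commute.mul_pow (hBE t ht m hm), hE2 m hm,
      show t ^ 2 = 1 from Subtype.ext (hBel.2 _ (mem_inf.1 ht).1), one_mul]
  haveI : IsMulCommutative ↥(B0 ⊔ E) := hcl2 ▸ hcomm
  haveI : IsMulCommutative ↥((B0 ⊔ E).map Y.subtype) := Subgroup.map_isMulCommutative _ _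
  have hfin := hrankb (((B0 ⊔ E).map Y.subtype).subgroupOf S) inferInstance (fun x hx => by
    obtain ⟨w, hw, e⟩ := hx
    refine Subtype.ext ?_
    rw [SubmonoidClass.coe_pow, show ((x : ↥S) : G) = (w : G) from e.symm, OneMemClass.coe_one]
    exact congrArg Subtype.val (h2e w hw))
  rw [Nat.card_congr (subgroupOfEquivOfLe hW).toEquiv, card_map_of_injective Y.subtype_injective, hsupcard,
    hEcard, ← hk] at hfin
  have h4 : Nat.card ↥B0 * 4 ≤ Nat.card ↥B0 * Nat.card ↥A1 :=
    Nat.mul_le_mul_left _ (hA4.trans hA1card)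
  have := Nat.card_pos (α := ↥B)
  omega

end Cfsg.Agent.S1305
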