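import Cfsg.Statements.S1306
import Cfsg.Agent.Lib.Components.Bender
-- import your own Cfsg.Agent.* helpers here

set_option autoImplicit false
open Cfsg

namespace Cfsg.Agent.S1306
open Subgroup Cfsg.Agent.Lib.Components
open scoped commutatorElement


/-- Let G be finite, x an involution and L ≤ C_G(x) a component of C_G(x). Suppose L is a component of C_G(y) for every involution y ∈ C_G(L), and ⁅L, g L g⁻¹⁆ ≠ 1 whenever g L g⁻¹ ≠ L. Then L is a standard subgroup of G. -/
theorem result {G : Type*} [Group G] [Finite G] (x : G) (hx : orderOf x = 2) (L : Subgroup G) (hLx : L ≤ Subgroup.centralizer ({x} : Set G)) (hL : Cfsg.IsComponent (L.subgroupOf (Subgroup.centralizer ({x} : Set G)))) (hne : ∀ y : G, orderOf y = 2 → y ∈ Subgroup.centralizer (L : Set G) → L ≤ Subgroup.centralizer ({y} : Set G) ∧ Cfsg.IsComponent (L.subgroupOf (Subgroup.centralizer ({y} : Set G)))) (hnc : ∀ g : G, L.map (MulAut.conj g).toMonoidHom ≠ L → ⁅L, L.map (MulAut.conj g).toMonoidHom⁆ ≠ ⊥) : Cfsg.IsStandardSubgroup L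 := by
  have key : ∀ g y : G, orderOf y = 2 → y ∈ centralizer (L : Set G) →
      g⁻¹ * y * g ∈ centralizer (L : Set G) → L.map (MulAut.conj g).toMonoidHom = L := by
    intro g y hy hyL hyg
    by_contra hg
    obtain ⟨hLy, hcy⟩ := hne y hy hyL
    have ho : orderOf (g⁻¹ * y * g) = 2 := by
      rw [← hy]
      simpa using MulEquiv.orderOf_eq (MulAut.conj g⁻¹) y
    obtain ⟨hLy', hcy'⟩ := hne _ ho hyg
    have hC : (centralizer ({g⁻¹ * y * g} : Set G)).map (MulAut.conj g).toMonoidHom =
        centralizer ({y} : Set G) := by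
      ext a
      rw [mem_map, mem_centralizer_singleton_iff]
      constructor
      · rintro ⟨b, hb, rfl⟩
        rw [mem_centralizer_singleton_iff] at hb
        change g * b * g⁻¹ * y = y * (g * b * g⁻¹)
        calc g * b * g⁻¹ * y = g * (b * (g⁻¹ * y * g)) * g⁻¹ := by group
          _ = g * ((g⁻¹ * y * g) * b) * g⁻¹ := by rw [hb]
          _ = y * (g * b * g⁻¹) := by group
      · intro ha
        refine ⟨g⁻¹ * a * g, mem_centralizer_singleton_iff.2 ?_, by simp [mul_assoc]⟩
        calc g⁻¹ * a * g * (g⁻¹ * y * g) = g⁻¹ * (a * y) * g := by group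
          _ = g⁻¹ * (y * a) * g := by rw [ha]
          _ = g⁻¹ * y * g * (g⁻¹ * a * g) := by group
    let e : ↥(centralizer ({g⁻¹ * y * g} : Set G)) ≃* ↥(centralizer ({y} : Set G)) :=
      ((MulAut.conj g).subgroupMap (centralizer ({g⁻¹ * y * g} : Set G))).trans
        (MulEquiv.subgroupCongr hC)
    have hLg : L.map (MulAut.conj g).toMonoidHom ≤ centralizer ({y} : Set G) :=
      hC ▸ map_mono hLy'
    have he : (L.subgroupOf (centralizer ({g⁻¹ * y * g} : Set G))).map e.toMonoidHom =
        (L.map (MulAut.conj g).toMonoidHom).subgroupOf (centralizer ({y} : Set G)) := by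
      ext a
      constructor
      · rintro ⟨b, hb, rfl⟩
        exact mem_map_of_mem _ (mem_subgroupOf.1 hb)
      · intro ha
        obtain ⟨b, hb, hba⟩ := mem_map.1 (mem_subgroupOf.1 ha)
        exact ⟨⟨b, hLy' hb⟩, hb, Subtype.ext hba⟩
    have h1 := isComponent_map_equiv hcy' e
    rw [he] at h1
    have h2 : L.subgroupOf (centralizer ({y} : Set G)) ≠
        (L.map (MulAut.conj g).toMonoidHom).subgroupOf (centralizer ({y} : Set G)) := fun h => hg (by
      rw [← map_subgroupOf_eq_of_le hLg, ← h, map_subgroupOf_eq_of_le hLy])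
    have h3 := congrArg (Subgroup.map (centralizer ({y} : Set G)).subtype) (comp_commute hcy h1 h2)
    rw [map_commutator, Subgroup.map_bot, map_subgroupOf_eq_of_le hLy,
      map_subgroupOf_eq_of_le hLg] at h3
    exact hnc g hg h3
  have hxL : x ∈ centralizer (L : Set G) := mem_centralizer_iff.2 fun l hl =>
    mem_centralizer_singleton_iff.1 (hLx hl)
  have hnorm : ∀ g : G, L.map (MulAut.conj g).toMonoidHom = L →
      g ∈ normalizer (centralizer (L : Set G) : Set G) := by
    intro g hg
    have hgn := mem_normalizer_iff.1 (mem_normalizer_of_map_conj_eq hg)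
    rw [mem_normalizer_iff]
    intro c
    simp only [mem_centralizer_iff, SetLike.mem_coe]
    constructor
    · intro hc l hl
      have h1 := hc (g⁻¹ * l * g) ((hgn _).2 (by simpa [mul_assoc] using hl))
      calc l * (g * c * g⁻¹) = g * ((g⁻¹ * l * g) * c) * g⁻¹ := by group
        _ = g * (c * (g⁻¹ * l * g)) * g⁻¹ := by rw [h1]
        _ = g * c * g⁻¹ * l := by group
    · intro hc l hl
      have h1 := hc _ ((hgn l).1 hl)
      calc l * c = g⁻¹ * ((g * l * g⁻¹) * (g * c * g⁻¹)) * g := by group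
        _ = g⁻¹ * ((g * c * g⁻¹) * (g * l * g⁻¹)) * g := by rw [h1]
        _ = c * l := by group
  refine ⟨(qs_congr (subgroupOfEquivOfLe hLx)).1 hL.2, ⟨?_, ?_⟩, hnc, ?_⟩
  · rw [even_iff_two_dvd, ← hx]
    exact Subgroup.orderOf_dvd_natCard _ hxL
  · intro g hg
    rw [← Nat.not_even_iff_odd, even_iff_two_dvd]
    intro h2
    obtain ⟨y, hy⟩ := exists_prime_orderOf_dvd_card' 2 h2
    obtain ⟨hy1, b, hb, hby⟩ := Subgroup.mem_inf.1 y.2
    refine hg (hnorm g (key g y (by rw [Subgroup.orderOf_coe]; exact hy) hy1 ?_))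
    have hb' : g * b * g⁻¹ = (y : G) := hby
    have : g⁻¹ * (y : G) * g = b := by rw [← hb']; group
    rwa [this]
  · refine le_antisymm (fun g hg => hnorm g (map_conj_eq_of_mem_normalizer hg)) fun g hg => ?_
    refine mem_normalizer_of_map_conj_eq (key g (g * x * g⁻¹) ?_ ((mem_normalizer_iff.1 hg x).1 hxL) ?_)
    · rw [← hx]; exact MulEquiv.orderOf_eq (MulAut.conj g) x
    · have : g⁻¹ * (g * x * g⁻¹) * g = x := by group
      rwa [this]

end Cfsg.Agent.S1306
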