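import Cfsg.Statements.S1307
import Mathlib
import Cfsg.Agent.Lib.Involution.ZStar
import Cfsg.Agent.Lib.UniqueInvolution
import Cfsg.Agent.Lib.Components.Basic
import Cfsg.Agent.Lib.Components.Cores

set_option autoImplicit false
open Cfsg
set_option linter.style.haveILetI false
open scoped commutatorElement

namespace Cfsg.Agent.S1307

/-- Let G be finite, x an involution and L ≤ C_G(x) a component of C_G(x) of even order and 2-rank 1, such that L is a component of C_G(y) for every involution y ∈ C_G(L). Then some involution of L is a classical involution of G. -/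
theorem result {G : Type*} [Group G] [Finite G] (x : G) (hx : orderOf x = 2) (L : Subgroup G) (hLx : L ≤ Subgroup.centralizer ({x} : Set G)) (hL : Cfsg.IsComponent (L.subgroupOf (Subgroup.centralizer ({x} : Set G)))) (heven : Even (Nat.card ↥L)) (hrk : Cfsg.PRankLE 2 1 ↥L) (hne : ∀ y : G, orderOf y = 2 → y ∈ Subgroup.centralizer (L : Set G) → L ≤ Subgroup.centralizer ({y} : Set G) ∧ Cfsg.IsComponent (L.subgroupOf (Subgroup.centralizer ({y} : Set G)))) : ∃ t ∈ L, Cfsg.IsClassicalInvolution t := by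
  classical
  haveI : Fact (Nat.Prime 2) := ⟨Nat.prime_two⟩
  have hQ : Cfsg.IsQuasisimple ↥L :=
    (Lib.Components.qs_congr (Subgroup.subgroupOfEquivOfLe hLx)).1 hL.2
  -- no Klein four-subgroups
  have hrank : ∀ E : Subgroup L, ¬ IsKleinFour E := fun E hE => by
    haveI := hE
    have h1 := hrk E ⟨⟨fun a b => mul_comm_of_exponent_two IsKleinFour.exponent_two a b⟩⟩ (fun a ha => by
      have h : (⟨a, ha⟩ : E) ^ 2 = 1 := by rw [pow_two]; exact IsKleinFour.mul_self _
      exact congrArg Subtype.val h)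
    rw [IsKleinFour.card_four] at h1
    norm_num at h1
  obtain ⟨z, hz⟩ := Lib.Involution.exists_iso_of_rank_one heven hrank
  have hOZ : Cfsg.oddCore ↥L ≤ Subgroup.center ↥L := by
    rcases Lib.Components.qs_normal hQ (N := Cfsg.oddCore ↥L) inferInstance with h | h
    · exfalso
      have h2 := Lib.Components.pPrimeCore_not_dvd (G := ↥L) 2
      apply h2
      show 2 ∣ Nat.card ↥(Cfsg.oddCore ↥L)
      rw [h, Subgroup.card_top]
      exact heven.two_dvd
    · exact h
  have hzc : z ∈ Subgroup.center ↥L := by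
    haveI := hQ.2
    have h1 : QuotientGroup.mk' (Subgroup.center ↥L) z ∈ Subgroup.center (↥L ⧸ Subgroup.center ↥L) := by
      rw [Subgroup.mem_center_iff]
      intro q
      obtain ⟨g, rfl⟩ := QuotientGroup.mk'_surjective _ q
      have h2 := (QuotientGroup.eq_one_iff (z * g * z⁻¹ * g⁻¹)).2 (hOZ (Lib.Involution.zstar hz g))
      change QuotientGroup.mk' (Subgroup.center ↥L) (z * g * z⁻¹ * g⁻¹) = 1 at h2
      simp only [map_mul, map_inv] at h2
      exact (mul_inv_eq_iff_eq_mul.1 (mul_inv_eq_one.1 h2)).symm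
    rcases (inferInstance : (Subgroup.center (↥L ⧸ Subgroup.center ↥L)).Normal).eq_bot_or_eq_top with h | h
    · rw [h, Subgroup.mem_bot] at h1
      exact (QuotientGroup.eq_one_iff z).1 h1
    · exact absurd ⟨⟨fun a b => (Subgroup.mem_center_iff.1 (h.ge (Subgroup.mem_top a)) b).symm⟩⟩
        (Lib.Components.qs_quotient_not_commutative hQ)
  have hzG : ((z : ↥L) : G) ∈ Subgroup.centralizer (L : Set G) :=
    Subgroup.mem_centralizer_iff.2 fun y hy => congrArg Subtype.val (Subgroup.mem_center_iff.1 hzc ⟨y, hy⟩)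
  have hz2 : orderOf ((z : ↥L) : G) = 2 := by rw [Subgroup.orderOf_coe]; exact hz.1
  obtain ⟨hLz, hcomp⟩ := hne _ hz2 hzG
  refine ⟨(z : G), z.2, hz2, L, hLz, z.2, hcomp.1, ?_⟩
  -- the Sylow 2-subgroups are quaternion
  obtain ⟨S⟩ : Nonempty (Sylow 2 ↥L) := inferInstance
  have huniq : ∀ A B : Subgroup ↥(S : Subgroup ↥L), Nat.card A = 2 → Nat.card B = 2 → A = B := by
    intro A B hA hB
    by_contra hne'
    obtain ⟨a, ha⟩ := exists_prime_orderOf_dvd_card' (G := A) 2 (by rw [hA])
    obtain ⟨b, hb⟩ := exists_prime_orderOf_dvd_card' (G := B) 2 (by rw [hB])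
    have hgenA : A = Subgroup.zpowers (a : ↥(S : Subgroup ↥L)) :=
      (Subgroup.eq_of_le_of_card_ge (Subgroup.zpowers_le.2 a.2)
        (by rw [Nat.card_zpowers, Subgroup.orderOf_coe, ha, hA])).symm
    have hgenB : B = Subgroup.zpowers (b : ↥(S : Subgroup ↥L)) :=
      (Subgroup.eq_of_le_of_card_ge (Subgroup.zpowers_le.2 b.2)
        (by rw [Nat.card_zpowers, Subgroup.orderOf_coe, hb, hB])).symm
    have hab : ((a : ↥(S : Subgroup ↥L)) : ↥L) ≠ b := fun e => hne' (by
      rw [hgenA, hgenB, Subtype.ext e])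
    have key : ∀ w : ↥L, orderOf w = 2 → w = z := fun w hw => by
      by_contra hwz
      obtain ⟨E, hE, -⟩ := Lib.Involution.exists_klein_of_commute hw hz.1
        (Subgroup.mem_center_iff.1 hzc w) hwz
      exact hrank E hE
    exact hab ((key _ (by rw [Subgroup.orderOf_coe, Subgroup.orderOf_coe, ha])).trans
      (key _ (by rw [Subgroup.orderOf_coe, Subgroup.orderOf_coe, hb])).symm)
  rcases Lib.UniqueInvolution.isCyclic_or_quaternion S.isPGroup' huniq with hc | ⟨-, k, hk, e⟩
  · exfalso
    have hp : (Nat.card ↥L).minFac = 2 := (Nat.minFac_eq_two_iff _).2 heven.two_dvd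
    have hcompl := IsCyclic.isComplement' hp hc
    haveI := hQ.1
    haveI : IsMulCommutative ↥(S : Subgroup ↥L) := inferInstance
    have hker : (MonoidHom.transferSylow S (hc.normalizer_le_centralizer hp)).ker = ⊤ := by
      rw [eq_top_iff, ← Group.isPerfect_def.1 hQ.1, _root_.commutator_def, Subgroup.commutator_le]
      intro a _ b _
      rw [MonoidHom.mem_ker, map_commutatorElement, commutatorElement_eq_one_iff_mul_comm]
      exact (inferInstance : IsMulCommutative ↥(S : Subgroup ↥L)).is_comm.comm _ _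
    rw [hker, Subgroup.isComplement'_top_left] at hcompl
    have hdvd : 2 ∣ Nat.card ↥(S : Subgroup ↥L) := S.dvd_card_of_dvd_card heven.two_dvd
    rw [hcompl, Subgroup.card_bot] at hdvd
    norm_num at hdvd
  · obtain ⟨n, rfl⟩ : ∃ n, k = n + 1 := ⟨k - 1, by omega⟩
    exact ⟨S, n, e⟩

end Cfsg.Agent.S1307
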