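import Cfsg.Statements.S1314
import Cfsg.Agent.Lib.Components.Diagonal
-- import your own Cfsg.Agent.* helpers here

set_option autoImplicit false
open Cfsg

namespace Cfsg.Agent.S1314
open Subgroup Cfsg.Agent.Lib.Components
open scoped commutatorElement


/-- Let x be an involution of a group G and L a perfect subgroup with ⁅L, x L x⁻¹⁆ = 1. Then l ↦ l (x l x⁻¹) is a group homomorphism π from L to G whose kernel is central in L and whose image lies in C_G(x); and the commutator subgroup of C_{L ⊔ xLx⁻¹}(x) equals the image of π. -/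
theorem result {G : Type*} [Group G] [Finite G] (x : G) (hx : orderOf x = 2) (L : Subgroup G) (hperf : ⁅L, L⁆ = L) (hcomm : ⁅L, L.map (MulAut.conj x).toMonoidHom⁆ = ⊥) : ∃ π : ↥L →* G, (∀ l : ↥L, π l = (l : G) * (x * (l : G) * x⁻¹)) ∧ π.ker ≤ Subgroup.center ↥L ∧ π.range ≤ Subgroup.centralizer ({x} : Set G) ∧ ⁅(L ⊔ L.map (MulAut.conj x).toMonoidHom) ⊓ Subgroup.centralizer ({x} : Set G), (L ⊔ L.map (MulAut.conj x).toMonoidHom) ⊓ Subgroup.centralizer ({x} : Set G)⁆ = π.range := by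
  have hc : ∀ a ∈ L, ∀ i : ℕ, 0 < i → i < orderOf x →
      x ^ i * a * (x ^ i)⁻¹ ∈ centralizer (L : Set G) := by
    intro a ha i h1 h2
    obtain rfl : i = 1 := by omega
    rw [pow_one]
    exact commutator_eq_bot_iff_le_centralizer.1 (by rwa [commutator_comm]) (mem_map_of_mem _ ha)
  obtain ⟨π, hπ, hker, hrange⟩ := diag_hom hc
  have hxx : x * x = 1 := by rw [← pow_two, ← hx, pow_orderOf_eq_one]
  have hxi : x⁻¹ = x := inv_eq_of_mul_eq_one_right hxx
  have hπ' : ∀ l : ↥L, π l = (l : G) * (x * (l : G) * x⁻¹) := by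
    intro l; rw [hπ, hx, pow_two, hxi]; group
  refine ⟨π, hπ', hker, hrange, ?_⟩
  let Lx := L.map (MulAut.conj x).toMonoidHom
  have hperf' : ⁅π.range, π.range⁆ = π.range := by
    haveI : Group.IsPerfect ↥L := Subgroup.isPerfect_iff.2 hperf
    exact Subgroup.isPerfect_iff.1 (Group.IsPerfect.range π)
  have hle : π.range ≤ (L ⊔ Lx) ⊓ centralizer ({x} : Set G) := by
    refine le_inf ?_ hrange
    rintro _ ⟨l, rfl⟩
    rw [hπ']
    exact mul_mem (mem_sup_left l.2) (mem_sup_right (mem_map_of_mem _ l.2))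
  refine le_antisymm ?_ (hperf'.ge.trans (commutator_mono hle hle))
  have hLLx : L ≤ centralizer (Lx : Set G) := commutator_eq_bot_iff_le_centralizer.1 hcomm
  have hdec : ∀ u ∈ (L ⊔ Lx) ⊓ centralizer ({x} : Set G), ∃ l : ↥L, ∃ z,
      z ∈ centralizer ((L ⊔ Lx : Subgroup G) : Set G) ∧ z ∈ L ∧ u = z * π l := by
    rintro u ⟨hu, hux⟩
    replace hu : u ∈ ((L ⊔ Lx : Subgroup G) : Set G) := hu
    rw [coe_mul_of_left_le_normalizer_right L Lx (hLLx.trans (centralizer_le_normalizer Lx))] at hu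
    obtain ⟨a, ha, _, ⟨b, hb, rfl⟩, rfl⟩ := hu
    refine ⟨⟨b, hb⟩, a * b⁻¹, ?_, mul_mem ha (inv_mem hb), ?_⟩
    · have hfix : x * (a * b⁻¹) * x⁻¹ = a * b⁻¹ := by
        have hux' : a * (x * b * x⁻¹) * x = x * (a * (x * b * x⁻¹)) :=
          mem_centralizer_singleton_iff.1 hux
        have hab : x * a * x⁻¹ * b = b * (x * a * x⁻¹) := by
          have h0 := mem_centralizer_iff.1 (hLLx hb) (x * a * x⁻¹) (mem_map_of_mem _ ha)
          exact h0
        have hab' : x * a * x⁻¹ * b⁻¹ = b⁻¹ * (x * a * x⁻¹) :=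
          ((show Commute (x * a * x⁻¹) b from hab).inv_right).eq
        have h1 : a * (x * b * x⁻¹) = x * a * x⁻¹ * b := by
          calc a * (x * b * x⁻¹) = a * (x * b * x⁻¹) * x * x⁻¹ := by group
            _ = x * (a * (x * b * x⁻¹)) * x⁻¹ := by rw [hux']
            _ = x * a * x⁻¹ * ((x * x) * b * (x * x)⁻¹) := by group
            _ = x * a * x⁻¹ * b := by rw [hxx]; group
        calc x * (a * b⁻¹) * x⁻¹ = (x * a * x⁻¹) * (x * b * x⁻¹)⁻¹ := by group
          _ = (x * a * x⁻¹ * b⁻¹) * (b * (x * b * x⁻¹)⁻¹) := by group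
          _ = b⁻¹ * (x * a * x⁻¹ * b) * (x * b * x⁻¹)⁻¹ := by rw [hab']; group
          _ = b⁻¹ * a := by rw [← h1]; group
          _ = a * b⁻¹ := by
              have h2 : a * (x * b * x⁻¹) = (x * b * x⁻¹) * a :=
                (mem_centralizer_iff.1 (hLLx ha) _ (mem_map_of_mem _ hb)).symm
              calc b⁻¹ * a = b⁻¹ * (a * (x * b * x⁻¹)) * (x * b * x⁻¹)⁻¹ := by group
                _ = b⁻¹ * (x * a * x⁻¹ * b) * (x * b * x⁻¹)⁻¹ := by rw [h1]
                _ = (b⁻¹ * (x * a * x⁻¹)) * b * (x * b * x⁻¹)⁻¹ := by group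
                _ = x * a * x⁻¹ * (x * b * x⁻¹)⁻¹ := by rw [← hab']; group
                _ = (x * a * x⁻¹ * b) * b⁻¹ * (x * b * x⁻¹)⁻¹ := by group
                _ = a * ((x * b * x⁻¹) * b⁻¹) * (x * b * x⁻¹)⁻¹ := by rw [← h1]; group
                _ = a * (b⁻¹ * (x * b * x⁻¹)) * (x * b * x⁻¹)⁻¹ := by
                    rw [((show Commute (x * b * x⁻¹) b from
                      mem_centralizer_iff.1 (hLLx hb) _ (mem_map_of_mem _ hb)).inv_right).eq]
                _ = a * b⁻¹ := by group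
      have hzL : a * b⁻¹ ∈ L := mul_mem ha (inv_mem hb)
      have hzLx : a * b⁻¹ ∈ Lx := hfix ▸ mem_map_of_mem (MulAut.conj x).toMonoidHom hzL
      refine le_centralizer_iff.1 (sup_le ?_ ?_) (mem_zpowers (a * b⁻¹))
      · exact hLLx.trans (centralizer_le (by exact_mod_cast zpowers_le.2 hzLx))
      · exact (le_centralizer_iff.1 hLLx).trans (centralizer_le (by exact_mod_cast zpowers_le.2 hzL))
    · rw [hπ']
      show a * (x * b * x⁻¹) = a * b⁻¹ * (b * (x * b * x⁻¹))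
      group
  refine commutator_le.2 fun u hu v hv => ?_
  obtain ⟨l, z, hz, hzL, rfl⟩ := hdec u hu
  obtain ⟨m, w, hw, hwL, rfl⟩ := hdec v hv
  refine ⟨⁅l, m⁆, ?_⟩
  rw [map_commutatorElement]
  let K := L ⊔ Lx
  have hl : π l ∈ K := (hle ⟨l, rfl⟩).1
  have hm : π m ∈ K := (hle ⟨m, rfl⟩).1
  have hzc : (⟨z, mem_sup_left hzL⟩ : ↥K) ∈ center ↥K :=
    mem_center_iff.2 fun k => Subtype.ext (mem_centralizer_iff.1 hz k k.2)
  have hwc : (⟨w, mem_sup_left hwL⟩ : ↥K) ∈ center ↥K :=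
    mem_center_iff.2 fun k => Subtype.ext (mem_centralizer_iff.1 hw k k.2)
  exact (congrArg Subtype.val (commutatorElement_center_mul hzc hwc ⟨π l, hl⟩ ⟨π m, hm⟩)).symm

end Cfsg.Agent.S1314
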