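import Cfsg.Statements.S1316
import Cfsg.Agent.Lib.Components.Bender
-- import your own Cfsg.Agent.* helpers here

set_option autoImplicit false
open Cfsg

namespace Cfsg.Agent.S1316
open Subgroup Cfsg.Agent.Lib.Components
open scoped commutatorElement


/-- For a finite group X, E(X) equals the intersection of the derived series of F*(X) (its last term). -/
theorem result {X : Type*} [Group X] [Finite X] : (⨅ n : ℕ, (derivedSeries ↥(Cfsg.generalizedFittingSubgroup X) n).map (Cfsg.generalizedFittingSubgroup X).subtype) = Cfsg.layer X := by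
  refine le_antisymm ?_ (le_iInf fun n => perfect_le_derivedSeries layer_perfect layer_le_gfs n)
  let f : ↥(Cfsg.generalizedFittingSubgroup X) →* X ⧸ Cfsg.layer X :=
    (QuotientGroup.mk' (Cfsg.layer X)).comp (Cfsg.generalizedFittingSubgroup X).subtype
  have hr : f.range = (Cfsg.fittingSubgroup X).map (QuotientGroup.mk' (Cfsg.layer X)) := by
    rw [MonoidHom.range_comp, range_subtype, Cfsg.generalizedFittingSubgroup, Subgroup.map_sup,
      QuotientGroup.map_mk'_self, bot_sup_eq]
  have hs : Group.IsSolvable ↥f.range := by
    rw [hr]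
    haveI := fittingSubgroup_solvable (G := X)
    exact Group.isSolvable_of_surjective
      ((QuotientGroup.mk' (Cfsg.layer X)).subgroupMap_surjective (Cfsg.fittingSubgroup X))
  obtain ⟨n, hn⟩ := hs.solvable
  refine iInf_le_of_le n ?_
  rintro _ ⟨x, hx, rfl⟩
  have h1 := map_derivedSeries_le_derivedSeries (f := f.rangeRestrict) n (mem_map_of_mem _ hx)
  rw [hn, mem_bot] at h1
  have h2 : f x = 1 := congrArg Subtype.val h1
  exact (QuotientGroup.eq_one_iff _).1 h2

end Cfsg.Agent.S1316
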