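import Cfsg.Statements.S1317
import Cfsg.Agent.Lib.Components.Bender
-- import your own Cfsg.Agent.* helpers here

set_option autoImplicit false
open Cfsg

namespace Cfsg.Agent.S1317
open Subgroup Cfsg.Agent.Lib.Components
open scoped commutatorElement


/-- For a finite group X, the centre of the layer E(X) is F(X) ∩ E(X). -/
theorem result {X : Type*} [Group X] [Finite X] : (Subgroup.center ↥(Cfsg.layer X)).map (Cfsg.layer X).subtype = Cfsg.fittingSubgroup X ⊓ Cfsg.layer X := by
  rw [map_center_eq]
  refine le_antisymm (le_inf layer_inf_centralizer_le_fitting inf_le_left) (le_inf inf_le_right ?_)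
  refine inf_le_left.trans (commutator_eq_bot_iff_le_centralizer.1 ?_)
  rw [commutator_comm]
  exact layer_commute_fitting

end Cfsg.Agent.S1317
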