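import Cfsg.Statements.S1318
import Cfsg.Agent.Lib.Components.Bender
-- import your own Cfsg.Agent.* helpers here

set_option autoImplicit false
open Cfsg

namespace Cfsg.Agent.S1318
open Subgroup Cfsg.Agent.Lib.Components
open scoped commutatorElement


/-- Let X be finite and S ≤ F*(X) a subgroup subnormal in F*(X). Then F(S) = F(X) ∩ S (inside X) and S = F(S)E(S). -/
theorem result {X : Type*} [Group X] [Finite X] (S : Subgroup X) (hS : S ≤ Cfsg.generalizedFittingSubgroup X) (hsn : (S.subgroupOf (Cfsg.generalizedFittingSubgroup X)).IsSubnormal) : (Cfsg.fittingSubgroup ↥S).map S.subtype = Cfsg.fittingSubgroup X ⊓ S ∧ Cfsg.fittingSubgroup ↥S ⊔ Cfsg.layer ↥S = ⊤ := by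
  have hS' : S.IsSubnormal :=
    Subgroup.IsSubnormal.trans hS hsn (Subgroup.Normal.isSubnormal gfs_normal)
  have hF : (Cfsg.fittingSubgroup ↥S).map S.subtype = Cfsg.fittingSubgroup X ⊓ S :=
    le_antisymm (le_inf (fitting_le_of_subnormal hS') (map_subtype_le _))
      (fitting_inf_le_of_subgroup S)
  refine ⟨hF, map_injective S.subtype_injective ?_⟩
  rw [Subgroup.map_sup, hF, ← MonoidHom.range_eq_map, range_subtype, sup_comm]
  exact le_antisymm (sup_le (map_subtype_le _) inf_le_right) (subnormal_le_gfs_decomp hS' hS)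

end Cfsg.Agent.S1318
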