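import Cfsg.Statements.S1320
import Cfsg.Agent.Lib.Components.Bender
-- import your own Cfsg.Agent.* helpers here

set_option autoImplicit false
open Cfsg

namespace Cfsg.Agent.S1320
open Subgroup Cfsg.Agent.Lib.Components
open scoped commutatorElement


/-- Let B be a normal subgroup of the finite group A. Then F*(A) ∩ B = F*(B). -/
theorem result {A : Type*} [Group A] [Finite A] (B : Subgroup A) [B.Normal] : Cfsg.generalizedFittingSubgroup A ⊓ B = (Cfsg.generalizedFittingSubgroup ↥B).map B.subtype := by
  refine le_antisymm ?_ (le_inf (gfs_le_of_subnormal ‹B.Normal›.isSubnormal) (map_subtype_le _))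
  let S := Cfsg.generalizedFittingSubgroup A ⊓ B
  have hS : S.IsSubnormal := Subgroup.Normal.isSubnormal inferInstance
  refine (subnormal_le_gfs_decomp hS inf_le_left).trans (sup_le ?_ ?_)
  · rw [map_le_iff_le_comap, layer_le_iff]
    intro L hL
    rw [← map_le_iff_le_comap]
    exact (comp_le_layer_subtype ((isComponent_map_subtype_iff hS).2 hL)
      ((map_subtype_le L).trans inf_le_right)).trans (map_mono le_sup_left)
  · exact (inf_le_inf_left _ inf_le_right).trans
      ((fitting_inf_le_of_subgroup B).trans (map_mono le_sup_right))

end Cfsg.Agent.S1320
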