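import Cfsg.Statements.S1321
import Cfsg.Agent.Lib.Components.Bender
-- import your own Cfsg.Agent.* helpers here

set_option autoImplicit false
open Cfsg

namespace Cfsg.Agent.S1321
open Subgroup Cfsg.Agent.Lib.Components
open scoped commutatorElement


/-- Let X be finite and U ≤ X. Then E(X) is generated by C_{E(X)}(U) together with ⁅E(X), U⁆ (indeed it is their product, ⁅E(X), U⁆ being normal in E(X)). -/
theorem result {X : Type*} [Group X] [Finite X] (U : Subgroup X) : Cfsg.layer X = (Cfsg.layer X ⊓ Subgroup.centralizer (U : Set X)) ⊔ ⁅Cfsg.layer X, U⁆ ∧ ⁅Cfsg.layer X, U⁆ ≤ Cfsg.layer X := by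
  have hle : ⁅Cfsg.layer X, U⁆ ≤ Cfsg.layer X := commutator_le_left (Cfsg.layer X) U
  refine ⟨le_antisymm ?_ (sup_le inf_le_left hle), hle⟩
  have hsn : ⁅Cfsg.layer X, U⁆.IsSubnormal :=
    Subgroup.IsSubnormal.step _ _ hle (Subgroup.Normal.isSubnormal inferInstance)
      (normal_subgroupOf_of_le_normalizer (normalizer_commutator_ge_left (H₁ := Cfsg.layer X) (H₂ := U)))
  refine layer_le_iff.2 fun L hL => ?_
  rcases comp_subnormal_dichotomy hL hsn with h | h
  · exact le_sup_of_le_right h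
  refine le_sup_of_le_left (le_inf (comp_le_layer hL) ?_)
  have hc : ∀ l ∈ L, ∀ u ∈ U, ⁅l, u⁆ ∈ centralizer (L : Set X) := fun l hl u hu =>
    commutator_eq_bot_iff_le_centralizer.1 (by rwa [commutator_comm] at h)
      (commutator_mem_commutator (comp_le_layer hL hl) hu)
  intro l hl
  rw [mem_centralizer_iff]
  intro u hu
  have hK := isComponent_map_equiv hL (MulAut.conj u)
  have hfix : L.map (MulAut.conj u).toMonoidHom = L := by
    by_contra hne
    refine qs_commutator_ne_bot hL.2 (commutator_eq_bot_iff_le_centralizer.2 fun a ha => ?_)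
    have h2 : u * a⁻¹ * u⁻¹ ∈ centralizer (L : Set X) :=
      commutator_eq_bot_iff_le_centralizer.1 (comp_commute hK hL hne)
        (mem_map_of_mem _ (inv_mem ha))
    have h3 : ⁅a, u⁆ * (u * a⁻¹ * u⁻¹)⁻¹ ∈ centralizer (L : Set X) :=
      mul_mem (hc a ha u hu) (inv_mem h2)
    have h4 : ⁅a, u⁆ * (u * a⁻¹ * u⁻¹)⁻¹ = a := by rw [commutatorElement_def]; group
    rwa [h4] at h3
  let α : ↥L →* ↥L := ((MulAut.conj u).toMonoidHom.comp L.subtype).codRestrict L fun x =>
    hfix.le (mem_map_of_mem _ x.2)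
  have hα := aut_eq_self_of_central (Group.isPerfect_def.1 hL.2.1) α (fun x => ?_) ⟨l, hl⟩
  · have h5 : u * l * u⁻¹ = l := congrArg Subtype.val hα
    calc u * l = (u * l * u⁻¹) * u := by group
      _ = l * u := by rw [h5]
  · rw [mem_center_iff]
    intro y
    refine Subtype.ext ?_
    have h6 : ⁅(x : X), u⁆⁻¹ ∈ centralizer (L : Set X) := inv_mem (hc _ x.2 u hu)
    have h7 : ⁅(x : X), u⁆⁻¹ = u * (x : X) * u⁻¹ * (x : X)⁻¹ := by rw [commutatorElement_def]; group
    rw [h7] at h6
    exact mem_centralizer_iff.1 h6 y y.2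

end Cfsg.Agent.S1321
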