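import Cfsg.Statements.S1326
import Cfsg.Agent.Lib.Components.Bender
-- import your own Cfsg.Agent.* helpers here

set_option autoImplicit false
open Cfsg

namespace Cfsg.Agent.S1326
open Subgroup Cfsg.Agent.Lib.Components
open scoped commutatorElement


/-- For a finite group X: the Fitting subgroup contains its centralizer if and only if the layer of X is trivial. -/
theorem result {X : Type*} [Group X] [Finite X] : Subgroup.centralizer (Cfsg.fittingSubgroup X : Set X) ≤ Cfsg.fittingSubgroup X ↔ Cfsg.layer X = ⊥ := by
  constructor
  · intro h
    rw [layer_eq_bot_iff]
    intro L hL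
    refine comp_not_le_solvable hL fittingSubgroup_solvable ?_
    exact (commutator_eq_bot_iff_le_centralizer.1
      (comp_commute_normal_solvable hL fittingSubgroup_solvable)).trans h
  · intro h
    have : Cfsg.generalizedFittingSubgroup X = Cfsg.fittingSubgroup X := by
      rw [Cfsg.generalizedFittingSubgroup, h, bot_sup_eq]
    rw [← this]
    exact centralizer_gfs_le

end Cfsg.Agent.S1326
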