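import Cfsg.Statements.S1328
import Cfsg.Agent.Lib.Components.Diagonal
-- import your own Cfsg.Agent.* helpers here

set_option autoImplicit false
open Cfsg

namespace Cfsg.Agent.S1328
open Subgroup Cfsg.Agent.Lib.Components
open scoped commutatorElement


/-- Let G be finite, H ≤ G with O(H) = 1, t an involution of G normalizing H, and Y a nontrivial subgroup of O(C_H(t)). Then some component E of H is normalized by t and by Y and centralized by neither t nor Y. -/
theorem result {G : Type*} [Group G] [Finite G] (H : Subgroup G) (hO : Cfsg.oddCore ↥H = ⊥) (t : G) (ht : orderOf t = 2) (htH : t ∈ Subgroup.normalizer (H : Set G)) (Y : Subgroup G) (hY1 : Y ≠ ⊥) (hY : Y ≤ (Cfsg.oddCore ↥(H ⊓ Subgroup.centralizer ({t} : Set G))).map (H ⊓ Subgroup.centralizer ({t} : Set G)).subtype) : ∃ E : Subgroup ↥H, Cfsg.IsComponent E ∧ (E.map H.subtype).map (MulAut.conj t).toMonoidHom = E.map H.subtype ∧ Y ≤ Subgroup.normalizer ((E.map H.subtype : Subgroup G) : Set G) ∧ ¬ (t ∈ Subgroup.centralizer ((E.map H.subtype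 : Subgroup G) : Set G)) ∧ ¬ (Y ≤ Subgroup.centralizer ((E.map H.subtype : Subgroup G) : Set G)) := by
  haveI := Fact.mk Nat.prime_two
  let W := (Cfsg.oddCore ↥(H ⊓ centralizer ({t} : Set G))).map (H ⊓ centralizer ({t} : Set G)).subtype
  let X := H ⊔ zpowers t
  have hHX : H ≤ X := le_sup_left
  have htn : zpowers t ≤ normalizer (H : Set G) := zpowers_le.2 htH
  haveI hHn : (H.subgroupOf X).Normal := normal_subgroupOf_of_le_normalizer (sup_le le_normalizer htn)
  let t' : ↥X := ⟨t, mem_sup_right (mem_zpowers t)⟩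
  have ht' : orderOf t' = 2 := by rw [← Subgroup.orderOf_coe]; exact ht
  have htp : IsPGroup 2 ↥(zpowers t') :=
    IsPGroup.of_card (n := 1) (by rw [Nat.card_zpowers, ht', pow_one])
  have hWH : W ≤ H := (map_subtype_le _).trans inf_le_left
  have hdec : ∀ u : ↥X, ∃ h ∈ H, ∃ k : ℤ, (u : G) = h * t ^ k := by
    intro u
    have hu : (u : G) ∈ ((H ⊔ zpowers t : Subgroup G) : Set G) := u.2
    rw [coe_mul_of_right_le_normalizer_left H (zpowers t) htn] at hu
    obtain ⟨h, hh, r, hr, hru⟩ := hu
    obtain ⟨k, rfl⟩ := hr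
    exact ⟨h, hh, k, hru.symm⟩
  have hsq : ∀ u : ↥X, u ^ 2 ∈ H.subgroupOf X := by
    intro u
    obtain ⟨h, hh, k, hu⟩ := hdec u
    rw [mem_subgroupOf, SubmonoidClass.coe_pow, hu, pow_two]
    have ht2 : t ^ k * t ^ k = 1 := by
      rw [← zpow_add, ← two_mul, zpow_mul, zpow_two, ← pow_two, ← ht, pow_orderOf_eq_one, one_zpow]
    have e : h * t ^ k * (h * t ^ k) = h * (t ^ k * h * (t ^ k)⁻¹) * (t ^ k * t ^ k) := by group
    rw [e, ht2, mul_one]
    exact mul_mem hh ((mem_normalizer_iff.1 (htn (zpow_mem (mem_zpowers t) k)) h).1 hh)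
  have hOX : Cfsg.pPrimeCore 2 ↥X = ⊥ := by
    have h1 : Cfsg.pPrimeCore 2 ↥X ≤ H.subgroupOf X := by
      intro u hu
      have hco := coprime_orderOf_of_mem (pPrimeCore_coprime (G := ↥X) 2) hu
      obtain ⟨m, hm⟩ := exists_pow_eq_self_of_coprime hco.symm
      rw [← hm]
      exact pow_mem (hsq u) m
    have h2 := pPrimeCore_subnormal (p := 2) (Subgroup.Normal.isSubnormal hHn)
    rw [inf_eq_right.2 h1] at h2
    have h3 := pPrimeCore_map_le 2 (subgroupOfEquivOfLe hHX).toMonoidHom (subgroupOfEquivOfLe hHX).surjective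
    rw [show Cfsg.pPrimeCore 2 ↥H = ⊥ from hO, le_bot_iff,
      map_eq_bot_iff_of_injective _ (subgroupOfEquivOfLe hHX).injective] at h3
    rw [h3, Subgroup.map_bot] at h2
    exact h2.symm
  let Y' := Y.subgroupOf X
  have hYX : Y ≤ X := (hY.trans hWH).trans hHX
  have hWn : H ⊓ centralizer ({t} : Set G) ≤ normalizer (W : Set G) := by
    have := le_normalizer_map (H := Cfsg.oddCore ↥(H ⊓ centralizer ({t} : Set G)))
      (H ⊓ centralizer ({t} : Set G)).subtype
    rwa [normalizer_eq_top, ← MonoidHom.range_eq_map, range_subtype] at this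
  have hW' : W.subgroupOf X ≤ Cfsg.centralizerPPrimeCore 2 t' := by
    refine le_cppc ?_ ?_ ?_
    · rw [Nat.card_congr (subgroupOfEquivOfLe (hWH.trans hHX)).toEquiv,
        card_map_of_injective (subtype_injective _)]
      exact pPrimeCore_coprime 2
    · intro w hw
      exact mem_centralizer_singleton_iff.2
        (Subtype.ext (mem_centralizer_singleton_iff.1 (map_subtype_le _ (mem_subgroupOf.1 hw)).2))
    · intro c hc
      obtain ⟨h, hh, k, hcu⟩ := hdec c
      refine le_normalizer_comap X.subtype (show (c : G) ∈ normalizer (W : Set G) from ?_)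
      rw [hcu]
      have hcomm : (c : G) * t = t * c := congrArg Subtype.val (mem_centralizer_singleton_iff.1 hc)
      rw [hcu] at hcomm
      have hht : h * t = t * h := by
        have h1 : h * t * t ^ k = t * h * t ^ k := by
          rw [mul_assoc, mul_assoc t, ← hcomm, mul_assoc, ← zpow_one_add, ← zpow_add_one, add_comm]
        exact mul_right_cancel h1
      refine mul_mem (hWn ⟨hh, mem_centralizer_singleton_iff.2 hht⟩) (zpow_mem ?_ k)
      refine centralizer_le_normalizer W (mem_centralizer_iff.2 fun w hw => ?_)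
      exact mem_centralizer_singleton_iff.1 (map_subtype_le _ hw).2
  have hY' : Y' ≤ Cfsg.centralizerPPrimeCore 2 t' := (comap_mono hY).trans hW'
  obtain ⟨L, hL, hLY⟩ : ∃ L : Subgroup ↥X, Cfsg.IsComponent L ∧ ⁅L, Y'⁆ ≠ ⊥ := by
    by_contra hno
    push Not at hno
    refine hY1 ?_
    have h0 := eq_bot_of_centralizes_comps hOX ((cppc_coprime t').coprime_dvd_left (card_dvd_of_le hY'))
      hno (commutator_eq_bot_mono (cppc_centralizes_pCore htp) hY' le_rfl)
    rw [← map_subgroupOf_eq_of_le hYX, show Y.subgroupOf X = ⊥ from h0, Subgroup.map_bot]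
  have hLH : L ≤ H.subgroupOf X := (comp_normal_dichotomy hL).resolve_right fun h =>
    hLY (commutator_eq_bot_mono h le_rfl (comap_mono (hY.trans hWH)))
  have hLt : ⁅L, zpowers t'⁆ = L := by
    by_contra hne
    exact hLY (commutator_eq_bot_mono (comp_centralized_of_commutator_ne hOX ht' hL hne) le_rfl hY')
  have htL : t' ∈ normalizer (L : Set ↥X) := by
    have := normalizer_commutator_ge_right L (zpowers t') (mem_zpowers t')
    rwa [hLt] at this
  have hLH' : L.map X.subtype ≤ H := fun g hg => by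
    obtain ⟨u, hu, rfl⟩ := hg
    exact hLH hu
  have hE : (((L.map X.subtype).subgroupOf H).map H.subtype) = L.map X.subtype :=
    map_subgroupOf_eq_of_le hLH'
  refine ⟨(L.map X.subtype).subgroupOf H, ?_, ?_, ?_, ?_, ?_⟩
  · have h1 := isComponent_map_equiv (isComponent_subgroupOf hL hLH) (subgroupOfEquivOfLe hHX)
    have h2 : (L.subgroupOf (H.subgroupOf X)).map (subgroupOfEquivOfLe hHX).toMonoidHom =
        (L.map X.subtype).subgroupOf H := by
      ext a
      constructor
      · rintro ⟨b, hb, rfl⟩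
        exact mem_subgroupOf.2 ⟨(b : ↥X), hb, rfl⟩
      · intro ha
        obtain ⟨b, hb, hba⟩ := mem_map.1 (mem_subgroupOf.1 ha)
        exact ⟨⟨b, hLH hb⟩, hb, Subtype.ext hba⟩
    rwa [h2] at h1
  · rw [hE]
    refine map_conj_eq_of_mem_normalizer ?_
    exact le_normalizer_map X.subtype ⟨t', htL, rfl⟩
  · rw [hE]
    intro y hy
    exact le_normalizer_map X.subtype
      ⟨⟨y, hYX hy⟩, cppc_normalizes_comp hOX htp hL (hY' (show (⟨y, hYX hy⟩ : ↥X) ∈ Y' from hy)), rfl⟩
  · rw [hE]
    intro h
    refine comp_ne_bot hL ?_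
    rw [← hLt, commutator_comm, commutator_eq_bot_iff_le_centralizer, zpowers_le]
    exact mem_centralizer_iff.2 fun l hl =>
      Subtype.ext (mem_centralizer_iff.1 h l (mem_map_of_mem _ hl))
  · rw [hE]
    intro h
    refine hLY ?_
    rw [commutator_comm, commutator_eq_bot_iff_le_centralizer]
    intro y hy
    exact mem_centralizer_iff.2 fun l hl =>
      Subtype.ext (mem_centralizer_iff.1 (h (mem_subgroupOf.1 hy)) l (mem_map_of_mem _ hl))

end Cfsg.Agent.S1328
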