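import Cfsg.Statements.S1331
import Cfsg.Agent.Lib.Components.Signalizer
-- import your own Cfsg.Agent.* helpers here

set_option autoImplicit false
open Cfsg

namespace Cfsg.Agent.S1331
open Subgroup Cfsg.Agent.Lib.Coprime Cfsg.Agent.Lib.Components
open scoped Pointwise


/-- Let θ be a solvable A-signalizer functor on the finite group G for the prime p, A elementary abelian of rank at least 3, X a member of the family of θ, and B ≤ A with |B| ≥ p². Then X is generated by the subgroups X ∩ ⋂_{d ∈ D, d ≠ 1} θ d, D ranging over the subgroups of index p in B. -/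
theorem result {G : Type*} [Group G] [Finite G] (p : ℕ) [Fact p.Prime] (A : Subgroup G) (hA : Cfsg.IsElementaryAbelian p A) (hA3 : p ^ 3 ≤ Nat.card ↥A) (θ : G → Subgroup G) (hθ : Cfsg.IsSolvableSignalizerFunctor p A θ) (X : Subgroup G) (hX : X ∈ Cfsg.signalizerFamily p A θ) (B : Subgroup G) (hB : B ≤ A) (hB2 : p ^ 2 ≤ Nat.card ↥B) : X = ⨆ D : {D : Subgroup G // D ≤ B ∧ D.relIndex B = p}, X ⊓ Cfsg.signalizerInf (D : Subgroup G) θ := by
  refine le_antisymm ?_ (iSup_le fun _ => inf_le_left)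
  refine (Sig.gen_hyperplane (Sig.elem_mono hA hB) hB2
    ((Sig.fam_coprime hA hX).coprime_dvd_left (card_dvd_of_le hB))
    (hB.trans (Sig.fam_normalizer hX))).trans (iSup_le fun ⟨D, hDB, hDi⟩ => ?_)
  obtain ⟨E, hED, hEB, hEi⟩ : ∃ E : Subgroup G, E ≤ D ∧ E ≤ B ∧ E.relIndex B = p := by
    have h1 := Sig.card_mul_relIndex hDB
    have hp := (Fact.out : p.Prime)
    rcases eq_or_ne (D.relIndex B) 1 with e | e
    · have hDB' : B ≤ D := relIndex_eq_one.1 e
      have hB1 : B ≠ ⊥ := fun e' => by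
        rw [e', card_bot] at hB2
        exact absurd hB2 (not_le.2 (Nat.one_lt_pow two_ne_zero hp.one_lt))
      obtain ⟨E, hE, hEi⟩ := Sig.exists_index_prime (Sig.elem_mono hA hB) hB1
      exact ⟨E, hE.trans hDB', hE, hEi⟩
    · refine ⟨D, le_rfl, hDB, ?_⟩
      obtain ⟨n, hn⟩ := Sig.card_eq_pow (Sig.elem_mono hA hB)
      obtain ⟨k, -, hk⟩ := (Nat.dvd_prime_pow hp).1 (hn ▸ Dvd.intro_left _ h1 :
        D.relIndex B ∣ p ^ n)
      rcases k with _ | _ | k
      · exact absurd (hk.trans (pow_zero p)) e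
      · exact hk.trans (pow_one p)
      · exfalso
        have : p ^ 1 < p ^ (k + 1 + 1) := Nat.pow_lt_pow_right hp.one_lt (by omega)
        rw [pow_one, ← hk] at this
        exact absurd hDi (not_le.2 this)
  exact le_iSup_of_le ⟨E, hEB, hEi⟩ (le_inf inf_le_left
    ((inf_le_inf_left _ (centralizer_le hED)).trans (Sig.fam_inf_centralizer hX (hEB.trans hB))))

end Cfsg.Agent.S1331
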