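import Cfsg.Statements.S1335
import Cfsg.Agent.Lib.Components.AxB
-- import your own Cfsg.Agent.* helpers here

set_option autoImplicit false
open Cfsg

namespace Cfsg.Agent.S1335
open Subgroup Cfsg.Agent.Lib.Components
open scoped commutatorElement


/-- Let H be a subgroup of the finite group G, p a prime, k ≥ 1, P a Sylow p-subgroup of H of p-rank at least k, and suppose N_G(X) ≤ H for every subgroup X ≤ P of p-rank at least k. Then P is a Sylow p-subgroup of G. -/
theorem result {G : Type*} [Group G] [Finite G] {p : ℕ} [Fact p.Prime] (k : ℕ) (hk : 1 ≤ k) (H : Subgroup G) (P : Sylow p ↥H) (hP : ¬ Cfsg.PRankLE p (k - 1) ↥(P : Subgroup ↥H)) (hΓ : (∀ X : Subgroup G, X ≤ (P : Subgroup ↥H).map H.subtype → ¬ Cfsg.PRankLE p (k - 1) ↥X → Subgroup.normalizer (X : Set G) ≤ H)) : ∃ Q : Sylow p G, (Q : Subgroup G) = (P : Subgroup ↥H).map H.subtype := by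
  let P' : Subgroup G := (P : Subgroup ↥H).map H.subtype
  have hP'p : IsPGroup p ↥P' := P.isPGroup'.map _
  obtain ⟨Q, hQ⟩ := hP'p.exists_le_sylow
  refine ⟨Q, le_antisymm ?_ hQ⟩
  by_contra hne
  haveI := Q.isPGroup'.isNilpotent
  have hlt : P'.subgroupOf (Q : Subgroup G) < ⊤ :=
    lt_of_le_of_ne le_top fun he => hne (subgroupOf_eq_top.1 he)
  obtain ⟨y, hy, hyP⟩ := SetLike.exists_of_lt (Group.normalizerCondition_of_isNilpotent _ hlt)
  have hyn : (y : G) ∈ normalizer (P' : Set G) := by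
    rw [mem_normalizer_iff]
    intro v
    constructor
    · intro hv; exact (mem_normalizer_iff.1 hy ⟨v, hQ hv⟩).1 hv
    · intro hv
      have hvQ : v ∈ (Q : Subgroup G) := by
        simpa [mul_assoc] using mul_mem (mul_mem (inv_mem y.2) (hQ hv)) y.2
      exact (mem_normalizer_iff.1 hy ⟨v, hvQ⟩).2 hv
  have hyH : (y : G) ∈ H := by
    refine hΓ P' le_rfl (fun hr => hP fun A hA hAp => ?_) hyn
    have e := (equivMapOfInjective (P : Subgroup ↥H) H.subtype H.subtype_injective)
    have h1 := hr (A.map e.toMonoidHom) ?_ ?_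
    · rwa [card_map_of_injective e.injective] at h1
    · exact le_centralizer_iff_isMulCommutative.1 (by
        rintro _ ⟨a, ha, rfl⟩
        rw [mem_centralizer_iff]
        rintro _ ⟨b, hb, rfl⟩
        have : b * a = a * b := congrArg Subtype.val (mul_comm' (⟨b, hb⟩ : ↥A) ⟨a, ha⟩)
        rw [← map_mul, ← map_mul, this])
    · rintro _ ⟨a, ha, rfl⟩
      rw [← map_pow, hAp a ha, map_one]
  let W := zpowers (y : G) ⊔ P'
  have hW : W ≤ (Q : Subgroup G) := sup_le (zpowers_le.2 y.2) hQ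
  have hWH : W ≤ H := sup_le (zpowers_le.2 hyH) (map_subtype_le _)
  have hWp : IsPGroup p ↥(W.subgroupOf H) :=
    (Q.isPGroup'.to_le hW).comap_subtype
  have hPW : (P : Subgroup ↥H) ≤ W.subgroupOf H := fun a ha =>
    mem_subgroupOf.2 (mem_sup_right (mem_map_of_mem _ ha))
  have heq := P.is_maximal' hWp hPW
  refine hyP (mem_subgroupOf.2 ?_)
  refine ⟨⟨y, hyH⟩, ?_, rfl⟩
  rw [← heq]
  exact mem_subgroupOf.2 (mem_sup_left (mem_zpowers _))

end Cfsg.Agent.S1335
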