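import Cfsg.Statements.S1336
import Cfsg.Agent.Lib.Components.Basic
import Cfsg.Agent.Lib.Components.Cores
-- import your own Cfsg.Agent.* helpers here

set_option autoImplicit false
open Cfsg

namespace Cfsg.Agent.S1336
open Subgroup Cfsg.Agent.Lib.Components


/-- Let G be finite and p prime. Then G has a proper subgroup H with p ∣ |H| and p ∤ |H ∩ gHg⁻¹| for every g ∉ H (a strongly p-embedded subgroup) if and only if G is not 1-connected for p. -/
theorem result {G : Type*} [Group G] [Finite G] (p : ℕ) [Fact p.Prime] : (∃ H : Subgroup G, H ≠ ⊤ ∧ p ∣ Nat.card ↥H ∧ ∀ g : G, g ∉ H → ¬ p ∣ Nat.card ↥(H ⊓ H.map (MulAut.conj g).toMonoidHom)) ↔ ¬ Cfsg.IsKConnected p 1 G := by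
  have hp := (Fact.out : p.Prime)
  let C : G → G → G := fun g x => g * x * g⁻¹
  let cj : G → Subgroup G → Subgroup G := fun g E => E.map (MulAut.conj g).toMonoidHom
  let R : Subgroup G → Subgroup G → Prop := fun A B => Cfsg.IsElementaryAbelian p A ∧ p ^ 1 ≤ Nat.card ↥A ∧
    Cfsg.IsElementaryAbelian p B ∧ p ^ 1 ≤ Nat.card ↥B ∧ ∀ a ∈ A, ∀ b ∈ B, a * b = b * a
  let Rs := Relation.ReflTransGen R
  let V : Subgroup G → Prop := fun E => Cfsg.IsElementaryAbelian p E ∧ p ^ 1 ≤ Nat.card ↥E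
  have hsymm : ∀ A B, R A B → R B A := fun A B ⟨h1, h2, h3, h4, h5⟩ =>
    ⟨h3, h4, h1, h2, fun b hb a ha => (h5 a ha b hb).symm⟩
  have hrev : ∀ {A B}, Rs A B → Rs B A := fun {A B} h => by
    induction h with
    | refl => exact Relation.ReflTransGen.refl
    | tail _ h ih => exact Relation.ReflTransGen.head (hsymm _ _ h) ih
  have hline : ∀ x : G, orderOf x = p → V (zpowers x) := fun x hx => by
    refine ⟨⟨inferInstance, fun z hz => ?_⟩, by rw [Nat.card_zpowers, hx, pow_one]⟩
    obtain ⟨i, rfl⟩ := mem_zpowers_iff.1 hz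
    rw [← zpow_natCast, ← zpow_mul, mul_comm, zpow_mul, zpow_natCast,
      show x ^ p = 1 from hx ▸ pow_orderOf_eq_one x, one_zpow]
  have hne : ∀ {E}, V E → ∃ x ∈ E, orderOf x = p := fun {E} hE => by
    obtain ⟨x, hx, hx1⟩ := (bot_or_exists_ne_one E).resolve_left fun e => by
      have := hE.2
      rw [e, card_bot, pow_one] at this
      exact absurd this (not_le.2 hp.one_lt)
    exact ⟨x, hx, orderOf_eq_prime (hE.1.2 x hx) hx1⟩
  have hcR : ∀ g {A B}, R A B → R (cj g A) (cj g B) := fun g {A B} ⟨h1, h2, h3, h4, h5⟩ => by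
    have hV : ∀ {E : Subgroup G}, V E → V (cj g E) := fun {E} hE => by
      refine ⟨⟨IsMulCommutative.of_setLike_mul_comm ?_, ?_⟩, ?_⟩
      · rintro _ ⟨a, ha, rfl⟩ _ ⟨b, hb, rfl⟩
        rw [← map_mul, ← map_mul, show a * b = b * a from congrArg Subtype.val (hE.1.1.1.comm ⟨a, ha⟩ ⟨b, hb⟩)]
      · rintro _ ⟨a, ha, rfl⟩
        rw [← map_pow, hE.1.2 a ha, map_one]
      · rw [card_map_of_injective (MulAut.conj g).injective]; exact hE.2
    refine ⟨(hV ⟨h1, h2⟩).1, (hV ⟨h1, h2⟩).2, (hV ⟨h3, h4⟩).1, (hV ⟨h3, h4⟩).2, ?_⟩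
    rintro _ ⟨a, ha, rfl⟩ _ ⟨b, hb, rfl⟩
    rw [← map_mul, ← map_mul, h5 a ha b hb]
  have hcRs : ∀ g {A B}, Rs A B → Rs (cj g A) (cj g B) := fun g {A B} h =>
    by
      induction h with
      | refl => exact Relation.ReflTransGen.refl
      | tail _ h ih => exact ih.tail (hcR g h)
  have hcmul : ∀ g h E, cj (g * h) E = cj g (cj h E) := fun g h E => by
    simp only [cj, Subgroup.map_map]
    congr 1
    ext x; simp [mul_assoc]
  have hsub : ∀ {E} (x : G), V E → x ∈ E → orderOf x = p → R (zpowers x) E := fun {E} x hE hxE hx =>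
    ⟨(hline x hx).1, (hline x hx).2, hE.1, hE.2, fun a ha b hb =>
      congrArg Subtype.val (hE.1.1.1.comm ⟨a, zpowers_le.2 hxE ha⟩ ⟨b, hb⟩)⟩
  constructor
  · rintro ⟨H, hH, hpH, hI⟩ hconn
    obtain ⟨x, hx⟩ := exists_prime_orderOf_dvd_card' p hpH
    have hx' : orderOf (x : G) = p := by rw [Subgroup.orderOf_coe]; exact hx
    have hin : ∀ A B, R A B → A ≤ H → B ≤ H := by
      rintro A B ⟨h1, h2, h3, h4, h5⟩ hA b hb
      by_contra hbH
      obtain ⟨a, ha, hao⟩ := hne (E := A) ⟨h1, h2⟩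
      refine hI b hbH (hao ▸ Subgroup.orderOf_dvd_natCard _ ⟨hA ha, a, hA ha, ?_⟩)
      show b * a * b⁻¹ = a
      rw [← h5 a ha b hb, mul_inv_cancel_right]
    have hall : ∀ y : G, orderOf y = p → y ∈ H := fun y hy => by
      have h := hconn (zpowers (x : G)) (zpowers y) (hline _ hx').1 (hline _ hx').2 (hline y hy).1 (hline y hy).2
      have : zpowers y ≤ H := by
        generalize zpowers y = B at h ⊢
        induction h with
        | refl => exact zpowers_le.2 x.2
        | tail _ h ih => exact hin _ _ h ih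
      exact this (mem_zpowers y)
    refine hH (eq_top_iff.2 fun g _ => ?_)
    by_contra hg
    refine hI g hg (hx' ▸ Subgroup.orderOf_dvd_natCard _ ⟨x.2, g⁻¹ * x * g, hall _ ?_, ?_⟩)
    · rw [show g⁻¹ * (x : G) * g = MulAut.conj g⁻¹ (x : G) by simp, MulEquiv.orderOf_eq, hx']
    · show g * (g⁻¹ * x * g) * g⁻¹ = x
      group
  · intro hconn
    simp only [Cfsg.IsKConnected, not_forall] at hconn
    obtain ⟨E0, E', hE0, hE0c, hE', hE'c, hnc⟩ := hconn
    let H : Subgroup G :=
      { carrier := {g | Rs E0 (cj g E0)}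
        one_mem' := by
          show Rs E0 (cj 1 E0)
          rw [show cj 1 E0 = E0 by simp only [cj, map_one]; exact Subgroup.map_id E0]
        mul_mem' := fun {g h} hg hh => by
          show Rs E0 (cj (g * h) E0)
          rw [hcmul]; exact hg.trans (hcRs g hh)
        inv_mem' := fun {g} hg => by
          show Rs E0 (cj g⁻¹ E0)
          have h := hcRs g⁻¹ hg
          rw [← hcmul, inv_mul_cancel, show cj 1 E0 = E0 by simp only [cj, map_one]; exact Subgroup.map_id E0] at h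
          exact hrev h }
    obtain ⟨y, hy, hyo⟩ := hne (E := E0) ⟨hE0, hE0c⟩
    have hE0H : E0 ≤ H := fun z hz => by
      show Rs E0 (cj z E0)
      rw [show cj z E0 = E0 from map_conj_eq_of_mem_normalizer (le_normalizer hz)]
    have hfix : ∀ h ∈ H, ∀ {X}, Rs E0 X → Rs E0 (cj h X) := fun h hh {X} hX => hh.trans (hcRs h hX)
    have hpH : p ∣ Nat.card ↥H := hyo ▸ Subgroup.orderOf_dvd_natCard H (hE0H hy)
    -- every element of order `p` of `H` lies in the component
    have hcomp : ∀ x ∈ H, orderOf x = p → Rs E0 (zpowers x) := by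
      let y' : ↥H := ⟨y, hE0H hy⟩
      have hy'o : orderOf y' = p := by rw [← Subgroup.orderOf_coe]; exact hyo
      obtain ⟨P0, hP0⟩ := (IsPGroup.of_card (n := 1) (by rw [Nat.card_zpowers, hy'o, pow_one]) :
        IsPGroup p ↥(zpowers y')).exists_le_sylow
      haveI : Nontrivial ↥(P0 : Subgroup ↥H) := ⟨⟨y', hP0 (mem_zpowers y')⟩, 1, fun e => by
        have e' : y' = 1 := congrArg Subtype.val e
        rw [e', orderOf_one] at hy'o
        exact hp.one_lt.ne hy'o⟩
      haveI : Nontrivial ↥(center ↥(P0 : Subgroup ↥H)) := P0.2.center_nontrivial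
      obtain ⟨k, hk, hkc⟩ := (P0.2.to_subgroup (center ↥(P0 : Subgroup ↥H))).nontrivial_iff_card.1 inferInstance
      obtain ⟨z, hz⟩ := exists_prime_orderOf_dvd_card' p (hkc ▸ dvd_pow_self p (by omega) :
        p ∣ Nat.card ↥(center ↥(P0 : Subgroup ↥H)))
      let zg : G := (((z : ↥(P0 : Subgroup ↥H)) : ↥H) : G)
      have hzg : orderOf zg = p := by
        rw [Subgroup.orderOf_coe, Subgroup.orderOf_coe, Subgroup.orderOf_coe]; exact hz
      have hcz : ∀ u : ↥H, u ∈ P0 → orderOf (u : G) = p → R (zpowers zg) (zpowers (u : G)) := by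
        intro u hu huo
        refine ⟨(hline _ hzg).1, (hline _ hzg).2, (hline _ huo).1, (hline _ huo).2, fun a ha b hb => ?_⟩
        obtain ⟨i, rfl⟩ := mem_zpowers_iff.1 ha
        obtain ⟨j, rfl⟩ := mem_zpowers_iff.1 hb
        have hc : (u : ↥H) * ((z : ↥(P0 : Subgroup ↥H)) : ↥H) = ((z : ↥(P0 : Subgroup ↥H)) : ↥H) * u :=
          congrArg Subtype.val (mem_center_iff.1 z.2 ⟨u, hu⟩)
        exact ((show Commute zg (u : G) from (congrArg Subtype.val hc).symm).zpow_zpow i j).eq
      have h0y : Rs E0 (zpowers y) := Relation.ReflTransGen.single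
        (hsymm _ _ (hsub y ⟨hE0, hE0c⟩ hy hyo))
      have h0z : Rs E0 (zpowers zg) :=
        h0y.tail (hsymm _ _ (hcz y' (hP0 (mem_zpowers y')) hyo))
      intro x hx hxo
      obtain ⟨P', hP'⟩ := (IsPGroup.of_card (n := 1) (by
        rw [Nat.card_zpowers, ← Subgroup.orderOf_coe, pow_one]; exact hxo) :
        IsPGroup p ↥(zpowers (⟨x, hx⟩ : ↥H))).exists_le_sylow
      obtain ⟨h, rfl⟩ := MulAction.exists_smul_eq ↥H P0 P'
      obtain ⟨u, hu, hux⟩ := (hP' (mem_zpowers _) : (⟨x, hx⟩ : ↥H) ∈ ((h • P0 : Sylow p ↥H) : Subgroup ↥H))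
      have hu' : MulAut.conj (h : G) (u : G) = x := congrArg Subtype.val hux
      have huo : orderOf (u : G) = p := by rw [← MulEquiv.orderOf_eq (MulAut.conj (h : G)), hu']; exact hxo
      have := hfix h h.2 (h0z.tail (hcz u hu huo))
      rw [show cj (h : G) (zpowers (u : G)) = zpowers x by
        simp only [cj, MonoidHom.map_zpowers]; exact congrArg zpowers hu'] at this
      exact this
    refine ⟨H, fun htop => hnc ?_, hpH, fun g hg hdvd => hg ?_⟩
    · obtain ⟨x, hxE, hxo⟩ := hne (E := E') ⟨hE', hE'c⟩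
      exact (hcomp x (htop ▸ mem_top x) hxo).tail (hsub x ⟨hE', hE'c⟩ hxE hxo)
    · obtain ⟨x, hx⟩ := exists_prime_orderOf_dvd_card' p hdvd
      obtain ⟨hxH, u, hu, hux⟩ := x.2
      have hxo : orderOf (x : G) = p := by rw [Subgroup.orderOf_coe]; exact hx
      have huo : orderOf u = p := by
        rw [← MulEquiv.orderOf_eq (MulAut.conj g), show MulAut.conj g u = (x : G) from hux]; exact hxo
      have h1 := hcRs g (hcomp u hu huo)
      rw [show cj g (zpowers u) = zpowers (x : G) by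
        simp only [cj, MonoidHom.map_zpowers]; exact congrArg zpowers hux] at h1
      exact (hcomp _ hxH hxo).trans (hrev h1)

end Cfsg.Agent.S1336
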