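import Cfsg.Statements.S1343
import Cfsg.Agent.Lib.Components.Extended
-- import your own Cfsg.Agent.* helpers here

set_option autoImplicit false
open Cfsg

namespace Cfsg.Agent.S1343
open Subgroup Cfsg.Agent.Lib.Components
open scoped commutatorElement


/-- Let X be finite. Then L*_{2'}(X) = L_{2'}(X) ⊔ F for some subgroup F of odd order normalized by a Sylow 2-subgroup of X. -/
theorem result {X : Type*} [Group X] [Finite X] : ∃ F : Subgroup X, Odd (Nat.card ↥F) ∧ (∃ S : Sylow 2 X, (S : Subgroup X) ≤ Subgroup.normalizer (F : Set X)) ∧ Cfsg.extendedTwoLayer X = Cfsg.pLayer 2 X ⊔ F := by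
  haveI := Fact.mk Nat.prime_two
  obtain ⟨T⟩ : Nonempty (Sylow 2 ↥(layerCoreTwo X)) := inferInstance
  obtain ⟨S, -, hS⟩ := exists_sylow_sylImg T
  refine ⟨Cfsg.oddCore X ⊔ centCore (sylImg T), ?_, ⟨S, ?_⟩, by rw [extendedTwoLayer_eq T, sup_assoc]⟩
  · rw [← Nat.coprime_two_right]
    exact ((pPrimeCore_coprime 2).mul_left (centCore_coprime _)).coprime_dvd_left
      ⟨_, (card_sup_mul_card_inf_eq (le_top.trans (normalizer_eq_top (H := Cfsg.oddCore X)).ge)).symm⟩
  · intro g hg
    refine mem_normalizer_of_map_conj_eq ?_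
    rw [Subgroup.map_sup, map_conj_eq_of_mem_normalizer (H := Cfsg.oddCore X)
      (le_top.trans (normalizer_eq_top (H := Cfsg.oddCore X)).ge (mem_top g)),
      map_conj_eq_of_mem_normalizer (normalizer_sylImg_le T (hS hg))]

end Cfsg.Agent.S1343
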