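import Cfsg.Statements.S1347
import Cfsg.Agent.Lib.StdSub.Trichotomy
-- import your own Cfsg.Agent.* helpers here

set_option autoImplicit false
open Cfsg

namespace Cfsg.Agent.S1347

/-- Let A be a standard subgroup of the finite group G with O(G) = 1, and t an involution of C_G(A). Then (i) A is normal in G; or (ii) there is a non-abelian simple subgroup X ≅ A with X and tXt⁻¹ commuting, meeting trivially and generating E(G), and C_G(A) = ⟨t⟩; or (iii) A ≤ E(G) and E(G) is non-abelian simple. -/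
theorem result {G : Type*} [Group G] [Finite G] (A : Subgroup G) (hA : Cfsg.IsStandardSubgroup A) (hO : Cfsg.oddCore G = ⊥) (t : G) (ht : orderOf t = 2) (htA : t ∈ Subgroup.centralizer (A : Set G)) : A.Normal ∨ (∃ X : Subgroup G, IsSimpleGroup ↥X ∧ ¬ IsMulCommutative ↥X ∧ Nonempty (↥X ≃* ↥A) ∧ (∀ a ∈ X, ∀ b ∈ X.map (MulAut.conj t).toMonoidHom, a * b = b * a) ∧ X ⊓ X.map (MulAut.conj t).toMonoidHom = ⊥ ∧ X ⊔ X.map (MulAut.conj t).toMonoidHom = Cfsg.layer G ∧ Subgroup.centralizer (A : Set G) = Subgroup.zpowers t) ∨ (A ≤ Cfsg.layer G ∧ IsSimpleGroup ↥(Cfsg.layer G) ∧ ¬ IsMulCommutative ↥(Cfsg.layer G)) := by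
  exact Cfsg.Agent.Lib.StdSub.trichotomy A hA hO t ht htA

end Cfsg.Agent.S1347
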