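import Cfsg.Statements.S1348
import Cfsg.Agent.Lib.Classical.Simple
import Cfsg.Agent.Lib.Components.Basic

set_option autoImplicit false
open Cfsg

namespace Cfsg.Agent.S1348

open Matrix
open scoped commutatorElement

universe u

variable {F : Type u} [Field F] [Fintype F] [DecidableEq F]

theorem exists_emb (m : ℕ) :
    ∃ ι : Matrix.SpecialLinearGroup (Fin m) F →* Matrix.SpecialLinearGroup (Fin (m + 1)) F,
      Function.Injective ι ∧ ∀ A : Matrix.SpecialLinearGroup (Fin m) F,
        (ι A : Matrix (Fin (m + 1)) (Fin (m + 1)) F) =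
          Matrix.reindexAlgEquiv F F finSumFinEquiv
            (fromBlocks (A : Matrix (Fin m) (Fin m) F) 0 0 (1 : Matrix (Fin 1) (Fin 1) F)) := by
  let R := Matrix.reindexAlgEquiv F F (finSumFinEquiv : Fin m ⊕ Fin 1 ≃ Fin (m + 1))
  have hd : ∀ A : Matrix.SpecialLinearGroup (Fin m) F,
      (R (fromBlocks (A : Matrix (Fin m) (Fin m) F) 0 0 (1 : Matrix (Fin 1) (Fin 1) F))).det = 1 := fun A => by
    show (Matrix.reindex _ _ _).det = 1
    rw [Matrix.det_reindex_self, Matrix.det_fromBlocks_zero₂₁, det_one, mul_one]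
    exact A.2
  refine ⟨{ toFun := fun A => ⟨_, hd A⟩
            map_one' := by
              apply Subtype.ext
              show R (fromBlocks 1 0 0 1) = 1
              rw [fromBlocks_one, map_one]
            map_mul' := fun A B => by
              apply Subtype.ext
              show R (fromBlocks ((A : Matrix (Fin m) (Fin m) F) * (B : Matrix (Fin m) (Fin m) F)) 0 0 1) =
                R _ * R _
              rw [← map_mul, fromBlocks_multiply]
              simp }, ?_, fun A => rfl⟩
  intro A B h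
  have h' := R.injective (congrArg Subtype.val h)
  rw [fromBlocks_inj] at h'
  exact Subtype.ext h'.1

theorem main (hF : Odd (Fintype.card F)) (m : ℕ) (hm : 6 ≤ m) (hev : Even m)
    (t : Matrix.SpecialLinearGroup (Fin (m + 1)) F)
    (ht : (t : Matrix (Fin (m + 1)) (Fin (m + 1)) F) =
      Matrix.reindexAlgEquiv F F finSumFinEquiv
        (fromBlocks (-1 : Matrix (Fin m) (Fin m) F) 0 0 (1 : Matrix (Fin 1) (Fin 1) F))) :
    Cfsg.IsStandardSubgroup ((Cfsg.layer ↥(Subgroup.centralizer ({t} : Set (Matrix.SpecialLinearGroup (Fin (m + 1)) F)))).map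
      (Subgroup.centralizer ({t} : Set (Matrix.SpecialLinearGroup (Fin (m + 1)) F))).subtype) := by
  have h2 : (2 : F) ≠ 0 := by
    intro h
    have : ringChar F = 2 := CharP.ringChar_of_prime_eq_zero Nat.prime_two (by exact_mod_cast h)
    have := FiniteField.even_card_iff_char_two.mp this
    obtain ⟨k, hk⟩ := hF
    omega
  let R := Matrix.reindexAlgEquiv F F (finSumFinEquiv : Fin m ⊕ Fin 1 ≃ Fin (m + 1))
  obtain ⟨ι, hinj, hι⟩ := exists_emb (F := F) m
  have hι1 : ∀ A : Matrix.SpecialLinearGroup (Fin m) F, (ι A).1 = R (fromBlocks A.1 0 0 1) := hι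
  have ht0 : t.1 = R (fromBlocks (-1) 0 0 1) := ht
  have vmul : ∀ x y : Matrix.SpecialLinearGroup (Fin (m + 1)) F, (x * y).1 = x.1 * y.1 := fun _ _ => rfl
  set C := Subgroup.centralizer ({t} : Set (Matrix.SpecialLinearGroup (Fin (m + 1)) F)) with hC
  set L := ι.range with hL
  have blocks : ∀ g ∈ C, ∃ (A : Matrix (Fin m) (Fin m) F) (d : Matrix (Fin 1) (Fin 1) F),
      g.1 = R (fromBlocks A 0 0 d) ∧ A.det * d.det = 1 := by
    intro g hg
    have h : g.1 * t.1 = t.1 * g.1 := by
      rw [← vmul, ← vmul, Subgroup.mem_centralizer_singleton_iff.mp hg]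
    obtain ⟨X, hX⟩ := R.surjective g.1
    rw [ht0, ← hX, ← map_mul, ← map_mul] at h
    have h' := R.injective h
    rw [← fromBlocks_toBlocks X, fromBlocks_multiply, fromBlocks_multiply, fromBlocks_inj] at h'
    obtain ⟨-, h12, h21, -⟩ := h'
    simp at h12 h21
    have hneg : ∀ x : F, -x = x → x = 0 := fun x hx => by
      have : (2 : F) * x = 0 := by linear_combination -hx
      exact (mul_eq_zero.mp this).resolve_left h2
    have z12 : X.toBlocks₁₂ = 0 := by
      ext i j
      refine hneg _ ?_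
      have := congrFun (congrFun h12 i) j
      simp only [Matrix.neg_apply] at this
      first | exact this | exact this.symm
    have z21 : X.toBlocks₂₁ = 0 := by
      ext i j
      refine hneg _ ?_
      have := congrFun (congrFun h21 i) j
      simp only [Matrix.neg_apply] at this
      first | exact this | exact this.symm
    have e : g.1 = R (fromBlocks X.toBlocks₁₁ 0 0 X.toBlocks₂₂) := by
      rw [← hX]
      conv_lhs => rw [← fromBlocks_toBlocks X, z12, z21]
    refine ⟨_, _, e, ?_⟩
    have hd : g.1.det = 1 := g.2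
    rw [e] at hd
    change (Matrix.reindex _ _ _).det = 1 at hd
    rwa [Matrix.det_reindex_self, Matrix.det_fromBlocks_zero₂₁] at hd
  have hblkC : ∀ (g : Matrix.SpecialLinearGroup (Fin (m + 1)) F) (A : Matrix (Fin m) (Fin m) F)
      (d : Matrix (Fin 1) (Fin 1) F), g.1 = R (fromBlocks A 0 0 d) → g ∈ C := by
    intro g A d hg
    rw [hC, Subgroup.mem_centralizer_singleton_iff]
    apply Subtype.ext
    show g.1 * t.1 = t.1 * g.1
    rw [hg, ht0, ← map_mul, ← map_mul, fromBlocks_multiply, fromBlocks_multiply]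
    simp
  have d1comm : ∀ d d' : Matrix (Fin 1) (Fin 1) F, d * d' = d' * d := fun d d' => by
    ext i j
    fin_cases i; fin_cases j
    simp [Matrix.mul_apply, mul_comm]
  have hinvblk : ∀ (g : Matrix.SpecialLinearGroup (Fin (m + 1)) F) (A A' : Matrix (Fin m) (Fin m) F)
      (d d' : Matrix (Fin 1) (Fin 1) F), g.1 = R (fromBlocks A 0 0 d) →
      (g⁻¹).1 = R (fromBlocks A' 0 0 d') → A * A' = 1 ∧ d * d' = 1 := by
    intro g A A' d d' hg hg'
    have h1 : R (fromBlocks A 0 0 d * fromBlocks A' 0 0 d') = R 1 := by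
      rw [map_mul, ← hg, ← hg', map_one]
      exact congrArg Subtype.val (mul_inv_cancel g)
    have h1' := R.injective h1
    rw [fromBlocks_multiply, ← fromBlocks_one, fromBlocks_inj] at h1'
    simpa using h1'
  have htL : t ∈ L := by
    have hd : (-1 : Matrix (Fin m) (Fin m) F).det = 1 := by
      rw [det_neg, det_one, Fintype.card_fin, Even.neg_one_pow hev, mul_one]
    exact ⟨⟨-1, hd⟩, Subtype.ext ((hι1 _).trans ht0.symm)⟩
  have hLC : L ≤ C := by
    rintro _ ⟨A, rfl⟩
    exact hblkC _ _ _ (hι1 A)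
  have hCL : ∀ g ∈ C, ∀ x ∈ L, g * x * g⁻¹ ∈ L := by
    rintro g hg _ ⟨B, rfl⟩
    obtain ⟨A, d, hgA, -⟩ := blocks g hg
    obtain ⟨A', d', hgA', -⟩ := blocks g⁻¹ (inv_mem hg)
    obtain ⟨hA, hd⟩ := hinvblk g A A' d d' hgA hgA'
    have hdet : (A * B.1 * A').det = 1 := by
      rw [det_mul, det_mul, B.2, mul_one, ← det_mul, hA, det_one]
    let B' : Matrix.SpecialLinearGroup (Fin m) F := ⟨A * B.1 * A', hdet⟩
    refine ⟨B', Subtype.ext ?_⟩
    show (ι B').1 = (g * ι B * g⁻¹).1
    rw [vmul, vmul, hι1, hι1, hgA, hgA', ← map_mul, ← map_mul, fromBlocks_multiply, fromBlocks_multiply]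
    simp [hd]
    rfl
  have hCN : C ≤ Subgroup.normalizer (L : Set (Matrix.SpecialLinearGroup (Fin (m + 1)) F)) := by
    intro g hg
    rw [Subgroup.mem_normalizer_iff]
    refine fun x => ⟨hCL g hg x, fun hx => ?_⟩
    have := hCL g⁻¹ (inv_mem hg) _ hx
    simpa [mul_assoc] using this
  have hcomm : ⁅C, C⁆ ≤ L := by
    rw [Subgroup.commutator_le]
    intro x hx y hy
    obtain ⟨A, d, hxA, -⟩ := blocks x hx
    obtain ⟨B, f, hyB, -⟩ := blocks y hy
    obtain ⟨A', d', hxA', -⟩ := blocks x⁻¹ (inv_mem hx)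
    obtain ⟨B', f', hyB', -⟩ := blocks y⁻¹ (inv_mem hy)
    have e : (⁅x, y⁆).1 = R (fromBlocks (A * B * A' * B') 0 0 (d * f * d' * f')) := by
      rw [commutatorElement_def]
      show x.1 * y.1 * (x⁻¹).1 * (y⁻¹).1 = _
      rw [hxA, hyB, hxA', hyB', ← map_mul, ← map_mul, ← map_mul]
      simp [fromBlocks_multiply]
    obtain ⟨-, hdd⟩ := hinvblk x A A' d d' hxA hxA'
    obtain ⟨-, hff⟩ := hinvblk y B B' f f' hyB hyB'
    have hc1 : d * f * d' * f' = 1 := by
      rw [mul_assoc d f d', d1comm f d', ← mul_assoc d d' f, hdd, one_mul, hff]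
    rw [hc1] at e
    have hdet : (A * B * A' * B').det = 1 := by
      have hd : (⁅x, y⁆).1.det = 1 := (⁅x, y⁆).2
      rw [e] at hd
      change (Matrix.reindex _ _ _).det = 1 at hd
      rwa [Matrix.det_reindex_self, Matrix.det_fromBlocks_zero₂₁, det_one, mul_one] at hd
    exact ⟨⟨_, hdet⟩, Subtype.ext ((hι1 _).trans e.symm)⟩
  have hLqs : IsQuasisimple ↥L := by
    have h0 : IsQuasisimple (Matrix.SpecialLinearGroup (Fin m) F) :=
      ⟨⟨Lib.Classical.SL_commutator_eq_top (by simp only [Fintype.card_fin]; omega)⟩,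
        Lib.Classical.isSimpleGroup_PSL (by simp only [Fintype.card_fin]; omega)⟩
    exact (Lib.Components.qs_congr (MonoidHom.ofInjective hinj)).1 h0
  have hlayer : (Cfsg.layer ↥C).map C.subtype = L := by
    have hL' : (L.subgroupOf C).map C.subtype = L := by
      rw [Subgroup.map_subgroupOf_eq_of_le hLC]
    haveI : (L.subgroupOf C).Normal := (Subgroup.normal_subgroupOf_iff_le_normalizer hLC).2 hCN
    have hcompL : IsComponent (L.subgroupOf C) :=
      ⟨Subgroup.Normal.isSubnormal inferInstance,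
        (Lib.Components.qs_congr (Subgroup.subgroupOfEquivOfLe hLC)).2 hLqs⟩
    refine le_antisymm ?_ ?_
    · conv_rhs => rw [← hL']
      refine Subgroup.map_mono ?_
      rw [Lib.Components.layer_le_iff]
      intro K hK
      rw [← Lib.Components.comp_perfect hK]
      refine (Subgroup.commutator_mono le_top le_top).trans ?_
      rw [← Subgroup.map_le_map_iff_of_injective C.subtype_injective, hL', Subgroup.map_commutator,
        ← MonoidHom.range_eq_map, Subgroup.range_subtype]
      exact hcomm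
    · conv_lhs => rw [← hL']
      exact Subgroup.map_mono (Lib.Components.comp_le_layer hcompL)
  rw [hlayer]
  set K := Subgroup.centralizer (L : Set (Matrix.SpecialLinearGroup (Fin (m + 1)) F)) with hK
  have hKC : K ≤ C := by
    intro g hg
    rw [hC, Subgroup.mem_centralizer_singleton_iff]
    exact (Subgroup.mem_centralizer_iff.1 hg t htL).symm
  have hKscal : ∀ g ∈ K, ∃ (a : F) (d : Matrix (Fin 1) (Fin 1) F),
      g.1 = R (fromBlocks (Matrix.scalar (Fin m) a) 0 0 d) ∧ a ^ m * d.det = 1 := by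
    intro g hg
    obtain ⟨A, d, hgA, hAd⟩ := blocks g (hKC hg)
    have hA : A ∈ Set.range (Matrix.scalar (Fin m)) := by
      refine Matrix.mem_range_scalar_of_commute_transvectionStruct fun τ => ?_
      let T : Matrix.SpecialLinearGroup (Fin m) F := ⟨τ.toMatrix, τ.det⟩
      have h := congrArg Subtype.val (Subgroup.mem_centralizer_iff.1 hg (ι T) ⟨T, rfl⟩)
      change (ι T).1 * g.1 = g.1 * (ι T).1 at h
      rw [hι1, hgA, ← map_mul, ← map_mul, fromBlocks_multiply, fromBlocks_multiply] at h
      have h' := R.injective h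
      rw [fromBlocks_inj] at h'
      have h'' := h'.1
      simp at h''
      exact h''
    obtain ⟨a, rfl⟩ := hA
    refine ⟨a, d, hgA, ?_⟩
    rwa [Matrix.scalar_apply, det_diagonal, Finset.prod_const, Finset.card_univ, Fintype.card_fin] at hAd
  have hKcent : ∀ g ∈ K, ∀ x ∈ C, x * g = g * x := by
    intro g hg x hx
    obtain ⟨a, d, hga, -⟩ := hKscal g hg
    obtain ⟨B, f, hxB, -⟩ := blocks x hx
    apply Subtype.ext
    show x.1 * g.1 = g.1 * x.1
    rw [hxB, hga, ← map_mul, ← map_mul, fromBlocks_multiply, fromBlocks_multiply]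
    simp only [Matrix.mul_zero, Matrix.zero_mul, add_zero, zero_add]
    rw [d1comm f d, (Matrix.scalar_commute a (Commute.all a) B).eq]
  have htK : t ∈ K := by
    rw [hK, Subgroup.mem_centralizer_iff]
    intro x hx
    exact Subgroup.mem_centralizer_singleton_iff.1 (hLC hx)
  have ht1 : t ≠ 1 := by
    intro h
    have h' : R (fromBlocks (-1 : Matrix (Fin m) (Fin m) F) 0 0 1) = R 1 := by
      rw [← ht0, h, map_one]; rfl
    have h'' := R.injective h'
    rw [← fromBlocks_one, fromBlocks_inj] at h''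
    have h0 := congrFun (congrFun h''.1 ⟨0, by omega⟩) ⟨0, by omega⟩
    simp at h0
    exact h2 (by linear_combination -h0)
  have ht2 : t * t = 1 := by
    apply Subtype.ext
    show t.1 * t.1 = 1
    rw [ht0, ← map_mul, fromBlocks_multiply]
    simp
  have huniq : ∀ g ∈ K, g * g = 1 → g ≠ 1 → g = t := by
    intro g hg hgg hg1
    obtain ⟨a, d, hga, had⟩ := hKscal g hg
    have h : g.1 * g.1 = 1 := congrArg Subtype.val hgg
    rw [hga, ← map_mul, ← map_one R, fromBlocks_multiply] at h
    have h' := R.injective h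
    rw [← fromBlocks_one, fromBlocks_inj] at h'
    have ha2 : a * a = 1 := by
      have h0 := congrFun (congrFun h'.1 ⟨0, by omega⟩) ⟨0, by omega⟩
      simpa using h0
    have ham : a ^ m = 1 := by
      obtain ⟨k, hk⟩ := hev
      rw [hk, pow_add, ← mul_pow, ha2, one_pow]
    rw [ham, one_mul, det_fin_one] at had
    have hd1 : d = 1 := by
      ext i j
      fin_cases i; fin_cases j
      simpa using had
    subst hd1
    rcases mul_self_eq_one_iff.1 ha2 with rfl | rfl
    · refine absurd (Subtype.ext ?_) hg1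
      show g.1 = 1
      rw [hga, map_one, fromBlocks_one, map_one]
    · refine Subtype.ext ?_
      show g.1 = t.1
      rw [hga, ht0, map_neg, map_one]
  have hCNK : C ≤ Subgroup.normalizer (K : Set (Matrix.SpecialLinearGroup (Fin (m + 1)) F)) := by
    intro g hg
    rw [Subgroup.mem_normalizer_iff]
    intro x
    constructor
    · intro hx
      rw [hKcent x hx g hg, mul_inv_cancel_right]
      exact hx
    · intro hx
      have h := hKcent _ hx g⁻¹ (inv_mem hg)
      have : x = g * x * g⁻¹ := by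
        have h2 : x * g⁻¹ = g * x * g⁻¹ * g⁻¹ := by rw [← h]; group
        exact mul_right_cancel h2
      rwa [← this] at hx
  have hconjC : ∀ g : Matrix.SpecialLinearGroup (Fin (m + 1)) F, g * t * g⁻¹ = t → g ∈ C := by
    intro g hg
    rw [hC, Subgroup.mem_centralizer_singleton_iff]
    exact mul_inv_eq_iff_eq_mul.1 hg
  refine ⟨hLqs, ⟨?_, ?_⟩, ?_, ?_⟩
  · have ho : orderOf (⟨t, htK⟩ : K) = 2 := by
      refine orderOf_eq_prime ?_ ?_
      · rw [pow_two]; exact Subtype.ext ht2
      · intro h; exact ht1 (congrArg Subtype.val h)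
    exact even_iff_two_dvd.2 (ho ▸ orderOf_dvd_natCard _)
  · intro g hg
    by_contra hodd
    rw [Nat.not_odd_iff_even, even_iff_two_dvd] at hodd
    haveI : Fact (Nat.Prime 2) := ⟨Nat.prime_two⟩
    obtain ⟨x, hx⟩ := exists_prime_orderOf_dvd_card' 2 hodd
    have hx2 : x.1 * x.1 = 1 := by
      have h := pow_orderOf_eq_one x
      rw [hx, pow_two] at h
      exact congrArg Subtype.val h
    have hx1 : x.1 ≠ 1 := by
      intro h
      have : x = 1 := Subtype.ext h
      rw [this, orderOf_one] at hx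
      exact absurd hx (by decide)
    have hxt := huniq x.1 x.2.1 hx2 hx1
    obtain ⟨y, hyK, hy⟩ := x.2.2
    change g * y * g⁻¹ = x.1 at hy
    have hy2 : y * y = 1 := by
      have : g * (y * y) * g⁻¹ = 1 := by
        rw [← hx2, ← hy]; group
      exact conj_eq_one_iff.1 this
    have hy1 : y ≠ 1 := by
      intro h
      rw [h, mul_one, mul_inv_cancel] at hy
      exact hx1 hy.symm
    rw [huniq y hyK hy2 hy1, hxt] at hy
    exact hg (hCNK (hconjC g hy))
  · intro g _ hbot
    set Lg := L.map (MulAut.conj g).toMonoidHom with hLg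
    have hle : Lg ≤ K := by
      rw [Subgroup.commutator_comm] at hbot
      exact Subgroup.commutator_eq_bot_iff_le_centralizer.1 hbot
    have h0 : ⁅Lg, Lg⁆ = ⊥ := by
      rw [eq_bot_iff, Subgroup.commutator_le]
      intro a ha b hb
      rw [Subgroup.mem_bot, commutatorElement_eq_one_iff_mul_comm]
      exact hKcent b (hle hb) a (hKC (hle ha))
    rw [hLg, ← Subgroup.map_commutator,
      Subgroup.map_eq_bot_iff_of_injective _ (MulAut.conj g).injective] at h0
    exact Lib.Components.qs_commutator_ne_bot hLqs h0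
  · refine le_antisymm ?_ ?_
    · intro g hg
      have key : ∀ h ∈ Subgroup.normalizer (L : Set (Matrix.SpecialLinearGroup (Fin (m + 1)) F)),
          ∀ k ∈ K, h * k * h⁻¹ ∈ K := by
        intro h hh k hk
        rw [hK, Subgroup.mem_centralizer_iff]
        intro y hy
        have h2 : h⁻¹ * y * h ∈ L := (Subgroup.mem_normalizer_iff''.1 hh y).1 hy
        have h3 := Subgroup.mem_centralizer_iff.1 hk _ h2
        calc y * (h * k * h⁻¹) = h * ((h⁻¹ * y * h) * k) * h⁻¹ := by group
          _ = h * (k * (h⁻¹ * y * h)) * h⁻¹ := by rw [h3]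
          _ = (h * k * h⁻¹) * y := by group
      rw [Subgroup.mem_normalizer_iff]
      intro k
      refine ⟨key g hg k, fun hk => ?_⟩
      have := key g⁻¹ (inv_mem hg) _ hk
      simpa [mul_assoc] using this
    · intro g hg
      have hgt : g * t * g⁻¹ ∈ K := (Subgroup.mem_normalizer_iff.1 hg t).1 htK
      have h2' : g * t * g⁻¹ * (g * t * g⁻¹) = 1 := by
        calc g * t * g⁻¹ * (g * t * g⁻¹) = g * (t * t) * g⁻¹ := by group
          _ = 1 := by rw [ht2]; group
      have h1' : g * t * g⁻¹ ≠ 1 := fun h => ht1 (conj_eq_one_iff.1 h)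
      exact hCN (hconjC g (huniq _ hgt h2' h1'))

/-- Let F be a finite field of odd order, n ≥ 7 odd, and t ∈ SL(n, F) the diagonal matrix with entries −1, …, −1, 1. Then E(C(t)) is a standard subgroup of SL(n, F). -/
theorem result {F : Type*} [Field F] [Fintype F] [DecidableEq F] (hF : Odd (Fintype.card F)) (n : ℕ) (hn : 7 ≤ n) (hodd : Odd n) (t : Matrix.SpecialLinearGroup (Fin n) F) (ht : (t : Matrix (Fin n) (Fin n) F) = Matrix.diagonal (fun i : Fin n => if (i : ℕ) + 1 = n then (1 : F) else -1)) : Cfsg.IsStandardSubgroup ((Cfsg.layer ↥(Subgroup.centralizer ({t} : Set (Matrix.SpecialLinearGroup (Fin n) F)))).map (Subgroup.centralizer ({t} : Set (Matrix.SpecialLinearGroup (Fin n) F))).subtype) := by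
  obtain ⟨m, rfl⟩ : ∃ m, n = m + 1 := ⟨n - 1, by omega⟩
  refine main hF m (by omega) (by obtain ⟨k, hk⟩ := hodd; exact ⟨k, by omega⟩) t ?_
  rw [ht]
  ext i j
  obtain ⟨a, rfl⟩ := finSumFinEquiv.surjective i
  obtain ⟨b, rfl⟩ := finSumFinEquiv.surjective j
  rw [Matrix.reindexAlgEquiv_apply, Matrix.reindex_apply, Matrix.submatrix_apply,
    Equiv.symm_apply_apply, Equiv.symm_apply_apply]
  rcases a with a | a <;> rcases b with b | b
  · simp only [finSumFinEquiv_apply_left, Matrix.diagonal_apply, Fin.val_castAdd, fromBlocks_apply₁₁,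
      Matrix.neg_apply, Matrix.one_apply]
    rcases eq_or_ne a b with rfl | hab
    · simp [a.isLt.ne]
    · simp [hab, Fin.ext_iff, Fin.val_ne_of_ne hab]
  · simp [Matrix.diagonal_apply, Fin.ext_iff]
    intro h; have := a.isLt; omega
  · simp [Matrix.diagonal_apply, Fin.ext_iff]
    intro h; have := b.isLt; omega
  · fin_cases a; fin_cases b
    simp

end Cfsg.Agent.S1348
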