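import Cfsg.Statements.S1350
import Cfsg.Agent.Lib.Uniq.EStruct
-- import your own Cfsg.Agent.* helpers here

set_option autoImplicit false
open Cfsg

namespace Cfsg.Agent.S1350

/-- Let G be a minimal simple group of odd order and M a maximal subgroup. Then M_σ (the largest normal σ(M)-subgroup of M) is a Hall σ(M)-subgroup of M and also of G, and every Hall σ(M)-subgroup of M that is normal in M equals M_σ. -/
theorem result {G : Type*} [Group G] [Finite G] (hG : Cfsg.IsMinSimpleOddOrder G)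
    (M : Subgroup G) (hM : IsCoatom M) :
    Cfsg.IsPiHallOf (Cfsg.sigma M) (Cfsg.sigmaCore M) M ∧ Cfsg.IsPiHall (Cfsg.sigma M) (Cfsg.sigmaCore M) ∧
      ∀ N : Subgroup G, M ≤ Subgroup.normalizer (N : Set G) → Cfsg.IsPiHallOf (Cfsg.sigma M) N M →
        N = Cfsg.sigmaCore M := by
  have key : ∀ r : ℕ, r.Prime → r ∈ Cfsg.sigma M →
      ¬ r ∣ (Cfsg.sigmaCore M).relIndex M ∧ ¬ r ∣ (Cfsg.sigmaCore M).index := fun r hr h => by
    haveI := Fact.mk hr
    exact Lib.Uniq.sigmaCore_hall hG hM h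
  have hπ : ∀ r : ℕ, r.Prime → r ∣ Nat.card (Cfsg.sigmaCore M) → r ∈ Cfsg.sigma M :=
    Lib.OddLocal.piCoreOf_isPi (Cfsg.sigma M) M
  refine ⟨⟨Subgroup.map_subtype_le _, hπ, fun r hr h => (key r hr h).1⟩, ⟨hπ, fun r hr h => (key r hr h).2⟩,
    fun N hN hNH => le_antisymm (Lib.OddLocal.le_piCoreOf hNH.1 hN hNH.2.1) ?_⟩
  haveI : (N.subgroupOf M).Normal := (Subgroup.normal_subgroupOf_iff_le_normalizer hNH.1).mpr hN
  have h : Cfsg.piCore (Cfsg.sigma M) ↥M ≤ N.subgroupOf M := Lib.Uniq.le_of_coprime_index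
    (Nat.coprime_of_dvd fun r hr h1 h2 => hNH.2.2 r hr (Lib.OddLocal.piCore_isPi (Cfsg.sigma M) r hr h1) h2)
  refine (Subgroup.map_mono h).trans ?_
  rw [Subgroup.map_subgroupOf_eq_of_le hNH.1]

end Cfsg.Agent.S1350
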