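import Cfsg.Statements.S1358
import Cfsg.Agent.Lib.OddLocal.UPart
-- import your own Cfsg.Agent.* helpers here

set_option autoImplicit false
open Cfsg

namespace Cfsg.Agent.S1358

/-- Let G be a minimal simple group of odd order and M a maximal subgroup with standard factorisation M = K U M_σ. Then for every prime p, every Sylow p-subgroup of U is abelian and has no elementary abelian subgroup of order p ^ 3. -/
theorem result {G : Type*} [Group G] [Finite G] (hG : Cfsg.IsMinSimpleOddOrder G)
    (M : Subgroup G) (hM : IsCoatom M) (K U : Subgroup G) (hKU : Cfsg.IsSigmaDecomposition M K U) :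
    ∀ (p : ℕ), p.Prime → ∀ P : Sylow p U, IsMulCommutative (P : Subgroup U) ∧ Cfsg.PRankLE p 2 (P : Subgroup U) := by
  intro p hp P
  haveI := Fact.mk hp
  have hUM : U ≤ M := hKU.compl.1
  by_cases hd : p ∣ Nat.card U
  · obtain ⟨hσ, -⟩ := Lib.OddLocal.UPart.prime_U hG hM hKU hp hd
    have hc := Lib.Uniq.pgroup_comm_of_not_sigma hG hM hσ (P.2.map U.subtype) ((Subgroup.map_subtype_le _).trans hUM)
    exact ⟨⟨⟨fun a b => Subtype.ext (Subtype.ext (hc _ ⟨a, a.2, rfl⟩ _ ⟨b, b.2, rfl⟩))⟩⟩,
      Lib.Hall.prankLE_of_injective ((Subgroup.inclusion hUM).comp (P : Subgroup U).subtype)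
        ((Subgroup.inclusion_injective hUM).comp (P : Subgroup U).subtype_injective)
        (Lib.Uniq.rank_two_of_not_sigma hG hM hp hσ)⟩
  · have h1 : Nat.card (P : Subgroup U) = 1 := by
      rw [P.card_eq_multiplicity, Nat.factorization_eq_zero_of_not_dvd hd, pow_zero]
    haveI : Subsingleton (P : Subgroup U) := (Nat.card_eq_one_iff_unique.mp h1).1
    exact ⟨⟨⟨fun a b => Subsingleton.elim _ _⟩⟩, Lib.Uniq.prankLE_of_not_dvd (by rw [h1]; exact hp.not_dvd_one)⟩

end Cfsg.Agent.S1358
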