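import Cfsg.Statements.S1369
import Cfsg.Agent.Lib.Uniq.KappaMain
-- import your own Cfsg.Agent.* helpers here

set_option autoImplicit false
open Cfsg

namespace Cfsg.Agent.S1369

/-- Let G be a minimal simple group of odd order, M a maximal subgroup with standard factorisation M = K U M_σ, K ≠ 1, K* = M_σ ∩ C_G(K), and M* a maximal subgroup with K = M*_σ ∩ C_G(K*) and K* a Hall κ(M*)-subgroup of M*. Then either U ≠ 1 or every K*-invariant complement of K* M*_σ in M* is nontrivial; and every maximal subgroup H of G with κ(H) nonempty is conjugate to M or to M*. -/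
theorem result {G : Type*} [Group G] [Finite G] (hG : Cfsg.IsMinSimpleOddOrder G)
    (M : Subgroup G) (hM : IsCoatom M) (K U : Subgroup G) (hKU : Cfsg.IsSigmaDecomposition M K U) (hK1 : K ≠ ⊥) (Mstar : Subgroup G) (hMstar : IsCoatom Mstar)
    (hKst : K = Cfsg.sigmaCore Mstar ⊓ Subgroup.centralizer ((Cfsg.sigmaCore M ⊓ Subgroup.centralizer (K : Set G)) : Set G))
    (hKstH : Cfsg.IsPiHallOf (Cfsg.kappa Mstar) (Cfsg.sigmaCore M ⊓ Subgroup.centralizer (K : Set G)) Mstar) :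
    (U ≠ ⊥ ∨ ∀ Ustar : Subgroup G, Cfsg.IsSigmaDecomposition Mstar (Cfsg.sigmaCore M ⊓ Subgroup.centralizer (K : Set G)) Ustar → Ustar ≠ ⊥) ∧
      ∀ H : Subgroup G, IsCoatom H → (Cfsg.kappa H).Nonempty →
        ∃ g : G, H = M.map (MulAut.conj g).toMonoidHom ∨ H = Mstar.map (MulAut.conj g).toMonoidHom := by
  have h : Lib.Uniq.IsKappaPair M K Mstar := ⟨hM, hKU.hall, hK1, hMstar, hKstH, hKst.symm⟩
  refine ⟨?_, fun H hH hne => ?_⟩
  · rcases h.not_both_isP1 hG (Lib.Uniq.h77 hG) with hP | hP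
    · exact Or.inl fun hU => hP ((Lib.Uniq.isP1_iff hG hM hKU).mpr hU)
    · exact Or.inr fun Us hUs hU => hP ((Lib.Uniq.isP1_iff hG hMstar hUs).mpr hU)
  · obtain ⟨J, hJ, -⟩ := Lib.Uniq.exists_hall_ge hG hH.1 (bot_le : ⊥ ≤ H) (Cfsg.kappa H)
      (fun r hr hd => absurd (Subgroup.card_bot (G := G) ▸ hd) hr.not_dvd_one)
    obtain ⟨t, ht⟩ := hne
    have hJ1 : J ≠ ⊥ := fun e => hJ.2.2 t ht.1 ht (by rw [e, Subgroup.relIndex_bot_left]; exact ht.2.1)
    obtain ⟨L, h'⟩ := Lib.Uniq.exists_pair hG hH hJ hJ1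
    exact h.exists_conj hG h'

end Cfsg.Agent.S1369
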