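import Cfsg.Statements.S1370
import Cfsg.Agent.Lib.Uniq.KappaMain
-- import your own Cfsg.Agent.* helpers here

set_option autoImplicit false
open Cfsg

namespace Cfsg.Agent.S1370

/-- Let G be a minimal simple group of odd order, M a maximal subgroup with standard factorisation M = K U M_σ, K ≠ 1, K* = M_σ ∩ C_G(K) and Z the subgroup generated by K and K*. Then the set of elements of Z lying in neither K nor K* is a TI-subset of G, and its set-normalizer in G is exactly Z. -/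
theorem result {G : Type*} [Group G] [Finite G] (hG : Cfsg.IsMinSimpleOddOrder G)
    (M : Subgroup G) (hM : IsCoatom M) (K U : Subgroup G) (hKU : Cfsg.IsSigmaDecomposition M K U) (hK1 : K ≠ ⊥) :
    Cfsg.IsTISubset ((↑(K ⊔ (Cfsg.sigmaCore M ⊓ Subgroup.centralizer (K : Set G))) : Set G) \ ((K : Set G) ∪ ↑(Cfsg.sigmaCore M ⊓ Subgroup.centralizer (K : Set G)))) ∧ Subgroup.normalizer ((↑(K ⊔ (Cfsg.sigmaCore M ⊓ Subgroup.centralizer (K : Set G))) : Set G) \ ((K : Set G) ∪ ↑(Cfsg.sigmaCore M ⊓ Subgroup.centralizer (K : Set G)))) = K ⊔ (Cfsg.sigmaCore M ⊓ Subgroup.centralizer (K : Set G)) := by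
  obtain ⟨N, h⟩ := Lib.Uniq.exists_pair hG hM hKU.hall hK1
  set W := ((↑(K ⊔ (Cfsg.sigmaCore M ⊓ Subgroup.centralizer (K : Set G))) : Set G) \
    ((K : Set G) ∪ ↑(Cfsg.sigmaCore M ⊓ Subgroup.centralizer (K : Set G)))) with hW
  have hle : K ⊔ (Cfsg.sigmaCore M ⊓ Subgroup.centralizer (K : Set G)) ≤ Subgroup.normalizer W := by
    haveI := h.cyclic_join hG (Lib.Uniq.h77 hG)
    intro g hg
    refine Subgroup.centralizer_le_normalizer _ (Subgroup.mem_centralizer_iff.mpr fun z hz => ?_)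
    exact congrArg Subtype.val ((IsCyclic.commGroup
      (α := ↥(K ⊔ (Cfsg.sigmaCore M ⊓ Subgroup.centralizer (K : Set G))))).mul_comm
      ⟨z, hz.1⟩ ⟨g, hg⟩)
  refine ⟨fun g hg x hx hgx => absurd (hle (h.mem_of_conj hG hx hgx.1)) hg, le_antisymm (fun g hg => ?_) hle⟩
  obtain ⟨z, hz⟩ := h.zHat_nonempty hG
  exact h.mem_of_conj hG hz ((Subgroup.mem_set_normalizer_iff.mp hg z).mp hz).1

end Cfsg.Agent.S1370
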