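import Cfsg.Statements.S1371
import Cfsg.Agent.Lib.Uniq.KappaMain
import Cfsg.Agent.Lib.OddLocal.Decomposition
-- import your own Cfsg.Agent.* helpers here

set_option autoImplicit false
open Cfsg

namespace Cfsg.Agent.S1371

/-- Let G be a minimal simple group of odd order, M a maximal subgroup with standard factorisation M = K U M_σ, K ≠ 1, K* = M_σ ∩ C_G(K), and Ẑ the set of elements of K K* outside K ∪ K*. Then the union of the M-conjugates of Ẑ equals A₀(M) with A(M) removed, and it is a TI-subset of G. -/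
theorem result {G : Type*} [Group G] [Finite G] (hG : Cfsg.IsMinSimpleOddOrder G)
    (M : Subgroup G) (hM : IsCoatom M) (K U : Subgroup G) (hKU : Cfsg.IsSigmaDecomposition M K U) (hK1 : K ≠ ⊥) :
    {a : G | ∃ m ∈ M, ∃ z ∈ ((↑(K ⊔ (Cfsg.sigmaCore M ⊓ Subgroup.centralizer (K : Set G))) : Set G) \ ((K : Set G) ∪ ↑(Cfsg.sigmaCore M ⊓ Subgroup.centralizer (K : Set G)))), a = m * z * m⁻¹} = Cfsg.sigmaA0 M K \ Cfsg.sigmaA M U ∧
      Cfsg.IsTISubset (Cfsg.sigmaA0 M K \ Cfsg.sigmaA M U) := by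
  classical
  obtain ⟨N, h⟩ := Lib.Uniq.exists_pair hG hM hKU.hall hK1
  obtain ⟨-, hcent⟩ := Lib.OddLocal.Decomposition.centralizer_kappa hG hM hKU.cyclic hKU.hall
  set S := Cfsg.sigmaCore M ⊓ Subgroup.centralizer (K : Set G) with hS
  set W₀ := U ⊔ Cfsg.sigmaCore M with hW₀
  have hW₀M : W₀ ≤ M := sup_le hKU.compl.1 (Subgroup.map_subtype_le _)
  have hW₀n : M ≤ Subgroup.normalizer (W₀ : Set G) := Lib.OddLocal.UPart.normal_U_sigma hKU
  have hW₀p : ∀ p : ℕ, p.Prime → p ∣ Nat.card W₀ → p ∉ Cfsg.kappa M := fun p hp hd => by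
    rcases Lib.Uniq.prime_dvd_sup
      (hKU.compl.1.trans (Lib.OddLocal.le_normalizer_piCoreOf (Cfsg.sigma M) M)) hp hd with hd | hd
    · exact (Lib.OddLocal.UPart.prime_U hG hM hKU hp hd).2
    · exact fun hκ => hκ.2.2.1 (Lib.OddLocal.piCoreOf_isPi (Cfsg.sigma M) M p hp hd)
  have hSσ : ∀ p : ℕ, p.Prime → p ∣ Nat.card S → p ∉ Cfsg.kappa M := fun p hp hd hκ =>
    hκ.2.2.1 (Lib.OddLocal.piCoreOf_isPi (Cfsg.sigma M) M p hp (hd.trans (Subgroup.card_dvd_of_le inf_le_left)))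
  have hinv : ∀ g ∈ M, ∀ a : G, (∃ m ∈ M, ∃ z ∈ ((↑(K ⊔ S) : Set G) \ ((K : Set G) ∪ ↑S)), a = m * z * m⁻¹) →
      ∃ m ∈ M, ∃ z ∈ ((↑(K ⊔ S) : Set G) \ ((K : Set G) ∪ ↑S)), g * a * g⁻¹ = m * z * m⁻¹ := by
    rintro g hg _ ⟨m, hm, z, hz, rfl⟩
    exact ⟨g * m, M.mul_mem hg hm, z, hz, by group⟩
  have heq : {a : G | ∃ m ∈ M, ∃ z ∈ ((↑(K ⊔ S) : Set G) \ ((K : Set G) ∪ ↑S)), a = m * z * m⁻¹} =
      Cfsg.sigmaA0 M K \ Cfsg.sigmaA M U := by
    ext a
    constructor
    · rintro ⟨m, hm, z, hz, rfl⟩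
      obtain ⟨k, hk, hk1, s, hs, hs1, hzks, n, hn, -⟩ := h.split hz
      have hzM : z ∈ M := h.memberM.le hz.1
      have hzs : z * s = s * z := by
        have hks : k * s = s * k := Subgroup.mem_centralizer_iff.mp hs.2 k hk
        rw [hzks]
        calc k * s * s = s * k * s := by rw [hks]
          _ = _ := by group
      refine ⟨⟨⟨M.mul_mem (M.mul_mem hm hzM) (M.inv_mem hm), m * s * m⁻¹, ?_, fun e => hs1 (conj_eq_one_iff.mp e), ?_⟩, ?_⟩, ?_⟩
      · exact (Subgroup.mem_normalizer_iff.mp (Lib.OddLocal.le_normalizer_piCoreOf (Cfsg.sigma M) M hm) s).mp hs.1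
      · calc m * z * m⁻¹ * (m * s * m⁻¹) = m * (z * s) * m⁻¹ := by group
          _ = _ := by rw [hzs]; group
      · rintro ⟨k', hk', -, m', -, he⟩
        have hzc : z = (m⁻¹ * m') * k' * (m⁻¹ * m')⁻¹ := by
          calc z = m⁻¹ * (m * z * m⁻¹) * m := by group
            _ = _ := by rw [he]; group
        refine hz.2 (Or.inl ?_)
        refine Lib.Uniq.mem_left_of_join (π := Cfsg.kappa M) (Subgroup.le_centralizer_iff.mp inf_le_right)
          hKU.hall.2.1 hSσ hz.1 ?_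
        rw [hzc]
        exact (Lib.Uniq.PiElem.of_mem hKU.hall.2.1 hk').conj _
      · rintro ⟨-, hmem⟩
        have hzW : z ∈ W₀ := by
          have := (Subgroup.mem_normalizer_iff.mp (hW₀n hm) z).mpr hmem
          exact this
        obtain ⟨p, hp, hpd⟩ := Nat.exists_prime_and_dvd (fun e => hk1 (orderOf_eq_one_iff.mp e))
        refine hW₀p p hp (hpd.trans ?_) (hKU.hall.2.1 p hp (hpd.trans (K.orderOf_dvd_natCard hk)))
        rw [← hn]
        exact W₀.orderOf_dvd_natCard (W₀.pow_mem hzW n)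
    · rintro ⟨⟨haσ, hna⟩, hnA⟩
      have haM : a ∈ M := haσ.1
      have ha1 : a ≠ 1 := fun e => hnA ⟨haσ, by rw [e]; exact W₀.one_mem⟩
      obtain ⟨t, ht, htd, htκ⟩ : ∃ t : ℕ, t.Prime ∧ t ∣ orderOf a ∧ t ∈ Cfsg.kappa M := by
        by_contra hno
        push Not at hno
        refine hnA ⟨haσ, ?_⟩
        have hW₀K : W₀.relIndex M ∣ Nat.card K := by
          have hle : M ≤ W₀ ⊔ K := fun x hx => by
            obtain ⟨u, hu, w, hw, rfl⟩ := hKU.compl.2.2.2 x hx
            exact mul_mem (Subgroup.mem_sup_left (Subgroup.mem_sup_left hu))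
              (sup_le le_sup_right ((le_sup_right : Cfsg.sigmaCore M ≤ W₀).trans le_sup_left) hw)
          have h1 := Lib.Coprime.card_sup_mul_card_inf_of_le_normalizer (hKU.hall.1.trans hW₀n)
          rw [sup_comm, le_antisymm (sup_le hW₀M hKU.hall.1) hle, ← Lib.Hall.card_mul_relIndex' hW₀M,
            mul_comm (Nat.card K), mul_assoc] at h1
          exact Dvd.intro _ (Nat.eq_of_mul_eq_mul_left Nat.card_pos h1)
        haveI : (W₀.subgroupOf M).Normal := (Subgroup.normal_subgroupOf_iff_le_normalizer hW₀M).mpr hW₀n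
        have hle := Lib.Uniq.le_of_coprime_index (N := W₀.subgroupOf M)
          (H := Subgroup.zpowers (⟨a, haM⟩ : M)) (by
            rw [Nat.card_zpowers, Subgroup.orderOf_mk]
            refine Nat.coprime_of_dvd fun p hp h1 h2 => hno p hp h1 ?_
            exact hKU.hall.2.1 p hp ((h2 : p ∣ W₀.relIndex M).trans hW₀K))
        exact hle (Subgroup.mem_zpowers _)
      haveI := Fact.mk ht
      set e := a ^ (orderOf a / t) with he
      have heo : orderOf e = t := orderOf_pow_orderOf_div (orderOf_pos a).ne' htd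
      haveI := Lib.Uniq.solvable_of_ne_top hG hM.1
      have hco : (Nat.card (K.subgroupOf M)).Coprime (K.subgroupOf M).index := by
        rw [Lib.Coprime.card_subgroupOf hKU.hall.1]
        exact Nat.coprime_of_dvd fun p hp h1 h2 => hKU.hall.2.2 p hp (hKU.hall.2.1 p hp h1) h2
      obtain ⟨g, hg⟩ := Lib.Hall.exists_le_conj hco (K := Subgroup.zpowers (⟨e, M.pow_mem haM _⟩ : M)) (by
        rw [Nat.card_zpowers, Subgroup.orderOf_mk, heo]
        exact ht.coprime_iff_not_dvd.mpr (hKU.hall.2.2 t ht htκ))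
      obtain ⟨w, hw, hwe⟩ := hg (Subgroup.mem_zpowers _)
      have hge : (g : G) * (w : G) * (g : G)⁻¹ = e := congrArg Subtype.val hwe
      have hw1 : (w : G) ≠ 1 := fun e1 => ht.ne_one (by
        rw [← heo, ← hge, e1, mul_one, mul_inv_cancel, orderOf_one])
      set a' := (g : G)⁻¹ * a * g with ha'
      have haw : a' * (w : G) = (w : G) * a' := by
        have hae : a * e = e * a := (Commute.self_pow a _).eq
        rw [← hge] at hae
        calc a' * (w : G) = (g : G)⁻¹ * (a * ((g : G) * w * (g : G)⁻¹)) * g := by rw [ha']; group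
          _ = _ := by rw [hae, ha']; group
      have ha'Z : a' ∈ K ⊔ S := (hcent hK1 w hw hw1).le
        ⟨M.mul_mem (M.mul_mem (M.inv_mem g.2) haM) g.2, Subgroup.mem_centralizer_singleton_iff.mpr haw⟩
      have haa' : a = (g : G) * a' * (g : G)⁻¹ := by rw [ha']; group
      have ho : orderOf a' = orderOf a := by
        rw [haa', show (g : G) * a' * (g : G)⁻¹ = MulAut.conj (g : G) a' from rfl, MulEquiv.orderOf_eq]
      refine ⟨g, g.2, a', ⟨ha'Z, ?_⟩, haa'⟩
      rintro (hK' | hS')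
      · exact hna ⟨a', hK', fun e1 => ha1 (by rw [haa', e1, mul_one, mul_inv_cancel]), g, g.2, haa'⟩
      · exact hSσ t ht ((ho ▸ htd).trans (S.orderOf_dvd_natCard hS')) htκ
  refine ⟨heq, ?_⟩
  rw [← heq]
  rintro g hg x ⟨m, hm, z, hz, rfl⟩ ⟨m', hm', z', hz', he⟩
  refine absurd ?_ hg
  have hmem : m'⁻¹ * g * m ∈ K ⊔ S := h.mem_of_conj hG hz (by
    have h1 : m'⁻¹ * g * m * z * (m'⁻¹ * g * m)⁻¹ = z' := by
      calc m'⁻¹ * g * m * z * (m'⁻¹ * g * m)⁻¹ = m'⁻¹ * (g * (m * z * m⁻¹) * g⁻¹) * m' := by group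
        _ = _ := by rw [he]; group
    rw [h1]
    exact hz'.1)
  have hgM : g ∈ M := by
    have h1 := M.mul_mem (M.mul_mem hm' (h.memberM.le hmem)) (M.inv_mem hm)
    simpa [mul_assoc] using h1
  rw [Subgroup.mem_set_normalizer_iff]
  exact fun a => ⟨hinv g hgM a, fun ha => by simpa [mul_assoc] using hinv g⁻¹ (M.inv_mem hgM) _ ha⟩

end Cfsg.Agent.S1371
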