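import Cfsg.Statements.S1385
import Cfsg.Agent.Lib.OddTypes.Char
import Cfsg.Agent.Lib.Uniq.KappaPairProps
import Cfsg.Agent.S1369
import Cfsg.Agent.S1380
import Cfsg.Agent.S1381
import Cfsg.Agent.S1382
import Cfsg.Agent.S1383
-- import your own Cfsg.Agent.* helpers here

set_option autoImplicit false
open Cfsg

namespace Cfsg.Agent.S1385

/-- Let G be a minimal simple group of odd order. Then either every maximal subgroup of G is of Type I, or there are nontrivial subgroups W₁, W₂ generating a cyclic group W that is the normalizer of every nonempty subset of W outside W₁ ∪ W₂, and maximal subgroups S, T with W₁ a complement to S' in S, W₂ a complement to T' in T, S ∩ T = W, S or T of Type II, each of S, T of Type II, III, IV or V, and every maximal subgroup of G of Type I or conjugate to S or to T. -/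
theorem result {G : Type*} [Group G] [Finite G] (hG : Cfsg.IsMinSimpleOddOrder G) :
    (∀ M : Subgroup G, IsCoatom M → Cfsg.IsOfTypeI M) ∨
      ∃ W₁ W₂ S T : Subgroup G, Cfsg.IsSelfNormalizingCyclic W₁ W₂ ∧ IsCoatom S ∧ IsCoatom T ∧
        Cfsg.IsComplIn ⁅S, S⁆ W₁ S ∧ Cfsg.IsComplIn ⁅T, T⁆ W₂ T ∧ S ⊓ T = W₁ ⊔ W₂ ∧
        (Cfsg.IsOfTypeII S ∨ Cfsg.IsOfTypeII T) ∧
        (Cfsg.IsOfTypeII S ∨ Cfsg.IsOfTypeIII S ∨ Cfsg.IsOfTypeIV S ∨ Cfsg.IsOfTypeV S) ∧
        (Cfsg.IsOfTypeII T ∨ Cfsg.IsOfTypeIII T ∨ Cfsg.IsOfTypeIV T ∨ Cfsg.IsOfTypeV T) ∧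
        ∀ M : Subgroup G, IsCoatom M → Cfsg.IsOfTypeI M ∨ ∃ g : G, M = S.map (MulAut.conj g).toMonoidHom ∨ M = T.map (MulAut.conj g).toMonoidHom := by
  have hI : ∀ M : Subgroup G, IsCoatom M → ¬ (Cfsg.kappa M).Nonempty → Cfsg.IsOfTypeI M := by
    intro M hM hne
    obtain ⟨K, U, hKU⟩ := Lib.OddTypes.exists_KU hG hM
    have hK : K = ⊥ := by
      by_contra hK
      obtain ⟨r, hr, hrd⟩ := Nat.exists_prime_and_dvd (fun e => hK (K.eq_bot_of_card_eq e))
      exact hne ⟨r, hKU.hall.2.1 r hr hrd⟩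
    exact (S1380.result hG M hM K U hKU).mpr ⟨hK, Lib.OddTypes.U_ne_of_trivial_K hG hM hKU hK⟩
  by_cases hall : ∀ M : Subgroup G, IsCoatom M → ¬ (Cfsg.kappa M).Nonempty
  · exact Or.inl fun M hM => hI M hM (hall M hM)
  push Not at hall
  obtain ⟨S, hS, hκS⟩ := hall
  obtain ⟨K, U, hKU⟩ := Lib.OddTypes.exists_KU hG hS
  obtain ⟨r, hr⟩ := hκS
  have hK : K ≠ ⊥ := by
    intro hK
    haveI := Fact.mk hr.1
    refine hKU.hall.2.2 r hr.1 hr ?_
    rw [hK]
    simpa [Subgroup.relIndex_bot_left] using hr.2.1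
  obtain ⟨T, hp⟩ := Lib.Uniq.exists_pair hG hS hKU.hall hK
  set W := Cfsg.sigmaCore S ⊓ Subgroup.centralizer (K : Set G)
  have hW : W ≠ ⊥ := Lib.Uniq.star_ne_bot hG hS hKU.hall hK
  haveI hcyc : IsCyclic ↥(K ⊔ W) := hp.cyclic_join hG (Lib.Uniq.h77 hG)
  obtain ⟨V, hV⟩ := Lib.OddLocal.Decomposition.exists_decomposition hG hp.coatomN
    (Subgroup.isCyclic_of_le (le_sup_right : W ≤ K ⊔ W)) hp.hallN
  obtain ⟨hone, hconj⟩ := S1369.result hG S hS K U hKU hK T hp.coatomN hp.fixed.symm hp.hallN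
  have htype : ∀ (M J L : Subgroup G), IsCoatom M → Cfsg.IsSigmaDecomposition M J L → J ≠ ⊥ →
      Cfsg.IsOfTypeII M ∨ Cfsg.IsOfTypeIII M ∨ Cfsg.IsOfTypeIV M ∨ Cfsg.IsOfTypeV M := by
    intro M J L hM hJL hJ
    by_cases hL : L = ⊥
    · by_cases hF : Cfsg.fittingHallOf M = Cfsg.sigmaCore M
      · exact Or.inr (Or.inr (Or.inr ((S1383.result hG M hM J L hJL).mpr ⟨hJ, hL, hF⟩)))
      · rcases (S1382.result hG M hM J L hJL).mpr ⟨hJ, hL, hF⟩ with h | h
        · exact Or.inr (Or.inl h)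
        · exact Or.inr (Or.inr (Or.inl h))
    · exact Or.inl ((S1381.result hG M hM J L hJL).mpr ⟨hJ, hL⟩)
  refine Or.inr ⟨K, W, S, T, Lib.OddTypes.selfNormalizing hG hS hKU hK, hS, hp.coatomN,
    Lib.OddTypes.derived_compl hG hS hKU hK, Lib.OddTypes.derived_compl hG hp.coatomN hV hW,
    hp.inter hG, ?_, htype S K U hS hKU hK, htype T W V hp.coatomN hV hW, fun M hM => ?_⟩
  · rcases hone with h | h
    · exact Or.inl ((S1381.result hG S hS K U hKU).mpr ⟨hK, h⟩)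
    · exact Or.inr ((S1381.result hG T hp.coatomN W V hV).mpr ⟨hW, h V hV⟩)
  · by_cases hM' : (Cfsg.kappa M).Nonempty
    · exact Or.inr (hconj M hM hM')
    · exact Or.inl (hI M hM hM')

end Cfsg.Agent.S1385
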