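import Cfsg.Statements.S1386
import Cfsg.Agent.Lib.OddLocal.CyclicSub

set_option autoImplicit false
open Cfsg

namespace Cfsg.Agent.S1386

/-- Let G be a finite group, W₁, W₂ subgroups forming a self-normalizing cyclic pair, S a subgroup with W₂ ≤ S and W₁ a complement to S' in S, and (W₁, U, W₂') type-P data for S. Then W₂' = W₂ (that is, C_{S'}(W₁) = W₂). -/
theorem result {G : Type*} [Group G] [Finite G] (W₁ W₂ S U W₂' : Subgroup G) (hW : Cfsg.IsSelfNormalizingCyclic W₁ W₂)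
    (hSW : Cfsg.IsComplIn ⁅S, S⁆ W₁ S) (hW₂S : W₂ ≤ S) (hP : Cfsg.IsTypePWith S W₁ U W₂') :
    W₂' = W₂ := by
  obtain ⟨hW1, hW2, hdisj, hcomm, hcyc, hnorm⟩ := hW
  obtain ⟨hW1', hW2', hdisj', hcomm', hcyc', hnorm'⟩ := hP.selfNormalizing
  have cent : ∀ w : G, Subgroup.normalizer ({w} : Set G) = Subgroup.centralizer ({w} : Set G) := by
    intro w; ext g
    rw [Subgroup.mem_centralizer_singleton_iff, Subgroup.mem_set_normalizer_iff]
    refine ⟨fun h => mul_inv_eq_iff_eq_mul.mp ((h w).mp rfl), fun h z => ?_⟩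
    simp only [Set.mem_singleton_iff]
    refine ⟨fun hz => ?_, fun hz => ?_⟩
    · rw [hz, mul_inv_eq_iff_eq_mul, h]
    · rw [mul_inv_eq_iff_eq_mul, ← h] at hz
      exact mul_left_cancel hz
  obtain ⟨x, hx, hx1⟩ := (Subgroup.bot_or_exists_ne_one W₁).resolve_left hW1
  obtain ⟨y, hy, hy1⟩ := (Subgroup.bot_or_exists_ne_one W₂).resolve_left hW2
  -- `S ∩ C(x)` lies in `W₁ W₂'`
  have hsub : W₂ ≤ W₁ ⊔ W₂' := by
    intro b hb
    obtain ⟨c, hc, d, hd, rfl⟩ := hSW.2.2.2 b (hW₂S hb)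
    have h1 : x * (c * d) = (c * d) * x := hcomm x hx _ hb
    have hd' : x * d = d * x := by
      letI := hP.W₁_cyclic.commGroup
      exact congrArg Subtype.val (mul_comm (⟨x, hx⟩ : W₁) ⟨d, hd⟩)
    have hc' : x * c = c * x := by
      apply mul_right_cancel (b := d)
      rw [mul_assoc c x d, hd', ← mul_assoc c d x, mul_assoc x c d]; exact h1
    have hc2 : c ∈ W₂' := by
      rw [← hP.W₂_centralizer x hx hx1]
      exact ⟨hc, Subgroup.mem_centralizer_singleton_iff.mpr hc'.symm⟩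
    exact mul_mem (Subgroup.mem_sup_right hc2) (Subgroup.mem_sup_left hd)
  have hle : W₁ ⊔ W₂ ≤ W₁ ⊔ W₂' := sup_le le_sup_left hsub
  have hw : x * y ∈ ((W₁ ⊔ W₂ : Subgroup G) : Set G) \ (↑W₁ ∪ ↑W₂) := by
    refine ⟨mul_mem (Subgroup.mem_sup_left hx) (Subgroup.mem_sup_right hy), ?_⟩
    rintro (h | h)
    · exact hy1 (Subgroup.mem_bot.mp (hdisj ▸ ⟨(W₁.mul_mem_cancel_left hx).mp h, hy⟩))
    · exact hx1 (Subgroup.mem_bot.mp (hdisj ▸ ⟨hx, (W₂.mul_mem_cancel_right hy).mp h⟩))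
  have hC : Subgroup.centralizer ({x * y} : Set G) = W₁ ⊔ W₂ := by
    rw [← cent]; exact hnorm {x * y} (by simpa using hw) ⟨_, rfl⟩
  have hEq : W₁ ⊔ W₂' = W₁ ⊔ W₂ := by
    refine le_antisymm ?_ hle
    rw [← hC]
    intro z hz
    rw [Subgroup.mem_centralizer_singleton_iff]
    letI := hcyc'.commGroup
    exact congrArg Subtype.val (mul_comm (⟨z, hz⟩ : ↥(W₁ ⊔ W₂')) ⟨x * y, hle hw.1⟩)
  have card_mul : ∀ B : Subgroup G, W₁ ⊓ B = ⊥ → (∀ a ∈ W₁, ∀ b ∈ B, a * b = b * a) →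
      Nat.card ↥(W₁ ⊔ B) = Nat.card W₁ * Nat.card B := by
    intro B hB hc
    have hn : W₁ ≤ Subgroup.normalizer (B : Set G) := fun a ha => by
      refine Subgroup.centralizer_le_normalizer _ (Subgroup.mem_centralizer_iff.mpr ?_)
      exact fun b hb => (hc a ha b hb).symm
    have h := Subgroup.coe_mul_of_left_le_normalizer_right W₁ B hn
    rw [← Nat.card_prod]
    refine (Nat.card_congr (Equiv.ofBijective
      (fun z : W₁ × B => (⟨(z.1 : G) * z.2, mul_mem (Subgroup.mem_sup_left z.1.2)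
        (Subgroup.mem_sup_right z.2.2)⟩ : ↥(W₁ ⊔ B))) ⟨?_, ?_⟩)).symm
    · exact fun a b hab => Subgroup.mul_injective_of_disjoint (disjoint_iff.mpr hB) (congrArg Subtype.val hab)
    · rintro ⟨z, hz⟩
      rw [← SetLike.mem_coe, h] at hz
      obtain ⟨a, ha, b, hb, rfl⟩ := hz
      exact ⟨(⟨a, ha⟩, ⟨b, hb⟩), rfl⟩
  have hcard : Nat.card W₂' = Nat.card W₂ := by
    have h1 := card_mul W₂ hdisj hcomm
    have h2 := card_mul W₂' hdisj' hcomm'
    rw [hEq, h1] at h2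
    exact (Nat.eq_of_mul_eq_mul_left Nat.card_pos h2).symm
  haveI := hcyc
  exact Lib.OddLocal.eq_of_card_eq_of_le_cyclic (hEq ▸ le_sup_right) le_sup_right hcard

end Cfsg.Agent.S1386
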