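import Cfsg.Statements.S1389
import Cfsg.Agent.Lib.OddTypes.Char

set_option autoImplicit false
open Cfsg

namespace Cfsg.Agent.S1389

/-- Let G be a minimal simple group of odd order and M a maximal subgroup, and let M_s be M' if M is of Type III or IV and M_F otherwise. Then N_G(P) ≤ M for every nontrivial Sylow subgroup P of M_s, and both M_F and M_s have order coprime to their index in G. -/
theorem result {G : Type*} [Group G] [Finite G] (hG : Cfsg.IsMinSimpleOddOrder G)
    (M : Subgroup G) (hM : IsCoatom M) :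
    (∀ (p : ℕ), p.Prime → ∀ (P : Sylow p ↥(Cfsg.typeCore M)), (P : Subgroup ↥(Cfsg.typeCore M)) ≠ ⊥ →
        Subgroup.normalizer ((((P : Subgroup ↥(Cfsg.typeCore M)).map (Cfsg.typeCore M).subtype : Subgroup G)) : Set G) ≤ M) ∧
      (Nat.card (Cfsg.fittingHallOf M)).Coprime (Cfsg.fittingHallOf M).index ∧
      (Nat.card (Cfsg.typeCore M)).Coprime (Cfsg.typeCore M).index := by
  rw [Lib.OddTypes.typeCore_eq hG hM]
  refine ⟨fun p hp P hP => ?_, Lib.OddTypes.fcore_coprime_index hG hM, Lib.OddTypes.sigmaCore_coprime_index hG hM⟩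
  haveI := Fact.mk hp
  have hpd : p ∣ Nat.card ↥(Cfsg.sigmaCore M) := by
    obtain ⟨k, hk⟩ := IsPGroup.iff_card.mp P.2
    have hk0 : k ≠ 0 := fun e => hP (Subgroup.card_eq_one.mp (by rw [hk, e, pow_zero]))
    exact ((dvd_pow_self p hk0).trans hk.symm.dvd).trans (Subgroup.card_subgroup_dvd_card _)
  have hσ : p ∈ Cfsg.sigma M := Lib.OddLocal.piCoreOf_isPi (Cfsg.sigma M) M p hp hpd
  have hle : (P : Subgroup ↥(Cfsg.sigmaCore M)).map (Cfsg.sigmaCore M).subtype ≤ Cfsg.sigmaCore M :=
    Subgroup.map_subtype_le _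
  have hndiv : ¬ p ∣ ((P : Subgroup ↥(Cfsg.sigmaCore M)).map (Cfsg.sigmaCore M).subtype).index := by
    rw [← Subgroup.relIndex_mul_index hle]
    intro hd
    rcases hp.dvd_mul.mp hd with h | h
    · rw [Subgroup.relIndex, Subgroup.subgroupOf,
        Subgroup.comap_map_eq_self_of_injective (Cfsg.sigmaCore M).subtype_injective] at h
      exact P.not_dvd_index h
    · exact (Lib.Uniq.sigmaCore_hall hG hM hσ).2 h
  exact Lib.Uniq.sylow_normalizer_le hG hM hσ ((P.2.map (Cfsg.sigmaCore M).subtype).toSylow hndiv)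
    (hle.trans (Subgroup.map_subtype_le _))

end Cfsg.Agent.S1389
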