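import Cfsg.Statements.S1390
import Cfsg.Agent.Lib.OddTypes.Complements
import Cfsg.Agent.S1358
import Cfsg.Agent.S1361
import Cfsg.Agent.S1362

set_option autoImplicit false
open Cfsg

namespace Cfsg.Agent.S1390

/-- Let G be a minimal simple group of odd order, M a maximal subgroup and H = M_F; suppose M is of Type I and U is a complement to H in M, or M is of Type II and U is a complement to H in M'. Then every Sylow subgroup of U is abelian with no elementary abelian subgroup of order p ^ 3; for every nonempty set X of non-identity elements of U centralizing a non-identity element of H, C_G(X) ≤ M and M is the unique maximal subgroup containing C_G(X); and A(M) with A₁(M) removed is a TI-subset of G. -/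
theorem result {G : Type*} [Group G] [Finite G] (hG : Cfsg.IsMinSimpleOddOrder G)
    (M : Subgroup G) (hM : IsCoatom M) (U : Subgroup G)
    (hU : (Cfsg.IsOfTypeI M ∧ Cfsg.IsComplIn (Cfsg.fittingHallOf M) U M) ∨ (Cfsg.IsOfTypeII M ∧ Cfsg.IsComplIn (Cfsg.fittingHallOf M) U ⁅M, M⁆)) :
    (∀ (p : ℕ), p.Prime → ∀ P : Sylow p U, IsMulCommutative (P : Subgroup U) ∧ Cfsg.PRankLE p 2 (P : Subgroup U)) ∧
      (∀ X : Set G, X ⊆ (U : Set G) \ {1} → X.Nonempty → Cfsg.fittingHallOf M ⊓ Subgroup.centralizer X ≠ ⊥ →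
        Subgroup.centralizer X ≤ M ∧ ∀ L : Subgroup G, IsCoatom L → Subgroup.centralizer X ≤ L → L = M) ∧
      Cfsg.IsTISubset (Cfsg.typeA M \ Cfsg.typeA1 M) := by
  obtain ⟨K, hKU, hset⟩ : ∃ K : Subgroup G, Cfsg.IsSigmaDecomposition M K U ∧
      Cfsg.typeA M \ Cfsg.typeA1 M = Cfsg.sigmaA M U \ (Cfsg.sigmaCore M : Set G) := by
    have hcore := Lib.OddTypes.typeCore_eq hG hM
    rcases hU with ⟨hI, hUc⟩ | ⟨hII, hUc⟩
    · obtain ⟨K, hK, hKU⟩ := Lib.OddTypes.exists_decomposition_typeI hG hM hI hUc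
      refine ⟨K, hKU, ?_⟩
      have hM' := Lib.OddTypes.eq_sup_of_trivial_K hKU hK
      have hF := Lib.OddTypes.fcore_eq_of_U hG hM hKU (Lib.OddTypes.U_ne_of_trivial_K hG hM hKU hK)
      simp only [Cfsg.typeA, if_pos hI, Cfsg.typeA1, hcore, hF, Cfsg.sigmaA, Cfsg.sigmaHat]
      ext a
      simp only [Set.mem_diff, Set.mem_setOf_eq, SetLike.mem_coe, Set.mem_singleton_iff, Set.mem_inter_iff, ← hM']
      exact ⟨fun ⟨⟨ha, ha1, hx⟩, hn⟩ => ⟨⟨⟨ha, hx⟩, ha⟩, fun h => hn ⟨h, ha1⟩⟩,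
        fun ⟨⟨⟨ha, hx⟩, _⟩, hn⟩ => ⟨⟨ha, fun e => hn (e ▸ one_mem _), hx⟩, fun h => hn h.1⟩⟩
    · obtain ⟨K, hK, hKU⟩ := Lib.OddTypes.exists_decomposition_typeII hG hM hII hUc
      refine ⟨K, hKU, ?_⟩
      have hnI : ¬ Cfsg.IsOfTypeI M := fun h => hK (Lib.OddTypes.typeI_imp hG hM hKU h).1
      have hD := Lib.OddLocal.Decomposition.derived_eq hG hM hKU hK
      simp only [Cfsg.typeA, if_neg hnI, Cfsg.typeA1, hcore, Cfsg.sigmaA, Cfsg.sigmaHat, hD]
      ext a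
      simp only [Set.mem_diff, Set.mem_setOf_eq, SetLike.mem_coe, Set.mem_singleton_iff, Set.mem_inter_iff]
      refine ⟨fun ⟨⟨ha, ha1, hx⟩, hn⟩ => ⟨⟨⟨?_, hx⟩, ha⟩, fun h => hn ⟨h, ha1⟩⟩,
        fun ⟨⟨⟨_, hx⟩, ha⟩, hn⟩ => ⟨⟨ha, fun e => hn (e ▸ one_mem _), hx⟩, fun h => hn h.1⟩⟩
      exact sup_le hKU.compl.1 (Subgroup.map_subtype_le _) ha
  refine ⟨S1358.result hG M hM K U hKU, fun X hX ⟨a, ha⟩ hC => ?_, hset ▸ S1362.result hG M hM K U hKU⟩
  rw [← Subgroup.centralizer_closure X] at hC ⊢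
  refine S1361.result hG M hM K U hKU (Subgroup.closure X)
    ((Subgroup.closure_le U).mpr fun b hb => (hX hb).1) (fun h => (hX ha).2 ?_)
    (fun h => hC (le_bot_iff.mp ?_))
  · exact Subgroup.mem_bot.mp (h ▸ Subgroup.subset_closure ha)
  · exact le_of_le_of_eq (inf_le_inf_right _ (Lib.OddTypes.fcore_le_sigmaCore hG hM)) h

end Cfsg.Agent.S1390
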