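import Cfsg.Statements.S1405
import Cfsg.Agent.Lib.Uniq.Alpha
-- import your own Cfsg.Agent.* helpers here

set_option autoImplicit false
open Cfsg

namespace Cfsg.Agent.S1405

/-- Let G be a minimal simple group of odd order and M a maximal subgroup, α(M) the set of primes p with M of p-rank at least 3, and M_α = O_{α(M)}(M). Then M_α is a Hall α(M)-subgroup of M and of G, M_α ≤ M_σ, the quotient M/M_α has no elementary abelian subgroup of order p ^ 3 for any prime p, and the image of M' in M/M_α is nilpotent. -/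
theorem result {G : Type*} [Group G] [Finite G] (hG : Cfsg.IsMinSimpleOddOrder G)
    (M : Subgroup G) (hM : IsCoatom M) :
    Cfsg.IsPiHallOf (Cfsg.alpha M) (Cfsg.alphaCore M) M ∧ Cfsg.IsPiHall (Cfsg.alpha M) (Cfsg.alphaCore M) ∧
      Cfsg.alphaCore M ≤ Cfsg.sigmaCore M ∧ Cfsg.RankLE 2 (↥M ⧸ Cfsg.piCore (Cfsg.alpha M) ↥M) ∧
      Group.IsNilpotent ↥((commutator ↥M).map (QuotientGroup.mk' (Cfsg.piCore (Cfsg.alpha M) ↥M))) := by
  have hss := Lib.Uniq.alpha_subset_sigma hG hM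
  have hpi : ∀ p : ℕ, p.Prime → p ∣ Nat.card (Cfsg.alphaCore M) → p ∈ Cfsg.alpha M :=
    Lib.OddLocal.piCoreOf_isPi (Cfsg.alpha M) M
  refine ⟨⟨Subgroup.map_subtype_le _, hpi, fun p hp ha => ?_⟩, ⟨hpi, fun p hp ha => ?_⟩,
    Subgroup.map_mono (Lib.OddLocal.le_piCore fun p hp h => hss (Lib.OddLocal.piCore_isPi _ p hp h)),
    Lib.Uniq.rankLE_quotient_alpha hG hM, ?_⟩
  · haveI := Fact.mk hp
    exact (Lib.Uniq.not_dvd_relIndex_core hG hM subset_rfl hss ha).1
  · haveI := Fact.mk hp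
    exact (Lib.Uniq.not_dvd_relIndex_core hG hM subset_rfl hss ha).2
  · haveI := Lib.Hall.fittingSubgroup_isNilpotent (G := ↥M ⧸ Cfsg.piCore (Cfsg.alpha M) ↥M)
    refine Group.nilpotent_of_mulEquiv (Subgroup.subgroupOfEquivOfLe (show
      (commutator ↥M).map (QuotientGroup.mk' (Cfsg.piCore (Cfsg.alpha M) ↥M)) ≤ Cfsg.fittingSubgroup _ from ?_))
    refine le_trans ?_ (Lib.Uniq.commutator_quotient_alpha hG hM)
    rw [commutator_def, Subgroup.map_commutator]
    exact Subgroup.commutator_mono le_top le_top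

end Cfsg.Agent.S1405
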