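import Cfsg.Statements.S1423
import Cfsg.Agent.Lib.Uniq.CentralizerSigma
-- import your own Cfsg.Agent.* helpers here

set_option autoImplicit false
open Cfsg

namespace Cfsg.Agent.S1423

/-- Let G be a minimal simple group of odd order, M a maximal subgroup, p ∈ σ(M), X ≤ M a subgroup of order p and P a Sylow p-subgroup of M_σ. If p ∈ β(M) or X ≤ (M_σ)', then C_G(X) ≤ M, M is the unique maximal subgroup containing C_G(X), and M is the unique maximal subgroup containing P. -/
theorem result {G : Type*} [Group G] [Finite G] (hG : Cfsg.IsMinSimpleOddOrder G)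
    (M : Subgroup G) (hM : IsCoatom M) (p : ℕ) [Fact p.Prime] (hp : p ∈ Cfsg.sigma M) (X : Subgroup G) (hXM : X ≤ M) (hX : Nat.card X = p)
    (P : Sylow p ↥(Cfsg.sigmaCore M)) (h : p ∈ Cfsg.beta M ∨ X ≤ ⁅Cfsg.sigmaCore M, Cfsg.sigmaCore M⁆) :
    (Subgroup.centralizer (X : Set G) ≤ M ∧ ∀ L : Subgroup G, IsCoatom L → Subgroup.centralizer (X : Set G) ≤ L → L = M) ∧ Cfsg.InUniqueMaximal ((P : Subgroup ↥(Cfsg.sigmaCore M)).map (Cfsg.sigmaCore M).subtype) ∧
      (P : Subgroup ↥(Cfsg.sigmaCore M)).map (Cfsg.sigmaCore M).subtype ≤ M := by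
  exact Cfsg.Agent.Lib.Uniq.centralizer_sigma_unique hG hM hp hXM hX P h

end Cfsg.Agent.S1423
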