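import Cfsg.Statements.S1424
import Cfsg.Agent.Lib.Uniq.CentralizerSigma
import Cfsg.Agent.Lib.OddLocal.CyclicSub
-- import your own Cfsg.Agent.* helpers here

set_option autoImplicit false
open Cfsg
open scoped Pointwise

namespace Cfsg.Agent.S1424

/-- Let G be a minimal simple group of odd order, M a maximal subgroup, q ∈ σ(M), X a nontrivial q-subgroup of M, M* a maximal subgroup different from M with N_G(X) ≤ M*, and S a Sylow q-subgroup of M ∩ M* containing X. Then M* is not conjugate to M in G, N_G(S) ≤ M, and q does not divide the index of S in M*. -/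
theorem result {G : Type*} [Group G] [Finite G] (hG : Cfsg.IsMinSimpleOddOrder G)
    (M : Subgroup G) (hM : IsCoatom M) (q : ℕ) [Fact q.Prime] (hq : q ∈ Cfsg.sigma M) (X : Subgroup G) (hXq : IsPGroup q X) (hX1 : X ≠ ⊥) (hXM : X ≤ M)
    (Mstar : Subgroup G) (hMs : IsCoatom Mstar) (hne : Mstar ≠ M) (hNX : Subgroup.normalizer (X : Set G) ≤ Mstar)
    (S : Sylow q ↥(M ⊓ Mstar)) (hXS : X ≤ (S : Subgroup ↥(M ⊓ Mstar)).map (M ⊓ Mstar).subtype) :
    (∀ g : G, Mstar ≠ M.map (MulAut.conj g).toMonoidHom) ∧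
      Subgroup.normalizer (((S : Subgroup ↥(M ⊓ Mstar)).map (M ⊓ Mstar).subtype : Subgroup G) : Set G) ≤ M ∧
      ¬ q ∣ ((S : Subgroup ↥(M ⊓ Mstar)).map (M ⊓ Mstar).subtype).relIndex Mstar := by
  have hXMs : X ≤ Mstar := Subgroup.le_normalizer.trans hNX
  set Sg := (S : Subgroup ↥(M ⊓ Mstar)).map (M ⊓ Mstar).subtype with hSg
  have hSp : IsPGroup q Sg := S.2.map _
  have hSle : Sg ≤ M ⊓ Mstar := Subgroup.map_subtype_le _
  -- a maximal `q`-subgroup of the intersection
  have hmax : ∀ R : Subgroup G, IsPGroup q R → R ≤ M ⊓ Mstar → Sg ≤ R → R = Sg := by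
    intro R hR hRle hge
    have hR' : IsPGroup q (R.subgroupOf (M ⊓ Mstar)) := hR.comap_subtype
    have h1 : (S : Subgroup ↥(M ⊓ Mstar)) ≤ R.subgroupOf (M ⊓ Mstar) := fun x hx => hge ⟨x, hx, rfl⟩
    rw [hSg, ← S.3 hR' h1, Subgroup.map_subgroupOf_eq_of_le hRle]
  -- growing inside a Sylow subgroup
  have grow : ∀ L : Subgroup G, Sg ≤ L → (∀ y ∈ L, y ∈ Subgroup.normalizer (Sg : Set G) → y ∈ M ⊓ Mstar) →
      ¬ q ∣ Sg.relIndex L := by
    intro L hL hN hd
    obtain ⟨T, hT⟩ := (hSp.comap_subtype (K := L)).exists_le_sylow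
    replace hT : Sg.subgroupOf L ≤ (T : Subgroup L) := hT
    have hlt : Sg.subgroupOf L < (T : Subgroup L) :=
      lt_of_le_of_ne hT fun e => T.not_dvd_index (e ▸ hd)
    haveI := T.2.isNilpotent
    have hlt' : (Sg.subgroupOf L).subgroupOf (T : Subgroup L) < ⊤ :=
      lt_top_iff_ne_top.2 fun e => hlt.not_ge (Subgroup.subgroupOf_eq_top.mp e)
    obtain ⟨y, hyN, hyS⟩ := SetLike.exists_of_lt (Group.normalizerCondition_of_isNilpotent _ hlt')
    rw [← Subgroup.subgroupOf_normalizer_eq hT, Subgroup.mem_subgroupOf, ← Subgroup.subgroupOf_normalizer_eq hL,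
      Subgroup.mem_subgroupOf] at hyN
    have hyp : IsPGroup q (Subgroup.zpowers ((y : L) : G)) :=
      (T.2.map L.subtype).to_le (Subgroup.zpowers_le.2 ⟨y, y.2, rfl⟩)
    have hle : Sg ⊔ Subgroup.zpowers ((y : L) : G) ≤ M ⊓ Mstar :=
      sup_le hSle (Subgroup.zpowers_le.2 (hN _ (y : L).2 hyN))
    have hyT : Sg ⊔ Subgroup.zpowers ((y : L) : G) ≤ (T : Subgroup L).map L.subtype := by
      refine sup_le ?_ (Subgroup.zpowers_le.2 ⟨y, y.2, rfl⟩)
      rw [← Subgroup.map_subgroupOf_eq_of_le hL]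
      exact Subgroup.map_mono hT
    have he := hmax _ ((T.2.map L.subtype).to_le hyT) hle le_sup_left
    exact hyS (he.le (Subgroup.mem_sup_right (Subgroup.mem_zpowers _)))
  have hnorm : Subgroup.normalizer (Sg : Set G) ≤ M := by
    by_cases hcyc : IsCyclic Sg
    · have hchar : Subgroup.normalizer (Sg : Set G) ≤ Subgroup.normalizer (X : Set G) := by
        intro g hg
        haveI := hcyc
        refine Cfsg.Agent.Lib.Coprime.mem_normalizer_of_conj_smul_eq ?_
        have hle : MulAut.conj g • X ≤ Sg := by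
          refine (Subgroup.pointwise_smul_le_pointwise_smul_iff.mpr hXS).trans ?_
          exact (Cfsg.Agent.Lib.Coprime.conj_smul_eq_self hg).le
        refine Cfsg.Agent.Lib.OddLocal.eq_of_card_eq_of_le_cyclic hle hXS ?_
        rw [Cfsg.Agent.Lib.Coprime.card_conj_smul]
      have hnd : ¬ q ∣ Sg.relIndex M := grow M (hSle.trans inf_le_left) fun y hy hyn => ⟨hy, hNX (hchar hyn)⟩
      obtain ⟨P₀, hP₀M, -⟩ := Cfsg.Agent.Lib.Uniq.exists_sigma_sylow hq
      have hG' : ¬ q ∣ Sg.index := by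
        rw [← Subgroup.relIndex_mul_index (hSle.trans inf_le_left), (Fact.out : q.Prime).dvd_mul]
        rintro (h | h)
        · exact hnd h
        · exact P₀.not_dvd_index (h.trans (Subgroup.index_dvd_of_le hP₀M))
      exact Cfsg.Agent.Lib.Uniq.sylow_normalizer_le hG hM hq (hSp.toSylow hG') (hSle.trans inf_le_left)
    · exact Cfsg.Agent.Lib.Uniq.normalizer_noncyclic_le hG hM hq hSp (hSle.trans inf_le_left) hcyc
  refine ⟨fun g hg => ?_, hnorm, grow Mstar (hSle.trans inf_le_right) fun y hy hyn => ⟨hnorm hyn, hy⟩⟩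
  have hgX : X.map (MulAut.conj g⁻¹).toMonoidHom ≤ M := by
    rintro _ ⟨x, hx, rfl⟩
    have := hXMs hx
    rw [hg] at this
    obtain ⟨z, hz, he⟩ := this
    simp only [MulEquiv.coe_toMonoidHom, MulAut.conj_apply] at he ⊢
    rw [← he]
    simpa [mul_assoc] using hz
  obtain ⟨m, hm, c, hc, he⟩ := (Cfsg.Agent.S1404.result hG M hM q hq X hXq hX1 hXM).1 g⁻¹ hgX
  have hcMs : c ∈ Mstar := hNX ((Subgroup.centralizer_le_normalizer _) hc)
  apply hne
  have h1 : MulAut.conj m⁻¹ • M = M :=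
    Cfsg.Agent.Lib.Coprime.conj_smul_eq_self (Subgroup.le_normalizer (M.inv_mem hm))
  have h2 : MulAut.conj c • Mstar = Mstar :=
    Cfsg.Agent.Lib.Coprime.conj_smul_eq_self (Subgroup.le_normalizer hcMs)
  have h3 : Mstar = MulAut.conj c⁻¹ • M := by
    have hg' : g = c⁻¹ * m⁻¹ := by rw [← mul_inv_rev, ← he, inv_inv]
    rw [hg]
    change MulAut.conj g • M = _
    rw [hg', Cfsg.Agent.Lib.Coprime.conj_smul_mul, h1]
  rw [h3, Cfsg.Agent.Lib.Coprime.conj_smul_inv_smul] at h2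
  rw [h3]
  exact h2.symm

end Cfsg.Agent.S1424
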