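import Cfsg.Statements.S1427
import Cfsg.Agent.Lib.Uniq.CyclicSylowAction
-- import your own Cfsg.Agent.* helpers here

set_option autoImplicit false
open Cfsg

namespace Cfsg.Agent.S1427

/-- Let G be a minimal simple group of odd order, M a maximal subgroup, E a complement to M_σ in M, and S a nontrivial cyclic Sylow subgroup of E (for some prime). Then M_σ ∩ C_G(x) = M_σ ∩ C_G(S) for every non-identity x ∈ S. -/
theorem result {G : Type*} [Group G] [Finite G] (hG : Cfsg.IsMinSimpleOddOrder G)
    (M : Subgroup G) (hM : IsCoatom M) (E : Subgroup G) (hE : Cfsg.IsComplIn E (Cfsg.sigmaCore M) M) (p : ℕ) [Fact p.Prime] (S : Sylow p E) (hS1 : (S : Subgroup E) ≠ ⊥) (hSc : IsCyclic (S : Subgroup E)) :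
    ∀ x ∈ (S : Subgroup E).map E.subtype, x ≠ 1 →
        Cfsg.sigmaCore M ⊓ Subgroup.centralizer ({x} : Set G) = Cfsg.sigmaCore M ⊓ Subgroup.centralizer (((S : Subgroup E).map E.subtype : Subgroup G) : Set G) := by
  exact fun x hx hx1 => Lib.Uniq.cyclic_sylow_prime_action hG hM hE S hSc hx hx1

end Cfsg.Agent.S1427
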