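import Cfsg.Statements.S1437
import Cfsg.Agent.Lib.OddLocal.FcoreStructure
-- import your own Cfsg.Agent.* helpers here

set_option autoImplicit false
open Cfsg

namespace Cfsg.Agent.S1437

/-- Let G be a minimal simple group of odd order and M a maximal subgroup with standard factorisation M = K U M_σ such that M_F ≠ M_σ; put K* = M_σ ∩ C_G(K), p = #K, q = #K*. Then U = 1 and M_σ = M'; p and q are prime, q divides #M_F and q ∈ β(M); M_σ has a Sylow q-subgroup Q normal in M and contained in M_F; every complement D of Q in M_σ is nilpotent, and Q₀ = Q ∩ C_G(D) is normal in M; Q₀ < Q with #Q = #Q₀ · q ^ p, every element of Q has its q-th power and all its commutators with Q in Q₀, and every subgroup strictly between Q₀ and Q fails to be normal in M. -/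
theorem result {G : Type*} [Group G] [Finite G] (hG : Cfsg.IsMinSimpleOddOrder G)
    (M : Subgroup G) (hM : IsCoatom M) (K U : Subgroup G) (hKU : Cfsg.IsSigmaDecomposition M K U) (hne : Cfsg.fittingHallOf M ≠ Cfsg.sigmaCore M) :
    U = ⊥ ∧ Cfsg.sigmaCore M = ⁅M, M⁆ ∧ (Nat.card K).Prime ∧ (Nat.card ↥(Cfsg.sigmaCore M ⊓ Subgroup.centralizer (K : Set G))).Prime ∧
      Nat.card ↥(Cfsg.sigmaCore M ⊓ Subgroup.centralizer (K : Set G)) ∣ Nat.card (Cfsg.fittingHallOf M) ∧ Nat.card ↥(Cfsg.sigmaCore M ⊓ Subgroup.centralizer (K : Set G)) ∈ Cfsg.beta M ∧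
      ∃ Q : Subgroup G, Q ≤ Cfsg.fittingHallOf M ∧ M ≤ Subgroup.normalizer (Q : Set G) ∧ IsPGroup (Nat.card ↥(Cfsg.sigmaCore M ⊓ Subgroup.centralizer (K : Set G))) Q ∧
        ¬ Nat.card ↥(Cfsg.sigmaCore M ⊓ Subgroup.centralizer (K : Set G)) ∣ Q.relIndex (Cfsg.sigmaCore M) ∧
        ∀ D : Subgroup G, Cfsg.IsComplIn Q D (Cfsg.sigmaCore M) →
          Group.IsNilpotent D ∧ M ≤ Subgroup.normalizer ((Q ⊓ Subgroup.centralizer (D : Set G) : Subgroup G) : Set G) ∧
          Q ⊓ Subgroup.centralizer (D : Set G) < Q ∧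
          Nat.card Q = Nat.card ↥(Q ⊓ Subgroup.centralizer (D : Set G)) * Nat.card ↥(Cfsg.sigmaCore M ⊓ Subgroup.centralizer (K : Set G)) ^ Nat.card K ∧
          (∀ a ∈ Q, ∀ b ∈ Q, a ^ Nat.card ↥(Cfsg.sigmaCore M ⊓ Subgroup.centralizer (K : Set G)) ∈ Q ⊓ Subgroup.centralizer (D : Set G) ∧
            a * b * a⁻¹ * b⁻¹ ∈ Q ⊓ Subgroup.centralizer (D : Set G)) ∧
          ∀ N : Subgroup G, Q ⊓ Subgroup.centralizer (D : Set G) < N → N < Q → ¬ M ≤ Subgroup.normalizer (N : Set G) := by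
  obtain ⟨q, Q, h⟩ := Lib.OddLocal.Fcore.exists_structure hG hM hKU hne
  obtain ⟨-, hU, -, -, hD⟩ := Lib.OddLocal.Fcore.basic hG hM hKU hne
  rw [h.card_star]
  refine ⟨hU, hD.symm, h.card_K, h.prime, h.dvd, h.beta, Q, h.le_fitting, h.norm, h.pgroup, h.hall,
    fun D hDc => ?_⟩
  obtain ⟨h1, h2, h3, h4, h5, -, h7⟩ := h.compl hG hM hKU hne hDc
  exact ⟨h1, h2, h3, h4, fun a ha b hb => ⟨h5 (Subgroup.subset_closure (Or.inl ⟨a, ha, rfl⟩)),
    h5 (Subgroup.subset_closure (Or.inr ⟨a, ha, b, hb, rfl⟩))⟩, h7⟩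

end Cfsg.Agent.S1437
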