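import Cfsg.Statements.S1441
import Cfsg.Agent.Lib.OddLocal.CoprimeOdd

set_option autoImplicit false
open Cfsg

namespace Cfsg.Agent.S1441

/-- Let G be a finite group, H a solvable subgroup and A a subgroup normalizing H. Suppose there is a chain H = H₀ ≥ H₁ ≥ ⋯ ≥ H_n = 1 of subgroups normal in H and normalized by A such that A acts trivially on each factor H_{i-1}/H_i (that is, [H_{i-1}, A] ≤ H_i). Then every prime dividing the index of C_A(H) in A divides the order of H. -/
theorem result {G : Type*} [Group G] [Finite G] (H A : Subgroup G) (hH : Group.IsSolvable H) (hA : (A ≤ Subgroup.normalizer (H : Set G)))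
    (n : ℕ) (c : Fin (n + 1) → Subgroup G) (hc0 : c 0 = H) (hcn : c (Fin.last n) = ⊥) (hanti : Antitone c)
    (hcN : ∀ i, H ≤ Subgroup.normalizer ((c i : Subgroup G) : Set G)) (hcA : ∀ i, A ≤ Subgroup.normalizer ((c i : Subgroup G) : Set G))
    (htriv : ∀ i : Fin n, ⁅c i.castSucc, A⁆ ≤ c i.succ) :
    ∀ p : ℕ, p.Prime → p ∣ (A ⊓ Subgroup.centralizer (H : Set G)).relIndex A → p ∣ Nat.card H := by
  intro p hp hdvd
  by_contra hpH
  haveI : Fact p.Prime := ⟨hp⟩
  set D := (A ⊓ Subgroup.centralizer (H : Set G)).subgroupOf A with hD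
  obtain ⟨P⟩ : Nonempty (Sylow p A) := inferInstance
  have hPD : (P : Subgroup A) ≤ D := by
    intro a ha
    obtain ⟨k, hk⟩ := IsPGroup.iff_card.mp P.2
    have hord : orderOf (a : G) ∣ p ^ k := by
      rw [Subgroup.orderOf_coe, ← hk]; exact Subgroup.orderOf_dvd_natCard _ ha
    refine Subgroup.mem_subgroupOf.mpr ⟨a.2, Lib.OddLocal.mem_centralizer_of_series n c hc0 hcn hanti
      ((((hp.coprime_iff_not_dvd).mpr hpH).pow_left k).coprime_dvd_left hord)
      fun i x hx => htriv i (Subgroup.commutator_mem_commutator hx a.2)⟩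
  exact P.not_dvd_index (hdvd.trans (Subgroup.index_dvd_of_le hPD))

end Cfsg.Agent.S1441
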