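import Cfsg.Statements.S1442
import Cfsg.Agent.Lib.OddLocal.CoprimeOdd

set_option autoImplicit false
open Cfsg

namespace Cfsg.Agent.S1442

/-- Let G be a finite group, H a nilpotent subgroup and A a subgroup normalizing H with the orders of A and H coprime. Put C = H ∩ C_G(A). If H ∩ C_G(C) ≤ C then A centralizes H. -/
theorem result {G : Type*} [Group G] [Finite G] (H A : Subgroup G) (hH : Group.IsNilpotent H) (hA : (A ≤ Subgroup.normalizer (H : Set G))) (hcop : (Nat.card A).Coprime (Nat.card H))
    (hC : H ⊓ Subgroup.centralizer (((H ⊓ Subgroup.centralizer (A : Set G)) : Subgroup G) : Set G) ≤ (H ⊓ Subgroup.centralizer (A : Set G))) :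
    A ≤ Subgroup.centralizer (H : Set G) := by
  exact Lib.OddLocal.le_centralizer_of_centralizer_fixed_le hH hA hcop hC

end Cfsg.Agent.S1442
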