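import Cfsg.Statements.S1447
import Cfsg.Agent.Lib.Hall.MetacyclicAct
import Cfsg.Agent.Lib.Coprime.Action
import Cfsg.Agent.Lib.Coprime.Abelian
import Cfsg.Agent.S0638

set_option autoImplicit false
open Cfsg

namespace Cfsg.Agent.S1447

open scoped commutatorElement

theorem isMetacyclic_equiv {H K : Type*} [Group H] [Group K] (e : H ≃* K) (h : Cfsg.IsMetacyclic H) :
    Cfsg.IsMetacyclic K := by
  obtain ⟨N, hN, hNc, hQc⟩ := h
  haveI hN' : (N.map e.toMonoidHom).Normal := hN.map _ e.surjective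
  refine ⟨N.map e.toMonoidHom, hN', ?_, ?_⟩
  · exact isCyclic_of_surjective _ (N.equivMapOfInjective e.toMonoidHom e.injective).surjective
  · exact isCyclic_of_surjective _ (QuotientGroup.congr N (N.map e.toMonoidHom) e rfl).surjective


/-- Let G be a finite group, p an odd prime, R a metacyclic p-subgroup and A a subgroup of order coprime to p normalizing R. Then [R, A] is abelian; R is generated by [R, A] and R ∩ C_G(A), which meet trivially; and if R is non-abelian and A does not centralize R, then [R, A] and R ∩ C_G(A) are nontrivial cyclic groups and [R, R] ≤ [R, A]. -/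
theorem result {G : Type*} [Group G] [Finite G] (p : ℕ) [Fact p.Prime] (hp : p ≠ 2) (R A : Subgroup G) (hR : IsPGroup p R) (hRm : Cfsg.IsMetacyclic R)
    (hA : (A ≤ Subgroup.normalizer (R : Set G))) (hcop : (Nat.card A).Coprime p) :
    IsMulCommutative ↥⁅R, A⁆ ∧ ⁅R, A⁆ ⊔ (R ⊓ Subgroup.centralizer (A : Set G)) = R ∧ ⁅R, A⁆ ⊓ (R ⊓ Subgroup.centralizer (A : Set G)) = ⊥ ∧
      (¬ IsMulCommutative R → ¬ A ≤ Subgroup.centralizer (R : Set G) →
        ⁅R, A⁆ ≠ ⊥ ∧ IsCyclic ↥⁅R, A⁆ ∧ (R ⊓ Subgroup.centralizer (A : Set G)) ≠ ⊥ ∧ IsCyclic ↥(R ⊓ Subgroup.centralizer (A : Set G)) ∧ ⁅R, R⁆ ≤ ⁅R, A⁆) := by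

  haveI : Group.IsNilpotent ↥R := hR.isNilpotent
  have hsol : Group.IsSolvable ↥R := inferInstance
  have hcopR : (Nat.card A).Coprime (Nat.card R) := by
    obtain ⟨e, he⟩ := IsPGroup.iff_card.mp hR
    rw [he]; exact hcop.pow_right e
  set T := ⁅R, A⁆ with hTdef
  set C := R ⊓ Subgroup.centralizer (A : Set G) with hCdef
  have hTR : T ≤ R := Lib.Coprime.commutator_le_of_le_normalizer' hA
  have hsup : T ⊔ C = R := Lib.Coprime.commutator_sup_centralizer hA hcopR (Or.inr hsol)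
  have hTT : ⁅T, A⁆ = T := Lib.Coprime.commutator_commutator hA hcopR (Or.inr hsol)
  have hAT : A ≤ Subgroup.normalizer (T : Set G) := Lib.Coprime.right_le_normalizer_commutator R A
  have hTp : IsPGroup p T := hR.to_le hTR
  have hTm : Cfsg.IsMetacyclic ↥T := isMetacyclic_equiv (Subgroup.subgroupOfEquivOfLe hTR)
    (Lib.Metacyclic.isMetacyclic_subgroup hRm (T.subgroupOf R))
  have hTc : IsMulCommutative ↥T := by
    refine Lib.Hall.MetacyclicAct.comm_of_metacyclic (Lib.Coprime.conjHom hAT) hTp hp hcop hTm ?_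
    intro W hW
    have h1 : ⁅T, A⁆ ≤ W.map T.subtype := by
      rw [Subgroup.commutator_le]
      intro t ht a ha
      refine ⟨_, W.inv_mem (hW ⟨a, ha⟩ ⟨t, ht⟩), ?_⟩
      simp [Lib.Coprime.coe_conjHom_apply, commutatorElement_def, mul_assoc]
    rw [hTT] at h1
    rw [eq_top_iff]
    intro t _
    obtain ⟨w, hw, hwt⟩ := h1 t.2
    rwa [← Subtype.ext hwt]
  have hcopT : (Nat.card A).Coprime (Nat.card T) :=
    hcopR.coprime_dvd_right (Subgroup.card_dvd_of_le hTR)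
  have hdisj : T ⊓ C = ⊥ := by
    haveI := hTc
    have h := Lib.Coprime.inf_centralizer_inf_commutator hAT hcopT
    rw [hTT] at h
    rw [eq_bot_iff, ← h]
    exact fun x hx => ⟨⟨hx.1, hx.2.2⟩, hx.1⟩
  refine ⟨hTc, hsup, hdisj, fun hnc hnA => ?_⟩
  have hT1 : T ≠ ⊥ := fun h => hnA <| by
    rw [h, bot_sup_eq] at hsup
    exact Subgroup.le_centralizer_iff.mp ((le_of_eq hsup.symm).trans inf_le_right)
  have hC1 : C ≠ ⊥ := fun h => hnc <| by
    rw [h, sup_bot_eq] at hsup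
    exact hsup ▸ hTc
  have hncy : ¬ IsCyclic ↥R := fun h => hnc <| by
    letI := h.commGroup; exact ⟨⟨mul_comm⟩⟩
  -- both factors are cyclic
  have hcyc : ∀ K L : Subgroup G, K ≤ R → L ≤ R → K ⊓ L = ⊥ → L ≠ ⊥ → IsCyclic ↥K := by
    intro K L hK hL hKL hL1
    by_contra hK'
    set K' := K.subgroupOf R with hK'def
    have hK'c : ¬ IsCyclic ↥K' := fun h => hK' (by
      haveI := h
      exact isCyclic_of_surjective _ (Subgroup.subgroupOfEquivOfLe hK).surjective)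
    obtain ⟨-, hcard⟩ := Cfsg.Agent.S0638.result hp hR hRm hncy
    obtain ⟨-, hcardK⟩ := Cfsg.Agent.S0638.result hp (hR.to_subgroup K')
      (Lib.Metacyclic.isMetacyclic_subgroup hRm K') hK'c
    have hle : (Cfsg.omegaOne p (⊤ : Subgroup ↥K')).map K'.subtype ≤ Cfsg.omegaOne p (⊤ : Subgroup ↥R) := by
      rw [Cfsg.omegaOne, MonoidHom.map_closure, Subgroup.closure_le]
      rintro _ ⟨x, ⟨-, hx⟩, rfl⟩
      exact Subgroup.subset_closure ⟨trivial, by rw [← map_pow, hx, map_one]⟩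
    have heq := Subgroup.eq_of_le_of_card_ge hle
      (by rw [Subgroup.card_map_of_injective K'.subtype_injective, hcardK, hcard])
    have hsub : Cfsg.omegaOne p (⊤ : Subgroup ↥R) ≤ K' := heq ▸ Subgroup.map_subtype_le _
    obtain ⟨e, he⟩ := IsPGroup.iff_card.mp (hR.to_le hL)
    have he0 : e ≠ 0 := fun h0 => hL1 (Subgroup.card_eq_one.mp (by rw [he, h0, pow_zero]))
    obtain ⟨x, hx⟩ := exists_prime_orderOf_dvd_card' (G := L) p (he ▸ dvd_pow_self p he0)
    have hxp : x ^ p = 1 := hx ▸ pow_orderOf_eq_one x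
    have hxK : (x : G) ∈ K := Subgroup.mem_subgroupOf.mp (hsub (Subgroup.subset_closure
      (show (⟨(x : G), hL x.2⟩ : ↥R) ∈ {y : ↥R | y ∈ (⊤ : Subgroup ↥R) ∧ y ^ p = 1} from
        ⟨trivial, Subtype.ext (by simpa using congrArg Subtype.val hxp)⟩)))
    have hx1 : (x : G) = 1 := (Subgroup.mem_bot).mp (hKL ▸ Subgroup.mem_inf.mpr ⟨hxK, x.2⟩)
    rw [show x = 1 from Subtype.ext hx1, orderOf_one] at hx
    exact (Fact.out : p.Prime).ne_one hx.symm
  have hCc : IsCyclic ↥C := hcyc C T inf_le_left hTR (by rw [inf_comm]; exact hdisj) hT1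
  refine ⟨hT1, hcyc T C hTR inf_le_left hdisj hC1, hC1, hCc, ?_⟩
  have hCT : C ≤ Subgroup.normalizer (T : Set G) :=
    inf_le_left.trans (Lib.Coprime.left_le_normalizer_commutator R A)
  have hmem : ∀ g ∈ R, ∃ t ∈ T, ∃ c ∈ C, g = t * c := by
    intro g hg
    rw [← hsup, sup_comm] at hg
    obtain ⟨c, hc, t, ht, h⟩ := (Lib.Coprime.mem_sup_of_le_normalizer hCT).mp hg
    exact ⟨c * t * c⁻¹, (Subgroup.mem_normalizer_iff.mp (hCT hc) t).mp ht, c, hc, by
      rw [← h, inv_mul_cancel_right]⟩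
  rw [Subgroup.commutator_le]
  intro g hg h hh
  obtain ⟨t, ht, c, hc, rfl⟩ := hmem g hg
  obtain ⟨t', ht', c', hc', rfl⟩ := hmem h hh
  have hcc : c * c' = c' * c := by
    letI := hCc.commGroup
    exact congrArg Subtype.val (mul_comm (⟨c, hc⟩ : C) ⟨c', hc'⟩)
  have hcn : ∀ d ∈ C, ∀ s ∈ T, d * s * d⁻¹ ∈ T := fun d hd s hs =>
    (Subgroup.mem_normalizer_iff.mp (hCT hd) s).mp hs
  have e : ⁅t * c, t' * c'⁆ = t * (c * t' * c⁻¹) * (c' * t⁻¹ * c'⁻¹) * t'⁻¹ := by
    calc ⁅t * c, t' * c'⁆ = t * (c * t' * c⁻¹) * (c * c' * c⁻¹) * t⁻¹ * c'⁻¹ * t'⁻¹ := by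
          rw [commutatorElement_def]; group
      _ = t * (c * t' * c⁻¹) * c' * t⁻¹ * c'⁻¹ * t'⁻¹ := by rw [hcc, mul_inv_cancel_right]
      _ = _ := by group
  rw [e]
  exact mul_mem (mul_mem (mul_mem ht (hcn c hc t' ht')) (hcn c' hc' _ (inv_mem ht))) (inv_mem ht')

end Cfsg.Agent.S1447
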