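import Cfsg.Statements.S1449
import Cfsg.Agent.Lib.Hall.OddRankTwo

set_option autoImplicit false
open Cfsg

namespace Cfsg.Agent.S1449

/-- Let G be a finite group, p an odd prime, R a p-subgroup with no elementary abelian subgroup of order p ^ 3, and A a solvable subgroup of odd order normalizing R with A ∩ C_G(R) = 1. Then the derived subgroup [A, A] is a p-group. -/
theorem result {G : Type*} [Group G] [Finite G] (p : ℕ) [Fact p.Prime] (hp : p ≠ 2) (R A : Subgroup G) (hR : IsPGroup p R) (hr : Cfsg.PRankLE p 2 R)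
    (hA : (A ≤ Subgroup.normalizer (R : Set G))) (hAs : Group.IsSolvable A) (hAodd : Odd (Nat.card A)) (hfaith : A ⊓ Subgroup.centralizer (R : Set G) = ⊥) :
    IsPGroup p ↥⁅A, A⁆ := by
  let f : A →* MulAut R := R.normalizerMonoidHom.comp (Subgroup.inclusion hA)
  have hf : ∀ a : A, f a = 1 → a = 1 := by
    intro a ha
    have h : (a : G) ∈ A ⊓ Subgroup.centralizer (R : Set G) := by
      refine ⟨a.2, Subgroup.mem_centralizer_iff.mpr fun x hx => ?_⟩
      have h1 : (a : G) * x * (a : G)⁻¹ = x := congrArg Subtype.val (DFunLike.congr_fun ha (⟨x, hx⟩ : R))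
      exact (mul_inv_eq_iff_eq_mul.mp h1).symm
    rw [hfaith, Subgroup.mem_bot] at h
    exact Subtype.ext h
  intro x
  have hx : (x : G) ∈ (commutator A).map A.subtype := by
    rw [commutator_def, Subgroup.map_commutator, ← MonoidHom.range_eq_map, Subgroup.range_subtype]
    exact x.2
  obtain ⟨d, hd, hdx⟩ := hx
  obtain ⟨k, hk⟩ := Lib.Hall.commutator_act_pPow hp hR hr hAodd f d hd
  refine ⟨k, Subtype.ext ?_⟩
  have h := hf (d ^ p ^ k) (by rw [map_pow]; exact hk)
  have h2 := congrArg A.subtype h
  rw [map_pow, map_one, hdx] at h2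
  simpa using h2

end Cfsg.Agent.S1449
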