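import Cfsg.Statements.S1451
import Cfsg.Agent.Lib.Hall.RankTwoNilpotent

set_option autoImplicit false
open Cfsg

namespace Cfsg.Agent.S1451

/-- Let G be a solvable group of odd order such that G, or its Fitting subgroup, has no elementary abelian subgroup of order q ^ 3 for any prime q. Then G' is nilpotent; for every Sylow subgroup S of G, every characteristic subgroup T of S with T ≤ [S, S] is normal in G; and for every prime p, G has a characteristic subgroup that is a Hall subgroup for the set of primes greater than p. -/
theorem result {G : Type*} [Group G] [Finite G] [Group.IsSolvable G] (hodd : Odd (Nat.card G)) (hr : Cfsg.RankLE 2 G ∨ Cfsg.RankLE 2 (Cfsg.fittingSubgroup G)) :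
    Group.IsNilpotent ↥(commutator G) ∧
      (∀ (q : ℕ) [Fact q.Prime] (S : Sylow q G) (T : Subgroup ↥(S : Subgroup G)), T.Characteristic → T.map (S : Subgroup G).subtype ≤ ⁅(S : Subgroup G), (S : Subgroup G)⁆ →
        (T.map (S : Subgroup G).subtype).Normal) ∧
      ∀ p : ℕ, ∃ N : Subgroup G, N.Characteristic ∧ Cfsg.IsPiHall {q | q.Prime ∧ p < q} N := by
  have hF : Cfsg.RankLE 2 (Cfsg.fittingSubgroup G) := hr.elim
    (fun h p hp => Lib.Hall.prankLE_of_injective (Cfsg.fittingSubgroup G).subtype
      (Cfsg.fittingSubgroup G).subtype_injective (h p hp)) id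
  refine ⟨Lib.Hall.commutator_isNilpotent hodd hF, fun q hq S T hT hle => ?_, fun p => Lib.Hall.exists_char_hall hodd hF p⟩
  haveI := hT
  exact Lib.Hall.normal_of_char_sylow (Lib.Hall.commutator_isNilpotent hodd hF) S T
    (hle.trans (Subgroup.commutator_mono le_top le_top))

end Cfsg.Agent.S1451
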