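import Cfsg.Statements.S1452
import Cfsg.Agent.Lib.Uniq.Alperin
-- import your own Cfsg.Agent.* helpers here

set_option autoImplicit false
open Cfsg

namespace Cfsg.Agent.S1452

/-- Let p be an odd prime and R a finite p-group containing an elementary abelian subgroup of order p ^ 3. If E is a normal elementary abelian subgroup of R of order p ^ 2, then E ≤ A for some normal subgroup A of R with C_R(A) = A that contains an elementary abelian subgroup of order p ^ 3. -/
theorem result {R : Type*} [Group R] [Finite R] (p : ℕ) [Fact p.Prime] (hp : p ≠ 2) (hR : IsPGroup p R) (hr : ¬ Cfsg.PRankLE p 2 R)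
    (E : Subgroup R) [E.Normal] (hE : Cfsg.IsElementaryAbelian p E) (hE2 : Nat.card E = p ^ 2) :
    ∃ A : Subgroup R, E ≤ A ∧ A.Normal ∧ Subgroup.centralizer (A : Set R) = A ∧ ¬ Cfsg.PRankLE p 2 A := by
  have hcard : p < Nat.card (E : Subgroup R) := by
    rw [hE2, pow_two]
    exact lt_mul_of_one_lt_left (Fact.out : p.Prime).pos (Fact.out : p.Prime).one_lt
  obtain ⟨U, hUE, -, -, hUc, -, hUi⟩ := Lib.Uniq.exists_small_pair (P := (⊤ : Subgroup R))
    (hR.to_subgroup ⊤) le_top (by rw [Subgroup.normalizer_eq_top]) hE hcard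
  have hUeq : U = E := Subgroup.eq_of_le_of_card_ge hUE (by rw [hUc, hE2])
  refine Lib.Uniq.exists_scn_three hp hR hr E hE hE2 ?_
  rwa [hUeq, Subgroup.relIndex_top_right] at hUi

end Cfsg.Agent.S1452
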