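import Cfsg.Statements.S1454
import Cfsg.Agent.Lib.Hall.NarrowAction
import Cfsg.Agent.Lib.Hall.NarrowPrime
import Cfsg.Agent.Lib.Hall.Basic

set_option autoImplicit false
open Cfsg

namespace Cfsg.Agent.S1454

open scoped commutatorElement

/-- Let G be a finite group, p an odd prime, R a narrow p-subgroup and A a solvable subgroup of odd order normalizing R with A ∩ C_G(R) = 1. Then [A, A] ≤ O_p(A) and the index of O_p(A) in A is coprime to p; if R has an elementary abelian subgroup of order p ^ 3 then the order of every element of A of order coprime to p divides p − 1; and if the order of A is a prime not dividing p(p − 1), then 2·#A divides p + 1, and if in addition [R, A] = R and R is non-abelian then #R = p ^ 3. -/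
theorem result {G : Type*} [Group G] [Finite G] (p : ℕ) [Fact p.Prime] (hp : p ≠ 2) (R A : Subgroup G) (hR : IsPGroup p R) (hRn : Cfsg.IsNarrow p R)
    (hA : (A ≤ Subgroup.normalizer (R : Set G))) (hAs : Group.IsSolvable A) (hAodd : Odd (Nat.card A)) (hfaith : A ⊓ Subgroup.centralizer (R : Set G) = ⊥) :
    (commutator ↥A ≤ Cfsg.pCore p ↥A ∧ ((Cfsg.pCore p ↥A).index).Coprime p) ∧
      (¬ Cfsg.PRankLE p 2 R → ∀ a ∈ A, (orderOf a).Coprime p → orderOf a ∣ p - 1) ∧
      ((Nat.card A).Prime → ¬ Nat.card A ∣ p * (p - 1) →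
        2 * Nat.card A ∣ p + 1 ∧ (⁅R, A⁆ = R → ¬ IsMulCommutative R → Nat.card R = p ^ 3)) := by
  classical
  let f : A →* MulAut R := R.normalizerMonoidHom.comp (Subgroup.inclusion hA)
  have hf : ∀ a : A, f a = 1 → a = 1 := by
    intro a ha
    have h : (a : G) ∈ A ⊓ Subgroup.centralizer (R : Set G) := by
      refine ⟨a.2, Subgroup.mem_centralizer_iff.mpr fun x hx => ?_⟩
      have h1 : (a : G) * x * (a : G)⁻¹ = x := congrArg Subtype.val (DFunLike.congr_fun ha (⟨x, hx⟩ : R))
      exact (mul_inv_eq_iff_eq_mul.mp h1).symm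
    rw [hfaith, Subgroup.mem_bot] at h
    exact Subtype.ext h
  refine ⟨?_, fun hr a ha hac => ?_, fun hA' hnd => ?_⟩
  · -- the derived group is a `p`-group
    have hD : IsPGroup p (commutator A) := by
      rintro ⟨d, hd⟩
      obtain ⟨k, hk⟩ : ∃ k : ℕ, f d ^ p ^ k = 1 := by
        by_cases hr : Cfsg.PRankLE p 2 R
        · exact Lib.Hall.commutator_act_pPow hp hR hr hAodd f d hd
        · exact Lib.Hall.narrow_act_pPow hp hR hRn hr f d (Or.inl hd)
      exact ⟨k, Subtype.ext ((SubmonoidClass.coe_pow _ _).trans (hf _ (by rw [map_pow]; exact hk)))⟩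
    have hle : commutator A ≤ Cfsg.pCore p A := Lib.Hall.le_pCore hD
    refine ⟨hle, ?_⟩
    obtain ⟨S⟩ := (inferInstance : Nonempty (Sylow p A))
    have hS : commutator A ≤ (S : Subgroup A) := hle.trans (Lib.Hall.pCore_le_sylow S)
    haveI : (S : Subgroup A).Normal := ⟨fun x hx g => by
      have h1 : g * x * g⁻¹ * x⁻¹ ∈ (S : Subgroup A) :=
        hS (Subgroup.commutator_mem_commutator (Subgroup.mem_top g) (Subgroup.mem_top x))
      have h2 := (S : Subgroup A).mul_mem h1 hx
      rwa [inv_mul_cancel_right] at h2⟩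
    have hSc : Cfsg.pCore p A = (S : Subgroup A) :=
      le_antisymm (Lib.Hall.pCore_le_sylow S) (Lib.Hall.le_pCore S.isPGroup')
    rw [hSc, Nat.coprime_comm, (Fact.out : p.Prime).coprime_iff_not_dvd]
    exact S.not_dvd_index
  · obtain ⟨k, hk⟩ := Lib.Hall.narrow_act_pPow hp hR hRn hr f ((⟨a, ha⟩ : A) ^ (p - 1)) (Or.inr ⟨_, rfl⟩)
    have h1 : (⟨a, ha⟩ : A) ^ ((p - 1) * p ^ k) = 1 := hf _ (by
      rw [pow_mul, map_pow]; exact hk)
    have h2 : orderOf a ∣ (p - 1) * p ^ k := by
      rw [show orderOf a = orderOf (⟨a, ha⟩ : A) from (Subgroup.orderOf_mk a ha).symm]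
      exact orderOf_dvd_of_pow_eq_one h1
    exact (hac.pow_right k).dvd_of_dvd_mul_right h2
  · haveI := Fact.mk hA'
    obtain ⟨b, hb⟩ := exists_prime_orderOf_dvd_card' (G := A) (Nat.card A) dvd_rfl
    have hb1 : b ≠ 1 := fun h => hA'.ne_one (by rw [← hb, h, orderOf_one])
    have hfb : f b ≠ 1 := fun h => hb1 (hf b h)
    have hfbl : f b ^ Nat.card A = 1 := by rw [← map_pow, pow_card_eq_one', map_one]
    have hr : Cfsg.PRankLE p 2 R := by
      by_contra hr
      obtain ⟨k, hk⟩ := Lib.Hall.narrow_act_pPow hp hR hRn hr f (b ^ (p - 1)) (Or.inr ⟨b, rfl⟩)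
      have h1 : b ^ ((p - 1) * p ^ k) = 1 := hf _ (by rw [pow_mul, map_pow]; exact hk)
      have h2 := orderOf_dvd_of_pow_eq_one h1
      rw [hb] at h2
      rcases hA'.dvd_mul.mp h2 with h | h
      · exact hnd (h.mul_left p)
      · exact hnd ((hA'.dvd_of_dvd_pow h).mul_right _)
    obtain ⟨hdvd, hext⟩ := Lib.Hall.rank_two_prime hp hR hr hnd (f b) hfbl hfb
    refine ⟨?_, fun hRA hnc => ?_⟩
    · refine Nat.Coprime.mul_dvd_of_dvd_of_dvd (hAodd.coprime_two_left) ?_ hdvd
      obtain ⟨c, hc⟩ := (Fact.out : p.Prime).odd_of_ne_two hp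
      omega
    · refine hext ?_ ?_
      · intro N hN hinv hgen
        have hpow : ∀ i : ℕ, (∀ g : R, g⁻¹ * (f b ^ i) g ∈ N) := by
          intro i
          induction i with
          | zero => intro g; simp
          | succ i ih =>
            intro g
            rw [pow_succ', MulAut.mul_apply,
              show g⁻¹ * f b ((f b ^ i) g) = (g⁻¹ * f b g) * f b (g⁻¹ * (f b ^ i) g) by
                rw [map_mul, map_inv]; group]
            exact N.mul_mem (hgen g) (hinv _ (ih g))
        have hle : ⁅R, A⁆ ≤ N.map R.subtype := by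
          rw [Subgroup.commutator_le]
          intro r hr' a ha
          obtain ⟨i, hi⟩ := (mem_powers_iff_mem_zpowers (x := b)).mpr
            (mem_zpowers_of_prime_card (G := A) rfl hb1 (g' := ⟨a, ha⟩))
          have h1 := hpow i (⟨r, hr'⟩ : R)⁻¹
          rw [inv_inv, ← map_pow, show b ^ i = ⟨a, ha⟩ from hi] at h1
          refine ⟨_, h1, ?_⟩
          show r * (a * r⁻¹ * a⁻¹) = ⁅r, a⁆
          rw [commutatorElement_def]; group
        rw [hRA] at hle
        refine eq_top_iff.mpr fun x _ => ?_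
        obtain ⟨y, hy, hyx⟩ := hle x.2
        rwa [← Subtype.ext hyx]
      · intro h
        exact hnc ⟨⟨fun x y => h x y⟩⟩

end Cfsg.Agent.S1454
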