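import Cfsg.Statements.S1456
import Cfsg.Agent.Lib.Hall.RankTwoNilpotent
import Cfsg.Agent.Lib.Hall.NarrowAction

set_option autoImplicit false
open Cfsg

namespace Cfsg.Agent.S1456

open Subgroup Cfsg.Agent.Lib
open scoped commutatorElement

universe u

theorem aux {G : Type u} [Group G] [Finite G] [Group.IsSolvable G] (hodd : Odd (Nat.card G)) (p : ℕ) [hp : Fact p.Prime]
    (E : Subgroup G) (hE : E ≤ Cfsg.fittingSubgroup G) (hEe : Cfsg.IsElementaryAbelian p E)
    (hr : Cfsg.RankLE 2 ↥(Cfsg.fittingSubgroup G ⊓ Subgroup.centralizer (E : Set G))) :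
    commutator G ≤ Cfsg.fittingSubgroup G := by
  classical
  set F := Cfsg.fittingSubgroup G
  haveI hEc : IsMulCommutative E := hEe.1
  have hEP : E ≤ Cfsg.pCore p G := fun e he => by
    refine Lib.Hall.mem_pCore_of_mem_fitting (hE he) ?_
    rcases (Nat.dvd_prime hp.out).mp (orderOf_dvd_of_pow_eq_one (hEe.2 e he)) with h | h
    exacts [⟨0, by rw [h, pow_zero]⟩, ⟨1, by rw [h, pow_one]⟩]
  refine Lib.Hall.le_fittingSubgroup (Lib.Hall.commutator_isNilpotent_of_act fun r hr' g hg => ?_)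
  haveI := Fact.mk hr'
  rcases eq_or_ne r 2 with rfl | hr2
  · refine ⟨0, ?_⟩
    have hb : Cfsg.pCore 2 G = ⊥ := Lib.Hall.pCore_eq_bot_of_not_dvd hodd.not_two_dvd_nat
    apply MulEquiv.ext
    intro x
    exact Subtype.ext ((mem_bot.mp (hb ▸ SetLike.coe_mem _)).trans (mem_bot.mp (hb ▸ x.2)).symm)
  set P := Cfsg.pCore r G
  have hPp : IsPGroup r P := Lib.Hall.isPGroup_pCore r
  by_cases hr2' : Cfsg.PRankLE r 2 P
  · exact Lib.Hall.commutator_act_pPow hr2 hPp hr2' hodd MulAut.conjNormal g hg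
  have hPC : Cfsg.PRankLE r 2 ↥(P ⊓ centralizer (E : Set G)) :=
    Lib.Hall.prankLE_of_injective (inclusion (le_inf (inf_le_left.trans (Lib.Hall.pCore_le_fittingSubgroup r)) inf_le_right))
      (inclusion_injective _) (hr r hr')
  by_cases hrp : r = p
  swap
  · exfalso
    refine hr2' (Lib.Hall.prankLE_of_injective (inclusion (le_inf le_rfl ?_ : P ≤ P ⊓ centralizer (E : Set G)))
      (inclusion_injective _) hPC)
    exact fun x hx => mem_centralizer_iff.mpr fun e he => (Lib.Hall.commute_pCore (Ne.symm hrp) (hEP he) hx).eq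
  subst hrp
  -- an element of `E` with centraliser of rank two in `P`
  have hle : ∀ B : Subgroup P, B.map P.subtype ≤ centralizer (E : Set G) → IsMulCommutative B →
      (∀ b ∈ B, b ^ r = 1) → Nat.card B ≤ r ^ 2 := fun B hB hBc hBp => by
    haveI := hBc
    rw [← card_map_of_injective P.subtype_injective,
      ← Lib.Coprime.card_subgroupOf (le_inf (map_subtype_le B) hB)]
    refine hPC _ ⟨⟨fun a b => Subtype.ext (Subtype.ext ?_)⟩⟩ fun a ha => Subtype.ext ?_
    · obtain ⟨u, hu, hua⟩ := mem_subgroupOf.mp a.2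
      obtain ⟨v, hv, hvb⟩ := mem_subgroupOf.mp b.2
      show ((a : ↥(P ⊓ centralizer (E : Set G))) : G) * _ = _ * _
      rw [← hua, ← hvb]
      exact congrArg P.subtype (setLike_mul_comm hu hv)
    · obtain ⟨u, hu, hua⟩ := mem_subgroupOf.mp ha
      rw [SubmonoidClass.coe_pow, ← hua, ← map_pow, hBp u hu, map_one]
      rfl
  have hnarrow : ∃ x : P, x ^ r = 1 ∧ Cfsg.PRankLE r 2 (centralizer ({x} : Set P)) := by
    obtain ⟨B0, hB0c, hB0p, hB03⟩ : ∃ B : Subgroup P, IsMulCommutative B ∧ (∀ a ∈ B, a ^ r = 1) ∧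
        r ^ 2 < Nat.card B := by
      simp only [Cfsg.PRankLE, not_forall, not_le] at hr2'
      obtain ⟨B, h1, h2, h3⟩ := hr2'
      exact ⟨B, h1, h2, h3⟩
    haveI := hB0c
    obtain ⟨x, hxE, hxc⟩ : ∃ x : P, (x : G) ∈ E ∧ x ∉ center P := by
      by_contra hno
      push Not at hno
      refine absurd (hle B0 ?_ hB0c hB0p) (not_le.mpr hB03)
      rintro _ ⟨b, hb, rfl⟩
      exact mem_centralizer_iff.mpr fun e he =>
        (congrArg Subtype.val (mem_center_iff.mp (hno ⟨e, hEP he⟩ he) b)).symm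
    have hxp : x ^ r = 1 := Subtype.ext (by rw [SubmonoidClass.coe_pow]; exact hEe.2 _ hxE)
    refine ⟨x, hxp, fun B hB hBp => ?_⟩
    haveI := hB
    rw [← card_map_of_injective (centralizer ({x} : Set P)).subtype_injective]
    set B' := B.map (centralizer ({x} : Set P)).subtype
    haveI : IsMulCommutative B' := inferInstance
    have hB'p : ∀ b ∈ B', b ^ r = 1 := by
      rintro _ ⟨b, hb, rfl⟩
      rw [← map_pow, hBp b hb, map_one]
    refine hle B' ?_ inferInstance hB'p
    -- `C_P(x) ≤ C(E)`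
    haveI : Nontrivial P := ⟨⟨x, 1, fun h => hxc (h ▸ one_mem _)⟩⟩
    obtain ⟨z, -, hzc, hzo⟩ := Lib.Thompson.exists_central_order_p hPp (N := (⊤ : Subgroup P)) top_ne_bot
    let E' : Subgroup P := E.subgroupOf P ⊔ zpowers z
    have hE'c : ∀ a ∈ E', ∀ b ∈ E', a * b = b * a := by
      have h0 : E' ≤ centralizer (E' : Set P) := by
        refine sup_le ?_ (zpowers_le.mpr (center_le_centralizer _ hzc))
        rw [le_centralizer_iff]
        refine sup_le (fun b hb => mem_centralizer_iff.mpr fun a ha => Subtype.ext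
          (setLike_mul_comm (mem_subgroupOf.mp ha) (mem_subgroupOf.mp hb)))
          (zpowers_le.mpr (center_le_centralizer _ hzc))
      exact fun a ha b hb => mem_centralizer_iff.mp (h0 hb) a ha
    have hE'p : ∀ a ∈ E', a ^ r = 1 := fun a ha => by
      haveI : (zpowers z).Normal := Lib.Thompson.normal_of_le_center (zpowers_le.mpr hzc)
      obtain ⟨u, hu, v, hv, rfl⟩ := mem_sup_of_normal_right.mp ha
      obtain ⟨i, rfl⟩ := mem_zpowers_iff.mp hv
      rw [(show Commute u (z ^ i) from hE'c u (mem_sup_left hu) _ (mem_sup_right hv)).mul_pow,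
        show u ^ r = 1 from Subtype.ext (by rw [SubmonoidClass.coe_pow]; exact hEe.2 _ (mem_subgroupOf.mp hu)),
        one_mul, ← zpow_natCast, ← _root_.zpow_mul, mul_comm, _root_.zpow_mul, zpow_natCast, ← hzo,
        pow_orderOf_eq_one, one_zpow]
    have hE'2 : Nat.card E' ≤ r ^ 2 := hle E' (by
      rintro _ ⟨a, ha, rfl⟩
      exact mem_centralizer_iff.mpr fun e he =>
        congrArg Subtype.val (hE'c ⟨e, hEP he⟩ (mem_sup_left (mem_subgroupOf.mpr he)) a ha))
      ⟨⟨fun a b => Subtype.ext (hE'c a a.2 b b.2)⟩⟩ hE'p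
    set U := zpowers x ⊔ zpowers z
    have hUle : U ≤ E' := sup_le (zpowers_le.mpr (mem_sup_left (mem_subgroupOf.mpr hxE))) le_sup_right
    have hU2 : r ^ 2 ≤ Nat.card U := by
      have hlt : zpowers z < U := lt_of_le_of_ne le_sup_right fun e =>
        hxc (zpowers_le.mpr hzc (e ▸ mem_sup_left (mem_zpowers x)))
      have h := Lib.Thompson.card_mul_p_le hPp hlt
      rwa [Nat.card_zpowers, hzo, ← pow_two] at h
    have heq : U = E' := eq_of_le_of_card_ge hUle (hE'2.trans hU2)
    rintro _ ⟨b, hb, rfl⟩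
    obtain ⟨⟨c, hc⟩, -, rfl⟩ := hb
    refine mem_centralizer_iff.mpr fun e he => ?_
    have hU : U ≤ centralizer {c} := sup_le (zpowers_le.mpr (mem_centralizer_singleton_iff.mpr
      (mem_centralizer_singleton_iff.mp hc).symm)) (zpowers_le.mpr (mem_centralizer_singleton_iff.mpr (mem_center_iff.mp hzc c).symm))
    exact congrArg Subtype.val (mem_centralizer_singleton_iff.mp
      (hU (heq.ge (mem_sup_left (mem_subgroupOf.mpr (show ((⟨e, hEP he⟩ : P) : G) ∈ E from he))))))
  obtain ⟨x, hxp, hC⟩ := hnarrow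
  obtain ⟨D⟩ := Lib.Hall.narrowData_of_small hPp hr2' x hxp hC
  exact Lib.Hall.narrowData_act_pPow hr2 hPp D MulAut.conjNormal g (Or.inl hg)


/-- Let G be a solvable group of odd order, p a prime, and E an elementary abelian p-subgroup of the Fitting subgroup F(G) such that F(G) ∩ C_G(E) has no elementary abelian subgroup of order q ^ 3 for any prime q. Then the derived subgroup of G is contained in F(G). -/
theorem result {G : Type*} [Group G] [Finite G] [Group.IsSolvable G] (hodd : Odd (Nat.card G)) (p : ℕ) [Fact p.Prime] (E : Subgroup G) (hE : E ≤ Cfsg.fittingSubgroup G) (hEe : Cfsg.IsElementaryAbelian p E)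
    (hr : Cfsg.RankLE 2 ↥(Cfsg.fittingSubgroup G ⊓ Subgroup.centralizer (E : Set G))) :
    commutator G ≤ Cfsg.fittingSubgroup G := by
  exact aux hodd p E hE hEe hr

end Cfsg.Agent.S1456
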