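import Cfsg.Statements.S1457
import Cfsg.Agent.Lib.OddLocal.PStable
import Cfsg.Agent.Lib.OddLocal.PLengthOne

set_option autoImplicit false
open Cfsg

namespace Cfsg.Agent.S1457

/-- Let G be a solvable group of odd order, p a prime, S a Sylow p-subgroup of G and A an abelian subgroup of S normal in S. Then A ≤ O_{p',p}(G). -/
theorem result {G : Type*} [Group G] [Finite G] [Group.IsSolvable G] (hodd : Odd (Nat.card G)) (p : ℕ) [Fact p.Prime] (S : Sylow p G) (A : Subgroup G) (hA : A ≤ (S : Subgroup G)) (hAc : IsMulCommutative A)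
    (hAn : (S : Subgroup G) ≤ Subgroup.normalizer (A : Set G)) :
    A ≤ Cfsg.pPrimePCore p G := by
  rcases eq_or_ne p 2 with rfl | hp
  · have hS : (S : Subgroup G) = ⊥ := by
      refine Subgroup.card_eq_one.mp ?_
      obtain ⟨k, hk⟩ := IsPGroup.iff_card.mp S.2
      have h2 : Odd (2 ^ k) := hk ▸ hodd.of_dvd_nat (Subgroup.card_subgroup_dvd_card _)
      rcases k with _ | k
      · simpa using hk
      · exact absurd h2 (Nat.not_odd_iff_even.mpr (Nat.even_pow.mpr ⟨even_two, k.succ_ne_zero⟩))
    exact hA.trans (hS ▸ bot_le)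
  let N := Cfsg.pPrimeCore p G
  let π := QuotientGroup.mk' N
  have hπ : Function.Surjective π := QuotientGroup.mk'_surjective N
  let S' : Sylow p (G ⧸ N) := S.mapSurjective hπ
  have hT : Cfsg.pCore p (G ⧸ N) ≤ (S : Subgroup G).map π := Lib.Hall.pCore_le_sylow S'
  have hmem : A.map π ≤ Cfsg.pCore p (G ⧸ N) := by
    refine Lib.OddLocal.le_pCore_of_abelian_normalized p hp (hodd.of_dvd_nat
      (Subgroup.card_quotient_dvd_card N)) (Lib.Hall.isPGroup_pCore p)
      (Lib.OddLocal.pPrimeCore_quotient_eq_bot p) inf_le_left ?_ ?_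
    · haveI := hAc
      exact Subgroup.map_isMulCommutative A π
    · exact hT.trans ((Subgroup.map_mono hAn).trans (Subgroup.le_normalizer_map π))
  exact fun a ha => hmem ⟨a, ha, rfl⟩

end Cfsg.Agent.S1457
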