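import Cfsg.Statements.S1459
import Cfsg.Agent.Lib.OddLocal.Hall
import Cfsg.Agent.Lib.Coprime.Abelian
import Cfsg.Agent.Lib.Hall.Solvable
import Cfsg.Agent.Lib.Transfer.Basic

set_option autoImplicit false
open Cfsg

namespace Cfsg.Agent.S1459

theorem map_commutator_le {A B : Type*} [Group A] [Group B] (f : A →* B) :
    (commutator A).map f ≤ commutator B := by
  rw [_root_.commutator_def, Subgroup.map_commutator, _root_.commutator_def]
  exact Subgroup.commutator_mono le_top le_top

/-- Let G be a finite solvable group. (a) If H is a normal subgroup of order coprime to its index, K is a complement to H, and H ≤ G', then H = [H, K] and H ∩ C_G(K) ≤ [H, H]. (b) If G' is nilpotent and has prime index in G, then the order of G' is coprime to its index and G' = [G, K] (the subgroup generated by commutators of elements of G with elements of K) for every complement K of G'. -/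
theorem result {G : Type*} [Group G] [Finite G] [Group.IsSolvable G] :
    (∀ (H K : Subgroup G), H.Normal → (Nat.card H).Coprime H.index → Subgroup.IsComplement' H K → H ≤ commutator G →
        H = ⁅H, K⁆ ∧ H ⊓ Subgroup.centralizer (K : Set G) ≤ ⁅H, H⁆) ∧
      (Group.IsNilpotent ↥(commutator G) → (commutator G).index.Prime →
        (Nat.card ↥(commutator G)).Coprime (commutator G).index ∧
        ∀ K : Subgroup G, Subgroup.IsComplement' (commutator G) K → commutator G = ⁅(⊤ : Subgroup G), K⁆) := by
  have hA : ∀ (H K : Subgroup G), H.Normal → (Nat.card H).Coprime H.index →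
      Subgroup.IsComplement' H K → H ≤ commutator G →
        H = ⁅H, K⁆ ∧ H ⊓ Subgroup.centralizer (K : Set G) ≤ ⁅H, H⁆ := by
    intro H K hHn hcop hcompl hHG
    have htop : H ⊔ K = ⊤ := hcompl.sup_eq_top
    have hcard : Nat.card K = H.index := hcompl.symm.index_eq_card.symm
    have hcopHK : (Nat.card H).Coprime (Nat.card K) := by rw [hcard]; exact hcop
    set N := ⁅H, K⁆
    have hNH : N ≤ H := Lib.Coprime.commutator_le_of_le_normalizer'
      (by rw [Subgroup.normalizer_eq_top]; exact le_top)
    haveI hNn : N.Normal := by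
      rw [← Subgroup.normalizer_eq_top_iff, eq_top_iff, ← htop]
      exact sup_le (Lib.Coprime.left_le_normalizer_commutator H K) (Lib.Coprime.right_le_normalizer_commutator H K)
    -- in `G / N` the image of `K` is normal
    set π := QuotientGroup.mk' N
    have hπ : Function.Surjective π := QuotientGroup.mk'_surjective N
    have hmaptop : K.map π ⊔ H.map π = ⊤ := by
      rw [← Subgroup.map_sup, sup_comm, htop, Subgroup.map_top_of_surjective π hπ]
    have hcomm : ⁅H.map π, K.map π⁆ = ⊥ := by
      rw [← Subgroup.map_commutator, Subgroup.map_eq_bot_iff]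
      simp [π, N]
    haveI hKn : (K.map π).Normal := by
      rw [← Subgroup.normalizer_eq_top_iff, eq_top_iff, ← hmaptop]
      exact sup_le Subgroup.le_normalizer
        ((Subgroup.commutator_eq_bot_iff_le_centralizer.mp hcomm).trans
          (Subgroup.centralizer_le_normalizer ((K.map π : Subgroup (G ⧸ N)) : Set (G ⧸ N))))
    have hcop' : (Nat.card (H.map π)).Coprime (Nat.card (K.map π)) :=
      (hcopHK.coprime_dvd_left (Subgroup.card_map_dvd H π)).coprime_dvd_right (Subgroup.card_map_dvd K π)
    have h1 := Lib.OddLocal.inf_commutator_eq_of_sup_eq_top hmaptop (le_refl (H.map π)) hcop'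
    have h2 : H.map π ≤ commutator (G ⧸ N) := by
      refine (Subgroup.map_mono hHG).trans ?_
      rw [_root_.commutator_def, Subgroup.map_commutator, _root_.commutator_def]
      exact Subgroup.commutator_mono le_top le_top
    rw [inf_eq_left.mpr h2] at h1
    have h3 : H.map π ≤ ⁅H.map π, H.map π⁆ := h1.le.trans inf_le_right
    have hbot : H.map π = ⊥ := by
      by_contra hne
      haveI : Group.IsSolvable (H.map π) := Lib.Coprime.isSolvable_map π H
      exact (Lib.Hall.commutator_lt_of_solvable hne).not_ge h3
    have hHN : H ≤ N := by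
      have := (Subgroup.map_eq_bot_iff H).mp hbot
      simpa [π] using this
    refine ⟨le_antisymm hHN hNH, ?_⟩
    -- modulo `H'`
    haveI hDn : (⁅H, H⁆).Normal := inferInstance
    set σ := QuotientGroup.mk' ⁅H, H⁆
    haveI : IsMulCommutative (H.map σ) := by
      refine ⟨⟨fun a b => Subtype.ext ?_⟩⟩
      refine commutatorElement_eq_one_iff_mul_comm.mp ?_
      have := Subgroup.commutator_mem_commutator a.2 b.2
      rw [← Subgroup.map_commutator, (Subgroup.map_eq_bot_iff _).mpr (by simp [σ])] at this
      exact Subgroup.mem_bot.mp this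
    haveI : (H.map σ).Normal := hHn.map σ (QuotientGroup.mk'_surjective _)
    have hsplit := Lib.Coprime.inf_centralizer_inf_commutator (A := K.map σ) (V := H.map σ)
      (by rw [Subgroup.normalizer_eq_top]; exact le_top)
      ((hcopHK.symm.coprime_dvd_left (Subgroup.card_map_dvd K σ)).coprime_dvd_right (Subgroup.card_map_dvd H σ))
    intro x hx
    rw [← QuotientGroup.eq_one_iff (N := ⁅H, H⁆) x, ← Subgroup.mem_bot, ← hsplit]
    refine ⟨⟨Subgroup.mem_map_of_mem σ hx.1, Subgroup.mem_centralizer_iff.mpr ?_⟩, ?_⟩
    · rintro _ ⟨k, hk, rfl⟩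
      show σ k * σ x = σ x * σ k
      rw [← map_mul, ← map_mul, Subgroup.mem_centralizer_iff.mp hx.2 k hk]
    · rw [← Subgroup.map_commutator]
      exact Subgroup.mem_map_of_mem σ (hHN hx.1)
  refine ⟨hA, fun hnil hq => ?_⟩
  set q := (commutator G).index with hqdef
  haveI : Fact q.Prime := ⟨hq⟩
  set M := pPrimeCore q G
  have hMN : M ≤ commutator G := by
    intro x hx
    rw [← QuotientGroup.eq_one_iff (N := commutator G) x, ← orderOf_eq_one_iff]
    refine Nat.eq_one_of_dvd_coprimes (Lib.Hall.coprime_card_pPrimeCore q)
      ((orderOf_map_dvd (QuotientGroup.mk' (commutator G)) x).trans (M.orderOf_dvd_natCard hx)) ?_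
    show orderOf (x : G ⧸ commutator G) ∣ (commutator G).index
    rw [Subgroup.index_eq_card]
    exact _root_.orderOf_dvd_natCard _
  have hpg : IsPGroup q (G ⧸ M) := by
    intro y
    obtain ⟨k, hk⟩ : ∃ k, M.index = q ^ k := by
      refine ⟨_, Nat.eq_prime_pow_of_unique_prime_dvd Subgroup.index_ne_zero_of_finite ?_⟩
      intro r hr hrd
      by_contra hne
      haveI : Fact r.Prime := ⟨hr⟩
      obtain ⟨R⟩ : Nonempty (Sylow r ↥(commutator G)) := inferInstance
      haveI : Group.IsNilpotent ↥(commutator G) := hnil
      haveI : (R : Subgroup ↥(commutator G)).Characteristic := R.characteristic_of_normal inferInstance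
      haveI : ((R : Subgroup ↥(commutator G)).map (commutator G).subtype).Normal :=
        ConjAct.normal_of_characteristic_of_normal
      have hRM : (R : Subgroup ↥(commutator G)).map (commutator G).subtype ≤ M := by
        refine Lib.Hall.le_pPrimeCore ?_
        obtain ⟨m, hm⟩ := IsPGroup.iff_card.mp (R.2.map (commutator G).subtype)
        rw [hm]
        exact ((Nat.coprime_primes hr hq).mpr hne).pow_left m
      have h := hrd.trans (Subgroup.index_dvd_of_le hRM)
      rw [Subgroup.index_map_subtype] at h
      rcases (Nat.Prime.dvd_mul hr).mp h with h | h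
      · exact R.not_dvd_index h
      · exact hne ((Nat.prime_dvd_prime_iff_eq hr hq).mp h)
    refine ⟨k, ?_⟩
    rw [← hk, Subgroup.index_eq_card]
    exact pow_card_eq_one'
  haveI : Group.IsNilpotent (G ⧸ M) := hpg.isNilpotent
  set π := QuotientGroup.mk' M
  have hπ : Function.Surjective π := QuotientGroup.mk'_surjective M
  have hmapc : (commutator G).map π = commutator (G ⧸ M) := by
    rw [_root_.commutator_def, Subgroup.map_commutator, Subgroup.map_top_of_surjective π hπ,
      _root_.commutator_def]
  set D := ⁅commutator (G ⧸ M), (⊤ : Subgroup (G ⧸ M))⁆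
  set Q := (G ⧸ M) ⧸ D
  set ρ := QuotientGroup.mk' D
  have hρ : Function.Surjective ρ := QuotientGroup.mk'_surjective D
  set C := (commutator (G ⧸ M)).map ρ
  have hCn : C.Normal := (inferInstance : (commutator (G ⧸ M)).Normal).map ρ hρ
  have hCcen : C ≤ Subgroup.center Q := by
    have h0 : ⁅C, (⊤ : Subgroup Q)⁆ = ⊥ := by
      rw [← Subgroup.map_top_of_surjective ρ hρ, ← Subgroup.map_commutator, Subgroup.map_eq_bot_iff]
      simp [ρ, D]
    exact (Subgroup.commutator_eq_bot_iff_le_centralizer.mp h0).trans
      (by rw [Subgroup.coe_top, Subgroup.centralizer_univ])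
  have hcyc : IsCyclic (Q ⧸ C) := by
    have hi : C.index = q := by
      rw [Subgroup.index_map_eq _ hρ (by simp only [ρ, D, QuotientGroup.ker_mk']; exact Subgroup.commutator_le_left _ _),
        ← hmapc, Subgroup.index_map_eq _ hπ (by simpa [π] using hMN)]
    exact isCyclic_of_prime_card (p := q) (by rw [← Subgroup.index_eq_card, hi])
  have hQ : commutator Q = ⊥ := by
    rw [commutator_eq_bot_iff_center_eq_top, Subgroup.eq_top_iff']
    intro a
    rw [Subgroup.mem_center_iff]
    intro b
    exact commutative_of_cyclic_center_quotient (QuotientGroup.mk' C) (by simpa using hCcen) b a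
  have hD : commutator (G ⧸ M) ≤ D := by
    have : (commutator (G ⧸ M)).map ρ ≤ ⊥ := hQ ▸ map_commutator_le ρ
    simpa [ρ] using (Subgroup.map_eq_bot_iff _).mp (le_bot_iff.mp this)
  have hbot := Lib.Transfer.eq_bot_of_le_commutator_top hD
  rw [← hmapc, Subgroup.map_eq_bot_iff] at hbot
  have hNM : commutator G ≤ M := by simpa [π] using hbot
  have hcopN : (Nat.card ↥(commutator G)).Coprime q :=
    (Lib.Hall.coprime_card_pPrimeCore q).coprime_dvd_left (Subgroup.card_dvd_of_le hNM)
  refine ⟨hcopN, fun K hK => le_antisymm ?_ ?_⟩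
  · exact (hA _ K inferInstance hcopN hK le_rfl).1.le.trans (Subgroup.commutator_mono le_top le_rfl)
  · rw [_root_.commutator_def]
    exact Subgroup.commutator_mono le_rfl le_top

end Cfsg.Agent.S1459
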