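import Cfsg.Statements.S1461
import Cfsg.Agent.Lib.OddLocal.Hall

set_option autoImplicit false
open Cfsg

namespace Cfsg.Agent.S1461

/-- Let G be a finite solvable group, p a prime with G = O_{p',p,p'}(G), and S a Sylow p-subgroup. Then: if S ≤ G' then S ≤ [N_G(S), N_G(S)]; if Y ⊆ S and xYx⁻¹ ⊆ S then x = g c for some g ∈ N_G(S) and c centralizing Y; and for every p-subgroup Q there is x ∈ C_G(Q ∩ S) with xQx⁻¹ ≤ S. -/
theorem result {G : Type*} [Group G] [Finite G] [Group.IsSolvable G] (p : ℕ) [Fact p.Prime] (hpl : Cfsg.PLengthLE p 1 G) (S : Sylow p G) :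
    ((S : Subgroup G) ≤ commutator G → (S : Subgroup G) ≤ ⁅Subgroup.normalizer ((S : Subgroup G) : Set G), Subgroup.normalizer ((S : Subgroup G) : Set G)⁆) ∧
      (∀ (Y : Set G) (x : G), Y ⊆ (S : Subgroup G) → (fun y => x * y * x⁻¹) '' Y ⊆ (S : Subgroup G) →
        ∃ g ∈ Subgroup.normalizer ((S : Subgroup G) : Set G), ∃ c ∈ Subgroup.centralizer Y, g * c = x) ∧
      ∀ Q : Subgroup G, IsPGroup p Q → ∃ x ∈ Subgroup.centralizer ((Q ⊓ (S : Subgroup G) : Subgroup G) : Set G), Q.map (MulAut.conj x).toMonoidHom ≤ (S : Subgroup G) := by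
  have htop := Lib.OddLocal.pPrimeCore_sup_normalizer_eq_top p hpl S
  have hcopK : ∀ H : Subgroup G, H ≤ (S : Subgroup G) →
      (Nat.card H).Coprime (Nat.card (pPrimeCore p G)) := by
    intro H hH
    obtain ⟨k, hk⟩ := IsPGroup.iff_card.mp S.2
    exact (((Lib.Hall.coprime_card_pPrimeCore (G := G) p).symm).pow_left k).coprime_dvd_left
      (hk ▸ Subgroup.card_dvd_of_le hH)
  have hSN : (S : Subgroup G) ≤ Subgroup.normalizer ((S : Subgroup G) : Set G) := Subgroup.le_normalizer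
  have part2 : ∀ (Y : Set G) (x : G), Y ⊆ (S : Subgroup G) →
      (fun y => x * y * x⁻¹) '' Y ⊆ (S : Subgroup G) →
        ∃ g ∈ Subgroup.normalizer ((S : Subgroup G) : Set G), ∃ c ∈ Subgroup.centralizer Y, g * c = x := by
    intro Y x hY hYx
    have hH : Subgroup.closure Y ≤ (S : Subgroup G) := (Subgroup.closure_le _).mpr hY
    have himg : (Subgroup.closure Y).map (MulAut.conj x).toMonoidHom ≤
        Subgroup.normalizer ((S : Subgroup G) : Set G) := by
      rw [MonoidHom.map_closure, Subgroup.closure_le]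
      rintro _ ⟨y, hy, rfl⟩
      exact hSN (hYx ⟨y, hy, rfl⟩)
    obtain ⟨g, hg, c, hc, rfl⟩ :=
      Lib.OddLocal.exists_mul_centralizer_of_conj_le htop (hH.trans hSN) (hcopK _ hH) himg
    exact ⟨g, hg, c, Subgroup.centralizer_le Subgroup.subset_closure hc.2, rfl⟩
  refine ⟨fun hS => ?_, part2, ?_⟩
  · intro s hs
    have h1 : s ∈ (S : Subgroup G) ⊓ commutator G := ⟨hs, hS hs⟩
    rw [Lib.OddLocal.inf_commutator_eq_of_sup_eq_top htop hSN (hcopK _ le_rfl)] at h1
    exact h1.2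
  · intro Q hQ
    obtain ⟨T, hT⟩ := hQ.exists_le_sylow
    obtain ⟨x, hx⟩ := MulAction.exists_smul_eq G T S
    have hQS : ∀ q ∈ Q, x * q * x⁻¹ ∈ (S : Subgroup G) := by
      intro q hq
      rw [← hx, Sylow.coe_subgroup_smul]
      exact Lib.Coprime.conj_mem_conj_smul (hT hq)
    obtain ⟨g, hg, c, hc, rfl⟩ := part2 ((Q ⊓ (S : Subgroup G) : Subgroup G) : Set G) x
      (fun y hy => hy.2) (by rintro _ ⟨y, hy, rfl⟩; exact hQS y hy.1)
    refine ⟨c, hc, ?_⟩
    rintro _ ⟨q, hq, rfl⟩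
    have h1 := hQS q hq
    have h2 := (Subgroup.mem_normalizer_iff.mp hg (c * q * c⁻¹)).mpr (by simpa [mul_assoc] using h1)
    simpa using h2

end Cfsg.Agent.S1461
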