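import Cfsg.Statements.S1463
import Cfsg.Agent.Lib.OddLocal.OddGL2

set_option autoImplicit false
open scoped MatrixGroups
open Cfsg

namespace Cfsg.Agent.S1463

/-- Let F be a field of odd characteristic p and H a finite subgroup of odd order of GL(2, F) that leaves no 1-dimensional subspace of F² invariant. Then p does not divide the order of H. -/
theorem result {F : Type*} [Field F] (p : ℕ) [Fact p.Prime] [CharP F p] (hp : p ≠ 2)
    (H : Subgroup (GL (Fin 2) F)) [Finite H] (hodd : Odd (Nat.card H))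
    (hirr : ∀ v : Fin 2 → F, v ≠ 0 → ∃ g ∈ H, (g : Matrix (Fin 2) (Fin 2) F).mulVec v ∉ Submodule.span F {v}) :
    ¬ p ∣ Nat.card H := by
  intro hdvd
  let M₂ := Matrix (Fin 2) (Fin 2) F
  -- the part of `H` in the special linear group
  let H1 : Subgroup (GL (Fin 2) F) := H ⊓ (Matrix.GeneralLinearGroup.det).ker
  have hH1 : ∀ g ∈ H1, Matrix.det (g : M₂) = 1 := fun g hg =>
    congrArg Units.val (show Matrix.GeneralLinearGroup.det g = 1 from hg.2)
  have hodd1 : Odd (Nat.card H1) := hodd.of_dvd_nat (Subgroup.card_dvd_of_le inf_le_left)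
  haveI : Finite H1 := Finite.of_injective _ (Subgroup.inclusion_injective (inf_le_left : H1 ≤ H))
  obtain ⟨u, hu⟩ := exists_prime_orderOf_dvd_card' p hdvd
  have hmem : ∀ g : GL (Fin 2) F, g ∈ H → g ^ p = 1 → g ∈ H1 := by
    intro g hg hgp
    refine ⟨hg, MonoidHom.mem_ker.mpr ?_⟩
    have h1 : (Matrix.GeneralLinearGroup.det g : F) ^ p = 1 := by
      rw [← Units.val_pow_eq_pow_val, ← map_pow, hgp, map_one, Units.val_one]
    refine Units.ext (frobenius_inj F p ?_)
    rw [frobenius_def, frobenius_def, h1, Units.val_one, one_pow]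
  have hup : (u : GL (Fin 2) F) ^ p = 1 := by
    rw [← hu, ← Subgroup.orderOf_coe]; exact pow_orderOf_eq_one _
  have hu1 : (u : GL (Fin 2) F) ≠ 1 := by
    intro h
    rw [← Subgroup.orderOf_coe, h, orderOf_one] at hu
    exact (Fact.out : p.Prime).one_lt.ne hu
  set N : M₂ := ((u : GL (Fin 2) F) : M₂) - 1 with hN
  have hN0 : N ≠ 0 := fun h => hu1 (Units.ext (sub_eq_zero.mp h))
  obtain ⟨hsq, -, -⟩ := Lib.OddLocal.unipotent_of_pow_eq_one (p := p) ((u : GL (Fin 2) F) : M₂)
    (by rw [← Units.val_pow_eq_pow_val, hup, Units.val_one])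
  obtain ⟨w, hw⟩ : ∃ w, N.mulVec w ≠ 0 := by
    by_contra hall
    push Not at hall
    exact hN0 (Matrix.ext_iff_mulVec.mpr fun w => by rw [hall w, Matrix.zero_mulVec])
  set e := N.mulVec w with he
  have hNe : N.mulVec e = 0 := by rw [he, Matrix.mulVec_mulVec, hsq, Matrix.zero_mulVec]
  obtain ⟨g, hg, hge⟩ := hirr e hw
  apply hge
  -- the kernel of `N` is the line through `e`
  have hker : ∀ y : Fin 2 → F, N.mulVec y = 0 → y ∈ Submodule.span F {e} := by
    intro y hy
    obtain ⟨i, j, hij⟩ : ∃ i j, N i j ≠ 0 := by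
      by_contra hc
      push Not at hc
      exact hN0 (Matrix.ext hc)
    have h1 := congrFun hy i
    have h2 := congrFun hNe i
    simp only [Matrix.mulVec, dotProduct, Fin.sum_univ_two, Pi.zero_apply] at h1 h2
    have hD : y 0 * e 1 - y 1 * e 0 = 0 := by
      fin_cases j
      · exact (mul_eq_zero.mp (show N i 0 * (y 0 * e 1 - y 1 * e 0) = 0 by
          linear_combination (e 1) * h1 - (y 1) * h2)).resolve_left hij
      · exact (mul_eq_zero.mp (show N i 1 * (y 0 * e 1 - y 1 * e 0) = 0 by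
          linear_combination (y 0) * h2 - (e 0) * h1)).resolve_left hij
    rw [Submodule.mem_span_singleton]
    by_cases he0 : e 0 = 0
    · have he1 : e 1 ≠ 0 := fun h => hw (funext fun k => by fin_cases k <;> assumption)
      refine ⟨y 1 / e 1, funext fun k => ?_⟩
      fin_cases k
      · simp [he0] at hD ⊢
        simp [hD.resolve_right he1]
      · simp [he1]
    · refine ⟨y 0 / e 0, funext fun k => ?_⟩
      fin_cases k
      · simp [he0]
      · simp only [Pi.smul_apply, smul_eq_mul]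
        field_simp
        simp only [Fin.mk_one] at *; linear_combination hD
  have hvp : (g⁻¹ * u * g) ^ p = 1 := by
    have := conj_pow (a := (g⁻¹ : GL (Fin 2) F)) (b := (u : GL (Fin 2) F)) (i := p)
    rw [inv_inv, hup, mul_one, inv_mul_cancel] at this
    exact this
  have hcomm := Lib.OddLocal.commute_of_pow_eq_one_of_det hp H1 hodd1 hH1
    (u := ⟨u, hmem u u.2 hup⟩)
    (v := ⟨g⁻¹ * u * g, hmem _ (H.mul_mem (H.mul_mem (H.inv_mem hg) u.2) hg) hvp⟩)
    (Subtype.ext hup) (Subtype.ext hvp)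
  have hcm : Commute ((u : GL (Fin 2) F) : M₂) ((g⁻¹ * u * g : GL (Fin 2) F) : M₂) :=
    congrArg (fun z : H1 => ((z : GL (Fin 2) F) : M₂)) hcomm.eq
  set V : M₂ := ((g⁻¹ * u * g : GL (Fin 2) F) : M₂) with hV
  have hns : ∀ c : F, ((u : GL (Fin 2) F) : M₂) ≠ c • 1 := fun c =>
    Lib.OddLocal.not_scalar H1 hodd1 hH1 (g := ⟨u, hmem u u.2 hup⟩) (fun h => hu1 (congrArg Subtype.val h)) c
  obtain ⟨a, b, hab⟩ := Lib.OddLocal.exists_eq_smul_add_smul hns hcm.symm
  have hgu : (g : M₂) * V = ((u : GL (Fin 2) F) : M₂) * (g : M₂) := by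
    rw [hV, ← Units.val_mul, ← Units.val_mul]; congr 1; group
  have hNg : N * (g : M₂) = (g : M₂) * ((a + b - 1) • (1 : M₂) + b • N) := by
    have e1 : (a + b - 1) • (1 : M₂) + b • N = V - 1 := by rw [hab, hN]; module
    rw [e1, mul_sub, hgu, hN, sub_mul, one_mul, mul_one]
  have hab1 : a + b - 1 = 0 := by
    by_contra hne
    have h2 : N.mulVec (N.mulVec ((g : M₂).mulVec e)) = 0 := by
      rw [Matrix.mulVec_mulVec, hsq, Matrix.zero_mulVec]
    rw [Matrix.mulVec_mulVec (M := N) (N := (g : M₂)), hNg, ← Matrix.mulVec_mulVec, Matrix.add_mulVec,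
      Matrix.smul_mulVec, Matrix.smul_mulVec, Matrix.one_mulVec, hNe, smul_zero, add_zero,
      Matrix.mulVec_smul, Matrix.mulVec_smul, Matrix.mulVec_mulVec, hNg, ← Matrix.mulVec_mulVec,
      Matrix.add_mulVec, Matrix.smul_mulVec, Matrix.smul_mulVec, Matrix.one_mulVec, hNe, smul_zero,
      add_zero, Matrix.mulVec_smul, smul_smul] at h2
    rcases smul_eq_zero.mp h2 with h | h
    · exact hne (mul_self_eq_zero.mp h)
    · apply hw
      have h3 := congrArg (fun y => ((g⁻¹ : GL (Fin 2) F) : M₂).mulVec y) h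
      simp only [Matrix.mulVec_mulVec, Matrix.mulVec_zero] at h3
      rwa [← Units.val_mul, inv_mul_cancel, Units.val_one, Matrix.one_mulVec] at h3
  refine hker _ ?_
  rw [Matrix.mulVec_mulVec, hNg, hab1, zero_smul, zero_add, ← Matrix.mulVec_mulVec, Matrix.smul_mulVec,
    hNe, smul_zero, Matrix.mulVec_zero]

end Cfsg.Agent.S1463
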