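import Cfsg.Statements.S1464
import Cfsg.Agent.Lib.OddLocal.PStable

set_option autoImplicit false
open Cfsg
open scoped commutatorElement

namespace Cfsg.Agent.S1464

/-- Let p be an odd prime and G a solvable group of odd order, P a p-subgroup with O_{p'}(G)P normal in G, and A a p-subgroup of N_G(P) with [[P, A], A] = 1. Then the image of A in the quotient N_G(P)/C_G(P) is contained in the p-core of that quotient. -/
theorem result {G : Type*} [Group G] [Finite G] [Group.IsSolvable G] (hodd : Odd (Nat.card G)) (p : ℕ) [Fact p.Prime] (hp : p ≠ 2) (P A : Subgroup G) (hP : IsPGroup p P) (hPn : (Cfsg.pPrimeCore p G ⊔ P).Normal)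
    (hA : IsPGroup p A) (hAN : A ≤ Subgroup.normalizer (P : Set G)) (hquad : ⁅⁅P, A⁆, A⁆ = ⊥) :
    (A.subgroupOf (Subgroup.normalizer (P : Set G))).map
        (QuotientGroup.mk' ((Subgroup.centralizer (P : Set G)).subgroupOf (Subgroup.normalizer (P : Set G))))
      ≤ Cfsg.pCore p _ := by
  set N := Subgroup.normalizer (P : Set G) with hN
  haveI : (P.subgroupOf N).Normal := Subgroup.normal_in_normalizer
  have hC : (Subgroup.centralizer (P : Set G)).subgroupOf N =
      Subgroup.centralizer (P.subgroupOf N : Set N) := by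
    ext g
    simp only [Subgroup.mem_subgroupOf, Subgroup.mem_centralizer_iff]
    constructor
    · intro h x hx; exact Subtype.ext (h x hx)
    · intro h x hx
      exact congrArg Subtype.val (h ⟨x, Subgroup.le_normalizer hx⟩ hx)
  rintro _ ⟨a, ha, rfl⟩
  refine Lib.OddLocal.quadratic_mem_pCore p hp (hodd.of_dvd_nat (Subgroup.card_subgroup_dvd_card _))
    hC (hP.comap_subtype) ?_
  intro x hx
  have h1 : ⁅(x : G), (a : G)⁆ ∈ ⁅P, A⁆ := Subgroup.commutator_mem_commutator hx ha
  have h2 := Subgroup.commutator_eq_bot_iff_le_centralizer.mp hquad h1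
  have h3 : Commute ⁅(x : G), (a : G)⁆ (a : G) :=
    (Subgroup.mem_centralizer_iff.mp h2 a ha).symm
  have h4 : Commute (a : G) ⁅(a : G), (x : G)⁆ := by
    rw [← commutatorElement_inv]; exact h3.symm.inv_right
  exact Subtype.ext h4.eq

end Cfsg.Agent.S1464
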