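import Cfsg.Statements.S1466
import Cfsg.Agent.Lib.OddLocal.Puig

set_option autoImplicit false
open Cfsg

namespace Cfsg.Agent.S1466

/-- Let p be a prime and R a nontrivial finite p-group. Then for every i > 0, Z(R) ≤ C_R(L_i(R)) ≤ L_i(R); likewise Z(R) ≤ C_R(L_*(R)) ≤ L_*(R) and Z(R) ≤ C_R(L(R)) ≤ L(R); and L(R) ≠ 1, L_*(R) ≠ 1. -/
theorem result {R : Type*} [Group R] [Finite R] (p : ℕ) [Fact p.Prime] (hR : IsPGroup p R) [Nontrivial R] :
    (∀ i : ℕ, 0 < i → Subgroup.center R ≤ Subgroup.centralizer ((Cfsg.puigSeq R i : Subgroup R) : Set R) ∧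
        Subgroup.centralizer ((Cfsg.puigSeq R i : Subgroup R) : Set R) ≤ Cfsg.puigSeq R i) ∧
      (Subgroup.center R ≤ Subgroup.centralizer ((Cfsg.puigLower R : Subgroup R) : Set R) ∧ Subgroup.centralizer ((Cfsg.puigLower R : Subgroup R) : Set R) ≤ Cfsg.puigLower R) ∧
      (Subgroup.center R ≤ Subgroup.centralizer ((Cfsg.puigSubgroup R : Subgroup R) : Set R) ∧ Subgroup.centralizer ((Cfsg.puigSubgroup R : Subgroup R) : Set R) ≤ Cfsg.puigSubgroup R) ∧
      Cfsg.puigSubgroup R ≠ ⊥ ∧ Cfsg.puigLower R ≠ ⊥ := by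
  haveI hb : IsMulCommutative (⊥ : Subgroup R) := inferInstance
  obtain ⟨A, -, hAn, hAc, hCA⟩ := Lib.OddLocal.exists_selfCentralizing_normal hR (⊥ : Subgroup R) hb
  have key : ∀ X : Subgroup R, A ≤ X → Subgroup.center R ≤ Subgroup.centralizer (X : Set R) ∧
      Subgroup.centralizer (X : Set R) ≤ X := fun X hX =>
    ⟨Subgroup.center_le_centralizer _, ((Subgroup.centralizer_le hX).trans hCA.le).trans hX⟩
  have hne : ∀ X : Subgroup R, A ≤ X → X ≠ ⊥ := by
    intro X hX h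
    subst h
    have h2 := (key ⊥ hX).2
    obtain ⟨x, hx⟩ := exists_ne (1 : R)
    refine hx (Subgroup.mem_bot.mp (h2 ?_))
    rw [Subgroup.mem_centralizer_iff]
    intro y hy
    rw [Subgroup.mem_bot.mp hy, one_mul, mul_one]
  exact ⟨fun i hi => key _ (Lib.OddLocal.normal_abelian_le_puigSeq hAc hi),
    key _ (Lib.OddLocal.normal_abelian_le_puigLower hAc),
    key _ (Lib.OddLocal.normal_abelian_le_puigSubgroup hAc),
    hne _ (Lib.OddLocal.normal_abelian_le_puigSubgroup hAc),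
    hne _ (Lib.OddLocal.normal_abelian_le_puigLower hAc)⟩

end Cfsg.Agent.S1466
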