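import Cfsg.Statements.S1471
import Cfsg.Agent.Lib.OddLocal.NormPairs

set_option autoImplicit false
open Cfsg

namespace Cfsg.Agent.S1471

/-- Let p and q be odd primes with (p^q − 1)/(p − 1) coprime to p − 1. Then there are at least two elements a of the field with p ^ q elements such that both a and 2 − a have norm 1 to the prime field. -/
theorem result (p q : ℕ) [Fact p.Prime] [Fact q.Prime] (hp : p ≠ 2) (hq : q ≠ 2) (hA : Nat.Coprime ((p ^ q - 1) / (p - 1)) (p - 1)) :
    2 ≤ Set.ncard {a : GaloisField p q | Algebra.norm (ZMod p) a = 1 ∧ Algebra.norm (ZMod p) (2 - a) = 1} := by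
  have hp1 : 1 < p := (Fact.out : p.Prime).one_lt
  have hq0 : q ≠ 0 := (Fact.out : q.Prime).ne_zero
  haveI : Finite (GaloisField p q) :=
    Nat.finite_of_card_ne_zero (by rw [GaloisField.card p q hq0]; exact pow_ne_zero _ (by omega))
  obtain ⟨a, ha1, ha, ha2⟩ : ∃ a : GaloisField p q, a ≠ 1 ∧ a ^ Lib.OddLocal.normExp p q = 1 ∧
      (2 - a) ^ Lib.OddLocal.normExp p q = 1 := by
    rcases eq_or_ne q 3 with rfl | hq3
    · exact Lib.OddLocal.exists_pair_cubic p
    haveI := Fintype.ofFinite (GaloisField p q)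
    have hcard : Fintype.card (GaloisField p q) = p ^ q := by
      rw [← Nat.card_eq_fintype_card, GaloisField.card p q hq0]
    obtain ⟨m, hm⟩ := (Fact.out : q.Prime).odd_of_ne_two hq
    have hm2 : 2 ≤ m := by
      have := (Fact.out : q.Prime).two_le
      omega
    refine Lib.OddLocal.exists_pair_of_char_sum _ (p ^ (m + 1)) ?_ ?_ ?_ ?_
    · intro h
      have h1 : ((2 : ℕ) : GaloisField p q) = 0 := by exact_mod_cast h
      exact hp ((Nat.prime_dvd_prime_iff_eq (Fact.out : p.Prime) Nat.prime_two).mp
        ((CharP.cast_eq_zero_iff (GaloisField p q) p 2).mp h1))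
    · rw [hcard, Lib.OddLocal.normExp_eq_div p q hp1]
      exact Nat.div_dvd_of_dvd (Nat.sub_one_dvd_pow_sub_one p q)
    · rw [hcard, ← pow_mul]
      exact Nat.pow_le_pow_right (by omega) (by omega)
    · rw [hcard]
      have hn : p ^ (2 * m) + p ^ (2 * m - 1) ≤ Lib.OddLocal.normExp p q := by
        have hsub : ({2 * m, 2 * m - 1} : Finset ℕ) ⊆ Finset.range q := by
          intro i hi
          simp only [Finset.mem_insert, Finset.mem_singleton] at hi
          rw [Finset.mem_range]; omega
        refine le_trans ?_ (Finset.sum_le_sum_of_subset (f := fun i => p ^ i) hsub)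
        rw [Finset.sum_pair (by omega)]
      calc p ^ q + p ^ q * p ^ (m + 1) ≤ p ^ (2 * m + (2 * m - 1)) + p ^ (2 * m + 2 * m) := by
            rw [← pow_add]
            exact Nat.add_le_add (Nat.pow_le_pow_right (by omega) (by omega))
              (Nat.pow_le_pow_right (by omega) (by omega))
        _ < (p ^ (2 * m) + p ^ (2 * m - 1)) ^ 2 := by
            rw [pow_add, pow_add, add_sq, ← pow_two]
            have h1 : 0 < p ^ (2 * m) * p ^ (2 * m - 1) :=
              Nat.mul_pos (Nat.pow_pos (by omega)) (Nat.pow_pos (by omega))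
            nlinarith
        _ ≤ Lib.OddLocal.normExp p q ^ 2 := Nat.pow_le_pow_left hn 2
  have hsub : ({1, a} : Set (GaloisField p q)) ⊆
      {a : GaloisField p q | Algebra.norm (ZMod p) a = 1 ∧ Algebra.norm (ZMod p) (2 - a) = 1} := by
    intro b hb
    simp only [Set.mem_setOf_eq, Lib.OddLocal.galois_norm_eq_one_iff p q hq0]
    rcases hb with rfl | rfl
    · norm_num
    · exact ⟨ha, ha2⟩
  have h := Set.ncard_le_ncard hsub (Set.toFinite _)
  rwa [Set.ncard_pair (Ne.symm ha1)] at h

end Cfsg.Agent.S1471
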