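import Cfsg.Statements.S1472
import Cfsg.Agent.Lib.AppendixC.Triangle
-- import your own Cfsg.Agent.* helpers here

set_option autoImplicit false
open Cfsg

namespace Cfsg.Agent.S1472

/-- Let p, q be primes with (p^q − 1)/(p − 1) coprime to p − 1, G a finite group, F a field with p ^ q elements, and P, U, Q subgroups of G with: f : G → F bijective from P onto F and additive on P; U normalizing P and acting through ψ : G → F, injective and multiplicative on U with ψ(u) ≠ 0 and f(uxu⁻¹) = ψ(u) f(x); #U · (p − 1) = p^q − 1; Q abelian of order coprime to p, normalized by every x ∈ P with f(x) in the prime field; and some y ∈ Q such that y x y⁻¹ normalizes U for every such x. Then p ≤ q. -/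
theorem result {G : Type*} [Group G] [Finite G] (p q : ℕ) [Fact p.Prime] [Fact q.Prime] (hA : Nat.Coprime ((p ^ q - 1) / (p - 1)) (p - 1))
    (F : Type*) [Field F] [Fintype F] (hF : Fintype.card F = p ^ q) (P U Q : Subgroup G) (f ψ : G → F)
    (hf : Set.BijOn f (P : Set G) Set.univ) (hfadd : ∀ x ∈ P, ∀ z ∈ P, f (x * z) = f x + f z)
    (hUP : U ≤ Subgroup.normalizer (P : Set G)) (hψ : ∀ u ∈ U, ψ u ≠ 0 ∧ ∀ x ∈ P, f (u * x * u⁻¹) = ψ u * f x)
    (hψmul : ∀ u ∈ U, ∀ v ∈ U, ψ (u * v) = ψ u * ψ v) (hψinj : Set.InjOn ψ (U : Set G)) (hUcard : Nat.card U * (p - 1) = p ^ q - 1)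
    (hQ : IsMulCommutative Q) (hQp : (Nat.card Q).Coprime p) (hP0Q : ∀ x ∈ P, f x ^ p = f x → x ∈ Subgroup.normalizer (Q : Set G))
    (y : G) (hy : y ∈ Q) (hP0U : ∀ x ∈ P, f x ^ p = f x → y * x * y⁻¹ ∈ Subgroup.normalizer (U : Set G)) :
    p ≤ q := by
  by_contra hpq
  exact Lib.AppendixC.Config.contradiction
    ({ prime_p := Fact.out
       prime_q := Fact.out
       lt := not_le.mp hpq
       coprime := hA
       card := hF
       bij := hf
       f_mul := hfadd
       le_normalizer := hUP
       psi := hψ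
       psi_mul := hψmul
       psi_inj := hψinj
       card_U := hUcard
       comm_Q := hQ
       coprime_Q := hQp
       normalize_Q := hP0Q
       mem_Q := hy
       normalize_U := hP0U } : Lib.AppendixC.Config p q P U Q f ψ y)

end Cfsg.Agent.S1472
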