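import Cfsg.Statements.S1474
import Cfsg.Agent.Lib.CNGroup.Structure

set_option autoImplicit false
open Cfsg

namespace Cfsg.Agent.S1474

/-- Let G be a finite group in which every non-identity element has nilpotent centralizer, not itself nilpotent, and having a nontrivial normal Sylow p-subgroup for some prime p. Let H be the largest normal nilpotent Hall subgroup of G. Then H is a nontrivial proper normal subgroup with a complement E that is a Frobenius complement in G (no non-identity element of E centralizes a non-identity element of H), and G/H is nilpotent. -/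
theorem result {G : Type*} [Group G] [Finite G] (hCN : Cfsg.IsCNGroup G) (hnn : ¬ Group.IsNilpotent G) (p : ℕ) [Fact p.Prime] (P : Sylow p G)
    (hP1 : (P : Subgroup G) ≠ ⊥) (hPn : (P : Subgroup G).Normal) :
    Cfsg.fittingHall G ≠ ⊥ ∧ Cfsg.fittingHall G ≠ ⊤ ∧
      (∃ E : Subgroup G, Subgroup.IsComplement' (Cfsg.fittingHall G) E ∧ Cfsg.IsFrobeniusComplement E ∧
        ∀ e ∈ E, e ≠ 1 → Cfsg.fittingHall G ⊓ Subgroup.centralizer ({e} : Set G) = ⊥) ∧
      Group.IsNilpotent (G ⧸ Cfsg.fittingHall G) := by
  obtain ⟨H, k, -⟩ := Lib.CNGroup.kernel_of_normal_sylow hCN hnn P hP1 hPn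
  have e := k.fittingHall_eq hCN
  obtain ⟨E, hE, -, hFr, -, hfpf, -⟩ := k.exists_complement hCN
  haveI := k.normal
  refine ⟨e ▸ k.ne_bot, e ▸ k.ne_top, ⟨E, e ▸ hE, hFr, e ▸ hfpf⟩, ?_⟩
  exact (Group.isNilpotent_congr (QuotientGroup.quotientMulEquivOfEq e)).mpr (k.quotient_nilpotent hCN)

end Cfsg.Agent.S1474
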