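import Cfsg.Statements.S1475
import Cfsg.Agent.Lib.Hall.Solvable
import Cfsg.Agent.Lib.FPF.Hughes
import Cfsg.Agent.Lib.PLength.Basic

set_option autoImplicit false
open Cfsg Subgroup

namespace Cfsg.Agent.S1475

universe u
variable {G : Type*} [Group G]

theorem card_sup_dvd [Finite G] (H N : Subgroup G) [N.Normal] :
    Nat.card (H ⊔ N : Subgroup G) ∣ Nat.card H * Nat.card N := by
  rw [← relIndex_bot_left, ← relIndex_mul_relIndex ⊥ N (H ⊔ N) bot_le le_sup_right, relIndex_sup_right,
    relIndex_bot_left, mul_comm]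
  exact mul_dvd_mul_right (index_dvd_card (N.subgroupOf H)) _

open scoped IsMulCommutative in
theorem core {G : Type*} [Group G] [Finite G] (h : ∀ g : G, IsPrimePow (orderOf g) ∨ g = 1)
    {p q r : ℕ} (hp : p.Prime) (hq : q.Prime) (hr : r.Prime) (hpq : p ≠ q) (hpr : p ≠ r) (hqr : q ≠ r)
    {V : Subgroup G} [V.Normal] [IsMulCommutative V] (hV : IsPGroup p V) (hVne : V ≠ ⊥)
    {Q : Subgroup G} (hQ : IsPGroup q Q) (hQne : Q ≠ ⊥) {y : G} (hy : y ∈ normalizer (Q : Set G))
    (hyo : orderOf y = r) : False := by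
  haveI : Fact p.Prime := ⟨hp⟩
  haveI : Fact q.Prime := ⟨hq⟩
  obtain ⟨n, hn⟩ := IsPGroup.iff_card.1 hV
  obtain ⟨m, hm⟩ := IsPGroup.iff_card.1 hQ
  set H := Q ⊔ V with hH
  have hHcop : (Nat.card H).Coprime r := by
    refine Nat.Coprime.coprime_dvd_left (card_sup_dvd Q V) ?_
    rw [hn, hm]
    exact (((Nat.coprime_primes hq hr).2 hqr).pow_left _).mul_left (((Nat.coprime_primes hp hr).2 hpr).pow_left _)
  have hyH : y ∉ H := fun hh => by
    have := Nat.eq_one_of_dvd_coprimes hHcop (hyo ▸ H.orderOf_dvd_natCard hh) (dvd_refl r)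
    exact hr.ne_one this
  have hyn : ∀ x ∈ H, y * x * y⁻¹ ∈ H := fun x hx => by
    obtain ⟨a, ha, b, hb, rfl⟩ := mem_sup_of_normal_right.1 hx
    rw [show y * (a * b) * y⁻¹ = (y * a * y⁻¹) * (y * b * y⁻¹) by group]
    exact mul_mem (mem_sup_left ((mem_normalizer_iff.1 hy a).1 ha))
      (mem_sup_right (Normal.conj_mem inferInstance b hb y))
  have hynp : ∀ (i : ℕ), ∀ x ∈ H, y ^ i * x * (y ^ i)⁻¹ ∈ H := fun i => by
    induction i with
    | zero => simp
    | succ i ih =>
      intro x hx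
      rw [pow_succ', show y * y ^ i * x * (y * y ^ i)⁻¹ = y * (y ^ i * x * (y ^ i)⁻¹) * y⁻¹ by group]
      exact hyn _ (ih x hx)
  have hout : ∀ x ∈ H, (x * y) ^ r = 1 := fun x hx => by
    have hpow : ∀ i : ℕ, (x * y) ^ i * (y ^ i)⁻¹ ∈ H := fun i => by
      induction i with
      | zero => simp
      | succ i ih =>
        rw [pow_succ, pow_succ, show (x * y) ^ i * (x * y) * (y ^ i * y)⁻¹ =
          ((x * y) ^ i * (y ^ i)⁻¹) * (y ^ i * x * (y ^ i)⁻¹) by group]
        exact mul_mem ih (hynp i x hx)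
    have hgr : (x * y) ^ r ∈ H := by
      have := hpow r
      rwa [← hyo, pow_orderOf_eq_one, inv_one, mul_one, hyo] at this
    have hgn : x * y ∉ H := fun hh => hyH ((H.mul_mem_cancel_left hx).1 hh)
    rcases h (x * y) with hpp | h1
    · obtain ⟨s, k, hs, hk, hord⟩ := (isPrimePow_nat_iff _).1 hpp
      by_cases hsr : s = r
      · subst hsr
        rw [← orderOf_eq_one_iff]
        refine Nat.eq_one_of_dvd_coprimes (Nat.Coprime.pow_right k hHcop) (H.orderOf_dvd_natCard hgr) ?_
        rw [hord]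
        exact orderOf_pow_dvd _
      · refine absurd ?_ hgn
        have hc : (orderOf (x * y)).Coprime r := by
          rw [← hord]; exact ((Nat.coprime_primes hs hr).2 hsr).pow_left k
        obtain ⟨t, ht⟩ := exists_pow_eq_self_of_coprime hc.symm
        exact ht ▸ H.pow_mem hgr t
    · exact absurd (h1 ▸ H.one_mem) hgn
  have hbot : Q.map (MulAut.conjNormal : G →* MulAut V) = ⊥ := by
    refine Lib.FPF.eq_bot_of_splitting hr (MulAut.conjNormal y) _ ?_ ?_ ?_ ?_
    · refine Nat.Coprime.coprime_dvd_left (card_map_dvd _ _) ?_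
      rw [hn, hm]
      exact Nat.Coprime.pow _ _ ((Nat.coprime_primes hq hp).2 hpq.symm)
    · rintro _ ⟨k, hk, rfl⟩
      exact ⟨y * k * y⁻¹, (mem_normalizer_iff.1 hy k).1 hk, by simp⟩
    · rintro _ ⟨k, hk, rfl⟩
      rw [← map_mul, ← map_pow, show y * k = (y * k * y⁻¹) * y by group,
        hout _ (hyn k (mem_sup_left hk)), map_one]
    · rintro _ ⟨k, hk, rfl⟩ v
      rw [← map_mul]
      refine Subtype.ext ?_
      have h' := Lib.FPF.coe_prod_conj_mul_pow v (y * k) r
      rw [show (v : G) * (y * k) = ((v : G) * (y * k * y⁻¹)) * y by group,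
        hout _ (mul_mem (mem_sup_right v.2) (hyn k (mem_sup_left hk))),
        show y * k = (y * k * y⁻¹) * y by group, hout _ (hyn k (mem_sup_left hk)), mul_one] at h'
      simpa [show y * k * y⁻¹ * y = y * k by group] using h'
  obtain ⟨a, haQ, hao⟩ : ∃ a ∈ Q, orderOf a = q := by
    haveI := (Subgroup.nontrivial_iff_ne_bot Q).2 hQne
    obtain ⟨⟨a, ha⟩, hao⟩ := exists_prime_orderOf_dvd_card' (G := Q) q (by
      obtain ⟨m', hm0, hm'⟩ := (IsPGroup.nontrivial_iff_card hQ).1 inferInstance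
      exact hm' ▸ dvd_pow_self q hm0.ne')
    exact ⟨a, ha, by rwa [Subgroup.orderOf_mk] at hao⟩
  obtain ⟨v, hvV, hvo⟩ : ∃ v ∈ V, orderOf v = p := by
    haveI := (Subgroup.nontrivial_iff_ne_bot V).2 hVne
    obtain ⟨⟨a, ha⟩, hao⟩ := exists_prime_orderOf_dvd_card' (G := V) p (by
      obtain ⟨m', hm0, hm'⟩ := (IsPGroup.nontrivial_iff_card hV).1 inferInstance
      exact hm' ▸ dvd_pow_self p hm0.ne')
    exact ⟨a, ha, by rwa [Subgroup.orderOf_mk] at hao⟩
  have hc : Commute a v := by
    have h1 : (MulAut.conjNormal a : MulAut V) = 1 := mem_bot.1 (hbot ▸ mem_map_of_mem _ haQ)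
    have h2 := congrArg Subtype.val (DFunLike.congr_fun h1 (⟨v, hvV⟩ : V))
    rw [MulAut.conjNormal_apply] at h2
    exact mul_inv_eq_iff_eq_mul.1 h2
  have hco : orderOf (a * v) = q * p := by
    rw [hc.orderOf_mul_eq_mul_orderOf_of_coprime (by rw [hao, hvo]; exact (Nat.coprime_primes hq hp).2 hpq.symm), hao, hvo]
  rcases h (a * v) with hpp | h1
  · rw [hco] at hpp
    obtain ⟨s, k, hs, hk, hord⟩ := (isPrimePow_nat_iff _).1 hpp
    have h1 : q = s := (Nat.prime_dvd_prime_iff_eq hq hs).1 (hq.dvd_of_dvd_pow (hord ▸ dvd_mul_right q p))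
    have h2 : p = s := (Nat.prime_dvd_prime_iff_eq hp hs).1 (hp.dvd_of_dvd_pow (hord ▸ dvd_mul_left p q))
    exact hpq (h2.trans h1.symm)
  · rw [h1, orderOf_one] at hco
    exact hq.ne_one (Nat.eq_one_of_mul_eq_one_right hco.symm)

theorem exists_pCore_ne_bot {G : Type*} [Group G] [Finite G] [Group.IsSolvable G] [Nontrivial G] :
    ∃ p : ℕ, p.Prime ∧ pCore p G ≠ ⊥ := by
  obtain ⟨N, p, hn, hN, hp, hNp, -, -⟩ := Lib.Hall.exists_normal_pgroup (G := G)
  exact ⟨p, hp, fun hb => hN (eq_bot_iff.2 (hb ▸ Lib.Hall.le_pCore hNp))⟩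

theorem card_comap_mk {G : Type*} [Group G] [Finite G] (P : Subgroup G) [P.Normal] (X : Subgroup (G ⧸ P)) :
    Nat.card (X.comap (QuotientGroup.mk' P)) = Nat.card P * Nat.card X := by
  refine Nat.eq_of_mul_eq_mul_right (Nat.pos_of_ne_zero (index_ne_zero_of_finite (H := X))) ?_
  conv_lhs => rw [← index_comap_of_surjective X (QuotientGroup.mk'_surjective P), card_mul_index]
  rw [mul_assoc, card_mul_index, P.card_eq_card_quotient_mul_card_subgroup, mul_comm]


/-- Let G be a finite solvable group such that the order of every element is a prime power (1 included). Then at most two distinct primes divide the order of G. -/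
theorem result {G : Type*} [Group G] [Finite G] [Group.IsSolvable G] (h : ∀ g : G, IsPrimePow (orderOf g) ∨ g = 1) :
    (Nat.card G).primeFactors.card ≤ 2 := by
  by_contra hcon
  have h3 : 2 < (Nat.card G).primeFactors.card := by omega
  have hnt : Nontrivial G := by
    by_contra hn
    rw [not_nontrivial_iff_subsingleton] at hn
    simp [Nat.card_unique] at h3
  obtain ⟨p, hp, hP⟩ : ∃ p : ℕ, p.Prime ∧ pCore p G ≠ ⊥ := exists_pCore_ne_bot
  haveI : Fact p.Prime := ⟨hp⟩
  let P := pCore p G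
  haveI : P.Normal := Lib.Hall.pCore_normal p
  haveI : Nontrivial (G ⧸ P) := by
    by_contra hn
    rw [not_nontrivial_iff_subsingleton] at hn
    have hPtop : P = ⊤ := eq_top_iff.2 fun g _ => (QuotientGroup.eq_one_iff g).1 (Subsingleton.elim _ _)
    obtain ⟨n, hn⟩ := IsPGroup.iff_card.1 (Lib.Hall.isPGroup_pCore (G := G) p)
    have : Nat.card G = p ^ n := by rw [← hn]; rw [show pCore p G = ⊤ from hPtop, card_top]
    rw [this] at h3
    rcases Nat.eq_zero_or_pos n with h0 | h0
    · subst h0; simp at h3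
    · rw [Nat.primeFactors_prime_pow h0.ne' hp] at h3; simp at h3
  obtain ⟨q, hq, hQ⟩ : ∃ q : ℕ, q.Prime ∧ pCore q (G ⧸ P) ≠ ⊥ := exists_pCore_ne_bot
  haveI : Fact q.Prime := ⟨hq⟩
  have hqp : q ≠ p := by
    rintro rfl
    exact hQ (Lib.PLength.pCore_quotient_pCore_eq_bot)
  let π := QuotientGroup.mk' P
  let N := (pCore q (G ⧸ P)).comap π
  haveI : (pCore q (G ⧸ P)).Normal := Lib.Hall.pCore_normal q
  haveI : N.Normal := Subgroup.Normal.comap inferInstance π
  let Q' : Sylow q N := Classical.arbitrary _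
  let Q : Subgroup G := (Q' : Subgroup N).map N.subtype
  have hQp : IsPGroup q Q := Q'.2.map _
  have hfr : normalizer (Q : Set G) ⊔ N = ⊤ := Sylow.normalizer_sup_eq_top Q'
  obtain ⟨n, hn⟩ := IsPGroup.iff_card.1 (Lib.Hall.isPGroup_pCore (G := G) p)
  obtain ⟨m, hm⟩ := IsPGroup.iff_card.1 (Lib.Hall.isPGroup_pCore (G := G ⧸ P) q)
  have hNcard : Nat.card N = p ^ n * q ^ m := by
    rw [← hn, ← hm]
    exact card_comap_mk P _
  have hQne : Q ≠ ⊥ := by
    intro hb
    have h1 : Nat.card Q = 1 := by rw [hb, card_bot]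
    rw [Subgroup.card_map_of_injective N.subtype_injective, Q'.card_eq_multiplicity, hNcard] at h1
    have hm0 : m ≠ 0 := by
      rintro rfl
      exact hQ (eq_bot_of_card_eq _ (by simpa using hm))
    have : q ∣ q ^ (p ^ n * q ^ m).factorization q := by
      refine dvd_pow_self q (Nat.pos_iff_ne_zero.1 ?_)
      exact hq.factorization_pos_of_dvd (mul_ne_zero (pow_ne_zero _ hp.ne_zero) (pow_ne_zero _ hq.ne_zero)) ((dvd_pow_self q hm0).mul_left _)
    rw [h1, Nat.dvd_one] at this
    exact hq.ne_one this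
  obtain ⟨r, hr, hrp, hrq⟩ : ∃ r ∈ (Nat.card G).primeFactors, r ≠ p ∧ r ≠ q := by
    by_contra hh
    push Not at hh
    have : (Nat.card G).primeFactors ⊆ {p, q} := fun r hr => by
      by_cases hrp : r = p
      · simp [hrp]
      · simp [hh r hr hrp]
    have := (Finset.card_le_card this).trans Finset.card_le_two
    omega
  have hrP : r.Prime := Nat.prime_of_mem_primeFactors hr
  haveI : Fact r.Prime := ⟨hrP⟩
  have hrN : r ∣ Nat.card (normalizer (Q : Set G)) := by
    have h1 : r ∣ Nat.card (normalizer (Q : Set G)) * Nat.card N := by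
      refine (Nat.dvd_of_mem_primeFactors hr).trans ?_
      have := card_sup_dvd (normalizer (Q : Set G)) N
      rwa [hfr, card_top] at this
    refine ((Nat.Coprime.dvd_of_dvd_mul_right ?_) h1)
    rw [hNcard]
    exact Nat.Coprime.mul_right (((Nat.coprime_primes hrP hp).2 hrp).pow_right _)
      (((Nat.coprime_primes hrP hq).2 hrq).pow_right _)
  obtain ⟨⟨y, hy⟩, hyo⟩ := exists_prime_orderOf_dvd_card' r hrN
  rw [Subgroup.orderOf_mk] at hyo
  let V : Subgroup G := (center P).map P.subtype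
  haveI : V.Normal := ConjAct.normal_of_characteristic_of_normal
  haveI : IsMulCommutative V := inferInstance
  have hPp : IsPGroup p P := Lib.Hall.isPGroup_pCore p
  have hVne : V ≠ ⊥ := by
    haveI : Nontrivial P := (Subgroup.nontrivial_iff_ne_bot P).2 hP
    haveI := hPp.center_nontrivial
    rw [Ne, (map_eq_bot_iff_of_injective _ P.subtype_injective)]
    exact (Subgroup.nontrivial_iff_ne_bot _).1 inferInstance
  exact core h hp hq hrP hqp.symm (Ne.symm hrp) (Ne.symm hrq) (hPp.to_subgroup _ |>.map _) hVne hQp hQne hy hyo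

end Cfsg.Agent.S1475
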