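import Cfsg.Statements.S1477
import Cfsg.Agent.Lib.CNGroup.Structure

set_option autoImplicit false
open Cfsg

namespace Cfsg.Agent.S1477

/-- Let G be a finite group in which every non-identity element has nilpotent centralizer, and H a nilpotent subgroup not properly contained in any nilpotent subgroup. Then the order of H is coprime to its index; if the order of H is not a prime power then H ∩ gHg⁻¹ = 1 whenever gHg⁻¹ ≠ H; and if H ∩ gHg⁻¹ = 1 whenever gHg⁻¹ ≠ H, then C_G(x) ≤ H for every non-identity x ∈ H. -/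
theorem result {G : Type*} [Group G] [Finite G] (hCN : Cfsg.IsCNGroup G) (H : Subgroup G) (hH : Group.IsNilpotent H)
    (hmax : ∀ L : Subgroup G, Group.IsNilpotent L → H ≤ L → L = H) :
    (Nat.card H).Coprime H.index ∧
      (¬ IsPrimePow (Nat.card H) → Nat.card H ≠ 1 → ∀ g : G, H.map (MulAut.conj g).toMonoidHom ≠ H → H ⊓ H.map (MulAut.conj g).toMonoidHom = ⊥) ∧
      ((∀ g : G, H.map (MulAut.conj g).toMonoidHom ≠ H → H ⊓ H.map (MulAut.conj g).toMonoidHom = ⊥) → ∀ x ∈ H, x ≠ 1 → Subgroup.centralizer ({x} : Set G) ≤ H) := by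
  have hm : Lib.CNGroup.IsMaxNil H := ⟨hH, hmax⟩
  refine ⟨Lib.CNGroup.coprime_index hCN hm, fun hpp h1 g hg => ?_, fun hti x hx hx1 c hc => ?_⟩
  · obtain ⟨p, hp, hpd⟩ := Nat.exists_prime_and_dvd h1
    obtain ⟨q, hq, hqp, hqd⟩ : ∃ q, q.Prime ∧ q ≠ p ∧ q ∣ Nat.card H := by
      by_contra hne
      push Not at hne
      have e : Nat.card H = p ^ (Nat.card H).primeFactorsList.length :=
        Nat.eq_prime_pow_of_unique_prime_dvd Nat.card_pos.ne' fun {d} hd hdv =>
          by_contra fun hdp => hne d hd hdp hdv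
      refine hpp ((isPrimePow_nat_iff _).2 ⟨p, _, hp, Nat.pos_of_ne_zero fun h0 => h1 ?_, e.symm⟩)
      rw [h0, pow_zero] at e; exact e
    exact Lib.CNGroup.ti_of_centralizer_le hCN hm
      (fun a ha ha1 => Lib.CNGroup.centralizer_le_of_two hCN hm hq hp hqp hqd hpd ha ha1) g hg
  · have hcN : ∀ c : G, c * x = x * c → H.map (MulAut.conj c).toMonoidHom = H := fun c hc => by
      by_contra hne
      refine hx1 (Subgroup.mem_bot.1 ((hti c hne).le ⟨hx, x, hx, ?_⟩))
      show c * x * c⁻¹ = x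
      rw [hc, mul_inv_cancel_right]
    obtain ⟨p, hp, hpd⟩ := Nat.exists_prime_and_dvd (n := Nat.card H)
      (fun h => hx1 (Subgroup.mem_bot.1 (H.eq_bot_of_card_eq h ▸ hx)))
    haveI : Fact p.Prime := ⟨hp⟩
    obtain ⟨z, hzH, hzo, hzc⟩ := Lib.CNGroup.exists_central_prime hH hpd
    refine Lib.CNGroup.mem_of_decomp c hp (fun u hu hpu => ?_) fun v hv hpv =>
      Lib.CNGroup.mem_of_commute hCN hm (Lib.CNGroup.ne_one_of_orderOf hp hzo) hzc
        (Lib.CNGroup.commute_of_nil (hCN x hx1) (Subgroup.zpowers_le.2 hc hv)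
          (Subgroup.mem_centralizer_singleton_iff.2 (hzc x hx).eq) (by rw [hzo]; exact hpv))
    -- a `p`-element normalizing the subgroup lies in it
    have hun : u ∈ Subgroup.normalizer (H : Set G) :=
      Subgroup.mem_normalizer_iff_map_conj_eq.2
        (hcN u (Subgroup.mem_centralizer_singleton_iff.1 (Subgroup.zpowers_le.2 hc hu)))
    obtain ⟨k, hk⟩ := hpu
    obtain ⟨j, -, hj⟩ := (Nat.dvd_prime_pow hp).1 hk
    have hcop : (orderOf u).Coprime H.index := by
      rw [hj]
      exact ((Lib.CNGroup.coprime_index hCN hm).coprime_dvd_left hpd).pow_left j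
    set N := Subgroup.normalizer (H : Set G) with hN
    have hle : H ≤ N := Subgroup.le_normalizer
    haveI : (H.subgroupOf N).Normal := Subgroup.normal_in_normalizer
    have h1 : orderOf (QuotientGroup.mk' (H.subgroupOf N) ⟨u, hun⟩) ∣ H.index :=
      (orderOf_dvd_natCard _).trans ((dvd_of_eq (Subgroup.index_eq_card _).symm).trans
        (Subgroup.relIndex_dvd_index_of_le hle))
    have h2 : orderOf (QuotientGroup.mk' (H.subgroupOf N) ⟨u, hun⟩) ∣ orderOf u :=
      (orderOf_map_dvd _ _).trans (by rw [Subgroup.orderOf_mk])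
    have h3 := orderOf_eq_one_iff.1 (Nat.eq_one_of_dvd_coprimes hcop h2 h1)
    exact (QuotientGroup.eq_one_iff (N := H.subgroupOf N) _).1 h3

end Cfsg.Agent.S1477
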