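import Cfsg.Statements.S1481
import Cfsg.Agent.Lib.Uniq.Fitting
import Cfsg.Agent.Lib.CNGroup.Basic

set_option autoImplicit false
open Cfsg

namespace Cfsg.Agent.S1481

open Cfsg.Agent.Lib.Uniq Cfsg.Agent.Lib.OddLocal
open Cfsg.Agent.Lib.Components.MaxLocal (locCore locCore_le le_normalizer_locCore locCore_isPGroup inf_locCore_eq_bot)
open Subgroup
open scoped Pointwise commutatorElement

universe u

variable {G : Type u} [Group G] [Finite G]

/-- The centre of `O_t(M)`. -/
def zCore (t : ℕ) (M : Subgroup G) : Subgroup G := locCore t M ⊓ centralizer (locCore t M : Set G)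

theorem zCore_ne_bot {t : ℕ} [Fact t.Prime] {M : Subgroup G} (h : locCore t M ≠ ⊥) : zCore t M ≠ ⊥ := by
  haveI : Nontrivial (locCore t M) := (nontrivial_iff_ne_bot _).mpr h
  obtain ⟨z, -, hz1, hzc⟩ := Lib.Uniq.exists_central_mem (locCore_isPGroup t M)
    (⊤ : Subgroup (locCore t M)) top_ne_bot
  intro hb
  have hmem : (z : G) ∈ zCore t M := ⟨z.2, mem_centralizer_iff.mpr fun y hy =>
    congrArg Subtype.val (mem_center_iff.mp hzc ⟨y, hy⟩)⟩
  rw [hb, mem_bot] at hmem
  exact hz1 (Subtype.ext hmem)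

theorem le_normalizer_zCore (t : ℕ) (M : Subgroup G) : M ≤ normalizer (zCore t M : Set G) :=
  (le_inf (le_normalizer_locCore t M) ((le_normalizer_locCore t M).trans
    (Lib.Coprime.normalizer_le_normalizer_centralizer _))).trans inf_normalizer_le_normalizer_inf

theorem centralizer_zCore_le {H : Subgroup G}
    (hHmax : ∀ L : Subgroup G, Cfsg.IsLocalSubgroup L → H ≤ L → L = H) {t : ℕ} [ht : Fact t.Prime]
    (h : locCore t H ≠ ⊥) : centralizer (zCore t H : Set G) ≤ H :=
  (centralizer_le_normalizer _).trans (hHmax _ ⟨t, zCore t H, ht.out,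
    (locCore_isPGroup t H).to_le inf_le_left, zCore_ne_bot h, rfl⟩ (le_normalizer_zCore t H)).le

theorem le_fittingOf {S X : Subgroup G} (hSX : S ≤ X) (hn : X ≤ normalizer (S : Set G))
    (hS : Group.IsNilpotent S) : S ≤ Cfsg.fittingOf X := by
  haveI : (S.subgroupOf X).Normal := (normal_subgroupOf_iff_le_normalizer hSX).mpr hn
  rw [← map_subgroupOf_eq_of_le hSX]
  exact map_mono (Lib.Hall.le_fittingSubgroup ((Group.isNilpotent_congr (subgroupOfEquivOfLe hSX)).mpr hS))

theorem normalizer_le_normalizer_fittingOf (X : Subgroup G) :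
    normalizer (X : Set G) ≤ normalizer (Cfsg.fittingOf X : Set G) := by
  intro g hg
  refine Lib.Coprime.mem_normalizer_of_conj_smul_eq (eq_of_le_of_card_ge ?_
    (by rw [Lib.Coprime.card_conj_smul]))
  refine le_fittingOf ?_ ?_ ?_
  · calc MulAut.conj g • Cfsg.fittingOf X ≤ MulAut.conj g • X :=
          pointwise_smul_le_pointwise_smul_iff.mpr (fittingOf_le X)
      _ = X := Lib.Coprime.conj_smul_eq_self hg
  · calc X = MulAut.conj g • X := (Lib.Coprime.conj_smul_eq_self hg).symm
      _ ≤ (normalizer (Cfsg.fittingOf X : Set G)).map (MulAut.conj g).toMonoidHom :=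
          pointwise_smul_le_pointwise_smul_iff.mpr (le_normalizer_fittingOf X)
      _ ≤ _ := le_normalizer_map _
  · exact Lib.CNGroup.nil_map (fittingOf_nilpotent X) _

/-- A solvable subgroup normalized by `C_H(F(H))` and inside it lies in `F(H)`. -/
theorem solvable_le_fittingOf (H : Subgroup G) :
    ∀ (n : ℕ) (S : Subgroup G), Nat.card S ≤ n → S ≤ H ⊓ centralizer (Cfsg.fittingOf H : Set G) →
      H ⊓ centralizer (Cfsg.fittingOf H : Set G) ≤ normalizer (S : Set G) → Group.IsSolvable S →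
      S ≤ Cfsg.fittingOf H := by
  intro n
  induction n with
  | zero => intro S hn; exact absurd hn (by have := Nat.card_pos (α := S); omega)
  | succ n ih =>
    intro S hn hSX hXS hS
    rcases eq_or_ne S ⊥ with rfl | hne
    · exact bot_le
    have hlt : ⁅S, S⁆ < S := Lib.Hall.commutator_lt_of_solvable hne
    have hT : ⁅S, S⁆ ≤ Cfsg.fittingOf H := by
      refine ih _ ?_ (hlt.le.trans hSX) ?_ (Lib.Coprime.isSolvable_of_le hlt.le hS)
      · have : Nat.card ↥⁅S, S⁆ < Nat.card S :=
          (Set.toFinite _).card_lt_card (SetLike.coe_ssubset_coe.2 hlt)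
        omega
      · intro g hg
        refine Lib.Coprime.mem_normalizer_of_conj_smul_eq ?_
        show (⁅S, S⁆ : Subgroup G).map (MulAut.conj g).toMonoidHom = _
        rw [map_commutator]
        exact congrArg (fun a => ⁅a, a⁆) (Lib.Coprime.conj_smul_eq_self (hXS hg))
    have hnil : Group.IsNilpotent S := by
      refine Subgroup.isNilpotent_of_lowerCentralSeries_eq_bot (n := 2) ?_
      rw [Subgroup.lowerCentralSeries_succ, Subgroup.lowerCentralSeries_succ, Subgroup.lowerCentralSeries_zero,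
        commutator_eq_bot_iff_le_centralizer]
      exact hT.trans (le_centralizer_iff.mp (hSX.trans inf_le_right))
    refine (le_fittingOf hSX hXS hnil).trans (le_fittingOf ((fittingOf_le _).trans inf_le_left) ?_ (fittingOf_nilpotent _))
    refine le_trans ?_ (normalizer_le_normalizer_fittingOf _)
    exact (le_inf le_normalizer ((le_normalizer_fittingOf H).trans
      (Lib.Coprime.normalizer_le_normalizer_centralizer _))).trans inf_normalizer_le_normalizer_inf

theorem commute_fitting {H : Subgroup G} {M : Subgroup G} (hM : M ≤ Cfsg.fittingOf H)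
    (hCM : Cfsg.fittingOf H ⊓ centralizer (M : Set G) ≤ M) {c : G} (hcH : c ∈ H)
    (hc : c ∈ centralizer (M : Set G)) (hcop : (orderOf c).Coprime (Nat.card (Cfsg.fittingOf H))) :
    c ∈ centralizer (Cfsg.fittingOf H : Set G) := by
  suffices h : Cfsg.fittingOf H ≤ centralizer ({c} : Set G) from
    mem_centralizer_iff.mpr fun y hy => (mem_centralizer_singleton_iff.mp (h hy))
  refine fittingOf_le_of_locCore fun t ht => ?_
  haveI := Fact.mk ht
  by_cases h0 : locCore t H = ⊥
  · rw [h0]; exact bot_le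
  refine Lib.Components.axb (P := M ⊓ locCore t H) (locCore_isPGroup t H)
    ((locCore_isPGroup t H).to_le inf_le_right) (inf_le_right.trans le_normalizer)
    (centralizer_le (inf_le_left : M ⊓ locCore t H ≤ M) hc) (le_normalizer_locCore t H hcH)
    (hcop.coprime_dvd_right (dvd_card_of_locCore ht h0)) ?_
  rintro x ⟨hx, hxB⟩
  have hxF : x ∈ Cfsg.fittingOf H := locCore_le_fittingOf t ht hx
  obtain ⟨k, hk⟩ := IsPGroup.iff_card.mp (locCore_isPGroup t H)
  have hxM : x ∈ M := hCM ⟨hxF, mem_centralizer_iff.mpr fun m hm => by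
    obtain ⟨a, ham, b, hbm, e, ⟨j, hj⟩, hpb⟩ := Lib.CNGroup.exists_decomp m ht
    have hat : a ∈ locCore t H := by
      have hpg : IsPGroup t (zpowers a) := by
        obtain ⟨i, -, hi⟩ := (Nat.dvd_prime_pow ht).1 hj
        exact IsPGroup.of_card (n := i) (by rw [Nat.card_zpowers, hi])
      exact le_locCore hpg (zpowers_le.2 (hM (zpowers_le.2 hm ham))) (mem_zpowers a)
    have h1 : Commute a x := mem_centralizer_iff.mp hxB a ⟨zpowers_le.2 hm ham, hat⟩
    have h2 : Commute b x := Lib.CNGroup.commute_of_nil (fittingOf_nilpotent H) (hM (zpowers_le.2 hm hbm)) hxF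
      ((hpb.pow_right k).coprime_dvd_right (hk ▸ (locCore t H).orderOf_dvd_natCard hx))
    rw [e]
    exact (h1.mul_left h2).eq⟩
  exact mem_centralizer_singleton_iff.2 (mem_centralizer_iff.mp hc x hxM)

theorem unique_sylow (H : Subgroup G) (_hH : Cfsg.IsLocalSubgroup H)
    (hHmax : ∀ L : Subgroup G, Cfsg.IsLocalSubgroup L → H ≤ L → L = H)
    (hF2 : 2 ≤ (Nat.card (Cfsg.fittingOf H)).primeFactors.card)
    (M : Subgroup G) (hM : M ≤ Cfsg.fittingOf H) (hCM : Cfsg.fittingOf H ⊓ centralizer (M : Set G) ≤ M)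
    (R : Subgroup G) (hR : Group.IsSolvable R) (hMR : M ≤ normalizer (R : Set G))
    (hXR : H ⊓ centralizer (Cfsg.fittingOf H : Set G) ≤ normalizer (R : Set G))
    (q : ℕ) [Fact q.Prime] (hq : ¬ q ∣ Nat.card (Cfsg.fittingOf H)) :
    ∃! Q : Subgroup G, Q ∈ Cfsg.maxInvSubgroups R M {q} ∧
      (∀ Q' : Subgroup G, Q' ∈ Cfsg.maxInvSubgroups R M {q} →
        Q' ≤ Cfsg.piCoreOf (Cfsg.primesNotDvd (Nat.card (Cfsg.fittingOf H))) R ∧
        ¬ q ∣ Q'.relIndex (Cfsg.piCoreOf (Cfsg.primesNotDvd (Nat.card (Cfsg.fittingOf H))) R)) := by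
  set F := Cfsg.fittingOf H with hF
  set ρ := Cfsg.primesNotDvd (Nat.card F)
  set K := Cfsg.piCoreOf ρ R with hK
  have hKR : K ≤ R := piCoreOf_le ρ R
  have hKcop : (Nat.card F).Coprime (Nat.card K) := coprime_piCoreOf _ R
  have hzF : ∀ t : ℕ, t.Prime → zCore t H ≤ F := fun t ht => inf_le_left.trans (locCore_le_fittingOf t ht)
  have hzM : ∀ t : ℕ, t.Prime → zCore t H ≤ M := fun t ht => by
    refine (le_inf (hzF t ht) ?_).trans hCM
    rw [le_centralizer_iff]
    refine hM.trans (fittingOf_le_of_locCore fun s hs => ?_)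
    by_cases hst : s = t
    · subst hst; exact le_centralizer_iff.mp inf_le_right
    · exact (commute_parts hs ht hst).trans (centralizer_le inf_le_left)
  have htwo : ∀ r : ℕ, ∃ t : ℕ, t.Prime ∧ t ≠ r ∧ locCore t H ≠ ⊥ := by
    intro r
    obtain ⟨t, ht, htr⟩ := Finset.exists_mem_ne hF2 r
    exact ⟨t, Nat.prime_of_mem_primeFactors ht, htr,
      locCore_ne_bot_of_dvd (Nat.prime_of_mem_primeFactors ht) (Nat.dvd_of_mem_primeFactors ht)⟩
  -- centralizers in `R` of order prime to `F`
  have hX : ∀ c : G, c ∈ R → c ∈ centralizer (M : Set G) → (orderOf c).Coprime (Nat.card F) → c = 1 := by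
    intro c hcR hc hcop
    obtain ⟨t, ht, -, htH⟩ := htwo 0
    haveI := Fact.mk ht
    have hcH : c ∈ H := centralizer_zCore_le hHmax htH (centralizer_le (hzM t ht) hc)
    have hcX : c ∈ R ⊓ (H ⊓ centralizer (F : Set G)) := ⟨hcR, hcH, commute_fitting hM hCM hcH hc hcop⟩
    have hle := solvable_le_fittingOf H _ (R ⊓ (H ⊓ centralizer (F : Set G))) le_rfl inf_le_right
      ((le_inf hXR le_normalizer).trans inf_normalizer_le_normalizer_inf)
      (Lib.Coprime.isSolvable_of_le inf_le_left hR) hcX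
    exact orderOf_eq_one_iff.1 (Nat.eq_one_of_dvd_coprimes hcop dvd_rfl (F.orderOf_dvd_natCard hle))
  -- an invariant `q`-subgroup of `R` lies in `K`
  have hQK : ∀ Q : Subgroup G, Q ≤ R → IsPGroup q Q → M ≤ normalizer (Q : Set G) → Q ≤ K := by
    intro Q hQR hQp hMQ
    obtain ⟨m, hm⟩ := IsPGroup.iff_card.mp hQp
    have hQcop : (Nat.card F).Coprime (Nat.card Q) :=
      hm ▸ (Nat.Coprime.pow_right m ((Fact.out : q.Prime).coprime_iff_not_dvd.2 hq).symm)
    have hfpf : ∀ t : ℕ, t.Prime → locCore t H ≠ ⊥ → Q ⊓ centralizer (zCore t H : Set G) = ⊥ := by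
      intro t ht htH
      haveI := Fact.mk ht
      refine eq_bot_iff.2 fun y hy => mem_bot.2 ?_
      have hyH : y ∈ H := centralizer_zCore_le hHmax htH hy.2
      refine hX y (hQR hy.1) (mem_centralizer_iff.mpr fun a ha => ?_)
        ((hQcop.coprime_dvd_right (Q.orderOf_dvd_natCard hy.1)).symm)
      have h1 : a * y * a⁻¹ * y⁻¹ ∈ Q ⊓ F := by
        refine ⟨mul_mem ((mem_normalizer_iff.mp (hMQ ha) y).mp hy.1) (Q.inv_mem hy.1), ?_⟩
        rw [show a * y * a⁻¹ * y⁻¹ = a * (y * a⁻¹ * y⁻¹) by group]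
        exact mul_mem (hM ha) ((mem_normalizer_iff.mp (le_normalizer_fittingOf H hyH) _).mp (inv_mem (hM ha)))
      rw [inf_eq_bot_of_coprime' hQcop.symm, mem_bot, mul_inv_eq_one, mul_inv_eq_iff_eq_mul] at h1
      exact h1
    set U := normalizer (K : Set G)
    have hRU : R ≤ U := le_normalizer_piCoreOf ρ R
    have hMU : M ≤ U := hMR.trans (normalizer_le_normalizer_piCoreOf ρ R)
    have hKU : K ≤ U := le_normalizer
    haveI hKn : (K.subgroupOf U).Normal := normal_in_normalizer
    let π := QuotientGroup.mk' (K.subgroupOf U)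
    set Rb := (R.subgroupOf U).map π with hRb
    haveI hRbs : Group.IsSolvable Rb := by
      haveI := hR
      haveI : Group.IsSolvable (R.subgroupOf U) := solvable_of_solvable_injective
        (f := (subgroupOfEquivOfLe hRU).toMonoidHom) (subgroupOfEquivOfLe hRU).injective
      exact solvable_of_surjective (π.subgroupMap_surjective _)
    have hMn : ∀ (a : G) (ha : a ∈ M), π ⟨a, hMU ha⟩ ∈ normalizer (Rb : Set (↥U ⧸ K.subgroupOf U)) := by
      intro a ha
      refine le_normalizer_map π ⟨⟨a, hMU ha⟩, ?_, rfl⟩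
      rw [SetLike.mem_coe, ← subgroupOf_normalizer_eq hRU, mem_subgroupOf]
      exact hMR ha
    -- the cores of `Rb` prime to `F` vanish
    have hcore : ∀ s : ℕ, s.Prime → ¬ s ∣ Nat.card F → locCore s Rb = ⊥ := by
      intro s hs hsF
      haveI := Fact.mk hs
      obtain ⟨k, hk⟩ := IsPGroup.iff_card.mp (locCore_isPGroup s Rb)
      set T := (locCore s Rb).comap π with hT
      have hTR : T ≤ R.subgroupOf U := by
        refine (comap_mono (locCore_le s Rb)).trans ?_
        rw [hRb, comap_map_eq_self]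
        rw [QuotientGroup.ker_mk']
        exact fun x hx => hKR hx
      have hTn : R.subgroupOf U ≤ normalizer (T : Set U) := fun x hx =>
        le_normalizer_comap π (le_normalizer_locCore s Rb ⟨x, hx, rfl⟩)
      have hle : T.map U.subtype ≤ K := by
        refine le_piCoreOf ?_ ?_ ?_
        · rintro _ ⟨x, hx, rfl⟩; exact hTR hx
        · intro x hx
          exact le_normalizer_map U.subtype ⟨⟨x, hRU hx⟩, hTn hx, rfl⟩
        · intro r hr hd
          rw [card_map_of_injective U.subtype_injective] at hd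
          have hcard : Nat.card T ∣ Nat.card K * s ^ k := by
            rw [← hk, ← card_subgroupOf_eq hKU]
            exact card_comap_dvd π (K.subgroupOf U) (by rw [QuotientGroup.ker_mk']) _
          refine ⟨hr, fun hrF => ?_⟩
          rcases hr.dvd_mul.mp (hd.trans hcard) with h | h
          · exact hr.ne_one (Nat.eq_one_of_dvd_coprimes hKcop hrF h)
          · exact hsF ((Nat.prime_dvd_prime_iff_eq hr hs).mp (hr.dvd_of_dvd_pow h) ▸ hrF)
      rw [eq_bot_iff]
      intro y hy
      obtain ⟨x, rfl⟩ := QuotientGroup.mk'_surjective _ y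
      exact mem_bot.2 ((QuotientGroup.eq_one_iff x).2 (hle ⟨x, hy, rfl⟩))
    set Qb := (Q.subgroupOf U).map π with hQb
    have hcen : Qb ≤ centralizer (Cfsg.fittingOf Rb : Set (↥U ⧸ K.subgroupOf U)) := by
      rw [le_centralizer_iff]
      refine fittingOf_le_of_locCore fun p hp => ?_
      haveI := Fact.mk hp
      by_cases hpF : p ∣ Nat.card F
      swap
      · rw [hcore p hp hpF]; exact bot_le
      have hpH := locCore_ne_bot_of_dvd hp hpF
      obtain ⟨t, ht, htp, htH⟩ := htwo p
      haveI := Fact.mk ht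
      set P := locCore p Rb
      have hPp : IsPGroup p P := locCore_isPGroup p Rb
      -- lifting centralizers
      have hzU : ∀ s : ℕ, s.Prime → zCore s H ≤ U := fun s hs => (hzM s hs).trans hMU
      have hzn : ∀ (s : ℕ), s.Prime → ∀ (a : G) (ha : a ∈ zCore s H) (hau : a ∈ U),
          π ⟨a, hau⟩ ∈ normalizer (P : Set (↥U ⧸ K.subgroupOf U)) := fun s hs a ha hau =>
        normalizer_le_normalizer_locCore' p Rb (hMn a (hzM s hs ha))
      have hcent : ∀ (a : G) (ha : a ∈ zCore t H), P ≤ centralizer {π ⟨a, hzU t ht ha⟩} := by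
        intro a ha
        obtain ⟨j, hj⟩ := IsPGroup.iff_card.mp ((locCore_isPGroup t H).to_le (inf_le_left : zCore t H ≤ _))
        have hacop : (orderOf a).Coprime p := by
          exact Nat.Coprime.coprime_dvd_left (hj ▸ (zCore t H).orderOf_dvd_natCard ha)
            (((Nat.coprime_primes ht hp).mpr htp).pow_left j)
        refine Lib.Components.axb (P := ((zCore p H).subgroupOf U).map π) hPp
          ((((locCore_isPGroup p H).to_le inf_le_left).of_equiv
            (subgroupOfEquivOfLe (hzU p hp)).symm).map π) ?_ ?_ (hzn t ht a ha _)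
          (hacop.coprime_dvd_left ((orderOf_map_dvd π _).trans (by rw [Subgroup.orderOf_mk]))) ?_
        · rintro _ ⟨b, hb, rfl⟩
          exact hzn p hp (b : G) (mem_subgroupOf.mp hb) b.2
        · rw [mem_centralizer_iff]
          rintro _ ⟨b, hb, rfl⟩
          rw [← map_mul, ← map_mul]
          exact congrArg π (Subtype.ext (mem_centralizer_iff.mp
            (commute_parts (M := H) ht hp htp ha.1) _ (mem_subgroupOf.mp hb).1))
        rintro c ⟨hcP, hcB⟩
        obtain ⟨r, hr, rfl⟩ := (locCore_le p Rb hcP : c ∈ (R.subgroupOf U).map π)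
        obtain ⟨c', hc', hcK⟩ := Lib.Coprime.exists_centralizer_mem_coset (A := zCore p H) (N := K)
          (k := (r : G)) (hzU p hp)
          ((hKcop.coprime_dvd_left (card_dvd_of_le (hzF p hp)))) (Or.inl (Lib.Coprime.isSolvable_of_le
            ((hzM p hp).trans hM) (isSolvable_of_nil (fittingOf_nilpotent H)))) (fun b hb => by
          have h := mem_centralizer_iff.mp hcB (π ⟨b, hzU p hp hb⟩) ⟨⟨b, _⟩, mem_subgroupOf.mpr hb, rfl⟩
          have h' : π (r⁻¹ * (⟨b, hzU p hp hb⟩ * r * (⟨b, hzU p hp hb⟩ : U)⁻¹)) = 1 := by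
            simp only [map_mul, map_inv]
            rw [h]; group
          exact mem_subgroupOf.mp ((QuotientGroup.eq_one_iff (N := K.subgroupOf U) _).1 h'))
        have hc'U : c' ∈ U := by
          have := mul_mem r.2 (hKU hcK)
          rwa [mul_inv_cancel_left] at this
        have hpc : π ⟨c', hc'U⟩ = π r := by
          refine (QuotientGroup.eq.2 ?_).symm
          exact mem_subgroupOf.mpr hcK
        have hc'H : c' ∈ H := centralizer_zCore_le hHmax hpH hc'
        rw [mem_centralizer_singleton_iff, ← hpc]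
        have h1 : π ⟨a, hzU t ht ha⟩ * π ⟨c', hc'U⟩ * (π ⟨a, hzU t ht ha⟩)⁻¹ * (π ⟨c', hc'U⟩)⁻¹ = 1 := by
          have hP1 : π ⟨a, hzU t ht ha⟩ * π ⟨c', hc'U⟩ * (π ⟨a, hzU t ht ha⟩)⁻¹ * (π ⟨c', hc'U⟩)⁻¹ ∈ P := by
            rw [hpc]
            exact mul_mem ((mem_normalizer_iff.mp (hzn t ht a ha _) _).mp hcP) (inv_mem hcP)
          have hz1 : a * c' * a⁻¹ * c'⁻¹ ∈ zCore t H := by
            rw [show a * c' * a⁻¹ * c'⁻¹ = a * (c' * a⁻¹ * c'⁻¹) by group]
            exact mul_mem ha ((mem_normalizer_iff.mp (le_normalizer_zCore t H hc'H) _).mp (inv_mem ha))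
          set w : U := ⟨a, hzU t ht ha⟩ * ⟨c', hc'U⟩ * (⟨a, hzU t ht ha⟩ : U)⁻¹ * (⟨c', hc'U⟩ : U)⁻¹ with hw
          have hw' : π w = π ⟨a, hzU t ht ha⟩ * π ⟨c', hc'U⟩ * (π ⟨a, hzU t ht ha⟩)⁻¹ * (π ⟨c', hc'U⟩)⁻¹ := by
            simp only [hw, map_mul, map_inv]
          rw [← hw'] at hP1 ⊢
          obtain ⟨i, hi⟩ := IsPGroup.iff_card.mp hPp
          have h2 : orderOf (π w) ∣ t ^ j := (orderOf_map_dvd π w).trans (by
            rw [← Subgroup.orderOf_coe, ← hj]
            exact (zCore t H).orderOf_dvd_natCard hz1)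
          exact orderOf_eq_one_iff.1 (Nat.eq_one_of_dvd_coprimes
            (Nat.Coprime.pow j i ((Nat.coprime_primes ht hp).mpr htp)) h2 (hi ▸ P.orderOf_dvd_natCard hP1))
        rw [mul_inv_eq_one, mul_inv_eq_iff_eq_mul] at h1
        exact h1.symm
      rw [le_centralizer_iff]
      have hQgen : Q ≤ ⁅Q, zCore t H⁆ := by
        have h := Lib.Coprime.commutator_sup_centralizer (K := Q) (A := zCore t H) ((hzM t ht).trans hMQ)
          (hQcop.coprime_dvd_left (card_dvd_of_le (hzF t ht)))
          (Or.inr (isSolvable_of_nil hQp.isNilpotent))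
        rw [hfpf t ht htH, sup_bot_eq] at h
        exact h.ge
      rintro _ ⟨y, hy, rfl⟩
      have hsub : ⁅Q, zCore t H⁆ ≤ ((centralizer (P : Set (↥U ⧸ K.subgroupOf U))).comap π).map U.subtype := by
        rw [commutator_le]
        intro y hy a ha
        have hyU : y ∈ U := hRU (hQR hy)
        refine ⟨⁅(⟨y, hyU⟩ : U), (⟨a, hzU t ht ha⟩ : U)⁆, ?_, rfl⟩
        show π ⁅(⟨y, hyU⟩ : U), (⟨a, hzU t ht ha⟩ : U)⁆ ∈ centralizer (P : Set (↥U ⧸ K.subgroupOf U))
        rw [map_commutatorElement, commutatorElement_def]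
        have hac : π ⟨a, hzU t ht ha⟩ ∈ centralizer (P : Set (↥U ⧸ K.subgroupOf U)) :=
          mem_centralizer_iff.mpr fun v hv => mem_centralizer_singleton_iff.mp (hcent a ha hv)
        have hyn : π ⟨y, hyU⟩ ∈ normalizer (P : Set (↥U ⧸ K.subgroupOf U)) :=
          le_normalizer_locCore p Rb ⟨_, mem_subgroupOf.mpr (hQR hy), rfl⟩
        exact mul_mem ((mem_normalizer_iff.mp (Lib.Coprime.normalizer_le_normalizer_centralizer _ hyn) _).mp hac)
          (inv_mem hac)
      obtain ⟨y', hy', e⟩ := hsub (hQgen (mem_subgroupOf.mp hy))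
      rw [← Subtype.ext e]
      exact hy'
    have h1 : Qb ≤ Cfsg.fittingOf Rb := by
      intro x hx
      have hxR : x ∈ Rb := by
        obtain ⟨y, hy, rfl⟩ := hx
        exact ⟨y, mem_subgroupOf.mpr (hQR (mem_subgroupOf.mp hy)), rfl⟩
      refine ⟨⟨x, hxR⟩, Lib.Hall.centralizer_fittingSubgroup_le (mem_centralizer_iff.mpr fun y hy => ?_), rfl⟩
      exact Subtype.ext (mem_centralizer_iff.mp (hcen hx) y (mem_map_of_mem _ hy))
    have h2 : Qb ≤ locCore q Rb := le_locCore
      ((hQp.of_equiv (subgroupOfEquivOfLe (hQR.trans hRU)).symm).map π) h1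
    rw [hcore q Fact.out hq, le_bot_iff] at h2
    intro y hy
    have h3 : π ⟨y, hRU (hQR hy)⟩ = 1 := by
      rw [← mem_bot, ← h2]
      exact ⟨_, mem_subgroupOf.mpr hy, rfl⟩
    exact mem_subgroupOf.mp ((QuotientGroup.eq_one_iff _).1 h3)
  -- the unique invariant Sylow subgroup of `K`
  have hMK : M ≤ normalizer (K : Set G) := hMR.trans (normalizer_le_normalizer_piCoreOf ρ R)
  have hMcop : (Nat.card M).Coprime (Nat.card K) := hKcop.coprime_dvd_left (card_dvd_of_le hM)
  have hMsol : Group.IsSolvable M ∨ Group.IsSolvable K := Or.inr (Lib.Coprime.isSolvable_of_le hKR hR)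
  obtain ⟨T, hT⟩ := Lib.Coprime.exists_invariant_sylow hMK hMcop hMsol q
  set T' := (T : Subgroup K).map K.subtype with hT'
  have hqq : ∀ Q : Subgroup G, (∀ r : ℕ, r.Prime → r ∣ Nat.card Q → r ∈ ({q} : Set ℕ)) → IsPGroup q Q :=
    fun Q h => IsPGroup.of_card (n := (Nat.card Q).primeFactorsList.length)
      (Nat.eq_prime_pow_of_unique_prime_dvd Nat.card_pos.ne' fun {d} hd hdv => h d hd hdv)
  have hle : ∀ Q ∈ Cfsg.invSubgroups R M {q}, Q ≤ T' := by
    intro Q hQ
    obtain ⟨hQR, hQπ, hMQ⟩ := hQ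
    have hQp := hqq Q hQπ
    obtain ⟨P, hQP, hMP⟩ := Lib.Coprime.exists_invariant_sylow_ge hMK hMcop hMsol
      (hQK Q hQR hQp hMQ) hQp hMQ
    obtain ⟨c, hc, hcP⟩ := Lib.Coprime.exists_centralizer_conj_sylow hMK hMcop hMsol P T hMP hT
    have hc1 : c = 1 := Subtype.ext (hX c (hKR c.2) hc
      ((hKcop.coprime_dvd_right (K.orderOf_dvd_natCard c.2)).symm))
    rw [hc1, map_one, one_smul] at hcP
    rw [hT', ← hcP]
    exact hQP
  have hTmem : T' ∈ Cfsg.invSubgroups R M {q} := by
    refine ⟨(map_subtype_le _).trans hKR, fun r hr hd => ?_, hT⟩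
    obtain ⟨j, hj⟩ := IsPGroup.iff_card.mp (T.2.map K.subtype)
    exact (Nat.prime_dvd_prime_iff_eq hr Fact.out).mp (hr.dvd_of_dvd_pow (hj ▸ hd))
  have hmaxeq : ∀ Q ∈ Cfsg.maxInvSubgroups R M {q}, Q = T' := fun Q hQ =>
    (hQ.2 T' hTmem (hle Q hQ.1)).symm
  refine ⟨T', ⟨⟨hTmem, fun Q hQ h => le_antisymm (hle Q hQ) h⟩, fun Q hQ => ?_⟩, fun Q hQ => hmaxeq Q hQ.1⟩
  rw [hmaxeq Q hQ]
  refine ⟨map_subtype_le _, ?_⟩
  rw [hT', relIndex, subgroupOf, comap_map_eq_self_of_injective K.subtype_injective]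
  exact T.not_dvd_index
where
  card_subgroupOf_eq {A B : Subgroup G} (h : A ≤ B) : Nat.card (A.subgroupOf B) = Nat.card A :=
    Nat.card_congr (subgroupOfEquivOfLe h).toEquiv
  card_comap_dvd {A : Type u} [Group A] [Finite A] {B : Type u} [Group B] (f : A →* B) (N : Subgroup A)
      (hN : f.ker = N) (S : Subgroup B) : Nat.card (S.comap f) ∣ Nat.card N * Nat.card S := by
    subst hN
    rw [← card_mul_index (f.ker.subgroupOf (S.comap f)), Nat.card_congr
      (subgroupOfEquivOfLe (show f.ker ≤ S.comap f from fun x hx => by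
        show f x ∈ S
        rw [MonoidHom.mem_ker.mp hx]; exact one_mem S)).toEquiv, ← relIndex, relIndex_ker]
    exact mul_dvd_mul_left _ (card_dvd_of_le (map_comap_le f S))
  normalizer_le_normalizer_locCore' {A : Type u} [Group A] [Finite A] (p : ℕ) [Fact p.Prime] (X : Subgroup A) :
      normalizer (X : Set A) ≤ normalizer (locCore p X : Set A) := by
    intro g hg
    refine Lib.Coprime.mem_normalizer_of_conj_smul_eq (eq_of_le_of_card_ge ?_
      (by rw [Lib.Coprime.card_conj_smul]))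
    have h1 : MulAut.conj g • locCore p X ≤ X :=
      (pointwise_smul_le_pointwise_smul_iff.mpr (locCore_le p X)).trans (Lib.Coprime.conj_smul_eq_self hg).le
    have h2 : X ≤ normalizer (MulAut.conj g • locCore p X : Subgroup A).carrier := by
      calc X = MulAut.conj g • X := (Lib.Coprime.conj_smul_eq_self hg).symm
        _ ≤ (normalizer (locCore p X : Set A)).map (MulAut.conj g).toMonoidHom :=
            pointwise_smul_le_pointwise_smul_iff.mpr (le_normalizer_locCore p X)
        _ ≤ _ := le_normalizer_map _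
    haveI : ((MulAut.conj g • locCore p X).subgroupOf X).Normal := (normal_subgroupOf_iff_le_normalizer h1).mpr h2
    refine (map_subgroupOf_eq_of_le h1).ge.trans (map_mono (Lib.Hall.le_pCore ?_))
    exact ((locCore_isPGroup p X).map (MulAut.conj g).toMonoidHom).of_equiv (subgroupOfEquivOfLe h1).symm
  inf_eq_bot_of_coprime' {A B : Subgroup G} (h : (Nat.card A).Coprime (Nat.card B)) : A ⊓ B = ⊥ :=
    Lib.Coprime.inf_eq_bot_of_coprime h
  isSolvable_of_nil {A : Subgroup G} (h : Group.IsNilpotent A) : Group.IsSolvable A := by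
    haveI := h
    infer_instance


/-- Let G be a finite group and H a local subgroup (the normalizer of a nontrivial subgroup of prime-power order) not properly contained in any local subgroup; let F = F(H), suppose at least two primes divide #F, put X = H ∩ C_G(F), let M ≤ F with F ∩ C_G(M) ≤ M, and let R be a solvable subgroup normalized by M and by X. Then for every prime q not dividing #F there is exactly one maximal M-invariant q-subgroup of R, and it is a Sylow q-subgroup of the largest normal subgroup of R of order coprime to #F. -/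
theorem result {G : Type*} [Group G] [Finite G] (H : Subgroup G) (hH : Cfsg.IsLocalSubgroup H) (hHmax : ∀ L : Subgroup G, Cfsg.IsLocalSubgroup L → H ≤ L → L = H)
    (hF2 : 2 ≤ (Nat.card (Cfsg.fittingOf H)).primeFactors.card)
    (M : Subgroup G) (hM : M ≤ Cfsg.fittingOf H) (hCM : Cfsg.fittingOf H ⊓ Subgroup.centralizer (M : Set G) ≤ M)
    (R : Subgroup G) (hR : Group.IsSolvable R) (hMR : M ≤ Subgroup.normalizer (R : Set G))
    (hXR : H ⊓ Subgroup.centralizer (Cfsg.fittingOf H : Set G) ≤ Subgroup.normalizer (R : Set G))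
    (q : ℕ) [Fact q.Prime] (hq : ¬ q ∣ Nat.card (Cfsg.fittingOf H)) :
    ∃! Q : Subgroup G, Q ∈ Cfsg.maxInvSubgroups R M {q} ∧
      (∀ Q' : Subgroup G, Q' ∈ Cfsg.maxInvSubgroups R M {q} →
        Q' ≤ Cfsg.piCoreOf (Cfsg.primesNotDvd (Nat.card (Cfsg.fittingOf H))) R ∧
        ¬ q ∣ Q'.relIndex (Cfsg.piCoreOf (Cfsg.primesNotDvd (Nat.card (Cfsg.fittingOf H))) R)) := by
  exact unique_sylow H hH hHmax hF2 M hM hCM R hR hMR hXR q hq

end Cfsg.Agent.S1481
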