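import Cfsg.Statements.S1482
import Cfsg.Agent.Lib.Uniq.Fitting

set_option autoImplicit false
open Cfsg

namespace Cfsg.Agent.S1482

open Cfsg.Agent.Lib.Uniq
open Cfsg.Agent.Lib.Components.MaxLocal (locCore locCore_le le_normalizer_locCore locCore_isPGroup inf_locCore_eq_bot)

universe u

variable {G : Type u} [Group G] [Finite G]

/-- The centre of `O_t(M)`. -/
def zCore (t : ℕ) (M : Subgroup G) : Subgroup G :=
  locCore t M ⊓ Subgroup.centralizer (locCore t M : Set G)

theorem zCore_ne_bot {t : ℕ} [Fact t.Prime] {M : Subgroup G} (h : locCore t M ≠ ⊥) : zCore t M ≠ ⊥ := by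
  haveI : Nontrivial (locCore t M) := (Subgroup.nontrivial_iff_ne_bot _).mpr h
  obtain ⟨z, -, hz1, hzc⟩ := Lib.Uniq.exists_central_mem (locCore_isPGroup t M)
    (⊤ : Subgroup (locCore t M)) top_ne_bot
  intro hb
  have hmem : (z : G) ∈ zCore t M := ⟨z.2, Subgroup.mem_centralizer_iff.mpr fun y hy =>
    congrArg Subtype.val (Subgroup.mem_center_iff.mp hzc ⟨y, hy⟩)⟩
  rw [hb, Subgroup.mem_bot] at hmem
  exact hz1 (Subtype.ext hmem)

theorem le_normalizer_zCore (t : ℕ) (M : Subgroup G) : M ≤ Subgroup.normalizer (zCore t M : Set G) :=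
  (le_inf (le_normalizer_locCore t M) ((le_normalizer_locCore t M).trans
    (Lib.Coprime.normalizer_le_normalizer_centralizer _))).trans Subgroup.inf_normalizer_le_normalizer_inf

theorem centralizer_zCore_le (hG : Cfsg.IsMinSimpleOddOrder G) {t : ℕ} [Fact t.Prime] {M : Subgroup G}
    (hM : IsCoatom M) (h : locCore t M ≠ ⊥) : Subgroup.centralizer (zCore t M : Set G) ≤ M :=
  (Subgroup.centralizer_le_normalizer _).trans
    (normalizer_max hG hM (zCore_ne_bot h) (inf_le_left.trans (locCore_le t M)) (le_normalizer_zCore t M)).le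

/-- A central part of `O_t(M)` centralizes `O_r(N)`. -/
theorem cross (hG : Cfsg.IsMinSimpleOddOrder G) {M N : Subgroup G} (hM : IsCoatom M) {r t : ℕ}
    [Fact r.Prime] [Fact t.Prime] (hrt : r ≠ t) (hr : locCore r M ≠ ⊥)
    (hrN : zCore r M ≤ N) (htN : zCore t M ≤ N) :
    locCore r N ≤ Subgroup.centralizer (zCore t M : Set G) := by
  have hP := locCore_isPGroup r N
  rw [Subgroup.le_centralizer_iff]
  intro a ha
  have hna : a ∈ Subgroup.normalizer (locCore r N : Set G) := le_normalizer_locCore r N (htN ha)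
  have hcop : (orderOf a).Coprime r := by
    obtain ⟨k, hk⟩ := IsPGroup.iff_card.mp (locCore_isPGroup t M)
    exact Nat.Coprime.coprime_dvd_left (hk ▸ Subgroup.orderOf_dvd_natCard _ ha.1)
      (((Nat.coprime_primes Fact.out Fact.out).mpr hrt.symm).pow_left k)
  have hab : a ∈ Subgroup.centralizer (zCore r M : Set G) := Subgroup.mem_centralizer_iff.mpr fun b hb =>
    Subgroup.mem_centralizer_iff.mp (Lib.Uniq.commute_parts (M := M) Fact.out Fact.out (Ne.symm hrt) ha.1) b hb.1
  have h := Lib.Components.axb hP ((locCore_isPGroup r M).to_le inf_le_left)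
    (hrN.trans (le_normalizer_locCore r N)) hab hna hcop (fun c hc => by
      have hcM : c ∈ M := centralizer_zCore_le hG hM hr hc.2
      rw [Subgroup.mem_centralizer_singleton_iff]
      have h1 : a * c * a⁻¹ * c⁻¹ ∈ locCore r N ⊓ locCore t M := by
        refine ⟨mul_mem ((Subgroup.mem_normalizer_iff.mp hna c).mp hc.1) ((locCore r N).inv_mem hc.1), ?_⟩
        rw [show a * c * a⁻¹ * c⁻¹ = a * (c * a⁻¹ * c⁻¹) by group]
        exact mul_mem ha.1 ((Subgroup.mem_normalizer_iff.mp (le_normalizer_locCore t M hcM) _).mp (inv_mem ha.1))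
      rw [inf_locCore_eq_bot Fact.out Fact.out hrt, Subgroup.mem_bot, mul_inv_eq_one, mul_inv_eq_iff_eq_mul] at h1
      exact h1.symm)
  exact Subgroup.mem_centralizer_iff.mpr fun y hy => (Subgroup.mem_centralizer_singleton_iff.mp (h hy))

/-- Two maximal subgroups, the centres of the cores of `M` lying in `N`. -/
theorem fitting_le (hG : Cfsg.IsMinSimpleOddOrder G) {M N : Subgroup G} (hM : IsCoatom M)
    (hF2 : ∀ r : ℕ, r.Prime → ∃ t : ℕ, t.Prime ∧ t ≠ r ∧ locCore t M ≠ ⊥)
    (hz : ∀ t : ℕ, t.Prime → zCore t M ≤ N)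
    (hπ : ∀ r : ℕ, r.Prime → locCore r N ≠ ⊥ → locCore r M ≠ ⊥) : Cfsg.fittingOf N ≤ M := by
  refine fittingOf_le_of_locCore fun r hr => ?_
  haveI := Fact.mk hr
  by_cases hrN : locCore r N = ⊥
  · rw [hrN]; exact bot_le
  obtain ⟨t, ht, htr, htM⟩ := hF2 r hr
  haveI := Fact.mk ht
  exact (cross hG hM htr.symm (hπ r hr hrN) (hz r hr) (hz t ht)).trans (centralizer_zCore_le hG hM htM)

theorem unique (hG : Cfsg.IsMinSimpleOddOrder G) (H : Subgroup G) (hH : IsCoatom H)
    (hF2 : 2 ≤ (Nat.card (Cfsg.fittingOf H)).primeFactors.card)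
    (M : Subgroup G) (hM : M ≤ Cfsg.fittingOf H)
    (hZM : Cfsg.fittingOf H ⊓ Subgroup.centralizer (Cfsg.fittingOf H : Set G) ≤ M)
    (hinv : ∀ Y ∈ Cfsg.invSubgroups ⊤ M (Cfsg.primesNotDvd (Nat.card (Cfsg.fittingOf H))), Y = ⊥)
    (L : Subgroup G) (hL : IsCoatom L) (hML : M ≤ L) : L = H := by
  haveI := hG.2.1
  have hmem : ∀ t : ℕ, t.Prime → (t ∈ (Nat.card (Cfsg.fittingOf H)).primeFactors ↔ locCore t H ≠ ⊥) := by
    intro t ht
    rw [Nat.mem_primeFactors]
    exact ⟨fun h => locCore_ne_bot_of_dvd ht h.2.1, fun h => ⟨ht, dvd_card_of_locCore ht h, Nat.card_pos.ne'⟩⟩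
  have htwo : ∀ r : ℕ, r.Prime → ∃ t : ℕ, t.Prime ∧ t ≠ r ∧ locCore t H ≠ ⊥ := by
    intro r hr
    obtain ⟨t, ht, htr⟩ := Finset.exists_mem_ne hF2 r
    exact ⟨t, Nat.prime_of_mem_primeFactors ht, htr, (hmem t (Nat.prime_of_mem_primeFactors ht)).1 ht⟩
  have hzM : ∀ t : ℕ, t.Prime → zCore t H ≤ M := by
    intro t ht
    refine (le_inf (inf_le_left.trans (locCore_le_fittingOf t ht)) ?_).trans hZM
    rw [Subgroup.le_centralizer_iff]
    refine fittingOf_le_of_locCore fun s hs => ?_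
    by_cases hst : s = t
    · subst hst; exact Subgroup.le_centralizer_iff.mp inf_le_right
    · exact (commute_parts hs ht hst).trans (Subgroup.centralizer_le inf_le_left)
  have hzL : ∀ t : ℕ, t.Prime → zCore t H ≤ L := fun t ht => (hzM t ht).trans hML
  have hπ : ∀ r : ℕ, r.Prime → locCore r L ≠ ⊥ → locCore r H ≠ ⊥ := by
    intro r hr hne hb
    refine hne (hinv _ ⟨le_top, fun s hs hd => ⟨hs, fun hd' => ?_⟩, hML.trans (le_normalizer_locCore r L)⟩)
    haveI := Fact.mk hr
    obtain ⟨k, hk⟩ := IsPGroup.iff_card.mp (locCore_isPGroup r L)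
    obtain rfl := (Nat.prime_dvd_prime_iff_eq hs hr).mp (hs.dvd_of_dvd_pow (hk ▸ hd))
    exact locCore_ne_bot_of_dvd hs hd' hb
  have hLH : Cfsg.fittingOf L ≤ H := fitting_le hG hH htwo hzL hπ
  -- every prime of the Fitting subgroup of `H` is one of that of `L`
  have hπ' : ∀ t : ℕ, t.Prime → locCore t H ≠ ⊥ → locCore t L ≠ ⊥ := by
    intro t ht hne hb
    haveI := Fact.mk ht
    have hcen : zCore t H ≤ Subgroup.centralizer (Cfsg.fittingOf L : Set G) := by
      rw [Subgroup.le_centralizer_iff]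
      refine fittingOf_le_of_locCore fun r hr => ?_
      haveI := Fact.mk hr
      by_cases hrL : locCore r L = ⊥
      · rw [hrL]; exact bot_le
      refine cross hG hH (fun h => hrL (h ▸ hb)) (hπ r hr hrL) (hzL r hr) (hzL t ht)
    have h1 : zCore t H ≤ Cfsg.fittingOf L :=
      (le_inf (hzL t ht) hcen).trans (centralizer_fittingOf_inf_le hG hL.1)
    have h2 := le_locCore ((locCore_isPGroup t H).to_le inf_le_left) h1
    rw [hb, le_bot_iff] at h2
    exact zCore_ne_bot hne h2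
  have htwo' : ∀ r : ℕ, r.Prime → ∃ t : ℕ, t.Prime ∧ t ≠ r ∧ locCore t L ≠ ⊥ := by
    intro r hr
    obtain ⟨t, ht, htr, htH⟩ := htwo r hr
    exact ⟨t, ht, htr, hπ' t ht htH⟩
  have hzH : ∀ t : ℕ, t.Prime → zCore t L ≤ H := fun t ht =>
    (inf_le_left.trans (locCore_le_fittingOf t ht)).trans hLH
  have hHL : Cfsg.fittingOf H ≤ L := fitting_le hG hL htwo' hzH hπ'
  by_contra hne
  have hgfs : ∀ {X : Subgroup G}, Group.IsSolvable X →
      generalizedFittingSubgroup ↥X = fittingSubgroup ↥X := fun {X} hX => by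
    haveI := hX
    rw [generalizedFittingSubgroup, Lib.Components.layer_eq_bot_iff.mpr
      (fun Y hY => Lib.Components.qs_not_isSolvable hY.2 inferInstance), bot_sup_eq]
  obtain ⟨r, hr, hrH, -⟩ := Lib.Components.MaxLocal.exists_prime hG.2.2.1 hH hL (Ne.symm hne)
    (by rw [hgfs (solvable_of_ne_top hG hH.1)]; exact hHL)
    (by rw [hgfs (solvable_of_ne_top hG hL.1)]; exact hLH)
  rw [hgfs (solvable_of_ne_top hG hH.1)] at hrH
  haveI := Fact.mk hr
  obtain ⟨t, ht, htr, htH⟩ := htwo r hr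
  obtain ⟨k, hk⟩ := IsPGroup.iff_card.mp (hrH.map H.subtype : IsPGroup r (Cfsg.fittingOf H))
  exact htr ((Nat.prime_dvd_prime_iff_eq ht hr).mp (ht.dvd_of_dvd_pow (hk ▸ dvd_card_of_locCore ht htH)))


/-- Let G be a minimal simple group of odd order, H a maximal subgroup whose Fitting subgroup F has at least two prime divisors, and M a subgroup of F containing the centre of F such that the only M-invariant subgroup of G of order coprime to #F is the trivial one. Then H is the only maximal subgroup of G containing M. -/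
theorem result {G : Type*} [Group G] [Finite G] (hG : Cfsg.IsMinSimpleOddOrder G) (H : Subgroup G) (hH : IsCoatom H) (hF2 : 2 ≤ (Nat.card (Cfsg.fittingOf H)).primeFactors.card)
    (M : Subgroup G) (hM : M ≤ Cfsg.fittingOf H) (hZM : Cfsg.fittingOf H ⊓ Subgroup.centralizer (Cfsg.fittingOf H : Set G) ≤ M)
    (hinv : ∀ Y ∈ Cfsg.invSubgroups ⊤ M (Cfsg.primesNotDvd (Nat.card (Cfsg.fittingOf H))), Y = ⊥) :
    ∀ L : Subgroup G, IsCoatom L → M ≤ L → L = H := by
  intro L hL hML
  exact unique hG H hH hF2 M hM hZM hinv L hL hML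

end Cfsg.Agent.S1482
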