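import Cfsg.Statements.S1485
import Cfsg.Agent.Lib.Char.Clifford

set_option autoImplicit false
open scoped ComplexConjugate
open Cfsg

namespace Cfsg.Agent.S1485

open Cfsg.Agent.Lib.Char


theorem result {G : Type*} [Group G] [Fintype G] (H : Subgroup G) [hN : H.Normal] (θ : H → ℂ) (hθ : Cfsg.IsIrrCharacter H θ) : (fun h : H => Cfsg.indFun H θ h) = ((Nat.card {g : G // ∀ h : H, θ ⟨g * h * g⁻¹, hN.conj_mem h h.2 g⟩ = θ h} : ℂ) / (Nat.card H : ℂ)) • ∑ᶠ ψ ∈ {ψ : H → ℂ | ∃ g : G, ψ = fun h : H => θ ⟨g * h * g⁻¹, hN.conj_mem h h.2 g⟩}, ψ := by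
  classical
  have hset : {ψ : H → ℂ | ∃ g : G, ψ = fun h : H => θ ⟨g * h * g⁻¹, hN.conj_mem h h.2 g⟩} =
      ↑(orbit H θ) := by
    ext ψ
    rw [Finset.mem_coe, mem_orbit]
    exact exists_congr fun g => eq_comm
  rw [hset, finsum_mem_coe_finset, indFun_restrict_normal, sum_conjChar_eq, smul_smul,
    mul_comm, div_eq_mul_inv]
  congr 3
  exact_mod_cast Nat.card_congr (Equiv.subtypeEquivRight fun g =>
    (mem_inertia H (θ := θ) (g := g)).trans funext_iff)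

end Cfsg.Agent.S1485
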