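import Cfsg.Statements.S1486
import Cfsg.Agent.Lib.Char.Clifford

set_option autoImplicit false
open scoped ComplexConjugate
open Cfsg

namespace Cfsg.Agent.S1486

open Cfsg.Agent.Lib.Char


theorem result {G : Type*} [Group G] [Fintype G] (H : Subgroup G) [hN : H.Normal] (θ φ : H → ℂ) (hθ : Cfsg.IsIrrCharacter H θ) (hφ : Cfsg.IsIrrCharacter H φ) : ((∃ g : G, φ = fun h : H => θ ⟨g * h * g⁻¹, hN.conj_mem h h.2 g⟩) → Cfsg.indFun H φ = Cfsg.indFun H θ) ∧ ((¬ ∃ g : G, φ = fun h : H => θ ⟨g * h * g⁻¹, hN.conj_mem h h.2 g⟩) → Cfsg.classInner (Cfsg.indFun H φ) (Cfsg.indFun H θ) = 0) := by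
  classical
  letI := Fintype.ofFinite H
  constructor
  · rintro ⟨g, hg⟩
    funext x
    change φ = conjChar H g θ at hg
    by_cases hx : x ∈ H
    · have h1 := indFun_apply_of_mem H φ ⟨x, hx⟩
      have h2 := indFun_apply_of_mem H θ ⟨x, hx⟩
      simp only at h1 h2
      rw [h1, h2, hg]
      congr 1
      exact Fintype.sum_equiv (Equiv.mulLeft g) _ _ fun y => by
        rw [← conjChar_mul]; rfl
    · rw [indFun_apply_of_not_mem H φ hx, indFun_apply_of_not_mem H θ hx]
  · intro hne
    rw [classInner_indFun H φ (isClassFunction_indFun H θ), indFun_restrict_normal, classInner_smul_right,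
      classInner_sum_right, Finset.sum_eq_zero fun x _ =>
        classInner_irr_ne hφ (isIrrCharacter_conjChar H x hθ) fun h => hne ⟨x, h⟩, mul_zero]

end Cfsg.Agent.S1486
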