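import Cfsg.Statements.S1487
import Cfsg.Agent.Lib.Char.Clifford
import Cfsg.Agent.Lib.Char.Kernel
import Mathlib.Tactic

set_option autoImplicit false
open scoped ComplexConjugate
open Cfsg

namespace Cfsg.Agent.S1487

open Cfsg.Agent.Lib.Char


theorem result {G : Type*} [Group G] [Fintype G] (A H : Subgroup G) [A.Normal] [H.Normal] (hAH : A ≤ H) (θ : H → ℂ) (hθ : Cfsg.IsIrrCharacter H θ) : (∀ a : H, (a : G) ∈ A → θ a = θ 1) ↔ (∀ a : G, a ∈ A → Cfsg.indFun H θ a = Cfsg.indFun H θ 1) := by
  classical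
  letI := Fintype.ofFinite H
  have hc := isCharacter_of_isIrr hθ
  obtain ⟨d, hd⟩ := exists_natDegree hc
  have hH : (Nat.card H : ℂ) ≠ 0 := card_ne_zero_complex H
  constructor
  · intro h a ha
    rw [indFun_one]
    have h1 := indFun_apply_of_mem H θ ⟨a, hAH ha⟩
    simp only at h1
    rw [h1, show (∑ x : G, conjChar H x θ ⟨a, hAH ha⟩) = ∑ _x : G, θ 1 from
        Finset.sum_congr rfl fun x _ =>
          h ⟨x * a * x⁻¹, _⟩ (Subgroup.Normal.conj_mem ‹A.Normal› a ha x),
      Finset.sum_const, Finset.card_univ, nsmul_eq_mul, ← Nat.card_eq_fintype_card,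
      ← Subgroup.card_mul_index H]
    push_cast
    field_simp
  · intro h a ha
    have h1 := h a ha
    rw [indFun_apply_of_mem H θ a, indFun_one, inv_mul_eq_iff_eq_mul₀ hH, ← mul_assoc, ← Nat.cast_mul,
      Subgroup.card_mul_index, hd] at h1
    have hnorm : ∀ x : G, ‖conjChar H x θ a‖ ≤ d := fun x => by
      have := norm_apply_le hc ⟨x * a * x⁻¹, (inferInstance : H.Normal).conj_mem a a.2 x⟩
      rwa [hd, Complex.norm_natCast] at this
    have hre : ∀ x : G, (conjChar H x θ a).re ≤ d := fun x =>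
      le_trans (Complex.re_le_norm _) (hnorm x)
    have hsum : ∑ x : G, (conjChar H x θ a).re = ∑ _x : G, (d : ℝ) := by
      rw [← Complex.re_sum, h1, Finset.sum_const, Finset.card_univ, nsmul_eq_mul,
        ← Nat.card_eq_fintype_card]
      simp
    have h2 : (conjChar H 1 θ a).re = d :=
      (Finset.sum_eq_sum_iff_of_le fun x _ => hre x).mp hsum 1 (Finset.mem_univ _)
    rw [conjChar_one] at h2
    have h3 : ‖θ a‖ ≤ d := by have := hnorm 1; rwa [conjChar_one] at this
    rw [hd]
    apply Complex.ext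
    · rw [h2]; simp
    · rw [Complex.natCast_im]
      have h4 : (θ a).re ^ 2 + (θ a).im ^ 2 ≤ (d : ℝ) ^ 2 := by
        have h5 : Complex.normSq (θ a) ≤ (d : ℝ) ^ 2 := by
          rw [Complex.normSq_eq_norm_sq]; exact pow_le_pow_left₀ (norm_nonneg _) h3 2
        rw [Complex.normSq_apply] at h5
        linarith
      rw [h2] at h4
      nlinarith

end Cfsg.Agent.S1487
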