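import Cfsg.Statements.S1488
import Cfsg.Agent.Lib.Char.Induced
import Mathlib.Tactic

set_option autoImplicit false
open scoped ComplexConjugate
open Cfsg

namespace Cfsg.Agent.S1488

open Cfsg.Agent.Lib.Char


theorem result {G : Type*} [Group G] [Fintype G] (A H : Subgroup G) [A.Normal] (hAH : A ≤ H) [Fintype (G ⧸ A)] [Fintype ↥(H.map (QuotientGroup.mk' A))] (θ : H → ℂ) (θ₁ : ↥(H.map (QuotientGroup.mk' A)) → ℂ) (hθ : ∀ x : H, θ₁ ⟨QuotientGroup.mk' A x, Subgroup.mem_map_of_mem _ x.2⟩ = θ x) (g : G) : Cfsg.indFun (H.map (QuotientGroup.mk' A)) θ₁ (QuotientGroup.mk' A g) = Cfsg.indFun H θ g := by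
  classical
  let q := QuotientGroup.mk' A
  let Hb := H.map q
  have hcard : Nat.card H = Nat.card A * Nat.card Hb := by
    have h1 := Subgroup.card_mul_index (A.subgroupOf H)
    rw [Nat.card_congr (Subgroup.subgroupOfEquivOfLe hAH).toEquiv] at h1
    rw [← h1]
    congr 1
    show _ = Nat.card (H.map q)
    rw [← Subgroup.relIndex, ← Subgroup.relIndex_ker (K := H) q, QuotientGroup.ker_mk']
  have hext : ∀ x : G, extendByZero Hb θ₁ (q x) = extendByZero H θ x := by
    intro x
    by_cases hx : x ∈ H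
    · rw [extendByZero_mem H θ hx, extendByZero_mem Hb θ₁ (Subgroup.mem_map_of_mem q hx)]
      exact hθ ⟨x, hx⟩
    · rw [extendByZero_not_mem H θ hx, extendByZero_not_mem]
      rintro ⟨y, hy, he⟩
      apply hx
      have hyx : y⁻¹ * x ∈ A := QuotientGroup.eq.mp he
      have := H.mul_mem hy (hAH hyx)
      rwa [mul_inv_cancel_left] at this
  have hsum : ∑ x : G, extendByZero H θ (x⁻¹ * g * x) =
      (Nat.card A : ℂ) * ∑ y : G ⧸ A, extendByZero Hb θ₁ (y⁻¹ * q g * y) := by
    rw [Finset.mul_sum, ← Finset.sum_fiberwise (Finset.univ) (fun x => q x)]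
    refine Finset.sum_congr rfl fun y _ => ?_
    have hfib : ((Finset.univ.filter fun x => q x = y).card : ℂ) = (Nat.card A : ℂ) := by
      rw [← Fintype.card_subtype, ← Nat.card_eq_fintype_card]
      norm_cast
      obtain ⟨x₀, rfl⟩ := QuotientGroup.mk'_surjective A y
      exact Nat.card_congr
        { toFun := fun x => ⟨x₀⁻¹ * x.1, QuotientGroup.eq.mp x.2.symm⟩
          invFun := fun a => ⟨x₀ * a, (QuotientGroup.eq.mpr (by simpa using a.2)).symm⟩
          left_inv := fun x => Subtype.ext (by simp)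
          right_inv := fun a => Subtype.ext (by simp) }
    rw [Finset.sum_congr rfl (g := fun _ => extendByZero Hb θ₁ (y⁻¹ * q g * y)) fun x hx => by
      rw [← hext, map_mul, map_mul, map_inv, (Finset.mem_filter.mp hx).2],
      Finset.sum_const, nsmul_eq_mul, hfib]
  simp only [indFun]
  rw [hsum, hcard, Nat.cast_mul, mul_inv, mul_comm (Nat.card A : ℂ)⁻¹, mul_assoc, ← mul_assoc
    (Nat.card A : ℂ)⁻¹, inv_mul_cancel₀ (card_ne_zero_complex A), one_mul]

end Cfsg.Agent.S1488
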