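import Cfsg.Statements.S1489
import Cfsg.Agent.Lib.CharClifford.Correspondence

set_option autoImplicit false
open Cfsg

namespace Cfsg.Agent.S1489

open Cfsg.Agent.Lib.CharClifford Cfsg.Agent.Lib.Char

theorem result {G : Type*} [Group G] [Fintype G] (H T : Subgroup G) [hN : H.Normal] [Fintype T] (θ : H → ℂ) (hθ : Cfsg.IsIrrCharacter H θ) (hT : ∀ g : G, g ∈ T ↔ ∀ h : H, θ ⟨g * h * g⁻¹, hN.conj_mem h h.2 g⟩ = θ h) (hHT : H ≤ T) (ψ ψ' : T → ℂ) (hψ : Cfsg.IsIrrCharacter T ψ) (hψ' : Cfsg.IsIrrCharacter T ψ') (hc : Cfsg.classInner (Cfsg.indFun (H.subgroupOf T) (fun x => θ ⟨(x : T), Subgroup.mem_subgroupOf.mp x.2⟩)) ψ ≠ 0) (hc' : Cfsg.classInner (Cfsg.indFun (H.subgroupOf T) (fun x => θ ⟨(x : T), Subgroup.mem_subgroupOf.mp x.2⟩)) ψ' ≠ 0) : Cfsg.IsIrrCharacter G (Cfsg.indFun T ψ) ∧ (Cfsg.indFun T ψ = Cfsg.indFun T ψ' → ψ = ψ') := by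
  classical
  letI : Fintype (H.subgroupOf T) := Fintype.ofFinite _
  letI : Fintype H := Fintype.ofFinite _
  let e : H.subgroupOf T ≃* H := Subgroup.subgroupOfEquivOfLe hHT
  have hover : ∀ φ : T → ℂ, IsIrrCharacter T φ →
      Cfsg.classInner (Cfsg.indFun (H.subgroupOf T)
        (fun x => θ ⟨(x : T), Subgroup.mem_subgroupOf.mp x.2⟩)) φ ≠ 0 →
      classInner (resLe hHT φ) θ ≠ 0 := by
    intro φ hφ hne
    rw [classInner_indFun _ _ (isClassFunction_of_isIrr hφ), classInner_conj_symm] at hne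
    have hne' := (map_ne_zero _).mp hne
    rw [← classInner_comp_equiv e]
    convert hne' using 2
    · exact funext fun x => congrArg φ (Subtype.ext rfl)
    · exact funext fun x => congrArg θ (Subtype.ext rfl)
  have hTi : inertia H θ = T :=
    Subgroup.ext fun g => (mem_inertia H).trans (funext_iff.trans (hT g).symm)
  obtain ⟨h1, h2⟩ := indFun_correspondent H hθ T hTi hHT hψ (hover ψ hψ hc)
  exact ⟨h1, fun he => (h2 ψ' hψ' (hover ψ' hψ' hc') he.symm).symm⟩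

end Cfsg.Agent.S1489
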