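import Cfsg.Statements.S1490
import Cfsg.Agent.Lib.CharClifford.AbelianInertia
import Mathlib.Tactic

set_option autoImplicit false
open scoped ComplexConjugate
open Cfsg

namespace Cfsg.Agent.S1490

open Cfsg.Agent.Lib.Char Cfsg.Agent.Lib.CharClifford

theorem result {G : Type*} [Group G] [Fintype G] (H T : Subgroup G) [hN : H.Normal] (θ : H → ℂ) (hθ : Cfsg.IsIrrCharacter H θ) (hT : ∀ g : G, g ∈ T ↔ ∀ h : H, θ ⟨g * h * g⁻¹, hN.conj_mem h h.2 g⟩ = θ h) (hab : ∀ x ∈ T, ∀ y ∈ T, x * y * x⁻¹ * y⁻¹ ∈ H) : ∃ (e : ℕ) (C : Finset (G → ℂ)), 0 < e ∧ (∀ χ ∈ C, Cfsg.IsIrrCharacter G χ) ∧ e ^ 2 * C.card * Nat.card H = Nat.card T ∧ Cfsg.indFun H θ = (e : ℂ) • ∑ χ ∈ C, χ ∧ ∀ χ ∈ C, χ 1 = (T.index : ℂ) * e * θ 1 := by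
  classical
  have := Fintype.ofFinite H
  have := Fintype.ofFinite T
  have hTi : inertia H θ = T := by
    ext g
    rw [mem_inertia, hT g, funext_iff]
    exact Iff.rfl
  have hHT : H ≤ T := hTi ▸ le_inertia H (isClassFunction_of_isIrr hθ)
  obtain ⟨χ, hχ, hcon⟩ : ∃ χ : IrrCharacter G, classInner (fun n : H => (χ : G → ℂ) n) θ ≠ 0 ∧ True := by
    by_contra hc
    push Not at hc
    have hzero : indFun H θ = 0 := by
      rw [eq_sum_classInner_smul (isClassFunction_indFun H θ)]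
      refine Finset.sum_eq_zero fun ξ _ => ?_
      have h0 : classInner (fun n : H => (ξ : G → ℂ) n) θ = 0 := by
        by_contra h; exact hc ξ h
      rw [classInner_indFun H θ (isClassFunction_of_isIrr ξ.2), classInner_conj_symm, h0, map_zero,
        zero_smul]
    have := congrFun hzero 1
    rw [indFun_one, Pi.zero_apply] at this
    exact irr_degree_ne_zero hθ ((mul_eq_zero.mp this).resolve_left
      (Nat.cast_ne_zero.mpr (Subgroup.index_ne_zero_of_finite)))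
  obtain ⟨ψ, hψ, -, hψe, hψne⟩ := exists_correspondent H hθ T hTi hHT χ.2 hχ
  have hres := restrict_stabilized H hθ T hHT (fun t ht => (hTi.symm ▸ ht : t ∈ inertia H θ)) hψ
    (hψe ▸ hχ)
  obtain ⟨k, hk⟩ := classInner_natCast (isCharacter_restrict (isCharacter_of_isIrr χ.2) H)
    (isCharacter_of_isIrr hθ)
  have hk0 : k ≠ 0 := fun h => hχ (by rw [hk, h, Nat.cast_zero])
  rw [hψe, hk] at hres
  obtain ⟨C, hC, hcard, hsum, hdeg⟩ := indFun_abelian_inertia H T hθ hTi hHT hab hψ k hk0 hres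
  refine ⟨k, C, Nat.pos_of_ne_zero hk0, hC, ?_, hsum, hdeg⟩
  rw [hcard, Subgroup.relIndex, mul_comm, ← Nat.card_congr (Subgroup.subgroupOfEquivOfLe hHT).toEquiv,
    Subgroup.card_mul_index]

end Cfsg.Agent.S1490
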