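import Cfsg.Statements.S1491
import Cfsg.Agent.Lib.CharClifford.AbelianInertia
import Cfsg.Agent.Lib.Char.Degree
import Mathlib.Tactic

set_option autoImplicit false
open scoped ComplexConjugate
open Cfsg

namespace Cfsg.Agent.S1491

open Cfsg.Agent.Lib.Char Cfsg.Agent.Lib.CharClifford

/-- An invariant irreducible character of a normal Hall subgroup extends. -/
theorem extends_coprime {T : Type*} [Group T] [Finite T] (K : Subgroup T) [K.Normal] {θ : K → ℂ}
    (hθ : IsIrrCharacter K θ) (hinv : ∀ g : T, conjChar K g θ = θ)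
    (hcop : Nat.Coprime (Nat.card K) K.index) :
    ∃ χ : T → ℂ, IsIrrCharacter T χ ∧ ∀ n : K, χ n = θ n := by
  classical
  have := Fintype.ofFinite T
  obtain ⟨d, hd⟩ := exists_natDegree (isCharacter_of_isIrr hθ)
  have hdvd : d ∣ Nat.card K := irr_degree_dvd_card hθ hd
  obtain ⟨k, ρ, hρ, rfl⟩ := hθ
  haveI := hρ
  let φ : K →* ℂˣ := detHom ρ
  have hφinv : ∀ (g : T) (n : K),
      φ ⟨g * n * g⁻¹, (inferInstance : K.Normal).conj_mem (n : T) n.2 g⟩ = φ n := by
    intro g n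
    let c : K ≃* K := MulAut.conjNormal g
    let ρ' : Representation ℂ K (Fin k → ℂ) := ρ.comp c.toMonoidHom
    have hch : ρ'.character = ρ.character := funext fun m => congrFun (hinv g) m
    haveI : ρ'.IsIrreducible := isIrreducible_of_isIrrCharacter ρ' (by
      rw [hch]; exact ⟨k, ρ, hρ, rfl⟩)
    have h1 := congrFun (detChar_character ρ') n
    rw [hch, detChar_character ρ] at h1
    apply Units.ext
    rw [detHom_apply, detHom_apply]
    exact h1.symm
  have hord : orderOf φ ∣ Nat.card K := orderOf_dvd_of_pow_eq_one (MonoidHom.ext fun m => by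
    rw [MonoidHom.pow_apply, ← map_pow, pow_card_eq_one', map_one, MonoidHom.one_apply])
  obtain ⟨μ, hμ, -, -⟩ := exists_extension_coprime φ hφinv (hcop.symm.coprime_dvd_right hord)
  exact extends_of_det ⟨k, ρ, hρ, rfl⟩ hinv d hd (hcop.symm.coprime_dvd_right hdvd) μ fun n => by
    rw [hμ n, detHom_apply, detChar_character ρ]

theorem result {G : Type*} [Group G] [Fintype G] (H T : Subgroup G) [hN : H.Normal] (θ : H → ℂ) (hθ : Cfsg.IsIrrCharacter H θ) (hT : ∀ g : G, g ∈ T ↔ ∀ h : H, θ ⟨g * h * g⁻¹, hN.conj_mem h h.2 g⟩ = θ h) (hab : ∀ x ∈ T, ∀ y ∈ T, x * y * x⁻¹ * y⁻¹ ∈ H) (hcop : Nat.Coprime (Nat.card H) (H.relIndex T)) : ∃ C : Finset (G → ℂ), (∀ χ ∈ C, Cfsg.IsIrrCharacter G χ) ∧ C.card = H.relIndex T ∧ Cfsg.indFun H θ = ∑ χ ∈ C, χ ∧ ∀ χ ∈ C, χ 1 = (T.index : ℂ) * θ 1 := by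
  classical
  have := Fintype.ofFinite H
  have := Fintype.ofFinite T
  have hTi : inertia H θ = T := by
    ext g
    rw [mem_inertia, hT g, funext_iff]
    exact Iff.rfl
  have hHT : H ≤ T := hTi ▸ le_inertia H (isClassFunction_of_isIrr hθ)
  obtain ⟨ψ, hψ, hres⟩ := extends_coprime (H.subgroupOf T) (θ := fun x => θ ⟨(x : T), x.2⟩)
    (isIrrCharacter_comp_equiv (Subgroup.subgroupOfEquivOfLe hHT) hθ)
    (fun g => funext fun n => (hT g).mp g.2 ⟨(n : T), n.2⟩)
    (by rwa [Nat.card_congr (Subgroup.subgroupOfEquivOfLe hHT).toEquiv])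
  obtain ⟨C, hC, hcard, hsum, hdeg⟩ := indFun_abelian_inertia H T hθ hTi hHT hab hψ 1 one_ne_zero
    (funext fun n => by
      rw [Nat.cast_one, one_smul]
      exact hres ⟨⟨n, hHT n.2⟩, n.2⟩)
  refine ⟨C, hC, by simpa using hcard, by simpa using hsum, fun χ hχ => by simpa using hdeg χ hχ⟩

end Cfsg.Agent.S1491
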