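import Cfsg.Statements.S1492
import Cfsg.Agent.Lib.CharClifford.Basic
import Cfsg.Agent.Lib.Char.Ito
import Mathlib.Tactic

set_option autoImplicit false
open scoped ComplexConjugate
open Cfsg

namespace Cfsg.Agent.S1492

open Cfsg.Agent.Lib.Char

theorem result {G : Type*} [Group G] [Finite G] (ψ : G → ℂ) (hψ : Cfsg.IsIrrCharacter G ψ) (B C D : Subgroup G) (hBD : B ≤ D) (hDC : D ≤ C) (hBn : ∀ c ∈ C, ∀ b ∈ B, c * b * c⁻¹ ∈ B) (hcent : ∀ d ∈ D, ∀ c ∈ C, d * c * d⁻¹ * c⁻¹ ∈ B) (hker : ∀ b ∈ B, ψ b = ψ 1) : ‖ψ 1‖ ^ 2 * (Nat.card C : ℝ) * (Nat.card D : ℝ) ≤ (Nat.card G : ℝ) ^ 2 := by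
  classical
  have := Fintype.ofFinite G
  have := Fintype.ofFinite C
  have hψc := isCharacter_of_isIrr hψ
  obtain ⟨m, hm⟩ := isCharacter_eq_sum (isCharacter_restrict hψc C)
  obtain ⟨d, hd⟩ := exists_natDegree hψc
  have hd0 : d ≠ 0 := fun h => irr_degree_ne_zero hψ (by rw [hd, h, Nat.cast_zero])
  obtain ⟨φ, hmφ⟩ : ∃ φ : IrrCharacter C, m φ ≠ 0 := by
    by_contra hc
    push Not at hc
    apply hd0
    have := congrFun hm 1
    simp [hc, hd] at this
    exact_mod_cast this
  have hφc := isCharacter_of_isIrr φ.2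
  -- the constituent has large degree
  have hin : classInner (fun c : C => ψ c) (φ : C → ℂ) = (m φ : ℂ) := by
    rw [hm, classInner_sum_left, Finset.sum_eq_single φ]
    · rw [classInner_smul_left, classInner_irr_self φ.2, mul_one]
    · intro γ _ hγ
      rw [classInner_smul_left, classInner_irrCharacter, if_neg hγ, mul_zero]
    · intro h; exact absurd (Finset.mem_univ φ) h
  have hdeg : d ≤ C.index * charDegree (φ : C → ℂ) := by
    rw [← charDegree_indFun C hφc, ← charDegree_eq_of_apply_one hd]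
    refine constituent_degree_le (isCharacter_indFun C hφc) hψ ?_
    rw [classInner_indFun C _ (isClassFunction_of_isIrr hψ), classInner_conj_symm, hin,
      Complex.conj_natCast]
    exact Nat.cast_ne_zero.mpr hmφ
  -- `B` is in the kernel of the constituent
  have hkφ : ∀ b : C, (b : G) ∈ B → (φ : C → ℂ) b = (φ : C → ℂ) 1 := by
    intro b hb
    choose e he using fun γ : IrrCharacter C => exists_natDegree (isCharacter_of_isIrr γ.2)
    have hle : ∀ γ : IrrCharacter C, ((γ : C → ℂ) b).re ≤ e γ := fun γ => by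
      have := norm_apply_le (isCharacter_of_isIrr γ.2) b
      rw [he, Complex.norm_natCast] at this
      exact le_trans (Complex.re_le_norm _) this
    have h1 := congrFun hm b
    have h2 := congrFun hm 1
    simp only [Finset.sum_apply, Pi.smul_apply, smul_eq_mul, Subgroup.coe_one] at h1 h2
    rw [hker b hb] at h1
    have h3 : ∑ γ : IrrCharacter C, (m γ : ℝ) * ((γ : C → ℂ) b).re =
        ∑ γ : IrrCharacter C, (m γ : ℝ) * (e γ : ℝ) := by
      have h4 := congrArg Complex.re (h1.symm.trans h2)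
      simp only [Complex.re_sum, Complex.mul_re, Complex.natCast_re, Complex.natCast_im, zero_mul,
        sub_zero, he] at h4
      exact h4
    have h5 := (Finset.sum_eq_sum_iff_of_le fun γ _ =>
      mul_le_mul_of_nonneg_left (hle γ) (Nat.cast_nonneg _)).mp h3 φ (Finset.mem_univ _)
    have h6 : ((φ : C → ℂ) b).re = e φ :=
      mul_left_cancel₀ (Nat.cast_ne_zero.mpr hmφ) h5
    have h7 := norm_apply_le hφc b
    rw [he, Complex.norm_natCast] at h7
    have h8 : ‖(φ : C → ℂ) b‖ = ((φ : C → ℂ) b).re :=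
      le_antisymm (h6 ▸ h7) (Complex.re_le_norm _)
    rw [he]
    refine Complex.ext (by simpa using h6) ?_
    simpa using (Complex.nonneg_iff.mp (Complex.re_eq_norm.mp h8.symm)).2.symm
  -- `D` acts by scalars
  obtain ⟨k, ρ, hρ, hρχ⟩ := φ.2
  have hk : ((φ : C → ℂ) 1) = (k : ℂ) := by rw [← hρχ]; simp
  have hnorm : ∀ x : C, (x : G) ∈ D → ‖(φ : C → ℂ) x‖ = (k : ℝ) := by
    intro x hx
    obtain ⟨c, hc⟩ := Lib.CharClifford.exists_smul_of_commute ρ (ρ x) fun y => by
      have hb : (x * y * x⁻¹ * y⁻¹ : C).1 ∈ B := hcent x hx y y.2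
      have h1 := (character_eq_degree_iff ρ (x * y * x⁻¹ * y⁻¹)).mp (by
        have := hkφ _ hb
        rw [← hρχ] at this
        simpa using this)
      calc ρ x * ρ y = ρ (x * y * x⁻¹ * y⁻¹) * (ρ y * ρ x) := by
            rw [← map_mul, ← map_mul, ← map_mul]; congr 1; group
        _ = ρ y * ρ x := by rw [h1, one_mul]
    rw [← hρχ, norm_character_of_eq_smul ρ x hc]
    simp
  have hk' : charDegree (φ : C → ℂ) = k := charDegree_eq_of_apply_one hk
  -- the norm of the constituent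
  have hbound : (k : ℝ) ^ 2 * (Nat.card D : ℝ) ≤ (Nat.card C : ℝ) := by
    have h1 := classInner_irr_self φ.2
    simp only [classInner, Complex.mul_conj] at h1
    rw [← Complex.ofReal_sum, inv_mul_eq_one₀ (card_ne_zero_complex C)] at h1
    have h2 : ∑ x : C, Complex.normSq ((φ : C → ℂ) x) = (Nat.card C : ℝ) := by exact_mod_cast h1.symm
    rw [← h2]
    calc (k : ℝ) ^ 2 * (Nat.card D : ℝ)
        = ∑ x ∈ Finset.univ.filter (fun x : C => (x : G) ∈ D), Complex.normSq ((φ : C → ℂ) x) := by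
          rw [Finset.sum_congr rfl (g := fun _ => (k : ℝ) ^ 2) fun x hx => by
            rw [Complex.normSq_eq_norm_sq, hnorm x (Finset.mem_filter.mp hx).2],
            Finset.sum_const, nsmul_eq_mul, mul_comm]
          congr 1
          rw [← Fintype.card_subtype, ← Nat.card_eq_fintype_card]
          exact_mod_cast Nat.card_congr (Subgroup.subgroupOfEquivOfLe hDC).toEquiv.symm
      _ ≤ _ := Finset.sum_le_sum_of_subset_of_nonneg (Finset.subset_univ _)
          fun x _ _ => Complex.normSq_nonneg _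
  rw [hd, Complex.norm_natCast]
  rw [hk'] at hdeg
  have hcard : (Nat.card C : ℝ) * (C.index : ℝ) = (Nat.card G : ℝ) := by
    exact_mod_cast Subgroup.card_mul_index C
  have hd' : (d : ℝ) ≤ (C.index : ℝ) * (k : ℝ) := by exact_mod_cast hdeg
  calc (d : ℝ) ^ 2 * (Nat.card C : ℝ) * (Nat.card D : ℝ)
      ≤ ((C.index : ℝ) * (k : ℝ)) ^ 2 * (Nat.card C : ℝ) * (Nat.card D : ℝ) := by gcongr
    _ = (C.index : ℝ) ^ 2 * (Nat.card C : ℝ) * ((k : ℝ) ^ 2 * (Nat.card D : ℝ)) := by ring
    _ ≤ (C.index : ℝ) ^ 2 * (Nat.card C : ℝ) * (Nat.card C : ℝ) := by gcongr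
    _ = (Nat.card G : ℝ) ^ 2 := by rw [← hcard]; ring

end Cfsg.Agent.S1492
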