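import Cfsg.Statements.S1493
import Cfsg.Agent.Lib.CharGalois
import Mathlib.Tactic

set_option autoImplicit false
open Cfsg

namespace Cfsg.Agent.S1493

open Cfsg.Agent.Lib.Char

theorem result {G : Type*} [Group G] [Finite G] (a b k : ℕ) (hab : Nat.card G = a * b) (hcop : Nat.Coprime a b) (hk : Nat.Coprime k a) (χ : G → ℂ) (hχ : Cfsg.IsCharacter G χ) : ∃ χ' : G → ℂ, Cfsg.IsCharacter G χ' ∧ (Cfsg.IsIrrCharacter G χ → Cfsg.IsIrrCharacter G χ') ∧ (∀ g : G, orderOf g ∣ a → χ' g = χ (g ^ k)) ∧ (∀ g : G, Nat.Coprime (orderOf g) a → χ' g = χ g) := by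
  obtain ⟨k', hk1, hk2⟩ := Nat.chineseRemainder hcop k 1
  have hk1 : k' ≡ k [MOD a] := hk1
  have hk2 : k' ≡ 1 [MOD b] := hk2
  have hk' : Nat.Coprime k' (Nat.card G) := by
    rw [hab, Nat.coprime_mul_iff_right]
    refine ⟨?_, ?_⟩
    · rw [Nat.coprime_comm, Nat.Coprime, Nat.gcd_comm, hk1.gcd_eq]; exact hk
    · rw [Nat.Coprime, hk2.gcd_eq, Nat.gcd_one_left]
  obtain ⟨σ, hσ⟩ := Lib.CharGalois.exists_aut_pow (Nat.card_pos (α := G)) hk'
  refine ⟨fun g => χ (g ^ k'), ?_, fun h => Lib.CharGalois.isIrrCharacter_pow hk' h, fun g hg => ?_,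
    fun g hg => ?_⟩
  · simpa only [Lib.CharGalois.aut_apply_char hσ hχ] using Lib.CharGalois.isCharacter_aut σ hχ
  · show χ (g ^ k') = χ (g ^ k)
    rw [pow_eq_pow_iff_modEq.mpr (hk1.of_dvd hg)]
  · show χ (g ^ k') = χ g
    have h : orderOf g ∣ b := hg.dvd_of_dvd_mul_left (hab ▸ orderOf_dvd_natCard g)
    have h2 := pow_eq_pow_iff_modEq.mpr (hk2.of_dvd h)
    rw [pow_one] at h2
    rw [h2]

end Cfsg.Agent.S1493
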