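import Cfsg.Statements.S1494
import Cfsg.Agent.Lib.Char.Linear
import Cfsg.Agent.Lib.Char.Integral
import Mathlib.Tactic
import Mathlib.RingTheory.RootsOfUnity.Complex

set_option autoImplicit false
open scoped ComplexConjugate
open Cfsg

namespace Cfsg.Agent.S1494

open Cfsg.Agent.Lib.Char

/-- Irreducible characters of commutative groups are linear. -/
theorem apply_one_of_comm {K : Type*} [Group K] (hcomm : ∀ a b : K, a * b = b * a) {χ : K → ℂ}
    (h : IsIrrCharacter K χ) : χ 1 = 1 := by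
  obtain ⟨n, ρ, hρ, rfl⟩ := h
  have : IsMulCommutative K := ⟨⟨hcomm⟩⟩
  rw [Representation.char_one, Representation.IsIrreducible.finrank_eq_one_of_isMulCommutative ρ,
    Nat.cast_one]

theorem result {G : Type*} [Group G] [Finite G] (χ : G → ℂ) (hχ : Cfsg.IsGeneralizedCharacter G χ) (p : ℕ) (hp : p.Prime) (x y : G) (hx : orderOf x = p) (hxy : x * y = y * x) : ∃ ω : ℂ, IsIntegral ℤ ω ∧ χ (x * y) - χ y = (1 - Complex.exp (2 * Real.pi * Complex.I / p)) * ω := by
  classical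
  have := Fintype.ofFinite G
  set ε := Complex.exp (2 * Real.pi * Complex.I / p) with hε
  have hprim : IsPrimitiveRoot ε p := Complex.isPrimitiveRoot_exp p hp.ne_zero
  have hεint : IsIntegral ℤ ε := hprim.isIntegral hp.pos
  have : NeZero p := ⟨hp.ne_zero⟩
  suffices hchar : ∀ ψ : G → ℂ, IsCharacter G ψ →
      ∃ ω : ℂ, IsIntegral ℤ ω ∧ ψ (x * y) - ψ y = (1 - ε) * ω by
    obtain ⟨χ₁, χ₂, h₁, h₂, rfl⟩ := hχ
    obtain ⟨ω₁, hω₁, e₁⟩ := hchar χ₁ h₁
    obtain ⟨ω₂, hω₂, e₂⟩ := hchar χ₂ h₂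
    refine ⟨ω₁ - ω₂, hω₁.sub hω₂, ?_⟩
    simp only [Pi.sub_apply, mul_sub, ← e₁, ← e₂]
    ring
  intro ψ hψ
  set K := Subgroup.closure ({x, y} : Set G) with hK
  have hcomm : ∀ a b : K, a * b = b * a := by
    have : IsMulCommutative K := Subgroup.isMulCommutative_closure (by
      rintro a (rfl | rfl) b (rfl | rfl) <;> simp [hxy])
    exact fun a b => this.is_comm.comm a b
  let xK : K := ⟨x, Subgroup.subset_closure (by simp)⟩
  let yK : K := ⟨y, Subgroup.subset_closure (by simp)⟩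
  have := Fintype.ofFinite K
  obtain ⟨m, hm⟩ := isCharacter_eq_sum (isCharacter_restrict hψ K)
  have hlin : ∀ φ : IrrCharacter K, ∃ ω : ℂ, IsIntegral ℤ ω ∧
      (φ : K → ℂ) (xK * yK) - (φ : K → ℂ) yK = (1 - ε) * ω := by
    intro φ
    obtain ⟨l, hl⟩ := exists_hom_of_degree_one (isCharacter_of_isIrr φ.2) (apply_one_of_comm hcomm φ.2)
    have hp1 : (l xK : ℂ) ^ p = 1 := by
      have h1 : xK ^ p = 1 := Subtype.ext (by simp [xK, ← hx, pow_orderOf_eq_one])
      rw [← Units.val_pow_eq_pow_val, ← map_pow, h1, map_one, Units.val_one]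
    obtain ⟨i, -, hi⟩ := hprim.eq_pow_of_pow_eq_one hp1
    refine ⟨-((φ : K → ℂ) yK * ∑ j ∈ Finset.range i, ε ^ j),
      (((char_isIntegral (isCharacter_of_isIrr φ.2) yK).mul
        (IsIntegral.sum _ fun j _ => hεint.pow j))).neg, ?_⟩
    rw [hl, hl, map_mul, Units.val_mul, ← hi]
    have hg := geom_sum_mul ε i
    linear_combination (-(l yK : ℂ)) * hg
  choose ω hω hωe using hlin
  refine ⟨∑ φ : IrrCharacter K, (m φ : ℂ) * ω φ,
    IsIntegral.sum _ fun φ _ => (show IsIntegral ℤ ((m φ : ℂ)) by exact_mod_cast isIntegral_algebraMap (R := ℤ) (A := ℂ) (x := (m φ : ℤ))).mul (hω φ), ?_⟩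
  have h1 := congrFun hm (xK * yK)
  have h2 := congrFun hm yK
  simp only [Finset.sum_apply, Pi.smul_apply, smul_eq_mul] at h1 h2
  show ψ ((xK * yK : K) : G) - ψ ((yK : K) : G) = _
  rw [h1, h2, Finset.mul_sum, ← Finset.sum_sub_distrib]
  refine Finset.sum_congr rfl fun φ _ => ?_
  rw [← mul_sub, hωe]
  ring

end Cfsg.Agent.S1494
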