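import Cfsg.Statements.S1495
import Cfsg.Agent.Lib.Char.Integral
import Mathlib.RingTheory.RootsOfUnity.Complex
import Mathlib.RingTheory.RootsOfUnity.Lemmas
import Mathlib.Tactic

set_option autoImplicit false

namespace Cfsg.Agent.S1495

open Cfsg.Agent.Lib.Char

theorem result (p : ℕ) (hp : p.Prime) (n : ℤ) (ω : ℂ) (hω : IsIntegral ℤ ω) (h : (n : ℂ) = (1 - Complex.exp (2 * Real.pi * Complex.I / p)) * ω) : (p : ℤ) ∣ n := by
  classical
  set ε := Complex.exp (2 * Real.pi * Complex.I / p) with hε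
  have hprim : IsPrimitiveRoot ε p := Complex.isPrimitiveRoot_exp p hp.ne_zero
  have hεint : IsIntegral ℤ ε := hprim.isIntegral hp.pos
  have : NeZero p := ⟨hp.ne_zero⟩
  obtain ⟨q, hq⟩ : ∃ q, p = q + 1 := ⟨p - 1, (Nat.succ_pred_eq_of_pos hp.pos).symm⟩
  have hprod : ∏ k ∈ Finset.range q, (1 - ε ^ (k + 1)) = (p : ℂ) := by
    rw [hq, Nat.cast_succ]
    exact (hq ▸ hprim).prod_one_sub_pow_eq_order
  have hu : ∀ k ∈ Finset.range q, ∃ u : ℂ, IsIntegral ℤ u ∧ 1 - ε = (1 - ε ^ (k + 1)) * u := by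
    intro k hk
    have hco : Nat.Coprime (k + 1) p := by
      refine Nat.Coprime.symm ((hp.coprime_iff_not_dvd).mpr fun hd => ?_)
      have := Nat.le_of_dvd (Nat.succ_pos _) hd
      have := Finset.mem_range.mp hk
      omega
    have hk' : IsPrimitiveRoot (ε ^ (k + 1)) p := hprim.pow_of_coprime _ hco
    obtain ⟨j, -, hj⟩ := hk'.eq_pow_of_pow_eq_one hprim.pow_eq_one
    refine ⟨∑ i ∈ Finset.range j, (ε ^ (k + 1)) ^ i,
      IsIntegral.sum _ fun i _ => (hεint.pow _).pow i, ?_⟩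
    rw [mul_neg_geom_sum, hj]
  choose! u hu1 hu2 using hu
  have hpow : ((n : ℂ)) ^ q = (p : ℂ) * ∏ k ∈ Finset.range q, (u k * ω) := by
    rw [← hprod, ← Finset.prod_mul_distrib, ← Finset.card_range q, ← Finset.prod_const]
    refine Finset.prod_congr (by rw [Finset.card_range]) fun k hk => ?_
    rw [h, ← mul_assoc, ← hu2 k (by simpa using hk)]
  have hw : IsIntegral ℤ (∏ k ∈ Finset.range q, (u k * ω)) :=
    IsIntegral.prod _ fun k hk => (hu1 k hk).mul hω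
  have hp0 : (p : ℂ) ≠ 0 := Nat.cast_ne_zero.mpr hp.ne_zero
  obtain ⟨z, hz⟩ := exists_int_of_isIntegral (q := ((n : ℚ) ^ q) / (p : ℚ)) (by
    push_cast
    rw [hpow, mul_div_cancel_left₀ _ hp0]
    exact hw)
  rw [div_eq_iff (Nat.cast_ne_zero.mpr hp.ne_zero)] at hz
  have hz' : n ^ q = z * (p : ℤ) := by exact_mod_cast hz
  exact (Nat.prime_iff_prime_int.mp hp).dvd_of_dvd_pow ⟨z, by rw [hz', mul_comm]⟩

end Cfsg.Agent.S1495
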