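import Cfsg.Statements.S1496
import Mathlib.Tactic.Group
import Mathlib.Tactic
import Mathlib.GroupTheory.Coset.Card

set_option autoImplicit false
open Cfsg

namespace Cfsg.Agent.S1496

theorem result {G : Type*} [Group G] [Finite G] (H : Subgroup G) (g : G) (hg : g ∈ Subgroup.normalizer (H : Set G)) (hcop : Nat.Coprime (orderOf g) (Nat.card H)) (h : G) (hh : h ∈ H) : ∃ x ∈ H, ∃ c ∈ H, c * g = g * c ∧ x * (h * g) * x⁻¹ = c * g := by
  classical
  set C : Subgroup H := (Subgroup.centralizer ({g} : Set G)).subgroupOf H with hC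
  have hcC : ∀ c : C, ((c : H) : G) * g = g * ((c : H) : G) := fun c =>
    Subgroup.mem_centralizer_singleton_iff.mp (Subgroup.mem_subgroupOf.mp c.2)
  have hmem : ∀ a b : H, (a : G) * ((b : G) * g) * (a : G)⁻¹ * g⁻¹ ∈ H := by
    intro a b
    have h1 : g * (a : G)⁻¹ * g⁻¹ ∈ H :=
      (Subgroup.mem_normalizer_iff.mp hg _).mp (inv_mem a.2)
    have h2 := mul_mem (mul_mem a.2 b.2) h1
    convert h2 using 1
    group
  let Φ : (H ⧸ C) × C → H := fun qc => ⟨_, hmem qc.1.out qc.2⟩
  have hinj : Function.Injective Φ := by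
    rintro ⟨q, c⟩ ⟨q', c'⟩ heq
    have e1 : (q.out : G) * (((c : H) : G) * g) * (q.out : G)⁻¹ =
        (q'.out : G) * (((c' : H) : G) * g) * (q'.out : G)⁻¹ :=
      mul_right_cancel (congrArg Subtype.val heq)
    set y : G := (q'.out : G)⁻¹ * (q.out : G) with hy
    have e2 : y * (((c : H) : G) * g) * y⁻¹ = ((c' : H) : G) * g := by
      calc y * (((c : H) : G) * g) * y⁻¹
          = (q'.out : G)⁻¹ * ((q.out : G) * (((c : H) : G) * g) * (q.out : G)⁻¹) * (q'.out : G) := by
            rw [hy]; group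
        _ = _ := by rw [e1]; group
    obtain ⟨k, hk1, hk0⟩ := Nat.chineseRemainder hcop 1 0
    have hgk : g ^ k = g := by
      conv_rhs => rw [← pow_one g]
      exact pow_eq_pow_iff_modEq.mpr hk1
    have hck : ∀ d : C, (((d : H) : G) * g) ^ k = g := by
      intro d
      rw [Commute.mul_pow (hcC d), hgk]
      have h3 : ((d : H) : G) ^ k = 1 := by
        rw [← orderOf_dvd_iff_pow_eq_one, Subgroup.orderOf_coe]
        exact (orderOf_dvd_natCard (d : H)).trans (Nat.modEq_zero_iff_dvd.mp hk0)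
      rw [h3, one_mul]
    have e3 : y * g * y⁻¹ = g := by
      have := congrArg (· ^ k) e2
      simpa [conj_pow, hck] using this
    have hyC : y ∈ Subgroup.centralizer ({g} : Set G) := by
      rw [Subgroup.mem_centralizer_singleton_iff]
      calc y * g = (y * g * y⁻¹) * y := by group
        _ = g * y := by rw [e3]
    have hq : q' = q := by
      rw [← QuotientGroup.out_eq' q', ← QuotientGroup.out_eq' q]
      refine QuotientGroup.eq.mpr ?_
      rw [Subgroup.mem_subgroupOf]
      simpa [hy] using hyC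
    subst hq
    have hy1 : y = 1 := by rw [hy]; group
    rw [hy1] at e2
    simp only [one_mul, inv_one, mul_one, mul_left_inj] at e2
    exact Prod.ext rfl (Subtype.ext (Subtype.ext e2))
  have hbij : Function.Bijective Φ :=
    (Nat.bijective_iff_injective_and_card Φ).mpr
      ⟨hinj, by rw [Nat.card_prod, ← Subgroup.card_eq_card_quotient_mul_card_subgroup]⟩
  obtain ⟨⟨q, c⟩, hqc⟩ := hbij.2 ⟨h, hh⟩
  have hval : (q.out : G) * (((c : H) : G) * g) * (q.out : G)⁻¹ * g⁻¹ = h :=
    congrArg Subtype.val hqc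
  refine ⟨(q.out : G)⁻¹, inv_mem q.out.2, ((c : H) : G), (c : H).2, hcC c, ?_⟩
  rw [← hval]
  group

end Cfsg.Agent.S1496
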