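import Cfsg.Statements.S1499
import Cfsg.Agent.Lib.Dade.Basic
import Mathlib.Tactic

set_option autoImplicit false
open Cfsg

namespace Cfsg.Agent.S1499

open Cfsg.Agent.Lib.Dade

theorem result {G : Type*} [Group G] [Finite G] (A : Set G) (L : Subgroup G) (H : G → Subgroup G) (hD : Cfsg.DadeHypothesis A L H) (a b : G) (ha : a ∈ A) (hb : b ∈ A) : ((∃ u ∈ H a, ∃ v ∈ H b, ∃ g : G, g * (a * u) * g⁻¹ = b * v) → ∃ x ∈ L, x * a * x⁻¹ = b) ∧ Subgroup.normalizer ((fun u : G => a * u) '' (H a : Set G)) = Subgroup.centralizer ({a} : Set G) := by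
  refine ⟨?_, ?_⟩
  · rintro ⟨u, hu, v, hv, g, hg⟩
    have h := conj_eq_of_conj_mul hD ha hb hu hv hg
    obtain ⟨x, hx, hxe⟩ := hD.fusion a ha g (by rw [h]; exact hb)
    exact ⟨x, hx, hxe.trans h⟩
  · refine le_antisymm (fun g hg => ?_) (fun c hc => ?_)
    · obtain ⟨u, hu, hue⟩ := (hg (a * 1)).mp ⟨1, (H a).one_mem, rfl⟩
      have h := conj_eq_of_conj_mul hD ha ha (H a).one_mem hu hue.symm
      rw [Subgroup.mem_centralizer_singleton_iff]
      exact mul_inv_eq_iff_eq_mul.mp h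
    · have key : ∀ d ∈ Subgroup.centralizer ({a} : Set G), ∀ n ∈ (fun u : G => a * u) '' (H a : Set G),
          d * n * d⁻¹ ∈ (fun u : G => a * u) '' (H a : Set G) := by
        rintro d hd _ ⟨u, hu, rfl⟩
        refine ⟨d * u * d⁻¹, hD.conj_mem_H a ha d hd u hu, ?_⟩
        have hda : d * a = a * d := Subgroup.mem_centralizer_singleton_iff.mp hd
        show a * (d * u * d⁻¹) = d * (a * u) * d⁻¹
        calc a * (d * u * d⁻¹) = a * d * u * d⁻¹ := by group
          _ = d * a * u * d⁻¹ := by rw [hda]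
          _ = d * (a * u) * d⁻¹ := by group
      intro n
      refine ⟨key c hc n, fun hn => ?_⟩
      have := key c⁻¹ (Subgroup.inv_mem _ hc) _ hn
      rwa [show c⁻¹ * (c * n * c⁻¹) * c⁻¹⁻¹ = n by group] at this

end Cfsg.Agent.S1499
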