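import Cfsg.Statements.S1500
import Cfsg.Agent.Lib.Dade.Basic
import Mathlib.Tactic

set_option autoImplicit false
open scoped ComplexConjugate
open Cfsg

namespace Cfsg.Agent.S1500

open Cfsg.Agent.Lib.Char Cfsg.Agent.Lib.Dade

theorem result {G : Type*} [Group G] [Fintype G] (A : Set G) (L : Subgroup G) [Fintype L] (H : G → Subgroup G) (hD : Cfsg.DadeHypothesis A L H) (α : L → ℂ) (hα : Cfsg.IsClassFunction L α) (hαA : ∀ x : L, (x : G) ∉ A → α x = 0) : (∀ β : L → ℂ, Cfsg.IsClassFunction L β → (∀ x : L, (x : G) ∉ A → β x = 0) → Cfsg.classInner (Cfsg.dadeIsometry A L H α) (Cfsg.dadeIsometry A L H β) = Cfsg.classInner α β) ∧ (∀ (χ : G → ℂ) (ψ : L → ℂ), Cfsg.IsClassFunction G χ → (∀ a : L, (a : G) ∈ A → ψ a = (Nat.card (H a) : ℂ)⁻¹ * ∑ᶠ u ∈ (H a : Set G), χ (a * u)) → Cfsg.classInner (Cfsg.dadeIsometry A L H α) χ = Cfsg.classInner α ψ) := by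
  classical
  refine ⟨fun β hβ hβA => ?_, fun χ ψ hχ hψ => classInner_dade hD hα hαA hχ hψ⟩
  refine classInner_dade hD hα hαA (isClassFunction_dade hD hβ) fun a ha => ?_
  have hconst : ∀ u ∈ H (a : G), dadeIsometry A L H β ((a : G) * u) = β a := fun u hu =>
    dade_apply hD hβ ha hu (x := 1) (by simp)
  rw [avgH, finsum_mem_eq_toFinset_sum,
    Finset.sum_congr rfl (g := fun _ => β a) fun u hu => hconst u (by simpa using hu),
    Finset.sum_const, nsmul_eq_mul, ← mul_assoc, ← Set.ncard_eq_toFinset_card',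
    ← Nat.card_coe_set_eq, show Nat.card (H (a : G) : Set G) = Nat.card (H (a : G)) from rfl,
    inv_mul_cancel₀ (card_ne_zero_complex _), one_mul]

end Cfsg.Agent.S1500
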