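import Cfsg.Statements.S1501
import Cfsg.Agent.Lib.Dade.Virtual

set_option autoImplicit false
open Cfsg

namespace Cfsg.Agent.S1501

theorem result {G : Type*} [Group G] [Fintype G] (A : Set G) (L : Subgroup G) [Fintype L] (H : G → Subgroup G) (hD : Cfsg.DadeHypothesis A L H) (α : L → ℂ) (hα : Cfsg.IsGeneralizedCharacter L α) (hαA : ∀ x : L, (x : G) ∉ A → α x = 0) : Cfsg.IsGeneralizedCharacter G (Cfsg.dadeIsometry A L H α) := by
  exact Lib.Dade.isGeneralizedCharacter_dade hD hα hαA

end Cfsg.Agent.S1501
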