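import Cfsg.Statements.S1502
import Cfsg.Agent.Lib.CharClifford.CyclicTIGrid
import Cfsg.Agent.Lib.CharClifford.TripleGrid
import Cfsg.Agent.Lib.Dade.Lattice
import Cfsg.Agent.Lib.Involution.Exceptional
import Mathlib.Tactic

set_option autoImplicit false
open scoped ComplexConjugate
open Cfsg

namespace Cfsg.Agent.S1502

open Cfsg.Agent.Lib.Char Cfsg.Agent.Lib.CharClifford Cfsg.Agent.Lib.Dade
open Cfsg.Agent.Lib.CharClifford.TripleGrid (op Meet Skew coef)

variable {G : Type*} [Group G] [Fintype G] {W₁ W₂ : Subgroup G}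

/-- The sign of a signed character. -/
def sgn (b : Bool) : ℤ := if b then 1 else -1

/-- A signed irreducible character as a function. -/
def sfun (u : IrrCharacter G × Bool) : G → ℂ := (sgn u.2 : ℂ) • (u.1 : G → ℂ)

omit [Fintype G] in
theorem sfun_op (u : IrrCharacter G × Bool) : sfun (op u) = -sfun u := by
  obtain ⟨μ, b⟩ := u
  cases b <;> simp [sfun, op, sgn]

theorem classInner_sfun (u v : IrrCharacter G × Bool) (h : u.1 ≠ v.1) :
    classInner (sfun u) (sfun v) = 0 := by
  rw [sfun, sfun, classInner_smul_left, classInner_smul_right,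
    classInner_irr_ne u.1.2 v.1.2 (fun e => h (Subtype.ext e)), mul_zero, mul_zero]

theorem classInner_sfun_self (u : IrrCharacter G × Bool) : classInner (sfun u) (sfun u) = 1 := by
  rw [sfun, classInner_smul_left, classInner_smul_right, classInner_irr_self u.1.2]
  cases u.2 <;> simp [sgn]

/-- The inner product of two linear combinations on the grid. -/
theorem classInner_tiFun_linear [Fintype ↥(W₁ ⊔ W₂)] (hdisj : W₁ ⊓ W₂ = ⊥)
    (hcomm : ∀ a ∈ W₁, ∀ b ∈ W₂, a * b = b * a)
    [DecidableEq (leftHoms W₁ W₂)] [DecidableEq (rightHoms W₁ W₂)]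
    (φ φ' : leftHoms W₁ W₂) (ψ ψ' : rightHoms W₁ W₂) :
    classInner (tiFun φ.1 ψ.1) (fun w => (gridEquiv hdisj hcomm (φ', ψ') w : ℂ)) =
      ((if φ' = 1 then 1 else 0) - (if φ' = φ then 1 else 0)) *
        ((if ψ' = 1 then 1 else 0) - (if ψ' = ψ then 1 else 0)) := by
  classical
  have e1 : (1 : ↥(W₁ ⊔ W₂) →* ℂˣ) = gridEquiv hdisj hcomm (1, 1) := by
    rw [gridEquiv_apply]; exact MonoidHom.ext fun w => by simp
  have e2 : φ.1 = gridEquiv hdisj hcomm (φ, 1) := by
    rw [gridEquiv_apply]; exact MonoidHom.ext fun w => by simp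
  have e3 : ψ.1 = gridEquiv hdisj hcomm (1, ψ) := by
    rw [gridEquiv_apply]; exact MonoidHom.ext fun w => by simp
  have e4 : φ.1 * ψ.1 = gridEquiv hdisj hcomm (φ, ψ) := (gridEquiv_apply _ _ _ _).symm
  rw [tiFun_eq, classInner_add_left, classInner_sub_left, classInner_sub_left, classInner_linear,
    classInner_linear, classInner_linear, classInner_linear, e1, e4]
  rw [show (φ.1 = gridEquiv hdisj hcomm (φ', ψ')) = ((φ, (1 : rightHoms W₁ W₂)) = (φ', ψ')) by
      conv_lhs => rw [e2]
      exact propext (gridEquiv hdisj hcomm).injective.eq_iff,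
    show (ψ.1 = gridEquiv hdisj hcomm (φ', ψ')) = (((1 : leftHoms W₁ W₂), ψ) = (φ', ψ')) by
      conv_lhs => rw [e3]
      exact propext (gridEquiv hdisj hcomm).injective.eq_iff]
  simp only [(gridEquiv hdisj hcomm).injective.eq_iff, Prod.mk.injEq]
  simp only [eq_comm (a := φ') , eq_comm (a := ψ')]
  by_cases a1 : 1 = φ' <;> by_cases a2 : φ = φ' <;> by_cases b1 : 1 = ψ' <;> by_cases b2 : ψ = ψ' <;>
    simp [a1, a2, b1, b2]

theorem classInner_tiFun_tiFun [Fintype ↥(W₁ ⊔ W₂)] (hdisj : W₁ ⊓ W₂ = ⊥)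
    (hcomm : ∀ a ∈ W₁, ∀ b ∈ W₂, a * b = b * a)
    [DecidableEq (leftHoms W₁ W₂)] [DecidableEq (rightHoms W₁ W₂)]
    {φ φ' : leftHoms W₁ W₂} {ψ ψ' : rightHoms W₁ W₂}
    (h1 : φ ≠ 1) (h2 : φ' ≠ 1) (h3 : ψ ≠ 1) (h4 : ψ' ≠ 1) :
    classInner (tiFun φ.1 ψ.1) (tiFun φ'.1 ψ'.1) =
      (1 + if φ' = φ then 1 else 0) * (1 + if ψ' = ψ then 1 else 0) := by
  classical
  have e : ∀ (a : leftHoms W₁ W₂) (b : rightHoms W₁ W₂),
      classInner (tiFun φ.1 ψ.1) (fun w => ((a.1 * b.1) w : ℂ)) =
        ((if a = 1 then 1 else 0) - (if a = φ then 1 else 0)) *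
          ((if b = 1 then 1 else 0) - (if b = ψ then 1 else 0)) := fun a b => by
    rw [← gridEquiv_apply hdisj hcomm a b]; exact classInner_tiFun_linear hdisj hcomm φ a ψ b
  conv_lhs => rw [tiFun_eq φ'.1]
  rw [classInner_add_right, classInner_sub_right, classInner_sub_right, e]
  have a1 := e 1 1
  have a2 := e φ' 1
  have a3 := e 1 ψ'
  rw [show (1 : leftHoms W₁ W₂).1 * (1 : rightHoms W₁ W₂).1 = 1 from
    MonoidHom.ext fun w => by simp] at a1
  rw [show φ'.1 * (1 : rightHoms W₁ W₂).1 = φ'.1 from MonoidHom.ext fun w => by simp] at a2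
  rw [show (1 : leftHoms W₁ W₂).1 * ψ'.1 = ψ'.1 from MonoidHom.ext fun w => by simp] at a3
  rw [a1, a2, a3]
  simp only [if_true, if_neg h2, if_neg h4, if_neg h1.symm, if_neg h3.symm]
  ring

theorem result {G : Type*} [Group G] [Fintype G] (W₁ W₂ : Subgroup G) (hW : Cfsg.IsSelfNormalizingCyclic W₁ W₂) (hodd : Odd (Nat.card ↥(W₁ ⊔ W₂))) : ∃ χ : (↥(W₁ ⊔ W₂) →* ℂˣ) → (G → ℂ), Cfsg.IsCyclicTIFamily W₁ W₂ χ := by
  classical
  obtain ⟨-, -, hdisj, hcomm, -, -⟩ := id hW
  have hD := dadeHypothesis_cyclic hW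
  have := Fintype.ofFinite ↥(W₁ ⊔ W₂)
  have := finite_homs hW
  have := Fintype.ofFinite (leftHoms W₁ W₂)
  have := Fintype.ofFinite (rightHoms W₁ W₂)
  let e := gridEquiv hdisj hcomm
  let one : IrrCharacter G := ⟨_, isIrrCharacter_one⟩
  let R := {φ : leftHoms W₁ W₂ // φ ≠ 1}
  let C := {ψ : rightHoms W₁ W₂ // ψ ≠ 1}
  let β : R → C → G → ℂ := fun i j => indFun (W₁ ⊔ W₂) (tiFun i.1.1 j.1.1) - (one : G → ℂ)
  have hsupp : ∀ (φ : leftHoms W₁ W₂) (ψ : rightHoms W₁ W₂) (w : ↥(W₁ ⊔ W₂)),
      (w : G) ∉ cyclicV W₁ W₂ → tiFun φ.1 ψ.1 w = 0 := by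
    intro φ ψ w hw
    refine tiFun_eq_zero φ.2 ψ.2 ?_
    by_contra h
    rw [not_or] at h
    exact hw (mem_cyclicV.mpr ⟨w.2, h.1, h.2⟩)
  have hindV : ∀ (φ : leftHoms W₁ W₂) (ψ : rightHoms W₁ W₂) (w : ↥(W₁ ⊔ W₂)),
      (w : G) ∈ cyclicV W₁ W₂ → indFun (W₁ ⊔ W₂) (tiFun φ.1 ψ.1) w = tiFun φ.1 ψ.1 w := by
    intro φ ψ w hw
    rw [indFun_eq_dade hD (isClassFunction_W hW _) (hsupp φ ψ)]
    exact dade_apply hD (isClassFunction_W hW _) (x := 1) hw (Subgroup.one_mem _) (by group)
  have hindInner : ∀ (φ φ' : leftHoms W₁ W₂) (ψ ψ' : rightHoms W₁ W₂),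
      classInner (indFun (W₁ ⊔ W₂) (tiFun φ.1 ψ.1)) (indFun (W₁ ⊔ W₂) (tiFun φ'.1 ψ'.1)) =
        classInner (tiFun φ.1 ψ.1) (tiFun φ'.1 ψ'.1) := by
    intro φ φ' ψ ψ'
    rw [classInner_indFun _ _ (isClassFunction_indFun _ _), classInner, classInner]
    congr 1
    refine Finset.sum_congr rfl fun w _ => ?_
    by_cases hw : (w : G) ∈ cyclicV W₁ W₂
    · rw [hindV φ' ψ' w hw]
    · rw [hsupp φ ψ w hw, zero_mul, zero_mul]
  have e11 : e (1, 1) = 1 := by
    rw [gridEquiv_apply]; exact MonoidHom.ext fun w => by simp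
  have hindOne : ∀ (i : R) (j : C),
      classInner (indFun (W₁ ⊔ W₂) (tiFun i.1.1 j.1.1)) (one : G → ℂ) = 1 := by
    intro i j
    rw [classInner_indFun _ _ (isClassFunction_of_isIrr one.2)]
    have h := classInner_tiFun_linear hdisj hcomm i.1 1 j.1 1
    rw [e11, if_pos rfl, if_neg (Ne.symm i.2), if_pos rfl, if_neg (Ne.symm j.2)] at h
    simpa using h
  have hβinner : ∀ (i i' : R) (j j' : C), classInner (β i j) (β i' j') =
      (1 + if i' = i then 1 else 0) * (1 + if j' = j then 1 else 0) - 1 := by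
    intro i i' j j'
    simp only [β]
    rw [classInner_sub_left, classInner_sub_right, classInner_sub_right, hindInner, hindOne i j,
      classInner_conj_symm (indFun (W₁ ⊔ W₂) (tiFun i'.1.1 j'.1.1)) (one : G → ℂ), hindOne i' j',
      classInner_irr_self one.2, classInner_tiFun_tiFun hdisj hcomm i.2 i'.2 j.2 j'.2, map_one,
      if_congr (Subtype.ext_iff (a1 := i') (a2 := i)).symm rfl rfl,
      if_congr (Subtype.ext_iff (a1 := j') (a2 := j)).symm rfl rfl]
    ring
  have hβgen : ∀ i j, IsGeneralizedCharacter G (β i j) := by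
    intro i j
    refine generalized_sub (Cfsg.Agent.Lib.Involution.isGeneralized_indFun _ ?_)
      (generalized_of_isCharacter (isCharacter_of_isIrr one.2))
    have hl : ∀ l : ↥(W₁ ⊔ W₂) →* ℂˣ, IsGeneralizedCharacter ↥(W₁ ⊔ W₂) (fun w => (l w : ℂ)) :=
      fun l => generalized_of_isCharacter (isCharacter_of_isIrr (isIrrCharacter_linear l))
    rw [tiFun_eq]
    exact generalized_add (generalized_sub (generalized_sub (hl _) (hl _)) (hl _)) (hl _)
  have hβone : ∀ i j, classInner (β i j) (one : G → ℂ) = 0 := fun i j => by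
    simp only [β]
    rw [classInner_sub_left, hindOne, classInner_irr_self one.2, sub_self]
  have hβat : ∀ i j, β i j 1 = -1 := by
    intro i j
    simp only [β, Pi.sub_apply]
    rw [indFun_eq_dade hD (isClassFunction_W hW _) (hsupp _ _), dade_eq_zero hD _ (not_inSupp_one hD)]
    show (0 : ℂ) - 1 = -1
    ring
  choose z hz using fun i j => generalized_classInner_int (hβgen i j)
  have hzz : ∀ i i' j j', (∑ χ, z i j χ * z i' j' χ : ℤ) =
      (1 + if i' = i then 1 else 0) * (1 + if j' = j then 1 else 0) - 1 := by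
    intro i i' j j'
    have h := classInner_eq_sum (φ := β i j) (isClassFunction_of_generalized (hβgen i' j'))
    rw [hβinner] at h
    simp only [hz, map_intCast] at h
    exact_mod_cast h.symm
  let S : R → C → Finset (IrrCharacter G × Bool) := fun i j =>
    Finset.univ.filter fun u => z i j u.1 = sgn u.2
  have hz01 : ∀ i j χ, z i j χ = 1 ∨ z i j χ = -1 ∨ z i j χ = 0 := by
    intro i j χ
    have hn := hzz i i j j
    simp only [if_true] at hn
    have h1 := Finset.single_le_sum (f := fun χ => z i j χ * z i j χ)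
      (fun ψ _ => mul_self_nonneg _) (Finset.mem_univ χ)
    rw [hn] at h1
    have h2 : z i j χ < 2 := by nlinarith
    have h3 : -2 < z i j χ := by nlinarith
    omega
  have hSmem : ∀ i j u, u ∈ S i j ↔ z i j u.1 = sgn u.2 := fun i j u => by simp [S]
  have hcoef : ∀ i j χ, coef (S i j) (χ, true) = z i j χ := by
    intro i j χ
    simp only [coef, hSmem, op, sgn]
    rcases hz01 i j χ with h | h | h <;> simp [h]
  have hS1 : ∀ i j, ∀ u ∈ S i j, op u ∉ S i j := by
    rintro i j ⟨μ, b⟩ hu hu'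
    simp only [hSmem, op, sgn] at hu hu'
    cases b <;> simp [hu] at hu'
  have hsumS : ∀ i j (F : IrrCharacter G → ℂ),
      ∑ u ∈ S i j, (sgn u.2 : ℂ) * F u.1 = ∑ χ, (z i j χ : ℂ) * F χ := by
    intro i j F
    rw [Finset.sum_filter, Fintype.sum_prod_type]
    refine Finset.sum_congr rfl fun χ _ => ?_
    rw [Fintype.sum_bool]
    simp only [sgn, Bool.false_eq_true, if_true, if_false]
    rcases hz01 i j χ with h | h | h <;> simp [h]
  have hsumz : ∀ i j (F : IrrCharacter G → ℤ),
      ∑ u ∈ S i j, sgn u.2 * F u.1 = ∑ χ, z i j χ * F χ := by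
    intro i j F
    have h := hsumS i j fun χ => (F χ : ℂ)
    exact_mod_cast h
  have hS3 : ∀ i j, (S i j).card = 3 := by
    intro i j
    have h := hsumz i j (z i j)
    rw [hzz i i j j, Finset.sum_congr rfl (fun u hu => by
      rw [(Finset.mem_filter.mp hu).2]) , Finset.sum_congr rfl (fun u _ => show sgn u.2 * sgn u.2 = 1 by
      cases u.2 <;> simp [sgn])] at h
    simp only [Finset.sum_const, nsmul_eq_mul, mul_one, if_true] at h
    exact_mod_cast (h.trans (by norm_num) : ((S i j).card : ℤ) = 3)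
  have hcard : ∀ i i' j j', ((S i j ∩ S i' j').card : ℤ) -
      (((S i j).filter fun u => op u ∈ S i' j').card : ℤ) = ∑ χ, z i j χ * z i' j' χ := by
    intro i i' j j'
    rw [← TripleGrid.sum_coef, ← hsumz i j (z i' j')]
    refine Finset.sum_congr rfl fun u _ => ?_
    obtain ⟨μ, b⟩ := u
    cases b
    · have h := hcoef i' j' μ
      simp only [coef, op, Bool.not_true] at h
      simp only [coef, op, sgn, Bool.not_false, Bool.false_eq_true, if_false]
      linarith
    · simp only [sgn, if_true, one_mul]; exact hcoef i' j' μ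
  have hval : ∀ i j, ∑ u ∈ S i j, sgn u.2 * (charDegree (u.1 : G → ℂ) : ℤ) = -1 := by
    intro i j
    rw [hsumz i j fun χ => (charDegree (χ : G → ℂ) : ℤ)]
    have h := congrFun (eq_sum_classInner_smul (isClassFunction_of_generalized (hβgen i j))) 1
    simp only [Finset.sum_apply, Pi.smul_apply, smul_eq_mul, hz, hβat] at h
    rw [Finset.sum_congr rfl fun χ _ => by
      rw [apply_one_eq_charDegree (isCharacter_of_isIrr χ.2)]] at h
    exact_mod_cast h.symm
  have hmeet : ∀ i i' j j', (∑ χ, z i j χ * z i' j' χ) = 1 → Meet (S i j) (S i' j') := by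
    intro i i' j j' h1
    have h := hcard i i' j j'
    rw [h1] at h
    set P := S i j ∩ S i' j' with hP
    set Q := (S i j).filter fun u => op u ∈ S i' j' with hQ
    have hdis : Disjoint P Q := Finset.disjoint_left.mpr fun u hu hu' =>
      hS1 i' j' u (Finset.mem_inter.mp hu).2 (Finset.mem_filter.mp hu').2
    have hPQ : P ∪ Q ⊆ S i j := Finset.union_subset Finset.inter_subset_left (Finset.filter_subset _ _)
    have hle := Finset.card_le_card hPQ
    rw [Finset.card_union_of_disjoint hdis, hS3] at hle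
    by_cases hQ0 : Q = ∅
    · rw [hQ0, Finset.card_empty] at h
      refine ⟨?_, fun u hu => Finset.filter_eq_empty_iff.mp hQ0 hu⟩
      show P.card = 1
      omega
    exfalso
    have hQpos : 0 < Q.card := Finset.card_pos.mpr (Finset.nonempty_iff_ne_empty.mpr hQ0)
    have hQ1 : Q.card = 1 := by omega
    obtain ⟨u, hu⟩ := Finset.card_eq_one.mp hQ1
    have hSu : S i j = P ∪ {u} := by
      rw [← hu]
      exact (Finset.eq_of_subset_of_card_le hPQ
        (by rw [Finset.card_union_of_disjoint hdis, hS3]; omega)).symm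
    have huQ : u ∈ Q := hu ▸ Finset.mem_singleton_self u
    have hnot : op u ∉ P := fun hh =>
      hS1 i j u (Finset.mem_filter.mp huQ).1 (Finset.mem_inter.mp hh).1
    have hSu' : S i' j' = P ∪ {op u} := by
      refine (Finset.eq_of_subset_of_card_le (Finset.union_subset Finset.inter_subset_right
        (Finset.singleton_subset_iff.mpr (Finset.mem_filter.mp huQ).2)) ?_).symm
      rw [Finset.card_union_of_disjoint (Finset.disjoint_singleton_right.mpr hnot),
        Finset.card_singleton, hS3]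
      omega
    have hv := hval i j
    have hv' := hval i' j'
    have hnu : u ∉ P := Finset.disjoint_right.mp hdis huQ
    rw [hSu, Finset.sum_union (Finset.disjoint_singleton_right.mpr hnu), Finset.sum_singleton] at hv
    rw [hSu', Finset.sum_union (Finset.disjoint_singleton_right.mpr hnot), Finset.sum_singleton] at hv'
    have hpos : (0 : ℤ) < (charDegree (u.1 : G → ℂ) : ℤ) := by exact_mod_cast charDegree_pos u.1.2
    obtain ⟨μ, b⟩ := u
    cases b <;> simp [op, sgn] at hv hv' hpos <;> omega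
  obtain ⟨w₁, w₂, o₁, o₂⟩ := three_le hW hodd
  have hR : Fintype.card R = Nat.card W₁ - 1 := by
    rw [← card_leftHoms hW, Nat.card_eq_fintype_card, Fintype.card_subtype_compl,
      Fintype.card_subtype_eq]
  have hC : Fintype.card C = Nat.card W₂ - 1 := by
    rw [← card_rightHoms hW, Nat.card_eq_fintype_card, Fintype.card_subtype_compl,
      Fintype.card_subtype_eq]
  obtain ⟨a, b, c, hSabc, hinj⟩ := TripleGrid.exists_grid S hS3 hS1
    (fun i j j' h => hmeet i i j j' (by rw [hzz, if_pos rfl, if_neg h.symm]; norm_num))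
    (fun i i' j h => hmeet i i' j j (by rw [hzz, if_pos rfl, if_neg h.symm]; norm_num))
    (fun i i' j j' h h' => by
      have hh := hcard i i' j j'
      rw [hzz, if_neg h.symm, if_neg h'.symm] at hh
      show (S i j ∩ S i' j').card = _
      omega)
    (by rw [hR]; obtain ⟨k, hk⟩ := o₁; omega) (by rw [hC]; obtain ⟨k, hk⟩ := o₂; omega)
    (by
      rw [hR, hC]
      have hne : Nat.card W₁ ≠ Nat.card W₂ := fun hh => by
        have := coprime_cards hW
        rw [hh, Nat.coprime_self] at this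
        omega
      obtain ⟨k, hk⟩ := o₁; obtain ⟨l, hl⟩ := o₂; omega)
  let M : leftHoms W₁ W₂ × rightHoms W₁ W₂ → IrrCharacter G × Bool := fun p =>
    if h1 : p.1 = 1 then (if h2 : p.2 = 1 then (one, true) else op (b ⟨p.2, h2⟩))
    else (if h2 : p.2 = 1 then op (a ⟨p.1, h1⟩) else c ⟨p.1, h1⟩ ⟨p.2, h2⟩)
  have hcomb : ∀ i j, β i j = sfun (a i) + sfun (b j) + sfun (c i j) := by
    intro i j
    funext g
    have h := congrFun (eq_sum_classInner_smul (isClassFunction_of_generalized (hβgen i j))) g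
    simp only [Finset.sum_apply, Pi.smul_apply, smul_eq_mul, hz] at h
    rw [h, ← hsumS i j fun χ => (χ : G → ℂ) g, hSabc i j]
    have hca := hS3 i j
    rw [hSabc i j] at hca
    have n1 : a i ∉ ({b j, c i j} : Finset (IrrCharacter G × Bool)) := by
      intro hh
      rw [Finset.insert_eq_of_mem hh] at hca
      have := Finset.card_le_two (a := b j) (b := c i j)
      omega
    have n2 : b j ≠ c i j := fun hh => by
      rw [hh] at hca
      simp only [Finset.insert_eq_of_mem (Finset.mem_singleton_self (c i j))] at hca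
      have := Finset.card_le_two (a := a i) (b := c i j)
      omega
    rw [Finset.sum_insert n1, Finset.sum_pair n2]
    simp only [sfun, Pi.add_apply, Pi.smul_apply, smul_eq_mul, add_assoc]
  have hne1 : ∀ i j u, u ∈ S i j → u.1 ≠ one := by
    intro i j u hu heq
    have h := hz i j one
    rw [hβone] at h
    have h0 : z i j one = 0 := by exact_mod_cast h.symm
    have hu' := (Finset.mem_filter.mp hu).2
    rw [heq, h0] at hu'
    revert hu'
    cases u.2 <;> simp [sgn]
  have iR : R := (Fintype.card_pos_iff.mp (by rw [hR]; omega)).some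
  have jC : C := (Fintype.card_pos_iff.mp (by rw [hC]; omega)).some
  have na : ∀ i, (a i).1 ≠ one := fun i => hne1 i jC _ (by rw [hSabc]; simp)
  have nb : ∀ j, (b j).1 ≠ one := fun j => hne1 iR j _ (by rw [hSabc]; simp)
  have nc : ∀ i j, (c i j).1 ≠ one := fun i j => hne1 i j _ (by rw [hSabc]; simp)
  have hM : ∀ p q, (M p).1 = (M q).1 → p = q := by
    rintro ⟨φ, ψ⟩ ⟨φ', ψ'⟩ h
    have kaa : ∀ i i', (a i).1 = (a i').1 → i = i' := fun i i' e =>
      Sum.inl_injective (hinj (a₁ := Sum.inl i) (a₂ := Sum.inl i') e)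
    have kbb : ∀ j j', (b j).1 = (b j').1 → j = j' := fun j j' e =>
      Sum.inl_injective (Sum.inr_injective (hinj (a₁ := Sum.inr (Sum.inl j)) (a₂ := Sum.inr (Sum.inl j')) e))
    have kcc : ∀ i j i' j', (c i j).1 = (c i' j').1 → (i, j) = (i', j') := fun i j i' j' e =>
      Sum.inr_injective (Sum.inr_injective
        (hinj (a₁ := Sum.inr (Sum.inr (i, j))) (a₂ := Sum.inr (Sum.inr (i', j'))) e))
    have kab : ∀ i j, (a i).1 ≠ (b j).1 := fun i j e =>
      Sum.inl_ne_inr (hinj (a₁ := Sum.inl i) (a₂ := Sum.inr (Sum.inl j)) e)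
    have kac : ∀ i i' j, (a i).1 ≠ (c i' j).1 := fun i i' j e =>
      Sum.inl_ne_inr (hinj (a₁ := Sum.inl i) (a₂ := Sum.inr (Sum.inr (i', j))) e)
    have kbc : ∀ j i j', (b j).1 ≠ (c i j').1 := fun j i j' e =>
      Sum.inl_ne_inr (Sum.inr_injective
        (hinj (a₁ := Sum.inr (Sum.inl j)) (a₂ := Sum.inr (Sum.inr (i, j'))) e))
    by_cases h1 : φ = 1 <;> by_cases h2 : ψ = 1 <;> by_cases h3 : φ' = 1 <;> by_cases h4 : ψ' = 1 <;>
      simp only [M, h1, h2, h3, h4, dite_true, dite_false, op] at h ⊢ <;>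
      first
        | (subst h1 h2 h3 h4; rfl)
        | exact absurd h (na _)
        | exact absurd h.symm (na _)
        | exact absurd h (nb _)
        | exact absurd h.symm (nb _)
        | exact absurd h (nc _ _)
        | exact absurd h.symm (nc _ _)
        | exact absurd h (kab _ _)
        | exact absurd h.symm (kab _ _)
        | exact absurd h (kac _ _ _)
        | exact absurd h.symm (kac _ _ _)
        | exact absurd h (kbc _ _ _)
        | exact absurd h.symm (kbc _ _ _)
        | exact Prod.ext (congrArg Subtype.val (kaa _ _ h)) rfl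
        | exact Prod.ext rfl (congrArg Subtype.val (kbb _ _ h))
        | exact Prod.ext (congrArg (fun k => k.1.1) (kcc _ _ _ _ h))
            (congrArg (fun k => k.2.1) (kcc _ _ _ _ h))
  let χ : (↥(W₁ ⊔ W₂) →* ℂˣ) → G → ℂ := fun ω => sfun (M (e.symm ω))
  have hχe : ∀ p, χ (e p) = sfun (M p) := fun p => by simp only [χ, Equiv.symm_apply_apply]
  have hχ1 : χ 1 = fun _ => 1 := by
    rw [← e11, hχe]
    simp only [M, dite_true, sfun, sgn, if_true, Int.cast_one, one_smul]
    rfl
  have horth : ∀ ω ω', classInner (χ ω) (χ ω') = if ω = ω' then 1 else 0 := by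
    intro ω ω'
    obtain ⟨p, rfl⟩ := e.surjective ω
    obtain ⟨q, rfl⟩ := e.surjective ω'
    rw [hχe, hχe]
    by_cases h : p = q
    · rw [h, if_pos rfl, classInner_sfun_self]
    · rw [if_neg (e.injective.ne h), classInner_sfun _ _ (fun hh => h (hM _ _ hh))]
  have hind : ∀ φ ψ : ↥(W₁ ⊔ W₂) →* ℂˣ, φ ≠ 1 → ψ ≠ 1 → ∀ hφ : φ ∈ leftHoms W₁ W₂,
      ∀ hψ : ψ ∈ rightHoms W₁ W₂,
      indFun (W₁ ⊔ W₂) (tiFun φ ψ) = χ 1 - χ φ - χ ψ + χ (φ * ψ) := by
    intro φ ψ h1 h2 hφ hψ
    set i : R := ⟨⟨φ, hφ⟩, fun h => h1 (congrArg Subtype.val h)⟩ with hi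
    set j : C := ⟨⟨ψ, hψ⟩, fun h => h2 (congrArg Subtype.val h)⟩ with hj
    have hb : indFun (W₁ ⊔ W₂) (tiFun φ ψ) = β i j + (one : G → ℂ) := (sub_add_cancel _ _).symm
    have cφ : χ φ = -sfun (a i) := by
      rw [show φ = e (i.1, 1) from MonoidHom.ext fun w => by
        show φ w = φ w * 1; rw [mul_one], hχe]
      simp only [M, dite_true, dif_neg i.2]
      exact sfun_op _
    have cψ : χ ψ = -sfun (b j) := by
      rw [show ψ = e (1, j.1) from MonoidHom.ext fun w => by
        show ψ w = 1 * ψ w; rw [one_mul], hχe]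
      simp only [M, dite_true, dif_neg j.2]
      exact sfun_op _
    have cφψ : χ (φ * ψ) = sfun (c i j) := by
      rw [show φ * ψ = e (i.1, j.1) from (gridEquiv_apply hdisj hcomm i.1 j.1).symm, hχe]
      simp only [M, dif_neg i.2, dif_neg j.2]
      rfl
    rw [hb, hcomb, hχ1, cφ, cψ, cφψ]
    show _ + (fun _ => (1 : ℂ)) = _
    abel
  refine ⟨χ, fun ω => ?_, fun a b => by rw [horth]; congr, hχ1, fun ω w hw1 hw2 => ?_, fun φ ψ h1 h2 hφ hψ => ?_⟩
  · simp only [χ, sfun]
    cases (M (e.symm ω)).2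
    · right; simpa [sgn] using (M (e.symm ω)).1.2
    · left; simpa [sgn] using (M (e.symm ω)).1.2
  · refine sub_eq_zero.mp (eq_zero_of_orth_tiFun hW (fun v => χ ω v - (ω v : ℂ))
      (fun φ ψ h1 h2 => ?_) hw1 hw2)
    have hcf : IsClassFunction G (χ ω) := fun g h => by
      simp only [χ, sfun, Pi.smul_apply, isClassFunction_of_isIrr (M (e.symm ω)).1.2 g h]
    have A : classInner (fun v : ↥(W₁ ⊔ W₂) => χ ω v) (tiFun φ.1 ψ.1) =
        classInner (fun v => (ω v : ℂ)) (tiFun φ.1 ψ.1) := by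
      rw [← classInner_indFun_right _ _ hcf, hind φ.1 ψ.1 h1 h2 φ.2 ψ.2, classInner_add_right,
        classInner_sub_right, classInner_sub_right, tiFun_eq, classInner_add_right,
        classInner_sub_right, classInner_sub_right, classInner_linear, classInner_linear,
        classInner_linear, classInner_linear, horth, horth, horth, horth]
      congr!
    have B : classInner (fun v : ↥(W₁ ⊔ W₂) => χ ω v - (ω v : ℂ)) (tiFun φ.1 ψ.1) = 0 := by
      rw [show (fun v : ↥(W₁ ⊔ W₂) => χ ω v - (ω v : ℂ)) =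
        (fun v : ↥(W₁ ⊔ W₂) => χ ω v) - fun v => (ω v : ℂ) from rfl, classInner_sub_left, A, sub_self]
    rw [classInner, mul_eq_zero] at B
    exact B.resolve_left (inv_ne_zero (card_ne_zero_complex _))
  · have h := hind φ ψ h1 h2 hφ hψ
    rw [hχ1] at h
    exact h

end Cfsg.Agent.S1502
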