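import Cfsg.Statements.S1503
import Cfsg.Agent.Lib.CharClifford.CyclicTI
import Cfsg.Agent.Lib.Char.Induced
import Mathlib.Tactic

set_option autoImplicit false
open scoped ComplexConjugate
open Cfsg

namespace Cfsg.Agent.S1503

open Cfsg.Agent.Lib.Char Cfsg.Agent.Lib.CharClifford

theorem result {G : Type*} [Group G] [Fintype G] (W₁ W₂ : Subgroup G) (hW : Cfsg.IsSelfNormalizingCyclic W₁ W₂) (χ : (↥(W₁ ⊔ W₂) →* ℂˣ) → (G → ℂ)) (hχ : Cfsg.IsCyclicTIFamily W₁ W₂ χ) (θ : G → ℂ) (hθ : Cfsg.IsIrrCharacter G θ) (horth : ∀ ω, Cfsg.classInner θ (χ ω) = 0) (w : ↥(W₁ ⊔ W₂)) (hw₁ : (w : G) ∉ W₁) (hw₂ : (w : G) ∉ W₂) : θ w = 0 := by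
  classical
  obtain ⟨-, -, hdisj, hcomm, hcyc, -⟩ := hW
  letI : CommGroup ↥(W₁ ⊔ W₂) :=
    { (inferInstance : Group ↥(W₁ ⊔ W₂)) with
      mul_comm := fun a b => by
        obtain ⟨c, hc⟩ := hcyc.exists_generator
        obtain ⟨i, rfl⟩ := Subgroup.mem_zpowers_iff.mp (hc a)
        obtain ⟨j, rfl⟩ := Subgroup.mem_zpowers_iff.mp (hc b)
        exact zpow_mul_comm c i j }
  have := Fintype.ofFinite ↥(W₁ ⊔ W₂)
  have hfin : Finite (↥(W₁ ⊔ W₂) →* ℂˣ) := Finite.of_injective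
    (fun l => (⟨fun w => (l w : ℂ), isIrrCharacter_linear l⟩ : IrrCharacter ↥(W₁ ⊔ W₂)))
    fun a b h => MonoidHom.ext fun w => Units.ext (congrFun (congrArg Subtype.val h) w)
  let D₁ : Subgroup (↥(W₁ ⊔ W₂) →* ℂˣ) :=
    { carrier := {φ | ∀ w : ↥(W₁ ⊔ W₂), (w : G) ∈ W₂ → φ w = 1}
      one_mem' := fun _ _ => rfl
      mul_mem' := fun ha hb w hw => by rw [MonoidHom.mul_apply, ha w hw, hb w hw, one_mul]
      inv_mem' := fun ha w hw => by rw [MonoidHom.inv_apply, ha w hw, inv_one] }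
  let D₂ : Subgroup (↥(W₁ ⊔ W₂) →* ℂˣ) :=
    { carrier := {φ | ∀ w : ↥(W₁ ⊔ W₂), (w : G) ∈ W₁ → φ w = 1}
      one_mem' := fun _ _ => rfl
      mul_mem' := fun ha hb w hw => by rw [MonoidHom.mul_apply, ha w hw, hb w hw, one_mul]
      inv_mem' := fun ha w hw => by rw [MonoidHom.inv_apply, ha w hw, inv_one] }
  have := Fintype.ofFinite D₁
  have := Fintype.ofFinite D₂
  have horthD : ∀ (D : Subgroup (↥(W₁ ⊔ W₂) →* ℂˣ)) [Fintype D] (u : ↥(W₁ ⊔ W₂)),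
      (∃ φ ∈ D, φ u ≠ 1) → ∑ φ : D, ((φ : ↥(W₁ ⊔ W₂) →* ℂˣ) u : ℂ) = 0 := by
    intro D _ u hu
    let ev : D →* ℂ :=
      { toFun := fun φ => ((φ : ↥(W₁ ⊔ W₂) →* ℂˣ) u : ℂ)
        map_one' := by simp
        map_mul' := fun a b => by simp }
    show ∑ φ : D, ev φ = 0
    rw [sum_hom_units ev, if_neg fun h => ?_, Nat.cast_zero]
    obtain ⟨φ, hφD, hφ⟩ := hu
    exact hφ (Units.ext (DFunLike.congr_fun h ⟨φ, hφD⟩))
  have hsep : ∀ u : ↥(W₁ ⊔ W₂), ((u : G) ∉ W₂ → ∃ φ ∈ D₁, φ u ≠ 1) ∧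
      ((u : G) ∉ W₁ → ∃ φ ∈ D₂, φ u ≠ 1) := by
    intro u
    set p := projLeft hdisj hcomm u with hp
    obtain ⟨hp1, hp2⟩ := projLeft_spec hdisj hcomm u
    constructor <;> intro hu
    · obtain ⟨ω, hω⟩ := CommGroup.exists_apply_ne_one_of_hasEnoughRootsOfUnity ↥(W₁ ⊔ W₂) ℂ
        (a := p) (fun h => hu (by rwa [← hp, h, inv_one, one_mul] at hp2))
      exact ⟨ω.comp (projLeft hdisj hcomm), fun w hw => by
        rw [MonoidHom.comp_apply, projLeft_of_right hdisj hcomm hw, map_one], hω⟩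
    · obtain ⟨ω, hω⟩ := CommGroup.exists_apply_ne_one_of_hasEnoughRootsOfUnity ↥(W₁ ⊔ W₂) ℂ
        (a := p⁻¹ * u) (fun h => hu (by rwa [← inv_mul_eq_one.mp h]))
      refine ⟨ω * (ω.comp (projLeft hdisj hcomm))⁻¹, fun w hw => by
        rw [MonoidHom.mul_apply, MonoidHom.inv_apply, MonoidHom.comp_apply,
          projLeft_of_left hdisj hcomm hw, mul_inv_cancel], ?_⟩
      rw [MonoidHom.mul_apply, MonoidHom.inv_apply, MonoidHom.comp_apply, mul_comm, ← map_inv, ← map_mul]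
      exact hω
  have hzero : ∀ (φ : D₁) (ψ : D₂), ∑ v : ↥(W₁ ⊔ W₂), θ v * conj (tiFun φ.1 ψ.1 v) = 0 := by
    intro φ ψ
    rcases eq_or_ne φ.1 1 with h1 | h1
    · simp [h1, tiFun]
    rcases eq_or_ne ψ.1 1 with h2 | h2
    · simp [h2, tiFun]
    have e : indFun (W₁ ⊔ W₂) (tiFun φ.1 ψ.1) = χ 1 - χ φ.1 - χ ψ.1 + χ (φ.1 * ψ.1) := by
      rw [hχ.map_one]
      exact hχ.induced_eq _ _ h1 h2 φ.2 ψ.2
    have h0 := classInner_indFun_right (W₁ ⊔ W₂) (tiFun φ.1 ψ.1) (isClassFunction_of_isIrr hθ)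
    rw [e, classInner_add_right, classInner_sub_right, classInner_sub_right, horth, horth, horth, horth] at h0
    simp only [sub_zero, add_zero, classInner] at h0
    exact (mul_eq_zero.mp h0.symm).resolve_left (inv_ne_zero (card_ne_zero_complex _))
  have hdbl : ∑ φ : D₁, ∑ ψ : D₂, (φ.1 w : ℂ) * (ψ.1 w : ℂ) *
      ∑ v : ↥(W₁ ⊔ W₂), θ v * conj (tiFun φ.1 ψ.1 v) = 0 :=
    Finset.sum_eq_zero fun φ _ => Finset.sum_eq_zero fun ψ _ => by rw [hzero, mul_zero]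
  have hswap : ∑ φ : D₁, ∑ ψ : D₂, (φ.1 w : ℂ) * (ψ.1 w : ℂ) *
      ∑ v : ↥(W₁ ⊔ W₂), θ v * conj (tiFun φ.1 ψ.1 v) =
      ∑ v : ↥(W₁ ⊔ W₂), θ v * ((∑ φ : D₁, (φ.1 (w * v⁻¹) : ℂ)) * ∑ ψ : D₂, (ψ.1 (w * v⁻¹) : ℂ)) := by
    have hA : ∀ v : ↥(W₁ ⊔ W₂), (∑ φ : D₁, (φ.1 (w * v⁻¹) : ℂ)) * ∑ ψ : D₂, (ψ.1 (w * v⁻¹) : ℂ) =
        (∑ φ : D₁, ((φ.1 w : ℂ) - (φ.1 (w * v⁻¹) : ℂ))) * ∑ ψ : D₂, ((ψ.1 w : ℂ) - (ψ.1 (w * v⁻¹) : ℂ)) := by
      intro v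
      simp only [Finset.sum_sub_distrib, horthD D₁ w ((hsep w).1 hw₂), horthD D₂ w ((hsep w).2 hw₁)]
      ring
    simp only [hA, Finset.mul_sum, Finset.sum_mul]
    rw [Finset.sum_comm]
    conv_rhs => rw [Finset.sum_comm]
    refine Finset.sum_congr rfl fun ψ _ => ?_
    rw [Finset.sum_comm]
    refine Finset.sum_congr rfl fun v _ => Finset.sum_congr rfl fun φ _ => ?_
    simp only [tiFun, map_add, map_sub, map_mul, map_one, map_inv, Units.val_mul, hom_conj]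
    ring
  rw [hswap, Finset.sum_eq_single w ?_ (fun h => absurd (Finset.mem_univ w) h)] at hdbl
  · simpa [mul_inv_cancel, Fintype.card_ne_zero] using hdbl
  · intro v _ hv
    have hu : ((w * v⁻¹ : ↥(W₁ ⊔ W₂)) : G) ∉ W₂ ∨ ((w * v⁻¹ : ↥(W₁ ⊔ W₂)) : G) ∉ W₁ := by
      by_contra hc
      simp only [not_or, not_not] at hc
      have h3 : ((w * v⁻¹ : ↥(W₁ ⊔ W₂)) : G) ∈ W₁ ⊓ W₂ := ⟨hc.2, hc.1⟩
      rw [hdisj, Subgroup.mem_bot] at h3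
      exact hv (mul_inv_eq_one.mp (Subtype.ext h3)).symm
    rcases hu with h | h
    · rw [horthD D₁ _ ((hsep _).1 h), zero_mul, mul_zero]
    · rw [horthD D₂ _ ((hsep _).2 h), mul_zero, mul_zero]

end Cfsg.Agent.S1503
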