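import Cfsg.Statements.S1504
import Cfsg.Agent.Lib.CharClifford.CyclicTI
import Mathlib.Tactic

set_option autoImplicit false
open scoped ComplexConjugate
open Cfsg

namespace Cfsg.Agent.S1504

open Cfsg.Agent.Lib.Char Cfsg.Agent.Lib.CharClifford

theorem result {G : Type*} [Group G] [Finite G] (W₁ W₂ : Subgroup G) (hdisj : W₁ ⊓ W₂ = ⊥) (hcomm : ∀ a ∈ W₁, ∀ b ∈ W₂, a * b = b * a) : (∀ φ ψ : ↥(W₁ ⊔ W₂) →* ℂˣ, (∀ w : ↥(W₁ ⊔ W₂), (w : G) ∈ W₂ → φ w = 1) → (∀ w : ↥(W₁ ⊔ W₂), (w : G) ∈ W₁ → ψ w = 1) → ∀ w : ↥(W₁ ⊔ W₂), ((w : G) ∈ W₁ ∨ (w : G) ∈ W₂) → (1 - (φ w : ℂ) - (ψ w : ℂ) + (φ w : ℂ) * (ψ w : ℂ)) = 0) ∧ LinearIndependent ℂ (fun p : {p : (↥(W₁ ⊔ W₂) →* ℂˣ) × (↥(W₁ ⊔ W₂) →* ℂˣ) // p.1 ≠ 1 ∧ p.2 ≠ 1 ∧ (∀ w : ↥(W₁ ⊔ W₂), (w : G) ∈ W₂ → p.1 w = 1) ∧ (∀ w : ↥(W₁ ⊔ W₂), (w : G) ∈ W₁ → p.2 w = 1)} => fun w : ↥(W₁ ⊔ W₂) =>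 1 - (p.1.1 w : ℂ) - (p.1.2 w : ℂ) + (p.1.1 w : ℂ) * (p.1.2 w : ℂ)) := by
  classical
  have := Fintype.ofFinite G
  have := Fintype.ofFinite ↥(W₁ ⊔ W₂)
  refine ⟨fun φ ψ hφ hψ w hw => tiFun_eq_zero hφ hψ hw, ?_⟩
  rw [linearIndependent_iff']
  intro s c hc p hp
  have hone : (∀ w : ↥(W₁ ⊔ W₂), (w : G) ∈ W₂ → (1 : ↥(W₁ ⊔ W₂) →* ℂˣ) w = 1) ∧
      (∀ w : ↥(W₁ ⊔ W₂), (w : G) ∈ W₁ → (1 : ↥(W₁ ⊔ W₂) →* ℂˣ) w = 1) :=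
    ⟨fun _ _ => rfl, fun _ _ => rfl⟩
  have hcoef : ∀ q ∈ s, classInner (tiFun q.1.1 q.1.2) (fun w => ((p.1.1 * p.1.2) w : ℂ)) =
      if q = p then 1 else 0 := by
    intro q _
    rw [tiFun_eq, classInner_add_left, classInner_sub_left, classInner_sub_left, classInner_linear,
      classInner_linear, classInner_linear, classInner_linear]
    have n1 : (1 : ↥(W₁ ⊔ W₂) →* ℂˣ) ≠ p.1.1 * p.1.2 := fun h =>
      p.2.1 (hom_split_unique hcomm hone.1 p.2.2.2.1 hone.2 p.2.2.2.2 (by rw [one_mul]; exact h)).1.symm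
    have n2 : q.1.1 ≠ p.1.1 * p.1.2 := fun h =>
      p.2.2.1 (hom_split_unique hcomm q.2.2.2.1 p.2.2.2.1 hone.2 p.2.2.2.2 (by rw [mul_one]; exact h)).2.symm
    have n3 : q.1.2 ≠ p.1.1 * p.1.2 := fun h =>
      p.2.1 (hom_split_unique hcomm hone.1 p.2.2.2.1 q.2.2.2.2 p.2.2.2.2 (by rw [one_mul]; exact h)).1.symm
    rw [if_neg n1, if_neg n2, if_neg n3]
    by_cases hqp : q = p
    · subst hqp; simp
    · rw [if_neg hqp, if_neg fun h => hqp (Subtype.ext (by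
        obtain ⟨e1, e2⟩ := hom_split_unique hcomm q.2.2.2.1 p.2.2.2.1 q.2.2.2.2 p.2.2.2.2 h
        exact Prod.ext e1 e2))]
      ring
  have h1 := congrArg (fun f => classInner f (fun w => ((p.1.1 * p.1.2) w : ℂ))) hc
  simp only [classInner_sum_left, classInner_smul_left, classInner_zero_left] at h1
  unfold tiFun at hcoef
  rw [Finset.sum_eq_single p (fun q hq hqp => by
      rw [hcoef q hq, if_neg hqp, mul_zero])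
    (fun h => absurd hp h)] at h1
  rw [hcoef p hp, if_pos rfl, mul_one] at h1
  exact h1

end Cfsg.Agent.S1504
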