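import Cfsg.Statements.S1505
import Cfsg.Agent.Lib.Dade.TI
import Mathlib.Tactic

set_option autoImplicit false
open scoped ComplexConjugate
open Cfsg

namespace Cfsg.Agent.S1505

open Cfsg.Agent.Lib.Char Cfsg.Agent.Lib.CharClifford Cfsg.Agent.Lib.Dade

open Classical in
theorem result {G : Type*} [Group G] [Fintype G] (W₁ W₂ : Subgroup G) (hW : Cfsg.IsSelfNormalizingCyclic W₁ W₂) (φ φ' ψ ψ' : ↥(W₁ ⊔ W₂) →* ℂˣ) (hφ : φ ≠ 1) (hφ' : φ' ≠ 1) (hψ : ψ ≠ 1) (hψ' : ψ' ≠ 1) (hφ₂ : ∀ w : ↥(W₁ ⊔ W₂), (w : G) ∈ W₂ → φ w = 1 ∧ φ' w = 1) (hψ₁ : ∀ w : ↥(W₁ ⊔ W₂), (w : G) ∈ W₁ → ψ w = 1 ∧ ψ' w = 1) : Cfsg.classInner (Cfsg.indFun (W₁ ⊔ W₂) (fun w => 1 - (φ w : ℂ) - (ψ w : ℂ) + (φ w : ℂ) * (ψ w : ℂ))) (fun _ => 1) = 1 ∧ Cfsg.classInner (Cfsg.indFun (W₁ ⊔ W₂) (fun w => 1 - (φ w : ℂ) - (ψ w : ℂ) + (φ w : ℂ) * (ψ w : ℂ)))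 (Cfsg.indFun (W₁ ⊔ W₂) (fun w => 1 - (φ' w : ℂ) - (ψ' w : ℂ) + (φ' w : ℂ) * (ψ' w : ℂ))) = 1 + (if φ = φ' then 1 else 0) + (if ψ = ψ' then 1 else 0) + (if φ = φ' then 1 else 0) * (if ψ = ψ' then 1 else 0) := by
  classical
  have := Fintype.ofFinite ↥(W₁ ⊔ W₂)
  have hD := dadeHypothesis_cyclic hW
  obtain ⟨-, -, hdisj, hcomm, -, -⟩ := hW
  have hφw := fun w hw => (hφ₂ w hw).1
  have hφ'w := fun w hw => (hφ₂ w hw).2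
  have hψw := fun w hw => (hψ₁ w hw).1
  have hψ'w := fun w hw => (hψ₁ w hw).2
  have hone₂ : ∀ w : ↥(W₁ ⊔ W₂), (w : G) ∈ W₂ → (1 : ↥(W₁ ⊔ W₂) →* ℂˣ) w = 1 := fun _ _ => rfl
  have hone₁ : ∀ w : ↥(W₁ ⊔ W₂), (w : G) ∈ W₁ → (1 : ↥(W₁ ⊔ W₂) →* ℂˣ) w = 1 := fun _ _ => rfl
  have hsplit : ∀ (a a' b b' : ↥(W₁ ⊔ W₂) →* ℂˣ), (∀ w : ↥(W₁ ⊔ W₂), (w : G) ∈ W₂ → a w = 1) →
      (∀ w : ↥(W₁ ⊔ W₂), (w : G) ∈ W₂ → a' w = 1) →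
      (∀ w : ↥(W₁ ⊔ W₂), (w : G) ∈ W₁ → b w = 1) →
      (∀ w : ↥(W₁ ⊔ W₂), (w : G) ∈ W₁ → b' w = 1) → (a * b = a' * b' ↔ a = a' ∧ b = b') :=
    fun a a' b b' h1 h2 h3 h4 =>
      ⟨fun e => hom_split_unique hcomm h1 h2 h3 h4 e, fun e => by rw [e.1, e.2]⟩
  have mo : ∀ a : ↥(W₁ ⊔ W₂) →* ℂˣ, a * 1 = a := fun a => MonoidHom.ext fun w => by simp
  have om : ∀ a : ↥(W₁ ⊔ W₂) →* ℂˣ, 1 * a = a := fun a => MonoidHom.ext fun w => by simp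
  have hne : ∀ a b : ↥(W₁ ⊔ W₂) →* ℂˣ, (∀ w : ↥(W₁ ⊔ W₂), (w : G) ∈ W₂ → a w = 1) →
      (∀ w : ↥(W₁ ⊔ W₂), (w : G) ∈ W₁ → b w = 1) → a ≠ 1 → b ≠ 1 →
      a * b ≠ 1 ∧ a ≠ b ∧ (∀ a' : ↥(W₁ ⊔ W₂) →* ℂˣ, (∀ w : ↥(W₁ ⊔ W₂), (w : G) ∈ W₂ → a' w = 1) →
        a * b ≠ a') ∧ (∀ b' : ↥(W₁ ⊔ W₂) →* ℂˣ, (∀ w : ↥(W₁ ⊔ W₂), (w : G) ∈ W₁ → b' w = 1) →
        a * b ≠ b') := by
    intro a b h1 h2 ha hb
    refine ⟨fun e => ha ((hsplit a 1 b 1 h1 hone₂ h2 hone₁).mp (e.trans (om 1).symm)).1,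
      fun e => ha ((hsplit a 1 1 b h1 hone₂ hone₁ h2).mp (by rw [mo, om]; exact e)).1,
      fun a' h3 e => hb ((hsplit a a' b 1 h1 h3 h2 hone₁).mp (by rw [mo]; exact e)).2,
      fun b' h3 e => ha ((hsplit a 1 b b' h1 hone₂ h2 h3).mp (by rw [om]; exact e)).1⟩
  obtain ⟨n1, n2, n3, n4⟩ := hne φ ψ hφw hψw hφ hψ
  obtain ⟨m1, m2, m3, m4⟩ := hne φ' ψ' hφ'w hψ'w hφ' hψ'
  have n2' : φ ≠ ψ' := (hne φ ψ' hφw hψ'w hφ hψ').2.1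
  have m2' : φ' ≠ ψ := (hne φ' ψ hφ'w hψw hφ' hψ).2.1
  constructor
  · show classInner (indFun (W₁ ⊔ W₂) (tiFun φ ψ)) (fun _ => 1) = 1
    rw [classInner_indFun _ _ (isClassFunction_of_isIrr isIrrCharacter_one),
      show (fun x : ↥(W₁ ⊔ W₂) => (1 : ℂ)) = fun x => ((1 : ↥(W₁ ⊔ W₂) →* ℂˣ) x : ℂ) from rfl,
      tiFun_eq, classInner_add_left, classInner_sub_left, classInner_sub_left, classInner_linear,
      classInner_linear, classInner_linear, classInner_linear, if_pos rfl, if_neg hφ, if_neg hψ,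
      if_neg n1]
    ring
  · show classInner (indFun (W₁ ⊔ W₂) (tiFun φ ψ)) (indFun (W₁ ⊔ W₂) (tiFun φ' ψ')) = _
    have hcf : ∀ a b : ↥(W₁ ⊔ W₂) →* ℂˣ, IsClassFunction ↥(W₁ ⊔ W₂) (tiFun a b) := fun a b x y => by
      simp [tiFun, mul_inv_cancel_comm]
    have hsupp : ∀ a b : ↥(W₁ ⊔ W₂) →* ℂˣ, (∀ w : ↥(W₁ ⊔ W₂), (w : G) ∈ W₂ → a w = 1) →
        (∀ w : ↥(W₁ ⊔ W₂), (w : G) ∈ W₁ → b w = 1) →
        ∀ x : ↥(W₁ ⊔ W₂), (x : G) ∉ cyclicV W₁ W₂ → tiFun a b x = 0 := fun a b h1 h2 x hx => by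
      refine tiFun_eq_zero h1 h2 ?_
      by_contra hc
      rw [not_or] at hc
      exact hx (mem_cyclicV.mpr ⟨x.2, hc.1, hc.2⟩)
    rw [indFun_eq_dade hD (hcf φ ψ) (hsupp φ ψ hφw hψw),
      indFun_eq_dade hD (hcf φ' ψ') (hsupp φ' ψ' hφ'w hψ'w),
      classInner_dade hD (hcf φ ψ) (hsupp φ ψ hφw hψw) (isClassFunction_dade hD (hcf φ' ψ'))
        (ψ := tiFun φ' ψ') fun a ha => ?_]
    · rw [tiFun_eq, tiFun_eq]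
      simp only [classInner_add_left, classInner_add_right, classInner_sub_left, classInner_sub_right,
        classInner_linear]
      have e := hsplit φ φ' ψ ψ' hφw hφ'w hψw hψ'w
      simp only [if_pos, if_neg hφ.symm, if_neg hψ.symm, if_neg n1, if_neg n1.symm, if_neg m1.symm,
        if_neg hφ, if_neg hψ, if_neg hφ'.symm, if_neg hψ'.symm, if_neg n2', if_neg m2'.symm,
        if_neg (n3 φ' hφ'w), if_neg (n4 ψ' hψ'w), if_neg (m3 φ hφw).symm, if_neg (m4 ψ hψw).symm]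
      by_cases ha : φ = φ' <;> by_cases hb : ψ = ψ'
      · simp only [if_pos ha, if_pos hb, if_pos (e.mpr ⟨ha, hb⟩)]; ring
      · simp only [if_pos ha, if_neg hb, if_neg (fun h => hb (e.mp h).2)]; ring
      · simp only [if_neg ha, if_pos hb, if_neg (fun h => ha (e.mp h).1)]; ring
      · simp only [if_neg ha, if_neg hb, if_neg (fun h => ha (e.mp h).1)]; ring
    · rw [avgH, Subgroup.card_bot, Subgroup.coe_bot, finsum_mem_singleton,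
        dade_apply hD (hcf φ' ψ') ha (Subgroup.one_mem _) (x := 1) (g := (a : G) * 1) (by simp)]
      simp

end Cfsg.Agent.S1505
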