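import Cfsg.Statements.S1506
import Cfsg.Agent.Lib.CharClifford.CyclicTI
import Cfsg.Agent.Lib.Char.Induced
import Mathlib.Tactic

set_option autoImplicit false
open scoped ComplexConjugate
open Cfsg

namespace Cfsg.Agent.S1506

open Cfsg.Agent.Lib.Char Cfsg.Agent.Lib.CharClifford

theorem result {G : Type*} [Group G] [Fintype G] (W₁ W₂ : Subgroup G) (hW : Cfsg.IsSelfNormalizingCyclic W₁ W₂) (χ : (↥(W₁ ⊔ W₂) →* ℂˣ) → (G → ℂ)) (hχ : Cfsg.IsCyclicTIFamily W₁ W₂ χ) (θ : G → ℂ) (hθ : Cfsg.IsClassFunction G θ) (hθV : ∀ w : ↥(W₁ ⊔ W₂), (w : G) ∉ W₁ → (w : G) ∉ W₂ → θ w = 0) (φ φ' ψ ψ' : ↥(W₁ ⊔ W₂) →* ℂˣ) (hφ₂ : ∀ w : ↥(W₁ ⊔ W₂), (w : G) ∈ W₂ → φ w = 1 ∧ φ' w = 1) (hψ₁ : ∀ w : ↥(W₁ ⊔ W₂), (w : G) ∈ W₁ → ψ w = 1 ∧ ψ' w = 1) : Cfsg.classInner θ (χ (φ * ψ)) + Cfsg.classInner θ (χ (φ' * ψ')) = Cfsg.classInner θ (χ (φ * ψ')) + Cfsg.classInner θ (χ (φ'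 * ψ)) := by
  classical
  have := Fintype.ofFinite ↥(W₁ ⊔ W₂)
  have key : ∀ a b : ↥(W₁ ⊔ W₂) →* ℂˣ, (∀ w : ↥(W₁ ⊔ W₂), (w : G) ∈ W₂ → a w = 1) →
      (∀ w : ↥(W₁ ⊔ W₂), (w : G) ∈ W₁ → b w = 1) →
      classInner θ (χ (a * b)) = classInner θ (χ a) + classInner θ (χ b) - classInner θ (χ 1) := by
    intro a b ha hb
    rcases eq_or_ne a 1 with rfl | ha1
    · rw [show (1 : ↥(W₁ ⊔ W₂) →* ℂˣ) * b = b from MonoidHom.ext fun w => by simp]; ring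
    rcases eq_or_ne b 1 with rfl | hb1
    · rw [show a * (1 : ↥(W₁ ⊔ W₂) →* ℂˣ) = a from MonoidHom.ext fun w => by simp]; ring
    have h0 : classInner θ (indFun (W₁ ⊔ W₂) (tiFun a b)) = 0 := by
      rw [classInner_indFun_right _ _ hθ, classInner, Finset.sum_eq_zero, mul_zero]
      intro w _
      by_cases hw : (w : G) ∈ W₁ ∨ (w : G) ∈ W₂
      · rw [tiFun_eq_zero ha hb hw, map_zero, mul_zero]
      · rw [not_or] at hw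
        rw [hθV w hw.1 hw.2, zero_mul]
    have h1 : indFun (W₁ ⊔ W₂) (tiFun a b) = χ 1 - χ a - χ b + χ (a * b) := by
      rw [hχ.map_one]
      exact hχ.induced_eq a b ha1 hb1 ha hb
    rw [h1, classInner_add_right, classInner_sub_right, classInner_sub_right] at h0
    linear_combination h0
  rw [key φ ψ (fun w hw => (hφ₂ w hw).1) (fun w hw => (hψ₁ w hw).1),
    key φ' ψ' (fun w hw => (hφ₂ w hw).2) (fun w hw => (hψ₁ w hw).2),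
    key φ ψ' (fun w hw => (hφ₂ w hw).1) (fun w hw => (hψ₁ w hw).2),
    key φ' ψ (fun w hw => (hφ₂ w hw).2) (fun w hw => (hψ₁ w hw).1)]
  ring

end Cfsg.Agent.S1506
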