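import Cfsg.Statements.S1507
import Cfsg.Agent.Lib.CharClifford.CyclicTIGrid
import Mathlib.Tactic

set_option autoImplicit false
open Cfsg

namespace Cfsg.Agent.S1507

open Cfsg.Agent.Lib.Char Cfsg.Agent.Lib.CharClifford Finset

/-- A grid `r i + s j` with few nonzero entries lies in one line. -/
theorem grid_trichotomy {α β : Type*} [Fintype α] [Fintype β] (r : α → ℂ) (s : β → ℂ)
    (hlt : Fintype.card α + 2 ≤ Fintype.card β)
    (hfew : Nat.card {p : α × β // r p.1 + s p.2 ≠ 0} < 2 * Fintype.card α) :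
    (∀ i j, r i + s j = 0) ∨
      (∃ j₀ : β, ∃ a : ℂ, ∀ i j, (j = j₀ → r i + s j = a) ∧ (j ≠ j₀ → r i + s j = 0)) ∨
      (∃ i₀ : α, ∃ a : ℂ, ∀ i j, (i = i₀ → r i + s j = a) ∧ (i ≠ i₀ → r i + s j = 0)) := by
  classical
  rw [Nat.card_eq_fintype_card, Fintype.card_subtype] at hfew
  set N := univ.filter fun p : α × β => r p.1 + s p.2 ≠ 0 with hN
  by_cases hs : ∀ j j', s j = s j'
  · by_cases h : ∀ i j, r i + s j = 0
    · exact Or.inl h
    · push Not at h
      obtain ⟨i₀, j₁, h0⟩ := h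
      refine Or.inr (Or.inr ⟨i₀, r i₀ + s j₁, fun i j => ⟨fun e => by rw [e, hs j j₁], fun e => ?_⟩⟩)
      by_contra hne
      have hsub : ({i, i₀} : Finset α) ×ˢ (univ : Finset β) ⊆ N := by
        intro p hp
        rw [mem_product, mem_insert, mem_singleton] at hp
        refine mem_filter.mpr ⟨mem_univ _, ?_⟩
        rcases hp.1 with h1 | h1 <;> rw [h1]
        · rwa [hs p.2 j]
        · rwa [hs p.2 j₁]
      have hc := card_le_card hsub
      rw [card_product, card_pair e, card_univ] at hc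
      omega
  by_cases hr : ∀ i i', r i = r i'
  · push Not at hs
    obtain ⟨j, j', hjj⟩ := hs
    have hα : 0 < Fintype.card α := by omega
    obtain ⟨i₁⟩ := Fintype.card_pos_iff.mp hα
    obtain ⟨j₀, h0⟩ : ∃ j₀, r i₁ + s j₀ ≠ 0 := by
      by_contra hc
      push Not at hc
      exact hjj (add_left_cancel ((hc j).trans (hc j').symm))
    refine Or.inr (Or.inl ⟨j₀, r i₁ + s j₀, fun i j => ⟨fun e => by rw [e, hr i i₁], fun e => ?_⟩⟩)
    by_contra hne
    have hsub : (univ : Finset α) ×ˢ ({j, j₀} : Finset β) ⊆ N := by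
      intro p hp
      rw [mem_product, mem_insert, mem_singleton] at hp
      refine mem_filter.mpr ⟨mem_univ _, ?_⟩
      rcases hp.2 with h1 | h1 <;> rw [h1]
      · rwa [hr p.1 i]
      · rwa [hr p.1 i₁]
    have hc := card_le_card hsub
    rw [card_product, card_pair e, card_univ] at hc
    omega
  exfalso
  push Not at hs hr
  obtain ⟨j, j', hjj⟩ := hs
  obtain ⟨i, i', hii⟩ := hr
  let n : β → ℕ := fun l => (univ.filter fun k => r k + s l ≠ 0).card
  have hNc : N.card = ∑ l, n l := by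
    simp only [hN, n, card_filter]
    rw [Fintype.sum_prod_type, sum_comm]
  have hone : ∀ l, 1 ≤ n l := by
    intro l
    by_contra hc
    have h0 : (univ.filter fun k => r k + s l ≠ 0) = ∅ := card_eq_zero.mp (by simp only [n] at hc; omega)
    have hz : ∀ k, r k + s l = 0 := fun k => by
      by_contra hk
      exact (filter_eq_empty_iff.mp h0 (mem_univ k)) hk
    exact hii (add_right_cancel ((hz i).trans (hz i').symm))
  have htwo : Fintype.card α ≤ n j + n j' := by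
    rw [← card_univ]
    refine le_trans (card_le_card fun k _ => ?_) (card_union_le _ _)
    simp only [mem_union, mem_filter, mem_univ, true_and]
    by_contra hc
    push Not at hc
    exact hjj (add_left_cancel (hc.1.trans hc.2.symm))
  have hjne : j ≠ j' := fun e => hjj (by rw [e])
  have hrest : (((univ : Finset β).erase j).erase j').card = Fintype.card β - 2 := by
    rw [card_erase_of_mem (mem_erase.mpr ⟨hjne.symm, mem_univ _⟩), card_erase_of_mem (mem_univ _),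
      card_univ]
    omega
  have hsum : ∑ l, n l = n j + (n j' + ∑ l ∈ (univ.erase j).erase j', n l) := by
    rw [add_sum_erase _ n (mem_erase.mpr ⟨hjne.symm, mem_univ _⟩), add_sum_erase _ n (mem_univ j)]
  have hge : (((univ : Finset β).erase j).erase j').card ≤ ∑ l ∈ (univ.erase j).erase j', n l := by
    rw [card_eq_sum_ones]; exact sum_le_sum fun l _ => hone l
  omega

open Classical in
theorem result {G : Type*} [Group G] [Fintype G] (W₁ W₂ : Subgroup G) (hW : Cfsg.IsSelfNormalizingCyclic W₁ W₂) (hodd : Odd (Nat.card ↥(W₁ ⊔ W₂))) (χ : (↥(W₁ ⊔ W₂) →* ℂˣ) → (G → ℂ)) (hχ : Cfsg.IsCyclicTIFamily W₁ W₂ χ) (hlt : Nat.card W₁ < Nat.card W₂) (θ : G → ℂ) (hθ : Cfsg.IsClassFunction G θ) (hθV : ∀ w : ↥(W₁ ⊔ W₂), (w : G) ∉ W₁ → (w : G) ∉ W₂ → θ w = 0) (hfew : Nat.card {ω : ↥(W₁ ⊔ W₂) →* ℂˣ // Cfsg.classInner θ (χ ω) ≠ 0} < 2 * Nat.card W₁) : (∀ ω, Cfsg.classInner θ (χ ω) = 0) ∨ (∃ (ψ₀ : ↥(W₁ ⊔ W₂) →* ℂˣ) (a : ℂ), ∀ ω, Cfsg.classInner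 θ (χ ω) = if (∀ w : ↥(W₁ ⊔ W₂), (w : G) ∈ W₂ → (ω * ψ₀⁻¹) w = 1) then a else 0) ∨ (∃ (φ₀ : ↥(W₁ ⊔ W₂) →* ℂˣ) (a : ℂ), ∀ ω, Cfsg.classInner θ (χ ω) = if (∀ w : ↥(W₁ ⊔ W₂), (w : G) ∈ W₁ → (ω * φ₀⁻¹) w = 1) then a else 0) := by
  classical
  obtain ⟨-, -, hdisj, hcomm, -, -⟩ := id hW
  have := finite_homs hW
  have := Fintype.ofFinite (leftHoms W₁ W₂)
  have := Fintype.ofFinite (rightHoms W₁ W₂)
  let e := gridEquiv hdisj hcomm
  let r : leftHoms W₁ W₂ → ℂ := fun φ => classInner θ (χ φ.1) - classInner θ (χ 1)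
  let s : rightHoms W₁ W₂ → ℂ := fun ψ => classInner θ (χ ψ.1)
  have hval : ∀ p : leftHoms W₁ W₂ × rightHoms W₁ W₂,
      classInner θ (χ (e p)) = r p.1 + s p.2 := by
    rintro ⟨φ, ψ⟩
    rw [gridEquiv_apply, classInner_family_mul hχ hθ hθV φ ψ]
    simp only [r, s]
    ring
  obtain ⟨h3, -, o1, o2⟩ := three_le hW hodd
  have hcard1 : Fintype.card (leftHoms W₁ W₂) = Nat.card W₁ := by
    rw [← Nat.card_eq_fintype_card, card_leftHoms hW]
  have hcard2 : Fintype.card (rightHoms W₁ W₂) = Nat.card W₂ := by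
    rw [← Nat.card_eq_fintype_card, card_rightHoms hW]
  have hfew' : Nat.card {p : leftHoms W₁ W₂ × rightHoms W₁ W₂ // r p.1 + s p.2 ≠ 0} <
      2 * Fintype.card (leftHoms W₁ W₂) := by
    rw [hcard1]
    refine lt_of_eq_of_lt (Nat.card_congr (e.subtypeEquiv fun p => ?_)) hfew
    rw [hval]
  have hlt' : Fintype.card (leftHoms W₁ W₂) + 2 ≤ Fintype.card (rightHoms W₁ W₂) := by
    obtain ⟨k, hk⟩ := o1; obtain ⟨l, hl⟩ := o2
    omega
  have htriv1 : ∀ (p : leftHoms W₁ W₂ × rightHoms W₁ W₂) (q : rightHoms W₁ W₂),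
      (∀ w : ↥(W₁ ⊔ W₂), (w : G) ∈ W₂ → (e p * q.1⁻¹) w = 1) ↔ p.2 = q := by
    rintro ⟨φ, ψ⟩ q
    constructor
    · intro h
      have h2 : ψ.1 = q.1 := hom_ext_sup hcomm (fun w hw => by rw [ψ.2 w hw, q.2 w hw]) fun w hw => by
        have := h w hw
        rw [gridEquiv_apply, MonoidHom.mul_apply, MonoidHom.mul_apply, φ.2 w hw, one_mul,
          MonoidHom.inv_apply, mul_inv_eq_one] at this
        exact this
      exact Subtype.ext h2
    · rintro rfl w hw
      rw [gridEquiv_apply, MonoidHom.mul_apply, MonoidHom.mul_apply, φ.2 w hw, one_mul,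
        MonoidHom.inv_apply, mul_inv_cancel]
  have htriv2 : ∀ (p : leftHoms W₁ W₂ × rightHoms W₁ W₂) (q : leftHoms W₁ W₂),
      (∀ w : ↥(W₁ ⊔ W₂), (w : G) ∈ W₁ → (e p * q.1⁻¹) w = 1) ↔ p.1 = q := by
    rintro ⟨φ, ψ⟩ q
    constructor
    · intro h
      have h2 : φ.1 = q.1 := hom_ext_sup hcomm (fun w hw => by
        have := h w hw
        rw [gridEquiv_apply, MonoidHom.mul_apply, MonoidHom.mul_apply, ψ.2 w hw, mul_one,
          MonoidHom.inv_apply, mul_inv_eq_one] at this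
        exact this) fun w hw => by rw [φ.2 w hw, q.2 w hw]
      exact Subtype.ext h2
    · rintro rfl w hw
      rw [gridEquiv_apply, MonoidHom.mul_apply, MonoidHom.mul_apply, ψ.2 w hw, mul_one,
        MonoidHom.inv_apply, mul_inv_cancel]
  rcases grid_trichotomy r s hlt' hfew' with h | ⟨j₀, a, h⟩ | ⟨i₀, a, h⟩
  · refine Or.inl fun ω => ?_
    obtain ⟨p, rfl⟩ := e.surjective ω
    rw [hval, h]
  · refine Or.inr (Or.inl ⟨j₀.1, a, fun ω => ?_⟩)
    obtain ⟨p, rfl⟩ := e.surjective ω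
    rw [hval]
    by_cases hp : p.2 = j₀
    · rw [if_pos ((htriv1 p j₀).mpr hp), (h p.1 p.2).1 hp]
    · rw [if_neg (mt (htriv1 p j₀).mp hp), (h p.1 p.2).2 hp]
  · refine Or.inr (Or.inr ⟨i₀.1, a, fun ω => ?_⟩)
    obtain ⟨p, rfl⟩ := e.surjective ω
    rw [hval]
    by_cases hp : p.1 = i₀
    · rw [if_pos ((htriv2 p i₀).mpr hp), (h p.1 p.2).1 hp]
    · rw [if_neg (mt (htriv2 p i₀).mp hp), (h p.1 p.2).2 hp]

end Cfsg.Agent.S1507
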