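import Cfsg.Statements.S1508
import Cfsg.Agent.Lib.CharClifford.CyclicTIGrid
import Cfsg.Agent.Lib.CharGalois
import Mathlib.Data.ZMod.Units
import Mathlib.Tactic

set_option autoImplicit false
open Cfsg

namespace Cfsg.Agent.S1508

open Cfsg.Agent.Lib.Char Cfsg.Agent.Lib.CharClifford Cfsg.Agent.Lib.CharGalois

variable {G : Type*} [Group G]

theorem exists_sign {θ : G → ℂ} (h : IsIrrCharacter G θ ∨ IsIrrCharacter G (-θ)) :
    ∃ μ, IsIrrCharacter G μ ∧ (θ = μ ∨ θ = -μ) := by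
  rcases h with h | h
  · exact ⟨θ, h, Or.inl rfl⟩
  · exact ⟨-θ, h, Or.inr (neg_neg θ).symm⟩

variable [Fintype G] {W₁ W₂ : Subgroup G}

theorem eq_or_neg_of_inner_ne {x y : G → ℂ} (hx : IsIrrCharacter G x ∨ IsIrrCharacter G (-x))
    (hy : IsIrrCharacter G y ∨ IsIrrCharacter G (-y)) (h : classInner x y ≠ 0) : y = x ∨ y = -x := by
  obtain ⟨μ, hμ, hx⟩ := exists_sign hx
  obtain ⟨ν, hν, hy⟩ := exists_sign hy
  have e : μ = ν := by
    by_contra hne
    apply h
    rcases hx with rfl | rfl <;> rcases hy with rfl | rfl <;>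
      simp [classInner_neg_left, classInner_neg_right, classInner_irr_ne hμ hν hne]
  subst e
  rcases hx with rfl | rfl <;> rcases hy with rfl | rfl <;> simp

/-- The family is the only choice of signed irreducibles with the given values. -/
theorem family_unique (hW : IsSelfNormalizingCyclic W₁ W₂) (hodd : Odd (Nat.card ↥(W₁ ⊔ W₂)))
    {χ : (↥(W₁ ⊔ W₂) →* ℂˣ) → (G → ℂ)} (hχ : IsCyclicTIFamily W₁ W₂ χ) (ω : ↥(W₁ ⊔ W₂) →* ℂˣ)
    {θ : G → ℂ} (hθ : IsIrrCharacter G θ ∨ IsIrrCharacter G (-θ))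
    (hθV : ∀ w : ↥(W₁ ⊔ W₂), (w : G) ∉ W₁ → (w : G) ∉ W₂ → θ w = (ω w : ℂ)) : θ = χ ω := by
  classical
  by_contra hne
  obtain ⟨-, -, hdisj, hcomm, -, -⟩ := id hW
  have := finite_homs hW
  have := Fintype.ofFinite (leftHoms W₁ W₂)
  have := Fintype.ofFinite (rightHoms W₁ W₂)
  let e := gridEquiv hdisj hcomm
  have hcf : ∀ {x : G → ℂ}, IsIrrCharacter G x ∨ IsIrrCharacter G (-x) → IsClassFunction G x := by
    intro x hx g h
    obtain ⟨μ, hμ, rfl | rfl⟩ := exists_sign hx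
    · exact isClassFunction_of_isIrr hμ g h
    · exact congrArg Neg.neg (isClassFunction_of_isIrr hμ g h)
  have hηcf : IsClassFunction G (θ - χ ω) := isClassFunction_sub (hcf hθ) (hcf (hχ.irr_or_neg ω))
  have hηV : ∀ w : ↥(W₁ ⊔ W₂), (w : G) ∉ W₁ → (w : G) ∉ W₂ → (θ - χ ω) w = 0 := fun w h1 h2 => by
    rw [Pi.sub_apply, hθV w h1 h2, hχ.eq_on ω w h1 h2, sub_self]
  have hone : ∀ ν ν', classInner θ (χ ν) ≠ 0 → classInner θ (χ ν') ≠ 0 → ν = ν' := by
    intro ν ν' h h'
    have h1 : classInner (χ ν) (χ ν') ≠ 0 := by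
      rcases eq_or_neg_of_inner_ne hθ (hχ.irr_or_neg ν) h with e1 | e1 <;>
        rw [e1] <;> simp [classInner_neg_left, h']
    by_contra hνν
    exact h1 (by rw [hχ.orthonormal, if_neg hνν])
  have ha : ∀ ν, ν ≠ ω → classInner (θ - χ ω) (χ ν) = classInner θ (χ ν) := fun ν h => by
    rw [classInner_sub_left, hχ.orthonormal, if_neg h.symm, sub_zero]
  have haω : classInner (θ - χ ω) (χ ω) ≠ 0 := by
    rw [classInner_sub_left, hχ.orthonormal, if_pos rfl]
    intro h
    rw [sub_eq_zero] at h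
    rcases eq_or_neg_of_inner_ne hθ (hχ.irr_or_neg ω) (by rw [h]; exact one_ne_zero) with e1 | e1
    · exact hne e1.symm
    · have h2 : classInner θ θ = 1 := by
        obtain ⟨μ, hμ, rfl | rfl⟩ := exists_sign hθ <;>
          simp [classInner_neg_left, classInner_neg_right, classInner_irr_self hμ]
      rw [e1, classInner_neg_right, h2] at h
      norm_num at h
  obtain ⟨h3, h3', -, -⟩ := three_le hW hodd
  obtain ⟨ν, hν⟩ : ∃ ν, ∀ ν', ν' ≠ ν → classInner θ (χ ν') = 0 := by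
    by_cases h : ∃ ν, classInner θ (χ ν) ≠ 0
    · obtain ⟨ν, hν⟩ := h
      exact ⟨ν, fun ν' hne' => by by_contra hc; exact hne' (hone _ _ hc hν)⟩
    · push Not at h
      exact ⟨ω, fun ν' _ => h ν'⟩
  set p := e.symm ω with hp
  set q := e.symm ν with hq
  have hex : ∀ {D : Type _} [Fintype D] [DecidableEq D] (a b : D), 3 ≤ Fintype.card D →
      ∃ c, c ≠ a ∧ c ≠ b := by
    intro D _ _ a b hD
    by_contra hc
    push Not at hc
    have := Finset.card_le_card (show (Finset.univ : Finset D) ⊆ {a, b} from fun c _ => by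
      rw [Finset.mem_insert, Finset.mem_singleton]
      by_cases hca : c = a
      · exact Or.inl hca
      · exact Or.inr (hc c hca))
    have h2 := Finset.card_le_two (a := a) (b := b)
    rw [Finset.card_univ] at this
    omega
  obtain ⟨φ, hφ1, hφ2⟩ := hex p.1 q.1
    (by rw [← Nat.card_eq_fintype_card, card_leftHoms hW]; exact h3)
  obtain ⟨ψ, hψ1, hψ2⟩ := hex p.2 q.2
    (by rw [← Nat.card_eq_fintype_card, card_rightHoms hW]; exact h3')
  have hz : ∀ x : leftHoms W₁ W₂ × rightHoms W₁ W₂, x ≠ p → x ≠ q →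
      classInner (θ - χ ω) (χ (e x)) = 0 := by
    intro x h1 h2
    rw [ha _ (fun h => h1 (by rw [hp, ← h, e.symm_apply_apply]))]
    exact hν _ (fun h => h2 (by rw [hq, ← h, e.symm_apply_apply]))
  have z1 := hz (φ, p.2) (fun h => hφ1 (congrArg Prod.fst h)) (fun h => hφ2 (congrArg Prod.fst h))
  have z2 := hz (p.1, ψ) (fun h => hψ1 (congrArg Prod.snd h)) (fun h => hψ2 (congrArg Prod.snd h))
  have z3 := hz (φ, ψ) (fun h => hφ1 (congrArg Prod.fst h)) (fun h => hφ2 (congrArg Prod.fst h))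
  rw [gridEquiv_apply, classInner_family_mul hχ hηcf hηV] at z1 z2 z3
  apply haω
  rw [← e.apply_symm_apply ω, ← hp, ← Prod.mk.eta (p := p), gridEquiv_apply,
    show p.1.1 * p.2.1 = ω from e.apply_symm_apply ω] at *
  have h4 := classInner_family_mul hχ hηcf hηV p.1 p.2
  rw [show p.1.1 * p.2.1 = ω from e.apply_symm_apply ω] at h4
  rw [h4]
  linear_combination z1 + z2 - z3

theorem result {G : Type*} [Group G] [Fintype G] (W₁ W₂ : Subgroup G) (hW : Cfsg.IsSelfNormalizingCyclic W₁ W₂) (hodd : Odd (Nat.card ↥(W₁ ⊔ W₂))) (χ : (↥(W₁ ⊔ W₂) →* ℂˣ) → (G → ℂ)) (hχ : Cfsg.IsCyclicTIFamily W₁ W₂ χ) (ω : ↥(W₁ ⊔ W₂) →* ℂˣ) (g : G) (hg : Nat.Coprime (orderOf g) (orderOf ω)) : ∃ n : ℤ, χ ω g = n := by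
  classical
  obtain ⟨-, -, -, -, -, -⟩ := id hW
  have hcases := hχ.irr_or_neg ω
  have hint : IsIntegral ℤ (χ ω g) := by
    rcases hcases with h | h
    · exact char_isIntegral (isCharacter_of_isIrr h) g
    · simpa using (char_isIntegral (isCharacter_of_isIrr h) g).neg
  refine exists_int_of_fixed hint fun σ => ?_
  obtain ⟨k, hk, hσ⟩ := exists_pow_forall_char (G := G) σ
  have hσg : σ (χ ω g) = χ ω (g ^ k) := by
    rcases hcases with h | h
    · exact hσ _ (isCharacter_of_isIrr h) g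
    · have := hσ _ (isCharacter_of_isIrr h) g
      simpa using this
  rw [hσg]
  set m := orderOf g with hm
  set n := orderOf ω with hn
  have hmN : m ∣ Nat.card G := orderOf_dvd_natCard g
  have hnN : n ∣ Nat.card G := (show n ∣ Nat.card ↥(W₁ ⊔ W₂) from orderOf_dvd_of_pow_eq_one
    (MonoidHom.ext fun w => by
      rw [MonoidHom.pow_apply, ← map_pow, pow_card_eq_one', map_one, MonoidHom.one_apply])).trans
    (Subgroup.card_subgroup_dvd_card _)
  obtain ⟨c, hcm, hcn⟩ := Nat.chineseRemainder hg k 1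
  have hcop : Nat.Coprime c (m * n) := by
    refine Nat.Coprime.mul_right ?_ ?_
    · rw [Nat.Coprime, hcm.gcd_eq]; exact hk.coprime_dvd_right hmN
    · rw [Nat.Coprime, hcn.gcd_eq]; exact Nat.gcd_one_left n
  have hdvd : m * n ∣ Nat.card G := hg.mul_dvd_of_dvd_of_dvd hmN hnN
  obtain ⟨v, hv⟩ := ZMod.unitsMap_surjective hdvd (ZMod.unitOfCoprime c hcop)
  have := NeZero.mk (Nat.card_pos (α := G)).ne'
  set k' := (v : ZMod (Nat.card G)).val with hk'
  have hk'cop : Nat.Coprime k' (Nat.card G) := ZMod.val_coe_unit_coprime v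
  have hk'c : k' ≡ c [MOD m * n] := by
    rw [← ZMod.natCast_eq_natCast_iff]
    have h := congrArg Units.val hv
    rw [ZMod.coe_unitOfCoprime, ZMod.unitsMap_val] at h
    rw [← h, hk', ZMod.natCast_val]
  have hθ : IsIrrCharacter G (fun x => χ ω (x ^ k')) ∨
      IsIrrCharacter G (-fun x => χ ω (x ^ k')) := by
    rcases hcases with h | h
    · exact Or.inl (isIrrCharacter_pow hk'cop h)
    · exact Or.inr (isIrrCharacter_pow hk'cop h)
  have heq := family_unique hW hodd hχ ω hθ fun w h1 h2 => by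
    have hgen : ∀ (X : Subgroup G), ((w ^ k' : ↥(W₁ ⊔ W₂)) : G) ∈ X → (w : G) ∈ X := by
      intro X hX
      obtain ⟨z, hz⟩ := exists_pow_eq_self_of_coprime (x := (w : G))
        (Nat.Coprime.coprime_dvd_right (orderOf_dvd_natCard _) hk'cop)
      rw [← hz]
      exact X.pow_mem (by rwa [SubmonoidClass.coe_pow] at hX) _
    show χ ω ((w : G) ^ k') = (ω w : ℂ)
    rw [← SubmonoidClass.coe_pow, hχ.eq_on ω _ (fun h => h1 (hgen _ h)) (fun h => h2 (hgen _ h)),
      map_pow, ← MonoidHom.pow_apply]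
    rw [show ω ^ k' = ω by
      conv_rhs => rw [← pow_one ω]
      exact (pow_eq_pow_iff_modEq (x := ω)).mpr ((hk'c.of_mul_left m).trans hcn)]
  have h := congrFun heq g
  rw [← h]
  show χ ω (g ^ k) = χ ω (g ^ k')
  congr 1
  rw [pow_eq_pow_iff_modEq, ← hm]
  exact hcm.symm.trans (hk'c.of_mul_right n).symm

end Cfsg.Agent.S1508
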