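import Cfsg.Statements.S1509
import Cfsg.Agent.Lib.Char.Orthogonality
import Mathlib.Tactic

set_option autoImplicit false
open scoped ComplexConjugate
open Cfsg

namespace Cfsg.Agent.S1509

open Cfsg.Agent.Lib.Char

variable {X : Type*} [Group X] [Fintype X]

theorem inner_self {α : X → ℂ} (hα : IsIrrCharacter X α ∨ IsIrrCharacter X (-α)) :
    classInner α α = 1 ∧ α 1 ≠ 0 := by
  rcases hα with h | h
  · exact ⟨classInner_irr_self h, irr_degree_ne_zero h⟩
  · have := classInner_irr_self h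
    rw [classInner_neg_left, classInner_neg_right, neg_neg] at this
    exact ⟨this, fun e => irr_degree_ne_zero h (by simp [e])⟩

/-- Two virtual irreducible characters are orthogonal or agree up to sign. -/
theorem sign_or_orth {α β : X → ℂ} (hα : IsIrrCharacter X α ∨ IsIrrCharacter X (-α))
    (hβ : IsIrrCharacter X β ∨ IsIrrCharacter X (-β)) :
    classInner α β = 0 ∨ ∃ s : ℂ, (s = 1 ∨ s = -1) ∧ α = s • β := by
  have key : ∀ a b : X → ℂ, IsIrrCharacter X a → IsIrrCharacter X b →
      classInner a b = 0 ∨ a = b := fun a b ha hb => by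
    by_cases e : a = b
    · exact Or.inr e
    · exact Or.inl (classInner_irr_ne ha hb e)
  rcases hα with ha | ha <;> rcases hβ with hb | hb <;> rcases key _ _ ha hb with h | h
  · exact Or.inl h
  · exact Or.inr ⟨1, Or.inl rfl, by simp [h]⟩
  · rw [classInner_neg_right, neg_eq_zero] at h
    exact Or.inl h
  · exact Or.inr ⟨-1, Or.inr rfl, by simp [h]⟩
  · rw [classInner_neg_left, neg_eq_zero] at h
    exact Or.inl h
  · exact Or.inr ⟨-1, Or.inr rfl, by simp [← h]⟩
  · rw [classInner_neg_left, classInner_neg_right, neg_neg] at h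
    exact Or.inl h
  · exact Or.inr ⟨1, Or.inl rfl, by simpa using h⟩

theorem orth_first {α β γ δ : X → ℂ} (hα : IsIrrCharacter X α ∨ IsIrrCharacter X (-α))
    (hβ : IsIrrCharacter X β ∨ IsIrrCharacter X (-β))
    (hγ : IsIrrCharacter X γ ∨ IsIrrCharacter X (-γ))
    (hδ : IsIrrCharacter X δ ∨ IsIrrCharacter X (-δ)) (u v : ℝ) (hu : u ≠ 0)
    (hab : classInner α β = 0) (hcd : classInner γ δ = 0)
    (hmix : classInner (α - β) ((u : ℂ) • γ - (v : ℂ) • δ) = 0) (h1 : α 1 = β 1)
    (h2 : (u : ℂ) * γ 1 = (v : ℂ) * δ 1) : classInner α γ = 0 := by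
  refine (sign_or_orth hα hγ).resolve_right ?_
  rintro ⟨s, hs, hαγ⟩
  have hs0 : s ≠ 0 := by rcases hs with rfl | rfl <;> norm_num
  have hαδ : classInner α δ = 0 := by rw [hαγ, classInner_smul_left, hcd, mul_zero]
  have hβγ : classInner β γ = 0 := by
    have h : classInner α β = s * classInner γ β := by rw [hαγ, classInner_smul_left]
    rw [hab] at h
    rw [classInner_conj_symm, (mul_eq_zero.mp h.symm).resolve_left hs0, map_zero]
  have hsu : (u : ℂ) * s + (v : ℂ) * classInner β δ = 0 := by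
    rw [classInner_sub_left, classInner_sub_right, classInner_sub_right] at hmix
    simp only [classInner_smul_right, Complex.conj_ofReal, hαδ, hβγ] at hmix
    rw [show classInner α γ = s by rw [hαγ, classInner_smul_left, (inner_self hγ).1, mul_one]]
      at hmix
    linear_combination hmix
  rcases sign_or_orth hβ hδ with h | ⟨t, ht, hβδ⟩
  · rw [h, mul_zero, add_zero] at hsu
    exact mul_ne_zero (Complex.ofReal_ne_zero.mpr hu) hs0 hsu
  · rw [show classInner β δ = t by rw [hβδ, classInner_smul_left, (inner_self hδ).1, mul_one]]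
      at hsu
    have ea : α 1 = s * γ 1 := by rw [hαγ]; rfl
    have eb : β 1 = t * δ 1 := by rw [hβδ]; rfl
    have es : s * s = 1 := by rcases hs with rfl | rfl <;> norm_num
    have et : t * t = 1 := by rcases ht with rfl | rfl <;> norm_num
    have h4 : ((u : ℂ) * s - (v : ℂ) * t) * α 1 = 0 := by
      linear_combination (u : ℂ) * s * ea + (u : ℂ) * γ 1 * es + h2 - (v : ℂ) * t * h1
        - (v : ℂ) * t * eb - (v : ℂ) * δ 1 * et
    have h5 := (mul_eq_zero.mp h4).resolve_right (inner_self hα).2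
    exact mul_ne_zero (Complex.ofReal_ne_zero.mpr hu) hs0 (by linear_combination (hsu + h5) / 2)

theorem result {X : Type*} [Group X] [Fintype X] (α β γ δ : X → ℂ) (hα : Cfsg.IsIrrCharacter X α ∨ Cfsg.IsIrrCharacter X (-α)) (hβ : Cfsg.IsIrrCharacter X β ∨ Cfsg.IsIrrCharacter X (-β)) (hγ : Cfsg.IsIrrCharacter X γ ∨ Cfsg.IsIrrCharacter X (-γ)) (hδ : Cfsg.IsIrrCharacter X δ ∨ Cfsg.IsIrrCharacter X (-δ)) (u v : ℝ) (hu : u ≠ 0) (hv : v ≠ 0) (hab : Cfsg.classInner α β = 0) (hcd : Cfsg.classInner γ δ = 0) (hmix : Cfsg.classInner (α - β) ((u : ℂ) • γ - (v : ℂ) • δ) = 0) (h1 : α 1 = β 1) (h2 : (u : ℂ) * γ 1 = (v : ℂ) * δ 1) : Cfsg.classInner α γ = 0 ∧ Cfsg.classInner α δ = 0 ∧ Cfsg.classInner β γ = 0 ∧ Cfsg.classInner β δ = 0 := by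
  have hba : classInner β α = 0 := by rw [classInner_conj_symm, hab, map_zero]
  have hdc : classInner δ γ = 0 := by rw [classInner_conj_symm, hcd, map_zero]
  have hneg : (v : ℂ) • δ - (u : ℂ) • γ = -((u : ℂ) • γ - (v : ℂ) • δ) := (neg_sub _ _).symm
  refine ⟨orth_first hα hβ hγ hδ u v hu hab hcd hmix h1 h2,
    orth_first hα hβ hδ hγ v u hv hab hdc ?_ h1 h2.symm,
    orth_first hβ hα hγ hδ u v hu hba hcd ?_ h1.symm h2,
    orth_first hβ hα hδ hγ v u hv hba hdc ?_ h1.symm h2.symm⟩
  · rw [hneg, classInner_neg_right, hmix, neg_zero]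
  · rw [← neg_sub α β, classInner_neg_left, hmix, neg_zero]
  · rw [hneg, ← neg_sub α β, classInner_neg_left, classInner_neg_right, hmix, neg_zero, neg_zero]

end Cfsg.Agent.S1509
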