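import Cfsg.Statements.S1510
import Cfsg.Agent.Lib.CharClifford.CyclicTI
import Mathlib.Tactic

set_option autoImplicit false
open Cfsg

namespace Cfsg.Agent.S1510

open Cfsg.Agent.Lib.CharClifford

theorem result {L : Type*} [Group L] [Fintype L] (K W₁ W₂ : Subgroup L) [hK : K.Normal] (hKW₁ : K ⊓ W₁ = ⊥) (hKW₁' : K ⊔ W₁ = ⊤) (hW₁ : W₁ ≠ ⊥) (hW₁c : IsCyclic W₁) (hHall : Nat.Coprime (Nat.card W₁) W₁.index) (hW₂ : W₂ ≠ ⊥) (hW₂c : IsCyclic W₂) (hW₂K : W₂ ≤ K) (hC : ∀ x ∈ W₁, x ≠ 1 → K ⊓ Subgroup.centralizer ({x} : Set L) = W₂) (hodd : Odd (Nat.card ↥(W₁ ⊔ W₂))) : Cfsg.IsSelfNormalizingCyclic W₁ W₂ := by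
  have hdisj : W₁ ⊓ W₂ = ⊥ := eq_bot_iff.mpr fun x hx => hKW₁ ▸ ⟨hW₂K hx.2, hx.1⟩
  have hcomm : ∀ a ∈ W₁, ∀ b ∈ W₂, a * b = b * a := by
    intro a ha b hb
    rcases eq_or_ne a 1 with rfl | ha1
    · rw [one_mul, mul_one]
    · rw [← hC a ha ha1] at hb
      exact (Subgroup.mem_centralizer_iff.mp hb.2 a rfl)
  have hcompl : Subgroup.IsComplement' K W₁ := by
    refine Subgroup.isComplement'_of_disjoint_and_mul_eq_univ (disjoint_iff.mpr hKW₁) ?_
    rw [← Subgroup.normal_mul K W₁, hKW₁', Subgroup.coe_top]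
  have hcop : Nat.Coprime (Nat.card W₁) (Nat.card W₂) := by
    rw [hcompl.index_eq_card] at hHall
    exact hHall.coprime_dvd_right (Subgroup.card_dvd_of_le hW₂K)
  have hcyc : IsCyclic ↥(W₁ ⊔ W₂) := by
    obtain ⟨a, ha⟩ := hW₁c.exists_generator
    obtain ⟨b, hb⟩ := hW₂c.exists_generator
    have hoa : orderOf (a : L) = Nat.card W₁ := by
      rw [Subgroup.orderOf_coe]; exact orderOf_eq_card_of_forall_mem_zpowers ha
    have hob : orderOf (b : L) = Nat.card W₂ := by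
      rw [Subgroup.orderOf_coe]; exact orderOf_eq_card_of_forall_mem_zpowers hb
    have ho : orderOf ((a : L) * b) = Nat.card W₁ * Nat.card W₂ := by
      rw [(show Commute (a : L) b from hcomm a a.2 b b.2).orderOf_mul_eq_mul_orderOf_of_coprime
        (by rwa [hoa, hob]), hoa, hob]
    have hle : Subgroup.zpowers ((a : L) * b) ≤ W₁ ⊔ W₂ :=
      Subgroup.zpowers_le.mpr (Subgroup.mul_mem_sup a.2 b.2)
    have hge : Nat.card ↥(W₁ ⊔ W₂) ≤ Nat.card (Subgroup.zpowers ((a : L) * b)) := by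
      rw [Nat.card_zpowers, ho]
      have h := MonoidHom.noncommCoprod_range W₁.subtype W₂.subtype fun x y => hcomm x x.2 y y.2
      rw [Subgroup.range_subtype, Subgroup.range_subtype] at h
      rw [← h, ← Nat.card_prod]
      exact Nat.card_le_card_of_surjective _ (MonoidHom.rangeRestrict_surjective _)
    rw [← Subgroup.eq_of_le_of_card_ge hle hge]
    infer_instance
  refine ⟨hW₁, hW₂, hdisj, hcomm, hcyc, fun X hX hXne => le_antisymm ?_ ?_⟩
  · intro g hg
    obtain ⟨x, hx⟩ := hXne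
    obtain ⟨k, hk, w, hw, rfl⟩ := Subgroup.mem_sup_of_normal_left.mp
      (show g ∈ K ⊔ W₁ from hKW₁' ▸ Subgroup.mem_top g)
    refine (W₁ ⊔ W₂).mul_mem (Subgroup.mem_sup_right ?_) (Subgroup.mem_sup_left hw)
    have hy : k * w * x * (k * w)⁻¹ ∈ X := (hg x).mp hx
    obtain ⟨hxW, hxn⟩ := hX hx
    rw [Set.mem_union, not_or] at hxn
    obtain ⟨a, ha, b, hb, rfl⟩ := exists_mul_of_mem_sup hcomm hxW
    obtain ⟨a', ha', b', hb', hab'⟩ := exists_mul_of_mem_sup hcomm (hX hy).1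
    have hwc : Commute w (a * b) := by
      refine Commute.mul_right ?_ (hcomm w hw b hb)
      obtain ⟨c, hc⟩ := hW₁c.exists_generator
      obtain ⟨i, hi⟩ := Subgroup.mem_zpowers_iff.mp (hc ⟨w, hw⟩)
      obtain ⟨j, hj⟩ := Subgroup.mem_zpowers_iff.mp (hc ⟨a, ha⟩)
      have e := congrArg Subtype.val ((Commute.refl c).zpow_zpow i j)
      exact (by simpa [hi, hj] using e : _ = _)
    have hky : k * (a * b) * k⁻¹ = a' * b' := by
      rw [hab']
      calc k * (a * b) * k⁻¹ = k * (a * b * w * w⁻¹) * k⁻¹ := by rw [mul_inv_cancel_right]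
        _ = k * w * (a * b) * (k * w)⁻¹ := by rw [← hwc.eq]; group
    have haa : a' = a := by
      have h := congrArg (QuotientGroup.mk' K) hky
      simp only [map_mul, map_inv] at h
      have e : ∀ y ∈ K, QuotientGroup.mk' K y = 1 := fun y hy => (QuotientGroup.eq_one_iff y).mpr hy
      rw [e k hk, e b (hW₂K hb), e b' (hW₂K hb'), inv_one, one_mul, mul_one, mul_one, mul_one,
        QuotientGroup.mk'_eq_mk'] at h
      obtain ⟨z, hz, hz'⟩ := h
      have : z ∈ K ⊓ W₁ := ⟨hz, by simpa [← hz'] using W₁.mul_mem (W₁.inv_mem ha) ha'⟩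
      rw [hKW₁, Subgroup.mem_bot] at this
      rw [← hz', this, mul_one]
    subst haa
    have ha1 : a' ≠ 1 := fun h => hxn.2 (by simpa [h] using hb)
    rw [← hC a' ha ha1]
    obtain ⟨e, he1, he2⟩ := Nat.chineseRemainder hcop 1 0
    have hpow : ∀ c ∈ W₂, (a' * c) ^ e = a' := by
      intro c hc
      rw [(show Commute a' c from hcomm a' ha c hc).mul_pow]
      have h1 : a' ^ e = a' := by
        conv_rhs => rw [← pow_one a']
        rw [pow_eq_pow_iff_modEq]
        exact he1.of_dvd (Subgroup.orderOf_dvd_natCard _ ha)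
      have h2 : c ^ e = 1 := orderOf_dvd_iff_pow_eq_one.mp
        ((Subgroup.orderOf_dvd_natCard _ hc).trans ((Nat.modEq_zero_iff_dvd).mp he2))
      rw [h1, h2, mul_one]
    have h3 : k * a' * k⁻¹ = a' := by
      have h := congrArg (· ^ e) hky
      simp only [conj_pow, hpow b hb, hpow b' hb'] at h
      exact h
    refine ⟨hk, Subgroup.mem_centralizer_singleton_iff.mpr ?_⟩
    rw [mul_inv_eq_iff_eq_mul] at h3
    exact h3
  · intro g hg n
    have key : ∀ n, n ∈ X ∨ g * n * g⁻¹ ∈ X → g * n * g⁻¹ = n := by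
      have hcomm' : ∀ v ∈ W₁ ⊔ W₂, Commute g v := by
        intro v hv
        obtain ⟨c, hc⟩ := hcyc.exists_generator
        obtain ⟨i, hi⟩ := Subgroup.mem_zpowers_iff.mp (hc ⟨g, hg⟩)
        obtain ⟨j, hj⟩ := Subgroup.mem_zpowers_iff.mp (hc ⟨v, hv⟩)
        have e := congrArg Subtype.val ((Commute.refl c).zpow_zpow i j)
        exact (by simpa [hi, hj] using e : _ = _)
      rintro n (h | h)
      · rw [(hcomm' n (hX h).1).eq, mul_inv_cancel_right]
      · have hn : n ∈ W₁ ⊔ W₂ := by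
          have := (W₁ ⊔ W₂).mul_mem ((W₁ ⊔ W₂).mul_mem ((W₁ ⊔ W₂).inv_mem hg) (hX h).1) hg
          simpa [mul_assoc] using this
        rw [(hcomm' n hn).eq, mul_inv_cancel_right]
    exact ⟨fun h => by rw [key n (Or.inl h)]; exact h, fun h => by rwa [key n (Or.inr h)] at h⟩

end Cfsg.Agent.S1510
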