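import Cfsg.Statements.S1511
import Cfsg.Agent.S1510
import Cfsg.Agent.Lib.CharClifford.CyclicTIGrid
import Cfsg.Agent.Lib.Char.Coherent
import Cfsg.Agent.Lib.Dade.Lattice
import Cfsg.Agent.Lib.Involution.Exceptional
import Mathlib.Tactic

set_option autoImplicit false
open scoped ComplexConjugate
open Cfsg

namespace Cfsg.Agent.S1511

open Cfsg.Agent.Lib.Char Cfsg.Agent.Lib.CharClifford Cfsg.Agent.Lib.Dade

variable {L : Type*} [Group L] [Fintype L]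

/-- The elements of `W₁ ⊔ W₂` outside `W₂` form a trivial intersection set. -/
theorem dade_outside (K W₁ W₂ : Subgroup L) [K.Normal] (hKW₁ : K ⊓ W₁ = ⊥) (hKW₁' : K ⊔ W₁ = ⊤)
    (hW₂K : W₂ ≤ K) (hC : ∀ x ∈ W₁, x ≠ 1 → K ⊓ Subgroup.centralizer ({x} : Set L) = W₂)
    (hW : IsSelfNormalizingCyclic W₁ W₂) :
    DadeHypothesis ((↑(W₁ ⊔ W₂) : Set L) \ ↑W₂) (W₁ ⊔ W₂) (fun _ => ⊥) := by
  obtain ⟨-, -, -, hcomm, -, -⟩ := id hW
  have hab : ∀ u ∈ W₁ ⊔ W₂, ∀ v ∈ W₁ ⊔ W₂, u * v = v * u := fun u hu v hv =>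
    congrArg Subtype.val (mul_comm_W hW ⟨u, hu⟩ ⟨v, hv⟩)
  have key : ∀ g : L, ∀ x ∈ (↑(W₁ ⊔ W₂) : Set L) \ ↑W₂,
      g * x * g⁻¹ ∈ (↑(W₁ ⊔ W₂) : Set L) \ ↑W₂ → g ∈ W₁ ⊔ W₂ := by
    intro g x hx hy
    obtain ⟨k, hk, w, hw, rfl⟩ := Subgroup.mem_sup_of_normal_left.mp
      (show g ∈ K ⊔ W₁ from hKW₁' ▸ Subgroup.mem_top g)
    refine (W₁ ⊔ W₂).mul_mem (Subgroup.mem_sup_right ?_) (Subgroup.mem_sup_left hw)
    obtain ⟨a, ha, b, hb, rfl⟩ := exists_mul_of_mem_sup hcomm hx.1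
    obtain ⟨a', ha', b', hb', hab'⟩ := exists_mul_of_mem_sup hcomm hy.1
    have hky : k * (a * b) * k⁻¹ = a' * b' := by
      rw [hab']
      calc k * (a * b) * k⁻¹ = k * (a * b * w * w⁻¹) * k⁻¹ := by rw [mul_inv_cancel_right]
        _ = k * w * (a * b) * (k * w)⁻¹ := by
            rw [hab _ hx.1 w (Subgroup.mem_sup_left hw)]; group
    have haa : a' = a := by
      have h := congrArg (QuotientGroup.mk' K) hky
      simp only [map_mul, map_inv] at h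
      have e : ∀ y ∈ K, QuotientGroup.mk' K y = 1 := fun y hy => (QuotientGroup.eq_one_iff y).mpr hy
      rw [e k hk, e b (hW₂K hb), e b' (hW₂K hb'), inv_one, one_mul, mul_one, mul_one, mul_one,
        QuotientGroup.mk'_eq_mk'] at h
      obtain ⟨z, hz, hz'⟩ := h
      have : z ∈ K ⊓ W₁ := ⟨hz, by simpa [← hz'] using W₁.mul_mem (W₁.inv_mem ha) ha'⟩
      rw [hKW₁, Subgroup.mem_bot] at this
      rw [← hz', this, mul_one]
    subst haa
    have ha1 : a' ≠ 1 := fun h => hx.2 (by simpa [h] using hb)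
    rw [← hC a' ha ha1]
    obtain ⟨e, he1, he2⟩ := Nat.chineseRemainder (coprime_cards hW) 1 0
    have hpow : ∀ c ∈ W₂, (a' * c) ^ e = a' := by
      intro c hc
      rw [(show Commute a' c from hcomm a' ha c hc).mul_pow]
      have h1 : a' ^ e = a' := by
        conv_rhs => rw [← pow_one a']
        rw [pow_eq_pow_iff_modEq]
        exact he1.of_dvd (Subgroup.orderOf_dvd_natCard _ ha)
      have h2 : c ^ e = 1 := orderOf_dvd_iff_pow_eq_one.mp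
        ((Subgroup.orderOf_dvd_natCard _ hc).trans ((Nat.modEq_zero_iff_dvd).mp he2))
      rw [h1, h2, mul_one]
    have h3 : k * a' * k⁻¹ = a' := by
      have h := congrArg (· ^ e) hky
      simp only [conj_pow, hpow b hb, hpow b' hb'] at h
      exact h
    refine ⟨hk, Subgroup.mem_centralizer_singleton_iff.mpr ?_⟩
    rw [mul_inv_eq_iff_eq_mul] at h3
    exact h3
  refine ⟨fun h => h.2 W₂.one_mem, fun _ h => h.1, fun x hx a ha => ?_, fun a ha g hg => ?_,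
    fun _ _ => bot_le, fun _ _ c _ u hu => ?_, fun _ _ => bot_inf_eq _, fun a ha => ?_,
    fun _ _ _ _ => by rw [Subgroup.card_bot]; exact Nat.coprime_one_left _⟩
  · rwa [hab x hx a ha.1, mul_inv_cancel_right]
  · exact ⟨g, key g a ha hg, rfl⟩
  · rw [Subgroup.mem_bot] at hu ⊢
    rw [hu, mul_one, mul_inv_cancel]
  · rw [bot_sup_eq, inf_eq_right]
    intro c hc
    refine key c a ha ?_
    rwa [Subgroup.mem_centralizer_singleton_iff.mp hc, mul_inv_cancel_right]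

theorem exists_linear {W : Type*} [Group W] [Finite W] (hcomm : ∀ a b : W, a * b = b * a)
    (χ : IrrCharacter W) : ∃ l : W →* ℂˣ, (χ : W → ℂ) = fun w => (l w : ℂ) := by
  have : IsMulCommutative W := ⟨⟨hcomm⟩⟩
  have h1 : (χ : W → ℂ) 1 = 1 := by
    obtain ⟨m, τ, hτ, hτ'⟩ := χ.2
    rw [← hτ', Representation.char_one,
      Representation.IsIrreducible.finrank_eq_one_of_isMulCommutative τ, Nat.cast_one]
  obtain ⟨l, hl⟩ := exists_hom_of_degree_one (isCharacter_of_isIrr χ.2) h1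
  exact ⟨l, funext hl⟩

end Cfsg.Agent.S1511

namespace Cfsg.Agent.S1511

open Cfsg.Agent.Lib.Char Cfsg.Agent.Lib.CharClifford Cfsg.Agent.Lib.Dade

theorem result {L : Type*} [Group L] [Fintype L] (K W₁ W₂ : Subgroup L) [hK : K.Normal] (hKW₁ : K ⊓ W₁ = ⊥) (hKW₁' : K ⊔ W₁ = ⊤) (hW₁ : W₁ ≠ ⊥) (hW₁c : IsCyclic W₁) (hHall : Nat.Coprime (Nat.card W₁) W₁.index) (hW₂ : W₂ ≠ ⊥) (hW₂c : IsCyclic W₂) (hW₂K : W₂ ≤ K) (hC : ∀ x ∈ W₁, x ≠ 1 → K ⊓ Subgroup.centralizer ({x} : Set L) = W₂) (hodd : Odd (Nat.card ↥(W₁ ⊔ W₂))) : ∃ (μ : (↥(W₁ ⊔ W₂) →* ℂˣ) → (L → ℂ)) (δ : (↥(W₁ ⊔ W₂) →* ℂˣ) → ℂ), Function.Injective μ ∧ (∀ ω, Cfsg.IsIrrCharacter L (μ ω)) ∧ (∀ ω, δ ω = 1 ∨ δ ω = -1) ∧ (∀ ω ω' : ↥(W₁ ⊔ W₂) →* ℂˣ, (∀ w : ↥(W₁ ⊔ W₂), (w : L) ∈ W₂ → ω w = ω' w) → δ ω = δ ω' ∧ Cfsg.indFun (W₁ ⊔ W₂) (fun w => (ω w : ℂ) - (ω' w : ℂ)) = δ ω • (μ ω - μ ω')) ∧ (∀ ω, ∀ w : ↥(W₁ ⊔ W₂), (w : L) ∉ W₂ → μ ω w =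 δ ω * (ω w : ℂ)) ∧ (∀ θ : L → ℂ, Cfsg.IsIrrCharacter L θ → (∀ ω, θ ≠ μ ω) → ∀ w : ↥(W₁ ⊔ W₂), (w : L) ∉ W₂ → θ w = 0) ∧ (∀ ω, ∃ n : ℤ, μ ω 1 - δ ω = n * (Nat.card W₁ : ℂ)) := by
  classical
  have hW := S1510.result K W₁ W₂ hKW₁ hKW₁' hW₁ hW₁c hHall hW₂ hW₂c hW₂K hC hodd
  obtain ⟨-, -, hdisj, hcomm, -, -⟩ := id hW
  have hD := dade_outside K W₁ W₂ hKW₁ hKW₁' hW₂K hC hW
  have := Fintype.ofFinite ↥(W₁ ⊔ W₂)
  have := finite_homs hW
  have := Fintype.ofFinite (↥(W₁ ⊔ W₂) →* ℂˣ)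
  have := Fintype.ofFinite (leftHoms W₁ W₂)
  have := Fintype.ofFinite (rightHoms W₁ W₂)
  let e := gridEquiv hdisj hcomm
  have he : ∀ (φ : leftHoms W₁ W₂) (ψ : rightHoms W₁ W₂) (w : ↥(W₁ ⊔ W₂)), (w : L) ∈ W₂ →
      e (φ, ψ) w = ψ.1 w := fun φ ψ w hw => by
    rw [gridEquiv_apply, MonoidHom.mul_apply, φ.2 w hw, one_mul]
  let f : leftHoms W₁ W₂ → rightHoms W₁ W₂ → ↥(W₁ ⊔ W₂) → ℂ := fun φ ψ =>
    (fun w => (e (φ, ψ) w : ℂ)) - fun w => (e (1, ψ) w : ℂ)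
  have hfA : ∀ φ ψ, ∀ w : ↥(W₁ ⊔ W₂), (w : L) ∉ (↑(W₁ ⊔ W₂) : Set L) \ ↑W₂ → f φ ψ w = 0 := by
    intro φ ψ w hw
    have hw2 : (w : L) ∈ W₂ := by_contra fun h => hw ⟨w.2, h⟩
    simp only [f, Pi.sub_apply, he φ ψ w hw2, he 1 ψ w hw2, sub_self]
  have hindV : ∀ φ ψ, ∀ w : ↥(W₁ ⊔ W₂), (w : L) ∉ W₂ → indFun (W₁ ⊔ W₂) (f φ ψ) w = f φ ψ w := by
    intro φ ψ w hw
    rw [indFun_eq_dade hD (isClassFunction_W hW _) (hfA φ ψ)]
    exact dade_apply hD (isClassFunction_W hW _) (x := 1) ⟨w.2, hw⟩ (Subgroup.one_mem _) (by group)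
  have hlin : ∀ p q : leftHoms W₁ W₂ × rightHoms W₁ W₂,
      classInner (fun w => (e p w : ℂ)) (fun w => (e q w : ℂ)) = if p = q then 1 else 0 := fun p q => by
    rw [classInner_linear]
    by_cases h : p = q
    · rw [if_pos h, if_pos (congrArg e h)]
    · rw [if_neg h, if_neg (e.injective.ne h)]
  have hinner : ∀ φ φ' ψ ψ', classInner (indFun (W₁ ⊔ W₂) (f φ ψ)) (indFun (W₁ ⊔ W₂) (f φ' ψ')) =
      classInner (f φ ψ) (f φ' ψ') := by
    intro φ φ' ψ ψ'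
    rw [classInner_indFun _ _ (isClassFunction_indFun _ _), classInner, classInner]
    congr 1
    refine Finset.sum_congr rfl fun w _ => ?_
    by_cases hw : (w : L) ∈ W₂
    · rw [hfA φ ψ w (fun h => h.2 hw), zero_mul, zero_mul]
    · rw [hindV φ' ψ' w hw]
  have hgen : ∀ φ ψ, IsGeneralizedCharacter L (indFun (W₁ ⊔ W₂) (f φ ψ)) := fun φ ψ =>
    Cfsg.Agent.Lib.Involution.isGeneralized_indFun _ (generalized_sub
      (generalized_of_isCharacter (isCharacter_of_isIrr (isIrrCharacter_linear _)))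
      (generalized_of_isCharacter (isCharacter_of_isIrr (isIrrCharacter_linear _))))
  have hfam : ∀ ψ : rightHoms W₁ W₂, ∃ ε : ℂ, (ε = 1 ∨ ε = -1) ∧
      ∃ μ : leftHoms W₁ W₂ → IrrCharacter L, Function.Injective μ ∧
        ∀ φ, indFun (W₁ ⊔ W₂) (f φ ψ) = ε • ((μ φ : L → ℂ) - (μ 1 : L → ℂ)) := by
    intro ψ
    refine exists_coherent_family 1 (fun φ => indFun (W₁ ⊔ W₂) (f φ ψ)) ?_ (fun φ => hgen φ ψ)
      (fun φ => ?_) fun φ φ' h h' => ?_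
    · rw [show f 1 ψ = 0 from sub_self _, indFun_zero]
    · show indFun (W₁ ⊔ W₂) (f φ ψ) 1 = 0
      rw [indFun_one, hfA φ ψ 1 (fun hh => hh.2 W₂.one_mem), mul_zero]
    · have e0 : classInner (f φ ψ) (f φ' ψ) = (if φ = φ' then 1 else 0) + 1 := by
        simp only [f]
        rw [classInner_sub_left, classInner_sub_right, classInner_sub_right, hlin, hlin, hlin, hlin,
          if_neg (show (φ, ψ) ≠ (1, ψ) from fun hh => h (congrArg Prod.fst hh)),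
          if_neg (show ((1 : leftHoms W₁ W₂), ψ) ≠ (φ', ψ) from fun hh => h' (congrArg Prod.fst hh).symm),
          if_pos rfl,
          if_congr (show (φ, ψ) = (φ', ψ) ↔ φ = φ' from ⟨congrArg Prod.fst, fun hh => by rw [hh]⟩) rfl rfl]
        ring
      refine ⟨fun hh => ?_, fun hh => ?_⟩ <;> rw [hinner, e0]
      · rw [if_pos hh]; norm_num
      · rw [if_neg hh]; norm_num
  choose ε hε μ₀ hμinj hμ using hfam
  have hεc : ∀ ψ, conj (ε ψ) = ε ψ := fun ψ => by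
    rcases hε ψ with h | h <;> simp [h]
  have hεsq : ∀ ψ, ε ψ * ε ψ = 1 := fun ψ => by rcases hε ψ with h | h <;> simp [h]
  have hεne : ∀ ψ, ε ψ ≠ 0 := fun ψ => by rcases hε ψ with h | h <;> simp [h]
  have hdiff : ∀ φ φ' ψ, indFun (W₁ ⊔ W₂)
      ((fun w => (e (φ, ψ) w : ℂ)) - fun w => (e (φ', ψ) w : ℂ)) =
        ε ψ • ((μ₀ ψ φ : L → ℂ) - (μ₀ ψ φ' : L → ℂ)) := by
    intro φ φ' ψ
    have h : ((fun w => (e (φ, ψ) w : ℂ)) - fun w => (e (φ', ψ) w : ℂ)) = f φ ψ - f φ' ψ := by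
      simp only [f]; abel
    rw [h, indFun_sub, hμ, hμ, ← smul_sub]
    congr 1
    abel
  have hnt : Nontrivial (leftHoms W₁ W₂) := by
    rw [← Fintype.one_lt_card_iff_nontrivial, ← Nat.card_eq_fintype_card, card_leftHoms hW]
    exact Subgroup.one_lt_card_iff_ne_bot W₁ |>.mpr hW₁
  have hdisjoint : ∀ ψ ψ' φ φ', ψ ≠ ψ' → μ₀ ψ φ ≠ μ₀ ψ' φ' := by
    intro ψ ψ' φ φ' hne hμe
    obtain ⟨η, hη⟩ := exists_ne φ
    obtain ⟨η', hη'⟩ := exists_ne φ'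
    have h := congrArg₂ classInner (hdiff φ η ψ) (hdiff φ' η' ψ')
    have hz : classInner (indFun (W₁ ⊔ W₂) ((fun w => (e (φ, ψ) w : ℂ)) - fun w => (e (η, ψ) w : ℂ)))
        (indFun (W₁ ⊔ W₂) ((fun w => (e (φ', ψ') w : ℂ)) - fun w => (e (η', ψ') w : ℂ))) = 0 := by
      have hA : ((fun w => (e (φ, ψ) w : ℂ)) - fun w => (e (η, ψ) w : ℂ)) = f φ ψ - f η ψ := by
        simp only [f]; abel
      have hA' : ((fun w => (e (φ', ψ') w : ℂ)) - fun w => (e (η', ψ') w : ℂ)) = f φ' ψ' - f η' ψ' := by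
        simp only [f]; abel
      have h0 : ∀ a b, classInner (f a ψ) (f b ψ') = 0 := fun a b => by
        simp only [f]
        rw [classInner_sub_left, classInner_sub_right, classInner_sub_right, hlin, hlin, hlin, hlin,
          if_neg (fun hh => hne (congrArg Prod.snd hh)), if_neg (fun hh => hne (congrArg Prod.snd hh)),
          if_neg (fun hh => hne (congrArg Prod.snd hh)), if_neg (fun hh => hne (congrArg Prod.snd hh))]
        ring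
      rw [hA, hA', indFun_sub _ (f φ ψ) (f η ψ), indFun_sub _ (f φ' ψ') (f η' ψ'), classInner_sub_left, classInner_sub_right, classInner_sub_right,
        hinner, hinner, hinner, hinner, h0, h0, h0, h0]
      ring
    rw [hz, classInner_smul_left, classInner_smul_right, classInner_sub_sub, hμe,
      if_pos rfl, if_neg (fun hh => hη' (hμinj ψ' hh).symm),
      if_neg (fun hh : μ₀ ψ η = μ₀ ψ' φ' => hη (hμinj ψ (hh.trans hμe.symm)))] at h
    have h1 := (mul_eq_zero.mp h.symm).resolve_left (hεne ψ)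
    have h2 := (mul_eq_zero.mp h1).resolve_left (by rw [hεc]; exact hεne ψ')
    have h3 : (1 : ℤ) + (if μ₀ ψ η = μ₀ ψ' η' then 1 else 0) - 0 - 0 = 0 := by exact_mod_cast h2
    split_ifs at h3
    · exact absurd h3 (by norm_num)
    · exact absurd h3 (by norm_num)
  let μ : (↥(W₁ ⊔ W₂) →* ℂˣ) → L → ℂ := fun ω => (μ₀ (e.symm ω).2 (e.symm ω).1 : L → ℂ)
  let δ : (↥(W₁ ⊔ W₂) →* ℂˣ) → ℂ := fun ω => ε (e.symm ω).2
  have hμe : ∀ φ ψ, μ (e (φ, ψ)) = (μ₀ ψ φ : L → ℂ) ∧ δ (e (φ, ψ)) = ε ψ := fun φ ψ => by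
    simp only [μ, δ, Equiv.symm_apply_apply, and_self]
  have hμinj' : ∀ p q : leftHoms W₁ W₂ × rightHoms W₁ W₂, μ₀ p.2 p.1 = μ₀ q.2 q.1 → p = q := by
    intro p q h
    have hs : p.2 = q.2 := by_contra fun hh => hdisjoint _ _ _ _ hh h
    rw [hs] at h
    exact Prod.ext (hμinj _ h) hs
  have hinj : Function.Injective μ := fun ω ω' h => e.symm.injective (hμinj' _ _ (Subtype.ext h))
  have hsum0 : ∀ w : ↥(W₁ ⊔ W₂), (w : L) ∉ W₂ → ∑ φ : leftHoms W₁ W₂, (φ.1 w : ℂ) = 0 := by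
    intro w hw
    letI : CommGroup ↥(W₁ ⊔ W₂) :=
      { (inferInstance : Group ↥(W₁ ⊔ W₂)) with mul_comm := mul_comm_W hW }
    obtain ⟨hp1, hp2⟩ := projLeft_spec hdisj hcomm w
    obtain ⟨ω, hω⟩ := CommGroup.exists_apply_ne_one_of_hasEnoughRootsOfUnity ↥(W₁ ⊔ W₂) ℂ
      (a := projLeft hdisj hcomm w) (fun h => hw (by rwa [h, inv_one, one_mul] at hp2))
    let ev : leftHoms W₁ W₂ →* ℂ :=
      { toFun := fun φ => (φ.1 w : ℂ)
        map_one' := by simp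
        map_mul' := fun a b => by simp }
    show ∑ φ, ev φ = 0
    rw [sum_hom_units ev, if_neg fun h => ?_, Nat.cast_zero]
    exact hω (Units.ext (DFunLike.congr_fun h ⟨ω.comp (projLeft hdisj hcomm), fun v hv => by
      rw [MonoidHom.comp_apply, projLeft_of_right hdisj hcomm hv, map_one]⟩))
  have hmain : ∀ θ : L → ℂ, IsIrrCharacter L θ → ∃ c : rightHoms W₁ W₂ → ℤ,
      ∀ w : ↥(W₁ ⊔ W₂), θ w = ∑ ψ, (c ψ : ℂ) * (ψ.1 w : ℂ) * ∑ φ : leftHoms W₁ W₂, (φ.1 w : ℂ) +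
        ∑ p : leftHoms W₁ W₂ × rightHoms W₁ W₂,
          if (μ₀ p.2 p.1 : L → ℂ) = θ then ε p.2 * (e p w : ℂ) else 0 := by
    intro θ hθ
    set r : ↥(W₁ ⊔ W₂) → ℂ := fun w => θ w with hr
    have hcf := isClassFunction_of_isIrr hθ
    have hcoef : ∀ p, ∃ z : ℤ, classInner r (fun w => (e p w : ℂ)) = z := fun p => by
      obtain ⟨m, hm⟩ := classInner_natCast (isCharacter_restrict (isCharacter_of_isIrr hθ) (W₁ ⊔ W₂))
        (isCharacter_of_isIrr (isIrrCharacter_linear (e p)))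
      exact ⟨m, by rw [Int.cast_natCast]; exact hm⟩
    choose z hz using hcoef
    have hline : ∀ φ ψ, (z (φ, ψ) : ℂ) - z (1, ψ) =
        (if (μ₀ ψ φ : L → ℂ) = θ then ε ψ else 0) - if (μ₀ ψ 1 : L → ℂ) = θ then ε ψ else 0 := by
      intro φ ψ
      have h := classInner_indFun_right (W₁ ⊔ W₂) (f φ ψ) hcf
      rw [hμ, classInner_smul_right, classInner_sub_right] at h
      rw [← hz, ← hz, ← classInner_sub_right, ← h, hεc]
      have hI : ∀ χ : IrrCharacter L, classInner θ (χ : L → ℂ) = if (χ : L → ℂ) = θ then 1 else 0 :=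
        fun χ => by
          split_ifs with hh
          · rw [hh]; exact classInner_irr_self hθ
          · exact classInner_irr_ne hθ χ.2 (Ne.symm hh)
      rw [hI, hI]
      split_ifs <;> ring
    refine ⟨fun ψ => z (1, ψ) -
      if (μ₀ ψ 1 : L → ℂ) = θ then (if ε ψ = 1 then 1 else -1) else 0, fun w => ?_⟩
    have hexp : r w = ∑ p : leftHoms W₁ W₂ × rightHoms W₁ W₂, (z p : ℂ) * (e p w : ℂ) := by
      have h := congrFun (eq_sum_classInner_smul (isClassFunction_W hW r)) w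
      simp only [Finset.sum_apply, Pi.smul_apply, smul_eq_mul] at h
      rw [h]
      refine (Fintype.sum_bijective (fun p => (⟨fun v => (e p v : ℂ), isIrrCharacter_linear (e p)⟩ :
        IrrCharacter ↥(W₁ ⊔ W₂))) ⟨fun p q hpq => ?_, fun χ => ?_⟩ _ _ fun p => ?_).symm
      · exact e.injective (MonoidHom.ext fun v => Units.ext (congrFun (congrArg Subtype.val hpq) v))
      · obtain ⟨l, hl⟩ := exists_linear (mul_comm_W hW) χ
        exact ⟨e.symm l, Subtype.ext (by simp [hl])⟩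
      · rw [hz]
    show r w = _
    rw [hexp]
    have hz' : ∀ p : leftHoms W₁ W₂ × rightHoms W₁ W₂, (z p : ℂ) * (e p w : ℂ) =
        ((z (1, p.2) : ℂ) - if (μ₀ p.2 1 : L → ℂ) = θ then ε p.2 else 0) * (p.2.1 w : ℂ) * (p.1.1 w : ℂ) +
          if (μ₀ p.2 p.1 : L → ℂ) = θ then ε p.2 * (e p w : ℂ) else 0 := by
      rintro ⟨φ, ψ⟩
      have h1 := hline φ ψ
      have h2 : (e (φ, ψ) w : ℂ) = (φ.1 w : ℂ) * (ψ.1 w : ℂ) := by
        rw [gridEquiv_apply, MonoidHom.mul_apply, Units.val_mul]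
      dsimp only
      rw [h2]
      split_ifs at h1 ⊢ <;> linear_combination ((φ.1 w : ℂ) * (ψ.1 w : ℂ)) * h1
    rw [Finset.sum_congr rfl fun p _ => hz' p, Finset.sum_add_distrib]
    congr 1
    rw [Fintype.sum_prod_type, Finset.sum_comm]
    refine Finset.sum_congr rfl fun ψ _ => ?_
    rw [Finset.mul_sum]
    refine Finset.sum_congr rfl fun φ _ => ?_
    push_cast
    rcases hε ψ with hh | hh <;> simp [hh] <;> norm_num
  have hsingle : ∀ (φ₀ : leftHoms W₁ W₂) (ψ₀ : rightHoms W₁ W₂) (w : ↥(W₁ ⊔ W₂)),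
      (∑ p : leftHoms W₁ W₂ × rightHoms W₁ W₂,
        if (μ₀ p.2 p.1 : L → ℂ) = (μ₀ ψ₀ φ₀ : L → ℂ) then ε p.2 * (e p w : ℂ) else 0) =
        ε ψ₀ * (e (φ₀, ψ₀) w : ℂ) := by
    intro φ₀ ψ₀ w
    rw [Finset.sum_eq_single (φ₀, ψ₀) (fun p _ hp => if_neg fun hh => hp (hμinj' p (φ₀, ψ₀) (Subtype.ext hh)))
      (fun hh => absurd (Finset.mem_univ _) hh), if_pos rfl]
  refine ⟨μ, δ, hinj, fun ω => (μ₀ _ _).2, fun ω => hε _, fun ω ω' h => ?_, fun ω w hw => ?_,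
    fun θ hθ hne w hw => ?_, fun ω => ?_⟩
  · obtain ⟨⟨φ, ψ⟩, rfl⟩ := e.surjective ω
    obtain ⟨⟨φ', ψ'⟩, rfl⟩ := e.surjective ω'
    have hψ : ψ = ψ' := Subtype.ext (hom_ext_sup hcomm (fun w hw => by rw [ψ.2 w hw, ψ'.2 w hw])
      fun w hw => by rw [← he φ ψ w hw, ← he φ' ψ' w hw]; exact h w hw)
    subst hψ
    rw [(hμe φ ψ).2, (hμe φ' ψ).2, (hμe φ ψ).1, (hμe φ' ψ).1]
    exact ⟨rfl, hdiff φ φ' ψ⟩
  · obtain ⟨⟨φ, ψ⟩, rfl⟩ := e.surjective ω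
    obtain ⟨c, hc⟩ := hmain _ (μ₀ ψ φ).2
    rw [(hμe φ ψ).1, (hμe φ ψ).2, hc w, hsingle]
    simp [hsum0 w hw]
  · obtain ⟨c, hc⟩ := hmain θ hθ
    rw [hc w, Finset.sum_eq_zero fun ψ _ => by rw [hsum0 w hw, mul_zero], zero_add]
    refine Finset.sum_eq_zero fun p _ => if_neg fun hh => ?_
    exact hne (e p) (by rw [(hμe p.1 p.2).1]; exact hh.symm)
  · obtain ⟨⟨φ, ψ⟩, rfl⟩ := e.surjective ω
    obtain ⟨c, hc⟩ := hmain _ (μ₀ ψ φ).2
    refine ⟨∑ ψ, c ψ, ?_⟩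
    have h := hc 1
    rw [hsingle] at h
    rw [(hμe φ ψ).1, (hμe φ ψ).2]
    simp only [map_one, Units.val_one, mul_one, Finset.sum_const, Finset.card_univ,
      ← Nat.card_eq_fintype_card, card_leftHoms hW, nsmul_eq_mul, OneMemClass.coe_one] at h
    rw [← Finset.sum_mul] at h
    push_cast at h ⊢
    linear_combination h

end Cfsg.Agent.S1511
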