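import Cfsg.Statements.S1512
import Cfsg.Agent.Lib.CharClifford.CoprimeClasses
import Mathlib.Tactic

set_option autoImplicit false
open Cfsg

namespace Cfsg.Agent.S1512

open Cfsg.Agent.Lib.CharClifford

theorem result {L : Type*} [Group L] [Finite L] (K W₂ : Subgroup L) [hK : K.Normal] (x : L) (hx1 : x ≠ 1) (hx : Nat.Coprime (orderOf x) (Nat.card K)) (hC : ∀ y ∈ Subgroup.zpowers x, y ≠ 1 → K ⊓ Subgroup.centralizer ({y} : Set L) = W₂) : Nat.card {C : ConjClasses K // ConjClasses.map (MulEquiv.toMonoidHom ((MulAut.conjNormal x : MulAut K))) C = C} ≤ Nat.card W₂ := by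
  classical
  have hCx := hC x (Subgroup.mem_zpowers x) hx1
  have hfix : ∀ C : {C : ConjClasses K // ConjClasses.map
      (MulEquiv.toMonoidHom ((MulAut.conjNormal x : MulAut K))) C = C},
      ∃ w : K, ConjClasses.mk w = C.1 ∧ (w : L) ∈ W₂ := fun C => by
    have hcf : classFixed K x C.1 := by
      intro h hh
      have := C.2
      rw [← hh] at this
      exact ConjClasses.mk_eq_mk_iff_isConj.mp this
    obtain ⟨w, hw, hcomm⟩ := exists_mem_commute_of_classFixed K hx hcf
    exact ⟨w, hw, hCx.le ⟨w.2, Subgroup.mem_centralizer_singleton_iff.mpr hcomm.symm⟩⟩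
  choose w hw hwW using hfix
  refine Nat.card_le_card_of_injective (fun C => (⟨w C, hwW C⟩ : W₂)) fun C D h => ?_
  have : w C = w D := Subtype.ext (congrArg (fun t : W₂ => (t : L)) h)
  exact Subtype.ext (by rw [← hw C, ← hw D, this])

end Cfsg.Agent.S1512
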