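import Cfsg.Statements.S1513
import Cfsg.Agent.Lib.CharClifford.CoprimeClasses
import Cfsg.Agent.Lib.CharClifford.Extend
import Cfsg.Agent.Lib.CharClifford.Gallagher
import Mathlib.Tactic

set_option autoImplicit false
open scoped ComplexConjugate
open Cfsg

namespace Cfsg.Agent.S1513

open Cfsg.Agent.Lib.Char Cfsg.Agent.Lib

universe u

/-- An invariant irreducible character with cyclic quotient induces to a sum of extensions. -/
theorem indFun_of_cyclic {L : Type u} [Group L] [Fintype L] (K : Subgroup L) [K.Normal]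
    {θ : K → ℂ} (hθ : IsIrrCharacter K θ) (hinv : ∀ g : L, conjChar K g θ = θ)
    (hcyc : IsCyclic (L ⧸ K)) :
    ∃ C : Finset (L → ℂ), C.card = K.index ∧ (∀ μ ∈ C, IsIrrCharacter L μ) ∧
      indFun K θ = ∑ μ ∈ C, μ := by
  classical
  have := Fintype.ofFinite K
  obtain ⟨χ, hχ, hext⟩ := CharClifford.extends_of_cyclic hθ hinv hcyc
  set C : Finset (IrrCharacter L) :=
    Finset.univ.filter fun ξ => classInner (indFun K θ) (ξ : L → ℂ) ≠ 0 with hC
  have hcoef : ∀ ξ ∈ C, classInner (indFun K θ) (ξ : L → ℂ) = 1 := by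
    intro ξ hξ
    have hne : classInner (fun n : K => (ξ : L → ℂ) n) θ ≠ 0 := by
      have := (Finset.mem_filter.mp hξ).2
      rw [classInner_indFun K θ (isClassFunction_of_isIrr ξ.2), classInner_conj_symm] at this
      exact (map_ne_zero _).mp this
    obtain ⟨β, hβ, hβK, he⟩ := CharClifford.gallagher_exists K hθ (isCharacter_of_isIrr hχ) hext
      ξ.2 hne
    obtain ⟨β', hβ', hβe⟩ := exists_irr_deflation hβ K (fun n hn => hβK ⟨n, hn⟩)
    have hβ1 : β 1 = 1 := by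
      obtain ⟨d, ρ, hρ, hρe⟩ := hβ'
      have : IsMulCommutative (L ⧸ K) := ⟨⟨fun a b => by
        obtain ⟨g, hg⟩ := hcyc.exists_generator
        obtain ⟨i, rfl⟩ := Subgroup.mem_zpowers_iff.mp (hg a)
        obtain ⟨j, rfl⟩ := Subgroup.mem_zpowers_iff.mp (hg b)
        exact zpow_mul_comm g i j⟩⟩
      rw [← hβe 1, ← hρe, QuotientGroup.mk_one, Representation.char_one,
        Representation.IsIrreducible.finrank_eq_one_of_isMulCommutative ρ, Nat.cast_one]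
    have hres : (fun n : K => (ξ : L → ℂ) n) = θ := by
      funext n
      rw [he, Pi.mul_apply, hβK n, hβ1, one_mul, hext n]
    rw [classInner_indFun K θ (isClassFunction_of_isIrr ξ.2), hres, classInner_irr_self hθ]
  have hsum : indFun K θ = ∑ ξ ∈ C, (ξ : L → ℂ) := by
    rw [eq_sum_classInner_smul (isClassFunction_indFun K θ),
      ← Finset.sum_subset (Finset.subset_univ C) fun ξ _ hξ => by
        rw [show classInner (indFun K θ) (ξ : L → ℂ) = 0 from by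
          by_contra h; exact hξ (Finset.mem_filter.mpr ⟨Finset.mem_univ _, h⟩), zero_smul]]
    exact Finset.sum_congr rfl fun ξ hξ => by rw [hcoef ξ hξ, one_smul]
  refine ⟨C.image Subtype.val, ?_, fun μ hμ => ?_, ?_⟩
  · rw [Finset.card_image_of_injective _ Subtype.val_injective]
    have h1 := CharClifford.classInner_indFun_self_invariant K hθ hinv
    conv_lhs at h1 => rw [hsum, classInner_sum_left]
    rw [Finset.sum_congr rfl (g := fun _ => (1 : ℂ)) (fun ξ hξ => by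
      rw [← hsum, classInner_conj_symm, hcoef ξ hξ, map_one]), Finset.sum_const, nsmul_one] at h1
    exact_mod_cast h1
  · obtain ⟨ξ, -, rfl⟩ := Finset.mem_image.mp hμ
    exact ξ.2
  · rw [hsum, Finset.sum_image fun a _ b _ h => Subtype.ext h]

theorem result {L : Type*} [Group L] [Fintype L] (K W₁ W₂ : Subgroup L) [hK : K.Normal] (hKW₁ : K ⊓ W₁ = ⊥) (hKW₁' : K ⊔ W₁ = ⊤) (hW₁ : W₁ ≠ ⊥) (hW₁c : IsCyclic W₁) (hHall : Nat.Coprime (Nat.card W₁) W₁.index) (hW₂ : W₂ ≠ ⊥) (hW₂c : IsCyclic W₂) (hW₂K : W₂ ≤ K) (hC : ∀ x ∈ W₁, x ≠ 1 → K ⊓ Subgroup.centralizer ({x} : Set L) = W₂) (hodd : Odd (Nat.card ↥(W₁ ⊔ W₂))) : (∀ θ : K → ℂ, Cfsg.IsIrrCharacter K θ → (∃ x ∈ W₁, (fun k : K => θ ⟨x * k * x⁻¹, hK.conj_mem (k : L) k.2 x⟩) ≠ θ) → Cfsg.IsIrrCharacter L (Cfsg.indFun K θ)) ∧ Nat.card {θ : Cfsg.IrrCharacter K // ∀ x ∈ W₁, (fun k : K => (θ : K → ℂ) ⟨x * k * x⁻¹, hK.conj_mem (k : L) k.2 x⟩) = θ} = Nat.card W₂ ∧ (∀ θ : K → ℂ,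 Cfsg.IsIrrCharacter K θ → (∀ x ∈ W₁, (fun k : K => θ ⟨x * k * x⁻¹, hK.conj_mem (k : L) k.2 x⟩) = θ) → ∃ C : Finset (L → ℂ), C.card = Nat.card W₁ ∧ (∀ μ ∈ C, Cfsg.IsIrrCharacter L μ) ∧ Cfsg.indFun K θ = ∑ μ ∈ C, μ) := by
  classical
  have := Fintype.ofFinite K
  have hcomp : K.IsComplement' W₁ := Subgroup.isComplement'_of_disjoint_and_mul_eq_univ
    (disjoint_iff.mpr hKW₁) (by rw [← Subgroup.normal_mul, hKW₁', Subgroup.coe_top])
  have hidx1 : W₁.index = Nat.card K := hcomp.index_eq_card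
  have hidx : K.index = Nat.card W₁ := hcomp.symm.index_eq_card
  have hcopx : ∀ w ∈ W₁, Nat.Coprime (orderOf w) (Nat.card K) := fun w hw =>
    (hidx1 ▸ hHall).coprime_dvd_left (Subgroup.orderOf_dvd_natCard _ hw)
  obtain ⟨g₀, hg₀⟩ := W₁.isCyclic_iff_exists_zpowers_eq_top.mp hW₁c
  have hg₀1 : g₀ ≠ 1 := fun h => hW₁ (by rw [← hg₀, h, Subgroup.zpowers_one_eq_bot])
  have hg₀W : g₀ ∈ W₁ := hg₀ ▸ Subgroup.mem_zpowers g₀
  have hW₂ab : ∀ a ∈ W₂, ∀ b ∈ W₂, a * b = b * a := fun a ha b hb => by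
    obtain ⟨c, hc⟩ := W₂.isCyclic_iff_exists_zpowers_eq_top.mp hW₂c
    rw [← hc] at ha hb
    obtain ⟨i, rfl⟩ := Subgroup.mem_zpowers_iff.mp ha
    obtain ⟨j, rfl⟩ := Subgroup.mem_zpowers_iff.mp hb
    exact zpow_mul_comm c i j
  let Fix : L → Set (IrrCharacter K) := fun w => {θ | conjChar K w (θ : K → ℂ) = (θ : K → ℂ)}
  have hcount : ∀ w ∈ W₁, w ≠ 1 → (Fix w).ncard = Nat.card W₂ := fun w hw hw1 => by
    rw [← Nat.card_coe_set_eq]
    exact (CharClifford.card_fixed_conjChar_eq K w).trans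
      (CharClifford.card_classFixed_eq K (hcopx w hw) W₂ (hC w hw hw1) hW₂ab)
  have hgen : ∀ θ : K → ℂ, conjChar K g₀ θ = θ → ∀ w ∈ W₁, conjChar K w θ = θ := by
    intro θ h w hw
    exact (show W₁ ≤ inertia K θ from hg₀ ▸ Subgroup.zpowers_le.mpr h) hw
  have heq : ∀ w ∈ W₁, w ≠ 1 → Fix g₀ = Fix w := fun w hw hw1 =>
    Set.eq_of_subset_of_ncard_le (fun θ hθ => hgen _ hθ w hw)
      (by rw [hcount w hw hw1, hcount g₀ hg₀W hg₀1]) (Set.toFinite _)
  have hdec : ∀ g : L, ∃ k ∈ K, ∃ w ∈ W₁, k * w = g := fun g =>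
    Subgroup.mem_sup_of_normal_left.mp (hKW₁' ▸ Subgroup.mem_top g)
  have hsplit : ∀ (θ : K → ℂ), IsClassFunction K θ → ∀ k ∈ K, ∀ w : L,
      conjChar K (k * w) θ = conjChar K w θ := by
    intro θ hθ k hk w
    funext n
    have := congrFun (conjChar_of_mem K hθ hk)
      ⟨w * n * w⁻¹, hK.conj_mem _ n.2 w⟩
    simp only [conjChar_apply] at this ⊢
    refine Eq.trans ?_ this
    congr 1
    exact Subtype.ext (by group)
  refine ⟨fun θ hθ hmove => ?_, ?_, fun θ hθ hfix => ?_⟩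
  · refine isIrrCharacter_indFun K hθ (le_antisymm (fun g hg => ?_)
      (le_inertia K (isClassFunction_of_isIrr hθ)))
    obtain ⟨k, hk, w, hw, rfl⟩ := hdec g
    by_contra hgK
    have hw1 : w ≠ 1 := fun h => hgK (by rw [h, mul_one]; exact hk)
    obtain ⟨x, hx, hne⟩ := hmove
    have h1 : (⟨θ, hθ⟩ : IrrCharacter K) ∈ Fix w :=
      (hsplit θ (isClassFunction_of_isIrr hθ) k hk w).symm.trans hg
    rw [← heq w hw hw1] at h1
    exact hne (hgen θ h1 x hx)
  · rw [← hcount g₀ hg₀W hg₀1, ← Nat.card_coe_set_eq]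
    exact Nat.card_congr (Equiv.subtypeEquivRight fun θ =>
      ⟨fun h => h g₀ hg₀W, fun h x hx => hgen _ h x hx⟩)
  · rw [← hidx]
    refine indFun_of_cyclic K hθ (fun g => ?_) ?_
    · obtain ⟨k, hk, w, hw, rfl⟩ := hdec g
      rw [hsplit θ (isClassFunction_of_isIrr hθ) k hk w]
      exact hfix w hw
    · exact isCyclic_of_surjective ((QuotientGroup.mk' K).comp W₁.subtype) fun q => by
        obtain ⟨g, rfl⟩ := QuotientGroup.mk'_surjective K q
        obtain ⟨k, hk, w, hw, rfl⟩ := hdec g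
        refine ⟨⟨w, hw⟩, ?_⟩
        show (QuotientGroup.mk' K) w = (QuotientGroup.mk' K) (k * w)
        rw [map_mul, show (QuotientGroup.mk' K) k = 1 from (QuotientGroup.eq_one_iff k).mpr hk, one_mul]

end Cfsg.Agent.S1513
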