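import Cfsg.Statements.S1514
import Cfsg.Agent.Lib.CharClifford.NormOne
import Cfsg.Agent.Lib.Char.Linear
import Cfsg.Agent.S1509
import Mathlib.Tactic

set_option autoImplicit false
open scoped ComplexConjugate
open Cfsg

namespace Cfsg.Agent.S1514

open Cfsg.Agent.Lib.Char

theorem result {L : Type*} [Group L] [Fintype L] {G : Type*} [Group G] [Fintype G] (S : Set (L → ℂ)) (hS : S.Nonempty) (hirr : ∀ χ ∈ S, Cfsg.IsIrrCharacter L χ) (hconj : ∀ χ ∈ S, Cfsg.conjFun χ ∈ S ∧ Cfsg.conjFun χ ≠ χ) (τ : (L → ℂ) → (G → ℂ)) (hτ : Cfsg.IsLinearIsometryOn (Cfsg.zspanOn S {1}ᶜ) τ) (hτ1 : ∀ α ∈ Cfsg.zspanOn S {1}ᶜ, τ α 1 = 0) : ∃ R : (L → ℂ) → Finset (G → ℂ), Cfsg.IsCoherenceSystem S τ R := by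
  classical
  obtain ⟨hadd, hsmul, hinner, hgen⟩ := hτ
  have hcc : ∀ χ : L → ℂ, conjFun (conjFun χ) = χ := fun χ => funext fun x => by simp [conjFun]
  have hdiff : ∀ χ ∈ S, χ - conjFun χ ∈ zspanOn S {1}ᶜ := fun χ hχ => by
    refine ⟨Submodule.sub_mem _ (Submodule.subset_span hχ) (Submodule.subset_span (hconj χ hχ).1),
      fun x hx => ?_⟩
    simp only [Set.mem_compl_iff, Set.mem_singleton_iff, not_not] at hx
    subst hx
    obtain ⟨d, hd⟩ := exists_natDegree (isCharacter_of_isIrr (hirr χ hχ))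
    simp [conjFun, hd]
  have hnorm : ∀ χ ∈ S, classInner (χ - conjFun χ) (χ - conjFun χ) = 2 := fun χ hχ => by
    have h1 := hirr χ hχ
    have h2 := hirr _ (hconj χ hχ).1
    rw [classInner_sub_left, classInner_sub_right, classInner_sub_right, classInner_irr_self h1,
      classInner_irr_self h2, classInner_irr_ne h1 h2 (hconj χ hχ).2.symm,
      classInner_irr_ne h2 h1 (hconj χ hχ).2]
    norm_num
  have hex : ∀ χ ∈ S, ∃ a b : IrrCharacter G, a ≠ b ∧
      τ (χ - conjFun χ) = (a : G → ℂ) - (b : G → ℂ) := fun χ hχ =>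
    exists_eq_sub_of_norm_two (hgen _ (hdiff χ hχ)) (hτ1 _ (hdiff χ hχ))
      (by rw [hinner _ (hdiff χ hχ) _ (hdiff χ hχ), hnorm χ hχ])
  choose a b hab hτe using hex
  let R : (L → ℂ) → Finset (G → ℂ) := fun χ =>
    if hχ : χ ∈ S then {((a χ hχ : IrrCharacter G) : G → ℂ), -((b χ hχ : IrrCharacter G) : G → ℂ)} else ∅
  have hR : ∀ χ (hχ : χ ∈ S), R χ = {((a χ hχ : IrrCharacter G) : G → ℂ), -((b χ hχ : IrrCharacter G) : G → ℂ)} :=
    fun χ hχ => dif_pos hχ
  have hinn : ∀ c d : IrrCharacter G, classInner (c : G → ℂ) (d : G → ℂ) = if c = d then 1 else 0 :=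
    classInner_irrCharacter
  have hne : ∀ χ (hχ : χ ∈ S), ((a χ hχ : IrrCharacter G) : G → ℂ) ≠ -((b χ hχ : IrrCharacter G) : G → ℂ) := by
    intro χ hχ h
    have h1 := hinn (a χ hχ) (a χ hχ)
    nth_rw 1 [h] at h1
    rw [classInner_neg_left, hinn, if_neg (hab χ hχ).symm, if_pos rfl, neg_zero] at h1
    exact zero_ne_one h1
  refine ⟨R, ⟨hS, fun χ hχ => isCharacter_of_isIrr (hirr χ hχ), fun χ hχ => (hconj χ hχ).1,
    fun χ hχ => (hconj χ hχ).2, ⟨hadd, hsmul, hinner, hgen⟩, hτ1,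
    fun χ hχ φ hφ hne => classInner_irr_ne (hirr χ hχ) (hirr φ hφ) hne, ?_, ?_, ?_, ?_⟩⟩
  · intro χ hχ α hα β hβ
    rw [hR χ hχ, Finset.mem_insert, Finset.mem_singleton] at hα hβ
    rcases hα with rfl | rfl <;> rcases hβ with rfl | rfl
    · rw [if_pos rfl, hinn, if_pos rfl]
    · rw [if_neg (hne χ hχ), classInner_neg_right, hinn, if_neg (hab χ hχ), neg_zero]
    · rw [if_neg (hne χ hχ).symm, classInner_neg_left, hinn, if_neg (hab χ hχ).symm, neg_zero]
    · rw [if_pos rfl, classInner_neg_left, classInner_neg_right, hinn, if_pos rfl, neg_neg]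
  · intro χ hχ α hα
    rw [hR χ hχ, Finset.mem_insert, Finset.mem_singleton] at hα
    rcases hα with rfl | rfl
    · exact ⟨_, 0, isCharacter_of_isIrr (a χ hχ).2, isCharacter_zero, (sub_zero _).symm⟩
    · exact ⟨0, _, isCharacter_zero, isCharacter_of_isIrr (b χ hχ).2, (zero_sub _).symm⟩
  · intro χ hχ
    rw [hR χ hχ, Finset.sum_pair (hne χ hχ), hτe χ hχ, sub_eq_add_neg]
  · intro χ hχ φ hφ h1 h2 α hα β hβ
    have ne1 : φ ≠ χ := fun e => by
      rw [e, classInner_irr_self (hirr χ hχ)] at h1; exact one_ne_zero h1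
    have ne2 : φ ≠ conjFun χ := fun e => by
      rw [e, classInner_irr_self (hirr _ (hconj χ hχ).1)] at h2; exact one_ne_zero h2
    have ne3 : conjFun φ ≠ χ := fun e => ne2 (by rw [← e, hcc])
    have ne4 : conjFun φ ≠ conjFun χ := fun e => ne1 (by rw [← hcc φ, e, hcc])
    have hmix0 : classInner (φ - conjFun φ) (χ - conjFun χ) = 0 := by
      have h3 := hirr φ hφ
      have h4 := hirr _ (hconj φ hφ).1
      have h5 := hirr χ hχ
      have h6 := hirr _ (hconj χ hχ).1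
      rw [classInner_sub_left, classInner_sub_right, classInner_sub_right, classInner_irr_ne h3 h5 ne1,
        classInner_irr_ne h3 h6 ne2, classInner_irr_ne h4 h5 ne3, classInner_irr_ne h4 h6 ne4]
      ring
    have hval : ∀ ξ (hξ : ξ ∈ S), ((a ξ hξ : IrrCharacter G) : G → ℂ) 1 = ((b ξ hξ : IrrCharacter G) : G → ℂ) 1 := by
      intro ξ hξ
      have := hτ1 _ (hdiff ξ hξ)
      rw [hτe ξ hξ, Pi.sub_apply, sub_eq_zero] at this
      exact this
    obtain ⟨e1, e2, e3, e4⟩ := S1509.result ((a φ hφ : IrrCharacter G) : G → ℂ) (b φ hφ : G → ℂ)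
      (a χ hχ : G → ℂ) (b χ hχ : G → ℂ) (Or.inl (a φ hφ).2) (Or.inl (b φ hφ).2) (Or.inl (a χ hχ).2)
      (Or.inl (b χ hχ).2) 1 1 one_ne_zero one_ne_zero
      (by rw [hinn, if_neg (hab φ hφ)]) (by rw [hinn, if_neg (hab χ hχ)])
      (by rw [Complex.ofReal_one, one_smul, one_smul, ← hτe φ hφ, ← hτe χ hχ,
        hinner _ (hdiff φ hφ) _ (hdiff χ hχ), hmix0])
      (hval φ hφ) (by simpa using hval χ hχ)
    rw [hR φ hφ, Finset.mem_insert, Finset.mem_singleton] at hα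
    rw [hR χ hχ, Finset.mem_insert, Finset.mem_singleton] at hβ
    rcases hα with rfl | rfl <;> rcases hβ with rfl | rfl <;>
      simp [classInner_neg_left, classInner_neg_right, e1, e2, e3, e4]

end Cfsg.Agent.S1514
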