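import Cfsg.Statements.S1515
import Cfsg.Agent.Lib.Dade.Lattice
import Mathlib.Tactic

set_option autoImplicit false
open scoped ComplexConjugate
open Cfsg

namespace Cfsg.Agent.S1515

open Cfsg.Agent.Lib.Char Cfsg.Agent.Lib.Dade

theorem result {L : Type*} [Group L] [Fintype L] {G : Type*} [Group G] [Fintype G] (S : Set (L → ℂ)) (τ : (L → ℂ) → (G → ℂ)) (R : (L → ℂ) → Finset (G → ℂ)) (hS : Cfsg.IsCoherenceSystem S τ R) (χ : L → ℂ) (hχ : χ ∈ S) (ψ : L → ℂ) (hψ : ψ ∈ Cfsg.zspan S) (h1 : Cfsg.classInner χ ψ = 0) (h2 : Cfsg.classInner (Cfsg.conjFun χ) ψ = 0) (τ₁ : (L → ℂ) → (G → ℂ)) (hτ₁ : Cfsg.IsLinearIsometryOn (Cfsg.zspan {χ - ψ, χ - Cfsg.conjFun χ}) τ₁) (hagree : ∀ n : ℤ, τ₁ (n • (χ - Cfsg.conjFun χ)) = τ (n • (χ - Cfsg.conjFun χ))) : (Cfsg.classInner χ χ).re ≤ ∑ α ∈ R χ, ‖Cfsg.classInner (τ₁ (χ - ψ)) α‖ ^ 2 ∧ ((Cfsg.classInner ψ ψ).re ≤ (Cfsg.classInner (τ₁ (χ - ψ)) (τ₁ (χ - ψ))).re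 - ∑ α ∈ R χ, ‖Cfsg.classInner (τ₁ (χ - ψ)) α‖ ^ 2 → (∑ α ∈ R χ, ‖Cfsg.classInner (τ₁ (χ - ψ)) α‖ ^ 2 = (Cfsg.classInner χ χ).re ∧ ∀ α ∈ R χ, Cfsg.classInner (τ₁ (χ - ψ)) α = 0 ∨ Cfsg.classInner (τ₁ (χ - ψ)) α = 1)) := by
  classical
  set x := τ₁ (χ - ψ) with hx
  have hm1 : χ - ψ ∈ zspan {χ - ψ, χ - conjFun χ} := zspan_subset (Set.mem_insert _ _)
  have hm2 : χ - conjFun χ ∈ zspan {χ - ψ, χ - conjFun χ} := zspan_subset (Set.mem_insert_of_mem _ rfl)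
  have hgen : IsGeneralizedCharacter G x := hτ₁.2.2.2 _ hm1
  obtain ⟨N, hN⟩ := classInner_natCast (hS.isCharacter χ hχ) (hS.isCharacter χ hχ)
  have hcc : classInner χ (conjFun χ) = 0 :=
    hS.orthogonal χ hχ _ (hS.conj_mem χ hχ) (hS.conj_ne χ hχ).symm
  have h1' : classInner ψ χ = 0 := by rw [classInner_conj_symm, h1, map_zero]
  have h2' : classInner ψ (conjFun χ) = 0 := by rw [classInner_conj_symm, h2, map_zero]
  choose z hz using fun (α : R χ) => classInner_int hgen (hS.virtual χ hχ α α.2)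
  have hsum : ∑ α ∈ (R χ).attach, z α = N := by
    have h : classInner x (τ₁ (χ - conjFun χ)) = classInner (χ - ψ) (χ - conjFun χ) :=
      hτ₁.2.2.1 _ hm1 _ hm2
    have he := hagree 1
    rw [one_smul] at he
    rw [he, hS.sum_eq χ hχ, classInner_sum_right, classInner_sub_left, classInner_sub_right,
      classInner_sub_right, hN, hcc, h1', h2', sub_zero, sub_zero, sub_zero,
      ← Finset.sum_attach, Finset.sum_congr rfl fun α _ => hz α] at h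
    exact_mod_cast h
  have hnorm : ∑ α ∈ R χ, ‖classInner x α‖ ^ 2 = ((∑ α ∈ (R χ).attach, z α ^ 2 : ℤ) : ℝ) := by
    rw [← Finset.sum_attach, Int.cast_sum]
    refine Finset.sum_congr rfl fun α _ => ?_
    rw [hz α, Complex.norm_intCast, sq_abs, Int.cast_pow]
  have hxx : (classInner x x).re = N + (classInner ψ ψ).re := by
    rw [hx, hτ₁.2.2.1 _ hm1 _ hm1, classInner_sub_left, classInner_sub_right, classInner_sub_right,
      hN, h1, h1', sub_zero, zero_sub, sub_neg_eq_add, Complex.add_re, Complex.natCast_re]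
  have hNre : (classInner χ χ).re = N := by rw [hN, Complex.natCast_re]
  have hge : (N : ℤ) ≤ ∑ α ∈ (R χ).attach, z α ^ 2 :=
    hsum ▸ Finset.sum_le_sum fun α _ => by nlinarith [Int.le_self_sq (z α)]
  rw [hNre, hnorm, hxx]
  refine ⟨by exact_mod_cast hge, fun hle => ?_⟩
  have hle' : ∑ α ∈ (R χ).attach, z α ^ 2 ≤ (N : ℤ) := by
    have : ((∑ α ∈ (R χ).attach, z α ^ 2 : ℤ) : ℝ) ≤ N := by linarith
    exact_mod_cast this
  refine ⟨by exact_mod_cast le_antisymm hle' hge, fun α hα => ?_⟩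
  have hzero : ∑ β ∈ (R χ).attach, (z β ^ 2 - z β) = 0 := by
    rw [Finset.sum_sub_distrib, le_antisymm hle' hge, hsum, sub_self]
  have := (Finset.sum_eq_zero_iff_of_nonneg fun β _ => by nlinarith [Int.le_self_sq (z β)]).mp hzero
    ⟨α, hα⟩ (Finset.mem_attach _ _)
  rw [hz ⟨α, hα⟩]
  rcases mul_eq_zero.mp (show z ⟨α, hα⟩ * (z ⟨α, hα⟩ - 1) = 0 by linarith) with h | h
  · exact Or.inl (by rw [h, Int.cast_zero])
  · exact Or.inr (by rw [sub_eq_zero.mp h, Int.cast_one])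

end Cfsg.Agent.S1515
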