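import Cfsg.Statements.S1516
import Cfsg.Agent.Lib.Dade.CoherenceSystem
import Mathlib.Tactic

set_option autoImplicit false
open scoped ComplexConjugate
open Cfsg

namespace Cfsg.Agent.S1516

open Cfsg.Agent.Lib.Char Cfsg.Agent.Lib.Dade

theorem result {L : Type*} [Group L] [Fintype L] {G : Type*} [Group G] [Fintype G] (S : Set (L → ℂ)) (τ : (L → ℂ) → (G → ℂ)) (R : (L → ℂ) → Finset (G → ℂ)) (hS : Cfsg.IsCoherenceSystem S τ R) (d n : (L → ℂ) → ℕ) (hd : ∀ φ ∈ S, φ 1 = (d φ : ℂ)) (hn : ∀ φ ∈ S, Cfsg.classInner φ φ = (n φ : ℂ)) (S₁ : Finset (L → ℂ)) (hS₁ : ↑S₁ ⊆ S) (hS₁c : ∀ φ ∈ S₁, Cfsg.conjFun φ ∈ S₁) (hcoh : Cfsg.IsCoherent (↑S₁ : Set (L → ℂ)) {1}ᶜ τ) (χ : L → ℂ) (hχ : χ ∈ S) (hχ₁ : χ ∉ S₁) (hχ₂ : Cfsg.conjFun χ ∉ S₁) (χ₁ : L → ℂ) (hχ₁S : χ₁ ∈ S₁) (hdvd : d χ₁ ∣ d χ) (hineq : (2 * d χ * d χ₁ : ℝ) < ∑ φ ∈ S₁, ((d φ : ℝ) ^ 2 / (n φ : ℝ))) : Cfsg.IsCoherent (↑S₁ ∪ {χ, Cfsg.conjFun χ} :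 Set (L → ℂ)) {1}ᶜ τ := by
  classical
  obtain ⟨-, T, hT, hTτ⟩ := hcoh
  have hT' : ∀ φ ∈ S₁, φ ∈ zspan (↑S₁ : Set (L → ℂ)) := fun φ h => zspan_subset h
  have hcχ := hS.conj_mem χ hχ
  obtain ⟨N, -, hNN, hN', hN1, hN2⟩ := system_norm hS hχ
  have hNn : n χ = N := by
    have := hn χ hχ
    rw [hNN] at this
    exact_mod_cast this.symm
  have hdpos : ∀ φ ∈ S, 0 < d φ := fun φ h => by
    obtain ⟨e, he, he1, -⟩ := system_degree hS h
    rw [hd φ h] at he1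
    have : d φ = e := by exact_mod_cast he1
    omega
  have hnpos : ∀ φ ∈ S, 0 < n φ := fun φ h => by
    obtain ⟨e, he, he1, -⟩ := system_norm hS h
    rw [hn φ h] at he1
    have : n φ = e := by exact_mod_cast he1
    omega
  obtain ⟨m, hm⟩ := hdvd
  have hχ₁' : χ₁ ∈ S := hS₁ hχ₁S
  have hne1 : ∀ φ ∈ S₁, φ ≠ χ := fun φ h e => hχ₁ (e ▸ h)
  have hne2 : ∀ φ ∈ S₁, φ ≠ conjFun χ := fun φ h e => hχ₂ (e ▸ h)
  have oS : ∀ φ ∈ S₁, classInner φ χ = 0 ∧ classInner χ φ = 0 ∧ classInner φ (conjFun χ) = 0 ∧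
      classInner (conjFun χ) φ = 0 := fun φ h =>
    ⟨hS.orthogonal φ (hS₁ h) χ hχ (hne1 φ h), hS.orthogonal χ hχ φ (hS₁ h) (hne1 φ h).symm,
      hS.orthogonal φ (hS₁ h) _ hcχ (hne2 φ h), hS.orthogonal _ hcχ φ (hS₁ h) (hne2 φ h).symm⟩
  have hRT : ∀ φ ∈ S₁, ∀ A : Finset (G → ℂ), A ⊆ R χ → classInner (∑ α ∈ A, α) (T φ) = 0 := by
    intro φ h A hA
    obtain ⟨B, hB, hTB⟩ := coherent_image hS hS₁ hS₁c hT hTτ h
    rw [hTB, classInner_conj_symm, R_inner_zero hS hχ (hS₁ h) (hne1 φ h) (hne2 φ h) hB hA, map_zero]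
  -- the test function
  set ξ : L → ℂ := χ - (m : ℤ) • χ₁ with hξ
  have hξm : ξ ∈ zspanOn S {1}ᶜ := mem_zspanOn.mpr
    ⟨zspan_sub (zspan_subset hχ) (zspan_smul _ (zspan_subset hχ₁')), by
      rw [hξ, Pi.sub_apply, Pi.smul_apply, hd χ hχ, hd χ₁ hχ₁', hm, zsmul_eq_mul]
      push_cast; ring⟩
  set x := τ ξ with hx
  have hxgen : IsGeneralizedCharacter G x := hS.isometry.2.2.2 _ hξm
  have hxx : classInner x x = (((N : ℝ) + (m : ℝ) ^ 2 * n χ₁ : ℝ) : ℂ) := by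
    rw [hx, hS.isometry.2.2.1 _ hξm _ hξm, hξ]
    simp only [classInner_sub_left, classInner_sub_right, classInner_zsmul_left, classInner_zsmul_right,
      hNN, hn χ₁ hχ₁', (oS χ₁ hχ₁S).1, (oS χ₁ hχ₁S).2.1]
    push_cast; ring
  have hsum : classInner x (∑ α ∈ R χ, α) = N := by
    rw [← hS.sum_eq χ hχ, hx, hS.isometry.2.2.1 _ hξm _ (system_diff hS hχ), hξ]
    simp only [classInner_sub_left, classInner_sub_right, classInner_zsmul_left, hNN, hN1,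
      (oS χ₁ hχ₁S).1, (oS χ₁ hχ₁S).2.2.1]
    ring
  obtain ⟨c, hc, hc1, hA⟩ := exists_proj (R χ) (hS.virtual χ hχ) hxgen N hsum
  have hz : ∀ φ : S₁, ∃ z : ℤ, classInner x (T φ.1) = z := fun φ =>
    classInner_int hxgen (hT.2.2.2 _ (hT' φ.1 φ.2))
  choose z hz using hz
  set a : ℤ := z ⟨χ₁, hχ₁S⟩ + (m : ℤ) * n χ₁ with ha
  have hd1 : (d χ₁ : ℝ) ≠ 0 := by exact_mod_cast (hdpos χ₁ hχ₁').ne'
  have hzval : ∀ φ : S₁, (z φ : ℝ) =
      (a : ℝ) * d φ.1 / d χ₁ - if φ.1 = χ₁ then (m : ℝ) * n χ₁ else 0 := by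
    intro φ
    have hφS : φ.1 ∈ S := hS₁ φ.2
    set β : L → ℂ := (d χ₁ : ℤ) • φ.1 - (d φ.1 : ℤ) • χ₁ with hβ
    have hβ1 : β ∈ zspan (↑S₁ : Set (L → ℂ)) :=
      zspan_sub (zspan_smul _ (hT' φ.1 φ.2)) (zspan_smul _ (hT' χ₁ hχ₁S))
    have hβ0 : β 1 = 0 := by
      rw [hβ, Pi.sub_apply, Pi.smul_apply, Pi.smul_apply, hd _ hφS, hd _ hχ₁', zsmul_eq_mul,
        zsmul_eq_mul]
      push_cast; ring
    have h := hS.isometry.2.2.1 ξ hξm β (mem_zspanOn.mpr ⟨zspan_mono hS₁ hβ1, hβ0⟩)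
    rw [← hTτ β (mem_zspanOn.mpr ⟨hβ1, hβ0⟩), hβ,
      zspan_isometry_sub hT (zspan_smul _ (hT' φ.1 φ.2)) (zspan_smul _ (hT' χ₁ hχ₁S)),
      hT.2.1 _ (hT' φ.1 φ.2), hT.2.1 _ (hT' χ₁ hχ₁S), hξ, ← hξ, ← hx, classInner_sub_right,
      classInner_zsmul_right, classInner_zsmul_right, hz φ, hz ⟨χ₁, hχ₁S⟩, hξ] at h
    simp only [classInner_sub_left, classInner_sub_right, classInner_zsmul_left,
      classInner_zsmul_right, (oS _ φ.2).2.1, (oS _ hχ₁S).2.1, hn χ₁ hχ₁'] at h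
    have hδ : classInner χ₁ φ.1 = if φ.1 = χ₁ then (n χ₁ : ℂ) else 0 := by
      split_ifs with e
      · rw [e, hn χ₁ hχ₁']
      · exact hS.orthogonal χ₁ hχ₁' φ.1 hφS (Ne.symm e)
    rw [hδ] at h
    rw [ha, Int.cast_add, eq_sub_iff_add_eq, eq_div_iff hd1]
    split_ifs at h ⊢ with e
    · rw [e] at h ⊢
      have h' : ((z φ : ℝ) + (m : ℝ) * n χ₁) * d χ₁ =
          ((z ⟨χ₁, hχ₁S⟩ : ℝ) + (((m : ℤ) * n χ₁ : ℤ) : ℝ)) * d χ₁ := by
        apply Complex.ofReal_injective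
        push_cast at h ⊢
        linear_combination h
      exact h'
    · apply Complex.ofReal_injective
      push_cast at h ⊢
      linear_combination h
  -- Bessel
  have horthT : ∀ φ ∈ S₁, ∀ ψ ∈ S₁, classInner (T φ) (T ψ) = classInner φ ψ := fun φ h ψ h' =>
    hT.2.2.1 _ (hT' φ h) _ (hT' ψ h')
  have hb := bessel ((R χ).disjSum S₁.attach) (Sum.elim (fun α => α) (fun φ => T φ.1))
    (Sum.elim c fun φ => (z φ : ℝ) / n φ.1) (Sum.elim (fun _ => 1) fun φ => (n φ.1 : ℝ)) x _ hxx ?_ ?_ ?_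
  rotate_left
  · rintro (i | i) hi (j | j) hj hij <;>
      simp only [Finset.inl_mem_disjSum, Finset.inr_mem_disjSum, Sum.elim_inl, Sum.elim_inr] at hi hj ⊢
    · rw [hS.orthonormal χ hχ i hi j hj, if_neg (fun h => hij (by rw [h]))]
    · have := hRT j.1 j.2 {i} (Finset.singleton_subset_iff.mpr hi)
      rwa [Finset.sum_singleton] at this
    · have := hRT i.1 i.2 {j} (Finset.singleton_subset_iff.mpr hj)
      rw [Finset.sum_singleton] at this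
      rw [classInner_conj_symm, this, map_zero]
    · rw [horthT _ i.2 _ j.2]
      exact hS.orthogonal _ (hS₁ i.2) _ (hS₁ j.2) fun h => hij (by rw [Subtype.ext h])
  · rintro (i | i) hi <;>
      simp only [Finset.inl_mem_disjSum, Finset.inr_mem_disjSum, Sum.elim_inl, Sum.elim_inr,
        Complex.ofReal_one] at hi ⊢
    · rw [hS.orthonormal χ hχ i hi i hi, if_pos rfl]
    · rw [horthT _ i.2 _ i.2, hn _ (hS₁ i.2), Complex.ofReal_natCast]
  · rintro (i | i) hi <;>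
      simp only [Finset.inl_mem_disjSum, Finset.inr_mem_disjSum, Sum.elim_inl, Sum.elim_inr,
        Complex.ofReal_one, mul_one] at hi ⊢
    · exact hc i hi
    · rw [hz i, ← Complex.ofReal_mul, div_mul_cancel₀ _ (by exact_mod_cast (hnpos _ (hS₁ i.2)).ne'),
        Complex.ofReal_intCast]
  simp only [Finset.sum_disjSum, Sum.elim_inl, Sum.elim_inr, mul_one] at hb
  set D : ℝ := ∑ φ ∈ S₁, (d φ : ℝ) ^ 2 / n φ with hD
  have hQ : ∑ φ ∈ S₁.attach, ((z φ : ℝ) / n φ.1) ^ 2 * n φ.1 =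
      (a : ℝ) ^ 2 / (d χ₁ : ℝ) ^ 2 * D - 2 * a * m + (m : ℝ) ^ 2 * n χ₁ := by
    have hn1 : (n χ₁ : ℝ) ≠ 0 := by exact_mod_cast (hnpos χ₁ hχ₁').ne'
    have hterm : ∀ φ : S₁, ((z φ : ℝ) / n φ.1) ^ 2 * n φ.1 =
        (a : ℝ) ^ 2 / (d χ₁ : ℝ) ^ 2 * ((d φ.1 : ℝ) ^ 2 / n φ.1) +
          if φ.1 = χ₁ then -2 * (a : ℝ) * m + (m : ℝ) ^ 2 * n χ₁ else 0 := by
      intro φ
      have hnφ : (n φ.1 : ℝ) ≠ 0 := by exact_mod_cast (hnpos _ (hS₁ φ.2)).ne'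
      rw [hzval φ]
      split_ifs with e
      · rw [e]; field_simp; ring
      · field_simp; ring
    rw [Finset.sum_congr rfl fun φ _ => hterm φ, Finset.sum_add_distrib, ← Finset.mul_sum,
      Finset.sum_attach S₁ (fun φ => (d φ : ℝ) ^ 2 / n φ),
      Finset.sum_attach S₁ (fun φ => if φ = χ₁ then -2 * (a : ℝ) * m + (m : ℝ) ^ 2 * n χ₁ else 0),
      Finset.sum_ite_eq' S₁ χ₁, if_pos hχ₁S]
    ring
  rw [hQ] at hb
  have ha0 : a = 0 := by
    by_contra hne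
    have hD' : 2 * (m : ℝ) * (d χ₁ : ℝ) ^ 2 < D := by
      rw [hm] at hineq
      push_cast at hineq
      linarith
    have h1 : (a : ℝ) ^ 2 / (d χ₁ : ℝ) ^ 2 * D ≤ 2 * a * m := by linarith [hb.1]
    have h2 : (a : ℝ) ^ 2 * D ≤ 2 * a * m * (d χ₁ : ℝ) ^ 2 := by
      rw [div_mul_eq_mul_div, div_le_iff₀ (by positivity)] at h1
      exact h1
    have hD0 : 0 < D := lt_of_le_of_lt (by positivity) hD'
    rcases lt_or_gt_of_ne hne with h | h
    · have : (a : ℝ) < 0 := by exact_mod_cast h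
      have : 0 < (a : ℝ) ^ 2 * D := by positivity
      have : 2 * (a : ℝ) * m * (d χ₁ : ℝ) ^ 2 ≤ 0 :=
        mul_nonpos_of_nonpos_of_nonneg (mul_nonpos_of_nonpos_of_nonneg (by linarith) (Nat.cast_nonneg m))
          (sq_nonneg _)
      linarith
    · have h3 : (1 : ℝ) ≤ a := by exact_mod_cast h
      nlinarith [mul_lt_mul_of_pos_left hD' (show (0 : ℝ) < a by linarith),
        mul_nonneg (mul_nonneg (show (0 : ℝ) ≤ a - 1 by linarith) (show (0 : ℝ) ≤ a by linarith)) hD0.le]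
  rw [ha0, Int.cast_zero] at hb
  simp only [ne_eq, OfNat.ofNat_ne_zero, not_false_eq_true, zero_pow, zero_div, zero_mul, mul_zero,
    sub_zero, zero_add] at hb
  obtain ⟨A, hAR, hAc, hA1, hA0⟩ := hA (by linarith [hb.1])
  set X : G → ℂ := ∑ α ∈ A, α with hX
  have hxval : x = X - (m : ℤ) • T χ₁ := by
    rw [hb.2 (by linarith [hb.1]), sub_eq_add_neg]
    congr 1
    · rw [← Finset.sum_subset hAR (fun α hα hn' => by rw [hA0 α hα hn', Complex.ofReal_zero, zero_smul])]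
      exact Finset.sum_congr rfl fun α hα => by rw [hA1 α hα, Complex.ofReal_one, one_smul]
    · rw [Finset.sum_eq_single (⟨χ₁, hχ₁S⟩ : S₁) (fun φ _ hφ => by
        rw [hzval φ, if_neg fun e => hφ (Subtype.ext e), ha0]
        simp) (fun h => absurd (Finset.mem_attach _ _) h), hzval, if_pos rfl, ha0]
      have hn1 : (n χ₁ : ℝ) ≠ 0 := by exact_mod_cast (hnpos χ₁ hχ₁').ne'
      rw [show (((0 : ℤ) : ℝ) * d χ₁ / d χ₁ - (m : ℝ) * n χ₁) / n χ₁ = -(m : ℝ) by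
        field_simp; simp]
      rw [Complex.ofReal_neg, neg_smul, Complex.ofReal_natCast]
      congr 1
      funext g
      simp
  have hXX : classInner X X = N := by rw [hX, inner_sum_R hS hχ hAR hAR, Finset.inter_self, hAc]
  have hXR : classInner X (∑ α ∈ R χ, α) = N := by
    rw [hX, inner_sum_R hS hχ hAR subset_rfl, Finset.inter_eq_left.mpr hAR, hAc]
  have hRR : classInner (∑ α ∈ R χ, α) (∑ α ∈ R χ, α) = 2 * (N : ℂ) := by
    rw [inner_sum_R hS hχ subset_rfl subset_rfl, Finset.inter_self, card_R hS hχ hNN]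
    push_cast; ring
  have hRX : classInner (∑ α ∈ R χ, α) X = N := by rw [classInner_conj_symm, hXR, map_natCast]
  set F : Finset (L → ℂ) := S₁ ∪ {χ, conjFun χ} with hF
  have hFc : (F : Set (L → ℂ)) = ↑S₁ ∪ {χ, conjFun χ} := by simp [hF]
  have hFS : ∀ φ ∈ F, φ ∈ S := by
    intro φ h
    rw [hF, Finset.mem_union, Finset.mem_insert, Finset.mem_singleton] at h
    rcases h with h | rfl | rfl
    exacts [hS₁ h, hχ, hcχ]
  set f : (L → ℂ) → G → ℂ := fun φ =>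
    if φ = χ then X else if φ = conjFun χ then X - ∑ α ∈ R χ, α else T φ with hf
  have hf1 : f χ = X := if_pos rfl
  have hf2 : f (conjFun χ) = X - ∑ α ∈ R χ, α := by
    simp only [hf, if_neg (hS.conj_ne χ hχ), if_true]
  have hf3 : ∀ φ ∈ S₁, f φ = T φ := fun φ h => by
    simp only [hf, if_neg (hne1 φ h), if_neg (hne2 φ h)]
  have hTX : ∀ φ ∈ S₁, classInner X (T φ) = 0 ∧ classInner (T φ) X = 0 ∧
      classInner (∑ α ∈ R χ, α) (T φ) = 0 ∧ classInner (T φ) (∑ α ∈ R χ, α) = 0 := by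
    intro φ h
    have h1 := hRT φ h A hAR
    have h2 := hRT φ h (R χ) subset_rfl
    exact ⟨h1, by rw [classInner_conj_symm, h1, map_zero], h2, by rw [classInner_conj_symm, h2, map_zero]⟩
  obtain ⟨T', hT'v, hT'iso⟩ := exists_isometry F f
    (fun a ha b hb h => hS.orthogonal a (hFS a ha) b (hFS b hb) h)
    (fun a ha => system_ne_zero hS (hFS a ha))
    (fun φ hφ => by
      simp only [hf]
      have hXg : IsGeneralizedCharacter G X :=
        generalized_sum _ _ fun α hα => hS.virtual χ hχ α (hAR hα)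
      split_ifs with h1 h2
      · exact hXg
      · exact generalized_sub hXg (generalized_sum _ _ fun α hα => hS.virtual χ hχ α hα)
      · refine hT.2.2.2 _ (hT' φ ?_)
        rw [hF, Finset.mem_union, Finset.mem_insert, Finset.mem_singleton] at hφ
        tauto)
    (fun φ hφ ψ hψ => by
      rw [hF, Finset.mem_union, Finset.mem_insert, Finset.mem_singleton] at hφ hψ
      rcases hφ with hφ | rfl | rfl <;> rcases hψ with hψ | rfl | rfl
      · rw [hf3 φ hφ, hf3 ψ hψ, horthT φ hφ ψ hψ]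
      all_goals
        first
          | simp only [hf1, hf2, classInner_sub_left, classInner_sub_right, hXX, hXR, hRX, hRR, hNN,
              hN', hN1, hN2, hf3 _ hφ, (hTX _ hφ).2.1, (hTX _ hφ).2.2.2, (oS _ hφ).1, (oS _ hφ).2.2.1]
          | simp only [hf1, hf2, classInner_sub_left, classInner_sub_right, hXX, hXR, hRX, hRR, hNN,
              hN', hN1, hN2, hf3 _ hψ, (hTX _ hψ).1, (hTX _ hψ).2.2.1, (oS _ hψ).2.1, (oS _ hψ).2.2.2]
          | simp only [hf1, hf2, classInner_sub_left, classInner_sub_right, hXX, hXR, hRX, hRR, hNN,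
              hN', hN1, hN2]
      all_goals ring)
  rw [hFc] at hT'iso
  refine ⟨⟨χ - conjFun χ, mem_zspanOn.mpr ⟨zspan_sub (zspan_subset (by simp)) (zspan_subset (by simp)),
    (system_diff hS hχ |> mem_zspanOn.mp).2⟩, system_diff_ne hS hχ⟩, T', hT'iso, ?_⟩
  set U : Set (L → ℂ) := ↑S₁ ∪ {χ, conjFun χ} with hU
  have hUS : U ⊆ S := fun φ h => hFS φ (by rw [← hFc] at h; exact h)
  have hS₁U : zspan (↑S₁ : Set (L → ℂ)) ⊆ zspan U := zspan_mono Set.subset_union_left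
  intro α hα
  obtain ⟨hα1, hα0⟩ := mem_zspanOn.mp hα
  set η : L → ℂ := χ - conjFun χ with hη
  have hdec : ∀ α ∈ zspan U, ∃ β ∈ zspan (↑S₁ : Set (L → ℂ)), ∃ p q : ℤ, α = β + p • ξ + q • η := by
    intro α hα
    induction hα using Submodule.span_induction with
    | mem y hy =>
      rcases hy with hy | rfl | rfl
      · exact ⟨y, zspan_subset hy, 0, 0, by simp⟩
      · exact ⟨(m : ℤ) • χ₁, zspan_smul _ (hT' χ₁ hχ₁S), 1, 0, by rw [hξ]; simp⟩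
      · exact ⟨(m : ℤ) • χ₁, zspan_smul _ (hT' χ₁ hχ₁S), 1, -1, by rw [hξ, hη]; simp⟩
    | zero => exact ⟨0, Submodule.zero_mem _, 0, 0, by simp⟩
    | add y z _ _ hy hz =>
      obtain ⟨b1, hb1, p1, q1, rfl⟩ := hy
      obtain ⟨b2, hb2, p2, q2, rfl⟩ := hz
      exact ⟨b1 + b2, zspan_add hb1 hb2, p1 + p2, q1 + q2, by rw [add_smul, add_smul]; abel⟩
    | smul k y _ hy =>
      obtain ⟨b1, hb1, p1, q1, rfl⟩ := hy
      exact ⟨k • b1, zspan_smul _ hb1, k * p1, k * q1, by rw [mul_smul, mul_smul, smul_add, smul_add]⟩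
  obtain ⟨β, hβ, p, q, rfl⟩ := hdec α hα1
  have hξ0 := (mem_zspanOn.mp hξm).2
  have hηm := system_diff hS hχ
  have hη0 : η 1 = 0 := (mem_zspanOn.mp hηm).2
  have hβ0 : β 1 = 0 := by
    simpa [Pi.add_apply, Pi.smul_apply, hξ0, hη0] using hα0
  have hβm : β ∈ zspanOn S {1}ᶜ := mem_zspanOn.mpr ⟨zspan_mono hS₁ hβ, hβ0⟩
  have hpξ : p • ξ ∈ spanOne S := (spanOne S).smul_mem p hξm
  have hqη : q • η ∈ spanOne S := (spanOne S).smul_mem q hηm
  have hξU : ξ ∈ zspan U := zspan_sub (zspan_subset (by simp [hU])) (zspan_smul _ (hS₁U (hT' χ₁ hχ₁S)))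
  have hηU : η ∈ zspan U := zspan_sub (zspan_subset (by simp [hU])) (zspan_subset (by simp [hU]))
  rw [hS.isometry.1 _ ((spanOne S).add_mem hβm hpξ) _ hqη, hS.isometry.1 _ hβm _ hpξ,
    hS.isometry.2.1 _ hξm, hS.isometry.2.1 _ hηm,
    hT'iso.1 _ (zspan_add (hS₁U hβ) (zspan_smul _ hξU)) _ (zspan_smul _ hηU),
    hT'iso.1 _ (hS₁U hβ) _ (zspan_smul _ hξU), hT'iso.2.1 _ hξU, hT'iso.2.1 _ hηU]
  have e1 : T' β = τ β := by
    rw [← hTτ β (mem_zspanOn.mpr ⟨hβ, hβ0⟩)]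
    refine eqOn_of_gens (M := Submodule.span ℤ (↑S₁ : Set (L → ℂ)))
      (fun a ha b hb => hT'iso.1 a (hS₁U ha) b (hS₁U hb)) (fun a ha k => hT'iso.2.1 a (hS₁U ha) k)
      hT.1 (fun a ha k => hT.2.1 a ha k) Submodule.subset_span (fun g hg => ?_) hβ
    rw [hT'v g (Finset.mem_union_left _ hg), hf3 g hg]
  have e2 : T' ξ = τ ξ := by
    rw [hξ, zspan_isometry_sub hT'iso (zspan_subset (by simp [hU])) (zspan_smul _ (hS₁U (hT' χ₁ hχ₁S))),
      hT'iso.2.1 _ (hS₁U (hT' χ₁ hχ₁S)), hT'v χ (by simp [hF]), hf1,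
      hT'v χ₁ (Finset.mem_union_left _ hχ₁S), hf3 χ₁ hχ₁S, ← hξ, ← hx, hxval]
  have e3 : T' η = τ η := by
    rw [hη, zspan_isometry_sub hT'iso (zspan_subset (by simp [hU])) (zspan_subset (by simp [hU])),
      hT'v χ (by simp [hF]), hT'v (conjFun χ) (by simp [hF]), hf1, hf2, hS.sum_eq χ hχ, sub_sub_cancel]
  rw [e1, e2, e3]

end Cfsg.Agent.S1516
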