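import Cfsg.Statements.S1518
import Cfsg.Agent.Lib.Dade.Virtual
import Cfsg.Agent.Lib.Char.Coherent
import Cfsg.Agent.Lib.Char.Linear
import Mathlib.Tactic

set_option autoImplicit false
open scoped ComplexConjugate
open Cfsg

namespace Cfsg.Agent.S1518

open Cfsg.Agent.Lib.Char Cfsg.Agent.Lib.Dade

theorem result {G : Type*} [Group G] [Fintype G] (A : Set G) (L : Subgroup G) [Fintype L] (H : G → Subgroup G) (hD : Cfsg.DadeHypothesis A L H) (χ : L → ℂ) (hχ : Cfsg.IsIrrCharacter L χ) (hsupp : ∀ x : L, x ≠ 1 → (x : G) ∉ A → χ x = 0) : ∃ μ : G → ℂ, Cfsg.IsIrrCharacter G μ ∧ Cfsg.dadeIsometry A L H (χ - Cfsg.conjFun χ) = μ - Cfsg.conjFun μ := by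
  classical
  set α := χ - conjFun χ with hαdef
  have hχ' : IsIrrCharacter L (conjFun χ) := isIrrCharacter_conj hχ
  have hαA : ∀ x : L, (x : G) ∉ A → α x = 0 := by
    intro x hx
    rcases eq_or_ne x 1 with rfl | h1
    · obtain ⟨d, hd⟩ := exists_natDegree (isCharacter_of_isIrr hχ)
      simp [α, conjFun, hd]
    · simp [α, conjFun, hsupp x h1 hx]
  have hgen : IsGeneralizedCharacter L α :=
    ⟨χ, conjFun χ, isCharacter_of_isIrr hχ, isCharacter_of_isIrr hχ', rfl⟩
  have hα : IsClassFunction L α :=
    isClassFunction_sub (isClassFunction_of_isIrr hχ) (isClassFunction_of_isIrr hχ')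
  by_cases hreal : conjFun χ = χ
  · refine ⟨fun _ => 1, isIrrCharacter_one, ?_⟩
    funext g
    have h0 : dadeIsometry A L H α g = 0 := by
      by_cases hg : InSupp A H g
      · obtain ⟨a, ha, u, hu, x, hx⟩ := hg
        rw [dade_apply hD hα (a := ⟨a, hD.subset ha⟩) ha hu hx]
        simp [α, hreal]
      · exact dade_eq_zero hD α hg
    rw [h0]
    simp [conjFun]
  have hgτ := isGeneralizedCharacter_dade hD hgen hαA
  have hone : dadeIsometry A L H α 1 = 0 := dade_eq_zero hD α (not_inSupp_one hD)
  have hnorm : classInner (dadeIsometry A L H α) (dadeIsometry A L H α) = 2 := by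
    rw [classInner_dade hD hα hαA (isClassFunction_dade hD hα) (ψ := α) fun a ha => ?_]
    · simp only [α, classInner_sub_left, classInner_sub_right, classInner_irr_self hχ,
        classInner_irr_self hχ', classInner_irr_ne hχ hχ' (Ne.symm hreal),
        classInner_irr_ne hχ' hχ hreal]
      norm_num
    · have hconst : ∀ u ∈ H (a : G), dadeIsometry A L H α ((a : G) * u) = α a := fun u hu =>
        dade_apply hD hα ha hu (x := 1) (by simp)
      rw [avgH, finsum_mem_eq_toFinset_sum,
        Finset.sum_congr rfl (g := fun _ => α a) fun u hu => hconst u (by simpa using hu),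
        Finset.sum_const, nsmul_eq_mul, ← mul_assoc, ← Set.ncard_eq_toFinset_card',
        ← Nat.card_coe_set_eq, show Nat.card (H (a : G) : Set G) = Nat.card (H (a : G)) from rfl,
        inv_mul_cancel₀ (card_ne_zero_complex _), one_mul]
  obtain ⟨a, b, hab, he⟩ := exists_eq_sub_of_norm_two hgτ hone hnorm
  have hca : IsIrrCharacter G (conjFun (a : G → ℂ)) := isIrrCharacter_conj a.2
  have hcb : IsIrrCharacter G (conjFun (b : G → ℂ)) := isIrrCharacter_conj b.2
  have hconj : conjFun (a : G → ℂ) - conjFun (b : G → ℂ) = (b : G → ℂ) - (a : G → ℂ) := by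
    funext g
    have h1 : conj (dadeIsometry A L H α g) = -dadeIsometry A L H α g := by
      by_cases hg : InSupp A H g
      · obtain ⟨c, hc, u, hu, x, hx⟩ := hg
        rw [dade_apply hD hα (a := ⟨c, hD.subset hc⟩) hc hu hx]
        simp [α, conjFun]
      · rw [dade_eq_zero hD α hg]; simp
    rw [he] at h1
    simp only [Pi.sub_apply, map_sub] at h1
    show conj ((a : G → ℂ) g) - conj ((b : G → ℂ) g) = _
    rw [h1]; simp
  refine ⟨a, a.2, ?_⟩
  rw [he]
  suffices h : conjFun (a : G → ℂ) = (b : G → ℂ) by rw [h]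
  by_contra hne
  have h2 := congrArg (fun f => classInner f (b : G → ℂ)) hconj
  simp only [classInner_sub_left, classInner_irr_self b.2, classInner_irr_ne hca b.2 hne,
    classInner_irr_ne a.2 b.2 (fun e => hab (Subtype.ext e))] at h2
  rw [classInner_irr hcb b.2] at h2
  split_ifs at h2 <;> norm_num at h2

end Cfsg.Agent.S1518
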