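import Cfsg.Statements.S1522
import Cfsg.Agent.Lib.Dade.CentralSeparated
-- import your own Cfsg.Agent.* helpers here

set_option autoImplicit false
open Cfsg

namespace Cfsg.Agent.S1522

/-- Let K be a nilpotent normal subgroup of the finite group L of odd order with [K,K] < K < L and L/[K,K] a Frobenius group with kernel K/[K,K] (elements of K outside [K,K] are centralised modulo [K,K] only from inside K); let (S, τ, R) be a coherence system from L to G with S the functions induced from non-principal irreducible characters of K. Let Z be a nontrivial normal subgroup of L contained in the centre of K, and suppose every member of S outside S(Z) is an irreducible character of L. Then S minus S(Z) is the set of irreducible characters χ of L with χ z ≠ χ 1 for some z ∈ Z, and it is coherent. -/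
theorem result {L : Type*} [Group L] [Fintype L] {G : Type*} [Group G] [Fintype G] (K : Subgroup L) [hK : K.Normal] (hsolv : Group.IsSolvable K) (τ : (L → ℂ) → (G → ℂ)) (R : (L → ℂ) → Finset (G → ℂ)) (hS : Cfsg.IsCoherenceSystem (Cfsg.inducedIrrAbove K ⊥) τ R) (hodd : Odd (Nat.card L)) (hnil : Group.IsNilpotent K) (hH₁K : ⁅K, K⁆ < K) (hKL : K < ⊤) (hfrob : ∀ k ∈ K, k ∉ ⁅K, K⁆ → ∀ x : L, x * k * x⁻¹ * k⁻¹ ∈ ⁅K, K⁆ → x ∈ K) (Z : Subgroup L) [Z.Normal] (hZ1 : Z ≠ ⊥) (hZK : Z ≤ K) (hZc : ∀ z ∈ Z, ∀ k ∈ K, z * k = k * z) (hirr : ∀ χ ∈ Cfsg.inducedIrrAbove K ⊥ \ Cfsg.inducedIrrAbove K Z, Cfsg.IsIrrCharacter L χ) : Cfsg.inducedIrrAbove K ⊥ \ Cfsg.inducedIrrAbove K Z = {χ | Cfsg.IsIrrCharacter L χ ∧ ∃ z ∈ Z, χ z ≠ χ 1} ∧ Cfsg.IsCoherent (Cfsg.inducedIrrAbove K ⊥ \ Cfsg.inducedIrrAbove K Z) {1}ᶜ τ := by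
  exact ⟨Lib.Dade.off_eq K hZK hirr,
    Lib.Dade.coherent_off K hsolv hS hodd hnil hH₁K hfrob hZ1 hZK hZc hirr⟩

end Cfsg.Agent.S1522
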