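import Cfsg.Statements.S1524
import Cfsg.Agent.Lib.Dade.SibleyMain
-- import your own Cfsg.Agent.* helpers here

set_option autoImplicit false
open Cfsg
open scoped Pointwise

namespace Cfsg.Agent.S1524

/-- Let G be a finite group and H ≤ L subgroups with L of odd order, H ≠ ⊥ nilpotent and normal in L with a nontrivial complement W₁ in L (H ⊓ W₁ = ⊥, H ⊔ W₁ = L) acting on H without non-identity fixed points (L is a Frobenius group with kernel H), and suppose the underlying set of H is a TI-subset of G whose normaliser is L. Let S be the set of functions on L induced from the non-principal irreducible characters of H. Then (S, L minus 1, induction to G) is coherent. -/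
theorem result {G : Type*} [Group G] [Fintype G] (H L W₁ : Subgroup G) [Fintype L] (hodd : Odd (Nat.card L)) (hHL : H ≤ L) (hW₁L : W₁ ≤ L) (hH1 : H ≠ ⊥) (hW1 : W₁ ≠ ⊥) (hnil : Group.IsNilpotent H) (hHn : ∀ x ∈ L, ∀ h ∈ H, x * h * x⁻¹ ∈ H) (hinf : H ⊓ W₁ = ⊥) (hsup : H ⊔ W₁ = L) (hfpf : ∀ w ∈ W₁, w ≠ 1 → ∀ h ∈ H, w * h = h * w → h = 1) (hTI : Cfsg.IsTISubset (H : Set G)) (hN : Subgroup.normalizer (H : Set G) = L) : Cfsg.IsCoherent (Cfsg.inducedIrrAbove (H.subgroupOf L) ⊥) {1}ᶜ (fun α : L → ℂ => Cfsg.indFun L α) := by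
  classical
  have hlt : H < L := by
    refine lt_of_le_of_ne hHL fun h => hW1 ?_
    rw [← h] at hW₁L
    rw [← hinf, inf_eq_right.mpr hW₁L]
  have hF : Lib.OddPartition.IsFrobTI L H := by
    refine Lib.OddPartition.isFrobTI_of hlt hH1 hHn (fun h hh h1 c hc => ?_) hTI hN
    obtain ⟨hcL, hch⟩ := hc
    rw [← hsup] at hcL
    have hW : W₁ ≤ Subgroup.normalizer (H : Set G) := hN ▸ hW₁L
    have hcL' : c ∈ ((H : Set G) * (W₁ : Set G)) := by
      rw [← Subgroup.coe_mul_of_right_le_normalizer_left H W₁ hW]; exact hcL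
    obtain ⟨a, ha, w, hw, rfl⟩ := Set.mem_mul.mp hcL'
    by_cases hw1 : w = 1
    · rw [hw1, mul_one]; exact ha
    exfalso
    -- every element of `H * w` is conjugate to `w`
    let f : H → H := fun x => ⟨x * (w * (x : G)⁻¹ * w⁻¹),
      H.mul_mem x.2 (hHn w (hW₁L hw) _ (H.inv_mem x.2))⟩
    have hf : Function.Injective f := by
      intro x y e
      have e' : (x : G) * (w * (x : G)⁻¹ * w⁻¹) = y * (w * (y : G)⁻¹ * w⁻¹) :=
        congrArg Subtype.val e
      have hyx : (y : G)⁻¹ * x = 1 := by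
        refine hfpf w hw hw1 _ (H.mul_mem (H.inv_mem y.2) x.2) ?_
        calc w * ((y : G)⁻¹ * x) = (y : G)⁻¹ * (y * (w * (y : G)⁻¹ * w⁻¹)) * w * x := by group
          _ = (y : G)⁻¹ * x * w := by rw [← e']; group
      exact Subtype.ext (inv_mul_eq_one.mp hyx).symm
    obtain ⟨x, hx⟩ := Finite.surjective_of_injective hf ⟨a, ha⟩
    have hx' : (x : G) * (w * (x : G)⁻¹ * w⁻¹) = a := congrArg Subtype.val hx
    have hch' : a * w * h = h * (a * w) := Subgroup.mem_centralizer_singleton_iff.mp hch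
    rw [← hx'] at hch'
    have hfix : (x : G)⁻¹ * h * x = 1 := by
      refine hfpf w hw hw1 _ (H.mul_mem (H.mul_mem (H.inv_mem x.2) hh) x.2) ?_
      calc w * ((x : G)⁻¹ * h * x)
          = (x : G)⁻¹ * (x * (w * (x : G)⁻¹ * w⁻¹) * w * h) * x := by group
        _ = (x : G)⁻¹ * h * x * w := by rw [hch']; group
    exact h1 (by
      calc h = (x : G) * ((x : G)⁻¹ * h * x) * (x : G)⁻¹ := by group
        _ = 1 := by rw [hfix]; group)
  have : (H.subgroupOf L).Normal := ⟨fun n hn x => hHn x x.2 n hn⟩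
  have hne : Nat.card H ≠ (H.subgroupOf L).index + 1 := by
    intro h
    obtain ⟨a, ha⟩ := hodd.of_dvd_nat (Subgroup.card_dvd_of_le hHL)
    obtain ⟨b, hb⟩ := hodd.of_dvd_nat (H.subgroupOf L).index_dvd_card
    omega
  have hset : Cfsg.inducedIrrAbove (H.subgroupOf L) ⊥ = Lib.Dade.relChars (H.subgroupOf L) := by
    ext χ
    constructor
    · rintro ⟨θ, hθ, hθ1, -, rfl⟩
      exact Lib.Dade.ind_mem_relChars (Lib.Dade.kernel_centralizer hF) hθ hθ1
    · intro hχ
      obtain ⟨θ, hθ, hθ1, rfl⟩ :=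
        Lib.Dade.exists_of_mem_relChars (Lib.Dade.kernel_centralizer hF) hχ
      exact ⟨θ, hθ, hθ1, fun a ha => by
        rw [Subgroup.mem_bot] at ha; rw [show a = 1 from Subtype.ext ha], rfl⟩
  rw [hset]
  rcases Lib.Dade.frob_coherent_or hF hN.symm hne with h | ⟨h, -⟩
  · exact h
  · exfalso
    have h2 := hodd.of_dvd_nat (Subgroup.card_dvd_of_le hHL)
    rw [h, Nat.odd_pow_iff] at h2
    · exact absurd h2 (by decide)
    · intro h0
      exact hH1 (Subgroup.card_eq_one.mp (by rw [h, h0, pow_zero]))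

end Cfsg.Agent.S1524
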