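import Cfsg.Statements.S1525
import Cfsg.Agent.Lib.Dade.Basic
import Mathlib.Tactic
import Mathlib.Algebra.Order.Chebyshev

set_option autoImplicit false
open scoped ComplexConjugate
open Cfsg

namespace Cfsg.Agent.S1525

open Cfsg.Agent.Lib.Char Cfsg.Agent.Lib.Dade

theorem result {G : Type*} [Group G] [Fintype G] (A : Set G) (L : Subgroup G) [Fintype L] (H : G → Subgroup G) (hD : Cfsg.DadeHypothesis A L H) (χ : G → ℂ) (hχ : Cfsg.IsClassFunction G χ) (ψ : L → ℂ) (hψ : ∀ a : L, (a : G) ∈ A → ψ a = (Nat.card (H a) : ℂ)⁻¹ * ∑ᶠ u ∈ (H a : Set G), χ (a * u)) : (Nat.card L : ℝ)⁻¹ * ∑ᶠ a ∈ {a : L | (a : G) ∈ A}, ‖ψ a‖ ^ 2 ≤ (Nat.card G : ℝ)⁻¹ * ∑ᶠ g ∈ {g : G | ∃ a ∈ A, ∃ u ∈ H a, ∃ x : G, x * g * x⁻¹ = a * u}, ‖χ g‖ ^ 2 := by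
  classical
  have hF : IsClassFunction G fun g => ((‖χ g‖ ^ 2 : ℝ) : ℂ) := fun g x => by
    show ((‖χ (x * g * x⁻¹)‖ ^ 2 : ℝ) : ℂ) = _
    rw [hχ g x]
  have hs := sum_supp hD hF
  have havg : ∀ a : L, (a : G) ∈ A → avgH H (fun g => ((‖χ g‖ ^ 2 : ℝ) : ℂ)) a =
      (((Nat.card (H (a : G)) : ℝ)⁻¹ * ∑ u ∈ (H (a : G) : Set G).toFinset, ‖χ ((a : G) * u)‖ ^ 2 : ℝ) : ℂ) := by
    intro a _
    rw [avgH, finsum_mem_eq_toFinset_sum]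
    push_cast
    ring
  rw [Finset.sum_congr rfl (fun a (ha : a ∈ Finset.univ.filter fun a : L => (a : G) ∈ A) =>
    havg a (Finset.mem_filter.mp ha).2)] at hs
  have hs' : (Nat.card L : ℝ) * ∑ g ∈ Finset.univ.filter (InSupp A H), ‖χ g‖ ^ 2 =
      (Nat.card G : ℝ) * ∑ a ∈ Finset.univ.filter (fun a : L => (a : G) ∈ A),
        (Nat.card (H (a : G)) : ℝ)⁻¹ * ∑ u ∈ (H (a : G) : Set G).toFinset, ‖χ ((a : G) * u)‖ ^ 2 := by
    exact_mod_cast hs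
  have hcs : ∀ a : L, (a : G) ∈ A → ‖ψ a‖ ^ 2 ≤
      (Nat.card (H (a : G)) : ℝ)⁻¹ * ∑ u ∈ (H (a : G) : Set G).toFinset, ‖χ ((a : G) * u)‖ ^ 2 := by
    intro a ha
    have hn : (0 : ℝ) < (Nat.card (H (a : G)) : ℝ) := Nat.cast_pos.mpr Nat.card_pos
    rw [hψ a ha, finsum_mem_eq_toFinset_sum, norm_mul, norm_inv, Complex.norm_natCast, mul_pow]
    have h1 : ‖∑ u ∈ (H (a : G) : Set G).toFinset, χ ((a : G) * u)‖ ^ 2 ≤
        (Nat.card (H (a : G)) : ℝ) * ∑ u ∈ (H (a : G) : Set G).toFinset, ‖χ ((a : G) * u)‖ ^ 2 := by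
      refine le_trans (pow_le_pow_left₀ (norm_nonneg _) (norm_sum_le _ _) 2) ?_
      refine le_trans sq_sum_le_card_mul_sum_sq (le_of_eq ?_)
      congr 1
      rw [← Set.ncard_eq_toFinset_card', ← Nat.card_coe_set_eq]
      rfl
    calc ((Nat.card (H (a : G)) : ℝ)⁻¹) ^ 2 * ‖∑ u ∈ (H (a : G) : Set G).toFinset, χ ((a : G) * u)‖ ^ 2
        ≤ ((Nat.card (H (a : G)) : ℝ)⁻¹) ^ 2 *
          ((Nat.card (H (a : G)) : ℝ) * ∑ u ∈ (H (a : G) : Set G).toFinset, ‖χ ((a : G) * u)‖ ^ 2) := by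
          gcongr
      _ = _ := by field_simp
  rw [finsum_mem_eq_toFinset_sum, finsum_mem_eq_toFinset_sum]
  have e1 : ({a : L | (a : G) ∈ A}).toFinset = Finset.univ.filter (fun a : L => (a : G) ∈ A) := by
    ext; simp
  have e2 : ({g : G | ∃ a ∈ A, ∃ u ∈ H a, ∃ x : G, x * g * x⁻¹ = a * u}).toFinset =
      Finset.univ.filter (InSupp A H) := by
    ext; simp [InSupp]
  rw [e1, e2]
  have hL : (0 : ℝ) < (Nat.card L : ℝ) := Nat.cast_pos.mpr Nat.card_pos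
  have hG : (0 : ℝ) < (Nat.card G : ℝ) := Nat.cast_pos.mpr Nat.card_pos
  calc (Nat.card L : ℝ)⁻¹ * ∑ a ∈ Finset.univ.filter (fun a : L => (a : G) ∈ A), ‖ψ a‖ ^ 2
      ≤ (Nat.card L : ℝ)⁻¹ * ∑ a ∈ Finset.univ.filter (fun a : L => (a : G) ∈ A),
        (Nat.card (H (a : G)) : ℝ)⁻¹ * ∑ u ∈ (H (a : G) : Set G).toFinset, ‖χ ((a : G) * u)‖ ^ 2 :=
        mul_le_mul_of_nonneg_left (Finset.sum_le_sum fun a ha => hcs a (Finset.mem_filter.mp ha).2)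
          (inv_nonneg.mpr hL.le)
    _ = _ := by
      rw [inv_mul_eq_iff_eq_mul₀ hL.ne', ← mul_assoc, mul_comm (Nat.card L : ℝ), mul_assoc, hs',
        ← mul_assoc, inv_mul_cancel₀ hG.ne', one_mul]

end Cfsg.Agent.S1525
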