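import Cfsg.Statements.S1527
import Mathlib.GroupTheory.Index
import Mathlib.Tactic

set_option autoImplicit false
open Cfsg

namespace Cfsg.Agent.S1527

theorem result {G : Type*} [Group G] [Finite G] {ι : Type*} [Fintype ι] (H : ι → Subgroup G) (hcop : ∀ i j, i ≠ j → Nat.Coprime (Nat.card (H i)) (Nat.card (H j))) (hTI : ∀ i, Cfsg.IsTISubset (H i : Set G)) (hcover : ∀ g : G, g ≠ 1 → ∃ i, ∃ x : G, x * g * x⁻¹ ∈ H i) : Nat.card G - 1 = ∑ i, (Subgroup.normalizer (H i : Set G)).index * (Nat.card (H i) - 1) := by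
  classical
  have := Fintype.ofFinite G
  let N : ι → Subgroup G := fun i => Subgroup.normalizer (H i : Set G)
  let F : (Σ i, (G ⧸ N i) × {h : H i // h ≠ 1}) → {g : G // g ≠ 1} := fun t =>
    ⟨t.2.1.out * (t.2.2.1 : G) * t.2.1.out⁻¹, fun e => t.2.2.2
      (Subtype.ext (mul_eq_left.mp (mul_inv_eq_one.mp e)))⟩
  have hbij : Function.Bijective F := by
    refine ⟨?_, fun ⟨g, hg⟩ => ?_⟩
    · rintro ⟨i, c, ⟨h, hh⟩⟩ ⟨j, c', ⟨h', hh'⟩⟩ e
      have e' : c.out * (h : G) * c.out⁻¹ = c'.out * (h' : G) * c'.out⁻¹ := congrArg Subtype.val e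
      have hord : orderOf (h : G) = orderOf (h' : G) := by
        have := congrArg orderOf e'
        rwa [show c.out * (h : G) * c.out⁻¹ = MulAut.conj c.out (h : G) from rfl,
          show c'.out * (h' : G) * c'.out⁻¹ = MulAut.conj c'.out (h' : G) from rfl,
          MulEquiv.orderOf_eq, MulEquiv.orderOf_eq] at this
      have hij : i = j := by
        by_contra hne
        have h1 : orderOf (h : G) = 1 := Nat.eq_one_of_dvd_coprimes (hcop i j hne)
          (Subgroup.orderOf_dvd_natCard _ h.2) (hord ▸ Subgroup.orderOf_dvd_natCard _ h'.2)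
        exact hh (Subtype.ext (orderOf_eq_one_iff.mp h1))
      subst hij
      have hconj : (c'.out⁻¹ * c.out) * (h : G) * (c'.out⁻¹ * c.out)⁻¹ = (h' : G) := by
        rw [show (c'.out⁻¹ * c.out) * (h : G) * (c'.out⁻¹ * c.out)⁻¹ =
          c'.out⁻¹ * (c.out * (h : G) * c.out⁻¹) * c'.out by group, e']
        group
      have hcc : c = c' := by
        rw [← QuotientGroup.out_eq' c, ← QuotientGroup.out_eq' c', eq_comm, QuotientGroup.eq]
        by_contra hn
        exact hh (Subtype.ext (hTI i _ hn _ h.2 (hconj ▸ h'.2)))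
      subst hcc
      simp only [inv_mul_cancel, one_mul, inv_one, mul_one] at hconj
      simp only [Sigma.mk.injEq, heq_eq_eq, Prod.mk.injEq, true_and, Subtype.mk.injEq]
      exact Subtype.ext hconj
    · obtain ⟨i, x, hx⟩ := hcover g hg
      obtain ⟨n, hn⟩ := QuotientGroup.mk_out_eq_mul (N i) x⁻¹
      have hm : (n : G)⁻¹ * (x * g * x⁻¹) * (n : G) ∈ H i := by
        have := ((N i).inv_mem n.2 (x * g * x⁻¹)).mp hx
        simpa using this
      refine ⟨⟨i, ((x⁻¹ : G) : G ⧸ N i), ⟨⟨_, hm⟩, fun e => hg ?_⟩⟩, Subtype.ext ?_⟩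
      · have e' : (n : G)⁻¹ * (x * g * x⁻¹) * (n : G) = 1 := congrArg Subtype.val e
        calc g = x⁻¹ * ((n : G) * ((n : G)⁻¹ * (x * g * x⁻¹) * (n : G)) * (n : G)⁻¹) * x := by group
          _ = 1 := by rw [e']; group
      · show ((x⁻¹ : G) : G ⧸ N i).out * ((n : G)⁻¹ * (x * g * x⁻¹) * (n : G)) *
          (((x⁻¹ : G) : G ⧸ N i).out)⁻¹ = g
        rw [hn]; group
  have hcard := Nat.card_congr (Equiv.ofBijective F hbij)
  rw [Nat.card_sigma] at hcard
  have hsub : ∀ (Y : Type _) [Group Y] [Finite Y], Nat.card {y : Y // y ≠ 1} = Nat.card Y - 1 := by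
    intro Y _ _
    have := Fintype.ofFinite Y
    rw [Nat.card_eq_fintype_card, Fintype.card_subtype_compl, Fintype.card_subtype_eq,
      Nat.card_eq_fintype_card]
  rw [hsub G] at hcard
  rw [← hcard]
  refine Finset.sum_congr rfl fun i _ => ?_
  have hsubi : Nat.card {h : H i // h ≠ 1} = Nat.card (H i) - 1 := by
    have := Fintype.ofFinite (H i)
    rw [Nat.card_eq_fintype_card, Fintype.card_subtype_compl, Fintype.card_subtype_eq,
      Nat.card_eq_fintype_card]
  rw [Nat.card_prod, hsubi]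
  rfl

end Cfsg.Agent.S1527
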