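import Cfsg.Statements.S1529
import Cfsg.Agent.Lib.CharClifford.NormOne
import Mathlib.Tactic

set_option autoImplicit false
open scoped ComplexConjugate
open Cfsg

namespace Cfsg.Agent.S1529

open Cfsg.Agent.Lib.Char Cfsg.Agent.Lib

theorem result {G : Type*} [Group G] [Fintype G] (N : Subgroup G) [Fintype N] (S : Set (N → ℂ)) (hirr : ∀ χ ∈ S, Cfsg.IsIrrCharacter N χ) (htwo : ∃ χ ∈ S, ∃ ψ ∈ S, χ ≠ ψ) (τ₁ : (N → ℂ) → (G → ℂ)) (hτ₁ : Cfsg.IsLinearIsometryOn (Cfsg.zspan S) τ₁) (h0 : ∀ α ∈ Cfsg.zspan S, α 1 = 0 → τ₁ α 1 = 0) : ∃ ε : ℂ, (ε = 1 ∨ ε = -1) ∧ (∀ χ ∈ S, Cfsg.IsIrrCharacter G (ε • τ₁ χ)) ∧ (∀ χ ∈ S, ∀ ψ ∈ S, τ₁ χ = τ₁ ψ → χ = ψ) := by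
  classical
  obtain ⟨hadd, hsmul, hinner, hgen⟩ := hτ₁
  have hmem : ∀ χ ∈ S, χ ∈ zspan S := fun χ hχ => Submodule.subset_span hχ
  have hn : ∀ χ ∈ S, ∃ (μ : IrrCharacter G) (s : ℤ), (s = 1 ∨ s = -1) ∧
      τ₁ χ = (s : ℂ) • (μ : G → ℂ) := fun χ hχ =>
    CharClifford.exists_irr_of_generalized_norm_one (hgen χ (hmem χ hχ))
      (by rw [hinner χ (hmem χ hχ) χ (hmem χ hχ), classInner_irr_self (hirr χ hχ)])
  choose μ s hs hτ using hn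
  have hcast : ∀ (n : ℕ) (f : G → ℂ), ((n : ℤ) • f) = (n : ℂ) • f := fun n f => by
    rw [natCast_zsmul, ← Nat.cast_smul_eq_nsmul ℂ]
  have hdeg : ∀ χ (hχ : χ ∈ S) ψ (hψ : ψ ∈ S),
      (charDegree ψ : ℤ) * s χ hχ * (charDegree (μ χ hχ : G → ℂ)) =
      (charDegree χ : ℤ) * s ψ hψ * (charDegree (μ ψ hψ : G → ℂ)) := by
    intro χ hχ ψ hψ
    set a : ℕ := charDegree ψ
    set b : ℕ := charDegree χ
    have h1 : (a : ℤ) • χ ∈ zspan S := Submodule.smul_mem _ _ (hmem χ hχ)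
    have h2 : -((b : ℤ) • ψ) ∈ zspan S := neg_mem (Submodule.smul_mem (Submodule.span ℤ S) _ (hmem ψ hψ))
    have h0' : ((a : ℤ) • χ + -((b : ℤ) • ψ)) 1 = 0 := by
      simp [apply_one_eq_charDegree (isCharacter_of_isIrr (hirr χ hχ)),
        apply_one_eq_charDegree (isCharacter_of_isIrr (hirr ψ hψ)), a, b, mul_comm]
    have h3 := h0 _ (Submodule.add_mem _ h1 h2) h0'
    rw [hadd _ h1 _ h2, hsmul _ (hmem χ hχ), ← neg_smul, hsmul _ (hmem ψ hψ), hτ χ hχ, hτ ψ hψ] at h3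
    simp [apply_one_eq_charDegree (isCharacter_of_isIrr (μ χ hχ).2),
      apply_one_eq_charDegree (isCharacter_of_isIrr (μ ψ hψ).2)] at h3
    have h4 : (((a : ℤ) * s χ hχ * (charDegree (μ χ hχ : G → ℂ)) : ℤ) : ℂ) =
        (((b : ℤ) * s ψ hψ * (charDegree (μ ψ hψ : G → ℂ)) : ℤ) : ℂ) := by
      push_cast
      linear_combination h3
    exact_mod_cast h4
  obtain ⟨χ₀, hχ₀, -⟩ := htwo
  have heq : ∀ χ (hχ : χ ∈ S), s χ hχ = s χ₀ hχ₀ := by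
    intro χ hχ
    have h := hdeg χ hχ χ₀ hχ₀
    have p1 : (0 : ℤ) < (charDegree χ₀ : ℤ) * charDegree (μ χ hχ : G → ℂ) := by
      have := charDegree_pos (hirr χ₀ hχ₀); have := charDegree_pos (μ χ hχ).2; positivity
    have p2 : (0 : ℤ) < (charDegree χ : ℤ) * charDegree (μ χ₀ hχ₀ : G → ℂ) := by
      have := charDegree_pos (hirr χ hχ); have := charDegree_pos (μ χ₀ hχ₀).2; positivity
    rcases hs χ hχ with e | e <;> rcases hs χ₀ hχ₀ with e' | e' <;> rw [e, e'] <;> rw [e, e'] at h <;>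
      nlinarith
  refine ⟨(s χ₀ hχ₀ : ℂ), by rcases hs χ₀ hχ₀ with e | e <;> simp [e], fun χ hχ => ?_,
    fun χ hχ ψ hψ h => ?_⟩
  · rw [hτ χ hχ, heq χ hχ, smul_smul]
    rcases hs χ₀ hχ₀ with e | e <;> simpa [e] using (μ χ hχ).2
  · by_contra hne
    have h1 := hinner χ (hmem χ hχ) ψ (hmem ψ hψ)
    rw [← h, hinner χ (hmem χ hχ) χ (hmem χ hχ), classInner_irr_self (hirr χ hχ),
      classInner_irr_ne (hirr χ hχ) (hirr ψ hψ) hne] at h1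
    exact one_ne_zero h1

end Cfsg.Agent.S1529
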