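import Cfsg.Statements.S1530
import Cfsg.Agent.Lib.Dade.CoherenceExt
import Cfsg.Agent.Lib.CharClifford.NormOne
import Mathlib.Tactic

set_option autoImplicit false
open scoped ComplexConjugate
open Cfsg

namespace Cfsg.Agent.S1530

open Cfsg.Agent.Lib.Char Cfsg.Agent.Lib.Dade Cfsg.Agent.Lib.CharClifford

theorem result {G : Type*} [Group G] [Fintype G] (N : Subgroup G) [Fintype N] (S₀ : Finset (N → ℂ)) (χ : N → ℂ) (hirr : ∀ ξ ∈ S₀, Cfsg.IsIrrCharacter N ξ) (hχ : Cfsg.IsIrrCharacter N χ) (hχS : χ ∉ S₀) (d : (N → ℂ) → ℕ) (hd : ∀ ξ ∈ insert χ S₀, ξ 1 = (d ξ : ℂ)) (τ : (N → ℂ) → (G → ℂ)) (hτ : Cfsg.IsLinearIsometryOn (Cfsg.zspanOn (↑(insert χ S₀) : Set (N → ℂ)) {1}ᶜ) τ) (hτ1 : ∀ α ∈ Cfsg.zspanOn (↑(insert χ S₀) : Set (N → ℂ)) {1}ᶜ, τ α 1 = 0) (hcoh : Cfsg.IsCoherent (↑S₀ : Set (N → ℂ)) {1}ᶜ τ) (ψ : N → ℂ) (hψ : ψ ∈ S₀) (hdvd : d ψ ∣ d χ) (hlt : 2 * d ψ * d χ < ∑ ξ ∈ S₀,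 d ξ ^ 2) : Cfsg.IsCoherent (↑(insert χ S₀) : Set (N → ℂ)) {1}ᶜ τ := by
  classical
  obtain ⟨-, T, hT, hTτ⟩ := hcoh
  have hsub : (↑S₀ : Set (N → ℂ)) ⊆ ↑(insert χ S₀) := Finset.coe_subset.mpr (Finset.subset_insert _ _)
  have hT' : ∀ φ ∈ S₀, φ ∈ zspan (↑S₀ : Set (N → ℂ)) := fun φ h => zspan_subset h
  have hirr' : ∀ φ ∈ insert χ S₀, IsIrrCharacter N φ := fun φ h => by
    rcases Finset.mem_insert.mp h with rfl | h
    exacts [hχ, hirr φ h]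
  have hne : ∀ φ ∈ S₀, φ ≠ χ := fun φ h e => hχS (e ▸ h)
  have hdpos : ∀ φ ∈ insert χ S₀, 0 < d φ := fun φ h => by
    have h0 := irr_degree_ne_zero (hirr' φ h)
    rw [hd φ h, Nat.cast_ne_zero] at h0
    exact Nat.pos_of_ne_zero h0
  have hI : ∀ φ ∈ insert χ S₀, ∀ φ' ∈ insert χ S₀,
      classInner φ φ' = if φ = φ' then 1 else 0 := fun φ h φ' h' => by
    split_ifs with e
    · rw [← e]; exact classInner_irr_self (hirr' φ h)
    · exact classInner_irr_ne (hirr' φ h) (hirr' φ' h') e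
  have hmem : ∀ φ ∈ S₀, φ ∈ insert χ S₀ := fun φ h => Finset.mem_insert_of_mem h
  have hχm : χ ∈ insert χ S₀ := Finset.mem_insert_self _ _
  obtain ⟨m, hm⟩ := hdvd
  have hm0 : 0 < m := by
    have := hdpos χ hχm
    rw [hm] at this
    exact Nat.pos_of_mul_pos_left this
  set ξ : N → ℂ := χ - (m : ℤ) • ψ with hξ
  have hξm : ξ ∈ zspanOn (↑(insert χ S₀) : Set (N → ℂ)) {1}ᶜ := mem_zspanOn.mpr
    ⟨zspan_sub (zspan_subset (by simp)) (zspan_smul _ (zspan_subset (hmem ψ hψ))), by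
      rw [hξ, Pi.sub_apply, Pi.smul_apply, hd χ hχm, hd ψ (hmem ψ hψ), hm, zsmul_eq_mul]
      push_cast; ring⟩
  set x := τ ξ with hx
  have hxgen : IsGeneralizedCharacter G x := hτ.2.2.2 _ hξm
  have hxx : classInner x x = (((1 + (m : ℤ) ^ 2 : ℤ) : ℝ) : ℂ) := by
    rw [hx, hτ.2.2.1 _ hξm _ hξm, hξ]
    simp only [classInner_sub_left, classInner_sub_right, classInner_zsmul_left, classInner_zsmul_right,
      hI χ hχm χ hχm, hI ψ (hmem ψ hψ) ψ (hmem ψ hψ), hI χ hχm ψ (hmem ψ hψ), hI ψ (hmem ψ hψ) χ hχm,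
      if_true, if_neg (hne ψ hψ), if_neg (hne ψ hψ).symm]
    push_cast; ring
  have hz : ∀ φ : S₀, ∃ z : ℤ, classInner x (T φ.1) = z := fun φ =>
    classInner_int hxgen (hT.2.2.2 _ (hT' φ.1 φ.2))
  choose z hz using hz
  set a : ℤ := z ⟨ψ, hψ⟩ + m with ha
  have hβ : ∀ φ ∈ S₀, (d ψ : ℤ) • φ - (d φ : ℤ) • ψ ∈ zspanOn (↑S₀ : Set (N → ℂ)) {1}ᶜ := fun φ h =>
    mem_zspanOn.mpr ⟨zspan_sub (zspan_smul _ (hT' φ h)) (zspan_smul _ (hT' ψ hψ)), by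
      rw [Pi.sub_apply, Pi.smul_apply, Pi.smul_apply, hd φ (hmem φ h), hd ψ (hmem ψ hψ),
        zsmul_eq_mul, zsmul_eq_mul]
      push_cast; ring⟩
  have hTβ : ∀ φ ∈ S₀, τ ((d ψ : ℤ) • φ - (d φ : ℤ) • ψ) = (d ψ : ℤ) • T φ - (d φ : ℤ) • T ψ :=
    fun φ h => by
      rw [← hTτ _ (hβ φ h), zspan_isometry_sub hT (zspan_smul _ (hT' φ h)) (zspan_smul _ (hT' ψ hψ)),
        hT.2.1 _ (hT' φ h), hT.2.1 _ (hT' ψ hψ)]
  have hzval : ∀ φ : S₀, z φ * (d ψ : ℤ) =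
      a * d φ.1 - if φ.1 = ψ then (m : ℤ) * d ψ else 0 := by
    intro φ
    have h := hτ.2.2.1 ξ hξm _ (mem_zspanOn.mpr ⟨zspan_mono hsub (mem_zspanOn.mp (hβ φ.1 φ.2)).1,
      (mem_zspanOn.mp (hβ φ.1 φ.2)).2⟩)
    rw [hTβ φ.1 φ.2, ← hx, classInner_sub_right, classInner_zsmul_right, classInner_zsmul_right, hz φ,
      hz ⟨ψ, hψ⟩, hξ] at h
    simp only [classInner_sub_left, classInner_sub_right, classInner_zsmul_left, classInner_zsmul_right,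
      hI χ hχm _ (hmem _ φ.2), hI χ hχm ψ (hmem ψ hψ), hI ψ (hmem ψ hψ) ψ (hmem ψ hψ),
      hI ψ (hmem ψ hψ) _ (hmem _ φ.2), if_neg (hne _ φ.2).symm, if_neg (hne ψ hψ).symm, if_true] at h
    rw [ha]
    have e : (if φ.1 = ψ then (m : ℤ) * d ψ else 0) = (if ψ = φ.1 then (m : ℤ) * d ψ else 0) :=
      if_congr eq_comm rfl rfl
    rw [e]
    split_ifs at h ⊢ with e
    · rw [← e] at h ⊢
      have h' : ((z φ * (d ψ : ℤ) : ℤ) : ℂ) = (((z ⟨ψ, hψ⟩ + (m : ℤ)) * (d ψ : ℤ) - m * d ψ : ℤ) : ℂ) := by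
        push_cast at h ⊢
        linear_combination h
      exact_mod_cast h'
    · have h' : ((z φ * (d ψ : ℤ) : ℤ) : ℂ) = (((z ⟨ψ, hψ⟩ + (m : ℤ)) * (d φ.1 : ℤ) - 0 : ℤ) : ℂ) := by
        push_cast at h ⊢
        linear_combination h
      exact_mod_cast h'
  have horthT : ∀ φ ∈ S₀, ∀ φ' ∈ S₀, classInner (T φ) (T φ') = if φ = φ' then 1 else 0 :=
    fun φ h φ' h' => by rw [hT.2.2.1 _ (hT' φ h) _ (hT' φ' h'), hI _ (hmem φ h) _ (hmem φ' h')]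
  have hb := bessel S₀.attach (fun φ => T φ.1) (fun φ => (z φ : ℝ)) (fun _ => 1) x _ hxx
    (fun i _ j _ hij => by rw [horthT _ i.2 _ j.2, if_neg fun h => hij (Subtype.ext h)])
    (fun i _ => by rw [horthT _ i.2 _ i.2, if_pos rfl, Complex.ofReal_one])
    (fun i _ => by rw [hz i, Complex.ofReal_intCast, Complex.ofReal_one, mul_one])
  simp only [mul_one] at hb
  set D : ℤ := ∑ φ ∈ S₀, (d φ : ℤ) ^ 2 with hD
  have hD' : 2 * (m : ℤ) * (d ψ : ℤ) ^ 2 < D := by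
    have h : ((2 * d ψ * d χ : ℕ) : ℤ) < ((∑ φ ∈ S₀, d φ ^ 2 : ℕ) : ℤ) := by exact_mod_cast hlt
    rw [hm] at h
    push_cast at h
    rw [hD]; linarith
  have hQ : (∑ φ ∈ S₀.attach, z φ ^ 2) * (d ψ : ℤ) ^ 2 =
      a ^ 2 * D - 2 * a * m * (d ψ : ℤ) ^ 2 + (m : ℤ) ^ 2 * (d ψ : ℤ) ^ 2 := by
    have hterm : ∀ φ : S₀, z φ ^ 2 * (d ψ : ℤ) ^ 2 = a ^ 2 * (d φ.1 : ℤ) ^ 2 +
        if φ.1 = ψ then -2 * a * m * (d ψ : ℤ) ^ 2 + (m : ℤ) ^ 2 * (d ψ : ℤ) ^ 2 else 0 := by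
      intro φ
      rw [← mul_pow, hzval φ]
      split_ifs with e
      · rw [e]; ring
      · ring
    rw [Finset.sum_mul, Finset.sum_congr rfl fun φ _ => hterm φ, Finset.sum_add_distrib, ← Finset.mul_sum,
      Finset.sum_attach S₀ (fun φ => (d φ : ℤ) ^ 2),
      Finset.sum_attach S₀ (fun φ => if φ = ψ then
        -2 * a * m * (d ψ : ℤ) ^ 2 + (m : ℤ) ^ 2 * (d ψ : ℤ) ^ 2 else 0),
      Finset.sum_ite_eq' S₀ ψ, if_pos hψ]
    ring
  have hle : ∑ φ ∈ S₀.attach, z φ ^ 2 ≤ 1 + (m : ℤ) ^ 2 := by exact_mod_cast hb.1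
  have hdψ : 0 < (d ψ : ℤ) := by exact_mod_cast hdpos ψ (hmem ψ hψ)
  have hmZ : 1 ≤ (m : ℤ) := by exact_mod_cast hm0
  have hle' : a ^ 2 * D ≤ (2 * a * m + 1) * (d ψ : ℤ) ^ 2 := by
    have := mul_le_mul_of_nonneg_right hle (sq_nonneg (d ψ : ℤ))
    rw [hQ] at this
    linarith
  have ha0 : a = 0 := by
    by_contra hne0
    have hDpos : 0 < D := lt_of_le_of_lt (by positivity) hD'
    rcases lt_or_gt_of_ne hne0 with h | h
    · have h1 : 0 < a ^ 2 * D := mul_pos (by nlinarith) hDpos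
      have h2 : (2 * a * (m : ℤ) + 1) * (d ψ : ℤ) ^ 2 ≤ 0 :=
        mul_nonpos_of_nonpos_of_nonneg (by nlinarith) (sq_nonneg _)
      linarith
    have ha1 : a = 1 := by
      by_contra h1
      have h2 : 2 ≤ a := by omega
      have h3 : a ^ 2 * (2 * (m : ℤ) * (d ψ : ℤ) ^ 2) ≤ a ^ 2 * D :=
        mul_le_mul_of_nonneg_left hD'.le (sq_nonneg a)
      have h4 : 2 * a * (2 * (m : ℤ) * (d ψ : ℤ) ^ 2) ≤ a ^ 2 * (2 * (m : ℤ) * (d ψ : ℤ) ^ 2) :=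
        mul_le_mul_of_nonneg_right (by nlinarith) (by positivity)
      have h5 : 1 * (d ψ : ℤ) ^ 2 < 2 * a * m * (d ψ : ℤ) ^ 2 :=
        mul_lt_mul_of_pos_right (by nlinarith) (by positivity)
      linarith
    rw [ha1] at hQ
    have hgt : (m : ℤ) ^ 2 < ∑ φ ∈ S₀.attach, z φ ^ 2 :=
      lt_of_mul_lt_mul_right (by rw [hQ]; linarith) (sq_nonneg (d ψ : ℤ))
    have heq := hb.2 (by exact_mod_cast (show ∑ φ ∈ S₀.attach, z φ ^ 2 = 1 + (m : ℤ) ^ 2 by omega))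
    obtain ⟨μ, s, hs, hTψ⟩ := exists_irr_of_generalized_norm_one (hT.2.2.2 _ (hT' ψ hψ))
      (by rw [horthT ψ hψ ψ hψ, if_pos rfl])
    have ht : T ψ 1 ≠ 0 := by
      rw [hTψ, Pi.smul_apply, smul_eq_mul]
      refine mul_ne_zero ?_ (irr_degree_ne_zero μ.2)
      rcases hs with rfl | rfl <;> simp
    have hval : ∀ φ ∈ S₀, (d ψ : ℂ) * T φ 1 = (d φ : ℂ) * T ψ 1 := by
      intro φ h
      have e := hτ1 _ (mem_zspanOn.mpr ⟨zspan_mono hsub (mem_zspanOn.mp (hβ φ h)).1,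
        (mem_zspanOn.mp (hβ φ h)).2⟩)
      rw [hTβ φ h, Pi.sub_apply, Pi.smul_apply, Pi.smul_apply, zsmul_eq_mul, zsmul_eq_mul,
        Int.cast_natCast, Int.cast_natCast] at e
      exact sub_eq_zero.mp e
    have h0 := hτ1 _ hξm
    rw [← hx, heq, Finset.sum_apply] at h0
    have h1 : (d ψ : ℂ) * (d ψ : ℂ) * ∑ φ ∈ S₀.attach, (((z φ : ℝ) : ℂ) • T φ.1) 1 = 0 := by
      rw [h0, mul_zero]
    have hterm : ∀ φ : S₀, (d ψ : ℂ) * (d ψ : ℂ) * (((z φ : ℝ) : ℂ) • T φ.1) 1 =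
        (((z φ * (d ψ : ℤ)) * d φ.1 : ℤ) : ℂ) * T ψ 1 := by
      intro φ
      rw [Pi.smul_apply, smul_eq_mul, Complex.ofReal_intCast]
      push_cast
      linear_combination (d ψ : ℂ) * (z φ : ℂ) * hval φ.1 φ.2
    rw [Finset.mul_sum, Finset.sum_congr rfl fun φ _ => hterm φ, ← Finset.sum_mul, mul_eq_zero,
      or_iff_left ht, ← Int.cast_sum, Int.cast_eq_zero] at h1
    have h2 : ∑ φ ∈ S₀.attach, z φ * (d ψ : ℤ) * d φ.1 = D - (m : ℤ) * (d ψ : ℤ) ^ 2 := by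
      have hterm2 : ∀ φ : S₀, z φ * (d ψ : ℤ) * d φ.1 = (d φ.1 : ℤ) ^ 2 +
          if φ.1 = ψ then -((m : ℤ) * (d ψ : ℤ) ^ 2) else 0 := by
        intro φ
        rw [hzval φ, ha1]
        split_ifs with e
        · rw [e]; ring
        · ring
      rw [Finset.sum_congr rfl fun φ _ => hterm2 φ, Finset.sum_add_distrib,
        Finset.sum_attach S₀ (fun φ => (d φ : ℤ) ^ 2),
        Finset.sum_attach S₀ (fun φ => if φ = ψ then -((m : ℤ) * (d ψ : ℤ) ^ 2) else 0),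
        Finset.sum_ite_eq' S₀ ψ, if_pos hψ]
      ring
    rw [h2] at h1
    nlinarith
  have hzψ : z ⟨ψ, hψ⟩ = -(m : ℤ) := by omega
  have hz0 : ∀ φ ∈ S₀, classInner x (T φ) = if φ = ψ then -(m : ℂ) else 0 := by
    intro φ h
    rw [hz ⟨φ, h⟩]
    split_ifs with e
    · subst e; rw [hzψ]; push_cast; ring
    · have h1 := hzval ⟨φ, h⟩
      rw [if_neg e, ha0, zero_mul, sub_zero] at h1
      rw [(mul_eq_zero.mp h1).resolve_right hdψ.ne', Int.cast_zero]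
  set Z : G → ℂ := x + (m : ℤ) • T ψ with hZ
  have hZT : ∀ φ ∈ S₀, classInner Z (T φ) = 0 ∧ classInner (T φ) Z = 0 := by
    intro φ h
    have h1 : classInner Z (T φ) = 0 := by
      rw [hZ, classInner_add_left, classInner_zsmul_left, hz0 φ h, horthT ψ hψ φ h,
        if_congr (eq_comm (a := ψ) (b := φ)) rfl rfl]
      split_ifs <;> simp
    exact ⟨h1, by rw [classInner_conj_symm, h1, map_zero]⟩
  have hZZ : classInner Z Z = 1 := by
    rw [hZ]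
    simp only [classInner_add_left, classInner_add_right, classInner_zsmul_left, classInner_zsmul_right,
      hxx, hz0 ψ hψ, classInner_conj_symm x (T ψ), horthT ψ hψ ψ hψ, if_true, map_neg, map_natCast]
    push_cast; ring
  set F : Finset (N → ℂ) := insert χ S₀ with hF
  set f : (N → ℂ) → G → ℂ := fun φ => if φ = χ then Z else T φ with hf
  obtain ⟨T', hT'v, hT'iso⟩ := exists_isometry F f
    (fun a ha b hb h => by rw [hI a ha b hb, if_neg h])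
    (fun a ha e => irr_degree_ne_zero (hirr' a ha) (by rw [e]; rfl))
    (fun φ hφ => by
      simp only [hf]
      split_ifs with h
      · exact generalized_add hxgen (generalized_zsmul (hT.2.2.2 _ (hT' ψ hψ)) _)
      · exact hT.2.2.2 _ (hT' φ ((Finset.mem_insert.mp hφ).resolve_left h)))
    (fun φ hφ φ' hφ' => by
      rw [hI φ hφ φ' hφ']
      rcases Finset.mem_insert.mp hφ with rfl | h <;> rcases Finset.mem_insert.mp hφ' with rfl | h'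
      · simp only [hf, if_true, hZZ]
      · simp only [hf, if_true, if_neg (hne _ h'), (hZT _ h').1, if_neg (hne _ h').symm]
      · simp only [hf, if_true, if_neg (hne _ h), (hZT _ h).2]
      · simp only [hf, if_neg (hne _ h), if_neg (hne _ h'), horthT _ h _ h'])
  refine ⟨⟨ξ, hξm, fun e => ?_⟩, T', hT'iso, fun α hα => ?_⟩
  · have h := congrArg (fun v => classInner v χ) e
    simp only [hξ, classInner_sub_left, classInner_zsmul_left, classInner_zero_left, hI χ hχm χ hχm,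
      hI ψ (hmem ψ hψ) χ hχm, if_true, if_neg (hne ψ hψ)] at h
    simp at h
  obtain ⟨hα1, hα0⟩ := mem_zspanOn.mp hα
  set U : Set (N → ℂ) := ↑F with hU
  have hSU : zspan (↑S₀ : Set (N → ℂ)) ⊆ zspan U := zspan_mono hsub
  have hdec : ∀ α ∈ zspan U, ∃ β ∈ zspan (↑S₀ : Set (N → ℂ)), ∃ p : ℤ, α = β + p • ξ := by
    intro α hα
    induction hα using Submodule.span_induction with
    | mem y hy =>
      rcases Finset.mem_insert.mp (Finset.mem_coe.mp hy) with rfl | hy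
      · exact ⟨(m : ℤ) • ψ, zspan_smul _ (hT' ψ hψ), 1, by rw [hξ]; simp⟩
      · exact ⟨y, zspan_subset hy, 0, by simp⟩
    | zero => exact ⟨0, Submodule.zero_mem _, 0, by simp⟩
    | add y z _ _ hy hz =>
      obtain ⟨b1, hb1, p1, rfl⟩ := hy
      obtain ⟨b2, hb2, p2, rfl⟩ := hz
      exact ⟨b1 + b2, zspan_add hb1 hb2, p1 + p2, by rw [add_smul]; abel⟩
    | smul k y _ hy =>
      obtain ⟨b1, hb1, p1, rfl⟩ := hy
      exact ⟨k • b1, zspan_smul _ hb1, k * p1, by rw [mul_smul, smul_add]⟩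
  obtain ⟨β, hβ', p, rfl⟩ := hdec α hα1
  have hξ0 : ξ 1 = 0 := (mem_zspanOn.mp hξm).2
  have hβ0 : β 1 = 0 := by simpa [Pi.add_apply, Pi.smul_apply, hξ0] using hα0
  have hβm : β ∈ zspanOn U {1}ᶜ := mem_zspanOn.mpr ⟨hSU hβ', hβ0⟩
  rw [hτ.1 _ hβm _ ((spanOne U).smul_mem p hξm), hτ.2.1 _ hξm,
    hT'iso.1 _ (hSU hβ') _ (zspan_smul _ hξm.1), hT'iso.2.1 _ hξm.1]
  have e1 : T' β = τ β := by
    rw [← hTτ β (mem_zspanOn.mpr ⟨hβ', hβ0⟩)]
    refine eqOn_of_gens (M := Submodule.span ℤ (↑S₀ : Set (N → ℂ)))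
      (fun a ha b hb => hT'iso.1 a (hSU ha) b (hSU hb)) (fun a ha k => hT'iso.2.1 a (hSU ha) k)
      hT.1 (fun a ha k => hT.2.1 a ha k) Submodule.subset_span (fun g hg => ?_) hβ'
    rw [hT'v g (hmem g hg)]
    exact if_neg (hne g hg)
  have e2 : T' ξ = τ ξ := by
    rw [hξ, zspan_isometry_sub hT'iso (zspan_subset hχm) (zspan_smul _ (hSU (hT' ψ hψ))),
      hT'iso.2.1 _ (hSU (hT' ψ hψ)), hT'v χ hχm, hT'v ψ (hmem ψ hψ), ← hξ, ← hx]
    simp only [hf, if_true, if_neg (hne ψ hψ), hZ, add_sub_cancel_right]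
  rw [e1, e2]

end Cfsg.Agent.S1530
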