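import Cfsg.Statements.S1531
import Cfsg.Agent.Lib.Dade.CoherenceExt
import Cfsg.Agent.Lib.CharClifford.NormOne
import Mathlib.Tactic

set_option autoImplicit false
open scoped ComplexConjugate
open Cfsg

namespace Cfsg.Agent.S1531

open Cfsg.Agent.Lib.Char Cfsg.Agent.Lib.Dade Cfsg.Agent.Lib.CharClifford

theorem result {G : Type*} [Group G] [Fintype G] (N : Subgroup G) [Fintype N] (S X Y : Set (N → ℂ)) (hirr : ∀ ξ ∈ S, Cfsg.IsIrrCharacter N ξ) (hXS : X ⊆ S) (hYS : Y ⊆ S) (hXY : Disjoint X Y) (hX2 : ∃ a ∈ X, ∃ b ∈ X, a ≠ b) (hY2 : ∃ a ∈ Y, ∃ b ∈ Y, a ≠ b) (α : (N → ℂ) → (G → ℂ)) (hα : Cfsg.IsLinearIsometryOn (Cfsg.zspanOn S {1}ᶜ) α) (hα1 : ∀ θ ∈ Cfsg.zspanOn S {1}ᶜ, α θ 1 = 0) (σ τ : (N → ℂ) → (G → ℂ)) (hσ : Cfsg.IsLinearIsometryOn (Cfsg.zspan X) σ) (hσα : ∀ θ ∈ Cfsg.zspanOn X {1}ᶜ, σ θ = α θ) (hτ : Cfsg.IsLinearIsometryOn (Cfsg.zspan Y) τ) (hτα : ∀ θ ∈ Cfsg.zspanOn Y {1}ᶜ, τ θ = α θ) : (∀ χ ∈ X, ∀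 η ∈ Y, Cfsg.classInner (σ χ) (τ η) = 0) ∧ ((∃ χ₀ ∈ X, ∃ η₀ ∈ Y, α (χ₀ 1 • η₀ - η₀ 1 • χ₀) = χ₀ 1 • τ η₀ - η₀ 1 • σ χ₀) → Cfsg.IsCoherent (X ∪ Y) {1}ᶜ α) := by
  classical
  set d : (N → ℂ) → ℤ := fun ξ => (charDegree ξ : ℤ) with hd
  have hd1 : ∀ ξ ∈ S, ξ 1 = (d ξ : ℂ) := fun ξ h => by
    rw [apply_one_eq_charDegree (isCharacter_of_isIrr (hirr ξ h))]
    simp [hd]
  have hdpos : ∀ ξ ∈ S, 0 < d ξ := fun ξ h => Int.natCast_pos.mpr (charDegree_pos (hirr ξ h))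
  have hI : ∀ ξ ∈ S, ∀ η ∈ S, classInner ξ η = if ξ = η then 1 else 0 := fun ξ h η h' => by
    split_ifs with e
    · rw [← e]; exact classInner_irr_self (hirr ξ h)
    · exact classInner_irr_ne (hirr ξ h) (hirr η h') e
  have hne : ∀ χ ∈ X, ∀ η ∈ Y, χ ≠ η := fun χ h η h' e => Set.disjoint_left.mp hXY h (e ▸ h')
  have hmix : ∀ (Z : Set (N → ℂ)), Z ⊆ S → ∀ a ∈ Z, ∀ b ∈ Z,
      d a • b - d b • a ∈ zspanOn Z {1}ᶜ := fun Z hZ a ha b hb =>
    mem_zspanOn.mpr ⟨zspan_sub (zspan_smul _ (zspan_subset hb)) (zspan_smul _ (zspan_subset ha)), by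
      rw [Pi.sub_apply, Pi.smul_apply, Pi.smul_apply, hd1 a (hZ ha), hd1 b (hZ hb), zsmul_eq_mul,
        zsmul_eq_mul]
      ring⟩
  have hup : ∀ (Z : Set (N → ℂ)), Z ⊆ S → ∀ θ ∈ zspanOn Z {1}ᶜ, θ ∈ zspanOn S {1}ᶜ := fun Z hZ θ h =>
    mem_zspanOn.mpr ⟨zspan_mono hZ (mem_zspanOn.mp h).1, (mem_zspanOn.mp h).2⟩
  have hstep : ∀ (Z : Set (N → ℂ)), Z ⊆ S → ∀ (f : (N → ℂ) → G → ℂ), IsLinearIsometryOn (zspan Z) f →
      (∀ θ ∈ zspanOn Z {1}ᶜ, f θ = α θ) → ∀ a ∈ Z, ∀ b ∈ Z,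
      α (d a • b - d b • a) = d a • f b - d b • f a ∧
        (d a : ℂ) * f b 1 = (d b : ℂ) * f a 1 ∧ IsGeneralizedCharacter G (f a) ∧
        classInner (f a) (f b) = (if a = b then 1 else 0) ∧ f a 1 ≠ 0 := by
    intro Z hZ f hf hfα a ha b hb
    have e : α (d a • b - d b • a) = d a • f b - d b • f a := by
      rw [← hfα _ (hmix Z hZ a ha b hb), zspan_isometry_sub hf (zspan_smul _ (zspan_subset hb))
        (zspan_smul _ (zspan_subset ha)), hf.2.1 _ (zspan_subset hb), hf.2.1 _ (zspan_subset ha)]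
    refine ⟨e, ?_, hf.2.2.2 _ (zspan_subset ha),
      by rw [hf.2.2.1 _ (zspan_subset ha) _ (zspan_subset hb), hI a (hZ ha) b (hZ hb)], ?_⟩
    · have h0 := hα1 _ (hup Z hZ _ (hmix Z hZ a ha b hb))
      rw [e, Pi.sub_apply, Pi.smul_apply, Pi.smul_apply, zsmul_eq_mul, zsmul_eq_mul] at h0
      exact sub_eq_zero.mp h0
    · obtain ⟨μ, s, hs, he⟩ := exists_irr_of_generalized_norm_one (hf.2.2.2 _ (zspan_subset ha))
        (by rw [hf.2.2.1 _ (zspan_subset ha) _ (zspan_subset ha), hI a (hZ ha) a (hZ ha), if_pos rfl])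
      rw [he, Pi.smul_apply, smul_eq_mul]
      refine mul_ne_zero ?_ (irr_degree_ne_zero μ.2)
      rcases hs with rfl | rfl <;> simp
  have hortho : ∀ χ ∈ X, ∀ η ∈ Y, classInner (σ χ) (τ η) = 0 := by
    intro χ hχ η hη
    by_contra hne0
    obtain ⟨χ', hχ', hχχ⟩ : ∃ χ' ∈ X, χ' ≠ χ := by
      obtain ⟨a, ha, b, hb, hab⟩ := hX2
      by_cases h : a = χ
      · exact ⟨b, hb, fun e => hab (h.trans e.symm)⟩
      · exact ⟨a, ha, h⟩
    obtain ⟨η', hη', hηη⟩ : ∃ η' ∈ Y, η' ≠ η := by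
      obtain ⟨a, ha, b, hb, hab⟩ := hY2
      by_cases h : a = η
      · exact ⟨b, hb, fun e => hab (h.trans e.symm)⟩
      · exact ⟨a, ha, h⟩
    obtain ⟨e1, v1, g1, o1, n1⟩ := hstep X hXS σ hσ hσα χ hχ χ' hχ'
    obtain ⟨e2, v2, g2, o2, n2⟩ := hstep Y hYS τ hτ hτα η hη η' hη'
    have n1' := (hstep X hXS σ hσ hσα χ hχ χ hχ).2.2.2.1
    have n2' := (hstep Y hYS τ hτ hτα η hη η hη).2.2.2.1
    rw [if_pos rfl] at n1' n2'
    rw [if_neg hχχ.symm] at o1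
    rw [if_neg hηη.symm] at o2
    obtain ⟨μ, s, hs, hσμ⟩ := exists_irr_of_generalized_norm_one g1 n1'
    obtain ⟨ν, t, ht, hτν⟩ := exists_irr_of_generalized_norm_one g2 n2'
    have hμν : μ = ν := by
      by_contra h
      apply hne0
      rw [hσμ, hτν, classInner_smul_left, classInner_smul_right, classInner_irr_ne μ.2 ν.2
        (fun e => h (Subtype.ext e)), mul_zero, mul_zero]
    have hεeq : τ η = ((t * s : ℤ) : ℂ) • σ χ := by
      rw [hσμ, hτν, hμν, smul_smul, ← Int.cast_mul]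
      rcases hs with rfl | rfl <;> rcases ht with rfl | rfl <;> simp
    set ε : ℤ := t * s with hε
    have hε1 : ε = 1 ∨ ε = -1 := by rcases hs with rfl | rfl <;> rcases ht with rfl | rfl <;> simp [hε]
    have hεc : conj ((ε : ℤ) : ℂ) = (ε : ℂ) := map_intCast _ _
    have hεne : (ε : ℂ) ≠ 0 := by rcases hε1 with h | h <;> simp [h]
    have c1 : classInner (σ χ) (τ η') = 0 := by
      have : classInner (τ η) (τ η') = 0 := o2
      rw [hεeq, classInner_smul_left] at this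
      exact (mul_eq_zero.mp this).resolve_left hεne
    have c2 : classInner (σ χ') (τ η) = 0 := by
      rw [hεeq, classInner_smul_right, classInner_conj_symm, o1, map_zero, mul_zero]
    have c3 : classInner (σ χ) (τ η) = (ε : ℂ) := by
      rw [hεeq, classInner_smul_right, n1', hεc, mul_one]
    have key := hα.2.2.1 _ (hup X hXS _ (hmix X hXS χ hχ χ' hχ')) _ (hup Y hYS _ (hmix Y hYS η hη η' hη'))
    rw [e1, e2] at key
    simp only [classInner_sub_left, classInner_sub_right, classInner_zsmul_left, classInner_zsmul_right,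
      c1, c2, c3, hI χ' (hXS hχ') η (hYS hη), hI χ (hXS hχ) η (hYS hη), hI χ' (hXS hχ') η' (hYS hη'),
      hI χ (hXS hχ) η' (hYS hη'), if_neg (hne χ' hχ' η hη), if_neg (hne χ hχ η hη),
      if_neg (hne χ' hχ' η' hη'), if_neg (hne χ hχ η' hη'), mul_zero, sub_zero, zero_sub] at key
    obtain ⟨z, hz⟩ := classInner_int (hσ.2.2.2 _ (zspan_subset hχ')) (hτ.2.2.2 _ (zspan_subset hη'))
    rw [hz] at key
    have hkey : d χ * d η * z + d χ' * d η' * ε = 0 := by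
      have h : ((d χ * d η * z + d χ' * d η' * ε : ℤ) : ℂ) = 0 := by
        push_cast
        linear_combination key
      exact_mod_cast h
    have pc := hdpos χ (hXS hχ); have pc' := hdpos χ' (hXS hχ')
    have pe := hdpos η (hYS hη); have pe' := hdpos η' (hYS hη')
    have g1' := hσ.2.2.2 _ (zspan_subset hχ')
    have g2' := hτ.2.2.2 _ (zspan_subset hη')
    have m1 : classInner (σ χ') (σ χ') = 1 := by
      rw [hσ.2.2.1 _ (zspan_subset hχ') _ (zspan_subset hχ'), hI χ' (hXS hχ') χ' (hXS hχ'), if_pos rfl]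
    have m2 : classInner (τ η') (τ η') = 1 := by
      rw [hτ.2.2.1 _ (zspan_subset hη') _ (zspan_subset hη'), hI η' (hYS hη') η' (hYS hη'), if_pos rfl]
    obtain ⟨μ', s', hs', hσμ'⟩ := exists_irr_of_generalized_norm_one g1' m1
    obtain ⟨ν', t', ht', hτν'⟩ := exists_irr_of_generalized_norm_one g2' m2
    have hμν' : μ' = ν' := by
      by_contra h
      have hz0 : (z : ℂ) = 0 := by
        rw [← hz, hσμ', hτν', classInner_smul_left, classInner_smul_right, classInner_irr_ne μ'.2 ν'.2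
          (fun e => h (Subtype.ext e)), mul_zero, mul_zero]
      have hz0' : z = 0 := by exact_mod_cast hz0
      rw [hz0', mul_zero, zero_add] at hkey
      rcases hε1 with h | h <;> rw [h] at hkey <;> nlinarith [mul_pos pc' pe']
    have hz' : τ η' = (z : ℂ) • σ χ' := by
      rw [← hz, hσμ', hτν', classInner_smul_left, classInner_smul_right, hμν',
        classInner_irr_self ν'.2, smul_smul]
      rcases hs' with rfl | rfl <;> rcases ht' with rfl | rfl <;> simp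
    have hval : ((d χ * d η' * ε : ℤ) : ℂ) = ((d η * d χ' * z : ℤ) : ℂ) := by
      apply mul_right_cancel₀ n1
      rw [hεeq, hz', Pi.smul_apply, Pi.smul_apply, smul_eq_mul, smul_eq_mul] at v2
      push_cast at v2 ⊢
      linear_combination (-(d χ : ℂ)) * v2 + (d η : ℂ) * (z : ℂ) * v1
    have hval' : d χ * d η' * ε = d η * d χ' * z := by exact_mod_cast hval
    have hfin : (d χ ^ 2 + d χ' ^ 2) * d η' * ε = 0 := by
      linear_combination (d χ) * hval' + (d χ') * hkey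
    rcases mul_eq_zero.mp hfin with h | h
    · have : 0 < (d χ ^ 2 + d χ' ^ 2) * d η' := by positivity
      omega
    · rcases hε1 with h' | h' <;> omega
  refine ⟨hortho, ?_⟩
  rintro ⟨χ₀, hχ₀, η₀, hη₀, hgl⟩
  have hZS : X ∪ Y ⊆ S := Set.union_subset hXS hYS
  have horth : ∀ a ∈ X ∪ Y, ∀ b ∈ X ∪ Y, a ≠ b → classInner a b = 0 := fun a ha b hb h => by
    rw [hI a (hZS ha) b (hZS hb), if_neg h]
  have hne' : ∀ a ∈ X ∪ Y, a ≠ 0 := fun a ha e => irr_degree_ne_zero (hirr a (hZS ha)) (by rw [e]; rfl)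
  set F := (finite_of_orth horth hne').toFinset with hF
  have hFc : (F : Set (N → ℂ)) = X ∪ Y := Set.Finite.coe_toFinset _
  have hFm : ∀ {a}, a ∈ F → a ∈ X ∪ Y := fun h => (Set.Finite.mem_toFinset _).mp h
  have hFm' : ∀ {a}, a ∈ X ∪ Y → a ∈ F := fun h => (Set.Finite.mem_toFinset _).mpr h
  set f : (N → ℂ) → G → ℂ := fun a => if a ∈ X then σ a else τ a with hf
  have hfX : ∀ a ∈ X, f a = σ a := fun a h => if_pos h
  have hfY : ∀ a ∈ Y, f a = τ a := fun a h => if_neg fun h' => hne a h' a h rfl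
  obtain ⟨T, hT, hTiso⟩ := exists_isometry F f
    (fun a ha b hb h => horth a (hFm ha) b (hFm hb) h) (fun a ha => hne' a (hFm ha))
    (fun a ha => by
      rcases hFm ha with h | h
      · rw [hfX a h]; exact hσ.2.2.2 _ (zspan_subset h)
      · rw [hfY a h]; exact hτ.2.2.2 _ (zspan_subset h))
    (fun a ha b hb => by
      rcases hFm ha with h | h <;> rcases hFm hb with h' | h'
      · rw [hfX a h, hfX b h', hσ.2.2.1 _ (zspan_subset h) _ (zspan_subset h')]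
      · rw [hfX a h, hfY b h', hortho a h b h', horth a (Or.inl h) b (Or.inr h') (hne a h b h')]
      · rw [hfY a h, hfX b h', classInner_conj_symm, hortho b h' a h, map_zero,
          horth a (Or.inr h) b (Or.inl h') (hne b h' a h).symm]
      · rw [hfY a h, hfY b h', hτ.2.2.1 _ (zspan_subset h) _ (zspan_subset h')])
  rw [hFc] at hTiso
  refine ⟨?_, T, hTiso, fun θ hθ => ?_⟩
  · obtain ⟨a, ha, b, hb, hab⟩ := hX2
    refine ⟨d a • b - d b • a, mem_zspanOn.mpr ⟨zspan_mono Set.subset_union_left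
      (mem_zspanOn.mp (hmix X hXS a ha b hb)).1, (mem_zspanOn.mp (hmix X hXS a ha b hb)).2⟩, fun e => ?_⟩
    have h := congrArg (fun v => classInner v b) e
    simp only [classInner_sub_left, classInner_zsmul_left, classInner_zero_left, hI a (hXS ha) b (hXS hb),
      hI b (hXS hb) b (hXS hb), if_neg hab, if_true] at h
    have := hdpos a (hXS ha)
    simp at h
    omega
  obtain ⟨hθ1, hθ0⟩ := mem_zspanOn.mp hθ
  have hXU : zspan X ⊆ zspan (X ∪ Y) := zspan_mono Set.subset_union_left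
  have hYU : zspan Y ⊆ zspan (X ∪ Y) := zspan_mono Set.subset_union_right
  have hTX : ∀ β ∈ zspan X, T β = σ β := fun β hβ =>
    eqOn_of_gens (M := Submodule.span ℤ X) (fun a ha b hb => hTiso.1 a (hXU ha) b (hXU hb))
      (fun a ha k => hTiso.2.1 a (hXU ha) k) hσ.1 (fun a ha k => hσ.2.1 a ha k) Submodule.subset_span
      (fun g hg => by rw [hT g (hFm' (Or.inl hg)), hfX g hg]) hβ
  have hTY : ∀ β ∈ zspan Y, T β = τ β := fun β hβ =>
    eqOn_of_gens (M := Submodule.span ℤ Y) (fun a ha b hb => hTiso.1 a (hYU ha) b (hYU hb))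
      (fun a ha k => hTiso.2.1 a (hYU ha) k) hτ.1 (fun a ha k => hτ.2.1 a ha k) Submodule.subset_span
      (fun g hg => by rw [hT g (hFm' (Or.inr hg)), hfY g hg]) hβ
  have hsplit : ∀ θ ∈ zspan (X ∪ Y), ∃ β ∈ zspan X, ∃ γ ∈ zspan Y, θ = β + γ := by
    intro θ hθ
    induction hθ using Submodule.span_induction with
    | mem y hy =>
      rcases hy with hy | hy
      · exact ⟨y, zspan_subset hy, 0, Submodule.zero_mem _, (add_zero y).symm⟩
      · exact ⟨0, Submodule.zero_mem _, y, zspan_subset hy, (zero_add y).symm⟩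
    | zero => exact ⟨0, Submodule.zero_mem _, 0, Submodule.zero_mem _, (add_zero _).symm⟩
    | add y z _ _ hy hz =>
      obtain ⟨b1, hb1, c1, hc1, rfl⟩ := hy
      obtain ⟨b2, hb2, c2, hc2, rfl⟩ := hz
      exact ⟨b1 + b2, zspan_add hb1 hb2, c1 + c2, zspan_add hc1 hc2, by abel⟩
    | smul k y _ hy =>
      obtain ⟨b1, hb1, c1, hc1, rfl⟩ := hy
      exact ⟨k • b1, zspan_smul _ hb1, k • c1, zspan_smul _ hc1, smul_add _ _ _⟩
  obtain ⟨β, hβ, γ, hγ, rfl⟩ := hsplit θ hθ1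
  have hint : ∀ β ∈ zspan X, ∃ k : ℤ, β 1 = k := by
    intro β hβ
    induction hβ using Submodule.span_induction with
    | mem y hy => exact ⟨d y, hd1 y (hXS hy)⟩
    | zero => exact ⟨0, by simp⟩
    | add y z _ _ hy hz =>
      obtain ⟨k, hk⟩ := hy; obtain ⟨l, hl⟩ := hz
      exact ⟨k + l, by rw [Pi.add_apply, hk, hl, Int.cast_add]⟩
    | smul k y _ hy =>
      obtain ⟨l, hl⟩ := hy
      exact ⟨k * l, by rw [Pi.smul_apply, hl, zsmul_eq_mul, Int.cast_mul]⟩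
  obtain ⟨s, hs⟩ := hint β hβ
  have hγ1 : γ 1 = ((-s : ℤ) : ℂ) := by
    rw [Pi.add_apply, hs] at hθ0
    push_cast
    linear_combination hθ0
  set c := d χ₀ with hc
  set e := d η₀ with he
  have hcpos := hdpos χ₀ (hXS hχ₀)
  have hepos := hdpos η₀ (hYS hη₀)
  have hgl' : α (e • χ₀ - c • η₀) = e • σ χ₀ - c • τ η₀ := by
    have hg : c • η₀ - e • χ₀ ∈ zspanOn S {1}ᶜ := hmix S le_rfl χ₀ (hXS hχ₀) η₀ (hYS hη₀)
    rw [hd1 χ₀ (hXS hχ₀), hd1 η₀ (hYS hη₀), Int.cast_smul_eq_zsmul, Int.cast_smul_eq_zsmul,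
      Int.cast_smul_eq_zsmul, Int.cast_smul_eq_zsmul, ← hc, ← he] at hgl
    rw [show e • χ₀ - c • η₀ = (-1 : ℤ) • (c • η₀ - e • χ₀) by
      rw [neg_smul, one_smul, neg_sub], hα.2.1 _ hg, hgl, neg_smul, one_smul, neg_sub]
  set θX : N → ℂ := c • β - s • χ₀ with hθX
  set θY : N → ℂ := e • γ + s • η₀ with hθY
  set g : N → ℂ := e • χ₀ - c • η₀ with hg
  have hXm : θX ∈ zspanOn X {1}ᶜ := mem_zspanOn.mpr
    ⟨zspan_sub (zspan_smul _ hβ) (zspan_smul _ (zspan_subset hχ₀)), by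
      rw [hθX, Pi.sub_apply, Pi.smul_apply, Pi.smul_apply, hs, hd1 χ₀ (hXS hχ₀), ← hc, zsmul_eq_mul,
        zsmul_eq_mul]
      ring⟩
  have hYm : θY ∈ zspanOn Y {1}ᶜ := mem_zspanOn.mpr
    ⟨zspan_add (zspan_smul _ hγ) (zspan_smul _ (zspan_subset hη₀)), by
      rw [hθY, Pi.add_apply, Pi.smul_apply, Pi.smul_apply, hγ1, hd1 η₀ (hYS hη₀), ← he, zsmul_eq_mul,
        zsmul_eq_mul]
      push_cast; ring⟩
  have hgm : g ∈ zspanOn S {1}ᶜ := hmix S le_rfl η₀ (hYS hη₀) χ₀ (hXS hχ₀)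
  have hdec : (c * e) • (β + γ) = e • θX + c • θY + s • g := by
    rw [hθX, hθY, hg]
    funext v
    simp only [Pi.add_apply, Pi.sub_apply, Pi.smul_apply, zsmul_eq_mul, Pi.mul_apply, Pi.intCast_apply]
    push_cast; ring
  have hXm' := hup X hXS _ hXm
  have hYm' := hup Y hYS _ hYm
  have hθm := hup (X ∪ Y) hZS _ hθ
  have h1 : α ((c * e) • (β + γ)) = e • σ θX + c • τ θY + s • (e • σ χ₀ - c • τ η₀) := by
    rw [hdec, hα.1 _ ((spanOne S).add_mem ((spanOne S).smul_mem e hXm') ((spanOne S).smul_mem c hYm'))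
        _ ((spanOne S).smul_mem s hgm),
      hα.1 _ ((spanOne S).smul_mem e hXm') _ ((spanOne S).smul_mem c hYm'), hα.2.1 _ hXm',
      hα.2.1 _ hYm', hα.2.1 _ hgm, hgl', ← hσα _ hXm, ← hτα _ hYm]
  rw [hα.2.1 _ hθm] at h1
  have hTθ : T (β + γ) = σ β + τ γ := by
    rw [hTiso.1 _ (hXU hβ) _ (hYU hγ), hTX β hβ, hTY γ hγ]
  have hσX : σ θX = c • σ β - s • σ χ₀ := by
    rw [hθX, zspan_isometry_sub hσ (zspan_smul _ hβ) (zspan_smul _ (zspan_subset hχ₀)), hσ.2.1 _ hβ,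
      hσ.2.1 _ (zspan_subset hχ₀)]
  have hτY : τ θY = e • τ γ + s • τ η₀ := by
    rw [hθY, hτ.1 _ (zspan_smul _ hγ) _ (zspan_smul _ (zspan_subset hη₀)), hτ.2.1 _ hγ,
      hτ.2.1 _ (zspan_subset hη₀)]
  rw [hTθ]
  rw [hσX, hτY] at h1
  funext v
  have h2 := congrFun h1 v
  simp only [Pi.add_apply, Pi.sub_apply, Pi.smul_apply, zsmul_eq_mul, Pi.mul_apply, Pi.intCast_apply] at h2 ⊢
  have hce : ((c * e : ℤ) : ℂ) ≠ 0 := Int.cast_ne_zero.mpr (mul_pos hcpos hepos).ne'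
  apply mul_left_cancel₀ hce
  push_cast at h2 ⊢
  linear_combination -h2

end Cfsg.Agent.S1531
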