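import Cfsg.Statements.S1532
import Cfsg.Agent.Lib.Dade.SibleyCentral
-- import your own Cfsg.Agent.* helpers here

set_option autoImplicit false
open Cfsg

namespace Cfsg.Agent.S1532

/-- Let G be a finite group, p an odd prime and P a Sylow p-subgroup that is non-abelian, whose underlying set is a TI-subset of G, with P properly contained in its set normaliser N and C_G(x) ≤ P for every non-identity x ∈ P. Let Z be a nontrivial subgroup of the centre of P normalised by N. Then the set of irreducible characters χ of N with χ z ≠ χ 1 for some z ∈ Z is coherent for the map induced by induction from N to G. -/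
theorem result {G : Type*} [Group G] [Fintype G] (p : ℕ) [Fact p.Prime] (hp : p ≠ 2) (P : Sylow p G) (hna : ¬ IsMulCommutative (P : Subgroup G)) (hTI : Cfsg.IsTISubset ((P : Subgroup G) : Set G)) (hlt : (P : Subgroup G) < Subgroup.normalizer ((P : Subgroup G) : Set G)) (hC : ∀ k ∈ (P : Subgroup G), k ≠ 1 → Subgroup.centralizer ({k} : Set G) ≤ (P : Subgroup G)) [Fintype ↥(Subgroup.normalizer ((P : Subgroup G) : Set G))] (Z : Subgroup G) (hZ1 : Z ≠ ⊥) (hZP : ∀ z ∈ Z, z ∈ (P : Subgroup G) ∧ ∀ y ∈ (P : Subgroup G), z * y = y * z) (hZn : ∀ x ∈ Subgroup.normalizer ((P : Subgroup G) : Set G), ∀ z ∈ Z, x * z * x⁻¹ ∈ Z) : Cfsg.IsCoherent {χ : ↥(Subgroup.normalizer ((P : Subgroup G) : Set G)) → ℂ | Cfsg.IsIrrCharacter ↥(Subgroup.normalizer ((P : Subgroup G) : Set G)) χ ∧ ∃ z : ↥(Subgroup.normalizer ((P : Subgroup G) : Set G)), (z : G) ∈ Z ∧ χ z ≠ χ 1} {1}ᶜ (fun α => Cfsg.indFun (Subgroup.normalizer ((P : Subgroup G) : Set G)) α) := by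
  classical
  let L := Subgroup.normalizer ((P : Subgroup G) : Set G)
  have hF : Lib.OddPartition.IsFrobTI (Subgroup.normalizer ((P : Subgroup G) : Set G))
      (P : Subgroup G) :=
    Lib.OddPartition.isFrobTI_of hlt (fun h => hna (by rw [h]; infer_instance))
      (fun x hx h hh => (Subgroup.mem_normalizer_iff.mp hx h).mp hh)
      (fun h hh h1 => inf_le_right.trans (hC h hh h1)) hTI rfl
  have : ((P : Subgroup G).subgroupOf
      (Subgroup.normalizer ((P : Subgroup G) : Set G))).Normal := Subgroup.normal_in_normalizer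
  exact Lib.Dade.sibley_central hF hp P.isPGroup' hna Z hZ1 (fun z hz => (hZP z hz).1)
    (fun z hz k hk => (hZP z hz).2 k hk) hZn

end Cfsg.Agent.S1532
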