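import Cfsg.Statements.S1533
import Cfsg.Agent.Lib.Dade.SibleyMain
-- import your own Cfsg.Agent.* helpers here

set_option autoImplicit false
open Cfsg

namespace Cfsg.Agent.S1533

/-- Let G be a finite group, p an odd prime, and P a nontrivial Sylow p-subgroup whose underlying set is a TI-subset of G, with P properly contained in its set normaliser N and C_G(x) ≤ P for every non-identity x ∈ P. Let S be the set of irreducible characters χ of N with χ x ≠ χ 1 for some x ∈ P. Then either S has exactly one member, P is elementary abelian and Nat.card P = [N:P] + 1; or (S, N minus 1, induction to G) is coherent. -/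
theorem result {G : Type*} [Group G] [Fintype G] (p : ℕ) [Fact p.Prime] (hp : p ≠ 2) (P : Sylow p G) (hP1 : (P : Subgroup G) ≠ ⊥) (hTI : Cfsg.IsTISubset ((P : Subgroup G) : Set G)) (hlt : (P : Subgroup G) < Subgroup.normalizer ((P : Subgroup G) : Set G)) (hC : ∀ k ∈ (P : Subgroup G), k ≠ 1 → Subgroup.centralizer ({k} : Set G) ≤ (P : Subgroup G)) [Fintype ↥(Subgroup.normalizer ((P : Subgroup G) : Set G))] : (Nat.card {χ : ↥(Subgroup.normalizer ((P : Subgroup G) : Set G)) → ℂ // Cfsg.IsIrrCharacter ↥(Subgroup.normalizer ((P : Subgroup G) : Set G)) χ ∧ ∃ x : ↥(Subgroup.normalizer ((P : Subgroup G) : Set G)), (x : G) ∈ (P : Subgroup G) ∧ χ x ≠ χ 1} = 1 ∧ Cfsg.IsElementaryAbelian p (P : Subgroup G) ∧ Nat.card (P : Subgroup G) = ((P : Subgroup G).subgroupOf (Subgroup.normalizer ((P : Subgroup G) : Set G))).index + 1) ∨ Cfsg.IsCoherent {χ : ↥(Subgroup.normalizer ((P : Subgroup G) : Set G)) → ℂ | Cfsg.IsIrrCharacter ↥(Subgroup.normalizer ((P : Subgroup G) : Set G)) χ ∧ ∃ x : ↥(Subgroup.normalizer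 ((P : Subgroup G) : Set G)), (x : G) ∈ (P : Subgroup G) ∧ χ x ≠ χ 1} {1}ᶜ (fun α => Cfsg.indFun (Subgroup.normalizer ((P : Subgroup G) : Set G)) α) := by
  classical
  have hF : Lib.OddPartition.IsFrobTI (Subgroup.normalizer ((P : Subgroup G) : Set G)) (P : Subgroup G) :=
    Lib.OddPartition.isFrobTI_of hlt hP1
      (fun x hx h hh => (Subgroup.mem_normalizer_iff.mp hx h).mp hh)
      (fun h hh h1 => inf_le_right.trans (hC h hh h1)) hTI rfl
  have : ((P : Subgroup G).subgroupOf (Subgroup.normalizer ((P : Subgroup G) : Set G))).Normal := Subgroup.normal_in_normalizer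
  by_cases hne : Nat.card (P : Subgroup G) =
      ((P : Subgroup G).subgroupOf (Subgroup.normalizer ((P : Subgroup G) : Set G))).index + 1
  · obtain ⟨h1, q, hq, hel⟩ := Lib.Dade.frob_one_case hF hne
    refine Or.inl ⟨h1, ?_, hne⟩
    have hp' : q = p := by
      have : Fact q.Prime := ⟨hq⟩
      obtain ⟨a, ha⟩ := Subgroup.ne_bot_iff_exists_ne_one.mp hP1
      have h2 : orderOf a = q := orderOf_eq_prime (Subtype.ext (by simpa using hel.2 a a.2)) ha
      obtain ⟨k, hk⟩ := IsPGroup.iff_orderOf.mp P.isPGroup' a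
      rw [h2] at hk
      exact (Nat.prime_dvd_prime_iff_eq hq Fact.out).mp (hq.dvd_of_dvd_pow (n := k) (by rw [← hk]))
    exact hp' ▸ hel
  · rcases Lib.Dade.frob_coherent_or hF rfl hne with h | ⟨h, -⟩
    · exact Or.inr h
    · exfalso
      have : Fact (Nat.Prime 2) := ⟨Nat.prime_two⟩
      obtain ⟨k, hk⟩ := IsPGroup.iff_card.mp P.isPGroup'
      rw [hk] at h
      have hk0 : k ≠ 0 := fun h0 => hP1 (Subgroup.card_eq_one.mp (by rw [hk, h0, pow_zero]))
      have h2 : p ∣ 2 ^ (Nat.card G).factorization 2 := h ▸ dvd_pow_self p hk0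
      exact hp ((Nat.prime_dvd_prime_iff_eq Fact.out Nat.prime_two).mp
        ((Fact.out : p.Prime).dvd_of_dvd_pow h2))

end Cfsg.Agent.S1533
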