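import Cfsg.Statements.S1534
import Cfsg.Agent.Lib.Dade.SibleyMain
-- import your own Cfsg.Agent.* helpers here

set_option autoImplicit false
open Cfsg

namespace Cfsg.Agent.S1534

/-- Let G be a finite group and K a nontrivial nilpotent subgroup whose underlying set is a TI-subset of G, properly contained in its set normaliser N, with C_G(k) ≤ K for every non-identity k ∈ K; let e be the index of K in N and S the set of irreducible characters χ of N with χ k ≠ χ 1 for some k ∈ K. Then one of: S has exactly one member, Nat.card K = e + 1 and K is an elementary abelian p-group for some prime p; or K is a Sylow 2-subgroup of G (Nat.card K is the largest power of 2 dividing Nat.card G) and [K : [K,K]] < 4e²; or (S, N minus 1, induction to G) is coherent. -/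
theorem result {G : Type*} [Group G] [Fintype G] (K : Subgroup G) (hK1 : K ≠ ⊥) (hnil : Group.IsNilpotent K) (hTI : Cfsg.IsTISubset (K : Set G)) (hlt : K < Subgroup.normalizer (K : Set G)) (hC : ∀ k ∈ K, k ≠ 1 → Subgroup.centralizer ({k} : Set G) ≤ K) [Fintype ↥(Subgroup.normalizer (K : Set G))] : (Nat.card {χ : ↥(Subgroup.normalizer (K : Set G)) → ℂ // Cfsg.IsIrrCharacter ↥(Subgroup.normalizer (K : Set G)) χ ∧ ∃ k : ↥(Subgroup.normalizer (K : Set G)), (k : G) ∈ K ∧ χ k ≠ χ 1} = 1 ∧ Nat.card K = (K.subgroupOf (Subgroup.normalizer (K : Set G))).index + 1 ∧ ∃ p : ℕ, p.Prime ∧ Cfsg.IsElementaryAbelian p K) ∨ (Nat.card K = 2 ^ (Nat.card G).factorization 2 ∧ (⁅K, K⁆.subgroupOf K).index < 4 * (K.subgroupOf (Subgroup.normalizer (K : Set G))).index ^ 2) ∨ Cfsg.IsCoherent {χ : ↥(Subgroup.normalizer (K : Set G)) → ℂ | Cfsg.IsIrrCharacter ↥(Subgroup.normalizer (K : Set G)) χ ∧ ∃ k : ↥(Subgroup.normalizer (K : Set G)), (k : G) ∈ K ∧ χ k ≠ χ 1} {1}ᶜ (fun α => Cfsg.indFun (Subgroup.normalizer (K : Set G)) α) :=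 by
  classical
  have hF : Lib.OddPartition.IsFrobTI (Subgroup.normalizer (K : Set G)) K :=
    Lib.OddPartition.isFrobTI_of hlt hK1
      (fun x hx h hh => (Subgroup.mem_normalizer_iff.mp hx h).mp hh)
      (fun h hh h1 => inf_le_right.trans (hC h hh h1)) hTI rfl
  have : (K.subgroupOf (Subgroup.normalizer (K : Set G))).Normal := Subgroup.normal_in_normalizer
  by_cases hne : Nat.card K = (K.subgroupOf (Subgroup.normalizer (K : Set G))).index + 1
  · obtain ⟨h1, q, hq, hel⟩ := Lib.Dade.frob_one_case hF hne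
    exact Or.inl ⟨h1, hne, q, hq, hel⟩
  · rcases Lib.Dade.frob_coherent_or hF rfl hne with h | h
    · exact Or.inr (Or.inr h)
    · exact Or.inr (Or.inl h)

end Cfsg.Agent.S1534
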