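import Cfsg.Statements.S1536
import Cfsg.Agent.Lib.CharClifford.CoprimeClasses
import Mathlib.Tactic

set_option autoImplicit false
open scoped ComplexConjugate
open Cfsg

namespace Cfsg.Agent.S1536

open Cfsg.Agent.Lib.Char Cfsg.Agent.Lib.CharClifford

theorem result {M : Type*} [Group M] [Finite M] (H : Subgroup M) [hN : H.Normal] (hHall : Nat.Coprime (Nat.card H) H.index) (x : M) : (∃ θ : H → ℂ, Cfsg.IsIrrCharacter H θ ∧ θ ≠ (fun _ => 1) ∧ (fun h : H => θ ⟨x * h * x⁻¹, hN.conj_mem h h.2 x⟩) = θ) ↔ ∃ h ∈ H, h ≠ 1 ∧ x * h = h * x := by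
  classical
  have hcount := card_fixed_conjChar_eq H x
  constructor
  · rintro ⟨θ, hθ, hθ1, hfix⟩
    have hfix' : conjChar H x θ = θ := hfix
    have hone : conjChar H x (fun _ => (1 : ℂ)) = fun _ => 1 := rfl
    have hnt : Nontrivial {θ : IrrCharacter H // conjChar H x (θ : H → ℂ) = (θ : H → ℂ)} :=
      ⟨⟨⟨⟨θ, hθ⟩, hfix'⟩, ⟨⟨fun _ => 1, isIrrCharacter_one⟩, hone⟩,
        fun h => hθ1 (congrArg (fun t => ((t.1 : IrrCharacter H) : H → ℂ)) h)⟩⟩
    have hnt2 : Nontrivial {C : ConjClasses H // classFixed H x C} := by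
      rw [← Finite.one_lt_card_iff_nontrivial] at hnt ⊢
      rwa [hcount] at hnt
    obtain ⟨C, hC⟩ := exists_ne (⟨ConjClasses.mk 1, classFixed_of_commute H (w := 1) (by simp)⟩ :
      {C : ConjClasses H // classFixed H x C})
    obtain ⟨h, hh⟩ := ConjClasses.mk_surjective C.1
    have hh1 : (h : M) ≠ 1 := fun e => hC (Subtype.ext (by
      rw [← hh, show h = 1 from Subtype.ext e]))
    obtain ⟨a, ha1, ha0⟩ := Nat.chineseRemainder hHall 1 0
    have hdvd : orderOf x ∣ Nat.card H * H.index := by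
      rw [Subgroup.card_mul_index]; exact orderOf_dvd_natCard x
    have hsH : x ^ a ∈ H := by
      refine (QuotientGroup.eq_one_iff (N := H) (x ^ a)).mp ?_
      rw [QuotientGroup.mk_pow]
      exact orderOf_dvd_iff_pow_eq_one.mp ((orderOf_dvd_natCard (x : M ⧸ H)).trans
        (Nat.modEq_zero_iff_dvd.mp ha0))
    by_cases hs : x ^ a = 1
    · have hco : Nat.Coprime (orderOf x) (Nat.card H) := by
        refine Nat.coprime_of_dvd fun q hq hqx hqH => ?_
        have hqa : q ∣ a := hqx.trans (orderOf_dvd_of_pow_eq_one hs)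
        have h1 : 1 ≡ 0 [MOD q] := ((ha1.of_dvd hqH).symm).trans (Nat.modEq_zero_iff_dvd.mpr hqa)
        exact hq.ne_one (Nat.dvd_one.mp (Nat.modEq_zero_iff_dvd.mp h1))
      obtain ⟨w, hw, hcomm⟩ := exists_mem_commute_of_classFixed H hco C.2
      refine ⟨w, w.2, fun e => hC (Subtype.ext ?_), hcomm⟩
      rw [← hw, show w = 1 from Subtype.ext e]
    · exact ⟨x ^ a, hsH, hs, (pow_succ' x a).symm.trans (pow_succ x a)⟩
  · rintro ⟨h, hh, h1, hcomm⟩
    have hnt : Nontrivial {C : ConjClasses H // classFixed H x C} :=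
      ⟨⟨⟨ConjClasses.mk ⟨h, hh⟩, classFixed_of_commute H hcomm⟩,
        ⟨ConjClasses.mk 1, classFixed_of_commute H (w := 1) (by simp)⟩, fun e => h1 (by
          have := ConjClasses.mk_eq_mk_iff_isConj.mp (congrArg Subtype.val e)
          exact congrArg Subtype.val (isConj_one_left.mp this))⟩⟩
    have hnt2 : Nontrivial {θ : IrrCharacter H // conjChar H x (θ : H → ℂ) = (θ : H → ℂ)} := by
      rw [← Finite.one_lt_card_iff_nontrivial] at hnt ⊢
      rwa [← hcount] at hnt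
    obtain ⟨θ, hθ⟩ := exists_ne (⟨⟨fun _ => 1, isIrrCharacter_one⟩, rfl⟩ :
      {θ : IrrCharacter H // conjChar H x (θ : H → ℂ) = (θ : H → ℂ)})
    exact ⟨θ.1, θ.1.2, fun e => hθ (Subtype.ext (Subtype.ext e)), θ.2⟩

end Cfsg.Agent.S1536
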