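import Cfsg.Statements.S1537
import Cfsg.Agent.Lib.OddTypes.DadeSetup
-- import your own Cfsg.Agent.* helpers here

set_option autoImplicit false
open Cfsg

namespace Cfsg.Agent.S1537

/-- Let G be a minimal simple group of odd order and M a maximal subgroup. For A equal to A₁(M), A(M) or A₀(M): the set normaliser of A is M, and the Dade hypothesis holds for A, M and the function a ↦ R(a). -/
theorem result {G : Type*} [Group G] [Finite G] (hG : Cfsg.IsMinSimpleOddOrder G) (M : Subgroup G) (hM : IsCoatom M) (A : Set G) (hA : A = Cfsg.typeA1 M ∨ A = Cfsg.typeA M ∨ A = Cfsg.typeA0 M) : Subgroup.normalizer A = M ∧ Cfsg.DadeHypothesis A M (Cfsg.supportR M) := by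
  exact ⟨Lib.OddTypes.normalizer_eq hG hM hA, Lib.OddTypes.dadeHypothesis hG hM hA⟩

end Cfsg.Agent.S1537
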