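import Cfsg.Statements.S1538
import Cfsg.Agent.Lib.OddTypes.DadeSetup
import Cfsg.Agent.S1372
-- import your own Cfsg.Agent.* helpers here

set_option autoImplicit false
open Cfsg

namespace Cfsg.Agent.S1538

/-- Let G be a minimal simple group of odd order and M a maximal subgroup of Type II. Then each of A₀(M), A(M), A₁(M) is a TI-subset of G whose set normaliser is M. -/
theorem result {G : Type*} [Group G] [Finite G] (hG : Cfsg.IsMinSimpleOddOrder G) (M : Subgroup G) (hM : IsCoatom M) (hII : Cfsg.IsOfTypeII M) : (Cfsg.IsTISubset (Cfsg.typeA0 M) ∧ Subgroup.normalizer (Cfsg.typeA0 M) = M) ∧ (Cfsg.IsTISubset (Cfsg.typeA M) ∧ Subgroup.normalizer (Cfsg.typeA M) = M) ∧ (Cfsg.IsTISubset (Cfsg.typeA1 M) ∧ Subgroup.normalizer (Cfsg.typeA1 M) = M) := by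
  obtain ⟨K, U, hKU⟩ := Lib.OddTypes.exists_KU hG hM
  obtain ⟨hK, hU⟩ := Lib.OddTypes.typeII_imp hG hM hKU hII
  obtain ⟨-, hTI, hσF⟩ := S1372.result hG M hM K U hKU hK hU
  have hcent : ∀ x ∈ Cfsg.sigmaCore M, x ≠ 1 → Subgroup.centralizer ({x} : Set G) ≤ M := by
    intro x hx hx1 c hc
    have hF : Cfsg.fittingOf M ≠ ⊥ := fun h => hx1 (Subgroup.mem_bot.mp (h ▸ hσF hx))
    have hn : M ≤ Subgroup.normalizer (Cfsg.fittingOf M : Set G) := by
      show M ≤ Subgroup.normalizer (((Cfsg.fittingSubgroup M).map M.subtype : Subgroup G) : Set G)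
      refine le_trans ?_ (Subgroup.le_normalizer_map M.subtype)
      haveI : (Cfsg.fittingSubgroup ↥M).Normal := Lib.Hall.fittingSubgroup_normal
      rw [Subgroup.normalizer_eq_top, ← MonoidHom.range_eq_map, Subgroup.range_subtype]
    rw [← Lib.Uniq.normalizer_eq_of_normal hG hM hF (Subgroup.map_subtype_le _) hn]
    by_contra hcn
    refine hx1 (hTI c hcn x (hσF hx) ?_)
    rw [Subgroup.mem_centralizer_singleton_iff.mp hc, mul_inv_cancel_right]
    exact hσF hx
  have key : ∀ A : Set G, (A = Cfsg.typeA1 M ∨ A = Cfsg.typeA M ∨ A = Cfsg.typeA0 M) →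
      Cfsg.IsTISubset A ∧ Subgroup.normalizer A = M := by
    intro A hA
    refine ⟨fun g hg x hx hgx => ?_, Lib.OddTypes.normalizer_eq hG hM hA⟩
    rw [Lib.OddTypes.normalizer_eq hG hM hA] at hg
    obtain ⟨hsub, -, -⟩ := Lib.OddTypes.three_sets hG hM hA
    obtain ⟨hfus, hout, -⟩ := S1391.result hG M hM (Cfsg.typeA0 M) (Or.inr rfl)
    obtain ⟨m, hm, he⟩ := hfus x (hsub hx) g (hsub hgx)
    exfalso
    have hc : m⁻¹ * g ∈ Subgroup.centralizer ({x} : Set G) := by
      rw [Subgroup.mem_centralizer_singleton_iff]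
      calc m⁻¹ * g * x = m⁻¹ * (g * x * g⁻¹) * g := by group
        _ = x * (m⁻¹ * g) := by rw [← he]; group
    have hn : ¬ Subgroup.centralizer ({x} : Set G) ≤ M := fun h => hg (by
      simpa using M.mul_mem hm (h hc))
    obtain ⟨hx', hx1⟩ := (hout x (hsub hx) hn).1
    rw [Lib.OddTypes.typeCore_eq hG hM] at hx'
    exact hn (hcent x hx' hx1)
  exact ⟨key _ (Or.inr (Or.inr rfl)), key _ (Or.inr (Or.inl rfl)), key _ (Or.inl rfl)⟩

end Cfsg.Agent.S1538
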