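import Cfsg.Statements.S1539
import Cfsg.Agent.Lib.OddTypes.Supports

-- import your own Cfsg.Agent.* helpers here

set_option autoImplicit false
open Cfsg

open scoped Pointwise

namespace Cfsg.Agent.S1539

/-- Let G be a minimal simple group of odd order and S, T maximal subgroups not conjugate in G. Then: T supports S if and only if A₁(S) ∩ A(T) is nonempty, and for every x ∈ A₁(S) ∩ A(T) the centraliser of x is contained in T but not in S; some conjugate of T supports S if and only if Ã₁(S) ∩ Ã(T) is nonempty; and at least one of Ã₁(S) ∩ Ã(T), Ã₁(T) ∩ Ã(S) is empty. -/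
theorem result {G : Type*} [Group G] [Finite G] (hG : Cfsg.IsMinSimpleOddOrder G) (S T : Subgroup G) (hS : IsCoatom S) (hT : IsCoatom T) (hnc : ∀ g : G, T.map (MulAut.conj g).toMonoidHom ≠ S) : (Cfsg.Supports T S ↔ (Cfsg.typeA1 S ∩ Cfsg.typeA T).Nonempty) ∧ (∀ x ∈ Cfsg.typeA1 S ∩ Cfsg.typeA T, ¬ Subgroup.centralizer ({x} : Set G) ≤ S ∧ Subgroup.centralizer ({x} : Set G) ≤ T) ∧ ((∃ g : G, Cfsg.Supports (T.map (MulAut.conj g).toMonoidHom) S) ↔ (Cfsg.tildeOf S (Cfsg.typeA1 S) ∩ Cfsg.tildeOf T (Cfsg.typeA T)).Nonempty) ∧ (Cfsg.tildeOf S (Cfsg.typeA1 S) ∩ Cfsg.tildeOf T (Cfsg.typeA T) = ∅ ∨ Cfsg.tildeOf T (Cfsg.typeA1 T) ∩ Cfsg.tildeOf S (Cfsg.typeA S) = ∅) := by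
  have hmap : ∀ (g : G) (H : Subgroup G), H.map (MulAut.conj g).toMonoidHom = MulAut.conj g • H :=
    fun g H => rfl
  simp only [hmap] at hnc ⊢
  have h1 : ∀ x ∈ Cfsg.typeA1 S ∩ Cfsg.typeA T,
      ¬ Subgroup.centralizer ({x} : Set G) ≤ S ∧ Subgroup.centralizer ({x} : Set G) ≤ T :=
    fun x hx => Lib.OddTypes.of_inter hG hS hT hnc hx.1 hx.2
  refine ⟨⟨?_, ?_⟩, h1, ⟨?_, ?_⟩, ?_⟩
  · rintro ⟨-, x, hx, hout, hle⟩
    obtain ⟨h2, h3, -⟩ := Lib.OddTypes.inter_of_out hG hS hT hx hout hle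
    exact ⟨x, h2, h3⟩
  · rintro ⟨x, hx⟩
    exact ⟨hT, x, (Lib.OddTypes.three_sets hG hS (Or.inl rfl)).1 hx.1, (h1 x hx).1, (h1 x hx).2⟩
  · rintro ⟨g, hg⟩
    exact Lib.OddTypes.tilde_of_supports hG hS hT hg
  · rintro ⟨v, hv, hv'⟩
    exact Lib.OddTypes.exists_supports_of_tilde hG hS hT hnc hv hv'
  · by_contra hno
    push Not at hno
    obtain ⟨⟨v, hv, hv'⟩, ⟨u, hu, hu'⟩⟩ := hno
    obtain ⟨g, hg⟩ := Lib.OddTypes.exists_supports_of_tilde hG hS hT hnc hv hv'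
    obtain ⟨k, hk⟩ := Lib.OddTypes.exists_supports_of_tilde hG hT hS (Lib.OddTypes.nc_symm hnc) hu hu'
    exact Lib.OddTypes.not_mutual hG hS hT hg hk

end Cfsg.Agent.S1539
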