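import Cfsg.Statements.S1542
import Cfsg.Agent.Lib.OddTypes.DadeSetup
import Cfsg.Agent.Lib.OddTypes.FrobCoherence
-- import your own Cfsg.Agent.* helpers here

set_option autoImplicit false
open Cfsg

namespace Cfsg.Agent.S1542

/-- Let G be a minimal simple group of odd order and L a maximal subgroup of Type I in which every non-identity element of H = L_F has its centraliser within L inside H. Let S be the set of functions on L induced from non-principal irreducible characters of H. Then every member of S is an irreducible character of L, and (S, L minus 1, τ) is coherent for τ the Dade map relative to A(L), L and a ↦ R(a). -/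
theorem result {G : Type*} [Group G] [Fintype G] (hG : Cfsg.IsMinSimpleOddOrder G) (L : Subgroup G) [Fintype L] (hL : IsCoatom L) (hI : Cfsg.IsOfTypeI L) (hfrob : ∀ x ∈ Cfsg.fittingHallOf L, x ≠ 1 → L ⊓ Subgroup.centralizer ({x} : Set G) ≤ Cfsg.fittingHallOf L) : (∀ χ ∈ Cfsg.inducedIrrAbove (Cfsg.fittingHall L) ⊥, Cfsg.IsIrrCharacter L χ) ∧ Cfsg.IsCoherent (Cfsg.inducedIrrAbove (Cfsg.fittingHall L) ⊥) {1}ᶜ (Cfsg.dadeIsometry (Cfsg.typeA L) L (Cfsg.supportR L)) := by
  classical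
  set F : Subgroup G := Cfsg.fittingHallOf L with hFdef
  set H : Subgroup L := Cfsg.fittingHall L with hHdef
  have hHmem : ∀ x : L, (x : G) ∈ F ↔ x ∈ H := fun x =>
    ⟨fun ⟨y, hy, hyx⟩ => Subtype.ext hyx ▸ hy, fun h => ⟨x, h, rfl⟩⟩
  have hFL : F ≤ L := Subgroup.map_subtype_le _
  have hsub : F.subgroupOf L = H := Subgroup.comap_map_eq_self_of_injective L.subtype_injective H
  obtain ⟨hF, hcases⟩ := hI
  have hI' : Cfsg.IsOfTypeI L := ⟨hF, hcases⟩
  obtain ⟨-, hodd, hH1, hH2, U, -, hUc, -, -⟩ := hF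
  have hC : ∀ h ∈ H, h ≠ 1 → Subgroup.centralizer ({h} : Set L) ≤ H := fun h hh h1 c hc =>
    (hHmem c).mp (hfrob h ((hHmem h).mpr hh) (fun e => h1 (Subtype.ext e)) ⟨c.2,
      Subgroup.mem_centralizer_singleton_iff.mpr
        (congrArg Subtype.val (Subgroup.mem_centralizer_singleton_iff.mp hc))⟩)
  have hA : Cfsg.typeA L = {y : G | y ∈ F ∧ y ≠ 1} := by
    rw [Cfsg.typeA, if_pos hI']
    ext a
    refine ⟨fun ⟨ha, ha1, x, hx, hx1, hax⟩ => ⟨hfrob x hx hx1 ⟨ha,
      Subgroup.mem_centralizer_singleton_iff.mpr hax⟩, ha1⟩,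
      fun ⟨ha, ha1⟩ => ⟨hFL ha, ha1, a, ha, ha1, rfl⟩⟩
  have hA' : ∀ x : L, (x : G) ∈ Cfsg.typeA L ↔ x ∈ H ∧ x ≠ 1 := fun x => by
    rw [hA, Set.mem_setOf_eq, hHmem]
    simp
  have hD := Lib.OddTypes.dadeHypothesis hG hL (Or.inr (Or.inl rfl))
  rw [Lib.OddTypes.FrobCoherence.inducedIrrAbove_eq hC]
  refine ⟨fun χ h => h.1, ?_⟩
  have hHodd : Odd (Nat.card H) := hodd.of_dvd_nat H.card_subgroup_dvd_card
  have hne : Nat.card H ≠ H.index + 1 := by
    intro h
    obtain ⟨a, ha⟩ := hHodd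
    obtain ⟨b, hb⟩ := hodd.of_dvd_nat H.index_dvd_card
    omega
  obtain ⟨hiso, hzero⟩ := Lib.OddTypes.FrobCoherence.dade_isometry hD hC hA'
  rcases S1535.result H hH1 hH2 hC hne _ hiso hzero with h | ⟨p, hp, ⟨m, hm⟩, hna, -⟩
  · exact h
  rcases hcases with hTI | ⟨hab, -, -⟩ | ⟨hexp, -⟩
  · have hF1 : F ≠ ⊥ := fun e => hH1 ((Subgroup.eq_bot_iff_forall _).mpr fun x hx => by
      have h2 := (hHmem x).mpr hx
      rw [e, Subgroup.mem_bot] at h2
      exact Subtype.ext h2)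
    have hLN : L ≤ Subgroup.normalizer (F : Set G) := by
      intro x hx
      rw [Subgroup.mem_normalizer_iff]
      intro y
      have hn : ∀ z ∈ F, ∀ w : L, (w : G) * z * (w : G)⁻¹ ∈ F := by
        rintro z ⟨z', hz', rfl⟩ w
        exact ⟨w * z' * w⁻¹, (Cfsg.fittingHall_normal L).conj_mem z' hz' w, rfl⟩
      refine ⟨fun h => hn y h ⟨x, hx⟩, fun h => ?_⟩
      have := hn _ h ⟨x⁻¹, L.inv_mem hx⟩
      simpa [mul_assoc] using this
    have hN : Subgroup.normalizer (F : Set G) = L := by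
      refine ((hL.le_iff).mp hLN).resolve_left fun htop => ?_
      have hn : F.Normal := Subgroup.normalizer_eq_top_iff.mp htop
      haveI := hG.2.1
      rcases IsSimpleGroup.eq_bot_or_eq_top_of_normal F hn with h | h
      · exact hF1 h
      · exact hL.1 (top_le_iff.mp (h ▸ hFL))
    have hlt : F < L := lt_of_le_of_ne hFL fun e => hH2
      ((Subgroup.eq_top_iff' _).mpr fun x => (hHmem x).mp (e.symm ▸ x.2))
    have hT : Lib.OddPartition.IsFrobTI L F := by
      refine Lib.OddPartition.isFrobTI_of hlt hF1 (fun x hx y hy => ?_) hfrob hTI hN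
      exact (Subgroup.mem_normalizer_iff.mp (hLN hx) y).mp hy
    haveI : (F.subgroupOf L).Normal := hsub ▸ inferInstance
    have hne' : Nat.card F ≠ (F.subgroupOf L).index + 1 := by
      rw [← Nat.card_congr (Subgroup.subgroupOfEquivOfLe hFL).toEquiv, hsub]
      exact hne
    rcases Lib.Dade.frob_coherent_or hT hN.symm hne' with h | ⟨h, -⟩
    · rw [hsub] at h
      obtain ⟨hne0, T, hT1, hT2⟩ := h
      refine ⟨hne0, T, hT1, fun α hα => (hT2 α hα).trans ?_⟩
      have hsupp := Lib.OddTypes.FrobCoherence.support hC hA' hα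
      have hc := (Lib.Dade.zspan_relChars_off hC (Lib.Dade.mem_zspanOn.mp hα).1).1
      have hle : ∀ a ∈ Cfsg.typeA L, Cfsg.supportR L a = ⊥ := fun a ha => by
        rw [Cfsg.supportR, dif_neg]
        rintro ⟨h1, -⟩
        exact h1 ((hT.centralizer_le a (hA ▸ ha).1 (hA ▸ ha).2).trans hFL)
      have hD' : Cfsg.DadeHypothesis (Cfsg.typeA L) L (fun _ => ⊥) := hA ▸ hT.dade
      show Cfsg.indFun L α = Cfsg.dadeIsometry (Cfsg.typeA L) L (Cfsg.supportR L) α
      rw [Lib.Dade.indFun_eq_dade hD' hc hsupp]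
      funext g
      by_cases hg : Lib.Dade.InSupp (Cfsg.typeA L) (Cfsg.supportR L) g
      · obtain ⟨a, ha, u, hu, x, hx⟩ := hg
        rw [Lib.Dade.dade_apply hD hc (a := ⟨a, hD.subset ha⟩) ha hu hx]
        rw [hle a ha] at hu
        rw [Lib.Dade.dade_apply hD' hc (a := ⟨a, hD.subset ha⟩) ha hu hx]
      · rw [Lib.Dade.dade_eq_zero hD α hg, Lib.Dade.dade_eq_zero hD' α]
        rintro ⟨a, ha, u, hu, x, hx⟩
        exact hg ⟨a, ha, u, (hle a ha).symm ▸ hu, x, hx⟩
    · exfalso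
      have h2 := hHodd
      rw [← hsub, Nat.card_congr (Subgroup.subgroupOfEquivOfLe hFL).toEquiv, h, Nat.odd_pow_iff] at h2
      · exact absurd h2 (by decide)
      · intro h0
        exact hF1 (Subgroup.card_eq_one.mp (by rw [h, h0, pow_zero]))
  · refine absurd ⟨⟨fun a b => ?_⟩⟩ hna
    have := congrArg Subtype.val (hab.is_comm.comm
      (⟨((a : L) : G), (hHmem a).mpr a.2⟩ : F) ⟨((b : L) : G), (hHmem b).mpr b.2⟩)
    exact Subtype.ext (Subtype.ext this)
  · have hm0 : m ≠ 0 := fun e => hH1 (Subgroup.card_eq_one.mp (by rw [hm, e, pow_zero]))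
    refine Lib.OddTypes.FrobCoherence.coherent_of_dvd hD hC hA' hodd hH1 hH2 hp hm
      (Lib.OddTypes.FrobCoherence.index_dvd_of_exponent_dvd hodd hC hH1 hUc (hexp p hp ?_))
    rw [← Nat.card_congr (Subgroup.subgroupOfEquivOfLe hFL).toEquiv, hsub, hm]
    exact dvd_pow_self p hm0

end Cfsg.Agent.S1542
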