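import Cfsg.Statements.S1546
import Mathlib.NumberTheory.LucasPrimality
import Mathlib.FieldTheory.Finite.Basic

set_option autoImplicit false
open Cfsg

namespace Cfsg.Agent.S1546

theorem geom_eq_sum (p q : ℕ) (hp : 1 < p) :
    (p ^ q - 1) / (p - 1) = ∑ i ∈ Finset.range q, p ^ i := by
  have h := geom_sum_mul_add (p - 1) q
  have hp' : p - 1 + 1 = p := by omega
  rw [hp'] at h
  rw [← h, Nat.add_sub_cancel, Nat.mul_div_cancel _ (by omega : 0 < p - 1)]

theorem sum_modEq (p q m : ℕ) (h : p ≡ 1 [MOD m]) :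
    (∑ i ∈ Finset.range q, p ^ i) ≡ q [MOD m] := by
  rw [← ZMod.natCast_eq_natCast_iff] at h ⊢
  push_cast
  simp at h
  simp [h]

theorem result (p q : ℕ) (hp : p.Prime) (hq : q.Prime) (hp2 : p ≠ 2) (hq2 : q ≠ 2) : Odd ((p ^ q - 1) / (p - 1)) ∧ (p % q = 1 → q ∣ (p ^ q - 1) / (p - 1)) ∧ (p % q ≠ 1 → Nat.Coprime ((p ^ q - 1) / (p - 1)) (p - 1) ∧ ∀ x : ℕ, x ∣ (p ^ q - 1) / (p - 1) → x % q = 1) := by
  rw [geom_eq_sum p q hp.one_lt]
  set N := ∑ i ∈ Finset.range q, p ^ i with hN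
  refine ⟨?_, ?_, ?_⟩
  · have hpodd : p ≡ 1 [MOD 2] := by
      have := (hp.eq_two_or_odd).resolve_left hp2
      exact this
    have := sum_modEq p q 2 hpodd
    rw [Nat.odd_iff]
    rw [this]
    exact (hq.eq_two_or_odd).resolve_left hq2
  · intro h
    have h1 : p ≡ 1 [MOD q] := by rw [Nat.ModEq, h, Nat.one_mod_eq_one.mpr hq.ne_one]
    exact Nat.modEq_zero_iff_dvd.mp ((sum_modEq p q q h1).trans (Nat.modEq_zero_iff_dvd.mpr dvd_rfl))
  · intro h
    have hnq : ¬ q ∣ p - 1 := by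
      intro hd
      apply h
      have : 1 ≡ p [MOD q] := (Nat.modEq_iff_dvd' hp.one_lt.le).mpr hd
      rw [← this, Nat.one_mod_eq_one.mpr hq.ne_one]
    have hcop : Nat.Coprime N (p - 1) := by
      apply Nat.coprime_of_dvd'
      intro k hk hkN hkp
      exfalso
      have h1 : p ≡ 1 [MOD k] := ((Nat.modEq_iff_dvd' hp.one_lt.le).mpr hkp).symm
      have := (sum_modEq p q k h1).symm.trans (Nat.modEq_zero_iff_dvd.mpr hkN)
      have hkq := (Nat.prime_dvd_prime_iff_eq hk hq).mp (Nat.modEq_zero_iff_dvd.mp this)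
      exact hnq (hkq ▸ hkp)
    refine ⟨hcop, ?_⟩
    have hprime : ∀ r : ℕ, r.Prime → r ∣ N → r % q = 1 := by
      intro r hr hrN
      haveI := Fact.mk hr
      haveI := Fact.mk hq
      have hNz : ((N : ℕ) : ZMod r) = 0 := (ZMod.natCast_eq_zero_iff _ _).mpr hrN
      have hpq : (p : ZMod r) ^ q = 1 := by
        have := geom_sum_mul (p : ZMod r) q
        rw [show (∑ i ∈ Finset.range q, (p : ZMod r) ^ i) = ((N : ℕ) : ZMod r) by rw [hN]; push_cast; rfl,
          hNz, zero_mul] at this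
        exact (sub_eq_zero.mp this.symm)
      have hp1 : (p : ZMod r) ≠ 1 := by
        intro he
        have hmod : p ≡ 1 [MOD r] := (ZMod.natCast_eq_natCast_iff _ _ _).mp (by rw [he, Nat.cast_one])
        have hd : r ∣ p - 1 := (Nat.modEq_iff_dvd' hp.one_lt.le).mp hmod.symm
        exact hr.ne_one (Nat.eq_one_of_dvd_coprimes hcop hrN hd)
      have hp0 : (p : ZMod r) ≠ 0 := by
        intro he
        rw [he, zero_pow hq.ne_zero] at hpq
        exact zero_ne_one hpq
      have hord : orderOf (p : ZMod r) = q := orderOf_eq_prime hpq hp1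
      have hdvd : q ∣ r - 1 := hord ▸ ZMod.orderOf_dvd_card_sub_one hp0
      have : 1 ≡ r [MOD q] := (Nat.modEq_iff_dvd' hr.one_lt.le).mpr hdvd
      rw [← this, Nat.one_mod_eq_one.mpr hq.ne_one]
    intro x hx
    have hN0 : N ≠ 0 := by
      apply Nat.ne_of_gt
      exact Finset.sum_pos (fun i _ => pow_pos hp.pos i) (Finset.nonempty_range_iff.mpr hq.ne_zero)
    revert hx
    induction x using Nat.recOnMul with
    | zero => intro hx; exact absurd (zero_dvd_iff.mp hx) hN0
    | one => intro _; exact Nat.one_mod_eq_one.mpr hq.ne_one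
    | prime r hr => exact hprime r hr
    | mul a b iha ihb =>
      intro hx
      rw [Nat.mul_mod, iha (dvd_of_mul_right_dvd hx), ihb (dvd_of_mul_left_dvd hx), one_mul,
        Nat.one_mod_eq_one.mpr hq.ne_one]

end Cfsg.Agent.S1546
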