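import Cfsg.Statements.S1551
import Cfsg.Agent.Lib.Golay.SextetStab

set_option autoImplicit false
open scoped Pointwise
open Cfsg
open Cfsg.Agent.Lib.Golay

namespace Cfsg.Agent.S1551

/-- Structure of a sextet stabiliser: it induces every permutation of the six tetrads, the subgroup fixing each tetrad setwise has order 192, and there is a normal subgroup of order 64 consisting of elements squaring to the identity. -/
theorem result (S : Finset (Finset Cfsg.GolayPt)) (hS : S ∈ Cfsg.sextets) : (∀ e : Equiv.Perm ↥S, ∃ g ∈ MulAction.stabilizer Cfsg.M24 S, ∀ t : ↥S, (g : Equiv.Perm Cfsg.GolayPt) • (t : Finset Cfsg.GolayPt) = ((e t : ↥S) : Finset Cfsg.GolayPt)) ∧ Nat.card {g : ↥(MulAction.stabilizer Cfsg.M24 S) // ∀ t ∈ S, ((g : Cfsg.M24) : Equiv.Perm Cfsg.GolayPt) • t = t} = 192 ∧ ∃ N : Subgroup ↥(MulAction.stabilizer Cfsg.M24 S), N.Normal ∧ Nat.card N = 64 ∧ ∀ x ∈ N, x * x = 1 := by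
  refine ⟨sextet_induce hS, ?_, sextet_inv_subgroup hS⟩
  rw [← sextet_famKer_card hS]
  refine Nat.card_congr
    { toFun := fun g => ⟨((g.1 : M24) : Equiv.Perm GolayPt), g.1.1.2, g.2⟩
      invFun := fun g => ⟨⟨⟨(g : Equiv.Perm GolayPt), g.2.1⟩, ?_⟩, g.2.2⟩
      left_inv := fun _ => rfl
      right_inv := fun _ => rfl }
  show (g : Equiv.Perm GolayPt) • S = S
  refine Finset.eq_of_subset_of_card_le ?_ (by rw [Finset.card_smul_finset])
  intro x hx
  obtain ⟨y, hy, rfl⟩ := Finset.mem_smul_finset.1 hx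
  rwa [g.2.2 y hy]

end Cfsg.Agent.S1551
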