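import Cfsg.Statements.S1552
import Cfsg.Agent.Lib.Golay.FamMaximal

set_option autoImplicit false
open scoped Pointwise
open Cfsg
open Cfsg.Agent.Lib.Golay

namespace Cfsg.Agent.S1552

/-- A sextet stabiliser has four orbits on the 1771 sextets, of sizes 1, 90, 240, 1440; and the stabiliser is a maximal proper subgroup. -/
theorem result (S : Finset (Finset Cfsg.GolayPt)) (hS : S ∈ Cfsg.sextets) : ∃ X₁ ∈ Cfsg.sextets, ∃ X₂ ∈ Cfsg.sextets, ∃ X₃ ∈ Cfsg.sextets, (MulAction.orbit ↥(MulAction.stabilizer Cfsg.M24 S) X₁).ncard = 90 ∧ (MulAction.orbit ↥(MulAction.stabilizer Cfsg.M24 S) X₂).ncard = 240 ∧ (MulAction.orbit ↥(MulAction.stabilizer Cfsg.M24 S) X₃).ncard = 1440 ∧ Cfsg.sextets = {S} ∪ MulAction.orbit ↥(MulAction.stabilizer Cfsg.M24 S) X₁ ∪ MulAction.orbit ↥(MulAction.stabilizer Cfsg.M24 S) X₂ ∪ MulAction.orbit ↥(MulAction.stabilizer Cfsg.M24 S) X₃ ∧ IsCoatom (MulAction.stabilizer Cfsg.M24 S) := by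
  obtain ⟨Z1, hZ1, eZ1, nZ1⟩ := class_orbit sextet_model sS90_cover (sBase_move hS)
  obtain ⟨Z2, hZ2, eZ2, nZ2⟩ := class_orbit sextet_model sS240_cover (sBase_move hS)
  obtain ⟨Z3, hZ3, eZ3, nZ3⟩ := class_orbit sextet_model sS1440_cover (sBase_move hS)
  refine ⟨Z1, hZ1, Z2, hZ2, Z3, hZ3, nZ1, nZ2, nZ3, ?_, ?_⟩
  · ext A
    simp only [← self_class sextet_model sS1_cover (sBase_move hS) hS (self_kind_sS hS) , eZ1, eZ2, eZ3, Set.mem_union, Set.mem_ofPred_eq]
    constructor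
    · intro hA
      have hk := kinds_cover' sextet_model (B := sBase) (by decide +kernel) sS_all (sBase_move hS) (A := A) hA
      simp only [List.mem_cons, List.not_mem_nil, or_false] at hk
      tauto
    · tauto
  · exact sextet_stab_maximal hS

end Cfsg.Agent.S1552
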