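import Cfsg.Statements.S1553
import Cfsg.Agent.Lib.Golay.Six

set_option autoImplicit false
open scoped Pointwise
open Cfsg
open Cfsg.Agent.Lib.Golay

namespace Cfsg.Agent.S1553

/-- The stabiliser of an octad in the group of the length-24 code induces on the octad exactly its alternating group. -/
theorem result (o : Finset Cfsg.GolayPt) (ho : o ∈ Cfsg.octads) : {e : Equiv.Perm ↥o | ∃ g : Equiv.Perm Cfsg.GolayPt, g ∈ Cfsg.M24 ∧ ∃ h : (∀ x, g x ∈ o ↔ x ∈ o), g.subtypePerm h = e} = (alternatingGroup ↥o : Set (Equiv.Perm ↥o)) := by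
  ext e
  rw [Set.mem_ofPred_eq, SetLike.mem_coe, ← octad_range ho]
  constructor
  · rintro ⟨g, hg, h, rfl⟩
    exact ⟨⟨g, hg, smul_eq_of_mapsTo fun p hp => (h p).2 hp⟩, rfl⟩
  · rintro ⟨g, rfl⟩
    exact ⟨g, g.2.1, smul_mem_iff_of_fix g.2.2, rfl⟩

end Cfsg.Agent.S1553
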