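import Cfsg.Statements.S1554
import Cfsg.Agent.Lib.Golay.Six

set_option autoImplicit false
open scoped Pointwise
open Cfsg
open Cfsg.Agent.Lib.Golay

namespace Cfsg.Agent.S1554

/-- An octad stabiliser is a split extension: the joint stabiliser of the octad and a point outside it is a complement to the pointwise stabiliser of the octad, and is isomorphic to the alternating group of degree 8. -/
theorem result (o : Finset Cfsg.GolayPt) (ho : o ∈ Cfsg.octads) (p : Cfsg.GolayPt) (hp : p ∉ o) : (Cfsg.M24 ⊓ fixingSubgroup (Equiv.Perm Cfsg.GolayPt) (o : Set Cfsg.GolayPt)) ⊓ (Cfsg.M24 ⊓ MulAction.stabilizer (Equiv.Perm Cfsg.GolayPt) o ⊓ MulAction.stabilizer (Equiv.Perm Cfsg.GolayPt) p) = ⊥ ∧ (Cfsg.M24 ⊓ fixingSubgroup (Equiv.Perm Cfsg.GolayPt) (o : Set Cfsg.GolayPt)) ⊔ (Cfsg.M24 ⊓ MulAction.stabilizer (Equiv.Perm Cfsg.GolayPt) o ⊓ MulAction.stabilizer (Equiv.Perm Cfsg.GolayPt) p) = (Cfsg.M24 ⊓ MulAction.stabilizer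 (Equiv.Perm Cfsg.GolayPt) o) ∧ Nonempty (↥(Cfsg.M24 ⊓ MulAction.stabilizer (Equiv.Perm Cfsg.GolayPt) o ⊓ MulAction.stabilizer (Equiv.Perm Cfsg.GolayPt) p) ≃* alternatingGroup (Fin 8)) := by
  have hf := octFix_facts ho
  refine ⟨?_, ?_, ?_⟩
  · rw [Subgroup.eq_bot_iff_forall]
    rintro g ⟨hg, -, hgp⟩
    exact hf.2.1 g hg p hp hgp
  · refine le_antisymm (sup_le stSet_of_ptFix inf_le_left) fun g hg => ?_
    have hgp : g p ∉ o := fun h => hp ((smul_mem_iff_of_fix hg.2 p).1 h)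
    obtain ⟨n, hn, hne⟩ := hf.1 _ p hgp hp
    have : g = n⁻¹ * (n * g) := (inv_mul_cancel_left n g).symm
    rw [this]
    refine Subgroup.mul_mem_sup (inv_mem hn) ⟨⟨mul_mem hn.1 hg.1, ?_⟩, hne⟩
    show (n * g) • o = o
    rw [mul_smul, hg.2]
    exact (stSet_of_ptFix hn).2
  · have e : ↥o ≃ Fin 8 := o.equivFin.trans (finCongr (octads_card ho))
    exact ⟨(octPtEquiv ho hp).trans e.altCongrHom⟩

end Cfsg.Agent.S1554
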