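import Cfsg.Statements.S1559
import Cfsg.Agent.Lib.Golay.FamMaximal

set_option autoImplicit false
open scoped Pointwise
open Cfsg
open Cfsg.Agent.Lib.Golay

namespace Cfsg.Agent.S1559

/-- A trio stabiliser has five orbits on the 3795 trios, of sizes 1, 42, 56, 1008, 2688; and the stabiliser is a maximal proper subgroup. -/
theorem result (T : Finset (Finset Cfsg.GolayPt)) (hT : T ∈ Cfsg.trios) : ∃ X₁ ∈ Cfsg.trios, ∃ X₂ ∈ Cfsg.trios, ∃ X₃ ∈ Cfsg.trios, ∃ X₄ ∈ Cfsg.trios, (MulAction.orbit ↥(MulAction.stabilizer Cfsg.M24 T) X₁).ncard = 42 ∧ (MulAction.orbit ↥(MulAction.stabilizer Cfsg.M24 T) X₂).ncard = 56 ∧ (MulAction.orbit ↥(MulAction.stabilizer Cfsg.M24 T) X₃).ncard = 1008 ∧ (MulAction.orbit ↥(MulAction.stabilizer Cfsg.M24 T) X₄).ncard = 2688 ∧ Cfsg.trios = {T} ∪ MulAction.orbit ↥(MulAction.stabilizer Cfsg.M24 T) X₁ ∪ MulAction.orbit ↥(MulAction.stabilizer Cfsg.M24 T) X₂ ∪ MulAction.orbit ↥(MulAction.stabilizer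 Cfsg.M24 T) X₃ ∪ MulAction.orbit ↥(MulAction.stabilizer Cfsg.M24 T) X₄ ∧ IsCoatom (MulAction.stabilizer Cfsg.M24 T) := by
  obtain ⟨Z1, hZ1, eZ1, nZ1⟩ := class_orbit trio_model tT42_cover (tBase_move hT)
  obtain ⟨Z2, hZ2, eZ2, nZ2⟩ := class_orbit trio_model tT56_cover (tBase_move hT)
  obtain ⟨Z3, hZ3, eZ3, nZ3⟩ := class_orbit trio_model tT1008_cover (tBase_move hT)
  obtain ⟨Z4, hZ4, eZ4, nZ4⟩ := class_orbit trio_model tT2688_cover (tBase_move hT)
  refine ⟨Z1, hZ1, Z2, hZ2, Z3, hZ3, Z4, hZ4, nZ1, nZ2, nZ3, nZ4, ?_, ?_⟩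
  · ext A
    simp only [← self_class trio_model tT1_cover (tBase_move hT) hT (self_kind_tT hT) , eZ1, eZ2, eZ3, eZ4, Set.mem_union, Set.mem_ofPred_eq]
    constructor
    · intro hA
      have hk := kinds_cover' trio_model (B := tBase) (by decide +kernel) tT_all (tBase_move hT) (A := A) hA
      simp only [List.mem_cons, List.not_mem_nil, or_false] at hk
      tauto
    · tauto
  · exact trio_stab_maximal hT

end Cfsg.Agent.S1559
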