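import Cfsg.Statements.S1567
import Cfsg.Agent.Lib.Leech.Gens
-- import your own Cfsg.Agent.* helpers here

set_option autoImplicit false
open Cfsg

namespace Cfsg.Agent.S1567

/-- The rank-24 lattice is the additive subgroup generated by its 196560 minimal vectors. -/
theorem result : AddSubgroup.closure {x : Cfsg.GolayPt → ℤ | x ∈ Cfsg.leechLattice ∧ Cfsg.sqNorm x = 32} = Cfsg.leechLattice := by
  refine le_antisymm ((AddSubgroup.closure_le _).2 fun x hx => hx.1) ?_
  set H := AddSubgroup.closure {x : Cfsg.GolayPt → ℤ | x ∈ Cfsg.leechLattice ∧ Cfsg.sqNorm x = 32} with hH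
  have hmin : ∀ v, v ∈ Cfsg.leechLattice → Cfsg.sqNorm v = 32 → v ∈ H := fun v h1 h2 => AddSubgroup.subset_closure ⟨h1, h2⟩
  have hfr : ∀ i, Lib.Leech.frame i none ∈ H := by
    intro i
    by_cases hi : i = none
    · subst hi
      have h1 := hmin _ (Lib.Leech.frame_mem (some 0) none) (by decide)
      have h2 := hmin (Lib.Leech.frame none none - Lib.Leech.frame (some 0) none)
        (sub_mem (Lib.Leech.frame_mem none none) (Lib.Leech.frame_mem _ none)) (by decide)
      simpa using add_mem h2 h1
    · refine hmin _ (Lib.Leech.frame_mem i none) ?_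
      revert hi
      revert i
      decide +kernel
  refine Lib.Leech.lattice_le ?_ (fun B hB => hmin _ (Lib.Leech.twoW_mem B hB) ?_) hfr
  · have h2 := hmin (Lib.Leech.oddVec - Lib.Leech.frame none none)
      (sub_mem Lib.Leech.oddVec_mem (Lib.Leech.frame_mem none none)) (by decide)
    simpa using add_mem h2 (hfr none)
  · revert B
    decide +kernel

end Cfsg.Agent.S1567
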