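import Cfsg.Statements.S1568
import Cfsg.Agent.Lib.Leech.Census
-- import your own Cfsg.Agent.* helpers here

set_option autoImplicit false
open Cfsg

namespace Cfsg.Agent.S1568

open Cfsg in
theorem parity {x : GolayPt → ℤ} (hx : x ∈ leechLattice) (i j : GolayPt) : x i % 2 = x j % 2 := by
  obtain ⟨m, y, -, hy, -⟩ := Lib.Leech.mem_iff.1 hx
  rw [hy i, hy j]; omega

open Cfsg in
theorem three {x : GolayPt → ℤ} (hx : x ∈ leechLattice) (hn : sqNorm x = 48)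
    (h : ∃ i j k, i ≠ j ∧ j ≠ k ∧ i ≠ k ∧ |x i| = 3 ∧ |x j| = 3 ∧ |x k| = 3) :
    ∀ i, x i = 1 ∨ x i = -1 ∨ x i = 3 ∨ x i = -3 := by
  classical
  obtain ⟨i, j, k, hij, hjk, hik, hi, hj, hk⟩ := h
  intro p
  have hi' := abs_eq (by norm_num : (0:ℤ) ≤ 3) |>.1 hi
  have hj' := abs_eq (by norm_num : (0:ℤ) ≤ 3) |>.1 hj
  have hk' := abs_eq (by norm_num : (0:ℤ) ≤ 3) |>.1 hk
  by_cases hp : p = i ∨ p = j ∨ p = k
  · rcases hp with e | e | e <;> rw [e] <;> omega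
  push Not at hp
  have hodd : ∀ q, x q % 2 = 1 := fun q => by have := parity hx q i; omega
  have h1 : ∀ q, 0 ≤ x q ^ 2 - 1 := fun q => by
    have : x q ≠ 0 := fun e => by have := hodd q; omega
    have := pow_two_pos_of_ne_zero this
    omega
  have h2 := Finset.sum_le_sum_of_subset_of_nonneg (f := fun q => x q ^ 2 - 1) (Finset.subset_univ ({p, i, j, k} : Finset GolayPt)) (fun q _ _ => h1 q)
  rw [Finset.sum_insert (by simp [hp.1, hp.2.1, hp.2.2]), Finset.sum_insert (by simp [hij, hik]),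
    Finset.sum_insert (by simp [hjk]), Finset.sum_singleton, Finset.sum_sub_distrib] at h2
  rw [show ∑ q, x q ^ 2 = 48 from hn] at h2
  have e3 : ∀ q, |x q| = 3 → x q ^ 2 = 9 := fun q hq => by rw [← sq_abs, hq]; norm_num
  rw [e3 i hi, e3 j hj, e3 k hk] at h2
  norm_num at h2
  have := hodd p
  have := abs_le.1 h2
  omega

open Cfsg in
theorem three' {x : GolayPt → ℤ} (hn : sqNorm x = 48) (h : ∀ i, x i = 1 ∨ x i = -1 ∨ x i = 3 ∨ x i = -3) :
    ∃ i j k, i ≠ j ∧ j ≠ k ∧ i ≠ k ∧ |x i| = 3 ∧ |x j| = 3 ∧ |x k| = 3 := by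
  classical
  have hs : ∀ q, x q ^ 2 = 1 + (if |x q| = 3 then 8 else 0) := fun q => by
    rcases h q with e | e | e | e <;> rw [e] <;> norm_num
  rw [sqNorm, Finset.sum_congr rfl fun q _ => hs q, Finset.sum_add_distrib, ← Finset.sum_filter, Finset.sum_const,
    Finset.sum_const, Finset.card_univ, show Fintype.card GolayPt = 24 from rfl] at hn
  simp only [nsmul_eq_mul] at hn
  obtain ⟨i, j, k, hij, hik, hjk, he⟩ := Finset.card_eq_three.1 (by omega : (Finset.univ.filter fun q => |x q| = 3).card = 3)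
  have hm : ∀ q ∈ ({i, j, k} : Finset GolayPt), |x q| = 3 := fun q hq => by
    rw [← he] at hq; exact (Finset.mem_filter.1 hq).2
  exact ⟨i, j, k, hij, hjk, hik, hm i (by simp), hm j (by simp), hm k (by simp)⟩

open Cfsg in
theorem four {x : GolayPt → ℤ} (hx : x ∈ leechLattice) (hn : sqNorm x = 48) {i : GolayPt} (hi : |x i| = 4) :
    ∀ j, x j % 2 = 0 ∧ x j ≠ 6 ∧ x j ≠ -6 := by
  classical
  intro j
  have hi' := abs_eq (by norm_num : (0:ℤ) ≤ 4) |>.1 hi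
  refine ⟨by have := parity hx i j; omega, ?_⟩
  by_contra hj
  have h6 : x j ^ 2 = 36 := by
    by_cases a : x j = 6
    · rw [a]; norm_num
    · have : x j = -6 := by tauto
      rw [this]; norm_num
  have hne : i ≠ j := fun e => by rcases hi' with a | a <;> rw [← e, a] at h6 <;> norm_num at h6
  have h2 := Finset.sum_le_sum_of_subset_of_nonneg (f := fun q => x q ^ 2) (Finset.subset_univ ({i, j} : Finset GolayPt)) (fun q _ _ => sq_nonneg _)
  rw [Finset.sum_pair hne, h6, show x i ^ 2 = 16 by rw [← sq_abs, hi]; norm_num, show ∑ q, x q ^ 2 = 48 from hn] at h2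
  norm_num at h2

/-- Shape census of the lattice vectors of sum of squares 48 (customary norm 6): the four families (2^12, 0^12), (±3^3, ±1^21), (±4, ±2^8, 0^15) and (±5, ±1^23) have 5275648, 8290304, 3108864 and 98304 members. -/
theorem result : {x : Cfsg.GolayPt → ℤ | x ∈ Cfsg.leechLattice ∧ Cfsg.sqNorm x = 48 ∧ ∀ i, x i = 0 ∨ x i = 2 ∨ x i = -2}.ncard = 5275648 ∧ {x : Cfsg.GolayPt → ℤ | x ∈ Cfsg.leechLattice ∧ Cfsg.sqNorm x = 48 ∧ ∃ i j k, i ≠ j ∧ j ≠ k ∧ i ≠ k ∧ |x i| = 3 ∧ |x j| = 3 ∧ |x k| = 3}.ncard = 8290304 ∧ {x : Cfsg.GolayPt → ℤ | x ∈ Cfsg.leechLattice ∧ Cfsg.sqNorm x = 48 ∧ ∃ i, |x i| = 4}.ncard = 3108864 ∧ {x : Cfsg.GolayPt → ℤ | x ∈ Cfsg.leechLattice ∧ Cfsg.sqNorm x = 48 ∧ ∃ i, |x i| = 5}.ncard = 98304 := by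
  have hP := fun P : ℤ → Bool => Lib.Leech.census P 48 (by norm_num)
  have hbd : ∀ x : Cfsg.GolayPt → ℤ, Cfsg.sqNorm x = 48 → ∀ i, x i ^ 2 ≤ 48 := fun x h i =>
    (Finset.single_le_sum (fun j _ => sq_nonneg (x j)) (Finset.mem_univ i)).trans h.le
  have hb : ∀ x : Cfsg.GolayPt → ℤ, Cfsg.sqNorm x = 48 → ∀ i, x i = 0 ∨ x i = 1 ∨ x i = -1 ∨ x i = 2 ∨ x i = -2 ∨ x i = 3 ∨ x i = -3 ∨ x i = 4 ∨ x i = -4 ∨ x i = 5 ∨ x i = -5 ∨ x i = 6 ∨ x i = -6 := fun x h i => by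
    have := hbd x h i
    have : -6 ≤ x i := by nlinarith
    have : x i ≤ 6 := by nlinarith
    omega
  refine ⟨?_, ?_, ?_, ?_⟩
  · rw [← Nat.cast_inj (R := ℕ), Nat.cast_id, Nat.cast_id]
    refine Eq.trans ?_ ((hP fun v => decide (v = 0 ∨ v = 2 ∨ v = -2)).trans (by decide +kernel))
    congr 1; ext x; simp
  · refine Eq.trans ?_ ((hP fun v => decide (v = 1 ∨ v = -1 ∨ v = 3 ∨ v = -3)).trans (by decide +kernel))
    congr 1; ext x
    simp only [Set.mem_setOf_eq, decide_eq_true_eq]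
    refine and_congr_right fun hx => and_congr_right fun hn => ⟨?_, fun hall => ?_⟩
    · exact three hx hn
    · exact three' hn hall
  · have he := hP fun v => decide (v = 0 ∨ v = 2 ∨ v = -2 ∨ v = 4 ∨ v = -4)
    have hs := hP fun v => decide (v = 0 ∨ v = 2 ∨ v = -2)
    have hsub : {x : Cfsg.GolayPt → ℤ | x ∈ Cfsg.leechLattice ∧ Cfsg.sqNorm x = 48 ∧ ∀ i, decide (x i = 0 ∨ x i = 2 ∨ x i = -2) = true} ⊆
        {x : Cfsg.GolayPt → ℤ | x ∈ Cfsg.leechLattice ∧ Cfsg.sqNorm x = 48 ∧ ∀ i, decide (x i = 0 ∨ x i = 2 ∨ x i = -2 ∨ x i = 4 ∨ x i = -4) = true} := by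
      rintro x ⟨h1, h2, h3⟩
      exact ⟨h1, h2, fun i => by have := h3 i; simp only [decide_eq_true_eq] at this ⊢; omega⟩
    have heq : {x : Cfsg.GolayPt → ℤ | x ∈ Cfsg.leechLattice ∧ Cfsg.sqNorm x = 48 ∧ ∃ i, |x i| = 4} =
        {x : Cfsg.GolayPt → ℤ | x ∈ Cfsg.leechLattice ∧ Cfsg.sqNorm x = 48 ∧ ∀ i, decide (x i = 0 ∨ x i = 2 ∨ x i = -2 ∨ x i = 4 ∨ x i = -4) = true} \
        {x : Cfsg.GolayPt → ℤ | x ∈ Cfsg.leechLattice ∧ Cfsg.sqNorm x = 48 ∧ ∀ i, decide (x i = 0 ∨ x i = 2 ∨ x i = -2) = true} := by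
      ext x
      simp only [Set.mem_setOf_eq, Set.mem_sdiff, decide_eq_true_eq]
      constructor
      · rintro ⟨hx, hn, i, hi⟩
        refine ⟨⟨hx, hn, fun j => ?_⟩, fun h => by have := h.2.2 i; rcases abs_eq (by norm_num : (0:ℤ) ≤ 4) |>.1 hi with e | e <;> omega⟩
        have hj := four hx hn hi j
        rcases hb x hn j with e | e | e | e | e | e | e | e | e | e | e | e | e <;> omega
      · rintro ⟨⟨hx, hn, hall⟩, hno⟩
        refine ⟨hx, hn, ?_⟩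
        by_contra hne
        push Not at hne
        refine hno ⟨hx, hn, fun i => ?_⟩
        have := hne i
        rcases hall i with e | e | e | e | e
        · omega
        · omega
        · omega
        · rw [e] at this; norm_num at this
        · rw [e] at this; norm_num at this
    rw [heq, Set.ncard_sdiff hsub (Set.finite_of_ncard_pos (by rw [hs]; decide +kernel)), he, hs]
    decide +kernel
  · have ha := hP fun v => decide (v = 1 ∨ v = -1 ∨ v = 3 ∨ v = -3 ∨ v = 5 ∨ v = -5)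
    have hs := hP fun v => decide (v = 1 ∨ v = -1 ∨ v = 3 ∨ v = -3)
    have hsub : {x : Cfsg.GolayPt → ℤ | x ∈ Cfsg.leechLattice ∧ Cfsg.sqNorm x = 48 ∧ ∀ i, decide (x i = 1 ∨ x i = -1 ∨ x i = 3 ∨ x i = -3) = true} ⊆
        {x : Cfsg.GolayPt → ℤ | x ∈ Cfsg.leechLattice ∧ Cfsg.sqNorm x = 48 ∧ ∀ i, decide (x i = 1 ∨ x i = -1 ∨ x i = 3 ∨ x i = -3 ∨ x i = 5 ∨ x i = -5) = true} := by
      rintro x ⟨h1, h2, h3⟩
      exact ⟨h1, h2, fun i => by have := h3 i; simp only [decide_eq_true_eq] at this ⊢; omega⟩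
    have heq : {x : Cfsg.GolayPt → ℤ | x ∈ Cfsg.leechLattice ∧ Cfsg.sqNorm x = 48 ∧ ∃ i, |x i| = 5} =
        {x : Cfsg.GolayPt → ℤ | x ∈ Cfsg.leechLattice ∧ Cfsg.sqNorm x = 48 ∧ ∀ i, decide (x i = 1 ∨ x i = -1 ∨ x i = 3 ∨ x i = -3 ∨ x i = 5 ∨ x i = -5) = true} \
        {x : Cfsg.GolayPt → ℤ | x ∈ Cfsg.leechLattice ∧ Cfsg.sqNorm x = 48 ∧ ∀ i, decide (x i = 1 ∨ x i = -1 ∨ x i = 3 ∨ x i = -3) = true} := by
      ext x
      simp only [Set.mem_setOf_eq, Set.mem_sdiff, decide_eq_true_eq]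
      constructor
      · rintro ⟨hx, hn, i, hi⟩
        refine ⟨⟨hx, hn, fun j => ?_⟩, fun h => by have := h.2.2 i; rcases abs_eq (by norm_num : (0:ℤ) ≤ 5) |>.1 hi with e | e <;> omega⟩
        have hp := parity hx i j
        have hi' : x i = 5 ∨ x i = -5 := abs_eq (by norm_num : (0:ℤ) ≤ 5) |>.1 hi
        rcases hb x hn j with e | e | e | e | e | e | e | e | e | e | e | e | e <;> omega
      · rintro ⟨⟨hx, hn, hall⟩, hno⟩
        refine ⟨hx, hn, ?_⟩
        by_contra hne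
        push Not at hne
        refine hno ⟨hx, hn, fun i => ?_⟩
        have := hne i
        rcases hall i with e | e | e | e | e | e
        all_goals first | omega | (rw [e] at this; norm_num at this)
    rw [heq, Set.ncard_sdiff hsub (Set.finite_of_ncard_pos (by rw [hs]; decide +kernel)), ha, hs]
    decide +kernel

end Cfsg.Agent.S1568
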