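import Cfsg.Statements.S1569
import Cfsg.Agent.Lib.Leech.Crosses
-- import your own Cfsg.Agent.* helpers here

set_option autoImplicit false
open scoped Pointwise
open Cfsg

namespace Cfsg.Agent.S1569

/-- The cross through a lattice vector of customary norm 8 has exactly 48 members. -/
theorem result (x : Cfsg.GolayPt → ℤ) (hx : x ∈ Cfsg.leechLattice) (hxn : Cfsg.sqNorm x = 64) : (Cfsg.cross x).ncard = 48 := by
  have h := Lib.Leech.class_card ⟨x, hx⟩ hxn
  rw [← h, ← Set.ncard_image_of_injective _ Subtype.val_injective]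
  congr 1
  ext y
  constructor
  · rintro ⟨hy, hn, z, hz, e⟩
    refine ⟨⟨y, hy⟩, ⟨hn.trans hxn, ⟨-⟨z, hz⟩, Subtype.ext ?_⟩⟩, rfl⟩
    simp only [AddSubgroup.coe_sub, AddSubgroup.coe_add, AddSubgroup.coe_neg]
    rw [← neg_sub, e, two_nsmul, neg_add]
  · rintro ⟨⟨y, hy⟩, ⟨hn, ⟨z, hz⟩⟩, rfl⟩
    refine ⟨hy, hn.trans hxn.symm, -z, neg_mem z.2, ?_⟩
    have e := congrArg (fun t : ↥Cfsg.leechLattice => (t : Cfsg.GolayPt → ℤ)) hz
    simp only [AddSubgroup.coe_sub, AddSubgroup.coe_add] at e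
    rw [two_nsmul, ← neg_add, ← e, neg_sub]

end Cfsg.Agent.S1569
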