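import Cfsg.Statements.S1571
import Cfsg.Agent.Lib.Leech.Stab
-- import your own Cfsg.Agent.* helpers here

set_option autoImplicit false
open scoped Pointwise
open Cfsg

namespace Cfsg.Agent.S1571

open Agent.Lib.Leech in
open scoped Pointwise in
theorem key (g : ↥Co0) : (∀ v : ↥leechLattice, (v : GolayPt → ℤ) ∈ stdCross →
    ((g • v : ↥leechLattice) : GolayPt → ℤ) ∈ stdCross) ↔ g ∈ MulAction.stabilizer ↥Co0 cross0 := by
  have hiff : ∀ v : ↥leechLattice, (v : GolayPt → ℤ) ∈ stdCross ↔ v ∈ cross0 := by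
    intro v
    constructor
    · rintro ⟨i, s, rfl | rfl, hv⟩
      · exact Or.inl ⟨i, Subtype.ext (by rw [coe_e8, hv])⟩
      · refine Or.inr ⟨i, Subtype.ext ?_⟩
        rw [hv, AddSubgroup.coe_neg, coe_e8, ← Pi.single_neg]
    · rintro (⟨i, rfl⟩ | ⟨i, rfl⟩)
      · exact ⟨i, 8, Or.inl rfl, coe_e8 i⟩
      · exact ⟨i, -8, Or.inr rfl, by rw [AddSubgroup.coe_neg, coe_e8, ← Pi.single_neg]⟩
  rw [MulAction.mem_stabilizer_iff]
  constructor
  · intro h
    refine Set.eq_of_subset_of_ncard_le ?_ (by rw [Set.ncard_smul_set])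
      (Set.finite_of_ncard_pos (by rw [ncard_cross0]; norm_num))
    rintro _ ⟨v, hv, rfl⟩
    exact (hiff _).1 (h v ((hiff v).2 hv))
  · intro h v hv
    exact (hiff _).2 (h.le ⟨v, (hiff v).1 hv, rfl⟩)

/-- The stabiliser of the standard cross in the automorphism group of the lattice is the monomial group of the code: each of its elements acts as a signed permutation with permutation part in the code's group and sign set a codeword, and it has order 4096 · 244823040. -/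
theorem result : (∀ g : ↥Cfsg.Co0, (∀ v : ↥Cfsg.leechLattice, (v : Cfsg.GolayPt → ℤ) ∈ Cfsg.stdCross → ((g • v : ↥Cfsg.leechLattice) : Cfsg.GolayPt → ℤ) ∈ Cfsg.stdCross) → ∃ f ∈ Cfsg.golayMonomialMaps, ∀ v : ↥Cfsg.leechLattice, ((g • v : ↥Cfsg.leechLattice) : Cfsg.GolayPt → ℤ) = f (v : Cfsg.GolayPt → ℤ)) ∧ Nat.card {g : ↥Cfsg.Co0 // (∀ v : ↥Cfsg.leechLattice, (v : Cfsg.GolayPt → ℤ) ∈ Cfsg.stdCross → ((g • v : ↥Cfsg.leechLattice) : Cfsg.GolayPt → ℤ) ∈ Cfsg.stdCross)} = 4096 * 244823040 := by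
  refine ⟨fun g hg => ?_, ?_⟩
  · obtain ⟨⟨c, σ⟩, rfl⟩ := Agent.Lib.Leech.stab_cases (g := g) ((key g).1 hg)
    refine ⟨_, ⟨(σ : Equiv.Perm GolayPt)⁻¹, inv_mem σ.2, (σ : Equiv.Perm GolayPt)⁻¹ • (c : Finset GolayPt), ?_, rfl⟩, fun v => funext fun i => ?_⟩
    · exact Agent.Lib.Golay.mem_codeSets_smul (inv_mem σ.2) (Agent.Lib.Leech.mem_codeFinset.1 c.2)
    · show (if (σ : Equiv.Perm GolayPt) i ∈ (c : Finset GolayPt) then -(v : GolayPt → ℤ) ((σ : Equiv.Perm GolayPt) i)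
        else (v : GolayPt → ℤ) ((σ : Equiv.Perm GolayPt) i)) = signedPerm _ _ _ i
      simp only [signedPerm, Finset.mem_inv_smul_finset_iff]
      rfl
  · rw [← Agent.Lib.Leech.card_stab]
    exact Nat.card_congr (Equiv.subtypeEquivRight key)

end Cfsg.Agent.S1571
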