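import Cfsg.Statements.S1572
import Cfsg.Agent.Lib.Leech.CrossMax
-- import your own Cfsg.Agent.* helpers here

set_option autoImplicit false
open scoped Pointwise
open Cfsg

namespace Cfsg.Agent.S1572

/-- The stabiliser of the standard cross is a maximal proper subgroup of the lattice's automorphism group. -/
theorem result (H : Subgroup ↥Cfsg.Co0) (hH : (H : Set ↥Cfsg.Co0) = {g : ↥Cfsg.Co0 | (∀ v : ↥Cfsg.leechLattice, (v : Cfsg.GolayPt → ℤ) ∈ Cfsg.stdCross → ((g • v : ↥Cfsg.leechLattice) : Cfsg.GolayPt → ℤ) ∈ Cfsg.stdCross)}) : IsCoatom H := by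
  have key : H = MulAction.stabilizer ↥Co0 Agent.Lib.Leech.cross0 := by
    ext g
    rw [← SetLike.mem_coe, hH, Set.mem_setOf_eq, MulAction.mem_stabilizer_iff]
    have hiff : ∀ v : ↥leechLattice, (v : GolayPt → ℤ) ∈ stdCross ↔ v ∈ Agent.Lib.Leech.cross0 := by
      intro v
      constructor
      · rintro ⟨i, s, rfl | rfl, e⟩
        · exact Or.inl ⟨i, Subtype.ext (by rw [Agent.Lib.Leech.coe_e8, e])⟩
        · exact Or.inr ⟨i, Subtype.ext (by rw [AddSubgroup.coe_neg, Agent.Lib.Leech.coe_e8, e, ← Pi.single_neg])⟩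
      · rintro (⟨i, rfl⟩ | ⟨i, rfl⟩)
        · exact ⟨i, 8, Or.inl rfl, Agent.Lib.Leech.coe_e8 i⟩
        · exact ⟨i, -8, Or.inr rfl, by rw [AddSubgroup.coe_neg, Agent.Lib.Leech.coe_e8, ← Pi.single_neg]⟩
    simp only [hiff]
    constructor
    · intro h
      refine Set.eq_of_subset_of_ncard_le ?_ (by rw [Set.ncard_smul_set])
        (Set.finite_of_ncard_pos (by rw [Agent.Lib.Leech.ncard_cross0]; norm_num))
      rintro _ ⟨x, hx, rfl⟩
      exact h x hx
    · exact fun h v hv => h.le ⟨v, hv, rfl⟩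
  exact key ▸ Agent.Lib.Leech.stab_cross0_maximal

end Cfsg.Agent.S1572
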