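import Cfsg.Statements.S1573
import Cfsg.Agent.Lib.Leech.Co3Orbits
import Cfsg.Agent.Lib.Leech.DotsFast
-- import your own Cfsg.Agent.* helpers here

set_option autoImplicit false
open Cfsg

namespace Cfsg.Agent.S1573

set_option maxRecDepth 100000

def ucls : List (ℤ × Bool) := [(0, false), (0, true), (4, false), (4, true), (-4, false), (-4, true)]

theorem check_cp : Lib.Leech.cpOK (Lib.Leech.uVec : GolayPt → ℤ) ucls 2475880115464248697217351680 = true := by decide +kernel

theorem check_counts :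
    Lib.Leech.nsum (fun P => Lib.Leech.cntP ucls 32 (-16) (Lib.Leech.unpack ucls.length P)) (Lib.Leech.fastTable 2475880115464248697217351680) = 4600 ∧
    Lib.Leech.nsum (fun P => Lib.Leech.cntP ucls 32 (-8) (Lib.Leech.unpack ucls.length P)) (Lib.Leech.fastTable 2475880115464248697217351680) = 47104 ∧
    Lib.Leech.nsum (fun P => Lib.Leech.cntP ucls 32 0 (Lib.Leech.unpack ucls.length P)) (Lib.Leech.fastTable 2475880115464248697217351680) = 93150 := by
  decide +kernel

/-- Census of minimal vectors by inner product with a fixed minimal vector: 4600 have customary inner product −2, 47104 have −1, and 93150 are orthogonal. -/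
theorem result (v : Cfsg.GolayPt → ℤ) (hv : v ∈ Cfsg.leechLattice) (hvn : Cfsg.sqNorm v = 32) : {w : Cfsg.GolayPt → ℤ | w ∈ Cfsg.leechLattice ∧ Cfsg.sqNorm w = 32 ∧ Cfsg.dotInt v w = -16}.ncard = 4600 ∧ {w : Cfsg.GolayPt → ℤ | w ∈ Cfsg.leechLattice ∧ Cfsg.sqNorm w = 32 ∧ Cfsg.dotInt v w = -8}.ncard = 47104 ∧ {w : Cfsg.GolayPt → ℤ | w ∈ Cfsg.leechLattice ∧ Cfsg.sqNorm w = 32 ∧ Cfsg.dotInt v w = 0}.ncard = 93150 := by
  obtain ⟨g, hg⟩ := Lib.Leech.trans_min (v := (⟨v, hv⟩ : ↥leechLattice)) (w := Lib.Leech.uVec) hvn Lib.Leech.uVec_facts.1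
  have key : ∀ k : ℤ, {w : GolayPt → ℤ | w ∈ leechLattice ∧ sqNorm w = 32 ∧ dotInt v w = k}.ncard =
      Lib.Leech.nsum (fun P => Lib.Leech.cntP ucls 32 k (Lib.Leech.unpack ucls.length P)) (Lib.Leech.fastTable 2475880115464248697217351680) := by
    intro k
    rw [← Lib.Leech.ncard_sub (fun w => sqNorm w = 32 ∧ dotInt v w = k)]
    have h : (Lib.Leech.dotSet (⟨v, hv⟩ : ↥leechLattice) k).ncard = (Lib.Leech.dotSet Lib.Leech.uVec k).ncard := by
      rw [← hg, Lib.Leech.ncard_dotSet_smul]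
    refine (show ({x : ↥leechLattice | sqNorm (x : GolayPt → ℤ) = 32 ∧ dotInt v (x : GolayPt → ℤ) = k}).ncard =
      (Lib.Leech.dotSet Lib.Leech.uVec k).ncard from h).trans ?_
    exact (Lib.Leech.ncard_sub (fun w => sqNorm w = 32 ∧ dotInt (Lib.Leech.uVec : GolayPt → ℤ) w = k)).trans
      (Lib.Leech.census_fast _ 32 k (by norm_num) ucls (by decide) 2475880115464248697217351680 check_cp)
  refine ⟨?_, ?_, ?_⟩ <;> rw [key]
  · exact check_counts.1
  · exact check_counts.2.1
  · exact check_counts.2.2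

end Cfsg.Agent.S1573
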