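import Cfsg.Statements.S1574
import Cfsg.Agent.Lib.Leech.Pairs
-- import your own Cfsg.Agent.* helpers here

set_option autoImplicit false
open Cfsg

namespace Cfsg.Agent.S1574

/-- The stabiliser of a minimal vector is transitive on the minimal vectors of customary inner product −2 with it. -/
theorem result (v w w' : ↥Cfsg.leechLattice) (hv : Cfsg.sqNorm (v : Cfsg.GolayPt → ℤ) = 32) (hw : Cfsg.sqNorm (w : Cfsg.GolayPt → ℤ) = 32) (hw' : Cfsg.sqNorm (w' : Cfsg.GolayPt → ℤ) = 32) (hd : Cfsg.dotInt (v : Cfsg.GolayPt → ℤ) (w : Cfsg.GolayPt → ℤ) = -16) (hd' : Cfsg.dotInt (v : Cfsg.GolayPt → ℤ) (w' : Cfsg.GolayPt → ℤ) = -16) : ∃ g : ↥Cfsg.Co0, g • v = v ∧ g • w = w' := by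
  open Agent.Lib.Leech in
  obtain ⟨k, hk⟩ := trans_min hv uVec_facts.1
  obtain ⟨g1, hg1, h1⟩ := trans_sixteen (w := k • w) ((Same.sqNorm_eq ⟨k, rfl⟩).trans hw) (by rw [← hk, dot_smul]; exact hd)
  obtain ⟨g2, hg2, h2⟩ := trans_sixteen (w := k • w') ((Same.sqNorm_eq ⟨k, rfl⟩).trans hw') (by rw [← hk, dot_smul]; exact hd')
  have e : g1 • k • w = g2 • k • w' := Subtype.ext (h1.trans h2.symm)
  refine ⟨k⁻¹ * (g2⁻¹ * (g1 * k)), ?_, ?_⟩
  · rw [mul_smul, mul_smul, mul_smul, hk, hg1]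
    conv_lhs => rw [← hg2, inv_smul_smul, ← hk, inv_smul_smul]
  · rw [mul_smul, mul_smul, mul_smul, e, inv_smul_smul, inv_smul_smul]

end Cfsg.Agent.S1574
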