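import Cfsg.Statements.S1575
import Cfsg.Agent.Lib.Leech.Pairs
-- import your own Cfsg.Agent.* helpers here

set_option autoImplicit false
open Cfsg

namespace Cfsg.Agent.S1575

/-- The stabiliser of a minimal vector is transitive on the minimal vectors of customary inner product −1 with it. -/
theorem result (v w w' : ↥Cfsg.leechLattice) (hv : Cfsg.sqNorm (v : Cfsg.GolayPt → ℤ) = 32) (hw : Cfsg.sqNorm (w : Cfsg.GolayPt → ℤ) = 32) (hw' : Cfsg.sqNorm (w' : Cfsg.GolayPt → ℤ) = 32) (hd : Cfsg.dotInt (v : Cfsg.GolayPt → ℤ) (w : Cfsg.GolayPt → ℤ) = -8) (hd' : Cfsg.dotInt (v : Cfsg.GolayPt → ℤ) (w' : Cfsg.GolayPt → ℤ) = -8) : ∃ g : ↥Cfsg.Co0, g • v = v ∧ g • w = w' := by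
  open Agent.Lib.Leech in
  obtain ⟨k, hk⟩ := trans_min hv uVec_facts.1
  obtain ⟨g, hg, e⟩ := trans_eight (w := k • w) (w' := k • w') ((Same.sqNorm_eq ⟨k, rfl⟩).trans hw)
    ((Same.sqNorm_eq ⟨k, rfl⟩).trans hw') (by rw [← hk, dot_smul]; exact hd) (by rw [← hk, dot_smul]; exact hd')
  refine ⟨k⁻¹ * (g * k), ?_, ?_⟩
  · rw [mul_smul, mul_smul, hk, hg, ← hk, inv_smul_smul]
  · rw [mul_smul, mul_smul, e, inv_smul_smul]

end Cfsg.Agent.S1575
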