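import Cfsg.Statements.S1576
import Cfsg.Agent.Lib.Leech.Pairs
-- import your own Cfsg.Agent.* helpers here

set_option autoImplicit false
open Cfsg

namespace Cfsg.Agent.S1576

open Agent.Lib.Leech Agent.Lib.Golay in
/-- Every orthogonal pair of minimal vectors has a standard form. -/
theorem pairs (v w : ↥leechLattice) (hv : sqNorm (v : GolayPt → ℤ) = 32) (hw : sqNorm (w : GolayPt → ℤ) = 32)
    (hd : dotInt (v : GolayPt → ℤ) (w : GolayPt → ℤ) = 0) :
    ∃ g : ↥Co0, g • v = (⟨frame none (some 0), frame_mem _ _⟩ : ↥leechLattice) ∧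
      g • w = e8 none - (⟨frame none (some 0), frame_mem _ _⟩ : ↥leechLattice) := by
  classical
  have hn : sqNorm ((v + w : ↥leechLattice) : GolayPt → ℤ) = 64 := by rw [norm_add', hv, hw, hd]; norm_num
  obtain ⟨k, hk⟩ := Agent.Lib.Leech.cross (v + w) hn
  have hmem : k • (v + w) ∈ cross0 := mem_cross0.2 ⟨(Same.sqNorm_eq ⟨k, rfl⟩).trans hn, hk⟩
  -- move the sum to `8e`
  obtain ⟨m, hm⟩ : ∃ m : ↥Co0, m • (v + w) = e8 none := by
    have perm : ∀ i, ∃ m : ↥Co0, m • e8 i = e8 none := fun i => by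
      obtain ⟨a, ha⟩ : ∃ a : GolayPt, a ≠ i := exists_ne i
      obtain ⟨b, hb⟩ : ∃ b : GolayPt, b ≠ none := exists_ne none
      obtain ⟨σ, hσ, h1, -⟩ := M24_trans_pairs hb.symm ha.symm
      exact ⟨permCo σ hσ, by rw [perm_e8, ← h1, Equiv.symm_apply_apply]⟩
    rcases hmem with ⟨i, hi⟩ | ⟨i, hi⟩
    · obtain ⟨m, hm⟩ := perm i
      exact ⟨m * k, by rw [mul_smul, ← hi, hm]⟩
    · obtain ⟨m, hm⟩ := perm i
      refine ⟨negCo * (m * k), ?_⟩
      rw [mul_smul, mul_smul, ← hi, negCo_smul, smul_neg', hm, neg_neg]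
  set x := m • v with hx
  have hxn : sqNorm (x : GolayPt → ℤ) = 32 := (Same.sqNorm_eq ⟨m, rfl⟩).trans hv
  have hxd : dotInt (x : GolayPt → ℤ) (e8 none : GolayPt → ℤ) = 32 := by
    have := norm_add' v w
    rw [← hm, hx, dot_smul]
    simp only [dotInt, sqNorm] at hd hv ⊢
    rw [← hv]
    simp only [AddSubgroup.coe_add, Pi.add_apply, mul_add, Finset.sum_add_distrib, hd, add_zero, pow_two]
  have hx4 : (x : GolayPt → ℤ) none = 4 := by
    simp only [dotInt, coe_e8, Pi.single_apply, mul_ite, mul_zero, Finset.sum_ite_eq', Finset.mem_univ, if_true] at hxd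
    omega
  -- the shape
  obtain ⟨t, ht, y, hy⟩ : ∃ j, j ≠ none ∧ ∃ s : Bool, ∀ i, (x : GolayPt → ℤ) i =
      if i = none then 4 else if i = j then (if s then 4 else -4) else 0 := by
    obtain ⟨m', t, hm', ht, hsum, hc⟩ := mem_iff.1 x.2
    obtain rfl : m' = 0 := by have := ht none; omega
    have hrest : ∑ i ∈ Finset.univ.erase none, (x : GolayPt → ℤ) i ^ 2 = 16 := by
      have h := Finset.add_sum_erase Finset.univ (fun i => (x : GolayPt → ℤ) i ^ 2) (Finset.mem_univ (none : GolayPt))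
      simp only [sqNorm] at hxn
      rw [hxn, hx4] at h
      linarith
    let D := Finset.univ.filter fun i => ¬ (2 : ℤ) ∣ t i
    have hD8 : D.card = 0 := by
      have hwt := card_cases (support_mem hc)
      rw [support_cast] at hwt
      change D.card = 0 ∨ D.card = 8 ∨ D.card = 12 ∨ D.card = 16 ∨ D.card = 24 at hwt
      have h4 : (D.card : ℤ) * 4 ≤ 16 := by
        rw [← hrest]
        refine le_trans ?_ (Finset.sum_le_sum_of_subset_of_nonneg (s := D) (fun i hi => Finset.mem_erase.2 ⟨?_, Finset.mem_univ _⟩) fun i _ _ => sq_nonneg _)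
        · have := Finset.sum_le_sum (s := D) (f := fun _ => (4 : ℤ)) (g := fun i => (x : GolayPt → ℤ) i ^ 2) fun i hi => by
            have h1 := (Finset.mem_filter.1 hi).2
            have h2 := ht i
            rcases (show (x : GolayPt → ℤ) i ≤ -2 ∨ 2 ≤ (x : GolayPt → ℤ) i by omega) with h | h <;> nlinarith
          simpa using this
        · rintro rfl
          have := (Finset.mem_filter.1 hi).2
          have := ht none
          omega
      omega
    have h4 : ∀ i, (4 : ℤ) ∣ (x : GolayPt → ℤ) i := fun i => by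
      have : i ∉ D := by rw [Finset.card_eq_zero.1 hD8]; exact Finset.notMem_empty i
      simp only [D, Finset.mem_filter, Finset.mem_univ, true_and, not_not] at this
      have := ht i
      omega
    obtain ⟨j, hj, hj0⟩ : ∃ j ∈ Finset.univ.erase (none : GolayPt), (x : GolayPt → ℤ) j ≠ 0 := by
      by_contra hno
      push Not at hno
      rw [Finset.sum_eq_zero fun i hi => by rw [hno i hi]; rfl] at hrest
      norm_num at hrest
    have hjne := (Finset.mem_erase.1 hj).1
    have h16 : (16 : ℤ) ≤ (x : GolayPt → ℤ) j ^ 2 := by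
      have := h4 j
      rcases (show (x : GolayPt → ℤ) j ≤ -4 ∨ 4 ≤ (x : GolayPt → ℤ) j by omega) with h | h <;> nlinarith
    have hsplit := Finset.add_sum_erase (Finset.univ.erase (none : GolayPt)) (fun i => (x : GolayPt → ℤ) i ^ 2) hj
    have hnn : 0 ≤ ∑ i ∈ (Finset.univ.erase (none : GolayPt)).erase j, (x : GolayPt → ℤ) i ^ 2 := Finset.sum_nonneg fun i _ => sq_nonneg _
    rw [hrest] at hsplit
    have hz := (Finset.sum_eq_zero_iff_of_nonneg fun i _ => sq_nonneg ((x : GolayPt → ℤ) i)).1 (show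
      ∑ i ∈ (Finset.univ.erase (none : GolayPt)).erase j, (x : GolayPt → ℤ) i ^ 2 = 0 by omega)
    have hj4 : (x : GolayPt → ℤ) j = 4 ∨ (x : GolayPt → ℤ) j = -4 := by
      have h : (x : GolayPt → ℤ) j ^ 2 = 16 := by omega
      have a1 : (x : GolayPt → ℤ) j ≤ 4 := by nlinarith
      have a2 : -4 ≤ (x : GolayPt → ℤ) j := by nlinarith
      have := h4 j
      omega
    refine ⟨j, hjne, decide ((x : GolayPt → ℤ) j = 4), fun i => ?_⟩
    by_cases hi : i = none
    · rw [if_pos hi, hi, hx4]
    · by_cases hij : i = j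
      · subst hij; rw [if_neg hi, if_pos rfl]; rcases hj4 with h | h <;> simp [h]
      · rw [if_neg hi, if_neg hij]
        exact pow_eq_zero_iff two_ne_zero |>.1 (hz i (Finset.mem_erase.2 ⟨hij, Finset.mem_erase.2 ⟨hi, Finset.mem_univ _⟩⟩))
  -- the monomial normalisation
  obtain ⟨σ, hσ, s1, s2⟩ := M24_trans_pairs (show (none : GolayPt) ≠ some 0 by decide) ht.symm
  obtain ⟨c, hc, c1, c2⟩ := exists_sep' (show (none : GolayPt) ≠ some 0 by decide) false (!y)
  let h : ↥Co0 := flipCo c hc * permCo σ hσ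
  have he : h • e8 none = e8 none := by
    show (flipCo c hc * permCo σ hσ) • e8 none = _
    rw [mul_smul, perm_e8, show σ.symm none = none by rw [Equiv.symm_apply_eq, s1], flip_e8, if_neg (by simpa using c1)]
  have hv' : h • x = (⟨frame none (some 0), frame_mem _ _⟩ : ↥leechLattice) := by
    show (flipCo c hc * permCo σ hσ) • x = _
    rw [mul_smul]
    apply Subtype.ext
    funext i
    show (if i ∈ c then -(x : GolayPt → ℤ) (σ i) else (x : GolayPt → ℤ) (σ i)) = frame none (some 0) i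
    rw [hy (σ i)]
    simp only [frame]
    by_cases a : i = none
    · subst a; simp only [s1, if_true]; simp [show (none : GolayPt) ∉ c by simpa using c1]
    · by_cases b : i = some 0
      · subst b
        simp only [s2, ht, if_false, if_true]
        cases y <;> simp_all
      · have a' : σ i ≠ none := fun e => a (σ.injective (e.trans s1.symm))
        have b' : σ i ≠ t := fun e => b (σ.injective (e.trans s2.symm))
        simp [a, b, a', b']
  refine ⟨h * m, by rw [mul_smul]; exact hv', ?_⟩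
  have : m • w = e8 none - x := by rw [← hm, hx, smul_add']; abel
  rw [mul_smul, this, sub_eq_add_neg, smul_add', smul_neg', he, hv']
  rfl

/-- The stabiliser of a minimal vector is transitive on the pairs of opposite minimal vectors orthogonal to it. -/
theorem result (v w w' : ↥Cfsg.leechLattice) (hv : Cfsg.sqNorm (v : Cfsg.GolayPt → ℤ) = 32) (hw : Cfsg.sqNorm (w : Cfsg.GolayPt → ℤ) = 32) (hw' : Cfsg.sqNorm (w' : Cfsg.GolayPt → ℤ) = 32) (hd : Cfsg.dotInt (v : Cfsg.GolayPt → ℤ) (w : Cfsg.GolayPt → ℤ) = 0) (hd' : Cfsg.dotInt (v : Cfsg.GolayPt → ℤ) (w' : Cfsg.GolayPt → ℤ) = 0) : ∃ g : ↥Cfsg.Co0, g • v = v ∧ (g • w = w' ∨ g • w = -w') := by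
  obtain ⟨g, h1, h2⟩ := pairs v w hv hw hd
  obtain ⟨g', h1', h2'⟩ := pairs v w' hv hw' hd'
  exact ⟨g'⁻¹ * g, by rw [mul_smul, h1, ← h1', inv_smul_smul], Or.inl (by rw [mul_smul, h2, ← h2', inv_smul_smul])⟩

end Cfsg.Agent.S1576
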