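import Cfsg.Statements.S1580
import Cfsg.Agent.Lib.Leech.RankTransport
-- import your own Cfsg.Agent.* helpers here

set_option autoImplicit false
open Cfsg

namespace Cfsg.Agent.S1580

/-- The McLaughlin configuration: for u of customary norm 6 and v minimal with u − v minimal, there are 275 further such summands x of customary inner product 2 with v, permuted transitively by the stabiliser of u and v. -/
theorem result (u v : ↥Cfsg.leechLattice) (hu : Cfsg.sqNorm (u : Cfsg.GolayPt → ℤ) = 48) (hv : Cfsg.sqNorm (v : Cfsg.GolayPt → ℤ) = 32 ∧ Cfsg.sqNorm ((u - v) : Cfsg.GolayPt → ℤ) = 32) : {x : ↥Cfsg.leechLattice | Cfsg.sqNorm (x : Cfsg.GolayPt → ℤ) = 32 ∧ Cfsg.sqNorm ((u - x) : Cfsg.GolayPt → ℤ) = 32 ∧ Cfsg.dotInt (v : Cfsg.GolayPt → ℤ) (x : Cfsg.GolayPt → ℤ) = 16}.ncard = 275 ∧ ∀ x ∈ {x : ↥Cfsg.leechLattice | Cfsg.sqNorm (x : Cfsg.GolayPt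 → ℤ) = 32 ∧ Cfsg.sqNorm ((u - x) : Cfsg.GolayPt → ℤ) = 32 ∧ Cfsg.dotInt (v : Cfsg.GolayPt → ℤ) (x : Cfsg.GolayPt → ℤ) = 16}, ∀ x' ∈ {x : ↥Cfsg.leechLattice | Cfsg.sqNorm (x : Cfsg.GolayPt → ℤ) = 32 ∧ Cfsg.sqNorm ((u - x) : Cfsg.GolayPt → ℤ) = 32 ∧ Cfsg.dotInt (v : Cfsg.GolayPt → ℤ) (x : Cfsg.GolayPt → ℤ) = 16}, ∃ g : ↥Cfsg.Co0, g • u = u ∧ g • v = v ∧ g • x = x' := by
  obtain ⟨k, hku, hkv⟩ := Lib.Leech.std_mc hu hv
  have hmem : ∀ x : ↥leechLattice, (sqNorm (x : GolayPt → ℤ) = 32 ∧ sqNorm ((u : GolayPt → ℤ) - (x : GolayPt → ℤ)) = 32 ∧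
      dotInt (v : GolayPt → ℤ) (x : GolayPt → ℤ) = 16) ↔ k • x ∈ Lib.Leech.mcPts Lib.Leech.vFive Lib.Leech.fourFour :=
    fun x => by rw [← hku, ← hkv, Lib.Leech.smul_mcPts]; rfl
  refine ⟨(Lib.Leech.ncard_smul_set' k hmem).trans Lib.Leech.mc_ncard, fun x hx x' hx' => ?_⟩
  obtain ⟨g, g1, g2, g3⟩ := Lib.Leech.mc_trans ((hmem x).1 hx)
  obtain ⟨g', g1', g2', g3'⟩ := Lib.Leech.mc_trans ((hmem x').1 hx')
  refine ⟨k⁻¹ * (g' * (g⁻¹ * k)), ?_, ?_, ?_⟩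
  · rw [mul_smul, mul_smul, mul_smul, hku, inv_smul_eq_iff.2 g1.symm, g1', ← hku, inv_smul_smul]
  · rw [mul_smul, mul_smul, mul_smul, hkv, inv_smul_eq_iff.2 g2.symm, g2', ← hkv, inv_smul_smul]
  · rw [mul_smul, mul_smul, mul_smul, ← g3, inv_smul_smul, g3', inv_smul_smul]

end Cfsg.Agent.S1580
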