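import Cfsg.Statements.S1581
import Cfsg.Agent.Lib.Leech.RankTransport
-- import your own Cfsg.Agent.* helpers here

set_option autoImplicit false
open Cfsg

namespace Cfsg.Agent.S1581

/-- The McLaughlin group acts with rank 3 and subdegrees 1, 112, 162 on its 275 points: the point stabiliser has two orbits on the remaining points, distinguished by customary inner product 1 or 2 with the fixed point. -/
theorem result (u v x : ↥Cfsg.leechLattice) (hu : Cfsg.sqNorm (u : Cfsg.GolayPt → ℤ) = 48) (hv : Cfsg.sqNorm (v : Cfsg.GolayPt → ℤ) = 32 ∧ Cfsg.sqNorm ((u - v) : Cfsg.GolayPt → ℤ) = 32) (hx : x ∈ {x : ↥Cfsg.leechLattice | Cfsg.sqNorm (x : Cfsg.GolayPt → ℤ) = 32 ∧ Cfsg.sqNorm ((u - x) : Cfsg.GolayPt → ℤ) = 32 ∧ Cfsg.dotInt (v : Cfsg.GolayPt → ℤ) (x : Cfsg.GolayPt → ℤ) = 16}) : {y : ↥Cfsg.leechLattice | y ∈ {x : ↥Cfsg.leechLattice | Cfsg.sqNorm (x : Cfsg.GolayPt →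 ℤ) = 32 ∧ Cfsg.sqNorm ((u - x) : Cfsg.GolayPt → ℤ) = 32 ∧ Cfsg.dotInt (v : Cfsg.GolayPt → ℤ) (x : Cfsg.GolayPt → ℤ) = 16} ∧ Cfsg.dotInt (x : Cfsg.GolayPt → ℤ) (y : Cfsg.GolayPt → ℤ) = 8}.ncard = 112 ∧ {y : ↥Cfsg.leechLattice | y ∈ {x : ↥Cfsg.leechLattice | Cfsg.sqNorm (x : Cfsg.GolayPt → ℤ) = 32 ∧ Cfsg.sqNorm ((u - x) : Cfsg.GolayPt → ℤ) = 32 ∧ Cfsg.dotInt (v : Cfsg.GolayPt → ℤ) (x : Cfsg.GolayPt → ℤ) = 16} ∧ y ≠ x ∧ Cfsg.dotInt (x : Cfsg.GolayPt → ℤ) (y : Cfsg.GolayPt → ℤ) = 16}.ncard = 162 ∧ ∀ y ∈ {x : ↥Cfsg.leechLattice | Cfsg.sqNorm (x : Cfsg.GolayPt → ℤ) = 32 ∧ Cfsg.sqNorm ((u - x) : Cfsg.GolayPt → ℤ) = 32 ∧ Cfsg.dotInt (v : Cfsg.GolayPt → ℤ) (x : Cfsg.GolayPt → ℤ) = 16}, ∀ y' ∈ {x : ↥Cfsg.leechLattice | Cfsg.sqNorm (x : Cfsg.GolayPt → ℤ) = 32 ∧ Cfsg.sqNorm ((u - x) : Cfsg.GolayPt → ℤ) = 32 ∧ Cfsg.dotInt (v : Cfsg.GolayPt → ℤ) (x : Cfsg.GolayPt → ℤ) = 16},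 y ≠ x → y' ≠ x → Cfsg.dotInt (x : Cfsg.GolayPt → ℤ) (y : Cfsg.GolayPt → ℤ) = Cfsg.dotInt (x : Cfsg.GolayPt → ℤ) (y' : Cfsg.GolayPt → ℤ) → ∃ g : ↥Cfsg.Co0, g • u = u ∧ g • v = v ∧ g • x = x ∧ g • y = y' := by
  obtain ⟨k0, hku, hkv⟩ := Lib.Leech.std_mc hu hv
  obtain ⟨g0, a1, a2, a3⟩ := Lib.Leech.mc_trans (y := k0 • x) (by rw [← hku, ← hkv, Lib.Leech.smul_mcPts]; exact hx)
  obtain ⟨k, ku, kv, kx⟩ : ∃ k : ↥Co0, k • u = Lib.Leech.vFive ∧ k • v = Lib.Leech.fourFour ∧ k • x = Lib.Leech.mcBase :=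
    ⟨g0⁻¹ * k0, by rw [mul_smul, hku, inv_smul_eq_iff, a1], by rw [mul_smul, hkv, inv_smul_eq_iff, a2],
      by rw [mul_smul, ← a3, inv_smul_smul]⟩
  have hmem : ∀ y : ↥leechLattice, (sqNorm (y : GolayPt → ℤ) = 32 ∧ sqNorm ((u : GolayPt → ℤ) - (y : GolayPt → ℤ)) = 32 ∧
      dotInt (v : GolayPt → ℤ) (y : GolayPt → ℤ) = 16) ↔ k • y ∈ Lib.Leech.mcPts Lib.Leech.vFive Lib.Leech.fourFour :=
    fun y => by rw [← ku, ← kv, Lib.Leech.smul_mcPts]; rfl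
  have hdot := Lib.Leech.smul_dot_iff k kx
  have hb32 : sqNorm (Lib.Leech.mcBase : GolayPt → ℤ) = 32 := Lib.Leech.rep_facts.2.2.2.1.1
  refine ⟨(Lib.Leech.ncard_smul_set' k fun y => ?_).trans (Lib.Leech.mc_sub_ncard 8 112 (Or.inl ⟨rfl, rfl⟩)),
    (Lib.Leech.ncard_smul_set' k fun y => ?_).trans (Lib.Leech.mc_sub_ncard 16 162 (Or.inr ⟨rfl, rfl⟩)),
    fun y hy y' hy' hne hne' hiff => ?_⟩
  · exact and_congr (hmem y) (by rw [hdot y])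
  · constructor
    · rintro ⟨h1, -, h3⟩; exact ⟨(hmem y).1 h1, by rw [← hdot y]; exact h3⟩
    · rintro ⟨h1, h3⟩
      refine ⟨(hmem y).2 h1, fun e => ?_, by rw [hdot y]; exact h3⟩
      rw [e, kx, Lib.Leech.dot_self_eq, hb32] at h3
      norm_num at h3
  · have hval : ∀ z, z ≠ x → k • z ∈ Lib.Leech.mcPts Lib.Leech.vFive Lib.Leech.fourFour →
        dotInt (Lib.Leech.mcBase : GolayPt → ℤ) ((k • z : ↥leechLattice) : GolayPt → ℤ) = 8 ∨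
          dotInt (Lib.Leech.mcBase : GolayPt → ℤ) ((k • z : ↥leechLattice) : GolayPt → ℤ) = 16 := by
      intro z hzne hz
      by_contra hno
      push Not at hno
      have hfin : (Lib.Leech.mcPts Lib.Leech.vFive Lib.Leech.fourFour).Finite :=
        Set.finite_of_ncard_pos (by rw [Lib.Leech.mc_ncard]; norm_num)
      have hA := Lib.Leech.mc_sub_ncard 8 112 (Or.inl ⟨rfl, rfl⟩)
      have hB := Lib.Leech.mc_sub_ncard 16 162 (Or.inr ⟨rfl, rfl⟩)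
      set A := {y : ↥leechLattice | y ∈ Lib.Leech.mcPts Lib.Leech.vFive Lib.Leech.fourFour ∧
        dotInt (Lib.Leech.mcBase : GolayPt → ℤ) (y : GolayPt → ℤ) = 8}
      set B := {y : ↥leechLattice | y ∈ Lib.Leech.mcPts Lib.Leech.vFive Lib.Leech.fourFour ∧
        dotInt (Lib.Leech.mcBase : GolayPt → ℤ) (y : GolayPt → ℤ) = 16}
      have hdisj : Disjoint A B := Set.disjoint_left.2 fun a ha hb => by
        have e1 := ha.2; rw [hb.2] at e1; norm_num at e1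
      have hb : Lib.Leech.mcBase ∈ Lib.Leech.mcPts Lib.Leech.vFive Lib.Leech.fourFour :=
        (Lib.Leech.mc_mem_iff Lib.Leech.vFive_shape.1).2 Lib.Leech.rep_facts.2.2.2.1
      have hsub : A ∪ B ⊆ Lib.Leech.mcPts Lib.Leech.vFive Lib.Leech.fourFour :=
        fun a ha => ha.elim (fun h => h.1) fun h => h.1
      have hnb : Lib.Leech.mcBase ∉ A ∪ B := by
        rintro (h | h) <;> have e1 := h.2 <;> rw [Lib.Leech.dot_self_eq, hb32] at e1 <;> norm_num at e1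
      have hne2 : k • z ≠ Lib.Leech.mcBase := fun e => hzne (MulAction.injective k (e.trans kx.symm))
      have hnz : k • z ∉ insert Lib.Leech.mcBase (A ∪ B) := by
        rintro (h | h | h)
        · exact hne2 h
        · exact hno.1 h.2
        · exact hno.2 h.2
      have hle := Set.ncard_le_ncard (Set.insert_subset hz (Set.insert_subset hb hsub)) hfin
      rw [Set.ncard_insert_of_notMem hnz ((hfin.subset hsub).insert _),
        Set.ncard_insert_of_notMem hnb (hfin.subset hsub),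
        Set.ncard_union_eq hdisj (hfin.subset fun a ha => ha.1) (hfin.subset fun a ha => ha.1), hA, hB,
        Lib.Leech.mc_ncard] at hle
      omega
    rw [hdot y, hdot y'] at hiff
    obtain ⟨g, b1, b2, b3, b4⟩ := Lib.Leech.mc_sub_trans ((hmem y).1 hy) _ (hval y hne ((hmem y).1 hy)) rfl
    obtain ⟨g', b1', b2', b3', b4'⟩ := Lib.Leech.mc_sub_trans ((hmem y').1 hy') _ (hval y' hne' ((hmem y').1 hy')) rfl
    rw [hiff] at b4
    refine ⟨k⁻¹ * (g' * (g⁻¹ * k)), ?_, ?_, ?_, ?_⟩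
    · rw [mul_smul, mul_smul, mul_smul, ku, inv_smul_eq_iff.2 b1.symm, b1', ← ku, inv_smul_smul]
    · rw [mul_smul, mul_smul, mul_smul, kv, inv_smul_eq_iff.2 b2.symm, b2', ← kv, inv_smul_smul]
    · rw [mul_smul, mul_smul, mul_smul, kx, inv_smul_eq_iff.2 b3.symm, b3', ← kx, inv_smul_smul]
    · rw [mul_smul, mul_smul, mul_smul, inv_smul_eq_iff.2 b4.symm, b4', inv_smul_smul]

end Cfsg.Agent.S1581
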