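import Cfsg.Statements.S1583
import Cfsg.Agent.Lib.Leech.RankTransport
-- import your own Cfsg.Agent.* helpers here

set_option autoImplicit false
open Cfsg

namespace Cfsg.Agent.S1583

/-- The Higman–Sims configuration: for two vectors of customary norm 6 with inner product −4, exactly 100 minimal vectors have customary inner products 3 and −3 with them, and the joint stabiliser permutes these transitively. -/
theorem result (v w : ↥Cfsg.leechLattice) (hv : Cfsg.sqNorm (v : Cfsg.GolayPt → ℤ) = 48) (hw : Cfsg.sqNorm (w : Cfsg.GolayPt → ℤ) = 48) (hvw : Cfsg.dotInt (v : Cfsg.GolayPt → ℤ) (w : Cfsg.GolayPt → ℤ) = -32) : {x : ↥Cfsg.leechLattice | Cfsg.sqNorm (x : Cfsg.GolayPt → ℤ) = 32 ∧ Cfsg.dotInt (v : Cfsg.GolayPt → ℤ) (x : Cfsg.GolayPt → ℤ) = 24 ∧ Cfsg.dotInt (w : Cfsg.GolayPt → ℤ) (x : Cfsg.GolayPt → ℤ) = -24}.ncard = 100 ∧ ∀ x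 ∈ {x : ↥Cfsg.leechLattice | Cfsg.sqNorm (x : Cfsg.GolayPt → ℤ) = 32 ∧ Cfsg.dotInt (v : Cfsg.GolayPt → ℤ) (x : Cfsg.GolayPt → ℤ) = 24 ∧ Cfsg.dotInt (w : Cfsg.GolayPt → ℤ) (x : Cfsg.GolayPt → ℤ) = -24}, ∀ x' ∈ {x : ↥Cfsg.leechLattice | Cfsg.sqNorm (x : Cfsg.GolayPt → ℤ) = 32 ∧ Cfsg.dotInt (v : Cfsg.GolayPt → ℤ) (x : Cfsg.GolayPt → ℤ) = 24 ∧ Cfsg.dotInt (w : Cfsg.GolayPt → ℤ) (x : Cfsg.GolayPt → ℤ) = -24}, ∃ g : ↥Cfsg.Co0, g • v = v ∧ g • w = w ∧ g • x = x' := by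
  obtain ⟨k, hkv, hkw⟩ := Lib.Leech.std_hs hv hw hvw
  have hmem : ∀ x : ↥leechLattice, (sqNorm (x : GolayPt → ℤ) = 32 ∧ dotInt (v : GolayPt → ℤ) (x : GolayPt → ℤ) = 24 ∧
      dotInt (w : GolayPt → ℤ) (x : GolayPt → ℤ) = -24) ↔ k • x ∈ Lib.Leech.hsPts Lib.Leech.vFive Lib.Leech.fivePartner :=
    fun x => by rw [← hkv, ← hkw, Lib.Leech.smul_hsPts]; rfl
  refine ⟨(Lib.Leech.ncard_smul_set' k hmem).trans Lib.Leech.hs_ncard, fun x hx x' hx' => ?_⟩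
  obtain ⟨g, g1, g2, g3⟩ := Lib.Leech.hs_trans ((hmem x).1 hx)
  obtain ⟨g', g1', g2', g3'⟩ := Lib.Leech.hs_trans ((hmem x').1 hx')
  refine ⟨k⁻¹ * (g' * (g⁻¹ * k)), ?_, ?_, ?_⟩
  · rw [mul_smul, mul_smul, mul_smul, hkv, inv_smul_eq_iff.2 g1.symm, g1', ← hkv, inv_smul_smul]
  · rw [mul_smul, mul_smul, mul_smul, hkw, inv_smul_eq_iff.2 g2.symm, g2', ← hkw, inv_smul_smul]
  · rw [mul_smul, mul_smul, mul_smul, ← g3, inv_smul_smul, g3', inv_smul_smul]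

end Cfsg.Agent.S1583
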