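import Cfsg.Statements.S1584
import Cfsg.Agent.Lib.Leech.RankTransport
-- import your own Cfsg.Agent.* helpers here

set_option autoImplicit false
open Cfsg

namespace Cfsg.Agent.S1584

/-- The Higman–Sims group acts with rank 3 and subdegrees 1, 22, 77 on its 100 points, the orbits of a point stabiliser being distinguished by customary inner product 1 with the fixed point. -/
theorem result (v w x : ↥Cfsg.leechLattice) (hv : Cfsg.sqNorm (v : Cfsg.GolayPt → ℤ) = 48) (hw : Cfsg.sqNorm (w : Cfsg.GolayPt → ℤ) = 48) (hvw : Cfsg.dotInt (v : Cfsg.GolayPt → ℤ) (w : Cfsg.GolayPt → ℤ) = -32) (hx : x ∈ {x : ↥Cfsg.leechLattice | Cfsg.sqNorm (x : Cfsg.GolayPt → ℤ) = 32 ∧ Cfsg.dotInt (v : Cfsg.GolayPt → ℤ) (x : Cfsg.GolayPt → ℤ) = 24 ∧ Cfsg.dotInt (w : Cfsg.GolayPt → ℤ) (x : Cfsg.GolayPt → ℤ) = -24}) : {y : ↥Cfsg.leechLattice |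 y ∈ {x : ↥Cfsg.leechLattice | Cfsg.sqNorm (x : Cfsg.GolayPt → ℤ) = 32 ∧ Cfsg.dotInt (v : Cfsg.GolayPt → ℤ) (x : Cfsg.GolayPt → ℤ) = 24 ∧ Cfsg.dotInt (w : Cfsg.GolayPt → ℤ) (x : Cfsg.GolayPt → ℤ) = -24} ∧ Cfsg.dotInt (x : Cfsg.GolayPt → ℤ) (y : Cfsg.GolayPt → ℤ) = 8}.ncard = 22 ∧ {y : ↥Cfsg.leechLattice | y ∈ {x : ↥Cfsg.leechLattice | Cfsg.sqNorm (x : Cfsg.GolayPt → ℤ) = 32 ∧ Cfsg.dotInt (v : Cfsg.GolayPt → ℤ) (x : Cfsg.GolayPt → ℤ) = 24 ∧ Cfsg.dotInt (w : Cfsg.GolayPt → ℤ) (x : Cfsg.GolayPt → ℤ) = -24} ∧ y ≠ x ∧ Cfsg.dotInt (x : Cfsg.GolayPt → ℤ) (y : Cfsg.GolayPt → ℤ) ≠ 8}.ncard = 77 ∧ ∀ y ∈ {x : ↥Cfsg.leechLattice | Cfsg.sqNorm (x : Cfsg.GolayPt → ℤ) = 32 ∧ Cfsg.dotInt (v : Cfsg.GolayPt → ℤ) (x : Cfsg.GolayPt → ℤ) = 24 ∧ Cfsg.dotInt (w : Cfsg.GolayPt → ℤ) (x : Cfsg.GolayPt → ℤ) = -24}, ∀ y' ∈ {x : ↥Cfsg.leechLattice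 | Cfsg.sqNorm (x : Cfsg.GolayPt → ℤ) = 32 ∧ Cfsg.dotInt (v : Cfsg.GolayPt → ℤ) (x : Cfsg.GolayPt → ℤ) = 24 ∧ Cfsg.dotInt (w : Cfsg.GolayPt → ℤ) (x : Cfsg.GolayPt → ℤ) = -24}, y ≠ x → y' ≠ x → (Cfsg.dotInt (x : Cfsg.GolayPt → ℤ) (y : Cfsg.GolayPt → ℤ) = 8 ↔ Cfsg.dotInt (x : Cfsg.GolayPt → ℤ) (y' : Cfsg.GolayPt → ℤ) = 8) → ∃ g : ↥Cfsg.Co0, g • v = v ∧ g • w = w ∧ g • x = x ∧ g • y = y' := by
  obtain ⟨k0, hkv, hkw⟩ := Lib.Leech.std_hs hv hw hvw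
  obtain ⟨g0, a1, a2, a3⟩ := Lib.Leech.hs_trans (y := k0 • x) (by rw [← hkv, ← hkw, Lib.Leech.smul_hsPts]; exact hx)
  obtain ⟨k, kv, kw, kx⟩ : ∃ k : ↥Co0, k • v = Lib.Leech.vFive ∧ k • w = Lib.Leech.fivePartner ∧ k • x = Lib.Leech.fourFour :=
    ⟨g0⁻¹ * k0, by rw [mul_smul, hkv, inv_smul_eq_iff, a1], by rw [mul_smul, hkw, inv_smul_eq_iff, a2],
      by rw [mul_smul, ← a3, inv_smul_smul]⟩
  have hmem : ∀ y : ↥leechLattice, (sqNorm (y : GolayPt → ℤ) = 32 ∧ dotInt (v : GolayPt → ℤ) (y : GolayPt → ℤ) = 24 ∧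
      dotInt (w : GolayPt → ℤ) (y : GolayPt → ℤ) = -24) ↔ k • y ∈ Lib.Leech.hsPts Lib.Leech.vFive Lib.Leech.fivePartner :=
    fun y => by rw [← kv, ← kw, Lib.Leech.smul_hsPts]; rfl
  have hdot := Lib.Leech.smul_dot_iff k kx
  refine ⟨(Lib.Leech.ncard_smul_set' k fun y => ?_).trans Lib.Leech.hs_near_ncard,
    (Lib.Leech.ncard_smul_set' k fun y => ?_).trans Lib.Leech.hs_far_ncard, fun y hy y' hy' hne hne' hiff => ?_⟩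
  · exact and_congr (hmem y) (by rw [hdot y])
  · exact and_congr (hmem y) (and_congr (not_congr (by rw [← kx, (MulAction.injective k).eq_iff])) (by rw [hdot y]))
  · obtain ⟨g, b1, b2, b3, b4⟩ := Lib.Leech.hs_sub_trans ((hmem y).1 hy)
      (fun e => hne (MulAction.injective k (e.trans kx.symm)))
    obtain ⟨g', b1', b2', b3', b4'⟩ := Lib.Leech.hs_sub_trans ((hmem y').1 hy')
      (fun e => hne' (MulAction.injective k (e.trans kx.symm)))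
    rw [hdot y, hdot y'] at hiff
    rw [if_congr hiff rfl rfl] at b4
    refine ⟨k⁻¹ * (g' * (g⁻¹ * k)), ?_, ?_, ?_, ?_⟩
    · rw [mul_smul, mul_smul, mul_smul, kv, inv_smul_eq_iff.2 b1.symm, b1', ← kv, inv_smul_smul]
    · rw [mul_smul, mul_smul, mul_smul, kw, inv_smul_eq_iff.2 b2.symm, b2', ← kw, inv_smul_smul]
    · rw [mul_smul, mul_smul, mul_smul, kx, inv_smul_eq_iff.2 b3.symm, b3', ← kx, inv_smul_smul]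
    · rw [mul_smul, mul_smul, mul_smul, inv_smul_eq_iff.2 b4.symm, b4', inv_smul_smul]

end Cfsg.Agent.S1584
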