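import Cfsg.Statements.S1585
import Cfsg.Agent.Lib.Leech.HigmanSims
-- import your own Cfsg.Agent.* helpers here

set_option autoImplicit false
open Cfsg

namespace Cfsg.Agent.S1585

/-- Two vectors of customary norm 6 with inner product −4 are exchanged by some automorphism of the lattice. -/
theorem result (v w : ↥Cfsg.leechLattice) (hv : Cfsg.sqNorm (v : Cfsg.GolayPt → ℤ) = 48) (hw : Cfsg.sqNorm (w : Cfsg.GolayPt → ℤ) = 48) (hvw : Cfsg.dotInt (v : Cfsg.GolayPt → ℤ) (w : Cfsg.GolayPt → ℤ) = -32) : ∃ g : ↥Cfsg.Co0, g • v = w ∧ g • w = v := by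
  obtain ⟨k, hkv, hkw⟩ := Lib.Leech.std_hs hv hw hvw
  obtain ⟨σ, hσ, h1, h2⟩ := Lib.Golay.M24_trans_pairs (p := none) (q := Lib.Golay.pt 0) (p' := Lib.Golay.pt 0) (q' := none)
    (by decide) (by decide)
  refine ⟨k⁻¹ * (Lib.Leech.negCo * Lib.Leech.permCo σ hσ * k), ?_, ?_⟩
  · rw [mul_smul, mul_smul, hkv, inv_smul_eq_iff, hkw]
    refine Subtype.ext (funext fun p => ?_)
    show -(if σ p = none then (5 : ℤ) else 1) = if p = Lib.Golay.pt 0 then -5 else -1
    by_cases hp : p = Lib.Golay.pt 0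
    · rw [hp, h2, if_pos rfl, if_pos rfl]
    · rw [if_neg hp, if_neg fun e => hp (σ.injective (e.trans h2.symm))]
  · rw [mul_smul, mul_smul, hkw, inv_smul_eq_iff, hkv]
    refine Subtype.ext (funext fun p => ?_)
    show -(if σ p = Lib.Golay.pt 0 then (-5 : ℤ) else -1) = if p = none then 5 else 1
    by_cases hp : p = none
    · rw [hp, h1, if_pos rfl, if_pos rfl, neg_neg]
    · rw [if_neg hp, if_neg fun e => hp (σ.injective (e.trans h1.symm)), neg_neg]

end Cfsg.Agent.S1585
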