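import Cfsg.Statements.S1587
-- import your own Cfsg.Agent.* helpers here

set_option autoImplicit false
open Matrix
open Cfsg

namespace Cfsg.Agent.S1587

/-- First step of the characterisation of the rank-24 lattice: in an even lattice without roots, norm-8 vectors congruent modulo 2 are equal, opposite or orthogonal. -/
theorem result (B : Matrix (Fin 24) (Fin 24) ℤ) (hsymm : B.IsSymm) (hpos : ∀ x : Fin 24 → ℤ, x ≠ 0 → 0 < x ⬝ᵥ (B *ᵥ x)) (heven : ∀ x : Fin 24 → ℤ, (2 : ℤ) ∣ x ⬝ᵥ (B *ᵥ x)) (h2 : ∀ x : Fin 24 → ℤ, x ⬝ᵥ (B *ᵥ x) ≠ 2) (x y : Fin 24 → ℤ) (hx : x ⬝ᵥ (B *ᵥ x) = 8) (hy : y ⬝ᵥ (B *ᵥ y) = 8) (hc : ∀ i, (2 : ℤ) ∣ (x - y) i) : y = x ∨ y = -x ∨ x ⬝ᵥ (B *ᵥ y) = 0 := by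
  choose z hz using hc
  have hzd : x - y = (2 : ℤ) • z := funext fun i => by simpa using hz i
  have hsy : ∀ a b : Fin 24 → ℤ, a ⬝ᵥ (B *ᵥ b) = b ⬝ᵥ (B *ᵥ a) := fun a b => by
    rw [Matrix.dotProduct_mulVec, dotProduct_comm, ← Matrix.mulVec_transpose, hsymm.eq]
  have hmin : ∀ a : Fin 24 → ℤ, a ≠ 0 → 4 ≤ a ⬝ᵥ (B *ᵥ a) := fun a ha => by
    have := hpos a ha; have := heven a; have := h2 a; omega
  by_cases h1 : z = 0
  · left; rw [h1, smul_zero, sub_eq_zero] at hzd; exact hzd.symm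
  by_cases h3 : z + y = 0
  · right; left
    funext i
    have a := congrFun hzd i
    have b := congrFun h3 i
    simp only [Pi.sub_apply, Pi.smul_apply, smul_eq_mul, Pi.add_apply, Pi.zero_apply, Pi.neg_apply] at a b ⊢
    omega
  right; right
  have e1 : x = y + (2 : ℤ) • z := by rw [← hzd]; abel
  have q1 := hmin z h1
  have q2 := hmin _ h3
  rw [e1] at hx ⊢
  simp only [Matrix.mulVec_add, Matrix.mulVec_smul, dotProduct_add, add_dotProduct, dotProduct_smul, smul_dotProduct,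
    smul_eq_mul] at hx q2 ⊢
  rw [hsy z y] at hx q2 ⊢
  omega

end Cfsg.Agent.S1587
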