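import Cfsg.Statements.S1589
import Cfsg.Agent.Lib.Golay.M24Index
import Cfsg.Agent.Lib.Golay.Maximal

set_option autoImplicit false
open scoped Pointwise
open Cfsg

namespace Cfsg.Agent.S1589

theorem index_orbit {α : Type*} [MulAction (Equiv.Perm Cfsg.GolayPt) α] {H : Subgroup Cfsg.M24}
    {a : α} {X : Set α} (h1 : ∀ σ ∈ Cfsg.M24, σ • a ∈ X) (h2 : ∀ b ∈ X, ∃ σ ∈ Cfsg.M24, σ • a = b)
    (hinv : ∀ g ∈ H.map Cfsg.M24.subtype, g • a = a) (hn : H.index = X.ncard) :
    H = MulAction.stabilizer Cfsg.M24 a := by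
  have hle : H ≤ MulAction.stabilizer Cfsg.M24 a := fun g hg =>
    hinv _ (Subgroup.mem_map_of_mem _ hg)
  refine Subgroup.eq_of_le_of_card_ge hle (le_of_eq ?_)
  have h := (MulAction.stabilizer Cfsg.M24 a).card_mul_index
  rw [MulAction.index_stabilizer, Lib.Golay.orbit_M24_eq h1 h2, ← hn, ← H.card_mul_index] at h
  exact Nat.eq_of_mul_eq_mul_right (Nat.pos_of_ne_zero Subgroup.index_ne_zero_of_finite) h

/-- Subgroups of the group of the length-24 code of index 759, 276 and 1771 are exactly the octad, duad and sextet stabilisers, and no subgroup has index 253. -/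
theorem result : (∀ H : Subgroup ↥Cfsg.M24, H.index = 759 → ∃ o ∈ Cfsg.octads, H = MulAction.stabilizer Cfsg.M24 o) ∧ (∀ H : Subgroup ↥Cfsg.M24, H.index = 276 → ∃ s : Finset Cfsg.GolayPt, s.card = 2 ∧ H = MulAction.stabilizer Cfsg.M24 s) ∧ (∀ H : Subgroup ↥Cfsg.M24, H.index = 1771 → ∃ S ∈ Cfsg.sextets, H = MulAction.stabilizer Cfsg.M24 S) ∧ ∀ H : Subgroup ↥Cfsg.M24, H.index ≠ 253 := by
  classical
  have hcard : ∀ (H : Subgroup Cfsg.M24) (n : ℕ), H.index = n →
      H.map Cfsg.M24.subtype ≤ Cfsg.M24 ∧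
        Nat.card (H.map Cfsg.M24.subtype) * n = 244823040 := by
    intro H n hn
    refine ⟨Subgroup.map_subtype_le H, ?_⟩
    rw [Subgroup.card_map_of_injective Subtype.val_injective, ← hn, H.card_mul_index,
      Lib.Golay.M24_card]
  refine ⟨fun H hn => ?_, fun H hn => ?_, fun H hn => ?_, fun H hn => ?_⟩
  · obtain ⟨hle, hc⟩ := hcard H 759 hn
    obtain ⟨o, ho, hinv⟩ := Lib.Golay.index_759 hle (by omega)
    exact ⟨o, ho, index_orbit (fun σ hσ => Lib.Golay.smul_mem_octads hσ ho)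
      (fun b hb => Lib.Golay.M24_trans_octads ho hb) hinv (hn.trans Lib.Golay.octads_ncard.symm)⟩
  · obtain ⟨hle, hc⟩ := hcard H 276 hn
    obtain ⟨s, hs, hinv⟩ := Lib.Golay.index_276 hle (by omega)
    refine ⟨s, hs, index_orbit (X := {b : Finset Cfsg.GolayPt | b.card = 2})
      (fun σ _ => by simpa using hs)
      (fun b hb => Lib.Golay.M24_trans_sets (by omega) (hs.trans (Eq.symm hb))) hinv ?_⟩
    rw [hn, show {b : Finset Cfsg.GolayPt | b.card = 2} =
      ↑((Finset.univ : Finset Cfsg.GolayPt).powersetCard 2) by ext b; simp,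
      Set.ncard_coe_finset, Finset.card_powersetCard, Finset.card_univ]
    rfl
  · obtain ⟨hle, hc⟩ := hcard H 1771 hn
    obtain ⟨S, hS, hinv⟩ := Lib.Golay.index_1771 hle (by omega)
    exact ⟨S, hS, index_orbit (fun σ hσ => Lib.Golay.smul_mem_sextets hσ hS)
      (fun b hb => Lib.Golay.M24_trans_sextets hS hb) hinv (hn.trans Lib.Golay.sextets_ncard.symm)⟩
  · obtain ⟨hle, hc⟩ := hcard H 253 hn
    exact Lib.Golay.index_253_false hle (by omega)

end Cfsg.Agent.S1589
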