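import Cfsg.Statements.S1590
import Cfsg.Agent.Lib.Golay.Ternary

set_option autoImplicit false
open Cfsg
open Cfsg.Agent.Lib.Golay

namespace Cfsg.Agent.S1590

/-- The length-12 ternary code has 729 words with weight distribution 0^1 6^264 9^440 12^24. -/
theorem result : Nat.card ↥Cfsg.ternaryGolayCode = 729 ∧ (∀ x ∈ Cfsg.ternaryGolayCode, x ≠ 0 → (Cfsg.ternarySupport x).card = 6 ∨ (Cfsg.ternarySupport x).card = 9 ∨ (Cfsg.ternarySupport x).card = 12) ∧ {x : Cfsg.ArrayPt → ZMod 3 | x ∈ Cfsg.ternaryGolayCode ∧ (Cfsg.ternarySupport x).card = 6}.ncard = 264 ∧ {x : Cfsg.ArrayPt → ZMod 3 | x ∈ Cfsg.ternaryGolayCode ∧ (Cfsg.ternarySupport x).card = 9}.ncard = 440 ∧ {x : Cfsg.ArrayPt → ZMod 3 | x ∈ Cfsg.ternaryGolayCode ∧ (Cfsg.ternarySupport x).card = 12}.ncard = 24 := by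
  refine ⟨?_, fun x hx hne => ?_, ?_, ?_, ?_⟩
  · rw [show Nat.card ↥ternaryGolayCode = Nat.card (Fin 6 → ZMod 3) from
      (Nat.card_congr (Equiv.ofBijective (fun f => (⟨tEnc f, tEnc_mem f⟩ : ternaryGolayCode))
        ⟨fun a b h => tEnc_injective (congrArg Subtype.val h),
          fun x => (tcode_eq.1 x.2).imp fun f hf => Subtype.ext hf⟩)).symm]
    simp [Nat.card_eq_fintype_card, ZMod.card]
  · obtain ⟨f, rfl⟩ := tcode_eq.1 hx
    refine tWeights f fun h => hne ?_
    subst h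
    funext p
    simp [tEnc]
  · rw [tcode_ncard (fun x => (ternarySupport x).card = 6)]; exact tcount.1
  · rw [tcode_ncard (fun x => (ternarySupport x).card = 9)]; exact tcount.2.1
  · rw [tcode_ncard (fun x => (ternarySupport x).card = 12)]; exact tcount.2.2

end Cfsg.Agent.S1590
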