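import Cfsg.Statements.S1593
import Cfsg.Agent.Lib.Golay.Ternary

set_option autoImplicit false
open Cfsg
open Cfsg.Agent.Lib.Golay

namespace Cfsg.Agent.S1593

set_option maxRecDepth 100000

theorem pair_cover : ∀ p q : ArrayPt, ∃ f : Fin 6 → ZMod 3,
    (ternarySupport (tEnc f)).card = 6 ∧ p ∈ ternarySupport (tEnc f) ∧
      q ∈ ternarySupport (tEnc f) := by decide +kernel

/-- The only sign changes preserving the length-12 ternary code are the identity and negation of all coordinates. -/
theorem result (c : Cfsg.ArrayPt → (ZMod 3)ˣ) (h : (∀ x ∈ Cfsg.ternaryGolayCode, Cfsg.monomialMap 1 c x ∈ Cfsg.ternaryGolayCode)) : (∀ p, c p = 1) ∨ (∀ p, c p = -1) := by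
  have key : ∀ p q : ArrayPt, c p = c q := by
    intro p q
    obtain ⟨f, h6, hp, hq⟩ := pair_cover p q
    by_contra hne
    set x := tEnc f with hx
    have hxc : x ∈ ternaryGolayCode := tEnc_mem f
    have hcx := h x hxc
    have hu : ∀ u : (ZMod 3)ˣ, (u : ZMod 3) = 1 ∨ (u : ZMod 3) = -1 := by decide
    set A := (ternarySupport x).filter fun r => (c r : ZMod 3) = 1 with hA
    set B := (ternarySupport x).filter fun r => ¬ (c r : ZMod 3) = 1 with hB
    have hAB : A.card + B.card = 6 := by
      rw [hA, hB, Finset.card_filter_add_card_filter_not, h6]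
    have t1 : ∀ u z : ZMod 3, u = 1 ∨ u = -1 → (u * z + z ≠ 0 ↔ z ≠ 0 ∧ u = 1) ∧
        (u * z - z ≠ 0 ↔ z ≠ 0 ∧ ¬ u = 1) := by decide
    have s1 : ternarySupport (monomialMap 1 c x + x) = A := by
      ext r
      simp only [hA, ternarySupport, Finset.mem_filter, Finset.mem_univ, true_and]
      simpa [monomialMap, Equiv.Perm.one_symm] using (t1 _ (x r) (hu (c r))).1
    have s2 : ternarySupport (monomialMap 1 c x - x) = B := by
      ext r
      simp only [hB, ternarySupport, Finset.mem_filter, Finset.mem_univ, true_and]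
      simpa [monomialMap, Equiv.Perm.one_symm] using (t1 _ (x r) (hu (c r))).2
    have small : ∀ y ∈ ternaryGolayCode, (ternarySupport y).card < 6 → y = 0 := by
      intro y hy hlt
      obtain ⟨g, rfl⟩ := tcode_eq.1 hy
      by_contra hne0
      have hg : g ≠ 0 := fun e => hne0 (by subst e; funext r; simp [tEnc])
      rcases tWeights g hg with w | w | w <;> omega
    have hval : (c p : ZMod 3) ≠ (c q : ZMod 3) := fun e => hne (Units.ext e)
    have hpA : p ∈ A ∨ q ∈ A := by
      rcases hu (c p) with e | e <;> rcases hu (c q) with e' | e'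
      · exact Or.inl (Finset.mem_filter.2 ⟨hp, e⟩)
      · exact Or.inl (Finset.mem_filter.2 ⟨hp, e⟩)
      · exact Or.inr (Finset.mem_filter.2 ⟨hq, e'⟩)
      · exact absurd (e.trans e'.symm) hval
    have hpB : p ∈ B ∨ q ∈ B := by
      rcases hu (c p) with e | e <;> rcases hu (c q) with e' | e'
      · exact absurd (e.trans e'.symm) hval
      · exact Or.inr (Finset.mem_filter.2 ⟨hq, by rw [e']; decide⟩)
      · exact Or.inl (Finset.mem_filter.2 ⟨hp, by rw [e]; decide⟩)
      · exact absurd (e.trans e'.symm) hval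
    have hA0 : 0 < A.card := by rcases hpA with e | e <;> exact Finset.card_pos.2 ⟨_, e⟩
    have hB0 : 0 < B.card := by rcases hpB with e | e <;> exact Finset.card_pos.2 ⟨_, e⟩
    have hz : ternarySupport (0 : ArrayPt → ZMod 3) = ∅ := by simp [ternarySupport]
    rcases Nat.lt_or_ge A.card 6 with hlt | hge
    · have := small _ (ternaryGolayCode.add_mem hcx hxc) (by rw [s1]; exact hlt)
      rw [this, hz] at s1
      rw [← s1, Finset.card_empty] at hA0
      omega
    · omega
  rcases (show ∀ u : (ZMod 3)ˣ, u = 1 ∨ u = -1 by decide) (c (0, 0)) with e | e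
  · exact Or.inl fun p => (key p (0, 0)).trans e
  · exact Or.inr fun p => (key p (0, 0)).trans e

end Cfsg.Agent.S1593
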