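import Cfsg.Statements.S1595
import Cfsg.Agent.Lib.Steiner.Mathieu

set_option autoImplicit false
open Cfsg

namespace Cfsg.Agent.S1595

/-- Leech triangle of S(5, 6, 12): blocks meet in 0, 2, 3 or 4 points, and a block is met exactly in a given 2-, 3- or 4-subset by 3, 2, 3 blocks respectively. -/
theorem result {α : Type*} [Fintype α] [DecidableEq α] (hα : Fintype.card α = 12) {B : Set (Finset α)} (hB : Cfsg.IsSteinerSystem 5 6 B) (b : Finset α) (hb : b ∈ B) : (∀ c ∈ B, c ≠ b → (b ∩ c).card = 0 ∨ (b ∩ c).card = 2 ∨ (b ∩ c).card = 3 ∨ (b ∩ c).card = 4) ∧ ∀ s ⊆ b, (s.card = 2 → {c : Finset α | c ∈ B ∧ b ∩ c = s}.ncard = 3) ∧ (s.card = 3 → {c : Finset α | c ∈ B ∧ b ∩ c = s}.ncard = 2) ∧ (s.card = 4 → {c : Finset α | c ∈ B ∧ b ∩ c = s}.ncard = 3) := by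
  classical
  open Lib.Steiner in
  have hm := meet12 hα hB hb
  open Lib.Steiner in
  have h0 := distribution' hB hb (i := 0) (lam := 132) (by norm_num) (by norm_num) (by rw [hα]; decide)
  open Lib.Steiner in
  have h1 := distribution' hB hb (i := 1) (lam := 66) (by norm_num) (by norm_num) (by rw [hα]; decide)
  open Lib.Steiner in
  have h2 := distribution' hB hb (i := 2) (lam := 30) (by norm_num) (by norm_num) (by rw [hα]; decide)
  open Lib.Steiner in
  have h3 := distribution' hB hb (i := 3) (lam := 12) (by norm_num) (by norm_num) (by rw [hα]; decide)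
  open Lib.Steiner in
  have h4 := distribution' hB hb (i := 4) (lam := 4) (by norm_num) (by norm_num) (by rw [hα]; decide)
  simp only [Finset.sum_range_succ, Finset.sum_range_zero] at h0 h1 h2 h3 h4
  norm_num [Nat.choose] at h0 h1 h2 h3 h4
  refine ⟨fun c hc hcb => ?_, fun s hsb => ?_⟩
  · have hlt := Lib.Steiner.inter_lt hB hb hc (Ne.symm hcb)
    have hpos := Lib.Steiner.meetCard_pos (B := B) hc (Ne.symm hcb)
    generalize (b ∩ c).card = n at *
    interval_cases n <;> omega
  · have hset : ∀ t : Finset α, t.card < 6 → {c : Finset α | c ∈ B ∧ b ∩ c = t}.ncard =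
        (((Lib.Steiner.blocks B).erase b).filter fun c => b ∩ c = t).card := by
      intro t ht
      rw [← Set.ncard_coe_finset]
      congr 1
      ext c
      simp only [Finset.coe_filter, Finset.mem_erase, Lib.Steiner.mem_blocks, Set.mem_setOf_eq]
      constructor
      · rintro ⟨hc, he⟩
        refine ⟨⟨fun e => ?_, hc⟩, he⟩
        rw [e, Finset.inter_self] at he
        rw [← he, hB.1 b hb] at ht
        omega
      · exact fun h => ⟨h.1.2, h.2⟩
    set E : Finset α → ℕ := fun t =>
      (((Lib.Steiner.blocks B).erase b).filter fun c => b ∩ c = t).card with hE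
    have key : ∀ t ⊆ b, t.card ≤ 4 → ∀ lam : ℕ,
        lam * Nat.choose (6 - t.card) (5 - t.card) = Nat.choose (12 - t.card) (5 - t.card) →
        ∑ j ∈ Finset.range (6 - t.card + 1),
          ∑ u ∈ (b \ t).powersetCard j, E (t ∪ u) = lam - 1 := by
      intro t htb ht lam hlam
      have hthr := Lib.Steiner.through_eq hB (s := t) rfl (by omega) (by norm_num)
        (lam := lam) (by rw [hα]; exact hlam)
      have hsd : (b \ t).card = 6 - t.card := by rw [Finset.card_sdiff_of_subset htb, hB.1 b hb]
      rw [← hsd, ← Finset.sum_powerset (s := b \ t) (fun u => E (t ∪ u))]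
      have hb' : b ∈ (Lib.Steiner.blocks B).filter fun c => t ⊆ c :=
        Finset.mem_filter.2 ⟨Lib.Steiner.mem_blocks.2 hb, htb⟩
      rw [← hthr, ← Finset.card_erase_of_mem hb']
      rw [Finset.card_eq_sum_card_fiberwise (f := fun c => (b ∩ c) \ t) (t := (b \ t).powerset)
        (fun c _ => Finset.mem_powerset.2 (Finset.sdiff_subset_sdiff Finset.inter_subset_left le_rfl))]
      refine Finset.sum_congr rfl fun u hu => ?_
      rw [Finset.mem_powerset] at hu
      simp only [hE]
      congr 1
      ext c
      simp only [Finset.mem_filter, Finset.mem_erase, Lib.Steiner.mem_blocks]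
      constructor
      · rintro ⟨⟨hne, hc⟩, he⟩
        have htc : t ⊆ c := fun x hx => (Finset.mem_inter.1 (he.symm ▸ Finset.mem_union_left u hx :
          x ∈ b ∩ c)).2
        refine ⟨⟨hne, hc, htc⟩, ?_⟩
        rw [he, Finset.union_sdiff_left, Finset.sdiff_eq_self_of_disjoint]
        exact Finset.disjoint_of_subset_left hu Finset.sdiff_disjoint
      · rintro ⟨⟨hne, hc, htc⟩, he⟩
        refine ⟨⟨hne, hc⟩, ?_⟩
        rw [← he, Finset.union_sdiff_of_subset (Finset.subset_inter htb htc)]
    have hbig : ∀ t : Finset α, 5 ≤ t.card → E t = 0 := by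
      intro t ht
      rw [hE, Finset.card_eq_zero, Finset.filter_eq_empty_iff]
      intro c hc he
      simp only [Finset.mem_erase, Lib.Steiner.mem_blocks] at hc
      exact hc.1 (Lib.Steiner.eq_of_common hB hb hc.2 (by rw [he]; exact ht)).symm
    have hun : ∀ t : Finset α, ∀ j, ∀ u ∈ (b \ t).powersetCard j,
        t ∪ u ⊆ b → (t ∪ u).card = t.card + j := by
      intro t j u hu _
      rw [Finset.mem_powersetCard] at hu
      rw [Finset.card_union_of_disjoint (Finset.disjoint_of_subset_right hu.1 Finset.disjoint_sdiff), hu.2]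
    have hsub : ∀ t ⊆ b, ∀ j, ∀ u ∈ (b \ t).powersetCard j, t ∪ u ⊆ b := fun t ht j u hu =>
      Finset.union_subset ht ((Finset.mem_powersetCard.1 hu).1.trans Finset.sdiff_subset)
    have hlevel : ∀ t ⊆ b, ∀ j v : ℕ, (∀ w ⊆ b, w.card = t.card + j → E w = v) →
        ∑ u ∈ (b \ t).powersetCard j, E (t ∪ u) = Nat.choose (6 - t.card) j * v := by
      intro t ht j v hv
      rw [Finset.sum_congr rfl (g := fun _ => v) fun u hu =>
        hv _ (hsub t ht j u hu) (hun t j u hu (hsub t ht j u hu))]
      rw [Finset.sum_const, Finset.card_powersetCard, Finset.card_sdiff_of_subset ht, hB.1 b hb,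
        smul_eq_mul]
    have e4 : ∀ w ⊆ b, w.card = 4 → E w = 3 := by
      intro w hw hc
      have h := key w hw (by omega) 4 (by rw [hc]; decide)
      rw [hc] at h
      simp only [Nat.reduceSub, Nat.reduceAdd, Finset.sum_range_succ, Finset.sum_range_zero] at h
      rw [hlevel w hw 1 0 fun x _ hx => hbig x (by omega),
        hlevel w hw 2 0 fun x _ hx => hbig x (by omega)] at h
      simpa using h
    have e3 : ∀ w ⊆ b, w.card = 3 → E w = 2 := by
      intro w hw hc
      have h := key w hw (by omega) 12 (by rw [hc]; decide)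
      rw [hc] at h
      simp only [Nat.reduceSub, Nat.reduceAdd, Finset.sum_range_succ, Finset.sum_range_zero] at h
      rw [hlevel w hw 1 3 fun x hxb hx => e4 x hxb (by omega),
        hlevel w hw 2 0 fun x _ hx => hbig x (by omega),
        hlevel w hw 3 0 fun x _ hx => hbig x (by omega)] at h
      simp [hc] at h
      omega
    have e2 : ∀ w ⊆ b, w.card = 2 → E w = 3 := by
      intro w hw hc
      have h := key w hw (by omega) 30 (by rw [hc]; decide)
      rw [hc] at h
      simp only [Nat.reduceSub, Nat.reduceAdd, Finset.sum_range_succ, Finset.sum_range_zero] at h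
      rw [hlevel w hw 1 2 fun x hxb hx => e3 x hxb (by omega),
        hlevel w hw 2 3 fun x hxb hx => e4 x hxb (by omega),
        hlevel w hw 3 0 fun x _ hx => hbig x (by omega),
        hlevel w hw 4 0 fun x _ hx => hbig x (by omega)] at h
      norm_num [hc, Nat.choose] at h
      omega
    exact ⟨fun h => (hset s (by omega)).trans (e2 s hsb h),
      fun h => (hset s (by omega)).trans (e3 s hsb h),
      fun h => (hset s (by omega)).trans (e4 s hsb h)⟩

end Cfsg.Agent.S1595
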