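import Cfsg.Statements.S1596
import Cfsg.Agent.Lib.Golay.Quartets

set_option autoImplicit false
open scoped Pointwise
open Cfsg
open Cfsg.Agent.Lib.Golay

namespace Cfsg.Agent.S1596

/-- A quartet of a dodecad is determined by any two of its triples: two disjoint triples uniting to a hexad extend to exactly one quartet. -/
theorem result (d : Finset Cfsg.GolayPt) (hd : d ∈ Cfsg.dodecads) (t u : Finset Cfsg.GolayPt) (ht : t.card = 3) (hu : u.card = 3) (htu : Disjoint t u) (hh : t ∪ u ∈ Cfsg.hexadsOn d) : ∃! Q : Finset (Finset Cfsg.GolayPt), Q ∈ Cfsg.quartets d ∧ t ∈ Q ∧ u ∈ Q := by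
  obtain ⟨Q, hQ, h1, h2⟩ := quartets_exists hd ht hu htu hh
  have hne : t ≠ u := by
    intro e
    subst e
    rw [disjoint_self] at htu
    subst htu
    simp at ht
  exact ⟨Q, ⟨hQ, h1, h2⟩, fun B hB => quart_unique hd hB.1 hQ hB.2.1 hB.2.2 h1 h2 hne⟩

end Cfsg.Agent.S1596
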