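import Cfsg.Statements.S1599
import Cfsg.Agent.Lib.Golay.QuartOrbits

set_option autoImplicit false
open scoped Pointwise
open Cfsg
open Cfsg.Agent.Lib.Golay

namespace Cfsg.Agent.S1599

/-- A quartet stabiliser has five orbits on the quartets of its dodecad, of sizes 1, 12, 27, 72, 108. -/
theorem result (d : Finset Cfsg.GolayPt) (hd : d ∈ Cfsg.dodecads) (Q : Finset (Finset Cfsg.GolayPt)) (hQ : Q ∈ Cfsg.quartets d) : ∃ X₁ ∈ Cfsg.quartets d, ∃ X₂ ∈ Cfsg.quartets d, ∃ X₃ ∈ Cfsg.quartets d, ∃ X₄ ∈ Cfsg.quartets d, (MulAction.orbit ↥(MulAction.stabilizer Cfsg.M24 d ⊓ MulAction.stabilizer Cfsg.M24 Q) X₁).ncard = 12 ∧ (MulAction.orbit ↥(MulAction.stabilizer Cfsg.M24 d ⊓ MulAction.stabilizer Cfsg.M24 Q) X₂).ncard = 27 ∧ (MulAction.orbit ↥(MulAction.stabilizer Cfsg.M24 d ⊓ MulAction.stabilizer Cfsg.M24 Q) X₃).ncard = 72 ∧ (MulAction.orbit ↥(MulAction.stabilizer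 Cfsg.M24 d ⊓ MulAction.stabilizer Cfsg.M24 Q) X₄).ncard = 108 ∧ Cfsg.quartets d = {Q} ∪ MulAction.orbit ↥(MulAction.stabilizer Cfsg.M24 d ⊓ MulAction.stabilizer Cfsg.M24 Q) X₁ ∪ MulAction.orbit ↥(MulAction.stabilizer Cfsg.M24 d ⊓ MulAction.stabilizer Cfsg.M24 Q) X₂ ∪ MulAction.orbit ↥(MulAction.stabilizer Cfsg.M24 d ⊓ MulAction.stabilizer Cfsg.M24 Q) X₃ ∪ MulAction.orbit ↥(MulAction.stabilizer Cfsg.M24 d ⊓ MulAction.stabilizer Cfsg.M24 Q) X₄ := by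
  rw [stab_pair_eq]
  obtain ⟨Z1, hZ1, e1, n1⟩ := q_class q12_ok qSizes.1 hd hQ
  obtain ⟨Z2, hZ2, e2, n2⟩ := q_class q27_ok qSizes.2.1 hd hQ
  obtain ⟨Z3, hZ3, e3, n3⟩ := q_class q72_ok qSizes.2.2.1 hd hQ
  obtain ⟨Z4, hZ4, e4, n4⟩ := q_class q108_ok qSizes.2.2.2 hd hQ
  refine ⟨Z1, hZ1, Z2, hZ2, Z3, hZ3, Z4, hZ4, n1, n2, n3, n4, ?_⟩
  ext A
  simp only [e1, e2, e3, e4, Set.mem_union, Set.mem_ofPred_eq, Set.mem_singleton_iff]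
  constructor
  · intro hA
    obtain ⟨hk, hiff⟩ := q_kinds hd hQ hA
    simp only [List.mem_cons, List.not_mem_nil, or_false] at hk
    rw [← hiff]
    tauto
  · rintro ((((rfl | h) | h) | h) | h)
    · exact hQ
    all_goals exact h.1

end Cfsg.Agent.S1599
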