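import Cfsg.Statements.S1600
import Cfsg.Agent.Lib.Golay.Mathieu
import Cfsg.Agent.Lib.Golay.QuartData

set_option autoImplicit false
open scoped Pointwise
open Cfsg
open Cfsg.Agent.Lib.Golay

namespace Cfsg.Agent.S1600

theorem three_ok : (threeTs.all fun t => inM24 t && act t d0 == d0 && fixesMask 7 t) = true ∧
    keySet (fun t => img t 5) threeTs = FULL ^^^ d0 := by decide +kernel

theorem std_trans {x y : GolayPt} (hx : x ∉ toSet d0) (hy : y ∉ toSet d0) :
    ∃ g ∈ stSet (toSet d0), g (pt 0) = pt 0 ∧ g (pt 1) = pt 1 ∧ g (pt 2) = pt 2 ∧ g x = y := by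
  have key : ∀ z, z ∉ toSet d0 →
      ∃ g ∈ stSet (toSet d0) ⊓ fixingSubgroup (Equiv.Perm GolayPt) (toSet 7 : Set GolayPt),
        g (pt 5) = z := by
    intro z hz
    have hm : z ∈ toSet (FULL ^^^ d0) := by rw [toSet_compl, Finset.mem_compl]; exact hz
    rw [mem_toSet, ← three_ok.2, testBit_keySet] at hm
    obtain ⟨t, ht, he⟩ := hm
    have := List.all_eq_true.1 three_ok.1 t ht
    simp only [Bool.and_eq_true, beq_iff_eq] at this
    obtain ⟨⟨h1, h2⟩, h3⟩ := this
    have hv := valid_of_inM24 h1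
    exact ⟨toPerm t, ⟨⟨toPerm_mem_M24 h1, by
        show toPerm t • toSet d0 = toSet d0
        rw [smul_toSet hv, h2]⟩, (mem_fixingSubgroup_iff _).2 fun p hp => fixesMask_spec hv h3 hp⟩,
      by rw [toPerm_pt hv (by norm_num), he, pt_ix]⟩
  obtain ⟨g, hg, hgx⟩ := key x hx
  obtain ⟨k, hk, hky⟩ := key y hy
  have hm : k * g⁻¹ ∈ _ := mul_mem hk (inv_mem hg)
  have hf := (mem_fixingSubgroup_iff _).1 hm.2
  refine ⟨k * g⁻¹, hm.1, hf _ (by decide), hf _ (by decide), hf _ (by decide), ?_⟩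
  rw [← hgx, ← hky]; simp

/-- The pointwise stabiliser of three points of a dodecad inside the dodecad stabiliser (order 72) is transitive on the complementary dodecad. -/
theorem result (d : Finset Cfsg.GolayPt) (hd : d ∈ Cfsg.dodecads) (p q r : Cfsg.GolayPt) (hp : p ∈ d) (hq : q ∈ d) (hr : r ∈ d) (hpq : p ≠ q) (hpr : p ≠ r) (hqr : q ≠ r) : Nat.card ↥(MulAction.stabilizer Cfsg.M24 d ⊓ MulAction.stabilizer Cfsg.M24 p ⊓ MulAction.stabilizer Cfsg.M24 q ⊓ MulAction.stabilizer Cfsg.M24 r) = 72 ∧ ∀ x ∉ d, ∀ y ∉ d, ∃ g ∈ (MulAction.stabilizer Cfsg.M24 d ⊓ MulAction.stabilizer Cfsg.M24 p ⊓ MulAction.stabilizer Cfsg.M24 q ⊓ MulAction.stabilizer Cfsg.M24 r), ((g : ↥Cfsg.M24) : Equiv.Perm Cfsg.GolayPt) x = y := by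
  set J : Subgroup (Equiv.Perm GolayPt) := stSet d ⊓ MulAction.stabilizer (Equiv.Perm GolayPt)
    (![p, q, r] : Fin 3 → GolayPt) with hJ
  have hmemJ : ∀ g : Equiv.Perm GolayPt, g ∈ J ↔ g ∈ stSet d ∧ g p = p ∧ g q = q ∧ g r = r := by
    intro g
    simp [hJ, Subgroup.mem_inf, funext_iff, Fin.forall_fin_succ]
  have hinj : Function.Injective (![p, q, r] : Fin 3 → GolayPt) := by
    intro i j h; fin_cases i <;> fin_cases j <;> simp at h ⊢ <;> grind
  have hD : ∀ i, (![p, q, r] : Fin 3 → GolayPt) i ∈ d := by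
    intro i; fin_cases i <;> assumption
  have three : ∀ f : Fin 3 → GolayPt, Function.Injective f → (∀ i, f i ∈ d) →
      ∃ g ∈ stSet d, g • (![p, q, r] : Fin 3 → GolayPt) = f := by
    intro f hf hfd
    have hlift : ∀ h : Fin 3 → GolayPt, Function.Injective h → (∀ i, h i ∈ d) →
        ∃ z : Fin 5 → GolayPt, Function.Injective z ∧ (∀ i, z i ∈ d) ∧
          ∀ i : Fin 3, z (Fin.castLE (by norm_num) i) = h i := by
      intro h hh hhd
      obtain ⟨a, ha, b, hb, hab⟩ := Finset.one_lt_card.1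
        (show 1 < (d \ Finset.univ.image h).card by
          have := Finset.le_card_sdiff (Finset.univ.image h) d
          rw [dodecads_card hd, Finset.card_image_of_injective _ hh, Finset.card_univ,
            Fintype.card_fin] at this
          omega)
      simp only [Finset.mem_sdiff, Finset.mem_image, Finset.mem_univ, true_and, not_exists] at ha hb
      refine ⟨![h 0, h 1, h 2, a, b], ?_, ?_, fun i => by fin_cases i <;> rfl⟩
      · have h01 := hh.ne (show (0 : Fin 3) ≠ 1 by decide)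
        have h02 := hh.ne (show (0 : Fin 3) ≠ 2 by decide)
        have h12 := hh.ne (show (1 : Fin 3) ≠ 2 by decide)
        intro i j e; fin_cases i <;> fin_cases j <;> simp at e ⊢ <;> grind
      · intro i; fin_cases i <;> simp <;> first | exact hhd _ | exact ha.1 | exact hb.1
    obtain ⟨u, hu, hud, hue⟩ := hlift _ hinj hD
    obtain ⟨v, hv, hvd, hve⟩ := hlift _ hf hfd
    obtain ⟨g, hg, he⟩ := stSet_five hd u v hu hv hud hvd
    exact ⟨g, hg, funext fun i => by
      rw [Pi.smul_apply, Equiv.Perm.smul_def, ← hue, he, hve]⟩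
  have hcard : Nat.card J = 72 := by
    have h := card_eq_orbit_mul (stSet d) (![p, q, r] : Fin 3 → GolayPt)
      {f | Function.Injective f ∧ ∀ i, f i ∈ d}
      (fun σ hσ => ⟨σ.injective.comp hinj,
        fun i => apply_mem_of_smul (Subgroup.mem_inf.1 hσ).2 (hD i)⟩)
      (fun f hf => three f hf.1 hf.2)
    have hc : {f : Fin 3 → GolayPt | Function.Injective f ∧ ∀ i, f i ∈ d}.ncard = 1320 := by
      rw [← Nat.card_coe_set_eq]
      have e : {f : Fin 3 → GolayPt | Function.Injective f ∧ ∀ i, f i ∈ d} ≃ (Fin 3 ↪ d) :=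
        { toFun := fun f => ⟨fun i => ⟨f.1 i, f.2.2 i⟩,
            fun i j h => f.2.1 (congrArg Subtype.val h)⟩
          invFun := fun e => ⟨fun i => e i,
            fun i j h => e.injective (Subtype.ext h), fun i => (e i).2⟩
          left_inv := fun _ => rfl
          right_inv := fun _ => rfl }
      rw [Nat.card_congr e, Nat.card_eq_fintype_card, Fintype.card_embedding_eq, Fintype.card_coe,
        dodecads_card hd, Fintype.card_fin]
      rfl
    rw [stSet_dodecad_card hd, hc, ← hJ] at h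
    omega
  have hJeq : ∀ g : M24, g ∈ MulAction.stabilizer M24 d ⊓ MulAction.stabilizer M24 p ⊓
      MulAction.stabilizer M24 q ⊓ MulAction.stabilizer M24 r ↔ (g : Equiv.Perm GolayPt) ∈ J := by
    intro g
    simp [hmemJ, stSet, Subgroup.smul_def, and_assoc]
  refine ⟨?_, fun x hx y hy => ?_⟩
  · rw [← hcard]
    exact Nat.card_congr (subEquiv _ J (fun _ h => ((hmemJ _).1 h).1.1) hJeq).toEquiv
  · obtain ⟨σ, hσ, hσd⟩ := M24_trans_dodecads d0_dodecad hd
    have hin : ∀ z, z ∈ d → σ⁻¹ z ∈ toSet d0 := fun z hz => by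
      rw [← hσd, Finset.mem_smul_finset] at hz
      obtain ⟨w, hw, rfl⟩ := hz
      simpa using hw
    obtain ⟨τ, hτ, hτ'⟩ : ∃ τ ∈ stSet d, τ • (![p, q, r] : Fin 3 → GolayPt) =
        ![σ (pt 0), σ (pt 1), σ (pt 2)] := three _
      (by
        have h3 : pt 0 ≠ pt 1 ∧ pt 0 ≠ pt 2 ∧ pt 1 ≠ pt 2 := by decide
        intro i j e; fin_cases i <;> fin_cases j <;> simp at e ⊢ <;> grind)
      (by
        have h3 : pt 0 ∈ toSet d0 ∧ pt 1 ∈ toSet d0 ∧ pt 2 ∈ toSet d0 := by decide +kernel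
        intro i; rw [← hσd]; fin_cases i <;>
          first
            | exact Finset.smul_mem_smul_finset h3.1
            | exact Finset.smul_mem_smul_finset h3.2.1
            | exact Finset.smul_mem_smul_finset h3.2.2)
    have hτd : τ • d = d := (Subgroup.mem_inf.1 hτ).2
    have hout : ∀ z, z ∉ d → σ⁻¹ (τ z) ∉ toSet d0 := fun z hz hm => by
      apply hz
      have h1 : σ • σ⁻¹ (τ z) ∈ σ • toSet d0 := Finset.smul_mem_smul_finset hm
      rw [hσd, Equiv.Perm.smul_def] at h1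
      simp only [Equiv.Perm.coe_inv, Equiv.apply_symm_apply] at h1
      rw [← hτd, Finset.mem_smul_finset] at h1
      obtain ⟨w, hw, he⟩ := h1
      rwa [← τ.injective he]
    obtain ⟨g, hg, g0, g1, g2, gxy⟩ := std_trans (hout x hx) (hout y hy)
    set k := τ⁻¹ * (σ * g * σ⁻¹) * τ with hk
    have hkM : k ∈ stSet d := by
      have h1 : σ * g * σ⁻¹ ∈ stSet d := by rw [← hσd]; exact (stSet_conj hσ _ g).1 hg
      exact mul_mem (mul_mem (inv_mem hτ) h1) hτ
    have e0 : τ p = σ (pt 0) := congrFun hτ' 0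
    have e1 : τ q = σ (pt 1) := congrFun hτ' 1
    have e2 : τ r = σ (pt 2) := congrFun hτ' 2
    refine ⟨⟨k, (Subgroup.mem_inf.1 hkM).1⟩, (hJeq _).2 ((hmemJ _).2 ⟨hkM, ?_, ?_, ?_⟩), ?_⟩
    · simp [hk, e0, g0]; simp [← e0]
    · simp [hk, e1, g1]; simp [← e1]
    · simp [hk, e2, g2]; simp [← e2]
    · show k x = y
      simp only [hk, Equiv.Perm.mul_apply]; rw [gxy]; simp

end Cfsg.Agent.S1600
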