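import Cfsg.Statements.S1603
import Cfsg.Agent.Lib.Golay.M11Cent

set_option autoImplicit false
open scoped Pointwise
open Cfsg

namespace Cfsg.Agent.S1603

/-- Involution centralisers in the smallest Mathieu group are isomorphic to GL(2, 3). -/
theorem result (d : Finset Cfsg.GolayPt) (hd : d ∈ Cfsg.dodecads) (p : Cfsg.GolayPt) (hp : p ∈ d) (x : ↥(MulAction.stabilizer Cfsg.M24 d ⊓ MulAction.stabilizer Cfsg.M24 p)) (hx : orderOf x = 2) : Nonempty (↥(Subgroup.centralizer ({x} : Set ↥(MulAction.stabilizer Cfsg.M24 d ⊓ MulAction.stabilizer Cfsg.M24 p))) ≃* GL (Fin 2) (ZMod 3)) := by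
  classical
  let e := Lib.Golay.subEquiv (MulAction.stabilizer Cfsg.M24 d ⊓ MulAction.stabilizer Cfsg.M24 p)
    (Lib.Golay.stSetPt d p) (fun g h => h.1.1) fun g => by
      simp [Lib.Golay.stSetPt, Lib.Golay.stSet, Subgroup.smul_def]
  have hx' : orderOf (e x) = 2 := by
    rw [← hx]; exact orderOf_injective e.toMonoidHom e.injective x
  obtain ⟨f⟩ := Lib.Golay.m11_cent hd hp (e x) hx'
  exact ⟨({
    toFun := fun g => ⟨e g.1, Subgroup.mem_centralizer_singleton_iff.2 (by
      rw [← map_mul, ← map_mul, Subgroup.mem_centralizer_singleton_iff.1 g.2])⟩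
    invFun := fun g => ⟨e.symm g.1, Subgroup.mem_centralizer_singleton_iff.2 (e.injective (by
      rw [map_mul, map_mul, MulEquiv.apply_symm_apply,
        Subgroup.mem_centralizer_singleton_iff.1 g.2]))⟩
    left_inv := fun g => Subtype.ext (e.symm_apply_apply _)
    right_inv := fun g => Subtype.ext (e.apply_symm_apply _)
    map_mul' := fun g h => Subtype.ext (map_mul e _ _) } : _ ≃* _).trans f⟩

end Cfsg.Agent.S1603
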