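import Cfsg.Statements.S1604
import Cfsg.Agent.Lib.Golay.Counts
-- import your own Cfsg.Agent.* helpers here

set_option autoImplicit false
open scoped Pointwise
open Cfsg

namespace Cfsg.Agent.S1604

/-- A hexad stabiliser in the two-point stabiliser has orbits of sizes 1, 16, 60 on the 77 hexads: the 16 hexads disjoint from it and the 60 meeting it in two points. -/
theorem result (p q : Cfsg.GolayPt) (hpq : p ≠ q) (o o' o'' : Finset Cfsg.GolayPt) (ho : o ∈ Cfsg.octads) (ho' : o' ∈ Cfsg.octads) (ho'' : o'' ∈ Cfsg.octads) (hp : p ∈ o ∧ p ∈ o' ∧ p ∈ o'') (hq : q ∈ o ∧ q ∈ o' ∧ q ∈ o'') (h : (o ∩ o').card = (o ∩ o'').card) : {x : Finset Cfsg.GolayPt | x ∈ Cfsg.octads ∧ p ∈ x ∧ q ∈ x ∧ (o ∩ x).card = 2}.ncard = 16 ∧ {x : Finset Cfsg.GolayPt | x ∈ Cfsg.octads ∧ p ∈ x ∧ q ∈ x ∧ (o ∩ x).card = 4}.ncard = 60 ∧ ∃ g : Equiv.Perm Cfsg.GolayPt, g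 ∈ Cfsg.M24 ∧ g p = p ∧ g q = q ∧ g • o = o ∧ g • o' = o'' := by
  obtain ⟨c2, c4, -⟩ := Lib.Golay.flag_counts
  refine ⟨(Lib.Golay.pq_count hpq ho hp.1 hq.1 2).trans c2,
    (Lib.Golay.pq_count hpq ho hp.1 hq.1 4).trans c4, ?_⟩
  obtain ⟨σ, hσ, he, he'⟩ :=
    Lib.Golay.pq_octad_pairs hpq ho hp.1 hq.1 ho' ho'' hp.2.1 hq.2.1 hp.2.2 hq.2.2 h
  simp only [Prod.smul_mk, Prod.mk.injEq] at he
  exact ⟨σ, hσ, he.1, he.2.1, he.2.2, he'⟩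

end Cfsg.Agent.S1604
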