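import Cfsg.Statements.S1605
import Cfsg.Agent.Lib.Golay.Counts
-- import your own Cfsg.Agent.* helpers here

set_option autoImplicit false
open scoped Pointwise
open Cfsg

namespace Cfsg.Agent.S1605

/-- The two-point stabiliser acts on the 176 octads through the first point avoiding the second with rank 3 and subdegrees 1, 70, 105 (intersections 8, 2, 4). -/
theorem result (p q : Cfsg.GolayPt) (hpq : p ≠ q) : {x : Finset Cfsg.GolayPt | (x ∈ Cfsg.octads ∧ p ∈ x ∧ q ∉ x)}.ncard = 176 ∧ (∀ o o' : Finset Cfsg.GolayPt, (o ∈ Cfsg.octads ∧ p ∈ o ∧ q ∉ o) → (o' ∈ Cfsg.octads ∧ p ∈ o' ∧ q ∉ o') → ∃ g : Equiv.Perm Cfsg.GolayPt, g ∈ Cfsg.M24 ∧ g p = p ∧ g q = q ∧ g • o = o') ∧ ∀ o : Finset Cfsg.GolayPt, (o ∈ Cfsg.octads ∧ p ∈ o ∧ q ∉ o) → {x : Finset Cfsg.GolayPt | (x ∈ Cfsg.octads ∧ p ∈ x ∧ q ∉ x) ∧ (o ∩ x).card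 = 2}.ncard = 70 ∧ {x : Finset Cfsg.GolayPt | (x ∈ Cfsg.octads ∧ p ∈ x ∧ q ∉ x) ∧ (o ∩ x).card = 4}.ncard = 105 ∧ ∀ o' o'' : Finset Cfsg.GolayPt, (o' ∈ Cfsg.octads ∧ p ∈ o' ∧ q ∉ o') → (o'' ∈ Cfsg.octads ∧ p ∈ o'' ∧ q ∉ o'') → (o ∩ o').card = (o ∩ o'').card → ∃ g : Equiv.Perm Cfsg.GolayPt, g ∈ Cfsg.M24 ∧ g p = p ∧ g q = q ∧ g • o = o ∧ g • o' = o'' := by
  refine ⟨Lib.Golay.pnq_all_count hpq, fun o o' ho ho' => ?_, fun o ho => ?_⟩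
  · obtain ⟨σ, hσ, he, he'⟩ :=
      Lib.Golay.pnq_trans hpq ho.1 ho'.1 ho.2.1 ho.2.2 ho'.2.1 ho'.2.2
    simp only [Prod.smul_mk, Prod.mk.injEq] at he
    exact ⟨σ, hσ, he.1, he.2, he'⟩
  · obtain ⟨-, -, -, -, -, -, -, c2, c4⟩ := Lib.Golay.flag_counts
    refine ⟨(Lib.Golay.pnq_count hpq ho.1 ho.2.1 ho.2.2 2).trans c2,
      (Lib.Golay.pnq_count hpq ho.1 ho.2.1 ho.2.2 4).trans c4, fun o' o'' h' h'' h => ?_⟩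
    obtain ⟨σ, hσ, he, he'⟩ := Lib.Golay.pnq_octad_pairs hpq ho.1 ho.2.1 ho.2.2 h'.1 h''.1
      h'.2.1 h'.2.2 h''.2.1 h''.2.2 h
    simp only [Prod.smul_mk, Prod.mk.injEq] at he
    exact ⟨σ, hσ, he.1, he.2.1, he.2.2, he'⟩

end Cfsg.Agent.S1605
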