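import Cfsg.Statements.S1606
import Cfsg.Agent.Lib.Golay.M22Index
import Cfsg.Agent.Lib.Golay.Mathieu

set_option autoImplicit false
open scoped Pointwise
open Cfsg

namespace Cfsg.Agent.S1606

/-- The stabiliser of two points in the group of the length-24 code has no subgroups of index 56 or 210. -/
theorem result (p q : Cfsg.GolayPt) (hpq : p ≠ q) (H : Subgroup ↥(MulAction.stabilizer Cfsg.M24 p ⊓ MulAction.stabilizer Cfsg.M24 q)) : H.index ≠ 56 ∧ H.index ≠ 210 := by
  classical
  obtain ⟨σ, hσ, h1, h2⟩ := Lib.Golay.M24_trans_pairs hpq (by simp : (none : GolayPt) ≠ some 0)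
  have hconj : Lib.Golay.st2 p q ≃* Lib.Golay.st2 none (some 0) :=
    Lib.Golay.conjEquiv σ fun g => by rw [← h1, ← h2]; exact Lib.Golay.st2_conj hσ p q g
  let e := (Lib.Golay.stabPairEquiv p q).trans hconj
  rw [← Subgroup.index_map_equiv H e]
  exact Lib.Golay.sub_index_false _

end Cfsg.Agent.S1606
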