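import Cfsg.Statements.S1607
import Cfsg.Agent.Lib.Golay.Counts
-- import your own Cfsg.Agent.* helpers here

set_option autoImplicit false
open scoped Pointwise
open Cfsg

namespace Cfsg.Agent.S1607

/-- The point stabiliser acts on the 253 heptads of its S(4, 7, 23) with rank 3 and subdegrees 1, 112, 140 (intersections 8, 2, 4). -/
theorem result (x : Cfsg.GolayPt) (o : Finset Cfsg.GolayPt) (ho : o ∈ Cfsg.octads) (hx : x ∈ o) : {o' : Finset Cfsg.GolayPt | o' ∈ Cfsg.octads ∧ x ∈ o' ∧ (o ∩ o').card = 2}.ncard = 112 ∧ {o' : Finset Cfsg.GolayPt | o' ∈ Cfsg.octads ∧ x ∈ o' ∧ (o ∩ o').card = 4}.ncard = 140 ∧ ∀ o' o'' : Finset Cfsg.GolayPt, o' ∈ Cfsg.octads → o'' ∈ Cfsg.octads → x ∈ o' → x ∈ o'' → (o ∩ o').card = (o ∩ o'').card → ∃ g : Equiv.Perm Cfsg.GolayPt, g ∈ Cfsg.M24 ∧ g x = x ∧ g • o = o ∧ g • o' = o'' := by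
  obtain ⟨-, -, c2, c4, -⟩ := Lib.Golay.flag_counts
  refine ⟨(Lib.Golay.x_in_count ho hx 2).trans c2, (Lib.Golay.x_in_count ho hx 4).trans c4,
    fun o' o'' h1 h2 h3 h4 h => ?_⟩
  obtain ⟨σ, hσ, he, he'⟩ := Lib.Golay.x_in_octad_pairs ho hx h1 h2 h3 h4 h
  simp only [Prod.smul_mk, Prod.mk.injEq] at he
  exact ⟨σ, hσ, he.1, he.2, he'⟩

end Cfsg.Agent.S1607
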