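import Cfsg.Statements.S1609
import Cfsg.Agent.Lib.Golay.M23Index

set_option autoImplicit false
open scoped Pointwise
open Cfsg

namespace Cfsg.Agent.S1609

/-- Subgroups of index 253 in the Mathieu group of degree 23 are exactly the duad stabilisers and the heptad stabilisers. -/
theorem result (x : Cfsg.GolayPt) (H : Subgroup ↥(MulAction.stabilizer Cfsg.M24 x)) (hH : H.index = 253) : (∃ s : Finset Cfsg.GolayPt, s.card = 2 ∧ x ∉ s ∧ H = (MulAction.stabilizer Cfsg.M24 s).subgroupOf (MulAction.stabilizer Cfsg.M24 x)) ∨ ∃ o ∈ Cfsg.octads, x ∈ o ∧ H = (MulAction.stabilizer Cfsg.M24 o).subgroupOf (MulAction.stabilizer Cfsg.M24 x) := by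
  classical
  let e := Lib.Golay.stabPtEquiv x
  set K : Subgroup (Equiv.Perm GolayPt) := (H.map e.toMonoidHom).map (Lib.Golay.st1 x).subtype
  have hcoe : ∀ g, ((e g : Lib.Golay.st1 x) : Equiv.Perm GolayPt) = (g : M24) := fun g => rfl
  have hKle : K ≤ Lib.Golay.st1 x := Subgroup.map_subtype_le _
  have hKc : Nat.card K = 40320 := by
    rw [Subgroup.card_map_of_injective (Subgroup.subtype_injective _),
      Subgroup.card_map_of_injective e.injective]
    have h := H.card_mul_index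
    rw [hH, Nat.card_congr e.toEquiv, Lib.Golay.st1_card] at h
    omega
  have hmem : ∀ g, g ∈ H ↔ ((g : M24) : Equiv.Perm GolayPt) ∈ K := by
    intro g
    refine ⟨fun hg => ⟨e g, ⟨g, hg, rfl⟩, rfl⟩, ?_⟩
    rintro ⟨y, ⟨g', hg', rfl⟩, he⟩
    have : g' = g := Subtype.ext (Subtype.ext he)
    exact this ▸ hg'
  have finish : ∀ s : Finset GolayPt,
      Nat.card ↥(Lib.Golay.st1 x ⊓ MulAction.stabilizer (Equiv.Perm GolayPt) s) = 40320 →
      (∀ g ∈ K, g • s = s) →
      H = (MulAction.stabilizer M24 s).subgroupOf (MulAction.stabilizer M24 x) := by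
    intro s hs hinv
    have heq : K = Lib.Golay.st1 x ⊓ MulAction.stabilizer (Equiv.Perm GolayPt) s :=
      Subgroup.eq_of_le_of_card_ge (fun g hg => ⟨hKle hg, hinv g hg⟩) (by rw [hKc, hs])
    ext g
    rw [hmem, heq, Subgroup.mem_subgroupOf]
    exact ⟨fun h => h.2, fun h => ⟨(e g).2, h⟩⟩
  rcases Lib.Golay.index_253 hKle hKc with ⟨s, hs, hx, hinv⟩ | ⟨o, ho, hx, hinv⟩
  · exact Or.inl ⟨s, hs, hx, finish s (Lib.Golay.duad_stab_card hs hx) hinv⟩
  · exact Or.inr ⟨o, ho, hx, finish o (Lib.Golay.octad_pt_card ho hx) hinv⟩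

end Cfsg.Agent.S1609
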