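import Cfsg.Statements.S1610
import Cfsg.Agent.Lib.Golay.Hexacode

set_option autoImplicit false
open Cfsg
open Cfsg.Agent.Lib.Golay

namespace Cfsg.Agent.S1610

/-- The hexacode has 64 words, minimum weight 4, and weight distribution 0^1 4^45 6^18. -/
theorem result (F : Type*) [Field F] [Fintype F] [DecidableEq F] (hF : Fintype.card F = 4) (ω : F) (hω : ω ^ 2 + ω + 1 = 0) : Nat.card ↥(Cfsg.hexacode F ω) = 64 ∧ (∀ x ∈ Cfsg.hexacode F ω, x ≠ 0 → (Finset.univ.filter fun i => x i ≠ 0).card = 4 ∨ (Finset.univ.filter fun i => x i ≠ 0).card = 6) ∧ {x : Fin 6 → F | x ∈ Cfsg.hexacode F ω ∧ (Finset.univ.filter fun i => x i ≠ 0).card = 4}.ncard = 45 ∧ {x : Fin 6 → F | x ∈ Cfsg.hexacode F ω ∧ (Finset.univ.filter fun i => x i ≠ 0).card = 6}.ncard = 18 := by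
  refine ⟨?_, fun x hx hne => ?_, ?_, ?_⟩
  · rw [show Nat.card ↥(hexacode F ω) = Nat.card (Fin 3 → Fin 4) from
      (Nat.card_congr (Equiv.ofBijective
        (fun a => (⟨hexEnc ω a, (mem_hexacode hF hω).2 ⟨a, rfl⟩⟩ : hexacode F ω))
        ⟨fun a b h => hexEnc_inj hF hω (congrArg Subtype.val h),
          fun x => ((mem_hexacode hF hω).1 x.2).imp fun a ha => Subtype.ext ha⟩)).symm]
    simp [Nat.card_eq_fintype_card]
  · obtain ⟨a, rfl⟩ := (mem_hexacode hF hω).1 hx
    rw [hexEnc_wt hF hω]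
    refine hex_table a fun h => hne ?_
    subst h
    funext i
    have : hexWord (0 : Fin 3 → Fin 4) i = 0 := by revert i; decide
    simp [hexEnc, this, qVal]
  · rw [hexacode_ncard hF hω]; exact hex_counts.1
  · rw [hexacode_ncard hF hω]; exact hex_counts.2

end Cfsg.Agent.S1610
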