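import Cfsg.Statements.S1612
import Cfsg.Agent.Lib.Involution.FischerGroup

set_option autoImplicit false
open Cfsg

namespace Cfsg.Agent.S1612


open Cfsg.Agent.Lib.ThreeTransp in
theorem main {G : Type*} [Group G] [Finite G] (hsol : ∀ N : Subgroup G, N.Normal → Group.IsSolvable ↥N → N = ⊥)
    (hperf : ⁅commutator G, commutator G⁆ = commutator G) {D : Set G} (hD : Cfsg.IsThreeTranspositionClass D)
    {E : Set G} (hE : E ⊆ D) (hcE : ∀ a ∈ E, ∀ b ∈ E, Commute a b)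
    (hmax : ∀ E' : Set G, E' ⊆ D → (∀ a ∈ E', ∀ b ∈ E', Commute a b) → E'.ncard ≤ E.ncard) :
    (∃ P : Sylow 2 G, (P : Subgroup G) ≤ Subgroup.normalizer E) ∧
      ∀ a ∈ E, ∀ b ∈ E, ∀ c ∈ E, ∀ d ∈ E, a ≠ b → c ≠ d →
        ∃ g ∈ Subgroup.normalizer E, g * a * g⁻¹ = c ∧ g * b * g⁻¹ = d := by
  obtain ⟨hT, ⟨d₀, hd₀, hD₀⟩, hgen⟩ := id hD
  have hc : ∀ g : G, ∀ x ∈ D, g * x * g⁻¹ ∈ D := fun g x hx => by
    rw [hD₀] at hx ⊢; exact IsConj.trans hx (isConj_iff.mpr ⟨g, rfl⟩)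
  have hconj : ∀ a ∈ D, ∀ b ∈ D, ∃ g : G, g * a * g⁻¹ = b := fun a ha b hb => by
    rw [hD₀] at ha hb; exact isConj_iff.mp (ha.symm.trans hb)
  haveI : Fact (Nat.Prime 2) := ⟨Nat.prime_two⟩
  -- a 2-subgroup containing a set of commuting members
  have htwo : ∀ F : Set G, F ⊆ D → (∀ a ∈ F, ∀ b ∈ F, Commute a b) → IsPGroup 2 (Subgroup.closure F) := by
    intro F hF hFc
    haveI : IsMulCommutative (Subgroup.closure F) :=
      Subgroup.isMulCommutative_closure fun u hu v hv => hFc u hu v hv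
    have hsq : ∀ u : Subgroup.closure F, u * u = 1 := by
      rintro ⟨u, hu⟩
      induction hu using Subgroup.closure_induction with
      | mem v hv => exact Subtype.ext (mul_self (hT.1 v (hF hv)))
      | one => exact Subtype.ext (one_mul _)
      | mul v w hv hw ev ew =>
        show ((⟨v, hv⟩ : Subgroup.closure F) * ⟨w, hw⟩) * (⟨v, hv⟩ * ⟨w, hw⟩) = 1
        rw [Commute.mul_mul_mul_comm (mul_comm' _ _), ev, ew, one_mul]
      | inv v hv ev =>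
        show (⟨v, hv⟩ : Subgroup.closure F)⁻¹ * (⟨v, hv⟩ : Subgroup.closure F)⁻¹ = 1
        rw [← mul_inv_rev, ev, inv_one]
    intro u
    exact ⟨1, by rw [pow_one, pow_two, hsq]⟩
  -- the members inside a 2-subgroup containing a maximum set
  have hin : ∀ P : Subgroup G, IsPGroup 2 P → E ⊆ (P : Set G) → {u | u ∈ D ∧ u ∈ P} = E := by
    intro P hP hEP
    have hcom : ∀ u ∈ {u | u ∈ D ∧ u ∈ P}, ∀ v ∈ {u | u ∈ D ∧ u ∈ P}, Commute u v := by
      rintro u ⟨hu, huP⟩ v ⟨hv, hvP⟩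
      obtain ⟨k, hk⟩ := hP (⟨u, huP⟩ * ⟨v, hvP⟩)
      exact commute_of_two_pow hT hu hv (k := k) (by simpa using congrArg Subtype.val hk)
    have hsub : E ⊆ {u | u ∈ D ∧ u ∈ P} := fun u hu => ⟨hE hu, hEP hu⟩
    exact (Set.eq_of_subset_of_ncard_le hsub (hmax _ (fun _ h => h.1) hcom) (Set.toFinite _)).symm
  have hnorm : ∀ g : G, (fun u => g * u * g⁻¹) '' E ⊆ E → g ∈ Subgroup.normalizer E := by
    intro g hg
    have h : (fun u => g * u * g⁻¹) '' E = E := Set.eq_of_subset_of_ncard_le hg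
      (by rw [Set.ncard_image_of_injective _ (fun u v h => by simpa using h)]) (Set.toFinite _)
    show ∀ n, n ∈ E ↔ g * n * g⁻¹ ∈ E
    refine fun n => ⟨fun hn => hg ⟨n, hn, rfl⟩, fun hn => ?_⟩
    change g * n * g⁻¹ ∈ E at hn
    rw [← h] at hn
    obtain ⟨m, hm, hme⟩ := hn
    exact (show m = n by simpa using hme) ▸ hm
  obtain ⟨P, hP⟩ := (htwo E hE hcE).exists_le_sylow
  have hEP : E ⊆ (P : Set G) := fun u hu => hP (Subgroup.subset_closure hu)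
  refine ⟨⟨P, fun g hg => hnorm g ?_⟩, ?_⟩
  · rintro _ ⟨u, hu, rfl⟩
    rw [← hin P P.isPGroup' hEP]
    exact ⟨hc g u (hE hu), mul_mem (mul_mem hg (hEP hu)) (inv_mem hg)⟩
  intro a ha b hb c hcm d hd hab hcd
  obtain ⟨g₀, hg₀⟩ := hconj a (hE ha) c (hE hcm)
  have hb' : g₀ * b * g₀⁻¹ ∈ D ∧ g₀ * b * g₀⁻¹ ≠ c ∧ Commute c (g₀ * b * g₀⁻¹) :=
    ⟨hc g₀ b (hE hb), fun h => hab (by rw [← hg₀] at h; simpa using h.symm),
      hg₀ ▸ (commute_conj_iff g₀ a b).2 (hcE a ha b hb)⟩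
  obtain ⟨h₁, hh₁, hh₁b⟩ := Lib.Involution.FischerLocal.conj_of_reach hT
    (Lib.Involution.FischerLocal.fischer_reach hsol hperf hD (hE hcm) hb' ⟨hE hd, Ne.symm hcd, hcE c hcm d hd⟩)
  have hh₁c : Commute h₁ c := by
    have hle : Subgroup.closure {y : G | y ∈ D ∧ y ≠ c ∧ Commute c y} ≤ Subgroup.centralizer ({c} : Set G) :=
      (Subgroup.closure_le _).2 fun y hy => Subgroup.mem_centralizer_singleton_iff.2 hy.2.2.symm.eq
    exact Subgroup.mem_centralizer_singleton_iff.1 (hle hh₁)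
  set g := h₁ * g₀ with hg
  have hga : g * a * g⁻¹ = c := by
    rw [hg, show h₁ * g₀ * a * (h₁ * g₀)⁻¹ = h₁ * (g₀ * a * g₀⁻¹) * h₁⁻¹ by group, hg₀, hh₁c.eq,
      mul_inv_cancel_right]
  have hgb : g * b * g⁻¹ = d := by rw [← hh₁b, hg]; group
  set H := Subgroup.centralizer ({c, d} : Set G) with hH
  set E' := (fun u => g * u * g⁻¹) '' E with hE'
  have hE'D : E' ⊆ D := by rintro _ ⟨u, hu, rfl⟩; exact hc g u (hE hu)
  have hE'c : ∀ u ∈ E', ∀ v ∈ E', Commute u v := by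
    rintro _ ⟨u, hu, rfl⟩ _ ⟨v, hv, rfl⟩; exact (commute_conj_iff g u v).2 (hcE u hu v hv)
  have hEH : Subgroup.closure E ≤ H := (Subgroup.closure_le _).2 fun u hu =>
    Subgroup.mem_centralizer_iff.2 (by
      rintro v (rfl | rfl)
      · exact (hcE _ hcm u hu).eq
      · exact (hcE _ hd u hu).eq)
  have hE'H : Subgroup.closure E' ≤ H := (Subgroup.closure_le _).2 fun u hu =>
    Subgroup.mem_centralizer_iff.2 (by
      rintro v (rfl | rfl)
      · exact (hE'c _ ⟨a, ha, hga⟩ u hu).eq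
      · exact (hE'c _ ⟨b, hb, hgb⟩ u hu).eq)
  obtain ⟨S₁, hS₁⟩ := ((htwo E hE hcE).comap_subtype (K := H)).exists_le_sylow
  obtain ⟨S₂, hS₂⟩ := ((htwo E' hE'D hE'c).comap_subtype (K := H)).exists_le_sylow
  obtain ⟨h, hh⟩ := MulAction.exists_smul_eq H S₂ S₁
  have hfix : ∀ v ∈ ({c, d} : Set G), (h : G) * v * (h : G)⁻¹ = v := fun v hv => by
    rw [← Subgroup.mem_centralizer_iff.1 h.2 v hv, mul_inv_cancel_right]
  refine ⟨(h : G) * g, hnorm _ ?_, ?_, ?_⟩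
  · rintro _ ⟨u, hu, rfl⟩
    have hu' : g * u * g⁻¹ ∈ H := hE'H (Subgroup.subset_closure ⟨u, hu, rfl⟩)
    have h1 : h * ⟨_, hu'⟩ * h⁻¹ ∈ (S₁ : Subgroup H) := by
      rw [← hh]
      exact Subgroup.smul_mem_pointwise_smul _ (MulAut.conj h) (S₂ : Subgroup H)
        (hS₂ (Subgroup.subset_closure ⟨u, hu, rfl⟩))
    rw [← hin ((S₁ : Subgroup H).map H.subtype) (S₁.isPGroup'.map _)
      (fun v hv => ⟨⟨v, hEH (Subgroup.subset_closure hv)⟩, hS₁ (Subgroup.subset_closure hv), rfl⟩)]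
    exact ⟨hc _ u (hE hu), ⟨_, h1, by simp [mul_assoc]⟩⟩
  · rw [show (h : G) * g * a * ((h : G) * g)⁻¹ = (h : G) * (g * a * g⁻¹) * (h : G)⁻¹ by group, hga]
    exact hfix c (Or.inl rfl)
  · rw [show (h : G) * g * b * ((h : G) * g)⁻¹ = (h : G) * (g * b * g⁻¹) * (h : G)⁻¹ by group, hgb]
    exact hfix d (Or.inr rfl)

/-- In a 3-transposition group (no solvable normal subgroup, perfect derived group), the normaliser of a commuting set of transpositions of maximum size contains a Sylow 2-subgroup and is doubly transitive on the set. -/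
theorem result {G : Type*} [Group G] [Finite G] (hsol : ∀ N : Subgroup G, N.Normal → Group.IsSolvable ↥N → N = ⊥) (hperf : ⁅commutator G, commutator G⁆ = commutator G) {D : Set G} (hD : Cfsg.IsThreeTranspositionClass D) {E : Set G} (hE : E ⊆ D) (hc : ∀ a ∈ E, ∀ b ∈ E, Commute a b) (hmax : ∀ E' : Set G, E' ⊆ D → (∀ a ∈ E', ∀ b ∈ E', Commute a b) → E'.ncard ≤ E.ncard) : (∃ P : Sylow 2 G, (P : Subgroup G) ≤ Subgroup.normalizer E) ∧ ∀ a ∈ E, ∀ b ∈ E, ∀ c ∈ E, ∀ d ∈ E, a ≠ b → c ≠ d → ∃ g ∈ Subgroup.normalizer E, g * a * g⁻¹ = c ∧ g * b * g⁻¹ = d := by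
  exact main hsol hperf hD hE hc hmax

end Cfsg.Agent.S1612
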