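import Cfsg.Statements.S1618
import Cfsg.Agent.Lib.Fischer.OddProducts
-- import your own Cfsg.Agent.* helpers here

set_option autoImplicit false
open Cfsg

namespace Cfsg.Agent.S1618

/-- A group generated by a class of involutions whose pairwise products (of distinct members) have p-power order for a fixed odd prime p has nilpotent derived subgroup. -/
theorem result {G : Type*} [Group G] [Finite G] (p : ℕ) (hp : p.Prime) (hodd : p ≠ 2) {D : Set G} (hinv : ∀ d ∈ D, orderOf d = 2) (hconj : ∃ d ∈ D, D = conjugatesOf d) (hgen : Subgroup.closure D = ⊤) (hprod : ∀ x ∈ D, ∀ y ∈ D, x ≠ y → ∃ k : ℕ, orderOf (x * y) = p ^ k) : Group.IsNilpotent ↥(commutator G) := by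
  obtain ⟨d, hdD, rfl⟩ := hconj
  have hd := hinv d hdD
  have hpr : ∀ g : G, ∃ k : ℕ, orderOf (d * (g * d * g⁻¹)) = p ^ k := by
    intro g
    by_cases h : d = g * d * g⁻¹
    · exact ⟨0, by rw [← h, pow_zero, orderOf_eq_one_iff, ← pow_two, ← hd, pow_orderOf_eq_one]⟩
    · exact hprod d hdD _ (isConj_iff.mpr ⟨g, rfl⟩) h
  set N := Cfsg.pCore p G with hN
  have hNp : IsPGroup p N := Lib.Components.pCore_isPGroup p
  haveI : N.Normal := Subgroup.sSup_normal _ fun _ h => h.1
  have hall : ∀ x : G, (x : G ⧸ N) ∈ Subgroup.zpowers (d : G ⧸ N) := by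
    have hle : Subgroup.closure (conjugatesOf d) ≤
        (Subgroup.zpowers (d : G ⧸ N)).comap (QuotientGroup.mk' N) := by
      rw [Subgroup.closure_le]
      intro a ha
      have h1 := Lib.Fischer.mul_mem_pCore_of_pProducts hp hodd hd hpr mem_conjugatesOf_self ha
      have h2 : ((d * a : G) : G ⧸ N) = 1 := (QuotientGroup.eq_one_iff _).mpr h1
      rw [QuotientGroup.mk_mul, mul_eq_one_iff_inv_eq] at h2
      show (a : G ⧸ N) ∈ Subgroup.zpowers (d : G ⧸ N)
      rw [← h2]; exact inv_mem (Subgroup.mem_zpowers _)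
    intro x
    exact hle (hgen ▸ Subgroup.mem_top x)
  have hle : commutator G ≤ N := by
    rw [commutator_def, Subgroup.commutator_le]
    intro a _ b _
    obtain ⟨i, hi⟩ := hall a
    obtain ⟨j, hj⟩ := hall b
    rw [← QuotientGroup.eq_one_iff (N := N)]
    simp only [commutatorElement_def, QuotientGroup.mk_mul, QuotientGroup.mk_inv]
    rw [← hi, ← hj]
    group
  haveI : Fact p.Prime := ⟨hp⟩
  exact (hNp.to_le hle).isNilpotent

end Cfsg.Agent.S1618
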