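import Cfsg.Statements.S1634
import Cfsg.Agent.Lib.Leech.SubOrbits
-- import your own Cfsg.Agent.* helpers here

set_option autoImplicit false
open Cfsg

namespace Cfsg.Agent.S1634

/-- The McLaughlin group acts on 2025 points (minimal vectors orthogonal to v with customary inner product 2 with w) transitively with rank 4 and subdegrees 1, 330, 462, 1232. -/
theorem result (v w : ↥Cfsg.leechLattice) (hv : Cfsg.sqNorm (v : Cfsg.GolayPt → ℤ) = 32) (hw : Cfsg.sqNorm (w : Cfsg.GolayPt → ℤ) = 32) (hvw : Cfsg.dotInt (v : Cfsg.GolayPt → ℤ) (w : Cfsg.GolayPt → ℤ) = -8) : {x : ↥Cfsg.leechLattice | Cfsg.sqNorm (x : Cfsg.GolayPt → ℤ) = 32 ∧ Cfsg.dotInt (v : Cfsg.GolayPt → ℤ) (x : Cfsg.GolayPt → ℤ) = 0 ∧ Cfsg.dotInt (w : Cfsg.GolayPt → ℤ) (x : Cfsg.GolayPt → ℤ) = 16}.ncard = 2025 ∧ (∀ x ∈ {x : ↥Cfsg.leechLattice | Cfsg.sqNorm (x : Cfsg.GolayPt → ℤ)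 = 32 ∧ Cfsg.dotInt (v : Cfsg.GolayPt → ℤ) (x : Cfsg.GolayPt → ℤ) = 0 ∧ Cfsg.dotInt (w : Cfsg.GolayPt → ℤ) (x : Cfsg.GolayPt → ℤ) = 16}, ∀ x' ∈ {x : ↥Cfsg.leechLattice | Cfsg.sqNorm (x : Cfsg.GolayPt → ℤ) = 32 ∧ Cfsg.dotInt (v : Cfsg.GolayPt → ℤ) (x : Cfsg.GolayPt → ℤ) = 0 ∧ Cfsg.dotInt (w : Cfsg.GolayPt → ℤ) (x : Cfsg.GolayPt → ℤ) = 16}, ∃ g : ↥Cfsg.Co0, g • v = v ∧ g • w = w ∧ g • x = x') ∧ ∀ x ∈ {x : ↥Cfsg.leechLattice | Cfsg.sqNorm (x : Cfsg.GolayPt → ℤ) = 32 ∧ Cfsg.dotInt (v : Cfsg.GolayPt → ℤ) (x : Cfsg.GolayPt → ℤ) = 0 ∧ Cfsg.dotInt (w : Cfsg.GolayPt → ℤ) (x : Cfsg.GolayPt → ℤ) = 16}, ∃ y₁ ∈ {x : ↥Cfsg.leechLattice | Cfsg.sqNorm (x : Cfsg.GolayPt → ℤ) = 32 ∧ Cfsg.dotInt (v : Cfsg.GolayPt → ℤ) (x : Cfsg.GolayPt → ℤ) = 0 ∧ Cfsg.dotInt (w : Cfsg.GolayPt → ℤ) (x : Cfsg.GolayPt → ℤ) = 16}, ∃ y₂ ∈ {x : ↥Cfsg.leechLattice | Cfsg.sqNorm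 (x : Cfsg.GolayPt → ℤ) = 32 ∧ Cfsg.dotInt (v : Cfsg.GolayPt → ℤ) (x : Cfsg.GolayPt → ℤ) = 0 ∧ Cfsg.dotInt (w : Cfsg.GolayPt → ℤ) (x : Cfsg.GolayPt → ℤ) = 16}, ∃ y₃ ∈ {x : ↥Cfsg.leechLattice | Cfsg.sqNorm (x : Cfsg.GolayPt → ℤ) = 32 ∧ Cfsg.dotInt (v : Cfsg.GolayPt → ℤ) (x : Cfsg.GolayPt → ℤ) = 0 ∧ Cfsg.dotInt (w : Cfsg.GolayPt → ℤ) (x : Cfsg.GolayPt → ℤ) = 16}, (MulAction.orbit ↥(MulAction.stabilizer ↥Cfsg.Co0 v ⊓ MulAction.stabilizer ↥Cfsg.Co0 w ⊓ MulAction.stabilizer ↥Cfsg.Co0 x) y₁).ncard = 330 ∧ (MulAction.orbit ↥(MulAction.stabilizer ↥Cfsg.Co0 v ⊓ MulAction.stabilizer ↥Cfsg.Co0 w ⊓ MulAction.stabilizer ↥Cfsg.Co0 x) y₂).ncard = 462 ∧ (MulAction.orbit ↥(MulAction.stabilizer ↥Cfsg.Co0 v ⊓ MulAction.stabilizer ↥Cfsg.Co0 w ⊓ MulAction.stabilizer ↥Cfsg.Co0 x) y₃).ncard = 1232 := by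
  have hu : sqNorm ((v + w : ↥leechLattice) : GolayPt → ℤ) = 48 := by rw [Lib.Leech.norm_add', hv, hw, hvw]; norm_num
  obtain ⟨c, hcu, hcv⟩ := Lib.Leech.std_mc hu (v := v) ⟨hv, by
    rw [AddSubgroup.coe_add, add_sub_cancel_left]; exact hw⟩
  have hmem : ∀ z, z ∈ Lib.Leech.blockPts v w ↔ c • z ∈ Lib.Leech.blockPts Lib.Leech.fourFour Lib.Leech.vFive := by
    intro z
    have key : z ∈ Lib.Leech.blockPts v w ↔ z ∈ Lib.Leech.blockPts v (v + w) := by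
      refine and_congr_right fun _ => ⟨fun h => ⟨h.1, ?_⟩, fun h => ⟨h.1, ?_⟩⟩
      · have h1 := h.1; have h2 := h.2
        simp only [dotInt] at h1 h2 ⊢
        simp only [AddSubgroup.coe_add, Pi.add_apply, add_mul, Finset.sum_add_distrib]
        omega
      · have h1 := h.1; have h2 := h.2
        simp only [dotInt] at h1 h2 ⊢
        simp only [AddSubgroup.coe_add, Pi.add_apply, add_mul, Finset.sum_add_distrib] at h2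
        omega
    rw [key, ← hcv, ← hcu, Lib.Leech.smul_blockPts]
  refine ⟨(Lib.Leech.ncard_smul_set' c hmem).trans Lib.Leech.blockPts_ncard, fun x hx x' hx' => ?_, fun x hx => ?_⟩
  · obtain ⟨g, g1, g2, g3⟩ := Lib.Leech.block_trans ((hmem x).1 hx)
    obtain ⟨g', g1', g2', g3'⟩ := Lib.Leech.block_trans ((hmem x').1 hx')
    have hw' : w = c⁻¹ • (Lib.Leech.vFive - Lib.Leech.fourFour) := by
      rw [eq_inv_smul_iff, ← hcu, ← hcv, Lib.Leech.smul_add', add_sub_cancel_left]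
    refine ⟨c⁻¹ * (g' * (g⁻¹ * c)), ?_, ?_, ?_⟩
    · rw [mul_smul, mul_smul, mul_smul, hcv, inv_smul_eq_iff.2 g1.symm, g1', ← hcv, inv_smul_smul]
    · rw [hw', mul_smul, mul_smul, mul_smul, smul_inv_smul, sub_eq_add_neg, Lib.Leech.smul_add', Lib.Leech.smul_neg',
        inv_smul_eq_iff.2 g1.symm, inv_smul_eq_iff.2 g2.symm, Lib.Leech.smul_add', Lib.Leech.smul_neg', g1', g2']
    · rw [mul_smul, mul_smul, mul_smul, ← g3, inv_smul_smul, g3', inv_smul_smul]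
  · obtain ⟨g, g1, g2, g3⟩ := Lib.Leech.block_trans ((hmem x).1 hx)
    obtain ⟨k, ku, kv, kx⟩ : ∃ k : ↥Co0, k • (v + w) = Lib.Leech.vFive ∧ k • v = Lib.Leech.fourFour ∧
        k • x = Lib.Leech.blockBase :=
      ⟨g⁻¹ * c, by rw [mul_smul, hcu, inv_smul_eq_iff, g2], by rw [mul_smul, hcv, inv_smul_eq_iff, g1],
        by rw [mul_smul, ← g3, inv_smul_smul]⟩
    have hK : ∀ h, h ∈ MulAction.stabilizer ↥Co0 v ⊓ MulAction.stabilizer ↥Co0 w ⊓ MulAction.stabilizer ↥Co0 x ↔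
        k * h * k⁻¹ ∈ Lib.Leech.blockStab := by
      intro h
      rw [Lib.Leech.inf_stab_add v w]
      exact and_congr (and_congr (Lib.Leech.mem_stab_conj ku h) (Lib.Leech.mem_stab_conj kv h))
        (Lib.Leech.mem_stab_conj kx h)
    have horb : ∀ (r : ↥leechLattice) (d : ℤ), MulAction.orbit ↥Lib.Leech.blockStab r = Lib.Leech.blockClass d →
        (MulAction.orbit ↥(MulAction.stabilizer ↥Co0 v ⊓ MulAction.stabilizer ↥Co0 w ⊓ MulAction.stabilizer ↥Co0 x)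
          (k⁻¹ • r)).ncard = (Lib.Leech.blockClass d).ncard := fun r d h => by
      rw [Lib.Leech.orbit_transport k hK, smul_inv_smul, h, Set.ncard_image_of_injective _ (MulAction.injective k⁻¹)]
    have hk : ∀ r, r ∈ Lib.Leech.blockPts Lib.Leech.fourFour Lib.Leech.vFive → k⁻¹ • r ∈ Lib.Leech.blockPts v w := by
      intro r hr
      have h2 : k⁻¹ • r ∈ Lib.Leech.blockPts v (v + w) := by
        rw [← Lib.Leech.smul_blockPts k, smul_inv_smul, kv, ku]; exact hr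
      obtain ⟨a, b, e⟩ := h2
      refine ⟨a, b, ?_⟩
      simp only [dotInt] at b e ⊢
      simp only [AddSubgroup.coe_add, Pi.add_apply, add_mul, Finset.sum_add_distrib] at e
      omega
    obtain ⟨n0, n1, n2⟩ := Lib.Leech.blockClass_ncard
    obtain ⟨o0, o1, o2⟩ := Lib.Leech.block_suborbits
    obtain ⟨-, ⟨a1, a2, a3, -⟩, ⟨b1, b2, b3, -⟩, c1, c2, c3, -⟩ := Lib.Leech.block_rep_facts
    exact ⟨k⁻¹ • Lib.Leech.blockRep0, hk _ ⟨a1, a2, a3⟩, k⁻¹ • Lib.Leech.blockRep1, hk _ ⟨b1, b2, b3⟩,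
      k⁻¹ • Lib.Leech.blockRep2, hk _ ⟨c1, c2, c3⟩, (horb _ _ o0).trans n0, (horb _ _ o1).trans n1, (horb _ _ o2).trans n2⟩

end Cfsg.Agent.S1634
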