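import Cfsg.Statements.S1639
import Cfsg.Agent.Lib.Golay.Counts
-- import your own Cfsg.Agent.* helpers here

set_option autoImplicit false
open scoped Pointwise
open Cfsg

namespace Cfsg.Agent.S1639

/-- The point stabiliser acts on the 1288 dodecads through the point with rank 4 and subdegrees 1, 165, 330, 792, distinguished by intersection 4, 8, 6 with the fixed dodecad. -/
theorem result (x : Cfsg.GolayPt) (d : Finset Cfsg.GolayPt) (hd : d ∈ Cfsg.dodecads) (hx : x ∈ d) : {d' : Finset Cfsg.GolayPt | d' ∈ Cfsg.dodecads ∧ x ∈ d' ∧ (d ∩ d').card = 4}.ncard = 165 ∧ {d' : Finset Cfsg.GolayPt | d' ∈ Cfsg.dodecads ∧ x ∈ d' ∧ (d ∩ d').card = 8}.ncard = 330 ∧ {d' : Finset Cfsg.GolayPt | d' ∈ Cfsg.dodecads ∧ x ∈ d' ∧ (d ∩ d').card = 6}.ncard = 792 ∧ ∀ d' d'' : Finset Cfsg.GolayPt, d' ∈ Cfsg.dodecads → d'' ∈ Cfsg.dodecads → x ∈ d' → x ∈ d'' → (d ∩ d').card = (d ∩ d'').card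 → ∃ g : Equiv.Perm Cfsg.GolayPt, g ∈ Cfsg.M24 ∧ g x = x ∧ g • d = d ∧ g • d' = d'' := by
  obtain ⟨-, -, -, c4, c8, c6⟩ := Lib.Golay.dod_dod_counts
  refine ⟨(Lib.Golay.pt_dod_count hd hx 4).trans c4, (Lib.Golay.pt_dod_count hd hx 8).trans c8,
    (Lib.Golay.pt_dod_count hd hx 6).trans c6, fun d' d'' h1 h2 h3 h4 h => ?_⟩
  obtain ⟨σ, hσ, he, he'⟩ := Lib.Golay.pt_dodecad_pairs hd hx h1 h2 h3 h4 h
  simp only [Prod.smul_mk, Prod.mk.injEq] at he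
  exact ⟨σ, hσ, he.1, he.2, he'⟩

end Cfsg.Agent.S1639
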