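import Cfsg.Statements.S1641
import Cfsg.Agent.Lib.Leech.SubOrbits
-- import your own Cfsg.Agent.* helpers here

set_option autoImplicit false
open Cfsg

namespace Cfsg.Agent.S1641

/-- The third Conway group acts on the 11178 cosets of the Higman–Sims group with rank 5 and subdegrees 1, 352, 1100, 4125, 5600. -/
theorem result (u x : ↥Cfsg.leechLattice) (hu : Cfsg.sqNorm (u : Cfsg.GolayPt → ℤ) = 48) (hx : x ∈ {x : ↥Cfsg.leechLattice | Cfsg.sqNorm (x : Cfsg.GolayPt → ℤ) = 32 ∧ Cfsg.dotInt (u : Cfsg.GolayPt → ℤ) (x : Cfsg.GolayPt → ℤ) = -16}) : ∃ y₁ ∈ {x : ↥Cfsg.leechLattice | Cfsg.sqNorm (x : Cfsg.GolayPt → ℤ) = 32 ∧ Cfsg.dotInt (u : Cfsg.GolayPt → ℤ) (x : Cfsg.GolayPt → ℤ) = -16}, ∃ y₂ ∈ {x : ↥Cfsg.leechLattice | Cfsg.sqNorm (x : Cfsg.GolayPt → ℤ) = 32 ∧ Cfsg.dotInt (u : Cfsg.GolayPt → ℤ) (x : Cfsg.GolayPt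 → ℤ) = -16}, ∃ y₃ ∈ {x : ↥Cfsg.leechLattice | Cfsg.sqNorm (x : Cfsg.GolayPt → ℤ) = 32 ∧ Cfsg.dotInt (u : Cfsg.GolayPt → ℤ) (x : Cfsg.GolayPt → ℤ) = -16}, ∃ y₄ ∈ {x : ↥Cfsg.leechLattice | Cfsg.sqNorm (x : Cfsg.GolayPt → ℤ) = 32 ∧ Cfsg.dotInt (u : Cfsg.GolayPt → ℤ) (x : Cfsg.GolayPt → ℤ) = -16}, (MulAction.orbit ↥(MulAction.stabilizer ↥Cfsg.Co0 u ⊓ MulAction.stabilizer ↥Cfsg.Co0 x) y₁).ncard = 352 ∧ (MulAction.orbit ↥(MulAction.stabilizer ↥Cfsg.Co0 u ⊓ MulAction.stabilizer ↥Cfsg.Co0 x) y₂).ncard = 1100 ∧ (MulAction.orbit ↥(MulAction.stabilizer ↥Cfsg.Co0 u ⊓ MulAction.stabilizer ↥Cfsg.Co0 x) y₃).ncard = 4125 ∧ (MulAction.orbit ↥(MulAction.stabilizer ↥Cfsg.Co0 u ⊓ MulAction.stabilizer ↥Cfsg.Co0 x) y₄).ncard = 5600 ∧ {x : ↥Cfsg.leechLattice | Cfsg.sqNorm (x : Cfsg.GolayPt → ℤ) = 32 ∧ Cfsg.dotInt (u : Cfsg.GolayPt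 → ℤ) (x : Cfsg.GolayPt → ℤ) = -16} = {x} ∪ MulAction.orbit ↥(MulAction.stabilizer ↥Cfsg.Co0 u ⊓ MulAction.stabilizer ↥Cfsg.Co0 x) y₁ ∪ MulAction.orbit ↥(MulAction.stabilizer ↥Cfsg.Co0 u ⊓ MulAction.stabilizer ↥Cfsg.Co0 x) y₂ ∪ MulAction.orbit ↥(MulAction.stabilizer ↥Cfsg.Co0 u ⊓ MulAction.stabilizer ↥Cfsg.Co0 x) y₃ ∪ MulAction.orbit ↥(MulAction.stabilizer ↥Cfsg.Co0 u ⊓ MulAction.stabilizer ↥Cfsg.Co0 x) y₄ := by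
  obtain ⟨c, hc⟩ := Lib.Leech.std_five hu
  obtain ⟨g, hg, hgx⟩ := Lib.Leech.trans_neg (hc ▸ (Lib.Leech.mem_dotSet_smul c).2 (show x ∈ Lib.Leech.dotSet u (-16) from hx))
  obtain ⟨k, ku, kx⟩ : ∃ k : ↥Co0, k • u = Lib.Leech.vFive ∧ k • x = Lib.Leech.fourNeg :=
    ⟨g⁻¹ * c, by rw [mul_smul, hc, inv_smul_eq_iff, hg], by rw [mul_smul, ← hgx, inv_smul_smul]⟩
  have hK : ∀ g, g ∈ MulAction.stabilizer ↥Co0 u ⊓ MulAction.stabilizer ↥Co0 x ↔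
      k * g * k⁻¹ ∈ Lib.Leech.pairStab Lib.Leech.fourNeg := fun g =>
    and_congr (Lib.Leech.mem_stab_conj ku g) (Lib.Leech.mem_stab_conj kx g)
  have hS : ∀ z, z ∈ Lib.Leech.dotSet u (-16) ↔ k • z ∈ Lib.Leech.dotSet Lib.Leech.vFive (-16) := fun z => by
    rw [← ku, Lib.Leech.mem_dotSet_smul]
  have horb : ∀ (r : ↥leechLattice) (d : ℤ), MulAction.orbit ↥(Lib.Leech.pairStab Lib.Leech.fourNeg) r = Lib.Leech.hsClass d →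
      MulAction.orbit ↥(MulAction.stabilizer ↥Co0 u ⊓ MulAction.stabilizer ↥Co0 x) (k⁻¹ • r) =
        (fun z => k⁻¹ • z) '' Lib.Leech.hsClass d := fun r d h => by
    rw [Lib.Leech.orbit_transport k hK, smul_inv_smul, h]
  have hcard : ∀ d, ((fun z => k⁻¹ • z) '' Lib.Leech.hsClass d).ncard = (Lib.Leech.hsClass d).ncard := fun d =>
    Set.ncard_image_of_injective _ (MulAction.injective k⁻¹)
  obtain ⟨n0, n1, n2, n3⟩ := Lib.Leech.hsClass_ncard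
  obtain ⟨o0, o1, o2, o3⟩ := Lib.Leech.hs_suborbits
  obtain ⟨f0, f1, f2, f3⟩ := Lib.Leech.hs_rep_facts
  have hmem : ∀ r, r ∈ Lib.Leech.dotSet Lib.Leech.vFive (-16) → k⁻¹ • r ∈ Lib.Leech.dotSet u (-16) := fun r hr =>
    (hS _).2 (by rwa [smul_inv_smul])
  refine ⟨k⁻¹ • Lib.Leech.hsRep0, hmem _ ⟨f0.1, f0.2.1⟩, k⁻¹ • Lib.Leech.hsRep1, hmem _ ⟨f1.1, f1.2.1⟩,
    k⁻¹ • Lib.Leech.hsRep2, hmem _ ⟨f2.1, f2.2.1⟩, k⁻¹ • Lib.Leech.hsRep3, hmem _ ⟨f3.1, f3.2.1⟩, ?_, ?_, ?_, ?_, ?_⟩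
  · rw [horb _ _ o0, hcard, n0]
  · rw [horb _ _ o1, hcard, n1]
  · rw [horb _ _ o2, hcard, n2]
  · rw [horb _ _ o3, hcard, n3]
  · rw [horb _ _ o0, horb _ _ o1, horb _ _ o2, horb _ _ o3,
      show ({x} : Set ↥leechLattice) = (fun z => k⁻¹ • z) '' {Lib.Leech.fourNeg} by
        rw [Set.image_singleton, ← kx, inv_smul_smul],
      ← Set.image_union, ← Set.image_union, ← Set.image_union, ← Set.image_union, ← Lib.Leech.hs_union]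
    ext z
    constructor
    · intro hz; exact ⟨k • z, (hS z).1 hz, inv_smul_smul k z⟩
    · rintro ⟨r, hr, rfl⟩; exact hmem r hr

end Cfsg.Agent.S1641
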