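import Cfsg.Statements.S1642
import Cfsg.Agent.Lib.Leech.RankTransport
-- import your own Cfsg.Agent.* helpers here

set_option autoImplicit false
open Cfsg

namespace Cfsg.Agent.S1642

/-- Some involution of the Higman–Sims group acts without fixed points on its 100 points. -/
theorem result (v w : ↥Cfsg.leechLattice) (hv : Cfsg.sqNorm (v : Cfsg.GolayPt → ℤ) = 48) (hw : Cfsg.sqNorm (w : Cfsg.GolayPt → ℤ) = 48) (hvw : Cfsg.dotInt (v : Cfsg.GolayPt → ℤ) (w : Cfsg.GolayPt → ℤ) = -32) : ∃ g : ↥Cfsg.Co0, g • v = v ∧ g • w = w ∧ orderOf g = 2 ∧ ∀ x ∈ {x : ↥Cfsg.leechLattice | Cfsg.sqNorm (x : Cfsg.GolayPt → ℤ) = 32 ∧ Cfsg.dotInt (v : Cfsg.GolayPt → ℤ) (x : Cfsg.GolayPt → ℤ) = 24 ∧ Cfsg.dotInt (w : Cfsg.GolayPt → ℤ) (x : Cfsg.GolayPt → ℤ) = -24}, g • x ≠ x := by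
  obtain ⟨k, hkv, hkw⟩ := Lib.Leech.std_hs hv hw hvw
  obtain ⟨g, g1, g2, g3, g4⟩ := Lib.Leech.exists_invol
  refine ⟨k⁻¹ * g * k, ?_, ?_, ?_, fun x hx e => g4 (k • x) ?_ ?_⟩
  · rw [mul_smul, mul_smul, hkv, g1, ← hkv, inv_smul_smul]
  · rw [mul_smul, mul_smul, hkw, g2, ← hkw, inv_smul_smul]
  · rw [← g3]
    rw [show k⁻¹ * g * k = MulAut.conj k⁻¹ g by simp]
    exact orderOf_injective (MulAut.conj k⁻¹).toMonoidHom (MulAut.conj k⁻¹).injective g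
  · rw [← hkv, ← hkw, Lib.Leech.smul_hsPts]; exact hx
  · rwa [mul_smul, mul_smul, inv_smul_eq_iff] at e

end Cfsg.Agent.S1642
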