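import Cfsg.Statements.S1643
import Cfsg.Agent.Lib.Golay.L223

set_option autoImplicit false
open scoped Pointwise
open Cfsg

namespace Cfsg.Agent.S1643

/-- PSL(2, 23) = ⟨t ↦ t+1, t ↦ u t (u square), t ↦ −1/t⟩ is maximal of order 6072 in the group of the length-24 code, and its point stabiliser 23:11 (order 253) is maximal in the Mathieu group of degree 23. -/
theorem result : (Subgroup.closure ({Equiv.optionCongr (Equiv.addRight (1 : ZMod 23)), Cfsg.projInv} ∪ {g : Equiv.Perm Cfsg.GolayPt | ∃ u : (ZMod 23)ˣ, IsSquare u ∧ g = Equiv.optionCongr (Units.mulLeft u)}) ≤ Cfsg.M24 ∧ Nat.card ↥(Subgroup.closure ({Equiv.optionCongr (Equiv.addRight (1 : ZMod 23)), Cfsg.projInv} ∪ {g : Equiv.Perm Cfsg.GolayPt | ∃ u : (ZMod 23)ˣ, IsSquare u ∧ g = Equiv.optionCongr (Units.mulLeft u)})) = 6072 ∧ IsCoatom ((Subgroup.closure ({Equiv.optionCongr (Equiv.addRight (1 : ZMod 23)), Cfsg.projInv} ∪ {g : Equiv.Perm Cfsg.GolayPt | ∃ u : (ZMod 23)ˣ, IsSquare u ∧ g = Equiv.optionCongr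 (Units.mulLeft u)})).subgroupOf Cfsg.M24)) ∧ (Subgroup.closure ({Equiv.optionCongr (Equiv.addRight (1 : ZMod 23))} ∪ {g : Equiv.Perm Cfsg.GolayPt | ∃ u : (ZMod 23)ˣ, IsSquare u ∧ g = Equiv.optionCongr (Units.mulLeft u)}) ≤ Cfsg.M24 ⊓ MulAction.stabilizer (Equiv.Perm Cfsg.GolayPt) (none : Cfsg.GolayPt) ∧ Nat.card ↥(Subgroup.closure ({Equiv.optionCongr (Equiv.addRight (1 : ZMod 23))} ∪ {g : Equiv.Perm Cfsg.GolayPt | ∃ u : (ZMod 23)ˣ, IsSquare u ∧ g = Equiv.optionCongr (Units.mulLeft u)})) = 253 ∧ IsCoatom (((Subgroup.closure ({Equiv.optionCongr (Equiv.addRight (1 : ZMod 23))} ∪ {g : Equiv.Perm Cfsg.GolayPt | ∃ u : (ZMod 23)ˣ, IsSquare u ∧ g = Equiv.optionCongr (Units.mulLeft u)})).subgroupOf Cfsg.M24).subgroupOf (MulAction.stabilizer Cfsg.M24 (none : Cfsg.GolayPt)))) := by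
  classical
  refine ⟨⟨Lib.Golay.l223_le, Lib.Golay.l223_card, ?_⟩, ?_, Lib.Golay.frob253_card, ?_⟩
  · refine ⟨fun h => Lib.Golay.l223_ne (le_antisymm Lib.Golay.l223_le (Subgroup.subgroupOf_eq_top.1 h)),
      fun H hH => ?_⟩
    have hsub : Lib.Golay.l223.subgroupOf M24 ≤ H := hH.le
    have hle : Lib.Golay.l223 ≤ H.map M24.subtype := fun g hg =>
      ⟨⟨g, Lib.Golay.l223_le hg⟩, hsub hg, rfl⟩
    rcases Lib.Golay.card_of_l223_le hle (Subgroup.map_subtype_le H) with hc | hc
    · rw [Subgroup.card_map_of_injective M24.subtype_injective] at hc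
      refine absurd (Subgroup.eq_of_le_of_card_ge hsub ?_) hH.ne
      rw [Nat.card_congr (Subgroup.subgroupOfEquivOfLe Lib.Golay.l223_le).toEquiv,
        Lib.Golay.l223_card, hc]
    · refine eq_top_iff.2 fun g _ => ?_
      obtain ⟨g', hg', e⟩ : (g : Equiv.Perm GolayPt) ∈ H.map M24.subtype := by rw [hc]; exact g.2
      exact Subtype.ext e ▸ hg'
  · exact Lib.Golay.frob253_eq.trans_le inf_le_left
  · have hF : Lib.Golay.frob253 ≤ Lib.Golay.st1 none := Lib.Golay.frob253_eq.trans_le inf_le_left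
    refine ⟨fun h => ?_, fun H hH => ?_⟩
    · have hle : Lib.Golay.st1 none ≤ Lib.Golay.frob253 := fun g hg => by
        have hm : (⟨⟨g, hg.1⟩, hg.2⟩ :
            MulAction.stabilizer M24 (none : GolayPt)) ∈
            (Lib.Golay.frob253.subgroupOf M24).subgroupOf
              (MulAction.stabilizer M24 (none : GolayPt)) :=
          h.symm ▸ Subgroup.mem_top _
        exact hm
      have := Subgroup.card_dvd_of_le hle
      rw [Lib.Golay.st1_card, Lib.Golay.frob253_card] at this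
      norm_num at this
    · let ι : MulAction.stabilizer M24 (none : GolayPt) →* Equiv.Perm GolayPt :=
        M24.subtype.comp (MulAction.stabilizer M24 (none : GolayPt)).subtype
      have hι : Function.Injective ι := M24.subtype_injective.comp (Subgroup.subtype_injective _)
      have hle : Lib.Golay.frob253 ≤ H.map ι := fun g hg =>
        ⟨⟨⟨g, (hF hg).1⟩, (hF hg).2⟩, hH.le hg, rfl⟩
      have hle2 : H.map ι ≤ Lib.Golay.st1 none := by
        rintro _ ⟨g, -, rfl⟩
        exact ⟨g.1.2, g.2⟩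
      rcases Lib.Golay.frob253_between hle hle2 with e | e
      · refine absurd ?_ hH.ne'
        ext g
        constructor
        · intro hg
          have : ι g ∈ Lib.Golay.frob253 := e ▸ Subgroup.mem_map_of_mem ι hg
          exact this
        · exact fun hg => hH.le hg
      · refine eq_top_iff.2 fun g _ => ?_
        obtain ⟨g', hg', he⟩ : ι g ∈ H.map ι := by rw [e]; exact ⟨g.1.2, g.2⟩
        exact hι he ▸ hg' 

end Cfsg.Agent.S1643
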