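import Cfsg.Statements.S1666
import Cfsg.Agent.Lib.Steiner.RankThree
import Cfsg.Agent.Lib.Leech.PointBlock
import Cfsg.Agent.Lib.Leech.SporIso
import Cfsg.Agent.S0430
-- import your own Cfsg.Agent.* helpers here

set_option autoImplicit false
open Cfsg

namespace Cfsg.Agent.S1666

/-- Recognition of the Higman–Sims group as a rank 3 permutation group: a transitive permutation group on 100 points in which the stabiliser of a point is isomorphic to the Mathieu group M₂₂ and has two further orbits, of sizes 22 and 77, is isomorphic to the Higman–Sims group. -/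
theorem result {Ω : Type*} [Fintype Ω] [DecidableEq Ω] (hΩ : Fintype.card Ω = 100) (G : Subgroup (Equiv.Perm Ω)) [MulAction.IsPretransitive G Ω] (a : Ω)  (e : MulAction.stabilizer G a ≃* Cfsg.Spor.M22) (b c : Ω) (hb : (MulAction.orbit (MulAction.stabilizer G a) b).ncard = 22) (hc : (MulAction.orbit (MulAction.stabilizer G a) c).ncard = 77) : Cfsg.Spor.IsoHS G := by
  classical
  obtain ⟨Γ, inst, hsrg, hinv⟩ := Lib.Steiner.srg_of_suborbits hΩ a b c hb hc
  obtain ⟨i⟩ := S0430.std hsrg
  let φ : ↥G →* (Γ ≃g Γ) :=
    { toFun := fun g => ⟨MulAction.toPerm g, @fun x y => hinv g x y⟩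
      map_one' := RelIso.ext fun x => one_smul (↥G) x
      map_mul' := fun g h => RelIso.ext fun x => mul_smul g h x }
  let E := (Lib.Steiner.autCongr i).symm
  let f := E.toMonoidHom.comp φ
  have hf : Function.Injective f := E.injective.comp fun g h e => Subtype.ext (Equiv.ext fun x =>
    congrArg (fun r : Γ ≃g Γ => r x) e)
  have hG : Nat.card ↥G = 44352000 := by
    have h := Subgroup.card_mul_index (MulAction.stabilizer ↥G a)
    rw [MulAction.index_stabilizer_of_transitive, Nat.card_congr e.toEquiv,
      show Nat.card ↥Spor.M22 = 443520 from Lib.Golay.st2_card (show (none : GolayPt) ≠ some 0 by simp),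
      Nat.card_eq_fintype_card (α := Ω), hΩ] at h
    exact h.symm
  haveI : Finite (pointBlockGraph Lib.Steiner.blocks22 ≃g pointBlockGraph Lib.Steiner.blocks22) :=
    Nat.finite_of_card_ne_zero (by rw [Lib.Leech.pbAut_card]; norm_num)
  set H := Lib.Leech.pbHom.range
  set R := f.range
  obtain ⟨hHs, hHc⟩ := Lib.Leech.pbAut_isHS
  have hRc : Nat.card ↥R = 44352000 := (Nat.card_congr (MonoidHom.ofInjective hf).toEquiv).symm.trans hG
  have hRi : R.index = 2 := by
    have h := Subgroup.card_mul_index R
    rw [hRc, Lib.Leech.pbAut_card] at h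
    omega
  haveI := Subgroup.normal_of_index_eq_two hRi
  have hHR : H ≤ R := by
    rcases IsSimpleGroup.eq_bot_or_eq_top_of_normal (R.subgroupOf H) inferInstance with h | h
    · exfalso
      haveI : Fact (Nat.Prime 11) := ⟨by norm_num⟩
      obtain ⟨x, hx⟩ := exists_prime_orderOf_dvd_card' (G := ↥H) 11 (by rw [hHc]; norm_num)
      have h2 : x ^ 2 ∈ R.subgroupOf H := Subgroup.sq_mem_of_index_two hRi _
      rw [h, Subgroup.mem_bot] at h2
      have := orderOf_dvd_of_pow_eq_one h2
      rw [hx] at this
      norm_num at this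
    · exact Subgroup.subgroupOf_eq_top.1 h
  have hEq : H = R := Subgroup.eq_of_le_of_card_ge hHR (by rw [hRc, hHc])
  exact ⟨((MonoidHom.ofInjective hf).trans ((MulEquiv.subgroupCongr hEq.symm).trans
    ((MonoidHom.ofInjective Lib.Leech.pbHom_injective).symm.trans
      (MulEquiv.subgroupCongr Lib.Leech.pairStab_fourNeg.symm)))).trans Lib.Leech.hsEquiv⟩

end Cfsg.Agent.S1666
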