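import Cfsg.Statements.S1681
import Cfsg.Agent.Lib.SporPres.Suz.Bridge

set_option autoImplicit false
open Cfsg

namespace Cfsg.Agent.S1681

/-- In the presented sporadic Suzuki group (generators a, …, g), the subgroup generated by the images of a, b, c, d, f, g has index 22880. -/
theorem result : (((Subgroup.closure ({Cfsg.Spor.Suz.a, Cfsg.Spor.Suz.b, Cfsg.Spor.Suz.c, Cfsg.Spor.Suz.d, Cfsg.Spor.Suz.f, Cfsg.Spor.Suz.g} : Set (FreeGroup Cfsg.Spor.Suz.Gen))).map (PresentedGroup.mk (Cfsg.Spor.coxRelators Cfsg.Spor.Suz.edges ∪ {r | r ∈ Cfsg.Spor.Suz.extra})))).index = 22880 := by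
  rw [Cfsg.Agent.Lib.SporPres.Suz.sub_six_g_eq]
  exact Cfsg.Agent.Lib.SporPres.Suz.index_six_g

end Cfsg.Agent.S1681
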