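import Cfsg.Statements.S1691
import Mathlib

set_option autoImplicit false
open Cfsg

namespace Cfsg.Agent.S1691

open Cfsg.Spor in
/-- The image of each generator under the parity map. -/
def par : Fi24.Gen → Multiplicative (ZMod 2) := fun _ => Multiplicative.ofAdd 1

open Cfsg.Spor in
theorem rels : ∀ r ∈ coxRelators Fi24.edges ∪ {r | r ∈ Fi24.extra}, FreeGroup.lift par r = 1 := by
  rintro r (⟨x, hx, y, hy, rfl⟩ | hr)
  · rw [map_pow, map_mul, FreeGroup.lift_apply_of, FreeGroup.lift_apply_of]
    show (Multiplicative.ofAdd 1 * Multiplicative.ofAdd 1) ^ _ = 1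
    rw [show (Multiplicative.ofAdd (1 : ZMod 2) * Multiplicative.ofAdd 1) = 1 by decide, one_pow]
  · change r ∈ Fi24.extra at hr
    simp only [Fi24.extra, List.mem_cons, List.not_mem_nil, or_false] at hr
    rcases hr with rfl | rfl <;>
    simp only [Fi24.l, Fi24.k, Fi24.a, Fi24.b, Fi24.c, Fi24.d, Fi24.e, Fi24.f, Fi24.g, Fi24.j, Fi24.h, Fi24.i,
      map_mul, map_pow, map_inv, FreeGroup.lift_apply_of, par] <;> decide

open Cfsg.Spor in
theorem abelian_two : Nat.card (Abelianization Fi24) = 2 := by
  let q : Fi24.Gen → Abelianization Fi24 := fun x => Abelianization.of (PresentedGroup.of x)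
  have hq : ∀ x y : Fi24.Gen, (Fi24.edges.any fun e => e.1 == x && e.2.1 == 3 && e.2.2 == y) = true →
      q x = q y := by
    intro x y h
    have hrel : ∀ u v : Fi24.Gen, u ∈ coxNodes Fi24.edges → v ∈ coxNodes Fi24.edges →
        (q u * q v) ^ coxLabel Fi24.edges u v = 1 := by
      intro u v hu hv
      have h1 := PresentedGroup.one_of_mem (rels := coxRelators Fi24.edges ∪ {r | r ∈ Fi24.extra})
        (Or.inl ⟨u, hu, v, hv, rfl⟩)
      have h2 := congrArg (fun g => Abelianization.of g) h1
      simp only [map_one, map_pow, map_mul] at h2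
      exact h2
    have hxy : x ∈ coxNodes Fi24.edges ∧ y ∈ coxNodes Fi24.edges ∧ coxLabel Fi24.edges x y = 3 ∧
        coxLabel Fi24.edges x x = 1 ∧ coxLabel Fi24.edges y y = 1 := by
      revert x y
      intro x y; cases x <;> cases y <;> decide
    obtain ⟨hx, hy, hl, hlx, hly⟩ := hxy
    have h1 := hrel x x hx hx
    have h2 := hrel y y hy hy
    have h3 := hrel x y hx hy
    rw [hlx, pow_one] at h1
    rw [hly, pow_one] at h2
    rw [hl] at h3
    have h4 : (q x * q y) ^ 2 = 1 := by rw [mul_pow, sq, sq, h1, h2, mul_one]
    rw [pow_succ, h4, one_mul] at h3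
    rw [eq_inv_of_mul_eq_one_left h3, inv_eq_of_mul_eq_one_right h2]
  have hall : ∀ x : Fi24.Gen, q x = q .d := by
    have h1 := hq .l .k rfl
    have h2 := hq .k .a rfl
    have h3 := hq .a .b rfl
    have h4 := hq .b .c rfl
    have h5 := hq .c .d rfl
    have h6 := hq .d .e rfl
    have h7 := hq .d .h rfl
    have h8 := hq .e .f rfl
    have h9 := hq .f .g rfl
    have h10 := hq .g .j rfl
    have h11 := hq .h .i rfl
    intro x
    cases x <;> simp only [h1, h2, h3, h4, h5, h6.symm, h7.symm, h8.symm, h9.symm, h10.symm, h11.symm]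
  have hd2 : q .d * q .d = 1 := by
    have h1 := PresentedGroup.one_of_mem (rels := coxRelators Fi24.edges ∪ {r | r ∈ Fi24.extra})
      (Or.inl ⟨.d, by decide, .d, by decide, rfl⟩)
    have h2 := congrArg (fun g => Abelianization.of g) h1
    rw [show coxLabel Fi24.edges .d .d = 1 by decide] at h2
    simp only [map_one, map_pow, map_mul, pow_one] at h2
    exact h2
  let ψ : Fi24 →* Multiplicative (ZMod 2) := PresentedGroup.toGroup rels
  let Ψ : Abelianization Fi24 →* Multiplicative (ZMod 2) := Abelianization.lift ψ
  have hΨd : Ψ (q .d) = Multiplicative.ofAdd 1 := by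
    show Abelianization.lift ψ (Abelianization.of _) = _
    rw [Abelianization.lift_apply_of]
    exact PresentedGroup.toGroup.of rels
  have hmem : ∀ g : Abelianization Fi24, g = 1 ∨ g = q .d := by
    intro g
    obtain ⟨g, rfl⟩ := QuotientGroup.mk_surjective g
    induction g using PresentedGroup.induction_on with
    | _ w =>
      induction w using FreeGroup.induction_on with
      | C1 => left; rfl
      | of x => right; exact hall x
      | inv_of x _ =>
        right
        show (q x)⁻¹ = q .d
        rw [hall x]
        exact inv_eq_of_mul_eq_one_right hd2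
      | mul u v hu hv =>
        rw [map_mul, QuotientGroup.mk_mul]
        rcases hu with hu | hu <;> rcases hv with hv | hv <;> rw [hu, hv] <;>
          first | exact Or.inl (one_mul _) | exact Or.inr (one_mul _) | exact Or.inr (mul_one _) | exact Or.inl hd2
  have hb : Function.Bijective Ψ := by
    constructor
    · rw [injective_iff_map_eq_one]
      intro g hg
      rcases hmem g with rfl | rfl
      · rfl
      · rw [hΨd] at hg; exact absurd hg (by decide)
    · intro m
      have : m = 1 ∨ m = Multiplicative.ofAdd 1 := by revert m; decide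
      rcases this with rfl | rfl
      · exact ⟨1, map_one _⟩
      · exact ⟨q .d, hΨd⟩
  rw [Nat.card_congr (Equiv.ofBijective _ hb)]
  simp

/-- The commutator subgroup of the presented group Fi₂₄ has index 2 (the presented group is Fi₂₄′:2 with Fi₂₄′ its derived subgroup). -/
theorem result : (commutator Cfsg.Spor.Fi24).index = 2 := by
  rw [Subgroup.index_eq_card]
  exact abelian_two

end Cfsg.Agent.S1691
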