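import Cfsg.Statements.S1717
import Mathlib
import Cfsg.Agent.Lib.Fusion.SLUpper

set_option autoImplicit false
open Cfsg

namespace Cfsg.Agent.S1717

open Cfsg.Agent.Lib.Fusion
theorem zmod_two_cases : ∀ d : ZMod 2, d = 0 ∨ d = 1 := by decide

/-- Let G be a finite group with an involution z whose centraliser C is isomorphic to the centraliser of a transvection of SL(5, 2). Then a Sylow 2-subgroup of C, viewed in G, is a Sylow 2-subgroup of G (its index in G is odd). -/
theorem result {G : Type*} [Group G] [Finite G] (s : Matrix.SpecialLinearGroup (Fin 5) (ZMod 2)) (hs : (s : Matrix (Fin 5) (Fin 5) (ZMod 2)) = Matrix.transvection 0 1 1) (z : G) (hz : orderOf z = 2) (e : (Subgroup.centralizer ({z} : Set G)) ≃* Subgroup.centralizer ({s} : Set (Matrix.SpecialLinearGroup (Fin 5) (ZMod 2)))) (T : Sylow 2 (Subgroup.centralizer ({z} : Set G))) : ¬ 2 ∣ ((T : Subgroup (Subgroup.centralizer ({z} : Set G))).map (Subgroup.subtype (Subgroup.centralizer ({z} : Set G)))).index := by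
  haveI : Fact (Nat.Prime 2) := ⟨Nat.prime_two⟩
  revert e T
  set C : Subgroup G := Subgroup.centralizer {z} with hC
  intro e T
  have h01 : (0 : Fin 5) ≠ 1 := by decide
  have h04 : (0 : Fin 5) ≠ 4 := by decide
  set s' : Matrix.SpecialLinearGroup (Fin 5) (ZMod 2) := SLUpper.x h04 1 with hs'
  have hseq : s = SLUpper.x h01 (1 : ZMod 2) := Subtype.ext (by
    rw [hs, Matrix.SpecialLinearGroup.transvection_coe]; rfl)
  obtain ⟨γ, hγ⟩ := SLUpper.exists_conj_root (n := 5) (K := ZMod 2) (by norm_num) h01 h04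
    (c := 1) (c' := 1) one_ne_zero one_ne_zero
  rw [← hseq, ← hs'] at hγ
  -- a monomorphism `C → SL(5,2)` with image the centraliser of `s'`
  let f : C →* Matrix.SpecialLinearGroup (Fin 5) (ZMod 2) :=
    (MulAut.conj γ).toMonoidHom.comp ((Subgroup.subtype _).comp e.toMonoidHom)
  have hf : Function.Injective f := fun a b h =>
    e.injective (Subtype.ext ((MulAut.conj γ).injective h))
  have hgen : ∀ (i j : Fin 5) (h : i < j) (c : ZMod 2),
      SLUpper.x h.ne c * s' = s' * SLUpper.x h.ne c := by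
    intro i j h c
    refine Subtype.ext ?_
    rw [Matrix.SpecialLinearGroup.coe_mul, Matrix.SpecialLinearGroup.coe_mul, hs',
      Matrix.SpecialLinearGroup.transvection_coe, Matrix.SpecialLinearGroup.transvection_coe]
    have hj : j ≠ 0 := fun e => by rw [e] at h; exact absurd h (Fin.not_lt_zero i)
    have hi : (4 : Fin 5) ≠ i := fun e => by
      have := j.isLt
      rw [← e, Fin.lt_def] at h
      simp at h; omega
    show (1 + Matrix.single i j c) * (1 + Matrix.single (0 : Fin 5) 4 (1 : ZMod 2)) =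
      (1 + Matrix.single (0 : Fin 5) 4 (1 : ZMod 2)) * (1 + Matrix.single i j c)
    rw [mul_add, mul_one, add_mul, one_mul, mul_add, mul_one, add_mul, one_mul,
      Matrix.single_mul_single_of_ne (h := hj), Matrix.single_mul_single_of_ne (h := hi),
      add_zero, add_zero]
    exact add_right_comm _ _ _
  have hUs : ∀ u ∈ SLUpper.U 5 (ZMod 2), u * s' = s' * u := by
    intro u hu
    have h := SLUpper.U_le_closure hu
    refine Subgroup.mem_centralizer_singleton_iff.mp
      ((Subgroup.closure_le _).mpr ?_ h : u ∈ Subgroup.centralizer {s'})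
    rintro _ ⟨i, j, hij, c, rfl⟩
    exact Subgroup.mem_centralizer_singleton_iff.mpr (hgen i j hij c)
  have hγ' : γ * s * γ⁻¹ = s' := by rw [hγ, mul_inv_cancel_right]
  have hfU : ∀ u ∈ SLUpper.U 5 (ZMod 2), u ∈ f.range := by
    intro u hu
    have hmem : γ⁻¹ * u * γ ∈ Subgroup.centralizer {s} := by
      refine Subgroup.mem_centralizer_singleton_iff.mpr ?_
      calc γ⁻¹ * u * γ * s = γ⁻¹ * (u * (γ * s * γ⁻¹)) * γ := by group
        _ = γ⁻¹ * (γ * s * γ⁻¹ * u) * γ := by rw [hγ', hUs u hu]
        _ = s * (γ⁻¹ * u * γ) := by group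
    refine ⟨e.symm ⟨_, hmem⟩, ?_⟩
    show γ * ((e (e.symm ⟨_, hmem⟩) : Subgroup.centralizer {s}) : _) * γ⁻¹ = u
    rw [e.apply_symm_apply]; group
  -- a Sylow subgroup of `C` containing the preimage of `U`
  have hU2 : IsPGroup 2 ((SLUpper.U 5 (ZMod 2)).comap f) :=
    (SLUpper.isPGroup_U 2).comap_of_injective f hf
  obtain ⟨T₀, hT₀⟩ := hU2.exists_le_sylow
  obtain ⟨g, hg⟩ := MulAction.exists_smul_eq C T₀ T
  -- the centre of `T` has order at most two
  have hcen : ∀ x : C, x ∈ (T : Subgroup C) → (∀ y ∈ (T : Subgroup C), y * x = x * y) →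
      x = 1 ∨ (x : G) = z := by
    intro x hx hxy
    rw [← hg, Sylow.coe_subgroup_smul] at hx hxy
    have hx0 : g⁻¹ * x * g ∈ (T₀ : Subgroup C) := by
      rw [Subgroup.mem_pointwise_smul_iff_inv_smul_mem, ← map_inv, MulAut.smul_def,
        MulAut.conj_apply, inv_inv] at hx
      exact hx
    set w := g⁻¹ * x * g with hw
    have hwy : ∀ y ∈ (T₀ : Subgroup C), y * w = w * y := by
      intro y hy
      have := hxy (g * y * g⁻¹) (Subgroup.smul_mem_pointwise_smul y (MulAut.conj g) _ hy)
      calc y * w = g⁻¹ * ((g * y * g⁻¹) * x) * g := by rw [hw]; group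
        _ = g⁻¹ * (x * (g * y * g⁻¹)) * g := by rw [this]
        _ = w * y := by rw [hw]; group
    have hwU : f w ∈ SLUpper.U 5 (ZMod 2) := by
      refine SLUpper.mem_U_of_triangular 2 ?_ ?_
      · intro a b hab
        have hcomm : ∀ (i j : Fin 5) (h : i < j), f w * SLUpper.x h.ne 1 = SLUpper.x h.ne 1 * f w :=
          fun i j h => by
            obtain ⟨y, hy⟩ := hfU _ (SLUpper.x_mem h (1 : ZMod 2))
            have hyT : y ∈ (T₀ : Subgroup C) := hT₀ (show f y ∈ SLUpper.U 5 (ZMod 2) by
              rw [hy]; exact SLUpper.x_mem h 1)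
            rw [← hy, ← map_mul, ← map_mul, hwy y hyT]
        by_cases hb : (b : ℕ) < 4
        · exact (SLUpper.x_comm_iff _ (hcomm b 4 (Fin.lt_def.2 (by simpa using hb)))).2.1 a
            (ne_of_gt hab)
        · have : (a : ℕ) < 5 := a.isLt
          simp only [id, Fin.lt_def] at hab
          omega
      · obtain ⟨k, hk⟩ := T₀.2 ⟨w, hx0⟩
        exact ⟨k, by rw [← map_pow, show w ^ 2 ^ k = 1 from congrArg Subtype.val hk, map_one]⟩
    have hroot := SLUpper.eq_root_of_comm (n := 5) (by norm_num) hwU fun i j h => by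
      obtain ⟨y, hy⟩ := hfU _ (SLUpper.x_mem h (1 : ZMod 2))
      have hyT : y ∈ (T₀ : Subgroup C) := hT₀ (show f y ∈ SLUpper.U 5 (ZMod 2) by
        rw [hy]; exact SLUpper.x_mem h 1)
      rw [← hy, ← map_mul, ← map_mul, hwy y hyT]
    set c := (f w) ⟨0, by omega⟩ ⟨5 - 1, by omega⟩
    have hc : c = 0 ∨ c = 1 := zmod_two_cases c
    rcases hc with hc | hc
    · left
      rw [hc] at hroot
      have : f w = f 1 := by rw [hroot, map_one]; exact Subtype.ext (by simp [SLUpper.x, Matrix.SpecialLinearGroup.transvection_coe])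
      have hw1 := hf this
      rw [hw] at hw1
      calc x = g * (g⁻¹ * x * g) * g⁻¹ := by group
        _ = 1 := by rw [hw1]; group
    · right
      rw [hc] at hroot
      -- `s'` is the image of the element mapped by `e` onto `s`
      have hzC : z ∈ C := Subgroup.mem_centralizer_singleton_iff.mpr rfl
      have hfz : f ⟨z, hzC⟩ = f w := by
        have hzc : ∀ y : C, y * ⟨z, hzC⟩ = ⟨z, hzC⟩ * y := fun y =>
          Subtype.ext (Subgroup.mem_centralizer_singleton_iff.mp y.2)
        have hzT0 : (⟨z, hzC⟩ : C) ∈ (T₀ : Subgroup C) := by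
          haveI hn : (Subgroup.zpowers (⟨z, hzC⟩ : C)).Normal := ⟨fun n hn y => by
            obtain ⟨k, rfl⟩ := hn
            exact ⟨k, by
              show (⟨z, hzC⟩ : C) ^ k = y * (⟨z, hzC⟩ : C) ^ k * y⁻¹
              rw [((show Commute y ⟨z, hzC⟩ from hzc y).zpow_right k).eq, mul_inv_cancel_right]⟩⟩
          have hp : IsPGroup 2 (Subgroup.zpowers (⟨z, hzC⟩ : C)) :=
            IsPGroup.of_card (n := 1) (by
              rw [Nat.card_zpowers, ← Subgroup.orderOf_coe, hz, pow_one])
          have := T₀.3 (hp.to_sup_of_normal_left T₀.2) le_sup_right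
          rw [← this]
          exact Subgroup.mem_sup_left (Subgroup.mem_zpowers _)
        have hzU : f ⟨z, hzC⟩ ∈ SLUpper.U 5 (ZMod 2) ∧ ∀ (i j : Fin 5) (h : i < j),
            f ⟨z, hzC⟩ * SLUpper.x h.ne 1 = SLUpper.x h.ne 1 * f ⟨z, hzC⟩ := by
          have hcomm : ∀ (i j : Fin 5) (h : i < j),
              f ⟨z, hzC⟩ * SLUpper.x h.ne 1 = SLUpper.x h.ne 1 * f ⟨z, hzC⟩ := fun i j h => by
            obtain ⟨y, hy⟩ := hfU _ (SLUpper.x_mem h (1 : ZMod 2))
            rw [← hy, ← map_mul, ← map_mul, hzc y]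
          refine ⟨SLUpper.mem_U_of_triangular 2 (fun a b hab => ?_) ?_, hcomm⟩
          · by_cases hb : (b : ℕ) < 4
            · exact (SLUpper.x_comm_iff _ (hcomm b 4 (Fin.lt_def.2 (by simpa using hb)))).2.1 a
                (ne_of_gt hab)
            · have : (a : ℕ) < 5 := a.isLt
              simp only [id, Fin.lt_def] at hab
              omega
          · obtain ⟨k, hk⟩ := T₀.2 ⟨_, hzT0⟩
            exact ⟨k, by rw [← map_pow,
              show (⟨z, hzC⟩ : C) ^ 2 ^ k = 1 from congrArg Subtype.val hk, map_one]⟩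
        have h1 := SLUpper.eq_root_of_comm (n := 5) (by norm_num) hzU.1 hzU.2
        set d := (f ⟨z, hzC⟩) ⟨0, by omega⟩ ⟨5 - 1, by omega⟩
        have hd : d = 0 ∨ d = 1 := zmod_two_cases d
        rcases hd with hd | hd
        · exfalso
          rw [hd] at h1
          have : f ⟨z, hzC⟩ = f 1 := by rw [h1, map_one]; exact Subtype.ext (by simp [SLUpper.x, Matrix.SpecialLinearGroup.transvection_coe])
          have hz1 : z = 1 := congrArg Subtype.val (hf this)
          rw [hz1, orderOf_one] at hz; exact absurd hz (by decide)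
        · rw [h1, hd, hroot]
      have hwz : w = ⟨z, hzC⟩ := (hf hfz).symm
      calc (x : G) = g * (w : G) * (g : G)⁻¹ := by
            rw [hw]; push_cast; group
        _ = z := by
            rw [hwz]
            show (g : G) * z * (g : G)⁻¹ = z
            rw [Subgroup.mem_centralizer_singleton_iff.mp g.2, mul_inv_cancel_right]
  -- hence `z` is central in a Sylow subgroup of `G`
  set T' := (T : Subgroup C).map C.subtype with hT'
  intro hdvd
  have hp : IsPGroup 2 T' := T.2.map _
  have hN : Subgroup.normalizer (T' : Set G) ≤ C := by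
    intro n hn
    refine Subgroup.mem_centralizer_singleton_iff.mpr ?_
    have hzC : z ∈ C := Subgroup.mem_centralizer_singleton_iff.mpr rfl
    have hzT : (⟨z, hzC⟩ : C) ∈ (T : Subgroup C) := by
      haveI hn' : (Subgroup.zpowers (⟨z, hzC⟩ : C)).Normal := ⟨fun m hm y => by
        obtain ⟨k, rfl⟩ := hm
        exact ⟨k, by
          show (⟨z, hzC⟩ : C) ^ k = y * (⟨z, hzC⟩ : C) ^ k * y⁻¹
          rw [((show Commute y ⟨z, hzC⟩ from
            Subtype.ext (Subgroup.mem_centralizer_singleton_iff.mp y.2)).zpow_right k).eq,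
            mul_inv_cancel_right]⟩⟩
      have hp : IsPGroup 2 (Subgroup.zpowers (⟨z, hzC⟩ : C)) :=
        IsPGroup.of_card (n := 1) (by rw [Nat.card_zpowers, ← Subgroup.orderOf_coe, hz, pow_one])
      have := T.3 (hp.to_sup_of_normal_left T.2) le_sup_right
      rw [← this]
      exact Subgroup.mem_sup_left (Subgroup.mem_zpowers _)
    have hzT' : z ∈ T' := ⟨_, hzT, rfl⟩
    obtain ⟨x, hx, hxz⟩ := (Subgroup.mem_normalizer_iff.mp hn z).mp hzT'
    rcases hcen x hx (fun y hy => by
      have hy' : n⁻¹ * (y : G) * n ∈ T' :=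
        (Subgroup.mem_normalizer_iff''.mp hn y).mp ⟨y, hy, rfl⟩
      obtain ⟨y', -, hy'eq⟩ := hy'
      have hc : (y' : G) * z = z * y' := Subgroup.mem_centralizer_singleton_iff.mp y'.2
      refine Subtype.ext ?_
      show (y : G) * x = x * y
      have hx' : (x : G) = n * z * n⁻¹ := hxz
      have hy2 : (y : G) = n * y' * n⁻¹ := by
        rw [show (y' : G) = n⁻¹ * y * n from hy'eq]; group
      rw [hx', hy2]
      calc n * y' * n⁻¹ * (n * z * n⁻¹) = n * (y' * z) * n⁻¹ := by group
        _ = n * z * n⁻¹ * (n * y' * n⁻¹) := by rw [hc]; group) with h | h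
    · exfalso
      rw [h] at hxz
      have : z = 1 := conj_eq_one_iff.mp (show n * z * n⁻¹ = 1 from hxz.symm)
      rw [this, orderOf_one] at hz; exact absurd hz (by decide)
    · have : n * z * n⁻¹ = z := hxz.symm.trans h
      exact mul_inv_eq_iff_eq_mul.mp this
  obtain ⟨P, hP⟩ := hp.exists_le_sylow
  have hPeq : (P : Subgroup G) = T' := by
    by_contra hne
    haveI : Group.IsNilpotent P := P.2.isNilpotent
    have hlt : T'.subgroupOf P < ⊤ := lt_top_iff_ne_top.mpr fun h =>
      hne (le_antisymm (Subgroup.subgroupOf_eq_top.mp h) hP)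
    have hlt' := normalizerCondition_of_isNilpotent (G := P) _ hlt
    obtain ⟨n, hn, hn'⟩ := SetLike.exists_of_lt hlt'
    have hnN : (n : G) ∈ Subgroup.normalizer (T' : Set G) :=
      Subgroup.mem_normalizer_iff.mpr fun x => by
        refine ⟨fun hx => (Subgroup.mem_normalizer_iff.mp hn ⟨x, hP hx⟩).mp hx, fun hx => ?_⟩
        have hxP : x ∈ (P : Subgroup G) := by
          have := mul_mem (mul_mem (inv_mem n.2) (hP hx)) n.2
          simpa [mul_assoc] using this
        exact (Subgroup.mem_normalizer_iff.mp hn ⟨x, hxP⟩).mpr hx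
    let n' : C := ⟨n, hN hnN⟩
    have hn2 : IsPGroup 2 (Subgroup.zpowers n') :=
      (P.2.to_le (show (Subgroup.zpowers n').map C.subtype ≤ (P : Subgroup G) by
        rw [MonoidHom.map_zpowers, Subgroup.zpowers_le]; exact n.2)).comap_of_injective
          C.subtype Subtype.val_injective |>.to_le (Subgroup.le_comap_map _ _)
    have hnorm : Subgroup.zpowers n' ≤ Subgroup.normalizer ((T : Subgroup C) : Set C) := by
      rw [Subgroup.zpowers_le, Subgroup.mem_normalizer_iff]
      intro y
      have h := Subgroup.mem_normalizer_iff.mp hnN (y : G)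
      constructor
      · intro hy
        obtain ⟨y', hy', e'⟩ := h.mp ⟨y, hy, rfl⟩
        rwa [show n' * y * n'⁻¹ = y' from Subtype.ext e'.symm]
      · intro hy
        obtain ⟨y', hy', e'⟩ := h.mpr ⟨_, hy, rfl⟩
        rwa [show y = y' from Subtype.ext e'.symm]
    have hsup := T.3 (hn2.to_sup_of_normal_right' T.2 hnorm) le_sup_right
    have hn'T : n' ∈ (T : Subgroup C) := by
      rw [← hsup]; exact Subgroup.mem_sup_left (Subgroup.mem_zpowers n')
    exact hn' (show (n : G) ∈ T' from ⟨n', hn'T, rfl⟩)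
  change 2 ∣ T'.index at hdvd
  rw [← hPeq] at hdvd
  exact P.not_dvd_index hdvd

end Cfsg.Agent.S1717
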