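import Cfsg.Statements.S1753
import Mathlib

set_option autoImplicit false
universe u
open Cfsg

namespace Cfsg.Agent.S1753

theorem step (K : ∀ (X : Type u) [Group X], Prop) (G : Type u) [Group G] [Finite G]
    (h : ∀ (X : Type u) [Group X] [Finite X],
      IsSimpleGroup X → ¬ IsMulCommutative X → Nat.card X < Nat.card G → K X) :
    Cfsg.IsKProperWith K G := by
  intro H hH H' N hN hs hna
  refine h _ hs hna (lt_of_le_of_lt (b := Nat.card ↥H) ?_ ?_)
  · exact (Nat.card_le_card_of_surjective (QuotientGroup.mk : ↥H' → ↥H' ⧸ N) QuotientGroup.mk_surjective).trans
      (Subgroup.card_le_card_group H')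
  · refine lt_of_le_of_ne (Subgroup.card_le_card_group H) fun he => hH (Subgroup.eq_top_of_card_eq H he)

/-- Let K be any property of groups. (1) If G is a minimal counterexample relative to K — a finite non-abelian simple group not satisfying K such that every finite non-abelian simple group of smaller order satisfies K — then every proper subgroup of G is a K-group (all its non-abelian simple sections satisfy K), since such sections have smaller order than G. (2) Consequently (induction on the order), if every finite non-abelian simple group all of whose proper subgroups are K-groups satisfies K, then every finite non-abelian simple group satisfies K. -/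
theorem result (K : ∀ (X : Type u) [Group X], Prop) :
    (∀ (G : Type u) [Group G], Cfsg.IsMinCounterexampleWith K G → Cfsg.IsKProperWith K G) ∧
      ((∀ (X : Type u) [Group X] [Finite X], IsSimpleGroup X → ¬ IsMulCommutative X → Cfsg.IsKProperWith K X → K X) →
        ∀ (G : Type u) [Group G] [Finite G], IsSimpleGroup G → ¬ IsMulCommutative G → K G) := by
  refine ⟨fun G _ hmin => ?_, fun hall G _ _ hs hna => ?_⟩
  · haveI := hmin.1
    exact step K G hmin.2.2.2.2
  · suffices h : ∀ (n : ℕ) (X : Type u) [Group X] [Finite X],
        IsSimpleGroup X → ¬ IsMulCommutative X → Nat.card X < n → K X from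
      h _ G hs hna (Nat.lt_succ_self _)
    intro n
    induction n with
    | zero => intro X _ _ _ _ h; omega
    | succ n ih =>
      intro X _ _ hs hna hlt
      exact hall X hs hna (step K X fun Y _ _ hs' hna' hlt' => ih Y hs' hna' (by omega))

end Cfsg.Agent.S1753
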