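import Cfsg.Statements.S1754
import Mathlib
import Cfsg.Agent.Lib.Components.Basic

set_option autoImplicit false
open Cfsg

namespace Cfsg.Agent.S1754

/-- Let A be a standard subgroup of the finite group G (A quasisimple, C_G(A) tightly embedded of even order, A commuting elementwise with no other conjugate of itself, and N_G(A) = N_G(C_G(A))), and let t be an involution of G centralizing A. Then the centralizer of t lies in the normalizer of A; in particular A, viewed inside C_G(t), is a component of C_G(t). -/
theorem result {G : Type*} [Group G] [Finite G]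
    (A : Subgroup G) (hA : Cfsg.IsStandardSubgroup A) (t : G) (ht : orderOf t = 2) (htA : t ∈ Subgroup.centralizer (A : Set G)) :
    Subgroup.centralizer ({t} : Set G) ≤ Subgroup.normalizer (A : Set G) ∧
      Cfsg.IsComponent (A.subgroupOf (Subgroup.centralizer ({t} : Set G))) := by
  obtain ⟨hqs, ⟨-, hte⟩, -, hN⟩ := hA
  have hle : Subgroup.centralizer ({t} : Set G) ≤ Subgroup.normalizer (A : Set G) := by
    intro c hc
    by_contra hcn
    rw [hN] at hcn
    have hodd := hte c hcn
    have htm : t ∈ Subgroup.centralizer (A : Set G) ⊓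
        (Subgroup.centralizer (A : Set G)).map (MulAut.conj c).toMonoidHom := by
      refine ⟨htA, t, htA, ?_⟩
      show c * t * c⁻¹ = t
      rw [Subgroup.mem_centralizer_singleton_iff.1 hc, mul_inv_cancel_right]
    have hd := orderOf_dvd_natCard (G := ↥(Subgroup.centralizer (A : Set G) ⊓
      (Subgroup.centralizer (A : Set G)).map (MulAut.conj c).toMonoidHom)) ⟨t, htm⟩
    rw [Subgroup.orderOf_mk, ht] at hd
    exact (Nat.not_even_iff_odd.2 hodd) (even_iff_two_dvd.2 hd)
  refine ⟨hle, ?_, ?_⟩
  · exact (Subgroup.normal_subgroupOf_of_le_normalizer hle).isSubnormal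
  · refine (Lib.Components.qs_congr (Subgroup.subgroupOfEquivOfLe ?_)).2 hqs
    intro a ha
    exact Subgroup.mem_centralizer_singleton_iff.2 (Subgroup.mem_centralizer_iff.1 htA a ha)

end Cfsg.Agent.S1754
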