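import Cfsg.Statements.S1756
import Mathlib
import Cfsg.Agent.S0110
import Cfsg.Agent.Lib.PGroupFrattini
import Cfsg.Agent.Lib.LargeExtra.Centralizer

set_option autoImplicit false
open Cfsg
open scoped commutatorElement
set_option linter.style.haveILetI false

namespace Cfsg.Agent.S1756

/-- Let Q be an extraspecial 2-subgroup of the finite group G (special with centre of order 2) and t an involution of G normalizing Q such that the centralizer of t in Q has index at most 2 in Q. Then t lies in the product of Q with the centralizer of Q. -/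
theorem result {G : Type*} [Group G] [Finite G] (Q : Subgroup G)
    (hQ : Cfsg.IsExtraspecial 2 ↥Q) (t : G) (ht : orderOf t = 2) (htN : t ∈ Subgroup.normalizer (Q : Set G))
    (hi : (Subgroup.centralizer ({t} : Set G) ⊓ Q).relIndex Q ≤ 2) :
    t ∈ Q ⊔ Subgroup.centralizer (Q : Set G) := by
  haveI : Fact (Nat.Prime 2) := ⟨Nat.prime_two⟩
  obtain ⟨⟨hp, hΦ, hcm⟩, hcard⟩ := hQ
  have hQe : Cfsg.IsExtraspecial 2 ↥Q := ⟨⟨hp, hΦ, hcm⟩, hcard⟩
  set H := Subgroup.centralizer ({t} : Set G) ⊓ Q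
  have hconj : ∀ q ∈ Q, t * q * t⁻¹ ∈ Q := fun q hq => (Subgroup.mem_normalizer_iff.1 htN q).1 hq
  have htt : t * t = 1 := by rw [← pow_two, ← ht, pow_orderOf_eq_one]
  have hH : ∀ q ∈ Q, q ∈ H ↔ t * q * t⁻¹ = q := fun q hq => by
    rw [Subgroup.mem_inf, Subgroup.mem_centralizer_singleton_iff, mul_inv_eq_iff_eq_mul]
    exact ⟨fun h => h.1.symm, fun h => ⟨h.symm, hq⟩⟩
  -- central elements of `Q` are fixed by `t`
  have hcent : ∀ c : Q, c ∈ Subgroup.center Q → t * c * t⁻¹ = (c : G) := fun c hc => by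
    by_cases hc1 : c = 1
    · simp [hc1]
    have hc' : (⟨t * c * t⁻¹, hconj c c.2⟩ : Q) ∈ Subgroup.center Q := Subgroup.mem_center_iff.2 fun y => Subtype.ext (by
      obtain ⟨y', hy'⟩ : ∃ y' : Q, t * (y' : G) * t⁻¹ = y := by
        refine ⟨⟨t * y * t⁻¹, hconj y y.2⟩, ?_⟩
        show t * (t * (y : G) * t⁻¹) * t⁻¹ = y
        calc t * (t * (y : G) * t⁻¹) * t⁻¹ = (t * t) * y * (t * t)⁻¹ := by group
          _ = y := by rw [htt]; group
      have h1 := congrArg Subtype.val (Subgroup.mem_center_iff.1 hc y')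
      simp only [Subgroup.coe_mul] at h1 ⊢
      rw [← hy', conj_mul, conj_mul, h1])
    have hne : (⟨t * c * t⁻¹, hconj c c.2⟩ : Q) ≠ 1 := fun e => hc1 (Subtype.ext (by
      have := congrArg Subtype.val e
      simpa [mul_inv_eq_one] using this))
    obtain ⟨z, -, hz⟩ := (Nat.card_eq_two_iff' (⟨1, one_mem _⟩ : Subgroup.center Q)).1 hcard
    have h1 : (⟨c, hc⟩ : Subgroup.center Q) = z := hz _ fun e => hc1 (congrArg Subtype.val e)
    have h2 : (⟨_, hc'⟩ : Subgroup.center Q) = z := hz _ fun e => hne (congrArg Subtype.val e)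
    exact congrArg (fun u : Subgroup.center Q => ((u : Q) : G)) (h2.trans h1.symm)
  -- commutators with `t` are central
  have hd : ∀ q : Q, ∀ y ∈ Q, y * ((q : G)⁻¹ * (t * q * t⁻¹)) = (q : G)⁻¹ * (t * q * t⁻¹) * y := by
    intro q
    set d := (q : G)⁻¹ * (t * q * t⁻¹) with hd
    have hdQ : d ∈ Q := mul_mem (inv_mem q.2) (hconj q q.2)
    by_cases hqH : (q : G) ∈ H
    · intro y _
      rw [hd, (hH q q.2).1 hqH, inv_mul_cancel, mul_one, one_mul]
    haveI hHn : (H.subgroupOf Q).Normal := Subgroup.normal_of_index_eq_two (by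
      have h0 : H.relIndex Q ≠ 0 := Subgroup.index_ne_zero_of_finite
      have h1 : H.relIndex Q ≠ 1 := fun e => hqH (Subgroup.relIndex_eq_one.1 e q.2)
      show H.relIndex Q = 2
      omega)
    have hidx : (H.subgroupOf Q).index = 2 := by
      have h0 : H.relIndex Q ≠ 0 := Subgroup.index_ne_zero_of_finite
      have h1 : H.relIndex Q ≠ 1 := fun e => hqH (Subgroup.relIndex_eq_one.1 e q.2)
      show H.relIndex Q = 2
      omega
    have hdh : ∀ h ∈ H, Commute d h := fun h hh => by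
      have hq' : (q : G) * h * (q : G)⁻¹ ∈ H := hHn.conj_mem (⟨h, hh.2⟩ : Q) hh q
      have e := (hH _ hq'.2).1 hq'
      have e2 : t * h * t⁻¹ = h := (hH h hh.2).1 hh
      rw [show t * ((q : G) * h * (q : G)⁻¹) * t⁻¹ = (q : G) * (d * (t * h * t⁻¹) * d⁻¹) * (q : G)⁻¹ by
        rw [hd]; group, e2] at e
      exact (mul_inv_eq_iff_eq_mul.1 (mul_left_cancel (mul_right_cancel e)) : d * h = h * d)
    have hgen : ∀ u : Q, (u : G) ∉ H → ∀ y ∈ Q, y ∈ H ∨ y * (u : G)⁻¹ ∈ H := fun u hu y hy => by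
      by_cases hyH : y ∈ H
      · exact Or.inl hyH
      · refine Or.inr ?_
        have : (⟨y, hy⟩ : Q) * u⁻¹ ∈ H.subgroupOf Q := (Subgroup.mul_mem_iff_of_index_two hidx).2
          ⟨fun e => absurd e hyH, fun e => absurd (inv_mem_iff.1 e) hu⟩
        exact this
    have hdH : d ∈ H := by
      by_contra hdH
      refine hdH ((hH d hdQ).2 (hcent ⟨d, hdQ⟩ (Subgroup.mem_center_iff.2 fun y => Subtype.ext ?_)))
      show (y : G) * d = d * y
      rcases hgen ⟨d, hdQ⟩ hdH y y.2 with h | h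
      · exact (hdh _ h).symm.eq
      · have := ((hdh _ h).symm.mul_left (Commute.refl d)).eq
        simpa using this
    have htd : t * d * t⁻¹ = d := (hH d hdQ).1 hdH
    have htq : t * (q : G) * t⁻¹ = q * d := by rw [hd]; group
    have hd2 : d * d = 1 := by
      have h1 : (q : G) = q * d * d := by
        calc (q : G) = (t * t) * q * (t * t)⁻¹ := by rw [htt]; group
          _ = t * (t * q * t⁻¹) * t⁻¹ := by group
          _ = (t * q * t⁻¹) * (t * d * t⁻¹) := by rw [conj_mul, htq]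
          _ = q * d * d := by rw [htq, htd]
      rw [mul_assoc] at h1
      exact mul_eq_left.1 h1.symm
    have hdq : Commute d q := by
      have hq2 : q ^ 2 ∈ Subgroup.center Q := hΦ ▸ Lib.PGroupFrattini.pow_mem_frattini hp q
      have h1 := hcent _ hq2
      rw [Subgroup.coe_pow, pow_two, ← conj_mul, htq] at h1
      have h2 : d * q * d = q := mul_left_cancel (a := (q : G)) (by simpa [mul_assoc] using h1)
      show d * q = q * d
      calc d * q = d * q * (d * d) := by rw [hd2, mul_one]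
        _ = d * q * d * d := by group
        _ = q * d := by rw [h2]
    intro y hy
    rcases hgen q hqH y hy with h | h
    · exact (hdh _ h).symm.eq
    · have := ((hdh _ h).symm.mul_left hdq.symm).eq
      simpa using this
  -- apply the product decomposition inside `Q⟨t⟩`
  set G0 := Subgroup.zpowers t ⊔ Q
  have hQ0 : Q ≤ G0 := le_sup_right
  have ht0 : t ∈ G0 := Subgroup.mem_sup_left (Subgroup.mem_zpowers t)
  have hzN : Subgroup.zpowers t ≤ Subgroup.normalizer (Q : Set G) := Subgroup.zpowers_le.2 htN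
  have hG0 : IsPGroup 2 G0 := IsPGroup.to_sup_of_normal_right'
    (IsPGroup.of_card (n := 1) (by rw [Nat.card_zpowers, ht, pow_one])) hp hzN
  haveI : (Q.subgroupOf G0).Normal := Subgroup.normal_subgroupOf_sup_of_le_normalizer hzN
  set E := Q.subgroupOf G0
  have hE : Cfsg.IsExtraspecial 2 ↥E := Lib.LargeExtra.isExtraspecial_equiv (Subgroup.subgroupOfEquivOfLe hQ0).symm hQe
  set Z := E ⊓ Subgroup.centralizer (E : Set G0)
  haveI : Z.Normal := inferInstance
  set π := QuotientGroup.mk' Z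
  have hle : (⊤ : Subgroup G0) ≤ (Subgroup.centralizer ((E.map π : Subgroup _) : Set _)).comap π := by
    rw [← Subgroup.map_le_map_iff_of_injective G0.subtype_injective, ← MonoidHom.range_eq_map, Subgroup.range_subtype]
    refine sup_le (Subgroup.zpowers_le.2 ⟨⟨t, ht0⟩, ?_, rfl⟩) fun q hq => ⟨⟨q, hQ0 hq⟩, ?_, rfl⟩ <;>
      rw [SetLike.mem_coe, Subgroup.mem_comap, Subgroup.mem_centralizer_iff] <;> rintro _ ⟨e, he, rfl⟩ <;>
      refine (commutatorElement_eq_one_iff_mul_comm.1 ?_) <;> rw [← map_commutatorElement] <;>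
      refine (QuotientGroup.eq_one_iff _).2 ?_
    · have hed : ((⁅e, (⟨t, ht0⟩ : G0)⁆ : G0) : G) ∈ Q := by
        have heQ : (e : G) ∈ Q := he
        show (e : G) * t * (e : G)⁻¹ * t⁻¹ ∈ Q
        have := mul_mem heQ (hconj _ (inv_mem heQ))
        simpa [mul_assoc] using this
      refine ⟨hed, Subgroup.mem_centralizer_iff.2 fun y hy => Subtype.ext ?_⟩
      have h1 := hd (⟨(e : G)⁻¹, inv_mem he⟩ : Q) (y : G) hy
      simp only [Subgroup.coe_mul, commutatorElement_def, Subgroup.coe_inv] at h1 ⊢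
      rw [show (e : G) * t * (e : G)⁻¹ * t⁻¹ = (e : G)⁻¹⁻¹ * (t * (e : G)⁻¹ * t⁻¹) by group]
      exact h1
    · have hmem : ∀ u v : Q, ⁅u, v⁆ ∈ Subgroup.center Q := fun u v => hcm ▸
        _root_.commutator_def Q ▸ Subgroup.commutator_mem_commutator (Subgroup.mem_top u) (Subgroup.mem_top v)
      have h1 := hmem (⟨e, he⟩ : Q) ⟨q, hq⟩
      refine ⟨?_, Subgroup.mem_centralizer_iff.2 fun y hy => Subtype.ext ?_⟩
      · show ((⁅e, (⟨q, hQ0 hq⟩ : G0)⁆ : G0) : G) ∈ Q
        have := (⁅(⟨e, he⟩ : Q), (⟨q, hq⟩ : Q)⁆ : Q).2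
        simpa [commutatorElement_def] using this
      · have h2 := congrArg Subtype.val (Subgroup.mem_center_iff.1 h1 ⟨y, hy⟩)
        simpa [commutatorElement_def] using h2
  have htop := Cfsg.Agent.S0110.result hG0 E hE (Subgroup.commutator_le.2 fun g _ e he =>
    (QuotientGroup.eq_one_iff _).1 (show π ⁅g, e⁆ = 1 by
      rw [map_commutatorElement, commutatorElement_eq_one_iff_mul_comm]
      exact (Subgroup.mem_centralizer_iff.1 (hle (Subgroup.mem_top g)) _ ⟨e, he, rfl⟩).symm))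
  obtain ⟨u, hu, v, hv, huv⟩ := Subgroup.mem_sup_of_normal_left.1 (htop.ge (Subgroup.mem_top (⟨t, ht0⟩ : G0)))
  rw [show t = ((u : G0) : G) * (v : G) from (congrArg Subtype.val huv).symm]
  exact Subgroup.mul_mem_sup hu (Subgroup.mem_centralizer_iff.2 fun y hy =>
    congrArg Subtype.val (Subgroup.mem_centralizer_iff.1 hv ⟨y, hQ0 hy⟩ hy))

end Cfsg.Agent.S1756
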