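import Cfsg.Statements.S1757
import Mathlib
import Cfsg.Agent.Lib.Components.Basic

set_option autoImplicit false
open Cfsg

namespace Cfsg.Agent.S1757

open scoped commutatorElement in
theorem main {G : Type*} [Group G] [Finite G] (p : ℕ) [Fact p.Prime] (A B : Subgroup G)
    (hA : IsPGroup p ↥A) (hB : IsPGroup p ↥B)
    (hBti : ∀ g : G, B.map (MulAut.conj g).toMonoidHom = B ∨ B.map (MulAut.conj g).toMonoidHom ⊓ B = ⊥)
    (hle : Nat.card ↥A ≤ Nat.card ↥B) (hAB : A ⊓ B = ⊥) (hN : B ≤ Subgroup.normalizer (A : Set G)) :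
    ⁅A, B⁆ = ⊥ := by
  by_cases hAN : A ≤ Subgroup.normalizer (B : Set G)
  · rw [eq_bot_iff, ← hAB]
    refine Subgroup.commutator_le.2 fun a ha b hb => ⟨?_, ?_⟩
    · have h1 := (Subgroup.mem_normalizer_iff.1 (hN hb) a⁻¹).1 (inv_mem ha)
      rw [commutatorElement_def]
      have := mul_mem ha h1
      simpa [mul_assoc] using this
    · have h1 := (Subgroup.mem_normalizer_iff.1 (hAN ha) b).1 hb
      rw [commutatorElement_def]
      exact B.mul_mem h1 (B.inv_mem hb)
  obtain ⟨a, ha, han⟩ := SetLike.not_le_iff_exists.1 hAN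
  have hint : B.map (MulAut.conj a).toMonoidHom ⊓ B = ⊥ := by
    refine (hBti a).resolve_left fun h => han ?_
    rw [Subgroup.mem_normalizer_iff]
    intro x
    refine ⟨fun hx => h ▸ ⟨x, hx, rfl⟩, fun hx => ?_⟩
    rw [← h] at hx
    obtain ⟨y, hy, hxy⟩ := hx
    have : y = x := by simpa using hxy
    exact this ▸ hy
  have hconj : ∀ b ∈ B, ∀ x ∈ A, b * x * b⁻¹ ∈ A := fun b hb x hx =>
    (Subgroup.mem_normalizer_iff.1 (hN hb) x).1 hx
  let ψ : ↥B × ↥B → ↥A × ↥B := fun v =>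
    (⟨((v.1 : G) * a * (v.1 : G)⁻¹) * (((v.1 : G) * (v.2 : G)) * a⁻¹ * ((v.1 : G) * (v.2 : G))⁻¹),
      mul_mem (hconj _ v.1.2 a ha) (hconj _ (mul_mem v.1.2 v.2.2) _ (inv_mem ha))⟩, v.1 * v.2)
  have hψ : Function.Injective ψ := by
    rintro ⟨b, c⟩ ⟨b', c'⟩ h
    simp only [ψ, Prod.mk.injEq, Subtype.ext_iff, Subgroup.coe_mul] at h
    obtain ⟨h1, h2⟩ := h
    have h3 : (b : G) * a * c * a⁻¹ = b' * a * c' * a⁻¹ := by
      calc (b : G) * a * c * a⁻¹ = ((b : G) * a * (b : G)⁻¹) * (((b : G) * c) * a⁻¹ * ((b : G) * c)⁻¹) * (b * c) := by group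
        _ = ((b' : G) * a * (b' : G)⁻¹) * (((b' : G) * c') * a⁻¹ * ((b' : G) * c')⁻¹) * (b' * c') := by rw [h1, h2]
        _ = _ := by group
    have h4 : (b' : G)⁻¹ * b = a * (c' * (c : G)⁻¹) * a⁻¹ := by
      calc (b' : G)⁻¹ * b = (b' : G)⁻¹ * (b * a * c * a⁻¹) * (a * (c : G)⁻¹ * a⁻¹) := by group
        _ = (b' : G)⁻¹ * (b' * a * c' * a⁻¹) * (a * (c : G)⁻¹ * a⁻¹) := by rw [h3]
        _ = _ := by group
    have h5 : (b' : G)⁻¹ * b ∈ B.map (MulAut.conj a).toMonoidHom ⊓ B :=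
      ⟨⟨_, B.mul_mem c'.2 (B.inv_mem c.2), h4.symm⟩, B.mul_mem (B.inv_mem b'.2) b.2⟩
    rw [hint, Subgroup.mem_bot, inv_mul_eq_one] at h5
    refine Prod.ext (Subtype.ext h5.symm) (Subtype.ext ?_)
    rw [← h5] at h2
    exact mul_left_cancel h2
  have hsurj : Function.Surjective ψ := by
    refine ((Nat.bijective_iff_injective_and_card ψ).2 ⟨hψ, le_antisymm ?_ ?_⟩).2
    · exact Nat.card_le_card_of_injective ψ hψ
    · rw [Nat.card_prod, Nat.card_prod]; exact Nat.mul_le_mul_right _ hle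
  have hAle : A ≤ ⁅A, B⁆ := by
    intro x hx
    obtain ⟨⟨b, c⟩, h⟩ := hsurj (⟨x, hx⟩, 1)
    simp only [ψ, Prod.mk.injEq, Subtype.ext_iff, Subgroup.coe_mul, Subgroup.coe_one] at h
    rw [← h.1, h.2]
    rw [Subgroup.commutator_comm]
    have : ((b : G) * a * (b : G)⁻¹) * (1 * a⁻¹ * 1⁻¹) = ⁅(b : G), a⁆ := by
      rw [commutatorElement_def]; group
    rw [this]
    exact Subgroup.commutator_mem_commutator b.2 ha
  set H : Subgroup G := A ⊔ B with hH
  have hp : IsPGroup p ↥H := hA.to_sup_of_normal_left' hB hN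
  have hlcs : ∀ n, A ≤ (Subgroup.lowerCentralSeries (⊤ : Subgroup ↥H) n).map H.subtype := by
    intro n
    induction n with
    | zero =>
      rw [Subgroup.lowerCentralSeries_zero, ← MonoidHom.range_eq_map, Subgroup.range_subtype]
      exact le_sup_left
    | succ n ih =>
      refine hAle.trans ?_
      rw [Subgroup.lowerCentralSeries_succ, Subgroup.map_commutator]
      refine Subgroup.commutator_mono ih ?_
      rw [← MonoidHom.range_eq_map, Subgroup.range_subtype]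
      exact le_sup_right
  haveI := hp.isNilpotent
  obtain ⟨n, hn⟩ := (Subgroup.isNilpotent_iff_lowerCentralSeries (⊤ : Subgroup ↥H)).1 inferInstance
  have hA0 : A = ⊥ := by simpa [hn] using hlcs n
  rw [hA0, Subgroup.commutator_bot_left]

/-- Let p be a prime and A, B p-subgroups of the finite group G, each of which meets every conjugate of itself other than itself trivially. Suppose the order of A is at most that of B, A and B intersect trivially, and B normalizes A. Then A and B commute elementwise. -/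
theorem result {G : Type*} [Group G] [Finite G] (p : ℕ) [Fact p.Prime] (A B : Subgroup G)
    (hA : IsPGroup p ↥A) (hB : IsPGroup p ↥B)
    (hAti : ∀ g : G, A.map (MulAut.conj g).toMonoidHom = A ∨ A.map (MulAut.conj g).toMonoidHom ⊓ A = ⊥)
    (hBti : ∀ g : G, B.map (MulAut.conj g).toMonoidHom = B ∨ B.map (MulAut.conj g).toMonoidHom ⊓ B = ⊥)
    (hle : Nat.card ↥A ≤ Nat.card ↥B) (hAB : A ⊓ B = ⊥) (hN : B ≤ Subgroup.normalizer (A : Set G)) : ⁅A, B⁆ = ⊥ := by
  exact main p A B hA hB hBti hle hAB hN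

end Cfsg.Agent.S1757
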