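import Cfsg.Statements.S3762
import Cfsg.Agent.Lib.Coprime.Basic
import Cfsg.Agent.Lib.PGroupFrattini
import Cfsg.Agent.S3761

set_option autoImplicit false
open Cfsg

namespace Cfsg.Agent.S3762

open Subgroup
open scoped commutatorElement

section

variable {G : Type*} [Group G]

theorem char_of_forall {H : Subgroup G} (h : ∀ (φ : G ≃* G), ∀ x ∈ H, φ x ∈ H) : H.Characteristic :=
  characteristic_iff_map_le.mpr fun φ => by rintro _ ⟨x, hx, rfl⟩; exact h φ x hx

theorem char_apply {H : Subgroup G} (hH : H.Characteristic) (φ : G ≃* G) {x : G} (hx : x ∈ H) : φ x ∈ H :=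
  characteristic_iff_map_le.mp hH φ (mem_map_of_mem _ hx)

theorem char_inf {H K : Subgroup G} (hH : H.Characteristic) (hK : K.Characteristic) : (H ⊓ K).Characteristic :=
  char_of_forall fun φ _ hx => ⟨char_apply hH φ hx.1, char_apply hK φ hx.2⟩

theorem omegaOne_char {p : ℕ} {H : Subgroup G} (hH : H.Characteristic) : (Cfsg.omegaOne p H).Characteristic := by
  refine characteristic_iff_map_le.mpr fun φ => ?_
  rw [Cfsg.omegaOne, MonoidHom.map_closure, closure_le]
  rintro _ ⟨x, ⟨hx, hxp⟩, rfl⟩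
  exact subset_closure ⟨char_apply hH φ hx, by rw [← map_pow, hxp, map_one]⟩

theorem centralizer_sup_zpowers (K : Subgroup G) (k : G) :
    centralizer (K : Set G) ⊓ centralizer {k} ≤ centralizer ((K ⊔ zpowers k : Subgroup G) : Set G) := by
  refine le_centralizer_iff.mp (sup_le ?_ ?_)
  · exact (le_centralizer_iff.mp inf_le_left)
  · refine zpowers_le.mpr (mem_centralizer_iff.mpr fun x hx => ?_)
    exact mem_centralizer_singleton_iff.mp hx.2

/-- A bound for the index of the centralizer when all commutators lie in a subgroup of order `p`. -/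
theorem centralizer_bound [Finite G] {p : ℕ} [Fact p.Prime] (hG : IsPGroup p G) {Ω D K0 : Subgroup G}
    (hΩ : Nat.card Ω = p) (hD : D ≤ centralizer (K0 : Set G)) :
    ∀ K : Subgroup G, K0 ≤ K → (∀ d ∈ D, ∀ k ∈ K, d * k * d⁻¹ * k⁻¹ ∈ Ω) →
      (centralizer (K : Set G)).relIndex D ≤ K0.relIndex K := by
  intro K hK hcom
  have hp : p.Prime := Fact.out
  obtain ⟨K1, hK01, hK1⟩ := Finite.exists_le_maximal
    (p := fun L : Subgroup G => K0 ≤ L ∧ L ≤ K ∧ (centralizer (L : Set G)).relIndex D ≤ K0.relIndex L)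
    (a := K0) ⟨le_rfl, hK, by rw [relIndex_self, relIndex_eq_one.mpr hD]⟩
  obtain ⟨-, hle, hb⟩ := hK1.prop
  suffices K1 = K by rwa [this] at hb
  by_contra hne
  obtain ⟨k, hk, hk1⟩ := SetLike.exists_of_lt (lt_of_le_of_ne hle hne)
  have hone : (centralizer ({k} : Set G)).relIndex D ≤ p := by
    let f : ↥D ⧸ (centralizer ({k} : Set G)).subgroupOf D → Ω := fun c =>
      Quotient.liftOn' c (fun d => (⟨(d : G) * k * (d : G)⁻¹ * k⁻¹, hcom d d.2 k hk⟩ : Ω)) (by
        intro a b hab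
        have hab' : (a : G)⁻¹ * b ∈ centralizer ({k} : Set G) :=
          mem_subgroupOf.mp (QuotientGroup.leftRel_apply.mp hab)
        refine Subtype.ext ?_
        show (a : G) * k * (a : G)⁻¹ * k⁻¹ = (b : G) * k * (b : G)⁻¹ * k⁻¹
        have h1 := mem_centralizer_singleton_iff.mp hab'
        calc (a : G) * k * (a : G)⁻¹ * k⁻¹
            = (a : G) * (k * ((a : G)⁻¹ * b)) * (b : G)⁻¹ * k⁻¹ := by group
          _ = (a : G) * (((a : G)⁻¹ * b) * k) * (b : G)⁻¹ * k⁻¹ := by rw [h1]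
          _ = (b : G) * k * (b : G)⁻¹ * k⁻¹ := by group)
    have hf : Function.Injective f := by
      intro a b
      induction a using QuotientGroup.induction_on with
      | H a =>
        induction b using QuotientGroup.induction_on with
        | H b =>
          intro h
          have h1 : (a : G) * k * (a : G)⁻¹ * k⁻¹ = (b : G) * k * (b : G)⁻¹ * k⁻¹ := congrArg Subtype.val h
          rw [QuotientGroup.eq, mem_subgroupOf, mem_centralizer_singleton_iff]
          push_cast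
          calc (a : G)⁻¹ * b * k = (a : G)⁻¹ * ((b : G) * k * (b : G)⁻¹ * k⁻¹) * k * b := by group
            _ = (a : G)⁻¹ * ((a : G) * k * (a : G)⁻¹ * k⁻¹) * k * b := by rw [h1]
            _ = k * ((a : G)⁻¹ * b) := by group
    exact (Nat.card_le_card_of_injective f hf).trans hΩ.le
  have hgood : (centralizer ((K1 ⊔ zpowers k : Subgroup G) : Set G)).relIndex D ≤
      K0.relIndex (K1 ⊔ zpowers k) := by
    refine (relIndex_le_of_le_left (centralizer_sup_zpowers K1 k) index_ne_zero_of_finite).trans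
      (relIndex_inf_le.trans ?_)
    rw [← relIndex_mul_relIndex K0 K1 _ hK1.prop.1 le_sup_left]
    refine Nat.mul_le_mul hb (hone.trans (Nat.le_of_dvd (Nat.pos_of_ne_zero index_ne_zero_of_finite) ?_))
    obtain ⟨e, he⟩ := IsPGroup.iff_card.mp (hG.to_subgroup (K1 ⊔ zpowers k))
    obtain ⟨m, -, hm⟩ := (Nat.dvd_prime_pow hp).mp (he ▸ relIndex_dvd_card K1 (K1 ⊔ zpowers k))
    rw [hm]
    refine dvd_pow_self p fun h0 => hk1 ?_
    exact relIndex_eq_one.mp (by rw [hm, h0, pow_zero]) (mem_sup_right (mem_zpowers k))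
  have := hK1.le_of_ge ⟨hK1.prop.1.trans le_sup_left, sup_le hle (zpowers_le.mpr hk), hgood⟩ le_sup_left
  exact hk1 (this (mem_sup_right (mem_zpowers k)))

theorem pow_formula {x y : G} (hz : ∀ g : G, Commute (y * x * y⁻¹ * x⁻¹) g) (n : ℕ) :
    ∃ k : ℕ, (x * y) ^ n = (y * x * y⁻¹ * x⁻¹) ^ k * (x ^ n * y ^ n) := by
  set c := y * x * y⁻¹ * x⁻¹ with hc
  have h1 : y * x = c * (x * y) := by rw [hc]; group
  have hyx : ∀ m : ℕ, y ^ m * x = c ^ m * (x * y ^ m) := by
    intro m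
    induction m with
    | zero => simp
    | succ m ih =>
      calc y ^ (m + 1) * x = y * (y ^ m * x) := by rw [pow_succ', mul_assoc]
        _ = (y * c ^ m) * (x * y ^ m) := by rw [ih, mul_assoc]
        _ = (c ^ m * y) * (x * y ^ m) := by rw [((hz y).pow_left m).eq]
        _ = c ^ m * (y * x) * y ^ m := by simp only [mul_assoc]
        _ = c ^ m * (c * (x * y)) * y ^ m := by rw [h1]
        _ = c ^ (m + 1) * (x * y ^ (m + 1)) := by simp only [pow_succ c m, pow_succ' y m, mul_assoc]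
  induction n with
  | zero => exact ⟨0, by simp⟩
  | succ n ih =>
    obtain ⟨k, hk⟩ := ih
    refine ⟨k + n, ?_⟩
    calc (x * y) ^ (n + 1) = c ^ k * (x ^ n * y ^ n) * (x * y) := by rw [pow_succ, hk]
      _ = c ^ k * (x ^ n * (y ^ n * x) * y) := by simp only [mul_assoc]
      _ = c ^ k * ((x ^ n * c ^ n) * (x * y ^ n) * y) := by rw [hyx]; simp only [mul_assoc]
      _ = c ^ k * ((c ^ n * x ^ n) * (x * y ^ n) * y) := by rw [((hz (x ^ n)).pow_left n).eq]
      _ = c ^ (k + n) * (x ^ (n + 1) * y ^ (n + 1)) := by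
        simp only [pow_add c k n, pow_succ x n, pow_succ y n, mul_assoc]

theorem mul_pow_mem {p : ℕ} {x y : G} {S : Subgroup G} (hz : ∀ g : G, Commute (y * x * y⁻¹ * x⁻¹) g)
    (hx : x ^ p ∈ S) (hy : y ^ p ∈ S) (hc : y * x * y⁻¹ * x⁻¹ ∈ S) : (x * y) ^ p ∈ S := by
  obtain ⟨k, hk⟩ := pow_formula hz p
  rw [hk]
  exact mul_mem (pow_mem hc k) (mul_mem hx hy)

/-- Elements of `T` that are central of order `p` modulo `U`. -/
theorem exists_step [Finite G] {p : ℕ} [Fact p.Prime] (hG : IsPGroup p G) {U T : Subgroup G} [U.Normal]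
    (hT : T.Normal) (hUT : U ≤ T) (hne : U ≠ T) :
    ∃ x ∈ T, x ∉ U ∧ x ^ p ∈ U ∧ ∀ g : G, g * x * g⁻¹ * x⁻¹ ∈ U := by
  have hQ : IsPGroup p (G ⧸ U) := hG.to_quotient U
  have := hQ.isNilpotent
  set T' := T.map (QuotientGroup.mk' U) with hT'
  have hT'n : T'.Normal := hT.map _ (QuotientGroup.mk'_surjective U)
  have hT'1 : T' ≠ ⊥ := fun h => hne (le_antisymm hUT (fun t ht => by
    have : QuotientGroup.mk' U t ∈ T' := mem_map_of_mem _ ht
    rwa [h, mem_bot, QuotientGroup.mk'_apply, QuotientGroup.eq_one_iff] at this))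
  have hdvd : p ∣ Nat.card T' := (hQ.to_subgroup T').card_eq_or_dvd.resolve_left fun e => hT'1 (card_eq_one.mp e)
  obtain ⟨n, hn, hn1⟩ : ∃ n ∈ T' ⊓ center (G ⧸ U), n ≠ 1 := by
    let _ : MulAction (ConjAct (G ⧸ U)) T' := inferInstance
    have hpc : IsPGroup p (ConjAct (G ⧸ U)) := hQ
    obtain ⟨v, hv, hv1⟩ := hpc.exists_fixed_point_of_prime_dvd_card_of_fixed_point T' hdvd (a := (1 : T'))
      (fun g => by ext; simp [ConjAct.Subgroup.val_conj_smul])
    refine ⟨v, ⟨v.2, mem_center_iff.mpr fun g => ?_⟩, fun e => hv1 (Subtype.ext e).symm⟩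
    have := congrArg Subtype.val (hv (ConjAct.toConjAct g))
    rw [ConjAct.Subgroup.val_conj_smul, ConjAct.smul_def, ConjAct.ofConjAct_toConjAct] at this
    rw [← mul_inv_eq_iff_eq_mul]; exact this
  obtain ⟨c, hc⟩ := exists_prime_orderOf_dvd_card' (G := (T' ⊓ center (G ⧸ U) : Subgroup (G ⧸ U))) p
    (((hQ.to_subgroup _).card_eq_or_dvd).resolve_left fun e => hn1 (by
      have := card_eq_one.mp e
      rw [this, mem_bot] at hn; exact hn))
  obtain ⟨t, ht, htc⟩ := c.2.1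
  have hq1 : QuotientGroup.mk' U t ≠ 1 := fun e => by
    rw [htc] at e
    rw [OneMemClass.coe_eq_one] at e
    rw [e, orderOf_one] at hc
    exact (Fact.out : p.Prime).one_lt.ne hc
  refine ⟨t, ht, fun h => hq1 ((QuotientGroup.eq_one_iff t).mpr h), ?_, fun g => ?_⟩
  · rw [← QuotientGroup.eq_one_iff, ← QuotientGroup.mk'_apply, map_pow, htc, ← hc, ← orderOf_coe]
    exact pow_orderOf_eq_one _
  · rw [← QuotientGroup.eq_one_iff, ← QuotientGroup.mk'_apply, map_mul, map_mul, map_mul, map_inv, map_inv,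
      htc, mem_center_iff.mp c.2.2]
    group

theorem main [Finite G] {p : ℕ} [Fact p.Prime] (hG : IsPGroup p G)
    (hsymp : ∀ A : Subgroup G, A.Characteristic → IsMulCommutative A → IsCyclic A) :
    ∃ E R : Subgroup G, (∀ e ∈ E, ∀ r ∈ R, e * r = r * e) ∧ E ⊔ R = ⊤ ∧
      (E = ⊥ ∨ Cfsg.IsExtraspecial p ↥E) ∧ (IsCyclic R ∨ (p = 2 ∧ 16 ≤ Nat.card R ∧
        ((∃ m : ℕ, Nonempty (↥R ≃* DihedralGroup m)) ∨ (∃ m : ℕ, Nonempty (↥R ≃* QuaternionGroup m)) ∨
          Cfsg.IsQuasiDihedral ↥R))) := by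
  classical
  have hp : p.Prime := Fact.out
  by_cases hab : IsMulCommutative G
  · refine ⟨⊥, ⊤, fun e he r _ => ?_, bot_sup_eq ⊤, Or.inl rfl, Or.inl (hsymp ⊤ inferInstance inferInstance)⟩
    rw [mem_bot.mp he, one_mul, mul_one]
  have : Nontrivial G := by
    by_contra h
    rw [not_nontrivial_iff_subsingleton] at h
    exact hab ⟨⟨fun a b => Subsingleton.elim _ _⟩⟩
  obtain ⟨U, hZU, hUmax⟩ := Finite.exists_le_maximal
    (p := fun A : Subgroup G => A.Characteristic ∧ IsMulCommutative A) (a := center G)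
    ⟨inferInstance, inferInstance⟩
  obtain ⟨hUchar, hUab⟩ := hUmax.prop
  have hUn : U.Normal := normal_of_characteristic U
  have hUcyc : IsCyclic U := hsymp U hUchar hUab
  have hU1 : U ≠ ⊥ := fun h => by
    have := hG.center_nontrivial
    exact (nontrivial_iff_ne_bot _).mp this (le_bot_iff.mp (h ▸ hZU))
  obtain ⟨⟨u, hu⟩, hug⟩ := hUcyc.exists_generator
  have hUu : U = zpowers u := by
    refine le_antisymm (fun x hx => ?_) (zpowers_le.mpr hu)
    obtain ⟨k, hk⟩ := mem_zpowers_iff.mp (hug ⟨x, hx⟩)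
    exact ⟨k, by simpa using congrArg Subtype.val hk⟩
  obtain ⟨n, hn⟩ := IsPGroup.iff_card.mp (hG.to_subgroup U)
  have hn1 : 1 ≤ n := by
    rcases Nat.eq_zero_or_pos n with h | h
    · exact absurd (card_eq_one.mp (by rw [hn, h, pow_zero])) hU1
    · exact h
  obtain ⟨n, rfl⟩ : ∃ m, n = m + 1 := ⟨n - 1, by omega⟩
  have huo : orderOf u = p ^ (n + 1) := by rw [← Nat.card_zpowers, ← hUu, hn]
  set z := u ^ p ^ n with hz
  have hzo : orderOf z = p := by
    rw [hz, orderOf_pow' u (pow_ne_zero n hp.ne_zero), huo, Nat.gcd_eq_right (pow_dvd_pow p (Nat.le_succ n)),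
      pow_succ', Nat.mul_div_cancel _ (pow_pos hp.pos n)]
  set Ω := zpowers z with hΩdef
  have hΩcard : Nat.card Ω = p := by rw [Nat.card_zpowers, hzo]
  have hΩU : Ω ≤ U := zpowers_le.mpr (pow_mem hu _)
  have hΩmem : ∀ c ∈ U, c ^ p = 1 → c ∈ Ω := by
    intro c hc hcp
    rw [hUu] at hc
    obtain ⟨k, rfl⟩ := mem_zpowers_iff.mp hc
    rw [← zpow_natCast, ← zpow_mul, ← orderOf_dvd_iff_zpow_eq_one, huo, pow_succ, Nat.cast_mul] at hcp
    obtain ⟨j, rfl⟩ := Int.dvd_of_mul_dvd_mul_right (by exact_mod_cast hp.ne_zero) hcp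
    refine ⟨j, ?_⟩
    simp only [hz]
    rw [← zpow_natCast, ← zpow_mul]
  have hΩpow : ∀ c ∈ Ω, c ^ p = 1 := fun c hc => by
    rw [← orderOf_dvd_iff_pow_eq_one, ← hΩcard]; exact orderOf_dvd_natCard _ hc
  have hΩchar : Ω.Characteristic := char_of_forall fun φ x hx =>
    hΩmem _ (char_apply hUchar φ (hΩU hx)) (by rw [← map_pow, hΩpow x hx, map_one])
  have hΩc : ∀ c ∈ Ω, ∀ g : G, Commute c g := by
    intro c hc g
    have hzc : Ω ≤ center G := by
      have hd : Ω ⊓ center G ≠ ⊥ := by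
        intro h
        have hn' : Ω.Normal := normal_of_characteristic Ω
        obtain ⟨x, hx, hx1⟩ := (bot_or_exists_ne_one Ω).resolve_left fun e => by
          rw [e, card_bot] at hΩcard; exact hp.one_lt.ne hΩcard
        let _ : MulAction (ConjAct G) Ω := inferInstance
        have hpc : IsPGroup p (ConjAct G) := hG
        obtain ⟨v, hv, hv1⟩ := hpc.exists_fixed_point_of_prime_dvd_card_of_fixed_point Ω (hΩcard ▸ dvd_rfl)
          (a := (1 : Ω)) (fun g => by ext; simp [ConjAct.Subgroup.val_conj_smul])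
        refine hv1 (Subtype.ext ?_).symm
        have hvz : (v : G) ∈ Ω ⊓ center G := ⟨v.2, mem_center_iff.mpr fun g => by
          have := congrArg Subtype.val (hv (ConjAct.toConjAct g))
          rw [ConjAct.Subgroup.val_conj_smul, ConjAct.smul_def, ConjAct.ofConjAct_toConjAct] at this
          rw [← mul_inv_eq_iff_eq_mul]; exact this⟩
        rw [h, mem_bot] at hvz
        exact hvz
      have hdvd : Nat.card (Ω ⊓ center G : Subgroup G) ∣ p := hΩcard ▸ card_dvd_of_le inf_le_left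
      have := ((Nat.dvd_prime hp).mp hdvd).resolve_left fun e => hd (card_eq_one.mp e)
      exact (eq_of_le_of_card_ge inf_le_left (this.symm ▸ hΩcard.le)).ge.trans inf_le_right
    exact (mem_center_iff.mp (hzc hc) g).symm
  set C := centralizer (U : Set G) with hCdef
  have hCchar : C.Characteristic := inferInstance
  have hUC : U ≤ C := fun x hx => mem_centralizer_iff.mpr fun y hy =>
    congrArg Subtype.val (mul_comm' (⟨y, hy⟩ : U) ⟨x, hx⟩)
  have hUCc : ∀ x ∈ C, ∀ v ∈ U, Commute x v := fun x hx v hv => ((mem_centralizer_iff.mp hx) v hv).symm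
  have hcomp : ∀ x y : G, x ^ p ∈ U → y ∈ C → (∀ g : G, g * x * g⁻¹ * x⁻¹ ∈ U) → x ∈ C →
      y * x * y⁻¹ * x⁻¹ ∈ Ω := by
    intro x y hxp hy hxg hx
    refine hΩmem _ (hxg y) ?_
    have hcx : Commute x (y * x * y⁻¹ * x⁻¹) := hUCc x hx _ (hxg y)
    have h1 : y * x ^ p * y⁻¹ = x ^ p := by rw [(hUCc y hy _ hxp).eq, mul_inv_cancel_right]
    have h2 : (y * x * y⁻¹) ^ p = x ^ p := by rw [conj_pow, h1]
    rw [show y * x * y⁻¹ = (y * x * y⁻¹ * x⁻¹) * x by group, hcx.symm.mul_pow, mul_eq_right] at h2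
    exact h2
  let D : Subgroup G :=
    { carrier := {x | x ∈ C ∧ x ^ p ∈ U ∧ ∀ g : G, g * x * g⁻¹ * x⁻¹ ∈ U}
      one_mem' := ⟨one_mem _, by rw [one_pow]; exact one_mem _, fun g => by simp⟩
      mul_mem' := fun {a b} ha hb => ⟨mul_mem ha.1 hb.1,
        mul_pow_mem (hΩc _ (hcomp a b ha.2.1 hb.1 ha.2.2 ha.1)) ha.2.1 hb.2.1
          (hΩU (hcomp a b ha.2.1 hb.1 ha.2.2 ha.1)), fun g => by
          have h1 : a * (g * b * g⁻¹ * b⁻¹) * a⁻¹ = g * b * g⁻¹ * b⁻¹ := by
            rw [(hUCc a ha.1 _ (hb.2.2 g)).eq, mul_inv_cancel_right]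
          rw [show g * (a * b) * g⁻¹ * (a * b)⁻¹ = (g * a * g⁻¹ * a⁻¹) * (a * (g * b * g⁻¹ * b⁻¹) * a⁻¹) by group, h1]
          exact mul_mem (ha.2.2 g) (hb.2.2 g)⟩
      inv_mem' := fun {a} ha => ⟨inv_mem ha.1, by rw [inv_pow]; exact inv_mem ha.2.1, fun g => by
        have h1 := hUn.conj_mem _ (inv_mem (ha.2.2 g)) a⁻¹
        rwa [show a⁻¹ * (g * a * g⁻¹ * a⁻¹)⁻¹ * a⁻¹⁻¹ = g * a⁻¹ * g⁻¹ * a⁻¹⁻¹ by group] at h1⟩ }
  have hUD : U ≤ D := fun x hx => ⟨hUC hx, pow_mem hx p, fun g => mul_mem (hUn.conj_mem x hx g) (inv_mem hx)⟩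
  have hDC : D ≤ C := fun x hx => hx.1
  have hDchar : D.Characteristic := char_of_forall fun φ x hx => ⟨char_apply hCchar φ hx.1, by
      rw [← map_pow]; exact char_apply hUchar φ hx.2.1, fun g => by
      have := char_apply hUchar φ (hx.2.2 (φ.symm g))
      simpa using this⟩
  have hDΩ : ∀ x ∈ D, ∀ y ∈ D, y * x * y⁻¹ * x⁻¹ ∈ Ω := fun x hx y hy => hcomp x y hx.2.1 hy.1 hx.2.2 hx.1
  have maxU : ∀ A : Subgroup G, A.Characteristic → IsMulCommutative A → U ≤ A → A = U := fun A h1 h2 h3 =>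
    le_antisymm (hUmax.le_of_ge ⟨h1, h2⟩ h3) h3
  have hZD : D ⊓ centralizer (D : Set G) = U := by
    refine maxU _ (char_inf hDchar inferInstance) ⟨⟨fun a b => Subtype.ext ?_⟩⟩
      (le_inf hUD fun x hx => mem_centralizer_iff.mpr fun d hd => (hUCc d (hDC hd) x hx).eq)
    exact (mem_centralizer_iff.mp a.2.2 b b.2.1).symm
  -- `p`-th powers of elements of `D` are `p`-th powers in `U`
  set P1 := zpowers (u ^ p) with hP1
  have hP1U : P1 ≤ U := zpowers_le.mpr (pow_mem hu p)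
  have hP1mem : ∀ c ∈ P1, ∃ v ∈ U, v ^ p = c := by
    intro c hc
    obtain ⟨k, rfl⟩ := mem_zpowers_iff.mp hc
    exact ⟨u ^ k, zpow_mem hu k, by rw [← zpow_natCast, ← zpow_mul, mul_comm, zpow_mul, zpow_natCast]⟩
  have hP1pow : ∀ v ∈ U, v ^ p ∈ P1 := fun v hv => by
    rw [hUu] at hv
    obtain ⟨k, rfl⟩ := mem_zpowers_iff.mp hv
    exact ⟨k, by simp only; rw [← zpow_natCast, ← zpow_mul, mul_comm, zpow_mul, zpow_natCast]⟩
  have hP1char : P1.Characteristic := char_of_forall fun φ c hc => by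
    obtain ⟨v, hv, rfl⟩ := hP1mem c hc
    rw [map_pow]; exact hP1pow _ (char_apply hUchar φ hv)
  have hΩP1 : 1 ≤ n → Ω ≤ P1 := fun h => zpowers_le.mpr (by
    obtain ⟨m, rfl⟩ : ∃ m, n = m + 1 := ⟨n - 1, by omega⟩
    exact mem_zpowers_iff.mpr ⟨(p ^ m : ℕ), by rw [zpow_natCast, hz, pow_succ', pow_mul]⟩)
  have hroot : ∀ x ∈ D, ∃ v ∈ U, (x * v⁻¹) ^ p ∈ Ω := by
    intro x hx
    rcases Nat.eq_zero_or_pos n with h0 | hnpos
    · refine ⟨1, one_mem _, ?_⟩
      rw [inv_one, mul_one]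
      have hΩU' : Ω = U := eq_of_le_of_card_ge hΩU (by rw [hn, hΩcard, h0, pow_one])
      exact hΩU'.ge hx.2.1
    let K : Subgroup G :=
      { carrier := {y | y ∈ D ∧ y ^ p ∈ P1}
        one_mem' := ⟨one_mem _, by rw [one_pow]; exact one_mem _⟩
        mul_mem' := fun {a b} ha hb => ⟨mul_mem ha.1 hb.1, mul_pow_mem (hΩc _ (hDΩ a ha.1 b hb.1)) ha.2 hb.2
          (hΩP1 hnpos (hDΩ a ha.1 b hb.1))⟩
        inv_mem' := fun {a} ha => ⟨inv_mem ha.1, by rw [inv_pow]; exact inv_mem ha.2⟩ }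
    have hKD : K ≤ D := fun y hy => hy.1
    have hUK : U ≤ K := fun v hv => ⟨hUD hv, hP1pow v hv⟩
    suffices hK : x ∈ K by
      obtain ⟨v, hv, hvp⟩ := hP1mem _ hK.2
      refine ⟨v, hv, ?_⟩
      rw [(hUCc x hx.1 _ (inv_mem hv)).mul_pow, inv_pow, hvp, mul_inv_cancel]
      exact one_mem _
    by_contra hxK
    have hKchar : K.Characteristic := char_of_forall fun φ y hy => ⟨char_apply hDchar φ hy.1, by
      rw [← map_pow]; exact char_apply hP1char φ hy.2⟩
    set W := D ⊓ centralizer (K : Set G) with hW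
    have hWab : IsMulCommutative W := by
      refine ⟨⟨fun a b => Subtype.ext ?_⟩⟩
      show (a : G) * b = b * a
      by_cases ha : (a : G) ∈ K
      · exact mem_centralizer_iff.mp b.2.2 a ha
      by_cases hb : (b : G) ∈ K
      · exact (mem_centralizer_iff.mp a.2.2 b hb).symm
      obtain ⟨i, hi⟩ := mem_zpowers_iff.mp (hUu ▸ a.2.1.2.1)
      obtain ⟨j, hj⟩ := mem_zpowers_iff.mp (hUu ▸ b.2.1.2.1)
      have hip : ¬ (p : ℤ) ∣ i := fun ⟨k, hk⟩ => ha ⟨a.2.1, by
        rw [← hi, hk, zpow_mul, zpow_natCast]; exact zpow_mem (mem_zpowers _) k⟩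
      obtain ⟨s, t, hst⟩ : IsCoprime i (p : ℤ) :=
        ((Nat.prime_iff_prime_int.mp hp).coprime_iff_not_dvd.mpr hip).symm
      -- `b` is congruent to a power of `a` modulo `K`
      have hbK : (b : G) * ((a : G) ^ (j * s))⁻¹ ∈ K := by
        refine ⟨D.mul_mem b.2.1 (D.inv_mem (D.zpow_mem a.2.1 _)), ?_⟩
        have hcb : ((a : G) ^ (j * s))⁻¹ * b * (((a : G) ^ (j * s))⁻¹)⁻¹ * (b : G)⁻¹ ∈ Ω :=
          hDΩ _ b.2.1 _ (D.inv_mem (D.zpow_mem a.2.1 _))
        have hpw : ∀ w : G, (w ^ (j * s)) ^ p = (w ^ p) ^ (j * s) := fun w => by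
          rw [← zpow_natCast, ← zpow_mul, ← zpow_natCast, ← zpow_mul, mul_comm]
        have e1 : (b : G) ^ p * (((a : G) ^ (j * s))⁻¹) ^ p ∈ P1 := by
          rw [inv_pow, hpw, ← hi, ← hj, ← zpow_mul, ← zpow_neg, ← zpow_add,
            show j + -(i * (j * s)) = (p : ℤ) * (t * j) by linear_combination (-j) * hst, zpow_mul, zpow_natCast]
          exact zpow_mem (mem_zpowers _) _
        obtain ⟨l, hl⟩ := pow_formula (hΩc _ hcb) p
        rw [hl]
        exact mul_mem (pow_mem (hΩP1 hnpos hcb) l) e1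
      have h1 : Commute (a : G) ((b : G) * ((a : G) ^ (j * s))⁻¹) :=
        ((mem_centralizer_iff.mp a.2.2) _ hbK).symm
      have h2 := h1.mul_right ((Commute.refl (a : G)).zpow_right (j * s))
      rwa [inv_mul_cancel_right] at h2
    have hWU : W = U := maxU W (char_inf hDchar inferInstance) hWab
      (le_inf hUD fun v hv => mem_centralizer_iff.mpr fun y hy => (hUCc y (hDC (hKD hy)) v hv).eq)
    have hb := centralizer_bound hG (Ω := Ω) hΩcard (D := D) (K0 := U)
      (fun d hd => mem_centralizer_iff.mpr fun v hv => ((hUCc d (hDC hd) v hv).eq).symm) K hUK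
      (fun d hd k hk => hDΩ k (hKD hk) d hd)
    rw [← inf_relIndex_right, inf_comm, ← hW, hWU] at hb
    have h3 := relIndex_mul_relIndex U K D hUK hKD
    have h4 : K.relIndex D ≤ 1 := by
      by_contra h
      push Not at h
      have h5 : 0 < U.relIndex K := Nat.pos_of_ne_zero index_ne_zero_of_finite
      have h6 := Nat.mul_le_mul_left (U.relIndex K) h
      omega
    have h7 : K.relIndex D ≠ 0 := index_ne_zero_of_finite
    exact hxK (relIndex_eq_one.mp (by omega) hx)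
  let E0 : Subgroup G :=
    { carrier := {x | x ∈ D ∧ x ^ p ∈ Ω}
      one_mem' := ⟨one_mem _, by rw [one_pow]; exact one_mem _⟩
      mul_mem' := fun {a b} ha hb => ⟨mul_mem ha.1 hb.1,
        mul_pow_mem (hΩc _ (hDΩ a ha.1 b hb.1)) ha.2 hb.2 (hDΩ a ha.1 b hb.1)⟩
      inv_mem' := fun {a} ha => ⟨inv_mem ha.1, by rw [inv_pow]; exact inv_mem ha.2⟩ }
  have hE0char : E0.Characteristic := char_of_forall fun φ x hx => ⟨char_apply hDchar φ hx.1, by
    rw [← map_pow]; exact char_apply hΩchar φ hx.2⟩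
  have hΩE0 : Ω ≤ E0 := fun c hc => ⟨hUD (hΩU hc), pow_mem hc p⟩
  obtain ⟨E, hΩE, hEmax⟩ := Finite.exists_le_maximal
    (p := fun E : Subgroup G => Ω ≤ E ∧ E ≤ E0 ∧ E ⊓ U = Ω) (a := Ω)
    ⟨le_rfl, hΩE0, inf_eq_left.mpr hΩU⟩
  obtain ⟨-, hEE0, hEU⟩ := hEmax.prop
  have hgE : ∀ g : G, ∀ e ∈ E0, g * e * g⁻¹ * e⁻¹ ∈ Ω := by
    intro g e he
    refine hΩmem _ (he.1.2.2 g) ?_
    have hce : Commute e (g * e * g⁻¹ * e⁻¹) := hUCc e he.1.1 _ (he.1.2.2 g)
    have h2 : (g * e * g⁻¹) ^ p = e ^ p := by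
      rw [conj_pow, ← (hΩc _ he.2 g).eq, mul_inv_cancel_right]
    rw [show g * e * g⁻¹ = (g * e * g⁻¹ * e⁻¹) * e by group, hce.symm.mul_pow, mul_eq_right] at h2
    exact h2
  have hEn : E.Normal := ⟨fun e he g => by
    have := mul_mem (hΩE (hgE g e (hEE0 he))) he
    rwa [inv_mul_cancel_right] at this⟩
  have hE0EU : E0 ≤ E ⊔ U := by
    intro x hx
    by_contra hxn
    have hxE : x ∉ E := fun h => hxn (mem_sup_left h)
    refine hxE (hEmax.le_of_ge ⟨hΩE.trans le_sup_left, sup_le hEE0 (zpowers_le.mpr hx), ?_⟩ le_sup_left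
      (mem_sup_right (mem_zpowers x)))
    refine le_antisymm (fun w hw => ?_) (le_inf (hΩE.trans le_sup_left) hΩU)
    obtain ⟨e, he, _, ⟨k, rfl⟩, rfl⟩ := mem_sup_of_normal_left.mp hw.1
    by_cases hk : (p : ℤ) ∣ k
    · obtain ⟨j, rfl⟩ := hk
      refine hEU.le ⟨mul_mem he (hΩE ?_), hw.2⟩
      simp only
      rw [zpow_mul, zpow_natCast]
      exact zpow_mem hx.2 j
    · refine absurd ?_ hxn
      obtain ⟨s, t, hst⟩ : IsCoprime k (p : ℤ) :=
        ((Nat.prime_iff_prime_int.mp hp).coprime_iff_not_dvd.mpr hk).symm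
      have hxk : x ^ k ∈ E ⊔ U := by
        have h := mul_mem (inv_mem (mem_sup_left (T := U) he)) (mem_sup_right (S := E) hw.2)
        simp only [inv_mul_cancel_left] at h
        exact h
      have hxp : x ^ (p : ℤ) ∈ E ⊔ U := by rw [zpow_natCast]; exact mem_sup_left (hΩE hx.2)
      have : x = (x ^ k) ^ s * (x ^ (p : ℤ)) ^ t := by
        rw [← zpow_mul, ← zpow_mul, ← zpow_add, mul_comm k, mul_comm (p : ℤ), hst, zpow_one]
      rw [this]; exact mul_mem (zpow_mem hxk s) (zpow_mem hxp t)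
  have hED : E ⊔ U = D := by
    refine le_antisymm (sup_le (fun e he => (hEE0 he).1) hUD) fun x hx => ?_
    obtain ⟨v, hv, hvp⟩ := hroot x hx
    have := mul_mem (hE0EU ⟨mul_mem hx (inv_mem (hUD hv)), hvp⟩) (mem_sup_right hv)
    rwa [inv_mul_cancel_right] at this
  have hEC : E ≤ C := fun e he => hDC (hEE0 he).1
  set R := centralizer (E : Set G) with hRdef
  have hRn : R.Normal := inferInstance
  have hUR : U ≤ R := fun v hv => mem_centralizer_iff.mpr fun e he => (hUCc e (hEC he) v hv).eq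
  have hDR : ∀ x ∈ D, x ∈ R → x ∈ U := by
    intro x hx hxR
    rw [← hZD]
    refine ⟨hx, ?_⟩
    rw [← hED]
    have : E ⊔ U ≤ centralizer ({x} : Set G) := sup_le
      (fun e he => mem_centralizer_singleton_iff.mpr (mem_centralizer_iff.mp hxR e he))
      (fun v hv => mem_centralizer_singleton_iff.mpr ((hUCc x (hDC hx) v hv).eq.symm))
    exact mem_centralizer_iff.mpr fun d hd => mem_centralizer_singleton_iff.mp (this hd)
  have hER : E ⊓ R = Ω := le_antisymm (fun x hx => hEU.le ⟨hx.1, hDR x (hEE0 hx.1).1 hx.2⟩)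
    (le_inf hΩE (hΩU.trans hUR))
  have hsup : E ⊔ R = ⊤ := by
    refine eq_top_of_card_eq _ (le_antisymm (card_le_card_group _) ?_)
    have hb := centralizer_bound hG (Ω := Ω) hΩcard (D := ⊤) (K0 := Ω)
      (fun g _ => mem_centralizer_iff.mpr fun c hc => (hΩc c hc g).eq) E hΩE
      (fun g _ e he => hgE g e (hEE0 he))
    rw [← hRdef, relIndex_top_right] at hb
    have h1 := Lib.Coprime.card_sup_mul_card_inf E R
    rw [sup_comm, inf_comm, hER] at h1
    have h2 := card_mul_index (Ω.subgroupOf E)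
    rw [Nat.card_congr (subgroupOfEquivOfLe hΩE).toEquiv] at h2
    rw [← R.card_mul_index]
    refine Nat.le_of_mul_le_mul_right ?_ (Nat.card_pos (α := Ω))
    rw [h1, mul_assoc, ← h2, mul_comm R.index]
    exact Nat.mul_le_mul_left _ (Nat.mul_le_mul_left _ hb)
  have hRC : R ⊓ C = U := by
    refine le_antisymm ?_ (le_inf hUR hUC)
    by_contra hle
    obtain ⟨x, hxT, hxU, hxp, hxg⟩ := exists_step hG (T := R ⊓ C) inferInstance (le_inf hUR hUC)
      (fun e => hle e.ge)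
    exact hxU (hDR x ⟨hxT.2, hxp, hxg⟩ hxT.1)
  have hcomm : ∀ e ∈ E, ∀ r ∈ R, e * r = r * e := fun e he r hr => mem_centralizer_iff.mp hr e he
  have special : ∀ H : Subgroup G, Ω ≤ H → H ≠ Ω → H ⊓ centralizer (H : Set G) = Ω →
      (∀ x ∈ H, ∀ y ∈ H, y * x * y⁻¹ * x⁻¹ ∈ Ω) → (∀ x ∈ H, x ^ p ∈ Ω) → Cfsg.IsExtraspecial p ↥H := by
    intro H hΩH hne hZ hc hpw
    have hcen : center ↥H = Ω.subgroupOf H := by
      ext x
      rw [mem_center_iff, mem_subgroupOf]
      constructor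
      · intro hx
        rw [← hZ]
        exact ⟨x.2, mem_centralizer_iff.mpr fun y hy => congrArg Subtype.val (hx ⟨y, hy⟩)⟩
      · intro hx y
        exact Subtype.ext (hΩc _ hx y).eq.symm
    have hcc : Nat.card (center ↥H) = p := by
      rw [hcen, Nat.card_congr (subgroupOfEquivOfLe hΩH).toEquiv, hΩcard]
    have hcle : commutator ↥H ≤ center ↥H := by
      rw [hcen, commutator_eq_closure, closure_le]
      rintro _ ⟨a, b, rfl⟩
      rw [SetLike.mem_coe, mem_subgroupOf, commutatorElement_def]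
      exact hc b b.2 a a.2
    have hcomm' : commutator ↥H = center ↥H := by
      refine eq_of_le_of_card_ge hcle ?_
      have hdvd : Nat.card (commutator ↥H) ∣ p := hcc ▸ card_dvd_of_le hcle
      rcases (Nat.dvd_prime hp).mp hdvd with h | h
      · exfalso
        refine hne (le_antisymm (fun x hx => ?_) hΩH)
        rw [← hZ]
        refine ⟨hx, mem_centralizer_iff.mpr fun y hy => ?_⟩
        have hm : ⁅(⟨y, hy⟩ : ↥H), (⟨x, hx⟩ : ↥H)⁆ ∈ commutator ↥H :=
          commutator_mem_commutator (mem_top _) (mem_top _)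
        rw [card_eq_one.mp h, mem_bot, commutatorElement_eq_one_iff_mul_comm] at hm
        exact congrArg Subtype.val hm
      · rw [hcc, h]
    refine ⟨⟨hG.to_subgroup H, le_antisymm ?_ ?_, hcomm'⟩, hcc⟩
    · refine Lib.PGroupFrattini.frattini_le hp _ hcle fun x => ?_
      rw [hcen, mem_subgroupOf]
      exact hpw x x.2
    · rw [← hcomm']
      exact Lib.PGroupFrattini.commutator_le_frattini (hG.to_subgroup H)
  have hExtra : E ≠ Ω → Cfsg.IsExtraspecial p ↥E := fun hne => special E hΩE hne hER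
    (fun x hx y hy => hDΩ x (hEE0 hx).1 y (hEE0 hy).1) (fun x hx => (hEE0 hx).2)
  have hEΩ : E = Ω → R = ⊤ := fun h => by
    rw [← top_le_iff, hRdef]
    intro g _
    exact mem_centralizer_iff.mpr fun e he => (hΩc e (h ▸ he) g).eq
  have finish : (IsCyclic R ∨ (p = 2 ∧ 16 ≤ Nat.card R ∧ ((∃ m : ℕ, Nonempty (↥R ≃* DihedralGroup m)) ∨
      (∃ m : ℕ, Nonempty (↥R ≃* QuaternionGroup m)) ∨ Cfsg.IsQuasiDihedral ↥R))) →
      ∃ E R : Subgroup G, (∀ e ∈ E, ∀ r ∈ R, e * r = r * e) ∧ E ⊔ R = ⊤ ∧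
        (E = ⊥ ∨ Cfsg.IsExtraspecial p ↥E) ∧ (IsCyclic R ∨ (p = 2 ∧ 16 ≤ Nat.card R ∧
          ((∃ m : ℕ, Nonempty (↥R ≃* DihedralGroup m)) ∨ (∃ m : ℕ, Nonempty (↥R ≃* QuaternionGroup m)) ∨
            Cfsg.IsQuasiDihedral ↥R))) := by
    intro hR
    by_cases hE : E = Ω
    · refine ⟨⊥, R, fun e he r _ => ?_, by rw [bot_sup_eq]; exact hEΩ hE, Or.inl rfl, hR⟩
      rw [mem_bot.mp he, one_mul, mul_one]
    · exact ⟨E, R, hcomm, hsup, Or.inr (hExtra hE), hR⟩
  by_cases hRab : IsMulCommutative R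
  · refine finish (Or.inl ?_)
    have hRU : R = U := le_antisymm (fun r hr => hRC.le ⟨hr, mem_centralizer_iff.mpr fun v hv =>
      congrArg Subtype.val (mul_comm' (⟨v, hUR hv⟩ : R) ⟨r, hr⟩)⟩) hUR
    rw [hRU]; exact hUcyc
  have hUneR : ¬ R ≤ C := fun h => hRab (by
    have hRU : R = U := le_antisymm (fun r hr => hRC.le ⟨hr, h hr⟩) hUR
    rw [hRU]; exact hUab)
  have hn0 : 1 ≤ n := by
    by_contra h
    refine hUneR fun r _ => mem_centralizer_iff.mpr fun v hv => ?_
    have hΩU' : Ω = U := eq_of_le_of_card_ge hΩU (by rw [hn, hΩcard, show n = 0 by omega, pow_one])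
    exact (hΩc v (hΩU'.ge hv) r).eq
  set U' := U.subgroupOf R with hU'
  have hU'n : U'.Normal := inferInstance
  have hU'c : IsCyclic U' := isCyclic_of_surjective (subgroupOfEquivOfLe hUR).symm.toMonoidHom
    (subgroupOfEquivOfLe hUR).symm.surjective
  have hU'card : Nat.card U' = p ^ (n + 1) := by rw [Nat.card_congr (subgroupOfEquivOfLe hUR).toEquiv, hn]
  have hC' : centralizer (U' : Set ↥R) = U' := by
    ext r
    rw [mem_centralizer_iff, mem_subgroupOf]
    constructor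
    · intro hr
      exact hRC.le ⟨r.2, mem_centralizer_iff.mpr fun v hv =>
        congrArg Subtype.val (hr ⟨v, hUR hv⟩ (mem_subgroupOf.mpr hv))⟩
    · intro hr v hv
      exact Subtype.ext (hUCc _ (hUC hr) _ (mem_subgroupOf.mp hv)).eq.symm
  rcases Nat.lt_or_ge n 2 with hn2 | hn2
  · -- `U` of order `p ^ 2`: here `G` is extraspecial
    obtain rfl : n = 1 := by omega
    have hup : u ^ p ∈ Ω := by rw [hΩdef, hz, pow_one]; exact mem_zpowers _
    have hRΩ : ∀ r ∈ R, ∀ v ∈ U, r * v * r⁻¹ * v⁻¹ ∈ Ω := by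
      intro r _ v hv
      refine hΩmem _ (mul_mem (hUn.conj_mem v hv r) (inv_mem hv)) ?_
      have hvp : v ^ p ∈ Ω := by
        obtain ⟨k, rfl⟩ := mem_zpowers_iff.mp (hUu ▸ hv)
        rw [← zpow_natCast, ← zpow_mul, mul_comm, zpow_mul, zpow_natCast]
        exact zpow_mem hup k
      have hcv : Commute (r * v * r⁻¹) v⁻¹ := hUCc _ (hUC (hUn.conj_mem v hv r)) _ (inv_mem hv)
      rw [hcv.mul_pow, conj_pow, ← (hΩc _ hvp r).eq, mul_inv_cancel_right, inv_pow, mul_inv_cancel]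
    have hidx : U.relIndex R ≤ p := by
      have hb := centralizer_bound hG (Ω := Ω) hΩcard (D := R) (K0 := Ω)
        (fun g _ => mem_centralizer_iff.mpr fun c hc => (hΩc c hc g).eq) U hΩU hRΩ
      rw [← inf_relIndex_right, inf_comm, ← hCdef, hRC] at hb
      have h2 := card_mul_index (Ω.subgroupOf U)
      rw [Nat.card_congr (subgroupOfEquivOfLe hΩU).toEquiv, hΩcard, hn] at h2
      have h3 : Ω.relIndex U = p := Nat.eq_of_mul_eq_mul_left hp.pos (h2.trans (sq p))
      exact hb.trans h3.le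
    obtain ⟨r, hr, hrC⟩ := SetLike.not_le_iff_exists.mp hUneR
    have hrU : r ∉ U := fun h => hrC (hUC h)
    have hUr : U ⊔ zpowers r = R := by
      refine le_antisymm (sup_le hUR (zpowers_le.mpr hr)) (relIndex_eq_one.mp ?_)
      have h1 := relIndex_mul_relIndex U (U ⊔ zpowers r) R le_sup_left (sup_le hUR (zpowers_le.mpr hr))
      have h2 : p ≤ U.relIndex (U ⊔ zpowers r) := by
        refine Nat.le_of_dvd (Nat.pos_of_ne_zero index_ne_zero_of_finite) ?_
        obtain ⟨e, he⟩ := IsPGroup.iff_card.mp (hG.to_subgroup (U ⊔ zpowers r))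
        obtain ⟨m, -, hm⟩ := (Nat.dvd_prime_pow hp).mp (he ▸ relIndex_dvd_card U (U ⊔ zpowers r))
        rw [hm]
        refine dvd_pow_self p fun h0 => hrU ?_
        exact relIndex_eq_one.mp (by rw [hm, h0, pow_zero]) (mem_sup_right (mem_zpowers r))
      by_contra h3
      have h4 : 2 ≤ (U ⊔ zpowers r).relIndex R := by
        have : (U ⊔ zpowers r).relIndex R ≠ 0 := index_ne_zero_of_finite
        omega
      have h5 := Nat.mul_le_mul h2 h4
      have := hp.pos
      omega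
    -- the centre of `R`
    have hRZ : R ⊓ centralizer (R : Set G) = Ω := by
      refine le_antisymm (fun x hx => ?_) (le_inf (hΩU.trans hUR) fun c hc =>
        mem_centralizer_iff.mpr fun g _ => (hΩc c hc g).eq.symm)
      have hxU : x ∈ U := hRC.le ⟨hx.1, mem_centralizer_iff.mpr fun v hv =>
        mem_centralizer_iff.mp hx.2 v (hUR hv)⟩
      obtain ⟨k, rfl⟩ := mem_zpowers_iff.mp (hUu ▸ hxU)
      by_cases hk : (p : ℤ) ∣ k
      · obtain ⟨j, rfl⟩ := hk
        rw [zpow_mul, zpow_natCast]; exact zpow_mem hup j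
      · refine absurd (mem_centralizer_iff.mpr fun v hv => ?_) hrC
        obtain ⟨s, t, hst⟩ : IsCoprime k (p : ℤ) :=
          ((Nat.prime_iff_prime_int.mp hp).coprime_iff_not_dvd.mpr hk).symm
        have hru : Commute r u := by
          have c1 : Commute r (u ^ k) := mem_centralizer_iff.mp hx.2 r hr
          have c2 : Commute r (u ^ (p : ℤ)) := by rw [zpow_natCast]; exact (hΩc _ hup r).symm
          have c3 := (c1.zpow_right s).mul_right (c2.zpow_right t)
          rwa [← zpow_mul, ← zpow_mul, ← zpow_add, mul_comm k, mul_comm (p : ℤ), hst, zpow_one] at c3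
        obtain ⟨i, rfl⟩ := mem_zpowers_iff.mp (hUu ▸ hv)
        exact (hru.zpow_right i).eq.symm
    have hrp : r ^ p ∈ Ω := by
      have hrU' : r ^ p ∈ U := by
        have hrel : U.relIndex R ∣ p := by
          obtain ⟨e, he⟩ := IsPGroup.iff_card.mp (hG.to_subgroup R)
          obtain ⟨m, -, hm⟩ := (Nat.dvd_prime_pow hp).mp (he ▸ relIndex_dvd_card U R)
          rw [hm] at hidx ⊢
          exact (pow_dvd_pow p ((Nat.pow_le_pow_iff_right hp.one_lt).mp (hidx.trans (pow_one p).ge))).trans (pow_one p).dvd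
        obtain ⟨c, hc⟩ := hrel
        rw [hc, pow_mul]
        refine pow_mem ?_ c
        exact mem_subgroupOf.mp (pow_index_mem U' (⟨r, hr⟩ : ↥R))
      refine hRZ.le ⟨hUR hrU', ?_⟩
      have : R ≤ centralizer ({r ^ p} : Set G) := by
        refine hUr.ge.trans (sup_le (fun v hv => mem_centralizer_singleton_iff.mpr (hUCc v (hUC hv) _ hrU').eq) ?_)
        exact zpowers_le.mpr (mem_centralizer_singleton_iff.mpr ((Commute.refl r).pow_right p).eq)
      exact mem_centralizer_iff.mpr fun y hy => mem_centralizer_singleton_iff.mp (this hy)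
    -- commutators and powers of `R` lie in `Ω`
    let H : Subgroup G :=
      { carrier := {x | ∀ g : G, x * g * x⁻¹ * g⁻¹ ∈ Ω}
        one_mem' := fun g => by simp
        mul_mem' := fun {a b} ha hb g => by
          have h1 : a * (b * g * b⁻¹ * g⁻¹) * a⁻¹ = b * g * b⁻¹ * g⁻¹ := by
            rw [← (hΩc _ (hb g) a).eq, mul_inv_cancel_right]
          rw [show a * b * g * (a * b)⁻¹ * g⁻¹ = (a * (b * g * b⁻¹ * g⁻¹) * a⁻¹) * (a * g * a⁻¹ * g⁻¹) by group, h1]
          exact mul_mem (hb g) (ha g)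
        inv_mem' := fun {a} ha g => by
          have h1 : a⁻¹ * (a * g * a⁻¹ * g⁻¹)⁻¹ * a = (a * g * a⁻¹ * g⁻¹)⁻¹ := by
            rw [← ((hΩc _ (ha g) a⁻¹).inv_left).eq, inv_mul_cancel_right]
          rw [show a⁻¹ * g * a⁻¹⁻¹ * g⁻¹ = a⁻¹ * (a * g * a⁻¹ * g⁻¹)⁻¹ * a by group, h1]
          exact inv_mem (ha g) }
    have hH : (⊤ : Subgroup G) ≤ H := by
      rw [← hsup, ← hUr]
      refine sup_le (fun e he g => ?_) (sup_le (fun v hv g => ?_) (zpowers_le.mpr fun g => ?_))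
      · have h := inv_mem (hgE g e (hEE0 he))
        rwa [show (g * e * g⁻¹ * e⁻¹)⁻¹ = e * g * e⁻¹ * g⁻¹ by group] at h
      · obtain ⟨e, he, w, hw, rfl⟩ := mem_sup_of_normal_left.mp (hsup.ge (mem_top g))
        have hev : Commute e v := hUCc e (hEC he) v hv
        have h := inv_mem (hRΩ w hw v hv)
        have h1 : e * (w * v * w⁻¹ * v⁻¹)⁻¹ * e⁻¹ = (w * v * w⁻¹ * v⁻¹)⁻¹ := by
          rw [← (hΩc _ h e).eq, mul_inv_cancel_right]
        rw [← h1] at h
        convert h using 1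
        calc v * (e * w) * v⁻¹ * (e * w)⁻¹ = (v * e) * w * v⁻¹ * w⁻¹ * e⁻¹ := by group
          _ = (e * v) * w * v⁻¹ * w⁻¹ * e⁻¹ := by rw [hev.eq]
          _ = e * (w * v * w⁻¹ * v⁻¹)⁻¹ * e⁻¹ := by group
      · obtain ⟨e, he, w, hw, rfl⟩ := mem_sup_of_normal_left.mp (hsup.ge (mem_top g))
        obtain ⟨v, hv, _, ⟨i, rfl⟩, rfl⟩ := mem_sup_of_normal_left.mp (hUr.ge hw)
        have her : Commute e r := hcomm e he r hr
        have h := hRΩ r hr v hv
        have h1 : e * (r * v * r⁻¹ * v⁻¹) * e⁻¹ = r * v * r⁻¹ * v⁻¹ := by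
          rw [← (hΩc _ h e).eq, mul_inv_cancel_right]
        rw [← h1] at h
        convert h using 1
        simp only
        calc r * (e * (v * r ^ i)) * r⁻¹ * (e * (v * r ^ i))⁻¹
            = (r * e) * v * r⁻¹ * v⁻¹ * e⁻¹ := by group
          _ = (e * r) * v * r⁻¹ * v⁻¹ * e⁻¹ := by rw [her.eq]
          _ = e * (r * v * r⁻¹ * v⁻¹) * e⁻¹ := by group
    let P : Subgroup G :=
      { carrier := {x | x ^ p ∈ Ω}
        one_mem' := by simp
        mul_mem' := fun {a b} ha hb => mul_pow_mem (hΩc _ (hH (mem_top b) a)) ha hb (hH (mem_top b) a)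
        inv_mem' := fun {a} ha => by
          show a⁻¹ ^ p ∈ Ω
          rw [inv_pow]; exact inv_mem ha }
    have hP : (⊤ : Subgroup G) ≤ P := by
      rw [← hsup, ← hUr]
      refine sup_le (fun e he => (hEE0 he).2) (sup_le (fun v hv => ?_) (zpowers_le.mpr hrp))
      obtain ⟨k, rfl⟩ := mem_zpowers_iff.mp (hUu ▸ hv)
      show (u ^ k) ^ p ∈ Ω
      rw [← zpow_natCast, ← zpow_mul, mul_comm, zpow_mul, zpow_natCast]
      exact zpow_mem hup k
    have htop : Cfsg.IsExtraspecial p ↥(⊤ : Subgroup G) := by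
      refine special ⊤ le_top (fun h => hab ?_) (le_antisymm ?_ (le_inf le_top fun c hc =>
        mem_centralizer_iff.mpr fun g _ => (hΩc c hc g).eq.symm))
        (fun x _ y _ => hH (mem_top y) x) (fun x hx => hP hx)
      · exact ⟨⟨fun a b => (hΩc a (h.le (mem_top a)) b).eq⟩⟩
      · rintro x ⟨-, hx⟩
        have hxR : x ∈ R := mem_centralizer_iff.mpr fun e _ => mem_centralizer_iff.mp hx e (mem_top e)
        exact hRZ.le ⟨hxR, mem_centralizer_iff.mpr fun y _ => mem_centralizer_iff.mp hx y (mem_top y)⟩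
    exact ⟨⊤, center G, fun e _ r hr => mem_center_iff.mp hr e, top_sup_eq _, Or.inr htop,
      Or.inl (hsymp _ inferInstance inferInstance)⟩
  rcases S3761.result (hG.to_subgroup R) hRab U' hU'c (n + 1) hU'card hC' with
    ⟨hp2, hcard, hiso⟩ | ⟨-, hel, hordV, -⟩
  · subst hp2
    refine finish (Or.inr ⟨rfl, ?_, hiso⟩)
    rw [hcard]
    calc 16 = 2 ^ 4 := by norm_num
      _ ≤ 2 ^ (n + 1 + 1) := Nat.pow_le_pow_right (by norm_num) (by omega)
  exfalso
  set R1 := centralizer (Cfsg.powerClosure p 1 U' : Set ↥R) with hR1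
  set R2 := centralizer (E0 : Set G) ⊓ centralizer (P1 : Set G) with hR2
  have hR2char : R2.Characteristic := char_inf inferInstance inferInstance
  have hR2R : R2 ≤ R := inf_le_left.trans (centralizer_le hEE0)
  have hΩ2 : ∀ v ∈ U, v ^ p ∈ Ω → v ∈ P1 := by
    intro v hv hvp
    obtain ⟨k, rfl⟩ := mem_zpowers_iff.mp (hUu ▸ hv)
    have h1 := hΩpow _ hvp
    rw [← zpow_natCast, ← zpow_natCast, ← zpow_mul, ← zpow_mul, ← orderOf_dvd_iff_zpow_eq_one, huo,
      show n + 1 = (n - 2) + 1 + 1 + 1 by omega, pow_succ, pow_succ, Nat.cast_mul, Nat.cast_mul] at h1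
    have hp0 : (p : ℤ) ≠ 0 := by exact_mod_cast hp.ne_zero
    rw [← mul_assoc k] at h1
    have h2 := Int.dvd_of_mul_dvd_mul_right hp0 (Int.dvd_of_mul_dvd_mul_right hp0 h1)
    rw [pow_succ', Nat.cast_mul] at h2
    obtain ⟨j, rfl⟩ := (dvd_mul_right (p : ℤ) _).trans h2
    rw [zpow_mul, zpow_natCast]
    exact zpow_mem (mem_zpowers _) j
  have hR1eq : ∀ r : ↥R, r ∈ R1 ↔ (r : G) ∈ R2 := by
    intro r
    have hc1 : r ∈ R1 ↔ (r : G) ∈ centralizer (P1 : Set G) := by
      rw [hR1, Cfsg.powerClosure, centralizer_closure, mem_centralizer_iff, mem_centralizer_iff]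
      constructor
      · intro h c hc
        obtain ⟨v, hv, rfl⟩ := hP1mem c hc
        exact congrArg Subtype.val (h _ ⟨⟨v, hUR hv⟩, mem_subgroupOf.mpr hv,
          Subtype.ext (by simp [pow_one])⟩ : (⟨v ^ p, pow_mem (hUR hv) p⟩ : ↥R) * r = r * _)
      · rintro h _ ⟨v, hv, rfl⟩
        refine Subtype.ext ?_
        simp only [coe_mul, coe_pow, pow_one]
        exact h _ (hP1pow _ (mem_subgroupOf.mp hv))
    rw [hc1]
    refine ⟨fun h => ⟨?_, h⟩, fun h => h.2⟩
    refine mem_centralizer_iff.mpr fun x hx => ?_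
    obtain ⟨e, he, v, hv, rfl⟩ := mem_sup_of_normal_left.mp (hE0EU hx)
    have hvp : v ^ p ∈ Ω := by
      have : (e⁻¹ * (e * v)) ∈ E0 := mul_mem (inv_mem (hEE0 he)) hx
      rw [inv_mul_cancel_left] at this
      exact this.2
    have c1 : Commute (r : G) e := (hcomm e he r r.2).symm
    have c2 : Commute (r : G) v := (mem_centralizer_iff.mp h v (hΩ2 v hv hvp)).symm
    exact (c1.mul_right c2).eq.symm
  have hmap : (Cfsg.omegaOne p R1).map R.subtype = Cfsg.omegaOne p R2 := by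
    rw [Cfsg.omegaOne, Cfsg.omegaOne, MonoidHom.map_closure]
    congr 1
    ext x
    constructor
    · rintro ⟨y, ⟨hy, hyp⟩, rfl⟩
      exact ⟨(hR1eq y).mp hy, congrArg Subtype.val hyp⟩
    · rintro ⟨hx, hxp⟩
      exact ⟨⟨x, hR2R hx⟩, ⟨(hR1eq _).mpr hx, Subtype.ext hxp⟩, rfl⟩
  have hVab : IsMulCommutative ↥((Cfsg.omegaOne p R1).map R.subtype) := by
    refine ⟨⟨?_⟩⟩
    rintro ⟨_, a, ha, rfl⟩ ⟨_, b, hb, rfl⟩
    have := hel.1
    exact Subtype.ext (congrArg (fun w : ↥(Cfsg.omegaOne p R1) => ((w : ↥R) : G)) (mul_comm' ⟨a, ha⟩ ⟨b, hb⟩))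
  have hVc : IsCyclic ↥((Cfsg.omegaOne p R1).map R.subtype) :=
    hsymp _ (by rw [hmap]; exact omegaOne_char hR2char) hVab
  obtain ⟨g, hg⟩ := hVc.exists_generator
  have h1 : orderOf g ∣ p := by
    rw [orderOf_dvd_iff_pow_eq_one]
    obtain ⟨a, ha, hag⟩ := g.2
    refine Subtype.ext ?_
    rw [coe_pow, ← hag, ← map_pow, hel.2 a ha, map_one, coe_one]
  have h2 : Nat.card ↥((Cfsg.omegaOne p R1).map R.subtype) = p ^ 2 := by
    rw [card_map_of_injective R.subtype_injective, hordV]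
  rw [← orderOf_eq_card_of_forall_mem_zpowers hg] at h2
  rw [h2] at h1
  have := Nat.le_of_dvd hp.pos h1
  nlinarith [hp.two_le]

end

/-- Let G be a finite p-group of symplectic type: every characteristic abelian subgroup of G is cyclic. Then G = E ∗ R is a central product of subgroups E and R (they commute elementwise and generate G) where E is extraspecial or trivial, and R is cyclic, or p = 2 and R is dihedral, semidihedral or generalized quaternion of order at least 16. -/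
theorem result {G : Type*} [Group G] [Finite G] {p : ℕ} [Fact p.Prime] (hG : IsPGroup p G) (hsymp : ∀ A : Subgroup G, A.Characteristic → IsMulCommutative A → IsCyclic A) : ∃ E R : Subgroup G, (∀ e ∈ E, ∀ r ∈ R, e * r = r * e) ∧ E ⊔ R = ⊤ ∧ (E = ⊥ ∨ Cfsg.IsExtraspecial p ↥E) ∧ (IsCyclic R ∨ (p = 2 ∧ 16 ≤ Nat.card R ∧ ((∃ m : ℕ, Nonempty (↥R ≃* DihedralGroup m)) ∨ (∃ m : ℕ, Nonempty (↥R ≃* QuaternionGroup m)) ∨ Cfsg.IsQuasiDihedral ↥R))) := by
  exact main hG hsymp

end Cfsg.Agent.S3762
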