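import Cfsg.Statements.S1774
import Cfsg.Agent.S3762
import Cfsg.Agent.Lib.Components.Bender
import Cfsg.Agent.Lib.Involution.Basic

set_option autoImplicit false
open Cfsg
open scoped commutatorElement

namespace Cfsg.Agent.S1774

section
variable {G : Type*} [Group G]

/-- the properties of `Q = F*(C_G(z))` that are needed -/
structure Sym (z : G) (Q : Subgroup G) : Prop where
  mem : z ∈ Q
  two : z * z = 1
  ne : z ≠ 1
  cz : ∀ x ∈ Q, Commute z x
  norm : ∀ c, Commute c z → ∀ x ∈ Q, c * x * c⁻¹ ∈ Q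
  sq : ∀ x ∈ Q, x * x = 1 ∨ x * x = z
  comm : ∀ x ∈ Q, ∀ y ∈ Q, x * y * x⁻¹ * y⁻¹ = 1 ∨ x * y * x⁻¹ * y⁻¹ = z
  invo : ∀ x ∈ Q, (∀ y ∈ Q, Commute x y) → x * x = 1 → x = 1 ∨ x = z
  cent : ∀ c, Commute c z → (∀ x ∈ Q, Commute c x) → c ∈ Q

theorem Sym.map {z : G} {Q : Subgroup G} (h : Sym z Q) (g : G) :
    Sym (g * z * g⁻¹) (Q.map (MulAut.conj g).toMonoidHom) := by
  have hmem : ∀ x : G, x ∈ Q.map (MulAut.conj g).toMonoidHom ↔ g⁻¹ * x * g ∈ Q := by
    intro x
    constructor
    · rintro ⟨y, hy, rfl⟩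
      simpa [mul_assoc] using hy
    · intro hx
      exact ⟨_, hx, by simp [mul_assoc]⟩
  have hcm : ∀ a b : G, Commute a b → Commute (g⁻¹ * a * g) (g⁻¹ * b * g) := by
    intro a b hab
    show _ = _
    calc g⁻¹ * a * g * (g⁻¹ * b * g) = g⁻¹ * (a * b) * g := by group
      _ = g⁻¹ * (b * a) * g := by rw [hab.eq]
      _ = _ := by group
  have hcm' : ∀ a b : G, Commute (g⁻¹ * a * g) (g⁻¹ * b * g) → Commute a b := by
    intro a b hab
    show _ = _
    calc a * b = g * ((g⁻¹ * a * g) * (g⁻¹ * b * g)) * g⁻¹ := by group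
      _ = g * ((g⁻¹ * b * g) * (g⁻¹ * a * g)) * g⁻¹ := by rw [hab.eq]
      _ = b * a := by group
  have ez : g⁻¹ * (g * z * g⁻¹) * g = z := by group
  have hval : ∀ w : G, g⁻¹ * w * g = 1 ∨ g⁻¹ * w * g = z → w = 1 ∨ w = g * z * g⁻¹ := by
    rintro w (e | e)
    · left; calc w = g * (g⁻¹ * w * g) * g⁻¹ := by group
        _ = 1 := by rw [e]; group
    · right; rw [← e]; group
  constructor
  · rw [hmem, ez]; exact h.mem
  · rw [show g * z * g⁻¹ * (g * z * g⁻¹) = g * (z * z) * g⁻¹ by group, h.two]; group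
  · intro e; exact h.ne (by rw [← ez, e]; group)
  · intro x hx; exact hcm' _ _ (ez.symm ▸ h.cz _ ((hmem x).1 hx))
  · intro c hc x hx
    rw [hmem] at hx ⊢
    have := h.norm _ (ez ▸ hcm _ _ hc) _ hx
    rwa [show g⁻¹ * c * g * (g⁻¹ * x * g) * (g⁻¹ * c * g)⁻¹ = g⁻¹ * (c * x * c⁻¹) * g by group] at this
  · intro x hx
    refine hval _ ?_
    have := h.sq _ ((hmem x).1 hx)
    rwa [show g⁻¹ * x * g * (g⁻¹ * x * g) = g⁻¹ * (x * x) * g by group] at this
  · intro x hx y hy
    refine hval _ ?_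
    have := h.comm _ ((hmem x).1 hx) _ ((hmem y).1 hy)
    rwa [show g⁻¹ * x * g * (g⁻¹ * y * g) * (g⁻¹ * x * g)⁻¹ * (g⁻¹ * y * g)⁻¹ =
      g⁻¹ * (x * y * x⁻¹ * y⁻¹) * g by group] at this
  · intro x hx hc h2
    refine hval _ (h.invo _ ((hmem x).1 hx) (fun y hy => ?_) ?_)
    · have := hcm _ _ (hc (g * y * g⁻¹) ((hmem _).2 (by simpa [mul_assoc] using hy)))
      simpa [mul_assoc] using this
    · rw [show g⁻¹ * x * g * (g⁻¹ * x * g) = g⁻¹ * (x * x) * g by group, h2]; group
  · intro c hc hx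
    rw [hmem]
    refine h.cent _ (ez ▸ hcm _ _ hc) fun y hy => ?_
    have := hcm _ _ (hx (g * y * g⁻¹) ((hmem _).2 (by simpa [mul_assoc] using hy)))
    simpa [mul_assoc] using this

theorem Sym.cc {z : G} {Q : Subgroup G} (h : Sym z Q) {x y : G} (hx : x ∈ Q) (hy : y ∈ Q) {u : G} (hu : u ∈ Q) :
    Commute (x * y * x⁻¹ * y⁻¹) u := by
  rcases h.comm x hx y hy with e | e <;> rw [e]
  exacts [Commute.one_left u, h.cz u hu]

theorem Sym.not_commute {z : G} {Q : Subgroup G} (h : Sym z Q) {x y : G} (hx : x ∈ Q) (hy : y ∈ Q)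
    (hn : ¬ Commute x y) : x * y * x⁻¹ = z * y := by
  rcases h.comm x hx y hy with e | e
  · exact absurd (commutatorElement_eq_one_iff_mul_comm.1 e) hn
  · rw [← e]; group

theorem Sym.mul_commute {z : G} {Q : Subgroup G} (h : Sym z Q) {x y u : G} (hx : x ∈ Q) (hy : y ∈ Q) (hu : u ∈ Q)
    (h1 : ¬ Commute x u) (h2 : ¬ Commute y u) : Commute (x * y) u := by
  have e1 := h.not_commute hx hu h1
  have e2 := h.not_commute hy hu h2
  show x * y * u = u * (x * y)
  calc x * y * u = x * (y * u * y⁻¹) * y := by group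
    _ = x * (z * u) * y := by rw [e2]
    _ = z * (x * u * x⁻¹) * x * y := by rw [← mul_assoc x z u, ← (h.cz x hx).eq]; group
    _ = (z * z) * u * (x * y) := by rw [e1]; group
    _ = u * (x * y) := by rw [h.two, one_mul]

/-- in a group with four central cosets two commuting elements differ by a central one -/
def Small (Q : Subgroup G) : Prop :=
  ∀ x ∈ Q, ∀ y ∈ Q, Commute x y →
    (∀ u ∈ Q, Commute x u) ∨ (∀ u ∈ Q, Commute y u) ∨ ∀ u ∈ Q, Commute (x * y) u

theorem Small.map {Q : Subgroup G} (h : Small Q) (g : G) : Small (Q.map (MulAut.conj g).toMonoidHom) := by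
  rintro _ ⟨x, hx, rfl⟩ _ ⟨y, hy, rfl⟩ hc
  have hc' : Commute x y := (commute_map_iff (f := (MulAut.conj g).toMonoidHom) (MulAut.conj g).injective).1 hc
  rcases h x hx y hy hc' with k | k | k
  · left; rintro _ ⟨u, hu, rfl⟩; exact (k u hu).map _
  · right; left; rintro _ ⟨u, hu, rfl⟩; exact (k u hu).map _
  · right; right; rintro _ ⟨u, hu, rfl⟩; rw [← map_mul]; exact (k u hu).map _

theorem key {z t g : G} {Q W : Subgroup G} (hQ : Sym z Q) (hg : g * z * g⁻¹ = t)
    (hWg : W = Q.map (MulAut.conj g).toMonoidHom) (htQ : t ∈ Q) (hne : t ≠ z) : z ∈ W := by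
  have hW : Sym t W := hWg ▸ hg ▸ hQ.map g
  by_contra hzW
  have htW : t ∈ W := hW.mem
  have hzt : Commute z t := hQ.cz t htQ
  obtain ⟨q, hq, hqt⟩ : ∃ q ∈ Q, ¬ Commute q t := by
    by_contra hcon
    push Not at hcon
    rcases hQ.invo t htQ (fun y hy => (hcon y hy).symm) hW.two with e | e
    exacts [hW.ne e, hne e]
  have hqt' := hQ.not_commute hq htQ hqt
  have hqz : q * z * q⁻¹ = z := by rw [← (hQ.cz q hq).eq, mul_inv_cancel_right]
  -- no element of `W` sends `z` to `z * t`
  have hswap : ∀ u ∈ W, u * z * u⁻¹ ≠ z * t := by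
    intro u hu he
    have hut : u * t * u⁻¹ = t := by rw [← (hW.cz u hu).eq, mul_inv_cancel_right]
    set n := u * q * u with hn
    have hnz : n * z * n⁻¹ = t := by
      calc n * z * n⁻¹ = u * (q * (u * z * u⁻¹) * q⁻¹) * u⁻¹ := by rw [hn]; group
        _ = u * ((q * z * q⁻¹) * (q * t * q⁻¹)) * u⁻¹ := by rw [he]; group
        _ = u * ((z * z) * t) * u⁻¹ := by rw [hqz, hqt']; group
        _ = t := by rw [hQ.two, one_mul, hut]
    have hnt : n * t * n⁻¹ = z := by
      calc n * t * n⁻¹ = u * (q * (u * t * u⁻¹) * q⁻¹) * u⁻¹ := by rw [hn]; group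
        _ = u * (q * t * q⁻¹) * u⁻¹ := by rw [hut]
        _ = (u * z * u⁻¹) * (u * t * u⁻¹) := by rw [hqt']; group
        _ = z := by rw [he, hut, mul_assoc, hW.two, mul_one]
    have hngz : Commute (n * g) z := by
      show _ = _
      calc n * g * z = n * (g * z * g⁻¹) * n⁻¹ * (n * g) := by group
        _ = z * (n * g) := by rw [hg, hnt]
    apply hzW
    have h1 : (n * g)⁻¹ * t * (n * g) ∈ Q := by
      have := hQ.norm _ hngz.inv_left t htQ
      rwa [inv_inv] at this
    rw [hWg]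
    refine ⟨_, h1, ?_⟩
    show g * ((n * g)⁻¹ * t * (n * g)) * g⁻¹ = z
    calc g * ((n * g)⁻¹ * t * (n * g)) * g⁻¹ = n⁻¹ * t * n := by group
      _ = n⁻¹ * (n * z * n⁻¹) * n := by rw [hnz]
      _ = z := by group
  have hzi : z⁻¹ = z := inv_eq_of_mul_eq_one_right hQ.two
  have hti : t⁻¹ = t := inv_eq_of_mul_eq_one_right hW.two
  have hns : ∀ e ∈ W, z * e * z ≠ e * t := by
    intro e he h
    refine hswap e⁻¹ (inv_mem he) ?_
    calc e⁻¹ * z * e⁻¹⁻¹ = e⁻¹ * (z * e * z) * z⁻¹ := by group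
      _ = e⁻¹ * (e * t) * z⁻¹ := by rw [h]
      _ = z * t := by rw [hzi, inv_mul_cancel_left, hzt.eq]
  have hzW' : ∀ e ∈ W, z * e * z ∈ W := by
    intro e he
    have := hW.norm z hzt e he
    rwa [hzi] at this
  -- the displacement of `z` is an involution fixed by `z`
  have hdis : ∀ e ∈ W, e⁻¹ * (z * e * z) ∈ W ∧ (e⁻¹ * (z * e * z)) * (e⁻¹ * (z * e * z)) = 1 ∧
      z * (e⁻¹ * (z * e * z)) * z = e⁻¹ * (z * e * z) := by
    intro e he
    set w := e⁻¹ * (z * e * z) with hw
    have hwW : w ∈ W := mul_mem (inv_mem he) (hzW' e he)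
    have hzw : z * w * z = w⁻¹ := by
      rw [hw, show (e⁻¹ * (z * e * z))⁻¹ = z⁻¹ * e⁻¹ * z⁻¹ * e by group, hzi,
        show z * (e⁻¹ * (z * e * z)) * z = z * e⁻¹ * z * e * (z * z) by group, hQ.two, mul_one]
    have h2 : w * w = 1 := (hW.sq w hwW).resolve_right fun h => hns w hwW (by
      rw [hzw, inv_eq_of_mul_eq_one_right (show w * (w * t) = 1 by rw [← mul_assoc, h, hW.two])])
    exact ⟨hwW, h2, by rw [hzw, inv_eq_of_mul_eq_one_right h2]⟩
  suffices hfix : ∀ e ∈ W, z * e * z = e by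
    refine hzW (hW.cent z hzt fun e he => ?_)
    show z * e = e * z
    conv_rhs => rw [← hfix e he]
    rw [mul_assoc, hQ.two, mul_one]
  by_cases hX : ∀ x ∈ Q, ∀ y ∈ Q, Commute x t → Commute y t → Commute x y
  · -- the small case
    have hsm : Small Q := by
      have hcen : ∀ x ∈ Q, Commute x t → Commute x q → ∀ u ∈ Q, Commute x u := by
        intro x hx h1 h2 u hu
        by_cases hut : Commute u t
        · exact hX x hx u hu h1 hut
        · have hqu := hQ.mul_commute (inv_mem hq) hu htQ (fun h => hqt (by simpa using h.inv_left)) hut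
          have := h2.mul_right (hX x hx _ (mul_mem (inv_mem hq) hu) h1 hqu)
          rwa [mul_inv_cancel_left] at this
      have hmix : ∀ x ∈ Q, ∀ y ∈ Q, Commute x y → Commute x t → ¬ Commute y t → ∀ u ∈ Q, Commute x u := by
        intro x hx y hy hxy h1 h2
        refine hcen x hx h1 ?_
        have hyq := hQ.mul_commute hy (inv_mem hq) htQ h2 (fun h => hqt (by simpa using h.inv_left))
        have := ((hxy.symm.inv_left).mul_left ((hX x hx _ (mul_mem hy (inv_mem hq)) h1 hyq).symm)).symm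
        rw [inv_mul_cancel_left] at this
        simpa using this.inv_right
      intro x hx y hy hxy
      by_cases h1 : Commute x t
      · by_cases h2 : Commute y t
        · by_cases h3 : Commute x q
          · exact Or.inl (hcen x hx h1 h3)
          · by_cases h4 : Commute y q
            · exact Or.inr (Or.inl (hcen y hy h2 h4))
            · exact Or.inr (Or.inr (hcen _ (mul_mem hx hy) (h1.mul_left h2) (hQ.mul_commute hx hy hq h3 h4)))
        · exact Or.inl (hmix x hx y hy hxy h1 h2)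
      · by_cases h2 : Commute y t
        · exact Or.inr (Or.inl (hmix y hy x hx hxy.symm h2 h1))
        · exact Or.inr (Or.inr (hmix _ (mul_mem hx hy) x hx ((Commute.refl x).mul_left hxy.symm)
            (hQ.mul_commute hx hy htQ h1 h2) h1))
    have hsmW : Small W := hWg ▸ hsm.map g
    intro e he
    obtain ⟨hwW, hw2, hwz⟩ := hdis e he
    set w := e⁻¹ * (z * e * z) with hw
    have hze : z * e * z = e * w := by rw [hw, mul_inv_cancel_left]
    have hzc : ∀ c ∈ W, (∀ u ∈ W, Commute c u) → ∀ u ∈ W, Commute (z * c * z) u := by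
      intro c _ hc u hu
      have hh := hc _ (hzW' u hu)
      show _ = _
      calc z * c * z * u = z * (c * (z * u * z)) * z := by
            rw [show z * (c * (z * u * z)) * z = z * c * z * u * (z * z) by group, hQ.two, mul_one]
        _ = z * ((z * u * z) * c) * z := by rw [hh.eq]
        _ = (z * z) * u * (z * c * z) := by group
        _ = u * (z * c * z) := by rw [hQ.two, one_mul]
    by_cases hwc : ∀ u ∈ W, Commute w u
    · rcases hW.invo w hwW hwc hw2 with h | h
      · rw [hze, h, mul_one]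
      · exact absurd (h ▸ hze) (hns e he)
    exfalso
    apply hwc
    have hee : (z * e * z) * (z * e * z) = e * e := by
      rw [show z * e * z * (z * e * z) = z * e * (z * z) * e * z by group, hQ.two, mul_one,
        show z * e * e * z = z * (e * e) * z by group]
      rcases hW.sq e he with h | h <;> rw [h]
      · rw [mul_one, hQ.two]
      · rw [hzt.eq, mul_assoc, hQ.two, mul_one]
    have hew : Commute w e := by
      rw [hze] at hee
      show w * e = e * w
      have h5 : w * e * w = e := mul_left_cancel (a := e) (by simpa [mul_assoc] using hee)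
      calc w * e = w * e * w * w := by rw [mul_assoc (w * e), hw2, mul_one]
        _ = e * w := by rw [h5]
    rcases hsmW e he w hwW hew.symm with k | k | k
    · intro u hu
      rw [show w = e⁻¹ * (z * e * z) from rfl]
      exact ((k u hu).inv_left).mul_left (hzc e he k u hu)
    · exact k
    · intro u hu
      have h1 := hzc _ (mul_mem he hwW) k u hu
      rw [show z * (e * w) * z = e by
        rw [← hze, show z * (z * e * z) * z = (z * z) * e * (z * z) by group, hQ.two, one_mul, mul_one]] at h1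
      have := h1.inv_left.mul_left (k u hu)
      rwa [inv_mul_cancel_left] at this
  · push Not at hX
    obtain ⟨x₀, hx₀, y₀, hy₀, hxt, hyt, hxy⟩ := hX
    -- `[D, X] ≤ {1, t}`
    have hDX : ∀ d ∈ W, Commute d z → ∀ x ∈ Q, Commute x t →
        x * d * x⁻¹ = d ∨ x * d * x⁻¹ = d * t := by
      intro d hd hdz x hx hxt
      set a := d⁻¹ * (x * d * x⁻¹) with ha
      have haW : a ∈ W := mul_mem (inv_mem hd) (hW.norm x hxt d hd)
      have haQ : a ∈ Q := by
        have := mul_mem (hQ.norm d⁻¹ hdz.inv_left x hx) (inv_mem hx)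
        rw [inv_inv] at this
        rwa [ha, show d⁻¹ * (x * d * x⁻¹) = d⁻¹ * x * d * x⁻¹ by group]
      have haX : ∀ y ∈ Q, Commute y t → Commute a y := by
        intro y hy hyt'
        have hmem : a * y * a⁻¹ * y⁻¹ ∈ W := by
          rw [show a * y * a⁻¹ * y⁻¹ = a * (y * a⁻¹ * y⁻¹) by group]
          exact mul_mem haW (hW.norm y hyt' _ (inv_mem haW))
        rcases hQ.comm a haQ y hy with e | e
        · exact commutatorElement_eq_one_iff_mul_comm.1 e
        · exact absurd (e ▸ hmem) hzW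
      have hat : Commute a t := (hW.cz a haW).symm
      have haa : a * a = 1 := (hW.sq a haW).resolve_right fun h => by
        rcases hQ.sq a haQ with h' | h'
        · exact hW.ne (h ▸ h')
        · exact hne (h ▸ h')
      suffices a = 1 ∨ a = t by
        rcases this with h | h
        · left; rw [← mul_inv_cancel_left d (x * d * x⁻¹), ← ha, h, mul_one]
        · right; rw [← mul_inv_cancel_left d (x * d * x⁻¹), ← ha, h]
      have hcen : ∀ b ∈ Q, (∀ y ∈ Q, Commute y t → Commute b y) → Commute b q → ∀ u ∈ Q, Commute b u := by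
        intro b hb hbX hbq u hu
        by_cases hut : Commute u t
        · exact hbX u hu hut
        · have hqu := hQ.mul_commute (inv_mem hq) hu htQ (fun h => hqt (by simpa using h.inv_left)) hut
          have := hbq.mul_right (hbX _ (mul_mem (inv_mem hq) hu) hqu)
          rwa [mul_inv_cancel_left] at this
      by_cases haq : Commute a q
      · rcases hQ.invo a haQ (hcen a haQ haX haq) haa with h | h
        · exact Or.inl h
        · exact absurd (h ▸ haW) hzW
      · have hatq : Commute (a * t) q := hQ.mul_commute haQ htQ hq haq (fun h => hqt h.symm)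
        rcases hQ.invo (a * t) (mul_mem haQ htQ)
          (hcen _ (mul_mem haQ htQ) (fun y hy hyt' => (haX y hy hyt').mul_left hyt'.symm) hatq)
          (by rw [hat.symm.mul_mul_mul_comm, haa, hW.two, one_mul]) with h | h
        · right; rw [eq_inv_of_mul_eq_one_left h, hti]
        · exact absurd (show z ∈ W by rw [← h]; exact mul_mem haW htW) hzW
    -- the displacement of `x` commutes with `z`
    have hXW : ∀ x ∈ Q, Commute x t → ∀ e ∈ W,
        e⁻¹ * (x * e * x⁻¹) ∈ W ∧ Commute (e⁻¹ * (x * e * x⁻¹)) z := by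
      intro x hx hxt' e he
      set f := e⁻¹ * (x * e * x⁻¹) with hf
      have hfW : f ∈ W := mul_mem (inv_mem he) (hW.norm x hxt' e he)
      have hxe : x * e * x⁻¹ = e * f := by rw [hf, mul_inv_cancel_left]
      have hfD : ∀ d ∈ W, Commute d z → Commute f d := by
        intro d hd hdz
        have hxd : x * (e * d * e⁻¹ * d⁻¹) * x⁻¹ = e * d * e⁻¹ * d⁻¹ := by
          rcases hW.comm e he d hd with h | h <;> rw [h]
          · group
          · rw [hxt'.eq, mul_inv_cancel_right]
        have hxd' : (e * f) * d * (e * f)⁻¹ * d⁻¹ = e * d * e⁻¹ * d⁻¹ := by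
          rw [← hxd]
          rw [show x * (e * d * e⁻¹ * d⁻¹) * x⁻¹ = (x * e * x⁻¹) * (x * d * x⁻¹) * (x * e * x⁻¹)⁻¹ * (x * d * x⁻¹)⁻¹
            by group, hxe]
          rcases hDX d hd hdz x hx hxt' with h | h <;> rw [h]
          rw [show e * f * (d * t) * (e * f)⁻¹ * (d * t)⁻¹ = e * f * d * (t * (e * f)⁻¹) * t⁻¹ * d⁻¹ by group,
            (hW.cz _ (inv_mem (mul_mem he hfW))).eq]
          group
        show f * d = d * f
        have h3 : e * (f * d * f⁻¹) * e⁻¹ * d⁻¹ = e * d * e⁻¹ * d⁻¹ := by rw [← hxd']; group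
        have h4 := mul_left_cancel (mul_right_cancel (mul_right_cancel h3))
        calc f * d = f * d * f⁻¹ * f := by group
          _ = d * f := by rw [h4]
      obtain ⟨hwW, hw2, hwz⟩ := hdis f hfW
      set w := f⁻¹ * (z * f * z) with hw
      have hzf : z * f * z = f * w := by rw [hw, mul_inv_cancel_left]
      have hdz : ∀ d ∈ W, z * d * z = d → Commute d z := fun d _ h => by
        show d * z = z * d
        conv_lhs => rw [← h]
        rw [mul_assoc, hQ.two, mul_one]
      have hwD : Commute w z := hdz w hwW hwz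
      have hwd : ∀ d ∈ W, Commute d z → Commute w d := by
        intro d hd hd'
        have h1 : Commute (z * f * z) d := by
          have h2 := hfD d hd hd'
          exact (hd'.symm.mul_left h2).mul_left hd'.symm
        rw [hzf] at h1
        have := (hfD d hd hd').inv_left.mul_left h1
        rwa [inv_mul_cancel_left] at this
      have hfw : Commute f w := hfD w hwW hwD
      have hwall : ∀ e' ∈ W, Commute w e' := by
        intro e' he'
        obtain ⟨hvW, -, hvz⟩ := hdis e' he'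
        set v := e'⁻¹ * (z * e' * z) with hv
        have hze' : z * e' * z = e' * v := by rw [hv, mul_inv_cancel_left]
        have hvD : Commute v z := hdz v hvW hvz
        have hfv : Commute f v := hfD v hvW hvD
        have hwv : Commute w v := hwd v hvW hvD
        have e1 : z * (f * e' * f⁻¹ * e'⁻¹) * z = f * e' * f⁻¹ * e'⁻¹ := by
          rcases hW.comm f hfW e' he' with h | h <;> rw [h]
          · rw [mul_one, hQ.two]
          · rw [hzt.eq, mul_assoc, hQ.two, mul_one]
        have e2 : z * (f * e' * f⁻¹ * e'⁻¹) * z =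
            (z * f * z) * (z * e' * z) * (z * f * z)⁻¹ * (z * e' * z)⁻¹ := by
          simp only [mul_inv_rev, hzi, mul_assoc]
          simp only [← mul_assoc z z, hQ.two, one_mul]
        rw [e2, hzf, hze'] at e1
        have e3 : f * w * (e' * v) * (f * w)⁻¹ * (e' * v)⁻¹ = f * (w * e' * w⁻¹) * f⁻¹ * e'⁻¹ := by
          calc f * w * (e' * v) * (f * w)⁻¹ * (e' * v)⁻¹ = f * (w * e') * (v * w⁻¹) * f⁻¹ * v⁻¹ * e'⁻¹ := by group
            _ = f * (w * e') * (w⁻¹ * v) * f⁻¹ * v⁻¹ * e'⁻¹ := by rw [hwv.inv_left.eq]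
            _ = f * (w * e' * w⁻¹) * (v * f⁻¹) * v⁻¹ * e'⁻¹ := by group
            _ = f * (w * e' * w⁻¹) * (f⁻¹ * v) * v⁻¹ * e'⁻¹ := by rw [hfv.inv_left.eq]
            _ = _ := by group
        rw [e3] at e1
        have h4 := mul_left_cancel (mul_right_cancel (mul_right_cancel e1))
        show w * e' = e' * w
        calc w * e' = w * e' * w⁻¹ * w := by group
          _ = e' * w := by rw [h4]
      refine ⟨hfW, hdz f hfW ?_⟩
      rcases hW.invo w hwW hwall hw2 with h | h
      · rw [hzf, h, mul_one]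
      · exact absurd (h ▸ hzf) (hns f hfW)
    intro e he
    have hz' : z = x₀ * y₀ * x₀⁻¹ * y₀⁻¹ := by
      rcases hQ.comm x₀ hx₀ y₀ hy₀ with h | h
      · exact absurd (commutatorElement_eq_one_iff_mul_comm.1 h) hxy
      · exact h.symm
    have hpt : Commute (y₀ * x₀) t := hyt.mul_left hxt
    set e₀ := (y₀ * x₀)⁻¹ * e * (y₀ * x₀) with he₀
    have he₀W : e₀ ∈ W := by
      have := hW.norm _ hpt.inv_left e he
      rwa [inv_inv] at this
    obtain ⟨hf, hfz⟩ := hXW x₀ hx₀ hxt e₀ he₀W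
    obtain ⟨hf', hfz'⟩ := hXW y₀ hy₀ hyt e₀ he₀W
    set f := e₀⁻¹ * (x₀ * e₀ * x₀⁻¹) with hfdef
    set f' := e₀⁻¹ * (y₀ * e₀ * y₀⁻¹) with hfdef'
    have hxe : x₀ * e₀ * x₀⁻¹ = e₀ * f := by rw [hfdef, mul_inv_cancel_left]
    have hye : y₀ * e₀ * y₀⁻¹ = e₀ * f' := by rw [hfdef', mul_inv_cancel_left]
    have one_t : ∀ a : G, a = 1 ∨ a = t → Commute a z ∧ a * a = 1 := by
      rintro a (rfl | rfl)
      exacts [⟨Commute.one_left _, one_mul _⟩, ⟨hzt.symm, hW.two⟩]
    obtain ⟨a, ha, hxa⟩ : ∃ a, (a = 1 ∨ a = t) ∧ x₀ * f' * x₀⁻¹ = f' * a := by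
      rcases hDX f' hf' hfz' x₀ hx₀ hxt with h | h
      exacts [⟨1, Or.inl rfl, by rw [h, mul_one]⟩, ⟨t, Or.inr rfl, h⟩]
    obtain ⟨b, hb, hyb⟩ : ∃ b, (b = 1 ∨ b = t) ∧ y₀ * f * y₀⁻¹ = f * b := by
      rcases hDX f hf hfz y₀ hy₀ hyt with h | h
      exacts [⟨1, Or.inl rfl, by rw [h, mul_one]⟩, ⟨t, Or.inr rfl, h⟩]
    have key1 : z * e * z = e₀ * f * (f' * a) := by
      calc z * e * z = z * e * z⁻¹ := by rw [hzi]
        _ = x₀ * y₀ * ((y₀ * x₀)⁻¹ * e * (y₀ * x₀)) * (x₀ * y₀)⁻¹ := by rw [hz']; group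
        _ = x₀ * (y₀ * e₀ * y₀⁻¹) * x₀⁻¹ := by rw [← he₀]; group
        _ = (x₀ * e₀ * x₀⁻¹) * (x₀ * f' * x₀⁻¹) := by rw [hye]; group
        _ = _ := by rw [hxe, hxa]
    have key2 : e = e₀ * f' * (f * b) := by
      calc e = y₀ * x₀ * e₀ * (y₀ * x₀)⁻¹ := by rw [he₀]; group
        _ = y₀ * (x₀ * e₀ * x₀⁻¹) * y₀⁻¹ := by group
        _ = (y₀ * e₀ * y₀⁻¹) * (y₀ * f * y₀⁻¹) := by rw [hxe]; group
        _ = _ := by rw [hye, hyb]
    by_contra hne'
    apply hns e he
    rcases hW.sq e₀ he₀W with _ | _ <;>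
    · have hct : ∀ u ∈ W, Commute t u := hW.cz
      have hac : ∀ u ∈ W, Commute a u ∧ Commute b u := fun u hu => by
        constructor
        · rcases ha with rfl | rfl
          exacts [Commute.one_left u, hct u hu]
        · rcases hb with rfl | rfl
          exacts [Commute.one_left u, hct u hu]
      have hprod : ∃ s, (s = 1 ∨ s = t) ∧ z * e * z = e * s := by
        obtain ⟨-, sb⟩ := one_t b hb
        rcases hW.comm f hf f' hf' with h | h
        · have hff : f * f' = f' * f := commutatorElement_eq_one_iff_mul_comm.1 h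
          refine ⟨b * a, ?_, ?_⟩
          · rcases ha with rfl | rfl <;> rcases hb with rfl | rfl <;> simp [hW.two]
          · rw [key1, key2, show e₀ * f' * (f * b) * (b * a) = e₀ * (f' * f) * (b * b) * a by group, sb, ← hff]
            group
        · have hff : f * f' = f' * f * t := by
            calc f * f' = (f * f' * f⁻¹ * f'⁻¹) * (f' * f) := by group
              _ = f' * f * t := by rw [h, (hct _ (mul_mem hf' hf)).eq]
          refine ⟨b * (t * a), ?_, ?_⟩
          · rcases ha with rfl | rfl <;> rcases hb with rfl | rfl <;> simp [hW.two]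
          · rw [key1, key2, show e₀ * f' * (f * b) * (b * (t * a)) = e₀ * (f' * f * t) * a * 1 from ?_, ← hff]
            · group
            · rw [show e₀ * f' * (f * b) * (b * (t * a)) = e₀ * f' * f * (b * b) * t * a by group, sb]; group
      obtain ⟨s, rfl | rfl, hs⟩ := hprod
      · rw [mul_one] at hs; exact absurd hs hne'
      · exact hs

end

theorem sym_gfs {G : Type*} [Group G] [Finite G] {z : G} (hz : orderOf z = 2)
    (hQ : IsOfSymplecticType ↥(generalizedFittingSubgroup ↥(Subgroup.centralizer ({z} : Set G))))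
    (h4 : ∀ q ∈ (generalizedFittingSubgroup ↥(Subgroup.centralizer ({z} : Set G))).map
      (Subgroup.centralizer ({z} : Set G)).subtype, q ^ 4 = 1) :
    Sym z ((generalizedFittingSubgroup ↥(Subgroup.centralizer ({z} : Set G))).map
      (Subgroup.centralizer ({z} : Set G)).subtype) := by
  haveI : Fact (Nat.Prime 2) := ⟨Nat.prime_two⟩
  set C := Subgroup.centralizer ({z} : Set G) with hC
  set F := generalizedFittingSubgroup ↥C with hF
  have hzC : z ∈ C := Subgroup.mem_centralizer_singleton_iff.2 rfl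
  have hzz : z * z = 1 := by rw [← pow_two, ← hz, pow_orderOf_eq_one]
  have hz1 : z ≠ 1 := fun h => by rw [h, orderOf_one] at hz; exact absurd hz (by norm_num)
  have hzc : ∀ c : ↥C, (⟨z, hzC⟩ : ↥C) * c = c * ⟨z, hzC⟩ := fun c =>
    Subtype.ext (Subgroup.mem_centralizer_singleton_iff.1 c.2).symm
  have hzF : (⟨z, hzC⟩ : ↥C) ∈ F :=
    Lib.Components.centralizer_gfs_le (Subgroup.mem_centralizer_iff.2 fun c _ => (hzc c).symm)
  -- structure of `F`
  have h4' : ∀ x : ↥F, x ^ 4 = 1 := fun x =>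
    Subtype.ext (Subtype.ext (by simpa using h4 _ ⟨x.1, x.2, rfl⟩))
  obtain ⟨E, R, hER, hsup, hE, hR⟩ := S3762.result hQ.1 hQ.2
  have hRc : ∀ r ∈ R, ∀ r' ∈ R, r * r' = r' * r := by
    rcases hR with hc | ⟨-, h16, hR⟩
    · intro r hr r' hr'
      letI := IsCyclic.commGroup (α := ↥R)
      exact congrArg Subtype.val (mul_comm (⟨r, hr⟩ : ↥R) ⟨r', hr'⟩)
    · exfalso
      have hR4 : ∀ x : ↥R, x ^ 4 = 1 := fun x => Subtype.ext (by simpa using h4' x.1)
      rcases hR with ⟨m, ⟨e⟩⟩ | ⟨m, ⟨e⟩⟩ | ⟨k, hk, -, x, -, hx, -⟩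
      · have h := congrArg e (hR4 (e.symm (DihedralGroup.r 1)))
        rw [map_pow, e.apply_symm_apply, map_one] at h
        have hd := orderOf_dvd_of_pow_eq_one h
        rw [DihedralGroup.orderOf_r_one] at hd
        rw [Nat.card_congr e.toEquiv, DihedralGroup.nat_card] at h16
        have := Nat.le_of_dvd (by norm_num) hd
        omega
      · have h := congrArg e (hR4 (e.symm (QuaternionGroup.a 1)))
        rw [map_pow, e.apply_symm_apply, map_one] at h
        have hd := orderOf_dvd_of_pow_eq_one h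
        rw [QuaternionGroup.orderOf_a_one] at hd
        have hm : m ≠ 0 := by
          rintro rfl
          exact absurd hd (by norm_num)
        haveI : NeZero m := ⟨hm⟩
        rw [Nat.card_congr e.toEquiv, Nat.card_eq_fintype_card, QuaternionGroup.card] at h16
        have := Nat.le_of_dvd (by norm_num) hd
        omega
      · have hd := orderOf_dvd_of_pow_eq_one (hR4 x)
        rw [hx] at hd
        have := Nat.le_of_dvd (by norm_num) hd
        have : 2 ^ 3 ≤ 2 ^ k := Nat.pow_le_pow_right (by norm_num) hk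
        omega
  have hdec : ∀ x : ↥F, ∃ e ∈ E, ∃ r ∈ R, x = e * r := by
    intro x
    have hx : x ∈ E ⊔ R := hsup ▸ Subgroup.mem_top x
    rw [Subgroup.sup_eq_closure] at hx
    induction hx using Subgroup.closure_induction with
    | mem y hy =>
      rcases hy with h | h
      · exact ⟨y, h, 1, one_mem _, (mul_one y).symm⟩
      · exact ⟨1, one_mem _, y, h, (one_mul y).symm⟩
    | one => exact ⟨1, one_mem _, 1, one_mem _, (one_mul 1).symm⟩
    | mul a b _ _ ha hb =>
      obtain ⟨e, he, r, hr, rfl⟩ := ha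
      obtain ⟨e', he', r', hr', rfl⟩ := hb
      refine ⟨e * e', mul_mem he he', r * r', mul_mem hr hr', ?_⟩
      exact (show Commute r e' from (hER e' he' r hr).symm).mul_mul_mul_comm e r'
    | inv a _ ha =>
      obtain ⟨e, he, r, hr, rfl⟩ := ha
      exact ⟨e⁻¹, inv_mem he, r⁻¹, inv_mem hr,
        by rw [mul_inv_rev]; exact (show Commute e r from hER e he r hr).inv_inv.eq.symm⟩
  have hcomE : ∀ e ∈ E, ∀ e' ∈ E, (∀ u ∈ E, Commute (⁅e, e'⁆) u) ∧ ⁅e, e'⁆ * ⁅e, e'⁆ = 1 := by
    intro e he e' he'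
    rcases hE with rfl | hE
    · rw [Subgroup.mem_bot] at he he'
      subst he he'
      exact ⟨fun u _ => by simp, by simp⟩
    · have hm : ⁅(⟨e, he⟩ : ↥E), ⟨e', he'⟩⁆ ∈ Subgroup.center ↥E := by
        rw [← hE.1.2.2]
        exact Subgroup.commutator_mem_commutator (Subgroup.mem_top _) (Subgroup.mem_top _)
      refine ⟨fun u hu => (congrArg Subtype.val (Subgroup.mem_center_iff.1 hm ⟨u, hu⟩)).symm, ?_⟩
      have h2 := pow_card_eq_one' (x := (⟨_, hm⟩ : ↥(Subgroup.center ↥E)))
      rw [hE.2, pow_two] at h2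
      exact congrArg (fun w : ↥(Subgroup.center ↥E) => ((w : ↥E) : ↥F)) h2
  have hcom : ∀ x y : ↥F, (∀ u : ↥F, Commute ⁅x, y⁆ u) ∧ ⁅x, y⁆ * ⁅x, y⁆ = 1 := by
    intro x y
    obtain ⟨e, he, r, hr, rfl⟩ := hdec x
    obtain ⟨e', he', r', hr', rfl⟩ := hdec y
    have c1 : Commute r e' := (hER e' he' r hr).symm
    have c2 : Commute r r' := hRc r hr r' hr'
    have c3 : Commute e r' := hER e he r' hr'
    have heq : ⁅e * r, e' * r'⁆ = ⁅e, e'⁆ := by
      rw [commutatorElement_def, commutatorElement_def]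
      calc e * r * (e' * r') * (e * r)⁻¹ * (e' * r')⁻¹
          = e * (r * (e' * r') * r⁻¹) * e⁻¹ * r'⁻¹ * e'⁻¹ := by group
        _ = e * (e' * r') * e⁻¹ * r'⁻¹ * e'⁻¹ := by rw [(c1.mul_right c2).eq, mul_inv_cancel_right]
        _ = e * e' * (r' * e⁻¹) * r'⁻¹ * e'⁻¹ := by group
        _ = e * e' * (e⁻¹ * r') * r'⁻¹ * e'⁻¹ := by rw [c3.inv_left.eq]
        _ = _ := by group
    rw [heq]
    refine ⟨fun u => ?_, (hcomE e he e' he').2⟩
    obtain ⟨v, hv, s, hs, rfl⟩ := hdec u
    refine ((hcomE e he e' he').1 v hv).mul_right ?_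
    exact hER _ (by
      rw [commutatorElement_def]
      exact mul_mem (mul_mem (mul_mem he he') (inv_mem he)) (inv_mem he')) s hs
  haveI : IsCyclic ↥(Subgroup.center ↥F) := hQ.2 _ inferInstance inferInstance
  have huni : ∀ x : ↥F, (∀ u, Commute x u) → x * x = 1 → (x : G) = 1 ∨ (x : G) = z := by
    intro x hx hx2
    by_cases h1 : x = 1
    · exact Or.inl (by rw [h1]; rfl)
    right
    classical
    haveI := Fintype.ofFinite ↥(Subgroup.center ↥F)
    let a : ↥(Subgroup.center ↥F) := ⟨x, Subgroup.mem_center_iff.2 fun u => (hx u).symm.eq⟩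
    let b : ↥(Subgroup.center ↥F) :=
      ⟨⟨⟨z, hzC⟩, hzF⟩, Subgroup.mem_center_iff.2 fun u => Subtype.ext (hzc u.1).symm⟩
    by_contra hne
    have hab : a ≠ b := fun h =>
      hne (congrArg (fun w : ↥(Subgroup.center ↥F) => (((w : ↥F) : ↥C) : G)) h)
    have ha1 : a ≠ 1 := fun h => h1 (congrArg Subtype.val h)
    have hb1 : b ≠ 1 := fun h => hz1 (congrArg (fun w : ↥(Subgroup.center ↥F) => (((w : ↥F) : ↥C) : G)) h)
    have hsub : ({1, a, b} : Finset ↥(Subgroup.center ↥F)) ⊆ Finset.univ.filter (fun w => w ^ 2 = 1) := by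
      intro w hw
      simp only [Finset.mem_insert, Finset.mem_singleton] at hw
      rw [Finset.mem_filter]
      refine ⟨Finset.mem_univ _, ?_⟩
      rcases hw with rfl | rfl | rfl
      · simp
      · rw [pow_two]; exact Subtype.ext hx2
      · rw [pow_two]; exact Subtype.ext (Subtype.ext (Subtype.ext hzz))
    have h := (Finset.card_le_card hsub).trans
      (IsCyclic.card_pow_eq_one_le (α := ↥(Subgroup.center ↥F)) (n := 2) two_pos)
    rw [Finset.card_eq_three.2 ⟨1, a, b, ha1.symm, hb1.symm, hab, rfl⟩] at h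
    omega
  constructor
  · exact ⟨_, hzF, rfl⟩
  · exact hzz
  · exact hz1
  · rintro _ ⟨x, -, rfl⟩
    exact (Subgroup.mem_centralizer_singleton_iff.1 x.2).symm
  · rintro c hc _ ⟨x, hx, rfl⟩
    have hcC : c ∈ C := Subgroup.mem_centralizer_singleton_iff.2 hc.eq
    exact ⟨⟨c, hcC⟩ * x * ⟨c, hcC⟩⁻¹, Lib.Components.gfs_normal.conj_mem x hx _, rfl⟩
  · rintro _ ⟨x, hx, rfl⟩
    have hsc : ∀ u : ↥F, Commute ((⟨x, hx⟩ : ↥F) * ⟨x, hx⟩) u := by
      intro u
      obtain ⟨hc, h2⟩ := hcom ⟨x, hx⟩ u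
      set X : ↥F := ⟨x, hx⟩
      show X * X * u = u * (X * X)
      calc X * X * u = X * (⁅X, u⁆ * u * X) := by rw [commutatorElement_def]; group
        _ = X * ⁅X, u⁆ * u * X := by group
        _ = ⁅X, u⁆ * (X * u) * X := by rw [← (hc X).eq]; group
        _ = ⁅X, u⁆ * (⁅X, u⁆ * u * X) * X := by rw [commutatorElement_def]; group
        _ = (⁅X, u⁆ * ⁅X, u⁆) * u * (X * X) := by group
        _ = u * (X * X) := by rw [h2, one_mul]
    exact huni _ hsc (by
      have := h4' ⟨x, hx⟩
      rw [show 4 = 2 + 2 from rfl, pow_add, pow_two] at this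
      exact this)
  · rintro _ ⟨x, hx, rfl⟩ _ ⟨y, hy, rfl⟩
    obtain ⟨hc, h2⟩ := hcom ⟨x, hx⟩ ⟨y, hy⟩
    exact huni _ hc h2
  · rintro _ ⟨x, hx, rfl⟩ hc h2
    exact huni ⟨x, hx⟩ (fun u => Subtype.ext (Subtype.ext (hc _ ⟨u.1, u.2, rfl⟩))) (Subtype.ext (Subtype.ext h2))
  · intro c hc hx
    have hcC : c ∈ C := Subgroup.mem_centralizer_singleton_iff.2 hc.eq
    exact ⟨⟨c, hcC⟩, Lib.Components.centralizer_gfs_le (Subgroup.mem_centralizer_iff.2 fun x hx' =>
      Subtype.ext (hx _ ⟨x, hx', rfl⟩).symm), rfl⟩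

/-- Let G be a finite group and let z be an involution of G such that Q, the generalized Fitting subgroup of the centralizer C of z, is a 2-group of symplectic type (every characteristic abelian subgroup of Q is cyclic); suppose every element of Q has order dividing 4. Let g ∈ G with z' = g z g⁻¹ ≠ z and z' ∈ Q. Then z lies in the conjugate g Q g⁻¹, and the subgroup X generated by Q and g Q g⁻¹ induces every automorphism of the four-group generated by z and z': for any two distinct non-identity elements u, v of that four-group there is x ∈ X with x z x⁻¹ = u and x z' x⁻¹ = v. -/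
theorem result {G : Type*} [Group G] [Finite G] (z : G) (hz : orderOf z = 2) (hQ : Cfsg.IsOfSymplecticType ↥(Cfsg.generalizedFittingSubgroup ↥(Subgroup.centralizer ({z} : Set G))))
    (h4 : ∀ q ∈ (Cfsg.generalizedFittingSubgroup ↥(Subgroup.centralizer ({z} : Set G))).map (Subgroup.centralizer ({z} : Set G)).subtype, q ^ 4 = 1) (g : G) (hne : g * z * g⁻¹ ≠ z) (hin : g * z * g⁻¹ ∈ (Cfsg.generalizedFittingSubgroup ↥(Subgroup.centralizer ({z} : Set G))).map (Subgroup.centralizer ({z} : Set G)).subtype) :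
    z ∈ ((Cfsg.generalizedFittingSubgroup ↥(Subgroup.centralizer ({z} : Set G))).map (Subgroup.centralizer ({z} : Set G)).subtype).map (MulAut.conj g).toMonoidHom ∧
      ∀ u ∈ Subgroup.closure ({z, g * z * g⁻¹} : Set G), ∀ v ∈ Subgroup.closure ({z, g * z * g⁻¹} : Set G),
        u ≠ 1 → v ≠ 1 → u ≠ v →
          ∃ x ∈ (Cfsg.generalizedFittingSubgroup ↥(Subgroup.centralizer ({z} : Set G))).map (Subgroup.centralizer ({z} : Set G)).subtype ⊔ ((Cfsg.generalizedFittingSubgroup ↥(Subgroup.centralizer ({z} : Set G))).map (Subgroup.centralizer ({z} : Set G)).subtype).map (MulAut.conj g).toMonoidHom, x * z * x⁻¹ = u ∧ x * (g * z * g⁻¹) * x⁻¹ = v := by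
  have hQs := sym_gfs hz hQ h4
  set Q := (Cfsg.generalizedFittingSubgroup ↥(Subgroup.centralizer ({z} : Set G))).map
    (Subgroup.centralizer ({z} : Set G)).subtype with hQdef
  set W := Q.map (MulAut.conj g).toMonoidHom with hWdef
  set t := g * z * g⁻¹ with htdef
  have hW : Sym t W := hQs.map g
  have hzW : z ∈ W := key hQs rfl rfl hin hne
  refine ⟨hzW, ?_⟩
  obtain ⟨q, hq, hqt⟩ : ∃ q ∈ Q, ¬ Commute q t := by
    by_contra hcon
    push Not at hcon
    rcases hQs.invo t hin (fun y hy => (hcon y hy).symm) hW.two with e | e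
    exacts [hW.ne e, hne e]
  obtain ⟨p, hp, hpz⟩ : ∃ p ∈ W, ¬ Commute p z := by
    by_contra hcon
    push Not at hcon
    rcases hW.invo z hzW (fun y hy => (hcon y hy).symm) hQs.two with e | e
    exacts [hQs.ne e, hne e.symm]
  have hzt : Commute z t := hQs.cz t hin
  have q1 : q * z * q⁻¹ = z := by rw [← (hQs.cz q hq).eq, mul_inv_cancel_right]
  have q2 : q * t * q⁻¹ = z * t := hQs.not_commute hq hin hqt
  have p1 : p * t * p⁻¹ = t := by rw [← (hW.cz p hp).eq, mul_inv_cancel_right]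
  have p2 : p * z * p⁻¹ = z * t := by rw [hW.not_commute hp hzW hpz]; exact hzt.eq.symm
  have q3 : q * (z * t) * q⁻¹ = t := by
    calc q * (z * t) * q⁻¹ = (q * z * q⁻¹) * (q * t * q⁻¹) := by group
      _ = t := by rw [q1, q2, ← mul_assoc, hQs.two, one_mul]
  have p3 : p * (z * t) * p⁻¹ = z := by
    calc p * (z * t) * p⁻¹ = (p * z * p⁻¹) * (p * t * p⁻¹) := by group
      _ = z := by rw [p1, p2, mul_assoc, hW.two, mul_one]
  have hS : ∀ u ∈ Subgroup.closure ({z, t} : Set G), 1 = u ∨ z = u ∨ t = u ∨ z * t = u := by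
    intro u hu
    obtain ⟨k, hk⟩ := Lib.Involution.mem_closure_pair hz ((Lib.Involution.orderOf_conj g z).trans hz) hu
    have hzt2 : (z * t) * (z * t) = 1 := by
      rw [hzt.symm.mul_mul_mul_comm, hQs.two, hW.two, one_mul]
    have hpow : (z * t) ^ k = 1 ∨ (z * t) ^ k = z * t := by
      rcases Int.even_or_odd k with ⟨m, rfl⟩ | ⟨m, rfl⟩
      · left; rw [zpow_add, ← (Commute.refl (z * t)).mul_zpow, hzt2, one_zpow]
      · right; rw [zpow_add_one, zpow_mul, zpow_ofNat, pow_two, hzt2, one_zpow, one_mul]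
    rcases hk with rfl | rfl <;> rcases hpow with h | h <;> rw [h]
    · exact Or.inl rfl
    · exact Or.inr (Or.inr (Or.inr rfl))
    · exact Or.inr (Or.inl (mul_one z).symm)
    · exact Or.inr (Or.inr (Or.inl (by rw [← mul_assoc, hQs.two, one_mul])))
  have hQm : q ∈ Q ⊔ W := Subgroup.mem_sup_left hq
  have hPm : p ∈ Q ⊔ W := Subgroup.mem_sup_right hp
  intro u hu v hv hu1 hv1 huv
  rcases hS u hu with rfl | rfl | rfl | rfl
  · exact absurd rfl hu1
  · rcases hS v hv with rfl | rfl | rfl | rfl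
    · exact absurd rfl hv1
    · exact absurd rfl huv
    · exact ⟨1, one_mem _, by group, by group⟩
    · exact ⟨q, hQm, q1, q2⟩
  · rcases hS v hv with rfl | rfl | rfl | rfl
    · exact absurd rfl hv1
    · refine ⟨p * q * p, mul_mem (mul_mem hPm hQm) hPm, ?_, ?_⟩
      · calc p * q * p * z * (p * q * p)⁻¹ = p * (q * (p * z * p⁻¹) * q⁻¹) * p⁻¹ := by group
          _ = t := by rw [p2, q3, p1]
      · calc p * q * p * t * (p * q * p)⁻¹ = p * (q * (p * t * p⁻¹) * q⁻¹) * p⁻¹ := by group
          _ = z := by rw [p1, q2, p3]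
    · exact absurd rfl huv
    · refine ⟨q * p, mul_mem hQm hPm, ?_, ?_⟩
      · calc q * p * z * (q * p)⁻¹ = q * (p * z * p⁻¹) * q⁻¹ := by group
          _ = t := by rw [p2, q3]
      · calc q * p * t * (q * p)⁻¹ = q * (p * t * p⁻¹) * q⁻¹ := by group
          _ = z * t := by rw [p1, q2]
  · rcases hS v hv with rfl | rfl | rfl | rfl
    · exact absurd rfl hv1
    · refine ⟨p * q, mul_mem hPm hQm, ?_, ?_⟩
      · calc p * q * z * (p * q)⁻¹ = p * (q * z * q⁻¹) * p⁻¹ := by group
          _ = z * t := by rw [q1, p2]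
      · calc p * q * t * (p * q)⁻¹ = p * (q * t * q⁻¹) * p⁻¹ := by group
          _ = z := by rw [q2, p3]
    · exact ⟨p, hPm, p2, p1⟩
    · exact absurd rfl huv

end Cfsg.Agent.S1774
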