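import Cfsg.Statements.S1780
import Mathlib

set_option autoImplicit false
open Cfsg

namespace Cfsg.Agent.S1780

/-- Let A be a finite abelian 2-group and t an automorphism of A whose order is a power of 2. If every element of A fixed by t² is fixed by t, then t fixes every element of A. -/
theorem result {A : Type*} [CommGroup A] [Finite A]
    (hA : IsPGroup 2 A) (t : MulAut A) (ht : ∃ k : ℕ, orderOf t = 2 ^ k) (hC : ∀ a : A, t (t a) = a → t a = a) :
    ∀ a : A, t a = a := by
  let F : Subgroup A := MonoidHom.eqLocus (t : MulAut A).toMonoidHom (MonoidHom.id A)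
  have memF : ∀ a, a ∈ F ↔ t a = a := fun a => Iff.rfl
  -- an element moved by `t` only inside the fixed points is fixed
  have key : ∀ a, t a / a ∈ F → t a = a := by
    intro a hb
    rw [memF] at hb
    obtain ⟨j, hj⟩ := hA (t a / a)
    induction j with
    | zero => rwa [pow_zero, pow_one, div_eq_one] at hj
    | succ j ih =>
      apply ih
      rw [div_pow, div_eq_one, ← map_pow]
      apply hC
      have h1 : t a = (t a / a) * a := (div_mul_cancel _ _).symm
      have h2 : t (t a) = (t a / a) ^ 2 * a := by
        conv_lhs => rw [h1, map_mul, hb, h1]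
        rw [sq, mul_assoc, mul_div_cancel_right]
      rw [map_pow, map_pow, h2, mul_pow, ← pow_mul, ← pow_succ', hj, one_mul]
  have hmap : ∀ g : Subgroup.zpowers t, F ≤ F.comap ((g : MulAut A) : MulAut A).toMonoidHom := by
    intro g a ha
    rw [memF] at ha
    show t ((g : MulAut A) a) = (g : MulAut A) a
    obtain ⟨n, hn⟩ := Subgroup.mem_zpowers_iff.1 g.2
    rw [← MulAut.mul_apply, ← hn, (Commute.zpow_right (Commute.refl t) n).eq, MulAut.mul_apply, ha]
  letI act : MulAction (Subgroup.zpowers t) (A ⧸ F) :=
    { smul := fun g => QuotientGroup.map F F (g : MulAut A).toMonoidHom (hmap g)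
      one_smul := fun q => by
        induction q using QuotientGroup.induction_on with
        | _ a => rfl
      mul_smul := fun g g' q => by
        induction q using QuotientGroup.induction_on with
        | _ a => rfl }
  obtain ⟨k, hk⟩ := ht
  have hp : IsPGroup 2 (Subgroup.zpowers t) := IsPGroup.of_card (n := k) (by rw [Nat.card_zpowers, hk])
  intro a
  by_contra ha
  have hne : F ≠ ⊤ := fun h => ha ((memF a).1 (h ▸ Subgroup.mem_top a))
  have hdvd : 2 ∣ Nat.card (A ⧸ F) := by
    obtain ⟨n, hn⟩ := (hA.to_quotient F).exists_card_eq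
    rcases Nat.eq_zero_or_pos n with rfl | hn0
    · exact absurd (Subgroup.index_eq_one.1 (by simpa [Subgroup.index] using hn)) hne
    · rw [hn]; exact dvd_pow_self 2 hn0.ne'
  have h1 : (1 : A ⧸ F) ∈ MulAction.fixedPoints (Subgroup.zpowers t) (A ⧸ F) := fun g => map_one _
  obtain ⟨q, hq, hq1⟩ := hp.exists_fixed_point_of_prime_dvd_card_of_fixed_point _ hdvd h1
  induction q using QuotientGroup.induction_on with
  | _ b =>
    apply hq1
    rw [eq_comm, QuotientGroup.eq_one_iff, memF]
    apply key
    have h2 := hq ⟨t, Subgroup.mem_zpowers t⟩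
    change ((t b : A) : A ⧸ F) = (b : A ⧸ F) at h2
    exact QuotientGroup.eq_iff_div_mem.1 h2

end Cfsg.Agent.S1780
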