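import Cfsg.Statements.S1781
import Mathlib
import Cfsg.Agent.S1780
import Cfsg.Agent.S1757

set_option autoImplicit false
open Cfsg

namespace Cfsg.Agent.S1781

theorem ti_conj {G : Type*} [Group G] (A : Subgroup G)
    (hti : ∀ h : G, A.map (MulAut.conj h).toMonoidHom = A ∨ A.map (MulAut.conj h).toMonoidHom ⊓ A = ⊥)
    (g h : G) :
    (A.map (MulAut.conj g).toMonoidHom).map (MulAut.conj h).toMonoidHom = A.map (MulAut.conj g).toMonoidHom ∨
      (A.map (MulAut.conj g).toMonoidHom).map (MulAut.conj h).toMonoidHom ⊓ A.map (MulAut.conj g).toMonoidHom = ⊥ := by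
  have e : (A.map (MulAut.conj g).toMonoidHom).map (MulAut.conj h).toMonoidHom =
      (A.map (MulAut.conj (g⁻¹ * h * g)).toMonoidHom).map (MulAut.conj g).toMonoidHom := by
    rw [Subgroup.map_map, Subgroup.map_map]
    congr 1
    ext x
    simp [mul_assoc]
  rcases hti (g⁻¹ * h * g) with h1 | h1
  · left; rw [e, h1]
  · right
    rw [e, ← Subgroup.map_inf _ _ _ (MulAut.conj g).injective, h1, Subgroup.map_bot]

/-- Let A be an abelian 2-subgroup of the finite group G such that every conjugate of A equals A or meets A trivially, and let g ∈ G with g A g⁻¹ ≠ A. Then either the subgroup of those elements of A that normalize g A g⁻¹ is an elementary abelian 2-group, or A and g A g⁻¹ commute elementwise. -/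
theorem result {G : Type*} [Group G] [Finite G] (A : Subgroup G)
    (hA2 : IsPGroup 2 ↥A) (hAa : IsMulCommutative ↥A)
    (hti : ∀ h : G, A.map (MulAut.conj h).toMonoidHom = A ∨ A.map (MulAut.conj h).toMonoidHom ⊓ A = ⊥)
    (g : G) (hg : A.map (MulAut.conj g).toMonoidHom ≠ A) :
    Cfsg.IsElementaryAbelian 2 (A ⊓ Subgroup.normalizer ((A.map (MulAut.conj g).toMonoidHom : Subgroup G) : Set G)) ∨
      ⁅A, A.map (MulAut.conj g).toMonoidHom⁆ = ⊥ := by
  haveI := hA2
  set B : Subgroup G := A.map (MulAut.conj g).toMonoidHom with hB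
  have hAB : A ⊓ B = ⊥ := by rw [inf_comm]; exact (hti g).resolve_left hg
  have hB2 : IsPGroup 2 ↥B := hA2.map _
  haveI : IsMulCommutative ↥A := hAa
  haveI : IsMulCommutative ↥B := inferInstanceAs (IsMulCommutative ↥(A.map (MulAut.conj g).toMonoidHom))
  by_cases hall : ∀ n ∈ A ⊓ Subgroup.normalizer (B : Set G), n ^ 2 = 1
  · refine Or.inl ⟨⟨⟨fun x y => ?_⟩⟩, hall⟩
    have h := congrArg (fun v : ↥A => (v : G)) (mul_comm' (⟨x.1, x.2.1⟩ : ↥A) ⟨y.1, y.2.1⟩)
    exact Subtype.ext h
  right
  push Not at hall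
  obtain ⟨n, ⟨hnA, hnN⟩, hn2⟩ := hall
  have hn1 : n ≠ 1 := by rintro rfl; simp at hn2
  have hfix : ∀ b : G, Commute b (n ^ 2) → b ∈ Subgroup.normalizer (A : Set G) := by
    intro b hb
    have hm : n ^ 2 ∈ A.map (MulAut.conj b).toMonoidHom ⊓ A :=
      ⟨⟨n ^ 2, pow_mem hnA 2, by show b * n ^ 2 * b⁻¹ = n ^ 2; rw [hb.eq, mul_inv_cancel_right]⟩,
        pow_mem hnA 2⟩
    rcases hti b with h | h
    · rw [Subgroup.mem_normalizer_iff]
      intro x
      refine ⟨fun hx => h ▸ ⟨x, hx, rfl⟩, fun hx => ?_⟩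
      rw [← h] at hx
      obtain ⟨y, hy, hxy⟩ := hx
      have : y = x := by simpa using hxy
      exact this ▸ hy
    · rw [h, Subgroup.mem_bot] at hm
      exact absurd hm hn2
  let t : MulAut ↥B :=
    { toFun := fun b => ⟨n * b * n⁻¹, (Subgroup.mem_normalizer_iff.1 hnN b).1 b.2⟩
      invFun := fun b => ⟨n⁻¹ * b * n, by
        have := (Subgroup.mem_normalizer_iff.1 (inv_mem hnN) b).1 b.2
        simpa using this⟩
      left_inv := fun b => Subtype.ext (by simp [mul_assoc])
      right_inv := fun b => Subtype.ext (by simp [mul_assoc])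
      map_mul' := fun b c => Subtype.ext (by simp [mul_assoc]) }
  have htc : ∀ (k : ℕ) (b : ↥B), (((t ^ k) b : ↥B) : G) = n ^ k * b * (n ^ k)⁻¹ := by
    intro k
    induction k with
    | zero => simp
    | succ k ih =>
      intro b
      rw [pow_succ' t, MulAut.mul_apply]
      show n * ((t ^ k) b : G) * n⁻¹ = _
      rw [ih, pow_succ']; group
  have hto : ∃ k, orderOf t = 2 ^ k := by
    obtain ⟨k, hk⟩ := hA2 ⟨n, hnA⟩
    have hd : orderOf t ∣ 2 ^ k := by
      apply orderOf_dvd_of_pow_eq_one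
      ext b
      rw [htc]
      have : n ^ (2 ^ k) = 1 := congrArg Subtype.val hk
      simp [this]
    obtain ⟨i, -, hi⟩ := (Nat.dvd_prime_pow Nat.prime_two).1 hd
    exact ⟨i, hi⟩
  letI : CommGroup ↥B := { (inferInstance : Group ↥B) with mul_comm := fun a b => mul_comm' a b }
  have hcent : ∀ b ∈ B, Commute b n := by
    intro b hb
    have h := S1780.result hB2 t hto (fun a ha => ?_) ⟨b, hb⟩
    · have h' : n * b * n⁻¹ = b := congrArg Subtype.val h
      show b * n = n * b
      conv_lhs => rw [← h']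
      group
    · apply Subtype.ext
      show n * (a : G) * n⁻¹ = a
      have ha' : n * (n * a * n⁻¹) * n⁻¹ = (a : G) := congrArg Subtype.val ha
      have hc2 : Commute (a : G) (n ^ 2) := by
        show (a : G) * n ^ 2 = n ^ 2 * a
        conv_lhs => rw [← ha']
        rw [sq]; group
      have haN := hfix _ hc2
      have h1 : n * (a : G) * n⁻¹ * (a : G)⁻¹ ∈ A ⊓ B := by
        refine ⟨?_, B.mul_mem ((Subgroup.mem_normalizer_iff.1 hnN a).1 a.2) (B.inv_mem a.2)⟩
        have h2 := (Subgroup.mem_normalizer_iff.1 haN n⁻¹).1 (inv_mem hnA)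
        have := mul_mem hnA h2
        simpa [mul_assoc] using this
      rw [hAB, Subgroup.mem_bot, mul_inv_eq_one] at h1
      exact h1
  have hBN : B ≤ Subgroup.normalizer (A : Set G) := fun b hb => hfix b ((hcent b hb).pow_right 2)
  refine S1757.result 2 A B hA2 hB2 hti (ti_conj A hti g) ?_ hAB hBN
  rw [hB, Subgroup.card_map_of_injective (MulAut.conj g).injective]

end Cfsg.Agent.S1781
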