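import Cfsg.Statements.S1782
import Mathlib
import Cfsg.Agent.Lib.PGroupFrattini

set_option autoImplicit false
open Cfsg

namespace Cfsg.Agent.S1782

set_option linter.style.haveILetI false
open Subgroup
open scoped commutatorElement

theorem map_conj_mem {S : Type*} [Group S] {R : Subgroup S} {g y : S} :
    y ∈ R.map (MulAut.conj g).toMonoidHom ↔ g⁻¹ * y * g ∈ R := by
  constructor
  · rintro ⟨x, hx, rfl⟩
    show g⁻¹ * (g * x * g⁻¹) * g ∈ R
    simpa [mul_assoc] using hx
  · intro h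
    exact ⟨_, h, by show g * (g⁻¹ * y * g) * g⁻¹ = y; group⟩

theorem frattini_eq_bot_of_sq {S : Type*} [Group S] [Finite S] (hS : IsPGroup 2 S) (R : Subgroup S)
    (h : ∀ r ∈ R, r ^ 2 = 1) : frattini ↥R = ⊥ := by
  haveI : Fact (Nat.Prime 2) := ⟨Nat.prime_two⟩
  have he : ∀ r : R, r ^ 2 = 1 := fun r => Subtype.ext (by simpa using h r r.2)
  have hc : commutator R = ⊥ := by
    rw [_root_.commutator_def, eq_bot_iff, commutator_le]
    intro a _ b _
    rw [mem_bot, commutatorElement_eq_one_iff_mul_comm]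
    have e : ∀ c : R, c⁻¹ = c := fun c => inv_eq_of_mul_eq_one_right (by rw [← pow_two]; exact he c)
    calc a * b = (a * b)⁻¹ := (e _).symm
      _ = b⁻¹ * a⁻¹ := mul_inv_rev a b
      _ = b * a := by rw [e, e]
  exact le_bot_iff.1 (Lib.PGroupFrattini.frattini_le Nat.prime_two ⊥ hc.le fun x => by rw [mem_bot]; exact he x)

/-- Let S be a finite 2-group and Δ a set of subgroups of S closed under conjugation by S, all of the same order, each with nontrivial Frattini subgroup, and such that two distinct members of Δ meet trivially. Then any two distinct members of Δ commute elementwise. -/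
theorem result {S : Type*} [Group S] [Finite S] (hS : IsPGroup 2 S)
    (Δ : Set (Subgroup S)) (hinv : ∀ s : S, ∀ R ∈ Δ, R.map (MulAut.conj s).toMonoidHom ∈ Δ)
    (hΦ : ∀ R ∈ Δ, frattini ↥R ≠ ⊥) (hord : ∀ R ∈ Δ, ∀ T ∈ Δ, Nat.card ↥R = Nat.card ↥T)
    (hti : ∀ R ∈ Δ, ∀ T ∈ Δ, R = T ∨ R ⊓ T = ⊥) :
    ∀ R ∈ Δ, ∀ T ∈ Δ, R ≠ T → ⁅R, T⁆ = ⊥ := by
  classical
  haveI : Fact (Nat.Prime 2) := ⟨Nat.prime_two⟩
  suffices main : ∀ k (M : Subgroup S), Nat.card M = k → ∀ R ∈ Δ, ∀ T ∈ Δ, R ≤ M → T ≤ M → R ≠ T →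
      ∀ r ∈ R, ∀ u ∈ T, Commute r u by
    intro R hR T hT hne
    rw [eq_bot_iff, commutator_le]
    intro r hr u hu
    rw [mem_bot, commutatorElement_eq_one_iff_commute]
    exact main _ ⊤ rfl R hR T hT le_top le_top hne r hr u hu
  intro k
  induction k using Nat.strong_induction_on with
  | _ k ih =>
  intro M hM R hR T hT hRM hTM hne
  by_cases hlt : R ⊔ T < M
  · refine ih _ ?_ (R ⊔ T) rfl R hR T hT le_sup_left le_sup_right hne
    rw [← hM]
    exact lt_of_le_of_ne (card_le_of_le hlt.le) fun e => hlt.ne (eq_of_le_of_card_ge hlt.le e.ge)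
  have hgen : R ⊔ T = M := by
    by_contra h
    exact hlt (lt_of_le_of_ne (sup_le hRM hTM) h)
  -- disjointness
  have hdis : ∀ A ∈ Δ, ∀ B ∈ Δ, A ≠ B → ∀ y, y ∈ A → y ∈ B → y = 1 := fun A hA B hB hAB y h1 h2 => by
    rcases hti A hA B hB with e | e
    · exact absurd e hAB
    · exact (mem_bot).1 (e ▸ ⟨h1, h2⟩)
  -- distinct conjugates of one of the two generators commute
  have hcls : ∀ A B : Subgroup S, A ∈ Δ → B ∈ Δ → A ≤ M → B ≤ M → A ⊔ B = M → A ≠ B →
      ∀ g ∈ M, A.map (MulAut.conj g).toMonoidHom ≠ A →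
        ∀ y ∈ A, ∀ y' ∈ A.map (MulAut.conj g).toMonoidHom, Commute y y' := by
    intro A B hA hB hAM hBM hAB hneAB g hg hgA
    have hAne : A ≠ M := fun e => by
      have : B ≤ A := e.symm ▸ hBM
      exact hneAB (eq_of_le_of_card_ge this (hord A hA B hB).le).symm
    haveI : Nontrivial M := by
      obtain ⟨x, hx, hx'⟩ := SetLike.exists_of_lt (lt_of_le_of_ne hAM hAne)
      exact nontrivial_of_ne (⟨x, hx⟩ : M) 1 fun e => hx' (by
        have : x = 1 := congrArg Subtype.val e
        rw [this]; exact one_mem A)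
    have hA' : A.subgroupOf M ≠ ⊤ := fun e => hAne (le_antisymm hAM (subgroupOf_eq_top.1 e))
    obtain ⟨K, hK, hAK⟩ := (IsCoatomic.eq_top_or_exists_le_coatom (A.subgroupOf M)).resolve_left hA'
    obtain ⟨hKn, hKi⟩ := Lib.PGroupFrattini.coatom_index (hS.to_subgroup M) hK
    have hle1 : A ≤ K.map M.subtype := fun y hy => ⟨⟨y, hAM hy⟩, hAK hy, rfl⟩
    have hle2 : A.map (MulAut.conj g).toMonoidHom ≤ K.map M.subtype := by
      rintro _ ⟨y, hy, rfl⟩
      exact ⟨⟨g, hg⟩ * ⟨y, hAM hy⟩ * ⟨g, hg⟩⁻¹, hKn.conj_mem _ (hAK (show (⟨y, hAM hy⟩ : M) ∈ A.subgroupOf M from hy)) _, rfl⟩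
    refine ih _ ?_ (K.map M.subtype) rfl A hA _ (hinv g A hA) hle1 hle2 hgA.symm
    rw [← hM, card_subtype]
    have := card_mul_index K
    rw [hKi] at this
    have : 0 < Nat.card K := Nat.card_pos
    omega
  -- each generator normalizes the other
  have hnorm : ∀ A B : Subgroup S, A ∈ Δ → B ∈ Δ → A ≤ M → B ≤ M → A ⊔ B = M → A ≠ B →
      B ≤ normalizer (A : Set S) := by
    intro A B hA hB hAM hBM hAB hneAB u hu
    by_contra hu'
    -- an element interchanging `A` and another conjugate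
    obtain ⟨t, htB, htA, ht2⟩ : ∃ t ∈ B, t ∉ normalizer (A : Set S) ∧ t * t ∈ normalizer (A : Set S) := by
      obtain ⟨j, hj⟩ := hS u
      suffices ∀ j u, u ∈ B → u ∉ normalizer (A : Set S) → u ^ 2 ^ j = 1 →
          ∃ t ∈ B, t ∉ normalizer (A : Set S) ∧ t * t ∈ normalizer (A : Set S) from this j u hu hu' hj
      intro j
      induction j with
      | zero =>
        intro u _ hu' hj
        rw [pow_zero, pow_one] at hj
        exact absurd (hj ▸ one_mem _) hu'
      | succ j ihj =>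
        intro u hu hu' hj
        by_cases h2 : u * u ∈ normalizer (A : Set S)
        · exact ⟨u, hu, hu', h2⟩
        · refine ihj (u * u) (mul_mem hu hu) h2 ?_
          rw [← pow_two, ← pow_mul, ← pow_succ']
          exact hj
    set A2 := A.map (MulAut.conj t⁻¹).toMonoidHom
    have hA2 : A2 ∈ Δ := hinv _ A hA
    have hmem2 : ∀ r ∈ A, t⁻¹ * r * t ∈ A2 := fun r hr => map_conj_mem.2 (by
      simpa [mul_assoc] using hr)
    have hA2ne : A2 ≠ A := fun e => by
      apply htA
      rw [← inv_mem_iff, mem_normalizer_iff_map_conj_eq]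
      exact e
    have hσ2 : ∀ r ∈ A, (t * t)⁻¹ * r * (t * t) ∈ A := fun r hr => by
      have := (mem_normalizer_iff.1 (inv_mem ht2) r).1 hr
      simpa using this
    have hc2 : ∀ y ∈ A, ∀ y' ∈ A2, Commute y y' :=
      hcls A B hA hB hAM hBM hAB hneAB t⁻¹ (inv_mem (hBM htB)) hA2ne
    have hdj : ∀ y, y ∈ A → y ∈ A2 → y = 1 := hdis A hA A2 hA2 hA2ne.symm
    -- commutators
    let a : S → S := fun r => (t⁻¹ * r * t)⁻¹ * r
    have ha : ∀ r, a r = t⁻¹ * (r⁻¹ * t * r) := fun r => by simp only [a]; group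
    have hAnorm : ∀ r ∈ A, ∀ v ∈ B, r ∈ normalizer (B : Set S) → r⁻¹ * v * r ∈ B := fun r _ v hv hr => by
      have := (mem_normalizer_iff.1 (inv_mem hr) v).1 hv
      simpa using this
    have haB : ∀ r ∈ A, r ∈ normalizer (B : Set S) → a r ∈ B := fun r hr hrN => by
      rw [ha]; exact mul_mem (inv_mem htB) (hAnorm r hr t htB hrN)
    have ha1 : ∀ r ∈ A, a r = 1 → r = 1 := fun r hr e => by
      refine hdj r hr ?_
      rw [show r = t⁻¹ * r * t from (inv_mul_eq_one.1 e).symm]
      exact hmem2 r hr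
    by_cases hall : ∀ r ∈ A, r ∈ normalizer (B : Set S)
    · -- then `A` is abelian and `B` lies in `A * A2`
      have hBA2 : B ≠ A2 := fun e => by
        have h1 : t ∈ A2 := e ▸ htB
        rw [map_conj_mem] at h1
        have : t ∈ A := by simpa using h1
        exact htA (le_normalizer this)
      have hab : ∀ r ∈ A, ∀ s ∈ A, Commute (t⁻¹ * r * t) (t⁻¹ * s * t) := fun r hr s hs => by
        have e : a r * a s * (a (r * s))⁻¹ = (t⁻¹ * r * t)⁻¹ * (t⁻¹ * s * t)⁻¹ * ((t⁻¹ * r * t) * (t⁻¹ * s * t)) := by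
          simp only [a]
          have h1 : r * (t⁻¹ * s * t)⁻¹ = (t⁻¹ * s * t)⁻¹ * r := ((hc2 r hr _ (hmem2 s hs)).inv_right).eq
          calc (t⁻¹ * r * t)⁻¹ * r * ((t⁻¹ * s * t)⁻¹ * s) * ((t⁻¹ * (r * s) * t)⁻¹ * (r * s))⁻¹
              = (t⁻¹ * r * t)⁻¹ * (r * (t⁻¹ * s * t)⁻¹) * s * (r * s)⁻¹ * (t⁻¹ * (r * s) * t) := by group
            _ = _ := by rw [h1]; group
        have h1 : a r * a s * (a (r * s))⁻¹ ∈ B :=
          mul_mem (mul_mem (haB r hr (hall r hr)) (haB s hs (hall s hs)))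
            (inv_mem (haB _ (mul_mem hr hs) (hall _ (mul_mem hr hs))))
        have h2 : a r * a s * (a (r * s))⁻¹ ∈ A2 := by
          rw [e]
          exact mul_mem (mul_mem (inv_mem (hmem2 r hr)) (inv_mem (hmem2 s hs)))
            (mul_mem (hmem2 r hr) (hmem2 s hs))
        have := hdis B hB A2 hA2 hBA2 _ h1 h2
        rw [e, ← mul_inv_rev, inv_mul_eq_one] at this
        exact this.symm
      let f : A → B := fun r => ⟨a r, haB r r.2 (hall r r.2)⟩
      have hf : Function.Injective f := fun r s e => by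
        have h' : a r = a s := congrArg Subtype.val e
        refine Subtype.ext (inv_mul_eq_one.1 (ha1 _ (mul_mem (inv_mem r.2) s.2) ?_))
        simp only [a] at h' ⊢
        have h3 : Commute ((t⁻¹ * r * t)⁻¹) (t⁻¹ * s * t)⁻¹ := (hab r r.2 s s.2).inv_left.inv_right
        have h4 : (t⁻¹ * s * t)⁻¹⁻¹ * (t⁻¹ * r * t)⁻¹ = (s : S) * (r : S)⁻¹ := by
          rw [eq_mul_inv_iff_mul_eq, mul_assoc, h']; group
        have h5 : (t⁻¹ * s * t)⁻¹⁻¹ * (t⁻¹ * r * t)⁻¹ ∈ A2 :=
          mul_mem (inv_mem (inv_mem (hmem2 _ s.2))) (inv_mem (hmem2 _ r.2))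
        have h6 := hdj _ (h4.symm ▸ mul_mem s.2 (inv_mem r.2)) h5
        have h7 : (r : S) = s := by rw [h4] at h6; exact (mul_inv_eq_one.1 h6).symm
        rw [h7]; group
      obtain ⟨r, hr⟩ := (hf.bijective_of_nat_card_le (hord B hB A hA).le).2 ⟨t, htB⟩
      apply htA
      have hr' : a r = t := congrArg Subtype.val hr
      rw [← hr']
      refine mul_mem (inv_mem ?_) (le_normalizer r.2)
      refine centralizer_le_normalizer _ ?_
      rw [mem_centralizer_iff]
      exact fun y hy => (hc2 y hy _ (hmem2 r r.2)).eq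
    push Not at hall
    obtain ⟨x₀, hx₀, hx₀'⟩ := hall
    -- elements of `A` moving `B` are involutions
    have hinvol : ∀ r ∈ A, r ∉ normalizer (B : Set S) → r ^ 2 = 1 := fun r hr hrN => by
      have hBne : B.map (MulAut.conj r⁻¹).toMonoidHom ≠ B := fun e => hrN (by
        rw [← inv_mem_iff, mem_normalizer_iff_map_conj_eq]; exact e)
      have hc := hcls B A hB hA hBM hAM (by rw [sup_comm]; exact hAB) (Ne.symm hneAB) r⁻¹
        (inv_mem (hAM hr)) hBne t htB (r⁻¹ * t * r) (map_conj_mem.2 (by simpa [mul_assoc] using htB))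
      have hcta : Commute t (a r) := by
        rw [ha]; exact (Commute.refl t).inv_right.mul_right hc
      have e1 : t⁻¹ * a r * t = a r := by
        rw [mul_assoc, ← hcta.eq, inv_mul_cancel_left]
      set y := t⁻¹ * r * t
      have hy : y ∈ A2 := hmem2 r hr
      have e2 : t⁻¹ * a r * t = ((t * t)⁻¹ * r * (t * t))⁻¹ * y := by simp only [a, y]; group
      rw [e2] at e1
      have e3 : y * y = (t * t)⁻¹ * r * (t * t) * r := by
        have h1 : y = (t * t)⁻¹ * r * (t * t) * (y⁻¹ * r) := by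
          rw [show y⁻¹ * r = a r from rfl, ← e1, mul_inv_cancel_left]
        have h2 : y⁻¹ * r = r * y⁻¹ := ((hc2 r hr y hy).inv_right).symm.eq
        calc y * y = (t * t)⁻¹ * r * (t * t) * (r * y⁻¹) * y := by rw [← h2, ← h1]
          _ = _ := by group
      have h4 := hdj (y * y) (e3 ▸ mul_mem (hσ2 r hr) hr) (mul_mem hy hy)
      rw [pow_two]
      calc r * r = t * (y * y) * t⁻¹ := by simp only [y]; group
        _ = 1 := by rw [h4]; group
    -- an involution normalizing `B` commutes with no element moving `B`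
    have hfix : ∀ r ∈ A, r ∈ normalizer (B : Set S) → ∀ x ∈ A, x ∉ normalizer (B : Set S) →
        Commute x r → r = 1 := fun r hr hrN x hx hxN hxr => by
      refine ha1 r hr ?_
      have h1 : a r ∈ B := haB r hr hrN
      have hBne : B.map (MulAut.conj x⁻¹).toMonoidHom ≠ B := fun e => hxN (by
        rw [← inv_mem_iff, mem_normalizer_iff_map_conj_eq]; exact e)
      refine hdis _ (hinv x⁻¹ B hB) B hB hBne _ (map_conj_mem.2 ?_) h1
      have h2 : Commute x (a r) := (hc2 x hx _ (hmem2 r hr)).inv_right.mul_right hxr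
      rw [inv_inv, h2.eq, mul_inv_cancel_right]
      exact h1
    haveI : Nontrivial A := nontrivial_of_ne (⟨x₀, hx₀⟩ : A) 1 fun e => hx₀' (by
      have h1 : x₀ = 1 := congrArg Subtype.val e
      rw [h1]; exact one_mem _)
    haveI := (hS.to_subgroup A).center_nontrivial
    obtain ⟨z, hz⟩ := exists_prime_orderOf_dvd_card' (G := center A) 2 (by
      obtain ⟨i, hi⟩ := IsPGroup.iff_card.1 ((hS.to_subgroup A).to_subgroup (center A))
      rw [hi]
      refine dvd_pow_self 2 fun e => ?_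
      rw [e, pow_zero] at hi
      exact (Subgroup.nontrivial_iff_ne_bot _).1 inferInstance (Subgroup.card_eq_one.1 hi))
    have hz1 : ((z : A) : S) ≠ 1 := fun e => by
      rw [← orderOf_coe, ← orderOf_coe, e, orderOf_one] at hz
      norm_num at hz
    have hzc : ∀ r ∈ A, Commute r ((z : A) : S) := fun r hr =>
      congrArg Subtype.val (mem_center_iff.1 z.2 ⟨r, hr⟩)
    have hzN : ((z : A) : S) ∉ normalizer (B : Set S) := fun h =>
      hz1 (hfix _ (z : A).2 h x₀ hx₀ hx₀' (hzc x₀ hx₀))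
    refine hΦ A hA (frattini_eq_bot_of_sq hS A fun r hr => ?_)
    by_cases hrN : r ∈ normalizer (B : Set S)
    · rw [hfix r hr hrN _ (z : A).2 hzN (hzc r hr).symm, one_pow]
    · exact hinvol r hr hrN
  have h1 := hnorm R T hR hT hRM hTM hgen hne
  have h2 := hnorm T R hT hR hTM hRM (by rw [sup_comm]; exact hgen) (Ne.symm hne)
  intro r hr u hu
  rw [← commutatorElement_eq_one_iff_commute]
  refine hdis R hR T hT hne _ ?_ ?_
  · rw [commutatorElement_def]
    have := (mem_normalizer_iff.1 (h1 hu) r⁻¹).1 (inv_mem hr)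
    have := mul_mem hr this
    simpa [mul_assoc] using this
  · rw [commutatorElement_def]
    exact mul_mem ((mem_normalizer_iff.1 (h2 hr) u).1 hu) (inv_mem hu)

end Cfsg.Agent.S1782
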