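import Cfsg.Statements.S1783
import Cfsg.Agent.Lib.Components.Bender
import Cfsg.Agent.Lib.KInf.ChiefAux
import Cfsg.Agent.Lib.KInf.Stable
-- import your own Cfsg.Agent.* helpers here

set_option autoImplicit false
open Cfsg

namespace Cfsg.Agent.S1783


open Subgroup
open scoped commutatorElement

variable {X : Type*} [Group X] [Finite X]

/-- The commutator `a⁻¹ x⁻¹ a x`. -/
def k (a x : X) : X := a⁻¹ * x⁻¹ * a * x

theorem k_mul (a x y : X) : k a (x * y) = k a y * (y⁻¹ * k a x * y) := by simp only [k]; group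

theorem k_sq (a x : X) : k (a * a) x = a⁻¹ * k a x * a * k a x := by simp only [k]; group

theorem conj_eq (a x : X) : x⁻¹ * a * x = a * k a x := by simp only [k]; group

theorem conj_inv_eq (a x : X) : x * a * x⁻¹ = a * (x * (k a x)⁻¹ * x⁻¹) := by simp only [k]; group

theorem k_conj (a x : X) : k a x = a⁻¹ * (x⁻¹ * a * x) := by simp only [k]; group

/-- `A` is an abelian TI subgroup. -/
structure TI (A : Subgroup X) : Prop where
  comm : ∀ a ∈ A, ∀ b ∈ A, a * b = b * a
  ti : ∀ g : X, ∀ c ∈ A, c ≠ 1 → g * c * g⁻¹ ∈ A → g ∈ normalizer (A : Set X)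

variable {A : Subgroup X}

theorem TI.cent (h : TI A) {y c : X} (hc : c ∈ A) (hc1 : c ≠ 1) (hy : y * c = c * y) :
    y ∈ normalizer (A : Set X) :=
  h.ti y c hc hc1 (by rw [hy, mul_inv_cancel_right]; exact hc)

/-- Two conjugates normalizing each other commute. -/
theorem TI.key (h : TI A) {x : X} (h1 : ∀ a ∈ A, x⁻¹ * a * x ∈ normalizer (A : Set X))
    (h2 : ∀ a ∈ A, x * a * x⁻¹ ∈ normalizer (A : Set X)) {a : X} (ha : a ∈ A) : Commute a (k a x) := by
  rw [k_conj]
  by_cases hx : x ∈ normalizer (A : Set X)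
  · have hb : x⁻¹ * a * x ∈ A := (mem_normalizer_iff''.1 hx a).1 ha
    exact h.comm a ha _ (mul_mem (inv_mem ha) hb)
  refine ((Commute.refl a).inv_right).mul_right ?_
  set b := x⁻¹ * a * x with hb
  have m1 : ⁅a, b⁆ ∈ A := by
    rw [commutatorElement_def, show a * b * a⁻¹ * b⁻¹ = a * (b * a⁻¹ * b⁻¹) by group]
    exact mul_mem ha ((mem_normalizer_iff.1 (h1 a ha) _).1 (inv_mem ha))
  have m2 : x * ⁅a, b⁆ * x⁻¹ ∈ A := by
    rw [show x * ⁅a, b⁆ * x⁻¹ = ((x * a * x⁻¹) * a * (x * a * x⁻¹)⁻¹) * a⁻¹ by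
      rw [hb, commutatorElement_def]; group]
    exact mul_mem ((mem_normalizer_iff.1 (h2 a ha) _).1 ha) (inv_mem ha)
  by_contra hne
  exact hx (h.ti x _ m1 (fun e => hne (commutatorElement_eq_one_iff_mul_comm.1 e)) m2)

/-- A property of commutators with `A` can be proved by descending along the lower central series. -/
theorem descend {Q : Subgroup X} [Q.Normal] (hQ : IsPGroup 2 ↥Q) (hA2 : IsPGroup 2 ↥A)
    (W : Subgroup X) [W.Normal] (hWQ : W ≤ Q) (U : Subgroup X)
    (hstep : ∀ x ∈ W, (∀ a ∈ A, k a x ∈ U) → (∃ a₁ ∈ A, ∃ y ∈ W, x = k a₁ y) → x ∈ U) :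
    ∀ y ∈ W, ∀ a ∈ A, k a y ∈ U := by
  let P : Subgroup X := A ⊔ Q
  have hP : IsPGroup 2 ↥P := hA2.to_sup_of_normal_right hQ
  haveI := hP.isNilpotent
  obtain ⟨n, hn⟩ := Subgroup.nilpotent_iff_lowerCentralSeries.1 (inferInstance : Group.IsNilpotent ↥P)
  suffices hall : ∀ j i, i + j = n → ∀ y : ↥P, (y : X) ∈ W → y ∈ (⊤ : Subgroup ↥P).lowerCentralSeries i →
      ∀ a ∈ A, k a (y : X) ∈ U by
    intro y hy a ha
    exact hall n 0 (zero_add n) ⟨y, mem_sup_right (hWQ hy)⟩ hy (mem_top _) a ha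
  intro j
  induction j with
  | zero =>
    intro i hi y _ hy a _
    rw [show i = n by omega, hn, mem_bot] at hy
    subst hy
    simp [k]
  | succ j ih =>
    intro i hi y hyW hy a ha
    have hkW : k a (y : X) ∈ W := by
      have := mul_mem (Normal.conj_mem' ‹W.Normal› _ (inv_mem hyW) a) hyW
      simpa [k] using this
    refine hstep _ hkW (fun a' ha' => ?_) ⟨a, ha, y, hyW, rfl⟩
    have hmem : (⟨k a (y : X), mem_sup_right (hWQ hkW)⟩ : ↥P) ∈ (⊤ : Subgroup ↥P).lowerCentralSeries (i + 1) := by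
      have e : (⟨k a (y : X), mem_sup_right (hWQ hkW)⟩ : ↥P) =
          ⁅y⁻¹, (⟨a, mem_sup_left ha⟩ : ↥P)⁻¹⁆⁻¹ := Subtype.ext (by simp [k, commutatorElement_def, mul_assoc])
      rw [e, Subgroup.lowerCentralSeries_succ]
      exact inv_mem (commutator_mem_commutator (inv_mem hy) (mem_top _))
    exact ih (i + 1) (by omega) _ hkW hmem a' ha'

/-- An abelian normal `2`-subgroup normalizes `A` if `A` is not elementary. -/
theorem normal_abelian_le (h : TI A) {Q : Subgroup X} [Q.Normal] (hQ : IsPGroup 2 ↥Q) (hA2 : IsPGroup 2 ↥A)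
    (hsq : ∃ a₀ ∈ A, a₀ * a₀ ≠ 1) (W : Subgroup X) [W.Normal] (hWQ : W ≤ Q)
    (hW : ∀ u ∈ W, ∀ v ∈ W, u * v = v * u) : W ≤ normalizer (A : Set X) := by
  set N := normalizer (A : Set X)
  have hAN : A ≤ N := le_normalizer
  have hkW : ∀ a, ∀ x ∈ W, k a x ∈ W := fun a x hx => by
    have := mul_mem (Normal.conj_mem' ‹W.Normal› _ (inv_mem hx) a) hx
    simpa [k] using this
  have hfix : ∀ a, ∀ x ∈ W, ∀ y ∈ W, y⁻¹ * k a x * y = k a x := fun a x hx y hy => by
    rw [mul_assoc, hW _ (hkW a x hx) y hy, inv_mul_cancel_left]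
  have hU2 : ∀ m, ∀ x ∈ W, orderOf x = m → (∀ a ∈ A, k a x ∈ N) → x ∈ N := by
    intro m
    induction m using Nat.strong_induction_on with
    | _ m ih =>
      intro x hx hm hU
      by_cases hx1 : x = 1
      · rw [hx1]; exact one_mem _
      have hkk : ∀ a, k a (x * x) = k a x * k a x := fun a => by rw [k_mul, hfix a x hx x hx]
      have hsqN : x * x ∈ N := by
        refine ih _ ?_ (x * x) (mul_mem hx hx) rfl fun a ha => by rw [hkk]; exact mul_mem (hU a ha) (hU a ha)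
        obtain ⟨e, he⟩ := IsPGroup.iff_orderOf.1 hQ ⟨x, hWQ hx⟩
        rw [Subgroup.orderOf_mk] at he
        have he0 : e ≠ 0 := fun h0 => hx1 (orderOf_eq_one_iff.1 (by rw [he, h0, pow_zero]))
        rw [← hm, ← sq, orderOf_pow' x two_ne_zero, he, Nat.gcd_eq_right (dvd_pow_self 2 he0)]
        exact Nat.div_lt_self (pow_pos two_pos e) one_lt_two
      have hcomm : ∀ a ∈ A, Commute a (k a x) := fun a ha => h.key
        (fun a ha => by rw [conj_eq]; exact mul_mem (hAN ha) (hU a ha))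
        (fun a ha => by
          rw [conj_inv_eq, show x * (k a x)⁻¹ * x⁻¹ = (k a x)⁻¹ by
            rw [hW x hx _ (inv_mem (hkW a x hx)), mul_inv_cancel_right]]
          exact mul_mem (hAN ha) (inv_mem (hU a ha))) ha
      obtain ⟨a₀, ha₀, hne⟩ := hsq
      have hmem : k a₀ x * k a₀ x ∈ A := by
        have h1 := (mem_normalizer_iff''.1 hsqN a₀).1 ha₀
        rw [conj_eq, hkk] at h1
        simpa using mul_mem (inv_mem ha₀) h1
      refine inv_mem_iff.1 (h.ti x⁻¹ (a₀ * a₀) (mul_mem ha₀ ha₀) hne ?_)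
      rw [inv_inv, show x⁻¹ * (a₀ * a₀) * x = (x⁻¹ * a₀ * x) * (x⁻¹ * a₀ * x) by group, conj_eq,
        (hcomm a₀ ha₀).symm.mul_mul_mul_comm]
      exact mul_mem (mul_mem ha₀ ha₀) hmem
  have hd := descend hQ hA2 W hWQ (W ⊓ N) fun x hx hU _ => ⟨hx, hU2 _ x hx rfl fun a ha => (hU a ha).2⟩
  exact fun y hy => hU2 _ y hy rfl fun a ha => (hd y hy a ha).2

/-- Squares of elements of `A` lie in `O_2`. -/
theorem sq_mem_pCore (hX : Cfsg.generalizedFittingSubgroup X = Cfsg.pCore 2 X) (hA2 : IsPGroup 2 ↥A)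
    (h : TI A) {a : X} (ha : a ∈ A) : a * a ∈ Cfsg.pCore 2 X := by
  by_cases hsq : ∀ b ∈ A, b * b = 1
  · rw [hsq a ha]; exact one_mem _
  push Not at hsq
  set Q := Cfsg.pCore 2 X with hQdef
  haveI : Fact (Nat.Prime 2) := ⟨Nat.prime_two⟩
  haveI : Q.Normal := Cfsg.Agent.Lib.LocalChar.pCore_normal
  have hQ : IsPGroup 2 ↥Q := Cfsg.Agent.Lib.LocalChar.pCore_isPGroup
  obtain ⟨H, hchar, hpow, hHH, -, hcH, haut⟩ := Cfsg.Agent.Lib.KInf.exists_critical_aut hQ
  haveI := hchar
  let C : Subgroup X := H.map Q.subtype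
  haveI : C.Normal := ConjAct.normal_of_characteristic_of_normal
  have hCQ : C ≤ Q := map_subtype_le _
  let Z : Subgroup X := C ⊓ centralizer (C : Set X)
  haveI : (centralizer (C : Set X)).Normal := normal_centralizer
  haveI : Z.Normal := inferInstance
  have hZc : ∀ z ∈ Z, ∀ y ∈ C, y * z = z * y := fun z hz y hy => mem_centralizer_iff.1 hz.2 y hy
  have hlift : ∀ u : ↥Q, u ∈ H → u ∈ centralizer (H : Set ↥Q) → (u : X) ∈ Z := fun u hu hu' =>
    ⟨mem_map_of_mem _ hu, mem_centralizer_iff.2 fun y hy => by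
      obtain ⟨y', hy', rfl⟩ := mem_map.1 hy
      exact congrArg Subtype.val (mem_centralizer_iff.1 hu' y' hy')⟩
  have hsqZ : ∀ x ∈ C, x * x ∈ Z := by
    rintro _ ⟨u, hu, rfl⟩
    have h1 := hpow u hu
    rw [sq] at h1
    exact hlift _ h1.1 h1.2
  have hCC : ∀ u ∈ C, ∀ y ∈ C, u * y * u⁻¹ * y⁻¹ ∈ Z := by
    rintro _ ⟨u, hu, rfl⟩ _ ⟨y, hy, rfl⟩
    exact hlift ⁅u, y⁆ (mul_mem (mul_mem (mul_mem hu hy) (inv_mem hu)) (inv_mem hy))
      (hHH (commutator_mem_commutator hu hy))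
  set N := normalizer (A : Set X)
  have hAN : A ≤ N := le_normalizer
  have hZab : ∀ u ∈ Z, ∀ v ∈ Z, u * v = v * u := fun u hu v hv => (hZc u hu v hv.1).symm
  have hZN : Z ≤ N := normal_abelian_le h hQ hA2 hsq Z (inf_le_left.trans hCQ) hZab
  have hkA : ∀ a ∈ A, ∀ x ∈ N, k a x ∈ A := fun a ha x hx => by
    rw [k_conj]; exact mul_mem (inv_mem ha) ((mem_normalizer_iff''.1 hx a).1 ha)
  have hkN : ∀ W : Subgroup X, W.Normal → ∀ a, ∀ x ∈ W, k a x ∈ W := fun W hW a x hx => by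
    have := mul_mem (Normal.conj_mem' hW _ (inv_mem hx) a) hx
    simpa [k] using this
  -- commutators with elements of `C` commute with `A`
  have hkey : ∀ x ∈ C, ∀ a ∈ A, Commute a (k a x) := by
    by_cases h0 : ∃ c ∈ A, c ∈ Z ∧ c ≠ 1
    · obtain ⟨c, hcA, hcZ, hc1⟩ := h0
      intro x hx a ha
      exact h.comm a ha _ (hkA a ha x (h.cent hcA hc1 (hZc c hcZ x hx)))
    push Not at h0
    have hAZ : ∀ a ∈ A, ∀ z ∈ Z, a * z = z * a := fun a ha z hz => by
      have h1 : k a z = 1 := h0 _ (hkA a ha z (hZN hz)) (hkN Z inferInstance a z hz)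
      rw [k_conj, inv_mul_eq_one] at h1
      conv_rhs => rw [h1]
      group
    by_cases h1 : ∃ c ∈ A, c ∈ C ∧ c ≠ 1
    · obtain ⟨c, hcA, hcC, hc1⟩ := h1
      have hcc : ∀ x ∈ C, ∀ a ∈ A, x⁻¹ * a * x ∈ N := by
        intro x hx a ha
        refine h.cent hcA hc1 ?_
        set z := x * c * x⁻¹ * c⁻¹ with hz
        have hzZ : z ∈ Z := hCC x hx c hcC
        have hc' : Commute a (x * c * x⁻¹) := by
          rw [show x * c * x⁻¹ = z * c by rw [hz]; group]
          exact (show Commute a z from hAZ a ha z hzZ).mul_right (h.comm a ha c hcA)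
        calc x⁻¹ * a * x * c = x⁻¹ * (a * (x * c * x⁻¹)) * x := by group
          _ = x⁻¹ * ((x * c * x⁻¹) * a) * x := by rw [hc'.eq]
          _ = c * (x⁻¹ * a * x) := by group
      exact fun x hx a ha => h.key (hcc x hx) (fun a ha => by simpa using hcc _ (inv_mem hx) a ha) ha
    push Not at h1
    let U : Subgroup X := C ⊓ N
    have hUA : ∀ u ∈ U, ∀ a ∈ A, a * u = u * a := fun u hu a ha => by
      have h2 : k a u = 1 := h1 _ (hkA a ha u hu.2) (hkN C inferInstance a u hu.1)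
      rw [k_conj, inv_mul_eq_one] at h2
      conv_rhs => rw [h2]
      group
    have hU2 : ∀ x ∈ C, (∀ a ∈ A, k a x ∈ U) → ∀ a ∈ A, Commute a (k a x) := fun x hx hU a ha =>
      h.key (fun a ha => by rw [conj_eq]; exact mul_mem (hAN ha) (hU a ha).2)
        (fun a ha => by
          rw [conj_inv_eq]
          refine mul_mem (hAN ha) ?_
          have hu := inv_mem (hU a ha)
          rw [show x * (k a x)⁻¹ * x⁻¹ = (x * (k a x)⁻¹ * x⁻¹ * ((k a x)⁻¹)⁻¹) * (k a x)⁻¹ by group]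
          exact mul_mem (hZN (hCC x hx _ hu.1)) hu.2) ha
    have hd := descend hQ hA2 C hCQ U (fun x hx hU ⟨a₁, ha₁, y, hy, hxy⟩ => ⟨hx, by
      obtain ⟨a₀, ha₀, hne⟩ := hsq
      set u := k a₀ x with hu
      have huU : u ∈ U := hU a₀ ha₀
      set z := u * y * u⁻¹ * y⁻¹ with hz
      have hzZ : z ∈ Z := hCC u huU.1 y hy
      have hzy : y⁻¹ * z = z * y⁻¹ := hZc z hzZ _ (inv_mem hy)
      have hux : u * x * u⁻¹ = x := by
        have e1 : u * a₁ * u⁻¹ = a₁ := by rw [← hUA u huU a₁ ha₁, mul_inv_cancel_right]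
        calc u * x * u⁻¹ = u * (a₁⁻¹ * y⁻¹ * a₁ * y) * u⁻¹ := by rw [hxy]; rfl
          _ = (u * a₁ * u⁻¹)⁻¹ * (u * y * u⁻¹)⁻¹ * (u * a₁ * u⁻¹) * (u * y * u⁻¹) := by group
          _ = a₁⁻¹ * (z * y)⁻¹ * a₁ * (z * y) := by rw [e1, hz]; group
          _ = a₁⁻¹ * (y⁻¹ * z⁻¹) * (a₁ * z) * y := by group
          _ = a₁⁻¹ * (y⁻¹ * z⁻¹) * (z * a₁) * y := by rw [hAZ a₁ ha₁ z hzZ]
          _ = x := by rw [hxy]; simp only [k]; group
      have hux' : x⁻¹ * u * x = u := by
        have : u * x = x * u := by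
          calc u * x = u * x * u⁻¹ * u := by group
            _ = x * u := by rw [hux]
        rw [mul_assoc, this, inv_mul_cancel_left]
      have hu2 : u * u = 1 := by
        have h3 : k a₀ (x * x) = 1 := by
          rw [k_conj, inv_mul_eq_one]
          rw [mul_assoc, hAZ a₀ ha₀ _ (hsqZ x hx), inv_mul_cancel_left]
        rwa [k_mul, ← hu, hux'] at h3
      refine (inv_mem_iff (H := normalizer (A : Set X))).1 (h.ti x⁻¹ (a₀ * a₀) (mul_mem ha₀ ha₀) hne ?_)
      rw [inv_inv, show x⁻¹ * (a₀ * a₀) * x = (x⁻¹ * a₀ * x) * (x⁻¹ * a₀ * x) by group, conj_eq, ← hu,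
        ((hU2 x hx hU a₀ ha₀).symm).mul_mul_mul_comm, hu2, mul_one]
      exact mul_mem ha₀ ha₀⟩)
    exact fun x hx a ha => hU2 x hx (hd x hx) a ha
  -- centralisation of chief factors
  refine Cfsg.Agent.Lib.KInf.mem_pCore_of_centralizes_factors (p := 2) (A := C) hCQ
    (fun φ hφ hfix => haut φ hφ fun u hu => hfix u (mem_map_of_mem _ hu))
    (by have := Cfsg.Agent.Lib.Components.centralizer_gfs_le (G := X); rwa [hX] at this) ?_
  intro U V hUV hUC u hu
  haveI hUn := hUV.2.1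
  haveI hVn := hUV.2.2.1
  have hUQ : U ≤ Q := hUC.trans hCQ
  have hw : ∀ s : X, Commute a (k a s⁻¹) → ⁅s, a * a⁆ = (a * a) * (k a s⁻¹ * k a s⁻¹) * (a * a)⁻¹ := fun s hs => by
    have e1 : k (a * a) s⁻¹ = k a s⁻¹ * k a s⁻¹ := by
      rw [k_sq, mul_assoc a⁻¹, ← hs.eq, inv_mul_cancel_left]
    rw [← e1, commutatorElement_def]
    simp only [k]
    group
  have hsquareV : ∀ t ∈ U, t * t ∈ V := fun t ht => by
    rw [← sq]; exact Cfsg.Agent.Lib.KInf.chief_pow_mem (p := 2) hQ hUV hUQ ht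
  have hzV : ∀ z ∈ U ⊓ Z, ⁅z, a * a⁆ ∈ V := fun z hz => by
    rw [hw z (h.comm a ha _ (hkA a ha _ (hZN (inv_mem hz.2))))]
    exact hVn.conj_mem _ (hsquareV _ (hkN U hUn a _ (inv_mem hz.1))) _
  rcases Cfsg.Agent.Lib.KInf.chief_split (Z := Z) hUV with hs | hs
  · obtain ⟨z, hz, v, hv, rfl⟩ := mem_sup_of_normal_right.1 (hs hu)
    rw [show ⁅z * v, a * a⁆ = (z * (v * ((a * a) * v⁻¹ * (a * a)⁻¹)) * z⁻¹) * ⁅z, a * a⁆ by
      simp only [commutatorElement_def]; group]
    exact mul_mem (hVn.conj_mem _ (mul_mem hv (hVn.conj_mem _ (inv_mem hv) _)) _) (hzV z hz)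
  · refine hs ⟨?_, ?_⟩
    · rw [commutatorElement_def, show u * (a * a) * u⁻¹ * (a * a)⁻¹ = u * ((a * a) * u⁻¹ * (a * a)⁻¹) by group]
      exact mul_mem hu (hUn.conj_mem _ (inv_mem hu) _)
    · rw [hw u (hkey _ (inv_mem (hUC hu)) a ha)]
      exact Normal.conj_mem inferInstance _ (hsqZ _ (hkN C inferInstance a _ (inv_mem (hUC hu)))) _

/-- Let X be a finite group whose generalized Fitting subgroup equals its largest normal 2-subgroup Q, and let A be an abelian 2-subgroup of X such that every conjugate of A equals A or meets A trivially. Let B be the subgroup generated by the squares of the elements of A. Then B lies in Q, and if B is not an elementary abelian 2-group then the normal closure of B in X is commutative. -/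
theorem result {X : Type*} [Group X] [Finite X]
    (hX : Cfsg.generalizedFittingSubgroup X = Cfsg.pCore 2 X) (A : Subgroup X) (hA2 : IsPGroup 2 ↥A) (hAa : IsMulCommutative ↥A)
    (hti : ∀ h : X, A.map (MulAut.conj h).toMonoidHom = A ∨ A.map (MulAut.conj h).toMonoidHom ⊓ A = ⊥) :
    Subgroup.closure ((fun a : X => a ^ 2) '' (A : Set X)) ≤ Cfsg.pCore 2 X ∧
      (¬ Cfsg.IsElementaryAbelian 2 (Subgroup.closure ((fun a : X => a ^ 2) '' (A : Set X))) →
        IsMulCommutative ↥(Subgroup.normalClosure ((fun a : X => a ^ 2) '' (A : Set X)))) := by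
  haveI : Fact (Nat.Prime 2) := ⟨Nat.prime_two⟩
  have h : TI A := by
    refine ⟨fun a ha b hb => congrArg Subtype.val (hAa.is_comm.comm (⟨a, ha⟩ : ↥A) ⟨b, hb⟩), fun g c hc hc1 hgc => ?_⟩
    rcases hti g with h1 | h1
    · refine mem_normalizer_fintype fun n hn => ?_
      exact (SetLike.ext_iff.1 h1 _).1 ⟨n, hn, rfl⟩
    · refine absurd ((eq_bot_iff_forall _).1 h1 _ ⟨⟨c, hc, rfl⟩, hgc⟩) ?_
      intro e
      exact hc1 (conj_eq_one_iff.1 (e : g * c * g⁻¹ = 1))
  set Q := Cfsg.pCore 2 X with hQdef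
  haveI : Q.Normal := Cfsg.Agent.Lib.LocalChar.pCore_normal
  have hQ : IsPGroup 2 ↥Q := Cfsg.Agent.Lib.LocalChar.pCore_isPGroup
  set S := (fun a : X => a ^ 2) '' (A : Set X) with hS
  have hSQ : S ⊆ (Q : Set X) := by
    rintro _ ⟨a, ha, rfl⟩
    show a ^ 2 ∈ Q
    rw [sq]; exact sq_mem_pCore hX hA2 h ha
  refine ⟨(closure_le _).2 hSQ, fun hne => ?_⟩
  have hBsq : ∀ b ∈ closure S, ∃ a ∈ A, b = a * a := by
    intro b hb
    induction hb using closure_induction with
    | mem s hs => obtain ⟨a, ha, rfl⟩ := hs; exact ⟨a, ha, sq a⟩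
    | one => exact ⟨1, one_mem _, (mul_one 1).symm⟩
    | mul p q _ _ hp hq =>
      obtain ⟨a, ha, rfl⟩ := hp
      obtain ⟨a', ha', rfl⟩ := hq
      exact ⟨a * a', mul_mem ha ha', (Commute.mul_mul_mul_comm (h.comm a' ha' a ha).symm.symm _ _).symm⟩
    | inv p _ hp => obtain ⟨a, ha, rfl⟩ := hp; exact ⟨a⁻¹, inv_mem ha, mul_inv_rev a a⟩
  have hBA : ∀ b ∈ closure S, b ∈ A := fun b hb => by
    obtain ⟨a, ha, rfl⟩ := hBsq b hb
    exact mul_mem ha ha
  obtain ⟨b₀, hb₀S, hb₀⟩ : ∃ b₀ ∈ closure S, b₀ * b₀ ≠ 1 := by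
    by_contra h'
    push Not at h'
    exact hne ⟨⟨⟨fun x y => Subtype.ext (h.comm _ (hBA _ x.2) _ (hBA _ y.2))⟩⟩, fun b hb => (sq b).trans (h' b hb)⟩
  have hsq : ∃ a₀ ∈ A, a₀ * a₀ ≠ 1 := ⟨b₀, hBA _ hb₀S, hb₀⟩
  set N := normalizer (A : Set X)
  set V := normalClosure S with hV
  have hSV : S ⊆ (V : Set X) := subset_normalClosure
  have hVQ : V ≤ Q := normalClosure_le_normal hSQ
  haveI : V.Normal := normalClosure_normal
  haveI : (centralizer (V : Set X)).Normal := normal_centralizer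
  -- it is enough that conjugate squares commute
  suffices hmain : ∀ b ∈ S, ∀ b' ∈ S, ∀ g : X, Commute b (g * b' * g⁻¹) by
    have h1 : S ⊆ (centralizer (V : Set X) : Set X) := by
      intro b hb
      refine mem_centralizer_iff.2 fun v hv => ?_
      have : V ≤ centralizer ({b} : Set X) := by
        rw [hV, normalClosure, closure_le]
        intro c hc
        obtain ⟨b', hb', hc'⟩ := Group.mem_conjugatesOfSet_iff.1 hc
        obtain ⟨g, rfl⟩ := isConj_iff.1 hc'
        exact mem_centralizer_singleton_iff.2 (hmain b hb b' hb' g).symm.eq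
      exact mem_centralizer_singleton_iff.1 (this hv)
    have h2 : V ≤ centralizer (V : Set X) := normalClosure_le_normal h1
    exact ⟨⟨fun x y => Subtype.ext (mem_centralizer_iff.1 (h2 y.2) _ x.2)⟩⟩
  intro b hb b' hb' g
  set c := g * b' * g⁻¹ with hc
  have hbA : b ∈ A := hBA _ (subset_closure hb)
  have hb'A : b' ∈ A := hBA _ (subset_closure hb')
  have hcV : c ∈ V := Normal.conj_mem inferInstance _ (hSV hb') g
  -- the two consequences of mutual normalisation
  have hmut : ∀ {y}, y ∈ N → g⁻¹ * b * g ∈ N → y = c → ⁅b, c⁆ ∈ A ∧ g⁻¹ * ⁅b, c⁆ * g ∈ A := by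
    intro y hy hbN e
    subst e
    constructor
    · rw [commutatorElement_def, show b * c * b⁻¹ * c⁻¹ = b * (c * b⁻¹ * c⁻¹) by group]
      exact mul_mem hbA ((mem_normalizer_iff.1 hy _).1 (inv_mem hbA))
    · rw [show g⁻¹ * ⁅b, c⁆ * g = ((g⁻¹ * b * g) * b' * (g⁻¹ * b * g)⁻¹) * b'⁻¹ by
        rw [hc, commutatorElement_def]; group]
      exact mul_mem ((mem_normalizer_iff.1 hbN _).1 hb'A) (inv_mem hb'A)
  by_cases hcase : ∃ d ∈ A, d ≠ 1 ∧ d ∈ centralizer (V : Set X)
  · -- `V` normalises every conjugate of `A`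
    obtain ⟨d, hdA, hd1, hdV⟩ := hcase
    have hVN : V ≤ N := fun v hv => h.cent hdA hd1 (mem_centralizer_iff.1 hdV v hv)
    obtain ⟨m1, m2⟩ := hmut (hVN hcV) (hVN (Normal.conj_mem' inferInstance _ (hSV hb) g)) rfl
    apply commutatorElement_eq_one_iff_mul_comm.1
    by_contra hne1
    have hgN : g⁻¹ ∈ N := h.ti g⁻¹ _ m1 hne1 (by rw [inv_inv]; exact m2)
    have hcA : c ∈ A := (mem_normalizer_iff.1 (inv_mem_iff.1 hgN) _).1 hb'A
    exact hne1 (commutatorElement_eq_one_iff_mul_comm.2 (h.comm b hbA c hcA))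
  push Not at hcase
  have hA0 : ∀ d ∈ A, d ∈ centralizer (V : Set X) → d = 1 := fun d hd hdV => by
    by_contra h1
    exact hcase d hd h1 hdV
  -- the lower central series of `V`
  let γ : ℕ → Subgroup X := fun i => V.lowerCentralSeries i
  have hγsucc : ∀ i, γ (i + 1) = ⁅γ i, V⁆ := fun i => rfl
  have hγn : ∀ i, (γ i).Normal := by
    intro i
    induction i with
    | zero => exact (inferInstance : V.Normal)
    | succ i ih => haveI := ih; rw [hγsucc]; infer_instance
  have hγV : ∀ i, γ i ≤ V := by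
    intro i
    induction i with
    | zero => exact le_rfl
    | succ i ih => exact (commutator_mono ih le_rfl).trans (commutator_le_self _)
  have hγ0 : ∃ n, γ n = ⊥ := by
    haveI := (hQ.to_le hVQ).isNilpotent
    obtain ⟨n, hn⟩ := Subgroup.nilpotent_iff_lowerCentralSeries.1 (inferInstance : Group.IsNilpotent ↥V)
    have hmap : ∀ i, ((⊤ : Subgroup ↥V).lowerCentralSeries i).map V.subtype = γ i := by
      intro i
      induction i with
      | zero => show (⊤ : Subgroup ↥V).map V.subtype = V; rw [← MonoidHom.range_eq_map, range_subtype]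
      | succ i ih =>
        rw [hγsucc, ← ih, Subgroup.lowerCentralSeries_succ, map_commutator, ← MonoidHom.range_eq_map, range_subtype]
    exact ⟨n, by rw [← hmap n, hn, Subgroup.map_bot]⟩
  have hstep : ∀ i, 1 ≤ i → γ (i + 1 + 1) = ⊥ → γ (i + 1) = ⊥ := by
    intro i hi hbot
    haveI := hγn i
    haveI := hγn (i + 1)
    have hz : γ (i + 1) ≤ centralizer (V : Set X) := by
      rw [← commutator_eq_bot_iff_le_centralizer, ← hγsucc]; exact hbot
    have hab : ⁅γ i, γ i⁆ = ⊥ := by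
      obtain ⟨j, rfl⟩ : ∃ j, i = j + 1 := ⟨i - 1, by omega⟩
      conv_lhs => arg 1; rw [hγsucc]
      refine commutator_commutator_eq_bot_of_rotate ?_ ?_
      · refine le_bot_iff.1 (le_trans (commutator_mono (?_ : ⁅V, γ (j + 1)⁆ ≤ γ (j + 1 + 1)) (hγV j)) (by rw [← hγsucc, hbot]))
        rw [hγsucc (j + 1), commutator_comm]
      · refine le_bot_iff.1 (le_trans (commutator_mono (?_ : ⁅γ (j + 1), γ j⁆ ≤ γ (j + 1 + 1)) le_rfl) (by rw [← hγsucc, hbot]))
        rw [hγsucc (j + 1)]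
        exact commutator_mono le_rfl (hγV j)
    have hiN : γ i ≤ N := normal_abelian_le h hQ hA2 hsq (γ i) ((hγV i).trans hVQ) fun u hu v hv =>
      commutatorElement_eq_one_iff_mul_comm.1 (mem_bot.1 (hab ▸ commutator_mem_commutator hu hv))
    have hcent : γ i ≤ centralizer (V : Set X) := by
      have h1 : S ⊆ (centralizer (γ i : Set X) : Set X) := fun s hs => mem_centralizer_iff.2 fun u hu => by
        have hsA : s ∈ A := hBA _ (subset_closure hs)
        refine commutatorElement_eq_one_iff_mul_comm.1 (hA0 _ ?_ (hz ?_))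
        · rw [commutatorElement_def]
          exact mul_mem ((mem_normalizer_iff.1 (hiN hu) _).1 hsA) (inv_mem hsA)
        · rw [hγsucc]; exact commutator_mem_commutator hu (hSV hs)
      haveI : (centralizer (γ i : Set X)).Normal := normal_centralizer
      have h2 : V ≤ centralizer (γ i : Set X) := normalClosure_le_normal h1
      exact fun u hu => mem_centralizer_iff.2 fun v hv => (mem_centralizer_iff.1 (h2 hv) u hu).symm
    rw [hγsucc]
    exact commutator_eq_bot_iff_le_centralizer.2 hcent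
  have hγ2 : γ 2 = ⊥ := by
    obtain ⟨n, hn⟩ := hγ0
    have hmono : ∀ i, γ (i + 1) ≤ γ i := fun i => by
      haveI := hγn i
      rw [hγsucc]; exact commutator_le_left _ _
    have hdown : ∀ j, ∀ i, 2 ≤ i → i + j = n + 2 → γ i = ⊥ := by
      intro j
      induction j with
      | zero => intro i _ hi; rw [show i = n + 2 by omega]; exact le_bot_iff.1 (hn ▸ (hmono _).trans (hmono _))
      | succ j ih =>
        intro i hi2 hi
        obtain ⟨l, rfl⟩ : ∃ l, i = l + 1 := ⟨i - 1, by omega⟩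
        exact hstep l (by omega) (ih (l + 1 + 1) (by omega) (by omega))
    exact hdown n 2 le_rfl (by omega)
  have hcz : ∀ v ∈ V, ∀ w ∈ V, ⁅v, w⁆ ∈ centralizer (V : Set X) := fun v hv w hw => by
    have h1 : γ 1 ≤ centralizer (V : Set X) := by
      rw [← commutator_eq_bot_iff_le_centralizer, ← hγsucc]; exact hγ2
    refine h1 ?_
    rw [hγsucc 0]
    exact commutator_mem_commutator hv hw
  -- an involution in the span of the squares and an element of order at least four in the conjugate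
  obtain ⟨e, he⟩ := IsPGroup.iff_orderOf.1 hA2 ⟨b₀, hBA _ hb₀S⟩
  rw [Subgroup.orderOf_mk] at he
  have he0 : e ≠ 0 := fun h0 => hb₀ (by
    have h01 : b₀ = 1 := orderOf_eq_one_iff.1 (by rw [he, h0, pow_zero])
    rw [h01, one_mul])
  set u := b₀ ^ 2 ^ (e - 1) with hu
  have hu2 : u * u = 1 := by
    rw [hu, ← pow_add, ← two_mul, ← pow_succ', Nat.sub_add_cancel (Nat.pos_of_ne_zero he0), ← he, pow_orderOf_eq_one]
  have hu1 : u ≠ 1 := by
    rw [hu]
    intro h1
    have h2 := orderOf_dvd_of_pow_eq_one h1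
    rw [he, Nat.pow_dvd_pow_iff_le_right (by norm_num)] at h2
    omega
  have hB : closure S ≤ V := (closure_le _).2 hSV
  have huV : u ∈ V := hB (pow_mem hb₀S _)
  have huA : u ∈ A := pow_mem (hBA _ hb₀S) _
  set x := g * b₀ * g⁻¹ with hx
  have hxV : x ∈ V := Normal.conj_mem inferInstance _ (hB hb₀S) g
  have hx2 : g⁻¹ * (x * x) * g = b₀ * b₀ := by rw [hx]; group
  have hxu : (x * x) * u = u * (x * x) := by
    set z := ⁅u, x⁆ with hz
    have hzc := mem_centralizer_iff.1 (hcz u huV x hxV)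
    have e1 : u * x = z * x * u := by rw [hz, commutatorElement_def]; group
    have e2 : z * z = 1 := by
      have : u * u * x = z * z * x * (u * u) := by
        calc u * u * x = u * (u * x) := mul_assoc _ _ _
          _ = u * z * x * u := by rw [e1]; group
          _ = z * u * x * u := by rw [hzc u huV]
          _ = z * (u * x) * u := by group
          _ = z * z * x * (u * u) := by rw [e1]; group
      rw [hu2, one_mul, mul_one] at this
      exact mul_eq_right.1 this.symm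
    calc x * x * u = z * z * (x * x * u) := by rw [e2, one_mul]
      _ = z * (z * x) * x * u := by group
      _ = z * (x * z) * x * u := by rw [hzc x hxV]
      _ = (z * x) * (z * x * u) := by group
      _ = (z * x) * (u * x) := by rw [e1]
      _ = (z * x * u) * x := by group
      _ = u * (x * x) := by rw [← e1, mul_assoc]
  have hx2N : x * x ∈ N := h.cent huA hu1 hxu
  have hbN : g⁻¹ * b * g ∈ N := by
    have h1 : ⁅x * x, b⁆ = 1 := hA0 _ (by
      rw [commutatorElement_def]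
      exact mul_mem ((mem_normalizer_iff.1 hx2N _).1 hbA) (inv_mem hbA)) (hcz _ (mul_mem hxV hxV) _ (hSV hb))
    refine h.cent (c := b₀ * b₀) (mul_mem (hBA _ hb₀S) (hBA _ hb₀S)) hb₀ ?_
    rw [← hx2]
    calc g⁻¹ * b * g * (g⁻¹ * (x * x) * g) = g⁻¹ * (b * (x * x)) * g := by group
      _ = g⁻¹ * ((x * x) * b) * g := by rw [commutatorElement_eq_one_iff_mul_comm.1 h1]
      _ = g⁻¹ * (x * x) * g * (g⁻¹ * b * g) := by group
  apply commutatorElement_eq_one_iff_mul_comm.1
  have hm : g⁻¹ * ⁅b, c⁆ * g ∈ A := by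
    rw [show g⁻¹ * ⁅b, c⁆ * g = ((g⁻¹ * b * g) * b' * (g⁻¹ * b * g)⁻¹) * b'⁻¹ by
      rw [hc, commutatorElement_def]; group]
    exact mul_mem ((mem_normalizer_iff.1 hbN _).1 hb'A) (inv_mem hb'A)
  have := hA0 _ hm (Normal.conj_mem' inferInstance _ (hcz b (hSV hb) c hcV) g)
  calc ⁅b, c⁆ = g * (g⁻¹ * ⁅b, c⁆ * g) * g⁻¹ := by group
    _ = 1 := by rw [this]; group

end Cfsg.Agent.S1783
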