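import Cfsg.Statements.S1784
import Cfsg.Agent.Lib.Thompson.ExtraDouble
import Cfsg.Agent.Lib.LargeExtra.Centralizer

set_option autoImplicit false
open Cfsg

namespace Cfsg.Agent.S1784

open Subgroup Cfsg.Agent.Lib Cfsg.Agent.Lib.Thompson
open scoped commutatorElement

/-- The statement for an abstract extraspecial subgroup normalised by an involution `α`. -/
theorem key {G : Type*} [Group G] [Finite G] {Q : Subgroup G} {z : G} (F : ExtraDouble.Form Q z)
    (α : G) (hα : α * α = 1) (hαz : Commute α z) (hαQ : ∀ q ∈ Q, α * q * α⁻¹ ∈ Q)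
    (hne : ∃ q ∈ Q, α * q * α⁻¹ * q⁻¹ ≠ 1) (Q₀ : Subgroup G)
    (hQ₀ : ∀ q : G, q ∈ Q₀ ↔ (q ∈ Q ∧ α * q * α⁻¹ * q⁻¹ ∈ zpowers z)) :
    closure ((fun q : G => α * q * α⁻¹ * q⁻¹) '' (Q : Set G)) = (Subgroup.center ↥Q₀).map Q₀.subtype := by
  classical
  set S := closure ((fun q : G => α * q * α⁻¹ * q⁻¹) '' (Q : Set G)) with hS
  have hai : α⁻¹ = α := inv_eq_of_mul_eq_one_right hα
  have hgen : ∀ q ∈ Q, α * q * α⁻¹ * q⁻¹ ∈ S := fun q hq => subset_closure ⟨q, hq, rfl⟩
  have hcQ : ∀ q ∈ Q, α * q * α⁻¹ * q⁻¹ ∈ Q := fun q hq => mul_mem (hαQ q hq) (inv_mem hq)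
  have hSQ : S ≤ Q := (closure_le Q).2 (by rintro _ ⟨q, hq, rfl⟩; exact hcQ q hq)
  -- commutators with values in `⟨z⟩`
  have B_inv : ∀ a ∈ Q, ∀ b ∈ Q, ⁅a, b⁆ = ⁅a, b⁻¹⁆ := by
    intro a ha b hb
    rcases F.comm_cases ha hb with e | e
    · rw [commutatorElement_eq_one_iff_mul_comm.2 e.eq,
        commutatorElement_eq_one_iff_mul_comm.2 e.inv_right.eq]
    · rcases F.comm_cases ha (inv_mem hb) with e' | e'
      · exact absurd (by simpa using e'.inv_right) fun h : Commute a b =>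
          F.ne (by rw [← e]; exact commutatorElement_eq_one_iff_mul_comm.2 h.eq)
      · rw [e, e']
  have B_mul : ∀ a ∈ Q, ∀ b ∈ Q, ∀ c ∈ Q, ⁅a, b * c⁆ = ⁅a, b⁆ * ⁅a, c⁆ := by
    intro a ha b hb c hc
    have h : Commute b ⁅a, c⁆ := by
      rcases F.comm a ha c hc with e | e <;> rw [e]
      exacts [Commute.one_right _, F.cz b hb]
    calc ⁅a, b * c⁆ = ⁅a, b⁆ * (b * ⁅a, c⁆ * b⁻¹) := by simp [commutatorElement_def, mul_assoc]
      _ = _ := by rw [h.eq, mul_inv_cancel_right]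
  have B_symm : ∀ a ∈ Q, ∀ b ∈ Q, ⁅a, b⁆ = ⁅b, a⁆ := by
    intro a ha b hb
    rw [← commutatorElement_inv b a]
    rcases F.comm b hb a ha with e | e <;> rw [e]
    · exact inv_one
    · exact inv_eq_of_mul_eq_one_right F.sq
  have B_conj : ∀ a ∈ Q, ∀ b ∈ Q, ⁅α * a * α⁻¹, α * b * α⁻¹⁆ = ⁅a, b⁆ := by
    intro a ha b hb
    rw [show ⁅α * a * α⁻¹, α * b * α⁻¹⁆ = α * ⁅a, b⁆ * α⁻¹ by simp [commutatorElement_def, mul_assoc]]
    rcases F.comm a ha b hb with e | e <;> rw [e]
    · simp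
    · rw [hαz.eq, mul_inv_cancel_right]
  have hdual : ∀ x ∈ Q, ∀ q ∈ Q, ⁅x, α * q * α⁻¹ * q⁻¹⁆ = ⁅α * x * α⁻¹ * x⁻¹, q⁆ := by
    intro x hx q hq
    have hx' := hαQ x hx
    have hq' := hαQ q hq
    have h1 : ⁅x, α * q * α⁻¹⁆ = ⁅α * x * α⁻¹, q⁆ := by
      conv_lhs => rw [← B_conj x hx (α * q * α⁻¹) hq']
      congr 1
      rw [hai]
      calc α * (α * q * α) * α = (α * α) * q * (α * α) := by group
        _ = q := by rw [hα, one_mul, mul_one]
    rw [B_mul x hx _ hq' _ (inv_mem hq), ← B_inv x hx q hq, h1,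
      B_symm _ (hcQ x hx) q hq, B_mul q hq _ hx' _ (inv_mem hx), ← B_inv q hq x hx,
      B_symm q hq _ hx', B_symm q hq x hx]
  have horth : ExtraDouble.orth Q S = Q₀ := by
    ext x
    rw [ExtraDouble.mem_orth, hQ₀]
    refine and_congr_right fun hx => ⟨fun h => ?_, fun h => ?_⟩
    · have hc : ∀ q ∈ Q, Commute (α * x * α⁻¹ * x⁻¹) q := by
        intro q hq
        have := hdual x hx q hq
        rw [commutatorElement_eq_one_iff_mul_comm.2 (h _ (hgen q hq)).eq] at this
        exact commutatorElement_eq_one_iff_mul_comm.1 this.symm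
      rcases F.center _ (hcQ x hx) hc with e | e <;> rw [e]
      exacts [one_mem _, mem_zpowers z]
    · have hcom : S ≤ centralizer {x} := (closure_le _).2 (by
        rintro _ ⟨q, hq, rfl⟩
        have hq1 : Commute (α * x * α⁻¹ * x⁻¹) q := by
          rcases F.zpowers_mem h with e | e <;> rw [e]
          exacts [Commute.one_left _, (F.cz q hq).symm]
        have := hdual x hx q hq
        rw [commutatorElement_eq_one_iff_mul_comm.2 hq1.eq] at this
        exact mem_centralizer_singleton_iff.2 (commutatorElement_eq_one_iff_mul_comm.1 this).symm)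
      exact fun s hs => (mem_centralizer_singleton_iff.1 (hcom hs)).symm
  have hSQ₀ : S ≤ Q₀ := (closure_le Q₀).2 (by
    rintro _ ⟨q, hq, rfl⟩
    refine (hQ₀ _).2 ⟨hcQ q hq, ?_⟩
    dsimp only
    have he : α * (α * q * α⁻¹ * q⁻¹) * α⁻¹ * (α * q * α⁻¹ * q⁻¹)⁻¹
        = (α * q * α⁻¹ * q⁻¹)⁻¹ * (α * q * α⁻¹ * q⁻¹)⁻¹ := by
      congr 1
      rw [hai]
      calc α * (α * q * α * q⁻¹) * α = (α * α) * q * α * q⁻¹ * α := by group
        _ = q * α⁻¹ * q⁻¹ * α⁻¹ := by rw [hα, hai, one_mul]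
        _ = (α * q * α * q⁻¹)⁻¹ := by group
    rw [he]
    rcases F.square _ (inv_mem (hcQ q hq)) with e | e <;> rw [e]
    exacts [one_mem _, mem_zpowers z])
  have hnorm : ∀ r ∈ Q, ∀ s ∈ S, r * s * r⁻¹ ∈ S := by
    intro r hr
    have : S ≤ S.comap (MulAut.conj r).toMonoidHom := by
      refine (closure_le _).2 ?_
      rintro _ ⟨q, hq, rfl⟩
      show r * (α * q * α⁻¹ * q⁻¹) * r⁻¹ ∈ S
      have := mul_mem (inv_mem (hgen r hr)) (hgen (r * q) (mul_mem hr hq))
      convert this using 1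
      group
    exact fun s hs => this hs
  have hzS : z ∈ S := by
    obtain ⟨q, hq, hq1⟩ := hne
    by_contra hz
    have hs := hgen q hq
    by_cases hcen : ∀ r ∈ Q, Commute (α * q * α⁻¹ * q⁻¹) r
    · rcases F.center _ (hcQ q hq) hcen with e | e
      · exact hq1 e
      · exact hz (e ▸ hs)
    · push Not at hcen
      obtain ⟨r, hr, hr1⟩ := hcen
      rcases F.comm_cases hr (hcQ q hq) with e | e
      · exact hr1 e.symm
      · exact hz (e ▸ mul_mem (hnorm r hr _ hs) (inv_mem hs))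
  have hdd := F.orth_orth hzS hSQ
  rw [horth] at hdd
  refine le_antisymm (fun s hs => ?_) ?_
  · refine ⟨⟨s, hSQ₀ hs⟩, mem_center_iff.2 fun a => Subtype.ext ?_, rfl⟩
    exact ((ExtraDouble.mem_orth.1 (horth.symm ▸ a.2 : (a : G) ∈ ExtraDouble.orth Q S)).2 s hs).eq
  · rintro _ ⟨a, ha, rfl⟩
    rw [← hdd]
    exact ExtraDouble.mem_orth.2 ⟨((hQ₀ a).1 a.2).1,
      fun t ht => (congrArg Subtype.val (mem_center_iff.1 ha ⟨t, ht⟩)).symm⟩


/-- Let G be a finite group and let z be an involution of G such that Q, the generalized Fitting subgroup of the centralizer C of z, is a 2-group of symplectic type (every characteristic abelian subgroup of Q is cyclic); suppose Q is extraspecial, and view Q inside G. Let α be an involution of C that is not in Q, and let Q₀ be the subgroup of those q ∈ Q whose commutator with α lies in the subgroup generated by z. Then (a) the subgroup generated by the commutators α q α⁻¹ q⁻¹, q ∈ Q, equals the centre of Q₀; and (b)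 if Q₀ is not contained in the product of the centralizer of α in Q with the subgroup generated by z, then some element of Q conjugates α to α z. -/
theorem result {G : Type*} [Group G] [Finite G] (z : G) (hz : orderOf z = 2) (hQ : Cfsg.IsOfSymplecticType ↥(Cfsg.generalizedFittingSubgroup ↥(Subgroup.centralizer ({z} : Set G)))) (hE : Cfsg.IsExtraspecial 2 ↥(Cfsg.generalizedFittingSubgroup ↥(Subgroup.centralizer ({z} : Set G))))
    (α : G) (hα : orderOf α = 2) (hαC : α ∈ Subgroup.centralizer ({z} : Set G)) (hαQ : α ∉ (Cfsg.generalizedFittingSubgroup ↥(Subgroup.centralizer ({z} : Set G))).map (Subgroup.centralizer ({z} : Set G)).subtype)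
    (Q₀ : Subgroup G) (hQ₀ : ∀ q : G, q ∈ Q₀ ↔ (q ∈ (Cfsg.generalizedFittingSubgroup ↥(Subgroup.centralizer ({z} : Set G))).map (Subgroup.centralizer ({z} : Set G)).subtype ∧ α * q * α⁻¹ * q⁻¹ ∈ Subgroup.zpowers z)) :
    Subgroup.closure ((fun q : G => α * q * α⁻¹ * q⁻¹) '' ((Cfsg.generalizedFittingSubgroup ↥(Subgroup.centralizer ({z} : Set G))).map (Subgroup.centralizer ({z} : Set G)).subtype : Set G)) = (Subgroup.center ↥Q₀).map Q₀.subtype ∧
      (¬ Q₀ ≤ ((Cfsg.generalizedFittingSubgroup ↥(Subgroup.centralizer ({z} : Set G))).map (Subgroup.centralizer ({z} : Set G)).subtype ⊓ Subgroup.centralizer ({α} : Set G)) ⊔ Subgroup.zpowers z →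
        ∃ q ∈ (Cfsg.generalizedFittingSubgroup ↥(Subgroup.centralizer ({z} : Set G))).map (Subgroup.centralizer ({z} : Set G)).subtype, q * α * q⁻¹ = α * z) := by
  classical
  set C := Subgroup.centralizer ({z} : Set G)
  generalize hF : (Cfsg.generalizedFittingSubgroup ↥C).map C.subtype = Q at *
  have hE' : Cfsg.IsExtraspecial 2 ↥Q := by
    subst hF
    exact LargeExtra.isExtraspecial_equiv
      ((Cfsg.generalizedFittingSubgroup ↥C).equivMapOfInjective C.subtype C.subtype_injective) hE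
  obtain ⟨hCQ, -, hzQ, hZ, hn⟩ := LargeExtra.of_fstar hz hF hE'
  have hQC : Q ≤ C := hF ▸ Subgroup.map_subtype_le _
  have hz1 : z ≠ 1 := fun e => by rw [e, orderOf_one] at hz; omega
  have F : ExtraDouble.Form Q z := ExtraDouble.form_of_extraspecial hE' hzQ hz1
    fun q hq => mem_centralizer_singleton_iff.1 (hQC hq)
  have hαz : Commute α z := mem_centralizer_singleton_iff.1 hαC
  have hαα : α * α = 1 := by
    have := pow_orderOf_eq_one α
    rwa [hα, pow_two] at this
  have hai : α⁻¹ = α := inv_eq_of_mul_eq_one_right hαα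
  refine ⟨key F α hαα hαz (hn α hαz.eq) ?_ Q₀ hQ₀, fun hnle => ?_⟩
  · by_contra hall
    push Not at hall
    refine hαQ ((Subgroup.map_subtype_le _) (hCQ ▸ mem_centralizer_iff.2 fun q hq => ?_))
    exact (mul_inv_eq_iff_eq_mul.1 (mul_inv_eq_one.1 (hall q hq))).symm
  · obtain ⟨q, hq, hq'⟩ := SetLike.not_le_iff_exists.1 hnle
    obtain ⟨hqQ, hqc⟩ := (hQ₀ q).1 hq
    refine ⟨q, hqQ, ?_⟩
    rcases F.zpowers_mem hqc with e | e
    · exact absurd (mem_sup_left (show q ∈ Q ⊓ centralizer {α} from ⟨hqQ, mem_centralizer_singleton_iff.2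
        (mul_inv_eq_iff_eq_mul.1 (mul_inv_eq_one.1 e)).symm⟩)) hq'
    · calc q * α * q⁻¹ = α * (α * q * α * q⁻¹) := by
            rw [← mul_assoc, ← mul_assoc, ← mul_assoc, hαα, one_mul]
        _ = α * z := by rw [← e, hai]

end Cfsg.Agent.S1784
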