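import Cfsg.Statements.S1785
import Mathlib

set_option autoImplicit false
open Cfsg

namespace Cfsg.Agent.S1785

open Subgroup

theorem ea_comm {X : Type*} [Group X] {A : Subgroup X} (hA : IsElementaryAbelian 2 A) {a b : X} (ha : a ∈ A) (hb : b ∈ A) :
    a * b = b * a := congrArg Subtype.val (hA.1.is_comm.comm ⟨a, ha⟩ ⟨b, hb⟩)

theorem ea_mul_self {X : Type*} [Group X] {A : Subgroup X} (hA : IsElementaryAbelian 2 A) {a : X} (ha : a ∈ A) :
    a * a = 1 := (sq a).symm.trans (hA.2 a ha)

theorem ea_le {X : Type*} [Group X] {A B : Subgroup X} (hB : IsElementaryAbelian 2 B) (h : A ≤ B) :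
    IsElementaryAbelian 2 A :=
  ⟨⟨⟨fun a b => Subtype.ext (ea_comm hB (h a.2) (h b.2))⟩⟩, fun a ha => hB.2 a (h ha)⟩

theorem ea_sup {X : Type*} [Group X] {A B : Subgroup X} (hA : IsElementaryAbelian 2 A) (hB : IsElementaryAbelian 2 B)
    (h : ∀ a ∈ A, ∀ b ∈ B, a * b = b * a) : IsElementaryAbelian 2 (A ⊔ B : Subgroup X) := by
  let S : Subgroup X :=
    { carrier := {g | ∃ a ∈ A, ∃ b ∈ B, g = a * b}
      one_mem' := ⟨1, one_mem A, 1, one_mem B, (one_mul 1).symm⟩
      mul_mem' := by
        rintro _ _ ⟨a, ha, b, hb, rfl⟩ ⟨a', ha', b', hb', rfl⟩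
        exact ⟨a * a', mul_mem ha ha', b * b', mul_mem hb hb',
          by rw [mul_assoc a, ← mul_assoc b, ← h a' ha' b hb]; group⟩
      inv_mem' := by
        rintro _ ⟨a, ha, b, hb, rfl⟩
        exact ⟨a⁻¹, inv_mem ha, b⁻¹, inv_mem hb, by rw [mul_inv_rev, h _ (inv_mem ha) _ (inv_mem hb)]⟩ }
  have hle : A ⊔ B ≤ S := sup_le (fun a ha => ⟨a, ha, 1, one_mem B, (mul_one a).symm⟩)
    (fun b hb => ⟨1, one_mem A, b, hb, (one_mul b).symm⟩)
  refine ea_le (B := S) ⟨⟨⟨?_⟩⟩, ?_⟩ hle
  · rintro ⟨_, a, ha, b, hb, rfl⟩ ⟨_, a', ha', b', hb', rfl⟩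
    refine Subtype.ext ?_
    show a * b * (a' * b') = a' * b' * (a * b)
    calc a * b * (a' * b') = a * (b * a') * b' := by group
      _ = (a * a') * (b * b') := by rw [← h a' ha' b hb]; group
      _ = (a' * a) * (b' * b) := by rw [ea_comm hA ha ha', ea_comm hB hb hb']
      _ = a' * (a * b') * b := by group
      _ = _ := by rw [h a ha b' hb']; group
  · rintro _ ⟨a, ha, b, hb, rfl⟩
    rw [(show Commute a b from h a ha b hb).mul_pow, hA.2 a ha, hB.2 b hb, one_mul]

theorem ea_zpowers {X : Type*} [Group X] {a : X} (ha : a * a = 1) : IsElementaryAbelian 2 (zpowers a) := by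
  refine ⟨⟨⟨fun u v => ?_⟩⟩, fun u hu => ?_⟩
  · obtain ⟨i, hi⟩ := mem_zpowers_iff.1 u.2
    obtain ⟨j, hj⟩ := mem_zpowers_iff.1 v.2
    refine Subtype.ext ?_
    show (u : X) * v = v * u
    rw [← hi, ← hj]; exact (Commute.zpow_zpow_self a i j).eq
  · obtain ⟨i, rfl⟩ := mem_zpowers_iff.1 hu
    rw [← zpow_natCast, zpow_comm, zpow_natCast, sq, ha, one_zpow]

theorem zpowers_comm {X : Type*} [Group X] {A : Subgroup X} {a : X} (h : ∀ x ∈ A, x * a = a * x) :
    ∀ x ∈ A, ∀ y ∈ zpowers a, x * y = y * x := by
  intro x hx y hy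
  obtain ⟨i, rfl⟩ := mem_zpowers_iff.1 hy
  exact ((show Commute x a from h x hx).zpow_right i).eq

/-- An involution fixes at least the square root of an elementary abelian group it normalizes. -/
theorem fixed_bound {X : Type*} [Group X] [Finite X] {W : Subgroup X} (hW : IsElementaryAbelian 2 W) {a : X}
    (ha : a * a = 1) (hn : ∀ w ∈ W, a * w * a⁻¹ ∈ W) :
    Nat.card W ≤ Nat.card (W ⊓ centralizer {a} : Subgroup X) * Nat.card (W ⊓ centralizer {a} : Subgroup X) := by
  let φ : W →* W := MonoidHom.mk' (fun w => ⟨(w : X) * (a * w * a⁻¹), mul_mem w.2 (hn w w.2)⟩) fun w v => Subtype.ext (by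
    show (w : X) * v * (a * ((w : X) * v) * a⁻¹) = (w : X) * (a * w * a⁻¹) * ((v : X) * (a * v * a⁻¹))
    calc (w : X) * v * (a * ((w : X) * v) * a⁻¹) = (w : X) * ((v : X) * (a * w * a⁻¹)) * (a * v * a⁻¹) := by group
      _ = (w : X) * ((a * w * a⁻¹) * v) * (a * v * a⁻¹) := by rw [ea_comm hW v.2 (hn w w.2)]
      _ = _ := by group)
  have hinv : a⁻¹ = a := inv_eq_of_mul_eq_one_right ha
  have hker : Nat.card φ.ker ≤ Nat.card (W ⊓ centralizer {a} : Subgroup X) := by
    refine Nat.card_le_card_of_injective (fun w => ⟨((w : W) : X), (w : W).2, mem_centralizer_singleton_iff.2 ?_⟩) fun u v e =>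
      Subtype.ext (Subtype.ext (by simpa using congrArg Subtype.val e))
    have h1 : ((w : W) : X) * (a * (w : W) * a⁻¹) = 1 := congrArg Subtype.val (MonoidHom.mem_ker.1 w.2)
    have h2 : a * ((w : W) : X) * a⁻¹ = (w : W) := by
      rw [eq_inv_of_mul_eq_one_right h1]; exact inv_eq_of_mul_eq_one_right (ea_mul_self hW (w : W).2)
    exact (mul_inv_eq_iff_eq_mul.1 h2).symm
  have hran : Nat.card φ.range ≤ Nat.card (W ⊓ centralizer {a} : Subgroup X) := by
    refine Nat.card_le_card_of_injective (fun w => ⟨((w : W) : X), (w : W).2, mem_centralizer_singleton_iff.2 ?_⟩) fun u v e =>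
      Subtype.ext (Subtype.ext (by simpa using congrArg Subtype.val e))
    obtain ⟨⟨_, hy⟩, u, hu⟩ := w
    obtain rfl : (u : X) * (a * u * a⁻¹) = _ := congrArg Subtype.val hu
    show (u : X) * (a * u * a⁻¹) * a = a * ((u : X) * (a * u * a⁻¹))
    rw [ea_comm hW u.2 (hn u u.2), hinv]
    calc a * (u : X) * a * (u : X) * a = a * (u : X) * (a * (u : X) * a) := by group
      _ = a * ((u : X) * (a * (u : X) * a⁻¹)) := by rw [hinv]; group
      _ = _ := by rw [ea_comm hW u.2 (hn u u.2), hinv]
  rw [← φ.ker.card_mul_index, index_ker]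
  exact Nat.mul_le_mul hker hran

/-- Let X be a finite 2-group with an elementary abelian normal subgroup of order at least 32. Then any two elementary abelian subgroups of order 8 are joined by a chain of elementary abelian subgroups of order 8 in which consecutive members commute elementwise, and every elementary abelian subgroup of order 4 lies in an elementary abelian subgroup of order 8. -/
theorem result {X : Type*} [Group X] [Finite X]
    (hX : IsPGroup 2 X) (E : Subgroup X) [E.Normal] (hE : Cfsg.IsElementaryAbelian 2 E) (hE32 : 32 ≤ Nat.card ↥E) :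
    (∀ A B : Subgroup X, Cfsg.IsElementaryAbelian 2 A → Nat.card ↥A = 8 → Cfsg.IsElementaryAbelian 2 B → Nat.card ↥B = 8 →
        Relation.ReflTransGen
          (fun C D : Subgroup X => Cfsg.IsElementaryAbelian 2 C ∧ Nat.card ↥C = 8 ∧ Cfsg.IsElementaryAbelian 2 D ∧ Nat.card ↥D = 8 ∧ ⁅C, D⁆ = ⊥)
          A B) ∧
      (∀ V : Subgroup X, Cfsg.IsElementaryAbelian 2 V → Nat.card ↥V = 4 →
        ∃ A : Subgroup X, V ≤ A ∧ Cfsg.IsElementaryAbelian 2 A ∧ Nat.card ↥A = 8) := by
  classical
  haveI : Fact (Nat.Prime 2) := ⟨Nat.prime_two⟩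
  have pow2 : ∀ S : Subgroup X, ∃ k, Nat.card S = 2 ^ k := fun S => IsPGroup.iff_card.1 (hX.to_subgroup S)
  have round : ∀ (S : Subgroup X) (j : ℕ), 2 ^ j < Nat.card S → 2 ^ (j + 1) ≤ Nat.card S := fun S j h => by
    obtain ⟨k, hk⟩ := pow2 S
    rw [hk] at h ⊢
    exact Nat.pow_le_pow_right two_pos ((Nat.pow_lt_pow_iff_right one_lt_two).1 h)
  have grow : ∀ (S T : Subgroup X) (j : ℕ), S ≤ T → ¬ T ≤ S → 2 ^ j ≤ Nat.card S → 2 ^ (j + 1) ≤ Nat.card T := by
    intro S T j hle hne hS
    refine round T j (hS.trans_lt ?_)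
    by_contra h
    exact hne (Subgroup.eq_of_le_of_card_ge hle (not_lt.1 h)).ge
  have between : ∀ S M : Subgroup X, IsElementaryAbelian 2 M → S ≤ M → Nat.card S ≤ 8 → 8 ≤ Nat.card M →
      ∃ B : Subgroup X, S ≤ B ∧ B ≤ M ∧ IsElementaryAbelian 2 B ∧ Nat.card B = 8 := by
    intro S M hM hSM hS hM8
    obtain ⟨m, hm⟩ := pow2 M
    obtain ⟨k, hk⟩ := pow2 S
    obtain ⟨K, hK, hSK⟩ := Sylow.exists_subgroup_card_pow_prime_le (G := M) 2 (n := k) (m := 3)
      (by rw [hm] at hM8 ⊢; exact Nat.pow_dvd_pow 2 ((Nat.pow_le_pow_iff_right one_lt_two).1 (show 2 ^ 3 ≤ 2 ^ m from hM8)))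
      (S.subgroupOf M) (by rw [Nat.card_congr (subgroupOfEquivOfLe hSM).toEquiv, hk])
      (by rw [hk] at hS; exact (Nat.pow_le_pow_iff_right one_lt_two).1 (show 2 ^ k ≤ 2 ^ 3 from hS))
    refine ⟨K.map M.subtype, fun s hs => ⟨⟨s, hSM hs⟩, hSK hs, rfl⟩, map_subtype_le K, ea_le hM (map_subtype_le K), ?_⟩
    rw [card_map_of_injective M.subtype_injective, hK]
    rfl
  have hnE : ∀ (x : X), ∀ w ∈ E, x * w * x⁻¹ ∈ E := fun x w hw => Subgroup.Normal.conj_mem inferInstance w hw x
  -- centralizers in E of one, two, three commuting involutions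
  have c1 : ∀ a : X, a * a = 1 → 2 ^ 3 ≤ Nat.card (E ⊓ centralizer {a} : Subgroup X) := by
    intro a ha
    refine round _ 2 ?_
    have := fixed_bound hE ha (hnE a)
    by_contra h
    have := Nat.mul_le_mul (not_lt.1 h) (not_lt.1 h)
    omega
  have hinvC : ∀ a b : X, a * b = b * a → ∀ W : Subgroup X, (∀ w ∈ W, b * w * b⁻¹ ∈ W) →
      ∀ w ∈ W ⊓ centralizer {a}, b * w * b⁻¹ ∈ W ⊓ centralizer {a} := by
    intro a b hab W hW w hw
    refine ⟨hW w hw.1, mem_centralizer_singleton_iff.2 ?_⟩
    have h1 : Commute a b := hab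
    have h2 : Commute a w := (mem_centralizer_singleton_iff.1 hw.2).symm
    exact ((h1.mul_right h2).mul_right h1.inv_right).eq.symm
  have c2 : ∀ a b : X, a * a = 1 → b * b = 1 → a * b = b * a →
      2 ^ 2 ≤ Nat.card (E ⊓ centralizer {a} ⊓ centralizer {b} : Subgroup X) := by
    intro a b ha hb hab
    refine round _ 1 ?_
    have := fixed_bound (ea_le hE inf_le_left) hb (hinvC a b hab E (hnE b))
    have := c1 a ha
    by_contra h
    have := Nat.mul_le_mul (not_lt.1 h) (not_lt.1 h)
    omega
  have c3 : ∀ a b c : X, a * a = 1 → b * b = 1 → c * c = 1 → a * b = b * a → a * c = c * a → b * c = c * b →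
      2 ≤ Nat.card (E ⊓ centralizer {a} ⊓ centralizer {b} ⊓ centralizer {c} : Subgroup X) := by
    intro a b c ha hb hc hab hac hbc
    refine round _ 0 ?_
    have := fixed_bound (ea_le hE (inf_le_left.trans inf_le_left)) hc (hinvC b c hbc _ (hinvC a c hac E (hnE c)))
    have := c2 a b ha hb hab
    by_contra h
    have := Nat.mul_le_mul (not_lt.1 h) (not_lt.1 h)
    omega
  have cz : ∀ {C : Subgroup X} {a : X}, C ≤ centralizer {a} → ∀ x ∈ C, ∀ y ∈ zpowers a, x * y = y * x := fun hC =>
    zpowers_comm fun x hx => mem_centralizer_singleton_iff.1 (hC hx)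
  refine ⟨?_, ?_⟩
  · let R := fun C D : Subgroup X => Cfsg.IsElementaryAbelian 2 C ∧ Nat.card ↥C = 8 ∧ Cfsg.IsElementaryAbelian 2 D ∧ Nat.card ↥D = 8 ∧ ⁅C, D⁆ = ⊥
    have hR : ∀ A B : Subgroup X, IsElementaryAbelian 2 A → Nat.card A = 8 → IsElementaryAbelian 2 B → Nat.card B = 8 →
        (∀ x ∈ A, ∀ y ∈ B, x * y = y * x) → R A B ∧ R B A := fun A B hA hA8 hB hB8 h =>
      ⟨⟨hA, hA8, hB, hB8, commutator_eq_bot_iff_le_centralizer.2 fun x hx => mem_centralizer_iff.2 fun y hy => (h x hx y hy).symm⟩,
        ⟨hB, hB8, hA, hA8, commutator_eq_bot_iff_le_centralizer.2 fun y hy => mem_centralizer_iff.2 fun x hx => h x hx y hy⟩⟩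
    -- reaching a subgroup of E
    have step : ∀ (j : ℕ) (A : Subgroup X), IsElementaryAbelian 2 A → Nat.card A = 8 → 2 ^ (3 - j) ≤ Nat.card (A ⊓ E : Subgroup X) →
        ∃ B, B ≤ E ∧ IsElementaryAbelian 2 B ∧ Nat.card B = 8 ∧ Relation.ReflTransGen R A B ∧ Relation.ReflTransGen R B A := by
      intro j
      induction j with
      | zero =>
        intro A hA hA8 h
        refine ⟨A, ?_, hA, hA8, .refl, .refl⟩
        rw [← Subgroup.eq_of_le_of_card_ge (inf_le_left : A ⊓ E ≤ A) (by rw [hA8]; exact h)]
        exact inf_le_right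
      | succ j ih =>
        intro A hA hA8 h
        by_cases hbig : 2 ^ (3 - j) ≤ Nat.card (A ⊓ E : Subgroup X)
        · exact ih A hA hA8 hbig
        suffices ∃ B, IsElementaryAbelian 2 B ∧ Nat.card B = 8 ∧ (∀ x ∈ A, ∀ y ∈ B, x * y = y * x) ∧
            2 ^ (3 - j) ≤ Nat.card (B ⊓ E : Subgroup X) by
          obtain ⟨B, hB, hB8, hAB, hBE⟩ := this
          obtain ⟨B', h1, h2, h3, h4, h5⟩ := ih B hB hB8 hBE
          exact ⟨B', h1, h2, h3, h4.head (hR A B hA hA8 hB hB8 hAB).1, h5.tail (hR A B hA hA8 hB hB8 hAB).2⟩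
        have hAE : ¬ A ≤ E := fun h' => by
          rw [inf_eq_left.2 h', hA8] at hbig
          exact hbig (Nat.pow_le_pow_right two_pos (show 3 - j ≤ 3 by omega))
        obtain ⟨a, haA, haE⟩ := SetLike.not_le_iff_exists.1 hAE
        have ha := ea_mul_self hA haA
        set I := A ⊓ E
        have hI1 : ¬ I ⊔ zpowers a ≤ I := fun h' => haE ((h' (mem_sup_right (mem_zpowers a))).2)
        rcases Nat.lt_or_ge j 2 with hj | hj
        · -- the intersection has order at least four or two
          rcases (show j = 0 ∨ j = 1 by omega) with rfl | rfl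
          · -- order four
            have hA' : I ⊔ zpowers a = A := Subgroup.eq_of_le_of_card_ge (sup_le inf_le_left (zpowers_le.2 haA))
              (by rw [hA8]; exact grow I _ 2 le_sup_left hI1 h)
            obtain ⟨B, -, hBC, hB, hB8⟩ := between ⊥ (E ⊓ centralizer {a}) (ea_le hE inf_le_left) bot_le
              (by rw [card_bot]; norm_num) (c1 a ha)
            refine ⟨B, hB, hB8, fun x hx y hy => ?_, by rw [inf_eq_left.2 (hBC.trans inf_le_left), hB8]; norm_num⟩
            have hxc : x ∈ centralizer ((B : Subgroup X) : Set X) := by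
              refine (sup_le (fun i hi => ?_) (zpowers_le.2 ?_) : I ⊔ zpowers a ≤ _) (hA'.symm ▸ hx)
              · exact mem_centralizer_iff.2 fun y hy => ea_comm hE (hBC hy).1 hi.2
              · exact mem_centralizer_iff.2 fun y hy => mem_centralizer_singleton_iff.1 (hBC hy).2
            exact (mem_centralizer_iff.1 hxc y hy).symm
          · -- order two
            have hS : ¬ A ≤ I ⊔ zpowers a := by
              intro h'
              have hI2 : Nat.card I = 2 := by
                obtain ⟨k, hk⟩ := pow2 I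
                rw [hk] at h hbig ⊢
                have h1 : 1 ≤ k := (Nat.pow_le_pow_iff_right one_lt_two).1 h
                have h2 : k < 2 := by
                  by_contra hh
                  exact hbig (Nat.pow_le_pow_right two_pos (by omega))
                rw [show k = 1 by omega, pow_one]
              have hle : Nat.card A ≤ Nat.card I * Nat.card (zpowers a) := by
                rw [← Nat.card_prod]
                have hcov : ∀ x : A, ∃ i : I, ∃ z : zpowers a, (i : X) * (z : X) = x := fun x => by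
                  have hx := h' x.2
                  haveI : (I.subgroupOf A).Normal := ⟨fun n hn g => by
                    rw [show g * n * g⁻¹ = n by rw [show g * n = n * g from Subtype.ext (ea_comm hA g.2 n.2), mul_inv_cancel_right]]
                    exact hn⟩
                  obtain ⟨i, hi, z, hz, e⟩ := mem_sup_of_normal_left.1
                    (show x ∈ I.subgroupOf A ⊔ (zpowers a).subgroupOf A by
                      rw [← subgroupOf_sup inf_le_left (zpowers_le.2 haA)]; exact hx)
                  exact ⟨⟨i, hi⟩, ⟨z, hz⟩, congrArg Subtype.val e⟩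
                choose fi fz hf using hcov
                exact Nat.card_le_card_of_injective (fun x => (fi x, fz x)) fun x y e => by
                  simp only [Prod.mk.injEq] at e
                  exact Subtype.ext (by rw [← hf x, ← hf y, e.1, e.2])
              have h2 : Nat.card (zpowers a) ≤ 2 := by
                rw [Nat.card_zpowers]; exact Nat.le_of_dvd two_pos (orderOf_dvd_of_pow_eq_one (by rw [sq, ha]))
              rw [hA8, hI2] at hle
              omega
            obtain ⟨b, hbA, hbS⟩ := SetLike.not_le_iff_exists.1 hS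
            have hb := ea_mul_self hA hbA
            have hA' : I ⊔ zpowers a ⊔ zpowers b = A := Subgroup.eq_of_le_of_card_ge
              (sup_le (sup_le inf_le_left (zpowers_le.2 haA)) (zpowers_le.2 hbA))
              (by rw [hA8]
                  exact grow _ _ 2 le_sup_left (fun h' => hbS (h' (mem_sup_right (mem_zpowers b))))
                    (grow I _ 1 le_sup_left hI1 h))
            set C := E ⊓ centralizer {a} ⊓ centralizer {b}
            have hCE : C ≤ E := inf_le_left.trans inf_le_left
            have hCcard : 2 ^ 2 ≤ Nat.card C := c2 a b ha hb (ea_comm hA haA hbA)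
            have hCa : C ≤ centralizer {a} := inf_le_left.trans inf_le_right
            by_cases hC8 : 8 ≤ Nat.card C
            · obtain ⟨B, -, hBC, hB, hB8⟩ := between ⊥ C (ea_le hE hCE) bot_le (by rw [card_bot]; norm_num) hC8
              refine ⟨B, hB, hB8, fun x hx y hy => ?_, by rw [inf_eq_left.2 (hBC.trans hCE), hB8]; norm_num⟩
              have hxc : x ∈ centralizer (C : Set X) := by
                refine (sup_le (sup_le (fun i hi => ?_) (zpowers_le.2 ?_)) (zpowers_le.2 ?_) : I ⊔ zpowers a ⊔ zpowers b ≤ _) (hA'.symm ▸ hx)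
                · exact mem_centralizer_iff.2 fun y hy => ea_comm hE (hCE hy) hi.2
                · exact mem_centralizer_iff.2 fun y hy => mem_centralizer_singleton_iff.1 (hCa hy)
                · exact mem_centralizer_iff.2 fun y hy => mem_centralizer_singleton_iff.1 hy.2
              exact (mem_centralizer_iff.1 hxc y (hBC hy)).symm
            · have hM := ea_sup (ea_le hE hCE) (ea_zpowers ha) (cz hCa)
              obtain ⟨B, hCB, hBM, hB, hB8⟩ := between C _ hM le_sup_left (by omega)
                (grow C _ 2 le_sup_left (fun h' => haE (hCE (h' (mem_sup_right (mem_zpowers a))))) hCcard)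
              refine ⟨B, hB, hB8, fun x hx y hy => ?_, hCcard.trans (card_le_of_le (le_inf hCB hCE))⟩
              have hxc : x ∈ centralizer ((C ⊔ zpowers a : Subgroup X) : Set X) := by
                refine (sup_le (sup_le (fun i hi => ?_) (zpowers_le.2 ?_)) (zpowers_le.2 ?_) : I ⊔ zpowers a ⊔ zpowers b ≤ _) (hA'.symm ▸ hx)
                · refine mem_centralizer_iff.2 fun y hy => ?_
                  have : y ∈ centralizer {i} := (sup_le (fun c hc => mem_centralizer_singleton_iff.2 (ea_comm hE (hCE hc) hi.2))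
                    (zpowers_le.2 (mem_centralizer_singleton_iff.2 (ea_comm hA haA hi.1))) : C ⊔ zpowers a ≤ _) hy
                  exact mem_centralizer_singleton_iff.1 this
                · exact mem_centralizer_iff.2 fun y hy => ea_comm hM hy (mem_sup_right (mem_zpowers a))
                · refine mem_centralizer_iff.2 fun y hy => ?_
                  have : y ∈ centralizer {b} := (sup_le (fun c hc => hc.2)
                    (zpowers_le.2 (mem_centralizer_singleton_iff.2 (ea_comm hA haA hbA))) : C ⊔ zpowers a ≤ _) hy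
                  exact mem_centralizer_singleton_iff.1 this
              exact (mem_centralizer_iff.1 hxc y (hBM hy)).symm
        · -- trivial intersection suffices for one step
          rw [show 3 - (j + 1) = 0 by omega] at h
          have hI : Nat.card I = 1 := by
            obtain ⟨k, hk⟩ := pow2 I
            rw [hk] at hbig ⊢
            have : k = 0 := by
              by_contra hk0
              exact hbig (Nat.pow_le_pow_right two_pos (by omega))
            rw [this, pow_zero]
          have hj2 : 3 - j ≤ 1 := by omega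
          obtain ⟨b, hbA, hbS⟩ : ∃ b ∈ A, b ∉ zpowers a := SetLike.not_le_iff_exists.1 fun h' => by
            have := Nat.le_of_dvd two_pos (orderOf_dvd_of_pow_eq_one (n := 2) (x := a) (by rw [sq, ha]))
            have := card_le_of_le h'
            rw [hA8, Nat.card_zpowers] at this
            omega
          have hb := ea_mul_self hA hbA
          have h4 : Nat.card (zpowers a ⊔ zpowers b : Subgroup X) ≤ 4 := by
            let f : zpowers a × zpowers b →* X :=
              (zpowers a).subtype.noncommCoprod (zpowers b).subtype (fun u v =>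
                ea_comm hA (zpowers_le.2 haA u.2) (zpowers_le.2 hbA v.2))
            have hle : (zpowers a ⊔ zpowers b : Subgroup X) ≤ f.range := sup_le
              (fun u hu => ⟨(⟨u, hu⟩, 1), mul_one u⟩) (fun v hv => ⟨(1, ⟨v, hv⟩), one_mul v⟩)
            refine (card_le_of_le hle).trans ((Nat.card_le_card_of_surjective f.rangeRestrict f.rangeRestrict_surjective).trans ?_)
            rw [Nat.card_prod, Nat.card_zpowers, Nat.card_zpowers]
            exact Nat.mul_le_mul (Nat.le_of_dvd two_pos (orderOf_dvd_of_pow_eq_one (by rw [sq, ha])))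
              (Nat.le_of_dvd two_pos (orderOf_dvd_of_pow_eq_one (by rw [sq, hb])))
          obtain ⟨c, hcA, hcS⟩ := SetLike.not_le_iff_exists.1 (fun h' : A ≤ zpowers a ⊔ zpowers b => by
            have := card_le_of_le h'; omega)
          have hc := ea_mul_self hA hcA
          have hA' : zpowers a ⊔ zpowers b ⊔ zpowers c = A := Subgroup.eq_of_le_of_card_ge
            (sup_le (sup_le (zpowers_le.2 haA) (zpowers_le.2 hbA)) (zpowers_le.2 hcA))
            (by rw [hA8]
                refine grow _ _ 2 le_sup_left (fun h' => hcS (h' (mem_sup_right (mem_zpowers c)))) ?_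
                refine grow _ _ 1 le_sup_left (fun h' => hbS (h' (mem_sup_right (mem_zpowers b)))) ?_
                rw [Nat.card_zpowers, pow_one]
                exact (orderOf_eq_prime (p := 2) (x := a) (by rw [sq, ha]) fun e => haE (e ▸ one_mem E)).ge)
          set C := E ⊓ centralizer {a} ⊓ centralizer {b} ⊓ centralizer {c}
          have hC : 2 ≤ Nat.card C := c3 a b c ha hb hc (ea_comm hA haA hbA) (ea_comm hA haA hcA) (ea_comm hA hbA hcA)
          have hCA : ∀ x ∈ A, ∀ y ∈ C, x * y = y * x := by
            intro x hx y hy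
            have hxc : x ∈ centralizer ({y} : Set X) := (sup_le (sup_le
              (zpowers_le.2 (mem_centralizer_singleton_iff.2 (mem_centralizer_singleton_iff.1 hy.1.1.2).symm))
              (zpowers_le.2 (mem_centralizer_singleton_iff.2 (mem_centralizer_singleton_iff.1 hy.1.2).symm)))
              (zpowers_le.2 (mem_centralizer_singleton_iff.2 (mem_centralizer_singleton_iff.1 hy.2).symm)) :
                zpowers a ⊔ zpowers b ⊔ zpowers c ≤ _) (hA'.symm ▸ hx)
            exact mem_centralizer_singleton_iff.1 hxc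
          have hCE : C ≤ E := inf_le_left.trans (inf_le_left.trans inf_le_left)
          have hM := ea_sup hA (ea_le hE hCE) hCA
          obtain ⟨z, hzC, hz⟩ : ∃ z ∈ C, z ≠ 1 := by
            by_contra! h'
            have hbot : C = ⊥ := (Subgroup.eq_bot_iff_forall _).2 h'
            rw [hbot, card_bot] at hC; omega
          have hzo : Nat.card (zpowers z) = 2 := by
            rw [Nat.card_zpowers]; exact orderOf_eq_prime (hE.2 z (hCE hzC)) hz
          obtain ⟨B, hzB, hBM, hB, hB8⟩ := between (zpowers z) _ hM (zpowers_le.2 (mem_sup_right hzC))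
            (by omega) (hA8 ▸ card_le_of_le le_sup_left)
          refine ⟨B, hB, hB8, fun x hx y hy => ea_comm hM (mem_sup_left hx) (hBM hy), ?_⟩
          calc 2 ^ (3 - j) ≤ 2 ^ 1 := Nat.pow_le_pow_right two_pos hj2
            _ = Nat.card (zpowers z) := by rw [hzo, pow_one]
            _ ≤ _ := card_le_of_le (le_inf hzB (zpowers_le.2 (hCE hzC)))
    intro A B hA hA8 hB hB8
    obtain ⟨A', hA'E, hA', hA'8, h1, -⟩ := step 3 A hA hA8 (by rw [Nat.sub_self, pow_zero]; exact Nat.card_pos)
    obtain ⟨B', hB'E, hB', hB'8, -, h2⟩ := step 3 B hB hB8 (by rw [Nat.sub_self, pow_zero]; exact Nat.card_pos)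
    exact (h1.tail (hR A' B' hA' hA'8 hB' hB'8 fun x hx y hy => ea_comm hE (hA'E hx) (hB'E hy)).1).trans h2
  · intro V hV hV4
    by_cases hVE : V ≤ E
    · obtain ⟨A, hVA, -, hA, hA8⟩ := between V E hE hVE (by omega) (by omega)
      exact ⟨A, hVA, hA, hA8⟩
    obtain ⟨a, haV, haE⟩ := SetLike.not_le_iff_exists.1 hVE
    have ha := ea_mul_self hV haV
    obtain ⟨b, hbV, hbS⟩ : ∃ b ∈ V, b ∉ zpowers a := SetLike.not_le_iff_exists.1 fun h' => by
      have := Nat.le_of_dvd two_pos (orderOf_dvd_of_pow_eq_one (n := 2) (x := a) (by rw [sq, ha]))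
      have := card_le_of_le h'
      rw [hV4, Nat.card_zpowers] at this
      omega
    have hb := ea_mul_self hV hbV
    have hV' : zpowers a ⊔ zpowers b = V := Subgroup.eq_of_le_of_card_ge (sup_le (zpowers_le.2 haV) (zpowers_le.2 hbV))
      (by rw [hV4]
          refine grow _ _ 1 le_sup_left (fun h' => hbS (h' (mem_sup_right (mem_zpowers b)))) ?_
          rw [Nat.card_zpowers, pow_one]
          exact (orderOf_eq_prime (p := 2) (x := a) (by rw [sq, ha]) fun e => haE (e ▸ one_mem E)).ge)
    set C := E ⊓ centralizer {a} ⊓ centralizer {b}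
    have hC : 2 ^ 2 ≤ Nat.card C := c2 a b ha hb (ea_comm hV haV hbV)
    have hCV : ∀ x ∈ V, ∀ y ∈ C, x * y = y * x := by
      intro x hx y hy
      have hxc : x ∈ centralizer ({y} : Set X) := (sup_le
        (zpowers_le.2 (mem_centralizer_singleton_iff.2 (mem_centralizer_singleton_iff.1 hy.1.2).symm))
        (zpowers_le.2 (mem_centralizer_singleton_iff.2 (mem_centralizer_singleton_iff.1 hy.2).symm)) :
          zpowers a ⊔ zpowers b ≤ _) (hV'.symm ▸ hx)
      exact mem_centralizer_singleton_iff.1 hxc
    have hM := ea_sup hV (ea_le hE (inf_le_left.trans inf_le_left)) hCV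
    obtain ⟨A, hVA, -, hA, hA8⟩ := between V _ hM le_sup_left (by omega)
      (grow C _ 2 le_sup_right (fun h' => haE ((h' (mem_sup_left haV)).1.1)) hC)
    exact ⟨A, hVA, hA, hA8⟩

end Cfsg.Agent.S1785
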