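import Cfsg.Statements.S1850
import Mathlib
import Cfsg.Agent.Lib.Char2.Local

set_option autoImplicit false
open Cfsg

namespace Cfsg.Agent.S1850

/-- Let G be a non-abelian finite simple QTKE-group and T a Sylow 2-subgroup of G. If U is a nontrivial 2-subgroup of G with U ∩ Z(T) ≠ 1, then F*(N_G(U)) = O₂(N_G(U)). -/
theorem result {G : Type*} [Group G] [Finite G] [IsSimpleGroup G]
    (hG : ¬ IsMulCommutative G) (hQ : Cfsg.IsQTKE G) (T : Sylow 2 G) (U : Subgroup G)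
    (hU : IsPGroup 2 ↥U) (hZ : U ⊓ ((T : Subgroup G) ⊓ Subgroup.centralizer ((T : Subgroup G) : Set G)) ≠ ⊥) :
    Subgroup.normalizer (U : Set G) ∈ Cfsg.calHe G := by
  haveI : Fact (Nat.Prime 2) := ⟨Nat.prime_two⟩
  obtain ⟨z, ⟨hzU, hzT, hzC⟩, hz1⟩ := (Subgroup.bot_or_exists_ne_one _).resolve_left hZ
  have hz2 : IsPGroup 2 ↥(Subgroup.zpowers z) := hU.to_le (Subgroup.zpowers_le.2 hzU)
  have hTN : (T : Subgroup G) ≤ Subgroup.normalizer (Subgroup.zpowers z : Set G) := by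
    refine le_trans ?_ (Subgroup.centralizer_le_normalizer _)
    rw [Subgroup.le_centralizer_iff]
    exact Subgroup.zpowers_le.2 hzC
  have hM := hQ.2.2 _ ⟨Subgroup.zpowers z, hz2, Subgroup.zpowers_ne_bot.2 hz1, rfl⟩ ⟨T, hTN⟩
  have hN := Lib.Char2.charP_normalizer_of_le (p := 2) hU (Subgroup.zpowers_le.2 hzU)
    (Lib.Char2.charP_iff.2 hM)
  exact (Lib.Components.gfs_eq_pCore_iff (p := 2)).2 (Lib.Char2.charP_iff.1 hN)

end Cfsg.Agent.S1850
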