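import Mathlib
import Cfsg.Statements.S1851
import Mathlib
import Cfsg.Agent.Lib.Char2.Local
import Cfsg.Agent.Lib.Coprime.Abelian
import Cfsg.Agent.Lib.Hall.Basic

set_option autoImplicit false

open scoped commutatorElement Pointwise

namespace Cfsg.Agent.S1851

open Subgroup
open Lib.Components
open scoped commutatorElement

section general
variable {M : Type*} [Group M] [Finite M]

theorem eq_top_of_perfect {R : Type*} [Group R] [Finite R] (hR : ⁅(⊤ : Subgroup R), (⊤ : Subgroup R)⁆ = ⊤)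
    (Q : Subgroup R) [Q.Normal] (hQ : Group.IsSolvable Q) {H : Subgroup R} (hH : H.IsSubnormal)
    (h : H ⊔ Q = ⊤) : H = ⊤ := by
  induction hH with
  | top => rfl
  | step A B hle _ hN ih =>
    have hB : B = ⊤ := ih (top_le_iff.mp (h ▸ sup_le_sup_right hle Q))
    subst hB
    haveI hAn : A.Normal := normalizer_eq_top_iff.mp (top_le_iff.mp
      ((normal_subgroupOf_iff_le_normalizer hle).mp hN))
    by_contra hne
    haveI : Nontrivial (R ⧸ A) := QuotientGroup.nontrivial_iff.mpr hne
    haveI := hQ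
    have hs : Group.IsSolvable (R ⧸ A) := by
      refine Group.isSolvable_of_surjective (f := (QuotientGroup.mk' A).comp Q.subtype) ?_
      rw [← MonoidHom.range_eq_top, MonoidHom.range_comp, range_subtype]
      calc Q.map (QuotientGroup.mk' A) = (A ⊔ Q).map (QuotientGroup.mk' A) := by
            rw [Subgroup.map_sup, QuotientGroup.map_mk'_self, bot_sup_eq]
        _ = ⊤ := by rw [h, map_top_of_surjective _ (QuotientGroup.mk'_surjective A)]
    have hp : ⁅(⊤ : Subgroup (R ⧸ A)), (⊤ : Subgroup (R ⧸ A))⁆ = ⊤ := by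
      rw [← map_top_of_surjective _ (QuotientGroup.mk'_surjective A), ← map_commutator, hR]
    obtain ⟨n, hn⟩ := hs.solvable
    have : ∀ k, derivedSeries (R ⧸ A) k = ⊤ := fun k => by
      induction k with
      | zero => rfl
      | succ k ih' => rw [derivedSeries_succ, ih', hp]
    rw [this n] at hn
    exact top_ne_bot hn

/-- A normal solvable subgroup normalizes every perfect subnormal subgroup. -/
theorem solvable_le_normalizer {K Q : Subgroup M} [Q.Normal] (hQ : Group.IsSolvable Q) (hK : ⁅K, K⁆ = K)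
    (hKs : K.IsSubnormal) : Q ≤ normalizer (K : Set M) := by
  set N := K ⊔ Q with hN
  have hKN : K ≤ N := le_sup_left
  let D : ℕ → Subgroup M := fun n => (derivedSeries ↥N n).map N.subtype
  obtain ⟨R, ⟨n, rfl⟩, hmin⟩ := Set.Finite.exists_minimal (Set.toFinite (Set.range D)) (Set.range_nonempty D)
  have hperf : ⁅D n, D n⁆ = D n := by
    refine le_antisymm (commutator_le_self _) (hmin ⟨n + 1, ?_⟩ (commutator_le_self _))
    exact map_subtype_derivedSeries_succ N n
  have hKD : K ≤ D n := perfect_le_derivedSeries hK hKN n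
  have hDN : D n ≤ N := map_subtype_le _
  have hnorm : N ≤ normalizer (D n : Set M) := by
    have := le_normalizer_map (H := derivedSeries ↥N n) N.subtype
    rwa [(normalizer_eq_top_iff.mpr (derivedSeries_normal ↥N n)), ← MonoidHom.range_eq_map, range_subtype] at this
  have heq : D n ≤ K := by
    rw [← subgroupOf_eq_top]
    haveI : Group.IsSolvable ↥(Q.subgroupOf (D n)) :=
      Group.isSolvable_of_isSolvable_injective (f :=
        ({ toFun := fun x => ⟨((x : D n) : M), x.2⟩, map_one' := rfl, map_mul' := fun _ _ => rfl } :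
          ↥(Q.subgroupOf (D n)) →* Q))
        (fun a b e => Subtype.ext (Subtype.ext (congrArg (Subtype.val : Q → M) e)))
    refine eq_top_of_perfect ?_ (Q.subgroupOf (D n)) inferInstance hKs.subgroupOf ?_
    · apply map_injective (D n).subtype_injective
      rw [map_commutator, ← MonoidHom.range_eq_map, range_subtype, hperf]
    · apply map_injective (D n).subtype_injective
      rw [Subgroup.map_sup, map_subgroupOf_eq_of_le hKD, subgroupOf_map_subtype, ← MonoidHom.range_eq_map,
        range_subtype]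
      refine le_antisymm (sup_le hKD inf_le_right) fun x hx => ?_
      obtain ⟨k, hk, q, hq, rfl⟩ := mem_sup_of_normal_right.1 (hDN hx)
      exact mul_mem_sup hk ⟨hq, by simpa using mul_mem (inv_mem (hKD hk)) hx⟩
  have : D n = K := le_antisymm heq hKD
  rw [this] at hnorm
  exact le_sup_right.trans hnorm

end general

variable {G : Type*} [Group G] [Finite G]

/-- `Ω₁(Z(S))`. -/
abbrev W (S : Subgroup G) : Subgroup G := omegaOne 2 (S ⊓ centralizer (S : Set G))

theorem mem_W {S : Subgroup G} {x : G} (hx : x ∈ W S) : x ∈ S ⊓ centralizer (S : Set G) ∧ x ^ 2 = 1 := by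
  refine closure_induction (fun y hy => hy) ⟨one_mem _, one_pow 2⟩ ?_ ?_ hx
  · intro a b _ _ ha hb
    refine ⟨mul_mem ha.1 hb.1, ?_⟩
    have hc : Commute a b := (mem_centralizer_iff.mp ha.1.2 b hb.1.1).symm
    rw [hc.mul_pow, ha.2, hb.2, one_mul]
  · intro a _ ha
    exact ⟨inv_mem ha.1, by rw [inv_pow, ha.2, inv_one]⟩

theorem W_le (S : Subgroup G) : W S ≤ S := fun _ hx => (mem_W hx).1.1

theorem W_norm (S : Subgroup G) : normalizer (S : Set G) ≤ normalizer (W S : Set G) := by
  intro g hg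
  have hs := mem_normalizer_iff.mp hg
  have hc := mem_normalizer_iff.mp (Lib.Coprime.normalizer_le_normalizer_centralizer S hg)
  rw [mem_normalizer_iff]
  intro x
  constructor
  · intro hx
    obtain ⟨⟨h1, h2⟩, h3⟩ := mem_W hx
    exact subset_closure ⟨⟨(hs x).mp h1, (hc x).mp h2⟩, by rw [conj_pow, h3, mul_one, mul_inv_cancel]⟩
  · intro hx
    obtain ⟨⟨h1, h2⟩, h3⟩ := mem_W hx
    refine subset_closure ⟨⟨(hs x).mpr h1, (hc x).mpr h2⟩, ?_⟩
    rw [conj_pow, mul_inv_eq_one] at h3
    simpa using h3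

theorem moduleV_eq (Y : Subgroup G) : moduleV Y = ⁅W (pCoreTwoOf Y), Y⁆ := rfl

theorem core_le (Y : Subgroup G) : pCoreTwoOf Y ≤ Y := map_subtype_le _

theorem core_pGroup (Y : Subgroup G) : IsPGroup 2 (pCoreTwoOf Y) :=
  haveI : Fact (Nat.Prime 2) := ⟨Nat.prime_two⟩
  (pCore_isPGroup 2).map _

theorem le_normalizer_core (Y : Subgroup G) : Y ≤ normalizer (pCoreTwoOf Y : Set G) := by
  have h := le_normalizer_map (H := pCore 2 ↥Y) Y.subtype
  rwa [normalizer_eq_top, ← MonoidHom.range_eq_map, range_subtype] at h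

theorem le_core {Y S : Subgroup G} (hSY : S ≤ Y) (hS : IsPGroup 2 S) (hn : Y ≤ normalizer (S : Set G)) :
    S ≤ pCoreTwoOf Y := by
  haveI : Fact (Nat.Prime 2) := ⟨Nat.prime_two⟩
  haveI : (S.subgroupOf Y).Normal := normal_subgroupOf_of_le_normalizer hn
  rw [← map_subgroupOf_eq_of_le hSY]
  exact map_mono (le_pCore (hS.comap_of_injective Y.subtype Y.subtype_injective))

/-- The data of a member of `ℒ(G, T)`. -/
theorem calL_data {L : Subgroup G} (T : Sylow 2 G) (h : L ∈ calL (T : Subgroup G)) :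
    L ≠ ⊥ ∧ ⁅L, L⁆ = L ∧ (L.subgroupOf (L ⊔ (T : Subgroup G))).IsSubnormal ∧
      pCoreTwoOf (L ⊔ (T : Subgroup G)) ≠ ⊥ ∧ pCoreTwoOf (L ⊔ (T : Subgroup G)) ≤ T := by
  obtain ⟨⟨hne, hperf, hsub, -⟩, ⟨P, hP⟩, hO⟩ := h
  refine ⟨fun e => hne (by rw [e, bot_subgroupOf]), ?_, hsub, ?_, ?_⟩
  · have := congrArg (Subgroup.map (L ⊔ (T : Subgroup G)).subtype) hperf
    rwa [map_commutator, map_subgroupOf_eq_of_le le_sup_left] at this
  · rw [pCoreTwoOf, Ne, map_eq_bot_iff_of_injective _ (subtype_injective _)]; exact hO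
  · haveI : Fact (Nat.Prime 2) := ⟨Nat.prime_two⟩
    have h1 : pCore 2 ↥(L ⊔ (T : Subgroup G)) ≤ (P : Subgroup ↥(L ⊔ (T : Subgroup G))) :=
      Lib.Hall.pCore_le_sylow P
    rw [hP] at h1
    exact (map_mono h1).trans (map_subgroupOf_eq_of_le le_sup_right).le

theorem normalizes {L : Subgroup G} (T : Sylow 2 G) (h : L ∈ calL (T : Subgroup G)) :
    pCoreTwoOf (L ⊔ (T : Subgroup G)) ≤ normalizer (L : Set G) ∧
      pCoreTwoOf L ≤ pCoreTwoOf (L ⊔ (T : Subgroup G)) := by
  haveI : Fact (Nat.Prime 2) := ⟨Nat.prime_two⟩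
  obtain ⟨-, -, hsub, -, -⟩ := calL_data T h
  set X := L ⊔ (T : Subgroup G)
  constructor
  · have hperf : ⁅L.subgroupOf X, L.subgroupOf X⁆ = L.subgroupOf X := h.1.2.1
    haveI : Group.IsNilpotent ↥(pCore 2 ↥X) := (pCore_isPGroup 2).isNilpotent
    have h1 := map_mono (f := X.subtype) (solvable_le_normalizer (Q := pCore 2 ↥X) inferInstance hperf hsub)
    refine h1.trans ((le_normalizer_map X.subtype).trans ?_)
    rw [map_subgroupOf_eq_of_le le_sup_left]
  · have e : (pCore 2 ↥L).map (inclusion (le_sup_left : L ≤ X)) ≤ pCore 2 ↥X := by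
      refine le_pCore_of_subnormal ?_ ((pCore_isPGroup 2).map _)
      have h2 : ((pCore 2 ↥L).map (subgroupOfEquivOfLe (le_sup_left : L ≤ X)).symm.toMonoidHom).map
          (L.subgroupOf X).subtype = (pCore 2 ↥L).map (inclusion (le_sup_left : L ≤ X)) := by
        rw [map_map]; rfl
      rw [← h2]
      exact (Subgroup.Normal.isSubnormal (Subgroup.Normal.map (pCore_normal 2 ↥L) _ (MulEquiv.surjective _))).trans' hsub
    rintro _ ⟨a, ha, rfl⟩
    exact ⟨_, e (mem_map_of_mem _ ha), rfl⟩

theorem charP_of_calL [IsSimpleGroup G] (hQ : IsQTKE G) (T : Sylow 2 G) {K : Subgroup G}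
    (h : K ∈ calL (T : Subgroup G)) :
    Lib.Char2.CharP 2 ↥(K ⊔ (T : Subgroup G)) := by
  haveI : Fact (Nat.Prime 2) := ⟨Nat.prime_two⟩
  obtain ⟨-, -, -, hne, hle⟩ := calL_data T h
  set H := K ⊔ (T : Subgroup G)
  set N := normalizer (pCoreTwoOf H : Set G)
  have hHN : H ≤ N := le_normalizer_core H
  have hM := hQ.2.2 N ⟨pCoreTwoOf H, core_pGroup H, hne, rfl⟩ ⟨T, le_sup_right.trans hHN⟩
  have hNT : pCoreTwoOf N ≤ T := by
    have hn : (T : Subgroup G) ≤ normalizer (pCoreTwoOf N : Set G) :=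
      (le_sup_right.trans hHN).trans (le_normalizer_core N)
    have hp := IsPGroup.to_sup_of_normal_right' T.isPGroup' (core_pGroup N) hn
    exact le_sup_right.trans (T.3 hp le_sup_left).le
  have hNH : pCoreTwoOf N ≤ pCoreTwoOf H :=
    le_core (hNT.trans le_sup_right) (core_pGroup N) (hHN.trans (le_normalizer_core N))
  rw [Lib.Char2.charP_iff]
  intro x hx
  have hxN : (⟨(x : G), hHN x.2⟩ : ↥N) ∈ centralizer (pCore 2 ↥N : Set ↥N) := by
    refine mem_centralizer_iff.mpr fun y hy => Subtype.ext ?_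
    obtain ⟨y', hy', hyy⟩ := hNH (mem_map_of_mem N.subtype hy)
    have h2 := congrArg Subtype.val (mem_centralizer_iff.mp hx y' hy')
    show (y : G) * x = x * y
    rw [show (y : G) = (y' : G) from hyy.symm]
    exact h2
  have h3 : (x : G) ∈ pCoreTwoOf H := hNH ⟨_, hM hxN, rfl⟩
  obtain ⟨x', hx', e⟩ := h3
  rwa [← Subtype.ext (show (x' : G) = x from e)]

theorem mem_calX [IsSimpleGroup G] (hQ : IsQTKE G) (T : Sylow 2 G) {K : Subgroup G}
    (h : K ∈ calL (T : Subgroup G)) : K ∈ calX G := by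
  haveI : Fact (Nat.Prime 2) := ⟨Nat.prime_two⟩
  obtain ⟨hne, hperf, hsub, -, -⟩ := calL_data T h
  refine ⟨hne, ?_, ?_⟩
  · refine le_antisymm ((closure_le _).mpr fun x hx => hx.1) ?_
    set D := oddGenerated K with hD
    have hDK : D ≤ K := (closure_le _).mpr fun x hx => hx.1
    have hDn : (D.subgroupOf K).Normal := by
      refine normal_subgroupOf_of_le_normalizer fun g hg => ?_
      refine mem_normalizer_of_map_conj_eq (eq_of_le_of_card_ge ?_
        (card_map_of_injective (MulAut.conj g).injective).ge)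
      rw [hD, oddGenerated, MonoidHom.map_closure, closure_le]
      rintro _ ⟨e, ⟨he, ho⟩, rfl⟩
      exact subset_closure ⟨mul_mem (mul_mem hg he) (inv_mem hg), by
        rwa [show (MulAut.conj g).toMonoidHom e = MulAut.conj g e from rfl, MulEquiv.orderOf_eq]⟩
    have hp : IsPGroup 2 (↥K ⧸ D.subgroupOf K) := fun y => by
      obtain ⟨l, rfl⟩ := QuotientGroup.mk_surjective y
      refine ⟨(orderOf (l : G)).factorization 2, ?_⟩
      rw [← QuotientGroup.mk_pow, QuotientGroup.eq_one_iff]
      refine subset_closure ⟨pow_mem l.2 _, ?_⟩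
      rw [show (K.subtype (l ^ 2 ^ (orderOf (l : G)).factorization 2)) = (l : G) ^ 2 ^ (orderOf (l : G)).factorization 2 from rfl,
        orderOf_pow_of_dvd (pow_ne_zero _ two_ne_zero) (Nat.ordProj_dvd _ _)]
      exact Nat.odd_iff.mpr (Nat.two_dvd_ne_zero.mp (Nat.not_dvd_ordCompl Nat.prime_two (orderOf_pos _).ne'))
    haveI : Group.IsNilpotent (↥K ⧸ D.subgroupOf K) := hp.isNilpotent
    haveI : Group.IsSolvable (↥K ⧸ D.subgroupOf K) := inferInstance
    rw [← subgroupOf_eq_top]
    obtain ⟨n, hn⟩ := (inferInstance : Group.IsSolvable (↥K ⧸ D.subgroupOf K)).solvable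
    have h1 := map_derivedSeries_eq (G := ↥K) (f := QuotientGroup.mk' (D.subgroupOf K)) (QuotientGroup.mk'_surjective _) n
    have h2 : derivedSeries ↥K n = ⊤ := by
      apply map_injective K.subtype_injective
      refine le_antisymm ((map_subtype_le _).trans_eq (by rw [← MonoidHom.range_eq_map, range_subtype])) ?_
      rw [← MonoidHom.range_eq_map, range_subtype]
      exact perfect_le_derivedSeries hperf le_rfl n
    rw [h2, hn, map_top_of_surjective _ (QuotientGroup.mk'_surjective _)] at h1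
    refine eq_top_iff.mpr fun x _ => (QuotientGroup.eq_one_iff x).mp (mem_bot.mp (h1 ▸ mem_top _))
  · refine gfs_eq_pCore_iff.2 (Lib.Char2.charP_iff.1 ?_)
    exact Lib.Char2.charP_of_equiv (subgroupOfEquivOfLe (le_sup_left : K ≤ K ⊔ (T : Subgroup G)))
      (Lib.Char2.charP_subnormal (charP_of_calL hQ T h) hsub)

theorem moduleV_ne_bot [IsSimpleGroup G] (hQ : IsQTKE G) (T : Sylow 2 G) {L K : Subgroup G}
    (hL : L ∈ calL (T : Subgroup G)) (hK : K ∈ calL (T : Subgroup G)) (hLK : L ≤ K)
    (hV : moduleV L ≠ ⊥) : moduleV K ≠ ⊥ := by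
  haveI : Fact (Nat.Prime 2) := ⟨Nat.prime_two⟩
  intro h0
  apply hV
  set X := L ⊔ (T : Subgroup G)
  set H := K ⊔ (T : Subgroup G)
  set QX := pCoreTwoOf X
  set QH := pCoreTwoOf H
  obtain ⟨hQHK, hQKH⟩ := normalizes T hK
  obtain ⟨hQXL, hQLX⟩ := normalizes T hL
  have hXH : X ≤ H := sup_le_sup_right hLK _
  have hQHX : QH ≤ QX := le_core ((calL_data T hK).2.2.2.2.trans le_sup_right) (core_pGroup H)
    (hXH.trans (le_normalizer_core H))
  have hperfK := (calL_data T hK).2.1
  have hperfL := (calL_data T hL).2.1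
  -- `K` centralizes `Ω₁(Z(O₂(H)))`
  have hKW : ⁅K, W QH⁆ = ⊥ := by
    apply commutator_eq_bot_of_perfect hperfK
    have hKn : K ≤ normalizer (W QH : Set G) :=
      (le_sup_left.trans (le_normalizer_core H)).trans (W_norm QH)
    have hle : ⁅W QH, K⁆ ≤ W (pCoreTwoOf K) := by
      intro x hx
      have hxW : x ∈ W QH := (le_normalizer_iff_commutator_le_left.mp hKn) hx
      have hxK : x ∈ K := (le_normalizer_iff_commutator_le_right.mp ((W_le QH).trans hQHK)) hx
      obtain ⟨⟨h1, h2⟩, h3⟩ := mem_W hxW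
      have hxc : x ∈ pCoreTwoOf K := le_core (Y := K) (S := K ⊓ QH) inf_le_left
        ((core_pGroup H).to_le inf_le_right)
        (fun g hg => mem_normalizer_iff.mpr fun y => and_congr
          (mem_normalizer_iff.mp (le_normalizer hg) y)
          (mem_normalizer_iff.mp (le_normalizer_core H (mem_sup_left hg)) y)) ⟨hxK, h1⟩
      exact subset_closure ⟨⟨hxc, mem_centralizer_iff.mpr fun y hy => mem_centralizer_iff.mp h2 y (hQKH hy)⟩, h3⟩
    exact Lib.Components.commutator_eq_bot_mono ((moduleV_eq K).symm.trans h0) hle le_rfl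
  -- `Ω₁(Z(O₂(X)))` lies in it
  have hWX : W QX ≤ W QH := by
    intro x hx
    obtain ⟨⟨h1, h2⟩, h3⟩ := mem_W hx
    have hxH : x ∈ H := hXH (core_le X h1)
    have hcen : (⟨x, hxH⟩ : ↥H) ∈ pCore 2 ↥H := by
      refine (Lib.Char2.charP_iff.1 (charP_of_calL hQ T hK)) (mem_centralizer_iff.mpr fun y hy => Subtype.ext ?_)
      exact mem_centralizer_iff.mp h2 _ (hQHX (mem_map_of_mem H.subtype hy))
    exact subset_closure ⟨⟨⟨_, hcen, rfl⟩, centralizer_le (SetLike.coe_subset_coe.mpr hQHX) h2⟩, h3⟩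
  set U := W (pCoreTwoOf L) with hU
  have hQXU : QX ≤ normalizer (U : Set G) := by
    refine le_trans ?_ (W_norm _)
    intro g hg
    have h1 := mem_normalizer_iff.mp (hQXL hg)
    refine mem_normalizer_of_map_conj_eq (eq_of_le_of_card_ge ?_
      (card_map_of_injective (MulAut.conj g).injective).ge)
    refine le_core ?_ ((core_pGroup L).map _) ?_
    · rintro _ ⟨a, ha, rfl⟩; exact (h1 a).mp (core_le L ha)
    · intro l hl
      have hl' : g⁻¹ * l * g ∈ L := (h1 _).mpr (by simpa [mul_assoc] using hl)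
      have h2 := le_normalizer_core L hl'
      have h3 := le_normalizer_map (MulAut.conj g).toMonoidHom (mem_map_of_mem (MulAut.conj g).toMonoidHom h2)
      simpa [mul_assoc] using h3
  have hLU : L ≤ normalizer (U : Set G) := (le_normalizer_core L).trans (W_norm _)
  have hLQ : L ≤ normalizer (QX : Set G) := le_sup_left.trans (le_normalizer_core X)
  have hU0 : ⁅U ⊓ centralizer (QX : Set G), L⁆ = ⊥ := by
    refine Lib.Components.commutator_eq_bot_mono ((commutator_comm _ _).trans hKW) ?_ hLK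
    refine le_trans (fun x hx => ?_) hWX
    obtain ⟨⟨h1, -⟩, h3⟩ := mem_W hx.1
    exact subset_closure ⟨⟨hQLX h1, hx.2⟩, h3⟩
  have hQL : ⁅QX, L⁆ ≤ pCoreTwoOf L := by
    refine le_trans (le_inf (le_normalizer_iff_commutator_le_right.mp hQXL)
      (le_normalizer_iff_commutator_le_left.mp hLQ)) ?_
    exact le_core inf_le_left ((core_pGroup X).to_le inf_le_right)
      (fun g hg => mem_normalizer_iff.mpr fun y => and_congr
        (mem_normalizer_iff.mp (le_normalizer hg) y) (mem_normalizer_iff.mp (hLQ hg) y))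
  -- descend along `[U, QX, …, QX]`
  let f : ℕ → Subgroup G := fun j => (fun A : Subgroup G => (⁅A, QX⁆ : Subgroup G))^[j] U
  have hfs : ∀ j, f (j + 1) = ⁅f j, QX⁆ := fun j => Function.iterate_succ_apply' _ j U
  have hf : ∀ j, f j ≤ U ∧ L ≤ normalizer ((f j : Subgroup G) : Set G) := by
    intro j
    induction j with
    | zero => exact ⟨le_rfl, hLU⟩
    | succ j ih =>
      rw [hfs]
      refine ⟨(commutator_mono ih.1 le_rfl).trans (le_normalizer_iff_commutator_le_left.mp hQXU), ?_⟩
      exact (le_inf ih.2 hLQ).trans fun g hg => mem_normalizer_of_map_conj_eq (by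
        rw [map_commutator, map_conj_eq_of_mem_normalizer hg.1, map_conj_eq_of_mem_normalizer hg.2])
  have hS : IsPGroup 2 ↥(U ⊔ QX) :=
    IsPGroup.to_sup_of_normal_left' ((core_pGroup L).to_le (W_le _)) (core_pGroup X) hQXU
  haveI := hS.isNilpotent
  obtain ⟨n, hn⟩ := Subgroup.nilpotent_iff_lowerCentralSeries.mp (inferInstance : Group.IsNilpotent ↥(U ⊔ QX))
  have hlc : ∀ j, f j ≤ ((⊤ : Subgroup ↥(U ⊔ QX)).lowerCentralSeries j).map (U ⊔ QX).subtype := by
    intro j
    induction j with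
    | zero =>
      rw [Subgroup.lowerCentralSeries_zero, ← MonoidHom.range_eq_map, range_subtype]; exact le_sup_left
    | succ j ih =>
      rw [hfs, Subgroup.lowerCentralSeries_succ, map_commutator, ← MonoidHom.range_eq_map, range_subtype]
      exact commutator_mono ih le_sup_right
  have hend : f n = ⊥ := le_bot_iff.mp ((hlc n).trans (by rw [hn, Subgroup.map_bot]))
  have hQLU : ⁅pCoreTwoOf L, U⁆ = ⊥ := commutator_eq_bot_iff_le_centralizer.mpr fun x hx =>
    mem_centralizer_iff.mpr fun u hu => (mem_centralizer_iff.mp (mem_W hu).1.2 x hx).symm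
  have key : ∀ k, k ≤ n → ⁅L, f (n - k)⁆ = ⊥ := by
    intro k hk
    induction k with
    | zero => rw [Nat.sub_zero, hend]; exact commutator_bot_right L
    | succ k ih =>
      have hs : n - k = n - (k + 1) + 1 := by omega
      have ih' := ih (by omega)
      rw [hs, hfs] at ih'
      set A := f (n - (k + 1))
      have hA := hf (n - (k + 1))
      apply commutator_eq_bot_of_perfect hperfL
      have h1 : ⁅⁅L, A⁆, QX⁆ = ⊥ := commutator_commutator_eq_bot_of_rotate
        ((commutator_comm _ _).trans ih')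
        (le_bot_iff.mp ((commutator_mono hQL hA.1).trans hQLU.le))
      refine Lib.Components.commutator_eq_bot_mono hU0 (le_inf ?_ ?_) le_rfl
      · exact (le_normalizer_iff_commutator_le_left.mp hA.2).trans hA.1
      · rw [commutator_comm]; exact commutator_eq_bot_iff_le_centralizer.mp h1
  have := key n le_rfl
  rw [Nat.sub_self] at this
  rw [moduleV_eq, commutator_comm]
  exact this

/-- Let G be a non-abelian finite simple QTKE-group and T a Sylow 2-subgroup of G, and let L be a member of ℒ_f(G, T) (a member of ℒ(G, T) that lies in 𝒳 — L ≠ 1, L = O²(L), F*(L) = O₂(L) — and acts nontrivially on Ω₁(Z(O₂(L)))). Then (1) every member K of ℒ(G, T) containing L is again in ℒ_f(G, T) (a sharper form of (1) also compares the modules [Ω₁(Z(R)), L] and [Ω₁(Z(R')), K] for suitable 2-subgroups R, R'; that comparison is not included); and (2) if L is maximal under inclusion among the members of ℒ_f(G, T), then L is a maximal member of ℒ(G, T), hence a member of ℒ_f*(G, T). -/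
theorem result {G : Type*} [Group G] [Finite G] [IsSimpleGroup G]
    (hG : ¬ IsMulCommutative G) (hQ : Cfsg.IsQTKE G) (T : Sylow 2 G) (L : Subgroup G)
    (hL : L ∈ Cfsg.calLf (T : Subgroup G)) :
    (∀ K ∈ Cfsg.calL (T : Subgroup G), L ≤ K → K ∈ Cfsg.calLf (T : Subgroup G)) ∧
    ((∀ K ∈ Cfsg.calLf (T : Subgroup G), L ≤ K → K = L) → L ∈ Cfsg.calLfMax (T : Subgroup G)) := by
  obtain ⟨hLl, hLx⟩ := hL
  have h1 : ∀ K ∈ calL (T : Subgroup G), L ≤ K → K ∈ calLf (T : Subgroup G) := fun K hK hLK =>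
    ⟨hK, mem_calX hQ T hK, moduleV_ne_bot hQ T hLl hK hLK hLx.2⟩
  exact ⟨h1, fun h => ⟨⟨hLl, fun K hK hLK => h K (h1 K hK hLK) hLK⟩, hLx⟩⟩

end Cfsg.Agent.S1851
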