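import Cfsg.Statements.S1957
import Cfsg.Agent.Lib.Coprime.Abelian
import Cfsg.Agent.Lib.Hall.Basic
import Cfsg.Agent.S0065

set_option autoImplicit false
open Cfsg

namespace Cfsg.Agent.S1957

open Subgroup
open scoped commutatorElement

variable {G : Type*} [Group G]

/-- The four elements of a four-group. -/
theorem klein_cases {U : Subgroup G} (hU : IsKleinFour U) {a b x : G} (ha : a ∈ U) (hb : b ∈ U)
    (hx : x ∈ U) (ha1 : a ≠ 1) (hb1 : b ≠ 1) (hab : a ≠ b) :
    x = 1 ∨ x = a ∨ x = b ∨ x = a * b := by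
  by_contra h
  push_neg at h
  obtain ⟨h1, h2, h3, h4⟩ := h
  have := hU
  refine h4 (congrArg Subtype.val (IsKleinFour.eq_mul_of_ne_all (G := U) (x := ⟨a, ha⟩) (y := ⟨b, hb⟩)
    (z := ⟨x, hx⟩) ?_ ?_ ?_ ?_ ?_ ?_)) <;>
    simp only [ne_eq, Subtype.ext_iff, OneMemClass.coe_one] <;> assumption

theorem klein_sq {U : Subgroup G} (hU : IsKleinFour U) {a : G} (ha : a ∈ U) : a * a = 1 := by
  have := hU
  exact congrArg Subtype.val (IsKleinFour.mul_self (G := U) ⟨a, ha⟩)

theorem klein_comm {U : Subgroup G} (hU : IsKleinFour U) {a b : G} (ha : a ∈ U) (hb : b ∈ U) :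
    a * b = b * a := by
  have h := klein_sq hU (U.mul_mem ha hb)
  have ha2 := klein_sq hU ha
  have hb2 := klein_sq hU hb
  calc a * b = a * ((a * b) * (a * b)) * b := by rw [h, mul_one]
    _ = (a * a) * (b * a) * (b * b) := by group
    _ = b * a := by rw [ha2, hb2, one_mul, mul_one]

theorem mem_normalizer_zpowers {u x : G} (hu : u * u = 1) :
    x ∈ normalizer (zpowers u : Set G) ↔ x * u = u * x := by
  have hel : ∀ y : G, y ∈ zpowers u → y = 1 ∨ y = u := by
    rintro y ⟨n, rfl⟩
    have h2 : u ^ (2 : ℤ) = 1 := by rw [show (2 : ℤ) = 1 + 1 from rfl, zpow_add, zpow_one]; exact hu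
    rcases Int.even_or_odd n with ⟨m, rfl⟩ | ⟨m, rfl⟩
    · exact Or.inl (by show u ^ (m + m) = 1; rw [← two_mul, zpow_mul, h2, one_zpow])
    · exact Or.inr (by show u ^ (2 * m + 1) = u; rw [zpow_add_one, zpow_mul, h2, one_zpow, one_mul])
  constructor
  · intro hx
    rcases hel _ ((mem_normalizer_iff.mp hx u).mp (mem_zpowers u)) with h | h
    · have : u = 1 := mul_left_cancel (a := x) ((mul_inv_eq_one.mp h).trans (mul_one x).symm)
      simp [this]
    · calc x * u = (x * u * x⁻¹) * x := by group
        _ = u * x := by rw [h]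
  · intro hx
    rw [mem_normalizer_iff]
    intro y
    refine ⟨fun hy => ?_, fun hy => ?_⟩
    · rcases hel y hy with rfl | rfl
      · simp
      · rw [hx, mul_inv_cancel_right]; exact hy
    · rcases hel _ hy with h | h
      · have : y = 1 := mul_left_cancel (a := x) ((mul_inv_eq_one.mp h).trans (mul_one x).symm)
        rw [this]; exact one_mem _
      · have : y = u := mul_left_cancel (a := x) (by rw [hx, ← mul_inv_eq_iff_eq_mul]; exact h)
        rw [this]; exact mem_zpowers u

/-- An element stabilising the chain `O₂(X) ≥ ⟨u⟩ ≥ 1` in `X = C(u)` lies in `O₂(X)`. -/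
theorem stab_mem_core [Finite G] {u v : G} (hu : u * u = 1)
    (hchar : Cfsg.IsOfCharacteristicTwo (normalizer (zpowers u : Set G)))
    (hv : v * u = u * v)
    (h : ∀ r ∈ (pCore 2 (normalizer (zpowers u : Set G))).map (normalizer (zpowers u : Set G)).subtype,
      r * v * r⁻¹ = v ∨ r * v * r⁻¹ = u * v) :
    v ∈ (pCore 2 (normalizer (zpowers u : Set G))).map (normalizer (zpowers u : Set G)).subtype := by
  set X := normalizer (zpowers u : Set G) with hXdef
  let uX : X := ⟨u, (mem_normalizer_zpowers hu).mpr rfl⟩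
  let vX : X := ⟨v, (mem_normalizer_zpowers hu).mpr hv⟩
  have huc : zpowers uX ≤ center X := by
    rw [zpowers_le, mem_center_iff]
    exact fun g => Subtype.ext ((mem_normalizer_zpowers hu).mp g.2)
  have : (zpowers uX).Normal :=
    ⟨fun n hn g => by
      rw [mem_center_iff.mp (huc hn) g, mul_inv_cancel_right]; exact hn⟩
  let π := QuotientGroup.mk' (zpowers uX)
  have : ((pCore 2 X).map π).Normal :=
    (Lib.Hall.pCore_normal 2).map π (QuotientGroup.mk'_surjective _)
  let A : Subgroup X := (centralizer ((pCore 2 X).map π : Set (X ⧸ zpowers uX))).comap π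
  have huX2 : uX * uX = 1 := Subtype.ext hu
  have hA : IsPGroup 2 A := by
    intro x
    have hx2 : (x : X) * (x : X) ∈ pCore 2 X := by
      refine hchar ?_
      rw [mem_centralizer_iff]
      intro r hr
      have hc := mem_centralizer_iff.mp (mem_comap.mp x.2) (π r) (mem_map_of_mem π hr)
      rw [← map_mul, ← map_mul] at hc
      have hz : ((x : X) * r)⁻¹ * (r * (x : X)) ∈ zpowers uX := by
        rw [← QuotientGroup.eq]; exact hc.symm
      set c := ((x : X) * r)⁻¹ * (r * (x : X)) with hc'
      have hcc : c * c = 1 := by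
        obtain ⟨n, hn⟩ := hz
        rw [← hn]
        show uX ^ n * uX ^ n = 1
        rw [← (Commute.refl uX).mul_zpow, huX2, one_zpow]
      have hcen := mem_center_iff.mp (huc hz)
      have h1 : r * (x : X) = (x : X) * r * c := by rw [hc']; group
      calc r * ((x : X) * (x : X)) = (r * (x : X)) * (x : X) := by group
        _ = (x : X) * r * (c * (x : X)) := by rw [h1]; group
        _ = (x : X) * (r * (x : X)) * c := by rw [← hcen]; group
        _ = (x : X) * (x : X) * r * (c * c) := by rw [h1]; group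
        _ = _ := by rw [hcc, mul_one]
    obtain ⟨k, hk⟩ := Lib.Hall.isPGroup_pCore (G := X) 2 ⟨_, hx2⟩
    refine ⟨k + 1, Subtype.ext ?_⟩
    have := congrArg Subtype.val hk
    simp only [SubmonoidClass.coe_pow, OneMemClass.coe_one] at this ⊢
    rw [pow_succ', pow_mul, sq]
    exact this
  have hvA : vX ∈ A := by
    rw [mem_comap, mem_centralizer_iff]
    rintro _ ⟨r, hr, rfl⟩
    rw [← map_mul, ← map_mul]
    symm
    show ((vX * r : X) : X ⧸ zpowers uX) = ((r * vX : X) : X ⧸ zpowers uX)
    rw [QuotientGroup.eq]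
    have hr' : (vX * r)⁻¹ * (r * vX) = r⁻¹ * vX⁻¹ * (r * vX * r⁻¹) * r := by group
    rw [hr']
    rcases h _ (mem_map_of_mem _ hr) with h1 | h1
    · rw [show r * vX * r⁻¹ = vX from Subtype.ext h1]
      simp
    · rw [show r * vX * r⁻¹ = uX * vX from Subtype.ext h1]
      have hcen := mem_center_iff.mp (huc (mem_zpowers uX))
      rw [show r⁻¹ * vX⁻¹ * (uX * vX) * r = r⁻¹ * vX⁻¹ * ((uX * vX) * r) by group,
        ← hcen vX, mul_assoc vX uX r, ← hcen r]
      simp [mul_assoc]
  exact ⟨vX, Lib.Hall.le_pCore hA hvA, rfl⟩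

variable [Finite G] (P : Sylow 2 G) (U : Subgroup G)

/-- For every involution `u` of `U` the four-group lies in `O₂(C(u))`. -/
theorem le_core (hUP : U ≤ (P : Subgroup G))
    (hUn : (P : Subgroup G) ≤ normalizer (U : Set G)) (hU4 : IsKleinFour U)
    (hUZ : ¬ IsCyclic ↥((P : Subgroup G) ⊓ centralizer ((P : Subgroup G) : Set G)) →
      U ≤ centralizer ((P : Subgroup G) : Set G))
    (h2 : Cfsg.IsCharacteristicTwoType G) {u : G} (hu : u ∈ U) (hu1 : u ≠ 1) :
    U ≤ (pCore 2 (normalizer (zpowers u : Set G))).map (normalizer (zpowers u : Set G)).subtype := by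
  have : Fact (Nat.Prime 2) := ⟨Nat.prime_two⟩
  have husq := klein_sq hU4 hu
  have hzp : IsPGroup 2 (zpowers u) := P.2.to_le (zpowers_le.mpr (hUP hu))
  have hchar := h2.2 _ hzp (zpowers_ne_bot.mpr hu1)
  set X := normalizer (zpowers u : Set G) with hX
  set R := (pCore 2 X).map X.subtype with hR
  have hUX : U ≤ X := fun v hv => (mem_normalizer_zpowers husq).mpr (klein_comm hU4 hv hu)
  have hRX : R ≤ X := map_subtype_le _
  have hconjU : ∀ {r v : G}, r ∈ (P : Subgroup G) → v ∈ U → r * v * r⁻¹ ∈ U := fun hr hv =>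
    (mem_normalizer_iff.mp (hUn hr) _).mp hv
  have huR : u ∈ R := by
    let uX : X := ⟨u, hUX hu⟩
    have : (zpowers uX).Normal := ⟨fun n hn g => by
      obtain ⟨k, rfl⟩ := hn
      have hc : Commute g uX := Subtype.ext ((mem_normalizer_zpowers husq).mp g.2)
      show g * uX ^ k * g⁻¹ ∈ zpowers uX
      rw [(hc.zpow_right k).eq, mul_inv_cancel_right]
      exact zpow_mem (mem_zpowers uX) k⟩
    have hp : IsPGroup 2 (zpowers uX) :=
      IsPGroup.of_injective hzp ((X.subtype.comp (zpowers uX).subtype).codRestrict (zpowers u)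
        (fun y => by
          obtain ⟨k, hk⟩ := y.2
          exact ⟨k, by simp [← hk, uX]⟩))
        (fun a b h => Subtype.ext (Subtype.ext (congrArg Subtype.val h :)))
    exact ⟨uX, Lib.Hall.le_pCore hp (mem_zpowers uX), rfl⟩
  by_cases hcu : ∀ r ∈ (P : Subgroup G), r * u = u * r
  · -- `u` central in `P`
    have hPX : (P : Subgroup G) ≤ X := fun r hr => (mem_normalizer_zpowers husq).mpr (hcu r hr)
    have hRP : R ≤ (P : Subgroup G) := by
      rintro _ ⟨r, hr, rfl⟩
      have := Lib.Hall.pCore_le_sylow (P.subtype hPX) hr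
      exact this
    intro v hv
    refine stab_mem_core husq hchar (klein_comm hU4 hv hu) fun r hr => ?_
    by_cases hv1 : v = 1
    · left; simp [hv1]
    by_cases hvu : v = u
    · left; rw [hvu, hcu r (hRP hr), mul_inv_cancel_right]
    rcases klein_cases hU4 hu hv (hconjU (hRP hr) hv) hu1 hv1 (Ne.symm hvu) with h | h | h | h
    · exact absurd (by simpa using h) hv1
    · refine absurd ?_ hvu
      apply mul_left_cancel (a := r)
      calc r * v = r * v * r⁻¹ * r := by group
        _ = u * r := by rw [h]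
        _ = r * u := (hcu r (hRP hr)).symm
    · exact Or.inl h
    · exact Or.inr h
  -- `u` not central in `P`
  push_neg at hcu
  obtain ⟨t, ht, htu⟩ := hcu
  have hcyc : IsCyclic ↥((P : Subgroup G) ⊓ centralizer ((P : Subgroup G) : Set G)) := by
    by_contra hn
    exact htu (mem_centralizer_iff.mp (hUZ hn hu) t ht)
  obtain ⟨z, hzU, hz1, hzc⟩ : ∃ z ∈ U, z ≠ 1 ∧ ∀ r ∈ (P : Subgroup G), r * z = z * r := by
    have : Group.IsNilpotent (P : Subgroup G) := P.2.isNilpotent
    have hn : (U.subgroupOf P).Normal := normal_subgroupOf_of_le_normalizer hUn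
    have hne : U.subgroupOf (P : Subgroup G) ≠ ⊥ := fun hb =>
      hu1 (Subtype.ext_iff.mp ((mem_bot (x := (⟨u, hUP hu⟩ : (P : Subgroup G)))).mp
        (hb ▸ mem_subgroupOf.mpr hu)))
    obtain ⟨⟨z, hz⟩, hz1⟩ := ne_bot_iff_exists_ne_one.mp (S0065.inf_center_ne_bot hn hne)
    exact ⟨z, hz.1, fun h => hz1 (Subtype.ext (Subtype.ext h)), fun r hr =>
      congrArg Subtype.val (mem_center_iff.mp hz.2 ⟨r, hr⟩)⟩
  have huz : u ≠ z := fun h => htu (h ▸ hzc t ht)
  -- conjugates of `u`
  have hconju : ∀ r ∈ (P : Subgroup G), r * u * r⁻¹ = u ∨ r * u * r⁻¹ = u * z := by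
    intro r hr
    rcases klein_cases hU4 hu hzU (hconjU hr hu) hu1 hz1 huz with h | h | h | h
    · exact absurd (by simpa using h) hu1
    · exact Or.inl h
    · refine absurd (mul_left_cancel (a := r) ?_) huz
      calc r * u = r * u * r⁻¹ * r := by group
        _ = z * r := by rw [h]
        _ = r * z := (hzc r hr).symm
    · exact Or.inr h
  have htu' : t * u * t⁻¹ = u * z := by
    refine (hconju t ht).resolve_left fun h => htu ?_
    calc t * u = t * u * t⁻¹ * t := by group
      _ = u * t := by rw [h]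
  set P1 : Subgroup G := (P : Subgroup G) ⊓ centralizer {u} with hP1
  have hP1mem : ∀ r, r ∈ P1 ↔ r ∈ (P : Subgroup G) ∧ r * u = u * r := by
    intro r; rw [hP1, mem_inf, mem_centralizer_singleton_iff]
  have hidx : ∀ r ∈ (P : Subgroup G), r ∉ P1 → t⁻¹ * r ∈ P1 := by
    intro r hr hr1
    have h1 : r * u * r⁻¹ = u * z := (hconju r hr).resolve_left fun h => hr1 ((hP1mem r).mpr ⟨hr, by
      calc r * u = r * u * r⁻¹ * r := by group
        _ = u * r := by rw [h]⟩)
    refine (hP1mem _).mpr ⟨mul_mem (inv_mem ht) hr, ?_⟩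
    calc t⁻¹ * r * u = t⁻¹ * (r * u * r⁻¹) * r := by group
      _ = t⁻¹ * (t * u * t⁻¹) * r := by rw [h1, htu']
      _ = u * (t⁻¹ * r) := by group
  -- involutions in the centre of `P1` lie in `U`
  have hΩ : ∀ w ∈ P1, (∀ r ∈ P1, r * w = w * r) → w * w = 1 → w ∈ U := by
    intro w hw hwc hw2
    have hfix : ∀ x ∈ P1, (∀ r ∈ P1, r * x = x * r) → x * x = 1 → t * x = x * t → x = 1 ∨ x = z := by
      intro x hx hxc hx2 htx
      by_contra hne
      push_neg at hne
      have hcen : ∀ r ∈ (P : Subgroup G), r * x = x * r := by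
        intro r hr
        by_cases hr1 : r ∈ P1
        · exact hxc r hr1
        · have h3 := hxc _ (hidx r hr hr1)
          calc r * x = t * (t⁻¹ * r * x) := by group
            _ = (t * x) * t⁻¹ * r := by rw [h3]; group
            _ = x * r := by rw [htx]; group
      have hxP : x ∈ (P : Subgroup G) ⊓ centralizer ((P : Subgroup G) : Set G) :=
        ⟨((hP1mem x).mp hx).1, mem_centralizer_iff.mpr hcen⟩
      have hzP : z ∈ (P : Subgroup G) ⊓ centralizer ((P : Subgroup G) : Set G) :=
        ⟨hUP hzU, mem_centralizer_iff.mpr hzc⟩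
      have hord : ∀ y : G, y ≠ 1 → y * y = 1 → orderOf y = 2 := fun y hy1 hy2 =>
        orderOf_eq_prime (by rw [sq]; exact hy2) hy1
      classical
      have := hcyc
      have := Fintype.ofFinite ↥((P : Subgroup G) ⊓ centralizer ((P : Subgroup G) : Set G))
      let o : ↥((P : Subgroup G) ⊓ centralizer ((P : Subgroup G) : Set G)) := 1
      let xC : ↥((P : Subgroup G) ⊓ centralizer ((P : Subgroup G) : Set G)) := ⟨x, hxP⟩
      let zC : ↥((P : Subgroup G) ⊓ centralizer ((P : Subgroup G) : Set G)) := ⟨z, hzP⟩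
      have h3 : ({o, xC, zC} : Finset _).card ≤ 2 := by
        refine le_trans (Finset.card_le_card ?_) (IsCyclic.card_pow_eq_one_le
          (α := ↥((P : Subgroup G) ⊓ centralizer ((P : Subgroup G) : Set G))) (n := 2) two_pos)
        intro y hy
        simp only [Finset.mem_insert, Finset.mem_singleton] at hy
        simp only [Finset.mem_filter, Finset.mem_univ, true_and]
        rcases hy with rfl | rfl | rfl
        · exact one_pow 2
        · exact Subtype.ext (by simpa [sq] using hx2)
        · exact Subtype.ext (by simpa [sq] using klein_sq hU4 hzU)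
      have h3' : ({o, xC, zC} : Finset _).card = 3 :=
        Finset.card_eq_three.mpr ⟨_, _, _, fun e => hne.1 (congrArg Subtype.val e).symm,
          fun e => hz1 (congrArg Subtype.val e).symm, fun e => hne.2 (congrArg Subtype.val e), rfl⟩
      omega
    -- `s w` is again central in `P1`
    have hconjP1 : ∀ r ∈ P1, t * r * t⁻¹ ∈ P1 ∧ t⁻¹ * r * t ∈ P1 := by
      intro r hr
      obtain ⟨hrP, hru⟩ := (hP1mem r).mp hr
      have hrz := hzc r hrP
      have hrt : r * (t * u * t⁻¹) = (t * u * t⁻¹) * r := by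
        rw [htu', ← mul_assoc, hru, mul_assoc, hrz, ← mul_assoc]
      refine ⟨(hP1mem _).mpr ⟨mul_mem (mul_mem ht hrP) (inv_mem ht), ?_⟩,
        (hP1mem _).mpr ⟨mul_mem (mul_mem (inv_mem ht) hrP) ht, ?_⟩⟩
      · have hr' : r * (t⁻¹ * u * t) = (t⁻¹ * u * t) * r := by
          have hti : t⁻¹ * u * t = u * z := by
            have := hzc t ht
            calc t⁻¹ * u * t = t⁻¹ * ((u * z) * z) * t := by
                  rw [mul_assoc u z z, klein_sq hU4 hzU, mul_one]
              _ = t⁻¹ * (t * u * t⁻¹) * (z * t) := by rw [htu']; group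
              _ = t⁻¹ * (t * u * t⁻¹) * (t * z) := by rw [this]
              _ = u * z := by group
          rw [hti, ← mul_assoc, hru, mul_assoc, hrz, ← mul_assoc]
        calc t * r * t⁻¹ * u = t * (r * (t⁻¹ * u * t)) * t⁻¹ := by group
          _ = t * ((t⁻¹ * u * t) * r) * t⁻¹ := by rw [hr']
          _ = u * (t * r * t⁻¹) := by group
      · calc t⁻¹ * r * t * u = t⁻¹ * (r * (t * u * t⁻¹)) * t := by group
          _ = t⁻¹ * ((t * u * t⁻¹) * r) * t := by rw [hrt]
          _ = u * (t⁻¹ * r * t) := by group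
    set w' := t * w * t⁻¹ with hw'
    have hw'1 : w' ∈ P1 := (hconjP1 w hw).1
    have hw'c : ∀ r ∈ P1, r * w' = w' * r := by
      intro r hr
      have := hwc _ (hconjP1 r hr).2
      calc r * w' = t * ((t⁻¹ * r * t) * w) * t⁻¹ := by rw [hw']; group
        _ = t * (w * (t⁻¹ * r * t)) * t⁻¹ := by rw [this]
        _ = w' * r := by rw [hw']; group
    have hw'2 : w' * w' = 1 := by
      calc w' * w' = t * (w * w) * t⁻¹ := by rw [hw']; group
        _ = 1 := by rw [hw2]; group
    have ht2 : t * t ∈ P1 := by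
      refine (hP1mem _).mpr ⟨mul_mem ht ht, ?_⟩
      calc t * t * u = t * (t * u * t⁻¹) * t := by group
        _ = (t * u * t⁻¹) * (t * z) * t := by nth_rewrite 1 [htu']; group
        _ = (u * z) * (z * t) * t := by rw [htu', hzc t ht]
        _ = u * (z * z) * (t * t) := by group
        _ = u * (t * t) := by rw [klein_sq hU4 hzU, mul_one]
    have hswap : t * w' * t⁻¹ = w := by
      calc t * w' * t⁻¹ = (t * t) * w * (t * t)⁻¹ := by rw [hw']; group
        _ = w := by rw [hwc _ ht2, mul_inv_cancel_right]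
    have hww : w' * w = w * w' := (hw'c w hw).symm
    have hprod : w * w' = 1 ∨ w * w' = z := by
      refine hfix _ (mul_mem hw hw'1) (fun r hr => ?_) ?_ ?_
      · rw [← mul_assoc, hwc r hr, mul_assoc, hw'c r hr, ← mul_assoc]
      · calc w * w' * (w * w') = w * (w' * w) * w' := by group
          _ = (w * w) * (w' * w') := by rw [hww]; group
          _ = 1 := by rw [hw2, hw'2, mul_one]
      · calc t * (w * w') = (t * w * t⁻¹) * (t * w' * t⁻¹) * t := by group
          _ = w * w' * t := by rw [hswap, ← hw', hww]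
    rcases hprod with h | h
    · -- `w` is fixed by `t`
      have htw : t * w = w * t := by
        have : w' = w := by
          calc w' = w * (w * w') := by rw [← mul_assoc, hw2, one_mul]
            _ = w := by rw [h, mul_one]
        calc t * w = w' * t := by rw [hw']; group
          _ = w * t := by rw [this]
      rcases hfix w hw hwc hw2 htw with rfl | rfl
      exacts [one_mem _, hzU]
    · have hwu : w * u = u * w := ((hP1mem w).mp hw).2
      have hw'z : w' = w * z := by
        calc w' = w * (w * w') := by rw [← mul_assoc, hw2, one_mul]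
          _ = w * z := by rw [h]
      have hu_c : ∀ r ∈ P1, r * u = u * r := fun r hr => ((hP1mem r).mp hr).2
      have hx := hfix (w * u) (mul_mem hw ((hP1mem u).mpr ⟨hUP hu, rfl⟩))
        (fun r hr => by rw [← mul_assoc, hwc r hr, mul_assoc, hu_c r hr, ← mul_assoc])
        (by
          calc w * u * (w * u) = w * (u * w) * u := by group
            _ = (w * w) * (u * u) := by rw [← hwu]; group
            _ = 1 := by rw [hw2, husq, mul_one])
        (by
          calc t * (w * u) = (t * w * t⁻¹) * (t * u * t⁻¹) * t := by group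
            _ = (w * z) * (u * z) * t := by rw [← hw', hw'z, htu']
            _ = w * ((u * z) * z) * t := by rw [mul_assoc w z, klein_comm hU4 hzU (mul_mem hu hzU)]
            _ = w * u * t := by rw [mul_assoc u z z, klein_sq hU4 hzU, mul_one])
      have : w = (w * u) * u := by rw [mul_assoc, husq, mul_one]
      rw [this]
      rcases hx with hx | hx <;> rw [hx]
      · simpa using hu
      · exact mul_mem hzU hu
  -- the 2-group `T = R P1`
  have hP1X : P1 ≤ X := fun r hr => (mem_normalizer_zpowers husq).mpr ((hP1mem r).mp hr).2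
  set T : Subgroup G := (pCore 2 X ⊔ P1.subgroupOf X).map X.subtype with hT
  have hTp : IsPGroup 2 T := by
    refine (IsPGroup.to_sup_of_normal_left (Lib.Hall.isPGroup_pCore 2) ?_).map _
    exact (P.2.to_inf_left (K := centralizer {u})).comap_subtype
  have hRT : R ≤ T := map_mono le_sup_left
  have hP1T : P1 ≤ T := fun r hr => ⟨⟨r, hP1X hr⟩, (le_sup_right : _ ≤ pCore 2 X ⊔ P1.subgroupOf X)
    (mem_subgroupOf.mpr hr), rfl⟩
  have hTX : T ≤ X := map_subtype_le _
  have hP1lt : P1.relIndex (P : Subgroup G) ≤ 2 := by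
    rw [relIndex, show (P1.subgroupOf (P : Subgroup G)).index = 2 from index_eq_two_iff.mpr
      ⟨⟨t⁻¹, inv_mem ht⟩, fun b => ?_⟩]
    by_cases hb : (b : G) ∈ P1
    · refine Or.inr ⟨mem_subgroupOf.mpr hb, fun hb' => ?_⟩
      have h4 : t⁻¹ ∈ P1 := by
        have h5 : (b : G) * t⁻¹ ∈ P1 := hb'
        simpa using mul_mem (inv_mem hb) h5
      have h6 := ((hP1mem t).mp (by simpa using inv_mem h4)).2
      exact htu h6
    · refine Or.inl ⟨?_, fun hb' => hb hb'⟩
      show (b : G) * t⁻¹ ∈ P1
      have h7 : t⁻¹ * (b : G)⁻¹ ∈ P1 := hidx _ (inv_mem b.2) (fun h => hb (by simpa using inv_mem h))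
      have h8 : (b : G) * t ∈ P1 := by simpa [mul_inv_rev] using inv_mem h7
      have ht2 : t * t ∈ P1 := by
        refine (hP1mem _).mpr ⟨mul_mem ht ht, ?_⟩
        calc t * t * u = t * (t * u * t⁻¹) * t := by group
          _ = (t * u * t⁻¹) * (t * z) * t := by nth_rewrite 1 [htu']; group
          _ = (u * z) * (z * t) * t := by rw [htu', hzc t ht]
          _ = u * (z * z) * (t * t) := by group
          _ = u * (t * t) := by rw [klein_sq hU4 hzU, mul_one]
      simpa [mul_assoc] using mul_mem h8 (inv_mem ht2)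
  have hnorm : T ≤ normalizer (P1 : Set G) := by
    have hc1 : Nat.card T ≤ Nat.card (P : Subgroup G) := by
      obtain ⟨S, hS⟩ := hTp.exists_le_sylow
      refine (card_le_of_le hS).trans (le_of_eq ?_)
      rw [Sylow.card_eq_multiplicity S, Sylow.card_eq_multiplicity P]
    have hc2 := relIndex_mul_relIndex ⊥ P1 (P : Subgroup G) bot_le inf_le_left
    have hc3 := relIndex_mul_relIndex ⊥ P1 T bot_le hP1T
    simp only [relIndex_bot_left] at hc2 hc3
    have hidxT : P1.relIndex T ≤ 2 := by
      by_contra hh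
      have h0 : 0 < Nat.card P1 := Nat.card_pos
      nlinarith
    have hn : (P1.subgroupOf T).Normal := by
      rcases Nat.lt_or_ge (P1.relIndex T) 2 with h | h
      · have h1 : P1.relIndex T = 1 := by
          have : P1.relIndex T ≠ 0 := index_ne_zero_of_finite
          omega
        rw [show P1.subgroupOf T = ⊤ from subgroupOf_eq_top.mpr (relIndex_eq_one.mp h1)]
        infer_instance
      · exact normal_of_index_eq_two (le_antisymm hidxT h)
    exact (normal_subgroupOf_iff_le_normalizer hP1T).mp hn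
  have hzX : z * u = u * z := klein_comm hU4 hzU hu
  have hzR : z ∈ R := by
    refine stab_mem_core husq hchar hzX fun r hr => ?_
    have hrN := hnorm (hRT hr)
    have hru : r * u = u * r := (mem_normalizer_zpowers husq).mp (hRX hr)
    have hzP1 : z ∈ P1 := (hP1mem z).mpr ⟨hUP hzU, hzX⟩
    have hw : r * z * r⁻¹ ∈ U := by
      refine hΩ _ ((mem_normalizer_iff.mp hrN z).mp hzP1) (fun s hs => ?_) ?_
      · have hs' : r⁻¹ * s * r ∈ P1 := (mem_normalizer_iff''.mp hrN s).mp hs
        have := hzc _ ((hP1mem _).mp hs').1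
        calc s * (r * z * r⁻¹) = r * ((r⁻¹ * s * r) * z) * r⁻¹ := by group
          _ = r * (z * (r⁻¹ * s * r)) * r⁻¹ := by rw [this]
          _ = _ := by group
      · calc r * z * r⁻¹ * (r * z * r⁻¹) = r * (z * z) * r⁻¹ := by group
          _ = 1 := by rw [klein_sq hU4 hzU]; group
    rcases klein_cases hU4 hu hzU hw hu1 hz1 huz with h | h | h | h
    · exact absurd (by simpa using h) hz1
    · refine absurd (mul_left_cancel (a := r) ?_) huz.symm
      calc r * z = r * z * r⁻¹ * r := by group
        _ = u * r := by rw [h]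
        _ = r * u := hru.symm
    · exact Or.inl h
    · exact Or.inr h
  intro v hv
  rcases klein_cases hU4 hu hzU hv hu1 hz1 huz with rfl | rfl | rfl | rfl
  exacts [one_mem _, huR, hzR, mul_mem huR hzR]


/-- Let `G` be a finite non-abelian simple group in which every local subgroup is solvable and which is of characteristic 2 type. Let `P` be a Sylow 2-subgroup of `G` and `U` a normal subgroup of `P` that is a four-group, with `U` central in `P` if the centre of `P` is not cyclic. Then `U` centralizes every subgroup of odd order of `G` that it normalizes. -/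
theorem result {G : Type*} [Group G] [Finite G]
    [IsSimpleGroup G] (hna : ¬ IsMulCommutative G) (hN : Cfsg.IsNGroup G) (h2 : Cfsg.IsCharacteristicTwoType G)
    (P : Sylow 2 G) (U : Subgroup G) (hUP : U ≤ (P : Subgroup G)) (hUn : (P : Subgroup G) ≤ Subgroup.normalizer (U : Set G))
    (hU4 : IsKleinFour ↥U)
    (hUZ : ¬ IsCyclic ↥((P : Subgroup G) ⊓ Subgroup.centralizer ((P : Subgroup G) : Set G)) →
      U ≤ Subgroup.centralizer ((P : Subgroup G) : Set G))
    (K : Subgroup G) (hK : Odd (Nat.card K)) (hUK : U ≤ Subgroup.normalizer (K : Set G)) :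
    U ≤ Subgroup.centralizer (K : Set G) := by
  have hUcomm : IsMulCommutative U := ⟨⟨fun a b => Subtype.ext (klein_comm hU4 a.2 b.2)⟩⟩
  have hnc : ¬ IsCyclic U := by
    intro h
    obtain ⟨g, hg⟩ := h.exists_generator
    have h4 : orderOf g = 4 := by
      rw [orderOf_eq_card_of_forall_mem_zpowers hg]; exact hU4.card_four
    have h2' : g * g = 1 := Subtype.ext (klein_sq hU4 g.2)
    have := orderOf_le_of_pow_eq_one (x := g) (n := 2) two_pos (by rw [sq]; exact h2')
    omega
  have hUp : IsPGroup 2 U := P.2.to_le hUP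
  have hcop : (Nat.card U).Coprime (Nat.card K) := by
    have : Fact (Nat.Prime 2) := ⟨Nat.prime_two⟩
    obtain ⟨k, hk⟩ := hUp.exists_card_eq
    rw [hk]
    exact Nat.Coprime.pow_left k (Nat.coprime_two_left.mpr hK)
  have hgen := Lib.Coprime.fixGen_eq (A := U) (K := K) hnc hUK hcop
  intro v hv
  rw [mem_centralizer_iff]
  intro k hk
  suffices hle : Lib.Coprime.fixGen U K ≤ centralizer {v} from
    mem_centralizer_singleton_iff.mp (hle (hgen.symm ▸ hk))
  refine iSup₂_le fun u hu k hk => mem_centralizer_singleton_iff.mpr ?_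
  obtain ⟨hkK, hku⟩ := hk
  have hsq := klein_sq hU4 hu.1
  set X := normalizer (zpowers u : Set G) with hX
  set R := (pCore 2 X).map X.subtype with hR
  have hvR : v ∈ R := le_core P U hUP hUn hU4 hUZ h2 hu.1 hu.2 hv
  have hkX : k ∈ X := (mem_normalizer_zpowers hsq).mpr (mem_centralizer_singleton_iff.mp hku)
  have hc1 : k * v * k⁻¹ * v⁻¹ ∈ R := by
    refine mul_mem ?_ (inv_mem hvR)
    obtain ⟨y, hy, rfl⟩ := hvR
    exact ⟨⟨k, hkX⟩ * y * ⟨k, hkX⟩⁻¹, (Lib.Hall.pCore_normal 2).conj_mem y hy _, rfl⟩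
  have hc2 : k * v * k⁻¹ * v⁻¹ ∈ K := by
    rw [show k * v * k⁻¹ * v⁻¹ = k * (v * k⁻¹ * v⁻¹) by group]
    exact mul_mem hkK ((mem_normalizer_iff.mp (hUK hv) _).mp (inv_mem hkK))
  have hone : k * v * k⁻¹ * v⁻¹ = 1 := by
    have : Fact (Nat.Prime 2) := ⟨Nat.prime_two⟩
    obtain ⟨m, hm⟩ := (IsPGroup.iff_orderOf.mp ((Lib.Hall.isPGroup_pCore (G := X) 2).map X.subtype)) ⟨_, hc1⟩
    rw [Subgroup.orderOf_mk] at hm
    have hd : orderOf (k * v * k⁻¹ * v⁻¹) ∣ Nat.card K := Subgroup.orderOf_dvd_natCard K hc2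
    rw [hm] at hd
    rcases Nat.eq_zero_or_pos m with rfl | hm0
    · exact orderOf_eq_one_iff.mp (by simpa using hm)
    · exact absurd ((dvd_pow_self 2 hm0.ne').trans hd) hK.not_two_dvd_nat
  calc k * v = (k * v * k⁻¹ * v⁻¹) * v * k := by group
    _ = v * k := by rw [hone, one_mul]

end Cfsg.Agent.S1957
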