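import Cfsg.Statements.S1966
import Cfsg.Agent.Lib.LocalFusion.Functor
import Cfsg.Agent.Lib.Hall.Basic

set_option autoImplicit false
open Cfsg

namespace Cfsg.Agent.S1966

open Cfsg.Agent.Lib.LocalFusion in
lemma restrict_chain {G : Type*} [Group G] {𝓕 : Set (Subgroup G)} {O : Subgroup G} [O.Normal] {A : Set G} {g : G}
    (h : RChain 𝓕 A g) (hO : (O : Set G) ⊆ A) : RChain {T | T ∈ 𝓕 ∧ O ≤ T} A g := by
  induction h with
  | one => exact .one _
  | @step A T x g hT hx hA h ih =>
    refine .step ⟨hT, fun o ho => hA (hO ho)⟩ hx hA (ih fun o ho => ⟨x * o * x⁻¹, hO ?_, by simp [mul_assoc]⟩)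
    exact (inferInstance : O.Normal).conj_mem o ho x


/-- Let p be a prime, G a finite group with Sylow p-subgroup S and 𝓕 a conjugation family for S in G. Then the members of 𝓕 containing O_p(G) still form a conjugation family for S in G. -/
theorem result {G : Type*} [Group G] [Finite G] {p : ℕ} [Fact p.Prime] (S : Sylow p G) (𝓕 : Set (Subgroup G)) (h : Cfsg.IsConjugationFamily 𝓕 (S : Subgroup G)) : Cfsg.IsConjugationFamily {T : Subgroup G | T ∈ 𝓕 ∧ Cfsg.pCore p G ≤ T} (S : Subgroup G) := by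
  open Cfsg.Agent.Lib.LocalFusion in
  refine ⟨fun T hT => h.1 T hT.1, fun A g hA0 hA hg => RChain.toData ?_⟩
  have hO : Cfsg.pCore p G ≤ (S : Subgroup G) := Cfsg.Agent.Lib.Hall.pCore_le_sylow S
  have := rchain_of_conjFamily h (A := A ∪ (Cfsg.pCore p G : Set G)) (g := g) (hA0.inl) (Set.union_subset hA hO) (by
    rintro _ ⟨a, ha | ha, rfl⟩
    · exact hg ⟨a, ha, rfl⟩
    · exact hO (by simpa using (inferInstance : (Cfsg.pCore p G).Normal).conj_mem a ha g⁻¹))
  exact (restrict_chain this Set.subset_union_right).mono Set.subset_union_left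

end Cfsg.Agent.S1966
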