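import Cfsg.Statements.S1967
import Cfsg.Agent.Lib.LocalFusion.Functor

set_option autoImplicit false
open Cfsg

namespace Cfsg.Agent.S1967

/-- Let p be a prime, G a finite group with Sylow p-subgroup S and W a conjugacy functor for p on G. Then W controls strong fusion in G if and only if, whenever T ≤ S and g ∈ G satisfy gTg⁻¹ ≤ S, one can write g = n c with n ∈ N_G(W(S)) and c ∈ C_G(T). -/
theorem result {G : Type*} [Group G] [Finite G] {p : ℕ} [Fact p.Prime] (S : Sylow p G) (W : Subgroup G → Subgroup G) (hW : Cfsg.IsConjugacyFunctor p W) : Cfsg.ControlsStrongFusionIn p W ⊤ ↔ ∀ (T : Subgroup G) (g : G), T ≤ (S : Subgroup G) → T.map (MulAut.conj g).toMonoidHom ≤ (S : Subgroup G) → ∃ n ∈ Subgroup.normalizer ((W (S : Subgroup G) : Subgroup G) : Set G), ∃ c ∈ Subgroup.centralizer (T : Set G), g = n * c := by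
  open Cfsg.Agent.Lib.LocalFusion in
  constructor
  · intro h T g hT hg
    have hl := lchain_of_familyControls (by intro V hV; rw [Set.mem_singleton_iff.1 hV]; exact hW)
      (le_top : (S : Subgroup G) ≤ ⊤) S.2 (by rw [Subgroup.relIndex_top_right]; exact S.not_dvd_index)
      (familyControls_of_single h) (Subgroup.mem_top g) (A := (T : Set G)) hT (by rw [imgL_subgroup]; exact hg)
    have hst : stepSet {W} ⊤ (S : Subgroup G) =
        (Subgroup.normalizer ((W (S : Subgroup G) : Subgroup G) : Set G) : Set G) := by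
      ext z; simp [stepSet]
    rw [hst] at hl
    obtain ⟨n, hn, he⟩ := hl.collapse
    refine ⟨n, hn, n⁻¹ * g, ?_, by simp⟩
    intro a ha
    have := congrArg (fun t => n⁻¹ * t * g) (he a ha)
    simp [mul_assoc] at this ⊢
    exact this
  · intro h
    refine ⟨S, le_top, S.2, by rw [Subgroup.relIndex_top_right]; exact S.not_dvd_index, fun A g _ hA hg => ?_⟩
    obtain ⟨n, hn, c, hc, rfl⟩ := h (Subgroup.closure A) g ((Subgroup.closure_le _).2 hA)
      (by rw [closure_imgL]; exact (Subgroup.closure_le _).2 hg)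
    refine ⟨n, ⟨Subgroup.mem_top _, hn⟩, fun a ha => ?_⟩
    have := hc a (Subgroup.subset_closure ha)
    calc n * a * n⁻¹ = n * (a * c) * c⁻¹ * n⁻¹ := by simp [mul_assoc]
      _ = n * c * a * (n * c)⁻¹ := by rw [this]; simp [mul_assoc]

end Cfsg.Agent.S1967
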