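import Cfsg.Statements.S1970
import Mathlib
import Cfsg.Agent.Lib.KInf.Single
-- import your own Cfsg.Agent.* helpers here

set_option autoImplicit false
universe u
open Cfsg

namespace Cfsg.Agent.S1970

/-- Let p be a prime, G a finite group and W an isomorphism-invariant p-group functor (W assigns to every group Q a subgroup W(Q), nontrivial whenever Q is a nontrivial finite p-group, and every isomorphism from a finite p-group Q onto a group R carries W(Q) onto W(R)). Suppose that for every section G* = K/R of G with C_{G*}(O_p(G*)) ≤ O_p(G*) and every Sylow p-subgroup S* of G*, one has O_p(G*) ∩ (G*)' = O_p(G*) ∩ (N_{G*}(W(S*)))'. Then W controls transfer in every section G* of G: S* ∩ (G*)' = S* ∩ (N_{G*}(W(S*)))' for a Sylow p-subgroup S* of G*. -/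
theorem result {G : Type u} [Group G] [Finite G] {p : ℕ} [Fact p.Prime] (W : ∀ (Q : Type u) [Group Q], Subgroup Q) (hW : Cfsg.IsCharPFunctor.{u} p W) (hloc : ∀ (K R : Subgroup G) [hR : (R.subgroupOf K).Normal], Subgroup.centralizer ((Cfsg.pCore p (↥K ⧸ R.subgroupOf K) : Subgroup (↥K ⧸ R.subgroupOf K)) : Set (↥K ⧸ R.subgroupOf K)) ≤ Cfsg.pCore p (↥K ⧸ R.subgroupOf K) → ∀ T : Sylow p (↥K ⧸ R.subgroupOf K), Cfsg.pCore p (↥K ⧸ R.subgroupOf K) ⊓ commutator (↥K ⧸ R.subgroupOf K) = Cfsg.pCore p (↥K ⧸ R.subgroupOf K) ⊓ ⁅Subgroup.normalizer ((Cfsg.inducedFunctor (G := (↥K ⧸ R.subgroupOf K)) W ((T : Subgroup (↥K ⧸ R.subgroupOf K))) : Subgroup (↥K ⧸ R.subgroupOf K)) : Set (↥K ⧸ R.subgroupOf K)), Subgroup.normalizer ((Cfsg.inducedFunctor (G := (↥K ⧸ R.subgroupOf K)) W ((T : Subgroup (↥K ⧸ R.subgroupOf K))) : Subgroup (↥K ⧸ R.subgroupOf K)) : Set (↥K ⧸ R.subgroupOf K))⁆) : ∀ (K R : Subgroup G) [hR : (R.subgroupOf K).Normal], Cfsg.ControlsTransferIn p (Cfsg.inducedFunctor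 (G := (↥K ⧸ R.subgroupOf K)) W) ⊤ := by
  open Cfsg.Agent.Lib.KInf in
  intro K R hR
  refine (ct_singleton_iff hW).1 (ct_of_no_minBad (by rintro _ rfl; exact hW) (Set.singleton_nonempty W) ?_ _
    (isSec_quot K R))
  intro X _ _ hX S hS
  obtain ⟨K', R', hR', ⟨e⟩⟩ := hX.exists_quot
  have := hR'
  have hs : Function.Surjective e.symm.toMonoidHom := e.symm.surjective
  set T : Sylow p (↥K' ⧸ R'.subgroupOf K') := S.mapSurjective hs with hT
  have he := hloc K' R' (isCons_of_equiv e.symm hS.constrained) T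
  have hTS : (T : Subgroup (↥K' ⧸ R'.subgroupOf K')).map e.toMonoidHom = (S : Subgroup X) := by
    rw [hT, Sylow.coe_mapSurjective, Subgroup.map_map]
    convert Subgroup.map_id (S : Subgroup X)
    ext; simp
  have he' := congrArg (Subgroup.map e.toMonoidHom) he
  rw [Subgroup.map_inf _ _ _ e.injective, Subgroup.map_inf _ _ _ e.injective,
    Cfsg.Agent.Lib.Hall.map_pCore_equiv, map_commutator_top, Subgroup.map_commutator,
    map_normalizer_induced hW e T.2, hTS] at he'
  refine hS.false_of_inf_le ?_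
  rw [he', T0_singleton]
  exact inf_le_inf_right _ (Cfsg.Agent.Lib.LocalChar.pCore_le_sylow S)

end Cfsg.Agent.S1970
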