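import Cfsg.Statements.S1972
import Mathlib
import Cfsg.Agent.Lib.KInf.NoEngel
-- import your own Cfsg.Agent.* helpers here

set_option autoImplicit false
universe u
open Cfsg

namespace Cfsg.Agent.S1972

/-- Let p be a prime, G a finite group and W an isomorphism-invariant p-group functor (W assigns to every group Q a subgroup W(Q), nontrivial whenever Q is a nontrivial finite p-group, and every isomorphism from a finite p-group Q onto a group R carries W(Q) onto W(R)). Suppose that whenever G* = K/R is a section of G with C_{G*}(O_p(G*)) ≤ O_p(G*) and S* is a Sylow p-subgroup of G* with W(S*) not normal in G*, there is an element g of S* outside O_p(G*) such that [X, g, …, g] ≤ Y with p − 1 entries g, for every chief factor X/Y of G* with X ≤ O_p(G*). Then W controls transfer in every section of G. -/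
theorem result {G : Type u} [Group G] [Finite G] {p : ℕ} [Fact p.Prime] (W : ∀ (Q : Type u) [Group Q], Subgroup Q) (hW : Cfsg.IsCharPFunctor.{u} p W) (hloc : ∀ (K R : Subgroup G) [hR : (R.subgroupOf K).Normal], Subgroup.centralizer ((Cfsg.pCore p (↥K ⧸ R.subgroupOf K) : Subgroup (↥K ⧸ R.subgroupOf K)) : Set (↥K ⧸ R.subgroupOf K)) ≤ Cfsg.pCore p (↥K ⧸ R.subgroupOf K) → ∀ T : Sylow p (↥K ⧸ R.subgroupOf K), ¬ (Cfsg.inducedFunctor (G := (↥K ⧸ R.subgroupOf K)) W ((T : Subgroup (↥K ⧸ R.subgroupOf K)))).Normal → ∃ g : (↥K ⧸ R.subgroupOf K), g ∈ (T : Subgroup (↥K ⧸ R.subgroupOf K)) ∧ g ∉ Cfsg.pCore p (↥K ⧸ R.subgroupOf K) ∧ ∀ U V : Subgroup (↥K ⧸ R.subgroupOf K), Cfsg.IsChiefFactor U V → U ≤ Cfsg.pCore p (↥K ⧸ R.subgroupOf K) → Cfsg.iterCommutator U (Subgroup.zpowers g) (p - 1) ≤ V) : ∀ (K R : Subgroup G) [hR : (R.subgroupOf K).Normal], Cfsg.ControlsTransferIn p (Cfsg.inducedFunctor (G := (↥K ⧸ R.subgroupOf K)) W) ⊤ := by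
  open Cfsg.Agent.Lib.KInf in
  intro K R hR
  refine (ct_singleton_iff hW).1 (ct_of_no_minBad (by rintro _ rfl; exact hW) (Set.singleton_nonempty W) ?_ _
    (isSec_quot K R))
  intro X _ _ hX S hS
  obtain ⟨K', R', hR', ⟨e⟩⟩ := hX.exists_quot
  have := hR'
  have hs : Function.Surjective e.symm.toMonoidHom := e.symm.surjective
  set T : Sylow p (↥K' ⧸ R'.subgroupOf K') := S.mapSurjective hs with hT
  have hTS : (T : Subgroup (↥K' ⧸ R'.subgroupOf K')).map e.toMonoidHom = (S : Subgroup X) := by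
    rw [hT, Sylow.coe_mapSurjective, Subgroup.map_map]
    convert Subgroup.map_id (S : Subgroup X)
    ext; simp
  have hP : (Cfsg.pCore p (↥K' ⧸ R'.subgroupOf K')).map e.toMonoidHom = Cfsg.pCore p X :=
    Cfsg.Agent.Lib.Hall.map_pCore_equiv p e
  obtain ⟨g, hgT, hgP, hg⟩ := hloc K' R' (isCons_of_equiv e.symm hS.constrained) T (fun hn => by
    refine hS.not_normal (Set.mem_singleton W) ?_
    rw [← hTS, induced_map_equiv hW e T.2]
    exact hn.map _ e.surjective)
  refine hS.not_engel (w := e g) (hTS ▸ Subgroup.mem_map_of_mem _ hgT) (fun hc => hgP ?_) ?_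
  · rw [← hP] at hc
    obtain ⟨y, hy, hye⟩ := hc
    rwa [← e.injective hye]
  · intro U V hUV hUP
    have hcf : Cfsg.IsChiefFactor (U.comap e.toMonoidHom) (V.comap e.toMonoidHom) :=
      isChiefFactor_comap e.surjective hUV
    have hUP' : U.comap e.toMonoidHom ≤ Cfsg.pCore p (↥K' ⧸ R'.subgroupOf K') := by
      refine (Subgroup.comap_mono hUP).trans_eq ?_
      rw [← hP]
      exact Subgroup.comap_map_eq_self_of_injective e.injective _
    have h2 := Subgroup.map_mono (f := e.toMonoidHom) (hg _ _ hcf hUP')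
    rwa [iterCommutator_map, MonoidHom.map_zpowers, Subgroup.map_comap_eq_self_of_surjective (f := e.toMonoidHom) e.surjective,
      Subgroup.map_comap_eq_self_of_surjective (f := e.toMonoidHom) e.surjective] at h2

end Cfsg.Agent.S1972
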