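import Cfsg.Statements.S1978
import Cfsg.Agent.Lib.LocalFusion.KSeq

set_option autoImplicit false
open Cfsg

namespace Cfsg.Agent.S1978

lemma centralizer_sSup_le {P : Type*} [Group P] [Finite P] {p : ℕ} [Fact p.Prime] (hP : IsPGroup p P)
    (F : Set (Subgroup P)) (hne : F.Nonempty) (h2 : F ⊆ Cfsg.classTwoSubgroups P)
    (henl : ∀ B ∈ F, ∀ B', B < B' → B' ∈ Cfsg.classTwoSubgroups P →
      (∀ Q, B ∈ Cfsg.kUpperStarFamily Q → B' ∈ Cfsg.kUpperStarFamily Q) →
      (∀ Q, B ∈ Cfsg.kLowerStarFamily Q → B' ∈ Cfsg.kLowerStarFamily Q) → B' ∈ F) :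
    Subgroup.centralizer ((sSup F : Subgroup P) : Set P) ≤ sSup F := by
  obtain ⟨B, hB⟩ := Set.Finite.exists_maximal (Set.toFinite F) hne
  rcases Lib.LocalFusion.maximal_self_centralizing hP B (h2 hB.1) with h | ⟨B', hlt, h2', hup, hlow⟩
  · exact (Subgroup.centralizer_le (SetLike.coe_subset_coe.2 (le_sSup hB.1))).trans (h.trans (le_sSup hB.1))
  · exact absurd (hB.2 (henl B hB.1 B' hlt h2' hup hlow) hlt.le) hlt.not_ge


/-- Let P be a finite p-group. Each of the two K-infinity subgroups of P contains its own centralizer in P, which in turn contains Z(P); in particular both are nontrivial when P is. -/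
theorem result {P : Type*} [Group P] [Finite P] {p : ℕ} [Fact p.Prime] (hP : IsPGroup p P) : Subgroup.centralizer (Cfsg.kInfLower P : Set P) ≤ Cfsg.kInfLower P ∧ Subgroup.center P ≤ Subgroup.centralizer (Cfsg.kInfLower P : Set P) ∧ Subgroup.centralizer (Cfsg.kInfUpper P : Set P) ≤ Cfsg.kInfUpper P ∧ Subgroup.center P ≤ Subgroup.centralizer (Cfsg.kInfUpper P : Set P) := by
  obtain ⟨n, hn⟩ := Lib.LocalFusion.kSeq_stable (P := P)
  have hbot := Lib.LocalFusion.normal_abelian_mem (⊥ : Subgroup P) inferInstance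
  refine ⟨?_, Subgroup.center_le_centralizer _, ?_, Subgroup.center_le_centralizer _⟩
  · rw [← (hn n le_rfl).1]
    exact centralizer_sSup_le hP _ ⟨⊥, (hbot.2 _).1⟩ (fun B hB => hB.1)
      fun B hB B' _ _ _ hlow => hlow _ hB
  · rw [← (hn (n + 1) (Nat.le_succ n)).2]
    exact centralizer_sSup_le hP _ ⟨⊥, (hbot.2 _).2⟩ (fun B hB => hB.1)
      fun B hB B' _ _ hup _ => hup _ hB

end Cfsg.Agent.S1978
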