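import Cfsg.Statements.S1985
import Cfsg.Agent.Lib.KInf.WeakClosure
import Cfsg.Agent.Lib.KInf.KInfLocal
-- import your own Cfsg.Agent.* helpers here

set_option autoImplicit false
universe u
open Cfsg

namespace Cfsg.Agent.S1985

/-- Let p be an odd prime and G a finite group. Then the lower K-infinity subgroup controls weak closure of elements in G: the lower K-infinity subgroup of every p-subgroup P of G contains Z(P), and for some (equivalently, every) Sylow p-subgroup S of G, with K the lower K-infinity subgroup of S, every element of S commuting with all of N_G(K) is weakly closed in S with respect to G (every G-conjugate of it lying in S equals it). -/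
theorem result {G : Type u} [Group G] [Finite G] {p : ℕ} [Fact p.Prime] (hp : p ≠ 2) : Cfsg.ControlsWeakClosureOfElementsIn p (Cfsg.inducedFunctor (G := G) Cfsg.kInfLower) ⊤ := by
  open Cfsg.Agent.Lib.KInf in
  have hW := Cfsg.Agent.Lib.KInf.isConjugacyFunctor_induced (X := G) (isCharPFunctor_kInfLower p)
  obtain ⟨T, hTH, hTp, hTi⟩ := Cfsg.Agent.Lib.LocalChar.exists_isSylowIn (p := p) (⊤ : Subgroup G)
  refine ⟨fun P _ => Cfsg.Agent.Lib.KInf.kInfLower_center_le P, T, hTH, hTp, hTi, fun x hx g hg hgx => ?_⟩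
  refine Cfsg.Agent.Lib.KInf.weakClosure_elem hW (fun P _ => Cfsg.Agent.Lib.KInf.kInfLower_center_le P) ?_ _ ⊤ T rfl hTH hTp hTi x hx.1
    (fun k hk hkN => hx.2 k ⟨hk, hkN⟩) g hg hgx
  intro H T hTH hTp hTi hn
  obtain ⟨e, heT, heQ, hq⟩ := Cfsg.Agent.Lib.KInf.kInfLower_quad hTH hTp hTi hn
  refine ⟨e, heT, heQ, fun U V hUV hUP => ?_⟩
  obtain ⟨k, hk⟩ := Nat.exists_eq_add_of_le (show 2 ≤ p - 1 by
    have := (Fact.out : p.Prime).two_le
    omega)
  have h2 : ∀ i, Cfsg.iterCommutator (U.map H.subtype) (Subgroup.zpowers e) (2 + i) = ⊥ := by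
    intro i
    induction i with
    | zero => exact le_bot_iff.1 (le_trans (Subgroup.commutator_mono (Subgroup.commutator_mono hUP le_rfl) le_rfl) hq.le)
    | succ i ih =>
      show ⁅Cfsg.iterCommutator (U.map H.subtype) (Subgroup.zpowers e) (2 + i), Subgroup.zpowers e⁆ = ⊥
      rw [ih, Subgroup.commutator_bot_left]
  rw [hk, h2]
  exact bot_le

end Cfsg.Agent.S1985
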