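import Cfsg.Statements.S1995
import Mathlib
import Cfsg.Agent.Lib.KInf.Single
import Cfsg.Agent.Lib.LocalFusion.PSolvable
import Cfsg.Agent.Lib.OddLocal.PLengthOne
-- import your own Cfsg.Agent.* helpers here

set_option autoImplicit false
universe u
open Cfsg

namespace Cfsg.Agent.S1995

/-- Let p be a prime, G a finite group and 𝓦 a set of isomorphism-invariant p-group functors (W assigns to every group Q a subgroup W(Q), nontrivial whenever Q is a nontrivial finite p-group, and every isomorphism from a finite p-group Q onto a group R carries W(Q) onto W(R)). If the conjugacy functors induced by 𝓦 control transfer in every section G* = K/R of G with C_{G*}(O_p(G*)) ≤ O_p(G*), then they control transfer in G: S ∩ G' is generated by the subgroups S ∩ (N_G(W(S)))', W ∈ 𝓦, for a Sylow p-subgroup S. -/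
theorem result {G : Type u} [Group G] [Finite G] {p : ℕ} [Fact p.Prime] (𝓦 : Set (∀ (Q : Type u) [Group Q], Subgroup Q)) (h𝓦 : ∀ W ∈ 𝓦, Cfsg.IsCharPFunctor.{u} p W) (hloc : ∀ (K R : Subgroup G) [hR : (R.subgroupOf K).Normal], Subgroup.centralizer ((Cfsg.pCore p (↥K ⧸ R.subgroupOf K) : Subgroup (↥K ⧸ R.subgroupOf K)) : Set (↥K ⧸ R.subgroupOf K)) ≤ Cfsg.pCore p (↥K ⧸ R.subgroupOf K) → Cfsg.FamilyControlsTransferIn p ((fun W => Cfsg.inducedFunctor (G := (↥K ⧸ R.subgroupOf K)) W) '' 𝓦) ⊤) : Cfsg.FamilyControlsTransferIn p ((fun W => Cfsg.inducedFunctor (G := G) W) '' 𝓦) ⊤ := by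
  open Cfsg.Agent.Lib.KInf in
  rcases 𝓦.eq_empty_or_nonempty with hemp | hne
  · -- with no functor the hypothesis already says that the focal subgroup is trivial
    let Wid : ∀ (Q : Type u) [Group Q], Subgroup Q := fun Q _ => ⊤
    have hid : Cfsg.IsCharPFunctor.{u} p Wid := ⟨fun Q _ _ _ _ h => top_ne_bot h, fun Q R _ _ _ _ φ =>
      Subgroup.map_top_of_surjective _ φ.surjective⟩
    have hid' : ∀ W ∈ ({Wid} : Set (∀ (Q : Type u) [Group Q], Subgroup Q)), Cfsg.IsCharPFunctor.{u} p W := by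
      rintro _ rfl; exact hid
    have hzero : ∀ (X : Type u) [Group X] (S : Subgroup X), T0 𝓦 S = ⊥ := fun X _ S => by simp [T0, hemp]
    have hloc' : ∀ (X : Type u) [Group X], IsSec G X → IsCons p X → CT 𝓦 p X := fun X _ hX hc => by
      obtain ⟨K, R, hR, ⟨e⟩⟩ := hX.exists_quot
      have := hR
      exact ct_of_equiv h𝓦 e ((ct_iff_family h𝓦).2 (hloc K R (isCons_of_equiv e.symm hc)))
    have hct : CT {Wid} p G := by
      refine ct_of_no_minBad (G := G) hid' (Set.singleton_nonempty Wid) ?_ G IsSec.refl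
      intro X _ _ hX S hS
      refine hS.bad ((hloc' X hX hS.constrained S).trans ?_)
      rw [hzero]; exact bot_le
    refine (ct_iff_family h𝓦).1 (fun S x hx => ?_)
    rw [hzero, Subgroup.mem_bot]
    set N := Subgroup.normalizer ((Cfsg.inducedFunctor Wid (S : Subgroup G) : Subgroup G) : Set G) with hNdef
    have hW : Cfsg.inducedFunctor Wid (S : Subgroup G) = (S : Subgroup G) := by
      show (⊤ : Subgroup ↥(S : Subgroup G)).map (S : Subgroup G).subtype = _
      rw [← MonoidHom.range_eq_map, Subgroup.range_subtype]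
    have hSN : (S : Subgroup G) ≤ N := by rw [hNdef, hW]; exact Subgroup.le_normalizer
    have hxN : x ∈ (S : Subgroup G) ⊓ ⁅N, N⁆ := by
      have h1 := hct S hx
      rw [T0_singleton] at h1
      exact h1
    set SN : Sylow p ↥N := S.subtype hSN with hSN'
    haveI hSn : (SN : Subgroup ↥N).Normal := by
      rw [Sylow.coe_subtype]
      exact Subgroup.normal_subgroupOf_of_le_normalizer (by rw [hNdef, hW])
    set K := Cfsg.pPrimeCore p ↥N with hK
    set π := QuotientGroup.mk' K with hπ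
    have hπs : Function.Surjective π := QuotientGroup.mk'_surjective K
    set Sb : Sylow p (↥N ⧸ K) := SN.mapSurjective hπs with hSb
    have hSbn : (Sb : Subgroup (↥N ⧸ K)).Normal := hSn.map π hπs
    have hsol : Cfsg.IsPSolvable p (↥N ⧸ K) := by
      refine ⟨2, ![⊥, (Sb : Subgroup (↥N ⧸ K)), ⊤], rfl, rfl, ?_, ?_, ?_⟩
      · exact Fin.monotone_iff_le_succ.2 fun i => by fin_cases i <;> simp
      · intro i
        fin_cases i
        · exact (inferInstance : (⊥ : Subgroup (↥N ⧸ K)).Normal)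
        · exact hSbn
        · exact (inferInstance : (⊤ : Subgroup (↥N ⧸ K)).Normal)
      · intro i
        fin_cases i
        · left
          obtain ⟨m, hm⟩ := IsPGroup.iff_card.1 Sb.2
          exact ⟨m, by simpa [Subgroup.relIndex_bot_left] using hm⟩
        · right
          simpa [Subgroup.relIndex_top_right] using ((Fact.out : p.Prime).coprime_iff_not_dvd.2 Sb.not_dvd_index).symm
    have hcons : IsCons p (↥N ⧸ K) := Cfsg.Agent.Lib.LocalFusion.centralizer_pCore_le_of_isPSolvable hsol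
      (Cfsg.Agent.Lib.OddLocal.pPrimeCore_quotient_eq_bot p)
    have hxbot : π ⟨x, hSN hxN.1⟩ ∈ (⊥ : Subgroup (↥N ⧸ K)) := by
      rw [← hzero (↥N ⧸ K) (Sb : Subgroup (↥N ⧸ K))]
      refine hloc' (↥N ⧸ K) ((IsSec.refl (G := G)).subgroup N |>.quot K) hcons Sb ⟨?_, ?_⟩
      · exact Subgroup.mem_map_of_mem π (show (⟨x, hSN hxN.1⟩ : ↥N) ∈ (SN : Subgroup ↥N) from hxN.1)
      · rw [commutator_def, ← Subgroup.map_top_of_surjective π hπs, ← Subgroup.map_commutator]
        refine Subgroup.mem_map_of_mem π ?_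
        obtain ⟨y, hy, hyx⟩ := (Subgroup.map_subtype_commutator N).ge hxN.2
        rw [← commutator_def]
        exact (Subtype.ext hyx : y = ⟨x, hSN hxN.1⟩) ▸ hy
    have hxK : (⟨x, hSN hxN.1⟩ : ↥N) ∈ K := (QuotientGroup.eq_one_iff _).1 (Subgroup.mem_bot.1 hxbot)
    obtain ⟨k, hk⟩ := IsPGroup.iff_orderOf.1 S.2 ⟨x, hxN.1⟩
    rw [Subgroup.orderOf_mk] at hk
    have h2 : orderOf x ∣ Nat.card ↥K := by
      rw [← Subgroup.orderOf_mk x (hSN hxN.1)]
      exact Subgroup.orderOf_dvd_natCard K hxK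
    exact orderOf_eq_one_iff.1 (Nat.eq_one_of_dvd_coprimes
      ((Cfsg.Agent.Lib.Hall.coprime_card_pPrimeCore (G := ↥N) p).pow_right k) h2 (dvd_of_eq hk))
  refine (ct_iff_family h𝓦).1 (ct_of_no_minBad (G := G) h𝓦 hne ?_ G IsSec.refl)
  intro X _ _ hX S hS
  obtain ⟨K, R, hR, ⟨e⟩⟩ := hX.exists_quot
  have := hR
  exact hS.bad (ct_of_equiv h𝓦 e ((ct_iff_family h𝓦).2 (hloc K R (isCons_of_equiv e.symm hS.constrained))) S)

end Cfsg.Agent.S1995
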