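import Cfsg.Statements.S1996
import Cfsg.Agent.Lib.KInf.FusionCor
import Cfsg.Agent.Lib.KInf.KFunctor
-- import your own Cfsg.Agent.* helpers here

set_option autoImplicit false
universe u
open Cfsg

namespace Cfsg.Agent.S1996

/-- Let p be a prime, G a finite group and W₁, W₂ two isomorphism-invariant p-group functors (W assigns to every group Q a subgroup W(Q), nontrivial whenever Q is a nontrivial finite p-group, and every isomorphism from a finite p-group Q onto a group R carries W(Q) onto W(R)). Suppose that G* = N_{G*}(W₁(S*)) N_{G*}(W₂(S*)) whenever G* = K/R is a section of G with C_{G*}(O_p(G*)) ≤ O_p(G*) and S* is a Sylow p-subgroup of G*. Then the pair {W₁, W₂} controls strong fusion in G. -/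
theorem result {G : Type u} [Group G] [Finite G] {p : ℕ} [Fact p.Prime] (W₁ W₂ : ∀ (Q : Type u) [Group Q], Subgroup Q) (hW₁ : Cfsg.IsCharPFunctor.{u} p W₁) (hW₂ : Cfsg.IsCharPFunctor.{u} p W₂) (hfac : ∀ (K R : Subgroup G) [hR : (R.subgroupOf K).Normal], Subgroup.centralizer ((Cfsg.pCore p (↥K ⧸ R.subgroupOf K) : Subgroup (↥K ⧸ R.subgroupOf K)) : Set (↥K ⧸ R.subgroupOf K)) ≤ Cfsg.pCore p (↥K ⧸ R.subgroupOf K) → ∀ T : Sylow p (↥K ⧸ R.subgroupOf K), ∀ x : (↥K ⧸ R.subgroupOf K), ∃ a ∈ Subgroup.normalizer ((Cfsg.inducedFunctor (G := (↥K ⧸ R.subgroupOf K)) W₁ (T : Subgroup (↥K ⧸ R.subgroupOf K)) : Subgroup (↥K ⧸ R.subgroupOf K)) : Set (↥K ⧸ R.subgroupOf K)), ∃ b ∈ Subgroup.normalizer ((Cfsg.inducedFunctor (G := (↥K ⧸ R.subgroupOf K)) W₂ (T : Subgroup (↥K ⧸ R.subgroupOf K)) : Subgroup (↥K ⧸ R.subgroupOf K)) : Set (↥K ⧸ R.subgroupOf K)), x = a * b) : Cfsg.FamilyControlsStrongFusionIn p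 {Cfsg.inducedFunctor (G := G) W₁, Cfsg.inducedFunctor (G := G) W₂} ⊤ := by
  open Cfsg.Agent.Lib.KInf Cfsg.Agent.Lib.LocalFusion in
  have h𝓦 : ∀ V ∈ ({W₁, W₂} : Set (∀ (Q : Type u) [Group Q], Subgroup Q)), Cfsg.IsCharPFunctor.{u} p V := by
    rintro _ (rfl | rfl)
    · exact hW₁
    · exact hW₂
  have h := (Cfsg.Agent.Lib.KInf.sf_iff_family h𝓦).1 (Cfsg.Agent.Lib.KInf.sf_of_local h𝓦 ?_ G Cfsg.Agent.Lib.KInf.IsSec.refl)
  · rwa [Set.image_pair] at h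
  intro X _ _ hX hc
  obtain ⟨K', R', hn, ⟨e⟩⟩ := hX.exists_quot
  refine Cfsg.Agent.Lib.KInf.sf_of_equiv h𝓦 e fun S A g hA hg => ?_
  refine Cfsg.Agent.Lib.KInf.chain_of_factor S
    (Cfsg.Agent.Lib.LocalFusion.le_normalizer_functor (Cfsg.Agent.Lib.KInf.isConjugacyFunctor_induced hW₁) S.2)
    (Cfsg.Agent.Lib.LocalFusion.le_normalizer_functor (Cfsg.Agent.Lib.KInf.isConjugacyFunctor_induced hW₂) S.2)
    (hfac K' R' (Cfsg.Agent.Lib.KInf.isCons_of_equiv e.symm hc) S) ?_ ?_ A g hA hg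
  · exact fun B x hx hB hxB => Cfsg.Agent.Lib.KInf.chain_single hB ⟨_, ⟨W₁, Or.inl rfl, rfl⟩, Subgroup.mem_top _, hx⟩ hxB
  · exact fun B x hx hB hxB => Cfsg.Agent.Lib.KInf.chain_single hB ⟨_, ⟨W₂, Or.inr rfl, rfl⟩, Subgroup.mem_top _, hx⟩ hxB

end Cfsg.Agent.S1996
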