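import Cfsg.Statements.S1998
import Mathlib
import Cfsg.Agent.Lib.KInf.NoEngel
-- import your own Cfsg.Agent.* helpers here

set_option autoImplicit false
universe u
open Cfsg

namespace Cfsg.Agent.S1998

/-- Let p be a prime, G a finite group with Sylow p-subgroup S, and 𝓦 a nonempty set of isomorphism-invariant p-group functors (W assigns to every group Q a subgroup W(Q), nontrivial whenever Q is a nontrivial finite p-group, and every isomorphism from a finite p-group Q onto a group R carries W(Q) onto W(R)). Suppose the induced conjugacy functors control transfer in every section of G other than G itself, but not in G. Let T be the subgroup generated by the S ∩ (N_G(W(S)))', W ∈ 𝓦, and M = N_G(T ∩ O_p(G)). Then: C_G(O_p(G)) ≤ O_p(G); M is a proper subgroup of G containing every proper subgroup of G that contains S (the unique maximal subgroup over S); [O_p(G), M] ≤ O_p(G) ∩ M' ≤ O_p(G) ∩ T; and every element u of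 S outside O_p(G) satisfies [X, u, …, u] ≰ Y with p − 1 entries u, for some chief factor X/Y of G with X ≤ O_p(G). -/
theorem result {G : Type u} [Group G] [Finite G] {p : ℕ} [Fact p.Prime] (S : Sylow p G) (𝓦 : Set (∀ (Q : Type u) [Group Q], Subgroup Q)) (h𝓦 : ∀ W ∈ 𝓦, Cfsg.IsCharPFunctor.{u} p W) (hne : 𝓦.Nonempty) (hsec : ∀ (K R : Subgroup G) [hR : (R.subgroupOf K).Normal], (K = ⊤ → R ≠ ⊥) → Cfsg.FamilyControlsTransferIn p ((fun W => Cfsg.inducedFunctor (G := (↥K ⧸ R.subgroupOf K)) W) '' 𝓦) ⊤) (hG : ¬ Cfsg.FamilyControlsTransferIn p ((fun W => Cfsg.inducedFunctor (G := G) W) '' 𝓦) ⊤) (T M : Subgroup G) (hT : T = (⨆ W ∈ 𝓦, (S : Subgroup G) ⊓ ⁅Subgroup.normalizer ((Cfsg.inducedFunctor (G := G) W (S : Subgroup G) : Subgroup G) : Set G), Subgroup.normalizer ((Cfsg.inducedFunctor (G := G) W (S : Subgroup G) : Subgroup G) : Set G)⁆)) (hM : M = Subgroup.normalizer ((T ⊓ Cfsg.pCore p G : Subgroup G) : Set G)) : Subgroup.centralizer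 ((Cfsg.pCore p G : Subgroup G) : Set G) ≤ Cfsg.pCore p G ∧ (M ≠ ⊤ ∧ ∀ H : Subgroup G, (S : Subgroup G) ≤ H → H ≠ ⊤ → H ≤ M) ∧ (⁅Cfsg.pCore p G, M⁆ ≤ Cfsg.pCore p G ⊓ ⁅M, M⁆ ∧ Cfsg.pCore p G ⊓ ⁅M, M⁆ ≤ Cfsg.pCore p G ⊓ T) ∧ ∀ u : G, u ∈ (S : Subgroup G) → u ∉ Cfsg.pCore p G → ∃ U V : Subgroup G, Cfsg.IsChiefFactor U V ∧ U ≤ Cfsg.pCore p G ∧ ¬ Cfsg.iterCommutator U (Subgroup.zpowers u) (p - 1) ≤ V := by
  open Cfsg.Agent.Lib.KInf in
  have hsub : ∀ H : Subgroup G, H ≠ ⊤ → CT 𝓦 p ↥H := by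
    intro H hH
    have hn : ((⊥ : Subgroup G).subgroupOf H).Normal := by rw [Subgroup.bot_subgroupOf]; infer_instance
    have h1 : CT 𝓦 p (↥H ⧸ (⊥ : Subgroup G).subgroupOf H) :=
      (ct_iff_family h𝓦).2 (@hsec H ⊥ hn fun h => absurd h hH)
    exact ct_of_equiv h𝓦 ((QuotientGroup.quotientMulEquivOfEq (Subgroup.bot_subgroupOf H)).trans
      QuotientGroup.quotientBot) h1
  have hquot : ∀ (N : Subgroup G) [N.Normal], N ≠ ⊥ → CT 𝓦 p (G ⧸ N) := by
    intro N hN hNne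
    have hn : (N.subgroupOf ⊤).Normal := by
      rw [Subgroup.subgroupOf]
      exact hN.comap _
    have h1 : CT 𝓦 p (↥(⊤ : Subgroup G) ⧸ N.subgroupOf ⊤) :=
      (ct_iff_family h𝓦).2 (@hsec ⊤ N hn fun _ => hNne)
    refine ct_of_equiv h𝓦 (QuotientGroup.congr (N.subgroupOf ⊤) N (Subgroup.topEquiv : ↥(⊤ : Subgroup G) ≃* G) ?_) h1
    exact Subgroup.map_comap_eq_self_of_surjective (fun x => ⟨⟨x, Subgroup.mem_top x⟩, rfl⟩) N
  have hmb : MinBad 𝓦 S := by
    refine ⟨h𝓦, hne, hsub, hquot, fun hle => hG ((ct_iff_family h𝓦).1 (ct_of_one h𝓦 hle))⟩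
  have hT' : T = T0 𝓦 (S : Subgroup G) := hT
  subst hM
  subst hT'
  have hSM : (S : Subgroup G) ≤ Subgroup.normalizer ((T0 𝓦 (S : Subgroup G) ⊓ Cfsg.pCore p G : Subgroup G) : Set G) :=
    hmb.le_normalizer_Q0 le_rfl fun e => hmb.sylow_not_normal (by rw [e]; infer_instance)
  have hPS : Cfsg.pCore p G ≤ (S : Subgroup G) := Cfsg.Agent.Lib.LocalChar.pCore_le_sylow S
  refine ⟨hmb.constrained, ⟨hmb.normalizer_Q0_ne_top, fun H h1 h2 => hmb.le_normalizer_Q0 h1 h2⟩,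
    ⟨le_inf ?_ (Subgroup.commutator_mono (hPS.trans hSM) le_rfl), le_inf inf_le_left ?_⟩, fun w hw hwP => ?_⟩
  · exact (hmb.commutator_pCore_le hSM hmb.normalizer_Q0_ne_top).trans inf_le_right
  · exact (inf_le_inf_right _ hPS).trans (hmb.inf_commutator_le hSM hmb.normalizer_Q0_ne_top)
  · have h1 := hmb.not_engel hw hwP
    unfold Engel at h1
    push Not at h1
    exact h1

end Cfsg.Agent.S1998
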