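import Cfsg.Statements.S2004
import Cfsg.Agent.Lib.PStab.QdSection

set_option autoImplicit false
open Cfsg

namespace Cfsg.Agent.S2004

/-- Let p be an odd prime and G a finite group such that SL₂(p) is not involved in N_G(P) for any nonidentity p-subgroup P of G. Then every section of G is p-stable in the normalizer form: in each section, whenever an element of the normalizer of a p-subgroup Q acts quadratically on Q, its image in N(Q)/C(Q) lies in O_p(N(Q)/C(Q)). -/
theorem result {G : Type*} [Group G] [Finite G] {p : ℕ} [Fact p.Prime] (hp : p ≠ 2) (h : ∀ P : Subgroup G, IsPGroup p ↥P → P ≠ ⊥ → ¬ Cfsg.Involves (Matrix.SpecialLinearGroup (Fin 2) (ZMod p)) ↥(Subgroup.normalizer ((P : Subgroup G) : Set G))) : ∀ (K R : Subgroup G) [hR : (R.subgroupOf K).Normal], Cfsg.IsNormalizerPStable p (↥K ⧸ R.subgroupOf K) := by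
  intro K R hR
  by_contra hns
  obtain ⟨T, f, hf⟩ := Lib.PStab.exists_qd_of_not_isNormalizerPStable hp hns
  let T' : Subgroup K := T.comap (QuotientGroup.mk' (R.subgroupOf K))
  let f' : T' →* Cfsg.qd p := f.comp ((QuotientGroup.mk' (R.subgroupOf K)).subgroupComap T)
  have hf' : Function.Surjective f' := hf.comp
    (MonoidHom.subgroupComap_surjective_of_surjective _ T (QuotientGroup.mk'_surjective _))
  let e := T'.equivMapOfInjective K.subtype K.subtype_injective
  obtain ⟨S, L, π, hS, hS1, hL, hπ⟩ := Lib.PStab.exists_local_sl2 (f'.comp e.symm.toMonoidHom)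
    (hf'.comp e.symm.surjective)
  obtain ⟨M, hM, hiso⟩ := Lib.PStab.exists_quotient_equiv
    (π.comp (Subgroup.subgroupOfEquivOfLe hL).toMonoidHom)
    (hπ.comp (Subgroup.subgroupOfEquivOfLe hL).surjective)
  exact h S hS hS1 ⟨_, M, hM, hiso⟩

end Cfsg.Agent.S2004
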