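import Cfsg.Statements.S2007
import Cfsg.Agent.Lib.Transfer.Basic
import Cfsg.Agent.Lib.Transfer.Fusion

set_option autoImplicit false
open Cfsg

namespace Cfsg.Agent.S2007

/-- Let p be a prime, G a finite group with Sylow p-subgroup S, and T a normal subgroup of S containing C_S(T). If N_G(T)/C_G(T) is a p-group (every element of N_G(T) of order prime to p centralizes T), then N_G(T) has a normal p-complement. -/
theorem result {G : Type*} [Group G] [Finite G] {p : ℕ} [Fact p.Prime] (S : Sylow p G) (T : Subgroup G) (hTS : T ≤ (S : Subgroup G)) (hTn : (S : Subgroup G) ≤ Subgroup.normalizer ((T : Subgroup G) : Set G)) (hC : (S : Subgroup G) ⊓ Subgroup.centralizer ((T : Subgroup G) : Set G) ≤ T) (hN : ∀ g ∈ Subgroup.normalizer ((T : Subgroup G) : Set G), (orderOf g).Coprime p → g ∈ Subgroup.centralizer ((T : Subgroup G) : Set G)) : Cfsg.HasNormalPComplement p ↥(Subgroup.normalizer ((T : Subgroup G) : Set G)) := by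
  classical
  set N := Subgroup.normalizer ((T : Subgroup G) : Set G) with hNdef
  rw [Cfsg.Agent.Lib.Transfer.hasNormalPComplement_iff]
  let C : Subgroup ↥N := (Subgroup.centralizer (T : Set G)).subgroupOf N
  have hle : Cfsg.pResidual p ↥N ≤ C := (Subgroup.closure_le _).2 fun x hx =>
    Subgroup.mem_subgroupOf.2 (hN x x.2 (by rw [Subgroup.orderOf_coe]; exact hx))
  have hC : Cfsg.HasNormalPComplement p ↥C := by
    haveI : C.Normal := by
      refine ⟨fun c hc g => Subgroup.mem_subgroupOf.2 ?_⟩
      intro t ht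
      have h1 : (g : G)⁻¹ * t * g ∈ T := by
        have := (Subgroup.mem_normalizer_iff.1 (N.inv_mem g.2) t).1 ht
        simpa using this
      have h2 := (Subgroup.mem_subgroupOf.1 hc) _ h1
      have h3 := congrArg (fun u => (g : G) * u * (g : G)⁻¹) h2
      simp [mul_assoc] at h3 ⊢
      exact h3
    obtain ⟨R, hR⟩ := Cfsg.Agent.Lib.Transfer.exists_sylow_inf (S.subtype hTn) C
    refine Cfsg.Agent.Lib.Transfer.hasNormalPComplement_of_normalizer_le_centralizer R ?_
    intro x _
    intro r hr
    replace hr : r ∈ (R : Subgroup ↥C) := hr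
    rw [hR, Subgroup.mem_subgroupOf] at hr
    have hrS : ((r : ↥N) : G) ∈ (S : Subgroup G) := by
      rwa [Sylow.coe_subtype, Subgroup.mem_subgroupOf] at hr
    have hrT : ((r : ↥N) : G) ∈ T := hC ⟨hrS, Subgroup.mem_subgroupOf.1 r.2⟩
    have := (Subgroup.mem_subgroupOf.1 x.2) _ hrT
    exact Subtype.ext (Subtype.ext this)
  rw [Cfsg.Agent.Lib.Transfer.hasNormalPComplement_iff] at hC
  intro hd
  apply hC
  have hle2 : Cfsg.pResidual p ↥N ≤ (Cfsg.pResidual p ↥C).map C.subtype := by
    refine (Subgroup.closure_le _).2 fun x hx => ?_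
    refine ⟨⟨x, hle (Subgroup.subset_closure hx)⟩, Cfsg.Agent.Lib.Transfer.mem_pResidual ?_, rfl⟩
    rw [Subgroup.orderOf_mk]; exact hx
  have := hd.trans (Subgroup.card_dvd_of_le hle2)
  rwa [Subgroup.card_map_of_injective C.subtype_injective] at this

end Cfsg.Agent.S2007
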