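import Cfsg.Statements.S2008
import Mathlib.GroupTheory.SpecificGroups.KleinFour

set_option autoImplicit false
open Cfsg

namespace Cfsg.Agent.S2008

variable {H : Type*} [Group H] [Finite H]

lemma inverts (z : H) (hz : orderOf z = 2) (N : Subgroup H) [N.Normal]
    (h : N ⊓ Subgroup.centralizer ({z} : Set H) = ⊥) : ∀ x ∈ N, z * x * z⁻¹ = x⁻¹ := by
  have hzi : z * z = 1 := by rw [← pow_two, ← hz, pow_orderOf_eq_one]
  have hzinv : z⁻¹ = z := inv_eq_of_mul_eq_one_left hzi
  let f : N → N := fun x => ⟨(x : H)⁻¹ * (z * x * z⁻¹), N.mul_mem (N.inv_mem x.2) (Subgroup.Normal.conj_mem ‹_› _ x.2 z)⟩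
  have hf : Function.Injective f := by
    intro x y e
    have e' : (x : H)⁻¹ * (z * x * z⁻¹) = (y : H)⁻¹ * (z * y * z⁻¹) := congrArg Subtype.val e
    have : (y : H) * (x : H)⁻¹ ∈ N ⊓ Subgroup.centralizer ({z} : Set H) := by
      refine ⟨N.mul_mem y.2 (N.inv_mem x.2), Subgroup.mem_centralizer_singleton_iff.2 ?_⟩
      have e2 := congrArg (fun t => (y : H) * t * (z * (x : H)⁻¹)) e'
      simp only [mul_assoc, inv_mul_cancel_left, mul_inv_cancel_left, mul_inv_cancel, mul_one] at e2
      simpa [mul_assoc] using e2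
    rw [h, Subgroup.mem_bot, mul_inv_eq_one] at this
    exact Subtype.ext this.symm
  intro x hx
  obtain ⟨y, hy⟩ := (Finite.injective_iff_surjective.1 hf) ⟨x, hx⟩
  have e : (y : H)⁻¹ * (z * y * z⁻¹) = x := congrArg Subtype.val hy
  rw [← e, hzinv]
  simp [mul_assoc, hzinv, ← mul_assoc z z, hzi]

lemma eq_bot_of_ne_top (z : H) (hz : orderOf z = 2)
    (hN : ∀ N : Subgroup H, N.Normal → N ≠ ⊤ → N ⊓ Subgroup.centralizer ({z} : Set H) = ⊥)
    (E : Subgroup H) (hE : IsKleinFour ↥E) (hzE : z ∈ E) (hc : ∀ e ∈ E, e ≠ 1 → IsConj z e)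
    (N : Subgroup H) [N.Normal] (hNt : N ≠ ⊤) : N = ⊥ := by
  have hinv : ∀ e ∈ E, e ≠ 1 → ∀ x ∈ N, e * x * e⁻¹ = x⁻¹ := by
    intro e he he1
    obtain ⟨c, hc⟩ := isConj_iff.1 (hc e he he1)
    intro x hx
    have := inverts z hz N (hN N ‹_› hNt) (c⁻¹ * x * c) (by simpa using Subgroup.Normal.conj_mem ‹N.Normal› x hx c⁻¹)
    rw [← hc]
    have h2 := congrArg (fun t => c * t * c⁻¹) this
    simpa [mul_assoc] using h2
  have hne : (⟨z, hzE⟩ : E) ≠ 1 := fun h => by
    have h' : z = 1 := congrArg Subtype.val h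
    simp [h'] at hz
  obtain ⟨w, hw1, hwz⟩ : ∃ w : E, w ≠ 1 ∧ w ≠ ⟨z, hzE⟩ := by
    classical
    haveI : Fintype E := Fintype.ofFinite _
    have h4 : Fintype.card E = 4 := by rw [← Nat.card_eq_fintype_card]; exact hE.card_four
    by_contra hcon
    push_neg at hcon
    have : (Finset.univ : Finset E) ⊆ {1, ⟨z, hzE⟩} := fun w _ => by
      rw [Finset.mem_insert, Finset.mem_singleton]
      exact (em (w = 1)).imp id (hcon w)
    have := Finset.card_le_card this
    rw [Finset.card_univ, h4] at this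
    exact absurd (this.trans Finset.card_le_two) (by omega)
  rw [eq_bot_iff]
  intro x hx
  have hzw : z * (w : H) ≠ 1 := fun h => by
    have hzi : z * z = 1 := by rw [← pow_two, ← hz, pow_orderOf_eq_one]
    exact hwz (Subtype.ext (mul_left_cancel (h.trans hzi.symm)))
  have h1 := hinv (z * w) (E.mul_mem hzE w.2) hzw x hx
  have h2 := hinv w w.2 (fun h => hw1 (Subtype.ext h)) x hx
  have h3 := hinv z hzE (fun h => hne (Subtype.ext h)) x⁻¹ (N.inv_mem hx)
  have h4 : z * (w : H) * x * (z * (w : H))⁻¹ = x := by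
    calc z * (w : H) * x * (z * (w : H))⁻¹ = z * ((w : H) * x * (w : H)⁻¹) * z⁻¹ := by simp [mul_assoc]
      _ = x := by rw [h2, h3, inv_inv]
  rw [h1] at h4
  rw [Subgroup.mem_bot]
  by_contra hx1
  have hzc : x ∈ N ⊓ Subgroup.centralizer ({z} : Set H) := by
    refine ⟨hx, Subgroup.mem_centralizer_singleton_iff.2 ?_⟩
    have := hinv z hzE (fun h => hne (Subtype.ext h)) x hx
    rw [h4] at this
    calc x * z = z * x * z⁻¹ * z := by rw [this]
      _ = z * x := by simp
  rw [hN N ‹_› hNt, Subgroup.mem_bot] at hzc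
  exact hx1 hzc


/-- Let H be a finite group and z an involution such that every proper normal subgroup of H meets the centralizer of z trivially, and suppose z lies in a Klein four-subgroup E of H all three of whose involutions are conjugate to z in H. Then H has no non-trivial abelian normal subgroup. -/
theorem result {H : Type*} [Group H] [Finite H] (z : H) (hz : orderOf z = 2) (hN : ∀ N : Subgroup H, N.Normal → N ≠ ⊤ → N ⊓ Subgroup.centralizer ({z} : Set H) = ⊥) (E : Subgroup H) (hE : IsKleinFour ↥E) (hzE : z ∈ E) (hc : ∀ e ∈ E, e ≠ 1 → IsConj z e) (N : Subgroup H) [N.Normal] (hab : IsMulCommutative ↥N) : N = ⊥ := by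
  by_contra hne
  have hNt : N = ⊤ := by
    by_contra h
    exact hne (eq_bot_of_ne_top z hz hN E hE hzE hc N h)
  subst hNt
  haveI : Fintype E := Fintype.ofFinite _
  classical
  have h4 : Fintype.card E = 4 := by rw [← Nat.card_eq_fintype_card]; exact hE.card_four
  have : (Finset.univ : Finset E) ⊆ {1, ⟨z, hzE⟩} := fun w _ => by
    rw [Finset.mem_insert, Finset.mem_singleton]
    refine (em (w = 1)).imp id fun hw => ?_
    obtain ⟨c, hc⟩ := isConj_iff.1 (hc w w.2 (fun h => hw (Subtype.ext h)))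
    have := hab.is_comm.comm (⟨c, trivial⟩ : (⊤ : Subgroup H)) ⟨z, trivial⟩
    have e : c * z = z * c := congrArg Subtype.val this
    exact Subtype.ext (by rw [← hc, e]; simp)
  have := Finset.card_le_card this
  rw [Finset.card_univ, h4] at this
  exact absurd (this.trans Finset.card_le_two) (by omega)

end Cfsg.Agent.S2008
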