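import Cfsg.Statements.S2034
import Cfsg.Agent.Lib.SchurMult.MultMathieu
-- import your own Cfsg.Agent.* helpers here

set_option autoImplicit false
open Cfsg

namespace Cfsg.Agent.S2034

/-- The Schur multiplier of the Mathieu group M₁₁ (the stabiliser of a dodecad and one of its points in the automorphism group of the length-24 binary code) is trivial; here the Schur multiplier is described through stem extensions, as in the definitions: surjective homomorphisms onto the group from a finite group, whose kernel is central in that finite group and contained in that finite group's commutator subgroup. -/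
theorem result : Cfsg.HasCyclicSchurMultiplier ↥Cfsg.Spor.M11 1 := by
  have key : ∀ H : Subgroup (Equiv.Perm Cfsg.GolayPt), Cfsg.Agent.Lib.Golay.gM11 = H →
      Cfsg.HasCyclicSchurMultiplier H 1 := by
    rintro _ rfl
    exact Cfsg.Agent.Lib.SchurMult.Mathieu.hasTrivial_gM11
  exact key _ (by rw [Cfsg.Agent.Lib.Golay.gM11_eq, Cfsg.Spor.M11, Cfsg.Spor.M12, Cfsg.Agent.Lib.Golay.d0_eq]; rfl)

end Cfsg.Agent.S2034
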