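import Cfsg.Statements.S2040
import Cfsg.Agent.Lib.HallJanko.Cover
import Cfsg.Agent.Lib.HallJanko.Multiplier

set_option autoImplicit false
open Cfsg

namespace Cfsg.Agent.S2040

/-- The Schur multiplier of the Hall–Janko group J₂ (the icosian reflection group modulo its centre) is cyclic of order 2; here the Schur multiplier is described through stem extensions, as in the definitions: surjective homomorphisms onto the group from a finite group, whose kernel is central in that finite group and contained in that finite group's commutator subgroup. -/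
theorem result : Cfsg.HasCyclicSchurMultiplier Cfsg.Spor.J2 2 := by
  haveI := Cfsg.Agent.Lib.HallJanko.finite_twoJ2
  haveI : Finite Cfsg.Spor.J2 := Nat.finite_of_card_ne_zero (by
    rw [Cfsg.Agent.Lib.HallJanko.card_J2]; norm_num)
  let e := Cfsg.Agent.Lib.HallJanko.j2Equiv100
  let σ : Cfsg.Spor.twoJ2 →* Cfsg.Spor.J2 := QuotientGroup.mk' (Subgroup.center Cfsg.Spor.twoJ2)
  have hk : σ.ker = Subgroup.center Cfsg.Spor.twoJ2 := QuotientGroup.ker_mk' _
  refine Cfsg.Agent.Lib.SchurMult.hasCyclic_of_cover σ (MulEquiv.refl _)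
    ⟨QuotientGroup.mk'_surjective _, hk.le, by rw [hk]; exact Cfsg.Agent.Lib.HallJanko.center_le_commutator⟩
    Nat.prime_two.squarefree (by rw [hk]; exact Cfsg.Agent.Lib.HallJanko.card_center) fun Δ _ _ τ hτ => ?_
  have hker : (e.toMonoidHom.comp τ).ker = τ.ker := by ext x; simp
  rw [← hker]
  exact Cfsg.Agent.Lib.HallJanko.mult_le_two Δ _
    ⟨e.surjective.comp hτ.1, hker ▸ hτ.2.1, hker ▸ hτ.2.2⟩

end Cfsg.Agent.S2040
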