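import Cfsg.Statements.S2086

import Cfsg.Agent.Lib.SchurMult.SLn
import Cfsg.Agent.Lib.SchurMult.SLTwo
import Cfsg.Agent.Lib.SchurAlt.SL2
import Cfsg.Agent.Lib.Classical.Order
set_option autoImplicit false
open Cfsg

namespace Cfsg.Agent.S2086

/-- Schur multipliers of the linear groups: for n ≥ 2 and a field F with q elements (q ≥ 4 when n = 2), apart from the five exceptional pairs (n, q) = (2, 4), (2, 9), (3, 2), (3, 4), (4, 2), the Schur multiplier of PSL_n(F) is cyclic of order gcd(n, q − 1); here the Schur multiplier is described through stem extensions, as in the definitions. -/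
theorem result {F : Type*} [Field F] [Fintype F] {q : ℕ} (hF : Fintype.card F = q) (n : ℕ) (hn : 2 ≤ n) (h2 : n = 2 → 4 ≤ q) (hexc : (n, q) ∉ ({(2, 4), (2, 9), (3, 2), (3, 4), (4, 2)} : Set (ℕ × ℕ))) : Cfsg.HasCyclicSchurMultiplier (Matrix.ProjectiveSpecialLinearGroup (Fin n) F) (Nat.gcd n (q - 1)) := by
  classical
  simp only [Set.mem_insert_iff, Set.mem_singleton_iff, Prod.mk.injEq, not_or, not_and] at hexc
  obtain ⟨e24, e29, e32, e34, e42⟩ := hexc
  subst hF
  have : Nonempty (Fin n) := ⟨⟨0, by omega⟩⟩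
  set Γ := Matrix.SpecialLinearGroup (Fin n) F
  have hperf : commutator Γ = ⊤ := by
    by_cases h : n = 2
    · subst h; exact Cfsg.Agent.Lib.SchurAlt.sl_perfect (h2 rfl)
    · exact Cfsg.Agent.Lib.Classical.SL_commutator_eq_top (by rw [Fintype.card_fin]; omega)
  have htriv : Cfsg.HasCyclicSchurMultiplier Γ 1 := by
    by_cases h : n = 2
    · subst h; exact Cfsg.Agent.Lib.SchurMult.SLTwo.hasTrivial (e24 rfl) (e29 rfl)
    · exact Cfsg.Agent.Lib.SchurMult.SLn.hasTrivial (by omega) (fun h3 => ⟨e32 h3, e34 h3⟩) e42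
  let σ : Γ →* Matrix.ProjectiveSpecialLinearGroup (Fin n) F := QuotientGroup.mk' (Subgroup.center Γ)
  have hσ : Cfsg.IsStemExtension σ :=
    ⟨QuotientGroup.mk'_surjective _, (QuotientGroup.ker_mk' _).le, by rw [hperf]; exact le_top⟩
  have hcard : Nat.card (Subgroup.center Γ) = Nat.gcd n (Fintype.card F - 1) := by
    rw [Cfsg.Agent.Lib.Classical.card_center_SL, Fintype.card_fin]
  have : IsCyclic (Subgroup.center Γ) :=
    isCyclic_of_injective (Matrix.SpecialLinearGroup.center_equiv_rootsOfUnity' (R := F) (n := Fin n) ⟨0, by omega⟩).toMonoidHom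
      (MulEquiv.injective _)
  refine Cfsg.Agent.Lib.SchurMult.hasSchurMultiplier_of_universal σ hσ hperf htriv ?_
  exact (MulEquiv.subgroupCongr (QuotientGroup.ker_mk' (Subgroup.center Γ))).trans
    (hcard ▸ (zmodCyclicMulEquiv (G := Subgroup.center Γ) inferInstance).symm)

end Cfsg.Agent.S2086
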