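import Cfsg.Statements.S3958
import Cfsg.Agent.Lib.SchurMult.Proj

set_option autoImplicit false
universe u v
open Cfsg

namespace Cfsg.Agent.S3958

open Cfsg.Agent.Lib.SchurMult in
theorem kernels_onto {Q : Type*} [Group Q] [Finite Q] {Γ : Type*} [Group Γ] {σ : Γ →* Q}
    (hσ : Cfsg.IsStemExtension σ) {η : UGrp (stdPres Q) →* Γ} (hη : σ.comp η = proj (stdPres Q))
    (hinj : ∀ m ∈ mult (stdPres Q), η m = 1 → m = 1) {Δ : Type*} [Group Δ] (τ : Δ →* Q)
    (hτ : Cfsg.IsStemExtension τ) : ∃ π : σ.ker →* τ.ker, Function.Surjective π := by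
  obtain ⟨f, hf, hfe⟩ := exists_surj_mult _ (stdPres_surjective Q) hσ hη
  have hfi : Function.Injective f := by
    rw [injective_iff_map_eq_one]
    intro m hm
    exact Subtype.ext (hinj m m.2 (by rw [← hfe, hm]; rfl))
  obtain ⟨η', hη'⟩ := exists_stem_lift (stdPres Q) hτ
  obtain ⟨g, hg, -⟩ := exists_surj_mult _ (stdPres_surjective Q) hτ hη'
  exact ⟨g.comp (MulEquiv.ofBijective f ⟨hfi, hf⟩).symm.toMonoidHom,
    hg.comp (MulEquiv.ofBijective f ⟨hfi, hf⟩).symm.surjective⟩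

/-- Let `σ : Γ →* Q` be a finite stem extension of the finite group `Q` with `Γ` of trivial Schur multiplier. Then `σ` is a Schur covering group of `Q`: for every finite stem extension `τ : Δ →* Q` with `Δ` in the same universe as `Q`, the kernel of `τ` is a homomorphic image of the kernel of `σ`. -/
theorem result {Q : Type u} [Group Q] [Finite Q] {Γ : Type v} [Group Γ] [Finite Γ] (σ : Γ →* Q) (hσ : Cfsg.IsStemExtension σ) (hΓ : Cfsg.HasCyclicSchurMultiplier Γ 1) (Δ : Type u) [Group Δ] [Finite Δ] (τ : Δ →* Q) (hτ : Cfsg.IsStemExtension τ) : ∃ π : σ.ker →* τ.ker, Function.Surjective π := by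
  obtain ⟨η, hη⟩ := Cfsg.Agent.Lib.SchurMult.exists_stem_lift (Cfsg.Agent.Lib.SchurMult.stdPres Q) hσ
  exact kernels_onto hσ hη (Cfsg.Agent.Lib.SchurMult.injective_of_trivial _
    (Cfsg.Agent.Lib.SchurMult.stdPres_surjective Q) hσ hη hΓ) τ hτ

end Cfsg.Agent.S3958
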