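import Cfsg.Statements.S2087
import Cfsg.Agent.Lib.SchurAlt.SL2
import Cfsg.Agent.Lib.SchurMult.CyclicBound
import Cfsg.Agent.S2117
import Cfsg.Agent.S0255
import Cfsg.Agent.S3958
-- import your own Cfsg.Agent.* helpers here

set_option autoImplicit false
open Cfsg

namespace Cfsg.Agent.S2087

/-- Exceptional Schur multiplier: over the field with 2 elements, PSL₃ has Schur multiplier cyclic of order 2 (here the Schur multiplier is described through stem extensions, as in the definitions). -/
theorem result {F : Type*} [Field F] [Fintype F] (hF : Fintype.card F = 2) : Cfsg.HasCyclicSchurMultiplier (Matrix.ProjectiveSpecialLinearGroup (Fin 3) F) 2 := by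
  classical
  haveI : Fact (Nat.Prime 7) := ⟨by norm_num⟩
  have h7 : Fintype.card (ZMod 7) = 7 := ZMod.card 7
  obtain ⟨e⟩ := Cfsg.Agent.S0255.result (F := ZMod 7) h7 hF
  have hst := Cfsg.Agent.Lib.SchurAlt.sl_stem (F := ZMod 7) (by omega)
  have hc := Cfsg.Agent.Lib.SchurAlt.card_ker_sl (F := ZMod 7) (by rw [h7]; decide)
  refine Cfsg.Agent.Lib.SchurMult.hasCyclic_of_cover _ e hst Nat.prime_two.squarefree hc
    fun Δ _ _ τ hτ => ?_
  refine Cfsg.Agent.Lib.SchurMult.card_ker_dvd_of_equiv e.symm ?_ hτ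
  refine Cfsg.Agent.Lib.SchurMult.hasCyclic_of_cover _ (MulEquiv.refl _) hst
    Nat.prime_two.squarefree hc fun Θ _ _ π hπ => ?_
  obtain ⟨f, hf⟩ := Cfsg.Agent.S3958.result _ hst
    (Cfsg.Agent.S2117.result (F := ZMod 7) (by omega) (by omega)) Θ π hπ
  exact (Subgroup.card_dvd_of_surjective f hf).trans hc.dvd

end Cfsg.Agent.S2087
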