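import Cfsg.Statements.S2093
import Cfsg.Agent.Lib.SchurMult.SpSix.Mult

set_option autoImplicit false
open Cfsg

namespace Cfsg.Agent.S2093

theorem map_symp {A B : Type*} [CommRing A] [CommRing B] (f : A →+* B)
    {g : Matrix (Fin 3 ⊕ Fin 3) (Fin 3 ⊕ Fin 3) A} (hg : g ∈ Matrix.symplecticGroup (Fin 3) A) :
    g.map f ∈ Matrix.symplecticGroup (Fin 3) B := by
  rw [SymplecticGroup.mem_iff] at hg ⊢
  have hJ : (Matrix.J (Fin 3) A).map f = Matrix.J (Fin 3) B := by
    ext i j
    rcases i with i | i <;> rcases j with j | j <;> fin_cases i <;> fin_cases j <;> simp [Matrix.J]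
  have := congrArg (fun M : Matrix (Fin 3 ⊕ Fin 3) (Fin 3 ⊕ Fin 3) A => M.map f) hg
  simp only [Matrix.map_mul, hJ, ← Matrix.transpose_map] at this
  exact this

theorem exists_iso {F : Type*} [Field F] [Fintype F] (hF : Fintype.card F = 2) :
    Nonempty (Cfsg.Agent.Lib.SchurMult.SpSix.Q ≃* Cfsg.PSp 3 F) := by
  let e : ZMod 2 ≃+* F := FiniteField.ringEquivOfCardEq (by rw [hF, ZMod.card])
  let φ : ↥(Matrix.symplecticGroup (Fin 3) (ZMod 2)) ≃* ↥(Matrix.symplecticGroup (Fin 3) F) :=
    { toFun := fun g => ⟨g.1.map e.toRingHom, map_symp (A := ZMod 2) (B := F) e.toRingHom g.2⟩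
      invFun := fun g => ⟨g.1.map e.symm.toRingHom, map_symp (A := F) (B := ZMod 2) e.symm.toRingHom g.2⟩
      left_inv := fun g => Subtype.ext (by ext i j; exact e.symm_apply_apply _)
      right_inv := fun g => Subtype.ext (by ext i j; exact e.apply_symm_apply _)
      map_mul' := fun g h => Subtype.ext (Matrix.map_mul (f := e.toRingHom)) }
  refine ⟨QuotientGroup.congr _ _ φ ?_⟩
  ext y
  constructor
  · rintro ⟨x, hx, rfl⟩
    rw [Subgroup.mem_center_iff]
    intro z
    obtain ⟨w, rfl⟩ := φ.surjective z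
    show φ w * φ x = φ x * φ w
    rw [← map_mul, Subgroup.mem_center_iff.1 hx w, map_mul]
  · intro hy
    obtain ⟨x, rfl⟩ := φ.surjective y
    refine ⟨x, Subgroup.mem_center_iff.2 fun w => φ.injective ?_, rfl⟩
    rw [map_mul, map_mul, Subgroup.mem_center_iff.1 hy]

/-- Exceptional Schur multiplier: over the field with 2 elements, PSp₆ has Schur multiplier cyclic of order 2 (here the Schur multiplier is described through stem extensions, as in the definitions). -/
theorem result {F : Type*} [Field F] [Fintype F] (hF : Fintype.card F = 2) : Cfsg.HasCyclicSchurMultiplier (Cfsg.PSp 3 F) 2 := by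
  obtain ⟨e⟩ := exists_iso hF
  obtain ⟨Γ, _, _, σ, hσ, hcard⟩ := Cfsg.Agent.Lib.SchurMult.SpSix.exists_cover
  exact Cfsg.Agent.Lib.SchurMult.hasCyclic_of_cover σ e hσ Nat.prime_two.squarefree hcard
    fun Δ _ _ τ hτ =>
      Cfsg.Agent.Lib.SchurMult.card_ker_dvd_of_equiv e.symm Cfsg.Agent.Lib.SchurMult.SpSix.hasTwo hτ

end Cfsg.Agent.S2093
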