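import Cfsg.Statements.S2098
import Cfsg.Agent.Lib.SchurMult.PlusEight.Mult

set_option autoImplicit false
open Cfsg

namespace Cfsg.Agent.S2098

/-- Exceptional Schur multiplier: over the field with 2 elements, PΩ⁺₈ (for the form Σ xᵢyᵢ) has Schur multiplier a four-group, the product of two cyclic groups of order 2 (here the Schur multiplier is described through stem extensions, as in the definitions). -/
theorem result {F : Type*} [Field F] [Fintype F] (hF : Fintype.card F = 2) : Cfsg.HasSchurMultiplier (Cfsg.POmega F (Cfsg.quadFormPlus 4 F)) (Multiplicative (ZMod 2 × ZMod 2)) := by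
  obtain ⟨e⟩ := Cfsg.Agent.Lib.SchurMult.PlusEight.exists_congr
    (FiniteField.ringEquivOfCardEq (K := ZMod 2) (K' := F) (by rw [hF, ZMod.card])) 4
  exact Cfsg.Agent.Lib.SchurMult.PlusEight.hasSchurMultiplier_transport e
    Cfsg.Agent.Lib.SchurMult.PlusEight.hasFour

end Cfsg.Agent.S2098
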