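import Cfsg.Statements.S2398

import Cfsg.Agent.Lib.SteinbergPres.Cover.Split
import Cfsg.Agent.Lib.SteinbergPres.Cover.UnivChecks
import Cfsg.Agent.S2395
set_option autoImplicit false
open Cfsg

namespace Cfsg.Agent.S2398

open Cfsg.Agent.Lib.Chev Cfsg.Agent.Lib.SteinbergPres.Cover

/-- Universality of the group Δ presented by Steinberg's generators with relators (R1), (R2), over a field with more than four elements (types G₂, B₂, D₄, F₄, E₆, E₇, E₈): for every central extension `π₁ : E → G₁` (surjective, central kernel) and every homomorphism `σ : Δ → G₁` there is exactly one homomorphism `τ : Δ → E` with `π₁ ∘ τ = σ`. In particular every central extension of Δ splits; together with the fact that Δ maps onto the Chevalley group with central kernel, this makes Δ the universal central extension of the Chevalley group. -/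
theorem result {K : Type*} [Field K] (hK5 : ∃ s : Finset K, 4 < s.card) (D : Cfsg.Lie.ChevalleyDatum) (hD : D ∈ [Cfsg.Lie.chevG2, Cfsg.Lie.chevB2, Cfsg.Lie.chevD4, Cfsg.Lie.chevF4, Cfsg.Lie.chevE6, Cfsg.Lie.chevE7, Cfsg.Lie.chevE8])
    {G₁ E : Type*} [Group G₁] [Group E] (π₁ : E →* G₁) (hπ : Function.Surjective π₁) (hc : π₁.ker ≤ Subgroup.center E)
    (σ : D.SteinbergCover K →* G₁) : ∃! τ : D.SteinbergCover K →* E, π₁.comp τ = σ := by
  obtain ⟨T, C, hcc, hu⟩ := exists_checked_univ hD
  have h2 : ∃ x : K, x ≠ 0 ∧ x ≠ 1 := by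
    obtain ⟨k, h0, h1, -⟩ := exists_split_one hK5
    exact ⟨k, h0, h1⟩
  have hperf := Cfsg.Agent.S2395.result (K := K) D hD fun _ => h2
  let X := coverGen C (coverHom C K) (fun r t hr => by rw [coverHom_gen C hr t]; rfl)
  obtain ⟨τ, hτ⟩ := exists_lift_hom π₁ hπ hc σ fun P hP hker => by
    obtain ⟨Y⟩ := exists_lift X (π := (MonoidHom.snd E (D.SteinbergCover K)).comp P.subtype)
      (fun g => by obtain ⟨p, hp, e⟩ := hP g; exact ⟨⟨p, hp⟩, e⟩) hker hcc hperf hu hK5
    exact exists_section (X := X) (fun r _ t => rfl) Y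
  exact ⟨τ, hτ, fun τ' hτ' => lift_unique hperf π₁ hc (hτ'.trans hτ.symm)⟩

end Cfsg.Agent.S2398
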