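import Cfsg.Statements.S2100

import Cfsg.Agent.Lib.SteinbergPres.Cover.Mult
import Cfsg.Agent.S2398
import Cfsg.Agent.S2397
import Cfsg.Agent.S1077
import Cfsg.Agent.S1078
set_option autoImplicit false
open Cfsg

namespace Cfsg.Agent.S2100

open Cfsg.Agent.Lib.Chev Cfsg.Agent.Lib.SteinbergPres.Cover

/-- Schur multipliers of the Chevalley groups of type G₂: over a field with q ≥ 5 elements the Schur multiplier of G₂(q) is trivial (here the Schur multiplier is described through stem extensions, as in the definitions); the cases q = 3 and q = 4 are exceptional and q = 2 gives a non-simple group. -/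
theorem result {F : Type*} [Field F] [Fintype F] (hF : 5 ≤ Fintype.card F) : Cfsg.HasCyclicSchurMultiplier ↥(Cfsg.Lie.chevG2.group F) 1 := by
  classical
  have hD : Cfsg.Lie.chevG2 ∈ [Cfsg.Lie.chevG2, Cfsg.Lie.chevB2, Cfsg.Lie.chevD4, Cfsg.Lie.chevF4,
      Cfsg.Lie.chevE6, Cfsg.Lie.chevE7, Cfsg.Lie.chevE8] := by simp
  have hK5 : ∃ s : Finset F, 4 < s.card := ⟨Finset.univ, by rw [Finset.card_univ]; omega⟩
  have hK : Cfsg.Lie.chevG2 ∈ [Cfsg.Lie.chevB2, Cfsg.Lie.chevG2] → ∃ x : F, x ≠ 0 ∧ x ≠ 1 := fun _ => by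
    obtain ⟨k, h0, h1, -⟩ := exists_split_one hK5
    exact ⟨k, h0, h1⟩
  obtain ⟨θ, hsurj, hker, -⟩ := Cfsg.Agent.S1077.result (K := F) Cfsg.Lie.chevG2 hD
  obtain ⟨e, -⟩ := Cfsg.Agent.S2397.result (K := F) Cfsg.Lie.chevG2 hD hK
  rw [Cfsg.Agent.S1078.result (K := F) Cfsg.Lie.chevG2 (by simp), MonoidHom.ker_eq_bot_iff] at hker
  refine hasCyclic_one_of_section fun Γ _ _ σ hs hc => ?_
  obtain ⟨τ, hτ, -⟩ := Cfsg.Agent.S2398.result hK5 Cfsg.Lie.chevG2 hD σ hs hc (θ.comp e.toMonoidHom)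
  exact exists_section_of_bijective (θ.comp e.toMonoidHom) ((show Function.Bijective θ from ⟨hker, hsurj⟩).comp e.bijective) σ τ hτ

end Cfsg.Agent.S2100
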