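import Cfsg.Statements.S2103

import Cfsg.Agent.Lib.SteinbergPres.Cover.SmallMult
import Cfsg.Agent.Lib.SteinbergPres.Cover.SmallChecks
import Cfsg.Agent.Lib.SteinbergPres.Cover.UnivChecks
import Cfsg.Agent.S1078
set_option autoImplicit false
open Cfsg

namespace Cfsg.Agent.S2103

open Cfsg.Agent.Lib.Chev Cfsg.Agent.Lib.SteinbergPres.Cover

/-- Schur multipliers of the Chevalley groups of type F₄: over a finite field with more than 2 elements the Schur multiplier of F₄(q) is trivial (here the Schur multiplier is described through stem extensions, as in the definitions); q = 2 is exceptional. -/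
theorem result {F : Type*} [Field F] [Fintype F] (hF : 3 ≤ Fintype.card F) : Cfsg.HasCyclicSchurMultiplier ↥(Cfsg.Lie.chevF4.group F) 1 := by
  classical
  have hD : Cfsg.Lie.chevF4 ∈ [Cfsg.Lie.chevG2, Cfsg.Lie.chevB2, Cfsg.Lie.chevD4, Cfsg.Lie.chevF4,
      Cfsg.Lie.chevE6, Cfsg.Lie.chevE7, Cfsg.Lie.chevE8] := by simp
  obtain ⟨θ, hsurj, hker, -⟩ := Cfsg.Agent.S1077.result (K := F) Cfsg.Lie.chevF4 hD
  rw [Cfsg.Agent.S1078.result (K := F) Cfsg.Lie.chevF4 (by simp), MonoidHom.ker_eq_bot_iff] at hker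
  refine hasCyclic_one_equiv (MulEquiv.ofBijective θ ⟨hker, hsurj⟩) ?_
  refine hasCyclic_of_lifts F4.checked cover_F4 hD (fun h => ?_) fun X Γ _ π hπ hc hperf => ?_
  · obtain ⟨x, -, hx⟩ := Finset.exists_mem_notMem_of_card_lt_card
      (s := ({0, 1} : Finset F)) (t := Finset.univ) (by
        rw [Finset.card_univ]
        exact lt_of_le_of_lt Finset.card_le_two (by omega))
    simp only [Finset.mem_insert, Finset.mem_singleton, not_or] at hx
    exact ⟨x, hx⟩
  · rcases (by omega : Fintype.card F = 3 ∨ Fintype.card F = 4 ∨ 4 < Fintype.card F) with h | h | h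
    · exact exists_lift_three X hπ hc hperf cover_F4 h three_F4
    · exact exists_lift_four X hπ hc hperf cover_F4 h four_F4
    · exact exists_lift X hπ hc cover_F4 hperf univ_F4 ⟨Finset.univ, by rwa [Finset.card_univ]⟩

end Cfsg.Agent.S2103
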