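import Cfsg.Statements.S2105
import Cfsg.Agent.Lib.SimplyLacedLift.Mult
import Cfsg.Agent.Lib.SimplyLacedLift.Checks
import Cfsg.Agent.S1077
import Cfsg.Agent.S1079
import Cfsg.Agent.S2395
import Cfsg.Agent.S2397
-- import your own Cfsg.Agent.* helpers here

set_option autoImplicit false
open Cfsg

namespace Cfsg.Agent.S2105

/-- Schur multipliers of the (adjoint, simple) Chevalley groups of type E₆: over a field with q elements the Schur multiplier is cyclic of order gcd(3, q − 1) (here the Schur multiplier is described through stem extensions, as in the definitions). -/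
theorem result {F : Type*} [Field F] [Fintype F] {q : ℕ} (hF : Fintype.card F = q) : Cfsg.HasCyclicSchurMultiplier ↥(Cfsg.Lie.chevE6.group F) (Nat.gcd 3 (q - 1)) := by
  subst hF
  obtain ⟨θ, -, hker, hθ⟩ := Cfsg.Agent.S1077.result (K := F) Cfsg.Lie.chevE6 (by simp)
  obtain ⟨e, he⟩ := Cfsg.Agent.S2397.result (K := F) Cfsg.Lie.chevE6 (by simp) (fun h => by
    simp only [List.mem_cons, List.not_mem_nil, or_false] at h
    rcases h with h | h <;> exact absurd (congrArg Cfsg.Lie.ChevalleyDatum.rank h) (by decide +kernel))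
  have hperf := Cfsg.Agent.S2395.result (K := F) Cfsg.Lie.chevE6 (by simp) (fun h => by
    simp only [List.mem_cons, List.not_mem_nil, or_false] at h
    rcases h with h | h <;> exact absurd (congrArg Cfsg.Lie.ChevalleyDatum.rank h) (by decide +kernel))
  have hn := Cfsg.Agent.Lib.SimplyLacedLift.card_ker Cfsg.Agent.Lib.Chev.E6.checked hθ e he
  rw [hker, Cfsg.Agent.S1079.result (K := F) rfl (Cfsg.Lie.chevE6, 3) (by simp)] at hn
  haveI : NeZero (Nat.gcd 3 (Fintype.card F - 1)) := ⟨by simp⟩
  refine Cfsg.Agent.Lib.SimplyLacedLift.hasCyclicSchurMultiplier Cfsg.Agent.Lib.Chev.E6.checked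
    Cfsg.Agent.Lib.SteinbergPres.Cover.cover_E6 Cfsg.Agent.Lib.SimplyLacedLift.lace_E6 hperf hn ?_
  rcases (Nat.dvd_prime (by norm_num : Nat.Prime 3)).1 (Nat.gcd_dvd_left 3 (Fintype.card F - 1)) with h | h
  · rw [h] at hn
    haveI := (Nat.card_eq_one_iff_unique.1 hn).1
    infer_instance
  · rw [h] at hn
    haveI : Fact (Nat.Prime 3) := ⟨by norm_num⟩
    exact isCyclic_of_prime_card hn

end Cfsg.Agent.S2105
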