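import Cfsg.Statements.S2107
import Cfsg.Agent.Lib.SimplyLacedLift.Mult
import Cfsg.Agent.Lib.SimplyLacedLift.Checks
import Cfsg.Agent.S1077
import Cfsg.Agent.S1078
import Cfsg.Agent.S2395
import Cfsg.Agent.S2397
-- import your own Cfsg.Agent.* helpers here

set_option autoImplicit false
open Cfsg

namespace Cfsg.Agent.S2107

/-- Schur multipliers of the Chevalley groups of type E₈: over every finite field the Schur multiplier of E₈(q) is trivial (here the Schur multiplier is described through stem extensions, as in the definitions). -/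
theorem result {F : Type*} [Field F] [Fintype F] : Cfsg.HasCyclicSchurMultiplier ↥(Cfsg.Lie.chevE8.group F) 1 := by
  obtain ⟨θ, -, hker, hθ⟩ := Cfsg.Agent.S1077.result (K := F) Cfsg.Lie.chevE8 (by simp)
  obtain ⟨e, he⟩ := Cfsg.Agent.S2397.result (K := F) Cfsg.Lie.chevE8 (by simp) (fun h => by
    simp only [List.mem_cons, List.not_mem_nil, or_false] at h
    rcases h with h | h <;> exact absurd (congrArg Cfsg.Lie.ChevalleyDatum.rank h) (by decide +kernel))
  have hperf := Cfsg.Agent.S2395.result (K := F) Cfsg.Lie.chevE8 (by simp) (fun h => by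
    simp only [List.mem_cons, List.not_mem_nil, or_false] at h
    rcases h with h | h <;> exact absurd (congrArg Cfsg.Lie.ChevalleyDatum.rank h) (by decide +kernel))
  have hn := Cfsg.Agent.Lib.SimplyLacedLift.card_ker Cfsg.Agent.Lib.Chev.E8.checked hθ e he
  rw [hker, Cfsg.Agent.S1078.result (K := F) Cfsg.Lie.chevE8 (by simp), Subgroup.card_bot] at hn
  refine Cfsg.Agent.Lib.SimplyLacedLift.hasCyclicSchurMultiplier Cfsg.Agent.Lib.Chev.E8.checked
    Cfsg.Agent.Lib.SteinbergPres.Cover.cover_E8 Cfsg.Agent.Lib.SimplyLacedLift.lace_E8 hperf hn ?_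
  haveI := (Nat.card_eq_one_iff_unique.1 hn).1
  infer_instance

end Cfsg.Agent.S2107
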