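import Cfsg.Statements.S2111
import Cfsg.Agent.Lib.Suz.Mult
import Cfsg.Agent.Lib.Suz.Bridge

set_option autoImplicit false
open Cfsg

namespace Cfsg.Agent.S2111

/-- Schur multipliers of the Suzuki groups: for q = 2^(2m+1) with m ≥ 2 the Schur multiplier of Sz(q) is trivial (here the Schur multiplier is described through stem extensions, as in the definitions); q = 8 is exceptional. -/
theorem result {F : Type*} [Field F] [Fintype F] {m : ℕ} (hm : 2 ≤ m) (hF : Fintype.card F = 2 ^ (2 * m + 1)) : Cfsg.HasCyclicSchurMultiplier ↥(Cfsg.Lie.Sz F (2 ^ (m + 1))) 1 := by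
  classical
  have hm1 : 1 ≤ m := by omega
  have c : Cfsg.Agent.Lib.Suz.Ctx F m := ⟨hm1, hF⟩
  haveI := Cfsg.Agent.Lib.Suz.charP_two c
  let e := Cfsg.Agent.Lib.Suz.lieEquiv c
  haveI : Subsingleton (Multiplicative (ZMod 1)) := Multiplicative.toAdd.injective.subsingleton
  refine ⟨⟨↥(Cfsg.Lie.Sz F (2 ^ (m + 1))), inferInstance, inferInstance, MonoidHom.id _,
    ⟨Function.surjective_id, ?_, ?_⟩, ?_⟩, ?_⟩
  · intro x hx; rw [MonoidHom.mem_ker] at hx; simp only [MonoidHom.id_apply] at hx; rw [hx]; exact one_mem _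
  · intro x hx; rw [MonoidHom.mem_ker] at hx; simp only [MonoidHom.id_apply] at hx; rw [hx]; exact one_mem _
  · refine ⟨{ toFun := fun _ => 1, invFun := fun _ => 1, left_inv := ?_, right_inv := fun _ => Subsingleton.elim _ _,
              map_mul' := fun _ _ => Subsingleton.elim _ _ }⟩
    intro x
    exact Subtype.ext (MonoidHom.mem_ker.1 x.2).symm
  intro Γ _ _ σ hs
  refine ⟨1, fun x => ⟨1, ?_⟩⟩
  have hs' : Cfsg.IsStemExtension (e.symm.toMonoidHom.comp σ) := by
    obtain ⟨h1, h2, h3⟩ := hs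
    have hk : (e.symm.toMonoidHom.comp σ).ker = σ.ker := by
      ext y
      simp [MonoidHom.mem_ker]
    exact ⟨e.symm.surjective.comp h1, hk ▸ h2, hk ▸ h3⟩
  have h := Cfsg.Agent.Lib.Suz.stem_trivial c hm _ hs'
  have : (x : Γ) ∈ (e.symm.toMonoidHom.comp σ).ker := by
    rw [MonoidHom.mem_ker, MonoidHom.comp_apply, MonoidHom.mem_ker.1 x.2, map_one]
  rw [h, Subgroup.mem_bot] at this
  exact Subtype.ext this.symm

end Cfsg.Agent.S2111
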