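import Cfsg.Statements.S2112
import Cfsg.Agent.Lib.Suz8.Bound
import Cfsg.Agent.Lib.Suz8.Cover
import Cfsg.Agent.Lib.Suz.Bridge
-- import your own Cfsg.Agent.* helpers here

set_option autoImplicit false
open Cfsg

namespace Cfsg.Agent.S2112

/-- Exceptional Schur multiplier: the Suzuki group Sz(8), built over the field with 8 elements using the map x ↦ x⁴, has Schur multiplier a four-group, the product of two cyclic groups of order 2 (here the Schur multiplier is described through stem extensions, as in the definitions). -/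
theorem result {F : Type*} [Field F] [Fintype F] (hF : Fintype.card F = 8) : Cfsg.HasSchurMultiplier ↥(Cfsg.Lie.Sz F 4) (Multiplicative (ZMod 2 × ZMod 2)) := by
  have c : Cfsg.Agent.Lib.Suz.Ctx F 1 := ⟨le_rfl, hF⟩
  haveI := Cfsg.Agent.Lib.Suz.charP_two c
  let e : ↥(Cfsg.Sz F 1) ≃* ↥(Cfsg.Lie.Sz F 4) := Cfsg.Agent.Lib.Suz.lieEquiv c
  obtain ⟨Γ, _, _, σ, ⟨h1, h2, h3⟩, ⟨i⟩⟩ := Cfsg.Agent.Lib.Suz8.exists_cover c
  refine ⟨⟨Γ, inferInstance, inferInstance, e.toMonoidHom.comp σ, ?_, ?_⟩, ?_⟩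
  · have hk : (e.toMonoidHom.comp σ).ker = σ.ker := by ext y; simp [MonoidHom.mem_ker]
    exact ⟨e.surjective.comp h1, hk ▸ h2, hk ▸ h3⟩
  · have hk : (e.toMonoidHom.comp σ).ker = σ.ker := by ext y; simp [MonoidHom.mem_ker]
    exact ⟨(MulEquiv.subgroupCongr hk).trans i⟩
  intro Δ _ _ τ hτ
  have hk : (e.symm.toMonoidHom.comp τ).ker = τ.ker := by ext y; simp [MonoidHom.mem_ker]
  have hτ' : Cfsg.IsStemExtension (e.symm.toMonoidHom.comp τ) :=
    ⟨e.symm.surjective.comp hτ.1, hk ▸ hτ.2.1, hk ▸ hτ.2.2⟩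
  obtain ⟨π, hπ⟩ := Cfsg.Agent.Lib.Suz8.kernel_image c _ hτ'
  exact ⟨(MulEquiv.subgroupCongr hk).toMonoidHom.comp π, (MulEquiv.subgroupCongr hk).surjective.comp hπ⟩

end Cfsg.Agent.S2112
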