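import Cfsg.Statements.S3957
import Cfsg.Agent.Lib.SchurMult.Proj

set_option autoImplicit false
universe u v
open Cfsg

namespace Cfsg.Agent.S3957


/-- Let `Q` be a finite group with Schur multiplier `A` and let `τ : Δ →* Q` be a finite stem extension, `Δ` in the universe of `Q`. Then there is a finite stem extension `σ : Γ →* Q` with kernel isomorphic to `A` (a Schur covering group) and a surjective homomorphism `β : Γ →* Δ` with `τ ∘ β = σ`. -/
theorem result {Q : Type u} [Group Q] [Finite Q] {A : Type v} [CommGroup A] (hA : Cfsg.HasSchurMultiplier Q A) {Δ : Type u} [Group Δ] [Finite Δ] (τ : Δ →* Q) (hτ : Cfsg.IsStemExtension τ) : ∃ (Γ : Type u) (_ : Group Γ) (_ : Finite Γ) (σ : Γ →* Q), Cfsg.IsStemExtension σ ∧ Nonempty (σ.ker ≃* A) ∧ ∃ β : Γ →* Δ, Function.Surjective β ∧ τ.comp β = σ := by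
  have hs := Cfsg.Agent.Lib.SchurMult.stdPres_surjective Q
  obtain ⟨η, hη⟩ := Cfsg.Agent.Lib.SchurMult.exists_stem_lift (Cfsg.Agent.Lib.SchurMult.stdPres Q) hτ
  obtain ⟨L, hLle, hL⟩ := Cfsg.Agent.Lib.SchurMult.exists_compl _ η.ker
    (Cfsg.Agent.Lib.SchurMult.ker_lift_le _ hη) fun z hz => by
      obtain ⟨m, hm, e⟩ := Cfsg.Agent.Lib.SchurMult.ker_le_map_mult _ hs hτ hη
        (show η z ∈ τ.ker by
          rw [MonoidHom.mem_ker, Cfsg.Agent.Lib.SchurMult.lift_apply _ hη]; exact hz)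
      refine ⟨z * m⁻¹, by rw [MonoidHom.mem_ker, map_mul, map_inv, e, mul_inv_cancel], ?_⟩
      rw [map_mul, map_inv, ((Cfsg.Agent.Lib.SchurMult.mem_mult_iff _).mp hm).2, inv_one, mul_one]
  haveI := hL.normal
  obtain ⟨hfin, hst, ⟨e⟩⟩ := Cfsg.Agent.Lib.SchurMult.cover_of_compl _ hs hL
  obtain ⟨-, ⟨e'⟩⟩ := Cfsg.Agent.Lib.SchurMult.mult_equiv _ hs hA
  refine ⟨_, inferInstance, hfin, _, hst, ⟨e.trans e'⟩, QuotientGroup.lift L η hLle, fun g => ?_, ?_⟩
  · obtain ⟨z, rfl⟩ := Cfsg.Agent.Lib.SchurMult.lift_surjective _ hs hτ hη g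
    exact ⟨QuotientGroup.mk' L z, rfl⟩
  · exact QuotientGroup.monoidHom_ext _ hη

end Cfsg.Agent.S3957
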