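import Cfsg.Statements.S3961
import Cfsg.Agent.Lib.SchurMult.Proj

set_option autoImplicit false
universe u v
open Cfsg

namespace Cfsg.Agent.S3961

open scoped commutatorElement

theorem hom_unique_of_perfect {G X Y : Type*} [Group G] [Group X] [Group Y] (hG : Group.IsPerfect G)
    (ξ : X →* Y) (hc : ξ.ker ≤ Subgroup.center X) (a b : G →* X) (h : ξ.comp a = ξ.comp b) :
    a = b := by
  haveI := hG
  have hle : commutator G ≤ a.eqLocus b := by
    rw [commutator_eq_closure, Subgroup.closure_le]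
    rintro _ ⟨x, y, rfl⟩
    have hz : ∀ t, (b t)⁻¹ * a t ∈ Subgroup.center X := fun t => hc (by
      rw [MonoidHom.mem_ker, map_mul, map_inv]
      have := DFunLike.congr_fun h t
      simp only [MonoidHom.comp_apply] at this
      rw [this, inv_mul_cancel])
    show a ⁅x, y⁆ = b ⁅x, y⁆
    rw [map_commutatorElement, map_commutatorElement]
    obtain ⟨z, hzx, ea⟩ : ∃ z ∈ Subgroup.center X, a x = b x * z := ⟨_, hz x, by group⟩
    obtain ⟨z', hzy, eb⟩ : ∃ z ∈ Subgroup.center X, a y = b y * z := ⟨_, hz y, by group⟩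
    have h1 : ∀ t, z * t = t * z := fun t => (Subgroup.mem_center_iff.mp hzx t).symm
    have h2 : ∀ t, z' * t = t * z' := fun t => (Subgroup.mem_center_iff.mp hzy t).symm
    rw [ea, eb, commutatorElement_def, commutatorElement_def]
    calc b x * z * (b y * z') * (b x * z)⁻¹ * (b y * z')⁻¹
        = b x * (z * b y) * (z' * (z⁻¹ * ((b x)⁻¹ * z'⁻¹))) * (b y)⁻¹ := by group
      _ = b x * (b y * z) * ((z⁻¹ * ((b x)⁻¹ * z'⁻¹)) * z') * (b y)⁻¹ := by rw [h1, h2]
      _ = b x * b y * (b x)⁻¹ * (b y)⁻¹ := by group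
  ext g
  exact hle (by rw [Group.IsPerfect.commutator_eq_top]; exact Subgroup.mem_top g)

open Cfsg.Agent.Lib.SchurMult in
theorem commutator_perfect {Q : Type*} [Group Q] (hQ : Group.IsPerfect Q) :
    Group.IsPerfect (commutator (UGrp (stdPres Q))) ∧
    Function.Surjective ((proj (stdPres Q)).comp (commutator (UGrp (stdPres Q))).subtype) := by
  haveI := hQ
  set U := UGrp (stdPres Q)
  have hs : Function.Surjective ((proj (stdPres Q)).comp (commutator U).subtype) := by
    intro q
    have hq : q ∈ (commutator U).map (proj (stdPres Q)) := by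
      rw [commutator_def, Subgroup.map_commutator,
        Subgroup.map_top_of_surjective _ (proj_surjective _ (stdPres_surjective Q)),
        ← commutator_def, Group.IsPerfect.commutator_eq_top]
      exact Subgroup.mem_top q
    obtain ⟨u, hu, e⟩ := hq
    exact ⟨⟨u, hu⟩, e⟩
  refine ⟨⟨?_⟩, hs⟩
  rw [eq_top_iff]
  rintro ⟨v, hv⟩ -
  suffices h : v ∈ (commutator (commutator U)).map (commutator U).subtype by
    obtain ⟨w, hw, e⟩ := h
    rwa [← show w = (⟨v, hv⟩ : commutator U) from Subtype.ext e]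
  rw [commutator_eq_closure, Subgroup.mem_closure] at hv
  apply hv
  rintro _ ⟨x, y, rfl⟩
  have hd : ∀ t : U, ∃ c : commutator U, ((c : U))⁻¹ * t ∈ Subgroup.center U := by
    intro t
    obtain ⟨c, hc⟩ := hs (proj _ t)
    refine ⟨c, ker_proj_le_center _ ?_⟩
    rw [MonoidHom.mem_ker, map_mul, map_inv]
    rw [MonoidHom.comp_apply, Subgroup.coe_subtype] at hc
    rw [hc, inv_mul_cancel]
  obtain ⟨a, ha⟩ := hd x
  obtain ⟨b, hb⟩ := hd y
  refine ⟨⁅a, b⁆, Subgroup.commutator_mem_commutator (Subgroup.mem_top _) (Subgroup.mem_top _), ?_⟩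
  rw [map_commutatorElement, Subgroup.coe_subtype]
  obtain ⟨z, hzx, ea⟩ : ∃ z ∈ Subgroup.center U, x = a * z := ⟨_, ha, by group⟩
  obtain ⟨z', hzy, eb⟩ : ∃ z ∈ Subgroup.center U, y = b * z := ⟨_, hb, by group⟩
  have h1 : ∀ t, z * t = t * z := fun t => (Subgroup.mem_center_iff.mp hzx t).symm
  have h2 : ∀ t, z' * t = t * z' := fun t => (Subgroup.mem_center_iff.mp hzy t).symm
  rw [ea, eb, commutatorElement_def, commutatorElement_def]
  symm
  calc (a : U) * z * ((b : U) * z') * ((a : U) * z)⁻¹ * ((b : U) * z')⁻¹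
      = (a : U) * (z * b) * (z' * (z⁻¹ * ((a : U)⁻¹ * z'⁻¹))) * (b : U)⁻¹ := by group
    _ = (a : U) * (b * z) * ((z⁻¹ * ((a : U)⁻¹ * z'⁻¹)) * z') * (b : U)⁻¹ := by rw [h1, h2]
    _ = (a : U) * b * (a : U)⁻¹ * (b : U)⁻¹ := by group

open Cfsg.Agent.Lib.SchurMult in
theorem perfect_stem_ker_central {G Δ Q : Type*} [Group G] [Group Δ] [Group Q]
    (hG : Group.IsPerfect G) {π : G →* Q} (hker : π.ker ≤ Subgroup.center G) {τ : Δ →* G}
    (hτ : Cfsg.IsStemExtension τ) :
    (π.comp τ).ker ≤ Subgroup.center Δ ∧ commutator Δ = ⊤ := by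
  haveI := hG
  have hperf : commutator Δ = ⊤ := by
    rw [eq_top_iff]
    intro d _
    have hd : τ d ∈ (commutator Δ).map τ := by
      rw [commutator_def, Subgroup.map_commutator, Subgroup.map_top_of_surjective _ hτ.1,
        ← commutator_def, Group.IsPerfect.commutator_eq_top]
      exact Subgroup.mem_top _
    obtain ⟨c, hc, e⟩ := hd
    have : c⁻¹ * d ∈ commutator Δ := hτ.2.2 (by
      rw [MonoidHom.mem_ker, map_mul, map_inv, e, inv_mul_cancel])
    have := mul_mem hc this
    rwa [mul_inv_cancel_left] at this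
  refine ⟨fun x hx => ?_, hperf⟩
  have hcen : ∀ y, ⁅x, y⁆ ∈ Subgroup.center Δ := fun y => hτ.2.1 (by
    rw [MonoidHom.mem_ker, map_commutatorElement, commutatorElement_eq_one_iff_mul_comm]
    exact (Subgroup.mem_center_iff.mp (hker hx) (τ y)).symm)
  let d : Δ →* Subgroup.center Δ :=
    { toFun := fun y => ⟨⁅x, y⁆, hcen y⟩
      map_one' := Subtype.ext (by simp)
      map_mul' := fun a b => Subtype.ext (by
        show ⁅x, a * b⁆ = ⁅x, a⁆ * ⁅x, b⁆
        rw [show ⁅x, a * b⁆ = ⁅x, a⁆ * (a * ⁅x, b⁆ * a⁻¹) by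
          simp only [commutatorElement_def]; group, Subgroup.mem_center_iff.mp (hcen b) a,
          mul_inv_cancel_right]) }
  rw [Subgroup.mem_center_iff]
  intro y
  have hle : commutator Δ ≤ d.ker := by
    rw [commutator_eq_closure, Subgroup.closure_le]
    rintro _ ⟨a, b, rfl⟩
    rw [SetLike.mem_coe, MonoidHom.mem_ker, map_commutatorElement,
      commutatorElement_eq_one_iff_mul_comm]
    exact Subtype.ext (Subgroup.mem_center_iff.mp (d b).2 (d a))
  have h1 : ⁅x, y⁆ = 1 := congrArg Subtype.val (hle (hperf ▸ Subgroup.mem_top y) : d y = 1)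
  exact (commutatorElement_eq_one_iff_mul_comm.mp h1).symm

/-- Let `π : G →* Q` be a surjective homomorphism with central kernel from a finite perfect group `G` (a perfect cover of `Q`). Then `π` is universal, in the sense that every surjective homomorphism `ξ : X →* Q` with central kernel from a group `X` in the universe of `G` admits a homomorphism `η : G →* X` with `ξ ∘ η = π`, if and only if `G` has trivial Schur multiplier. -/
theorem result {G : Type u} {Q : Type v} [Group G] [Group Q] [Finite G] (hG : Group.IsPerfect G) (π : G →* Q) (hπ : Function.Surjective π) (hker : π.ker ≤ Subgroup.center G) : (∀ (X : Type u) [Group X] (ξ : X →* Q), Function.Surjective ξ → ξ.ker ≤ Subgroup.center X → ∃ η : G →* X, ξ.comp η = π) ↔ Cfsg.HasCyclicSchurMultiplier G 1 := by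
  haveI := Finite.of_surjective π hπ
  haveI := hG
  constructor
  · intro huniv
    rw [Cfsg.Agent.Lib.SchurMult.hasCyclic_one_iff _ (Cfsg.Agent.Lib.SchurMult.stdPres_surjective G)]
    obtain ⟨L, hL⟩ := Cfsg.Agent.Lib.SchurMult.exists_compl_ker (Cfsg.Agent.Lib.SchurMult.stdPres G)
    haveI := hL.normal
    obtain ⟨hfin, hst, ⟨e⟩⟩ := Cfsg.Agent.Lib.SchurMult.cover_of_compl _
      (Cfsg.Agent.Lib.SchurMult.stdPres_surjective G) hL
    set τ := QuotientGroup.lift L (Cfsg.Agent.Lib.SchurMult.proj _) hL.le_ker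
    obtain ⟨hc, hperf⟩ := perfect_stem_ker_central hG hker hst
    obtain ⟨η, hη⟩ := huniv _ (π.comp τ) (hπ.comp hst.1) hc
    have hid : τ.comp η = MonoidHom.id G :=
      hom_unique_of_perfect hG π hker _ _ (by rw [← MonoidHom.comp_assoc, hη, MonoidHom.comp_id])
    have hsurj : ∀ d, ∃ g, η g = d := by
      have hle : commutator _ ≤ η.range := by
        rw [commutator_eq_closure, Subgroup.closure_le]
        rintro _ ⟨a, b, rfl⟩
        refine ⟨⁅τ a, τ b⁆, ?_⟩
        have hz : ∀ t, (η (τ t))⁻¹ * t ∈ Subgroup.center _ := fun t => hst.2.1 (by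
          rw [MonoidHom.mem_ker, map_mul, map_inv, ← MonoidHom.comp_apply τ η, hid,
            MonoidHom.id_apply, inv_mul_cancel])
        obtain ⟨z, hzx, ea⟩ : ∃ z ∈ Subgroup.center _, a = η (τ a) * z := ⟨_, hz a, by group⟩
        obtain ⟨z', hzy, eb⟩ : ∃ z ∈ Subgroup.center _, b = η (τ b) * z := ⟨_, hz b, by group⟩
        have h1 : ∀ t, z * t = t * z := fun t => (Subgroup.mem_center_iff.mp hzx t).symm
        have h2 : ∀ t, z' * t = t * z' := fun t => (Subgroup.mem_center_iff.mp hzy t).symm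
        conv_rhs => rw [ea, eb]
        rw [map_commutatorElement, commutatorElement_def, commutatorElement_def]
        generalize η (τ a) = u, η (τ b) = v
        symm
        calc u * z * (v * z') * (u * z)⁻¹ * (v * z')⁻¹
            = u * (z * v) * (z' * (z⁻¹ * (u⁻¹ * z'⁻¹))) * v⁻¹ := by group
          _ = u * (v * z) * ((z⁻¹ * (u⁻¹ * z'⁻¹)) * z') * v⁻¹ := by rw [h1, h2]
          _ = u * v * u⁻¹ * v⁻¹ := by group
      intro d
      exact hle (hperf ▸ Subgroup.mem_top d)
    have hbot : τ.ker = ⊥ := by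
      rw [eq_bot_iff]
      intro d hd
      obtain ⟨g, rfl⟩ := hsurj d
      rw [MonoidHom.mem_ker, ← MonoidHom.comp_apply, hid, MonoidHom.id_apply] at hd
      rw [Subgroup.mem_bot, hd, map_one]
    rw [eq_bot_iff]
    intro m hm
    have : e.symm ⟨m, hm⟩ = 1 := Subtype.ext (Subgroup.mem_bot.mp (hbot.le (e.symm ⟨m, hm⟩).2))
    exact congrArg Subtype.val ((MulEquiv.map_eq_one_iff e.symm).mp this)
  · intro hΓ X _ ξ hξ hc
    have hσ : Cfsg.IsStemExtension π :=
      ⟨hπ, hker, by rw [Group.IsPerfect.commutator_eq_top]; exact le_top⟩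
    -- transport the universal central extension of the image
    obtain ⟨Q', _, e, _⟩ : ∃ (Q' : Type u) (_ : Group Q') (_ : Q ≃* Q'), Finite Q' :=
      ⟨G ⧸ π.ker, inferInstance, (QuotientGroup.quotientKerEquivOfSurjective π hπ).symm, inferInstance⟩
    have hs := Cfsg.Agent.Lib.SchurMult.stdPres_surjective Q'
    have hσ' : Cfsg.IsStemExtension (e.toMonoidHom.comp π) := by
      refine ⟨e.surjective.comp hπ, ?_, ?_⟩ <;> rw [show (e.toMonoidHom.comp π).ker = π.ker from MonoidHom.ker_mulEquiv_comp π e]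
      · exact hσ.2.1
      · exact hσ.2.2
    obtain ⟨η, hη⟩ := Cfsg.Agent.Lib.SchurMult.exists_stem_lift
      (Cfsg.Agent.Lib.SchurMult.stdPres Q') hσ'
    have hinj := Cfsg.Agent.Lib.SchurMult.injective_of_trivial _ hs hσ' hη hΓ
    obtain ⟨η₀, hη₀⟩ := Cfsg.Agent.Lib.SchurMult.exists_lift (Cfsg.Agent.Lib.SchurMult.stdPres Q')
      e.symm.toMonoidHom ξ hξ hc
    let r := η.comp (commutator (Cfsg.Agent.Lib.SchurMult.UGrp
      (Cfsg.Agent.Lib.SchurMult.stdPres Q'))).subtype
    have hr : Function.Surjective r := by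
      intro g
      have hg : g ∈ (commutator _).map η := by
        rw [commutator_def, Subgroup.map_commutator, Subgroup.map_top_of_surjective η
          (Cfsg.Agent.Lib.SchurMult.lift_surjective _ hs hσ' hη), ← commutator_def,
          Group.IsPerfect.commutator_eq_top]
        exact Subgroup.mem_top g
      obtain ⟨u, hu, rfl⟩ := hg
      exact ⟨⟨u, hu⟩, rfl⟩
    have hri : Function.Injective r := by
      rw [injective_iff_map_eq_one]
      intro u hu
      refine Subtype.ext (hinj _ ⟨?_, u.2⟩ hu)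
      exact Cfsg.Agent.Lib.SchurMult.ker_lift_le _ hη hu
    refine ⟨(η₀.comp (commutator _).subtype).comp
      (MulEquiv.ofBijective r ⟨hri, hr⟩).symm.toMonoidHom, MonoidHom.ext fun g => ?_⟩
    obtain ⟨u, rfl⟩ := hr g
    have h1 : (MulEquiv.ofBijective r ⟨hri, hr⟩).symm (r u) = u :=
      (MulEquiv.ofBijective r ⟨hri, hr⟩).symm_apply_apply u
    simp only [MonoidHom.comp_apply, MulEquiv.coe_toMonoidHom, h1, Subgroup.coe_subtype]
    have h2 : ξ (η₀ (u : Cfsg.Agent.Lib.SchurMult.UGrp (Cfsg.Agent.Lib.SchurMult.stdPres Q'))) =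
        e.symm (Cfsg.Agent.Lib.SchurMult.proj (Cfsg.Agent.Lib.SchurMult.stdPres Q') u) :=
      DFunLike.congr_fun hη₀ _
    rw [h2, ← DFunLike.congr_fun hη _]
    show e.symm (e (π (η u))) = π (η u)
    rw [MulEquiv.symm_apply_apply]

end Cfsg.Agent.S3961
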