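import Cfsg.Statements.S2118
import Cfsg.Agent.Lib.SchurAlt.Main
import Cfsg.Agent.Lib.SchurAlt.SL2
import Cfsg.Agent.S0254
import Cfsg.Agent.S3957
import Cfsg.Agent.S3961
-- import your own Cfsg.Agent.* helpers here

set_option autoImplicit false
open Cfsg

namespace Cfsg.Agent.S2118

/-- For the field with 9 elements, the special linear group SL₂ has Schur multiplier cyclic of order 3 (here the Schur multiplier is described through stem extensions, as in the definitions). -/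
theorem result {F : Type*} [Field F] [Fintype F] (hF : Fintype.card F = 9) : Cfsg.HasCyclicSchurMultiplier (Matrix.SpecialLinearGroup (Fin 2) F) 3 := by
  classical
  obtain ⟨e⟩ := Cfsg.Agent.S0254.result hF
  have hst := Cfsg.Agent.Lib.SchurAlt.sl_stem (F := F) (by omega)
  have hc := Cfsg.Agent.Lib.SchurAlt.card_ker_sl (F := F) (by rw [hF]; decide)
  have hA := Cfsg.Agent.Lib.SchurAlt.hasMultiplier (Or.inl rfl : (6 = 6 ∨ 6 = 7))
  have hQ : Cfsg.HasCyclicSchurMultiplier (Matrix.ProjectiveSpecialLinearGroup (Fin 2) F) 6 := by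
    obtain ⟨⟨Γ, _, _, σ, hσ, ⟨i⟩⟩, -⟩ := hA
    exact Cfsg.Agent.Lib.SchurMult.hasCyclic_of_cover σ e.symm hσ (by decide +kernel)
      (by rw [Nat.card_congr i.toEquiv, Nat.card_congr Multiplicative.toAdd, Nat.card_zmod])
      fun Δ _ _ τ hτ => Cfsg.Agent.Lib.SchurMult.card_ker_dvd_of_equiv e
        (Cfsg.Agent.Lib.SchurAlt.hasMultiplier (Or.inl rfl)) hτ
  obtain ⟨Γ, _, _, σ, hσ, ⟨i⟩, β, hβ, hρβ⟩ := Cfsg.Agent.S3957.result hQ _ hst
  set ρ := QuotientGroup.mk' (Subgroup.center (Matrix.SpecialLinearGroup (Fin 2) F))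
  have hle : β.ker ≤ σ.ker := fun x hx => by
    rw [MonoidHom.mem_ker, ← hρβ, MonoidHom.comp_apply, MonoidHom.mem_ker.1 hx, map_one]
  have hβst : Cfsg.IsStemExtension β := ⟨hβ, hle.trans hσ.2.1, hle.trans hσ.2.2⟩
  have hi : Nat.card σ.ker = 6 := by
    rw [Nat.card_congr i.toEquiv, Nat.card_congr Multiplicative.toAdd, Nat.card_zmod]
  have hcomp : ∀ {Δ : Type _} [Group Δ] [Finite Δ] (τ : Δ →* Matrix.SpecialLinearGroup (Fin 2) F),
      Function.Surjective τ → Nat.card (ρ.comp τ).ker = Nat.card τ.ker * 2 := by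
    intro Δ _ _ τ hτ
    have h1 := τ.ker.card_mul_index
    rw [Subgroup.index_ker, MonoidHom.range_eq_top.2 hτ, Subgroup.card_top] at h1
    have h2 := (ρ.comp τ).ker.card_mul_index
    have hs : Function.Surjective (ρ.comp τ) := hst.1.comp hτ
    rw [Subgroup.index_ker, MonoidHom.range_eq_top.2 hs, Subgroup.card_top] at h2
    have h3 := ρ.ker.card_mul_index
    rw [Subgroup.index_ker, MonoidHom.range_eq_top.2 hst.1, Subgroup.card_top, hc] at h3
    rw [← h3, ← mul_assoc, ← h2] at h1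
    exact (Nat.eq_of_mul_eq_mul_right Nat.card_pos h1).symm
  refine Cfsg.Agent.Lib.SchurMult.hasCyclic_of_cover β (MulEquiv.refl _) hβst
    Nat.prime_three.squarefree ?_ fun Δ _ _ τ hτ => ?_
  · have := hcomp β hβ
    rw [hρβ, hi] at this
    omega
  · have hG : Group.IsPerfect (Matrix.SpecialLinearGroup (Fin 2) F) :=
      ⟨Cfsg.Agent.Lib.SchurAlt.sl_perfect (by omega)⟩
    obtain ⟨hcen, hperf⟩ := Cfsg.Agent.S3961.perfect_stem_ker_central hG hst.2.1 hτ
    have h6 := Cfsg.Agent.Lib.SchurMult.card_ker_dvd hQ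
      (τ := ρ.comp τ) ⟨hst.1.comp hτ.1, hcen, by rw [hperf]; exact le_top⟩
    rw [hcomp τ hτ.1] at h6
    exact Nat.dvd_of_mul_dvd_mul_right two_pos (show Nat.card τ.ker * 2 ∣ 3 * 2 from h6)

end Cfsg.Agent.S2118
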