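import Cfsg.Statements.S2126
import Cfsg.Agent.Lib.Suz.Aut

set_option autoImplicit false
open Cfsg

namespace Cfsg.Agent.S2126

/-- Outer automorphisms of the Suzuki groups: for q = 2^(2m+1) with m ≥ 1 the outer automorphism group of Sz(q) has order 2m + 1 (field automorphisms only). -/
theorem result {F : Type*} [Field F] [Fintype F] {m : ℕ} (hm : 1 ≤ m) (hF : Fintype.card F = 2 ^ (2 * m + 1)) : Nat.card (Cfsg.Out ↥(Cfsg.Lie.Sz F (2 ^ (m + 1)))) = 2 * m + 1 := by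
  classical
  have c : Cfsg.Agent.Lib.Suz.Ctx F m := ⟨hm, hF⟩
  haveI := Cfsg.Agent.Lib.Suz.charP_two c
  have h := Cfsg.Agent.Lib.Suz.card_out c
  let e := Cfsg.Agent.Lib.Suz.lieEquiv c
  let e' : MulAut ↥(Cfsg.Sz F m) ≃* MulAut ↥(Cfsg.Lie.Sz F (2 ^ (m + 1))) := MulAut.congr e
  rw [← h]
  refine Nat.card_congr (QuotientGroup.congr _ _ e' ?_).toEquiv.symm
  show (MulAut.conj : ↥(Cfsg.Sz F m) →* MulAut ↥(Cfsg.Sz F m)).range.map e'.toMonoidHom = _
  rw [MonoidHom.map_range]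
  ext β
  constructor
  · rintro ⟨g, rfl⟩
    refine ⟨e g, MulEquiv.ext fun y => ?_⟩
    show e g * y * (e g)⁻¹ = e (g * e.symm y * g⁻¹)
    simp
  · rintro ⟨g, rfl⟩
    refine ⟨e.symm g, MulEquiv.ext fun y => ?_⟩
    show e (e.symm g * e.symm y * (e.symm g)⁻¹) = g * y * g⁻¹
    simp

end Cfsg.Agent.S2126
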