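import Cfsg.Statements.S2127
import Cfsg.Agent.Lib.ReeAut.Main
-- import your own Cfsg.Agent.* helpers here

set_option autoImplicit false
open Cfsg

namespace Cfsg.Agent.S2127

/-- Outer automorphisms of the small Ree groups: for q = 3^(2m+1) with m ≥ 1 the outer automorphism group of ²G₂(q) has order 2m + 1 (field automorphisms only). -/
theorem result {K : Type*} [Field K] [Fintype K] {m : ℕ} (hm : 1 ≤ m) (hK : Fintype.card K = 3 ^ (2 * m + 1)) : Nat.card (Cfsg.Out ↥(Cfsg.Lie.twistedG2 K (3 ^ m))) = 2 * m + 1 := by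
  obtain ⟨h3, θ, hθ⟩ := Cfsg.Agent.Lib.Chev.G2.exists_theta hK
  exact Cfsg.Agent.Lib.ReeAut.card_out θ hθ hK hm

end Cfsg.Agent.S2127
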