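import Cfsg.Statements.S2131
import Cfsg.Agent.Lib.Recog.JankoSpectrum

set_option autoImplicit false
open Cfsg
open Cfsg.Agent.Lib.Recog.Janko

namespace Cfsg.Agent.S2131

section
open Lib.Recog.Janko
open Equiv

/-- the position of a permutation in the table -/
def pos (g : Perm (Fin 5)) : ℕ := altPerm.idxOf (List.ofFn fun i => (g i).val)

/-- the five-cycle -/
def sA : Perm (Fin 5) := List.formPerm [0, 1, 2, 3, 4]

/-- the three-cycle -/
def sB : Perm (Fin 5) := List.formPerm [0, 1, 2]

/-- the list image -/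
def img (g : Perm (Fin 5)) : ℕ := altImg.getD (pos g) 0

lemma table_ok : ∀ g : Perm (Fin 5), Equiv.Perm.sign g = 1 →
    img g < 577 ∧ mulM (el (img g)) (el ixA) = el (img (g * sA)) ∧
      mulM (el (img g)) (el ixB) = el (img (g * sB)) ∧
      mulM (el ixT) (el (img g)) = mulM (el (img g)) (el ixT) ∧
      (g = 1 ∨ notOne (el (img g)) = true) ∧ notOne (mulM (el ixT) (el (img g))) = true := by
  decide +kernel

lemma img_one : el (img 1) = oneM := by decide +kernel

lemma gens_top : Subgroup.closure ({⟨sA, Perm.mem_alternatingGroup.2 (by decide +kernel)⟩,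
    ⟨sB, Perm.mem_alternatingGroup.2 (by decide +kernel)⟩} : Set (alternatingGroup (Fin 5))) = ⊤ := by
  set a : alternatingGroup (Fin 5) := ⟨sA, Perm.mem_alternatingGroup.2 (by decide +kernel)⟩
  set b : alternatingGroup (Fin 5) := ⟨sB, Perm.mem_alternatingGroup.2 (by decide +kernel)⟩
  set H := Subgroup.closure ({a, b} : Set (alternatingGroup (Fin 5)))
  have ha : a ∈ H := Subgroup.subset_closure (by simp)
  have hb : b ∈ H := Subgroup.subset_closure (by simp)
  have hord : ∀ (x : alternatingGroup (Fin 5)) (p : ℕ), p.Prime → x ∈ H → (x : Perm (Fin 5)) ^ p = 1 →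
      (x : Perm (Fin 5)) ≠ 1 → p ∣ Nat.card H := by
    intro x p hp hx h1 h2
    have := Fact.mk hp
    have h : orderOf x = p := by rw [← Subgroup.orderOf_coe]; exact orderOf_eq_prime h1 h2
    exact h ▸ Subgroup.orderOf_dvd_natCard H hx
  have h5 : 5 ∣ Nat.card H := hord a 5 (by norm_num) ha (show sA ^ 5 = 1 by decide +kernel) (show sA ≠ 1 by decide +kernel)
  have h3 : 3 ∣ Nat.card H := hord b 3 (by norm_num) hb (show sB ^ 3 = 1 by decide +kernel) (show sB ≠ 1 by decide +kernel)
  have h2 : 2 ∣ Nat.card H := hord (a * a * b) 2 (by norm_num) (mul_mem (mul_mem ha ha) hb)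
    (show (sA * sA * sB) ^ 2 = 1 by decide +kernel) (show sA * sA * sB ≠ 1 by decide +kernel)
  have hc : Nat.card (alternatingGroup (Fin 5)) = 60 := by
    rw [nat_card_alternatingGroup, Nat.card_eq_fintype_card, Fintype.card_fin]; rfl
  have hmul := H.card_mul_index
  rw [hc] at hmul
  have h30 : 30 ∣ Nat.card H := by omega
  obtain ⟨c, hc30⟩ := h30
  rw [hc30] at hmul
  have hidx : H.index ∣ 2 := ⟨c, by nlinarith⟩
  rcases (Nat.dvd_prime Nat.prime_two).1 hidx with h | h
  · exact Subgroup.index_eq_one.1 h
  · exfalso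
    have : H.Normal := Subgroup.normal_of_index_eq_two h
    have := alternatingGroup.isSimpleGroup_five
    rcases IsSimpleGroup.eq_bot_or_eq_top_of_normal H inferInstance with e | e
    · rw [e, Subgroup.card_bot] at hc30; omega
    · rw [e, Subgroup.index_top] at h; omega

end

/-- The Janko group J₁ (the group generated by two explicit 7 × 7 matrices over the integers modulo 11) has an involution whose centraliser is isomorphic to the direct product of a group of order 2 with the alternating group of degree 5. -/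
theorem result : ∃ t : ↥Cfsg.Spor.J1, orderOf t = 2 ∧ Nonempty (↥(Subgroup.centralizer ({t} : Set ↥Cfsg.Spor.J1)) ≃* Multiplicative (ZMod 2) × ↥(alternatingGroup (Fin 5))) := by
  have hT : ixT < 577 := by decide +kernel
  have hA : ixA < 577 := by decide +kernel
  have hB : ixB < 577 := by decide +kernel
  classical
  let t : J := gel ⟨ixT, hT⟩
  have ht2 : orderOf t = 2 := orderOf_gel_prime _ Nat.prime_two (show powM (el ixT) 2 = oneM by decide +kernel) (show notOne (el ixT) = true by decide +kernel)
  let f : alternatingGroup (Fin 5) → J := fun g => gel ⟨img g, (table_ok g (Equiv.Perm.mem_alternatingGroup.1 g.2)).1⟩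
  have hmtf : ∀ g, mt (f g) = toM (el (img g)) := fun g => mt_gel _
  have hf1 : f 1 = 1 := mt_injective (by rw [hmtf, mt_one, ← toM_oneM, ← img_one]; rfl)
  have hfA : ∀ g : alternatingGroup (Fin 5), f (g * ⟨sA, Equiv.Perm.mem_alternatingGroup.2 (by decide +kernel)⟩) = f g * gel ⟨ixA, hA⟩ := by
    intro g
    apply mt_injective
    rw [mt_mul, hmtf, hmtf, mt_gel, M, ← toM_mulM, (table_ok g (Equiv.Perm.mem_alternatingGroup.1 g.2)).2.1]
    rfl
  have hfB : ∀ g : alternatingGroup (Fin 5), f (g * ⟨sB, Equiv.Perm.mem_alternatingGroup.2 (by decide +kernel)⟩) = f g * gel ⟨ixB, hB⟩ := by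
    intro g
    apply mt_injective
    rw [mt_mul, hmtf, hmtf, mt_gel, M, ← toM_mulM, (table_ok g (Equiv.Perm.mem_alternatingGroup.1 g.2)).2.2.1]
    rfl
  have hmul : ∀ g h, f (g * h) = f g * f h := by
    intro g h
    have hh := gens_top ▸ Subgroup.mem_top h
    revert g
    induction hh using Subgroup.closure_induction with
    | mem x hx =>
      rcases hx with rfl | rfl <;> intro g
      · rw [hfA g]; congr 1
      · rw [hfB g]; congr 1
    | one => intro g; rw [mul_one, hf1, mul_one]
    | mul x y _ _ ihx ihy => intro g; rw [← mul_assoc, ihy, ihx, ihy x, mul_assoc]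
    | inv x _ ihx =>
      intro g
      have h1 := ihx (g * x⁻¹)
      have h2 := ihx x⁻¹
      rw [inv_mul_cancel_right] at h1
      rw [inv_mul_cancel, hf1] at h2
      rw [h1, mul_assoc, show f x * f x⁻¹ = 1 from mul_eq_one_comm.1 h2.symm, mul_one]
  let F : alternatingGroup (Fin 5) →* J := MonoidHom.mk' f hmul
  set C := Subgroup.centralizer ({t} : Set J)
  have hFC : ∀ g, f g ∈ C := by
    intro g
    rw [Subgroup.mem_centralizer_singleton_iff]
    apply mt_injective
    rw [mt_mul, mt_mul, hmtf, mt_gel, M, ← toM_mulM, ← toM_mulM, (table_ok g (Equiv.Perm.mem_alternatingGroup.1 g.2)).2.2.2.1]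
  have htC : t ∈ C := Subgroup.mem_centralizer_singleton_iff.2 rfl
  -- the involution factor
  have htsq : t ^ 2 = 1 := ht2 ▸ pow_orderOf_eq_one t
  let Z : Multiplicative (ZMod 2) →* J :=
    { toFun := fun z => t ^ z.toAdd.val
      map_one' := by simp
      map_mul' := fun a b => by
        rw [← pow_add]
        show t ^ (a.toAdd + b.toAdd).val = _
        rw [ZMod.val_add]
        exact (pow_eq_pow_mod _ htsq).symm }
  have hZC : ∀ z, Z z ∈ C := fun z => pow_mem htC _
  have hcomm : ∀ z g, Commute (Z z) (F g) := fun z g =>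
    (show Commute t (f g) from (Subgroup.mem_centralizer_singleton_iff.1 (hFC g)).symm).pow_left _
  let Φ : Multiplicative (ZMod 2) × alternatingGroup (Fin 5) →* C :=
    (MonoidHom.noncommCoprod Z F hcomm).codRestrict C (fun p => mul_mem (hZC _) (hFC _))
  have hinj : Function.Injective Φ := by
    rw [← MonoidHom.ker_eq_bot_iff, eq_bot_iff]
    rintro ⟨z, g⟩ hp
    rw [MonoidHom.mem_ker] at hp
    have h := congrArg Subtype.val hp
    change t ^ z.toAdd.val * f g = 1 at h
    have hz2 : z.toAdd.val < 2 := ZMod.val_lt _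
    have h01 : z.toAdd.val = 0 ∨ z.toAdd.val = 1 := by omega
    rcases h01 with h0 | h0 <;> rw [h0] at h
    · rw [pow_zero, one_mul] at h
      have hz : z = 1 := Multiplicative.toAdd.injective ((ZMod.val_eq_zero _).1 h0)
      rcases (table_ok g (Equiv.Perm.mem_alternatingGroup.1 g.2)).2.2.2.2.1 with hg | hg
      · rw [Subgroup.mem_bot, hz, Prod.mk_eq_one]; exact ⟨rfl, Subtype.ext hg⟩
      · exact absurd (by rw [← hmtf g, h, mt_one]) (ne_one_of_notOne hg)
    · rw [pow_one] at h
      exfalso
      refine ne_one_of_notOne (table_ok g (Equiv.Perm.mem_alternatingGroup.1 g.2)).2.2.2.2.2 ?_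
      rw [toM_mulM, ← hmtf g]
      have := congrArg Cfsg.Agent.Lib.Recog.Janko.mt h
      rwa [mt_mul, mt_gel] at this
  have hcard : Nat.card C ∣ 120 := by
    have hd : Nat.card C ∣ 175560 := card_J ▸ Subgroup.card_subgroup_dvd_card C
    have hno : ∀ q ∈ ([7, 11, 19] : List ℕ), ¬ q ∣ Nat.card C := by
      intro q hq hqd
      have hp : q.Prime := by
        simp only [List.mem_cons, List.not_mem_nil, or_false] at hq
        rcases hq with rfl | rfl | rfl <;> norm_num
      have := Fact.mk hp
      obtain ⟨⟨u, huC⟩, hu⟩ := exists_prime_orderOf_dvd_card' (G := C) q hqd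
      rw [Subgroup.orderOf_mk] at hu
      have hne2 : q ≠ 2 := by rintro rfl; simp at hq
      have hc : Commute u t := Subgroup.mem_centralizer_singleton_iff.1 huC
      have hprod : orderOf (u * t) = q * 2 := by
        rw [hc.orderOf_mul_eq_mul_orderOf_of_coprime (by
          rw [hu, ht2]; exact (Nat.coprime_primes hp Nat.prime_two).2 hne2), hu, ht2]
      have := eq_of_dvd_self_centralizing hq (z := u * t) (by rw [hprod]; exact dvd_mul_right _ _)
      rw [hprod] at this
      have := hp.two_le
      omega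
    have c7 := ((Nat.Prime.coprime_iff_not_dvd (by norm_num)).2 (hno 7 (by simp))).symm
    have c11 := ((Nat.Prime.coprime_iff_not_dvd (by norm_num)).2 (hno 11 (by simp))).symm
    have c19 := ((Nat.Prime.coprime_iff_not_dvd (by norm_num)).2 (hno 19 (by simp))).symm
    exact c19.dvd_of_dvd_mul_right (c11.dvd_of_dvd_mul_right (c7.dvd_of_dvd_mul_right
      (by rw [show 120 * 19 * 11 * 7 = 175560 by norm_num]; exact hd)))
  have h120 : Nat.card (Multiplicative (ZMod 2) × alternatingGroup (Fin 5)) = 120 := by
    rw [Nat.card_prod, nat_card_alternatingGroup, Nat.card_eq_fintype_card, Nat.card_eq_fintype_card,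
      Fintype.card_fin]
    rfl
  exact ⟨t, ht2, ⟨(MulEquiv.ofBijective Φ ((Nat.bijective_iff_injective_and_card Φ).2
    ⟨hinj, le_antisymm (Nat.card_le_card_of_injective _ hinj) (h120 ▸ Nat.le_of_dvd (by norm_num) hcard)⟩)).symm⟩⟩

end Cfsg.Agent.S2131
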