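import Cfsg.Statements.S2143
import Cfsg.Agent.Lib.MinIndexO.Odd

set_option autoImplicit false
open Cfsg

namespace Cfsg.Agent.S2143

/-- Minimal index of a proper subgroup of the odd-dimensional orthogonal groups: for m ≥ 3 and a field F with q elements, q odd and q ≥ 5, every proper subgroup of PΩ_(2m+1)(F) (for the form x₀² + Σ xᵢyᵢ) has index at least (q^(2m) − 1)/(q − 1), and that index is attained. -/
theorem result {F : Type*} [Field F] [Fintype F] {q : ℕ} (hF : Fintype.card F = q) (hodd : Odd q) (h5 : 5 ≤ q) (m : ℕ) (hm : 3 ≤ m) : (∀ H : Subgroup (Cfsg.POmega F (Cfsg.quadFormOdd m F)), H ≠ ⊤ → (q ^ (2 * m) - 1) / (q - 1) ≤ H.index) ∧ (∃ H : Subgroup (Cfsg.POmega F (Cfsg.quadFormOdd m F)), H.index = (q ^ (2 * m) - 1) / (q - 1)) :=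
  Cfsg.Agent.Lib.MinIndexO.min_index_odd hF hodd h5 m hm

end Cfsg.Agent.S2143
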