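import Cfsg.Statements.S2148
import Cfsg.Agent.Lib.MinIndexU3.Main

set_option autoImplicit false
open Cfsg

namespace Cfsg.Agent.S2148

/-- Minimal index of a proper subgroup of the three-dimensional unitary groups: for a field F with q² elements, q ≥ 3 and q ≠ 5, every proper subgroup of PSU₃(q) has index at least q³ + 1, and that index is attained. -/
theorem result {F : Type*} [Field F] [Fintype F] (q : ℕ) (hF : Fintype.card F = q ^ 2) (hq : 3 ≤ q) (h5 : q ≠ 5) : (∀ H : Subgroup (Cfsg.PSU 3 F q), H ≠ ⊤ → q ^ 3 + 1 ≤ H.index) ∧ (∃ H : Subgroup (Cfsg.PSU 3 F q), H.index = q ^ 3 + 1) :=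
  ⟨fun H hH => Cfsg.Agent.Lib.MinIndexU3.min_index hF hq h5 H hH,
    Cfsg.Agent.Lib.MinIndexU3.attained hF⟩

end Cfsg.Agent.S2148
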