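import Cfsg.Statements.S2152
import Cfsg.Agent.Lib.MinIndexSU.Main

set_option autoImplicit false
open Cfsg

namespace Cfsg.Agent.S2152

/-- Minimal index of a proper subgroup of the unitary groups of even dimension n ≥ 6: for a field F with q² elements, q ≥ 3, every proper subgroup of PSU_n(q) has index at least (q^n − 1)(q^(n−1) + 1)/(q² − 1), and that index is attained (the isotropic points). -/
theorem result {F : Type*} [Field F] [Fintype F] (q : ℕ) (hF : Fintype.card F = q ^ 2) (hq : 3 ≤ q) (n : ℕ) (hn : 6 ≤ n) (heven : Even n) : (∀ H : Subgroup (Cfsg.PSU n F q), H ≠ ⊤ → (q ^ n - 1) * (q ^ (n - 1) + 1) / (q ^ 2 - 1) ≤ H.index) ∧ (∃ H : Subgroup (Cfsg.PSU n F q), H.index = (q ^ n - 1) * (q ^ (n - 1) + 1) / (q ^ 2 - 1)) := by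
  have h := Lib.MinIndexSU.min_index hF (n := n) (by omega) (fun h => by omega)
  rwa [Lib.MinIndexSU.N0, if_pos heven] at h

end Cfsg.Agent.S2152
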