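import Cfsg.Statements.S2153
import Cfsg.Agent.Lib.MinIndexSU.EvenTwo
-- import your own Cfsg.Agent.* helpers here

set_option autoImplicit false
open Cfsg

namespace Cfsg.Agent.S2153

/-- Minimal index of a proper subgroup of the unitary groups PSU_n(2) with n divisible by 6, realised over the field with 4 elements: every proper subgroup has index at least 2^(n−1)(2^n − 1)/3, and that index is attained. -/
theorem result {F : Type*} [Field F] [Fintype F] (hF : Fintype.card F = 4) (n : ℕ) (hn : 6 ∣ n) (hpos : 6 ≤ n) : (∀ H : Subgroup (Cfsg.PSU n F 2), H ≠ ⊤ → 2 ^ (n - 1) * (2 ^ n - 1) / 3 ≤ H.index) ∧ (∃ H : Subgroup (Cfsg.PSU n F 2), H.index = 2 ^ (n - 1) * (2 ^ n - 1) / 3) := by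
  have hF' : Fintype.card F = 2 ^ 2 := by rw [hF]; rfl
  have he : Even n := by
    obtain ⟨k, rfl⟩ := hn
    exact ⟨3 * k, by ring⟩
  exact Lib.MinIndexSU.min_index_even hF' rfl hpos he

end Cfsg.Agent.S2153
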