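import Cfsg.Statements.S2155
import Cfsg.Agent.Lib.Chev.RadicalCent
import Cfsg.Agent.S1246

set_option autoImplicit false
open Cfsg Cfsg.Lie Cfsg.Agent.Lib.Chev Cfsg.Agent.Lib.Components

namespace Cfsg.Agent.S2155

/-- In a Chevalley group of type G₂, B₂, D₄, F₄, E₆, E₇ or E₈ over a finite field of characteristic p (for types G₂ and B₂ the field is assumed to have at least 3 elements, so that the group is simple), the generalized Fitting subgroup of every proper standard parabolic subgroup P_J is a p-group (P_J is p-constrained with trivial largest normal subgroup of order prime to p). -/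
theorem result {F : Type*} [Field F] [Fintype F] (p : ℕ) [Fact p.Prime] [CharP F p] (D : Cfsg.Lie.ChevalleyDatum) (hD : D ∈ [Cfsg.Lie.chevG2, Cfsg.Lie.chevB2, Cfsg.Lie.chevD4, Cfsg.Lie.chevF4, Cfsg.Lie.chevE6, Cfsg.Lie.chevE7, Cfsg.Lie.chevE8]) (hq : (D = Cfsg.Lie.chevG2 ∨ D = Cfsg.Lie.chevB2) → 3 ≤ Fintype.card F) (J : Set ℕ) (hJ : ∃ i, i < D.rank ∧ i ∉ J) : IsPGroup p ↥(Cfsg.generalizedFittingSubgroup ↥(D.parabolicSubgroup F J)) := by
  classical
  obtain ⟨T, C, hsupp, hext⟩ := exists_checked_ext hD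
  set P := D.parabolicSubgroup F J with hP
  refine Cfsg.Agent.S1246.gfs_pgroup_iff.2 fun x hx => ?_
  let K : Subgroup (GL D.Idx F) := P ⊓ Subgroup.centralizer (D.unipotentRadical F J : Set (GL D.Idx F))
  have hKU : K ≤ D.posUnipotent F := C.centralizer_radical_le hsupp J hext hJ
  have hUp : IsPGroup p ↥(D.posUnipotent F) := by
    obtain ⟨n, -, hn⟩ := FiniteField.card F p
    refine IsPGroup.of_card (n := (n : ℕ) * {r | D.IsPosRoot r}.ncard) ?_
    rw [posUnipotent_eq, C.card_grp C.closedSet_pos, hn, pow_mul]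
  have hN := C.parabolic_le_normalizer (F := F) hsupp J
  let K' : Subgroup P := (Subgroup.centralizer (D.unipotentRadical F J : Set (GL D.Idx F))).subgroupOf P
  haveI : K'.Normal := ⟨fun k hk g => by
    refine Subgroup.mem_subgroupOf.2 (Subgroup.mem_centralizer_iff.2 fun y hy => ?_)
    have hy' := (Subgroup.mem_normalizer_iff.1 (inv_mem (hN g.2)) y).1 hy
    rw [inv_inv] at hy'
    have hc := Subgroup.mem_centralizer_iff.1 (Subgroup.mem_subgroupOf.1 hk) _ hy'
    simp only [Subgroup.coe_mul, Subgroup.coe_inv]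
    calc y * (g.1 * k.1 * (g.1)⁻¹) = g.1 * ((g.1)⁻¹ * y * g.1 * k.1) * (g.1)⁻¹ := by group
      _ = g.1 * (k.1 * ((g.1)⁻¹ * y * g.1)) * (g.1)⁻¹ := by rw [hc]
      _ = g.1 * k.1 * (g.1)⁻¹ * y := by group⟩
  have hK'p : IsPGroup p K' := by
    refine (hUp.to_le hKU).of_injective
      ((P.subtype.comp K'.subtype).codRestrict K fun k => ⟨k.1.2, Subgroup.mem_subgroupOf.1 k.2⟩) ?_
    intro a b e
    exact Subtype.ext (Subtype.ext (congrArg Subtype.val e :))
  have hrad : D.unipotentRadical F J ≤ P := by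
    rw [hP, ← C.radical_sup_levi (F := F) hsupp J]; exact le_sup_left
  haveI : ((D.unipotentRadical F J).subgroupOf P).Normal :=
    Subgroup.normal_subgroupOf_of_le_normalizer hN
  have hRp : IsPGroup p ↥((D.unipotentRadical F J).subgroupOf P) := by
    refine (hUp.to_le ?_).of_equiv (Subgroup.subgroupOfEquivOfLe hrad).symm
    rw [C.unipotentRadical_eq J, posUnipotent_eq]
    exact grp_mono fun r hr => hr.1
  refine le_pCore (N := K') hK'p (Subgroup.mem_subgroupOf.2 (Subgroup.mem_centralizer_iff.2 fun y hy => ?_))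
  exact congrArg Subtype.val (Subgroup.mem_centralizer_iff.1 hx ⟨y, hrad hy⟩
    (le_pCore (N := (D.unipotentRadical F J).subgroupOf P) hRp (Subgroup.mem_subgroupOf.2 hy)))

end Cfsg.Agent.S2155
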