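import Cfsg.Statements.S2160

import Cfsg.Agent.Lib.Chev.FoldIso
import Cfsg.Agent.Lib.Chev.All
set_option autoImplicit false
open Cfsg

namespace Cfsg.Agent.S2160


open Cfsg.Lie Cfsg.Agent.Lib.Chev

/-- In a Chevalley group of type G₂, B₂, D₄, F₄, E₆, E₇ or E₈ over a finite field, every field automorphism commutes with every graph automorphism. -/
theorem result {F : Type*} [Field F] [Finite F] (D : Cfsg.Lie.ChevalleyDatum) (hD : D ∈ [Cfsg.Lie.chevG2, Cfsg.Lie.chevB2, Cfsg.Lie.chevD4, Cfsg.Lie.chevF4, Cfsg.Lie.chevE6, Cfsg.Lie.chevE7, Cfsg.Lie.chevE8]) (f g : ↥(D.group F) ≃* ↥(D.group F))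
    (hf : D.IsFieldAut f) (hg : D.IsGraphAut g) (y : ↥(D.group F)) : f (g y) = g (f y) := by
  obtain ⟨T, C⟩ := exists_checked hD
  obtain ⟨σ, hσ⟩ := hf
  obtain ⟨π, -, hπ⟩ := hg
  refine Fold.hom_ext_simple C (f.toMonoidHom.comp g.toMonoidHom) (g.toMonoidHom.comp f.toMonoidHom)
    (fun i hi t => ?_) y
  have hp := C.root.simple_lt i hi
  have hp' := C.root.simple_lt _ (π ⟨i, hi⟩).2
  constructor <;> refine Subtype.ext (Units.ext ?_)
  · have h1 := (hπ ⟨C.xg (D.simple i) t, C.xg_mem_group hp t⟩ ⟨i, hi⟩ t).1 (C.val_xg _ _)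
    have h2 := hσ _ _ _ hp' h1
    have h3 := hσ ⟨C.xg (D.simple i) t, C.xg_mem_group hp t⟩ _ t hp (C.val_xg _ _)
    have h4 := (hπ _ ⟨i, hi⟩ _).1 h3
    show ((f (g _) : GL D.Idx F) : Matrix D.Idx D.Idx F) = ((g (f _) : GL D.Idx F) : Matrix D.Idx D.Idx F)
    rw [h2, h4, map_pow]
  · have h1 := (hπ ⟨C.xg (D.neg (D.simple i)) t, C.xg_mem_group (C.root.neg_lt _ hp) t⟩ ⟨i, hi⟩ t).2
      (C.val_xg _ _)
    have h2 := hσ _ _ _ (C.root.neg_lt _ hp') h1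
    have h3 := hσ ⟨C.xg (D.neg (D.simple i)) t, C.xg_mem_group (C.root.neg_lt _ hp) t⟩ _ t
      (C.root.neg_lt _ hp) (C.val_xg _ _)
    have h4 := (hπ _ ⟨i, hi⟩ _).2 h3
    show ((f (g _) : GL D.Idx F) : Matrix D.Idx D.Idx F) = ((g (f _) : GL D.Idx F) : Matrix D.Idx D.Idx F)
    rw [h2, h4, map_pow]

end Cfsg.Agent.S2160
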