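import Cfsg.Statements.S2161

import Cfsg.Agent.Lib.Chev.FoldIso
import Cfsg.Agent.Lib.Chev.Data.D4
import Cfsg.Agent.Lib.Chev.Data.E6
set_option autoImplicit false
open Cfsg

namespace Cfsg.Agent.S2161


open Cfsg.Lie Cfsg.Agent.Lib.Chev

/-- the behaviour of `permRoot` -/
def PermOk (D : ChevalleyDatum) : Prop :=
  ∀ π : Equiv.Perm (Fin D.rank), (∀ i j : Fin D.rank, i ≠ j → D.bonds (π i) (π j) = D.bonds i j) →
    ∀ i : Fin D.rank, D.permRoot π (D.simple i) = D.simple (π i) ∧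
      ∀ s : Fin D.nroots, D.permRoot π s < D.nroots ∧
        D.permRoot π (D.reflectRoot i s) = D.reflectRoot (π i) (D.permRoot π s)

theorem permOk_D4 : PermOk chevD4 := by unfold PermOk; decide +kernel

theorem permOk_E6 : PermOk chevE6 := by unfold PermOk; decide +kernel

theorem eta_pm {T : Fast} {F : Type*} [Field F] (i s : ℕ) : eta T F i s = 1 ∨ eta T F i s = -1 :=
  mul_self_eq_one_iff.1 (eta_sq i s)

theorem signs {D : ChevalleyDatum} {T : Fast} (C : Checked D T) (hok : PermOk D) {F : Type*} [Field F]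
    (π : Equiv.Perm (Fin D.rank)) (hπ : D.IsDiagramSymmetry π) (φ : ↥(D.group F) ≃* ↥(D.group F))
    (hφ : ∀ (g : ↥(D.group F)) (i : Fin D.rank) (t : F),
      (((g : GL D.Idx F) : Matrix D.Idx D.Idx F) = D.x F (D.simple i) t →
        ((φ g : GL D.Idx F) : Matrix D.Idx D.Idx F) = D.x F (D.simple (π i)) t) ∧
      (((g : GL D.Idx F) : Matrix D.Idx D.Idx F) = D.x F (D.neg (D.simple i)) t →
        ((φ g : GL D.Idx F) : Matrix D.Idx D.Idx F) = D.x F (D.neg (D.simple (π i))) t)) :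
    ∀ r < D.nroots, ∃ ε : F, (ε = 1 ∨ ε = -1) ∧ ∀ (t : F) (h : C.xg r t ∈ D.group F),
      (φ ⟨C.xg r t, h⟩ : GL D.Idx F) = C.xg (D.permRoot π r) (ε * t) := by
  refine C.root_induction (fun i hi => ⟨1, Or.inl rfl, fun t h => Units.ext ?_⟩) ?_
  · rw [(hok π hπ ⟨i, hi⟩).1, C.val_xg, one_mul]
    exact (hφ ⟨_, h⟩ ⟨i, hi⟩ t).1 (C.val_xg _ _)
  rintro i hi s hs ⟨ε, hε, ih⟩
  obtain ⟨-, hperm⟩ := hok π hπ ⟨i, hi⟩
  obtain ⟨hlt, hstep⟩ := hperm ⟨s, hs⟩
  dsimp only at hlt hstep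
  set i' : ℕ := (π ⟨i, hi⟩).1 with hi'
  have hi'r : i' < D.rank := (π ⟨i, hi⟩).2
  refine ⟨eta T F i' (D.permRoot π s) * ε * eta T F i s, ?_, fun t h => ?_⟩
  · rcases eta_pm (T := T) (F := F) i' (D.permRoot π s) with e | e <;>
      rcases eta_pm (T := T) (F := F) i s with e' | e' <;>
      rcases hε with e'' | e'' <;> simp [e, e', e'']
  have hn : (φ ⟨C.ng i, C.ng_mem_group hi⟩ : GL D.Idx F) = C.ng i' := by
    have hp := C.root.simple_lt i hi
    have e : (⟨C.ng i, C.ng_mem_group hi⟩ : ↥(D.group F)) =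
        ⟨C.xg (D.simple i) 1, C.xg_mem_group hp 1⟩ *
        (⟨C.xg (D.neg (D.simple i)) (-(1 : F)⁻¹), C.xg_mem_group (C.root.neg_lt _ hp) _⟩ *
        ⟨C.xg (D.simple i) 1, C.xg_mem_group hp 1⟩) := Subtype.ext (by
      simp only [Checked.ng, ChevalleyDatum.nWord, C.wg_cons, C.wg_nil, mul_one]
      rfl)
    rw [e, map_mul, map_mul]
    simp only [Checked.ng, ChevalleyDatum.nWord, C.wg_cons, C.wg_nil, mul_one, Subgroup.coe_mul]
    refine congrArg₂ (· * ·) (Units.ext ?_) (congrArg₂ (· * ·) (Units.ext ?_) (Units.ext ?_))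
    · exact ((hφ _ ⟨i, hi⟩ _).1 (C.val_xg _ _)).trans (C.val_xg _ _).symm
    · exact ((hφ _ ⟨i, hi⟩ _).2 (C.val_xg _ _)).trans (C.val_xg _ _).symm
    · exact ((hφ _ ⟨i, hi⟩ _).1 (C.val_xg _ _)).trans (C.val_xg _ _).symm
  have hx := C.xg_mem_group (F := F) hs (eta T F i s * t)
  have e : (⟨C.xg (D.reflectRoot i s) t, h⟩ : ↥(D.group F)) =
      ⟨C.ng i, C.ng_mem_group hi⟩ * ⟨_, hx⟩ * ⟨C.ng i, C.ng_mem_group hi⟩⁻¹ := Subtype.ext (by
    show C.xg (D.reflectRoot i s) t = C.ng i * C.xg s (eta T F i s * t) * (C.ng i)⁻¹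
    rw [C.ng_xg hi hs, ← mul_assoc, eta_sq, one_mul, mul_inv_cancel_right])
  rw [e, map_mul, map_mul, map_inv, Subgroup.coe_mul, Subgroup.coe_mul, Subgroup.coe_inv, hn, ih _ hx,
    C.ng_xg hi'r hlt, mul_inv_cancel_right, hstep]
  congr 1
  ring

/-- For the Chevalley groups of types D₄ and E₆ (one root length) over any field: if `π` is a symmetry of the Dynkin diagram and `φ` is an automorphism sending `x_{p_i}(t)` to `x_{p_{π i}}(t)` and `x_{-p_i}(t)` to `x_{-p_{π i}}(t)` for every fundamental root `p_i`, then for every root `r` there is a sign `ε = ±1` with `φ(x_r(t)) = x_{π·r}(ε t)` for all `t`, where `π·r` is the root whose coefficients are those of `r` permuted by `π`. -/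
theorem result {F : Type*} [Field F] (D : Cfsg.Lie.ChevalleyDatum) (hD : D ∈ [Cfsg.Lie.chevD4, Cfsg.Lie.chevE6])
    (π : Equiv.Perm (Fin D.rank)) (hπ : D.IsDiagramSymmetry π) (φ : ↥(D.group F) ≃* ↥(D.group F))
    (hφ : ∀ (g : ↥(D.group F)) (i : Fin D.rank) (t : F),
      (((g : GL D.Idx F) : Matrix D.Idx D.Idx F) = D.x F (D.simple i) t →
        ((φ g : GL D.Idx F) : Matrix D.Idx D.Idx F) = D.x F (D.simple (π i)) t) ∧
      (((g : GL D.Idx F) : Matrix D.Idx D.Idx F) = D.x F (D.neg (D.simple i)) t →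
        ((φ g : GL D.Idx F) : Matrix D.Idx D.Idx F) = D.x F (D.neg (D.simple (π i))) t))
    (r : ℕ) (hr : r < D.nroots) :
    ∃ ε : F, (ε = 1 ∨ ε = -1) ∧ ∀ (g : ↥(D.group F)) (t : F),
      ((g : GL D.Idx F) : Matrix D.Idx D.Idx F) = D.x F r t →
        ((φ g : GL D.Idx F) : Matrix D.Idx D.Idx F) = D.x F (D.permRoot π r) (ε * t) := by
  have key : ∃ T : Fast, Checked D T ∧ PermOk D := by
    simp only [List.mem_cons, List.not_mem_nil, or_false] at hD
    rcases hD with rfl | rfl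
    · exact ⟨_, D4.checked, permOk_D4⟩
    · exact ⟨_, E6.checked, permOk_E6⟩
  obtain ⟨T, C, hok⟩ := key
  obtain ⟨ε, hε, h⟩ := signs C hok π hπ φ hφ r hr
  refine ⟨ε, hε, fun g t hg => ?_⟩
  rw [show g = ⟨C.xg r t, C.xg_mem_group hr t⟩ from Subtype.ext (C.eq_xg hg), h, C.val_xg]

end Cfsg.Agent.S2161
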