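import Cfsg.Statements.S2298
import Cfsg.Agent.Lib.TwoChar.DegreeCounts

set_option autoImplicit false
open Cfsg

namespace Cfsg.Agent.S2298

/-- Over a finite field F with q elements, every irreducible complex character of GL₂ has degree 1, q − 1, q or q + 1; and when q ≥ 3 (so that these four numbers are distinct) there are exactly q − 1 irreducible characters of degree 1, exactly q − 1 of degree q, exactly (q − 1)(q − 2)/2 of degree q + 1 and exactly q(q − 1)/2 of degree q − 1. -/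
theorem result {F : Type*} [Field F] [Fintype F] :
    (∀ χ : Matrix.GeneralLinearGroup (Fin 2) F → ℂ, Cfsg.IsIrrCharacter (Matrix.GeneralLinearGroup (Fin 2) F) χ →
      χ 1 = 1 ∨ χ 1 = (Fintype.card F : ℂ) - 1 ∨ χ 1 = (Fintype.card F : ℂ) ∨ χ 1 = (Fintype.card F : ℂ) + 1) ∧
    (3 ≤ Fintype.card F →
      Nat.card {χ : Cfsg.IrrCharacter (Matrix.GeneralLinearGroup (Fin 2) F) // (χ : Matrix.GeneralLinearGroup (Fin 2) F → ℂ) 1 = 1} = Fintype.card F - 1 ∧
      Nat.card {χ : Cfsg.IrrCharacter (Matrix.GeneralLinearGroup (Fin 2) F) // (χ : Matrix.GeneralLinearGroup (Fin 2) F → ℂ) 1 = (Fintype.card F : ℂ)} = Fintype.card F - 1 ∧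
      Nat.card {χ : Cfsg.IrrCharacter (Matrix.GeneralLinearGroup (Fin 2) F) // (χ : Matrix.GeneralLinearGroup (Fin 2) F → ℂ) 1 = (Fintype.card F : ℂ) + 1} = (Fintype.card F - 1) * (Fintype.card F - 2) / 2 ∧
      Nat.card {χ : Cfsg.IrrCharacter (Matrix.GeneralLinearGroup (Fin 2) F) // (χ : Matrix.GeneralLinearGroup (Fin 2) F → ℂ) 1 = (Fintype.card F : ℂ) - 1} = Fintype.card F * (Fintype.card F - 1) / 2) := by
  classical
  let d := Lib.TwoChar.glDat F
  letI : Fintype (d.T →* ℂˣ) := @Fintype.ofFinite _ (Lib.TwoChar.finite_dual d.T)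
  obtain ⟨ψ, hψ⟩ := Lib.TwoChar.exists_addChar F
  obtain ⟨ht, hN, h10, h11⟩ := Lib.TwoChar.gl_types F hψ
  have ho := Lib.TwoChar.gl_oneOrbit F
  refine ⟨fun χ hχ => ?_, fun hq => ?_⟩
  · rcases ho.degree_cases hψ ht ⟨χ, hχ⟩ with ⟨-, -, e⟩ | ⟨-, -, e⟩ | ⟨-, -, e⟩ | ⟨-, -, e⟩
    · exact Or.inl e
    · exact Or.inr (Or.inr (Or.inl e))
    · exact Or.inr (Or.inr (Or.inr e))
    · exact Or.inr (Or.inl e)
  · refine ⟨?_, ?_, ?_, ?_⟩
    · rw [Lib.TwoChar.Dat.card_of_iff fun χ => (ho.degree_iff hψ ht hq χ).1, h10]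
    · rw [Lib.TwoChar.Dat.card_of_iff fun χ => (ho.degree_iff hψ ht hq χ).2.1, h11]
    · rw [Lib.TwoChar.Dat.card_of_iff fun χ => (ho.degree_iff hψ ht hq χ).2.2.1]
      have h2 := d.two_mul_card_A_two
      rw [Lib.TwoChar.nfix_gl, Lib.TwoChar.card_glT] at h2
      obtain ⟨r, hr⟩ : ∃ r, Fintype.card F = r + 3 := ⟨Fintype.card F - 3, by omega⟩
      rw [hr, show r + 3 - 1 = r + 2 by omega] at h2
      rw [hr, show r + 3 - 1 = r + 2 by omega, show r + 3 - 2 = r + 1 by omega]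
      change (Finset.univ.filter fun χ : IrrCharacter _ => d.A χ = 2).card = _
      have h3 : (r + 2) * (r + 2) = (r + 2) * (r + 1) + (r + 2) := by ring
      omega
    · rw [Lib.TwoChar.Dat.card_of_iff fun χ => (ho.degree_iff hψ ht hq χ).2.2.2]
      omega
end Cfsg.Agent.S2298
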