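import Cfsg.Statements.S2299
import Cfsg.Agent.Lib.TwoChar.SLOddValues
import Cfsg.Agent.Lib.TwoChar.Degrees

set_option autoImplicit false
open Cfsg

namespace Cfsg.Agent.S2299

/-- Over a finite field F with q elements, q odd, every irreducible complex character of SL₂ has degree 1, q, q + 1, q − 1, (q + 1)/2 or (q − 1)/2; and when q ≥ 5 (so that these six numbers are distinct) there are exactly one irreducible character of degree 1, one of degree q, (q − 3)/2 of degree q + 1, (q − 1)/2 of degree q − 1, two of degree (q + 1)/2 and two of degree (q − 1)/2. -/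
theorem result {F : Type*} [Field F] [Fintype F] (hodd : Odd (Fintype.card F)) :
    (∀ χ : Matrix.SpecialLinearGroup (Fin 2) F → ℂ, Cfsg.IsIrrCharacter (Matrix.SpecialLinearGroup (Fin 2) F) χ →
      χ 1 = 1 ∨ χ 1 = (Fintype.card F : ℂ) ∨ χ 1 = (Fintype.card F : ℂ) + 1 ∨ χ 1 = (Fintype.card F : ℂ) - 1 ∨
        χ 1 = (((Fintype.card F + 1) / 2 : ℕ) : ℂ) ∨ χ 1 = (((Fintype.card F - 1) / 2 : ℕ) : ℂ)) ∧
    (5 ≤ Fintype.card F →
      Nat.card {χ : Cfsg.IrrCharacter (Matrix.SpecialLinearGroup (Fin 2) F) // (χ : Matrix.SpecialLinearGroup (Fin 2) F → ℂ) 1 = 1} = 1 ∧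
      Nat.card {χ : Cfsg.IrrCharacter (Matrix.SpecialLinearGroup (Fin 2) F) // (χ : Matrix.SpecialLinearGroup (Fin 2) F → ℂ) 1 = (Fintype.card F : ℂ)} = 1 ∧
      Nat.card {χ : Cfsg.IrrCharacter (Matrix.SpecialLinearGroup (Fin 2) F) // (χ : Matrix.SpecialLinearGroup (Fin 2) F → ℂ) 1 = (Fintype.card F : ℂ) + 1} = (Fintype.card F - 3) / 2 ∧
      Nat.card {χ : Cfsg.IrrCharacter (Matrix.SpecialLinearGroup (Fin 2) F) // (χ : Matrix.SpecialLinearGroup (Fin 2) F → ℂ) 1 = (Fintype.card F : ℂ) - 1} = (Fintype.card F - 1) / 2 ∧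
      Nat.card {χ : Cfsg.IrrCharacter (Matrix.SpecialLinearGroup (Fin 2) F) // (χ : Matrix.SpecialLinearGroup (Fin 2) F → ℂ) 1 = (((Fintype.card F + 1) / 2 : ℕ) : ℂ)} = 2 ∧
      Nat.card {χ : Cfsg.IrrCharacter (Matrix.SpecialLinearGroup (Fin 2) F) // (χ : Matrix.SpecialLinearGroup (Fin 2) F → ℂ) 1 = (((Fintype.card F - 1) / 2 : ℕ) : ℂ)} = 2) := by
  classical
  let d := Lib.TwoChar.slDat F
  letI : Fintype (d.T →* ℂˣ) := @Fintype.ofFinite _ (Lib.TwoChar.finite_dual d.T)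
  obtain ⟨ψ, hψ⟩ := Lib.TwoChar.exists_addChar F
  obtain ⟨η, hη⟩ := FiniteField.exists_nonsquare (Lib.TwoChar.ringChar_ne_two hodd)
  obtain ⟨T⟩ := Lib.TwoChar.exists_table hodd hη hψ
  refine ⟨fun χ hχ => ?_, fun hq => ?_⟩
  · rcases Lib.TwoChar.degree_cases_odd hodd hη hψ ⟨χ, hχ⟩ with ⟨-, -, -, e⟩ | ⟨-, -, -, e⟩ | ⟨-, -, -, e⟩ | ⟨-, -, -, e⟩ | ⟨-, -, e⟩ | ⟨-, -, e⟩
    · exact Or.inl e
    · exact Or.inr (Or.inl e)
    · exact Or.inr (Or.inr (Or.inl e))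
    · exact Or.inr (Or.inr (Or.inr (Or.inl e)))
    · exact Or.inr (Or.inr (Or.inr (Or.inr (Or.inl e))))
    · exact Or.inr (Or.inr (Or.inr (Or.inr (Or.inr e))))
  · have hi := Lib.TwoChar.degree_iff_odd hodd hη hψ hq
    obtain ⟨htyp, hA2, hc, hc1, hc2⟩ := Lib.TwoChar.types_odd hodd hη hψ
    have ht1 := d.M_triv (G := Matrix.SpecialLinearGroup (Fin 2) F) hψ
    have ht2 := d.M_triv (G := Matrix.SpecialLinearGroup (Fin 2) F) (Lib.TwoChar.mulShift_ne hη hψ)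
    have hsum := T.sum_A_one hη hψ
    have count : ∀ (P : IrrCharacter (Matrix.SpecialLinearGroup (Fin 2) F) → Prop) [DecidablePred P] (v : ℂ),
        (∀ χ : IrrCharacter (Matrix.SpecialLinearGroup (Fin 2) F), χ.1 1 = v ↔ d.A χ = 1 ∧ P χ) →
        Nat.card {χ : IrrCharacter (Matrix.SpecialLinearGroup (Fin 2) F) // χ.1 1 = v} =
          (if P (Lib.TwoChar.Dat.triv _) then 1 else 0) + (if P T.st then 1 else 0) + (if P T.hp then 1 else 0) +
            (if P T.hm then 1 else 0) := fun P _ v hP => by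
      rw [Lib.TwoChar.Dat.card_of_iff hP, ← hsum fun χ => if P χ then 1 else 0, Finset.sum_filter, Finset.card_filter]
      exact Finset.sum_congr rfl fun χ _ => by split_ifs <;> tauto
    refine ⟨?_, ?_, ?_, ?_, ?_, ?_⟩
    · rw [count (fun χ => d.M ψ χ = 0 ∧ d.M (ψ.mulShift η) χ = 0) _ fun χ => (hi χ).1]
      simp [ht1, ht2, T.M_st, T.M_hp, T.M_hm, d]
    · rw [count (fun χ => d.M ψ χ = 1 ∧ d.M (ψ.mulShift η) χ = 1) _ fun χ => (hi χ).2.1]
      simp [ht1, ht2, T.M_st, T.M_hp, T.M_hm, d]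
    · rw [Lib.TwoChar.Dat.card_of_iff fun χ => (hi χ).2.2.1]
      omega
    · rw [Lib.TwoChar.Dat.card_of_iff fun χ => (hi χ).2.2.2.1, hc]
    · rw [count (fun χ => d.M ψ χ + d.M (ψ.mulShift η) χ = 1) _ fun χ => (hi χ).2.2.2.2.1]
      simp [ht1, ht2, T.M_st, T.M_hp, T.M_hm, d]
    · rw [Lib.TwoChar.Dat.card_of_iff fun χ => (hi χ).2.2.2.2.2]
      have e : (Finset.univ.filter fun χ => d.A χ = 0 ∧ d.M ψ χ + d.M (ψ.mulShift η) χ = 1).card =
          (Finset.univ.filter fun χ => d.A χ = 0 ∧ d.M ψ χ = 1 ∧ d.M (ψ.mulShift η) χ = 0).card +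
          (Finset.univ.filter fun χ => d.A χ = 0 ∧ d.M ψ χ = 0 ∧ d.M (ψ.mulShift η) χ = 1).card := by
        simp only [Finset.card_filter, ← Finset.sum_add_distrib]
        refine Finset.sum_congr rfl fun χ _ => ?_
        rcases htyp χ with ⟨a, b, c⟩ | ⟨a, b, c⟩ | ⟨a, b, c⟩ | ⟨a, b, c⟩ | ⟨a, b, c⟩ | ⟨a, b, c⟩ | ⟨a, b, c⟩ | ⟨a, b, c⟩ <;>
          simp [d, a, b, c]
      rw [e, hc1, hc2]
end Cfsg.Agent.S2299
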