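import Cfsg.Statements.S2300
import Cfsg.Agent.Lib.TwoChar.DegreeCounts

set_option autoImplicit false
open Cfsg

namespace Cfsg.Agent.S2300

/-- Over a finite field F with q elements, q even, every irreducible complex character of SL₂ has degree 1, q − 1, q or q + 1; and when q ≥ 4 (so that these four numbers are distinct) there are exactly one irreducible character of degree 1, one of degree q, (q − 2)/2 of degree q + 1 and q/2 of degree q − 1. -/
theorem result {F : Type*} [Field F] [Fintype F] [CharP F 2] :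
    (∀ χ : Matrix.SpecialLinearGroup (Fin 2) F → ℂ, Cfsg.IsIrrCharacter (Matrix.SpecialLinearGroup (Fin 2) F) χ →
      χ 1 = 1 ∨ χ 1 = (Fintype.card F : ℂ) - 1 ∨ χ 1 = (Fintype.card F : ℂ) ∨ χ 1 = (Fintype.card F : ℂ) + 1) ∧
    (4 ≤ Fintype.card F →
      Nat.card {χ : Cfsg.IrrCharacter (Matrix.SpecialLinearGroup (Fin 2) F) // (χ : Matrix.SpecialLinearGroup (Fin 2) F → ℂ) 1 = 1} = 1 ∧
      Nat.card {χ : Cfsg.IrrCharacter (Matrix.SpecialLinearGroup (Fin 2) F) // (χ : Matrix.SpecialLinearGroup (Fin 2) F → ℂ) 1 = (Fintype.card F : ℂ)} = 1 ∧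
      Nat.card {χ : Cfsg.IrrCharacter (Matrix.SpecialLinearGroup (Fin 2) F) // (χ : Matrix.SpecialLinearGroup (Fin 2) F → ℂ) 1 = (Fintype.card F : ℂ) + 1} = (Fintype.card F - 2) / 2 ∧
      Nat.card {χ : Cfsg.IrrCharacter (Matrix.SpecialLinearGroup (Fin 2) F) // (χ : Matrix.SpecialLinearGroup (Fin 2) F → ℂ) 1 = (Fintype.card F : ℂ) - 1} = Fintype.card F / 2) := by
  classical
  let d := Lib.TwoChar.slDat F
  letI : Fintype (d.T →* ℂˣ) := @Fintype.ofFinite _ (Lib.TwoChar.finite_dual d.T)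
  obtain ⟨ψ, hψ⟩ := Lib.TwoChar.exists_addChar F
  obtain ⟨ht, hN, h10, h11⟩ := Lib.TwoChar.sl_even_types F hψ
  have ho := Lib.TwoChar.sl_oneOrbit F
  refine ⟨fun χ hχ => ?_, fun hq => ?_⟩
  · rcases ho.degree_cases hψ ht ⟨χ, hχ⟩ with ⟨-, -, e⟩ | ⟨-, -, e⟩ | ⟨-, -, e⟩ | ⟨-, -, e⟩
    · exact Or.inl e
    · exact Or.inr (Or.inr (Or.inl e))
    · exact Or.inr (Or.inr (Or.inr e))
    · exact Or.inr (Or.inl e)
  · have hq3 : 3 ≤ Fintype.card F := by omega
    refine ⟨?_, ?_, ?_, ?_⟩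
    · rw [Lib.TwoChar.Dat.card_of_iff fun χ => (ho.degree_iff hψ ht hq3 χ).1, h10]
    · rw [Lib.TwoChar.Dat.card_of_iff fun χ => (ho.degree_iff hψ ht hq3 χ).2.1, h11]
    · rw [Lib.TwoChar.Dat.card_of_iff fun χ => (ho.degree_iff hψ ht hq3 χ).2.2.1]
      have h2 := d.two_mul_card_A_two
      rw [Lib.TwoChar.nfix_sl_even, Lib.TwoChar.card_slT] at h2
      change (Finset.univ.filter fun χ : IrrCharacter _ => d.A χ = 2).card = _
      omega
    · rw [Lib.TwoChar.Dat.card_of_iff fun χ => (ho.degree_iff hψ ht hq3 χ).2.2.2]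
      omega
end Cfsg.Agent.S2300
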