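import Cfsg.Statements.S2301
import Cfsg.Agent.Lib.Two.SL

set_option autoImplicit false
open Cfsg

namespace Cfsg.Agent.S2301

/-- Over a finite field with q elements of odd characteristic p, the elements of order p of SL₂ (the non-identity unipotent elements) fall into exactly two conjugacy classes, each of size (q² − 1)/2; two upper unitriangular matrices with non-zero off-diagonal entries b and b′ are conjugate exactly when bb′ is a square. -/
theorem result {F : Type*} [Field F] [Fintype F] (p : ℕ) [Fact p.Prime] [CharP F p] (hp : p ≠ 2) :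
    Nat.card {C : ConjClasses (Matrix.SpecialLinearGroup (Fin 2) F) // ∃ g : Matrix.SpecialLinearGroup (Fin 2) F, orderOf g = p ∧ ConjClasses.mk g = C} = 2 ∧
    (∀ g : Matrix.SpecialLinearGroup (Fin 2) F, orderOf g = p → Nat.card (ConjClasses.mk g).carrier = (Fintype.card F ^ 2 - 1) / 2) ∧
    ∀ g h : Matrix.SpecialLinearGroup (Fin 2) F, (g : Matrix (Fin 2) (Fin 2) F) 0 0 = 1 → (g : Matrix (Fin 2) (Fin 2) F) 1 1 = 1 → (g : Matrix (Fin 2) (Fin 2) F) 1 0 = 0 → (g : Matrix (Fin 2) (Fin 2) F) 0 1 ≠ 0 →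
      (h : Matrix (Fin 2) (Fin 2) F) 0 0 = 1 → (h : Matrix (Fin 2) (Fin 2) F) 1 1 = 1 → (h : Matrix (Fin 2) (Fin 2) F) 1 0 = 0 → (h : Matrix (Fin 2) (Fin 2) F) 0 1 ≠ 0 →
      (IsConj g h ↔ IsSquare ((g : Matrix (Fin 2) (Fin 2) F) 0 1 * (h : Matrix (Fin 2) (Fin 2) F) 0 1)) := by
  classical
  have hodd : Odd (Fintype.card F) := by
    obtain ⟨n, hp', hn⟩ := FiniteField.card F p
    rw [hn]; exact (hp'.odd_of_ne_two hp).pow
  have h2 := Cfsg.Agent.Lib.Two.two_ne_zero_of_odd hodd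
  let e1 : {e : F // e * e = 1} := ⟨1, one_mul 1⟩
  have hinj : Function.Injective (Matrix.SpecialLinearGroup.toGL : Matrix.SpecialLinearGroup (Fin 2) F →* GL (Fin 2) F) :=
    Matrix.SpecialLinearGroup.toGL_injective
  have key : ∀ x : Matrix.SpecialLinearGroup (Fin 2) F, orderOf x = p →
      ∃ b : F, b ≠ 0 ∧ IsConj x (Cfsg.Agent.Lib.Two.unipSL e1 b) := by
    intro x hx
    obtain ⟨h1, h2, -⟩ := Cfsg.Agent.Lib.Two.order_p_invariants p (Matrix.SpecialLinearGroup.toGL x)
      (by rw [orderOf_injective _ hinj, hx])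
    exact Cfsg.Agent.Lib.Two.exists_isConj_unipSL x h1 e1 (by rw [mul_one]; exact h2)
  have hord : ∀ b : F, b ≠ 0 → orderOf (Cfsg.Agent.Lib.Two.unipSL e1 b) = p := by
    intro b hb
    have hpow : ∀ k : ℕ, ((Cfsg.Agent.Lib.Two.unipSL e1 b) ^ k : Matrix.SpecialLinearGroup (Fin 2) F) =
        Cfsg.Agent.Lib.Two.unipSL e1 (k * b) := by
      intro k
      induction k with
      | zero =>
        apply Subtype.ext
        rw [pow_zero, Cfsg.Agent.Lib.Two.coe_unipSL, Matrix.SpecialLinearGroup.coe_one]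
        ext i j; fin_cases i <;> fin_cases j <;> simp [e1]
      | succ k ih =>
        rw [pow_succ, ih]
        apply Subtype.ext
        rw [Matrix.SpecialLinearGroup.coe_mul, Cfsg.Agent.Lib.Two.coe_unipSL,
          Cfsg.Agent.Lib.Two.coe_unipSL, Cfsg.Agent.Lib.Two.coe_unipSL]
        ext i j; fin_cases i <;> fin_cases j <;> simp [e1, Matrix.mul_apply] <;> ring
    refine orderOf_eq_prime ?_ ?_
    · rw [hpow, CharP.cast_eq_zero, zero_mul]
      apply Subtype.ext
      rw [Cfsg.Agent.Lib.Two.coe_unipSL, Matrix.SpecialLinearGroup.coe_one]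
      ext i j; fin_cases i <;> fin_cases j <;> simp [e1]
    · intro h
      exact Cfsg.Agent.Lib.Two.unipSL_not_scalar e1 b hb (by rw [h]; simp [Cfsg.Agent.Lib.Two.IsScalar2])
  refine ⟨?_, ?_, ?_⟩
  · have hne : ringChar F ≠ 2 := by rw [ringChar.eq F p]; exact hp
    obtain ⟨ν, hν⟩ := FiniteField.exists_nonsquare hne
    have hν0 : ν ≠ 0 := fun h => hν (h ▸ IsSquare.zero)
    rw [Nat.card_eq_two_iff]
    refine ⟨⟨_, _, hord 1 one_ne_zero, rfl⟩, ⟨_, _, hord ν hν0, rfl⟩, ?_, ?_⟩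
    · intro h
      have := (Cfsg.Agent.Lib.Two.isConj_unipSL_iff e1 1 ν one_ne_zero hν0).1
        (ConjClasses.mk_eq_mk_iff_isConj.1 (congrArg Subtype.val h))
      rw [one_mul] at this
      exact hν this
    · ext ⟨C, g, hg, rfl⟩
      simp only [Set.mem_insert_iff, Set.mem_singleton_iff, Subtype.mk.injEq, Set.mem_univ, iff_true,
        ConjClasses.mk_eq_mk_iff_isConj]
      obtain ⟨b, hb, hgb⟩ := key g hg
      by_cases hsq : IsSquare b
      · exact .inl (hgb.trans ((Cfsg.Agent.Lib.Two.isConj_unipSL_iff e1 b 1 hb one_ne_zero).2 (by rwa [mul_one])))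
      · refine .inr (hgb.trans ((Cfsg.Agent.Lib.Two.isConj_unipSL_iff e1 b ν hb hν0).2 ?_))
        have := (quadraticChar_neg_one_iff_not_isSquare (F := F) (a := ν)).2 hν
        have := (quadraticChar_neg_one_iff_not_isSquare (F := F) (a := b)).2 hsq
        rw [← quadraticChar_one_iff_isSquare (mul_ne_zero hb hν0), map_mul]
        simp [*]
  · intro g hg
    obtain ⟨b, hb, hgb⟩ := key g hg
    have hc := Cfsg.Agent.Lib.Two.card_carrier_mul (Cfsg.Agent.Lib.Two.unipSL e1 b)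
    rw [← ConjClasses.mk_eq_mk_iff_isConj.2 hgb, Cfsg.Agent.Lib.Two.card_centralizer_unipSL _ b hb,
      Cfsg.Agent.Lib.Classical.card_SL_two, Cfsg.Agent.Lib.Two.card_sign hodd,
      Nat.card_eq_fintype_card (α := F), ← mul_assoc, mul_comm (Fintype.card F)] at hc
    rw [← Nat.eq_of_mul_eq_mul_right Fintype.card_pos hc, Nat.mul_div_cancel _ (by norm_num)]
  · intro g h g00 g11 g10 g01 h00 h11 h10 h01
    have e : ∀ x : Matrix.SpecialLinearGroup (Fin 2) F, (x : Matrix (Fin 2) (Fin 2) F) 0 0 = 1 →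
        (x : Matrix (Fin 2) (Fin 2) F) 1 1 = 1 → (x : Matrix (Fin 2) (Fin 2) F) 1 0 = 0 →
        x = Cfsg.Agent.Lib.Two.unipSL e1 ((x : Matrix (Fin 2) (Fin 2) F) 0 1) := by
      intro x a b c
      apply Subtype.ext
      rw [Cfsg.Agent.Lib.Two.coe_unipSL]
      ext i j; fin_cases i <;> fin_cases j <;> simp [e1, a, b, c]
    rw [e g g00 g11 g10, e h h00 h11 h10, Cfsg.Agent.Lib.Two.isConj_unipSL_iff e1 _ _ g01 h01]
    simp [Cfsg.Agent.Lib.Two.coe_unipSL, e1]

end Cfsg.Agent.S2301
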