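import Cfsg.Statements.S2302
import Cfsg.Agent.Lib.Two.SL

set_option autoImplicit false
open Cfsg

namespace Cfsg.Agent.S2302

/-- Over a finite field with q elements of characteristic 2, the involutions of SL₂ (the non-identity unipotent elements) form a single conjugacy class, of size q² − 1. -/
theorem result {F : Type*} [Field F] [Fintype F] [CharP F 2] (g h : Matrix.SpecialLinearGroup (Fin 2) F) (hg : orderOf g = 2) (hh : orderOf h = 2) :
    IsConj g h ∧ Nat.card (ConjClasses.mk g).carrier = Fintype.card F ^ 2 - 1 := by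
  classical
  haveI : Fact (Nat.Prime 2) := ⟨Nat.prime_two⟩
  have hinj : Function.Injective (Matrix.SpecialLinearGroup.toGL : Matrix.SpecialLinearGroup (Fin 2) F →* GL (Fin 2) F) :=
    Matrix.SpecialLinearGroup.toGL_injective
  have key : ∀ x : Matrix.SpecialLinearGroup (Fin 2) F, orderOf x = 2 →
      ¬ Cfsg.Agent.Lib.Two.IsScalar2 (x : Matrix (Fin 2) (Fin 2) F) ∧ (x : Matrix (Fin 2) (Fin 2) F).trace = 2 := by
    intro x hx
    obtain ⟨h1, h2, -⟩ := Cfsg.Agent.Lib.Two.order_p_invariants 2 (Matrix.SpecialLinearGroup.toGL x)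
      (by rw [orderOf_injective _ hinj, hx])
    exact ⟨h1, h2⟩
  obtain ⟨hgs, hgt⟩ := key g hg
  obtain ⟨hhs, hht⟩ := key h hh
  refine ⟨Cfsg.Agent.Lib.Two.sl_isConj_of_trace g h hgs hhs (hgt.trans hht.symm)
    fun δ _ => Cfsg.Agent.Lib.Two.values_of_char_two _ δ, ?_⟩
  obtain ⟨b, hb, hgb⟩ := Cfsg.Agent.Lib.Two.exists_isConj_unipSL g hgs ⟨1, one_mul 1⟩ (by rw [hgt, mul_one])
  have hc := Cfsg.Agent.Lib.Two.card_carrier_mul (Cfsg.Agent.Lib.Two.unipSL (F := F) ⟨1, one_mul 1⟩ b)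
  rw [← ConjClasses.mk_eq_mk_iff_isConj.2 hgb, Cfsg.Agent.Lib.Two.card_centralizer_unipSL _ b hb,
    Cfsg.Agent.Lib.Classical.card_SL_two] at hc
  have hE : Nat.card {e : F // e * e = 1} = 1 := by
    rw [Nat.card_eq_one_iff_unique]
    refine ⟨⟨?_⟩, ⟨⟨1, one_mul 1⟩⟩⟩
    intro a b
    have : ∀ e : {e : F // e * e = 1}, e.1 = 1 := by
      intro e
      rcases mul_self_eq_one_iff.1 e.2 with h | h
      · exact h
      · rw [h, CharTwo.neg_eq]
    exact Subtype.ext ((this a).trans (this b).symm)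
  rw [hE, one_mul, Nat.card_eq_fintype_card (α := F), mul_comm (Fintype.card F)] at hc
  exact Nat.eq_of_mul_eq_mul_right Fintype.card_pos hc

end Cfsg.Agent.S2302
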