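import Cfsg.Statements.S2306
import Cfsg.Agent.Lib.TwoChar.Principal

set_option autoImplicit false
open Cfsg

namespace Cfsg.Agent.S2306

/-- Over a finite field F, for a multiplicative character α of F, the function induced to SL₂ from the linear character b ↦ α(b₁₁) of the upper triangular subgroup is an irreducible character if and only if α² ≠ 1. -/
theorem result {F : Type*} [Field F] [Fintype F] [DecidableEq F] (α : MulChar F ℂ) :
    Cfsg.IsIrrCharacter (Matrix.SpecialLinearGroup (Fin 2) F) (Cfsg.indFun ((Cfsg.upperTriangularGL 2 F).comap Matrix.SpecialLinearGroup.toGL) (fun b => α (((b : Matrix.SpecialLinearGroup (Fin 2) F) : Matrix (Fin 2) (Fin 2) F) 0 0))) ↔ α ^ 2 ≠ 1 := by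
  classical
  let d := Lib.TwoChar.slDat F
  have h := d.I_irr_iff (d.pairHom α 1)
  rw [Lib.TwoChar.Dat.I, ← d.pch_pairHom_one, Lib.TwoChar.sl_pairHom_comp_swap, Ne,
    Lib.TwoChar.sl_pairHom_eq_iff, inv_eq_iff_mul_eq_one, ← sq] at h
  exact h
end Cfsg.Agent.S2306
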