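import Cfsg.Statements.S2307
import Cfsg.Agent.Lib.TwoChar.SLOddValues

set_option autoImplicit false
open Cfsg

namespace Cfsg.Agent.S2307

/-- Over a finite field F with q elements, q odd, let α be the multiplicative character of F of order 2. The character of SL₂ induced from the linear character b ↦ α(b₁₁) of the upper triangular subgroup is the sum of two distinct irreducible characters, each of degree (q + 1)/2, which are conjugate under GL₂: some fixed element of GL₂ conjugates the one into the other. -/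
theorem result {F : Type*} [Field F] [Fintype F] [DecidableEq F] (hodd : Odd (Fintype.card F)) (α : MulChar F ℂ)
    (hα : α ^ 2 = 1) (hα1 : α ≠ 1) :
    ∃ χ₁ χ₂ : Matrix.SpecialLinearGroup (Fin 2) F → ℂ, Cfsg.IsIrrCharacter (Matrix.SpecialLinearGroup (Fin 2) F) χ₁ ∧ Cfsg.IsIrrCharacter (Matrix.SpecialLinearGroup (Fin 2) F) χ₂ ∧ χ₁ ≠ χ₂ ∧
      Cfsg.indFun ((Cfsg.upperTriangularGL 2 F).comap Matrix.SpecialLinearGroup.toGL) (fun b => α (((b : Matrix.SpecialLinearGroup (Fin 2) F) : Matrix (Fin 2) (Fin 2) F) 0 0)) = χ₁ + χ₂ ∧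
      χ₁ 1 = (((Fintype.card F + 1) / 2 : ℕ) : ℂ) ∧ χ₂ 1 = (((Fintype.card F + 1) / 2 : ℕ) : ℂ) ∧
      ∃ x : Matrix.GeneralLinearGroup (Fin 2) F, ∀ g h : Matrix.SpecialLinearGroup (Fin 2) F,
        Matrix.SpecialLinearGroup.toGL h = x * Matrix.SpecialLinearGroup.toGL g * x⁻¹ → χ₂ h = χ₁ g := by
  classical
  let d := Lib.TwoChar.slDat F
  letI : Fintype (d.T →* ℂˣ) := @Fintype.ofFinite _ (Lib.TwoChar.finite_dual d.T)
  obtain ⟨ψ, hψ⟩ := Lib.TwoChar.exists_addChar F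
  obtain ⟨η, hη⟩ := FiniteField.exists_nonsquare (Lib.TwoChar.ringChar_ne_two hodd)
  obtain ⟨T⟩ := Lib.TwoChar.exists_table hodd hη hψ
  have hl : d.pairHom α 1 = Lib.TwoChar.l0 := by
    have hfix : (d.pairHom α 1).comp d.swap = d.pairHom α 1 := by
      rw [Lib.TwoChar.sl_pairHom_comp_swap, Lib.TwoChar.sl_pairHom_eq_iff, inv_eq_iff_mul_eq_one, ← sq, hα]
    rcases Lib.TwoChar.fixed_cases hodd hfix with h | h
    · refine absurd ?_ hα1
      rw [← Lib.TwoChar.sl_pairHom_eq_iff F α 1, h]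
      exact MonoidHom.ext fun t => Units.ext (by simp [Lib.TwoChar.Dat.pairHom_apply])
    · exact h
  have hdeg : ∀ χ : IrrCharacter (Matrix.SpecialLinearGroup (Fin 2) F), d.A χ = 1 →
      d.M ψ χ + d.M (ψ.mulShift η) χ = 1 → χ.1 1 = (((Fintype.card F + 1) / 2 : ℕ) : ℂ) := fun χ a b => by
    rw [Lib.TwoChar.apply_one_odd hodd hη hψ, a, b, mul_one, Nat.cast_inj]
    obtain ⟨r, hr⟩ := hodd
    omega
  refine ⟨T.hp.1, T.hm.1, T.hp.2, T.hm.2, fun e => ?_, ?_, hdeg T.hp T.A_hp ?_, hdeg T.hm T.A_hm ?_,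
    (Matrix.GeneralLinearGroup.mkOfDetNeZero !![η, 0; 0, 1]
      (by simp [Matrix.det_fin_two, Lib.TwoChar.nonsquare_ne_zero hη]))⁻¹, fun g h hh => ?_⟩
  · have := T.M_hp.1
    rw [Subtype.ext e, T.M_hm.1] at this
    exact zero_ne_one this
  · refine (congrArg (Cfsg.indFun _) (d.pch_pairHom_one α)).trans ?_
    rw [hl]
    exact funext T.half_apply
  · rw [T.M_hp.1, T.M_hp.2]
  · rw [T.M_hm.1, T.M_hm.2]
  · rw [T.hm_apply hη hψ]
    refine congrArg T.hp.1 ?_
    have hs := Lib.TwoChar.toGL_sigma (Units.mk0 η (Lib.TwoChar.nonsquare_ne_zero hη)) h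
    apply Matrix.SpecialLinearGroup.toGL_injective
    refine hs.trans ?_
    rw [hh, inv_inv]
    exact by simp only [Units.val_mk0]; group

end Cfsg.Agent.S2307
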