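import Cfsg.Statements.S2308
import Cfsg.Agent.Lib.Two.GL

set_option autoImplicit false
open Cfsg

namespace Cfsg.Agent.S2308

/-- Values of the permutation character of GL₂ over a finite field F with q elements on the cosets of its upper triangular subgroup (equivalently, the number of lines of F² that an element maps to themselves): q + 1 at a scalar matrix, 2 at a diagonal matrix with two different diagonal entries, 0 at an element with no eigenvector in F², and 1 at an upper triangular matrix with equal diagonal entries and non-zero upper right entry. -/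
theorem result {F : Type*} [Field F] [Fintype F] (g : Matrix.GeneralLinearGroup (Fin 2) F) :
    ((∃ a : F, (g : Matrix (Fin 2) (Fin 2) F) = a • (1 : Matrix (Fin 2) (Fin 2) F)) → Cfsg.fixedPointCharacter (Cfsg.upperTriangularGL 2 F) g = Fintype.card F + 1) ∧
    ((g : Matrix (Fin 2) (Fin 2) F) 0 1 = 0 → (g : Matrix (Fin 2) (Fin 2) F) 1 0 = 0 → (g : Matrix (Fin 2) (Fin 2) F) 0 0 ≠ (g : Matrix (Fin 2) (Fin 2) F) 1 1 →
      Cfsg.fixedPointCharacter (Cfsg.upperTriangularGL 2 F) g = 2) ∧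
    ((∀ (c : F) (v : Fin 2 → F), v ≠ 0 → (g : Matrix (Fin 2) (Fin 2) F).mulVec v ≠ c • v) → Cfsg.fixedPointCharacter (Cfsg.upperTriangularGL 2 F) g = 0) ∧
    ((g : Matrix (Fin 2) (Fin 2) F) 1 0 = 0 → (g : Matrix (Fin 2) (Fin 2) F) 0 0 = (g : Matrix (Fin 2) (Fin 2) F) 1 1 → (g : Matrix (Fin 2) (Fin 2) F) 0 1 ≠ 0 →
      Cfsg.fixedPointCharacter (Cfsg.upperTriangularGL 2 F) g = 1) := by
  classical
  rw [Cfsg.Agent.Lib.Two.fixedPointCharacter_eq]
  refine ⟨?_, fun h01 h10 hne => ?_, fun hell => ?_, fun h10 heq h01 => ?_⟩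
  · rintro ⟨a, ha⟩
    rw [Nat.card_congr (Equiv.subtypeUnivEquiv fun o => ?_)]
    · simp [Nat.card_eq_fintype_card]
    · rcases o with _ | x <;> simp [ha]
  · norm_cast
    rw [Nat.card_eq_two_iff]
    refine ⟨⟨none, h10⟩, ⟨some 0, by simp [h01]⟩, by simp, ?_⟩
    ext ⟨o, ho⟩
    rcases o with _ | x
    · simp
    · simp only [h10, h01, zero_mul, zero_add, sub_zero] at ho
      have : x = 0 := by
        rcases mul_eq_zero.1 ho with h | h
        · exact absurd (sub_eq_zero.1 h).symm hne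
        · exact h
      simp [this]
  · norm_cast
    rw [Nat.card_eq_zero]
    left
    refine ⟨?_⟩
    rintro ⟨_ | x, ho⟩
    · exact hell ((g : Matrix (Fin 2) (Fin 2) F) 0 0) ![1, 0] (fun h => by simpa using congrFun h 0)
        (by ext i; fin_cases i <;> simp [Matrix.mulVec, dotProduct, Fin.sum_univ_two, show (g : Matrix (Fin 2) (Fin 2) F) 1 0 = 0 from ho])
    · exact Cfsg.Agent.Lib.Two.no_root_of_elliptic g hell
        ((g : Matrix (Fin 2) (Fin 2) F) 1 0 * x + (g : Matrix (Fin 2) (Fin 2) F) 1 1)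
        (by simp [Matrix.trace_fin_two, Matrix.det_fin_two]; linear_combination ((g : Matrix (Fin 2) (Fin 2) F) 1 0) * ho)
  · norm_cast
    rw [Nat.card_eq_one_iff_unique]
    refine ⟨⟨?_⟩, ⟨⟨none, h10⟩⟩⟩
    have key : ∀ x : F, (g : Matrix (Fin 2) (Fin 2) F) 1 0 * x ^ 2 +
        ((g : Matrix (Fin 2) (Fin 2) F) 1 1 - (g : Matrix (Fin 2) (Fin 2) F) 0 0) * x -
          (g : Matrix (Fin 2) (Fin 2) F) 0 1 ≠ 0 := fun x hx => h01 (by
      linear_combination -hx + x ^ 2 * h10 - x * heq)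
    rintro ⟨_ | x, hx⟩ ⟨_ | y, hy⟩
    · rfl
    · exact absurd hy (key y)
    · exact absurd hx (key x)
    · exact absurd hx (key x)

end Cfsg.Agent.S2308
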