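import Cfsg.Statements.S2309
import Cfsg.Agent.Lib.TwoChar.DegreeCounts

set_option autoImplicit false
open Cfsg

namespace Cfsg.Agent.S2309

/-- Over a finite field F with q elements: every irreducible complex character of GL₂ of degree q − 1 vanishes at every diagonal matrix with two distinct entries, and every irreducible complex character of degree q + 1 vanishes at every element with no eigenvector in F². -/
theorem result {F : Type*} [Field F] [Fintype F] (χ : Matrix.GeneralLinearGroup (Fin 2) F → ℂ) (hχ : Cfsg.IsIrrCharacter (Matrix.GeneralLinearGroup (Fin 2) F) χ) (g : Matrix.GeneralLinearGroup (Fin 2) F) :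
    (χ 1 = (Fintype.card F : ℂ) - 1 → (g : Matrix (Fin 2) (Fin 2) F) 0 1 = 0 → (g : Matrix (Fin 2) (Fin 2) F) 1 0 = 0 → (g : Matrix (Fin 2) (Fin 2) F) 0 0 ≠ (g : Matrix (Fin 2) (Fin 2) F) 1 1 → χ g = 0) ∧
    (χ 1 = (Fintype.card F : ℂ) + 1 → (∀ (c : F) (v : Fin 2 → F), v ≠ 0 → (g : Matrix (Fin 2) (Fin 2) F).mulVec v ≠ c • v) → χ g = 0) := by
  classical
  let d := Lib.TwoChar.glDat F
  letI : Fintype (d.T →* ℂˣ) := @Fintype.ofFinite _ (Lib.TwoChar.finite_dual d.T)
  obtain ⟨ψ, hψ⟩ := Lib.TwoChar.exists_addChar F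
  obtain ⟨ht, -, -, -⟩ := Lib.TwoChar.gl_types F hψ
  have ho := Lib.TwoChar.gl_oneOrbit F
  have hc := ho.degree_cases hψ ht ⟨χ, hχ⟩
  constructor
  · intro h1 g01 g10 hne
    have hu : ∀ i, (g : Matrix (Fin 2) (Fin 2) F) i i ≠ 0 := by
      intro i hi
      have := (Matrix.GeneralLinearGroup.det g).ne_zero
      rw [Matrix.GeneralLinearGroup.val_det_apply, Matrix.det_fin_two, g01, g10] at this
      fin_cases i <;> simp_all
    let t : d.T := ⟨(Units.mk0 _ (hu 0), Units.mk0 _ (hu 1)), Lib.TwoChar.glDat_mem_T F _⟩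
    have hg : g = d.tt t := d.mat_injective (by
      rw [d.mat_tt]
      ext i j
      fin_cases i <;> fin_cases j <;> first | rfl | exact g01 | exact g10)
    have hne' : t.1.1 ≠ t.1.2 := fun e => hne (congrArg Units.val e)
    have hq : 3 ≤ Fintype.card F := by
      have h3 : ({0, (t.1.1 : F), (t.1.2 : F)} : Finset F).card ≤ Fintype.card F := Finset.card_le_univ _
      have h4 : ({0, (t.1.1 : F), (t.1.2 : F)} : Finset F).card = 3 := Finset.card_eq_three.mpr
        ⟨_, _, _, (Units.ne_zero _).symm, (Units.ne_zero _).symm, fun e => hne' (Units.ext e), rfl⟩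
      omega
    rw [hg]
    exact d.cusp_vanish hne' (fun ξ hξ => ho.norm_fixed_tt hψ hξ hne') (χ := ⟨χ, hχ⟩)
      ((ho.degree_iff hψ ht hq _).2.2.2.mp h1)
  · intro h1 hv
    have h2 : d.A ⟨χ, hχ⟩ = 2 := by
      have e2 : (Fintype.card F : ℂ) + 1 = ((Fintype.card F + 1 : ℕ) : ℂ) := by rw [Nat.cast_add, Nat.cast_one]
      have e1 := ho.apply_one hψ (⟨χ, hχ⟩ : IrrCharacter _)
      rw [show ((⟨χ, hχ⟩ : IrrCharacter (GL (Fin 2) F)) : GL (Fin 2) F → ℂ) 1 = χ 1 from rfl, h1, e2, Nat.cast_inj] at e1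
      have := Fintype.one_lt_card (α := F)
      rcases hc with ⟨a, b, -⟩ | ⟨a, b, -⟩ | ⟨a, b, -⟩ | ⟨a, b, -⟩ <;> rw [a, b] at e1 <;> omega
    obtain ⟨l, -, hl⟩ := d.exists_regular_of_A_two h2
    rw [show χ g = d.I l g from congrFun hl g]
    exact d.I_eq_zero_of_no_eigen l g hv
end Cfsg.Agent.S2309
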