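import Cfsg.Statements.S2310
import Cfsg.Agent.Lib.TwoChar.DegreeCounts

set_option autoImplicit false
open Cfsg

namespace Cfsg.Agent.S2310

/-- Over a finite field F with q ≥ 3 elements, let u be the upper unitriangular matrix of GL₂ with off-diagonal entry 1. An irreducible complex character χ of GL₂ takes at u the value 1 if χ has degree 1 or q + 1, the value −1 if χ has degree q − 1, and the value 0 if χ has degree q. -/
theorem result {F : Type*} [Field F] [Fintype F] (hq : 3 ≤ Fintype.card F) (χ : Matrix.GeneralLinearGroup (Fin 2) F → ℂ) (hχ : Cfsg.IsIrrCharacter (Matrix.GeneralLinearGroup (Fin 2) F) χ)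
    (u : Matrix.GeneralLinearGroup (Fin 2) F) (hu : (u : Matrix (Fin 2) (Fin 2) F) = !![1, 1; 0, 1]) :
    (χ 1 = 1 → χ u = 1) ∧ (χ 1 = (Fintype.card F : ℂ) + 1 → χ u = 1) ∧
    (χ 1 = (Fintype.card F : ℂ) - 1 → χ u = -1) ∧ (χ 1 = (Fintype.card F : ℂ) → χ u = 0) := by
  classical
  let d := Lib.TwoChar.glDat F
  letI : Fintype (d.T →* ℂˣ) := @Fintype.ofFinite _ (Lib.TwoChar.finite_dual d.T)
  obtain ⟨ψ, hψ⟩ := Lib.TwoChar.exists_addChar F
  obtain ⟨ht, -, -, -⟩ := Lib.TwoChar.gl_types F hψ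
  have hu' : u = d.uu 1 := d.mat_injective (hu.trans (d.mat_uu 1).symm)
  rw [hu']
  exact (Lib.TwoChar.gl_oneOrbit F).apply_uu_of_degree hψ ht hq ⟨χ, hχ⟩ one_ne_zero
end Cfsg.Agent.S2310
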