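import Cfsg.Statements.S2317
import Cfsg.Agent.Lib.Jordan.Matrix

set_option autoImplicit false
open Cfsg

namespace Cfsg.Agent.S2317

/-- Over a finite field of characteristic p, the conjugacy classes of GL_n consisting of elements of p-power order (the unipotent classes) are as many as the partitions of n. -/
theorem result {F : Type*} [Field F] [Fintype F] (p : ℕ) [Fact p.Prime] [CharP F p] (n : ℕ) :
    Nat.card {C : ConjClasses (Matrix.GeneralLinearGroup (Fin n) F) //
      ∃ g : Matrix.GeneralLinearGroup (Fin n) F, (∃ k : ℕ, orderOf g = p ^ k) ∧ ConjClasses.mk g = C} =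
      Fintype.card (Nat.Partition n) := by
  classical
  rw [← Finset.card_univ]
  refine Cfsg.Agent.Lib.Jordan.card_classes (fun g : Matrix.GeneralLinearGroup (Fin n) F => ∃ k : ℕ, orderOf g = p ^ k)
    (fun g (μ : Nat.Partition n) => Cfsg.Agent.Lib.Jordan.MType ((g : Matrix (Fin n) (Fin n) F) - 1) μ.parts)
    Finset.univ (fun g hg => ?_) (fun g a b ha hb => Nat.Partition.ext (ha.unique hb)) (fun g h a ha hgh => ?_)
    (fun g h a ha hb => ?_) (fun a _ => ?_)
  · obtain ⟨μ, hμ⟩ := Cfsg.Agent.Lib.Jordan.MType.exists_of_isNilpotent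
      ((Cfsg.Agent.Lib.Jordan.unipotent_iff p g).mp hg)
    exact ⟨⟨μ, fun hi => hμ.pos hi, by rw [hμ.sum_eq, Fintype.card_fin]⟩, Finset.mem_univ _, hμ⟩
  · obtain ⟨c, hc⟩ := hgh
    refine ha.conj c.val ?_
    rw [Matrix.mul_sub, Matrix.sub_mul, Matrix.mul_one, Matrix.one_mul, sub_left_inj, ← Units.val_mul, ← Units.val_mul]
    exact congrArg Units.val hc.eq
  · obtain ⟨c, hc⟩ := ha.exists_gl hb
    rw [Matrix.mul_sub, Matrix.sub_mul, Matrix.mul_one, Matrix.one_mul, sub_left_inj] at hc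
    exact isConj_iff.2 ⟨c, mul_inv_eq_iff_eq_mul.2 (Units.ext hc)⟩
  · obtain ⟨M, hM⟩ := Cfsg.Agent.Lib.Jordan.exists_mtype (F := F) a
    obtain ⟨u, hu⟩ := hM.isNilpotent.isUnit_one_add
    refine ⟨u, (Cfsg.Agent.Lib.Jordan.unipotent_iff p u).mpr ?_, ?_⟩ <;> rw [hu, add_sub_cancel_left]
    · exact hM.isNilpotent
    · exact hM

end Cfsg.Agent.S2317
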