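import Cfsg.Statements.S2320
import Cfsg.Agent.Lib.TwoChar.DegreeCounts

set_option autoImplicit false
open Cfsg

namespace Cfsg.Agent.S2320

/-- Over a finite field F with q elements, every irreducible complex character of GL₂ of degree q takes a value of absolute value 1 at every diagonal matrix with two different diagonal entries and at every element with no eigenvector in F². -/
theorem result {F : Type*} [Field F] [Fintype F] (χ : Matrix.GeneralLinearGroup (Fin 2) F → ℂ) (hχ : Cfsg.IsIrrCharacter (Matrix.GeneralLinearGroup (Fin 2) F) χ) (hdeg : χ 1 = (Fintype.card F : ℂ)) (g : Matrix.GeneralLinearGroup (Fin 2) F) :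
    ((g : Matrix (Fin 2) (Fin 2) F) 0 1 = 0 → (g : Matrix (Fin 2) (Fin 2) F) 1 0 = 0 → (g : Matrix (Fin 2) (Fin 2) F) 0 0 ≠ (g : Matrix (Fin 2) (Fin 2) F) 1 1 → ‖χ g‖ = 1) ∧
    ((∀ (c : F) (v : Fin 2 → F), v ≠ 0 → (g : Matrix (Fin 2) (Fin 2) F).mulVec v ≠ c • v) → ‖χ g‖ = 1) := by
  classical
  let d := Lib.TwoChar.glDat F
  letI : Fintype (d.T →* ℂˣ) := @Fintype.ofFinite _ (Lib.TwoChar.finite_dual d.T)
  obtain ⟨ψ, hψ⟩ := Lib.TwoChar.exists_addChar F
  obtain ⟨ht, -, -, -⟩ := Lib.TwoChar.gl_types F hψ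
  have ho := Lib.TwoChar.gl_oneOrbit F
  have hn : ∀ z : ℂ, z * starRingEnd ℂ z = 1 → ‖z‖ = 1 := fun z hz => by
    rw [Complex.mul_conj, Complex.ofReal_eq_one, Complex.normSq_eq_norm_sq] at hz
    exact (pow_eq_one_iff_of_nonneg (norm_nonneg z) two_ne_zero).mp hz
  obtain ⟨hA, hM⟩ : d.A ⟨χ, hχ⟩ = 1 ∧ d.M ψ ⟨χ, hχ⟩ = 1 := by
    have e1 := ho.apply_one hψ (⟨χ, hχ⟩ : IrrCharacter _)
    rw [show ((⟨χ, hχ⟩ : IrrCharacter (GL (Fin 2) F)) : GL (Fin 2) F → ℂ) 1 = χ 1 from rfl, hdeg, Nat.cast_inj] at e1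
    have := Fintype.one_lt_card (α := F)
    rcases ht ⟨χ, hχ⟩ with ⟨a, b⟩ | ⟨a, b⟩ | ⟨a, b⟩ | ⟨a, b⟩ <;> rw [a, b] at e1 ⊢ <;> omega
  constructor
  · intro g01 g10 hne
    have hu : ∀ i, (g : Matrix (Fin 2) (Fin 2) F) i i ≠ 0 := by
      intro i hi
      have := (Matrix.GeneralLinearGroup.det g).ne_zero
      rw [Matrix.GeneralLinearGroup.val_det_apply, Matrix.det_fin_two, g01, g10] at this
      fin_cases i <;> simp_all
    let t : d.T := ⟨(Units.mk0 _ (hu 0), Units.mk0 _ (hu 1)), Lib.TwoChar.glDat_mem_T F _⟩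
    have hg : g = d.tt t := d.mat_injective (by
      rw [d.mat_tt]
      ext i j
      fin_cases i <;> fin_cases j <;> first | rfl | exact g01 | exact g10)
    rw [hg]
    exact hn _ (ho.norm_fixed_tt hψ hA fun e => hne (congrArg Units.val e))
  · intro hv
    obtain ⟨l, χ₀, -, -, hA0, hM0, hval⟩ := Lib.TwoChar.Dat.partner hψ hA hM
    obtain ⟨w, hw⟩ := Lib.Char.exists_hom_of_degree_one (Lib.Char.isCharacter_of_isIrr χ₀.2)
      (by rw [ho.apply_one hψ, hA0, hM0]; simp)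
    refine hn _ ?_
    rw [show χ g = _ from hval g, d.I_eq_zero_of_no_eigen l g hv, hw, zero_sub, map_neg, neg_mul_neg]
    exact Lib.Char.linear_conj_mul w g
end Cfsg.Agent.S2320
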