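import Cfsg.Statements.S2321
import Cfsg.Agent.Lib.TwoChar.SLOddValues
import Cfsg.Agent.Lib.TwoChar.DegreeCounts

set_option autoImplicit false
open Cfsg

namespace Cfsg.Agent.S2321

/-- Over a finite field F with q elements, an irreducible complex character of SL₂ of degree q (the Steinberg character) takes the value 1 at every diagonal matrix whose diagonal entry a has a² ≠ 1, the value −1 at every element with no eigenvector in F², and the value 0 at every upper triangular matrix with equal diagonal entries and non-zero upper right entry. -/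
theorem result {F : Type*} [Field F] [Fintype F] (χ : Matrix.SpecialLinearGroup (Fin 2) F → ℂ) (hχ : Cfsg.IsIrrCharacter (Matrix.SpecialLinearGroup (Fin 2) F) χ) (hdeg : χ 1 = (Fintype.card F : ℂ)) (g : Matrix.SpecialLinearGroup (Fin 2) F) :
    ((g : Matrix (Fin 2) (Fin 2) F) 0 1 = 0 → (g : Matrix (Fin 2) (Fin 2) F) 1 0 = 0 → (g : Matrix (Fin 2) (Fin 2) F) 0 0 ^ 2 ≠ 1 → χ g = 1) ∧
    ((∀ (c : F) (v : Fin 2 → F), v ≠ 0 → (g : Matrix (Fin 2) (Fin 2) F).mulVec v ≠ c • v) → χ g = -1) ∧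
    ((g : Matrix (Fin 2) (Fin 2) F) 1 0 = 0 → (g : Matrix (Fin 2) (Fin 2) F) 0 0 = (g : Matrix (Fin 2) (Fin 2) F) 1 1 → (g : Matrix (Fin 2) (Fin 2) F) 0 1 ≠ 0 → χ g = 0) := by
  classical
  let d := Lib.TwoChar.slDat F
  letI : Fintype (d.T →* ℂˣ) := @Fintype.ofFinite _ (Lib.TwoChar.finite_dual d.T)
  obtain ⟨ψ, hψ⟩ := Lib.TwoChar.exists_addChar F
  have key : ∀ x, χ x = d.I 1 x - 1 := by
    rcases Nat.even_or_odd (Fintype.card F) with hev | hodd
    · haveI : CharP F 2 := ringChar.of_eq (FiniteField.even_card_iff_char_two.2 (Nat.even_iff.1 hev))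
      obtain ⟨ht, -, -, h11⟩ := Lib.TwoChar.sl_even_types F hψ
      have ho := Lib.TwoChar.sl_oneOrbit F
      obtain ⟨st, -, hA, hM, -, -, hst⟩ := d.exists_steinberg
      have h1 : d.A ⟨χ, hχ⟩ = 1 ∧ d.M ψ ⟨χ, hχ⟩ = 1 := by
        have e1 := ho.apply_one hψ (⟨χ, hχ⟩ : IrrCharacter _)
        rw [show (⟨χ, hχ⟩ : IrrCharacter (Matrix.SpecialLinearGroup (Fin 2) F)).1 1 = χ 1 from rfl, hdeg,
          Nat.cast_inj] at e1
        have := Fintype.one_lt_card (α := F)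
        rcases ht ⟨χ, hχ⟩ with ⟨a, b⟩ | ⟨a, b⟩ | ⟨a, b⟩ | ⟨a, b⟩ <;> rw [a, b] at e1 ⊢ <;> omega
      obtain ⟨a, ha⟩ := Finset.card_eq_one.1 h11
      have e1 : (⟨χ, hχ⟩ : IrrCharacter (Matrix.SpecialLinearGroup (Fin 2) F)) ∈ ({a} : Finset _) :=
        ha ▸ Finset.mem_filter.mpr ⟨Finset.mem_univ _, h1⟩
      have e2 : st ∈ ({a} : Finset (IrrCharacter (Matrix.SpecialLinearGroup (Fin 2) F))) :=
        ha ▸ Finset.mem_filter.mpr ⟨Finset.mem_univ _, hA, hM ψ hψ⟩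
      intro x
      rw [← hst x, ← (Finset.mem_singleton.mp e1).trans (Finset.mem_singleton.mp e2).symm]
    · obtain ⟨η, hη⟩ := FiniteField.exists_nonsquare (Lib.TwoChar.ringChar_ne_two hodd)
      obtain ⟨T⟩ := Lib.TwoChar.exists_table hodd hη hψ
      have e1 := Lib.TwoChar.apply_one_odd hodd hη hψ (⟨χ, hχ⟩ : IrrCharacter _)
      rw [show (⟨χ, hχ⟩ : IrrCharacter (Matrix.SpecialLinearGroup (Fin 2) F)).1 1 = χ 1 from rfl, hdeg,
        Nat.cast_inj] at e1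
      have hq1 : 2 * ((Fintype.card F - 1) / 2) + 1 = Fintype.card F := by obtain ⟨r, hr⟩ := hodd; omega
      have := Fintype.one_lt_card (α := F)
      have ht1 := d.M_triv (G := Matrix.SpecialLinearGroup (Fin 2) F) hψ
      have hh := (Lib.TwoChar.types_odd hodd hη hψ).1 ⟨χ, hχ⟩
      have h1 : d.A ⟨χ, hχ⟩ = 1 ∧ d.M ψ ⟨χ, hχ⟩ = 1 ∧ d.M (ψ.mulShift η) ⟨χ, hχ⟩ = 1 := by
        rcases hh with ⟨a, b, c⟩ | ⟨a, b, c⟩ | ⟨a, b, c⟩ | ⟨a, b, c⟩ | ⟨a, b, c⟩ | ⟨a, b, c⟩ | ⟨a, b, c⟩ | ⟨a, b, c⟩ <;>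
          rw [a, b, c] at e1 <;> refine ⟨?_, ?_, ?_⟩ <;> omega
      intro x
      rcases (T.A_one _).mp h1.1 with e | e | e | e
      · rw [e, ht1] at h1; omega
      · rw [← T.st_apply x, ← e]
      · rw [e, T.M_hp.2] at h1; omega
      · rw [e, T.M_hm.1] at h1; omega
  refine ⟨fun g01 g10 hsq => ?_, fun hv => ?_, fun g10 he g01 => ?_⟩
  · have hdet : (g : Matrix (Fin 2) (Fin 2) F) 0 0 * (g : Matrix (Fin 2) (Fin 2) F) 1 1 = 1 := by
      have := g.2
      rw [Matrix.det_fin_two, g01, g10, mul_zero, sub_zero] at this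
      exact this
    let t : d.T := ⟨(Units.mk0 _ (left_ne_zero_of_mul_eq_one hdet), Units.mk0 _ (right_ne_zero_of_mul_eq_one hdet)),
      by rw [d.mem_T]; exact Subgroup.mem_bot.mpr (Units.ext hdet)⟩
    have hg : g = d.tt t := d.mat_injective (by
      rw [d.mat_tt]
      ext i j
      fin_cases i <;> fin_cases j <;> first | rfl | exact g01 | exact g10)
    have hne : t.1.1 ≠ t.1.2 := fun e => hsq (by
      have e' : (g : Matrix (Fin 2) (Fin 2) F) 0 0 = (g : Matrix (Fin 2) (Fin 2) F) 1 1 := congrArg Units.val e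
      rw [← e'] at hdet
      rw [sq, hdet])
    rw [key, hg, d.I_tt 1 t hne]
    norm_num
  · rw [key, d.I_eq_zero_of_no_eigen 1 g hv, zero_sub]
  · have hm : g ∈ d.B := (d.mem_B g).2 g10
    have : IsEmpty {x : F // (d.mat g 1 1 - d.mat g 0 0) * x = d.mat g 0 1} :=
      ⟨fun y => g01 (y.2.symm.trans (mul_eq_zero_of_left (sub_eq_zero.mpr he.symm) _))⟩
    rw [key, d.I_borel 1 ⟨g, hm⟩, Nat.card_of_isEmpty]
    simp
end Cfsg.Agent.S2321
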