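import Cfsg.Statements.S2322
import Cfsg.Agent.Lib.TwoChar.SLOddValues

set_option autoImplicit false
open Cfsg

namespace Cfsg.Agent.S2322

/-- Over a finite field F with q elements, q odd: every irreducible complex character of SL₂ of degree q − 1 or (q − 1)/2 vanishes at every diagonal matrix whose diagonal entry a has a² ≠ 1, and every irreducible complex character of degree q + 1 or (q + 1)/2 vanishes at every element with no eigenvector in F². -/
theorem result {F : Type*} [Field F] [Fintype F] (hodd : Odd (Fintype.card F)) (χ : Matrix.SpecialLinearGroup (Fin 2) F → ℂ) (hχ : Cfsg.IsIrrCharacter (Matrix.SpecialLinearGroup (Fin 2) F) χ) (g : Matrix.SpecialLinearGroup (Fin 2) F) :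
    ((χ 1 = (Fintype.card F : ℂ) - 1 ∨ χ 1 = (((Fintype.card F - 1) / 2 : ℕ) : ℂ)) →
      (g : Matrix (Fin 2) (Fin 2) F) 0 1 = 0 → (g : Matrix (Fin 2) (Fin 2) F) 1 0 = 0 → (g : Matrix (Fin 2) (Fin 2) F) 0 0 ^ 2 ≠ 1 → χ g = 0) ∧
    ((χ 1 = (Fintype.card F : ℂ) + 1 ∨ χ 1 = (((Fintype.card F + 1) / 2 : ℕ) : ℂ)) →
      (∀ (c : F) (v : Fin 2 → F), v ≠ 0 → (g : Matrix (Fin 2) (Fin 2) F).mulVec v ≠ c • v) → χ g = 0) := by
  classical
  let d := Lib.TwoChar.slDat F
  letI : Fintype (d.T →* ℂˣ) := @Fintype.ofFinite _ (Lib.TwoChar.finite_dual d.T)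
  obtain ⟨ψ, hψ⟩ := Lib.TwoChar.exists_addChar F
  obtain ⟨η, hη⟩ := FiniteField.exists_nonsquare (Lib.TwoChar.ringChar_ne_two hodd)
  obtain ⟨T⟩ := Lib.TwoChar.exists_table hodd hη hψ
  have hq1 : 2 * ((Fintype.card F - 1) / 2) + 1 = Fintype.card F := by
    obtain ⟨r, hr⟩ := hodd; omega
  constructor
  · intro h1 g01 g10 hsq
    have hdet : (g : Matrix (Fin 2) (Fin 2) F) 0 0 * (g : Matrix (Fin 2) (Fin 2) F) 1 1 = 1 := by
      have := g.2
      rw [Matrix.det_fin_two, g01, g10, mul_zero, sub_zero] at this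
      exact this
    let t : d.T := ⟨(Units.mk0 _ (left_ne_zero_of_mul_eq_one hdet), Units.mk0 _ (right_ne_zero_of_mul_eq_one hdet)),
      by rw [d.mem_T]; exact Subgroup.mem_bot.mpr (Units.ext hdet)⟩
    have hg : g = d.tt t := d.mat_injective (by
      rw [d.mat_tt]
      ext i j
      fin_cases i <;> fin_cases j <;> first | rfl | exact g01 | exact g10)
    have hne : t.1.1 ≠ t.1.2 := fun e => hsq (by
      have e' : (g : Matrix (Fin 2) (Fin 2) F) 0 0 = (g : Matrix (Fin 2) (Fin 2) F) 1 1 := congrArg Units.val e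
      rw [← e'] at hdet
      rw [sq, hdet])
    have hq : 5 ≤ Fintype.card F := by
      have h2 := Lib.Two.two_ne_zero_of_odd hodd
      have h4 : ({0, 1, -1, (t.1.1 : F)} : Finset F).card = 4 := by
        have n1 : (t.1.1 : F) ≠ 1 := fun e => hsq (show (t.1.1 : F) ^ 2 = 1 by rw [e, one_pow])
        have n2 : (t.1.1 : F) ≠ -1 := fun e => hsq (show (t.1.1 : F) ^ 2 = 1 by rw [e]; norm_num)
        have n3 : (1 : F) ≠ -1 := fun e => h2 (by linear_combination e)
        simp [Ne.symm n1, Ne.symm n2, n3, Ne.symm (Units.ne_zero t.1.1)]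
      have h5 : ({0, 1, -1, (t.1.1 : F)} : Finset F).card ≤ Fintype.card F := Finset.card_le_univ _
      obtain ⟨r, hr⟩ := hodd
      omega
    have hi := Lib.TwoChar.degree_iff_odd hodd hη hψ hq ⟨χ, hχ⟩
    rw [hg]
    refine d.cusp_vanish hne (fun ξ hξ => T.norm_tt hη hψ hne hξ) (χ := ⟨χ, hχ⟩) ?_
    rcases h1 with h1 | h1
    · exact (hi.2.2.2.1.mp h1).1
    · exact (hi.2.2.2.2.2.mp h1).1
  · intro h1 hv
    have e1 := Lib.TwoChar.apply_one_odd hodd hη hψ (⟨χ, hχ⟩ : IrrCharacter _)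
    have e2 : (Fintype.card F : ℂ) + 1 = ((Fintype.card F + 1 : ℕ) : ℂ) := by rw [Nat.cast_add, Nat.cast_one]
    rw [e2] at h1
    have := Fintype.one_lt_card (α := F)
    have hreg : d.A ⟨χ, hχ⟩ = 2 → χ g = 0 := fun a => by
      obtain ⟨l, -, hl⟩ := d.exists_regular_of_A_two a
      rw [show χ g = d.I l g from congrFun hl g]
      exact d.I_eq_zero_of_no_eigen l g hv
    have hhalf : d.A ⟨χ, hχ⟩ = 1 → d.M ψ ⟨χ, hχ⟩ + d.M (ψ.mulShift η) ⟨χ, hχ⟩ = 1 → χ g = 0 := fun a b => by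
      rcases (T.A_one _).mp a with e | e | e | e
      · rw [e, d.M_triv hψ, d.M_triv (Lib.TwoChar.mulShift_ne hη hψ)] at b; omega
      · rw [e, T.M_st.1, T.M_st.2] at b; omega
      · exact (congrFun (congrArg Subtype.val e) g).trans (T.half_no_eigen hodd hη hψ hv).1
      · exact (congrFun (congrArg Subtype.val e) g).trans (T.half_no_eigen hodd hη hψ hv).2
    rcases h1 with h1 | h1 <;>
      rw [show (⟨χ, hχ⟩ : IrrCharacter (Matrix.SpecialLinearGroup (Fin 2) F)).1 1 = χ 1 from rfl, h1,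
        Nat.cast_inj] at e1 <;>
      rcases (Lib.TwoChar.types_odd hodd hη hψ).1 ⟨χ, hχ⟩ with ⟨a, b, c⟩ | ⟨a, b, c⟩ | ⟨a, b, c⟩ | ⟨a, b, c⟩ |
        ⟨a, b, c⟩ | ⟨a, b, c⟩ | ⟨a, b, c⟩ | ⟨a, b, c⟩ <;>
      rw [a, b, c] at e1 <;>
      first
        | omega
        | exact hreg a
        | exact hhalf a (by rw [b, c])
        | exact Lib.TwoChar.three_no_eigen hodd hη hψ (by omega) ⟨χ, hχ⟩ hv a b c
end Cfsg.Agent.S2322
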