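import Cfsg.Statements.S2323
import Cfsg.Agent.Lib.TwoChar.SLOddValues
import Cfsg.Agent.Lib.TwoChar.DegreeCounts

set_option autoImplicit false
open Cfsg

namespace Cfsg.Agent.S2323

/-- Over a finite field F with q ≥ 4 elements, let u be the upper unitriangular matrix of SL₂ with off-diagonal entry 1. An irreducible complex character of SL₂ takes at u the value 1 if its degree is q + 1 and the value −1 if its degree is q − 1. -/
theorem result {F : Type*} [Field F] [Fintype F] (hq : 4 ≤ Fintype.card F) (χ : Matrix.SpecialLinearGroup (Fin 2) F → ℂ) (hχ : Cfsg.IsIrrCharacter (Matrix.SpecialLinearGroup (Fin 2) F) χ)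
    (u : Matrix.SpecialLinearGroup (Fin 2) F) (hu : (u : Matrix (Fin 2) (Fin 2) F) = !![1, 1; 0, 1]) :
    (χ 1 = (Fintype.card F : ℂ) + 1 → χ u = 1) ∧ (χ 1 = (Fintype.card F : ℂ) - 1 → χ u = -1) := by
  classical
  let d := Lib.TwoChar.slDat F
  letI : Fintype (d.T →* ℂˣ) := @Fintype.ofFinite _ (Lib.TwoChar.finite_dual d.T)
  obtain ⟨ψ, hψ⟩ := Lib.TwoChar.exists_addChar F
  have hu' : u = d.uu 1 := d.mat_injective (hu.trans (d.mat_uu 1).symm)
  rw [hu']
  rcases Nat.even_or_odd (Fintype.card F) with hev | hodd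
  · haveI : CharP F 2 := ringChar.of_eq (FiniteField.even_card_iff_char_two.2 (Nat.even_iff.1 hev))
    obtain ⟨ht, -, -, -⟩ := Lib.TwoChar.sl_even_types F hψ
    have h := (Lib.TwoChar.sl_oneOrbit F).apply_uu_of_degree hψ ht (by omega) ⟨χ, hχ⟩ one_ne_zero
    exact ⟨h.2.1, h.2.2.1⟩
  · obtain ⟨η, hη⟩ := FiniteField.exists_nonsquare (Lib.TwoChar.ringChar_ne_two hodd)
    have hq5 : 5 ≤ Fintype.card F := by obtain ⟨r, hr⟩ := hodd; omega
    have hi := Lib.TwoChar.degree_iff_odd hodd hη hψ hq5 ⟨χ, hχ⟩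
    have hval := Lib.TwoChar.apply_uu_odd hη hψ (⟨χ, hχ⟩ : IrrCharacter _) one_ne_zero
    refine ⟨fun h => hval.trans ?_, fun h => hval.trans ?_⟩
    · have a := hi.2.2.1.mp h
      rw [a, d.M_of_A_two a hψ, d.M_of_A_two a (Lib.TwoChar.mulShift_ne hη hψ)]
      norm_num
    · obtain ⟨a, b, c⟩ := hi.2.2.2.1.mp h
      rw [a, b, c]
      norm_num
end Cfsg.Agent.S2323
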