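import Cfsg.Statements.S2324
import Cfsg.Agent.Lib.TwoChar.SLOddValues

set_option autoImplicit false
open Cfsg

namespace Cfsg.Agent.S2324

/-- Over a finite field F with q elements, q odd and q ≥ 5, let u be the upper unitriangular matrix of SL₂ with off-diagonal entry 1 and let δ = (−1)^((q−1)/2). Every irreducible complex character χ of SL₂ of degree (q + 1)/2 satisfies (2χ(u) − 1)² = δq, and every irreducible complex character χ of degree (q − 1)/2 satisfies (2χ(u) + 1)² = δq; that is, χ(u) = (1 ± √(δq))/2 in the first case and χ(u) = (−1 ± √(δq))/2 in the second. Moreover two different irreducible characters of degree (q + 1)/2 take the two different values (their values at u add up to 1), and likewise for degree (q − 1)/2 (values adding up to −1). -/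
theorem result {F : Type*} [Field F] [Fintype F] (hodd : Odd (Fintype.card F)) (hq : 5 ≤ Fintype.card F)
    (u : Matrix.SpecialLinearGroup (Fin 2) F) (hu : (u : Matrix (Fin 2) (Fin 2) F) = !![1, 1; 0, 1]) :
    (∀ χ : Matrix.SpecialLinearGroup (Fin 2) F → ℂ, Cfsg.IsIrrCharacter (Matrix.SpecialLinearGroup (Fin 2) F) χ → χ 1 = (((Fintype.card F + 1) / 2 : ℕ) : ℂ) → (2 * χ u - 1) ^ 2 = (-1 : ℂ) ^ ((Fintype.card F - 1) / 2) * (Fintype.card F : ℂ)) ∧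
    (∀ χ : Matrix.SpecialLinearGroup (Fin 2) F → ℂ, Cfsg.IsIrrCharacter (Matrix.SpecialLinearGroup (Fin 2) F) χ → χ 1 = (((Fintype.card F - 1) / 2 : ℕ) : ℂ) → (2 * χ u + 1) ^ 2 = (-1 : ℂ) ^ ((Fintype.card F - 1) / 2) * (Fintype.card F : ℂ)) ∧
    (∀ χ₁ χ₂ : Matrix.SpecialLinearGroup (Fin 2) F → ℂ, Cfsg.IsIrrCharacter (Matrix.SpecialLinearGroup (Fin 2) F) χ₁ → Cfsg.IsIrrCharacter (Matrix.SpecialLinearGroup (Fin 2) F) χ₂ → χ₁ ≠ χ₂ →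
      χ₁ 1 = (((Fintype.card F + 1) / 2 : ℕ) : ℂ) → χ₂ 1 = (((Fintype.card F + 1) / 2 : ℕ) : ℂ) → χ₁ u + χ₂ u = 1) ∧
    (∀ χ₁ χ₂ : Matrix.SpecialLinearGroup (Fin 2) F → ℂ, Cfsg.IsIrrCharacter (Matrix.SpecialLinearGroup (Fin 2) F) χ₁ → Cfsg.IsIrrCharacter (Matrix.SpecialLinearGroup (Fin 2) F) χ₂ → χ₁ ≠ χ₂ →
      χ₁ 1 = (((Fintype.card F - 1) / 2 : ℕ) : ℂ) → χ₂ 1 = (((Fintype.card F - 1) / 2 : ℕ) : ℂ) → χ₁ u + χ₂ u = -1) := by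
  classical
  let d := Lib.TwoChar.slDat F
  letI : Fintype (d.T →* ℂˣ) := @Fintype.ofFinite _ (Lib.TwoChar.finite_dual d.T)
  obtain ⟨ψ, hψ⟩ := Lib.TwoChar.exists_addChar F
  obtain ⟨η, hη⟩ := FiniteField.exists_nonsquare (Lib.TwoChar.ringChar_ne_two hodd)
  obtain ⟨T⟩ := Lib.TwoChar.exists_table hodd hη hψ
  obtain ⟨htyp, -, -, hc1, hc2⟩ := Lib.TwoChar.types_odd hodd hη hψ
  have hu' : u = d.uu 1 := d.mat_injective (hu.trans (d.mat_uu 1).symm)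
  rw [hu', ← Lib.TwoChar.gauss_sq hodd hψ]
  have hval := fun χ : IrrCharacter (Matrix.SpecialLinearGroup (Fin 2) F) =>
    Lib.TwoChar.apply_uu_odd hη hψ χ (one_ne_zero : (1 : F) ≠ 0)
  have hi := Lib.TwoChar.degree_iff_odd hodd hη hψ hq
  have hone : ∀ ξ ξ' : IrrCharacter (Matrix.SpecialLinearGroup (Fin 2) F), d.A ξ = d.A ξ' → d.A ξ ≤ 1 →
      d.M ψ ξ + d.M (ψ.mulShift η) ξ = 1 → d.M ψ ξ = d.M ψ ξ' →
      d.M (ψ.mulShift η) ξ = d.M (ψ.mulShift η) ξ' → ξ = ξ' := by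
    intro ξ ξ' ea hle es e1 e2
    rcases Nat.le_one_iff_eq_zero_or_eq_one.mp hle with a | a
    · rcases (show (d.M ψ ξ = 1 ∧ d.M (ψ.mulShift η) ξ = 0) ∨ (d.M ψ ξ = 0 ∧ d.M (ψ.mulShift η) ξ = 1) by omega)
        with ⟨b, c⟩ | ⟨b, c⟩
      · exact Finset.card_le_one.mp hc1.le ξ (Finset.mem_filter.mpr ⟨Finset.mem_univ _, a, b, c⟩) ξ'
          (Finset.mem_filter.mpr ⟨Finset.mem_univ _, ea ▸ a, e1 ▸ b, e2 ▸ c⟩)
      · exact Finset.card_le_one.mp hc2.le ξ (Finset.mem_filter.mpr ⟨Finset.mem_univ _, a, b, c⟩) ξ'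
          (Finset.mem_filter.mpr ⟨Finset.mem_univ _, ea ▸ a, e1 ▸ b, e2 ▸ c⟩)
    · have ht1 := d.M_triv (G := Matrix.SpecialLinearGroup (Fin 2) F) hψ
      have ht2 := d.M_triv (G := Matrix.SpecialLinearGroup (Fin 2) F) (Lib.TwoChar.mulShift_ne hη hψ)
      rcases (T.A_one ξ).mp a with rfl | rfl | rfl | rfl <;>
        rcases (T.A_one ξ').mp (ea ▸ a) with rfl | rfl | rfl | rfl <;>
        first
          | rfl
          | (exfalso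
             have := T.M_st; have := T.M_hp; have := T.M_hm
             simp only [d] at *
             omega)
  have hsq : ∀ (ξ : IrrCharacter (Matrix.SpecialLinearGroup (Fin 2) F)) (a : ℕ), d.A ξ = a →
      d.M ψ ξ + d.M (ψ.mulShift η) ξ = 1 →
      (2 * ξ.1 (d.uu 1) - (2 * (a : ℂ) - 1)) ^ 2 = gaussSum (Lib.TwoChar.qc F) ψ ^ 2 := by
    intro ξ a ea es
    rw [hval, ea, MulChar.map_one]
    rcases (show (d.M ψ ξ = 1 ∧ d.M (ψ.mulShift η) ξ = 0) ∨ (d.M ψ ξ = 0 ∧ d.M (ψ.mulShift η) ξ = 1) by omega)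
      with ⟨b, c⟩ | ⟨b, c⟩ <;> simp only [d] at b c <;> rw [b, c] <;> push_cast <;> ring
  have hadd : ∀ (ξ ξ' : IrrCharacter (Matrix.SpecialLinearGroup (Fin 2) F)) (a : ℕ), a ≤ 1 → d.A ξ = a → d.A ξ' = a →
      d.M ψ ξ + d.M (ψ.mulShift η) ξ = 1 → d.M ψ ξ' + d.M (ψ.mulShift η) ξ' = 1 → ξ ≠ ξ' →
      ξ.1 (d.uu 1) + (ξ' : _ → ℂ) (d.uu 1) = 2 * (a : ℂ) - 1 := by
    intro ξ ξ' a ha ea ea' es es' hne
    rw [hval, hval, ea, ea', MulChar.map_one]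
    rcases (show (d.M ψ ξ = 1 ∧ d.M (ψ.mulShift η) ξ = 0) ∨ (d.M ψ ξ = 0 ∧ d.M (ψ.mulShift η) ξ = 1) by omega)
      with ⟨b, c⟩ | ⟨b, c⟩ <;>
    rcases (show (d.M ψ ξ' = 1 ∧ d.M (ψ.mulShift η) ξ' = 0) ∨ (d.M ψ ξ' = 0 ∧ d.M (ψ.mulShift η) ξ' = 1) by omega)
      with ⟨b', c'⟩ | ⟨b', c'⟩ <;>
    first
      | exact absurd (hone ξ ξ' (ea.trans ea'.symm) (ea ▸ ha) es (b.trans b'.symm) (c.trans c'.symm)) hne
      | (simp only [d] at b c b' c'; rw [b, c, b', c']; push_cast; ring)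
  refine ⟨fun χ hχ h => ?_, fun χ hχ h => ?_, fun χ₁ χ₂ h₁ h₂ hne e₁ e₂ => ?_, fun χ₁ χ₂ h₁ h₂ hne e₁ e₂ => ?_⟩
  · obtain ⟨a, b⟩ := (hi ⟨χ, hχ⟩).2.2.2.2.1.mp h
    have := hsq ⟨χ, hχ⟩ 1 a b
    norm_num at this
    exact this
  · obtain ⟨a, b⟩ := (hi ⟨χ, hχ⟩).2.2.2.2.2.mp h
    have := hsq ⟨χ, hχ⟩ 0 a b
    norm_num at this
    exact this
  · obtain ⟨a, b⟩ := (hi ⟨χ₁, h₁⟩).2.2.2.2.1.mp e₁
    obtain ⟨a', b'⟩ := (hi ⟨χ₂, h₂⟩).2.2.2.2.1.mp e₂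
    have := hadd ⟨χ₁, h₁⟩ ⟨χ₂, h₂⟩ 1 le_rfl a a' b b' fun e => hne (congrArg Subtype.val e)
    norm_num at this
    exact this
  · obtain ⟨a, b⟩ := (hi ⟨χ₁, h₁⟩).2.2.2.2.2.mp e₁
    obtain ⟨a', b'⟩ := (hi ⟨χ₂, h₂⟩).2.2.2.2.2.mp e₂
    have := hadd ⟨χ₁, h₁⟩ ⟨χ₂, h₂⟩ 0 (by omega) a a' b b' fun e => hne (congrArg Subtype.val e)
    norm_num at this
    exact this
end Cfsg.Agent.S2324
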