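import Cfsg.Statements.S2325
import Cfsg.Agent.Lib.Two.SL

set_option autoImplicit false
open Cfsg

namespace Cfsg.Agent.S2325

/-- Over a finite field with q elements, q odd, the special linear group SL₂ has exactly q + 4 conjugacy classes. -/
theorem result {F : Type*} [Field F] [Fintype F] (hodd : Odd (Fintype.card F)) :
    Nat.card (ConjClasses (Matrix.SpecialLinearGroup (Fin 2) F)) = Fintype.card F + 4 := by
  exact Cfsg.Agent.Lib.Two.card_classes_sl_odd hodd

end Cfsg.Agent.S2325
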