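import Cfsg.Statements.S2328
import Cfsg.Agent.Lib.Chev.Steinberg
import Cfsg.Agent.Lib.Char.Regular
import Cfsg.Agent.S2326

set_option autoImplicit false
open Cfsg

namespace Cfsg.Agent.S2328

/-- In a Chevalley group of type G₂, B₂, D₄, F₄, E₆, E₇ or E₈ over a finite field of characteristic p, the Steinberg character vanishes at every element whose order is divisible by p (every element that is not semisimple). -/
theorem result {F : Type*} [Field F] [Fintype F] (p : ℕ) [Fact p.Prime] [CharP F p] (D : Cfsg.Lie.ChevalleyDatum) (hD : D ∈ [Cfsg.Lie.chevG2, Cfsg.Lie.chevB2, Cfsg.Lie.chevD4, Cfsg.Lie.chevF4, Cfsg.Lie.chevE6, Cfsg.Lie.chevE7, Cfsg.Lie.chevE8]) (g : ↥(D.group F)) (hg : p ∣ orderOf g) :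
    D.steinbergCharacter F g = 0 := by
  obtain ⟨T, C⟩ := Lib.Chev.exists_checked hD
  have := Fintype.ofFinite ↥(D.group F)
  obtain ⟨P, hP⟩ := Cfsg.Agent.S2326.result p D hD (F := F)
  have hp : p.Prime := Fact.out
  refine Lib.Char.apply_eq_zero_of_defect_zero C.steinberg_isIrr hp ?_ hg
  rw [Lib.Char.charDegree_eq_of_apply_one (n := Fintype.card F ^ (D.nroots / 2))
    (by rw [C.steinberg_one, Nat.cast_pow])]
  refine dvd_of_eq ?_
  rw [← P.card_eq_multiplicity, hP, Nat.card_congr (Subgroup.subgroupOfEquivOfLe C.pos_le_group).toEquiv,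
    Lib.Chev.posUnipotent_eq, C.card_grp C.closedSet_pos, C.ncard_pos, C.npos_eq]

end Cfsg.Agent.S2328
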