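import Cfsg.Statements.S2362
import Mathlib
import Cfsg.Agent.Lib.GS.OrthOrderPN
import Cfsg.Agent.Lib.Classical.Symplectic
import Cfsg.Agent.Lib.Classical.QuadOmega.Std

set_option autoImplicit false
open Cfsg

namespace Cfsg.Agent.S2362

open Matrix

theorem sp_blocks {F : Type*} [Field F] {n : ℕ} (G A B C D : Matrix (Fin n) (Fin n) F) (hGs : Gᵀ = G)
    (hG : IsUnit G.det) {S : Set (Matrix (Fin n) (Fin n) F)} (hT : ∀ X : S, (X : Matrix (Fin n) (Fin n) F)ᵀ * G = G * X)
    (hdet : A * D - B * C = 1) (hcomm : ∀ X Y : S, (X : Matrix (Fin n) (Fin n) F) * Y = Y * X)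
    (hmem : A ∈ S ∧ B ∈ S ∧ C ∈ S ∧ D ∈ S) :
    Matrix.fromBlocks A (B * G⁻¹) (G * C) (G * D * G⁻¹) ∈ Matrix.symplecticGroup (Fin n) F := by
  obtain ⟨mA, mB, mC, mD⟩ := hmem
  have hgg : G * G⁻¹ = 1 := Matrix.mul_nonsing_inv _ hG
  have hgi : G⁻¹ * G = 1 := Matrix.nonsing_inv_mul _ hG
  have hGi : (G⁻¹)ᵀ = G⁻¹ := by rw [Matrix.transpose_nonsing_inv, hGs]
  have ht : ∀ X ∈ S, Xᵀ = G * X * G⁻¹ := fun X hX => by
    rw [← hT ⟨X, hX⟩, Matrix.mul_assoc, hgg, Matrix.mul_one]
  have hQ : (B * G⁻¹)ᵀ = B * G⁻¹ := by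
    rw [Matrix.transpose_mul, hGi, ht B mB, ← Matrix.mul_assoc, ← Matrix.mul_assoc, hgi, Matrix.one_mul]
  have hR : (G * C)ᵀ = G * C := by
    rw [Matrix.transpose_mul, hGs, ht C mC, Matrix.mul_assoc, hgi, Matrix.mul_one]
  have hS : (G * D * G⁻¹)ᵀ = D := by
    rw [Matrix.transpose_mul, Matrix.transpose_mul, hGi, hGs, ht D mD]
    simp only [Matrix.mul_assoc, hgi, Matrix.mul_one]
    rw [← Matrix.mul_assoc, hgi, Matrix.one_mul]
  have k : ∀ X Y : Matrix (Fin n) (Fin n) F, X * G⁻¹ * (G * Y) = X * Y := fun X Y => by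
    rw [Matrix.mul_assoc X, ← Matrix.mul_assoc G⁻¹, hgi, Matrix.one_mul]
  rw [SymplecticGroup.mem_iff, Matrix.J, Matrix.fromBlocks_multiply, Matrix.fromBlocks_transpose,
    Matrix.fromBlocks_multiply]
  simp only [Matrix.mul_zero, zero_add, add_zero, Matrix.mul_one, Matrix.mul_neg, Matrix.neg_mul, hQ, hR, hS,
    ht A mA]
  congr 1
  · rw [Matrix.mul_assoc G A, k, ← Matrix.mul_assoc B, ← Matrix.mul_assoc A B, hcomm ⟨B, mB⟩ ⟨A, mA⟩, add_neg_cancel]
  · rw [k, ← sub_eq_add_neg, ← neg_sub, hdet]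
  · rw [Matrix.mul_assoc G A, k, ← sub_eq_add_neg,
      show G * D * (A * G⁻¹) = G * (D * A) * G⁻¹ by simp only [Matrix.mul_assoc],
      show G * C * (B * G⁻¹) = G * (C * B) * G⁻¹ by simp only [Matrix.mul_assoc],
      ← Matrix.sub_mul, ← Matrix.mul_sub, hcomm ⟨D, mD⟩ ⟨A, mA⟩, hcomm ⟨C, mC⟩ ⟨B, mB⟩, hdet,
      Matrix.mul_one, hgg]
  · rw [k, Matrix.mul_assoc G D C, Matrix.mul_assoc G C D, hcomm ⟨D, mD⟩ ⟨C, mC⟩, add_neg_cancel]

section Embedding

variable {F : Type*} [Field F] {R : Type*} [CommRing R] [Algebra F R] {n : ℕ} (β : Module.Basis (Fin n) F R)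

/-- The Gram matrix of the trace form. -/
noncomputable abbrev gram : Matrix (Fin n) (Fin n) F := Algebra.traceMatrix F β

theorem gram_transpose : (gram β)ᵀ = gram β := by
  ext i j
  simp [gram, Algebra.traceMatrix_apply, Algebra.traceForm_apply, mul_comm]

theorem gram_mul_leftMul (x : R) : gram β * Algebra.leftMulMatrix β x = (Algebra.leftMulMatrix β x)ᵀ * gram β := by
  have key : ∀ (y : R) i j, (gram β * Algebra.leftMulMatrix β y) i j = Algebra.trace F R (β i * (y * β j)) := by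
    intro y i j
    rw [Matrix.mul_apply]
    conv_rhs => rw [← β.sum_repr (y * β j), Finset.mul_sum, map_sum]
    refine Finset.sum_congr rfl fun l _ => ?_
    rw [Algebra.leftMulMatrix_eq_repr_mul, mul_smul_comm, map_smul, smul_eq_mul, gram,
      Algebra.traceMatrix_apply, Algebra.traceForm_apply, mul_comm]
  ext i j
  rw [key, ← Matrix.transpose_apply ((Algebra.leftMulMatrix β x)ᵀ * gram β), Matrix.transpose_mul,
    Matrix.transpose_transpose, gram_transpose, key]
  congr 1; ring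

/-- The block matrix of an element of `SL₂`. -/
noncomputable def blk (h : Matrix (Fin 2) (Fin 2) R) : Matrix (Fin n ⊕ Fin n) (Fin n ⊕ Fin n) F :=
  Matrix.fromBlocks (Algebra.leftMulMatrix β (h 0 0)) (Algebra.leftMulMatrix β (h 0 1) * (gram β)⁻¹)
    (gram β * Algebra.leftMulMatrix β (h 1 0)) (gram β * Algebra.leftMulMatrix β (h 1 1) * (gram β)⁻¹)

variable (hG : IsUnit (gram β).det)
include hG

theorem blk_one : blk β (1 : Matrix (Fin 2) (Fin 2) R) = 1 := by
  simp [blk, Matrix.mul_nonsing_inv _ hG]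

theorem blk_mul (h h' : Matrix (Fin 2) (Fin 2) R) : blk β (h * h') = blk β h * blk β h' := by
  have e1 : ∀ X Y : Matrix (Fin n) (Fin n) F, X * (gram β)⁻¹ * (gram β * Y) = X * Y := fun X Y => by
    rw [Matrix.mul_assoc X, ← Matrix.mul_assoc (gram β)⁻¹, Matrix.nonsing_inv_mul _ hG, Matrix.one_mul]
  have e2 : ∀ X Y : Matrix (Fin n) (Fin n) F, X * (gram β)⁻¹ * (gram β * Y * (gram β)⁻¹) = X * Y * (gram β)⁻¹ :=
    fun X Y => by rw [← Matrix.mul_assoc (X * (gram β)⁻¹), e1]
  unfold blk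
  rw [Matrix.fromBlocks_multiply]
  simp only [Matrix.mul_apply, Fin.sum_univ_two, map_add, map_mul, e1, e2]
  congr 1 <;> simp [Matrix.mul_add, Matrix.add_mul, Matrix.mul_assoc]

theorem blk_mem (h : Matrix.SpecialLinearGroup (Fin 2) R) :
    blk β (h : Matrix (Fin 2) (Fin 2) R) ∈ Matrix.symplecticGroup (Fin n) F := by
  have hd := h.2
  rw [Matrix.det_fin_two] at hd
  obtain ⟨a, b, c, d, ha, hb, hc, hd'⟩ : ∃ a b c d : R, (h : Matrix (Fin 2) (Fin 2) R) 0 0 = a ∧
      (h : Matrix (Fin 2) (Fin 2) R) 0 1 = b ∧ (h : Matrix (Fin 2) (Fin 2) R) 1 0 = c ∧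
      (h : Matrix (Fin 2) (Fin 2) R) 1 1 = d := ⟨_, _, _, _, rfl, rfl, rfl, rfl⟩
  rw [blk, ha, hb, hc, hd']
  rw [ha, hb, hc, hd'] at hd
  refine sp_blocks (gram β) _ _ _ _ (gram_transpose β) hG (S := Set.range (Algebra.leftMulMatrix β)) (fun X => ?_) ?_ ?_ ?_
  · obtain ⟨_, x, rfl⟩ := X
    exact (gram_mul_leftMul β x).symm
  · rw [← map_mul, ← map_mul, ← map_sub, hd, map_one]
  · intro X Y
    obtain ⟨_, x, rfl⟩ := X
    obtain ⟨_, y, rfl⟩ := Y
    show Algebra.leftMulMatrix β x * Algebra.leftMulMatrix β y = _ * _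
    rw [← map_mul, ← map_mul, mul_comm]
  · exact ⟨⟨a, rfl⟩, ⟨b, rfl⟩, ⟨c, rfl⟩, ⟨d, rfl⟩⟩

/-- The embedding. -/
noncomputable def blkHom : Matrix.SpecialLinearGroup (Fin 2) R →* Matrix.symplecticGroup (Fin n) F where
  toFun h := ⟨blk β (h : Matrix (Fin 2) (Fin 2) R), blk_mem β hG h⟩
  map_one' := Subtype.ext (blk_one β hG)
  map_mul' h h' := Subtype.ext (blk_mul β hG _ _)

theorem blk_scalar (h : Matrix (Fin 2) (Fin 2) R) (c : F) (hc : blk β h = c • 1) :
    h = algebraMap F R c • 1 := by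
  rw [blk, ← Matrix.fromBlocks_one, Matrix.fromBlocks_smul, Matrix.fromBlocks_inj, smul_zero] at hc
  obtain ⟨h1, h2, h3, h4⟩ := hc
  have hi : Function.Injective (Algebra.leftMulMatrix β) := Algebra.leftMulMatrix_injective β
  have hgi := Matrix.nonsing_inv_mul _ hG
  have k1 : h 0 0 = algebraMap F R c := hi (by rw [h1, AlgHom.commutes, Algebra.algebraMap_eq_smul_one])
  have k2 : h 0 1 = 0 := hi (by
    have := congrArg (· * gram β) h2
    rwa [Matrix.mul_assoc, hgi, Matrix.mul_one, Matrix.zero_mul, ← map_zero (Algebra.leftMulMatrix β)] at this)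
  have k3 : h 1 0 = 0 := hi (by
    have := congrArg ((gram β)⁻¹ * ·) h3
    rwa [← Matrix.mul_assoc, hgi, Matrix.one_mul, Matrix.mul_zero, ← map_zero (Algebra.leftMulMatrix β)] at this)
  have k4 : h 1 1 = algebraMap F R c := hi (by
    have := congrArg (fun X => (gram β)⁻¹ * X * gram β) h4
    simp only [Matrix.mul_smul, Matrix.smul_mul, Matrix.mul_one, hgi] at this
    rw [← Matrix.mul_assoc, ← Matrix.mul_assoc, hgi, Matrix.one_mul, Matrix.mul_assoc, hgi, Matrix.mul_one] at this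
    rw [this, AlgHom.commutes, Algebra.algebraMap_eq_smul_one])
  ext i j
  fin_cases i <;> fin_cases j <;> simp [k1, k2, k3, k4]

end Embedding

theorem exists_psp_element {F : Type*} [Field F] [Fintype F] (p : ℕ) [Fact p.Prime] [CharP F p] (k : ℕ) (hk : 1 ≤ k) :
    ∃ x : Cfsg.PSp (k + 1) F, orderOf x = p * (Fintype.card F ^ k + 1) := by
  classical
  set q := Fintype.card F with hq
  have : NeZero k := ⟨by omega⟩
  let K := FiniteField.Extension F p k
  have : CharP K p := charP_of_injective_algebraMap (algebraMap F K).injective p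
  have : Fintype K := Fintype.ofFinite K
  let L := FiniteField.Extension K p 2
  have : Fintype L := Fintype.ofFinite L
  have hcK : Nat.card K = q ^ k := by rw [FiniteField.natCard_extension, Nat.card_eq_fintype_card]
  set N := q ^ k + 1 with hN
  have hqk : 1 < q ^ k := Nat.one_lt_pow (by omega) Fintype.one_lt_card
  obtain ⟨γ, hγ⟩ := IsCyclic.exists_ofOrder_eq_natCard (α := Lˣ)
  rw [Nat.card_units, FiniteField.natCard_extension, hcK] at hγ
  have hγ' : orderOf γ = (q ^ k - 1) * N := by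
    obtain ⟨t, ht⟩ : ∃ t, q ^ k = t + 1 := ⟨q ^ k - 1, by omega⟩
    rw [hγ, hN, ht, Nat.add_sub_cancel]
    refine Nat.sub_eq_of_eq_add ?_
    ring
  set v := γ ^ (q ^ k - 1) with hv
  have hvo : orderOf v = N := by
    rw [hv, orderOf_pow_of_dvd (by omega) (hγ' ▸ dvd_mul_right _ _), hγ', Nat.mul_div_cancel_left _ (by omega)]
  have hnorm : Algebra.norm K (v : L) = 1 := by
    rw [hv, Units.val_pow_eq_pow_val, map_pow, ← hcK, Nat.card_eq_fintype_card]
    exact FiniteField.pow_card_sub_one_eq_one _ (Algebra.norm_ne_zero_iff.2 γ.ne_zero)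
  let bL : Module.Basis (Fin 2) K L := Module.finBasisOfFinrankEq K L (FiniteField.finrank_extension K p 2)
  let s : Matrix.SpecialLinearGroup (Fin 2) K :=
    ⟨Algebra.leftMulMatrix bL (v : L), by rw [← Algebra.norm_eq_matrix_det, hnorm]⟩
  have hspow : ∀ j, ((s ^ j : Matrix.SpecialLinearGroup (Fin 2) K) : Matrix (Fin 2) (Fin 2) K) =
      Algebra.leftMulMatrix bL ((v ^ j : Lˣ) : L) := fun j => by
    rw [Matrix.SpecialLinearGroup.coe_pow, Units.val_pow_eq_pow_val, map_pow]
  have hs : ∀ j, s ^ j = 1 ↔ N ∣ j := fun j => by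
    rw [← hvo, orderOf_dvd_iff_pow_eq_one]
    constructor
    · intro h
      refine Units.ext (Algebra.leftMulMatrix_injective bL ?_)
      rw [← hspow, h, Units.val_one, map_one]; rfl
    · intro h
      refine Subtype.ext ?_
      rw [hspow, h, Units.val_one, map_one]; rfl
  let u : Matrix.SpecialLinearGroup (Fin 2) F := ⟨!![1, 1; 0, 1], by simp [Matrix.det_fin_two]⟩
  have hu : ∀ j : ℕ, ((u ^ j : Matrix.SpecialLinearGroup (Fin 2) F) : Matrix (Fin 2) (Fin 2) F) = !![1, (j : F); 0, 1] := by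
    intro j
    induction j with
    | zero => simp [Matrix.one_fin_two]
    | succ j ih =>
      rw [pow_succ, Matrix.SpecialLinearGroup.coe_mul, ih]
      simp [u, add_comm]
  have hu1 : ∀ j : ℕ, u ^ j = 1 ↔ p ∣ j := fun j => by
    rw [← CharP.cast_eq_zero_iff F p j, Matrix.SpecialLinearGroup.ext_iff, hu]
    constructor
    · intro h; simpa using h 0 1
    · intro h i l; rw [h]; simp [Matrix.one_fin_two]
  let g : Matrix.SpecialLinearGroup (Fin 2) (F × K) :=
    ⟨Matrix.of fun i j => ((u : Matrix (Fin 2) (Fin 2) F) i j, (s : Matrix (Fin 2) (Fin 2) K) i j), by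
      rw [Matrix.det_fin_two]
      refine Prod.ext ?_ ?_
      · simp [← Matrix.det_fin_two, u]
      · have := s.2
        rw [Matrix.det_fin_two] at this
        simpa using this⟩
  let π₁ : Matrix.SpecialLinearGroup (Fin 2) (F × K) →* Matrix.SpecialLinearGroup (Fin 2) F :=
    Matrix.SpecialLinearGroup.map (RingHom.fst F K)
  let π₂ : Matrix.SpecialLinearGroup (Fin 2) (F × K) →* Matrix.SpecialLinearGroup (Fin 2) K :=
    Matrix.SpecialLinearGroup.map (RingHom.snd F K)
  have hg₁ : π₁ g = u := by ext i j; rfl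
  have hg₂ : π₂ g = s := by ext i j; rfl
  have hg : ∀ j, g ^ j = 1 ↔ p * N ∣ j := fun j => by
    have hcop : Nat.Coprime p N := by
      rw [(Fact.out : p.Prime).coprime_iff_not_dvd]
      intro hd
      obtain ⟨f, -, hf⟩ := FiniteField.card F p
      have : p ∣ q ^ k := by
        rw [hq, hf, ← pow_mul]; exact dvd_pow_self p (mul_ne_zero f.2.ne' (by omega))
      exact (Fact.out : p.Prime).one_lt.ne' (Nat.dvd_one.1 ((Nat.dvd_add_right this).1 hd))
    constructor
    · intro h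
      refine hcop.mul_dvd_of_dvd_of_dvd ((hu1 j).1 ?_) ((hs j).1 ?_)
      · rw [← hg₁, ← map_pow, h, map_one]
      · rw [← hg₂, ← map_pow, h, map_one]
    · intro h
      have h1 : π₁ (g ^ j) = 1 := by rw [map_pow, hg₁]; exact (hu1 j).2 ((dvd_mul_right p N).trans h)
      have h2 : π₂ (g ^ j) = 1 := by rw [map_pow, hg₂]; exact (hs j).2 ((dvd_mul_left N p).trans h)
      ext i l
      · exact congrArg (fun X : Matrix.SpecialLinearGroup (Fin 2) F => (X : Matrix (Fin 2) (Fin 2) F) i l) h1 |>.trans (by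
          rcases eq_or_ne i l with rfl | hne <;> simp [*])
      · exact congrArg (fun X : Matrix.SpecialLinearGroup (Fin 2) K => (X : Matrix (Fin 2) (Fin 2) K) i l) h2 |>.trans (by
          rcases eq_or_ne i l with rfl | hne <;> simp [*])
  have hdimR : Module.finrank F (F × K) = k + 1 := by
    rw [Module.finrank_prod, Module.finrank_self, FiniteField.finrank_extension, add_comm]
  let β : Module.Basis (Fin (k + 1)) F (F × K) := Module.finBasisOfFinrankEq F (F × K) hdimR
  have hG : IsUnit (gram β).det := by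
    rw [isUnit_iff_ne_zero]
    unfold gram
    rw [Algebra.traceMatrix_of_basis]
    refine (LinearMap.BilinForm.nondegenerate_iff_det_ne_zero β).1 ?_
    have hsymm : ∀ x, (∀ y, Algebra.trace F (F × K) (x * y) = 0) → x = 0 := by
      rintro ⟨a, b⟩ h
      have ha : a = 0 := by simpa [Algebra.trace_self_apply] using h (1, 0)
      have hb : b = 0 := (traceForm_nondegenerate F K).1 b fun y => by simpa [Algebra.traceForm_apply] using h (0, y)
      rw [ha, hb]; rfl
    exact ⟨fun x hx => hsymm x fun y => by simpa [Algebra.traceForm_apply] using hx y,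
      fun x hx => hsymm x fun y => by simpa [Algebra.traceForm_apply, mul_comm] using hx y⟩
  let Φ := blkHom β hG
  refine ⟨QuotientGroup.mk (Φ g), (orderOf_eq_iff (Nat.mul_pos (Fact.out : p.Prime).pos (by omega))).2 ⟨?_, ?_⟩⟩
  · rw [← QuotientGroup.mk_pow, ← map_pow, (hg _).2 dvd_rfl, map_one, QuotientGroup.mk_one]
  · intro m hm hm0 hc
    rw [← QuotientGroup.mk_pow, ← map_pow, QuotientGroup.eq_one_iff] at hc
    obtain ⟨c, -, hc⟩ := Cfsg.Agent.Lib.Classical.exists_scalar_of_mem_center (k + 1) (by omega) hc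
    have hmat : blk β ((g ^ m : Matrix.SpecialLinearGroup (Fin 2) (F × K)) : Matrix (Fin 2) (Fin 2) (F × K)) = c • 1 :=
      Matrix.ext_of_mulVec_single fun i => (hc _).trans (by rw [Matrix.smul_mulVec, Matrix.one_mulVec])
    have h1 := blk_scalar β hG _ c hmat
    have h00 : ((π₁ (g ^ m) : Matrix.SpecialLinearGroup (Fin 2) F) : Matrix (Fin 2) (Fin 2) F) 0 0 = c := by
      show (((g ^ m : Matrix.SpecialLinearGroup (Fin 2) (F × K)) : Matrix (Fin 2) (Fin 2) (F × K)) 0 0).1 = c
      rw [h1]; simp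
    rw [map_pow, hg₁, hu] at h00
    have hc1 : c = 1 := by simpa using h00.symm
    have : g ^ m = 1 := Subtype.ext (by rw [h1, hc1, map_one, one_smul]; rfl)
    exact absurd (Nat.le_of_dvd hm0 ((hg m).1 this)) (by omega)

/-- Let F be a finite field of odd order and n ≥ 3. The simple orthogonal group PΩ(2n+1, F) (type B_n) and the projective symplectic group PSp(2n, F) (type C_n), which have the same order, do not have the same set of element orders. -/
theorem result {F : Type*} [Field F] [Fintype F] (hodd : Odd (Fintype.card F)) (n : ℕ) (hn : 3 ≤ n) :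
    Set.range (orderOf : Cfsg.POmega F (Cfsg.quadFormOdd n F) → ℕ) ≠ Set.range (orderOf : Cfsg.PSp n F → ℕ) := by
  obtain ⟨p, hp⟩ := CharP.exists F
  have : Fact p.Prime := ⟨CharP.char_is_prime F p⟩
  open Cfsg.Agent.Lib.Classical Cfsg.Agent.Lib.Classical.QuadOmega Cfsg.Agent.Lib.Classical.Quad in
  · intro heq
    have h2 : (2 : F) ≠ 0 := two_ne_zero_of_odd hodd
    obtain ⟨k, rfl⟩ : ∃ k, n = k + 1 := ⟨n - 1, by omega⟩
    obtain ⟨x, hx⟩ := exists_psp_element (F := F) p k (by omega)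
    obtain ⟨y, hy⟩ : p * (Fintype.card F ^ k + 1) ∈
        Set.range (orderOf : Cfsg.POmega F (Cfsg.quadFormOdd (k + 1) F) → ℕ) := heq ▸ ⟨x, hx⟩
    set Q := splitQ (k + 1) (sqQ F) with hQdef
    have hnd : Nd Q := nd_splitQ (nd_sqQ h2) (k + 1)
    have hdim : Module.finrank F (((Fin (k + 1) → F) × (Fin (k + 1) → F)) × (Unit → F)) = 2 * k + 3 := by
      simp [Module.finrank_prod, Module.finrank_fintype_fun_eq_card]
      omega
    have hG : Good Q := good_of_nd hnd h2 (by omega)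
    obtain ⟨E⟩ := exists_pOmegaEquiv _ (eOdd (k + 1)) (odd_apply (k + 1)) hG
    have hbot : Subgroup.center (siegelGroup Q) = ⊥ := by
      refine Subgroup.card_eq_one.1 (card_center_odd_notMem hG fun hm => ?_)
      have := ((mem_siegelGroup_iff hG h2 _).1 hm).1
      rw [dickson_negOne hG h2, hdim, show 2 * k + 3 = 2 * (k + 1) + 1 by ring, pow_succ, pow_mul, neg_one_sq,
        one_pow, one_mul] at this
      exact absurd this (by decide)
    let E' := E.trans ((QuotientGroup.quotientMulEquivOfEq hbot).trans QuotientGroup.quotientBot)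
    have hg : ((E' y : siegelGroup Q) : isoG Q) ∈ commutator (isoG Q) := by
      rw [commutator_eq hG]; exact (E' y).2
    obtain ⟨hd, hs⟩ := (mem_commutator_iff hnd h2 _).1 hg
    exact Cfsg.Agent.Lib.GS.OrthPN.no_element hnd h2 p k (by omega) hdim _ hd hs
      ((Subgroup.orderOf_coe (E' y)).trans ((MulEquiv.orderOf_eq E' y).trans hy))

end Cfsg.Agent.S2362
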