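import Cfsg.Statements.S2363
import Cfsg.Agent.Lib.Classical.Order
import Cfsg.Agent.Lib.Classical.SympOrder
import Cfsg.Agent.Lib.Classical.Symplectic
import Cfsg.Agent.Lib.Classical.Unitary
import Cfsg.Agent.Lib.Classical.QuadOmega.Main
import Cfsg.Agent.Lib.Chev.Orders
import Cfsg.Agent.S1066
import Cfsg.Agent.S1067
import Cfsg.Agent.S1068
import Cfsg.Agent.S1069
import Cfsg.Agent.S1163
-- import your own Cfsg.Agent.* helpers here

set_option autoImplicit false
open Cfsg

namespace Cfsg.Agent.S2363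

open Matrix

/-- From `d n = q ^ N * R` with `R < q ^ D` and `d` prime to `q`. -/
theorem bounds {p f q n d R N D : ℕ} (hp : p.Prime) (hq : q = p ^ f) (hn : n ≠ 0) (hd : 1 ≤ d)
    (hcop : Nat.Coprime q d) (h : d * n = q ^ N * R) (hR : R < q ^ D) (hD : 3 * D ≤ 5 * N) :
    n < p ^ (3 * n.factorization p) ∧ n ^ 3 < p ^ (8 * n.factorization p) := by
  have hdvd : q ^ N ∣ n := (hcop.pow_left N).dvd_of_dvd_mul_left ⟨R, h⟩
  rw [hq, ← pow_mul] at hdvd
  have ha : f * N ≤ n.factorization p := (hp.pow_dvd_iff_le_factorization hn).1 hdvd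
  have hqpos : 0 < q := hq ▸ pow_pos hp.pos f
  have hlt : n < q ^ (N + D) := by
    calc n ≤ d * n := Nat.le_mul_of_pos_left n hd
      _ = q ^ N * R := h
      _ < q ^ N * q ^ D := mul_lt_mul_of_pos_left hR (pow_pos hqpos N)
      _ = q ^ (N + D) := (pow_add ..).symm
  rw [hq, ← pow_mul] at hlt
  constructor
  · exact hlt.trans_le (Nat.pow_le_pow_right hp.pos (by nlinarith))
  · calc n ^ 3 < (p ^ (f * (N + D))) ^ 3 := Nat.pow_lt_pow_left hlt (by norm_num)
      _ ≤ p ^ (8 * n.factorization p) := by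
        rw [← pow_mul]; exact Nat.pow_le_pow_right hp.pos (by nlinarith)

theorem sub_one_lt (q e : ℕ) (hq : 2 ≤ q) : q ^ e - 1 < q ^ e :=
  Nat.sub_lt (pow_pos (by omega) e) one_pos

theorem add_one_le (q e : ℕ) (hq : 2 ≤ q) : q ^ e + 1 ≤ q ^ (e + 1) := by
  have := Nat.one_le_pow e q (by omega)
  rw [pow_succ]; nlinarith

theorem minus_plus_lt (q a b : ℕ) (hq : 2 ≤ q) (hab : a ≤ b) : (q ^ a - 1) * (q ^ b + 1) < q ^ (a + b) := by
  have h1 := Nat.one_le_pow a q (by omega)
  have h2 : q ^ a ≤ q ^ b := Nat.pow_le_pow_right (by omega) hab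
  rw [pow_add]
  generalize q ^ a = A at h1 h2 ⊢
  obtain ⟨c, rfl⟩ := Nat.exists_eq_add_of_le h1
  rw [Nat.add_sub_cancel_left]
  nlinarith

theorem mul_lt {a b x y : ℕ} (ha : a < x) (hb : b ≤ y) (hy : 0 < y) : a * b < x * y :=
  lt_of_le_of_lt (Nat.mul_le_mul le_rfl hb) (Nat.mul_lt_mul_of_pos_right ha hy)

theorem coprime_sub (q e : ℕ) (hq : 1 ≤ q) (he : e ≠ 0) : Nat.Coprime q (q ^ e - 1) := by
  have h1 : Nat.Coprime (q ^ e) (q ^ e - 1) := by
    have := Nat.one_le_pow e q hq
    obtain ⟨c, hc⟩ := Nat.exists_eq_add_of_le this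
    rw [hc, Nat.add_sub_cancel_left, Nat.coprime_comm]
    simp
  exact (Nat.coprime_pow_left_iff (by omega) _ _).1 h1

theorem coprime_add (q e : ℕ) (he : e ≠ 0) : Nat.Coprime q (q ^ e + 1) := by
  have h1 : Nat.Coprime (q ^ e) (q ^ e + 1) := by simp
  exact (Nat.coprime_pow_left_iff (by omega) _ _).1 h1

theorem coprime_gcd_left {q m : ℕ} (h : Nat.Coprime q m) (k : ℕ) : Nat.Coprime q (Nat.gcd k m) :=
  Nat.Coprime.coprime_dvd_right (Nat.gcd_dvd_right k m) h

theorem gl_prod (q n : ℕ) (hq : 1 ≤ q) :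
    ∏ i : Fin n, (q ^ n - q ^ (i : ℕ)) = q ^ (n * (n - 1) / 2) * ∏ i ∈ Finset.range n, (q ^ (i + 1) - 1) := by
  rw [← Finset.sum_range_id, ← Finset.prod_pow_eq_pow_sum,
    ← Finset.prod_range_reflect (fun i => q ^ (i + 1) - 1) n, ← Finset.prod_mul_distrib,
    Fin.prod_univ_eq_prod_range (fun i => q ^ n - q ^ i)]
  refine Finset.prod_congr rfl fun i hi => ?_
  rw [Finset.mem_range] at hi
  rw [Nat.mul_sub, mul_one, ← pow_add]
  congr 2
  omega

theorem sl_tail_lt (q : ℕ) (hq : 2 ≤ q) : ∀ n,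
    ∏ i ∈ Finset.range (n + 1), (q ^ (i + 2) - 1) < q ^ ((n + 1) * (n + 4) / 2) := by
  intro n
  induction n with
  | zero => simpa using sub_one_lt q 2 hq
  | succ n ih =>
    rw [Finset.prod_range_succ]
    refine lt_of_lt_of_le (mul_lt ih (sub_one_lt q _ hq).le (pow_pos (by omega) _)) ?_
    rw [← pow_add]
    refine Nat.pow_le_pow_right (by omega) ?_
    rw [show (n + 1 + 1) * (n + 1 + 4) = (n + 1) * (n + 4) + (n + 3) * 2 by ring,
      Nat.add_mul_div_right _ _ (by norm_num : 0 < 2)]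

theorem prod_even_lt (q : ℕ) (hq : 2 ≤ q) : ∀ m, ∏ i ∈ Finset.range (m + 1), (q ^ (2 * (i + 1)) - 1) <
    q ^ ((m + 1) * (m + 2))
  | 0 => by simpa using sub_one_lt q 2 hq
  | m + 1 => by
    rw [Finset.prod_range_succ]
    refine lt_of_lt_of_le (mul_lt (prod_even_lt q hq m) (sub_one_lt q _ hq).le (pow_pos (by omega) _)) ?_
    rw [← pow_add]
    exact Nat.pow_le_pow_right (by omega) (by nlinarith)

/-- The unitary product without its first factor. -/
def uR (q n : ℕ) : ℕ := ∏ i ∈ Finset.range n, (if Odd i then q ^ (i + 2) + 1 else q ^ (i + 2) - 1)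

theorem uR_lt (q : ℕ) (hq : 2 ≤ q) : ∀ j, uR q (2 * j + 1) < q ^ (2 * j * j + 5 * j + 2) ∧
    uR q (2 * j + 2) < q ^ (2 * j * j + 7 * j + 5) := by
  have step : ∀ k, uR q (k + 1) = uR q k * (if Odd k then q ^ (k + 2) + 1 else q ^ (k + 2) - 1) :=
    fun k => Finset.prod_range_succ _ _
  intro j
  induction j with
  | zero =>
    constructor
    · rw [show 2 * 0 + 1 = 1 from rfl, uR, Finset.prod_range_one]
      simpa using sub_one_lt q 2 hq
    · rw [show 2 * 0 + 2 = 2 from rfl, uR, Finset.prod_range_succ, Finset.prod_range_one]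
      simpa using minus_plus_lt q 2 3 hq (by omega)
  | succ j ih =>
    have e1 : uR q (2 * (j + 1) + 1) = uR q (2 * j + 2) * (q ^ (2 * j + 4) - 1) := by
      rw [show 2 * (j + 1) + 1 = (2 * j + 2) + 1 by ring, step, if_neg (by rw [Nat.odd_iff]; omega)]
    constructor
    · rw [e1]
      refine lt_of_lt_of_le (mul_lt ih.2 (sub_one_lt q _ hq).le (pow_pos (by omega) _)) ?_
      rw [← pow_add]
      exact Nat.pow_le_pow_right (by omega) (by nlinarith)
    · rw [show 2 * (j + 1) + 2 = (2 * (j + 1) + 1) + 1 by ring, step, e1,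
        if_pos (by rw [Nat.odd_iff]; omega), mul_assoc]
      refine lt_of_lt_of_le (mul_lt ih.2 (minus_plus_lt q (2 * j + 4) (2 * (j + 1) + 1 + 2) hq (by omega)).le
        (pow_pos (by omega) _)) ?_
      rw [← pow_add]
      exact Nat.pow_le_pow_right (by omega) (by nlinarith)

theorem gu_prod (q n : ℕ) :
    ∏ i ∈ Finset.range (n + 1), (if Even i then q ^ (i + 1) + 1 else q ^ (i + 1) - 1) =
      (q + 1) * uR q n := by
  rw [Finset.prod_range_succ', uR, mul_comm]
  congr 1
  · simp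
  · refine Finset.prod_congr rfl fun i _ => ?_
    simp [Nat.even_add_one]

theorem exists_pow (p : ℕ) (F : Type*) [Field F] [Fintype F] [CharP F p] :
    ∃ f : ℕ, Fintype.card F = p ^ f := by
  obtain ⟨n, -, hn⟩ := FiniteField.card F p
  exact ⟨n, hn⟩

/-- Let G be a finite simple group of Lie type in characteristic p and let p^k be the exact power of p dividing the order of G. Then the order of G is less than p^(3k); and unless G is isomorphic to PSL(2, F) for the field F with p^k elements, the cube of the order of G is less than p^(8k) (that is, the order is below p^(8k/3)). -/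
theorem result {G : Type*} [Group G] [Finite G] (p : ℕ) (hp : p.Prime) (hG : Cfsg.IsLieTypeChar p G) :
    Nat.card G < p ^ (3 * (Nat.card G).factorization p) ∧
      ((¬ ∃ (F : Type) (_ : Field F) (_ : Fintype F), Fintype.card F = p ^ (Nat.card G).factorization p ∧
          Nonempty (G ≃* Matrix.ProjectiveSpecialLinearGroup (Fin 2) F)) →
        Nat.card G ^ 3 < p ^ (8 * (Nat.card G).factorization p)) := by
  classical
  have hn0 : Nat.card G ≠ 0 := Nat.card_pos.ne'
  suffices h : (Nat.card G < p ^ (3 * (Nat.card G).factorization p) ∧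
      Nat.card G ^ 3 < p ^ (8 * (Nat.card G).factorization p)) ∨
      (Nat.card G < p ^ (3 * (Nat.card G).factorization p) ∧
      ∃ (F : Type) (_ : Field F) (_ : Fintype F), Fintype.card F = p ^ (Nat.card G).factorization p ∧
          Nonempty (G ≃* Matrix.ProjectiveSpecialLinearGroup (Fin 2) F)) by
    rcases h with h | h
    exacts [⟨h.1, fun _ => h.2⟩, ⟨h.1, fun hno => absurd h.2 hno⟩]
  have htwo : ∀ (F : Type) (_ : Field F) (_ : Fintype F), 2 ≤ Fintype.card F :=
    fun F _ _ => Fintype.one_lt_card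
  rcases hG with hG | hG | hG | hG | hG | hG | hG | hG | ⟨rfl, hG⟩ | ⟨rfl, hG⟩ | ⟨rfl, hG⟩
  · obtain ⟨F, iF, iT, iC, n, hn, -, ⟨e⟩⟩ := hG
    obtain ⟨f, hf⟩ := exists_pow p F
    have hq := htwo F iF iT
    have hc := Nat.card_congr e.toEquiv
    have : Nonempty (Fin n) := ⟨⟨0, by omega⟩⟩
    set q := Fintype.card F with hqdef
    have hdvd : Nat.Coprime q (Nat.gcd n (q - 1)) :=
      coprime_gcd_left (by simpa using coprime_sub q 1 (by omega) one_ne_zero) n
    obtain ⟨k, rfl⟩ : ∃ k, n = k + 2 := ⟨n - 2, by omega⟩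
    have h := Lib.Classical.card_SL_mul (F := F) hqdef.symm (k + 2) (by omega)
    rw [Lib.Classical.card_SL_eq_gcd_mul_card_PSL, Fintype.card_fin, ← hc, gl_prod q _ (by omega),
      Finset.prod_range_succ', ← mul_assoc (q ^ _), mul_comm _ (q ^ (0 + 1) - 1), zero_add, pow_one] at h
    have h' := Nat.eq_of_mul_eq_mul_left (show 0 < q - 1 by omega) h
    simp only [add_assoc, show (1 + 1 : ℕ) = 2 from rfl] at h'
    rcases Nat.eq_zero_or_pos k with rfl | hk
    · refine Or.inr ?_
      have ht : ∏ i ∈ Finset.range 1, (q ^ (i + 2) - 1) = q ^ 2 - 1 := by simp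
      simp only [show (0 + 2) * (0 + 2 - 1) / 2 = 1 from rfl, zero_add, pow_one, ht] at h'
      have hexp : (Nat.card G).factorization p = f := by
        have hf0 : f ≠ 0 := fun h0 => by rw [h0, pow_zero] at hf; omega
        have hpq : p ∣ q := hf ▸ dvd_pow_self p hf0
        have hnd : ∀ {x : ℕ}, Nat.Coprime q x → ¬ p ∣ x := fun hx hd =>
          hp.not_dvd_one (hx ▸ Nat.dvd_gcd hpq hd)
        have hq2 : q ^ 2 - 1 ≠ 0 := by
          have : 4 ≤ q ^ 2 := by nlinarith
          omega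
        have hg : Nat.gcd 2 (q - 1) ≠ 0 := (Nat.gcd_pos_of_pos_left _ two_pos).ne'
        have e1 : (Nat.gcd 2 (q - 1) * Nat.card G).factorization p = (q * (q ^ 2 - 1)).factorization p := by
          rw [h']
        rw [Nat.factorization_mul hg hn0, Nat.factorization_mul (by omega) hq2, Finsupp.add_apply,
          Finsupp.add_apply, Nat.factorization_eq_zero_of_not_dvd (hnd hdvd),
          Nat.factorization_eq_zero_of_not_dvd (hnd (coprime_sub q 2 (by omega) two_ne_zero))] at e1
        rw [hf, hp.factorization_pow, Finsupp.single_eq_same] at e1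
        omega
      refine ⟨?_, F, iF, iT, by rw [hexp, ← hf], ⟨e⟩⟩
      rw [hexp, mul_comm 3, pow_mul, ← hf]
      calc Nat.card G ≤ Nat.gcd 2 (q - 1) * Nat.card G :=
            Nat.le_mul_of_pos_left _ (Nat.gcd_pos_of_pos_left _ (by norm_num))
        _ = q * (q ^ 2 - 1) := h'
        _ < q * q ^ 2 := mul_lt_mul_of_pos_left (sub_one_lt q 2 hq) (by omega)
        _ = q ^ 3 := by ring
    · refine Or.inl (bounds hp hf hn0 (Nat.gcd_pos_of_pos_left _ (by omega)) hdvd h'
        (sl_tail_lt q hq k) ?_)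
      have e1 : 2 * ((k + 2) * (k + 1) / 2) = (k + 2) * (k + 1) :=
        Nat.mul_div_cancel' (by rw [mul_comm]; exact (Nat.even_mul_succ_self (k + 1)).two_dvd)
      have e2 := Nat.mul_div_le ((k + 1) * (k + 4)) 2
      rw [show k + 2 - 1 = k + 1 by omega]
      nlinarith
  · obtain ⟨F, iF, iT, iC, m, hm, -, ⟨e⟩⟩ := hG
    obtain ⟨f, hf⟩ := exists_pow p F
    have hq := htwo F iF iT
    have hc := Nat.card_congr e.toEquiv
    have h := Subgroup.card_mul_index (Subgroup.center (Matrix.symplecticGroup (Fin m) F))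
    rw [Lib.Classical.card_center_sp m (by omega), Lib.Classical.card_symplecticGroup, Subgroup.index,
      show Nat.card (Matrix.symplecticGroup (Fin m) F ⧸ Subgroup.center _) = Nat.card G from hc.symm] at h
    obtain ⟨k, rfl⟩ : ∃ k, m = k + 1 := ⟨m - 1, by omega⟩
    exact Or.inl (bounds hp hf hn0 (Nat.gcd_pos_of_pos_left _ two_pos)
      (coprime_gcd_left (by simpa using coprime_sub _ 1 (by omega) one_ne_zero) 2) h (prod_even_lt _ hq k)
      (by nlinarith))
  · obtain ⟨F, iF, iT, iC, n, q, hF, hn, -, ⟨e⟩⟩ := hG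
    obtain ⟨f, hf⟩ := exists_pow p F
    have hq : 2 ≤ q := by
      have := htwo F iF iT
      rw [hF] at this; nlinarith
    obtain ⟨a, ha⟩ : ∃ a, q = p ^ a := by
      obtain ⟨a, -, ha⟩ := (Nat.dvd_prime_pow hp).1 (show q ∣ p ^ f by rw [← hf, hF]; exact dvd_pow_self q two_ne_zero)
      exact ⟨a, ha⟩
    have hc := Nat.card_congr e.toEquiv
    obtain ⟨k, rfl⟩ : ∃ k, n = k + 1 := ⟨n - 1, by omega⟩
    have h := Lib.Classical.Herm.card_PSU (F := F) (q := q) hF (n := k + 1) (by omega)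
    rw [← hc, Lib.Classical.Herm.card_GU hF, gu_prod, mul_left_comm, mul_left_comm (q ^ _)] at h
    have h' := Nat.eq_of_mul_eq_mul_left (show 0 < q + 1 by omega) h
    have hcop : Nat.Coprime q (Nat.gcd (k + 1) (q + 1)) :=
      coprime_gcd_left (by simpa using coprime_add q 1 one_ne_zero) _
    have e1 : 2 * ((k + 1) * (k + 1 - 1) / 2) = (k + 1) * k :=
      Nat.mul_div_cancel' (by rw [Nat.add_sub_cancel, mul_comm]; exact (Nat.even_mul_succ_self k).two_dvd)
    obtain ⟨j, rfl | rfl⟩ : ∃ j, k = 2 * j + 1 ∨ k = 2 * j + 2 := ⟨(k - 1) / 2, by omega⟩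
    · refine Or.inl (bounds hp ha hn0 (Nat.gcd_pos_of_pos_left _ (by omega)) hcop h' (uR_lt q hq j).1 ?_)
      have : 1 ≤ j := by omega
      nlinarith
    · refine Or.inl (bounds hp ha hn0 (Nat.gcd_pos_of_pos_left _ (by omega)) hcop h' (uR_lt q hq j).2 ?_)
      nlinarith
  · obtain ⟨F, iF, iT, iC, m, hm, hodd, ⟨e⟩⟩ := hG
    obtain ⟨f, hf⟩ := exists_pow p F
    have hq := htwo F iF iT
    have h := Lib.Classical.QuadOmega.card_POmega_odd (F := F) (Lib.Classical.QuadOmega.two_ne_zero_of_odd hodd) hm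
    rw [← Nat.card_congr e.toEquiv] at h
    obtain ⟨k, rfl⟩ : ∃ k, m = k + 1 := ⟨m - 1, by omega⟩
    exact Or.inl (bounds hp hf hn0 one_le_two (Nat.coprime_two_right.2 hodd) h (prod_even_lt _ hq k) (by nlinarith))
  · obtain ⟨F, iF, iT, iC, m, hm, ⟨e⟩⟩ := hG
    obtain ⟨f, hf⟩ := exists_pow p F
    have hq := htwo F iF iT
    have h := Lib.Classical.QuadOmega.card_POmega_plus (F := F) (show 3 ≤ m by omega)
    rw [← Nat.card_congr e.toEquiv, mul_assoc] at h
    obtain ⟨k, rfl⟩ : ∃ k, m = k + 2 := ⟨m - 2, by omega⟩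
    refine Or.inl (bounds hp hf hn0 (Nat.gcd_pos_of_pos_left _ (by norm_num))
      (coprime_gcd_left (coprime_sub _ _ (by omega) (by omega)) 4) h (D := k + 2 + (k + 1) * (k + 2)) ?_ ?_)
    · rw [pow_add _ (k + 2), show k + 2 - 1 = k + 1 by omega]
      exact mul_lt (sub_one_lt _ _ hq) (prod_even_lt _ hq k).le (pow_pos (by omega) _)
    · rw [show k + 2 - 1 = k + 1 by omega]; nlinarith
  · obtain ⟨F, iF, iT, iC, m, a, b, hm, hab, ⟨e⟩⟩ := hG
    obtain ⟨f, hf⟩ := exists_pow p F
    have hq := htwo F iF iT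
    have h := Lib.Classical.QuadOmega.card_POmega_minus (F := F) hab (show 3 ≤ m - 1 by omega)
    rw [← Nat.card_congr e.toEquiv, mul_assoc] at h
    obtain ⟨k, rfl⟩ : ∃ k, m = k + 2 := ⟨m - 2, by omega⟩
    rw [show k + 2 - 1 = k + 1 by omega] at h
    refine Or.inl (bounds hp hf hn0 (Nat.gcd_pos_of_pos_left _ (by norm_num))
      (coprime_gcd_left (coprime_add _ _ (by omega)) 4) h (D := k + 3 + (k + 1) * (k + 2)) ?_ (by nlinarith))
    rw [pow_add _ (k + 3), mul_comm, mul_comm (_ ^ (k + 3))]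
    exact mul_lt (prod_even_lt _ hq k) (add_one_le _ (k + 2) hq) (pow_pos (by omega) _)
  · obtain ⟨F, iF, iT, iC, hG⟩ := hG
    obtain ⟨f, hf⟩ := exists_pow p F
    have hq := htwo F iF iT
    have c1 := coprime_sub (Fintype.card F) 1 (by omega) one_ne_zero
    rw [pow_one] at c1
    have s := fun e => sub_one_lt (Fintype.card F) e hq
    have pp := fun e => pow_pos (show 0 < Fintype.card F by omega) e
    refine Or.inl ?_
    rcases hG with ⟨-, ⟨e⟩⟩ | ⟨⟨e⟩⟩ | ⟨⟨e⟩⟩ | ⟨⟨e⟩⟩ | ⟨⟨e⟩⟩ <;> have hc := Nat.card_congr e.toEquiv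
    · have h := Lib.Chev.card_G2 (F := F) rfl
      rw [← hc] at h
      simp only [mul_assoc] at h
      refine bounds hp hf hn0 le_rfl (Nat.coprime_one_right _) h (D := 2 + 6) ?_ (by norm_num)
      rw [pow_add]
      exact mul_lt (s 2) (s 6).le (pp 6)
    · have h := Lib.Chev.card_F4 (F := F) rfl
      rw [← hc] at h
      simp only [mul_assoc] at h
      refine bounds hp hf hn0 le_rfl (Nat.coprime_one_right _) h (D := 2 + (6 + (8 + 12))) ?_ (by norm_num)
      simp only [pow_add]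
      repeat' first | exact s _ | exact (s _).le | apply Nat.mul_le_mul | (refine mul_lt (s _) ?_ (by positivity))
    · have h := Lib.Chev.card_E6 (F := F) rfl
      rw [← hc] at h
      simp only [mul_assoc] at h
      refine bounds hp hf hn0 ?_ ?_ h (D := 2 + (5 + (6 + (8 + (9 + 12))))) ?_ (by norm_num)
      · first | exact Nat.gcd_pos_of_pos_left _ (by omega) | exact Nat.gcd_pos_of_pos_right _ (by omega)
      · exact Nat.Coprime.coprime_dvd_right (by first | exact Nat.gcd_dvd_left _ _ | exact Nat.gcd_dvd_right _ _) c1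
      · simp only [pow_add]
        refine mul_lt (s _) ?_ (by positivity)
        repeat' first | exact (s _).le | apply Nat.mul_le_mul
    · have h := Lib.Chev.card_E7 (F := F) rfl
      rw [← hc] at h
      simp only [mul_assoc] at h
      refine bounds hp hf hn0 ?_ ?_ h (D := 2 + (6 + (8 + (10 + (12 + (14 + 18)))))) ?_ (by norm_num)
      · first | exact Nat.gcd_pos_of_pos_left _ (by omega) | exact Nat.gcd_pos_of_pos_right _ (by omega)
      · exact Nat.Coprime.coprime_dvd_right (by first | exact Nat.gcd_dvd_left _ _ | exact Nat.gcd_dvd_right _ _) c1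
      · simp only [pow_add]
        refine mul_lt (s _) ?_ (by positivity)
        repeat' first | exact (s _).le | apply Nat.mul_le_mul
    · have h := Lib.Chev.card_E8 (F := F) rfl
      rw [← hc] at h
      simp only [mul_assoc] at h
      refine bounds hp hf hn0 le_rfl (Nat.coprime_one_right _) h (D := 2 + (8 + (12 + (14 + (18 + (20 + (24 + 30))))))) ?_ (by norm_num)
      simp only [pow_add]
      refine mul_lt (s _) ?_ (by positivity)
      repeat' first | exact (s _).le | apply Nat.mul_le_mul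
  · obtain ⟨K, iF, iT, iC, q, hqp, hG⟩ := hG
    obtain ⟨f, hf⟩ := exists_pow p K
    have hq : 2 ≤ q := hqp.two_le
    obtain ⟨a, ha⟩ : ∃ a, q = p ^ a := by
      have hdvd : q ∣ p ^ f := by
        rw [← hf]
        rcases hG with ⟨hK, -⟩ | ⟨hK, -⟩ <;> rw [hK] <;> exact dvd_pow_self q (by norm_num)
      obtain ⟨a, -, ha⟩ := (Nat.dvd_prime_pow hp).1 hdvd
      exact ⟨a, ha⟩
    have s := fun e => sub_one_lt q e hq
    refine Or.inl ?_
    rcases hG with ⟨hK, ⟨e⟩⟩ | ⟨hK, ⟨e⟩⟩ <;> have hc := Nat.card_congr e.toEquiv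
    · have h := S1066.result (K := K) hqp hK
      rw [← hc] at h
      simp only [mul_assoc] at h
      refine bounds hp ha hn0 (Nat.gcd_pos_of_pos_left _ (by norm_num))
        (coprime_gcd_left (by simpa using coprime_add q 1 one_ne_zero) 3) h
        (D := 2 + (6 + (6 + (8 + (10 + 12))))) ?_ (by norm_num)
      simp only [pow_add q 2, pow_add q 6 (6 + (8 + (10 + 12))), pow_add q 6 (8 + (10 + 12)), pow_add q 8, pow_add q 10]
      refine mul_lt (s _) ?_ (by positivity)
      repeat' first | exact (s _).le | exact add_one_le q _ hq | apply Nat.mul_le_mul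
    · have h := S1067.result (K := K) hqp hK
      rw [← hc] at h
      simp only [mul_assoc] at h
      refine bounds hp ha hn0 le_rfl (Nat.coprime_one_right _) (by rw [one_mul]; exact h) (D := 2 + (6 + 9)) ?_ (by norm_num)
      rw [pow_add, pow_add]
      refine mul_lt (s _) (Nat.mul_le_mul (s _).le ?_) (by positivity)
      have h4 : q ^ 4 + 1 ≤ q ^ 8 := (add_one_le q 4 hq).trans (Nat.pow_le_pow_right (by omega) (by norm_num))
      have h9 : q ^ 9 = q ^ 8 * q := pow_succ q 8
      have h8 : q ^ 8 * 2 ≤ q ^ 8 * q := Nat.mul_le_mul le_rfl hq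
      omega
  · obtain ⟨F, iF, iT, m, hm, hF, ⟨e⟩⟩ := hG
    have h := (S1163.result (F := F) hm hF).1
    rw [← Nat.card_congr e.toEquiv, mul_assoc] at h
    have hq : 2 ≤ 2 ^ (2 * m + 1) := Nat.le_self_pow (by omega) 2
    exact Or.inl (bounds hp rfl hn0 le_rfl (Nat.coprime_one_right _) (by rw [one_mul]; exact h)
      (D := 1 + 2) (by simpa using minus_plus_lt _ 1 2 hq (by norm_num)) (by norm_num))
  · obtain ⟨K, iF, iT, m, hm, hK, ⟨e⟩⟩ := hG
    have h := S1068.result (K := K) hK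
    rw [← Nat.card_congr e.toEquiv] at h
    simp only [mul_assoc] at h
    have hq : 2 ≤ 2 ^ (2 * m + 1) := Nat.le_self_pow (by omega) 2
    refine Or.inl (bounds hp rfl hn0 le_rfl (Nat.coprime_one_right _) (by rw [one_mul]; exact h)
      (D := (1 + 3) + (4 + (6 + 1))) ?_ (by norm_num))
    rw [← mul_assoc, pow_add _ (1 + 3), pow_add _ 4]
    exact mul_lt (by simpa using minus_plus_lt _ 1 3 hq (by norm_num))
      (Nat.mul_le_mul (sub_one_lt _ _ hq).le (add_one_le _ _ hq)) (by positivity)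
  · obtain ⟨K, iF, iT, m, hm, hK, ⟨e⟩⟩ := hG
    have h := S1069.result (K := K) hK
    rw [← Nat.card_congr e.toEquiv, mul_assoc] at h
    have hq : 2 ≤ 3 ^ (2 * m + 1) := le_trans (by norm_num) (Nat.le_self_pow (by omega) 3)
    exact Or.inl (bounds hp rfl hn0 le_rfl (Nat.coprime_one_right _) (by rw [one_mul]; exact h)
      (D := 1 + 3) (by simpa using minus_plus_lt _ 1 3 hq (by norm_num)) (by norm_num))

end Cfsg.Agent.S2363
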