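import Cfsg.Statements.S2365
import Cfsg.Agent.Lib.Recog.UnitSpec
import Cfsg.Agent.Lib.Recog.SympPrimeGraph

set_option autoImplicit false
open Cfsg

namespace Cfsg.Agent.S2365

open Matrix Polynomial
open Cfsg.Agent.Lib.Recog.UnitSpec Cfsg.Agent.Lib.UnitaryConj Cfsg.Agent.Lib.UnitaryUnipotent
open Cfsg.Agent.Lib.Classical.UnitarySemisimpleClasses (dual dual_mul natDegree_dual monic_dual irreducible_dual charpoly_inv_tstar)

universe u

variable {K : Type u} [Field K] [Fintype K] {q n : ℕ}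

/-- Elements of prime order prime to the centre lift. -/
theorem lift_prime (hK : Fintype.card K = q ^ 2) (hn : 1 ≤ n) {l : ℕ} (hl : l.Prime) (hg : ¬ l ∣ Nat.gcd n (q + 1))
    (x : Cfsg.PSU n K q) (hx : orderOf x = l) : ∃ s : ↥(Cfsg.SU n K q), pr s = x ∧ orderOf s = l := by
  haveI : Fact l.Prime := ⟨hl⟩
  obtain ⟨y, rfl⟩ := QuotientGroup.mk'_surjective _ x
  obtain ⟨t, ht⟩ := Nat.exists_mul_mod_eq_one_of_coprime (hl.coprime_iff_not_dvd.2 hg).symm hl.one_lt
  refine ⟨y ^ (Nat.gcd n (q + 1) * t), ?_, ?_⟩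
  · rw [map_pow, ← pow_mod_orderOf, hx, ht.2, pow_one]
  · refine orderOf_eq_prime ?_ ?_
    · rw [← pow_mul, mul_comm _ l, ← mul_assoc, pow_mul]
      conv_lhs => rw [← hx, pow_gcd_of_pr hn hK y, one_pow]
    · intro h
      have := congrArg pr h
      rw [map_pow, map_one, ← pow_mod_orderOf, hx, ht.2, pow_one] at this
      rw [this, orderOf_one] at hx
      exact hl.ne_one hx.symm

theorem card_SU_eq (hK : Fintype.card K = q ^ 2) (j : ℕ) :
    Nat.card ↥(Cfsg.SU (j + 1) K q) = q ^ ((j + 1) * (j + 1 - 1) / 2) *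
      ∏ i ∈ Finset.range j, (if Even (i + 1) then q ^ (i + 1 + 1) + 1 else q ^ (i + 1 + 1) - 1) := by
  have h := Lib.Classical.Herm.card_SU hK (n := j + 1) (by omega)
  rw [Lib.Classical.Herm.card_GU hK, Finset.prod_range_succ', if_pos Even.zero, zero_add, pow_one, ← mul_assoc,
    mul_comm _ (q + 1)] at h
  exact Nat.eq_of_mul_eq_mul_left (by omega) h

theorem dvd_card_SU (hK : Fintype.card K = q ^ 2) {j i r : ℕ} (hi : i < j)
    (h : r ∣ if Even (i + 1) then q ^ (i + 1 + 1) + 1 else q ^ (i + 1 + 1) - 1) :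
    r ∣ Nat.card ↥(Cfsg.SU (j + 1) K q) := by
  rw [card_SU_eq hK]
  exact dvd_mul_of_dvd_right (h.trans (Finset.dvd_prod_of_mem (fun i => if Even (i + 1) then q ^ (i + 1 + 1) + 1 else q ^ (i + 1 + 1) - 1) (Finset.mem_range.2 hi))) _

/-- Let q be a power of the prime p, F the field with q² elements, m ≥ 4, and let a, b be commuting elements of PSU(m, q) with a of order p. Then every prime divisor of the order of b divides the order of SU(m − 2, q). -/
theorem result {F : Type*} [Field F] [Fintype F] (p : ℕ) [Fact p.Prime] [CharP F p] (m q : ℕ) (hm : 4 ≤ m) (hF : Fintype.card F = q ^ 2)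
    (a b : Cfsg.PSU m F q) (ha : orderOf a = p) (hab : Commute a b) :
    (orderOf b).primeFactors ⊆ (Nat.card ↥(Cfsg.SU (m - 2) F q)).primeFactors := by
  classical
  intro r hr
  rw [Nat.mem_primeFactors] at hr ⊢
  obtain ⟨hrp', hrb, -⟩ := hr
  haveI : Finite ↥(Cfsg.SU (m - 2) F q) := Subtype.finite
  refine ⟨hrp', ?_, Nat.card_pos.ne'⟩
  have hp := (Fact.out : p.Prime)
  obtain ⟨p', k, hp', hc', hk, hqp⟩ := q_eq_pow hF
  obtain rfl := CharP.eq F hc' ‹CharP F p›
  have hpq : p' ∣ q := hqp ▸ dvd_pow_self p' (by omega)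
  have hq2 := q_two_le hF
  obtain ⟨j, hj, hj1⟩ : ∃ j, m - 2 = j + 1 ∧ 1 ≤ j := ⟨m - 3, by omega, by omega⟩
  rw [hj]
  rcases eq_or_ne r p' with rfl | hrp
  · rw [card_SU_eq hF]
    refine dvd_mul_of_dvd_left (dvd_pow hpq ?_) _
    have : 2 ≤ (j + 1) * (j + 1 - 1) := Nat.mul_le_mul (show 2 ≤ j + 1 by omega) (show 1 ≤ j + 1 - 1 by omega)
    omega
  by_cases hrq : r ∣ q + 1
  · refine dvd_card_SU hF (show 0 < j by omega) ?_
    rw [if_neg (by simp), show q ^ (0 + 1 + 1) - 1 = (q + 1) * (q - 1) by simpa using Nat.sq_sub_sq q 1]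
    exact hrq.trans (dvd_mul_right _ _)
  have hgp : ¬ p' ∣ Nat.gcd m (q + 1) := fun h =>
    hp.not_dvd_one ((Nat.dvd_add_right hpq).1 (h.trans (Nat.gcd_dvd_right _ _)))
  obtain ⟨U, hUa, hUo⟩ := lift_prime hF (by omega) hp hgp a ha
  obtain ⟨S, hSb, hSo⟩ := lift_prime hF (by omega) hrp' (fun h => hrq (h.trans (Nat.gcd_dvd_right _ _)))
    (b ^ (orderOf b / r)) (orderOf_pow_orderOf_div (orderOf_pos b).ne' hrb)
  -- the lifts commute
  have hc : Commute S U := by
    set z := S * U * S⁻¹ * U⁻¹ with hz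
    have hzc : z ∈ Subgroup.center ↥(Cfsg.SU m F q) := by
      rw [← QuotientGroup.eq_one_iff, ← QuotientGroup.mk'_apply, hz, map_mul, map_mul, map_mul, map_inv, map_inv, hUa, hSb,
        (hab.symm.pow_left _).eq, mul_assoc a, mul_inv_cancel, mul_one, mul_inv_cancel]
    have h1 : S * U * S⁻¹ = z * U := by rw [hz, inv_mul_cancel_right]
    have h2 : z ^ p' = 1 := by
      have h3 : (z * U) ^ p' = 1 := by rw [← h1, conj_pow, ← hUo, pow_orderOf_eq_one, mul_one, mul_inv_cancel]
      rwa [(show Commute z U from ((Subgroup.mem_center_iff.1 hzc U).symm)).mul_pow, ← hUo, pow_orderOf_eq_one,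
        mul_one, hUo] at h3
    have h4 := pow_card_eq_one' (x := (⟨z, hzc⟩ : Subgroup.center ↥(Cfsg.SU m F q)))
    rw [Lib.Classical.Herm.card_center_SU hF (by omega)] at h4
    have h5 : z ^ Nat.gcd m (q + 1) = 1 := congrArg Subtype.val h4
    have h6 : z = 1 := by
      have := Nat.dvd_gcd (orderOf_dvd_of_pow_eq_one h2) (orderOf_dvd_of_pow_eq_one h5)
      rwa [(hp.coprime_iff_not_dvd.2 hgp).gcd_eq_one, Nat.dvd_one, orderOf_eq_one_iff] at this
    rw [h6, one_mul] at h1
    exact mul_inv_eq_iff_eq_mul.1 h1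
  haveI : Nonempty (Fin m) := ⟨⟨0, by omega⟩⟩
  set M := mat S with hM
  have hMu := mat_unitary hF S
  have hMr : M ^ r = 1 := by rw [hM, ← mat_pow, ← hSo, pow_orderOf_eq_one]; rfl
  set μ := minpoly F M with hμdef
  have hμ : μ ∣ X ^ r - 1 := minpoly.dvd F _ (by rw [map_sub, map_pow, aeval_X, map_one, hMr, sub_self])
  have hrF : (r : F) ≠ 0 := fun h =>
    hrp ((Nat.prime_dvd_prime_iff_eq hp hrp').1 ((CharP.cast_eq_zero_iff F p' r).1 h)).symm
  have hsq := Lib.Recog.SympPrimeGraph.squarefree_of_dvd hrF hμ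
  have hne : ¬ μ ∣ X ^ 1 - 1 := by
    rintro ⟨c, hcc⟩
    have := congrArg (aeval M) hcc
    rw [map_mul, minpoly.aeval, zero_mul, map_sub, map_pow, aeval_X, map_one, pow_one, sub_eq_zero] at this
    exact hrp'.ne_one (hSo ▸ orderOf_eq_one_iff.2 (Subtype.ext (Subtype.ext this)))
  obtain ⟨f, hfm, hf, hfd, hf1⟩ := Lib.Recog.SympPrimeGraph.exists_factor hsq hne
  have hfr : f ∣ X ^ (r * 1) - 1 := by rw [mul_one]; exact hfd.trans hμ
  have hdvr : ∀ N : ℕ, f ∣ X ^ N - 1 → r ∣ N := fun N => Lib.Recog.SympPrimeGraph.dvd_of_root hf hfm hrp' hfr hf1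
  have hμlt : μ.natDegree < m := by
    refine lt_of_le_of_ne ((Lib.GLOrders.natDegree_minpoly_le M).trans_eq (Fintype.card_fin m)) fun h => ?_
    have h1 := Lib.Recog.SympPrimeGraph.eq_one_of_regular M (mat U) hsq (by rw [Fintype.card_fin]; exact h)
      (congrArg mat hc.symm.eq) (N := p') (by
        rw [sub_pow_char_of_commute p' (Commute.one_right _), one_pow, ← mat_pow, ← hUo, pow_orderOf_eq_one]
        exact sub_self _)
    exact hp.ne_one (hUo ▸ orderOf_eq_one_iff.2 (Subtype.ext (Subtype.ext h1)))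
  have hμ0 : μ ≠ 0 := minpoly.ne_zero (Algebra.IsIntegral.isIntegral _)
  have hf0 : f.coeff 0 ≠ 0 := fun h => by
    obtain ⟨c, hcc⟩ := hfd.trans hμ
    have := congrArg (Polynomial.eval 0) hcc
    rw [eval_mul, ← coeff_zero_eq_eval_zero f, h, zero_mul] at this
    simp [zero_pow hrp'.ne_zero] at this
  have hroot : ∀ c : F, M.charpoly.IsRoot c → μ.IsRoot c := by
    intro c hc
    rw [← Matrix.charpoly_toLin', ← Module.End.hasEigenvalue_iff_isRoot_charpoly] at hc
    rw [hμdef, ← Matrix.minpoly_toLin']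
    exact Module.End.isRoot_of_hasEigenvalue hc
  -- a product `P` of the class of `f` has degree at most `m - 2`
  have hbound : ∀ P : F[X], P.Monic → P ∣ μ → P.natDegree + 1 = m → ∃ c : F, P.IsRoot c := by
    intro P hPm hP hdeg
    have hPμ : μ = P := eq_of_monic_of_dvd_of_natDegree_le hPm (minpoly.monic (Algebra.IsIntegral.isIntegral _)) hP (by omega)
    obtain ⟨R, hR⟩ := hP.trans (Matrix.minpoly_dvd_charpoly M)
    have hRm : R.Monic := hPm.of_mul_monic_left (hR ▸ Matrix.charpoly_monic M)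
    have hR1 : R.natDegree = 1 := by
      have := Matrix.charpoly_natDegree_eq_dim M
      rw [hR, hPm.natDegree_mul hRm, Fintype.card_fin] at this
      omega
    refine ⟨-R.coeff 0, hPμ ▸ hroot _ ?_⟩
    rw [hR, IsRoot, eval_mul, hRm.eq_X_add_C hR1]
    simp
  by_cases hd : dual hF f = f
  · obtain ⟨hodd, hX⟩ := self_root hF hfm hf hf0 hd
    have hrd := hdvr _ hX
    have hd3 : 3 ≤ f.natDegree := by
      rcases Nat.lt_or_ge f.natDegree 3 with h | h
      · have : f.natDegree = 1 := by omega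
        rw [this, pow_one] at hrd
        exact absurd hrd hrq
      · exact h
    have hle := natDegree_le_of_dvd hfd hμ0
    have hdle : f.natDegree ≤ m - 2 := by
      by_contra hcon
      obtain ⟨c, hc⟩ := hbound f hfm hfd (by omega)
      have h1 : f.natDegree = 1 := natDegree_eq_of_degree_eq_some (degree_eq_one_of_irreducible_of_root hf hc)
      omega
    obtain ⟨e, he⟩ : ∃ e, f.natDegree = e + 1 + 1 := ⟨f.natDegree - 2, by omega⟩
    refine dvd_card_SU hF (show e < j by omega) ?_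
    rw [if_pos (Nat.even_iff.2 (by omega)), ← he]
    exact hrd
  · have hdm := monic_dual hF hf0
    have hdi := irreducible_dual hF hfm hf hf0
    have hcop : IsCoprime f (dual hF f) := (hf.coprime_iff_not_dvd).2 fun h =>
      hd (eq_of_monic_of_associated hdm hfm (hf.associated_of_dvd hdi h).symm)
    have hd2 : dual hF f ∣ μ := by
      -- the dual class shares the minimal polynomial
      have hf0' : f ∣ M.charpoly := hfd.trans (Matrix.minpoly_dvd_charpoly M)
      obtain ⟨T, hT⟩ := hf0'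
      have hdual : dual hF M.charpoly = M.charpoly := (charpoly_inv_tstar hF M M (mul_eq_one_comm.1 hMu)).symm
      have h1 : dual hF f ∣ M.charpoly := ⟨dual hF T, by rw [← dual_mul, ← hT, hdual]⟩
      obtain ⟨h, hh, hhe⟩ : ∃ h, Irreducible h ∧ h = dual hF f := ⟨_, hdi, rfl⟩
      haveI : Fact (Irreducible h) := ⟨hh⟩
      rw [← hhe] at h1 ⊢
      rw [← AdjoinRoot.mk_eq_zero, ← AdjoinRoot.aeval_eq]
      set w : AdjoinRoot h := AdjoinRoot.root h with hw
      have hroot' : (M.map (algebraMap F (AdjoinRoot h))).charpoly.IsRoot w := by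
        obtain ⟨c, hc⟩ := h1
        rw [Matrix.charpoly_map, IsRoot, eval_map, hc, eval₂_mul, hw, AdjoinRoot.algebraMap_eq, AdjoinRoot.eval₂_root,
          zero_mul]
      rw [← Matrix.charpoly_toLin', ← Module.End.hasEigenvalue_iff_isRoot_charpoly] at hroot'
      obtain ⟨v, hv⟩ := hroot'.exists_hasEigenvector
      have h2 := Module.End.aeval_apply_of_hasEigenvector (p := μ.map (algebraMap F (AdjoinRoot h))) hv
      have h3 : aeval (M.map (algebraMap F (AdjoinRoot h))) (μ.map (algebraMap F (AdjoinRoot h))) = 0 := by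
        rw [aeval_map_algebraMap, show M.map (algebraMap F (AdjoinRoot h)) = (Algebra.ofId F (AdjoinRoot h)).mapMatrix M from rfl,
          aeval_algHom_apply, minpoly.aeval, map_zero]
      rw [show aeval (Matrix.toLin' (M.map (algebraMap F (AdjoinRoot h)))) (μ.map (algebraMap F (AdjoinRoot h))) =
        Matrix.toLin' (aeval (M.map (algebraMap F (AdjoinRoot h))) (μ.map (algebraMap F (AdjoinRoot h)))) from
          aeval_algHom_apply Matrix.toLinAlgEquiv'.toAlgHom _ _, h3, map_zero, LinearMap.zero_apply, eq_comm,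
        smul_eq_zero, eval_map] at h2
      exact h2.resolve_right hv.2
    have hP := hcop.mul_dvd hfd hd2
    have hle := natDegree_le_of_dvd hP hμ0
    rw [hfm.natDegree_mul hdm, natDegree_dual hF hf0] at hle
    have hd1 := hf.natDegree_pos
    have hdle : 2 * f.natDegree ≤ m - 2 := by
      by_contra hcon
      obtain ⟨c, hc⟩ := hbound (f * dual hF f) (hfm.mul hdm) hP
        (by rw [hfm.natDegree_mul hdm, natDegree_dual hF hf0]; omega)
      have h1 : f.natDegree = 1 := by
        rw [IsRoot, eval_mul, mul_eq_zero] at hc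
        rcases hc with h | h
        · exact natDegree_eq_of_degree_eq_some (degree_eq_one_of_irreducible_of_root hf h)
        · rw [← natDegree_dual hF hf0]
          exact natDegree_eq_of_degree_eq_some (degree_eq_one_of_irreducible_of_root hdi h)
      omega
    have hX : f ∣ X ^ ((q ^ 2) ^ f.natDegree - 1) - 1 := by
      have := Lib.GLOrders.pow_card_pow_sub_one f hf (fun h => hf0 (by
        obtain ⟨c, hcc⟩ := (hf.associated_of_dvd Polynomial.irreducible_X h).symm.dvd
        rw [hcc, mul_coeff_zero, coeff_X_zero, zero_mul]))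
      rwa [Nat.card_eq_fintype_card, hF] at this
    obtain ⟨e, he⟩ : ∃ e, 2 * f.natDegree = e + 1 + 1 := ⟨2 * f.natDegree - 2, by omega⟩
    refine dvd_card_SU hF (show e < j by omega) ?_
    rw [if_neg (fun h => by have := Nat.even_iff.1 h; omega), ← he, pow_mul]
    exact hdvr _ hX

end Cfsg.Agent.S2365
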