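import Cfsg.Statements.S2366
import Cfsg.Agent.Lib.Classical.SUThreeSpectrumUpper
import Cfsg.Agent.Lib.Classical.SUThreeSpectrumLower

set_option autoImplicit false
open Cfsg

namespace Cfsg.Agent.S2366

open Matrix Lib.Classical.SUThree Lib.Classical.Herm

variable {F : Type*} [Field F] [Fintype F] {q : ℕ}

theorem mem_center_iff (hF : Fintype.card F = q ^ 2) (g : ↥(Cfsg.SU 3 F q)) :
    g ∈ Subgroup.center ↥(Cfsg.SU 3 F q) ↔ ∃ e : F, mat g = e • 1 := by
  refine ⟨fun h => scalar_of_mem_center_SU hF (by norm_num) h, fun ⟨e, he⟩ => Subgroup.mem_center_iff.2 fun x => ?_⟩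
  refine Subtype.ext (Subtype.ext ?_)
  show mat x * mat g = mat g * mat x
  rw [he, mul_smul_comm, smul_mul_assoc, mul_one, one_mul]

theorem pow_mk_eq_one_iff (hF : Fintype.card F = q ^ 2) (g : ↥(Cfsg.SU 3 F q)) (k : ℕ) :
    (QuotientGroup.mk g : Cfsg.PSU 3 F q) ^ k = 1 ↔ ∃ e : F, mat g ^ k = e • 1 := by
  rw [← QuotientGroup.mk_pow, QuotientGroup.eq_one_iff, mem_center_iff hF, mat_pow]

theorem mem_range_of (hF : Fintype.card F = q ^ 2) {B s : ℕ}
    (h : ∃ g : ↥(Cfsg.SU 3 F q), ∀ k : ℕ, (∃ e : F, mat g ^ k = e • 1) → B ∣ k) (hs : s ∣ B) :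
    s ∈ Set.range (orderOf : Cfsg.PSU 3 F q → ℕ) := by
  obtain ⟨g, hg⟩ := h
  set x := (QuotientGroup.mk g : Cfsg.PSU 3 F q)
  have hd : s ∣ orderOf x := hs.trans (hg _ ((pow_mk_eq_one_iff hF g _).1 (pow_orderOf_eq_one x)))
  exact ⟨x ^ (orderOf x / s), orderOf_pow_orderOf_div (orderOf_pos x).ne' hd⟩

/-- The set of element orders of PSU(3, q) for an odd prime power q = p^n: writing d = gcd(3, q + 1), a positive integer is the order of some element exactly when it divides one of q + 1, p(q + 1)/d, (q² − 1)/d, (q² − q + 1)/d. -/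
theorem result {F : Type*} [Field F] [Fintype F] (p : ℕ) [Fact p.Prime] [CharP F p] (hp : p ≠ 2) (q : ℕ) (hF : Fintype.card F = q ^ 2) :
    Set.range (orderOf : Cfsg.PSU 3 F q → ℕ) =
      {s : ℕ | s ∣ q + 1} ∪ {s : ℕ | s ∣ p * (q + 1) / Nat.gcd 3 (q + 1)} ∪
        {s : ℕ | s ∣ (q ^ 2 - 1) / Nat.gcd 3 (q + 1)} ∪ {s : ℕ | s ∣ (q ^ 2 - q + 1) / Nat.gcd 3 (q + 1)} := by
  have hodd : Odd q := by
    obtain ⟨p', k, hpp, hcp, hk, hqp⟩ := Lib.UnitaryConj.q_eq_pow hF
    have hpp' : p' = p := CharP.eq F hcp (by assumption)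
    exact hqp ▸ hpp' ▸ ((Fact.out : p.Prime).odd_of_ne_two hp).pow
  refine Set.Subset.antisymm ?_ ?_
  · rintro _ ⟨x, rfl⟩
    induction x using QuotientGroup.induction_on with
    | H g =>
      obtain ⟨B, hB, he⟩ := scalar_power hF p hp g
      have hd : orderOf (QuotientGroup.mk g : Cfsg.PSU 3 F q) ∣ B :=
        orderOf_dvd_of_pow_eq_one ((pow_mk_eq_one_iff hF g B).2 he)
      rcases hB with rfl | rfl | rfl | rfl
      exacts [Or.inl (Or.inl (Or.inl hd)), Or.inl (Or.inl (Or.inr hd)), Or.inl (Or.inr hd), Or.inr hd]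
  · rintro s (((hs | hs) | hs) | hs)
    exacts [mem_range_of hF (lower_cyclic hF) hs, mem_range_of hF (lower_mixed hF p hp) hs,
      mem_range_of hF (lower_split hF hodd) hs, mem_range_of hF (lower_singer hF p) hs]

end Cfsg.Agent.S2366
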