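import Cfsg.Statements.S2367
import Mathlib

set_option autoImplicit false
open Cfsg

namespace Cfsg.Agent.S2367

/-- Let G be an alternating group of degree at least 5 or a simple group with the order of one of the 26 sporadic groups, and let p be an odd prime such that p³ is the exact power of p dividing the order of G. Then p³ is less than the 2-part of the order of G. -/
theorem result {G : Type*} [Group G] [Finite G] (hG : Cfsg.IsAlternating G ∨ Cfsg.IsSporadic G)
    (p : ℕ) (hp : p.Prime) (hodd : p ≠ 2) (h3 : (Nat.card G).factorization p = 3) :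
    p ^ 3 < 2 ^ (Nat.card G).factorization 2 := by
  have hN : ∀ (N : ℕ), Nat.card G = N → ∀ (a : ℕ), 2 ^ a ∣ N → p ^ 3 ∣ N ∧ ¬ p ^ 4 ∣ N ∧
      (p ^ 3 < 2 ^ a → p ^ 3 < 2 ^ (Nat.card G).factorization 2) := by
    intro N hN a ha
    have hN0 : N ≠ 0 := hN ▸ Nat.card_pos.ne'
    rw [hN] at h3 ⊢
    refine ⟨(hp.pow_dvd_iff_le_factorization hN0).mpr h3.ge, fun h => ?_, fun h => h.trans_le ?_⟩
    · have := (hp.pow_dvd_iff_le_factorization hN0).mp h
      omega
    · exact Nat.pow_le_pow_right (by norm_num) ((Nat.prime_two.pow_dvd_iff_le_factorization hN0).mp ha)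
  rcases hG with ⟨n, hn, ⟨e⟩⟩ | hG
  · haveI : Nontrivial (Fin n) := Fin.nontrivial_iff_two_le.mpr (by omega)
    haveI := Fact.mk hp
    have hc : 2 * Nat.card G = n.factorial := by
      rw [Nat.card_congr e.toEquiv, two_mul_nat_card_alternatingGroup, Nat.card_perm, Nat.card_fin]
    have hG0 : Nat.card G ≠ 0 := Nat.card_pos.ne'
    have hf : ∀ l, n.factorial.factorization l = (2 : ℕ).factorization l + (Nat.card G).factorization l := by
      intro l; rw [← hc, Nat.factorization_mul two_ne_zero hG0]; rfl
    have hf2 := hf 2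
    have hfp := hf p
    rw [Nat.prime_two.factorization] at hf2 hfp
    simp only [Finsupp.single_eq_same, Finsupp.single_eq_of_ne hodd] at hf2 hfp
    rw [h3] at hfp
    have h3p : 3 * p ≤ n := by
      by_contra hlt
      push Not at hlt
      have hdvd : n.factorial ∣ (3 * p - 1).factorial := Nat.factorial_dvd_factorial (by omega)
      have hle := (Nat.factorization_le_iff_dvd (Nat.factorial_ne_zero _) (Nat.factorial_ne_zero _)).mpr hdvd p
      rw [hfp, show 3 * p - 1 = p * 2 + (p - 1) by have := hp.two_le; omega,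
        Nat.factorization_def _ hp, padicValNat_factorial_mul_add _ (by have := hp.two_le; omega),
        padicValNat_factorial_mul, padicValNat.eq_zero_of_not_dvd] at hle
      · omega
      · intro h
        have : p ≤ 2 := Nat.le_of_dvd (by norm_num) (by simpa [Nat.factorial] using h)
        have := hp.two_le
        omega
    have hp5 : 5 ≤ p := by
      by_contra h
      obtain rfl : p = 3 := by
        have := hp.two_le
        interval_cases p
        · exact absurd rfl hodd
        · rfl
        · exact absurd hp (by norm_num)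
      have h9 : Nat.factorial 9 ∣ n.factorial := Nat.factorial_dvd_factorial (by omega)
      have h81 : 3 ^ 4 ∣ n.factorial := dvd_trans (by decide) h9
      have := (hp.pow_dvd_iff_le_factorization (Nat.factorial_ne_zero n)).mp h81
      omega
    have hv : 3 * p / 2 + 3 * p / 4 ≤ n.factorial.factorization 2 := by
      have hdvd : (3 * p).factorial ∣ n.factorial := Nat.factorial_dvd_factorial h3p
      refine le_trans ?_ ((Nat.factorization_le_iff_dvd (Nat.factorial_ne_zero _) (Nat.factorial_ne_zero _)).mpr hdvd 2)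
      rw [Nat.factorization_factorial Nat.prime_two (b := 3 * p + 3)
        (lt_of_le_of_lt (Nat.log_le_self _ _) (by omega))]
      calc 3 * p / 2 + 3 * p / 4 = ∑ i ∈ ({1, 2} : Finset ℕ), 3 * p / 2 ^ i := by simp
        _ ≤ _ := Finset.sum_le_sum_of_subset (by
              intro i hi
              simp only [Finset.mem_insert, Finset.mem_singleton] at hi
              simp only [Finset.mem_Ico]
              omega)
    have hpow : ∀ k, 5 ≤ k → k ^ 3 < 2 ^ (2 * k - 1) := by
      intro k hk
      induction k, hk using Nat.le_induction with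
      | base => norm_num
      | succ m hm ih =>
        rw [show 2 * (m + 1) - 1 = (2 * m - 1) + 2 by omega, pow_add]
        have h1 : (m + 1) ^ 3 ≤ 4 * m ^ 3 := by nlinarith [Nat.mul_le_mul hm hm]
        omega
    exact (hpow p hp5).trans_le (Nat.pow_le_pow_right (by norm_num) (by omega))
  · rcases hG with ⟨_, h⟩ | ⟨_, h⟩ | ⟨_, h⟩ | ⟨_, h⟩ | ⟨_, h⟩ | ⟨_, h⟩ | ⟨_, h⟩ | ⟨_, h⟩ | ⟨_, h⟩ | ⟨_, h⟩ | ⟨_, h⟩ | ⟨_, h⟩ | ⟨_, h⟩ | ⟨_, h⟩ | ⟨_, h⟩ | ⟨_, h⟩ | ⟨_, h⟩ | ⟨_, h⟩ | ⟨_, h⟩ | ⟨_, h⟩ | ⟨_, h⟩ | ⟨_, h⟩ | ⟨_, h⟩ | ⟨_, h⟩ | ⟨_, h⟩ | ⟨_, h⟩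
    · obtain ⟨h3', h4', hlt⟩ := hN _ h 4 (by norm_num)
      have hd : p ∣ 2 ^ 4 * 3 ^ 2 * 5 ^ 1 * 11 ^ 1 := by
        norm_num
        exact (dvd_pow_self p (by norm_num)).trans h3'
      simp only [hp.dvd_mul] at hd
      apply hlt
      rcases hd with ((hd | hd) | hd) | hd
      all_goals
        (replace hd := (Nat.prime_dvd_prime_iff_eq hp (by norm_num)).mp (hp.dvd_of_dvd_pow hd)
         subst hd
         first
         | exact absurd rfl hodd
         | (norm_num at h3'; done)
         | (norm_num at h4'; done)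
         | norm_num)
    · obtain ⟨h3', h4', hlt⟩ := hN _ h 6 (by norm_num)
      have hd : p ∣ 2 ^ 6 * 3 ^ 3 * 5 ^ 1 * 11 ^ 1 := by
        norm_num
        exact (dvd_pow_self p (by norm_num)).trans h3'
      simp only [hp.dvd_mul] at hd
      apply hlt
      rcases hd with ((hd | hd) | hd) | hd
      all_goals
        (replace hd := (Nat.prime_dvd_prime_iff_eq hp (by norm_num)).mp (hp.dvd_of_dvd_pow hd)
         subst hd
         first
         | exact absurd rfl hodd
         | (norm_num at h3'; done)
         | (norm_num at h4'; done)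
         | norm_num)
    · obtain ⟨h3', h4', hlt⟩ := hN _ h 7 (by norm_num)
      have hd : p ∣ 2 ^ 7 * 3 ^ 2 * 5 ^ 1 * 7 ^ 1 * 11 ^ 1 := by
        norm_num
        exact (dvd_pow_self p (by norm_num)).trans h3'
      simp only [hp.dvd_mul] at hd
      apply hlt
      rcases hd with (((hd | hd) | hd) | hd) | hd
      all_goals
        (replace hd := (Nat.prime_dvd_prime_iff_eq hp (by norm_num)).mp (hp.dvd_of_dvd_pow hd)
         subst hd
         first
         | exact absurd rfl hodd
         | (norm_num at h3'; done)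
         | (norm_num at h4'; done)
         | norm_num)
    · obtain ⟨h3', h4', hlt⟩ := hN _ h 7 (by norm_num)
      have hd : p ∣ 2 ^ 7 * 3 ^ 2 * 5 ^ 1 * 7 ^ 1 * 11 ^ 1 * 23 ^ 1 := by
        norm_num
        exact (dvd_pow_self p (by norm_num)).trans h3'
      simp only [hp.dvd_mul] at hd
      apply hlt
      rcases hd with ((((hd | hd) | hd) | hd) | hd) | hd
      all_goals
        (replace hd := (Nat.prime_dvd_prime_iff_eq hp (by norm_num)).mp (hp.dvd_of_dvd_pow hd)
         subst hd
         first
         | exact absurd rfl hodd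
         | (norm_num at h3'; done)
         | (norm_num at h4'; done)
         | norm_num)
    · obtain ⟨h3', h4', hlt⟩ := hN _ h 10 (by norm_num)
      have hd : p ∣ 2 ^ 10 * 3 ^ 3 * 5 ^ 1 * 7 ^ 1 * 11 ^ 1 * 23 ^ 1 := by
        norm_num
        exact (dvd_pow_self p (by norm_num)).trans h3'
      simp only [hp.dvd_mul] at hd
      apply hlt
      rcases hd with ((((hd | hd) | hd) | hd) | hd) | hd
      all_goals
        (replace hd := (Nat.prime_dvd_prime_iff_eq hp (by norm_num)).mp (hp.dvd_of_dvd_pow hd)
         subst hd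
         first
         | exact absurd rfl hodd
         | (norm_num at h3'; done)
         | (norm_num at h4'; done)
         | norm_num)
    · obtain ⟨h3', h4', hlt⟩ := hN _ h 3 (by norm_num)
      have hd : p ∣ 2 ^ 3 * 3 ^ 1 * 5 ^ 1 * 7 ^ 1 * 11 ^ 1 * 19 ^ 1 := by
        norm_num
        exact (dvd_pow_self p (by norm_num)).trans h3'
      simp only [hp.dvd_mul] at hd
      apply hlt
      rcases hd with ((((hd | hd) | hd) | hd) | hd) | hd
      all_goals
        (replace hd := (Nat.prime_dvd_prime_iff_eq hp (by norm_num)).mp (hp.dvd_of_dvd_pow hd)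
         subst hd
         first
         | exact absurd rfl hodd
         | (norm_num at h3'; done)
         | (norm_num at h4'; done)
         | norm_num)
    · obtain ⟨h3', h4', hlt⟩ := hN _ h 7 (by norm_num)
      have hd : p ∣ 2 ^ 7 * 3 ^ 3 * 5 ^ 2 * 7 ^ 1 := by
        norm_num
        exact (dvd_pow_self p (by norm_num)).trans h3'
      simp only [hp.dvd_mul] at hd
      apply hlt
      rcases hd with ((hd | hd) | hd) | hd
      all_goals
        (replace hd := (Nat.prime_dvd_prime_iff_eq hp (by norm_num)).mp (hp.dvd_of_dvd_pow hd)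
         subst hd
         first
         | exact absurd rfl hodd
         | (norm_num at h3'; done)
         | (norm_num at h4'; done)
         | norm_num)
    · obtain ⟨h3', h4', hlt⟩ := hN _ h 7 (by norm_num)
      have hd : p ∣ 2 ^ 7 * 3 ^ 5 * 5 ^ 1 * 17 ^ 1 * 19 ^ 1 := by
        norm_num
        exact (dvd_pow_self p (by norm_num)).trans h3'
      simp only [hp.dvd_mul] at hd
      apply hlt
      rcases hd with (((hd | hd) | hd) | hd) | hd
      all_goals
        (replace hd := (Nat.prime_dvd_prime_iff_eq hp (by norm_num)).mp (hp.dvd_of_dvd_pow hd)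
         subst hd
         first
         | exact absurd rfl hodd
         | (norm_num at h3'; done)
         | (norm_num at h4'; done)
         | norm_num)
    · obtain ⟨h3', h4', hlt⟩ := hN _ h 21 (by norm_num)
      have hd : p ∣ 2 ^ 21 * 3 ^ 3 * 5 ^ 1 * 7 ^ 1 * 11 ^ 3 * 23 ^ 1 * 29 ^ 1 * 31 ^ 1 * 37 ^ 1 * 43 ^ 1 := by
        norm_num
        exact (dvd_pow_self p (by norm_num)).trans h3'
      simp only [hp.dvd_mul] at hd
      apply hlt
      rcases hd with ((((((((hd | hd) | hd) | hd) | hd) | hd) | hd) | hd) | hd) | hd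
      all_goals
        (replace hd := (Nat.prime_dvd_prime_iff_eq hp (by norm_num)).mp (hp.dvd_of_dvd_pow hd)
         subst hd
         first
         | exact absurd rfl hodd
         | (norm_num at h3'; done)
         | (norm_num at h4'; done)
         | norm_num)
    · obtain ⟨h3', h4', hlt⟩ := hN _ h 21 (by norm_num)
      have hd : p ∣ 2 ^ 21 * 3 ^ 9 * 5 ^ 4 * 7 ^ 2 * 11 ^ 1 * 13 ^ 1 * 23 ^ 1 := by
        norm_num
        exact (dvd_pow_self p (by norm_num)).trans h3'
      simp only [hp.dvd_mul] at hd
      apply hlt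
      rcases hd with (((((hd | hd) | hd) | hd) | hd) | hd) | hd
      all_goals
        (replace hd := (Nat.prime_dvd_prime_iff_eq hp (by norm_num)).mp (hp.dvd_of_dvd_pow hd)
         subst hd
         first
         | exact absurd rfl hodd
         | (norm_num at h3'; done)
         | (norm_num at h4'; done)
         | norm_num)
    · obtain ⟨h3', h4', hlt⟩ := hN _ h 18 (by norm_num)
      have hd : p ∣ 2 ^ 18 * 3 ^ 6 * 5 ^ 3 * 7 ^ 1 * 11 ^ 1 * 23 ^ 1 := by
        norm_num
        exact (dvd_pow_self p (by norm_num)).trans h3'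
      simp only [hp.dvd_mul] at hd
      apply hlt
      rcases hd with ((((hd | hd) | hd) | hd) | hd) | hd
      all_goals
        (replace hd := (Nat.prime_dvd_prime_iff_eq hp (by norm_num)).mp (hp.dvd_of_dvd_pow hd)
         subst hd
         first
         | exact absurd rfl hodd
         | (norm_num at h3'; done)
         | (norm_num at h4'; done)
         | norm_num)
    · obtain ⟨h3', h4', hlt⟩ := hN _ h 10 (by norm_num)
      have hd : p ∣ 2 ^ 10 * 3 ^ 7 * 5 ^ 3 * 7 ^ 1 * 11 ^ 1 * 23 ^ 1 := by
        norm_num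
        exact (dvd_pow_self p (by norm_num)).trans h3'
      simp only [hp.dvd_mul] at hd
      apply hlt
      rcases hd with ((((hd | hd) | hd) | hd) | hd) | hd
      all_goals
        (replace hd := (Nat.prime_dvd_prime_iff_eq hp (by norm_num)).mp (hp.dvd_of_dvd_pow hd)
         subst hd
         first
         | exact absurd rfl hodd
         | (norm_num at h3'; done)
         | (norm_num at h4'; done)
         | norm_num)
    · obtain ⟨h3', h4', hlt⟩ := hN _ h 17 (by norm_num)
      have hd : p ∣ 2 ^ 17 * 3 ^ 9 * 5 ^ 2 * 7 ^ 1 * 11 ^ 1 * 13 ^ 1 := by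
        norm_num
        exact (dvd_pow_self p (by norm_num)).trans h3'
      simp only [hp.dvd_mul] at hd
      apply hlt
      rcases hd with ((((hd | hd) | hd) | hd) | hd) | hd
      all_goals
        (replace hd := (Nat.prime_dvd_prime_iff_eq hp (by norm_num)).mp (hp.dvd_of_dvd_pow hd)
         subst hd
         first
         | exact absurd rfl hodd
         | (norm_num at h3'; done)
         | (norm_num at h4'; done)
         | norm_num)
    · obtain ⟨h3', h4', hlt⟩ := hN _ h 18 (by norm_num)
      have hd : p ∣ 2 ^ 18 * 3 ^ 13 * 5 ^ 2 * 7 ^ 1 * 11 ^ 1 * 13 ^ 1 * 17 ^ 1 * 23 ^ 1 := by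
        norm_num
        exact (dvd_pow_self p (by norm_num)).trans h3'
      simp only [hp.dvd_mul] at hd
      apply hlt
      rcases hd with ((((((hd | hd) | hd) | hd) | hd) | hd) | hd) | hd
      all_goals
        (replace hd := (Nat.prime_dvd_prime_iff_eq hp (by norm_num)).mp (hp.dvd_of_dvd_pow hd)
         subst hd
         first
         | exact absurd rfl hodd
         | (norm_num at h3'; done)
         | (norm_num at h4'; done)
         | norm_num)
    · obtain ⟨h3', h4', hlt⟩ := hN _ h 21 (by norm_num)
      have hd : p ∣ 2 ^ 21 * 3 ^ 16 * 5 ^ 2 * 7 ^ 3 * 11 ^ 1 * 13 ^ 1 * 17 ^ 1 * 23 ^ 1 * 29 ^ 1 := by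
        norm_num
        exact (dvd_pow_self p (by norm_num)).trans h3'
      simp only [hp.dvd_mul] at hd
      apply hlt
      rcases hd with (((((((hd | hd) | hd) | hd) | hd) | hd) | hd) | hd) | hd
      all_goals
        (replace hd := (Nat.prime_dvd_prime_iff_eq hp (by norm_num)).mp (hp.dvd_of_dvd_pow hd)
         subst hd
         first
         | exact absurd rfl hodd
         | (norm_num at h3'; done)
         | (norm_num at h4'; done)
         | norm_num)
    · obtain ⟨h3', h4', hlt⟩ := hN _ h 9 (by norm_num)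
      have hd : p ∣ 2 ^ 9 * 3 ^ 2 * 5 ^ 3 * 7 ^ 1 * 11 ^ 1 := by
        norm_num
        exact (dvd_pow_self p (by norm_num)).trans h3'
      simp only [hp.dvd_mul] at hd
      apply hlt
      rcases hd with (((hd | hd) | hd) | hd) | hd
      all_goals
        (replace hd := (Nat.prime_dvd_prime_iff_eq hp (by norm_num)).mp (hp.dvd_of_dvd_pow hd)
         subst hd
         first
         | exact absurd rfl hodd
         | (norm_num at h3'; done)
         | (norm_num at h4'; done)
         | norm_num)
    · obtain ⟨h3', h4', hlt⟩ := hN _ h 7 (by norm_num)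
      have hd : p ∣ 2 ^ 7 * 3 ^ 6 * 5 ^ 3 * 7 ^ 1 * 11 ^ 1 := by
        norm_num
        exact (dvd_pow_self p (by norm_num)).trans h3'
      simp only [hp.dvd_mul] at hd
      apply hlt
      rcases hd with (((hd | hd) | hd) | hd) | hd
      all_goals
        (replace hd := (Nat.prime_dvd_prime_iff_eq hp (by norm_num)).mp (hp.dvd_of_dvd_pow hd)
         subst hd
         first
         | exact absurd rfl hodd
         | (norm_num at h3'; done)
         | (norm_num at h4'; done)
         | norm_num)
    · obtain ⟨h3', h4', hlt⟩ := hN _ h 10 (by norm_num)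
      have hd : p ∣ 2 ^ 10 * 3 ^ 3 * 5 ^ 2 * 7 ^ 3 * 17 ^ 1 := by
        norm_num
        exact (dvd_pow_self p (by norm_num)).trans h3'
      simp only [hp.dvd_mul] at hd
      apply hlt
      rcases hd with (((hd | hd) | hd) | hd) | hd
      all_goals
        (replace hd := (Nat.prime_dvd_prime_iff_eq hp (by norm_num)).mp (hp.dvd_of_dvd_pow hd)
         subst hd
         first
         | exact absurd rfl hodd
         | (norm_num at h3'; done)
         | (norm_num at h4'; done)
         | norm_num)
    · obtain ⟨h3', h4', hlt⟩ := hN _ h 14 (by norm_num)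
      have hd : p ∣ 2 ^ 14 * 3 ^ 3 * 5 ^ 3 * 7 ^ 1 * 13 ^ 1 * 29 ^ 1 := by
        norm_num
        exact (dvd_pow_self p (by norm_num)).trans h3'
      simp only [hp.dvd_mul] at hd
      apply hlt
      rcases hd with ((((hd | hd) | hd) | hd) | hd) | hd
      all_goals
        (replace hd := (Nat.prime_dvd_prime_iff_eq hp (by norm_num)).mp (hp.dvd_of_dvd_pow hd)
         subst hd
         first
         | exact absurd rfl hodd
         | (norm_num at h3'; done)
         | (norm_num at h4'; done)
         | norm_num)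
    · obtain ⟨h3', h4', hlt⟩ := hN _ h 13 (by norm_num)
      have hd : p ∣ 2 ^ 13 * 3 ^ 7 * 5 ^ 2 * 7 ^ 1 * 11 ^ 1 * 13 ^ 1 := by
        norm_num
        exact (dvd_pow_self p (by norm_num)).trans h3'
      simp only [hp.dvd_mul] at hd
      apply hlt
      rcases hd with ((((hd | hd) | hd) | hd) | hd) | hd
      all_goals
        (replace hd := (Nat.prime_dvd_prime_iff_eq hp (by norm_num)).mp (hp.dvd_of_dvd_pow hd)
         subst hd
         first
         | exact absurd rfl hodd
         | (norm_num at h3'; done)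
         | (norm_num at h4'; done)
         | norm_num)
    · obtain ⟨h3', h4', hlt⟩ := hN _ h 9 (by norm_num)
      have hd : p ∣ 2 ^ 9 * 3 ^ 4 * 5 ^ 1 * 7 ^ 3 * 11 ^ 1 * 19 ^ 1 * 31 ^ 1 := by
        norm_num
        exact (dvd_pow_self p (by norm_num)).trans h3'
      simp only [hp.dvd_mul] at hd
      apply hlt
      rcases hd with (((((hd | hd) | hd) | hd) | hd) | hd) | hd
      all_goals
        (replace hd := (Nat.prime_dvd_prime_iff_eq hp (by norm_num)).mp (hp.dvd_of_dvd_pow hd)
         subst hd
         first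
         | exact absurd rfl hodd
         | (norm_num at h3'; done)
         | (norm_num at h4'; done)
         | norm_num)
    · obtain ⟨h3', h4', hlt⟩ := hN _ h 14 (by norm_num)
      have hd : p ∣ 2 ^ 14 * 3 ^ 6 * 5 ^ 6 * 7 ^ 1 * 11 ^ 1 * 19 ^ 1 := by
        norm_num
        exact (dvd_pow_self p (by norm_num)).trans h3'
      simp only [hp.dvd_mul] at hd
      apply hlt
      rcases hd with ((((hd | hd) | hd) | hd) | hd) | hd
      all_goals
        (replace hd := (Nat.prime_dvd_prime_iff_eq hp (by norm_num)).mp (hp.dvd_of_dvd_pow hd)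
         subst hd
         first
         | exact absurd rfl hodd
         | (norm_num at h3'; done)
         | (norm_num at h4'; done)
         | norm_num)
    · obtain ⟨h3', h4', hlt⟩ := hN _ h 8 (by norm_num)
      have hd : p ∣ 2 ^ 8 * 3 ^ 7 * 5 ^ 6 * 7 ^ 1 * 11 ^ 1 * 31 ^ 1 * 37 ^ 1 * 67 ^ 1 := by
        norm_num
        exact (dvd_pow_self p (by norm_num)).trans h3'
      simp only [hp.dvd_mul] at hd
      apply hlt
      rcases hd with ((((((hd | hd) | hd) | hd) | hd) | hd) | hd) | hd
      all_goals
        (replace hd := (Nat.prime_dvd_prime_iff_eq hp (by norm_num)).mp (hp.dvd_of_dvd_pow hd)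
         subst hd
         first
         | exact absurd rfl hodd
         | (norm_num at h3'; done)
         | (norm_num at h4'; done)
         | norm_num)
    · obtain ⟨h3', h4', hlt⟩ := hN _ h 15 (by norm_num)
      have hd : p ∣ 2 ^ 15 * 3 ^ 10 * 5 ^ 3 * 7 ^ 2 * 13 ^ 1 * 19 ^ 1 * 31 ^ 1 := by
        norm_num
        exact (dvd_pow_self p (by norm_num)).trans h3'
      simp only [hp.dvd_mul] at hd
      apply hlt
      rcases hd with (((((hd | hd) | hd) | hd) | hd) | hd) | hd
      all_goals
        (replace hd := (Nat.prime_dvd_prime_iff_eq hp (by norm_num)).mp (hp.dvd_of_dvd_pow hd)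
         subst hd
         first
         | exact absurd rfl hodd
         | (norm_num at h3'; done)
         | (norm_num at h4'; done)
         | norm_num)
    · obtain ⟨h3', h4', hlt⟩ := hN _ h 41 (by norm_num)
      have hd : p ∣ 2 ^ 41 * 3 ^ 13 * 5 ^ 6 * 7 ^ 2 * 11 ^ 1 * 13 ^ 1 * 17 ^ 1 * 19 ^ 1 * 23 ^ 1 * 31 ^ 1 * 47 ^ 1 := by
        norm_num
        exact (dvd_pow_self p (by norm_num)).trans h3'
      simp only [hp.dvd_mul] at hd
      apply hlt
      rcases hd with (((((((((hd | hd) | hd) | hd) | hd) | hd) | hd) | hd) | hd) | hd) | hd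
      all_goals
        (replace hd := (Nat.prime_dvd_prime_iff_eq hp (by norm_num)).mp (hp.dvd_of_dvd_pow hd)
         subst hd
         first
         | exact absurd rfl hodd
         | (norm_num at h3'; done)
         | (norm_num at h4'; done)
         | norm_num)
    · obtain ⟨h3', h4', hlt⟩ := hN _ h 46 (by norm_num)
      have hd : p ∣ 2 ^ 46 * 3 ^ 20 * 5 ^ 9 * 7 ^ 6 * 11 ^ 2 * 13 ^ 3 * 17 ^ 1 * 19 ^ 1 * 23 ^ 1 * 29 ^ 1 * 31 ^ 1 * 41 ^ 1 * 47 ^ 1 * 59 ^ 1 * 71 ^ 1 := by
        norm_num
        exact (dvd_pow_self p (by norm_num)).trans h3'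
      simp only [hp.dvd_mul] at hd
      apply hlt
      rcases hd with (((((((((((((hd | hd) | hd) | hd) | hd) | hd) | hd) | hd) | hd) | hd) | hd) | hd) | hd) | hd) | hd
      all_goals
        (replace hd := (Nat.prime_dvd_prime_iff_eq hp (by norm_num)).mp (hp.dvd_of_dvd_pow hd)
         subst hd
         first
         | exact absurd rfl hodd
         | (norm_num at h3'; done)
         | (norm_num at h4'; done)
         | norm_num)

end Cfsg.Agent.S2367
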