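import Cfsg.Statements.S2368
import Cfsg.Agent.Lib.GLn.UnipGen

set_option autoImplicit false
open Cfsg

namespace Cfsg.Agent.S2368

/-- Let F be a finite field of characteristic p and m ≥ 1. Every element of GL(m, F) of p-power order has order less than p·m, and GL(m, F) has an element of p-power order at least m; so the largest order of a p-element of GL(m, F) is the least power of p that is at least m. -/
theorem result {F : Type*} [Field F] [Fintype F] (p : ℕ) [Fact p.Prime] [CharP F p] (m : ℕ) (hm : 1 ≤ m) :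
    (∀ g : Matrix.GeneralLinearGroup (Fin m) F, (∃ j : ℕ, orderOf g = p ^ j) → orderOf g < p * m) ∧
      ∃ g : Matrix.GeneralLinearGroup (Fin m) F, (∃ j : ℕ, orderOf g = p ^ j) ∧ m ≤ orderOf g := by
  classical
  have hp := (Fact.out : p.Prime)
  haveI : CharP (Matrix (Fin m) (Fin m) F) p := by
    haveI : Nonempty (Fin m) := ⟨⟨0, hm⟩⟩
    exact Matrix.charP p (n := Fin m) (R := F)
  refine ⟨fun g ⟨j, hj⟩ => ?_, ?_⟩
  · have hk : ∃ k, m ≤ p ^ k := ⟨m, (Nat.lt_pow_self hp.one_lt).le⟩
    have hk1 := Nat.find_spec hk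
    have hnil : IsNilpotent ((g : Matrix (Fin m) (Fin m) F) - 1) := by
      refine ⟨p ^ j, ?_⟩
      rw [sub_pow_char_pow_of_commute p j (Commute.one_right _), one_pow, ← Units.val_pow_eq_pow_val,
        ← hj, pow_orderOf_eq_one, Units.val_one, sub_self]
    have hz : ((g : Matrix (Fin m) (Fin m) F) - 1) ^ m = 0 := by
      have h1 := (Matrix.isNilpotent_charpoly_sub_pow_of_isNilpotent hnil).eq_zero
      rw [sub_eq_zero, Fintype.card_fin] at h1
      have h2 := Matrix.aeval_self_charpoly ((g : Matrix (Fin m) (Fin m) F) - 1)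
      rw [h1, map_pow, Polynomial.aeval_X] at h2
      exact h2
    have hg : g ^ p ^ Nat.find hk = 1 := Units.ext (by
      rw [Units.val_pow_eq_pow_val, Units.val_one, ← sub_eq_zero,
        ← one_pow (M := Matrix (Fin m) (Fin m) F) (p ^ Nat.find hk),
        ← sub_pow_char_pow_of_commute p (Nat.find hk) (Commute.one_right _)]
      exact pow_eq_zero_of_le hk1 hz)
    have hle := Nat.le_of_dvd (pow_pos hp.pos _) (orderOf_dvd_of_pow_eq_one hg)
    rcases Nat.eq_zero_or_pos (Nat.find hk) with h0 | h0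
    · rw [h0, pow_zero] at hle
      have := Nat.mul_le_mul hp.two_le hm
      omega
    · have h1 := Nat.find_min hk (Nat.sub_one_lt (by omega : Nat.find hk ≠ 0))
      rw [not_le] at h1
      calc orderOf g ≤ p ^ Nat.find hk := hle
        _ = p * p ^ (Nat.find hk - 1) := by rw [← pow_succ']; congr 1; omega
        _ < p * m := Nat.mul_lt_mul_of_pos_left h1 hp.pos
  · obtain ⟨hnil, hne⟩ := Cfsg.Agent.Lib.GLn.upperJordan_regular (F := F) m hm
    set u := Cfsg.Agent.Lib.GLn.upperJordan m F
    obtain ⟨N, hN⟩ := hnil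
    set g : GL (Fin m) F := Matrix.SpecialLinearGroup.toGL u
    have hcoe : (g : Matrix (Fin m) (Fin m) F) = (u : Matrix (Fin m) (Fin m) F) := rfl
    have hgN : g ^ p ^ N = 1 := Units.ext (by
      rw [Units.val_pow_eq_pow_val, Units.val_one, ← sub_eq_zero,
        ← one_pow (M := Matrix (Fin m) (Fin m) F) (p ^ N),
        ← sub_pow_char_pow_of_commute p N (Commute.one_right _), hcoe]
      exact pow_eq_zero_of_le (Nat.lt_pow_self hp.one_lt).le hN)
    obtain ⟨j, -, hj⟩ := (Nat.dvd_prime_pow hp).1 (orderOf_dvd_of_pow_eq_one hgN)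
    refine ⟨g, ⟨j, hj⟩, ?_⟩
    by_contra hlt
    refine hne (pow_eq_zero_of_le (show p ^ j ≤ m - 1 by omega) ?_)
    rw [sub_pow_char_pow_of_commute p j (Commute.one_right _), one_pow, ← hcoe,
      ← Units.val_pow_eq_pow_val, ← hj, pow_orderOf_eq_one, Units.val_one, sub_self]

end Cfsg.Agent.S2368
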