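import Cfsg.Statements.S2369
import Cfsg.Agent.Lib.Chev.TwistF4ReeCentPrimes

set_option autoImplicit false
open Cfsg

namespace Cfsg.Agent.S2369

/-- Let q = 2^(2m+1) with m ≥ 1 and let a, b be commuting elements of the large Ree group ²F₄(q) with a an involution. Then every prime divisor of the order of b divides q(q⁴ − 1). -/
theorem result {K : Type*} [Field K] [Fintype K] (m : ℕ) (hm : 1 ≤ m) (hK : Fintype.card K = 2 ^ (2 * m + 1))
    (a b : ↥(Cfsg.Lie.twistedF4 K (2 ^ m))) (ha : orderOf a = 2) (hab : Commute a b) :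
    (orderOf b).primeFactors ⊆ (2 ^ (2 * m + 1) * ((2 ^ (2 * m + 1)) ^ 4 - 1)).primeFactors := by
  obtain ⟨hchar, θ, hθ⟩ := Lib.Chev.F4.exists_theta (K := K) hK
  exact Lib.Chev.F4.primes_commute_invol θ hθ hK a b ha hab

end Cfsg.Agent.S2369
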