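import Cfsg.Statements.S2370

import Cfsg.Agent.Lib.Chev.Bruhat
import Cfsg.Agent.Lib.Chev.All
import Cfsg.Agent.S2326
set_option autoImplicit false
open Cfsg

namespace Cfsg.Agent.S2370

open Cfsg.Lie Cfsg.Agent.Lib.Chev

/-- the height of a root of type F4, from its coefficients -/
def ht4 (v : ℕ) : ℤ := F4.fast.cf v 0 + F4.fast.cf v 1 + F4.fast.cf v 2 + F4.fast.cf v 3

theorem ht4_bound : ∀ v < 48, -11 ≤ ht4 v ∧ ht4 v ≤ 11 ∧ (chevF4.IsPosRoot v → 0 < ht4 v) := by
  decide +kernel

/-- the height level of a basis index -/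
def lev4 : chevF4.Idx → ℤ
  | Sum.inl _ => 0
  | Sum.inr v => ht4 v.val

theorem lev4_bound (a : chevF4.Idx) : -11 ≤ lev4 a ∧ lev4 a ≤ 11 := by
  rcases a with i | v
  · exact ⟨by show (-11 : ℤ) ≤ 0; omega, by show (0 : ℤ) ≤ 11; omega⟩
  · exact ⟨(ht4_bound v.val v.2).1, (ht4_bound v.val v.2).2.1⟩

section
variable {F : Type*} [Field F]

/-- `M - 1` raises the height by at least `n` -/
def Raises (n : ℤ) (M : Matrix chevF4.Idx chevF4.Idx F) : Prop :=
  ∀ a b, M a b ≠ 0 → lev4 b + n ≤ lev4 a

theorem raises_mul {n m : ℤ} {M N : Matrix chevF4.Idx chevF4.Idx F} (hM : Raises n M) (hN : Raises m N) :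
    Raises (n + m) (M * N) := by
  intro a b h
  rw [Matrix.mul_apply] at h
  obtain ⟨c, -, hc⟩ := Finset.exists_ne_zero_of_sum_ne_zero h
  have h1 := hM a c (left_ne_zero_of_mul hc)
  have h2 := hN c b (right_ne_zero_of_mul hc)
  omega

theorem raises_x {r : ℕ} (hr : chevF4.IsPosRoot r) (t : F) : Raises 1 (chevF4.x F r t - 1) := by
  have C : Checked chevF4 F4.fast := F4.checked
  have R := C.root
  have hr1 := hr.1
  have hk : 0 < ht4 r := (ht4_bound r hr1).2.2 hr
  have hneg : ∀ j < 4, F4.fast.cf (chevF4.neg r) j = - F4.fast.cf r j := fun j hj => R.coef_neg hr1 hj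
  intro a b h0
  rw [Matrix.sub_apply] at h0
  rcases b with j | v
  · have h := congrFun (x_bh hr1 t j.2) a
    simp only [mulVec_bh] at h
    rw [h] at h0
    rcases a with i | u
    · refine absurd ?_ h0
      by_cases hij : i = j
      · subst hij; simp [bh_apply, bv_apply]
      · have : (i : ℕ) ≠ j := fun h => hij (Fin.ext h)
        simp [bh_apply, bv_apply, this, Matrix.one_apply, hij]
    · by_cases hu : (u : ℕ) = r
      · show (0 : ℤ) + 1 ≤ ht4 u.val
        rw [hu]; omega
      · refine absurd ?_ h0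
        simp [bh_apply, bv_apply, hu]
  · by_cases h1 : v.val = r
    · have h := congrFun (x_bv_self hr1 t) a
      simp only [← h1, mulVec_bv] at h
      rw [← h1, h] at h0
      refine absurd ?_ h0
      rcases a with i | u
      · simp [bv_apply]
      · by_cases huv : u = v
        · subst huv; simp [bv_apply]
        · have : (u : ℕ) ≠ v := fun h => huv (Fin.ext h)
          simp [bv_apply, this, Matrix.one_apply, huv]
    · by_cases h2 : v.val = chevF4.neg r
      · have h := congrFun (x_bv_neg' R hr1 t) a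
        simp only [← h2, mulVec_bv] at h
        rw [h] at h0
        have hkv : ht4 v.val = - ht4 r := by
          rw [h2]; simp only [ht4]
          rw [hneg 0 (by omega), hneg 1 (by omega), hneg 2 (by omega), hneg 3 (by omega)]
          ring
        rcases a with i | u
        · show ht4 v.val + 1 ≤ 0
          omega
        · by_cases hu : (u : ℕ) = r
          · show ht4 v.val + 1 ≤ ht4 u.val
            rw [hu]; omega
          · refine absurd ?_ h0
            by_cases huv : u = v
            · subst huv; simp [bv_apply, bh_apply, h1, Finset.sum_apply]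
            · have : (u : ℕ) ≠ v := fun h => huv (Fin.ext h)
              simp [bv_apply, bh_apply, hu, this, Finset.sum_apply, Matrix.one_apply, huv]
      · have h := congrFun (x_bv_other hr1 v.2 h1 h2 (R.chain_nodup r hr1) t) a
        simp only [mulVec_bv] at h
        rw [h, Pi.add_apply] at h0
        have hbv : bv chevF4 F v.val a = (1 : Matrix chevF4.Idx chevF4.Idx F) a (Sum.inr v) := by
          rcases a with i | u
          · simp [bv_apply]
          · by_cases huv : u = v
            · subst huv; simp [bv_apply]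
            · have : (u : ℕ) ≠ v := fun h => huv (Fin.ext h)
              simp [bv_apply, this, Matrix.one_apply, huv]
        rw [hbv, add_sub_cancel_left] at h0
        obtain ⟨k, u, m, hu, hget, rfl⟩ := C.chainVec_apply_ne h0
        have hlin : ∀ j < 4, F4.fast.cf u j = ((k + 1 : ℕ) : ℤ) * F4.fast.cf r j + F4.fast.cf v.val j :=
          fun j hj => C.chainRoot_coef hr1 v.2 (k := k) (u := u) (by
            rw [ChevalleyDatum.chainRoot, Nat.add_sub_cancel, hget]; rfl) hj
        show ht4 v.val + 1 ≤ ht4 u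
        have e : ht4 u = ((k + 1 : ℕ) : ℤ) * ht4 r + ht4 v.val := by
          simp only [ht4]
          rw [hlin 0 (by omega), hlin 1 (by omega), hlin 2 (by omega), hlin 3 (by omega)]
          ring
        rw [e]
        have : ht4 r ≤ ((k + 1 : ℕ) : ℤ) * ht4 r := le_mul_of_one_le_left hk.le (by omega)
        omega

theorem pow_32 [CharP F 2] {g : GL chevF4.Idx F} (hg : g ∈ chevF4.posUnipotent F) : g ^ 32 = 1 := by
  have C : Checked chevF4 F4.fast := F4.checked
  have key : Raises 1 ((g : Matrix chevF4.Idx chevF4.Idx F) - 1) := by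
    rw [posUnipotent_eq] at hg
    obtain ⟨t, rfl⟩ := C.exists_ordered C.closedSet_pos hg
    have : ∀ w : List (ℕ × F), (∀ p ∈ w, chevF4.IsPosRoot p.1) →
        Raises 1 (((C.wg w : GL chevF4.Idx F) : Matrix chevF4.Idx chevF4.Idx F) - 1) := by
      intro w
      induction w with
      | nil => intro _ a b h; simp [C.wg_nil] at h
      | cons p w ih =>
        intro hw a b h
        have h1 := raises_x (hw p (by simp)) p.2
        have h2 := ih fun q hq => hw q (by simp [hq])
        have h3 := raises_mul h1 h2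
        set A := chevF4.x F p.1 p.2 with hA
        set B := ((C.wg w : GL chevF4.Idx F) : Matrix chevF4.Idx chevF4.Idx F) with hB
        rw [C.wg_cons, Units.val_mul, C.val_xg, ← hA, ← hB,
          show A * B - 1 = (A - 1) * (B - 1) + (A - 1) + (B - 1) by
            rw [mul_sub, sub_mul, mul_one, one_mul]; abel, Matrix.add_apply, Matrix.add_apply] at h
        by_cases ha : ((A - 1) * (B - 1)) a b = 0
        · rw [ha, zero_add] at h
          by_cases hb : (A - 1) a b = 0
          · rw [hb, zero_add] at h; exact h2 a b h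
          · exact h1 a b hb
        · have := h3 a b ha; omega
    refine this _ fun p hp => ?_
    obtain ⟨r, hr, rfl⟩ := List.mem_map.1 hp
    exact (C.mem_rootList.1 hr).2
  set N := (g : Matrix chevF4.Idx chevF4.Idx F) - 1 with hN
  have hpow : ∀ n : ℕ, Raises n (N ^ n) := by
    intro n
    induction n with
    | zero =>
      intro a b h
      rw [pow_zero, Matrix.one_apply] at h
      by_cases hab : a = b
      · subst hab; simp
      · rw [if_neg hab] at h; exact absurd rfl h
    | succ n ih =>
      rw [pow_succ]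
      have := raises_mul ih key
      exact_mod_cast this
  have h0 : N ^ 32 = 0 := by
    ext a b
    by_contra h
    have h1 := hpow 32 a b h
    have := lev4_bound a
    have := lev4_bound b
    omega
  refine Units.ext ?_
  rw [Units.val_pow_eq_pow_val, Units.val_one]
  have h1 : (g : Matrix chevF4.Idx chevF4.Idx F) = N + 1 := by rw [hN, sub_add_cancel]
  have hstep : ∀ M : Matrix chevF4.Idx chevF4.Idx F, (M + 1) ^ 2 = M ^ 2 + 1 := by
    intro M
    have h2 : M + M = 0 := by
      ext a b
      rw [Matrix.add_apply, CharTwo.add_self_eq_zero, Matrix.zero_apply]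
    calc (M + 1) ^ 2 = M ^ 2 + (M + M) + 1 := by noncomm_ring
      _ = M ^ 2 + 1 := by rw [h2, add_zero]
  rw [h1, show 32 = 2 * (2 * (2 * (2 * 2))) from rfl, pow_mul, hstep, pow_mul, hstep, pow_mul, hstep,
    pow_mul, hstep, hstep, ← pow_mul, ← pow_mul, ← pow_mul, ← pow_mul,
    show 2 * 2 * 2 * 2 * 2 = 32 from rfl, h0, zero_add]

end

/-- Let q = 2^(2m+1) with m ≥ 1. Every element of 2-power order of the large Ree group ²F₄(q) has order at most 32. -/
theorem result {K : Type*} [Field K] [Fintype K] (m : ℕ) (hm : 1 ≤ m) (hK : Fintype.card K = 2 ^ (2 * m + 1))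
    (x : ↥(Cfsg.Lie.twistedF4 K (2 ^ m))) (hx : ∃ j : ℕ, orderOf x = 2 ^ j) : orderOf x ≤ 32 := by
  have C : Checked chevF4 F4.fast := F4.checked
  haveI : Fact (Nat.Prime 2) := ⟨Nat.prime_two⟩
  obtain ⟨p, hcp⟩ := CharP.exists K
  haveI := hcp
  obtain ⟨n, hp, hn⟩ := FiniteField.card K p
  have hp2 : p = 2 := by
    have h2 : p ∣ 2 ^ (2 * m + 1) := hK ▸ hn ▸ dvd_pow_self p n.ne_zero
    exact (Nat.prime_dvd_prime_iff_eq hp Nat.prime_two).1 (hp.dvd_of_dvd_pow h2)
  subst hp2
  have hle : Cfsg.Lie.twistedF4 K (2 ^ m) ≤ chevF4.group K := by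
    refine (Subgroup.closure_le _).2 ?_
    rintro g ⟨w, -, hg⟩
    rw [show g = C.wg w from Units.ext (hg.trans (C.val_wg w).symm)]
    refine Subgroup.list_prod_mem _ fun y hy => ?_
    obtain ⟨q, -, rfl⟩ := List.mem_map.1 hy
    by_cases hq : q.1 < chevF4.nroots
    · exact C.xg_mem_group hq _
    · rw [show C.xg q.1 q.2 = 1 from Units.ext (x_of_ge hq _)]; exact one_mem _
  obtain ⟨P, hP⟩ := Cfsg.Agent.S2326.result (F := K) 2 chevF4 (by simp)
  obtain ⟨j, hj⟩ := hx
  set y : ↥(chevF4.group K) := ⟨(x : GL chevF4.Idx K), hle x.2⟩ with hy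
  have hyord : orderOf y = orderOf x := by
    rw [← orderOf_injective (chevF4.group K).subtype (chevF4.group K).subtype_injective y,
      ← orderOf_injective (Cfsg.Lie.twistedF4 K (2 ^ m)).subtype
        (Cfsg.Lie.twistedF4 K (2 ^ m)).subtype_injective x]
    rfl
  have hyp : IsPGroup 2 ↥(Subgroup.zpowers y) :=
    IsPGroup.of_card (n := j) (by rw [Nat.card_zpowers, hyord, hj])
  obtain ⟨Q, hQ⟩ := hyp.exists_le_sylow
  obtain ⟨g, hg⟩ := MulAction.exists_smul_eq ↥(chevF4.group K) Q P
  have hmem : g * y * g⁻¹ ∈ (P : Subgroup ↥(chevF4.group K)) := by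
    rw [← hg]
    exact Subgroup.smul_mem_pointwise_smul y (MulAut.conj g) _ (hQ (Subgroup.mem_zpowers y))
  rw [hP, Subgroup.mem_subgroupOf] at hmem
  have h32 := pow_32 hmem
  have hy32 : y ^ 32 = 1 := by
    have h : (g * y * g⁻¹) ^ 32 = 1 := Subtype.ext (by rw [Subgroup.coe_pow]; exact h32)
    rwa [conj_pow, conj_eq_one_iff] at h
  rw [← hyord]
  exact Nat.le_of_dvd (by norm_num) (orderOf_dvd_of_pow_eq_one hy32)

end Cfsg.Agent.S2370
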