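import Cfsg.Statements.S2372
import Cfsg.Agent.Lib.Chev.CoxTorus.Main
import Cfsg.Agent.Lib.Chev.Orders

set_option autoImplicit false
open Cfsg

namespace Cfsg.Agent.S2372

open Cfsg.Lie Cfsg.Agent.Lib.Chev Polynomial

theorem ker_eq {K : Type*} [Field K] [Fintype K] : (F4.checked.cartanMap (F := K)).ker = ⊥ := by
  refine Subgroup.eq_bot_of_card_eq _ ((F4.checked.card_ker_cartanMap smith_F4).trans ?_)
  rw [show F4.fast.l = 4 from rfl]
  simp [Finset.prod_range_succ]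

theorem not_four_dvd (q : ℕ) : ¬ 4 ∣ q ^ 4 + 1 := fun h => by
  have h1 : ((q ^ 4 + 1 : ℕ) : ZMod 4) = 0 := (ZMod.natCast_eq_zero_iff _ 4).2 h
  push_cast at h1
  exact (by decide : ∀ x : ZMod 4, x ^ 4 + 1 ≠ 0) _ h1

theorem not_dvd_small {m : ℕ} (hm : ∀ x : ZMod m, x ^ 4 + 1 ≠ 0) (q : ℕ) : ¬ m ∣ q ^ 4 + 1 := fun h => by
  have h1 : ((q ^ 4 + 1 : ℕ) : ZMod m) = 0 := (ZMod.natCast_eq_zero_iff _ m).2 h
  push_cast at h1
  exact hm _ h1

theorem exists_big_prime {q : ℕ} (hq : 2 ≤ q) : ∃ r : ℕ, r.Prime ∧ r ∣ q ^ 4 + 1 ∧ 12 < r := by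
  have h16 : 2 ^ 4 ≤ q ^ 4 := Nat.pow_le_pow_left hq 4
  norm_num at h16
  have h4 := not_four_dvd q
  obtain ⟨m, hm, hodd, hm1⟩ : ∃ m, m ∣ q ^ 4 + 1 ∧ ¬ 2 ∣ m ∧ m ≠ 1 := by
    by_cases h2 : 2 ∣ q ^ 4 + 1
    · obtain ⟨k, hk⟩ := h2
      exact ⟨k, Dvd.intro_left 2 hk.symm, fun h => h4 (by rw [hk]; exact Nat.mul_dvd_mul_left 2 h), by omega⟩
    · exact ⟨_, dvd_rfl, h2, by omega⟩
  obtain ⟨r, hr, hrm⟩ := Nat.exists_prime_and_dvd hm1
  refine ⟨r, hr, hrm.trans hm, ?_⟩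
  by_contra hle
  have h := hr.two_le
  have hne : r ≠ 2 := fun e => hodd (e ▸ hrm)
  have hd := hrm.trans hm
  have hle' : r ≤ 12 := by omega
  interval_cases r <;> first | omega | exact absurd hr (by decide) | exact not_dvd_small (by decide) q hd


/-- The group F₄(q) contains a cyclic subgroup of order q⁴ + 1 which is its own centralizer. -/
theorem result {F : Type*} [Field F] [Fintype F] (q : ℕ) (hF : Fintype.card F = q) :
    ∃ H : Subgroup ↥(Cfsg.Lie.chevF4.group F), IsCyclic ↥H ∧ Nat.card ↥H = q ^ 4 + 1 ∧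
      Subgroup.centralizer (H : Set ↥(Cfsg.Lie.chevF4.group F)) = H := by
  obtain ⟨r, hr, hrN, hr12⟩ := exists_big_prime (q := q) (hF ▸ Fintype.one_lt_card (α := F))
  haveI := Fact.mk hr
  have hrk : chevF4.rank = 4 := F4.checked.tables.rank.trans rfl
  refine CoxTorus.exists_cyclic F4.checked (degs := [2, 6, 8, 12]) (by decide +kernel) (by simp)
    (by simp [hrk]) (fun K _ _ => ker_eq) ker_eq (d := 8) (r := r) hF (by norm_num)
    (by rw [hrk]; decide) ⟨8, by simp, dvd_rfl⟩ (by omega) (fun e he => ?_) (fun h => ?_) hrN ?_ (fun p hp hpN => ?_)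
  · simp only [List.mem_cons, List.not_mem_nil, or_false] at he
    omega
  · have := Nat.le_of_dvd (by norm_num) h
    omega
  · haveI : Fact (Nat.Prime 2) := ⟨Nat.prime_two⟩
    rw [show (8 : ℕ) = 2 ^ (2 + 1) from rfl, cyclotomic_prime_pow_eq_geom_sum Nat.prime_two]
    simp [Finset.sum_range_succ]
    ring
  · rcases eq_or_ne p 2 with rfl | hne
    · exact Or.inr (not_four_dvd q)
    · refine Or.inl fun h => hne ?_
      exact (Nat.prime_dvd_prime_iff_eq hp Nat.prime_two).1 (hp.dvd_of_dvd_pow (n := 3) (by norm_num; exact h))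

end Cfsg.Agent.S2372
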