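import Cfsg.Statements.S2375
import Cfsg.Agent.Lib.Chev.CoxTorus.Main
import Cfsg.Agent.Lib.Chev.Orders

set_option autoImplicit false
open Cfsg

namespace Cfsg.Agent.S2375

open Cfsg.Lie Cfsg.Agent.Lib.Chev Polynomial

theorem ker_eq {K : Type*} [Field K] [Fintype K] : (E8.checked.cartanMap (F := K)).ker = ⊥ := by
  refine Subgroup.eq_bot_of_card_eq _ ((E8.checked.card_ker_cartanMap smith_E8).trans ?_)
  rw [show E8.fast.l = 8 from rfl]
  simp [Finset.prod_range_succ]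

theorem cast_num {R : Type*} [CommRing R] {q : ℕ} (hq : 2 ≤ q) :
    ((q ^ 8 + q ^ 7 - q ^ 5 - q ^ 4 - q ^ 3 + q + 1 : ℕ) : R) =
      (q : R) ^ 8 + (q : R) ^ 7 - (q : R) ^ 5 - (q : R) ^ 4 - (q : R) ^ 3 + q + 1 := by
  have h0 : 1 ≤ q := by omega
  have h1 : q ^ 5 ≤ q ^ 6 := Nat.pow_le_pow_right h0 (by norm_num)
  have h2 : q ^ 4 ≤ q ^ 7 := Nat.pow_le_pow_right h0 (by norm_num)
  have h3 : q ^ 3 ≤ q ^ 6 := Nat.pow_le_pow_right h0 (by norm_num)
  have h4 : q ^ 6 * 4 ≤ q ^ 8 := by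
    rw [show q ^ 8 = q ^ 6 * q ^ 2 by ring]
    exact Nat.mul_le_mul_left _ (by nlinarith)
  rw [Nat.cast_add, Nat.cast_add, Nat.cast_sub (by omega), Nat.cast_sub (by omega), Nat.cast_sub (by omega)]
  push_cast
  ring

theorem not_dvd_small {m : ℕ} (hm : ∀ x : ZMod m, x ^ 8 + x ^ 7 - x ^ 5 - x ^ 4 - x ^ 3 + x + 1 ≠ 0) {q : ℕ}
    (hq : 2 ≤ q) : ¬ m ∣ q ^ 8 + q ^ 7 - q ^ 5 - q ^ 4 - q ^ 3 + q + 1 := fun h => by
  have h1 := (ZMod.natCast_eq_zero_iff _ m).2 h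
  rw [cast_num hq] at h1
  exact hm _ h1

theorem big_prime {q p : ℕ} (hq : 2 ≤ q) (hp : p.Prime)
    (hd : p ∣ q ^ 8 + q ^ 7 - q ^ 5 - q ^ 4 - q ^ 3 + q + 1) : 30 < p := by
  by_contra hle
  have h := hp.two_le
  have hle' : p ≤ 30 := by omega
  interval_cases p <;> first | exact absurd hp (by decide) | exact not_dvd_small (by decide) hq hd


/-- The group E₈(q) contains a cyclic subgroup of order q⁸ + q⁷ − q⁵ − q⁴ − q³ + q + 1 which is its own centralizer. -/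
theorem result {F : Type*} [Field F] [Fintype F] (q : ℕ) (hF : Fintype.card F = q) :
    ∃ H : Subgroup ↥(Cfsg.Lie.chevE8.group F), IsCyclic ↥H ∧ Nat.card ↥H = q ^ 8 + q ^ 7 - q ^ 5 - q ^ 4 - q ^ 3 + q + 1 ∧
      Subgroup.centralizer (H : Set ↥(Cfsg.Lie.chevE8.group F)) = H := by
  have hq : 2 ≤ q := hF ▸ Fintype.one_lt_card (α := F)
  have hN1 : q ^ 8 + q ^ 7 - q ^ 5 - q ^ 4 - q ^ 3 + q + 1 ≠ 1 := by omega
  obtain ⟨r, hr, hrN⟩ := Nat.exists_prime_and_dvd hN1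
  haveI := Fact.mk hr
  have hr30 := big_prime hq hr hrN
  have hrk : chevE8.rank = 8 := E8.checked.tables.rank.trans rfl
  refine CoxTorus.exists_cyclic E8.checked (degs := [2, 8, 12, 14, 18, 20, 24, 30]) (by decide +kernel) (by simp)
    (by simp [hrk]) (fun K _ _ => ker_eq) ker_eq (d := 30) (r := r) hF (by norm_num)
    (by rw [hrk]; decide) ⟨30, by simp, dvd_rfl⟩ (by omega) (fun e he => ?_) (fun h => ?_) hrN ?_ (fun p hp hpN => ?_)
  · simp only [List.mem_cons, List.not_mem_nil, or_false] at he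
    omega
  · have := Nat.le_of_dvd (by norm_num) h
    omega
  · have h := congrArg (Polynomial.eval (q : ℤ))
      (cyclotomic_expand_eq_cyclotomic_mul (p := 5) (n := 6) (by norm_num) (by norm_num) ℤ)
    rw [expand_eval, eval_mul, cyclotomic_six] at h
    simp only [eval_add, eval_sub, eval_pow, eval_X, eval_one] at h
    have h6 : (q : ℤ) ^ 2 - q + 1 ≠ 0 := by nlinarith
    rw [cast_num hq, show (30 : ℕ) = 6 * 5 from rfl]
    apply mul_right_cancel₀ h6
    linear_combination -h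
  · exact Or.inl fun h => by
      have := Nat.le_of_dvd (by norm_num) h
      have := big_prime hq hp hpN
      omega

end Cfsg.Agent.S2375
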