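import Cfsg.Statements.S2378
import Cfsg.Agent.Lib.Chev.Homocyclic.Cases
import Cfsg.Agent.Lib.Chev.Orders

set_option autoImplicit false
open Cfsg

namespace Cfsg.Agent.S2378

open Cfsg.Lie Cfsg.Agent.Lib Cfsg.Agent.Lib.Chev Polynomial Homocyclic

theorem hom {D : ChevalleyDatum} {T : Fast} (C : Checked D T) {degs : List ℕ} {P₁ P₂ R₁ R₂ : ℕ → ℕ → ℤ}
    {ds : List ℕ} (hs : smithCheck T P₁ P₂ R₁ R₂ ds = true)
    (hds : (∏ i ∈ Finset.range T.l, ds.getD i 1) ∣ degs.prod)
    (hd : T.degCheck degs = true) (hd1 : ∀ e ∈ degs, 1 ≤ e) (hpoly : evalL (1 : ℤ) (T.poly T.l) = (degs.prod : ℕ))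
    (hmax : ∀ e ∈ degs, e < 31)
    (hb : ∀ d < 31, 0 < d → (degs.filter fun e => d ∣ e) ≠ [] →
      MultBound C d (degs.filter fun e => d ∣ e).length)
    {F : Type*} [Field F] [Fintype F] {q : ℕ} (hF : Fintype.card F = q) (r : ℕ) [hr : Fact r.Prime]
    (hrq : ¬ r ∣ q) (hrW : ¬ r ∣ degs.prod) (hrG : r ∣ Nat.card ↥(D.group F)) (P : Sylow r ↥(D.group F)) :
    Nonempty (↥(P : Subgroup ↥(D.group F)) ≃*
      (Fin (degs.filter (fun e => orderOf (q : ZMod r) ∣ e)).length →
        Multiplicative (ZMod (r ^ padicValNat r ((cyclotomic (orderOf (q : ZMod r)) ℤ).eval (q : ℤ)).natAbs)))) := by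
  have hker : ¬ r ∣ Nat.card (C.cartanMap (F := F)).ker := fun h => hrW (by
    rw [C.card_ker_cartanMap hs] at h
    exact h.trans ((Finset.prod_dvd_prod_of_dvd _ _ fun i _ => Nat.gcd_dvd_right _ _).trans hds))
  have hq0 : (q : ZMod r) ≠ 0 := fun h => hrq ((ZMod.natCast_eq_zero_iff q r).1 h)
  obtain ⟨e, he, hde⟩ : ∃ e ∈ degs, orderOf (q : ZMod r) ∣ e := by
    have h1 := congrArg (fun z : ℤ => (z : ZMod r)) (C.card_eq (F := F) hd hd1 (d := _) rfl)
    simp only [Int.cast_natCast, Int.cast_mul, Int.cast_pow, (ZMod.natCast_eq_zero_iff _ r).2 hrG, mul_zero,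
      ← Int.coe_castRingHom, map_list_prod, List.map_map, hF] at h1
    obtain ⟨e, he, h2⟩ := List.mem_map.1 (List.prod_eq_zero_iff.1
      ((mul_eq_zero.1 h1.symm).resolve_left (pow_ne_zero _ hq0)))
    exact ⟨e, he, orderOf_dvd_of_pow_eq_one (sub_eq_zero.1 (by simpa using h2))⟩
  refine sylow_homocyclic C hd hd1 hpoly hF hrq hrW hker (hb _ ?_ ?_ ?_) P
  · exact (Nat.le_of_dvd (hd1 e he) hde).trans_lt (hmax e he)
  · exact Nat.pos_of_dvd_of_pos hde (hd1 e he)
  · exact List.ne_nil_of_mem (List.mem_filter.2 ⟨he, by simpa using hde⟩)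

theorem bound {D : ChevalleyDatum} {T : Fast} (C : Checked D T) {l : ℕ} (hl : D.rank = l) {degs exc : List ℕ}
    (h : ∀ d < 31, 0 < d → (degs.filter fun e => d ∣ e) ≠ [] →
      l / d.totient ≤ (degs.filter fun e => d ∣ e).length ∨ d ∈ exc)
    (he : ∀ d ∈ exc, MultBound C d (degs.filter fun e => d ∣ e).length) :
    ∀ d < 31, 0 < d → (degs.filter fun e => d ∣ e) ≠ [] → MultBound C d (degs.filter fun e => d ∣ e).length :=
  fun d h1 h2 h3 => (h d h1 h2 h3).elim (fun h4 => multBound_of_le C h2 (hl ▸ h4)) (he d)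


/-- Sylow subgroups for primes away from the characteristic and the Weyl group. Let `G` be the Chevalley group of type G₂, B₂, D₄, F₄, E₆, E₇ or E₈ over a field with `q` elements, with the degrees of its Weyl group listed beside the type (their product is the order of the Weyl group), and let `r` be a prime dividing the order of `G`, not dividing `q` and not dividing the order of the Weyl group. Let `d` be the multiplicative order of `q` modulo `r`, `a` the number of degrees divisible by `d`, and `m` the `r`-part of the value at `q` of the `d`-th cyclotomic polynomial. Then every Sylow `r`-subgroup of `G` is homocyclic: a direct product of `a` cyclic groups of order `m` (in particular abelian). -/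
theorem result {F : Type*} [Field F] [Fintype F] {q : ℕ} (hq : Fintype.card F = q)
    (c : Cfsg.Lie.ChevalleyDatum × List ℕ)
    (hc : c ∈ [(Cfsg.Lie.chevG2, [2, 6]), (Cfsg.Lie.chevB2, [2, 4]), (Cfsg.Lie.chevD4, [2, 4, 4, 6]), (Cfsg.Lie.chevF4, [2, 6, 8, 12]),
      (Cfsg.Lie.chevE6, [2, 5, 6, 8, 9, 12]), (Cfsg.Lie.chevE7, [2, 6, 8, 10, 12, 14, 18]), (Cfsg.Lie.chevE8, [2, 8, 12, 14, 18, 20, 24, 30])])
    (r : ℕ) [Fact r.Prime] (hrq : ¬ r ∣ q) (hrW : ¬ r ∣ c.2.prod) (hrG : r ∣ Nat.card ↥(c.1.group F)) (P : Sylow r ↥(c.1.group F)) :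
    Nonempty (↥(P : Subgroup ↥(c.1.group F)) ≃*
      (Fin (c.2.filter (fun e => orderOf (q : ZMod r) ∣ e)).length →
        Multiplicative (ZMod (r ^ padicValNat r ((Polynomial.cyclotomic (orderOf (q : ZMod r)) ℤ).eval (q : ℤ)).natAbs)))) := by
  simp only [List.mem_cons, List.not_mem_nil, or_false] at hc
  rcases hc with rfl | rfl | rfl | rfl | rfl | rfl | rfl
  · exact hom G2.checked smith_G2 (by decide +kernel) (by decide +kernel) (by simp) (by decide +kernel) (by simp)
      (bound G2.checked (l := 2) rfl (exc := []) (by decide +kernel) (by simp)) hq r hrq hrW hrG P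
  · exact hom B2.checked smith_B2 (by decide +kernel) (by decide +kernel) (by simp) (by decide +kernel) (by simp)
      (bound B2.checked (l := 2) rfl (exc := []) (by decide +kernel) (by simp)) hq r hrq hrW hrG P
  · exact hom D4.checked smith_D4 (by decide +kernel) (by decide +kernel) (by simp) (by decide +kernel) (by simp)
      (bound D4.checked (l := 4) rfl (exc := [3, 6]) (by decide +kernel) (fun d hd => by
        simp only [List.mem_cons, List.not_mem_nil, or_false] at hd
        rcases hd with rfl | rfl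
        · exact multBound_D4 (Or.inl rfl)
        · exact multBound_D4 (Or.inr rfl))) hq r hrq hrW hrG P
  · exact hom F4.checked smith_F4 (by decide +kernel) (by decide +kernel) (by simp) (by decide +kernel) (by simp)
      (bound F4.checked (l := 4) rfl (exc := []) (by decide +kernel) (by simp)) hq r hrq hrW hrG P
  · exact hom E6.checked smith_E6 (by decide +kernel) (by decide +kernel) (by simp) (by decide +kernel) (by simp)
      (bound E6.checked (l := 6) rfl (exc := [2, 4, 6]) (by decide +kernel) (fun d hd => by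
        simp only [List.mem_cons, List.not_mem_nil, or_false] at hd
        rcases hd with rfl | rfl | rfl
        · exact multBound_E6 (Or.inl ⟨rfl, rfl⟩)
        · exact multBound_E6 (Or.inr (Or.inl ⟨rfl, rfl⟩))
        · exact multBound_E6 (Or.inr (Or.inr ⟨rfl, rfl⟩)))) hq r hrq hrW hrG P
  · exact hom E7.checked smith_E7 (by decide +kernel) (by decide +kernel) (by simp) (by decide +kernel) (by simp)
      (bound E7.checked (l := 7) rfl (exc := [4]) (by decide +kernel) (fun d hd => by
        obtain rfl := List.mem_singleton.1 hd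
        exact multBound_E7)) hq r hrq hrW hrG P
  · exact hom E8.checked smith_E8 (by decide +kernel) (by decide +kernel) (by simp) (by decide +kernel) (by simp)
      (bound E8.checked (l := 8) rfl (exc := []) (by decide +kernel) (by simp)) hq r hrq hrW hrG P

end Cfsg.Agent.S2378
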