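import Cfsg.Statements.S2383

import Cfsg.Agent.Lib.Chev.SemisimpleCount
import Cfsg.Agent.Lib.Chev.BraidChecks
set_option autoImplicit false
open Cfsg

namespace Cfsg.Agent.S2383

/-- Steinberg's count of semisimple classes in characteristic 2 for the types B₂, D₄, E₇, where the finite simply connected group has trivial centre and so coincides with the Chevalley group: for the Chevalley group of type B₂, D₄ or E₇ over a field with `q` elements of characteristic 2, the conjugacy classes of elements of odd order number exactly `q^l`, `l` the rank. -/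
theorem result {F : Type*} [Field F] [Fintype F] {q : ℕ} (hq : Fintype.card F = q) [CharP F 2]
    (D : Cfsg.Lie.ChevalleyDatum) (hD : D ∈ [Cfsg.Lie.chevB2, Cfsg.Lie.chevD4, Cfsg.Lie.chevE7]) :
    Nat.card {c : ConjClasses ↥(D.group F) // ∃ g : ↥(D.group F), ConjClasses.mk g = c ∧ Odd (orderOf g)} = q ^ D.rank := by
  open Cfsg.Agent.Lib.Chev in
  subst hq
  haveI : Fact (Nat.Prime 2) := ⟨Nat.prime_two⟩
  obtain ⟨n, -, hn⟩ := FiniteField.card F 2
  have hodd : Odd (Fintype.card F - 1) :=
    Nat.Even.sub_odd Fintype.card_pos (by rw [hn]; exact (Nat.even_pow).2 ⟨even_two, n.ne_zero⟩) odd_one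
  have hg : (Fintype.card F - 1).gcd 2 = 1 := Nat.coprime_two_right.2 hodd
  simp only [List.mem_cons, List.not_mem_nil, or_false] at hD
  simp only [← Nat.coprime_two_right]
  rcases hD with rfl | rfl | rfl
  · exact B2.checked.card_coprime_classes (p := 2) braid_B2 smith_B2 fun i hi => by
      change i < 2 at hi; interval_cases i <;> simp [hg]
  · exact D4.checked.card_coprime_classes (p := 2) braid_D4 smith_D4 fun i hi => by
      change i < 4 at hi; interval_cases i <;> simp [hg]
  · exact E7.checked.card_coprime_classes (p := 2) braid_E7 smith_E7 fun i hi => by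
      change i < 7 at hi; interval_cases i <;> simp [hg]

end Cfsg.Agent.S2383
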