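import Cfsg.Statements.S2391


set_option autoImplicit false
open Cfsg

namespace Cfsg.Agent.S2391

/-- The Borel–Tits property of `SL_n(q)` in flag form: for a field `F` of characteristic `p` with finitely many elements and a non-trivial `p`-subgroup `U` of `SL_n(F)`, there is a flag `0 = V₀ < V₁ < ⋯ < V_{k+1} = F^n` with at least one proper non-zero member such that every element of the normaliser of `U` maps each `V_i` onto itself and every element of `U` acts trivially on each quotient `V_{i+1}/V_i` (so the normaliser lies in the parabolic subgroup of the flag and `U` in its unipotent radical). -/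
theorem result {F : Type*} [Field F] [Fintype F] (p : ℕ) [Fact p.Prime] [CharP F p] (n : ℕ)
    (U : Subgroup (Matrix.SpecialLinearGroup (Fin n) F)) (hU : IsPGroup p ↥U) (hne : U ≠ ⊥) :
    ∃ (k : ℕ) (V : Fin (k + 2) → Submodule F (Fin n → F)), 1 ≤ k ∧ StrictMono V ∧ V 0 = ⊥ ∧ V (Fin.last (k + 1)) = ⊤ ∧
      (∀ g ∈ Subgroup.normalizer (U : Set (Matrix.SpecialLinearGroup (Fin n) F)), ∀ i, (V i).map (Matrix.mulVecLin (g : Matrix (Fin n) (Fin n) F)) = V i) ∧
      (∀ u ∈ U, ∀ i : Fin (k + 1), ∀ v ∈ V i.succ, (u : Matrix (Fin n) (Fin n) F).mulVec v - v ∈ V (Fin.castSucc i)) := by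
  classical
  have hcoe : ∀ (a b : Matrix.SpecialLinearGroup (Fin n) F) (v : Fin n → F),
      ((a * b : Matrix.SpecialLinearGroup (Fin n) F) : Matrix (Fin n) (Fin n) F).mulVec v =
        (a : Matrix (Fin n) (Fin n) F).mulVec ((b : Matrix (Fin n) (Fin n) F).mulVec v) := fun a b v => by
    rw [Matrix.SpecialLinearGroup.coe_mul, Matrix.mulVec_mulVec]
  have hone : ∀ v : Fin n → F, ((1 : Matrix.SpecialLinearGroup (Fin n) F) : Matrix (Fin n) (Fin n) F).mulVec v = v :=
    fun v => by rw [Matrix.SpecialLinearGroup.coe_one, Matrix.one_mulVec]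
  let step : Submodule F (Fin n → F) → Submodule F (Fin n → F) := fun W =>
    { carrier := {v | ∀ u ∈ U, (u : Matrix (Fin n) (Fin n) F).mulVec v - v ∈ W}
      add_mem' := fun {a b} ha hb u hu => by
        rw [Matrix.mulVec_add, add_sub_add_comm]
        exact add_mem (ha u hu) (hb u hu)
      zero_mem' := fun u hu => by simp
      smul_mem' := fun c a ha u hu => by
        rw [Matrix.mulVec_smul, ← smul_sub]
        exact W.smul_mem c (ha u hu) }
  let V : ℕ → Submodule F (Fin n → F) := fun i => step^[i] ⊥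
  have hV : ∀ i v, v ∈ V (i + 1) ↔ ∀ u ∈ U, (u : Matrix (Fin n) (Fin n) F).mulVec v - v ∈ V i := fun i v => by
    simp only [V, Function.iterate_succ_apply']
    rfl
  have hmono : ∀ i, V i ≤ V (i + 1) := by
    intro i
    induction i with
    | zero => exact bot_le
    | succ i ih =>
      intro v hv
      rw [hV] at hv ⊢
      exact fun u hu => ih (hv u hu)
  have hstab : ∀ i, ∀ u ∈ U, ∀ v ∈ V i, (u : Matrix (Fin n) (Fin n) F).mulVec v ∈ V i := by
    intro i u hu v hv
    rw [show (u : Matrix (Fin n) (Fin n) F).mulVec v = ((u : Matrix (Fin n) (Fin n) F).mulVec v - v) + v by abel]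
    rcases i with _ | i
    · obtain rfl : v = 0 := (Submodule.mem_bot F).1 hv
      simp [V]
    · exact add_mem (hmono i ((hV i v).1 hv u hu)) hv
  have hnorm : ∀ i, ∀ g ∈ Subgroup.normalizer (U : Set (Matrix.SpecialLinearGroup (Fin n) F)), ∀ v ∈ V i,
      (g : Matrix (Fin n) (Fin n) F).mulVec v ∈ V i := by
    intro i
    induction i with
    | zero =>
      intro g hg v hv
      obtain rfl : v = 0 := (Submodule.mem_bot F).1 hv
      simp [V]
    | succ i ih =>
      intro g hg v hv
      rw [hV] at hv ⊢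
      intro u hu
      have hu' : g⁻¹ * u * g ∈ U := by
        have := (Subgroup.mem_normalizer_iff.mp (inv_mem hg) u).1 hu
        rwa [inv_inv] at this
      have e : (u : Matrix (Fin n) (Fin n) F).mulVec ((g : Matrix (Fin n) (Fin n) F).mulVec v) =
          (g : Matrix (Fin n) (Fin n) F).mulVec (((g⁻¹ * u * g : Matrix.SpecialLinearGroup (Fin n) F) : Matrix (Fin n) (Fin n) F).mulVec v) := by
        rw [← hcoe, ← hcoe]
        rw [show g * (g⁻¹ * u * g) = u * g by group]
      rw [e, ← Matrix.mulVec_sub]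
      exact ih g hg _ (hv _ hu')
  have hgrow : ∀ i, V i ≠ ⊤ → V i < V (i + 1) := by
    intro i hi
    refine lt_of_le_of_ne (hmono i) fun heq => ?_
    letI act : MulAction U ((Fin n → F) ⧸ V i) :=
      { smul := fun u x => Submodule.mapQ (V i) (V i) (Matrix.mulVecLin (u.1 : Matrix (Fin n) (Fin n) F))
          (fun v hv => hstab i u.1 u.2 v hv) x
        one_smul := fun x => by
          obtain ⟨v, rfl⟩ := Submodule.Quotient.mk_surjective _ x
          change Submodule.Quotient.mk ((Matrix.mulVecLin _) v) = _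
          simp
        mul_smul := fun a b x => by
          obtain ⟨v, rfl⟩ := Submodule.Quotient.mk_surjective _ x
          change Submodule.Quotient.mk ((Matrix.mulVecLin _) v) =
            Submodule.Quotient.mk ((Matrix.mulVecLin _) ((Matrix.mulVecLin _) v))
          simp [Matrix.mulVec_mulVec] }
    haveI : Finite ((Fin n → F) ⧸ V i) := Finite.of_surjective _ (Submodule.Quotient.mk_surjective (V i))
    have hmod := hU.card_modEq_card_fixedPoints (α := (Fin n → F) ⧸ V i)
    haveI : Nontrivial ((Fin n → F) ⧸ V i) := Submodule.Quotient.nontrivial_iff.2 hi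
    have hdvd : p ∣ Nat.card ((Fin n → F) ⧸ V i) := by
      haveI := Fintype.ofFinite ((Fin n → F) ⧸ V i)
      rw [Nat.card_eq_fintype_card, Module.card_eq_pow_finrank (K := F)]
      obtain ⟨m, -, hm⟩ := FiniteField.card F p
      rw [hm, ← pow_mul]
      exact dvd_pow_self p (Nat.mul_ne_zero m.2.ne' Module.finrank_pos.ne')
    have h0 : (0 : (Fin n → F) ⧸ V i) ∈ MulAction.fixedPoints U ((Fin n → F) ⧸ V i) := fun u => map_zero _
    have h2 : 1 < Nat.card (MulAction.fixedPoints U ((Fin n → F) ⧸ V i)) := by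
      haveI : Nonempty (MulAction.fixedPoints U ((Fin n → F) ⧸ V i)) := ⟨⟨0, h0⟩⟩
      have hpos : 0 < Nat.card (MulAction.fixedPoints U ((Fin n → F) ⧸ V i)) := Nat.card_pos
      have := Nat.le_of_dvd hpos ((Nat.modEq_zero_iff_dvd).1 (hmod.symm.trans (Nat.modEq_zero_iff_dvd.2 hdvd)))
      have := (Fact.out : p.Prime).two_le
      omega
    haveI := Finite.one_lt_card_iff_nontrivial.1 h2
    obtain ⟨⟨x, hx⟩, hx0⟩ := exists_ne (⟨0, h0⟩ : MulAction.fixedPoints U ((Fin n → F) ⧸ V i))
    obtain ⟨v, rfl⟩ := Submodule.Quotient.mk_surjective _ x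
    refine hx0 (Subtype.ext ((Submodule.Quotient.mk_eq_zero _).2 ?_))
    rw [heq, hV]
    intro u hu
    exact (Submodule.Quotient.eq (V i)).1 (hx ⟨u, hu⟩)
  have hex : ∃ i, V i = ⊤ := by
    by_contra hc
    push Not at hc
    have h : ∀ i, i ≤ Module.finrank F (V i) := fun i => by
      induction i with
      | zero => exact Nat.zero_le _
      | succ i ih => exact lt_of_le_of_lt ih (Submodule.finrank_lt_finrank_of_lt (hgrow i (hc i)))
    have := (h (n + 1)).trans (Submodule.finrank_le _)
    rw [Module.finrank_fin_fun] at this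
    omega
  obtain ⟨u₀, hu₀, hu₀1⟩ := U.bot_or_exists_ne_one.resolve_left hne
  obtain ⟨v₀, hv₀⟩ : ∃ v, (u₀ : Matrix (Fin n) (Fin n) F).mulVec v ≠ v := by
    by_contra hc
    push Not at hc
    exact hu₀1 (Subtype.ext (Matrix.ext_of_mulVec_single fun j => by rw [hc, hone]))
  have hfind : 2 ≤ Nat.find hex := by
    have hspec := Nat.find_spec hex
    rcases Nat.lt_or_ge (Nat.find hex) 2 with h | h
    · exfalso
      apply hv₀
      have hv : v₀ ∈ V 1 := by
        rcases (show Nat.find hex = 0 ∨ Nat.find hex = 1 by omega) with e | e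
        · exact hmono 0 (by rw [e] at hspec; rw [hspec]; trivial)
        · rw [e] at hspec; rw [hspec]; trivial
      exact sub_eq_zero.1 ((Submodule.mem_bot F).1 ((hV 0 v₀).1 hv u₀ hu₀))
    · exact h
  obtain ⟨k, hk⟩ : ∃ k, Nat.find hex = k + 1 := ⟨Nat.find hex - 1, by omega⟩
  refine ⟨k, fun i => V i.val, by omega, Fin.strictMono_iff_lt_succ.2 fun i => ?_, rfl, ?_, fun g hg i => ?_,
    fun u hu i v hv => ?_⟩
  · exact hgrow i.val (Nat.find_min hex (by have := i.isLt; omega))
  · have := Nat.find_spec hex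
    rw [hk] at this
    exact this
  · refine le_antisymm ?_ fun v hv => ?_
    · rintro _ ⟨v, hv, rfl⟩
      exact hnorm _ g hg v hv
    · refine ⟨_, hnorm _ g⁻¹ (inv_mem hg) v hv, ?_⟩
      change (g : Matrix (Fin n) (Fin n) F).mulVec _ = v
      rw [← hcoe, mul_inv_cancel, hone]
  · exact (hV i.val v).1 hv u hu

end Cfsg.Agent.S2391
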