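import Cfsg.Statements.S2394
import Cfsg.Agent.Lib.Classical.SympOrder
import Cfsg.Agent.Lib.Zsigmondy

set_option autoImplicit false
open scoped MatrixGroups
open Cfsg

namespace Cfsg.Agent.S2394

/-- The smallest degree of a faithful representation of the symplectic group `Sp_{2n}(q)` over its own field `F_q` is `2n`: every injective homomorphism from `Sp_{2n}(F)` to `GL_d(F)`, `F` the field with `q` elements, has `d ≥ 2n`. -/
theorem result {F : Type*} [Field F] [Fintype F] (n : ℕ) {d : ℕ}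
    (ρ : ↥(Matrix.symplecticGroup (Fin n) F) →* GL (Fin d) F) (hρ : Function.Injective ρ) : 2 * n ≤ d := by
  classical
  have hdvd : Nat.card (Matrix.symplecticGroup (Fin n) F) ∣ Nat.card (GL (Fin d) F) :=
    Subgroup.card_dvd_of_injective ρ hρ
  rw [Cfsg.Agent.Lib.Classical.card_symplecticGroup, Matrix.card_GL_field] at hdvd
  have hq : 1 < Fintype.card F := Fintype.one_lt_card
  by_contra hlt
  push Not at hlt
  have hpos : 0 < ∏ i : Fin d, (Fintype.card F ^ d - Fintype.card F ^ (i : ℕ)) :=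
    Finset.prod_pos fun i _ => Nat.sub_pos_of_lt (Nat.pow_lt_pow_right hq i.2)
  by_cases hn1 : n = 1
  · subst hn1
    have hle := Nat.le_of_dvd hpos hdvd
    have h4 : 2 ^ 2 ≤ Fintype.card F ^ 2 := Nat.pow_le_pow_left hq 2
    have h2 : Fintype.card F * 3 ≤ Fintype.card F * (Fintype.card F ^ 2 - 1) :=
      Nat.mul_le_mul_left _ (by omega)
    interval_cases d <;> simp at hle <;> omega
  by_cases hn0 : n = 0
  · omega
  by_cases h6 : Fintype.card F = 2 ∧ 2 * n = 6
  · obtain ⟨h2, h6'⟩ := h6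
    obtain rfl : n = 3 := by omega
    rw [h2] at hdvd
    interval_cases d <;> norm_num [Fin.prod_univ_succ, Finset.prod_range_succ] at hdvd
  obtain ⟨r, hr, hrd, hrmin⟩ := Cfsg.Agent.Lib.Zsigmondy.exists_primitive_prime (Fintype.card F) (2 * n) hq
    (by omega) h6 (by omega)
  have hr1 : r ∣ ∏ i ∈ Finset.range n, (Fintype.card F ^ (2 * (i + 1)) - 1) :=
    hrd.trans (by
      have := Finset.dvd_prod_of_mem (fun i => Fintype.card F ^ (2 * (i + 1)) - 1)
        (show n - 1 ∈ Finset.range n by simp; omega)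
      rwa [show n - 1 + 1 = n by omega] at this)
  have hrG : r ∣ ∏ i : Fin d, (Fintype.card F ^ d - Fintype.card F ^ (i : ℕ)) :=
    ((dvd_mul_of_dvd_right hr1 _).trans hdvd)
  obtain ⟨i, -, hi⟩ := (Prime.dvd_finsetProd_iff hr.prime _).mp hrG
  have hi2 := i.2
  rw [show Fintype.card F ^ d = Fintype.card F ^ (i : ℕ) * Fintype.card F ^ (d - i) by
    rw [← pow_add]; congr 1; omega, ← Nat.mul_sub_one] at hi
  rcases hr.dvd_mul.mp hi with h | h
  · have hq' := hr.dvd_of_dvd_pow h
    have h1 : r ∣ Fintype.card F ^ (2 * n) := dvd_pow hq' (by omega)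
    have h3 : r ∣ 1 := by
      have := Nat.dvd_sub h1 hrd
      rwa [Nat.sub_sub_self (Nat.one_le_pow _ _ (by omega))] at this
    exact hr.one_lt.ne' (Nat.dvd_one.mp h3)
  · exact hrmin (d - i) (by omega) (by omega) h

end Cfsg.Agent.S2394
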