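import Cfsg.Statements.S2396

import Cfsg.Agent.Lib.SteinbergPres.Cover.Inst
import Cfsg.Agent.Lib.SteinbergPres.Cover.Checks
set_option autoImplicit false
open scoped MatrixGroups
open Cfsg

namespace Cfsg.Agent.S2396

open Cfsg.Agent.Lib.Chev Cfsg.Agent.Lib.SteinbergPres.Cover

/-- For each of the types G₂, B₂, D₄, F₄, E₆, E₇, E₈ and any field `K` (for types B₂ and G₂ the field must have more than two elements — the cases where the Chevalley group is not simple are set aside), the group presented by the generators x̄_r(t) subject only to (R1) and (R2) maps onto the Chevalley group by x̄_r(t) ↦ x_r(t), and this homomorphism is a central extension: it is surjective with kernel contained in the centre. -/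
theorem result {K : Type*} [Field K] (D : Cfsg.Lie.ChevalleyDatum) (hD : D ∈ [Cfsg.Lie.chevG2, Cfsg.Lie.chevB2, Cfsg.Lie.chevD4, Cfsg.Lie.chevF4, Cfsg.Lie.chevE6, Cfsg.Lie.chevE7, Cfsg.Lie.chevE8]) (hK : D ∈ [Cfsg.Lie.chevB2, Cfsg.Lie.chevG2] → ∃ x : K, x ≠ 0 ∧ x ≠ 1) :
    ∃ θ : D.SteinbergCover K →* ↥(D.group K), Function.Surjective θ ∧ θ.ker ≤ Subgroup.center (D.SteinbergCover K) ∧
      ∀ (r : ℕ) (t : K), r < D.nroots → ((θ (D.scGen K r t) : GL D.Idx K) : Matrix D.Idx D.Idx K) = D.x K r t := by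
  obtain ⟨T, C, hcc⟩ := exists_checked_cover hD
  have hθ : ∀ (r : ℕ) (t : K), r < D.nroots →
      ((coverHom C K (D.scGen K r t) : GL D.Idx K) : Matrix D.Idx D.Idx K) = D.x K r t := fun r t hr => by
    rw [coverHom_gen C hr t]; rfl
  set X := coverGen C (coverHom C K) hθ with hX
  refine ⟨coverHom C K, surjective_of_pr X rfl, ?_, hθ⟩
  rw [← mem_ker_pr X rfl]
  exact (X.ker_le hcc).trans inf_le_left

end Cfsg.Agent.S2396
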