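import Cfsg.Statements.S2399

import Cfsg.Agent.Lib.SteinbergPres.Cover.ModP
import Cfsg.Agent.S2395
import Cfsg.Agent.S2398
import Mathlib.GroupTheory.Schreier
set_option autoImplicit false
open scoped MatrixGroups
open Cfsg

namespace Cfsg.Agent.S2399

open Cfsg.Agent.Lib.Chev Cfsg.Agent.Lib.SteinbergPres.Cover

theorem eq_one_of_pow_char {L : Type*} [Field L] (p : ℕ) [Fact p.Prime] [CharP L p] {n : ℕ}
    {z : GL (Fin n) L} (hz : z ∈ Subgroup.center (GL (Fin n) L)) (h : z ^ p = 1) : z = 1 := by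
  rw [Matrix.GeneralLinearGroup.center_eq_range_scalar] at hz
  obtain ⟨u, rfl⟩ := hz
  refine Units.ext (Matrix.ext fun i j => ?_)
  have hp := congrArg (fun g : GL (Fin n) L => (g : Matrix (Fin n) (Fin n) L) i i) h
  simp at hp
  have hp' : (u : L) ^ p = 1 := by simpa [Matrix.diagonal_pow] using hp
  have hu : (u : L) = 1 := by
    have h2 : ((u : L) - 1) ^ p = 0 := by rw [sub_pow_char, one_pow, hp', sub_self]
    exact sub_eq_zero.1 (eq_zero_of_pow_eq_zero h2)
  simp [hu]


/-- Projective representations in the natural characteristic lift: for each of the types G₂, B₂, D₄, F₄, E₆, E₇, E₈ over any field `K` (for types B₂ and G₂ the field must have more than two elements — the cases where the Chevalley group is not simple are set aside), every homomorphism from the Chevalley group to `PGL_n(L) = GL_n(L)/Z`, `L` a field of the same characteristic as `K`, lifts uniquely to a homomorphism from the group Δ presented by (R1), (R2) to `GL_n(L)`, compatibly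 with the projection Δ → Chevalley group sending x̄_r(t) to x_r(t). -/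
theorem result {K : Type*} [Field K] (D : Cfsg.Lie.ChevalleyDatum) (hD : D ∈ [Cfsg.Lie.chevG2, Cfsg.Lie.chevB2, Cfsg.Lie.chevD4, Cfsg.Lie.chevF4, Cfsg.Lie.chevE6, Cfsg.Lie.chevE7, Cfsg.Lie.chevE8]) (hK : D ∈ [Cfsg.Lie.chevB2, Cfsg.Lie.chevG2] → ∃ x : K, x ≠ 0 ∧ x ≠ 1)
    (θ : D.SteinbergCover K →* ↥(D.group K))
    (hθ : ∀ (r : ℕ) (t : K), r < D.nroots → ((θ (D.scGen K r t) : GL D.Idx K) : Matrix D.Idx D.Idx K) = D.x K r t)
    {L : Type*} [Field L] (hL : ringChar L = ringChar K) {n : ℕ}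
    (φ : ↥(D.group K) →* GL (Fin n) L ⧸ Subgroup.center (GL (Fin n) L)) :
    ∃! ψ : D.SteinbergCover K →* GL (Fin n) L, (QuotientGroup.mk' (Subgroup.center (GL (Fin n) L))).comp ψ = φ.comp θ := by
  obtain ⟨T, C, hcc⟩ := exists_checked_cover hD
  have hperf := Cfsg.Agent.S2395.result (K := K) D hD hK
  set π₁ := QuotientGroup.mk' (Subgroup.center (GL (Fin n) L)) with hπ₁
  have hc : π₁.ker ≤ Subgroup.center (GL (Fin n) L) := le_of_eq (QuotientGroup.ker_mk' _)
  have huniq : ∀ ψ ψ' : D.SteinbergCover K →* GL (Fin n) L, π₁.comp ψ = φ.comp θ →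
      π₁.comp ψ' = φ.comp θ → ψ' = ψ := fun ψ ψ' h h' => lift_unique hperf π₁ hc (h'.trans h.symm)
  by_cases hK5 : ∃ s : Finset K, 4 < s.card
  · exact Cfsg.Agent.S2398.result hK5 D hD π₁ (QuotientGroup.mk'_surjective _) hc (φ.comp θ)
  suffices h : ∃ ψ : D.SteinbergCover K →* GL (Fin n) L, π₁.comp ψ = φ.comp θ by
    obtain ⟨ψ, hψ⟩ := h
    exact ⟨ψ, hψ, fun ψ' h' => huniq ψ ψ' hψ h'⟩
  have hfin : Finite K := by
    by_contra h
    rw [not_finite_iff_infinite] at h
    exact hK5 ⟨(Finset.range 5).map (Infinite.natEmbedding K), by simp⟩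
  obtain ⟨p, hp⟩ := CharP.exists K
  have : Fact p.Prime := ⟨CharP.char_is_prime K p⟩
  have : CharP L p := by
    have := ringChar.charP L
    rwa [hL, ringChar.eq K p] at this
  let X := grpGen C K
  set σ := φ with hσ
  let P : Subgroup (GL (Fin n) L × ↥(D.group K)) :=
    (π₁.comp (MonoidHom.fst _ _)).eqLocus (σ.comp (MonoidHom.snd _ _))
  let π0 : ↥P →* ↥(D.group K) := (MonoidHom.snd _ _).comp P.subtype
  have hπ0 : Function.Surjective π0 := fun g => by
    obtain ⟨e, he⟩ := QuotientGroup.mk'_surjective _ (σ g)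
    exact ⟨⟨(e, g), he⟩, rfl⟩
  have hker0 : ∀ z : ↥P, π0 z = 1 → z.1.1 ∈ Subgroup.center (GL (Fin n) L) := fun z hz => by
    refine hc ?_
    have h1 : π₁ z.1.1 = σ z.1.2 := z.2
    rw [MonoidHom.mem_ker, h1, show z.1.2 = 1 from hz, map_one]
  have hc0 : π0.ker ≤ Subgroup.center ↥P := fun z hz => by
    rw [Subgroup.mem_center_iff]
    intro y
    refine Subtype.ext (Prod.ext (Subgroup.mem_center_iff.1 (hker0 z hz) _) ?_)
    show y.1.2 * z.1.2 = z.1.2 * y.1.2
    rw [show z.1.2 = 1 from hz, mul_one, one_mul]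
  have : Finite (commutatorSet ↥P) := by
    let L₀ := Function.surjInv hπ0
    have hL₀ : ∀ g, π0 (L₀ g) = g := Function.surjInv_eq hπ0
    refine Set.Finite.to_subtype ((Set.finite_range fun ab : ↥(D.group K) × ↥(D.group K) =>
      L₀ ab.1 * L₀ ab.2 * (L₀ ab.1)⁻¹ * (L₀ ab.2)⁻¹).subset ?_)
    rintro _ ⟨a, b, rfl⟩
    refine ⟨(π0 a, π0 b), ?_⟩
    rw [commutatorElement_def]
    exact (comm_congr hc0 (hL₀ _).symm (hL₀ _).symm).symm
  let E := commutator ↥P
  have : Finite ↥E := inferInstance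
  let π : ↥E →* ↥(D.group K) := π0.comp E.subtype
  have hπ : Function.Surjective π := by
    have hGperf : commutator ↥(D.group K) = ⊤ := by
      have hθs : Function.Surjective θ := surjective_of_pr (coverGen C θ hθ) rfl
      rw [commutator_def, ← MonoidHom.range_eq_top.2 hθs, ← map_commutator_eq _ θ, hperf, MonoidHom.range_eq_map]
    intro g
    have hg : g ∈ E.map π0 := by
      rw [map_commutator_eq _ π0, MonoidHom.range_eq_top.2 hπ0, ← commutator_def, hGperf]
      exact Subgroup.mem_top g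
    obtain ⟨e, he, rfl⟩ := hg
    exact ⟨⟨e, he⟩, rfl⟩
  have hcE : π.ker ≤ Subgroup.center ↥E := fun z hz => by
    rw [Subgroup.mem_center_iff]
    intro y
    exact Subtype.ext (Subgroup.mem_center_iff.1 (hc0 (show π0 z.1 = 1 from hz)) y.1)
  obtain ⟨Y⟩ := exists_lift_modP X p hπ hcE (fun z hz h => by
    have hz' : π0 z.1 = 1 := hz
    have h' : z.1.1.1 ^ p = 1 := by
      have := congrArg (fun e : ↥E => e.1.1.1) h
      simpa using this
    exact Subtype.ext (Subtype.ext (Prod.ext (eq_one_of_pow_char p (hker0 _ hz') h') hz')))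
  obtain ⟨τ, hτ⟩ := exists_cover_hom Y
  refine ⟨((MonoidHom.fst _ _).comp (P.subtype.comp E.subtype)).comp τ, PresentedGroup.ext fun q => ?_⟩
  have h1 : π₁ (τ (D.scGen K q.1 q.2)).1.1.1 = σ (τ (D.scGen K q.1 q.2)).1.1.2 := (τ _).1.2
  have h2 : (τ (D.scGen K q.1 q.2)).1.1.2 = θ (D.scGen K q.1 q.2) := by
    refine (hτ q.1 q.1.2 q.2).trans (Subtype.ext ?_)
    show ((grpGen C K).x q.1 q.2).1 = _
    rw [show ((grpGen C K).x (q.1 : ℕ) q.2).1 = C.xg q.1 q.2 from (grpGen C K).pr_x q.1 q.1.2 q.2]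
    exact Units.ext (hθ q.1 q.2 q.1.2).symm
  rw [h2] at h1
  have h3 : PresentedGroup.of (rels := D.steinbergRelsAB K) q = D.scGen K q.1 q.2 := by
    simp [Cfsg.Lie.ChevalleyDatum.scGen, Cfsg.Lie.ChevalleyDatum.stX, PresentedGroup.of]
  rw [h3]
  exact h1

end Cfsg.Agent.S2399
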