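import Cfsg.Statements.S2400

import Cfsg.Agent.Lib.SteinbergPres.Cover.SmallMult
import Cfsg.Agent.Lib.SteinbergPres.Cover.SmallChecks
import Cfsg.Agent.Lib.SteinbergPres.Cover.SmallB2
import Cfsg.Agent.Lib.SteinbergPres.Cover.TwoChecks
import Cfsg.Agent.Lib.SteinbergPres.Cover.UnivChecks
set_option autoImplicit false
open Cfsg

namespace Cfsg.Agent.S2400

open Cfsg.Agent.Lib.Chev Cfsg.Agent.Lib.SteinbergPres.Cover

/-- Over a finite field `K`, the group presented by Steinberg's relators (R1)–(R3) (the universal Chevalley group) of type E₆ or E₇, or of type B₂ or D₄ with `K` of more than two elements, has trivial Schur multiplier: every finite stem extension of it is an isomorphism (Schur multiplier described through stem extensions as in the definitions). Types G₂, F₄ and E₈ are not covered here. -/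
theorem result {K : Type*} [Field K] [Fintype K] (e : Cfsg.Lie.ChevalleyDatum × ℕ)
    (he : e ∈ [(Cfsg.Lie.chevE6, 0), (Cfsg.Lie.chevE7, 0), (Cfsg.Lie.chevB2, 2), (Cfsg.Lie.chevD4, 2)]) (hK : Fintype.card K ≠ e.2) :
    Cfsg.HasCyclicSchurMultiplier (e.1.SteinbergGroup K) 1 := by
  classical
  have hne : e.2 = 2 → ∃ x : K, x ≠ 0 ∧ x ≠ 1 := fun h2 => by
    obtain ⟨x, -, hx⟩ := Finset.exists_mem_notMem_of_card_lt_card
      (s := ({0, 1} : Finset K)) (t := Finset.univ) (by
        rw [Finset.card_univ]
        have := Fintype.one_lt_card (α := K)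
        exact lt_of_le_of_lt Finset.card_le_two (by omega))
    simp only [Finset.mem_insert, Finset.mem_singleton, not_or] at hx
    exact ⟨x, hx⟩
  have hlow : 2 ≤ Fintype.card K := Fintype.one_lt_card
  have hcase : Fintype.card K = 2 ∨ Fintype.card K = 3 ∨ Fintype.card K = 4 ∨ 4 < Fintype.card K := by omega
  have h5 : 4 < Fintype.card K → ∃ s : Finset K, 4 < s.card := fun h => ⟨Finset.univ, by rwa [Finset.card_univ]⟩
  simp only [List.mem_cons, List.not_mem_nil, or_false] at he
  rcases he with rfl | rfl | rfl | rfl
  · refine hasCyclic_of_lifts E6.checked cover_E6 (by simp) (fun h => ?_) fun X Γ _ π hπ hc hperf => ?_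
    · exfalso
      simp only [List.mem_cons, List.not_mem_nil, or_false] at h
      rcases h with h | h <;> revert h <;>
        exact fun h => absurd (congrArg Cfsg.Lie.ChevalleyDatum.rank h) (by simp [Cfsg.Lie.chevE6, Cfsg.Lie.chevB2, Cfsg.Lie.chevG2])
    rcases hcase with h | h | h | h
    · exact exists_lift_two X hπ hc cover_E6 h two_E6
    · exact exists_lift_three X hπ hc hperf cover_E6 h three_E6
    · exact exists_lift_four X hπ hc hperf cover_E6 h four_E6
    · exact exists_lift X hπ hc cover_E6 hperf univ_E6 (h5 h)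
  · refine hasCyclic_of_lifts E7.checked cover_E7 (by simp) (fun h => ?_) fun X Γ _ π hπ hc hperf => ?_
    · exfalso
      simp only [List.mem_cons, List.not_mem_nil, or_false] at h
      rcases h with h | h <;> revert h <;>
        exact fun h => absurd (congrArg Cfsg.Lie.ChevalleyDatum.rank h) (by simp [Cfsg.Lie.chevE7, Cfsg.Lie.chevB2, Cfsg.Lie.chevG2])
    rcases hcase with h | h | h | h
    · exact exists_lift_two X hπ hc cover_E7 h two_E7
    · exact exists_lift_three X hπ hc hperf cover_E7 h three_E7
    · exact exists_lift_four X hπ hc hperf cover_E7 h four_E7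
    · exact exists_lift X hπ hc cover_E7 hperf univ_E7 (h5 h)
  · refine hasCyclic_of_lifts B2.checked cover_B2 (by simp) (fun _ => hne rfl) fun X Γ _ π hπ hc hperf => ?_
    rcases hcase with h | h | h | h
    · exact absurd h hK
    · exact exists_lift_threeB X hπ hc hperf cover_B2 h three_B2
    · exact exists_lift_four X hπ hc hperf cover_B2 h four_B2
    · exact exists_lift X hπ hc cover_B2 hperf univ_B2 (h5 h)
  · refine hasCyclic_of_lifts D4.checked cover_D4 (by simp) (fun _ => hne rfl) fun X Γ _ π hπ hc hperf => ?_
    rcases hcase with h | h | h | h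
    · exact absurd h hK
    · exact exists_lift_three X hπ hc hperf cover_D4 h three_D4
    · exact exists_lift_four X hπ hc hperf cover_D4 h four_D4
    · exact exists_lift X hπ hc cover_D4 hperf univ_D4 (h5 h)

end Cfsg.Agent.S2400
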