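import Cfsg.Statements.S2405
import Cfsg.Agent.Lib.Chev.TwoGen
import Cfsg.Agent.Lib.Chev.All

set_option autoImplicit false
set_option maxRecDepth 20000
open Cfsg Cfsg.Agent.Lib.Chev

namespace Cfsg.Agent.S2405

/-- certificate -/
def ops_B2_good : List (ℕ × ℕ × ℕ) := [(2, 1, 0), (3, 1, 0), (2, 5, 0), (4, 1, 5), (2, 3, 0), (3, 3, 0), (2, 7, 0)]

/-- certificate -/
def ops_B2_bad : List (ℕ × ℕ × ℕ) := [(2, 1, 0), (2, 3, 0), (3, 1, 0), (3, 3, 0), (2, 5, 0), (2, 7, 0)]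

/-- certificate -/
def ops_G2_good : List (ℕ × ℕ × ℕ) := [(2, 2, 0), (3, 2, 0), (2, 3, 0), (3, 4, 0), (2, 7, 0), (4, 2, 3), (2, 0, 0), (3, 0, 0), (2, 5, 0), (3, 1, 0), (2, 10, 0)]

/-- certificate -/
def ops_G2_bad : List (ℕ × ℕ × ℕ) := [(2, 2, 0), (2, 0, 0), (3, 2, 0), (3, 0, 0), (2, 3, 0), (2, 5, 0), (3, 4, 0), (3, 1, 0), (2, 7, 0), (2, 10, 0)]

/-- certificate -/
def ops_D4_bad : List (ℕ × ℕ × ℕ) := [(2, 1, 0), (2, 21, 0), (3, 1, 0), (3, 21, 0), (2, 18, 0), (2, 15, 0), (3, 9, 0), (3, 10, 0), (2, 14, 0), (2, 13, 0), (4, 1, 21), (2, 11, 0), (3, 11, 0), (2, 20, 0), (3, 7, 0), (2, 16, 0), (4, 1, 18), (2, 6, 0), (3, 6, 0), (2, 19, 0), (3, 0, 0), (2, 23, 0)]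

/-- certificate -/
def ops_D4_two : List (ℕ × ℕ × ℕ) := [(1, 1, 0), (4, 1, 9), (1, 9, 0), (4, 9, 5), (0, 0, 0), (1, 5, 0), (4, 5, 22), (4, 6, 22), (0, 1, 0), (4, 5, 7), (2, 6, 0), (3, 22, 0), (3, 17, 0), (2, 7, 0), (2, 2, 0), (3, 7, 0), (3, 2, 0), (2, 11, 0), (2, 8, 0), (3, 3, 0), (3, 13, 0), (2, 20, 0), (2, 10, 0)]

/-- certificate -/
def ops_F4_good : List (ℕ × ℕ × ℕ) := [(2, 3, 0), (3, 3, 0), (2, 7, 0), (3, 10, 0), (2, 8, 0), (3, 13, 0), (2, 18, 0), (3, 29, 0), (2, 34, 0), (3, 39, 0), (2, 37, 0), (4, 3, 18), (2, 0, 0), (3, 0, 0), (2, 15, 0), (3, 1, 0), (2, 21, 0), (3, 2, 0), (2, 41, 0), (3, 6, 0), (2, 45, 0), (3, 26, 0), (2, 46, 0), (4, 3, 37), (2, 11, 0), (3, 11, 0), (2, 33, 0), (3, 19, 0), (2, 27, 0), (3, 9, 0), (2, 35, 0), (3, 12, 0), (2, 38, 0), (3, 20, 0), (2, 28, 0), (4, 3, 45), (2, 4, 0), (3, 4, 0), (2, 16, 0), (3, 17, 0), (2,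 22, 0), (3, 5, 0), (2, 23, 0), (3, 24, 0), (2, 42, 0), (3, 25, 0), (2, 30, 0)]

/-- certificate -/
def ops_F4_bad : List (ℕ × ℕ × ℕ) := [(2, 3, 0), (2, 15, 0), (3, 3, 0), (3, 15, 0), (2, 7, 0), (2, 21, 0), (3, 10, 0), (3, 0, 0), (2, 8, 0), (2, 41, 0), (3, 13, 0), (3, 1, 0), (2, 18, 0), (2, 45, 0), (3, 29, 0), (3, 2, 0), (2, 34, 0), (2, 46, 0), (3, 39, 0), (3, 6, 0), (2, 37, 0), (2, 47, 0), (4, 3, 37), (2, 11, 0), (3, 11, 0), (2, 33, 0), (3, 19, 0), (2, 27, 0), (3, 9, 0), (2, 35, 0), (3, 12, 0), (2, 38, 0), (3, 20, 0), (2, 28, 0), (4, 3, 45), (2, 4, 0), (3, 4, 0), (2, 16, 0), (3, 17, 0), (2, 22, 0), (3, 5, 0), (2, 23, 0), (3, 24, 0), (2, 42, 0), (3, 25, 0), (2, 30, 0)]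

/-- certificate -/
def ops_F4_two : List (ℕ × ℕ × ℕ) := [(0, 0, 0), (1, 0, 0), (0, 15, 0), (1, 1, 0), (1, 2, 0), (4, 21, 6), (1, 6, 0), (4, 15, 26), (0, 4, 0), (1, 26, 0), (4, 0, 32), (4, 21, 32), (0, 16, 0), (4, 16, 32), (4, 16, 30), (1, 32, 0), (4, 32, 22), (4, 15, 47), (4, 1, 47), (4, 21, 47), (4, 16, 47), (4, 16, 45), (4, 32, 41), (0, 30, 0), (4, 30, 20), (4, 22, 20), (4, 22, 28), (4, 23, 19), (1, 47, 0), (4, 47, 18), (4, 31, 20), (4, 0, 39), (4, 0, 29), (2, 20, 0), (2, 28, 0), (2, 19, 0), (2, 27, 0), (2, 18, 0), (3, 39, 0), (3, 44, 0), (2, 29, 0), (2, 3, 0), (3, 20, 0), (3, 28, 0), (3, 27, 0), (3, 18, 0), (3, 3, 0)]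

/-- certificate -/
def ops_E6_good : List (ℕ × ℕ × ℕ) := [(2, 2, 0), (3, 2, 0), (2, 17, 0), (3, 7, 0), (2, 31, 0), (3, 21, 0), (2, 33, 0), (3, 14, 0), (2, 62, 0), (3, 45, 0), (2, 68, 0), (4, 2, 62), (2, 26, 0), (3, 26, 0), (2, 57, 0), (3, 5, 0), (2, 50, 0), (3, 18, 0), (2, 64, 0), (3, 3, 0), (2, 69, 0), (3, 9, 0), (2, 54, 0), (4, 2, 68), (2, 34, 0), (3, 34, 0), (2, 35, 0), (3, 32, 0), (2, 63, 0), (3, 19, 0), (2, 43, 0), (3, 12, 0), (2, 48, 0), (3, 24, 0), (2, 60, 0), (4, 2, 57), (2, 16, 0), (3, 16, 0), (2, 30, 0), (3, 1, 0), (2, 61, 0), (3, 0, 0), (2, 67, 0), (3, 4, 0), (2, 71, 0), (3, 10, 0), (2, 70, 0), (4, 2, 63), (2, 27, 0), (3, 27, 0), (2, 22, 0), (3, 6, 0), (2, 46, 0), (3, 20, 0), (2, 58, 0), (3, 13, 0), (2, 51, 0), (3, 25, 0), (2, 65, 0), (4, 2, 71), (2, 47, 0), (3, 47, 0), (2, 59, 0), (3, 42, 0), (2, 52, 0), (3, 56, 0), (2, 39, 0),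 (3, 11, 0), (2, 37, 0), (3, 23, 0), (2, 36, 0)]

/-- certificate -/
def ops_E6_two : List (ℕ × ℕ × ℕ) := [(0, 0, 0), (1, 0, 0), (0, 1, 0), (1, 4, 0), (0, 16, 0), (1, 10, 0), (4, 10, 30), (4, 16, 41), (0, 30, 0), (1, 41, 0), (4, 41, 61), (0, 6, 0), (4, 1, 55), (4, 30, 55), (4, 61, 55), (4, 61, 13), (4, 55, 27), (0, 27, 0), (4, 41, 22), (4, 61, 25), (4, 55, 22), (4, 55, 58), (0, 65, 0), (4, 65, 8), (4, 27, 8), (2, 61, 0), (2, 8, 0), (2, 39, 0), (2, 2, 0), (3, 8, 0), (3, 39, 0), (3, 2, 0), (2, 28, 0), (2, 17, 0), (3, 52, 0), (3, 7, 0), (2, 23, 0), (2, 31, 0), (3, 59, 0), (3, 21, 0), (2, 11, 0), (2, 33, 0), (3, 47, 0), (3, 14, 0), (2, 62, 0), (3, 45, 0), (2, 68, 0), (4, 8, 28), (2, 3, 0), (3, 3, 0), (2, 18, 0), (3, 9, 0), (2, 5, 0), (3, 38, 0), (2, 26, 0), (3, 40, 0), (2, 57, 0), (3, 54, 0), (2, 50, 0), (4, 0, 69), (2, 24, 0), (3, 24, 0), (2,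 12, 0), (3, 29, 0), (2, 19, 0), (3, 15, 0), (2, 32, 0), (3, 60, 0), (2, 34, 0), (3, 48, 0), (2, 35, 0)]

/-- certificate -/
def ops_E7_good : List (ℕ × ℕ × ℕ) := [(2, 3, 0), (3, 3, 0), (2, 8, 0), (3, 10, 0), (2, 34, 0), (3, 5, 0), (2, 54, 0), (3, 15, 0), (2, 57, 0), (3, 25, 0), (2, 100, 0), (3, 68, 0), (2, 110, 0), (3, 71, 0), (2, 120, 0), (3, 91, 0), (2, 115, 0), (4, 3, 100), (2, 33, 0), (3, 33, 0), (2, 53, 0), (3, 7, 0), (2, 99, 0), (3, 2, 0), (2, 109, 0), (3, 1, 0), (2, 119, 0), (3, 0, 0), (2, 125, 0), (3, 6, 0), (2, 124, 0), (3, 16, 0), (2, 123, 0), (3, 26, 0), (2, 118, 0), (4, 3, 120), (2, 58, 0), (3, 58, 0), (2, 60, 0), (3, 55, 0), (2, 101, 0), (3, 36, 0), (2, 111, 0), (3, 11, 0), (2, 87, 0), (3, 19, 0), (2, 106, 0), (3, 38, 0), (2, 114, 0), (3, 14, 0), (2, 89, 0), (3, 24, 0), (2, 70, 0), (4, 3, 125), (2, 95, 0), (3, 95, 0), (2, 84,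 0), (3, 78, 0), (2, 104, 0), (3, 43, 0), (2, 113, 0), (3, 49, 0), (2, 88, 0), (3, 18, 0), (2, 107, 0), (3, 37, 0), (2, 76, 0), (3, 12, 0), (2, 82, 0), (3, 21, 0), (2, 47, 0), (4, 3, 124), (2, 74, 0), (3, 74, 0), (2, 80, 0), (3, 102, 0), (2, 97, 0), (3, 62, 0), (2, 86, 0), (3, 61, 0), (2, 69, 0), (3, 59, 0), (2, 66, 0), (3, 56, 0), (2, 64, 0), (3, 39, 0), (2, 63, 0), (3, 28, 0), (2, 23, 0), (4, 3, 84), (2, 17, 0), (3, 17, 0), (2, 48, 0), (3, 35, 0), (2, 94, 0), (3, 9, 0), (2, 83, 0), (3, 4, 0), (2, 103, 0), (3, 13, 0), (2, 112, 0), (3, 22, 0), (2, 121, 0), (3, 42, 0), (2, 116, 0), (3, 31, 0), (2, 90, 0), (4, 3, 113), (2, 44, 0), (3, 44, 0), (2, 27, 0), (3, 50, 0), (2, 93, 0), (3, 20, 0), (2, 73, 0), (3, 40, 0), (2, 79, 0), (3, 29, 0), (2, 96, 0), (3, 46, 0), (2, 85, 0), (3, 52, 0), (2, 105, 0), (3, 32, 0), (2, 75, 0)]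

/-- certificate -/
def ops_E7_two : List (ℕ × ℕ × ℕ) := [(0, 0, 0), (1, 0, 0), (0, 1, 0), (1, 6, 0), (0, 2, 0), (1, 16, 0), (0, 7, 0), (1, 26, 0), (4, 26, 33), (4, 7, 72), (0, 33, 0), (4, 33, 72), (1, 72, 0), (0, 4, 0), (4, 2, 92), (4, 7, 92), (4, 26, 53), (0, 53, 0), (4, 53, 92), (4, 92, 99), (0, 9, 0), (4, 1, 121), (4, 6, 121), (4, 2, 121), (4, 72, 99), (1, 22, 0), (1, 29, 0), (0, 99, 0), (4, 99, 42), (4, 99, 46), (4, 85, 42), (4, 85, 93), (0, 121, 0), (4, 121, 42), (4, 121, 46), (0, 35, 0), (4, 35, 67), (4, 0, 116), (4, 6, 109), (4, 7, 116), (4, 26, 109), (4, 33, 67), (4, 72, 94), (4, 92, 109), (4, 92, 17), (4, 92, 44), (4, 92, 58), (4, 22, 109), (4, 22, 58), (4, 29, 109), (4, 99, 77), (1, 42, 0), (4, 42, 109), (4, 42, 124), (1, 46, 0), (4, 109, 67), (4, 109, 108), (4, 109, 31), (4, 109, 52), (1, 93, 0), (4, 93, 27), (4, 67, 87), (4,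 67, 103), (4, 101, 31), (4, 101, 87), (0, 116, 0), (4, 116, 81), (1, 108, 0), (4, 108, 23), (1, 114, 0), (4, 114, 23), (4, 17, 52), (4, 17, 106), (4, 17, 51), (1, 38, 0), (4, 38, 23), (4, 7, 123), (4, 7, 71), (4, 7, 76), (4, 26, 103), (4, 33, 71), (4, 33, 76), (4, 72, 8), (4, 72, 18), (4, 72, 43), (4, 13, 43), (3, 23, 0), (2, 30, 0), (2, 71, 0), (2, 51, 0), (2, 76, 0), (2, 8, 0), (2, 5, 0), (2, 12, 0), (2, 18, 0), (2, 39, 0), (2, 43, 0), (3, 71, 0), (3, 76, 0), (3, 12, 0), (3, 39, 0), (3, 63, 0), (2, 34, 0), (2, 56, 0), (2, 78, 0), (3, 91, 0), (3, 107, 0), (3, 64, 0), (2, 54, 0), (2, 59, 0), (2, 95, 0), (3, 117, 0), (3, 88, 0), (3, 66, 0), (2, 57, 0), (2, 61, 0), (2, 84, 0), (3, 122, 0), (3, 69, 0), (2, 100, 0), (2, 62, 0), (3, 115, 0), (3, 86, 0), (2, 102, 0), (3, 97, 0)]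

/-- certificate -/
def ops_E8_good : List (ℕ × ℕ × ℕ) := [(2, 0, 0), (3, 0, 0), (2, 15, 0), (3, 1, 0), (2, 21, 0), (3, 2, 0), (2, 36, 0), (3, 3, 0), (2, 78, 0), (3, 4, 0), (2, 105, 0), (3, 5, 0), (2, 169, 0), (3, 13, 0), (2, 184, 0), (3, 35, 0), (2, 204, 0), (3, 55, 0), (2, 226, 0), (3, 70, 0), (2, 234, 0), (3, 134, 0), (2, 235, 0), (3, 161, 0), (2, 236, 0), (3, 203, 0), (2, 237, 0), (3, 218, 0), (2, 238, 0), (4, 0, 235), (2, 110, 0), (3, 110, 0), (2, 170, 0), (3, 106, 0), (2, 185, 0), (3, 79, 0), (2, 205, 0), (3, 37, 0), (2, 227, 0), (3, 22, 0), (2, 219, 0), (3, 16, 0), (2, 233, 0), (3, 8, 0), (2, 232, 0), (3, 14, 0), (2, 225, 0), (3, 7, 0), (2, 231, 0), (3, 6, 0), (2, 223, 0), (3, 20, 0), (2, 217, 0), (3, 12, 0), (2, 202, 0), (3, 34, 0), (2, 160, 0), (3, 54, 0), (2, 133, 0), (4, 0, 236), (2, 114, 0), (3, 114, 0), (2, 171, 0), (3, 111,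 0), (2, 186, 0), (3, 107, 0), (2, 206, 0), (3, 81, 0), (2, 194, 0), (3, 40, 0), (2, 210, 0), (3, 26, 0), (2, 229, 0), (3, 39, 0), (2, 221, 0), (3, 24, 0), (2, 215, 0), (3, 18, 0), (2, 200, 0), (3, 10, 0), (2, 213, 0), (3, 29, 0), (2, 199, 0), (3, 45, 0), (2, 158, 0), (3, 33, 0), (2, 132, 0), (3, 53, 0), (2, 128, 0), (4, 0, 237), (2, 117, 0), (3, 117, 0), (2, 172, 0), (3, 115, 0), (2, 187, 0), (3, 112, 0), (2, 152, 0), (3, 108, 0), (2, 178, 0), (3, 84, 0), (2, 191, 0), (3, 46, 0), (2, 209, 0), (3, 58, 0), (2, 196, 0), (3, 83, 0), (2, 156, 0), (3, 43, 0), (2, 181, 0), (3, 30, 0), (2, 193, 0), (3, 48, 0), (2, 155, 0), (3, 61, 0), (2, 131, 0), (3, 87, 0), (2, 127, 0), (3, 52, 0), (2, 124, 0), (4, 0, 238), (2, 119, 0), (3, 119, 0), (2, 173, 0), (3, 118, 0), (2, 136, 0), (3, 116, 0), (2, 143, 0), (3, 113, 0), (2, 166, 0), (3, 109, 0), (2, 150,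 0), (3, 88, 0), (2, 177, 0), (3, 72, 0), (2, 137, 0), (3, 95, 0), (2, 144, 0), (3, 102, 0), (2, 167, 0), (3, 62, 0), (2, 151, 0), (3, 89, 0), (2, 130, 0), (3, 73, 0), (2, 126, 0), (3, 96, 0), (2, 123, 0), (3, 103, 0), (2, 121, 0), (4, 0, 233), (2, 99, 0), (3, 99, 0), (2, 163, 0), (3, 56, 0), (2, 147, 0), (3, 80, 0), (2, 174, 0), (3, 38, 0), (2, 188, 0), (3, 23, 0), (2, 207, 0), (3, 17, 0), (2, 228, 0), (3, 9, 0), (2, 220, 0), (3, 25, 0), (2, 214, 0), (3, 19, 0), (2, 230, 0), (3, 11, 0), (2, 222, 0), (3, 32, 0), (2, 216, 0), (3, 51, 0), (2, 201, 0), (3, 65, 0), (2, 159, 0), (3, 92, 0), (2, 183, 0), (4, 0, 232), (2, 93, 0), (3, 93, 0), (2, 141, 0), (3, 100, 0), (2, 164, 0), (3, 57, 0), (2, 148, 0), (3, 82, 0), (2, 175, 0), (3, 41, 0), (2, 189, 0), (3, 27, 0), (2, 208, 0), (3, 42, 0), (2, 195, 0), (3, 28, 0), (2, 211, 0), (3, 44, 0), (2, 197,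 0), (3, 31, 0), (2, 212, 0), (3, 50, 0), (2, 198, 0), (3, 64, 0), (2, 157, 0), (3, 91, 0), (2, 182, 0), (3, 75, 0), (2, 139, 0), (4, 0, 225), (2, 71, 0), (3, 71, 0), (2, 162, 0), (3, 94, 0), (2, 135, 0), (3, 101, 0), (2, 142, 0), (3, 59, 0), (2, 165, 0), (3, 85, 0), (2, 149, 0), (3, 47, 0), (2, 176, 0), (3, 60, 0), (2, 190, 0), (3, 86, 0), (2, 153, 0), (3, 49, 0), (2, 179, 0), (3, 63, 0), (2, 192, 0), (3, 90, 0), (2, 154, 0), (3, 74, 0), (2, 180, 0), (3, 97, 0), (2, 138, 0), (3, 104, 0), (2, 145, 0)]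

/-- certificate -/
def ops_E8_two : List (ℕ × ℕ × ℕ) := [(0, 0, 0), (1, 0, 0), (2, 15, 0), (3, 1, 0), (2, 21, 0), (3, 2, 0), (2, 36, 0), (3, 3, 0), (2, 78, 0), (3, 4, 0), (2, 105, 0), (3, 5, 0), (2, 169, 0), (3, 13, 0), (2, 184, 0), (3, 35, 0), (2, 204, 0), (3, 55, 0), (2, 226, 0), (3, 70, 0), (2, 234, 0), (3, 134, 0), (2, 235, 0), (3, 161, 0), (2, 236, 0), (3, 203, 0), (2, 237, 0), (3, 218, 0), (2, 238, 0), (4, 0, 235), (2, 110, 0), (3, 110, 0), (2, 170, 0), (3, 106, 0), (2, 185, 0), (3, 79, 0), (2, 205, 0), (3, 37, 0), (2, 227, 0), (3, 22, 0), (2, 219, 0), (3, 16, 0), (2, 233, 0), (3, 8, 0), (2, 232, 0), (3, 14, 0), (2, 225, 0), (3, 7, 0), (2, 231, 0), (3, 6, 0), (2, 223, 0), (3, 20, 0), (2, 217, 0), (3, 12, 0), (2, 202, 0), (3, 34, 0), (2, 160, 0), (3, 54, 0), (2, 133, 0), (4, 0, 236), (2, 114, 0), (3, 114, 0), (2, 171, 0), (3, 111, 0),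 (2, 186, 0), (3, 107, 0), (2, 206, 0), (3, 81, 0), (2, 194, 0), (3, 40, 0), (2, 210, 0), (3, 26, 0), (2, 229, 0), (3, 39, 0), (2, 221, 0), (3, 24, 0), (2, 215, 0), (3, 18, 0), (2, 200, 0), (3, 10, 0), (2, 213, 0), (3, 29, 0), (2, 199, 0), (3, 45, 0), (2, 158, 0), (3, 33, 0), (2, 132, 0), (3, 53, 0), (2, 128, 0), (4, 0, 237), (2, 117, 0), (3, 117, 0), (2, 172, 0), (3, 115, 0), (2, 187, 0), (3, 112, 0), (2, 152, 0), (3, 108, 0), (2, 178, 0), (3, 84, 0), (2, 191, 0), (3, 46, 0), (2, 209, 0), (3, 58, 0), (2, 196, 0), (3, 83, 0), (2, 156, 0), (3, 43, 0), (2, 181, 0), (3, 30, 0), (2, 193, 0), (3, 48, 0), (2, 155, 0), (3, 61, 0), (2, 131, 0), (3, 87, 0), (2, 127, 0), (3, 52, 0), (2, 124, 0), (4, 0, 238), (2, 119, 0), (3, 119, 0), (2, 173, 0), (3, 118, 0), (2, 136, 0), (3, 116, 0), (2, 143, 0), (3, 113, 0), (2, 166, 0), (3, 109, 0), (2, 150, 0),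 (3, 88, 0), (2, 177, 0), (3, 72, 0), (2, 137, 0), (3, 95, 0), (2, 144, 0), (3, 102, 0), (2, 167, 0), (3, 62, 0), (2, 151, 0), (3, 89, 0), (2, 130, 0), (3, 73, 0), (2, 126, 0), (3, 96, 0), (2, 123, 0), (3, 103, 0), (2, 121, 0), (4, 0, 233), (2, 99, 0), (3, 99, 0), (2, 163, 0), (3, 56, 0), (2, 147, 0), (3, 80, 0), (2, 174, 0), (3, 38, 0), (2, 188, 0), (3, 23, 0), (2, 207, 0), (3, 17, 0), (2, 228, 0), (3, 9, 0), (2, 220, 0), (3, 25, 0), (2, 214, 0), (3, 19, 0), (2, 230, 0), (3, 11, 0), (2, 222, 0), (3, 32, 0), (2, 216, 0), (3, 51, 0), (2, 201, 0), (3, 65, 0), (2, 159, 0), (3, 92, 0), (2, 183, 0), (4, 0, 232), (2, 93, 0), (3, 93, 0), (2, 141, 0), (3, 100, 0), (2, 164, 0), (3, 57, 0), (2, 148, 0), (3, 82, 0), (2, 175, 0), (3, 41, 0), (2, 189, 0), (3, 27, 0), (2, 208, 0), (3, 42, 0), (2, 195, 0), (3, 28, 0), (2, 211, 0), (3, 44, 0), (2, 197, 0),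 (3, 31, 0), (2, 212, 0), (3, 50, 0), (2, 198, 0), (3, 64, 0), (2, 157, 0), (3, 91, 0), (2, 182, 0), (3, 75, 0), (2, 139, 0), (4, 0, 225), (2, 71, 0), (3, 71, 0), (2, 162, 0), (3, 94, 0), (2, 135, 0), (3, 101, 0), (2, 142, 0), (3, 59, 0), (2, 165, 0), (3, 85, 0), (2, 149, 0), (3, 47, 0), (2, 176, 0), (3, 60, 0), (2, 190, 0), (3, 86, 0), (2, 153, 0), (3, 49, 0), (2, 179, 0), (3, 63, 0), (2, 192, 0), (3, 90, 0), (2, 154, 0), (3, 74, 0), (2, 180, 0), (3, 97, 0), (2, 138, 0), (3, 104, 0), (2, 145, 0)]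

theorem dichotomy (F : Type*) [Field F] : (∀ t : F, t = 0 ∨ t = 1) ∨ ∃ x : F, x ≠ 0 ∧ x ≠ 1 := by
  by_cases h : ∃ x : F, x ≠ 0 ∧ x ≠ 1
  · exact Or.inr h
  · exact Or.inl fun t => (em (t = 0)).imp_right fun h0 => not_not.1 fun h1 => h ⟨t, h0, h1⟩

theorem coprime_units {F : Type*} [Field F] [Finite F] (p : ℕ) (hp : p.Prime) (h : (p : F) = 0) :
    Nat.Coprime p (Nat.card Fˣ) := by
  haveI : Fintype F := Fintype.ofFinite F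
  haveI : Fact p.Prime := ⟨hp⟩
  haveI : CharP F p := by
    refine (CharP.charP_iff_prime_eq_zero hp).2 h
  obtain ⟨n, -, hn⟩ := FiniteField.card F p
  rw [Nat.card_units, Nat.card_eq_fintype_card, hn, hp.coprime_iff_not_dvd]
  intro hd
  have h1 := dvd_pow_self p n.pos.ne'
  have h2 := Nat.dvd_sub h1 hd
  rw [Nat.sub_sub_self (Nat.one_le_pow _ _ hp.pos)] at h2
  exact hp.one_lt.ne' (Nat.dvd_one.1 h2)

theorem two_le_al {F : Type*} [Field F] {m : ℕ} (hm : (m : F) ≠ 0) : ∀ z : ℤ, z.natAbs ∈ [1, m] → (z : F) ≠ 0 := by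
  intro z hz
  simp only [List.mem_cons, List.not_mem_nil, or_false] at hz
  rcases hz with hz | hz <;> rcases Int.natAbs_eq_iff.1 hz with rfl | rfl <;> simp [hm]

theorem one_al {F : Type*} [Field F] : ∀ z : ℤ, z.natAbs ∈ [1] → (z : F) ≠ 0 := by
  intro z hz
  simp only [List.mem_singleton] at hz
  rcases Int.natAbs_eq_iff.1 hz with rfl | rfl <;> simp

/-- Each Chevalley group of type G₂, B₂, D₄, F₄, E₆, E₇ or E₈ over a finite field is generated by two of its elements (types B₂ and G₂ over the field with two elements, where the group is not simple, excepted). -/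
theorem result {F : Type*} [Field F] [Finite F] (D : Cfsg.Lie.ChevalleyDatum) (hD : D ∈ [Cfsg.Lie.chevG2, Cfsg.Lie.chevB2, Cfsg.Lie.chevD4, Cfsg.Lie.chevF4, Cfsg.Lie.chevE6, Cfsg.Lie.chevE7, Cfsg.Lie.chevE8])
    (hF : D ∈ [Cfsg.Lie.chevB2, Cfsg.Lie.chevG2] → ∃ x : F, x ≠ 0 ∧ x ≠ 1) :
    ∃ a b : ↥(D.group F), Subgroup.closure ({a, b} : Set ↥(D.group F)) = ⊤ := by
  simp only [List.mem_cons, List.not_mem_nil, or_false] at hD hF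
  rcases hD with rfl | rfl | rfl | rfl | rfl | rfl | rfl
  · have hq := hF (by simp)
    by_cases hbig : ((3 : ℕ) : F) = 0
    · exact G2.checked.two_bad hq [0, 1] 3 2 4 1 1 3 hbig (fun _ => coprime_units 3 Nat.prime_three hbig) ops_G2_bad (by decide +kernel)
    · exact G2.checked.two_good hq [0, 1] 1 2 4 _ (two_le_al hbig) ops_G2_good (by decide +kernel)
  · have hq := hF (by simp)
    by_cases hbig : ((2 : ℕ) : F) = 0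
    · exact B2.checked.two_bad hq [0, 1] 3 1 2 0 1 2 hbig (fun _ => coprime_units 2 Nat.prime_two hbig) ops_B2_bad (by decide +kernel)
    · exact B2.checked.two_good hq [0, 1] 0 1 2 _ (two_le_al hbig) ops_B2_good (by decide +kernel)
  · rcases dichotomy F with h2 | hq
    · exact D4.checked.two_small h2 [0, 1, 2, 3] 1 2 ops_D4_two (by decide +kernel)
    · exact D4.checked.two_bad hq [0, 1, 2, 3] 0 1 9 10 1 0 Nat.cast_zero (fun h => absurd rfl h) ops_D4_bad (by decide +kernel)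
  · rcases dichotomy F with h2 | hq
    · exact F4.checked.two_small h2 [0, 1, 2, 3] 0 3 ops_F4_two (by decide +kernel)
    by_cases hbig : ((2 : ℕ) : F) = 0
    · exact F4.checked.two_bad hq [0, 1, 2, 3] 6 3 10 0 1 2 hbig (fun _ => coprime_units 2 Nat.prime_two hbig) ops_F4_bad (by decide +kernel)
    · exact F4.checked.two_good hq [0, 1, 2, 3] 1 3 10 _ (two_le_al hbig) ops_F4_good (by decide +kernel)
  · rcases dichotomy F with h2 | hq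
    · exact E6.checked.two_small h2 [0, 1, 2, 3, 4, 5] 0 2 ops_E6_two (by decide +kernel)
    · exact E6.checked.two_good hq [0, 1, 2, 3, 4, 5] 0 2 7 _ one_al ops_E6_good (by decide +kernel)
  · rcases dichotomy F with h2 | hq
    · exact E7.checked.two_small h2 [0, 1, 2, 3, 4, 5, 6] 0 3 ops_E7_two (by decide +kernel)
    · exact E7.checked.two_good hq [0, 1, 2, 3, 4, 5, 6] 0 3 10 _ one_al ops_E7_good (by decide +kernel)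
  · rcases dichotomy F with h2 | hq
    · exact E8.checked.two_small h2 [0, 1, 2, 3, 4, 5, 6, 7] 0 1 ops_E8_two (by decide +kernel)
    · exact E8.checked.two_good hq [0, 1, 2, 3, 4, 5, 6, 7] 2 0 1 _ one_al ops_E8_good (by decide +kernel)

end Cfsg.Agent.S2405
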