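import Cfsg.Statements.S2406
import Cfsg.Agent.Lib.Chev.TwistTwoGen
import Cfsg.Agent.Lib.Chev.TwistPerfectAll

set_option autoImplicit false
open Cfsg Cfsg.Lie Cfsg.Agent.Lib Cfsg.Agent.Lib.Chev

namespace Cfsg.Agent.S2406

/-- The root permutation of a Coxeter element. -/
def cyc (r : ℕ) : ℕ := [0, 1, 2, 3].foldr (fun j x => E6.fast.orbW (orbTab E6.sym.p 2 j) x) r

theorem root_check : E6.fast.sp 0 = 56 ∧ cyc 13 = 56 ∧ E6.sym.r 56 = 36 ∧ 0 < E6.fast.key 56 := by
  decide +kernel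

theorem cartan_s : (List.range 2).map (fun i => chevE6.cartan (E6.sym.p^[i] 2) 56) = [-1, 0] ∧
    (List.range 2).map (fun i => chevE6.cartan (E6.sym.p^[i] 2) 13) = [0, 1] := by
  decide +kernel

theorem step1 : stepCheck chevE6 E6.fast E6.sym.r 2 36 37 38 = true ∧ 0 < E6.fast.key 36 ∧
    0 < E6.fast.key 37 ∧ (1 : ℤ).natAbs = 1 ∧
    ((pterms chevE6 E6.sym.r 2 36 37).filter fun e => e.2.2.1 == 38) = [(0, 0, (38, 1, 1, 1))] := by
  decide +kernel

theorem step2 : ∀ p ∈ [(36, 45, 60), (38, 55, 69)],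
    stepCheck chevE6 E6.fast E6.sym.r 2 p.1 p.2.1 p.2.2 = true ∧ 0 < E6.fast.key p.1 ∧
      0 < E6.fast.key p.2.1 ∧ E6.sym.r p.2.2 = p.2.2 ∧
      (((pterms chevE6 E6.sym.r 2 p.1 p.2.1).filter fun e => e.2.2.1 == p.2.2).map fun e => e.1).Nodup ∧
      (∃ e ∈ (pterms chevE6 E6.sym.r 2 p.1 p.2.1).filter (fun e => e.2.2.1 == p.2.2),
        e.1 = 0 ∧ e.2.2.2.1.natAbs = 1) ∧
      ∀ e ∈ (pterms chevE6 E6.sym.r 2 p.1 p.2.1).filter (fun e => e.2.2.1 == p.2.2), e.1 < 2 := by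
  decide +kernel

theorem two_prod {K : Type*} [Field K] (f : ℕ → K) (e : ℕ → ℤ) {x y : ℤ} (t : K)
    (h : (List.range 2).map e = [x, y]) :
    ((List.range 2).map fun i => f i ^ e i).prod * t = f 0 ^ x * f 1 ^ y * t := by
  rw [show List.range 2 = [0, 1] from rfl] at h ⊢
  simp only [List.map_cons, List.map_nil, List.cons.injEq, and_true] at h
  simp [h.1, h.2]

/-- Whether a root is reached from the given seeds. -/
def reached (seeds : List ℕ) (t : ℕ) : Bool :=
  seeds.any fun s => (List.range 2).any fun i => (List.range 12).any fun k =>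
    E6.sym.r^[i] (cyc^[k] s) == t

theorem reach1 : reached [56] 36 = true ∧ reached [56] 37 = true ∧ reached [56] 45 = true ∧
    reached [56, 38] 55 = true := by
  decide +kernel

theorem reach2 : ∀ j < 6, reached [56, 38, 60, 69] (E6.fast.sp j) = true ∧
    reached [56, 38, 60, 69] (E6.fast.ng (E6.fast.sp j)) = true := by
  decide +kernel

theorem gen_closure {K : Type*} [Field K] [Fintype K] {q : ℕ} (φ : K ≃+* K) (hφ : ∀ t, φ t = t ^ q)
    (hq : 2 ≤ q) (hK : Fintype.card K = q ^ 2) :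
    ∃ a b : GL chevE6.Idx K, a ∈ twistedE6 K q ∧ b ∈ twistedE6 K q ∧
      twistedE6 K q ≤ Subgroup.closure {a, b} := by
  classical
  have O := E6.tw_orth φ
  have G := E6.gens φ hφ hK
  have hv := E6.card_valid_simple φ hφ (by omega) hK
  obtain ⟨g, hgen⟩ := (inferInstance : IsCyclic Kˣ).exists_generator
  have hk2 : 2 < chevE6.rank := E6.rank_eq ▸ (by norm_num : 2 < 6)
  have hk0 : 0 < chevE6.rank := E6.rank_eq ▸ (by norm_num : 0 < 6)
  obtain ⟨hsp0, hc13, hρ56, hkey⟩ := root_check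
  have hS : chevE6.simple 0 = 56 := (E6.checked.tables.simple 0 hk0).trans hsp0
  have hSl : 56 < chevE6.nroots := hS ▸ E6.checked.root.simple_lt 0 hk0
  have hJ : ∀ j ∈ [0, 1, 2, 3], j < chevE6.rank := fun j hj => by
    rw [E6.rank_eq]
    simp only [List.mem_cons, List.not_mem_nil, or_false] at hj
    omega
  obtain ⟨hnm, hnf, hnG, hnsg⟩ := O.nJ_spec G [0, 1, 2, 3] hJ
  set n := O.nJ [0, 1, 2, 3]
  set a := (E6.tw φ).orbProd ((E6.tw φ).len 2 (chevE6.simple 2)) (E6.checked.hg (chevE6.simple 2) (g : K))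
    with ha
  set b := (E6.tw φ).orbEl 2 56 (1 : K) * n with hb
  have haT : a ∈ twistedE6 K q := E6.torus_mem φ hφ hK (by norm_num) g.ne_zero fun h => by simp at h
  have hv1 : ∀ t : K, (E6.tw φ).Valid 2 56 t := O.valid_all hK hv
    ((E6.checked.root.pos_iff 56).2 ⟨hSl, hkey⟩) (show E6.sym.r 56 ≠ 56 by rw [hρ56]; norm_num)
  have hbT : b ∈ twistedE6 K q := mul_mem (hS ▸ G.base 0 hk0 1 (hS.symm ▸ hv1 1)) hnG
  refine ⟨a, b, haT, hbT, ?_⟩
  set H := Subgroup.closure ({a, b} : Set (GL chevE6.Idx K))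
  have haH : a ∈ H := Subgroup.subset_closure (Or.inl rfl)
  have hbH : b ∈ H := Subgroup.subset_closure (Or.inr rfl)
  have h13 : (13 : ℕ) < chevE6.nroots := lt_trans (by norm_num) hSl
  have hsg : E6.checked.sg n 13 = 56 := (hnsg 13 h13).trans hc13
  have hact : ∀ r < chevE6.nroots, ∀ t : K, a * E6.checked.xg r t * a⁻¹ = E6.checked.xg r
      (((List.range 2).map fun i => (φ^[i] (g : K)) ^ chevE6.cartan (E6.sym.p^[i] 2) r).prod * t) := by
    intro r hr t
    refine (E6.symData.twist_orbProd_hg_conj E6.symData φ hk2 hr g.ne_zero t).trans ?_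
    rw [show (E6.symData.twist E6.checked E6.symData φ).len 2 (chevE6.simple 2) = 2 from
      (E6.len_simple φ (by norm_num)).trans (if_neg (by norm_num))]
  have hpow : ∀ y : K, y ≠ 0 → ∃ k : ℕ, (g : K) ^ k = y := by
    intro y hy
    obtain ⟨k, hk⟩ := (Submonoid.mem_powers_iff _ _).1 (mem_powers_iff_mem_zpowers.2 (hgen (Units.mk0 y hy)))
    exact ⟨k, by simpa using congrArg Units.val hk⟩
  have hg1 : (g : K) ≠ 1 := by
    intro h
    have h1 : orderOf g = 1 := orderOf_eq_one_iff.2 (Units.ext h)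
    rw [orderOf_eq_card_of_forall_mem_zpowers hgen, Nat.card_eq_fintype_card, Fintype.card_units, hK] at h1
    have : 2 ^ 2 ≤ q ^ 2 := Nat.pow_le_pow_left hq 2
    omega
  obtain ⟨hfS, hnH⟩ := O.trick (α := (g : K)⁻¹) (β := φ (g : K))
    (O.orbProd_mem_diag (E6.checked.hg_mem (E6.checked.root.simple_lt 2 hk2) g.ne_zero) _)
    (G.le_fixed haT) haH hnm hnf h13 hsg hv1 hbH
    (fun t => by
      rw [hact 56 hSl t, two_prod _ _ _ cartan_s.1, zpow_zero, mul_one, zpow_neg, zpow_one]; rfl)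
    (fun t => by
      rw [hact 13 h13 t, two_prod _ _ _ cartan_s.2, zpow_zero, one_mul, zpow_one]; rfl)
    (fun h => hg1 (inv_eq_one.1 h))
    (fun h => hg1 (φ.injective (h.trans (map_one φ).symm)))
    (fun x hx => by
      obtain ⟨k, hk⟩ := hpow (x ^ 2)⁻¹ (inv_ne_zero (pow_ne_zero _ hx))
      exact ⟨k, by rw [inv_pow, hk, inv_inv]⟩)
    exists_two_squares
  have hreach : ∀ seeds : List ℕ, (∀ s ∈ seeds, O.Full H s) → ∀ t, reached seeds t = true → O.Full H t :=
    fun seeds hs t ht => O.full_reach G hJ hnH (ρ := E6.sym.r) rfl cyc (fun _ => rfl) hs ht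
  have h56 : ∀ s ∈ [56], O.Full H s := by simpa using hfS
  obtain ⟨hr36, hr37, hr45, hr55⟩ := reach1
  have h38 : O.Full H 38 := O.full_short hK hv (ρ := E6.sym.r) rfl step1
    (hreach _ h56 _ hr36) (hreach _ h56 _ hr37)
  have h5638 : ∀ s ∈ [56, 38], O.Full H s := by simpa using ⟨hfS, h38⟩
  have h60 : O.Full H 60 := O.full_long hq (by norm_num) hK hv (φ := φ) (fun _ => rfl) hφ
    (ρ := E6.sym.r) rfl (step2 (36, 45, 60) (by simp)) (hreach _ h56 _ hr36) (hreach _ h56 _ hr45)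
  have h69 : O.Full H 69 := O.full_long hq (by norm_num) hK hv (φ := φ) (fun _ => rfl) hφ
    (ρ := E6.sym.r) rfl (step2 (38, 55, 69) (by simp)) h38 (hreach _ h5638 _ hr55)
  have hall : ∀ s ∈ [56, 38, 60, 69], O.Full H s := by simpa using ⟨hfS, h38, h60, h69⟩
  refine E6.twisted_le φ hφ hK (fun j hj t ht => ?_) (fun j hj t ht => ?_)
  · rw [E6.checked.tables.simple j hj] at ht ⊢
    exact (hreach _ hall _ (reach2 j (E6.rank_eq ▸ hj)).1).2 t ht
  · rw [E6.checked.tables.neg _ (E6.checked.root.simple_lt j hj), E6.checked.tables.simple j hj] at ht ⊢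
    exact (hreach _ hall _ (reach2 j (E6.rank_eq ▸ hj)).2).2 t ht

/-- The twisted group ²E₆(q) (realised inside E₆ over the field with `q²` elements) is generated by two of its elements. -/
theorem result {K : Type*} [Field K] [Fintype K] {q : ℕ} (hq : IsPrimePow q) (hK : Fintype.card K = q ^ 2) :
    ∃ a b : ↥(Cfsg.Lie.twistedE6 K q), Subgroup.closure ({a, b} : Set ↥(Cfsg.Lie.twistedE6 K q)) = ⊤ := by
  obtain ⟨φ, hφ⟩ := exists_frob hq two_ne_zero hK
  obtain ⟨a, b, ha, hb, hle⟩ := gen_closure φ hφ hq.two_le hK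
  refine ⟨⟨a, ha⟩, ⟨b, hb⟩, ?_⟩
  refine Subgroup.map_injective (twistedE6 K q).subtype_injective ?_
  rw [MonoidHom.map_closure, ← MonoidHom.range_eq_map, Subgroup.range_subtype, Set.image_pair]
  exact le_antisymm ((Subgroup.closure_le _).2 (Set.insert_subset ha (Set.singleton_subset_iff.2 hb))) hle

end Cfsg.Agent.S2406
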