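import Cfsg.Statements.S2407
import Cfsg.Agent.Lib.Chev.TwistTwoGen
import Cfsg.Agent.Lib.Chev.TwistPerfectAll

set_option autoImplicit false
open Cfsg Cfsg.Lie Cfsg.Agent.Lib Cfsg.Agent.Lib.Chev

namespace Cfsg.Agent.S2407

/-- The root permutation of a Coxeter element. -/
def cyc (r : ℕ) : ℕ := [0, 1].foldr (fun j x => D4.fast.orbW (orbTab D4.sym.p 3 j) x) r

theorem root_check : D4.fast.sp 0 = 18 ∧ cyc 4 = 18 ∧ D4.sym.r 18 = 13 ∧ 0 < D4.fast.key 18 := by
  decide +kernel

theorem cartan_s : (List.range 3).map (fun i => chevD4.cartan (D4.sym.p^[i] 0) 18) = [2, 0, 0] ∧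
    (List.range 3).map (fun i => chevD4.cartan (D4.sym.p^[i] 0) 4) = [-1, 1, 1] := by
  decide +kernel

theorem step : stepCheck chevD4 D4.fast D4.sym.r 3 12 17 22 = true ∧ 0 < D4.fast.key 12 ∧
    0 < D4.fast.key 17 ∧ D4.sym.r 22 = 22 ∧
    (((pterms chevD4 D4.sym.r 3 12 17).filter fun e => e.2.2.1 == 22).map fun e => e.1).Nodup ∧
    (∃ e ∈ (pterms chevD4 D4.sym.r 3 12 17).filter (fun e => e.2.2.1 == 22),
      e.1 = 0 ∧ e.2.2.2.1.natAbs = 1) ∧
    ∀ e ∈ (pterms chevD4 D4.sym.r 3 12 17).filter (fun e => e.2.2.1 == 22), e.1 < 3 := by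
  decide +kernel

theorem three_prod {K : Type*} [Field K] (f : ℕ → K) (e : ℕ → ℤ) {x y z : ℤ} (t : K)
    (h : (List.range 3).map e = [x, y, z]) :
    ((List.range 3).map fun i => f i ^ e i).prod * t = f 0 ^ x * f 1 ^ y * f 2 ^ z * t := by
  rw [show List.range 3 = [0, 1, 2] from rfl] at h ⊢
  simp only [List.map_cons, List.map_nil, List.cons.injEq, and_true] at h
  simp [h.1, h.2.1, h.2.2, mul_assoc]

/-- Whether a root is reached from the given seeds. -/
def reached (seeds : List ℕ) (t : ℕ) : Bool :=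
  seeds.any fun s => (List.range 3).any fun i => (List.range 12).any fun k =>
    D4.sym.r^[i] (cyc^[k] s) == t

theorem reach1 : reached [18] 12 = true ∧ reached [18] 17 = true := by
  decide +kernel

theorem reach2 : ∀ j < 4, reached [18, 22] (D4.fast.sp j) = true ∧
    reached [18, 22] (D4.fast.ng (D4.fast.sp j)) = true := by
  decide +kernel

theorem torus_mem {K : Type*} [Field K] [Fintype K] {q : ℕ} (φ : K ≃+* K) (hφ : ∀ t, φ t = t ^ q)
    (hK : Fintype.card K = q ^ 3) {a : K} (ha : a ≠ 0) :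
    (D4.tw φ).orbProd ((D4.tw φ).len 3 (chevD4.simple 0)) (D4.checked.hg (chevD4.simple 0) a) ∈
      twistedD4 K q := by
  have O := D4.tw_orth φ
  have hk : 0 < chevD4.rank := D4.rank_eq ▸ (by norm_num : 0 < 4)
  refine O.orbProd_hg_mem (D4.gens φ hφ hK) hk ((D4.symData.twist_valid_simple D4.symData' φ O hk _).2 ?_)
    ((D4.symData.twist_valid_neg D4.symData' φ O hk _).2 ?_) ha
  all_goals
    show φ^[(D4.tw φ).len 3 (chevD4.simple 0)] _ = _
    rw [D4.len_simple φ (by norm_num), if_neg (by norm_num)]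
    exact frob_per hφ hK _

theorem gen_closure {K : Type*} [Field K] [Fintype K] {q : ℕ} (φ : K ≃+* K) (hφ : ∀ t, φ t = t ^ q)
    (hq : 2 ≤ q) (hK : Fintype.card K = q ^ 3) :
    ∃ a b : GL chevD4.Idx K, a ∈ twistedD4 K q ∧ b ∈ twistedD4 K q ∧
      twistedD4 K q ≤ Subgroup.closure {a, b} := by
  classical
  have O := D4.tw_orth φ
  have G := D4.gens φ hφ hK
  have hv := D4.card_valid_simple φ hφ (by omega) hK
  obtain ⟨g, hgen⟩ := (inferInstance : IsCyclic Kˣ).exists_generator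
  have hk2 : 0 < chevD4.rank := D4.rank_eq ▸ (by norm_num : 0 < 4)
  have hk0 : 0 < chevD4.rank := D4.rank_eq ▸ (by norm_num : 0 < 4)
  obtain ⟨hsp0, hc4, hρ18, hkey⟩ := root_check
  have hS : chevD4.simple 0 = 18 := (D4.checked.tables.simple 0 hk0).trans hsp0
  have hSl : 18 < chevD4.nroots := hS ▸ D4.checked.root.simple_lt 0 hk0
  have hJ : ∀ j ∈ [0, 1], j < chevD4.rank := fun j hj => by
    rw [D4.rank_eq]
    simp only [List.mem_cons, List.not_mem_nil, or_false] at hj
    omega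
  obtain ⟨hnm, hnf, hnG, hnsg⟩ := O.nJ_spec G [0, 1] hJ
  set n := O.nJ [0, 1]
  set a := (D4.tw φ).orbProd ((D4.tw φ).len 3 (chevD4.simple 0)) (D4.checked.hg (chevD4.simple 0) (g : K))
    with ha
  set b := (D4.tw φ).orbEl 3 18 (1 : K) * n with hb
  have haT : a ∈ twistedD4 K q := torus_mem φ hφ hK g.ne_zero
  have hv1 : ∀ t : K, (D4.tw φ).Valid 3 18 t := O.valid_all hK hv
    ((D4.checked.root.pos_iff 18).2 ⟨hSl, hkey⟩) (show D4.sym.r 18 ≠ 18 by rw [hρ18]; norm_num)
  have hbT : b ∈ twistedD4 K q := mul_mem (hS ▸ G.base 0 hk0 1 (hS.symm ▸ hv1 1)) hnG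
  refine ⟨a, b, haT, hbT, ?_⟩
  set H := Subgroup.closure ({a, b} : Set (GL chevD4.Idx K))
  have haH : a ∈ H := Subgroup.subset_closure (Or.inl rfl)
  have hbH : b ∈ H := Subgroup.subset_closure (Or.inr rfl)
  have h4 : (4 : ℕ) < chevD4.nroots := lt_trans (by norm_num) hSl
  have hsg : D4.checked.sg n 4 = 18 := (hnsg 4 h4).trans hc4
  have hact : ∀ r < chevD4.nroots, ∀ t : K, a * D4.checked.xg r t * a⁻¹ = D4.checked.xg r
      (((List.range 3).map fun i => (φ^[i] (g : K)) ^ chevD4.cartan (D4.sym.p^[i] 0) r).prod * t) := by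
    intro r hr t
    refine (D4.symData.twist_orbProd_hg_conj D4.symData' φ hk2 hr g.ne_zero t).trans ?_
    rw [show (D4.symData.twist D4.checked D4.symData' φ).len 3 (chevD4.simple 0) = 3 from
      (D4.len_simple φ (by norm_num)).trans (if_neg (by norm_num))]
  have hpow : ∀ y : K, y ≠ 0 → ∃ k : ℕ, (g : K) ^ k = y := by
    intro y hy
    obtain ⟨k, hk⟩ := (Submonoid.mem_powers_iff _ _).1 (mem_powers_iff_mem_zpowers.2 (hgen (Units.mk0 y hy)))
    exact ⟨k, by simpa using congrArg Units.val hk⟩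
  have hg1 : (g : K) ≠ 1 := by
    intro h
    have h1 : orderOf g = 1 := orderOf_eq_one_iff.2 (Units.ext h)
    rw [orderOf_eq_card_of_forall_mem_zpowers hgen, Nat.card_eq_fintype_card, Fintype.card_units, hK] at h1
    have : 2 ^ 3 ≤ q ^ 3 := Nat.pow_le_pow_left hq 3
    omega
  have hord : ∀ k : ℕ, 0 < k → k < q ^ 3 - 1 → (g : K) ^ k ≠ 1 := by
    intro k hk1 hk3 hone
    have h1 : orderOf g ∣ k := orderOf_dvd_of_pow_eq_one (Units.ext (by simpa using hone))
    rw [orderOf_eq_card_of_forall_mem_zpowers hgen, Nat.card_eq_fintype_card, Fintype.card_units, hK] at h1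
    have := Nat.le_of_dvd hk1 h1
    omega
  have h8 : 8 ≤ q ^ 3 := le_trans (by norm_num) (Nat.pow_le_pow_left hq 3)
  obtain ⟨hfS, hnH⟩ := O.trick (α := (g : K) ^ 2) (β := (g : K)⁻¹ * φ (g : K) * φ (φ (g : K)))
    (O.orbProd_mem_diag (D4.checked.hg_mem (D4.checked.root.simple_lt 0 hk2) g.ne_zero) _)
    (G.le_fixed haT) haH hnm hnf h4 hsg hv1 hbH
    (fun t => by
      rw [hact 18 hSl t, three_prod _ _ _ cartan_s.1, zpow_zero, zpow_zero, mul_one, mul_one, zpow_two, pow_two]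
      rfl)
    (fun t => by
      rw [hact 4 h4 t, three_prod _ _ _ cartan_s.2, zpow_neg, zpow_one, zpow_one, zpow_one]; rfl)
    (hord 2 two_pos (by omega))
    (fun h => by
      have h2 : 2 * q ≤ q * q := Nat.mul_le_mul_right _ hq
      have h3 : 2 * (q * q) ≤ q * (q * q) := Nat.mul_le_mul_right _ hq
      have hcube : q ^ 3 = q * (q * q) := by ring
      have e : (g : K) ^ (q + q * q - 1) * (g : K) = 1 * (g : K) := by
        rw [← pow_succ, Nat.sub_add_cancel (by omega), one_mul]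
        rw [hφ, hφ, ← pow_mul, mul_assoc, ← pow_add, inv_mul_eq_one₀ g.ne_zero] at h
        exact h.symm
      exact hord _ (by omega) (by omega) (mul_right_cancel₀ g.ne_zero e))
    (fun x hx => by
      obtain ⟨k, hk⟩ := hpow x hx
      exact ⟨k, by rw [← hk, ← pow_mul, ← pow_mul, mul_comm]⟩)
    exists_two_squares
  have hreach : ∀ seeds : List ℕ, (∀ s ∈ seeds, O.Full H s) → ∀ t, reached seeds t = true → O.Full H t :=
    fun seeds hs t ht => O.full_reach G hJ hnH (ρ := D4.sym.r) rfl cyc (fun _ => rfl) hs ht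
  have h18 : ∀ s ∈ [18], O.Full H s := by simpa using hfS
  obtain ⟨hr12, hr17⟩ := reach1
  have h22 : O.Full H 22 := O.full_long hq (by norm_num) hK hv (φ := φ) (fun _ => rfl) hφ
    (ρ := D4.sym.r) rfl step (hreach _ h18 _ hr12) (hreach _ h18 _ hr17)
  have hall : ∀ s ∈ [18, 22], O.Full H s := by simpa using ⟨hfS, h22⟩
  refine D4.twisted_le φ hφ hK (fun j hj t ht => ?_) (fun j hj t ht => ?_)
  · rw [D4.checked.tables.simple j hj] at ht ⊢
    exact (hreach _ hall _ (reach2 j (D4.rank_eq ▸ hj)).1).2 t ht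
  · rw [D4.checked.tables.neg _ (D4.checked.root.simple_lt j hj), D4.checked.tables.simple j hj] at ht ⊢
    exact (hreach _ hall _ (reach2 j (D4.rank_eq ▸ hj)).2).2 t ht

/-- The twisted group ³D₄(q) (realised inside D₄ over the field with `q³` elements) is generated by two of its elements. -/
theorem result {K : Type*} [Field K] [Fintype K] {q : ℕ} (hq : IsPrimePow q) (hK : Fintype.card K = q ^ 3) :
    ∃ a b : ↥(Cfsg.Lie.twistedD4 K q), Subgroup.closure ({a, b} : Set ↥(Cfsg.Lie.twistedD4 K q)) = ⊤ := by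
  obtain ⟨φ, hφ⟩ := exists_frob hq three_ne_zero hK
  obtain ⟨a, b, ha, hb, hle⟩ := gen_closure φ hφ hq.two_le hK
  refine ⟨⟨a, ha⟩, ⟨b, hb⟩, ?_⟩
  refine Subgroup.map_injective (twistedD4 K q).subtype_injective ?_
  rw [MonoidHom.map_closure, ← MonoidHom.range_eq_map, Subgroup.range_subtype, Set.image_pair]
  exact le_antisymm ((Subgroup.closure_le _).2 (Set.insert_subset ha (Set.singleton_subset_iff.2 hb))) hle

end Cfsg.Agent.S2407
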