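import Cfsg.Statements.S2409
import Cfsg.Agent.Lib.Chev.TwistG2ReeStruct

set_option autoImplicit false
open Cfsg Cfsg.Lie Cfsg.Agent.Lib Cfsg.Agent.Lib.Chev

namespace Cfsg.Agent.S2409

variable {K : Type*} [Field K] [Fintype K] [CharP K 3] (θ : K ≃+* K) {m : ℕ}
  (hθ : ∀ t : K, θ t = t ^ 3 ^ m) (hK : Fintype.card K = 3 ^ (2 * m + 1))

/-- An element of the unipotent group in its three coordinates. -/
noncomputable def W (m : ℕ) (t u v : K) : GL chevG2.Idx K := G2.checked.wg (reeWordU (3 ^ m) t u v)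

include hθ hK in
theorem W_mem (t u v : K) : W m t u v ∈ chevG2.posUnipotent K ⊓ (G2.reeTwist θ).fixed :=
  (G2.mem_unip_iff θ hθ hK _).2 ⟨t, u, v, rfl⟩

include hθ hK in
/-- The product in three coordinates. -/
theorem W_mul (t u v t' u' v' : K) :
    W m t u v * W m t' u' v' = W m (t + t') (u + u' - (t' ^ 3 ^ m) ^ 3 * t)
      (-((t' ^ 3 ^ m) ^ 3 * t ^ 2) + v - t' * (-((t' ^ 3 ^ m) ^ 3 * t) + u) + v') := by
  obtain ⟨T, U, V, e⟩ := (G2.mem_unip_iff θ hθ hK _).1 (mul_mem (W_mem θ hθ hK t u v) (W_mem θ hθ hK t' u' v'))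
  have e' := e
  simp only [W, G2.reeWord_eq_six, G2.six_mul] at e'
  obtain ⟨-, rfl, -, -, rfl, rfl⟩ := G2.six_inj e'
  rw [e, W]
  congr 2
  ring

include hθ hK in
theorem gen_closure (hm : 1 ≤ m) :
    ∃ a b : GL chevG2.Idx K, a ∈ twistedG2 K (3 ^ m) ∧ b ∈ twistedG2 K (3 ^ m) ∧
      twistedG2 K (3 ^ m) ≤ Subgroup.closure {a, b} := by
  classical
  obtain ⟨g, hgen⟩ := (inferInstance : IsCyclic Kˣ).exists_generator
  obtain ⟨φ, hφ, hconj⟩ := G2.exists_torusHom θ hθ hK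
  obtain ⟨h, hh⟩ := hφ.2 g
  have hfix := G2.eq_fixed θ hθ hK
  have hw : G2.wZero K ∈ (G2.reeTwist θ).fixed := G2.wZero_mem θ
  set a : GL chevG2.Idx K := (h : GL chevG2.Idx K) with ha
  set b : GL chevG2.Idx K := W m 1 0 0 * G2.wZero K with hb
  have haF : a ∈ (G2.reeTwist θ).fixed := (Subgroup.mem_inf.1 h.2).2
  have hbF : b ∈ (G2.reeTwist θ).fixed := mul_mem (Subgroup.mem_inf.1 (W_mem θ hθ hK 1 0 0)).2 hw
  refine ⟨a, b, hfix ▸ haF, hfix ▸ hbF, ?_⟩
  set H := Subgroup.closure ({a, b} : Set (GL chevG2.Idx K))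
  have haH : a ∈ H := Subgroup.subset_closure (Or.inl rfl)
  have hbH : b ∈ H := Subgroup.subset_closure (Or.inr rfl)
  -- arithmetic
  set z : K := (g : K) with hz
  have hge : 9 ≤ 3 * 3 ^ m := by
    have : 3 ^ 1 ≤ 3 ^ m := Nat.pow_le_pow_right (by norm_num) hm
    omega
  have hq : Fintype.card K = 3 * (3 ^ m * 3 ^ m) := by rw [hK, pow_succ, two_mul, pow_add]; ring
  have hqq : 3 * 3 ^ m ≤ 3 ^ m * 3 ^ m := Nat.mul_le_mul_right _ (by omega)
  have hg0 : ∀ k : ℕ, 0 < k → k < 3 * (3 ^ m * 3 ^ m) - 1 → z ^ k ≠ 1 := by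
    intro k hk1 hk2 hone
    have h1 : orderOf g ∣ k := orderOf_dvd_of_pow_eq_one (Units.ext (by simpa using hone))
    rw [orderOf_eq_card_of_forall_mem_zpowers hgen, Nat.card_eq_fintype_card, Fintype.card_units, hq] at h1
    have := Nat.le_of_dvd hk1 h1
    omega
  have hpow : ∀ y : K, y ≠ 0 → ∃ k : ℕ, z ^ k = y := by
    intro y hy
    obtain ⟨k, hk⟩ := (Submonoid.mem_powers_iff _ _).1 (mem_powers_iff_mem_zpowers.2 (hgen (Units.mk0 y hy)))
    exact ⟨k, by simpa using congrArg Units.val hk⟩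
  -- conjugation by the torus generator
  have hscale : ∀ (k : ℕ) (t u v : K), W m t u v ∈ H →
      W m (z ^ k * t) ((z ^ k) ^ (3 * 3 ^ m + 1) * u) ((z ^ k) ^ (3 * 3 ^ m + 2) * v) ∈ H := by
    intro k t u v hW
    have := hconj (h ^ k) t u v
    rw [map_pow, hh, Units.val_pow_eq_pow_val, SubmonoidClass.coe_pow] at this
    rw [W, ← this]
    exact mul_mem (mul_mem (pow_mem haH k) hW) (inv_mem (pow_mem haH k))
  -- the trick
  obtain ⟨t0, u0, v0, ht0, hW0⟩ : ∃ t u v : K, t ≠ 0 ∧ W m t u v ∈ H := by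
    have hh'mem : G2.wZero K * a * (G2.wZero K)⁻¹ ∈ chevG2.diagonalSubgroup K ⊓ (G2.reeTwist θ).fixed :=
      Subgroup.mem_inf.2 ⟨G2.checked.mono_conj_diag
        ((G2.ree_cls θ).wN_mem_monomial (j := 0) (by rw [G2.rank_eq']; omega)) a (Subgroup.mem_inf.1 h.2).1,
        mul_mem (mul_mem hw haF) (inv_mem hw)⟩
    set h' : ↥(chevG2.diagonalSubgroup K ⊓ (G2.reeTwist θ).fixed) := ⟨_, hh'mem⟩ with hh'
    have hz' : (φ h' : K) ≠ 1 := by
      intro e
      have h1 : h' = 1 := hφ.1 (by rw [map_one]; exact Units.ext e)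
      have h2 := congrArg Subtype.val h1
      have h3 : a = 1 := conj_eq_one_iff.1 h2
      have h4 : g = 1 := by rw [← hh, show h = 1 from Subtype.ext h3, map_one]
      exact hg0 1 one_pos (by omega) (by rw [pow_one, hz, h4, Units.val_one])
    have hcomm : a * (h' : GL chevG2.Idx K) = (h' : GL chevG2.Idx K) * a :=
      G2.checked.diag_comm (Subgroup.mem_inf.1 h.2).1 (Subgroup.mem_inf.1 h'.2).1
    set u := W m (1 : K) 0 0 with hu
    obtain ⟨tu, uu, vu, hui⟩ := (G2.mem_unip_iff θ hθ hK _).1 (inv_mem (W_mem θ hθ hK (1 : K) 0 0))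
    have htu : tu = -1 := by
      have h1 : W m (1 : K) 0 0 * W m tu uu vu = W m 0 0 0 := by
        rw [show W m tu uu vu = (W m (1 : K) 0 0)⁻¹ from hui.symm, mul_inv_cancel]
        exact (G2.reeWord_zero (by positivity)).symm
      rw [W_mul θ hθ hK] at h1
      have := (G2.reeWord_inj h1).1
      linear_combination this
    have key : a * (b * a * b⁻¹) * a⁻¹ * (b * a * b⁻¹)⁻¹ =
        a * u * a⁻¹ * ((h' : GL chevG2.Idx K) * (a * u⁻¹ * a⁻¹ * u) * (h' : GL chevG2.Idx K)⁻¹) * u⁻¹ := by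
      have e1 : b * a * b⁻¹ = u * (h' : GL chevG2.Idx K) * u⁻¹ := by
        rw [hb, show (h' : GL chevG2.Idx K) = G2.wZero K * a * (G2.wZero K)⁻¹ from rfl]; group
      rw [e1]
      calc a * (u * (h' : GL chevG2.Idx K) * u⁻¹) * a⁻¹ * (u * (h' : GL chevG2.Idx K) * u⁻¹)⁻¹
          = a * u * a⁻¹ * (a * (h' : GL chevG2.Idx K)) * u⁻¹ * a⁻¹ * (u * (h' : GL chevG2.Idx K)⁻¹ * u⁻¹) := by
            group
        _ = a * u * a⁻¹ * ((h' : GL chevG2.Idx K) * a) * u⁻¹ * a⁻¹ * (u * (h' : GL chevG2.Idx K)⁻¹ * u⁻¹) := by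
            rw [hcomm]
        _ = _ := by group
    have hcH : a * (b * a * b⁻¹) * a⁻¹ * (b * a * b⁻¹)⁻¹ ∈ H :=
      mul_mem (mul_mem (mul_mem haH (mul_mem (mul_mem hbH haH) (inv_mem hbH))) (inv_mem haH))
        (inv_mem (mul_mem (mul_mem hbH haH) (inv_mem hbH)))
    rw [key, show u⁻¹ = W m tu uu vu from hui] at hcH
    have c1 := hconj h 1 0 0
    have c2 := hconj h tu uu vu
    rw [hh] at c1 c2
    change a * W m (1 : K) 0 0 * a⁻¹ = W m _ _ _ at c1
    change a * W m tu uu vu * a⁻¹ = W m _ _ _ at c2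
    rw [c1, c2, W_mul θ hθ hK] at hcH
    have c3 : ∀ t u v : K, (h' : GL chevG2.Idx K) * W m t u v * (h' : GL chevG2.Idx K)⁻¹ = W m _ _ _ :=
      fun t u v => hconj h' t u v
    rw [c3, W_mul θ hθ hK, W_mul θ hθ hK] at hcH
    refine ⟨_, _, _, ?_, hcH⟩
    subst htu
    rw [show z * 1 + (φ h' : K) * (z * -1 + 1) + -1 = (z - 1) * (1 - (φ h' : K)) by ring]
    exact mul_ne_zero (sub_ne_zero.2 fun e => hg0 1 one_pos (by omega) (by rw [pow_one]; exact e))
      (sub_ne_zero.2 (Ne.symm hz'))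
  have hT : ∀ t : K, ∃ u v : K, W m t u v ∈ H := by
    intro t
    by_cases ht : t = 0
    · subst ht
      refine ⟨0, 0, ?_⟩
      rw [W, G2.reeWord_zero (by positivity)]
      exact one_mem _
    · obtain ⟨k, hk⟩ := hpow (t * t0⁻¹) (mul_ne_zero ht (inv_ne_zero ht0))
      have := hscale k _ _ _ hW0
      rw [hk, inv_mul_cancel_right₀ ht0] at this
      exact ⟨_, _, this⟩
  -- the second layer
  obtain ⟨u1, hu1, hU1⟩ : ∃ u : K, u ≠ 0 ∧ ∃ v, W m 0 u v ∈ H := by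
    obtain ⟨ua, va, hA⟩ := hT 1
    obtain ⟨ub, vb, hB⟩ := hT z
    have hC := mul_mem (mul_mem hA hB) (inv_mem (mul_mem hB hA))
    obtain ⟨tc, uc, vc, hce⟩ := (G2.mem_unip_iff θ hθ hK _).1 (mul_mem (mul_mem (W_mem θ hθ hK 1 ua va)
      (W_mem θ hθ hK z ub vb)) (inv_mem (mul_mem (W_mem θ hθ hK z ub vb) (W_mem θ hθ hK 1 ua va))))
    rw [hce] at hC
    have he : W m tc uc vc * (W m z ub vb * W m 1 ua va) = W m 1 ua va * W m z ub vb := by
      rw [show W m tc uc vc = _ from hce.symm]; group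
    rw [W_mul θ hθ hK, W_mul θ hθ hK, W_mul θ hθ hK] at he
    obtain ⟨et, eu, -⟩ := G2.reeWord_inj he
    have tc0 : tc = 0 := by linear_combination et
    subst tc0
    refine ⟨uc, ?_, vc, hC⟩
    intro uc0
    subst uc0
    have e2 : z = (z ^ 3 ^ m) ^ 3 := by
      simp only [one_pow, mul_zero, sub_zero, one_mul, mul_one, zero_add] at eu
      linear_combination -eu
    rw [← pow_mul] at e2
    refine hg0 (3 ^ m * 3 - 1) (by omega) (by omega) ?_
    have h5 : z ^ (3 ^ m * 3 - 1) * z = 1 * z := by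
      rw [← pow_succ, Nat.sub_add_cancel (by omega), one_mul, ← e2]
    exact mul_right_cancel₀ g.ne_zero h5
  have hUadd : ∀ u u' : K, (∃ v, W m 0 u v ∈ H) → (∃ v, W m 0 u' v ∈ H) → ∃ v, W m 0 (u + u') v ∈ H := by
    rintro u u' ⟨v, hv⟩ ⟨v', hv'⟩
    have := mul_mem hv hv'
    rw [W_mul θ hθ hK] at this
    simp only [add_zero, mul_zero, sub_zero] at this
    exact ⟨_, this⟩
  have hzero : W m (0 : K) 0 0 = 1 := G2.reeWord_zero (by positivity)
  have hU : ∀ u : K, ∃ v, W m 0 u v ∈ H := by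
    have hsq : ∀ x : K, ∃ v, W m 0 (x ^ 2 * u1) v ∈ H := by
      intro x
      by_cases hx : x = 0
      · subst hx
        exact ⟨0, by rw [zero_pow two_ne_zero, zero_mul, hzero]; exact one_mem _⟩
      obtain ⟨k, hk⟩ := hpow (x ^ (3 * 3 ^ m - 1)) (pow_ne_zero _ hx)
      obtain ⟨v, hv⟩ := hU1
      have := hscale k _ _ _ hv
      rw [mul_zero, hk] at this
      have e : (x ^ (3 * 3 ^ m - 1)) ^ (3 * 3 ^ m + 1) = x ^ 2 := by
        obtain ⟨c, hc⟩ : ∃ c, (3 * 3 ^ m - 1) * (3 * 3 ^ m + 1) = (Fintype.card K - 1) * c + 2 := by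
          refine ⟨3, ?_⟩
          rw [hq]
          obtain ⟨e, he⟩ : ∃ e, 3 ^ m = e + 1 := ⟨3 ^ m - 1, by omega⟩
          rw [he, show 3 * (e + 1) - 1 = 3 * e + 2 by omega,
            show 3 * ((e + 1) * (e + 1)) - 1 = 3 * e * e + 6 * e + 2 by
              rw [show 3 * ((e + 1) * (e + 1)) = 3 * e * e + 6 * e + 3 by ring]; omega]
          ring
        rw [← pow_mul, hc, pow_add, pow_mul, FiniteField.pow_card_sub_one_eq_one x hx, one_pow, one_mul]
      rw [e] at this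
      exact ⟨_, this⟩
    intro u
    obtain ⟨x, y, hxy⟩ : ∃ x y : K, x ^ 2 + y ^ 2 = u * u1⁻¹ := by
      obtain ⟨a, b, hab⟩ := FiniteField.exists_root_sum_quadratic (f := (Polynomial.X ^ 2 : Polynomial K))
        (g := (Polynomial.X ^ 2 - Polynomial.C (u * u1⁻¹) : Polynomial K)) (Polynomial.degree_X_pow 2)
        (Polynomial.degree_X_pow_sub_C (by norm_num) _)
        (Nat.odd_iff.1 (hK ▸ Odd.pow (by decide : Odd 3)))
      refine ⟨a, b, ?_⟩
      simp at hab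
      linear_combination hab
    have := hUadd _ _ (hsq x) (hsq y)
    rwa [← add_mul, hxy, inv_mul_cancel_right₀ hu1] at this
  -- the centre
  have hv1 : W m (0 : K) 0 (-1) ∈ H := by
    obtain ⟨ua, va, hA⟩ := hT 1
    have h3 := pow_mem hA 3
    obtain ⟨T, U, V, e⟩ := (G2.mem_unip_iff θ hθ hK _).1 (pow_mem (W_mem θ hθ hK 1 ua va) 3)
    rw [e] at h3
    simp only [W, G2.reeWord_eq_six, G2.six_cube] at e
    obtain ⟨-, rfl, -, -, rfl, rfl⟩ := G2.six_inj e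
    simpa [W] using h3
  have hV : ∀ v : K, W m 0 0 v ∈ H := by
    intro v
    by_cases hv : v = 0
    · rw [hv, hzero]; exact one_mem _
    have hv' : -v ≠ 0 := neg_ne_zero.2 hv
    obtain ⟨k, hk⟩ := hpow (((-v) ^ (3 * 3 ^ m - 2))⁻¹) (inv_ne_zero (pow_ne_zero _ hv'))
    have := hscale k _ _ _ hv1
    rw [mul_zero, mul_zero, hk] at this
    have e : (((-v) ^ (3 * 3 ^ m - 2))⁻¹) ^ (3 * 3 ^ m + 2) = -v := by
      obtain ⟨c, hc⟩ : ∃ c, (3 * 3 ^ m - 2) * (3 * 3 ^ m + 2) + 1 = (Fintype.card K - 1) * c := by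
        refine ⟨3, ?_⟩
        rw [hq]
        obtain ⟨e, he⟩ : ∃ e, 3 ^ m = e + 1 := ⟨3 ^ m - 1, by omega⟩
        rw [he, show 3 * (e + 1) - 2 = 3 * e + 1 by omega,
          show 3 * ((e + 1) * (e + 1)) - 1 = 3 * e * e + 6 * e + 2 by
            rw [show 3 * ((e + 1) * (e + 1)) = 3 * e * e + 6 * e + 3 by ring]; omega]
        ring
      have h1 : (-v) ^ ((3 * 3 ^ m - 2) * (3 * 3 ^ m + 2) + 1) = 1 := by
        rw [hc, pow_mul, FiniteField.pow_card_sub_one_eq_one _ hv', one_pow]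
      rw [pow_succ, pow_mul] at h1
      rw [inv_pow]
      exact inv_eq_of_mul_eq_one_right h1
    rwa [e, neg_mul_neg, mul_one] at this
  have hWall : ∀ t u v : K, W m t u v ∈ H := by
    intro t u v
    obtain ⟨ua, va, hA⟩ := hT t
    obtain ⟨vb, hB⟩ := hU (u - ua)
    have h1 := mul_mem hA hB
    rw [W_mul θ hθ hK] at h1
    simp only [zero_pow (pow_ne_zero _ (by norm_num : (3 : ℕ) ≠ 0)), zero_pow (by norm_num : (3 : ℕ) ≠ 0),
      zero_mul, add_zero, add_sub_cancel, sub_zero, neg_zero, zero_add] at h1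
    have h2 := mul_mem h1 (hV (v - (va + vb)))
    rw [W_mul θ hθ hK] at h2
    simpa [zero_pow (pow_ne_zero _ (by norm_num : (3 : ℕ) ≠ 0))] using h2
  have hU' : ∀ x ∈ chevG2.posUnipotent K ⊓ (G2.reeTwist θ).fixed, x ∈ H := by
    intro x hx
    obtain ⟨t, u, v, rfl⟩ := (G2.mem_unip_iff θ hθ hK x).1 hx
    exact hWall t u v
  have hTor : ∀ x ∈ chevG2.diagonalSubgroup K ⊓ (G2.reeTwist θ).fixed, x ∈ H := by
    intro x hx
    obtain ⟨k, hk⟩ := (Submonoid.mem_powers_iff _ _).1 (mem_powers_iff_mem_zpowers.2 (hgen (φ ⟨x, hx⟩)))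
    rw [← hh, ← map_pow] at hk
    have := congrArg Subtype.val (hφ.1 hk)
    rw [SubmonoidClass.coe_pow] at this
    rw [show x = a ^ k from this.symm]
    exact pow_mem haH k
  have hB : ∀ x ∈ chevG2.borelSubgroup K, x ∈ (G2.reeTwist θ).fixed → x ∈ H := by
    intro x hx hxf
    obtain ⟨u, hu, huf, d, hd, hdf, rfl⟩ := (G2.reeTwist θ).fixed_borel hx hxf
    exact mul_mem (hU' u (Subgroup.mem_inf.2 ⟨hu, huf⟩)) (hTor d (Subgroup.mem_inf.2 ⟨hd, hdf⟩))
  have hwH : G2.wZero K ∈ H := (H.mul_mem_cancel_left (hWall 1 0 0)).1 hbH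
  rw [hfix]
  intro x hx
  rcases G2.cells θ hθ hK hx with hx' | ⟨v, hv, c, hc, rfl⟩
  · exact hB x hx' hx
  · obtain ⟨hc1, hc2⟩ := Subgroup.mem_inf.1 hc
    exact mul_mem (mul_mem (hU' v hv) hwH) (hB c hc1 hc2)

end Cfsg.Agent.S2409

namespace Cfsg.Agent.S2409

/-- The small Ree group ²G₂(3^(2m+1)) with `m ≥ 1` is generated by two of its elements. -/
theorem result {K : Type*} [Field K] [Fintype K] {m : ℕ} (hm : 1 ≤ m) (hK : Fintype.card K = 3 ^ (2 * m + 1)) :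
    ∃ a b : ↥(Cfsg.Lie.twistedG2 K (3 ^ m)), Subgroup.closure ({a, b} : Set ↥(Cfsg.Lie.twistedG2 K (3 ^ m))) = ⊤ := by
  obtain ⟨hc, θ, hθ⟩ := G2.exists_theta (K := K) (m := m) hK
  haveI := hc
  obtain ⟨a, b, ha, hb, hle⟩ := gen_closure θ hθ hK hm
  refine ⟨⟨a, ha⟩, ⟨b, hb⟩, Subgroup.map_injective (twistedG2 K (3 ^ m)).subtype_injective ?_⟩
  rw [MonoidHom.map_closure, ← MonoidHom.range_eq_map, Subgroup.range_subtype, Set.image_pair]
  exact le_antisymm ((Subgroup.closure_le _).2 (Set.insert_subset ha (Set.singleton_subset_iff.2 hb))) hle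

end Cfsg.Agent.S2409
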