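import Cfsg.Statements.S2413
import Cfsg.Agent.Lib.Classical.QuadOmega.TwoGenStd
import Cfsg.Agent.Lib.BoundedPres.SpTwoGen
import Cfsg.Agent.S0301

set_option autoImplicit false
open Cfsg

namespace Cfsg.Agent.S2413

/-- The simple orthogonal group `PΩ_{2m+1}(q)` (commutator subgroup of the orthogonal group of `x₀² + Σ x_i y_i` modulo its centre) with `m ≥ 2` and `q` odd is generated by two of its elements. -/
theorem result {F : Type*} [Field F] [Fintype F] (hodd : Odd (Fintype.card F)) (m : ℕ) (hm : 2 ≤ m) :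
    ∃ a b : Cfsg.POmega F (Cfsg.quadFormOdd m F), Subgroup.closure ({a, b} : Set (Cfsg.POmega F (Cfsg.quadFormOdd m F))) = ⊤ := by
  rcases Nat.lt_or_ge m 3 with h | h
  · obtain rfl : m = 2 := by omega
    obtain ⟨E⟩ := Cfsg.Agent.S0301.result (F := F) hodd
    obtain ⟨a, b, hab⟩ := Cfsg.Agent.Lib.BoundedPres.Sp.two_gen_psp (F := F) 2 le_rfl fun _ => by
      obtain ⟨k, hk⟩ := hodd
      have := Fintype.one_lt_card (α := F)
      omega
    refine ⟨E.symm a, E.symm b, ?_⟩
    rw [← Set.image_pair, ← MulEquiv.coe_toMonoidHom, ← MonoidHom.map_closure, hab]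
    exact Subgroup.map_top_of_surjective _ E.symm.surjective
  · exact Cfsg.Agent.Lib.Classical.QuadOmega.TwoGen.odd
      (Cfsg.Agent.Lib.Classical.QuadOmega.two_ne_zero_of_odd hodd) h

end Cfsg.Agent.S2413
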