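import Cfsg.Statements.S2416
import Cfsg.Agent.Lib.Chev.MonoGen
import Cfsg.Agent.Lib.Chev.All

set_option autoImplicit false
set_option maxRecDepth 20000
open scoped MatrixGroups
open Cfsg Cfsg.Agent.Lib.Chev

namespace Cfsg.Agent.S2416

/-- A Chevalley group of type G₂, B₂, D₄, F₄, E₆, E₇ or E₈ over a finite field lies in (indeed equals) the subgroup generated by its monomial subgroup `N` and a single fundamental root subgroup `X_p`, where `p` is a short fundamental root if there are two root lengths (any fundamental root otherwise), provided the characteristic is not 2 for types B₂, F₄ and not 3 for type G₂ (and the field has more than two elements for B₂, G₂). -/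
theorem result {K : Type*} [Field K] [Finite K] (D : Cfsg.Lie.ChevalleyDatum) (hD : D ∈ [Cfsg.Lie.chevG2, Cfsg.Lie.chevB2, Cfsg.Lie.chevD4, Cfsg.Lie.chevF4, Cfsg.Lie.chevE6, Cfsg.Lie.chevE7, Cfsg.Lie.chevE8])
    (hK : D ∈ [Cfsg.Lie.chevB2, Cfsg.Lie.chevG2] → ∃ x : K, x ≠ 0 ∧ x ≠ 1)
    (h2 : D ∈ [Cfsg.Lie.chevB2, Cfsg.Lie.chevF4] → ringChar K ≠ 2) (h3 : D = Cfsg.Lie.chevG2 → ringChar K ≠ 3)
    (i : ℕ) (hi : i < D.rank) (hshort : D.isLong (D.simple i) = false) :
    D.group K ≤ D.monomialSubgroup K ⊔ D.rootSubgroup K (D.simple i) := by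
  simp only [List.mem_cons, List.not_mem_nil, or_false] at hD h2
  have hN : D.monomialSubgroup K ≤ D.monomialSubgroup K ⊔ D.rootSubgroup K (D.simple i) := le_sup_left
  have hc2 : ringChar K ≠ 2 → ∀ c : ℤ, c.natAbs = 2 → (c : K) ≠ 0 := by
    intro h c hc
    have := Ring.two_ne_zero h
    rcases Int.natAbs_eq_iff.1 hc with rfl | rfl <;> simpa using this
  have hc3 : ringChar K ≠ 3 → ∀ c : ℤ, c.natAbs = 3 → (c : K) ≠ 0 := by
    intro h c hc
    have h3 : ((3 : ℕ) : K) ≠ 0 := fun e => h ((Nat.prime_three.eq_one_or_self_of_dvd _ ((ringChar.spec K 3).1 e)).resolve_left (CharP.ringChar_ne_one))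
    rcases Int.natAbs_eq_iff.1 hc with rfl | rfl <;> simpa using h3
  rcases hD with rfl | rfl | rfl | rfl | rfl | rfl | rfl
  · have h0 : i = 0 := by
      clear hN
      revert hshort
      revert i
      decide +kernel
    subst h0
    exact G2.checked.group_le_of_comm hN (G2.checked.root.simple_lt _ hi) le_sup_right 16
      (r := 2) (s := 3) (k := 0) (c := 3) (by decide +kernel) (hc3 (h3 rfl) _ rfl)
  · have h0 : i = 0 := by
      clear hN
      revert hshort
      revert i
      decide +kernel
    subst h0
    exact B2.checked.group_le_of_comm hN (B2.checked.root.simple_lt _ hi) le_sup_right 16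
      (r := 1) (s := 2) (k := 0) (c := 2) (by decide +kernel) (hc2 (h2 (by simp)) _ rfl)
  · refine D4.checked.group_le_of_orbits hN 16 [Lie.chevD4.simple i] (fun s hs t => ?_) (fun s hs => ?_) ?_
    · rw [List.mem_singleton] at hs; subst hs
      exact Subgroup.mem_sup_right (D4.checked.xg_mem_rootSubgroup _ t)
    · rw [List.mem_singleton] at hs; subst hs; exact D4.checked.root.simple_lt _ hi
    · clear hshort hN
      revert i
      decide +kernel
  · have h0 : i = 0 ∨ i = 1 := by
      clear hN
      revert hshort
      revert i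
      decide +kernel
    rcases h0 with rfl | rfl <;>
      exact F4.checked.group_le_of_comm hN (F4.checked.root.simple_lt _ hi) le_sup_right 16
        (r := 3) (s := 18) (k := 0) (c := 2) (by decide +kernel) (hc2 (h2 (by simp)) _ rfl)
  · refine E6.checked.group_le_of_orbits hN 16 [Lie.chevE6.simple i] (fun s hs t => ?_) (fun s hs => ?_) ?_
    · rw [List.mem_singleton] at hs; subst hs
      exact Subgroup.mem_sup_right (E6.checked.xg_mem_rootSubgroup _ t)
    · rw [List.mem_singleton] at hs; subst hs; exact E6.checked.root.simple_lt _ hi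
    · clear hshort hN
      revert i
      decide +kernel
  · refine E7.checked.group_le_of_orbits hN 20 [Lie.chevE7.simple i] (fun s hs t => ?_) (fun s hs => ?_) ?_
    · rw [List.mem_singleton] at hs; subst hs
      exact Subgroup.mem_sup_right (E7.checked.xg_mem_rootSubgroup _ t)
    · rw [List.mem_singleton] at hs; subst hs; exact E7.checked.root.simple_lt _ hi
    · clear hshort hN
      revert i
      decide +kernel
  · refine E8.checked.group_le_of_orbits hN 32 [Lie.chevE8.simple i] (fun s hs t => ?_) (fun s hs => ?_) ?_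
    · rw [List.mem_singleton] at hs; subst hs
      exact Subgroup.mem_sup_right (E8.checked.xg_mem_rootSubgroup _ t)
    · rw [List.mem_singleton] at hs; subst hs; exact E8.checked.root.simple_lt _ hi
    · clear hshort hN
      revert i
      decide +kernel

end Cfsg.Agent.S2416
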