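import Cfsg.Statements.S2417
import Cfsg.Agent.Lib.Chev.MonoGen
import Cfsg.Agent.Lib.Chev.All

set_option autoImplicit false
set_option maxRecDepth 20000
open scoped MatrixGroups
open Cfsg Cfsg.Agent.Lib.Chev

namespace Cfsg.Agent.S2417

/-- In the characteristics with an exceptional graph symmetry — type B₂ or F₄ in characteristic 2 (field of more than two elements for B₂) and type G₂ in characteristic 3 — the Chevalley group lies in the subgroup generated by its monomial subgroup `N` and the two fundamental root subgroups `X_a`, `X_b` of a short root `a` and a long root `b` joined in the Dynkin diagram. -/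
theorem result {K : Type*} [Field K] [Finite K] (e : Cfsg.Lie.ChevalleyDatum × ℕ)
    (he : e ∈ [(Cfsg.Lie.chevB2, 2), (Cfsg.Lie.chevF4, 2), (Cfsg.Lie.chevG2, 3)]) [CharP K e.2]
    (hK : e.1 = Cfsg.Lie.chevB2 → ∃ x : K, x ≠ 0 ∧ x ≠ 1)
    (i j : ℕ) (hi : i < e.1.rank) (hj : j < e.1.rank) (hshort : e.1.isLong (e.1.simple i) = false)
    (hlong : e.1.isLong (e.1.simple j) = true) (hbond : e.1.bonds i j ≠ 0) :
    e.1.group K ≤ e.1.monomialSubgroup K ⊔ e.1.rootSubgroup K (e.1.simple i) ⊔ e.1.rootSubgroup K (e.1.simple j) := by
  simp only [List.mem_cons, List.not_mem_nil, or_false] at he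
  rcases he with rfl | rfl | rfl
  · refine B2.checked.group_le_of_orbits (le_sup_left.trans le_sup_left) 16
      [Lie.chevB2.simple i, Lie.chevB2.simple j] (fun s hs t => ?_) (fun s hs => ?_) ?_
    · simp only [List.mem_cons, List.not_mem_nil, or_false] at hs
      rcases hs with rfl | rfl
      · exact Subgroup.mem_sup_left (Subgroup.mem_sup_right (B2.checked.xg_mem_rootSubgroup _ t))
      · exact Subgroup.mem_sup_right (B2.checked.xg_mem_rootSubgroup _ t)
    · simp only [List.mem_cons, List.not_mem_nil, or_false] at hs
      rcases hs with rfl | rfl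
      exacts [B2.checked.root.simple_lt _ hi, B2.checked.root.simple_lt _ hj]
    · have key : ∀ a < Lie.chevB2.rank, ∀ b < Lie.chevB2.rank, Lie.chevB2.isLong (Lie.chevB2.simple a) = false →
          Lie.chevB2.isLong (Lie.chevB2.simple b) = true →
          B2.fast.orbitCheck 16 [Lie.chevB2.simple a, Lie.chevB2.simple b] (List.range Lie.chevB2.nroots) = true := by
        decide +kernel
      exact key i hi j hj hshort hlong
  · refine F4.checked.group_le_of_orbits (le_sup_left.trans le_sup_left) 16
      [Lie.chevF4.simple i, Lie.chevF4.simple j] (fun s hs t => ?_) (fun s hs => ?_) ?_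
    · simp only [List.mem_cons, List.not_mem_nil, or_false] at hs
      rcases hs with rfl | rfl
      · exact Subgroup.mem_sup_left (Subgroup.mem_sup_right (F4.checked.xg_mem_rootSubgroup _ t))
      · exact Subgroup.mem_sup_right (F4.checked.xg_mem_rootSubgroup _ t)
    · simp only [List.mem_cons, List.not_mem_nil, or_false] at hs
      rcases hs with rfl | rfl
      exacts [F4.checked.root.simple_lt _ hi, F4.checked.root.simple_lt _ hj]
    · have key : ∀ a < Lie.chevF4.rank, ∀ b < Lie.chevF4.rank, Lie.chevF4.isLong (Lie.chevF4.simple a) = false →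
          Lie.chevF4.isLong (Lie.chevF4.simple b) = true →
          F4.fast.orbitCheck 16 [Lie.chevF4.simple a, Lie.chevF4.simple b] (List.range Lie.chevF4.nroots) = true := by
        decide +kernel
      exact key i hi j hj hshort hlong
  · refine G2.checked.group_le_of_orbits (le_sup_left.trans le_sup_left) 16
      [Lie.chevG2.simple i, Lie.chevG2.simple j] (fun s hs t => ?_) (fun s hs => ?_) ?_
    · simp only [List.mem_cons, List.not_mem_nil, or_false] at hs
      rcases hs with rfl | rfl
      · exact Subgroup.mem_sup_left (Subgroup.mem_sup_right (G2.checked.xg_mem_rootSubgroup _ t))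
      · exact Subgroup.mem_sup_right (G2.checked.xg_mem_rootSubgroup _ t)
    · simp only [List.mem_cons, List.not_mem_nil, or_false] at hs
      rcases hs with rfl | rfl
      exacts [G2.checked.root.simple_lt _ hi, G2.checked.root.simple_lt _ hj]
    · have key : ∀ a < Lie.chevG2.rank, ∀ b < Lie.chevG2.rank, Lie.chevG2.isLong (Lie.chevG2.simple a) = false →
          Lie.chevG2.isLong (Lie.chevG2.simple b) = true →
          G2.fast.orbitCheck 16 [Lie.chevG2.simple a, Lie.chevG2.simple b] (List.range Lie.chevG2.nroots) = true := by
        decide +kernel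
      exact key i hi j hj hshort hlong

end Cfsg.Agent.S2417
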