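import Cfsg.Statements.S2418
import Cfsg.Agent.Lib.Chev.CoxWord
import Cfsg.Agent.Lib.Chev.CoxeterTables

set_option autoImplicit false
open Cfsg Cfsg.Agent.Lib.Chev
set_option maxRecDepth 4000

namespace Cfsg.Agent.S2418

/-- For the Coxeter groups of types B₂, G₂, D₄, F₄, E₇, E₈ the centre has order 2 (the element acting as −1 on the root system) and is generated by a power of the Coxeter element `s₁ s₂ ⋯ s_l`; the Coxeter group of type E₆ has trivial centre. -/
theorem result (c : (Σ n : ℕ, CoxeterMatrix (Fin n)) × ℕ)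
    (hc : c ∈ [(⟨2, CoxeterMatrix.B 2⟩, 2), (⟨2, CoxeterMatrix.G₂⟩, 2), (⟨4, Cfsg.Lie.coxeterD4⟩, 2), (⟨4, CoxeterMatrix.F₄⟩, 2),
      (⟨6, CoxeterMatrix.E₆⟩, 1), (⟨7, CoxeterMatrix.E₇⟩, 2), (⟨8, CoxeterMatrix.E₈⟩, 2)]) :
    Nat.card (Subgroup.center c.1.2.Group) = c.2 ∧
      Subgroup.center c.1.2.Group ≤ Subgroup.zpowers ((List.finRange c.1.1).map c.1.2.simple).prod := by
  simp only [List.mem_cons, List.not_mem_nil, or_false] at hc
  rcases hc with rfl | rfl | rfl | rfl | rfl | rfl | rfl
  · exact B2.checked.center_two (CoxeterMatrix.B 2) cox_B2 rfl (by decide +kernel) (by decide +kernel) 2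
      (by decide +kernel) (by decide +kernel)
  · exact G2.checked.center_two (CoxeterMatrix.G₂) cox_G2 rfl (by decide +kernel) (by decide +kernel) 3
      (by decide +kernel) (by decide +kernel)
  · exact D4.checked.center_two (Cfsg.Lie.coxeterD4) cox_D4 rfl (by decide +kernel) (by decide +kernel) 3
      (by decide +kernel) (by decide +kernel)
  · exact F4.checked.center_two (CoxeterMatrix.F₄) cox_F4 rfl (by decide +kernel) (by decide +kernel) 6
      (by decide +kernel) (by decide +kernel)
  · have h := E6.checked.center_one (CoxeterMatrix.E₆) cox_E6 rfl (by decide +kernel) (by decide +kernel)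
      [0, 1, 2, 0, 3, 1, 2, 0, 3, 2, 4, 3, 1, 2, 0, 3, 2, 4, 3, 1, 5, 4, 3, 1, 2, 0, 3, 2, 4, 3, 1, 5, 4, 3, 2, 0] (by decide +kernel) (by decide +kernel)
    refine ⟨h, ?_⟩
    rw [Subgroup.eq_bot_of_card_eq _ h]
    exact bot_le
  · exact E7.checked.center_two (CoxeterMatrix.E₇) cox_E7 rfl (by decide +kernel) (by decide +kernel) 9
      (by decide +kernel) (by decide +kernel)
  · exact E8.checked.center_two (CoxeterMatrix.E₈) cox_E8 rfl (by decide +kernel) (by decide +kernel) 15
      (by decide +kernel) (by decide +kernel)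

end Cfsg.Agent.S2418
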