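import Cfsg.Statements.S2419
import Cfsg.Agent.Lib.Chev.CoxWord
import Cfsg.Agent.Lib.Chev.CoxeterTables

set_option autoImplicit false
open Cfsg Cfsg.Agent.Lib.Chev
set_option maxRecDepth 8000

namespace Cfsg.Agent.S2419

/-- the Coxeter element, its inverse and the reflections -/
abbrev S_B2 : List (List (Fin 2)) := [[0, 1], [1, 0], [0]]

/-- words for the simple reflections -/
def ws_B2 : Fin 2 → List (Fin 3) := ![[2], [2, 0]]

/-- the Coxeter element, its inverse and the reflections -/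
abbrev S_G2 : List (List (Fin 2)) := [[0, 1], [1, 0], [0]]

/-- words for the simple reflections -/
def ws_G2 : Fin 2 → List (Fin 3) := ![[2], [2, 0]]

/-- the Coxeter element, its inverse and the reflections -/
abbrev S_D4 : List (List (Fin 4)) := [[0, 1, 2, 3], [3, 2, 1, 0], [0], [2]]

/-- words for the simple reflections -/
def ws_D4 : Fin 4 → List (Fin 4) := ![[2], [0, 2, 1], [3], [0, 2, 1, 1, 3, 0, 0, 2, 1]]

/-- the Coxeter element, its inverse and the reflections -/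
abbrev S_F4 : List (List (Fin 4)) := [[0, 1, 2, 3], [3, 2, 1, 0], [0], [2]]

/-- words for the simple reflections -/
def ws_F4 : Fin 4 → List (Fin 4) := ![[2], [0, 2, 1], [3], [0, 3, 1]]

/-- the Coxeter element, its inverse and the reflections -/
abbrev S_E6 : List (List (Fin 6)) := [[0, 1, 2, 3, 4, 5], [5, 4, 3, 2, 1, 0], [0]]

/-- words for the simple reflections -/
def ws_E6 : Fin 6 → List (Fin 3) := ![[2], [1, 2, 0, 1, 1, 1, 1, 2, 0, 0, 0, 0, 1, 2, 0], [0, 2, 1], [0, 0, 0, 0, 0, 2, 1, 1, 1, 1, 1], [0, 0, 0, 0, 0, 0, 2, 1, 1, 1, 1, 1, 1], [1, 1, 1, 1, 1, 2, 0, 0, 0, 0, 0]]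

/-- the Coxeter element, its inverse and the reflections -/
abbrev S_E7 : List (List (Fin 7)) := [[0, 1, 2, 3, 4, 5, 6], [6, 5, 4, 3, 2, 1, 0], [1]]

/-- words for the simple reflections -/
def ws_E7 : Fin 7 → List (Fin 3) := ![[0, 0, 0, 2, 1, 1, 1, 1, 1, 1, 1, 2, 0, 0, 0, 0, 0, 0, 0, 2, 1, 1, 1], [2], [0, 0, 0, 0, 2, 1, 1, 1, 1, 1, 1, 1, 2, 0, 0, 0, 0, 0, 0, 0, 2, 1, 1, 1, 1], [2, 0, 0, 0, 0, 0, 2, 1, 1, 1, 1, 1, 1, 1, 2, 0, 0, 0, 0, 0, 0, 0, 2, 1, 1, 1, 1, 1, 2], [0, 2, 0, 0, 0, 0, 0, 2, 1, 1, 1, 1, 1, 1, 1, 2, 0, 0, 0, 0, 0, 0, 0, 2, 1, 1, 1, 1, 1, 2, 1], [0, 0, 2, 0, 0, 0, 0, 0, 2, 1, 1, 1, 1, 1, 1, 1, 2, 0, 0, 0, 0, 0, 0, 0, 2, 1, 1, 1, 1, 1, 2, 1, 1], [0, 0, 0, 2, 0, 0, 0, 0, 0, 2, 1, 1, 1, 1, 1, 1, 1, 2, 0, 0, 0, 0, 0, 0, 0, 2, 1, 1, 1, 1, 1, 2, 1, 1, 1]]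

/-- the Coxeter element, its inverse and the reflections -/
abbrev S_E8 : List (List (Fin 8)) := [[0, 1, 2, 3, 4, 5, 6, 7], [7, 6, 5, 4, 3, 2, 1, 0], [0]]

/-- words for the simple reflections -/
def ws_E8 : Fin 8 → List (Fin 3) := ![[2], [1, 1, 1, 2, 0, 0, 0, 0, 0, 0, 0, 2, 1, 1, 1, 1, 1, 1, 1, 2, 0, 0, 0], [0, 2, 1], [0, 0, 2, 1, 1, 1, 1, 1, 2, 0, 0, 0, 0, 0, 0, 0, 2, 1, 1, 1, 1, 1, 1, 1, 2, 0, 0, 0, 0, 0, 2, 1, 1], [0, 0, 0, 2, 1, 1, 1, 1, 1, 2, 0, 0, 0, 0, 0, 0, 0, 2, 1, 1, 1, 1, 1, 1, 1, 2, 0, 0, 0, 0, 0, 2, 1, 1, 1], [0, 0, 0, 0, 2, 1, 1, 1, 1, 1, 2, 0, 0, 0, 0, 0, 0, 0, 2, 1, 1, 1, 1, 1, 1, 1, 2, 0, 0, 0, 0, 0, 2, 1, 1, 1, 1], [0, 0, 0, 0, 0, 2, 1, 1, 1, 1, 1, 2, 0, 0, 0, 0, 0, 0, 0, 2, 1, 1, 1, 1, 1, 1, 1, 2, 0, 0, 0, 0, 0, 2, 1, 1, 1, 1, 1], [0, 0, 0, 0, 0, 0, 2, 1, 1, 1, 1, 1, 2, 0, 0, 0, 0, 0, 0, 0, 2, 1, 1, 1, 1, 1, 1, 1, 2, 0, 0, 0, 0, 0, 2, 1, 1, 1, 1, 1, 1]]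

theorem coxElt_inv {n : ℕ} (M : CoxeterMatrix (Fin n)) (A : List (Fin n)) :
    (A.reverse.map M.simple).prod = ((A.map M.simple).prod)⁻¹ := by
  have := M.toCoxeterSystem.wordProd_reverse A
  simpa [CoxeterSystem.wordProd] using this

theorem refl_word {n : ℕ} (M : CoxeterMatrix (Fin n)) (p : List (Fin n)) (i : Fin n) :
    ((p ++ [i] ++ p.reverse).map M.simple).prod = (p.map M.simple).prod * M.simple i * ((p.map M.simple).prod)⁻¹ := by
  rw [List.map_append, List.map_append, List.prod_append, List.prod_append, coxElt_inv]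
  simp

theorem case_one {D : Lie.ChevalleyDatum} (T : Fast) (C : Checked D T) {n : ℕ} (M : CoxeterMatrix (Fin n))
    (hc : T.coxCheck (matNat M) = true) (hn : n = D.rank) (p : List (Fin n)) (i : Fin n)
    (S : List (List (Fin n))) (ws : Fin n → List (Fin S.length))
    (h : ∀ k, T.eqWord (((ws k).map S.get).flatten.map Fin.val) [k.1] = true)
    (hS : S = [List.finRange n, (List.finRange n).reverse, p ++ [i] ++ p.reverse]) :
    ∃ T' : Finset M.Group, T'.card = 1 ∧ (∀ t ∈ T', ∃ (g : M.Group) (i : Fin n), t = g * M.simple i * g⁻¹) ∧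
      Subgroup.closure (({((List.finRange n).map M.simple).prod} : Set M.Group) ∪ ↑T') = ⊤ := by
  refine ⟨{((p ++ [i] ++ p.reverse).map M.simple).prod}, Finset.card_singleton _, fun t ht => ?_, ?_⟩
  · rw [Finset.mem_singleton] at ht
    exact ⟨_, i, ht.trans (refl_word M p i)⟩
  · refine C.closure_eq_top M hc hn S ws h _ fun x hx => ?_
    rw [hS] at hx
    simp only [List.mem_cons, List.not_mem_nil, or_false] at hx
    rcases hx with rfl | rfl | rfl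
    · exact Subgroup.subset_closure (Or.inl rfl)
    · rw [coxElt_inv]; exact inv_mem (Subgroup.subset_closure (Or.inl rfl))
    · exact Subgroup.subset_closure (Or.inr (by simp))

theorem case_two {D : Lie.ChevalleyDatum} (T : Fast) (C : Checked D T) {n : ℕ} (M : CoxeterMatrix (Fin n))
    (hc : T.coxCheck (matNat M) = true) (hn : n = D.rank) (p p' : List (Fin n)) (i i' : Fin n)
    (S : List (List (Fin n))) (ws : Fin n → List (Fin S.length))
    (h : ∀ k, T.eqWord (((ws k).map S.get).flatten.map Fin.val) [k.1] = true)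
    (hS : S = [List.finRange n, (List.finRange n).reverse, p ++ [i] ++ p.reverse, p' ++ [i'] ++ p'.reverse])
    (hne : T.eqWord ((p ++ [i] ++ p.reverse).map Fin.val) ((p' ++ [i'] ++ p'.reverse).map Fin.val) = false) :
    ∃ T' : Finset M.Group, T'.card = 2 ∧ (∀ t ∈ T', ∃ (g : M.Group) (i : Fin n), t = g * M.simple i * g⁻¹) ∧
      Subgroup.closure (({((List.finRange n).map M.simple).prod} : Set M.Group) ∪ ↑T') = ⊤ := by
  classical
  refine ⟨{((p ++ [i] ++ p.reverse).map M.simple).prod, ((p' ++ [i'] ++ p'.reverse).map M.simple).prod}, ?_,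
    fun t ht => ?_, ?_⟩
  · refine Finset.card_pair fun he => ?_
    rw [(C.prod_eq_iff M hc hn _ _).1 he] at hne
    exact Bool.noConfusion hne
  · rw [Finset.mem_insert, Finset.mem_singleton] at ht
    rcases ht with ht | ht
    exacts [⟨_, i, ht.trans (refl_word M p i)⟩, ⟨_, i', ht.trans (refl_word M p' i')⟩]
  · refine C.closure_eq_top M hc hn S ws h _ fun x hx => ?_
    rw [hS] at hx
    simp only [List.mem_cons, List.not_mem_nil, or_false] at hx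
    rcases hx with rfl | rfl | rfl | rfl
    · exact Subgroup.subset_closure (Or.inl rfl)
    · rw [coxElt_inv]; exact inv_mem (Subgroup.subset_closure (Or.inl rfl))
    · exact Subgroup.subset_closure (Or.inr (by simp))
    · exact Subgroup.subset_closure (Or.inr (by simp))

/-- The Coxeter groups of types B₂, G₂, E₆, E₇, E₈ are generated by the Coxeter element `s₁ s₂ ⋯ s_l` together with one suitable reflection (a conjugate of a simple reflection); for types D₄ and F₄ the Coxeter element together with two suitable reflections suffices. -/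
theorem result (c : (Σ n : ℕ, CoxeterMatrix (Fin n)) × ℕ)
    (hc : c ∈ [(⟨2, CoxeterMatrix.B 2⟩, 1), (⟨2, CoxeterMatrix.G₂⟩, 1), (⟨4, Cfsg.Lie.coxeterD4⟩, 2), (⟨4, CoxeterMatrix.F₄⟩, 2),
      (⟨6, CoxeterMatrix.E₆⟩, 1), (⟨7, CoxeterMatrix.E₇⟩, 1), (⟨8, CoxeterMatrix.E₈⟩, 1)]) :
    ∃ T : Finset c.1.2.Group, T.card = c.2 ∧ (∀ t ∈ T, ∃ (g : c.1.2.Group) (i : Fin c.1.1), t = g * c.1.2.simple i * g⁻¹) ∧
      Subgroup.closure (({((List.finRange c.1.1).map c.1.2.simple).prod} : Set c.1.2.Group) ∪ ↑T) = ⊤ := by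
  simp only [List.mem_cons, List.not_mem_nil, or_false] at hc
  rcases hc with rfl | rfl | rfl | rfl | rfl | rfl | rfl
  · exact case_one _ B2.checked (CoxeterMatrix.B 2) cox_B2 rfl ([]) (0) S_B2 ws_B2 (by decide +kernel) rfl
  · exact case_one _ G2.checked (CoxeterMatrix.G₂) cox_G2 rfl ([]) (0) S_G2 ws_G2 (by decide +kernel) rfl
  · exact case_two _ D4.checked (Cfsg.Lie.coxeterD4) cox_D4 rfl ([]) ([]) (0) (2) S_D4 ws_D4 (by decide +kernel) rfl (by decide +kernel)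
  · exact case_two _ F4.checked (CoxeterMatrix.F₄) cox_F4 rfl ([]) ([]) (0) (2) S_F4 ws_F4 (by decide +kernel) rfl (by decide +kernel)
  · exact case_one _ E6.checked (CoxeterMatrix.E₆) cox_E6 rfl ([]) (0) S_E6 ws_E6 (by decide +kernel) rfl
  · exact case_one _ E7.checked (CoxeterMatrix.E₇) cox_E7 rfl ([]) (1) S_E7 ws_E7 (by decide +kernel) rfl
  · exact case_one _ E8.checked (CoxeterMatrix.E₈) cox_E8 rfl ([]) (0) S_E8 ws_E8 (by decide +kernel) rfl

end Cfsg.Agent.S2419
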