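import Cfsg.Statements.S2427
import Mathlib

set_option autoImplicit false
open Cfsg

namespace Cfsg.Agent.S2427

set_option maxRecDepth 4000

local notation "G" => Matrix.SpecialLinearGroup (Fin 2) (ZMod 3)

theorem card_G : Fintype.card G = 24 := by decide +kernel

theorem center_iff : ∀ g : G, (∀ h : G, h * g = g * h) ↔ g = 1 ∨ g = -1 := by decide +kernel

theorem comm_pow : ∀ a b : G, (a * b * a⁻¹ * b⁻¹) ^ 4 = 1 := by decide +kernel

theorem pow_comm : ∀ g : G, g ^ 4 = 1 → ∃ a b : G, a * b * a⁻¹ * b⁻¹ = g := by decide +kernel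

theorem outer_gen : ∀ g : G, g ^ 4 ≠ 1 → ∀ x : G, x ^ 4 = 1 →
    ∃ a b : G, x = (g * (a * g⁻¹ * a⁻¹)) * (g * (b * g⁻¹ * b⁻¹)) := by decide +kernel

theorem inner_gen : ∀ g : G, g ^ 4 = 1 → g ≠ 1 → g ≠ -1 → ∀ x : G, x ^ 4 = 1 →
    ∃ a b : G, x = (a * g * a⁻¹) * (b * g * b⁻¹) ∨ x = a * g * a⁻¹ := by decide +kernel

/-- A generator. -/
def qA : G := ⟨!![0, 2; 1, 0], by decide +kernel⟩

/-- Another generator. -/
def qX : G := ⟨!![1, 1; 1, 2], by decide +kernel⟩

/-- The model of the commutator subgroup. -/
def qmap : QuaternionGroup 2 → G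
  | .a i => qA ^ (ZMod.val i)
  | .xa i => qX * qA ^ (ZMod.val i)

theorem qmap_mul : ∀ x y : QuaternionGroup 2, qmap (x * y) = qmap x * qmap y := by decide +kernel

theorem qmap_inj : Function.Injective qmap := by decide +kernel

theorem qmap_pow : ∀ x : QuaternionGroup 2, qmap x ^ 4 = 1 := by decide +kernel

theorem card_pow : (Finset.univ.filter fun g : G => g ^ 4 = 1).card = 8 := by decide +kernel

theorem neg_one_ne : (-1 : G) ≠ 1 := by decide +kernel

theorem concl :
    Nat.card G = 24 ∧
    Nat.card (Subgroup.center G) = 2 ∧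
    Nat.card (commutator G) = 8 ∧
    Nonempty (commutator G ≃* QuaternionGroup 2) ∧
    (∀ P : Sylow 3 G, Subgroup.IsComplement' (commutator G) (P : Subgroup G)) ∧
    ∀ N : Subgroup G, N.Normal → N = ⊥ ∨ N = ⊤ ∨ N = Subgroup.center G ∨ N = commutator G := by
  classical
  have hG : Nat.card G = 24 := by rw [Nat.card_eq_fintype_card, card_G]
  have hz : ∀ g : G, g ∈ Subgroup.center G ↔ g = 1 ∨ g = -1 := fun g => by
    rw [Subgroup.mem_center_iff, center_iff]
  have hD : ∀ g : G, g ∈ commutator G → g ^ 4 = 1 := by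
    have hsub : ∀ g h : G, g ^ 4 = 1 → h ^ 4 = 1 → (g * h) ^ 4 = 1 := by decide +kernel
    intro g hg
    rw [commutator_def, Subgroup.commutator_def] at hg
    induction hg using Subgroup.closure_induction with
    | mem x hx =>
      obtain ⟨a, -, b, -, rfl⟩ := hx
      exact comm_pow a b
    | one => exact one_pow 4
    | mul x y _ _ hx hy => exact hsub x y hx hy
    | inv x _ hx => rw [inv_pow, hx, inv_one]
  have hD' : ∀ g : G, g ^ 4 = 1 → g ∈ commutator G := fun g hg => by
    obtain ⟨a, b, rfl⟩ := pow_comm g hg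
    exact Subgroup.commutator_mem_commutator (Subgroup.mem_top a) (Subgroup.mem_top b)
  have hiff : ∀ g : G, g ∈ commutator G ↔ g ^ 4 = 1 := fun g => ⟨hD g, hD' g⟩
  have hC : Nat.card (commutator G) = 8 := by
    rw [Nat.card_eq_fintype_card, Fintype.card_subtype, ← card_pow]
    exact congrArg Finset.card (Finset.filter_congr fun g _ => hiff g)
  refine ⟨hG, ?_, hC, ?_, ?_, ?_⟩
  · rw [show Nat.card (Subgroup.center G) = Nat.card ({1, -1} : Finset G) from
      Nat.card_congr (Equiv.subtypeEquivRight fun g => by simp [hz])]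
    rw [Nat.card_eq_fintype_card, Fintype.card_coe, Finset.card_pair neg_one_ne.symm]
  · let φ : QuaternionGroup 2 →* commutator G :=
      MonoidHom.mk' (fun x => ⟨qmap x, hD' _ (qmap_pow x)⟩) fun x y => Subtype.ext (qmap_mul x y)
    have hb : Function.Bijective φ := (Nat.bijective_iff_injective_and_card φ).2
      ⟨fun x y h => qmap_inj (congrArg Subtype.val h), by rw [hC, Nat.card_eq_fintype_card, QuaternionGroup.card]⟩
    exact ⟨(MulEquiv.ofBijective φ hb).symm⟩
  · intro P
    have hP : Nat.card P = 3 := by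
      rw [P.card_eq_multiplicity, hG, show Nat.factorization 24 3 = 1 from ?_, pow_one]
      rw [show (24 : ℕ) = 3 * 8 from rfl, Nat.factorization_mul (by norm_num) (by norm_num), Finsupp.add_apply,
        Nat.Prime.factorization_self Nat.prime_three, Nat.factorization_eq_zero_of_not_dvd (by norm_num)]
    refine Subgroup.isComplement'_of_coprime (by rw [hC, hP, hG]) ?_
    rw [hC, hP]
    decide
  · intro N hN
    have hconj : ∀ g a : G, g ∈ N → a * g * a⁻¹ ∈ N := fun g a hg => hN.conj_mem g hg a
    by_cases hout : ∃ g ∈ N, g ^ 4 ≠ 1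
    · obtain ⟨g, hg, hg4⟩ := hout
      right; left
      have hle : commutator G ≤ N := fun x hx => by
        obtain ⟨a, b, rfl⟩ := outer_gen g hg4 x ((hiff x).1 hx)
        exact mul_mem (mul_mem hg (hconj _ _ (inv_mem hg))) (mul_mem hg (hconj _ _ (inv_mem hg)))
      have hlt : commutator G < N := lt_of_le_of_ne hle fun e => hg4 ((hiff g).1 (e ▸ hg))
      have h1 : 8 < Nat.card N := by
        rw [← hC]
        exact Set.ncard_lt_ncard (s := (commutator G : Set G)) (t := (N : Set G)) hlt (Set.toFinite _)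
      have h2 : 8 ∣ Nat.card N := hC ▸ Subgroup.card_dvd_of_le hle
      have h3 : Nat.card N ∣ 24 := hG ▸ Subgroup.card_subgroup_dvd_card N
      refine Subgroup.eq_top_of_card_eq _ ?_
      rw [hG]
      have h4 := Nat.le_of_dvd (by norm_num) h3
      obtain ⟨c, hc⟩ := h2
      rw [hc] at h1 h3 h4 ⊢
      rcases (show c = 2 ∨ c = 3 by omega) with rfl | rfl
      · norm_num at h3
      · rfl
    · push Not at hout
      by_cases hin : ∃ g ∈ N, g ≠ 1 ∧ g ≠ -1
      · obtain ⟨g, hg, hg1, hg2⟩ := hin
        refine Or.inr (Or.inr (Or.inr (le_antisymm (fun x hx => (hiff x).2 (hout x hx)) fun x hx => ?_)))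
        obtain ⟨a, b, h | h⟩ := inner_gen g (hout g hg) hg1 hg2 x ((hiff x).1 hx)
        · exact h ▸ mul_mem (hconj _ _ hg) (hconj _ _ hg)
        · exact h ▸ hconj _ _ hg
      · push Not at hin
        by_cases hm : (-1 : G) ∈ N
        · refine Or.inr (Or.inr (Or.inl (le_antisymm (fun x hx => (hz x).2 ?_) fun x hx => ?_)))
          · by_contra hc
            push Not at hc
            exact hc.2 (hin x hx hc.1)
          · rcases (hz x).1 hx with rfl | rfl
            · exact one_mem N
            · exact hm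
        · refine Or.inl ((Subgroup.eq_bot_iff_forall _).2 fun x hx => ?_)
          by_contra hne
          exact hm (hin x hx hne ▸ hx)


/-- The group SL₂ over the field with 3 elements has order 24 and centre of order 2; its commutator subgroup has order 8, is isomorphic to the quaternion group of order 8 and is complemented by every Sylow 3-subgroup (so the group is a semidirect product of a quaternion group of order 8 by a cyclic group of order 3); and its only normal subgroups besides the trivial subgroup and the whole group are the centre and the commutator subgroup. -/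
theorem result :
    Nat.card (Matrix.SpecialLinearGroup (Fin 2) (ZMod 3)) = 24 ∧
    Nat.card (Subgroup.center (Matrix.SpecialLinearGroup (Fin 2) (ZMod 3))) = 2 ∧
    Nat.card (commutator (Matrix.SpecialLinearGroup (Fin 2) (ZMod 3))) = 8 ∧
    Nonempty (commutator (Matrix.SpecialLinearGroup (Fin 2) (ZMod 3)) ≃* QuaternionGroup 2) ∧
    (∀ P : Sylow 3 (Matrix.SpecialLinearGroup (Fin 2) (ZMod 3)),
      Subgroup.IsComplement' (commutator (Matrix.SpecialLinearGroup (Fin 2) (ZMod 3)))
        (P : Subgroup (Matrix.SpecialLinearGroup (Fin 2) (ZMod 3)))) ∧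
    ∀ N : Subgroup (Matrix.SpecialLinearGroup (Fin 2) (ZMod 3)), N.Normal →
      N = ⊥ ∨ N = ⊤ ∨ N = Subgroup.center (Matrix.SpecialLinearGroup (Fin 2) (ZMod 3)) ∨
        N = commutator (Matrix.SpecialLinearGroup (Fin 2) (ZMod 3)) := by
  exact concl

end Cfsg.Agent.S2427
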