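import Cfsg.Statements.S2428
import Cfsg.Agent.Lib.TwoChar.Normalizers

set_option autoImplicit false
open Cfsg

namespace Cfsg.Agent.S2428

/-- Let F be a finite field with q elements, q odd, and let d be a diagonal element of SL₂ over F whose diagonal entry a has a² ≠ 1 (such d exist exactly when q > 3). Then the centraliser of d is precisely the diagonal subgroup T; the normaliser of T has order 2(q − 1) and exactly (q + 5)/2 conjugacy classes; and every element of that normaliser outside T has square equal to −1. -/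
theorem result {F : Type*} [Field F] [Fintype F] (hodd : Odd (Fintype.card F))
    (d : Matrix.SpecialLinearGroup (Fin 2) F) (hd01 : (d : Matrix (Fin 2) (Fin 2) F) 0 1 = 0) (hd10 : (d : Matrix (Fin 2) (Fin 2) F) 1 0 = 0) (hda : (d : Matrix (Fin 2) (Fin 2) F) 0 0 ^ 2 ≠ 1) :
    (∀ g : Matrix.SpecialLinearGroup (Fin 2) F, g ∈ Subgroup.centralizer ({d} : Set (Matrix.SpecialLinearGroup (Fin 2) F)) ↔ ((g : Matrix (Fin 2) (Fin 2) F) 0 1 = 0 ∧ (g : Matrix (Fin 2) (Fin 2) F) 1 0 = 0)) ∧
    Nat.card (Subgroup.normalizer ((Subgroup.centralizer ({d} : Set (Matrix.SpecialLinearGroup (Fin 2) F))) : Set (Matrix.SpecialLinearGroup (Fin 2) F))) = 2 * (Fintype.card F - 1) ∧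
    Nat.card (ConjClasses (Subgroup.normalizer ((Subgroup.centralizer ({d} : Set (Matrix.SpecialLinearGroup (Fin 2) F))) : Set (Matrix.SpecialLinearGroup (Fin 2) F)))) = (Fintype.card F + 5) / 2 ∧
    ∀ g : Matrix.SpecialLinearGroup (Fin 2) F, g ∈ Subgroup.normalizer ((Subgroup.centralizer ({d} : Set (Matrix.SpecialLinearGroup (Fin 2) F))) : Set (Matrix.SpecialLinearGroup (Fin 2) F)) →
      g ∉ Subgroup.centralizer ({d} : Set (Matrix.SpecialLinearGroup (Fin 2) F)) → ((g * g) : Matrix (Fin 2) (Fin 2) F) = -1 := by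
  classical
  have h2 := Lib.Two.two_ne_zero_of_odd hodd
  have hdet : (d : Matrix (Fin 2) (Fin 2) F) 0 0 * (d : Matrix (Fin 2) (Fin 2) F) 1 1 = 1 := by
    have := d.2
    rwa [Matrix.det_fin_two, hd01, zero_mul, sub_zero] at this
  have hg : Lib.TwoChar.Reg d := fun h => by
    rw [Matrix.trace_fin_two] at h
    have h' : ((d : Matrix (Fin 2) (Fin 2) F) 0 0 - (d : Matrix (Fin 2) (Fin 2) F) 1 1) ^ 2 = 0 := by
      linear_combination h - 4 * hdet
    have e := sub_eq_zero.mp (pow_eq_zero_iff two_ne_zero |>.mp h')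
    exact hda (by rw [sq]; nth_rewrite 2 [e]; exact hdet)
  obtain ⟨hc, -⟩ := hg.split_torus hodd ⟨(d : Matrix (Fin 2) (Fin 2) F) 0 0, by
    rw [Matrix.trace_fin_two]; linear_combination -hdet⟩
  refine ⟨Lib.TwoChar.centralizer_diag hg hd01 hd10, ?_, ?_, fun g hg1 hg2 => ?_⟩
  · rw [hg.card_normalizer hodd, hc]
  · rw [hg.card_classes_normalizer hodd, hc]
    obtain ⟨r, hr⟩ := hodd
    omega
  · have e := congrArg (fun z : Matrix.SpecialLinearGroup (Fin 2) F => (z : Matrix (Fin 2) (Fin 2) F)) (hg.outside hodd hg1 hg2).2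
    simp only [Matrix.SpecialLinearGroup.coe_mul, Lib.TwoChar.coe_negOne] at e ⊢
    rw [e]
    ext i j
    fin_cases i <;> fin_cases j <;> simp

end Cfsg.Agent.S2428
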