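import Cfsg.Statements.S2429
import Cfsg.Agent.Lib.TwoChar.Normalizers

set_option autoImplicit false
open Cfsg

namespace Cfsg.Agent.S2429

/-- Let F be a finite field with q elements, q odd. Then SL₂ over F contains a cyclic subgroup T′ of order q + 1 (a non-split torus) with the following properties: T′ is its own centraliser, and indeed the centraliser of each element of T′ other than 1 and −1 is exactly T′; every element of SL₂ having no eigenvector in F² is conjugate to an element of T′; the normaliser of T′ has order 2(q + 1) and exactly (q + 7)/2 conjugacy classes; and every element of that normaliser outside T′ has square −1. -/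
theorem result {F : Type*} [Field F] [Fintype F] (hodd : Odd (Fintype.card F)) :
    ∃ T' : Subgroup (Matrix.SpecialLinearGroup (Fin 2) F), IsCyclic T' ∧ Nat.card T' = Fintype.card F + 1 ∧
      Subgroup.centralizer ((T' : Set (Matrix.SpecialLinearGroup (Fin 2) F))) = T' ∧
      (∀ g : Matrix.SpecialLinearGroup (Fin 2) F, g ∈ T' → (g : Matrix (Fin 2) (Fin 2) F) ≠ 1 → (g : Matrix (Fin 2) (Fin 2) F) ≠ -1 → Subgroup.centralizer ({g} : Set (Matrix.SpecialLinearGroup (Fin 2) F)) = T') ∧
      (∀ g : Matrix.SpecialLinearGroup (Fin 2) F, (∀ (c : F) (v : Fin 2 → F), v ≠ 0 → (g : Matrix (Fin 2) (Fin 2) F).mulVec v ≠ c • v) → ∃ h : Matrix.SpecialLinearGroup (Fin 2) F, h * g * h⁻¹ ∈ T') ∧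
      Nat.card (Subgroup.normalizer (T' : Set (Matrix.SpecialLinearGroup (Fin 2) F))) = 2 * (Fintype.card F + 1) ∧
      Nat.card (ConjClasses (Subgroup.normalizer (T' : Set (Matrix.SpecialLinearGroup (Fin 2) F)))) = (Fintype.card F + 7) / 2 ∧
      ∀ g : Matrix.SpecialLinearGroup (Fin 2) F, g ∈ Subgroup.normalizer (T' : Set (Matrix.SpecialLinearGroup (Fin 2) F)) → g ∉ T' → ((g * g) : Matrix (Fin 2) (Fin 2) F) = -1 := by
  classical
  obtain ⟨A, hA, hR, hc⟩ := Lib.TwoChar.exists_torus_succ hodd
  have hAm : A ∈ Lib.TwoChar.torusOf A := Subgroup.mem_centralizer_singleton_iff.mpr rfl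
  refine ⟨Lib.TwoChar.torusOf A, hR.isCyclic hodd, hc,
    (hR.subgroup_torus hodd le_rfl hAm hA.not_mem_center).1, fun g hg h1 h1' => ?_, fun g hg => ?_, ?_, ?_,
    fun g hg1 hg2 => ?_⟩
  · refine (hR.of_mem_centralizer hg fun hz => ?_).2
    rcases Lib.TwoChar.mem_center_cases hz with e | e
    · exact h1 (by rw [e]; rfl)
    · refine h1' ?_
      rw [e, Lib.TwoChar.coe_negOne]
      ext i j
      fin_cases i <;> fin_cases j <;> simp
  · exact Lib.TwoChar.exists_conj_mem hodd ((Lib.TwoChar.noRoot_iff_no_eigen g).2 hg) hA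
  · rw [hR.card_normalizer hodd, hc]
  · rw [hR.card_classes_normalizer hodd, hc]
    obtain ⟨r, hr⟩ := hodd
    omega
  · have e := congrArg (fun z : Matrix.SpecialLinearGroup (Fin 2) F => (z : Matrix (Fin 2) (Fin 2) F)) (hR.outside hodd hg1 hg2).2
    simp only [Matrix.SpecialLinearGroup.coe_mul, Lib.TwoChar.coe_negOne] at e ⊢
    rw [e]
    ext i j
    fin_cases i <;> fin_cases j <;> simp

end Cfsg.Agent.S2429
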