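import Cfsg.Statements.S2433
import Cfsg.Agent.Lib.TwoChar.Principal

set_option autoImplicit false
open Cfsg

namespace Cfsg.Agent.S2433

/-- Let F be a finite field with q elements, q odd, α a multiplicative character of F, and R(α) the function on SL₂ induced from the linear character b ↦ α(b₁₁) of the upper triangular subgroup. Then R(α) takes the value α(a) + α(a⁻¹) at a diagonal element with entries a, a⁻¹, a² ≠ 1; the value 0 at every element with no eigenvector in F²; the value α(ε) at an upper triangular element with both diagonal entries ε and non-zero upper right entry; and the value (q + 1)α(ε) at the scalar element ε (ε = ±1). -/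
theorem result {F : Type*} [Field F] [Fintype F] [DecidableEq F] (hodd : Odd (Fintype.card F)) (α : MulChar F ℂ) (g : Matrix.SpecialLinearGroup (Fin 2) F) :
    ((g : Matrix (Fin 2) (Fin 2) F) 0 1 = 0 → (g : Matrix (Fin 2) (Fin 2) F) 1 0 = 0 → (g : Matrix (Fin 2) (Fin 2) F) 0 0 ^ 2 ≠ 1 →
      (Cfsg.indFun ((Cfsg.upperTriangularGL 2 F).comap Matrix.SpecialLinearGroup.toGL) (fun b => α (((b : Matrix.SpecialLinearGroup (Fin 2) F) : Matrix (Fin 2) (Fin 2) F) 0 0))) g = α ((g : Matrix (Fin 2) (Fin 2) F) 0 0) + α ((g : Matrix (Fin 2) (Fin 2) F) 1 1)) ∧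
    ((∀ (c : F) (v : Fin 2 → F), v ≠ 0 → (g : Matrix (Fin 2) (Fin 2) F).mulVec v ≠ c • v) → (Cfsg.indFun ((Cfsg.upperTriangularGL 2 F).comap Matrix.SpecialLinearGroup.toGL) (fun b => α (((b : Matrix.SpecialLinearGroup (Fin 2) F) : Matrix (Fin 2) (Fin 2) F) 0 0))) g = 0) ∧
    ((g : Matrix (Fin 2) (Fin 2) F) 1 0 = 0 → (g : Matrix (Fin 2) (Fin 2) F) 0 0 = (g : Matrix (Fin 2) (Fin 2) F) 1 1 → (g : Matrix (Fin 2) (Fin 2) F) 0 1 ≠ 0 →
      (Cfsg.indFun ((Cfsg.upperTriangularGL 2 F).comap Matrix.SpecialLinearGroup.toGL) (fun b => α (((b : Matrix.SpecialLinearGroup (Fin 2) F) : Matrix (Fin 2) (Fin 2) F) 0 0))) g = α ((g : Matrix (Fin 2) (Fin 2) F) 0 0)) ∧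
    ((g : Matrix (Fin 2) (Fin 2) F) 0 1 = 0 → (g : Matrix (Fin 2) (Fin 2) F) 1 0 = 0 → (g : Matrix (Fin 2) (Fin 2) F) 0 0 = (g : Matrix (Fin 2) (Fin 2) F) 1 1 →
      (Cfsg.indFun ((Cfsg.upperTriangularGL 2 F).comap Matrix.SpecialLinearGroup.toGL) (fun b => α (((b : Matrix.SpecialLinearGroup (Fin 2) F) : Matrix (Fin 2) (Fin 2) F) 0 0))) g = ((Fintype.card F : ℂ) + 1) * α ((g : Matrix (Fin 2) (Fin 2) F) 0 0)) := by
  classical
  let d := Lib.TwoChar.slDat F
  let l := d.pairHom α 1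
  rw [show (fun b : ((Cfsg.upperTriangularGL 2 F).comap Matrix.SpecialLinearGroup.toGL) =>
    α (((b : Matrix.SpecialLinearGroup (Fin 2) F) : Matrix (Fin 2) (Fin 2) F) 0 0)) = d.pch l from d.pch_pairHom_one α]
  have hl : ∀ t : d.T, (l t : ℂ) = α (t.1.1 : F) := fun t => by
    rw [d.pairHom_apply, MulChar.one_apply_coe, mul_one]
  have hb : ∀ hm : g ∈ d.B, d.I l g = α ((g : Matrix (Fin 2) (Fin 2) F) 0 0) +
      (Nat.card {x : F // ((g : Matrix (Fin 2) (Fin 2) F) 1 1 - (g : Matrix (Fin 2) (Fin 2) F) 0 0) * x =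
        (g : Matrix (Fin 2) (Fin 2) F) 0 1} : ℂ) * α ((g : Matrix (Fin 2) (Fin 2) F) 1 1) := fun hm => by
    rw [d.I_borel l ⟨g, hm⟩, hl, hl]
    rfl
  have hdet : (g : Matrix (Fin 2) (Fin 2) F) 0 0 * (g : Matrix (Fin 2) (Fin 2) F) 1 1 -
      (g : Matrix (Fin 2) (Fin 2) F) 0 1 * (g : Matrix (Fin 2) (Fin 2) F) 1 0 = 1 := by
    rw [← Matrix.det_fin_two]; exact g.2
  refine ⟨fun h01 h10 hne => ?_, fun hv => d.I_eq_zero_of_no_eigen l g hv, fun h10 he h01 => ?_,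
    fun h01 h10 he => ?_⟩
  · refine (hb ((d.mem_B g).2 h10)).trans ?_
    rw [h01, h10, mul_zero, sub_zero] at hdet
    have hne' : (g : Matrix (Fin 2) (Fin 2) F) 1 1 - (g : Matrix (Fin 2) (Fin 2) F) 0 0 ≠ 0 := fun e => hne (by
      rw [sub_eq_zero.mp e] at hdet
      rw [sq, hdet])
    rw [show Nat.card {x : F // ((g : Matrix (Fin 2) (Fin 2) F) 1 1 - (g : Matrix (Fin 2) (Fin 2) F) 0 0) * x =
        (g : Matrix (Fin 2) (Fin 2) F) 0 1} = 1 by
      rw [Nat.card_eq_one_iff_exists]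
      exact ⟨⟨0, by rw [h01, mul_zero]⟩, fun y => Subtype.ext ((mul_eq_zero.mp (y.2.trans h01)).resolve_left hne')⟩]
    rw [Nat.cast_one, one_mul]
  · refine (hb ((d.mem_B g).2 h10)).trans ?_
    have : IsEmpty {x : F // ((g : Matrix (Fin 2) (Fin 2) F) 1 1 - (g : Matrix (Fin 2) (Fin 2) F) 0 0) * x =
        (g : Matrix (Fin 2) (Fin 2) F) 0 1} := ⟨fun y => h01 (y.2.symm.trans (mul_eq_zero_of_left (sub_eq_zero.mpr he.symm) _))⟩
    rw [Nat.card_of_isEmpty, Nat.cast_zero, zero_mul, add_zero]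
  · refine (hb ((d.mem_B g).2 h10)).trans ?_
    rw [Nat.card_congr (Equiv.subtypeUnivEquiv fun x => by rw [he, sub_self, zero_mul, h01]),
      Nat.card_eq_fintype_card, he]
    ring
end Cfsg.Agent.S2433
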