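import Cfsg.Statements.S2434
import Cfsg.Agent.Lib.TwoChar.CuspTable

set_option autoImplicit false
open Cfsg

namespace Cfsg.Agent.S2434

/-- Let F be a finite field with q elements, q odd, and C a cyclic subgroup of order q + 1 of SL₂ over F (a non-split torus; it contains the centre). For every homomorphism θ from C to the non-zero complex numbers with θ² ≠ 1 there is an irreducible complex character χ of degree q − 1 such that χ(c) = −θ(c) − θ(c)⁻¹ for every non-central c in C, χ(zg) = θ(z)χ(g) for central z in C, χ vanishes at diagonal elements with entry a, a² ≠ 1, and χ takes the value −1 at every upper unitriangular element other than 1. Conversely every irreducible character of degree q − 1 has, for some such θ, the values −θ(c) − θ(c)⁻¹ at the non-central elements c of C (for q ≥ 5 these are exactly the cuspidal characters of degree q − 1). -/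
theorem result {F : Type*} [Field F] [Fintype F] (hodd : Odd (Fintype.card F))
    (C : Subgroup (Matrix.SpecialLinearGroup (Fin 2) F)) (hC : IsCyclic C) (hcard : Nat.card C = Fintype.card F + 1) :
    (∀ θ : C →* ℂˣ, (∃ c : C, θ c ^ 2 ≠ 1) →
      ∃ χ : Matrix.SpecialLinearGroup (Fin 2) F → ℂ, Cfsg.IsIrrCharacter (Matrix.SpecialLinearGroup (Fin 2) F) χ ∧ χ 1 = (Fintype.card F : ℂ) - 1 ∧
        (∀ c : C, (c : Matrix.SpecialLinearGroup (Fin 2) F) ∉ Subgroup.center (Matrix.SpecialLinearGroup (Fin 2) F) → χ c = -((θ c).val + (θ c)⁻¹.val)) ∧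
        (∀ c : C, (c : Matrix.SpecialLinearGroup (Fin 2) F) ∈ Subgroup.center (Matrix.SpecialLinearGroup (Fin 2) F) → ∀ g : Matrix.SpecialLinearGroup (Fin 2) F, χ ((c : Matrix.SpecialLinearGroup (Fin 2) F) * g) = (θ c).val * χ g) ∧
        (∀ g : Matrix.SpecialLinearGroup (Fin 2) F, (g : Matrix (Fin 2) (Fin 2) F) 0 1 = 0 → (g : Matrix (Fin 2) (Fin 2) F) 1 0 = 0 → (g : Matrix (Fin 2) (Fin 2) F) 0 0 ^ 2 ≠ 1 → χ g = 0) ∧
        (∀ g : Matrix.SpecialLinearGroup (Fin 2) F, (g : Matrix (Fin 2) (Fin 2) F) 1 0 = 0 → (g : Matrix (Fin 2) (Fin 2) F) 0 0 = 1 → (g : Matrix (Fin 2) (Fin 2) F) 1 1 = 1 → (g : Matrix (Fin 2) (Fin 2) F) 0 1 ≠ 0 → χ g = -1)) ∧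
    (∀ χ : Matrix.SpecialLinearGroup (Fin 2) F → ℂ, Cfsg.IsIrrCharacter (Matrix.SpecialLinearGroup (Fin 2) F) χ → χ 1 = (Fintype.card F : ℂ) - 1 →
      ∃ θ : C →* ℂˣ, (∃ c : C, θ c ^ 2 ≠ 1) ∧
        ∀ c : C, (c : Matrix.SpecialLinearGroup (Fin 2) F) ∉ Subgroup.center (Matrix.SpecialLinearGroup (Fin 2) F) → χ c = -((θ c).val + (θ c)⁻¹.val)) := by
  classical
  haveI := hC
  obtain ⟨ψ, hψ⟩ := Lib.TwoChar.exists_addChar F
  obtain ⟨η, hη⟩ := FiniteField.exists_nonsquare (Lib.TwoChar.ringChar_ne_two hodd)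
  letI : CommGroup C := IsCyclic.commGroup
  have hinv : ∀ (θ : C →* ℂˣ) (c : C), (θ c)⁻¹.val = ((θ c⁻¹ : ℂˣ) : ℂ) := fun θ c => by rw [map_inv]
  refine ⟨fun θ hθ => ?_, fun χ hχ h1 => ?_⟩
  · obtain ⟨l, hl⟩ := Lib.TwoChar.exists_matching hodd C hcard θ
    have hθ' : θ ^ 2 ≠ 1 := fun e => hθ.elim fun c hc => hc (DFunLike.congr_fun e c)
    have hirr := Lib.TwoChar.isIrr_cuspFun hodd C hcard θ hθ' l hl
    refine ⟨Lib.TwoChar.cuspFun C θ l, hirr, Lib.TwoChar.cuspFun_one hodd C hcard θ l, fun c hc => ?_, fun c hc g => ?_,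
      fun g g01 g10 hsq => ?_, fun g g10 g00 g11 g01 => ?_⟩
    · rw [Lib.TwoChar.cuspFun_elliptic hodd C hcard θ l c hc, hinv]
    · rcases Lib.TwoChar.mem_center_cases hc with e | e
      · rw [e, one_mul, show c = 1 from Subtype.ext e, map_one, Units.val_one, one_mul]
      · have h := (Lib.Char.apply_mul_of_norm_eq (Lib.Char.isCharacter_of_isIrr hirr)
          (Lib.Char.norm_char_of_mem_center hirr (Lib.TwoChar.negOne_mem_center F)) g).1
        have hc' : c = ⟨_, Lib.TwoChar.negOne_mem hodd C hcard⟩ := Subtype.ext e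
        rw [Lib.TwoChar.cuspFun_negOne hodd C hcard θ l hl, Lib.TwoChar.cuspFun_one hodd C hcard] at h
        have hne : (Fintype.card F : ℂ) - 1 ≠ 0 := by
          rw [sub_ne_zero, Ne, Nat.cast_eq_one]; have := Fintype.one_lt_card (α := F); omega
        rw [e, hc']
        exact mul_right_cancel₀ hne (h.trans (by ring))
    · have hdet : (g : Matrix (Fin 2) (Fin 2) F) 0 0 * (g : Matrix (Fin 2) (Fin 2) F) 1 1 = 1 := by
        have := g.2
        rw [Matrix.det_fin_two, g01, g10, mul_zero, sub_zero] at this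
        exact this
      let t : (Lib.TwoChar.slDat F).T := ⟨(Units.mk0 _ (left_ne_zero_of_mul_eq_one hdet),
        Units.mk0 _ (right_ne_zero_of_mul_eq_one hdet)),
        by rw [Lib.TwoChar.Dat.mem_T]; exact Subgroup.mem_bot.mpr (Units.ext hdet)⟩
      have hg : g = (Lib.TwoChar.slDat F).tt t := (Lib.TwoChar.slDat F).mat_injective (by
        rw [Lib.TwoChar.Dat.mat_tt]
        ext i j
        fin_cases i <;> fin_cases j <;> first | rfl | exact g01 | exact g10)
      rw [hg]
      refine Lib.TwoChar.cuspFun_tt hodd C hcard θ l fun e => hsq ?_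
      have e' : (g : Matrix (Fin 2) (Fin 2) F) 0 0 = (g : Matrix (Fin 2) (Fin 2) F) 1 1 := congrArg Units.val e
      rw [← e'] at hdet
      rw [sq, hdet]
    · have hg : g = (Lib.TwoChar.slDat F).uu ((g : Matrix (Fin 2) (Fin 2) F) 0 1) :=
        (Lib.TwoChar.slDat F).mat_injective (by
          rw [Lib.TwoChar.Dat.mat_uu]
          ext i j
          fin_cases i <;> fin_cases j <;> first | rfl | exact g10 | exact g00 | exact g11)
      rw [hg]
      exact Lib.TwoChar.cuspFun_uu hodd C hcard θ l g01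
  · by_cases hq : 5 ≤ Fintype.card F
    · obtain ⟨a, b, c⟩ := (Lib.TwoChar.degree_iff_odd hodd hη hψ hq ⟨χ, hχ⟩).2.2.2.1.mp h1
      obtain ⟨θ, l, hθ, e⟩ := Lib.TwoChar.exists_theta hodd hη hψ C hcard ⟨χ, hχ⟩ a b c
      refine ⟨θ, ?_, fun c hc => ?_⟩
      · by_contra hh
        push Not at hh
        exact hθ (MonoidHom.ext hh)
      · rw [show χ c = Lib.TwoChar.cuspFun C θ l c from congrFun e c,
          Lib.TwoChar.cuspFun_elliptic hodd C hcard θ l c hc, hinv]
    · have hq3 : Fintype.card F = 3 := by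
        obtain ⟨r, hr⟩ := hodd; have := Fintype.one_lt_card (α := F); omega
      set z : C := ⟨_, Lib.TwoChar.negOne_mem hodd C hcard⟩
      have hz1 : z ≠ 1 := fun e => Lib.Two.two_ne_zero_of_odd hodd (by
        have e' := congrArg (fun w : C => ((w : Matrix.SpecialLinearGroup (Fin 2) F) : Matrix (Fin 2) (Fin 2) F) 0 0) e
        simp [z, Lib.TwoChar.coe_negOne] at e'
        linear_combination -e')
      have hzz : z * z = 1 := Subtype.ext (Lib.TwoChar.negOne_mul_self F)
      have : NeZero (Monoid.exponent C) := ⟨Monoid.exponent_ne_zero_of_finite⟩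
      have : NeZero (Monoid.exponent C : ℂ) := NeZero.charZero
      obtain ⟨θ, hθ⟩ := CommGroup.exists_apply_ne_one_of_hasEnoughRootsOfUnity C ℂ hz1
      have hsqz : ∀ c : C, (c : Matrix.SpecialLinearGroup (Fin 2) F) ∉ Subgroup.center (Matrix.SpecialLinearGroup (Fin 2) F) →
          c * c = z := by
        intro c hc
        have h4 : (c * c) ^ 2 = 1 := by
          have h := pow_card_eq_one' (G := C) (x := c)
          rw [hcard, hq3] at h
          rw [← sq, ← pow_mul]; exact h
        have hne : c * c ≠ 1 := fun e => by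
          have hcard2 := IsCyclic.card_pow_eq_one_le (α := C) two_pos
          have h3 : ({1, z, c} : Finset C).card = 3 := Finset.card_eq_three.mpr ⟨1, z, c, Ne.symm hz1,
            fun e => hc (by rw [← e]; exact Subgroup.one_mem _),
            fun e => hc (by rw [← e]; exact Lib.TwoChar.negOne_mem_center F), rfl⟩
          have := Finset.card_le_card (s := ({1, z, c} : Finset C))
            (t := Finset.univ.filter fun x : C => x ^ 2 = 1) fun x hx => by
              simp only [Finset.mem_insert, Finset.mem_singleton] at hx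
              rcases hx with rfl | rfl | rfl <;> simp [sq, hzz, e]
          omega
        by_contra hne'
        have hcard2 := IsCyclic.card_pow_eq_one_le (α := C) two_pos
        have h3 : ({1, z, c * c} : Finset C).card = 3 := Finset.card_eq_three.mpr
          ⟨1, z, c * c, Ne.symm hz1, Ne.symm hne, Ne.symm hne', rfl⟩
        have := Finset.card_le_card (s := ({1, z, c * c} : Finset C))
          (t := Finset.univ.filter fun x : C => x ^ 2 = 1) fun x hx => by
            simp only [Finset.mem_insert, Finset.mem_singleton] at hx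
            refine Finset.mem_filter.mpr ⟨Finset.mem_univ _, ?_⟩
            rcases hx with rfl | rfl | rfl
            · exact one_pow 2
            · rw [sq, hzz]
            · exact h4
        omega
      obtain ⟨c₀, hc₀, -⟩ := Lib.TwoChar.exists_noncentral hodd C hcard
      refine ⟨θ, ⟨c₀, by rwa [sq, ← map_mul, hsqz c₀ hc₀]⟩, fun c hc => ?_⟩
      have hsum : ((θ c : ℂ)) + (θ c⁻¹ : ℂ) = 0 := by
        have h1 : (θ c : ℂ) * (θ c : ℂ) = (θ z : ℂ) := by rw [← Units.val_mul, ← map_mul, hsqz c hc]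
        have h2 : (θ z : ℂ) = -1 := by
          rcases mul_self_eq_one_iff.mp (show (θ z : ℂ) * (θ z : ℂ) = 1 by
            rw [← Units.val_mul, ← map_mul, hzz, map_one, Units.val_one]) with e | e
          · exact absurd (Units.ext e) hθ
          · exact e
        rw [h2] at h1
        have h3 : (θ c : ℂ) * (θ c⁻¹ : ℂ) = 1 := by rw [← Units.val_mul, ← map_mul, mul_inv_cancel, map_one, Units.val_one]
        exact mul_left_cancel₀ (Units.ne_zero (θ c)) (by linear_combination h1 + h3)
      rw [hinv, hsum, neg_zero]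
      have hv := (Lib.TwoChar.noRoot_iff_no_eigen _).1 (Lib.TwoChar.noRoot_of_mem hodd C hcard c.2 hc)
      have e1 := Lib.TwoChar.apply_one_odd hodd hη hψ (⟨χ, hχ⟩ : IrrCharacter _)
      rw [show (⟨χ, hχ⟩ : IrrCharacter (Matrix.SpecialLinearGroup (Fin 2) F)).1 1 = χ 1 from rfl, h1, hq3,
        show ((3 : ℕ) : ℂ) - 1 = ((2 : ℕ) : ℂ) by norm_num, Nat.cast_inj] at e1
      obtain ⟨T⟩ := Lib.TwoChar.exists_table hodd hη hψ
      letI : Fintype ((Lib.TwoChar.slDat F).T →* ℂˣ) := @Fintype.ofFinite _ (Lib.TwoChar.finite_dual _)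
      rcases (Lib.TwoChar.types_odd hodd hη hψ).1 ⟨χ, hχ⟩ with ⟨a, b, d⟩ | ⟨a, b, d⟩ | ⟨a, b, d⟩ | ⟨a, b, d⟩ |
          ⟨a, b, d⟩ | ⟨a, b, d⟩ | ⟨a, b, d⟩ | ⟨a, b, d⟩ <;>
        rw [a, b, d] at e1 <;>
        first
          | omega
          | exact Lib.TwoChar.three_no_eigen hodd hη hψ hq3 ⟨χ, hχ⟩ hv a b d
          | (rcases (T.A_one _).mp a with e | e | e | e
             · rw [e, Lib.TwoChar.Dat.M_triv _ hψ] at b
               rw [e, Lib.TwoChar.Dat.M_triv _ (Lib.TwoChar.mulShift_ne hη hψ)] at d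
               omega
             · rw [e, T.M_st.1] at b
               rw [e, T.M_st.2] at d
               omega
             · exact (congrFun (congrArg Subtype.val e) _).trans (T.half_no_eigen hodd hη hψ hv).1
             · exact (congrFun (congrArg Subtype.val e) _).trans (T.half_no_eigen hodd hη hψ hv).2)
end Cfsg.Agent.S2434
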