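import Cfsg.Statements.S2435
import Cfsg.Agent.Lib.TwoChar.CuspTable

set_option autoImplicit false
open Cfsg

namespace Cfsg.Agent.S2435

/-- Let F be a finite field with q elements, q odd and q ≥ 5, and χ an irreducible complex character of SL₂ over F. If χ has degree (q + 1)/2, then at a diagonal element with entry a, a² ≠ 1, χ takes the value 1 when a is a square in F and −1 otherwise. If χ has degree (q − 1)/2, then at an element g with no eigenvector in F² (so g has order dividing q + 1), χ takes the value −1 when g raised to the power (q + 1)/2 is the identity and the value 1 otherwise. -/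
theorem result {F : Type*} [Field F] [Fintype F] (hodd : Odd (Fintype.card F)) (hq : 5 ≤ Fintype.card F)
    (χ : Matrix.SpecialLinearGroup (Fin 2) F → ℂ) (hχ : Cfsg.IsIrrCharacter (Matrix.SpecialLinearGroup (Fin 2) F) χ) (g : Matrix.SpecialLinearGroup (Fin 2) F) :
    (χ 1 = (((Fintype.card F + 1) / 2 : ℕ) : ℂ) → (g : Matrix (Fin 2) (Fin 2) F) 0 1 = 0 → (g : Matrix (Fin 2) (Fin 2) F) 1 0 = 0 → (g : Matrix (Fin 2) (Fin 2) F) 0 0 ^ 2 ≠ 1 →
      (IsSquare ((g : Matrix (Fin 2) (Fin 2) F) 0 0) → χ g = 1) ∧ (¬ IsSquare ((g : Matrix (Fin 2) (Fin 2) F) 0 0) → χ g = -1)) ∧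
    (χ 1 = (((Fintype.card F - 1) / 2 : ℕ) : ℂ) → (∀ (c : F) (v : Fin 2 → F), v ≠ 0 → (g : Matrix (Fin 2) (Fin 2) F).mulVec v ≠ c • v) →
      (((g ^ ((Fintype.card F + 1) / 2)) : Matrix (Fin 2) (Fin 2) F) = 1 → χ g = -1) ∧ (((g ^ ((Fintype.card F + 1) / 2)) : Matrix (Fin 2) (Fin 2) F) ≠ 1 → χ g = 1)) := by
  classical
  let d := Lib.TwoChar.slDat F
  letI : Fintype (d.T →* ℂˣ) := @Fintype.ofFinite _ (Lib.TwoChar.finite_dual d.T)
  obtain ⟨ψ, hψ⟩ := Lib.TwoChar.exists_addChar F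
  obtain ⟨η, hη⟩ := FiniteField.exists_nonsquare (Lib.TwoChar.ringChar_ne_two hodd)
  have hi := Lib.TwoChar.degree_iff_odd hodd hη hψ hq ⟨χ, hχ⟩
  refine ⟨fun h1 g01 g10 hsq => ?_, fun h1 hv => ?_⟩
  · obtain ⟨a, b⟩ := hi.2.2.2.2.1.mp h1
    obtain ⟨T⟩ := Lib.TwoChar.exists_table hodd hη hψ
    have hdet : (g : Matrix (Fin 2) (Fin 2) F) 0 0 * (g : Matrix (Fin 2) (Fin 2) F) 1 1 = 1 := by
      have := g.2
      rw [Matrix.det_fin_two, g01, g10, mul_zero, sub_zero] at this
      exact this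
    let t : d.T := ⟨(Units.mk0 _ (left_ne_zero_of_mul_eq_one hdet), Units.mk0 _ (right_ne_zero_of_mul_eq_one hdet)),
      by rw [d.mem_T]; exact Subgroup.mem_bot.mpr (Units.ext hdet)⟩
    have hg : g = d.tt t := d.mat_injective (by
      rw [d.mat_tt]
      ext i j
      fin_cases i <;> fin_cases j <;> first | rfl | exact g01 | exact g10)
    have hne : t.1.1 ≠ t.1.2 := fun e => hsq (by
      have e' : (g : Matrix (Fin 2) (Fin 2) F) 0 0 = (g : Matrix (Fin 2) (Fin 2) F) 1 1 := congrArg Units.val e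
      rw [← e'] at hdet
      rw [sq, hdet])
    have hval : χ g = Lib.TwoChar.qc F ((g : Matrix (Fin 2) (Fin 2) F) 0 0) := by
      refine Eq.trans ?_ (Lib.TwoChar.l0_apply t)
      rw [hg]
      rcases (T.A_one _).mp a with e | e | e | e
      · rw [e, d.M_triv hψ, d.M_triv (Lib.TwoChar.mulShift_ne hη hψ)] at b; omega
      · rw [e, T.M_st.1, T.M_st.2] at b; omega
      · exact (congrFun (congrArg Subtype.val e) _).trans (T.half_tt hη hψ hne).1
      · exact (congrFun (congrArg Subtype.val e) _).trans (T.half_tt hη hψ hne).2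
    rw [hval]
    exact ⟨fun h => Lib.TwoChar.qc_of_isSquare (left_ne_zero_of_mul_eq_one hdet) h,
      fun h => Lib.TwoChar.qc_of_not_isSquare h⟩
  · obtain ⟨a, b⟩ := hi.2.2.2.2.2.mp h1
    have hnr := (Lib.TwoChar.noRoot_iff_no_eigen g).2 hv
    set C := Subgroup.centralizer ({g} : Set (Matrix.SpecialLinearGroup (Fin 2) F))
    haveI : IsCyclic C := hnr.isCyclic_centralizer hodd
    have hcard : Nat.card C = Fintype.card F + 1 := hnr.card_centralizer hodd
    have hgC : g ∈ C := Subgroup.mem_centralizer_singleton_iff.mpr rfl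
    obtain ⟨c₀, -, hgen⟩ := Lib.TwoChar.exists_noncentral hodd C hcard
    obtain ⟨m, hm⟩ : ∃ m, Fintype.card F + 1 = 2 * m := by obtain ⟨r, hr⟩ := hodd; exact ⟨r + 1, by omega⟩
    have hord : orderOf c₀ = 2 * m := by rw [orderOf_eq_card_of_forall_mem_zpowers hgen, hcard, hm]
    have h2 : orderOf (-1 : ℂˣ) = 2 := orderOf_eq_prime (by simp) (fun h => by
      have := congrArg Units.val h
      norm_num at this)
    let θ : C →* ℂˣ := monoidHomOfForallMemZpowers hgen (g' := (-1 : ℂˣ)) (by rw [h2, hord]; exact dvd_mul_right 2 m)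
    have hθ0 : θ c₀ = -1 := monoidHomOfForallMemZpowers_apply_gen hgen _
    have hθ1 : θ ≠ 1 := fun h => by
      rw [h, MonoidHom.one_apply] at hθ0
      have := congrArg Units.val hθ0
      norm_num at this
    obtain ⟨i, hi'⟩ := (Submonoid.mem_powers_iff _ _).1 (mem_powers_iff_mem_zpowers.2 (hgen ⟨g, hgC⟩))
    have hθsq : θ ^ 2 = 1 := MonoidHom.ext fun x => by
      obtain ⟨j, rfl⟩ := Subgroup.mem_zpowers_iff.mp (hgen x)
      rw [MonoidHom.pow_apply, map_zpow, hθ0, ← zpow_natCast, ← zpow_mul, mul_comm, zpow_mul, zpow_natCast, neg_one_sq,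
        one_zpow, MonoidHom.one_apply]
    have hv' := Lib.TwoChar.half_minus_apply hodd hη hψ C hcard θ hθsq hθ1 hq ⟨χ, hχ⟩ a b ⟨g, hgC⟩ hnr.not_mem_center
    have hval : χ g = -((-1 : ℂ) ^ i) := by
      refine hv'.trans ?_
      rw [← hi', map_pow, hθ0, Units.val_pow_eq_pow_val, Units.val_neg, Units.val_one]
    have hgm : (((g ^ ((Fintype.card F + 1) / 2)) : Matrix.SpecialLinearGroup (Fin 2) F) : Matrix (Fin 2) (Fin 2) F) = 1 ↔ Even i := by
      have e : g ^ ((Fintype.card F + 1) / 2) = ((c₀ ^ (i * m) : C) : Matrix.SpecialLinearGroup (Fin 2) F) := by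
        rw [pow_mul, hi', hm, Nat.mul_div_cancel_left m two_pos]
        rfl
      rw [e, even_iff_two_dvd]
      have hm0 : 0 < m := by omega
      rw [show (2 ∣ i) ↔ c₀ ^ (i * m) = 1 by rw [← orderOf_dvd_iff_pow_eq_one, hord, Nat.mul_dvd_mul_iff_right hm0]]
      exact ⟨fun h => Subtype.ext (Subtype.ext h), fun h => by rw [h]; rfl⟩
    rw [hval]
    refine ⟨fun h => ?_, fun h => ?_⟩
    · rw [(hgm.1 h).neg_one_pow]
    · rw [(Nat.not_even_iff_odd.1 (fun he => h (hgm.2 he))).neg_one_pow, neg_neg]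
end Cfsg.Agent.S2435
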