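import Cfsg.Statements.S2438
import Cfsg.Agent.Lib.TwoChar.SLOddValues

set_option autoImplicit false
open Cfsg

namespace Cfsg.Agent.S2438

/-- Let F be a finite field with q elements, q odd, q ≥ 5, U the upper unitriangular subgroup of SL₂ over F, and χ an irreducible complex character. The sum of the values of χ over U equals 2q, q, 0, q, 0 according as the degree of χ is q + 1, q, q − 1, (q + 1)/2, (q − 1)/2; so among these five degrees the sum vanishes exactly for the degrees q − 1 and (q − 1)/2, i.e. the irreducible characters of those two degrees are the ones whose restriction to U does not contain the trivial character (the cuspidal characters), while those of degree q + 1, q and (q + 1)/2 are not cuspidal. -/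
theorem result {F : Type*} [Field F] [Fintype F] [DecidableEq F] (hodd : Odd (Fintype.card F)) (hq : 5 ≤ Fintype.card F)
    (χ : Matrix.SpecialLinearGroup (Fin 2) F → ℂ) (hχ : Cfsg.IsIrrCharacter (Matrix.SpecialLinearGroup (Fin 2) F) χ) :
    (χ 1 = (Fintype.card F : ℂ) + 1 →
      (∑ g : Matrix.SpecialLinearGroup (Fin 2) F, if (g : Matrix (Fin 2) (Fin 2) F) 1 0 = 0 ∧ (g : Matrix (Fin 2) (Fin 2) F) 0 0 = 1 ∧ (g : Matrix (Fin 2) (Fin 2) F) 1 1 = 1 then χ g else 0) = 2 * (Fintype.card F : ℂ)) ∧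
    (χ 1 = (Fintype.card F : ℂ) →
      (∑ g : Matrix.SpecialLinearGroup (Fin 2) F, if (g : Matrix (Fin 2) (Fin 2) F) 1 0 = 0 ∧ (g : Matrix (Fin 2) (Fin 2) F) 0 0 = 1 ∧ (g : Matrix (Fin 2) (Fin 2) F) 1 1 = 1 then χ g else 0) = (Fintype.card F : ℂ)) ∧
    (χ 1 = (Fintype.card F : ℂ) - 1 →
      (∑ g : Matrix.SpecialLinearGroup (Fin 2) F, if (g : Matrix (Fin 2) (Fin 2) F) 1 0 = 0 ∧ (g : Matrix (Fin 2) (Fin 2) F) 0 0 = 1 ∧ (g : Matrix (Fin 2) (Fin 2) F) 1 1 = 1 then χ g else 0) = 0) ∧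
    (χ 1 = (((Fintype.card F + 1) / 2 : ℕ) : ℂ) →
      (∑ g : Matrix.SpecialLinearGroup (Fin 2) F, if (g : Matrix (Fin 2) (Fin 2) F) 1 0 = 0 ∧ (g : Matrix (Fin 2) (Fin 2) F) 0 0 = 1 ∧ (g : Matrix (Fin 2) (Fin 2) F) 1 1 = 1 then χ g else 0) = (Fintype.card F : ℂ)) ∧
    (χ 1 = (((Fintype.card F - 1) / 2 : ℕ) : ℂ) →
      (∑ g : Matrix.SpecialLinearGroup (Fin 2) F, if (g : Matrix (Fin 2) (Fin 2) F) 1 0 = 0 ∧ (g : Matrix (Fin 2) (Fin 2) F) 0 0 = 1 ∧ (g : Matrix (Fin 2) (Fin 2) F) 1 1 = 1 then χ g else 0) = 0) := by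
  classical
  let d := Lib.TwoChar.slDat F
  letI : Fintype (d.T →* ℂˣ) := @Fintype.ofFinite _ (Lib.TwoChar.finite_dual d.T)
  obtain ⟨ψ, hψ⟩ := Lib.TwoChar.exists_addChar F
  obtain ⟨η, hη⟩ := FiniteField.exists_nonsquare (Lib.TwoChar.ringChar_ne_two hodd)
  have hi := Lib.TwoChar.degree_iff_odd hodd hη hψ hq ⟨χ, hχ⟩
  have hsum : (∑ g : Matrix.SpecialLinearGroup (Fin 2) F, if (g : Matrix (Fin 2) (Fin 2) F) 1 0 = 0 ∧
      (g : Matrix (Fin 2) (Fin 2) F) 0 0 = 1 ∧ (g : Matrix (Fin 2) (Fin 2) F) 1 1 = 1 then χ g else 0) =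
      (Fintype.card F : ℂ) * (d.A ⟨χ, hχ⟩ : ℂ) := by
    rw [← Finset.sum_filter, Lib.TwoChar.Dat.A, ← Lib.TwoChar.Dat.M_spec, Lib.TwoChar.Dat.m, ← mul_assoc,
      mul_inv_cancel₀ (Nat.cast_ne_zero.mpr Fintype.card_ne_zero), one_mul]
    symm
    refine Finset.sum_bij (fun x _ => d.uu x) (fun x _ => ?_) (fun x _ y _ e => ?_) (fun g hg => ?_) fun x _ => ?_
    · have e : (d.uu x : Matrix (Fin 2) (Fin 2) F) = !![1, x; 0, 1] := d.mat_uu x
      simp [e]
    · have h := congrArg d.mat e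
      rw [d.mat_uu, d.mat_uu] at h
      simpa using congrFun (congrFun h 0) 1
    · obtain ⟨-, h10, h00, h11⟩ := Finset.mem_filter.mp hg
      refine ⟨(g : Matrix (Fin 2) (Fin 2) F) 0 1, Finset.mem_univ _, d.mat_injective ?_⟩
      rw [d.mat_uu]
      ext i j
      fin_cases i <;> fin_cases j <;> first | rfl | exact h00.symm | exact h10.symm | exact h11.symm
    · simp
  rw [hsum]
  refine ⟨fun h => ?_, fun h => ?_, fun h => ?_, fun h => ?_, fun h => ?_⟩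
  · rw [hi.2.2.1.mp h]; push_cast; ring
  · rw [(hi.2.1.mp h).1, Nat.cast_one, mul_one]
  · rw [(hi.2.2.2.1.mp h).1, Nat.cast_zero, mul_zero]
  · rw [(hi.2.2.2.2.1.mp h).1, Nat.cast_one, mul_one]
  · rw [(hi.2.2.2.2.2.mp h).1, Nat.cast_zero, mul_zero]
end Cfsg.Agent.S2438
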