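import Cfsg.Statements.S2531
-- import your own Cfsg.Agent.* helpers here

set_option autoImplicit false
open Cfsg

namespace Cfsg.Agent.S2531

/-- Let `F` be a finite field and `n ≥ 3`. No set of permutations of the points of the projective space of `Fⁿ`, each induced by an invertible semilinear transformation of `Fⁿ` (so a subset of the full projective semilinear group), is sharply 2-transitive on the points: it is impossible that for all pairs of distinct points `(a, b)` and `(c, d)` exactly one member of the set sends `a` to `c` and `b` to `d`. -/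
theorem result {F : Type*} [Field F] [Finite F]
    (n : ℕ) (hn : 3 ≤ n) (S : Set (Equiv.Perm (Projectivization F (Fin n → F))))
    (hS : ∀ s ∈ S, ∃ (σ : F ≃+* F) (f : (Fin n → F) →ₛₗ[(σ : F →+* F)] (Fin n → F)) (hf : Function.Injective f),
      ∀ x, s x = Projectivization.map f hf x) :
    ¬ (∀ a b c d : Projectivization F (Fin n → F), a ≠ b → c ≠ d →
        ∃! s, s ∈ S ∧ s a = c ∧ s b = d) := by
  classical
  haveI : Fintype F := Fintype.ofFinite F
  intro h
  obtain ⟨m, rfl⟩ : ∃ m, n = m + 3 := ⟨n - 3, by omega⟩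
  haveI : Finite (Projectivization F (Fin (m + 3) → F)) :=
    Finite.of_injective (fun v => v.rep) fun v w e => by
      rw [← v.mk_rep, ← w.mk_rep]
      exact (Projectivization.mk_eq_mk_iff' F _ _ _ _).2 ⟨1, by rw [one_smul]; exact e.symm⟩
  haveI : Fintype (Projectivization F (Fin (m + 3) → F)) := Fintype.ofFinite _
  let e : Fin (m + 3) → (Fin (m + 3) → F) := fun i => Pi.single i 1
  let u : Option F → (Fin (m + 3) → F) := fun c => c.elim (e 2) fun t => e 1 + t • e 2
  have h01 : (0 : Fin (m + 3)) ≠ 1 := by simp [Fin.ext_iff]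
  have h02 : (0 : Fin (m + 3)) ≠ 2 := by
    simp [Fin.ext_iff, Nat.mod_eq_of_lt (show 2 < m + 3 by omega)]
  have h12 : (1 : Fin (m + 3)) ≠ 2 := by
    simp [Fin.ext_iff, Nat.mod_eq_of_lt (show 2 < m + 3 by omega)]
  have hu0 : ∀ c, u c 0 = 0 := fun c => by cases c <;> simp [u, e, h01, h02]
  have hune : ∀ c, u c ≠ 0 := fun c hc => by
    cases c with
    | none => simpa [u, e] using congrFun hc 2
    | some t => simpa [u, e, h12] using congrFun hc 1
  have he0 : e 0 ≠ 0 := fun hc => by simpa [e] using congrFun hc 0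
  let a := Projectivization.mk F (e 0) he0
  let γ : Option F → Projectivization F (Fin (m + 3) → F) := fun c => Projectivization.mk F (u c) (hune c)
  let W := {w : Fin (m + 2) → F // w ≠ 0}
  have hv : ∀ w : W, (Fin.cons (1 : F) w.1 : Fin (m + 3) → F) ≠ 0 := fun w hc => by
    simpa using congrFun hc 0
  let β : W → Projectivization F (Fin (m + 3) → F) := fun w => Projectivization.mk F _ (hv w)
  have hγa : ∀ c, γ c ≠ a := fun c hc => by
    obtain ⟨r, hr⟩ := (Projectivization.mk_eq_mk_iff' F _ _ _ _).1 hc
    have h1 := congrFun hr 0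
    simp [e, hu0] at h1
    exact hune c (by rw [← hr, h1, zero_smul])
  have hβa : ∀ w, β w ≠ a := fun w hc => by
    obtain ⟨r, hr⟩ := (Projectivization.mk_eq_mk_iff' F _ _ _ _).1 hc
    refine w.2 (funext fun i => ?_)
    have h1 := congrFun hr i.succ
    simp [e] at h1
    exact h1.symm
  have hβinj : Function.Injective β := fun w w' hc => by
    obtain ⟨r, hr⟩ := (Projectivization.mk_eq_mk_iff' F _ _ _ _).1 hc
    have h1 : r = 1 := by simpa using congrFun hr 0
    refine Subtype.ext (funext fun i => ?_)
    have h2 := congrFun hr i.succ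
    simp [h1] at h2
    exact h2.symm
  choose φ hφ hφu using fun x : Option F × W => h a (γ x.1) a (β x.2) (hγa x.1).symm (hβa x.2).symm
  have hiff : ∀ x s, φ x = s ↔ s ∈ S ∧ s a = a ∧ s (γ x.1) = β x.2 :=
    fun x s => ⟨fun hs => hs ▸ hφ x, fun hs => (hφu x s hs).symm⟩
  have hfib : ∀ s, Fintype.card F ∣ (Finset.univ.filter fun x => φ x = s).card := by
    intro s
    by_cases hs : s ∈ S ∧ s a = a
    swap
    · rw [Finset.filter_false_of_mem fun x _ hx => hs ⟨((hiff x s).1 hx).1, ((hiff x s).1 hx).2.1⟩]
      simp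
    obtain ⟨σ, f, hf, hfs⟩ := hS s hs.1
    have hne : ∀ c, f (u c) ≠ 0 := fun c hc => hune c (hf (by rw [hc, map_zero]))
    have hsγ : ∀ c, s (γ c) = Projectivization.mk F (f (u c)) (hne c) := fun c => by
      rw [hfs]; rfl
    have himg : (Finset.univ.filter fun x => φ x = s).image Prod.fst =
        Finset.univ.filter fun c => f (u c) 0 ≠ 0 := by
      ext c
      simp only [Finset.mem_image, Finset.mem_filter, Finset.mem_univ, true_and]
      constructor
      · rintro ⟨⟨c', w⟩, hx, rfl⟩
        have he := ((hiff _ s).1 hx).2.2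
        rw [hsγ] at he
        obtain ⟨r, hr⟩ := (Projectivization.mk_eq_mk_iff' F _ _ _ _).1 he.symm
        intro h0
        have h1 := congrFun hr 0
        simp [h0] at h1
      · intro h0
        by_cases hw : (fun i : Fin (m + 2) => (f (u c) 0)⁻¹ * f (u c) i.succ) = 0
        · refine absurd (s.injective ?_) (hγa c)
          rw [hs.2, hsγ]
          refine (Projectivization.mk_eq_mk_iff' F _ _ _ _).2 ⟨f (u c) 0, funext fun i => ?_⟩
          refine Fin.cases ?_ (fun j => ?_) i
          · simp [e]
          · have h1 : (f (u c) 0)⁻¹ * f (u c) j.succ = 0 := congrFun hw j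
            simp [e, (mul_eq_zero.1 h1).resolve_left (inv_ne_zero h0)]
        · refine ⟨(c, ⟨_, hw⟩), (hiff _ s).2 ⟨hs.1, hs.2, ?_⟩, rfl⟩
          rw [hsγ]
          refine (Projectivization.mk_eq_mk_iff' F _ _ _ _).2 ⟨f (u c) 0, funext fun i => ?_⟩
          refine Fin.cases ?_ (fun j => ?_) i
          · simp
          · simp [h0]
    rw [← Finset.card_image_of_injOn (f := Prod.fst) (fun x hx y hy hxy => Prod.ext hxy (hβinj (by
      rw [← ((hiff x s).1 (Finset.mem_filter.1 hx).2).2.2, ← ((hiff y s).1 (Finset.mem_filter.1 hy).2).2.2, hxy]))),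
      himg]
    set α₁ := f (e 1) 0
    set α₂ := f (e 2) 0 with hα₂
    have hsome : ∀ t, f (u (some t)) 0 = α₁ + σ t * α₂ := fun t => by simp [u, α₁, α₂]
    have hnone : f (u none) 0 = α₂ := rfl
    by_cases h2 : α₂ = 0
    · by_cases h1 : α₁ = 0
      · rw [Finset.filter_false_of_mem fun c _ => by
          cases c <;> simp [hsome, hnone, h1, h2]]
        simp
      · rw [show (Finset.univ.filter fun c => f (u c) 0 ≠ 0) = Finset.univ.erase none from
          Finset.ext fun c => by cases c <;> simp [hsome, hnone, h1, h2],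
          Finset.card_erase_of_mem (Finset.mem_univ _), Finset.card_univ, Fintype.card_option]
        simp
    · rw [show (Finset.univ.filter fun c => f (u c) 0 ≠ 0) =
          Finset.univ.erase (some (σ.symm (-α₁ / α₂))) from Finset.ext fun c => by
          cases c with
          | none => simp [hnone, h2]
          | some t =>
            simp only [Finset.mem_filter, Finset.mem_univ, true_and, Finset.mem_erase, hsome, and_true,
              ne_eq, Option.some.injEq, RingEquiv.eq_symm_apply]
            rw [eq_div_iff h2, eq_neg_iff_add_eq_zero, add_comm],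
        Finset.card_erase_of_mem (Finset.mem_univ _), Finset.card_univ, Fintype.card_option]
      simp
  have hsum : Fintype.card F ∣ Fintype.card (Option F × W) := by
    have hd := Finset.dvd_sum (s := Finset.univ) fun s _ => hfib s
    rwa [← Finset.card_eq_sum_card_fiberwise (fun x _ => Finset.mem_univ (φ x)), Finset.card_univ] at hd
  have hW : Fintype.card W = Fintype.card F ^ (m + 2) - 1 := by
    rw [Fintype.card_subtype_compl, Fintype.card_subtype_eq, Fintype.card_fun, Fintype.card_fin]
  have hq : 2 ≤ Fintype.card F := Fintype.one_lt_card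
  rw [Fintype.card_prod, Fintype.card_option, hW] at hsum
  obtain ⟨N, hN⟩ : ∃ N, Fintype.card F ^ (m + 2) = Fintype.card F * (N + 1) := by
    obtain ⟨N, hN⟩ := Nat.exists_eq_add_of_le' (Nat.one_le_pow (m + 1) (Fintype.card F) (by omega))
    exact ⟨N, by rw [pow_succ, hN, mul_comm]⟩
  generalize Fintype.card F = q at hsum hq hN
  have h1 : (q + 1) * (q ^ (m + 2) - 1) + 1 = q * ((q + 1) * (N + 1)) - q := by
    rw [hN, Nat.mul_sub, mul_one]
    have : q + 1 ≤ (q + 1) * (q * (N + 1)) := Nat.le_mul_of_pos_right _ (by positivity)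
    have h3 : q * ((q + 1) * (N + 1)) = (q + 1) * (q * (N + 1)) := by ring
    omega
  have h4 : q ∣ (q + 1) * (q ^ (m + 2) - 1) + 1 := h1 ▸ Nat.dvd_sub (dvd_mul_right _ _) dvd_rfl
  have := Nat.le_of_dvd one_pos ((Nat.dvd_add_right hsum).1 h4)
  omega

end Cfsg.Agent.S2531
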