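import Cfsg.Statements.S2532

set_option autoImplicit false
open Cfsg

namespace Cfsg.Agent.S2532

/-- There is a function `f` of two natural-number arguments such that, whenever `m ≥ f(n, r)`, every subgroup of order `n` of the alternating group of degree `m` centralizes some subgroup of that alternating group isomorphic to the alternating group of degree `r`. -/
theorem result :
    ∃ f : ℕ → ℕ → ℕ, ∀ (m r : ℕ) (H : Subgroup ↥(alternatingGroup (Fin m))), f (Nat.card H) r ≤ m →
      ∃ K : Subgroup ↥(alternatingGroup (Fin m)), Nonempty (↥K ≃* ↥(alternatingGroup (Fin r))) ∧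
        K ≤ Subgroup.centralizer (H : Set ↥(alternatingGroup (Fin m))) := by
  refine ⟨fun n r => n * (r * 2 ^ n + r) + n + r + 1, fun m r H hm => ?_⟩
  classical
  have hle : ∀ (x : Fin m), Nat.card (MulAction.orbit ↥H x) ≤ Nat.card ↥H := fun x =>
    Nat.card_le_card_of_surjective (fun h : ↥H => (⟨h • x, MulAction.mem_orbit x h⟩ : MulAction.orbit ↥H x))
      (by rintro ⟨_, h, rfl⟩; exact ⟨h, rfl⟩)
  let Ω := Quotient (MulAction.orbitRel ↥H (Fin m))
  have hΩ : m ≤ Nat.card ↥H * Nat.card Ω := by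
    have hs : Function.Surjective (fun p : ↥H × Ω => p.1 • (Quotient.out p.2)) := by
      intro x
      obtain ⟨h, hh⟩ : x ∈ MulAction.orbit ↥H (Quotient.out (Quotient.mk (MulAction.orbitRel ↥H (Fin m)) x)) := by
        have := Quotient.mk_out (s := MulAction.orbitRel ↥H (Fin m)) x
        exact (MulAction.orbitRel_apply.1 ((MulAction.orbitRel ↥H (Fin m)).symm this))
      exact ⟨(h, _), hh⟩
    have := Nat.card_le_card_of_surjective _ hs
    rwa [Nat.card_prod, Nat.card_fin] at this
  set n := Nat.card ↥H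
  have hnpos : 0 < n := Nat.card_pos
  have hΩ2 : r * 2 ^ n + r < Nat.card Ω := by
    by_contra h
    push Not at h
    have := Nat.mul_le_mul_left n h
    have hm' : n * (r * 2 ^ n + r) + n + r + 1 ≤ m := hm
    omega
  haveI : Fintype Ω := Fintype.ofFinite Ω
  haveI : Fintype (Subgroup ↥H) := Fintype.ofFinite _
  have hS : Fintype.card (Subgroup ↥H) ≤ 2 ^ n := by
    have h1 := Nat.card_le_card_of_injective (fun K : Subgroup ↥H => (K : Set ↥H)) SetLike.coe_injective
    haveI : Fintype ↥H := Fintype.ofFinite _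
    rw [Nat.card_eq_fintype_card, Nat.card_eq_fintype_card, Fintype.card_set, ← Nat.card_eq_fintype_card (α := ↥H)] at h1
    exact h1
  obtain ⟨K, -, hK⟩ := Finset.exists_le_card_fiber_of_mul_le_card_of_maps_to
    (s := (Finset.univ : Finset Ω)) (t := (Finset.univ : Finset (Subgroup ↥H)))
    (f := fun ω => MulAction.stabilizer ↥H (Quotient.out ω)) (n := r) (fun a _ => Finset.mem_univ _)
    Finset.univ_nonempty (by
      rw [Finset.card_univ, Finset.card_univ, ← Nat.card_eq_fintype_card (α := Ω)]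
      calc Fintype.card (Subgroup ↥H) * r ≤ 2 ^ n * r := Nat.mul_le_mul_right r hS
        _ ≤ Nat.card Ω := by rw [mul_comm]; omega)
  obtain ⟨S, hSsub, hScard⟩ := Finset.exists_subset_card_eq hK
  let e : Fin r ↪ Ω := ((finCongr hScard.symm).trans S.equivFin.symm).toEmbedding.trans (Function.Embedding.subtype _)
  have he : ∀ j, MulAction.stabilizer ↥H (Quotient.out (e j)) = K := fun j =>
    (Finset.mem_filter.1 (hSsub ((finCongr hScard.symm).trans S.equivFin.symm j).2)).2
  let ι : Fin r × (↥H ⧸ K) → Fin m := fun p =>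
    Quotient.liftOn' p.2 (fun h => h • Quotient.out (e p.1)) (fun a b hab => by
      rw [QuotientGroup.leftRel_apply, ← he p.1, MulAction.mem_stabilizer_iff, mul_smul] at hab
      exact (inv_smul_eq_iff.1 hab).symm)
  have hι : ∀ j (h : ↥H), ι (j, QuotientGroup.mk h) = h • Quotient.out (e j) := fun j h => rfl
  have hinj : Function.Injective ι := by
    rintro ⟨i, a⟩ ⟨j, b⟩ hab
    induction a using Quotient.inductionOn' with | h a =>
    induction b using Quotient.inductionOn' with | h b =>
    change a • Quotient.out (e i) = b • Quotient.out (e j) at hab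
    have hij : i = j := by
      apply e.injective
      rw [← Quotient.out_eq (e i), ← Quotient.out_eq (e j)]
      apply Quotient.sound
      show Quotient.out (e i) ∈ MulAction.orbit ↥H (Quotient.out (e j))
      refine ⟨a⁻¹ * b, ?_⟩
      show (a⁻¹ * b) • _ = _
      rw [mul_smul, ← hab, inv_smul_smul]
    subst hij
    refine Prod.ext rfl (QuotientGroup.eq.2 ?_)
    rw [← he i, MulAction.mem_stabilizer_iff, mul_smul, ← hab, inv_smul_smul]
  haveI : Fintype (↥H ⧸ K) := Fintype.ofFinite _
  let eq' : Fin r × (↥H ⧸ K) ≃ Subtype (fun x => x ∈ Set.range ι) := Equiv.ofInjective ι hinj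
  let Ψ : Equiv.Perm (Fin r) →* Equiv.Perm (Fin m) :=
    (Equiv.Perm.extendDomainHom eq').comp
      { toFun := fun π => Equiv.prodCongr π (Equiv.refl _)
        map_one' := rfl
        map_mul' := fun a b => rfl }
  have hΨ : ∀ π x, Ψ π (ι x) = ι (π x.1, x.2) := fun π x => by
    show Equiv.Perm.extendDomain _ eq' (eq' x : Fin m) = _
    rw [Equiv.Perm.extendDomain_apply_image]; rfl
  have hsign : ∀ π : ↥(alternatingGroup (Fin r)), Ψ π ∈ alternatingGroup (Fin m) := by
    intro π
    rw [Equiv.Perm.mem_alternatingGroup]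
    have e0 : Ψ (π : Equiv.Perm (Fin r)) = Equiv.Perm.extendDomain
        (Equiv.prodCongr (π : Equiv.Perm (Fin r)) (Equiv.refl (↥H ⧸ K))) eq' := rfl
    have e1 : (Equiv.prodCongr (π : Equiv.Perm (Fin r)) (Equiv.refl (↥H ⧸ K)))
        = Equiv.prodCongrLeft (fun _ : ↥H ⧸ K => (π : Equiv.Perm (Fin r))) := Equiv.ext fun _ => rfl
    rw [e0, Equiv.Perm.sign_extendDomain, e1, Equiv.Perm.sign_prodCongrLeft]
    exact Finset.prod_eq_one fun _ _ => Equiv.Perm.mem_alternatingGroup.1 π.2
  let θ : ↥(alternatingGroup (Fin r)) →* ↥(alternatingGroup (Fin m)) :=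
    (Ψ.comp (alternatingGroup (Fin r)).subtype).codRestrict _ hsign
  have hθ : Function.Injective θ := by
    intro a b hab
    apply Subtype.ext; apply Equiv.ext; intro j
    have h1 := congrArg (fun z : ↥(alternatingGroup (Fin m)) => (z : Equiv.Perm (Fin m)) (ι (j, QuotientGroup.mk 1))) hab
    have h2 : Ψ a (ι (j, QuotientGroup.mk 1)) = Ψ b (ι (j, QuotientGroup.mk 1)) := h1
    rw [hΨ, hΨ] at h2
    exact congrArg Prod.fst (hinj h2)
  refine ⟨θ.range, ⟨(MonoidHom.ofInjective hθ).symm⟩, ?_⟩
  rintro _ ⟨π, rfl⟩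
  rw [Subgroup.mem_centralizer_iff]
  intro h hh
  apply Subtype.ext; apply Equiv.ext; intro x
  show (h : Equiv.Perm (Fin m)) (Ψ π x) = Ψ π ((h : Equiv.Perm (Fin m)) x)
  set hH : ↥H := ⟨h, hh⟩
  have hsm : ∀ y : Fin m, (h : Equiv.Perm (Fin m)) y = hH • y := fun y => rfl
  by_cases hx : x ∈ Set.range ι
  · obtain ⟨⟨j, a⟩, rfl⟩ := hx
    induction a using Quotient.inductionOn' with | h a =>
    change hH • (Ψ π (ι (j, QuotientGroup.mk a))) = Ψ π (hH • ι (j, QuotientGroup.mk a))
    rw [hΨ, show hH • ι (j, QuotientGroup.mk a) = ι (j, QuotientGroup.mk (hH * a)) from (mul_smul _ _ _).symm, hΨ]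
    exact (mul_smul _ _ _).symm
  · have hx' : hH • x ∉ Set.range ι := by
      rintro ⟨⟨j, a⟩, ha⟩
      induction a using Quotient.inductionOn' with | h a =>
      refine hx ⟨(j, QuotientGroup.mk (hH⁻¹ * a)), ?_⟩
      show (hH⁻¹ * a) • _ = x
      rw [mul_smul]
      exact inv_smul_eq_iff.2 ha
    show (h : Equiv.Perm (Fin m)) (Equiv.Perm.extendDomain _ eq' x) = Equiv.Perm.extendDomain _ eq' (hH • x)
    rw [Equiv.Perm.extendDomain_apply_not_subtype _ _ hx, Equiv.Perm.extendDomain_apply_not_subtype _ _ hx']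
    exact hsm x

end Cfsg.Agent.S2532
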