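import Mathlib
import Cfsg.Statements.S2533


set_option autoImplicit false

open scoped commutatorElement Pointwise

namespace Cfsg.Agent.S2533

open Matrix

variable (p : ℕ) [Fact p.Prime]

/-- The translations. -/
abbrev Nor : Type := Multiplicative (Fin 3 → ZMod p)

def invHom : ℤˣ →* MulAut (Nor p) where
  toFun u := if u = 1 then 1 else MulEquiv.inv (Nor p)
  map_one' := by simp
  map_mul' a b := by
    rcases Int.units_eq_one_or a with rfl | rfl <;> rcases Int.units_eq_one_or b with rfl | rfl <;>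
      ext x <;> simp

abbrev Grp : Type := SemidirectProduct (Nor p) ℤˣ (invHom p)

variable {p} {m : ℕ}

def mA (p : ℕ) (m : ℕ) : Matrix (Fin (m + 1)) (Fin m) (ZMod p) :=
  Matrix.of fun i j => if (i : ℕ) = (j : ℕ) then 1 else 0

def mB (p : ℕ) (m : ℕ) : Matrix (Fin (m + 1)) (Fin m) (ZMod p) :=
  Matrix.of fun i j => if (i : ℕ) = (j : ℕ) + 1 then 1 else 0

def mC (p : ℕ) (m : ℕ) : Matrix (Fin (m + 1)) (Fin m) (ZMod p) :=
  Matrix.of fun i j => if (i : ℕ) = m ∧ (j : ℕ) = 0 then 1 else 0

def mV (m : ℕ) (v : Fin 3 → ZMod p) : Matrix (Fin (m + 1)) (Fin m) (ZMod p) :=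
  v 0 • mA p m + v 1 • mB p m + v 2 • mC p m

lemma mV_add (v w : Fin 3 → ZMod p) : mV m (v + w) = mV m v + mV m w := by
  simp only [mV, Pi.add_apply, add_smul]; abel

lemma mV_neg (v : Fin 3 → ZMod p) : mV m (-v) = -mV m v := by
  simp only [mV, Pi.neg_apply, neg_smul]; abel

def sgn (u : ℤˣ) : ZMod p := ((u : ℤ) : ZMod p)

/-- The matrix of a translation. -/
def homN {n : ℕ} (e : Fin m ⊕ Fin (m + 1) ≃ Fin n) : Nor p →* Matrix.SpecialLinearGroup (Fin n) (ZMod p) where
  toFun v := ⟨(fromBlocks 1 0 (mV m (Multiplicative.toAdd v)) 1).submatrix e.symm e.symm, by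
    rw [det_submatrix_equiv_self, det_fromBlocks_zero₁₂, det_one, det_one, one_mul]⟩
  map_one' := Subtype.ext (by simp [mV])
  map_mul' v w := Subtype.ext (by
    show _ = (_ * _ : Matrix (Fin n) (Fin n) (ZMod p))
    simp [Matrix.SpecialLinearGroup.coe_mul, submatrix_mul_equiv, fromBlocks_multiply, mV_add, add_comm])

/-- The matrix of a sign. -/
def homT {n : ℕ} (e : Fin m ⊕ Fin (m + 1) ≃ Fin n) (hm : Even (m + 1)) :
    ℤˣ →* Matrix.SpecialLinearGroup (Fin n) (ZMod p) where
  toFun u := ⟨(fromBlocks 1 0 0 (sgn u • (1 : Matrix (Fin (m + 1)) (Fin (m + 1)) (ZMod p)))).submatrix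
      e.symm e.symm, by
    rw [det_submatrix_equiv_self, det_fromBlocks_zero₁₂, det_one, det_smul, det_one, one_mul, mul_one,
      Fintype.card_fin]
    rcases Int.units_eq_one_or u with rfl | rfl <;> simp [sgn, hm.neg_one_pow]⟩
  map_one' := Subtype.ext (by simp [sgn])
  map_mul' u w := Subtype.ext (by
    show _ = (_ * _ : Matrix (Fin n) (Fin n) (ZMod p))
    simp [Matrix.SpecialLinearGroup.coe_mul, submatrix_mul_equiv, fromBlocks_multiply, sgn, smul_smul, mul_comm])

def hom {n : ℕ} (e : Fin m ⊕ Fin (m + 1) ≃ Fin n) (hm : Even (m + 1)) :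
    Grp p →* Matrix.SpecialLinearGroup (Fin n) (ZMod p) :=
  SemidirectProduct.lift (homN e) (homT e hm) (by
    intro u
    refine MonoidHom.ext fun v => ?_
    show homN e (invHom p u v) = homT (p := p) e hm u * homN e v * (homT (p := p) e hm u)⁻¹
    rw [eq_mul_inv_iff_mul_eq]
    apply Subtype.ext
    show ((homN e (invHom p u v) : Matrix (Fin n) (Fin n) (ZMod p))) *
        ((homT e hm u : Matrix.SpecialLinearGroup (Fin n) (ZMod p)) : Matrix (Fin n) (Fin n) (ZMod p)) =
      ((homT e hm u : Matrix.SpecialLinearGroup (Fin n) (ZMod p)) : Matrix (Fin n) (Fin n) (ZMod p)) * (homN e v : Matrix (Fin n) (Fin n) (ZMod p))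
    show (fromBlocks 1 0 (mV m (Multiplicative.toAdd (invHom p u v))) 1).submatrix e.symm e.symm *
        (fromBlocks 1 0 0 (sgn u • (1 : Matrix (Fin (m + 1)) (Fin (m + 1)) (ZMod p)))).submatrix e.symm e.symm =
      (fromBlocks 1 0 0 (sgn u • (1 : Matrix (Fin (m + 1)) (Fin (m + 1)) (ZMod p)))).submatrix e.symm e.symm *
        (fromBlocks 1 0 (mV m (Multiplicative.toAdd v)) 1).submatrix e.symm e.symm
    rcases Int.units_eq_one_or u with rfl | rfl <;>
      simp [submatrix_mul_equiv, fromBlocks_multiply, sgn, invHom, mV_neg])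

lemma hom_apply {n : ℕ} (e : Fin m ⊕ Fin (m + 1) ≃ Fin n) (hm : Even (m + 1)) (h : Grp p) :
    ((hom e hm h : Matrix.SpecialLinearGroup (Fin n) (ZMod p)) : Matrix (Fin n) (Fin n) (ZMod p)) =
      (fromBlocks 1 0 (mV m (Multiplicative.toAdd h.left)) (sgn (p := p) h.right • (1 : Matrix (Fin (m + 1)) (Fin (m + 1)) (ZMod p)))).submatrix e.symm e.symm := by
  show (fromBlocks 1 0 (mV m (Multiplicative.toAdd h.left)) 1).submatrix e.symm e.symm *
      (fromBlocks 1 0 0 (sgn (p := p) h.right • (1 : Matrix (Fin (m + 1)) (Fin (m + 1)) (ZMod p)))).submatrix e.symm e.symm = _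
  simp [submatrix_mul_equiv, fromBlocks_multiply]

lemma two_ne (hp : p ≠ 2) : (2 : ZMod p) ≠ 0 := by
  intro h
  rw [show (2 : ZMod p) = ((2 : ℕ) : ZMod p) from Nat.cast_ofNat.symm, ZMod.natCast_eq_zero_iff] at h
  exact hp ((Nat.prime_dvd_prime_iff_eq Fact.out Nat.prime_two).1 h)

lemma brick (hm : 1 ≤ m) (a : Matrix (Fin m) (Fin m) (ZMod p))
    (b : Matrix (Fin (m + 1)) (Fin (m + 1)) (ZMod p)) (hA : b * mA p m = mA p m * a) (hB : b * mB p m = mB p m * a) :
    a = scalar _ (b 0 0) ∧ b = scalar _ (b 0 0) := by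
  have eA : ∀ (i : Fin (m + 1)) (j : Fin m), (b * mA p m) i j = b i j.castSucc := fun i j => by
    rw [mul_apply, Finset.sum_eq_single j.castSucc]
    · simp [mA]
    · intro k _ hk
      have : (k : ℕ) ≠ (j : ℕ) := fun h => hk (Fin.ext h)
      simp [mA, this]
    · simp
  have eB : ∀ (i : Fin (m + 1)) (j : Fin m), (b * mB p m) i j = b i j.succ := fun i j => by
    rw [mul_apply, Finset.sum_eq_single j.succ]
    · simp [mB]
    · intro k _ hk
      have : (k : ℕ) ≠ (j : ℕ) + 1 := fun h => hk (Fin.ext h)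
      simp [mB, this]
    · simp
  have fA : ∀ (i : Fin m) (j : Fin m), (mA p m * a) i.castSucc j = a i j := fun i j => by
    rw [mul_apply, Finset.sum_eq_single i]
    · simp [mA]
    · intro k _ hk
      have : (i : ℕ) ≠ (k : ℕ) := fun h => hk (Fin.ext h.symm)
      simp [mA, this]
    · simp
  have fA' : ∀ (j : Fin m), (mA p m * a) (Fin.last m) j = 0 := fun j => by
    rw [mul_apply]
    refine Finset.sum_eq_zero fun k _ => ?_
    have : (m : ℕ) ≠ (k : ℕ) := by omega
    simp [mA, this]
  have fB : ∀ (i : Fin m) (j : Fin m), (mB p m * a) i.succ j = a i j := fun i j => by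
    rw [mul_apply, Finset.sum_eq_single i]
    · simp [mB]
    · intro k _ hk
      have : (i : ℕ) ≠ (k : ℕ) := fun h => hk (Fin.ext h.symm)
      simp [mB, this]
    · simp
  have fB' : ∀ (j : Fin m), (mB p m * a) 0 j = 0 := fun j => by
    rw [mul_apply]
    exact Finset.sum_eq_zero fun k _ => by simp [mB]
  have h1 : ∀ i j : Fin m, b i.castSucc j.castSucc = a i j := fun i j => by rw [← eA, hA, fA]
  have h2 : ∀ i j : Fin m, b i.succ j.succ = a i j := fun i j => by rw [← eB, hB, fB]
  have h3 : ∀ j : Fin m, b (Fin.last m) j.castSucc = 0 := fun j => by rw [← eA, hA, fA']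
  have h4 : ∀ j : Fin m, b 0 j.succ = 0 := fun j => by rw [← eB, hB, fB']
  have hstep : ∀ k i j : ℕ, (hi : i + k < m + 1) → (hj : j + k < m + 1) →
      b ⟨i + k, hi⟩ ⟨j + k, hj⟩ = b ⟨i, by omega⟩ ⟨j, by omega⟩ := by
    intro k
    induction k with
    | zero => intro i j hi hj; rfl
    | succ k ih =>
      intro i j hi hj
      rw [← ih i j (by omega) (by omega)]
      exact (h2 ⟨i + k, by omega⟩ ⟨j + k, by omega⟩).trans (h1 _ _).symm
  have hb : b = scalar _ (b 0 0) := by
    ext ⟨i, hi⟩ ⟨j, hj⟩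
    rw [scalar_apply, diagonal_apply]
    rcases lt_trichotomy i j with hlt | heq | hgt
    · obtain ⟨d, rfl⟩ : ∃ d, j = d + 1 + i := ⟨j - i - 1, by omega⟩
      rw [if_neg (by simp <;> omega)]
      have := hstep i 0 (d + 1) (by omega) (by omega)
      simp only [Nat.zero_add] at this
      rw [this]
      exact h4 ⟨d, by omega⟩
    · subst heq
      rw [if_pos rfl]
      have := hstep i 0 0 (by omega) (by omega)
      simp only [Nat.zero_add] at this
      exact this
    · rw [if_neg (by simp <;> omega)]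
      obtain ⟨k, hk⟩ : ∃ k, i + k = m := ⟨m - i, by omega⟩
      rw [← hstep k i j (by omega) (by omega)]
      have := h3 ⟨j + k, by omega⟩
      rw [← this]
      congr 1 <;> exact Fin.ext (by simp [hk])
  refine ⟨?_, hb⟩
  ext i j
  rw [← h1, hb]
  simp [scalar_apply, diagonal_apply]


/-- For every odd prime `p` there is a finite group `H` of order `2p³` which, for infinitely many `n`, embeds in the projective special linear group `PSL(n, p)` as a subgroup with trivial centralizer. -/
theorem result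
    (p : ℕ) [Fact p.Prime] (hp : p ≠ 2) :
    ∃ (H : Type) (_ : Group H) (_ : Finite H), Nat.card H = 2 * p ^ 3 ∧
      ∀ N : ℕ, ∃ n, N ≤ n ∧ ∃ φ : H →* Matrix.ProjectiveSpecialLinearGroup (Fin n) (ZMod p),
        Function.Injective φ ∧ Subgroup.centralizer (φ.range : Set (Matrix.ProjectiveSpecialLinearGroup (Fin n) (ZMod p))) = ⊥ := by
  classical
  have : NeZero p := ⟨(Fact.out : p.Prime).ne_zero⟩
  refine ⟨Grp p, inferInstance, Finite.of_equiv _ SemidirectProduct.equivProd.symm, ?_, fun N => ?_⟩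
  · rw [Nat.card_congr SemidirectProduct.equivProd, Nat.card_prod]
    simp [Nat.card_eq_fintype_card, mul_comm]
  set m := 2 * N + 3 with hmdef
  have hm : Even (m + 1) := ⟨N + 2, by omega⟩
  let e : Fin m ⊕ Fin (m + 1) ≃ Fin (m + (m + 1)) := finSumFinEquiv
  refine ⟨m + (m + 1), by omega, (QuotientGroup.mk' _).comp (hom e hm), ?_, ?_⟩
  · rw [injective_iff_map_eq_one]
    intro h hh
    have hmem : hom e hm h ∈ Subgroup.center _ := (QuotientGroup.eq_one_iff _).1 hh
    obtain ⟨r, -, hr⟩ := Matrix.SpecialLinearGroup.mem_center_iff.1 hmem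
    rw [hom_apply] at hr
    have hr' : (scalar (Fin m ⊕ Fin (m + 1)) r : Matrix _ _ (ZMod p)) =
        fromBlocks 1 0 (mV m (Multiplicative.toAdd h.left)) (sgn (p := p) h.right • (1 : Matrix (Fin (m + 1)) (Fin (m + 1)) (ZMod p))) := by
      have := congrArg (fun X : Matrix _ _ (ZMod p) => X.submatrix e e) hr
      simpa [submatrix_diagonal_equiv, submatrix_submatrix, Function.comp_def] using! this
    have hr1 : r = 1 := by
      have := congrFun (congrFun hr' (Sum.inl ⟨0, by omega⟩)) (Sum.inl ⟨0, by omega⟩)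
      simpa [scalar_apply, diagonal_apply] using this
    subst hr1
    have hv : ∀ (i : Fin (m + 1)) (j : Fin m), mV m (Multiplicative.toAdd h.left) i j = 0 := fun i j => by
      have := congrFun (congrFun hr' (Sum.inr i)) (Sum.inl j)
      simpa [scalar_apply, diagonal_apply] using this.symm
    have v0 := hv ⟨0, by omega⟩ ⟨0, by omega⟩
    have v1 := hv ⟨1, by omega⟩ ⟨0, by omega⟩
    have v2 := hv ⟨m, by omega⟩ ⟨0, by omega⟩
    simp [mV, mA, mB, mC, show m ≠ 0 by omega, show m ≠ 1 by omega, show (1 : ℕ) ≠ m by omega, Nat.mod_eq_of_lt (show 1 < m + 1 by omega), show 0 < m by omega] at v0 v1 v2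
    have hs : sgn h.right = (1 : ZMod p) := by
      have := congrFun (congrFun hr' (Sum.inr 0)) (Sum.inr 0)
      simpa [scalar_apply, diagonal_apply] using this.symm
    refine SemidirectProduct.ext ?_ ?_
    · refine Multiplicative.toAdd.injective (funext fun i => ?_)
      fin_cases i <;> simp [v0, v1, v2]
    · rcases Int.units_eq_one_or h.right with h1 | h1
      · exact h1
      · rw [h1] at hs
        exfalso
        refine two_ne hp ?_
        simp [sgn] at hs
        linear_combination -hs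
  · rw [eq_bot_iff]
    intro x hx
    obtain ⟨g, rfl⟩ := QuotientGroup.mk'_surjective _ x
    rw [Subgroup.mem_centralizer_iff] at hx
    set G' : Matrix (Fin m ⊕ Fin (m + 1)) (Fin m ⊕ Fin (m + 1)) (ZMod p) := (g : Matrix _ _ (ZMod p)).submatrix e e
      with hG'
    have hdet : G'.det = 1 := by rw [hG', det_submatrix_equiv_self]; exact g.2
    have hcomm : ∀ h : Grp p, ∃ c : ZMod p, c ^ (m + (m + 1)) = 1 ∧
        fromBlocks 1 0 (mV m (Multiplicative.toAdd h.left)) (sgn (p := p) h.right • (1 : Matrix (Fin (m + 1)) (Fin (m + 1)) (ZMod p))) * G' =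
        c • (G' * fromBlocks 1 0 (mV m (Multiplicative.toAdd h.left)) (sgn (p := p) h.right • (1 : Matrix (Fin (m + 1)) (Fin (m + 1)) (ZMod p)))) := by
      intro h
      have h1 := hx _ ⟨h, rfl⟩
      rw [MonoidHom.comp_apply, ← map_mul, ← map_mul, QuotientGroup.mk'_apply, QuotientGroup.mk'_apply,
        eq_comm, QuotientGroup.eq] at h1
      obtain ⟨c, hc, hc'⟩ := Matrix.SpecialLinearGroup.mem_center_iff.1 h1
      rw [Fintype.card_fin] at hc
      refine ⟨c, hc, ?_⟩
      have h2 : ((g * hom e hm h : Matrix.SpecialLinearGroup (Fin (m + (m + 1))) (ZMod p)) : Matrix _ _ (ZMod p)) *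
          scalar _ c = ((hom e hm h * g : Matrix.SpecialLinearGroup (Fin (m + (m + 1))) (ZMod p)) : Matrix (Fin (m + (m + 1))) (Fin (m + (m + 1))) (ZMod p)) := by
        rw [hc']
        exact congrArg Subtype.val (mul_inv_cancel_left (g * hom e hm h) (hom e hm h * g))
      rw [Matrix.SpecialLinearGroup.coe_mul, Matrix.SpecialLinearGroup.coe_mul, hom_apply] at h2
      have h3 := congrArg (fun X : Matrix _ _ (ZMod p) => X.submatrix e e) h2
      simp only [scalar_apply, ← smul_one_eq_diagonal, Matrix.mul_smul, mul_one, submatrix_smul,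
        Pi.smul_apply] at h3
      rw [← submatrix_mul_equiv _ _ _ e, ← submatrix_mul_equiv _ _ _ e] at h3
      simp only [submatrix_submatrix, Equiv.symm_comp_self, submatrix_id_id] at h3
      exact h3.symm
    have hG0 : G' ≠ 0 := fun h => by
      haveI : Nonempty (Fin m ⊕ Fin (m + 1)) := ⟨Sum.inr 0⟩
      rw [h, det_zero] at hdet; exact zero_ne_one hdet
    obtain ⟨g0, x0, y0, g1, hG⟩ : ∃ a b c d, G' = fromBlocks a b c d :=
      ⟨_, _, _, _, (fromBlocks_toBlocks G').symm⟩
    obtain ⟨c, hc, hct⟩ := hcomm ⟨1, -1⟩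
    have hc1 : c = 1 := by
      have hT : fromBlocks (1 : Matrix (Fin m) (Fin m) (ZMod p)) (0 : Matrix (Fin m) (Fin (m + 1)) (ZMod p)) (mV m (Multiplicative.toAdd (1 : Nor p))) (sgn (p := p) (-1 : ℤˣ) • (1 : Matrix (Fin (m + 1)) (Fin (m + 1)) (ZMod p))) *
          fromBlocks (1 : Matrix (Fin m) (Fin m) (ZMod p)) (0 : Matrix (Fin m) (Fin (m + 1)) (ZMod p)) (mV m (Multiplicative.toAdd (1 : Nor p))) (sgn (p := p) (-1 : ℤˣ) • (1 : Matrix (Fin (m + 1)) (Fin (m + 1)) (ZMod p))) = 1 := by
        simp [fromBlocks_multiply, mV, sgn, smul_smul]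
      have h4 : G' = (c * c) • G' := by
        conv_lhs => rw [← one_mul G', ← hT, mul_assoc, hct, Matrix.mul_smul, ← mul_assoc, hct, Matrix.smul_mul,
          smul_smul, mul_assoc, hT, mul_one]
      have h5 : c * c = 1 := by
        by_contra h
        refine hG0 ?_
        have h6 : (c * c - 1) • G' = 0 := by rw [sub_smul, one_smul, ← h4, sub_self]
        exact (smul_eq_zero.1 h6).resolve_left (sub_ne_zero.2 h)
      rcases mul_self_eq_one_iff.1 h5 with h | h
      · exact h
      · rw [h, Odd.neg_one_pow ⟨m, by omega⟩] at hc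
        exact absurd (show (2 : ZMod p) = 0 by linear_combination -hc) (two_ne hp)
    subst hc1
    rw [hG] at hct
    simp [fromBlocks_multiply, mV, sgn, fromBlocks_inj] at hct
    have hx00 : x0 = 0 := by
      ext i j
      have := congrFun (congrFun hct.1 i) j
      simp only [Matrix.neg_apply, Matrix.zero_apply] at this ⊢
      exact (mul_eq_zero.1 (show (2 : ZMod p) * x0 i j = 0 by linear_combination this)).resolve_left (two_ne hp)
    have hy00 : y0 = 0 := by
      ext i j
      have := congrFun (congrFun hct.2 i) j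
      simp only [Matrix.neg_apply, Matrix.zero_apply] at this ⊢
      exact (mul_eq_zero.1 (show (2 : ZMod p) * y0 i j = 0 by linear_combination -this)).resolve_left (two_ne hp)
    subst hx00 hy00
    have hg0 : g0 ≠ 0 := fun h => by
      haveI : Nonempty (Fin m) := ⟨⟨0, by omega⟩⟩
      rw [hG, det_fromBlocks_zero₁₂, h, det_zero, zero_mul] at hdet
      exact zero_ne_one hdet
    have hv : ∀ v : Fin 3 → ZMod p, g1 * mV m v = mV m v * g0 := by
      intro v
      obtain ⟨c, -, hcv⟩ := hcomm ⟨Multiplicative.ofAdd v, 1⟩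
      rw [hG] at hcv
      simp [fromBlocks_multiply, sgn, fromBlocks_smul, fromBlocks_inj] at hcv
      have hc : c = 1 := by
        by_contra h
        refine hg0 ?_
        have h6 : (c - 1) • g0 = 0 := by rw [sub_smul, one_smul, ← hcv.1, sub_self]
        exact (smul_eq_zero.1 h6).resolve_left (sub_ne_zero.2 h)
      rw [hc] at hcv
      simpa using hcv.2.1.symm
    obtain ⟨ha, hb⟩ := brick (by omega) g0 g1 (by simpa [mV] using hv ![1, 0, 0]) (by simpa [mV] using hv ![0, 1, 0])
    rw [Subgroup.mem_bot, QuotientGroup.mk'_apply, QuotientGroup.eq_one_iff, Matrix.SpecialLinearGroup.mem_center_iff]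
    have hscal : scalar (Fin (m + (m + 1))) (g1 0 0) = (g : Matrix _ _ (ZMod p)) := by
      have h1 : G' = scalar (Fin m ⊕ Fin (m + 1)) (g1 0 0) := by
        conv_lhs => rw [hG, ha, hb]
        simp [scalar_apply, fromBlocks_diagonal]
      have := congrArg (fun X : Matrix _ _ (ZMod p) => X.submatrix e.symm e.symm) h1
      simpa [hG', submatrix_submatrix, submatrix_diagonal_equiv, scalar_apply] using! this.symm
    refine ⟨g1 0 0, ?_, hscal⟩
    have := g.2
    rw [← hscal, scalar_apply, det_diagonal, Finset.prod_const, Finset.card_univ] at this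
    exact this

end Cfsg.Agent.S2533
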