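import Cfsg.Statements.S2534
import Cfsg.Agent.Lib.HallSym.Witness
-- import your own Cfsg.Agent.* helpers here

set_option autoImplicit false
open Cfsg

namespace Cfsg.Agent.S2534

/-- For `n ≥ 5` and a set of primes `π`, the alternating group of degree `n` satisfies the full Sylow analogue for `π` (its maximal `π`-subgroups are pairwise conjugate; for a finite group this says Hall `π`-subgroups exist, are all conjugate, and contain every `π`-subgroup up to conjugacy) if and only if either at most one prime of `π` divides its order or every prime dividing its order lies in `π`. -/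
theorem result (n : ℕ) (hn : 5 ≤ n) (π : Set ℕ) :
    Cfsg.IsDPiGroup π ↥(alternatingGroup (Fin n)) ↔
      ((∀ r s : ℕ, r.Prime → s.Prime → r ∈ π → s ∈ π → r ∣ Nat.card ↥(alternatingGroup (Fin n)) → s ∣ Nat.card ↥(alternatingGroup (Fin n)) → r = s) ∨
        ∀ r : ℕ, r.Prime → r ∣ Nat.card ↥(alternatingGroup (Fin n)) → r ∈ π) := by
  classical
  open Cfsg.Agent.Lib.HallSym in
  haveI : Nontrivial (Fin n) := Fin.nontrivial_iff_two_le.2 (by omega)
  refine ⟨fun hD => ?_, ?_⟩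
  · by_contra hcon
    push Not at hcon
    obtain ⟨⟨r, s, hr, hs, hrπ, hsπ, hrd, hsd, hrs⟩, ⟨t, ht, htd, htπ⟩⟩ := hcon
    have h2 : ∃ r s : ℕ, r.Prime ∧ s.Prime ∧ r ≠ s ∧ r ∈ π ∧ s ∈ π ∧ r ≤ Fintype.card (Fin n) ∧
        s ≤ Fintype.card (Fin n) :=
      ⟨r, s, hr, hs, hrs, hrπ, hsπ, le_of_dvd_alt hr hrd, le_of_dvd_alt hs hsd⟩
    obtain ⟨N, -, hN⟩ := exists_maximal_ge (π := π) (K := (⊥ : Subgroup ↥(alternatingGroup (Fin n))))
      fun p hp hpd => by rw [Subgroup.card_bot] at hpd; exact absurd hpd hp.not_dvd_one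
    obtain ⟨U, hU, hle, -⟩ := exists_canon (hallish_of_alt (hall_of_dpi hD hN)) h2
      ⟨t, ht, le_of_dvd_alt ht htd, htπ⟩
    obtain ⟨Y, hYA, hYpi, hY⟩ := not_maximal_witness hn hU
    obtain ⟨N', hYN, hN'⟩ := exists_maximal_ge (π := π) (K := Y.subgroupOf (alternatingGroup (Fin n)))
      fun p hp hpd => hYpi p hp (by rwa [Nat.card_congr (Subgroup.subgroupOfEquivOfLe hYA).toEquiv] at hpd)
    obtain ⟨g, rfl⟩ := hD N' N hN' hN
    obtain ⟨y, hy, hout⟩ := hY g.1
    exact hout (hle ⟨g * ⟨y, hYA hy⟩ * g⁻¹, ⟨⟨y, hYA hy⟩, hYN (Subgroup.mem_subgroupOf.2 hy), rfl⟩, rfl⟩)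
  · rintro (h | h)
    · exact (one_prime' h).2
    · exact (all_primes h).2.2

end Cfsg.Agent.S2534
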