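import Cfsg.Statements.S2535
import Cfsg.Agent.Lib.HallSym.Classes
-- import your own Cfsg.Agent.* helpers here

set_option autoImplicit false
open Cfsg

namespace Cfsg.Agent.S2535

/-- For every `n` and every set of primes `π`, the following are equivalent for the symmetric group `S` of degree `n` and its alternating subgroup `A`: `S` has a Hall `π`-subgroup; `S` has a Hall `π`-subgroup and all of them are conjugate; `A` has a Hall `π`-subgroup; `A` has a Hall `π`-subgroup and all of them are conjugate. -/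
theorem result (n : ℕ) (π : Set ℕ) :
    (Cfsg.IsEPiGroup π (Equiv.Perm (Fin n)) ↔ Cfsg.IsCPiGroup π (Equiv.Perm (Fin n))) ∧
    (Cfsg.IsEPiGroup π (Equiv.Perm (Fin n)) ↔ Cfsg.IsEPiGroup π ↥(alternatingGroup (Fin n))) ∧
    (Cfsg.IsEPiGroup π ↥(alternatingGroup (Fin n)) ↔ Cfsg.IsCPiGroup π ↥(alternatingGroup (Fin n))) := by
  classical
  open Cfsg.Agent.Lib.HallSym in
  by_cases hn : 2 ≤ n
  · haveI : Nontrivial (Fin n) := Fin.nontrivial_iff_two_le.2 hn
    exact ⟨⟨perm_cpi, fun h => h.1⟩,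
      ⟨fun ⟨M₀, h⟩ => ⟨_, hall_inter h⟩, fun ⟨_, h⟩ => let ⟨M₀, h0, _⟩ := exists_over h; ⟨M₀, h0⟩⟩,
      ⟨alt_cpi, fun h => h.1⟩⟩
  · haveI : Subsingleton (Fin n) := Fin.subsingleton_iff_le_one.2 (by omega)
    have h1 := (all_primes (G := Equiv.Perm (Fin n)) (π := π) fun r hr hrd => absurd hrd (by
      rw [Nat.card_of_subsingleton (1 : Equiv.Perm (Fin n))]; exact hr.not_dvd_one)).2.1
    have h2 := (all_primes (G := ↥(alternatingGroup (Fin n))) (π := π) fun r hr hrd => absurd hrd (by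
      rw [Nat.card_of_subsingleton (1 : ↥(alternatingGroup (Fin n)))]; exact hr.not_dvd_one)).2.1
    exact ⟨iff_of_true h1.1 h1, iff_of_true h1.1 h2.1, iff_of_true h2.1 h2⟩

end Cfsg.Agent.S2535
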