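import Cfsg.Statements.S2537
import Cfsg.Agent.Lib.PSLTwo.Solubilizer
import Cfsg.Agent.Lib.PSLTwo.MaxTools
import Cfsg.Agent.Lib.Hall.Solvable

set_option autoImplicit false
open Cfsg
open Matrix MulAction OnePoint Cfsg.Agent.Lib.PSLTwo
open scoped MatrixGroups

namespace Cfsg.Agent.S2537

theorem factor_of_23 {n : ℕ} (hn0 : n ≠ 0) (h : ∀ r : ℕ, r.Prime → r ∣ n → r ∈ ({2, 3} : Set ℕ)) :
    n = 2 ^ n.factorization 2 * 3 ^ n.factorization 3 := by
  refine Nat.eq_of_factorization_eq hn0 (by positivity) fun r => ?_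
  rw [Nat.factorization_mul (by positivity) (by positivity), Finsupp.add_apply,
    Nat.prime_two.factorization_pow, Nat.prime_three.factorization_pow]
  by_cases hr : r.Prime ∧ r ∣ n
  · rcases h r hr.1 hr.2 with rfl | rfl
    · simp
    · simp
  · have h0 : n.factorization r = 0 := by
      by_cases h1 : r.Prime
      · exact Nat.factorization_eq_zero_of_not_dvd fun h2 => hr ⟨h1, h2⟩
      · exact Nat.factorization_eq_zero_of_not_prime n h1
    by_cases h2 : r = 2
    · subst h2; simp [h0]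
    by_cases h3 : r = 3
    · subst h3; simp [h0]
    · simp [h0, Finsupp.single_apply, Ne.symm h2, Ne.symm h3]

theorem hall_card {G : Type*} [Group G] [Finite G] {H : Subgroup G}
    (hH : Cfsg.IsPiHall ({2, 3} : Set ℕ) H) :
    Nat.card H = 2 ^ (Nat.card G).factorization 2 * 3 ^ (Nat.card G).factorization 3 := by
  have hi : ∀ r, r.Prime → r ∈ ({2, 3} : Set ℕ) → (Nat.card H).factorization r = (Nat.card G).factorization r := by
    intro r hr hm
    rw [← Subgroup.card_mul_index H, Nat.factorization_mul Nat.card_pos.ne' Subgroup.index_ne_zero_of_finite,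
      Finsupp.add_apply, Nat.factorization_eq_zero_of_not_dvd (hH.2 r hr hm), add_zero]
  rw [← hi 2 Nat.prime_two (Or.inl rfl), ← hi 3 Nat.prime_three (Or.inr rfl)]
  exact factor_of_23 Nat.card_pos.ne' hH.1

theorem hall_of_card {G : Type*} [Group G] [Finite G] {H : Subgroup G}
    (hH : Nat.card H = 2 ^ (Nat.card G).factorization 2 * 3 ^ (Nat.card G).factorization 3) :
    Cfsg.IsPiHall ({2, 3} : Set ℕ) H := by
  refine ⟨fun r hr hd => ?_, fun r hr hm hd => ?_⟩
  · rw [hH] at hd
    rcases (Nat.Prime.dvd_mul hr).1 hd with h | h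
    · exact Or.inl ((Nat.prime_dvd_prime_iff_eq hr Nat.prime_two).1 (hr.dvd_of_dvd_pow h))
    · exact Or.inr ((Nat.prime_dvd_prime_iff_eq hr Nat.prime_three).1 (hr.dvd_of_dvd_pow h))
  · have h1 := Subgroup.card_mul_index H
    have hdvd : r ^ ((Nat.card G).factorization r + 1) ∣ Nat.card G := by
      conv_rhs => rw [← h1]
      rw [pow_succ]
      refine mul_dvd_mul ?_ hd
      rw [hH]
      rcases hm with rfl | rfl
      · exact dvd_mul_right _ _
      · exact dvd_mul_left _ _
    exact Nat.pow_succ_factorization_not_dvd Nat.card_pos.ne' hr hdvd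

section
variable {F E : Type*} [Field F] [Fintype F] [DecidableEq F] [Field E] [DecidableEq E] [Finite E]
  [Algebra F E] (hE : Nat.card E = Fintype.card F ^ 2) {p : ℕ} [Fact p.Prime] [CharP F p] (hp : 5 ≤ p)

include hp

theorem facts : Odd (Fintype.card F) ∧ 5 ≤ Fintype.card F ∧ ¬ 3 ∣ Fintype.card F ∧
    (3 ∣ Fintype.card F ^ 2 - 1) ∧ 3 ≤ (Fintype.card F ^ 2 - 1).factorization 2 ∧
    1 ≤ (Fintype.card F ^ 2 - 1).factorization 3 := by
  obtain ⟨k, hk, hq⟩ := FiniteField.card F p
  have hpo : Odd p := hk.odd_of_ne_two (by omega)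
  have hodd : Odd (Fintype.card F) := hq ▸ hpo.pow
  have h5 : 5 ≤ Fintype.card F := by
    rw [hq]; exact le_trans hp (Nat.le_self_pow k.pos.ne' p)
  have h3 : ¬ 3 ∣ Fintype.card F := fun h => by
    rw [hq] at h
    have := (Nat.prime_dvd_prime_iff_eq Nat.prime_three hk).1 (Nat.prime_three.dvd_of_dvd_pow h)
    omega
  have hne : Fintype.card F ^ 2 - 1 ≠ 0 := by
    have : 1 < Fintype.card F ^ 2 := Nat.one_lt_pow two_ne_zero (by omega)
    omega
  have h31 : 3 ∣ Fintype.card F ^ 2 - 1 := by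
    have : Fintype.card F ^ 2 % 3 = 1 := by
      rw [Nat.pow_mod]
      rcases (show Fintype.card F % 3 = 1 ∨ Fintype.card F % 3 = 2 by omega) with h | h <;> rw [h]
    omega
  have h81 : 2 ^ 3 ∣ Fintype.card F ^ 2 - 1 := by
    have : Fintype.card F ^ 2 % 8 = 1 := by
      rw [Nat.pow_mod]
      obtain ⟨j, hj⟩ := hodd
      rcases (show Fintype.card F % 8 = 1 ∨ Fintype.card F % 8 = 3 ∨ Fintype.card F % 8 = 5 ∨
        Fintype.card F % 8 = 7 by omega) with h | h | h | h <;> rw [h]
    omega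
  exact ⟨hodd, h5, h3, h31, (Nat.prime_two.pow_dvd_iff_le_factorization hne).1 h81,
    (Nat.prime_three.pow_dvd_iff_le_factorization hne).1 (by rwa [pow_one])⟩

include hE

theorem card_L_factor :
    (Nat.card (Lsub F)).factorization 2 + 1 = (Fintype.card F ^ 2 - 1).factorization 2 ∧
      (Nat.card (Lsub F)).factorization 3 = (Fintype.card F ^ 2 - 1).factorization 3 := by
  obtain ⟨hodd, h5, h3, -, -, -⟩ := facts (F := F) hp
  have h := two_mul_card_Lsub (F := F) hodd
  rw [card_pgl] at h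
  have hne : Fintype.card F ^ 2 - 1 ≠ 0 := by
    have : 1 < Fintype.card F ^ 2 := Nat.one_lt_pow two_ne_zero (by omega)
    omega
  have h2 := congrArg (fun n => n.factorization 2) h
  have h3' := congrArg (fun n => n.factorization 3) h
  simp only [Nat.factorization_mul two_ne_zero Nat.card_pos.ne', Nat.factorization_mul Fintype.card_ne_zero hne,
    Finsupp.add_apply, Nat.prime_two.factorization] at h2 h3'
  rw [Nat.factorization_eq_zero_of_not_dvd (fun hd => (Nat.not_even_iff_odd.2 hodd) (even_iff_two_dvd.2 hd))] at h2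
  rw [Nat.factorization_eq_zero_of_not_dvd h3] at h3'
  simp only [Finsupp.single_apply, if_true, if_neg (show ¬ (2 : ℕ) = 3 by norm_num), zero_add] at h2 h3'
  exact ⟨by omega, by omega⟩

theorem split_case {H : Subgroup PGL(2, F)} {a b : ℕ} (ha : a + 1 = (Fintype.card F ^ 2 - 1).factorization 2)
    (hb : b = (Fintype.card F ^ 2 - 1).factorization 3) (hc : Nat.card H = 2 ^ a * 3 ^ b)
    {m : ℕ} (hm : m = Fintype.card F - 1 ∨ m = Fintype.card F + 1) (hd : Nat.card H ∣ m) :
    (3 ∣ Fintype.card F - 1 ∧ Fintype.card F % 4 = 1) ∨ (3 ∣ Fintype.card F + 1 ∧ Fintype.card F % 4 = 3) := by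
  obtain ⟨hodd, h5, h3, h31, ha3, hb1⟩ := facts (F := F) hp
  have h4 : 4 ∣ m := (Dvd.dvd.mul_right (pow_dvd_pow 2 (show 2 ≤ a by omega)) _).trans (hc ▸ hd)
  have h3m : 3 ∣ m := (Dvd.dvd.mul_left (dvd_pow_self 3 (show b ≠ 0 by omega)) _).trans (hc ▸ hd)
  obtain ⟨j, hj⟩ := hodd
  rcases hm with rfl | rfl
  · exact Or.inl ⟨h3m, by omega⟩
  · exact Or.inr ⟨h3m, by omega⟩

theorem exists_card_of_split {m : ℕ}
    (hm : (m = Fintype.card F - 1 ∧ 3 ∣ m ∧ Fintype.card F % 4 = 1) ∨
      (m = Fintype.card F + 1 ∧ 3 ∣ m ∧ Fintype.card F % 4 = 3)) :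
    ∃ H : Subgroup PGL(2, F), H ≤ Lsub F ∧
      Nat.card H = 2 ^ (Nat.card (Lsub F)).factorization 2 * 3 ^ (Nat.card (Lsub F)).factorization 3 := by
  classical
  obtain ⟨hodd, h5, h3, h31, ha3, hb1⟩ := facts (F := F) hp
  obtain ⟨h2L, h3L⟩ := card_L_factor hE hp
  obtain ⟨z, w, hzw, hcard⟩ : ∃ z w : OnePoint E, IsTorusPair F z w ∧ Nat.card (torus F z w) = m := by
    rcases hm with ⟨rfl, -⟩ | ⟨rfl, -⟩
    · obtain ⟨z, w, h, hr⟩ := exists_rat_pair (F := F) hE
      exact ⟨z, w, h, (card_torus hE h).1 hr⟩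
    · obtain ⟨z, w, h, hr⟩ := exists_nonrat_pair (F := F) hE
      exact ⟨z, w, h, (card_torus hE h).2 hr⟩
  set M : Subgroup PGL(2, F) := pairStab F z w ⊓ Lsub F with hMdef
  have hM : Nat.card M = m := by
    obtain ⟨g, hgT, hg⟩ := exists_torus_not_Lsub hE hodd hzw
    have := card_inf_Lsub hodd (T := pairStab F z w) ⟨g, torus_le_pairStab z w hgT, hg⟩
    rw [(pairStab_spec hE hzw).1, hcard] at this
    rw [hMdef]; omega
  haveI := isSolvable_pairStab hE (F := F) hzw.1
  haveI : Group.IsSolvable M := solvable_of_solvable_injective (Subgroup.inclusion_injective inf_le_left)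
  obtain ⟨K, hK⟩ := Cfsg.Agent.Lib.Hall.exists_piHall (G := M) ({2, 3} : Set ℕ)
  refine ⟨K.map M.subtype, (Subgroup.map_subtype_le K).trans inf_le_right, ?_⟩
  rw [Subgroup.card_map_of_injective M.subtype_injective, hall_card (H := K) hK, hM]
  -- the complementary factor is prime to six apart from a single two
  obtain ⟨n, hn, hn2, hn3⟩ : ∃ n, Fintype.card F ^ 2 - 1 = m * n ∧ n % 4 = 2 ∧ ¬ 3 ∣ n := by
    have e : Fintype.card F ^ 2 - 1 = (Fintype.card F + 1) * (Fintype.card F - 1) := by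
      rw [← Nat.sq_sub_sq, one_pow]
    rcases hm with ⟨rfl, h1, h2⟩ | ⟨rfl, h1, h2⟩
    · exact ⟨Fintype.card F + 1, by rw [e, mul_comm], by omega, by omega⟩
    · exact ⟨Fintype.card F - 1, e, by omega, by omega⟩
  have hn0 : n ≠ 0 := by omega
  have hm0 : m ≠ 0 := hM ▸ Nat.card_pos.ne'
  have f2 : n.factorization 2 = 1 := by
    refine le_antisymm ?_ ((Nat.prime_two.pow_dvd_iff_le_factorization hn0).1 (by omega : 2 ^ 1 ∣ n))
    by_contra h
    have := (Nat.prime_two.pow_dvd_iff_le_factorization hn0).2 (show 2 ≤ n.factorization 2 by omega)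
    omega
  have f3 : n.factorization 3 = 0 := Nat.factorization_eq_zero_of_not_dvd hn3
  have e2 := congrArg (fun k => k.factorization 2) hn
  have e3 := congrArg (fun k => k.factorization 3) hn
  simp only [Nat.factorization_mul hm0 hn0, Finsupp.add_apply, f2, f3] at e2 e3
  rw [show (Nat.card (Lsub F)).factorization 2 = m.factorization 2 by omega,
    show (Nat.card (Lsub F)).factorization 3 = m.factorization 3 by omega]

theorem main :
    (∃ H : Subgroup PGL(2, F), H ≤ Lsub F ∧
      Nat.card H = 2 ^ (Nat.card (Lsub F)).factorization 2 * 3 ^ (Nat.card (Lsub F)).factorization 3) ↔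
    ((3 ∣ Fintype.card F - 1 ∧ Fintype.card F % 4 = 1) ∨ (3 ∣ Fintype.card F + 1 ∧ Fintype.card F % 4 = 3) ∨
      2 ^ (Fintype.card F ^ 2 - 1).factorization 2 * 3 ^ (Fintype.card F ^ 2 - 1).factorization 3 = 24 ∨
      2 ^ (Fintype.card F ^ 2 - 1).factorization 2 * 3 ^ (Fintype.card F ^ 2 - 1).factorization 3 = 48) := by
  classical
  obtain ⟨hodd, h5, h3, h31, ha3, hb1⟩ := facts (F := F) hp
  obtain ⟨h2L, h3L⟩ := card_L_factor hE hp
  set a := (Nat.card (Lsub F)).factorization 2 with ha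
  set b := (Nat.card (Lsub F)).factorization 3 with hb
  rw [← h2L, ← h3L, pow_succ]
  constructor
  · rintro ⟨H, hL, hc⟩
    have hpp : p.Prime := Fact.out
    rcases classify (p := p) hE H with ⟨c, h⟩ | ⟨z, w, hzw, hz, h⟩ | ⟨z, w, hzw, k, hk, hd, hT, h, -, -⟩ |
      ⟨-, hc', -⟩ | ⟨-, hc', -⟩ | ⟨-, hc', -⟩ | ⟨K, γ, hq, h⟩
    · exfalso
      have hd := Subgroup.card_dvd_of_le (le_inf h hL)
      have h2 := two_mul_card_stab_Lsub hodd c
      have hd2 : 2 ^ (a + 1) * 3 ^ b ∣ Fintype.card F * (Fintype.card F - 1) := by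
        rw [← h2, pow_succ, mul_comm (2 ^ a) 2, mul_assoc, ← hc]; exact Nat.mul_dvd_mul_left 2 hd
      have hcop : Nat.Coprime (2 ^ (a + 1)) (Fintype.card F) :=
        Nat.Coprime.pow_left _ (Nat.coprime_two_left.2 hodd)
      have h4 : 2 ^ (a + 1) ∣ Fintype.card F - 1 := hcop.dvd_of_dvd_mul_left (dvd_of_mul_right_dvd hd2)
      have hne : Fintype.card F ^ 2 - 1 ≠ 0 := by
        have : 1 < Fintype.card F ^ 2 := Nat.one_lt_pow two_ne_zero (by omega)
        omega
      have h8 : 2 ^ (a + 1 + 1) ∣ Fintype.card F ^ 2 - 1 := by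
        rw [show Fintype.card F ^ 2 - 1 = (Fintype.card F - 1) * (Fintype.card F + 1) by
          rw [mul_comm, ← Nat.sq_sub_sq, one_pow], pow_succ]
        exact mul_dvd_mul h4 (even_iff_two_dvd.1 hodd.add_one)
      rw [h2L] at h8
      exact Nat.pow_succ_factorization_not_dvd hne Nat.prime_two h8
    · obtain ⟨g, hgT, hg⟩ := exists_torus_not_Lsub hE hodd hzw
      have hM := card_inf_Lsub hodd (T := pairStab F z w) ⟨g, torus_le_pairStab z w hgT, hg⟩
      rw [(pairStab_spec hE hzw).1] at hM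
      have hd := Subgroup.card_dvd_of_le (le_inf (h.trans (torus_le_pairStab z w)) hL)
      rw [show Nat.card (pairStab F z w ⊓ Lsub F : Subgroup PGL(2, F)) = Nat.card (torus F z w) by omega] at hd
      exact (split_case hE hp h2L h3L hc (card_torus_cases hE hzw) hd).imp_right Or.inl
    · obtain ⟨g, hgT, hg⟩ := exists_torus_not_Lsub hE hodd hzw
      have hM := card_inf_Lsub hodd (T := pairStab F z w) ⟨g, torus_le_pairStab z w hgT, hg⟩
      rw [(pairStab_spec hE hzw).1] at hM
      have hd := Subgroup.card_dvd_of_le (le_inf h hL)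
      rw [show Nat.card (pairStab F z w ⊓ Lsub F : Subgroup PGL(2, F)) = Nat.card (torus F z w) by omega] at hd
      exact (split_case hE hp h2L h3L hc (card_torus_cases hE hzw) hd).imp_right Or.inl
    · right; right; left
      linarith

    · right; right; right
      linarith

    · exfalso
      have : 5 ∣ 2 ^ a * 3 ^ b := by rw [← hc, hc']; norm_num
      rcases (Nat.Prime.dvd_mul (by norm_num : Nat.Prime 5)).1 this with h | h
      · have := (Nat.prime_dvd_prime_iff_eq (by norm_num) Nat.prime_two).1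
          ((by norm_num : Nat.Prime 5).dvd_of_dvd_pow h)
        omega
      · have := (Nat.prime_dvd_prime_iff_eq (by norm_num) Nat.prime_three).1
          ((by norm_num : Nat.Prime 5).dvd_of_dvd_pow h)
        omega
    · exfalso
      obtain ⟨e, he, hKe⟩ := card_subfield_eq_pow p K
      have hpd : p ∣ Nat.card H := by
        rw [← Subgroup.card_map_of_injective (f := (MulAut.conj γ).toMonoidHom) (MulAut.conj γ).injective]
        rcases h with h | ⟨ho, h⟩ <;> rw [h]
        · rw [card_subPGL, hKe]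
          exact dvd_mul_of_dvd_left (dvd_pow_self p (by omega)) _
        · refine ((Nat.coprime_primes hpp Nat.prime_two).2 (by omega)).dvd_of_dvd_mul_left ?_
          rw [two_mul_card_subPSL K ho, hKe]
          exact dvd_mul_of_dvd_left (dvd_pow_self p (by omega)) _
      rw [hc] at hpd
      rcases (Nat.Prime.dvd_mul hpp).1 hpd with h | h
      · have := (Nat.prime_dvd_prime_iff_eq hpp Nat.prime_two).1 (hpp.dvd_of_dvd_pow h); omega
      · have := (Nat.prime_dvd_prime_iff_eq hpp Nat.prime_three).1 (hpp.dvd_of_dvd_pow h); omega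
  · intro h
    have h2 : (2 : F) ≠ 0 := Ring.two_ne_zero (ringChar_ne_two hodd)
    obtain ⟨x, y, hxy⟩ := exists_sum_sq_neg_one F
    rcases h with ⟨h1, h4⟩ | ⟨h1, h4⟩ | h | h
    · exact exists_card_of_split hE hp (Or.inl ⟨rfl, h1, h4⟩)
    · exact exists_card_of_split hE hp (Or.inr ⟨rfl, h1, h4⟩)
    · refine ⟨qA hxy h2, qA_le_Lsub hxy h2, ?_⟩
      rw [card_qA hxy h2]
      linarith
    · have hN : 2 ^ a * 3 ^ b = 24 := by linarith
      have h16 : 2 ^ 4 ∣ Fintype.card F ^ 2 - 1 := by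
        have hne : Fintype.card F ^ 2 - 1 ≠ 0 := by
          have : 1 < Fintype.card F ^ 2 := Nat.one_lt_pow two_ne_zero (by omega)
          omega
        refine (pow_dvd_pow 2 ?_).trans (h2L ▸ Nat.ordProj_dvd (Fintype.card F ^ 2 - 1) 2)
        by_contra hlt
        have h8 : 2 ^ 3 ∣ 2 ^ a * 3 ^ b := hN ▸ by norm_num
        have hcop : Nat.Coprime (2 ^ 3) (3 ^ b) := Nat.Coprime.pow _ _ (by norm_num)
        have := Nat.pow_dvd_pow_iff_le_right (show 1 < 2 by norm_num) |>.1 (hcop.dvd_of_dvd_mul_right h8)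
        omega
      have hsq : IsSquare (2 : F) := by
        rw [FiniteField.isSquare_two_iff]
        obtain ⟨j, hj⟩ := hodd
        have h16' : (Fintype.card F ^ 2 - 1) % 16 = 0 := by
          norm_num at h16; omega
        have hmod : Fintype.card F ^ 2 % 16 = 1 := by
          have : 1 < Fintype.card F ^ 2 := Nat.one_lt_pow two_ne_zero (by omega)
          omega
        rw [Nat.pow_mod] at hmod
        have hq16 : Fintype.card F % 16 < 16 := Nat.mod_lt _ (by norm_num)
        constructor <;> intro h8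
        · rcases (show Fintype.card F % 16 = 3 ∨ Fintype.card F % 16 = 11 by omega) with e | e <;>
            rw [e] at hmod <;> norm_num at hmod
        · rcases (show Fintype.card F % 16 = 5 ∨ Fintype.card F % 16 = 13 by omega) with e | e <;>
            rw [e] at hmod <;> norm_num at hmod
      refine ⟨qN hxy, (qN_le_Lsub_iff hxy h2).2 hsq, ?_⟩
      rw [card_qN hxy h2, hN]

end


/-- Let `F` be a finite field with `q` elements of characteristic `p ≥ 5`, and `ε = 1` if `q ≡ 1 (mod 4)`, `ε = -1` otherwise. Then `PSL(2, F)` has a Hall `{2, 3}`-subgroup if and only if `3` divides `q − ε`, or the `{2,3}`-part of `q² − 1` is 24, or the `{2,3}`-part of `q² − 1` is 48 (the `{2,3}`-part of `m` being the largest divisor of `m` with no prime factor other than 2 and 3). -/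
theorem result {F : Type*} [Field F] [Fintype F] {p : ℕ} [Fact p.Prime] [CharP F p]
    (hp : 5 ≤ p) (q : ℕ) (hq : Fintype.card F = q) :
    (∃ H : Subgroup (Matrix.ProjectiveSpecialLinearGroup (Fin 2) F), Cfsg.IsPiHall ({2, 3} : Set ℕ) H) ↔
      (3 ∣ q - 1 ∧ q % 4 = 1) ∨ (3 ∣ q + 1 ∧ q % 4 = 3) ∨
        2 ^ (q ^ 2 - 1).factorization 2 * 3 ^ (q ^ 2 - 1).factorization 3 = 24 ∨
        2 ^ (q ^ 2 - 1).factorization 2 * 3 ^ (q ^ 2 - 1).factorization 3 = 48 := by
  classical
  subst hq
  obtain ⟨E, _, _, _, hE⟩ := exists_quadExt F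
  rw [← main hE hp]
  constructor
  · rintro ⟨H, hH⟩
    refine ⟨H.map (toP F), map_toP_le H, ?_⟩
    rw [Subgroup.card_map_of_injective toP_injective, hall_card hH, card_Lsub]
  · rintro ⟨X, hX, hc⟩
    refine ⟨X.comap (toP F), hall_of_card ?_⟩
    rw [← Subgroup.card_map_of_injective toP_injective, map_comap_toP hX, hc, card_Lsub]

end Cfsg.Agent.S2537
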