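import Cfsg.Statements.S2538
import Cfsg.Agent.Lib.HallSym.Classes
-- import your own Cfsg.Agent.* helpers here

set_option autoImplicit false
open Cfsg

namespace Cfsg.Agent.S2538

/-- For every `n` and every set of primes `π`, a subgroup of the alternating group of degree `n` is a Hall `π`-subgroup of it if and only if it is the intersection with the alternating group of some Hall `π`-subgroup of the symmetric group of degree `n`. -/
theorem result (n : ℕ) (π : Set ℕ)
    (M : Subgroup ↥(alternatingGroup (Fin n))) :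
    Cfsg.IsPiHall π M ↔ ∃ M₀ : Subgroup (Equiv.Perm (Fin n)), Cfsg.IsPiHall π M₀ ∧ M = M₀.subgroupOf (alternatingGroup (Fin n)) := by
  classical
  open Cfsg.Agent.Lib.HallSym in
  by_cases hn : 2 ≤ n
  · haveI : Nontrivial (Fin n) := Fin.nontrivial_iff_two_le.2 hn
    exact ⟨exists_over, fun ⟨M₀, h, e⟩ => e ▸ hall_inter h⟩
  · haveI : Subsingleton (Fin n) := Fin.subsingleton_iff_le_one.2 (by omega)
    have h1 := all_primes (G := Equiv.Perm (Fin n)) (π := π) fun r hr hrd => absurd hrd (by
      rw [Nat.card_of_subsingleton (1 : Equiv.Perm (Fin n))]; exact hr.not_dvd_one)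
    have h2 := all_primes (G := ↥(alternatingGroup (Fin n))) (π := π) fun r hr hrd => absurd hrd (by
      rw [Nat.card_of_subsingleton (1 : ↥(alternatingGroup (Fin n)))]; exact hr.not_dvd_one)
    exact iff_of_true ((h2.1 M).2 (Subsingleton.elim _ _)) ⟨⊤, (h1.1 ⊤).2 rfl, Subsingleton.elim _ _⟩

end Cfsg.Agent.S2538
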