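import Cfsg.Statements.S2540
import Cfsg.Agent.Lib.Classical.Simple
import Mathlib

set_option autoImplicit false
open Cfsg

namespace Cfsg.Agent.S2540

open Matrix Subgroup
open scoped commutatorElement

/-- Over a perfect group `S` with simple central quotient, a subgroup normalized by `S` contains `S` or
centralizes it. -/
theorem dichotomy {S Γ : Type*} [Group S] [Group Γ] (f : S →* Γ) (hf : Function.Injective f)
    (hperf : commutator S = ⊤) (hsimp : IsSimpleGroup (S ⧸ center S)) (G : Subgroup Γ)
    (hfn : ∀ g : Γ, ∀ s : S, g * f s * g⁻¹ ∈ f.range)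
    (hG : ∀ s : S, ∀ g ∈ G, f s * g * (f s)⁻¹ ∈ G) :
    f.range ≤ G ∨ ∀ g ∈ G, ∀ s : S, Commute g (f s) := by
  set N := G.comap f
  have hNn : N.Normal := ⟨fun n hn s => by
    show f (s * n * s⁻¹) ∈ G
    rw [map_mul, map_mul, map_inv]; exact hG s _ hn⟩
  have himg : (N.map (QuotientGroup.mk' (center S))).Normal := hNn.map _ (QuotientGroup.mk'_surjective _)
  rcases hsimp.eq_bot_or_eq_top_of_normal _ himg with h | h
  · right
    have hNZ : N ≤ center S := by
      rw [Subgroup.map_eq_bot_iff, QuotientGroup.ker_mk'] at h; exact h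
    intro g hg
    -- `s ↦ ⁅g, s⁆` takes central values, so is a homomorphism to an abelian group
    have hval : ∀ s : S, ∃ z ∈ center S, f z = g * f s * g⁻¹ * (f s)⁻¹ := by
      intro s
      obtain ⟨t, ht⟩ := hfn g s
      refine ⟨t * s⁻¹, hNZ ?_, by rw [map_mul, map_inv, ht]⟩
      show f (t * s⁻¹) ∈ G
      rw [map_mul, map_inv, ht]
      have : g * f s * g⁻¹ * (f s)⁻¹ = g * (f s * g⁻¹ * (f s)⁻¹) := by group
      rw [this]
      exact mul_mem hg (hG s _ (inv_mem hg))
    choose z hz hzf using hval
    let φ : S →* center S := MonoidHom.mk' (fun s => ⟨z s, hz s⟩) fun s t => by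
      apply Subtype.ext
      apply hf
      show f (z (s * t)) = f (z s * z t)
      rw [map_mul, hzf, map_mul]
      have hc : Commute (f (z t)) (f s) :=
        (show Commute (z t) s from (mem_center_iff.1 (hz t) s).symm).map f
      calc g * (f s * f t) * g⁻¹ * (f s * f t)⁻¹
          = (g * f s * g⁻¹) * (g * f t * g⁻¹ * (f t)⁻¹) * (f s)⁻¹ := by group
        _ = (g * f s * g⁻¹) * f (z t) * (f s)⁻¹ := by rw [hzf t]
        _ = (g * f s * g⁻¹) * ((f s)⁻¹ * f (z t)) := by
              rw [mul_assoc, hc.inv_right.eq]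
        _ = f (z s) * f (z t) := by rw [hzf s]; group
    have hker : commutator S ≤ φ.ker := by
      rw [_root_.commutator_def, commutator_le]
      intro a _ b _
      rw [MonoidHom.mem_ker, map_commutatorElement, commutatorElement_eq_one_iff_mul_comm]
      exact Subtype.ext (mem_center_iff.1 (φ a).2 (φ b : S)).symm
    intro s
    have h1 : z s = 1 := congrArg Subtype.val (hker (hperf ▸ Subgroup.mem_top s))
    have h2 := hzf s
    rw [h1, map_one] at h2
    show g * f s = f s * g
    exact mul_inv_eq_iff_eq_mul.1 (mul_inv_eq_one.1 h2.symm)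
  · left
    have hsup : N ⊔ center S = ⊤ := by
      rw [← QuotientGroup.ker_mk' (center S), ← comap_map_eq, h, comap_top]
    have hle : commutator S ≤ N := by
      rw [_root_.commutator_def, commutator_le]
      intro a _ b _
      obtain ⟨n, hn, c, hc, rfl⟩ := mem_sup_of_normal_right.1 (hsup ▸ mem_top a)
      have hcb : c * b = b * c := (mem_center_iff.1 hc b).symm
      have : ⁅n * c, b⁆ = n * (b * n⁻¹ * b⁻¹) := by
        rw [commutatorElement_def]
        calc n * c * b * (n * c)⁻¹ * b⁻¹ = n * (c * b) * c⁻¹ * n⁻¹ * b⁻¹ := by group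
          _ = n * (b * c) * c⁻¹ * n⁻¹ * b⁻¹ := by rw [hcb]
          _ = _ := by group
      rw [this]
      exact mul_mem hn (hNn.conj_mem _ (inv_mem hn) b)
    rintro _ ⟨s, rfl⟩
    exact hle (hperf ▸ Subgroup.mem_top s)

/-- Let F be a finite field and n ≥ 1, excluding the case n = 2 with #F ≤ 3. A subgroup of GL_n(F) that is normalized by every element of SL_n(F) either consists of scalar matrices or contains SL_n(F). -/
theorem result {F : Type*} [Field F] [Fintype F] (n : ℕ) (hn : 1 ≤ n) (hex : ¬ (n = 2 ∧ Fintype.card F ≤ 3)) (G : Subgroup (Matrix.GeneralLinearGroup (Fin n) F)) (hG : ∀ s : Matrix.SpecialLinearGroup (Fin n) F, ∀ g ∈ G, (Matrix.SpecialLinearGroup.toGL s) * g * (Matrix.SpecialLinearGroup.toGL s)⁻¹ ∈ G) : (∀ g ∈ G, ∃ c : F, (g : Matrix (Fin n) (Fin n) F) = c • (1 : Matrix (Fin n) (Fin n) F)) ∨ (Matrix.SpecialLinearGroup.toGL : Matrix.SpecialLinearGroup (Fin n) F →* _).range ≤ G := by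
  classical
  by_cases h1 : n = 1
  · left
    subst h1
    intro g _
    refine ⟨(g : Matrix (Fin 1) (Fin 1) F) 0 0, ?_⟩
    ext i j
    fin_cases i; fin_cases j; simp
  have hsimp : IsSimpleGroup (Matrix.SpecialLinearGroup (Fin n) F ⧸ center (Matrix.SpecialLinearGroup (Fin n) F)) := by
    rcases Nat.lt_or_ge n 3 with h | h
    · obtain rfl : n = 2 := by omega
      exact Matrix.ProjectiveSpecialLinearGroup.rank_two_simple
        (by rw [Nat.card_eq_fintype_card]; by_contra h'; exact hex ⟨rfl, by omega⟩)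
    · exact Lib.Classical.isSimpleGroup_PSL (by simpa using h)
  have hperf : commutator (Matrix.SpecialLinearGroup (Fin n) F) = ⊤ := by
    rcases Nat.lt_or_ge n 3 with h | h
    · obtain rfl : n = 2 := by omega
      have hq : 4 ≤ Fintype.card F := by by_contra h'; exact hex ⟨rfl, by omega⟩
      obtain ⟨a, ha⟩ := IsCyclic.exists_generator (α := Fˣ)
      refine Matrix.SL2.commutator_eq_top (a := (a : F)) a.ne_zero fun e => ?_
      have h2 := orderOf_eq_card_of_forall_mem_zpowers ha
      have h3 := orderOf_le_of_pow_eq_one two_pos (Units.ext (by simpa using e) : a ^ 2 = 1)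
      rw [h2, Nat.card_eq_fintype_card, Fintype.card_units] at h3
      omega
    · exact Lib.Classical.SL_commutator_eq_top (by simpa using h)
  have hfn : ∀ g : GL (Fin n) F, ∀ s : Matrix.SpecialLinearGroup (Fin n) F,
      g * SpecialLinearGroup.toGL s * g⁻¹ ∈ (SpecialLinearGroup.toGL : Matrix.SpecialLinearGroup (Fin n) F →* _).range := by
    intro g s
    refine ⟨⟨((g * SpecialLinearGroup.toGL s * g⁻¹ : GL (Fin n) F) : Matrix (Fin n) (Fin n) F), ?_⟩, Units.ext rfl⟩
    rw [← Matrix.GeneralLinearGroup.val_det_apply, map_mul, map_mul, map_inv, mul_right_comm, mul_inv_cancel, one_mul]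
    exact s.2
  rcases dichotomy SpecialLinearGroup.toGL SpecialLinearGroup.toGL_injective hperf hsimp G hfn hG with h | h
  · exact Or.inr h
  · left
    intro g hg
    obtain ⟨r, hr⟩ := Matrix.mem_range_scalar_of_commute_transvectionStruct (M := (g : Matrix (Fin n) (Fin n) F))
      fun t => by
        have := (h g hg ⟨t.toMatrix, by simp⟩).eq
        exact ((congrArg (fun u : GL (Fin n) F => (u : Matrix (Fin n) (Fin n) F)) this).symm : _)
    exact ⟨r, by rw [← hr, Matrix.scalar_apply]; ext i j; simp [Matrix.diagonal_apply, Matrix.one_apply]⟩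

end Cfsg.Agent.S2540
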