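import Cfsg.Statements.S2541

set_option autoImplicit false
open Cfsg

namespace Cfsg.Agent.S2541

/-- Let F be a field with 9 elements. The symmetric group S_6 is not isomorphic to PGL_2(F) (although both have index-2 subgroups isomorphic to A_6). -/
theorem result {F : Type*} [Field F] [Fintype F] (hF : Fintype.card F = 9) : ¬ Nonempty (Equiv.Perm (Fin 6) ≃* Matrix.ProjGenLinGroup (Fin 2) F) := by
  rintro ⟨e⟩
  classical
  obtain ⟨g, hg⟩ := IsCyclic.exists_ofOrder_eq_natCard (α := Fˣ)
  rw [Nat.card_units, Nat.card_eq_fintype_card, hF] at hg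
  let D : GL (Fin 2) F :=
    ⟨Matrix.diagonal ![(g : F), 1], Matrix.diagonal ![((g⁻¹ : Fˣ) : F), 1],
      by rw [Matrix.diagonal_mul_diagonal, ← Matrix.diagonal_one]; congr 1; funext i; fin_cases i <;> simp,
      by rw [Matrix.diagonal_mul_diagonal, ← Matrix.diagonal_one]; congr 1; funext i; fin_cases i <;> simp⟩
  have hpow : ∀ k, Matrix.ProjGenLinGroup.mk D ^ k = 1 ↔ g ^ k = 1 := by
    intro k
    rw [← map_pow, Matrix.ProjGenLinGroup.mk_eq_one,
      Matrix.GeneralLinearGroup.mem_center_iff_val_mem_range_scalar, Units.val_pow_eq_pow_val]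
    show Matrix.diagonal ![(g : F), 1] ^ k ∈ _ ↔ _
    rw [Matrix.diagonal_pow]
    constructor
    · rintro ⟨c, hc⟩
      have h0 := congrFun (congrFun hc 0) 0
      have h1 := congrFun (congrFun hc 1) 1
      simp at h0 h1
      apply Units.ext
      simp [← h0, h1]
    · intro hk
      refine ⟨1, ?_⟩
      rw [map_one, ← Matrix.diagonal_one]
      congr 1
      funext i
      fin_cases i <;> simp [← Units.val_pow_eq_pow_val, hk]
  have hord : orderOf (e.symm (Matrix.ProjGenLinGroup.mk D)) = 8 := by
    rw [MulEquiv.orderOf_eq, orderOf_eq_orderOf_iff.2 hpow, hg]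
  set x := e.symm (Matrix.ProjGenLinGroup.mk D)
  have h4 : orderOf x ∣ 4 := by
    rw [← Equiv.Perm.lcm_cycleType, Multiset.lcm_dvd]
    intro n hn
    have h8 : n ∣ 8 := hord ▸ Equiv.Perm.dvd_of_mem_cycleType hn
    have h6 : n ≤ 6 := by
      have := Equiv.Perm.le_card_support_of_mem_cycleType hn
      exact this.trans (by simpa using Finset.card_le_univ x.support)
    interval_cases n <;> simp_all
  rw [hord] at h4
  norm_num at h4

end Cfsg.Agent.S2541
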