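import Cfsg.Statements.S2542
import Cfsg.Agent.Lib.PSLTwo.AltFive
import Cfsg.Agent.Lib.PSLTwo.Tools
import Cfsg.Agent.Lib.Perm.Burnside
import Cfsg.Agent.Lib.Classical.Order
import Cfsg.Agent.Lib.Classical.SLTwoSylow

set_option autoImplicit false
open Cfsg

namespace Cfsg.Agent.S2542

open Cfsg.Agent.Lib

/-- PSL2(11) has a subgroup of index 11 isomorphic to A5, and its action on the 11 cosets is doubly transitive. -/
theorem result {F : Type*} [Field F] [Fintype F] (hF : Fintype.card F = 11) : ∃ H : Subgroup (Matrix.ProjectiveSpecialLinearGroup (Fin 2) F), H.index = 11 ∧ Nonempty (H ≃* alternatingGroup (Fin 5)) ∧ MulAction.IsMultiplyPretransitive (Matrix.ProjectiveSpecialLinearGroup (Fin 2) F) ((Matrix.ProjectiveSpecialLinearGroup (Fin 2) F) ⧸ H) 2 := by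
  classical
  have hodd : Odd (Fintype.card F) := by rw [hF]; decide
  have h2 := Cfsg.Agent.Lib.Classical.two_ne_zero_of_odd_card hodd
  obtain ⟨x, y, hxy⟩ := PSLTwo.exists_sum_sq_neg_one F
  obtain ⟨s, hs⟩ : IsSquare (5 : F) := PSLTwo.isSquare_five_iff.2 (Or.inl (by rw [hF]; decide))
  have hs' : s ^ 2 = 5 := by rw [sq]; exact hs.symm
  obtain ⟨⟨e⟩, h60⟩ := PSLTwo.qA5_iso hxy h2 hs'
  obtain ⟨H, hH, ⟨eH⟩⟩ := PSLTwo.exists_psl_subgroup (PSLTwo.qA5_le_Lsub hxy h2 hs')
  set G := Matrix.ProjectiveSpecialLinearGroup (Fin 2) F with hGdef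
  have hG : Nat.card G = 660 := by
    have h := Cfsg.Agent.Lib.Classical.two_mul_card_PSL_two_of_odd (F := F) hodd
    rw [hF] at h
    exact Nat.eq_of_mul_eq_mul_left two_pos (h.trans (by norm_num))
  haveI : Finite G := Nat.finite_of_card_ne_zero (by omega)
  haveI : IsSimpleGroup G := Matrix.ProjectiveSpecialLinearGroup.rank_two_simple (by
    rw [Nat.card_eq_fintype_card, hF]; norm_num)
  have hidx : H.index = 11 := by
    have h1 := H.card_mul_index
    rw [Nat.card_congr eH.toEquiv, h60, hG] at h1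
    omega
  refine ⟨H, hidx, ⟨eH.trans e⟩, ?_⟩
  haveI : Fact (Nat.Prime 11) := ⟨by norm_num⟩
  haveI : FaithfulSMul G (G ⧸ H) := by
    refine ⟨fun {a b} hab => ?_⟩
    have hker : H.normalCore = ⊥ := (Subgroup.Normal.eq_bot_or_eq_top H.normalCore_normal).resolve_right fun h => by
      have : H = ⊤ := top_le_iff.1 (h ▸ H.normalCore_le)
      rw [this, Subgroup.index_top] at hidx
      omega
    rw [Subgroup.normalCore_eq_ker] at hker
    exact (MonoidHom.ker_eq_bot_iff _).1 hker (Equiv.ext hab)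
  letI : Fintype (G ⧸ H) := Fintype.ofFinite _
  obtain ⟨c, hc⟩ := exists_prime_orderOf_dvd_card' (G := G) 11 (by rw [hG]; norm_num)
  obtain ⟨lab, hlab⟩ := Perm.exists_label_faithful (Ω := G ⧸ H) hidx hc
  refine Perm.two_transitive hlab fun haff => ?_
  haveI := Perm.isSolvable_of_affine lab haff
  have hcomm := IsSimpleGroup.comm_iff_isSolvable.2 this
  have hn : H.Normal := ⟨fun n hn g => by rwa [hcomm, inv_mul_cancel_left]⟩
  rcases hn.eq_bot_or_eq_top with h | h <;> rw [h] at hidx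
  · rw [Subgroup.index_bot, hG] at hidx; omega
  · rw [Subgroup.index_top] at hidx; omega

end Cfsg.Agent.S2542
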