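import Cfsg.Statements.S2543
import Cfsg.Agent.Lib.PSLTwo.AltFiveCopies
import Cfsg.Agent.Lib.PSLTwo.Tools
import Cfsg.Agent.Lib.PSLTwo.Over
import Cfsg.Agent.Lib.PSLTwo.MaxTools
import Cfsg.Agent.Lib.PSLTwo.ClassSizes
import Cfsg.Agent.Lib.Classical.Order
import Cfsg.Agent.Lib.Classical.SLTwoSylow
-- import your own Cfsg.Agent.* helpers here

set_option autoImplicit false
open scoped Pointwise
open Cfsg

namespace Cfsg.Agent.S2543

open Cfsg.Agent.Lib Cfsg.Agent.Lib.PSLTwo
open scoped MatrixGroups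

section Aux

theorem alt5_inv : ∀ W : alternatingGroup (Fin 5), W * W * W = 1 → W ≠ 1 →
    ∃ u : alternatingGroup (Fin 5), u * u = 1 ∧ u * W * u = W * W := by decide +kernel

theorem alt5_orders : ∀ g : alternatingGroup (Fin 5),
    g * g = 1 ∨ g * g * g = 1 ∨ g * g * g * g * g = 1 := by decide +kernel

variable {F : Type*} [Field F] [Fintype F] [DecidableEq F] {x y : F} (hxy : x ^ 2 + y ^ 2 = -1)
  (h2 : (2 : F) ≠ 0)

/-- Each copy of `A₅` over the standard `A₄` is generated by it and an involution inverting `qW`. -/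
theorem exists_inverter {X : Subgroup PGL(2, F)} (e : X ≃* alternatingGroup (Fin 5)) (hA : qA hxy h2 ≤ X) :
    ∃ u ∈ X, u * u = 1 ∧ u * qW hxy h2 = (qW hxy h2)⁻¹ * u ∧
      ∀ Y : Subgroup PGL(2, F), qA hxy h2 ≤ Y → u ∈ Y → X ≤ Y := by
  set w := qW hxy h2 with hw
  have hwX : w ∈ X := hA (qW_mem_qA hxy h2)
  have h3 : w * w * w = 1 := by rw [← pow_two, ← pow_succ]; exact qW_cube hxy h2
  have h1 : w ≠ 1 := fun h => by
    have := orderOf_qW hxy h2
    rw [← hw, h, orderOf_one] at this; omega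
  obtain ⟨U, hU2, hUW⟩ := alt5_inv (e ⟨w, hwX⟩)
    (by rw [← map_mul, ← map_mul, show (⟨w, hwX⟩ * ⟨w, hwX⟩ * ⟨w, hwX⟩ : X) = 1 from Subtype.ext h3, map_one])
    (fun h => h1 (congrArg Subtype.val (e.injective (h.trans (map_one e).symm))))
  set u : PGL(2, F) := ((e.symm U : X) : PGL(2, F)) with hu
  have hu2 : u * u = 1 := by rw [hu, ← Subgroup.coe_mul, ← map_mul, hU2, map_one, Subgroup.coe_one]
  have hww : w⁻¹ = w * w := inv_eq_of_mul_eq_one_right (by rw [← mul_assoc]; exact h3)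
  have huw : u * w * u = w⁻¹ := by
    rw [hww]
    have := congrArg (fun g => ((e.symm g : X) : PGL(2, F))) hUW
    simpa using this
  refine ⟨u, (e.symm U).2, hu2, ?_, fun Y hY huY => ?_⟩
  · calc u * w = u * w * (u * u) := by rw [hu2, mul_one]
      _ = w⁻¹ * u := by rw [← mul_assoc, huw]
  · have hAle : qA hxy h2 ≤ X ⊓ Y := le_inf hA hY
    obtain ⟨k, hk⟩ := Subgroup.card_dvd_of_le hAle
    have hle := Subgroup.card_dvd_of_le (inf_le_left (a := X) (b := Y))
    have h60 : Nat.card X = 60 := by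
      rw [Nat.card_congr e.toEquiv, Nat.card_eq_fintype_card]; decide +kernel
    rw [card_qA hxy h2] at hk
    rw [h60, hk] at hle
    rcases (Nat.dvd_prime (by norm_num : Nat.Prime 5)).mp
      (Nat.dvd_of_mul_dvd_mul_left (by norm_num : 0 < 12) (show 12 * k ∣ 12 * 5 from hle)) with rfl | rfl
    · exfalso
      have := Subgroup.eq_of_le_of_card_ge hAle (le_of_eq (by rw [hk, card_qA hxy h2]))
      have huA : u ∈ qA hxy h2 := this ▸ (⟨(e.symm U).2, huY⟩ : u ∈ X ⊓ Y)
      have huV := mem_qV_of_sq hxy h2 huA hu2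
      have hconj : w * u * w⁻¹ ∈ qV hxy :=
        (Subgroup.mem_normalizer_iff.mp (qW_mem_qN hxy h2) u).mp huV
      have hwV : w ∈ qV hxy := by
        have e1 : u * (w * u * w⁻¹) = w := by
          rw [← mul_assoc, ← mul_assoc, huw, hww, ← mul_assoc, h3, one_mul]
        exact e1 ▸ mul_mem huV hconj
      have := qV_sq hxy hwV
      exact h1 (by rwa [this, one_mul] at h3)
    · exact inf_eq_left.mp (Subgroup.eq_of_le_of_card_ge inf_le_left (le_of_eq (by rw [hk, h60])))

/-- The centralizer of `qW` in `PSL₂(11)`. -/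
theorem card_cent_qW (hF : Fintype.card F = 11) :
    Nat.card (Subgroup.centralizer {qW hxy h2} ⊓ Lsub F : Subgroup PGL(2, F)) ≤ 6 := by
  obtain ⟨E, _, _, _, hE⟩ := exists_quadExt F
  classical
  obtain ⟨p, hpc⟩ := CharP.exists F
  haveI : Fact p.Prime := ⟨CharP.char_is_prime F p⟩
  have hodd : Odd (Fintype.card F) := by rw [hF]; decide
  have ho := orderOf_qW hxy h2
  have h1 : qW hxy h2 ≠ 1 := fun h => by rw [h, orderOf_one] at ho; omega
  rcases kinds (p := p) hE h1 with ⟨-, hc, -⟩ | ⟨T, n, hwT, hT, hn⟩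
  · exfalso
    have := Subgroup.orderOf_dvd_natCard (Subgroup.centralizer {qW hxy h2})
      (Subgroup.mem_centralizer_singleton_iff.mpr rfl)
    rw [ho, hc, hF] at this
    omega
  · have hww : qW hxy h2 * qW hxy h2 ≠ 1 := fun h => by
      have := orderOf_dvd_of_pow_eq_one (x := qW hxy h2) (n := 2) (by rw [pow_two]; exact h)
      rw [ho] at this; omega
    rw [(hT.cent _ hwT h1).1 hww]
    have := inf_torus_card hT hodd
    omega

/-- At most two copies of `A₅` lie over the standard `A₄`. -/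
theorem over_qA_le_two (hF : Fintype.card F = 11) (X : Fin 3 → Subgroup PGL(2, F))
    (hX : Function.Injective X) (e : ∀ i, Nonempty (X i ≃* alternatingGroup (Fin 5)))
    (hA : ∀ i, qA hxy h2 ≤ X i) : False := by
  classical
  choose u huX hu2 huw hgen using fun i => exists_inverter hxy h2 (e i).some (hA i)
  set w := qW hxy h2 with hw
  have hwi : ∀ i, w ∈ X i := fun i => hA i (qW_mem_qA hxy h2)
  let f : Fin 3 × Fin 3 → (Subgroup.centralizer {w} ⊓ Lsub F : Subgroup PGL(2, F)) := fun p =>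
    ⟨u p.1 * w ^ (p.2 : ℕ) * u 0, by
      refine ⟨Subgroup.mem_centralizer_singleton_iff.mpr ?_, ?_⟩
      · have hc : w ^ (p.2 : ℕ) * w⁻¹ = w⁻¹ * w ^ (p.2 : ℕ) := ((Commute.refl w).pow_left _).inv_right
        calc u p.1 * w ^ (p.2 : ℕ) * u 0 * w
            = u p.1 * (w ^ (p.2 : ℕ) * w⁻¹) * u 0 := by simp only [mul_assoc, huw 0]
          _ = (u p.1 * w⁻¹) * w ^ (p.2 : ℕ) * u 0 := by rw [hc, ← mul_assoc]
          _ = w * u p.1 * w ^ (p.2 : ℕ) * u 0 := by
              rw [show u p.1 * w⁻¹ = w * u p.1 by rw [mul_inv_eq_iff_eq_mul, mul_assoc, huw p.1, mul_inv_cancel_left]]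
          _ = w * (u p.1 * w ^ (p.2 : ℕ) * u 0) := by simp only [mul_assoc]
      · exact mul_mem (mul_mem (le_Lsub_of_alt_five (e p.1) (huX p.1)) (pow_mem (qW_mem_Lsub hxy h2) _))
          (le_Lsub_of_alt_five (e 0) (huX 0))⟩
  have hf : Function.Injective f := by
    rintro ⟨i, j⟩ ⟨k, l⟩ h
    have h' : u i * w ^ (j : ℕ) = u k * w ^ (l : ℕ) := mul_right_cancel (congrArg Subtype.val h)
    have hik : i = k := by
      by_contra hne
      have hmem : u i ∈ X k := by
        have := mul_mem (huX k) (pow_mem (hwi k) (l : ℕ))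
        rw [← h'] at this
        simpa using mul_mem this (inv_mem (pow_mem (hwi k) (j : ℕ)))
      have hle := hgen i (X k) (hA k) hmem
      refine hne (hX (Subgroup.eq_of_le_of_card_ge hle (le_of_eq ?_)))
      rw [Nat.card_congr (e k).some.toEquiv, Nat.card_congr (e i).some.toEquiv]
    subst hik
    have := pow_injOn_Iio_orderOf (x := w) (Set.mem_Iio.mpr (by rw [orderOf_qW hxy h2]; exact j.isLt))
      (Set.mem_Iio.mpr (by rw [orderOf_qW hxy h2]; exact l.isLt)) (mul_left_cancel h')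
    exact Prod.ext rfl (Fin.ext this)
  have := Nat.card_le_card_of_injective f hf
  have h6 := card_cent_qW hxy h2 hF
  rw [← hw] at h6
  have h9 : Nat.card (Fin 3 × Fin 3) = 9 := by simp
  omega

variable {s : F} (hs : s ^ 2 = 5) (hs' : (-s) ^ 2 = 5)

theorem qA5_ne (hF : Fintype.card F = 11) : qA5 hxy h2 hs ≠ qA5 hxy h2 hs' := by
  intro heq
  obtain ⟨p, hpc⟩ := CharP.exists F
  obtain ⟨n, hp, hn⟩ := FiniteField.card F p
  have hp11 : p = 11 := ((Nat.prime_dvd_prime_iff_eq hp (by norm_num)).mp (hF ▸ hn ▸ dvd_pow_self p n.pos.ne'))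
  subst hp11
  have hk : ∀ k : ℕ, ¬ 11 ∣ k → (k : F) ≠ 0 := fun k hk h => hk ((CharP.cast_eq_zero_iff F 11 k).mp h)
  have hs0 : s ≠ 0 := fun h => hk 5 (by norm_num) (by rw [h] at hs; simpa using hs.symm)
  have h4 := four_ne h2
  have h16 : ((1 : F) ^ 2 + (-s) ^ 2 + (-s) ^ 2 + (-s) ^ 2) ≠ 0 := fun h => hk 16 (by norm_num) (by
    push_cast; linear_combination h - 3 * hs)
  have hg : qU hxy h2 hs * qU hxy h2 hs' = qel hxy 1 (-s) (-s) (-s) h16 := by
    rw [qU, qU, qel_mul]
    refine qel_scale hxy _ _ 4 h4 ?_ ?_ ?_ ?_ <;> field_simp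
    · linear_combination -8 * hs
    all_goals ring
  have hmem : qU hxy h2 hs * qU hxy h2 hs' ∈ qA5 hxy h2 hs :=
    mul_mem (qU_mem_qA5 hxy h2 hs) (heq ▸ qU_mem_qA5 hxy h2 hs')
  obtain ⟨⟨e⟩, -⟩ := qA5_iso hxy h2 hs
  rw [hg] at hmem
  set g : qA5 hxy h2 hs := ⟨_, hmem⟩
  rcases alt5_orders (e g) with h | h | h <;>
    simp only [← map_mul] at h <;>
    have h' := congrArg Subtype.val (e.injective (h.trans (map_one e).symm)) <;>
    simp only [g, Subgroup.coe_mul, Subgroup.coe_one, qel_mul, qel_eq_one hxy _ _ _ _ _ h2] at h'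
  · refine hs0 ((mul_eq_zero.mp (?_ : ((2 : ℕ) : F) * s = 0)).resolve_left (hk 2 (by norm_num)))
    push_cast; linear_combination -h'.1
  · refine hs0 ((mul_eq_zero.mp (?_ : ((12 : ℕ) : F) * s = 0)).resolve_left (hk 12 (by norm_num)))
    push_cast; linear_combination h'.1 - 3 * s * hs
  · refine hs0 ((mul_eq_zero.mp (?_ : ((80 : ℕ) : F) * s = 0)).resolve_left (hk 80 (by norm_num)))
    push_cast; linear_combination -h'.1 - (9 * s ^ 3 + 15 * s) * hs

include hs in
/-- An element of `L` moving a copy over the standard `A₄` to another one fixes it. -/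
theorem mem_of_conj (hns : ¬ IsSquare (2 : F)) {X Y : Subgroup PGL(2, F)}
    (hY : Nonempty (Y ≃* alternatingGroup (Fin 5))) (hAX : qA hxy h2 ≤ X) (hAY : qA hxy h2 ≤ Y)
    {g : PGL(2, F)} (hg : g ∈ Lsub F) (hXY : X.map (MulAut.conj g).toMonoidHom = Y) : g ∈ Y := by
  have h60 : Nat.card Y = 60 := by
    rw [Nat.card_congr hY.some.toEquiv, Nat.card_eq_fintype_card]; decide +kernel
  haveI : Fact (Nat.Prime 2) := ⟨Nat.prime_two⟩
  have hf : (Nat.card Y).factorization 2 = 2 := by
    rw [h60, Nat.factorization_def _ Nat.prime_two, show (60 : ℕ) = 2 ^ 2 * 15 by norm_num]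
    rw [padicValNat.mul (by norm_num) (by norm_num), padicValNat.prime_pow,
      padicValNat.eq_zero_of_not_dvd (by norm_num)]
  set V : Subgroup PGL(2, F) := qV hxy with hV
  set V' : Subgroup PGL(2, F) := V.map (MulAut.conj g).toMonoidHom with hV'
  have hVY : V ≤ Y := (qV_le_qA hxy h2).trans hAY
  have hV'Y : V' ≤ Y := hXY ▸ Subgroup.map_mono ((qV_le_qA hxy h2).trans hAX)
  have c1 : Nat.card (V.subgroupOf Y) = 2 ^ (Nat.card Y).factorization 2 := by
    rw [hf, Nat.card_congr (Subgroup.subgroupOfEquivOfLe hVY).toEquiv, card_qV hxy h2]; norm_num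
  have c2 : Nat.card (V'.subgroupOf Y) = 2 ^ (Nat.card Y).factorization 2 := by
    rw [hf, Nat.card_congr (Subgroup.subgroupOfEquivOfLe hV'Y).toEquiv,
      Subgroup.card_map_of_injective (MulAut.conj g).injective, card_qV hxy h2]; norm_num
  obtain ⟨n, hn⟩ := MulAction.exists_smul_eq Y (Sylow.ofCard _ c2) (Sylow.ofCard _ c1)
  have hn' : MulAut.conj n • V'.subgroupOf Y = V.subgroupOf Y := by
    have := congrArg (fun P : Sylow 2 Y => (P : Subgroup Y)) hn
    simpa only [Sylow.coe_subgroup_smul, Sylow.coe_ofCard] using this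
  have hng : ∀ v ∈ V, (n : PGL(2, F)) * g * v * ((n : PGL(2, F)) * g)⁻¹ ∈ V := by
    intro v hv
    have hm : g * v * g⁻¹ ∈ V' := ⟨v, hv, rfl⟩
    have := Subgroup.smul_mem_pointwise_smul (⟨g * v * g⁻¹, hV'Y hm⟩ : Y) (MulAut.conj n)
      (V'.subgroupOf Y) (Subgroup.mem_subgroupOf.mpr hm)
    rw [hn'] at this
    simpa [Subgroup.mem_subgroupOf, MulAut.smul_def, mul_assoc] using this
  have hN : (n : PGL(2, F)) * g ∈ qN hxy ⊓ Lsub F := by
    refine ⟨?_, mul_mem (le_Lsub_of_alt_five hY n.2) hg⟩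
    refine mem_qN_of hxy ?_ ?_
    · exact hng _ (Or.inr (Or.inl rfl))
    · exact hng _ (Or.inr (Or.inr (Or.inl rfl)))
  rw [qN_inf_Lsub hxy h2 hns] at hN
  simpa using mul_mem (inv_mem n.2) (hAY hN)

end Aux

/-- Let F be a field with 11 elements. PSL_2(F) has exactly 22 subgroups isomorphic to the alternating group A_5, and they form two conjugacy classes: there are two such subgroups that are not conjugate, and every such subgroup is conjugate to one of these two. -/
theorem result {F : Type*} [Field F] [Fintype F] (hF : Fintype.card F = 11) : Nat.card {H : Subgroup (Matrix.ProjectiveSpecialLinearGroup (Fin 2) F) // Nonempty (H ≃* alternatingGroup (Fin 5))} = 22 ∧ ∃ H K : Subgroup (Matrix.ProjectiveSpecialLinearGroup (Fin 2) F), Nonempty (H ≃* alternatingGroup (Fin 5)) ∧ Nonempty (K ≃* alternatingGroup (Fin 5)) ∧ (∀ g : Matrix.ProjectiveSpecialLinearGroup (Fin 2) F, MulAut.conj g • H ≠ K) ∧ ∀ L : Subgroup (Matrix.ProjectiveSpecialLinearGroup (Fin 2) F), Nonempty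 (L ≃* alternatingGroup (Fin 5)) → ∃ g : Matrix.ProjectiveSpecialLinearGroup (Fin 2) F, MulAut.conj g • L = H ∨ MulAut.conj g • L = K := by
  classical
  have hodd : Odd (Fintype.card F) := by rw [hF]; decide
  have h2 := Cfsg.Agent.Lib.Classical.two_ne_zero_of_odd_card hodd
  obtain ⟨x, y, hxy⟩ := PSLTwo.exists_sum_sq_neg_one F
  obtain ⟨s, hs⟩ : IsSquare (5 : F) := PSLTwo.isSquare_five_iff.2 (Or.inl (by rw [hF]; decide))
  have hs₁ : s ^ 2 = 5 := by rw [sq]; exact hs.symm
  have hs₂ : (-s) ^ 2 = 5 := by rw [neg_sq]; exact hs₁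
  have hns : ¬ IsSquare (2 : F) := by
    rw [FiniteField.isSquare_two_iff, hF]; norm_num
  set G := Matrix.ProjectiveSpecialLinearGroup (Fin 2) F
  have hG : Nat.card G = 660 := by
    have h := Cfsg.Agent.Lib.Classical.two_mul_card_PSL_two_of_odd (F := F) hodd
    rw [hF] at h
    exact Nat.eq_of_mul_eq_mul_left two_pos (h.trans (by norm_num))
  haveI : Finite G := Nat.finite_of_card_ne_zero (by omega)
  set X : Bool → Subgroup PGL(2, F) := fun b => bif b then qA5 hxy h2 hs₂ else qA5 hxy h2 hs₁ with hXdef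
  have eX : ∀ b, Nonempty (X b ≃* alternatingGroup (Fin 5)) := by
    rintro (_ | _)
    exacts [(qA5_iso hxy h2 hs₁).1, (qA5_iso hxy h2 hs₂).1]
  have AX : ∀ b, qA hxy h2 ≤ X b := by
    rintro (_ | _)
    exacts [qA_le_qA5 hxy h2 hs₁, qA_le_qA5 hxy h2 hs₂]
  have Xne : X false ≠ X true := qA5_ne hxy h2 hs₁ hs₂ hF
  -- transfer
  set H : Bool → Subgroup G := fun b => (X b).comap (toP F) with hHdef
  have hHX : ∀ b, (H b).map (toP F) = X b := fun b => map_comap_toP (le_Lsub_of_alt_five (eX b))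
  have eH : ∀ b, Nonempty (H b ≃* alternatingGroup (Fin 5)) := fun b =>
    ⟨((H b).equivMapOfInjective _ toP_injective).trans ((MulEquiv.subgroupCongr (hHX b)).trans (eX b).some)⟩
  have hmapc : ∀ (K : Subgroup G) (g : G),
      (MulAut.conj g • K).map (toP F) = (K.map (toP F)).map (MulAut.conj (toP F g)).toMonoidHom := by
    intro K g
    ext z
    constructor
    · rintro ⟨a, ha, rfl⟩
      obtain ⟨k, hk, rfl⟩ : ∃ k ∈ K, MulAut.conj g • k = a :=
        ⟨_, Subgroup.mem_pointwise_smul_iff_inv_smul_mem.mp ha, smul_inv_smul _ a⟩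
      exact ⟨toP F k, Subgroup.mem_map_of_mem _ hk, by simp [MulAut.smul_def]⟩
    · rintro ⟨_, ⟨k, hk, rfl⟩, rfl⟩
      exact ⟨MulAut.conj g • k, Subgroup.smul_mem_pointwise_smul k _ K hk, by simp [MulAut.smul_def]⟩
  have toPL : ∀ g : G, toP F g ∈ Lsub F := fun g => Lsub_eq_toPGL (F := F) ▸ ⟨g, rfl⟩
  have hfix : ∀ b c g, MulAut.conj g • H b = H c → g ∈ H c ∧ b = c := by
    intro b c g h
    have h1 := congrArg (Subgroup.map (toP F)) h
    rw [hmapc, hHX, hHX] at h1
    have hgc := mem_of_conj hxy h2 hs₁ hns (eX c) (AX b) (AX c) (toPL g) h1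
    refine ⟨hgc, ?_⟩
    have h2' : X b = X c := by
      rw [← map_conj_inv (X b) (toP F g), h1]
      refine Subgroup.ext fun z => ⟨?_, fun hz => ⟨toP F g * z * (toP F g)⁻¹,
        mul_mem (mul_mem hgc hz) (inv_mem hgc), by simp [mul_assoc]⟩⟩
      rintro ⟨z', hz', rfl⟩
      simpa using mul_mem (mul_mem (inv_mem hgc) hz') hgc
    cases b <;> cases c <;> first | rfl | exact absurd h2' Xne | exact absurd h2'.symm Xne
  have hcover : ∀ K : Subgroup G, Nonempty (K ≃* alternatingGroup (Fin 5)) →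
      ∃ (g : G) (b : Bool), MulAut.conj g • K = H b := by
    intro K ⟨eK⟩
    have eP : Nonempty (K.map (toP F) ≃* alternatingGroup (Fin 5)) :=
      ⟨(K.equivMapOfInjective _ toP_injective).symm.trans eK⟩
    obtain ⟨γ, hγA, -⟩ := exists_conj_alt_five hxy h2 eP (K := (⊤ : Subfield F)) trivial trivial hs₁ trivial
    obtain ⟨δ, hδL, hδA⟩ : ∃ δ ∈ Lsub F, qA hxy h2 ≤ (K.map (toP F)).map (MulAut.conj δ).toMonoidHom := by
      by_cases hγ : γ ∈ Lsub F
      · exact ⟨γ, hγ, hγA⟩
      · refine ⟨qS hxy h2 * γ, mul_mem_Lsub (fun h => hns ((qS_mem_Lsub_iff hxy h2).mp h)) hγ, fun a ha => ?_⟩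
        rw [← map_conj_map_conj]
        refine ⟨(qS hxy h2)⁻¹ * a * qS hxy h2, hγA ?_, by simp [mul_assoc]⟩
        rw [← qN_inf_Lsub hxy h2 hns] at ha ⊢
        rw [Subgroup.mem_inf] at ha ⊢
        refine ⟨mul_mem (mul_mem (inv_mem (qS_mem_qN hxy h2)) ha.1) (qS_mem_qN hxy h2), ?_⟩
        have hn := Lsub_normal (F := F)
        simpa using hn.conj_mem a ha.2 (qS hxy h2)⁻¹
    rw [Lsub_eq_toPGL] at hδL
    obtain ⟨g, rfl⟩ := hδL
    rw [← hmapc] at hδA
    set Z := (MulAut.conj g • K).map (toP F) with hZ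
    have eZ : Nonempty (Z ≃* alternatingGroup (Fin 5)) :=
      ⟨(((K.equivSMul (MulAut.conj g)).trans ((MulAut.conj g • K).equivMapOfInjective _ toP_injective)).symm).trans eK⟩
    obtain ⟨b, hb⟩ : ∃ b, Z = X b := by
      by_contra hne
      push Not at hne
      refine over_qA_le_two hxy h2 hF ![X false, X true, Z] ?_ ?_ ?_
      · intro i j h
        fin_cases i <;> fin_cases j <;> simp at h <;>
          first | rfl | exact absurd h Xne | exact absurd h.symm Xne | exact absurd h (hne _) |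
            exact absurd h.symm (hne _)
      · intro i; fin_cases i <;> [exact eX false; exact eX true; exact eZ]
      · intro i; fin_cases i <;> [exact AX false; exact AX true; exact hδA]
    exact ⟨g, b, Subgroup.map_injective toP_injective (by rw [hHX]; exact hb)⟩
  have hcardH : ∀ b, (H b).index = 11 := fun b => by
    have h1 := (H b).card_mul_index
    rw [Nat.card_congr (eH b).some.toEquiv, hG, show Nat.card (alternatingGroup (Fin 5)) = 60 by
      rw [Nat.card_eq_fintype_card]; decide +kernel] at h1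
    omega
  refine ⟨?_, H false, H true, eH false, eH true, fun g h => by simpa using (hfix _ _ g h).2, fun L hL => ?_⟩
  · -- the orbit map
    let f : (Σ b, G ⧸ H b) → {K : Subgroup G // Nonempty (K ≃* alternatingGroup (Fin 5))} := fun p =>
      Quotient.liftOn' p.2 (fun g => ⟨MulAut.conj g • H p.1,
          ⟨((H p.1).equivSMul (MulAut.conj g)).symm.trans (eH p.1).some⟩⟩) fun g g' hgg => by
        rw [QuotientGroup.leftRel_apply] at hgg
        refine Subtype.ext ?_
        have hh : MulAut.conj (g⁻¹ * g') • H p.1 = H p.1 := Subgroup.conj_smul_eq_self_of_mem hgg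
        rw [map_mul, mul_smul, map_inv, inv_smul_eq_iff] at hh
        exact hh.symm
    have hbij : Function.Bijective f := by
      constructor
      · rintro ⟨b, q⟩ ⟨c, r⟩ h
        induction q using QuotientGroup.induction_on with | H g =>
        induction r using QuotientGroup.induction_on with | H g' =>
        have h' : MulAut.conj g • H b = MulAut.conj g' • H c := congrArg Subtype.val h
        rw [← inv_smul_eq_iff, ← map_inv, ← mul_smul, ← map_mul] at h'
        obtain ⟨hm, rfl⟩ := hfix _ _ _ h'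
        refine Sigma.ext rfl (heq_of_eq (QuotientGroup.eq.mpr ?_))
        rw [← inv_mem_iff, mul_inv_rev, inv_inv]
        exact hm
      · rintro ⟨K, hK⟩
        obtain ⟨g, b, hb⟩ := hcover K hK
        refine ⟨⟨b, (g⁻¹ : G)⟩, Subtype.ext ?_⟩
        show MulAut.conj g⁻¹ • H b = K
        rw [← hb, map_inv, inv_smul_smul]
    rw [← Nat.card_congr (Equiv.ofBijective f hbij), Nat.card_sigma]
    simp only [← Subgroup.index_eq_card, hcardH]
    simp
  · obtain ⟨g, b, hb⟩ := hcover L hL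
    cases b
    exacts [⟨g, Or.inl hb⟩, ⟨g, Or.inr hb⟩]

end Cfsg.Agent.S2543
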