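import Cfsg.Statements.S2545
import Cfsg.Agent.Lib.Classical.BN.Symp

set_option autoImplicit false
open Cfsg

namespace Cfsg.Agent.S2545

open Cfsg.Agent.Lib.Forms Cfsg.Agent.Lib.Classical.BN

/-- Let F be a finite field of characteristic p and consider the projective symplectic group PSp_{2m}(F) with m ≥ 1. This group has an irreducible complex character χ whose degree equals the order of a Sylow p-subgroup (namely q^(m²) when #F = q) and whose restriction to any Sylow p-subgroup P is the regular character of P: χ vanishes on the non-identity elements of P. (This is the Steinberg character.) -/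
theorem result {F : Type*} [Field F] [Fintype F] (p : ℕ) [Fact p.Prime] [CharP F p] (m : ℕ) (hm : 1 ≤ m) : ∃ χ : Cfsg.PSp m F → ℂ, Cfsg.IsIrrCharacter (Cfsg.PSp m F) χ ∧ ∀ P : Sylow p (Cfsg.PSp m F), χ 1 = Nat.card P ∧ ∀ x : Cfsg.PSp m F, x ∈ P → x ≠ 1 → χ x = 0 := by
  let h0 : Matrix.symplecticGroup (Fin m) F →* (spSpace m F).G :=
    (spToGL m F).codRestrict _ fun A => (mem_iso_stdB_iff m _).2 A.2
  have hb : Function.Bijective h0 := ⟨fun A B h => spToGL_injective m (congrArg Subtype.val h),
    fun g => by
      obtain ⟨A, hA⟩ := exists_spToGL_eq g.2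
      exact ⟨A, Subtype.ext hA⟩⟩
  let e := MulEquiv.ofBijective h0 hb
  refine (spSpace m F).exists_steinberg (spSpace_typed m) (fun g _ _ h => spSpace_ker m g h)
    ((QuotientGroup.mk' (Subgroup.center _)).comp e.symm.toMonoidHom)
    ((QuotientGroup.mk'_surjective _).comp e.symm.surjective) fun g hg => ?_
  rw [MonoidHom.mem_ker, MonoidHom.comp_apply, QuotientGroup.mk'_apply, QuotientGroup.eq_one_iff,
    Subgroup.mem_center_iff] at hg
  refine Subgroup.mem_center_iff.2 fun x => e.symm.injective ?_
  simpa using hg (e.symm x)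

end Cfsg.Agent.S2545
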