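import Cfsg.Statements.S2546
import Cfsg.Agent.Lib.Classical.BN.Unitary

set_option autoImplicit false
open Cfsg

namespace Cfsg.Agent.S2546

open Matrix Cfsg.Agent.Lib.Forms Cfsg.Agent.Lib.Classical.BN

/-- Let F be a finite field of characteristic p and consider the projective special unitary group PSU_n(q), n ≥ 2, realised over the field F with q² elements. This group has an irreducible complex character χ whose degree equals the order of a Sylow p-subgroup (namely q^(n(n−1)/2)) and whose restriction to any Sylow p-subgroup P is the regular character of P: χ vanishes on the non-identity elements of P. (This is the Steinberg character.) -/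
theorem result {F : Type*} [Field F] [Fintype F] (p : ℕ) [Fact p.Prime] [CharP F p] (n q : ℕ) (hn : 2 ≤ n) (hF : Fintype.card F = q ^ 2) : ∃ χ : Cfsg.PSU n F q → ℂ, Cfsg.IsIrrCharacter (Cfsg.PSU n F q) χ ∧ ∀ P : Sylow p (Cfsg.PSU n F q), χ 1 = Nat.card P ∧ ∀ x : Cfsg.PSU n F q, x ∈ P → x ≠ 1 → χ x = 0 := by
  classical
  obtain ⟨P, ⟨Fr⟩⟩ := exists_uframe hF n
  let G := (hermSpace Fr).G
  have hmem : ∀ A : Cfsg.SU n F q, P⁻¹ * Matrix.SpecialLinearGroup.toGL A.1 * P ∈ G := fun A => by
    have hval : ∀ x, P.1 *ᵥ ((P⁻¹ * Matrix.SpecialLinearGroup.toGL A.1 * P).1 *ᵥ x) =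
        (Matrix.SpecialLinearGroup.toGL A.1).1 *ᵥ (P.1 *ᵥ x) := fun x => by
      rw [← Space.act_mul, ← Space.act_mul, mul_assoc, mul_inv_cancel_left]
    refine ⟨fun x y => ?_, MonoidHom.mem_ker.2 ?_⟩
    · show Cfsg.hermForm n F q _ _ = Cfsg.hermForm n F q _ _
      rw [hval, hval]
      exact A.2 _ _
    · rw [map_mul, map_mul, map_inv, mul_comm, mul_inv_cancel_left]
      exact Units.ext (by simpa [Matrix.GeneralLinearGroup.det] using A.1.2)
  let h0 : Cfsg.SU n F q →* G := MonoidHom.mk' (fun A => ⟨_, hmem A⟩) fun A B => Subtype.ext (by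
    show P⁻¹ * Matrix.SpecialLinearGroup.toGL (A.1 * B.1) * P = _
    rw [map_mul]
    show _ = (P⁻¹ * Matrix.SpecialLinearGroup.toGL A.1 * P) * (P⁻¹ * Matrix.SpecialLinearGroup.toGL B.1 * P)
    group)
  have hb : Function.Bijective h0 := by
    refine ⟨fun A B h => ?_, fun g => ?_⟩
    · have h1 : P⁻¹ * Matrix.SpecialLinearGroup.toGL A.1 * P = P⁻¹ * Matrix.SpecialLinearGroup.toGL B.1 * P :=
        congrArg Subtype.val h
      have h2 := mul_left_cancel (mul_right_cancel h1)
      exact Subtype.ext (Subtype.ext (congrArg Units.val h2))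
    · obtain ⟨g, hg1, hg2⟩ := g
      set k := P * g * P⁻¹ with hk
      have hdet : k.1.det = 1 := by
        have : Matrix.GeneralLinearGroup.det k = 1 := by
          rw [hk, map_mul, map_mul, map_inv, show Matrix.GeneralLinearGroup.det g = 1 from MonoidHom.mem_ker.1 hg2,
            mul_one, mul_inv_cancel]
        simpa [Matrix.GeneralLinearGroup.det] using congrArg Units.val this
      let A0 : Matrix.SpecialLinearGroup (Fin n) F := ⟨k.1, hdet⟩
      have hA : Matrix.SpecialLinearGroup.toGL A0 = k := Units.ext rfl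
      have hmemA : A0 ∈ Cfsg.SU n F q := fun u v => by
        have h1 := hg1 ((P⁻¹).1 *ᵥ u) ((P⁻¹).1 *ᵥ v)
        have hP : ∀ w, P.1 *ᵥ ((P⁻¹).1 *ᵥ w) = w := fun w => by
          rw [← Space.act_mul, mul_inv_cancel, Space.act_one]
        have hk' : ∀ w, P.1 *ᵥ (g.1 *ᵥ ((P⁻¹).1 *ᵥ w)) = k.1 *ᵥ w := fun w => by
          rw [hk, Space.act_mul, Space.act_mul]
        change Cfsg.hermForm n F q _ _ = Cfsg.hermForm n F q _ _ at h1
        rw [hP, hP, hk', hk'] at h1
        exact h1
      refine ⟨⟨A0, hmemA⟩, Subtype.ext ?_⟩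
      show P⁻¹ * Matrix.SpecialLinearGroup.toGL A0 * P = g
      rw [hA, hk]
      group
  let e := MulEquiv.ofBijective h0 hb
  refine (hermSpace Fr).exists_steinberg (hermSpace_typed Fr) (fun g hg hp h => hermSpace_ker Fr hg hp h)
    ((QuotientGroup.mk' (Subgroup.center _)).comp e.symm.toMonoidHom)
    ((QuotientGroup.mk'_surjective _).comp e.symm.surjective) fun g hg => ?_
  rw [MonoidHom.mem_ker, MonoidHom.comp_apply, QuotientGroup.mk'_apply, QuotientGroup.eq_one_iff,
    Subgroup.mem_center_iff] at hg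
  refine Subgroup.mem_center_iff.2 fun x => e.symm.injective ?_
  simpa using hg (e.symm x)

end Cfsg.Agent.S2546
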