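import Cfsg.Statements.S2548
import Cfsg.Agent.Lib.Classical.BN.OrthStd
import Cfsg.Agent.Lib.Classical.BN.PlusFourTwo

set_option autoImplicit false
open Cfsg

namespace Cfsg.Agent.S2548

/-- Let F be a finite field of characteristic p and consider the group PΩ⁺_{2m}(F) of the hyperbolic quadratic form Σ x_i y_i with m ≥ 1, where Ω denotes the commutator subgroup of the full isometry group. This group has an irreducible complex character χ whose degree equals the order of a Sylow p-subgroup (equal to q^(m(m−1)) when #F = q, except in the degenerate case m = 2, q = 2, where this commutator subgroup has order 18 and its Sylow 2-subgroups have order 2) and whose restriction to any Sylow p-subgroup P is the regular character of P: χ vanishes on the non-identity elements of P. (This is the Steinberg character.) -/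
theorem result {F : Type*} [Field F] [Fintype F] (p : ℕ) [Fact p.Prime] [CharP F p] (m : ℕ) (hm : 1 ≤ m) : ∃ χ : Cfsg.POmega F (Cfsg.quadFormPlus m F) → ℂ, Cfsg.IsIrrCharacter (Cfsg.POmega F (Cfsg.quadFormPlus m F)) χ ∧ ∀ P : Sylow p (Cfsg.POmega F (Cfsg.quadFormPlus m F)), χ 1 = Nat.card P ∧ ∀ x : Cfsg.POmega F (Cfsg.quadFormPlus m F), x ∈ P → x ≠ 1 → χ x = 0 := by
  by_cases hreg : Cfsg.Agent.Lib.Classical.QuadOmega.Reg F (Fin m ⊕ Fin m → F)
  · exact Cfsg.Agent.Lib.Classical.BN.plus_steinberg m hreg
  · obtain ⟨hq, hn⟩ := not_or.1 hreg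
    have hm2 : m = 2 := by
      simp at hn
      omega
    have hF : Fintype.card F = 2 := by
      have := Fintype.one_lt_card (α := F)
      omega
    subst hm2
    obtain rfl : p = 2 := by
      have h := FiniteField.cast_card_eq_zero F
      rw [hF, CharP.cast_eq_zero_iff F p] at h
      exact (Nat.prime_dvd_prime_iff_eq Fact.out Nat.prime_two).1 h
    exact Cfsg.Agent.Lib.Classical.BN.PlusFourTwo.steinberg hF

end Cfsg.Agent.S2548
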