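import Cfsg.Statements.S2550
import Cfsg.Agent.S0820
import Cfsg.Agent.Lib.Classical.Order

set_option autoImplicit false
open Cfsg

namespace Cfsg.Agent.S2550

/-- Let F be a field with 2 elements and K a field with 4 elements. PSL_4(F) and PSL_3(K) have the same order (20160) but are not isomorphic. -/
theorem result {F K : Type*} [Field F] [Fintype F] [Field K] [Fintype K] (hF : Fintype.card F = 2) (hK : Fintype.card K = 4) : Nat.card (Matrix.ProjectiveSpecialLinearGroup (Fin 4) F) = Nat.card (Matrix.ProjectiveSpecialLinearGroup (Fin 3) K) ∧ ¬ Nonempty (Matrix.ProjectiveSpecialLinearGroup (Fin 4) F ≃* Matrix.ProjectiveSpecialLinearGroup (Fin 3) K) := by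
  have c4 : Nat.card (Matrix.ProjectiveSpecialLinearGroup (Fin 4) F) = 20160 := by
    have h := Cfsg.Agent.Lib.Classical.card_SL_mul hF 4 (by norm_num)
    rw [Cfsg.Agent.Lib.Classical.card_SL_eq_gcd_mul_card_PSL, Fintype.card_fin, hF] at h
    simp [Fin.prod_univ_four] at h
    omega
  have c3 : Nat.card (Matrix.ProjectiveSpecialLinearGroup (Fin 3) K) = 20160 := by
    have h := Cfsg.Agent.Lib.Classical.card_SL_mul hK 3 (by norm_num)
    rw [Cfsg.Agent.Lib.Classical.card_SL_eq_gcd_mul_card_PSL, Fintype.card_fin, hK] at h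
    simp [Fin.prod_univ_three] at h
    omega
  refine ⟨c4.trans c3.symm, fun ⟨e⟩ => ?_⟩
  have h2 : (2 : F) = 0 := by
    have := FiniteField.cast_card_eq_zero F
    rw [hF] at this
    exact_mod_cast this
  have hcases : ∀ x : F, x ≠ 0 → x = 1 := fun x hx => by
    simpa [hF] using FiniteField.pow_card_sub_one_eq_one x hx
  let t : Matrix.SpecialLinearGroup (Fin 4) F := ⟨!![1, 1, 0, 0; 0, 1, 0, 0; 0, 0, 1, 0; 0, 0, 0, 1],
    by simp [Matrix.det_succ_row_zero, Fin.sum_univ_succ]⟩
  let u : Matrix.SpecialLinearGroup (Fin 4) F := ⟨!![1, 1, 0, 0; 0, 1, 0, 0; 0, 0, 1, 1; 0, 0, 0, 1],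
    by simp [Matrix.det_succ_row_zero, Fin.sum_univ_succ]⟩
  let π := QuotientGroup.mk' (Subgroup.center (Matrix.SpecialLinearGroup (Fin 4) F))
  have hπ : Function.Injective π := (injective_iff_map_eq_one π).2 fun g hg => by
    obtain ⟨r, hr, hrg⟩ := Matrix.SpecialLinearGroup.mem_center_iff.1 ((QuotientGroup.eq_one_iff g).1 hg)
    have hr1 : r = 1 := hcases r fun h0 => by simp [h0] at hr
    ext i j
    rw [← hrg, hr1]
    simp [Matrix.one_apply]
  have hord : ∀ s : Matrix.SpecialLinearGroup (Fin 4) F, s * s = 1 → s ≠ 1 → orderOf (π s) = 2 := fun s hs hs1 => by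
    have := Fact.mk Nat.prime_two
    exact orderOf_eq_prime (by rw [pow_two, ← map_mul, hs, map_one]) fun h => hs1 (hπ (by rw [h, map_one]))
  have hot : orderOf (π t) = 2 := by
    refine hord t ?_ fun h => by simpa [t] using congrArg (fun s : Matrix.SpecialLinearGroup (Fin 4) F => s 0 1) h
    ext i j
    show (t.1 * t.1) i j = (1 : Matrix (Fin 4) (Fin 4) F) i j
    fin_cases i <;> fin_cases j <;> simp [t, Matrix.mul_apply, Fin.sum_univ_four, one_add_one_eq_two, h2, Matrix.SpecialLinearGroup.coe_mul, Matrix.SpecialLinearGroup.coe_one]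
  have hou : orderOf (π u) = 2 := by
    refine hord u ?_ fun h => by simpa [u] using congrArg (fun s : Matrix.SpecialLinearGroup (Fin 4) F => s 0 1) h
    ext i j
    show (u.1 * u.1) i j = (1 : Matrix (Fin 4) (Fin 4) F) i j
    fin_cases i <;> fin_cases j <;> simp [u, Matrix.mul_apply, Fin.sum_univ_four, one_add_one_eq_two, h2, Matrix.SpecialLinearGroup.coe_mul, Matrix.SpecialLinearGroup.coe_one]
  have hc := MonoidHom.map_isConj e.symm.toMonoidHom (Cfsg.Agent.S0820.result hK (e (π t)) (e (π u)) (by rw [e.orderOf_eq, hot]) (by rw [e.orderOf_eq, hou]))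
  simp only [MulEquiv.coe_toMonoidHom, MulEquiv.symm_apply_apply] at hc
  obtain ⟨c, hc⟩ := isConj_iff.1 hc
  obtain ⟨g, rfl⟩ := QuotientGroup.mk'_surjective _ c
  have hg : g * t = u * g := by
    refine hπ ?_
    rw [map_mul, map_mul]
    exact mul_inv_eq_iff_eq_mul.1 hc
  have key : ∀ i j, (g.1 * t.1) i j = (u.1 * g.1) i j := fun i j => congrFun (congrFun (congrArg Subtype.val hg) i) j
  have a0 := key 0 0
  have a2 := key 0 2
  have a3 := key 0 3
  have b0 := key 2 0
  have b2 := key 2 2
  have b3 := key 2 3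
  simp [t, u, Matrix.mul_apply, Fin.sum_univ_four] at a0 a2 a3 b0 b2 b3
  have d : g.1.det = 1 := g.2
  have d0 : g.1.det = 0 := by
    rcases eq_or_ne (g.1 1 1) 0 with h1 | h1
    · exact Matrix.det_eq_zero_of_row_eq_zero 1 fun j => by fin_cases j <;> assumption
    rcases eq_or_ne (g.1 3 1) 0 with h3 | h3
    · exact Matrix.det_eq_zero_of_row_eq_zero 3 fun j => by fin_cases j <;> assumption
    refine Matrix.det_zero_of_row_eq (i := 1) (j := 3) (by decide) (funext fun j => ?_)
    fin_cases j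
    · exact a0.trans b0.symm
    · exact (hcases _ h1).trans (hcases _ h3).symm
    · exact a2.trans b2.symm
    · exact a3.trans b3.symm
  exact one_ne_zero (d.symm.trans d0)

end Cfsg.Agent.S2550
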