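import Cfsg.Statements.S2551
import Cfsg.Agent.S0256
import Mathlib

set_option autoImplicit false
open Cfsg

namespace Cfsg.Agent.S2551

open Matrix MulAction

/-- The fixed vectors of an invertible matrix of prime order `r` over the field with two elements. -/
theorem card_fixed {F : Type*} [Field F] [Fintype F] (hF : Fintype.card F = 2) (x : GL (Fin 4) F) {r : ℕ} [Fact r.Prime]
    (hx : x ^ r = 1) (hx1 : x ≠ 1) :
    ∃ c, Nat.card {u : Fin 4 → F // (x : Matrix (Fin 4) (Fin 4) F).mulVec u = u} = c ∧ c ∣ 16 ∧ c ≠ 16 ∧ c % r = 16 % r := by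
  classical
  let K : AddSubgroup (Fin 4 → F) :=
    { carrier := {u | (x : Matrix (Fin 4) (Fin 4) F).mulVec u = u}
      zero_mem' := Matrix.mulVec_zero _
      add_mem' := fun {a b} ha hb => by
        show (x : Matrix (Fin 4) (Fin 4) F).mulVec (a + b) = a + b
        rw [Matrix.mulVec_add, ha, hb]
      neg_mem' := fun {a} ha => by
        show (x : Matrix (Fin 4) (Fin 4) F).mulVec (-a) = -a
        rw [Matrix.mulVec_neg, ha] }
  have h16 : Nat.card (Fin 4 → F) = 16 := by
    rw [Nat.card_eq_fintype_card, Fintype.card_fun, hF, Fintype.card_fin]; rfl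
  refine ⟨Nat.card K, rfl, h16 ▸ K.card_addSubgroup_dvd_card, fun h => hx1 ?_, ?_⟩
  · have hK : K = ⊤ := AddSubgroup.eq_top_of_card_eq _ (h.trans h16.symm)
    apply Units.ext
    refine Matrix.ext_of_mulVec_single fun i => ?_
    rw [Units.val_one, Matrix.one_mulVec]
    exact (hK ▸ AddSubgroup.mem_top _ : Pi.single i 1 ∈ K)
  · let f : Function.End (Fin 4 → F) := fun u => (x : Matrix (Fin 4) (Fin 4) F).mulVec u
    have hpow : ∀ (k : ℕ) (u : Fin 4 → F), (f ^ k : Function.End (Fin 4 → F)) u = ((x ^ k : GL (Fin 4) F) : Matrix (Fin 4) (Fin 4) F).mulVec u := by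
      intro k
      induction k with
      | zero => intro u; rw [pow_zero, pow_zero, Units.val_one, Matrix.one_mulVec]; rfl
      | succ k ih =>
        intro u
        rw [pow_succ', pow_succ', Units.val_mul, ← Matrix.mulVec_mulVec, ← ih]
        rfl
    have hf : f ^ (r ^ 1) = 1 := by
      funext u
      rw [hpow, pow_one, hx, Units.val_one, Matrix.one_mulVec]
      rfl
    have h1 := Equiv.Perm.card_fixedPoints_modEq hf
    rw [← Nat.card_eq_fintype_card, h16, ← Nat.card_eq_fintype_card] at h1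
    exact h1.symm

/-- The non-zero vectors. -/
abbrev Vec (F : Type*) [Field F] := {u : Fin 4 → F // u ≠ 0}

instance vecAction {F : Type*} [Field F] (H : Subgroup (GL (Fin 4) F)) : MulAction H (Vec F) where
  smul g u := ⟨((g : GL (Fin 4) F) : Matrix (Fin 4) (Fin 4) F).mulVec u, fun h => u.2 (by
    have h1 := congrArg (((g : GL (Fin 4) F)⁻¹ : GL (Fin 4) F) : Matrix (Fin 4) (Fin 4) F).mulVec h
    rwa [Matrix.mulVec_mulVec, Units.inv_mul, Matrix.one_mulVec, Matrix.mulVec_zero] at h1)⟩
  one_smul u := Subtype.ext (Matrix.one_mulVec _)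
  mul_smul g h u := Subtype.ext (by
    show (((g : GL (Fin 4) F) * (h : GL (Fin 4) F) : GL (Fin 4) F) : Matrix (Fin 4) (Fin 4) F).mulVec u.1 = _
    rw [Units.val_mul, ← Matrix.mulVec_mulVec]
    rfl)

/-- PSL(4,2) contains subgroups isomorphic to A₇; each of them is 2-transitive on the non-zero vectors. -/
theorem result {F : Type*} [Field F] [Fintype F] (hF : Fintype.card F = 2) : (∃ H : Subgroup (Matrix.GeneralLinearGroup (Fin 4) F), Nonempty (H ≃* alternatingGroup (Fin 7))) ∧ ∀ H : Subgroup (Matrix.GeneralLinearGroup (Fin 4) F), Nonempty (H ≃* alternatingGroup (Fin 7)) → ∀ v w v' w' : Fin 4 → F, v ≠ 0 → w ≠ 0 → v ≠ w → v' ≠ 0 → w' ≠ 0 → v' ≠ w' → ∃ g ∈ H, (g : Matrix (Fin 4) (Fin 4) F).mulVec v = v' ∧ (g : Matrix (Fin 4) (Fin 4) F).mulVec w = w' := by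
  classical
  refine ⟨?_, ?_⟩
  · obtain ⟨e⟩ := S0256.result hF
    let ι : Fin 7 ↪ Fin 8 := Fin.castSuccEmb
    let j : alternatingGroup (Fin 7) →* alternatingGroup (Fin 8) :=
      ((Equiv.Perm.viaEmbeddingHom ι).comp (alternatingGroup (Fin 7)).subtype).codRestrict _ fun g => by
        rw [Equiv.Perm.mem_alternatingGroup, MonoidHom.comp_apply, Equiv.Perm.viaEmbeddingHom_apply]
        unfold Equiv.Perm.viaEmbedding
        convert (Equiv.Perm.sign_extendDomain (g : Equiv.Perm (Fin 7)) (Equiv.ofInjective ι.1 ι.2)).trans g.2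
        rfl
    have hj : Function.Injective j := fun a b h =>
      Subtype.ext (Equiv.Perm.viaEmbeddingHom_injective ι (congrArg Subtype.val h))
    have hu : ∀ u : Fˣ, u = 1 := fun u => by
      have h1 : Fintype.card Fˣ = 1 := by rw [Fintype.card_units, hF]
      haveI := Fintype.card_le_one_iff_subsingleton.1 h1.le
      exact Subsingleton.elim _ _
    have hc : Subgroup.center (Matrix.SpecialLinearGroup (Fin 4) F) = ⊥ := by
      have ee := Matrix.SpecialLinearGroup.center_equiv_rootsOfUnity (n := Fin 4) (R := F)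
      refine (Subgroup.eq_bot_iff_forall _).2 fun z hz => ?_
      have h1 : ee ⟨z, hz⟩ = ee 1 := Subtype.ext ((hu _).trans (hu _).symm)
      exact congrArg Subtype.val (ee.injective h1)
    let q : Matrix.SpecialLinearGroup (Fin 4) F →* Matrix.ProjectiveSpecialLinearGroup (Fin 4) F := QuotientGroup.mk' _
    have hq : Function.Bijective q := ⟨(MonoidHom.ker_eq_bot_iff q).1 ((QuotientGroup.ker_mk' _).trans hc),
      QuotientGroup.mk'_surjective _⟩
    let φ : alternatingGroup (Fin 7) →* GL (Fin 4) F :=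
      (Matrix.SpecialLinearGroup.toGL).comp (((MulEquiv.ofBijective q hq).symm.toMonoidHom.comp e.symm.toMonoidHom).comp j)
    have hφ : Function.Injective φ := fun a b h =>
      hj (e.symm.injective ((MulEquiv.ofBijective q hq).symm.injective (Matrix.SpecialLinearGroup.toGL_injective h)))
    exact ⟨φ.range, ⟨(MonoidHom.ofInjective hφ).symm⟩⟩
  intro H ⟨e⟩
  have hH : Nat.card H = 2520 := by
    rw [Nat.card_congr e.toEquiv, nat_card_alternatingGroup, Nat.card_fin]; rfl
  haveI : IsSimpleGroup (alternatingGroup (Fin 7)) := alternatingGroup.isSimpleGroup (by simp)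
  haveI : Nontrivial H := e.toEquiv.nontrivial
  haveI : IsSimpleGroup H := e.isSimpleGroup
  let X := Vec F
  have hX : Nat.card X = 15 := by
    rw [Nat.card_eq_fintype_card, Fintype.card_subtype_compl, Fintype.card_subtype_eq, Fintype.card_fun, hF, Fintype.card_fin]
    rfl
  -- elements of order five fix nothing, elements of order seven one point
  have hfix : ∀ (r : ℕ) [Fact r.Prime] (g : H), g ^ r = 1 → g ≠ 1 → ∀ u : X, g • u = u →
      r ≠ 5 ∧ (r = 7 → ∀ u' : X, g • u' = u' → u' = u) := by
    intro r _ g hg hg1 u hu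
    obtain ⟨c, hc, hc16, hcne, hcr⟩ := card_fixed hF (g : GL (Fin 4) F) (r := r)
      (by rw [← SubmonoidClass.coe_pow, hg]; rfl) (fun h => hg1 (Subtype.ext h))
    have hu' : ((g : GL (Fin 4) F) : Matrix (Fin 4) (Fin 4) F).mulVec u = u := congrArg Subtype.val hu
    have h2 : 2 ≤ c := by
      rw [← hc]
      refine Finite.one_lt_card_iff_nontrivial.2 ⟨⟨⟨0, Matrix.mulVec_zero _⟩, ⟨u, hu'⟩, fun h => u.2 (congrArg Subtype.val h).symm⟩⟩
    have hle := Nat.le_of_dvd (by norm_num) hc16
    refine ⟨?_, ?_⟩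
    · rintro rfl
      interval_cases c <;> omega
    · rintro rfl u' hu2
      have hc2 : c = 2 := by interval_cases c <;> omega
      by_contra hne
      have hu2' : ((g : GL (Fin 4) F) : Matrix (Fin 4) (Fin 4) F).mulVec u' = u' := congrArg Subtype.val hu2
      let S : Type _ := {v : Fin 4 → F // ((g : GL (Fin 4) F) : Matrix (Fin 4) (Fin 4) F).mulVec v = v}
      have h3 : ({⟨0, Matrix.mulVec_zero _⟩, ⟨u, hu'⟩, ⟨u', hu2'⟩} : Finset S).card = 3 := by
        refine Finset.card_eq_three.2 ⟨_, _, _, ?_, ?_, ?_, rfl⟩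
        · exact fun h => u.2 (congrArg Subtype.val h).symm
        · exact fun h => u'.2 (congrArg Subtype.val h).symm
        · exact fun h => hne (Subtype.ext (congrArg Subtype.val h).symm)
      have h4 := Finset.card_le_univ ({⟨0, Matrix.mulVec_zero _⟩, ⟨u, hu'⟩, ⟨u', hu2'⟩} : Finset S)
      rw [h3, ← Nat.card_eq_fintype_card] at h4
      have h5 : Nat.card S = c := hc
      omega
  haveI : Fact (Nat.Prime 5) := ⟨by norm_num⟩
  haveI : Fact (Nat.Prime 7) := ⟨by norm_num⟩
  -- transitivity
  have horb : ∀ u : X, Nat.card (orbit H u) * Nat.card (stabilizer H u) = 2520 := fun u => by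
    rw [← hH, ← (stabilizer H u).card_mul_index, index_stabilizer, ← Nat.card_coe_set_eq, mul_comm]
  have h5 : ∀ u : X, 5 ∣ Nat.card (orbit H u) := fun u => by
    have h1 : 5 ∣ Nat.card (orbit H u) * Nat.card (stabilizer H u) := by rw [horb]; norm_num
    rcases (Nat.Prime.dvd_mul (by norm_num)).1 h1 with h | h
    · exact h
    · obtain ⟨g, hg⟩ := exists_prime_orderOf_dvd_card' 5 h
      have hg1 : (g : H) ≠ 1 := fun h => by
        rw [Subtype.ext h (a1 := g) (a2 := 1), orderOf_one] at hg; omega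
      exact absurd rfl (hfix 5 (g : H) (by rw [← SubmonoidClass.coe_pow, ← hg, pow_orderOf_eq_one]; rfl) hg1 u g.2).1
  have hno5 : ∀ u : X, Nat.card (orbit H u) ≠ 5 := by
    intro u h
    let f := MulAction.toPermHom H (orbit H u)
    have hf : Function.Injective f := by
      rcases (inferInstance : f.ker.Normal).eq_bot_or_eq_top with hk | hk
      · exact (MonoidHom.ker_eq_bot_iff f).1 hk
      · exfalso
        haveI : Subsingleton (orbit H u) := ⟨fun a b => by
          obtain ⟨k, hk'⟩ := MulAction.exists_smul_eq H a b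
          have h2 : f k = 1 := (hk ▸ Subgroup.mem_top k : k ∈ f.ker)
          rw [← hk']
          exact (DFunLike.congr_fun h2 a).symm⟩
        have := Finite.card_le_one_iff_subsingleton.2 this
        omega
    have h2 := Subgroup.card_dvd_of_injective f hf
    rw [Nat.card_perm, h, hH] at h2
    norm_num [Nat.factorial] at h2
  have htrans : ∀ a b : X, ∃ g : H, g • a = b := by
    intro a
    suffices h : orbit H a = Set.univ from fun b => Set.eq_univ_iff_forall.1 h b
    by_contra hne
    obtain ⟨b, hb⟩ := (Set.ne_univ_iff_exists_notMem _).1 hne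
    have hd : Disjoint (orbit H a) (orbit H b) := by
      rw [Set.disjoint_left]
      intro c hca hcb
      rw [← orbit_eq_iff.2 hca, orbit_eq_iff.2 hcb] at hb
      exact hb (mem_orbit_self b)
    have hsum : Nat.card (orbit H a) + Nat.card (orbit H b) ≤ 15 := by
      rw [Nat.card_coe_set_eq, Nat.card_coe_set_eq, ← Set.ncard_union_eq hd, ← hX]
      exact Set.ncard_le_card _
    have := h5 a; have := h5 b; have := hno5 a; have := hno5 b
    have : 0 < Nat.card (orbit H a) := (Nat.card_pos_iff).2 ⟨(nonempty_orbit a).to_subtype, inferInstance⟩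
    have : 0 < Nat.card (orbit H b) := (Nat.card_pos_iff).2 ⟨(nonempty_orbit b).to_subtype, inferInstance⟩
    omega
  have hstab : ∀ u : X, Nat.card (stabilizer H u) = 168 := fun u => by
    have h := horb u
    rw [show orbit H u = Set.univ from Set.eq_univ_of_forall fun b => htrans u b, Nat.card_univ, hX] at h
    omega
  -- a point whose stabilizer is transitive on the other points
  obtain ⟨t, ht⟩ := exists_prime_orderOf_dvd_card' (G := H) 2 (by rw [hH]; norm_num)
  have ht1 : t ≠ 1 := fun h => by rw [h, orderOf_one] at ht; omega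
  obtain ⟨u, hu⟩ : ∃ u : X, t • u ≠ u := by
    by_contra! h
    refine ht1 (Subtype.ext (Units.ext (Matrix.ext_of_mulVec_single fun i => ?_)))
    rw [OneMemClass.coe_one, Units.val_one, Matrix.one_mulVec]
    exact congrArg Subtype.val (h ⟨Pi.single i 1, fun h0 => one_ne_zero (by simpa using congrFun h0 i : (1 : F) = 0)⟩)
  have h7 : ∀ w : X, w ≠ u → 7 ∣ Nat.card (orbit (stabilizer H u) w) := by
    intro w hw
    have h1 : 7 ∣ Nat.card (orbit (stabilizer H u) w) * Nat.card (stabilizer (stabilizer H u) w) := by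
      rw [Nat.card_coe_set_eq, ← index_stabilizer, mul_comm, Subgroup.card_mul_index, hstab]; norm_num
    rcases (Nat.Prime.dvd_mul (by norm_num)).1 h1 with h | h
    · exact h
    · obtain ⟨g, hg⟩ := exists_prime_orderOf_dvd_card' 7 h
      rw [← Subgroup.orderOf_coe, ← Subgroup.orderOf_coe] at hg
      have hg1 : ((g : stabilizer H u) : H) ≠ 1 := fun h => by rw [h, orderOf_one] at hg; omega
      exact absurd ((hfix 7 _ (by rw [← hg, pow_orderOf_eq_one]) hg1 u (g : stabilizer H u).2).2 rfl w g.2) hw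
  set w₀ : X := t • u
  have h14 : Nat.card (orbit (stabilizer H u) w₀) = 14 := by
    have hle : Nat.card (orbit (stabilizer H u) w₀) ≤ 14 := by
      have hsub : orbit (stabilizer H u) w₀ ⊆ ({u} : Set X)ᶜ := by
        rintro _ ⟨k, rfl⟩ h
        exact hu (smul_left_cancel (k : H) ((Set.mem_singleton_iff.1 h).trans k.2.symm))
      have h := Set.ncard_le_ncard hsub
      rwa [Set.ncard_compl, Set.ncard_singleton, hX, ← Nat.card_coe_set_eq] at h
    have hpos : 0 < Nat.card (orbit (stabilizer H u) w₀) := Nat.card_pos_iff.2 ⟨(nonempty_orbit _).to_subtype, inferInstance⟩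
    by_contra hne
    have h7' : Nat.card (orbit (stabilizer H u) w₀) = 7 := by
      have := h7 w₀ hu
      omega
    -- the orbital has odd size and a fixed-point-free involution
    have hO : Nat.card (orbit H (u, w₀)) = 105 := by
      have h1 := (stabilizer (stabilizer H u) w₀).card_mul_index
      rw [index_stabilizer, ← Nat.card_coe_set_eq, h7', hstab] at h1
      have h2 : Nat.card (stabilizer H (u, w₀)) = Nat.card (stabilizer (stabilizer H u) w₀) :=
        Nat.card_congr
          { toFun := fun k => ⟨⟨k.1, congrArg Prod.fst k.2⟩, congrArg Prod.snd k.2⟩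
            invFun := fun k => ⟨k.1.1, Prod.ext k.1.2 k.2⟩
            left_inv := fun k => rfl
            right_inv := fun k => rfl }
      have h3 := (stabilizer H (u, w₀)).card_mul_index
      rw [index_stabilizer, ← Nat.card_coe_set_eq, h2, hH] at h3
      have h4 : Nat.card (stabilizer (stabilizer H u) w₀) = 24 := by omega
      rw [h4] at h3
      exact Nat.eq_of_mul_eq_mul_left (by norm_num : 0 < 24) (h3.trans (by norm_num))
    have htt : t • w₀ = u := by
      show t • t • u = u
      rw [← mul_smul, ← sq, ← ht, pow_orderOf_eq_one, one_smul]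
    have hswap : ∀ z ∈ orbit H (u, w₀), Prod.swap z ∈ orbit H (u, w₀) := by
      rintro _ ⟨k, rfl⟩
      exact ⟨k * t, Prod.ext (mul_smul k t u) (by show (k * t) • w₀ = k • u; rw [mul_smul, htt])⟩
    haveI := Fintype.ofFinite (orbit H (u, w₀))
    let s : Function.End (orbit H (u, w₀)) := fun z => ⟨Prod.swap z.1, hswap z z.2⟩
    haveI : Fact (Nat.Prime 2) := ⟨Nat.prime_two⟩
    have h1 := Equiv.Perm.card_fixedPoints_modEq (p := 2) (n := 1) (f := s)
      (by rw [pow_one, sq]; funext z; exact Subtype.ext (Prod.swap_swap _))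
    have h2 : Nat.card (Function.fixedPoints s) = 0 := by
      refine @Nat.card_of_isEmpty _ ⟨fun ⟨⟨_, k, rfl⟩, h⟩ => ?_⟩
      have h' : k • w₀ = k • u := congrArg (fun z => z.1.1) h
      exact hu (smul_left_cancel k h')
    simp only [← Nat.card_eq_fintype_card] at h1
    rw [h2, hO] at h1
    exact absurd h1 (by decide)
  have hfull : orbit (stabilizer H u) w₀ = ({u} : Set X)ᶜ := by
    refine Set.eq_of_subset_of_ncard_le ?_ ?_
    · rintro _ ⟨k, rfl⟩ h
      exact hu (smul_left_cancel (k : H) ((Set.mem_singleton_iff.1 h).trans k.2.symm))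
    · rw [Set.ncard_compl, Set.ncard_singleton, hX, ← Nat.card_coe_set_eq, h14]
  intro v w v' w' hv hw hvw hv' hw' hvw'
  have key : ∀ a b : X, a ≠ b → ∃ g : H, g • u = a ∧ g • w₀ = b := by
    intro a b hab
    obtain ⟨g, hg⟩ := htrans u a
    have h1 : g⁻¹ • b ∈ orbit (stabilizer H u) w₀ := by
      rw [hfull, Set.mem_compl_iff, Set.mem_singleton_iff, inv_smul_eq_iff, hg]
      exact hab.symm
    obtain ⟨k, hk⟩ := h1
    refine ⟨g * (k : H), by rw [mul_smul, k.2, hg], ?_⟩
    rw [mul_smul, show (k : H) • w₀ = g⁻¹ • b from hk, smul_inv_smul]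
  obtain ⟨g, hg1, hg2⟩ := key ⟨v, hv⟩ ⟨w, hw⟩ fun h => hvw (congrArg Subtype.val h)
  obtain ⟨g', hg1', hg2'⟩ := key ⟨v', hv'⟩ ⟨w', hw'⟩ fun h => hvw' (congrArg Subtype.val h)
  refine ⟨((g' * g⁻¹ : H) : GL (Fin 4) F), (g' * g⁻¹).2, ?_, ?_⟩
  · exact congrArg Subtype.val (show (g' * g⁻¹) • (⟨v, hv⟩ : X) = ⟨v', hv'⟩ by rw [← hg1, mul_smul, inv_smul_smul, hg1'])
  · exact congrArg Subtype.val (show (g' * g⁻¹) • (⟨w, hw⟩ : X) = ⟨w', hw'⟩ by rw [← hg2, mul_smul, inv_smul_smul, hg2'])

end Cfsg.Agent.S2551
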