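import Cfsg.Statements.S2552

set_option autoImplicit false
open Cfsg

namespace Cfsg.Agent.S2552

/-- Let F be a finite field and n ≥ 1. For every k, the special linear group SL_n(F) acts transitively on the set of k-dimensional subspaces of F^n: any two subspaces of the same dimension are carried onto each other by some matrix of determinant 1. -/
theorem result {F : Type*} [Field F] [Fintype F] (n : ℕ) (hn : 1 ≤ n) (U₁ U₂ : Submodule F (Fin n → F)) (h : Module.finrank F U₁ = Module.finrank F U₂) : ∃ g : Matrix.SpecialLinearGroup (Fin n) F, U₁.map ((Matrix.SpecialLinearGroup.toLin' g : (Fin n → F) ≃ₗ[F] (Fin n → F)) : (Fin n → F) →ₗ[F] (Fin n → F)) = U₂ := by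
  classical
  obtain ⟨W₁, h₁⟩ := U₁.exists_isCompl
  obtain ⟨W₂, h₂⟩ := U₂.exists_isCompl
  have hW : Module.finrank F W₁ = Module.finrank F W₂ := by
    have e1 := Submodule.finrank_add_eq_of_isCompl h₁
    have e2 := Submodule.finrank_add_eq_of_isCompl h₂
    omega
  let f : (Fin n → F) ≃ₗ[F] (Fin n → F) :=
    (Submodule.prodEquivOfIsCompl U₁ W₁ h₁).symm ≪≫ₗ
      ((LinearEquiv.ofFinrankEq _ _ h).prodCongr (LinearEquiv.ofFinrankEq _ _ hW)) ≪≫ₗ
      Submodule.prodEquivOfIsCompl U₂ W₂ h₂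
  have hf : U₁.map (f : (Fin n → F) →ₗ[F] (Fin n → F)) ≤ U₂ := by
    rintro _ ⟨x, hx, rfl⟩
    have : (Submodule.prodEquivOfIsCompl U₁ W₁ h₁).symm x = (⟨x, hx⟩, 0) := by
      rw [LinearEquiv.symm_apply_eq]
      simp
    simp only [f, LinearEquiv.coe_coe, LinearEquiv.trans_apply, this]
    simp
  let b := ((Module.finBasis F U₂).prod (Module.finBasis F W₂)).map (Submodule.prodEquivOfIsCompl U₂ W₂ h₂)
  have hne : Nonempty (Fin (Module.finrank F U₂) ⊕ Fin (Module.finrank F W₂)) := by
    by_contra hh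
    have : IsEmpty (Fin (Module.finrank F U₂) ⊕ Fin (Module.finrank F W₂)) := not_nonempty_iff.1 hh
    have := Module.finrank_eq_card_basis b
    simp at this
    omega
  obtain ⟨i₀⟩ := hne
  have hd : LinearMap.det (f : (Fin n → F) →ₗ[F] (Fin n → F)) ≠ 0 := (LinearEquiv.isUnit_det' f).ne_zero
  set d := LinearMap.det (f : (Fin n → F) →ₗ[F] (Fin n → F)) with hdd
  let h' : (Fin n → F) →ₗ[F] (Fin n → F) := Matrix.toLin b b (Matrix.diagonal (Function.update 1 i₀ d⁻¹))
  have hdet' : LinearMap.det h' = d⁻¹ := by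
    rw [LinearMap.det_toLin, Matrix.det_diagonal, Finset.prod_update_of_mem (Finset.mem_univ _)]
    simp
  have hh' : U₂.map h' ≤ U₂ := by
    rintro _ ⟨x, hx, rfl⟩
    have : x = ∑ i, (Module.finBasis F U₂).repr ⟨x, hx⟩ i • b (Sum.inl i) := by
      have e := congrArg Subtype.val ((Module.finBasis F U₂).sum_repr ⟨x, hx⟩)
      simp only [Submodule.coe_sum, Submodule.coe_smul] at e
      refine e.symm.trans (Finset.sum_congr rfl fun i _ => ?_)
      simp [b]
    rw [this, map_sum]
    refine Submodule.sum_mem _ fun i _ => ?_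
    rw [map_smul]
    refine Submodule.smul_mem _ _ ?_
    have : h' (b (Sum.inl i)) = Function.update (1 : Fin (Module.finrank F U₂) ⊕ Fin (Module.finrank F W₂) → F) i₀ d⁻¹ (Sum.inl i) • b (Sum.inl i) := by
      simp only [h', Matrix.toLin_self]
      rw [Finset.sum_eq_single (Sum.inl i)]
      · rw [Matrix.diagonal_apply_eq]
      · intro j _ hj; rw [Matrix.diagonal_apply_ne _ hj, zero_smul]
      · simp
    rw [this]
    refine Submodule.smul_mem _ _ ?_
    simp [b]
  let M := LinearMap.toMatrix' (h' ∘ₗ (f : (Fin n → F) →ₗ[F] (Fin n → F)))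
  have hM : M.det = 1 := by
    rw [← LinearMap.det_toLin', Matrix.toLin'_toMatrix', LinearMap.det_comp, hdet', ← hdd, inv_mul_cancel₀ hd]
  refine ⟨⟨M, hM⟩, ?_⟩
  show U₁.map (Matrix.toLin' M) = U₂
  rw [Matrix.toLin'_toMatrix', Submodule.map_comp]
  refine Submodule.eq_of_le_of_finrank_eq ((Submodule.map_mono hf).trans hh') ?_
  have hinj : Function.Injective (h' ∘ₗ (f : (Fin n → F) →ₗ[F] (Fin n → F))) := by
    refine (LinearMap.equivOfDetNeZero (h' ∘ₗ (f : (Fin n → F) →ₗ[F] (Fin n → F))) ?_).injective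
    rw [LinearMap.det_comp, hdet', ← hdd, inv_mul_cancel₀ hd]
    exact one_ne_zero
  rw [← Submodule.map_comp, LinearEquiv.finrank_eq (Submodule.equivMapOfInjective _ hinj U₁).symm, h]

end Cfsg.Agent.S2552
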