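import Cfsg.Statements.S2565
import Cfsg.Agent.S0825
import Mathlib.GroupTheory.SpecificGroups.Alternating.Centralizer


set_option autoImplicit false
open Cfsg

namespace Cfsg.Agent.S2565

/-- The commutator subgroup of the full orthogonal group of the plus-type form Σ xᵢyᵢ in dimension 6 over the field of two elements (the group Ω⁺₆(2), of index 2) is isomorphic to the alternating group of degree 8. -/
theorem result :
    (Cfsg.Omega (ZMod 2) (Cfsg.quadFormPlus 3 (ZMod 2))).index = 2 ∧
    Nonempty (↥(Cfsg.Omega (ZMod 2) (Cfsg.quadFormPlus 3 (ZMod 2))) ≃* alternatingGroup (Fin 8)) := by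
  obtain ⟨e⟩ := Cfsg.Agent.S0825.result (F := ZMod 2) (ZMod.card 2)
  have h : (Cfsg.Omega (ZMod 2) (Cfsg.quadFormPlus 3 (ZMod 2))).map e.toMonoidHom = alternatingGroup (Fin 8) := by
    rw [← alternatingGroup.commutator_perm_eq (α := Fin 8) (by simp)]
    unfold Cfsg.Omega
    rw [commutator_def, commutator_def, Subgroup.map_commutator,
      Subgroup.map_top_of_surjective _ e.surjective]
  refine ⟨?_, ⟨(e.subgroupMap _).trans (MulEquiv.subgroupCongr h)⟩⟩
  have h1 := alternatingGroup.index_eq_two (α := Fin 8)
  rw [← h] at h1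
  exact (Subgroup.index_map_equiv _ e).symm.trans h1

end Cfsg.Agent.S2565
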