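import Cfsg.Statements.S2566
import Cfsg.Agent.Lib.Classical.ExcIso.Common
import Cfsg.Agent.Lib.Classical.QuadOmega.SingularPlus

open Cfsg.Agent.Lib.Classical.ExcIso Cfsg.Agent.Lib.Classical.Quad Cfsg.Agent.Lib.Classical.QuadOmega

set_option autoImplicit false
open Cfsg

namespace Cfsg.Agent.S2566

abbrev Z := ZMod 2
abbrev P3 := Equiv.Perm (Fin 3)
abbrev I := Fin 2 ⊕ Fin 2

/-- The two-dimensional module of `S₃`. -/
def mat (σ : P3) : Matrix (Fin 2) (Fin 2) Z :=
  Matrix.of fun i j => (![![1, 0], ![0, 1], ![1, 1]] : Fin 3 → Fin 2 → Z) (σ (Fin.castSucc j)) i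

/-- Vectors as matrices. -/
def toM : (I → Z) →ₗ[Z] Matrix (Fin 2) (Fin 2) Z where
  toFun v := !![v (.inl 0), v (.inl 1); v (.inr 1), v (.inr 0)]
  map_add' u v := by ext i j; fin_cases i <;> fin_cases j <;> rfl
  map_smul' c v := by ext i j; fin_cases i <;> fin_cases j <;> rfl

/-- Matrices as vectors. -/
def ofM : Matrix (Fin 2) (Fin 2) Z →ₗ[Z] (I → Z) where
  toFun X := Sum.elim ![X 0 0, X 0 1] ![X 1 1, X 1 0]
  map_add' X Y := by ext (i | i) <;> fin_cases i <;> rfl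
  map_smul' c X := by ext (i | i) <;> fin_cases i <;> rfl

noncomputable def lft (σ : P3) : (I → Z) →ₗ[Z] (I → Z) :=
  ofM ∘ₗ LinearMap.mulLeft Z (mat σ) ∘ₗ toM

noncomputable def rgt (σ : P3) : (I → Z) →ₗ[Z] (I → Z) :=
  ofM ∘ₗ LinearMap.mulRight Z (mat σ).transpose ∘ₗ toM

/-- The transpose. -/
def swp : (I → Z) →ₗ[Z] (I → Z) :=
  LinearMap.funLeft Z Z (Sum.elim ![.inl 0, .inr 1] ![.inr 0, .inl 1])

lemma to_of (X : Matrix (Fin 2) (Fin 2) Z) : toM (ofM X) = X := by
  ext i j; fin_cases i <;> fin_cases j <;> rfl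

lemma of_to (v : I → Z) : ofM (toM v) = v := by
  ext (i | i) <;> fin_cases i <;> rfl

lemma mat_mul : ∀ σ τ : P3, mat (σ * τ) = mat σ * mat τ := by decide +kernel
lemma mat_one : mat 1 = 1 := by decide +kernel

lemma lft_f : ∀ (σ : P3) (v : I → Z), Cfsg.quadFormPlus 2 Z (ofM (mat σ * toM v)) =
    Cfsg.quadFormPlus 2 Z v := by decide +kernel
lemma rgt_f : ∀ (σ : P3) (v : I → Z), Cfsg.quadFormPlus 2 Z (ofM (toM v * (mat σ).transpose)) =
    Cfsg.quadFormPlus 2 Z v := by decide +kernel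

noncomputable def lftHom : P3 →* Cfsg.isometryGroup Z (Cfsg.quadFormPlus 2 Z) :=
  repHom _ lft (fun σ τ v => by simp [lft, to_of, mat_mul])
    (fun v => by simp [lft, mat_one, of_to]) (fun σ v => lft_f σ v)

noncomputable def rgtHom : P3 →* Cfsg.isometryGroup Z (Cfsg.quadFormPlus 2 Z) :=
  repHom _ rgt (fun σ τ v => by simp [rgt, to_of, mat_mul, mul_assoc])
    (fun v => by simp [rgt, mat_one, of_to]) (fun σ v => rgt_f σ v)

lemma sep : ∀ σ τ : P3, (∀ v, ofM (mat σ * toM v * (mat τ).transpose) = v) → σ = 1 ∧ τ = 1 := by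
  decide +kernel

lemma swp_mul : ∀ v, swp (swp v) = v := by decide +kernel
lemma swp_f : ∀ v, Cfsg.quadFormPlus 2 Z (swp v) = Cfsg.quadFormPlus 2 Z v := by decide +kernel
lemma swp_conj : ∀ (σ : P3) (v : I → Z),
    swp (ofM (mat σ * toM (swp v))) = ofM (toM v * (mat σ).transpose) := by decide +kernel

noncomputable def swapG : Cfsg.isometryGroup Z (Cfsg.quadFormPlus 2 Z) :=
  ⟨⟨LinearMap.toMatrix' swp, LinearMap.toMatrix' swp,
    by rw [← LinearMap.toMatrix'_comp, show swp ∘ₗ swp = LinearMap.id from LinearMap.ext swp_mul,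
      LinearMap.toMatrix'_id],
    by rw [← LinearMap.toMatrix'_comp, show swp ∘ₗ swp = LinearMap.id from LinearMap.ext swp_mul,
      LinearMap.toMatrix'_id]⟩,
    show ∀ u v : I → Z, Cfsg.quadFormPlus 2 Z ((LinearMap.toMatrix' swp).mulVec u) =
      Cfsg.quadFormPlus 2 Z u from fun u _ => by rw [LinearMap.toMatrix'_mulVec, swp_f]⟩

lemma ext_val {a b : Cfsg.isometryGroup Z (Cfsg.quadFormPlus 2 Z)}
    (h : (a.1 : Matrix I I Z) = (b.1 : Matrix I I Z)) : a = b := Subtype.ext (Units.ext h)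

lemma comm' (σ τ : P3) : lftHom σ * rgtHom τ = rgtHom τ * lftHom σ := by
  refine ext_val ?_
  show LinearMap.toMatrix' (lft σ) * LinearMap.toMatrix' (rgt τ) =
    LinearMap.toMatrix' (rgt τ) * LinearMap.toMatrix' (lft σ)
  rw [← LinearMap.toMatrix'_comp, ← LinearMap.toMatrix'_comp]
  exact congrArg LinearMap.toMatrix' (LinearMap.ext fun v => by simp [lft, rgt, to_of, mul_assoc])

lemma main : Nat.card ↥(Cfsg.isometryGroup Z (Cfsg.quadFormPlus 2 Z)) = 72 ∧
    ∃ (A B : Subgroup ↥(Cfsg.isometryGroup Z (Cfsg.quadFormPlus 2 Z))),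
      Nonempty (↥A ≃* P3) ∧ Nonempty (↥B ≃* P3) ∧ A ⊓ B = ⊥ ∧ (∀ a ∈ A, ∀ b ∈ B, a * b = b * a) ∧
      (A ⊔ B).index = 2 ∧ ∃ g : ↥(Cfsg.isometryGroup Z (Cfsg.quadFormPlus 2 Z)),
        A.map (MulAut.conj g).toMonoidHom = B := by
  have hc : Nat.card ↥(Cfsg.isometryGroup Z (Cfsg.quadFormPlus 2 Z)) = 72 := by
    rw [card_O_plus, ZMod.card]; rfl
  refine ⟨hc, lftHom.range, rgtHom.range, ?_⟩
  let χ := MonoidHom.noncommCoprod lftHom rgtHom comm'
  have hχ : Function.Injective χ := (injective_iff_map_eq_one χ).2 fun x hx => by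
    refine Prod.ext_iff.2 (sep x.1 x.2 fun v => ?_)
    have h : (LinearMap.toMatrix' (lft x.1) * LinearMap.toMatrix' (rgt x.2) : Matrix I I Z) = 1 :=
      congrArg (fun y : Cfsg.isometryGroup Z (Cfsg.quadFormPlus 2 Z) => (y.1 : Matrix I I Z)) hx
    rw [← LinearMap.toMatrix'_comp] at h
    have h' := LinearMap.toMatrix'_mulVec (lft x.1 ∘ₗ rgt x.2) v
    rw [h, Matrix.one_mulVec] at h'
    simpa [lft, rgt, to_of, mul_assoc] using h'.symm
  have hl : Function.Injective lftHom := fun a b h => congrArg Prod.fst (hχ (a₁ := (a, 1)) (a₂ := (b, 1))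
    (by show lftHom _ * rgtHom _ = lftHom _ * rgtHom _; simp [h]))
  have hr : Function.Injective rgtHom := fun a b h => congrArg Prod.snd (hχ (a₁ := (1, a)) (a₂ := (1, b))
    (by show lftHom _ * rgtHom _ = lftHom _ * rgtHom _; simp [h]))
  refine ⟨⟨(MonoidHom.ofInjective hl).symm⟩, ⟨(MonoidHom.ofInjective hr).symm⟩,
    (Subgroup.eq_bot_iff_forall _).2 ?_, ?_, ?_, swapG, ?_⟩
  · rintro _ ⟨⟨a, rfl⟩, b, hb⟩
    have := congrArg Prod.fst (hχ (a₁ := (a, 1)) (a₂ := (1, b)) (by show lftHom _ * rgtHom _ = lftHom _ * rgtHom _; simp [hb]))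
    rw [show a = 1 from this, map_one]
  · rintro _ ⟨a, rfl⟩ _ ⟨b, rfl⟩
    exact comm' a b
  · rw [← MonoidHom.noncommCoprod_range lftHom rgtHom comm']
    have h := χ.range.card_mul_index
    rw [Nat.card_congr (MonoidHom.ofInjective hχ).symm.toEquiv, Nat.card_prod, Nat.card_perm,
      Nat.card_fin, hc, show Nat.factorial 3 = 6 from rfl] at h
    change χ.range.index = 2
    omega
  · rw [MonoidHom.map_range]
    congr 1
    refine MonoidHom.ext fun σ => ext_val ?_
    show LinearMap.toMatrix' swp * LinearMap.toMatrix' (lft σ) * LinearMap.toMatrix' swp =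
      LinearMap.toMatrix' (rgt σ)
    rw [← LinearMap.toMatrix'_comp, ← LinearMap.toMatrix'_comp]
    exact congrArg LinearMap.toMatrix' (LinearMap.ext fun v => swp_conj σ v)

/-- The full orthogonal group of the plus-type form x₁y₁ + x₂y₂ in dimension 4 over the field of two elements has order 72 and is isomorphic to the wreath product of the symmetric group of degree 3 by a group of order 2: it has a normal subgroup isomorphic to the direct product of two symmetric groups of degree 3, of index 2, whose two direct factors are interchanged by conjugation by some element. -/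
theorem result :
    Nat.card ↥(Cfsg.isometryGroup (ZMod 2) (Cfsg.quadFormPlus 2 (ZMod 2))) = 72 ∧
    ∃ (A B : Subgroup ↥(Cfsg.isometryGroup (ZMod 2) (Cfsg.quadFormPlus 2 (ZMod 2)))),
      Nonempty (↥A ≃* Equiv.Perm (Fin 3)) ∧ Nonempty (↥B ≃* Equiv.Perm (Fin 3)) ∧ A ⊓ B = ⊥ ∧ (∀ a ∈ A, ∀ b ∈ B, a * b = b * a) ∧
      (A ⊔ B).index = 2 ∧ ∃ g : ↥(Cfsg.isometryGroup (ZMod 2) (Cfsg.quadFormPlus 2 (ZMod 2))), A.map (MulAut.conj g).toMonoidHom = B := by
  exact main

end Cfsg.Agent.S2566
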