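import Cfsg.Statements.S2567

set_option autoImplicit false
open Cfsg

namespace Cfsg.Agent.S2567

theorem center_pow_card {F : Type*} [Field F] [Fintype F] {n : ℕ} (z : GL (Fin n) F)
    (hz : z ∈ Subgroup.center (GL (Fin n) F)) : z ^ (Fintype.card F - 1) = 1 := by
  rw [Matrix.GeneralLinearGroup.center_eq_range_scalar, MonoidHom.mem_range] at hz
  obtain ⟨c, rfl⟩ := hz
  rw [← map_pow, show c ^ (Fintype.card F - 1) = 1 from
    Units.ext (by simpa using FiniteField.pow_card_sub_one_eq_one (c : F) c.ne_zero), map_one]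


/-- Lifting elements of prime order from PGL to GL: let F be a finite field with q elements, r a prime not dividing q − 1, and x an element of order r in GL_n(F) modulo its centre (the scalar matrices). Then x has exactly one preimage in GL_n(F) of order r. -/
theorem result {F : Type*} [Field F] [Fintype F] {q n r : ℕ} (hF : Fintype.card F = q) (hr : r.Prime) (hdiv : ¬ r ∣ q - 1) (x : GL (Fin n) F ⧸ Subgroup.center (GL (Fin n) F)) (hx : orderOf x = r) : ∃! g : GL (Fin n) F, (QuotientGroup.mk g : GL (Fin n) F ⧸ Subgroup.center (GL (Fin n) F)) = x ∧ orderOf g = r := by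
  subst hF
  obtain ⟨g0, rfl⟩ := QuotientGroup.mk_surjective x
  have hcop : Nat.Coprime r (Fintype.card F - 1) := hr.coprime_iff_not_dvd.2 hdiv
  have hz0 : g0 ^ r ∈ Subgroup.center (GL (Fin n) F) := by
    rw [← QuotientGroup.eq_one_iff, QuotientGroup.mk_pow, ← hx, pow_orderOf_eq_one]
  have hz0' := center_pow_card _ hz0
  set Z := Subgroup.center (GL (Fin n) F)
  obtain ⟨u, hu⟩ : ∃ u : ℕ, (g0 ^ r) ^ (r * u) = g0 ^ r := by
    have hc : Nat.Coprime r (orderOf (g0 ^ r)) := hcop.coprime_dvd_right (orderOf_dvd_of_pow_eq_one hz0')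
    obtain ⟨u, hu⟩ := exists_pow_eq_self_of_coprime hc
    exact ⟨u, by rw [pow_mul, hu]⟩
  set w := (g0 ^ r) ^ u with hw
  have hwZ : w ∈ Z := pow_mem hz0 _
  have hcomm : Commute g0 w⁻¹ := Commute.inv_right (show Commute g0 w from Subgroup.mem_center_iff.1 hwZ g0)
  have hwr : w ^ r = g0 ^ r := by rw [hw, ← pow_mul, mul_comm, hu]
  have hgr : (g0 * w⁻¹) ^ r = 1 := by rw [hcomm.mul_pow, inv_pow, hwr, mul_inv_cancel]
  have hmk : (QuotientGroup.mk (g0 * w⁻¹) : GL (Fin n) F ⧸ Z) = QuotientGroup.mk g0 := by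
    rw [QuotientGroup.mk_mul, (QuotientGroup.eq_one_iff _).2 (inv_mem hwZ), mul_one]
  refine ⟨g0 * w⁻¹, ⟨hmk, ?_⟩, ?_⟩
  · refine (Nat.Prime.eq_one_or_self_of_dvd hr _ (orderOf_dvd_of_pow_eq_one hgr)).resolve_left ?_
    rw [orderOf_eq_one_iff]
    intro h
    rw [h, QuotientGroup.mk_one] at hmk
    rw [← hmk, orderOf_one] at hx
    exact hr.ne_one hx.symm
  · rintro g ⟨hg, hgo⟩
    have hzm : (g0 * w⁻¹)⁻¹ * g ∈ Z := QuotientGroup.eq.1 (hmk.trans hg.symm)
    set z := (g0 * w⁻¹)⁻¹ * g with hzdef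
    have hge : g = g0 * w⁻¹ * z := by rw [hzdef]; group
    have hzc : Commute (g0 * w⁻¹) z := Subgroup.mem_center_iff.1 hzm _
    have hzr : z ^ r = 1 := by
      have := pow_orderOf_eq_one g
      rwa [hgo, hge, hzc.mul_pow, hgr, one_mul] at this
    have hz1 : z = 1 := pow_eq_one_iff_of_coprime ?_ |>.1 ⟨hzr, center_pow_card z hzm⟩
    · rw [hge, hz1, mul_one]
    · exact hcop

end Cfsg.Agent.S2567
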