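import Cfsg.Statements.S2568
import Cfsg.Agent.Lib.GLn.TorsionClasses
import Mathlib.RingTheory.Polynomial.Cyclotomic.Factorization

set_option autoImplicit false
open Cfsg

namespace Cfsg.Agent.S2568

open Polynomial UniqueFactorizationMonoid Cfsg.Agent.Lib.GLn

/-- Number of conjugacy classes of elements of a given prime order r, coprime to the characteristic, in GL_n(q): if i is the multiplicative order of q modulo r and t = (r − 1)/i, the classes correspond to the non-zero t-tuples of natural numbers (a_1, …, a_t) with i(a_1 + ⋯ + a_t) ≤ n (a_j is the multiplicity of the j-th Frobenius orbit of nontrivial r-th roots of unity among the eigenvalues), so there are exactly C(⌊n/i⌋ + t, t) − 1 of them. -/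
theorem result {F : Type*} [Field F] [Fintype F] {p q : ℕ} [Fact p.Prime] [CharP F p] (hF : Fintype.card F = q) (n r i t : ℕ) (hr : r.Prime) (hrp : r ≠ p) (hi : i = orderOf (q : ZMod r)) (ht : t * i = r - 1) : Nat.card {C : ConjClasses (GL (Fin n) F) // ∃ g : GL (Fin n) F, ConjClasses.mk g = C ∧ orderOf g = r} = Nat.choose (n / i + t) t - 1 := by
  classical
  haveI : Fact r.Prime := ⟨hr⟩
  obtain ⟨k, hp, hk⟩ := FiniteField.card F p
  have hcop : p.Coprime r := (Nat.coprime_primes hp hr).2 hrp.symm
  have hmp : r.Coprime p := hcop.symm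
  have hq : q = p ^ (k : ℕ) := hF.symm.trans hk
  have hi' : i = orderOf (ZMod.unitOfCoprime _ (hcop.pow_left (k : ℕ))) := by
    rw [hi, hq, ← orderOf_units, ZMod.coe_unitOfCoprime]
  have hipos : 0 < i := by rw [hi']; exact orderOf_pos _
  set T := (normalizedFactors (cyclotomic r F)).toFinset with hTdef
  have hTdeg : ∀ h ∈ T, h.natDegree = i := fun h hh => by
    rw [hi']
    exact natDegree_of_mem_normalizedFactors_cyclotomic hk hcop (Multiset.mem_toFinset.1 hh)
  have hTcard : T.card = t := by
    rw [hTdef, normalizedFactors_cyclotomic_card hk hcop, ← hi', Nat.totient_prime hr, ← ht,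
      Nat.mul_div_cancel _ hipos]
  have hsep : (X ^ r - 1 : F[X]).Separable := by
    have h : (r : F) ≠ 0 := SemisimpleCharpoly.cast_ne_zero_of_coprime p hmp
    simpa using Polynomial.separable_X_pow_sub_C (1 : F) h one_ne_zero
  have hmul : cyclotomic r F * (X - 1) = X ^ r - 1 := cyclotomic_prime_mul_X_sub_one F r
  have hnodup : (normalizedFactors (cyclotomic r F)).Nodup :=
    (squarefree_iff_nodup_normalizedFactors (cyclotomic_ne_zero r F)).1
      (hsep.squarefree.squarefree_of_dvd ⟨_, hmul.symm⟩)
  have hTmon : ∀ h ∈ T, h.Monic := fun h hh => by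
    rw [← normalize_normalized_factor h (Multiset.mem_toFinset.1 hh)]
    exact monic_normalize (irreducible_of_normalized_factor h (Multiset.mem_toFinset.1 hh)).ne_zero
  have hTprod : ∏ h ∈ T, h = cyclotomic r F := by
    rw [Finset.prod_eq_multiset_prod, Multiset.map_id', hTdef, Multiset.toFinset_val, hnodup.dedup]
    exact eq_of_monic_of_associated (by
        simpa using monic_multiset_prod_of_monic (normalizedFactors (cyclotomic r F)) id
          (fun h hh => hTmon h (Multiset.mem_toFinset.2 hh)))
      (cyclotomic.monic r F) (prod_normalizedFactors (cyclotomic_ne_zero r F))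
  have hX1 : (X - 1 : F[X]) ∉ T := fun h => by
    have hd : (X - 1 : F[X]) * (X - 1) ∣ X ^ r - 1 :=
      hmul ▸ mul_dvd_mul_right (dvd_of_mem_normalizedFactors (Multiset.mem_toFinset.1 h)) _
    exact (not_isUnit_X_sub_C (1 : F)) (by simpa using hsep.squarefree _ hd)
  let f : Option T → F[X] := fun o => o.elim (X - 1) Subtype.val
  have hinj : Function.Injective f := by
    rintro (_ | a) (_ | b) h
    · rfl
    · exact absurd (show (X - 1 : F[X]) = b from h) (fun e => hX1 (e ▸ b.2))
    · exact absurd (show (a : F[X]) = X - 1 from h) (fun e => hX1 (e ▸ a.2))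
    · exact congrArg some (Subtype.ext h)
  have hfm : ∀ o, (f o).Monic := by
    rintro (_ | a)
    · simpa [f] using monic_X_sub_C (1 : F)
    · exact hTmon _ a.2
  have hfi : ∀ o, Irreducible (f o) := by
    rintro (_ | a)
    · simpa [f] using irreducible_X_sub_C (1 : F)
    · exact irreducible_of_normalized_factor _ (Multiset.mem_toFinset.1 a.2)
  have hprod : ∏ o, f o = X ^ r - 1 := by
    rw [Fintype.prod_option, ← hmul, mul_comm (cyclotomic r F)]
    refine congrArg _ ?_
    rw [← hTprod]
    exact Finset.prod_coe_sort T id
  have hd0 : (f none).natDegree = 1 := by simpa [f] using natDegree_X_sub_C (1 : F)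
  have hd : ∀ a : T, (f (some a)).natDegree = i := fun a => hTdeg _ a.2
  -- multiplicity functions are multisets of size `n / i`
  have hA : Nat.card {a : Option T → ℕ // ∑ o, a o * (f o).natDegree = n} = Nat.choose (n / i + t) t := by
    have hs : ∀ a : Option T → ℕ, ∑ o, a o * (f o).natDegree = a none + (∑ x, a (some x)) * i := fun a => by
      rw [Fintype.sum_option, hd0, mul_one, Finset.sum_mul]
      simp [hd]
    let e : {a : Option T → ℕ // ∑ o, a o * (f o).natDegree = n} ≃ {b : Option T → ℕ // ∑ o, b o = n / i} :=
      { toFun := fun a => ⟨fun o => o.elim (n / i - ∑ x, a.1 (some x)) fun x => a.1 (some x), by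
          have h := a.2
          rw [hs] at h
          have : ∑ x, a.1 (some x) ≤ n / i := (Nat.le_div_iff_mul_le hipos).2 (by omega)
          rw [Fintype.sum_option]
          change (n / i - ∑ x, a.1 (some x)) + ∑ x, a.1 (some x) = _
          omega⟩
        invFun := fun b => ⟨fun o => o.elim (n - (∑ x, b.1 (some x)) * i) fun x => b.1 (some x), by
          have h := b.2
          rw [Fintype.sum_option] at h
          have : (∑ x, b.1 (some x)) * i ≤ n := (Nat.le_div_iff_mul_le hipos).1 (by omega)
          rw [hs]
          change n - (∑ x, b.1 (some x)) * i + (∑ x, b.1 (some x)) * i = n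
          omega⟩
        left_inv := fun a => Subtype.ext (funext fun o => by
          cases o with
          | none =>
            have h := a.2
            rw [hs] at h
            change n - (∑ x, a.1 (some x)) * i = a.1 none
            omega
          | some x => rfl)
        right_inv := fun b => Subtype.ext (funext fun o => by
          cases o with
          | none =>
            have h := b.2
            rw [Fintype.sum_option] at h
            change n / i - ∑ x, b.1 (some x) = b.1 none
            omega
          | some x => rfl) }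
    rw [Nat.card_congr (e.trans (Sym.equivNatSumOfFintype (Option T) (n / i)).symm), Nat.card_eq_fintype_card,
      Sym.card_sym_eq_choose, Fintype.card_option, Fintype.card_coe, hTcard,
      show t + 1 + n / i - 1 = n / i + t by generalize n / i = a; omega, Nat.choose_symm_add]
  have hcls := TorsionClasses.card_classes (n := n) p f hinj hfm hfi r hmp hprod
  rw [hA] at hcls
  rw [← hcls]
  -- remove the trivial class
  set S : Set (ConjClasses (GL (Fin n) F)) :=
    {C | ∃ g : GL (Fin n) F, ConjClasses.mk g = C ∧ g ^ r = 1} with hS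
  have hset : {C : ConjClasses (GL (Fin n) F) | ∃ g : GL (Fin n) F, ConjClasses.mk g = C ∧ orderOf g = r} =
      S \ {ConjClasses.mk 1} := by
    ext C
    constructor
    · rintro ⟨g, rfl, hg⟩
      refine ⟨⟨g, rfl, hg ▸ pow_orderOf_eq_one g⟩, fun e => ?_⟩
      have : g = 1 := isConj_one_left.1 (ConjClasses.mk_eq_mk_iff_isConj.1 (Set.mem_singleton_iff.1 e))
      rw [this, orderOf_one] at hg
      exact hr.one_lt.ne hg
    · rintro ⟨⟨g, rfl, hg⟩, hne⟩
      exact ⟨g, rfl, orderOf_eq_prime hg fun e => hne (by rw [e]; rfl)⟩
  change Nat.card ↥({C : ConjClasses (GL (Fin n) F) | ∃ g : GL (Fin n) F, ConjClasses.mk g = C ∧ orderOf g = r}) =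
    Nat.card ↥S - 1
  rw [hset, Nat.card_coe_set_eq, Nat.card_coe_set_eq,
    Set.ncard_sdiff_singleton_of_mem (show ConjClasses.mk 1 ∈ S from ⟨1, rfl, one_pow r⟩)]

end Cfsg.Agent.S2568
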