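import Cfsg.Statements.S2570
import Cfsg.Agent.Lib.Jordan.Matrix

set_option autoImplicit false
open Cfsg

namespace Cfsg.Agent.S2570

/-- Number of conjugacy classes of elements of order p in GL_n over a finite field of characteristic p: they correspond to the Jordan types, that is, to the partitions of n with all parts at most p other than the partition into ones, so there are (number of partitions of n with parts ≤ p) − 1 of them. -/
theorem result {F : Type*} [Field F] [Fintype F] {p : ℕ} [Fact p.Prime] [CharP F p] (n : ℕ) : Nat.card {C : ConjClasses (GL (Fin n) F) // ∃ g : GL (Fin n) F, ConjClasses.mk g = C ∧ orderOf g = p} = (Finset.univ.filter (fun μ : Nat.Partition n => ∀ a ∈ μ.parts, a ≤ p)).card - 1 := by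
  classical
  have hp : p.Prime := Fact.out
  rw [← Cfsg.Agent.Lib.Jordan.card_filter_ne_ones n hp.one_lt.le]
  rcases Nat.eq_zero_or_pos n with rfl | hn
  · have h1 : ∀ g : GL (Fin 0) F, g = 1 := fun g => Units.ext (Subsingleton.elim _ _)
    rw [Finset.card_eq_zero.mpr (Finset.filter_eq_empty_iff.mpr fun μ _ h => h.2 fun a ha => absurd (Nat.Partition.le_of_mem_parts ha) (Nat.not_le.mpr (μ.parts_pos ha)))]
    · have : IsEmpty {C : ConjClasses (GL (Fin 0) F) // ∃ g : GL (Fin 0) F, ConjClasses.mk g = C ∧ orderOf g = p} :=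
        ⟨fun ⟨C, g, _, hg⟩ => by rw [h1 g, orderOf_one] at hg; exact hp.one_lt.ne hg⟩
      exact Nat.card_of_isEmpty
  haveI : Nonempty (Fin n) := ⟨⟨0, hn⟩⟩
  simp only [and_comm (a := ConjClasses.mk _ = _)]
  refine Cfsg.Agent.Lib.Jordan.card_classes (fun g : GL (Fin n) F => orderOf g = p)
    (fun g (μ : Nat.Partition n) => Cfsg.Agent.Lib.Jordan.MType ((g : Matrix (Fin n) (Fin n) F) - 1) μ.parts)
    _ (fun g hg => ?_) (fun g a b ha hb => Nat.Partition.ext (ha.unique hb)) (fun g h a ha hgh => ?_)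
    (fun g h a ha hb => ?_) (fun a hmem => ?_)
  · obtain ⟨μ, hμ⟩ := Cfsg.Agent.Lib.Jordan.MType.exists_of_isNilpotent
      ((Cfsg.Agent.Lib.Jordan.unipotent_iff p g).mp ⟨1, by rw [pow_one]; exact hg⟩)
    exact ⟨⟨μ, fun hi => hμ.pos hi, by rw [hμ.sum_eq, Fintype.card_fin]⟩, Finset.mem_filter.mpr
      ⟨Finset.mem_univ _, (Cfsg.Agent.Lib.Jordan.order_p_iff p hμ).mp hg⟩, hμ⟩
  · obtain ⟨c, hc⟩ := hgh
    refine ha.conj c.val ?_
    rw [Matrix.mul_sub, Matrix.sub_mul, Matrix.mul_one, Matrix.one_mul, sub_left_inj, ← Units.val_mul, ← Units.val_mul]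
    exact congrArg Units.val hc.eq
  · obtain ⟨c, hc⟩ := ha.exists_gl hb
    rw [Matrix.mul_sub, Matrix.sub_mul, Matrix.mul_one, Matrix.one_mul, sub_left_inj] at hc
    exact isConj_iff.2 ⟨c, mul_inv_eq_iff_eq_mul.2 (Units.ext hc)⟩
  · obtain ⟨M, hM⟩ := Cfsg.Agent.Lib.Jordan.exists_mtype (F := F) a
    obtain ⟨u, hu⟩ := hM.isNilpotent.isUnit_one_add
    have hu' : Cfsg.Agent.Lib.Jordan.MType ((u : Matrix (Fin n) (Fin n) F) - 1) a.parts := by
      rwa [hu, add_sub_cancel_left]
    exact ⟨u, (Cfsg.Agent.Lib.Jordan.order_p_iff p hu').mpr (Finset.mem_filter.mp hmem).2, hu'⟩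

end Cfsg.Agent.S2570
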