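import Cfsg.Statements.S2571
import Cfsg.Agent.Lib.RegularUnipotent

set_option autoImplicit false
open Cfsg

namespace Cfsg.Agent.S2571

/-- Centraliser of a regular unipotent element in GL_n(q): if u is an invertible n × n matrix over the field with q elements, n ≥ 1, with (u − 1)^n = 0 and rank(u − 1) = n − 1 (a single unipotent Jordan block), then its centraliser in GL_n(q) has order (q − 1) q^(n−1). -/
theorem result {F : Type*} [Field F] [Fintype F] {q n : ℕ} (hF : Fintype.card F = q) (hn : 1 ≤ n) (u : GL (Fin n) F) (hnil : ((u : Matrix (Fin n) (Fin n) F) - 1) ^ n = 0) (hreg : ((u : Matrix (Fin n) (Fin n) F) - 1).rank = n - 1) : Nat.card ↥(Subgroup.centralizer ({u} : Set (GL (Fin n) F))) = (q - 1) * q ^ (n - 1) := by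
  classical
  haveI : Nonempty (Fin n) := ⟨⟨0, hn⟩⟩
  set M : Matrix (Fin n) (Fin n) F := (u : Matrix (Fin n) (Fin n) F)
  have hf : Lib.RegularUnipotent.IsRegNil (Matrix.toLin' (M - 1)) :=
    Lib.RegularUnipotent.isRegNil_of_matrix M n hnil (by simpa using hreg)
  set f := Matrix.toLin' (M - 1)
  obtain ⟨v, hv⟩ := hf.exists_cyc
  have hdim : Module.finrank F (Fin n → F) = n := Module.finrank_fin_fun F
  have hcomm : ∀ c : GL (Fin n) F, c ∈ Subgroup.centralizer ({u} : Set (GL (Fin n) F)) ↔
      Commute (Matrix.toLinAlgEquiv' (c : Matrix (Fin n) (Fin n) F)) f := by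
    intro c
    rw [Subgroup.mem_centralizer_singleton_iff]
    constructor
    · intro h
      have : Commute (c : Matrix (Fin n) (Fin n) F) M := congrArg Units.val h
      exact (this.sub_right (Commute.one_right _)).map Matrix.toLinAlgEquiv'
    · intro h
      have h' := h.map (Matrix.toLinAlgEquiv'.symm : _ ≃ₐ[F] Matrix (Fin n) (Fin n) F)
      rw [AlgEquiv.symm_apply_apply] at h'
      have h2 : Commute (c : Matrix (Fin n) (Fin n) F) (M - 1) := by
        rwa [show Matrix.toLinAlgEquiv'.symm f = M - 1 from Matrix.toLinAlgEquiv'.symm_apply_apply _] at h'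
      have h3 := h2.add_right (Commute.one_right _)
      rw [sub_add_cancel] at h3
      exact Units.ext h3.eq
  let Φ : ↥(Subgroup.centralizer ({u} : Set (GL (Fin n) F))) → {w : Fin n → F // Lib.RegularUnipotent.IsCyc f w} :=
    fun c => ⟨(c.1 : Matrix (Fin n) (Fin n) F).mulVec v, by
      have h := (hcomm c.1).1 c.2
      intro h0
      apply hv
      have e : (Matrix.toLinAlgEquiv' (c.1 : Matrix (Fin n) (Fin n) F)) ((f ^ (Module.finrank F (Fin n → F) - 1)) v) = 0 := by
        rw [← Module.End.mul_apply, (h.pow_right _).eq, Module.End.mul_apply]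
        exact h0
      exact (Matrix.mulVec_injective_of_isUnit c.1.isUnit) (e.trans (Matrix.mulVec_zero _).symm)⟩
  have hbij : Function.Bijective Φ := by
    constructor
    · intro a b h
      have := hf.ext_cyc hv ((hcomm a.1).1 a.2) ((hcomm b.1).1 b.2) (congrArg Subtype.val h)
      exact Subtype.ext (Units.ext (Matrix.toLinAlgEquiv'.injective this))
    · rintro ⟨w, hw⟩
      obtain ⟨p, hp⟩ := hf.exists_poly hv w
      set A := Polynomial.aeval f p
      have hA : Commute A f := Lib.RegularUnipotent.commute_aeval f p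
      have hb := hf.bijective_of_cyc hA (show Lib.RegularUnipotent.IsCyc f (A v) by rwa [show A v = w from hp])
      have hu : IsUnit (Matrix.toLinAlgEquiv'.symm A) := ((Module.End.isUnit_iff A).2 hb).map _
      have hmem : hu.unit ∈ Subgroup.centralizer ({u} : Set (GL (Fin n) F)) := by
        rw [hcomm, IsUnit.unit_spec, AlgEquiv.apply_symm_apply]; exact hA
      refine ⟨⟨hu.unit, hmem⟩, Subtype.ext ?_⟩
      show (Matrix.toLinAlgEquiv'.symm A).mulVec v = w
      rw [← Matrix.toLinAlgEquiv'_apply, AlgEquiv.apply_symm_apply]; exact hp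
  rw [Nat.card_eq_of_bijective Φ hbij]
  haveI : Fintype (Fin n → F) := inferInstance
  have hker := hf.finrank_ker_pow (Module.finrank F (Fin n → F) - 1) (by omega)
  rw [hdim] at hker
  have e : Nat.card {w : Fin n → F // Lib.RegularUnipotent.IsCyc f w} = Nat.card (Fin n → F) - Nat.card (LinearMap.ker (f ^ (n - 1))) := by
    rw [Nat.card_eq_fintype_card, Nat.card_eq_fintype_card, Nat.card_eq_fintype_card]
    rw [← Fintype.card_subtype_compl (fun w : Fin n → F => w ∈ LinearMap.ker (f ^ (n - 1)))]
    refine Fintype.card_congr (Equiv.subtypeEquivRight fun w => ?_)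
    show (f ^ (Module.finrank F (Fin n → F) - 1)) w ≠ 0 ↔ ¬ (w ∈ LinearMap.ker (f ^ (n - 1)))
    rw [hdim, LinearMap.mem_ker]
  rw [e, Module.natCard_eq_pow_finrank (K := F), Module.natCard_eq_pow_finrank (K := F) (V := LinearMap.ker (f ^ (n - 1))),
    hker, hdim, Nat.card_eq_fintype_card, hF]
  obtain ⟨k, rfl⟩ : ∃ k, n = k + 1 := ⟨n - 1, by omega⟩
  rw [Nat.add_sub_cancel, Nat.sub_mul, one_mul, pow_succ']

end Cfsg.Agent.S2571
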