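import Cfsg.Statements.S2572
import Cfsg.Agent.Lib.Forms.TransvectionClass

set_option autoImplicit false
open Cfsg

open Cfsg Matrix
namespace Cfsg.Agent.S2572

/-- Centraliser of a transvection in GL_n(q), n ≥ 2: if t − 1 has rank one and square zero, the centraliser of t in GL_n(q) has order q^(2n−3) (q − 1) |GL_(n−2)(q)| (a group of order q^(2n−3) extended by GL_1(q) × GL_(n−2)(q)). -/
theorem result {F : Type*} [Field F] [Fintype F] {q n : ℕ} (hF : Fintype.card F = q) (hn : 2 ≤ n) (t : GL (Fin n) F) (ht : Cfsg.IsTransvection (t : Matrix (Fin n) (Fin n) F)) : Nat.card ↥(Subgroup.centralizer ({t} : Set (GL (Fin n) F))) = q ^ (2 * n - 3) * (q - 1) * ∏ i : Fin (n - 2), (q ^ (n - 2) - q ^ (i : ℕ)) := by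
  classical
  obtain ⟨k, rfl⟩ : ∃ k, n = k + 2 := ⟨n - 2, by omega⟩
  obtain ⟨a, φ, ha, hφ, h, rfl⟩ := Lib.Forms.exists_tv_of_isTransvection ht
  have horb : Nat.card (MulAction.orbit (ConjAct (GL (Fin (k + 2)) F)) (Lib.Forms.tv a φ)) =
      Nat.card {t : GL (Fin (k + 2)) F // ∃ b ψ : Fin (k + 2) → F, b ≠ 0 ∧ ψ ≠ 0 ∧ ψ ⬝ᵥ b = 0 ∧ t = Lib.Forms.tv b ψ} := by
    refine Nat.card_congr (Equiv.subtypeEquivRight fun t => ?_)
    rw [ConjAct.mem_orbit_conjAct]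
    constructor
    · intro hc
      obtain ⟨g, hg⟩ := isConj_iff.1 hc
      refine ⟨((g⁻¹ : GL (Fin (k + 2)) F) : Matrix _ _ F) *ᵥ a, φ ᵥ* (((g⁻¹)⁻¹ : GL (Fin (k + 2)) F) : Matrix _ _ F), ?_, ?_, ?_,
        (eq_inv_mul_iff_mul_eq.2 (eq_mul_inv_iff_mul_eq.1 hg.symm).symm).trans ?_⟩
      rotate_left 3
      · rw [← mul_assoc]
        have h0 := Lib.Forms.tv_conj g⁻¹ h
        rwa [inv_inv] at h0 ⊢
      · exact fun e => ha (Lib.Forms.gl_mulVec_injective g⁻¹ (e.trans (mulVec_zero _).symm))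
      · intro e
        apply hφ
        have := congrArg (fun v => v ᵥ* ((g⁻¹ : GL (Fin (k + 2)) F) : Matrix (Fin (k + 2)) (Fin (k + 2)) F)) e
        simpa [vecMul_vecMul, ← Units.val_mul] using this
      · rw [Lib.Forms.vecMul_inv_dot, h]
    · rintro ⟨b, ψ, hb, hψ, hd, rfl⟩
      obtain ⟨g, hg⟩ := Lib.Forms.exists_conj_tv hd h hb hψ ha hφ
      exact isConj_iff.2 ⟨g, hg⟩
  have hmul : Nat.card (MulAction.orbit (ConjAct (GL (Fin (k + 2)) F)) (Lib.Forms.tv a φ)) *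
      Nat.card ↥(Subgroup.centralizer ({Lib.Forms.tv a φ} : Set (GL (Fin (k + 2)) F))) = Nat.card (GL (Fin (k + 2)) F) := by
    rw [Subgroup.nat_card_centralizer_nat_card_stabilizer, ← Nat.card_congr (ConjAct.toConjAct (G := GL (Fin (k + 2)) F)).toEquiv.symm,
      ← Nat.card_prod]
    exact Nat.card_congr (MulAction.orbitProdStabilizerEquivGroup _ _)
  have hT := Lib.Forms.card_tv (ι := Fin (k + 2)) (F := F)
  rw [← horb, Fintype.card_fin, hF, show k + 2 - 1 = k + 1 by omega] at hT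
  rw [Matrix.card_GL_field, hF, Fin.prod_univ_succ, Fin.prod_univ_succ] at hmul
  have hshift : ∀ i : Fin k, q ^ (k + 2) - q ^ (((i.succ).succ : Fin (k + 2)) : ℕ) = q ^ 2 * (q ^ k - q ^ (i : ℕ)) := by
    intro i
    rw [Nat.mul_sub, Fin.val_succ, Fin.val_succ]
    congr 1 <;> ring
  simp only [hshift, Finset.prod_mul_distrib, Finset.prod_const, Finset.card_univ, Fintype.card_fin, Fin.val_zero,
    Fin.succ_zero_eq_one, Fin.val_one, pow_zero, pow_one] at hmul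
  have hq : 2 ≤ q := hF ▸ Fintype.one_lt_card
  have h1 : 0 < q ^ (k + 2) - 1 := Nat.sub_pos_of_lt (Nat.one_lt_pow (by omega) (by omega))
  have h2 : 0 < q ^ (k + 1) - 1 := Nat.sub_pos_of_lt (Nat.one_lt_pow (by omega) (by omega))
  have e3 : q ^ (k + 2) - q = q * (q ^ (k + 1) - 1) := by rw [Nat.mul_sub, mul_one, ← pow_succ']
  rw [e3, ← pow_mul] at hmul
  simp only [show k + 2 - 2 = k by omega, show 2 * (k + 2) - 3 = 2 * k + 1 by omega]
  apply Nat.eq_of_mul_eq_mul_left (Nat.mul_pos h1 h2)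
  generalize Nat.card ↥(Subgroup.centralizer ({Lib.Forms.tv a φ} : Set (GL (Fin (k + 2)) F))) = C at hmul ⊢
  generalize hP : (∏ i : Fin k, (q ^ k - q ^ (i : ℕ))) = P at hmul
  have hP' : ∏ i : Fin (k + 2 - 2), (q ^ k - q ^ (i : ℕ)) = P := hP
  rw [hP', ← hT]
  calc _ = (q - 1) * ((Nat.card (MulAction.orbit (ConjAct (GL (Fin (k + 2)) F)) (Lib.Forms.tv a φ))) * C) := by ring
    _ = _ := by rw [hmul, hT]; ring

end Cfsg.Agent.S2572
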