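import Cfsg.Statements.S2574
import Cfsg.Agent.S2573

set_option autoImplicit false
open Cfsg

namespace Cfsg.Agent.S2574

/-- A regular unipotent element of the symplectic group has totally isotropic small invariant subspaces: over a finite field, if u ∈ Sp_2m(F) satisfies (u − 1)^(2m) = 0 and rank(u − 1) = 2m − 1, and W is a u-invariant subspace with 2 dim W ≤ 2m, then the alternating form vanishes identically on W. -/
theorem result {F : Type*} [Field F] [Finite F] {m : ℕ} (u : Matrix.symplecticGroup (Fin m) F) (hnil : ((u : Matrix (Fin m ⊕ Fin m) (Fin m ⊕ Fin m) F) - 1) ^ (2 * m) = 0) (hreg : ((u : Matrix (Fin m ⊕ Fin m) (Fin m ⊕ Fin m) F) - 1).rank = 2 * m - 1) (W : Submodule F (Fin m ⊕ Fin m → F)) (hW : ∀ v ∈ W, (u : Matrix (Fin m ⊕ Fin m) (Fin m ⊕ Fin m) F).mulVec v ∈ W) (hdim : 2 * Module.finrank F W ≤ 2 * m) : ∀ v ∈ W, ∀ w ∈ W, Cfsg.sympForm m F v w = 0 := by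
  classical
  set A : Matrix (Fin m ⊕ Fin m) (Fin m ⊕ Fin m) F := (u : Matrix (Fin m ⊕ Fin m) (Fin m ⊕ Fin m) F) with hA
  let B : LinearMap.BilinForm F (Fin m ⊕ Fin m → F) := Matrix.toBilin' (Matrix.J (Fin m) F)
  have hBval : ∀ v w, B v w = Cfsg.sympForm m F v w := fun v w => by
    simp [B, Cfsg.sympForm, Matrix.toBilin'_apply']
  have hB : B.Nondegenerate :=
    LinearMap.BilinForm.nondegenerate_toBilin'_of_det_ne_zero' _
      (Matrix.isUnit_det_J (Fin m) F).ne_zero
  have hAB : ∀ v w, B (A.mulVec v) (A.mulVec w) = B v w := by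
    intro v w
    simp only [B, Matrix.toBilin'_apply', Matrix.mulVec_mulVec]
    rw [← Matrix.vecMul_transpose A v, ← Matrix.dotProduct_mulVec, Matrix.mulVec_mulVec,
      ← Matrix.mul_assoc, SymplecticGroup.mem_iff'.1 u.2]
  have hinjA : Function.Injective (fun v => A.mulVec v) := by
    intro v w h
    refine sub_eq_zero.1 (hB.1 (v - w) fun x => ?_)
    rw [← hAB]; simp [Matrix.mulVec_sub, show A.mulVec v = A.mulVec w from h]
  set d := Module.finrank F W with hd
  set W' := LinearMap.BilinForm.orthogonal B W with hW'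
  have hdim : Module.finrank F W' = 2 * m - d := by
    rw [hW', LinearMap.BilinForm.finrank_orthogonal hB]
    simp [Module.finrank_pi, hd, two_mul]
  have hinv : ∀ v ∈ W', A.mulVec v ∈ W' := by
    intro v hv w hw
    obtain ⟨⟨w', hw'⟩, hww⟩ := LinearMap.surjective_of_injective
      (f := (Matrix.mulVecLin A).restrict hW)
      (fun a b h => Subtype.ext (hinjA (congrArg Subtype.val h))) ⟨w, hw⟩
    have : A.mulVec w' = w := congrArg Subtype.val hww
    show B w (A.mulVec v) = 0
    rw [← this, hAB]; exact hv w' hw'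
  have e1 := S2573.aux A (2 * m) hnil (by simpa [two_mul] using hreg) W hW
  have e2 := S2573.aux A (2 * m) hnil (by simpa [two_mul] using hreg) W' hinv
  have hle : W ≤ W' := by
    rw [e1, e2, hdim, ← hd]
    intro x hx
    rw [LinearMap.mem_ker, Matrix.mulVecLin_apply] at hx ⊢
    obtain ⟨c, hc⟩ := Nat.exists_eq_add_of_le (show d ≤ 2 * m - d by omega)
    rw [hc, add_comm, pow_add, ← Matrix.mulVec_mulVec, hx, Matrix.mulVec_zero]
  intro v hv w hw
  rw [← hBval]
  exact hle hw v hv

end Cfsg.Agent.S2574
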