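import Cfsg.Statements.S2575

set_option autoImplicit false
open Cfsg

namespace Cfsg.Agent.S2575

theorem exists_neg_one_pow {F : Type*} [Field F] [Fintype F] {q : ℕ}
    (hF : Fintype.card F = q) (hq : Odd q) {n : ℕ} (hn : 1 ≤ n) :
    (∃ c : F, c ^ n = -1) ↔ padicValNat 2 n < padicValNat 2 (q - 1) := by
  have hn0 : n ≠ 0 := by omega
  have hq1 : q - 1 ≠ 0 := by
    have := Fintype.one_lt_card (α := F)
    omega
  have h2 : (-1 : F) ≠ 1 := by
    intro h
    have : ringChar F = 2 := by
      by_contra hc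
      exact Ring.neg_one_ne_one_of_char_ne_two hc h
    have := FiniteField.even_card_iff_char_two.1 this
    rw [hF] at this
    exact absurd this (by rw [Nat.odd_iff.1 hq]; decide)
  obtain ⟨a, m, hm, hnam⟩ := Nat.exists_eq_pow_mul_and_not_dvd hn0 2 (by norm_num)
  have hm0 : m ≠ 0 := by rintro rfl; simp at hm
  have ha : padicValNat 2 n = a := by
    rw [hnam, padicValNat.mul (by positivity) hm0, padicValNat.prime_pow,
      padicValNat.eq_zero_of_not_dvd hm]
    simp
  have hmodd : Odd m := Nat.odd_iff.2 (by omega)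
  rw [ha, ← Nat.succ_le_iff, ← padicValNat_dvd_iff_le hq1]
  constructor
  · rintro ⟨c, hc⟩
    have hc0 : c ≠ 0 := by
      rintro rfl
      rw [zero_pow hn0] at hc
      simp at hc
    have hy : ((c ^ m) ^ 2 ^ a) = -1 := by rw [← pow_mul, mul_comm, ← hnam, hc]
    have := orderOf_eq_prime_pow (x := c ^ m) (p := 2) (n := a)
      (by rw [hy]; exact h2) (by rw [pow_succ, pow_mul, hy]; ring)
    rw [← this, ← hF]
    exact orderOf_dvd_of_pow_eq_one (FiniteField.pow_card_sub_one_eq_one _ (pow_ne_zero _ hc0))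
  · intro h
    have hcard : Nat.card Fˣ = q - 1 := by rw [Nat.card_units, Nat.card_eq_fintype_card, hF]
    obtain ⟨g, hg⟩ := IsCyclic.exists_ofOrder_eq_natCard (α := Fˣ)
    rw [hcard] at hg
    obtain ⟨k, hk⟩ := h
    have hord : orderOf (g ^ k) = 2 ^ (a + 1) := by
      rw [orderOf_pow_of_dvd (by rintro rfl; simp [hq1] at hk) (by rw [hg, hk]; exact dvd_mul_left _ _), hg, hk,
        Nat.mul_div_cancel _ (by rcases Nat.eq_zero_or_pos k with rfl | h0; · simp [hq1] at hk
                                 · exact h0)]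
    refine ⟨((g ^ k : Fˣ) : F), ?_⟩
    set z : F := ((g ^ k : Fˣ) : F) with hz
    have h1 : (z ^ 2 ^ a) ^ 2 = 1 := by
      rw [← pow_mul, ← pow_succ, ← hord, hz, ← orderOf_units, pow_orderOf_eq_one]
    have h3 : z ^ 2 ^ a ≠ 1 := by
      intro h
      have := orderOf_dvd_of_pow_eq_one h
      rw [hz, orderOf_units, hord] at this
      exact absurd (Nat.le_of_dvd (by positivity) this) (not_le.2 (Nat.pow_lt_pow_right (by norm_num) (Nat.lt_succ_self a)))
    have h4 : z ^ 2 ^ a = -1 := (sq_eq_one_iff.1 h1).resolve_left h3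
    rw [hnam, pow_mul, h4, hmodd.neg_one_pow]

/-- Which diagonal involutions of PGL_n(q) lie in PSL_n(q), q odd: for the diagonal matrix t with i entries −1 and n − i entries 1, some non-zero scalar multiple of t has determinant one if and only if i is even or the 2-part of q − 1 exceeds the 2-part of n (that is, −1 is an n-th power in the field exactly in the latter case). -/
theorem result {F : Type*} [Field F] [Fintype F] {q : ℕ} (hF : Fintype.card F = q) (hq : Odd q) {n : ℕ} (hn : 1 ≤ n) (i : ℕ) (hi : i ≤ n) : (∃ c : F, c ≠ 0 ∧ (c • Matrix.diagonal (fun j : Fin n => if (j : ℕ) < i then (-1 : F) else 1)).det = 1) ↔ (Even i ∨ padicValNat 2 n < padicValNat 2 (q - 1)) := by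
  have hdet : ∀ c : F, (c • Matrix.diagonal (fun j : Fin n => if (j : ℕ) < i then (-1 : F) else 1)).det = c ^ n * (-1) ^ i := by
    intro c
    rw [Matrix.det_smul, Fintype.card_fin, Matrix.det_diagonal, Finset.prod_ite]
    congr 1
    simp only [Finset.prod_const, one_pow, mul_one]
    congr 1
    rw [Fin.card_filter_val_lt, min_eq_right hi]
  simp only [hdet]
  by_cases he : Even i
  · simp only [he, he.neg_one_pow, mul_one, true_or, iff_true]
    exact ⟨1, one_ne_zero, one_pow n⟩
  · have ho : Odd i := Nat.not_even_iff_odd.1 he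
    simp only [ho.neg_one_pow, mul_neg, mul_one, neg_eq_iff_eq_neg, he, false_or]
    rw [← exists_neg_one_pow hF hq hn]
    constructor
    · rintro ⟨c, -, h⟩; exact ⟨c, h⟩
    · rintro ⟨c, h⟩
      refine ⟨c, ?_, h⟩
      rintro rfl
      rw [zero_pow (by omega)] at h
      simp at h

end Cfsg.Agent.S2575
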