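import Cfsg.Statements.S2576

set_option autoImplicit false
open Cfsg

namespace Cfsg.Agent.S2576

/-- Which involutions of PGL_2m(q) coming from a scalar of the quadratic extension field lie in PSL_2m(q), q odd: let μ generate the Sylow 2-subgroup of the multiplicative group of the field with q elements (μ has order the 2-part of q − 1) and let t be the block-diagonal matrix with m diagonal blocks [[0, 1], [μ, 0]] (so t² is the scalar μ and t is an involution modulo scalars). Then some non-zero scalar multiple of t has determinant one if and only if q ≡ 3 (mod 4) or the 2-part of q − 1 is less than the 2-part of 2m. -/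
theorem result {F : Type*} [Field F] [Fintype F] {q : ℕ} (hF : Fintype.card F = q) (hq : Odd q) {m : ℕ} (hm : 1 ≤ m) (μ : F) (hμ : orderOf μ = 2 ^ padicValNat 2 (q - 1)) : (∃ c : F, c ≠ 0 ∧ (c • Matrix.blockDiagonal (fun _ : Fin m => !![(0 : F), 1; μ, 0])).det = 1) ↔ (q % 4 = 3 ∨ padicValNat 2 (q - 1) < padicValNat 2 (2 * m)) := by
  have hq1 : 1 < q := hF ▸ Fintype.one_lt_card
  have hdet : ∀ c : F, (c • Matrix.blockDiagonal (fun _ : Fin m => !![(0 : F), 1; μ, 0])).det = (-(c ^ 2 * μ)) ^ m := by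
    intro c
    rw [Matrix.det_smul, Matrix.det_blockDiagonal, Finset.prod_const, Matrix.det_fin_two_of,
      Fintype.card_prod]
    simp only [Fintype.card_fin, Finset.card_univ]
    rw [pow_mul, ← mul_pow]
    ring
  simp only [hdet]
  obtain ⟨e, Q, hQ, hqQ⟩ := Nat.exists_eq_pow_mul_and_not_dvd (show q - 1 ≠ 0 by omega) 2 (by norm_num)
  have hQ0 : Q ≠ 0 := by rintro rfl; simp at hQ
  have he : padicValNat 2 (q - 1) = e := by
    rw [hqQ, padicValNat.mul (by positivity) hQ0, padicValNat.prime_pow,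
      padicValNat.eq_zero_of_not_dvd hQ]
    simp
  rw [he] at hμ ⊢
  have hQodd : Odd Q := Nat.odd_iff.2 (by omega)
  have he1 : 1 ≤ e := by
    rcases Nat.eq_zero_or_pos e with rfl | h
    · simp only [pow_zero, one_mul] at hqQ
      rw [Nat.odd_iff] at hq
      omega
    · exact h
  obtain ⟨d, rfl⟩ : ∃ d, e = d + 1 := ⟨e - 1, by omega⟩
  have hμe : μ ^ 2 ^ (d + 1) = 1 := by rw [← hμ, pow_orderOf_eq_one]
  have hμd : μ ^ 2 ^ d = -1 := by
    have h1 : (μ ^ 2 ^ d) ^ 2 = 1 := by rw [← pow_mul, ← pow_succ, hμe]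
    refine (sq_eq_one_iff.1 h1).resolve_left fun h => ?_
    have := orderOf_dvd_of_pow_eq_one h
    rw [hμ] at this
    exact absurd (Nat.le_of_dvd (by positivity) this) (not_le.2 (Nat.pow_lt_pow_right (by norm_num) (Nat.lt_succ_self d)))
  have hm0 : m ≠ 0 := by omega
  have hiff : d + 1 < padicValNat 2 (2 * m) ↔ 2 ^ (d + 1) ∣ m := by
    rw [padicValNat.mul (by norm_num) hm0, padicValNat_dvd_iff_le hm0, padicValNat_self]
    omega
  rw [hiff]
  rcases Nat.eq_zero_or_pos d with rfl | hd
  · have hμ1 : μ = -1 := by simpa using hμd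
    constructor
    · intro _
      left
      rw [Nat.odd_iff] at hQodd
      omega
    · intro _
      exact ⟨1, one_ne_zero, by rw [hμ1]; simp⟩
  · have hq4 : q % 4 ≠ 3 := by
      have : 4 ∣ q - 1 := hqQ ▸ Dvd.dvd.mul_right (pow_dvd_pow 2 (show 2 ≤ d + 1 by omega)) Q
      omega
    simp only [hq4, false_or]
    have h2d : Even (2 ^ d) := Nat.even_pow.2 ⟨even_two, by omega⟩
    constructor
    · rintro ⟨c, hc, h⟩
      by_contra hnd
      obtain ⟨j, hj, hg⟩ := (Nat.dvd_prime_pow Nat.prime_two).1 (Nat.gcd_dvd_right m (2 ^ (d + 1)))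
      have hjd : j ≤ d := by
        by_contra hjd
        obtain rfl : j = d + 1 := by omega
        exact hnd (hg ▸ Nat.gcd_dvd_left _ _)
      set x := -(c ^ 2 * μ)
      have hx0 : x ≠ 0 := by
        intro h0
        rw [h0, zero_pow hm0] at h
        simp at h
      have hy1 : (x ^ Q) ^ m = 1 := by rw [← pow_mul, mul_comm, pow_mul, h, one_pow]
      have hy2 : (x ^ Q) ^ 2 ^ (d + 1) = 1 := by
        rw [← pow_mul, mul_comm, ← hqQ, ← hF]
        exact FiniteField.pow_card_sub_one_eq_one x hx0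
      have hy3 : (x ^ Q) ^ 2 ^ d = 1 := by
        obtain ⟨r, hr⟩ := pow_dvd_pow 2 hjd
        have := (pow_gcd_eq_one (a := x ^ Q)).2 ⟨hy1, hy2⟩
        rw [hg] at this
        rw [hr, pow_mul, this, one_pow]
      have hy4 : (x ^ Q) ^ 2 ^ d = -1 := by
        have hc1 : c ^ (q - 1) = 1 := hF ▸ FiniteField.pow_card_sub_one_eq_one c hc
        rw [← pow_mul, mul_comm, pow_mul, h2d.neg_pow, mul_pow, hμd, mul_pow, ← pow_mul, ← pow_mul,
          hQodd.neg_one_pow, show 2 * (2 ^ d * Q) = q - 1 by rw [hqQ, pow_succ]; ring, hc1]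
        ring
      rw [hy3] at hy4
      rw [hy4] at hy1
      have : (x ^ Q) ^ 2 ^ d = 1 := hy3
      have h11 : (-1 : F) ≠ 1 := by
        intro h
        rw [h] at hμd
        have := orderOf_dvd_of_pow_eq_one hμd
        rw [hμ] at this
        exact absurd (Nat.le_of_dvd (by positivity) this) (not_le.2 (Nat.pow_lt_pow_right (by norm_num) (Nat.lt_succ_self d)))
      exact h11 hy4.symm
    · intro hdvd
      refine ⟨1, one_ne_zero, ?_⟩
      obtain ⟨r, hr⟩ := hdvd
      rw [one_pow, one_mul, hr, pow_mul, (Nat.even_pow.2 ⟨even_two, by omega⟩ : Even (2 ^ (d + 1))).neg_pow, hμe, one_pow]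

end Cfsg.Agent.S2576
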