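import Cfsg.Statements.S2578
import Cfsg.Agent.Lib.UnipDet

set_option autoImplicit false
open Cfsg

namespace Cfsg.Agent.S2578

/-- Regular unipotent classes of SL_n(q): for n ≥ 2 over the field with q elements, the matrices u of determinant one with (u − 1)^n = 0 and rank(u − 1) = n − 1 form a single GL_n(q)-class which splits into exactly gcd(n, q − 1) conjugacy classes of SL_n(q). -/
theorem result {F : Type*} [Field F] [Fintype F] {q : ℕ} (hF : Fintype.card F = q) {n : ℕ} (hn : 2 ≤ n) : Nat.card {C : ConjClasses (Matrix.SpecialLinearGroup (Fin n) F) // ∃ u : Matrix.SpecialLinearGroup (Fin n) F, ConjClasses.mk u = C ∧ ((u : Matrix (Fin n) (Fin n) F) - 1) ^ n = 0 ∧ ((u : Matrix (Fin n) (Fin n) F) - 1).rank = n - 1} = Nat.gcd n (q - 1) := by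
  classical
  haveI : NeZero n := ⟨by omega⟩
  set J : Matrix.SpecialLinearGroup (Fin n) F := Lib.GLOrders.unipotent n n with hJ
  have hJ1 : ((J : Matrix (Fin n) (Fin n) F) - 1) ^ n = 0 := by
    show ((1 + Lib.GLOrders.shiftMat n n : Matrix (Fin n) (Fin n) F) - 1) ^ n = 0
    rw [add_sub_cancel_left]; exact Lib.GLOrders.shiftMat_pow_eq_zero n n (by omega)
  have hJ2 : ((J : Matrix (Fin n) (Fin n) F) - 1).rank = n - 1 := by
    show ((1 + Lib.GLOrders.shiftMat n n : Matrix (Fin n) (Fin n) F) - 1).rank = n - 1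
    rw [add_sub_cancel_left]; exact Lib.UnipDet.shift_rank (by omega)
  let D : Fˣ → Matrix (Fin n) (Fin n) F := fun a => Matrix.diagonal (Function.update 1 0 (a : F))
  have hD : ∀ a, (D a).det = a := fun a => by
    show Matrix.det (Matrix.diagonal _) = _
    rw [Matrix.det_diagonal, Finset.prod_update_of_mem (Finset.mem_univ _)]; simp
  have hDi : ∀ a : Fˣ, D a * D a⁻¹ = 1 := fun a => by
    show Matrix.diagonal _ * Matrix.diagonal _ = _
    rw [Matrix.diagonal_mul_diagonal, ← Matrix.diagonal_one]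
    congr 1; funext i
    by_cases h : i = 0
    · subst h; simp
    · simp [Function.update_of_ne h]
  let Ja : Fˣ → Matrix.SpecialLinearGroup (Fin n) F := fun a =>
    ⟨D a * J * D a⁻¹, by rw [Matrix.det_mul, Matrix.det_mul, hD, hD, J.2, mul_one, ← Units.val_mul, mul_inv_cancel, Units.val_one]⟩
  have hDi' : ∀ a : Fˣ, D a⁻¹ * D a = 1 := fun a => by simpa using hDi a⁻¹
  have hJa : ∀ a, (Ja a : Matrix (Fin n) (Fin n) F) * D a = D a * J := fun a => by
    show D a * (J : Matrix (Fin n) (Fin n) F) * D a⁻¹ * D a = _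
    rw [mul_assoc, hDi', mul_one]
  have hJa' : ∀ a, ((Ja a : Matrix (Fin n) (Fin n) F) - 1) = D a * ((J : Matrix (Fin n) (Fin n) F) - 1) * D a⁻¹ := fun a => by
    show D a * (J : Matrix (Fin n) (Fin n) F) * D a⁻¹ - 1 = _
    rw [Matrix.mul_sub, Matrix.sub_mul, mul_one, hDi]
  have hiff : ∀ a b : Fˣ, ConjClasses.mk (Ja a) = ConjClasses.mk (Ja b) ↔
      a⁻¹ * b ∈ (powMonoidHom n : Fˣ →* Fˣ).range := by
    intro a b
    rw [ConjClasses.mk_eq_mk_iff_isConj, isConj_iff]
    constructor
    · rintro ⟨s, hs⟩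
      have hsJ : (s : Matrix (Fin n) (Fin n) F) * Ja a = Ja b * s := by
        have h : s * Ja a = Ja b * s := mul_inv_eq_iff_eq_mul.1 hs
        exact congrArg (fun X : Matrix.SpecialLinearGroup (Fin n) F => (X : Matrix (Fin n) (Fin n) F)) h
      set X := D b⁻¹ * (s : Matrix (Fin n) (Fin n) F) * D a with hX
      have hcomm : Commute X (J : Matrix (Fin n) (Fin n) F) := by
        show X * J = J * X
        calc X * J = D b⁻¹ * ((s : Matrix (Fin n) (Fin n) F) * Ja a) * D a := by
              rw [hX, mul_assoc _ (D a), ← hJa]; simp only [mul_assoc]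
          _ = D b⁻¹ * (Ja b * s) * D a := by rw [hsJ]
          _ = D b⁻¹ * (D b * J * D b⁻¹ * s) * D a := rfl
          _ = (D b⁻¹ * D b) * J * X := by rw [hX]; simp only [mul_assoc]
          _ = J * X := by rw [hDi', one_mul]
      obtain ⟨c, hc⟩ := Lib.UnipDet.det_of_commute (J : Matrix (Fin n) (Fin n) F) n hJ1
        (by rw [hJ2, Fintype.card_fin]) hcomm
      rw [hX, Matrix.det_mul, Matrix.det_mul, hD, hD, s.2, mul_one, Fintype.card_fin] at hc
      have hc0 : c ≠ 0 := by
        rintro rfl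
        rw [zero_pow (by omega)] at hc
        exact mul_ne_zero (Units.ne_zero _) (Units.ne_zero _) hc
      refine ⟨(Units.mk0 c hc0)⁻¹, ?_⟩
      show ((Units.mk0 c hc0)⁻¹) ^ n = _
      rw [inv_pow, inv_eq_iff_eq_inv, mul_inv_rev, inv_inv]
      exact Units.ext (by simpa using hc.symm)
    · rintro ⟨c, hc⟩
      have hdet : ((c : F)⁻¹ • (D b * D a⁻¹)).det = 1 := by
        rw [Matrix.det_smul, Matrix.det_mul, hD, hD, Fintype.card_fin]
        have := congrArg Units.val hc
        simp only [powMonoidHom_apply, Units.val_pow_eq_pow_val, Units.val_mul] at this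
        rw [inv_pow, this]
        have ha := Units.ne_zero a
        have hb := Units.ne_zero b
        simp only [Units.val_inv_eq_inv_val]
        field_simp
      refine ⟨⟨_, hdet⟩, mul_inv_eq_iff_eq_mul.2 ?_⟩
      apply Subtype.ext
      show ((c : F)⁻¹ • (D b * D a⁻¹)) * (D a * J * D a⁻¹) = D b * J * D b⁻¹ * ((c : F)⁻¹ • (D b * D a⁻¹))
      rw [Matrix.smul_mul, Matrix.mul_smul]
      congr 1
      calc D b * D a⁻¹ * (D a * J * D a⁻¹) = D b * (D a⁻¹ * D a) * J * D a⁻¹ := by simp only [mul_assoc]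
        _ = D b * J * D a⁻¹ := by rw [hDi', mul_one]
        _ = D b * J * (D b⁻¹ * D b) * D a⁻¹ := by rw [hDi', mul_one]
        _ = _ := by simp only [mul_assoc]
  let P : Fˣ → {C : ConjClasses (Matrix.SpecialLinearGroup (Fin n) F) // ∃ u : Matrix.SpecialLinearGroup (Fin n) F, ConjClasses.mk u = C ∧ ((u : Matrix (Fin n) (Fin n) F) - 1) ^ n = 0 ∧ ((u : Matrix (Fin n) (Fin n) F) - 1).rank = n - 1} :=
    fun a => ⟨ConjClasses.mk (Ja a), Ja a, rfl, by
      rw [hJa']
      let U : (Matrix (Fin n) (Fin n) F)ˣ := ⟨D a, D a⁻¹, hDi a, hDi' a⟩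
      show ((U : Matrix (Fin n) (Fin n) F) * ((J : Matrix (Fin n) (Fin n) F) - 1) * ((U⁻¹ : (Matrix (Fin n) (Fin n) F)ˣ) : Matrix (Fin n) (Fin n) F)) ^ n = 0
      rw [Units.conj_pow, hJ1, mul_zero, zero_mul], by
      rw [hJa', Matrix.rank_mul_eq_left_of_isUnit_det _ _ (by rw [hD]; exact Units.isUnit _),
        Matrix.rank_mul_eq_right_of_isUnit_det _ _ (by rw [hD]; exact Units.isUnit _), hJ2]⟩
  have hsurj : Function.Surjective P := by
    rintro ⟨C, u, rfl, h1, h2⟩
    obtain ⟨g, hg⟩ := Lib.UnipDet.exists_conj (J : Matrix (Fin n) (Fin n) F) (u : Matrix (Fin n) (Fin n) F) n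
      hJ1 (by rw [hJ2, Fintype.card_fin]) h1 (by rw [h2, Fintype.card_fin])
    let a : Fˣ := Matrix.GeneralLinearGroup.det g
    refine ⟨a, Subtype.ext ?_⟩
    show ConjClasses.mk (Ja a) = ConjClasses.mk u
    rw [ConjClasses.mk_eq_mk_iff_isConj, isConj_iff]
    have hdet : ((g : Matrix (Fin n) (Fin n) F) * D a⁻¹).det = 1 := by
      rw [Matrix.det_mul, hD, ← Matrix.GeneralLinearGroup.val_det_apply, ← Units.val_mul,
        mul_inv_cancel, Units.val_one]
    refine ⟨⟨_, hdet⟩, mul_inv_eq_iff_eq_mul.2 ?_⟩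
    apply Subtype.ext
    show (g : Matrix (Fin n) (Fin n) F) * D a⁻¹ * (D a * J * D a⁻¹) = u * ((g : Matrix (Fin n) (Fin n) F) * D a⁻¹)
    rw [← mul_assoc, ← mul_assoc, mul_assoc _ (D a⁻¹), hDi', mul_one, hg, mul_assoc]
  let E : Fˣ ⧸ (powMonoidHom n : Fˣ →* Fˣ).range → _ := fun x =>
    Quotient.liftOn' x P (fun a b h => Subtype.ext ((hiff a b).2 (QuotientGroup.leftRel_apply.1 h)))
  have hbij : Function.Bijective E := by
    constructor
    · intro x y
      induction x using QuotientGroup.induction_on with | _ a =>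
      induction y using QuotientGroup.induction_on with | _ b =>
      intro h
      exact QuotientGroup.eq.2 ((hiff a b).1 (congrArg Subtype.val h))
    · intro C
      obtain ⟨a, rfl⟩ := hsurj C
      exact ⟨(a : Fˣ ⧸ _), rfl⟩
  rw [← Nat.card_eq_of_bijective E hbij]
  have h1 := (powMonoidHom n : Fˣ →* Fˣ).range.card_eq_card_quotient_mul_card_subgroup
  rw [IsCyclic.card_powMonoidHom_range, Nat.card_units, Nat.card_eq_fintype_card (α := F), hF] at h1
  have hq : 1 < q := hF ▸ Fintype.one_lt_card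
  rw [Nat.gcd_comm n (q - 1)]
  obtain ⟨k, hk⟩ := Nat.gcd_dvd_left (q - 1) n
  have hg : 0 < (q - 1).gcd n := Nat.gcd_pos_of_pos_right _ (by omega)
  rw [show (q - 1) / (q - 1).gcd n = k by
    conv_lhs => arg 1; rw [hk]
    exact Nat.mul_div_cancel_left _ hg] at h1
  have hk0 : 0 < k := by rcases Nat.eq_zero_or_pos k with rfl | h
                         · simp at hk; omega
                         · exact h
  rw [hk] at h1
  exact (Nat.eq_of_mul_eq_mul_right hk0 h1).symm

end Cfsg.Agent.S2578
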