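import Cfsg.Statements.S2580

set_option autoImplicit false
open Cfsg

namespace Cfsg.Agent.S2580

open Polynomial

/-- Every cyclic torsion `F[X]`-module carries a non-degenerate invariant functional. -/
theorem exists_functional {F : Type*} [Field F] (g : F[X]) (hg : g ≠ 0) :
    ∃ l : (F[X] ⧸ Ideal.span {g}) →ₗ[F] F, ∀ a : F[X] ⧸ Ideal.span {g}, a ≠ 0 → ∃ b, l (a * b) ≠ 0 := by
  set m : F[X] := g * C g.leadingCoeff⁻¹
  have hm : m.Monic := monic_mul_leadingCoeff_inv hg
  have hspan : Ideal.span {g} = Ideal.span {m} := (Ideal.span_singleton_mul_right_unit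
    (isUnit_C.2 (isUnit_iff_ne_zero.2 (inv_ne_zero (leadingCoeff_ne_zero.2 hg)))) g).symm
  set d := m.natDegree
  let l0 : F[X] →ₗ[F] F := (lcoeff F (d - 1)).comp (modByMonicHom m)
  have hl0 : ((Ideal.span {g}).restrictScalars F : Submodule F F[X]) ≤ LinearMap.ker l0 := by
    intro p hp
    rw [Submodule.restrictScalars_mem, hspan, Ideal.mem_span_singleton] at hp
    show l0 p = 0
    simp [l0, (modByMonic_eq_zero_iff_dvd hm).2 hp]
  let l1 : (F[X] ⧸ Ideal.span {g}) →ₗ[F] F :=
    ((Ideal.span {g}).restrictScalars F).liftQ l0 hl0 ∘ₗ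
      (Submodule.Quotient.restrictScalarsEquiv F (Ideal.span {g})).symm.toLinearMap
  refine ⟨l1, ?_⟩
  intro a ha
  obtain ⟨p, rfl⟩ := Ideal.Quotient.mk_surjective a
  set p' := p %ₘ m
  have hp' : p' ≠ 0 := by
    intro h
    apply ha
    rw [Ideal.Quotient.eq_zero_iff_mem, hspan, Ideal.mem_span_singleton]
    exact (modByMonic_eq_zero_iff_dvd hm).1 h
  have hmne : m ≠ 1 := fun h => hp' (by show p %ₘ m = 0; rw [h, modByMonic_one])
  have hd : p'.natDegree < d := natDegree_modByMonic_lt p hm hmne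
  refine ⟨Ideal.Quotient.mk _ (X ^ (d - 1 - p'.natDegree)), ?_⟩
  rw [← map_mul]
  have e : l1 (Ideal.Quotient.mk (Ideal.span {g}) (p * X ^ (d - 1 - p'.natDegree)))
      = ((p * X ^ (d - 1 - p'.natDegree)) %ₘ m).coeff (d - 1) := by
    simp [l1, l0, ← Ideal.Quotient.mk_eq_mk]
  rw [e]
  have h1 : (p * X ^ (d - 1 - p'.natDegree)) %ₘ m = p' * X ^ (d - 1 - p'.natDegree) := by
    conv_lhs => rw [← modByMonic_add_div p m, add_mul, add_modByMonic,
      (modByMonic_eq_zero_iff_dvd hm).2 (Dvd.intro (p /ₘ m * X ^ (d - 1 - p'.natDegree)) (mul_assoc _ _ _).symm), add_zero]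
    rw [(modByMonic_eq_self_iff hm).2 ?_]
    rw [degree_eq_natDegree (mul_ne_zero hp' (pow_ne_zero _ X_ne_zero)), degree_eq_natDegree hm.ne_zero,
      natDegree_mul hp' (pow_ne_zero _ X_ne_zero), natDegree_X_pow]
    exact_mod_cast (by omega : p'.natDegree + (d - 1 - p'.natDegree) < m.natDegree)
  rw [h1, coeff_mul_X_pow', if_pos (by omega), show d - 1 - (d - 1 - p'.natDegree) = p'.natDegree by omega]
  exact leadingCoeff_ne_zero.2 hp'

/-- An endomorphism is self-adjoint for some non-degenerate bilinear form. -/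
theorem exists_form {F V : Type*} [Field F] [AddCommGroup V] [Module F V] [FiniteDimensional F V]
    (f : Module.End F V) :
    ∃ B : LinearMap.BilinForm F V, (∀ v w, B (f v) w = B v (f w)) ∧ ∀ v, v ≠ 0 → ∃ w, B v w ≠ 0 := by
  classical
  have htor : Module.IsTorsion F[X] (Module.AEval' f) := Module.AEval.isTorsion_of_finiteDimensional F V f
  obtain ⟨ι, hι, p, hp, e, ⟨φ0⟩⟩ := Module.equiv_directSum_of_isTorsion htor
  let φ : Module.AEval' f ≃ₗ[F[X]] Π i, F[X] ⧸ Ideal.span {p i ^ e i} :=
    φ0.trans (DirectSum.linearEquivFunOnFintype F[X] ι _)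
  choose l hl using fun i => exists_functional (p i ^ e i) (pow_ne_zero _ (hp i).ne_zero)
  let ψ : V ≃ₗ[F] Π i, F[X] ⧸ Ideal.span {p i ^ e i} :=
    (Module.AEval'.of f).trans (φ.restrictScalars F)
  have hX : ∀ v i, ψ (f v) i = Ideal.Quotient.mk (Ideal.span {p i ^ e i}) (X : F[X]) * ψ v i := by
    intro v i
    have : ψ (f v) = (X : F[X]) • ψ v := by
      show φ (Module.AEval'.of f (f v)) = (X : F[X]) • φ (Module.AEval'.of f v)
      rw [← map_smul, Module.AEval'.X_smul_of]
    rw [this]; rfl
  refine ⟨LinearMap.mk₂ F (fun v w => ∑ i, l i (ψ v i * ψ w i))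
    (fun a b w => ?_) (fun c a w => ?_) (fun a v w => ?_) (fun c a w => ?_), fun v w => ?_, fun v hv => ?_⟩
  · simp only [map_add, Pi.add_apply, add_mul, Finset.sum_add_distrib]
  · simp only [map_smul, Pi.smul_apply, smul_mul_assoc, Finset.smul_sum]
  · simp only [map_add, Pi.add_apply, mul_add, Finset.sum_add_distrib]
  · simp only [map_smul, Pi.smul_apply, mul_smul_comm, Finset.smul_sum]
  · simp only [LinearMap.mk₂_apply, hX]
    exact Finset.sum_congr rfl fun i _ => by rw [mul_assoc, mul_left_comm]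
  · obtain ⟨i, hi⟩ : ∃ i, ψ v i ≠ 0 := by
      by_contra h
      push Not at h
      exact hv (ψ.injective (by rw [map_zero]; exact funext h))
    obtain ⟨b, hb⟩ := hl i _ hi
    refine ⟨ψ.symm (Pi.single i b), ?_⟩
    rw [LinearMap.mk₂_apply, LinearEquiv.apply_symm_apply, Finset.sum_eq_single i]
    · rwa [Pi.single_eq_same]
    · intro j _ hj; rw [Pi.single_eq_of_ne hj, mul_zero, map_zero]
    · simp

theorem isConj_transpose {F : Type*} [Field F] {ι : Type*} [Fintype ι] [DecidableEq ι] (A : Matrix ι ι F) :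
    IsConj A A.transpose := by
  obtain ⟨B, hB, hnd⟩ := exists_form (Matrix.toLin' A)
  set S := LinearMap.BilinForm.toMatrix' B with hS
  have hval : ∀ v w, B v w = dotProduct v (S.mulVec w) := fun v w => by
    rw [hS, ← Matrix.toBilin'_apply', Matrix.toBilin'_toMatrix']
  have hu : IsUnit S := by
    rw [← Matrix.isUnit_transpose, ← Matrix.mulVec_injective_iff_isUnit]
    intro x y hxy
    rw [← sub_eq_zero]
    by_contra h
    obtain ⟨w, hw⟩ := hnd _ h
    apply hw
    rw [hval, Matrix.dotProduct_mulVec, ← Matrix.mulVec_transpose, Matrix.mulVec_sub]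
    simp [show S.transpose.mulVec x = S.transpose.mulVec y from hxy]
  refine ⟨hu.unit, ?_⟩
  show S * A = A.transpose * S
  apply Matrix.ext
  intro i j
  have := hB (Pi.single i 1) (Pi.single j 1)
  rw [hval, hval, Matrix.toLin'_apply, Matrix.toLin'_apply, Matrix.mulVec_mulVec] at this
  simp only [Matrix.mulVec_single_one, single_dotProduct, one_mul, Matrix.col_apply] at this
  exact this.symm

/-- Over a finite field, a square matrix is similar to its transpose: for every n × n matrix A there is an invertible matrix P with P A P⁻¹ = Aᵀ (stated as conjugacy in the monoid of matrices, whose units are the invertible matrices). -/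
theorem result {F : Type*} [Field F] [Finite F] {n : ℕ} (A : Matrix (Fin n) (Fin n) F) : IsConj A A.transpose := by
  exact isConj_transpose A

end Cfsg.Agent.S2580
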