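import Cfsg.Statements.S2582
import Cfsg.Agent.Lib.Jordan.Symplectic

set_option autoImplicit false
open Cfsg

namespace Cfsg.Agent.S2582

/-- Which unipotent Jordan types occur in the finite symplectic group: over a finite field, a unipotent matrix with Jordan block sizes d_1, …, d_t (sum 2m, all at least 1) is similar to an element of Sp_2m(F) if and only if every odd block size occurs an even number of times. -/
theorem result {F : Type*} [Field F] [Fintype F] {m t : ℕ} (d : Fin t → ℕ) (hd : ∀ k, 1 ≤ d k) (hsum : ∑ k, d k = 2 * m) : (∃ e : ((k : Fin t) × Fin (d k)) ≃ (Fin m ⊕ Fin m), ∃ A : Matrix.symplecticGroup (Fin m) F, IsConj (Matrix.reindex e e (Cfsg.jordanTypeMatrix d F)) (A : Matrix (Fin m ⊕ Fin m) (Fin m ⊕ Fin m) F)) ↔ ∀ j : ℕ, Odd j → Even (Finset.univ.filter (fun k : Fin t => d k = j)).card := by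
  classical
  have hJ := Cfsg.Agent.Lib.Jordan.mtype_jordan (F := F) d hd
  have hcount : ∀ j, (Finset.univ.filter (fun k : Fin t => d k = j)).card = (Finset.univ.val.map d).count j := by
    intro j
    rw [Multiset.count_map]
    simp only [eq_comm (a := j)]
    rfl
  constructor
  · rintro ⟨e, ⟨A, hA⟩, c, hc⟩ j hj
    rw [hcount]
    refine Cfsg.Agent.Lib.Jordan.even_count_odd hA ?_ j hj
    have h1 := hJ.reindex e
    rw [← Cfsg.Agent.Lib.Jordan.reindex_sub_one] at h1
    refine h1.conj c ?_
    rw [Matrix.mul_sub, Matrix.sub_mul, Matrix.mul_one, Matrix.one_mul, sub_left_inj]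
    exact hc.eq
  · intro hev
    obtain ⟨m', A, hA, hAt⟩ := Cfsg.Agent.Lib.Jordan.spReal_of_even_counts (F := F) (Finset.univ.val.map d)
      (fun a ha => by obtain ⟨k, -, rfl⟩ := Multiset.mem_map.mp ha; exact hd k)
      (fun j hj => by rw [← hcount]; exact hev j hj)
    have hm : m' = m := by
      have h1 := hAt.sum_eq
      rw [Fintype.card_sum, Fintype.card_fin, show (Finset.univ.val.map d).sum = ∑ k, d k from rfl, hsum] at h1
      omega
    subst hm
    let e : ((k : Fin t) × Fin (d k)) ≃ (Fin m' ⊕ Fin m') := Fintype.equivOfCardEq (by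
      rw [Fintype.card_sigma, Fintype.card_sum, Fintype.card_fin]
      simp only [Fintype.card_fin]
      omega)
    have h1 := hJ.reindex e
    rw [← Cfsg.Agent.Lib.Jordan.reindex_sub_one] at h1
    obtain ⟨c, hc⟩ := h1.exists_gl hAt
    rw [Matrix.mul_sub, Matrix.sub_mul, Matrix.mul_one, Matrix.one_mul, sub_left_inj] at hc
    exact ⟨e, ⟨A, hA⟩, c, hc⟩

end Cfsg.Agent.S2582
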