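import Cfsg.Statements.S2583
import Cfsg.Agent.Lib.Jordan.Orthogonal

set_option autoImplicit false
open Cfsg

namespace Cfsg.Agent.S2583

/-- Which unipotent Jordan types occur in a finite orthogonal group in odd characteristic: over a finite field of odd order, a unipotent matrix with Jordan block sizes d_1, …, d_t (sum n, all at least 1) is similar to an isometry of some quadratic form on F^n with non-degenerate polar form if and only if every even block size occurs an even number of times. -/
theorem result {F : Type*} [Field F] [Fintype F] (h2 : (2 : F) ≠ 0) {n t : ℕ} (d : Fin t → ℕ) (hd : ∀ k, 1 ≤ d k) (hsum : ∑ k, d k = n) : (∃ Q : QuadraticForm F (Fin n → F), (QuadraticMap.polarBilin Q).Nondegenerate ∧ ∃ e : ((k : Fin t) × Fin (d k)) ≃ Fin n, ∃ A : ↥(Cfsg.isometryGroup F ⇑Q), IsConj (Matrix.reindex e e (Cfsg.jordanTypeMatrix d F)) ((A : Matrix.GeneralLinearGroup (Fin n) F) : Matrix (Fin n) (Fin n) F)) ↔ ∀ j : ℕ, Even j → 0 < j → Even (Finset.univ.filter (fun k : Fin t => d k = j)).card := by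
  classical
  have hJ := Cfsg.Agent.Lib.Jordan.mtype_jordan (F := F) d hd
  have hcount : ∀ j, (Finset.univ.filter (fun k : Fin t => d k = j)).card = (Finset.univ.val.map d).count j := by
    intro j
    rw [Multiset.count_map]
    simp only [eq_comm (a := j)]
    rfl
  constructor
  · rintro ⟨Q, hQ, e, ⟨A, hA⟩, c, hc⟩ j hj hj0
    rw [hcount]
    obtain ⟨G, hG, hsym, -, hpres⟩ := Cfsg.Agent.Lib.Jordan.gram_facts Q hQ
    refine Cfsg.Agent.Lib.Jordan.even_count_even_of_symm h2 hG hsym (hpres _ (fun u => hA u u)) ?_ j hj hj0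
    have h1 := hJ.reindex e
    rw [← Cfsg.Agent.Lib.Jordan.reindex_sub_one] at h1
    refine h1.conj c ?_
    rw [Matrix.mul_sub, Matrix.sub_mul, Matrix.mul_one, Matrix.one_mul, sub_left_inj]
    exact hc.eq
  · intro hev
    obtain ⟨n', G, A, hG, hsym, hA, hAt⟩ := Cfsg.Agent.Lib.Jordan.oReal_of_even_counts (F := F) h2 (Finset.univ.val.map d)
      (fun a ha => by obtain ⟨k, -, rfl⟩ := Multiset.mem_map.mp ha; exact hd k)
      (fun j hj hj0 => by rw [← hcount]; exact hev j hj hj0)
    have hn : n' = n := by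
      have h1 := hAt.sum_eq
      rw [Fintype.card_fin, show (Finset.univ.val.map d).sum = ∑ k, d k from rfl, hsum] at h1
      omega
    subst hn
    let e : ((k : Fin t) × Fin (d k)) ≃ Fin n' := Fintype.equivOfCardEq (by
      rw [Fintype.card_sigma, Fintype.card_fin]
      simp only [Fintype.card_fin]
      exact hsum)
    have h1 := hJ.reindex e
    rw [← Cfsg.Agent.Lib.Jordan.reindex_sub_one] at h1
    obtain ⟨c, hc⟩ := h1.exists_gl hAt
    rw [Matrix.mul_sub, Matrix.sub_mul, Matrix.mul_one, Matrix.one_mul, sub_left_inj] at hc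
    let B : LinearMap.BilinForm F (Fin n' → F) := Matrix.toBilin' ((2 : F)⁻¹ • G)
    have hQv : ∀ x, B.toQuadraticMap x = (2 : F)⁻¹ * (x ⬝ᵥ Matrix.mulVec G x) := fun x => by
      rw [LinearMap.BilinMap.toQuadraticMap_apply, Matrix.toBilin'_apply', Matrix.smul_mulVec, dotProduct_smul]
      rfl
    have hpol : QuadraticMap.polarBilin B.toQuadraticMap = Matrix.toBilin' G := by
      refine LinearMap.ext fun u => LinearMap.ext fun v => ?_
      rw [QuadraticMap.polarBilin_apply_apply, LinearMap.BilinMap.polar_toQuadraticMap, Matrix.toBilin'_apply',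
        Matrix.toBilin'_apply', Matrix.toBilin'_apply', Matrix.smul_mulVec, Matrix.smul_mulVec, dotProduct_smul,
        dotProduct_smul, Matrix.dotProduct_mulVec v, ← Matrix.mulVec_transpose G v, hsym, dotProduct_comm (Matrix.mulVec G v)]
      simp only [smul_eq_mul]
      field_simp
      ring
    let U : GL (Fin n') F := ((Matrix.isUnit_iff_isUnit_det A).mpr (Cfsg.Agent.Lib.Jordan.det_of_form hA hG)).unit
    refine ⟨B.toQuadraticMap, ?_, e, ⟨U, fun u v => ?_⟩, c, hc⟩
    · rw [hpol]
      exact LinearMap.BilinForm.nondegenerate_toBilin'_iff_det_ne_zero.mpr hG.ne_zero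
    · show B.toQuadraticMap (Matrix.mulVec A u) = B.toQuadraticMap u
      rw [hQv, hQv]
      congr 1
      conv_rhs => rw [← hA, ← Matrix.mulVec_mulVec, ← Matrix.mulVec_mulVec, Matrix.dotProduct_mulVec,
        Matrix.vecMul_transpose]

end Cfsg.Agent.S2583
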