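import Cfsg.Statements.S2585

set_option autoImplicit false
open Cfsg

namespace Cfsg.Agent.S2585

/-- Over a finite field of characteristic two every element of the symplectic group is orthogonal for a suitable quadratic form: for each A in Sp_2m(F) there is a quadratic form Q on F^(2m) whose polar form is the alternating form defining Sp_2m(F) (so Q is non-degenerate) and which A preserves. Equivalently, for m ≥ 1, Sp_2m(F) is the union of the conjugates of its two orthogonal subgroups O⁺_2m(F) and O⁻_2m(F). -/
theorem result {F : Type*} [Field F] [Fintype F] [CharP F 2] {m : ℕ} (A : Matrix.symplecticGroup (Fin m) F) : ∃ Q : QuadraticForm F (Fin m ⊕ Fin m → F), (∀ u v : Fin m ⊕ Fin m → F, QuadraticMap.polar ⇑Q u v = Cfsg.sympForm m F u v) ∧ ∀ v : Fin m ⊕ Fin m → F, Q ((A : Matrix (Fin m ⊕ Fin m) (Fin m ⊕ Fin m) F).mulVec v) = Q v := by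
  classical
  set M : Matrix (Fin m ⊕ Fin m) (Fin m ⊕ Fin m) F := (A : Matrix (Fin m ⊕ Fin m) (Fin m ⊕ Fin m) F) with hM
  let B0 : LinearMap.BilinForm F (Fin m ⊕ Fin m → F) := Matrix.toBilin' (Matrix.fromBlocks 0 0 1 0)
  let Q0 : QuadraticForm F (Fin m ⊕ Fin m → F) := B0.toQuadraticMap
  have h2 : (2 : F) = 0 := CharTwo.two_eq_zero
  have hneg : ∀ x : F, -x = x := CharTwo.neg_eq
  have hpol : ∀ u v, QuadraticMap.polar Q0 u v = Cfsg.sympForm m F u v := by
    intro u v
    simp only [Q0, B0, LinearMap.BilinMap.polar_toQuadraticMap, Matrix.toBilin'_apply',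
      Cfsg.sympForm, Matrix.J, dotProduct, Matrix.mulVec, Matrix.fromBlocks_apply₁₁,
      Fintype.sum_sum_type, Matrix.fromBlocks_apply₁₂, Matrix.fromBlocks_apply₂₁,
      Matrix.fromBlocks_apply₂₂, Matrix.zero_apply, Matrix.one_apply, Matrix.neg_apply]
    simp only [zero_mul, mul_zero, Finset.sum_const_zero, ite_mul, one_mul, Finset.sum_ite_eq,
      Finset.mem_univ, if_true, add_zero, zero_add, neg_mul, Finset.sum_neg_distrib, mul_neg, hneg]
    rw [add_comm]
    congr 1
    exact Finset.sum_congr rfl fun i _ => mul_comm _ _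
  have hS : ∀ v w, Cfsg.sympForm m F (M.mulVec v) (M.mulVec w) = Cfsg.sympForm m F v w := by
    intro v w
    simp only [Cfsg.sympForm, Matrix.mulVec_mulVec]
    rw [← Matrix.vecMul_transpose M v, ← Matrix.dotProduct_mulVec, Matrix.mulVec_mulVec,
      ← Matrix.mul_assoc, SymplecticGroup.mem_iff'.1 A.2]
  have hQadd : ∀ u v, Q0 (u + v) = Q0 u + Q0 v + Cfsg.sympForm m F u v := by
    intro u v; rw [← hpol]; simp only [QuadraticMap.polar]; ring
  have hcard : ∀ x : F, ∃ y : F, y * y = x := by
    intro x
    obtain ⟨y, hy⟩ := FiniteField.isSquare_of_char_two (ringChar.eq F 2) x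
    exact ⟨y, hy.symm⟩
  choose sr hsr using hcard
  have sq_inj : ∀ a b : F, a * a = b * b → a = b := by
    intro a b h
    have h3 : (a + b) * (a + b) = 0 := by linear_combination h + (a * b + b * b) * h2
    have := mul_self_eq_zero.1 h3
    linear_combination this - b * h2
  let D : (Fin m ⊕ Fin m → F) → F := fun v => Q0 (M.mulVec v) + Q0 v
  let l : (Fin m ⊕ Fin m → F) →ₗ[F] F :=
    { toFun := fun v => sr (D v)
      map_add' := by
        intro u v
        apply sq_inj
        have e : D (u + v) = D u + D v := by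
          simp only [D, Matrix.mulVec_add, hQadd, hS]
          linear_combination (Cfsg.sympForm m F u v) * h2
        linear_combination hsr (D (u + v)) + e - hsr (D u) - hsr (D v) - (sr (D u) * sr (D v)) * h2
      map_smul' := by
        intro c v
        apply sq_inj
        have e : D (c • v) = c * c * D v := by
          simp only [D, Matrix.mulVec_smul, QuadraticMap.map_smul, smul_eq_mul]; ring
        simp only [smul_eq_mul, RingHom.id_apply]
        linear_combination hsr (D (c • v)) + e - c * c * hsr (D v) }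
  let T : (Fin m ⊕ Fin m → F) →ₗ[F] (Fin m ⊕ Fin m → F) := Matrix.mulVecLin M - LinearMap.id
  have hker : LinearMap.ker T ≤ LinearMap.ker l := by
    intro v hv
    have hv' : M.mulVec v = v := by
      simpa [T, LinearMap.mem_ker, sub_eq_zero] using hv
    have : D v = 0 := by simp only [D, hv']; exact CharTwo.add_self_eq_zero _
    exact mul_self_eq_zero.1 ((hsr (D v)).trans this)
  obtain ⟨l', hl'⟩ : ∃ l' : (Fin m ⊕ Fin m → F) →ₗ[F] F, l'.comp T = l := by
    obtain ⟨g, hg⟩ := LinearMap.exists_extend
      (((LinearMap.ker T).liftQ l hker).comp T.quotKerEquivRange.symm.toLinearMap)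
    refine ⟨g, LinearMap.ext fun v => ?_⟩
    have h := LinearMap.congr_fun hg ⟨T v, ⟨v, rfl⟩⟩
    have e : T.quotKerEquivRange.symm ⟨T v, ⟨v, rfl⟩⟩ = Submodule.Quotient.mk v :=
      T.quotKerEquivRange.symm_apply_eq.2 (Subtype.ext rfl)
    simp only [LinearMap.comp_apply, LinearEquiv.coe_coe, Submodule.subtype_apply, e,
      Submodule.liftQ_apply] at h ⊢
    exact h
  refine ⟨Q0 + QuadraticMap.linMulLin l' l', fun u v => ?_, fun v => ?_⟩
  · have := hpol u v
    simp only [QuadraticMap.polar, QuadraticMap.add_apply, QuadraticMap.linMulLin_apply,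
      map_add] at this ⊢
    linear_combination this + l' u * l' v * h2
  · have hd : l' (M.mulVec v) = l' v + sr (D v) := by
      have := LinearMap.congr_fun hl' v
      simp only [T, LinearMap.comp_apply, LinearMap.sub_apply, Matrix.mulVecLin_apply,
        LinearMap.id_apply, map_sub] at this
      linear_combination this
    simp only [QuadraticMap.add_apply, QuadraticMap.linMulLin_apply, hd]
    have := hsr (D v)
    simp only [D] at this
    linear_combination this + (l' v * sr (Q0 (M.mulVec v) + Q0 v) + Q0 (M.mulVec v)) * h2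

end Cfsg.Agent.S2585
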