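import Cfsg.Statements.S2584
import Cfsg.Agent.Lib.Jordan.Orthogonal
import Cfsg.Agent.S2585

set_option autoImplicit false
open Cfsg

namespace Cfsg.Agent.S2584

/-- Which unipotent Jordan types occur in a finite orthogonal group in characteristic two: over a finite field of characteristic 2 and in even dimension 2m, a unipotent matrix with Jordan block sizes d_1, …, d_t (sum 2m, all at least 1) is similar to an isometry of some quadratic form on F^(2m) with non-degenerate polar form if and only if every odd block size occurs an even number of times (the same condition as for the symplectic group, which contains these orthogonal groups). -/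
theorem result {F : Type*} [Field F] [Fintype F] [CharP F 2] {m t : ℕ} (d : Fin t → ℕ) (hd : ∀ k, 1 ≤ d k) (hsum : ∑ k, d k = 2 * m) : (∃ Q : QuadraticForm F (Fin (2 * m) → F), (QuadraticMap.polarBilin Q).Nondegenerate ∧ ∃ e : ((k : Fin t) × Fin (d k)) ≃ Fin (2 * m), ∃ A : ↥(Cfsg.isometryGroup F ⇑Q), IsConj (Matrix.reindex e e (Cfsg.jordanTypeMatrix d F)) ((A : Matrix.GeneralLinearGroup (Fin (2 * m)) F) : Matrix (Fin (2 * m)) (Fin (2 * m)) F)) ↔ ∀ j : ℕ, Odd j → Even (Finset.univ.filter (fun k : Fin t => d k = j)).card := by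
  classical
  have hJ := Cfsg.Agent.Lib.Jordan.mtype_jordan (F := F) d hd
  have hcount : ∀ j, (Finset.univ.filter (fun k : Fin t => d k = j)).card = (Finset.univ.val.map d).count j := by
    intro j
    rw [Multiset.count_map]
    simp only [eq_comm (a := j)]
    rfl
  have h2 : (2 : F) = 0 := CharTwo.two_eq_zero
  constructor
  · rintro ⟨Q, hQ, e, ⟨A, hA⟩, c, hc⟩ j hj
    rw [hcount]
    obtain ⟨G, hG, hsym, hdiag, hpres⟩ := Cfsg.Agent.Lib.Jordan.gram_facts Q hQ
    refine Cfsg.Agent.Lib.Jordan.even_count_odd_of_alt hG (fun x => by rw [hdiag, h2, zero_mul])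
      (hpres _ (fun u => hA u u)) ?_ j hj
    have h1 := hJ.reindex e
    rw [← Cfsg.Agent.Lib.Jordan.reindex_sub_one] at h1
    refine h1.conj c ?_
    rw [Matrix.mul_sub, Matrix.sub_mul, Matrix.mul_one, Matrix.one_mul, sub_left_inj]
    exact hc.eq
  · intro hev
    obtain ⟨m', A, hA, hAt⟩ := Cfsg.Agent.Lib.Jordan.spReal_of_even_counts (F := F) (Finset.univ.val.map d)
      (fun a ha => by obtain ⟨k, -, rfl⟩ := Multiset.mem_map.mp ha; exact hd k)
      (fun j hj => by rw [← hcount]; exact hev j hj)
    have hm : m' = m := by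
      have h1 := hAt.sum_eq
      rw [Fintype.card_sum, Fintype.card_fin, show (Finset.univ.val.map d).sum = ∑ k, d k from rfl, hsum] at h1
      omega
    subst hm
    obtain ⟨Q, hQpol, hQA⟩ := Cfsg.Agent.S2585.result (⟨A, hA⟩ : Matrix.symplecticGroup (Fin m') F)
    let s : Fin m' ⊕ Fin m' ≃ Fin (2 * m') := finSumFinEquiv.trans (finCongr (two_mul m').symm)
    let φ : (Fin (2 * m') → F) ≃ₗ[F] (Fin m' ⊕ Fin m' → F) := LinearEquiv.funCongrLeft F F s
    let A' : Matrix (Fin (2 * m')) (Fin (2 * m')) F := Matrix.reindex s s A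
    have hφ : ∀ x, φ (Matrix.mulVec A' x) = Matrix.mulVec A (φ x) := by
      intro x
      funext i
      show Matrix.mulVec A' x (s i) = _
      simp only [A', Matrix.mulVec, dotProduct, Matrix.reindex_apply, Matrix.submatrix_apply, Equiv.symm_apply_apply]
      rw [← s.sum_comp]
      simp only [Equiv.symm_apply_apply]
      rfl
    have hdet : IsUnit A'.det := by
      rw [Matrix.det_reindex_self]; exact SymplecticGroup.symplectic_det hA
    let U : GL (Fin (2 * m')) F := ((Matrix.isUnit_iff_isUnit_det A').mpr hdet).unit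
    let e : ((k : Fin t) × Fin (d k)) ≃ Fin (2 * m') := Fintype.equivOfCardEq (by
      rw [Fintype.card_sigma, Fintype.card_fin]
      simp only [Fintype.card_fin]
      omega)
    have h1 := hJ.reindex e
    rw [← Cfsg.Agent.Lib.Jordan.reindex_sub_one] at h1
    have h3 : Cfsg.Agent.Lib.Jordan.MType (A' - 1) (Finset.univ.val.map d) := by
      show Cfsg.Agent.Lib.Jordan.MType (Matrix.reindex s s A - 1) _
      rw [Cfsg.Agent.Lib.Jordan.reindex_sub_one]
      exact hAt.reindex s
    obtain ⟨c, hc⟩ := h1.exists_gl h3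
    rw [Matrix.mul_sub, Matrix.sub_mul, Matrix.mul_one, Matrix.one_mul, sub_left_inj] at hc
    refine ⟨Q.comp φ.toLinearMap, ?_, e, ⟨U, fun u v => ?_⟩, c, hc⟩
    · have hpb : ∀ u v, QuadraticMap.polarBilin (Q.comp φ.toLinearMap) u v = Cfsg.sympForm m' F (φ u) (φ v) := by
        intro u v
        rw [QuadraticMap.polarBilin_apply_apply, ← hQpol]
        simp [QuadraticMap.polar, QuadraticMap.comp_apply, map_add]
      have hnd : ∀ w, (∀ z, Cfsg.sympForm m' F w z = 0) → w = 0 := fun w hw => by
        have : Matrix.vecMul w (Matrix.J (Fin m') F) = 0 := funext fun i => by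
          have := hw (Pi.single i 1)
          rwa [Cfsg.sympForm, Matrix.dotProduct_mulVec, dotProduct_single, mul_one] at this
        exact Matrix.vecMul_injective_iff_isUnit.mpr
          ((Matrix.isUnit_iff_isUnit_det _).mpr (Matrix.isUnit_det_J _ _)) (this.trans (Matrix.zero_vecMul _).symm)
      constructor
      · intro u hu
        refine φ.injective ((hnd (φ u) fun z => ?_).trans (map_zero φ).symm)
        rw [← φ.apply_symm_apply z, ← hpb]; exact hu _
      · intro v hv
        refine φ.injective ((hnd (φ v) fun z => ?_).trans (map_zero φ).symm)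
        rw [← φ.apply_symm_apply z, ← hpb, QuadraticMap.polarBilin_apply_apply, QuadraticMap.polar_comm]
        exact hv _
    · show Q (φ (Matrix.mulVec A' u)) = Q (φ u)
      rw [hφ]
      exact hQA _

end Cfsg.Agent.S2584
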