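import Cfsg.Statements.S2587
import Cfsg.Agent.Lib.UnitaryConj

set_option autoImplicit false
open Cfsg

namespace Cfsg.Agent.S2587

/-- Conjugacy in the finite general unitary group is controlled by the general linear group: two elements of GU_n(q) (the invertible matrices over the field with q² elements preserving the Hermitian form Σ u_i v_i^q) are conjugate in GU_n(q) if and only if they are conjugate in GL_n(q²). -/
theorem result {K : Type*} [Field K] [Fintype K] {q n : ℕ} (hK : Fintype.card K = q ^ 2) (A B : ↥(Cfsg.GU n K q)) : IsConj A B ↔ IsConj (A : GL (Fin n) K) (B : GL (Fin n) K) := by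
  classical
  constructor
  · intro h; exact (Subgroup.subtype _).map_isConj h
  intro h
  obtain ⟨g, hg⟩ := isConj_iff.1 h
  have hA := (Lib.UnitaryConj.mem_GU_iff hK _).1 A.2
  have hB := (Lib.UnitaryConj.mem_GU_iff hK _).1 B.2
  set a : Matrix (Fin n) (Fin n) K := ((A : GL (Fin n) K) : Matrix (Fin n) (Fin n) K)
  set b : Matrix (Fin n) (Fin n) K := ((B : GL (Fin n) K) : Matrix (Fin n) (Fin n) K)
  set gm : Matrix (Fin n) (Fin n) K := (g : Matrix (Fin n) (Fin n) K)
  have hbg : b * gm = gm * a := by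
    have : (B : GL (Fin n) K) * g = g * A := by rw [← hg, inv_mul_cancel_right]
    exact congrArg Units.val this
  have hts := Lib.UnitaryConj.tstar_mul (n := n) hK
  set H : Matrix (Fin n) (Fin n) K := Lib.UnitaryConj.tstar hK gm * gm
  have hu : IsUnit H := by
    refine IsUnit.mul ?_ g.isUnit
    refine IsUnit.of_mul_eq_one (b := Lib.UnitaryConj.tstar hK ((g⁻¹ : GL (Fin n) K) : Matrix (Fin n) (Fin n) K)) ?_
    rw [← hts]
    show Lib.UnitaryConj.tstar hK (((g⁻¹ * g : GL (Fin n) K)) : Matrix (Fin n) (Fin n) K) = 1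
    rw [inv_mul_cancel]; exact Lib.UnitaryConj.tstar_one hK
  have hcomm : Commute a H := by
    have e1 : Lib.UnitaryConj.tstar hK a * H * a = H := by
      show Lib.UnitaryConj.tstar hK a * (Lib.UnitaryConj.tstar hK gm * gm) * a = _
      rw [← mul_assoc, ← hts, mul_assoc, ← hbg, hts, mul_assoc, ← mul_assoc _ b gm, hB, one_mul]
    calc a * H = a * (Lib.UnitaryConj.tstar hK a * H * a) := by rw [e1]
      _ = (a * Lib.UnitaryConj.tstar hK a) * H * a := by simp only [mul_assoc]
      _ = H * a := by rw [mul_eq_one_comm.1 hA, one_mul]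
  obtain ⟨c, hc, hca⟩ := Lib.UnitaryConj.exists_sqrt hK hu.unit (by
    show Lib.UnitaryConj.tstar hK H = H
    rw [hts, Lib.UnitaryConj.tstar_tstar])
  have hc' : Lib.UnitaryConj.tstar hK (c : Matrix (Fin n) (Fin n) K) * (c : Matrix (Fin n) (Fin n) K) = H := hc
  have hcA : Commute (A : GL (Fin n) K) c := Units.ext (hca a hcomm).eq
  have hmem : g * c⁻¹ ∈ Cfsg.GU n K q := by
    rw [Lib.UnitaryConj.mem_GU_iff hK, Units.val_mul, hts]
    set d := ((c⁻¹ : GL (Fin n) K) : Matrix (Fin n) (Fin n) K)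
    calc Lib.UnitaryConj.tstar hK d * Lib.UnitaryConj.tstar hK gm * (gm * d)
        = Lib.UnitaryConj.tstar hK d * H * d := by simp only [H, mul_assoc]
      _ = Lib.UnitaryConj.tstar hK (((c : Matrix (Fin n) (Fin n) K)) * d) * (((c : Matrix (Fin n) (Fin n) K)) * d) := by
          rw [← hc', hts]; simp only [mul_assoc]
      _ = 1 := by
          rw [show (c : Matrix (Fin n) (Fin n) K) * d = 1 from c.mul_inv, Lib.UnitaryConj.tstar_one, one_mul]
  refine isConj_iff.2 ⟨⟨g * c⁻¹, hmem⟩, Subtype.ext ?_⟩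
  show g * c⁻¹ * (A : GL (Fin n) K) * (g * c⁻¹)⁻¹ = B
  rw [← hg, mul_inv_rev, inv_inv, mul_assoc g c⁻¹, ← (hcA.inv_right).eq]
  group

end Cfsg.Agent.S2587
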