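import Cfsg.Statements.S2588
import Cfsg.Agent.Lib.UnitaryConj

set_option autoImplicit false
open Cfsg

namespace Cfsg.Agent.S2588

/-- An invertible matrix A over the field with q² elements is conjugate in GL_n(q²) to an element of the general unitary group GU_n(q) (isometries of the Hermitian form Σ u_i v_i^q) if and only if A is similar to the inverse transpose of its entrywise q-th power (A ~ A^(−qT), the image of A under the map sending a matrix to the inverse transpose of its entrywise q-th power — inverse transpose composed with the field automorphism — whose fixed points form GU_n(q)). -/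
theorem result {K : Type*} [Field K] [Fintype K] {q n : ℕ} (hK : Fintype.card K = q ^ 2) (A : GL (Fin n) K) : (∃ B : ↥(Cfsg.GU n K q), IsConj A (B : GL (Fin n) K)) ↔ IsConj (A : Matrix (Fin n) (Fin n) K) (((A : Matrix (Fin n) (Fin n) K).map (fun x : K => x ^ q)).transpose)⁻¹ := by
  classical
  have hts := Lib.UnitaryConj.tstar_mul (n := n) hK
  have htt := Lib.UnitaryConj.tstar_tstar (n := n) hK
  set ts := Lib.UnitaryConj.tstar (n := n) hK with hts_def
  have hmap : ((A : Matrix (Fin n) (Fin n) K).map (fun x : K => x ^ q)).transpose = ts A := rfl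
  rw [hmap]
  set a : Matrix (Fin n) (Fin n) K := (A : Matrix (Fin n) (Fin n) K) with ha
  have tsu : ∀ g : GL (Fin n) K, ts ((g⁻¹ : GL (Fin n) K) : Matrix (Fin n) (Fin n) K) * ts g = 1 := by
    intro g
    rw [← hts, ← Units.val_mul, mul_inv_cancel]; exact Lib.UnitaryConj.tstar_one hK
  constructor
  · rintro ⟨B, hAB⟩
    obtain ⟨g, hg⟩ := isConj_iff.1 hAB
    have hB := (Lib.UnitaryConj.mem_GU_iff hK _).1 B.2
    set H : Matrix (Fin n) (Fin n) K := ts g * g
    have hbg : ((B : GL (Fin n) K) : Matrix (Fin n) (Fin n) K) * g = (g : Matrix (Fin n) (Fin n) K) * a := by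
      have : (B : GL (Fin n) K) * g = g * A := by rw [← hg, inv_mul_cancel_right]
      exact congrArg Units.val this
    have hu : IsUnit H := (IsUnit.of_mul_eq_one _ (mul_eq_one_comm.1 (tsu g))).mul g.isUnit
    have e1 : ts a * H * a = H := by
      show ts a * (ts g * g) * a = _
      rw [← mul_assoc, ← hts, mul_assoc, ← hbg, hts, mul_assoc, ← mul_assoc _ _ (g : Matrix (Fin n) (Fin n) K), hB, one_mul]
    refine ⟨hu.unit, ?_⟩
    show H * a = (ts a)⁻¹ * H
    have hd : IsUnit (ts a).det := Matrix.isUnit_det_of_left_inverse (tsu A)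
    calc H * a = (ts a)⁻¹ * (ts a * (H * a)) := by rw [← mul_assoc, Matrix.nonsing_inv_mul _ hd, one_mul]
      _ = (ts a)⁻¹ * H := by rw [← mul_assoc (ts a), e1]
  · rintro ⟨P, hP⟩
    have hd : IsUnit (ts a).det := Matrix.isUnit_det_of_left_inverse (tsu A)
    set h : Matrix (Fin n) (Fin n) K := (P : Matrix (Fin n) (Fin n) K) with hh
    have hP' : h * a = (ts a)⁻¹ * h := hP
    have e1 : ts a * h * a = h := by
      rw [mul_assoc, hP', ← mul_assoc, Matrix.mul_nonsing_inv _ hd, one_mul]
    have e2 : ts a * ts h * a = ts h := by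
      conv_rhs => rw [← e1, hts, hts, htt, ← mul_assoc]
    set h' : Matrix (Fin n) (Fin n) K := ((P⁻¹ : GL (Fin n) K) : Matrix (Fin n) (Fin n) K)
    have hh1 : h * h' = 1 := P.mul_inv
    have hh2 : h' * h = 1 := P.inv_mul
    have hth : ts h * ts h' = 1 := by rw [← hts, hh2]; exact Lib.UnitaryConj.tstar_one hK
    have hth2 : ts h' * ts h = 1 := mul_eq_one_comm.1 hth
    set r := h' * ts h with hr
    let j : Matrix (Fin n) (Fin n) K → Matrix (Fin n) (Fin n) K := fun x => h' * ts x * h
    let S := Algebra.adjoin K {r}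
    have hjr : j r * r = 1 := by
      show h' * ts (h' * ts h) * h * (h' * ts h) = 1
      rw [hts, htt, mul_assoc _ h, ← mul_assoc h h', hh1, one_mul, mul_assoc, mul_assoc, hth2, mul_one, hh2]
    have hrj : r * j r = 1 := mul_eq_one_comm.1 hjr
    have hcomm : ∀ x ∈ S, ∀ y ∈ S, x * y = y * x := fun x hx y hy =>
      (Lib.UnitaryConj.commute_of_mem_adjoin (Lib.UnitaryConj.commute_of_mem_adjoin (Commute.refl _) hx).symm hy).eq
    -- the inverse of a unit of a finite subalgebra lies in it
    have hrinv : j r ∈ S := by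
      haveI : Finite S := Subtype.finite
      have hinj : Function.Injective (fun x : S => (⟨r, Algebra.subset_adjoin rfl⟩ : S) * x) := by
        intro x y e
        refine Subtype.ext ((IsUnit.of_mul_eq_one _ hrj).mul_left_cancel (congrArg Subtype.val e))
      obtain ⟨y, hy⟩ := Finite.surjective_of_injective hinj 1
      have : r * (y : Matrix (Fin n) (Fin n) K) = 1 := congrArg Subtype.val hy
      rw [left_inv_eq_right_inv hjr this]
      exact y.2
    have hjmul : ∀ x y, j (x * y) = j y * j x := by
      intro x y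
      show h' * ts (x * y) * h = h' * ts y * h * (h' * ts x * h)
      rw [hts]
      simp only [mul_assoc]
      rw [← mul_assoc h h', hh1, one_mul]
    have hjadd : ∀ x y, j (x + y) = j x + j y := by
      intro x y
      show h' * ts (x + y) * h = h' * ts x * h + h' * ts y * h
      rw [hts_def, Lib.UnitaryConj.tstar_add, mul_add, add_mul]
    have hjs : ∀ (c : K) x, j (c • x) = Lib.UnitaryConj.qHom hK c • j x := by
      intro c x
      show h' * ts (c • x) * h = _
      rw [hts_def, Lib.UnitaryConj.tstar_smul, Matrix.mul_smul, Matrix.smul_mul]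
    have hj1 : j 1 = 1 := by
      show h' * ts 1 * h = 1
      rw [hts_def, Lib.UnitaryConj.tstar_one, mul_one, hh2]
    have hjS : ∀ x ∈ S, j x ∈ S := by
      intro x hx
      induction hx using Algebra.adjoin_induction with
      | mem x hx => rw [Set.mem_singleton_iff.1 hx]; exact hrinv
      | algebraMap c => rw [Algebra.algebraMap_eq_smul_one, hjs, hj1]; exact S.smul_mem S.one_mem _
      | add x y _ _ hx hy => rw [hjadd]; exact S.add_mem hx hy
      | mul x y _ _ hx hy => rw [hjmul]; exact S.mul_mem hy hx
    have hjj : ∀ x ∈ S, j (j x) = x := by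
      intro x hx
      show h' * ts (h' * ts x * h) * h = x
      have hc := (Lib.UnitaryConj.commute_of_mem_adjoin (Commute.refl r) hx).eq
      rw [hts, hts, htt]
      calc h' * (ts h * (x * ts h')) * h = (h' * ts h * x) * (ts h' * h) := by simp only [mul_assoc]
        _ = x * ((h' * ts h) * (ts h' * h)) := by rw [← hr, hc]; simp only [mul_assoc]
        _ = x := by
          rw [show h' * ts h * (ts h' * h) = h' * (ts h * ts h') * h by simp only [mul_assoc], hth, mul_one, hh2, mul_one]
    obtain ⟨x, hxS, hxu, hx⟩ := (Lib.UnitaryConj.subalgebra_facts hK S hcomm j hjmul hjadd hjs hj1 hjj hjS).2 r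
      (Algebra.subset_adjoin rfl) hrj
    have hjxr : j x * r = r * j x := hcomm _ (hjS x hxS) _ (Algebra.subset_adjoin rfl)
    have hsym : ts (h * x) = h * x := by
      rw [hts]
      calc ts x * ts h = (h * h') * ts x * (h * h') * ts h := by rw [hh1, one_mul, mul_one]
        _ = h * (j x * r) := by simp only [j, hr, mul_assoc]
        _ = h * x := by rw [hjxr, ← hx]
    have hru : Commute a r := by
      show a * (h' * ts h) = h' * ts h * a
      calc a * (h' * ts h) = h' * (h * a) * (h' * ts h) := by rw [show h' * (h * a) = a by rw [← mul_assoc, hh2, one_mul]]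
        _ = h' * (ts a)⁻¹ * (h * h') * ts h := by rw [hP']; simp only [mul_assoc]
        _ = h' * (ts a)⁻¹ * (ts a * ts h * a) := by rw [hh1, mul_one, e2]
        _ = h' * ts h * a := by
          rw [mul_assoc h', ← mul_assoc (ts a)⁻¹, ← mul_assoc (ts a)⁻¹, Matrix.nonsing_inv_mul _ hd, one_mul]
          simp only [mul_assoc]
    have hxa : Commute a x := Lib.UnitaryConj.commute_of_mem_adjoin hru hxS
    have hu : IsUnit (h * x) := P.isUnit.mul hxu
    obtain ⟨c, hc, -⟩ := Lib.UnitaryConj.exists_sqrt hK hu.unit hsym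
    have hc' : ts (c : Matrix (Fin n) (Fin n) K) * (c : Matrix (Fin n) (Fin n) K) = h * x := hc
    set d : Matrix (Fin n) (Fin n) K := ((c⁻¹ : GL (Fin n) K) : Matrix (Fin n) (Fin n) K)
    have hcd : (c : Matrix (Fin n) (Fin n) K) * d = 1 := c.mul_inv
    have hB : c * A * c⁻¹ ∈ Cfsg.GU n K q := by
      rw [Lib.UnitaryConj.mem_GU_iff hK, Units.val_mul, Units.val_mul]
      show ts ((c : Matrix (Fin n) (Fin n) K) * a * d) * ((c : Matrix (Fin n) (Fin n) K) * a * d) = 1
      have e3 : ts a * (h * x) * a = h * x := by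
        calc ts a * (h * x) * a = ts a * h * (x * a) := by simp only [mul_assoc]
          _ = ts a * h * (a * x) := by rw [hxa.eq]
          _ = ts a * h * a * x := by simp only [mul_assoc]
          _ = h * x := by rw [e1]
      calc ts ((c : Matrix (Fin n) (Fin n) K) * a * d) * ((c : Matrix (Fin n) (Fin n) K) * a * d)
          = ts d * (ts a * (ts (c : Matrix (Fin n) (Fin n) K) * c) * a) * d := by rw [hts, hts]; simp only [mul_assoc]
        _ = ts d * (ts (c : Matrix (Fin n) (Fin n) K) * c) * d := by rw [hc', e3]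
        _ = ts ((c : Matrix (Fin n) (Fin n) K) * d) * ((c : Matrix (Fin n) (Fin n) K) * d) := by rw [hts]; simp only [mul_assoc]
        _ = 1 := by rw [hcd, hts_def, Lib.UnitaryConj.tstar_one, one_mul]
    exact ⟨⟨_, hB⟩, isConj_iff.2 ⟨c, rfl⟩⟩

end Cfsg.Agent.S2588
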