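import Cfsg.Statements.S2591
import Cfsg.Agent.Lib.SympUnipotent
import Cfsg.Agent.Lib.FormDet

set_option autoImplicit false
open Cfsg

namespace Cfsg.Agent.S2591

open Lib.SympUnipotent

theorem two_ne_zero_of_odd {F : Type*} [Field F] [Fintype F] {q : ℕ} (hF : Fintype.card F = q) (hq : Odd q) :
    (2 : F) ≠ 0 := by
  apply Ring.two_ne_zero
  intro h
  have := FiniteField.even_card_iff_char_two.1 h
  rw [hF] at this
  exact absurd this (by rw [Nat.odd_iff.1 hq]; decide)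


/-- Over a finite field of odd order and for m ≥ 1, the regular unipotent elements of Sp_2m(F) (u − 1 nilpotent of rank 2m − 1, a single Jordan block) form exactly two conjugacy classes of Sp_2m(F) (one class under the similarity group, which splits in two). -/
theorem result {F : Type*} [Field F] [Fintype F] {q : ℕ} (hF : Fintype.card F = q) (hq : Odd q) {m : ℕ} (hm : 1 ≤ m) : Nat.card {C : ConjClasses ↥(Matrix.symplecticGroup (Fin m) F) // ∃ u : Matrix.symplecticGroup (Fin m) F, ConjClasses.mk u = C ∧ ((u : Matrix (Fin m ⊕ Fin m) (Fin m ⊕ Fin m) F) - 1) ^ (2 * m) = 0 ∧ ((u : Matrix (Fin m ⊕ Fin m) (Fin m ⊕ Fin m) F) - 1).rank = 2 * m - 1} = 2 := by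
  classical
  haveI : Nonempty (Fin m ⊕ Fin m) := ⟨Sum.inl ⟨0, hm⟩⟩
  have h2 : (2 : F) ≠ 0 := two_ne_zero_of_odd hF hq
  obtain ⟨u₀, hu₀, hn1, hn2⟩ := exists_regular h2 hm
  have hn2' : ((u₀ : Matrix (Fin m ⊕ Fin m) (Fin m ⊕ Fin m) F) - 1).rank = Fintype.card (Fin m ⊕ Fin m) - 1 := by
    rw [card_idx, hn2]
  obtain ⟨δ, hδ⟩ : ∃ δ : F, ¬ IsSquare δ := by
    have h : ringChar F ≠ 2 := by
      intro h
      have h' : ((2 : ℕ) : F) = 0 := h ▸ ringChar.Nat.cast_ringChar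
      exact h2 (by exact_mod_cast h')
    exact FiniteField.exists_nonsquare h
  have hδ0 : δ ≠ 0 := by rintro rfl; exact hδ IsSquare.zero
  let gd : F → Matrix (Fin m ⊕ Fin m) (Fin m ⊕ Fin m) F := fun c => Matrix.fromBlocks (c • 1) 0 0 1
  have hgd : ∀ a b, gd a * gd b = gd (a * b) := fun a b => by
    show Matrix.fromBlocks _ _ _ _ * Matrix.fromBlocks _ _ _ _ = _
    simp [gd, Matrix.fromBlocks_multiply, smul_smul, mul_comm]
  have hgd1 : gd 1 = 1 := by simp [gd]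
  let g₁ : GL (Fin m ⊕ Fin m) F := ⟨gd δ, gd δ⁻¹, by rw [hgd, mul_inv_cancel₀ hδ0, hgd1],
    by rw [hgd, inv_mul_cancel₀ hδ0, hgd1]⟩
  have hg₁ : dg (g₁ : Matrix (Fin m ⊕ Fin m) (Fin m ⊕ Fin m) F) * g₁ = δ • 1 := by
    show dg (gd δ) * gd δ = _
    rw [← Matrix.fromBlocks_one, Matrix.fromBlocks_smul, dg]
    simp [gd, Matrix.J, Matrix.fromBlocks_transpose, Matrix.fromBlocks_multiply, Matrix.fromBlocks_neg]
  have hg₁' : dg ((g₁⁻¹ : GL (Fin m ⊕ Fin m) F) : Matrix (Fin m ⊕ Fin m) (Fin m ⊕ Fin m) F) = δ⁻¹ • (g₁ : Matrix (Fin m ⊕ Fin m) (Fin m ⊕ Fin m) F) := by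
    have h := congrArg dg g₁.mul_inv
    rw [dg_mul, dg_one] at h
    refine left_inv_eq_right_inv h ?_
    rw [Matrix.mul_smul, hg₁, smul_smul, inv_mul_cancel₀ hδ0, one_smul]
  set v₁ : GL (Fin m ⊕ Fin m) F := g₁ * u₀ * g₁⁻¹ with hv₁
  have hv₁U : dg (v₁ : Matrix (Fin m ⊕ Fin m) (Fin m ⊕ Fin m) F) * v₁ = 1 := by
    rw [hv₁, Units.val_mul, Units.val_mul, dg_mul, dg_mul, hg₁']
    calc _ = δ⁻¹ • ((g₁ : Matrix (Fin m ⊕ Fin m) (Fin m ⊕ Fin m) F) * (dg (u₀ : Matrix (Fin m ⊕ Fin m) (Fin m ⊕ Fin m) F) *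
          (dg (g₁ : Matrix (Fin m ⊕ Fin m) (Fin m ⊕ Fin m) F) * g₁) * u₀) * ((g₁⁻¹ : GL (Fin m ⊕ Fin m) F) : Matrix (Fin m ⊕ Fin m) (Fin m ⊕ Fin m) F)) := by
          simp only [Matrix.smul_mul, mul_assoc]
      _ = 1 := by
          rw [hg₁, Matrix.mul_smul, mul_one, Matrix.smul_mul, hu₀, Matrix.mul_smul, mul_one, Matrix.smul_mul,
            Units.mul_inv, smul_smul, inv_mul_cancel₀ hδ0, one_smul]
  have hv₁n : ((v₁ : Matrix (Fin m ⊕ Fin m) (Fin m ⊕ Fin m) F) - 1) ^ (2 * m) = 0 ∧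
      ((v₁ : Matrix (Fin m ⊕ Fin m) (Fin m ⊕ Fin m) F) - 1).rank = 2 * m - 1 := by
    have e : (v₁ : Matrix (Fin m ⊕ Fin m) (Fin m ⊕ Fin m) F) - 1 = (g₁ : Matrix (Fin m ⊕ Fin m) (Fin m ⊕ Fin m) F) *
        ((u₀ : Matrix (Fin m ⊕ Fin m) (Fin m ⊕ Fin m) F) - 1) * ((g₁⁻¹ : GL (Fin m ⊕ Fin m) F) : Matrix (Fin m ⊕ Fin m) (Fin m ⊕ Fin m) F) := by
      rw [hv₁, Units.val_mul, Units.val_mul, Matrix.mul_sub, Matrix.sub_mul, mul_one, Units.mul_inv]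
    rw [e]
    refine ⟨by rw [Units.conj_pow, hn1, mul_zero, zero_mul], ?_⟩
    rw [Matrix.rank_mul_eq_left_of_isUnit_det _ _ ((Matrix.isUnit_iff_isUnit_det _).1 g₁⁻¹.isUnit),
      Matrix.rank_mul_eq_right_of_isUnit_det _ _ ((Matrix.isUnit_iff_isUnit_det _).1 g₁.isUnit), hn2]
  let rep : Bool → ↥(Matrix.symplecticGroup (Fin m) F) := fun b =>
    if b then ⟨v₁, (mem_iff_dg _).2 hv₁U⟩ else ⟨u₀, (mem_iff_dg _).2 hu₀⟩
  let P : Bool → {C : ConjClasses ↥(Matrix.symplecticGroup (Fin m) F) // ∃ u : Matrix.symplecticGroup (Fin m) F, ConjClasses.mk u = C ∧ ((u : Matrix (Fin m ⊕ Fin m) (Fin m ⊕ Fin m) F) - 1) ^ (2 * m) = 0 ∧ ((u : Matrix (Fin m ⊕ Fin m) (Fin m ⊕ Fin m) F) - 1).rank = 2 * m - 1} :=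
    fun b => ⟨ConjClasses.mk (rep b), rep b, rfl, by cases b; exacts [hn1, hv₁n.1], by cases b; exacts [hn2, hv₁n.2]⟩
  have hne : ¬ IsConj (rep false) (rep true) := by
    rintro h
    obtain ⟨x, hx⟩ := isConj_iff.1 h
    have hx' : x * rep false = rep true * x := mul_inv_eq_iff_eq_mul.1 hx
    have hx2 : (x : Matrix (Fin m ⊕ Fin m) (Fin m ⊕ Fin m) F) * u₀ = (v₁ : Matrix (Fin m ⊕ Fin m) (Fin m ⊕ Fin m) F) * x :=
      congrArg (fun s : ↥(Matrix.symplecticGroup (Fin m) F) => (s : Matrix (Fin m ⊕ Fin m) (Fin m ⊕ Fin m) F)) hx'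
    have hxU : dg (x : Matrix (Fin m ⊕ Fin m) (Fin m ⊕ Fin m) F) * x = 1 := (mem_iff_dg _).1 x.2
    set Y : Matrix (Fin m ⊕ Fin m) (Fin m ⊕ Fin m) F := ((g₁⁻¹ : GL (Fin m ⊕ Fin m) F) : Matrix (Fin m ⊕ Fin m) (Fin m ⊕ Fin m) F) * x with hY
    have hYc : Commute Y (u₀ : Matrix (Fin m ⊕ Fin m) (Fin m ⊕ Fin m) F) := by
      show Y * u₀ = u₀ * Y
      rw [hY, mul_assoc, hx2, hv₁, Units.val_mul, Units.val_mul, ← mul_assoc, ← mul_assoc, ← mul_assoc,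
        Units.inv_mul, one_mul]
      simp only [mul_assoc]
    have hYY : dg Y * Y = δ⁻¹ • 1 := by
      rw [hY, dg_mul, hg₁']
      calc _ = δ⁻¹ • (dg (x : Matrix (Fin m ⊕ Fin m) (Fin m ⊕ Fin m) F) * ((g₁ : Matrix (Fin m ⊕ Fin m) (Fin m ⊕ Fin m) F) *
            ((g₁⁻¹ : GL (Fin m ⊕ Fin m) F) : Matrix (Fin m ⊕ Fin m) (Fin m ⊕ Fin m) F)) * (x : Matrix (Fin m ⊕ Fin m) (Fin m ⊕ Fin m) F)) := by
            simp only [Matrix.mul_smul, Matrix.smul_mul, mul_assoc]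
        _ = _ := by rw [Units.mul_inv, mul_one, hxU]
    obtain ⟨c, hc⟩ := Lib.UnipConst.exists_const hn1 hn2' hYc
    have h1 := Lib.UnipConst.const_mul
      (Lib.UnipConst.commute_of_commute hn1 hn2' (dg_commute hu₀ hYc) hYc) (const_dg hc) hc
    rw [hYY] at h1
    have hcc : c * c = δ⁻¹ := Lib.UnipConst.const_unique h1 (by simp)
    exact hδ ⟨c⁻¹, by rw [← mul_inv, hcc, inv_inv]⟩
  have hbij : Function.Bijective P := by
    constructor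
    · intro a b h
      have h' : IsConj (rep a) (rep b) := ConjClasses.mk_eq_mk_iff_isConj.1 (congrArg Subtype.val h)
      cases a <;> cases b
      · rfl
      · exact absurd h' hne
      · exact absurd h'.symm hne
      · rfl
    · rintro ⟨C, u, rfl, h1, h2'⟩
      set U : Matrix (Fin m ⊕ Fin m) (Fin m ⊕ Fin m) F := (u : Matrix (Fin m ⊕ Fin m) (Fin m ⊕ Fin m) F) with hU
      have hUU : dg U * U = 1 := (mem_iff_dg _).1 u.2
      have h2'' : (U - 1).rank = Fintype.card (Fin m ⊕ Fin m) - 1 := by rw [card_idx, h2']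
      obtain ⟨g, hg⟩ := Lib.UnipDet.exists_conj (u₀ : Matrix (Fin m ⊕ Fin m) (Fin m ⊕ Fin m) F) U (2 * m) hn1 hn2' h1 h2''
      set G : Matrix (Fin m ⊕ Fin m) (Fin m ⊕ Fin m) F := (g : Matrix (Fin m ⊕ Fin m) (Fin m ⊕ Fin m) F) with hG
      let uG : GL (Fin m ⊕ Fin m) F := ⟨U, dg U, mul_eq_one_comm.1 hUU, hUU⟩
      have hu₀' : (u₀ : Matrix (Fin m ⊕ Fin m) (Fin m ⊕ Fin m) F) * dg (u₀ : Matrix (Fin m ⊕ Fin m) (Fin m ⊕ Fin m) F) = 1 := mul_eq_one_comm.1 hu₀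
      have hcomm : Commute (dg G * G) (u₀ : Matrix (Fin m ⊕ Fin m) (Fin m ⊕ Fin m) F) := by
        show dg G * G * u₀ = u₀ * (dg G * G)
        calc dg G * G * u₀ = ((u₀ : Matrix (Fin m ⊕ Fin m) (Fin m ⊕ Fin m) F) * dg (u₀ : Matrix (Fin m ⊕ Fin m) (Fin m ⊕ Fin m) F)) * (dg G * (G * u₀)) := by
              rw [hu₀', one_mul, mul_assoc]
          _ = (u₀ : Matrix (Fin m ⊕ Fin m) (Fin m ⊕ Fin m) F) * (dg (G * (u₀ : Matrix (Fin m ⊕ Fin m) (Fin m ⊕ Fin m) F)) * (G * (u₀ : Matrix (Fin m ⊕ Fin m) (Fin m ⊕ Fin m) F))) := by rw [dg_mul G]; simp only [mul_assoc]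
          _ = (u₀ : Matrix (Fin m ⊕ Fin m) (Fin m ⊕ Fin m) F) * (dg G * (dg U * U) * G) := by rw [hg, dg_mul]; simp only [mul_assoc]
          _ = _ := by rw [hUU, mul_one]
      obtain ⟨c, hc⟩ := Lib.UnipConst.exists_const hn1 hn2' hcomm
      have hd : IsUnit (dg G) :=
        IsUnit.of_mul_eq_one (dg ((g⁻¹ : GL (Fin m ⊕ Fin m) F) : Matrix (Fin m ⊕ Fin m) (Fin m ⊕ Fin m) F)) (by rw [← dg_mul, Units.inv_mul, dg_one])
      have hc0 : c ≠ 0 := Lib.UnipConst.const_ne_zero hc (hd.mul g.isUnit)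
      by_cases hs : IsSquare c
      · obtain ⟨r, rfl⟩ := hs
        obtain ⟨x, hxS, hx⟩ := exists_conj h2 hm hu₀ hn1 hn2 uG g hUU hg (left_ne_zero_of_mul hc0) hc
        exact ⟨false, Subtype.ext (ConjClasses.mk_eq_mk_iff_isConj.2 (isConj_iff.2
          ⟨⟨x, hxS⟩, mul_inv_eq_iff_eq_mul.2 (Subtype.ext hx)⟩))⟩
      · obtain ⟨r, hr⟩ : IsSquare (c * δ⁻¹) := by
          have h : ¬ IsSquare δ⁻¹ := by rwa [isSquare_inv]
          exact (Lib.FormDet.isSquare_mul_nonsquare hc0 h).2 hs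
        have hg' : ((g * g₁⁻¹ : GL (Fin m ⊕ Fin m) F) : Matrix (Fin m ⊕ Fin m) (Fin m ⊕ Fin m) F) * (v₁ : Matrix (Fin m ⊕ Fin m) (Fin m ⊕ Fin m) F)
            = (uG : Matrix (Fin m ⊕ Fin m) (Fin m ⊕ Fin m) F) * ((g * g₁⁻¹ : GL (Fin m ⊕ Fin m) F) : Matrix (Fin m ⊕ Fin m) (Fin m ⊕ Fin m) F) := by
          rw [← Units.val_mul, ← Units.val_mul]
          congr 1
          rw [hv₁, show g * g₁⁻¹ * (g₁ * u₀ * g₁⁻¹) = g * u₀ * g₁⁻¹ by group,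
            show g * u₀ = uG * g from Units.ext hg, mul_assoc]
        have hn : IsNilpotent (dg ((g * g₁⁻¹ : GL (Fin m ⊕ Fin m) F) : Matrix (Fin m ⊕ Fin m) (Fin m ⊕ Fin m) F) *
            ((g * g₁⁻¹ : GL (Fin m ⊕ Fin m) F) : Matrix (Fin m ⊕ Fin m) (Fin m ⊕ Fin m) F) - (r * r) • (1 : Matrix (Fin m ⊕ Fin m) (Fin m ⊕ Fin m) F)) := by
          have e : dg ((g * g₁⁻¹ : GL (Fin m ⊕ Fin m) F) : Matrix (Fin m ⊕ Fin m) (Fin m ⊕ Fin m) F) *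
              ((g * g₁⁻¹ : GL (Fin m ⊕ Fin m) F) : Matrix (Fin m ⊕ Fin m) (Fin m ⊕ Fin m) F) - (r * r) • (1 : Matrix (Fin m ⊕ Fin m) (Fin m ⊕ Fin m) F)
              = δ⁻¹ • ((g₁ : Matrix (Fin m ⊕ Fin m) (Fin m ⊕ Fin m) F) * (dg G * G - c • 1) *
                ((g₁⁻¹ : GL (Fin m ⊕ Fin m) F) : Matrix (Fin m ⊕ Fin m) (Fin m ⊕ Fin m) F)) := by
            rw [Units.val_mul, dg_mul, hg₁', ← hG, Matrix.mul_sub, Matrix.sub_mul, smul_sub, Matrix.mul_smul,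
              mul_one, ← hr]
            simp only [Matrix.smul_mul, mul_assoc, Units.mul_inv, smul_smul, mul_comm δ⁻¹ c]
          rw [e]
          obtain ⟨k, hk⟩ := hc
          exact IsNilpotent.smul ⟨k, by rw [Units.conj_pow, hk, mul_zero, zero_mul]⟩ _
        have hr0 : r ≠ 0 := by
          rintro rfl
          simp [hc0, hδ0] at hr
        obtain ⟨x, hxS, hx⟩ := exists_conj h2 hm hv₁U hv₁n.1 hv₁n.2 uG (g * g₁⁻¹) hUU hg' hr0 hn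
        exact ⟨true, Subtype.ext (ConjClasses.mk_eq_mk_iff_isConj.2 (isConj_iff.2
          ⟨⟨x, hxS⟩, mul_inv_eq_iff_eq_mul.2 (Subtype.ext hx)⟩))⟩
  rw [← Nat.card_eq_of_bijective P hbij, Nat.card_eq_fintype_card, Fintype.card_bool]

end Cfsg.Agent.S2591
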