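import Cfsg.Statements.S2592
import Cfsg.Agent.Lib.SympUnipotent

set_option autoImplicit false
open Cfsg

namespace Cfsg.Agent.S2592

open Lib.SympUnipotent Polynomial

theorem dg_sum {F : Type*} [Field F] {m : ℕ} {κ : Type*} (s : Finset κ)
    (f : κ → Matrix (Fin m ⊕ Fin m) (Fin m ⊕ Fin m) F) : dg (∑ i ∈ s, f i) = ∑ i ∈ s, dg (f i) := by
  classical
  induction s using Finset.induction_on with
  | empty => rw [Finset.sum_empty, Finset.sum_empty, dg_zero]
  | insert i s hi ih => rw [Finset.sum_insert hi, Finset.sum_insert hi, dg_add, ih]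


set_option maxHeartbeats 1600000 in
/-- Over a finite field with q elements, q odd, the centraliser in Sp_2m(F) (m ≥ 1) of a regular unipotent element (u − 1 nilpotent of rank 2m − 1) has order 2 q^m. -/
theorem result {F : Type*} [Field F] [Fintype F] {q : ℕ} (hF : Fintype.card F = q) (hq : Odd q) {m : ℕ} (hm : 1 ≤ m) (u : Matrix.symplecticGroup (Fin m) F) (hnil : ((u : Matrix (Fin m ⊕ Fin m) (Fin m ⊕ Fin m) F) - 1) ^ (2 * m) = 0) (hreg : ((u : Matrix (Fin m ⊕ Fin m) (Fin m ⊕ Fin m) F) - 1).rank = 2 * m - 1) : Nat.card ↥(Subgroup.centralizer ({u} : Set ↥(Matrix.symplecticGroup (Fin m) F))) = 2 * q ^ m := by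
  classical
  haveI : Nonempty (Fin m ⊕ Fin m) := ⟨Sum.inl ⟨0, hm⟩⟩
  have h2 : (2 : F) ≠ 0 := by
    apply Ring.two_ne_zero
    intro h
    have := FiniteField.even_card_iff_char_two.1 h
    rw [hF] at this
    exact absurd this (by rw [Nat.odd_iff.1 hq]; decide)
  set U : Matrix (Fin m ⊕ Fin m) (Fin m ⊕ Fin m) F := (u : Matrix (Fin m ⊕ Fin m) (Fin m ⊕ Fin m) F) with hU
  have hUU : dg U * U = 1 := (mem_iff_dg _).1 u.2
  have hUU' : U * dg U = 1 := mul_eq_one_comm.1 hUU
  have hreg' : (U - 1).rank = Fintype.card (Fin m ⊕ Fin m) - 1 := by rw [card_idx, hreg]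
  -- ξ = u - u⁻¹ generates the commutant
  set ξ : Matrix (Fin m ⊕ Fin m) (Fin m ⊕ Fin m) F := U - dg U with hξ
  have hdξ : dg ξ = -ξ := by rw [hξ, dg_sub, dg_dg, neg_sub]
  have hcUd : Commute U (dg U) := hUU'.trans hUU.symm
  have hfac : ξ = (dg U * (U + 1)) * (U - 1) := by
    rw [hξ, Matrix.mul_sub, mul_one, mul_assoc, Matrix.add_mul, one_mul, Matrix.mul_add, ← mul_assoc, hUU,
      one_mul, Matrix.mul_add, mul_one, hUU]
    abel
  have hunitfac : IsUnit (dg U * (U + 1)) := by
    refine (IsUnit.of_mul_eq_one U hUU).mul ?_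
    rw [Matrix.isUnit_iff_isUnit_det, show U + 1 = (2 : F) • (1 : Matrix (Fin m ⊕ Fin m) (Fin m ⊕ Fin m) F) + (U - 1) by
      rw [two_smul]; abel, Lib.UnipDet.det_smul_one_add _ _ ⟨_, hnil⟩]
    exact (pow_ne_zero _ h2).isUnit
  have hξn : ξ ^ (2 * m) = 0 := by
    have hc : Commute (dg U * (U + 1)) (U - 1) :=
      ((hcUd.symm.sub_right (Commute.one_right _)).mul_left
        (((Commute.refl U).add_left (Commute.one_left U)).sub_right (Commute.one_right _)))
    rw [hfac, hc.mul_pow, hnil, mul_zero]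
  have hξr : ξ.rank = Fintype.card (Fin m ⊕ Fin m) - 1 := by
    rw [hfac, Matrix.rank_mul_eq_right_of_isUnit_det _ _ ((Matrix.isUnit_iff_isUnit_det _).1 hunitfac), hreg']
  have hξ1 : ((1 + ξ) - 1) ^ (2 * m) = 0 := by rw [add_sub_cancel_left, hξn]
  have hξ2 : ((1 + ξ) - 1).rank = Fintype.card (Fin m ⊕ Fin m) - 1 := by rw [add_sub_cancel_left, hξr]
  have hξU : Commute ξ U := (Commute.refl U).sub_left hcUd.symm
  have hξne : ξ ^ (2 * m - 1) ≠ 0 := by
    intro h
    have hf := Lib.RegularUnipotent.isRegNil_of_matrix (1 + ξ) (2 * m) hξ1 hξ2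
    rw [add_sub_cancel_left] at hf
    have hd : Module.finrank F (Fin m ⊕ Fin m → F) = 2 * m := by rw [Module.finrank_pi, card_idx]
    have hk := hf.finrank_ker_pow (2 * m - 1) (by omega)
    rw [← Matrix.toLin'_pow, h, map_zero, LinearMap.ker_zero, finrank_top, hd] at hk
    omega
  let A := {a : Matrix (Fin m ⊕ Fin m) (Fin m ⊕ Fin m) F // Commute a U ∧ dg a = -a}
  let Ψ : (Fin m → F) → A := fun c => ⟨∑ i : Fin m, c i • ξ ^ (2 * (i : ℕ) + 1),
    Commute.sum_left _ _ _ (fun i _ => (hξU.pow_left _).smul_left (c i)), by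
      rw [← Finset.sum_neg_distrib]
      refine (dg_sum _ _).trans (Finset.sum_congr rfl fun i _ => ?_)
      show dg (c i • ξ ^ (2 * (i : ℕ) + 1)) = _
      rw [dg_smul, dg_pow, hdξ, Odd.neg_pow ⟨i, rfl⟩, smul_neg]⟩
  have hΨ : Function.Bijective Ψ := by
    constructor
    · intro c c' h
      have h' : (∑ i : Fin m, c i • ξ ^ (2 * (i : ℕ) + 1)) = ∑ i : Fin m, c' i • ξ ^ (2 * (i : ℕ) + 1) := congrArg Subtype.val h
      set p : F[X] := ∑ i : Fin m, C (c i - c' i) * X ^ (2 * (i : ℕ) + 1) with hp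
      have hp0 : aeval ξ p = 0 := by
        simp only [hp, map_sum, map_mul, aeval_C, map_pow, aeval_X, Algebra.algebraMap_eq_smul_one, sub_mul, Matrix.smul_mul,
          one_mul, sub_smul, Finset.sum_sub_distrib, h', sub_self]
      have hdvd : (X : F[X]) ^ (2 * m) ∣ p := by
        obtain ⟨k, hk, hku⟩ := (dvd_prime_pow Polynomial.prime_X _).1 (minpoly.dvd F ξ
          (show aeval ξ ((X : F[X]) ^ (2 * m)) = 0 by rw [map_pow, aeval_X, hξn]))
        rcases Nat.lt_or_ge k (2 * m) with hlt | hge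
        · exfalso
          apply hξne
          have h1 : aeval ξ ((X : F[X]) ^ k) = 0 := by
            obtain ⟨c, hc⟩ := hku.dvd
            rw [hc, map_mul, minpoly.aeval, zero_mul]
          rw [map_pow, aeval_X] at h1
          exact pow_eq_zero_of_le (by omega) h1
        · exact ((pow_dvd_pow X hge).trans hku.dvd').trans (minpoly.dvd F ξ hp0)
      funext j
      have hcoef := (Polynomial.X_pow_dvd_iff.1 hdvd) (2 * (j : ℕ) + 1) (by omega)
      rw [hp, finsetSum_coeff, Finset.sum_eq_single j] at hcoef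
      · rw [coeff_C_mul_X_pow, if_pos rfl] at hcoef
        exact sub_eq_zero.1 hcoef
      · intro b _ hb
        rw [coeff_C_mul_X_pow, if_neg]
        intro e
        exact hb (Fin.ext (by omega))
      · simp
    · rintro ⟨a, ha, had⟩
      have haξ : Commute a ξ := ha.sub_right (by
        show a * dg U = dg U * a
        calc a * dg U = dg U * (U * a) * dg U := by rw [← mul_assoc (dg U), hUU, one_mul]
          _ = dg U * a * (U * dg U) := by rw [ha.eq.symm]; simp only [mul_assoc]
          _ = dg U * a := by rw [hUU', mul_one])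
      obtain ⟨p, hp⟩ := Lib.UnipConst.exists_aeval hξ1 hξ2 (Commute.add_right (Commute.one_right a) haξ)
      rw [add_sub_cancel_left] at hp
      refine ⟨fun i => p.coeff (2 * (i : ℕ) + 1), Subtype.ext ?_⟩
      have hsum : a = ∑ j ∈ Finset.range (2 * m), p.coeff j • ξ ^ j := by
        rw [hp, Polynomial.aeval_eq_sum_range' (n := max (2 * m) (p.natDegree + 1)) (by omega)]
        refine (Finset.sum_subset (Finset.range_mono (le_max_left _ _)) fun j _ hj => ?_).symm
        rw [pow_eq_zero_of_le (by simpa using hj) hξn, smul_zero]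
      have hpair : ∀ (f : ℕ → Matrix (Fin m ⊕ Fin m) (Fin m ⊕ Fin m) F) (k : ℕ),
          ∑ j ∈ Finset.range (2 * k), f j = ∑ i : Fin k, f (2 * (i : ℕ)) + ∑ i : Fin k, f (2 * (i : ℕ) + 1) := by
        intro f k
        induction k with
        | zero => simp
        | succ k ih =>
          rw [show 2 * (k + 1) = 2 * k + 1 + 1 by ring, Finset.sum_range_succ, Finset.sum_range_succ, ih,
            Fin.sum_univ_castSucc, Fin.sum_univ_castSucc]
          simp only [Fin.val_castSucc, Fin.val_last]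
          abel
      rw [hpair] at hsum
      set ev := ∑ i : Fin m, p.coeff (2 * (i : ℕ)) • ξ ^ (2 * (i : ℕ))
      set od := ∑ i : Fin m, p.coeff (2 * (i : ℕ) + 1) • ξ ^ (2 * (i : ℕ) + 1)
      have hod : dg od = -od := (Ψ fun i => p.coeff (2 * (i : ℕ) + 1)).2.2
      have hev : dg ev = ev := by
        refine (dg_sum _ _).trans (Finset.sum_congr rfl fun i _ => ?_)
        show dg (p.coeff (2 * (i : ℕ)) • ξ ^ (2 * (i : ℕ))) = _
        rw [dg_smul, dg_pow, hdξ, Even.neg_pow ⟨i, two_mul _⟩]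
      show od = a
      have h3 : (2 : F) • ev = 0 := by
        rw [hsum, dg_add, hod, hev] at had
        rw [two_smul]
        calc ev + ev = (ev + -od) + (ev + od) := by abel
          _ = 0 := by rw [had]; abel
      rw [hsum, (smul_eq_zero.1 h3).resolve_left h2, zero_add]
  have hcardA : Nat.card A = q ^ m := by
    rw [← Nat.card_eq_of_bijective Ψ hΨ, Nat.card_fun, Nat.card_fin, Nat.card_eq_fintype_card, hF]
  -- Cayley transform
  have hskewnil : ∀ a : A, IsNilpotent a.1 := by
    intro a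
    obtain ⟨c, hc⟩ := Lib.UnipConst.exists_const hnil hreg' a.2.1
    have hd := const_dg hc
    rw [a.2.2] at hd
    have h' := hc.neg
    rw [neg_sub] at h'
    have : c = -c := Lib.UnipConst.const_unique hd (by
      have e : -a.1 - (-c) • (1 : Matrix (Fin m ⊕ Fin m) (Fin m ⊕ Fin m) F) = c • 1 - a.1 := by rw [neg_smul]; abel
      rw [e]; exact h')
    have hc0 : c = 0 := by
      have : (2 : F) * c = 0 := by linear_combination this
      exact (mul_eq_zero.1 this).resolve_left h2
    rwa [hc0, zero_smul, sub_zero] at hc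
  let inv1 : A → Matrix (Fin m ⊕ Fin m) (Fin m ⊕ Fin m) F := fun a =>
    (((hskewnil a).isUnit_one_sub.unit⁻¹ : GL (Fin m ⊕ Fin m) F) : Matrix (Fin m ⊕ Fin m) (Fin m ⊕ Fin m) F)
  have hinv1 : ∀ a : A, inv1 a * (1 - a.1) = 1 := fun a => IsUnit.val_inv_mul _
  have hinv2 : ∀ a : A, (1 - a.1) * inv1 a = 1 := fun a => mul_eq_one_comm.1 (hinv1 a)
  let cay : A → Matrix (Fin m ⊕ Fin m) (Fin m ⊕ Fin m) F := fun a => inv1 a * (1 + a.1)
  have hcayc : ∀ a : A, Commute (cay a) U := fun a => by
    have h1 : Commute (1 - a.1) U := (Commute.one_left U).sub_left a.2.1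
    have h2 : Commute (inv1 a) U := by
      show inv1 a * U = U * inv1 a
      calc inv1 a * U = inv1 a * U * ((1 - a.1) * inv1 a) := by rw [hinv2, mul_one]
        _ = inv1 a * ((1 - a.1) * U) * inv1 a := by rw [h1.eq]; simp only [mul_assoc]
        _ = U * inv1 a := by rw [← mul_assoc (inv1 a), hinv1, one_mul]
    exact h2.mul_left ((Commute.one_left U).add_left a.2.1)
  have hpm : ∀ a : A, (1 + a.1) * (1 - a.1) = (1 - a.1) * (1 + a.1) := fun a =>
    (((Commute.one_left _).add_left ((Commute.one_right a.1).sub_right (Commute.refl a.1)))).eq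
  have hcayU : ∀ a : A, dg (cay a) * cay a = 1 := fun a => by
    show dg (inv1 a * (1 + a.1)) * (inv1 a * (1 + a.1)) = 1
    have hd1 : dg (inv1 a) * (1 + a.1) = 1 := by
      have := congrArg dg (hinv2 a)
      rwa [dg_mul, dg_sub, dg_one, a.2.2, sub_neg_eq_add] at this
    rw [dg_mul, dg_add, dg_one, a.2.2, ← sub_eq_add_neg]
    have hd2 : (1 + a.1) * dg (inv1 a) = 1 := mul_eq_one_comm.1 hd1
    calc (1 - a.1) * dg (inv1 a) * (inv1 a * (1 + a.1))
        = ((1 + a.1) * dg (inv1 a)) * ((1 - a.1) * dg (inv1 a) * (inv1 a * (1 + a.1))) := by rw [hd2, one_mul]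
      _ = (1 + a.1) * (dg (inv1 a) * (1 - a.1)) * dg (inv1 a) * (inv1 a * (1 + a.1)) := by simp only [mul_assoc]
      _ = ((1 + a.1) * (1 - a.1)) * dg (inv1 a) * dg (inv1 a) * (inv1 a * (1 + a.1)) := by
          have hcomm' : dg (inv1 a) * (1 - a.1) = (1 - a.1) * dg (inv1 a) := by
            calc dg (inv1 a) * (1 - a.1) = dg (inv1 a) * (1 - a.1) * ((1 + a.1) * dg (inv1 a)) := by rw [hd2, mul_one]
              _ = dg (inv1 a) * ((1 + a.1) * (1 - a.1)) * dg (inv1 a) := by rw [hpm]; simp only [mul_assoc]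
              _ = (1 - a.1) * dg (inv1 a) := by rw [← mul_assoc (dg (inv1 a)), hd1, one_mul]
          rw [hcomm']; simp only [mul_assoc]
      _ = (1 - a.1) * (((1 + a.1) * dg (inv1 a)) * (dg (inv1 a) * (inv1 a * (1 + a.1)))) := by rw [hpm]; simp only [mul_assoc]
      _ = (1 - a.1) * (dg (inv1 a) * (inv1 a * (1 + a.1))) := by rw [hd2, one_mul]
      _ = 1 := by
          have hcomm' : (1 - a.1) * dg (inv1 a) = dg (inv1 a) * (1 - a.1) := by
            calc (1 - a.1) * dg (inv1 a) = (dg (inv1 a) * (1 + a.1)) * ((1 - a.1) * dg (inv1 a)) := by rw [hd1, one_mul]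
              _ = dg (inv1 a) * ((1 - a.1) * (1 + a.1)) * dg (inv1 a) := by rw [← hpm]; simp only [mul_assoc]
              _ = dg (inv1 a) * (1 - a.1) * ((1 + a.1) * dg (inv1 a)) := by simp only [mul_assoc]
              _ = _ := by rw [hd2, mul_one]
          rw [← mul_assoc, hcomm', mul_assoc, ← mul_assoc (1 - a.1), hinv2, one_mul, hd1]
  let sgn : Bool → F := fun b => if b then 1 else -1
  have hsgn : ∀ b, sgn b * sgn b = 1 := fun b => by cases b <;> simp [sgn]
  let Φ : Bool × A → ↥(Subgroup.centralizer ({u} : Set ↥(Matrix.symplecticGroup (Fin m) F))) := fun x =>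
    ⟨⟨sgn x.1 • cay x.2, (mem_iff_dg _).2 (by
      rw [dg_smul, Matrix.smul_mul, Matrix.mul_smul, smul_smul, hsgn, one_smul, hcayU])⟩, by
      rw [Subgroup.mem_centralizer_singleton_iff]
      exact Subtype.ext ((hcayc x.2).smul_left (sgn x.1)).eq⟩
  have hcay0 : ∀ a : A, IsNilpotent (cay a - (1 : F) • (1 : Matrix (Fin m ⊕ Fin m) (Fin m ⊕ Fin m) F)) := fun a => by
    rw [one_smul]
    have e : cay a - 1 = inv1 a * ((2 : F) • a.1) := by
      show inv1 a * (1 + a.1) - 1 = _
      calc inv1 a * (1 + a.1) - 1 = inv1 a * (1 + a.1) - inv1 a * (1 - a.1) := by rw [hinv1]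
        _ = _ := by rw [← Matrix.mul_sub, two_smul]; congr 1; abel
    rw [e]
    refine Commute.isNilpotent_mul_left (Commute.smul_right ?_ _) ((hskewnil a).smul _)
    show inv1 a * a.1 = a.1 * inv1 a
    calc inv1 a * a.1 = inv1 a * a.1 * ((1 - a.1) * inv1 a) := by rw [hinv2, mul_one]
      _ = inv1 a * ((1 - a.1) * a.1) * inv1 a := by rw [((Commute.one_left a.1).sub_left (Commute.refl _)).eq]; simp only [mul_assoc]
      _ = a.1 * inv1 a := by rw [← mul_assoc (inv1 a), hinv1, one_mul]
  have hΦ : Function.Bijective Φ := by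
    constructor
    · rintro ⟨b, a⟩ ⟨b', a'⟩ h
      have h' : sgn b • cay a = sgn b' • cay a' := congrArg (fun x => ((x.1 : ↥(Matrix.symplecticGroup (Fin m) F)) : Matrix (Fin m ⊕ Fin m) (Fin m ⊕ Fin m) F)) h
      have hb : sgn b = sgn b' := by
        have e1 := (hcay0 a).smul (sgn b)
        rw [smul_sub, smul_smul, mul_one, h'] at e1
        have e2 := (hcay0 a').smul (sgn b')
        rw [smul_sub, smul_smul, mul_one] at e2
        exact Lib.UnipConst.const_unique e1 e2
      have hbb : b = b' := by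
        cases b <;> cases b' <;> simp [sgn] at hb ⊢ <;>
          exact h2 (by first | linear_combination hb | linear_combination -hb)
      subst hbb
      have hne : sgn b ≠ 0 := fun h0 => by simpa [h0] using hsgn b
      have hc : cay a = cay a' := by
        have := congrArg ((sgn b)⁻¹ • ·) h'
        simpa [smul_smul, inv_mul_cancel₀ hne] using this
      refine Prod.ext rfl (Subtype.ext ?_)
      have e1 : (1 - a.1) * cay a = 1 + a.1 := by
        show (1 - a.1) * (inv1 a * (1 + a.1)) = _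
        rw [← mul_assoc, hinv2, one_mul]
      have e2 : (1 - a'.1) * cay a' = 1 + a'.1 := by
        show (1 - a'.1) * (inv1 a' * (1 + a'.1)) = _
        rw [← mul_assoc, hinv2, one_mul]
      rw [← hc] at e2
      have hsum : IsUnit (cay a + 1) := by
        have e : cay a + 1 = (2 : F) • (1 : Matrix (Fin m ⊕ Fin m) (Fin m ⊕ Fin m) F) + (cay a - (1 : F) • 1) := by
          rw [two_smul, one_smul]; abel
        rw [e, Matrix.isUnit_iff_isUnit_det, Lib.UnipDet.det_smul_one_add _ _ (hcay0 a)]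
        exact (pow_ne_zero _ h2).isUnit
      apply hsum.mul_right_cancel
      rw [Matrix.sub_mul, one_mul, sub_eq_iff_eq_add] at e1 e2
      calc a.1 * (cay a + 1) = a.1 * cay a + a.1 := by rw [Matrix.mul_add, mul_one]
        _ = cay a - 1 := by rw [eq_sub_iff_add_eq]; (conv_rhs => rw [e1]); abel
        _ = a'.1 * cay a + a'.1 := by rw [sub_eq_iff_eq_add]; (conv_lhs => rw [e2]); abel
        _ = _ := by rw [Matrix.mul_add, mul_one]
    · rintro ⟨w, hw⟩
      rw [Subgroup.mem_centralizer_singleton_iff] at hw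
      set W : Matrix (Fin m ⊕ Fin m) (Fin m ⊕ Fin m) F := (w : Matrix (Fin m ⊕ Fin m) (Fin m ⊕ Fin m) F) with hW
      have hWW : dg W * W = 1 := (mem_iff_dg _).1 w.2
      have hWc : Commute W U := congrArg (fun x : ↥(Matrix.symplecticGroup (Fin m) F) => (x : Matrix (Fin m ⊕ Fin m) (Fin m ⊕ Fin m) F)) hw
      obtain ⟨c, hc⟩ := Lib.UnipConst.exists_const hnil hreg' hWc
      have hcc : c * c = 1 := by
        have h1 := Lib.UnipConst.const_mul (Lib.UnipConst.commute_of_commute hnil hreg' (dg_commute hUU hWc) hWc) (const_dg hc) hc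
        rw [hWW] at h1
        exact Lib.UnipConst.const_unique h1 (by simp)
      obtain ⟨b, hb⟩ : ∃ b, sgn b = c := by
        rcases mul_self_eq_one_iff.1 hcc with h | h
        · exact ⟨true, by simp [sgn, h]⟩
        · exact ⟨false, by simp [sgn, h]⟩
      set V := c • W with hV
      have hVc : Commute V U := hWc.smul_left c
      have hVn : IsNilpotent (V - (1 : F) • (1 : Matrix (Fin m ⊕ Fin m) (Fin m ⊕ Fin m) F)) := by
        have := hc.smul c
        rwa [smul_sub, smul_smul, hcc] at this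
      have hVV : dg V * V = 1 := by
        rw [hV, dg_smul, Matrix.smul_mul, Matrix.mul_smul, smul_smul, hcc, one_smul, hWW]
      have hVu : IsUnit (V + 1) := by
        have e : V + 1 = (2 : F) • (1 : Matrix (Fin m ⊕ Fin m) (Fin m ⊕ Fin m) F) + (V - (1 : F) • 1) := by
          rw [two_smul, one_smul]; abel
        rw [e, Matrix.isUnit_iff_isUnit_det, Lib.UnipDet.det_smul_one_add _ _ hVn]
        exact (pow_ne_zero _ h2).isUnit
      obtain ⟨Z, hZ⟩ := hVu
      set Zi : Matrix (Fin m ⊕ Fin m) (Fin m ⊕ Fin m) F := ((Z⁻¹ : GL (Fin m ⊕ Fin m) F) : Matrix (Fin m ⊕ Fin m) (Fin m ⊕ Fin m) F)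
      have hZ1 : (V + 1) * Zi = 1 := by rw [← hZ]; exact Z.mul_inv
      have hZ2 : Zi * (V + 1) = 1 := mul_eq_one_comm.1 hZ1
      have hZV : Zi * V = V * Zi := by
        calc Zi * V = Zi * V * ((V + 1) * Zi) := by rw [hZ1, mul_one]
          _ = Zi * ((V + 1) * V) * Zi := by rw [((Commute.refl V).add_left (Commute.one_left V)).eq]; simp only [mul_assoc]
          _ = V * Zi := by rw [← mul_assoc Zi, hZ2, one_mul]
      have hZU : Commute Zi U := by
        show Zi * U = U * Zi
        calc Zi * U = Zi * U * ((V + 1) * Zi) := by rw [hZ1, mul_one]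
          _ = Zi * ((V + 1) * U) * Zi := by rw [(hVc.add_left (Commute.one_left U)).eq]; simp only [mul_assoc]
          _ = U * Zi := by rw [← mul_assoc Zi, hZ2, one_mul]
      set a : Matrix (Fin m ⊕ Fin m) (Fin m ⊕ Fin m) F := (V - 1) * Zi with ha
      have hac : Commute a U := (hVc.sub_left (Commute.one_left U)).mul_left hZU
      have hdZ : (dg V + 1) * dg Zi = 1 := by
        have := congrArg dg hZ2
        rwa [dg_mul, dg_add, dg_one] at this
      have had : dg a = -a := by
        have h1 : V * dg V = 1 := mul_eq_one_comm.1 hVV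
        have hd : dg Zi = Zi * V := by
          refine (left_inv_eq_right_inv ?_ hdZ).symm
          rw [mul_assoc, Matrix.mul_add, h1, mul_one, add_comm, hZ2]
        rw [ha, dg_mul, hd, dg_sub, dg_one, hZV]
        calc V * Zi * (dg V - 1) = (Zi * V) * (dg V - 1) := by rw [hZV]
          _ = Zi * (1 - V) := by rw [mul_assoc, Matrix.mul_sub, h1, mul_one]
          _ = (1 - V) * Zi := by rw [Matrix.mul_sub, Matrix.sub_mul, mul_one, one_mul, hZV]
          _ = _ := by rw [← neg_sub V 1, Matrix.neg_mul]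
      have haA : cay ⟨a, hac, had⟩ = V := by
        have h1 : (1 - a) * V = 1 + a := by
          have e1 : (1 : Matrix (Fin m ⊕ Fin m) (Fin m ⊕ Fin m) F) - a = (2 : F) • Zi := by
            rw [ha, Matrix.sub_mul, one_mul, two_smul]
            calc (1 : Matrix (Fin m ⊕ Fin m) (Fin m ⊕ Fin m) F) - (V * Zi - Zi) = ((V + 1) * Zi) - (V * Zi - Zi) := by rw [hZ1]
              _ = _ := by rw [Matrix.add_mul, one_mul]; abel
          have e2 : (1 : Matrix (Fin m ⊕ Fin m) (Fin m ⊕ Fin m) F) + a = (2 : F) • (V * Zi) := by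
            rw [ha, Matrix.sub_mul, one_mul, two_smul]
            calc (1 : Matrix (Fin m ⊕ Fin m) (Fin m ⊕ Fin m) F) + (V * Zi - Zi) = ((V + 1) * Zi) + (V * Zi - Zi) := by rw [hZ1]
              _ = _ := by rw [Matrix.add_mul, one_mul]; abel
          rw [e1, e2, Matrix.smul_mul, hZV]
        show inv1 ⟨a, hac, had⟩ * (1 + a) = V
        rw [← h1, ← mul_assoc]
        exact (congrArg (· * V) (hinv1 ⟨a, hac, had⟩)).trans (one_mul V)
      refine ⟨(b, ⟨a, hac, had⟩), Subtype.ext (Subtype.ext ?_)⟩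
      show sgn b • cay ⟨a, hac, had⟩ = W
      rw [haA, hb, hV, smul_smul, hcc, one_smul]
  rw [← Nat.card_eq_of_bijective Φ hΦ, Nat.card_prod, hcardA, Nat.card_eq_fintype_card, Fintype.card_bool]

end Cfsg.Agent.S2592
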