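import Cfsg.Statements.S2593
import Cfsg.Agent.Lib.Jordan.SympInvolClasses

set_option autoImplicit false
open Cfsg

namespace Cfsg.Agent.S2593

/-- Number of conjugacy classes of involutions in the symplectic group Sp_2m(F) over a finite field of characteristic two (m ≥ 1): for each s with 1 ≤ s ≤ m there is one class with rank(t − 1) = s if s is odd and two if s is even (according as v ↦ f(v, tv), f the symplectic form, vanishes identically or not), so m + ⌊m/2⌋ classes in all. -/
theorem result {F : Type*} [Field F] [Fintype F] [CharP F 2] {m : ℕ} (hm : 1 ≤ m) : Nat.card {C : ConjClasses ↥(Matrix.symplecticGroup (Fin m) F) // ∃ g : Matrix.symplecticGroup (Fin m) F, ConjClasses.mk g = C ∧ orderOf g = 2} = m + m / 2 := by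
  classical
  set J := Matrix.J (Fin m) F with hJ
  let val : ↥(Matrix.symplecticGroup (Fin m) F) → Matrix (Fin m ⊕ Fin m) (Fin m ⊕ Fin m) F := fun g => g
  let inv : ↥(Matrix.symplecticGroup (Fin m) F) → ℕ × Bool := fun g =>
    ((val g - 1).rank, decide (∀ v, dotProduct v (J.mulVec ((val g).mulVec v)) = 0))
  have hinv : ∀ g h, IsConj g h → inv g = inv h := by
    intro g h hgh
    obtain ⟨c, hc⟩ := isConj_iff.1 hgh
    have e : val c * val g = val h * val c := congrArg Subtype.val (mul_inv_eq_iff_eq_mul.1 hc)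
    have hu : IsUnit (val c).det := SymplecticGroup.symplectic_det c.2
    have hform : ∀ v, dotProduct ((val c).mulVec v) (J.mulVec ((val h).mulVec ((val c).mulVec v))) =
        dotProduct v (J.mulVec ((val g).mulVec v)) := by
      intro v
      have hc' : (val c).transpose * J * val c = J := SymplecticGroup.mem_iff'.mp c.2
      rw [Matrix.mulVec_mulVec v (val h), ← e, ← Matrix.mulVec_mulVec]
      conv_rhs => rw [← hc', ← Matrix.mulVec_mulVec, ← Matrix.mulVec_mulVec, Matrix.dotProduct_mulVec v,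
          Matrix.vecMul_transpose]
    have hsurj : Function.Surjective (fun v => (val c).mulVec v) :=
      Matrix.mulVec_surjective_iff_isUnit.mpr ((Matrix.isUnit_iff_isUnit_det _).mpr hu)
    refine Prod.ext ?_ (decide_eq_decide.mpr ⟨fun H v => ?_, fun H v => by rw [← hform]; exact H _⟩)
    · show (val g - 1).rank = (val h - 1).rank
      have e1 : val c * (val g - 1) = (val h - 1) * val c := by
        rw [mul_sub, sub_mul, mul_one, one_mul, e]
      rw [← Matrix.rank_mul_eq_right_of_isUnit_det _ (val g - 1) hu, e1,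
        Matrix.rank_mul_eq_left_of_isUnit_det _ _ hu]
    · obtain ⟨w, rfl⟩ := hsurj v
      rw [hform]; exact H w
  let f : ConjClasses ↥(Matrix.symplecticGroup (Fin m) F) → ℕ × Bool := Quotient.lift inv hinv
  let S : Finset (ℕ × Bool) := (Finset.Icc 1 m).image (fun s => (s, false)) ∪
    (Finset.Icc 1 (m / 2)).image (fun r => (2 * r, true))
  have hS : S.card = m + m / 2 := by
    rw [Finset.card_union_of_disjoint, Finset.card_image_of_injective _ (fun a b h => congrArg Prod.fst h),
      Finset.card_image_of_injective _ (fun a b h => Nat.eq_of_mul_eq_mul_left two_pos (congrArg Prod.fst h))]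
    · simp
    · rw [Finset.disjoint_left]
      intro x hx hy
      simp only [Finset.mem_image] at hx hy
      obtain ⟨a, -, rfl⟩ := hx
      obtain ⟨b, -, hb⟩ := hy
      exact Bool.noConfusion (congrArg Prod.snd hb)
  have hord : ∀ g : ↥(Matrix.symplecticGroup (Fin m) F), orderOf g = 2 ↔ g * g = 1 ∧ (val g - 1).rank ≠ 0 := by
    intro g
    constructor
    · intro hg
      refine ⟨by rw [← sq, ← hg, pow_orderOf_eq_one], fun h0 => ?_⟩
      have hb : LinearMap.range (val g - 1).mulVecLin = ⊥ := Submodule.finrank_eq_zero.mp h0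
      have hv : ∀ v, (val g - 1).mulVec v = 0 := fun v =>
        (Submodule.mem_bot F).mp (hb ▸ LinearMap.mem_range_self (val g - 1).mulVecLin v)
      have : g = 1 := Subtype.ext (sub_eq_zero.mp (show val g - 1 = 0 from Matrix.ext fun i j => by
        simpa using congrFun (hv (Pi.single j 1)) i))
      rw [this, orderOf_one] at hg
      omega
    · rintro ⟨h, h0⟩
      refine orderOf_eq_prime (by rw [sq]; exact h) fun h1 => h0 ?_
      rw [show val g = 1 from congrArg Subtype.val h1, sub_self, Matrix.rank_zero]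
  rw [← hS, ← Nat.card_eq_finsetCard]
  have hmemS : ∀ g, orderOf g = 2 → inv g ∈ S := by
    intro g hg
    obtain ⟨h1, h0⟩ := (hord g).1 hg
    obtain ⟨s, r, hs, hle, h⟩ := Cfsg.Agent.Lib.Jordan.SympInvol.shape_cases g h1
    have hs' : (val g - 1).rank = s := hs
    rw [hs'] at h0
    rw [show inv g = (s, decide (∀ v, dotProduct v (J.mulVec ((val g).mulVec v)) = 0)) from Prod.ext hs' rfl]
    rcases h with ⟨e, a, -⟩ | ⟨e, a, -⟩ | ⟨e, a, -⟩
    · rw [decide_eq_true_iff.mpr a]
      refine Finset.mem_union_right _ (Finset.mem_image.mpr ⟨r, Finset.mem_Icc.mpr ⟨by omega, by omega⟩, by rw [e]⟩)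
    all_goals
      rw [decide_eq_false_iff_not.mpr a]
      exact Finset.mem_union_left _ (Finset.mem_image.mpr ⟨s, Finset.mem_Icc.mpr ⟨by omega, hle⟩, rfl⟩)
  refine Nat.card_eq_of_bijective (fun C => (⟨f C.1, by
    obtain ⟨g, hg, ho⟩ := C.2
    rw [← hg]
    exact hmemS g ho⟩ : S)) ⟨?_, ?_⟩
  · rintro ⟨C, g, hg, ho⟩ ⟨C', g', hg', ho'⟩ h
    subst hg hg'
    have h' : inv g = inv g' := congrArg Subtype.val h
    refine Subtype.ext (ConjClasses.mk_eq_mk_iff_isConj.mpr (Cfsg.Agent.Lib.Jordan.SympInvol.isConj_of_same g g'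
      ((hord g).1 ho).1 ((hord g').1 ho').1 (congrArg Prod.fst h') ?_))
    exact decide_eq_decide.mp (congrArg Prod.snd h')
  · rintro ⟨⟨s, b⟩, hx⟩
    open Cfsg.Agent.Lib.Jordan.SympInvol Cfsg.Agent.Lib.Jordan.SymmTwo in
    have mkel : ∀ {σ : Type} [Fintype σ] [DecidableEq σ] (S0 : Matrix σ σ F), S0.transpose = S0 → IsUnit S0.det →
        1 ≤ Fintype.card σ → Fintype.card σ ≤ m → ∃ g, orderOf g = 2 ∧
          inv g = (Fintype.card σ, decide (∀ u, dotProduct u (S0.mulVec u) = 0)) := by
      intro σ _ _ S0 hsym hdet h1 h2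
      obtain ⟨U, hU⟩ := exists_elt (F := F) (m := m) (σ := σ) h2
      obtain ⟨hm, hsq⟩ := elt_mem hU hsym
      obtain ⟨hrk, halt⟩ := elt_facts hU hdet
      refine ⟨⟨_, hm⟩, (hord _).2 ⟨Subtype.ext hsq, ?_⟩, Prod.ext hrk (decide_eq_decide.mpr halt)⟩
      show (elt U S0 - 1).rank ≠ 0
      rw [hrk]; omega
    open Cfsg.Agent.Lib.Jordan.SymmTwo in
    have : ∃ g, orderOf g = 2 ∧ inv g = (s, b) := by
      simp only [S, Finset.mem_union, Finset.mem_image, Finset.mem_Icc, Prod.mk.injEq] at hx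
      rcases hx with ⟨s, ⟨h1, h2⟩, rfl, rfl⟩ | ⟨r, ⟨h1, h2⟩, rfl, rfl⟩
      · obtain ⟨r, rfl | rfl⟩ : ∃ r, s = 2 * r + 1 ∨ s = 2 * r + 2 := ⟨(s - 1) / 2, by omega⟩
        · obtain ⟨g, hg, e⟩ := mkel (SO F r) (SO_symm r) (SO_det r) (by simp) (by simp; omega)
          refine ⟨g, hg, e.trans (Prod.ext (by simp; omega) (decide_eq_false_iff_not.mpr (SO_not_alt r)))⟩
        · obtain ⟨g, hg, e⟩ := mkel (SE F r) (SE_symm r) (SE_det r) (by simp; omega) (by simp; omega)
          refine ⟨g, hg, e.trans (Prod.ext (by simp; omega) (decide_eq_false_iff_not.mpr (SE_not_alt r)))⟩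
      · obtain ⟨g, hg, e⟩ := mkel (SA F r) (SA_symm r) (SA_det r) (by simp; omega) (by simp; omega)
        refine ⟨g, hg, e.trans (Prod.ext (by simp; omega) (decide_eq_true_iff.mpr (SA_alt r)))⟩
    obtain ⟨g, hg, hgv⟩ := this
    exact ⟨⟨ConjClasses.mk g, g, rfl, hg⟩, Subtype.ext hgv⟩

end Cfsg.Agent.S2593
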