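import Cfsg.Statements.S2594
import Cfsg.Agent.Lib.Forms.TransvectionClass
import Cfsg.Agent.Lib.Classical.SympOrder

set_option autoImplicit false
open Cfsg

open Cfsg Matrix
namespace Cfsg.Agent.S2594

/-- Over a finite field with q elements, q even, an element t of Sp_2m(F) with rank(t − 1) = 1 (a symplectic transvection) has centraliser in Sp_2m(F) of order q^(2m−1) · |Sp_(2m−2)(q)| = q^(2m−1) · q^((m−1)²) · Π_(i=1)^(m−1) (q^(2i) − 1). -/
theorem result {F : Type*} [Field F] [Fintype F] [CharP F 2] {q : ℕ} (hF : Fintype.card F = q) {m : ℕ} (hm : 1 ≤ m) (t : Matrix.symplecticGroup (Fin m) F) (ht : ((t : Matrix (Fin m ⊕ Fin m) (Fin m ⊕ Fin m) F) - 1).rank = 1) : Nat.card ↥(Subgroup.centralizer ({t} : Set ↥(Matrix.symplecticGroup (Fin m) F))) = q ^ (2 * m - 1) * (q ^ ((m - 1) ^ 2) * ∏ i : Fin (m - 1), (q ^ (2 * ((i : ℕ) + 1)) - 1)) := by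
  classical
  obtain ⟨k, rfl⟩ : ∃ k, m = k + 1 := ⟨m - 1, by omega⟩
  set B := Lib.Forms.stdB (k + 1) F with hB
  have hA : B.IsAlt := Lib.Forms.stdB_isAlt (k + 1)
  have hnd : B.Nondegenerate := Lib.Forms.stdB_nondegenerate (k + 1)
  set T := Lib.Forms.spToGL (k + 1) F t with hT
  have hiso : ∀ g : ↥(Matrix.symplecticGroup (Fin (k + 1)) F), Lib.Forms.spToGL (k + 1) F g ∈ Lib.Forms.isoGroup B :=
    fun g => (Lib.Forms.mem_iso_stdB_iff (k + 1) _).2 g.2
  have h2 : (2 : F) = 0 := CharTwo.two_eq_zero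
  -- `t - 1` has rank one
  set N := (t : Matrix (Fin (k + 1) ⊕ Fin (k + 1)) (Fin (k + 1) ⊕ Fin (k + 1)) F) - 1 with hN
  obtain ⟨a, φ, ha, hNx⟩ : ∃ a φ : Fin (k + 1) ⊕ Fin (k + 1) → F, a ≠ 0 ∧ ∀ x, N *ᵥ x = (φ ⬝ᵥ x) • a := by
    rw [Matrix.rank] at ht
    obtain ⟨⟨a, ha⟩, ha0, hsp⟩ := finrank_eq_one_iff'.1 ht
    choose φ hφ using fun j => hsp ⟨N *ᵥ Pi.single j 1, ⟨_, rfl⟩⟩
    refine ⟨a, φ, by simpa using ha0, fun x => ?_⟩
    have : N = Matrix.vecMulVec a φ := by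
      ext i j
      have := congrFun (congrArg Subtype.val (hφ j)) i
      simp only [SetLike.val_smul, Matrix.mulVec_single_one, Pi.smul_apply, smul_eq_mul, Matrix.col_apply] at this
      rw [Matrix.vecMulVec_apply, ← this, mul_comm]
    rw [this, vecMulVec_mulVec, op_smul_eq_smul]
  have hTx : ∀ x, (T : Matrix _ _ F) *ᵥ x = x + (φ ⬝ᵥ x) • a := fun x => by
    rw [hT, Lib.Forms.spToGL_val, ← hNx, hN, sub_mulVec, one_mulVec, add_sub_cancel]
  obtain ⟨y, hy⟩ : ∃ y, B y a ≠ 0 := by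
    by_contra hc; push Not at hc; exact ha (hnd.2 a hc)
  have hrel : ∀ x z, (φ ⬝ᵥ z) * B x a + (φ ⬝ᵥ x) * B a z = 0 := fun x z => by
    have := Lib.Forms.mem_isoGroup.1 (hiso t) x z
    rw [← hT, hTx, hTx] at this
    simp [hA.self_eq_zero] at this
    linear_combination this
  set c := (φ ⬝ᵥ y) / B y a with hc
  have hφx : ∀ x, φ ⬝ᵥ x = c * B x a := fun x => by
    have := hrel x y
    rw [← hA.neg_eq y a] at this
    rw [hc]; field_simp
    linear_combination -this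
  have hTeq : T = Lib.Forms.sympT B a c := Lib.Forms.gl_ext fun x => by
    rw [hTx, Lib.Forms.sympT_mulVec hA, hφx]
  have hT1 : T ≠ 1 := by
    intro e
    have : N = 0 := by rw [hN, ← Lib.Forms.spToGL_val, ← hT, e, Units.val_one, sub_self]
    rw [this, Matrix.rank_zero] at ht
    exact zero_ne_one ht
  obtain ⟨s, hs⟩ : IsSquare c := FiniteField.isSquare_of_char_two (CharP.ringChar_of_prime_eq_zero Nat.prime_two h2) c
  set v := s • a with hv
  have hTv : T = Lib.Forms.sympT B v 1 := by rw [hv, Lib.Forms.sympT_smul hA, hTeq, hs, one_mul]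
  have hv0 : v ≠ 0 := fun e => hT1 (by
    rw [hTv, e]; exact Lib.Forms.gl_ext fun x => by simp [Lib.Forms.sympT_mulVec hA])
  -- the class
  have hmem : ∀ w, ∃ g : ↥(Matrix.symplecticGroup (Fin (k + 1)) F), Lib.Forms.spToGL (k + 1) F g = Lib.Forms.sympT B w 1 :=
    fun w => Lib.Forms.exists_spToGL_eq (Lib.Forms.sympT_mem hA w 1)
  choose τ hτ using hmem
  have hinj := Lib.Forms.spToGL_injective (F := F) (k + 1)
  have horb : Nat.card (MulAction.orbit (ConjAct ↥(Matrix.symplecticGroup (Fin (k + 1)) F)) t) =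
      Nat.card {w : Fin (k + 1) ⊕ Fin (k + 1) → F // w ≠ 0} := by
    have hpart : ∀ u : Fin (k + 1) ⊕ Fin (k + 1) → F, u ≠ 0 → ∃ z ∈ (⊤ : Submodule F (Fin (k + 1) ⊕ Fin (k + 1) → F)), B u z = 1 := by
      intro u hu
      obtain ⟨z, hz⟩ : ∃ z, B u z ≠ 0 := by by_contra hcc; push Not at hcc; exact hu (hnd.1 u hcc)
      exact ⟨(B u z)⁻¹ • z, trivial, by simp [hz]⟩
    have hconj : ∀ (g : ↥(Matrix.symplecticGroup (Fin (k + 1)) F)), g * t * g⁻¹ =
        τ ((Lib.Forms.spToGL (k + 1) F g : Matrix _ _ F) *ᵥ v) := fun g => hinj (by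
      rw [map_mul, map_mul, map_inv, hτ, ← hT, hTv, Lib.Forms.sympT_conj hA (hiso g)])
    refine (Nat.card_eq_of_bijective (fun w : {w : Fin (k + 1) ⊕ Fin (k + 1) → F // w ≠ 0} =>
      (⟨τ w.1, ?_⟩ : MulAction.orbit (ConjAct ↥(Matrix.symplecticGroup (Fin (k + 1)) F)) t)) ⟨?_, ?_⟩).symm
    · rw [ConjAct.mem_orbit_conjAct]
      obtain ⟨v', -, hv'⟩ := hpart v hv0
      obtain ⟨w', -, hw'⟩ := hpart w.1 w.2
      obtain ⟨g, hg, hgv, -⟩ := Lib.Forms.exists_trans_pairs hA (Lib.Forms.isoGroup B) (U := ⊤)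
        (fun x _ c => Lib.Forms.sympT_mem hA x c) (u := v) (v := v') (u' := w.1) (v' := w') trivial trivial trivial trivial hv' hw'
      obtain ⟨g', hg'⟩ := Lib.Forms.exists_spToGL_eq hg
      refine (isConj_iff.2 ⟨g', ?_⟩ : IsConj t (τ w.1)).symm
      rw [hconj, hg', hgv]
    · intro w w' e
      have e2 : ∀ x, B x w.1 • w.1 = B x w'.1 • w'.1 := fun x => by
        have := congrArg (fun g : ↥(Matrix.symplecticGroup (Fin (k + 1)) F) => ((Lib.Forms.spToGL (k + 1) F g : GL (Fin (k + 1) ⊕ Fin (k + 1)) F) : Matrix (Fin (k + 1) ⊕ Fin (k + 1)) (Fin (k + 1) ⊕ Fin (k + 1)) F) *ᵥ x) (congrArg Subtype.val e)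
        simpa [hτ, Lib.Forms.sympT_mulVec hA] using this
      obtain ⟨x, hx⟩ : ∃ x, B x w.1 ≠ 0 := by by_contra hcc; push Not at hcc; exact w.2 (hnd.2 _ hcc)
      set l := (B x w.1)⁻¹ * B x w'.1
      have hl : w.1 = l • w'.1 := by
        rw [mul_smul, ← e2, smul_smul, inv_mul_cancel₀ hx, one_smul]
      have h3 := e2 x
      rw [hl] at h3 hx
      rw [map_smul, smul_eq_mul, smul_smul] at h3
      rw [map_smul, smul_eq_mul, mul_ne_zero_iff] at hx
      have h4 := smul_left_injective F w'.2 h3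
      have hl1 : (l - 1) * (l - 1) = 0 := by
        refine (mul_eq_zero.1 (?_ : (l - 1) * (l - 1) * B x w'.1 = 0)).resolve_right hx.2
        linear_combination h4 + B x w'.1 * (1 - l) * h2
      refine Subtype.ext ?_
      rw [hl, sub_eq_zero.1 (mul_self_eq_zero.1 hl1), one_smul]
    · rintro ⟨u, hu⟩
      rw [ConjAct.mem_orbit_conjAct] at hu
      obtain ⟨g, hg⟩ := isConj_iff.1 hu.symm
      exact ⟨⟨_, fun e => hv0 (Lib.Forms.gl_mulVec_injective (Lib.Forms.spToGL (k + 1) F g) (e.trans (mulVec_zero _).symm))⟩,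
        Subtype.ext ((hconj g).symm.trans hg)⟩
  have hw : Nat.card {w : Fin (k + 1) ⊕ Fin (k + 1) → F // w ≠ 0} = q ^ (2 * (k + 1)) - 1 := by
    rw [Nat.card_eq_fintype_card, Fintype.card_subtype_compl, Fintype.card_subtype_eq, Fintype.card_fun,
      Fintype.card_sum, Fintype.card_fin, hF, two_mul]
  have hmul : Nat.card (MulAction.orbit (ConjAct ↥(Matrix.symplecticGroup (Fin (k + 1)) F)) t) *
      Nat.card ↥(Subgroup.centralizer ({t} : Set ↥(Matrix.symplecticGroup (Fin (k + 1)) F))) = Nat.card ↥(Matrix.symplecticGroup (Fin (k + 1)) F) := by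
    rw [Subgroup.nat_card_centralizer_nat_card_stabilizer,
      ← Nat.card_congr (ConjAct.toConjAct (G := ↥(Matrix.symplecticGroup (Fin (k + 1)) F))).toEquiv.symm, ← Nat.card_prod]
    exact Nat.card_congr (MulAction.orbitProdStabilizerEquivGroup _ _)
  rw [horb, hw, Lib.Classical.card_symplecticGroup, hF, Finset.prod_range_succ] at hmul
  rw [Fin.prod_univ_eq_prod_range (fun i => q ^ (2 * (i + 1)) - 1), show k + 1 - 1 = k by omega,
    show 2 * (k + 1) - 1 = 2 * k + 1 by omega]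
  have hq : 2 ≤ q := hF ▸ Fintype.one_lt_card
  refine Nat.eq_of_mul_eq_mul_left (Nat.sub_pos_of_lt (Nat.one_lt_pow (show 2 * (k + 1) ≠ 0 by omega) hq)) ?_
  rw [hmul, show (k + 1) ^ 2 = (2 * k + 1) + k ^ 2 by ring, pow_add]
  ring

end Cfsg.Agent.S2594
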