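import Cfsg.Statements.S2596
import Cfsg.Agent.Lib.Jordan.OrthInvolModels

set_option autoImplicit false
open Cfsg

namespace Cfsg.Agent.S2596

open Cfsg.Agent.Lib.Jordan.OrthInvol Cfsg.Agent.Lib.Classical.QuadOmega Cfsg.Agent.Lib.Classical.Quad


/-- Number of conjugacy classes of involutions in the full orthogonal group O⁻_2m(F) of an elliptic quadratic form (Σ_(i<m−1) x_i y_i plus an anisotropic binary form) over a finite field of characteristic two (m ≥ 1): one class for each odd s ≤ m, two for each even s with 2 ≤ s < m and one for s = m when m is even, where s = rank(t − 1); in all m + ⌊(m − 1)/2⌋. -/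
theorem result {F : Type*} [Field F] [Fintype F] [CharP F 2] {m : ℕ} (hm : 1 ≤ m) (a b : F) (hab : ∀ z₁ z₂ : F, z₁ ^ 2 + a * z₁ * z₂ + b * z₂ ^ 2 = 0 → z₁ = 0 ∧ z₂ = 0) : Nat.card {C : ConjClasses ↥(Cfsg.isometryGroup F (Cfsg.quadFormMinus (m - 1) F a b)) // ∃ g : ↥(Cfsg.isometryGroup F (Cfsg.quadFormMinus (m - 1) F a b)), ConjClasses.mk g = C ∧ orderOf g = 2} = m + (m - 1) / 2 := by
  classical
  obtain ⟨k, rfl⟩ : ∃ k, m = k + 1 := ⟨m - 1, by omega⟩
  rw [Nat.add_sub_cancel]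
  obtain ⟨e, Q, hQ, he⟩ := exists_minus_model (k := k) (a := a) (b := b) hab
  have key : Nat.card {C : ConjClasses ↥(Cfsg.isometryGroup F ⇑Q) //
      ∃ g : ↥(Cfsg.isometryGroup F ⇑Q), ConjClasses.mk g = C ∧ orderOf g = 2} = k + 1 + k / 2 := by
    refine card_classes hQ (Nat.le_succ k) (fun W hW => ?_) (fun {σ} _ _ c h => ?_)
    · rw [← LinearEquiv.finrank_map_eq e W]
      refine Cfsg.Agent.Lib.Classical.QuadF2.finrank_le_of_minus (F := F) (a := a) (b := b) hab k _ ?_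
      rintro _ ⟨w, hw, rfl⟩
      exact (he w).trans (hW w hw)
    · obtain ⟨p, h1, h2, h3⟩ := exists_family_minus (k := k) (a := a) (b := b) hab c h
      refine ⟨fun i => e.symm (p i), ?_, fun i j hij => ?_, fun i => ?_⟩
      · exact h1.map' e.symm.toLinearMap e.symm.ker
      · have hh := h2 i j hij
        rw [QuadraticMap.polar, Cfsg.Agent.Lib.Classical.QuadF2.minusQ_apply,
          Cfsg.Agent.Lib.Classical.QuadF2.minusQ_apply, Cfsg.Agent.Lib.Classical.QuadF2.minusQ_apply] at hh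
        simp only [QuadraticMap.polar, ← map_add, ← he, e.apply_symm_apply]
        exact hh
      · rw [← he, e.apply_symm_apply, ← Cfsg.Agent.Lib.Classical.QuadF2.minusQ_apply]; exact h3 i
  rw [← key]
  set Φ := transEquiv e he with hΦ
  refine Nat.card_eq_of_bijective (fun C => ⟨ConjClasses.map Φ.toMonoidHom C.1, ?_⟩) ⟨?_, ?_⟩
  · obtain ⟨g, hg, ho⟩ := C.2
    exact ⟨Φ g, by rw [← hg]; rfl, by rw [MulEquiv.orderOf_eq, ho]⟩
  · rintro ⟨C, g, rfl, ho⟩ ⟨C', g', rfl, ho'⟩ h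
    have h' : IsConj (Φ g) (Φ g') := ConjClasses.mk_eq_mk_iff_isConj.mp (congrArg Subtype.val h)
    have h'' := Φ.symm.toMonoidHom.map_isConj h'
    simp only [MulEquiv.coe_toMonoidHom, MulEquiv.symm_apply_apply] at h''
    exact Subtype.ext (ConjClasses.mk_eq_mk_iff_isConj.mpr h'')
  · rintro ⟨C, g, rfl, ho⟩
    exact ⟨⟨ConjClasses.mk (Φ.symm g), Φ.symm g, rfl, by rw [MulEquiv.orderOf_eq, ho]⟩,
      Subtype.ext (congrArg ConjClasses.mk (Φ.apply_symm_apply g))⟩

end Cfsg.Agent.S2596
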