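import Cfsg.Statements.S2597
import Cfsg.Agent.Lib.Jordan.OrthInvolInstances

set_option autoImplicit false
open Cfsg

namespace Cfsg.Agent.S2597

open Cfsg.Agent.Lib.Jordan.OrthInvol Cfsg.Agent.Lib.Classical.QuadOmega Cfsg.Agent.Lib.Classical.Quad


/-- Number of conjugacy classes of involutions in Ω⁺_2m(F) (the commutator subgroup of the orthogonal group of Σ x_i y_i) over a finite field F of characteristic two, m ≥ 1, excluding the case m = 2 over the field of two elements: the involutions of Ω are those with s = rank(t − 1) even, giving two O-classes for each even s with 2 ≤ s ≤ m, each of which is a single Ω-class except that for m even the class with s = m and v ↦ f(v, tv) identically zero splits in two; in all 2⌊m/2⌋ + 1 classes if m is even and 2⌊m/2⌋ if m is odd. -/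
theorem result {F : Type*} [Field F] [Fintype F] [CharP F 2] {m : ℕ} (hm : 1 ≤ m) (h : Fintype.card F ≠ 2 ∨ m ≠ 2) : Nat.card {C : ConjClasses ↥(Cfsg.Omega F (Cfsg.quadFormPlus m F)) // ∃ g : ↥(Cfsg.Omega F (Cfsg.quadFormPlus m F)), ConjClasses.mk g = C ∧ orderOf g = 2} = 2 * (m / 2) + (if Even m then 1 else 0) := by
  classical
  set e := LinearEquiv.refl F (Fin m ⊕ Fin m → F) with he0
  have hreg : Reg F (Fin m ⊕ Fin m → F) := reg_plus h
  have hQ := plus_std (F := F) m
  have hfam := families_plus (F := F) m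
  set X := fun x : ↥(Cfsg.isometryGroup F ⇑(plusQ m F)) =>
    ((x : GL (Fin m ⊕ Fin m) F) : Matrix (Fin m ⊕ Fin m) (Fin m ⊕ Fin m) F) with hX
  let W := fun x => LinearMap.range (X x - 1).mulVecLin
  let P : ↥(Cfsg.isometryGroup F ⇑(plusQ m F)) → Bool := fun x =>
    decide (invQ x ≠ (m, true) ∨ Even (Module.finrank F ↥(xPlane m F ⊓ W x)))
  have hsplit : ∀ x, x * x = 1 → invQ x = (m, true) → (X x - 1).rank = m ∧ ∀ v ∈ W x, plusQ m F v = 0 := by
    intro x hx hi
    refine ⟨congrArg Prod.fst hi, fun v hv => ?_⟩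
    have halt := (invQ_snd x).1 (congrArg Prod.snd hi)
    obtain ⟨r, ⟨U, hU, eU⟩ | ⟨U, hU, eU⟩ | ⟨U, hU, eU⟩⟩ := Cfsg.Agent.Lib.Jordan.OrthInvol.exists_shape hQ x hx
    · obtain ⟨w, rfl⟩ := hv
      refine (sing_of_qf hU).2 _ ⟨Matrix.mulVec (Cfsg.Agent.Lib.Jordan.SymmTwo.SA F r)
        (Matrix.mulVec U.transpose (Matrix.mulVec (Matrix.J (Fin m) F) w)), ?_⟩
      show U.mulVec _ = (X x - 1).mulVec w
      simp only [hX, eU, Cfsg.Agent.Lib.Jordan.SympInvol.elt, add_sub_cancel_left, Matrix.mulVec_mulVec,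
        Matrix.mul_assoc]
    · rw [eU] at halt
      exact absurd ((Cfsg.Agent.Lib.Jordan.SympInvol.elt_facts hU.1
        (Cfsg.Agent.Lib.Jordan.SymmTwo.SO_det r)).2.mp halt) (Cfsg.Agent.Lib.Jordan.SymmTwo.SO_not_alt r)
    · rw [eU] at halt
      exact absurd ((Cfsg.Agent.Lib.Jordan.SympInvol.elt_facts hU.1
        (Cfsg.Agent.Lib.Jordan.SymmTwo.SE_det r)).2.mp halt) (Cfsg.Agent.Lib.Jordan.SymmTwo.SE_not_alt r)
  have heven : ∀ x, invQ x = (m, true) → dickO hQ x = 1 → Even m := by
    intro x hi hd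
    have := (dickO_eq_one_iff hQ x).1 hd
    rwa [show (X x - 1).rank = m from congrArg Prod.fst hi] at this
  -- the parity decides the Dickson invariant of a conjugating element
  have hkey : ∀ c x y : ↥(Cfsg.isometryGroup F ⇑(plusQ m F)), x * x = 1 → y * y = 1 → dickO hQ x = 1 →
      invQ x = (m, true) → c * x * c⁻¹ = y → (dickO hQ c = 1 ↔ P x = P y) := by
    intro c x y hx hy hd hi hc
    have hiy : invQ y = (m, true) := (invQ_conj hQ (isConj_iff.2 ⟨c, hc⟩)).symm.trans hi
    obtain ⟨hx1, hx2⟩ := hsplit x hx hi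
    obtain ⟨hy1, hy2⟩ := hsplit y hy hiy
    obtain ⟨γ, hγ⟩ := exists_from_xPlane _ hx1 hx2
    refine (parity_conj hreg (heven x hi hd) c (X x) (X y) hx1 hx2 hy1 hy2
      (congrArg X (mul_inv_eq_iff_eq_mul.1 hc)) _ (maxTS_xPlane m) γ hγ).trans ?_
    simp only [P, hi, hiy, ne_eq, not_true_eq_false, false_or, decide_eq_decide, W]
  let T : Finset ((ℕ × Bool) × Bool) := (evenInvs m m).image (fun p => (p, true)) ∪
    (if Even m then {((m, true), false)} else ∅)
  have hT : T.card = 2 * (m / 2) + (if Even m then 1 else 0) := by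
    rw [Finset.card_union_of_disjoint, Finset.card_image_of_injective _ (fun a b h => congrArg Prod.fst h),
      card_evenInvs]
    · split_ifs <;> simp <;> omega
    · rw [Finset.disjoint_left]
      intro x hx hy
      obtain ⟨p, -, rfl⟩ := Finset.mem_image.1 hx
      split_ifs at hy <;> simp at hy
  rw [← hT]
  refine card_omega_classes hQ e (plus_he m) (mem_omega_iff_dickO hQ hreg e (plus_he m)) T (fun x => (invQ x, P x))
    ?_ ?_ ?_ ?_
  · intro c x hx hd hc
    have hi : invQ x = invQ (c * x * c⁻¹) := invQ_conj hQ (isConj_iff.2 ⟨c, rfl⟩)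
    refine Prod.ext hi.symm ?_
    by_cases hs : invQ x = (m, true)
    · exact ((hkey c x _ hx (by rw [show c * x * c⁻¹ * (c * x * c⁻¹) = c * (x * x) * c⁻¹ by group, hx]; simp)
        hd hs rfl).1 hc).symm
    · simp [P, ← hi, hs]
  · intro x y hx hy hdx _ _ _ hxy
    obtain ⟨hi, hp⟩ := Prod.ext_iff.1 hxy
    rcases odd_or_split hQ hfam.le hfam.sing x hx with hr | ⟨-, h1, h2, -⟩
    · exact conj_even hQ hr (isConj_of_invQ hQ hx hy hi)
    · have hs : invQ x = (m, true) := Prod.ext h1 ((invQ_snd x).2 h2)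
      obtain ⟨c, hc⟩ := isConj_iff.1 (isConj_of_invQ hQ hx hy hi)
      exact ⟨c, (hkey c x y hx hy hdx hs hc).2 hp, hc⟩
  · intro x hx hx1 hd
    have hmem := invQ_mem hQ hfam hx hx1 hd
    by_cases hp : P x = true
    · exact Finset.mem_union_left _ (Finset.mem_image.2 ⟨_, hmem, by rw [hp]⟩)
    · have hs : invQ x = (m, true) := by
        by_contra hs
        exact hp (decide_eq_true (Or.inl hs))
      refine Finset.mem_union_right _ ?_
      rw [if_pos (heven x hs hd)]
      exact Finset.mem_singleton.2 (Prod.ext hs (Bool.eq_false_iff.2 hp))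
  · intro p hp
    have flip : ∀ x : ↥(Cfsg.isometryGroup F ⇑(plusQ m F)), x * x = 1 → x ≠ 1 → dickO hQ x = 1 →
        invQ x = (m, true) → ∀ b : Bool, ∃ y : ↥(Cfsg.isometryGroup F ⇑(plusQ m F)), y * y = 1 ∧ y ≠ 1 ∧
          dickO hQ y = 1 ∧ (invQ y, P y) = ((m, true), b) := by
      intro x hx hx1 hd hi b
      by_cases hb : P x = b
      · exact ⟨x, hx, hx1, hd, by rw [hi, hb]⟩
      · obtain ⟨r, hr⟩ := exists_odd hQ hm
        have hy : r * x * r⁻¹ * (r * x * r⁻¹) = 1 := by
          rw [show r * x * r⁻¹ * (r * x * r⁻¹) = r * (x * x) * r⁻¹ by group, hx]; simp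
        have hne : P x ≠ P (r * x * r⁻¹) := fun h => by
          have := (hkey r x _ hx hy hd hi rfl).2 h
          rw [hr] at this
          exact absurd this (by decide)
        refine ⟨r * x * r⁻¹, hy, fun h => hx1 (conj_eq_one_iff.1 h), by simp [hd], Prod.ext
          ((invQ_conj hQ (isConj_iff.2 ⟨r, rfl⟩)).symm.trans hi) ?_⟩
        show P (r * x * r⁻¹) = b
        cases hPx : P x <;> cases hPy : P (r * x * r⁻¹) <;> cases b <;> simp_all
    rcases Finset.mem_union.1 hp with hp | hp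
    · obtain ⟨i, hi, rfl⟩ := Finset.mem_image.1 hp
      obtain ⟨x, hx, hx1, hd, rfl⟩ := exists_of_evenInvs hQ hfam hi
      by_cases hs : invQ x = (m, true)
      · rw [hs]; exact flip x hx hx1 hd hs true
      · exact ⟨x, hx, hx1, hd, Prod.ext rfl (decide_eq_true (Or.inl hs))⟩
    · split_ifs at hp with hev
      · rw [Finset.mem_singleton] at hp
        subst hp
        obtain ⟨t, ht⟩ := hev
        obtain ⟨x, hx, hx1, hd, hxi⟩ := exists_of_evenInvs hQ hfam (p := (m, true)) (by
          refine Finset.mem_union_right _ (Finset.mem_image.2 ⟨t, Finset.mem_Icc.2 ⟨by omega, by omega⟩, ?_⟩)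
          rw [ht]; congr 1; omega)
        exact flip x hx hx1 hd hxi false
      · simp at hp

end Cfsg.Agent.S2597
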