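import Cfsg.Statements.S2598
import Cfsg.Agent.Lib.Jordan.OrthInvolInstances

set_option autoImplicit false
open Cfsg

namespace Cfsg.Agent.S2598

open Cfsg.Agent.Lib.Jordan.OrthInvol Cfsg.Agent.Lib.Classical.QuadOmega Cfsg.Agent.Lib.Classical.Quad


/-- Number of conjugacy classes of involutions in Ω⁻_2m(F) (the commutator subgroup of the orthogonal group of an elliptic quadratic form, Σ_(i<m−1) x_i y_i plus an anisotropic binary form) over a finite field F of characteristic two, m ≥ 1: the involutions of Ω are those with s = rank(t − 1) even, one O-class for each even s with 2 ≤ s ≤ m on which v ↦ f(v, tv) is not identically zero and one for each even s with 2 ≤ s < m on which it is zero (f the polar form; in characteristic 2, f(v, tv) = Q(v + tv)), none of which splits in Ω; in all ⌊m/2⌋ + ⌊(m − 1)/2⌋. -/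
theorem result {F : Type*} [Field F] [Fintype F] [CharP F 2] {m : ℕ} (hm : 1 ≤ m) (a b : F) (hab : ∀ z₁ z₂ : F, z₁ ^ 2 + a * z₁ * z₂ + b * z₂ ^ 2 = 0 → z₁ = 0 ∧ z₂ = 0) : Nat.card {C : ConjClasses ↥(Cfsg.Omega F (Cfsg.quadFormMinus (m - 1) F a b)) // ∃ g : ↥(Cfsg.Omega F (Cfsg.quadFormMinus (m - 1) F a b)), ConjClasses.mk g = C ∧ orderOf g = 2} = m / 2 + (m - 1) / 2 := by
  classical
  obtain ⟨k, rfl⟩ : ∃ k, m = k + 1 := ⟨m - 1, by omega⟩
  rw [Nat.add_sub_cancel]
  obtain ⟨e, Q, hQ, he⟩ := exists_minus_model (k := k) (a := a) (b := b) hab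
  have hfam := families_minus (a := a) (b := b) hab e he
  rw [← card_evenInvs (k + 1) k]
  refine card_omega_classes hQ e he (mem_omega_minus (a := a) (b := b) hab hQ e he) _ invQ
    (fun c x _ _ _ => (invQ_conj hQ (isConj_iff.2 ⟨c, rfl⟩)).symm) ?_ (fun x hx hx1 hd => invQ_mem hQ hfam hx hx1 hd)
    (fun p hp => exists_of_evenInvs hQ hfam hp)
  intro x y hx hy _ _ _ _ h
  rcases odd_or_split hQ hfam.le hfam.sing x hx with hr | ⟨hk, -⟩
  · exact conj_even hQ hr (isConj_of_invQ hQ hx hy h)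
  · omega

end Cfsg.Agent.S2598
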