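import Cfsg.Statements.S2599

set_option autoImplicit false
open Cfsg

namespace Cfsg.Agent.S2599

/-- An irreducible invariant subspace of a semisimple isometry is non-degenerate or totally singular: let Q be a quadratic form on F^n (F finite of characteristic p) with non-degenerate polar form f, x an isometry of Q of order prime to p, and U a non-zero x-invariant subspace containing no x-invariant subspace other than 0 and U. Then U meets its f-orthogonal trivially, or Q vanishes on U, or p = 2, U is a line spanned by a non-singular vector and x fixes U pointwise. -/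
theorem result {F : Type*} [Field F] [Fintype F] {p : ℕ} [Fact p.Prime] [CharP F p] {n : ℕ} (Q : QuadraticForm F (Fin n → F)) (hQ : (QuadraticMap.polarBilin Q).Nondegenerate) (x : ↥(Cfsg.isometryGroup F ⇑Q)) (hx : (orderOf x).Coprime p) (U : Submodule F (Fin n → F)) (hU0 : U ≠ ⊥) (hUx : ∀ u ∈ U, ((x : Matrix.GeneralLinearGroup (Fin n) F) : Matrix (Fin n) (Fin n) F).mulVec u ∈ U) (hirr : ∀ W : Submodule F (Fin n → F), W ≤ U → (∀ w ∈ W, ((x : Matrix.GeneralLinearGroup (Fin n) F) : Matrix (Fin n) (Fin n) F).mulVec w ∈ W) → W = ⊥ ∨ W = U) : U ⊓ LinearMap.BilinForm.orthogonal (QuadraticMap.polarBilin Q) U = ⊥ ∨ (∀ u ∈ U, Q u = 0) ∨ (p = 2 ∧ Module.finrank F U = 1 ∧ (∃ u ∈ U, Q u ≠ 0) ∧ ∀ u ∈ U, ((x : Matrix.GeneralLinearGroup (Fin n) F) : Matrix (Fin n) (Fin n) F).mulVec u = u) := by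
  classical
  set M : Matrix (Fin n) (Fin n) F := ((x : Matrix.GeneralLinearGroup (Fin n) F) : Matrix (Fin n) (Fin n) F) with hM
  have hQM : ∀ v, Q (M.mulVec v) = Q v := fun v => x.2 v v
  set B := QuadraticMap.polarBilin Q with hB
  have hBM : ∀ v w, B (M.mulVec v) (M.mulVec w) = B v w := by
    intro v w
    simp only [hB, QuadraticMap.polarBilin_apply_apply, QuadraticMap.polar]
    rw [← Matrix.mulVec_add, hQM, hQM, hQM]
  have hinjM : Function.Injective (fun v => M.mulVec v) :=
    Matrix.mulVec_injective_of_isUnit ⟨(x : Matrix.GeneralLinearGroup (Fin n) F), rfl⟩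
  set R := U ⊓ LinearMap.BilinForm.orthogonal B U with hR
  have hRinv : ∀ u ∈ R, M.mulVec u ∈ R := by
    intro u hu
    refine ⟨hUx u hu.1, ?_⟩
    intro w hw
    obtain ⟨⟨w', hw'⟩, hww⟩ := LinearMap.surjective_of_injective
      (f := (Matrix.mulVecLin M).restrict hUx)
      (fun a b h => Subtype.ext (hinjM (congrArg Subtype.val h))) ⟨w, hw⟩
    show B w (M.mulVec u) = 0
    rw [← show M.mulVec w' = w from congrArg Subtype.val hww, hBM]
    exact hu.2 w' hw'
  rcases hirr R inf_le_left hRinv with h | h
  · exact Or.inl h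
  right
  have hperp : ∀ u ∈ U, ∀ w ∈ U, QuadraticMap.polar Q u w = 0 := by
    intro u hu w hw
    have hwR : w ∈ R := h ▸ hw
    exact hwR.2 u hu
  have hadd : ∀ u ∈ U, ∀ w ∈ U, Q (u + w) = Q u + Q w := by
    intro u hu w hw
    have := hperp u hu w hw
    rw [QuadraticMap.polar] at this
    linear_combination this
  by_cases hp : p = 2
  · subst hp
    have h2 : (2 : F) = 0 := CharTwo.two_eq_zero
    let K : Submodule F (Fin n → F) :=
      { carrier := {u | u ∈ U ∧ Q u = 0}
        add_mem' := fun {a b} ha hb => ⟨add_mem ha.1 hb.1, by rw [hadd a ha.1 b hb.1, ha.2, hb.2, add_zero]⟩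
        zero_mem' := ⟨zero_mem _, QuadraticMap.map_zero Q⟩
        smul_mem' := fun c a ha => ⟨U.smul_mem c ha.1, by rw [QuadraticMap.map_smul, ha.2, smul_zero]⟩ }
    rcases hirr K (fun u hu => hu.1) (fun u hu => ⟨hUx u hu.1, (hQM u).trans hu.2⟩) with hK | hK
    · right
      have hne : ∀ u ∈ U, u ≠ 0 → Q u ≠ 0 := by
        intro u hu h0 hq
        have : u ∈ K := ⟨hu, hq⟩
        rw [hK] at this
        exact h0 ((Submodule.mem_bot F).1 this)
      obtain ⟨u, hu, hu0⟩ := (Submodule.ne_bot_iff U).1 hU0
      have hsq : ∀ c : F, ∃ y : F, y * y = c := fun c =>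
        (FiniteField.isSquare_of_char_two (ringChar.eq F 2) c).imp fun y hy => hy.symm
      have hspan : ∀ w ∈ U, ∃ c : F, w = c • u := by
        intro w hw
        obtain ⟨c, hc⟩ := hsq (Q w / Q u)
        refine ⟨c, ?_⟩
        by_contra hwc
        refine hne (w + c • u) (add_mem hw (U.smul_mem c hu)) ?_ ?_
        · intro h0
          apply hwc
          have hcc : c + c = 0 := CharTwo.add_self_eq_zero c
          calc w = (w + c • u) + c • u - (c + c) • u := by rw [add_smul]; abel
            _ = c • u := by rw [h0, hcc, zero_smul, zero_add, sub_zero]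
        · rw [hadd w hw _ (U.smul_mem c hu), QuadraticMap.map_smul, smul_eq_mul, hc,
            div_mul_cancel₀ _ (hne u hu hu0)]
          exact CharTwo.add_self_eq_zero _
      refine ⟨rfl, finrank_eq_one ⟨u, hu⟩ (by simpa using hu0) ?_, ⟨u, hu, hne u hu hu0⟩, ?_⟩
      · rintro ⟨w, hw⟩
        obtain ⟨c, rfl⟩ := hspan w hw
        exact ⟨c, rfl⟩
      · intro w hw
        by_cases hw0 : w = 0
        · simp [hw0]
        obtain ⟨c, hc⟩ := hspan w hw
        obtain ⟨d, hd⟩ := hspan _ (hUx w hw)
        have hq := hQM w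
        have hc0 : c ≠ 0 := by rintro rfl; simp [hw0] at hc
        rw [hd, hc, QuadraticMap.map_smul, QuadraticMap.map_smul, smul_eq_mul, smul_eq_mul] at hq
        have h3 : d * d = c * c := mul_right_cancel₀ (hne u hu hu0) hq
        have h4 : (d + c) * (d + c) = 0 := by linear_combination h3 + (d * c + c * c) * h2
        have h5 : d = c := by linear_combination mul_self_eq_zero.1 h4 - c * h2
        rw [hd, h5, ← hc]
    · left
      intro u hu
      rw [← hK] at hu
      exact hu.2
  · left
    intro u hu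
    have h2 : (2 : F) ≠ 0 := by
      intro h0
      exact hp ((CharP.ringChar_of_prime_eq_zero Nat.prime_two (by exact_mod_cast h0)).symm.trans (ringChar.eq F p)).symm
    have := hperp u hu u hu
    rw [QuadraticMap.polar_self, nsmul_eq_mul] at this
    simpa [h2] using this

end Cfsg.Agent.S2599
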