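import Cfsg.Statements.S2610
import Cfsg.Agent.Lib.Classical.QuadOmega.Disc

open Cfsg.Agent.Lib.Classical.QuadOmega Cfsg.Agent.Lib.Classical.Quad QuadraticMap

set_option autoImplicit false
open Cfsg

namespace Cfsg.Agent.S2610

/-- For a quadratic form Q on F^n with non-degenerate polar form, F finite of odd order and n ≥ 2 even, the isometry −1 lies in Ω (the commutator subgroup of the orthogonal group) if and only if the discriminant of Q (the determinant of the Gram matrix of its polar form) is a square. -/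
theorem result {F : Type*} [Field F] [Fintype F] (h2 : (2 : F) ≠ 0) {n : ℕ} (hn : 2 ≤ n) (he : Even n) (Q : QuadraticForm F (Fin n → F)) (hQ : (QuadraticMap.polarBilin Q).Nondegenerate) : (∃ g : ↥(Cfsg.isometryGroup F ⇑Q), g ∈ Cfsg.Omega F ⇑Q ∧ ((g : Matrix.GeneralLinearGroup (Fin n) F) : Matrix (Fin n) (Fin n) F) = -1) ↔ IsSquare (Matrix.of (fun i j : Fin n => QuadraticMap.polar ⇑Q (Pi.single i 1) (Pi.single j 1))).det := by
  have hne : ∀ v, (LinearEquiv.refl F (Fin n → F)) ((negOne Q).1 v) =
      (-1 : Matrix (Fin n) (Fin n) F).mulVec (LinearEquiv.refl F (Fin n → F) v) := fun v => by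
    rw [Matrix.neg_mulVec, Matrix.one_mulVec, negOne_apply]; rfl
  rw [exists_omega_matrix_iff ⇑Q (LinearEquiv.refl F _) (fun v => rfl) (-1) (negOne Q) hne,
    negOne_mem_iff_disc (nd_of_nondegenerate hQ) h2 he (Pi.basisFun F (Fin n))]
  simp only [Pi.basisFun_apply]

end Cfsg.Agent.S2610
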