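import Cfsg.Statements.S2611
import Cfsg.Agent.Lib.Classical.QuadOmega.Disc

open Cfsg.Agent.Lib.Classical.QuadOmega Cfsg.Agent.Lib.Classical.Quad QuadraticMap

set_option autoImplicit false
open Cfsg

namespace Cfsg.Agent.S2611

/-- For the hyperbolic quadratic form Σ x_i y_i on F^(2m) (F finite, m ≥ 1, excluding m = 2 over the field of two elements) and an invertible m × m matrix A, the block-diagonal isometry diag(A, (A⁻¹)ᵀ), which stabilises the two maximal totally singular subspaces x = 0 and y = 0, lies in Ω⁺_2m(F) (the commutator subgroup of the orthogonal group) if and only if det A is a square in F. -/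
theorem result {F : Type*} [Field F] [Fintype F] {m : ℕ} (hm : 1 ≤ m) (h : Fintype.card F ≠ 2 ∨ m ≠ 2) (A : GL (Fin m) F) : (∃ g : ↥(Cfsg.isometryGroup F (Cfsg.quadFormPlus m F)), g ∈ Cfsg.Omega F (Cfsg.quadFormPlus m F) ∧ ((g : Matrix.GeneralLinearGroup (Fin m ⊕ Fin m) F) : Matrix (Fin m ⊕ Fin m) (Fin m ⊕ Fin m) F) = Matrix.fromBlocks (A : Matrix (Fin m) (Fin m) F) 0 0 ((A : Matrix (Fin m) (Fin m) F)⁻¹).transpose) ↔ IsSquare (A : Matrix (Fin m) (Fin m) F).det := by
  rw [exists_omega_matrix_iff _ (ePlus m) (plus_apply m) _ (glHom m (zeroQ F) A) (fun v => by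
    rw [glHom_apply]
    ext (i | i)
    · simp [ePlus, Matrix.fromBlocks_mulVec, Function.comp_def]
    · simp [ePlus, Matrix.fromBlocks_mulVec, Function.comp_def, Matrix.mulVec_transpose,
        Matrix.coe_units_inv])]
  refine glHom_mem_iff nd_zeroQ m ?_ A
  rcases h with h | h
  · have := Fintype.one_lt_card (α := F)
    exact Or.inl (by omega)
  · refine Or.inr ?_
    rw [Module.finrank_prod, Module.finrank_prod, Module.finrank_fin_fun, Module.finrank_fin_fun]
    omega

end Cfsg.Agent.S2611
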