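import Cfsg.Statements.S2612
import Cfsg.Agent.Lib.Classical.QuadOmega.SingularApply

open Cfsg.Agent.Lib.Classical.QuadOmega Cfsg.Agent.Lib.Classical.Quad QuadraticMap

set_option autoImplicit false
open Cfsg

namespace Cfsg.Agent.S2612

/-- For the hyperbolic quadratic form Σ x_i y_i on F^(2m) (F finite, m ≥ 1, excluding m = 2 over the field of two elements), Ω⁺_2m(F) (the commutator subgroup of the orthogonal group) contains an element interchanging the two complementary maximal totally singular subspaces {y = 0} and {x = 0} if and only if m is even (dimension divisible by 4). -/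
theorem result {F : Type*} [Field F] [Fintype F] {m : ℕ} (hm : 1 ≤ m) (h : Fintype.card F ≠ 2 ∨ m ≠ 2) : (∃ g : ↥(Cfsg.isometryGroup F (Cfsg.quadFormPlus m F)), g ∈ Cfsg.Omega F (Cfsg.quadFormPlus m F) ∧ (∀ v : Fin m ⊕ Fin m → F, (∀ i, v (Sum.inr i) = 0) → ∀ i, (((g : Matrix.GeneralLinearGroup (Fin m ⊕ Fin m) F) : Matrix (Fin m ⊕ Fin m) (Fin m ⊕ Fin m) F).mulVec v) (Sum.inl i) = 0) ∧ (∀ v : Fin m ⊕ Fin m → F, (∀ i, v (Sum.inl i) = 0) → ∀ i, (((g : Matrix.GeneralLinearGroup (Fin m ⊕ Fin m) F) : Matrix (Fin m ⊕ Fin m) (Fin m ⊕ Fin m) F).mulVec v) (Sum.inr i) = 0)) ↔ Even m := by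
  classical
  have hreg := reg_plus (F := F) h
  have hnd := nd_plusQ (F := F) m
  set E := isoEquiv (Cfsg.quadFormPlus m F) (LinearEquiv.refl F _) (fun v => (plusQ_apply m v).symm)
    with hE
  constructor
  · rintro ⟨g, hg, hx, -⟩
    rw [mem_omega_iff (Cfsg.quadFormPlus m F) (LinearEquiv.refl F _)
      (fun v => (plusQ_apply m v).symm)] at hg
    have hd : dick hnd (E g) = (-1) ^ m := dick_interchange hreg (E g) fun v hv =>
      mem_yPlane.2 fun i => hx v (mem_xPlane.1 hv) i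
    rw [commutator_le_ker (dick hnd) hg] at hd
    rcases Nat.even_or_odd m with he | ho
    · exact he
    · rw [ho.neg_one_pow] at hd; exact absurd hd (by decide)
  · intro hm2
    -- the swap
    let s : (Fin m ⊕ Fin m → F) ≃ₗ[F] (Fin m ⊕ Fin m → F) :=
      LinearEquiv.funCongrLeft F F (Equiv.sumComm (Fin m) (Fin m))
    have hs : ∀ v, plusQ m F (s v) = plusQ m F v := fun v => by
      simp [plusQ_apply, Cfsg.quadFormPlus, s, mul_comm]
    let σ : isoG (plusQ m F) := ⟨s, hs⟩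
    have hσ : ∀ v, σ.1 v = fun i => v i.swap := fun v => rfl
    have hσx : ∀ v ∈ xPlane m F, σ.1 v ∈ yPlane m F := fun v hv =>
      mem_yPlane.2 fun i => mem_xPlane.1 hv i
    have hσy : ∀ v ∈ yPlane m F, σ.1 v ∈ xPlane m F := fun v hv =>
      mem_xPlane.2 fun i => mem_yPlane.1 hv i
    set i₀ : Fin m := ⟨0, hm⟩
    set e : Fin m ⊕ Fin m → F := Pi.single (.inl i₀) 1 with he
    set f : Fin m ⊕ Fin m → F := Pi.single (.inr i₀) 1 with hf
    have heQ : plusQ m F e = 0 := by simp [plusQ_apply, Cfsg.quadFormPlus, he]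
    have hfQ : plusQ m F f = 0 := by simp [plusQ_apply, Cfsg.quadFormPlus, hf]
    have hef : polar (plusQ m F) e f = 1 := by simp [polar_plusQ, he, hf, Pi.single_apply]
    obtain ⟨hh, hS, hmem⟩ := exists_mul_mem_commutator hnd hreg σ
      (stabS (plusQ m F) (xPlane m F) ⊓ stabS (plusQ m F) (yPlane m F))
      (Or.inl (by rw [dick_interchange hreg σ hσx, hm2.neg_one_pow])) (by
      rcases eq_or_ne (2 : F) 0 with h2 | h2
      · exact Or.inl h2
      obtain ⟨ν, hν0, -, hνc, -⟩ := exists_nu (F := F)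
      obtain ⟨d1, d2⟩ := invs_pairScale hnd heQ hfQ hef hν0
      refine Or.inr ⟨pairScale (plusQ m F) e f ν,
        ⟨mem_stabS_of_le fun p hp => ?_, mem_stabS_of_le fun p hp => ?_⟩, d1, ?_⟩
      · rw [pairScale_apply heQ hfQ hef hν0]
        refine mem_xPlane.2 fun i => ?_
        simp [polar_plusQ, he, hf, Pi.single_apply, mem_xPlane.1 hp]
      · rw [pairScale_apply heQ hfQ hef hν0]
        refine mem_yPlane.2 fun i => ?_
        simp [polar_plusQ, he, hf, Pi.single_apply, mem_yPlane.1 hp]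
      · rw [d2 h2, sqSign, if_neg (quadraticChar_neg_one_iff_not_isSquare.1 (hνc h2))])
    obtain ⟨hS1, hS2⟩ := hS
    refine ⟨E.symm (hh * σ), ?_, fun v hv i => ?_, fun v hv i => ?_⟩
    · rwa [mem_omega_iff (Cfsg.quadFormPlus m F) (LinearEquiv.refl F _)
        (fun v => (plusQ_apply m v).symm), MulEquiv.apply_symm_apply]
    · have hmemY : (hh * σ).1 v ∈ yPlane m F :=
        hS2 ▸ mem_imgS.2 ⟨_, hσx v (mem_xPlane.2 hv), rfl⟩
      rw [← E.apply_symm_apply (hh * σ)] at hmemY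
      exact mem_yPlane.1 hmemY i
    · have hmemX : (hh * σ).1 v ∈ xPlane m F :=
        hS1 ▸ mem_imgS.2 ⟨_, hσy v (mem_yPlane.2 hv), rfl⟩
      rw [← E.apply_symm_apply (hh * σ)] at hmemX
      exact mem_xPlane.1 hmemX i

end Cfsg.Agent.S2612
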