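import Cfsg.Statements.S2613
import Cfsg.Agent.Lib.Classical.QuadOmega.Disc

open Cfsg.Agent.Lib.Classical.QuadOmega Cfsg.Agent.Lib.Classical.Quad QuadraticMap

set_option autoImplicit false
open Cfsg

namespace Cfsg.Agent.S2613

/-- For the hyperbolic form Σ x_j y_j on F^(2m), F finite with q elements, q odd, and 1 ≤ i ≤ m: the involution negating the first i hyperbolic pairs (x_j, y_j ↦ −x_j, −y_j for j < i) and fixing the rest lies in Ω⁺_2m(q) (commutator subgroup of the orthogonal group) if and only if q^i ≡ 1 (mod 4); its (−1)-eigenspace is a hyperbolic 2i-space. -/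
theorem result {F : Type*} [Field F] [Fintype F] {q : ℕ} (hF : Fintype.card F = q) (hq : Odd q) {m : ℕ} (i : ℕ) (hi : 1 ≤ i) (him : i ≤ m) : (∃ g : ↥(Cfsg.isometryGroup F (Cfsg.quadFormPlus m F)), g ∈ Cfsg.Omega F (Cfsg.quadFormPlus m F) ∧ ((g : Matrix.GeneralLinearGroup (Fin m ⊕ Fin m) F) : Matrix (Fin m ⊕ Fin m) (Fin m ⊕ Fin m) F) = Matrix.diagonal (fun k : Fin m ⊕ Fin m => if (Sum.elim (fun j : Fin m => (j : ℕ)) (fun j : Fin m => (j : ℕ)) k) < i then (-1 : F) else 1)) ↔ q ^ i % 4 = 1 := by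
  have h2 : (2 : F) ≠ 0 := two_ne_zero_of_odd (hF ▸ hq)
  rw [exists_omega_matrix_iff _ (ePlus m) (plus_apply m) _
    (scaleHom m (zeroQ F) fun j => if (j : ℕ) < i then -1 else 1) (fun v => by
      rw [scaleHom_apply]
      ext (j | j) <;> rw [Matrix.mulVec_diagonal] <;> by_cases hj : (j : ℕ) < i <;>
        simp [ePlus, hj]), scaleHom_mem_iff nd_zeroQ h2, prod_negFirst m i him]
  exact isSquare_neg_one_pow hF hq i

end Cfsg.Agent.S2613
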