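import Cfsg.Statements.S2614
import Cfsg.Agent.Lib.Classical.QuadOmega.Disc

open Cfsg.Agent.Lib.Classical.QuadOmega Cfsg.Agent.Lib.Classical.Quad QuadraticMap

set_option autoImplicit false
open Cfsg

namespace Cfsg.Agent.S2614

/-- For the form x_0² + Σ x_j y_j on F^(2m+1), F finite with q elements, q odd, and 1 ≤ i ≤ m: the involution of determinant one negating the first i hyperbolic pairs (and fixing x_0 and the other pairs) lies in Ω_(2m+1)(q) (commutator subgroup of the orthogonal group) if and only if q^i ≡ 1 (mod 4); its (−1)-eigenspace is a hyperbolic 2i-space. -/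
theorem result {F : Type*} [Field F] [Fintype F] {q : ℕ} (hF : Fintype.card F = q) (hq : Odd q) {m : ℕ} (i : ℕ) (hi : 1 ≤ i) (him : i ≤ m) : (∃ g : ↥(Cfsg.isometryGroup F (Cfsg.quadFormOdd m F)), g ∈ Cfsg.Omega F (Cfsg.quadFormOdd m F) ∧ ((g : Matrix.GeneralLinearGroup (Unit ⊕ (Fin m ⊕ Fin m)) F) : Matrix (Unit ⊕ (Fin m ⊕ Fin m)) (Unit ⊕ (Fin m ⊕ Fin m)) F) = Matrix.diagonal (fun k : Unit ⊕ (Fin m ⊕ Fin m) => if (Sum.elim (fun _ : Unit => i) (Sum.elim (fun j : Fin m => (j : ℕ)) (fun j : Fin m => (j : ℕ))) k) < i then (-1 : F) else 1)) ↔ q ^ i % 4 = 1 := by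
  have h2 : (2 : F) ≠ 0 := two_ne_zero_of_odd (hF ▸ hq)
  rw [exists_omega_matrix_iff _ (eOdd m) (odd_apply m) _
    (scaleHom m (sqQ F) fun j => if (j : ℕ) < i then -1 else 1) (fun v => by
      have hE : ∀ p : ((Fin m → F) × (Fin m → F)) × (Unit → F), eOdd m p = Sum.elim p.2 (Sum.elim p.1.1 p.1.2) := fun p => rfl
      rw [scaleHom_apply, hE, hE]
      ext (u | j | j) <;> rw [Matrix.mulVec_diagonal]
      · simp
      all_goals by_cases hj : (j : ℕ) < i <;> simp [hj]),
    scaleHom_mem_iff (nd_sqQ h2) h2, prod_negFirst m i him]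
  exact isSquare_neg_one_pow hF hq i

end Cfsg.Agent.S2614
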