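import Cfsg.Statements.S2616
import Cfsg.Agent.Lib.Classical.QuadOmega.Normal

open QuadraticMap Cfsg.Agent.Lib.Classical.QuadOmega

set_option autoImplicit false
open Cfsg

namespace Cfsg.Agent.S2616

/-- Standard bases of a non-degenerate quadratic space of even dimension 2m over a finite field: either there is a hyperbolic basis e_i, f_i (Q(e_i) = Q(f_i) = 0, B(e_i, f_j) = δ_ij, the e's pairwise orthogonal and the f's pairwise orthogonal, B the polar form), or there is an elliptic basis: hyperbolic pairs e_i, f_i for i < m − 1 together with x, y orthogonal to them with Q(x) = 1, B(x, y) = 1, Q(y) = ζ where t² + t + ζ has no root in the field. -/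
theorem result {F V : Type*} [Field F] [Finite F] [AddCommGroup V] [Module F V] [FiniteDimensional F V] {m : ℕ} (hm : 1 ≤ m) (hV : Module.finrank F V = 2 * m) (Q : QuadraticForm F V) (hQ : (QuadraticMap.polarBilin Q).Nondegenerate) : (∃ b : Module.Basis (Fin m ⊕ Fin m) F V, (∀ i, Q (b (Sum.inl i)) = 0 ∧ Q (b (Sum.inr i)) = 0) ∧ (∀ i j, QuadraticMap.polar ⇑Q (b (Sum.inl i)) (b (Sum.inr j)) = if i = j then 1 else 0) ∧ (∀ i j, QuadraticMap.polar ⇑Q (b (Sum.inl i)) (b (Sum.inl j)) = 0 ∧ QuadraticMap.polar ⇑Q (b (Sum.inr i)) (b (Sum.inr j)) = 0)) ∨ (∃ (b : Module.Basis ((Fin (m - 1) ⊕ Fin (m - 1)) ⊕ Fin 2) F V) (ζ : F), (∀ t : F, t ^ 2 + t + ζ ≠ 0) ∧ (∀ i, Q (b (Sum.inl (Sum.inl i))) = 0 ∧ Q (b (Sum.inl (Sum.inr i))) = 0) ∧ (∀ i j, QuadraticMap.polar ⇑Q (b (Sum.inl (Sum.inl i))) (b (Sum.inl (Sum.inr j))) = if i = j then 1 else 0) ∧ (∀ i j, QuadraticMap.polar ⇑Q (b (Sum.inl (Sum.inl i))) (b (Sum.inl (Sum.inl j))) = 0 ∧ QuadraticMap.polar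 ⇑Q (b (Sum.inl (Sum.inr i))) (b (Sum.inl (Sum.inr j))) = 0) ∧ (∀ i (k : Fin 2), QuadraticMap.polar ⇑Q (b (Sum.inl (Sum.inl i))) (b (Sum.inr k)) = 0 ∧ QuadraticMap.polar ⇑Q (b (Sum.inl (Sum.inr i))) (b (Sum.inr k)) = 0) ∧ Q (b (Sum.inr 0)) = 1 ∧ QuadraticMap.polar ⇑Q (b (Sum.inr 0)) (b (Sum.inr 1)) = 1 ∧ Q (b (Sum.inr 1)) = ζ) := by
  have : Fintype F := Fintype.ofFinite F
  have hN : Nd Q := nd_of_nondegenerate hQ
  obtain ⟨k, rfl⟩ := Nat.exists_eq_add_of_le' hm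
  rcases exists_normal_even k hN (by omega) with ⟨e, he⟩ | ⟨ζ, hζ, e, he⟩
  · left
    have hb : ∀ i, ((Pi.basisFun F _).map e) i = e (Pi.single i 1) := fun i => by simp
    have hp : ∀ x y, polar Q (e x) (e y) =
        (∑ i, x (.inl i) * y (.inr i)) + ∑ i, y (.inl i) * x (.inr i) := fun x y => by
      rw [polar_of_eq e he, ← polar_formPlus x y]
      rfl
    refine ⟨(Pi.basisFun F _).map e, fun i => ?_, fun i j => ?_, fun i j => ?_⟩ <;>
      simp [hb, he, hp, Cfsg.quadFormPlus, Pi.single_apply, eq_comm]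
  · right
    have hb : ∀ i, ((Pi.basisFun F _).map e) i = e (Pi.single i 1) := fun i => by simp
    have hp : ∀ x y, polar Q (e x) (e y) =
        ((∑ i, x (.inl (.inl i)) * y (.inl (.inr i))) + ∑ i, y (.inl (.inl i)) * x (.inl (.inr i))) +
          (2 * x (.inr 0) * y (.inr 0) + (x (.inr 0) * y (.inr 1) + x (.inr 1) * y (.inr 0)) +
            2 * ζ * x (.inr 1) * y (.inr 1)) := fun x y => by
      rw [polar_of_eq e he, ← polar_formPlus (fun i => x (.inl i)) (fun i => y (.inl i))]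
      simp only [Cfsg.quadFormMinus, Pi.add_apply]
      ring
    refine ⟨(Pi.basisFun F _).map e, ζ, fun t ht => one_ne_zero (hζ t 1 ?_).2, fun i => ?_,
      fun i j => ?_, fun i j => ?_, fun i j => ?_, ?_, ?_, ?_⟩
    · linear_combination ht
    all_goals simp [hb, he, hp, Cfsg.quadFormMinus, Pi.single_apply, eq_comm]

end Cfsg.Agent.S2616
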