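import Cfsg.Statements.S2617
import Cfsg.Agent.Lib.Classical.QuadOmega.Disc

open Cfsg.Agent.Lib.Classical.QuadOmega Cfsg.Agent.Lib.Classical.Quad QuadraticMap

set_option autoImplicit false
open Cfsg

namespace Cfsg.Agent.S2617

/-- The two standard quadratic forms of even dimension 2m over a finite field are not isometric: there is no linear isomorphism carrying the elliptic form Σ_(i<m−1) x_i y_i + z₁² + z₁z₂ + ζ z₂² (t² + t + ζ without roots) to the hyperbolic form Σ_(i<m) x_i y_i (they have different Witt index). -/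
theorem result {F : Type*} [Field F] [Finite F] {m : ℕ} (hm : 1 ≤ m) (ζ : F) (hζ : ∀ t : F, t ^ 2 + t + ζ ≠ 0) (g : (Fin m ⊕ Fin m → F) ≃ₗ[F] ((Fin (m - 1) ⊕ Fin (m - 1)) ⊕ Fin 2 → F)) : ¬ (∀ v : Fin m ⊕ Fin m → F, Cfsg.quadFormMinus (m - 1) F 1 ζ (g v) = Cfsg.quadFormPlus m F v) := by
  intro hiso
  have := Fintype.ofFinite F
  obtain ⟨k, rfl⟩ : ∃ k, m = k + 1 := ⟨m - 1, by omega⟩
  have hab : Aniso (1 : F) ζ := fun z₁ z₂ hz => by
    rcases eq_or_ne z₂ 0 with rfl | hz2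
    · exact ⟨by simpa using hz, rfl⟩
    · exact absurd (show (z₁ / z₂) ^ 2 + z₁ / z₂ + ζ = 0 by
        field_simp; linear_combination hz) (hζ _)
  have e1 := card_sing_plus (F := F) (k + 1) (by omega)
  have e2 := card_sing_minus (F := F) hab k
  have e3 : Nat.card {v : Fin (k + 1) ⊕ Fin (k + 1) → F // Cfsg.quadFormPlus (k + 1) F v = 0} =
      Nat.card {v : (Fin (k + 1 - 1) ⊕ Fin (k + 1 - 1)) ⊕ Fin 2 → F //
        Cfsg.quadFormMinus (k + 1 - 1) F 1 ζ v = 0} :=
    Nat.card_congr (g.toEquiv.subtypeEquiv fun v => by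
      change _ ↔ Cfsg.quadFormMinus (k + 1 - 1) F 1 ζ (g v) = 0
      rw [hiso v])
  generalize hj : k + 1 - 1 = j at e3
  obtain rfl : j = k := by omega
  rw [e1, e2, show 2 * (j + 1) - 1 = 2 * j + 1 by omega, Nat.add_sub_cancel] at e3
  have hq := Fintype.one_lt_card (α := F)
  have hlt : Fintype.card F ^ j < Fintype.card F ^ (j + 1) := Nat.pow_lt_pow_right hq (by omega)
  omega

end Cfsg.Agent.S2617
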