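import Cfsg.Statements.S2619

set_option autoImplicit false
open Cfsg

namespace Cfsg.Agent.S2619

/-- Over a finite field of characteristic two, given an alternating bilinear form B on a finite-dimensional space, a basis (v_i) and scalars (λ_i), there is exactly one quadratic form whose polar form is B and whose value at each v_i is λ_i. -/
theorem result {F V ι : Type*} [Field F] [Finite F] [CharP F 2] [AddCommGroup V] [Module F V] [Fintype ι] (b : Module.Basis ι F V) (B : LinearMap.BilinForm F V) (hB : B.IsAlt) (c : ι → F) : ∃! Q : QuadraticForm F V, QuadraticMap.polarBilin Q = B ∧ ∀ i, Q (b i) = c i := by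
  classical
  letI : LinearOrder ι := LinearOrder.lift' (Fintype.equivFin ι) (Fintype.equivFin ι).injective
  let B' : LinearMap.BilinMap F V F :=
    b.constr F fun i => b.constr F fun j => if i = j then c i else if i < j then B (b i) (b j) else 0
  let Q : QuadraticForm F V := B'.toQuadraticMap
  have hB' : ∀ i j, B' (b i) (b j) = if i = j then c i else if i < j then B (b i) (b j) else 0 := fun i j => by
    simp only [B', Module.Basis.constr_basis]
  have h2 : (2 : F) = 0 := CharTwo.two_eq_zero
  have hpol : QuadraticMap.polarBilin Q = B := by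
    refine b.ext fun i => b.ext fun j => ?_
    rw [QuadraticMap.polarBilin_apply_apply, LinearMap.BilinMap.polar_toQuadraticMap, hB', hB']
    rcases lt_trichotomy i j with h | h | h
    · simp [h.ne, h.ne', h, h.asymm]
    · subst h; rw [if_pos rfl, hB]; exact CharTwo.add_self_eq_zero _
    · simp only [if_neg h.ne', if_neg h.ne, if_pos h, if_neg h.asymm, zero_add]
      exact (LinearMap.BilinForm.IsAlt.neg_eq hB (b i) (b j)).symm.trans (CharTwo.neg_eq _)
  have hdiag : ∀ i, Q (b i) = c i := fun i => by
    rw [LinearMap.BilinMap.toQuadraticMap_apply, hB', if_pos rfl]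
  refine ⟨Q, ⟨hpol, hdiag⟩, fun Q' hQ' => ?_⟩
  ext v
  have key : ∀ R : QuadraticForm F V, QuadraticMap.polarBilin R = B → ∀ u w, R (u + w) = R u + R w + B u w := by
    intro R hR u w
    rw [← hR, QuadraticMap.polarBilin_apply_apply, QuadraticMap.polar]; ring
  have hv : v ∈ Submodule.span F (Set.range b) := by rw [b.span_eq]; trivial
  induction hv using Submodule.span_induction with
  | mem x hx => obtain ⟨i, rfl⟩ := hx; rw [hQ'.2, hdiag]
  | zero => simp
  | add x y _ _ hx hy => rw [key Q' hQ'.1, key Q hpol, hx, hy]
  | smul a x _ hx => rw [QuadraticMap.map_smul, QuadraticMap.map_smul, hx]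

end Cfsg.Agent.S2619
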