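import Cfsg.Statements.S2621
import Cfsg.Agent.Lib.FormDet

set_option autoImplicit false
open Cfsg

namespace Cfsg.Agent.S2621

/-- Discriminant of an elliptic quadratic form Σ_(i<m−1) x_i y_i + z₁² + a z₁z₂ + c z₂² (binary part anisotropic) in dimension 2m over a field with q elements, q odd, m ≥ 1: the determinant of the Gram matrix of its polar form in any basis is a square if and only if m(q − 1)/2 is odd (equivalently q^m ≡ 3 (mod 4)). -/
theorem result {F : Type*} [Field F] [Fintype F] {q : ℕ} (hF : Fintype.card F = q) (hq : Odd q) {m : ℕ} (hm : 1 ≤ m) (a c : F) (hac : ∀ z₁ z₂ : F, z₁ ^ 2 + a * z₁ * z₂ + c * z₂ ^ 2 = 0 → z₁ = 0 ∧ z₂ = 0) {ι : Type*} [Fintype ι] [DecidableEq ι] (b : Module.Basis ι F ((Fin (m - 1) ⊕ Fin (m - 1)) ⊕ Fin 2 → F)) : IsSquare (Matrix.of (fun i j : ι => QuadraticMap.polar (Cfsg.quadFormMinus (m - 1) F a c) (b i) (b j))).det ↔ ¬ Even (m * (q - 1) / 2) := by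
  classical
  have h2 : (2 : F) ≠ 0 := by
    apply Ring.two_ne_zero
    intro h
    have := FiniteField.even_card_iff_char_two.1 h
    rw [hF] at this
    exact absurd this (by rw [Nat.odd_iff.1 hq]; decide)
  let G : Matrix ((Fin (m - 1) ⊕ Fin (m - 1)) ⊕ Fin 2) ((Fin (m - 1) ⊕ Fin (m - 1)) ⊕ Fin 2) F :=
    Matrix.fromBlocks (Matrix.fromBlocks (0 : Matrix (Fin (m - 1)) (Fin (m - 1)) F) 1 1 (0 : Matrix (Fin (m - 1)) (Fin (m - 1)) F)) 0 0
      !![2, a; a, 2 * c]
  rw [Lib.FormDet.isSquare_gram _ G ?_ b]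
  · have hD : ¬ IsSquare (a ^ 2 - 4 * c) := by
      rintro ⟨r, hr⟩
      have := (hac ((-a + r) / 2) 1 (by field_simp; linear_combination -hr)).2
      exact one_ne_zero this
    obtain ⟨j, rfl⟩ : ∃ j, m = j + 1 := ⟨m - 1, by omega⟩
    have hG : G.det = (-1) ^ (j + 1) * (a ^ 2 - 4 * c) := by
      simp only [G, Matrix.det_fromBlocks_zero₂₁, Lib.FormDet.det_hyp, Matrix.det_fin_two_of,
        Nat.add_sub_cancel]
      ring
    rw [hG, Lib.FormDet.isSquare_mul_nonsquare (pow_ne_zero _ (neg_ne_zero.2 one_ne_zero)) hD,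
      Lib.FormDet.isSquare_neg_one_pow hF hq]
  intro x y
  simp only [G, QuadraticMap.polar, Cfsg.quadFormMinus, Pi.add_apply, Matrix.fromBlocks_mulVec, dotProduct,
    Fintype.sum_sum_type, Sum.elim_inl, Sum.elim_inr, Matrix.zero_mulVec, Matrix.one_mulVec, zero_add, add_zero,
    Function.comp_apply]
  simp [Matrix.mulVec, dotProduct, Fin.sum_univ_two]
  simp only [add_mul, mul_add, Finset.sum_add_distrib]
  simp only [mul_comm (y (Sum.inl (Sum.inl _)))]
  ring

end Cfsg.Agent.S2621
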