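import Cfsg.Statements.S2622


set_option autoImplicit false
open Cfsg

namespace Cfsg.Agent.S2622

universe w₁ w₂

/-- Orthonormal families in a non-alternating symmetric space of characteristic two. -/
theorem exists_orthonormal {F : Type w₁} [Field F] [Finite F] (h2 : (2 : F) = 0) :
    ∀ (n : ℕ) {V : Type w₂} [AddCommGroup V] [Module F V] [FiniteDimensional F V]
      (B : LinearMap.BilinForm F V), (∀ x y, B x y = B y x) →
      (∀ x, (∀ y, B x y = 0) → x = 0) → Module.finrank F V = n → (n = 0 ∨ ∃ v, B v v ≠ 0) →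
      ∃ b : Fin n → V, ∀ i j, B (b i) (b j) = if i = j then 1 else 0
  | 0, V, _, _, _, B, _, _, _, _ => ⟨Fin.elim0, fun i => i.elim0⟩
  | n + 1, V, _, _, _, B, hS, hN, hV, hna => by
    have hsq : ∀ c : F, ∃ t : F, t ^ 2 = c := fun c => by
      obtain ⟨s, hs⟩ := FiniteField.isSquare_of_char_two
        (CharP.ringChar_of_prime_eq_zero Nat.prime_two (by exact_mod_cast h2)) c
      exact ⟨s, by rw [hs, sq]⟩
    obtain ⟨u, hu⟩ := hna.resolve_left n.succ_ne_zero
    obtain ⟨t, ht⟩ := hsq (B u u)⁻¹
    have hv₀ : B (t • u) (t • u) = 1 := by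
      simp only [map_smul, LinearMap.smul_apply, smul_eq_mul]
      rw [← mul_assoc, ← sq, ht, inv_mul_cancel₀ hu]
    -- the orthogonal of a norm one vector is non-degenerate
    have hperp : ∀ v, B v v = 1 → Module.finrank F (LinearMap.ker (B v)) = n ∧
        ∀ x ∈ LinearMap.ker (B v), (∀ y ∈ LinearMap.ker (B v), B x y = 0) → x = 0 := by
      intro v hv
      refine ⟨?_, fun x hx hxy => hN x fun y => ?_⟩
      · have h := (B v).finrank_range_add_finrank_ker
        rw [LinearMap.range_eq_top.2 (LinearMap.surjective (f := B v) fun h0 => by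
          rw [h0, LinearMap.zero_apply] at hv; exact zero_ne_one hv), finrank_top,
          Module.finrank_self, hV] at h
        omega
      · have h := hxy (y - B v y • v) (by rw [LinearMap.mem_ker, map_sub, map_smul, hv]; simp)
        rw [map_sub, map_smul, hS x v, LinearMap.mem_ker.1 hx, smul_zero, sub_zero] at h
        exact h
    -- it can be chosen with a non-alternating orthogonal
    obtain ⟨v, hv, hva⟩ : ∃ v, B v v = 1 ∧ (n = 0 ∨ ∃ w ∈ LinearMap.ker (B v), B w w ≠ 0) := by
      by_cases h : n = 0 ∨ ∃ w ∈ LinearMap.ker (B (t • u)), B w w ≠ 0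
      · exact ⟨t • u, hv₀, h⟩
      push Not at h
      obtain ⟨hn, halt⟩ := h
      obtain ⟨hk, hnd⟩ := hperp (t • u) hv₀
      have hbot : LinearMap.ker (B (t • u)) ≠ ⊥ := fun h0 => hn (by rw [← hk, h0, finrank_bot])
      obtain ⟨a, ha, ha0⟩ := Submodule.exists_mem_ne_zero_of_ne_bot hbot
      obtain ⟨b, hb, hab⟩ : ∃ b ∈ LinearMap.ker (B (t • u)), B a b ≠ 0 := by
        by_contra! hc
        exact ha0 (hnd a ha hc)
      set b' := (B a b)⁻¹ • b
      have hb' : b' ∈ LinearMap.ker (B (t • u)) := Submodule.smul_mem _ _ hb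
      have hab' : B a b' = 1 := by
        rw [map_smul, smul_eq_mul, inv_mul_cancel₀ hab]
      have e1 := LinearMap.mem_ker.1 ha
      have e2 := LinearMap.mem_ker.1 hb'
      refine ⟨t • u + a, ?_, Or.inr ⟨t • u + b', ?_, ?_⟩⟩
      · rw [map_add, map_add, LinearMap.add_apply, LinearMap.add_apply, hv₀, e1, hS a (t • u), e1,
          halt a ha]
        ring
      · rw [LinearMap.mem_ker, map_add, map_add, LinearMap.add_apply, LinearMap.add_apply, hv₀,
          hS a (t • u), e1, e2, hab']
        linear_combination h2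
      · rw [map_add, map_add, LinearMap.add_apply, LinearMap.add_apply, hv₀, hS b' (t • u), e2,
          halt b' hb']
        simp
    obtain ⟨hk, hnd⟩ := hperp v hv
    set W := LinearMap.ker (B v)
    obtain ⟨b, hb⟩ := exists_orthonormal h2 n (B.restrict W) (fun x y => hS x y)
      (fun x hx => Subtype.ext (hnd x.1 x.2 fun y hy => hx ⟨y, hy⟩)) hk
      (hva.imp id fun ⟨w, hw, hw'⟩ => ⟨⟨w, hw⟩, hw'⟩)
    refine ⟨Fin.cons v fun i => (b i : V), fun i j => ?_⟩
    have hz : ∀ i, B v (b i : V) = 0 := fun i => (b i).2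
    induction i using Fin.cases with
    | zero =>
      induction j using Fin.cases with
      | zero => simp [hv]
      | succ j => simp [hz, (Fin.succ_ne_zero j).symm]
    | succ i =>
      induction j using Fin.cases with
      | zero => simp [hS _ v, hz, Fin.succ_ne_zero i]
      | succ j => simpa [Fin.succ_inj] using hb i j


/-- Over a finite field of characteristic two, a non-degenerate symmetric bilinear form that is not alternating (some vector v has B(v, v) ≠ 0) admits an orthonormal basis. -/
theorem result {F V : Type*} [Field F] [Finite F] [CharP F 2] [AddCommGroup V] [Module F V] [FiniteDimensional F V] {n : ℕ} (hV : Module.finrank F V = n) (B : LinearMap.BilinForm F V) (hS : B.IsSymm) (hB : B.Nondegenerate) (hna : ∃ v : V, B v v ≠ 0) : ∃ b : Module.Basis (Fin n) F V, ∀ i j, B (b i) (b j) = if i = j then 1 else 0 := by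
  have h2 : (2 : F) = 0 := CharTwo.two_eq_zero
  obtain ⟨b, hb⟩ := exists_orthonormal h2 n B (fun x y => hS.eq x y) hB.1 hV (Or.inr hna)
  have hli : LinearIndependent F b := by
    rw [Fintype.linearIndependent_iff]
    intro g hg i
    have h := congrArg (B (b i)) hg
    simpa [hb] using h
  exact ⟨basisOfLinearIndependentOfCardEqFinrank' b hli (by rw [Fintype.card_fin, hV]),
    fun i j => by simp [hb]⟩

end Cfsg.Agent.S2622
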