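import Cfsg.Statements.S2624
import Cfsg.Agent.Lib.Classical.QuadOmega.Normal

open QuadraticMap Cfsg.Agent.Lib.Classical.Quad Cfsg.Agent.Lib.Classical.QuadOmega

set_option autoImplicit false
open Cfsg

namespace Cfsg.Agent.S2624

/-- For a quadratic form Q on F^n with non-degenerate polar form, F finite and n ≥ 2 even, every non-zero scalar c is the multiplier of some similarity: there is an invertible linear map g with Q(g v) = c·Q(v) for all v. -/
theorem result {F : Type*} [Field F] [Fintype F] {n : ℕ} (hn : 2 ≤ n) (he : Even n) (Q : QuadraticForm F (Fin n → F)) (hQ : (QuadraticMap.polarBilin Q).Nondegenerate) (c : F) (hc : c ≠ 0) : ∃ g : (Fin n → F) ≃ₗ[F] (Fin n → F), ∀ v, Q (g v) = c * Q v := by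
  have hN : Nd Q := nd_of_nondegenerate hQ
  obtain ⟨j, rfl⟩ := he
  obtain ⟨k, rfl⟩ := Nat.exists_eq_add_of_le' (show 1 ≤ j by omega)
  rcases exists_normal_even k hN (by rw [Module.finrank_fin_fun]; omega) with ⟨e, he⟩ | ⟨ζ, hζ, e, he⟩
  · let d : (Fin (k + 1) ⊕ Fin (k + 1) → F) ≃ₗ[F] (Fin (k + 1) ⊕ Fin (k + 1) → F) :=
      LinearEquiv.piCongrRight fun i => LinearEquiv.smulOfUnit
        (Sum.elim (fun _ => Units.mk0 c hc) (fun _ => (1 : Fˣ)) i)
    refine ⟨(e.symm.trans d).trans e, fun v => ?_⟩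
    obtain ⟨x, rfl⟩ := e.surjective v
    simp [he, d, Cfsg.quadFormPlus, LinearEquiv.smulOfUnit, Units.smul_def, Finset.mul_sum, mul_assoc]
  · obtain ⟨w, hw⟩ := exists_binQ_eq hζ c
    have hw0 : w ≠ 0 := fun h => hc (by rw [← hw, h, map_zero])
    let M : (Fin 2 → F) ≃ₗ[F] (Fin 2 → F) := LinearEquiv.ofBijective (mulW 1 ζ w)
      ⟨mulW_injective hζ hw0,
        (LinearMap.injective_iff_surjective_of_finrank_eq_finrank rfl).1 (mulW_injective hζ hw0)⟩
    let d := (eMinus (F := F) k).symm.trans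
      ((((LinearEquiv.smulOfUnit (Units.mk0 c hc)).prodCongr (LinearEquiv.refl F (Fin k → F))).prodCongr M).trans
        (eMinus k))
    refine ⟨(e.symm.trans d).trans e, fun v => ?_⟩
    obtain ⟨x, rfl⟩ := e.surjective v
    obtain ⟨p, rfl⟩ := (eMinus k).surjective x
    simp only [d, LinearEquiv.trans_apply, LinearEquiv.symm_apply_apply, he, minus_apply, splitQ_apply,
      LinearEquiv.prodCongr_apply, LinearEquiv.refl_apply]
    rw [show binQ 1 ζ (M p.2) = c * binQ 1 ζ p.2 from by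
      change binQ 1 ζ (mulW 1 ζ w p.2) = _
      rw [binQ_mulW, hw]]
    simp [LinearEquiv.smulOfUnit, Units.smul_def, Finset.mul_sum, mul_assoc, mul_add]

end Cfsg.Agent.S2624
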