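import Cfsg.Statements.S2625

set_option autoImplicit false
open Cfsg

namespace Cfsg.Agent.S2625

/-- For a quadratic form Q on F^n with non-degenerate polar form, F finite and n odd (so |F| is odd), the multiplier of any similarity is a square: if g is an invertible linear map with Q(g v) = c·Q(v) for all v then c is a square. -/
theorem result {F : Type*} [Field F] [Fintype F] {n : ℕ} (hn : Odd n) (Q : QuadraticForm F (Fin n → F)) (hQ : (QuadraticMap.polarBilin Q).Nondegenerate) (g : (Fin n → F) ≃ₗ[F] (Fin n → F)) (c : F) (hg : ∀ v, Q (g v) = c * Q v) : IsSquare c := by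
  classical
  by_cases h2 : (2 : F) = 0
  · exact FiniteField.isSquare_of_char_two (CharP.ringChar_of_prime_eq_zero Nat.prime_two (by exact_mod_cast h2)) c
  set B := QuadraticMap.polarBilin Q
  set G := LinearMap.BilinForm.toMatrix' B
  have hG : G.det ≠ 0 := LinearMap.BilinForm.nondegenerate_iff_det_ne_zero (Pi.basisFun F (Fin n)) |>.1 hQ
  set M := LinearMap.toMatrix' (g : (Fin n → F) →ₗ[F] (Fin n → F))
  have e : M.transpose * G * M = c • G := by
    have h1 : LinearMap.BilinForm.comp B (g : (Fin n → F) →ₗ[F] (Fin n → F)) (g : (Fin n → F) →ₗ[F] (Fin n → F)) = c • B := by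
      apply LinearMap.ext; intro v; apply LinearMap.ext; intro w
      show QuadraticMap.polar Q (g v) (g w) = c * QuadraticMap.polar Q v w
      simp only [QuadraticMap.polar, ← map_add, hg]; ring
    rw [← LinearMap.BilinForm.toMatrix'_comp, h1, map_smul]
  have hd := congrArg Matrix.det e
  rw [Matrix.det_mul, Matrix.det_mul, Matrix.det_transpose, Matrix.det_smul, Fintype.card_fin] at hd
  have h3 : c ^ n = M.det * M.det := mul_right_cancel₀ hG (by rw [← hd]; ring)
  obtain ⟨k, rfl⟩ := hn
  by_cases hc : c = 0
  · exact ⟨0, by rw [hc, mul_zero]⟩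
  refine ⟨M.det / c ^ k, ?_⟩
  rw [pow_succ, pow_mul'] at h3
  field_simp
  linear_combination h3

end Cfsg.Agent.S2625
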