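import Cfsg.Statements.S2626
import Cfsg.Agent.Lib.Classical.QuadOmega.Disc

open Cfsg.Agent.Lib.Classical.QuadOmega Cfsg.Agent.Lib.Classical.Quad QuadraticMap

set_option autoImplicit false
open Cfsg

namespace Cfsg.Agent.S2626

/-- Ω of an orthogonal direct sum contains the product of the Ω's: for quadratic forms Q₁ on F^k and Q₂ on F^l with non-degenerate polar forms (F finite) and Q = Q₁ ⊕ Q₂ on F^(k+l), if g₁ lies in Ω(Q₁) and g₂ in Ω(Q₂) (commutator subgroups of the orthogonal groups) then the block-diagonal isometry diag(g₁, g₂) lies in Ω(Q). -/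
theorem result {F : Type*} [Field F] [Fintype F] {k l : ℕ} (Q₁ : QuadraticForm F (Fin k → F)) (Q₂ : QuadraticForm F (Fin l → F)) (h₁ : (QuadraticMap.polarBilin Q₁).Nondegenerate) (h₂ : (QuadraticMap.polarBilin Q₂).Nondegenerate) (g₁ : ↥(Cfsg.isometryGroup F ⇑Q₁)) (g₂ : ↥(Cfsg.isometryGroup F ⇑Q₂)) (hg₁ : g₁ ∈ Cfsg.Omega F ⇑Q₁) (hg₂ : g₂ ∈ Cfsg.Omega F ⇑Q₂) : ∃ g : ↥(Cfsg.isometryGroup F (fun v : Fin k ⊕ Fin l → F => Q₁ (v ∘ Sum.inl) + Q₂ (v ∘ Sum.inr))), g ∈ Cfsg.Omega F (fun v : Fin k ⊕ Fin l → F => Q₁ (v ∘ Sum.inl) + Q₂ (v ∘ Sum.inr)) ∧ ((g : Matrix.GeneralLinearGroup (Fin k ⊕ Fin l) F) : Matrix (Fin k ⊕ Fin l) (Fin k ⊕ Fin l) F) = Matrix.fromBlocks ((g₁ : Matrix.GeneralLinearGroup (Fin k) F) : Matrix (Fin k) (Fin k) F) 0 0 ((g₂ : Matrix.GeneralLinearGroup (Fin l) F) : Matrix (Fin l) (Fin l) F) := by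
  obtain ⟨e, he, he'⟩ : ∃ e : ((Fin k → F) × (Fin l → F)) ≃ₗ[F] (Fin k ⊕ Fin l → F),
      (∀ v, (fun w : Fin k ⊕ Fin l → F => Q₁ (w ∘ Sum.inl) + Q₂ (w ∘ Sum.inr)) (e v) =
        Q₁.prod Q₂ v) ∧ ∀ v, e v = Sum.elim v.1 v.2 :=
    ⟨(LinearEquiv.sumArrowLequivProdArrow _ _ F F).symm, fun v => by
      simp only [QuadraticMap.prod_apply]; rfl, fun v => rfl⟩
  rw [exists_omega_matrix_iff _ e he _ (prodHom Q₁ Q₂
    (isoEquiv ⇑Q₁ (LinearEquiv.refl F _) (fun v => rfl) g₁,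
      isoEquiv ⇑Q₂ (LinearEquiv.refl F _) (fun v => rfl) g₂)) (fun v => by
      rw [prodHom_apply, he', he', Matrix.fromBlocks_mulVec]
      ext (i | i) <;> simp [Function.comp_def] <;> rfl)]
  exact prodHom_commutator ((mem_omega_iff ..).1 hg₁) ((mem_omega_iff ..).1 hg₂)

end Cfsg.Agent.S2626
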