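import Cfsg.Statements.S2627
import Cfsg.Agent.Lib.Classical.QuadOmega.Disc

open Cfsg.Agent.Lib.Classical.QuadOmega Cfsg.Agent.Lib.Classical.Quad QuadraticMap

set_option autoImplicit false
open Cfsg

namespace Cfsg.Agent.S2627

/-- For an orthogonal direct sum Q = Q₁ ⊕ Q₂ of quadratic forms with non-degenerate polar forms over a finite field, an isometry g₁ of Q₁ extended by the identity on the second summand lies in Ω(Q) (the commutator subgroup of the orthogonal group of Q) if and only if g₁ lies in Ω(Q₁). (Excluded: the field of two elements when the first summand or the whole space has dimension 4, where the commutator subgroup of O⁺₄(2) is smaller than the group usually called Ω.) -/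
theorem result {F : Type*} [Field F] [Fintype F] {k l : ℕ} (h : Fintype.card F ≠ 2 ∨ (k ≠ 4 ∧ k + l ≠ 4)) (Q₁ : QuadraticForm F (Fin k → F)) (Q₂ : QuadraticForm F (Fin l → F)) (h₁ : (QuadraticMap.polarBilin Q₁).Nondegenerate) (h₂ : (QuadraticMap.polarBilin Q₂).Nondegenerate) (g₁ : ↥(Cfsg.isometryGroup F ⇑Q₁)) : (∃ g : ↥(Cfsg.isometryGroup F (fun v : Fin k ⊕ Fin l → F => Q₁ (v ∘ Sum.inl) + Q₂ (v ∘ Sum.inr))), g ∈ Cfsg.Omega F (fun v : Fin k ⊕ Fin l → F => Q₁ (v ∘ Sum.inl) + Q₂ (v ∘ Sum.inr)) ∧ ((g : Matrix.GeneralLinearGroup (Fin k ⊕ Fin l) F) : Matrix (Fin k ⊕ Fin l) (Fin k ⊕ Fin l) F) = Matrix.fromBlocks ((g₁ : Matrix.GeneralLinearGroup (Fin k) F) : Matrix (Fin k) (Fin k) F) 0 0 1) ↔ g₁ ∈ Cfsg.Omega F ⇑Q₁ := by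
  obtain ⟨e, he, he'⟩ : ∃ e : ((Fin k → F) × (Fin l → F)) ≃ₗ[F] (Fin k ⊕ Fin l → F),
      (∀ v, (fun w : Fin k ⊕ Fin l → F => Q₁ (w ∘ Sum.inl) + Q₂ (w ∘ Sum.inr)) (e v) =
        Q₁.prod Q₂ v) ∧ ∀ v, e v = Sum.elim v.1 v.2 :=
    ⟨(LinearEquiv.sumArrowLequivProdArrow _ _ F F).symm, fun v => by
      simp only [QuadraticMap.prod_apply]; rfl, fun v => rfl⟩
  rw [exists_omega_matrix_iff _ e he _ (prodHom Q₁ Q₂
    (isoEquiv ⇑Q₁ (LinearEquiv.refl F _) (fun v => rfl) g₁, 1)) (fun v => by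
      rw [prodHom_apply, he', he', Matrix.fromBlocks_mulVec]
      ext (i | i) <;> simp [Function.comp_def] <;> rfl),
    mem_omega_iff ⇑Q₁ (LinearEquiv.refl F _) (fun v => rfl)]
  have hreg : Reg F ((Fin k → F) × (Fin l → F)) ∧ Reg F (Fin k → F) := by
    rcases h with h | ⟨hk, hkl⟩
    · have := Fintype.one_lt_card (α := F)
      exact ⟨Or.inl (by omega), Or.inl (by omega)⟩
    · refine ⟨Or.inr ?_, Or.inr ?_⟩
      · rwa [Module.finrank_prod, Module.finrank_fin_fun, Module.finrank_fin_fun]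
      · rwa [Module.finrank_fin_fun]
  exact inl_mem_commutator_iff (nd_of_nondegenerate h₁) (nd_of_nondegenerate h₂) hreg.1 hreg.2 _

end Cfsg.Agent.S2627
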