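import Cfsg.Statements.S2628
import Cfsg.Agent.Lib.Classical.QuadOmega.Disc

open Cfsg.Agent.Lib.Classical.QuadOmega Cfsg.Agent.Lib.Classical.Quad QuadraticMap

set_option autoImplicit false
open Cfsg

namespace Cfsg.Agent.S2628

/-- For the orthogonal direct sum Q ⊕ Q of two copies of a quadratic form Q with non-degenerate polar form on F^k (F finite), every isometry g of Q acting diagonally, diag(g, g), lies in Ω(Q ⊕ Q), the commutator subgroup of the orthogonal group of Q ⊕ Q. (Excluded: k = 2 over the field of two elements, where Q ⊕ Q is the hyperbolic 4-space whose orthogonal group's commutator subgroup is smaller than the group usually called Ω.) -/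
theorem result {F : Type*} [Field F] [Fintype F] {k : ℕ} (h : Fintype.card F ≠ 2 ∨ k ≠ 2) (Q : QuadraticForm F (Fin k → F)) (hQ : (QuadraticMap.polarBilin Q).Nondegenerate) (g : ↥(Cfsg.isometryGroup F ⇑Q)) : ∃ x : ↥(Cfsg.isometryGroup F (fun v : Fin k ⊕ Fin k → F => Q (v ∘ Sum.inl) + Q (v ∘ Sum.inr))), x ∈ Cfsg.Omega F (fun v : Fin k ⊕ Fin k → F => Q (v ∘ Sum.inl) + Q (v ∘ Sum.inr)) ∧ ((x : Matrix.GeneralLinearGroup (Fin k ⊕ Fin k) F) : Matrix (Fin k ⊕ Fin k) (Fin k ⊕ Fin k) F) = Matrix.fromBlocks ((g : Matrix.GeneralLinearGroup (Fin k) F) : Matrix (Fin k) (Fin k) F) 0 0 ((g : Matrix.GeneralLinearGroup (Fin k) F) : Matrix (Fin k) (Fin k) F) := by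
  obtain ⟨e, he, he'⟩ : ∃ e : ((Fin k → F) × (Fin k → F)) ≃ₗ[F] (Fin k ⊕ Fin k → F),
      (∀ v, (fun w : Fin k ⊕ Fin k → F => Q (w ∘ Sum.inl) + Q (w ∘ Sum.inr)) (e v) =
        Q.prod Q v) ∧ ∀ v, e v = Sum.elim v.1 v.2 :=
    ⟨(LinearEquiv.sumArrowLequivProdArrow _ _ F F).symm, fun v => by
      simp only [QuadraticMap.prod_apply]; rfl, fun v => rfl⟩
  rw [exists_omega_matrix_iff _ e he _ (prodHom Q Q
    (isoEquiv ⇑Q (LinearEquiv.refl F _) (fun v => rfl) g,
      isoEquiv ⇑Q (LinearEquiv.refl F _) (fun v => rfl) g)) (fun v => by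
      rw [prodHom_apply, he', he', Matrix.fromBlocks_mulVec]
      ext (i | i) <;> simp [Function.comp_def] <;> rfl)]
  refine diag_mem_commutator (nd_of_nondegenerate hQ) ?_ _
  rcases h with h | h
  · have := Fintype.one_lt_card (α := F)
    exact Or.inl (by omega)
  · exact Or.inr (by rw [Module.finrank_prod, Module.finrank_fin_fun]; omega)

end Cfsg.Agent.S2628
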