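import Cfsg.Statements.S2629
import Cfsg.Agent.Lib.Classical.QuadOmega.SingularApply

open Cfsg.Agent.Lib.Classical.QuadOmega Cfsg.Agent.Lib.Classical.Quad QuadraticMap

set_option autoImplicit false
open Cfsg

namespace Cfsg.Agent.S2629

/-- For the hyperbolic form Σ x_i y_i on F^(2m) over a finite field of odd order (m ≥ 1), an isometry g preserves the class of the maximal totally singular subspace U₀ = {y = 0} (that is, m − dim(U₀ ∩ gU₀) is even) if and only if det g = 1: the stabiliser of each of the two classes of maximal totally singular subspaces is SO. -/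
theorem result {F : Type*} [Field F] [Fintype F] (h2 : (2 : F) ≠ 0) {m : ℕ} (hm : 1 ≤ m) (g : ↥(Cfsg.isometryGroup F (Cfsg.quadFormPlus m F))) : Even (m - Module.finrank F ↥(LinearMap.ker (LinearMap.funLeft F F (Sum.inr : Fin m → Fin m ⊕ Fin m)) ⊓ (LinearMap.ker (LinearMap.funLeft F F (Sum.inr : Fin m → Fin m ⊕ Fin m))).map (Matrix.mulVecLin ((g : Matrix.GeneralLinearGroup (Fin m ⊕ Fin m) F) : Matrix (Fin m ⊕ Fin m) (Fin m ⊕ Fin m) F)))) ↔ ((g : Matrix.GeneralLinearGroup (Fin m ⊕ Fin m) F) : Matrix (Fin m ⊕ Fin m) (Fin m ⊕ Fin m) F).det = 1 := by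
  set E := isoEquiv (Cfsg.quadFormPlus m F) (LinearEquiv.refl F _) (fun v => (plusQ_apply m v).symm)
  obtain ⟨l, hl, hlg⟩ := exists_refl_list (nd_plusQ m) (reg_of_two_ne_zero h2) (E g)
  have hmat : (g.1 : Matrix (Fin m ⊕ Fin m) (Fin m ⊕ Fin m) F) =
      (l.map fun v => Cfsg.reflectionMatrix (⇑(plusQ m F)) v).prod := by
    refine Matrix.ext_of_mulVec_single fun i => ?_
    rw [prod_reflection_mulVec _ l hl, hlg]
    rfl
  have hpar := parS_prod_refl (nd_plusQ m) (maxTS_xPlane m) (maxTS_xPlane m) l hl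
  rw [hlg, parS, parS, inf_idem, ((maxTS_iff m _).1 (maxTS_xPlane m)).1, ← pow_add] at hpar
  have hle : Module.finrank F ↥(xPlane m F ⊓ imgS (E g) (xPlane m F)) ≤ m :=
    (Submodule.finrank_mono inf_le_left).trans_eq ((maxTS_iff m _).1 (maxTS_xPlane (F := F) m)).1
  have hp := (parS_eq_iff (m := l.length + m) (by omega) le_rfl).1 hpar
  change Even (m - Module.finrank F ↥(xPlane m F ⊓ imgS (E g) (xPlane m F))) ↔ _
  rw [hmat, det_prod_reflection _ l hl, Nat.even_iff]
  rcases Nat.even_or_odd l.length with he | ho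
  · rw [he.neg_one_pow]
    obtain ⟨k, hk⟩ := he
    simp only [iff_true]
    omega
  · rw [ho.neg_one_pow]
    obtain ⟨k, hk⟩ := ho
    refine ⟨fun _ => by omega, fun h => absurd h fun h => h2 ?_⟩
    linear_combination -h

end Cfsg.Agent.S2629
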