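import Cfsg.Statements.S2630
import Cfsg.Agent.Lib.Classical.QuadOmega.SingularApply

open Cfsg.Agent.Lib.Classical.QuadOmega Cfsg.Agent.Lib.Classical.Quad QuadraticMap

set_option autoImplicit false
open Cfsg

namespace Cfsg.Agent.S2630

/-- For the hyperbolic form Σ x_i y_i on F^(2m) over a finite field of characteristic two (m ≥ 1, excluding m = 2 over the field of two elements), an isometry g preserves the class of the maximal totally singular subspace U₀ = {y = 0} (m − dim(U₀ ∩ gU₀) even) if and only if g lies in Ω (the commutator subgroup of the orthogonal group): the stabiliser of each class is Ω. -/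
theorem result {F : Type*} [Field F] [Fintype F] [CharP F 2] {m : ℕ} (hm : 1 ≤ m) (h : Fintype.card F ≠ 2 ∨ m ≠ 2) (g : ↥(Cfsg.isometryGroup F (Cfsg.quadFormPlus m F))) : Even (m - Module.finrank F ↥(LinearMap.ker (LinearMap.funLeft F F (Sum.inr : Fin m → Fin m ⊕ Fin m)) ⊓ (LinearMap.ker (LinearMap.funLeft F F (Sum.inr : Fin m → Fin m ⊕ Fin m))).map (Matrix.mulVecLin ((g : Matrix.GeneralLinearGroup (Fin m ⊕ Fin m) F) : Matrix (Fin m ⊕ Fin m) (Fin m ⊕ Fin m) F)))) ↔ g ∈ Cfsg.Omega F (Cfsg.quadFormPlus m F) := by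
  have h2 : (2 : F) = 0 := CharP.cast_eq_zero F 2
  rw [mem_omega_iff (Cfsg.quadFormPlus m F) (LinearEquiv.refl F _) (fun v => (plusQ_apply m v).symm) g,
    mem_commutator_iff_two (nd_plusQ m) (reg_plus h) h2, dick_eq_parS (reg_plus h) _ (maxTS_xPlane m)]
  set E := isoEquiv (Cfsg.quadFormPlus m F) (LinearEquiv.refl F _) (fun v => (plusQ_apply m v).symm) g
  have hle : Module.finrank F ↥(xPlane m F ⊓ imgS E (xPlane m F)) ≤ m :=
    (Submodule.finrank_mono inf_le_left).trans_eq ((maxTS_iff m _).1 (maxTS_xPlane (F := F) m)).1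
  change Even (m - Module.finrank F ↥(xPlane m F ⊓ imgS E (xPlane m F))) ↔ _
  rw [parS, ← pow_add]
  conv_rhs => rhs; rw [← pow_zero (-1 : ℤˣ)]
  rw [parS_eq_iff (m := 2 * m) (by omega) (by omega),
    Nat.even_iff]
  omega

end Cfsg.Agent.S2630
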