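import Cfsg.Statements.S2631
import Cfsg.Agent.Lib.Classical.QuadOmega.SingularApply

open QuadraticMap Cfsg.Agent.Lib.Classical.Quad Cfsg.Agent.Lib.Classical.QuadOmega

set_option autoImplicit false
open Cfsg

namespace Cfsg.Agent.S2631

attribute [local instance] _root_.Classical.propDecidable

/-- For the hyperbolic form Σ x_i y_i on F^(2m) over a finite field (m ≥ 1, excluding m = 2 over the field of two elements), Ω (the commutator subgroup of the orthogonal group) acts transitively on each of the two classes of maximal totally singular subspaces: if U and W are m-dimensional totally singular subspaces with m − dim(U ∩ W) even, some element of Ω carries U to W. -/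
theorem result {F : Type*} [Field F] [Fintype F] {m : ℕ} (hm : 1 ≤ m) (h : Fintype.card F ≠ 2 ∨ m ≠ 2) (U W : Submodule F (Fin m ⊕ Fin m → F)) (hU : Module.finrank F U = m) (hW : Module.finrank F W = m) (hU0 : ∀ u ∈ U, Cfsg.quadFormPlus m F u = 0) (hW0 : ∀ w ∈ W, Cfsg.quadFormPlus m F w = 0) (he : Even (m - Module.finrank F ↥(U ⊓ W))) : ∃ g : ↥(Cfsg.isometryGroup F (Cfsg.quadFormPlus m F)), g ∈ Cfsg.Omega F (Cfsg.quadFormPlus m F) ∧ U.map (Matrix.mulVecLin ((g : Matrix.GeneralLinearGroup (Fin m ⊕ Fin m) F) : Matrix (Fin m ⊕ Fin m) (Fin m ⊕ Fin m) F)) = W := by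
  have hreg := reg_plus h
  have hQ := nd_plusQ (F := F) m
  have hU' : MaxTS (plusQ m F) U := (maxTS_iff m U).2 ⟨hU, hU0⟩
  have hW' : MaxTS (plusQ m F) W := (maxTS_iff m W).2 ⟨hW, hW0⟩
  obtain ⟨l, hl, hmap⟩ := exists_prod_refl_map hQ hU' hW'
  have hp := parS_prod_refl hQ hU' hW' l hl
  rw [hmap, parS, parS, inf_idem, hW, inf_comm] at hp
  have hd : dick hQ (l.map (refl (plusQ m F))).prod = 1 := by
    rw [dick_prod_refl hQ l hl]
    have hle := hU ▸ Submodule.finrank_mono (inf_le_left : U ⊓ W ≤ U)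
    have hpow : ((-1 : ℤˣ) ^ m) = (-1) ^ Module.finrank F ↥(U ⊓ W) := by
      rw [parS_eq_iff le_rfl hle, Nat.sub_self, Nat.even_iff.1 he]
    rw [hpow] at hp
    simpa using hp
  have hs : (2 : F) = 0 ∨ ∃ D ∈ stabS (plusQ m F) W, dick hQ D = 1 ∧ spn hQ D = -1 := by
    rcases eq_or_ne (2 : F) 0 with h2 | h2
    · exact Or.inl h2
    right
    have hW1 : W ≠ ⊥ := fun h0 => by
      rw [h0, finrank_bot] at hW
      omega
    obtain ⟨e, heW, he0⟩ := Submodule.exists_mem_ne_zero_of_ne_bot hW1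
    obtain ⟨w, hw⟩ := Nd.exists_one hQ he0
    obtain ⟨f, hf, hef, -⟩ := exists_sing_of_pairing (hW'.sing e heW) hw
    obtain ⟨ν, hν0, -, hνc, -⟩ := exists_nu (F := F)
    refine ⟨pairScale _ e f ν, mem_stabS_of_le fun p hp => ?_,
      (invs_pairScale hQ (hW'.sing e heW) hf hef hν0).1, ?_⟩
    · rw [pairScale_apply (hW'.sing e heW) hf hef hν0, hW'.sing.polar_eq hp heW, mul_zero,
        zero_smul, add_zero]
      exact add_mem hp (Submodule.smul_mem _ _ heW)
    · rw [(invs_pairScale hQ (hW'.sing e heW) hf hef hν0).2 h2, sqSign,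
        if_neg (quadraticChar_neg_one_iff_not_isSquare.1 (hνc h2))]
  obtain ⟨g₁, hg₁, hcom⟩ := exists_mul_mem_commutator hQ hreg _ (stabS _ W) (Or.inl hd) hs
  let E := isoEquiv (Cfsg.quadFormPlus m F) (LinearEquiv.refl F (Fin m ⊕ Fin m → F))
    (Q := plusQ m F) fun v => (plusQ_apply m v).symm
  refine ⟨E.symm (g₁ * (l.map (refl (plusQ m F))).prod),
    (mem_omega_iff _ (LinearEquiv.refl F (Fin m ⊕ Fin m → F))
    (fun v => (plusQ_apply m v).symm) _).2 (by
      change E _ ∈ _
      rw [MulEquiv.apply_symm_apply]; exact hcom), ?_⟩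
  rw [show Matrix.mulVecLin _ = (((g₁ * (l.map (refl (plusQ m F))).prod).1 :
      _ ≃ₗ[F] _) : _ →ₗ[F] _) from LinearMap.ext fun v => ?_]
  · change imgS (g₁ * (l.map (refl (plusQ m F))).prod) U = W
    rw [imgS_mul, hmap]
    exact hg₁
  · conv_rhs => rw [← MulEquiv.apply_symm_apply E (g₁ * (l.map (refl (plusQ m F))).prod)]
    rfl

end Cfsg.Agent.S2631
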