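import Cfsg.Statements.S2632
import Cfsg.Agent.Lib.Classical.QuadOmega.SingularApply
import Cfsg.Agent.Lib.QuadWitt

open QuadraticMap Cfsg.Agent.Lib.Classical.Quad Cfsg.Agent.Lib.Classical.QuadOmega

set_option autoImplicit false
open Cfsg

namespace Cfsg.Agent.S2632

attribute [local instance] _root_.Classical.propDecidable

/-- Ω is transitive on non-degenerate subspaces of each isometry type: for a quadratic form Q on F^n, n ≥ 3, with non-degenerate polar form (F finite; excluding dimension 4 over the field of two elements), if U and W are subspaces on which the polar form is non-degenerate and there is a Q-preserving linear isomorphism U → W, then some element of Ω (the commutator subgroup of the orthogonal group) carries U to W. (In dimension 2 this fails: Ω can be {±1}, which fixes every line.) -/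
theorem result {F : Type*} [Field F] [Fintype F] {n : ℕ} (hn : 3 ≤ n) (h : Fintype.card F ≠ 2 ∨ n ≠ 4) (Q : QuadraticForm F (Fin n → F)) (hQ : (QuadraticMap.polarBilin Q).Nondegenerate) (U W : Submodule F (Fin n → F)) (hU : U ⊓ LinearMap.BilinForm.orthogonal (QuadraticMap.polarBilin Q) U = ⊥) (hW : W ⊓ LinearMap.BilinForm.orthogonal (QuadraticMap.polarBilin Q) W = ⊥) (e : U ≃ₗ[F] W) (he : ∀ u : U, Q (e u : Fin n → F) = Q (u : Fin n → F)) : ∃ g : ↥(Cfsg.isometryGroup F ⇑Q), g ∈ Cfsg.Omega F ⇑Q ∧ U.map (Matrix.mulVecLin ((g : Matrix.GeneralLinearGroup (Fin n) F) : Matrix (Fin n) (Fin n) F)) = W := by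
  have hN : Nd Q := nd_of_nondegenerate hQ
  have hfr : Module.finrank F (Fin n → F) = n := Module.finrank_fin_fun F
  have hreg : Reg F (Fin n → F) := by
    rcases h with h | h
    · have := Fintype.one_lt_card (α := F)
      exact Or.inl (by omega)
    · exact Or.inr (by rw [hfr]; exact h)
  set β := QuadraticMap.polarBilin Q
  have hnd : ∀ S : Submodule F (Fin n → F), S ⊓ LinearMap.BilinForm.orthogonal β S = ⊥ →
      ∀ x ∈ S, (∀ y ∈ S, polar Q x y = 0) → x = 0 := fun S hS x hx hxy =>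
    (Submodule.mem_bot F).1 (hS ▸ ⟨hx, LinearMap.BilinForm.mem_orthogonal_iff.2 fun y hy => by
      show polar Q y x = 0
      rw [polar_comm, hxy y hy]⟩)
  obtain ⟨γ, hγ, hγe⟩ := Cfsg.Agent.Lib.QuadWitt.witt_quad Q hQ U (hnd U hU)
    (W.subtype ∘ₗ (e : U →ₗ[F] W)) he
  let g₀ : isoG Q := ⟨γ, hγ⟩
  have hmap : imgS g₀ U = W := by
    ext v
    rw [mem_imgS]
    constructor
    · rintro ⟨u, hu, rfl⟩
      have h' : g₀.1 u = (e ⟨u, hu⟩ : Fin n → F) := hγe ⟨u, hu⟩
      rw [h']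
      exact (e ⟨u, hu⟩).2
    · intro hv
      exact ⟨(e.symm ⟨v, hv⟩ : U), (e.symm ⟨v, hv⟩).2, by
        show γ _ = v
        rw [hγe]; simp⟩
  set P := LinearMap.BilinForm.orthogonal β W with hPdef
  have hcd : Module.finrank F W + Module.finrank F P = n := by
    have h1 := LinearMap.BilinForm.finrank_orthogonal hQ W
    have h2 := Submodule.finrank_le W
    rw [hfr] at h1 h2
    change Module.finrank F P = _ at h1
    omega
  have hPW : ∀ p ∈ P, ∀ w ∈ W, polar Q w p = 0 := fun p hp w hw =>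
    LinearMap.BilinForm.mem_orthogonal_iff.1 hp w hw
  have hsup : W ⊔ P = ⊤ := Submodule.eq_top_of_finrank_eq (by
    have h1 := Submodule.finrank_sup_add_finrank_inf_eq W P
    rw [hW, finrank_bot] at h1
    omega)
  have hstab : ∀ w : Fin n → F, w ∈ W ∨ w ∈ P → Q w ≠ 0 → refl Q w ∈ stabS Q W :=
    fun w hw hw0 => mem_stabS_of_le fun p hp => by
      rcases hw with hw | hw
      · rw [refl_apply hw0]
        exact sub_mem hp (Submodule.smul_mem _ _ hw)
      · rwa [refl_apply_perp hw0 (hPW w hw p hp)]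
  have hr : dick hN g₀ = 1 ∨ ∃ r ∈ stabS Q W, dick hN r = -1 := by
    right
    have : Nontrivial (Fin n → F) := Module.nontrivial_of_finrank_pos (R := F) (by omega)
    obtain ⟨v, hv⟩ := hN.exists_nonsing
    obtain ⟨a, ha, b, hb, rfl⟩ := Submodule.mem_sup.1 (hsup ▸ Submodule.mem_top (x := v))
    rw [QuadraticMap.map_add ⇑Q, hPW b hb a ha, add_zero] at hv
    rcases eq_or_ne (Q a) 0 with h0 | h0
    · exact ⟨_, hstab b (Or.inr hb) (by simpa [h0] using hv), dick_refl hN (by simpa [h0] using hv)⟩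
    · exact ⟨_, hstab a (Or.inl ha) h0, dick_refl hN h0⟩
  have hs : (2 : F) = 0 ∨ ∃ D ∈ stabS Q W, dick hN D = 1 ∧ spn hN D = -1 := by
    rcases eq_or_ne (2 : F) 0 with h2 | h2
    · exact Or.inl h2
    right
    obtain ⟨S, hS2, hSm, hSn⟩ : ∃ S : Submodule F (Fin n → F), 2 ≤ Module.finrank F S ∧
        (∀ x ∈ S, x ∈ W ∨ x ∈ P) ∧ ∀ x ∈ S, (∀ y ∈ S, polar Q x y = 0) → x = 0 := by
      rcases le_or_gt 2 (Module.finrank F W) with h' | h'
      · exact ⟨W, h', fun x hx => Or.inl hx, hnd W hW⟩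
      · refine ⟨P, by omega, fun x hx => Or.inr hx, fun x hx hxy => hN x fun y => ?_⟩
        obtain ⟨a, ha, b, hb, rfl⟩ := Submodule.mem_sup.1 (hsup ▸ Submodule.mem_top (x := y))
        rw [polar_add_right, polar_comm, hPW x hx a ha, hxy b hb, add_zero]
    have hQS : Nd (Q.comp S.subtype) := fun x hx =>
      Subtype.ext (hSn x.1 x.2 fun y hy => by simpa [polar] using hx ⟨y, hy⟩)
    obtain ⟨ν, hν0, -, hνc, -⟩ := exists_nu (F := F)
    obtain ⟨w₁, hw₁⟩ := hQS.exists_eq h2 hS2 1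
    obtain ⟨w₂, hw₂⟩ := hQS.exists_eq h2 hS2 ν
    have e₁ : Q w₁.1 = 1 := hw₁
    have e₂ : Q w₂.1 = ν := hw₂
    have n₁ : Q w₁.1 ≠ 0 := by rw [e₁]; exact one_ne_zero
    have n₂ : Q w₂.1 ≠ 0 := by rw [e₂]; exact hν0
    refine ⟨refl Q w₁.1 * refl Q w₂.1, mul_mem (hstab _ (hSm _ w₁.2) n₁) (hstab _ (hSm _ w₂.2) n₂),
      by rw [map_mul, dick_refl hN n₁, dick_refl hN n₂]; rfl, ?_⟩
    rw [map_mul, spn_refl hN h2 n₁, spn_refl hN h2 n₂, e₁, e₂, sqSign_one, one_mul, sqSign,
      if_neg (quadraticChar_neg_one_iff_not_isSquare.1 (hνc h2))]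
  obtain ⟨g₁, hg₁, hcom⟩ := exists_mul_mem_commutator hN hreg g₀ (stabS Q W) hr hs
  let E := isoEquiv (⇑Q) (LinearEquiv.refl F (Fin n → F)) (Q := Q) fun v => rfl
  refine ⟨E.symm (g₁ * g₀), (mem_omega_iff _ (LinearEquiv.refl F (Fin n → F)) (fun v => rfl) _).2 (by
      change E _ ∈ _
      rw [MulEquiv.apply_symm_apply]; exact hcom), ?_⟩
  rw [show Matrix.mulVecLin _ = (((g₁ * g₀).1 : _ ≃ₗ[F] _) : _ →ₗ[F] _) from
      LinearMap.ext fun v => ?_]
  · change imgS (g₁ * g₀) U = W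
    rw [imgS_mul, hmap]
    exact hg₁
  · conv_rhs => rw [← MulEquiv.apply_symm_apply E (g₁ * g₀)]
    rfl

end Cfsg.Agent.S2632
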