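import Cfsg.Statements.S2633
import Cfsg.Agent.Lib.Classical.QuadOmega.SingularApply

open Cfsg.Agent.Lib.Classical.QuadOmega Cfsg.Agent.Lib.Classical.Quad QuadraticMap

set_option autoImplicit false
open Cfsg

namespace Cfsg.Agent.S2633

/-- Ω is transitive on totally singular subspaces of each dimension less than half the dimension: for a quadratic form Q on F^n with non-degenerate polar form (F finite; excluding dimension 4 over the field of two elements), if U and W are subspaces of the same dimension k with 2k < n on which Q vanishes, then some element of Ω (the commutator subgroup of the orthogonal group) carries U to W. -/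
theorem result {F : Type*} [Field F] [Fintype F] {n : ℕ} (h : Fintype.card F ≠ 2 ∨ n ≠ 4) (Q : QuadraticForm F (Fin n → F)) (hQ : (QuadraticMap.polarBilin Q).Nondegenerate) (U W : Submodule F (Fin n → F)) {k : ℕ} (hk : 2 * k < n) (hU : Module.finrank F U = k) (hW : Module.finrank F W = k) (hU0 : ∀ u ∈ U, Q u = 0) (hW0 : ∀ w ∈ W, Q w = 0) : ∃ g : ↥(Cfsg.isometryGroup F ⇑Q), g ∈ Cfsg.Omega F ⇑Q ∧ U.map (Matrix.mulVecLin ((g : Matrix.GeneralLinearGroup (Fin n) F) : Matrix (Fin n) (Fin n) F)) = W := by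
  classical
  have hnd := nd_of_nondegenerate hQ
  have hreg : Reg F (Fin n → F) := by
    rcases h with h | h
    · have := Fintype.one_lt_card (α := F)
      exact Or.inl (by omega)
    · exact Or.inr (by rwa [Module.finrank_fin_fun])
  suffices ∃ g : isoG Q, g ∈ commutator (isoG Q) ∧ imgS g U = W by
    obtain ⟨g, hg, hgU⟩ := this
    set E := isoEquiv (Q := Q) ⇑Q (LinearEquiv.refl F _) (fun v => rfl)
    refine ⟨E.symm g, ?_, ?_⟩
    · rwa [mem_omega_iff ⇑Q (LinearEquiv.refl F _) (fun v => rfl), MulEquiv.apply_symm_apply]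
    · rw [← hgU, ← E.apply_symm_apply g, MulEquiv.symm_apply_apply]
      rfl
  rcases Nat.eq_zero_or_pos k with rfl | hk0
  · rw [Submodule.finrank_eq_zero] at hU hW
    exact ⟨1, one_mem _, by rw [hU, hW, imgS_one]⟩
  obtain ⟨g, hg⟩ := exists_map_TSing hnd hU0 hW0 (hU.trans hW.symm)
  obtain ⟨e, heW, he0⟩ := Submodule.exists_mem_ne_zero_of_ne_bot fun h0 : W = ⊥ => by
    rw [h0, finrank_bot] at hW; omega
  obtain ⟨w₀, hw₀⟩ := hnd.exists_one he0
  obtain ⟨f, hf, hef, -⟩ := exists_sing_of_pairing (hW0 e heW) hw₀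
  obtain ⟨u, huW, hu⟩ : ∃ u ∈ perpS Q W, Q u ≠ 0 := by
    by_contra! hs
    have hs' : TSing Q (perpS Q W) := hs
    have e1 := hnd.two_mul_finrank_le (perpS Q W) fun x hx y hy => hs'.polar_eq hx hy
    have e2 := finrank_perpS hnd W
    rw [Module.finrank_fin_fun] at e1 e2
    omega
  obtain ⟨hh, hS, hmem⟩ := exists_mul_mem_commutator hnd hreg g (stabS Q W)
    (Or.inr ⟨refl Q u, mem_stabS_of_le fun p hp => by
      rw [refl_apply_perp hu (by rw [polar_comm]; exact mem_perpS.1 huW p hp)]; exact hp,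
      dick_refl hnd hu⟩) (by
    rcases eq_or_ne (2 : F) 0 with h2 | h2
    · exact Or.inl h2
    obtain ⟨ν, hν0, -, hνc, -⟩ := exists_nu (F := F)
    obtain ⟨d1, d2⟩ := invs_pairScale hnd (hW0 e heW) hf hef hν0
    refine Or.inr ⟨pairScale Q e f ν, mem_stabS_of_le fun p hp => ?_, d1, ?_⟩
    · rw [pairScale_apply (hW0 e heW) hf hef hν0, TSing.polar_eq hW0 hp heW, mul_zero, zero_smul,
        add_zero]
      exact add_mem hp (Submodule.smul_mem _ _ heW)
    · rw [d2 h2, sqSign, if_neg (quadraticChar_neg_one_iff_not_isSquare.1 (hνc h2))])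
  exact ⟨hh * g, hmem, by rw [imgS_mul, hg]; exact hS⟩

end Cfsg.Agent.S2633
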