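import Cfsg.Statements.S2634
import Cfsg.Agent.Lib.Classical.QuadOmega.SingularApply

open Cfsg.Agent.Lib.Classical.QuadOmega Cfsg.Agent.Lib.Classical.Quad QuadraticMap

set_option autoImplicit false
open Cfsg

namespace Cfsg.Agent.S2634

/-- Over a finite field of characteristic two, Ω (the commutator subgroup of the orthogonal group of a quadratic form Q on F^n with non-degenerate polar form; excluding dimension 4 over the field of two elements) acts transitively on the non-singular 1-spaces: for u, v with Q(u) ≠ 0 and Q(v) ≠ 0 some element of Ω carries the line through u to the line through v. -/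
theorem result {F : Type*} [Field F] [Fintype F] [CharP F 2] {n : ℕ} (h : Fintype.card F ≠ 2 ∨ n ≠ 4) (Q : QuadraticForm F (Fin n → F)) (hQ : (QuadraticMap.polarBilin Q).Nondegenerate) (u v : Fin n → F) (hu : Q u ≠ 0) (hv : Q v ≠ 0) : ∃ g : ↥(Cfsg.isometryGroup F ⇑Q), g ∈ Cfsg.Omega F ⇑Q ∧ (F ∙ ((g : Matrix.GeneralLinearGroup (Fin n) F) : Matrix (Fin n) (Fin n) F).mulVec u) = F ∙ v := by
  have hnd := nd_of_nondegenerate hQ
  have hreg : Reg F (Fin n → F) := by
    rcases h with h | h
    · have := Fintype.one_lt_card (α := F)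
      exact Or.inl (by omega)
    · exact Or.inr (by rwa [Module.finrank_fin_fun])
  have h2 : (2 : F) = 0 := CharP.cast_eq_zero F 2
  obtain ⟨d, hd⟩ := FiniteField.isSquare_of_char_two (ringChar.eq F 2) (Q u / Q v)
  have hd0 : d ≠ 0 := fun h0 => div_ne_zero hu hv (by rw [hd, h0, zero_mul])
  have hQd : Q (d • v) = Q u := by
    rw [QuadraticMap.map_smul, smul_eq_mul, ← hd, div_mul_cancel₀ _ hv]
  obtain ⟨g, hg⟩ := exists_map_eq hnd hreg hu hQd
  have hg' : ∃ c : F, c ≠ 0 ∧ g.1 u = c • v := by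
    rcases hg with hg | hg
    · exact ⟨d, hd0, hg⟩
    · exact ⟨-d, neg_ne_zero.2 hd0, by rw [hg, neg_smul]⟩
  obtain ⟨hh, hS, hmem⟩ := exists_mul_mem_commutator hnd hreg g (stabS Q (F ∙ v))
    (Or.inr ⟨refl Q v, mem_stabS_of_le fun p hp => by
      obtain ⟨c, rfl⟩ := Submodule.mem_span_singleton.1 hp
      rw [refl_apply hv]
      exact sub_mem (Submodule.smul_mem _ _ (Submodule.mem_span_singleton_self v))
        (Submodule.smul_mem _ _ (Submodule.mem_span_singleton_self v)), dick_refl hnd hv⟩)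
    (Or.inl h2)
  set E := isoEquiv (Q := Q) ⇑Q (LinearEquiv.refl F _) (fun v => rfl)
  refine ⟨E.symm (hh * g), ?_, ?_⟩
  · rwa [mem_omega_iff ⇑Q (LinearEquiv.refl F _) (fun v => rfl), MulEquiv.apply_symm_apply]
  · obtain ⟨c, hc, hgc⟩ := hg'
    have e : (hh * g).1 u = c • hh.1 v := by
      rw [Subgroup.coe_mul, LinearEquiv.mul_apply, hgc, map_smul]
    rw [← E.apply_symm_apply (hh * g)] at e
    change (F ∙ (E (E.symm (hh * g))).1 u) = F ∙ v
    rw [e, Submodule.span_singleton_smul_eq (IsUnit.mk0 _ hc)]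
    have hS' : Submodule.map (hh.1 : (Fin n → F) →ₗ[F] (Fin n → F)) (F ∙ v) = F ∙ v := hS
    rwa [Submodule.map_span, Set.image_singleton] at hS'

end Cfsg.Agent.S2634
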