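import Cfsg.Statements.S2635
import Cfsg.Agent.Lib.Classical.QuadOmega.SingularApply

open Cfsg.Agent.Lib.Classical.QuadOmega Cfsg.Agent.Lib.Classical.Quad QuadraticMap

set_option autoImplicit false
open Cfsg

namespace Cfsg.Agent.S2635

/-- Over a finite field of characteristic two, for a quadratic form Q on F^n with non-degenerate polar form, n ≥ 2, other than dimension 4 over the field of two elements, Ω (the commutator subgroup of the orthogonal group) is exactly the subgroup generated by the products of two reflections (orthogonal transvections) x ↦ x − Q(v)⁻¹ f(x, v) v, Q(v) ≠ 0: the products of an even number of reflections. -/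
theorem result {F : Type*} [Field F] [Fintype F] [CharP F 2] {n : ℕ} (hn : 2 ≤ n) (h : Fintype.card F ≠ 2 ∨ n ≠ 4) (Q : QuadraticForm F (Fin n → F)) (hQ : (QuadraticMap.polarBilin Q).Nondegenerate) : Cfsg.Omega F ⇑Q = Subgroup.closure {g : ↥(Cfsg.isometryGroup F ⇑Q) | ∃ u v : Fin n → F, Q u ≠ 0 ∧ Q v ≠ 0 ∧ ((g : Matrix.GeneralLinearGroup (Fin n) F) : Matrix (Fin n) (Fin n) F) = Cfsg.reflectionMatrix ⇑Q u * Cfsg.reflectionMatrix ⇑Q v} := by
  have hnd := nd_of_nondegenerate hQ
  have hreg : Reg F (Fin n → F) := by
    rcases h with h | h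
    · have := Fintype.one_lt_card (α := F)
      exact Or.inl (by omega)
    · exact Or.inr (by rwa [Module.finrank_fin_fun])
  have h2 : (2 : F) = 0 := CharP.cast_eq_zero F 2
  set E := isoEquiv (Q := Q) ⇑Q (LinearEquiv.refl F _) (fun v => rfl) with hE
  set S : Set ↥(Cfsg.isometryGroup F ⇑Q) := {g | ∃ u v : Fin n → F, Q u ≠ 0 ∧ Q v ≠ 0 ∧
    ((g : Matrix.GeneralLinearGroup (Fin n) F) : Matrix (Fin n) (Fin n) F) =
      Cfsg.reflectionMatrix ⇑Q u * Cfsg.reflectionMatrix ⇑Q v}
  have hpair : ∀ u v, Q u ≠ 0 → Q v ≠ 0 → E.symm (refl Q u * refl Q v) ∈ S := fun u v hu hv => by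
    refine ⟨u, v, hu, hv, Matrix.ext_of_mulVec_single fun i => ?_⟩
    rw [← Matrix.mulVec_mulVec, reflectionMatrix_mulVec Q hv, reflectionMatrix_mulVec Q hu]
    exact (isoEquiv_apply (Q := Q) ⇑Q (LinearEquiv.refl F _) (fun v => rfl) _ _).symm.trans (by
      rw [← hE, MulEquiv.apply_symm_apply]; rfl)
  refine le_antisymm (fun g hg => ?_) ((Subgroup.closure_le _).2 ?_)
  · rw [mem_omega_iff ⇑Q (LinearEquiv.refl F _) (fun v => rfl),
      mem_commutator_iff_two hnd hreg h2] at hg
    obtain ⟨l, hl, hlg⟩ := exists_refl_list hnd hreg (E g)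
    rw [← hlg, dick_prod_refl hnd l hl] at hg
    obtain ⟨k, hk⟩ : Even l.length := by
      rcases Nat.even_or_odd l.length with he | ho
      · exact he
      · rw [ho.neg_one_pow] at hg; exact absurd hg (by decide)
    have key : ∀ (k : ℕ) (l : List (Fin n → F)), l.length = k + k → (∀ v ∈ l, Q v ≠ 0) →
        E.symm (l.map (refl Q)).prod ∈ Subgroup.closure S := by
      intro k
      induction k with
      | zero =>
        intro l hl _
        rw [List.length_eq_zero_iff.1 hl]
        simp
      | succ k ih =>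
        intro l hlen hl
        match l, hlen, hl with
        | a :: b :: l, hlen, hl =>
          rw [List.map_cons, List.map_cons, List.prod_cons, List.prod_cons, ← mul_assoc, map_mul]
          exact mul_mem (Subgroup.subset_closure (hpair a b (hl a (by simp)) (hl b (by simp))))
            (ih l (by simp at hlen; omega) fun v hv => hl v (by simp [hv]))
        | [a], hlen, _ => simp at hlen; omega
        | [], hlen, _ => simp at hlen
    have := key k l hk hl
    rwa [hlg, MulEquiv.symm_apply_apply] at this
  · rintro g ⟨u, v, hu, hv, hgm⟩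
    rw [SetLike.mem_coe, mem_omega_iff ⇑Q (LinearEquiv.refl F _) (fun v => rfl),
      mem_commutator_iff_two hnd hreg h2,
      show isoEquiv ⇑Q (LinearEquiv.refl F _) (fun v => rfl) g = refl Q u * refl Q v from
        iso_ext fun x => (congrArg (fun M => Matrix.mulVec M x) hgm).trans (by
          rw [← Matrix.mulVec_mulVec, reflectionMatrix_mulVec Q hv, reflectionMatrix_mulVec Q hu]
          rfl), map_mul, dick_refl hnd hu, dick_refl hnd hv]
    rfl

end Cfsg.Agent.S2635
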