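import Cfsg.Statements.S2636

set_option autoImplicit false
open Cfsg

namespace Cfsg.Agent.S2636

open scoped Matrix

theorem card_fixed {F : Type*} [Field F] [Fintype F] (σ : F ≃+* F) {q₀ r : ℕ} (hr : r.Prime)
    (hF : Fintype.card F = q₀ ^ r) (hσ : orderOf σ = r) :
    Nat.card ↥(FixedPoints.subfield (Subgroup.zpowers σ) F) = q₀ := by
  classical
  haveI : Finite (F ≃+* F) := Finite.of_injective (fun e => (e : F → F)) DFunLike.coe_injective
  haveI : Fintype ↥(Subgroup.zpowers σ) := Fintype.ofFinite _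
  have h1 : Module.finrank ↥(FixedPoints.subfield (Subgroup.zpowers σ) F) F = r := by
    rw [FixedPoints.finrank_eq_card, ← Nat.card_eq_fintype_card, Nat.card_zpowers, hσ]
  have h2 := Module.natCard_eq_pow_finrank (K := ↥(FixedPoints.subfield (Subgroup.zpowers σ) F)) (V := F)
  rw [h1, Nat.card_eq_fintype_card, hF] at h2
  exact (Nat.pow_left_injective hr.ne_zero h2).symm

theorem fixed_iff {F : Type*} [Field F] [Finite F] (σ : F ≃+* F) (a : F) :
    a ∈ FixedPoints.subfield (Subgroup.zpowers σ) F ↔ σ a = a := by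
  constructor
  · intro h; exact h ⟨σ, Subgroup.mem_zpowers σ⟩
  · haveI : Finite (F ≃+* F) := Finite.of_injective (fun e => (e : F → F)) DFunLike.coe_injective
    rintro h ⟨g, hg⟩
    obtain ⟨k, rfl⟩ := mem_powers_iff_mem_zpowers.2 hg
    show (σ ^ k) a = a
    induction k with
    | zero => rfl
    | succ k ih => rw [pow_succ, RingAut.mul_apply, h]; exact ih (Subgroup.npow_mem_zpowers σ k)


/-- Centraliser of a field automorphism in PGL_n: let F be the field with q = q₀^r elements, σ a field automorphism of F of prime order r (so its fixed field has q₀ elements) and n ≥ 1. The invertible matrices g whose entrywise image under σ is a scalar multiple of g — those whose coset modulo scalars is fixed by σ — number (q − 1)/(q₀ − 1) · |GL_n(q₀)|; equivalently the centraliser in PGL_n(q) of the induced automorphism has the order of PGL_n(q₀). -/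
theorem result {F : Type*} [Field F] [Fintype F] {q₀ r n : ℕ} (hr : r.Prime) (hn : 1 ≤ n) (hF : Fintype.card F = q₀ ^ r) (σ : F ≃+* F) (hσ : orderOf σ = r) : Nat.card {g : GL (Fin n) F // ∃ c : F, c ≠ 0 ∧ (g : Matrix (Fin n) (Fin n) F).map σ = c • (g : Matrix (Fin n) (Fin n) F)} = (q₀ ^ r - 1) / (q₀ - 1) * ∏ i : Fin n, (q₀ ^ n - q₀ ^ (i : ℕ)) := by
  classical
  haveI : Nonempty (Fin n) := ⟨⟨0, hn⟩⟩
  set F₀ := FixedPoints.subfield (Subgroup.zpowers σ) F with hF₀
  haveI : Fintype F₀ := Fintype.ofFinite F₀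
  have hq₀ : Nat.card F₀ = q₀ := card_fixed σ hr hF hσ
  let emb : GL (Fin n) F₀ →* GL (Fin n) F := Matrix.GeneralLinearGroup.map F₀.subtype
  let Φ : Fˣ × GL (Fin n) F₀ →* GL (Fin n) F :=
    { toFun := fun p => Matrix.GeneralLinearGroup.scalar (Fin n) p.1 * emb p.2
      map_one' := by simp
      map_mul' := fun a b => by
        rw [Prod.fst_mul, Prod.snd_mul, map_mul, map_mul]
        exact Commute.mul_mul_mul_comm (show Commute (Matrix.GeneralLinearGroup.scalar (Fin n) b.1) (emb a.2) from Matrix.GeneralLinearGroup.scalar_commute b.1 (emb a.2)) _ _ }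
  have hval : ∀ p : Fˣ × GL (Fin n) F₀, (Φ p : Matrix (Fin n) (Fin n) F)
      = (p.1 : F) • ((p.2 : Matrix (Fin n) (Fin n) F₀).map (fun a => (a : F))) := by
    intro p
    show Matrix.scalar (Fin n) (p.1 : F) * _ = _
    rw [Matrix.scalar_apply, ← Matrix.smul_one_eq_diagonal, smul_mul_assoc, one_mul]
    rfl
  have hset : ∀ g : GL (Fin n) F, (∃ c : F, c ≠ 0 ∧ (g : Matrix (Fin n) (Fin n) F).map σ = c • (g : Matrix (Fin n) (Fin n) F)) ↔ g ∈ Φ.range := by
    intro g
    constructor
    · rintro ⟨c, -, hg⟩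
      obtain ⟨i, j, hij⟩ : ∃ i j, (g : Matrix (Fin n) (Fin n) F) i j ≠ 0 := by
        by_contra h
        push Not at h
        exact g.ne_zero (Matrix.ext h)
      set a := (g : Matrix (Fin n) (Fin n) F) i j with ha
      have hc : σ a = c * a := congrFun (congrFun hg i) j
      have hmem : ∀ k l, (g : Matrix (Fin n) (Fin n) F) k l / a ∈ F₀ := by
        intro k l
        rw [hF₀, fixed_iff, map_div₀, show σ ((g : Matrix (Fin n) (Fin n) F) k l) = c * (g : Matrix (Fin n) (Fin n) F) k l from congrFun (congrFun hg k) l, hc]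
        have hc0 : c ≠ 0 := fun h0 => hij (σ.injective (by rw [hc, h0, zero_mul, map_zero]))
        rw [mul_div_mul_left _ _ hc0]
      set G0 : Matrix (Fin n) (Fin n) F₀ := Matrix.of fun k l => ⟨_, hmem k l⟩
      have hG : G0.map (fun x => (x : F)) = a⁻¹ • (g : Matrix (Fin n) (Fin n) F) := by
        ext k l; simp [G0, div_eq_inv_mul]
      have hdet : G0.det ≠ 0 := by
        intro h
        have h2 := RingHom.map_det F₀.subtype G0
        rw [h, map_zero, show F₀.subtype.mapMatrix G0 = a⁻¹ • (g : Matrix (Fin n) (Fin n) F) from hG, Matrix.det_smul] at h2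
        have hg0 : (g : Matrix (Fin n) (Fin n) F).det ≠ 0 := by
          rw [← Matrix.GeneralLinearGroup.val_det_apply]; exact Units.ne_zero _
        exact (mul_ne_zero (pow_ne_zero _ (inv_ne_zero hij)) hg0) h2.symm
      refine ⟨(Units.mk0 a hij, Matrix.GeneralLinearGroup.mkOfDetNeZero G0 hdet), Units.ext ?_⟩
      rw [hval]
      show a • G0.map (fun x => (x : F)) = _
      rw [hG, smul_smul, mul_inv_cancel₀ hij, one_smul]
    · rintro ⟨⟨a, g0⟩, rfl⟩
      refine ⟨σ a / a, div_ne_zero (fun h => a.ne_zero (σ.injective (h.trans (map_zero σ).symm))) a.ne_zero, ?_⟩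
      rw [hval, smul_smul, div_mul_cancel₀ _ a.ne_zero]
      ext k l
      simp only [Matrix.map_apply, Matrix.smul_apply, smul_eq_mul, map_mul]
      rw [(fixed_iff σ _).1 ((g0 : Matrix (Fin n) (Fin n) F₀) k l).2]
  rw [Nat.card_congr (Equiv.subtypeEquivRight hset)]
  have h1 : Nat.card Φ.range * Nat.card Φ.ker = Nat.card (Fˣ × GL (Fin n) F₀) := by
    rw [← Subgroup.index_ker, mul_comm, Subgroup.card_mul_index]
  let ψ : F₀ˣ →* Φ.ker :=
    { toFun := fun c => ⟨((Units.map (F₀.subtype : F₀ →* F) c)⁻¹, Matrix.GeneralLinearGroup.scalar (Fin n) c), by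
        rw [MonoidHom.mem_ker]
        apply Units.ext
        rw [hval]
        ext k l
        have hc0 : ((c : F₀) : F) ≠ 0 := fun h => c.ne_zero (Subtype.ext h)
        by_cases h : k = l <;> simp [Matrix.GeneralLinearGroup.scalar, Matrix.diagonal, h, hc0]⟩
      map_one' := by simp
      map_mul' := fun a b => Subtype.ext (Prod.ext (show (Units.map (F₀.subtype : F₀ →* F) (a * b))⁻¹ = _ by rw [map_mul, mul_inv]; rfl) (map_mul _ a b)) }
  have hψ : Function.Bijective ψ := by
    constructor
    · intro a b h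
      have := congrArg (fun z : Φ.ker => ((z : Fˣ × GL (Fin n) F₀).1)⁻¹) h
      simp only [ψ, MonoidHom.coe_mk, OneHom.coe_mk, inv_inv] at this
      exact Units.ext (Subtype.ext (congrArg Units.val this))
    · rintro ⟨⟨a, g0⟩, hk⟩
      have hk' := congrArg Units.val (MonoidHom.mem_ker.1 hk)
      rw [hval] at hk'
      have hent : ∀ k l, (a : F) * (((g0 : Matrix (Fin n) (Fin n) F₀) k l : F₀) : F) = if k = l then 1 else 0 := by
        intro k l
        have := congrFun (congrFun hk' k) l
        simpa [Matrix.one_apply] using this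
      set d := (g0 : Matrix (Fin n) (Fin n) F₀) ⟨0, hn⟩ ⟨0, hn⟩
      have hd : (a : F) * (d : F) = 1 := by simpa using hent ⟨0, hn⟩ ⟨0, hn⟩
      have hd0 : d ≠ 0 := by
        intro h; rw [h] at hd; simp at hd
      refine ⟨Units.mk0 d hd0, Subtype.ext (Prod.ext (Units.ext ?_) (Units.ext ?_))⟩
      · show ((d : F))⁻¹ = (a : F)
        exact (eq_inv_of_mul_eq_one_left hd).symm
      · show Matrix.scalar (Fin n) d = (g0 : Matrix (Fin n) (Fin n) F₀)
        ext k l
        have e := hent k l
        have ha : (a : F) = (d : F)⁻¹ := eq_inv_of_mul_eq_one_left hd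
        rw [ha, inv_mul_eq_iff_eq_mul₀ (fun h => hd0 (Subtype.ext h))] at e
        rw [Matrix.scalar_apply]
        by_cases h : k = l
        · subst h; rw [if_pos rfl, mul_one] at e; rw [Matrix.diagonal_apply_eq, e]
        · rw [if_neg h, mul_zero] at e; rw [Matrix.diagonal_apply_ne _ h, e]; rfl
  rw [← Nat.card_eq_of_bijective ψ hψ, Nat.card_units, Nat.card_prod, Nat.card_units, Nat.card_eq_fintype_card (α := F), hF,
    Matrix.card_GL_field, ← Nat.card_eq_fintype_card (α := F₀), hq₀] at h1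
  have hq2 : 2 ≤ q₀ := hq₀ ▸ Finite.one_lt_card
  obtain ⟨D, hD⟩ : q₀ - 1 ∣ q₀ ^ r - 1 := Nat.sub_one_dvd_pow_sub_one q₀ r
  rw [hD, Nat.mul_div_cancel_left _ (by omega : 0 < q₀ - 1)]
  rw [hD, mul_assoc, mul_comm] at h1
  exact Nat.eq_of_mul_eq_mul_left (by omega : 0 < q₀ - 1) h1

end Cfsg.Agent.S2636
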