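import Cfsg.Statements.S2637
import Cfsg.Agent.Lib.Classical.UnitaryFlatCentralizer
import Cfsg.Agent.Lib.GLn.TorsionPow
import Cfsg.Agent.S2389

set_option autoImplicit false
open Cfsg

namespace Cfsg.Agent.S2637

open Polynomial Cfsg.Agent.Lib.Classical.UnitaryFlat Cfsg.Agent.Lib.Classical.Quad


/-- Centraliser of a fixed-point-free element of order three in Sp_2m(q) when q ≡ 2 (mod 3): if x ∈ Sp_2m(F) (|F| = q, m ≥ 1) satisfies x³ = 1 and x − 1 is invertible, then its centraliser in Sp_2m(F) has the order of the unitary group GU_m(q), namely q^(m(m−1)/2) Π_(i=1)^m (q^i − (−1)^i) (x lies in the centre of a subgroup GU_m(q) of Sp_2m(q)). -/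
theorem result {F : Type*} [Field F] [Fintype F] {q : ℕ} (hF : Fintype.card F = q) (hq : q % 3 = 2) {m : ℕ} (hm : 1 ≤ m) (x : Matrix.symplecticGroup (Fin m) F) (hx3 : x ^ 3 = 1) (hfpf : IsUnit ((x : Matrix (Fin m ⊕ Fin m) (Fin m ⊕ Fin m) F) - 1)) : (Nat.card ↥(Subgroup.centralizer ({x} : Set ↥(Matrix.symplecticGroup (Fin m) F))) : ℤ) = (q : ℤ) ^ (m * (m - 1) / 2) * ∏ i : Fin m, ((q : ℤ) ^ ((i : ℕ) + 1) - (-1) ^ ((i : ℕ) + 1)) := by
  classical
  obtain ⟨p, hp⟩ := CharP.exists F
  obtain ⟨k, hpp, hk⟩ := FiniteField.card F p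
  haveI : Fact p.Prime := ⟨hpp⟩
  have hp3 : p ≠ 3 := fun e => by
    subst e
    rw [← hF, hk] at hq
    have : 3 ∣ 3 ^ (k : ℕ) := dvd_pow_self 3 k.ne_zero
    omega
  have h3 : (3 : F) ≠ 0 := fun e => hp3 (by
    have h := (CharP.cast_eq_zero_iff F p 3).1 (by exact_mod_cast e)
    exact (Nat.prime_dvd_prime_iff_eq hpp Nat.prime_three).1 h)
  have h3p : Nat.Coprime 3 p := (Nat.coprime_primes Nat.prime_three hpp).2 (Ne.symm hp3)
  have hroot : ∀ t : F, t ^ 2 + t + 1 ≠ 0 := fun t ht => by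
    have ht3 : t ^ 3 = 1 := by linear_combination (t - 1) * ht
    have ht1 : t ≠ 1 := fun e => h3 (by rw [e] at ht; linear_combination ht)
    have ht0 : t ≠ 0 := fun e => by rw [e] at ht; norm_num at ht
    haveI : Fact (Nat.Prime 3) := ⟨Nat.prime_three⟩
    have ho : orderOf t = 3 := orderOf_eq_prime ht3 ht1
    have h : orderOf t ∣ Fintype.card F - 1 := orderOf_dvd_of_pow_eq_one (FiniteField.pow_card_sub_one_eq_one t ht0)
    rw [ho, hF] at h
    omega
  have hab : Aniso (1 : F) 1 := fun z₁ z₂ h => by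
    rcases eq_or_ne z₂ 0 with rfl | h2
    · exact ⟨(pow_eq_zero_iff two_ne_zero).1 (by linear_combination h), rfl⟩
    · refine absurd ?_ (hroot (z₁ / z₂))
      field_simp
      linear_combination h
  letI : Fintype (GaloisField p (2 * k)) := Fintype.ofFinite _
  have hK : Fintype.card (GaloisField p (2 * k)) = q ^ 2 := by
    rw [← Nat.card_eq_fintype_card, GaloisField.card p _ (by have := k.pos; omega), ← hF, hk, ← pow_mul, mul_comm]
  obtain ⟨D⟩ := exists_data (K := GaloisField p (2 * k)) hF hK hab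
  have hθ : D.θ * D.θ - D.θ + 1 = 0 := by
    have h1 := D.htr
    have h2 := D.hnm
    rw [map_one] at h1 h2
    linear_combination D.θ * h1 - h2
  set g0 : GL (Fin m) (GaloisField p (2 * k)) :=
    Matrix.GeneralLinearGroup.scalar (Fin m) (Units.mk0 D.θ fun e => by
      have h2 := D.hnm
      rw [e, zero_mul, map_one] at h2
      exact zero_ne_one h2) with hg0
  have hg0v : (g0 : Matrix (Fin m) (Fin m) (GaloisField p (2 * k))) = D.θ • 1 := by
    rw [hg0, Matrix.GeneralLinearGroup.coe_scalar, Matrix.smul_one_eq_diagonal]; rfl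
  have hg0u : g0 ∈ Cfsg.GU m (GaloisField p (2 * k)) q := fun v w => by
    show Cfsg.hermForm m _ q ((g0 : Matrix _ _ _).mulVec v) ((g0 : Matrix _ _ _).mulVec w) = _
    simp only [hg0v, Matrix.smul_mulVec, Matrix.one_mulVec, Cfsg.hermForm, Pi.smul_apply, smul_eq_mul, mul_pow]
    refine Finset.sum_congr rfl fun i _ => ?_
    have h2 := D.hnm
    rw [map_one] at h2
    linear_combination (v i * w i ^ q) * h2
  let A : Matrix.symplecticGroup (Fin m) F := ⟨flatTheta D, by
    rw [flatTheta, ← hg0v]; exact flatMat_alt D ⟨g0, hg0u⟩⟩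
  -- the generator is minus a primitive cube root of unity
  set T := flatTheta D (m := m) with hT
  have hTT : T * T - T + 1 = 0 := by
    refine Matrix.ext_of_mulVec_single fun i => (iota_bijective D).1 ?_
    rw [Matrix.zero_mulVec, Matrix.add_mulVec, Matrix.sub_mulVec, Matrix.one_mulVec, ← Matrix.mulVec_mulVec,
      iota_add, sub_eq_add_neg, iota_add, show -(T.mulVec (Pi.single i 1)) = (-1 : F) • T.mulVec (Pi.single i 1) by simp,
      iota_smul, map_neg, map_one, hT, iota_flatTheta, iota_flatTheta]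
    rw [show iota D (0 : Fin m ⊕ Fin m → F) = 0 by ext; simp [iota]]
    calc _ = (D.θ * D.θ - D.θ + 1) • iota D (Pi.single i 1) := by module
      _ = 0 := by rw [hθ, zero_smul]
  -- `-A` is conjugate to `x`
  let Z : Matrix.symplecticGroup (Fin m) F := ⟨-1, by simp [SymplecticGroup.mem_iff]⟩
  have hZ : ∀ B : Matrix.symplecticGroup (Fin m) F, B * Z = Z * B := fun B => Subtype.ext (by simp [Z])
  set y := Z * A with hy
  have hyv : (y : Matrix (Fin m ⊕ Fin m) (Fin m ⊕ Fin m) F) = -T := by simp [y, Z, A, T]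
  let ψ : ↥(Matrix.symplecticGroup (Fin m) F) →* GL (Fin m ⊕ Fin m) F := (Matrix.symplecticGroup (Fin m) F).subtype.toHomUnits
  have hy3 : y ^ 3 = 1 := by
    apply Subtype.ext
    rw [SubmonoidClass.coe_pow, hyv, pow_succ, pow_succ, pow_one, Submonoid.coe_one]
    have h : -T * -T * -T = 1 + -(T + 1) * (T * T - T + 1) := by noncomm_ring
    rw [h, hTT, mul_zero, add_zero]
  have hy1 : IsUnit ((y : Matrix (Fin m ⊕ Fin m) (Fin m ⊕ Fin m) F) - 1) := by
    refine Matrix.mulVec_injective_iff_isUnit.1 ((injective_iff_map_eq_zero (Matrix.mulVecLin _)).2 fun v hv => ?_)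
    have h1 : T.mulVec v = -v := by
      rw [Matrix.mulVecLin_apply, hyv, Matrix.sub_mulVec, Matrix.neg_mulVec, Matrix.one_mulVec, sub_eq_zero] at hv
      rw [← neg_neg (T.mulVec v), hv]
    have h2 := congrArg (fun M => M.mulVec v) hTT
    simp only [Matrix.zero_mulVec, Matrix.add_mulVec, Matrix.sub_mulVec, Matrix.one_mulVec, ← Matrix.mulVec_mulVec,
      h1, Matrix.mulVec_neg, neg_neg, sub_neg_eq_add] at h2
    have h5 : (3 : F) • v = 0 := by rw [← h2]; module
    exact (smul_eq_zero.1 h5).resolve_left h3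
  -- the characteristic polynomial is forced
  have hchar : ∀ z : ↥(Matrix.symplecticGroup (Fin m) F), z ^ 3 = 1 → IsUnit ((z : Matrix (Fin m ⊕ Fin m) (Fin m ⊕ Fin m) F) - 1) →
      (orderOf z).Coprime p ∧
      (z : Matrix (Fin m ⊕ Fin m) (Fin m ⊕ Fin m) F).charpoly = (X ^ 2 + X + 1) ^ m := by
    intro z hz hz1
    have hc : (orderOf z).Coprime p := Nat.Coprime.of_dvd_left (orderOf_dvd_of_pow_eq_one hz) h3p
    refine ⟨hc, ?_⟩
    have hψc : (orderOf (ψ z)).Coprime p := by
      rwa [orderOf_injective ψ (fun a b e => Subtype.ext (congrArg Units.val e))]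
    have hfac := (Cfsg.Agent.Lib.GLn.TorsionPow.pow_eq_one_iff p (ψ z) hψc 3).1 (by rw [← map_pow, hz, map_one])
    set P := (z : Matrix (Fin m ⊕ Fin m) (Fin m ⊕ Fin m) F).charpoly
    have hgm : (X ^ 2 + X + 1 : F[X]).Monic := by monicity!
    have hgd : (X ^ 2 + X + 1 : F[X]).natDegree = 2 := by compute_degree!
    have hgi : Irreducible (X ^ 2 + X + 1 : F[X]) := by
      rw [hgm.irreducible_iff_roots_eq_zero_of_degree_le_three (by omega) (by omega)]
      refine Multiset.eq_zero_of_forall_notMem fun t ht => ?_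
      rw [mem_roots hgm.ne_zero] at ht
      exact hroot t (by simpa using ht)
    have hfc : ∀ h : F[X], Irreducible h → h.Monic → h ∣ P → ∃ _u : Unit, (X ^ 2 + X + 1 : F[X]) = h := by
      intro h hh hhm hd
      refine ⟨(), ?_⟩
      have h31 := hfac h hh hhm hd
      rw [show (X : F[X]) ^ 3 - 1 = (X - 1) * (X ^ 2 + X + 1) by ring] at h31
      rcases hh.prime.dvd_or_dvd h31 with h4 | h4
      · exfalso
        have h5 := eq_of_monic_of_associated hhm (by simpa using monic_X_sub_C (1 : F))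
          (hh.associated_of_dvd (by simpa using irreducible_X_sub_C (1 : F)) h4)
        rw [h5] at hd
        obtain ⟨c, hc'⟩ := hd
        have h6 := congrArg (eval (1 : F)) hc'
        rw [Matrix.eval_charpoly, eval_mul, eval_sub, eval_X, eval_one, sub_self, zero_mul] at h6
        rw [Matrix.isUnit_iff_isUnit_det] at hz1
        refine hz1.ne_zero ?_
        rw [show (z : Matrix (Fin m ⊕ Fin m) (Fin m ⊕ Fin m) F) - 1 = -(Matrix.scalar (Fin m ⊕ Fin m) (1 : F) - (z : Matrix (Fin m ⊕ Fin m) (Fin m ⊕ Fin m) F)) by simp,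
          Matrix.det_neg, h6, mul_zero]
      · exact (eq_of_monic_of_associated hhm hgm (hh.associated_of_dvd hgi h4)).symm
    obtain ⟨e, he⟩ := Cfsg.Agent.Lib.GLn.TorsionClasses.exists_eq_prod (fun _ : Unit => (X ^ 2 + X + 1 : F[X]))
      (fun _ _ _ => rfl) P (Matrix.charpoly_monic _) hfc
    simp only [Fintype.univ_unit, Finset.prod_singleton] at he
    have hdeg := congrArg natDegree he
    rw [Matrix.charpoly_natDegree_eq_dim, natDegree_pow, hgd, Fintype.card_sum, Fintype.card_fin] at hdeg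
    rw [he, show e () = m by omega]
  obtain ⟨hxc, hxP⟩ := hchar x hx3 hfpf
  obtain ⟨hyc, hyP⟩ := hchar y hy3 hy1
  obtain ⟨c, hc⟩ := isConj_iff.1 (Cfsg.Agent.S2389.result p m y x hyc hxc (hyP.trans hxP.symm))
  have hcy : ∀ B : ↥(Matrix.symplecticGroup (Fin m) F), B * y = y * B ↔ B * A = A * B := fun B => by
    rw [hy, ← mul_assoc, hZ, mul_assoc Z A B, mul_assoc, mul_left_cancel_iff]
  have e1 : Nat.card (Subgroup.centralizer ({x} : Set ↥(Matrix.symplecticGroup (Fin m) F))) = Nat.card (Subgroup.centralizer ({A} : Set ↥(Matrix.symplecticGroup (Fin m) F))) := by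
    refine Nat.card_congr (((MulAut.conj c).symm.toEquiv).subtypeEquiv fun B => ?_)
    rw [Subgroup.mem_centralizer_singleton_iff, Subgroup.mem_centralizer_singleton_iff, ← hcy, ← hc]
    show B * (c * y * c⁻¹) = c * y * c⁻¹ * B ↔ c⁻¹ * B * c * y = y * (c⁻¹ * B * c)
    constructor <;> intro h
    · calc c⁻¹ * B * c * y = c⁻¹ * (B * (c * y * c⁻¹)) * c := by group
        _ = _ := by rw [h]; group
    · calc B * (c * y * c⁻¹) = c * (c⁻¹ * B * c * y) * c⁻¹ := by group
        _ = _ := by rw [h]; group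
  have hq1 : 1 ≤ q := hF ▸ Fintype.card_pos
  rw [e1, card_centralizer_theta D hK A rfl, Cfsg.Agent.Lib.Classical.Herm.card_GU hK,
    Fin.prod_univ_eq_prod_range (fun i => (q : ℤ) ^ (i + 1) - (-1) ^ (i + 1)), Nat.cast_mul, Nat.cast_pow, Nat.cast_prod]
  refine congrArg _ (Finset.prod_congr rfl fun i _ => ?_)
  rcases Nat.even_or_odd i with he | ho
  · rw [if_pos he, he.add_one.neg_one_pow]; push_cast; ring
  · rw [if_neg (Nat.not_even_iff_odd.2 ho), ho.add_one.neg_one_pow, Nat.cast_sub (Nat.one_le_pow _ _ hq1)]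
    push_cast; ring

end Cfsg.Agent.S2637
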