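import Cfsg.Statements.S2642
import Cfsg.Agent.Lib.Jordan.Unitary

set_option autoImplicit false
open Cfsg

namespace Cfsg.Agent.S2642

/-- Number of conjugacy classes of elements of order p in the general unitary group GU_n(q), q a power of p: every unipotent Jordan type occurs and the classes correspond to the partitions of n with all parts at most p other than the all-ones partition, exactly as in GL_n; so there are (number of partitions of n with parts ≤ p) − 1 classes. -/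
theorem result {K : Type*} [Field K] [Fintype K] {p q n : ℕ} [Fact p.Prime] [CharP K p] (hK : Fintype.card K = q ^ 2) : Nat.card {C : ConjClasses ↥(Cfsg.GU n K q) // ∃ g : ↥(Cfsg.GU n K q), ConjClasses.mk g = C ∧ orderOf g = p} = (Finset.univ.filter (fun μ : Nat.Partition n => ∀ a ∈ μ.parts, a ≤ p)).card - 1 := by
  classical
  have hp : p.Prime := Fact.out
  rw [← Cfsg.Agent.Lib.Jordan.card_filter_ne_ones n hp.one_lt.le]
  haveI : Finite (↥(Cfsg.GU n K q)) := inferInstance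
  rcases Nat.eq_zero_or_pos n with rfl | hn
  · have h1 : ∀ g : ↥(Cfsg.GU 0 K q), g = 1 := fun g => Subtype.ext (Units.ext (Subsingleton.elim _ _))
    rw [Finset.card_eq_zero.mpr (Finset.filter_eq_empty_iff.mpr fun μ _ h => h.2 fun a ha => absurd (Nat.Partition.le_of_mem_parts ha) (Nat.not_le.mpr (μ.parts_pos ha)))]
    · have : IsEmpty {C : ConjClasses ↥(Cfsg.GU 0 K q) // ∃ g : ↥(Cfsg.GU 0 K q), ConjClasses.mk g = C ∧ orderOf g = p} :=
        ⟨fun ⟨C, g, _, hg⟩ => by rw [h1 g, orderOf_one] at hg; exact hp.one_lt.ne hg⟩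
      exact Nat.card_of_isEmpty
  haveI : Nonempty (Fin n) := ⟨⟨0, hn⟩⟩
  simp only [and_comm (a := ConjClasses.mk _ = _)]
  refine Cfsg.Agent.Lib.Jordan.card_classes (fun g : ↥(Cfsg.GU n K q) => orderOf g = p)
    (fun g (μ : Nat.Partition n) => Cfsg.Agent.Lib.Jordan.MType (((g : GL (Fin n) K) : Matrix (Fin n) (Fin n) K) - 1) μ.parts)
    _ (fun g hg => ?_) (fun g a b ha hb => Nat.Partition.ext (ha.unique hb)) (fun g h a ha hgh => ?_)
    (fun g h a ha hb => ?_) (fun a hmem => ?_)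
  · rw [← Subgroup.orderOf_coe] at hg
    obtain ⟨μ, hμ⟩ := Cfsg.Agent.Lib.Jordan.MType.exists_of_isNilpotent
      ((Cfsg.Agent.Lib.Jordan.unipotent_iff p (g : GL (Fin n) K)).mp ⟨1, by rw [pow_one]; exact hg⟩)
    exact ⟨⟨μ, fun hi => hμ.pos hi, by rw [hμ.sum_eq, Fintype.card_fin]⟩, Finset.mem_filter.mpr
      ⟨Finset.mem_univ _, (Cfsg.Agent.Lib.Jordan.order_p_iff p hμ).mp hg⟩, hμ⟩
  · obtain ⟨c, hc⟩ := isConj_iff.1 hgh
    refine ha.conj (c : GL (Fin n) K) ?_
    rw [Matrix.mul_sub, Matrix.sub_mul, Matrix.mul_one, Matrix.one_mul, sub_left_inj, ← Units.val_mul, ← Units.val_mul,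
      ← Subgroup.coe_mul, ← Subgroup.coe_mul, ← hc, inv_mul_cancel_right]
  · obtain ⟨c, hc⟩ := ha.exists_gl hb
    rw [Matrix.mul_sub, Matrix.sub_mul, Matrix.mul_one, Matrix.one_mul, sub_left_inj] at hc
    obtain ⟨d, hd, hd'⟩ := Cfsg.Agent.Lib.UnitaryUnipotent.conj_in_GU hK (g : GL (Fin n) K) h c g.2 h.2
      (Units.ext hc)
    exact isConj_iff.2 ⟨⟨d, hd⟩, mul_inv_eq_iff_eq_mul.2 (Subtype.ext hd')⟩
  · obtain ⟨u, hu, hut⟩ := Cfsg.Agent.Lib.Jordan.exists_gu hK a
    refine ⟨⟨u, hu⟩, ?_, hut⟩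
    rw [← Subgroup.orderOf_coe]
    exact (Cfsg.Agent.Lib.Jordan.order_p_iff p hut).mpr (Finset.mem_filter.mp hmem).2

end Cfsg.Agent.S2642
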