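import Cfsg.Statements.S2643
import Cfsg.Agent.Lib.UnitaryUnipotent

set_option autoImplicit false
open Cfsg

namespace Cfsg.Agent.S2643

open Lib.UnitaryConj Lib.UnitaryUnipotent

theorem mem_SU_iff {K : Type*} [Field K] [Fintype K] {q n : ℕ} (hK : Fintype.card K = q ^ 2)
    (s : Matrix.SpecialLinearGroup (Fin n) K) :
    s ∈ Cfsg.SU n K q ↔ tstar hK (s : Matrix (Fin n) (Fin n) K) * (s : Matrix (Fin n) (Fin n) K) = 1 :=
  (show s ∈ Cfsg.SU n K q ↔ (Matrix.SpecialLinearGroup.toGL s) ∈ Cfsg.GU n K q from Iff.rfl).trans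
    (mem_GU_iff hK (Matrix.SpecialLinearGroup.toGL s))


/-- Regular unipotent classes of SU_n(q), n ≥ 2: the elements u of the special unitary group (isometries of Σ u_i v_i^q of determinant one over the field with q² elements) with (u − 1)^n = 0 and rank(u − 1) = n − 1 form exactly gcd(n, q + 1) conjugacy classes of SU_n(q). -/
theorem result {K : Type*} [Field K] [Fintype K] {q n : ℕ} (hK : Fintype.card K = q ^ 2) (hn : 2 ≤ n) : Nat.card {C : ConjClasses ↥(Cfsg.SU n K q) // ∃ u : ↥(Cfsg.SU n K q), ConjClasses.mk u = C ∧ (((u : GL (Fin n) K) : Matrix (Fin n) (Fin n) K) - 1) ^ n = 0 ∧ (((u : GL (Fin n) K) : Matrix (Fin n) (Fin n) K) - 1).rank = n - 1} = Nat.gcd n (q + 1) := by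
  classical
  haveI : NeZero n := ⟨by omega⟩
  obtain ⟨u₀, hu₀, hn1, hn2⟩ := exists_regular hK (n := n) (by omega)
  set J : Matrix (Fin n) (Fin n) K := (u₀ : Matrix (Fin n) (Fin n) K) with hJ
  rw [mem_GU_iff hK, ← hJ] at hu₀
  have hn2' : (J - 1).rank = Fintype.card (Fin n) - 1 := by rw [hn2, Fintype.card_fin]
  have hdJ : J.det = 1 := by
    have h := Lib.UnipDet.det_smul_one_add (1 : K) (J - 1) ⟨n, hn1⟩
    rwa [one_smul, add_sub_cancel, one_pow] at h
  let D : Kˣ → Matrix (Fin n) (Fin n) K := fun a => Matrix.diagonal (Function.update 1 0 (a : K))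
  have hD : ∀ a, (D a).det = a := fun a => by
    show Matrix.det (Matrix.diagonal _) = _
    rw [Matrix.det_diagonal, Finset.prod_update_of_mem (Finset.mem_univ _)]; simp
  have hDi : ∀ a : Kˣ, D a * D a⁻¹ = 1 := fun a => by
    show Matrix.diagonal _ * Matrix.diagonal _ = _
    rw [Matrix.diagonal_mul_diagonal, ← Matrix.diagonal_one]
    congr 1; funext i
    by_cases h : i = 0
    · subst h; simp
    · simp [Function.update_of_ne h]
  have hDi' : ∀ a : Kˣ, D a⁻¹ * D a = 1 := fun a => by simpa using hDi a⁻¹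
  let μ : Subgroup Kˣ := (powMonoidHom (q + 1) : Kˣ →* Kˣ).ker
  have hDstar : ∀ a ∈ μ, tstar hK (D a) = D a⁻¹ := by
    intro a ha
    show ((Matrix.diagonal _).map _).transpose = Matrix.diagonal _
    rw [Matrix.diagonal_map (map_zero _), Matrix.diagonal_transpose]
    congr 1; funext i
    by_cases h : i = 0
    · subst h
      simp only [Function.update_self, Units.val_inv_eq_inv_val, Function.comp_apply]
      rw [qHom_eq_pow]
      have h1 : (a : K) ^ (q + 1) = 1 := by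
        rw [← Units.val_pow_eq_pow_val, show a ^ (q + 1) = 1 from ha, Units.val_one]
      rw [pow_succ] at h1
      exact eq_inv_of_mul_eq_one_left h1
    · simp [Function.update_of_ne h]
  let Ja : ↥μ → ↥(Cfsg.SU n K q) := fun a =>
    ⟨⟨D (a : Kˣ) * J * D (a : Kˣ)⁻¹, by
      rw [Matrix.det_mul, Matrix.det_mul, hD, hD, hdJ, mul_one, ← Units.val_mul, mul_inv_cancel, Units.val_one]⟩, by
      refine (mem_SU_iff hK _).2 ?_
      show tstar hK (D (a : Kˣ) * J * D (a : Kˣ)⁻¹) * (D (a : Kˣ) * J * D (a : Kˣ)⁻¹) = 1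
      rw [tstar_mul, tstar_mul, hDstar _ a.2, hDstar _ (μ.inv_mem a.2), inv_inv]
      calc _ = D (a : Kˣ) * (tstar hK J * ((D (a : Kˣ)⁻¹ * D (a : Kˣ)) * J)) * D (a : Kˣ)⁻¹ := by simp only [mul_assoc]
        _ = 1 := by rw [hDi', one_mul, hu₀, mul_one, hDi]⟩
  let val : ↥(Cfsg.SU n K q) → Matrix (Fin n) (Fin n) K := fun s => ((s : Matrix.SpecialLinearGroup (Fin n) K) : Matrix (Fin n) (Fin n) K)
  have hval : ∀ a, val (Ja a) = D (a : Kˣ) * J * D (a : Kˣ)⁻¹ := fun a => rfl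
  have hval_mul : ∀ x y, val (x * y) = val x * val y := fun x y => rfl
  have hval_inj : Function.Injective val := fun x y h => Subtype.ext (Subtype.ext h)
  have hiff : ∀ a b : ↥μ, ConjClasses.mk (Ja a) = ConjClasses.mk (Ja b) ↔
      a⁻¹ * b ∈ (powMonoidHom n : ↥μ →* ↥μ).range := by
    intro a b
    rw [ConjClasses.mk_eq_mk_iff_isConj, isConj_iff]
    constructor
    · rintro ⟨s, hs⟩
      have hsJ : val s * val (Ja a) = val (Ja b) * val s := by
        rw [← hval_mul, ← hval_mul, mul_inv_eq_iff_eq_mul.1 hs]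
      rw [hval, hval] at hsJ
      set X := D (b : Kˣ)⁻¹ * val s * D (a : Kˣ) with hX
      have hcomm : Commute X J := by
        show X * J = J * X
        calc X * J = D (b : Kˣ)⁻¹ * (val s * (D (a : Kˣ) * J * D (a : Kˣ)⁻¹)) * D (a : Kˣ) := by
              rw [hX]; simp only [mul_assoc, hDi', mul_one]
          _ = D (b : Kˣ)⁻¹ * (D (b : Kˣ) * J * D (b : Kˣ)⁻¹ * val s) * D (a : Kˣ) := by rw [hsJ]
          _ = (D (b : Kˣ)⁻¹ * D (b : Kˣ)) * J * X := by rw [hX]; simp only [mul_assoc]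
          _ = J * X := by rw [hDi', one_mul]
      obtain ⟨c, hc⟩ := Lib.UnipConst.exists_const hn1 hn2' hcomm
      have hXd := Lib.UnipConst.det_eq_pow hc
      have hsGU : tstar hK (val s) * val s = 1 := (mem_SU_iff hK _).1 s.2
      have hXX : tstar hK X * X = 1 := by
        rw [hX, tstar_mul, tstar_mul, hDstar _ a.2, hDstar _ (μ.inv_mem b.2), inv_inv]
        calc _ = D (a : Kˣ)⁻¹ * (tstar hK (val s) * ((D (b : Kˣ) * D (b : Kˣ)⁻¹) * val s)) * D (a : Kˣ) := by simp only [mul_assoc]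
          _ = 1 := by rw [hDi, one_mul, hsGU, mul_one, hDi']
      have hXc : Commute (tstar hK X) X := hXX.trans (mul_eq_one_comm.1 hXX).symm
      have hc' : IsNilpotent (tstar hK X - qHom hK c • (1 : Matrix (Fin n) (Fin n) K)) := by
        have := isNilpotent_tstar hK hc
        rwa [tstar_sub, tstar_smul, tstar_one] at this
      have h1 := Lib.UnipConst.const_mul hXc hc' hc
      rw [hXX] at h1
      have hc1 : qHom hK c * c = 1 := Lib.UnipConst.const_unique h1 (by simp)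
      rw [qHom_eq_pow, ← pow_succ] at hc1
      have hc0 : c ≠ 0 := by rintro rfl; rw [zero_pow (by omega)] at hc1; exact zero_ne_one hc1
      have hcμ : Units.mk0 c hc0 ∈ μ := Units.ext (by simpa using hc1)
      rw [hX, Matrix.det_mul, Matrix.det_mul, hD, hD,
        (s : Matrix.SpecialLinearGroup (Fin n) K).2, mul_one, Fintype.card_fin] at hXd
      refine ⟨(⟨_, hcμ⟩ : ↥μ)⁻¹, ?_⟩
      show ((⟨_, hcμ⟩ : ↥μ)⁻¹) ^ n = _
      rw [inv_pow, inv_eq_iff_eq_inv, mul_inv_rev, inv_inv]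
      apply Subtype.ext
      exact Units.ext (by simpa using hXd.symm)
    · rintro ⟨c, hc⟩
      have hcq : qHom hK ((c : Kˣ) : K)⁻¹ * ((c : Kˣ) : K)⁻¹ = 1 := by
        rw [qHom_eq_pow, ← pow_succ, inv_pow, ← Units.val_pow_eq_pow_val,
          show (c : Kˣ) ^ (q + 1) = 1 from c.2, Units.val_one, inv_one]
      set X : Matrix (Fin n) (Fin n) K := ((c : Kˣ) : K)⁻¹ • (D (b : Kˣ) * D (a : Kˣ)⁻¹) with hX
      have hdet : X.det = 1 := by
        rw [hX, Matrix.det_smul, Matrix.det_mul, hD, hD, Fintype.card_fin]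
        have := congrArg (fun x : ↥μ => ((x : Kˣ) : K)) hc
        simp only [powMonoidHom_apply, Subgroup.coe_pow, Subgroup.coe_mul, Subgroup.coe_inv,
          Units.val_pow_eq_pow_val, Units.val_mul] at this
        rw [inv_pow, this]
        have ha := Units.ne_zero (a : Kˣ)
        have hb := Units.ne_zero (b : Kˣ)
        simp only [Units.val_inv_eq_inv_val]
        field_simp
      have hXU : tstar hK X * X = 1 := by
        rw [hX, tstar_smul, tstar_mul, hDstar _ b.2, hDstar _ (μ.inv_mem a.2), inv_inv, Matrix.smul_mul,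
          Matrix.mul_smul, smul_smul, hcq, one_smul]
        calc _ = D (a : Kˣ) * (D (b : Kˣ)⁻¹ * D (b : Kˣ)) * D (a : Kˣ)⁻¹ := by simp only [mul_assoc]
          _ = 1 := by rw [hDi', mul_one, hDi]
      let s : ↥(Cfsg.SU n K q) := ⟨⟨X, hdet⟩, (mem_SU_iff hK _).2 hXU⟩
      refine ⟨s, mul_inv_eq_iff_eq_mul.2 (hval_inj ?_)⟩
      rw [hval_mul, hval_mul, hval, hval, show val s = X from rfl, hX, Matrix.smul_mul, Matrix.mul_smul]
      congr 1
      calc D (b : Kˣ) * D (a : Kˣ)⁻¹ * (D (a : Kˣ) * J * D (a : Kˣ)⁻¹) = D (b : Kˣ) * (D (a : Kˣ)⁻¹ * D (a : Kˣ)) * J * D (a : Kˣ)⁻¹ := by simp only [mul_assoc]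
        _ = D (b : Kˣ) * J * D (a : Kˣ)⁻¹ := by rw [hDi', mul_one]
        _ = D (b : Kˣ) * J * (D (b : Kˣ)⁻¹ * D (b : Kˣ)) * D (a : Kˣ)⁻¹ := by rw [hDi', mul_one]
        _ = _ := by simp only [mul_assoc]
  let P : ↥μ → {C : ConjClasses ↥(Cfsg.SU n K q) // ∃ u : ↥(Cfsg.SU n K q), ConjClasses.mk u = C ∧ (((u : GL (Fin n) K) : Matrix (Fin n) (Fin n) K) - 1) ^ n = 0 ∧ (((u : GL (Fin n) K) : Matrix (Fin n) (Fin n) K) - 1).rank = n - 1} :=
    fun a => ⟨ConjClasses.mk (Ja a), Ja a, rfl, by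
      show (D (a : Kˣ) * J * D (a : Kˣ)⁻¹ - 1) ^ n = 0
      let U : (Matrix (Fin n) (Fin n) K)ˣ := ⟨D (a : Kˣ), D (a : Kˣ)⁻¹, hDi _, hDi' _⟩
      rw [show D (a : Kˣ) * J * D (a : Kˣ)⁻¹ - 1 = (U : Matrix (Fin n) (Fin n) K) * (J - 1) * ((U⁻¹ : (Matrix (Fin n) (Fin n) K)ˣ) : Matrix (Fin n) (Fin n) K) by
        rw [Matrix.mul_sub, Matrix.sub_mul, mul_one, Units.mul_inv]; rfl,
        Units.conj_pow, hn1, mul_zero, zero_mul], by
      show (D (a : Kˣ) * J * D (a : Kˣ)⁻¹ - 1).rank = n - 1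
      rw [show D (a : Kˣ) * J * D (a : Kˣ)⁻¹ - 1 = D (a : Kˣ) * (J - 1) * D (a : Kˣ)⁻¹ by
        rw [Matrix.mul_sub, Matrix.sub_mul, mul_one, hDi],
        Matrix.rank_mul_eq_left_of_isUnit_det _ _ (by rw [hD]; exact Units.isUnit _),
        Matrix.rank_mul_eq_right_of_isUnit_det _ _ (by rw [hD]; exact Units.isUnit _), hn2]⟩
  have hsurj : Function.Surjective P := by
    rintro ⟨C, u, rfl, h1, h2⟩
    have hu2 : ((((u : GL (Fin n) K) : Matrix (Fin n) (Fin n) K)) - 1).rank = Fintype.card (Fin n) - 1 := by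
      rw [h2, Fintype.card_fin]
    obtain ⟨g, hg⟩ := Lib.UnipDet.exists_conj J (((u : GL (Fin n) K) : Matrix (Fin n) (Fin n) K)) n hn1 hn2' h1 hu2
    obtain ⟨c, hcU, hc⟩ := conj_in_GU hK u₀ (u : GL (Fin n) K) g ((mem_GU_iff hK _).2 hu₀)
      ((mem_GU_iff hK _).2 ((mem_SU_iff hK _).1 u.2)) (Units.ext hg)
    have hc2 : (c : Matrix (Fin n) (Fin n) K) * J = ((u : GL (Fin n) K) : Matrix (Fin n) (Fin n) K) * (c : Matrix (Fin n) (Fin n) K) :=
      congrArg Units.val hc
    have hcU' := (mem_GU_iff hK _).1 hcU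
    set a : Kˣ := Matrix.GeneralLinearGroup.det c with ha
    have haμ : a ∈ μ := by
      apply Units.ext
      have h := congrArg Matrix.det hcU'
      rw [Matrix.det_mul, Matrix.det_one, tstar, Matrix.det_transpose] at h
      have h' : qHom hK (c : Matrix (Fin n) (Fin n) K).det * (c : Matrix (Fin n) (Fin n) K).det = 1 := by
        rw [RingHom.map_det]; exact h
      rw [qHom_eq_pow, ← pow_succ] at h'
      simpa [ha, Matrix.GeneralLinearGroup.val_det_apply] using h'
    refine ⟨⟨a, haμ⟩, Subtype.ext ?_⟩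
    show ConjClasses.mk (Ja ⟨a, haμ⟩) = ConjClasses.mk u
    rw [ConjClasses.mk_eq_mk_iff_isConj, isConj_iff]
    set X : Matrix (Fin n) (Fin n) K := (c : Matrix (Fin n) (Fin n) K) * D a⁻¹ with hX
    have hdet : X.det = 1 := by
      rw [hX, Matrix.det_mul, hD, ← Matrix.GeneralLinearGroup.val_det_apply, ← ha, ← Units.val_mul,
        mul_inv_cancel, Units.val_one]
    have hXU : tstar hK X * X = 1 := by
      rw [hX, tstar_mul, hDstar _ (μ.inv_mem haμ), inv_inv]
      calc _ = D a * (tstar hK (c : Matrix (Fin n) (Fin n) K) * (c : Matrix (Fin n) (Fin n) K)) * D a⁻¹ := by simp only [mul_assoc]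
        _ = 1 := by rw [hcU', mul_one, hDi]
    let s : ↥(Cfsg.SU n K q) := ⟨⟨X, hdet⟩, (mem_SU_iff hK _).2 hXU⟩
    refine ⟨s, mul_inv_eq_iff_eq_mul.2 (hval_inj ?_)⟩
    rw [hval_mul, hval_mul, hval, show val s = X from rfl, hX,
      show val u = ((u : GL (Fin n) K) : Matrix (Fin n) (Fin n) K) from rfl]
    calc _ = (c : Matrix (Fin n) (Fin n) K) * (D a⁻¹ * D a) * J * D a⁻¹ := by simp only [mul_assoc]
      _ = _ := by rw [hDi', mul_one, hc2, mul_assoc]
  let E : ↥μ ⧸ (powMonoidHom n : ↥μ →* ↥μ).range → _ := fun x =>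
    Quotient.liftOn' x P (fun a b h => Subtype.ext ((hiff a b).2 (QuotientGroup.leftRel_apply.1 h)))
  have hbij : Function.Bijective E := by
    constructor
    · intro x y
      induction x using QuotientGroup.induction_on with | _ a =>
      induction y using QuotientGroup.induction_on with | _ b =>
      intro h
      exact QuotientGroup.eq.2 ((hiff a b).1 (congrArg Subtype.val h))
    · intro C
      obtain ⟨a, rfl⟩ := hsurj C
      exact ⟨(a : ↥μ ⧸ _), rfl⟩
  rw [← Nat.card_eq_of_bijective E hbij]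
  have hμc : Nat.card ↥μ = q + 1 := by
    have h1 := (powMonoidHom (q + 1) : Kˣ →* Kˣ).ker.card_mul_index
    rw [Subgroup.index_ker, IsCyclic.card_powMonoidHom_range, Nat.card_units, Nat.card_eq_fintype_card (α := K), hK] at h1
    have hdvd : q + 1 ∣ q ^ 2 - 1 := ⟨q - 1, by rw [show q ^ 2 - 1 = q ^ 2 - 1 ^ 2 by norm_num, Nat.sq_sub_sq]⟩
    rw [Nat.gcd_eq_right hdvd] at h1
    obtain ⟨e, he⟩ := hdvd
    have he0 : 0 < e := by
      rcases Nat.eq_zero_or_pos e with rfl | h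
      · have h2 : 1 < q ^ 2 := hK ▸ Fintype.one_lt_card
        omega
      · exact h
    rw [he, Nat.mul_div_cancel_left _ (by omega : 0 < q + 1)] at h1
    exact Nat.eq_of_mul_eq_mul_right he0 h1
  have h1 := (powMonoidHom n : ↥μ →* ↥μ).range.card_eq_card_quotient_mul_card_subgroup
  rw [IsCyclic.card_powMonoidHom_range, hμc] at h1
  rw [Nat.gcd_comm n (q + 1)]
  obtain ⟨k, hk⟩ := Nat.gcd_dvd_left (q + 1) n
  have hg : 0 < (q + 1).gcd n := Nat.gcd_pos_of_pos_right _ (by omega)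
  rw [show (q + 1) / (q + 1).gcd n = k by
    conv_lhs => arg 1; rw [hk]
    exact Nat.mul_div_cancel_left _ hg] at h1
  have hk0 : 0 < k := by rcases Nat.eq_zero_or_pos k with rfl | h
                         · simp at hk
                         · exact h
  rw [hk] at h1
  exact (Nat.eq_of_mul_eq_mul_right hk0 h1).symm

end Cfsg.Agent.S2643
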