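import Cfsg.Statements.S2645
import Cfsg.Agent.Lib.Classical.SympSemisimpleClasses
import Cfsg.Agent.Lib.GLn.TorsionPow
import Cfsg.Agent.Lib.GLn.ReciprocalTorsion

set_option autoImplicit false
open Cfsg

namespace Cfsg.Agent.S2645

/-- Number of conjugacy classes of elements of odd prime order r, r different from the characteristic, in the symplectic group Sp_2m(q): let i be the multiplicative order of q modulo r and t = (r − 1)/i. If i is odd the eigenvalue orbits pair off (Λ ≠ Λ⁻¹) and the classes correspond to the non-zero (t/2)-tuples (a_j) with 2i Σ a_j ≤ 2m, giving C(⌊m/i⌋ + t/2, t/2) − 1 classes; if i is even (Λ = Λ⁻¹) they correspond to the non-zero t-tuples with i Σ a_j ≤ 2m, giving C(⌊2m/i⌋ + t, t) − 1 classes. -/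
theorem result {F : Type*} [Field F] [Fintype F] {p q : ℕ} [Fact p.Prime] [CharP F p] (hF : Fintype.card F = q) (m r i t : ℕ) (hr : r.Prime) (hr2 : r ≠ 2) (hrp : r ≠ p) (hi : i = orderOf (q : ZMod r)) (ht : t * i = r - 1) : Nat.card {C : ConjClasses ↥(Matrix.symplecticGroup (Fin m) F) // ∃ g : Matrix.symplecticGroup (Fin m) F, ConjClasses.mk g = C ∧ orderOf g = r} = if Odd i then Nat.choose (m / i + t / 2) (t / 2) - 1 else Nat.choose (2 * m / i + t) t - 1 := by
  classical
  set G := ↥(Matrix.symplecticGroup (Fin m) F)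
  let ψ : G →* GL (Fin m ⊕ Fin m) F := (Matrix.symplecticGroup (Fin m) F).subtype.toHomUnits
  have hψ : Function.Injective ψ := fun a b e => Subtype.ext (congrArg Units.val e)
  have hmp : r.Coprime p := ((Nat.coprime_primes (Fact.out : p.Prime) hr).2 hrp.symm).symm
  set S : Set (ConjClasses G) := {C | ∃ g : G, ConjClasses.mk g = C ∧ g ^ r = 1} with hS
  have hcard : Nat.card ↥S = if Odd i then Nat.choose (m / i + t / 2) (t / 2) else Nat.choose (2 * m / i + t) t := by
    have h1 := Cfsg.Agent.Lib.GLn.ReciprocalTorsion.card_recTorsion (p := p) hF (m + m) r i t hr hr2 hrp hi ht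
    rw [show (m + m) / (2 * i) = m / i by rw [← two_mul, Nat.mul_div_mul_left _ _ two_pos],
      show (m + m) / i = 2 * m / i by rw [← two_mul]] at h1
    rw [← h1]
    have h2 := Cfsg.Agent.Lib.Classical.SympSemisimpleClasses.card_classes (F := F) p (n := m)
      (fun P => ∀ h : Polynomial F, Irreducible h → h.Monic → h ∣ P → h ∣ Polynomial.X ^ r - 1)
    refine Eq.trans ?_ (h2.trans ?_)
    · refine Nat.card_congr (Equiv.subtypeEquivRight fun C => ?_)
      show (∃ g : G, ConjClasses.mk g = C ∧ g ^ r = 1) ↔ _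
      refine exists_congr fun g => and_congr_right fun _ => ?_
      constructor
      · intro hg
        have hc : (orderOf g).Coprime p := Nat.Coprime.of_dvd_left (orderOf_dvd_of_pow_eq_one hg) hmp
        exact ⟨hc, (Cfsg.Agent.Lib.GLn.TorsionPow.pow_eq_one_iff p (ψ g) (by rwa [orderOf_injective ψ hψ]) r).1
          (by rw [← map_pow, hg, map_one])⟩
      · rintro ⟨hc, hg⟩
        exact hψ (by rw [map_pow, map_one]; exact
          (Cfsg.Agent.Lib.GLn.TorsionPow.pow_eq_one_iff p (ψ g) (by rwa [orderOf_injective ψ hψ]) r).2 hg)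
    · refine Nat.card_congr (Equiv.subtypeEquivRight fun P => ?_)
      unfold Cfsg.Agent.Lib.GLn.ReciprocalTorsion.IsRecTorsion
      rw [Even.neg_one_pow ⟨m, rfl⟩, map_one, one_mul]
  have hset : {C : ConjClasses G | ∃ g : G, ConjClasses.mk g = C ∧ orderOf g = r} = S \ {ConjClasses.mk 1} := by
    ext C
    constructor
    · rintro ⟨g, rfl, hg⟩
      refine ⟨⟨g, rfl, hg ▸ pow_orderOf_eq_one g⟩, fun e => ?_⟩
      have : g = 1 := isConj_one_left.1 (ConjClasses.mk_eq_mk_iff_isConj.1 (Set.mem_singleton_iff.1 e))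
      rw [this, orderOf_one] at hg
      exact hr.one_lt.ne hg
    · rintro ⟨⟨g, rfl, hg⟩, hne⟩
      haveI : Fact r.Prime := ⟨hr⟩
      exact ⟨g, rfl, orderOf_eq_prime hg fun e => hne (by rw [e]; rfl)⟩
  change Nat.card ↥({C : ConjClasses G | ∃ g : G, ConjClasses.mk g = C ∧ orderOf g = r}) = _
  rw [hset, Nat.card_coe_set_eq, Set.ncard_sdiff_singleton_of_mem (show ConjClasses.mk 1 ∈ S from ⟨1, rfl, one_pow r⟩),
    ← Nat.card_coe_set_eq, hcard]
  split_ifs <;> rfl

end Cfsg.Agent.S2645
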