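import Cfsg.Statements.S2646
import Cfsg.Agent.Lib.Jordan.UnitaryCentralizer
-- import your own Cfsg.Agent.* helpers here

set_option autoImplicit false
open Cfsg

namespace Cfsg.Agent.S2646

/-- Order of the centraliser in the general unitary group GU_n(q) of a unipotent element of given Jordan type: if u ∈ GU_n(q) (isometries of Σ u_i v_i^q over the field with q² elements) is similar to the unipotent matrix with a_i Jordan blocks of size i (all sizes at least 1), then its centraliser in GU_n(q) has order q^γ · Π_i |GU_(a_i)(q)| with γ = 2 Σ_(i<j) i a_i a_j + Σ_i (i − 1) a_i², the same exponent as in GL_n(q), where |GU_a(q)| = q^(a(a−1)/2) Π_(k=1)^a (q^k − (−1)^k). -/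
theorem result {K : Type*} [Field K] [Fintype K] {q n t : ℕ} (hK : Fintype.card K = q ^ 2) (d : Fin t → ℕ) (hd : ∀ k, 1 ≤ d k) (e : ((k : Fin t) × Fin (d k)) ≃ Fin n) (u : ↥(Cfsg.GU n K q)) (hu : IsConj (Matrix.reindex e e (Cfsg.jordanTypeMatrix d K)) ((u : GL (Fin n) K) : Matrix (Fin n) (Fin n) K)) : (Nat.card ↥(Subgroup.centralizer ({u} : Set ↥(Cfsg.GU n K q))) : ℤ) = (q : ℤ) ^ (2 * (∑ i ∈ Finset.range (Finset.univ.sup d + 1), ∑ j ∈ Finset.range (Finset.univ.sup d + 1), if i < j then i * (Finset.univ.filter (fun k : Fin t => d k = i)).card * (Finset.univ.filter (fun k : Fin t => d k = j)).card else 0) + ∑ i ∈ Finset.range (Finset.univ.sup d + 1), (i - 1) * (Finset.univ.filter (fun k : Fin t => d k = i)).card ^ 2) * ∏ i ∈ Finset.range (Finset.univ.sup d + 1), ((q : ℤ) ^ ((Finset.univ.filter (fun k : Fin t => d k = i)).card * ((Finset.univ.filter (fun k : Fin t => d k = i)).card - 1) / 2) * ∏ j : Fin (Finset.univ.filter (fun k : Fin t => d k = i)).card, ((q : ℤ)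 ^ ((j : ℕ) + 1) - (-1) ^ ((j : ℕ) + 1))) := by
  classical
  rw [Cfsg.Agent.Lib.Jordan.UCent.card_centralizer_GU d hK hd e u hu, Nat.cast_mul, Nat.cast_pow, Nat.cast_prod,
    Finset.prod_coe_sort (Finset.range (Finset.univ.sup d + 1))
      (fun i => ((Nat.card ↥(Cfsg.GU (Cfsg.Agent.Lib.Jordan.mult d i) K q) : ℕ) : ℤ))]
  congr 1
  refine Finset.prod_congr rfl fun i _ => ?_
  have hq : 0 < q := Nat.pos_of_ne_zero fun h => by subst h; simp at hK
  rw [Cfsg.Agent.Lib.Classical.Herm.card_GU hK, Nat.cast_mul, Nat.cast_pow, Nat.cast_prod, ← Fin.prod_univ_eq_prod_range]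
  congr 1
  refine Finset.prod_congr rfl fun j _ => ?_
  by_cases hj : Even (j : ℕ)
  · rw [if_pos hj, Odd.neg_one_pow hj.add_one, Nat.cast_add, Nat.cast_pow, Nat.cast_one, sub_neg_eq_add]
  · rw [if_neg hj, Even.neg_one_pow (Nat.even_add_one.mpr hj), Nat.cast_sub (Nat.one_le_pow _ _ hq), Nat.cast_pow, Nat.cast_one]

end Cfsg.Agent.S2646
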