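import Cfsg.Statements.S2653
import Cfsg.Agent.Lib.AltDeg.Reduce

set_option autoImplicit false
open scoped MatrixGroups
open Cfsg

namespace Cfsg.Agent.S2653

/-- Alternating sections of finite linear groups. Let `F` be a finite field of characteristic `p` and `n` a natural number, and suppose some subgroup `H` of GL_n(F) has a normal subgroup `K` with `H ⧸ K` isomorphic to the alternating group of degree `r ≥ 9`. Then `n ≥ r - 2` when `p` divides `r`, and `n ≥ r - 1` otherwise (the smallest degree of a nontrivial projective representation of that alternating group in characteristic `p`). The same bound follows for every classical group with natural module of dimension `n` over `F`, since each is a section of a subgroup of GL_n(F). -/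
theorem result {F : Type*} [Field F] [Fintype F] (p : ℕ) [Fact p.Prime] [CharP F p]
    (n : ℕ) (r : ℕ) (H : Subgroup (GL (Fin n) F)) (K : Subgroup ↥H) [K.Normal]
    (h : Nonempty (↥H ⧸ K ≃* ↥(alternatingGroup (Fin r)))) (hr : 9 ≤ r) :
    r - 1 - (if p ∣ r then 1 else 0) ≤ n := by
  obtain ⟨e⟩ := h
  let E := AlgebraicClosure (ZMod p)
  letI : Algebra (ZMod p) F := ZMod.algebra F p
  haveI : Module.Finite (ZMod p) F := Module.Finite.of_finite
  let f : F →ₐ[ZMod p] E := IsAlgClosed.lift
  haveI : CharP E p := charP_of_injective_algebraMap (algebraMap (ZMod p) E).injective p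
  let π : ↥H →* Equiv.Perm (Fin r) := (alternatingGroup (Fin r)).subtype.comp (e.toMonoidHom.comp (QuotientGroup.mk' K))
  have hrange : π.range = alternatingGroup (Fin r) := by
    ext g
    constructor
    · rintro ⟨x, rfl⟩; exact (e (QuotientGroup.mk' K x)).2
    · intro hg
      obtain ⟨x, hx⟩ := QuotientGroup.mk'_surjective K (e.symm ⟨g, hg⟩)
      refine ⟨x, ?_⟩
      show ((e (QuotientGroup.mk' K x) : alternatingGroup (Fin r)) : Equiv.Perm (Fin r)) = g
      rw [hx, MulEquiv.apply_symm_apply]
  let R : ↥H →* Module.End E (Fin n → E) :=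
    (Matrix.toLinAlgEquiv' (R := E) (n := Fin n)).toMonoidHom.comp
      (f.toRingHom.mapMatrix.toMonoidHom.comp ((Units.coeHom (Matrix (Fin n) (Fin n) F)).comp H.subtype))
  have hker : R.ker ≤ π.ker := by
    intro g hg
    have h1 : g = 1 := by
      refine Subtype.ext (Units.ext ?_)
      refine Matrix.map_injective f.toRingHom.injective ?_
      refine (Matrix.toLinAlgEquiv' (R := E) (n := Fin n)).injective ?_
      have h2 := (MonoidHom.mem_ker.1 hg).trans (map_one R).symm
      exact h2
    rw [h1]; exact one_mem _
  obtain ⟨h1, h2⟩ := Cfsg.Agent.Lib.AltDeg.deg_bound r hr n E (Fin n → E) (Module.finrank_fin_fun (R := E))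
    ↥H π hrange R hker
  by_cases hp : p ∣ r
  · rw [if_pos hp]; omega
  · rw [if_neg hp]
    by_contra hlt
    exact hp ((CharP.cast_eq_zero_iff E p r).1 (h2 (by omega)))

end Cfsg.Agent.S2653
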