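import Cfsg.Statements.S2660
import Cfsg.Agent.Lib.Chev.TriD4AltSection.Main

set_option autoImplicit false
open scoped MatrixGroups
open Cfsg

namespace Cfsg.Agent.S2660

/-- Alternating sections of the triality-twisted groups ³D₄. Let `q = p^a` be a prime power and `K` a field with `q³` elements, and let `G` be the twisted group ³D₄(q) realised over `K`. If some subgroup of `G` has a quotient isomorphic to the alternating group of degree `r`, then `r` is at most 6, or 7 in characteristic 5. (Only an upper bound is asserted.) -/
theorem result {K : Type*} [Field K] [Fintype K] (p a : ℕ) [Fact p.Prime] [CharP K p]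
    (ha : 1 ≤ a) (hK : Fintype.card K = (p ^ a) ^ 3) (r : ℕ) (H : Subgroup ↥(Cfsg.Lie.twistedD4 K (p ^ a))) (N : Subgroup ↥H) [N.Normal]
    (h : Nonempty (↥H ⧸ N ≃* ↥(alternatingGroup (Fin r)))) :
    r ≤ 6 + (if p = 5 then 1 else 0) := by
  obtain ⟨e⟩ := h
  exact Lib.Chev.TriD4AltSection.section_bound p a ha hK r H (e.toMonoidHom.comp (QuotientGroup.mk' N))
    (e.surjective.comp (QuotientGroup.mk'_surjective N))

end Cfsg.Agent.S2660
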