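import Cfsg.Statements.S2664
import Cfsg.Agent.Lib.Chev.Orders
import Cfsg.Agent.Lib.Chev.FieldAut

set_option autoImplicit false
open scoped MatrixGroups
open Cfsg Cfsg.Agent.Lib.Chev

namespace Cfsg.Agent.S2664

/-- Centralizers of field automorphisms of prime order, type G₂. Let `F` be a finite field and `G` the Chevalley group of type G₂ over `F` (for this type the group generated by the root elements is the whole group of rational points, with trivial centre). Let `φ` be a field automorphism of `G` (it sends each root element `x_s(t)` to `x_s(σ t)` for a fixed automorphism `σ` of `F`) whose order is a prime `r`. Then `F` has `q₀ ^ r` elements for some prime power `q₀`, and the subgroup of elements fixed by `φ` is isomorphic to the Chevalley group of type G₂ over a field with `q₀` elements. -/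
theorem result {F : Type*} [Field F] [Fintype F]
    (φ : MulAut ↥(Cfsg.Lie.chevG2.group F)) (hφ : Cfsg.Lie.chevG2.IsFieldAut φ) (r : ℕ) (hr : r.Prime) (ho : orderOf φ = r) :
    ∃ (F₀ : Type) (_ : Field F₀) (_ : Fintype F₀), Fintype.card F = Fintype.card F₀ ^ r ∧
      Nonempty (↥((MulEquiv.toMonoidHom φ).eqLocus (MonoidHom.id ↥(Cfsg.Lie.chevG2.group F))) ≃* ↥(Cfsg.Lie.chevG2.group F₀)) := by
  obtain ⟨σ, hσ⟩ := hφ
  have e := G2.checked.aut_eq_gmap φ σ hσ
  obtain ⟨F₀, hF₀, hfin, i, hi, hcard⟩ := exists_fixed_field σ
  refine ⟨F₀, hF₀, hfin, ?_, G2.checked.nonempty_fixed_equiv i σ hi ?_ φ e⟩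
  · have : orderOf (σ : RingAut F) = r := by rw [← ho, e, G2.checked.orderOf_fieldAut]
    rw [hcard, this]
  · refine Subgroup.eq_bot_of_card_eq _ ?_
    rw [G2.checked.card_ker_cartanMap smith_G2]
    refine Finset.prod_eq_one fun j hj => ?_
    rw [Finset.mem_range] at hj
    change j < 2 at hj
    interval_cases j <;> simp

end Cfsg.Agent.S2664
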