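import Cfsg.Statements.S2665
import Mathlib.FieldTheory.IsAlgClosed.Basic
import Mathlib.FieldTheory.Separable
import Mathlib.FieldTheory.Perfect

set_option autoImplicit false
open Cfsg

namespace Cfsg.Agent.S2665

open Polynomial

/-- The successive coordinates as polynomials in the last one. -/
noncomputable def coordPoly {K : Type*} [Field K] (q : ℕ) (a : ℕ → K) : ℕ → K[X]
  | 0 => C (a 0) * X ^ q
  | i + 1 => coordPoly q a i ^ q + C (a (i + 1)) * X ^ q

theorem coordPoly_natDegree {K : Type*} [Field K] {q : ℕ} (hq : 2 ≤ q) (a : ℕ → K) (h0 : a 0 ≠ 0) :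
    ∀ i, (coordPoly q a i).natDegree = q ^ (i + 1)
  | 0 => by
    show (C (a 0) * X ^ q).natDegree = q ^ (0 + 1)
    rw [natDegree_C_mul_X_pow q _ h0, pow_one]
  | i + 1 => by
    show (coordPoly q a i ^ q + C (a (i + 1)) * X ^ q).natDegree = _
    have h := coordPoly_natDegree hq a h0 i
    have h1 : (coordPoly q a i ^ q).natDegree = q ^ (i + 1 + 1) := by
      rw [natDegree_pow, h, ← pow_succ']
    rw [natDegree_add_eq_left_of_natDegree_lt ?_, h1]
    refine lt_of_le_of_lt (natDegree_C_mul_X_pow_le _ _) ?_
    rw [h1]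
    calc q = q ^ 1 := (pow_one q).symm
      _ < q ^ (i + 1 + 1) := Nat.pow_lt_pow_right (by omega) (by omega)

theorem coordPoly_derivative {K : Type*} [Field K] {q : ℕ} (hq : (q : K) = 0) (a : ℕ → K) :
    ∀ i, derivative (coordPoly q a i) = 0
  | 0 => by
    show derivative (C (a 0) * X ^ q) = 0
    rw [derivative_C_mul_X_pow, hq, mul_zero, C_0, zero_mul]
  | i + 1 => by
    show derivative (coordPoly q a i ^ q + C (a (i + 1)) * X ^ q) = 0
    rw [derivative_add, derivative_pow, derivative_C_mul_X_pow, hq, mul_zero, C_0]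
    simp

/-- A semilinear bijection of a finite dimensional space over an algebraically closed field has
its fixed vectors spanning. -/
theorem span_fixed_eq_top {K V : Type*} [Field K] [IsAlgClosed K] [AddCommGroup V] [Module K V]
    [FiniteDimensional K V] {q : ℕ} (hq : 2 ≤ q) (hqK : (q : K) = 0) (φ : V ≃+ V) (r : K ≃+* K)
    (hr : ∀ a, r a = a ^ q) (hφ : ∀ (a : K) v, φ (a • v) = r a • φ v) :
    Submodule.span K {v : V | φ v = v} = ⊤ := by
  classical
  set W := Submodule.span K {v : V | φ v = v} with hW
  have hinv : ∀ w ∈ W, φ w ∈ W ∧ φ.symm w ∈ W := by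
    intro w hw
    induction hw using Submodule.span_induction with
    | mem x hx =>
      have h2 : φ.symm x = x := by
        conv_lhs => rw [← show φ x = x from hx]
        exact φ.symm_apply_apply x
      exact ⟨by rw [show φ x = x from hx]; exact Submodule.subset_span hx,
        by rw [h2]; exact Submodule.subset_span hx⟩
    | zero => simp
    | add x y _ _ hx hy => exact ⟨by rw [map_add]; exact add_mem hx.1 hy.1,
        by rw [map_add]; exact add_mem hx.2 hy.2⟩
    | smul a x _ hx =>
      refine ⟨by rw [hφ]; exact W.smul_mem _ hx.1, ?_⟩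
      have h : φ.symm (a • x) = r.symm a • φ.symm x := φ.injective (by
        rw [AddEquiv.apply_symm_apply, hφ, RingEquiv.apply_symm_apply, AddEquiv.apply_symm_apply])
      rw [h]; exact W.smul_mem _ hx.2
  have hroot : ∀ c : K, ∃ t : K, t ^ q = t + c := by
    intro c
    have hdeg : ((X : K[X]) ^ q + -(X + C c)).degree = (q : WithBot ℕ) := by
      rw [degree_add_eq_left_of_degree_lt, degree_X_pow]
      rw [degree_neg, degree_X_pow, degree_X_add_C]
      exact_mod_cast hq
    obtain ⟨t, ht⟩ := IsAlgClosed.exists_root ((X : K[X]) ^ q + -(X + C c)) (by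
      rw [hdeg]; exact_mod_cast (by omega : q ≠ 0))
    refine ⟨t, ?_⟩
    have h1 : t ^ q + -(t + c) = 0 := by simpa using ht
    linear_combination h1
  by_contra htop
  obtain ⟨v, hv⟩ : ∃ v, v ∉ W := by
    by_contra h
    push Not at h
    exact htop (eq_top_iff.2 fun x _ => h x)
  -- the iterates modulo `W`
  let M : ℕ → Submodule K V := fun m => W ⊔ Submodule.span K ((fun i => φ^[i] v) '' Set.Iio m)
  have hex : ∃ m, φ^[m] v ∈ M m := by
    by_contra h
    push Not at h
    have hMle : ∀ i j, i ≤ j → M i ≤ M j := fun i j hij =>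
      sup_le_sup_left (Submodule.span_mono (Set.image_mono (Set.Iio_subset_Iio hij))) _
    have hmono : ∀ m, Module.finrank K (M m) < Module.finrank K (M (m + 1)) := fun m => by
      refine Submodule.finrank_lt_finrank_of_lt (lt_of_le_of_ne (hMle _ _ (by omega)) fun e => h m ?_)
      rw [e]
      exact Submodule.mem_sup_right (Submodule.subset_span ⟨m, Set.mem_Iio.2 (by omega), rfl⟩)
    have hge : ∀ m, m ≤ Module.finrank K (M m) := by
      intro m
      induction m with
      | zero => exact Nat.zero_le _
      | succ m ih => have := hmono m; omega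
    have h1 := hge (Module.finrank K V + 1)
    have h2 := Submodule.finrank_le (M (Module.finrank K V + 1))
    omega
  set m := Nat.find hex with hm
  have hmem : φ^[m] v ∈ M m := Nat.find_spec hex
  have hmin : ∀ j, j < m → φ^[j] v ∉ M j := fun j hj => Nat.find_min hex hj
  obtain ⟨w, hw, s, hs, hws⟩ := Submodule.mem_sup.1 hmem
  have hs' : s ∈ Submodule.span K (Set.range fun i : Fin m => φ^[(i : ℕ)] v) := by
    refine Submodule.span_mono ?_ hs
    rintro _ ⟨i, hi, rfl⟩
    exact ⟨⟨i, hi⟩, rfl⟩
  obtain ⟨b, hb⟩ := (Submodule.mem_span_range_iff_exists_fun K).1 hs'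
  let a : ℕ → K := fun i => if h : i < m then b ⟨i, h⟩ else 0
  have hm0 : 0 < m := by
    by_contra h0
    have h0' : m = 0 := by omega
    rw [h0'] at hmem
    simp [M] at hmem
    exact hv hmem
  obtain ⟨m', hm'⟩ : ∃ m', m = m' + 1 := ⟨m - 1, by omega⟩
  have hsum : φ^[m] v - ∑ i ∈ Finset.range m, a i • φ^[i] v ∈ W := by
    rw [Finset.sum_range, show ∑ i : Fin m, a i • φ^[(i : ℕ)] v = s by
      rw [← hb]; exact Finset.sum_congr rfl fun i _ => by simp [a], ← hws, add_sub_cancel_right]
    exact hw
  -- the first coefficient is not zero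
  have ha0 : a 0 ≠ 0 := by
    intro h0
    refine hmin m' (by omega) ?_
    have h1 := (hinv _ hsum).2
    rw [hm', Finset.sum_range_succ', h0, zero_smul, add_zero, map_sub,
      Function.iterate_succ_apply', AddEquiv.symm_apply_apply, map_sum] at h1
    have h2 : ∑ i ∈ Finset.range m', φ.symm (a (i + 1) • φ^[i + 1] v) ∈ M m' := by
      refine Submodule.sum_mem _ fun i hi => ?_
      have e : φ.symm (a (i + 1) • φ^[i + 1] v) = r.symm (a (i + 1)) • φ^[i] v := φ.injective (by
        rw [AddEquiv.apply_symm_apply, hφ, RingEquiv.apply_symm_apply, Function.iterate_succ_apply'])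
      rw [e]
      exact Submodule.mem_sup_right
        (Submodule.smul_mem _ _ (Submodule.subset_span ⟨i, Finset.mem_range.1 hi, rfl⟩))
    simpa using add_mem (Submodule.mem_sup_left h1 : _ ∈ M m') h2
  -- the root
  have hsep : (coordPoly q a m' - X).Separable := by
    rw [separable_def, derivative_sub, coordPoly_derivative hqK, derivative_X, zero_sub]
    exact ⟨0, -1, by ring⟩
  have hdeg : (coordPoly q a m' - X).natDegree = q ^ (m' + 1) := by
    have h1 : 1 < q ^ (m' + 1) := Nat.one_lt_pow (by omega) (by omega)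
    rw [natDegree_sub_eq_left_of_natDegree_lt (by
      rw [natDegree_X, coordPoly_natDegree hq a ha0]; exact h1), coordPoly_natDegree hq a ha0]
  obtain ⟨t, ht, ht0⟩ : ∃ t, (coordPoly q a m' - X).eval t = 0 ∧ t ≠ 0 := by
    by_contra h
    push Not at h
    have hc := (IsAlgClosed.splits (coordPoly q a m' - X)).natDegree_eq_card_roots
    have hnd := nodup_roots hsep
    have hle : (coordPoly q a m' - X).roots ≤ {0} :=
      (Multiset.le_iff_subset hnd).2 fun x hx => by
        have hne : coordPoly q a m' - X ≠ 0 := fun h0 => by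
          rw [h0, natDegree_zero] at hdeg
          exact (pow_pos (by omega : 0 < q) _).ne hdeg
        rw [Multiset.mem_singleton]
        exact h x ((mem_roots hne).1 hx)
    have h2 := Multiset.card_le_card hle
    rw [← hc, hdeg, Multiset.card_singleton] at h2
    have : 1 < q ^ (m' + 1) := Nat.one_lt_pow (by omega) (by omega)
    omega
  rw [eval_sub, eval_X, sub_eq_zero] at ht
  -- the vector fixed modulo `W`
  let c : ℕ → K := fun i => (coordPoly q a i).eval t
  have hcm : c m' = t := ht
  set u := ∑ i ∈ Finset.range m, c i • φ^[i] v with hu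
  have hfix : φ u - u ∈ W := by
    have e : φ u - u = r t • (φ^[m] v - ∑ i ∈ Finset.range m, a i • φ^[i] v) := by
      rw [hu, map_sum, smul_sub, Finset.smul_sum, hm', Finset.sum_range_succ, Finset.sum_range_succ',
        Finset.sum_range_succ' (fun i => r t • a i • φ^[i] v)]
      have hterm : ∀ i, φ (c i • φ^[i] v) = r (c i) • φ^[i + 1] v := fun i => by
        rw [hφ, Function.iterate_succ_apply']
      have hstep : ∀ i, c (i + 1) • φ^[i + 1] v =
          r (c i) • φ^[i + 1] v + r t • a (i + 1) • φ^[i + 1] v := fun i => by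
        simp only [c, coordPoly, eval_add, eval_mul, eval_pow, eval_C, eval_X, hr]
        rw [add_smul, smul_smul, mul_comm (t ^ q)]
      simp only [hterm]
      simp only [hcm, hstep, Finset.sum_add_distrib]
      have h0 : c 0 = r t * a 0 := by
        simp only [c, coordPoly, eval_mul, eval_pow, eval_C, eval_X, hr]
        ring
      rw [h0, mul_smul]
      abel
    rw [e]
    exact W.smul_mem _ hsum
  have huW : u ∉ W := by
    intro huW
    refine hmin m' (by omega) ?_
    rw [hu, hm', Finset.sum_range_succ, hcm] at huW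
    have h2 : ∑ i ∈ Finset.range m', c i • φ^[i] v ∈ M m' :=
      Submodule.sum_mem _ fun i hi => Submodule.mem_sup_right
        (Submodule.smul_mem _ _ (Submodule.subset_span ⟨i, Finset.mem_range.1 hi, rfl⟩))
    have h3 := sub_mem (Submodule.mem_sup_left huW : _ ∈ M m') h2
    rw [add_sub_cancel_left] at h3
    have h4 := (M m').smul_mem t⁻¹ h3
    rwa [smul_smul, inv_mul_cancel₀ ht0, one_smul] at h4
  -- lift to a fixed vector
  obtain ⟨d, hd, hdu⟩ : ∃ d ∈ W, φ d - d = φ u - u := by
    refine Submodule.span_induction (p := fun x _ => ∃ d ∈ W, φ d - d = x) ?_ ?_ ?_ ?_ hfix |>.imp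
      fun d hd => hd
    · intro x hx
      obtain ⟨t, ht⟩ := hroot 1
      refine ⟨t • x, W.smul_mem _ (Submodule.subset_span hx), ?_⟩
      rw [hφ, show φ x = x from hx, hr, ht, add_smul, one_smul, add_sub_cancel_left]
    · exact ⟨0, zero_mem _, by simp⟩
    · rintro x y _ _ ⟨d, hd, rfl⟩ ⟨d', hd', rfl⟩
      exact ⟨d + d', add_mem hd hd', by rw [map_add]; abel⟩
    · intro b x hxW _
      suffices ∀ y ∈ W, ∀ b : K, ∃ d ∈ W, φ d - d = b • y from this x hxW b
      intro y hy
      induction hy using Submodule.span_induction with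
      | mem y hy =>
        intro b
        obtain ⟨t, ht⟩ := hroot b
        refine ⟨t • y, W.smul_mem _ (Submodule.subset_span hy), ?_⟩
        rw [hφ, show φ y = y from hy, hr, ht, add_smul, add_sub_cancel_left]
      | zero => intro b; exact ⟨0, zero_mem _, by simp⟩
      | add y z _ _ ihy ihz =>
        intro b
        obtain ⟨d, hd, h⟩ := ihy b
        obtain ⟨d', hd', h'⟩ := ihz b
        exact ⟨d + d', add_mem hd hd', by rw [map_add, smul_add, ← h, ← h']; abel⟩
      | smul e y _ ihy => intro b; rw [smul_smul]; exact ihy _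
  refine huW ?_
  have h1 : u - d ∈ W := Submodule.subset_span (show φ (u - d) = u - d by
    rw [map_sub, ← sub_eq_zero]
    have : φ u - φ d - (u - d) = (φ u - u) - (φ d - d) := by abel
    rw [this, hdu, sub_self])
  have h3 := add_mem h1 hd
  rwa [sub_add_cancel] at h3

/-- The Lang–Steinberg Theorem for the general linear group. Let `K` be an algebraically closed field of prime characteristic `p`, let `q = p^f` with `f ≥ 1`, and let `σ` be the endomorphism of GL_n(K) raising every matrix entry to the `q`-th power. Then every element `g` of GL_n(K) can be written `g = x · σ(x)⁻¹` for some `x` in GL_n(K): the map `x ↦ x σ(x)⁻¹` is surjective. -/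
theorem result {K : Type*} [Field K] [IsAlgClosed K] (p : ℕ) [Fact p.Prime] [CharP K p]
    (f : ℕ) (hf : 1 ≤ f) (n : ℕ) (g : GL (Fin n) K) :
    ∃ x : GL (Fin n) K, g = x * (Matrix.GeneralLinearGroup.map (iterateFrobenius K p f) x)⁻¹ := by
  classical
  let r : K ≃+* K := iterateFrobeniusEquiv K p f
  have hr : ∀ a, r a = a ^ p ^ f := fun a => iterateFrobenius_def (R := K) p f a
  let φ : (Fin n → K) ≃+ (Fin n → K) :=
    { toFun := fun v => (g : Matrix (Fin n) (Fin n) K).mulVec fun i => r (v i)
      invFun := fun v i => r.symm ((((g⁻¹ : GL (Fin n) K) : Matrix (Fin n) (Fin n) K).mulVec v) i)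
      left_inv := fun v => by
        funext i
        simp [Matrix.mulVec_mulVec, ← Units.val_mul]
      right_inv := fun v => by
        simp [Matrix.mulVec_mulVec, ← Units.val_mul]
      map_add' := fun v w => by
        rw [← Matrix.mulVec_add]
        congr 1
        funext i
        exact map_add r (v i) (w i) }
  have hsp := span_fixed_eq_top (q := p ^ f)
    (le_trans (Fact.out : p.Prime).two_le (Nat.le_self_pow (by omega) p))
    (by rw [Nat.cast_pow, CharP.cast_eq_zero, zero_pow (by omega : f ≠ 0)]) φ r hr (fun a v => by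
      show (g : Matrix (Fin n) (Fin n) K).mulVec _ = r a • (g : Matrix (Fin n) (Fin n) K).mulVec _
      rw [← Matrix.mulVec_smul]
      congr 1
      funext i
      exact map_mul r a (v i))
  obtain ⟨b, hb, hbsp, hbli⟩ := exists_linearIndependent K {v : Fin n → K | φ v = v}
  rw [hsp] at hbsp
  let B : Module.Basis b K (Fin n → K) :=
    Module.Basis.mk hbli (by rw [Subtype.range_coe, hbsp])
  let e : Fin n ≃ b := (Pi.basisFun K (Fin n)).indexEquiv B
  let A : Matrix (Fin n) (Fin n) K := Matrix.of fun i j => (e j : Fin n → K) i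
  have hA : IsUnit A := Matrix.linearIndependent_cols_iff_isUnit.1 (hbli.comp e e.injective)
  refine ⟨hA.unit, eq_mul_inv_iff_mul_eq.2 (Units.ext ?_)⟩
  ext i j
  have h := congrFun (hb (e j).2) i
  rw [Units.val_mul, Matrix.mul_apply]
  exact h

end Cfsg.Agent.S2665
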