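import Cfsg.Statements.S2666

set_option autoImplicit false
open Cfsg

namespace Cfsg.Agent.S2666

theorem telescope {X : Type*} [Group X] (σ : MulAut X) (g a : X) (ha : g = a * (σ a)⁻¹) (d : ℕ) :
    ((List.range d).map (fun i => (σ ^ i) g)).prod = a * ((σ ^ d) a)⁻¹ := by
  induction d with
  | zero => simp
  | succ d ih =>
    rw [List.range_succ, List.map_append, List.prod_append, ih]
    simp [ha, pow_succ, MulAut.mul_apply, mul_assoc]

theorem mem_fix {X : Type*} [Group X] (σ : MulAut X) (x : X) :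
    x ∈ (MulEquiv.toMonoidHom σ).eqLocus (MonoidHom.id X) ↔ σ x = x := Iff.rfl

theorem pow_comm_apply {X : Type*} [Group X] (σ : MulAut X) (e : ℕ) (x : X) :
    (σ ^ e) (σ x) = σ ((σ ^ e) x) := by
  rw [← MulAut.mul_apply, ← MulAut.mul_apply, (Commute.pow_self σ e).eq]

theorem pow_fix {X : Type*} [Group X] (σ : MulAut X) (e : ℕ) (x : X) (h : σ x = x) :
    (σ ^ e) x = x := by
  induction e with
  | zero => simp
  | succ e ih => rw [pow_succ, MulAut.mul_apply, h, ih]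

theorem descent_fix {X : Type*} [Group X] (σ : MulAut X) (e : ℕ) (g a : X) (hg : (σ ^ e) g = g)
    (ha : g = a * (σ a)⁻¹) : σ (((σ ^ e) a)⁻¹ * a) = ((σ ^ e) a)⁻¹ * a := by
  have h1 : σ a = g⁻¹ * a := by rw [ha]; group
  rw [map_mul, map_inv, ← pow_comm_apply, h1, map_mul, map_inv, hg]
  group


/-- Shintani descent, in an abstract form. Let `σ` be an automorphism of a group `X` such that the maps `a ↦ a·σ(a)⁻¹` and `a ↦ a·σᵉ(a)⁻¹` are surjective on `X` (the Lang–Steinberg property, which holds when `X` is a connected algebraic group and `σ` a Steinberg endomorphism), where `e ≥ 1`. Write `G` for the subgroup of fixed points of `σᵉ` and `H` for the subgroup of fixed points of `σ`. The `G`-conjugacy classes in the coset `G σ` of the semidirect product of `G` by `σ` correspond to the orbits of `G` on itself under twisted conjugation `g ↦ k g σ(k)⁻¹`, and the `e`-th power of `g σ` has `G`-part the norm `g σ(g)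 ⋯ σ^(e-1)(g)`. For `g` in `G` and any `a` with `g = a σ(a)⁻¹`, put `x = σᵉ(a)⁻¹ a`. Then: (1) `x` lies in `H`, and `a⁻¹ · (g σ(g) ⋯ σ^(e-1)(g)) · a = x`; (2) for `g, g'` in `G` with such elements `a, b` and `x, x'`, the elements `g, g'` are twisted-conjugate under `G` if and only if `x, x'` are conjugate in `H`; (3) every element of `H` arises as such an `x`. So `g ↦ x` induces a well-defined bijection from the twisted `G`-classes of `G` onto the conjugacy classes of `H` (the Shintani map). -/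
theorem result {X : Type*} [Group X] (σ : MulAut X) (e : ℕ) (he : 1 ≤ e)
    (hL : ∀ g : X, ∃ a : X, g = a * (σ a)⁻¹) (hLe : ∀ g : X, ∃ a : X, g = a * ((σ ^ e) a)⁻¹) :
    (∀ g ∈ (MulEquiv.toMonoidHom (σ ^ e)).eqLocus (MonoidHom.id X), ∀ a : X, g = a * (σ a)⁻¹ →
        ((σ ^ e) a)⁻¹ * a ∈ (MulEquiv.toMonoidHom σ).eqLocus (MonoidHom.id X) ∧
          a⁻¹ * ((List.range e).map (fun i => (σ ^ i) g)).prod * a = ((σ ^ e) a)⁻¹ * a) ∧
    (∀ g ∈ (MulEquiv.toMonoidHom (σ ^ e)).eqLocus (MonoidHom.id X), ∀ g' ∈ (MulEquiv.toMonoidHom (σ ^ e)).eqLocus (MonoidHom.id X), ∀ a b : X,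
        g = a * (σ a)⁻¹ → g' = b * (σ b)⁻¹ →
          ((∃ k ∈ (MulEquiv.toMonoidHom (σ ^ e)).eqLocus (MonoidHom.id X), g' = k * g * (σ k)⁻¹) ↔
            (∃ h ∈ (MulEquiv.toMonoidHom σ).eqLocus (MonoidHom.id X), ((σ ^ e) b)⁻¹ * b = h * (((σ ^ e) a)⁻¹ * a) * h⁻¹))) ∧
    (∀ x ∈ (MulEquiv.toMonoidHom σ).eqLocus (MonoidHom.id X), ∃ g ∈ (MulEquiv.toMonoidHom (σ ^ e)).eqLocus (MonoidHom.id X), ∃ a : X,
        g = a * (σ a)⁻¹ ∧ ((σ ^ e) a)⁻¹ * a = x) := by
  refine ⟨fun g hg a ha => ⟨?_, ?_⟩, fun g hg g' hg' a b ha hb => ⟨?_, ?_⟩, fun x hx => ?_⟩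
  · exact descent_fix σ e g a hg ha
  · rw [telescope σ g a ha]; group
  · rintro ⟨k, hk, hkg⟩
    have hk' : (σ ^ e) k = k := hk
    have hh : σ (b⁻¹ * k * a) = b⁻¹ * k * a := by
      have h1 : σ b = g'⁻¹ * b := by rw [hb]; group
      have h2 : σ a = g⁻¹ * a := by rw [ha]; group
      rw [map_mul, map_mul, map_inv, h1, h2, hkg]
      group
    refine ⟨b⁻¹ * k * a, hh, ?_⟩
    have h3 : ((σ ^ e) b)⁻¹ * (k * (σ ^ e) a) = b⁻¹ * k * a := by
      have := pow_fix σ e _ hh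
      rw [map_mul, map_mul, map_inv, hk'] at this
      rw [← mul_assoc]; exact this
    have h4 : (σ ^ e) b = k * (σ ^ e) a * (b⁻¹ * k * a)⁻¹ := by rw [← h3]; group
    rw [h4]; group
  · rintro ⟨h, hh, hx⟩
    have hh' : σ h = h := hh
    refine ⟨b * h * a⁻¹, ?_, ?_⟩
    · show (σ ^ e) (b * h * a⁻¹) = b * h * a⁻¹
      rw [map_mul, map_mul, map_inv, pow_fix σ e h hh']
      have h4 : ((σ ^ e) b)⁻¹ = h * (((σ ^ e) a)⁻¹ * a) * h⁻¹ * b⁻¹ := by rw [← hx]; group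
      rw [← inv_inv ((σ ^ e) b), h4]; group
    · rw [map_mul, map_mul, map_inv, hh', hb, ha]; group
  · have hx' : σ x = x := hx
    obtain ⟨c, hc⟩ := hLe x⁻¹
    have hxa : x = ((σ ^ e) c⁻¹)⁻¹ * c⁻¹ := by rw [map_inv, inv_inv, ← inv_inv x, hc]; group
    refine ⟨c⁻¹ * (σ c⁻¹)⁻¹, ?_, c⁻¹, rfl, hxa.symm⟩
    show (σ ^ e) (c⁻¹ * (σ c⁻¹)⁻¹) = c⁻¹ * (σ c⁻¹)⁻¹
    have h5 : (σ ^ e) c⁻¹ = c⁻¹ * x⁻¹ := by rw [hxa]; group
    rw [map_mul, map_inv (σ ^ e) (σ c⁻¹), pow_comm_apply, h5, map_mul σ, map_inv σ x, hx']; group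

end Cfsg.Agent.S2666
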