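import Cfsg.Statements.S2669
import Cfsg.Agent.S2666

set_option autoImplicit false
open Cfsg

namespace Cfsg.Agent.S2669

/-- Shintani descent preserves numbers of fixed points on coset spaces (abstract form). Let `σ` be an automorphism of a group `X` and `e ≥ 1`; write `G` for the fixed points of `σᵉ` and `H` for the fixed points of `σ`, and assume `G` is finite. Let `Y` be a `σ`-stable subgroup of `X` on which the maps `a ↦ a σ(a)⁻¹` and `a ↦ a σᵉ(a)⁻¹` are surjective (as for a closed connected `σ`-stable subgroup of an algebraic group). Let `g ∈ G`, let `a ∈ X` satisfy `g = a σ(a)⁻¹` and put `x = σᵉ(a)⁻¹ a` (the Shintani image, an element of `H`). The element `g σ` of the semidirect product acts on the cosets of `Y ∩ G` in `G` by `k (Y ∩ G) ↦ g σ(k) (Y ∩ G)`, fixing that coset exactly when `k⁻¹ g σ(k) ∈ Y`; and `x` fixes the coset `h (Y ∩ H)` of `H` exactly when `h⁻¹ x h ∈ Y`.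 Then the two numbers of fixed cosets agree; in cross-multiplied form, `#{k ∈ G : k⁻¹ g σ(k) ∈ Y} · |Y ∩ H| = #{h ∈ H : h⁻¹ x h ∈ Y} · |Y ∩ G|`. -/
theorem result {X : Type*} [Group X] (σ : MulAut X) (e : ℕ) (he : 1 ≤ e)
    [Finite ↥((MulEquiv.toMonoidHom (σ ^ e)).eqLocus (MonoidHom.id X))]
    (Y : Subgroup X) (hY : ∀ y : X, y ∈ Y ↔ σ y ∈ Y)
    (hYL : ∀ y ∈ Y, ∃ a ∈ Y, y = a * (σ a)⁻¹) (hYLe : ∀ y ∈ Y, ∃ a ∈ Y, y = a * ((σ ^ e) a)⁻¹)
    (g : X) (hg : g ∈ (MulEquiv.toMonoidHom (σ ^ e)).eqLocus (MonoidHom.id X)) (a : X) (ha : g = a * (σ a)⁻¹) :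
    Nat.card {k : ↥((MulEquiv.toMonoidHom (σ ^ e)).eqLocus (MonoidHom.id X)) // (k : X)⁻¹ * g * σ k ∈ Y} *
        Nat.card ↥(Y ⊓ (MulEquiv.toMonoidHom σ).eqLocus (MonoidHom.id X)) =
      Nat.card {h : ↥((MulEquiv.toMonoidHom σ).eqLocus (MonoidHom.id X)) // (h : X)⁻¹ * (((σ ^ e) a)⁻¹ * a) * h ∈ Y} *
        Nat.card ↥(Y ⊓ (MulEquiv.toMonoidHom (σ ^ e)).eqLocus (MonoidHom.id X)) := by
  classical
  set Xe := (MulEquiv.toMonoidHom (σ ^ e)).eqLocus (MonoidHom.id X)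
  set X1 := (MulEquiv.toMonoidHom σ).eqLocus (MonoidHom.id X)
  have hx : σ (((σ ^ e) a)⁻¹ * a) = ((σ ^ e) a)⁻¹ * a := S2666.descent_fix σ e g a hg ha
  have hσa : σ a = g⁻¹ * a := by rw [ha]; group
  -- the triples (k, c, h) with k * c = a * h
  let S := {p : X × X × X // p.1 ∈ Xe ∧ p.2.1 ∈ Y ∧ p.2.2 ∈ X1 ∧ p.1 * p.2.1 = a * p.2.2}
  have e1 : {k : Xe // (k : X)⁻¹ * g * σ k ∈ Y} × ↥(Y ⊓ X1) ≃ S := by
    choose c hcY hc using fun (k : {k : Xe // (k : X)⁻¹ * g * σ k ∈ Y}) => hYL _ k.2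
    refine Equiv.ofBijective (fun p => ⟨((p.1.1 : X), c p.1 * p.2.1, a⁻¹ * p.1.1 * (c p.1 * p.2.1)),
      p.1.1.2, mul_mem (hcY _) p.2.2.1, ?_, ?_⟩) ⟨?_, ?_⟩
    · obtain ⟨k, y⟩ := p
      have h1 : σ (y : X) = y := y.2.2
      have h2 : σ (c k) = ((k.1 : X)⁻¹ * g * σ k.1)⁻¹ * c k := by rw [hc k]; group
      show σ _ = _
      simp only [MonoidHom.id_apply]
      rw [map_mul, map_mul, map_mul, map_inv, h1, h2, hσa]
      group
    · group
    · rintro ⟨k, y⟩ ⟨k', y'⟩ h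
      have h := Prod.mk.inj (congrArg Subtype.val h)
      obtain ⟨h1', h23⟩ := h
      have h := And.intro h1' (Prod.mk.inj h23)
      have hk : k = k' := Subtype.ext (Subtype.ext h.1)
      subst hk
      exact Prod.ext rfl (Subtype.ext (mul_left_cancel h.2.1))
    · rintro ⟨⟨k, d, h⟩, hk, hd, hh, hkd⟩
      have hh' : σ h = h := hh
      have h3 : h = a⁻¹ * k * d := by rw [mul_assoc, hkd]; group
      have h4 : k⁻¹ * g * σ k = d * (σ d)⁻¹ := by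
        rw [h3, map_mul, map_mul, map_inv, hσa] at hh'
        calc k⁻¹ * g * σ k = k⁻¹ * a * ((g⁻¹ * a)⁻¹ * σ k * σ d) * (σ d)⁻¹ := by group
          _ = d * (σ d)⁻¹ := by rw [hh']; group
      have hkY : k⁻¹ * g * σ k ∈ Y := h4 ▸ Y.mul_mem hd (Y.inv_mem ((hY d).1 hd))
      set k' : {k : Xe // (k : X)⁻¹ * g * σ k ∈ Y} := ⟨⟨k, hk⟩, hkY⟩
      have hy : (c k')⁻¹ * d ∈ Y ⊓ X1 := by
        refine ⟨Y.mul_mem (Y.inv_mem (hcY _)) hd, ?_⟩
        show σ _ = _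
        simp only [MonoidHom.id_apply]
        have h5 : c k' * (σ (c k'))⁻¹ = d * (σ d)⁻¹ := (hc k').symm.trans h4
        rw [map_mul, map_inv]
        calc (σ (c k'))⁻¹ * σ d = (c k')⁻¹ * (c k' * (σ (c k'))⁻¹) * σ d := by group
          _ = (c k')⁻¹ * d := by rw [h5]; group
      refine ⟨(k', ⟨_, hy⟩), Subtype.ext (Prod.ext rfl (Prod.ext ?_ ?_))⟩
      · show c k' * ((c k')⁻¹ * d) = d; group
      · show a⁻¹ * k * (c k' * ((c k')⁻¹ * d)) = h; rw [h3]; group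
  have hYe : ∀ j : ℕ, ∀ y ∈ Y, (σ ^ j) y ∈ Y := by
    intro j
    induction j with
    | zero => simp
    | succ j ih => intro y hy; rw [pow_succ, MulAut.mul_apply]; exact ih _ ((hY y).1 hy)
  have e2 : {h : X1 // (h : X)⁻¹ * (((σ ^ e) a)⁻¹ * a) * h ∈ Y} × ↥(Y ⊓ Xe) ≃ S := by
    choose c hcY hc using fun (h : {h : X1 // (h : X)⁻¹ * (((σ ^ e) a)⁻¹ * a) * h ∈ Y}) => hYLe _ (inv_mem h.2)
    refine Equiv.ofBijective (fun p => ⟨(a * p.1.1 * ((p.2 : X) * (c p.1)⁻¹)⁻¹, (p.2 : X) * (c p.1)⁻¹, (p.1.1 : X)),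
      ?_, mul_mem p.2.2.1 (inv_mem (hcY _)), p.1.1.2, ?_⟩) ⟨?_, ?_⟩
    · obtain ⟨h, y⟩ := p
      have hy' : (σ ^ e) (y : X) = y := y.2.2
      have hh' : (σ ^ e) (h.1 : X) = h.1 := S2666.pow_fix σ e _ h.1.2
      have h2 : (σ ^ e) (c h) = (h.1 : X)⁻¹ * (((σ ^ e) a)⁻¹ * a) * h.1 * c h := by
        calc (σ ^ e) (c h) = (c h * ((σ ^ e) (c h))⁻¹)⁻¹ * c h := by group
          _ = _ := by rw [← hc h, inv_inv]
      show (σ ^ e) _ = _
      simp only [MonoidHom.id_apply, map_mul, map_inv, hy', hh', h2]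
      group
    · group
    · rintro ⟨h, y⟩ ⟨h', y'⟩ e'
      have e' := Prod.mk.inj (congrArg Subtype.val e')
      obtain ⟨h1', h23⟩ := e'
      have e' := And.intro h1' (Prod.mk.inj h23)
      have hk : h = h' := Subtype.ext (Subtype.ext e'.2.2)
      subst hk
      exact Prod.ext rfl (Subtype.ext (mul_right_cancel e'.2.1))
    · rintro ⟨⟨k, d, h⟩, hk, hd, hh, hkd⟩
      have hk' : (σ ^ e) k = k := hk
      have hh' : (σ ^ e) h = h := S2666.pow_fix σ e h hh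
      have hk2 : k = a * h * d⁻¹ := by rw [← hkd]; group
      have h4 : ((σ ^ e) d)⁻¹ * d = h⁻¹ * (((σ ^ e) a)⁻¹ * a) * h := by
        rw [hk2, map_mul, map_mul, map_inv, hh'] at hk'
        calc ((σ ^ e) d)⁻¹ * d = h⁻¹ * ((σ ^ e) a)⁻¹ * ((σ ^ e) a * h * ((σ ^ e) d)⁻¹) * d := by group
          _ = _ := by rw [hk']; group
      have hzY : h⁻¹ * (((σ ^ e) a)⁻¹ * a) * h ∈ Y := h4 ▸ Y.mul_mem (Y.inv_mem (hYe e d hd)) hd
      set h' : {h : X1 // (h : X)⁻¹ * (((σ ^ e) a)⁻¹ * a) * h ∈ Y} := ⟨⟨h, hh⟩, hzY⟩ with hh'def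
      have hy : d * c h' ∈ Y ⊓ Xe := by
        refine ⟨Y.mul_mem hd (hcY _), ?_⟩
        show (σ ^ e) _ = _
        simp only [MonoidHom.id_apply]
        have h5 : (σ ^ e) (c h') = ((σ ^ e) d)⁻¹ * d * c h' := by
          rw [h4]
          calc (σ ^ e) (c h') = (c h' * ((σ ^ e) (c h'))⁻¹)⁻¹ * c h' := by group
            _ = _ := by rw [← hc h', inv_inv]
        rw [map_mul, h5]; group
      refine ⟨(h', ⟨_, hy⟩), Subtype.ext (Prod.ext ?_ (Prod.ext ?_ rfl))⟩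
      · show a * h * (d * c h' * (c h')⁻¹)⁻¹ = k; rw [hk2]; group
      · show d * c h' * (c h')⁻¹ = d; group
  rw [← Nat.card_prod, ← Nat.card_prod]
  exact Nat.card_congr (e1.trans e2.symm)

end Cfsg.Agent.S2669
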