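import Cfsg.Statements.S2671
import Cfsg.Agent.Lib.Classical.UnitaryTorsion

set_option autoImplicit false
open Cfsg

namespace Cfsg.Agent.S2671

/-- Number of conjugacy classes of elements of odd prime order r in the general unitary group GU_n(q), for r not dividing q(q + 1): let i be the multiplicative order of q modulo r, b = i if i is odd and b = i/2 if i is even, and s = (r − 1)/b. If i ≢ 2 (mod 4) the eigenvalue orbits pair off into dual pairs of totally isotropic blocks and there are C(⌊n/(2b)⌋ + s/2, s/2) − 1 classes; if i ≡ 2 (mod 4) each orbit gives a non-degenerate block of dimension i/2 and there are C(⌊2n/i⌋ + s, s) − 1 classes. -/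
theorem result {K : Type*} [Field K] [Fintype K] {p q n r i b s : ℕ} [Fact p.Prime] [CharP K p] (hK : Fintype.card K = q ^ 2) (hr : r.Prime) (hr2 : r ≠ 2) (hrp : r ≠ p) (hi : i = orderOf (q : ZMod r)) (hi2 : i ≠ 2) (hb : b = if Odd i then i else i / 2) (hs : s * b = r - 1) : Nat.card {C : ConjClasses ↥(Cfsg.GU n K q) // ∃ g : ↥(Cfsg.GU n K q), ConjClasses.mk g = C ∧ orderOf g = r} = if i % 4 = 2 then Nat.choose (2 * n / i + s) s - 1 else Nat.choose (n / (2 * b) + s / 2) (s / 2) - 1 := by
  classical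
  set G := ↥(Cfsg.GU n K q)
  have hmp : r.Coprime p := ((Nat.coprime_primes (Fact.out : p.Prime) hr).2 hrp.symm).symm
  set S : Set (ConjClasses G) := {C | ∃ g : G, ConjClasses.mk g = C ∧ g ^ r = 1} with hS
  have hcard : Nat.card ↥S = if i % 4 = 2 then Nat.choose (2 * n / i + s) s else Nat.choose (n / (2 * b) + s / 2) (s / 2) := by
    refine ((Cfsg.Agent.Lib.Classical.UnitaryTorsion.card_pow_classes hK p hmp).trans
      (Cfsg.Agent.Lib.Classical.UnitaryTorsion.card_selfDual_torsion hK p n r i b s hr hr2 hrp hi hb hs)).trans ?_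
    split_ifs with h4
    · rw [show i = 2 * b by rw [hb, if_neg (fun ho => by obtain ⟨j, hj⟩ := ho; omega)]; omega,
        Nat.mul_div_mul_left _ _ two_pos]
    · rfl
  have hset : {C : ConjClasses G | ∃ g : G, ConjClasses.mk g = C ∧ orderOf g = r} = S \ {ConjClasses.mk 1} := by
    ext C
    constructor
    · rintro ⟨g, rfl, hg⟩
      refine ⟨⟨g, rfl, hg ▸ pow_orderOf_eq_one g⟩, fun e => ?_⟩
      have : g = 1 := isConj_one_left.1 (ConjClasses.mk_eq_mk_iff_isConj.1 (Set.mem_singleton_iff.1 e))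
      rw [this, orderOf_one] at hg
      exact hr.one_lt.ne hg
    · rintro ⟨⟨g, rfl, hg⟩, hne⟩
      haveI : Fact r.Prime := ⟨hr⟩
      exact ⟨g, rfl, orderOf_eq_prime hg fun e => hne (by rw [e]; rfl)⟩
  change Nat.card ↥({C : ConjClasses G | ∃ g : G, ConjClasses.mk g = C ∧ orderOf g = r}) = _
  rw [hset, Nat.card_coe_set_eq, Set.ncard_sdiff_singleton_of_mem (show ConjClasses.mk 1 ∈ S from ⟨1, rfl, one_pow r⟩),
    ← Nat.card_coe_set_eq, hcard]
  split_ifs <;> rfl

end Cfsg.Agent.S2671
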