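import Cfsg.Statements.S2673
import Cfsg.Agent.Lib.Classical.OrthTorsionClasses

set_option autoImplicit false
open Cfsg

namespace Cfsg.Agent.S2673
open Cfsg.Agent.Lib.Classical.OrthTorsion Cfsg.Agent.Lib.Classical.Quad Cfsg.Agent.Lib.Classical.QuadOmega


/-- Number of conjugacy classes of elements of odd prime order r ≠ p in the orthogonal group O_(2m+1)(q) of x_0² + Σ x_j y_j, q odd: with i the multiplicative order of q mod r and t = (r − 1)/i, there are C(⌊m/i⌋ + t/2, t/2) − 1 classes if i is odd (dual pairs of totally singular i-blocks) and C(⌊(2m+1)/i⌋ + t, t) − 1 if i is even (elliptic i-blocks). -/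
theorem result {F : Type*} [Field F] [Fintype F] {p q : ℕ} [Fact p.Prime] [CharP F p] (hF : Fintype.card F = q) (hq : Odd q) (m r i t : ℕ) (hr : r.Prime) (hr2 : r ≠ 2) (hrp : r ≠ p) (hi : i = orderOf (q : ZMod r)) (ht : t * i = r - 1) : Nat.card {C : ConjClasses ↥(Cfsg.isometryGroup F (Cfsg.quadFormOdd m F)) // ∃ g : ↥(Cfsg.isometryGroup F (Cfsg.quadFormOdd m F)), ConjClasses.mk g = C ∧ orderOf g = r} = if Odd i then Nat.choose (m / i + t / 2) (t / 2) - 1 else Nat.choose ((2 * m + 1) / i + t) t - 1 := by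
  subst hF
  have h2 : (2 : F) ≠ 0 := by
    intro h
    obtain ⟨k, -, hk⟩ := FiniteField.card F p
    haveI : CharP F 2 := CharTwo.of_one_ne_zero_of_two_eq_zero one_ne_zero h
    rw [CharP.eq F ‹CharP F p› (inferInstance : CharP F 2)] at hk
    rw [hk] at hq
    exact absurd hq (by simp [parity_simps])
  let e : (((Fin m → F) × (Fin m → F)) × (Unit → F)) ≃ₗ[F] (Unit ⊕ (Fin m ⊕ Fin m) → F) := eOdd m
  rw [card_classes (p := p) (isoEquiv (Cfsg.quadFormOdd m F) (Q := oddQ m F) (LinearEquiv.refl F _)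
      fun v => (oddQ_apply m v).symm)
      (nd_map e (fun v => by rw [oddQ_apply, odd_apply]) (nd_splitQ (nd_sqQ h2) m)) hr hr2 hrp,
    card_real_odd (p := p) rfl hr hr2 hrp hi ht h2, cnt]
  have hd : (2 * m + 1) / (2 * i) = m / i := by
    rw [← Nat.div_div_eq_div_mul, Nat.mul_add_div two_pos]; simp
  split_ifs <;> simp [hd]

end Cfsg.Agent.S2673
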