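import Cfsg.Statements.S2675
import Cfsg.Agent.Lib.Classical.OrthTorsionClasses

set_option autoImplicit false
open Cfsg

namespace Cfsg.Agent.S2675
open Cfsg.Agent.Lib.Classical.OrthTorsion Cfsg.Agent.Lib.Classical.Quad Cfsg.Agent.Lib.Classical.QuadOmega


/-- Number of conjugacy classes of elements of odd prime order r ≠ p in the orthogonal group O⁻_2m(q) of an elliptic form Σ_(j<m−1) x_j y_j + z₁² + a z₁z₂ + c z₂² (binary part anisotropic, m ≥ 1): with i the multiplicative order of q mod r and t = (r − 1)/i — if i is odd, C(⌊m/i⌋ + t/2, t/2) − 1 minus, when i divides m, the C(m/i + t/2 − 1, t/2 − 1) tuples filling the whole space (dual pairs of totally singular blocks fill a hyperbolic space); if i is even, C(⌊2m/i⌋ + t, t) − 1 minus, when i divides 2m with even quotient, the C(2m/i + t − 1, t − 1) tuples filling the whole space with an even number of elliptic blocks. -/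
theorem result {F : Type*} [Field F] [Fintype F] {p q : ℕ} [Fact p.Prime] [CharP F p] (hF : Fintype.card F = q) (m r i t : ℕ) (hm : 1 ≤ m) (a c : F) (hac : ∀ z₁ z₂ : F, z₁ ^ 2 + a * z₁ * z₂ + c * z₂ ^ 2 = 0 → z₁ = 0 ∧ z₂ = 0) (hr : r.Prime) (hr2 : r ≠ 2) (hrp : r ≠ p) (hi : i = orderOf (q : ZMod r)) (ht : t * i = r - 1) : Nat.card {C : ConjClasses ↥(Cfsg.isometryGroup F (Cfsg.quadFormMinus (m - 1) F a c)) // ∃ g : ↥(Cfsg.isometryGroup F (Cfsg.quadFormMinus (m - 1) F a c)), ConjClasses.mk g = C ∧ orderOf g = r} = if Odd i then Nat.choose (m / i + t / 2) (t / 2) - 1 - (if i ∣ m then Nat.choose (m / i + t / 2 - 1) (t / 2 - 1) else 0) else Nat.choose (2 * m / i + t) t - 1 - (if i ∣ 2 * m ∧ Even (2 * m / i) then Nat.choose (2 * m / i + t - 1) (t - 1) else 0) := by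
  classical
  subst hF
  obtain ⟨M, rfl⟩ : ∃ M, m = M + 1 := ⟨m - 1, by omega⟩
  show Nat.card {C : ConjClasses ↥(Cfsg.isometryGroup F (Cfsg.quadFormMinus M F a c)) //
    ∃ g : ↥(Cfsg.isometryGroup F (Cfsg.quadFormMinus M F a c)), ConjClasses.mk g = C ∧ orderOf g = r} = _
  rw [card_classes (p := p) (isoEquiv (Cfsg.quadFormMinus M F a c)
      (Q := Cfsg.Agent.Lib.Classical.QuadF2.minusQ M a c) (LinearEquiv.refl F _)
      fun v => (Cfsg.Agent.Lib.Classical.QuadF2.minusQ_apply M a c v).symm)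
      (Cfsg.Agent.Lib.Classical.QuadF2.nd_minusQ hac M) hr hr2 hrp,
    card_real_minus (p := p) rfl hr hr2 hrp hi ht hac, cnt, exc]
  rw [Nat.mul_div_mul_left (M + 1) i two_pos]
  by_cases hio : Odd i
  · by_cases hd : i ∣ M + 1 <;> simp [hio, hd] <;> omega
  · by_cases hd : i ∣ 2 * (M + 1) ∧ Even (2 * (M + 1) / i)
    · simp [hio, hd.1, hd.2]; omega
    · simp [hio, hd]

end Cfsg.Agent.S2675
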