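import Cfsg.Statements.S2676
import Cfsg.Agent.Lib.Jordan.SympClasses
-- import your own Cfsg.Agent.* helpers here

set_option autoImplicit false
open Classical
open Cfsg

namespace Cfsg.Agent.S2676

open Matrix Cfsg.Agent.Lib.Jordan

noncomputable section

variable {F : Type*} [Field F] [Fintype F] {m : ℕ}

/-- The even parts. -/
def evp (μ : Nat.Partition (2 * m)) : Finset ℕ := μ.parts.toFinset.filter fun j => Even j

/-- The block sizes of a partition. -/
def dP (μ : Nat.Partition (2 * m)) : Fin μ.parts.toList.length → ℕ := fun k => μ.parts.toList[k]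

theorem map_dP (μ : Nat.Partition (2 * m)) : Finset.univ.val.map (dP μ) = μ.parts := by
  rw [Fin.univ_val_map]
  show (↑(List.ofFn fun k : Fin μ.parts.toList.length => μ.parts.toList[(k : ℕ)]) : Multiset ℕ) = _
  rw [List.ofFn_getElem, Multiset.coe_toList]

theorem dP_pos (μ : Nat.Partition (2 * m)) (k : Fin μ.parts.toList.length) : 1 ≤ dP μ k :=
  μ.parts_pos (Multiset.mem_toList.mp (List.getElem_mem _))

theorem mult_dP (μ : Nat.Partition (2 * m)) (j : ℕ) : mult (dP μ) j = μ.parts.count j := by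
  classical
  conv_rhs => rw [← map_dP μ]
  rw [Multiset.count_map]
  simp only [eq_comm (a := j)]
  rfl

/-- The identification of the index sets. -/
def eP (μ : Nat.Partition (2 * m)) : Idx (dP μ) ≃ Fin m ⊕ Fin m := Fintype.equivOfCardEq (by
  rw [Fintype.card_sigma, Fintype.card_sum]
  simp only [Fintype.card_fin]
  have h : ∑ k, dP μ k = μ.parts.sum := congrArg Multiset.sum (map_dP μ)
  rw [h, μ.parts_sum]
  omega)

variable (F) in
/-- The symplectic form in Jordan coordinates. -/
def om (μ : Nat.Partition (2 * m)) : Matrix (Idx (dP μ)) (Idx (dP μ)) F :=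
  (Matrix.J (Fin m) F).submatrix (eP μ) (eP μ)

/-- An element in Jordan coordinates. -/
def gI (μ : Nat.Partition (2 * m)) (g : Matrix.symplecticGroup (Fin m) F) : Matrix (Idx (dP μ)) (Idx (dP μ)) F :=
  (g : Matrix (Fin m ⊕ Fin m) (Fin m ⊕ Fin m) F).submatrix (eP μ) (eP μ)

theorem om_transpose (μ : Nat.Partition (2 * m)) : (om F μ)ᵀ = -om F μ := by
  rw [om, Matrix.transpose_submatrix, Matrix.J_transpose]
  rfl

theorem om_det (μ : Nat.Partition (2 * m)) : (om F μ).det ≠ 0 := by
  rw [om, Matrix.det_submatrix_equiv_self]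
  exact (Matrix.isUnit_det_J (Fin m) F).ne_zero

theorem gI_form (μ : Nat.Partition (2 * m)) (g : Matrix.symplecticGroup (Fin m) F) :
    (gI μ g)ᵀ * om F μ * gI μ g = om F μ := by
  rw [gI, om, Matrix.transpose_submatrix, Matrix.submatrix_mul_equiv, Matrix.submatrix_mul_equiv,
    SymplecticGroup.mem_iff'.mp g.2]

/-- The class parameters of an element. -/
def Rel (g : Matrix.symplecticGroup (Fin m) F) (a : (_ : Nat.Partition (2 * m)) × Finset ℕ) : Prop :=
  a.2 ⊆ evp a.1 ∧ ∃ P : GL (Idx (dP a.1)) F,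
    P.val * Cfsg.jordanTypeMatrix (dP a.1) F = gI a.1 g * P.val ∧
    ∀ i : UCent.Rng (dP a.1), (i : ℕ) ∈ evp a.1 →
      ((i : ℕ) ∈ a.2 ↔ IsSquare (SpC.bm (dP a.1) (P.valᵀ * om F a.1 * P.val) i).det)

theorem pull_inv (μ : Nat.Partition (2 * m)) (g : Matrix.symplecticGroup (Fin m) F) (P : GL (Idx (dP μ)) F)
    (h : P.val * Cfsg.jordanTypeMatrix (dP μ) F = gI μ g * P.val) :
    SpC.Inv (dP μ) (P.valᵀ * om F μ * P.val) := by
  show _ * _ * _ = _
  calc (Cfsg.jordanTypeMatrix (dP μ) F)ᵀ * (P.valᵀ * om F μ * P.val) * Cfsg.jordanTypeMatrix (dP μ) F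
      = (P.val * Cfsg.jordanTypeMatrix (dP μ) F)ᵀ * om F μ *
          (P.val * Cfsg.jordanTypeMatrix (dP μ) F) := by
        rw [Matrix.transpose_mul]; simp only [mul_assoc]
    _ = P.valᵀ * ((gI μ g)ᵀ * om F μ * gI μ g) * P.val := by
        rw [h, Matrix.transpose_mul]; simp only [mul_assoc]
    _ = _ := by rw [gI_form]

theorem pull_skew (μ : Nat.Partition (2 * m)) (P : Matrix (Idx (dP μ)) (Idx (dP μ)) F) :
    (Pᵀ * om F μ * P)ᵀ = -(Pᵀ * om F μ * P) := by
  rw [Matrix.transpose_mul, Matrix.transpose_mul, Matrix.transpose_transpose, om_transpose]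
  simp [mul_assoc]

theorem pull_det (μ : Nat.Partition (2 * m)) (P : GL (Idx (dP μ)) F) :
    (P.valᵀ * om F μ * P.val).det ≠ 0 := by
  rw [Matrix.det_mul, Matrix.det_mul, Matrix.det_transpose]
  exact mul_ne_zero (mul_ne_zero (Matrix.GeneralLinearGroup.det_ne_zero P) (om_det μ))
    (Matrix.GeneralLinearGroup.det_ne_zero P)

theorem rel_mtype {g : Matrix.symplecticGroup (Fin m) F} {a : (_ : Nat.Partition (2 * m)) × Finset ℕ}
    (h : Rel g a) : MType ((g : Matrix (Fin m ⊕ Fin m) (Fin m ⊕ Fin m) F) - 1) a.1.parts := by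
  obtain ⟨-, P, hP, -⟩ := h
  have h1 : MType (gI a.1 g - 1) a.1.parts := by
    have h0 := mtype_jordan (F := F) (dP a.1) (dP_pos a.1)
    rw [map_dP] at h0
    refine h0.conj P ?_
    rw [Matrix.mul_sub, Matrix.sub_mul, Matrix.mul_one, Matrix.one_mul, hP]
  have h2 := h1.reindex (eP a.1)
  rw [← reindex_sub_one, Matrix.reindex_apply, gI, Matrix.submatrix_submatrix, Equiv.self_comp_symm,
    Matrix.submatrix_id_id] at h2
  exact h2

theorem isSquare_mul_iff' {a b : F} (ha : a ≠ 0) (hb : b ≠ 0) :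
    IsSquare (a * b) ↔ (IsSquare a ↔ IsSquare b) := by
  classical
  rw [← quadraticChar_one_iff_isSquare ha, ← quadraticChar_one_iff_isSquare hb,
    ← quadraticChar_one_iff_isSquare (mul_ne_zero ha hb), map_mul]
  rcases quadraticChar_dichotomy ha with h | h <;> rcases quadraticChar_dichotomy hb with h' | h' <;> simp [h, h']

theorem mem_rng (μ : Nat.Partition (2 * m)) {j : ℕ} (hj : j ∈ μ.parts) :
    j ∈ Finset.range (Finset.univ.sup (dP μ) + 1) := by
  rw [← map_dP μ, Multiset.mem_map] at hj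
  obtain ⟨k, -, rfl⟩ := hj
  exact UCent.mem_rng _ k

theorem rel_iff {g : Matrix.symplecticGroup (Fin m) F} (μ : Nat.Partition (2 * m)) :
    MType ((g : Matrix (Fin m ⊕ Fin m) (Fin m ⊕ Fin m) F) - 1) μ.parts → ∃ T, Rel g ⟨μ, T⟩ := by
  classical
  intro h
  have h1 := h.reindex (eP μ).symm
  rw [← reindex_sub_one, Matrix.reindex_apply, Equiv.symm_symm] at h1
  have h0 := mtype_jordan (F := F) (dP μ) (dP_pos μ)
  rw [map_dP] at h0
  obtain ⟨P, hP⟩ := h0.exists_gl h1
  rw [Matrix.mul_sub, Matrix.sub_mul, Matrix.mul_one, Matrix.one_mul, sub_left_inj] at hP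
  refine ⟨(evp μ).filter fun j => ∀ hj : j ∈ Finset.range (Finset.univ.sup (dP μ) + 1),
    IsSquare (SpC.bm (dP μ) (P.valᵀ * om F μ * P.val) ⟨j, hj⟩).det, Finset.filter_subset _ _, P, hP,
    fun i hi => ?_⟩
  rw [Finset.mem_filter]
  exact ⟨fun h => h.2 i.2, fun h => ⟨hi, fun _ => h⟩⟩

end


/-- Number of conjugacy classes of elements of order p in Sp_2m(q), q a power of the odd prime p: the classes correspond to the signed partitions of 2m — partitions with all parts at most p in which every odd part has even multiplicity, each even part size that occurs carrying a sign — other than the all-ones partition; so the count is the sum over such partitions of 2^(number of distinct even parts), minus one. -/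
theorem result {F : Type*} [Field F] [Fintype F] {p : ℕ} [Fact p.Prime] [CharP F p] (hp : p ≠ 2) (m : ℕ) : Nat.card {C : ConjClasses ↥(Matrix.symplecticGroup (Fin m) F) // ∃ g : Matrix.symplecticGroup (Fin m) F, ConjClasses.mk g = C ∧ orderOf g = p} = (∑ μ ∈ Finset.univ.filter (fun μ : Nat.Partition (2 * m) => (∀ a ∈ μ.parts, a ≤ p) ∧ ∀ j : ℕ, Odd j → Even (μ.parts.count j)), 2 ^ ((μ.parts.toFinset.filter (fun j : ℕ => Even j)).card)) - 1 := by
  classical
  have h2 : (2 : F) ≠ 0 := Ring.two_ne_zero (by rw [ringChar.eq F p]; exact hp)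
  have hp1 : p.Prime := Fact.out
  set Λ := Finset.univ.filter (fun μ : Nat.Partition (2 * m) =>
    (∀ a ∈ μ.parts, a ≤ p) ∧ ∀ j : ℕ, Odd j → Even (μ.parts.count j)) with hΛ
  set S := (Λ.filter fun μ => ¬ ∀ a ∈ μ.parts, a = 1).sigma fun μ => (evp μ).powerset with hS
  have hone : ∀ μ : Nat.Partition (2 * m), (∀ a ∈ μ.parts, a = 1) → μ.parts = Multiset.replicate (2 * m) 1 := by
    intro μ h
    have hr := Multiset.eq_replicate_card.mpr h
    have hs := μ.parts_sum
    rw [hr, Multiset.sum_replicate, smul_eq_mul, mul_one] at hs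
    rw [hr, hs]
  let one : Nat.Partition (2 * m) :=
    ⟨Multiset.replicate (2 * m) 1, fun h => by rw [Multiset.eq_of_mem_replicate h]; exact Nat.one_pos, by simp⟩
  have hsum : (∑ μ ∈ Λ, 2 ^ ((μ.parts.toFinset.filter (fun j : ℕ => Even j)).card)) - 1 = S.card := by
    rw [hS, Finset.card_sigma, show (Λ.filter fun μ => ¬ ∀ a ∈ μ.parts, a = 1) = Λ.erase one from ?_,
      ← Finset.sum_erase_add Λ _ (show one ∈ Λ from ?_)]
    · have h0 : (one.parts.toFinset.filter (fun j : ℕ => Even j)).card = 0 := by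
        rw [Finset.card_eq_zero, Finset.filter_eq_empty_iff]
        intro j hj he
        rw [Multiset.mem_toFinset] at hj
        rw [Multiset.eq_of_mem_replicate hj] at he
        exact Nat.not_even_one he
      rw [h0, pow_zero, Nat.add_sub_cancel]
      exact Finset.sum_congr rfl fun μ _ => (Finset.card_powerset _).symm
    · simp only [hΛ, Finset.mem_filter, Finset.mem_univ, true_and]
      refine ⟨fun a ha => (Multiset.eq_of_mem_replicate ha).le.trans hp1.one_lt.le, fun j hj => ?_⟩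
      rw [Multiset.count_replicate]
      split_ifs <;> simp
    · ext μ
      simp only [Finset.mem_filter, Finset.mem_erase]
      exact ⟨fun ⟨h1, h3⟩ => ⟨fun e => h3 (e ▸ fun a ha => Multiset.eq_of_mem_replicate ha), h1⟩,
        fun ⟨h1, h3⟩ => ⟨h3, fun h => h1 (Nat.Partition.ext (hone μ h))⟩⟩
  rw [hsum]
  simp only [and_comm (a := ConjClasses.mk _ = _)]
  -- passing to invertible matrices
  let gl : Matrix.symplecticGroup (Fin m) F →* GL (Fin m ⊕ Fin m) F :=
    (Units.map (Matrix.symplecticGroup (Fin m) F).subtype).comp toUnits.toMonoidHom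
  have hgl : ∀ g, (gl g).val = g.1 := fun g => rfl
  have hgli : Function.Injective gl := fun a b h => Subtype.ext (congrArg Units.val h)
  have hord : ∀ (g : Matrix.symplecticGroup (Fin m) F) (μ : Multiset ℕ),
      MType ((g : Matrix (Fin m ⊕ Fin m) (Fin m ⊕ Fin m) F) - 1) μ → (orderOf g = p ↔ (∀ a ∈ μ, a ≤ p) ∧ ¬ ∀ a ∈ μ, a = 1) := by
    intro g μ h
    rcases Nat.eq_zero_or_pos m with rfl | hm
    · refine iff_of_false (fun hg => ?_) (fun h1 => h1.2 fun a ha => ?_)
      · rw [show g = 1 from Subtype.ext (Subsingleton.elim _ _), orderOf_one] at hg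
        exact hp1.one_lt.ne hg
      · have := h.sum_eq
        rw [Fintype.card_sum, Fintype.card_fin] at this
        have := Multiset.le_sum_of_mem ha
        have := Nat.pos_of_ne_zero (fun e : a = 0 => h.pos (e ▸ ha) |>.ne' rfl)
        omega
    · haveI : Nonempty (Fin m ⊕ Fin m) := ⟨Sum.inl ⟨0, hm⟩⟩
      rw [← orderOf_injective gl hgli g]
      exact order_p_iff p (g := gl g) h
  refine card_classes (fun g => orderOf g = p) Rel S (fun g hg => ?_) (fun g a b ha hb => ?_)
    (fun g g' a ha hgg => ?_) (fun g g' a ha hb => ?_) (fun a hmem => ?_)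
  · obtain ⟨μ, hμ⟩ := MType.exists_of_isNilpotent (M := (g : Matrix (Fin m ⊕ Fin m) (Fin m ⊕ Fin m) F) - 1)
      (((unipotent_iff p (gl g)).mp ⟨1, by rw [pow_one, orderOf_injective gl hgli g]; exact hg⟩))
    let π : Nat.Partition (2 * m) :=
      ⟨μ, fun hi => hμ.pos hi, by rw [hμ.sum_eq, Fintype.card_sum, Fintype.card_fin]; omega⟩
    obtain ⟨T, hT⟩ := rel_iff (g := g) π hμ
    refine ⟨⟨π, T⟩, ?_, hT⟩
    rw [hS, Finset.mem_sigma, Finset.mem_filter, hΛ, Finset.mem_filter, Finset.mem_powerset]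
    obtain ⟨h3, h4⟩ := (hord g μ hμ).mp hg
    exact ⟨⟨⟨Finset.mem_univ _, h3, even_count_odd g.2 hμ⟩, h4⟩, hT.1⟩
  · obtain ⟨μ, T⟩ := a
    obtain ⟨ν, T'⟩ := b
    obtain rfl : μ = ν := Nat.Partition.ext ((rel_mtype ha).unique (rel_mtype hb))
    obtain ⟨hT, P, hP, hPi⟩ := ha
    obtain ⟨hT', P', hP', hPi'⟩ := hb
    dsimp only at hT hP hPi hT' P' hP' hPi'
    have hc : Commute (P⁻¹ * P' : GL (Idx (dP μ)) F).val (Cfsg.jordanTypeMatrix (dP μ) F) := by
      show _ * _ = _ * _
      refine P.isUnit.mul_left_cancel ?_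
      rw [← mul_assoc, ← mul_assoc, hP, ← Units.val_mul, mul_inv_cancel_left, hP',
        mul_assoc (gI μ g), ← Units.val_mul, mul_inv_cancel_left]
    have hcg := (SpC.congr_iff (dP μ) (dP_pos μ) p hp (pull_skew μ P.val) (pull_skew μ P'.val)
      (pull_inv μ g P hP) (pull_inv μ g P' hP') (pull_det μ P) (pull_det μ P')).mp
      ⟨_, hc, Units.isUnit _, by
        rw [show P'.val = P.val * (P⁻¹ * P' : GL (Idx (dP μ)) F).val by
          rw [← Units.val_mul, mul_inv_cancel_left], Matrix.transpose_mul]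
        simp only [mul_assoc]⟩
    have : T = T' := by
      ext j
      by_cases hj : j ∈ evp μ
      · have hjr := mem_rng μ (Multiset.mem_toFinset.mp (Finset.mem_filter.mp hj).1)
        rw [hPi ⟨j, hjr⟩ hj, hPi' ⟨j, hjr⟩ hj]
        exact (isSquare_mul_iff' (SpC.bm_det _ (dP_pos μ) (pull_inv μ g P hP) (pull_det μ P) _)
          (SpC.bm_det _ (dP_pos μ) (pull_inv μ g P' hP') (pull_det μ P') _)).mp
          (hcg ⟨j, hjr⟩ (Finset.mem_filter.mp hj).2)
      · exact iff_of_false (fun h => hj (hT h)) (fun h => hj (hT' h))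
    rw [this]
  · obtain ⟨hT, P, hP, hPi⟩ := ha
    obtain ⟨h, hh⟩ := isConj_iff.mp hgg
    let hI : GL (Idx (dP a.1)) F := Units.map (Matrix.reindexAlgEquiv F F (eP a.1).symm).toMonoidHom (gl h)
    have hI' : hI.val = gI a.1 h := rfl
    refine ⟨hT, hI * P, ?_, fun i hi => ?_⟩
    · rw [Units.val_mul, hI', mul_assoc, hP, ← mul_assoc, ← mul_assoc]
      congr 1
      simp only [gI, Matrix.submatrix_mul_equiv]
      congr 1
      rw [← Submonoid.coe_mul, ← Submonoid.coe_mul, ← hh, inv_mul_cancel_right]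
    · rw [hPi i hi, show (hI * P : GL (Idx (dP a.1)) F).valᵀ * om F a.1 * (hI * P : GL (Idx (dP a.1)) F).val =
        P.valᵀ * ((gI a.1 h)ᵀ * om F a.1 * gI a.1 h) * P.val by
          rw [Units.val_mul, hI', Matrix.transpose_mul]; simp only [mul_assoc], gI_form]
  · obtain ⟨hT, P, hP, hPi⟩ := ha
    obtain ⟨-, P', hP', hPi'⟩ := hb
    obtain ⟨A, hA, hAu, hAX⟩ := (SpC.congr_iff (dP a.1) (dP_pos a.1) p hp (pull_skew a.1 P.val)
      (pull_skew a.1 P'.val) (pull_inv a.1 g P hP) (pull_inv a.1 g' P' hP') (pull_det a.1 P)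
      (pull_det a.1 P')).mpr (fun i hi => by
        by_cases hiT : (i : ℕ) ∈ evp a.1
        · exact (isSquare_mul_iff' (SpC.bm_det _ (dP_pos a.1) (pull_inv a.1 g P hP) (pull_det a.1 P) _)
            (SpC.bm_det _ (dP_pos a.1) (pull_inv a.1 g' P' hP') (pull_det a.1 P') _)).mpr
            ((hPi i hiT).symm.trans (hPi' i hiT))
        · haveI : IsEmpty (Fin (mult (dP a.1) i)) := by
            rw [mult_dP, Multiset.count_eq_zero_of_notMem fun h =>
              hiT (Finset.mem_filter.mpr ⟨Multiset.mem_toFinset.mpr h, hi⟩)]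
            infer_instance
          rw [Matrix.det_isEmpty, Matrix.det_isEmpty, mul_one]
          exact IsSquare.one)
    -- the conjugating element
    let x : GL (Idx (dP a.1)) F := P * hAu.unit * P'⁻¹
    have hx : x.valᵀ * om F a.1 * x.val = om F a.1 := by
      have e : (P * hAu.unit : GL (Idx (dP a.1)) F).valᵀ * om F a.1 *
          (P * hAu.unit : GL (Idx (dP a.1)) F).val = P'.valᵀ * om F a.1 * P' := by
        rw [← hAX, Units.val_mul, IsUnit.unit_spec, Matrix.transpose_mul]; simp only [mul_assoc]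
      calc x.valᵀ * om F a.1 * x.val
          = (P'⁻¹ : GL (Idx (dP a.1)) F).valᵀ * ((P * hAu.unit : GL (Idx (dP a.1)) F).valᵀ *
              om F a.1 * (P * hAu.unit : GL (Idx (dP a.1)) F).val) * (P'⁻¹ : GL (Idx (dP a.1)) F).val := by
            rw [show x.val = (P * hAu.unit : GL (Idx (dP a.1)) F).val *
              (P'⁻¹ : GL (Idx (dP a.1)) F).val from rfl, Matrix.transpose_mul]
            simp only [mul_assoc]
        _ = (P' * P'⁻¹ : GL (Idx (dP a.1)) F).valᵀ * om F a.1 *
              (P' * P'⁻¹ : GL (Idx (dP a.1)) F).val := by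
            rw [e, Units.val_mul, Matrix.transpose_mul]; simp only [mul_assoc]
        _ = om F a.1 := by rw [mul_inv_cancel, Units.val_one, Matrix.transpose_one, one_mul, mul_one]
    have hxm : x.val.submatrix (eP a.1).symm (eP a.1).symm ∈ Matrix.symplecticGroup (Fin m) F := by
      rw [SymplecticGroup.mem_iff', show Matrix.J (Fin m) F = (om F a.1).submatrix (eP a.1).symm (eP a.1).symm by
        rw [om, Matrix.submatrix_submatrix, Equiv.self_comp_symm, Matrix.submatrix_id_id],
        Matrix.transpose_submatrix, Matrix.submatrix_mul_equiv, Matrix.submatrix_mul_equiv, hx]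
    refine (isConj_iff.mpr ⟨⟨_, hxm⟩, mul_inv_eq_iff_eq_mul.mpr (Subtype.ext ?_)⟩).symm
    have hxg : x.val * gI a.1 g' = gI a.1 g * x.val := by
      have hgP' : (P'⁻¹ : GL (Idx (dP a.1)) F).val * gI a.1 g' =
          Cfsg.jordanTypeMatrix (dP a.1) F * (P'⁻¹ : GL (Idx (dP a.1)) F).val := by
        refine P'.isUnit.mul_left_cancel (P'.isUnit.mul_right_cancel ?_)
        simp only [mul_assoc, Units.inv_mul, mul_one, Units.mul_inv_cancel_left]
        exact hP'.symm
      show P.val * A * _ * _ = _ * (P.val * A * _)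
      rw [mul_assoc _ _ (gI a.1 g'), hgP', mul_assoc P.val A, ← mul_assoc A, hA.eq,
        mul_assoc _ A, ← mul_assoc P.val, hP]
      simp only [mul_assoc]
    have := congrArg (fun M : Matrix (Idx (dP a.1)) (Idx (dP a.1)) F => M.submatrix (eP a.1).symm (eP a.1).symm) hxg
    simp only [gI] at this
    rw [← Matrix.submatrix_mul_equiv x.val _ _ (eP a.1).symm,
      ← Matrix.submatrix_mul_equiv _ x.val _ (eP a.1).symm, Matrix.submatrix_submatrix,
      Matrix.submatrix_submatrix, Equiv.self_comp_symm, Matrix.submatrix_id_id, Matrix.submatrix_id_id] at this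
    exact this
  · obtain ⟨μ, T⟩ := a
    rw [hS, Finset.mem_sigma, Finset.mem_filter, hΛ, Finset.mem_filter, Finset.mem_powerset] at hmem
    obtain ⟨⟨⟨-, hle, hpar⟩, hne⟩, hTs⟩ := hmem
    obtain ⟨m', A, hA, hAt⟩ := spReal_of_even_counts (F := F) μ.parts (fun a ha => μ.parts_pos ha) hpar
    obtain rfl : m' = m := by
      have := hAt.sum_eq
      rw [Fintype.card_sum, Fintype.card_fin, μ.parts_sum] at this
      omega
    obtain ⟨T0, -, P0, hP0, -⟩ := rel_iff (g := ⟨A, hA⟩) μ hAt
    set X0 := P0.valᵀ * om F μ * P0.val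
    have hX0 := pull_inv μ _ P0 hP0
    have hd0 := pull_det μ P0
    obtain ⟨ν, hν⟩ := FiniteField.exists_nonsquare (F := F) (by rw [ringChar.eq F p]; exact hp)
    have hν0 : ν ≠ 0 := fun e => hν (e ▸ IsSquare.zero)
    -- the prescribed leading forms
    let M : (i : UCent.Rng (dP μ)) → Matrix (Fin (mult (dP μ) i)) (Fin (mult (dP μ) i)) F := fun i =>
      if (i : ℕ) ∈ evp μ then
        Matrix.diagonal fun j => if (j : ℕ) = 0 then (if (i : ℕ) ∈ T then 1 else ν) else 1
      else SpC.bm (dP μ) X0 i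
    have hMdet : ∀ i : UCent.Rng (dP μ), (i : ℕ) ∈ evp μ → (M i).det = if (i : ℕ) ∈ T then 1 else ν := by
      intro i hi
      have hpos : 0 < mult (dP μ) i := by
        rw [mult_dP, Multiset.count_pos]
        exact Multiset.mem_toFinset.mp (Finset.mem_filter.mp hi).1
      simp only [M]
      rw [if_pos hi, Matrix.det_diagonal, Finset.prod_eq_single (⟨0, hpos⟩ : Fin (mult (dP μ) i))]
      · rw [if_pos rfl]
      · intro j _ hj
        rw [if_neg fun e => hj (Fin.ext e)]
      · simp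
    obtain ⟨X, hXi, hXs, hXd, hXb⟩ := SpC.exists_lift (dP μ) (dP_pos μ) h2 hX0 hd0 M (fun i => by
        by_cases hi : (i : ℕ) ∈ evp μ
        · rw [hMdet i hi]; split_ifs <;> first | exact one_ne_zero | exact hν0
        · simp only [M]; rw [if_neg hi]; exact SpC.bm_det _ (dP_pos μ) hX0 hd0 i)
      (fun i => by
        simp only [M]
        by_cases hi : (i : ℕ) ∈ evp μ
        · rw [if_pos hi, Matrix.diagonal_transpose, (Finset.mem_filter.mp hi).2.neg_one_pow, one_smul]
        · rw [if_neg hi]; exact SpC.bm_symm _ (dP_pos μ) hX0 (pull_skew μ _) i)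
    have halt : ∀ {Y : Matrix (Idx (dP μ)) (Idx (dP μ)) F}, Yᵀ = -Y → ∀ v, Matrix.toBilin' Y v v = 0 := by
      intro Y hY v
      have h := Cfsg.Agent.Lib.AutPSL.bilin_flip (ε := (-1 : F)) (by rw [hY, neg_one_smul]) v v
      rw [neg_one_mul, eq_neg_iff_add_eq_zero, ← two_mul] at h
      exact (mul_eq_zero.mp h).resolve_left h2
    obtain ⟨Q, hQ⟩ := Cfsg.Agent.Lib.AutPSL.congr_alt (om_det μ) hXd (halt (om_transpose μ)) (halt hXs)
    obtain ⟨J', hJ'⟩ : IsUnit (Cfsg.jordanTypeMatrix (dP μ) F) :=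
      (Matrix.isUnit_iff_isUnit_det _).mpr (SpC.det_jordan (dP_pos μ))
    have hgm : (Q * J' * Q⁻¹ : GL (Idx (dP μ)) F).val.submatrix (eP μ).symm (eP μ).symm ∈
        Matrix.symplecticGroup (Fin m') F := by
      rw [SymplecticGroup.mem_iff', show Matrix.J (Fin m') F = (om F μ).submatrix (eP μ).symm (eP μ).symm by
        rw [om, Matrix.submatrix_submatrix, Equiv.self_comp_symm, Matrix.submatrix_id_id],
        Matrix.transpose_submatrix, Matrix.submatrix_mul_equiv, Matrix.submatrix_mul_equiv]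
      congr 1
      rw [Units.val_mul, Units.val_mul, Matrix.transpose_mul, Matrix.transpose_mul, hJ']
      calc _ = (Q⁻¹ : GL (Idx (dP μ)) F).valᵀ * ((Cfsg.jordanTypeMatrix (dP μ) F)ᵀ *
            (Q.valᵀ * om F μ * Q.val) * Cfsg.jordanTypeMatrix (dP μ) F) * (Q⁻¹ : GL (Idx (dP μ)) F).val := by
            simp only [mul_assoc]
        _ = (Q⁻¹ : GL (Idx (dP μ)) F).valᵀ * (Q.valᵀ * om F μ * Q.val) * (Q⁻¹ : GL (Idx (dP μ)) F).val := by
            rw [hQ, (hXi : _ * _ * _ = X)]
        _ = (Q * Q⁻¹ : GL (Idx (dP μ)) F).valᵀ * om F μ * (Q * Q⁻¹ : GL (Idx (dP μ)) F).val := by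
            rw [Units.val_mul, Matrix.transpose_mul]; simp only [mul_assoc]
        _ = _ := by rw [mul_inv_cancel, Units.val_one, Matrix.transpose_one, one_mul, mul_one]
    have hrel : Rel (⟨_, hgm⟩ : Matrix.symplecticGroup (Fin m') F) ⟨μ, T⟩ := by
      refine ⟨hTs, Q, ?_, fun i hi => ?_⟩
      · simp only [gI, Matrix.submatrix_submatrix, Equiv.symm_comp_self, Matrix.submatrix_id_id, Units.val_mul, mul_assoc,
          Units.inv_mul, mul_one, hJ']
      · show (i : ℕ) ∈ T ↔ IsSquare (SpC.bm (dP μ) (Q.valᵀ * om F μ * Q.val) i).det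
        rw [hQ, hXb, hMdet i hi]
        split_ifs with hT
        · exact iff_of_true hT IsSquare.one
        · exact iff_of_false hT hν
    exact ⟨_, (hord _ μ.parts (rel_mtype hrel)).mpr ⟨hle, hne⟩, hrel⟩

end Cfsg.Agent.S2676
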