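import Cfsg.Statements.S2677
import Cfsg.Agent.Lib.AutPSU.FixedCosets
import Mathlib.FieldTheory.Finite.GaloisField

set_option autoImplicit false
open Cfsg

namespace Cfsg.Agent.S2677

/-- Centraliser of a field automorphism of odd prime order in PGU_n(q): let q = q₀^r with r an odd prime, K the field with q² elements and σ a field automorphism of K of order r (fixed field of order q₀²). The elements g of GU_n(q) whose entrywise image under σ is a scalar multiple of g — those whose coset modulo the q + 1 unitary scalars is fixed by σ — number (q + 1)/(q₀ + 1) · |GU_n(q₀)|; equivalently the centraliser in PGU_n(q) of the induced automorphism has the order of PGU_n(q₀). -/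
theorem result {K : Type*} [Field K] [Fintype K] {q₀ q r n : ℕ} (hr : r.Prime) (hr2 : r ≠ 2) (hn : 1 ≤ n) (hq : q = q₀ ^ r) (hK : Fintype.card K = q ^ 2) (σ : K ≃+* K) (hσ : orderOf σ = r) : (Nat.card {g : ↥(Cfsg.GU n K q) // ∃ c : K, c ≠ 0 ∧ ((g : GL (Fin n) K) : Matrix (Fin n) (Fin n) K).map σ = c • ((g : GL (Fin n) K) : Matrix (Fin n) (Fin n) K)} : ℤ) = ((q + 1) / (q₀ + 1) : ℕ) * ((q₀ : ℤ) ^ (n * (n - 1) / 2) * ∏ i : Fin n, ((q₀ : ℤ) ^ ((i : ℕ) + 1) - (-1) ^ ((i : ℕ) + 1))) := by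
  classical
  obtain ⟨p, m, hp, -, hm, hqm⟩ := Cfsg.Agent.Lib.UnitaryConj.q_eq_pow hK
  haveI : Fact p.Prime := ⟨hp⟩
  have hdvd : q₀ ∣ p ^ m := by rw [← hqm, hq]; exact dvd_pow_self _ hr.ne_zero
  obtain ⟨k, -, rfl⟩ := (Nat.dvd_prime_pow hp).1 hdvd
  have hmk : m = k * r := Nat.pow_right_injective hp.two_le (by
    show p ^ m = p ^ (k * r)
    rw [← hqm, hq, ← pow_mul])
  have hk : 1 ≤ k := by
    rcases Nat.eq_zero_or_pos k with rfl | h
    · simp at hmk; omega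
    · exact h
  have hodd : Odd r := hr.odd_of_ne_two hr2
  have hF' : Fintype.card K = p ^ (2 * m) := by rw [hK, hqm, ← pow_mul, mul_comm]
  letI : Fintype (GaloisField p (2 * k)) := Fintype.ofFinite _
  have hG : Fintype.card (GaloisField p (2 * k)) = p ^ (2 * k) := by
    rw [← Nat.card_eq_fintype_card, GaloisField.card p _ (by omega)]
  obtain ⟨ι, hι⟩ := Cfsg.Agent.Lib.AutPSL.exists_embedding hF' hσ
    ⟨2 * k, by rw [hmk]; ring⟩ (GaloisField p (2 * k))
    (by rw [hG, hmk]; congr 1; rw [show 2 * (k * r) = 2 * k * r by ring,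
      Nat.mul_div_cancel _ hr.pos])
  have hG' : Fintype.card (GaloisField p (2 * k)) = (p ^ k) ^ 2 := by
    rw [hG, ← pow_mul, mul_comm]
  have hq0 : ∀ x, ι (x ^ (p ^ k)) = ι x ^ q :=
    Cfsg.Agent.Lib.AutPSU.embedding_pow ι hodd rfl (by rw [hqm, hmk, mul_comm]) hG'
  have h := Cfsg.Agent.Lib.AutPSU.card_scalar_moved hK hn hσ hr.pos ι hι hG' hq0
  have hprod : ((Nat.card (Cfsg.GU n (GaloisField p (2 * k)) (p ^ k)) : ℕ) : ℤ) =
      ((p ^ k : ℕ) : ℤ) ^ (n * (n - 1) / 2) *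
        ∏ i : Fin n, (((p ^ k : ℕ) : ℤ) ^ ((i : ℕ) + 1) - (-1) ^ ((i : ℕ) + 1)) := by
    rw [Cfsg.Agent.Lib.Classical.Herm.card_GU hG' n, Nat.cast_mul, Nat.cast_pow, Nat.cast_prod,
      Fin.prod_univ_eq_prod_range (fun i => ((p ^ k : ℕ) : ℤ) ^ (i + 1) - (-1) ^ (i + 1)) n]
    congr 1
    refine Finset.prod_congr rfl fun i _ => ?_
    by_cases he : Even i
    · rw [if_pos he, Nat.cast_add, Nat.cast_pow, Nat.cast_one, (he.add_one).neg_one_pow,
        sub_neg_eq_add]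
    · rw [if_neg he, Nat.cast_sub (Nat.one_le_pow _ _ (pow_pos hp.pos k)), Nat.cast_pow, Nat.cast_one,
        (Nat.not_even_iff_odd.1 he).add_one.neg_one_pow]
  rw [← hprod]
  have hd : p ^ k + 1 ∣ q + 1 := by
    have h1 := Odd.nat_add_dvd_pow_add_pow (p ^ k) 1 hodd
    rwa [one_pow, ← hq] at h1
  obtain ⟨d, hd'⟩ := hd
  rw [hd', Nat.mul_div_cancel_left _ (by omega)]
  have h2 : ∀ a b, a * (p ^ k + 1) = (p ^ k + 1) * d * b → a = d * b := fun a b hab =>
    Nat.eq_of_mul_eq_mul_right (show 0 < p ^ k + 1 by omega) (by rw [hab]; ring)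
  rw [hd'] at h
  rw [h2 _ _ h, Nat.cast_mul]

end Cfsg.Agent.S2677
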