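import Cfsg.Statements.S2678
import Cfsg.Agent.Lib.Classical.UnitaryFlat

open Cfsg.Agent.Lib.Classical.UnitaryFlat Cfsg.Agent.Lib.Classical.Quad
open scoped Matrix

set_option autoImplicit false
open Cfsg

namespace Cfsg.Agent.S2678

section

variable {F K : Type*} [Field F] [Field K] {q : ℕ} {a b : F}

/-- Index of the pieces. -/
noncomputable def slot (n : ℕ) : Fin 2 × Fin n ≃ Fin (2 * n) := finProdFinEquiv

/-- Coordinates: a basis on one Lagrangian, the dual basis on the other. -/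
noncomputable def iotaS (D : Data F K q a b) {n : ℕ} (z : Fin (2 * n) ⊕ Fin (2 * n) → F) :
    Fin n ⊕ Fin n → K :=
  Sum.elim (fun i => D.f (z (.inl (slot n (0, i)))) + D.θ * D.f (z (.inl (slot n (1, i)))))
    (fun i => D.f (z (.inr (slot n (1, i))) - a * z (.inr (slot n (0, i)))) +
      D.θ * D.f (z (.inr (slot n (0, i)))))

variable (D : Data F K q a b) {n : ℕ}

lemma coord_eq {x y : F} (h : D.f x + D.θ * D.f y = 0) : x = 0 ∧ y = 0 := by
  have hy : y = 0 := by
    by_contra hy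
    have hy' : D.f y ≠ 0 := (map_ne_zero _).2 hy
    refine D.hne ?_
    have hθ : D.θ = D.f (-x / y) := by
      rw [map_div₀, map_neg, eq_div_iff hy']
      linear_combination h
    rw [hθ, D.hfix]
  exact ⟨D.f.injective (by rw [hy, map_zero, mul_zero, add_zero] at h; rw [h, map_zero]), hy⟩

/-- The coordinates as an additive map. -/
noncomputable def iotaAdd : (Fin (2 * n) ⊕ Fin (2 * n) → F) →+ (Fin n ⊕ Fin n → K) :=
  AddMonoidHom.mk' (iotaS D) fun z z' => by ext (i | i) <;> simp [iotaS, mul_add] <;> ring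

lemma iotaS_smul (c : F) (z : Fin (2 * n) ⊕ Fin (2 * n) → F) :
    iotaS D (c • z) = D.f c • iotaS D z := by
  ext (i | i) <;> simp [iotaS] <;> ring

lemma iotaS_bijective : Function.Bijective (iotaS D (n := n)) := by
  constructor
  · refine (injective_iff_map_eq_zero (iotaAdd D (n := n))).2 fun z hz => funext fun s => ?_
    rcases s with s | s <;> obtain ⟨⟨k, i⟩, rfl⟩ := (slot n).surjective s
    · have h := coord_eq D (congrFun hz (.inl i))
      fin_cases k
      · exact h.1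
      · exact h.2
    · have h := coord_eq D (congrFun hz (.inr i))
      fin_cases k
      · exact h.2
      · simpa [h.2] using h.1
  · intro v
    choose x y hxy using D.surj
    refine ⟨Sum.elim (fun s => if ((slot n).symm s).1 = 0 then x (v (.inl ((slot n).symm s).2))
        else y (v (.inl ((slot n).symm s).2)))
      (fun s => if ((slot n).symm s).1 = 0 then y (v (.inr ((slot n).symm s).2))
        else x (v (.inr ((slot n).symm s).2)) + a * y (v (.inr ((slot n).symm s).2))), ?_⟩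
    ext (i | i) <;> simp [iotaS, hxy]

lemma skew_mul (u₀ u₁ v₀ v₁ : F) :
    (D.f u₀ + D.θ * D.f u₁) * (D.f (v₁ - a * v₀) + D.θ * D.f v₀) -
      ((D.f u₀ + D.θ * D.f u₁) * (D.f (v₁ - a * v₀) + D.θ * D.f v₀)) ^ q =
      (D.θ - D.θ ^ q) * D.f (u₀ * v₀ + u₁ * v₁) := by
  rw [mul_pow, D.hadd, D.hadd, mul_pow, mul_pow, D.hfix, D.hfix, D.hfix, D.hfix]
  simp only [map_add, map_sub, map_mul, ← D.htr]
  ring

lemma alt_eq {R : Type*} [CommRing R] {m : ℕ} (u v : Fin m ⊕ Fin m → R) :
    u ⬝ᵥ (Matrix.J (Fin m) R *ᵥ v) = ∑ i, (u (.inr i) * v (.inl i) - u (.inl i) * v (.inr i)) := by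
  simp [Matrix.J, Matrix.fromBlocks_mulVec, dotProduct, Fintype.sum_sum_type, Matrix.one_mulVec,
    Matrix.neg_mulVec, sub_eq_add_neg, Finset.sum_add_distrib, add_comm]

/-- The map `z ↦ z - z^q`. -/
noncomputable def skew (D : Data F K q a b) : K →+ K :=
  AddMonoidHom.mk' (fun z => z - z ^ q) fun x y => by rw [D.hadd]; ring

lemma alt_iotaS (u v : Fin (2 * n) ⊕ Fin (2 * n) → F) :
    skew D (iotaS D u ⬝ᵥ (Matrix.J (Fin n) K *ᵥ iotaS D v)) =
      (D.θ - D.θ ^ q) * D.f (u ⬝ᵥ (Matrix.J (Fin (2 * n)) F *ᵥ v)) := by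
  rw [alt_eq, alt_eq, map_sum, map_sum, Finset.mul_sum, ← (slot n).sum_comp, Fintype.sum_prod_type,
    Fin.sum_univ_two, ← Finset.sum_add_distrib]
  refine Finset.sum_congr rfl fun i _ => ?_
  have h₁ := skew_mul D (v (.inl (slot n (0, i)))) (v (.inl (slot n (1, i))))
    (u (.inr (slot n (0, i)))) (u (.inr (slot n (1, i))))
  have h₂ := skew_mul D (u (.inl (slot n (0, i)))) (u (.inl (slot n (1, i))))
    (v (.inr (slot n (0, i)))) (v (.inr (slot n (1, i))))
  rw [map_sub]
  simp only [skew, AddMonoidHom.mk'_apply, iotaS, Sum.elim_inl, Sum.elim_inr]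
  rw [mul_comm (D.f (_ - _) + _) (D.f _ + _), h₁, h₂]
  simp only [map_sub, map_add, map_mul]
  ring

end

/-- Field-extension embedding of symplectic groups: for a field K with q² elements and a field F with q elements there is an injective homomorphism Sp_2a(K) → Sp_4a(F). -/
theorem result {K F : Type*} [Field K] [Fintype K] [Field F] [Fintype F] {q : ℕ} (hK : Fintype.card K = q ^ 2) (hF : Fintype.card F = q) (a : ℕ) : ∃ φ : ↥(Matrix.symplecticGroup (Fin a) K) →* ↥(Matrix.symplecticGroup (Fin (2 * a)) F), Function.Injective φ := by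
  obtain ⟨ζ, hζ⟩ := exists_aniso F
  obtain ⟨D⟩ := exists_data hF hK hζ
  have hb := iotaS_bijective D (n := a)
  have hadd : ∀ z z', iotaS D (n := a) (z + z') = iotaS D z + iotaS D z' := map_add (iotaAdd D)
  let inv := (Equiv.ofBijective _ hb).symm
  have hinv : ∀ v, iotaS D (inv v) = v := fun v => Equiv.ofBijective_apply_symm_apply _ hb v
  let L : Matrix (Fin a ⊕ Fin a) (Fin a ⊕ Fin a) K →
      ((Fin (2 * a) ⊕ Fin (2 * a) → F) →ₗ[F] (Fin (2 * a) ⊕ Fin (2 * a) → F)) := fun M =>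
    { toFun := fun z => inv (M *ᵥ iotaS D z)
      map_add' := fun z z' => hb.1 (by rw [hinv, hadd, hadd, hinv, hinv, Matrix.mulVec_add])
      map_smul' := fun c z => hb.1 (by
        rw [RingHom.id_apply, hinv, iotaS_smul, iotaS_smul, hinv, Matrix.mulVec_smul]) }
  let R : Matrix (Fin a ⊕ Fin a) (Fin a ⊕ Fin a) K →*
      Matrix (Fin (2 * a) ⊕ Fin (2 * a)) (Fin (2 * a) ⊕ Fin (2 * a)) F :=
    { toFun := fun M => LinearMap.toMatrix' (L M)
      map_one' := by
        rw [show L 1 = LinearMap.id from LinearMap.ext fun z => hb.1 (by simp [L, hinv]),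
          LinearMap.toMatrix'_id]
      map_mul' := fun M N => by
        rw [← LinearMap.toMatrix'_comp]
        congr 1
        refine LinearMap.ext fun z => hb.1 ?_
        simp [L, hinv, Matrix.mulVec_mulVec] }
  have hR : ∀ M z, iotaS D (R M *ᵥ z) = M *ᵥ iotaS D z := fun M z => by
    show iotaS D (LinearMap.toMatrix' (L M) *ᵥ z) = _
    rw [LinearMap.toMatrix'_mulVec]
    exact hinv _
  have hmem : ∀ g : Matrix.symplecticGroup (Fin a) K, R g.1 ∈ Matrix.symplecticGroup (Fin (2 * a)) F := by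
    intro g
    rw [SymplecticGroup.mem_iff']
    refine Matrix.ext fun i j => ?_
    have hB : ∀ u v, (g.1 *ᵥ u) ⬝ᵥ (Matrix.J (Fin a) K *ᵥ (g.1 *ᵥ v)) =
        u ⬝ᵥ (Matrix.J (Fin a) K *ᵥ v) := fun u v => by
      conv_rhs => rw [← SymplecticGroup.mem_iff'.1 g.2]
      rw [← Matrix.mulVec_mulVec, ← Matrix.mulVec_mulVec, Matrix.dotProduct_mulVec u,
        Matrix.vecMul_transpose]
    have h : (R g.1 *ᵥ Pi.single i 1) ⬝ᵥ (Matrix.J _ F *ᵥ (R g.1 *ᵥ Pi.single j 1)) =
        Pi.single i 1 ⬝ᵥ (Matrix.J _ F *ᵥ Pi.single j 1) := by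
      refine D.f.injective (mul_left_cancel₀ (sub_ne_zero.2 (Ne.symm D.hne)) ?_)
      rw [← alt_iotaS, ← alt_iotaS, hR, hR, hB]
    rw [Matrix.mulVec_mulVec] at h
    rw [Matrix.mul_assoc, Matrix.mul_apply]
    simpa [dotProduct, Matrix.mulVec, Pi.single_apply] using h
  refine ⟨{ toFun := fun g => ⟨R g.1, hmem g⟩
            map_one' := Subtype.ext (map_one R)
            map_mul' := fun g h => Subtype.ext (map_mul R _ _) }, fun g h e => ?_⟩
  refine Subtype.ext (Matrix.ext_of_mulVec_single fun i => ?_)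
  obtain ⟨z, hz⟩ := hb.2 (Pi.single i 1)
  rw [← hz, ← hR, ← hR, show R g.1 = R h.1 from congrArg Subtype.val e]

end Cfsg.Agent.S2678
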