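import Cfsg.Statements.S2679
import Cfsg.Agent.Lib.Classical.QuadOmega.BaseChange
import Cfsg.Agent.Lib.Classical.QuadOmega.Apply

open QuadraticMap Cfsg.Agent.Lib.Classical.Quad Cfsg.Agent.Lib.Classical.QuadOmega Polynomial

set_option autoImplicit false
open Cfsg

namespace Cfsg.Agent.S2679

/-- An elliptic orthogonal group embeds in the hyperbolic orthogonal group of the same dimension over the quadratic extension: for a field F with q elements and a field K with q² elements there is an injective homomorphism from O⁻_2m(F) (isometries of Σ_(j<m−1) x_j y_j + z₁² + a z₁z₂ + c z₂², binary part anisotropic) to O⁺_2m(K) (isometries of Σ_(j<m) x_j y_j over K). -/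
theorem result {F K : Type*} [Field F] [Fintype F] [Field K] [Fintype K] {q : ℕ} (hF : Fintype.card F = q) (hK : Fintype.card K = q ^ 2) {m : ℕ} (hm : 1 ≤ m) (a c : F) (hac : ∀ z₁ z₂ : F, z₁ ^ 2 + a * z₁ * z₂ + c * z₂ ^ 2 = 0 → z₁ = 0 ∧ z₂ = 0) : ∃ φ : ↥(Cfsg.isometryGroup F (Cfsg.quadFormMinus (m - 1) F a c)) →* ↥(Cfsg.isometryGroup K (Cfsg.quadFormPlus m K)), Function.Injective φ := by
  obtain ⟨k, rfl⟩ := Nat.exists_eq_add_of_le' hm
  set g : F[X] := X ^ 2 + Polynomial.C a * X + Polynomial.C c with hg
  have hmon : g.Monic := by rw [hg]; monicity!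
  have hdeg : g.natDegree = 2 := by rw [hg]; compute_degree!
  have hirr : Irreducible g := by
    rw [hmon.irreducible_iff_roots_eq_zero_of_degree_le_three (by omega) (by omega)]
    refine Multiset.eq_zero_of_forall_notMem fun t ht => ?_
    rw [mem_roots hmon.ne_zero] at ht
    have h := hac t 1 (by simp [hg] at ht; linear_combination ht)
    exact one_ne_zero h.2
  have : Fact (Irreducible g) := ⟨hirr⟩
  have : Module.Finite F (AdjoinRoot g) := (AdjoinRoot.powerBasis hirr.ne_zero).finite
  have : Finite (AdjoinRoot g) := Module.finite_of_finite F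
  let : Fintype (AdjoinRoot g) := Fintype.ofFinite _
  have hcard : Fintype.card (AdjoinRoot g) = Fintype.card K := by
    rw [Module.card_eq_pow_finrank (K := F), hF, hK,
      show Module.finrank F (AdjoinRoot g) = g.natDegree from finrank_quotient_span_eq_natDegree (f := g), hdeg]
  set ψ := FiniteField.ringEquivOfCardEq (K := AdjoinRoot g) (K' := K) hcard
  let f : F →+* K := (ψ : AdjoinRoot g →+* K).comp (AdjoinRoot.of g)
  set t : K := ψ (AdjoinRoot.root g)
  have ht : t ^ 2 + f a * t + f c = 0 := by
    have h := AdjoinRoot.eval₂_root g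
    simp only [hg, eval₂_add, eval₂_mul, eval₂_X_pow, eval₂_C, eval₂_X] at h
    have h' := congrArg ψ h
    simpa [f, t] using h'
  have htF : ∀ x : F, f x ≠ t := fun x hx => one_ne_zero (hac x 1 (f.injective (by
    rw [← hx] at ht
    simp only [map_add, map_mul, map_pow, map_zero, map_one]
    linear_combination ht))).2
  set t' : K := -f a - t with ht't
  have hne : t ≠ t' := by
    intro h
    by_cases h2 : (2 : F) = 0
    · have h2K : (2 : K) = 0 := by rw [← map_ofNat f 2, h2, map_zero]
      obtain ⟨s, hs⟩ := FiniteField.isSquare_of_char_two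
        (CharP.ringChar_of_prime_eq_zero Nat.prime_two (by exact_mod_cast h2)) c
      refine htF s (sub_eq_zero.1 (pow_eq_zero_iff two_ne_zero |>.1 ?_))
      rw [ht't] at h
      rw [hs, map_mul] at ht
      linear_combination (-1 : K) * ht + (t ^ 2 + f s * f s - f s * t) * h2K + t * h - t * t * h2K
    · refine htF (-a / 2) ?_
      have h2K : (2 : K) ≠ 0 := fun h0 => h2 (f.injective (by rw [map_ofNat, map_zero, h0]))
      rw [map_div₀, map_neg, map_ofNat, div_eq_iff h2K]
      rw [ht't] at h
      linear_combination -h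
  let RK : QuadraticForm K ((Fin k ⊕ Fin k) ⊕ Fin 2 → K) :=
    (splitQ k (binQ (f a) (f c))).comp (eMinus k).symm.toLinearMap
  have hRK : ∀ v, RK v = Cfsg.quadFormMinus k K (f a) (f c) v := fun v => by
    obtain ⟨p, rfl⟩ := (eMinus k).surjective v
    simp [RK, minus_apply]
  let L : ((Fin k ⊕ Fin k) ⊕ Fin 2 → K) →ₗ[K] (Fin (k + 1) ⊕ Fin (k + 1) → K) :=
    { toFun := fun v => Sum.elim (Fin.cons (v (.inr 0) - t * v (.inr 1)) fun i => v (.inl (.inl i)))
        (Fin.cons (v (.inr 0) - t' * v (.inr 1)) fun i => v (.inl (.inr i)))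
      map_add' := fun x y => by
        ext (i | i) <;> induction i using Fin.cases <;> simp <;> ring
      map_smul' := fun r x => by
        ext (i | i) <;> induction i using Fin.cases <;> simp <;> ring }
  have hL : Function.Injective L := (injective_iff_map_eq_zero _).2 fun v hv => by
    have h0 : v (.inr 0) - t * v (.inr 1) = 0 := by simpa [L] using congrFun hv (.inl 0)
    have h1 : v (.inr 0) - t' * v (.inr 1) = 0 := by simpa [L] using congrFun hv (.inr 0)
    have e1 : v (.inr 1) = 0 := by
      have : (t' - t) * v (.inr 1) = 0 := by linear_combination h0 - h1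
      exact (mul_eq_zero.1 this).resolve_left (sub_ne_zero.2 (Ne.symm hne))
    ext ((i | i) | i)
    · simpa [L] using congrFun hv (.inl i.succ)
    · simpa [L] using congrFun hv (.inr i.succ)
    · fin_cases i
      · simpa [e1] using h0
      · exact e1
  let e := LinearEquiv.ofBijective L ⟨hL,
    (LinearMap.injective_iff_surjective_of_finrank_eq_finrank (by
      rw [Module.finrank_pi, Module.finrank_pi]; simp; omega)).1 hL⟩
  have he : ∀ v, Cfsg.quadFormPlus (k + 1) K (e v) = RK v := fun v => by
    change Cfsg.quadFormPlus (k + 1) K (L v) = _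
    rw [hRK]
    simp [L, Cfsg.quadFormPlus, Cfsg.quadFormMinus, Fin.sum_univ_succ, ht't]
    linear_combination (-(v (.inr 1) * v (.inr 1))) * ht
  let Φ := (isoEquiv (⇑RK) (LinearEquiv.refl K _) (Q := RK) fun v => rfl).trans
    (isoEquiv _ e he).symm
  refine ⟨Φ.toMonoidHom.comp (extendHom f _ RK fun v => ?_),
    fun x y h => extendHom_injective f _ RK _ (Φ.injective h)⟩
  rw [hRK]
  simp [Cfsg.quadFormMinus, map_sum]

end Cfsg.Agent.S2679
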