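import Cfsg.Statements.S2683
import Cfsg.Agent.Lib.Jordan.OrthInvolPlusCent

set_option autoImplicit false
open Cfsg

namespace Cfsg.Agent.S2683

open Cfsg.Agent.Lib.Jordan.OrthInvol Cfsg.Agent.Lib.Jordan.SymmTwo Cfsg.Agent.Lib.Classical.QuadOmega Cfsg.Agent.Lib.Classical.Quad


/-- For the hyperbolic form Σ x_j y_j on F^(2m) over a finite field with q elements, q even (excluding m = 2 over the field of two elements), and an involution x of the orthogonal group with s = rank(x − 1) odd (type b_s; such x lie outside Ω): the elements of Ω (the commutator subgroup of the orthogonal group) commuting with x number q^(2m(s−1) − (3s² − 3s)/2) · |Sp_(s−1)(q)| · |Sp_(2m−2s)(q)|, where |Sp_2k(q)| = q^(k²) Π_(i=1)^k (q^(2i) − 1). -/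
theorem result {F : Type*} [Field F] [Fintype F] [CharP F 2] {q : ℕ} (hF : Fintype.card F = q) {m s : ℕ} (h : Fintype.card F ≠ 2 ∨ m ≠ 2) (x : ↥(Cfsg.isometryGroup F (Cfsg.quadFormPlus m F))) (hx : x ^ 2 = 1) (hs : (((x : Matrix.GeneralLinearGroup (Fin m ⊕ Fin m) F) : Matrix (Fin m ⊕ Fin m) (Fin m ⊕ Fin m) F) - 1).rank = s) (hodd : Odd s) : Nat.card {g : ↥(Cfsg.Omega F (Cfsg.quadFormPlus m F)) // (g : ↥(Cfsg.isometryGroup F (Cfsg.quadFormPlus m F))) * x = x * (g : ↥(Cfsg.isometryGroup F (Cfsg.quadFormPlus m F)))} = q ^ (2 * m * (s - 1) - (3 * s ^ 2 - 3 * s) / 2) * ((q : ℕ) ^ (((s - 1) / 2) ^ 2) * ∏ i : Fin ((s - 1) / 2), (q ^ (2 * ((i : ℕ) + 1)) - 1)) * ((q : ℕ) ^ ((m - s) ^ 2) * ∏ i : Fin (m - s), (q ^ (2 * ((i : ℕ) + 1)) - 1)) := by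
  classical
  subst hF
  obtain ⟨y, hyv, hy2, hcard⟩ := card_omega_cent h x
  rw [hcard]
  have hy := hy2 hx
  rw [← hyv] at hs
  obtain ⟨r, ⟨U, hU, eU⟩ | ⟨U, hU, eU⟩ | ⟨U, hU, eU⟩⟩ := Cfsg.Agent.Lib.Jordan.OrthInvol.exists_shape (plus_std m) y hy
  · rw [eU, (Cfsg.Agent.Lib.Jordan.SympInvol.elt_facts hU.1 (SA_det r)).1] at hs
    simp only [Fintype.card_sum, Fintype.card_fin] at hs
    obtain ⟨t, ht⟩ := hodd
    omega
  · have hcσ : Fintype.card (Unit ⊕ (Fin r ⊕ Fin r)) = 2 * r + 1 := by simp; omega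
    rw [eU, (Cfsg.Agent.Lib.Jordan.SympInvol.elt_facts hU.1 (SO_det r)).1, hcσ] at hs
    obtain ⟨a, -, ha, hC⟩ := cent_raw (SO_symm r) (SO_det r) hU (by omega) y eU
    obtain ⟨v, hv, hfix⟩ := exists_fix_of_not_alt hU (SO_not_alt r)
    have hodd' := exists_odd_comm (plus_std m) y hv (by rw [eU]; exact hfix)
    rw [ha (SO_not_alt r), ← card_even_cent (plus_std m) hodd', card_isom_SO,
      Cfsg.Agent.Lib.Jordan.SympInvol.sp_card_fin, hcσ, hs] at hC
    have hle : s ≤ m := by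
      have := Cfsg.Agent.Lib.Jordan.SympInvol.card_le_of_frame hU.1
      omega
    have hq : 0 < Fintype.card F ^ m * Fintype.card F ^ (m - s) := mul_pos (pow_pos Fintype.card_pos _) (pow_pos Fintype.card_pos _)
    refine Nat.eq_of_mul_eq_mul_right hq (Nat.eq_of_mul_eq_mul_left two_pos ?_)
    rw [← mul_assoc 2, hC, show (s - 1) / 2 = r by omega]
    have hexp : 2 * m * s - (3 * s ^ 2 - s) / 2 = (2 * m * (s - 1) - (3 * s ^ 2 - 3 * s) / 2) + (m + (m - s)) := by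
      obtain ⟨d, rfl⟩ : ∃ d, m = d + s := ⟨m - s, by omega⟩
      subst hs
      simp only [Nat.add_sub_cancel]
      rw [        show 3 * (2 * r + 1) ^ 2 = 12 * (r * r) + 12 * r + 3 by ring,
        show 2 * (d + (2 * r + 1)) * (2 * r + 1) = 4 * (d * r) + 2 * d + 8 * (r * r) + 8 * r + 2 by ring,
        show 2 * (d + (2 * r + 1)) * (2 * r) = 4 * (d * r) + 8 * (r * r) + 4 * r by ring]
      generalize d * r = u, r * r = w
      omega
    rw [hexp, pow_add, pow_add]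
    ring
  · rw [eU, (Cfsg.Agent.Lib.Jordan.SympInvol.elt_facts hU.1 (SE_det r)).1] at hs
    simp only [Fintype.card_sum, Fintype.card_unit, Fintype.card_fin] at hs
    obtain ⟨t, ht⟩ := hodd
    omega

end Cfsg.Agent.S2683
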