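import Cfsg.Statements.S2684
import Cfsg.Agent.Lib.Jordan.OrthInvolPlusCent

set_option autoImplicit false
open Cfsg

namespace Cfsg.Agent.S2684

open Cfsg.Agent.Lib.Jordan.OrthInvol Cfsg.Agent.Lib.Jordan.SymmTwo Cfsg.Agent.Lib.Classical.QuadOmega Cfsg.Agent.Lib.Classical.Quad


/-- For the hyperbolic form Q = Σ x_j y_j on F^(2m) over a finite field with q elements, q even (excluding m = 2 over the field of two elements), and an involution x ≠ 1 of the orthogonal group with s = rank(x − 1) even and Q vanishing on the image of x − 1 (equivalently f(v, xv) = 0 for all v, where f(u, w) = Q(u + w) − Q(u) − Q(w) is the bilinear form of Q; type a_s, which lies in Ω): its centraliser in Ω (the commutator subgroup of the orthogonal group) has order q^(2ms − (3s² + s)/2) · |Sp_s(q)| · |Ω⁺_(2m−2s)(q)|, where |Ω⁺_2k(q)| = q^(k(k−1)) (q^k − 1) Π_(i=1)^(k−1) (q^(2i) − 1) for k ≥ 1 and the last factor is 1 when s = m. -/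
theorem result {F : Type*} [Field F] [Fintype F] [CharP F 2] {q : ℕ} (hF : Fintype.card F = q) {m s : ℕ} (h : Fintype.card F ≠ 2 ∨ m ≠ 2) (x : ↥(Cfsg.isometryGroup F (Cfsg.quadFormPlus m F))) (hx : x ^ 2 = 1) (hx1 : x ≠ 1) (hs : (((x : Matrix.GeneralLinearGroup (Fin m ⊕ Fin m) F) : Matrix (Fin m ⊕ Fin m) (Fin m ⊕ Fin m) F) - 1).rank = s) (heven : Even s) (halt : ∀ v : Fin m ⊕ Fin m → F, Cfsg.quadFormPlus m F ((((x : Matrix.GeneralLinearGroup (Fin m ⊕ Fin m) F) : Matrix (Fin m ⊕ Fin m) (Fin m ⊕ Fin m) F) - 1).mulVec v) = 0) : Nat.card {g : ↥(Cfsg.Omega F (Cfsg.quadFormPlus m F)) // (g : ↥(Cfsg.isometryGroup F (Cfsg.quadFormPlus m F))) * x = x * (g : ↥(Cfsg.isometryGroup F (Cfsg.quadFormPlus m F)))} = q ^ (2 * m * s - (3 * s ^ 2 + s) / 2) * ((q : ℕ) ^ ((s / 2) ^ 2) * ∏ i : Fin (s / 2), (q ^ (2 * ((i : ℕ) + 1)) - 1)) * (if s = m then 1 else q ^ ((m - s) * (m - s - 1)) * (q ^ (m - s) - 1) * ∏ i : Fin (m - s - 1), (q ^ (2 * ((i : ℕ) + 1)) - 1))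 := by
  classical
  subst hF
  obtain ⟨y, hyv, hy2, hcard⟩ := card_omega_cent h x
  rw [hcard]
  have hy := hy2 hx
  rw [← hyv] at hs
  obtain ⟨r, ⟨U, hU, eU⟩ | ⟨U, hU, eU⟩ | ⟨U, hU, eU⟩⟩ := Cfsg.Agent.Lib.Jordan.OrthInvol.exists_shape (plus_std m) y hy
  rotate_left
  · exfalso
    refine SO_not_alt r ((image_values hU).1 fun v => ?_)
    rw [plusQ_apply, ← eU, hyv]
    exact halt v
  · exfalso
    refine SE_not_alt r ((image_values hU).1 fun v => ?_)
    rw [plusQ_apply, ← eU, hyv]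
    exact halt v
  have hcσ : Fintype.card (Fin r ⊕ Fin r) = 2 * r := by simp; omega
  have hs' := hs
  rw [eU, (Cfsg.Agent.Lib.Jordan.SympInvol.elt_facts hU.1 (SA_det r)).1, hcσ] at hs
  have hr : 1 ≤ r := by
    by_contra hr
    have hr0 : r = 0 := by omega
    subst hr0
    refine hx1 (Subtype.ext (Units.ext (hyv.symm.trans ?_)))
    rw [eU, Cfsg.Agent.Lib.Jordan.SympInvol.elt, show U = 0 from Matrix.ext fun a i => (i.elim Fin.elim0 Fin.elim0)]
    simp
  obtain ⟨a, ha, -, hC⟩ := cent_raw (SA_symm r) (SA_det r) hU (by omega) y eU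
  rw [ha (SA_alt r), card_isom_SA, Cfsg.Agent.Lib.Jordan.SympInvol.sp_card_fin, hcσ, hs] at hC
  have hle : s ≤ m := by
    have := Cfsg.Agent.Lib.Jordan.SympInvol.card_le_of_frame hU.1
    omega
  rw [show s / 2 = r by omega]
  rcases eq_or_lt_of_le hle with hsm | hlt
  · rw [if_pos hsm, mul_one]
    subst hsm
    have hall : ∀ g : ↥(Cfsg.isometryGroup F ⇑(plusQ s F)), g * y = y * g → dickO (plus_std s) g = 1 := by
      intro g hg
      rw [dick_of_image (reg_plus h) _ _ hs' (fun v hv => ?_) g (congrArg (fun z : ↥(Cfsg.isometryGroup F ⇑(plusQ s F)) =>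
        ((z : GL (Fin s ⊕ Fin s) F) : Matrix (Fin s ⊕ Fin s) (Fin s ⊕ Fin s) F)) hg), inf_idem, ← pow_add]
      · refine Even.neg_one_pow ⟨s, ?_⟩
        rw [show Module.finrank F ↥(LinearMap.range ((((y : GL (Fin s ⊕ Fin s) F)) : Matrix (Fin s ⊕ Fin s) (Fin s ⊕ Fin s) F) - 1).mulVecLin) = s from hs']
      · obtain ⟨w, rfl⟩ := hv
        rw [eU]
        exact (image_values hU).2 (SA_alt r) w
    rw [show Nat.card {g : ↥(Cfsg.isometryGroup F ⇑(plusQ s F)) // g * y = y * g ∧ dickO (plus_std s) g = 1} =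
        Nat.card (Subgroup.centralizer ({y} : Set ↥(Cfsg.isometryGroup F ⇑(plusQ s F)))) from
      Nat.card_congr (Equiv.subtypeEquivRight fun g => by
        rw [Subgroup.mem_centralizer_singleton_iff]
        exact ⟨fun h => h.1, fun h => ⟨h, hall g h⟩⟩)]
    have hq : 0 < Fintype.card F ^ s * 2 := mul_pos (pow_pos Fintype.card_pos _) two_pos
    refine Nat.eq_of_mul_eq_mul_right hq ?_
    have he0 : ∀ f : Fin (s - s) → ℕ, ∏ i, f i = 1 := fun f =>
      Finset.prod_eq_one fun i _ => (Fin.cast (Nat.sub_self s) i).elim0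
    simp only [he0] at hC
    simp only [Nat.sub_self, pow_zero] at hC
    rw [hC]
    have hexp : 2 * s * s - (3 * s ^ 2 - s) / 2 = (2 * s * s - (3 * s ^ 2 + s) / 2) + s := by
      subst hs
      rw [show 3 * (2 * r) ^ 2 = 12 * (r * r) by ring, show 2 * (2 * r) * (2 * r) = 8 * (r * r) by ring]
      have : r ≤ r * r := Nat.le_mul_self r
      generalize r * r = w at this ⊢
      omega
    rw [hexp, pow_add]
    simp
    ring
  · rw [if_neg hlt.ne]
    rcases odd_or_split (plus_std m) (le_refl m) (families_plus (F := F) m).sing y hy with hodd' | ⟨-, h1, -⟩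
    swap
    · exact absurd (hs'.symm.trans h1) hlt.ne
    rw [← card_even_cent (plus_std m) hodd'] at hC
    obtain ⟨d, rfl⟩ : ∃ d, m = s + (d + 1) := ⟨m - s - 1, by omega⟩
    rw [Nat.add_sub_cancel_left, Nat.add_sub_cancel] at *
    have hq : 0 < Fintype.card F ^ (s + (d + 1)) * (Fintype.card F ^ (d + 1) + 1) :=
      mul_pos (pow_pos Fintype.card_pos _) (Nat.succ_pos _)
    refine Nat.eq_of_mul_eq_mul_right hq (Nat.eq_of_mul_eq_mul_left two_pos ?_)
    rw [← mul_assoc 2, hC, Fin.prod_univ_castSucc]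
    simp only [Fin.val_castSucc, Fin.val_last]
    rw [show Fintype.card F ^ (2 * (d + 1)) - 1 = (Fintype.card F ^ (d + 1) - 1) * (Fintype.card F ^ (d + 1) + 1) by
      rw [mul_comm 2, pow_mul, ← Nat.sq_sub_sq (Fintype.card F ^ (d + 1)) 1 |>.trans (mul_comm _ _), one_pow]]
    have hexp : 2 * (s + (d + 1)) * s - (3 * s ^ 2 - s) / 2 + (d + 1) ^ 2 =
        (2 * (s + (d + 1)) * s - (3 * s ^ 2 + s) / 2) + (d + 1) * d + (s + (d + 1)) := by
      subst hs
      rw [show 3 * (2 * r) ^ 2 = 12 * (r * r) by ring, show (d + 1) ^ 2 = (d + 1) * d + (d + 1) by ring,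
        show 2 * (2 * r + (d + 1)) * (2 * r) = 8 * (r * r) + 4 * (r * d) + 4 * r by ring]
      have : r ≤ r * r := Nat.le_mul_self r
      generalize r * d = u, r * r = w, (d + 1) * d = z at this ⊢
      omega
    have e := congrArg (Fintype.card F ^ ·) hexp
    generalize d + 1 = k at e ⊢
    simp only [pow_add] at e ⊢
    generalize Fintype.card F ^ (2 * (s + k) * s - (3 * s ^ 2 - s) / 2) = A at e ⊢
    generalize Fintype.card F ^ (2 * (s + k) * s - (3 * s ^ 2 + s) / 2) = B at e ⊢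
    generalize Fintype.card F ^ (k ^ 2) = D at e ⊢
    generalize Fintype.card F ^ (k * d) = G at e ⊢
    linear_combination (2 * (∏ i : Fin d, (Fintype.card F ^ (2 * ((i : ℕ) + 1)) - 1)) *
      ((Fintype.card F ^ k - 1) * (Fintype.card F ^ k + 1)) *
      (Fintype.card F ^ r ^ 2 * ∏ i : Fin r, (Fintype.card F ^ (2 * ((i : ℕ) + 1)) - 1))) * e

end Cfsg.Agent.S2684
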