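import Cfsg.Statements.S2693
import Cfsg.Agent.Lib.AutPSp.Classes

set_option autoImplicit false
open Cfsg

namespace Cfsg.Agent.S2693

/-- The automorphism group of a simple projective symplectic group PSp_{2m}(F) over a finite field of characteristic p, with m ≥ 2 and (2m, p) ≠ (4, 2), is generated by the automorphisms induced by the semilinear maps v ↦ g σ(v) with g conformal symplectic and σ an automorphism of F (the image of the projective semilinear symplectic group). For (2m, p) = (4, 2) the statement fails: a duality of the underlying polar space gives a further automorphism. -/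
theorem result {F : Type*} [Field F] [Fintype F] {p : ℕ} [Fact p.Prime] [CharP F p] {m : ℕ} (hm : 2 ≤ m) (h4 : m = 2 → p ≠ 2) :
    Cfsg.gammaPSp m F = ⊤ := by
  refine eq_top_iff.2 fun β _ => ?_
  have h : (2 : F) ≠ 0 ∨ 3 ≤ m := by
    by_cases h2 : m = 2
    · refine Or.inl fun h0 => h4 h2 ?_
      exact (CharP.eq F ‹CharP F p› (by
        haveI : Fact (Nat.Prime 2) := ⟨Nat.prime_two⟩
        exact ringChar.of_eq (CharP.ringChar_of_prime_eq_zero Nat.prime_two (by exact_mod_cast h0))))
    · exact Or.inr (by omega)
  obtain ⟨g, σ, rfl⟩ := Cfsg.Agent.Lib.AutPSp.std_all (by omega) h β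
  exact Subgroup.subset_closure ⟨g, σ, g.2, Cfsg.Agent.Lib.AutPSp.induced_iff.2 rfl⟩

end Cfsg.Agent.S2693
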