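import Cfsg.Statements.S2697
import Cfsg.Agent.Lib.AutPSL.GraphField

set_option autoImplicit false
open Cfsg

namespace Cfsg.Agent.S2697

/-- Let T = PSL_n(F) be simple over a finite field (n ≥ 2; |F| ≥ 4 when n = 2) and let x be a field automorphism or a graph-field automorphism of T of prime order r. Then an element y of the coset Inndiag(T)·x (that is, y = δ x with δ in the inner-diagonal group, the image of PGL_n(F)) has order r if and only if y is conjugate to x by an element of Inndiag(T). -/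
theorem result {F : Type*} [Field F] [Fintype F] {p f : ℕ} [Fact p.Prime] (hF : Fintype.card F = p ^ f) (hf : 1 ≤ f) {n : ℕ} (hn : 2 ≤ n) (hs : n = 2 → 4 ≤ Fintype.card F) (x δ : MulAut (Matrix.ProjectiveSpecialLinearGroup (Fin n) F)) (hx : Cfsg.IsFieldAutClassPSL x ∨ Cfsg.IsGraphFieldAutClassPSL x) {r : ℕ} (hr : r.Prime) (hxr : orderOf x = r) (hδ : δ ∈ Cfsg.inndiagPSL n F) :
    orderOf (δ * x) = r ↔ Cfsg.IsConjUnder (Cfsg.inndiagPSL n F) x (δ * x) := by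
  classical
  haveI : NeZero n := ⟨by omega⟩
  haveI : Fact (2 ≤ n) := ⟨hn⟩
  haveI : (Cfsg.inndiagPSL n F).Normal := by
    rw [Cfsg.Agent.Lib.AutPSL.inndiag_eq]; infer_instance
  rcases hx with hx | hx
  · obtain ⟨σ, -, ho, b, hb, hxb⟩ := Cfsg.Agent.Lib.AutPSL.exists_std_of_field hn hx
    rw [hxr] at ho
    refine Cfsg.Agent.Lib.AutPSL.conj_iff_of_std hb hxb hδ hr hxr fun d hd h => ?_
    rw [Cfsg.Agent.Lib.AutPSL.inndiag_eq] at hd ⊢
    obtain ⟨g, rfl⟩ := hd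
    obtain ⟨a, ha⟩ := Cfsg.Agent.Lib.AutPSL.exists_conj_of_field hn ho hr.pos g h
    exact ⟨_, ⟨a, rfl⟩, ha⟩
  · obtain ⟨hn3, σ, hσ, ho, b, hb, hxb⟩ := Cfsg.Agent.Lib.AutPSL.exists_std_of_graphField hn hx
    rw [hxr] at ho
    obtain ⟨hr2, hσ2⟩ := Cfsg.Agent.Lib.AutPSL.graphField_order hn3 hσ hr ho
    obtain ⟨-, hK, hq⟩ := Cfsg.Agent.Lib.AutPSL.exists_q hF hf hσ2
    refine Cfsg.Agent.Lib.AutPSL.conj_iff_of_std hb hxb hδ hr hxr fun d hd h => ?_
    rw [Cfsg.Agent.Lib.AutPSL.inndiag_eq] at hd ⊢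
    obtain ⟨g, rfl⟩ := hd
    rw [hr2] at h
    obtain ⟨a, ha⟩ := Cfsg.Agent.Lib.AutPSL.exists_conj_of_graphField hn hK hσ2 hq g h
    exact ⟨_, ⟨a, rfl⟩, ha⟩

end Cfsg.Agent.S2697
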