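import Cfsg.Statements.S2698
import Cfsg.Agent.Lib.AutPSL.Field

set_option autoImplicit false
open Cfsg

namespace Cfsg.Agent.S2698

/-- Let T = PSL_n(F) be simple over the field F with p^f elements (n ≥ 2; p^f ≥ 4 when n = 2), G = Inndiag(T) the image of PGL_n(F) in Aut(T), and x a field automorphism of T of prime order r. Then r divides f; the centralizer C_G(x) is isomorphic to PGL_n(F₀) for the subfield size |F₀| = p^(f/r); and the G-class of x is the union of exactly gcd(n, (p^f − 1)/(p^(f/r) − 1)) classes under conjugation by T (the inner automorphism group). -/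
theorem result {F : Type*} [Field F] [Fintype F] {p f : ℕ} [Fact p.Prime] (hF : Fintype.card F = p ^ f) (hf : 1 ≤ f) {n : ℕ} (hn : 2 ≤ n) (hs : n = 2 → 4 ≤ Fintype.card F) (x : MulAut (Matrix.ProjectiveSpecialLinearGroup (Fin n) F)) (hx : Cfsg.IsFieldAutClassPSL x) {r : ℕ} (hr : r.Prime) (hxr : orderOf x = r) (F₀ : Type*) [Field F₀] [Fintype F₀] (hF₀ : Fintype.card F₀ = p ^ (f / r)) :
    r ∣ f ∧ Nonempty (↥(Cfsg.inndiagPSL n F ⊓ Subgroup.centralizer {x}) ≃* Matrix.ProjGenLinGroup (Fin n) F₀) ∧ Cfsg.splitClassCount (Cfsg.inndiagPSL n F) (Cfsg.Inn (Matrix.ProjectiveSpecialLinearGroup (Fin n) F)) x = Nat.gcd n ((p ^ f - 1) / (p ^ (f / r) - 1)) := by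
  classical
  haveI : NeZero n := ⟨by omega⟩
  haveI : Fact (2 ≤ n) := ⟨hn⟩
  obtain ⟨σ, -, ho, b, hb, hxb⟩ := Cfsg.Agent.Lib.AutPSL.exists_std_of_field hn hx
  rw [hxr] at ho
  have hrf : r ∣ f := by
    obtain ⟨e⟩ := Cfsg.Agent.Lib.AutPSL.ringAut_equiv (F := F) hf hF
    have h := orderOf_dvd_natCard (e σ)
    rw [MulEquiv.orderOf_eq, ho, Nat.card_congr Multiplicative.toAdd, Nat.card_zmod] at h
    exact h
  obtain ⟨ι, hι⟩ := Cfsg.Agent.Lib.AutPSL.exists_embedding hF ho hrf F₀ hF₀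
  refine ⟨hrf, ?_, ?_⟩
  · obtain ⟨e⟩ := Cfsg.Agent.Lib.AutPSL.field_centralizer_iso hn ho hr.pos ι hι
    exact ⟨((MulEquiv.subgroupMap (MulAut.conj b) _).trans (MulEquiv.subgroupCongr
      (Cfsg.Agent.Lib.AutPSL.inf_centralizer_conj hb hxb))).symm.trans e⟩
  · rw [Cfsg.Agent.Lib.AutPSL.splitClassCount_congr hb hxb,
      Cfsg.Agent.Lib.AutPSL.splitClassCount_eq hn,
      Cfsg.Agent.Lib.AutPSL.field_det_centralizer hn ho hr.pos,
      Cfsg.Agent.Lib.AutPSL.index_sup_powers, Cfsg.Agent.Lib.AutPSL.index_eq_div,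
      Cfsg.Agent.Lib.AutPSL.card_fixU ι hι, Nat.card_units, Nat.card_eq_fintype_card,
      Nat.card_eq_fintype_card, hF, hF₀]

end Cfsg.Agent.S2698
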