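import Cfsg.Statements.S2705
import Cfsg.Agent.Lib.AutPSU.Classes
import Mathlib.FieldTheory.Finite.GaloisField

set_option autoImplicit false
open Cfsg

namespace Cfsg.Agent.S2705

/-- Let T = PSU_n(q) be simple (n ≥ 3, (n, q) ≠ (3, 2), q = p^f), realised over the field F with q² elements, G = Inndiag(T) the image of PGU_n(q) in Aut(T), and x a field automorphism of T (conjugate to a standard field automorphism of odd order) of odd prime order r. Then r divides f; C_G(x) is isomorphic to PGU_n(q₀) with q₀ = p^(f/r), realised over a field F₀ with q₀² elements; and the G-class of x is the union of exactly gcd(n, (q + 1)/(q₀ + 1)) T-classes. -/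
theorem result {F : Type*} [Field F] [Fintype F] {p f q : ℕ} [Fact p.Prime] (hq : q = p ^ f) (hf : 1 ≤ f) (hF : Fintype.card F = q ^ 2) {n : ℕ} (hn : 3 ≤ n) (hs : ¬ (n = 3 ∧ q = 2)) (x : MulAut (Cfsg.PSU n F q)) (hx : Cfsg.IsFieldAutClassPSU x) {r : ℕ} (hr : r.Prime) (hro : Odd r) (hxr : orderOf x = r) (F₀ : Type*) [Field F₀] [Fintype F₀] (hF₀ : Fintype.card F₀ = p ^ (2 * (f / r))) :
    r ∣ f ∧ Nonempty (↥(Cfsg.inndiagPSU n F q ⊓ Subgroup.centralizer {x}) ≃* Cfsg.PGU n F₀ (p ^ (f / r))) ∧ Cfsg.splitClassCount (Cfsg.inndiagPSU n F q) (Cfsg.Inn (Cfsg.PSU n F q)) x = Nat.gcd n ((q + 1) / (p ^ (f / r) + 1)) := by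
  classical
  haveI := Cfsg.Agent.Lib.AutPSU.inndiag_normal hF hn hs
  haveI : (Cfsg.Inn (Cfsg.PSU n F q)).Normal := Cfsg.Agent.Lib.AutPSp.normal_inn
  obtain ⟨α, σ, hst, ho, -⟩ := Cfsg.Agent.Lib.AutPSU.exists_std_of_field hF hn hx
  rw [hxr] at ho
  have hF' : Fintype.card F = p ^ (2 * f) := by rw [hF, hq, ← pow_mul, mul_comm]
  have hr2f : r ∣ 2 * f := by
    obtain ⟨e⟩ := Cfsg.Agent.Lib.AutPSL.ringAut_equiv (F := F) (by omega : 1 ≤ 2 * f) hF'
    have h := orderOf_dvd_natCard (e σ)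
    rw [MulEquiv.orderOf_eq, ho, Nat.card_congr Multiplicative.toAdd, Nat.card_zmod] at h
    exact h
  have hrf : r ∣ f := by
    rcases hr.dvd_mul.1 hr2f with h | h
    · have := (Nat.prime_dvd_prime_iff_eq hr Nat.prime_two).1 h
      subst this
      exact absurd hro (by decide)
    · exact h
  obtain ⟨ι, hι⟩ := Cfsg.Agent.Lib.AutPSL.exists_embedding hF' ho hr2f F₀
    (by rw [hF₀, Nat.mul_div_assoc _ hrf])
  have hF₀' : Fintype.card F₀ = (p ^ (f / r)) ^ 2 := by rw [hF₀, ← pow_mul, mul_comm]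
  have hq0 : ∀ x, ι (x ^ (p ^ (f / r))) = ι x ^ q :=
    Cfsg.Agent.Lib.AutPSU.embedding_pow ι hro rfl (by rw [hq, Nat.mul_div_cancel' hrf]) hF₀'
  refine ⟨hrf, ?_, ?_⟩
  · obtain ⟨e⟩ := Cfsg.Agent.Lib.AutPSU.centralizer_iso hF hn ho hr.pos ι hι hF₀' hq0
    obtain ⟨e'⟩ := Cfsg.Agent.Lib.AutPSp.centralizerEquiv (H := Cfsg.inndiagPSU n F q) α x
    exact ⟨e'.trans ((MulEquiv.subgroupCongr (by rw [hst])).trans e)⟩
  · rw [← Cfsg.Agent.Lib.AutPSp.splitClassCount_conj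
        (by rw [Cfsg.Agent.Lib.AutPSU.inndiag_eq]; exact Cfsg.Agent.Lib.AutPSU.inn_le) α x, hst,
      Cfsg.Agent.Lib.AutPSU.splitClassCount_field hF hn ho hr.pos ι hι hF₀' hq0]

end Cfsg.Agent.S2705
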