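import Cfsg.Statements.S2711
import Cfsg.Agent.Lib.AutPSU.Classes
import Mathlib.FieldTheory.Finite.GaloisField

set_option autoImplicit false
open Cfsg

namespace Cfsg.Agent.S2711

/-- Let T = PSU_n(q) be simple (n ≥ 3, (n,q) ≠ (3,2)), realised over the field F with q² elements, and let x be a field automorphism of T (conjugate to a standard field automorphism of odd order) of prime order r. Then an element y of the coset Inndiag(T)·x (y = δ x with δ in the image of PGU_n(q)) has order r if and only if y is conjugate to x by an element of Inndiag(T). (T has no graph-field automorphisms.) -/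
theorem result {F : Type*} [Field F] [Fintype F] {p f q : ℕ} [Fact p.Prime] (hq : q = p ^ f) (hf : 1 ≤ f) (hF : Fintype.card F = q ^ 2) {n : ℕ} (hn : 3 ≤ n) (hs : ¬ (n = 3 ∧ q = 2)) (x δ : MulAut (Cfsg.PSU n F q)) (hx : Cfsg.IsFieldAutClassPSU x) {r : ℕ} (hr : r.Prime) (hxr : orderOf x = r) (hδ : δ ∈ Cfsg.inndiagPSU n F q) :
    orderOf (δ * x) = r ↔ Cfsg.IsConjUnder (Cfsg.inndiagPSU n F q) x (δ * x) := by
  classical
  haveI hN := Cfsg.Agent.Lib.AutPSU.inndiag_normal hF hn hs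
  obtain ⟨α, σ, hst, ho, hodd⟩ := Cfsg.Agent.Lib.AutPSU.exists_std_of_field hF hn hx
  rw [hxr] at ho
  rw [ho] at hodd
  have hF' : Fintype.card F = p ^ (2 * f) := by rw [hF, hq, ← pow_mul, mul_comm]
  have hr2f : r ∣ 2 * f := by
    obtain ⟨e⟩ := Cfsg.Agent.Lib.AutPSL.ringAut_equiv (F := F) (by omega : 1 ≤ 2 * f) hF'
    have h := orderOf_dvd_natCard (e σ)
    rw [MulEquiv.orderOf_eq, ho, Nat.card_congr Multiplicative.toAdd, Nat.card_zmod] at h
    exact h
  have hrf : r ∣ f := by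
    rcases hr.dvd_mul.1 hr2f with h | h
    · have := (Nat.prime_dvd_prime_iff_eq hr Nat.prime_two).1 h
      subst this
      exact absurd hodd (by decide)
    · exact h
  have hpos : 2 * (f / r) ≠ 0 := by
    have := Nat.div_pos (Nat.le_of_dvd (by omega) hrf) hr.pos
    omega
  letI : Fintype (GaloisField p (2 * (f / r))) := Fintype.ofFinite _
  have hK : Fintype.card (GaloisField p (2 * (f / r))) = p ^ (2 * (f / r)) := by
    rw [← Nat.card_eq_fintype_card, GaloisField.card p _ hpos]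
  obtain ⟨ι, hι⟩ := Cfsg.Agent.Lib.AutPSL.exists_embedding hF' ho hr2f
    (GaloisField p (2 * (f / r))) (by rw [hK, Nat.mul_div_assoc _ hrf])
  have hK' : Fintype.card (GaloisField p (2 * (f / r))) = (p ^ (f / r)) ^ 2 := by
    rw [hK, ← pow_mul, mul_comm]
  have hq0 : ∀ x, ι (x ^ (p ^ (f / r))) = ι x ^ q :=
    Cfsg.Agent.Lib.AutPSU.embedding_pow ι hodd rfl (by rw [hq, Nat.mul_div_cancel' hrf]) hK'
  rw [← Cfsg.Agent.Lib.AutPSp.isConjUnder_conj α, ← Cfsg.Agent.Lib.AutPSL.orderOf_conj α (δ * x),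
    show α * (δ * x) * α⁻¹ = α * δ * α⁻¹ * (α * x * α⁻¹) by group, hst]
  have hd := hN.conj_mem δ hδ α
  refine Cfsg.Agent.Lib.AutPSL.conj_iff_of_std
    (S := (Cfsg.Agent.Lib.AutPSU.D (Cfsg.Agent.Lib.AutPSU.fieldSU σ) : MulAut (Cfsg.PSU n F q)))
    (b := 1) (one_mem _) (by group) hd hr ?_ fun d hd' h => ?_
  · rw [Cfsg.Agent.Lib.AutPSU.orderOf_fieldSU hF hn, ho]
  · rw [Cfsg.Agent.Lib.AutPSU.inndiag_eq] at hd' ⊢
    obtain ⟨g, rfl⟩ := hd'
    obtain ⟨a, ha⟩ :=
      Cfsg.Agent.Lib.AutPSU.exists_conj_of_field hF hn ho hodd ι hι hK' hq0 g h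
    exact ⟨_, ⟨a, rfl⟩, ha⟩

end Cfsg.Agent.S2711
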