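import Cfsg.Statements.S2712
import Cfsg.Agent.Lib.AutPSp.Classes

set_option autoImplicit false
open Cfsg

namespace Cfsg.Agent.S2712

theorem gcd_two_geom {p k r : ℕ} (hp : p.Prime) (hk : 1 ≤ k) :
    Nat.gcd 2 ((p ^ (r * k) - 1) / (p ^ k - 1)) = Nat.gcd (Nat.gcd 2 (p ^ (r * k) - 1)) r := by
  have h2 : 2 ≤ p ^ k := le_trans hp.two_le (Nat.le_self_pow (by omega) p)
  have hS : (p ^ (r * k) - 1) / (p ^ k - 1) = ∑ i ∈ Finset.range r, (p ^ k) ^ i := by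
    rw [Nat.geomSum_eq h2, mul_comm r k, pow_mul]
  rcases Nat.even_or_odd p with hev | hodd
  · have hp2 : p = 2 := hp.even_iff.1 hev
    subst hp2
    rcases Nat.eq_zero_or_pos r with rfl | hr0
    · simp
    have hodd : (∑ i ∈ Finset.range r, ((2 : ℕ) ^ k) ^ i) % 2 = 1 := by
      rw [Finset.sum_nat_mod]
      rw [Finset.sum_eq_single 0]
      · simp
      · intro i _ hi
        rw [← pow_mul, Nat.pow_mod]
        simp [Nat.mul_ne_zero (by omega : k ≠ 0) hi]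
      · intro h; simp at h; omega
    have h1 : 2 ^ (r * k) % 2 = 0 := by
      rw [Nat.pow_mod]; simp [Nat.mul_ne_zero (by omega : r ≠ 0) (by omega : k ≠ 0)]
    have h3 : 1 ≤ 2 ^ (r * k) := Nat.one_le_two_pow
    have hA : Nat.gcd 2 (2 ^ (r * k) - 1) = 1 := by
      rw [Nat.gcd_rec, show (2 ^ (r * k) - 1) % 2 = 1 by omega]; rfl
    rw [hS, Nat.gcd_rec, hodd, hA]
    simp
  · have hmod : (∑ i ∈ Finset.range r, (p ^ k) ^ i) % 2 = r % 2 := by
      rw [Finset.sum_nat_mod]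
      have : ∀ i ∈ Finset.range r, (p ^ k) ^ i % 2 = 1 := fun i _ =>
        Nat.odd_iff.1 (hodd.pow.pow)
      rw [Finset.sum_congr rfl this]
      simp
    have h1 : p ^ (r * k) % 2 = 1 := Nat.odd_iff.1 hodd.pow
    have hA : Nat.gcd 2 (p ^ (r * k) - 1) = 2 :=
      Nat.gcd_eq_left (Nat.dvd_of_mod_eq_zero (by omega))
    rw [hS, hA, Nat.gcd_rec, hmod, ← Nat.gcd_rec]

/-- Let T = PSp_{2m}(F) be simple over the field F with p^f elements (m ≥ 2, (2m, |F|) ≠ (4, 2)), G = Inndiag(T) the image of the projective conformal symplectic group PGSp_{2m}(F), and x a field automorphism of T of prime order r. Then r divides f; C_G(x) is isomorphic to PGSp_{2m}(F₀) for a field F₀ with p^(f/r) elements; and the G-class of x is the union of exactly gcd(gcd(2, p^f − 1), r) T-classes. -/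
theorem result {F : Type*} [Field F] [Fintype F] {p f : ℕ} [Fact p.Prime] (hF : Fintype.card F = p ^ f) (hf : 1 ≤ f) {m : ℕ} (hm : 2 ≤ m) (hs : m = 2 → 3 ≤ Fintype.card F) (x : MulAut (Cfsg.PSp m F)) (hx : Cfsg.IsFieldAutClassPSp x) {r : ℕ} (hr : r.Prime) (hxr : orderOf x = r) (F₀ : Type*) [Field F₀] [Fintype F₀] (hF₀ : Fintype.card F₀ = p ^ (f / r)) :
    r ∣ f ∧ Nonempty (↥(Cfsg.inndiagPSp m F ⊓ Subgroup.centralizer {x}) ≃* Cfsg.PGSp m F₀) ∧ Cfsg.splitClassCount (Cfsg.inndiagPSp m F) (Cfsg.Inn (Cfsg.PSp m F)) x = Nat.gcd (Nat.gcd 2 (p ^ f - 1)) r := by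
  classical
  have hm1 : 1 ≤ m := by omega
  haveI := Cfsg.Agent.Lib.AutPSp.inndiag_normal (F := F) hm1
  haveI : (Cfsg.Inn (Cfsg.PSp m F)).Normal := Cfsg.Agent.Lib.AutPSp.normal_inn
  obtain ⟨α, σ, hst, ho⟩ := Cfsg.Agent.Lib.AutPSp.exists_std_of_field hm1 hx
  rw [hxr] at ho
  have hrf : r ∣ f := by
    obtain ⟨e⟩ := Cfsg.Agent.Lib.AutPSL.ringAut_equiv (F := F) hf hF
    have h := orderOf_dvd_natCard (e σ)
    rw [MulEquiv.orderOf_eq, ho, Nat.card_congr Multiplicative.toAdd, Nat.card_zmod] at h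
    exact h
  obtain ⟨ι, hι⟩ := Cfsg.Agent.Lib.AutPSL.exists_embedding hF ho hrf F₀ hF₀
  refine ⟨hrf, ?_, ?_⟩
  · obtain ⟨e⟩ := Cfsg.Agent.Lib.AutPSp.centralizer_iso hm1 ho hr.pos ι hι
    obtain ⟨e'⟩ := Cfsg.Agent.Lib.AutPSp.centralizerEquiv (H := Cfsg.inndiagPSp m F) α x
    exact ⟨e'.trans ((MulEquiv.subgroupCongr (by rw [hst])).trans e)⟩
  · rw [← Cfsg.Agent.Lib.AutPSp.splitClassCount_conj
        (by rw [Cfsg.Agent.Lib.AutPSp.inndiag_eq]; exact Cfsg.Agent.Lib.AutPSp.inn_le) α x, hst,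
      Cfsg.Agent.Lib.AutPSp.splitClassCount_field hm1 ho hr.pos,
      Cfsg.Agent.Lib.AutPSL.index_eq_div, Cfsg.Agent.Lib.AutPSL.card_fixU ι hι, Nat.card_units,
      Nat.card_eq_fintype_card, Nat.card_eq_fintype_card, hF, hF₀]
    obtain ⟨k, rfl⟩ := hrf
    rw [Nat.mul_div_cancel_left _ hr.pos]
    have hk : 1 ≤ k := Nat.pos_of_ne_zero (by rintro rfl; simp at hf)
    exact gcd_two_geom (Fact.out : p.Prime) hk

end Cfsg.Agent.S2712
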