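import Cfsg.Statements.S2714
import Cfsg.Agent.Lib.AutOmegaOdd.Classes

set_option autoImplicit false
open Cfsg

namespace Cfsg.Agent.S2714

/-- Let T = Ω_{2m+1}(F) (m ≥ 3, |F| = p^f odd; realised as PΩ of the form x₀² + Σ xᵢ yᵢ), G = Inndiag(T) the image of the conformal orthogonal group in Aut(T), and x a field automorphism of T of prime order r. Then r divides f; C_G(x) is isomorphic to Inndiag(Ω_{2m+1}(F₀)) for a field F₀ with p^(f/r) elements; and the G-class of x is a single T-class when r is odd and the union of exactly two T-classes when r = 2. -/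
theorem result {F : Type*} [Field F] [Fintype F] {p f : ℕ} [Fact p.Prime] (hF : Fintype.card F = p ^ f) (hf : 1 ≤ f) (hodd : Odd (Fintype.card F)) {m : ℕ} (hm : 3 ≤ m) (x : MulAut (Cfsg.POmega F (Cfsg.quadFormOdd m F))) (hx : Cfsg.IsFieldAutClassPOmega (Cfsg.quadFormOdd m F) x) {r : ℕ} (hr : r.Prime) (hxr : orderOf x = r) (F₀ : Type*) [Field F₀] [Fintype F₀] (hF₀ : Fintype.card F₀ = p ^ (f / r)) :
    r ∣ f ∧ Nonempty (↥(Cfsg.inndiagPOmegaOdd m F ⊓ Subgroup.centralizer {x}) ≃* ↥(Cfsg.inndiagPOmegaOdd m F₀)) ∧ (Odd r → Cfsg.splitClassCount (Cfsg.inndiagPOmegaOdd m F) (Cfsg.Inn (Cfsg.POmega F (Cfsg.quadFormOdd m F))) x = 1) ∧ (r = 2 → Cfsg.splitClassCount (Cfsg.inndiagPOmegaOdd m F) (Cfsg.Inn (Cfsg.POmega F (Cfsg.quadFormOdd m F))) x = 2) := by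
  classical
  have hH := Cfsg.Agent.Lib.AutOmegaOdd.hyp_Qo (m := m)
    (Cfsg.Agent.Lib.Classical.QuadOmega.two_ne_zero_of_odd hodd) hm
  haveI := Cfsg.Agent.Lib.AutOmegaOdd.inndiag_normal hH
  haveI : (Cfsg.Inn (Cfsg.POmega F (Cfsg.quadFormOdd m F))).Normal :=
    Cfsg.Agent.Lib.AutPSp.normal_inn
  obtain ⟨α, σ, hst, ho⟩ := Cfsg.Agent.Lib.AutOmegaOdd.exists_std_of_field hm hH hx
  rw [hxr] at ho
  have hrf : r ∣ f := by
    obtain ⟨e⟩ := Cfsg.Agent.Lib.AutPSL.ringAut_equiv (F := F) hf hF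
    have h := orderOf_dvd_natCard (e σ)
    rw [MulEquiv.orderOf_eq, ho, Nat.card_congr Multiplicative.toAdd, Nat.card_zmod] at h
    exact h
  obtain ⟨ι, hι⟩ := Cfsg.Agent.Lib.AutPSL.exists_embedding hF ho hrf F₀ hF₀
  have hcard : Fintype.card F = Fintype.card F₀ ^ r := by
    rw [hF, hF₀, ← pow_mul, Nat.div_mul_cancel hrf]
  have hle : Cfsg.Inn (Cfsg.POmega F (Cfsg.quadFormOdd m F)) ≤ Cfsg.inndiagPOmegaOdd m F := by
    rw [Cfsg.Agent.Lib.AutOmegaOdd.inndiag_eq hH]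
    exact Cfsg.Agent.Lib.AutOmegaOdd.inn_le hH
  refine ⟨hrf, ?_, fun hr1 => ?_, fun hr2 => ?_⟩
  · obtain ⟨e⟩ := Cfsg.Agent.Lib.AutOmegaOdd.centralizer_iso hm hH ι hι
    obtain ⟨e'⟩ := Cfsg.Agent.Lib.AutPSp.centralizerEquiv (H := Cfsg.inndiagPOmegaOdd m F) α x
    exact ⟨e'.trans ((MulEquiv.subgroupCongr (by rw [hst])).trans e)⟩
  · rw [← Cfsg.Agent.Lib.AutPSp.splitClassCount_conj hle α x, hst]
    exact Cfsg.Agent.Lib.AutOmegaOdd.split_one hm hH ι hι hcard hr1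
  · rw [← Cfsg.Agent.Lib.AutPSp.splitClassCount_conj hle α x, hst]
    subst hr2
    exact Cfsg.Agent.Lib.AutOmegaOdd.split_two hm hH ι hι hcard

end Cfsg.Agent.S2714
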