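import Cfsg.Statements.S2723
import Cfsg.Agent.Lib.AutOmega.Shapes

set_option autoImplicit false
open Cfsg Cfsg.Agent.Lib.AutOmega Cfsg.Agent.Lib.Classical.QuadOmega

namespace Cfsg.Agent.S2723

/-- Let T = PΩ⁺_{2m}(F) with m ≥ 4 and |F| = q odd. The image of the special orthogonal group in Aut(T) contains the inner automorphism group T with index 1 (they coincide) when m is odd and q ≡ 3 (mod 4), and with index 2 otherwise (the index is 2 exactly when the discriminant of the form is a square). -/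
theorem result {F : Type*} [Field F] [Fintype F] (hodd : Odd (Fintype.card F)) {m : ℕ} (hm : 4 ≤ m) :
    ((Odd m ∧ Fintype.card F % 4 = 3) → (Cfsg.Inn (Cfsg.POmega F (Cfsg.quadFormPlus m F))).relIndex (Cfsg.psoAut F (Cfsg.quadFormPlus m F)) = 1) ∧ (¬ (Odd m ∧ Fintype.card F % 4 = 3) → (Cfsg.Inn (Cfsg.POmega F (Cfsg.quadFormPlus m F))).relIndex (Cfsg.psoAut F (Cfsg.quadFormPlus m F)) = 2) := by
  have h2 : (2 : F) ≠ 0 := Cfsg.Agent.Lib.Classical.QuadOmega.two_ne_zero_of_odd hodd
  obtain ⟨D, hν, hε, hg0⟩ := exists_dat_plus (F := F) (show 3 ≤ m by omega) h2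
  have hf := fun v => Cfsg.Agent.Lib.Classical.QuadOmega.plusQ_apply (F := F) m v
  have hiff := hν.symm ▸ sqSign_negOne_pow (F := F) hodd m
  rw [D.relIndex_pso hf]
  exact ⟨fun h => if_pos (hiff.2 h), fun h => if_neg fun e => h (hiff.1 e)⟩

end Cfsg.Agent.S2723
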