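import Cfsg.Statements.S2724
import Cfsg.Agent.Lib.AutOmega.Shapes

set_option autoImplicit false
open Cfsg Cfsg.Agent.Lib.AutOmega Cfsg.Agent.Lib.Classical.QuadOmega

namespace Cfsg.Agent.S2724

/-- Let T = PΩ⁺_{2m}(F) with m ≥ 4 and |F| = q odd. The image G̃ of the conformal orthogonal group in Aut(T), taken modulo the inner automorphism group T, is elementary abelian of order 4 when m is odd and q ≡ 3 (mod 4), and dihedral of order 8 otherwise. -/
theorem result {F : Type*} [Field F] [Fintype F] (hodd : Odd (Fintype.card F)) {m : ℕ} (hm : 4 ≤ m) :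
    ((Odd m ∧ Fintype.card F % 4 = 3) → (∃ φ : ↥(Cfsg.pgoAut F (Cfsg.quadFormPlus m F)) →* Multiplicative (ZMod 2 × ZMod 2), Function.Surjective φ ∧ φ.ker = (Cfsg.Inn (Cfsg.POmega F (Cfsg.quadFormPlus m F))).subgroupOf (Cfsg.pgoAut F (Cfsg.quadFormPlus m F)))) ∧ (¬ (Odd m ∧ Fintype.card F % 4 = 3) → (∃ φ : ↥(Cfsg.pgoAut F (Cfsg.quadFormPlus m F)) →* DihedralGroup 4, Function.Surjective φ ∧ φ.ker = (Cfsg.Inn (Cfsg.POmega F (Cfsg.quadFormPlus m F))).subgroupOf (Cfsg.pgoAut F (Cfsg.quadFormPlus m F)))) := by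
  have h2 : (2 : F) ≠ 0 := Cfsg.Agent.Lib.Classical.QuadOmega.two_ne_zero_of_odd hodd
  obtain ⟨D, hν, hε, hg0⟩ := exists_dat_plus (F := F) (show 3 ≤ m by omega) h2
  have hf := fun v => Cfsg.Agent.Lib.Classical.QuadOmega.plusQ_apply (F := F) m v
  have hiff := hν.symm ▸ sqSign_negOne_pow (F := F) hodd m
  exact ⟨fun h => D.pgo_inn_abelian hf (hiff.2 h),
    fun h => D.pgo_inn_dihedral hf fun e => h (hiff.1 e)⟩

end Cfsg.Agent.S2724
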