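import Cfsg.Statements.S2726
import Cfsg.Agent.Lib.AutOmega.Shapes

set_option autoImplicit false
open Cfsg Cfsg.Agent.Lib.AutOmega Cfsg.Agent.Lib.Classical.QuadOmega

namespace Cfsg.Agent.S2726

/-- Let T = PΩ⁻_{2m+2}(F) with m ≥ 3 and |F| = q odd (form with anisotropic binary part). Inside Aut(T), the image G̃ of the conformal orthogonal group of the form modulo the image of the special orthogonal group is elementary abelian of order 4. -/
theorem result {F : Type*} [Field F] [Fintype F] (hodd : Odd (Fintype.card F)) {m : ℕ} (hm : 3 ≤ m) (a b : F) (hab : (∀ z₁ z₂ : F, z₁ ^ 2 + a * z₁ * z₂ + b * z₂ ^ 2 = 0 → z₁ = 0 ∧ z₂ = 0)) :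
    (∃ φ : ↥(Cfsg.pgoAut F (Cfsg.quadFormMinus m F a b)) →* Multiplicative (ZMod 2 × ZMod 2), Function.Surjective φ ∧ φ.ker = (Cfsg.psoAut F (Cfsg.quadFormMinus m F a b)).subgroupOf (Cfsg.pgoAut F (Cfsg.quadFormMinus m F a b))) := by
  have h2 : (2 : F) ≠ 0 := Cfsg.Agent.Lib.Classical.QuadOmega.two_ne_zero_of_odd hodd
  obtain ⟨D, hν, hε, hg0⟩ := exists_dat_minus (F := F) (a := a) (b := b) hab hm h2
  have hf := fun v => Cfsg.Agent.Lib.Classical.QuadF2.minusQ_apply (F := F) m a b v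
  have hiff : sqSign ((-1 : F) ^ (m + 1)) = -1 ↔ Even m ∧ Fintype.card F % 4 = 3 := by
    rw [sqSign_negOne_pow hodd (m + 1), Nat.odd_add_one, Nat.not_odd_iff_even]
  have hνiff : spn D.nd (negOne (Cfsg.Agent.Lib.Classical.QuadF2.minusQ m a b)) = -1 ↔
      ¬ (Even m ∧ Fintype.card F % 4 = 3) := by
    rw [hν, ← hiff]
    rcases Int.units_eq_one_or (sqSign ((-1 : F) ^ (m + 1))) with e | e <;> rw [e] <;> decide
  exact D.pgo_pso hf

end Cfsg.Agent.S2726
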