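import Cfsg.Statements.S2729
import Cfsg.Agent.Lib.AutOmega.Shapes

set_option autoImplicit false
open Cfsg Cfsg.Agent.Lib.AutOmega Cfsg.Agent.Lib.Classical.QuadOmega

namespace Cfsg.Agent.S2729

/-- Let T = PΩ⁻_{2m+2}(F) with m ≥ 3 and |F| = q odd (form with anisotropic binary part). The inner-diagonal group G = Inndiag(T) (image of the class-preserving similarities) taken modulo the inner automorphism group T is cyclic of order 4 when m is even and q ≡ 3 (mod 4), and of order 2 otherwise. -/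
theorem result {F : Type*} [Field F] [Fintype F] (hodd : Odd (Fintype.card F)) {m : ℕ} (hm : 3 ≤ m) (a b : F) (hab : (∀ z₁ z₂ : F, z₁ ^ 2 + a * z₁ * z₂ + b * z₂ ^ 2 = 0 → z₁ = 0 ∧ z₂ = 0)) :
    ((Even m ∧ Fintype.card F % 4 = 3) → (∃ φ : ↥(Cfsg.inndiagPOmegaMinus m F a b) →* Multiplicative (ZMod 4), Function.Surjective φ ∧ φ.ker = (Cfsg.Inn (Cfsg.POmega F (Cfsg.quadFormMinus m F a b))).subgroupOf (Cfsg.inndiagPOmegaMinus m F a b))) ∧ (¬ (Even m ∧ Fintype.card F % 4 = 3) → (∃ φ : ↥(Cfsg.inndiagPOmegaMinus m F a b) →* Multiplicative (ZMod 2), Function.Surjective φ ∧ φ.ker = (Cfsg.Inn (Cfsg.POmega F (Cfsg.quadFormMinus m F a b))).subgroupOf (Cfsg.inndiagPOmegaMinus m F a b))) := by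
  have h2 : (2 : F) ≠ 0 := Cfsg.Agent.Lib.Classical.QuadOmega.two_ne_zero_of_odd hodd
  obtain ⟨D, hν, hε, hg0⟩ := exists_dat_minus (F := F) (a := a) (b := b) hab hm h2
  have hf := fun v => Cfsg.Agent.Lib.Classical.QuadF2.minusQ_apply (F := F) m a b v
  have hiff : sqSign ((-1 : F) ^ (m + 1)) = -1 ↔ Even m ∧ Fintype.card F % 4 = 3 := by
    rw [sqSign_negOne_pow hodd (m + 1), Nat.odd_add_one, Nat.not_odd_iff_even]
  have hνiff : spn D.nd (negOne (Cfsg.Agent.Lib.Classical.QuadF2.minusQ m a b)) = -1 ↔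
      ¬ (Even m ∧ Fintype.card F % 4 = 3) := by
    rw [hν, ← hiff]
    rcases Int.units_eq_one_or (sqSign ((-1 : F) ^ (m + 1))) with e | e <;> rw [e] <;> decide
  rw [inndiag_minus_eq D hab hg0]
  refine ⟨fun h => D.proper_cyclic hf (fun e => hνiff.1 e h) ?_,
    fun h => D.proper_two hf (hνiff.2 h)⟩
  rw [hε, (Even.add_one h.1).neg_one_pow]

end Cfsg.Agent.S2729
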