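import Cfsg.Statements.S2734

import Cfsg.Agent.Lib.Chev.FoldD4
set_option autoImplicit false
open Cfsg

namespace Cfsg.Agent.S2734


open Cfsg.Lie Cfsg.Agent.Lib.Chev

theorem long_D4 : ∀ i < chevD4.rank, chevD4.isLong (chevD4.simple i) = false := by decide +kernel

theorem sym_D4 : ∀ π : Equiv.Perm (Fin chevD4.rank),
    (∀ i j : Fin chevD4.rank, i ≠ j → chevD4.bonds (π i) (π j) = chevD4.bonds i j) →
    (∀ i, π (π i) = i) ∨ (∀ i, (π i).1 = D4.sym.p i.1) ∨ ∀ i, (π (π i)).1 = D4.sym.p i.1 := by
  decide +kernel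

/-- In the Chevalley group of type D₄ over a finite field F (the matrix group generated by the root elements), a graph automorphism attached to a symmetry π of the Dynkin diagram (sending each fundamental root element x_p(t) to x_{π(p)}(t) and each x_{−p}(t) to x_{−π(p)}(t)) that has order 3 — a standard triality graph automorphism, π being a 3-cycle of the three outer nodes — has fixed-point subgroup isomorphic to the Chevalley group of type G₂ over F. -/
theorem result {F : Type*} [Field F] [Fintype F] (τ : MulAut ↥(Cfsg.Lie.chevD4.group F)) (hτ : Cfsg.Lie.chevD4.IsGraphAut τ) (hτ3 : orderOf τ = 3) :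
    Nonempty (↥(MonoidHom.eqLocus τ.toMonoidHom (MonoidHom.id ↥(Cfsg.Lie.chevD4.group F))) ≃* ↥(Cfsg.Lie.chevG2.group F)) := by
  obtain ⟨π, hπ, hspec⟩ := hτ
  have hexp : ∀ i : Fin chevD4.rank, chevD4.graphExp (ringChar F) i (π i) = 1 := fun i => by
    simp [ChevalleyDatum.graphExp, long_D4 _ (π i).2, long_D4 _ (π (π i)).2]
  have hsq : ∀ (g : ↥(chevD4.group F)) (i : Fin chevD4.rank) (t : F),
      (((g : GL chevD4.Idx F) : Matrix chevD4.Idx chevD4.Idx F) = chevD4.x F (chevD4.simple i) t →
        (((τ ^ 2) g : GL chevD4.Idx F) : Matrix chevD4.Idx chevD4.Idx F) =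
          chevD4.x F (chevD4.simple (π (π i))) t) ∧
      (((g : GL chevD4.Idx F) : Matrix chevD4.Idx chevD4.Idx F) = chevD4.x F (chevD4.neg (chevD4.simple i)) t →
        (((τ ^ 2) g : GL chevD4.Idx F) : Matrix chevD4.Idx chevD4.Idx F) =
          chevD4.x F (chevD4.neg (chevD4.simple (π (π i)))) t) := by
    intro g i t
    rw [pow_two]
    constructor <;> intro hg
    · have h1 := (hspec g i t).1 hg
      rw [hexp, pow_one] at h1
      have h2 := (hspec (τ g) (π i) t).1 h1
      rwa [hexp, pow_one] at h2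
    · have h1 := (hspec g i t).2 hg
      rw [hexp, pow_one] at h1
      have h2 := (hspec (τ g) (π i) t).2 h1
      rwa [hexp, pow_one] at h2
  have hτ1 : τ ^ 3 = 1 := hτ3 ▸ pow_orderOf_eq_one τ
  obtain ⟨e⟩ := D4.folded (F := F)
  rcases sym_D4 π hπ with h | h | h
  · exfalso
    have h2 : τ ^ 2 = 1 := Fold.aut_ext D4.checked (τ ^ 2) 1 fun g i t =>
      ⟨fun hg => Subtype.ext (Units.ext (by rw [(hsq g i t).1 hg, h i]; exact hg.symm)),
       fun hg => Subtype.ext (Units.ext (by rw [(hsq g i t).2 hg, h i]; exact hg.symm))⟩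
    have h3 := orderOf_dvd_of_pow_eq_one h2
    rw [hτ3] at h3
    norm_num at h3
  · obtain ⟨e'⟩ := Fold.fixed_equiv D4.checked _ τ
      (Fold.aut_eq_twist D4.checked D4.symData D4.symData' long_D4 τ π h hspec)
      (MonoidHom.eqLocus τ.toMonoidHom (MonoidHom.id _)) fun g => Iff.rfl
    exact ⟨e'.trans e⟩
  · have h' := Fold.aut_eq_twist D4.checked D4.symData D4.symData' long_D4 (τ ^ 2) (π * π)
      (fun i => h i) fun g i t => by
        have e1 : chevD4.graphExp (ringChar F) i ((π * π) i) = 1 := by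
          simp [ChevalleyDatum.graphExp, long_D4 _ (π i).2, long_D4 _ (π (π i)).2]
        rw [e1, pow_one]
        exact hsq g i t
    obtain ⟨e'⟩ := Fold.fixed_equiv D4.checked _ (τ ^ 2) h'
      (MonoidHom.eqLocus τ.toMonoidHom (MonoidHom.id _)) fun g => by
        rw [pow_two]
        constructor
        · intro (hg : τ g = g)
          show τ (τ g) = g
          rw [hg, hg]
        · intro (hg : τ (τ g) = g)
          show τ g = g
          have h3 : (τ ^ 3) g = g := by rw [hτ1]; rfl
          have h4 : τ (τ (τ g)) = g := h3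
          rwa [hg] at h4
    exact ⟨e'.trans e⟩

end Cfsg.Agent.S2734
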