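import Cfsg.Statements.S2738
import Cfsg.Agent.Lib.Classical.Simple

set_option autoImplicit false
open Cfsg

namespace Cfsg.Agent.S2738

open scoped commutatorElement

/-- The special linear group SL(3, 4) has centre of order 3 and does not split over it: no subgroup is a complement to the centre (so SL(3, 4) is a non-split central extension of PSL(3, 4) by a group of order 3). -/
theorem result (F : Type*) [Field F] [Fintype F] (hF : Fintype.card F = 4) : Nat.card ↥(Subgroup.center (Matrix.SpecialLinearGroup (Fin 3) F)) = 3 ∧ ¬ ∃ K : Subgroup (Matrix.SpecialLinearGroup (Fin 3) F), Subgroup.IsComplement' (Subgroup.center (Matrix.SpecialLinearGroup (Fin 3) F)) K := by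
  have hc : Nat.card ↥(Subgroup.center (Matrix.SpecialLinearGroup (Fin 3) F)) = 3 := by
    rw [Nat.card_congr (Matrix.SpecialLinearGroup.center_equiv_rootsOfUnity' (0 : Fin 3)).toEquiv]
    simp only [Fintype.card_fin]
    have h1 : rootsOfUnity 3 F = ⊤ := by
      rw [eq_top_iff]
      intro x _
      rw [mem_rootsOfUnity]
      have := pow_card_eq_one' (x := x)
      rwa [Nat.card_units, Nat.card_eq_fintype_card, hF] at this
    rw [h1, Subgroup.card_top, Nat.card_units, Nat.card_eq_fintype_card, hF]
  refine ⟨hc, ?_⟩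
  rintro ⟨K, hK⟩
  set G := Matrix.SpecialLinearGroup (Fin 3) F
  have hp : commutator G = ⊤ := Lib.Classical.SL_commutator_eq_top (by simp)
  have hle : commutator G ≤ K := by
    rw [commutator_def, Subgroup.commutator_le]
    intro a _ b _
    obtain ⟨⟨z, k⟩, rfl⟩ := hK.2 a
    obtain ⟨⟨w, l⟩, rfl⟩ := hK.2 b
    have hz := Subgroup.mem_center_iff.1 z.2
    have hw := Subgroup.mem_center_iff.1 w.2
    have hz1 : ∀ x : G, Commute (z : G) x := fun x => (hz x).symm
    have hw1 : ∀ x : G, Commute (w : G) x := fun x => (hw x).symm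
    have hzw : ∀ x : G, Commute ((z : G) * w) x := fun x => (hz1 x).mul_left (hw1 x)
    have : ⁅(z : G) * k, (w : G) * l⁆ = ⁅(k : G), (l : G)⁆ := by
      have e1 : (z : G) * k * ((w : G) * l) = (z * w) * (k * l) := (hw1 _).symm.mul_mul_mul_comm _ _
      have e2 : (w : G) * l * ((z : G) * k) = (z * w) * (l * k) := by
        rw [(hz1 _).symm.mul_mul_mul_comm, (hw1 (z : G)).eq]
      have e : ∀ a b : G, a * b * a⁻¹ * b⁻¹ = (a * b) * (b * a)⁻¹ := fun a b => by rw [mul_inv_rev, ← mul_assoc]
      rw [commutatorElement_def, commutatorElement_def, e, e, e1, e2, mul_inv_rev, ← mul_assoc, mul_assoc ((z : G) * w),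
        (hzw _).eq, mul_inv_cancel_right]
    show ⁅(z : G) * k, (w : G) * l⁆ ∈ K
    rw [this, commutatorElement_def]
    exact mul_mem (mul_mem (mul_mem k.2 l.2) (inv_mem k.2)) (inv_mem l.2)
  rw [hp, top_le_iff] at hle
  have := hK.card_mul
  rw [hle, Subgroup.card_top, hc] at this
  have hpos : 0 < Nat.card G := Nat.card_pos
  exact absurd this (by nlinarith)

end Cfsg.Agent.S2738
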