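import Cfsg.Statements.S2739


set_option autoImplicit false
open scoped Pointwise
open Cfsg

open Cfsg Matrix
open scoped Pointwise
namespace Cfsg.Agent.S2739

/-- In the projective special linear group PSL(3, 4) all subgroups of order 3 are conjugate. -/
theorem result (F : Type*) [Field F] [Fintype F] (hF : Fintype.card F = 4) (X Y : Subgroup (Matrix.ProjectiveSpecialLinearGroup (Fin 3) F)) (hX : Nat.card ↥X = 3) (hY : Nat.card ↥Y = 3) : ∃ g : Matrix.ProjectiveSpecialLinearGroup (Fin 3) F, MulAut.conj g • X = Y := by
  classical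
  set G := Matrix.ProjectiveSpecialLinearGroup (Fin 3) F
  haveI : CharP F 2 := charP_of_card_eq_prime_pow (f := 2) (by rw [hF]; norm_num)
  have h2 : (2 : F) = 0 := CharTwo.two_eq_zero
  have hcube : ∀ a : F, a ≠ 0 → a ^ 3 = 1 := fun a ha => by
    simpa [hF] using FiniteField.pow_card_sub_one_eq_one a ha
  obtain ⟨w, hw0, hw1⟩ : ∃ w : F, w ≠ 0 ∧ w ≠ 1 := by
    obtain ⟨w, -, hw⟩ := Finset.exists_mem_notMem_of_card_lt_card (s := ({0, 1} : Finset F)) (t := Finset.univ)
      (by rw [Finset.card_univ, hF]; exact (Finset.card_le_two).trans_lt (by norm_num))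
    exact ⟨w, fun e => hw (by simp [e]), fun e => hw (by simp [e])⟩
  have hww : w * w = w + 1 := by
    have h3 := hcube w hw0
    have : (w - 1) * (w * w + w + 1) = 0 := by linear_combination h3
    rcases mul_eq_zero.1 this with e | e
    · exact absurd (sub_eq_zero.1 e) hw1
    · linear_combination e - (w + 1) * h2
  have hall : ∀ a : F, a ≠ 0 → a = 1 ∨ a = w ∨ a = w * w := by
    intro a ha
    have h3 := hcube a ha
    have h4 := hcube w hw0
    have : (a - 1) * ((a - w) * (a - w * w)) = 0 := by
      linear_combination h3 + (-(a * a) + a) * hww - (a * (a - 1)) * (1 + w) * h2 + (a - 1) * h4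
    rcases mul_eq_zero.1 this with e | e
    · exact Or.inl (sub_eq_zero.1 e)
    rcases mul_eq_zero.1 e with e | e
    · exact Or.inr (Or.inl (sub_eq_zero.1 e))
    · exact Or.inr (Or.inr (sub_eq_zero.1 e))
  let lam : Fin 3 → F := ![1, w, w * w]
  let D : Matrix.SpecialLinearGroup (Fin 3) F := ⟨Matrix.diagonal lam, by
    rw [Matrix.det_diagonal, Fin.prod_univ_three]
    show 1 * w * (w * w) = 1
    linear_combination hcube w hw0⟩
  let d : G := QuotientGroup.mk' _ D
  have key : ∀ x : G, orderOf x = 3 → ∃ g : G, g * x * g⁻¹ = d := by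
    intro x hx
    obtain ⟨X, rfl⟩ := QuotientGroup.mk_surjective x
    set M : Matrix (Fin 3) (Fin 3) F := (X : Matrix (Fin 3) (Fin 3) F) with hM
    have hns : ∀ c : F, M ≠ Matrix.scalar (Fin 3) c := by
      intro c e
      have hX : X ∈ Subgroup.center (Matrix.SpecialLinearGroup (Fin 3) F) := by
        rw [Matrix.SpecialLinearGroup.mem_center_iff]
        refine ⟨c, ?_, e.symm⟩
        have := X.2
        rw [← hM, e, Matrix.scalar_apply, Matrix.det_diagonal, Fin.prod_univ_three] at this
        rw [Fintype.card_fin]
        linear_combination this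
      rw [(QuotientGroup.eq_one_iff X).2 hX, orderOf_one] at hx
      omega
    obtain ⟨c, hc, hcX⟩ : ∃ c : F, c ^ 3 = 1 ∧ Matrix.scalar (Fin 3) c = M ^ 3 := by
      have h3 := pow_orderOf_eq_one (QuotientGroup.mk X : G)
      rw [hx, ← QuotientGroup.mk_pow, QuotientGroup.eq_one_iff, Matrix.SpecialLinearGroup.mem_center_iff] at h3
      obtain ⟨c, hc, hc'⟩ := h3
      rw [Fintype.card_fin] at hc
      exact ⟨c, hc, by rw [hc', hM, Matrix.SpecialLinearGroup.coe_pow]⟩
    have hc1 : c = 1 := by
      by_contra hne
      let p : Polynomial F := Polynomial.X ^ 3 - Polynomial.C c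
      have hpm : p.Monic := Polynomial.monic_X_pow_sub_C c (by norm_num)
      have hpd : p.natDegree = 3 := Polynomial.natDegree_X_pow_sub_C
      have hirr : Irreducible p := by
        refine (Polynomial.Monic.irreducible_iff_roots_eq_zero_of_degree_le_three hpm (by omega) (by omega)).2 ?_
        refine Multiset.eq_zero_of_forall_notMem fun a ha => ?_
        rw [Polynomial.mem_roots hpm.ne_zero] at ha
        have ha' : a ^ 3 = c := by simpa [p, sub_eq_zero] using ha
        rcases eq_or_ne a 0 with rfl | h0
        · rw [← ha'] at hc; simp at hc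
        · exact hne (ha'.symm.trans (hcube a h0))
      have haev : Polynomial.aeval M p = 0 := by
        simp only [p, map_sub, map_pow, Polynomial.aeval_X, Polynomial.aeval_C]
        rw [← hcX, Matrix.algebraMap_eq_diagonal]
        simp [Matrix.scalar_apply, Pi.algebraMap_def]
      have hmin : minpoly F M = p :=
        (minpoly.eq_of_irreducible_of_monic hirr haev hpm).symm
      have hcp : M.charpoly = p := by
        refine Polynomial.eq_of_monic_of_dvd_of_natDegree_le hpm (Matrix.charpoly_monic M) ?_ ?_
        · rw [← hmin]; exact Matrix.minpoly_dvd_charpoly M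
        · rw [Matrix.charpoly_natDegree_eq_dim, Fintype.card_fin, hpd]
      have hdet : M.det = 1 := X.2
      rw [Matrix.det_eq_sign_charpoly_coeff, hcp, Fintype.card_fin] at hdet
      simp [p] at hdet
      exact hne (by linear_combination hdet)
    rw [hc1, map_one] at hcX
    -- eigenvectors
    let S : Set (Fin 3 → F) := {v | ∃ a : F, M *ᵥ v = a • v}
    have hS : Submodule.span F S = ⊤ := by
      rw [eq_top_iff]
      intro v _
      have hp : ∀ a : F, a ^ 3 = 1 → v + (a * a) • (M *ᵥ v) + a • (M *ᵥ (M *ᵥ v)) ∈ S := by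
        intro a ha
        refine ⟨a, ?_⟩
        have h3v : M *ᵥ (M *ᵥ (M *ᵥ v)) = v := by
          rw [Matrix.mulVec_mulVec, Matrix.mulVec_mulVec, ← pow_two, ← pow_succ, ← hcX, Matrix.one_mulVec]
        simp only [Matrix.mulVec_add, Matrix.mulVec_smul, h3v, smul_add, smul_smul]
        rw [show a * (a * a) = 1 by linear_combination ha]
        module
      have hv : v = (v + (1 * 1 : F) • (M *ᵥ v) + (1 : F) • (M *ᵥ (M *ᵥ v))) + (v + (w * w) • (M *ᵥ v) + w • (M *ᵥ (M *ᵥ v))) +
          (v + ((w * w) * (w * w)) • (M *ᵥ v) + (w * w) • (M *ᵥ (M *ᵥ v))) := by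
        have e1 : (1 * 1 : F) + w * w + (w * w) * (w * w) = 0 := by
          linear_combination (w * w + w + 3) * hww + (2 * w + 2) * h2
        have e2 : (1 : F) + w + w * w = 0 := by linear_combination hww + (w + 1) * h2
        funext i
        simp only [Pi.add_apply, Pi.smul_apply, smul_eq_mul]
        linear_combination -((M *ᵥ v) i) * e1 - ((M *ᵥ (M *ᵥ v)) i) * e2 - v i * h2
      rw [hv]
      exact add_mem (add_mem (Submodule.subset_span (hp 1 (one_pow 3))) (Submodule.subset_span (hp w (hcube w hw0))))
        (Submodule.subset_span (hp (w * w) (hcube _ (mul_ne_zero hw0 hw0))))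
    let b0 := Module.Basis.ofSpan hS.ge
    haveI : Fintype ((linearIndepOn_empty F (id : (Fin 3 → F) → (Fin 3 → F))).extend (Set.empty_subset S)) :=
      Fintype.ofFinite _
    have hcard := Module.finrank_eq_card_basis b0
    rw [Module.finrank_pi, Fintype.card_fin] at hcard
    let b : Module.Basis (Fin 3) F (Fin 3 → F) := b0.reindex (Fintype.equivFinOfCardEq hcard.symm)
    have hb : ∀ i, ∃ a : F, M *ᵥ b i = a • b i := fun i => by
      have := Module.Basis.ofSpan_subset hS.ge (Set.mem_range_self ((Fintype.equivFinOfCardEq hcard.symm).symm i))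
      rw [show b i = b0 ((Fintype.equivFinOfCardEq hcard.symm).symm i) from Module.Basis.reindex_apply _ _ _]
      exact this
    choose l hl using hb
    let Q : Matrix (Fin 3) (Fin 3) F := Matrix.of fun i j => b j i
    have hQ : ∀ j, Q *ᵥ Pi.single j 1 = b j := fun j => by ext i; simp [Q]
    have hQu : IsUnit Q.det := by
      rw [← Matrix.isUnit_iff_isUnit_det, ← Matrix.linearIndependent_cols_iff_isUnit]
      exact b.linearIndependent
    have hMQ : M * Q = Q * Matrix.diagonal l := by
      ext i j
      rw [Matrix.mul_diagonal]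
      have := congrFun (hl j) i
      simpa [Q, Matrix.mulVec, Matrix.mul_apply, dotProduct, mul_comm] using this
    have hl0 : l 0 * l 1 * l 2 = 1 := by
      have := congrArg Matrix.det hMQ
      rw [Matrix.det_mul, Matrix.det_mul, Matrix.det_diagonal, Fin.prod_univ_three, X.2, one_mul] at this
      exact (mul_right_eq_self₀.1 this.symm).resolve_right hQu.ne_zero
    have hlne : ∀ i, l i ≠ 0 := by
      intro i e
      fin_cases i <;> simp_all
    have hlinj : Function.Injective l := by
      by_contra hni
      have heq : l 0 = l 1 ∧ l 1 = l 2 := by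
        have : l 0 = l 1 ∨ l 0 = l 2 ∨ l 1 = l 2 := by
          by_contra hc'
          push Not at hc'
          apply hni
          intro i j hij
          fin_cases i <;> fin_cases j <;> first
            | rfl
            | exact absurd hij hc'.1
            | exact absurd hij hc'.2.1
            | exact absurd hij hc'.2.2
            | exact absurd hij.symm hc'.1
            | exact absurd hij.symm hc'.2.1
            | exact absurd hij.symm hc'.2.2
        have c0 := hcube _ (hlne 0)
        have c1 := hcube _ (hlne 1)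
        rcases this with e | e | e
        · refine ⟨e, ?_⟩
          rw [e] at hl0
          refine mul_left_cancel₀ (mul_ne_zero (hlne 1) (hlne 1)) ?_
          linear_combination c1 - hl0
        · rw [← e] at hl0
          have : l 0 = l 1 := mul_left_cancel₀ (mul_ne_zero (hlne 0) (hlne 0)) (by linear_combination c0 - hl0)
          exact ⟨this, this.symm.trans e⟩
        · refine ⟨?_, e⟩
          rw [← e] at hl0
          refine mul_left_cancel₀ (mul_ne_zero (hlne 1) (hlne 1)) ?_
          linear_combination hl0 - c1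
      refine hns (l 0) ?_
      have hd : Matrix.diagonal l = Matrix.scalar (Fin 3) (l 0) := by
        rw [Matrix.scalar_apply]; congr 1; funext i; fin_cases i <;> simp [heq.1, heq.2]
      calc M = M * Q * Q⁻¹ := by rw [Matrix.mul_assoc, Matrix.mul_nonsing_inv Q hQu, mul_one]
        _ = Q * Matrix.scalar (Fin 3) (l 0) * Q⁻¹ := by rw [hMQ, hd]
        _ = Matrix.scalar (Fin 3) (l 0) * Q * Q⁻¹ := by rw [(Matrix.scalar_commute (l 0) (Commute.all _) Q).eq]
        _ = _ := by rw [Matrix.mul_assoc, Matrix.mul_nonsing_inv Q hQu, mul_one]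
    have hsurj : ∀ i, ∃ j, l j = lam i := by
      intro i
      have himg : Finset.univ.image l = ({1, w, w * w} : Finset F) := by
        refine Finset.eq_of_subset_of_card_le (fun a ha => ?_) ?_
        · obtain ⟨j, -, rfl⟩ := Finset.mem_image.1 ha
          simpa using hall _ (hlne j)
        · rw [Finset.card_image_of_injective _ hlinj, Finset.card_univ, Fintype.card_fin]
          exact Finset.card_le_three
      have : lam i ∈ Finset.univ.image l := by rw [himg]; fin_cases i <;> simp [lam]
      simpa using this
    choose σ hσ using hsurj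
    have hσi : Function.Injective σ := by
      intro i j e
      have : lam i = lam j := by rw [← hσ, ← hσ, e]
      fin_cases i <;> fin_cases j <;> simp [lam, hw1, hw0, eq_comm (a := (1 : F))] at this ⊢
      all_goals first
        | exact hw1 this
        | exact hw1 (by linear_combination this - hww + (w + 1) * h2)
        | exact hw0 (by linear_combination this + hww)
        | exact hw0 (by linear_combination hww - this)
        | simp_all
    let Q₁ : Matrix (Fin 3) (Fin 3) F := Matrix.of fun i j => b (σ j) i
    have hQ₁ : M * Q₁ = Q₁ * Matrix.diagonal lam := by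
      ext i j
      rw [Matrix.mul_diagonal, ← hσ j]
      have := congrFun (hl (σ j)) i
      simpa [Q₁, Matrix.mulVec, Matrix.mul_apply, dotProduct, mul_comm] using this
    have hu : IsUnit Q₁.det := by
      rw [← Matrix.isUnit_iff_isUnit_det, ← Matrix.linearIndependent_cols_iff_isUnit]
      exact b.linearIndependent.comp σ hσi
    let P : Matrix.SpecialLinearGroup (Fin 3) F := ⟨Q₁ * Matrix.diagonal ![Q₁.det⁻¹, 1, 1], by
      rw [Matrix.det_mul, Matrix.det_diagonal, Fin.prod_univ_three]
      simp [hu.ne_zero]⟩
    have hXP : X * P = P * D := by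
      apply Subtype.ext
      show M * (Q₁ * _) = Q₁ * _ * Matrix.diagonal lam
      rw [← Matrix.mul_assoc, hQ₁, Matrix.mul_assoc, Matrix.mul_assoc, Matrix.diagonal_mul_diagonal, Matrix.diagonal_mul_diagonal]
      simp [mul_comm]
    refine ⟨(QuotientGroup.mk P)⁻¹, ?_⟩
    show _ = (QuotientGroup.mk D : G)
    rw [inv_inv, mul_assoc, inv_mul_eq_iff_eq_mul, ← QuotientGroup.mk_mul, ← QuotientGroup.mk_mul, hXP]
  have hsub : ∀ Z : Subgroup G, Nat.card ↥Z = 3 → ∃ g : G, MulAut.conj g • Z = Subgroup.zpowers d := by
    intro Z hZ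
    haveI : Fact (Nat.Prime 3) := ⟨Nat.prime_three⟩
    obtain ⟨z, hz, hz1⟩ := Z.bot_or_exists_ne_one.resolve_left (by
      intro e; rw [e, Subgroup.card_bot] at hZ; omega)
    have hgen : Subgroup.zpowers z = Z := by
      refine Subgroup.eq_of_le_of_card_ge (Subgroup.zpowers_le.2 hz) ?_
      rw [Nat.card_zpowers, hZ]
      have := Subgroup.orderOf_dvd_natCard Z hz
      rw [hZ] at this
      rcases (Nat.dvd_prime Nat.prime_three).1 this with e | e
      · exact absurd (orderOf_eq_one_iff.1 e) hz1
      · omega
    have ho : orderOf z = 3 := by rw [← Nat.card_zpowers, hgen, hZ]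
    obtain ⟨g, hg⟩ := key z ho
    refine ⟨g, ?_⟩
    show Z.map (MulAut.conj g).toMonoidHom = _
    rw [← hgen, MonoidHom.map_zpowers]
    exact congrArg Subgroup.zpowers hg
  obtain ⟨g, hg⟩ := hsub X hX
  obtain ⟨g', hg'⟩ := hsub Y hY
  refine ⟨g'⁻¹ * g, ?_⟩
  rw [map_mul, mul_smul, hg, ← hg', map_inv, inv_smul_smul]

end Cfsg.Agent.S2739
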