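import Mathlib
import Cfsg.Statements.S2760
import Cfsg.Agent.Lib.LocalChar.PReduced

set_option autoImplicit false

open scoped commutatorElement Pointwise

open Cfsg.Agent.Lib.LocalChar

namespace Cfsg.Agent.S2760

/-- Let G be a finite group with C_G(O₂(G)) ≤ O₂(G) and H a subgroup of G such that H is normal in G, or the subgroup O²(H) generated by the elements of H of odd order is normal in G. Then C_H(O₂(H)) ≤ O₂(H). -/
theorem result {G : Type*} [Group G] [Finite G] (hchar : Subgroup.centralizer (Cfsg.pCore 2 G : Set G) ≤ Cfsg.pCore 2 G) (H : Subgroup G) (hH : H.Normal ∨ ((Cfsg.pResidual 2 ↥H).map H.subtype).Normal) : Subgroup.centralizer (Cfsg.pCore 2 ↥H : Set ↥H) ≤ Cfsg.pCore 2 ↥H := by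
  rw [Cfsg.Agent.Lib.LocalChar.charP_iff]
  have htop := isCharPOf_top.2 hchar
  rcases hH with h | h
  · exact htop.of_normal le_top Subgroup.le_normalizer_of_normal
  · refine isCharPOf_of_forall fun x hx ho hc => ?_
    have hR := htop.of_normal (le_top (a := resOf 2 H)) (@Subgroup.le_normalizer_of_normal G _ (resOf 2 H) _ h)
    exact hR.eq_one (mem_resOf hx ho) ho fun a ha =>
      hc a (pCoreOf_mono_normal (resOf_le H) (le_nz_resOf H) ha)

end Cfsg.Agent.S2760
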