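import Mathlib
import Cfsg.Statements.S2761
import Cfsg.Agent.Lib.LocalChar.QdField

set_option autoImplicit false

open scoped commutatorElement Pointwise

open Cfsg.Agent.Lib.LocalChar

namespace Cfsg.Agent.S2761

open Cfsg.Agent.Lib.LocalChar.QdField

variable {F : Type*} [Field F]

/-- The affine action on the plane. -/
def affine : ↥(Cfsg.qdOver F) →* Equiv.Perm (Fin 2 → F) :=
  MonoidHom.toHomPerm <|
    { toFun := fun M x => ((toSL M : Matrix.SpecialLinearGroup (Fin 2) F) : Matrix (Fin 2) (Fin 2) F).mulVec x +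
        ![ent M 0 2, ent M 1 2]
      map_one' := by
        funext x
        rw [map_one]
        show (1 : Matrix (Fin 2) (Fin 2) F).mulVec x + _ = x
        rw [Matrix.one_mulVec]
        funext i
        fin_cases i <;> simp [ent_one]
      map_mul' := fun M N => by
        funext x
        have hM := eq_el M
        have hN := eq_el N
        set A := toSL M
        set B := toSL N
        set a : Fin 2 → F := ![ent M 0 2, ent M 1 2]
        set b : Fin 2 → F := ![ent N 0 2, ent N 1 2]
        have hMN : M * N = el (A * B) ((A : Matrix (Fin 2) (Fin 2) F).mulVec b + a) := by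
          rw [hM, hN, el_mul]
        show _ + ![ent (M * N) 0 2, ent (M * N) 1 2] =
          (A : Matrix (Fin 2) (Fin 2) F).mulVec ((B : Matrix (Fin 2) (Fin 2) F).mulVec x + b) + a
        rw [map_mul, hMN, Matrix.mulVec_add, Matrix.mulVec_mulVec]
        show ((A * B : Matrix.SpecialLinearGroup (Fin 2) F) : Matrix (Fin 2) (Fin 2) F).mulVec x +
          ![((A : Matrix (Fin 2) (Fin 2) F).mulVec b + a) 0, ((A : Matrix (Fin 2) (Fin 2) F).mulVec b + a) 1] = _
        rw [add_assoc]
        congr 1
        funext i
        fin_cases i <;> rfl : ↥(Cfsg.qdOver F) →* Function.End (Fin 2 → F) }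

theorem affine_apply (M : ↥(Cfsg.qdOver F)) (x : Fin 2 → F) :
    affine M x = ((toSL M : Matrix.SpecialLinearGroup (Fin 2) F) : Matrix (Fin 2) (Fin 2) F).mulVec x +
        ![ent M 0 2, ent M 1 2] := rfl

theorem affine_injective : Function.Injective (affine (F := F)) := by
  rw [← MonoidHom.ker_eq_bot_iff, eq_bot_iff]
  intro M hM
  rw [Subgroup.mem_bot, eq_el M]
  have h : ∀ x, ((toSL M : Matrix.SpecialLinearGroup (Fin 2) F) : Matrix (Fin 2) (Fin 2) F).mulVec x +
      ![ent M 0 2, ent M 1 2] = x := fun x => by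
    rw [← affine_apply, MonoidHom.mem_ker.1 hM]; rfl
  have hv : (![ent M 0 2, ent M 1 2] : Fin 2 → F) = 0 := by simpa using h 0
  have hA : toSL M = 1 := by
    apply Subtype.ext
    show ((toSL M : Matrix.SpecialLinearGroup (Fin 2) F) : Matrix (Fin 2) (Fin 2) F) = 1
    apply Matrix.ext_of_mulVec_single
    intro i
    have := h (Pi.single i 1)
    rw [hv, add_zero] at this
    rw [Matrix.one_mulVec, this]
  rw [hA, hv, el_one]

theorem card_qd [Fintype F] :
    Nat.card ↥(Cfsg.qdOver F) = Nat.card (Matrix.SpecialLinearGroup (Fin 2) F) * Nat.card (Fin 2 → F) := by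
  rw [← Nat.card_prod]
  exact Nat.card_congr
    { toFun := fun M => (toSL M, ![ent M 0 2, ent M 1 2])
      invFun := fun q => el q.1 q.2
      left_inv := fun M => (eq_el M).symm
      right_inv := fun q => Prod.ext (toSL_el q.1 q.2) (funext fun i => by fin_cases i <;> rfl) }


/-- The group Qd(2), the natural semidirect product of an elementary abelian group of order 4 by SL₂(2) (realised as the affine subgroup of SL₃(2)), is isomorphic to the symmetric group of degree 4. -/
theorem result : Nonempty (↥(Cfsg.qd 2) ≃* Equiv.Perm (Fin 4)) := by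
  have : Fact (Nat.Prime 2) := ⟨Nat.prime_two⟩
  have hsl : Nat.card (Matrix.SpecialLinearGroup (Fin 2) (ZMod 2)) = 6 := by
    rw [Nat.card_eq_fintype_card]; decide
  have hc : Nat.card ↥(Cfsg.qdOver (ZMod 2)) = Nat.card (Equiv.Perm (Fin 2 → ZMod 2)) := by
    rw [card_qd, hsl, Nat.card_perm, Nat.card_fun, Nat.card_eq_fintype_card, Nat.card_eq_fintype_card]
    rfl
  have hb : Function.Bijective (affine (F := ZMod 2)) :=
    (Nat.bijective_iff_injective_and_card _).2 ⟨affine_injective, hc⟩
  exact ⟨(MulEquiv.ofBijective _ hb).trans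
    (Fintype.equivFinOfCardEq (α := Fin 2 → ZMod 2) (n := 4) (by simp)).permCongrHom⟩

end Cfsg.Agent.S2761
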