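import Mathlib
import Cfsg.Statements.S2762
import Cfsg.Agent.Lib.LocalChar.QdField

set_option autoImplicit false

open scoped commutatorElement Pointwise

open Cfsg.Agent.Lib.LocalChar

namespace Cfsg.Agent.S2762

open Cfsg.Agent.Lib.LocalChar.QdField

/-- Structure of Qd over a finite field F of characteristic p (the affine subgroup of SL₃(F)): its largest normal p-subgroup is the group of translations (matrices with upper-left block the identity), the block-diagonal matrices form a complement isomorphic to SL₂(F), and the translation subgroup is a natural SL₂(F)-module for that complement. -/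
theorem result {F : Type*} [Field F] [Fintype F] {p : ℕ} [Fact p.Prime] [CharP F p] : (∀ M : ↥(Cfsg.qdOver F), M ∈ Cfsg.pCore p ↥(Cfsg.qdOver F) ↔ ((M : Matrix.SpecialLinearGroup (Fin 3) F) : Matrix (Fin 3) (Fin 3) F) 0 0 = 1 ∧ ((M : Matrix.SpecialLinearGroup (Fin 3) F) : Matrix (Fin 3) (Fin 3) F) 0 1 = 0 ∧ ((M : Matrix.SpecialLinearGroup (Fin 3) F) : Matrix (Fin 3) (Fin 3) F) 1 0 = 0 ∧ ((M : Matrix.SpecialLinearGroup (Fin 3) F) : Matrix (Fin 3) (Fin 3) F) 1 1 = 1) ∧ ∃ K : Subgroup ↥(Cfsg.qdOver F), (∀ M : ↥(Cfsg.qdOver F), M ∈ K ↔ ((M : Matrix.SpecialLinearGroup (Fin 3) F) : Matrix (Fin 3) (Fin 3) F) 0 2 = 0 ∧ ((M : Matrix.SpecialLinearGroup (Fin 3) F) : Matrix (Fin 3) (Fin 3) F) 1 2 = 0) ∧ K ⊓ Cfsg.pCore p ↥(Cfsg.qdOver F) = ⊥ ∧ K ⊔ Cfsg.pCore p ↥(Cfsg.qdOver F) = ⊤ ∧ Nonempty (↥K ≃* Matrix.SpecialLinearGroup (Fin 2) F) ∧ Cfsg.IsNaturalSL2Module F (Cfsg.pCore p ↥(Cfsg.qdOver F)) K := by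
  have hP := pCore_qd (F := F) (p := p)
  have hmem : ∀ M : ↥(Cfsg.qdOver F), M ∈ Cfsg.pCore p ↥(Cfsg.qdOver F) ↔
      ent M 0 0 = 1 ∧ ent M 0 1 = 0 ∧ ent M 1 0 = 0 ∧ ent M 1 1 = 1 := by
    intro M
    rw [hP, MonoidHom.mem_ker]
    constructor
    · intro h
      have e : ∀ i j : Fin 2, ((toSL M : Matrix.SpecialLinearGroup (Fin 2) F) : Matrix (Fin 2) (Fin 2) F) i j =
          (1 : Matrix (Fin 2) (Fin 2) F) i j := fun i j => by rw [h]; rfl
      exact ⟨(e 0 0).trans (by simp), (e 0 1).trans (by simp), (e 1 0).trans (by simp),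
        (e 1 1).trans (by simp)⟩
    · rintro ⟨a, b, c, d⟩
      apply Subtype.ext
      show !![ent M 0 0, ent M 0 1; ent M 1 0, ent M 1 1] = (1 : Matrix (Fin 2) (Fin 2) F)
      rw [a, b, c, d]
      exact (Matrix.one_fin_two).symm
  let emb : Matrix.SpecialLinearGroup (Fin 2) F →* ↥(Cfsg.qdOver F) :=
    { toFun := fun A => el A 0
      map_one' := el_one
      map_mul' := fun A B => by rw [el_mul, Matrix.mulVec_zero, add_zero] }
  have hK : ∀ M : ↥(Cfsg.qdOver F), M ∈ emb.range ↔ ent M 0 2 = 0 ∧ ent M 1 2 = 0 := by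
    intro M
    constructor
    · rintro ⟨A, rfl⟩
      exact ⟨rfl, rfl⟩
    · rintro ⟨h0, h1⟩
      refine ⟨toSL M, ?_⟩
      show el (toSL M) 0 = M
      conv_rhs => rw [eq_el M]
      congr 1
      funext i
      fin_cases i <;> simp [h0, h1]
  refine ⟨hmem, emb.range, hK, ?_, ?_, ?_, ?_⟩
  · rw [eq_bot_iff]
    rintro M ⟨⟨A, rfl⟩, hM⟩
    rw [hP] at hM
    obtain ⟨v, hv⟩ := mem_ker.1 hM
    obtain ⟨rfl, -⟩ := el_inj hv
    exact Subgroup.mem_bot.2 (map_one emb)
  · rw [eq_top_iff]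
    intro M _
    rw [hP, eq_el M, show el (toSL M) ![ent M 0 2, ent M 1 2] =
      el 1 ![ent M 0 2, ent M 1 2] * el (toSL M) 0 by
      rw [el_mul, one_mul, Matrix.mulVec_zero, zero_add]]
    exact mul_mem (Subgroup.mem_sup_right (mem_ker.2 ⟨_, rfl⟩)) (Subgroup.mem_sup_left ⟨toSL M, rfl⟩)
  · exact ⟨(emb.ofInjective fun A B h => (el_inj h).1).symm⟩
  · refine ⟨?_, toSL.comp emb.range.subtype, ?_, ?_, ?_, ?_⟩
    · rw [Subgroup.normalizer_eq_top_iff.2 (hP ▸ MonoidHom.normal_ker _)]; exact le_top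
    · exact
        { toFun := fun v => ![ent (Additive.toMul v).1 0 2, ent (Additive.toMul v).1 1 2]
          invFun := fun x => Additive.ofMul ⟨el 1 x, hP.ge (mem_ker.2 ⟨x, rfl⟩)⟩
          left_inv := fun v => by
            obtain ⟨w, hw⟩ := mem_ker.1 (hP.le (Additive.toMul v).2)
            refine Additive.toMul.injective (Subtype.ext ?_)
            show el 1 ![ent (Additive.toMul v).1 0 2, ent (Additive.toMul v).1 1 2] = (Additive.toMul v).1
            rw [hw]
            congr 1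
            funext i
            fin_cases i <;> rfl
          right_inv := fun x => by
            funext i
            fin_cases i <;> rfl
          map_add' := fun v w => by
            obtain ⟨a, ha⟩ := mem_ker.1 (hP.le (Additive.toMul v).2)
            obtain ⟨b, hb⟩ := mem_ker.1 (hP.le (Additive.toMul w).2)
            show ![ent ((Additive.toMul v).1 * (Additive.toMul w).1) 0 2,
              ent ((Additive.toMul v).1 * (Additive.toMul w).1) 1 2] = _
            rw [ha, hb, el_tr_mul]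
            funext i
            fin_cases i <;> rfl }
    · exact fun A => ⟨⟨el A 0, A, rfl⟩, toSL_el A 0⟩
    · ext ⟨M, A, rfl⟩
      rw [MonoidHom.mem_ker, Subgroup.mem_subgroupOf]
      show toSL (el A 0) = 1 ↔ el A 0 ∈ _
      rw [toSL_el]
      constructor
      · rintro rfl
        rw [el_one]; exact one_mem _
      · intro h
        apply Subtype.ext
        show (A : Matrix (Fin 2) (Fin 2) F) = 1
        have hcol : ∀ w, (A : Matrix (Fin 2) (Fin 2) F).mulVec w = w := fun w => by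
          have h2 := h (el 1 w) (hP.ge (mem_ker.2 ⟨w, rfl⟩))
          rw [el_mul, el_mul, Matrix.mulVec_zero, zero_add, add_zero] at h2
          exact (el_inj h2).2.symm
        apply Matrix.ext_of_mulVec_single
        intro i
        rw [Matrix.one_mulVec, hcol]
    · rintro ⟨k, A, rfl⟩ ⟨v, hv⟩
      obtain ⟨w, rfl⟩ := mem_ker.1 (hP.le hv)
      refine ⟨⟨el 1 ((A : Matrix (Fin 2) (Fin 2) F).mulVec w), hP.ge (mem_ker.2 ⟨_, rfl⟩)⟩,
        (el_conj A w 0).symm, ?_⟩
      show ![((A : Matrix (Fin 2) (Fin 2) F).mulVec w) 0, ((A : Matrix (Fin 2) (Fin 2) F).mulVec w) 1] =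
        ((toSL (el A 0) : Matrix.SpecialLinearGroup (Fin 2) F) : Matrix (Fin 2) (Fin 2) F).mulVec ![w 0, w 1]
      rw [toSL_el]
      have e : (![w 0, w 1] : Fin 2 → F) = w := by funext i; fin_cases i <;> rfl
      rw [e]
      funext i
      fin_cases i <;> rfl

end Cfsg.Agent.S2762
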