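import Mathlib
import Cfsg.Statements.S2763
import Cfsg.Agent.Lib.LocalChar.QdField

set_option autoImplicit false

open scoped commutatorElement Pointwise

open Cfsg.Agent.Lib.LocalChar

namespace Cfsg.Agent.S2763

open Cfsg.Agent.Lib.LocalChar.QdField
open Cfsg.Agent.Lib.Classical

variable {F : Type*} [Field F]

lemma upper_eq {A : Matrix.SpecialLinearGroup (Fin 2) F} (hA : A ∈ upperUSL F) :
    (A : Matrix (Fin 2) (Fin 2) F) = !![1, (A : Matrix (Fin 2) (Fin 2) F) 0 1; 0, 1] := by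
  obtain ⟨h0, h1, h2⟩ := mem_upperUSL.1 hA
  ext i j
  fin_cases i <;> fin_cases j <;> simp [h0, h1, h2]

/-- Upper unipotent block. -/
def up (a : F) : Matrix.SpecialLinearGroup (Fin 2) F := ⟨!![1, a; 0, 1], by simp [Matrix.det_fin_two]⟩

lemma up_mem (a : F) : up a ∈ upperUSL F := mem_upperUSL.2 ⟨rfl, rfl, rfl⟩

lemma up_mul (a b : F) : up a * up b = up (a + b) := by
  apply Subtype.ext
  show !![1, a; 0, 1] * !![1, b; 0, 1] = !![1, a + b; 0, 1]
  ext i j
  fin_cases i <;> fin_cases j <;> simp [Matrix.mul_apply, Fin.sum_univ_two, add_comm]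

lemma up_zero : (up 0 : Matrix.SpecialLinearGroup (Fin 2) F) = 1 := by
  apply Subtype.ext
  show !![1, 0; 0, 1] = (1 : Matrix (Fin 2) (Fin 2) F)
  exact Matrix.one_fin_two.symm

lemma eq_up {A : Matrix.SpecialLinearGroup (Fin 2) F} (hA : A ∈ upperUSL F) :
    A = up ((A : Matrix (Fin 2) (Fin 2) F) 0 1) := Subtype.ext (upper_eq hA)

/-- The graph-automorphism of the unipotent subgroup, on coordinates. -/
def swap (M : ↥(Cfsg.qdOver F)) : ↥(Cfsg.qdOver F) :=
  el (up (-(ent M 1 2))) ![ent M 0 1 * ent M 1 2 - ent M 0 2, -(ent M 0 1)]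

lemma swap_el (a x y : F) : swap (el (up a) ![x, y]) = el (up (-y)) ![a * y - x, -a] := rfl

lemma el_up_mul (a b : F) (v w : Fin 2 → F) :
    el (up a) v * el (up b) w = el (up (a + b)) ![w 0 + a * w 1 + v 0, w 1 + v 1] := by
  rw [el_mul, up_mul]
  congr 1
  show (!![1, a; 0, 1] : Matrix (Fin 2) (Fin 2) F).mulVec w + v = _
  funext i
  fin_cases i <;> simp [Matrix.vecHead, Matrix.vecTail]



theorem core {p : ℕ} [Fact p.Prime] [Fintype F] [CharP F p] (S : Sylow p ↥(Cfsg.qdOver F))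
    (T : Subgroup ↥(S : Subgroup ↥(Cfsg.qdOver F))) (hT : T ≠ ⊥) (hTc : T.Characteristic) :
    Subgroup.normalizer ((T.map (S : Subgroup ↥(Cfsg.qdOver F)).subtype : Subgroup ↥(Cfsg.qdOver F)) :
        Set ↥(Cfsg.qdOver F)) = Subgroup.normalizer ((S : Subgroup ↥(Cfsg.qdOver F)) : Set ↥(Cfsg.qdOver F)) ∧
      Subgroup.normalizer ((S : Subgroup ↥(Cfsg.qdOver F)) : Set ↥(Cfsg.qdOver F)) ≠ ⊤ := by
  let Q := ↥(Cfsg.qdOver F)
  set π := (toSL : ↥(Cfsg.qdOver F) →* Matrix.SpecialLinearGroup (Fin 2) F)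
  set U := upperUSL F
  set P := π.ker with hPdef
  obtain ⟨n, -, hq⟩ := exists_card_eq_pow (F := F) p
  have hUp : IsPGroup p U := IsPGroup.of_card (n := n) (by rw [card_upperUSL, hq])
  obtain ⟨U0, hU0⟩ := hUp.exists_le_sylow
  have hU : U = U0 := Subgroup.eq_of_le_of_card_ge hU0 (by rw [card_upperUSL, card_sylow_SL2 U0])
  have hPp : IsPGroup p P := isPGroup_ker
  have hPn : P.Normal := MonoidHom.normal_ker _
  -- the standard Sylow subgroup
  set R := U.comap π with hR
  have hRp : IsPGroup p R := hUp.comap_of_ker_isPGroup π hPp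
  have hRidx : ¬ p ∣ R.index := by
    rw [hR, Subgroup.index_comap_of_surjective _ toSL_surjective, hU]
    exact U0.not_dvd_index
  obtain ⟨g, hg⟩ := MulAction.exists_smul_eq Q (hRp.toSylow hRidx) S
  have hS : (S : Subgroup Q) = R.map (MulAut.conj g).toMonoidHom := by rw [← hg]; rfl
  have hPR : P ≤ R := fun x hx => by
    show π x ∈ U
    rw [show π x = 1 from hx]; exact one_mem _
  have hPS : P ≤ (S : Subgroup Q) := fun x hx => by
    rw [hS, Subgroup.mem_map_equiv, MulAut.conj_symm_apply]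
    exact hPR (by simpa using hPn.conj_mem x hx g⁻¹)
  set T' := T.map (S : Subgroup Q).subtype with hT'
  have hT'ne : T' ≠ ⊥ := by
    rw [hT', ne_eq, Subgroup.map_eq_bot_iff_of_injective _ (Subgroup.subtype_injective _)]
    exact hT
  have hT'p : IsPGroup p T' := (S.isPGroup'.to_subgroup T).map _
  set N := Subgroup.normalizer ((S : Subgroup Q) : Set Q) with hN
  have hNT : N ≤ Subgroup.normalizer (T' : Set Q) := by
    intro x hx
    have h1 := hTc.fixed ((S : Subgroup Q).normalizerMonoidHom ⟨x, hx⟩)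
    rw [Subgroup.mem_normalizer_iff]
    intro y
    constructor
    · rintro ⟨t, ht, rfl⟩
      rw [← h1, SetLike.mem_coe, Subgroup.mem_comap] at ht
      exact ⟨_, ht, rfl⟩
    · rintro ⟨t, ht, hty⟩
      have hyS : y ∈ (S : Subgroup Q) := (Subgroup.mem_normalizer_iff.1 hx y).2 (hty ▸ t.2)
      refine ⟨⟨y, hyS⟩, ?_, rfl⟩
      rw [SetLike.mem_coe, ← h1, Subgroup.mem_comap]
      have he : (S : Subgroup Q).normalizerMonoidHom ⟨x, hx⟩ ⟨y, hyS⟩ = t := Subtype.ext hty.symm
      show (S : Subgroup Q).normalizerMonoidHom ⟨x, hx⟩ ⟨y, hyS⟩ ∈ T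
      rw [he]; exact ht
  have hPN : P ≤ N := hPS.trans Subgroup.le_normalizer
  have hNmax : ∀ H : Subgroup Q, N ≤ H → H ≠ N → H = ⊤ := by
    intro H hNH hne
    obtain ⟨x, hxH, hxN⟩ := SetLike.exists_of_lt (lt_of_le_of_ne hNH (Ne.symm hne))
    set U1 : Subgroup _ := (S : Subgroup Q).map π
    have hcomap : U1.comap π = S := by
      rw [Subgroup.comap_map_eq, sup_eq_left.2 hPS]
    let U1s : Sylow p (Matrix.SpecialLinearGroup (Fin 2) F) := S.mapSurjective toSL_surjective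
    have hne2 : U1s ≠ π x • U1s := by
      intro h
      apply hxN
      have h2 : U1.map (MulAut.conj (π x)).toMonoidHom = U1 := (congrArg Sylow.toSubgroup h).symm
      have h3 : π x ∈ Subgroup.normalizer (U1 : Set (Matrix.SpecialLinearGroup (Fin 2) F)) :=
        Cfsg.Agent.Lib.LocalChar.mem_nz_of_cj_eq h2
      rw [hN, ← hcomap]
      exact Subgroup.le_normalizer_comap π h3
    have htop : (⊤ : Subgroup (Matrix.SpecialLinearGroup (Fin 2) F)) ≤ H.map π := by
      rw [← sylow_SL2_sup U1s (π x • U1s) hne2]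
      have hU1H : (U1s : Subgroup _) ≤ H.map π := Subgroup.map_mono (Subgroup.le_normalizer.trans hNH)
      refine sup_le hU1H ?_
      rintro _ ⟨u, hu, rfl⟩
      obtain ⟨h, hh, rfl⟩ := hU1H hu
      exact ⟨x * h * x⁻¹, mul_mem (mul_mem hxH hh) (inv_mem hxH), by simp⟩
    have h4 := Subgroup.comap_mono (f := π) htop
    rw [Subgroup.comap_top, Subgroup.comap_map_eq, sup_eq_left.2 (hPN.trans hNH)] at h4
    exact top_le_iff.1 h4
  have hNtop : N ≠ ⊤ := by
    intro h
    have hn : (S : Subgroup Q).Normal := Subgroup.normalizer_eq_top_iff.1 h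
    have h5 : ((S : Subgroup Q).map π).Normal := hn.map π toSL_surjective
    have h7 : (S : Subgroup Q).map π ≤ Cfsg.pCore p (Matrix.SpecialLinearGroup (Fin 2) F) :=
      Cfsg.Agent.Lib.LocalChar.le_pCore h5 (S.isPGroup'.map _)
    rw [pCore_SL2] at h7
    have h8 : π (g * el (up 1) 0 * g⁻¹) = 1 := by
      refine Subgroup.mem_bot.1 (h7 ⟨_, ?_, rfl⟩)
      rw [hS]
      exact ⟨_, (show π (el (up 1) 0) ∈ U by rw [toSL_el]; exact up_mem 1), rfl⟩
    rw [map_mul, map_mul, map_inv, mul_inv_eq_one, mul_eq_left, toSL_el] at h8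
    simpa [up] using congrArg (fun A : Matrix.SpecialLinearGroup (Fin 2) F =>
      (A : Matrix (Fin 2) (Fin 2) F) 0 1) h8
  refine ⟨?_, hNtop⟩
  by_contra hne
  have hTn : T'.Normal := Subgroup.normalizer_eq_top_iff.1 (hNmax _ hNT hne)
  have hTP : T' ≤ P := by
    rw [hPdef, ← pCore_qd (p := p)]
    exact Cfsg.Agent.Lib.LocalChar.le_pCore hTn hT'p
  have hPT : P ≤ T' := by
    obtain ⟨t, ht, ht1⟩ := (Subgroup.bot_or_exists_ne_one T').resolve_left hT'ne
    obtain ⟨a, rfl⟩ := mem_ker.1 (hTP ht)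
    intro x hx
    obtain ⟨b, rfl⟩ := mem_ker.1 hx
    refine invariant_eq_univ {v | el 1 v ∈ T'} (fun v hv w hw => ?_) (fun A v hv => ?_) ht
      (fun h => ht1 (by rw [h, el_one])) b
    · show el 1 (v - w) ∈ T'
      have : el (1 : Matrix.SpecialLinearGroup (Fin 2) F) (v - w) = el 1 v * (el 1 w)⁻¹ := by
        rw [eq_mul_inv_iff_mul_eq, el_tr_mul, sub_add_cancel]
      rw [this]; exact mul_mem hv (inv_mem hw)
    · show el 1 _ ∈ T'
      rw [← el_conj A v 0]
      exact hTn.conj_mem _ hv _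
  -- the automorphism of `R`
  have hRel : ∀ M : Q, M ∈ R → M = el (up (ent M 0 1)) ![ent M 0 2, ent M 1 2] := by
    intro M hM
    conv_lhs => rw [eq_el M]
    congr 1
    exact eq_up (show π M ∈ U from hM)
  have hswap : ∀ M : Q, swap M ∈ R := fun M => by
    show π (swap M) ∈ U
    rw [swap, toSL_el]; exact up_mem _
  have hinvol : ∀ M : Q, M ∈ R → swap (swap M) = M := by
    intro M hM
    rw [hRel M hM, swap_el, swap_el]
    congr 2
    all_goals first | ring1 | simp | (simp; ring1)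
  let θ : ↥R ≃* ↥R :=
    { toFun := fun M => ⟨swap M.1, hswap _⟩
      invFun := fun M => ⟨swap M.1, hswap _⟩
      left_inv := fun M => Subtype.ext (hinvol _ M.2)
      right_inv := fun M => Subtype.ext (hinvol _ M.2)
      map_mul' := fun M N => Subtype.ext (by
        show swap (M.1 * N.1) = swap M.1 * swap N.1
        rw [hRel M.1 M.2, hRel N.1 N.2, el_up_mul, swap_el, swap_el, swap_el, el_up_mul]
        congr 2
        all_goals (simp; try ring1)) }
  let e : ↥R ≃* ↥(S : Subgroup Q) :=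
    (R.equivMapOfInjective _ (MulAut.conj g).injective).trans (MulEquiv.subgroupCongr hS.symm)
  let φ : ↥(S : Subgroup Q) ≃* ↥(S : Subgroup Q) := e.symm.trans (θ.trans e)
  have hfix := hTc.fixed φ
  have he : ∀ r : ↥R, ((e r : ↥(S : Subgroup Q)) : Q) = g * r.1 * g⁻¹ := fun r => rfl
  let m : Q := el 1 ![0, 1]
  have hm : m ∈ R := hPR (mem_ker.2 ⟨_, rfl⟩)
  have h1 : e ⟨m, hm⟩ ∈ T := by
    have h : g * m * g⁻¹ ∈ T' := hPT (hPn.conj_mem m (mem_ker.2 ⟨_, rfl⟩) g)
    obtain ⟨s, hs, hse⟩ := h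
    have : s = e ⟨m, hm⟩ := Subtype.ext (hse.trans (he ⟨m, hm⟩).symm)
    exact this ▸ hs
  rw [← hfix, Subgroup.mem_comap] at h1
  have h2 : φ (e ⟨m, hm⟩) = e (θ ⟨m, hm⟩) := by simp [φ]
  have h3 : ((e (θ ⟨m, hm⟩) : ↥(S : Subgroup Q)) : Q) ∈ T' := ⟨_, h2 ▸ h1, rfl⟩
  have h4 := hTP h3
  rw [he, hPdef, MonoidHom.mem_ker, map_mul, map_mul, map_inv, mul_inv_eq_one, mul_eq_left] at h4
  replace h4 : π (swap m) = 1 := h4
  rw [swap, toSL_el] at h4
  simpa [up, m, el, ent] using congrArg (fun A : Matrix.SpecialLinearGroup (Fin 2) F =>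
    (A : Matrix (Fin 2) (Fin 2) F) 0 1) h4

/-- In the group Qd(p) (p prime; the natural semidirect product of an elementary abelian group of order p² by SL₂(p)), the normalizer of every nontrivial characteristic subgroup of a Sylow p-subgroup S equals the normalizer of S, which is a proper subgroup; in particular no such characteristic subgroup is normal. -/
theorem result {p : ℕ} [Fact p.Prime] (S : Sylow p ↥(Cfsg.qd p)) (T : Subgroup ↥(S : Subgroup ↥(Cfsg.qd p))) (hT : T ≠ ⊥) (hTc : T.Characteristic) : Subgroup.normalizer ((T.map (S : Subgroup ↥(Cfsg.qd p)).subtype : Subgroup ↥(Cfsg.qd p)) : Set ↥(Cfsg.qd p)) = Subgroup.normalizer ((S : Subgroup ↥(Cfsg.qd p)) : Set ↥(Cfsg.qd p)) ∧ Subgroup.normalizer ((S : Subgroup ↥(Cfsg.qd p)) : Set ↥(Cfsg.qd p)) ≠ ⊤ := by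
  exact core S T hT hTc

end Cfsg.Agent.S2763
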