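import Cfsg.Statements.S2772
import Cfsg.Agent.Lib.SimsThree.Dihedral
import Cfsg.Agent.Lib.Components.Local

set_option autoImplicit false
open Cfsg Subgroup
open Cfsg.Agent.Lib.SimsThree
open Cfsg.Agent.Lib.LocalChar (cj cj_cj cj_one card_cj cj_eq_of_mem_nz mem_nz_of_cj_eq)

namespace Cfsg.Agent.S2772

/-- Sims' Theorem in local form: let H be a finite non-abelian simple group and G a maximal subgroup of H with C_G(O₂(G)) ≤ O₂(G), such that N_H(S) is not contained in G for a Sylow 2-subgroup S of G and G/O₂(G) is dihedral of order 2q for a prime q. Then G is isomorphic to the symmetric group of degree 4 or to its direct product with a group of order 2. -/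
theorem result {H : Type*} [Group H] [Finite H] [IsSimpleGroup H] (hna : ¬ IsMulCommutative H) (G : Subgroup H) (hG : IsCoatom G) (hchar : Subgroup.centralizer (Cfsg.pCore 2 ↥G : Set ↥G) ≤ Cfsg.pCore 2 ↥G) (S : Sylow 2 ↥G) (hN : ¬ Subgroup.normalizer (((S : Subgroup ↥G).map G.subtype : Subgroup H) : Set H) ≤ G) (q : ℕ) (hq : q.Prime) (hD : Nonempty (↥G ⧸ Cfsg.pCore 2 ↥G ≃* DihedralGroup q)) : Nonempty (↥G ≃* Equiv.Perm (Fin 4)) ∨ Nonempty (↥G ≃* Equiv.Perm (Fin 4) × Multiplicative (ZMod 2)) := by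
  classical
  haveI : Fact (Nat.Prime 2) := ⟨Nat.prime_two⟩
  obtain ⟨e⟩ := hD
  obtain ⟨y, hy, hyG⟩ := SetLike.not_le_iff_exists.1 hN
  set X : Subgroup H := (S : Subgroup ↥G).map G.subtype with hX
  have hXG : X ≤ G := map_subtype_le _
  have hodd : ¬ 2 ∣ X.relIndex G := by
    rw [relIndex, subgroupOf, hX, comap_map_eq_self_of_injective G.subtype_injective]
    exact S.not_dvd_index
  have hG1 : Nat.card ↥G ≠ 1 := fun h1 => by
    have h2 : Nat.card (↥G ⧸ Cfsg.pCore 2 ↥G) ∣ Nat.card ↥G := card_quotient_dvd_card _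
    rw [Nat.card_congr e.toEquiv, DihedralGroup.nat_card, h1] at h2
    have := Nat.le_of_dvd one_pos h2
    have := hq.two_le
    omega
  have hNG : normalizer (G : Set H) = G := by
    refine le_antisymm (fun x hx => ?_) le_normalizer
    by_contra hxG
    have htop := hG.2 _ (lt_of_le_of_ne le_normalizer fun h1 => hxG (h1.symm ▸ hx))
    rcases (normalizer_eq_top_iff.1 htop).eq_bot_or_eq_top with h1 | h1
    · exact hG1 (card_eq_one.2 h1)
    · exact hG.1 h1
  set G' := cj y⁻¹ G with hG'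
  have hne : ¬ G' ≤ G := fun hle => by
    have h1 : G' = G := eq_of_le_of_card_ge hle (card_cj _ _).ge
    have h2 := mem_nz_of_cj_eq h1
    rw [hNG, inv_mem_iff] at h2
    exact hyG h2
  have nobot : ∀ K : Subgroup H, K ≤ X → G ≤ normalizer (K : Set H) → G' ≤ normalizer (K : Set H) → K = ⊥ := by
    intro K hK h1 h2
    have h3 : normalizer (K : Set H) = ⊤ :=
      hG.2 _ (lt_of_le_of_ne h1 fun h4 => hne (h4.symm ▸ h2))
    rcases (normalizer_eq_top_iff.1 h3).eq_bot_or_eq_top with h4 | h4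
    · exact h4
    · exact absurd (eq_top_iff.2 (h4 ▸ hK.trans hXG)) hG.1
  obtain ⟨hqo, h, k, z, m, g, d, hmk, hcard, -, hO2⟩ :=
    exists_setting (X := X) (S.2.map _) hXG hodd hq.two_le e (cj_eq_of_mem_nz hy) nobot
  have hk : 3 ≤ k := by
    by_contra hk
    have h4 : 2 ^ k ≤ 2 ^ 2 := Nat.pow_le_pow_right two_pos (by omega)
    set O := Cfsg.pCore 2 ↥G with hO
    haveI : O.Normal := Cfsg.pCore_normal 2 ↥G
    have hc : ∀ a b : ↥G, b ∈ O → a * b = b * a := by
      intro a b hb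
      have h6 : Nat.card ↥O ≤ 2 := by omega
      by_cases hb1 : b = 1
      · simp [hb1]
      have hcj : a * b * a⁻¹ ∈ O := (inferInstance : O.Normal).conj_mem b hb a
      have hb' : (⟨b, hb⟩ : ↥O) ≠ 1 := fun e1 => hb1 (congrArg Subtype.val e1)
      have hc' : (⟨_, hcj⟩ : ↥O) ≠ 1 := fun e1 => hb1 (by
        have := congrArg Subtype.val e1
        simpa using this)
      haveI : Nontrivial ↥O := nontrivial_of_ne _ _ hb'
      have h7 : Nat.card ↥O = 2 := le_antisymm h6 Finite.one_lt_card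
      obtain ⟨w, -, hw⟩ := (Nat.card_eq_two_iff' (1 : ↥O)).1 h7
      exact mul_inv_eq_iff_eq_mul.1 (congrArg Subtype.val ((hw _ hc').trans (hw _ hb').symm))
    have htop : O = ⊤ := top_le_iff.1 fun a _ => hchar (mem_centralizer_iff.2 fun b hb => (hc a b hb).symm)
    have h8 := O.card_eq_card_quotient_mul_card_subgroup
    rw [Nat.card_congr e.toEquiv, DihedralGroup.nat_card] at h8
    have h9 : Nat.card ↥O = Nat.card ↥G := by rw [htop, card_top]
    rw [h9] at h8
    have := Nat.le_of_dvd Nat.card_pos (Dvd.intro _ h8.symm)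
    have := hq.two_le
    have h10 : Nat.card ↥G ≤ 2 := by omega
    omega
  let f : ↥G ≃* ↥G' := G.equivMapOfInjective _ (MulAut.conj y⁻¹).injective
  have hR : Cfsg.oddCore ↥G' = ⊥ := by
    rw [Cfsg.oddCore, ← Cfsg.Agent.Lib.Hall.map_pPrimeCore_equiv 2 f,
      Cfsg.Agent.Lib.Components.charp_pPrimeCore hchar, Subgroup.map_bot]
  have fin : ∀ {T : Type} [Group T], (∃ (R : Subgroup ↥G') (_ : R.Normal), R = Cfsg.oddCore ↥G' ∧
      3 * Nat.card ↥R = q ∧ Nonempty (↥G' ⧸ R ≃* T)) → Nonempty (↥G ≃* T) := by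
    rintro T _ ⟨R, hRn, hRe, -, ⟨e'⟩⟩
    exact ⟨f.trans ((QuotientGroup.quotientBot.symm.trans
      (QuotientGroup.quotientMulEquivOfEq (hRe.trans hR).symm)).trans e')⟩
  have hcard' : Nat.card ↥G' = 2 ^ k * q := (card_cj _ _).trans hcard
  rcases g.bound d hmk with ⟨hk1, -⟩ | ⟨hk1, -⟩ | ⟨hk1, hm⟩ | ⟨hk1, hm⟩
  · omega
  · omega
  · exact Or.inl (fin (quotient_three g (hm ▸ d) hk1 hqo hcard'))
  · exact Or.inr (fin (quotient_four g (hm ▸ d) hk1 hqo hcard'))

end Cfsg.Agent.S2772
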