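import Mathlib
import Cfsg.Statements.S2779
import Cfsg.Agent.Lib.LocalChar.Natural

set_option autoImplicit false

open scoped commutatorElement Pointwise

open Cfsg.Agent.Lib.LocalChar

namespace Cfsg.Agent.S2779

/-- Let L act on the elementary abelian p-group V (inside a finite group, by conjugation, faithfully) as SL₂(F) on its natural module, F a field with p^n elements, and let S be a Sylow p-subgroup of L. Then [V, S, S] = 1; |V| = p^(2n) and |C_V(S)| = p^n; and for every nonidentity s ∈ S and every v ∈ V outside C_V(S): C_V(s) = C_V(S) = [V, S] = [V, s] = the subgroup generated by the commutators [v, t], t ∈ S. -/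
theorem result {G : Type*} [Group G] [Finite G] {p : ℕ} [Fact p.Prime] {F : Type*} [Field F] [Fintype F] (n : ℕ) (hF : Fintype.card F = p ^ n) (V L : Subgroup G) (hnat : Cfsg.IsNaturalSL2Module F V L) (hf : L ⊓ Subgroup.centralizer (V : Set G) = ⊥) (S : Sylow p ↥L) (T : Subgroup G) (hT : T = ((S : Subgroup ↥L).map L.subtype)) : ⁅⁅V, T⁆, T⁆ = ⊥ ∧ Nat.card V = p ^ (2 * n) ∧ Nat.card ↥(V ⊓ Subgroup.centralizer ((T : Subgroup G) : Set G)) = p ^ n ∧ ∀ s ∈ T, s ≠ 1 → (V ⊓ Subgroup.centralizer ({s} : Set G)) = (V ⊓ Subgroup.centralizer ((T : Subgroup G) : Set G)) ∧ ⁅V, T⁆ = (V ⊓ Subgroup.centralizer ((T : Subgroup G) : Set G)) ∧ ⁅V, Subgroup.zpowers s⁆ = (V ⊓ Subgroup.centralizer ((T : Subgroup G) : Set G)) ∧ ∀ v ∈ V, v ∉ Subgroup.centralizer (T : Set G) → Subgroup.closure {x : G | ∃ t ∈ T, x = v * t * v⁻¹ * t⁻¹} = (V ⊓ Subgroup.centralizer ((T : Subgroup G) : Set G)) := by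
  have := Cfsg.Agent.Lib.LocalChar.Natural.charP_of_card (p := p) hF
  obtain ⟨f⟩ := Cfsg.Agent.Lib.LocalChar.Natural.exists_frame hnat hf S hT
  set C := V ⊓ Subgroup.centralizer ((T : Subgroup G) : Set G) with hC
  have hne : ∀ {t : F} {s : G}, s ∈ T → s ≠ 1 → ∀ h : s ∈ L, f.uni t = ⟨s, h⟩ → t ≠ 0 := by
    intro t s _ hs h he h0
    exact hs (by rw [← show (f.uni t : G) = s from congrArg Subtype.val he, h0, f.uni_zero])
  have hline : ∀ {x : G}, x ∈ C → ∀ t : F, t ≠ 0 →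
      ∃ v ∈ V, v * (f.uni t : G) * v⁻¹ * (f.uni t : G)⁻¹ = x := by
    rintro x ⟨hxV, hx⟩ t ht
    obtain ⟨v, hv⟩ := f.exists_vec ![0, -((f.vec ⟨x, hxV⟩ 0) / t)]
    obtain ⟨w, hw, hwv⟩ := f.vec_comm t v
    have h1 := (f.mem_fix_iff ⟨x, hxV⟩).1 hx
    have h2 : f.vec w = f.vec ⟨x, hxV⟩ := by
      rw [hwv, hv]
      funext i
      fin_cases i
      · simp [mul_div_cancel₀ _ ht]
      · simp [h1]
    exact ⟨v, v.2, hw.symm.trans (congrArg Subtype.val (f.vec_inj h2))⟩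
  have hcomm : ∀ v ∈ V, ∀ s ∈ T, v * s * v⁻¹ * s⁻¹ ∈ C := by
    intro v hv s hs
    obtain ⟨t, ht⟩ := f.exists_uni hs
    obtain ⟨w, hw, hwv⟩ := f.vec_comm t ⟨v, hv⟩
    rw [ht] at hw
    rw [← show (w : G) = v * s * v⁻¹ * s⁻¹ from hw]
    exact ⟨w.2, (f.mem_fix_iff w).2 (by rw [hwv]; rfl)⟩
  have hVT : ⁅V, T⁆ ≤ C := Subgroup.commutator_le.2 fun v hv s hs => hcomm v hv s hs
  refine ⟨?_, by rw [f.card_V, hF, ← pow_mul, mul_comm], by rw [hC, f.card_fix, hF], fun s hs hs1 => ?_⟩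
  · rw [eq_bot_iff]
    refine (Subgroup.commutator_mono hVT le_rfl).trans (Subgroup.commutator_le.2 fun c hc t ht => ?_)
    rw [Subgroup.mem_bot, commutatorElement_eq_one_iff_mul_comm]
    exact (hc.2 t ht).symm
  obtain ⟨t, ht⟩ := f.exists_uni hs
  have ht0 : t ≠ 0 := hne hs hs1 _ ht
  have hts : (f.uni t : G) = s := congrArg Subtype.val ht
  have hVs : ⁅V, Subgroup.zpowers s⁆ = C := by
    refine le_antisymm ((Subgroup.commutator_mono le_rfl (Subgroup.zpowers_le.2 hs)).trans hVT) fun x hx => ?_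
    obtain ⟨v, hv, rfl⟩ := hline hx t ht0
    rw [hts]
    exact Subgroup.commutator_mem_commutator hv (Subgroup.mem_zpowers s)
  refine ⟨?_, le_antisymm hVT (hVs ▸ Subgroup.commutator_mono le_rfl (Subgroup.zpowers_le.2 hs)), hVs,
    fun v hv hvn => ?_⟩
  · refine le_antisymm ?_ (le_inf inf_le_left fun x hx y (hy : y = s) => hy ▸ hx.2 s hs)
    rintro x ⟨hxV, hx⟩
    refine ⟨hxV, (f.mem_fix_iff ⟨x, hxV⟩).2 (((f.commute_uni_iff t ⟨x, hxV⟩).1 ?_).resolve_left ht0)⟩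
    rw [hts]
    exact hx s rfl
  · refine le_antisymm ((Subgroup.closure_le _).2 ?_) fun x hx => Subgroup.subset_closure ?_
    · rintro _ ⟨a, ha, rfl⟩
      exact hcomm v hv a ha
    have hv1 : f.vec ⟨v, hv⟩ 1 ≠ 0 := fun h => hvn ((f.mem_fix_iff _).2 h)
    obtain ⟨hxV, hxc⟩ := hx
    obtain ⟨w, hw, hwv⟩ := f.vec_comm (-(f.vec ⟨x, hxV⟩ 0) / f.vec ⟨v, hv⟩ 1) ⟨v, hv⟩
    refine ⟨(f.uni (-(f.vec ⟨x, hxV⟩ 0) / f.vec ⟨v, hv⟩ 1) : G), f.uni_mem _, ?_⟩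
    refine Eq.trans ?_ hw
    refine congrArg Subtype.val (f.vec_inj ?_ : (⟨x, hxV⟩ : ↥V) = w)
    have h1 := (f.mem_fix_iff ⟨x, hxV⟩).1 hxc
    rw [hwv]
    funext i
    fin_cases i
    · simp [div_mul_cancel₀ _ hv1]
    · simp [h1]

end Cfsg.Agent.S2779
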