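import Mathlib
import Cfsg.Statements.S2780
import Cfsg.Agent.Lib.LocalChar.Natural

set_option autoImplicit false

open scoped commutatorElement Pointwise

open Cfsg.Agent.Lib.LocalChar

namespace Cfsg.Agent.S2780

open Cfsg.Agent.Lib.LocalChar.Natural

lemma vec_matrix {F : Type*} [Field F] (a b c d : F) (x : Fin 2 → F) :
    (!![a, b; c, d] : Matrix (Fin 2) (Fin 2) F).mulVec x = ![a * x 0 + b * x 1, c * x 0 + d * x 1] := by
  funext i
  fin_cases i <;> simp [Matrix.mulVec, dotProduct, Fin.sum_univ_two]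

/-- The torus element with entry `c`. -/
def torus {F : Type*} [Field F] {c : F} (hc : c ≠ 0) : Matrix.SpecialLinearGroup (Fin 2) F :=
  ⟨!![c, 0; 0, c⁻¹], by simp [Matrix.det_fin_two, mul_inv_cancel₀ hc]⟩

lemma coe_torus {F : Type*} [Field F] {c : F} (hc : c ≠ 0) :
    ((torus hc : Matrix.SpecialLinearGroup (Fin 2) F) : Matrix (Fin 2) (Fin 2) F) = !![c, 0; 0, c⁻¹] := rfl

lemma torus_mem_normalizer {G : Type*} [Group G] {F : Type*} [Field F] {V L T : Subgroup G}
    (f : Frame F V L T) {c : F} (hc : c ≠ 0) :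
    ((f.ρ.symm (torus hc) : ↥L) : G) ∈ L ⊓ Subgroup.normalizer (T : Set G) := by
  refine ⟨SetLike.coe_mem _, ?_⟩
  set l := f.ρ.symm (torus hc) with hl
  have key : ∀ (d : F) (hd : d ≠ 0) (s : G), s ∈ T →
      ((f.ρ.symm (torus hd) : ↥L) : G) * s * ((f.ρ.symm (torus hd) : ↥L) : G)⁻¹ ∈ T := by
    intro d hd s hs
    have h := (f.memT ⟨s, f.hTL hs⟩).1 hs
    rw [show ((f.ρ.symm (torus hd) : ↥L) : G) * s * ((f.ρ.symm (torus hd) : ↥L) : G)⁻¹ =
      ((f.ρ.symm (torus hd) * ⟨s, f.hTL hs⟩ * (f.ρ.symm (torus hd))⁻¹ : ↥L) : G) from rfl, f.memT,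
      map_mul, map_mul, map_inv, MulEquiv.apply_symm_apply]
    obtain ⟨h00, h11, h10⟩ := Cfsg.Agent.Lib.Classical.mem_upperUSL.1 h
    rw [Cfsg.Agent.Lib.Classical.mem_upperUSL]
    simp [coe_torus, Matrix.SpecialLinearGroup.coe_mul, Matrix.SpecialLinearGroup.coe_inv,
      Matrix.adjugate_fin_two, Matrix.mul_apply, Matrix.vecMul, dotProduct, Fin.sum_univ_two, h00, h11, h10, mul_inv_cancel₀ hd,
      inv_mul_cancel₀ hd]
  have hinv : f.ρ.symm (torus (inv_ne_zero hc)) = l⁻¹ := by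
    rw [hl, ← map_inv]
    congr 1
    apply eq_inv_of_mul_eq_one_left
    ext i j
    fin_cases i <;> fin_cases j <;>
      simp [coe_torus, Matrix.SpecialLinearGroup.coe_mul, Matrix.mul_apply, Fin.sum_univ_two, mul_inv_cancel₀ hc, inv_mul_cancel₀ hc]
  show (l : G) ∈ Subgroup.normalizer (T : Set G)
  rw [Subgroup.mem_normalizer_iff]
  intro s
  refine ⟨key c hc s, fun h => ?_⟩
  have h2 := key _ (inv_ne_zero hc) _ h
  rw [hinv] at h2
  simpa [mul_assoc] using h2


/-- Let L act on the elementary abelian p-group V (inside a finite group, faithfully) as SL₂(F) on its natural module, F a field with p^n elements, S a Sylow p-subgroup of L. Then: for every g ∈ L not normalizing S, V is the internal direct product of C_V(S) and C_V(gSg⁻¹); every nonidentity element of L of order prime to p acts on V without nonidentity fixed points; and C_V(S) and V/C_V(S) are irreducible for N_L(S): the only N_L(S)-invariant subgroups of C_V(S) are 1 and C_V(S),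 and the only N_L(S)-invariant subgroups between C_V(S) and V are those two. -/
theorem result {G : Type*} [Group G] [Finite G] {p : ℕ} [Fact p.Prime] {F : Type*} [Field F] [Fintype F] (n : ℕ) (hF : Fintype.card F = p ^ n) (V L : Subgroup G) (hnat : Cfsg.IsNaturalSL2Module F V L) (hf : L ⊓ Subgroup.centralizer (V : Set G) = ⊥) (S : Sylow p ↥L) (T : Subgroup G) (hT : T = ((S : Subgroup ↥L).map L.subtype)) : (∀ g ∈ L, g ∉ Subgroup.normalizer (T : Set G) → Cfsg.IsInternalDirectProduct (V ⊓ Subgroup.centralizer ((T : Subgroup G) : Set G)) (V ⊓ Subgroup.centralizer ((T.map (MulAut.conj g).toMonoidHom : Subgroup G) : Set G)) V) ∧ (∀ x ∈ L, x ≠ 1 → (orderOf x).Coprime p → (V ⊓ Subgroup.centralizer ({x} : Set G)) = ⊥) ∧ (∀ U : Subgroup G, U ≤ (V ⊓ Subgroup.centralizer ((T : Subgroup G) : Set G)) → L ⊓ Subgroup.normalizer (T : Set G) ≤ Subgroup.normalizer (U : Set G) → U = ⊥ ∨ U = (V ⊓ Subgroup.centralizer ((T : Subgroup G) : Set G))) ∧ (∀ U : Subgroup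 G, (V ⊓ Subgroup.centralizer ((T : Subgroup G) : Set G)) ≤ U → U ≤ V → L ⊓ Subgroup.normalizer (T : Set G) ≤ Subgroup.normalizer (U : Set G) → U = (V ⊓ Subgroup.centralizer ((T : Subgroup G) : Set G)) ∨ U = V) := by
  have := charP_of_card (p := p) hF
  obtain ⟨f⟩ := exists_frame hnat hf S hT
  set C := V ⊓ Subgroup.centralizer ((T : Subgroup G) : Set G) with hC
  have hmemC : ∀ v : ↥V, (v : G) ∈ C ↔ f.vec v 1 = 0 := fun v =>
    ⟨fun h => (f.mem_fix_iff v).1 h.2, fun h => ⟨v.2, (f.mem_fix_iff v).2 h⟩⟩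
  refine ⟨fun g hgL hgN => ?_, fun x hx hx1 hco => ?_, fun U hUC hN => ?_, fun U hCU hUV hN => ?_⟩
  · set A : Matrix (Fin 2) (Fin 2) F :=
      ((f.ρ ⟨g, hgL⟩ : Matrix.SpecialLinearGroup (Fin 2) F) : Matrix (Fin 2) (Fin 2) F) with hA
    have hc : A 1 0 ≠ 0 := by
      intro h0
      apply hgN
      rw [Subgroup.mem_normalizer_iff]
      intro s
      have hdet : A 0 0 * A 1 1 = 1 := by
        have := (f.ρ ⟨g, hgL⟩).2
        rw [Matrix.det_fin_two] at this
        replace this : A 0 0 * A 1 1 - A 0 1 * A 1 0 = 1 := this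
        rwa [h0, mul_zero, sub_zero] at this
      constructor <;> intro hs
      · rw [show g * s * g⁻¹ = ((⟨g, hgL⟩ * ⟨s, f.hTL hs⟩ * (⟨g, hgL⟩ : ↥L)⁻¹ : ↥L) : G) from rfl, f.memT,
          map_mul, map_mul, map_inv]
        obtain ⟨h00, h11, h10⟩ := Cfsg.Agent.Lib.Classical.mem_upperUSL.1 ((f.memT ⟨s, f.hTL hs⟩).1 hs)
        rw [Cfsg.Agent.Lib.Classical.mem_upperUSL]
        simp [Matrix.SpecialLinearGroup.coe_mul, Matrix.SpecialLinearGroup.coe_inv,
          Matrix.adjugate_fin_two, Matrix.mul_apply, Matrix.vecMul, dotProduct, Fin.sum_univ_two, h00, h11, h10, ← hA, h0,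
          mul_comm (A 1 1) (A 0 0), hdet]
      · have hsL : s ∈ L := by
          have h2 := L.mul_mem (L.mul_mem (L.inv_mem hgL) (f.hTL hs)) hgL
          simpa [mul_assoc] using h2
        rw [show g * s * g⁻¹ = ((⟨g, hgL⟩ * ⟨s, hsL⟩ * (⟨g, hgL⟩ : ↥L)⁻¹ : ↥L) : G) from rfl, f.memT,
          map_mul, map_mul, map_inv] at hs
        rw [show s = ((⟨s, hsL⟩ : ↥L) : G) from rfl, f.memT]
        set B := f.ρ ⟨s, hsL⟩ with hB
        obtain ⟨h00, h11, h10⟩ := Cfsg.Agent.Lib.Classical.mem_upperUSL.1 hs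
        simp [Matrix.SpecialLinearGroup.coe_mul, Matrix.SpecialLinearGroup.coe_inv,
          Matrix.adjugate_fin_two, Matrix.mul_apply, Matrix.vecMul, dotProduct, Fin.sum_univ_two, ← hA, h0] at h00 h11 h10
        rw [Cfsg.Agent.Lib.Classical.mem_upperUSL]
        have h11ne : A 1 1 ≠ 0 := fun h => by simp [h] at hdet
        have e10 : (B : Matrix (Fin 2) (Fin 2) F) 1 0 = 0 := by
          simpa [h11ne] using h10
        refine ⟨?_, ?_, e10⟩
        · linear_combination h00 - ((B : Matrix (Fin 2) (Fin 2) F) 0 0) * hdet - (A 0 1 * A 1 1) * e10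
        · linear_combination h11 - ((B : Matrix (Fin 2) (Fin 2) F) 1 1) * hdet + (A 0 1 * A 1 1) * e10
    set C' := V ⊓ Subgroup.centralizer ((T.map (MulAut.conj g).toMonoidHom : Subgroup G) : Set G)
    have hC' : ∀ v : ↥V, (v : G) ∈ C' ↔ ∃ w : ↥V, f.vec w 1 = 0 ∧ f.vec v = A.mulVec (f.vec w) := by
      intro v
      constructor
      · rintro ⟨-, hv⟩
        have hwV : g⁻¹ * v * g ∈ V :=
          (Subgroup.mem_normalizer_iff'.1 (f.hLV hgL) _).2 (by simp [mul_assoc, v.2])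
        refine ⟨⟨_, hwV⟩, (f.mem_fix_iff _).1 fun t ht => ?_, ?_⟩
        · have h := hv _ ⟨t, ht, rfl⟩
          simp only [MulEquiv.coe_toMonoidHom, MulAut.conj_apply] at h
          show t * (g⁻¹ * (v : G) * g) = g⁻¹ * (v : G) * g * t
          calc t * (g⁻¹ * (v : G) * g) = g⁻¹ * (g * t * g⁻¹ * v) * g := by group
            _ = g⁻¹ * (v * (g * t * g⁻¹)) * g := by rw [h]
            _ = g⁻¹ * (v : G) * g * t := by group
        · rw [hA, ← f.vec_conj ⟨g, hgL⟩ ⟨_, hwV⟩]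
          congr 1
          exact Subtype.ext (by simp [mul_assoc])
      · rintro ⟨w, hw, hvw⟩
        rw [hA, ← f.vec_conj] at hvw
        rw [f.vec_inj hvw]
        refine ⟨f.conj_mem _ _, ?_⟩
        rintro _ ⟨t, ht, rfl⟩
        have h := (f.mem_fix_iff w).2 hw t ht
        simp only [MulEquiv.coe_toMonoidHom, MulAut.conj_apply]
        calc g * t * g⁻¹ * (g * (w : G) * g⁻¹) = g * (t * w) * g⁻¹ := by group
          _ = g * (w * t) * g⁻¹ := by rw [h]
          _ = g * (w : G) * g⁻¹ * (g * t * g⁻¹) := by group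
    refine ⟨inf_le_left, inf_le_left, fun a ha b hb => ?_, ?_, ?_⟩
    · have e := congrArg Subtype.val (f.vec_inj (show f.vec (⟨a, ha.1⟩ * ⟨b, hb.1⟩) =
        f.vec (⟨b, hb.1⟩ * ⟨a, ha.1⟩) by rw [f.vec_mul, f.vec_mul, add_comm]))
      exact e
    · rw [eq_bot_iff]
      rintro x ⟨hx1, hx2⟩
      obtain ⟨w, hw, hvw⟩ := (hC' ⟨x, hx1.1⟩).1 hx2
      have h1 := (hmemC ⟨x, hx1.1⟩).1 hx1
      rw [hvw] at h1
      have hw0 : f.vec w 0 = 0 := by
        simpa [Matrix.mulVec, dotProduct, Fin.sum_univ_two, hw, hc] using h1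
      have hz : f.vec w = 0 := by funext i; fin_cases i <;> simp [hw0, hw]
      have h2 : f.vec ⟨x, hx1.1⟩ = f.vec 1 := by rw [hvw, hz, Matrix.mulVec_zero, f.vec_one]
      exact Subgroup.mem_bot.2 (congrArg Subtype.val (f.vec_inj h2))
    · refine le_antisymm (sup_le inf_le_left inf_le_left) fun x hx => ?_
      set u := f.vec ⟨x, hx⟩ with hu
      obtain ⟨w, hw⟩ := f.exists_vec ![u 1 / A 1 0, 0]
      obtain ⟨a, ha⟩ := f.exists_vec ![u 0 - A 0 0 * (u 1 / A 1 0), 0]
      obtain ⟨b, hb⟩ := f.exists_vec (A.mulVec (f.vec w))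
      have hx' : (⟨x, hx⟩ : ↥V) = a * b := f.vec_inj (by
        rw [f.vec_mul, ha, hb, hw, ← hu]
        funext i
        fin_cases i <;> simp [Matrix.mulVec, dotProduct, Fin.sum_univ_two, mul_div_cancel₀ _ hc])
      rw [show x = (a : G) * (b : G) from congrArg Subtype.val hx']
      exact Subgroup.mul_mem_sup ((hmemC a).2 (by simp [ha])) ((hC' b).2 ⟨w, by simp [hw], hb⟩)
  · rw [eq_bot_iff]
    rintro v ⟨hvV, hv⟩
    rw [Subgroup.mem_bot]
    by_contra hv1
    apply hx1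
    set A : Matrix (Fin 2) (Fin 2) F :=
      ((f.ρ ⟨x, hx⟩ : Matrix.SpecialLinearGroup (Fin 2) F) : Matrix (Fin 2) (Fin 2) F) with hA
    have hfix : A.mulVec (f.vec ⟨v, hvV⟩) = f.vec ⟨v, hvV⟩ :=
      (f.commute_iff ⟨x, hx⟩ ⟨v, hvV⟩).1 (hv x rfl)
    have hne : f.vec ⟨v, hvV⟩ ≠ 0 := by
      rw [← f.vec_one]
      exact fun h => hv1 (congrArg Subtype.val (f.vec_inj h))
    have hdet : A.det = 1 := (f.ρ ⟨x, hx⟩).2
    have h0 : (A - 1).det = 0 := by
      rw [← Matrix.exists_mulVec_eq_zero_iff]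
      exact ⟨_, hne, by rw [Matrix.sub_mulVec, Matrix.one_mulVec, hfix, sub_self]⟩
    rw [Matrix.det_fin_two] at hdet h0
    simp only [Matrix.sub_apply, Matrix.one_apply_eq, ne_eq, Fin.reduceEq, not_false_eq_true,
      Matrix.one_apply_ne, sub_zero] at h0
    have htr : A 0 0 + A 1 1 = 2 := by linear_combination hdet - h0
    have hsq : (A - 1) ^ 2 = 0 := by
      ext i j
      rw [pow_two, Matrix.mul_apply, Fin.sum_univ_two]
      fin_cases i <;> fin_cases j <;> simp
      · linear_combination -hdet + A 0 0 * htr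
      · linear_combination A 0 1 * htr
      · linear_combination A 1 0 * htr
      · linear_combination -hdet + A 1 1 * htr
    have hA1 : A ^ p = 1 := by
      rw [← sub_eq_zero, ← one_pow (M := Matrix (Fin 2) (Fin 2) F) p,
        ← sub_pow_char_of_commute (p := p) (h := Commute.one_right _)]
      exact pow_eq_zero_of_le (Fact.out : p.Prime).two_le hsq
    have hxp : (⟨x, hx⟩ : ↥L) ^ p = 1 := by
      apply f.ρ.injective
      rw [map_pow, map_one]
      exact Subtype.ext (by simpa [hA] using hA1)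
    have h1 : orderOf x ∣ p := orderOf_dvd_of_pow_eq_one (by simpa using congrArg Subtype.val hxp)
    exact orderOf_eq_one_iff.1 (Nat.eq_one_of_dvd_coprimes hco (dvd_refl _) h1)
  · refine or_iff_not_imp_left.2 fun hU => le_antisymm hUC fun x hx => ?_
    obtain ⟨u, huU, hu1⟩ := (Subgroup.bot_or_exists_ne_one U).resolve_left hU
    have huV := (hUC huU).1
    have hu0 := (hmemC ⟨u, huV⟩).1 (hUC huU)
    have hua : f.vec ⟨u, huV⟩ 0 ≠ 0 := by
      intro h
      refine hu1 (congrArg Subtype.val (f.vec_inj (?_ : f.vec ⟨u, huV⟩ = f.vec 1)))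
      rw [f.vec_one]; funext i; fin_cases i <;> simp [h, hu0]
    by_cases hx0 : f.vec ⟨x, hx.1⟩ 0 = 0
    · have : (⟨x, hx.1⟩ : ↥V) = 1 := f.vec_inj (by
        rw [f.vec_one]; funext i; fin_cases i <;> simp [hx0, (hmemC ⟨x, hx.1⟩).1 hx])
      rw [show x = 1 from congrArg Subtype.val this]
      exact one_mem U
    have hcne := div_ne_zero hx0 hua
    have hl := torus_mem_normalizer f hcne
    have h2 := (Subgroup.mem_normalizer_iff.1 (hN hl) u).1 huU
    have h3 : (⟨x, hx.1⟩ : ↥V) = ⟨_, f.conj_mem (f.ρ.symm (torus hcne)) ⟨u, huV⟩⟩ := by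
      apply f.vec_inj
      rw [f.vec_conj, MulEquiv.apply_symm_apply]
      show _ = (!![_, 0; 0, _] : Matrix (Fin 2) (Fin 2) F).mulVec _
      rw [vec_matrix]
      funext i
      fin_cases i
      · simp [div_mul_cancel₀ _ hua]
      · simp [hu0, (hmemC ⟨x, hx.1⟩).1 hx]
    rw [show x = _ from congrArg Subtype.val h3]
    exact h2
  · refine or_iff_not_imp_left.2 fun hU => le_antisymm hUV fun x hx => ?_
    obtain ⟨u, huU, huC⟩ := SetLike.exists_of_lt (lt_of_le_of_ne hCU (Ne.symm hU))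
    have hub : f.vec ⟨u, hUV huU⟩ 1 ≠ 0 := fun h => huC ((hmemC _).2 h)
    by_cases hx0 : f.vec ⟨x, hx⟩ 1 = 0
    · exact hCU ((hmemC ⟨x, hx⟩).2 hx0)
    have hcne := div_ne_zero hub hx0
    have hl := torus_mem_normalizer f hcne
    have h2 := (Subgroup.mem_normalizer_iff.1 (hN hl) u).1 huU
    set w : ↥V := ⟨_, f.conj_mem (f.ρ.symm (torus hcne)) ⟨u, hUV huU⟩⟩ with hw
    have h3 : (x : G) * (w : G)⁻¹ ∈ C := by
      refine (hmemC (⟨x, hx⟩ * w⁻¹)).2 ?_
      have e := f.vec_mul (⟨x, hx⟩ * w⁻¹) w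
      rw [inv_mul_cancel_right, hw, f.vec_conj, MulEquiv.apply_symm_apply] at e
      replace e : _ = _ + (!![_, 0; 0, _] : Matrix (Fin 2) (Fin 2) F).mulVec _ := e
      rw [vec_matrix] at e
      have e1 := congrFun e 1
      simp [inv_div, div_mul_cancel₀ _ hub] at e1
      exact e1
    have h4 := U.mul_mem (hCU h3) (show (w : G) ∈ U from h2)
    rwa [inv_mul_cancel_right] at h4

end Cfsg.Agent.S2780
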