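import Mathlib
import Cfsg.Statements.S2781
import Cfsg.Agent.Lib.LocalChar.Norm
import Cfsg.Agent.Lib.LocalChar.Core

set_option autoImplicit false

open scoped commutatorElement Pointwise

open Cfsg.Agent.Lib.LocalChar

namespace Cfsg.Agent.S2781

open Cfsg.Agent.Lib.LocalChar

/-- Let H act faithfully by conjugation on the elementary abelian p-subgroup V of a finite group, let O^p(H) be the subgroup of H generated by its elements of order prime to p, and T a Sylow p-subgroup of O^p(H). If V is generated by the H-conjugates of C_V(T) (V is the smallest H-invariant subgroup containing C_V(T)), then V = [V, O^p(H)]·C_V(O^p(H)). -/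
theorem result {G : Type*} [Group G] [Finite G] {p : ℕ} [Fact p.Prime] (V H : Subgroup G) (hV : Cfsg.IsElementaryAbelian p V) (hHV : H ≤ Subgroup.normalizer (V : Set G)) (hf : H ⊓ Subgroup.centralizer (V : Set G) = ⊥) (R : Subgroup G) (hR : R = (Cfsg.pResidual p ↥H).map H.subtype) (S : Sylow p ↥R) (T : Subgroup G) (hT : T = ((S : Subgroup ↥R).map R.subtype)) (hgen : ∀ W : Subgroup G, H ≤ Subgroup.normalizer (W : Set G) → (V ⊓ Subgroup.centralizer ((T : Subgroup G) : Set G)) ≤ W → V ≤ W) : ⁅V, R⁆ ⊔ (V ⊓ Subgroup.centralizer ((R : Subgroup G) : Set G)) = V := by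
  subst hT
  have hRH : R ≤ H := hR ▸ Subgroup.map_subtype_le _
  have hRV : R ≤ Subgroup.normalizer (V : Set G) := hRH.trans hHV
  have hHR : H ≤ Subgroup.normalizer (R : Set G) := by
    rw [hR]
    exact le_nz_resOf H
  refine le_antisymm (sup_le (commutator_le_left_of_nz hRV) inf_le_left) (hgen _ ?_ ?_)
  · exact le_nz_sup (le_nz_commutator hHV hHR) (le_nz_inf hHV (le_nz_centralizer hHR))
  · refine (fixed_le_centralizer_sup_commutator (p := p) hV.1 (fun v => ⟨1, Subtype.ext ?_⟩) hRV ?_).trans
      (le_of_eq (sup_comm _ _))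
    · simpa using hV.2 v v.2
    · rw [Subgroup.relIndex, Subgroup.subgroupOf,
        Subgroup.comap_map_eq_self_of_injective R.subtype_injective]
      exact S.not_dvd_index

end Cfsg.Agent.S2781
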