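import Mathlib
import Cfsg.Statements.S2791
import Cfsg.Agent.Lib.Fusion.Chain
import Cfsg.Agent.Lib.Fusion.Realized

set_option autoImplicit false

open scoped commutatorElement Pointwise

namespace Cfsg.Agent.S2791

/-- Let S be a Sylow p-subgroup of the finite group G and A an abelian subgroup of S that is strongly closed in S with respect to G. Then A controls strong fusion in G: for some Sylow p-subgroup T containing A, whenever a subset of T is conjugated into T by an element of G, the same elementwise conjugation is induced by an element of N_G(A). -/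
theorem result {G : Type*} [Group G] [Finite G] {p : ℕ} [Fact p.Prime] (S : Sylow p G) (A : Subgroup G) (hA : IsMulCommutative ↥A) (hsc : Cfsg.IsStronglyClosed A (S : Subgroup G)) : Cfsg.ControlsStrongFusion p A := by
  have hS : IsPGroup p ((S : Subgroup G)) := S.isPGroup'
  have hclosed : (groupFusionSystem (S : Subgroup G)).StronglyClosed A := by
    refine ⟨hsc.1, fun R hR φ hφ x => ?_⟩
    obtain ⟨-, hval, g, hg⟩ := hφ
    rw [hg x]
    exact hsc.2 _ (hR x.2) g (hg x ▸ hval x)
  have hnorm := Cfsg.Agent.Lib.Fusion.isNormal_of_abelian hS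
    (Cfsg.Agent.Lib.Fusion.groupFusionSystem_saturated S) hclosed
    (fun x hx y hy => congrArg Subtype.val (mul_comm' (⟨x, hx⟩ : ↥A) ⟨y, hy⟩))
  refine ⟨S, hsc.1, fun A0 hA0 => ⟨hA0, fun g hg => ?_⟩⟩
  set P : Subgroup G := Subgroup.closure A0
  have hPS : P ≤ (S : Subgroup G) := (Subgroup.closure_le _).2 hA0
  have hP' : P ≤ ((S : Subgroup G)).comap (MulAut.conj g).toMonoidHom := by
    refine (Subgroup.closure_le _).2 fun a ha => ?_
    exact hg ⟨a, ha, rfl⟩
  set φ : P →* G := (MulAut.conj g).toMonoidHom.comp P.subtype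
  have hφ : φ ∈ (groupFusionSystem (S : Subgroup G)).Hom P :=
    ⟨hPS, fun x => hP' x.2, g, fun x => rfl⟩
  obtain ⟨ψ, ⟨-, -, h, hh⟩, hψP, hψA⟩ := hnorm.2 P φ hφ
  refine ⟨h, ?_, fun a ha => ?_⟩
  · have hcard : A.map (MulAut.conj h).toMonoidHom = A := by
      conv_rhs => rw [← hψA]
      ext y
      constructor
      · rintro ⟨a, ha, rfl⟩
        exact ⟨⟨a, le_sup_right (a := P) ha⟩, ha, hh _⟩
      · rintro ⟨a, ha, rfl⟩
        exact ⟨a, ha, (hh a).symm⟩
    rw [Subgroup.mem_normalizer_iff]
    intro x
    constructor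
    · intro hx
      exact hcard ▸ ⟨x, hx, rfl⟩
    · intro hx
      rw [← hcard] at hx
      obtain ⟨y, hy, hyx⟩ := hx
      have : y = x := by simpa using hyx
      exact this ▸ hy
  · have h1 := hψP ⟨a, Subgroup.subset_closure ha⟩
    rw [hh] at h1
    exact h1.symm

end Cfsg.Agent.S2791
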