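import Cfsg.Statements.S2807
import Cfsg.Agent.Lib.FusionTransfer.GroupCor

set_option autoImplicit false
open Cfsg

namespace Cfsg.Agent.S2807

/-- Let S be a Sylow p-subgroup of the finite group G. If S ∩ G' ≠ S ∩ (N_G(S))' (derived subgroups), then the wreath product Z_p ≀ Z_p — realised as a Sylow p-subgroup of the symmetric group of degree p² — is a homomorphic image of S. -/
theorem result {G : Type*} [Group G] [Finite G] {p : ℕ} [Fact p.Prime] (S : Sylow p G) (h : (S : Subgroup G) ⊓ commutator G ≠ (S : Subgroup G) ⊓ ⁅Subgroup.normalizer ((S : Subgroup G) : Set G), Subgroup.normalizer ((S : Subgroup G) : Set G)⁆) : ∃ (P : Sylow p (Equiv.Perm (Fin (p ^ 2)))) (f : ↥(S : Subgroup G) →* ↥(P : Subgroup (Equiv.Perm (Fin (p ^ 2))))), Function.Surjective f := by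
  exact (Cfsg.Agent.Lib.FusionTransfer.group_yoshida S h).1

end Cfsg.Agent.S2807
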