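import Mathlib
import Cfsg.Statements.S2856
import Cfsg.Agent.Lib.LocalChar.AmalgamV

set_option autoImplicit false

open scoped commutatorElement Pointwise

open Cfsg.Agent.Lib.LocalChar

namespace Cfsg.Agent.S2856

/-- Let (M₁, M₂) be an amalgam pair in X satisfying the rank-two standing hypothesis (characteristic p, the normalizers in M₁ and in M₂ of a Sylow p-subgroup of M₁ ∩ M₂ equal and contained in M₁ ∩ M₂, and strongly p-embedded residues), λ a vertex of the coset graph, L_λ the subgroup of its stabilizer generated by the p-elements, Q_λ = O_p of the stabilizer, O^p(L_λ) the subgroup of L_λ generated by its elements of order prime to p, and V_λ^{(k)} the subgroup generated by the Z_μ over the vertices μ at distance at most k from λ (Z_μ being generated by the Ω₁(Z(S)), S a Sylow p-subgroup of the stabilizer of μ). If n ≥ 1 and V_λ^{(n)} ≤ Q_λ, then O^p(L_λ) does not centralize V_λ^{(n)}/[V_λ^{(n)}, Q_λ], that is, [V_λ^{(n)}, O^p(L_λ)] is not contained in [V_λ^{(n)}, Q_λ].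 -/
theorem result {X : Type*} [Group X] {p : ℕ} [Fact p.Prime] (M₁ M₂ : Subgroup X) (h : Cfsg.IsSpeAmalgamPair p M₁ M₂) (lam : Cfsg.CosetVertex M₁ M₂) (n : ℕ) (hn : 1 ≤ n) (V : Subgroup X) (hV : V = Cfsg.vertexVIter p M₁ M₂ n lam) (hVQ : V ≤ Cfsg.vertexQ p lam) : ¬ ⁅V, ((Cfsg.pResidual p ↥(Cfsg.pElementClosure p (MulAction.stabilizer X lam))).map (Cfsg.pElementClosure p (MulAction.stabilizer X lam)).subtype)⁆ ≤ ⁅V, Cfsg.vertexQ p lam⁆ := by
  subst hV
  intro hle
  obtain ⟨μ, hadj⟩ := Amalgam.exists_adj lam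
  refine Amalgam.not_normalized h hadj (m := n - 1) (by omega) hVQ ?_
  set V := Cfsg.vertexVIter p M₁ M₂ n lam
  set U := Cfsg.vertexVIter p M₁ M₂ (n - 1) μ with hU
  set Q := Cfsg.vertexQ p lam
  set Z := Cfsg.vertexZ p lam
  set D := ⁅V, Q⁆
  set R := Amalgam.vertexR p lam
  set G := MulAction.stabilizer X lam
  set E := Cfsg.edgeStabilizer lam μ
  have hUV : U ≤ V := Amalgam.vIter_mono_adj h.1.1.1 hadj (by omega)
  have hUn : MulAction.stabilizer X μ ≤ Subgroup.normalizer (U : Set X) := Amalgam.stab_le_nz_vIter h.1 _ μ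
  have hVn : G ≤ Subgroup.normalizer (V : Set X) := Amalgam.stab_le_nz_vIter h.1 _ lam
  have hQμ : Q ≤ MulAction.stabilizer X μ :=
    (Amalgam.vertexQ_le_kernel h.1 lam).trans (Amalgam.kernel_le_of_adj hadj)
  have hQU : Q ≤ Subgroup.normalizer (U : Set X) := hQμ.trans hUn
  have hQG : Q ≤ G := pCoreOf_le G
  have hGD : G ≤ Subgroup.normalizer (D : Set X) := le_nz_commutator hVn (le_nz_pCoreOf G)
  have hUD : U ≤ Subgroup.normalizer (D : Set X) := (hUV.trans (hVQ.trans hQG)).trans hGD
  -- `V` is generated by `Z`, `U` and `[V, Q]`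
  have hgen : V ≤ Z ⊔ U ⊔ D := by
    refine iSup_le fun ν => ?_
    rcases eq_or_ne lam ν.1 with e | e
    · rw [← e]; exact le_sup_left.trans le_sup_left
    obtain ⟨β, hβ, hlt⟩ := Amalgam.exists_step h.1.1.1 e
    have hν : (Amalgam.Γ M₁ M₂).dist lam ν.1 ≤ n := ν.2
    refine (Amalgam.vertexZ_le_vIter (n := n - 1) (δ := β) (by omega)).trans ?_
    obtain ⟨g, hg, rfl⟩ := Amalgam.transitive hadj hβ
    have h1 : Cfsg.vertexVIter p M₁ M₂ (n - 1) (g • μ) ≤ cj g U := by
      have h2 := cj_mono (g := g) (Amalgam.vIter_smul_le (p := p) h.1 g⁻¹ (n - 1) (g • μ))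
      rw [cj_cj, mul_inv_cancel, cj_one, inv_smul_smul] at h2
      exact h2
    refine h1.trans ?_
    replace hg : g ∈ R ⊔ E := (Amalgam.stab_eq_sup h hadj).ge hg
    obtain ⟨r, hr, e', he', rfl⟩ := (mem_sup_iff_of_nz'
      ((inf_le_left : E ≤ G).trans ((le_nz_pElementClosure G).trans (nz_le_nz_resOf _)))).1 hg
    rw [← cj_cj, cj_eq_of_mem_nz (hUn he'.2)]
    refine cj_le_iff.2 fun u hu => ?_
    have h3 : ⁅u, r⁆ ∈ D := hle (Subgroup.commutator_mem_commutator (hUV hu) hr)
    rw [show r * u * r⁻¹ = ⁅u, r⁆⁻¹ * u by rw [commutatorElement_def]; group]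
    exact mul_mem (Subgroup.mem_sup_right (inv_mem h3)) (Subgroup.mem_sup_left (Subgroup.mem_sup_right hu))
  -- `[V, Q] ≤ U`
  have hDU : D ≤ U := by
    haveI := Amalgam.finite_stab h.1 lam
    haveI : Finite ↥Q := Finite.of_injective (Subgroup.inclusion hQG) (Subgroup.inclusion_injective hQG)
    have hQp : IsPGroup p Q := isPGroup_pCoreOf G
    haveI : Group.IsNilpotent ↥Q := hQp.isNilpotent
    obtain ⟨m, hm⟩ := (Subgroup.isNilpotent_iff_lowerCentralSeries Q).1 inferInstance
    have key : ∀ k, D ≤ U ⊔ Q.lowerCentralSeries k ∧ Q ≤ Subgroup.normalizer (Q.lowerCentralSeries k : Set X) := by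
      intro k
      induction k with
      | zero =>
        exact ⟨(commutator_le_right_of_nz ((hVQ.trans hQG).trans (le_nz_pCoreOf G))).trans le_sup_right,
          Subgroup.le_normalizer⟩
      | succ k ih =>
        set γ := Q.lowerCentralSeries k
        set γ' := Q.lowerCentralSeries (k + 1)
        have hγ' : γ' = ⁅γ, Q⁆ := rfl
        have hnγ' : Q ≤ Subgroup.normalizer (γ' : Set X) := hγ' ▸ le_nz_commutator ih.2 Subgroup.le_normalizer
        refine ⟨?_, hnγ'⟩
        have hnM : Q ≤ Subgroup.normalizer ((U ⊔ γ' : Subgroup X) : Set X) := le_nz_sup hQU hnγ'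
        have hV2 : V ≤ (Z ⊔ U) ⊔ γ :=
          hgen.trans (sup_le le_sup_left (ih.1.trans (sup_le_sup_right le_sup_right γ)))
        have hγQ : ∀ j, Q.lowerCentralSeries j ≤ Q := fun j => by
          induction j with
          | zero => exact le_rfl
          | succ j ihj => exact (Subgroup.commutator_mono ihj le_rfl).trans (commutator_le_left_of_nz Subgroup.le_normalizer)
        refine (Subgroup.commutator_mono hV2 le_rfl).trans (commutator_le_of_generators
          (commutator_le_of_generators ((Amalgam.vertexZ_central_Q h.1 lam).le.trans bot_le)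
            ((commutator_le_left_of_nz hQU).trans le_sup_left) ?_)
          (hγ' ▸ le_sup_right) ?_)
        · exact sup_le ((Amalgam.vertexZ_le_Q h.1 lam).trans hnM) ((hUV.trans hVQ).trans hnM)
        · exact sup_le (sup_le ((Amalgam.vertexZ_le_Q h.1 lam).trans hnM) ((hUV.trans hVQ).trans hnM)) ((hγQ k).trans hnM)
    exact (key m).1.trans (by rw [hm, sup_bot_eq])
  refine le_nz_iff.2 fun r hr u hu => ?_
  have h1 : ⁅u, r⁆ ∈ U := hDU (hle (Subgroup.commutator_mem_commutator (hUV hu) hr))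
  rw [show r * u * r⁻¹ = ⁅u, r⁆⁻¹ * u by rw [commutatorElement_def]; group]
  exact mul_mem (inv_mem h1) hu

end Cfsg.Agent.S2856
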