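import Cfsg.Statements.S2941
import Mathlib
import Cfsg.Agent.Lib.LocalChar.YL
import Cfsg.Agent.Lib.LocalChar.Subnormal
-- import your own Cfsg.Agent.* helpers here

set_option autoImplicit false
open Cfsg Cfsg.Agent Cfsg.Agent.Lib.LocalChar
open scoped commutatorElement

namespace Cfsg.Agent.S2941

/-- Let G be a finite group of characteristic 2 type in which every 2-local subgroup is solvable and the centralizer of Ω₁(Z(S)) lies in N_G(S) for every Sylow 2-subgroup S, and let T be a nontrivial 2-subgroup and K a J(T)-component (J the Thompson subgroup generated by the elementary abelian 2-subgroups of largest order). If a subgroup Q is normalized by ⟨K, J(T)⟩ and normalizes J(T), then Q normalizes K. -/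
theorem result {G : Type*} [Group G] [Finite G] (hL : Cfsg.IsCharacteristicTwoType G) (hN : ∀ N : Subgroup G, Cfsg.IsTwoLocal N → Group.IsSolvable ↥N)
    (hZ : ∀ S : Sylow 2 G, Subgroup.centralizer (Cfsg.omegaCenterOf (S : Subgroup G) : Set G) ≤ Subgroup.normalizer ((S : Subgroup G) : Set G)) (T : Subgroup G) (hT : IsPGroup 2 ↥T) (hT1 : T ≠ ⊥) (K : Subgroup G) (hK : Cfsg.IsJComponent T K)
    (Q : Subgroup G) (hQ1 : K ⊔ Cfsg.thompsonSubgroupOf 2 T ≤ Subgroup.normalizer (Q : Set G)) (hQ2 : Q ≤ Subgroup.normalizer (Cfsg.thompsonSubgroupOf 2 T : Set G)) :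
    Q ≤ Subgroup.normalizer (K : Set G) := by
  obtain ⟨hgen, hKJ, -⟩ := hK
  set J := Cfsg.thompsonSubgroupOf 2 T
  have hJK : J ≤ Subgroup.normalizer (K : Set G) := by
    have h := right_le_nz_commutator K J
    rwa [hKJ] at h
  set R := J ⊓ Q
  set S := conjClosure K R with hS
  have hKS : K ≤ Subgroup.normalizer (S : Set G) := le_nz_conjClosure K R
  have hJR : J ≤ Subgroup.normalizer (R : Set G) :=
    le_nz_inf Subgroup.le_normalizer (le_sup_right.trans hQ1)
  have hJS : J ≤ Subgroup.normalizer (S : Set G) := le_nz_closure fun j hj x ⟨k, hk, r, hr, e⟩ => by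
    subst e
    refine Subgroup.subset_closure ⟨j * k * j⁻¹, conj_mem_of_nz (hJK hj) hk, j * r * j⁻¹,
      conj_mem_of_nz (hJR hj) hr, ?_⟩
    group
  have hKJS : K ⊔ J ≤ Subgroup.normalizer (S : Set G) := sup_le hKS hJS
  -- elements centralising `Q` modulo `S`
  let M : Subgroup G :=
    { carrier := {x | x ∈ K ⊔ J ∧ ∀ q ∈ Q, q * x * q⁻¹ * x⁻¹ ∈ S}
      one_mem' := ⟨Subgroup.one_mem _, fun q _ => by simp [S.one_mem]⟩
      mul_mem' := fun {x y} hx hy => ⟨Subgroup.mul_mem _ hx.1 hy.1, fun q hq => by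
        have := S.mul_mem (hx.2 q hq) (conj_mem_of_nz (hKJS hx.1) (hy.2 q hq))
        convert this using 1
        group⟩
      inv_mem' := fun {x} hx => ⟨Subgroup.inv_mem _ hx.1, fun q hq => by
        have := conj_mem_of_nz (hKJS (Subgroup.inv_mem _ hx.1)) (S.inv_mem (hx.2 q hq))
        convert this using 1
        group⟩ }
  have hJM : J ≤ M := fun j hj => ⟨Subgroup.mem_sup_right hj, fun q hq => le_conjClosure K R
    ⟨J.mul_mem (conj_mem_of_nz (hQ2 hq) hj) (J.inv_mem hj), by
      have := Q.mul_mem hq (conj_mem_of_nz ((le_sup_right.trans hQ1) hj) (Q.inv_mem hq))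
      simpa [mul_assoc] using this⟩⟩
  have hKM : K ≤ M := by
    rw [← hKJ, Subgroup.commutator_le]
    intro k hk j hj
    refine M.mul_mem ⟨?_, fun q hq => ?_⟩ (M.inv_mem (hJM hj))
    · exact Subgroup.mul_mem _ (Subgroup.mul_mem _ (Subgroup.mem_sup_left hk) (Subgroup.mem_sup_right hj))
        (Subgroup.inv_mem _ (Subgroup.mem_sup_left hk))
    have hq' : k⁻¹ * q * k ∈ Q := by
      simpa using conj_mem_of_nz ((le_sup_left.trans hQ1) (K.inv_mem hk)) hq
    have := conj_mem_of_nz (hKS hk) ((hJM hj).2 _ hq')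
    convert this using 1
    group
  have hRK : R ≤ Subgroup.normalizer (K : Set G) := inf_le_left.trans hJK
  have hSK : S ≤ Subgroup.normalizer (K : Set G) :=
    conjClosure_le hRK (Subgroup.le_normalizer.trans Subgroup.le_normalizer)
  have hJp : IsPGroup 2 ↥J := hT.to_le (Subgroup.map_subtype_le _)
  have hRQ : Q ≤ Subgroup.normalizer (R : Set G) := le_nz_inf hQ2 Subgroup.le_normalizer
  have hS2 : S ≤ Cfsg.pCoreOf 2 Q :=
    conjClosure_le (le_pCoreOf inf_le_right hRQ (hJp.to_le inf_le_left))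
      ((le_sup_left.trans hQ1).trans (nz_le_nz_pCoreOf Q))
  refine fun q hq => mem_nz_of_cj_le ?_
  conv_lhs => rw [← hgen]
  unfold cj
  rw [MonoidHom.map_closure, Subgroup.closure_le]
  rintro _ ⟨x, ⟨hx, hxo⟩, rfl⟩
  have hmem := (hKM hx).2 q hq
  set s := q * x * q⁻¹ * x⁻¹ with hs
  show q * x * q⁻¹ ∈ K
  have e : q * x * q⁻¹ = s * x := by rw [hs]; group
  rw [e]
  refine mem_of_mul_coprime (p := 2) (hSK hmem) (exists_pow_eq_one (isPGroup_pCoreOf Q) (hS2 hmem)) hx ?_
  rw [← e, orderOf_conj']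
  exact Nat.coprime_two_right.2 hxo

end Cfsg.Agent.S2941
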