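import Cfsg.Statements.S2947
import Mathlib
import Cfsg.Agent.Lib.LocalChar.Norm
import Cfsg.Agent.Lib.LocalP2.StronglyP
import Cfsg.Agent.Lib.Involution.StronglyEmbedded
-- import your own Cfsg.Agent.* helpers here

set_option autoImplicit false
open Cfsg Cfsg.Agent Cfsg.Agent.Lib.LocalChar

namespace Cfsg.Agent.S2947

/-- Let G be a finite group of characteristic 2 type in which every 2-local subgroup is solvable and the centralizer of Ω₁(Z(S)) lies in N_G(S) for every Sylow 2-subgroup S; suppose O₂(G) = 1, fix a Sylow 2-subgroup S and a 2-local subgroup M containing N_G(J(S)) (J the Thompson subgroup generated by the elementary abelian 2-subgroups of largest order). Then M is strongly embedded in G (a proper subgroup of even order whose intersection with each conjugate by an element outside M has odd order) if and only if no nontrivial 2-subgroup of M lies in a 2-local subgroup of G not contained in M. -/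
theorem result {G : Type*} [Group G] [Finite G] (hL : Cfsg.IsCharacteristicTwoType G) (hN : ∀ N : Subgroup G, Cfsg.IsTwoLocal N → Group.IsSolvable ↥N)
    (hZ : ∀ S : Sylow 2 G, Subgroup.centralizer (Cfsg.omegaCenterOf (S : Subgroup G) : Set G) ≤ Subgroup.normalizer ((S : Subgroup G) : Set G)) (hO : Cfsg.pCore 2 G = ⊥) (S : Sylow 2 G) (M : Subgroup G) (hM : Cfsg.IsTwoLocal M)
    (hMJ : Subgroup.normalizer (Cfsg.thompsonSubgroupOf 2 (S : Subgroup G) : Set G) ≤ M) :
    Cfsg.IsStronglyEmbedded M ↔ Cfsg.straddlingTwoSubgroups M = ∅ := by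
  obtain ⟨T₀, hT₀, hT₀ne, hMdef⟩ := hM
  have hT₀M : T₀ ≤ M := hMdef ▸ Subgroup.le_normalizer
  have hMtop : M ≠ ⊤ := fun h => by
    have hn : T₀.Normal := Subgroup.normalizer_eq_top_iff.1 (hMdef ▸ h)
    exact hT₀ne (le_bot_iff.1 (hO ▸ le_pCore hn hT₀))
  have hEven : Even (Nat.card M) :=
    even_iff_two_dvd.2 (Lib.LocalP2.dvd_card_of_pGroup_le hT₀ hT₀ne hT₀M)
  constructor
  · intro hSE
    have hse : ∀ g : G, g ∉ M → ¬ 2 ∣ Nat.card ↥(M ⊓ M.map (MulAut.conj g).toMonoidHom) :=
      fun g hg => (hSE.2.2 g hg).not_two_dvd_nat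
    rw [Set.eq_empty_iff_forall_notMem]
    rintro T ⟨hT, hTne, hTM, L, ⟨U, hU, hUne, rfl⟩, hTL, hLM⟩
    obtain ⟨z, hz, hz1, hzT⟩ := Lib.LocalChar.exists_fixed hU hT hTL hUne
    have hzM : z ∈ M := Lib.LocalP2.mem_of_common hse hT hTne hTM (fun t ht => mem_cj.2 (by
      rw [mul_assoc, (hzT t ht).eq, inv_mul_cancel_left]; exact hTM ht))
    have hUM : U ≤ M := by
      by_contra hne
      obtain ⟨u, hu, huD, hun⟩ := exists_mem_nz_of_lt hU
        (lt_of_le_of_ne (inf_le_left : U ⊓ M ≤ U) fun e => hne (e ▸ inf_le_right))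
      exact huD ⟨hu, Lib.LocalP2.normalizer_le_of_common hse (hU.to_le inf_le_left)
        (fun e => hz1 (Subgroup.mem_bot.1 (e ▸ ⟨hz, hzM⟩))) inf_le_right hun⟩
    exact hLM (Lib.LocalP2.normalizer_le_of_common hse hU hUne hUM)
  · intro hempty
    have hnorm : ∀ X : Subgroup G, IsPGroup 2 ↥X → X ≠ ⊥ → X ≤ M →
        Subgroup.normalizer (X : Set G) ≤ M := fun X hX hne hXM => by
      by_contra h
      exact (Set.eq_empty_iff_forall_notMem.1 hempty) X
        ⟨hX, hne, hXM, _, ⟨X, hX, hne, rfl⟩, Subgroup.le_normalizer, h⟩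
    refine ⟨hMtop, hEven, fun g hg => ?_⟩
    rw [← Nat.not_even_iff_odd, even_iff_two_dvd]
    intro hd
    haveI : Fact (Nat.Prime 2) := ⟨Nat.prime_two⟩
    obtain ⟨d, hd2⟩ := exists_prime_orderOf_dvd_card' 2 hd
    set D := Subgroup.zpowers (d : G)
    have hDp : IsPGroup 2 ↥D :=
      IsPGroup.of_card (n := 1) (by rw [Nat.card_zpowers, Subgroup.orderOf_coe, hd2, pow_one])
    have hDne : D ≠ ⊥ := fun e => by
      rw [Subgroup.zpowers_eq_bot] at e
      rw [← Subgroup.orderOf_coe, e, orderOf_one] at hd2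
      omega
    obtain ⟨P⟩ := (inferInstance : Nonempty (Sylow 2 ↥M))
    refine hg (Lib.Involution.mem_of_conj_le M P (fun X => X ≠ ⊥) (fun h h' e => h' (le_bot_iff.1 (e ▸ h)))
      (fun g X h e => h (by rwa [Subgroup.map_eq_bot_iff_of_injective _ (MulEquiv.injective _)] at e))
      (fun X hX hne => hnorm X (((P.isPGroup').map M.subtype).to_le hX) hne (hX.trans (Subgroup.map_subtype_le _)))
      (X := cj g⁻¹ D) (isPGroup_cj hDp) ?_ ?_ ?_)
    · exact cj_le_iff.2 fun x hx => by
        simpa [mul_assoc] using mem_cj.1 ((Subgroup.zpowers_le.2 d.2.2 : D ≤ cj g M) hx)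
    · exact fun e => hDne (by rwa [Subgroup.map_eq_bot_iff_of_injective _ (MulEquiv.injective _)] at e)
    · show cj g (cj g⁻¹ D) ≤ M
      rw [cj_cj, mul_inv_cancel, cj_eq_of_mem_nz (Subgroup.one_mem _)]
      exact Subgroup.zpowers_le.2 d.2.1

end Cfsg.Agent.S2947
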