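import Cfsg.Statements.S3084
import Mathlib
import Cfsg.Agent.Lib.LocalP2.HeisenbergRep
-- import your own Cfsg.Agent.* helpers here

set_option autoImplicit false
open Cfsg Cfsg.Agent.Lib.LocalP2.Heis
open scoped commutatorElement

namespace Cfsg.Agent.S3084

theorem eq_zero_of_ne : ∀ x y : ZMod 2, x ≠ y → y ≠ 0 → x = 0 := by decide

theorem zero_or_one : ∀ y : ZMod 2, y = 0 ∨ y = 1 := by decide

theorem eq_one_of_ne : ∀ y : ZMod 2, y ≠ 0 → y = 1 := by decide

theorem isCoatom_of_index_two {G : Type*} [Group G] [Finite G] {M : Subgroup G} (h : M.index = 2) : IsCoatom M := by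
  refine ⟨fun e => by rw [e, Subgroup.index_top] at h; omega, fun H hH => ?_⟩
  have h1 := Subgroup.relIndex_mul_index hH.le
  rw [h] at h1
  rcases (Nat.dvd_prime Nat.prime_two).1 ⟨_, (h1.symm.trans (mul_comm _ _))⟩ with h2 | h2
  · exact Subgroup.index_eq_one.1 h2
  · rw [h2] at h1
    exact absurd (Subgroup.relIndex_eq_one.1 (by omega)) hH.not_ge

/-- Let K be a group acting faithfully and linearly on a finite-dimensional vector space U of dimension 2n ≥ 2 over the field with two elements, preserving a quadratic form q whose polar bilinear form is non-degenerate and which vanishes on some n-dimensional subspace (a non-singular form of plus type). Then there is a finite group R with a normal extraspecial 2-subgroup Q of order 2^(2n+1), an isomorphism of R/Q with K, and a surjective homomorphism χ from Q onto (the additive group of) U with kernel the centre of Q, such that χ carries conjugation by any r in R to the action of the image of r in K, and an element a of Q squares to the identity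 exactly when q vanishes at χ(a). -/
theorem result {K : Type*} [Group K] {U : Type*} [AddCommGroup U] [Module (ZMod 2) U] [Module.Finite (ZMod 2) U] (n : ℕ) (hn1 : 1 ≤ n) (hn : Module.finrank (ZMod 2) U = 2 * n) (ρ : Representation (ZMod 2) K U) (hρ : Function.Injective ρ) (q : QuadraticForm (ZMod 2) U) (hq : ∀ (k : K) (u : U), q (ρ k u) = q u) (hnd : (QuadraticMap.polarBilin q).Nondegenerate) (hplus : ∃ W : Submodule (ZMod 2) U, Module.finrank (ZMod 2) ↥W = n ∧ ∀ w ∈ W, q w = 0) : ∃ (R : Type) (_ : Group R) (_ : Finite R) (Q : Subgroup R) (hN : Q.Normal) (e : R ⧸ Q ≃* K) (χ : ↥Q →* Multiplicative U), Cfsg.IsExtraspecial 2 ↥Q ∧ Nat.card ↥Q = 2 ^ (2 * n + 1) ∧ Function.Surjective χ ∧ χ.ker = Subgroup.center ↥Q ∧ (∀ (r : R) (a : ↥Q), χ ⟨r * a * r⁻¹, hN.conj_mem (a : R) a.2 r⟩ = Multiplicative.ofAdd (ρ (e (r : R ⧸ Q)) (Multiplicative.toAdd (χ a)))) ∧ ∀ a : ↥Q, a * a = 1 ↔ q (Multiplicative.toAdd (χ a)) = 0 := by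
  classical
  have : Fact (Nat.Prime 2) := ⟨Nat.prime_two⟩
  obtain ⟨W, hWn, hW0⟩ := hplus
  obtain ⟨W', hWW'⟩ := Submodule.exists_isCompl W
  have hW'n : Module.finrank (ZMod 2) W' = n := by
    have := Submodule.finrank_add_eq_of_isCompl hWW'
    omega
  let e1 : W ≃ₗ[ZMod 2] Half n := LinearEquiv.ofFinrankEq _ _ (by rw [hWn, Module.finrank_fin_fun])
  let e2 : W' ≃ₗ[ZMod 2] Half n := LinearEquiv.ofFinrankEq _ _ (by rw [hW'n, Module.finrank_fin_fun])
  let ce : Sp n ≃ₗ[ZMod 2] U :=
    (LinearEquiv.prodCongr e1.symm e2.symm).trans (Submodule.prodEquivOfIsCompl W W' hWW')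
  have hce1 : ∀ w, q (ce (w, 0)) = 0 := by
    intro w
    refine hW0 _ ?_
    simp [ce, Submodule.coe_prodEquivOfIsCompl']
  let q' : QuadraticForm (ZMod 2) (Sp n) := q.comp (ce : Sp n →ₗ[ZMod 2] U)
  let qt : QuadraticForm (ZMod 2) (Half n) := q'.comp (LinearMap.inr (ZMod 2) (Half n) (Half n))
  let Bf : Half n →ₗ[ZMod 2] Half n →ₗ[ZMod 2] ZMod 2 :=
    (QuadraticMap.polarBilin q').compl₁₂ (LinearMap.inl (ZMod 2) (Half n) (Half n)) (LinearMap.inr (ZMod 2) (Half n) (Half n))
  have hBinj : Function.Injective Bf := by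
    rw [injective_iff_map_eq_zero]
    intro w hw
    have h1 : ∀ x : U, QuadraticMap.polarBilin q (ce (w, 0)) x = 0 := by
      intro x
      obtain ⟨⟨a, b⟩, rfl⟩ := ce.surjective x
      rw [show ce (a, b) = ce (a, 0) + ce (0, b) by rw [← map_add]; simp, map_add]
      have h2 : QuadraticMap.polarBilin q (ce (w, 0)) (ce (a, 0)) = 0 := by
        show q (ce (w, 0) + ce (a, 0)) - q (ce (w, 0)) - q (ce (a, 0)) = 0
        rw [← map_add, show ((w, 0) : Sp n) + (a, 0) = (w + a, 0) by simp, hce1, hce1, hce1]; simp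
      rw [h2, zero_add]
      have h3 := LinearMap.congr_fun hw b
      simpa [Bf, q', QuadraticMap.polar, ← ce.map_add] using h3
    have := hnd.1 _ h1
    simpa using congrArg Prod.fst ((ce.map_eq_zero_iff).1 this)
  have hBsurj : Function.Surjective Bf :=
    (LinearMap.injective_iff_surjective_of_finrank_eq_finrank (by rw [Subspace.dual_finrank_eq])).1 hBinj
  let D : Data n :=
    { B := Bf
      C := QuadraticMap.toBilin qt (Pi.basisFun (ZMod 2) (Fin n))
      sepL := fun w hw => hBinj (by rw [map_zero]; exact LinearMap.ext hw)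
      sepR := fun t ht => by
        funext i
        obtain ⟨w, hw⟩ := hBsurj (LinearMap.proj i)
        have := LinearMap.congr_fun hw t
        rw [ht w] at this
        exact this.symm }
  have hβ : ∀ u : Sp n, D.β u u = q (ce u) := by
    intro u
    have h1 : q (ce u) = q (ce (u.1, 0)) + q (ce (0, u.2)) + QuadraticMap.polar q (ce (u.1, 0)) (ce (0, u.2)) := by
      rw [QuadraticMap.polar, ← ce.map_add]; simp
    have h2 : D.C u.2 u.2 = q (ce (0, u.2)) :=
      QuadraticMap.congr_fun (QuadraticMap.toQuadraticMap_toBilin qt (Pi.basisFun (ZMod 2) (Fin n))) u.2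
    rw [h1, hce1, zero_add, D.β_apply, h2, add_comm]
    congr 1
    simp [D, Bf, q', QuadraticMap.polar, ← ce.map_add]
  let ρe : K → U ≃ₗ[ZMod 2] U := fun k => LinearEquiv.ofLinearMap (ρ k) (ρ k⁻¹)
    (by rw [← Module.End.mul_eq_comp, ← map_mul, mul_inv_cancel, map_one]; rfl)
    (by rw [← Module.End.mul_eq_comp, ← map_mul, inv_mul_cancel, map_one]; rfl)
  let g : K → Sp n ≃ₗ[ZMod 2] Sp n := fun k => (ce.trans (ρe k)).trans ce.symm
  have hg : ∀ k u, ce (g k u) = ρ k (ce u) := fun k u => by simp [g, ρe]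
  have hgmul : ∀ k k', g (k * k') = (g k').trans (g k) := fun k k' => by
    refine LinearEquiv.ext fun u => ce.injective ?_
    simp [hg]
  have hginj : Function.Injective g := fun k k' h => hρ (LinearMap.ext fun x => by
    obtain ⟨u, rfl⟩ := ce.surjective x
    rw [← hg, ← hg, h])
  let G := (Module.End (ZMod 3) (Half n → ZMod 3))ˣ
  have : Finite (Module.End (ZMod 3) (Half n → ZMod 3)) := Finite.of_injective _ DFunLike.coe_injective
  let R : Subgroup G :=
    { carrier := {M | ∃ k, D.Realises (g k) M}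
      one_mem' := ⟨1, by
        have : g 1 = LinearEquiv.refl _ _ := LinearEquiv.ext fun u => ce.injective (by simp [hg])
        rw [this, ← D.X_zero]; exact D.realises_X 0 0⟩
      mul_mem' := fun {a b} ⟨k, hk⟩ ⟨k', hk'⟩ => ⟨k * k', by rw [hgmul]; exact hk.mul D hk'⟩
      inv_mem' := fun {a} ⟨k, hk⟩ => ⟨k⁻¹, by
        have : g k⁻¹ = (g k).symm := LinearEquiv.ext fun u => (g k).injective (by
          rw [LinearEquiv.apply_symm_apply]
          refine ce.injective ?_
          rw [hg, hg, ← Module.End.mul_apply, ← map_mul, mul_inv_cancel, map_one, Module.End.one_apply])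
        rw [this]; exact hk.inv D⟩ }
  choose κ hκ using fun r : R => r.2
  have hκu : ∀ (r : R) k, D.Realises (g k) (r : G) → κ r = k := fun r k h => hginj ((hκ r).unique D h)
  let π : R →* K := MonoidHom.mk' κ fun r r' => hκu _ _ (by rw [hgmul]; exact (hκ r).mul D (hκ r'))
  have hg1 : g 1 = LinearEquiv.refl _ _ := LinearEquiv.ext fun u => ce.injective (by simp [hg])
  have hπ : Function.Surjective π := by
    intro k
    obtain ⟨lam, hlam⟩ := exists_lam D (g k) fun u => by rw [hβ, hβ, hg, hq]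
    obtain ⟨M, hM⟩ := D.exists_intertwiner (g k) lam hlam
    have hr : D.Realises (g k) M := fun u => ⟨_, hM u 0⟩
    exact ⟨⟨M, k, hr⟩, hκu _ k hr⟩
  have hXR : ∀ u c, D.X u c ∈ R := fun u c => ⟨1, by rw [hg1]; exact D.realises_X u c⟩
  have hXker : ∀ u c, (⟨D.X u c, hXR u c⟩ : R) ∈ π.ker := fun u c =>
    hκu _ 1 (by rw [hg1]; exact D.realises_X u c)
  have hker : ∀ a : π.ker, ∃ uc : Sp n × ZMod 2, ((a : R) : G) = D.X uc.1 uc.2 := by
    rintro ⟨r, hr⟩
    have h := hκ r
    rw [show κ r = 1 from hr, hg1] at h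
    obtain ⟨u, c, h'⟩ := D.eq_X_of_realises h
    exact ⟨(u, c), h'⟩
  choose F hF using hker
  let mk : Sp n × ZMod 2 → π.ker := fun uc => ⟨⟨D.X uc.1 uc.2, hXR _ _⟩, hXker _ _⟩
  have hFmk : ∀ uc, F (mk uc) = uc := fun uc => by
    obtain ⟨h1, h2⟩ := D.X_injective (hF (mk uc))
    exact Prod.ext h1.symm h2.symm
  have hFinj : Function.Injective F := fun a b h => Subtype.ext (Subtype.ext (by rw [hF a, hF b, h]))
  have hFmul : ∀ a b, F (a * b) = ((F a).1 + (F b).1, (F a).2 + (F b).2 + D.β (F a).1 (F b).1) := by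
    intro a b
    have h := hF (a * b)
    rw [Subgroup.coe_mul, Subgroup.coe_mul, hF a, hF b, D.X_mul] at h
    exact (Prod.ext (D.X_injective h).1 (D.X_injective h).2).symm
  let χ : π.ker →* Multiplicative U :=
    MonoidHom.mk' (fun a => Multiplicative.ofAdd (ce (F a).1)) fun a b => by
      simp [hFmul]
  have hχ : ∀ a, Multiplicative.toAdd (χ a) = ce (F a).1 := fun a => rfl
  have hχker : ∀ a, a ∈ χ.ker ↔ (F a).1 = 0 := fun a => by
    rw [MonoidHom.mem_ker, ← ce.map_eq_zero_iff, ← hχ]; rfl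
  have hswap : ∀ a b : π.ker, a * b = mk (0, D.pol (F a).1 (F b).1) * (b * a) := fun a b =>
    Subtype.ext (Subtype.ext (by
      show ((a : R) : G) * ((b : R) : G) = D.X 0 _ * (((b : R) : G) * ((a : R) : G))
      rw [hF a, hF b]; exact D.X_swap _ _ _ _))
  have hF1 : F 1 = (0, 0) := by
    have h : F (mk (0, 0)) = (0, 0) := hFmk _
    rwa [show mk (0, 0) = 1 from Subtype.ext (Subtype.ext D.X_zero)] at h
  have hmk0 : ∀ c, mk (0, c) = 1 → c = 0 := fun c h => by
    have := congrArg F h
    rw [hFmk, hF1] at this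
    exact (Prod.ext_iff.1 this).2
  have hcenter : χ.ker = Subgroup.center π.ker := by
    ext a
    rw [hχker, Subgroup.mem_center_iff]
    constructor
    · intro h b
      rw [hswap b a, h]
      have : mk (0, D.pol (F b).1 0) = 1 := by
        simp only [Data.pol, map_zero, LinearMap.zero_apply, add_zero]
        exact Subtype.ext (Subtype.ext D.X_zero)
      rw [this, one_mul]
    · intro h
      refine D.pol_sep fun v => hmk0 _ ?_
      have h1 := hswap a (mk (v, 0))
      rw [hFmk, ← h (mk (v, 0))] at h1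
      exact mul_eq_right.1 h1.symm
  have hcardQ : Nat.card π.ker = 2 ^ (2 * n + 1) := by
    rw [Nat.card_eq_of_bijective F ⟨hFinj, fun uc => ⟨mk uc, hFmk uc⟩⟩]
    simp [pow_succ, two_mul, pow_add]
  have hp : IsPGroup 2 π.ker := IsPGroup.of_card hcardQ
  have hcomm : ∀ a b : π.ker, ⁅a, b⁆ = mk (0, D.pol (F a).1 (F b).1) := fun a b => by
    rw [commutatorElement_def, hswap a b]; group
  have hclear : ∀ z : π.ker, z ∈ χ.ker → ∃ a b : π.ker, z = ⁅a, b⁆ := by
    intro z hz
    rw [hχker] at hz
    obtain ⟨a, b, hab⟩ : ∃ a b, D.pol a b = (F z).2 := by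
      by_cases h0 : (F z).2 = 0
      · exact ⟨0, 0, by simp [Data.pol, h0]⟩
      · have hne : ((fun _ => 1, 0) : Sp n) ≠ 0 := fun h =>
          one_ne_zero (congrFun (congrArg Prod.fst h) (⟨0, hn1⟩ : Fin n))
        by_contra h
        push Not at h
        exact hne (D.pol_sep fun v => by
          have h1 := h (fun _ => 1, 0) v
          exact eq_zero_of_ne _ _ h1 h0)
    refine ⟨mk (a, 0), mk (b, 0), ?_⟩
    rw [hcomm, hFmk, hFmk, hab]
    exact hFinj (by rw [hFmk]; exact Prod.ext hz rfl)
  have hcommle : commutator π.ker ≤ χ.ker := by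
    rw [commutator_def, Subgroup.commutator_le]
    intro a _ b _
    rw [hcomm, hχker, hFmk]
  have hspecial : IsSpecial 2 π.ker := by
    refine ⟨hp, le_antisymm ?_ ?_, ?_⟩
    · rw [← hcenter]
      intro a ha
      rw [hχker]
      by_contra hne
      obtain ⟨f, hf⟩ : ∃ f : Sp n →ₗ[ZMod 2] ZMod 2, f (F a).1 ≠ 0 := by
        by_contra h
        push Not at h
        exact hne ((Module.forall_dual_apply_eq_zero_iff (ZMod 2) _).1 h)
      let φ : π.ker →* Multiplicative (ZMod 2) :=
        MonoidHom.mk' (fun a => Multiplicative.ofAdd (f (F a).1)) fun a b => by simp [hFmul]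
      have hφs : Function.Surjective φ := by
        intro x
        rcases zero_or_one (Multiplicative.toAdd x) with h | h
        · exact ⟨1, by rw [map_one]; exact (toAdd_eq_zero.1 h).symm⟩
        · refine ⟨a, ?_⟩
          show Multiplicative.ofAdd (f (F a).1) = x
          rw [eq_one_of_ne _ hf, ← h]
          rfl
      have hM : IsCoatom φ.ker := by
        refine isCoatom_of_index_two ?_
        rw [Subgroup.index_ker, MonoidHom.range_eq_top.2 hφs, Subgroup.card_top]
        simp
      exact hf (show f (F a).1 = 0 from Multiplicative.ofAdd.injective ((frattini_le_coatom hM) ha))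
    · rw [← hcenter]
      intro z hz
      rw [frattini, Order.radical]
      simp only [Subgroup.mem_iInf]
      intro M hM
      by_contra hzM
      have hsup : M ⊔ Subgroup.center π.ker = ⊤ := hM.2 _ (lt_of_le_not_ge le_sup_left fun h =>
        hzM (h (Subgroup.mem_sup_right (hcenter ▸ hz))))
      obtain ⟨a, b, rfl⟩ := hclear z hz
      obtain ⟨m, hm, c, hc, rfl⟩ := Subgroup.mem_sup_of_normal_right.1 (show a ∈ M ⊔ Subgroup.center π.ker from hsup ▸ Subgroup.mem_top a)
      obtain ⟨m', hm', c', hc', rfl⟩ := Subgroup.mem_sup_of_normal_right.1 (show b ∈ M ⊔ Subgroup.center π.ker from hsup ▸ Subgroup.mem_top b)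
      refine hzM ?_
      have e : ⁅m * c, m' * c'⁆ = ⁅m, m'⁆ := by
        rw [commutatorElement_def, commutatorElement_def]
        have h1 : ∀ x, c * x = x * c := fun x => ((Subgroup.mem_center_iff.1 hc) x).symm
        have h2 : ∀ x, c' * x = x * c' := fun x => ((Subgroup.mem_center_iff.1 hc') x).symm
        have e1 : m * c * (m' * c') * (m * c)⁻¹ * (m' * c')⁻¹ = m * (c * m' * c⁻¹) * (c * c' * c⁻¹) * (m⁻¹ * c'⁻¹) * m'⁻¹ := by
          have : m⁻¹ * c'⁻¹ = c'⁻¹ * m⁻¹ := by
            rw [← mul_inv_rev, ← mul_inv_rev, h2]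
          rw [mul_inv_rev, mul_inv_rev]
          group
        rw [e1, h1 m', h1 c', mul_inv_cancel_right, mul_inv_cancel_right, mul_assoc (m * m') c', ← mul_assoc c' m⁻¹,
          h2 m⁻¹, mul_assoc m⁻¹ c', mul_inv_cancel, mul_one]
      rw [e, commutatorElement_def]
      exact M.mul_mem (M.mul_mem (M.mul_mem hm hm') (M.inv_mem hm)) (M.inv_mem hm')
    · rw [← hcenter]
      refine le_antisymm hcommle fun z hz => ?_
      obtain ⟨a, b, rfl⟩ := hclear z hz
      exact Subgroup.commutator_mem_commutator trivial trivial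
  refine ⟨R, inferInstance, inferInstance, π.ker, inferInstance, QuotientGroup.quotientKerEquivOfSurjective π hπ, χ,
    ⟨hspecial, ?_⟩, hcardQ, ?_, hcenter, ?_, ?_⟩
  · rw [← hcenter]
    let f0 : χ.ker → ZMod 2 := fun a => (F a.1).2
    rw [Nat.card_eq_of_bijective f0 ⟨fun a b h => Subtype.ext (hFinj (Prod.ext
      (((hχker _).1 a.2).trans ((hχker _).1 b.2).symm) h)), fun c => ⟨⟨mk (0, c), by rw [hχker, hFmk]⟩, by
      simp [f0, hFmk]⟩⟩, Nat.card_zmod]
  · intro x
    refine ⟨mk (ce.symm (Multiplicative.toAdd x), 0), ?_⟩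
    apply Multiplicative.toAdd.injective
    rw [hχ, hFmk]; simp
  · intro r a
    apply Multiplicative.toAdd.injective
    rw [hχ, hχ]
    show ce (F _).1 = ρ (π r) (ce (F a).1)
    rw [← hg]
    congr 1
    obtain ⟨c, hc⟩ := (hκ r).conj D (F a).1 (F a).2
    rw [← hF a] at hc
    exact (D.X_injective ((hF _).symm.trans hc)).1
  · intro a
    rw [hχ, ← hβ, ← hFinj.eq_iff, hFmul, hF1, Prod.ext_iff]
    simp only [ZModModule.add_self, zero_add]
    simp

end Cfsg.Agent.S3084
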