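import Cfsg.Statements.S3085
import Mathlib
import Cfsg.Agent.Lib.PGroupFrattini
import Mathlib
-- import your own Cfsg.Agent.* helpers here

set_option autoImplicit false
open Cfsg Cfsg.Agent
open scoped commutatorElement

namespace Cfsg.Agent.S3085

/-- Let Q be an extraspecial 2-group of order 2^(2n+1) with n ≥ 3 that is of plus type (it contains an elementary abelian subgroup of order 2^(n+1)). Then the group of inner automorphisms of Q has no complement in the full automorphism group of Q: the extension of the inner automorphism group (elementary abelian of order 2^(2n)) by the outer automorphism group (the orthogonal group of plus type) does not split. -/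
theorem result {Q : Type*} [Group Q] [Finite Q] (n : ℕ) (hn : 3 ≤ n) (hQ : Cfsg.IsExtraspecial 2 Q) (hcard : Nat.card Q = 2 ^ (2 * n + 1)) (hplus : ∃ E : Subgroup Q, Cfsg.IsElementaryAbelian 2 E ∧ Nat.card ↥E = 2 ^ (n + 1)) (L : Subgroup (MulAut Q)) : ¬ (Cfsg.Inn Q).IsComplement' L := by
  classical
  obtain ⟨⟨hP, hΦ, hD⟩, hZ⟩ := hQ
  obtain ⟨z, hz1, hzuniq⟩ := (Nat.card_eq_two_iff' (1 : Subgroup.center Q)).mp hZ
  obtain ⟨z, hzc⟩ := z
  have hcen : ∀ x : Q, x ∈ Subgroup.center Q → x = 1 ∨ x = z := fun x hx =>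
    (em (x = 1)).imp id fun h => congrArg Subtype.val (hzuniq ⟨x, hx⟩ fun e => h (congrArg Subtype.val e))
  have hz : z ≠ 1 := fun h => hz1 (Subtype.ext h)
  have hzC : ∀ x : Q, x * z = z * x := Subgroup.mem_center_iff.1 hzc
  have hzz : z * z = 1 := by
    rcases hcen _ (mul_mem hzc hzc) with h | h
    · exact h
    · exact absurd (mul_eq_left.1 h) hz
  have hsq : ∀ x : Q, x * x ∈ Subgroup.center Q := fun x => by
    have := Lib.PGroupFrattini.pow_mem_frattini hP x
    rwa [hΦ, sq] at this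
  have hcm : ∀ x y : Q, ⁅x, y⁆ ∈ Subgroup.center Q := fun x y => by
    rw [← hD]; exact Subgroup.commutator_mem_commutator (Subgroup.mem_top x) (Subgroup.mem_top y)
  have hN : ∀ x y : Q, ¬ Commute x y → x * y = y * x * z := by
    intro x y h
    rcases hcen _ (hcm x y) with h1 | h1
    · exact absurd (commutatorElement_eq_one_iff_commute.1 h1) h
    · rw [hzC, ← h1, commutatorElement_def]; group
  have hN' : ∀ x y : Q, x * y = y * x * z → ¬ Commute x y := by
    intro x y h hc
    exact hz (mul_eq_left.1 (h.symm.trans hc.eq))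
  have hNN : ∀ x y w : Q, ¬ Commute x y → ¬ Commute x w → Commute x (y * w) := by
    intro x y w h1 h2
    show x * (y * w) = y * w * x
    calc x * (y * w) = y * x * z * w := by rw [← mul_assoc, hN x y h1]
      _ = y * (x * w) * z := by rw [mul_assoc (y * x) z w, ← hzC w]; group
      _ = y * w * x * (z * z) := by rw [hN x w h2]; group
      _ = y * w * x := by rw [hzz, mul_one]
  have hCN : ∀ x y w : Q, Commute x y → ¬ Commute x w → ¬ Commute x (y * w) := by
    intro x y w h1 h2 h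
    exact h2 (by simpa using h1.inv_right.mul_right h)
  have hNC : ∀ x y w : Q, ¬ Commute x y → Commute x w → ¬ Commute x (y * w) := by
    intro x y w h1 h2 h
    exact h1 (by simpa using h.mul_right h2.inv_right)
  -- transvection automorphisms
  have hφ : ∀ v : Q, v * v = z → ∃ φ : MulAut Q, (∀ x, Commute v x → φ x = x) ∧ (∀ x, ¬ Commute v x → φ x = x * v) := by
    intro v hv
    have hvi : ∀ x : Q, Commute v (x * v) ↔ Commute v x := fun x =>
      ⟨fun h => by_contra fun hn => hNC v x v hn (Commute.refl v) h, fun h => h.mul_right (Commute.refl v)⟩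
    have hvi' : ∀ x : Q, Commute v (x * v⁻¹) ↔ Commute v x := fun x =>
      ⟨fun h => by_contra fun hn => hNC v x v⁻¹ hn (Commute.refl v).inv_right h, fun h => h.mul_right (Commute.refl v).inv_right⟩
    refine ⟨
      { toFun := fun x => if Commute v x then x else x * v
        invFun := fun x => if Commute v x then x else x * v⁻¹
        left_inv := fun x => by by_cases h : Commute v x <;> simp [h, hvi]
        right_inv := fun x => by by_cases h : Commute v x <;> simp [h, hvi']
        map_mul' := fun x y => ?_ }, fun x h => if_pos h, fun x h => if_neg h⟩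
    by_cases hx : Commute v x <;> by_cases hy : Commute v y
    · simp [hx, hy, hx.mul_right hy]
    · simp [hx, hy, hCN v x y hx hy, mul_assoc]
    · rw [if_neg (hNC v x y hx hy), if_neg hx, if_pos hy, mul_assoc x y v, ← hy.eq, mul_assoc]
    · rw [if_pos (hNN v x y hx hy), if_neg hx, if_neg hy]
      calc x * y = x * y * (z * z) := by rw [hzz, mul_one]
        _ = x * y * (v * v * z) := by rw [hv]
        _ = x * (y * v * z) * v := by
            rw [mul_assoc v v z, hzC v]; group
        _ = x * (v * y) * v := by rw [hN v y hy]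
        _ = x * v * (y * v) := by group
  -- three commuting elements of order 4, with dual elements of E
  obtain ⟨E, hE, hEc⟩ := hplus
  have hEab : ∀ a ∈ E, ∀ b ∈ E, Commute a b := fun a ha b hb =>
    congrArg Subtype.val (hE.1.is_comm.comm (⟨a, ha⟩ : E) ⟨b, hb⟩)
  have hE2 : ∀ a ∈ E, a * a = 1 := fun a ha => by
    have := hE.2 a ha
    rwa [sq] at this
  have hhalf : ∀ (F : Subgroup Q) (f : Q), Nat.card F ≤ 2 * Nat.card (F ⊓ Subgroup.centralizer {f} : Subgroup Q) := by
    intro F f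
    have hidx : ((Subgroup.centralizer {f}).subgroupOf F).index ≤ 2 := by
      by_cases h : (Subgroup.centralizer {f}).subgroupOf F = ⊤
      · rw [h, Subgroup.index_top]; omega
      · obtain ⟨a, -, ha⟩ := SetLike.exists_of_lt (lt_top_iff_ne_top.2 h)
        rw [Subgroup.mem_subgroupOf, Subgroup.mem_centralizer_singleton_iff] at ha
        refine le_of_eq (Subgroup.index_eq_two_iff.2 ⟨a, fun b => ?_⟩)
        simp only [Subgroup.mem_subgroupOf, Subgroup.mem_centralizer_singleton_iff, Subgroup.coe_mul]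
        have ha' : ¬ Commute f (a : Q) := fun h => ha h.eq.symm
        by_cases hb : Commute f (b : Q)
        · exact Or.inr ⟨hb.eq.symm, fun h' => hCN f b a hb ha' h'.symm⟩
        · exact Or.inl ⟨(hNN f b a hb ha').eq.symm, fun h' => hb h'.symm⟩
    have h1 := Subgroup.card_mul_index ((Subgroup.centralizer {f}).subgroupOf F)
    rw [show (Subgroup.centralizer {f}).subgroupOf F = (F ⊓ Subgroup.centralizer {f}).subgroupOf F from
      (Subgroup.inf_subgroupOf_left _ _).symm,
      Nat.card_congr (Subgroup.subgroupOfEquivOfLe inf_le_left).toEquiv] at h1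
    rw [Subgroup.inf_subgroupOf_left] at h1
    rw [← h1, mul_comm 2]
    exact Nat.mul_le_mul_left _ hidx
  have hpick : ∀ F : Subgroup Q, 2 < Nat.card F → ∃ e ∈ F, ∃ f : Q, ¬ Commute e f := by
    intro F hF
    by_contra h
    push Not at h
    have := Subgroup.card_le_of_le (show F ≤ Subgroup.center Q from fun e he =>
      Subgroup.mem_center_iff.2 fun f => ((h e he f).eq).symm)
    omega
  have h16 : 16 ≤ Nat.card E := by
    rw [hEc]
    exact le_trans (by norm_num : 16 ≤ 2 ^ 4) (Nat.pow_le_pow_right two_pos (by omega))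
  obtain ⟨e1, he1, f1, h11⟩ := hpick E (by omega)
  set E2 := E ⊓ Subgroup.centralizer {f1} with hE2def
  have hE2c : 8 ≤ Nat.card E2 := by have := hhalf E f1; rw [← hE2def] at this; omega
  obtain ⟨e2, he2, f2', h22'⟩ := hpick E2 (by omega)
  have h21 : Commute e2 f1 := Subgroup.mem_centralizer_singleton_iff.1 he2.2
  obtain ⟨f2, h22, h12⟩ : ∃ f2, ¬ Commute e2 f2 ∧ Commute e1 f2 := by
    by_cases h : Commute e1 f2'
    · exact ⟨f2', h22', h⟩
    · exact ⟨f2' * f1, hNC _ _ _ h22' h21, hNN _ _ _ h h11⟩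
  set E3 := E2 ⊓ Subgroup.centralizer {f2} with hE3def
  have hE3c : 4 ≤ Nat.card E3 := by have := hhalf E2 f2; rw [← hE3def] at this; omega
  obtain ⟨e3, he3, f3', h33'⟩ := hpick E3 (by omega)
  have h31 : Commute e3 f1 := Subgroup.mem_centralizer_singleton_iff.1 he3.1.2
  have h32 : Commute e3 f2 := Subgroup.mem_centralizer_singleton_iff.1 he3.2
  obtain ⟨f3, h33, h13, h23⟩ : ∃ f3, ¬ Commute e3 f3 ∧ Commute e1 f3 ∧ Commute e2 f3 := by
    obtain ⟨g, hg3, hg1⟩ : ∃ g, ¬ Commute e3 g ∧ Commute e1 g := by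
      by_cases h : Commute e1 f3'
      · exact ⟨f3', h33', h⟩
      · exact ⟨f3' * f1, hNC _ _ _ h33' h31, hNN _ _ _ h h11⟩
    by_cases h : Commute e2 g
    · exact ⟨g, hg3, hg1, h⟩
    · exact ⟨g * f2, hNC _ _ _ hg3 h32, hg1.mul_right h12, hNN _ _ _ h h22⟩
  have he2E : e2 ∈ E := he2.1
  have he3E : e3 ∈ E := he3.1.1
  -- fix squares
  have hfix : ∀ e f : Q, e ∈ E → ¬ Commute e f → ∃ w, w * w = z ∧ ¬ Commute e w ∧
      ∀ e' ∈ E, Commute e' f → Commute e' w := by
    intro e f he hef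
    by_cases h : f * f = z
    · exact ⟨f, h, hef, fun _ _ h' => h'⟩
    · refine ⟨f * e, ?_, hNC _ _ _ hef (Commute.refl e), fun e' he' h' => h'.mul_right (hEab e' he' e he)⟩
      have hff : f * f = 1 := (hcen _ (hsq f)).resolve_right h
      calc f * e * (f * e) = f * (e * f) * e := by group
        _ = f * f * e * z * e := by rw [hN e f hef]; group
        _ = f * f * e * (z * e) := by group
        _ = (e * e) * z := by rw [← hzC e, hff]; group
        _ = z := by rw [hE2 e he, one_mul]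
  obtain ⟨v1, hv1, g11, gk1⟩ := hfix e1 f1 he1 h11
  obtain ⟨w2, hw2, j22, jk2⟩ := hfix e2 f2 he2E h22
  obtain ⟨w3, hw3, j33, jk3⟩ := hfix e3 f3 he3E h33
  have g21 : Commute e2 v1 := gk1 e2 he2E h21
  have g31 : Commute e3 v1 := gk1 e3 he3E h31
  have hmulz : ∀ w e : Q, e ∈ E → w * w = z → Commute e w → (w * e) * (w * e) = z := by
    intro w e he hw hc
    calc w * e * (w * e) = w * (e * w) * e := by group
      _ = (w * w) * (e * e) := by rw [hc.eq]; group
      _ = z := by rw [hw, hE2 e he, mul_one]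
  obtain ⟨v2, hv2, g22, g12, g32, c12⟩ : ∃ v2, v2 * v2 = z ∧ ¬ Commute e2 v2 ∧ Commute e1 v2 ∧ Commute e3 v2 ∧ Commute v1 v2 := by
    have a1 := jk2 e1 he1 h12
    have a3 := jk2 e3 he3E h32
    by_cases h : Commute v1 w2
    · exact ⟨w2, hw2, j22, a1, a3, h⟩
    · exact ⟨w2 * e1, hmulz w2 e1 he1 hw2 a1, hNC _ _ _ j22 (hEab e2 he2E e1 he1),
        a1.mul_right (Commute.refl e1), a3.mul_right (hEab e3 he3E e1 he1), hNN _ _ _ h fun h' => g11 h'.symm⟩
  obtain ⟨v3, hv3, g33, g13, g23, c13, c23⟩ : ∃ v3, v3 * v3 = z ∧ ¬ Commute e3 v3 ∧ Commute e1 v3 ∧ Commute e2 v3 ∧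
      Commute v1 v3 ∧ Commute v2 v3 := by
    have a1 := jk3 e1 he1 h13
    have a2 := jk3 e2 he2E h23
    obtain ⟨w, hw, b3, b1, b2, b⟩ : ∃ w, w * w = z ∧ ¬ Commute e3 w ∧ Commute e1 w ∧ Commute e2 w ∧ Commute v1 w := by
      by_cases h : Commute v1 w3
      · exact ⟨w3, hw3, j33, a1, a2, h⟩
      · exact ⟨w3 * e1, hmulz w3 e1 he1 hw3 a1, hNC _ _ _ j33 (hEab e3 he3E e1 he1),
          a1.mul_right (Commute.refl e1), a2.mul_right (hEab e2 he2E e1 he1), hNN _ _ _ h fun h' => g11 h'.symm⟩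
    by_cases h : Commute v2 w
    · exact ⟨w, hw, b3, b1, b2, b, h⟩
    · exact ⟨w * e2, hmulz w e2 he2E hw b2, hNC _ _ _ b3 (hEab e3 he3E e2 he2E),
        b1.mul_right (hEab e1 he1 e2 he2E), b2.mul_right (Commute.refl e2), b.mul_right g21.symm,
        hNN _ _ _ h fun h' => g22 h'.symm⟩
  set v4 := v1 * v2 * v3 with hv4def
  have hv4 : v4 * v4 = z := by
    have h12' : Commute v3 (v1 * v2) := (c13.symm).mul_right c23.symm
    calc v4 * v4 = v1 * v2 * (v3 * (v1 * v2)) * v3 := by rw [hv4def]; group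
      _ = v1 * v2 * (v1 * v2) * (v3 * v3) := by rw [h12'.eq]; group
      _ = v1 * (v2 * v1) * v2 * z := by rw [hv3]; group
      _ = (v1 * v1) * (v2 * v2) * z := by rw [← c12.eq]; group
      _ = z := by rw [hv1, hv2, hzz, one_mul]
  have c14 : Commute v1 v4 := ((Commute.refl v1).mul_right c12).mul_right c13
  have g24 : ¬ Commute e2 v4 := hNC _ _ _ (hCN _ _ _ g21 g22) g23
  intro hL
  -- the complement contains a commuting system of involutory lifts
  have hInn : (Cfsg.Inn Q).Normal := by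
    refine ⟨fun a ha b => ?_⟩
    obtain ⟨c, rfl⟩ := ha
    exact ⟨b c, MulEquiv.ext fun x => by simp [MulAut.mul_apply]⟩
  have hlift : ∀ φ : MulAut Q, ∃ a : Q, MulAut.conj a * φ ∈ L := by
    intro φ
    obtain ⟨⟨⟨_, b, rfl⟩, ⟨l, hl⟩⟩, hbl⟩ := hL.surjective φ
    refine ⟨b⁻¹, ?_⟩
    simp only at hbl
    rw [← hbl, map_inv, inv_mul_cancel_left]
    exact hl
  have hcommL : ∀ (a b : Q) (φ ψ : MulAut Q), MulAut.conj a * φ ∈ L → MulAut.conj b * ψ ∈ L →
      (φ * ψ)⁻¹ * (ψ * φ) ∈ Cfsg.Inn Q →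
      MulAut.conj a * φ * (MulAut.conj b * ψ) = MulAut.conj b * ψ * (MulAut.conj a * φ) := by
    intro a b φ ψ ha hb h
    set A := MulAut.conj a * φ
    set B := MulAut.conj b * ψ
    have hm : (A * B)⁻¹ * (B * A) ∈ Cfsg.Inn Q := by
      rw [← QuotientGroup.eq_one_iff (N := Cfsg.Inn Q)] at h ⊢
      have ea : ((MulAut.conj a : MulAut Q) : MulAut Q ⧸ Cfsg.Inn Q) = 1 := (QuotientGroup.eq_one_iff _).2 ⟨a, rfl⟩
      have eb : ((MulAut.conj b : MulAut Q) : MulAut Q ⧸ Cfsg.Inn Q) = 1 := (QuotientGroup.eq_one_iff _).2 ⟨b, rfl⟩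
      simpa [A, B, QuotientGroup.mk_mul, QuotientGroup.mk_inv, ea, eb] using h
    have hmL : (A * B)⁻¹ * (B * A) ∈ L := L.mul_mem (L.inv_mem (L.mul_mem ha hb)) (L.mul_mem hb ha)
    exact inv_mul_eq_one.1 (Subgroup.mem_bot.1 (hL.disjoint.le_bot ⟨hm, hmL⟩))
  have hsqL : ∀ (a : Q) (φ : MulAut Q), MulAut.conj a * φ ∈ L → φ * φ ∈ Cfsg.Inn Q →
      MulAut.conj a * φ * (MulAut.conj a * φ) = 1 := by
    intro a φ ha h
    have hm : MulAut.conj a * φ * (MulAut.conj a * φ) ∈ Cfsg.Inn Q := by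
      rw [← QuotientGroup.eq_one_iff (N := Cfsg.Inn Q)] at h ⊢
      have ea : ((MulAut.conj a : MulAut Q) : MulAut Q ⧸ Cfsg.Inn Q) = 1 := (QuotientGroup.eq_one_iff _).2 ⟨a, rfl⟩
      simpa [QuotientGroup.mk_mul, ea] using h
    exact Subgroup.mem_bot.1 (hL.disjoint.le_bot ⟨hm, L.mul_mem ha ha⟩)
  have hconjC : ∀ a y : Q, Commute a y → MulAut.conj a y = y := fun a y h => by
    rw [MulAut.conj_apply, h.eq, mul_inv_cancel_right]
  have hconjN : ∀ a y : Q, ¬ Commute a y → MulAut.conj a y = y * z := fun a y h => by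
    rw [MulAut.conj_apply, hN a y h, mul_assoc (y * a), ← hzC a⁻¹]
    group
  obtain ⟨φ, hφC, hφN⟩ := hφ v1 hv1
  have hφsq : φ * φ ∈ Cfsg.Inn Q := by
    refine ⟨v1, MulEquiv.ext fun x => ?_⟩
    rw [MulAut.mul_apply]
    by_cases h : Commute v1 x
    · rw [hφC x h, hφC x h, hconjC _ _ h]
    · rw [hφN x h, hφN _ (hNC _ _ _ h (Commute.refl v1)), hconjN _ _ h, mul_assoc, hv1]
  obtain ⟨a, ha⟩ := hlift φ
  have key : ∀ w e : Q, w * w = z → Commute v1 w → ¬ Commute w e → Commute v1 e → Commute a w := by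
    intro w e hw hvw hwe hve
    obtain ⟨ψ, hψC, hψN⟩ := hφ w hw
    have hcomm : φ * ψ = ψ * φ := by
      refine MulEquiv.ext fun x => ?_
      rw [MulAut.mul_apply, MulAut.mul_apply]
      by_cases h1 : Commute v1 x <;> by_cases h2 : Commute w x
      · rw [hψC x h2, hφC x h1, hψC x h2]
      · rw [hψN x h2, hφC x h1, hψN x h2, hφC _ (h1.mul_right hvw)]
      · rw [hψC x h2, hφN x h1, hψC _ (h2.mul_right hvw.symm)]
      · rw [hψN x h2, hφN x h1, hφN _ (hNC _ _ _ h1 hvw), hψN _ (hNC _ _ _ h2 hvw.symm), mul_assoc,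
          mul_assoc, hvw.eq]
    obtain ⟨b, hb⟩ := hlift ψ
    have h := DFunLike.congr_fun (hcommL a b φ ψ ha hb (by rw [hcomm, inv_mul_cancel]; exact one_mem _)) e
    simp only [MulAut.mul_apply] at h
    rw [hψN e hwe, hφC e hve] at h
    by_contra haw
    have hφew : φ (e * w) = e * w := hφC _ (hve.mul_right hvw)
    have hψew : ψ (e * w) = e * w * w := by rw [map_mul, hψN e hwe, hψC w (Commute.refl w)]
    by_cases hae : Commute a e
    · have haew : ¬ Commute a (e * w) := hCN _ _ _ hae haw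
      rw [hconjC a e hae, hψN e hwe] at h
      by_cases hbew : Commute b (e * w)
      · rw [hconjC b _ hbew, hφew, hconjN a _ haew] at h
        exact hz (mul_eq_left.1 h)
      · rw [hconjN b _ hbew, map_mul, hφew, hφC z (Subgroup.mem_center_iff.1 hzc v1), map_mul, hconjN a _ haew,
          hconjC a z (Subgroup.mem_center_iff.1 hzc a)] at h
        exact hz (mul_eq_left.1 h)
    · have haew : Commute a (e * w) := hNN _ _ _ hae haw
      rw [hconjN a e hae, map_mul ψ, hψN e hwe, hψC z (Subgroup.mem_center_iff.1 hzc w)] at h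
      by_cases hbew : Commute b (e * w)
      · rw [hconjC b _ hbew, hφew, hconjC a _ haew, map_mul, hconjC b _ hbew, hconjC b z (Subgroup.mem_center_iff.1 hzc b)] at h
        exact hz (mul_eq_left.1 h.symm)
      · rw [hconjN b _ hbew, map_mul φ, hφew, hφC z (Subgroup.mem_center_iff.1 hzc v1), map_mul, hconjC a _ haew,
          hconjC a z (Subgroup.mem_center_iff.1 hzc a), map_mul, hconjN b _ hbew,
          hconjC b z (Subgroup.mem_center_iff.1 hzc b)] at h
        exact hz (mul_eq_left.1 h.symm)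
  have hav1 : ¬ Commute a v1 := by
    intro hav
    have h := DFunLike.congr_fun (hsqL a φ ha hφsq) e1
    have hve : ¬ Commute v1 e1 := fun h' => g11 h'.symm
    have hfev : φ (e1 * v1) = e1 * z := by rw [map_mul, hφN e1 hve, hφC v1 (Commute.refl v1), mul_assoc, hv1]
    simp only [MulAut.mul_apply, MulAut.one_apply] at h
    rw [hφN e1 hve] at h
    by_cases hae : Commute a e1
    · rw [hconjC a _ (hae.mul_right hav), hfev, hconjC a _ (hae.mul_right (Subgroup.mem_center_iff.1 hzc a))] at h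
      exact hz (mul_eq_left.1 h)
    · rw [hconjN a _ (hNC _ _ _ hae hav), map_mul φ, hfev, hφC z (Subgroup.mem_center_iff.1 hzc v1), mul_assoc, hzz,
        mul_one, hconjN a _ hae] at h
      exact hz (mul_eq_left.1 h)
  have ha2 : Commute a v2 := key v2 e2 hv2 c12 (fun h => g22 h.symm) g21.symm
  have ha3 : Commute a v3 := key v3 e3 hv3 c13 (fun h => g33 h.symm) g31.symm
  have ha4 : Commute a v4 := key v4 e2 hv4 c14 (fun h => g24 h.symm) g21.symm
  exact hNC _ _ _ (hNC _ _ _ hav1 ha2) ha3 ha4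

end Cfsg.Agent.S3085
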