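import Mathlib
import Cfsg.Statements.S3103
import Cfsg.Agent.S0256
import Cfsg.Agent.Lib.PGroupFrattini
import Cfsg.Agent.Lib.Coprime.Action
import Cfsg.Agent.Lib.Hall.Basic

set_option autoImplicit false

open scoped commutatorElement Pointwise

namespace Cfsg.Agent.S3103

open Subgroup

lemma sl_center_trivial {g : Matrix.SpecialLinearGroup (Fin 4) (ZMod 2)}
    (hg : g ∈ center (Matrix.SpecialLinearGroup (Fin 4) (ZMod 2))) : g = 1 := by
  obtain ⟨r, hr, hg⟩ := Matrix.SpecialLinearGroup.mem_center_iff.1 hg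
  have key : ∀ r : ZMod 2, r ^ Fintype.card (Fin 4) = 1 → r = 1 := by decide
  have : r = 1 := key r hr
  subst this
  refine Subtype.ext ?_
  rw [← hg]; simp

lemma zmod_two_ne_zero {x : ZMod 2} (h : x ≠ 0) : x = 1 := by
  revert h; revert x; decide

/-- Linear automorphisms of a binary space of dimension four, as a special linear group. -/
noncomputable def toSL : ((Fin 4 → ZMod 2) ≃ₗ[ZMod 2] (Fin 4 → ZMod 2)) →*
    Matrix.SpecialLinearGroup (Fin 4) (ZMod 2) where
  toFun g := ⟨LinearMap.toMatrix' g.toLinearMap, zmod_two_ne_zero (by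
    intro h
    have h2 : LinearMap.toMatrix' g.toLinearMap * LinearMap.toMatrix' g.symm.toLinearMap = 1 := by
      rw [← LinearMap.toMatrix'_comp, show g.toLinearMap ∘ₗ g.symm.toLinearMap = LinearMap.id from
        LinearMap.ext fun x => g.apply_symm_apply x, LinearMap.toMatrix'_id]
    have := congrArg Matrix.det h2
    rw [Matrix.det_mul, h, zero_mul, Matrix.det_one] at this
    exact zero_ne_one this)⟩
  map_one' := Subtype.ext (by simp [LinearMap.toMatrix'_id])
  map_mul' g h := Subtype.ext (by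
    show LinearMap.toMatrix' (g.toLinearMap ∘ₗ h.toLinearMap) = _
    rw [LinearMap.toMatrix'_comp]; rfl)

lemma toSL_injective : Function.Injective toSL := fun g h e => by
  have := congrArg Subtype.val e
  exact LinearEquiv.toLinearMap_injective (LinearMap.toMatrix'.injective this)

lemma exists_embedding {V : Type*} [CommGroup V] [Finite V] (hexp : ∀ v : V, v ^ 2 = 1)
    (hcard : Nat.card V ≤ 16) :
    ∃ f : MulAut V →* ↥(alternatingGroup (Fin 8)), Function.Injective f := by
  classical
  letI : Module (ZMod 2) (Additive V) := AddCommGroup.zmodModule (n := 2) fun x => by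
    rw [← toMul_eq_one, toMul_nsmul]; exact hexp x.toMul
  let M := Additive V
  have hm : Module.finrank (ZMod 2) M ≤ 4 := by
    have h := Module.natCard_eq_pow_finrank (K := ZMod 2) (V := M)
    rw [Nat.card_congr Additive.toMul, Nat.card_zmod] at h
    rw [h, show 16 = 2 ^ 4 from rfl] at hcard
    exact (Nat.pow_le_pow_iff_right (by norm_num)).1 hcard
  set m := Module.finrank (ZMod 2) M
  let W := Fin (4 - m) → ZMod 2
  let E : (M × W) ≃ₗ[ZMod 2] (Fin 4 → ZMod 2) := LinearEquiv.ofFinrankEq _ _ (by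
    rw [Module.finrank_prod, Module.finrank_pi, Module.finrank_pi, Fintype.card_fin, Fintype.card_fin]
    omega)
  let lin : MulAut V → (M ≃ₗ[ZMod 2] M) := fun a =>
    { MulEquiv.toAdditive a with
      map_smul' := fun c x => by
        exact ((MulEquiv.toAdditive a).toAddMonoidHom.toZModLinearMap 2).map_smul c x }
  let φ : MulAut V →* ((Fin 4 → ZMod 2) ≃ₗ[ZMod 2] (Fin 4 → ZMod 2)) :=
    { toFun := fun a => E.symm.trans (((lin a).prodCongr (LinearEquiv.refl _ W)).trans E)
      map_one' := by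
        refine LinearEquiv.ext fun x => ?_
        show E (((lin 1).prodCongr (LinearEquiv.refl _ W)) (E.symm x)) = x
        have : ((lin 1).prodCongr (LinearEquiv.refl _ W)) (E.symm x) = E.symm x := rfl
        rw [this, E.apply_symm_apply]
      map_mul' := fun a b => by
        refine LinearEquiv.ext fun x => ?_
        show E (((lin (a * b)).prodCongr (LinearEquiv.refl _ W)) (E.symm x)) =
          E (((lin a).prodCongr (LinearEquiv.refl _ W)) (E.symm (E (((lin b).prodCongr (LinearEquiv.refl _ W)) (E.symm x)))))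
        rw [E.symm_apply_apply]
        rfl }
  have hφ : Function.Injective φ := by
    intro a b h
    refine MulEquiv.ext fun v => ?_
    have h1 := LinearEquiv.congr_fun h (E (Additive.ofMul v, 0))
    change E (((lin a).prodCongr (LinearEquiv.refl _ W)) (E.symm (E (Additive.ofMul v, 0)))) =
      E (((lin b).prodCongr (LinearEquiv.refl _ W)) (E.symm (E (Additive.ofMul v, 0)))) at h1
    rw [E.symm_apply_apply] at h1
    exact congrArg Additive.toMul (congrArg Prod.fst (E.injective h1))
  obtain ⟨e⟩ := Cfsg.Agent.S0256.result (F := ZMod 2) (by simp)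
  have hmk : Function.Injective (QuotientGroup.mk' (center (Matrix.SpecialLinearGroup (Fin 4) (ZMod 2)))) :=
    (injective_iff_map_eq_one _).2 fun g hg => sl_center_trivial ((QuotientGroup.eq_one_iff g).1 hg)
  exact ⟨e.toMonoidHom.comp ((QuotientGroup.mk' _).comp (toSL.comp φ)),
    e.injective.comp (hmk.comp (toSL_injective.comp hφ))⟩

/-- Let X be a finite 2-constrained group with no nontrivial normal subgroup of odd order such that O₂(X) has sectional 2-rank at most 4. Then X/O₂(X) is isomorphic to a subgroup of the alternating group of degree 8. -/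
theorem result {X : Type*} [Group X] [Finite X] (hc : Cfsg.IsPConstrained 2 X) (hO : Cfsg.oddCore X = ⊥)
    (h4 : Cfsg.SectionalPRankLE 2 4 ↥(Cfsg.pCore 2 X)) :
    ∃ f : X ⧸ Cfsg.pCore 2 X →* ↥(alternatingGroup (Fin 8)), Function.Injective f := by
  classical
  haveI : Fact (Nat.Prime 2) := ⟨Nat.prime_two⟩
  set Q := Cfsg.pCore 2 X with hQdef
  haveI hQn : Q.Normal := Cfsg.pCore_normal 2 X
  have hQ2 : IsPGroup 2 Q := Cfsg.Agent.Lib.Hall.isPGroup_pCore 2
  have hpp : Cfsg.pPrimePCore 2 X = Q := by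
    unfold Cfsg.pPrimePCore
    have hbot : Cfsg.pPrimeCore 2 X = ⊥ := hO
    have hinj : Function.Injective (QuotientGroup.mk' (Cfsg.pPrimeCore 2 X)) := fun a b h => by
      have h' : a⁻¹ * b ∈ Cfsg.pPrimeCore 2 X := QuotientGroup.eq.1 h
      rw [hbot, Subgroup.mem_bot, inv_mul_eq_one] at h'
      exact h'
    let e : X ≃* X ⧸ Cfsg.pPrimeCore 2 X :=
      MulEquiv.ofBijective _ ⟨hinj, QuotientGroup.mk'_surjective _⟩
    have h := Cfsg.Agent.Lib.Hall.map_pCore_equiv 2 e
    rw [hQdef, ← h]
    exact Subgroup.comap_map_eq_self_of_injective hinj _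
  have hcen : centralizer (Q : Set X) ≤ Q := by
    obtain ⟨P⟩ := (inferInstance : Nonempty (Sylow 2 ↥(Cfsg.pPrimePCore 2 X)))
    have h := hc P
    have htop : (P : Subgroup ↥(Cfsg.pPrimePCore 2 X)) = ⊤ := by
      have hp : IsPGroup 2 ↥(Cfsg.pPrimePCore 2 X) := hpp ▸ hQ2
      exact (P.3 (hp.to_subgroup ⊤) le_top).symm
    rw [htop, ← MonoidHom.range_eq_map, Subgroup.range_subtype, hpp] at h
    exact h
  have hexp : ∀ v : ↥Q ⧸ frattini ↥Q, v ^ 2 = 1 := fun v => by
    obtain ⟨x, rfl⟩ := QuotientGroup.mk'_surjective _ v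
    rw [← map_pow]
    exact (QuotientGroup.eq_one_iff _).2 (Cfsg.Agent.Lib.PGroupFrattini.pow_mem_frattini hQ2 x)
  letI : CommGroup (↥Q ⧸ frattini ↥Q) :=
    { (inferInstance : Group (↥Q ⧸ frattini ↥Q)) with
      mul_comm := fun a b => by
        have hinv : ∀ v : ↥Q ⧸ frattini ↥Q, v⁻¹ = v := fun v =>
          inv_eq_of_mul_eq_one_right (by rw [← pow_two]; exact hexp v)
        calc a * b = (a * b)⁻¹ := (hinv _).symm
          _ = b * a := by rw [mul_inv_rev, hinv, hinv] }
  have hcard : Nat.card (↥Q ⧸ frattini ↥Q) ≤ 16 := by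
    let N : Subgroup ↥(⊤ : Subgroup ↥Q) := (frattini ↥Q).subgroupOf ⊤
    haveI : N.Normal := Subgroup.normal_subgroupOf
    have hcomm : IsMulCommutative (↥(⊤ : Subgroup ↥Q) ⧸ N) := ⟨⟨fun a b => by
      obtain ⟨x, rfl⟩ := QuotientGroup.mk'_surjective N a
      obtain ⟨y, rfl⟩ := QuotientGroup.mk'_surjective N b
      have := mul_comm (QuotientGroup.mk' (frattini ↥Q) (x : ↥Q)) (QuotientGroup.mk' (frattini ↥Q) (y : ↥Q))
      rw [← map_mul, ← map_mul] at this
      rw [← map_mul, ← map_mul]
      exact QuotientGroup.eq.2 (Subgroup.mem_subgroupOf.2 (QuotientGroup.eq.1 this))⟩⟩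
    have h := h4 ⊤ N ⊤ (IsMulCommutative.of_setLike_mul_comm fun a _ b _ => hcomm.1.comm a b) (fun a _ => by
      obtain ⟨x, rfl⟩ := QuotientGroup.mk'_surjective N a
      rw [← map_pow]
      exact (QuotientGroup.eq_one_iff _).2 (Subgroup.mem_subgroupOf.2
        (Cfsg.Agent.Lib.PGroupFrattini.pow_mem_frattini hQ2 (x : ↥Q))))
    rw [Subgroup.card_top, ← Subgroup.index_eq_card] at h
    change (frattini ↥Q).relIndex ⊤ ≤ 2 ^ 4 at h
    rw [Subgroup.relIndex_top_right, Subgroup.index_eq_card] at h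
    exact h
  obtain ⟨emb, hemb⟩ := exists_embedding hexp hcard
  let act : X → (↥Q ⧸ frattini ↥Q ≃* ↥Q ⧸ frattini ↥Q) := fun x =>
    QuotientGroup.congr (frattini ↥Q) (frattini ↥Q) (MulAut.conjNormal x)
      (Subgroup.characteristic_iff_map_eq.1 inferInstance (MulAut.conjNormal x))
  have hact : ∀ x (q : ↥Q), act x (QuotientGroup.mk' _ q) = QuotientGroup.mk' _ (MulAut.conjNormal x q) :=
    fun x q => rfl
  let ψ : X →* MulAut (↥Q ⧸ frattini ↥Q) :=
    { toFun := act
      map_one' := MulEquiv.ext fun v => by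
        obtain ⟨q, rfl⟩ := QuotientGroup.mk'_surjective _ v
        rw [hact, map_one]; rfl
      map_mul' := fun a b => MulEquiv.ext fun v => by
        obtain ⟨q, rfl⟩ := QuotientGroup.mk'_surjective _ v
        rw [hact, map_mul]; exact rfl }
  have hker : ψ.ker = Q := by
    refine le_antisymm ?_ ?_
    · haveI : ψ.ker.Normal := inferInstance
      refine Cfsg.Agent.Lib.Hall.le_pCore ?_
      rw [IsPGroup.iff_orderOf]
      rintro ⟨x, hx⟩
      rw [← Subgroup.orderOf_coe]
      have hx0 : orderOf x ≠ 0 := (orderOf_pos x).ne'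
      refine ⟨(orderOf x).factorization 2, ?_⟩
      set a := x ^ (2 ^ (orderOf x).factorization 2) with ha
      have haord : Odd (orderOf a) := by
        rw [ha, orderOf_pow' x (by positivity), Nat.gcd_eq_right (Nat.ordProj_dvd _ 2),
          ← Nat.not_even_iff_odd, even_iff_two_dvd]
        exact Nat.not_dvd_ordCompl Nat.prime_two hx0
      have hmem : a ∈ ψ.ker := pow_mem hx _
      have hA : zpowers a ≤ centralizer (Q : Set X) := by
        refine Cfsg.Agent.Lib.Coprime.le_centralizer_of_frattini (A := zpowers a) (K := Q)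
          (by rw [Subgroup.normalizer_eq_top]; exact le_top) ?_ ?_
        · obtain ⟨k, hk⟩ := IsPGroup.iff_card.1 (hQ2.to_subgroup (frattini ↥Q))
          rw [hk, Nat.card_zpowers]
          exact Nat.Coprime.pow_right _ (Nat.coprime_two_right.2 haord)
        · intro b hb k hk
          have hbk : b ∈ ψ.ker := (Subgroup.zpowers_le.2 hmem) hb
          have h1 : ψ b (QuotientGroup.mk' _ (⟨k, hk⟩ : ↥Q)) = QuotientGroup.mk' _ (⟨k, hk⟩ : ↥Q) := by
            rw [MonoidHom.mem_ker.1 hbk]; rfl
          have h2 := QuotientGroup.eq.1 ((hact b ⟨k, hk⟩).symm.trans h1)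
          refine ⟨_, inv_mem ((Subgroup.Normal.mem_comm_iff inferInstance).1 h2), ?_⟩
          simp [MulAut.conjNormal_apply, mul_assoc]
      have haQ : a ∈ Q := hcen (hA (mem_zpowers a))
      obtain ⟨j, hj⟩ := IsPGroup.iff_orderOf.1 hQ2 ⟨a, haQ⟩
      rw [← Subgroup.orderOf_coe] at hj
      rcases j with _ | j
      · refine Nat.dvd_antisymm (orderOf_dvd_of_pow_eq_one ?_) (Nat.ordProj_dvd _ 2)
        exact orderOf_eq_one_iff.1 (by simpa using hj)
      · simp only at hj
        rw [hj] at haord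
        exact absurd (even_iff_two_dvd.2 (dvd_pow_self 2 (Nat.succ_ne_zero j))) (Nat.not_even_iff_odd.2 haord)
    · intro x hx
      refine MonoidHom.mem_ker.2 (MulEquiv.ext fun v => ?_)
      obtain ⟨q, rfl⟩ := QuotientGroup.mk'_surjective _ v
      show act x _ = _
      rw [hact]
      show _ = QuotientGroup.mk' (frattini ↥Q) q
      have hcq : MulAut.conjNormal x q = (⟨x, hx⟩ : ↥Q) * q * (⟨x, hx⟩ : ↥Q)⁻¹ :=
        Subtype.ext (by simp [MulAut.conjNormal_apply])
      rw [hcq, map_mul, map_mul, map_inv, mul_comm (QuotientGroup.mk' (frattini ↥Q) _) (QuotientGroup.mk' (frattini ↥Q) q),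
        mul_inv_cancel_right]
  refine ⟨QuotientGroup.lift Q (emb.comp ψ) (fun x hx => ?_), ?_⟩
  · rw [MonoidHom.mem_ker, MonoidHom.comp_apply, MonoidHom.mem_ker.1 (hker.ge hx), map_one]
  · refine (injective_iff_map_eq_one _).2 fun v hv => ?_
    obtain ⟨x, rfl⟩ := QuotientGroup.mk'_surjective Q v
    have hx : ψ x = 1 := hemb (by rw [map_one]; exact hv)
    exact (QuotientGroup.eq_one_iff x).2 (hker.le (MonoidHom.mem_ker.2 hx))

end Cfsg.Agent.S3103
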