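import Cfsg.Statements.S3117
import Cfsg.Agent.Lib.ThreeInvolAut.Main

set_option autoImplicit false
open Cfsg

namespace Cfsg.Agent.S3117

/-- If X is a finite 2-group containing exactly three involutions, then the automorphism group of X is solvable. -/
theorem result {X : Type*} [Group X] [Finite X] (h2 : IsPGroup 2 X) (h3 : Nat.card {x : X // orderOf x = 2} = 3) : Group.IsSolvable (MulAut X) := by
  classical
  refine Cfsg.Agent.Lib.ThreeInvolAut.isSolvable_mulAut h2 ?_
  have hfin : Finite {x : X // orderOf x = 2} := inferInstance
  have hle := Nat.card_le_card_of_injective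
    (fun y : {x : X // x * x = 1} => (if h : y.1 = 1 then none else some
      (⟨y.1, orderOf_eq_prime (by rw [sq]; exact y.2) h⟩ : {x : X // orderOf x = 2}) :
        Option {x : X // orderOf x = 2})) fun a b e => by
      by_cases ha : a.1 = 1 <;> by_cases hb : b.1 = 1 <;> simp [ha, hb] at e
      · exact Subtype.ext (ha.trans hb.symm)
      · exact Subtype.ext e
  rw [Finite.card_option, h3] at hle
  exact hle

end Cfsg.Agent.S3117
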