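import Cfsg.Statements.S3356
-- import your own Cfsg.Agent.* helpers here

set_option autoImplicit false
open Cfsg

namespace Cfsg.Agent.S3356


open Pointwise

/-- If all orbits of `K` on `X` have the same size `k`, then `k` divides `|X|`. -/
theorem dvd_card_of_index {K X : Type*} [Group K] [MulAction K X] [Finite X] (k : ℕ)
    (h : ∀ x : X, (MulAction.stabilizer K x).index = k) : k ∣ Nat.card X := by
  classical
  rw [Nat.card_congr (MulAction.selfEquivSigmaOrbits K X)]
  haveI := Fintype.ofFinite (MulAction.orbitRel.Quotient K X)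
  rw [Nat.card_sigma]
  refine Finset.dvd_sum fun ω _ => ?_
  rw [Nat.card_coe_set_eq, ← MulAction.index_stabilizer, h]

theorem card_stab {G Ω : Type*} [Group G] [MulAction G Ω] (L : Subgroup G) (y : Ω) :
    Nat.card (MulAction.stabilizer L y) = Nat.card ↥(L ⊓ MulAction.stabilizer G y) :=
  Nat.card_congr
    { toFun := fun x => ⟨x.1.1, Subgroup.mem_inf.mpr ⟨x.1.2, x.2⟩⟩
      invFun := fun x => ⟨⟨x.1, (Subgroup.mem_inf.mp x.2).1⟩, (Subgroup.mem_inf.mp x.2).2⟩
      left_inv := fun x => rfl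
      right_inv := fun x => rfl }

section
variable {N : Type*} [Group N]

theorem sup_inf_top (hperf : commutator N = ⊤) (A B M : Subgroup N) [A.Normal] [B.Normal]
    [M.Normal] (hA : A ⊔ M = ⊤) (hB : B ⊔ M = ⊤) : (A ⊓ B) ⊔ M = ⊤ := by
  have hs : Function.Surjective (QuotientGroup.mk' M) := QuotientGroup.mk'_surjective M
  have key : ∀ C : Subgroup N, C ⊔ M = ⊤ → C.map (QuotientGroup.mk' M) = ⊤ := by
    intro C hC
    have := congrArg (Subgroup.map (QuotientGroup.mk' M)) hC
    rwa [Subgroup.map_sup, QuotientGroup.map_mk'_self, sup_bot_eq,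
      Subgroup.map_top_of_surjective _ hs] at this
  have h1 : (A ⊓ B).map (QuotientGroup.mk' M) = ⊤ := by
    rw [eq_top_iff]
    calc (⊤ : Subgroup (N ⧸ M)) = (commutator N).map (QuotientGroup.mk' M) := by
          rw [hperf, Subgroup.map_top_of_surjective _ hs]
      _ = ⁅A.map (QuotientGroup.mk' M), B.map (QuotientGroup.mk' M)⁆ := by
          rw [key A hA, key B hB, commutator_def, Subgroup.map_commutator,
            Subgroup.map_top_of_surjective _ hs]
      _ = (⁅A, B⁆).map (QuotientGroup.mk' M) := (Subgroup.map_commutator _ _ _).symm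
      _ ≤ _ := Subgroup.map_mono (Subgroup.commutator_le_inf A B)
  rw [← QuotientGroup.ker_mk' M, ← Subgroup.comap_map_eq, h1, Subgroup.comap_top]

/-- A finite perfect group is the normal closure of one of its elements. -/
theorem exists_normalClosure_eq_top [Finite N] (hperf : commutator N = ⊤) :
    ∃ x : N, Subgroup.normalClosure ({x} : Set N) = ⊤ := by
  classical
  haveI := Fintype.ofFinite (Subgroup N)
  let F : Finset (Subgroup N) :=
    Finset.univ.filter fun M => Maximal (fun K : Subgroup N => K.Normal ∧ K ≠ ⊤) M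
  have hF : ∀ M ∈ F, Maximal (fun K : Subgroup N => K.Normal ∧ K ≠ ⊤) M :=
    fun M hM => (Finset.mem_filter.mp hM).2
  have hinf : ∀ t : Finset (Subgroup N), t ⊆ F → (t.inf id).Normal ∧
      ∀ M ∈ F, M ∉ t → t.inf id ⊔ M = ⊤ := by
    intro t
    induction t using Finset.induction_on with
    | empty => exact fun _ => ⟨by rw [Finset.inf_empty]; infer_instance, fun M _ _ => by simp⟩
    | insert L t hLt ih =>
      intro hsub
      rw [Finset.insert_subset_iff] at hsub
      obtain ⟨ih1, ih2⟩ := ih hsub.2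
      haveI := ih1
      haveI := (hF L hsub.1).1.1
      refine ⟨by rw [Finset.inf_insert]; show (L ⊓ t.inf id).Normal; infer_instance, ?_⟩
      intro M hM hMt
      rw [Finset.mem_insert, not_or] at hMt
      haveI := (hF M hM).1.1
      rw [Finset.inf_insert]
      show L ⊓ t.inf id ⊔ M = ⊤
      refine sup_inf_top hperf _ _ _ ?_ (ih2 M hM hMt.2)
      show L ⊔ M = ⊤
      by_contra hne
      have hn : (L ⊔ M).Normal := inferInstance
      have h1 := (hF L hsub.1).2 ⟨hn, hne⟩ le_sup_left
      have h2 := (hF M hM).2 ⟨hn, hne⟩ le_sup_right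
      exact hMt.1 (le_antisymm (le_sup_right.trans h1) (le_sup_left.trans h2))
  have hx : ∀ t : Finset (Subgroup N), t ⊆ F → ∃ x : N, ∀ M ∈ t, x ∉ M := by
    intro t
    induction t using Finset.induction_on with
    | empty => exact fun _ => ⟨1, by simp⟩
    | insert L t hLt ih =>
      intro hsub
      rw [Finset.insert_subset_iff] at hsub
      obtain ⟨x, hx⟩ := ih hsub.2
      by_cases hxL : x ∈ L
      · obtain ⟨y, hy, hyL⟩ : ∃ y ∈ t.inf id, y ∉ L := by
          by_contra hcon
          push Not at hcon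
          have := (hinf t hsub.2).2 L hsub.1 hLt
          rw [sup_eq_right.mpr hcon] at this
          exact (hF L hsub.1).1.2 this
        refine ⟨x * y, fun M hM => ?_⟩
        rcases Finset.mem_insert.mp hM with rfl | hM
        · exact fun h => hyL ((M.mul_mem_cancel_left hxL).mp h)
        · have hyM : y ∈ M := (Finset.inf_le hM : t.inf id ≤ id M) hy
          exact fun h => hx M hM ((M.mul_mem_cancel_right hyM).mp h)
      · refine ⟨x, fun M hM => ?_⟩
        rcases Finset.mem_insert.mp hM with rfl | hM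
        · exact hxL
        · exact hx M hM
  obtain ⟨x, hx⟩ := hx F (Finset.Subset.refl _)
  refine ⟨x, by_contra fun hne => ?_⟩
  obtain ⟨M, hle, hM⟩ := Finite.exists_le_maximal
    (p := fun K : Subgroup N => K.Normal ∧ K ≠ ⊤) ⟨Subgroup.normalClosure_normal, hne⟩
  exact hx M (Finset.mem_filter.mpr ⟨Finset.mem_univ _, hM⟩)
    (hle (Subgroup.subset_normalClosure rfl))

end

/-- Let G be a finite 3/2-transitive permutation group: G acts faithfully and transitively on a finite set, the point stabilizers are non-trivial, and for each point a all orbits of G_a on the remaining points have the same size. Suppose G has a regular normal subgroup N and G is not a Frobenius group (some two-point stabilizer is non-trivial). Then N is an elementary abelian p-group for some prime p, and every non-trivial normal subgroup of G contains N (so N is the unique minimal normal subgroup). -/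
theorem result {G Ω : Type*} [Group G] [Finite G]
    [MulAction G Ω] [FaithfulSMul G Ω] [Finite Ω] (htrans : MulAction.IsPretransitive G Ω)
    (hne : ∀ a : Ω, MulAction.stabilizer G a ≠ ⊥)
    (hhalf : ∀ a b c : Ω, b ≠ a → c ≠ a →
      Nat.card (MulAction.orbit (MulAction.stabilizer G a) b) = Nat.card (MulAction.orbit (MulAction.stabilizer G a) c))
    (N : Subgroup G) [hN : N.Normal] (hNt : MulAction.IsPretransitive N Ω) (hNr : ∀ a : Ω, MulAction.stabilizer N a = ⊥)
    (hnotF : ∃ a b : Ω, a ≠ b ∧ MulAction.stabilizer G a ⊓ MulAction.stabilizer G b ≠ ⊥) :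
    (∃ p : ℕ, p.Prime ∧ IsMulCommutative N ∧ ∀ x ∈ N, x ^ p = 1) ∧
    (∀ M : Subgroup G, M.Normal → M ≠ ⊥ → N ≤ M) := by
  classical
  obtain ⟨a, b, hab, hnb⟩ := hnotF
  obtain ⟨H, hH⟩ : ∃ H, H = MulAction.stabilizer G a := ⟨_, rfl⟩
  obtain ⟨C, hC⟩ : ∃ C : Ω → Subgroup G, ∀ y, C y = H ⊓ MulAction.stabilizer G y :=
    ⟨_, fun y => rfl⟩
  have hmemC : ∀ g y, g ∈ C y ↔ g • a = a ∧ g • y = y := by
    intro g y; rw [hC, hH]; rfl
  have hfaith : ∀ g : G, (∀ y : Ω, g • y = y) → g = 1 := fun g hg =>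
    eq_of_smul_eq_smul fun y : Ω => by rw [hg y, one_smul]
  -- the map `n ↦ n • a`
  have hinjN : ∀ n n' : G, n ∈ N → n' ∈ N → n • a = n' • a → n = n' := by
    intro n n' hn hn' h
    have hm : (⟨n'⁻¹ * n, N.mul_mem (N.inv_mem hn') hn⟩ : N) ∈ MulAction.stabilizer N a := by
      rw [MulAction.mem_stabilizer_iff]
      show (n'⁻¹ * n) • a = a
      rw [mul_smul, h, inv_smul_smul]
    rw [hNr, Subgroup.mem_bot] at hm
    exact (inv_mul_eq_one.mp (congrArg Subtype.val hm)).symm
  have hsurN : ∀ y : Ω, ∃ n ∈ N, n • a = y := by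
    intro y
    obtain ⟨n, hn⟩ := hNt.exists_smul_eq a y
    exact ⟨n, n.2, hn⟩
  have hcardN : Nat.card Ω = Nat.card N :=
    (Nat.card_eq_of_bijective (fun n : N => (n : G) • a)
      ⟨fun n n' h => Subtype.ext (hinjN _ _ n.2 n'.2 h), fun y => by
        obtain ⟨n, hn, h⟩ := hsurN y
        exact ⟨⟨n, hn⟩, h⟩⟩).symm
  have hconj : ∀ g n : G, g • a = a → g • (n • a) = (g * n * g⁻¹) • a := by
    intro g n hg
    have : g⁻¹ • a = a := by rw [inv_smul_eq_iff, hg]
    rw [mul_smul, mul_smul, this]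
  have hfix : ∀ g n : G, g • a = a → n ∈ N → (g • (n • a) = n • a ↔ g * n * g⁻¹ = n) := by
    intro g n hg hn
    rw [hconj g n hg]
    exact ⟨fun h => hinjN _ _ (hN.conj_mem n hn g) hn h, fun h => by rw [h]⟩
  -- all two-point stabilisers have the same order
  have hidx : ∀ y : Ω, (MulAction.stabilizer H y).index * Nat.card ↥(C y) = Nat.card H := by
    intro y
    rw [hC, ← card_stab]
    exact Subgroup.index_mul_card _
  have hidx_eq : ∀ y, y ≠ a →
      (MulAction.stabilizer H y).index = (MulAction.stabilizer H b).index := by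
    intro y hy
    subst hH
    rw [MulAction.index_stabilizer, MulAction.index_stabilizer, ← Nat.card_coe_set_eq,
      ← Nat.card_coe_set_eq]
    exact hhalf a y b hy hab.symm
  obtain ⟨m, hm⟩ : ∃ m, m = (MulAction.stabilizer H b).index := ⟨_, rfl⟩
  have hm0 : 0 < m := hm ▸ Nat.pos_of_ne_zero Subgroup.index_ne_zero_of_finite
  have hCcard : ∀ y, y ≠ a → Nat.card ↥(C y) = Nat.card ↥(C b) := by
    intro y hy
    have h1 := hidx y
    rw [hidx_eq y hy, ← hidx b, ← hm] at h1
    exact Nat.eq_of_mul_eq_mul_left hm0 h1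
  have hnobot : ∀ y, y ≠ a → C y ≠ ⊥ := by
    intro y hy h
    apply hnb
    have h1 := hCcard y hy
    rw [h, Subgroup.card_bot] at h1
    have := Subgroup.card_eq_one.mp h1.symm
    rwa [hC, hH] at this
  -- `m ∣ |Ω| - 1`
  have hmdvd : m ∣ Nat.card Ω - 1 := by
    let X : SubMulAction H Ω :=
      { carrier := {y | y ≠ a}
        smul_mem' := fun g y hy h => hy (by
          have hg : (g : G) • a = a := by
            have := g.2
            simp only [hH] at this
            exact this
          have h' : (g : G) • y = (g : G) • a := by rw [hg]; exact h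
          exact MulAction.injective _ h') }
    have h1 : m ∣ Nat.card X := dvd_card_of_index m (fun x => by
      rw [SubMulAction.stabilizer_of_subMul, hidx_eq _ x.2, hm])
    have h2 : Nat.card X = Nat.card Ω - 1 := by
      show Nat.card ↥({y | y ≠ a} : Set Ω) = _
      rw [Nat.card_coe_set_eq, show {y : Ω | y ≠ a} = ({a} : Set Ω)ᶜ from rfl, Set.ncard_compl,
        Set.ncard_singleton]
    exact h2 ▸ h1
  -- blocks of size dividing `|Ω|` are fixed pointwise
  have block : ∀ S : Set Ω, a ∉ S → Nat.card S ∣ Nat.card Ω →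
      (∀ g : G, g • a = a → (∃ s ∈ S, g • s ∈ S) → ∀ s ∈ S, g • s ∈ S) →
      ∀ g : G, g • a = a → ∀ s ∈ S, g • s = s → ∀ s' ∈ S, g • s' = s' := by
    intro S haS hSd hSb g hg s hs hgs
    let K : Subgroup G :=
      { carrier := {x | x • a = a ∧ (∀ t ∈ S, x • t ∈ S) ∧ ∀ t ∈ S, x⁻¹ • t ∈ S}
        one_mem' := ⟨one_smul _ _, fun t ht => by rw [one_smul]; exact ht,
          fun t ht => by rw [inv_one, one_smul]; exact ht⟩
        mul_mem' := fun {x y} hx hy => ⟨by rw [mul_smul, hy.1, hx.1],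
          fun t ht => by rw [mul_smul]; exact hx.2.1 _ (hy.2.1 t ht),
          fun t ht => by rw [mul_inv_rev, mul_smul]; exact hy.2.2 _ (hx.2.2 t ht)⟩
        inv_mem' := fun {x} hx => ⟨by rw [inv_smul_eq_iff, hx.1], hx.2.2,
          fun t ht => by rw [inv_inv]; exact hx.2.1 t ht⟩ }
    have hKC : ∀ t ∈ S, K ⊓ MulAction.stabilizer G t = C t := by
      intro t ht
      ext x
      rw [Subgroup.mem_inf, hmemC, MulAction.mem_stabilizer_iff]
      refine ⟨fun h => ⟨h.1.1, h.2⟩, fun h => ⟨⟨h.1, ?_, ?_⟩, h.2⟩⟩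
      · exact hSb x h.1 ⟨t, ht, by rw [h.2]; exact ht⟩
      · have hx1 : x⁻¹ • a = a := by rw [inv_smul_eq_iff, h.1]
        refine hSb x⁻¹ hx1 ⟨t, ht, ?_⟩
        rw [show x⁻¹ • t = t by rw [inv_smul_eq_iff, h.2]]
        exact ht
    obtain ⟨k0, hk0⟩ : ∃ k0, k0 = (MulAction.stabilizer K s).index := ⟨_, rfl⟩
    have hKt : ∀ t ∈ S, (MulAction.stabilizer K t).index * Nat.card ↥(C b) = Nat.card K := by
      intro t ht
      rw [← hCcard t (fun h => haS (h ▸ ht)), ← hKC t ht, ← card_stab]
      exact Subgroup.index_mul_card _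
    have hall : ∀ t ∈ S, (MulAction.stabilizer K t).index = k0 := by
      intro t ht
      rw [hk0]
      exact Nat.eq_of_mul_eq_mul_right Nat.card_pos ((hKt t ht).trans (hKt s hs).symm)
    let X : SubMulAction K Ω :=
      { carrier := S
        smul_mem' := fun x t ht => x.2.2.1 t ht }
    have h1 : k0 ∣ Nat.card Ω := by
      refine (dvd_card_of_index (K := K) (X := X) k0 fun x => ?_).trans hSd
      rw [SubMulAction.stabilizer_of_subMul]
      exact hall _ x.2
    have h2 : k0 ∣ m := by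
      have hKH : K ≤ H := fun x hx => by rw [hH]; exact hx.1
      have h3 := Subgroup.card_dvd_of_le hKH
      rw [← hKt s hs, ← hidx b, ← hm, ← hk0] at h3
      exact Nat.dvd_of_mul_dvd_mul_right Nat.card_pos h3
    have hk1 : k0 = 1 := by
      have h3 := Nat.dvd_sub h1 (h2.trans hmdvd)
      have h4 : 0 < Nat.card Ω := @Nat.card_pos _ ⟨a⟩ _
      rw [show Nat.card Ω - (Nat.card Ω - 1) = 1 by omega] at h3
      exact Nat.dvd_one.mp h3
    have hgK : g ∈ K := by
      refine ⟨hg, hSb g hg ⟨s, hs, by rw [hgs]; exact hs⟩, ?_⟩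
      refine hSb g⁻¹ (by rw [inv_smul_eq_iff, hg]) ⟨s, hs, ?_⟩
      rw [show g⁻¹ • s = s by rw [inv_smul_eq_iff, hgs]]
      exact hs
    intro s' hs'
    have htop : MulAction.stabilizer K s' = ⊤ := Subgroup.index_eq_one.mp ((hall s' hs').trans hk1)
    have : (⟨g, hgK⟩ : K) ∈ MulAction.stabilizer K s' := htop ▸ Subgroup.mem_top _
    exact this
  -- `N` is a minimal normal subgroup
  have hmin : ∀ M : Subgroup G, M.Normal → M ≤ N → M ≠ ⊥ → M = N := by
    intro M hMn hMN hMb
    by_contra hne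
    obtain ⟨n0, hn0, hn0M⟩ := SetLike.exists_of_lt (lt_of_le_of_ne hMN hne)
    obtain ⟨k0, hk0, hk01⟩ := (Subgroup.ne_bot_iff_exists_ne_one.mp hMb)
      |> fun ⟨x, hx⟩ => (⟨x.1, x.2, fun h => hx (Subtype.ext h)⟩ : ∃ k ∈ M, k ≠ (1 : G))
    have hane : ∀ n, n ∈ N → n ≠ 1 → n • a ≠ a := fun n hn h1 h =>
      h1 (hinjN n 1 hn N.one_mem (by rw [one_smul, h]))
    have hcent : ∀ n ∈ N, n ∉ M → ∀ g : G, g • a = a → g • (n • a) = n • a →
        ∀ k ∈ M, g * k * g⁻¹ = k := by
      intro n hn hnM g hg hgn k hk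
      have hgn' := (hfix g n hg hn).mp hgn
      let f : M → Ω := fun x => ((x : G) * n) • a
      have hf : Function.Injective f := fun x y h =>
        Subtype.ext (mul_right_cancel (hinjN _ _ (N.mul_mem (hMN x.2) hn)
          (N.mul_mem (hMN y.2) hn) h))
      have h := block (Set.range f) ?_ ?_ ?_ g hg (n • a) ⟨1, by simp [f]⟩ hgn
        ((k * n) • a) ⟨⟨k, hk⟩, rfl⟩
      · rw [hfix g _ hg (N.mul_mem (hMN hk) hn)] at h
        have e : g * (k * n) * g⁻¹ = (g * k * g⁻¹) * (g * n * g⁻¹) := by group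
        rw [e, hgn'] at h
        exact mul_right_cancel h
      · rintro ⟨x, hx⟩
        apply hnM
        have := hinjN _ 1 (N.mul_mem (hMN x.2) hn) N.one_mem (by rw [one_smul]; exact hx)
        rw [mul_eq_one_iff_eq_inv] at this
        exact inv_mem_iff.mp (this ▸ x.2)
      · rw [Nat.card_range_of_injective hf, hcardN]
        exact Subgroup.card_dvd_of_le hMN
      · rintro x hx ⟨_, ⟨u, rfl⟩, v, hv⟩ _ ⟨w, rfl⟩
        have e : ∀ c : G, x * (c * n) * x⁻¹ = (x * c * x⁻¹) * (x * n * x⁻¹) := fun c => by group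
        simp only [f] at hv
        rw [hconj x _ hx, e] at hv
        have hv' := hinjN _ _ (N.mul_mem (hMN v.2) hn)
          (N.mul_mem (hN.conj_mem _ (hMN u.2) x) (hN.conj_mem _ hn x)) hv
        have hxn : x * n * x⁻¹ = (x * (u : G) * x⁻¹)⁻¹ * v * n := by
          rw [mul_assoc _ (v : G), hv']; group
        refine ⟨⟨(x * (w : G) * x⁻¹) * ((x * (u : G) * x⁻¹)⁻¹ * v),
          M.mul_mem (hMn.conj_mem _ w.2 x) (M.mul_mem (M.inv_mem (hMn.conj_mem _ u.2 x)) v.2)⟩, ?_⟩
        simp only [f]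
        rw [hconj x _ hx, e, hxn]
        congr 1
        group
    have hCeq : ∀ n ∈ N, n ∉ M → C (n • a) = C (k0 • a) := by
      intro n hn hnM
      have hn1 : n ≠ 1 := fun h => hnM (h ▸ M.one_mem)
      refine Subgroup.eq_of_le_of_card_ge (fun g hg => ?_) ?_
      · rw [hmemC] at hg ⊢
        exact ⟨hg.1, (hfix g k0 hg.1 (hMN hk0)).mpr (hcent n hn hnM g hg.1 hg.2 k0 hk0)⟩
      · rw [hCcard _ (hane n hn hn1), hCcard _ (hane k0 (hMN hk0) hk01)]
    apply hnobot _ (hane k0 (hMN hk0) hk01)
    rw [eq_bot_iff]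
    intro g hg
    rw [Subgroup.mem_bot]
    refine hfaith g fun y => ?_
    obtain ⟨n, hn, rfl⟩ := hsurN y
    by_cases hnM : n ∈ M
    · have hg0 : g ∈ C (n0 • a) := (hCeq n0 hn0 hn0M).symm ▸ hg
      rw [hmemC] at hg0
      exact (hfix g n hg0.1 hn).mpr (hcent n0 hn0 hn0M g hg0.1 hg0.2 n hnM)
    · have hg0 : g ∈ C (n • a) := (hCeq n hn hnM).symm ▸ hg
      exact ((hmemC g _).mp hg0).2
  have hNbot : N ≠ ⊥ := by
    intro h
    obtain ⟨n, hn, hnab⟩ := hsurN b
    rw [h, Subgroup.mem_bot] at hn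
    rw [hn, one_smul] at hnab
    exact hab hnab
  -- `N` is commutative
  have hcomm : ∀ x ∈ N, ∀ y ∈ N, x * y = y * x := by
    haveI := hN
    by_cases hbot : ⁅N, N⁆ = ⊥
    · intro x hx y hy
      have h := Subgroup.commutator_mem_commutator hx hy
      rw [hbot, Subgroup.mem_bot] at h
      exact commutatorElement_eq_one_iff_mul_comm.mp h
    · exfalso
      have hNN : ⁅N, N⁆ = N :=
        hmin _ inferInstance (Subgroup.commutator_le_left N N) hbot
      have hperf : commutator N = ⊤ :=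
        Subgroup.map_injective N.subtype_injective (by
          rw [Subgroup.map_subtype_commutator, hNN, ← MonoidHom.range_eq_map, N.range_subtype])
      obtain ⟨x, hx⟩ := exists_normalClosure_eq_top hperf
      have hx1 : (x : G) ≠ 1 := by
        intro h
        apply hNbot
        have : x = 1 := Subtype.ext h
        rw [this, eq_bot_iff.mpr (Subgroup.normalClosure_le_normal (N := (⊥ : Subgroup N)) (s := ({1} : Set N)) (by simp))] at hx
        rw [eq_bot_iff]
        intro n hn
        have hmem : (⟨n, hn⟩ : N) ∈ (⊥ : Subgroup N) := hx ▸ Subgroup.mem_top _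
        rw [Subgroup.mem_bot] at hmem
        exact Subgroup.mem_bot.mpr (congrArg Subtype.val hmem)
      have hxa : (x : G) • a ≠ a := fun h =>
        hx1 (hinjN _ _ x.2 N.one_mem (by rw [one_smul, h]))
      apply hnobot _ hxa
      rw [eq_bot_iff]
      intro g hg
      rw [hmemC] at hg
      rw [Subgroup.mem_bot]
      let f : N → Ω := fun y => (y : G) • a
      have hf : Function.Injective f := fun y z h => Subtype.ext (hinjN _ _ y.2 z.2 h)
      let O : Set N := MulAction.orbit (ConjAct N) x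
      let T : Subgroup N :=
        { carrier := {y | g * (y : G) * g⁻¹ = y}
          one_mem' := by simp
          mul_mem' := fun {y z} hy hz => by
            show g * ((y * z : N) : G) * g⁻¹ = _
            push_cast
            have e : g * ((y : G) * z) * g⁻¹ = (g * y * g⁻¹) * (g * z * g⁻¹) := by group
            rw [e]
            exact congrArg₂ (· * ·) hy hz
          inv_mem' := fun {y} hy => by
            show g * ((y⁻¹ : N) : G) * g⁻¹ = _
            push_cast
            rw [← conj_inv]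
            exact congrArg Inv.inv hy }
      have hT : T = ⊤ := by
        rw [eq_top_iff, ← hx]
        refine (Subgroup.closure_le T).mpr ?_
        intro y hy
        rw [Group.mem_conjugatesOfSet_iff] at hy
        obtain ⟨z, rfl, hy⟩ := hy
        obtain ⟨c, hc⟩ := isConj_iff.mp hy
        show g * (y : G) * g⁻¹ = y
        rw [← hfix g _ hg.1 y.2]
        refine block (f '' O) ?_ ?_ ?_ g hg.1 _ ⟨z, MulAction.mem_orbit_self _, rfl⟩ hg.2 _
          ⟨y, ⟨ConjAct.toConjAct c, by
            show ConjAct.toConjAct c • z = y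
            rw [ConjAct.toConjAct_smul, hc]⟩, rfl⟩
        · rintro ⟨w, ⟨d, rfl⟩, hw⟩
          apply hx1
          have h1 : ((d • z : N) : G) = 1 :=
            hinjN _ _ (d • z : N).2 N.one_mem (by rw [one_smul]; exact hw)
          have h2 : (d • z : N) = 1 := Subtype.ext h1
          rw [ConjAct.smul_def, conj_eq_one_iff] at h2
          rw [h2]; rfl
        · rw [Nat.card_image_of_injective hf, hcardN, Nat.card_coe_set_eq]
          rw [show O.ncard = (MulAction.stabilizer (ConjAct N) z).index from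
            (MulAction.index_stabilizer (ConjAct N) z).symm]
          exact Subgroup.index_dvd_card _
        · rintro u hu ⟨_, ⟨_, ⟨d1, rfl⟩, rfl⟩, v, ⟨d2, hd2⟩, hv⟩ _ ⟨_, ⟨d3, rfl⟩, rfl⟩
          -- `u` conjugates `z` into its class
          obtain ⟨e1, he1⟩ : ∃ e, d1 • z = e * z * e⁻¹ := ⟨_, ConjAct.smul_def d1 z⟩
          obtain ⟨e2, he2⟩ : ∃ e, d2 • z = e * z * e⁻¹ := ⟨_, ConjAct.smul_def d2 z⟩
          obtain ⟨e3, he3⟩ : ∃ e, d3 • z = e * z * e⁻¹ := ⟨_, ConjAct.smul_def d3 z⟩
          simp only [he2] at hd2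
          subst hd2
          simp only [f, he1, he3] at hv ⊢
          rw [hconj u _ hu] at hv ⊢
          have hv' := hinjN _ _ (Subtype.prop _) (hN.conj_mem _ (Subtype.prop _) u) hv
          push_cast at hv' ⊢
          -- transport to the conjugate by `e3`
          let i1 : N := ⟨u * (e1 : G) * u⁻¹, hN.conj_mem _ e1.2 u⟩
          let i3 : N := ⟨u * (e3 : G) * u⁻¹, hN.conj_mem _ e3.2 u⟩
          refine ⟨(i3 * i1⁻¹ * e2) * z * (i3 * i1⁻¹ * e2)⁻¹,
            ⟨ConjAct.toConjAct (i3 * i1⁻¹ * e2), by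
              show ConjAct.toConjAct (i3 * i1⁻¹ * e2) • z = _
              rw [ConjAct.toConjAct_smul]⟩, ?_⟩
          show (((i3 * i1⁻¹ * e2) * z * (i3 * i1⁻¹ * e2)⁻¹ : N) : G) • a = _
          congr 1
          simp only [i1, i3]
          push_cast
          calc u * (e3 : G) * u⁻¹ * (u * (e1 : G) * u⁻¹)⁻¹ * e2 * z *
                (u * (e3 : G) * u⁻¹ * (u * (e1 : G) * u⁻¹)⁻¹ * e2)⁻¹
              = (u * (e3 : G) * u⁻¹ * (u * (e1 : G) * u⁻¹)⁻¹) * ((e2 : G) * z * (e2 : G)⁻¹) *
                (u * (e3 : G) * u⁻¹ * (u * (e1 : G) * u⁻¹)⁻¹)⁻¹ := by group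
            _ = _ := by rw [hv']; group
      refine hfaith g fun y => ?_
      obtain ⟨n, hn, rfl⟩ := hsurN y
      exact (hfix g n hg.1 hn).mpr (show (⟨n, hn⟩ : N) ∈ T from hT ▸ Subgroup.mem_top _)
  refine ⟨?_, ?_⟩
  · -- exponent
    have hN1 : Nat.card N ≠ 1 := fun h => hNbot (Subgroup.card_eq_one.mp h)
    obtain ⟨p, hp, hpd⟩ := Nat.exists_prime_and_dvd hN1
    haveI := Fact.mk hp
    refine ⟨p, hp, ⟨⟨fun x y => Subtype.ext (hcomm _ x.2 _ y.2)⟩⟩, ?_⟩
    let M : Subgroup G :=
      { carrier := {x | x ∈ N ∧ x ^ p = 1}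
        one_mem' := ⟨N.one_mem, one_pow p⟩
        mul_mem' := fun {x y} hx hy => ⟨N.mul_mem hx.1 hy.1, by
          rw [(Commute.mul_pow (hcomm x hx.1 y hy.1) p), hx.2, hy.2, one_mul]⟩
        inv_mem' := fun {x} hx => ⟨N.inv_mem hx.1, by rw [inv_pow, hx.2, inv_one]⟩ }
    have hM : M = N := by
      refine hmin M ⟨fun x hx g => ⟨hN.conj_mem x hx.1 g, by rw [conj_pow, hx.2]; group⟩⟩
        (fun x hx => hx.1) ?_
      obtain ⟨x, hx⟩ := exists_prime_orderOf_dvd_card' (G := N) p hpd
      intro h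
      have hxM : (x : G) ∈ M := ⟨x.2, by
        rw [← hx, ← Subgroup.orderOf_coe]; exact pow_orderOf_eq_one _⟩
      rw [h, Subgroup.mem_bot] at hxM
      rw [← Subgroup.orderOf_coe, hxM, orderOf_one] at hx
      exact hp.one_lt.ne hx
    intro x hx
    exact (hM.symm ▸ hx : x ∈ M).2
  · intro M hM hMb
    by_cases hMN : M ⊓ N = ⊥
    · exfalso
      apply hMb
      rw [eq_bot_iff]
      intro g hg
      -- `g` centralises `N`
      have hgc : ∀ n ∈ N, g * n = n * g := by
        intro n hn
        have h1 : g * n * g⁻¹ * n⁻¹ ∈ M ⊓ N := by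
          refine ⟨?_, N.mul_mem (hN.conj_mem n hn g) (N.inv_mem hn)⟩
          rw [show g * n * g⁻¹ * n⁻¹ = g * (n * g⁻¹ * n⁻¹) by group]
          exact M.mul_mem hg (hM.conj_mem _ (M.inv_mem hg) n)
        rw [hMN, Subgroup.mem_bot] at h1
        calc g * n = (g * n * g⁻¹ * n⁻¹) * (n * g) := by group
          _ = n * g := by rw [h1, one_mul]
      obtain ⟨n0, hn0, hna⟩ := hsurN (g • a)
      have hgn : g = n0 := by
        have hfix1 : ∀ y : Ω, (n0⁻¹ * g) • y = y := by
          intro y
          obtain ⟨n, hn, rfl⟩ := hsurN y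
          have e : (n0⁻¹ * g) * n = n * (n0⁻¹ * g) := by
            rw [mul_assoc, hgc n hn, ← mul_assoc, hcomm _ (N.inv_mem hn0) n hn, mul_assoc]
          rw [← mul_smul, e, mul_smul, mul_smul, ← hna, inv_smul_smul]
        exact (inv_mul_eq_one.mp (hfaith _ hfix1)).symm
      have : g ∈ M ⊓ N := ⟨hg, hgn ▸ hn0⟩
      rw [hMN] at this
      exact this
    · haveI := hM
      exact inf_eq_right.mp (hmin _ inferInstance inf_le_right hMN)


end Cfsg.Agent.S3356
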