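import Cfsg.Statements.S3357

import Cfsg.Agent.Lib.Struct4.FCModule
import Mathlib
set_option autoImplicit false
open Cfsg

namespace Cfsg.Agent.S3357


theorem one_notMem_charZero {k : Type} [Field k] [CharZero k] {C : Type} [Group C] [Finite C]
    (hZ : ∀ z : ℤ, z ≠ 0 → (z : MonoidAlgebra ℤ C) ∉ Struct4.fpfIdeal ℤ C) :
    (1 : MonoidAlgebra k C) ∉ Struct4.fpfIdeal k C := by
  intro h1
  obtain ⟨φ, hφ⟩ := (Algebra.linearMap ℚ k).exists_leftInverse_of_injective
    (LinearMap.ker_eq_bot.2 (algebraMap ℚ k).injective)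
  have hφ1 : φ 1 = 1 := by simpa using LinearMap.congr_fun hφ 1
  have key : ∀ x ∈ Struct4.fpfIdeal k C, ∀ ψ : k →+ ℚ, ∃ N : ℤ, N ≠ 0 ∧
      ∃ y ∈ Struct4.fpfIdeal ℤ C, ∀ g, (N : ℚ) * ψ (x.coeff g) = (y.coeff g : ℚ) := by
    intro x hx
    refine Submodule.span_induction ?_ ?_ ?_ ?_ hx
    · rintro _ ⟨c, g', hc, rfl⟩ ψ
      refine ⟨(ψ 1).den, by exact_mod_cast (ψ 1).den_nz, (ψ 1).num •
        (Struct4.normEl ℤ c * MonoidAlgebra.of ℤ C g'),
        zsmul_mem (Struct4.normEl_mul_mem ℤ hc _) _, fun g => ?_⟩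
      have hm : Struct4.normEl k c * MonoidAlgebra.of k C g' =
          MonoidAlgebra.mapRingHom C (Int.castRingHom k)
            (Struct4.normEl ℤ c * MonoidAlgebra.of ℤ C g') := by
        rw [map_mul, Struct4.map_normEl]
        simp [MonoidAlgebra.of_apply]
      set n := (Struct4.normEl ℤ c * MonoidAlgebra.of ℤ C g').coeff g with hn
      rw [hm, MonoidAlgebra.coeff_mapRingHom, MonoidAlgebra.coeff_smul, Finsupp.smul_apply, ← hn,
        Int.coe_castRingHom]
      show ((ψ 1).den : ℚ) * ψ ((n : k)) = _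
      rw [← zsmul_one n, map_zsmul, zsmul_eq_mul, smul_eq_mul, Int.cast_mul,
        mul_left_comm, mul_comm ((ψ 1).den : ℚ), Rat.mul_den_eq_num, mul_comm]
    · intro ψ
      exact ⟨1, one_ne_zero, 0, zero_mem _, fun g => by simp⟩
    · intro a b _ _ ha hb ψ
      obtain ⟨N, hN, y, hy, hy'⟩ := ha ψ
      obtain ⟨M, hM, z, hz, hz'⟩ := hb ψ
      refine ⟨N * M, mul_ne_zero hN hM, M • y + N • z, add_mem (zsmul_mem hy _) (zsmul_mem hz _),
        fun g => ?_⟩
      simp only [MonoidAlgebra.coeff_add, MonoidAlgebra.coeff_smul, Finsupp.add_apply,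
        Finsupp.smul_apply, map_add, Int.cast_add, Int.cast_mul, smul_eq_mul, mul_add, ← hy', ← hz']
      ring
    · intro a b _ hb
      rw [smul_eq_mul]
      induction a using MonoidAlgebra.induction_on generalizing b with
      | of m =>
        intro ψ
        obtain ⟨N, hN, y, hy, hy'⟩ := hb ψ
        refine ⟨N, hN, MonoidAlgebra.of ℤ C m * y, Ideal.mul_mem_left _ _ hy, fun g => ?_⟩
        have e1 : ∀ {R : Type} [CommRing R] (z : MonoidAlgebra R C),
            (MonoidAlgebra.of R C m * z).coeff g = z.coeff (m⁻¹ * g) := fun z => by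
          rw [MonoidAlgebra.of_apply,
            MonoidAlgebra.coeff_single_mul_eq_mul_coeff (m⁻¹ * g) (fun a _ => eq_inv_mul_iff_mul_eq.symm),
            one_mul]
        rw [e1, e1]
        exact hy' (m⁻¹ * g)
      | add a a' ha ha' =>
        intro ψ
        obtain ⟨N, hN, y, hy, hy'⟩ := ha b (by assumption) hb ψ
        obtain ⟨M, hM, z, hz, hz'⟩ := ha' b (by assumption) hb ψ
        refine ⟨N * M, mul_ne_zero hN hM, M • y + N • z, add_mem (zsmul_mem hy _) (zsmul_mem hz _),
          fun g => ?_⟩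
        simp only [add_mul, MonoidAlgebra.coeff_add, MonoidAlgebra.coeff_smul, Finsupp.add_apply,
          Finsupp.smul_apply, map_add, Int.cast_add, Int.cast_mul, smul_eq_mul, mul_add, ← hy', ← hz']
        ring
      | smul r a ha =>
        intro ψ
        obtain ⟨N, hN, y, hy, hy'⟩ := ha b (by assumption) hb (ψ.comp (AddMonoidHom.mulLeft r))
        refine ⟨N, hN, y, hy, fun g => ?_⟩
        simpa [smul_mul_assoc] using hy' g
  obtain ⟨N, hN, y, hy, hy'⟩ := key 1 h1 φ.toAddMonoidHom
  refine hZ N hN ?_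
  convert hy
  refine MonoidAlgebra.ext (Finsupp.ext fun g => ?_)
  have h := hy' g
  rw [← Int.cast_inj (α := ℚ), ← h]
  classical
  rw [MonoidAlgebra.one_def, MonoidAlgebra.intCast_def]
  by_cases hg : (1 : C) = g
  · subst hg; simp [hφ1]
  · simp [hg, Ne.symm hg]

/-- Let G be a finite group that occurs as a Frobenius complement. Then G has a faithful irreducible representation over an algebraic closure of the rationals in which no non-identity element of G has 1 as an eigenvalue: there are n ≥ 1 and an injective homomorphism ρ from G to GL(n) over that field, with no invariant subspace other than 0 and the whole space, such that for g ≠ 1 the only vector fixed by ρ(g) is 0. -/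
theorem result {G : Type*} [Group G] [Finite G]
    (hFC : ∃ (L : Type) (_ : Group L) (_ : Finite L) (H : Subgroup L), Cfsg.IsFrobeniusComplement H ∧ Nonempty (G ≃* H)) :
    ∃ (n : ℕ) (ρ : G →* GL (Fin n) (AlgebraicClosure ℚ)), 0 < n ∧ Function.Injective ρ ∧
      (∀ W : Submodule (AlgebraicClosure ℚ) (Fin n → AlgebraicClosure ℚ),
        (∀ g : G, ∀ w ∈ W, ((ρ g : GL (Fin n) (AlgebraicClosure ℚ)) : Matrix (Fin n) (Fin n) (AlgebraicClosure ℚ)).mulVec w ∈ W) → W = ⊥ ∨ W = ⊤) ∧
      ∀ g : G, g ≠ 1 → ∀ v : Fin n → AlgebraicClosure ℚ,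
        ((ρ g : GL (Fin n) (AlgebraicClosure ℚ)) : Matrix (Fin n) (Fin n) (AlgebraicClosure ℚ)).mulVec v = v → v = 0 := by
  classical
  obtain ⟨C, _, _, ⟨e⟩⟩ := Struct4.exists_type0 G
  obtain ⟨L, _, _, H, hF, ⟨f⟩⟩ := Struct4.IsFC.of_mulEquiv hFC e.symm
  obtain ⟨p, _, hpH, V, _, _, σ, hpV, hσ⟩ := Struct4.exists_elementary_of_fc hF
  have hZ : ∀ z : ℤ, z ≠ 0 → (z : MonoidAlgebra ℤ C) ∉ Struct4.fpfIdeal ℤ C := fun z hz =>
    Struct4.intCast_notMem (by rwa [Nat.card_congr f.toEquiv])
      (Struct4.one_notMem_of_fpf hpV (σ.comp f.toMonoidHom)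
        fun c hc v hv => hσ (f c) (by simpa using hc) v hv) hz
  set k := AlgebraicClosure ℚ
  have hI : Struct4.fpfIdeal k C ≠ ⊤ := fun h => one_notMem_charZero hZ (h ▸ Submodule.mem_top)
  obtain ⟨m, hm, hle⟩ := Ideal.exists_le_maximal _ hI
  let m' : Submodule k (MonoidAlgebra k C) := m.restrictScalars k
  let M := MonoidAlgebra k C ⧸ m'
  have : Module.Finite k (MonoidAlgebra k C) :=
    Module.Finite.equiv (MonoidAlgebra.coeffLinearEquiv k).symm
  have : Nontrivial M := Submodule.Quotient.nontrivial_iff.2 fun h =>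
    hm.ne_top (Submodule.restrictScalars_eq_top_iff _ _ _ |>.1 h)
  let lin : MonoidAlgebra k C → (M →ₗ[k] M) := fun x =>
    m'.mapQ m' (LinearMap.mulLeft k x) fun y hy => Ideal.mul_mem_left m x hy
  have hlin : ∀ x y, lin x (Submodule.Quotient.mk y) = Submodule.Quotient.mk (x * y) := fun x y => rfl
  let b := Module.finBasis k M
  let θ : C →* (M →ₗ[k] M) :=
    { toFun := fun c => lin (MonoidAlgebra.of k C c)
      map_one' := LinearMap.ext fun v => by
        obtain ⟨y, rfl⟩ := Submodule.Quotient.mk_surjective m' v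
        rw [map_one, hlin, one_mul]; rfl
      map_mul' := fun c d => LinearMap.ext fun v => by
        obtain ⟨y, rfl⟩ := Submodule.Quotient.mk_surjective m' v
        rw [Module.End.mul_apply]
        rw [hlin, hlin, hlin, map_mul, mul_assoc] }
  have hfix : ∀ c : C, c ≠ 1 → ∀ v, θ c v = v → v = 0 := by
    intro c hc v hv
    have hp : ∀ i : ℕ, lin (MonoidAlgebra.of k C (c ^ i)) v = v := fun i => by
      show θ (c ^ i) v = v
      induction i with
      | zero => rw [pow_zero, map_one]; rfl
      | succ i ih => rw [pow_succ, map_mul]; exact (congrArg (θ (c ^ i)) hv).trans ih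
    obtain ⟨y, rfl⟩ := Submodule.Quotient.mk_surjective m' v
    have h0 : Submodule.Quotient.mk (p := m') (Struct4.normEl k c * y) = 0 :=
      (Submodule.Quotient.mk_eq_zero _).2 (hle (Struct4.normEl_mul_mem k hc y))
    simp only [hlin] at hp
    have h1 : Submodule.Quotient.mk (p := m') (Struct4.normEl k c * y) =
        orderOf c • Submodule.Quotient.mk (p := m') y := by
      rw [Struct4.normEl, Finset.sum_mul, ← Submodule.mkQ_apply, map_sum]
      simp only [Submodule.mkQ_apply, hp, Finset.sum_const, Finset.card_range]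
    rw [h1, ← Nat.cast_smul_eq_nsmul k] at h0
    exact (smul_eq_zero.1 h0).resolve_left (by exact_mod_cast (orderOf_pos c).ne')
  let A : C →* Matrix (Fin (Module.finrank k M)) (Fin (Module.finrank k M)) k :=
    (LinearMap.toMatrixAlgEquiv b).toAlgHom.toRingHom.toMonoidHom.comp θ
  have hA : ∀ c v, (A c).mulVec (b.equivFun v) = b.equivFun (θ c v) := fun c v => by
    show (LinearMap.toMatrix b b (θ c)).mulVec (b.repr v) = _
    rw [LinearMap.toMatrix_mulVec_repr]
    rfl
  let ρ : G →* GL (Fin (Module.finrank k M)) k := A.toHomUnits.comp e.toMonoidHom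
  have hρ : ∀ g : G, ((ρ g : GL (Fin (Module.finrank k M)) k) :
      Matrix (Fin (Module.finrank k M)) (Fin (Module.finrank k M)) k) = A (e g) := fun g => rfl
  have hfixρ : ∀ g : G, g ≠ 1 → ∀ v, (A (e g)).mulVec v = v → v = 0 := fun g hg v hv => by
    obtain ⟨u, rfl⟩ := b.equivFun.surjective v
    rw [hA, EmbeddingLike.apply_eq_iff_eq] at hv
    rw [hfix (e g) (by simpa using hg) u hv, map_zero]
  refine ⟨Module.finrank k M, ρ, Module.finrank_pos, (injective_iff_map_eq_one _).2 fun g hg => ?_,
    fun W hW => ?_, fun g hg v hv => hfixρ g hg v (by rwa [← hρ])⟩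
  · by_contra hg1
    obtain ⟨u, hu⟩ := exists_ne (0 : M)
    refine hu (b.equivFun.map_eq_zero_iff.1 (hfixρ g hg1 _ ?_))
    rw [← hρ, hg, Units.val_one, Matrix.one_mulVec]
  · let W' : Submodule k (MonoidAlgebra k C) := (W.comap b.equivFun.toLinearMap).comap m'.mkQ
    let J : Ideal (MonoidAlgebra k C) :=
      { carrier := W'
        add_mem' := W'.add_mem
        zero_mem' := W'.zero_mem
        smul_mem' := fun a x hx => by
          show a * x ∈ W'
          induction a using MonoidAlgebra.induction_on with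
          | of c =>
            have h := hW (e.symm c) _ hx
            rw [hρ, MulEquiv.apply_symm_apply] at h
            change b.equivFun (Submodule.Quotient.mk (MonoidAlgebra.of k C c * x)) ∈ W
            rw [← hlin]
            exact (hA c (Submodule.Quotient.mk x)) ▸ h
          | add a a' ha ha' => rw [add_mul]; exact W'.add_mem ha ha'
          | smul r a ha => rw [smul_mul_assoc]; exact W'.smul_mem r ha }
    have hmJ : m ≤ J := fun x hx => by
      show b.equivFun (Submodule.Quotient.mk x) ∈ W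
      rw [(Submodule.Quotient.mk_eq_zero m').2 hx, map_zero]
      exact W.zero_mem
    rcases hm.out.le_iff.1 hmJ with h | h
    · right
      refine eq_top_iff.2 fun w _ => ?_
      obtain ⟨u, rfl⟩ := b.equivFun.surjective w
      obtain ⟨x, rfl⟩ := Submodule.Quotient.mk_surjective m' u
      have : x ∈ J := h ▸ Submodule.mem_top
      exact this
    · left
      refine eq_bot_iff.2 fun w hw => ?_
      obtain ⟨u, rfl⟩ := b.equivFun.surjective w
      obtain ⟨x, rfl⟩ := Submodule.Quotient.mk_surjective m' u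
      have : x ∈ m := h ▸ (show x ∈ J from hw)
      rw [Submodule.mem_bot, (Submodule.Quotient.mk_eq_zero m').2 this, map_zero]

end Cfsg.Agent.S3357
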