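import Cfsg.Statements.S3358
import Mathlib
import Cfsg.Agent.Lib.ZassSL25.SixTypes

set_option autoImplicit false
open Cfsg

namespace Cfsg.Agent.S3358

open Subgroup Lib.ZassSL25
open scoped commutatorElement

/-- The presentation of a metacyclic group. -/
theorem nonempty_presented {G : Type*} [Group G] [Finite G] {x y : G} {n m r : ℕ} (hn : 0 < n) (hm : 0 < m)
    (hx : x ^ n = 1) (hy : y ^ m = 1) (hxy : x⁻¹ * y * x = y ^ r) (hgen : closure ({x, y} : Set G) = ⊤)
    (hcard : n * m ≤ Nat.card G) :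
    Nonempty (G ≃* PresentedGroup
      ({FreeGroup.of (0 : Fin 2) ^ n, FreeGroup.of (1 : Fin 2) ^ m,
        (FreeGroup.of (0 : Fin 2))⁻¹ * FreeGroup.of 1 * FreeGroup.of 0 * (FreeGroup.of (1 : Fin 2) ^ r)⁻¹} :
        Set (FreeGroup (Fin 2)))) := by
  set rels := ({FreeGroup.of (0 : Fin 2) ^ n, FreeGroup.of (1 : Fin 2) ^ m,
        (FreeGroup.of (0 : Fin 2))⁻¹ * FreeGroup.of 1 * FreeGroup.of 0 * (FreeGroup.of (1 : Fin 2) ^ r)⁻¹} :
        Set (FreeGroup (Fin 2)))
  set a : PresentedGroup rels := PresentedGroup.of 0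
  set b : PresentedGroup rels := PresentedGroup.of 1
  have ha : a ^ n = 1 := PresentedGroup.one_of_mem (Or.inl rfl)
  have hb : b ^ m = 1 := PresentedGroup.one_of_mem (Or.inr (Or.inl rfl))
  have hab : a⁻¹ * b * a = b ^ r :=
    mul_inv_eq_one.1 (PresentedGroup.one_of_mem (rels := rels) (Or.inr (Or.inr rfl)))
  have hconj : ∀ k : ℕ, ∀ j : ℕ, b ^ j * a ^ k = a ^ k * b ^ (j * r ^ k) := by
    intro k
    induction k with
    | zero => intro j; simp
    | succ k ih =>
      intro j
      have h1 : b ^ (j * r ^ k) * a = a * b ^ (j * r ^ k * r) := by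
        rw [mul_comm (j * r ^ k) r, pow_mul b r, ← hab, show a⁻¹ * b * a = a⁻¹ * b * (a⁻¹)⁻¹ by rw [inv_inv],
          conj_pow, inv_inv]
        group
      calc b ^ j * a ^ (k + 1) = b ^ j * a ^ k * a := by rw [pow_succ, mul_assoc]
        _ = a ^ k * (b ^ (j * r ^ k) * a) := by rw [ih, mul_assoc]
        _ = a ^ k * a * b ^ (j * r ^ k * r) := by rw [h1, ← mul_assoc]
        _ = a ^ (k + 1) * b ^ (j * r ^ (k + 1)) := by rw [← pow_succ, pow_succ r, mul_assoc j]
  have hmod : ∀ i j : ℕ, a ^ i * b ^ j = a ^ (i % n) * b ^ (j % m) := fun i j => by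
    rw [← pow_eq_pow_mod i ha, ← pow_eq_pow_mod j hb]
  have hmul : ∀ i j k l : ℕ, a ^ i * b ^ j * (a ^ k * b ^ l) = a ^ (i + k) * b ^ (j * r ^ k + l) := by
    intro i j k l
    rw [pow_add, pow_add, show a ^ i * b ^ j * (a ^ k * b ^ l) = a ^ i * (b ^ j * a ^ k) * b ^ l by group, hconj]
    group
  have hall : ∀ g : PresentedGroup rels, ∃ i j : ℕ, g = a ^ i * b ^ j := by
    intro g
    have hg : g ∈ closure (Set.range (PresentedGroup.of (rels := rels))) := by
      rw [PresentedGroup.closure_range_of rels]; exact mem_top g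
    induction hg using closure_induction with
    | mem v hv =>
      obtain ⟨s, rfl⟩ := hv
      fin_cases s
      · exact ⟨1, 0, by simp [a]⟩
      · exact ⟨0, 1, by simp [b]⟩
    | one => exact ⟨0, 0, by simp⟩
    | mul v w _ _ hv hw =>
      obtain ⟨i, j, rfl⟩ := hv
      obtain ⟨k, l, rfl⟩ := hw
      exact ⟨_, _, hmul i j k l⟩
    | inv v _ hv =>
      obtain ⟨i, j, rfl⟩ := hv
      have hbi : (b ^ j)⁻¹ = b ^ (j * (m - 1)) := by
        rw [inv_eq_iff_mul_eq_one, ← pow_add, ← mul_one_add, show 1 + (m - 1) = m by omega, mul_comm,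
          pow_mul, hb, one_pow]
      have hai : (a ^ i)⁻¹ = a ^ (i * (n - 1)) := by
        rw [inv_eq_iff_mul_eq_one, ← pow_add, ← mul_one_add, show 1 + (n - 1) = n by omega, mul_comm,
          pow_mul, ha, one_pow]
      refine ⟨i * (n - 1), j * (m - 1) * r ^ (i * (n - 1)), ?_⟩
      rw [mul_inv_rev, hbi, hai, hconj]
  have hsur : Function.Surjective fun p : Fin n × Fin m => a ^ p.1.val * b ^ p.2.val := fun g => by
    obtain ⟨i, j, rfl⟩ := hall g
    exact ⟨(⟨i % n, Nat.mod_lt i hn⟩, ⟨j % m, Nat.mod_lt j hm⟩), (hmod i j).symm⟩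
  haveI : Finite (PresentedGroup rels) := Finite.of_surjective _ hsur
  have hle : Nat.card (PresentedGroup rels) ≤ n * m := by
    have := Nat.card_le_card_of_surjective _ hsur
    rwa [Nat.card_prod, Nat.card_fin, Nat.card_fin] at this
  let f : PresentedGroup rels →* G := PresentedGroup.toGroup (f := ![x, y]) (by
    rintro w (rfl | rfl | rfl) <;> simp only [map_pow, map_mul, map_inv, FreeGroup.lift_apply_of]
    · exact hx
    · exact hy
    · rw [mul_inv_eq_one]; exact hxy)
  have hf : Function.Surjective f := by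
    rw [← MonoidHom.range_eq_top, eq_top_iff, ← hgen, closure_le]
    rintro _ (rfl | rfl)
    · exact ⟨a, PresentedGroup.toGroup.of _⟩
    · exact ⟨b, PresentedGroup.toGroup.of _⟩
  exact ⟨(MulEquiv.ofBijective f (hf.bijective_of_nat_card_le (hle.trans hcard))).symm⟩

/-- The arithmetic of a Z-group with a fixed-point-free character. -/
theorem zgroup_presented {G : Type*} [Group G] [Finite G] (h : FPFGroup G) [IsZGroup G] :
    ∃ n m r : ℕ, 0 < n ∧ 0 < m ∧ Nat.Coprime (r - 1) m ∧ Nat.Coprime n m ∧ 1 ≤ r ∧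
      r ^ (n / ∏ p ∈ n.primeFactors, p) % m = 1 % m ∧
      Nonempty (G ≃* PresentedGroup
        ({FreeGroup.of (0 : Fin 2) ^ n, FreeGroup.of (1 : Fin 2) ^ m,
          (FreeGroup.of (0 : Fin 2))⁻¹ * FreeGroup.of 1 * FreeGroup.of 0 * (FreeGroup.of (1 : Fin 2) ^ r)⁻¹} :
          Set (FreeGroup (Fin 2)))) := by
  classical
  set C := commutator G
  haveI : IsCyclic C := IsZGroup.isCyclic_commutator G
  obtain ⟨y0, hy0⟩ := IsCyclic.exists_generator (α := C)
  set y : G := (y0 : G)
  set m := Nat.card C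
  set n := C.index
  have hm : 0 < m := Nat.card_pos
  have hn : 0 < n := Nat.pos_of_ne_zero Subgroup.index_ne_zero_of_finite
  have hcop : Nat.Coprime m n := IsZGroup.coprime_commutator_index G
  have hC : C = zpowers y := le_antisymm (fun v hv => by
    obtain ⟨j, hj⟩ := mem_zpowers_iff.1 (hy0 ⟨v, hv⟩)
    exact ⟨j, show y ^ j = v by rw [← SubgroupClass.coe_zpow, hj]⟩) (zpowers_le.2 y0.2)
  have hym : orderOf y = m := by rw [← Nat.card_zpowers, ← hC]
  -- a complement generator
  obtain ⟨q, hq⟩ := IsCyclic.exists_generator (α := Abelianization G)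
  obtain ⟨x0, hx0⟩ := QuotientGroup.mk_surjective (s := C) q
  set x := x0 ^ m with hxdef
  have hxn : x ^ n = 1 := by
    rw [hxdef, ← pow_mul, mul_comm, pow_mul]
    exact congrArg Subtype.val (pow_card_eq_one' (x := (⟨x0 ^ n, C.pow_index_mem x0⟩ : C)))
  have hCn : C.Normal := inferInstance
  have hgen : closure ({x, y} : Set G) = ⊤ := by
    set K := closure ({x, y} : Set G)
    have hCK : C ≤ K := hC ▸ zpowers_le.2 (subset_closure (Or.inr rfl))
    have hx0K : x0 ∈ K := mem_of_coprime_pows K hcop (subset_closure (Or.inl rfl)) (hCK (C.pow_index_mem x0))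
    rw [eq_top_iff]
    intro g _
    obtain ⟨j, hj⟩ := mem_zpowers_iff.1 (hq (QuotientGroup.mk g))
    rw [← hx0] at hj
    have : (x0 ^ j)⁻¹ * g ∈ C := QuotientGroup.eq.1 hj
    rw [← mul_inv_cancel_left (x0 ^ j) g]
    exact mul_mem (zpow_mem hx0K j) (hCK this)
  have hxy' : x⁻¹ * y * x ∈ C := by
    have := hCn.conj_mem y y0.2 x⁻¹
    rwa [inv_inv] at this
  rw [hC] at hxy'
  obtain ⟨j, hj⟩ := mem_zpowers_iff.1 hxy'
  set r := (j % (m : ℤ)).toNat + m
  have hr1 : 1 ≤ r := by omega
  have hr : y ^ r = x⁻¹ * y * x := by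
    rw [← hj, ← zpow_natCast, zpow_eq_zpow_iff_modEq, hym]
    have : ((r : ℕ) : ℤ) = j % (m : ℤ) + m := by
      rw [Nat.cast_add, Int.toNat_of_nonneg (Int.emod_nonneg j (by omega))]
    rw [this]
    show (j % (m : ℤ) + m) % m = j % m
    rw [Int.add_emod_right, Int.emod_emod_of_dvd j dvd_rfl]
  refine ⟨n, m, r, hn, hm, ?_, hcop.symm, hr1, ?_, nonempty_presented hn hm hxn (hym ▸ pow_orderOf_eq_one y) hr.symm hgen ?_⟩
  · -- the commutator is generated by the twist
    rw [Nat.coprime_iff_gcd_eq_one]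
    by_contra hne
    obtain ⟨p, hp, hpd⟩ := Nat.exists_prime_and_dvd hne
    have hpr : p ∣ r - 1 := hpd.trans (Nat.gcd_dvd_left _ _)
    have hpm : p ∣ m := hpd.trans (Nat.gcd_dvd_right _ _)
    set D := zpowers (y ^ p)
    have hDn : D.Normal := ⟨fun v hv g => by
      obtain ⟨i, rfl⟩ := mem_zpowers_iff.1 hv
      have hgy := hCn.conj_mem y y0.2 g
      rw [hC] at hgy
      obtain ⟨k, hk⟩ := mem_zpowers_iff.1 hgy
      refine ⟨k * i, ?_⟩
      show (y ^ p) ^ (k * i) = _
      rw [← conj_zpow, ← conj_pow, ← hk, ← zpow_natCast y, ← zpow_natCast (y ^ k), ← zpow_mul, ← zpow_mul,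
        ← zpow_mul]
      congr 1; ring⟩
    haveI := hDn
    let π := QuotientGroup.mk' D
    have hcomm : Commute (π x) (π y) := by
      obtain ⟨k, hk⟩ := hpr
      have h1 : (π y) ^ p = 1 := by
        rw [← map_pow]; exact (QuotientGroup.eq_one_iff _).2 (mem_zpowers _)
      have h2 : π (x⁻¹ * y * x) = π y := by
        rw [← hr, map_pow, show r = p * k + 1 by omega, pow_succ, pow_mul, h1, one_pow, one_mul]
      rw [map_mul, map_mul, map_inv, mul_assoc, inv_mul_eq_iff_eq_mul] at h2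
      exact h2.symm
    have hle : C ≤ D := by
      rw [show C = ⁅(⊤ : Subgroup G), ⊤⁆ from _root_.commutator_def G, commutator_le]
      intro u _ v _
      have hgen2 : ∀ g : G, π g ∈ closure ({π x, π y} : Set (G ⧸ D)) := fun g => by
        have hg : g ∈ closure ({x, y} : Set G) := hgen ▸ mem_top g
        have := mem_map_of_mem π hg
        rwa [MonoidHom.map_closure, Set.image_pair] at this
      haveI : IsMulCommutative (closure ({π x, π y} : Set (G ⧸ D))) := by
        refine isMulCommutative_closure ?_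
        rintro a (rfl | rfl) b (rfl | rfl)
        · rfl
        · exact hcomm
        · exact hcomm.symm
        · rfl
      have hc : π u * π v = π v * π u :=
        congrArg Subtype.val (mul_comm' (⟨_, hgen2 u⟩ : closure ({π x, π y} : Set (G ⧸ D))) ⟨_, hgen2 v⟩)
      rw [← QuotientGroup.eq_one_iff]
      show π ⁅u, v⁆ = 1
      rw [map_commutatorElement, commutatorElement_eq_one_iff_mul_comm]
      exact hc
    obtain ⟨i, hi⟩ := mem_zpowers_iff.1 (hle y0.2)
    rw [← zpow_natCast, ← zpow_mul] at hi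
    have h2 : y ^ ((p : ℤ) * i - 1) = 1 := by
      rw [zpow_sub, hi, zpow_one, mul_inv_cancel]
    rw [← orderOf_dvd_iff_zpow_eq_one, hym] at h2
    have h3 : (p : ℤ) ∣ (p : ℤ) * i - ((p : ℤ) * i - 1) :=
      dvd_sub (dvd_mul_right _ _) ((Int.natCast_dvd_natCast.2 hpm).trans h2)
    rw [sub_sub_cancel] at h3
    exact hp.ne_one (Nat.dvd_one.1 (by exact_mod_cast h3))
  · -- elements of prime order of the complement centralise the commutator
    haveI : Fact (Nat.Prime 2) := ⟨Nat.prime_two⟩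
    have hmodd : Odd m := by
      obtain ⟨O, T, -, -, hOn, hOodd, -, -, hTc, -, hdec⟩ := exists_odd_complement (⊤ : Subgroup G)
        fun T _ hT => hT.isCyclic_of_isZGroup
      haveI : O.Normal := normalizer_eq_top_iff.1 (top_le_iff.1 hOn)
      refine Odd.of_dvd_nat hOodd (card_dvd_of_le ?_)
      rw [show C = ⁅(⊤ : Subgroup G), ⊤⁆ from _root_.commutator_def G, commutator_le]
      intro u _ v _
      obtain ⟨o, ho, t, ht, rfl⟩ := hdec u (mem_top u)
      obtain ⟨o', ho', t', ht', rfl⟩ := hdec v (mem_top v)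
      rw [← QuotientGroup.eq_one_iff]
      show QuotientGroup.mk' O ⁅o * t, o' * t'⁆ = 1
      rw [map_commutatorElement, commutatorElement_eq_one_iff_mul_comm, map_mul, map_mul,
        (show QuotientGroup.mk' O o = 1 from (QuotientGroup.eq_one_iff o).2 ho),
        (show QuotientGroup.mk' O o' = 1 from (QuotientGroup.eq_one_iff o').2 ho'), one_mul, one_mul,
        ← map_mul, ← map_mul]
      haveI := hTc
      exact congrArg _ (congrArg Subtype.val (mul_comm' (⟨t, ht⟩ : T) ⟨t', ht'⟩))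
    set n' := ∏ p ∈ n.primeFactors, p
    have hn'd : n' ∣ n := Nat.prod_primeFactors_dvd n
    set w := x ^ (n / n')
    have hwn' : w ^ n' = 1 := by rw [← pow_mul, Nat.div_mul_cancel hn'd, hxn]
    have hw : w ∈ centralizer (C : Set G) := by
      refine mem_of_primePow_powers fun p k i hp hk => ?_
      rcases k with _ | k
      · rw [(orderOf_eq_one_iff (x := w ^ i)).1 (by rw [hk, pow_zero])]; exact one_mem _
      have hdvd : p ^ (k + 1) ∣ n' := by
        rw [← hk]
        refine orderOf_dvd_of_pow_eq_one ?_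
        rw [← pow_mul, mul_comm, pow_mul, hwn', one_pow]
      have hk0 : k = 0 := by
        by_contra hk0
        have hsq : Squarefree n' := by
          refine Finset.squarefree_prod_of_pairwise_isCoprime (fun a ha b hb hab => ?_)
            fun a ha => (Nat.prime_of_mem_primeFactors ha).squarefree
          exact Nat.coprime_iff_isRelPrime.1
            ((Nat.coprime_primes (Nat.prime_of_mem_primeFactors ha) (Nat.prime_of_mem_primeFactors hb)).2 hab)
        refine hp.ne_one (Nat.isUnit_iff.1 (hsq p ((dvd_trans ?_ hdvd))))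
        rw [← pow_two]; exact pow_dvd_pow p (by omega)
      subst hk0
      rw [zero_add, pow_one] at hk
      have hpn : p ∣ n := ((pow_one p).symm ▸ hdvd : p ∣ n').trans hn'd
      have hpm : ¬ p ∣ m := fun e => hp.ne_one (Nat.eq_one_of_dvd_coprimes hcop e hpn)
      refine mem_centralizer_iff.2 fun v hv => ?_
      refine mem_centralizer_singleton_iff.1 (le_centralizer_of_prime_fixed h (O := C) hmodd
        (by rw [normalizer_eq_top]; exact mem_top _) (hk.symm ▸ hp.coprime_iff_not_dvd.2 hpm) (fun v hv hvp => ?_) hv)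
      refine commute_of_prime_normalises h hvp hp rfl hk (mem_normalizer_of_forall_conj_mem ?_)
      intro u hu
      obtain ⟨t, rfl⟩ := mem_zpowers_iff.1 hu
      rw [← conj_zpow]
      refine zpow_mem ?_ t
      have hgv := hCn.conj_mem v hv (w ^ i)
      have hcv : Commute (w ^ i * v * (w ^ i)⁻¹) v := congrArg Subtype.val (mul_comm' (⟨_, hgv⟩ : C) ⟨v, hv⟩)
      exact (zpowers_eq_of_commute h hvp (orderOf_conj' _ v) rfl hcv) ▸ mem_zpowers _
    have hiter : ∀ k : ℕ, (x ^ k)⁻¹ * y * x ^ k = y ^ r ^ k := by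
      intro k
      induction k with
      | zero => simp
      | succ k ih =>
        calc (x ^ (k + 1))⁻¹ * y * x ^ (k + 1) = x⁻¹ * ((x ^ k)⁻¹ * y * x ^ k) * x := by rw [pow_succ]; group
          _ = x⁻¹ * y ^ r ^ k * (x⁻¹)⁻¹ := by rw [ih, inv_inv]
          _ = y ^ r ^ (k + 1) := by rw [← conj_pow, inv_inv, ← hr, ← pow_mul, ← pow_succ']
    have h1 := hiter (n / n')
    rw [mul_assoc, mem_centralizer_iff.1 hw y y0.2, inv_mul_cancel_left] at h1
    have h2 : y ^ r ^ (n / n') = y ^ 1 := h1.symm.trans (pow_one y).symm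
    rw [pow_eq_pow_iff_modEq, hym] at h2
    exact h2
  · rw [mul_comm, C.card_mul_index]

/-- An embedding of the four-group into the symmetric group of degree four. -/
theorem exists_klein_embedding : ∃ e : DihedralGroup 2 →* Equiv.Perm (Fin 4), Function.Injective e := by
  obtain ⟨ι⟩ : Nonempty (DihedralGroup 2 ≃ Fin 4) := ⟨Fintype.equivFinOfCardEq DihedralGroup.card⟩
  exact ⟨ι.permCongrHom.toMonoidHom.comp (MulAction.toPermHom (DihedralGroup 2) (DihedralGroup 2)),
    ι.permCongrHom.injective.comp MulAction.toPerm_injective⟩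


/-- Structure of solvable Frobenius complements. Let G be a finite solvable group that occurs as a Frobenius complement. Then G has a normal subgroup G₀ such that G/G₀ is isomorphic to a subgroup of Sym(4) (G₀ is the kernel of a homomorphism to Sym(4)), all Sylow subgroups of G₀ are cyclic, and G₀ has a presentation ⟨x, y | x^n = 1, y^m = 1, x⁻¹ y x = y^r⟩ with n, m ≥ 1, gcd(r − 1, m) = gcd(n, m) = 1 and r^(n/n′) ≡ 1 (mod m), where n′ is the product of the distinct primes dividing n. -/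
theorem result {G : Type*} [Group G] [Finite G] (hsol : Group.IsSolvable G)
    (hFC : ∃ (L : Type) (_ : Group L) (_ : Finite L) (H : Subgroup L), Cfsg.IsFrobeniusComplement H ∧ Nonempty (G ≃* H)) :
    ∃ G₀ : Subgroup G, G₀.Normal ∧
      (∃ f : G →* Equiv.Perm (Fin 4), f.ker = G₀) ∧
      (∀ (p : ℕ) [Fact p.Prime] (P : Sylow p G₀), IsCyclic P) ∧
      ∃ n m r : ℕ, 0 < n ∧ 0 < m ∧ Nat.Coprime (r - 1) m ∧ Nat.Coprime n m ∧ 1 ≤ r ∧
        r ^ (n / ∏ p ∈ n.primeFactors, p) % m = 1 % m ∧
        Nonempty (G₀ ≃* PresentedGroup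
          ({FreeGroup.of (0 : Fin 2) ^ n, FreeGroup.of (1 : Fin 2) ^ m,
            (FreeGroup.of (0 : Fin 2))⁻¹ * FreeGroup.of 1 * FreeGroup.of 0 * (FreeGroup.of (1 : Fin 2) ^ r)⁻¹} :
            Set (FreeGroup (Fin 2)))) := by
  haveI := hsol
  have h := fpfGroup_of_isFC hFC
  obtain ⟨N, ⟨hn, hZ, hq⟩, -⟩ := sixTypes_unique h
  haveI := hZ
  refine ⟨N, hn, ?_, fun p hp P => @IsZGroup.isZGroup _ _ hZ p hp.out P, zgroup_presented (h.subgroup N)⟩
  rcases hq with rfl | ⟨f, hf, hk⟩ | ⟨f, hf, hk⟩ | ⟨f, hf, hk⟩ | ⟨f, hf, hk⟩ | ⟨f, hf, hk⟩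
  · exact ⟨1, MonoidHom.ker_one⟩
  · obtain ⟨e, he⟩ := exists_klein_embedding
    exact ⟨e.comp f, by rw [← MonoidHom.comap_ker, (MonoidHom.ker_eq_bot_iff e).2 he, MonoidHom.comap_bot, hk]⟩
  · exact ⟨(alternatingGroup (Fin 4)).subtype.comp f, by
      rw [← MonoidHom.comap_ker, Subgroup.ker_subtype, MonoidHom.comap_bot, hk]⟩
  · exact ⟨f, hk⟩
  · exfalso
    haveI : Group.IsSolvable (alternatingGroup (Fin 5)) := Group.isSolvable_of_surjective hf
    obtain ⟨a, b, h1, h2, h3, h4, h5, h6⟩ := good_alt_five.klein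
    exact Equiv.Perm.fin_5_not_solvable <| Group.isSolvable_of_ker_le_range (alternatingGroup (Fin 5)).subtype
      Equiv.Perm.sign (by rw [Subgroup.range_subtype, alternatingGroup_eq_sign_ker])
  · exact absurd (Group.isSolvable_of_surjective hf) Equiv.Perm.fin_5_not_solvable

end Cfsg.Agent.S3358
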