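import Cfsg.Statements.S3359
import Mathlib
import Cfsg.Agent.Lib.ZassSL25.Structure

set_option autoImplicit false
open Cfsg

namespace Cfsg.Agent.S3359

/-- Structure of non-solvable Frobenius complements. Let G be a finite non-solvable group that occurs as a Frobenius complement. Then G has a normal subgroup G₀ of index 1 or 2 which is the direct product of a subgroup isomorphic to SL(2,5) and a subgroup M of order prime to 30 all of whose Sylow subgroups are cyclic. -/
theorem result {G : Type*} [Group G] [Finite G] (hns : ¬ Group.IsSolvable G)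
    (hFC : ∃ (L : Type) (_ : Group L) (_ : Finite L) (H : Subgroup L), Cfsg.IsFrobeniusComplement H ∧ Nonempty (G ≃* H)) :
    ∃ G₀ : Subgroup G, G₀.Normal ∧ (G₀.index = 1 ∨ G₀.index = 2) ∧
      ∃ S M : Subgroup G, S ⊔ M = G₀ ∧ S ⊓ M = ⊥ ∧ (∀ s ∈ S, ∀ x ∈ M, s * x = x * s) ∧
        Nonempty (S ≃* Matrix.SpecialLinearGroup (Fin 2) (ZMod 5)) ∧
        (∀ (p : ℕ) [Fact p.Prime] (P : Sylow p M), IsCyclic P) ∧ (Nat.card M).Coprime 30 := by
  obtain ⟨D⟩ := Lib.ZassSL25.exists_nonsolvData (Lib.ZassSL25.fpfGroup_of_isFC hFC) hns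
  haveI := D.S_normal
  haveI := D.M_normal
  refine ⟨D.S ⊔ D.M, inferInstance, ?_, D.S, D.M, rfl, D.disjoint, fun s hs x hx => (D.commutes s hs x hx).eq,
    D.iso, fun p hp P => @IsZGroup.isZGroup _ _ D.M_isZ p hp.out P, D.M_coprime⟩
  haveI := Lib.Icosa.finite_mulAut
  set I := (MulAut.conj : alternatingGroup (Fin 5) →* _).range
  have hcomap : D.S ⊔ D.M = I.comap D.act := Subgroup.ext fun g => (D.inner g).symm
  have hle : (D.S ⊔ D.M).index ≤ 2 := by
    rw [hcomap, Subgroup.index_comap]
    refine le_trans (Subgroup.relIndex_le_of_le_right le_top (by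
      rw [Subgroup.relIndex_top_right]; exact Subgroup.index_ne_zero_of_finite)) ?_
    rw [Subgroup.relIndex_top_right]
    have h1 := I.card_mul_index
    rw [Lib.Icosa.card_inner] at h1
    have h2 := Lib.Icosa.card_mulAut_le
    omega
  have : (D.S ⊔ D.M).index ≠ 0 := Subgroup.index_ne_zero_of_finite
  omega

end Cfsg.Agent.S3359
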