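import Cfsg.Statements.S3362
import Mathlib
import Cfsg.Agent.Lib.WittTwelve

set_option autoImplicit false
open Cfsg

namespace Cfsg.Agent.S3362

open Subgroup

/-- An explicit construction of the Mathieu groups of degrees 11 and 12. On the points 0, …, 11 let s = (3 4 5)(6 7 8)(9 10 11), t = (3 6 9)(4 7 10)(5 8 11), u = (4 6 5 9)(7 8 11 10), v = (4 7 5 11)(6 10 9 8), w = (4 10 5 8)(6 11 9 7), x₁ = (0 3)(6 7)(8 10)(9 11), x₂ = (0 1)(6 9)(7 10)(8 11), x₃ = (1 2)(6 11)(7 9)(8 10) (each written as a product of transpositions). Then the group M₁₂ generated by all eight permutations is sharply 5-transitive on the 12 points and has order 95040, and the group M₁₁ generated by the first seven has order 7920 and is the stabilizer of the point 2 in M₁₂. -/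
theorem result
    (s t u v w x₁ x₂ x₃ : Equiv.Perm (Fin 12))
    (hs : s = Equiv.swap (3 : Fin 12) 5 * Equiv.swap (3 : Fin 12) 4 * Equiv.swap (6 : Fin 12) 8 * Equiv.swap (6 : Fin 12) 7 * Equiv.swap (9 : Fin 12) 11 * Equiv.swap (9 : Fin 12) 10) (ht : t = Equiv.swap (3 : Fin 12) 9 * Equiv.swap (3 : Fin 12) 6 * Equiv.swap (4 : Fin 12) 10 * Equiv.swap (4 : Fin 12) 7 * Equiv.swap (5 : Fin 12) 11 * Equiv.swap (5 : Fin 12) 8)
    (hu : u = Equiv.swap (4 : Fin 12) 9 * Equiv.swap (4 : Fin 12) 5 * Equiv.swap (4 : Fin 12) 6 * Equiv.swap (7 : Fin 12) 10 * Equiv.swap (7 : Fin 12) 11 * Equiv.swap (7 : Fin 12) 8) (hv : v = Equiv.swap (4 : Fin 12) 11 * Equiv.swap (4 : Fin 12) 5 * Equiv.swap (4 : Fin 12) 7 * Equiv.swap (6 : Fin 12) 8 * Equiv.swap (6 : Fin 12) 9 * Equiv.swap (6 : Fin 12) 10) (hw : w = Equiv.swap (4 : Fin 12) 8 * Equiv.swap (4 : Fin 12) 5 * Equiv.swap (4 : Fin 12) 10 * Equiv.swap (6 : Fin 12) 7 * Equiv.swap (6 : Fin 12) 9 * Equiv.swap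 (6 : Fin 12) 11)
    (hx₁ : x₁ = Equiv.swap (0 : Fin 12) 3 * Equiv.swap (6 : Fin 12) 7 * Equiv.swap (8 : Fin 12) 10 * Equiv.swap (9 : Fin 12) 11) (hx₂ : x₂ = Equiv.swap (0 : Fin 12) 1 * Equiv.swap (6 : Fin 12) 9 * Equiv.swap (7 : Fin 12) 10 * Equiv.swap (8 : Fin 12) 11)
    (hx₃ : x₃ = Equiv.swap (1 : Fin 12) 2 * Equiv.swap (6 : Fin 12) 11 * Equiv.swap (7 : Fin 12) 9 * Equiv.swap (8 : Fin 12) 10)
    (M₁₂ M₁₁ : Subgroup (Equiv.Perm (Fin 12))) (hM₁₂ : M₁₂ = Subgroup.closure {s, t, u, v, w, x₁, x₂, x₃})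
    (hM₁₁ : M₁₁ = Subgroup.closure {s, t, u, v, w, x₁, x₂}) :
    MulAction.IsMultiplyPretransitive M₁₂ (Fin 12) 5 ∧ (∀ y : Fin 5 ↪ Fin 12, MulAction.stabilizer M₁₂ y = ⊥) ∧
    Nat.card M₁₂ = 95040 ∧ Nat.card M₁₁ = 7920 ∧
    M₁₁ = M₁₂ ⊓ MulAction.stabilizer (Equiv.Perm (Fin 12)) (2 : Fin 12) := by
  set H9 := Lib.WittTwelve.M9
  obtain ⟨hgen, h11, h22, h33, h12, h23, h13, he0, e10, e11, e12, e21, e22, e32⟩ := Lib.WittTwelve.gen_facts
  obtain ⟨hlow, htriv, htrans9⟩ := Lib.WittTwelve.elt_facts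
  -- the group on ten points
  have hc9 : ∀ h ∈ H9, Lib.WittTwelve.InExt H9 Lib.WittTwelve.x₁ (Lib.WittTwelve.x₁ * h * Lib.WittTwelve.x₁) := by
    intro h hh
    obtain ⟨i, rfl⟩ := (Lib.WittTwelve.mem_M9_iff h).1 hh
    have hm : ∀ j, Lib.WittTwelve.elt j ∈ H9 := fun j => (Lib.WittTwelve.mem_M9_iff _).2 ⟨j, rfl⟩
    rw [Lib.WittTwelve.twist_spec i]
    split
    · exact Or.inr ⟨_, hm _, _, hm _, rfl⟩
    · exact Or.inl (hm _)
  have f9 : ∀ h ∈ H9, h 0 = 0 ∧ h 1 = 1 ∧ h 2 = 2 ∧ 3 ≤ h 3 := fun h hh => by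
    obtain ⟨i, rfl⟩ := (Lib.WittTwelve.mem_M9_iff h).1 hh
    exact hlow i
  set H10 := Lib.WittTwelve.ext H9 Lib.WittTwelve.x₁ with hH10
  have m9 : ∀ h ∈ H9, h (Lib.WittTwelve.x₁ 0) ≠ 0 := fun h hh => by
    rw [e10]; intro e; have := (f9 h hh).2.2.2; rw [e] at this; exact absurd this (by decide)
  obtain ⟨hcard10, hsur10⟩ := Lib.WittTwelve.card_ext h11 hc9 (fun h hh => (f9 h hh).1) m9
    {y : Fin 12 | y ≠ 1 ∧ y ≠ 2} (by decide)
    (fun h hh => by
      rw [e10]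
      have := (f9 h hh).2.2.2
      exact ⟨fun e => by rw [e] at this; exact absurd this (by decide),
        fun e => by rw [e] at this; exact absurd this (by decide)⟩)
    (fun y hy hy0 => by
      have h3 : 3 ≤ y := by revert hy hy0; revert y; decide
      obtain ⟨i, hi⟩ := htrans9 y h3
      exact ⟨_, (Lib.WittTwelve.mem_M9_iff _).2 ⟨i, rfl⟩, by rw [e10, hi]⟩)
  have hext : ∀ {H : Subgroup (Equiv.Perm (Fin 12))} {x : Equiv.Perm (Fin 12)} {c : Fin 12},
      (∀ h ∈ H, h c = c) → x c = c → ∀ g ∈ Lib.WittTwelve.ext H x, g c = c := by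
    intro H x c hH hx g hg
    refine (closure_le (MulAction.stabilizer (Equiv.Perm (Fin 12)) c)).2 ?_ hg
    rintro a (ha | rfl)
    · exact hH a ha
    · exact hx
  have f10 : ∀ h ∈ H10, h 1 = 1 ∧ h 2 = 2 := fun h hh =>
    ⟨hext (fun a ha => (f9 a ha).2.1) e11 h hh, hext (fun a ha => (f9 a ha).2.2.1) e12 h hh⟩
  -- conjugation keeps the nine-point group
  have hn9 : ∀ x, x * x = 1 → (∀ g, x * Lib.WittTwelve.gen g * x ∈ Set.range Lib.WittTwelve.elt) →
      ∀ h ∈ H9, x * h * x ∈ H9 := by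
    intro x hx hg h hh
    have hxi : x⁻¹ = x := inv_eq_of_mul_eq_one_right hx
    have h' : h ∈ H9.comap (MulAut.conj x).toMonoidHom := by
      refine (closure_le (H9.comap (MulAut.conj x).toMonoidHom)).2 ?_ hh
      rintro _ ⟨k, rfl⟩
      show x * Lib.WittTwelve.gen k * x⁻¹ ∈ H9
      rw [hxi]; exact (Lib.WittTwelve.mem_M9_iff _).2 (hg k)
    have h'' : x * h * x⁻¹ ∈ H9 := h'
    rwa [hxi] at h''
  have hn2 := hn9 _ h22 fun g => (hgen g).1
  have hn3 := hn9 _ h33 fun g => (hgen g).2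
  have hc10 := Lib.WittTwelve.closed_step h11 h22 hc9 hn2 h12
  set H11 := Lib.WittTwelve.ext H10 Lib.WittTwelve.x₂ with hH11
  have m10 : ∀ h ∈ H10, h (Lib.WittTwelve.x₂ 1) ≠ 1 := fun h hh e => by
    rw [e21] at e
    exact absurd (h.injective (e.trans (f10 h hh).1.symm)) (by decide)
  obtain ⟨hcard11, hsur11⟩ := Lib.WittTwelve.card_ext h22 hc10 (fun h hh => (f10 h hh).1) m10
    {y : Fin 12 | y ≠ 2} (by decide)
    (fun h hh => fun e => by
      rw [e21] at e
      exact absurd (h.injective (e.trans (f10 h hh).2.symm)) (by decide))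
    (fun y hy hy1 => by
      obtain ⟨g, hg, e⟩ := hsur10 y ⟨hy1, hy⟩
      exact ⟨g, hg, by rw [e21, e]⟩)
  have f11 : ∀ h ∈ H11, h 2 = 2 := hext (fun a ha => (f10 a ha).2) e22
  have hn10 : ∀ h ∈ H10, Lib.WittTwelve.x₃ * h * Lib.WittTwelve.x₃ ∈ H10 := by
    intro h hh
    have hxi : Lib.WittTwelve.x₃⁻¹ = Lib.WittTwelve.x₃ := inv_eq_of_mul_eq_one_right h33
    have h' : h ∈ H10.comap (MulAut.conj Lib.WittTwelve.x₃).toMonoidHom := by
      refine (closure_le (H10.comap (MulAut.conj Lib.WittTwelve.x₃).toMonoidHom)).2 ?_ hh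
      rintro a (ha | rfl) <;> show Lib.WittTwelve.x₃ * _ * Lib.WittTwelve.x₃⁻¹ ∈ H10 <;> rw [hxi]
      · exact subset_closure (Or.inl (hn3 a ha))
      · have hx1 : Lib.WittTwelve.x₁⁻¹ = Lib.WittTwelve.x₁ := inv_eq_of_mul_eq_one_right h11
        have : Lib.WittTwelve.x₃ * Lib.WittTwelve.x₁ * Lib.WittTwelve.x₃ = Lib.WittTwelve.x₁ := by
          have e : Lib.WittTwelve.x₁ * (Lib.WittTwelve.x₃ * Lib.WittTwelve.x₁ * Lib.WittTwelve.x₃) = 1 := by
            rw [← h13]; group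
          rw [← inv_eq_of_mul_eq_one_right e, hx1]
        rw [this]; exact subset_closure (Or.inr rfl)
    have h'' : Lib.WittTwelve.x₃ * h * Lib.WittTwelve.x₃⁻¹ ∈ H10 := h'
    rwa [hxi] at h''
  have hc11 := Lib.WittTwelve.closed_step h22 h33 hc10 hn10 h23
  set H12 := Lib.WittTwelve.ext H11 Lib.WittTwelve.x₃ with hH12
  have m11 : ∀ h ∈ H11, h (Lib.WittTwelve.x₃ 2) ≠ 2 := fun h hh e => by
    rw [e32] at e
    exact absurd (h.injective (e.trans (f11 h hh).symm)) (by decide)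
  obtain ⟨hcard12, -⟩ := Lib.WittTwelve.card_ext h33 hc11 f11 m11 Set.univ trivial (fun _ _ => trivial)
    (fun y _ hy2 => by
      obtain ⟨g, hg, e⟩ := hsur11 y hy2
      exact ⟨g, hg, by rw [e32, e]⟩)
  have e11' : Nat.card {y : Fin 12 | y ≠ 2} = 11 := by rw [Nat.card_eq_fintype_card]; decide
  have e10' : Nat.card {y : Fin 12 | y ≠ 1 ∧ y ≠ 2} = 10 := by rw [Nat.card_eq_fintype_card]; decide
  rw [Nat.card_univ, Nat.card_fin, hcard11, hcard10, Lib.WittTwelve.card_M9, e11', e10'] at hcard12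
  rw [hcard10, Lib.WittTwelve.card_M9, e11', e10'] at hcard11
  -- compare with the given generators
  obtain rfl : s = Lib.WittTwelve.s := hs
  obtain rfl : t = Lib.WittTwelve.t := ht
  obtain rfl : u = Lib.WittTwelve.u := hu
  obtain rfl : v = Lib.WittTwelve.v := hv
  obtain rfl : w = Lib.WittTwelve.w := hw
  obtain rfl : x₁ = Lib.WittTwelve.x₁ := hx₁
  obtain rfl : x₂ = Lib.WittTwelve.x₂ := hx₂
  obtain rfl : x₃ = Lib.WittTwelve.x₃ := hx₃
  have g9 : ∀ (M : Subgroup (Equiv.Perm (Fin 12))), Lib.WittTwelve.s ∈ M → Lib.WittTwelve.t ∈ M →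
      Lib.WittTwelve.u ∈ M → Lib.WittTwelve.v ∈ M → Lib.WittTwelve.w ∈ M → H9 ≤ M := by
    intro M a b c d e
    refine (closure_le M).2 ?_
    rintro _ ⟨k, rfl⟩
    fin_cases k <;> assumption
  have i9 : ∀ k, Lib.WittTwelve.gen k ∈ H9 := fun k => subset_closure ⟨k, rfl⟩
  have le910 : H9 ≤ H10 := fun g hg => subset_closure (Or.inl hg)
  have le1011 : H10 ≤ H11 := fun g hg => subset_closure (Or.inl hg)
  have le1112 : H11 ≤ H12 := fun g hg => subset_closure (Or.inl hg)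
  have eq11 : M₁₁ = H11 := by
    rw [hM₁₁]
    refine le_antisymm ((closure_le _).2 ?_) ((closure_le _).2 ?_)
    · rintro g (rfl | rfl | rfl | rfl | rfl | rfl | rfl)
      · exact le1011 (le910 (i9 0))
      · exact le1011 (le910 (i9 1))
      · exact le1011 (le910 (i9 2))
      · exact le1011 (le910 (i9 3))
      · exact le1011 (le910 (i9 4))
      · exact le1011 (subset_closure (Or.inr rfl))
      · exact subset_closure (Or.inr rfl)
    · rintro g (hg | rfl)
      · refine (closure_le _).2 ?_ hg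
        rintro a (ha | rfl)
        · exact g9 _ (subset_closure (by simp)) (subset_closure (by simp)) (subset_closure (by simp))
            (subset_closure (by simp)) (subset_closure (by simp)) ha
        · exact subset_closure (by simp)
      · exact subset_closure (by simp)
  have eq12 : M₁₂ = H12 := by
    rw [hM₁₂]
    refine le_antisymm ((closure_le _).2 ?_) ((closure_le _).2 ?_)
    · rintro g (rfl | rfl | rfl | rfl | rfl | rfl | rfl | rfl)
      · exact le1112 (le1011 (le910 (i9 0)))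
      · exact le1112 (le1011 (le910 (i9 1)))
      · exact le1112 (le1011 (le910 (i9 2)))
      · exact le1112 (le1011 (le910 (i9 3)))
      · exact le1112 (le1011 (le910 (i9 4)))
      · exact le1112 (le1011 (subset_closure (Or.inr rfl)))
      · exact le1112 (subset_closure (Or.inr rfl))
      · exact subset_closure (Or.inr rfl)
    · rintro g (hg | rfl)
      · rw [← eq11, hM₁₁] at hg
        refine closure_mono ?_ hg
        rintro a (rfl | rfl | rfl | rfl | rfl | rfl | rfl)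
        · exact Or.inl rfl
        · exact Or.inr (Or.inl rfl)
        · exact Or.inr (Or.inr (Or.inl rfl))
        · exact Or.inr (Or.inr (Or.inr (Or.inl rfl)))
        · exact Or.inr (Or.inr (Or.inr (Or.inr (Or.inl rfl))))
        · exact Or.inr (Or.inr (Or.inr (Or.inr (Or.inr (Or.inl rfl)))))
        · exact Or.inr (Or.inr (Or.inr (Or.inr (Or.inr (Or.inr (Or.inl rfl))))))
      · exact subset_closure (by simp)
  clear hM₁₁ hM₁₂
  subst eq11 eq12
  have c12 : Nat.card H12 = 95040 := by rw [hcard12]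
  -- the stabilizer of the base is trivial
  let y₀ : Fin 5 ↪ Fin 12 := ⟨![2, 1, 0, 3, 4], by decide⟩
  have hbase : MulAction.stabilizer H12 y₀ = ⊥ := by
    refine (Subgroup.eq_bot_iff_forall _).2 fun g hg => Subtype.ext ?_
    have hy : ∀ k, (g : Equiv.Perm (Fin 12)) (y₀ k) = y₀ k := fun k =>
      congrArg (fun y : Fin 5 ↪ Fin 12 => y k) hg
    have h1 := (Lib.WittTwelve.fix_iff h33 hc11 f11 m11 _).1 ⟨g.2, hy 0⟩
    have h2 := (Lib.WittTwelve.fix_iff h22 hc10 (fun h hh => (f10 h hh).1) m10 _).1 ⟨h1, hy 1⟩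
    have h3 := (Lib.WittTwelve.fix_iff h11 hc9 (fun h hh => (f9 h hh).1) m9 _).1 ⟨h2, hy 2⟩
    obtain ⟨i, hi⟩ := (Lib.WittTwelve.mem_M9_iff _).1 h3
    have := htriv i (by rw [hi]; exact hy 3) (by rw [hi]; exact hy 4)
    rw [this, he0] at hi
    exact hi.symm
  have horb : MulAction.orbit H12 y₀ = Set.univ := by
    have h := MulAction.index_stabilizer H12 y₀
    rw [hbase, index_bot, c12] at h
    refine Set.eq_of_subset_of_ncard_le (Set.subset_univ _) ?_ (Set.toFinite _)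
    rw [Set.ncard_univ, Nat.card_eq_fintype_card, Fintype.card_embedding_eq, Fintype.card_fin, Fintype.card_fin]
    refine le_trans (le_of_eq ?_) h.le
    decide
  have htr : MulAction.IsPretransitive H12 (Fin 5 ↪ Fin 12) := (MulAction.isPretransitive_iff_orbit_eq_univ (G := H12) y₀).2 horb
  refine ⟨htr, fun y => ?_, c12, by rw [hcard11], ?_⟩
  · obtain ⟨g, rfl⟩ := htr.exists_smul_eq y₀ y
    exact (MulAction.stabilizer_smul_eq_stabilizer_map_conj g y₀).trans (by rw [hbase, Subgroup.map_bot])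
  · ext g
    exact ⟨fun hg => ⟨le1112 hg, f11 g hg⟩, fun hg => (Lib.WittTwelve.fix_iff h33 hc11 f11 m11 g).1 ⟨hg.1, hg.2⟩⟩

end Cfsg.Agent.S3362
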