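import Cfsg.Statements.S3370
import Cfsg.Agent.Lib.UniqueInvolution

set_option autoImplicit false
open Cfsg

namespace Cfsg.Agent.S3370

open Subgroup

/-- `|x^a - 1|` is a power of two only trivially, for odd `x` and odd `a`. -/
theorem natAbs_pow_sub_one {x : ℤ} {a n : ℕ} (hx : Odd x) (ha : Odd a)
    (h : (x ^ a - 1).natAbs = 2 ^ n) : (x ^ a - 1).natAbs = (x - 1).natAbs := by
  have hg := geom_sum_mul x a
  set S := ∑ i ∈ Finset.range a, x ^ i with hS
  have hodd : Odd S := by
    rw [← Int.not_even_iff_odd, even_iff_two_dvd, show (2 : ℤ) = ((2 : ℕ) : ℤ) from rfl,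
      ← ZMod.intCast_zmod_eq_zero_iff_dvd]
    have hx2 : ((x : ℤ) : ZMod 2) = 1 := by
      obtain ⟨k, rfl⟩ := hx
      push_cast
      rw [show (2 : ZMod 2) = 0 from rfl, zero_mul, zero_add]
    obtain ⟨j, rfl⟩ := ha
    rw [hS]
    push_cast
    simp only [hx2, one_pow, Finset.sum_const, Finset.card_range, nsmul_eq_mul, mul_one]
    push_cast
    rw [show (2 : ZMod 2) = 0 from rfl, zero_mul, zero_add]
    decide
  have hdvd : S.natAbs ∣ 2 ^ n := by rw [← h, ← hg, Int.natAbs_mul]; exact dvd_mul_right _ _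
  obtain ⟨i, -, hi⟩ := (Nat.dvd_prime_pow Nat.prime_two).1 hdvd
  have h1 : S.natAbs = 1 := by
    rcases Nat.eq_zero_or_pos i with h0 | h0
    · rw [hi, h0, pow_zero]
    · have := Int.natAbs_odd.2 hodd
      rw [hi] at this
      exact absurd this (Nat.not_odd_iff_even.2 ((Nat.even_pow).2 ⟨even_two, h0.ne'⟩))
  rw [← hg, Int.natAbs_mul, h1, one_mul]

abbrev F3 := ZMod 3

theorem semidihedral_of_card {G : Type*} [Group G] [Finite G]
    (f : G →* GL (Fin 2) F3) (hf : Function.Injective f) (hG : Nat.card G = 16) :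
    Cfsg.IsQuasiDihedral G := by
  let x : GL (Fin 2) F3 := ⟨!![0, 1; 1, 1], !![2, 1; 1, 0], by decide, by decide⟩
  let y : GL (Fin 2) F3 := ⟨!![1, 0; 1, 2], !![1, 0; 1, 2], by decide, by decide⟩
  haveI : Fact (Nat.Prime 2) := ⟨Nat.prime_two⟩
  haveI : Fact (Nat.Prime 3) := ⟨Nat.prime_three⟩
  have hx8 : x ^ 8 = 1 := by decide
  have hxo : orderOf x = 8 := by
    have := orderOf_eq_prime_pow (p := 2) (n := 2) (x := x) (by decide) hx8
    simpa using this
  have hyo : orderOf y = 2 := orderOf_eq_prime (by decide) (by decide)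
  have hrel : y * x * y⁻¹ = x ^ 3 := by decide
  have hyn : zpowers y ≤ normalizer (zpowers x : Set (GL (Fin 2) F3)) := by
    refine zpowers_le.2 (Subgroup.mem_normalizer_iff_map_conj_eq.2 (eq_of_le_of_card_ge ?_ (by
      rw [card_map_of_injective (MulAut.conj y).injective])))
    rw [map_le_iff_le_comap, zpowers_le]
    show y * x * y⁻¹ ∈ zpowers x
    rw [hrel]; exact pow_mem (mem_zpowers x) 3
  have hX : IsPGroup 2 (zpowers x) := IsPGroup.of_card (n := 3) (by rw [Nat.card_zpowers, hxo]; rfl)
  have hY : IsPGroup 2 (zpowers y) := IsPGroup.of_card (n := 1) (by rw [Nat.card_zpowers, hyo, pow_one])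
  obtain ⟨P, hP⟩ := (hX.to_sup_of_normal_left' hY hyn).exists_le_sylow
  have hc : Nat.card (GL (Fin 2) F3) = 48 := by
    rw [Matrix.card_GL_field, Nat.card_eq_fintype_card.symm.trans (Nat.card_zmod 3), Fin.prod_univ_two]
    rfl
  have hGr : Nat.card f.range = 16 := by
    rw [← hG]; exact (Nat.card_congr (MonoidHom.ofInjective hf).toEquiv).symm
  let Q : Sylow 2 (GL (Fin 2) F3) := Sylow.ofCard f.range (by
    rw [hGr, hc, show (48 : ℕ) = 2 ^ 4 * 3 from rfl, Nat.factorization_mul (by decide) (by decide),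
      Finsupp.add_apply, Nat.Prime.factorization_pow Nat.prime_two, Finsupp.single_eq_same,
      Nat.factorization_eq_zero_of_not_dvd (by decide : ¬ 2 ∣ 3)]
    rfl)
  obtain ⟨g, hg⟩ := MulAction.exists_smul_eq (GL (Fin 2) F3) P Q
  have hmem : ∀ u ∈ P.1, g * u * g⁻¹ ∈ f.range := fun u hu => by
    have : g * u * g⁻¹ ∈ (g • P : Sylow 2 (GL (Fin 2) F3)).1 := by
      rw [Sylow.coe_subgroup_smul, Subgroup.mem_pointwise_smul_iff_inv_smul_mem]
      simpa [MulAut.smul_def, mul_assoc] using hu
    rw [hg] at this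
    exact this
  obtain ⟨x', hx'⟩ := hmem x (hP (mem_sup_left (mem_zpowers x)))
  obtain ⟨y', hy'⟩ := hmem y (hP (mem_sup_right (mem_zpowers y)))
  refine ⟨3, le_rfl, by rw [hG]; rfl, x', y', ?_, ?_, hf ?_⟩
  · rw [← orderOf_injective f hf, hx', ← MulAut.conj_apply, MulEquiv.orderOf_eq, hxo]; rfl
  · rw [← orderOf_injective f hf, hy', ← MulAut.conj_apply, MulEquiv.orderOf_eq, hyo]
  · rw [map_mul, map_mul, map_inv, map_pow, hx', hy']
    rw [show (2 : ℕ) ^ (3 - 1) - 1 = 3 from rfl, conj_pow, ← hrel]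
    group


/-- Let q be a prime, V a non-trivial finite vector space over the field with q elements, and G a non-trivial finite p-group (p prime) acting faithfully and linearly on V and transitively on the non-zero vectors. Then either q = 2 and G has prime order p = |V| − 1; or p = 2, V has q elements with q = 2^m + 1 and G is cyclic of order 2^m; or p = 2, q = 3, V has 9 elements and G is cyclic of order 8, quaternion of order 8, or semidihedral of order 16. -/
theorem result (q : ℕ) [Fact q.Prime] {V : Type*} [AddCommGroup V] [Module (ZMod q) V] [Finite V] [Nontrivial V]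
    {G : Type*} [Group G] [Finite G] [Nontrivial G] (p : ℕ) [Fact p.Prime] (hG : IsPGroup p G)
    (ρ : G →* (V ≃ₗ[ZMod q] V)) (hρ : Function.Injective ρ)
    (htrans : ∀ v w : V, v ≠ 0 → w ≠ 0 → ∃ g : G, ρ g v = w) :
    (q = 2 ∧ p = Nat.card V - 1 ∧ Nat.card G = p) ∨
    (p = 2 ∧ Nat.card V = q ∧ (∃ m : ℕ, q = 2 ^ m + 1 ∧ Nat.card G = 2 ^ m) ∧ IsCyclic G) ∨
    (p = 2 ∧ q = 3 ∧ Nat.card V = 9 ∧
      ((IsCyclic G ∧ Nat.card G = 8) ∨ Nonempty (G ≃* QuaternionGroup 2) ∨ (Cfsg.IsQuasiDihedral G ∧ Nat.card G = 16))) := by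
  classical
  haveI := Fintype.ofFinite V
  letI : MulAction G V :=
    { smul := fun g v => ρ g v, one_smul := fun v => by show ρ 1 v = v; simp,
      mul_smul := fun g h v => by show ρ (g * h) v = ρ g (ρ h v); simp }
  have hsmul : ∀ (g : G) (v : V), g • v = ρ g v := fun g v => rfl
  set n := Module.finrank (ZMod q) V with hn
  have hn0 : 0 < n := Module.finrank_pos
  have hqc : Nat.card (ZMod q) = q := Nat.card_zmod q
  have hV : Nat.card V = q ^ n := by rw [Module.natCard_eq_pow_finrank (K := ZMod q), hqc]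
  obtain ⟨v, hv⟩ := exists_ne (0 : V)
  have horb : MulAction.orbit G v = {w : V | w ≠ 0} := by
    ext w
    refine ⟨?_, fun hw => ?_⟩
    · rintro ⟨g, rfl⟩
      show ρ g v ≠ 0
      simpa using hv
    · obtain ⟨g, hg⟩ := htrans v w hv hw
      exact ⟨g, hg⟩
  have hO : Nat.card (MulAction.orbit G v) = q ^ n - 1 := by
    rw [horb, ← hV, Nat.card_eq_fintype_card (α := V)]
    rw [Nat.card_eq_fintype_card]
    simp only [Set.coe_setOf, ne_eq, Fintype.card_subtype_compl, Fintype.card_subtype_eq]
  have hstab : (q ^ n - 1) * Nat.card (MulAction.stabilizer G v) = Nat.card G := by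
    rw [← hO, Nat.card_congr (MulAction.orbitEquivQuotientStabilizer G v), ← Subgroup.index_eq_card,
      mul_comm, Subgroup.card_mul_index]
  obtain ⟨k, hk⟩ := IsPGroup.iff_card.1 hG
  have hdvd : q ^ n - 1 ∣ p ^ k := ⟨_, (hstab.trans hk).symm⟩
  obtain ⟨a, -, ha⟩ := (Nat.dvd_prime_pow Fact.out).1 hdvd
  have hq2 := (Fact.out : q.Prime).two_le
  let bas := Module.finBasisOfFinrankEq (ZMod q) V hn.symm
  let E : GL (Fin n) (ZMod q) ≃* (V ≃ₗ[ZMod q] V) :=
    (Matrix.GeneralLinearGroup.toLin' bas).trans (LinearMap.GeneralLinearGroup.generalLinearEquiv _ _)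
  let f : G →* GL (Fin n) (ZMod q) := E.symm.toMonoidHom.comp ρ
  have hf : Function.Injective f := E.symm.injective.comp hρ
  have hGdvd : Nat.card G ∣ ∏ i : Fin n, (q ^ n - q ^ (i : ℕ)) := by
    have h1 := Matrix.card_GL_field (𝔽 := ZMod q) n
    rw [← Nat.card_eq_fintype_card (α := ZMod q), hqc] at h1
    rw [← h1, Nat.card_congr (MonoidHom.ofInjective hf).toEquiv]
    exact Subgroup.card_subgroup_dvd_card _
  rcases (Fact.out : q.Prime).eq_two_or_odd' with hq | hqodd
  · subst hq
    refine Or.inl ⟨rfl, ?_⟩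
    -- `2 ^ n - 1` is a prime
    have ha1 : a = 1 := by
      have hn2 : n ≠ 1 := by
        intro h1
        rw [h1] at hGdvd
        simp at hGdvd
        exact (Finite.one_lt_card (α := G)).ne' hGdvd
      have h4 : 4 ≤ 2 ^ n := by
        calc 4 = 2 ^ 2 := rfl
          _ ≤ 2 ^ n := Nat.pow_le_pow_right two_pos (by omega)
      have hpodd : Odd p := by
        rcases (Fact.out : p.Prime).eq_two_or_odd' with hp | hp
        · exfalso
          subst hp
          rcases Nat.eq_zero_or_pos a with h0 | h0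
          · rw [h0, pow_zero] at ha; omega
          · have e1 : 2 ∣ 2 ^ a := dvd_pow_self 2 h0.ne'
            have e2 : 2 ∣ 2 ^ n := dvd_pow_self 2 hn0.ne'
            omega
        · exact hp
      have haodd : Odd a := by
        rw [← Nat.not_even_iff_odd]
        rintro ⟨b, rfl⟩
        obtain ⟨j, hj⟩ := hpodd.pow (n := b)
        have e2 : 4 ∣ 2 ^ n := by
          rw [show (4 : ℕ) = 2 ^ 2 from rfl]
          exact pow_dvd_pow 2 (by omega)
        rw [pow_add, hj] at ha
        have e3 : (2 * j + 1) * (2 * j + 1) = 4 * (j * j + j) + 1 := by ring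
        omega
      have hkey := natAbs_pow_sub_one (x := -(p : ℤ)) (n := n) ((hpodd.natCast).neg) haodd (by
        rw [haodd.neg_pow, ← neg_add', Int.natAbs_neg, ← Nat.cast_pow, ← ha]
        norm_cast
        rw [Nat.sub_add_cancel (Nat.one_le_two_pow)])
      rw [haodd.neg_pow, ← neg_add', ← neg_add', Int.natAbs_neg, Int.natAbs_neg] at hkey
      have hpa : p ^ a = p := by
        norm_cast at hkey
        omega
      exact (Nat.pow_eq_self_iff (Fact.out : p.Prime).one_lt).1 hpa
    rw [ha1, pow_one] at ha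
    refine ⟨by rw [hV, ha], ?_⟩
    rw [hk] at hGdvd
    have hk1 : k ≠ 0 := fun h0 => (Finite.one_lt_card (α := G)).ne' (by rw [hk, h0, pow_zero])
    rw [hk]
    suffices ¬ p * p ∣ ∏ i : Fin n, (2 ^ n - 2 ^ (i : ℕ)) by
      have : k ≤ 1 := by
        by_contra h2
        exact this ((dvd_trans (by rw [← pow_two]) (pow_dvd_pow p (by omega : 2 ≤ k))).trans hGdvd)
      rw [show k = 1 by omega, pow_one]
    have hp2 : p ≠ 2 := by
      intro h2
      have e2 : 2 ∣ 2 ^ n := dvd_pow_self 2 hn0.ne'
      omega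
    obtain ⟨m, hm⟩ := Nat.exists_eq_succ_of_ne_zero hn0.ne'
    rw [show ∏ i : Fin n, (2 ^ n - 2 ^ (i : ℕ)) = ∏ i ∈ Finset.range n, (2 ^ n - 2 ^ i) from
      Fin.prod_univ_eq_prod_range (fun i => 2 ^ n - 2 ^ i) n, hm, Finset.prod_range_succ', ← hm, pow_zero, ha,
      mul_comm _ (p : ℕ)]
    intro hdd
    have := Nat.dvd_of_mul_dvd_mul_right (Fact.out : p.Prime).pos hdd
    obtain ⟨i, hi, hpi⟩ := ((Fact.out : p.Prime).prime.dvd_finset_prod_iff _).1 this
    rw [Finset.mem_range] at hi
    have e1 : 2 ^ n - 2 ^ (i + 1) = 2 ^ (i + 1) * (2 ^ (n - (i + 1)) - 1) := by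
      rw [Nat.mul_sub, mul_one, ← pow_add]
      congr 2
      omega
    rw [e1] at hpi
    rcases ((Fact.out : p.Prime).dvd_mul).1 hpi with h2 | h2
    · exact hp2 ((Nat.prime_dvd_prime_iff_eq Fact.out Nat.prime_two).1 ((Fact.out : p.Prime).dvd_of_dvd_pow h2))
    · have hlt : 2 ^ (n - (i + 1)) < 2 ^ n := Nat.pow_lt_pow_right one_lt_two (by omega)
      have h2' : 1 < 2 ^ (n - (i + 1)) := Nat.one_lt_two_pow (by omega)
      have := Nat.le_of_dvd (by omega) h2
      omega
  · right
    have hqn : Odd (q ^ n) := hqodd.pow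
    have hqn3 : 3 ≤ q ^ n := by
      have h3 : 3 ≤ q := by obtain ⟨j, hj⟩ := hqodd; omega
      exact h3.trans (Nat.le_self_pow hn0.ne' q)
    have hp : p = 2 := by
      have e2 : 2 ∣ p ^ a := by
        rw [← ha]; obtain ⟨j, hj⟩ := hqn; omega
      exact ((Nat.prime_dvd_prime_iff_eq Nat.prime_two Fact.out).1 (Nat.prime_two.dvd_of_dvd_pow e2)).symm
    subst hp
    rcases Nat.even_or_odd n with ⟨m, hm⟩ | hnodd
    · refine Or.inr ⟨rfl, ?_⟩
      have hm0 : 0 < m := by omega
      obtain ⟨j, hj⟩ := hqodd.pow (n := m)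
      have hprod : (2 * j) * (2 * j + 2) = 2 ^ a := by
        rw [← ha, hm, pow_add, hj]
        have : (2 * j + 1) * (2 * j + 1) = 2 * j * (2 * j + 2) + 1 := by ring
        omega
      obtain ⟨s, -, hs⟩ := (Nat.dvd_prime_pow Nat.prime_two).1 ⟨_, hprod.symm⟩
      obtain ⟨t, -, ht⟩ := (Nat.dvd_prime_pow Nat.prime_two).1 ((dvd_mul_left (2 * j + 2) (2 * j)).trans (dvd_of_eq hprod))
      have hj0 : 0 < j := by
        have : 3 ≤ q ^ m := le_trans (by obtain ⟨i, hi⟩ := hqodd; omega) (Nat.le_self_pow hm0.ne' q)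
        omega
      have hj1 : j = 1 := by
        have hst : s < t := by
          refine (Nat.pow_lt_pow_iff_right one_lt_two).1 ?_
          omega
        have hd : 2 ^ s ∣ 2 ^ t := pow_dvd_pow 2 hst.le
        rw [← hs, ← ht] at hd
        have : 2 * j ∣ 2 := (Nat.dvd_add_right (dvd_refl (2 * j))).1 hd
        have := Nat.le_of_dvd two_pos this
        omega
      rw [hj1] at hj
      have hq3 : q = 3 := by
        have h1 : q ≤ 2 * 1 + 1 := hj ▸ Nat.le_self_pow hm0.ne' q
        obtain ⟨i, hi⟩ := hqodd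
        omega
      subst hq3
      have hn2 : n = 2 := by
        have : m = 1 := (Nat.pow_eq_self_iff (by norm_num)).1 hj
        omega
      have hV9 : Nat.card V = 9 := by rw [hV, hn2]; rfl
      refine ⟨rfl, hV9, ?_⟩
      rw [hn2] at hstab hGdvd
      norm_num [Fin.prod_univ_two] at hstab hGdvd
      have hk34 : k = 3 ∨ k = 4 := by
        rw [hk] at hstab hGdvd
        have h1 : k ≤ 4 := by
          by_contra h5
          have := (pow_dvd_pow 2 (by omega : 5 ≤ k)).trans hGdvd
          norm_num at this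
        have h3 : 3 ≤ k := by
          by_contra h2
          interval_cases k <;> omega
        omega
      rcases hk34 with rfl | rfl
      · have hk8 : Nat.card G = 8 := by rw [hk]; rfl
        have hS1 : MulAction.stabilizer G v = ⊥ := by
          rw [Subgroup.eq_bot_iff_card]; rw [hk8] at hstab; simp at hstab ⊢; linarith
        have hfree : ∀ (g : G) (w : V), w ≠ 0 → ρ g w = w → g = 1 := by
          intro g w hw hgw
          obtain ⟨c, hc⟩ := htrans v w hv hw
          have hmem : c⁻¹ * g * c ∈ MulAction.stabilizer G v := by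
            rw [MulAction.mem_stabilizer_iff, mul_smul, mul_smul, inv_smul_eq_iff]
            show ρ g (ρ c v) = ρ c v
            rw [hc, hgw]
          rw [hS1, Subgroup.mem_bot] at hmem
          calc g = c * (c⁻¹ * g * c) * c⁻¹ := by group
            _ = 1 := by rw [hmem]; group
        have huniq : ∀ H K : Subgroup G, Nat.card H = 2 → Nat.card K = 2 → H = K := by
          have hneg : ∀ H : Subgroup G, Nat.card H = 2 → ∀ g ∈ H, g ≠ 1 → ρ g v = -v := by
            intro H hH g hg hg1
            have h2 : g * g = 1 := by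
              have := pow_card_eq_one' (x := (⟨g, hg⟩ : H))
              rw [hH, pow_two] at this
              exact congrArg Subtype.val this
            by_contra hne
            have hgg : ρ g (ρ g v) = v := by rw [← LinearEquiv.mul_apply, ← map_mul, h2, map_one]; rfl
            refine hg1 (hfree g (v + ρ g v) (fun h0 => hne (eq_neg_of_add_eq_zero_right h0)) ?_)
            rw [map_add, hgg, add_comm]
          intro H K hH hK
          obtain ⟨⟨x, hx⟩, hx1, hxu⟩ := (Nat.card_eq_two_iff' (1 : H)).1 hH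
          obtain ⟨⟨y, hy⟩, hy1, hyu⟩ := (Nat.card_eq_two_iff' (1 : K)).1 hK
          have hxy : x = y := by
            have h1 := hneg H hH x hx (fun e => hx1 (Subtype.ext e))
            have h2 := hneg K hK y hy (fun e => hy1 (Subtype.ext e))
            have := hfree (y⁻¹ * x) v hv (by
              rw [map_mul, LinearEquiv.mul_apply, h1, ← h2, ← LinearEquiv.mul_apply, ← map_mul,
                inv_mul_cancel, map_one]; rfl)
            exact (inv_mul_eq_one.1 this).symm
          subst hxy
          ext g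
          constructor <;> intro hg <;> by_cases hg1 : g = 1
          · exact hg1 ▸ one_mem K
          · have e : g = x := congrArg Subtype.val (hxu ⟨g, hg⟩ fun e => hg1 (congrArg Subtype.val e))
            exact e ▸ hy
          · exact hg1 ▸ one_mem H
          · have e : g = x := congrArg Subtype.val (hyu ⟨g, hg⟩ fun e => hg1 (congrArg Subtype.val e))
            exact e ▸ hx
        rcases Cfsg.Agent.Lib.UniqueInvolution.isCyclic_or_quaternion hG huniq with hc | ⟨-, i, -, ⟨e⟩⟩
        · exact Or.inl ⟨hc, hk8⟩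
        · refine Or.inr (Or.inl ?_)
          haveI : NeZero (2 ^ i) := ⟨by positivity⟩
          have h4 := Nat.card_congr e.toEquiv
          rw [hk8, Nat.card_eq_fintype_card, QuaternionGroup.card] at h4
          rw [show (2 : ℕ) ^ i = 2 by omega] at e
          exact ⟨e⟩
      · refine Or.inr (Or.inr ⟨semidihedral_of_card ?_ ?_ (by rw [hk]; rfl), by rw [hk]; rfl⟩)
        · exact (Units.map ((Matrix.reindexAlgEquiv (ZMod 3) (ZMod 3) (finCongr hn2)).toMulEquiv.toMonoidHom)).comp f
        · exact (Units.map_injective (Matrix.reindexAlgEquiv (ZMod 3) (ZMod 3) (finCongr hn2)).injective).comp hf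
    · refine Or.inl ⟨rfl, ?_⟩
      have hkey := natAbs_pow_sub_one (x := (q : ℤ)) (n := a) hqodd.natCast hnodd (by
        rw [← ha, ← Nat.cast_pow, ← Nat.cast_one, ← Nat.cast_sub (by omega), Int.natAbs_natCast])
      have hn1 : n = 1 := by
        rw [← Nat.cast_pow, ← Nat.cast_one, ← Nat.cast_sub (by omega), ← Nat.cast_sub (by omega),
          Int.natAbs_natCast, Int.natAbs_natCast] at hkey
        exact (Nat.pow_eq_self_iff (by omega)).1 (show q ^ n = q by omega)
      rw [hn1, pow_one] at ha hstab hV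
      rw [hn1] at hGdvd
      simp at hGdvd
      have hGeq : Nat.card G = q - 1 := Nat.dvd_antisymm hGdvd ⟨_, hstab.symm⟩
      refine ⟨hV, ⟨a, by omega, by rw [hGeq, ha]⟩, ?_⟩
      haveI : Unique (Fin n) := hn1 ▸ inferInstanceAs (Unique (Fin 1))
      exact isCyclic_of_subgroup_isDomain ((Units.coeHom (ZMod q)).comp
          ((Units.map Matrix.detMonoidHom).comp f)) (fun x y h => hf (Units.ext (by
        simp only [MonoidHom.comp_apply, Units.coe_map, Units.coeHom_apply, Matrix.coe_detMonoidHom,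
          Matrix.det_unique] at h
        ext i j
        rw [Subsingleton.elim i default, Subsingleton.elim j default]
        exact h)))

end Cfsg.Agent.S3370
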