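import Cfsg.Statements.S3375
-- import your own Cfsg.Agent.* helpers here

set_option autoImplicit false
open Cfsg

namespace Cfsg.Agent.S3375

/-- Let γ be an automorphism of order 2 of a finite group H. (i) If γ fixes only the identity, then H is abelian and γ inverts every element. (ii) If γ has exactly two fixed points and H has a subgroup of index 2, then H has a γ-invariant abelian subgroup of index 2 on which γ acts by inversion. -/
theorem result {H : Type*} [Group H] [Finite H] (γ : MulAut H) (hγ : orderOf γ = 2) :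
    ((∀ h : H, γ h = h → h = 1) → (∀ a b : H, a * b = b * a) ∧ ∀ h : H, γ h = h⁻¹) ∧
    ((Nat.card {h : H // γ h = h} = 2 ∧ ∃ M : Subgroup H, M.index = 2) →
      ∃ A : Subgroup H, A.index = 2 ∧ IsMulCommutative A ∧ (∀ a ∈ A, γ a ∈ A) ∧ ∀ a ∈ A, γ a = a⁻¹) := by
  have hinv : ∀ h : H, γ (γ h) = h := by
    intro h
    have := pow_orderOf_eq_one γ
    rw [hγ, pow_two] at this
    simpa using DFunLike.congr_fun this h
  have himg : ∀ h : H, γ (h⁻¹ * γ h) = (h⁻¹ * γ h)⁻¹ := by
    intro h; simp [hinv]
  refine ⟨fun hfix => ?_, ?_⟩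
  · have hsurj : Function.Surjective (fun h : H => h⁻¹ * γ h) := by
      refine Finite.surjective_of_injective fun a b hab => ?_
      have hab' : a⁻¹ * γ a = b⁻¹ * γ b := hab
      have h1 : γ (b * a⁻¹) = b * a⁻¹ := by
        have h2 : γ a = a * (b⁻¹ * γ b) := by rw [← hab']; group
        rw [map_mul, map_inv, h2]; group
      exact (mul_inv_eq_one.1 (hfix _ h1)).symm
    have hall : ∀ x : H, γ x = x⁻¹ := by
      intro x
      obtain ⟨h, rfl⟩ := hsurj x
      exact himg h
    refine ⟨fun a b => ?_, hall⟩
    have h := map_mul γ a b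
    rw [hall, hall, hall, mul_inv_rev] at h
    have := congrArg (·⁻¹) h
    simpa using this
  · rintro ⟨hcard, M, hM⟩
    classical
    -- an invariant subgroup of index two
    obtain ⟨A, hA, hAinv⟩ : ∃ A : Subgroup H, A.index = 2 ∧ ∀ a ∈ A, γ a ∈ A := by
      by_cases hMinv : ∀ a ∈ M, γ a ∈ M
      · exact ⟨M, hM, hMinv⟩
      push Not at hMinv
      obtain ⟨a, ha, ha'⟩ := hMinv
      have hiff : ∀ x y : H, x * y ∈ M ↔ (x ∈ M ↔ y ∈ M) := fun x y => Subgroup.mul_mem_iff_of_index_two hM
      let A : Subgroup H :=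
        { carrier := {x | x ∈ M ↔ γ x ∈ M}
          one_mem' := by simp
          mul_mem' := fun {x y} hx hy => by
            simp only [Set.mem_setOf_eq, map_mul, hiff] at *
            tauto
          inv_mem' := fun {x} hx => by simpa using hx }
      refine ⟨A, Subgroup.index_eq_two_iff.2 ⟨a, fun b => ?_⟩, fun x hx => ?_⟩
      · show Xor' (b * a ∈ M ↔ γ (b * a) ∈ M) (b ∈ M ↔ γ b ∈ M)
        rw [map_mul, hiff, hiff]
        unfold Xor'
        tauto
      · show γ x ∈ M ↔ γ (γ x) ∈ M
        rw [hinv]
        exact (show x ∈ M ↔ γ x ∈ M from hx).symm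
    have hmem : ∀ h : H, h⁻¹ * γ h ∈ A := by
      intro h
      rw [Subgroup.mul_mem_iff_of_index_two hA, inv_mem_iff]
      refine ⟨hAinv h, fun h' => ?_⟩
      have := hAinv _ h'
      rwa [hinv] at this
    have hinvA : ∀ a ∈ A, γ a = a⁻¹ := by
      have := Fintype.ofFinite H
      let f : H → A := fun h => ⟨h⁻¹ * γ h, hmem h⟩
      have hsurj : Function.Surjective f := by
        set Fx : Finset H := Finset.univ.filter (fun h => γ h = h)
        have hFx : Fx.card = 2 := by
          rw [← hcard, Nat.card_eq_fintype_card, Fintype.card_subtype]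
        have hfib : ∀ b ∈ Finset.univ.image f, (Finset.univ.filter (fun h => f h = b)).card ≤ 2 := by
          intro b hb
          obtain ⟨h0, -, rfl⟩ := Finset.mem_image.1 hb
          rw [← hFx]
          refine Finset.card_le_card_of_injOn (fun h => h * h0⁻¹) ?_ (fun x _ y _ hxy => mul_right_cancel hxy)
          intro h hh
          simp only [Finset.coe_filter, Finset.mem_univ, true_and, Set.mem_setOf_eq, Fx] at hh ⊢
          have e : h⁻¹ * γ h = h0⁻¹ * γ h0 := congrArg Subtype.val hh
          have h2 : γ h = h * (h0⁻¹ * γ h0) := by rw [← e]; group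
          rw [map_mul, map_inv, h2]; group
        have hle := Finset.card_le_mul_card_image (Finset.univ : Finset H) 2 hfib
        have hAc := A.card_mul_index
        rw [hA, Nat.card_eq_fintype_card, Nat.card_eq_fintype_card] at hAc
        have huniv : Finset.univ.image f = (Finset.univ : Finset A) :=
          Finset.eq_univ_of_card _ (le_antisymm (Finset.card_le_univ _) (by
            rw [Finset.card_univ] at hle; omega))
        intro b
        have := huniv ▸ Finset.mem_univ b
        obtain ⟨x, -, hx⟩ := Finset.mem_image.1 this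
        exact ⟨x, hx⟩
      intro a ha
      obtain ⟨h, hh⟩ := hsurj ⟨a, ha⟩
      have e : h⁻¹ * γ h = a := congrArg Subtype.val hh
      rw [← e]
      exact himg h
    refine ⟨A, hA, ⟨⟨fun a b => ?_⟩⟩, hAinv, hinvA⟩
    apply Subtype.ext
    have h := map_mul γ (a : H) b
    rw [hinvA _ a.2, hinvA _ b.2, hinvA _ (mul_mem a.2 b.2), mul_inv_rev] at h
    have := congrArg (·⁻¹) h
    simpa using this

end Cfsg.Agent.S3375
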