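import Cfsg.Statements.S3377
import Mathlib
import Cfsg.Agent.Lib.Icosa.Presentation

set_option autoImplicit false
open Cfsg

namespace Cfsg.Agent.S3377

/-- A five-cycle. -/
def five : alternatingGroup (Fin 5) := ⟨finRotate 5, Equiv.Perm.mem_alternatingGroup.2 (by decide)⟩

/-- A three-cycle. -/
def three : alternatingGroup (Fin 5) := ⟨Equiv.swap 0 2 * Equiv.swap 0 3, Equiv.Perm.mem_alternatingGroup.2 (by decide)⟩

/-- The alternating group of degree 5 has the presentation ⟨x, y | x³ = 1, y⁵ = 1, (xy)² = 1⟩: the group so presented is isomorphic to Alt(5). -/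
theorem result :
    Nonempty (PresentedGroup ({FreeGroup.of (0 : Fin 2) ^ 3, FreeGroup.of (1 : Fin 2) ^ 5,
        (FreeGroup.of (0 : Fin 2) * FreeGroup.of 1) ^ 2} : Set (FreeGroup (Fin 2))) ≃* alternatingGroup (Fin 5)) := by
  set rels : Set (FreeGroup (Fin 2)) := {FreeGroup.of 0 ^ 3, FreeGroup.of 1 ^ 5,
        (FreeGroup.of 0 * FreeGroup.of 1) ^ 2}
  set a : PresentedGroup rels := PresentedGroup.of 0
  set b : PresentedGroup rels := PresentedGroup.of 1
  have ha : a ^ 3 = 1 := PresentedGroup.one_of_mem (Or.inl rfl)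
  have hb : b ^ 5 = 1 := PresentedGroup.one_of_mem (Or.inr (Or.inl rfl))
  have hab : (a * b) ^ 2 = 1 := PresentedGroup.one_of_mem (Or.inr (Or.inr rfl))
  have hgen : Subgroup.closure ({a, b} : Set (PresentedGroup rels)) = ⊤ := by
    rw [← PresentedGroup.closure_range_of rels]
    congr 1
    ext g
    simp [Fin.exists_fin_two, a, b, eq_comm]
  obtain ⟨hfin, hcard⟩ := Lib.Icosa.finite_card_le ha hb hab hgen
  let f : PresentedGroup rels →* alternatingGroup (Fin 5) :=
    PresentedGroup.toGroup (f := ![three, five]) (by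
      rintro r (rfl | rfl | rfl) <;> simp only [map_pow, map_mul, FreeGroup.lift_apply_of] <;> decide)
  have h3 : orderOf three = 3 := orderOf_eq_prime (hp := ⟨Nat.prime_three⟩) (by decide) (by decide)
  have h5 : orderOf five = 5 := orderOf_eq_prime (hp := ⟨by norm_num⟩) (by decide) (by decide)
  have h2 : orderOf (three * five) = 2 := orderOf_eq_prime (hp := ⟨Nat.prime_two⟩) (by decide) (by decide)
  have hm0 : three ∈ f.range := ⟨a, PresentedGroup.toGroup.of _⟩
  have hm1 : five ∈ f.range := ⟨b, PresentedGroup.toGroup.of _⟩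
  have hA : Nat.card (alternatingGroup (Fin 5)) = 60 := by
    rw [nat_card_alternatingGroup, Nat.card_fin]; rfl
  have h30 : 30 ∣ Nat.card f.range := by
    have e2 := f.range.orderOf_dvd_natCard (mul_mem hm0 hm1)
    have e3 := f.range.orderOf_dvd_natCard hm0
    have e5 := f.range.orderOf_dvd_natCard hm1
    rw [h2] at e2; rw [h3] at e3; rw [h5] at e5
    omega
  have hidx : f.range.index = 1 := by
    haveI := alternatingGroup.isSimpleGroup (α := Fin 5) (by simp)
    have hi := f.range.card_mul_index
    rw [hA] at hi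
    obtain ⟨k, hk⟩ := h30
    rw [hk] at hi
    have hk2 : k * f.range.index = 2 := by
      rw [mul_assoc] at hi; omega
    rcases (Nat.dvd_prime Nat.prime_two).1 (Dvd.intro_left k hk2) with e | e
    · exact e
    · exfalso
      have hn := Subgroup.normal_of_index_eq_two e
      rcases hn.eq_bot_or_eq_top with h | h
      · rw [h, Subgroup.index_bot, hA] at e; norm_num at e
      · rw [h, Subgroup.index_top] at e; norm_num at e
  have hsurj : Function.Surjective f := MonoidHom.range_eq_top.1 (Subgroup.index_eq_one.1 hidx)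
  have hbij : Function.Bijective f :=
    Function.Surjective.bijective_of_nat_card_le hsurj (by rw [hA]; exact hcard)
  exact ⟨MulEquiv.ofBijective f hbij⟩

end Cfsg.Agent.S3377
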