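import Cfsg.Statements.S3378
import Mathlib
import Cfsg.Agent.Lib.ZassSL25.Main
import Cfsg.Agent.Lib.Icosa.Presentation

set_option autoImplicit false
open Cfsg

namespace Cfsg.Agent.S3378

open Subgroup

universe u

theorem quaternion_two_torsion : ∀ a b : QuaternionGroup 2, a ^ 2 = 1 → b ^ 2 = 1 → a = 1 ∨ b = 1 ∨ a = b := by
  decide +kernel

/-- Two elements squaring to one in a common Sylow 2-subgroup are dependent. -/
theorem dependent {G : Type u} [Group G] {P : Subgroup G} (e : P ≃* QuaternionGroup 2) {a b : G}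
    (ha : a ∈ P) (hb : b ∈ P) (ha2 : a ^ 2 = 1) (hb2 : b ^ 2 = 1) : a = 1 ∨ b = 1 ∨ a = b := by
  rcases quaternion_two_torsion (e ⟨a, ha⟩) (e ⟨b, hb⟩)
    (by rw [← map_pow]; exact e.map_eq_one_iff.2 (Subtype.ext ha2))
    (by rw [← map_pow]; exact e.map_eq_one_iff.2 (Subtype.ext hb2)) with h | h | h
  · exact Or.inl (congrArg Subtype.val (e.map_eq_one_iff.1 h))
  · exact Or.inr (Or.inl (congrArg Subtype.val (e.map_eq_one_iff.1 h)))
  · exact Or.inr (Or.inr (congrArg Subtype.val (e.injective h)))

theorem perfect_of {G : Type u} [Group G] [Finite G] (hc : Nat.card G = 120) (hns : ¬ Group.IsSolvable G)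
    (hQ : ∀ P : Sylow 2 G, Nonempty ((P : Subgroup G) ≃* QuaternionGroup 2)) : commutator G = ⊤ := by
  haveI : Fact (Nat.Prime 2) := ⟨Nat.prime_two⟩
  have hmono : ∀ k, derivedSeries G (k + 1) ≤ derivedSeries G k := fun k => derivedSeries_antitone G k.le_succ
  obtain ⟨n, hn⟩ : ∃ n, derivedSeries G (n + 1) = derivedSeries G n := by
    by_contra hno
    push Not at hno
    have hlt : ∀ k, Nat.card (derivedSeries G (k + 1)) < Nat.card (derivedSeries G k) := fun k =>
      lt_of_le_of_ne (card_le_of_le (hmono k)) fun e => hno k (eq_of_le_of_card_ge (hmono k) e.ge)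
    have hbound : ∀ k, Nat.card (derivedSeries G k) + k ≤ Nat.card G := by
      intro k
      induction k with
      | zero => simp
      | succ k ih => have := hlt k; omega
    have := hbound (Nat.card G)
    have := Nat.card_pos (α := derivedSeries G (Nat.card G))
    omega
  set L := derivedSeries G n
  have hL1 : L ≠ ⊥ := fun e => hns ⟨⟨n, e⟩⟩
  have hLL : ⁅L, L⁆ = L := (derivedSeries_succ G n).symm.trans hn
  have hLp : commutator L = ⊤ := by
    refine Subgroup.map_injective L.subtype_injective ?_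
    rw [_root_.commutator_def, map_commutator, ← MonoidHom.range_eq_map, range_subtype, hLL]
  haveI : Nontrivial L := L.nontrivial_iff_ne_bot.2 hL1
  rcases Lib.ZassSL25.perfect_small hLp (hc ▸ card_subgroup_dvd_card L) with e | e | e
  · exact absurd (L.eq_bot_of_card_eq e) hL1
  · exfalso
    obtain ⟨T⟩ := (inferInstance : Nonempty (Sylow 2 L))
    have hT : Nat.card (T : Subgroup L) = 4 := by
      exact Lib.SmallSimple.card_sylow_subgroup T (k := 2) (m := 15) e (by norm_num)
    haveI : IsCyclic (T : Subgroup L) := by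
      by_contra hncyc
      have hsq : ∀ v : (T : Subgroup L), v ^ 2 = 1 := by
        intro v
        have hd : orderOf v ∣ 2 ^ 2 := by rw [show 2 ^ 2 = Nat.card (T : Subgroup L) from hT.symm]; exact orderOf_dvd_natCard v
        obtain ⟨k, hk2, hk⟩ := (Nat.dvd_prime_pow Nat.prime_two).1 hd
        rcases Nat.lt_or_ge k 2 with hlt | hge
        · exact orderOf_dvd_iff_pow_eq_one.1 (hk ▸ (pow_dvd_pow 2 (show k ≤ 1 by omega)).trans (by norm_num))
        · exact absurd (isCyclic_of_orderOf_eq_card v (by rw [hk, hT, show k = 2 by omega]; rfl)) hncyc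
      obtain ⟨P, hP⟩ := (T.2.map L.subtype).exists_le_sylow
      obtain ⟨φ⟩ := hQ P
      haveI : Nontrivial (T : Subgroup L) := Finite.one_lt_card_iff_nontrivial.1 (by omega)
      obtain ⟨a, ha⟩ := exists_ne (1 : (T : Subgroup L))
      have hall : ∀ v : (T : Subgroup L), v = 1 ∨ v = a := fun v => by
        rcases dependent φ (hP (mem_map_of_mem L.subtype a.2)) (hP (mem_map_of_mem L.subtype v.2))
          (by rw [← map_pow, ← SubgroupClass.coe_pow, hsq a, OneMemClass.coe_one, map_one])
          (by rw [← map_pow, ← SubgroupClass.coe_pow, hsq v, OneMemClass.coe_one, map_one]) with h | h | h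
        · exact absurd (Subtype.ext (Subtype.ext h)) ha
        · exact Or.inl (Subtype.ext (Subtype.ext h))
        · exact Or.inr (Subtype.ext (Subtype.ext h.symm))
      have : Nat.card (T : Subgroup L) ≤ Nat.card Bool :=
        Nat.card_le_card_of_surjective (fun b : Bool => cond b a 1) fun v => by
          rcases hall v with rfl | rfl
          · exact ⟨false, rfl⟩
          · exact ⟨true, rfl⟩
      rw [hT, Nat.card_eq_fintype_card, Fintype.card_bool] at this
      omega
    exact Lib.ZassSL25.not_dvd_of_burnside hLp T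
      ((inferInstance : IsCyclic (T : Subgroup L)).normalizer_le_centralizer
        (by rw [e]; exact (Nat.minFac_eq_two_iff _).2 (by norm_num))) (by rw [e]; norm_num)
  · have : L = ⊤ := eq_top_of_card_eq L (by rw [e, hc])
    rw [_root_.commutator_def, ← this, hLL]

theorem unique_involution {G : Type u} [Group G] [Finite G] (hc : Nat.card G = 120) (hp : commutator G = ⊤)
    (hQ : ∀ P : Sylow 2 G, Nonempty ((P : Subgroup G) ≃* QuaternionGroup 2)) :
    ∃ z : G, orderOf z = 2 ∧ ∀ t : G, orderOf t = 2 → t = z := by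
  haveI : Fact (Nat.Prime 2) := ⟨Nat.prime_two⟩
  haveI : Fact (Nat.Prime 5) := ⟨by norm_num⟩
  haveI : Nontrivial G := Finite.one_lt_card_iff_nontrivial.1 (by omega)
  obtain ⟨R⟩ := (inferInstance : Nonempty (Sylow 5 G))
  have hR : Nat.card (R : Subgroup G) = 5 := by
    simpa using Lib.SmallSimple.card_sylow_subgroup R (k := 1) (m := 24) hc (by norm_num)
  have hRi : (R : Subgroup G).index = 24 := by
    have := (R : Subgroup G).card_mul_index
    rw [hR, hc] at this; omega
  have hn : Nat.card (Sylow 5 G) = 6 := by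
    have hd := R.card_dvd_index
    rw [hRi] at hd
    have hmod := card_sylow_modEq_one 5 G
    rw [Nat.ModEq] at hmod
    have hne : Nat.card (Sylow 5 G) ≠ 1 := fun e => by
      haveI : Subsingleton (Sylow 5 G) := (Nat.card_eq_one_iff_unique.1 e).1
      haveI hn : (R : Subgroup G).Normal := Sylow.normal_of_subsingleton R
      have hq : commutator (G ⧸ (R : Subgroup G)) = ⊤ := by
        rw [_root_.commutator_def, ← MonoidHom.range_eq_top.2 (QuotientGroup.mk'_surjective (R : Subgroup G)),
          MonoidHom.range_eq_map, ← map_commutator, ← _root_.commutator_def, hp]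
      have hqc : Nat.card (G ⧸ (R : Subgroup G)) = 24 := hRi
      rcases Lib.ZassSL25.perfect_small hq (by rw [hqc]; norm_num) with h | h | h <;> omega
    have hle := Nat.le_of_dvd (by norm_num) hd
    generalize Nat.card (Sylow 5 G) = n at *
    interval_cases n <;> omega
  haveI : Fintype (Sylow 5 G) := Fintype.ofFinite _
  classical
  set X := Sylow 5 G
  let σ : G →* Equiv.Perm X := MulAction.toPermHom G X
  haveI : Fintype (Equiv.Perm X) := inferInstance
  have hsign : ∀ g, Equiv.Perm.sign (σ g) = 1 := fun g =>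
    Lib.ZassSL25.map_eq_one_of_perfect hp (Equiv.Perm.sign.comp σ) g
  let τ : G →* alternatingGroup X := σ.codRestrict _ fun g => Equiv.Perm.mem_alternatingGroup.2 (hsign g)
  haveI : IsSimpleGroup (alternatingGroup X) :=
    alternatingGroup.isSimpleGroup (by rw [Nat.card_eq_fintype_card] at hn ⊢; omega)
  set K := τ.ker
  have hq : commutator τ.range = ⊤ := by
    have h := congrArg (Subgroup.map τ.rangeRestrict) hp
    rw [_root_.commutator_def, map_commutator, Subgroup.map_top_of_surjective _ τ.rangeRestrict_surjective] at h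
    exact h
  have hrc : Nat.card τ.range ∣ 120 := hc ▸ card_range_dvd τ
  have hA : Nat.card (alternatingGroup X) = 360 := by
    haveI : Nontrivial X := Finite.one_lt_card_iff_nontrivial.1 (by omega)
    rw [nat_card_alternatingGroup, hn]; rfl
  have h60 : Nat.card τ.range = 60 := by
    rcases Lib.ZassSL25.perfect_small hq hrc with h | h | h
    · exfalso
      obtain ⟨A, B, hAB⟩ : ∃ A B : X, A ≠ B := by
        haveI : Nontrivial X := Finite.one_lt_card_iff_nontrivial.1 (by omega)
        exact exists_pair_ne X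
      obtain ⟨g, hg⟩ := MulAction.exists_smul_eq G A B
      have h1 : τ g = 1 := by
        have hbot := τ.range.eq_bot_of_card_eq h
        exact mem_bot.1 (hbot ▸ ⟨g, rfl⟩)
      exact hAB (hg ▸ (Equiv.congr_fun (congrArg Subtype.val h1) A).symm)
    · exact h
    · exfalso
      have hidx : τ.range.index = 3 := by
        have := τ.range.card_mul_index
        rw [h, hA] at this; omega
      have hcoset : Nat.card (alternatingGroup X ⧸ τ.range) = 3 := hidx
      haveI : Fintype (alternatingGroup X ⧸ τ.range) := Fintype.ofFinite _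
      let ψ := MulAction.toPermHom (alternatingGroup X) (alternatingGroup X ⧸ τ.range)
      rcases (inferInstance : ψ.ker.Normal).eq_bot_or_eq_top with hk | hk
      · have hinj : Function.Injective ψ := (MonoidHom.ker_eq_bot_iff ψ).1 hk
        have := Nat.card_le_card_of_injective ψ hinj
        rw [hA, Nat.card_perm, hcoset] at this
        norm_num [Nat.factorial] at this
      · have hall : ∀ v : alternatingGroup X, v ∈ τ.range := fun v => by
          have h1 : ψ v = 1 := MonoidHom.mem_ker.1 (hk ▸ mem_top v)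
          have h2 : v • ((1 : alternatingGroup X) : alternatingGroup X ⧸ τ.range) = ((1 : alternatingGroup X) : alternatingGroup X ⧸ τ.range) :=
            Equiv.congr_fun h1 ((1 : alternatingGroup X) : alternatingGroup X ⧸ τ.range)
          have h3 : ((v * 1 : alternatingGroup X) : alternatingGroup X ⧸ τ.range) = ((1 : alternatingGroup X) : alternatingGroup X ⧸ τ.range) := h2
          rw [mul_one] at h3
          simpa using QuotientGroup.eq.1 h3
        rw [show τ.range = ⊤ from eq_top_iff.2 fun v _ => hall v, index_top] at hidx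
        omega
  have hK : Nat.card K = 2 := by
    have := K.card_mul_index
    rw [Subgroup.index_ker, h60, hc] at this
    omega
  obtain ⟨z, hz⟩ := exists_prime_orderOf_dvd_card' (G := K) 2 (by rw [hK])
  rw [← Subgroup.orderOf_coe] at hz
  refine ⟨z, hz, fun t ht => ?_⟩
  obtain ⟨P, hP⟩ := (IsPGroup.of_card (p := 2) (n := 1) (G := zpowers t)
    (by rw [Nat.card_zpowers, ht, pow_one])).exists_le_sylow
  have hK2 : IsPGroup 2 K := IsPGroup.of_card (n := 1) (by rw [hK, pow_one])
  have hzP : (z : G) ∈ (P : Subgroup G) := by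
    have : K ≤ (P : Subgroup G) := by
      have hsup : IsPGroup 2 ((P : Subgroup G) ⊔ K : Subgroup G) := P.2.to_sup_of_normal_right hK2
      exact le_sup_right.trans (P.3 hsup le_sup_left).le
    exact this z.2
  obtain ⟨φ⟩ := hQ P
  rcases dependent φ (hP (mem_zpowers t)) hzP (by rw [← ht, pow_orderOf_eq_one]) (by rw [← hz, pow_orderOf_eq_one]) with h | h | h
  · rw [h, orderOf_one] at ht; norm_num at ht
  · rw [h, orderOf_one] at hz; norm_num at hz
  · exact h

/-- The relators of the binary icosahedral group. -/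
abbrev rels : Set (FreeGroup (Fin 3)) :=
  {FreeGroup.of (0 : Fin 3) ^ 3, FreeGroup.of (1 : Fin 3) ^ 5, FreeGroup.of (2 : Fin 3) ^ 2,
    (FreeGroup.of (2 : Fin 3))⁻¹ * FreeGroup.of 0 * FreeGroup.of 2 * (FreeGroup.of (0 : Fin 3))⁻¹,
    (FreeGroup.of (2 : Fin 3))⁻¹ * FreeGroup.of 1 * FreeGroup.of 2 * (FreeGroup.of (1 : Fin 3))⁻¹,
    (FreeGroup.of (0 : Fin 3) * FreeGroup.of 1) ^ 2 * (FreeGroup.of (2 : Fin 3))⁻¹}

/-- The matrices. -/
def mats : Fin 3 → Matrix.SpecialLinearGroup (Fin 2) (ZMod 5) :=
  ![⟨!![0, -1; 1, -1], by decide⟩, ⟨!![1, 1; 0, 1], by decide⟩, ⟨!![-1, 0; 0, -1], by decide⟩]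

theorem presentation : Nonempty (PresentedGroup rels ≃* Matrix.SpecialLinearGroup (Fin 2) (ZMod 5)) := by
  set a : PresentedGroup rels := PresentedGroup.of 0
  set b : PresentedGroup rels := PresentedGroup.of 1
  set z : PresentedGroup rels := PresentedGroup.of 2
  have ha : a ^ 3 = 1 := PresentedGroup.one_of_mem (Or.inl rfl)
  have hb : b ^ 5 = 1 := PresentedGroup.one_of_mem (Or.inr (Or.inl rfl))
  have hz : z ^ 2 = 1 := PresentedGroup.one_of_mem (Or.inr (Or.inr (Or.inl rfl)))
  have hza : z⁻¹ * a * z * a⁻¹ = 1 := PresentedGroup.one_of_mem (Or.inr (Or.inr (Or.inr (Or.inl rfl))))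
  have hzb : z⁻¹ * b * z * b⁻¹ = 1 :=
    PresentedGroup.one_of_mem (Or.inr (Or.inr (Or.inr (Or.inr (Or.inl rfl)))))
  have hab : (a * b) ^ 2 * z⁻¹ = 1 :=
    PresentedGroup.one_of_mem (Or.inr (Or.inr (Or.inr (Or.inr (Or.inr rfl)))))
  have hgen : closure (Set.range (PresentedGroup.of (rels := rels))) = ⊤ := PresentedGroup.closure_range_of rels
  have hzc : z ∈ center (PresentedGroup rels) := by
    have : closure (Set.range (PresentedGroup.of (rels := rels))) ≤ centralizer ({z} : Set (PresentedGroup rels)) := by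
      rw [closure_le]
      rintro _ ⟨j, rfl⟩
      refine mem_centralizer_singleton_iff.2 ?_
      fin_cases j
      · rw [mul_inv_eq_one, mul_assoc, inv_mul_eq_iff_eq_mul] at hza; exact hza
      · rw [mul_inv_eq_one, mul_assoc, inv_mul_eq_iff_eq_mul] at hzb; exact hzb
      · rfl
    rw [hgen] at this
    exact mem_center_iff.2 fun g => mem_centralizer_singleton_iff.1 (this (mem_top g))
  haveI hZn : (zpowers z).Normal := ⟨fun v hv g => by
    rwa [mem_center_iff.1 (zpowers_le.2 hzc hv) g, mul_inv_cancel_right]⟩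
  let q := QuotientGroup.mk' (zpowers z)
  have hqz : q z = 1 := (QuotientGroup.eq_one_iff z).2 (mem_zpowers z)
  have hQ : Finite (PresentedGroup rels ⧸ zpowers z) ∧ Nat.card (PresentedGroup rels ⧸ zpowers z) ≤ 60 := by
    refine Lib.Icosa.finite_card_le (a := q a) (b := q b) (by rw [← map_pow, ha, map_one])
      (by rw [← map_pow, hb, map_one]) ?_ ?_
    · rw [← map_mul, ← map_pow, mul_inv_eq_one.1 hab, hqz]
    · refine eq_top_iff.2 ?_
      rw [← MonoidHom.range_eq_top.2 (QuotientGroup.mk'_surjective (zpowers z)), MonoidHom.range_eq_map, ← hgen,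
        MonoidHom.map_closure, closure_le]
      rintro _ ⟨_, ⟨j, rfl⟩, rfl⟩
      fin_cases j
      · exact subset_closure (Or.inl rfl)
      · exact subset_closure (Or.inr rfl)
      · show q z ∈ _
        rw [hqz]; exact one_mem _
  haveI := hQ.1
  have hzfin : IsOfFinOrder z := isOfFinOrder_iff_pow_eq_one.2 ⟨2, two_pos, hz⟩
  haveI : Finite (zpowers z) := hzfin.finite_zpowers
  haveI : Finite (PresentedGroup rels) := Finite.of_subgroup_quotient (zpowers z)
  have hcard : Nat.card (PresentedGroup rels) ≤ 120 := by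
    rw [Subgroup.card_eq_card_quotient_mul_card_subgroup (zpowers z), Nat.card_zpowers]
    exact (Nat.mul_le_mul hQ.2 (Nat.le_of_dvd two_pos (orderOf_dvd_of_pow_eq_one hz))).trans (by norm_num)
  let f : PresentedGroup rels →* Matrix.SpecialLinearGroup (Fin 2) (ZMod 5) :=
    PresentedGroup.toGroup (f := mats) (by
      rintro r (rfl | rfl | rfl | rfl | rfl | rfl) <;>
        simp only [map_pow, map_mul, map_inv, FreeGroup.lift_apply_of] <;> decide)
  obtain ⟨C⟩ := Lib.ZassSL25.nonempty_icoCover_sl
  have hG : Nat.card (Matrix.SpecialLinearGroup (Fin 2) (ZMod 5)) = 120 := C.card_eq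
  have hm0 : mats 0 ∈ f.range := ⟨a, PresentedGroup.toGroup.of _⟩
  have hm1 : mats 1 ∈ f.range := ⟨b, PresentedGroup.toGroup.of _⟩
  have h3 : orderOf (mats 0) = 3 := orderOf_eq_prime (hp := ⟨Nat.prime_three⟩) (by decide) (by decide)
  have h5 : orderOf (mats 1) = 5 := orderOf_eq_prime (hp := ⟨by norm_num⟩) (by decide) (by decide)
  haveI : Fact (Nat.Prime 2) := ⟨Nat.prime_two⟩
  have h4 : orderOf (mats 0 * mats 1) = 4 :=
    orderOf_eq_prime_pow (p := 2) (n := 1) (by decide) (by decide)
  have h60 : 60 ∣ Nat.card f.range := by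
    have e4 := f.range.orderOf_dvd_natCard (mul_mem hm0 hm1)
    have e3 := f.range.orderOf_dvd_natCard hm0
    have e5 := f.range.orderOf_dvd_natCard hm1
    rw [h4] at e4; rw [h3] at e3; rw [h5] at e5
    omega
  have hidx : f.range.index = 1 := by
    have hi := f.range.card_mul_index
    rw [hG] at hi
    obtain ⟨k, hk⟩ := h60
    rw [hk, mul_assoc] at hi
    rcases (Nat.dvd_prime Nat.prime_two).1 (Dvd.intro_left k (show k * f.range.index = 2 by omega)) with e | e
    · exact e
    · exfalso
      haveI := Subgroup.normal_of_index_eq_two e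
      have hQ2 : Nat.card (Matrix.SpecialLinearGroup (Fin 2) (ZMod 5) ⧸ f.range) = 2 := e
      haveI := IsPGroup.isNilpotent (IsPGroup.of_card (n := 1) (hQ2.trans (pow_one 2).symm))
      have : f.range = ⊤ := eq_top_iff.2 fun g _ =>
        (QuotientGroup.eq_one_iff g).1 (Lib.ZassSL25.map_eq_one_of_perfect C.perfect (QuotientGroup.mk' _) g)
      rw [this, index_top] at e
      norm_num at e
  have hsurj : Function.Surjective f := MonoidHom.range_eq_top.1 (Subgroup.index_eq_one.1 hidx)
  exact ⟨MulEquiv.ofBijective f (Function.Surjective.bijective_of_nat_card_le hsurj (by rw [hG]; exact hcard))⟩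

/-- Every non-solvable group of order 120 whose Sylow 2-subgroups are quaternion of order 8 is isomorphic to SL(2,5), and SL(2,5) has the presentation ⟨x, y, z | x³ = y⁵ = z² = 1, z⁻¹xz = x, z⁻¹yz = y, (xy)² = z⟩. -/
theorem result :
    (∀ (G : Type*) [Group G] [Finite G], Nat.card G = 120 → ¬ Group.IsSolvable G →
      (∀ P : Sylow 2 G, Nonempty ((P : Subgroup G) ≃* QuaternionGroup 2)) →
      Nonempty (G ≃* Matrix.SpecialLinearGroup (Fin 2) (ZMod 5))) ∧
    Nonempty (PresentedGroup ({FreeGroup.of (0 : Fin 3) ^ 3, FreeGroup.of (1 : Fin 3) ^ 5, FreeGroup.of (2 : Fin 3) ^ 2,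
        (FreeGroup.of (2 : Fin 3))⁻¹ * FreeGroup.of 0 * FreeGroup.of 2 * (FreeGroup.of (0 : Fin 3))⁻¹,
        (FreeGroup.of (2 : Fin 3))⁻¹ * FreeGroup.of 1 * FreeGroup.of 2 * (FreeGroup.of (1 : Fin 3))⁻¹,
        (FreeGroup.of (0 : Fin 3) * FreeGroup.of 1) ^ 2 * (FreeGroup.of (2 : Fin 3))⁻¹} : Set (FreeGroup (Fin 3)))
      ≃* Matrix.SpecialLinearGroup (Fin 2) (ZMod 5)) := by
  refine ⟨fun G _ _ hc hns hQ => ?_, presentation⟩
  have hp := perfect_of hc hns hQ
  obtain ⟨z, hz, huniq⟩ := unique_involution hc hp hQ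
  obtain ⟨C⟩ := Lib.ZassSL25.nonempty_icoCover hc hp hz huniq
  obtain ⟨C'⟩ := Lib.ZassSL25.nonempty_icoCover_sl
  exact C.nonempty_mulEquiv C'

end Cfsg.Agent.S3378
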