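import Cfsg.Statements.S3379
-- import your own Cfsg.Agent.* helpers here

set_option autoImplicit false
open Cfsg

namespace Cfsg.Agent.S3379

/-- Let G be a finite group all of whose Sylow subgroups are cyclic. Then G is generated by two elements x and y of coprime orders n and m with x⁻¹yx = y^r, where gcd(r − 1, m) = 1 and r^n ≡ 1 (mod m). -/
theorem result {G : Type*} [Group G] [Finite G]
    (hZ : ∀ (p : ℕ) [Fact p.Prime] (P : Sylow p G), IsCyclic (P : Subgroup G)) :
    ∃ (x y : G) (n m r : ℕ), Subgroup.closure {x, y} = ⊤ ∧ orderOf x = n ∧ orderOf y = m ∧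
      x⁻¹ * y * x = y ^ r ∧ Nat.Coprime (r - 1) m ∧ Nat.Coprime n m ∧ 1 ≤ r ∧ r ^ n % m = 1 % m := by
  have : IsZGroup G := (isZGroup_iff G).2 fun p hp P => @hZ p ⟨hp⟩ P
  set D := commutator G
  have hcop : (Nat.card D).Coprime D.index := IsZGroup.coprime_commutator_index G
  have hDcyc : IsCyclic D := IsZGroup.isCyclic_commutator G
  obtain ⟨C, hC⟩ := Subgroup.exists_left_complement'_of_coprime hcop
  have hCcyc : IsCyclic C := by
    have e : G ⧸ D ≃* C := (hC : Subgroup.IsComplement' C D).QuotientMulEquiv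
    have : IsCyclic (G ⧸ D) := IsZGroup.isCyclic_abelianization
    exact isCyclic_of_surjective e.toMonoidHom e.surjective
  obtain ⟨⟨y, hyD⟩, hy⟩ := hDcyc.exists_generator
  obtain ⟨⟨x, hxC⟩, hx⟩ := hCcyc.exists_generator
  have hDy : D = Subgroup.zpowers y := by
    refine le_antisymm (fun g hg => ?_) (Subgroup.zpowers_le.2 hyD)
    obtain ⟨i, hi⟩ := Subgroup.mem_zpowers_iff.1 (hy ⟨g, hg⟩)
    exact Subgroup.mem_zpowers_iff.2 ⟨i, congrArg Subtype.val hi⟩
  have hCx : C = Subgroup.zpowers x := by
    refine le_antisymm (fun g hg => ?_) (Subgroup.zpowers_le.2 hxC)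
    obtain ⟨i, hi⟩ := Subgroup.mem_zpowers_iff.1 (hx ⟨g, hg⟩)
    exact Subgroup.mem_zpowers_iff.2 ⟨i, congrArg Subtype.val hi⟩
  have hcl : Subgroup.closure {x, y} = ⊤ := by
    rw [eq_top_iff, ← hC.sup_eq_top, hCx, hDy, sup_le_iff, Subgroup.zpowers_le, Subgroup.zpowers_le]
    exact ⟨Subgroup.subset_closure (by simp), Subgroup.subset_closure (by simp)⟩
  have hconj : x⁻¹ * y * x ∈ Subgroup.zpowers y := by
    rw [← hDy]
    simpa using (inferInstance : D.Normal).conj_mem y hyD x⁻¹
  rw [← mem_powers_iff_mem_zpowers] at hconj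
  obtain ⟨r0, hr0⟩ := hconj
  change y ^ r0 = x⁻¹ * y * x at hr0
  set m := orderOf y with hm
  set r := r0 + m with hr
  have hm0 : 0 < m := orderOf_pos y
  have hyr : x⁻¹ * y * x = y ^ r := by rw [hr, pow_add, hm, pow_orderOf_eq_one, mul_one, hr0]
  have hcopr : Nat.Coprime (r - 1) m := by
    set N := Subgroup.zpowers (y ^ (r - 1))
    have hND : N ≤ D := by rw [hDy, Subgroup.zpowers_le]; exact Subgroup.npow_mem_zpowers _ _
    have hNn : N.Normal := by
      constructor
      intro a ha g
      obtain ⟨i, rfl⟩ := Subgroup.mem_zpowers_iff.1 ha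
      have hgD : g * y * g⁻¹ ∈ Subgroup.zpowers y := by
        rw [← hDy]; exact (inferInstance : D.Normal).conj_mem y hyD g
      obtain ⟨j, hj⟩ := Subgroup.mem_zpowers_iff.1 hgD
      rw [← conj_zpow, ← conj_pow, ← hj, Subgroup.mem_zpowers_iff]
      refine ⟨j * i, ?_⟩
      rw [← zpow_natCast, ← zpow_natCast, ← zpow_mul, ← zpow_mul, ← zpow_mul]
      ring_nf
    have hle : D ≤ N := by
      let π := QuotientGroup.mk' N
      have hxy : π x * π y = π y * π x := by
        rw [← map_mul, ← map_mul]
        refine QuotientGroup.eq.2 ?_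
        have e : (x * y)⁻¹ * (y * x) = y ^ (r - 1) := by
          rw [show (x * y)⁻¹ * (y * x) = y⁻¹ * (x⁻¹ * y * x) by group, hyr]
          have : r = (r - 1) + 1 := by omega
          conv_lhs => rw [this, pow_succ', ← mul_assoc, inv_mul_cancel, one_mul]
        rw [e]; exact Subgroup.mem_zpowers _
      have hcomm : ∀ a b : G ⧸ N, a * b = b * a := by
        have htop : Subgroup.closure {π x, π y} = ⊤ := by
          rw [← Set.image_pair, ← MonoidHom.map_closure, hcl,
            Subgroup.map_top_of_surjective _ (QuotientGroup.mk'_surjective N)]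
        intro a b
        have hmem : ∀ a, a ∈ Subgroup.closure {π x, π y} := fun a => htop ▸ Subgroup.mem_top a
        have h1 : Subgroup.closure {π x, π y} ≤ Subgroup.centralizer {π x, π y} := by
          rw [Subgroup.closure_le]
          rintro c (rfl | rfl) <;> rw [SetLike.mem_coe, Subgroup.mem_centralizer_iff] <;>
            rintro d (rfl | rfl) <;> first | rfl | exact hxy | exact hxy.symm
        have h2 : Subgroup.closure {π x, π y} ≤ Subgroup.centralizer (Subgroup.closure {π x, π y} : Set (G ⧸ N)) := by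
          rw [Subgroup.centralizer_closure]; exact h1
        exact (Subgroup.mem_centralizer_iff.1 (h2 (hmem b)) a (hmem a))
      show commutator G ≤ N
      rw [commutator_def, Subgroup.commutator_le]
      intro a _ b _
      have hab := hcomm (π a) (π b)
      rw [← QuotientGroup.eq_one_iff]
      show π (a * b * a⁻¹ * b⁻¹) = 1
      rw [map_mul, map_mul, map_mul, map_inv, map_inv, hab]; group
    have hcard : Nat.card N = Nat.card D := by rw [le_antisymm hND hle]
    rw [hDy, Nat.card_zpowers, Nat.card_zpowers, ← hm] at hcard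
    rw [Nat.coprime_iff_gcd_eq_one, Nat.gcd_comm]
    rw [orderOf_pow, ← hm] at hcard
    have hg0 : 0 < Nat.gcd m (r - 1) := Nat.gcd_pos_of_pos_left _ hm0
    have := Nat.div_mul_cancel (Nat.gcd_dvd_left m (r - 1))
    rw [hcard] at this
    exact Nat.eq_of_mul_eq_mul_left hm0 (this.trans (mul_one m).symm)
  refine ⟨x, y, orderOf x, m, r, hcl, rfl, rfl, hyr, hcopr, ?_, by omega, ?_⟩
  · have h1 : Nat.card C = D.index := hC.index_eq_card.symm
    rw [hm, ← Nat.card_zpowers, ← Nat.card_zpowers, ← hCx, ← hDy, h1]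
    exact hcop.symm
  · have hiter : ∀ j : ℕ, (x ^ j)⁻¹ * y * x ^ j = y ^ (r ^ j) := by
      intro j
      induction j with
      | zero => simp
      | succ j ih =>
        rw [pow_succ' x, mul_inv_rev]
        calc (x ^ j)⁻¹ * x⁻¹ * y * (x * x ^ j) = (x ^ j)⁻¹ * (x⁻¹ * y * x) * x ^ j := by group
          _ = (x ^ j)⁻¹ * y ^ r * x ^ j := by rw [hyr]
          _ = ((x ^ j)⁻¹ * y * x ^ j) ^ r := by
            have := conj_pow (a := (x ^ j)⁻¹) (b := y) (i := r)
            rw [inv_inv] at this
            exact this.symm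
          _ = _ := by rw [ih, ← pow_mul, pow_succ]
    have := hiter (orderOf x)
    rw [pow_orderOf_eq_one, inv_one, one_mul, mul_one] at this
    nth_rewrite 1 [← pow_one y] at this
    rw [pow_eq_pow_iff_modEq] at this
    exact this.symm

end Cfsg.Agent.S3379
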