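import Cfsg.Statements.S3381
-- import your own Cfsg.Agent.* helpers here

set_option autoImplicit false
open Cfsg

namespace Cfsg.Agent.S3381

theorem exists_fixed_of_involution {V : Type*} [AddCommGroup V] [Module (ZMod 2) V] (f : V ≃ₗ[ZMod 2] V)
    (hf : ∀ v, f (f v) = v) {x : V} (hx : x ≠ 0) : ∃ y : V, y ≠ 0 ∧ f y = y ∧ (y = x ∨ y = x + f x) := by
  by_cases h : f x = x
  · exact ⟨x, hx, h, Or.inl rfl⟩
  · refine ⟨x + f x, fun e => h ?_, by rw [map_add, hf, add_comm], Or.inr rfl⟩
    have h2 : x + x = 0 := by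
      rw [← two_smul (ZMod 2) x, show (2 : ZMod 2) = 0 from rfl, zero_smul]
    exact add_left_cancel (e.trans h2.symm)

/-- Let G be a finite group acting faithfully and linearly on a non-trivial finite vector space V over the field with q elements (q prime) so that every non-zero vector has a stabilizer of order 2, and suppose G has a central involution. Then V has q^(2r) elements for some r and G contains exactly q^r + 1 non-central involutions. -/
theorem result
    (q : ℕ) [Fact q.Prime] {V : Type*} [AddCommGroup V] [Module (ZMod q) V] [Finite V] [Nontrivial V]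
    {G : Type*} [Group G] [Finite G] (ρ : G →* (V ≃ₗ[ZMod q] V)) (hρ : Function.Injective ρ)
    (hstab : ∀ v : V, v ≠ 0 → Nat.card {g : G // ρ g v = v} = 2)
    (z : G) (hz : orderOf z = 2) (hzc : z ∈ Subgroup.center G) :
    ∃ r : ℕ, Nat.card V = q ^ (2 * r) ∧
      Nat.card {g : G // orderOf g = 2 ∧ g ∉ Subgroup.center G} = q ^ r + 1 := by
  classical
  haveI := Fintype.ofFinite V
  have hq : q.Prime := Fact.out
  have happ : ∀ (g h : G) (v : V), ρ (g * h) v = ρ g (ρ h v) := fun g h v => by rw [map_mul]; rfl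
  have hone : ∀ v : V, ρ 1 v = v := fun v => by rw [map_one]; rfl
  have hinj : ∀ g : G, (∀ v, ρ g v = v) → g = 1 := fun g hg => hρ (by rw [map_one]; exact LinearEquiv.ext hg)
  have hz1 : z ≠ 1 := fun e => by rw [e, orderOf_one] at hz; norm_num at hz
  have hsqr : ∀ g : G, orderOf g = 2 → g * g = 1 := fun g h => by
    have e := pow_orderOf_eq_one g
    rwa [h, sq] at e
  have hz2 : ∀ v, ρ z (ρ z v) = v := fun v => by
    rw [← happ, ← sq, ← hz, pow_orderOf_eq_one, hone]
  have hzg : ∀ (g : G) (v : V), ρ g (ρ z v) = ρ z (ρ g v) := fun g v => by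
    rw [← happ, ← happ, Subgroup.mem_center_iff.1 hzc g]
  -- a vector has a unique non-trivial element fixing it
  have huniq : ∀ v : V, v ≠ 0 → ∀ g h : G, g ≠ 1 → h ≠ 1 → ρ g v = v → ρ h v = v → g = h := by
    intro v hv g h hg hh hgv hhv
    obtain ⟨a, b, hab, huv⟩ := Nat.card_eq_two_iff.1 (hstab v hv)
    have hmem : ∀ x : {g : G // ρ g v = v}, x = a ∨ x = b := fun x => by
      have : x ∈ ({a, b} : Set {g : G // ρ g v = v}) := by rw [huv]; exact Set.mem_univ _
      exact this
    rcases hmem ⟨g, hgv⟩ with e1 | e1 <;> rcases hmem ⟨h, hhv⟩ with e2 | e2 <;> rcases hmem ⟨1, hone v⟩ with e3 | e3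
    all_goals first
      | exact congrArg Subtype.val (e1.trans e2.symm)
      | exact absurd (congrArg Subtype.val (e1.trans e3.symm)) hg
      | exact absurd (congrArg Subtype.val (e2.trans e3.symm)) hh
  have hex : ∀ v : V, v ≠ 0 → ∃ g : G, g ≠ 1 ∧ ρ g v = v ∧ orderOf g = 2 := by
    intro v hv
    obtain ⟨a, b, hab, -⟩ := Nat.card_eq_two_iff.1 (hstab v hv)
    obtain ⟨g, hg1, hgv⟩ : ∃ g : G, g ≠ 1 ∧ ρ g v = v := by
      by_cases ha : a.1 = 1
      · exact ⟨b.1, fun e => hab (Subtype.ext (ha.trans e.symm)), b.2⟩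
      · exact ⟨a.1, ha, a.2⟩
    refine ⟨g, hg1, hgv, ?_⟩
    have hgg : ρ (g * g) v = v := by rw [happ, hgv, hgv]
    have : g * g = 1 := by
      by_contra hne
      have := huniq v hv g (g * g) hg1 hne hgv hgg
      exact hg1 (left_eq_mul.1 this)
    haveI hf2 : Fact (Nat.Prime 2) := ⟨Nat.prime_two⟩
    exact orderOf_eq_prime ((sq g).trans this) hg1
  have hnot2 : q ≠ 2 → (2 : ZMod q) ≠ 0 := fun hq2 e => by
    have h' : ((2 : ℕ) : ZMod q) = 0 := by exact_mod_cast e
    rw [ZMod.natCast_eq_zero_iff] at h'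
    exact hq2 ((Nat.prime_dvd_prime_iff_eq hq Nat.prime_two).1 h')
  have hcentral : q ≠ 2 → ∀ c ∈ Subgroup.center G, c ≠ 1 → c * c = 1 → ∀ w, ρ c w = w → w = 0 := by
    intro hq2 c hc hc1 hcc w hw
    by_contra hw0
    obtain ⟨v, hv⟩ : ∃ v, ρ c v ≠ v := by
      by_contra h
      push Not at h
      exact hc1 (hinj c h)
    have hc2 : ∀ x, ρ c (ρ c x) = x := fun x => by rw [← happ, hcc, hone]
    have hcg : ∀ (g : G) (x : V), ρ g (ρ c x) = ρ c (ρ g x) := fun g x => by
      rw [← happ, ← happ, Subgroup.mem_center_iff.1 hc g]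
    have h2 := hnot2 hq2
    set u := v - ρ c v with hu
    have hu0 : u ≠ 0 := fun e => hv (sub_eq_zero.1 e).symm
    have hzu : ρ c u = -u := by rw [hu, map_sub, hc2]; abel
    have hsum : w + u ≠ 0 := fun e => by
      have e2 : w - u = 0 := by
        have := congrArg (ρ c) e
        rwa [map_add, hw, hzu, map_zero, ← sub_eq_add_neg] at this
      have h3 : (2 : ZMod q) • w = 0 := by
        rw [two_smul]; linear_combination (norm := module) e + e2
      exact hw0 ((smul_eq_zero.1 h3).resolve_left h2)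
    obtain ⟨g, hg1, hgv, -⟩ := hex (w + u) hsum
    have h3 : ρ g (w - u) = w - u := by
      have := congrArg (ρ c) hgv
      rw [← hcg, map_add (ρ c), hw, hzu, ← sub_eq_add_neg] at this
      exact this
    have h4 : (2 : ZMod q) • ρ g w = (2 : ZMod q) • w := by
      rw [← map_smul, two_smul, show w + w = (w + u) + (w - u) by abel, map_add, hgv, h3]
    have h5 : ρ g w = w := smul_right_injective V h2 h4
    have h6 : ρ g u = u := by
      have := hgv; rw [map_add, h5] at this; exact add_left_cancel this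
    have e := huniq w hw0 g c hg1 hc1 h5 hw
    rw [e, hzu] at h6
    have h7 : (2 : ZMod q) • u = 0 := by
      rw [two_smul]; nth_rewrite 1 [← h6]; exact neg_add_cancel u
    exact hu0 ((smul_eq_zero.1 h7).resolve_left h2)
  -- the central involution fixes nothing
  have hzfix : ∀ w : V, ρ z w = w → w = 0 := by
    intro w hw
    by_contra hw0
    obtain ⟨v, hv⟩ : ∃ v, ρ z v ≠ v := by
      by_contra h
      push Not at h
      exact hz1 (hinj z h)
    rcases eq_or_ne q 2 with rfl | hq2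
    · obtain ⟨t, ht1, htv, ht2⟩ := hex v fun e => hv (by rw [e, map_zero])
      have htt : ∀ x, ρ t (ρ t x) = x := fun x => by rw [← happ, hsqr t ht2, hone]
      obtain ⟨y, hy, hty, hcase⟩ := exists_fixed_of_involution (ρ t) htt hw0
      have hzy : ρ z y = y := by
        rcases hcase with e | e
        · rw [e, hw]
        · rw [e, map_add, hw, ← hzg t w, hw]
      exact hv ((huniq y hy z t hz1 ht1 hzy hty) ▸ htv)
    · exact hw0 (hcentral hq2 z hzc hz1 (hsqr z hz) w hw)
  have hneg : ∀ v, ρ z v = -v := fun v => by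
    have := hzfix (v + ρ z v) (by rw [map_add, hz2, add_comm])
    exact eq_neg_of_add_eq_zero_right this
  have hq2 : q ≠ 2 := fun e => hz1 (hinj z fun v => by
    subst e
    rw [hneg]
    exact neg_eq_of_add_eq_zero_left (by rw [← two_smul (ZMod 2) v, show (2 : ZMod 2) = 0 from rfl, zero_smul]))
  have h2 : (2 : ZMod q) ≠ 0 := by
    intro e
    have h' : ((2 : ℕ) : ZMod q) = 0 := by exact_mod_cast e
    rw [ZMod.natCast_eq_zero_iff] at h'
    exact hq2 ((Nat.prime_dvd_prime_iff_eq hq Nat.prime_two).1 h')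
  set n := Module.finrank (ZMod q) V
  have hVcard : Nat.card V = q ^ n := by
    rw [Module.natCard_eq_pow_finrank (K := ZMod q) (V := V), Nat.card_zmod]
  let Fix : G → Submodule (ZMod q) V := fun g => LinearMap.ker ((ρ g : V →ₗ[ZMod q] V) - LinearMap.id)
  have hFix : ∀ g v, v ∈ Fix g ↔ ρ g v = v := fun g v => by
    simp only [Fix, LinearMap.mem_ker, LinearMap.sub_apply, LinearMap.id_apply, sub_eq_zero]; rfl
  let T : Type _ := {g : G // orderOf g = 2 ∧ g ∉ Subgroup.center G}
  have hstabmem : ∀ v : V, v ≠ 0 → ∀ g : G, g ≠ 1 → ρ g v = v → g ∉ Subgroup.center G := by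
    intro v hv g hg hgv hgc
    obtain ⟨g', hg', hgv', hord⟩ := hex v hv
    have e := huniq v hv g g' hg hg' hgv hgv'
    exact hv (hcentral hq2 g hgc hg (by rw [e]; exact hsqr g' hord) v hgv)
  -- two fixed spaces meet trivially, each is proper and non-trivial
  have hdisj : ∀ s t : T, s ≠ t → Fix s.1 ⊓ Fix t.1 = ⊥ := by
    intro s t hst
    rw [eq_bot_iff]
    intro v hv
    rw [Submodule.mem_bot]
    by_contra hv0
    have hs1 : s.1 ≠ 1 := fun e => s.2.2 (e ▸ Subgroup.one_mem _)
    have ht1 : t.1 ≠ 1 := fun e => t.2.2 (e ▸ Subgroup.one_mem _)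
    exact hst (Subtype.ext (huniq v hv0 _ _ hs1 ht1 ((hFix _ _).1 hv.1) ((hFix _ _).1 hv.2)))
  have hTmul : ∀ t : T, orderOf (z * t.1) = 2 ∧ z * t.1 ∉ Subgroup.center G := fun t => by
    haveI : Fact (Nat.Prime 2) := ⟨Nat.prime_two⟩
    refine ⟨orderOf_eq_prime ?_ ?_, fun h => t.2.2 (by
      simpa using (Subgroup.center G).mul_mem ((Subgroup.center G).inv_mem hzc) h)⟩
    · have hc : Commute z t.1 := (Subgroup.mem_center_iff.1 hzc t.1).symm
      rw [hc.mul_pow, sq, sq, hsqr z hz, hsqr _ t.2.1, one_mul]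
    · intro e
      exact t.2.2 (by rw [eq_inv_of_mul_eq_one_right e]; exact (Subgroup.center G).inv_mem hzc)
  have hpair : ∀ t : T, Module.finrank (ZMod q) (Fix t.1) + Module.finrank (ZMod q) (Fix (z * t.1)) = n := by
    intro t
    have htt : ∀ x, ρ t.1 (ρ t.1 x) = x := fun x => by rw [← happ, hsqr _ t.2.1, hone]
    refine Submodule.finrank_add_eq_of_isCompl (IsCompl.of_eq ?_ ?_)
    · rw [eq_bot_iff]
      rintro v ⟨h1, h2'⟩
      have a1 := (hFix _ _).1 h1
      have a2 := (hFix _ _).1 h2'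
      rw [happ, a1, hneg] at a2
      have h7 : (2 : ZMod q) • v = 0 := by rw [two_smul]; nth_rewrite 1 [← a2]; exact neg_add_cancel v
      exact (Submodule.mem_bot _).2 ((smul_eq_zero.1 h7).resolve_left h2)
    · rw [eq_top_iff]
      intro v _
      have e : v = (2 : ZMod q)⁻¹ • (v + ρ t.1 v) + (2 : ZMod q)⁻¹ • (v - ρ t.1 v) := by
        rw [← smul_add, show v + ρ t.1 v + (v - ρ t.1 v) = (2 : ZMod q) • v by rw [two_smul]; abel,
          inv_smul_smul₀ h2]
      rw [e]
      refine Submodule.add_mem_sup ((hFix _ _).2 ?_) ((hFix _ _).2 ?_)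
      · rw [map_smul, map_add, htt, add_comm]
      · rw [happ, map_smul, map_sub, htt, hneg, ← smul_neg, neg_sub]
  have hdim : ∀ t : T, 2 * Module.finrank (ZMod q) (Fix t.1) = n := by
    intro t
    by_contra hne
    -- choose the larger of the two spaces
    obtain ⟨s, hs⟩ : ∃ s : T, n < 2 * Module.finrank (ZMod q) (Fix s.1) := by
      rcases Nat.lt_or_gt_of_ne hne with h | h
      · exact ⟨⟨z * t.1, hTmul t⟩, by have := hpair t; simp only at this ⊢; omega⟩
      · exact ⟨t, h⟩
    apply s.2.2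
    rw [Subgroup.mem_center_iff]
    intro g
    by_contra hg
    have hne' : g * s.1 * g⁻¹ ≠ s.1 := fun e => hg (mul_inv_eq_iff_eq_mul.1 e)
    have hord : orderOf (g * s.1 * g⁻¹) = 2 := by rw [← MulAut.conj_apply, MulEquiv.orderOf_eq, s.2.1]
    have hnc : g * s.1 * g⁻¹ ∉ Subgroup.center G := fun h => s.2.2 (by
      have := Subgroup.Normal.conj_mem (inferInstance : (Subgroup.center G).Normal) _ h g⁻¹
      simpa [mul_assoc] using this)
    have hmap : (Fix s.1).map (ρ g : V →ₗ[ZMod q] V) = Fix (g * s.1 * g⁻¹) := by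
      ext v
      rw [Submodule.mem_map, hFix]
      constructor
      · rintro ⟨x, hx, rfl⟩
        rw [hFix] at hx
        show ρ (g * s.1 * g⁻¹) (ρ g x) = ρ g x
        rw [← happ, inv_mul_cancel_right, happ, hx]
      · intro hv
        refine ⟨ρ g⁻¹ v, (hFix _ _).2 ?_, ?_⟩
        · rw [← happ]
          conv_rhs => rw [← hv, ← happ]
          congr 2; group
        · show ρ g (ρ g⁻¹ v) = v
          rw [← happ, mul_inv_cancel, hone]
    have h5 := hdisj ⟨_, hord, hnc⟩ s (fun e => hne' (congrArg Subtype.val e))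
    have h6 := Submodule.finrank_sup_add_finrank_inf_eq (Fix (g * s.1 * g⁻¹)) (Fix s.1)
    rw [h5, finrank_bot, ← hmap, LinearEquiv.finrank_map_eq] at h6
    have h7 := Submodule.finrank_le ((Fix s.1).map (ρ g : V →ₗ[ZMod q] V) ⊔ Fix s.1)
    omega
  obtain ⟨v₀, hv₀⟩ := exists_ne (0 : V)
  obtain ⟨t₀, ht₀1, ht₀v, ht₀2⟩ := hex v₀ hv₀
  let t₀' : T := ⟨t₀, ht₀2, hstabmem v₀ hv₀ t₀ ht₀1 ht₀v⟩
  obtain ⟨r, hr⟩ : ∃ r, n = 2 * r := ⟨_, (hdim t₀').symm⟩
  refine ⟨r, by rw [hVcard, hr], ?_⟩
  have hFcard : ∀ t : T, Nat.card {v : V // v ∈ Fix t.1 ∧ v ≠ 0} = q ^ r - 1 := by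
    intro t
    have h1 : Nat.card (Fix t.1) = q ^ r := by
      rw [Module.natCard_eq_pow_finrank (K := ZMod q), Nat.card_zmod]
      congr 1; have := hdim t; omega
    have e : {v : V // v ∈ Fix t.1 ∧ v ≠ 0} ≃ {x : Fix t.1 // x ≠ 0} :=
      { toFun := fun v => ⟨⟨v.1, v.2.1⟩, fun h => v.2.2 (congrArg Subtype.val h)⟩
        invFun := fun x => ⟨x.1.1, x.1.2, fun h => x.2 (Subtype.ext h)⟩
        left_inv := fun _ => rfl
        right_inv := fun _ => rfl }
    rw [Nat.card_congr e, Nat.card_eq_fintype_card, Fintype.card_subtype_compl, Fintype.card_subtype_eq,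
      ← Nat.card_eq_fintype_card, h1]
  have hE : (Σ t : T, {v : V // v ∈ Fix t.1 ∧ v ≠ 0}) ≃ {v : V // v ≠ 0} := Equiv.ofBijective
    (fun x => ⟨x.2.1, x.2.2.2⟩) (by
      constructor
      · rintro ⟨s, v, hv⟩ ⟨t, w, hw⟩ e
        have e' : v = w := congrArg Subtype.val e
        subst e'
        have : s = t := by
          by_contra hne
          exact hv.2 ((Submodule.mem_bot (R := ZMod q)).1 (by
            rw [← hdisj s t hne]; exact ⟨hv.1, hw.1⟩))
        subst this; rfl
      · rintro ⟨v, hv⟩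
        obtain ⟨g, hg1, hgv, hg2⟩ := hex v hv
        exact ⟨⟨⟨g, hg2, hstabmem v hv g hg1 hgv⟩, v, (hFix _ _).2 hgv, hv⟩, rfl⟩)
  have hcount := Nat.card_congr hE
  haveI : Fintype T := Fintype.ofFinite T
  rw [Nat.card_sigma, Finset.sum_congr rfl (fun t _ => hFcard t), Finset.sum_const, Finset.card_univ,
    smul_eq_mul, ← Nat.card_eq_fintype_card (α := T), Nat.card_eq_fintype_card (α := {v : V // v ≠ 0}),
    Fintype.card_subtype_compl, Fintype.card_subtype_eq, ← Nat.card_eq_fintype_card, hVcard, hr] at hcount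
  have hrpos : 1 ≤ r := by
    by_contra h
    have hlt : 1 < Nat.card V := Finite.one_lt_card
    rw [hVcard, hr, show r = 0 by omega] at hlt
    norm_num at hlt
  have hqr : 0 < q ^ r - 1 := by
    have := Nat.one_lt_pow (by omega : r ≠ 0) hq.one_lt
    omega
  refine Nat.eq_of_mul_eq_mul_right hqr (hcount.trans ?_)
  rw [two_mul, pow_add]
  have h' := Nat.sq_sub_sq (q ^ r) 1
  rw [one_pow, sq] at h'
  exact h'

end Cfsg.Agent.S3381
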