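import Cfsg.Statements.S3382
-- import your own Cfsg.Agent.* helpers here

set_option autoImplicit false
open Cfsg

namespace Cfsg.Agent.S3382

variable {K : Type*} [Field K]

/-- diagonal map -/
def dg (a b : Kˣ) : (Fin 2 → K) ≃ₗ[K] (Fin 2 → K) where
  toFun v := ![(a : K) * v 0, (b : K) * v 1]
  map_add' v w := by ext i; fin_cases i <;> simp [mul_add]
  map_smul' c v := by ext i; fin_cases i <;> simp [mul_left_comm]
  invFun v := ![(↑a⁻¹ : K) * v 0, (↑b⁻¹ : K) * v 1]
  left_inv v := by ext i; fin_cases i <;> simp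
  right_inv v := by ext i; fin_cases i <;> simp

/-- antidiagonal map -/
def ad (a b : Kˣ) : (Fin 2 → K) ≃ₗ[K] (Fin 2 → K) where
  toFun v := ![(b : K) * v 1, (a : K) * v 0]
  map_add' v w := by ext i; fin_cases i <;> simp [mul_add]
  map_smul' c v := by ext i; fin_cases i <;> simp [mul_left_comm]
  invFun v := ![(↑a⁻¹ : K) * v 1, (↑b⁻¹ : K) * v 0]
  left_inv v := by ext i; fin_cases i <;> simp
  right_inv v := by ext i; fin_cases i <;> simp

theorem dg_mul (a b c d : Kˣ) : dg a b * dg c d = dg (a * c) (b * d) := by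
  ext v i; fin_cases i <;> simp [dg, mul_assoc]

theorem ad_mul (a b c d : Kˣ) : ad a b * ad c d = dg (b * c) (a * d) := by
  ext v i; fin_cases i <;> simp [dg, ad, mul_assoc]

theorem ad_dg (a b c d : Kˣ) : ad a b * dg c d = ad (a * c) (b * d) := by
  ext v i; fin_cases i <;> simp [dg, ad, mul_assoc]

theorem dg_one : dg (1 : Kˣ) 1 = 1 := by
  ext v i; fin_cases i <;> simp [dg]

theorem dg_pow (a b : Kˣ) (n : ℕ) : dg a b ^ n = dg (a ^ n) (b ^ n) := by
  induction n with
  | zero => simp [dg_one]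
  | succ n ih => rw [pow_succ, ih, dg_mul, pow_succ, pow_succ]

theorem dg_inj {a b c d : Kˣ} (h : dg a b = dg c d) : a = c ∧ b = d := by
  constructor
  · have := congrFun (DFunLike.congr_fun h ![1, 0]) 0
    exact Units.ext (by simpa [dg] using this)
  · have := congrFun (DFunLike.congr_fun h ![0, 1]) 1
    exact Units.ext (by simpa [dg] using this)

theorem dg_ne_ad (a b c d : Kˣ) : dg a b ≠ ad c d := fun h => by
  have := congrFun (DFunLike.congr_fun h ![1, 0]) 0
  simp [dg, ad] at this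

/-- a twist of odd order is trivial -/
theorem twist_eq_one {G : Type*} [Group G] (φ : MulAut G) {x c : G} (hx : φ x = x * c) (hc : φ c = c) {r k : ℕ}
    (hr : φ ^ r = 1) (hodd : Nat.Coprime r 2) (hk : c ^ 2 ^ k = 1) : c = 1 := by
  have hpow : ∀ n : ℕ, (φ ^ n) x = x * c ^ n := by
    intro n
    induction n with
    | zero => simp
    | succ n ih => rw [pow_succ', MulAut.mul_apply, ih, map_mul, map_pow, hc, hx, pow_succ', mul_assoc]
  have h1 := hpow r
  rw [hr, MulAut.one_apply, left_eq_mul] at h1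
  exact orderOf_eq_one_iff.1 (Nat.eq_one_of_dvd_coprimes (hodd.pow_right k) (orderOf_dvd_of_pow_eq_one h1)
    (orderOf_dvd_of_pow_eq_one hk))

/-- a permutation of odd order preserving a pair fixes it -/
theorem fix_pair {G : Type*} [Group G] (φ : MulAut G) {x y : G} (hx : φ x = x ∨ φ x = y) (hy : φ y = x ∨ φ y = y)
    {r : ℕ} (hr : φ ^ r = 1) (hodd : Odd r) : φ x = x := by
  rcases hx with hx | hx
  · exact hx
  rcases hy with hy | hy
  · have h2 : ∀ n : ℕ, (φ ^ (2 * n)) x = x := by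
      intro n
      induction n with
      | zero => simp
      | succ n ih => rw [show 2 * (n + 1) = 2 * n + 2 by ring, pow_add, MulAut.mul_apply, pow_two, MulAut.mul_apply, hx, hy, ih]
    obtain ⟨t, rfl⟩ := hodd
    have := congrArg (fun f : MulAut G => f x) hr
    simp only [pow_succ', MulAut.mul_apply, h2, MulAut.one_apply] at this
    exact this
  · exact (φ.injective (hy.trans hx.symm)) ▸ hy

/-- Let q = 2^m + 1 be a prime other than 5. Then the automorphism group of the group of linear maps of F_q² of the forms (x, y) ↦ (a x, ± a⁻¹ y) and (x, y) ↦ (± a⁻¹ y, a x) with a ≠ 0 is itself a 2-group. -/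
theorem result (q m : ℕ) [Fact q.Prime] (hq : q = 2 ^ m + 1) (hq5 : q ≠ 5)
    (T : Subgroup ((Fin 2 → ZMod q) ≃ₗ[ZMod q] (Fin 2 → ZMod q)))
    (hT : ∀ f, f ∈ T ↔ ∃ a s : ZMod q, a ≠ 0 ∧ (s = 1 ∨ s = -1) ∧
      ((∀ v, f v = ![a * v 0, s * a⁻¹ * v 1]) ∨ (∀ v, f v = ![s * a⁻¹ * v 1, a * v 0]))) :
    IsPGroup 2 (MulAut T) := by
  classical
  haveI : Finite ((Fin 2 → ZMod q) ≃ₗ[ZMod q] (Fin 2 → ZMod q)) := DFunLike.finite _
  haveI : Finite (MulAut T) := DFunLike.finite _
  suffices key : ∀ r : ℕ, r.Prime → r ≠ 2 → ∀ φ : MulAut T, φ ^ r = 1 → φ = 1 by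
    have h0 : Nat.card (MulAut T) ≠ 0 := Nat.card_pos.ne'
    refine IsPGroup.of_card (n := (Nat.card (MulAut T)).factorization 2) ?_
    refine Nat.eq_pow_of_factorization_eq_single h0 ?_
    ext r
    rw [Finsupp.single_apply]
    split_ifs with h
    · subst h; rfl
    · by_contra hne
      have hr : r ∈ (Nat.card (MulAut T)).primeFactors := by
        rw [← Nat.support_factorization, Finsupp.mem_support_iff]; exact hne
      haveI := Fact.mk (Nat.prime_of_mem_primeFactors hr)
      obtain ⟨φ, hφ⟩ := exists_prime_orderOf_dvd_card' r (Nat.dvd_of_mem_primeFactors hr)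
      have := key r Fact.out (Ne.symm h) φ (hφ ▸ pow_orderOf_eq_one φ)
      rw [this, orderOf_one] at hφ
      exact (Fact.out : r.Prime).one_lt.ne hφ
  intro r hr hr2 φ hφ
  have hodd : Odd r := hr.odd_of_ne_two hr2
  have hcop : Nat.Coprime r 2 := (Nat.coprime_primes hr Nat.prime_two).2 hr2
  -- the elements of `T`
  have hK : ∀ (a : (ZMod q)ˣ) (s : (ZMod q)ˣ), s ^ 2 = 1 → dg a (s * a⁻¹) ∈ T ∧ ad a (s * a⁻¹) ∈ T := by
    intro a s hs
    have hs' : (s : ZMod q) = 1 ∨ (s : ZMod q) = -1 := sq_eq_one_iff.1 (by rw [← Units.val_pow_eq_pow_val, hs, Units.val_one])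
    constructor
    · refine (hT _).2 ⟨a, s, a.ne_zero, hs', Or.inl fun v => ?_⟩
      ext i; fin_cases i <;> simp only [dg, LinearEquiv.coe_mk, LinearMap.coe_mk, AddHom.coe_mk, Units.val_mul, Units.val_inv_eq_inv_val] <;> rfl
    · refine (hT _).2 ⟨a, s, a.ne_zero, hs', Or.inr fun v => ?_⟩
      ext i; fin_cases i <;> simp only [ad, LinearEquiv.coe_mk, LinearMap.coe_mk, AddHom.coe_mk, Units.val_mul, Units.val_inv_eq_inv_val] <;> rfl
  have hform : ∀ f : T, ∃ a s : (ZMod q)ˣ, s ^ 2 = 1 ∧ ((f : _) = dg a (s * a⁻¹) ∨ (f : _) = ad a (s * a⁻¹)) := by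
    intro f
    obtain ⟨a, s, ha, hs, hf⟩ := (hT f).1 f.2
    have hs2 : s ^ 2 = 1 := sq_eq_one_iff.2 hs
    have hs0 : s ≠ 0 := fun e => by rw [e] at hs2; simp at hs2
    refine ⟨Units.mk0 a ha, Units.mk0 s hs0, Units.ext (by simpa using hs2), ?_⟩
    rcases hf with hf | hf
    · left; ext v i
      rw [hf]; fin_cases i <;> simp [dg]
    · right; ext v i
      rw [hf]; fin_cases i <;> simp [ad]
  have hcardU : Nat.card (ZMod q)ˣ = 2 ^ m := by
    rw [Nat.card_eq_fintype_card, ZMod.card_units, hq, Nat.add_sub_cancel]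
  have hexp : ∀ f : T, f ^ 2 ^ (m + 2) = 1 := by
    intro f
    obtain ⟨a, s, hs, hf | hf⟩ := hform f
    · have ha : a ^ 2 ^ (m + 2) = 1 := by
        rw [pow_add, pow_mul, ← hcardU, pow_card_eq_one', one_pow]
      have hs' : s ^ 2 ^ (m + 2) = 1 := by
        rw [pow_succ', pow_mul, hs, one_pow]
      apply Subtype.ext
      rw [SubmonoidClass.coe_pow, hf, dg_pow, mul_pow, hs', inv_pow, ha, inv_one, one_mul, dg_one]; rfl
    · have h4 : (f : _) ^ 4 = (1 : (Fin 2 → ZMod q) ≃ₗ[ZMod q] (Fin 2 → ZMod q)) := by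
        rw [show (4 : ℕ) = 2 * 2 from rfl, pow_mul, hf, sq (ad _ _), ad_mul, dg_pow, inv_mul_cancel_right,
          mul_left_comm, mul_inv_cancel, mul_one, hs, dg_one]
      apply Subtype.ext
      rw [SubmonoidClass.coe_pow, show 2 ^ (m + 2) = 4 * 2 ^ m by ring, pow_mul, h4, one_pow]; rfl
  obtain ⟨g, hg⟩ := IsCyclic.exists_generator (α := (ZMod q)ˣ)
  have hgo : orderOf g = 2 ^ m := (orderOf_eq_card_of_forall_mem_zpowers hg).trans hcardU
  have hneg : ((-1 : (ZMod q)ˣ)) ^ 2 = 1 := neg_one_sq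
  have hsign : ∀ s : (ZMod q)ˣ, s ^ 2 = 1 → s = 1 ∨ s = -1 := fun s hs => by
    rcases sq_eq_one_iff.1 (show (s : ZMod q) ^ 2 = 1 by rw [← Units.val_pow_eq_pow_val, hs, Units.val_one]) with e | e
    · exact Or.inl (Units.ext e)
    · exact Or.inr (Units.ext (by rw [e]; rfl))
  let u : T := ⟨dg g (1 * g⁻¹), (hK g 1 (one_pow _)).1⟩
  let w : T := ⟨dg 1 (-1 * 1⁻¹), (hK 1 (-1) hneg).1⟩
  let j : T := ⟨ad 1 (1 * 1⁻¹), (hK 1 1 (one_pow _)).2⟩
  have hval : ∀ (i : ℕ) (e : ℕ), ((u ^ i * w ^ e : T) : _) = dg (g ^ i) ((-1) ^ e * (g ^ i)⁻¹) := by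
    intro i e
    simp only [Subgroup.coe_mul, SubmonoidClass.coe_pow, u, w, dg_pow, dg_mul]
    congr 1
    · simp
    · rw [one_mul, inv_one, mul_one, inv_pow, mul_comm]
  have hdiag : ∀ f : T, (∃ a b, f.1 = dg a b) → ∃ i e : ℕ, f = u ^ i * w ^ e := by
    rintro f ⟨a, b, hab⟩
    obtain ⟨a', s, hs, hf | hf⟩ := hform f
    · obtain ⟨i, hi : g ^ i = a'⟩ := (mem_powers_iff_mem_zpowers.2 (hg a'))
      rcases hsign s hs with rfl | rfl
      · exact ⟨i, 0, Subtype.ext (by rw [hval, hi, hf, pow_zero])⟩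
      · exact ⟨i, 1, Subtype.ext (by rw [hval, hi, hf, pow_one])⟩
    · exact absurd (hab.symm.trans hf) (dg_ne_ad _ _ _ _)
  have hgen : ∀ f : T, ∃ i e : ℕ, f = u ^ i * w ^ e ∨ f = j * (u ^ i * w ^ e) := by
    intro f
    obtain ⟨a, s, hs, hf | hf⟩ := hform f
    · obtain ⟨i, e, h⟩ := hdiag f ⟨_, _, hf⟩; exact ⟨i, e, Or.inl h⟩
    · obtain ⟨i, e, h⟩ := hdiag (j⁻¹ * f) ⟨a, s * a⁻¹, by
        rw [Subgroup.coe_mul, Subgroup.coe_inv, inv_mul_eq_iff_eq_mul, hf]
        show _ = ad 1 (1 * 1⁻¹) * _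
        rw [ad_dg, one_mul, inv_one, mul_one, one_mul]⟩
      exact ⟨i, e, Or.inr (by rw [← h, mul_inv_cancel_left])⟩
  suffices h3 : φ u = u ∧ φ w = w ∧ φ j = j by
    ext f
    rcases hgen f with ⟨i, e, rfl | rfl⟩ <;> simp [map_mul, map_pow, h3.1, h3.2.1, h3.2.2]
  have hwval : (w : _) = dg (1 : (ZMod q)ˣ) (-1) := by simp [w]
  have htw : ∀ x c : T, φ x = x * c → φ c = c → c = 1 := fun x c hx hc =>
    twist_eq_one φ hx hc hφ hcop (hexp c)
  rcases Nat.eq_zero_or_pos m with hm0 | hmpos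
  · subst hm0
    haveI : Subsingleton (ZMod q)ˣ := (Nat.card_eq_one_iff_unique.1 (by rw [hcardU]; rfl)).1
    have hu1 : u = 1 := Subtype.ext (by
      show dg g (1 * g⁻¹) = _
      rw [Subsingleton.elim g 1, Subsingleton.elim ((1 : (ZMod q)ˣ) * 1⁻¹) 1, dg_one]; rfl)
    have hw1 : w = 1 := Subtype.ext (by
      show dg 1 (-1 * 1⁻¹) = _
      rw [Subsingleton.elim ((-1 : (ZMod q)ˣ) * 1⁻¹) 1, dg_one]; rfl)
    refine ⟨by rw [hu1, map_one], by rw [hw1, map_one], ?_⟩
    obtain ⟨i, e, h | h⟩ := hgen (φ j)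
    · rw [hu1, hw1, one_pow, one_pow, mul_one] at h
      have h' := congrArg Subtype.val (φ.injective (h.trans (map_one φ).symm))
      exact absurd ((dg_one (K := ZMod q)).trans h'.symm) (dg_ne_ad _ _ _ _)
    · rw [h, hu1, hw1, one_pow, one_pow, mul_one, mul_one]
  have hq2 : 2 < q := by have : 2 ≤ 2 ^ m := Nat.le_self_pow hmpos.ne' 2; omega
  have hne1 : (-1 : (ZMod q)ˣ) ≠ 1 := fun e => by
    have : ((-1 : (ZMod q)ˣ) : ZMod q) = 1 := by rw [e]; rfl
    rw [Units.val_neg, Units.val_one] at this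
    haveI hF : Fact (2 < q) := ⟨hq2⟩
    exact ZMod.neg_one_ne_one this
  rcases Nat.lt_or_ge m 2 with hm | hm
  · -- the dihedral group of order eight
    obtain rfl : m = 1 := by omega
    have hg1 : g = -1 := by
      rcases hsign g (by have e := pow_orderOf_eq_one g; rwa [hgo] at e) with e | e
      · rw [e, orderOf_one] at hgo; norm_num at hgo
      · exact e
    let k : T := ⟨ad 1 (-1 * 1⁻¹), (hK 1 (-1) hneg).2⟩
    let k' : T := ⟨ad (-1) (-1 * (-1)⁻¹), (hK (-1) (-1) hneg).2⟩
    have hU2 : ∀ a : (ZMod q)ˣ, a ^ 2 = 1 := fun a => by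
      have e : a ^ Nat.card (ZMod q)ˣ = 1 := pow_card_eq_one'
      rwa [hcardU] at e
    have hsq : ∀ f : T, f ^ 2 ≠ 1 → f = k ∨ f = k' := by
      intro f hf2
      obtain ⟨a, s, hs, hf | hf⟩ := hform f
      · exfalso
        apply hf2
        apply Subtype.ext
        rw [SubmonoidClass.coe_pow, hf, dg_pow, hU2, hU2, dg_one]; rfl
      · rcases hsign s hs with rfl | rfl
        · exfalso
          apply hf2
          apply Subtype.ext
          rw [SubmonoidClass.coe_pow, hf, sq, ad_mul, one_mul, inv_mul_cancel, mul_inv_cancel, dg_one]; rfl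
        · rcases hsign a (hU2 a) with rfl | rfl
          · exact Or.inl (Subtype.ext hf)
          · exact Or.inr (Subtype.ext hf)
    have hk2 : k ^ 2 ≠ 1 := fun e => by
      have e' : ad (1 : (ZMod q)ˣ) (-1 * 1⁻¹) ^ 2 = 1 := congrArg Subtype.val e
      rw [sq, ad_mul, inv_one, mul_one, mul_one, one_mul] at e'
      exact hne1 (dg_inj (e'.trans dg_one.symm)).1
    have hk'2 : k' ^ 2 ≠ 1 := fun e => by
      have e' : ad (-1 : (ZMod q)ˣ) (-1 * (-1)⁻¹) ^ 2 = 1 := congrArg Subtype.val e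
      rw [sq, ad_mul, mul_inv_cancel, one_mul, mul_one] at e'
      exact hne1 (dg_inj (e'.trans dg_one.symm)).2
    have him : ∀ x : T, x ^ 2 ≠ 1 → φ x = k ∨ φ x = k' := fun x hx =>
      hsq _ fun e => hx (φ.injective (by rw [map_pow, e, map_one]))
    have hkk : k' = k ^ 3 := Subtype.ext (by
      show ad (-1 : (ZMod q)ˣ) (-1 * (-1)⁻¹) = ad (1 : (ZMod q)ˣ) (-1 * 1⁻¹) ^ 3
      rw [pow_succ', sq, ad_mul, ad_dg]
      congr 1 <;> simp)
    have hk : φ k = k := fix_pair φ (him k hk2) (him k' hk'2) hφ hodd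
    have hkw : k = j * w := Subtype.ext (by
      show ad (1 : (ZMod q)ˣ) (-1 * 1⁻¹) = ad 1 (1 * 1⁻¹) * dg 1 (-1 * 1⁻¹)
      rw [ad_dg]; congr 1 <;> simp)
    have hu_k : u = k ^ 2 := Subtype.ext (by
      show dg g (1 * g⁻¹) = ad (1 : (ZMod q)ˣ) (-1 * 1⁻¹) ^ 2
      rw [sq, ad_mul, hg1]; congr 1 <;> simp)
    -- every element is a power of `k` or `w` times one
    have hcos : ∀ f : T, ∃ n, f = k ^ n ∨ f = w * k ^ n := by
      intro f
      have hj : j = w * k ^ 3 := by
        rw [← hkk]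
        apply Subtype.ext
        show ad (1 : (ZMod q)ˣ) (1 * 1⁻¹) = dg 1 (-1 * 1⁻¹) * ad (-1 : (ZMod q)ˣ) (-1 * (-1)⁻¹)
        ext v i; fin_cases i <;> simp [dg, ad]
      obtain ⟨i, e, h | h⟩ := hgen f
      · rcases Nat.even_or_odd e with ⟨t, rfl⟩ | ⟨t, rfl⟩
        · refine ⟨2 * i, Or.inl ?_⟩
          rw [h, hu_k, ← pow_mul, ← two_mul, pow_mul w, show w ^ 2 = 1 from Subtype.ext (by
            rw [SubmonoidClass.coe_pow, hwval, dg_pow, one_pow, hneg, dg_one]; rfl), one_pow, mul_one]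
        · refine ⟨2 * i, Or.inr ?_⟩
          have hww : w ^ 2 = 1 := Subtype.ext (by rw [SubmonoidClass.coe_pow, hwval, dg_pow, one_pow, hneg, dg_one]; rfl)
          have hwu : u * w = w * u := Subtype.ext (by
            show dg _ _ * dg _ _ = dg _ _ * dg _ _
            rw [dg_mul, dg_mul, mul_comm g, mul_comm (1 * g⁻¹)])
          rw [h, pow_succ, pow_mul, hww, one_pow, one_mul, (Commute.pow_left hwu i).eq, hu_k, ← pow_mul]
      · rcases Nat.even_or_odd e with ⟨t, rfl⟩ | ⟨t, rfl⟩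
        · refine ⟨3 + 2 * i, Or.inr ?_⟩
          rw [h, hj, hu_k, ← pow_mul, ← two_mul, pow_mul w, show w ^ 2 = 1 from Subtype.ext (by
            rw [SubmonoidClass.coe_pow, hwval, dg_pow, one_pow, hneg, dg_one]; rfl), one_pow, mul_one, mul_assoc,
            ← pow_add]
        · refine ⟨2 * i + 1, Or.inl ?_⟩
          have hww : w ^ 2 = 1 := Subtype.ext (by rw [SubmonoidClass.coe_pow, hwval, dg_pow, one_pow, hneg, dg_one]; rfl)
          have hwu : u * w = w * u := Subtype.ext (by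
            show dg _ _ * dg _ _ = dg _ _ * dg _ _
            rw [dg_mul, dg_mul, mul_comm g, mul_comm (1 * g⁻¹)])
          rw [h, pow_succ w, pow_mul, hww, one_pow, one_mul, (Commute.pow_left hwu i).eq, hu_k, ← pow_mul,
            ← mul_assoc, ← hkw, ← pow_succ']
    have hw : φ w = w := by
      obtain ⟨n, h | h⟩ := hcos (φ w)
      · exfalso
        have h1 : w = k ^ n := φ.injective (by rw [h, map_pow, hk])
        have hk4 : k ^ 2 = u := hu_k.symm
        rcases Nat.even_or_odd' n with ⟨t, rfl | rfl⟩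
        · rw [pow_mul, hk4] at h1
          have e := congrArg Subtype.val h1
          rw [hwval, SubmonoidClass.coe_pow] at e
          simp only [u, dg_pow, one_mul, inv_pow] at e
          obtain ⟨e1, e2⟩ := dg_inj e
          rw [← e1, inv_one] at e2
          exact hne1 e2
        · rw [pow_succ', pow_mul, hk4] at h1
          have e := congrArg Subtype.val h1
          rw [hwval, Subgroup.coe_mul, SubmonoidClass.coe_pow] at e
          simp only [u, k, dg_pow, ad_dg] at e
          exact dg_ne_ad _ _ _ _ e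
      · have := htw w (k ^ n) h (by rw [map_pow, hk])
        rw [h, this, mul_one]
    refine ⟨by rw [hu_k, map_pow, hk], hw, ?_⟩
    have : j = k * w := by
      apply Subtype.ext
      show ad (1 : (ZMod q)ˣ) (1 * 1⁻¹) = ad (1 : (ZMod q)ˣ) (-1 * 1⁻¹) * dg 1 (-1 * 1⁻¹)
      rw [ad_dg]; congr 1 <;> simp
    rw [this, map_mul, hk, hw]
  · have hm3 : 3 ≤ m := by
      by_contra h
      obtain rfl : m = 2 := by omega
      exact hq5 (by rw [hq]; norm_num)
    have hwu : Commute u w := Subtype.ext (by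
      show dg _ _ * dg _ _ = dg _ _ * dg _ _
      rw [dg_mul, dg_mul, mul_comm g, mul_comm (1 * g⁻¹)])
    have hww : w ^ 2 = 1 := Subtype.ext (by rw [SubmonoidClass.coe_pow, hwval, dg_pow, one_pow, hneg, dg_one]; rfl)
    have hu4 : u ^ 4 ≠ 1 := fun e => by
      have h := (dg_inj ((hval 4 0).symm.trans ((congrArg Subtype.val (by rw [pow_zero, mul_one, e] : u ^ 4 * w ^ 0 = 1)).trans dg_one.symm))).1
      have h2 := orderOf_dvd_of_pow_eq_one h
      rw [hgo] at h2
      have h3 : 8 ∣ 2 ^ m := by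
        rw [show (8 : ℕ) = 2 ^ 3 by norm_num]; exact pow_dvd_pow 2 hm3
      have := Nat.le_of_dvd (by norm_num) (h3.trans h2)
      omega
    -- the diagonal part is invariant
    have hbig : ∀ x : T, x ^ 4 ≠ 1 → ∃ i e : ℕ, x = u ^ i * w ^ e := by
      intro x hx
      obtain ⟨a, s, hs, hf | hf⟩ := hform x
      · exact hdiag x ⟨_, _, hf⟩
      · exfalso
        apply hx
        apply Subtype.ext
        rw [SubmonoidClass.coe_pow, hf, show (4 : ℕ) = 2 * 2 from rfl, pow_mul, sq (ad _ _), ad_mul, dg_pow,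
          inv_mul_cancel_right, mul_left_comm, mul_inv_cancel, mul_one, hs, dg_one]
        rfl
    have him : ∀ x : T, x ^ 4 ≠ 1 → (φ x) ^ 4 ≠ 1 := fun x hx e => hx (φ.injective (by rw [map_pow, e, map_one]))
    obtain ⟨i, e, hi⟩ := hbig _ (him u hu4)
    obtain ⟨i', e', hi'⟩ := hbig _ (him (u * w) (by
      rw [hwu.mul_pow, show w ^ 4 = 1 by rw [show (4 : ℕ) = 2 * 2 from rfl, pow_mul, hww, one_pow], mul_one]
      exact hu4))
    have hcomm : ∀ a b c d : ℕ, (u ^ a * w ^ b) * (u ^ c * w ^ d) = u ^ (a + c) * w ^ (b + d) := fun a b c d => by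
      rw [pow_add, pow_add, mul_assoc, ← mul_assoc (w ^ b), ((hwu.symm.pow_pow b c).eq), mul_assoc, ← mul_assoc]
    have hdval : ∀ a b : ℕ, ∃ x y : (ZMod q)ˣ, ((u ^ a * w ^ b : T) : _) = dg x y := fun a b => ⟨_, _, hval a b⟩
    have hsqfix : φ (u ^ 2) = u ^ 2 := by
      have h1 : φ (u ^ 2) = (u ^ 2) ^ i := by
        rw [map_pow, hi, ((hwu.pow_pow i e)).mul_pow, ← pow_mul w, mul_comm e, pow_mul w, hww, one_pow, mul_one,
          ← pow_mul, ← pow_mul, mul_comm]
      have hn : ∀ k : ℕ, (φ ^ k) (u ^ 2) = (u ^ 2) ^ i ^ k := by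
        intro k
        induction k with
        | zero => simp
        | succ k ih => rw [pow_succ', MulAut.mul_apply, ih, map_pow, h1, ← pow_mul, pow_succ' i]
      have h2 := hn r
      rw [hφ, MulAut.one_apply] at h2
      have hord : orderOf (u ^ 2) = 2 ^ (m - 1) := by
        have hou : orderOf u = 2 ^ m := by
          rw [← hgo, orderOf_eq_iff (orderOf_pos g)]
          refine ⟨?_, fun t ht ht0 e => ?_⟩
          · apply Subtype.ext
            rw [SubmonoidClass.coe_pow]; simp only [u, dg_pow, one_mul, inv_pow, pow_orderOf_eq_one, inv_one, dg_one]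
            rfl
          · have := congrArg Subtype.val e
            rw [SubmonoidClass.coe_pow] at this
            simp only [u, dg_pow] at this
            have h3 := (dg_inj (this.trans dg_one.symm)).1
            exact absurd (Nat.le_of_dvd ht0 (orderOf_dvd_of_pow_eq_one h3)) (by omega)
        rw [orderOf_pow_of_dvd (by norm_num) (by rw [hou]; exact dvd_pow_self 2 (by omega)), hou]
        obtain ⟨m', rfl⟩ : ∃ m', m = m' + 1 := ⟨m - 1, by omega⟩
        simp [pow_succ]
      have h3 : i ^ r ≡ 1 [MOD 2 ^ (m - 1)] := by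
        rw [← hord, ← pow_eq_pow_iff_modEq, pow_one, ← h2]
      have hu' : ((i : ZMod (2 ^ (m - 1))) ) ^ r = 1 := by
        have := (ZMod.natCast_eq_natCast_iff _ _ _).2 h3
        simpa using this
      obtain ⟨a, ha⟩ := IsUnit.of_pow_eq_one hu' hr.ne_zero
      have ha' : a ^ r = 1 := Units.ext (by rw [Units.val_pow_eq_pow_val, ha, hu', Units.val_one])
      haveI : NeZero (2 ^ (m - 1)) := ⟨by positivity⟩
      have h4 : orderOf a = 1 := by
        refine Nat.eq_one_of_dvd_coprimes (hcop.pow_right (m - 1 - 1)) (orderOf_dvd_of_pow_eq_one ha') ?_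
        have := orderOf_dvd_natCard a
        rw [Nat.card_eq_fintype_card, ZMod.card_units_eq_totient, Nat.totient_prime_pow Nat.prime_two (by omega)] at this
        simpa using this
      have h5 : ((i : ℕ) : ZMod (2 ^ (m - 1))) = ((1 : ℕ) : ZMod (2 ^ (m - 1))) := by
        rw [← ha, orderOf_eq_one_iff.1 h4]; simp
      rw [h1]
      conv_rhs => rw [← pow_one (u ^ 2)]
      rw [pow_eq_pow_iff_modEq, hord]
      exact (ZMod.natCast_eq_natCast_iff _ _ _).1 h5
    obtain ⟨z, hz⟩ : ∃ z : T, z = u ^ 2 ^ (m - 1) := ⟨_, rfl⟩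
    have hzfix : φ z = z := by
      rw [hz, show 2 ^ (m - 1) = 2 * 2 ^ (m - 2) by rw [← pow_succ']; congr 1; omega, pow_mul, map_pow, hsqfix]
    have hzval : (z : _) = dg (-1 : (ZMod q)ˣ) (-1) := by
      have hg2 : g ^ 2 ^ (m - 1) = -1 := by
        rcases hsign _ (show (g ^ 2 ^ (m - 1)) ^ 2 = 1 by
          rw [← pow_mul, ← pow_succ, show m - 1 + 1 = m by omega, ← hgo, pow_orderOf_eq_one]) with h | h
        · exfalso
          have h' := Nat.le_of_dvd (by positivity) (hgo ▸ orderOf_dvd_of_pow_eq_one h)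
          have : 2 ^ (m - 1) < 2 ^ m := Nat.pow_lt_pow_right (by norm_num) (by omega)
          omega
        · exact h
      rw [hz, SubmonoidClass.coe_pow]
      simp only [u, dg_pow, one_mul, inv_pow, hg2, inv_neg, inv_one]
    -- involutions of the diagonal part
    have hinv : ∀ a b : ℕ, (u ^ a * w ^ b) ^ 2 = 1 →
        u ^ a * w ^ b = 1 ∨ u ^ a * w ^ b = z ∨ u ^ a * w ^ b = w ∨ u ^ a * w ^ b = z * w := by
      intro a b h
      have h' := congrArg Subtype.val h
      rw [SubmonoidClass.coe_pow, hval, dg_pow] at h'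
      obtain ⟨h1, h2⟩ := dg_inj (h'.trans dg_one.symm)
      rcases hsign _ h1 with e1 | e1 <;> rcases hsign _ (show ((-1 : (ZMod q)ˣ) ^ b) ^ 2 = 1 by
        rw [← pow_mul, mul_comm, pow_mul, hneg, one_pow]) with e2 | e2
      · left; apply Subtype.ext; rw [hval, e1, e2, inv_one, mul_one, dg_one]; rfl
      · right; right; left; apply Subtype.ext; rw [hval, e1, e2, hwval, inv_one, mul_one]
      · right; left; apply Subtype.ext; rw [hval, e1, e2, hzval]; congr 1; simp
      · right; right; right; apply Subtype.ext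
        rw [hval, e1, e2, Subgroup.coe_mul, hzval, hwval, dg_mul]; congr 1 <;> simp
    have hwd : ∀ x : T, (∃ a b, x = u ^ a * w ^ b) → ∃ a b, φ x = u ^ a * w ^ b := by
      have hw0 : ∃ a b, φ w = u ^ a * w ^ b := by
        obtain ⟨N, hN⟩ : ∃ N, u ^ (N + i) = 1 := by
          refine ⟨orderOf u * (i + 1) - i, ?_⟩
          have : i ≤ orderOf u * (i + 1) := by
            have := orderOf_pos u
            nlinarith
          rw [Nat.sub_add_cancel this, pow_mul, pow_orderOf_eq_one, one_pow]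
        obtain ⟨N', hN'⟩ : ∃ N, w ^ (N + e) = 1 := ⟨e, by rw [← two_mul, pow_mul, hww, one_pow]⟩
        refine ⟨N + i', N' + e', ?_⟩
        have h1 : φ u * φ w = u ^ i' * w ^ e' := by rw [← map_mul, hi']
        rw [hi] at h1
        rw [← hcomm N N' i' e', ← h1, ← mul_assoc, hcomm, hN, hN', one_mul, one_mul]
      rintro x ⟨a, b, rfl⟩
      obtain ⟨c, d, hcd⟩ := hw0
      refine ⟨i * a + c * b, e * a + d * b, ?_⟩
      rw [map_mul, map_pow, map_pow, hi, hcd, (hwu.pow_pow i e).mul_pow, (hwu.pow_pow c d).mul_pow,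
        ← pow_mul, ← pow_mul, ← pow_mul, ← pow_mul, hcomm]
    have hw : φ w = w := by
      have him2 : ∀ x : T, x = w ∨ x = z * w → φ x = w ∨ φ x = z * w := by
        intro x hx
        obtain ⟨a, b, hab⟩ := hwd x (by
          rcases hx with rfl | rfl
          · exact ⟨0, 1, by rw [pow_zero, one_mul, pow_one]⟩
          · exact ⟨2 ^ (m - 1), 1, by rw [hz, pow_one]⟩)
        have hx2 : (u ^ a * w ^ b) ^ 2 = 1 := by
          rw [← hab, ← map_pow]
          rcases hx with rfl | rfl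
          · rw [hww, map_one]
          · have : (z * w) ^ 2 = 1 := Subtype.ext (by
              rw [SubmonoidClass.coe_pow, Subgroup.coe_mul, hzval, hwval, dg_mul, dg_pow]
              simp [dg_one])
            rw [this, map_one]
        rcases hinv a b hx2 with h | h | h | h
        · exfalso
          have h' := φ.injective ((hab.trans h).trans (map_one φ).symm)
          rcases hx with rfl | rfl
          · exact hne1 (dg_inj (hwval.symm.trans ((congrArg Subtype.val h').trans dg_one.symm))).2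
          · have h'' := congrArg Subtype.val h'
            rw [Subgroup.coe_mul, hzval, hwval, dg_mul] at h''
            have := (dg_inj (h''.trans dg_one.symm)).1
            exact hne1 (by simpa using this)
        · exfalso
          have h' := φ.injective ((hab.trans h).trans hzfix.symm)
          rcases hx with rfl | rfl
          · exact hne1 (dg_inj (hwval.symm.trans ((congrArg Subtype.val h').trans hzval))).1.symm
          · exact hne1 (dg_inj (hwval.symm.trans ((congrArg Subtype.val (mul_eq_left.1 h')).trans dg_one.symm))).2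
        · exact Or.inl (hab.trans h)
        · exact Or.inr (hab.trans h)
      exact fix_pair φ (him2 w (Or.inl rfl)) (him2 (z * w) (Or.inr rfl)) hφ hodd
    have hu : φ u = u := by
      obtain ⟨N, hN⟩ : ∃ N, u * u ^ N = 1 :=
        ⟨orderOf u - 1, by rw [← pow_succ', Nat.sub_add_cancel (orderOf_pos u), pow_orderOf_eq_one]⟩
      have hc : φ u = u * (u ^ (N + i) * w ^ e) := by
        rw [hi, pow_add, ← mul_assoc, ← mul_assoc, hN, one_mul]
      have hc2 : (u ^ (N + i) * w ^ e) ^ 2 = 1 := by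
        have h1 : φ (u ^ 2) = u ^ 2 * (u ^ (N + i) * w ^ e) ^ 2 := by
          rw [map_pow, hc, Commute.mul_pow (((Commute.refl u).pow_right _).mul_right (hwu.pow_right e))]
        exact (left_eq_mul.1 (hsqfix.symm.trans h1))
      have hfix : φ (u ^ (N + i) * w ^ e) = u ^ (N + i) * w ^ e := by
        rcases hinv _ _ hc2 with h | h | h | h <;> rw [h]
        · rw [map_one]
        · exact hzfix
        · exact hw
        · rw [map_mul, hzfix, hw]
      rw [hc, htw u _ hc hfix, mul_one]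
    refine ⟨hu, hw, ?_⟩
    have hfixd : ∀ a b : ℕ, φ (u ^ a * w ^ b) = u ^ a * w ^ b := fun a b => by
      rw [map_mul, map_pow, map_pow, hu, hw]
    obtain ⟨a, b, h | h⟩ := hgen (φ j)
    · exfalso
      have h' := φ.injective (h.trans (hfixd a b).symm)
      exact dg_ne_ad _ _ _ _ ((hval a b).symm.trans (congrArg Subtype.val h').symm)
    · have := htw j _ h (hfixd a b)
      rw [h, this, mul_one]

end Cfsg.Agent.S3382
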