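import Cfsg.Statements.S3383
import Cfsg.Agent.Lib.Hall.Frobenius

set_option autoImplicit false
open Cfsg

namespace Cfsg.Agent.S3383

open scoped Pointwise

/-- Let H be a Frobenius complement in a finite group L and K the Frobenius kernel (as a subgroup). Then K is characteristic in L, and every normal subgroup of L either contains K or is contained in K. -/
theorem result {L : Type*} [Group L] [Finite L]
    (H : Subgroup L) (hH : Cfsg.IsFrobeniusComplement H)
    (K : Subgroup L) (hK : (K : Set L) = Cfsg.frobeniusKernel H) :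
    K.Characteristic ∧ ∀ N : Subgroup L, N.Normal → K ≤ N ∨ N ≤ K := by
  classical
  have hcard : Nat.card K = H.index := by
    rw [← Lib.Hall.card_frobeniusKernel hH, ← hK]
    rfl
  have hnK : K.Normal := by
    refine ⟨fun x hx g => ?_⟩
    rw [← SetLike.mem_coe, hK] at hx ⊢
    rcases hx with rfl | hx
    · left; group
    · right
      intro a ha
      apply hx (g⁻¹ * a)
      rw [Subgroup.mem_pointwise_smul_iff_inv_smul_mem] at ha ⊢
      simpa [← map_inv, mul_assoc] using ha
  have hcop : (Nat.card K).Coprime K.index := by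
    have h1 : K.index = Nat.card H := by
      have := K.index_mul_card
      rw [hcard, ← H.index_mul_card, mul_comm K.index] at this
      exact Nat.eq_of_mul_eq_mul_left (Nat.pos_of_ne_zero Subgroup.index_ne_zero_of_finite) this
    have h2 := Lib.Hall.fc_index_mod_card hH
    rw [h1, hcard, Nat.Coprime, Nat.gcd_comm, Nat.gcd_rec, h2, ← Nat.gcd_rec, Nat.gcd_one_right]
  have hle : ∀ K' : Subgroup L, Nat.card K' ∣ Nat.card K → K' ≤ K := by
    intro K' hd x hx
    haveI := hnK
    rw [← QuotientGroup.eq_one_iff, ← orderOf_eq_one_iff]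
    have a1 : orderOf (x : L ⧸ K) ∣ Nat.card K :=
      ((orderOf_map_dvd (QuotientGroup.mk' K) x).trans
        ((Subgroup.orderOf_mk x hx).symm ▸ orderOf_dvd_natCard (⟨x, hx⟩ : K'))).trans hd
    have a2 : orderOf (x : L ⧸ K) ∣ K.index := K.index_eq_card ▸ orderOf_dvd_natCard _
    exact Nat.eq_one_of_dvd_coprimes hcop a1 a2
  refine ⟨Subgroup.characteristic_iff_map_le.2 fun φ => hle _ ?_, fun N hN => ?_⟩
  · rw [Subgroup.card_map_of_injective φ.injective]
  by_contra hne
  rw [not_or] at hne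
  obtain ⟨x, hxN, hxK⟩ := SetLike.not_le_iff_exists.1 hne.2
  have hx : x ≠ 1 ∧ ∃ g : L, x ∈ MulAut.conj g • H := by
    rw [← SetLike.mem_coe, hK] at hxK
    simpa [Cfsg.frobeniusKernel, not_or] using hxK
  obtain ⟨hx1, g, hxg⟩ := hx
  -- `k ↦ [x, k]` maps `K` injectively into `K ⊓ N`
  let f : K → (K ⊓ N : Subgroup L) := fun k => ⟨x * k * x⁻¹ * (k : L)⁻¹,
    K.mul_mem (hnK.conj_mem k k.2 x) (K.inv_mem k.2), by
    rw [mul_assoc x, mul_assoc x]
    exact N.mul_mem hxN (hN.conj_mem _ (N.inv_mem hxN) k)⟩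
  have hf : Function.Injective f := by
    intro a b e
    have e' : x * a * x⁻¹ * (a : L)⁻¹ = x * b * x⁻¹ * (b : L)⁻¹ := congrArg Subtype.val e
    have hc : (b : L)⁻¹ * a ∈ Subgroup.centralizer ({x} : Set L) := by
      rw [Subgroup.mem_centralizer_singleton_iff]
      have := congrArg (fun z => (b : L)⁻¹ * x⁻¹ * 1 * 1 * z * a * x) e'
      have e2 : x * ((b : L)⁻¹ * a) * x⁻¹ = (b : L)⁻¹ * a := by
        rw [mul_inv_eq_iff_eq_mul] at e'
        calc x * ((b : L)⁻¹ * a) * x⁻¹ = (x * b * x⁻¹)⁻¹ * (x * a * x⁻¹) := by group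
          _ = (x * b * x⁻¹)⁻¹ * (x * b * x⁻¹ * (b : L)⁻¹ * a) := by rw [e']
          _ = (b : L)⁻¹ * a := by group
      rw [mul_inv_eq_iff_eq_mul] at e2
      exact e2.symm
    have hmem : (b : L)⁻¹ * a ∈ MulAut.conj g • H :=
      Lib.Hall.fc_centralizer_le (Lib.Hall.fc_conj hH g) hxg hx1 hc
    have hKm : (b : L)⁻¹ * a ∈ (K : Set L) := K.mul_mem (K.inv_mem b.2) a.2
    rw [hK] at hKm
    rcases hKm with h | h
    · exact (Subtype.ext (inv_mul_eq_one.1 h)).symm
    · exact absurd hmem (h g)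
  have hKN : K ⊓ N = K :=
    Subgroup.eq_of_le_of_card_ge inf_le_left (Nat.card_le_card_of_injective f hf)
  exact hne.1 (inf_eq_left.1 hKN)

end Cfsg.Agent.S3383
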