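import Cfsg.Statements.S3419
import Cfsg.Agent.Lib.Recog.AltSpecPrimes
import Cfsg.Agent.Lib.Recog.TwoPrimes
import Cfsg.Agent.Lib.Hall.Solvable

set_option autoImplicit false
open Cfsg Cfsg.Agent.Lib.Recog

namespace Cfsg.Agent.S3419

theorem exists_pair (n : ℕ) (hn : 5 ≤ n) : ∃ p r : ℕ, p.Prime ∧ r.Prime ∧ p ≠ 2 ∧ p < r ∧
    r ≤ n ∧ n < 3 * p ∧ n < p + r ∧ n < p * p ∧ ¬ p ∣ r - 1 := by
  by_cases h11 : 11 ≤ n
  · obtain ⟨p, r, hp, hr, hpr, h1, h2⟩ := exists_two_primes n h11
    refine ⟨p, r, hp, hr, by omega, hpr, h2, by omega, by omega, by nlinarith, ?_⟩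
    rintro ⟨k, hk⟩
    rcases k with _ | _ | k
    · omega
    · rcases hp.eq_two_or_odd with e | e <;> rcases hr.eq_two_or_odd with e' | e' <;> omega
    · nlinarith [Nat.sub_le r 1]
  · by_cases h7 : 7 ≤ n
    · exact ⟨5, 7, by norm_num, by norm_num, by norm_num, by norm_num, h7, by omega, by omega, by omega, by norm_num⟩
    · exact ⟨3, 5, by norm_num, by norm_num, by norm_num, by norm_num, hn, by omega, by omega, by omega, by norm_num⟩

/-- Let n ≥ 5 and let G be a finite group with the same order and the same set of element orders as the alternating group of degree n. Then G is not solvable. -/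
theorem result {G : Type*} [Group G] [Finite G] (n : ℕ) (hn : 5 ≤ n)
    (hcard : Nat.card G = Nat.card ↥(alternatingGroup (Fin n)))
    (hspec : Set.range (orderOf : G → ℕ) = Set.range (orderOf : ↥(alternatingGroup (Fin n)) → ℕ)) :
    ¬ Group.IsSolvable G := by
  intro hsolv
  obtain ⟨p, r, hp, hr, hp2, hpr, hrn, hn3, hlt, hpp, hdvd⟩ := exists_pair n hn
  haveI := Fact.mk hp
  haveI := Fact.mk hr
  have hG0 : Nat.card G ≠ 0 := Nat.card_pos.ne'
  have hpG : p ∣ Nat.card G := hcard ▸ dvd_card_alt hp hp2 (by omega)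
  have hrG : r ∣ Nat.card G := hcard ▸ dvd_card_alt hr (by have := hp.two_le; omega) hrn
  set a := (Nat.card G).factorization p with ha
  have ha1 : 1 ≤ a := hp.factorization_pos_of_dvd hG0 hpG
  have ha2 : a ≤ 2 := (le_of_pow_dvd_card_alt hp (by omega) hpp
    (hcard ▸ Nat.ordProj_dvd (Nat.card G) p)).trans (Nat.lt_succ_iff.1 ((Nat.div_lt_iff_lt_mul hp.pos).2 (by omega)))
  have hr2 : ¬ r ^ 2 ∣ Nat.card G := fun h => by
    have := le_of_pow_dvd_card_alt hr (by omega) (by nlinarith) (hcard ▸ h)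
    have h' : n / r < 2 := (Nat.div_lt_iff_lt_mul hr.pos).2 (by omega)
    omega
  have hcop : (p ^ a).Coprime r := ((Nat.coprime_primes hp hr).2 hpr.ne).pow_left a
  obtain ⟨m, hm⟩ := hcop.mul_dvd_of_dvd_of_dvd (Nat.ordProj_dvd (Nat.card G) p) hrG
  have hcm : (p ^ a * r).Coprime m := by
    refine Nat.Coprime.mul_left (Nat.Coprime.pow_left _ ((Nat.Prime.coprime_iff_not_dvd hp).2 fun hd => ?_))
      ((Nat.Prime.coprime_iff_not_dvd hr).2 fun hd => hr2 ?_)
    · have : p ^ (a + 1) ∣ Nat.card G := by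
        rw [hm, pow_succ]; exact mul_dvd_mul (dvd_mul_right _ _) hd
      exact absurd ((Nat.Prime.pow_dvd_iff_le_factorization hp hG0).1 this) (by omega)
    · rw [hm, sq]; exact mul_dvd_mul (dvd_mul_left _ _) hd
  obtain ⟨H, hH⟩ := Cfsg.Agent.Lib.Hall.exists_subgroup_card_eq hm hcm
  let R : Sylow r H := default
  have hRcard : Nat.card (R : Subgroup H) = r := by
    rw [R.card_eq_multiplicity, hH, Nat.factorization_mul (pow_ne_zero _ hp.ne_zero) hr.ne_zero,
      Finsupp.add_apply, hr.factorization_self, hp.factorization_pow,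
      Finsupp.single_eq_of_ne hpr.ne', Nat.zero_add, pow_one]
  have hnum : Nat.card (Sylow r H) = 1 := by
    have h1 := card_sylow_modEq_one r H
    have h2 : Nat.card (Sylow r H) ∣ p ^ a := by
      have h4 := R.card_dvd_index
      have h3 : (R : Subgroup H).index = p ^ a := by
        have h5 := (R : Subgroup H).card_mul_index
        rw [hRcard, hH, mul_comm (p ^ a)] at h5
        exact Nat.eq_of_mul_eq_mul_left hr.pos h5
      rwa [h3] at h4
    obtain ⟨j, hj, e⟩ := (Nat.dvd_prime_pow hp).1 h2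
    rw [e] at h1 ⊢
    have h1' : p ^ j % r = 1 := by rw [h1, Nat.mod_eq_of_lt hr.one_lt]
    rcases j with _ | _ | _ | j
    · simp
    · exfalso; rw [zero_add, pow_one, Nat.mod_eq_of_lt hpr] at h1'; exact hp.one_lt.ne' h1'
    · exfalso
      have h4 : r ∣ (p + 1) * (p - 1) := by
        rw [show (p + 1) * (p - 1) = p ^ 2 - 1 by rw [← Nat.sq_sub_sq, one_pow]]
        exact (Nat.modEq_iff_dvd' (Nat.one_le_pow _ _ hp.pos)).1 (h1.symm)
      rcases hr.dvd_mul.1 h4 with e4 | e4
      · have := Nat.le_of_dvd (by omega) e4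
        rcases hr.eq_two_or_odd with e5 | e5 <;> rcases hp.eq_two_or_odd with e6 | e6 <;> omega
      · have := Nat.le_of_dvd (by have := hp.two_le; omega) e4
        omega
    · omega
  haveI : Subsingleton (Sylow r H) := (Nat.card_eq_one_iff_unique.1 hnum).1
  haveI : (R : Subgroup H).Normal := Sylow.normal_of_subsingleton R
  obtain ⟨y, hy⟩ := exists_prime_orderOf_dvd_card' (G := H) p
    (hH ▸ dvd_mul_of_dvd_left (dvd_pow_self p (by omega)) r)
  obtain ⟨x, hx⟩ := exists_orderOf_mul_of_normalizing hr hp hpr.ne' hdvd hRcard hy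
    (by rw [Subgroup.normalizer_eq_top (R : Subgroup H)]; trivial)
  exact orderOf_ne_of_spec hspec hr hp hpr.ne' (by omega) (x : G) (by rw [Subgroup.orderOf_coe, hx])

end Cfsg.Agent.S3419
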