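import Cfsg.Statements.S3420
import Cfsg.Agent.Lib.Recog.AltSpecPrimes
import Cfsg.Agent.Lib.Recog.TwoPrimes
import Cfsg.Agent.Lib.Recog.MinNormal

set_option autoImplicit false
open Cfsg Cfsg.Agent.Lib.Recog

namespace Cfsg.Agent.S3420

theorem ne_of_dvd_pred {n p r : ℕ} (hp : p.Prime) (hr : r.Prime) (h2 : p ≠ 2) (h2' : r ≠ 2) (hpn : p ≤ n)
    (hrn : n < 2 * r) : ¬ r ∣ p - 1 := by
  rintro ⟨k, hk⟩
  rcases k with _ | _ | k
  · have := hp.two_le; omega
  · rcases hp.eq_two_or_odd with e | e <;> rcases hr.eq_two_or_odd with e' | e' <;> omega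
  · nlinarith [Nat.sub_le p 1]

/-- Let n ≥ 11 and let G be a finite group with the same order and the same set of element orders as the alternating group of degree n. Then G has normal subgroups N < H such that H/N is a non-abelian simple group whose order is divisible by every prime p with n/2 < p ≤ n. -/
theorem result {G : Type*} [Group G] [Finite G] (n : ℕ) (hn : 11 ≤ n)
    (hcard : Nat.card G = Nat.card ↥(alternatingGroup (Fin n)))
    (hspec : Set.range (orderOf : G → ℕ) = Set.range (orderOf : ↥(alternatingGroup (Fin n)) → ℕ)) :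
    ∃ (N H : Subgroup G) (_ : N.Normal), H.Normal ∧ N < H ∧
      IsSimpleGroup (↥H ⧸ N.subgroupOf H) ∧ ¬ IsMulCommutative (↥H ⧸ N.subgroupOf H) ∧
      ∀ p : ℕ, p.Prime → n < 2 * p → p ≤ n → p ∣ Nat.card (↥H ⧸ N.subgroupOf H) := by
  let ρ : ℕ → Prop := fun p => p.Prime ∧ n < 2 * p ∧ p ≤ n
  have hρ2 : ∀ p, ρ p → p ≠ 2 := fun p hp => by rintro rfl; obtain ⟨-, h1, h2⟩ := hp; omega
  have hρG : ∀ p, ρ p → p ∣ Nat.card G := fun p hp => hcard ▸ dvd_card_alt hp.1 (hρ2 p hp) hp.2.2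
  have hρsq : ∀ p, ρ p → ¬ p ^ 2 ∣ Nat.card G := fun p hp h => by
    obtain ⟨hpp, h1, h2⟩ := hp
    have h3 := le_of_pow_dvd_card_alt hpp (by omega) (by nlinarith) (hcard ▸ h)
    have h4 : n / p < 2 := (Nat.div_lt_iff_lt_mul hpp.pos).2 (by omega)
    omega
  have hno : ∀ p r, ρ p → ρ r → p ≠ r → ∀ x : G, orderOf x ≠ p * r := fun p r hp hr hne x => by
    obtain ⟨hpp, hp1, hp2⟩ := hp
    obtain ⟨hrr, hr1, hr2⟩ := hr
    exact orderOf_ne_of_spec hspec hpp hrr hne (by omega) x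
  obtain ⟨p₁, p₂, hp₁, hp₂, hlt12, hn1, hn2⟩ := exists_two_primes n hn
  have hρ1 : ρ p₁ := ⟨hp₁, hn1, by omega⟩
  have hρ2' : ρ p₂ := ⟨hp₂, by omega, hn2⟩
  obtain ⟨N, -, hNmax⟩ := Finite.exists_le_maximal
    (p := fun X : Subgroup G => X.Normal ∧ ∀ p, ρ p → ¬ p ∣ Nat.card X) (a := (⊥ : Subgroup G))
    ⟨inferInstance, fun p hp => by rw [Subgroup.card_bot]; exact hp.1.not_dvd_one⟩
  haveI hNn : N.Normal := hNmax.prop.1
  haveI : Nontrivial (G ⧸ N) := by
    rw [QuotientGroup.nontrivial_iff]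
    intro he
    exact hNmax.prop.2 p₁ hρ1 (by rw [he, Subgroup.card_top]; exact hρG p₁ hρ1)
  obtain ⟨Hb, hHb⟩ := exists_minNormal (G := G ⧸ N)
  set f := QuotientGroup.mk' N with hf
  set H := Hb.comap f with hH
  haveI hHn : H.Normal := hHb.1.comap f
  have hNH : N ≤ H := fun x hx => by
    rw [hH, Subgroup.mem_comap, hf, QuotientGroup.mk'_apply, (QuotientGroup.eq_one_iff x).2 hx]
    exact one_mem _
  have hmapH : H.map f = Hb := Subgroup.map_comap_eq_self_of_surjective (QuotientGroup.mk'_surjective N) _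
  have hNlt : N < H := lt_of_le_of_ne hNH fun he => hHb.2.1 (by
    rw [← hmapH, ← he, hf, Subgroup.map_eq_bot_iff, QuotientGroup.ker_mk'])
  let φ : H →* Hb := (f.comp H.subtype).codRestrict Hb fun x => x.2
  have hφs : Function.Surjective φ := fun y => by
    obtain ⟨x, hx⟩ := QuotientGroup.mk'_surjective N (y : G ⧸ N)
    exact ⟨⟨x, by rw [hH, Subgroup.mem_comap, hf, hx]; exact y.2⟩, Subtype.ext hx⟩
  have hφk : φ.ker = N.subgroupOf H := by
    ext x
    rw [MonoidHom.mem_ker, Subtype.ext_iff, Subgroup.mem_subgroupOf]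
    exact QuotientGroup.eq_one_iff (x : G)
  let e : H ⧸ N.subgroupOf H ≃* Hb :=
    (QuotientGroup.quotientMulEquivOfEq hφk.symm).trans (QuotientGroup.quotientKerEquivOfSurjective φ hφs)
  have hcardH : Nat.card H = Nat.card Hb * Nat.card N := by
    rw [Subgroup.card_eq_card_quotient_mul_card_subgroup (N.subgroupOf H), Nat.card_congr e.toEquiv,
      Nat.card_congr (Subgroup.subgroupOfEquivOfLe hNH).toEquiv]
  have hnotmem : ¬ ∀ p, ρ p → ¬ p ∣ Nat.card H := fun h => hNlt.not_ge (hNmax.le_of_ge ⟨hHn, h⟩ hNH)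
  push Not at hnotmem
  obtain ⟨p₀, hp₀, hp₀H⟩ := hnotmem
  have hallH : ∀ r, ρ r → r ∣ Nat.card H := by
    intro r hr
    by_contra hrH
    have hne : p₀ ≠ r := fun e => hrH (e ▸ hp₀H)
    haveI := Fact.mk hp₀.1
    haveI := Fact.mk hr.1
    let P : Sylow p₀ H := default
    have hPcard : Nat.card ((P : Subgroup H).map H.subtype) = p₀ := by
      rw [Subgroup.card_map_of_injective H.subtype_injective]
      obtain ⟨k, hk⟩ := (IsPGroup.iff_card (p := p₀)).1 P.2
      have hk1 : 1 ≤ k := by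
        have := P.dvd_card_of_dvd_card hp₀H
        rw [hk] at this
        rcases k with _ | k
        · exact absurd this hp₀.1.not_dvd_one
        · omega
      have hk2 : k < 2 := by
        by_contra hk2
        exact hρsq p₀ hp₀ ((pow_dvd_pow p₀ (not_lt.1 hk2)).trans (hk ▸ (Subgroup.card_subgroup_dvd_card (P : Subgroup H)).trans (Subgroup.card_subgroup_dvd_card H)))
      rw [hk, show k = 1 by omega, pow_one]
    set M := Subgroup.normalizer (((P : Subgroup H).map H.subtype : Subgroup G) : Set G) with hM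
    have htop : M.map (QuotientGroup.mk' H) = ⊤ := by
      have h1 := Sylow.normalizer_sup_eq_top P
      rw [← Subgroup.map_top_of_surjective (QuotientGroup.mk' H) (QuotientGroup.mk'_surjective H), ← h1,
        Subgroup.map_sup]
      simp [hM]
    have hrM : r ∣ Nat.card M := by
      refine dvd_trans ?_ (Subgroup.card_map_dvd M (QuotientGroup.mk' H))
      rw [htop, Subgroup.card_top, ← Subgroup.index_eq_card]
      have := hρG r hr
      rw [← Subgroup.card_mul_index H] at this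
      exact (hr.1.dvd_mul.1 this).resolve_left hrH
    obtain ⟨y, hy⟩ := exists_prime_orderOf_dvd_card' (G := M) r hrM
    obtain ⟨x, hx⟩ := exists_orderOf_mul_of_normalizing hp₀.1 hr.1 hne
      (ne_of_dvd_pred hp₀.1 hr.1 (hρ2 _ hp₀) (hρ2 _ hr) hp₀.2.2 hr.2.1) hPcard
      (y := (y : G)) (by rw [Subgroup.orderOf_coe, hy]) y.2
    exact hno p₀ r hp₀ hr hne x hx
  have hallHb : ∀ r, ρ r → r ∣ Nat.card Hb := fun r hr =>
    (hr.1.dvd_mul.1 (hcardH ▸ hallH r hr)).resolve_right (hNmax.prop.2 r hr)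
  have hnoq : ∀ p r, ρ p → ρ r → p ≠ r → ∀ x : G ⧸ N, orderOf x ≠ p * r := fun p r hp hr hne x hx => by
    obtain ⟨g, rfl⟩ := QuotientGroup.mk'_surjective N x
    have hd : p * r ∣ orderOf g := hx ▸ orderOf_map_dvd (QuotientGroup.mk' N) g
    exact hno p r hp hr hne _ (orderOf_pow_orderOf_div (orderOf_pos g).ne' hd)
  have hna : ¬ IsMulCommutative Hb := fun hc => by
    obtain ⟨q, hq, hexp⟩ := hHb.exists_prime_exp hc
    have key : ∀ r, ρ r → r = q := fun r hr => by
      haveI := Fact.mk hr.1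
      obtain ⟨z, hz⟩ := exists_prime_orderOf_dvd_card' (G := Hb) r (hallHb r hr)
      have : orderOf z ∣ q := orderOf_dvd_of_pow_eq_one (Subtype.ext (by
        rw [Subgroup.coe_pow]; exact hexp _ z.2))
      exact (Nat.prime_dvd_prime_iff_eq hr.1 hq).1 (hz ▸ this)
    exact hlt12.ne ((key _ hρ1).trans (key _ hρ2').symm)
  obtain ⟨T, hT⟩ := hHb.exists_factor hna
  have hpT : ∀ p, ρ p → p ∣ Nat.card T := by
    intro p hp
    by_contra hpT
    haveI := Fact.mk hp.1
    obtain ⟨z, hz⟩ := exists_prime_orderOf_dvd_card' (G := Hb) p (hallHb p hp)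
    let Z : Subgroup (G ⧸ N) := Hb ⊓ Subgroup.centralizer (Hb : Set (G ⧸ N))
    have hZn : Z.Normal := by haveI := hHb.1; infer_instance
    have hall : ∀ x ∈ Hb, x ^ p = 1 → ∀ t ∈ T, t * x = x * t := by
      intro x hx hxp t ht
      obtain ⟨u, hu, c, hc, rfl⟩ := hT.decomp hx
      have hcomm : Commute u c := hc.2 u hu
      rw [hcomm.mul_pow] at hxp
      have h1 := hT.decomp_unique (pow_mem hu p) (one_mem T) (pow_mem hc p) (one_mem _)
        (by rw [hxp, one_mul])
      have h2 : u = 1 := by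
        have h3 : orderOf (⟨u, hu⟩ : T) ∣ p := orderOf_dvd_of_pow_eq_one (Subtype.ext h1.1)
        rcases (Nat.dvd_prime hp.1).1 h3 with e3 | e3
        · exact congrArg Subtype.val (orderOf_eq_one_iff.1 e3)
        · exact absurd (e3 ▸ orderOf_dvd_natCard (⟨u, hu⟩ : T)) hpT
      rw [h2, one_mul]
      exact hc.2 t ht
    have hzZ : (z : G ⧸ N) ∈ Z := by
      refine ⟨z.2, ?_⟩
      have hle : Hb ≤ Subgroup.centralizer ({(z : G ⧸ N)} : Set (G ⧸ N)) := by
        conv_lhs => rw [hT.gen]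
        refine iSup_le fun g s hs => Subgroup.mem_centralizer_singleton_iff.2 ?_
        have h1 : g⁻¹ * s * g ∈ T := mem_cj.1 hs
        have h2 : g⁻¹ * (z : G ⧸ N) * g ∈ Hb := by simpa using hHb.1.conj_mem _ z.2 g⁻¹
        have h3 : (g⁻¹ * (z : G ⧸ N) * g) ^ p = 1 := by
          have h5 : (z : G ⧸ N) ^ p = 1 := by rw [← hz, ← Subgroup.orderOf_coe, pow_orderOf_eq_one]
          simpa [h5] using conj_pow (a := g⁻¹) (b := (z : G ⧸ N)) (i := p)
        have h4 := congrArg (fun w => g * w * g⁻¹) (hall _ h2 h3 _ h1)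
        simpa [mul_assoc] using h4
      exact fun s hs => Subgroup.mem_centralizer_singleton_iff.1 (hle hs)
    rcases hHb.2.2 Z hZn inf_le_left with e' | e'
    · rw [e', Subgroup.mem_bot] at hzZ
      have h5 : orderOf z = 1 := by rw [orderOf_eq_one_iff]; exact Subtype.ext hzZ
      exact hp.1.one_lt.ne' (hz.symm.trans h5)
    · refine hna ⟨⟨fun a b => Subtype.ext ?_⟩⟩
      have hb' : Hb ≤ Subgroup.centralizer (Hb : Set (G ⧸ N)) := e'.ge.trans inf_le_right
      exact (Subgroup.mem_centralizer_iff.1 (hb' a.2) b b.2).symm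
  have hTeq : T = Hb := by
    by_contra hTne
    obtain ⟨g, hg⟩ : ∃ g, cj g T ≠ T := by
      by_contra hg
      push Not at hg
      exact hTne (by rw [hT.gen]; simp [hg])
    haveI := Fact.mk hρ1.1
    haveI := Fact.mk hρ2'.1
    obtain ⟨a, ha⟩ := exists_prime_orderOf_dvd_card' (G := T) p₁ (hpT _ hρ1)
    obtain ⟨b, hb⟩ := exists_prime_orderOf_dvd_card' (G := T) p₂ (hpT _ hρ2')
    have hbm : g * (b : G ⧸ N) * g⁻¹ ∈ cj g T := conj_mem_cj b.2
    have hcomm : Commute (a : G ⧸ N) (g * (b : G ⧸ N) * g⁻¹) :=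
      hT.cj_comm 1 g (by rw [cj_one]; exact hg.symm) _ (by rw [cj_one]; exact a.2) _ hbm
    have hb' : orderOf (g * (b : G ⧸ N) * g⁻¹) = p₂ := by
      rw [← MulAut.conj_apply, MulEquiv.orderOf_eq, Subgroup.orderOf_coe, hb]
    refine hnoq p₁ p₂ hρ1 hρ2' hlt12.ne ((a : G ⧸ N) * (g * (b : G ⧸ N) * g⁻¹)) ?_
    rw [hcomm.orderOf_mul_eq_mul_orderOf_of_coprime
      (by rw [Subgroup.orderOf_coe, ha, hb']; exact (Nat.coprime_primes hp₁ hp₂).2 hlt12.ne),
      Subgroup.orderOf_coe, ha, hb']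
  subst hTeq
  haveI := hT.simple
  haveI : Nontrivial (H ⧸ N.subgroupOf H) := e.toEquiv.nontrivial
  refine ⟨N, H, hNn, hHn, hNlt, IsSimpleGroup.isSimpleGroup_of_surjective e.symm.toMonoidHom e.symm.surjective, ?_, ?_⟩
  · intro hc
    exact hT.nonab ⟨⟨fun a b => e.symm.injective (by rw [map_mul, map_mul]; exact hc.is_comm.comm _ _)⟩⟩
  · intro p hp h1 h2
    rw [Nat.card_congr e.toEquiv]
    exact hallHb p ⟨hp, h1, h2⟩

end Cfsg.Agent.S3420
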