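import Cfsg.Statements.S3430
import Cfsg.Agent.Lib.PrimPartSmall

set_option autoImplicit false
open Cfsg

namespace Cfsg.Agent.S3430

/-- Let q, n ≥ 2 be integers. Unless (n = 2 and q + 1 = 2^s·3^t for some s ≥ 0 and t ≤ 1), or (q = 2 and n ∈ {4, 6, 10, 12, 18}), or (q = 3 and n ∈ {4, 6}), or (q, n) = (5, 6), there is a prime p dividing q^n − 1 but no q^i − 1 with 1 ≤ i < n (a primitive prime divisor), such that p > n + 1 or p² divides q^n − 1. -/
theorem result (q n : ℕ) (hq : 2 ≤ q) (hn : 2 ≤ n)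
    (h1 : ¬ (n = 2 ∧ ∃ s t : ℕ, t ≤ 1 ∧ q + 1 = 2 ^ s * 3 ^ t))
    (h2 : ¬ (q = 2 ∧ (n = 4 ∨ n = 6 ∨ n = 10 ∨ n = 12 ∨ n = 18)))
    (h3 : ¬ (q = 3 ∧ (n = 4 ∨ n = 6))) (h4 : ¬ (q = 5 ∧ n = 6)) :
    ∃ p : ℕ, p.Prime ∧ p ∣ q ^ n - 1 ∧ (∀ i : ℕ, 1 ≤ i → i < n → ¬ p ∣ q ^ i - 1) ∧ (n + 1 < p ∨ p ^ 2 ∣ q ^ n - 1) := by
  rcases Nat.lt_or_ge n 3 with hn3 | hn3
  · obtain rfl : n = 2 := by omega
    have hsq : q + 1 ∣ q ^ 2 - 1 := ⟨q - 1, by rw [← Nat.sq_sub_sq q 1, one_pow]⟩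
    have hnot : ∀ p : ℕ, p.Prime → p ∣ q + 1 → p ≠ 2 →
        ∀ i : ℕ, 1 ≤ i → i < 2 → ¬ p ∣ q ^ i - 1 := by
      intro p hp hpd hp2 i hi hi2 hd
      obtain rfl : i = 1 := by omega
      rw [pow_one] at hd
      have h := Nat.dvd_sub hpd hd
      rw [show q + 1 - (q - 1) = 2 by omega] at h
      exact hp2 ((Nat.prime_dvd_prime_iff_eq hp Nat.prime_two).mp h)
    by_cases h5 : ∃ p : ℕ, p.Prime ∧ p ∣ q + 1 ∧ 3 < p
    · obtain ⟨p, hp, hpd, hp3⟩ := h5
      exact ⟨p, hp, hpd.trans hsq, hnot p hp hpd (by omega), Or.inl (by omega)⟩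
    · push Not at h5
      obtain ⟨s, r, hr, hsr⟩ := Nat.exists_eq_pow_mul_and_not_dvd (show q + 1 ≠ 0 by omega) 2
        (by norm_num)
      have hr3 : r = 3 ^ r.primeFactorsList.length := by
        refine Nat.eq_prime_pow_of_unique_prime_dvd (fun h => hr (h ▸ dvd_zero 2)) fun {p} hp hpr => ?_
        have hle := h5 p hp (hsr ▸ hpr.mul_left _)
        have h2 : p ≠ 2 := fun h => hr (h ▸ hpr)
        have := hp.two_le
        omega
      by_cases ht : r.primeFactorsList.length ≤ 1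
      · exact absurd ⟨rfl, s, _, ht, by rw [hsr, ← hr3]⟩ h1
      · have h9 : 3 ^ 2 ∣ q + 1 := by
          rw [hsr, hr3]; exact Dvd.dvd.mul_left (pow_dvd_pow 3 (by omega)) _
        exact ⟨3, Nat.prime_three, ((dvd_pow_self 3 two_ne_zero).trans h9).trans hsq,
          hnot 3 Nat.prime_three ((dvd_pow_self 3 two_ne_zero).trans h9) (by norm_num),
          Or.inr (h9.trans hsq)⟩
  · have hq1 : 1 < q := hq
    suffices h : ∃ m : ℕ, Lib.PrimPartBound.IsPrim q n m ∧ n + 1 < m by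
      obtain ⟨m, hm, hmn⟩ := h
      exact Lib.PrimPartBound.exists_large_prime (by omega) hq1 hm hmn
    by_cases he : (q, n) ∈ Lib.PrimPartBound.exc
    · simp only [Lib.PrimPartBound.exc, List.mem_cons, Prod.mk.injEq, List.not_mem_nil,
        or_false] at he
      have key : ∀ a b M : ℕ, q = a ∧ n = b → M ∣ a ^ b - 1 → (∀ i ∈ List.range b, 1 ≤ i → Nat.gcd M (a ^ i - 1) = 1) → b + 1 < M →
          ∃ m : ℕ, Lib.PrimPartBound.IsPrim q n m ∧ n + 1 < m := by
        rintro a b M ⟨rfl, rfl⟩ hd hc hb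
        exact ⟨M, ⟨hd, fun i hi hin => hc i (List.mem_range.mpr hin) hi⟩, hb⟩
      rcases he with h | h | h | h | h | h | h | h | h | h | h | h | h
      · exact absurd ⟨h.1, by omega⟩ h2
      · exact absurd ⟨h.1, by omega⟩ h2
      · exact absurd ⟨h.1, by omega⟩ h2
      · exact absurd ⟨h.1, by omega⟩ h2
      · exact absurd ⟨h.1, by omega⟩ h2
      · exact absurd ⟨h.1, by omega⟩ h3
      · exact absurd ⟨h.1, by omega⟩ h3
      · exact absurd h h4
      · exact key 2 3 7 h (by decide +kernel) (by decide +kernel) (by norm_num)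
      · exact key 2 8 17 h (by decide +kernel) (by decide +kernel) (by norm_num)
      · exact key 2 20 41 h (by decide +kernel) (by decide +kernel) (by norm_num)
      · exact key 4 3 7 h (by decide +kernel) (by decide +kernel) (by norm_num)
      · exact key 4 6 13 h (by decide +kernel) (by decide +kernel) (by norm_num)
    · obtain ⟨m, hm, hmn⟩ := Lib.PrimPartBound.exists_prim hn3 hq1 he
      exact ⟨m, hm, by omega⟩

end Cfsg.Agent.S3430
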