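import Cfsg.Statements.S4212
import Mathlib

set_option autoImplicit false
open Cfsg

namespace Cfsg.Agent.S4212

universe u

open scoped Classical in
lemma dvd_card_pow_mem {G : Type*} [Group G] [Fintype G] (d a : ℕ) (P : G → Prop)
    (hP : ∀ y g : G, P y → P (g * y * g⁻¹))
    (h : ∀ c, P c → d ∣ Nat.card {x : G // IsConj c (x ^ a)}) :
    d ∣ Nat.card {x : G // P (x ^ a)} := by
  haveI := Fintype.ofFinite (ConjClasses G)
  rw [Nat.card_eq_fintype_card, Fintype.card_subtype]
  rw [Finset.card_eq_sum_card_fiberwise (f := fun x => ConjClasses.mk (x ^ a)) (t := Finset.univ)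
    (fun _ _ => Finset.mem_univ _)]
  refine Finset.dvd_sum fun K _ => ?_
  by_cases hK : ∃ c, P c ∧ ConjClasses.mk c = K
  · obtain ⟨c, hc, rfl⟩ := hK
    have := h c hc
    rw [Nat.card_eq_fintype_card, Fintype.card_subtype] at this
    refine this.trans (dvd_of_eq (congrArg Finset.card (Finset.ext fun x => ?_)))
    simp only [Finset.mem_filter, Finset.mem_univ, true_and, ConjClasses.mk_eq_mk_iff_isConj]
    refine ⟨fun h => ⟨?_, h.symm⟩, fun h => h.2.symm⟩
    obtain ⟨g, hg⟩ := isConj_iff.1 h
    exact hg ▸ hP c g hc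
  · rw [Finset.filter_eq_empty_iff.2, Finset.card_empty]
    · exact dvd_zero d
    · intro x hx he
      simp only [Finset.mem_filter, Finset.mem_univ, true_and] at hx
      exact hK ⟨_, hx, he⟩

lemma card_class_mul {G : Type*} [Group G] [Finite G] (c : G) :
    Nat.card {y : G // IsConj c y} * Nat.card (Subgroup.centralizer ({c} : Set G)) = Nat.card G := by
  rw [Subgroup.centralizer_eq_comap_stabilizer]
  have h1 : Nat.card {y : G // IsConj c y} = (MulAction.orbit (ConjAct G) c).ncard := by
    rw [← Nat.card_coe_set_eq]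
    exact Nat.card_congr (Equiv.subtypeEquivRight fun y => by
      rw [ConjAct.mem_orbit_conjAct]; exact ⟨IsConj.symm, IsConj.symm⟩)
  rw [h1, ← MulAction.index_stabilizer]
  have h2 := Subgroup.card_mul_index (MulAction.stabilizer (ConjAct G) c)
  rw [mul_comm] at h2
  exact h2

lemma card_conj_roots {G : Type*} [Group G] [Finite G] (c : G) (a : ℕ) :
    Nat.card {x : G // IsConj c (x ^ a)} =
      Nat.card {y : G // IsConj c y} *
        Nat.card {x : Subgroup.centralizer ({c} : Set G) // x ^ a = ⟨c, Subgroup.mem_centralizer_singleton_iff.2 rfl⟩} := by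
  classical
  haveI := Fintype.ofFinite G
  have e : {x : G // IsConj c (x ^ a)} ≃ Σ y : {y : G // IsConj c y}, {x : G // x ^ a = (y : G)} :=
    ⟨fun x => ⟨⟨_, x.2⟩, ⟨x.1, rfl⟩⟩, fun s => ⟨s.2.1, by rw [s.2.2]; exact s.1.2⟩,
      fun x => rfl, fun ⟨⟨y, hy⟩, x, hx⟩ => Sigma.subtype_ext (Subtype.ext hx) rfl⟩
  rw [Nat.card_congr e, Nat.card_sigma]
  rw [Finset.sum_congr rfl (g := fun _ => Nat.card {x : G // x ^ a = c})]
  · rw [Finset.sum_const, Finset.card_univ, smul_eq_mul, Nat.card_eq_fintype_card (α := {y : G // IsConj c y})]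
    congr 1
    exact Nat.card_congr
      ⟨fun x => ⟨⟨x.1, Subgroup.mem_centralizer_singleton_iff.2 (by
          have h := x.2
          have h2 := ((Commute.refl x.1).pow_right a).eq
          rw [h] at h2; exact h2)⟩, Subtype.ext x.2⟩,
        fun x => ⟨x.1.1, congrArg Subtype.val x.2⟩, fun x => rfl, fun x => rfl⟩
  · rintro ⟨y, hy⟩ _
    obtain ⟨g, rfl⟩ := isConj_iff.1 hy
    refine Nat.card_congr (Equiv.subtypeEquiv (MulAut.conj g).symm.toEquiv fun x => ?_)
    show x ^ a = g * c * g⁻¹ ↔ ((MulAut.conj g).symm x) ^ a = c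
    rw [← map_pow, MulEquiv.symm_apply_eq, MulAut.conj_apply]

lemma frobenius_prime_pow_dvd {G : Type*} [Group G] [Finite G] {p k : ℕ} (hp : p.Prime) (c : G)
    (hpc : p ∣ orderOf c) : p ^ k ∣ Nat.card {x : G // x ^ p ^ k = c} := by
  classical
  haveI := Fintype.ofFinite G
  haveI := Fintype.ofFinite (Subgroup G)
  have hord : ∀ y : G, y ^ p ^ k = c → orderOf y = p ^ k * orderOf c := by
    intro y hy
    have h1 : orderOf c = orderOf y / (orderOf y).gcd (p ^ k) := hy ▸ orderOf_pow y
    obtain ⟨i, hik, hi⟩ := (Nat.dvd_prime_pow hp).1 (Nat.gcd_dvd_right (orderOf y) (p ^ k))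
    have h3 : orderOf c * p ^ i = orderOf y := by
      rw [h1, hi, Nat.div_mul_cancel]; exact hi ▸ Nat.gcd_dvd_left _ _
    rcases eq_or_lt_of_le hik with rfl | hlt
    · rw [← h3, mul_comm]
    · exfalso
      have : p ^ (i + 1) ∣ (orderOf y).gcd (p ^ k) := by
        refine Nat.dvd_gcd ?_ (pow_dvd_pow p hlt)
        rw [← h3, pow_succ, mul_comm (p ^ i)]
        exact mul_dvd_mul hpc dvd_rfl
      rw [hi, Nat.pow_dvd_pow_iff_le_right hp.one_lt] at this
      omega
  rw [Nat.card_eq_fintype_card, Fintype.card_subtype]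
  rw [Finset.card_eq_sum_card_fiberwise (f := fun y => Subgroup.zpowers y) (t := Finset.univ)
    (fun _ _ => Finset.mem_univ _)]
  refine Finset.dvd_sum fun H _ => ?_
  by_cases hH : ∃ x, x ^ p ^ k = c ∧ Subgroup.zpowers x = H
  · obtain ⟨x, hx, rfl⟩ := hH
    have hsol : Nat.card {u : Subgroup.zpowers x // u ^ p ^ k = 1} = p ^ k := by
      letI : CommGroup (Subgroup.zpowers x) := IsCyclic.commGroup
      have h4 := IsCyclic.card_powMonoidHom_ker (G := Subgroup.zpowers x) (p ^ k)
      rw [Nat.card_zpowers, hord x hx, Nat.gcd_mul_right_left] at h4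
      refine Eq.trans ?_ h4
      exact Nat.card_congr (Equiv.subtypeEquivRight fun u => by simp [MonoidHom.mem_ker])
    refine dvd_of_eq (hsol.symm.trans ?_)
    rw [← Nat.card_eq_finsetCard]
    refine (Nat.card_congr ⟨fun u => ⟨(u.1 : G) * x, ?_⟩, fun y => ⟨⟨y.1 * x⁻¹, ?_⟩, ?_⟩, ?_, ?_⟩)
    · simp only [Finset.mem_filter, Finset.mem_univ, true_and]
      obtain ⟨m, hm⟩ := Subgroup.mem_zpowers_iff.1 u.1.2
      have hcm : Commute (u.1 : G) x := hm ▸ (Commute.refl x).zpow_left m
      have h5 : ((u.1 : G) * x) ^ p ^ k = c := by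
        rw [hcm.mul_pow, hx, show (u.1 : G) ^ p ^ k = 1 from congrArg Subtype.val u.2, one_mul]
      refine ⟨h5, Subgroup.eq_of_le_of_card_ge ?_ ?_⟩
      · rw [Subgroup.zpowers_le]; exact mul_mem u.1.2 (Subgroup.mem_zpowers x)
      · rw [Nat.card_zpowers, Nat.card_zpowers, hord x hx, hord _ h5]
    · have := y.2
      simp only [Finset.mem_filter, Finset.mem_univ, true_and] at this
      refine mul_mem ?_ (inv_mem (Subgroup.mem_zpowers x))
      exact (le_of_eq this.2) (Subgroup.mem_zpowers y.1)
    · have := y.2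
      simp only [Finset.mem_filter, Finset.mem_univ, true_and] at this
      obtain ⟨m, hm⟩ := Subgroup.mem_zpowers_iff.1 (show y.1 ∈ Subgroup.zpowers x by exact (le_of_eq this.2) (Subgroup.mem_zpowers y.1))
      ext
      show (y.1 * x⁻¹) ^ p ^ k = 1
      have hcm : Commute y.1 x⁻¹ := hm ▸ ((Commute.refl x).zpow_left m).inv_right
      rw [hcm.mul_pow, this.1, inv_pow, hx, mul_inv_cancel]
    · intro u; ext; simp
    · intro y; ext; simp
  · rw [Finset.filter_eq_empty_iff.2, Finset.card_empty]
    · exact dvd_zero _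
    · intro y hy he
      simp only [Finset.mem_filter, Finset.mem_univ, true_and] at hy
      exact hH ⟨y, hy, he⟩

theorem frobenius_central : ∀ (g : ℕ) (G : Type u) [Group G] [Finite G], Nat.card G = g →
    ∀ (n : ℕ) (c : G), c ∈ Subgroup.center G → n.gcd g ∣ Nat.card {x : G // x ^ n = c} := by
  intro g
  induction g using Nat.strong_induction_on with
  | _ g ih =>
  intro G _ _ hg n
  haveI := Fintype.ofFinite G
  -- general classes, given the central case for the exponent
  have gen : ∀ a : ℕ, (∀ z ∈ Subgroup.center G, a.gcd g ∣ Nat.card {x : G // x ^ a = z}) →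
      ∀ c : G, a.gcd g ∣ Nat.card {x : G // IsConj c (x ^ a)} := by
    intro a hcen c
    by_cases hc : c ∈ Subgroup.center G
    · refine (hcen c hc).trans (dvd_of_eq (Eq.symm ?_))
      refine Nat.card_congr (Equiv.subtypeEquivRight fun x => ?_)
      rw [isConj_iff]
      constructor
      · rintro ⟨b, hb⟩
        rw [← hb, (Subgroup.mem_center_iff.1 hc b), mul_inv_cancel_right]
      · intro h; exact ⟨1, by simp [h]⟩
    · rw [card_conj_roots]
      have hmul := card_class_mul c
      have hlt : Nat.card (Subgroup.centralizer ({c} : Set G)) < g := by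
        rw [← hg]
        refine lt_of_le_of_ne (Subgroup.card_le_card_group _) fun he => hc ?_
        have htop := Subgroup.eq_top_of_card_eq _ he
        rw [Subgroup.mem_center_iff]
        intro b
        exact Subgroup.mem_centralizer_singleton_iff.1 (show b ∈ Subgroup.centralizer ({c} : Set G) by rw [htop]; trivial)
      have hzc : (⟨c, Subgroup.mem_centralizer_singleton_iff.2 rfl⟩ : Subgroup.centralizer ({c} : Set G)) ∈
          Subgroup.center (Subgroup.centralizer ({c} : Set G)) := by
        rw [Subgroup.mem_center_iff]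
        intro b; ext
        exact Subgroup.mem_centralizer_singleton_iff.1 b.2
      refine dvd_trans ?_ (mul_dvd_mul_left _ (ih _ hlt (Subgroup.centralizer ({c} : Set G)) rfl a _ hzc))
      rw [← Nat.gcd_mul_left, hmul, hg]
      exact Nat.dvd_gcd ((Nat.gcd_dvd_left a g).trans (dvd_mul_left _ _)) (Nat.gcd_dvd_right a g)
  induction n using Nat.recOnPrimeCoprime with
  | zero =>
    intro c _
    rw [Nat.gcd_zero_left]
    by_cases hc : c = 1
    · subst hc
      rw [← hg]; exact (Nat.card_congr (Equiv.subtypeUnivEquiv (fun x => pow_zero x))).symm.dvd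
    · haveI : IsEmpty {x : G // x ^ 0 = c} := ⟨fun x => hc (by rw [← x.2, pow_zero])⟩
      rw [Nat.card_of_isEmpty]; exact dvd_zero g
  | prime_pow p k hp =>
    intro c hc
    set d := (p ^ k).gcd g with hd
    by_cases hpc : p ∣ orderOf c
    · exact (Nat.gcd_dvd_left _ _).trans (frobenius_prime_pow_dvd hp c hpc)
    have hroot : ∀ z ∈ Subgroup.center G, ¬ p ∣ orderOf z →
        Nat.card {x : G // x ^ p ^ k = z} = Nat.card {x : G // x ^ p ^ k = 1} := by
      intro z hz hpz
      have hcop : Nat.Coprime (orderOf z) (p ^ k) := ((hp.coprime_iff_not_dvd.2 hpz).symm).pow_right k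
      obtain ⟨m, hm⟩ := exists_pow_eq_self_of_coprime hcop.symm
      have hcen : z ^ m ∈ Subgroup.center G := pow_mem hz m
      refine Nat.card_congr (Equiv.subtypeEquiv (Equiv.mulRight (z ^ m)⁻¹) fun x => ?_)
      show x ^ p ^ k = z ↔ (x * (z ^ m)⁻¹) ^ p ^ k = 1
      have hcm : Commute x (z ^ m)⁻¹ := (Subgroup.mem_center_iff.1 (inv_mem hcen) x)
      rw [hcm.mul_pow, inv_pow, ← pow_mul, mul_comm m, pow_mul, hm, mul_inv_eq_one]
    rw [hroot c hc hpc]
    let Z0 : Subgroup G :=
      { carrier := {z | z ∈ Subgroup.center G ∧ ¬ p ∣ orderOf z}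
        one_mem' := ⟨one_mem _, by simp [hp.ne_one]⟩
        mul_mem' := fun {a b} ha hb => ⟨mul_mem ha.1 hb.1, fun h => by
          have hcm : Commute a b := (Subgroup.mem_center_iff.1 hb.1 a)
          have h2 := h.trans (hcm.orderOf_mul_dvd_lcm.trans (Nat.lcm_dvd_mul _ _))
          exact (hp.dvd_mul.1 h2).elim ha.2 hb.2⟩
        inv_mem' := fun {a} ha => ⟨inv_mem ha.1, by rw [orderOf_inv]; exact ha.2⟩ }
    have hcopZ : Nat.Coprime d (Nat.card Z0) := by
      refine Nat.Coprime.coprime_dvd_left (Nat.gcd_dvd_left _ _) (Nat.Coprime.pow_left k ?_)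
      rw [hp.coprime_iff_not_dvd]
      intro h
      haveI := Fact.mk hp
      obtain ⟨z, hz⟩ := exists_prime_orderOf_dvd_card' p h
      exact z.2.2 (by rw [Subgroup.orderOf_coe, hz])
    apply hcopZ.dvd_of_dvd_mul_left
    classical
    have hbad : d ∣ Nat.card {x : G // x ^ p ^ k ∉ Z0} := by
      refine dvd_card_pow_mem d (p ^ k) (fun y => y ∉ Z0) ?_ ?_
      · intro y b hy h
        apply hy
        have h3 := Subgroup.mem_center_iff.1 h.1 b
        have : y = b * y * b⁻¹ := (mul_left_cancel (h3.trans (inv_mul_cancel_right _ b))).symm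
        rw [this]; exact h
      · intro z hz
        by_cases hzc : z ∈ Subgroup.center G
        · have hpz : p ∣ orderOf z := by_contra fun h => hz ⟨hzc, h⟩
          refine (Nat.gcd_dvd_left _ _).trans ?_
          refine (frobenius_prime_pow_dvd (k := k) hp z hpz).trans (dvd_of_eq (Eq.symm ?_))
          refine Nat.card_congr (Equiv.subtypeEquivRight fun x => ?_)
          rw [isConj_iff]
          constructor
          · rintro ⟨b, hb⟩
            rw [← hb, (Subgroup.mem_center_iff.1 hzc b), mul_inv_cancel_right]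
          · intro h; exact ⟨1, by simp [h]⟩
        · rw [card_conj_roots]
          have hmul := card_class_mul z
          have hlt : Nat.card (Subgroup.centralizer ({z} : Set G)) < g := by
            rw [← hg]
            refine lt_of_le_of_ne (Subgroup.card_le_card_group _) fun he => hzc ?_
            have htop := Subgroup.eq_top_of_card_eq _ he
            rw [Subgroup.mem_center_iff]
            intro b
            exact Subgroup.mem_centralizer_singleton_iff.1 (show b ∈ Subgroup.centralizer ({z} : Set G) by rw [htop]; trivial)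
          have hzC : (⟨z, Subgroup.mem_centralizer_singleton_iff.2 rfl⟩ : Subgroup.centralizer ({z} : Set G)) ∈
              Subgroup.center (Subgroup.centralizer ({z} : Set G)) := by
            rw [Subgroup.mem_center_iff]
            intro b; ext
            exact Subgroup.mem_centralizer_singleton_iff.1 b.2
          refine dvd_trans ?_ (mul_dvd_mul_left _ (ih _ hlt (Subgroup.centralizer ({z} : Set G)) rfl (p ^ k) _ hzC))
          rw [← Nat.gcd_mul_left, hmul, hg]
          exact Nat.dvd_gcd ((Nat.gcd_dvd_left _ g).trans (dvd_mul_left _ _)) (Nat.gcd_dvd_right _ g)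
    have hgood : Nat.card {x : G // x ^ p ^ k ∈ Z0} = Nat.card Z0 * Nat.card {x : G // x ^ p ^ k = 1} := by
      have e : {x : G // x ^ p ^ k ∈ Z0} ≃ Σ z : Z0, {x : G // x ^ p ^ k = (z : G)} :=
        ⟨fun x => ⟨⟨_, x.2⟩, ⟨x.1, rfl⟩⟩, fun s => ⟨s.2.1, by rw [s.2.2]; exact s.1.2⟩,
          fun x => rfl, fun ⟨⟨z, hz⟩, x, hx⟩ => Sigma.subtype_ext (Subtype.ext hx) rfl⟩
      haveI := Fintype.ofFinite Z0
      rw [Nat.card_congr e, Nat.card_sigma, Finset.sum_congr rfl fun z _ => hroot z.1 z.2.1 z.2.2,
        Finset.sum_const, Finset.card_univ, smul_eq_mul, Nat.card_eq_fintype_card (α := Z0)]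
    rw [← hgood]
    have htot : Nat.card {x : G // x ^ p ^ k ∈ Z0} + Nat.card {x : G // x ^ p ^ k ∉ Z0} = g := by
      rw [← hg, ← Nat.card_sum]
      exact Nat.card_congr (Equiv.sumCompl _)
    exact (Nat.dvd_add_left hbad).1 (htot.symm ▸ Nat.gcd_dvd_right _ _)
  | coprime a b _ _ hab iha ihb =>
    intro c hc
    rw [Nat.Coprime.gcd_mul g hab |> fun h => (by rw [Nat.gcd_comm, h, Nat.gcd_comm g a, Nat.gcd_comm g b] : (a * b).gcd g = a.gcd g * b.gcd g)]
    have key : ∀ a b : ℕ, (∀ z ∈ Subgroup.center G, a.gcd g ∣ Nat.card {x : G // x ^ a = z}) →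
        a.gcd g ∣ Nat.card {x : G // x ^ (a * b) = c} := by
      intro a b ha
      have h := dvd_card_pow_mem (a.gcd g) a (fun y : G => y ^ b = c) ?_ (fun z _ => gen a ha z)
      · refine h.trans (dvd_of_eq (Nat.card_congr (Equiv.subtypeEquivRight fun x => ?_)))
        rw [← pow_mul]
      · intro y e hy
        rw [conj_pow, hy, Subgroup.mem_center_iff.1 hc e, mul_inv_cancel_right]
    refine Nat.Coprime.mul_dvd_of_dvd_of_dvd ?_ (key a b iha) ?_
    · exact Nat.Coprime.coprime_dvd_left (Nat.gcd_dvd_left a g) (hab.coprime_dvd_right (Nat.gcd_dvd_left b g))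
    · rw [mul_comm a b]; exact key b a ihb

/-- Let `G` be a finite group of order `g`, `c` an element whose conjugacy class has `h` elements, and `n` a natural number. Then the number of elements `x` of `G` with `x^n` conjugate to `c` is a multiple of `gcd(hn, g)`. -/
theorem result {G : Type*} [Group G] [Finite G] (c : G) (n : ℕ) : Nat.gcd (Nat.card {y : G // IsConj c y} * n) (Nat.card G) ∣ Nat.card {x : G // IsConj c (x ^ n)} := by
  rw [card_conj_roots]
  have hzC : (⟨c, Subgroup.mem_centralizer_singleton_iff.2 rfl⟩ : Subgroup.centralizer ({c} : Set G)) ∈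
      Subgroup.center (Subgroup.centralizer ({c} : Set G)) := by
    rw [Subgroup.mem_center_iff]
    intro b; ext
    exact Subgroup.mem_centralizer_singleton_iff.1 b.2
  refine dvd_trans ?_ (mul_dvd_mul_left _ (frobenius_central _ (Subgroup.centralizer ({c} : Set G)) rfl n _ hzC))
  rw [← Nat.gcd_mul_left, card_class_mul]

end Cfsg.Agent.S4212
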