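import Cfsg.Statements.S3996
import Mathlib
import Cfsg.Agent.S4212
import Cfsg.Agent.Lib.Char.Burnside

set_option autoImplicit false

namespace Cfsg.Agent.S3996

open Cfsg.Agent.Lib.Char (isSolvable_of_card_eq_two_primes)

universe u

variable {G : Type*} [Group G] [Finite G]

noncomputable def N (G : Type*) [Group G] (m : ℕ) : ℕ := Nat.card {g : G // orderOf g = m}

lemma N_eq (G : Type*) [Group G] [Fintype G] [DecidableEq G] (m : ℕ) :
    N G m = (Finset.univ.filter fun g : G => orderOf g = m).card := by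
  rw [N, Nat.card_eq_fintype_card, Fintype.card_subtype]

lemma N_one : N G 1 = 1 := by
  rw [N, Nat.card_eq_one_iff_unique]
  exact ⟨⟨fun a b => Subtype.ext ((orderOf_eq_one_iff.1 a.2).trans (orderOf_eq_one_iff.1 b.2).symm)⟩,
    ⟨⟨1, orderOf_one⟩⟩⟩

lemma N_ne_zero {m : ℕ} (h : N G m ≠ 0) : ∃ g : G, orderOf g = m := by
  obtain ⟨⟨g, hg⟩⟩ : Nonempty {g : G // orderOf g = m} := (Nat.card_ne_zero.1 h).1
  exact ⟨g, hg⟩

lemma totient_dvd (m : ℕ) : m.totient ∣ N G m := by
  classical
  haveI := Fintype.ofFinite G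
  haveI := Fintype.ofFinite (Subgroup G)
  rw [N_eq, Finset.card_eq_sum_card_fiberwise (f := fun y => Subgroup.zpowers y) (t := Finset.univ)
    (fun _ _ => Finset.mem_univ _)]
  refine Finset.dvd_sum fun H _ => ?_
  rcases Finset.eq_empty_or_nonempty ((Finset.univ.filter fun g : G => orderOf g = m).filter
    fun y => Subgroup.zpowers y = H) with h | ⟨x, hx⟩
  · rw [h, Finset.card_empty]; exact dvd_zero _
  simp only [Finset.mem_filter, Finset.mem_univ, true_and] at hx
  obtain ⟨hxm, rfl⟩ := hx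
  have h2 : Fintype.card (Subgroup.zpowers x) = m := by
    rw [← Nat.card_eq_fintype_card, Nat.card_zpowers, hxm]
  have h1 := IsCyclic.card_orderOf_eq_totient (α := Subgroup.zpowers x) (d := m) (by rw [h2])
  refine dvd_of_eq (h1.symm.trans ?_)
  refine Finset.card_bij (fun u _ => (u : G)) ?_ ?_ ?_
  · intro u hu
    simp only [Finset.mem_filter, Finset.mem_univ, true_and] at hu ⊢
    rw [Subgroup.orderOf_coe]
    refine ⟨hu, Subgroup.eq_of_le_of_card_ge (Subgroup.zpowers_le.2 u.2) ?_⟩
    rw [Nat.card_zpowers, Nat.card_zpowers, Subgroup.orderOf_coe, hu, hxm]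
  · intro u _ v _ h
    exact Subtype.ext h
  · intro y hy
    simp only [Finset.mem_filter, Finset.mem_univ, true_and] at hy
    refine ⟨⟨y, hy.2 ▸ Subgroup.mem_zpowers y⟩, ?_, rfl⟩
    simp only [Finset.mem_filter, Finset.mem_univ, true_and]
    rw [← Subgroup.orderOf_coe]
    exact hy.1

lemma dvd_sum_N {n : ℕ} (hn : n ∣ Nat.card G) : n ∣ ∑ d ∈ n.divisors, N G d := by
  classical
  haveI := Fintype.ofFinite G
  have hn0 : n ≠ 0 := ne_zero_of_dvd_ne_zero Nat.card_pos.ne' hn
  have h := Cfsg.Agent.S4212.frobenius_central _ G rfl n 1 (Subgroup.one_mem _)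
  rw [Nat.gcd_eq_left hn] at h
  refine h.trans (dvd_of_eq ?_)
  rw [Nat.card_eq_fintype_card, Fintype.card_subtype,
    Finset.card_eq_sum_card_fiberwise (f := fun g : G => orderOf g) (t := n.divisors)]
  · refine Finset.sum_congr rfl fun d hd => ?_
    rw [N_eq]
    congr 1
    ext g
    simp only [Finset.mem_filter, Finset.mem_univ, true_and, and_iff_right_iff_imp]
    intro hg
    rw [← orderOf_dvd_iff_pow_eq_one, hg]
    exact (Nat.mem_divisors.1 hd).1
  · intro g hg
    have hg' : g ^ n = 1 := by simpa using hg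
    exact Nat.mem_divisors.2 ⟨orderOf_dvd_of_pow_eq_one hg', hn0⟩

lemma divisors_prime_mul {p d : ℕ} (hp : p.Prime) (hd : d ≠ 0) :
    (p * d).divisors = d.divisors ∪ d.divisors.image (p * ·) := by
  ext e
  simp only [Finset.mem_union, Finset.mem_image, Nat.mem_divisors]
  constructor
  · rintro ⟨he, -⟩
    by_cases hpe : p ∣ e
    · obtain ⟨f, rfl⟩ := hpe
      exact Or.inr ⟨f, ⟨Nat.dvd_of_mul_dvd_mul_left hp.pos he, hd⟩, rfl⟩
    · exact Or.inl ⟨((hp.coprime_iff_not_dvd.2 hpe).symm).dvd_of_dvd_mul_left he, hd⟩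
  · rintro (⟨he, -⟩ | ⟨f, ⟨hf, -⟩, rfl⟩)
    · exact ⟨he.trans (dvd_mul_left _ _), mul_ne_zero hp.ne_zero hd⟩
    · exact ⟨mul_dvd_mul_left p hf, mul_ne_zero hp.ne_zero hd⟩

lemma key {p : ℕ} (hp : p.Prime) : ∀ d : ℕ, ¬ p ∣ d → p * d ∣ Nat.card G →
    ((N G d : ZMod p) + (N G (p * d) : ZMod p) = 0) := by
  intro d
  induction d using Nat.strong_induction_on with
  | _ d ih =>
  intro hpd hd
  have hd0 : d ≠ 0 := fun h => hpd (h ▸ dvd_zero p)
  have h := dvd_sum_N hd
  have h' : ((∑ e ∈ (p * d).divisors, N G e : ℕ) : ZMod p) = 0 :=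
    (ZMod.natCast_eq_zero_iff _ _).2 ((dvd_mul_right p d).trans h)
  rw [divisors_prime_mul hp hd0, Finset.sum_union, Finset.sum_image, ← Finset.sum_add_distrib,
    Nat.cast_sum, Finset.sum_eq_single d] at h'
  · simpa using h'
  · intro e he hne
    obtain ⟨hed, -⟩ := Nat.mem_divisors.1 he
    push_cast
    exact ih e (lt_of_le_of_ne (Nat.le_of_dvd (Nat.pos_of_ne_zero hd0) hed) hne)
      (fun h => hpd (h.trans hed)) ((mul_dvd_mul_left p hed).trans hd)
  · intro h; exact absurd (Nat.mem_divisors.2 ⟨dvd_rfl, hd0⟩) h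
  · intro x _ y _ h
    exact Nat.eq_of_mul_eq_mul_left hp.pos h
  · rw [Finset.disjoint_left]
    intro e he he'
    obtain ⟨f, -, rfl⟩ := Finset.mem_image.1 he'
    exact hpd ((dvd_mul_right p f).trans (Nat.mem_divisors.1 he).1)

lemma N_prime {p : ℕ} (hp : p.Prime) (h : p ∣ Nat.card G) : (N G p : ZMod p) = -1 := by
  have := key (G := G) hp 1 hp.not_dvd_one (by rwa [mul_one])
  rw [mul_one, N_one, Nat.cast_one] at this
  linear_combination this

lemma neg_one_ne_one {p : ℕ} (hp : p.Prime) (h2 : p ≠ 2) : (-1 : ZMod p) ≠ 1 := by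
  haveI : Fact (2 < p) := ⟨lt_of_le_of_ne hp.two_le (Ne.symm h2)⟩
  exact ZMod.neg_one_ne_one

lemma ne_zero_of_cast {p x : ℕ} {c : ZMod p} (hc : c ≠ 0) (h : (x : ZMod p) = c) : x ≠ 0 :=
  fun h0 => hc (by rw [← h, h0, Nat.cast_zero])

lemma two_lt_of_odd_prime {p : ℕ} (hp : p.Prime) (h2 : p ≠ 2) : 2 < p :=
  lt_of_le_of_ne hp.two_le (Ne.symm h2)

lemma primes_mul_dvd {p q : ℕ} (hp : p.Prime) (hq : q.Prime) (hpq : p ≠ q) (h1 : p ∣ Nat.card G)
    (h2 : q ∣ Nat.card G) : p * q ∣ Nat.card G :=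
  ((Nat.coprime_primes hp hq).2 hpq).mul_dvd_of_dvd_of_dvd h1 h2

/-- Group with at most one odd prime divisor. -/
lemma solvable_of_one_odd {G : Type u} [Group G] [Finite G]
    (h : ∀ p q : ℕ, p.Prime → q.Prime → p ≠ 2 → q ≠ 2 → p ∣ Nat.card G → q ∣ Nat.card G → p ≠ q → False) :
    Group.IsSolvable G := by
  by_cases ho : ∃ p : ℕ, p.Prime ∧ p ≠ 2 ∧ p ∣ Nat.card G
  · obtain ⟨p, hp, hp2, hpd⟩ := ho
    refine isSolvable_of_card_eq_two_primes Nat.prime_two hp _ G rfl fun r hr hrd => ?_
    by_contra hcon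
    push Not at hcon
    exact h r p hr hp hcon.1 hp2 hrd hpd hcon.2
  · refine isSolvable_of_card_eq_two_primes Nat.prime_two Nat.prime_two _ G rfl fun r hr hrd => Or.inl ?_
    by_contra hr2
    exact ho ⟨r, hr, hr2, hrd⟩

/-- The odd order case. -/
lemma odd_three {H : Type*} [Group H] [Finite H] (hodd : Odd (Nat.card H)) (a b : ℕ)
    (hv : ∀ m : ℕ, 1 < m → N H m = 0 ∨ N H m = a ∨ N H m = b)
    {p q : ℕ} (hp : p.Prime) (hq : q.Prime) (hpq : p ≠ q) (hpd : p ∣ Nat.card H) (hqd : q ∣ Nat.card H)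
    (ha : N H p = a) (hb : N H q = a) : False := by
  classical
  haveI := Fintype.ofFinite H
  have ne2 : ∀ r : ℕ, r.Prime → r ∣ Nat.card H → r ≠ 2 := fun r _ hd h2 => by
    subst h2
    exact (Nat.not_even_iff_odd.2 hodd) (even_iff_two_dvd.2 hd)
  haveI : Fact p.Prime := ⟨hp⟩
  haveI : Fact q.Prime := ⟨hq⟩
  have hap : (a : ZMod p) = -1 := ha ▸ N_prime hp hpd
  have haq : (a : ZMod q) = -1 := hb ▸ N_prime hq hqd
  have hpq1 : (N H (p * q) : ZMod p) = 1 := by
    have := key (G := H) hp q (fun h => hpq ((Nat.prime_dvd_prime_iff_eq hp hq).1 h))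
      (primes_mul_dvd hp hq hpq hpd hqd)
    rw [hb, hap] at this
    linear_combination this
  have hqp1 : (N H (p * q) : ZMod q) = 1 := by
    have := key (G := H) hq p (fun h => hpq ((Nat.prime_dvd_prime_iff_eq hq hp).1 h).symm)
      (primes_mul_dvd hq hp hpq.symm hqd hpd)
    rw [ha, haq, mul_comm q p] at this
    linear_combination this
  have hpqb : N H (p * q) = b := by
    rcases hv (p * q) (by nlinarith [hp.two_le, hq.two_le]) with h | h | h
    · exact absurd h (ne_zero_of_cast one_ne_zero hpq1)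
    · rw [h, hap] at hpq1
      exact absurd hpq1 (neg_one_ne_one hp (ne2 p hp hpd))
    · exact h
  -- every prime has value `a`
  have hall : ∀ s : ℕ, s.Prime → s ∣ Nat.card H → N H s = a := by
    intro s hs hsd
    haveI : Fact s.Prime := ⟨hs⟩
    by_contra hsa
    have hsp : s ≠ p := fun h => hsa (h ▸ ha)
    have hsq : s ≠ q := fun h => hsa (h ▸ hb)
    have hsb : N H s = b := by
      rcases hv s hs.one_lt with h | h | h
      · exact absurd h (ne_zero_of_cast (by simp) (N_prime hs hsd))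
      · exact absurd h hsa
      · exact h
    have hbs : (b : ZMod s) = -1 := hsb ▸ N_prime hs hsd
    -- value at `q * s`
    have hqs : N H (q * s) = a := by
      have := key (G := H) hq s (fun h => hsq ((Nat.prime_dvd_prime_iff_eq hq hs).1 h).symm)
        (primes_mul_dvd hq hs hsq.symm hqd hsd)
      rw [hpqb] at hqp1
      rw [hsb, hqp1] at this
      have h' : (N H (q * s) : ZMod q) = -1 := by linear_combination this
      rcases hv (q * s) (by nlinarith [hq.two_le, hs.two_le]) with h | h | h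
      · exact absurd h (ne_zero_of_cast (by simp) h')
      · exact h
      · rw [h, hqp1] at h'
        exact absurd h'.symm (neg_one_ne_one hq (ne2 q hq hqd))
    have hpnd : ¬ p ∣ q * s := fun h => by
      rcases hp.dvd_mul.1 h with h | h
      · exact hpq ((Nat.prime_dvd_prime_iff_eq hp hq).1 h)
      · exact hsp ((Nat.prime_dvd_prime_iff_eq hp hs).1 h).symm
    have hall3 : p * (q * s) ∣ Nat.card H :=
      (hp.coprime_iff_not_dvd.2 hpnd).mul_dvd_of_dvd_of_dvd hpd (primes_mul_dvd hq hs hsq.symm hqd hsd)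
    have hpqs : N H (p * (q * s)) = b := by
      have := key (G := H) hp (q * s) hpnd hall3
      rw [hqs, hap] at this
      have h' : (N H (p * (q * s)) : ZMod p) = 1 := by linear_combination this
      rcases hv (p * (q * s)) (by nlinarith [hp.two_le, hq.two_le, hs.two_le, Nat.mul_pos hq.pos hs.pos]) with h | h | h
      · exact absurd h (ne_zero_of_cast one_ne_zero h')
      · rw [h, hap] at h'
        exact absurd h' (neg_one_ne_one hp (ne2 p hp hpd))
      · exact h
    have hsnd : ¬ s ∣ p * q := fun h => by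
      rcases hs.dvd_mul.1 h with h | h
      · exact hsp ((Nat.prime_dvd_prime_iff_eq hs hp).1 h)
      · exact hsq ((Nat.prime_dvd_prime_iff_eq hs hq).1 h)
    have := key (G := H) hs (p * q) hsnd (by rwa [mul_comm, mul_assoc])
    rw [hpqb, show s * (p * q) = p * (q * s) by ring, hpqs, hbs] at this
    exact neg_one_ne_one hs (ne2 s hs hsd) (by linear_combination this)
  -- value of `b` modulo each prime
  have hb1 : ∀ s : ℕ, s.Prime → s ∣ Nat.card H → (b : ZMod s) = 1 := by
    intro s hs hsd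
    haveI : Fact s.Prime := ⟨hs⟩
    obtain ⟨t, ht, htd, hts⟩ : ∃ t : ℕ, t.Prime ∧ t ∣ Nat.card H ∧ t ≠ s := by
      by_cases h : s = p
      · exact ⟨q, hq, hqd, h ▸ hpq.symm⟩
      · exact ⟨p, hp, hpd, Ne.symm h⟩
    have := key (G := H) hs t (fun h => hts ((Nat.prime_dvd_prime_iff_eq hs ht).1 h).symm)
      (primes_mul_dvd hs ht hts.symm hsd htd)
    have has : (a : ZMod s) = -1 := hall s hs hsd ▸ N_prime hs hsd
    rw [hall t ht htd, has] at this
    have h' : (N H (s * t) : ZMod s) = 1 := by linear_combination this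
    rcases hv (s * t) (by nlinarith [hs.two_le, ht.two_le]) with h | h | h
    · exact absurd h (ne_zero_of_cast one_ne_zero h')
    · rw [h, has] at h'
      exact absurd h' (neg_one_ne_one hs (ne2 s hs hsd))
    · rwa [h] at h'
  have ha1 : ∀ s : ℕ, s.Prime → s ∣ Nat.card H → (a : ZMod s) = -1 :=
    fun s hs hsd => hall s hs hsd ▸ N_prime hs hsd
  -- element orders are squarefree
  have hsf : ∀ g : H, Squarefree (orderOf g) := by
    intro g
    rw [Nat.squarefree_iff_prime_squarefree]
    intro s hs hdvd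
    have hsd : s ∣ Nat.card H := (dvd_mul_right s s).trans (hdvd.trans (orderOf_dvd_natCard g))
    haveI : Fact s.Prime := ⟨hs⟩
    have hne : N H (orderOf g) ≠ 0 := by
      rw [N, Nat.card_ne_zero]; exact ⟨⟨⟨g, rfl⟩⟩, inferInstance⟩
    have hdvdN : (N H (orderOf g) : ZMod s) = 0 := by
      rw [ZMod.natCast_eq_zero_iff]
      refine dvd_trans ?_ (totient_dvd _)
      refine dvd_trans ?_ (Nat.totient_dvd_of_dvd hdvd)
      rw [← pow_two, Nat.totient_prime_pow hs two_pos]
      simp
    have h1 : 1 < orderOf g := by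
      have := Nat.le_of_dvd (orderOf_pos g) hdvd
      nlinarith [hs.two_le]
    rcases hv _ h1 with h | h | h
    · exact hne h
    · rw [h, ha1 s hs hsd] at hdvdN; simp at hdvdN
    · rw [h, hb1 s hs hsd] at hdvdN; simp at hdvdN
  set S : Finset ℕ := (Nat.card H).primeFactors with hS
  have hSp : ∀ s ∈ S, s.Prime ∧ s ∣ Nat.card H := fun s hs =>
    ⟨Nat.prime_of_mem_primeFactors hs, Nat.dvd_of_mem_primeFactors hs⟩
  have hprod : ∀ T : Finset ℕ, T ⊆ S → T.Nonempty →
      2 * (N H (∏ i ∈ T, i) : ℤ) = (a + b) + ((b : ℤ) - a) * (-1) ^ T.card := by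
    intro T
    induction T using Finset.induction_on with
    | empty => intro _ h; exact absurd h Finset.not_nonempty_empty
    | @insert s T hsT ih =>
      intro hsub _
      obtain ⟨hs, hsd⟩ := hSp s (hsub (Finset.mem_insert_self s T))
      haveI : Fact s.Prime := ⟨hs⟩
      have hTS : T ⊆ S := (Finset.subset_insert s T).trans hsub
      rw [Finset.prod_insert hsT, Finset.card_insert_of_notMem hsT, pow_succ]
      rcases T.eq_empty_or_nonempty with rfl | hT
      · simp [hall s hs hsd]; ring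
      have hnd : ¬ s ∣ ∏ i ∈ T, i := by
        intro h
        obtain ⟨i, hi, hdi⟩ := (hs.prime.dvd_finset_prod_iff _).1 h
        exact hsT (((Nat.prime_dvd_prime_iff_eq hs (hSp i (hTS hi)).1).1 hdi) ▸ hi)
      have hdd : s * ∏ i ∈ T, i ∣ Nat.card H := by
        rw [← Finset.prod_insert (f := fun i => i) hsT]
        refine dvd_trans ?_ (Nat.prod_primeFactors_dvd _)
        exact Finset.prod_dvd_prod_of_subset _ _ _ hsub
      have h1 : 1 < s * ∏ i ∈ T, i := by
        have : 0 < ∏ i ∈ T, i := Finset.prod_pos fun i hi => (hSp i (hTS hi)).1.pos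
        nlinarith [hs.two_le]
      have := key (G := H) hs _ hnd hdd
      have ih' := ih hTS hT
      rcases neg_one_pow_eq_or ℤ T.card with he | he
      · have hNT : N H (∏ i ∈ T, i) = b := by
          rw [he] at ih'; omega
        rw [hNT, hb1 s hs hsd] at this
        have h' : (N H (s * ∏ i ∈ T, i) : ZMod s) = -1 := by linear_combination this
        rcases hv _ h1 with h | h | h
        · exact absurd h (ne_zero_of_cast (by simp) h')
        · rw [h, he]; ring
        · rw [h, hb1 s hs hsd] at h'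
          exact absurd h'.symm (neg_one_ne_one hs (ne2 s hs hsd))
      · have hNT : N H (∏ i ∈ T, i) = a := by
          rw [he] at ih'; omega
        rw [hNT, ha1 s hs hsd] at this
        have h' : (N H (s * ∏ i ∈ T, i) : ZMod s) = 1 := by linear_combination this
        rcases hv _ h1 with h | h | h
        · exact absurd h (ne_zero_of_cast one_ne_zero h')
        · rw [h, ha1 s hs hsd] at h'
          exact absurd h' (neg_one_ne_one hs (ne2 s hs hsd))
        · rw [h, he]; ring
  -- the number of elements of order divisible by a prime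
  have hW : ∀ s ∈ S, ordCompl[s] (Nat.card H) ∣ a + b := by
    intro s hsS
    obtain ⟨hs, hsd⟩ := hSp s hsS
    set n := ordCompl[s] (Nat.card H) with hn
    set U : Finset H := Finset.univ.filter fun g : H => s ∣ orderOf g with hU
    have hnd : n ∣ U.card := by
      have h := Cfsg.Agent.S4212.frobenius_central _ H rfl n 1 (Subgroup.one_mem _)
      rw [Nat.gcd_eq_left (Nat.ordCompl_dvd _ s)] at h
      have he : Nat.card {x : H // x ^ n = 1} = Uᶜ.card := by
        rw [Nat.card_eq_fintype_card, Fintype.card_subtype]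
        congr 1
        ext g
        simp only [hU, Finset.mem_compl, Finset.mem_filter, Finset.mem_univ, true_and, ← orderOf_dvd_iff_pow_eq_one]
        refine ⟨fun hg hsg => Nat.not_dvd_ordCompl hs Nat.card_pos.ne' (hsg.trans hg), fun hg => ?_⟩
        exact Nat.dvd_ordCompl_of_dvd_not_dvd (orderOf_dvd_natCard g) hg
      rw [he] at h
      have hHn : n ∣ U.card + Uᶜ.card := by
        rw [Finset.card_add_card_compl, ← Nat.card_eq_fintype_card]
        exact Nat.ordCompl_dvd _ s
      exact (Nat.dvd_add_left h).1 hHn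
    have hsum : U.card = ∑ T ∈ (S.erase s).powerset, N H (∏ i ∈ insert s T, i) := by
      have hm : ∀ g : H, (orderOf g).primeFactors ⊆ S := fun g =>
        Nat.primeFactors_mono (orderOf_dvd_natCard g) Nat.card_pos.ne'
      rw [Finset.card_eq_sum_card_fiberwise (f := fun g : H => (orderOf g).primeFactors.erase s)
        (t := (S.erase s).powerset) (fun g _ => Finset.mem_powerset.2 (Finset.erase_subset_erase s (hm g)))]
      refine Finset.sum_congr rfl fun T hT => ?_
      rw [Finset.mem_powerset] at hT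
      rw [N_eq]
      congr 1
      ext g
      simp only [hU, Finset.mem_filter, Finset.mem_univ, true_and]
      constructor
      · rintro ⟨hsg, rfl⟩
        rw [Finset.insert_erase (Nat.mem_primeFactors.2 ⟨hs, hsg, (orderOf_pos g).ne'⟩),
          Nat.prod_primeFactors_of_squarefree (hsf g)]
      · intro hg
        have hpf : (orderOf g).primeFactors = insert s T := by
          rw [hg]
          exact Nat.primeFactors_prod fun i hi => by
            rcases Finset.mem_insert.1 hi with rfl | hi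
            · exact hs
            · exact (hSp i (Finset.mem_of_mem_erase (hT hi))).1
        refine ⟨(Nat.dvd_of_mem_primeFactors (hpf ▸ Finset.mem_insert_self s T)), ?_⟩
        rw [hpf, Finset.erase_insert]
        exact fun h => Finset.notMem_erase s S (hT h)
    have h2 : 2 * (U.card : ℤ) = 2 ^ (S.erase s).card * ((a : ℤ) + b) := by
      rw [hsum, Nat.cast_sum, Finset.mul_sum]
      have : ∀ T ∈ (S.erase s).powerset, 2 * (N H (∏ i ∈ insert s T, i) : ℤ)
          = ((a : ℤ) + b) + (-((b : ℤ) - a)) * (-1) ^ T.card := by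
        intro T hT
        rw [Finset.mem_powerset] at hT
        rw [hprod _ (Finset.insert_subset hsS (hT.trans (Finset.erase_subset s S))) ⟨s, Finset.mem_insert_self s T⟩,
          Finset.card_insert_of_notMem (fun h => Finset.notMem_erase s S (hT h)), pow_succ]
        ring
      rw [Finset.sum_congr rfl this, Finset.sum_add_distrib, Finset.sum_const, ← Finset.mul_sum,
        Finset.sum_powerset_neg_one_pow_card_of_nonempty, Finset.card_powerset]
      · simp
      · by_cases h : s = p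
        · exact ⟨q, Finset.mem_erase.2 ⟨h ▸ hpq.symm, Nat.mem_primeFactors.2 ⟨hq, hqd, Nat.card_pos.ne'⟩⟩⟩
        · exact ⟨p, Finset.mem_erase.2 ⟨Ne.symm h, Nat.mem_primeFactors.2 ⟨hp, hpd, Nat.card_pos.ne'⟩⟩⟩
    have h3 : 2 * U.card = 2 ^ (S.erase s).card * (a + b) := by exact_mod_cast h2
    have hcop : n.Coprime (2 ^ (S.erase s).card) :=
      (((Nat.prime_two.coprime_iff_not_dvd).2 fun h => ne2 2 Nat.prime_two (h.trans (Nat.ordCompl_dvd _ s)) rfl).symm).pow_right _
    exact hcop.dvd_of_dvd_mul_left (h3 ▸ hnd.mul_left 2)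
  have hpS : p ∈ S := Nat.mem_primeFactors.2 ⟨hp, hpd, Nat.card_pos.ne'⟩
  have hqS : q ∈ S := Nat.mem_primeFactors.2 ⟨hq, hqd, Nat.card_pos.ne'⟩
  have hdiv : Nat.card H ∣ a + b := by
    have h1 : ordProj[p] (Nat.card H) ∣ ordCompl[q] (Nat.card H) := by
      refine Nat.dvd_ordCompl_of_dvd_not_dvd (Nat.ordProj_dvd _ p) fun h => hpq ?_
      exact ((Nat.prime_dvd_prime_iff_eq hq hp).1 (hq.dvd_of_dvd_pow h)).symm
    conv_lhs => rw [← Nat.ordProj_mul_ordCompl_eq_self (Nat.card H) p]
    exact ((Nat.coprime_ordCompl hp Nat.card_pos.ne').pow_left _).mul_dvd_of_dvd_of_dvd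
      (h1.trans (hW q hqS)) (hW p hpS)
  have hlt : 1 + a + b ≤ Nat.card H := by
    have h := Finset.card_le_univ (((Finset.univ.filter fun g : H => orderOf g = 1) ∪
      (Finset.univ.filter fun g : H => orderOf g = p)) ∪ (Finset.univ.filter fun g : H => orderOf g = p * q))
    rw [Finset.card_union_of_disjoint, Finset.card_union_of_disjoint, ← N_eq, ← N_eq, ← N_eq, N_one, ha, hpqb,
      ← Nat.card_eq_fintype_card] at h
    · exact h
    · rw [Finset.disjoint_filter]
      intro g _ h1 h2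
      exact hp.one_lt.ne' (h2.symm.trans h1)
    · rw [Finset.disjoint_union_left, Finset.disjoint_filter, Finset.disjoint_filter]
      refine ⟨fun g _ h1 h2 => ?_, fun g _ h1 h2 => ?_⟩
      · have : 1 = p * q := h1.symm.trans h2
        nlinarith [hp.two_le, hq.two_le]
      · have : p = p * q := h1.symm.trans h2
        nlinarith [hp.two_le, hq.two_le]
  have ha0 : a ≠ 0 := ne_zero_of_cast (by simp) hap
  exact absurd (Nat.le_of_dvd (by omega) hdiv) (by omega)

/-- Odd order groups with two values. -/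
lemma odd_solvable {H : Type u} [Group H] [Finite H] (hodd : Odd (Nat.card H)) (a b : ℕ)
    (hv : ∀ m : ℕ, Odd m → 1 < m → N H m = 0 ∨ N H m = a ∨ N H m = b) : Group.IsSolvable H := by
  have hv' : ∀ m : ℕ, 1 < m → N H m = 0 ∨ N H m = a ∨ N H m = b := by
    intro m hm
    by_cases h : N H m = 0
    · exact Or.inl h
    obtain ⟨g, rfl⟩ := N_ne_zero h
    exact hv _ (hodd.of_dvd_nat (orderOf_dvd_natCard g)) hm
  have hval : ∀ s : ℕ, s.Prime → s ∣ Nat.card H → N H s = a ∨ N H s = b := fun s hs hsd => by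
    haveI : Fact s.Prime := ⟨hs⟩
    exact (hv' s hs.one_lt).resolve_left (ne_zero_of_cast (by simp) (N_prime hs hsd))
  obtain ⟨p, q, hp, hq, hcov⟩ : ∃ p q : ℕ, p.Prime ∧ q.Prime ∧
      ∀ r : ℕ, r.Prime → r ∣ Nat.card H → r = p ∨ r = q := by
    have hA : ∀ p q : ℕ, p.Prime → q.Prime → p ∣ Nat.card H → q ∣ Nat.card H → p ≠ q → N H p ≠ N H q := by
      intro p q hp hq hpd hqd hpq he
      rcases hval p hp hpd with h | h
      · exact odd_three hodd a b hv' hp hq hpq hpd hqd h (he ▸ h)
      · exact odd_three hodd b a (fun m hm => (hv' m hm).imp_right Or.symm) hp hq hpq hpd hqd h (he ▸ h)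
    by_cases h1 : ∃ p : ℕ, p.Prime ∧ p ∣ Nat.card H ∧ N H p = a
    · obtain ⟨p, hp, hpd, hpa⟩ := h1
      by_cases h2 : ∃ q : ℕ, q.Prime ∧ q ∣ Nat.card H ∧ N H q = b
      · obtain ⟨q, hq, hqd, hqb⟩ := h2
        refine ⟨p, q, hp, hq, fun r hr hrd => ?_⟩
        by_contra hcon
        push Not at hcon
        rcases hval r hr hrd with h | h
        · exact hA r p hr hp hrd hpd hcon.1 (h.trans hpa.symm)
        · exact hA r q hr hq hrd hqd hcon.2 (h.trans hqb.symm)
      · refine ⟨p, p, hp, hp, fun r hr hrd => Or.inl ?_⟩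
        by_contra hne
        rcases hval r hr hrd with h | h
        · exact hA r p hr hp hrd hpd hne (h.trans hpa.symm)
        · exact h2 ⟨r, hr, hrd, h⟩
    · by_cases h2 : ∃ q : ℕ, q.Prime ∧ q ∣ Nat.card H ∧ N H q = b
      · obtain ⟨q, hq, hqd, hqb⟩ := h2
        refine ⟨q, q, hq, hq, fun r hr hrd => Or.inl ?_⟩
        by_contra hne
        rcases hval r hr hrd with h | h
        · exact h1 ⟨r, hr, hrd, h⟩
        · exact hA r q hr hq hrd hqd hne (h.trans hqb.symm)
      · refine ⟨2, 2, Nat.prime_two, Nat.prime_two, fun r hr hrd => ?_⟩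
        rcases hval r hr hrd with h | h
        · exact absurd ⟨r, hr, hrd, h⟩ h1
        · exact absurd ⟨r, hr, hrd, h⟩ h2
  exact isSolvable_of_card_eq_two_primes hp hq _ H rfl hcov

/-- The case of a group whose number of involutions is one and whose order is twice an odd number. -/
lemma twice_odd {G : Type u} [Group G] [Finite G] (h2 : 2 ∣ Nat.card G) (h4 : ¬ 4 ∣ Nat.card G) (hz : N G 2 = 1)
    (a b : ℕ) (hv : ∀ m : ℕ, Odd m → 1 < m → N G m = 0 ∨ N G m = a ∨ N G m = b) : Group.IsSolvable G := by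
  obtain ⟨hsub, ⟨⟨z, hzo⟩⟩⟩ := Nat.card_eq_one_iff_unique.1 hz
  have huniq : ∀ w : G, orderOf w = 2 → w = z := fun w hw =>
    congrArg Subtype.val (@Subsingleton.elim _ hsub ⟨w, hw⟩ ⟨z, hzo⟩)
  have hcen : ∀ g : G, Commute g z := fun g => by
    have : g * z * g⁻¹ = z := huniq _ (by
      rw [← MulAut.conj_apply, MulEquiv.orderOf_eq, hzo])
    exact mul_inv_eq_iff_eq_mul.1 this
  set Z : Subgroup G := Subgroup.zpowers z with hZ
  haveI hZn : Z.Normal := ⟨fun n hn g => by
    obtain ⟨k, rfl⟩ := Subgroup.mem_zpowers_iff.1 hn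
    rw [((hcen g).zpow_right k).eq, mul_inv_cancel_right]
    exact hn⟩
  have hcardZ : Nat.card Z = 2 := by rw [hZ, Nat.card_zpowers, hzo]
  have hoddQ : Odd (Nat.card (G ⧸ Z)) := by
    rw [← Nat.not_even_iff_odd, even_iff_two_dvd]
    intro h
    apply h4
    rw [Subgroup.card_eq_card_quotient_mul_card_subgroup Z, hcardZ]
    exact mul_dvd_mul h (dvd_refl 2)
  have hmemZ : ∀ w : G, w ∈ Z → w = 1 ∨ w = z := by
    intro w hw
    have h : orderOf w ∣ 2 := hzo ▸ orderOf_dvd_of_mem_zpowers hw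
    rcases (Nat.dvd_prime Nat.prime_two).1 h with h | h
    · exact Or.inl (orderOf_eq_one_iff.1 h)
    · exact Or.inr (huniq w h)
  have hN : ∀ m : ℕ, Odd m → N (G ⧸ Z) m = N G m := by
    intro m hm
    refine (Nat.card_congr (Equiv.ofBijective (fun g : {g : G // orderOf g = m} =>
      (⟨((g : G) : G ⧸ Z), ?_⟩ : {x : G ⧸ Z // orderOf x = m})) ⟨?_, ?_⟩)).symm
    · have hd : orderOf ((g : G) : G ⧸ Z) ∣ m := by
        conv_rhs => rw [← g.2]
        exact orderOf_map_dvd (QuotientGroup.mk' Z) (g : G)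
      refine Nat.dvd_antisymm hd ?_
      have hmem : (g : G) ^ orderOf ((g : G) : G ⧸ Z) ∈ Z := by
        rw [← QuotientGroup.eq_one_iff, QuotientGroup.mk_pow, pow_orderOf_eq_one]
      have h2' : (g : G) ^ (orderOf ((g : G) : G ⧸ Z) * 2) = 1 := by
        rw [pow_mul]
        rcases hmemZ _ hmem with h | h
        · rw [h, one_pow]
        · rw [h, ← hzo, pow_orderOf_eq_one]
      have := orderOf_dvd_of_pow_eq_one h2'
      rw [g.2] at this
      exact ((Nat.coprime_two_right.2 hm)).dvd_of_dvd_mul_right this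
    · rintro ⟨g, hg⟩ ⟨h, hh⟩ he
      simp only [Subtype.mk.injEq] at he ⊢
      rw [QuotientGroup.eq] at he
      rcases hmemZ _ he with h1 | h1
      · exact inv_mul_eq_one.1 h1
      · exfalso
        have h3 : h = g * z := by rw [← h1, mul_inv_cancel_left]
        have h4 : orderOf h = m * 2 := by
          rw [h3, (hcen g).orderOf_mul_eq_mul_orderOf_of_coprime, hg, hzo]
          rw [hg, hzo]; exact Nat.coprime_two_right.2 hm
        rw [hh] at h4
        have := hm.pos
        omega
    · rintro ⟨x, hx⟩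
      obtain ⟨g, rfl⟩ := QuotientGroup.mk_surjective x
      have hgm : g ^ m ∈ Z := by
        rw [← QuotientGroup.eq_one_iff, QuotientGroup.mk_pow, ← hx, pow_orderOf_eq_one]
      obtain ⟨g', hg', hpow⟩ : ∃ g' : G, (g' : G ⧸ Z) = g ∧ g' ^ m = 1 := by
        rcases hmemZ _ hgm with h | h
        · exact ⟨g, rfl, h⟩
        · refine ⟨g * z, ?_, ?_⟩
          · rw [QuotientGroup.mk_mul, (QuotientGroup.eq_one_iff z).2 (Subgroup.mem_zpowers z), mul_one]
          · rw [(hcen g).mul_pow, h]
            obtain ⟨k, rfl⟩ := hm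
            rw [← pow_succ', show 2 * k + 1 + 1 = 2 * (k + 1) by ring, pow_mul, ← hzo, pow_orderOf_eq_one, one_pow]
      refine ⟨⟨g', Nat.dvd_antisymm (orderOf_dvd_of_pow_eq_one hpow) ?_⟩, Subtype.ext hg'⟩
      rw [← hx, ← hg']
      exact orderOf_map_dvd (QuotientGroup.mk' Z) g'
  haveI : Group.IsSolvable (G ⧸ Z) :=
    odd_solvable hoddQ a b fun m hm h1 => by rw [hN m hm]; exact hv m hm h1
  exact solvable_of_ker_le_range Z.subtype (QuotientGroup.mk' Z)
    (by rw [QuotientGroup.ker_mk', Subgroup.range_subtype])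

/-- Order divisible by four, one involution. -/
lemma four_case {G : Type u} [Group G] [Finite G] (h4 : 4 ∣ Nat.card G) (hz : N G 2 = 1) (a b : ℕ)
    (hv : ∀ m : ℕ, 2 < m → N G m = 0 ∨ N G m = a ∨ N G m = b) (ha : a % 4 = 2) (hN4 : N G 4 = a) :
    Group.IsSolvable G := by
  apply solvable_of_one_odd
  intro p q hp hq hp2 hq2 hpd hqd hpq
  haveI : Fact p.Prime := ⟨hp⟩
  haveI : Fact q.Prime := ⟨hq⟩
  have h4v : ∀ m : ℕ, 2 < m → 4 ∣ m.totient → N G m = 0 ∨ N G m = b := by
    intro m hm hd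
    rcases hv m hm with h | h | h
    · exact Or.inl h
    · have := hd.trans (totient_dvd (G := G) m)
      omega
    · exact Or.inr h
  have c4 : ∀ r : ℕ, r.Prime → r ≠ 2 → ¬ r ∣ 4 := fun r hr hr2 h =>
    hr2 ((Nat.prime_dvd_prime_iff_eq hr Nat.prime_two).1 (hr.dvd_of_dvd_pow (n := 2) (by norm_num; exact h)))
  have t4 : ∀ r : ℕ, r.Prime → r ≠ 2 → 4 ∣ (r * 4).totient := by
    intro r hr hr2
    rw [Nat.totient_mul ((hr.coprime_iff_not_dvd).2 (c4 r hr hr2)), Nat.totient_prime hr,
      show Nat.totient 4 = 2 by decide]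
    obtain ⟨k, hk⟩ := hr.odd_of_ne_two hr2
    exact ⟨k, by omega⟩
  have even' : ∀ r : ℕ, r.Prime → r ≠ 2 → 2 ∣ r - 1 := fun r hr hr2 => by
    obtain ⟨k, hk⟩ := hr.odd_of_ne_two hr2
    exact ⟨k, by omega⟩
  have tpq : 4 ∣ (p * q).totient := by
    rw [Nat.totient_mul ((Nat.coprime_primes hp hq).2 hpq), Nat.totient_prime hp, Nat.totient_prime hq]
    exact mul_dvd_mul (even' p hp hp2) (even' q hq hq2)
  have lt4 : ∀ r : ℕ, r.Prime → 2 < r * 4 := fun r hr => by have := hr.two_le; omega
  have dvd4 : ∀ r : ℕ, r.Prime → r ≠ 2 → r ∣ Nat.card G → r * 4 ∣ Nat.card G := fun r hr hr2 hrd =>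
    ((hr.coprime_iff_not_dvd).2 (c4 r hr hr2)).mul_dvd_of_dvd_of_dvd hrd h4
  -- a prime with value `a` makes `b` congruent to one
  have hA : ∀ r : ℕ, r.Prime → r ≠ 2 → r ∣ Nat.card G → N G r = a →
      N G (r * 4) = b ∧ (b : ZMod r) = 1 := by
    intro r hr hr2 hrd hra
    haveI : Fact r.Prime := ⟨hr⟩
    have := key (G := G) hr 4 (c4 r hr hr2) (dvd4 r hr hr2 hrd)
    have har : (a : ZMod r) = -1 := hra ▸ N_prime hr hrd
    rw [hN4, har] at this
    have h' : (N G (r * 4) : ZMod r) = 1 := by linear_combination this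
    rcases h4v _ (lt4 r hr) (t4 r hr hr2) with h | h
    · exact absurd h (ne_zero_of_cast one_ne_zero h')
    · exact ⟨h, by rwa [h] at h'⟩
  have hval : ∀ r : ℕ, r.Prime → r ≠ 2 → r ∣ Nat.card G → N G r = a ∨ N G r = b := fun r hr hr2 hrd => by
    haveI : Fact r.Prime := ⟨hr⟩
    exact (hv r (two_lt_of_odd_prime hr hr2)).resolve_left (ne_zero_of_cast (by simp) (N_prime hr hrd))
  have hbb : ∀ r s : ℕ, r.Prime → s.Prime → r ≠ 2 → r ∣ Nat.card G → s ∣ Nat.card G → r ≠ s →
      4 ∣ (r * s).totient → N G s = b → N G r = a ∨ N G r = b → s ≠ 2 → False := by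
    intro r s hr hs hr2 hrd hsd hrs ht hsb hrv _
    haveI : Fact r.Prime := ⟨hr⟩
    have := key (G := G) hr s (fun h => hrs ((Nat.prime_dvd_prime_iff_eq hr hs).1 h))
      (primes_mul_dvd hr hs hrs hrd hsd)
    have hlt : 2 < r * s := by nlinarith [hr.two_le, hs.two_le]
    rw [hsb] at this
    rcases hrv with hra | hrb
    · obtain ⟨-, hb1⟩ := hA r hr hr2 hrd hra
      rw [hb1] at this
      have h' : (N G (r * s) : ZMod r) = -1 := by linear_combination this
      rcases h4v _ hlt ht with h | h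
      · exact absurd h (ne_zero_of_cast (by simp) h')
      · rw [h, hb1] at h'
        exact neg_one_ne_one hr hr2 h'.symm
    · have hbr : (b : ZMod r) = -1 := hrb ▸ N_prime hr hrd
      rw [hbr] at this
      have h' : (N G (r * s) : ZMod r) = 1 := by linear_combination this
      rcases h4v _ hlt ht with h | h
      · exact absurd h (ne_zero_of_cast one_ne_zero h')
      · rw [h, hbr] at h'
        exact neg_one_ne_one hr hr2 h'
  rcases hval q hq hq2 hqd with hqa | hqb
  swap
  · exact hbb p q hp hq hp2 hpd hqd hpq tpq hqb (hval p hp hp2 hpd) hq2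
  rcases hval p hp hp2 hpd with hpa | hpb
  swap
  · exact hbb q p hq hp hq2 hqd hpd hpq.symm (by rwa [mul_comm]) hpb (Or.inl hqa) hp2
  obtain ⟨-, hb1⟩ := hA p hp hp2 hpd hpa
  obtain ⟨hq4, -⟩ := hA q hq hq2 hqd hqa
  have hnd : ¬ p ∣ q * 4 := fun h => by
    rcases hp.dvd_mul.1 h with h | h
    · exact hpq ((Nat.prime_dvd_prime_iff_eq hp hq).1 h)
    · exact c4 p hp hp2 h
  have := key (G := G) hp (q * 4) hnd
    (((hp.coprime_iff_not_dvd).2 hnd).mul_dvd_of_dvd_of_dvd hpd (dvd4 q hq hq2 hqd))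
  rw [hq4, hb1] at this
  have h' : (N G (p * (q * 4)) : ZMod p) = -1 := by linear_combination this
  have hlt : 2 < p * (q * 4) := by nlinarith [hp.two_le, hq.two_le]
  have ht : 4 ∣ (p * (q * 4)).totient := (t4 q hq hq2).trans (Nat.totient_dvd_of_dvd (dvd_mul_left _ _))
  rcases h4v _ hlt ht with h | h
  · exact ne_zero_of_cast (by simp) h' h
  · rw [h, hb1] at h'
    exact neg_one_ne_one hp hp2 h'.symm

theorem aux {G : Type u} [Group G] [Finite G]
    (h : (((fun m : ℕ => N G m) '' Set.range (orderOf : G → ℕ))).ncard = 3) : Group.IsSolvable G := by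
  set V := (fun m : ℕ => N G m) '' Set.range (orderOf : G → ℕ) with hV
  have h1V : 1 ∈ V := ⟨1, ⟨1, orderOf_one⟩, N_one⟩
  obtain ⟨a, b, hab, hVab⟩ := Set.ncard_eq_two.1 (show (V \ {1}).ncard = 2 by
    rw [Set.ncard_diff_singleton_of_mem h1V, h])
  have hval : ∀ m, N G m = 0 ∨ N G m = 1 ∨ N G m = a ∨ N G m = b := by
    intro m
    by_cases h0 : N G m = 0
    · exact Or.inl h0
    obtain ⟨g, hg⟩ := N_ne_zero h0
    by_cases h1 : N G m = 1
    · exact Or.inr (Or.inl h1)
    right; right
    have : N G m ∈ V \ {1} := ⟨⟨m, ⟨g, hg⟩, rfl⟩, h1⟩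
    rw [hVab] at this
    simpa using this
  have hev : ∀ m : ℕ, 2 < m → 2 ∣ N G m := fun m hm =>
    (even_iff_two_dvd.1 (Nat.totient_even hm)).trans (totient_dvd m)
  have hv3 : ∀ m : ℕ, 2 < m → N G m = 0 ∨ N G m = a ∨ N G m = b := fun m hm => by
    rcases hval m with h | h | h | h
    · exact Or.inl h
    · have := hev m hm; omega
    · exact Or.inr (Or.inl h)
    · exact Or.inr (Or.inr h)
  have hvodd : ∀ m : ℕ, Odd m → 1 < m → N G m = 0 ∨ N G m = a ∨ N G m = b := fun m hm h1 =>
    hv3 m (by obtain ⟨k, rfl⟩ := hm; omega)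
  by_cases h2 : 2 ∣ Nat.card G
  swap
  · exact odd_solvable (Nat.odd_iff.2 (Nat.two_dvd_ne_zero.1 h2)) a b hvodd
  have hN2 : (N G 2 : ZMod 2) = -1 := N_prime Nat.prime_two h2
  have hN2odd : N G 2 % 2 = 1 := by
    have : (N G 2 : ZMod 2) = ((1 : ℕ) : ZMod 2) := by rw [hN2]; decide
    rw [ZMod.natCast_eq_natCast_iff'] at this
    exact this
  by_cases hone : N G 2 = 1
  · by_cases h4 : 4 ∣ Nat.card G
    swap
    · exact twice_odd h2 h4 hone a b hvodd
    have hs := dvd_sum_N (G := G) h4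
    rw [show Nat.divisors 4 = {1, 2, 4} by decide, Finset.sum_insert (by decide),
      Finset.sum_insert (by decide), Finset.sum_singleton, N_one, hone] at hs
    rcases hv3 4 (by norm_num) with h0 | ha | hb
    · rw [h0] at hs; omega
    · exact four_case h4 hone a b hv3 (by rw [ha] at hs; omega) ha
    · exact four_case h4 hone b a (fun m hm => (hv3 m hm).imp_right Or.symm) (by rw [hb] at hs; omega) hb
  -- more than one involution
  obtain ⟨c, hc⟩ : ∃ c, ∀ m : ℕ, 2 < m → N G m = 0 ∨ N G m = c := by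
    rcases hval 2 with h0 | h1 | ha | hb
    · omega
    · exact absurd h1 hone
    · refine ⟨b, fun m hm => ?_⟩
      rcases hv3 m hm with h | h | h
      · exact Or.inl h
      · have := hev m hm; omega
      · exact Or.inr h
    · refine ⟨a, fun m hm => ?_⟩
      rcases hv3 m hm with h | h | h
      · exact Or.inl h
      · exact Or.inr h
      · have := hev m hm; omega
  apply solvable_of_one_odd
  intro p q hp hq hp2 hq2 hpd hqd hpq
  haveI : Fact p.Prime := ⟨hp⟩
  haveI : Fact q.Prime := ⟨hq⟩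
  have hpc : N G p = c :=
    (hc p (two_lt_of_odd_prime hp hp2)).resolve_left (ne_zero_of_cast (by simp) (N_prime hp hpd))
  have hqc : N G q = c :=
    (hc q (two_lt_of_odd_prime hq hq2)).resolve_left (ne_zero_of_cast (by simp) (N_prime hq hqd))
  have := key (G := G) hp q (fun h => hpq ((Nat.prime_dvd_prime_iff_eq hp hq).1 h))
    (primes_mul_dvd hp hq hpq hpd hqd)
  have hcp : (c : ZMod p) = -1 := hpc ▸ N_prime hp hpd
  rw [hqc, hcp] at this
  have h' : (N G (p * q) : ZMod p) = 1 := by linear_combination this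
  rcases hc (p * q) (by nlinarith [hp.two_le, hq.two_le]) with h | h
  · exact ne_zero_of_cast one_ne_zero h' h
  · rw [h, hcp] at h'
    exact neg_one_ne_one hp hp2 h'

theorem result {G : Type*} [Group G] [Finite G] (h : (((fun m : ℕ => Nat.card {g : G // orderOf g = m}) '' Set.range (orderOf : G → ℕ))).ncard = 3) : Group.IsSolvable G :=
  aux h

end Cfsg.Agent.S3996
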