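import Cfsg.Statements.S3431
import Mathlib
import Cfsg.Agent.S3996
import Cfsg.Agent.Lib.SmallSimple.Basic
import Cfsg.Agent.Lib.PSLTwo.RecogNine

set_option autoImplicit false
set_option linter.style.haveILetI false

namespace Cfsg.Agent.S3431

open Cfsg.Agent.S3996 (N N_one N_ne_zero dvd_sum_N totient_dvd N_eq)

universe u v

/-- The set of values of the counting function. -/
def nseSet (G : Type*) [Group G] : Set ℕ :=
  (fun m : ℕ => Nat.card {g : G // orderOf g = m}) '' Set.range (orderOf : G → ℕ)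

section General

variable {G : Type*} [Group G] [Finite G]

lemma N_ne (g : G) : N G (orderOf g) ≠ 0 := by
  rw [N, Nat.card_ne_zero]
  exact ⟨⟨⟨g, rfl⟩⟩, inferInstance⟩

lemma mem_nse {m : ℕ} (h : N G m ≠ 0) : N G m ∈ nseSet G := by
  obtain ⟨g, rfl⟩ := N_ne_zero h
  exact ⟨orderOf g, ⟨g, rfl⟩, rfl⟩

lemma nse_mem {v : ℕ} (h : v ∈ nseSet G) : ∃ m, N G m = v ∧ v ≠ 0 := by
  obtain ⟨_, ⟨g, rfl⟩, rfl⟩ := h
  exact ⟨orderOf g, rfl, N_ne g⟩

lemma dvd_card_of_ne {m : ℕ} (h : N G m ≠ 0) : m ∣ Nat.card G := by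
  obtain ⟨g, rfl⟩ := N_ne_zero h
  exact orderOf_dvd_natCard g

lemma N_zero_of_dvd {d m : ℕ} (hd : d ∣ m) (h : N G d = 0) : N G m = 0 := by
  by_contra hm
  obtain ⟨g, rfl⟩ := N_ne_zero hm
  obtain ⟨k, hk⟩ := hd
  have hk0 : k ≠ 0 := by rintro rfl; exact absurd hk (by simpa using (orderOf_pos g).ne')
  apply N_ne (g ^ k)
  rw [orderOf_pow' g hk0, Nat.gcd_eq_right ⟨d, by rw [hk, mul_comm]⟩]
  conv_lhs => rw [hk, Nat.mul_div_cancel _ (Nat.pos_of_ne_zero hk0)]
  exact h

lemma even_N {m : ℕ} (h : 2 < m) : 2 ∣ N G m :=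
  (even_iff_two_dvd.1 (Nat.totient_even h)).trans (totient_dvd m)

/-- Elements with orders in a finite set. -/
lemma sum_le_card (s : Finset ℕ) : ∑ m ∈ s, N G m ≤ Nat.card G := by
  classical
  haveI := Fintype.ofFinite G
  have h : (Finset.univ.filter fun g : G => orderOf g ∈ s).card ≤ Nat.card G := by
    rw [Nat.card_eq_fintype_card]; exact Finset.card_le_univ _
  refine le_trans (le_of_eq ?_) h
  rw [Finset.card_eq_sum_card_fiberwise (f := fun g : G => orderOf g)
    (s := Finset.univ.filter fun g : G => orderOf g ∈ s) (t := s)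
    (fun g hg => (Finset.mem_filter.1 hg).2)]
  refine Finset.sum_congr rfl fun m hm => ?_
  rw [N_eq]
  congr 1
  ext g
  simp only [Finset.mem_filter, Finset.mem_univ, true_and]
  exact ⟨fun h => ⟨h ▸ hm, h⟩, fun h => h.2⟩

lemma orderOf_mem_of_sum_eq {s : Finset ℕ} (h : ∑ m ∈ s, N G m = Nat.card G) (g : G) : orderOf g ∈ s := by
  by_contra hg
  have h1 := sum_le_card (G := G) (insert (orderOf g) s)
  rw [Finset.sum_insert hg, h] at h1
  have := N_ne g
  omega

lemma pow_dvd_of_dvd {p k j n : ℕ} (hn : p ^ k ∣ n) (hj : ¬ p ^ (j + 1) ∣ n) : k ≤ j := by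
  by_contra hlt
  exact hj ((pow_dvd_pow p (by omega)).trans hn)

/-- Bounding a number through its prime powers. -/
lemma dvd_of_bounds {n a b c : ℕ} (hp : ∀ p : ℕ, p.Prime → p ∣ n → p = 2 ∨ p = 3 ∨ p = 5)
    (h2 : ¬ 2 ^ (a + 1) ∣ n) (h3 : ¬ 3 ^ (b + 1) ∣ n) (h5 : ¬ 5 ^ (c + 1) ∣ n) :
    n ∣ 2 ^ a * 3 ^ b * 5 ^ c := by
  rw [Nat.dvd_iff_prime_pow_dvd_dvd]
  intro p k hp' hk
  rcases Nat.eq_zero_or_pos k with rfl | hk0
  · simp
  rcases hp p hp' ((dvd_pow_self p hk0.ne').trans hk) with rfl | rfl | rfl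
  · exact (pow_dvd_pow 2 (pow_dvd_of_dvd hk h2)).trans ((dvd_mul_right _ _).trans (dvd_mul_right _ _))
  · exact (pow_dvd_pow 3 (pow_dvd_of_dvd hk h3)).trans ((dvd_mul_left _ _).trans (dvd_mul_right _ _))
  · exact (pow_dvd_pow 5 (pow_dvd_of_dvd hk h5)).trans (dvd_mul_left _ _)

/-- Prime divisors from Frobenius' congruence. -/
lemma prime_dvd_succ {p : ℕ} (hp : p.Prime) (h : p ∣ Nat.card G) : p ∣ N G p + 1 ∧ p - 1 ∣ N G p := by
  refine ⟨?_, Nat.totient_prime hp ▸ totient_dvd p⟩
  have h1 := dvd_sum_N (G := G) h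
  rw [hp.divisors, Finset.sum_insert (by simp [hp.ne_one.symm]), Finset.sum_singleton, N_one] at h1
  rwa [add_comm]

/-- A prime whose exact square divides the order, with an element of that order. -/
lemma root_of_prime_sq {p : ℕ} [hp : Fact p.Prime] (hd : p ^ 2 ∣ Nat.card G) (hd' : ¬ p ^ 3 ∣ Nat.card G)
    (y₀ : G) (hy : orderOf y₀ = p ^ 2) : p * N G p ≤ N G (p ^ 2) := by
  classical
  have hcard : ∀ P : Sylow p G, Nat.card (P : Subgroup G) = p ^ 2 := by
    intro P
    obtain ⟨k, hk⟩ := IsPGroup.iff_card.1 P.isPGroup'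
    have h1 : p ^ 2 ∣ Nat.card (P : Subgroup G) := P.pow_dvd_card_of_pow_dvd_card hd
    rw [hk] at h1 ⊢
    have h2 : p ^ k ∣ Nat.card G := hk ▸ Subgroup.card_subgroup_dvd_card _
    have h3 : 2 ≤ k := (Nat.pow_dvd_pow_iff_le_right hp.out.one_lt).1 h1
    have h4 : k ≤ 2 := pow_dvd_of_dvd h2 hd'
    rw [show k = 2 by omega]
  have hroot : ∀ x : G, orderOf x = p → ∃ y : G, y ^ p = x ∧ orderOf y = p ^ 2 := by
    intro x hx
    have hxp : IsPGroup p (Subgroup.zpowers x) :=
      IsPGroup.of_card (n := 1) (by rw [Nat.card_zpowers, hx, pow_one])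
    obtain ⟨P, hP⟩ := hxp.exists_le_sylow
    have hy0p : IsPGroup p (Subgroup.zpowers y₀) :=
      IsPGroup.of_card (n := 2) (by rw [Nat.card_zpowers, hy])
    obtain ⟨Q, hQ⟩ := hy0p.exists_le_sylow
    have hQeq : Subgroup.zpowers y₀ = (Q : Subgroup G) :=
      Subgroup.eq_of_le_of_card_ge hQ (by rw [hcard Q, Nat.card_zpowers, hy])
    obtain ⟨g, hg⟩ := MulAction.exists_smul_eq G Q P
    have hxP : x ∈ (P : Subgroup G) := hP (Subgroup.mem_zpowers x)
    rw [← hg, Sylow.coe_subgroup_smul, Subgroup.mem_pointwise_smul_iff_inv_smul_mem, ← hQeq,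
      mem_zpowers_iff_mem_range_orderOf] at hxP
    simp only [Finset.mem_image, Finset.mem_range] at hxP
    obtain ⟨j, -, hj⟩ := hxP
    have hx' : x = MulAut.conj g (y₀ ^ j) := by
      rw [hj, MulAut.smul_def, MulAut.inv_apply, MulEquiv.apply_symm_apply]
    have hjp : y₀ ^ (j * p) = 1 := by
      rw [pow_mul]
      apply (MulAut.conj g).injective
      rw [map_one, map_pow, ← hx', ← hx, pow_orderOf_eq_one]
    have hdj : p ∣ j := by
      have h1 := orderOf_dvd_of_pow_eq_one hjp
      rw [hy, pow_two] at h1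
      exact Nat.dvd_of_mul_dvd_mul_right hp.out.pos h1
    obtain ⟨i, rfl⟩ := hdj
    refine ⟨MulAut.conj g (y₀ ^ i), ?_, ?_⟩
    · rw [hx', ← map_pow, ← pow_mul, mul_comm]
    · have hyx : MulAut.conj g (y₀ ^ i) ^ p = x := by rw [hx', ← map_pow, ← pow_mul, mul_comm]
      refine orderOf_eq_prime_pow ?_ ?_
      · rw [pow_one, hyx]; intro h; rw [h, orderOf_one] at hx; exact hp.out.one_lt.ne hx
      · rw [← map_pow, ← pow_mul, mul_comm, pow_mul, ← hy, pow_orderOf_eq_one, one_pow, map_one]
  choose f hf1 hf2 using hroot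
  have hne : p ≠ 0 := hp.out.ne_zero
  let ψ : {x : G // orderOf x = p} × Fin p → {y : G // orderOf y = p ^ 2} := fun z =>
    ⟨f z.1.1 z.1.2 ^ (1 + p * (z.2 : ℕ)), by
      rw [orderOf_pow' _ (by omega), hf2, Nat.Coprime.gcd_eq_one, Nat.div_one]
      exact Nat.Coprime.pow_left 2 ((Nat.coprime_add_mul_left_right p 1 _).2 (Nat.coprime_one_right p))⟩
  have hinj : Function.Injective ψ := by
    rintro ⟨⟨x, hx⟩, i⟩ ⟨⟨x', hx'⟩, j⟩ h
    have h' : f x hx ^ (1 + p * (i : ℕ)) = f x' hx' ^ (1 + p * (j : ℕ)) := congrArg Subtype.val h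
    have hc : ∀ (w : G) (hw : orderOf w = p) (k : ℕ), (f w hw ^ (1 + p * k)) ^ p = w := by
      intro w hw k
      rw [← pow_mul, mul_comm, pow_mul, hf1, pow_add, pow_one, pow_mul, ← hw, pow_orderOf_eq_one, one_pow,
        mul_one]
    have hxx : x = x' := by rw [← hc x hx i, h', hc]
    subst hxx
    rw [pow_inj_mod, hf2] at h'
    have h1 : 1 + p * (i : ℕ) < p ^ 2 := by
      have h2 : (i : ℕ) + 1 ≤ p := i.2
      have h3 : p * ((i : ℕ) + 1) ≤ p * p := Nat.mul_le_mul_left p h2
      have := hp.out.two_le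
      rw [pow_two]; nlinarith
    have h1' : 1 + p * (j : ℕ) < p ^ 2 := by
      have h2 : (j : ℕ) + 1 ≤ p := j.2
      have h3 : p * ((j : ℕ) + 1) ≤ p * p := Nat.mul_le_mul_left p h2
      have := hp.out.two_le
      rw [pow_two]; nlinarith
    rw [Nat.mod_eq_of_lt h1, Nat.mod_eq_of_lt h1', Nat.add_left_cancel_iff] at h'
    simp [Fin.ext (Nat.eq_of_mul_eq_mul_left hp.out.pos h')]
  have h := Nat.card_le_card_of_injective ψ hinj
  rw [Nat.card_prod, Nat.card_fin] at h
  rw [N, N, mul_comm]
  exact h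

/-- All elements of order prime to the index lie in a normal subgroup. -/
lemma mem_of_coprime_index (M : Subgroup G) [M.Normal] {g : G} (h : (orderOf g).Coprime M.index) : g ∈ M := by
  rw [← QuotientGroup.eq_one_iff, ← orderOf_eq_one_iff]
  exact Nat.dvd_one.1 (h ▸ Nat.dvd_gcd (orderOf_map_dvd (QuotientGroup.mk' M) g) (orderOf_dvd_natCard _))

/-- Lower bound on a normal subgroup through element orders prime to its index. -/
lemma sum_le_normal (M : Subgroup G) [M.Normal] (s : Finset ℕ) (hs : ∀ m ∈ s, m.Coprime M.index) :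
    ∑ m ∈ s, N G m ≤ Nat.card M := by
  refine le_trans (le_of_eq (Finset.sum_congr rfl fun m hm => ?_)) (sum_le_card (G := M) s)
  refine Nat.card_congr ⟨fun g => ⟨⟨g.1, mem_of_coprime_index M (by rw [g.2]; exact hs m hm)⟩, ?_⟩,
    fun g => ⟨g.1.1, ?_⟩, fun _ => rfl, fun _ => rfl⟩
  · rw [← Subgroup.orderOf_coe]; exact g.2
  · rw [Subgroup.orderOf_coe]; exact g.2

/-- An element of order `p` centralises a non-trivial element of a normal subgroup. -/
lemma exists_comm (M : Subgroup G) [M.Normal] {p : ℕ} [hp : Fact p.Prime] (x : G) (hx : orderOf x = p)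
    (h : ¬ p ∣ Nat.card M - 1) : ∃ m ∈ M, m ≠ 1 ∧ Commute x m := by
  classical
  letI : MulAction (Subgroup.zpowers x) M :=
    MulAction.compHom M (((MulAut.conjNormal (H := M)) : G →* MulAut M).comp (Subgroup.zpowers x).subtype)
  have hP : IsPGroup p (Subgroup.zpowers x) := IsPGroup.of_card (n := 1) (by rw [Nat.card_zpowers, hx, pow_one])
  have hmod := hP.card_modEq_card_fixedPoints M
  by_contra hcon
  push Not at hcon
  have hfix : Nat.card (MulAction.fixedPoints (Subgroup.zpowers x) M) = 1 := by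
    rw [Nat.card_eq_one_iff_unique]
    refine ⟨⟨fun a b => ?_⟩, ⟨⟨1, fun g => ?_⟩⟩⟩
    · have hone : ∀ a : MulAction.fixedPoints (Subgroup.zpowers x) M, ((a : M) : G) = 1 := by
        intro a
        by_contra ha
        refine hcon _ (a : M).2 ha ?_
        have h2 := congrArg Subtype.val (a.2 ⟨x, Subgroup.mem_zpowers x⟩)
        change x * ((a : M) : G) * x⁻¹ = ((a : M) : G) at h2
        exact mul_inv_eq_iff_eq_mul.1 h2
      exact Subtype.ext (Subtype.ext ((hone a).trans (hone b).symm))
    · exact Subtype.ext (by change (g : G) * ((1 : M) : G) * (g : G)⁻¹ = _; simp)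
  rw [hfix] at hmod
  exact h ((Nat.modEq_iff_dvd' Nat.card_pos).1 hmod.symm)

lemma not_comm {p q : ℕ} (hp : p.Prime) (hq : q.Prime) (hpq : p ≠ q) (h : N G (p * q) = 0)
    (x m : G) (hx : orderOf x = p) (hm : orderOf m = q) : ¬ Commute x m := by
  intro hc
  apply N_ne (x * m)
  rwa [hc.orderOf_mul_eq_mul_orderOf_of_coprime, hx, hm]
  rw [hx, hm]
  exact (Nat.coprime_primes hp hq).2 hpq

end General

/-- Order twelve. -/
lemma four_final {G : Type*} [Group G] [Finite G] (hG : Nat.card G = 12) (h3 : N G 3 = 8) :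
    Nonempty (G ≃* ↥(alternatingGroup (Fin 4))) := by
  classical
  haveI : Fact (Nat.Prime 3) := ⟨Nat.prime_three⟩
  obtain ⟨x, hx⟩ := N_ne_zero (G := G) (m := 3) (by omega)
  set H := Subgroup.zpowers x with hH
  have hHc : Nat.card H = 3 := by rw [hH, Nat.card_zpowers, hx]
  have hidx : Nat.card (G ⧸ H) = 4 := by
    have := Subgroup.card_eq_card_quotient_mul_card_subgroup H
    rw [hHc, hG] at this; omega
  let f : G →* Equiv.Perm (G ⧸ H) := MulAction.toPermHom G (G ⧸ H)
  have hker : f.ker = ⊥ := by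
    rw [← Subgroup.normalCore_eq_ker]
    by_contra hne
    have hle : H.normalCore ≤ H := H.normalCore_le
    have hd := Subgroup.card_dvd_of_le hle
    rw [hHc, Nat.dvd_prime Nat.prime_three] at hd
    rcases hd with hd | hd
    · exact hne (Subgroup.eq_bot_of_card_eq _ hd)
    · have hN : H.Normal := by
        rw [← Subgroup.eq_of_le_of_card_ge hle (by rw [hd, hHc])]
        infer_instance
      have h1 := sum_le_normal H {3} (fun m hm => by
        rw [Finset.mem_singleton] at hm
        rw [hm, Subgroup.index_eq_card, hidx]; norm_num)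
      rw [Finset.sum_singleton, h3, hHc] at h1
      omega
  obtain ⟨e⟩ : Nonempty ((G ⧸ H) ≃ Fin 4) :=
    ⟨Nat.equivFinOfCardPos (α := G ⧸ H) (by omega) |>.trans (finCongr hidx)⟩
  let φ : G →* Equiv.Perm (Fin 4) := e.permCongrHom.toMonoidHom.comp f
  have hφ : Function.Injective φ :=
    e.permCongrHom.injective.comp ((MonoidHom.ker_eq_bot_iff f).1 hker)
  have hr : Nat.card φ.range = 12 := by
    rw [← hG]; exact Nat.card_congr (MonoidHom.ofInjective hφ).toEquiv.symm
  have hi : φ.range.index = 2 := by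
    have := φ.range.card_mul_index
    rw [hr, Nat.card_eq_fintype_card, Fintype.card_perm, Fintype.card_fin] at this
    change 12 * φ.range.index = 24 at this
    omega
  exact ⟨(MonoidHom.ofInjective hφ).trans (MulEquiv.subgroupCongr (Equiv.Perm.eq_alternatingGroup_of_index_eq_two hi))⟩

lemma four_case {G : Type*} [Group G] [Finite G] (h : nseSet G = {1, 3, 8}) :
    Nonempty (G ≃* ↥(alternatingGroup (Fin 4))) := by
  have hval : ∀ m, N G m = 0 ∨ N G m = 1 ∨ N G m = 3 ∨ N G m = 8 := fun m => by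
    by_cases h0 : N G m = 0
    · exact Or.inl h0
    · exact Or.inr (by simpa [h] using mem_nse h0)
  have hv : ∀ m, 2 < m → N G m = 0 ∨ N G m = 8 := fun m hm => by
    have := even_N (G := G) hm; rcases hval m with h | h | h | h <;> omega
  obtain ⟨m, hm, -⟩ := nse_mem (G := G) (v := 3) (by simp [h])
  have hm0 : m ≠ 0 := by rintro rfl; obtain ⟨g, hg⟩ := N_ne_zero (G := G) (m := 0) (by omega); exact absurd hg (orderOf_pos g).ne'
  have hN2 : N G 2 = 3 := by
    rcases lt_trichotomy m 2 with h' | h' | h'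
    · obtain rfl : m = 1 := by omega
      rw [N_one] at hm; omega
    · rw [← h']; exact hm
    · have := hv m h'; omega
  have h2 : 2 ∣ Nat.card G := dvd_card_of_ne (by omega)
  have hpr : ∀ p : ℕ, p.Prime → p ∣ Nat.card G → p = 2 ∨ p = 3 ∨ p = 5 := by
    intro p hp hd
    rcases eq_or_ne p 2 with rfl | hp2
    · exact Or.inl rfl
    have hp3 : 2 < p := lt_of_le_of_ne hp.two_le (Ne.symm hp2)
    obtain ⟨h1, h2'⟩ := prime_dvd_succ hp hd
    rcases hv p hp3 with h0 | h8
    · rw [h0, zero_add, Nat.dvd_one] at h1; omega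
    · rw [h8] at h1
      have := Nat.le_of_dvd (by norm_num) h1
      interval_cases p <;> norm_num at *
  have hn5 : ¬ 5 ^ (0 + 1) ∣ Nat.card G := by
    intro hd
    obtain ⟨h1, -⟩ := prime_dvd_succ (G := G) (p := 5) (by norm_num) (by simpa using hd)
    rcases hv 5 (by norm_num) with h' | h' <;> omega
  have hn8 : ¬ 2 ^ (2 + 1) ∣ Nat.card G := by
    intro hd
    have h' := dvd_sum_N (G := G) hd
    norm_num at h'
    rw [show Nat.divisors 8 = {1, 2, 4, 8} by decide] at h'
    simp [N_one, hN2] at h'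
    have := hv 4 (by norm_num); have := hv 8 (by norm_num)
    omega
  have hn9 : ¬ 3 ^ (1 + 1) ∣ Nat.card G := by
    intro hd
    have hd' : 18 ∣ Nat.card G :=
      show 2 * 9 ∣ _ from (show Nat.Coprime 2 9 by norm_num).mul_dvd_of_dvd_of_dvd h2 (by simpa using hd)
    have h18 := dvd_sum_N (G := G) hd'
    have h6 := dvd_sum_N (G := G) ((show 6 ∣ 18 by norm_num).trans hd')
    have h9 := dvd_sum_N (G := G) ((show 9 ∣ 18 by norm_num).trans hd')
    have h3' := dvd_sum_N (G := G) ((show 3 ∣ 18 by norm_num).trans hd')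
    rw [show Nat.divisors 18 = {1, 2, 3, 6, 9, 18} by decide] at h18
    rw [show Nat.divisors 6 = {1, 2, 3, 6} by decide] at h6
    rw [show Nat.divisors 9 = {1, 3, 9} by decide] at h9
    rw [show Nat.divisors 3 = {1, 3} by decide] at h3'
    simp [N_one, hN2] at h18 h6 h9 h3'
    have := hv 3 (by norm_num); have := hv 6 (by norm_num); have := hv 9 (by norm_num); have := hv 18 (by norm_num)
    omega
  have hdvd := dvd_of_bounds (a := 2) (b := 1) (c := 0) hpr hn8 hn9 hn5
  have hle : Nat.card G ≤ 12 := Nat.le_of_dvd (by norm_num) (by simpa using hdvd)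
  obtain ⟨m₈, hm₈, -⟩ := nse_mem (G := G) (v := 8) (by simp [h])
  have hge := sum_le_card (G := G) {1, 2, m₈}
  have hne1 : m₈ ≠ 1 := by rintro rfl; rw [N_one] at hm₈; omega
  have hne2 : m₈ ≠ 2 := by rintro rfl; omega
  rw [Finset.sum_insert (by simp [hne1.symm]), Finset.sum_insert (by simp [hne2.symm]), Finset.sum_singleton,
    N_one, hN2, hm₈] at hge
  have hG : Nat.card G = 12 := by omega
  refine four_final hG ?_
  obtain ⟨h1, -⟩ := prime_dvd_succ (G := G) (p := 3) Nat.prime_three (by rw [hG]; norm_num)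
  rcases hv 3 (by norm_num) with h' | h' <;> omega

lemma five_card {G : Type*} [Group G] [Finite G] (h : nseSet G = {1, 15, 20, 24}) :
    Nat.card G = 60 ∧ N G 2 = 15 ∧ N G 3 = 20 ∧ N G 5 = 24 ∧ N G 4 = 0 ∧ N G 6 = 0 ∧ N G 10 = 0 ∧ N G 15 = 0 := by
  haveI : Fact (Nat.Prime 3) := ⟨Nat.prime_three⟩
  have hval : ∀ m, N G m = 0 ∨ N G m = 1 ∨ N G m = 15 ∨ N G m = 20 ∨ N G m = 24 := fun m => by
    by_cases h0 : N G m = 0
    · exact Or.inl h0
    · exact Or.inr (by simpa [h] using mem_nse h0)
  have hv : ∀ m, 2 < m → N G m = 0 ∨ N G m = 20 ∨ N G m = 24 := fun m hm => by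
    have := even_N (G := G) hm; rcases hval m with h | h | h | h | h <;> omega
  obtain ⟨m, hm, -⟩ := nse_mem (G := G) (v := 15) (by simp [h])
  have hm0 : m ≠ 0 := by rintro rfl; obtain ⟨g, hg⟩ := N_ne_zero (G := G) (m := 0) (by omega); exact absurd hg (orderOf_pos g).ne'
  have hN2 : N G 2 = 15 := by
    rcases lt_trichotomy m 2 with h' | h' | h'
    · obtain rfl : m = 1 := by omega
      rw [N_one] at hm; omega
    · rw [← h']; exact hm
    · have := hv m h'; omega
  have h2 : 2 ∣ Nat.card G := dvd_card_of_ne (by omega)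
  have hpr : ∀ p : ℕ, p.Prime → p ∣ Nat.card G → p = 2 ∨ p = 3 ∨ p = 5 := by
    intro p hp hd
    rcases eq_or_ne p 2 with rfl | hp2
    · exact Or.inl rfl
    have hp3 : 2 < p := lt_of_le_of_ne hp.two_le (Ne.symm hp2)
    obtain ⟨h1, h2'⟩ := prime_dvd_succ hp hd
    rcases hv p hp3 with h0 | h8 | h8
    · rw [h0, zero_add, Nat.dvd_one] at h1; omega
    · rw [h8] at h1 h2'
      have := Nat.le_of_dvd (by norm_num) h1
      interval_cases p <;> norm_num at *
    · rw [h8] at h1 h2'
      have := Nat.le_of_dvd (by norm_num) h1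
      interval_cases p <;> norm_num at *
  have hN3 : 3 ∣ Nat.card G → N G 3 = 20 := fun hd => by
    have := (prime_dvd_succ (G := G) Nat.prime_three hd).1
    rcases hv 3 (by norm_num) with h' | h' | h' <;> omega
  have hN5 : 5 ∣ Nat.card G → N G 5 = 24 := fun hd => by
    have := (prime_dvd_succ (G := G) (p := 5) (by norm_num) hd).1
    rcases hv 5 (by norm_num) with h' | h' | h' <;> omega
  obtain ⟨a20, ha20, -⟩ := nse_mem (G := G) (v := 20) (by simp [h])
  obtain ⟨a24, ha24, -⟩ := nse_mem (G := G) (v := 24) (by simp [h])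
  have hge : 60 ≤ Nat.card G := by
    have hge := sum_le_card (G := G) {1, 2, a20, a24}
    have h1 : a20 ≠ 1 := by rintro rfl; rw [N_one] at ha20; omega
    have h2 : a20 ≠ 2 := by rintro rfl; omega
    have h3 : a24 ≠ 1 := by rintro rfl; rw [N_one] at ha24; omega
    have h4 : a24 ≠ 2 := by rintro rfl; omega
    have h5 : a20 ≠ a24 := by rintro rfl; omega
    rw [Finset.sum_insert (by simp [h1.symm, h3.symm]), Finset.sum_insert (by simp [h2.symm, h4.symm]),
      Finset.sum_insert (by simp [h5]), Finset.sum_singleton, N_one, hN2, ha20, ha24] at hge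
    omega
  have hn25 : ¬ 5 ^ (1 + 1) ∣ Nat.card G := by
    intro hd
    norm_num at hd
    have hd50 : 50 ∣ Nat.card G :=
      show 2 * 25 ∣ _ from (show Nat.Coprime 2 25 by norm_num).mul_dvd_of_dvd_of_dvd h2 hd
    have h25 := dvd_sum_N (G := G) hd
    have h50 := dvd_sum_N (G := G) hd50
    have := hN5 ((show 5 ∣ 25 by norm_num).trans hd)
    rw [show Nat.divisors 25 = {1, 5, 25} by decide] at h25
    rw [show Nat.divisors 50 = {1, 2, 5, 10, 25, 50} by decide] at h50
    simp [N_one, hN2] at h25 h50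
    have := hv 25 (by norm_num); have := hv 50 (by norm_num); have := hv 10 (by norm_num)
    have : 20 ∣ N G 50 := (show 20 ∣ Nat.totient 50 by decide).trans (totient_dvd _)
    have : 20 ∣ N G 25 := (show 20 ∣ Nat.totient 25 by decide).trans (totient_dvd _)
    omega
  have hn27 : ¬ 3 ^ (2 + 1) ∣ Nat.card G := by
    intro hd
    norm_num at hd
    have h27 := dvd_sum_N (G := G) hd
    have h9 := dvd_sum_N (G := G) ((show 9 ∣ 27 by norm_num).trans hd)
    have := hN3 ((show 3 ∣ 27 by norm_num).trans hd)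
    rw [show Nat.divisors 27 = {1, 3, 9, 27} by decide] at h27
    rw [show Nat.divisors 9 = {1, 3, 9} by decide] at h9
    simp [N_one] at h27 h9
    have := hv 9 (by norm_num); have := hv 27 (by norm_num)
    omega
  have hn9 : ¬ 3 ^ (1 + 1) ∣ Nat.card G := by
    intro hd
    norm_num at hd
    have h9 := dvd_sum_N (G := G) hd
    have h3' := hN3 ((show 3 ∣ 9 by norm_num).trans hd)
    rw [show Nat.divisors 9 = {1, 3, 9} by decide] at h9
    simp [N_one] at h9
    have hv9 := hv 9 (by norm_num)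
    obtain ⟨y, hy⟩ := N_ne_zero (G := G) (m := 9) (by omega)
    have := root_of_prime_sq (p := 3) (G := G) (by simpa using hd) hn27 y (by rw [hy]; norm_num)
    norm_num at this
    omega
  by_cases h3 : 3 ∣ Nat.card G
  swap
  · exfalso
    have hn3 : ¬ 3 ^ (0 + 1) ∣ Nat.card G := by simpa using h3
    have hz : ∀ m, 3 ∣ m → N G m = 0 := fun m hm => by
      by_contra h0; exact h3 (hm.trans (dvd_card_of_ne h0))
    by_cases h5 : 5 ∣ Nat.card G
    · have hn16 : ¬ 2 ^ (3 + 1) ∣ Nat.card G := by
        intro hd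
        norm_num at hd
        have hd80 : 80 ∣ Nat.card G :=
          show 16 * 5 ∣ _ from (show Nat.Coprime 16 5 by norm_num).mul_dvd_of_dvd_of_dvd hd h5
        have h80 := dvd_sum_N (G := G) hd80
        have h16 := dvd_sum_N (G := G) hd
        have h10 := dvd_sum_N (G := G) ((show 10 ∣ 80 by norm_num).trans hd80)
        rw [show Nat.divisors 80 = {1, 2, 4, 5, 8, 10, 16, 20, 40, 80} by decide] at h80
        rw [show Nat.divisors 16 = {1, 2, 4, 8, 16} by decide] at h16
        rw [show Nat.divisors 10 = {1, 2, 5, 10} by decide] at h10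
        simp [N_one, hN2, hN5 h5] at h80 h16 h10
        have := hv 4 (by norm_num); have := hv 8 (by norm_num); have := hv 16 (by norm_num)
        have := hv 10 (by norm_num); have := hv 20 (by norm_num); have := hv 40 (by norm_num)
        have := hv 80 (by norm_num)
        have : 4 ∣ N G 10 := (show 4 ∣ Nat.totient 10 by decide).trans (totient_dvd _)
        have : 8 ∣ N G 20 := (show 8 ∣ Nat.totient 20 by decide).trans (totient_dvd _)
        have : 16 ∣ N G 40 := (show 16 ∣ Nat.totient 40 by decide).trans (totient_dvd _)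
        have : 32 ∣ N G 80 := (show 32 ∣ Nat.totient 80 by decide).trans (totient_dvd _)
        omega
      have := Nat.le_of_dvd (by norm_num) (dvd_of_bounds (a := 3) (b := 0) (c := 1) hpr hn16 hn3 hn25)
      omega
    · -- a 2-group
      have hn5 : ¬ 5 ^ (0 + 1) ∣ Nat.card G := by simpa using h5
      have hz5 : ∀ m, 5 ∣ m → N G m = 0 := fun m hm => by
        by_contra h0; exact h5 (hm.trans (dvd_card_of_ne h0))
      have h32 : 32 ∣ Nat.card G := by
        by_contra h32
        have := Nat.le_of_dvd (by norm_num) (dvd_of_bounds (a := 4) (b := 0) (c := 0) hpr (by simpa using h32) hn3 hn5)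
        omega
      have h32s := dvd_sum_N (G := G) h32
      have h16 := dvd_sum_N (G := G) ((show 16 ∣ 32 by norm_num).trans h32)
      have h8 := dvd_sum_N (G := G) ((show 8 ∣ 32 by norm_num).trans h32)
      rw [show Nat.divisors 32 = {1, 2, 4, 8, 16, 32} by decide] at h32s
      rw [show Nat.divisors 16 = {1, 2, 4, 8, 16} by decide] at h16
      rw [show Nat.divisors 8 = {1, 2, 4, 8} by decide] at h8
      simp [N_one, hN2] at h32s h16 h8
      have := hv 4 (by norm_num); have := hv 8 (by norm_num); have := hv 16 (by norm_num); have := hv 32 (by norm_num)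
      have t16 : 8 ∣ N G 16 := (show 8 ∣ Nat.totient 16 by decide).trans (totient_dvd _)
      have t32 : 16 ∣ N G 32 := (show 16 ∣ Nat.totient 32 by decide).trans (totient_dvd _)
      have h20 : N G 4 = 20 ∨ N G 8 = 20 := by
        obtain ⟨g, hg⟩ := N_ne_zero (G := G) (m := a20) (by omega)
        have hd2 : ∀ p : ℕ, p.Prime → p ∣ a20 → p = 2 := fun p hp hpd => by
          have hpc : p ∣ Nat.card G := hpd.trans (hg ▸ orderOf_dvd_natCard g)
          rcases hpr p hp hpc with h' | h' | h'
          · exact h'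
          · exact absurd (h' ▸ hpc) h3
          · exact absurd (h' ▸ hpc) h5
        obtain ⟨k, hk⟩ : ∃ k, a20 = 2 ^ k :=
          ⟨_, Nat.eq_prime_pow_of_unique_prime_dvd (hg ▸ (orderOf_pos g).ne') fun {d} hd hdd => hd2 d hd hdd⟩
        subst hk
        rcases lt_or_ge k 4 with hk4 | hk4
        · interval_cases k
          · rw [pow_zero, N_one] at ha20; omega
          · rw [pow_one] at ha20; omega
          · exact Or.inl (by simpa using ha20)
          · exact Or.inr (by simpa using ha20)
        · exfalso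
          have h' : 8 ∣ N G (2 ^ k) := by
            refine dvd_trans ?_ (totient_dvd _)
            rw [Nat.totient_prime_pow Nat.prime_two (by omega)]
            exact dvd_mul_of_dvd_left ((show (8 : ℕ) = 2 ^ 3 by norm_num) ▸ pow_dvd_pow 2 (show 3 ≤ k - 1 by omega)) _
          omega
      omega
  by_cases h5 : 5 ∣ Nat.card G
  swap
  · exfalso
    have hn5 : ¬ 5 ^ (0 + 1) ∣ Nat.card G := by simpa using h5
    have hn16 : ¬ 2 ^ (3 + 1) ∣ Nat.card G := by
      intro hd
      norm_num at hd
      have hd48 : 48 ∣ Nat.card G :=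
        show 16 * 3 ∣ _ from (show Nat.Coprime 16 3 by norm_num).mul_dvd_of_dvd_of_dvd hd h3
      have h48 := dvd_sum_N (G := G) hd48
      have h16 := dvd_sum_N (G := G) hd
      have h12 := dvd_sum_N (G := G) ((show 12 ∣ 48 by norm_num).trans hd48)
      have h6 := dvd_sum_N (G := G) ((show 6 ∣ 48 by norm_num).trans hd48)
      rw [show Nat.divisors 48 = {1, 2, 3, 4, 6, 8, 12, 16, 24, 48} by decide] at h48
      rw [show Nat.divisors 16 = {1, 2, 4, 8, 16} by decide] at h16
      rw [show Nat.divisors 12 = {1, 2, 3, 4, 6, 12} by decide] at h12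
      rw [show Nat.divisors 6 = {1, 2, 3, 6} by decide] at h6
      simp [N_one, hN2, hN3 h3] at h48 h16 h12 h6
      have := hv 4 (by norm_num); have := hv 8 (by norm_num); have := hv 16 (by norm_num)
      have := hv 6 (by norm_num); have := hv 12 (by norm_num); have := hv 24 (by norm_num); have := hv 48 (by norm_num)
      have : 8 ∣ N G 24 := (show 8 ∣ Nat.totient 24 by decide).trans (totient_dvd _)
      have : 16 ∣ N G 48 := (show 16 ∣ Nat.totient 48 by decide).trans (totient_dvd _)
      omega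
    have := Nat.le_of_dvd (by norm_num) (dvd_of_bounds (a := 3) (b := 1) (c := 0) hpr hn16 hn9 hn5)
    omega
  have h30 : 30 ∣ Nat.card G :=
    show 2 * 15 ∣ _ from (show Nat.Coprime 2 15 by norm_num).mul_dvd_of_dvd_of_dvd h2
      (show 3 * 5 ∣ _ from (show Nat.Coprime 3 5 by norm_num).mul_dvd_of_dvd_of_dvd h3 h5)
  have e3 := hN3 h3
  have e5 := hN5 h5
  obtain ⟨z6, z10, z15⟩ : N G 6 = 0 ∧ N G 10 = 0 ∧ N G 15 = 0 := by
    have h30s := dvd_sum_N (G := G) h30
    have h15 := dvd_sum_N (G := G) ((show 15 ∣ 30 by norm_num).trans h30)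
    rw [show Nat.divisors 30 = {1, 2, 3, 5, 6, 10, 15, 30} by decide] at h30s
    rw [show Nat.divisors 15 = {1, 3, 5, 15} by decide] at h15
    simp [N_one, hN2, e3, e5] at h30s h15
    have := hv 6 (by norm_num); have := hv 10 (by norm_num); have h15v := hv 15 (by norm_num)
    have : 4 ∣ N G 10 := (show 4 ∣ Nat.totient 10 by decide).trans (totient_dvd _)
    have h15z : N G 15 = 0 := by omega
    have := N_zero_of_dvd (show 15 ∣ 30 by norm_num) h15z
    omega
  have z30 := N_zero_of_dvd (show 15 ∣ 30 by norm_num) z15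
  have z4 : N G 4 = 0 := by
    by_contra h4ne
    have h4 : 4 ∣ Nat.card G := dvd_card_of_ne h4ne
    have h12d : 12 ∣ Nat.card G :=
      show 4 * 3 ∣ _ from (show Nat.Coprime 4 3 by norm_num).mul_dvd_of_dvd_of_dvd h4 h3
    have h20d : 20 ∣ Nat.card G :=
      show 4 * 5 ∣ _ from (show Nat.Coprime 4 5 by norm_num).mul_dvd_of_dvd_of_dvd h4 h5
    have h12 := dvd_sum_N (G := G) h12d
    have h20 := dvd_sum_N (G := G) h20d
    rw [show Nat.divisors 12 = {1, 2, 3, 4, 6, 12} by decide] at h12
    rw [show Nat.divisors 20 = {1, 2, 4, 5, 10, 20} by decide] at h20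
    simp [N_one, hN2, e3, e5, z6, z10, N_zero_of_dvd (show 6 ∣ 12 by norm_num) z6,
      N_zero_of_dvd (show 10 ∣ 20 by norm_num) z10] at h12 h20
    have := hv 4 (by norm_num)
    omega
  have hn8 : ¬ 2 ^ (2 + 1) ∣ Nat.card G → Nat.card G = 60 := by
    intro hd
    have := Nat.le_of_dvd (by norm_num) (dvd_of_bounds (a := 2) (b := 1) (c := 1) hpr hd hn9 hn25)
    omega
  refine ⟨?_, hN2, e3, e5, z4, z6, z10, z15⟩
  by_cases hd8 : 2 ^ (2 + 1) ∣ Nat.card G
  swap
  · exact hn8 hd8
  exfalso
  norm_num at hd8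
  have hall : ∀ g : G, orderOf g ∈ ({1, 2, 3, 5} : Finset ℕ) := by
    intro g
    by_contra hcon
    apply N_ne g
    simp only [Finset.mem_insert, Finset.mem_singleton, not_or] at hcon
    obtain ⟨n1, n2, n3, n5⟩ := hcon
    have hd := orderOf_dvd_natCard g
    set o := orderOf g with ho
    by_cases c4 : 4 ∣ o
    · exact N_zero_of_dvd c4 z4
    by_cases c6 : 6 ∣ o
    · exact N_zero_of_dvd c6 z6
    by_cases c10 : 10 ∣ o
    · exact N_zero_of_dvd c10 z10
    by_cases c15 : 15 ∣ o
    · exact N_zero_of_dvd c15 z15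
    exfalso
    have ho' : o ∣ 2 ^ 1 * 3 ^ 1 * 5 ^ 1 :=
      dvd_of_bounds (fun p hp hpo => hpr p hp (hpo.trans hd)) (by simpa using c4)
        (fun hh => hn9 (hh.trans hd)) (fun hh => hn25 (hh.trans hd))
    have := Nat.le_of_dvd (by norm_num) ho'
    norm_num at ho'
    interval_cases o <;> norm_num at *
  have hcard : Nat.card G ≤ 60 := by
    classical
    haveI := Fintype.ofFinite G
    have h' : Nat.card G = ∑ m ∈ ({1, 2, 3, 5} : Finset ℕ), N G m := by
      rw [Nat.card_eq_fintype_card, ← Finset.card_univ,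
        Finset.card_eq_sum_card_fiberwise (f := fun g : G => orderOf g) (fun g _ => hall g)]
      exact Finset.sum_congr rfl fun m _ => (N_eq G m).symm
    rw [Finset.sum_insert (by decide), Finset.sum_insert (by decide), Finset.sum_insert (by decide),
      Finset.sum_singleton, N_one, hN2, e3, e5] at h'
    omega
  have h120 : 120 ∣ Nat.card G :=
    show 8 * 15 ∣ _ from (show Nat.Coprime 8 15 by norm_num).mul_dvd_of_dvd_of_dvd hd8
      ((show 15 ∣ 30 by norm_num).trans h30)
  have := Nat.le_of_dvd Nat.card_pos h120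
  omega

lemma five_case {G : Type*} [Group G] [Finite G] (h : nseSet G = {1, 15, 20, 24}) :
    Nonempty (G ≃* ↥(alternatingGroup (Fin 5))) := by
  obtain ⟨hG, h2, h3, h5, h4, h6, h10, h15⟩ := five_card h
  haveI : Fact (Nat.Prime 5) := ⟨by norm_num⟩
  haveI : Nontrivial G := Finite.one_lt_card_iff_nontrivial.1 (by omega)
  haveI : IsSimpleGroup G := ⟨fun M hM => by
    by_contra hcon
    push Not at hcon
    have hmul := M.card_mul_index
    rw [hG] at hmul
    have hM1 : Nat.card M ≠ 1 := fun h => hcon.1 (Subgroup.eq_bot_of_card_eq M h)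
    have hi1 : M.index ≠ 1 := fun h => hcon.2 (Subgroup.index_eq_one.1 h)
    have hd : Nat.card M ∣ 60 := ⟨_, hmul.symm⟩
    by_cases c5 : 5 ∣ M.index
    · by_cases c3 : 3 ∣ M.index
      · have hd15 : 15 ∣ M.index := (show Nat.Coprime 3 5 by norm_num).mul_dvd_of_dvd_of_dvd c3 c5
        obtain ⟨k, hk⟩ := hd15
        have hM4 : Nat.card M ∣ 4 := ⟨k, by rw [hk, mul_left_comm] at hmul; omega⟩
        obtain ⟨x, hx⟩ := N_ne_zero (G := G) (m := 5) (by omega)
        have hle := Nat.le_of_dvd (by norm_num) hM4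
        obtain ⟨m, hmM, hm1, hc⟩ := exists_comm M x hx (by
          intro h'
          have := Nat.card_pos (α := M)
          have := Nat.le_of_dvd (by omega) h'
          omega)
        have hdm : orderOf m ∣ 4 := by
          have h' : orderOf (⟨m, hmM⟩ : M) ∣ Nat.card M := orderOf_dvd_natCard _
          rw [Subgroup.orderOf_mk] at h'
          exact h'.trans hM4
        have := Nat.le_of_dvd (by norm_num) hdm
        have hne1 : orderOf m ≠ 1 := by rwa [Ne, orderOf_eq_one_iff]
        have := orderOf_pos m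
        interval_cases ho : orderOf m
        · exact hne1 rfl
        · exact not_comm (by norm_num) (by norm_num) (by norm_num) h10 x m hx ho hc
        · norm_num at hdm
        · exact (N_ne m) (by rw [ho]; exact h4)
      · have h' := sum_le_normal M {1, 3} (fun m hm => by
          simp only [Finset.mem_insert, Finset.mem_singleton] at hm
          rcases hm with rfl | rfl
          · exact Nat.coprime_one_left _
          · exact (Nat.Prime.coprime_iff_not_dvd (by norm_num)).2 c3)
        simp [N_one, h3] at h'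
        obtain ⟨k, hk⟩ := c5
        rw [hk] at hmul
        have : Nat.card M * k = 12 := by rw [mul_left_comm] at hmul; omega
        have := Nat.le_of_dvd (by norm_num) (Dvd.intro k this)
        omega
    · have h' := sum_le_normal M {1, 5} (fun m hm => by
        simp only [Finset.mem_insert, Finset.mem_singleton] at hm
        rcases hm with rfl | rfl
        · exact Nat.coprime_one_left _
        · exact (Nat.Prime.coprime_iff_not_dvd (by norm_num)).2 c5)
      simp [N_one, h5] at h'
      have hi2 : M.index = 2 := by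
        have : M.index ∣ 60 := Dvd.intro_left _ hmul
        have hile : M.index ≤ 2 := by nlinarith
        have := M.index_ne_zero_of_finite
        omega
      have h'' := sum_le_normal M {1, 3, 5} (fun m hm => by
        simp only [Finset.mem_insert, Finset.mem_singleton] at hm
        rcases hm with rfl | rfl | rfl <;> rw [hi2] <;> norm_num)
      simp [N_one, h5, h3] at h''
      rw [hi2] at hmul
      omega⟩
  exact Lib.SmallSimple.nonempty_mulEquiv_alternatingFive hG

lemma six_card {G : Type*} [Group G] [Finite G] (h : nseSet G = {1, 45, 80, 90, 144}) :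
    Nat.card G = 360 ∧ N G 2 = 45 ∧ N G 3 = 80 ∧ N G 4 = 90 ∧ N G 5 = 144 ∧ N G 10 = 0 ∧ N G 15 = 0 := by
  have hval : ∀ m, N G m = 0 ∨ N G m = 1 ∨ N G m = 45 ∨ N G m = 80 ∨ N G m = 90 ∨ N G m = 144 := fun m => by
    by_cases h0 : N G m = 0
    · exact Or.inl h0
    · exact Or.inr (by simpa [h] using mem_nse h0)
  have hv : ∀ m, 2 < m → N G m = 0 ∨ N G m = 80 ∨ N G m = 90 ∨ N G m = 144 := fun m hm => by
    have := even_N (G := G) hm; rcases hval m with h | h | h | h | h | h <;> omega
  obtain ⟨m, hm, -⟩ := nse_mem (G := G) (v := 45) (by simp [h])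
  have hm0 : m ≠ 0 := by rintro rfl; obtain ⟨g, hg⟩ := N_ne_zero (G := G) (m := 0) (by omega); exact absurd hg (orderOf_pos g).ne'
  have hN2 : N G 2 = 45 := by
    rcases lt_trichotomy m 2 with h' | h' | h'
    · obtain rfl : m = 1 := by omega
      rw [N_one] at hm; omega
    · rw [← h']; exact hm
    · have := hv m h'; omega
  have h2 : 2 ∣ Nat.card G := dvd_card_of_ne (by omega)
  obtain ⟨a80, ha80, -⟩ := nse_mem (G := G) (v := 80) (by simp [h])
  obtain ⟨a90, ha90, -⟩ := nse_mem (G := G) (v := 90) (by simp [h])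
  obtain ⟨a144, ha144, -⟩ := nse_mem (G := G) (v := 144) (by simp [h])
  have hge : 360 ≤ Nat.card G := by
    have hge := sum_le_card (G := G) {1, 2, a80, a90, a144}
    have e : ∀ a v : ℕ, N G a = v → v ≠ 1 → v ≠ 45 → a ≠ 1 ∧ a ≠ 2 := fun a v ha hv1 hv2 =>
      ⟨fun he => hv1 (by rw [← ha, he, N_one]), fun he => hv2 (by rw [← ha, he, hN2])⟩
    obtain ⟨h1, h2⟩ := e _ _ ha80 (by norm_num) (by norm_num)
    obtain ⟨h3, h4⟩ := e _ _ ha90 (by norm_num) (by norm_num)
    obtain ⟨h5, h6⟩ := e _ _ ha144 (by norm_num) (by norm_num)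
    have h7 : a80 ≠ a90 := by rintro rfl; omega
    have h8 : a80 ≠ a144 := by rintro rfl; omega
    have h9 : a90 ≠ a144 := by rintro rfl; omega
    rw [Finset.sum_insert (by simp [h1.symm, h3.symm, h5.symm]), Finset.sum_insert (by simp [h2.symm, h4.symm, h6.symm]),
      Finset.sum_insert (by simp [h7, h8]), Finset.sum_insert (by simp [h9]), Finset.sum_singleton, N_one, hN2, ha80,
      ha90, ha144] at hge
    omega
  have hpr7 : ∀ p : ℕ, p.Prime → p ∣ Nat.card G → p = 2 ∨ p = 3 ∨ p = 5 ∨ p = 7 := by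
    intro p hp hd
    rcases eq_or_ne p 2 with rfl | hp2
    · exact Or.inl rfl
    have hp3 : 2 < p := lt_of_le_of_ne hp.two_le (Ne.symm hp2)
    obtain ⟨h1, h2'⟩ := prime_dvd_succ hp hd
    rcases hv p hp3 with h0 | h8 | h8 | h8
    · rw [h0, zero_add, Nat.dvd_one] at h1; omega
    all_goals
      rw [h8] at h1 h2'
      have := Nat.le_of_dvd (by norm_num) h1
      interval_cases p <;> norm_num at *
  have hN3 : 3 ∣ Nat.card G → N G 3 = 80 := fun hd => by
    have := (prime_dvd_succ (G := G) Nat.prime_three hd).1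
    rcases hv 3 (by norm_num) with h' | h' | h' | h' <;> omega
  have hN5 : 5 ∣ Nat.card G → N G 5 = 144 := fun hd => by
    have := (prime_dvd_succ (G := G) (p := 5) (by norm_num) hd).1
    rcases hv 5 (by norm_num) with h' | h' | h' | h' <;> omega
  have hn16 : ¬ 2 ^ (3 + 1) ∣ Nat.card G := by
    intro hd
    norm_num at hd
    have h16 := dvd_sum_N (G := G) hd
    have h4 := dvd_sum_N (G := G) ((show 4 ∣ 16 by norm_num).trans hd)
    rw [show Nat.divisors 16 = {1, 2, 4, 8, 16} by decide] at h16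
    rw [show Nat.divisors 4 = {1, 2, 4} by decide] at h4
    simp [N_one, hN2] at h16 h4
    have := hv 4 (by norm_num); have := hv 8 (by norm_num); have := hv 16 (by norm_num)
    have : 4 ∣ N G 8 := (show 4 ∣ Nat.totient 8 by decide).trans (totient_dvd _)
    have : 8 ∣ N G 16 := (show 8 ∣ Nat.totient 16 by decide).trans (totient_dvd _)
    omega
  have h81 : ¬ 3 ^ (3 + 1) ∣ Nat.card G := by
    intro hd
    norm_num at hd
    have h162d : 162 ∣ Nat.card G :=
      show 2 * 81 ∣ _ from (show Nat.Coprime 2 81 by norm_num).mul_dvd_of_dvd_of_dvd h2 hd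
    have h27 := dvd_sum_N (G := G) ((show 27 ∣ 81 by norm_num).trans hd)
    rw [show Nat.divisors 27 = {1, 3, 9, 27} by decide] at h27
    simp [N_one, hN3 ((show 3 ∣ 81 by norm_num).trans hd)] at h27
    have := hv 9 (by norm_num); have := hv 27 (by norm_num)
    have t9 : 6 ∣ N G 9 := (show 6 ∣ Nat.totient 9 by decide).trans (totient_dvd _)
    have t27 : 18 ∣ N G 27 := (show 18 ∣ Nat.totient 27 by decide).trans (totient_dvd _)
    have z : N G 9 = 0 := by omega
    have h162 := dvd_sum_N (G := G) h162d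
    rw [show Nat.divisors 162 = {1, 2, 3, 6, 9, 18, 27, 54, 81, 162} by decide] at h162
    simp [N_one, hN2, hN3 ((show 3 ∣ 81 by norm_num).trans hd), z, N_zero_of_dvd (show 9 ∣ 18 by norm_num) z,
      N_zero_of_dvd (show 9 ∣ 27 by norm_num) z, N_zero_of_dvd (show 9 ∣ 54 by norm_num) z,
      N_zero_of_dvd (show 9 ∣ 81 by norm_num) z, N_zero_of_dvd (show 9 ∣ 162 by norm_num) z] at h162
    have := hv 6 (by norm_num)
    omega
  have h125 : ¬ 5 ^ (2 + 1) ∣ Nat.card G := by
    intro hd
    norm_num at hd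
    have h125 := dvd_sum_N (G := G) hd
    have h25 := dvd_sum_N (G := G) ((show 25 ∣ 125 by norm_num).trans hd)
    rw [show Nat.divisors 125 = {1, 5, 25, 125} by decide] at h125
    rw [show Nat.divisors 25 = {1, 5, 25} by decide] at h25
    simp [N_one, hN5 ((show 5 ∣ 125 by norm_num).trans hd)] at h125 h25
    have := hv 25 (by norm_num); have := hv 125 (by norm_num)
    have : 20 ∣ N G 25 := (show 20 ∣ Nat.totient 25 by decide).trans (totient_dvd _)
    have : 100 ∣ N G 125 := (show 100 ∣ Nat.totient 125 by decide).trans (totient_dvd _)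
    omega
  have h7 : ¬ 7 ∣ Nat.card G := by
    intro hd7
    have e7 : N G 7 = 90 := by
      have := prime_dvd_succ (G := G) (p := 7) (by norm_num) hd7
      rcases hv 7 (by norm_num) with h' | h' | h' | h' <;> omega
    have h14d : 14 ∣ Nat.card G := show 2 * 7 ∣ _ from (show Nat.Coprime 2 7 by norm_num).mul_dvd_of_dvd_of_dvd h2 hd7
    have h14 := dvd_sum_N (G := G) h14d
    rw [show Nat.divisors 14 = {1, 2, 7, 14} by decide] at h14
    simp [N_one, hN2, e7] at h14
    have := hv 14 (by norm_num)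
    have h4 : ¬ 4 ∣ Nat.card G := by
      intro h4
      have h28d : 28 ∣ Nat.card G := show 4 * 7 ∣ _ from (show Nat.Coprime 4 7 by norm_num).mul_dvd_of_dvd_of_dvd h4 hd7
      have h28 := dvd_sum_N (G := G) h28d
      have h4' := dvd_sum_N (G := G) h4
      rw [show Nat.divisors 28 = {1, 2, 4, 7, 14, 28} by decide] at h28
      rw [show Nat.divisors 4 = {1, 2, 4} by decide] at h4'
      simp [N_one, hN2, e7] at h28 h4'
      have := hv 4 (by norm_num); have := hv 28 (by norm_num)
      omega
    have h5 : ¬ 5 ∣ Nat.card G := by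
      intro h5
      have h35d : 35 ∣ Nat.card G := show 5 * 7 ∣ _ from (show Nat.Coprime 5 7 by norm_num).mul_dvd_of_dvd_of_dvd h5 hd7
      have h35 := dvd_sum_N (G := G) h35d
      rw [show Nat.divisors 35 = {1, 5, 7, 35} by decide] at h35
      simp [N_one, hN5 h5, e7] at h35
      have := hv 35 (by norm_num)
      have : 24 ∣ N G 35 := (show 24 ∣ Nat.totient 35 by decide).trans (totient_dvd _)
      omega
    have h49 : ¬ 49 ∣ Nat.card G := by
      intro h49d
      have h49 := dvd_sum_N (G := G) h49d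
      rw [show Nat.divisors 49 = {1, 7, 49} by decide] at h49
      simp [N_one, e7] at h49
      have := hv 49 (by norm_num)
      have : 42 ∣ N G 49 := (show 42 ∣ Nat.totient 49 by decide).trans (totient_dvd _)
      omega
    have h27 : ¬ 27 ∣ Nat.card G := by
      intro h27d
      have e3 := hN3 ((show 3 ∣ 27 by norm_num).trans h27d)
      have h27 := dvd_sum_N (G := G) h27d
      rw [show Nat.divisors 27 = {1, 3, 9, 27} by decide] at h27
      simp [N_one, e3] at h27
      have := hv 9 (by norm_num); have := hv 27 (by norm_num)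
      have t9 : 6 ∣ N G 9 := (show 6 ∣ Nat.totient 9 by decide).trans (totient_dvd _)
      have t27 : 18 ∣ N G 27 := (show 18 ∣ Nat.totient 27 by decide).trans (totient_dvd _)
      have z : N G 9 = 0 := by omega
      have h54d : 54 ∣ Nat.card G := show 2 * 27 ∣ _ from (show Nat.Coprime 2 27 by norm_num).mul_dvd_of_dvd_of_dvd h2 h27d
      have h54 := dvd_sum_N (G := G) h54d
      rw [show Nat.divisors 54 = {1, 2, 3, 6, 9, 18, 27, 54} by decide] at h54
      simp [N_one, hN2, e3, z, N_zero_of_dvd (show 9 ∣ 18 by norm_num) z, N_zero_of_dvd (show 9 ∣ 27 by norm_num) z,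
        N_zero_of_dvd (show 9 ∣ 54 by norm_num) z] at h54
      have h42d : 42 ∣ Nat.card G :=
        show 6 * 7 ∣ _ from (show Nat.Coprime 6 7 by norm_num).mul_dvd_of_dvd_of_dvd ((show 6 ∣ 54 by norm_num).trans h54d) hd7
      have h42 := dvd_sum_N (G := G) h42d
      have h21 := dvd_sum_N (G := G) ((show 21 ∣ 42 by norm_num).trans h42d)
      rw [show Nat.divisors 42 = {1, 2, 3, 6, 7, 14, 21, 42} by decide] at h42
      rw [show Nat.divisors 21 = {1, 3, 7, 21} by decide] at h21
      simp [N_one, hN2, e3, e7] at h42 h21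
      have := hv 6 (by norm_num); have := hv 21 (by norm_num); have := hv 42 (by norm_num)
      have : 12 ∣ N G 42 := (show 12 ∣ Nat.totient 42 by decide).trans (totient_dvd _)
      omega
    have hle : Nat.card G ∣ 2 * 9 * 7 := by
      rw [Nat.dvd_iff_prime_pow_dvd_dvd]
      intro p k hp hk
      rcases Nat.eq_zero_or_pos k with rfl | hk0
      · simp
      rcases hpr7 p hp ((dvd_pow_self p hk0.ne').trans hk) with rfl | rfl | rfl | rfl
      · exact (pow_dvd_pow 2 (pow_dvd_of_dvd (j := 1) hk (by simpa using h4))).trans (by norm_num)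
      · exact (pow_dvd_pow 3 (pow_dvd_of_dvd (j := 2) hk (by simpa using h27))).trans (by norm_num)
      · exact absurd ((dvd_pow_self 5 hk0.ne').trans hk) h5
      · exact (pow_dvd_pow 7 (pow_dvd_of_dvd (j := 1) hk (by simpa using h49))).trans (by norm_num)
    have := Nat.le_of_dvd (by norm_num) hle
    omega
  have hpr : ∀ p : ℕ, p.Prime → p ∣ Nat.card G → p = 2 ∨ p = 3 ∨ p = 5 := fun p hp hd => by
    rcases hpr7 p hp hd with h | h | h | h
    · exact Or.inl h
    · exact Or.inr (Or.inl h)
    · exact Or.inr (Or.inr h)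
    · exact absurd (h ▸ hd) h7
  have h25 : ¬ 5 ^ (1 + 1) ∣ Nat.card G := by
    intro hd
    norm_num at hd
    have h3 : ¬ 3 ^ (0 + 1) ∣ Nat.card G := by
      intro h3
      norm_num at h3
      have h75d : 75 ∣ Nat.card G := show 3 * 25 ∣ _ from (show Nat.Coprime 3 25 by norm_num).mul_dvd_of_dvd_of_dvd h3 hd
      have h75 := dvd_sum_N (G := G) h75d
      have h15 := dvd_sum_N (G := G) ((show 15 ∣ 75 by norm_num).trans h75d)
      have h25' := dvd_sum_N (G := G) hd
      rw [show Nat.divisors 75 = {1, 3, 5, 15, 25, 75} by decide] at h75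
      rw [show Nat.divisors 15 = {1, 3, 5, 15} by decide] at h15
      rw [show Nat.divisors 25 = {1, 5, 25} by decide] at h25'
      simp [N_one, hN3 h3, hN5 ((show 5 ∣ 25 by norm_num).trans hd)] at h75 h15 h25'
      have := hv 15 (by norm_num); have := hv 25 (by norm_num); have := hv 75 (by norm_num)
      have : 8 ∣ N G 15 := (show 8 ∣ Nat.totient 15 by decide).trans (totient_dvd _)
      have : 20 ∣ N G 25 := (show 20 ∣ Nat.totient 25 by decide).trans (totient_dvd _)
      have : 40 ∣ N G 75 := (show 40 ∣ Nat.totient 75 by decide).trans (totient_dvd _)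
      omega
    have := Nat.le_of_dvd (by norm_num) (dvd_of_bounds (a := 3) (b := 0) (c := 2) hpr hn16 h3 h125)
    omega
  have h27 : ¬ 3 ^ (2 + 1) ∣ Nat.card G := by
    intro hd
    norm_num at hd
    by_cases h4 : 4 ∣ Nat.card G
    · have h108d : 108 ∣ Nat.card G := show 4 * 27 ∣ _ from (show Nat.Coprime 4 27 by norm_num).mul_dvd_of_dvd_of_dvd h4 hd
      have h108 := dvd_sum_N (G := G) h108d
      have h54 := dvd_sum_N (G := G) ((show 54 ∣ 108 by norm_num).trans h108d)
      have h4' := dvd_sum_N (G := G) h4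
      have h27 := dvd_sum_N (G := G) hd
      have e3 := hN3 ((show 3 ∣ 27 by norm_num).trans hd)
      rw [show Nat.divisors 27 = {1, 3, 9, 27} by decide] at h27
      simp [N_one, e3] at h27
      have := hv 9 (by norm_num); have := hv 27 (by norm_num)
      have t9 : 6 ∣ N G 9 := (show 6 ∣ Nat.totient 9 by decide).trans (totient_dvd _)
      have t27 : 18 ∣ N G 27 := (show 18 ∣ Nat.totient 27 by decide).trans (totient_dvd _)
      have z : N G 9 = 0 := by omega
      rw [show Nat.divisors 108 = {1, 2, 3, 4, 6, 9, 12, 18, 27, 36, 54, 108} by decide] at h108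
      rw [show Nat.divisors 54 = {1, 2, 3, 6, 9, 18, 27, 54} by decide] at h54
      rw [show Nat.divisors 4 = {1, 2, 4} by decide] at h4'
      simp [N_one, hN2, e3, z, N_zero_of_dvd (show 9 ∣ 18 by norm_num) z, N_zero_of_dvd (show 9 ∣ 27 by norm_num) z,
        N_zero_of_dvd (show 9 ∣ 36 by norm_num) z,
        N_zero_of_dvd (show 9 ∣ 54 by norm_num) z, N_zero_of_dvd (show 9 ∣ 108 by norm_num) z] at h108 h54 h4'
      have := hv 4 (by norm_num); have := hv 6 (by norm_num); have := hv 12 (by norm_num)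
      have : 4 ∣ N G 12 := (show 4 ∣ Nat.totient 12 by decide).trans (totient_dvd _)
      omega
    · have := Nat.le_of_dvd (by norm_num) (dvd_of_bounds (a := 1) (b := 3) (c := 1) hpr (by simpa using h4) h81 h25)
      omega
  have hdvd := dvd_of_bounds (a := 3) (b := 2) (c := 1) hpr hn16 h27 h25
  have hG : Nat.card G = 360 := by
    have := Nat.le_of_dvd (by norm_num) hdvd
    norm_num at this
    omega
  have e3 := hN3 (by rw [hG]; norm_num)
  have e5 := hN5 (by rw [hG]; norm_num)
  have e4 : N G 4 = 90 := by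
    have h4 := dvd_sum_N (G := G) (n := 4) (by rw [hG]; norm_num)
    rw [show Nat.divisors 4 = {1, 2, 4} by decide] at h4
    simp [N_one, hN2] at h4
    have := hv 4 (by norm_num)
    omega
  have hs : ∑ m ∈ ({1, 2, 3, 4, 5} : Finset ℕ), N G m = Nat.card G := by
    simp [N_one, hN2, e3, e4, e5, hG]
  refine ⟨hG, hN2, e3, e4, e5, ?_, ?_⟩
  · by_contra h10
    obtain ⟨g, hg⟩ := N_ne_zero h10
    have := orderOf_mem_of_sum_eq hs g
    rw [hg] at this
    simp at this
  · by_contra h15
    obtain ⟨g, hg⟩ := N_ne_zero h15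
    have := orderOf_mem_of_sum_eq hs g
    rw [hg] at this
    simp at this

lemma six_case {G : Type*} [Group G] [Finite G] (h : nseSet G = {1, 45, 80, 90, 144}) :
    Nonempty (G ≃* ↥(alternatingGroup (Fin 6))) := by
  obtain ⟨hG, h2, h3, h4, h5, h10, h15⟩ := six_card h
  haveI : Fact (Nat.Prime 5) := ⟨by norm_num⟩
  haveI : Fact (Nat.Prime 3) := ⟨Nat.prime_three⟩
  haveI : Nontrivial G := Finite.one_lt_card_iff_nontrivial.1 (by omega)
  haveI : IsSimpleGroup G := ⟨fun M hM => by
    by_contra hcon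
    push Not at hcon
    have hmul := M.card_mul_index
    rw [hG] at hmul
    have hM1 : Nat.card M ≠ 1 := fun h => hcon.1 (Subgroup.eq_bot_of_card_eq M h)
    have hi1 : M.index ≠ 1 := fun h => hcon.2 (Subgroup.index_eq_one.1 h)
    by_cases c5 : 5 ∣ M.index
    swap
    · have h' := sum_le_normal M {1, 5} (fun m hm => by
        simp only [Finset.mem_insert, Finset.mem_singleton] at hm
        rcases hm with rfl | rfl
        · exact Nat.coprime_one_left _
        · exact (Nat.Prime.coprime_iff_not_dvd (by norm_num)).2 c5)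
      simp [N_one, h5] at h'
      have hi2 : M.index = 2 := by
        have hile : M.index ≤ 2 := by nlinarith
        have := M.index_ne_zero_of_finite
        omega
      have h'' := sum_le_normal M {1, 3, 5} (fun m hm => by
        simp only [Finset.mem_insert, Finset.mem_singleton] at hm
        rcases hm with rfl | rfl | rfl <;> rw [hi2] <;> norm_num)
      simp [N_one, h5, h3] at h''
      rw [hi2] at hmul
      omega
    obtain ⟨k, hk⟩ := c5
    rw [hk] at hmul
    have hmul72 : Nat.card M * k = 72 := by rw [mul_left_comm] at hmul; omega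
    have hle72 := Nat.le_of_dvd (by norm_num) (Dvd.intro k hmul72)
    by_cases c3 : 3 ∣ M.index
    swap
    · have h' := sum_le_normal M {1, 3} (fun m hm => by
        simp only [Finset.mem_insert, Finset.mem_singleton] at hm
        rcases hm with rfl | rfl
        · exact Nat.coprime_one_left _
        · exact (Nat.Prime.coprime_iff_not_dvd (by norm_num)).2 c3)
      simp [N_one, h3] at h'
      omega
    rw [hk] at c3
    obtain ⟨l, rfl⟩ := ((show Nat.Prime 3 by norm_num).dvd_mul.1 c3).resolve_left (by norm_num)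
    have hmul24 : Nat.card M * l = 24 := by rw [mul_left_comm] at hmul72; omega
    by_cases c2 : 2 ∣ l
    swap
    · have h' := sum_le_normal M {1, 2, 4} (fun m hm => by
        have hodd : Nat.Coprime 2 M.index := by
          rw [hk, Nat.prime_two.coprime_iff_not_dvd]; omega
        simp only [Finset.mem_insert, Finset.mem_singleton] at hm
        rcases hm with rfl | rfl | rfl
        · exact Nat.coprime_one_left _
        · exact hodd
        · exact hodd.pow_left 2)
      simp [N_one, h2, h4] at h'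
      have := Nat.le_of_dvd (by norm_num) (Dvd.intro l hmul24)
      omega
    obtain ⟨j, rfl⟩ := c2
    have hmul12 : Nat.card M * j = 12 := by rw [mul_left_comm] at hmul24; omega
    have hd12 : Nat.card M ∣ 12 := Dvd.intro j hmul12
    obtain ⟨x, hx⟩ := N_ne_zero (G := G) (m := 5) (by omega)
    have hkey : ∀ m ∈ M, m ≠ 1 → ¬ Commute x m := by
      intro m hmM hm1 hc
      have hdm : orderOf m ∣ 12 := by
        have h' : orderOf (⟨m, hmM⟩ : M) ∣ Nat.card M := orderOf_dvd_natCard _
        rw [Subgroup.orderOf_mk] at h'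
        exact h'.trans hd12
      obtain ⟨r, hr, hrd⟩ := Nat.exists_prime_and_dvd (show orderOf m ≠ 1 by rwa [Ne, orderOf_eq_one_iff])
      obtain ⟨s, hs⟩ := hrd
      have hs0 : s ≠ 0 := by rintro rfl; rw [mul_zero] at hs; exact (orderOf_pos m).ne' hs
      have hms : orderOf (m ^ s) = r := by
        rw [orderOf_pow' m hs0, Nat.gcd_eq_right ⟨r, by rw [hs, mul_comm]⟩]
        conv_lhs => rw [hs, Nat.mul_div_cancel _ (Nat.pos_of_ne_zero hs0)]
      have hr12 : r ∣ 12 := (Dvd.intro s hs.symm).trans hdm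
      have := Nat.le_of_dvd (by norm_num) hr12
      have := hr.two_le
      interval_cases r <;> first | (norm_num at hr; done) | (norm_num at hr12; done) | skip
      · exact not_comm (by norm_num) (by norm_num) (by norm_num) h10 x (m ^ s) hx hms (hc.pow_right s)
      · exact not_comm (by norm_num) (by norm_num) (by norm_num) h15 x (m ^ s) hx hms (hc.pow_right s)
    by_cases h5M : 5 ∣ Nat.card M - 1
    swap
    · obtain ⟨m, hmM, hm1, hc⟩ := exists_comm M x hx h5M
      exact hkey m hmM hm1 hc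
    have hle := Nat.le_of_dvd (by norm_num) hd12
    have hpos := Nat.card_pos (α := M)
    interval_cases hMc : Nat.card M <;> norm_num at *
    -- order six: the elements of order three form a normal subgroup
    haveI := hM
    haveI : Fact (Nat.Prime 5) := ⟨by norm_num⟩
    haveI : Fact (Nat.Prime 3) := ⟨Nat.prime_three⟩
    haveI : Fact (Nat.Prime 2) := ⟨Nat.prime_two⟩
    obtain ⟨y, hy⟩ := exists_prime_orderOf_dvd_card' (G := M) 3 (by rw [hMc]; norm_num)
    have hP : IsPGroup 3 (Subgroup.zpowers y) := IsPGroup.of_card (n := 1) (by rw [Nat.card_zpowers, hy, pow_one])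
    obtain ⟨P, hPle⟩ := hP.exists_le_sylow
    have hPc : Nat.card (P : Subgroup M) = 3 := by
      rw [P.card_eq_multiplicity, hMc, show (6 : ℕ) = 3 * 2 by norm_num,
        Nat.factorization_mul (by norm_num) (by norm_num)]
      simp [Nat.prime_three.factorization_self, Nat.factorization_eq_zero_of_not_dvd (show ¬ 3 ∣ 2 by norm_num)]
    have hidx : (P : Subgroup M).index = 2 := by
      have := (P : Subgroup M).card_mul_index
      rw [hPc, hMc] at this; omega
    haveI := Subgroup.normal_of_index_eq_two hidx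
    haveI : Subsingleton (Sylow 3 M) :=
      @Unique.instSubsingleton _ (Sylow.unique_of_normal P inferInstance)
    set R : Subgroup G := (P : Subgroup M).map M.subtype with hR
    have hRc : Nat.card R = 3 := by rw [hR, Subgroup.card_map_of_injective M.subtype_injective, hPc]
    haveI hRn : R.Normal := by
      haveI : (P : Subgroup M).Characteristic := Sylow.characteristic_of_subsingleton P
      infer_instance
    obtain ⟨m, hmR, hm1, hc⟩ := exists_comm R x hx (by rw [hRc]; norm_num)
    exact hkey m ((Subgroup.map_subtype_le _) hmR) hm1 hc⟩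
  haveI : IsSimpleGroup (alternatingGroup (Fin 6)) := alternatingGroup.isSimpleGroup (by rw [Nat.card_fin]; norm_num)
  have hA : Nat.card (alternatingGroup (Fin 6)) = 360 := by
    rw [nat_card_alternatingGroup, Nat.card_fin]; rfl
  haveI : Fintype (GaloisField 3 2) := Fintype.ofFinite _
  have hF : Fintype.card (GaloisField 3 2) = 9 := by
    rw [← Nat.card_eq_fintype_card, GaloisField.card 3 2 two_ne_zero]; norm_num
  obtain ⟨e₁⟩ := Lib.PSLTwo.iso_psl_nine hG hF
  obtain ⟨e₂⟩ := Lib.PSLTwo.iso_psl_nine hA hF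
  exact ⟨e₁.trans e₂.symm⟩

section Alt

open Equiv

lemma alt4_pow : ∀ g : alternatingGroup (Fin 4), g ^ 2 = 1 ∨ g ^ 3 = 1 := by decide +kernel
lemma alt4_two : (Finset.univ.filter fun g : alternatingGroup (Fin 4) => g ^ 2 = 1 ∧ ¬ g = 1).card = 3 := by decide +kernel
lemma alt4_three : (Finset.univ.filter fun g : alternatingGroup (Fin 4) => g ^ 3 = 1 ∧ ¬ g = 1).card = 8 := by decide +kernel
lemma alt5_pow : ∀ g : alternatingGroup (Fin 5), g ^ 2 = 1 ∨ g ^ 3 = 1 ∨ g ^ 5 = 1 := by decide +kernel
lemma alt5_two : (Finset.univ.filter fun g : alternatingGroup (Fin 5) => g ^ 2 = 1 ∧ ¬ g = 1).card = 15 := by decide +kernel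
lemma alt5_three : (Finset.univ.filter fun g : alternatingGroup (Fin 5) => g ^ 3 = 1 ∧ ¬ g = 1).card = 20 := by decide +kernel
lemma alt5_five : (Finset.univ.filter fun g : alternatingGroup (Fin 5) => g ^ 5 = 1 ∧ ¬ g = 1).card = 24 := by decide +kernel
lemma alt6_pow : ∀ g : alternatingGroup (Fin 6), g ^ 3 = 1 ∨ g ^ 4 = 1 ∨ g ^ 5 = 1 := by decide +kernel
lemma alt6_two : (Finset.univ.filter fun g : alternatingGroup (Fin 6) => g ^ 2 = 1 ∧ ¬ g = 1).card = 45 := by decide +kernel
lemma alt6_three : (Finset.univ.filter fun g : alternatingGroup (Fin 6) => g ^ 3 = 1 ∧ ¬ g = 1).card = 80 := by decide +kernel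
lemma alt6_four : (Finset.univ.filter fun g : alternatingGroup (Fin 6) => g ^ 4 = 1 ∧ ¬ g ^ 2 = 1).card = 90 := by decide +kernel
lemma alt6_five : (Finset.univ.filter fun g : alternatingGroup (Fin 6) => g ^ 5 = 1 ∧ ¬ g = 1).card = 144 := by decide +kernel

lemma N_prime_eq {G : Type*} [Group G] [Fintype G] [DecidableEq G] {p : ℕ} [hp : Fact p.Prime] :
    N G p = (Finset.univ.filter fun g : G => g ^ p = 1 ∧ ¬ g = 1).card := by
  rw [N_eq]
  congr 1
  ext g
  simp only [Finset.mem_filter, Finset.mem_univ, true_and]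
  exact orderOf_eq_prime_iff

lemma ord_of_pow {G : Type*} [Group G] {g : G} {p : ℕ} (hp : p.Prime) (h : g ^ p = 1) :
    orderOf g = 1 ∨ orderOf g = p :=
  (Nat.dvd_prime hp).1 (orderOf_dvd_of_pow_eq_one h)

lemma nse_four : nseSet (alternatingGroup (Fin 4)) = {1, 3, 8} := by
  haveI : Fact (Nat.Prime 3) := ⟨Nat.prime_three⟩
  haveI : Fact (Nat.Prime 2) := ⟨Nat.prime_two⟩
  have e2 : N (alternatingGroup (Fin 4)) 2 = 3 := N_prime_eq.trans alt4_two
  have e3 : N (alternatingGroup (Fin 4)) 3 = 8 := N_prime_eq.trans alt4_three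
  ext v
  constructor
  · rintro ⟨_, ⟨g, rfl⟩, rfl⟩
    change N (alternatingGroup (Fin 4)) (orderOf g) ∈ _
    rcases alt4_pow g with h | h
    · rcases ord_of_pow Nat.prime_two h with h' | h' <;> rw [h'] <;> simp [N_one, e2]
    · rcases ord_of_pow Nat.prime_three h with h' | h' <;> rw [h'] <;> simp [N_one, e3]
  · intro hv
    simp only [Set.mem_insert_iff, Set.mem_singleton_iff] at hv
    rcases hv with rfl | rfl | rfl
    · rw [← N_one (G := alternatingGroup (Fin 4))]; exact mem_nse (by rw [N_one]; norm_num)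
    · rw [← e2]; exact mem_nse (by rw [e2]; norm_num)
    · rw [← e3]; exact mem_nse (by rw [e3]; norm_num)

lemma nse_five : nseSet (alternatingGroup (Fin 5)) = {1, 15, 20, 24} := by
  haveI : Fact (Nat.Prime 5) := ⟨by norm_num⟩
  haveI : Fact (Nat.Prime 3) := ⟨Nat.prime_three⟩
  haveI : Fact (Nat.Prime 2) := ⟨Nat.prime_two⟩
  have e2 : N (alternatingGroup (Fin 5)) 2 = 15 := N_prime_eq.trans alt5_two
  have e3 : N (alternatingGroup (Fin 5)) 3 = 20 := N_prime_eq.trans alt5_three
  have e5 : N (alternatingGroup (Fin 5)) 5 = 24 := N_prime_eq.trans alt5_five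
  ext v
  constructor
  · rintro ⟨_, ⟨g, rfl⟩, rfl⟩
    change N (alternatingGroup (Fin 5)) (orderOf g) ∈ _
    rcases alt5_pow g with h | h | h
    · rcases ord_of_pow Nat.prime_two h with h' | h' <;> rw [h'] <;> simp [N_one, e2]
    · rcases ord_of_pow Nat.prime_three h with h' | h' <;> rw [h'] <;> simp [N_one, e3]
    · rcases ord_of_pow (show Nat.Prime 5 by norm_num) h with h' | h' <;> rw [h'] <;> simp [N_one, e5]
  · intro hv
    simp only [Set.mem_insert_iff, Set.mem_singleton_iff] at hv
    rcases hv with rfl | rfl | rfl | rfl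
    · rw [← N_one (G := alternatingGroup (Fin 5))]; exact mem_nse (by rw [N_one]; norm_num)
    · rw [← e2]; exact mem_nse (by rw [e2]; norm_num)
    · rw [← e3]; exact mem_nse (by rw [e3]; norm_num)
    · rw [← e5]; exact mem_nse (by rw [e5]; norm_num)

lemma nse_six : nseSet (alternatingGroup (Fin 6)) = {1, 45, 80, 90, 144} := by
  haveI : Fact (Nat.Prime 5) := ⟨by norm_num⟩
  haveI : Fact (Nat.Prime 3) := ⟨Nat.prime_three⟩
  haveI : Fact (Nat.Prime 2) := ⟨Nat.prime_two⟩
  have e2 : N (alternatingGroup (Fin 6)) 2 = 45 := N_prime_eq.trans alt6_two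
  have e3 : N (alternatingGroup (Fin 6)) 3 = 80 := N_prime_eq.trans alt6_three
  have e5 : N (alternatingGroup (Fin 6)) 5 = 144 := N_prime_eq.trans alt6_five
  have e4 : N (alternatingGroup (Fin 6)) 4 = 90 := by
    rw [N_eq]
    refine (congrArg Finset.card (Finset.ext fun g => ?_)).trans alt6_four
    simp only [Finset.mem_filter, Finset.mem_univ, true_and]
    constructor
    · intro h
      refine ⟨by rw [← h]; exact pow_orderOf_eq_one g, fun h2 => ?_⟩
      have := Nat.le_of_dvd two_pos (orderOf_dvd_of_pow_eq_one h2)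
      omega
    · rintro ⟨h4, h2⟩
      exact orderOf_eq_prime_pow (p := 2) (n := 1) (by simpa using h2) (by simpa using h4)
  ext v
  constructor
  · rintro ⟨_, ⟨g, rfl⟩, rfl⟩
    change N (alternatingGroup (Fin 6)) (orderOf g) ∈ _
    rcases alt6_pow g with h | h | h
    · rcases ord_of_pow Nat.prime_three h with h' | h' <;> rw [h'] <;> simp [N_one, e3]
    · obtain ⟨i, hi, h'⟩ := (Nat.dvd_prime_pow (m := 2) Nat.prime_two).1 (orderOf_dvd_of_pow_eq_one (show g ^ 2 ^ 2 = 1 by simpa using h))
      rw [h']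
      interval_cases i <;> simp [N_one, e2, e4]
    · rcases ord_of_pow (show Nat.Prime 5 by norm_num) h with h' | h' <;> rw [h'] <;> simp [N_one, e5]
  · intro hv
    simp only [Set.mem_insert_iff, Set.mem_singleton_iff] at hv
    rcases hv with rfl | rfl | rfl | rfl | rfl
    · rw [← N_one (G := alternatingGroup (Fin 6))]; exact mem_nse (by rw [N_one]; norm_num)
    · rw [← e2]; exact mem_nse (by rw [e2]; norm_num)
    · rw [← e3]; exact mem_nse (by rw [e3]; norm_num)
    · rw [← e4]; exact mem_nse (by rw [e4]; norm_num)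
    · rw [← e5]; exact mem_nse (by rw [e5]; norm_num)

end Alt

theorem result {G : Type*} [Group G] [Finite G] (n : ℕ) (hn : n = 4 ∨ n = 5 ∨ n = 6)
    (h : ((fun m : ℕ => Nat.card {g : G // orderOf g = m}) '' Set.range (orderOf : G → ℕ)) = ((fun m : ℕ => Nat.card {g : ↥(alternatingGroup (Fin n)) // orderOf g = m}) '' Set.range (orderOf : ↥(alternatingGroup (Fin n)) → ℕ))) :
    Nonempty (G ≃* ↥(alternatingGroup (Fin n))) := by
  change nseSet G = nseSet (alternatingGroup (Fin n)) at h
  rcases hn with rfl | rfl | rfl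
  · exact four_case (h.trans nse_four)
  · exact five_case (h.trans nse_five)
  · exact six_case (h.trans nse_six)

end Cfsg.Agent.S3431
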