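import Cfsg.Statements.S3704
-- import your own Cfsg.Agent.* helpers here

set_option autoImplicit false
open Cfsg

namespace Cfsg.Agent.S3704

section
open Matrix

variable {ι : Type*} [Fintype ι] [DecidableEq ι]

/-- a square matrix with entries `AᵀA` and `AᵀB` of the shape `xI + yJ` -/
lemma exists_eq_lin (A B : Matrix ι ι ℚ) {a b c d α : ℚ} (ha : a ≠ 0) (hab : a + Fintype.card ι * b ≠ 0)
    (hA : ∀ i j, (Aᵀ * A) i j = if i = j then a + b else b) (hB : ∀ i j, (Aᵀ * B) i j = if i = j then c + d else d)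
    (hα : ∀ i, ∑ j, A i j = α) :
    ∃ l e : ℚ, ∀ i j, B i j = l * A i j + e := by
  let J : Matrix ι ι ℚ := Matrix.of fun _ _ => 1
  have hJ1 : ∀ i j, J i j = 1 := fun _ _ => rfl
  have e1 : Aᵀ * A = a • (1 : Matrix ι ι ℚ) + b • J := by
    ext i j; rw [hA]; by_cases h : i = j <;> simp [Matrix.one_apply, h, hJ1]
  have e2 : Aᵀ * B = c • (1 : Matrix ι ι ℚ) + d • J := by
    ext i j; rw [hB]; by_cases h : i = j <;> simp [Matrix.one_apply, h, hJ1]
  have hJJ : J * J = (Fintype.card ι : ℚ) • J := by ext i j; simp [Matrix.mul_apply, hJ1]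
  have hAJ : A * J = α • J := by ext i j; simp [Matrix.mul_apply, hJ1, hα]
  set s := a + (Fintype.card ι : ℚ) * b
  have hinv : (Aᵀ * A) * (a⁻¹ • (1 : Matrix ι ι ℚ) + (-(b / (a * s))) • J) = 1 := by
    rw [e1]
    simp only [add_mul, mul_add, Matrix.smul_mul, Matrix.mul_smul, one_mul, mul_one, hJJ, smul_smul]
    have e : a⁻¹ * b + (-(b / (a * s)) * a + -(b / (a * s)) * b * (Fintype.card ι : ℚ)) = 0 := by
      field_simp [s]
      simp only [s]; ring
    have e' : a⁻¹ * a = (1 : ℚ) := inv_mul_cancel₀ ha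
    ext i j
    simp only [Matrix.add_apply, Matrix.smul_apply, Matrix.one_apply, hJ1, smul_eq_mul]
    split_ifs <;> first | linear_combination e + e' | linear_combination e
  have hdetT : IsUnit (Aᵀ).det := by
    have := congrArg Matrix.det hinv
    rw [Matrix.det_mul, Matrix.det_mul, mul_assoc, Matrix.det_one] at this
    exact IsUnit.of_mul_eq_one _ this
  have hJ : Aᵀ * ((α / s) • J) = J := by
    have h := congrArg (· * J) e1
    simp only [Matrix.mul_assoc, hAJ, add_mul, Matrix.smul_mul, one_mul, hJJ, Matrix.mul_smul,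
      smul_smul, ← add_smul] at h
    have hs' : a + b * (Fintype.card ι : ℚ) = s := by simp only [s]; ring
    rw [Matrix.mul_smul, show (α / s) = s⁻¹ * α by rw [div_eq_inv_mul], ← smul_smul, h, hs', smul_smul,
      inv_mul_cancel₀ hab, one_smul]
  refine ⟨c / a, (d - c / a * b) * (α / s), fun i j => ?_⟩
  have h3 : Aᵀ * B = Aᵀ * ((c / a) • A + (d - c / a * b) • ((α / s) • J)) := by
    rw [Matrix.mul_add, Matrix.mul_smul, Matrix.mul_smul _ (d - c / a * b), hJ, e1, e2, smul_add, smul_smul, smul_smul,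
      div_mul_cancel₀ c ha, add_assoc, ← add_smul]
    congr 2
    ring
  have h4 : B = (c / a) • A + (d - c / a * b) • ((α / s) • J) := by
    have := congrArg ((Aᵀ)⁻¹ * ·) h3
    simpa only [← Matrix.mul_assoc, Matrix.nonsing_inv_mul _ hdetT, one_mul] using this
  conv_lhs => rw [h4]
  simp [hJ1]

end

/-- Let G be a finite group acting faithfully and 2-transitively on a finite set Ω of size n, and let H be a subgroup of index n in G which is not transitive on Ω and fixes no point of Ω. Then H has exactly two orbits on Ω. -/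
theorem result {G Ω : Type*} [Group G] [Finite G] [MulAction G Ω] [FaithfulSMul G Ω] [Finite Ω] (h2 : MulAction.IsMultiplyPretransitive G Ω 2) (H : Subgroup G) (hidx : H.index = Nat.card Ω) (hnt : ¬ MulAction.IsPretransitive H Ω) (hfix : ∀ a : Ω, ∃ h : H, h • a ≠ a) : Nat.card (MulAction.orbitRel.Quotient H Ω) = 2 := by
  classical
  have := Fintype.ofFinite Ω
  have : Nonempty Ω := by
    by_contra hne
    rw [not_nonempty_iff] at hne
    exact hnt ⟨fun a => isEmptyElim a⟩
  let Q := MulAction.orbitRel.Quotient H Ω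
  by_contra hk
  -- three orbits
  have h1 : 1 < Nat.card Q := by
    rw [Finite.one_lt_card_iff_nontrivial]
    by_contra hne
    rw [not_nontrivial_iff_subsingleton] at hne
    exact hnt (MulAction.pretransitive_iff_subsingleton_quotient H Ω |>.2 hne)
  obtain ⟨⟨q₁, q₂, q₃⟩, h12, h13, h23⟩ : ∃ q : Q × Q × Q, q.1 ≠ q.2.1 ∧ q.1 ≠ q.2.2 ∧ q.2.1 ≠ q.2.2 := by
    have := Fintype.ofFinite Q
    have h3 : 2 < Fintype.card Q := by rw [← Nat.card_eq_fintype_card]; change Nat.card Q ≠ 2 at hk; omega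
    obtain ⟨a, b, c, h⟩ := Fintype.two_lt_card_iff.1 h3
    exact ⟨⟨a, b, c⟩, h⟩
  have hne : Nonempty (Ω ≃ G ⧸ H) := ⟨Classical.choice (Finite.card_eq.1 hidx.symm)⟩
  obtain ⟨e⟩ := hne
  let g : Ω → G := fun i => (e i).out
  let A : Q → Matrix Ω Ω ℚ := fun q i a => if (Quotient.mk'' ((g i)⁻¹ • a) : Q) = q then 1 else 0
  let σ : G → Ω ≃ Ω := fun h => (e.trans (MulAction.toPerm h)).trans e.symm
  have hA : ∀ (h : G) (q : Q) (i a : Ω), A q (σ h i) (h • a) = A q i a := by
    intro h q i a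
    have h' : e (σ h i) = h • e i := by simp [σ]
    have h'' : ((g (σ h i) : G) : G ⧸ H) = ((h * g i : G) : G ⧸ H) := by
      rw [QuotientGroup.out_eq', h', ← smul_eq_mul, ← MulAction.Quotient.smul_coe]
      simp [g]
    rw [QuotientGroup.eq] at h''
    have e1 : (Quotient.mk'' ((g (σ h i))⁻¹ • (h • a)) : Q) = Quotient.mk'' ((g i)⁻¹ • a) := by
      refine Quotient.sound' (MulAction.orbitRel_apply.2 ⟨⟨_, h''⟩, ?_⟩)
      show ((g (σ h i))⁻¹ * (h * g i)) • ((g i)⁻¹ • a) = (g (σ h i))⁻¹ • (h • a)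
      rw [smul_smul, smul_smul]; group
    simp only [A, e1]
  have hinv : ∀ (p q : Q) (h : G) (a b : Ω), ((A p).transpose * A q) (h • a) (h • b) = ((A p).transpose * A q) a b := by
    intro p q h a b
    simp only [Matrix.mul_apply, Matrix.transpose_apply]
    rw [← (σ h).sum_comp]
    exact Finset.sum_congr rfl fun i _ => by rw [hA, hA]
  haveI := h2
  have htrans : MulAction.IsPretransitive G Ω := MulAction.isPretransitive_of_is_two_pretransitive
  have : Nontrivial Ω := by
    obtain ⟨a, rfl⟩ := Quotient.mk''_surjective q₁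
    obtain ⟨b, rfl⟩ := Quotient.mk''_surjective q₂
    exact ⟨⟨a, b, fun h => h12 (by rw [h])⟩⟩
  obtain ⟨a₀, b₀, hab₀⟩ := exists_pair_ne Ω
  have hshape : ∀ p q : Q, ∀ a b : Ω, ((A p).transpose * A q) a b =
      if a = b then ((A p).transpose * A q) a₀ a₀ else ((A p).transpose * A q) a₀ b₀ := by
    intro p q a b
    split_ifs with h
    · obtain ⟨k, hk⟩ := MulAction.exists_smul_eq G a₀ a
      rw [← h, ← hk, hinv]
    · obtain ⟨k, hk1, hk2⟩ := MulAction.is_two_pretransitive_iff.1 h2 hab₀ h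
      rw [← hk1, ← hk2, hinv]
  have hpt : ∀ (q : Q) (i : Ω), ∃ a, ∀ q', A q' i a = if q = q' then 1 else 0 := by
    intro q i
    obtain ⟨x, rfl⟩ := Quotient.mk''_surjective q
    exact ⟨g i • x, fun q' => by simp [A]⟩
  have hrow : ∀ (q : Q) (i : Ω), ∑ a, A q i a = ∑ a, A q a₀ a := by
    intro q i
    obtain ⟨k, hk⟩ : ∃ k : G, σ k a₀ = i := by
      obtain ⟨k, hk⟩ := MulAction.exists_smul_eq G (e a₀) (e i)
      refine ⟨k, e.injective ?_⟩
      simp only [σ, Equiv.trans_apply, Equiv.apply_symm_apply, MulAction.toPerm_apply, hk]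
    rw [← hk, ← Equiv.sum_comp (MulAction.toPerm k) (fun a => A q (σ k a₀) a)]
    exact Finset.sum_congr rfl fun a _ => hA k q a₀ a
  set a := ((A q₁).transpose * A q₁) a₀ a₀ - ((A q₁).transpose * A q₁) a₀ b₀
  set b := ((A q₁).transpose * A q₁) a₀ b₀
  have ha : a ≠ 0 := by
    intro h0
    obtain ⟨u, hu⟩ := hpt q₁ a₀
    obtain ⟨v, hv⟩ := hpt q₂ a₀
    have huv : u ≠ v := fun h => by have := (h ▸ hu) q₁; rw [hv] at this; simp [h12.symm] at this
    have e1 : ((A q₁).transpose * A q₁) u u = ((A q₁).transpose * A q₁) u v := by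
      rw [hshape q₁ q₁ u u, hshape q₁ q₁ u v, if_pos rfl, if_neg huv]
      exact sub_eq_zero.1 h0
    simp only [Matrix.mul_apply, Matrix.transpose_apply] at e1
    rw [← sub_eq_zero, ← Finset.sum_sub_distrib] at e1
    have hz := (Finset.sum_eq_zero_iff_of_nonneg (fun i _ => ?_)).1 e1 a₀ (Finset.mem_univ _)
    · rw [hu, hv] at hz; simp [h12.symm] at hz
    · simp only [A]; split_ifs <;> norm_num
  have hs : a + Fintype.card Ω * b ≠ 0 := by
    have hsum : ∑ v, ((A q₁).transpose * A q₁) a₀ v = a + Fintype.card Ω * b := by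
      rw [Finset.sum_congr rfl fun v _ => hshape q₁ q₁ a₀ v]
      have : ∀ v : Ω, (if a₀ = v then ((A q₁).transpose * A q₁) a₀ a₀ else b) = (if a₀ = v then a else 0) + b := by
        intro v; split_ifs
        · simp only [a, b]; ring
        · ring
      rw [Finset.sum_congr rfl fun v _ => this v, Finset.sum_add_distrib, Finset.sum_ite_eq,
        if_pos (Finset.mem_univ _), Finset.sum_const, nsmul_eq_mul, Finset.card_univ]
    rw [← hsum]
    refine ne_of_gt ?_
    have hnn : ∀ i j, 0 ≤ A q₁ i j := fun i j => by simp only [A]; split_ifs <;> norm_num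
    have hpos : 0 < ((A q₁).transpose * A q₁) a₀ a₀ := by
      obtain ⟨i, hi⟩ : ∃ i, A q₁ i a₀ = 1 := by
        obtain ⟨u, hu⟩ := hpt q₁ a₀
        obtain ⟨k, hk⟩ := MulAction.exists_smul_eq G u a₀
        refine ⟨σ k a₀, ?_⟩
        have := hA k q₁ a₀ u
        rw [hk, hu] at this
        simpa using this
      simp only [Matrix.mul_apply, Matrix.transpose_apply]
      exact Finset.sum_pos' (fun j _ => mul_nonneg (hnn _ _) (hnn _ _)) ⟨i, Finset.mem_univ _, by rw [hi]; norm_num⟩
    exact hpos.trans_le (Finset.single_le_sum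
      (f := fun v => ((A q₁).transpose * A q₁) a₀ v)
      (fun v _ => Finset.sum_nonneg fun j _ => mul_nonneg (hnn _ _) (hnn _ _)) (Finset.mem_univ _))
  obtain ⟨l, c, hlc⟩ := exists_eq_lin (A q₁) (A q₂) (a := a) (b := b)
    (c := ((A q₁).transpose * A q₂) a₀ a₀ - ((A q₁).transpose * A q₂) a₀ b₀) (d := ((A q₁).transpose * A q₂) a₀ b₀)
    ha hs (fun i j => by simp only [hshape q₁ q₁ i j, a, b, sub_add_cancel])
    (fun i j => by simp only [hshape q₁ q₂ i j, sub_add_cancel]) (hrow q₁)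
  obtain ⟨u, hu⟩ := hpt q₂ a₀
  obtain ⟨v, hv⟩ := hpt q₃ a₀
  have e1 := hlc a₀ u
  have e2 := hlc a₀ v
  rw [hu, hu] at e1
  rw [hv, hv] at e2
  simp [h12.symm, h13.symm, h23.symm] at e1 e2
  linarith

end Cfsg.Agent.S3704
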