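import Cfsg.Statements.S3733
import Cfsg.Agent.Lib.Coprime.Basic
import Mathlib

set_option autoImplicit false
open Cfsg

namespace Cfsg.Agent.S3733


open Subgroup

/-- Let A and V be subgroups of a finite group with V abelian and nontrivial and A normalizing V. Suppose a nonempty finite family of proper subgroups of A partitions A: every non-identity element of A lies in exactly one member. If the number of members minus one is coprime to the order of V, then some member B of the family has a non-identity fixed point on V, that is V ∩ C(B) ≠ 1. -/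
theorem result {G : Type*} [Group G] [Finite G] (A V : Subgroup G) (hVab : IsMulCommutative V) (hV : V ≠ ⊥) (hAV : A ≤ Subgroup.normalizer (V : Set G)) (𝒜 : Finset (Subgroup G)) (hne : 𝒜.Nonempty) (hprop : ∀ B ∈ 𝒜, B < A) (hpart : ∀ a ∈ A, a ≠ 1 → ∃! B, B ∈ 𝒜 ∧ a ∈ B) (hk : (𝒜.card - 1).Coprime (Nat.card V)) : ∃ B ∈ 𝒜, V ⊓ Subgroup.centralizer (B : Set G) ≠ ⊥ := by
  classical
  haveI := Fintype.ofFinite G
  by_contra hcon
  push_neg at hcon
  obtain ⟨B0, hB0⟩ := hne
  obtain ⟨v, hv, hv1⟩ := (bot_or_exists_ne_one V).resolve_left hV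
  letI : CommGroup V := { (inferInstance : Group V) with
    mul_comm := fun a b => hVab.is_comm.comm a b }
  let f : G → V := fun a => if h : a ∈ A then ⟨a * v * a⁻¹, (mem_normalizer_iff.mp (hAV h) v).mp hv⟩ else 1
  let S : Subgroup G → Finset G := fun B => Finset.univ.filter (· ∈ B)
  have hmemS : ∀ B x, x ∈ S B ↔ x ∈ B := fun B x => by simp [S]
  have hBA : ∀ B ∈ 𝒜, B ≤ A := fun B hB => (hprop B hB).le
  -- a product over a subgroup is fixed by it
  have hfix : ∀ B : Subgroup G, B ≤ A → ∀ b ∈ B, (b : G) * (∏ a ∈ S B, f a : V) * b⁻¹ = (∏ a ∈ S B, f a : V) := by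
    intro B hB b hb
    let φ : V →* V :=
      { toFun := fun x => ⟨b * x * b⁻¹, (mem_normalizer_iff.mp (hAV (hB hb)) x).mp x.2⟩
        map_one' := Subtype.ext (by simp)
        map_mul' := fun x y => Subtype.ext (by push_cast; group) }
    show (φ (∏ a ∈ S B, f a) : G) = _
    rw [map_prod]
    congr 1
    refine Finset.prod_nbij' (b * ·) (b⁻¹ * ·) ?_ ?_ ?_ ?_ ?_
    · exact fun a ha => (hmemS B _).mpr (B.mul_mem hb ((hmemS B a).mp ha))
    · exact fun a ha => (hmemS B _).mpr (B.mul_mem (B.inv_mem hb) ((hmemS B a).mp ha))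
    · exact fun a _ => inv_mul_cancel_left b a
    · exact fun a _ => mul_inv_cancel_left b a
    · intro a ha
      have haB := hB ((hmemS B a).mp ha)
      apply Subtype.ext
      simp only [f, dif_pos haB, dif_pos (A.mul_mem (hB hb) haB), φ, MonoidHom.coe_mk, OneHom.coe_mk]
      group
  have hzero : ∀ B ∈ 𝒜, ∏ a ∈ S B, f a = 1 := fun B hB => by
    have h1 : ((∏ a ∈ S B, f a : V) : G) ∈ V ⊓ centralizer (B : Set G) :=
      ⟨SetLike.coe_mem _, mem_centralizer_iff.mpr fun b hb => mul_inv_eq_iff_eq_mul.mp (hfix B (hBA B hB) b hb)⟩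
    rw [hcon B hB, mem_bot, OneMemClass.coe_eq_one] at h1
    exact h1
  have hA1 : ∏ a ∈ S A, f a = 1 := by
    have h1 : ((∏ a ∈ S A, f a : V) : G) ∈ V ⊓ centralizer (B0 : Set G) :=
      ⟨SetLike.coe_mem _, mem_centralizer_iff.mpr fun b hb => mul_inv_eq_iff_eq_mul.mp
        (hfix A le_rfl b (hBA B0 hB0 hb))⟩
    rw [hcon B0 hB0, mem_bot, OneMemClass.coe_eq_one] at h1
    exact h1
  have hdisj : (𝒜 : Set (Subgroup G)).PairwiseDisjoint (fun B => (S B).erase 1) := by
    intro B hB B' hB' hne'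
    refine Finset.disjoint_left.mpr fun a ha ha' => hne' ?_
    rw [Finset.mem_erase, hmemS] at ha ha'
    obtain ⟨C, -, huniq⟩ := hpart a (hBA B hB ha.2) ha.1
    rw [huniq B ⟨hB, ha.2⟩, huniq B' ⟨hB', ha'.2⟩]
  have hunion : 𝒜.biUnion (fun B => (S B).erase 1) = (S A).erase 1 := by
    ext a
    simp only [Finset.mem_biUnion, Finset.mem_erase, hmemS]
    constructor
    · rintro ⟨B, hB, ha1, ha⟩
      exact ⟨ha1, hBA B hB ha⟩
    · rintro ⟨ha1, ha⟩
      obtain ⟨C, ⟨hC, haC⟩, -⟩ := hpart a ha ha1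
      exact ⟨C, hC, ha1, haC⟩
  set X := ∏ a ∈ (S A).erase 1, f a with hX
  have h1 : ∀ B : Subgroup G, ∏ a ∈ S B, f a = f 1 * ∏ a ∈ (S B).erase 1, f a := fun B =>
    (Finset.mul_prod_erase _ _ ((hmemS B 1).mpr B.one_mem)).symm
  have h2 : f 1 ^ 𝒜.card * X = 1 := by
    rw [hX, ← hunion, Finset.prod_biUnion hdisj, ← Finset.prod_const, ← Finset.prod_mul_distrib]
    exact Finset.prod_eq_one fun B hB => by rw [← h1]; exact hzero B hB
  have h3 : f 1 * X = 1 := (h1 A).symm.trans hA1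
  have hcard : 1 ≤ 𝒜.card := Finset.card_pos.mpr ⟨B0, hB0⟩
  have h4 : f 1 ^ (𝒜.card - 1) = 1 := by
    rw [show 𝒜.card = 𝒜.card - 1 + 1 by omega, pow_succ, mul_assoc, h3, mul_one] at h2
    exact h2
  have h5 : f 1 = 1 := orderOf_eq_one_iff.mp (Nat.eq_one_of_dvd_coprimes hk
    (orderOf_dvd_of_pow_eq_one h4) (orderOf_dvd_natCard _))
  apply hv1
  have := congrArg Subtype.val h5
  simp only [f, dif_pos A.one_mem] at this
  simpa using this

end Cfsg.Agent.S3733
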