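import Cfsg.Statements.S3734
import Cfsg.Agent.Lib.Coprime.Abelian
import Mathlib

set_option autoImplicit false
open Cfsg

namespace Cfsg.Agent.S3734

open Subgroup
open Cfsg.Agent.Lib.Coprime
open scoped Pointwise commutatorElement

variable {X : Type*} [Group X] [Finite X] {A G : Subgroup X}

/-- the subgroup generated by the fixed points of the cocyclic subgroups -/
noncomputable abbrev gen (A G : Subgroup X) : Subgroup X :=
  ⨆ B ∈ {B : Subgroup X | B ≤ A ∧ ∃ a ∈ A, B ⊔ Subgroup.zpowers a = A}, G ⊓ Subgroup.centralizer (B : Set X)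

lemma le_centralizer_of_le_comm (hAab : IsMulCommutative A) {B : Subgroup X} (hB : B ≤ A) :
    A ≤ centralizer (B : Set X) := fun a ha =>
  mem_centralizer_iff.mpr fun b hb => congrArg Subtype.val (hAab.1.1 ⟨b, hB hb⟩ ⟨a, ha⟩)

lemma gen_eq (hAab : IsMulCommutative A) (hAG : A ≤ normalizer (G : Set X))
    (hcop : (Nat.card A).Coprime (Nat.card G)) : ∀ (n : ℕ) (B₀ : Subgroup X), B₀ ≤ A →
      B₀.relIndex A = n → G ⊓ centralizer (B₀ : Set X) ≤ gen A G := by
  intro n
  induction n using Nat.strong_induction_on with | _ n ih => ?_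
  intro B₀ hB₀ hn
  set H := G ⊓ centralizer (B₀ : Set X) with hH
  set B₁ := A ⊓ centralizer (H : Set X) with hB₁
  have hB₁A : B₁ ≤ A := inf_le_left
  have h01 : B₀ ≤ B₁ := le_inf hB₀ (le_centralizer_iff.mp inf_le_right)
  have hHC : H ≤ centralizer (B₁ : Set X) := le_centralizer_iff.mp inf_le_right
  set T := centralizer (B₁ : Set X) with hT
  have hAT : A ≤ T := le_centralizer_of_le_comm hAab hB₁A
  haveI : (B₁.subgroupOf T).Normal := by
    rw [normal_subgroupOf_iff_le_normalizer (hB₁A.trans hAT)]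
    exact Subgroup.centralizer_le_normalizer _
  set f := QuotientGroup.mk' (B₁.subgroupOf T) with hf
  set Ab := (A.subgroupOf T).map f with hAb
  set Hb := (H.subgroupOf T).map f with hHb
  by_cases hcyc : IsCyclic Ab
  · obtain ⟨⟨g, hg⟩, hgen⟩ := hcyc
    obtain ⟨a, ha, rfl⟩ := hg
    refine le_trans (le_inf inf_le_left hHC) (le_iSup₂_of_le B₁ ⟨hB₁A, (a : X), ha, ?_⟩ le_rfl)
    refine le_antisymm (sup_le hB₁A (zpowers_le.mpr ha)) fun b hb => ?_
    obtain ⟨k, hk⟩ := hgen ⟨f ⟨b, hAT hb⟩, ⟨_, hb, rfl⟩⟩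
    have hk' : f a ^ k = f ⟨b, hAT hb⟩ := congrArg Subtype.val hk
    rw [← map_zpow] at hk'
    have h1 : ((a ^ k)⁻¹ * ⟨b, hAT hb⟩ : ↥T) ∈ B₁.subgroupOf T := QuotientGroup.eq.mp hk'
    have h2 : (a : X) ^ k * (((a : X) ^ k)⁻¹ * b) ∈ zpowers (a : X) ⊔ B₁ := by
      refine mul_mem_sup (zpow_mem (mem_zpowers _) k) ?_
      simpa [mem_subgroupOf] using h1
    rw [sup_comm]
    simpa using h2
  haveI : IsMulCommutative Ab := by
    refine IsMulCommutative.of_setLike_mul_comm ?_
    rintro _ ⟨x, hx, rfl⟩ _ ⟨y, hy, rfl⟩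
    rw [← map_mul, ← map_mul]
    exact congrArg f (Subtype.ext (congrArg (Subtype.val : ↥A → X) (hAab.1.1 ⟨x, hx⟩ ⟨y, hy⟩)))
  have hHA : A ≤ normalizer (H : Set X) :=
    (le_inf hAG ((le_centralizer_of_le_comm hAab hB₀).trans le_normalizer)).trans
      inf_normalizer_le_normalizer_inf
  have hfix := fixGen_eq (A := Ab) (K := Hb) hcyc (by
      rintro _ ⟨x, hx, rfl⟩
      refine le_normalizer_map f ⟨x, ?_, rfl⟩
      rw [SetLike.mem_coe, mem_normalizer_iff]
      intro y
      exact mem_normalizer_iff.mp (hHA hx) (y : X))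
    (by
      refine (hcop.coprime_dvd_left ?_).coprime_dvd_right ?_
      · exact (card_map_dvd _ _).trans (card_subgroupOf hAT).dvd
      · exact (card_map_dvd _ _).trans ((card_subgroupOf hHC).dvd.trans (card_dvd_of_le inf_le_left)))
  have hdisj : ∀ x ∈ H, x ∈ B₁ → x = 1 := fun x hx hx' => by
    have h : x ∈ A ⊓ G := ⟨hB₁A hx', hx.1⟩
    rwa [Cfsg.Agent.Lib.Coprime.inf_eq_bot_of_coprime hcop, mem_bot] at h
  have hkey : Hb ≤ ((gen A G ⊓ H).subgroupOf T).map f := by
    refine hfix.ge.trans (iSup₂_le ?_)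
    rintro ab ⟨hab, hab1⟩
    obtain ⟨a, ha, rfl⟩ := hab
    have haB : (a : X) ∉ B₁ := fun h => hab1 ((QuotientGroup.eq_one_iff a).mpr h)
    have hlt : (B₀ ⊔ zpowers (a : X)).relIndex A < n := by
      rw [← hn]
      have hle : B₀ ≤ B₀ ⊔ zpowers (a : X) := le_sup_left
      have h2 := relIndex_mul_relIndex _ _ A hle (sup_le hB₀ (zpowers_le.mpr ha))
      have h3 : 1 < B₀.relIndex (B₀ ⊔ zpowers (a : X)) := by
        rcases Nat.lt_or_ge 1 (B₀.relIndex (B₀ ⊔ zpowers (a : X))) with h | h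
        · exact h
        · exfalso
          have h1 : B₀.relIndex (B₀ ⊔ zpowers (a : X)) = 1 :=
            le_antisymm h (Nat.one_le_iff_ne_zero.mpr Subgroup.index_ne_zero_of_finite)
          exact haB (h01 (relIndex_eq_one.mp h1 (mem_sup_right (mem_zpowers _))))
      rw [← h2]
      exact lt_mul_of_one_lt_left (Nat.pos_of_ne_zero Subgroup.index_ne_zero_of_finite) h3
    have hsub := ih _ hlt (B₀ ⊔ zpowers (a : X)) (sup_le hB₀ (zpowers_le.mpr ha)) rfl
    rintro y ⟨hy, hya⟩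
    obtain ⟨h, hh, rfl⟩ := hy
    refine ⟨h, ?_, rfl⟩
    have hcomm : (h : X) * a = a * h := by
      have h1 : f (h * a) = f (a * h) := by
        rw [map_mul, map_mul]; exact mem_centralizer_singleton_iff.mp hya
      have h2 : ((h * a)⁻¹ * (a * h) : ↥T) ∈ B₁.subgroupOf T := QuotientGroup.eq.mp h1
      have h3 : ((h : X) * a)⁻¹ * ((a : X) * h) ∈ H := by
        rw [mul_inv_rev, show (a : X)⁻¹ * (h : X)⁻¹ * ((a : X) * h) = ((a : X)⁻¹ * (h : X)⁻¹ * a) * h by group]
        refine H.mul_mem ?_ hh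
        have := (mem_normalizer_iff.mp (hHA (inv_mem ha)) _).mp (inv_mem hh)
        simpa using this
      have h4 := hdisj _ h3 (by simpa [mem_subgroupOf] using h2)
      exact (inv_mul_eq_one.mp h4)
    refine ⟨hsub ⟨hh.1, ?_⟩, hh⟩
    have hle : B₀ ⊔ zpowers (a : X) ≤ centralizer {(h : X)} := sup_le
      (fun b hb => mem_centralizer_singleton_iff.mpr (mem_centralizer_iff.mp hh.2 b hb))
      (zpowers_le.mpr (mem_centralizer_singleton_iff.mpr hcomm.symm))
    exact mem_centralizer_iff.mpr fun b hb => mem_centralizer_singleton_iff.mp (hle hb)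
  intro x hx
  obtain ⟨y, hy, hxy⟩ := hkey ⟨⟨x, hHC hx⟩, hx, rfl⟩
  have h1 : (y⁻¹ * ⟨x, hHC hx⟩ : ↥T) ∈ B₁.subgroupOf T := QuotientGroup.eq.mp hxy
  have h2 := hdisj ((y : X)⁻¹ * x) (H.mul_mem (H.inv_mem hy.2) hx) (by simpa [mem_subgroupOf] using h1)
  rw [inv_mul_eq_one] at h2
  exact h2 ▸ hy.1

/-- Let A and G be subgroups of a finite group with A abelian, A normalizing G and the orders of A and G coprime. Then G is generated by the fixed-point subgroups C_G(B) of those subgroups B of A for which A/B is cyclic (that is, A = ⟨B, a⟩ for some a), and [G, A] is generated by the commutator subgroups [C_G(B), A] over the same subgroups B. -/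
theorem result {X : Type*} [Group X] [Finite X] (A G : Subgroup X) (hAab : IsMulCommutative A) (hAG : A ≤ Subgroup.normalizer (G : Set X)) (hcop : (Nat.card A).Coprime (Nat.card G)) : (⨆ B ∈ {B : Subgroup X | B ≤ A ∧ ∃ a ∈ A, B ⊔ Subgroup.zpowers a = A}, G ⊓ Subgroup.centralizer (B : Set X)) = G ∧ (⨆ B ∈ {B : Subgroup X | B ≤ A ∧ ∃ a ∈ A, B ⊔ Subgroup.zpowers a = A}, ⁅G ⊓ Subgroup.centralizer (B : Set X), A⁆) = ⁅G, A⁆ := by
  have key : ∀ K : Subgroup X, A ≤ normalizer (K : Set X) → (Nat.card A).Coprime (Nat.card K) →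
      gen A K = K := fun K hAK hc =>
    le_antisymm (iSup₂_le fun _ _ => inf_le_left)
      (le_trans (le_inf le_rfl fun x _ => mem_centralizer_iff.mpr (by simp))
        (gen_eq hAab hAK hc _ ⊥ bot_le rfl))
  refine ⟨key G hAG hcop, le_antisymm (iSup₂_le fun B _ => commutator_mono inf_le_left le_rfl) ?_⟩
  set L := ⨆ B ∈ {B : Subgroup X | B ≤ A ∧ ∃ a ∈ A, B ⊔ Subgroup.zpowers a = A},
    ⁅G ⊓ Subgroup.centralizer (B : Set X), A⁆ with hL
  have hsolA : Group.IsSolvable A := Group.isSolvable_of_comm fun a b => hAab.1.1 a b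
  set G1 := ⁅G, A⁆ with hG1
  have hG1G : G1 ≤ G := commutator_le_of_le_normalizer' hAG
  have hAG1 : A ≤ normalizer (G1 : Set X) := right_le_normalizer_commutator G A
  have hcop1 := hcop.coprime_dvd_right (card_dvd_of_le hG1G)
  set C := G ⊓ centralizer (A : Set X) with hC
  -- `C_G(A)` and `A` normalise `L`
  have hnorm : ∀ g ∈ C ⊔ A, MulAut.conj g • L = L := by
    have hAN : ∀ B : Subgroup X, B ≤ A → C ⊔ A ≤ normalizer ((⁅G ⊓ centralizer (B : Set X), A⁆ : Subgroup X) : Set X) :=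
      fun B hB => sup_le (le_trans (inf_le_inf_left _ (centralizer_le hB))
        (left_le_normalizer_commutator _ _)) (right_le_normalizer_commutator _ _)
    intro g hg
    have hle : ∀ g ∈ C ⊔ A, MulAut.conj g • L ≤ L := by
      intro g hg
      rw [pointwise_smul_subset_iff, hL]
      refine iSup₂_le fun B hB => ?_
      rw [← pointwise_smul_subset_iff, conj_smul_eq_self (hAN B hB.1 hg)]
      exact le_iSup₂_of_le B hB le_rfl
    refine le_antisymm (hle g hg) ?_
    calc L = MulAut.conj g • MulAut.conj g⁻¹ • L := (conj_smul_inv_smul _ _).symm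
      _ ≤ _ := pointwise_smul_le_pointwise_smul_iff.mpr (hle _ (inv_mem hg))
  have hCN : C ≤ normalizer (L : Set X) := fun c hc =>
    mem_normalizer_of_conj_smul_eq (hnorm c (mem_sup_left hc))
  have hAN : A ≤ normalizer (L : Set X) := fun c hc =>
    mem_normalizer_of_conj_smul_eq (hnorm c (mem_sup_right hc))
  have hsup : G1 ≤ L ⊔ C := by
    rw [← key G1 hAG1 hcop1]
    refine iSup₂_le fun B hB => ?_
    have hAB : A ≤ normalizer ((G1 ⊓ centralizer (B : Set X) : Subgroup X) : Set X) :=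
      (le_inf hAG1 ((le_centralizer_of_le_comm hAab hB.1).trans le_normalizer)).trans
        inf_normalizer_le_normalizer_inf
    rw [← commutator_sup_centralizer hAB (hcop1.coprime_dvd_right (card_dvd_of_le inf_le_left)) (Or.inl hsolA)]
    refine sup_le (le_trans ?_ le_sup_left) (le_trans ?_ le_sup_right)
    · exact le_iSup₂_of_le B hB (commutator_mono (inf_le_inf_right _ hG1G) le_rfl)
    · exact inf_le_inf_right _ (inf_le_left.trans hG1G)
  rw [hG1, ← commutator_commutator hAG hcop (Or.inl hsolA), commutator_le]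
  intro x hx a ha
  obtain ⟨c, hc, l, hl, rfl⟩ : ∃ c ∈ C, ∃ l ∈ L, c * l = x := by
    have := hsup hx
    rw [sup_comm, mem_sup_of_le_normalizer hCN] at this
    exact this
  have hca : c * a = a * c := (mem_centralizer_iff.mp hc.2 a ha).symm
  have hla : ⁅l, a⁆ ∈ L := by
    rw [commutatorElement_def, mul_assoc, mul_assoc]
    refine L.mul_mem hl ?_
    rw [← mul_assoc]
    exact (mem_normalizer_iff.mp (hAN ha) _).mp (L.inv_mem hl)
  have e : ⁅c * l, a⁆ = c * ⁅l, a⁆ * c⁻¹ := by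
    calc ⁅c * l, a⁆ = c * l * a * l⁻¹ * (c⁻¹ * a⁻¹) := by rw [commutatorElement_def]; group
      _ = c * l * a * l⁻¹ * (a⁻¹ * c⁻¹) := by rw [← mul_inv_rev, ← mul_inv_rev, hca]
      _ = c * ⁅l, a⁆ * c⁻¹ := by rw [commutatorElement_def]; group
  rw [e]
  exact (mem_normalizer_iff.mp (hCN hc) _).mp hla

end Cfsg.Agent.S3734
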