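import Cfsg.Statements.S3735
import Cfsg.Agent.Lib.Coprime.Action
import Mathlib

set_option autoImplicit false
open Cfsg

namespace Cfsg.Agent.S3735


open Subgroup
open scoped Pointwise

/-- Clifford's Theorem for actions on finite abelian groups, first part. Let H and V be subgroups of a finite group with V abelian and H normalizing V, and let A be a normal subgroup of H. If every H-invariant subgroup of V has an H-invariant complement in V, then every A-invariant subgroup of V has an A-invariant complement in V. -/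
theorem result {G : Type*} [Group G] [Finite G] (H A V : Subgroup G) (hVab : IsMulCommutative V) (hHV : H ≤ Subgroup.normalizer (V : Set G)) (hAH : A ≤ H) (hAn : H ≤ Subgroup.normalizer (A : Set G)) (hss : ∀ U : Subgroup G, U ≤ V → H ≤ Subgroup.normalizer (U : Set G) → ∃ W : Subgroup G, W ≤ V ∧ H ≤ Subgroup.normalizer (W : Set G) ∧ U ⊓ W = ⊥ ∧ U ⊔ W = V) (U : Subgroup G) (hUV : U ≤ V) (hAU : A ≤ Subgroup.normalizer (U : Set G)) : ∃ W : Subgroup G, W ≤ V ∧ A ≤ Subgroup.normalizer (W : Set G) ∧ U ⊓ W = ⊥ ∧ U ⊔ W = V := by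
  have hcomm : ∀ x ∈ V, ∀ y ∈ V, x * y = y * x := fun x hx y hy =>
    congrArg Subtype.val (hVab.is_comm.comm (⟨x, hx⟩ : V) ⟨y, hy⟩)
  let S : Set (Subgroup G) := {X | X ≤ V ∧ A ≤ normalizer (X : Set G) ∧ X ≠ ⊥ ∧
    ∀ Y : Subgroup G, Y ≤ X → A ≤ normalizer (Y : Set G) → Y = ⊥ ∨ Y = X}
  have hmin : ∀ X : Subgroup G, X ≤ V → A ≤ normalizer (X : Set G) → X ≠ ⊥ → ∃ Y ∈ S, Y ≤ X := by
    intro X hXV hX hne
    obtain ⟨Y, ⟨hYX, hYA, hYne⟩, hY⟩ := (Set.toFinite {Y : Subgroup G | Y ≤ X ∧ A ≤ normalizer (Y : Set G) ∧ Y ≠ ⊥}).exists_minimal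
      ⟨X, le_rfl, hX, hne⟩
    refine ⟨Y, ⟨hYX.trans hXV, hYA, hYne, fun Z hZY hZA => or_iff_not_imp_left.mpr fun hZ => ?_⟩, hYX⟩
    exact le_antisymm hZY (hY ⟨hZY.trans hYX, hZA, hZ⟩ hZY)
  set M := sSup S
  have hMV : M ≤ V := sSup_le fun X hX => hX.1
  have hcjS : ∀ h ∈ H, ∀ X ∈ S, MulAut.conj h • X ∈ S := by
    intro h hh X hX
    have hAfix : MulAut.conj h • A = A := Lib.Coprime.conj_smul_eq_self (hAn hh)
    have hnorm : ∀ (Y : Subgroup G) (g : G), g ∈ H → A ≤ normalizer (Y : Set G) →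
        A ≤ normalizer ((MulAut.conj g • Y : Subgroup G) : Set G) := by
      intro Y g hg hY a ha
      apply Lib.Coprime.mem_normalizer_of_conj_smul_eq
      have h1 : g⁻¹ * a * g ∈ A := by
        have := (mem_normalizer_iff.mp (hAn (H.inv_mem hg)) a).mp ha
        simpa using this
      rw [← Lib.Coprime.conj_smul_mul, show a * g = g * (g⁻¹ * a * g) by group, Lib.Coprime.conj_smul_mul,
        Lib.Coprime.conj_smul_eq_self (hY h1)]
    refine ⟨?_, hnorm X h hh hX.2.1, fun h0 => hX.2.2.1 ?_, fun Y hY hYA => ?_⟩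
    · rw [← Lib.Coprime.conj_smul_eq_self (hHV hh)]
      exact pointwise_smul_le_pointwise_smul_iff.mpr hX.1
    · have := congrArg (fun Z : Subgroup G => MulAut.conj h⁻¹ • Z) h0
      simp only [Lib.Coprime.conj_inv_smul_smul] at this
      rw [this, Subgroup.smul_bot]
    · have h1 := hX.2.2.2 (MulAut.conj h⁻¹ • Y) (by
        rw [← Lib.Coprime.conj_inv_smul_smul h X]
        exact pointwise_smul_le_pointwise_smul_iff.mpr hY) (hnorm Y h⁻¹ (H.inv_mem hh) hYA)
      rcases h1 with h1 | h1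
      · left
        rw [← Lib.Coprime.conj_smul_inv_smul h Y, h1, Subgroup.smul_bot]
      · right
        rw [← h1, Lib.Coprime.conj_smul_inv_smul]
  have hHM : H ≤ normalizer (M : Set G) := fun h hh => by
    have hle : ∀ g ∈ H, MulAut.conj g • M ≤ M := fun g hg => by
      rw [Subgroup.pointwise_smul_subset_iff]
      exact sSup_le fun X hX => Subgroup.subset_pointwise_smul_iff.mpr (by
        rw [inv_inv]; exact le_sSup (hcjS g hg X hX))
    apply Lib.Coprime.mem_normalizer_of_conj_smul_eq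
    refine le_antisymm (hle h hh) ?_
    have := pointwise_smul_le_pointwise_smul_iff (a := MulAut.conj h).mpr (hle h⁻¹ (H.inv_mem hh))
    rwa [Lib.Coprime.conj_smul_inv_smul] at this
  have hMtop : M = V := by
    obtain ⟨W, hWV, hW, hd, hs⟩ := hss M hMV hHM
    by_cases hW0 : W = ⊥
    · rw [hW0, sup_bot_eq] at hs
      exact hs
    · exfalso
      obtain ⟨Y, hY, hYW⟩ := hmin W hWV (hAH.trans hW) hW0
      exact hY.2.2.1 (le_bot_iff.mp (hd ▸ le_inf (le_sSup hY) hYW))
  obtain ⟨W, ⟨hWV, hWA, hWd⟩, hWmax⟩ := (Set.toFinite {W : Subgroup G | W ≤ V ∧ A ≤ normalizer (W : Set G) ∧ U ⊓ W = ⊥}).exists_maximal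
    ⟨⊥, bot_le, by rw [Subgroup.normalizer_eq_top]; exact le_top, inf_bot_eq U⟩
  refine ⟨W, hWV, hWA, hWd, le_antisymm (sup_le hUV hWV) ?_⟩
  rw [← hMtop]
  refine sSup_le fun X hX => ?_
  by_contra hXle
  have hUW : A ≤ normalizer ((U ⊔ W : Subgroup G) : Set G) :=
    (le_inf hAU hWA).trans (Subgroup.normalizer_inf_normalizer_le_normalizer_sup U W)
  have hXd : X ⊓ (U ⊔ W) = ⊥ := (hX.2.2.2 _ inf_le_left
    ((le_inf hX.2.1 hUW).trans inf_normalizer_le_normalizer_inf)).resolve_right fun h => hXle (inf_eq_left.mp h)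
  have hWX : W ⊔ X ≤ W := hWmax ⟨sup_le hWV hX.1,
    (le_inf hWA hX.2.1).trans (Subgroup.normalizer_inf_normalizer_le_normalizer_sup W X), by
    rw [eq_bot_iff]
    rintro u ⟨hu, huWX⟩
    have hn : W ≤ normalizer (X : Set G) := fun w hw => centralizer_le_normalizer (X : Set G)
      (mem_centralizer_iff.mpr fun x hx => hcomm x (hX.1 hx) w (hWV hw))
    obtain ⟨w, hw, x, hx, rfl⟩ := (Lib.Coprime.mem_sup_of_le_normalizer hn).mp huWX
    have hx' : x ∈ X ⊓ (U ⊔ W) := ⟨hx, by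
      have := (U ⊔ W).mul_mem (mem_sup_right (S := U) ((W.inv_mem hw))) (mem_sup_left hu)
      rwa [inv_mul_cancel_left] at this⟩
    rw [hXd, mem_bot] at hx'
    subst hx'
    rw [mul_one] at hu ⊢
    rw [← hWd]
    exact ⟨hu, hw⟩⟩ le_sup_left
  exact hXle ((le_sup_right.trans hWX).trans le_sup_right)

end Cfsg.Agent.S3735
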