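import Cfsg.Statements.S3736
import Cfsg.Agent.S0119
import Cfsg.Agent.S0094
import Cfsg.Agent.Lib.Coprime.Abelian
import Cfsg.Agent.Lib.PGroupFrattini

set_option autoImplicit false
open Cfsg

namespace Cfsg.Agent.S3736

open scoped commutatorElement in
open Cfsg.Agent.Lib in

/-- The Hall–Higman reduction for a minimal non-trivial action. Let B, A and P be subgroups of a finite group with P a p-group, B normalizing P, and A a normal subgroup of B of order prime to p. Suppose A does not centralize P but centralizes every proper B-invariant subgroup of P. Then [P, A] = P; P is elementary abelian or special; B acts irreducibly on P/Φ(P), that is, the only B-invariant subgroups of P containing Φ(P) are Φ(P) and P; and if p is odd then every element of P has order dividing p. -/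
theorem result {X : Type*} [Group X] [Finite X] {p : ℕ} [Fact p.Prime] (B A P : Subgroup X) (hP : IsPGroup p P) (hBP : B ≤ Subgroup.normalizer (P : Set X)) (hAB : A ≤ B) (hAn : B ≤ Subgroup.normalizer (A : Set X)) (hAp : (Nat.card A).Coprime p) (hnt : ⁅P, A⁆ ≠ ⊥) (hmin : ∀ U : Subgroup X, U < P → B ≤ Subgroup.normalizer (U : Set X) → ⁅U, A⁆ = ⊥) : ⁅P, A⁆ = P ∧ (Cfsg.IsElementaryAbelian p P ∨ Cfsg.IsSpecial p ↥P) ∧ (∀ U : Subgroup X, (frattini ↥P).map P.subtype ≤ U → U ≤ P → B ≤ Subgroup.normalizer (U : Set X) → U = (frattini ↥P).map P.subtype ∨ U = P) ∧ (p ≠ 2 → ∀ x ∈ P, x ^ p = 1) := by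
  classical
  have hp : p.Prime := Fact.out
  have hAP : A ≤ Subgroup.normalizer (P : Set X) := hAB.trans hBP
  have hnormof : ∀ (S : Subgroup X), (∀ b ∈ B, ∀ x ∈ S, b * x * b⁻¹ ∈ S) → B ≤ Subgroup.normalizer (S : Set X) := by
    intro S hS b hb
    rw [Subgroup.mem_normalizer_iff]
    refine fun x => ⟨hS b hb x, fun h => ?_⟩
    simpa [mul_assoc] using hS b⁻¹ (inv_mem hb) _ h
  have hcop : (Nat.card A).Coprime (Nat.card P) := by
    obtain ⟨e, he⟩ := IsPGroup.iff_card.mp hP
    rw [he]; exact hAp.pow_right e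
  haveI : Group.IsNilpotent P := hP.isNilpotent
  -- `[P, A] = P`
  have hPA : ⁅P, A⁆ = P := by
    have hle := Lib.Coprime.commutator_le_of_le_normalizer' hAP
    by_contra hne
    refine hnt ?_
    rw [← Lib.Coprime.commutator_commutator hAP hcop (Or.inr inferInstance)]
    refine hmin _ (lt_of_le_of_ne hle hne) (hnormof _ fun b hb x hx => ?_)
    have hPb : P.map (MulAut.conj b).toMonoidHom = P := by
      ext g
      rw [Subgroup.mem_map_equiv, Subgroup.mem_normalizer_iff.mp (hBP hb) ((MulAut.conj b).symm g)]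
      simp [mul_assoc]
    have hAb : A.map (MulAut.conj b).toMonoidHom = A := by
      ext g
      rw [Subgroup.mem_map_equiv, Subgroup.mem_normalizer_iff.mp (hAn hb) ((MulAut.conj b).symm g)]
      simp [mul_assoc]
    have h1 := Subgroup.mem_map_of_mem (MulAut.conj b).toMonoidHom hx
    rwa [Subgroup.map_commutator, hPb, hAb] at h1
  let act : A →* MulAut P := Lib.Coprime.conjHom hAP
  let actB : B →* MulAut P := Lib.Coprime.conjHom hBP
  have hclo : Subgroup.closure {x : P | ∃ g : P, ∃ a ∈ act.range, x = g⁻¹ * a g} = ⊤ := by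
    rw [Subgroup.eq_top_iff']
    intro x
    have h1 : (x : X) ∈ (Subgroup.closure {x : P | ∃ g : P, ∃ a ∈ act.range, x = g⁻¹ * a g}).map P.subtype := by
      have h2 : ⁅P, A⁆ ≤ (Subgroup.closure {x : P | ∃ g : P, ∃ a ∈ act.range, x = g⁻¹ * a g}).map P.subtype := by
        rw [Subgroup.commutator_le]
        intro k hk a ha
        refine ⟨_, Subgroup.subset_closure ⟨(⟨k, hk⟩ : P)⁻¹, act ⟨a, ha⟩, ⟨_, rfl⟩, rfl⟩, ?_⟩
        show k⁻¹⁻¹ * (a * k⁻¹ * a⁻¹) = _
        rw [commutatorElement_def, inv_inv]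
        group
      exact h2 (hPA.symm ▸ x.2)
    obtain ⟨y, hy, hxy⟩ := h1
    rwa [← show y = x from Subtype.ext hxy]
  have hchinv : ∀ H : Subgroup P, H.Characteristic → B ≤ Subgroup.normalizer ((H.map P.subtype : Subgroup X) : Set X) := by
    intro H hH
    refine hnormof _ ?_
    rintro b hb _ ⟨y, hy, rfl⟩
    refine ⟨actB ⟨b, hb⟩ y, ?_, Lib.Coprime.coe_conjHom_apply hBP ⟨b, hb⟩ y⟩
    have h1 := hH.fixed (actB ⟨b, hb⟩)
    rw [← h1] at hy
    exact hy
  have htriv : ∀ H : Subgroup P, H.Characteristic → H ≠ ⊤ → ∀ a ∈ act.range, ∀ h ∈ H, a h = h := by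
    rintro H hH hne _ ⟨a, rfl⟩ h hh
    have hlt : H.map P.subtype < P := lt_of_le_of_ne (Subgroup.map_subtype_le H) fun he => hne (by
      refine Subgroup.map_injective P.subtype_injective ?_
      rw [he, ← MonoidHom.range_eq_map, Subgroup.range_subtype])
    have h1 := hmin _ hlt (hchinv H hH)
    rw [Subgroup.commutator_eq_bot_iff_le_centralizer] at h1
    have h2 := Subgroup.mem_centralizer_iff.mp (h1 (Subgroup.mem_map_of_mem P.subtype hh)) a a.2
    refine Subtype.ext ((Lib.Coprime.coe_conjHom_apply hAP a h).trans ?_)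
    exact mul_inv_eq_iff_eq_mul.mpr h2
  have hA' : Nat.Coprime (Nat.card act.range) p :=
    hAp.coprime_dvd_left (Subgroup.card_range_dvd act)
  letI : Fintype act.range := Fintype.ofFinite _
  -- irreducibility on the Frattini quotient
  have hirr : ∀ U : Subgroup X, (frattini ↥P).map P.subtype ≤ U → U ≤ P → B ≤ Subgroup.normalizer (U : Set X) →
      U = (frattini ↥P).map P.subtype ∨ U = P := by
    intro U hFU hUP hBU
    refine or_iff_not_imp_right.mpr fun hne => le_antisymm (fun u hu => ?_) hFU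
    have h1 := hmin U (lt_of_le_of_ne hUP hne) hBU
    rw [Subgroup.commutator_eq_bot_iff_le_centralizer] at h1
    have hfix : ∀ a ∈ act.range, a (⟨u, hUP hu⟩ : P) = ⟨u, hUP hu⟩ := by
      rintro _ ⟨a, rfl⟩
      refine Subtype.ext ((Lib.Coprime.coe_conjHom_apply hAP a _).trans ?_)
      exact mul_inv_eq_iff_eq_mul.mpr (Subgroup.mem_centralizer_iff.mp (h1 hu) a a.2)
    let N : P →* Abelianization P := MonoidHom.mk'
      (fun g => ∏ a : act.range, Abelianization.of ((a : MulAut P) g))
      (fun g g' => by simp only [map_mul, Finset.prod_mul_distrib])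
    have hN : Subgroup.closure {x : P | ∃ g : P, ∃ a ∈ act.range, x = g⁻¹ * a g} ≤ N.ker := by
      rw [Subgroup.closure_le]
      rintro x ⟨g, a, ha, rfl⟩
      rw [SetLike.mem_coe, MonoidHom.mem_ker, map_mul, map_inv, inv_mul_eq_one]
      exact (Fintype.prod_equiv (Equiv.mulRight ⟨a, ha⟩)
        (fun b : act.range => Abelianization.of ((b : MulAut P) (a g)))
        (fun b : act.range => Abelianization.of ((b : MulAut P) g)) (fun b => rfl)).symm
    rw [hclo] at hN
    have h2 : N ⟨u, hUP hu⟩ = 1 := hN (Subgroup.mem_top _)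
    change ∏ a : act.range, Abelianization.of ((a : MulAut P) ⟨u, hUP hu⟩) = 1 at h2
    rw [Finset.prod_congr rfl (fun a _ => by rw [hfix a a.2]), Finset.prod_const, Finset.card_univ,
      ← Nat.card_eq_fintype_card] at h2
    obtain ⟨m, hm⟩ := hP ⟨u, hUP hu⟩
    have h3 := pow_gcd_eq_one.mpr ⟨h2, (show Abelianization.of (⟨u, hUP hu⟩ : P) ^ p ^ m = 1 by
      rw [← map_pow, hm, map_one])⟩
    rw [show Nat.gcd (Nat.card act.range) (p ^ m) = 1 from hA'.pow_right m, pow_one] at h3
    exact ⟨⟨u, hUP hu⟩, Lib.PGroupFrattini.commutator_le_frattini hP ((QuotientGroup.eq_one_iff _).mp h3), rfl⟩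
  refine ⟨hPA, ?_⟩
  by_cases hcomm : IsMulCommutative P
  · have hc : ∀ a b : P, a * b = b * a := fun a b => hcomm.is_comm.comm a b
    let O : Subgroup P :=
      { carrier := {x | x ^ p = 1}
        one_mem' := one_pow p
        mul_mem' := fun {a b} ha hb => by
          show (a * b) ^ p = 1
          rw [Commute.mul_pow (hc a b), show a ^ p = 1 from ha, show b ^ p = 1 from hb, one_mul]
        inv_mem' := fun {a} ha => by
          show a⁻¹ ^ p = 1
          rw [inv_pow, show a ^ p = 1 from ha, inv_one] }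
    have hOch : O.Characteristic := Subgroup.characteristic_iff_map_le.mpr fun φ => by
      rintro _ ⟨y, hy, rfl⟩
      show (φ y) ^ p = 1
      rw [← map_pow, show y ^ p = 1 from hy, map_one]
    have hOtop : O = ⊤ := by
      by_contra hne
      have hfix := htriv O hOch hne
      letI : CommGroup P := { (inferInstance : Group P) with mul_comm := hc }
      let N : P →* P := MonoidHom.mk' (fun g => ∏ a : act.range, (a : MulAut P) g)
        (fun g g' => by simp only [map_mul, Finset.prod_mul_distrib])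
      have hN : Subgroup.closure {x : P | ∃ g : P, ∃ a ∈ act.range, x = g⁻¹ * a g} ≤ N.ker := by
        rw [Subgroup.closure_le]
        rintro x ⟨g, a, ha, rfl⟩
        rw [SetLike.mem_coe, MonoidHom.mem_ker, map_mul, map_inv, inv_mul_eq_one]
        exact (Fintype.prod_equiv (Equiv.mulRight ⟨a, ha⟩)
          (fun b : act.range => (b : MulAut P) (a g))
          (fun b : act.range => (b : MulAut P) g) (fun b => rfl)).symm
      rw [hclo] at hN
      have hPne : Nontrivial P := by
        by_contra hsub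
        rw [not_nontrivial_iff_subsingleton] at hsub
        exact hne (Subsingleton.elim _ _)
      obtain ⟨e, he⟩ := IsPGroup.iff_card.mp hP
      have hdvd : p ∣ Nat.card P := by
        rw [he]
        refine dvd_pow_self p fun h0 => ?_
        have := Finite.one_lt_card (α := P)
        rw [he, h0, pow_zero] at this
        omega
      obtain ⟨z, hz⟩ := exists_prime_orderOf_dvd_card' p hdvd
      have hzO : z ∈ O := by show z ^ p = 1; rw [← hz, pow_orderOf_eq_one]
      have h1 : N z = 1 := hN (Subgroup.mem_top z)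
      change ∏ a : act.range, (a : MulAut P) z = 1 at h1
      rw [Finset.prod_congr rfl (fun (a : act.range) _ => hfix (a : MulAut P) (SetLike.coe_mem a) z hzO), Finset.prod_const, Finset.card_univ,
        ← Nat.card_eq_fintype_card] at h1
      have h2 := pow_gcd_eq_one.mpr ⟨h1, (show z ^ p = 1 from hzO)⟩
      rw [show Nat.gcd (Nat.card act.range) p = 1 from hA', pow_one] at h2
      rw [h2, orderOf_one] at hz
      exact hp.ne_one hz.symm
    have hexp : ∀ x ∈ P, x ^ p = 1 := fun x hx =>
      congrArg Subtype.val (show (⟨x, hx⟩ : P) ^ p = 1 from hOtop.ge (Subgroup.mem_top (⟨x, hx⟩ : P)))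
    exact ⟨Or.inl ⟨hcomm, hexp⟩, hirr, fun _ => hexp⟩
  · have hsp := Cfsg.Agent.S0119.result (p := p) hP act.range hA' hclo fun H hH hHc =>
      htriv H hH fun he => hcomm ⟨⟨fun a b => by
        subst he
        exact congrArg Subtype.val (hHc.is_comm.comm ⟨a, Subgroup.mem_top a⟩ ⟨b, Subgroup.mem_top b⟩)⟩⟩
    refine ⟨Or.inr hsp.1, hirr, fun hp2 x hx => ?_⟩
    obtain ⟨⟨-, hΦ, hD⟩, hZ⟩ := hsp
    have hc : ∀ u v w : P, Commute ⁅u, v⁆ w := fun u v w => (Subgroup.mem_center_iff.mp
      (hD.le (Subgroup.commutator_mem_commutator (Subgroup.mem_top u) (Subgroup.mem_top v))) w).symm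
    let f : P →* P := MonoidHom.mk' (fun g => g ^ p) (fun g g' => by
      rw [Lib.Thompson.mul_pow_class_two (Lib.Thompson.mul_comm_eq g g') (hc _ _ g) (hc _ _ g'),
        Lib.Thompson.pow_choose_two_eq_one hp2
          (Cfsg.Agent.S0094.result ⟨hP, hΦ, hD⟩ _
            (hD.le (Subgroup.commutator_mem_commutator (Subgroup.mem_top _) (Subgroup.mem_top _)))), mul_one])
    have hker : Subgroup.closure {x : P | ∃ g : P, ∃ a ∈ act.range, x = g⁻¹ * a g} ≤ f.ker := by
      rw [Subgroup.closure_le]
      rintro x ⟨g, a, ha, rfl⟩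
      rw [SetLike.mem_coe, MonoidHom.mem_ker, map_mul, map_inv, inv_mul_eq_one]
      show g ^ p = (a g) ^ p
      rw [← map_pow, (hZ (g ^ p)).mp (hΦ.le (Lib.PGroupFrattini.pow_mem_frattini hP g)) a ha]
    rw [hclo] at hker
    exact congrArg Subtype.val (MonoidHom.mem_ker.mp (hker (Subgroup.mem_top (⟨x, hx⟩ : P))))

end Cfsg.Agent.S3736
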