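import Cfsg.Statements.S3738
import Cfsg.Agent.Lib.Thompson.PGroup
import Cfsg.Agent.Lib.PGroupFrattini
import Cfsg.Agent.Lib.Coprime.Action
import Mathlib.Tactic

set_option autoImplicit false
open Cfsg

namespace Cfsg.Agent.S3738

open Subgroup
open scoped commutatorElement

/-- A minimal 2-group for an automorphism of order `3 ^ n`, `n ≥ 2`, contains an elementary abelian
group of order eight: the contradiction. -/
theorem minimal_false {Q : Type*} [Group Q] [Finite Q] (hQ : IsPGroup 2 Q) (φ : MulAut Q) (m : ℕ)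
    (hm : 2 ≤ m) (hφ : φ ^ 3 ^ m = 1) (hψ : φ ^ 3 ^ (m - 1) ≠ 1)
    (hmin : ∀ S : Subgroup Q, S ≠ ⊤ → (∀ x ∈ S, φ x ∈ S) → ∀ x ∈ S, (φ ^ 3 ^ (m - 1)) x = x)
    (hfpf : ∀ x : Q, φ x = x → x = 1)
    (hr : ∀ a b c : Q, a * b = b * a → a * c = c * a → b * c = c * b → a ^ 2 = 1 → b ^ 2 = 1 → c ^ 2 = 1 →
      a = 1 ∨ b = 1 ∨ c = 1 ∨ a * b = 1 ∨ a * c = 1 ∨ b * c = 1 ∨ a * b * c = 1) : False := by
  classical
  haveI : Fact (Nat.Prime 2) := ⟨Nat.prime_two⟩
  set ψ := φ ^ 3 ^ (m - 1) with hψdef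
  have hψ3 : orderOf ψ = 3 := by
    refine orderOf_eq_prime ?_ hψ
    rw [hψdef, ← pow_mul, ← pow_succ, show m - 1 + 1 = m by omega, hφ]
  have hcop : (orderOf ψ).Coprime 2 := by rw [hψ3]; norm_num
  have hcomm : ∀ x, ψ (φ x) = φ (ψ x) := fun x => by
    have h := (Commute.refl φ).pow_left (3 ^ (m - 1))
    exact DFunLike.congr_fun h.eq x
  have hQ1 : Nontrivial Q := by
    by_contra h
    rw [not_nontrivial_iff_subsingleton] at h
    exact hψ (MulEquiv.ext fun x => Subsingleton.elim _ _)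
  -- the Frattini subgroup is fixed
  have hΦ : ∀ x ∈ frattini Q, ψ x = x := by
    refine hmin _ (fun h => ?_) fun x hx =>
      characteristic_iff_le_comap.mp (inferInstance : (frattini Q).Characteristic) φ hx
    have h' := frattini_nongenerating (K := (⊥ : Subgroup Q)) (by rw [h, sup_top_eq])
    exact bot_ne_top h'
  let D := Subgroup.closure (Set.range fun q : Q => q⁻¹ * ψ q)
  have hDtop : D = ⊤ := by
    by_contra h
    refine hψ (MulEquiv.ext fun q => ?_)
    refine Lib.Thompson.eq_self_of_coprime hQ hcop (hmin D h (fun x hx => ?_) _ (subset_closure ⟨q, rfl⟩))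
    induction hx using Subgroup.closure_induction with
    | mem y hy =>
      obtain ⟨q, rfl⟩ := hy
      refine subset_closure ⟨φ q, ?_⟩
      show (φ q)⁻¹ * ψ (φ q) = φ (q⁻¹ * ψ q)
      rw [map_mul, map_inv, hcomm]
    | one => rw [map_one]; exact one_mem _
    | mul a b _ _ ha hb => rw [map_mul]; exact mul_mem ha hb
    | inv a _ ha => rw [map_inv]; exact inv_mem ha
  have hcentral : ∀ c : Q, (∀ q : Q, ψ (q * c * q⁻¹) = q * c * q⁻¹) → c ∈ center Q := by
    intro c hc
    have hψc : ψ c = c := by simpa using hc 1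
    refine mem_center_iff.mpr fun g => ?_
    suffices h : D ≤ centralizer {c} from mem_centralizer_singleton_iff.mp (h (hDtop ▸ mem_top g))
    rw [closure_le]
    rintro _ ⟨q, rfl⟩
    refine mem_centralizer_singleton_iff.mpr ?_
    have h := hc q
    rw [map_mul, map_mul, map_inv, hψc] at h
    calc q⁻¹ * ψ q * c = q⁻¹ * (ψ q * c * (ψ q)⁻¹) * ψ q := by group
      _ = c * (q⁻¹ * ψ q) := by rw [h]; group
  have hΦZ : frattini Q ≤ center Q := fun c hc =>
    hcentral c fun q => hΦ _ ((inferInstance : (frattini Q).Normal).conj_mem c hc q)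
  have hsq : ∀ x : Q, x ^ 2 ∈ frattini Q := Lib.PGroupFrattini.pow_mem_frattini hQ
  have hcom : ∀ x y : Q, ⁅x, y⁆ ∈ frattini Q := fun x y =>
    Lib.PGroupFrattini.commutator_le_frattini hQ (commutator_mem_commutator (mem_top x) (mem_top y))
  have hfixZ : ∀ c : Q, ψ c = c → c ∈ center Q := by
    intro c hc
    refine hcentral c fun q => ?_
    rw [show q * c * q⁻¹ = ⁅q, c⁆ * c by rw [commutatorElement_def]; group, map_mul, hc, hΦ _ (hcom q c)]
  -- `Q` is nonabelian
  have hne : center Q ≠ ⊤ := by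
    intro htop
    have hab : ∀ x y : Q, x * y = y * x := fun x y =>
      (mem_center_iff.mp (htop ▸ mem_top x : x ∈ center Q) y).symm
    let Ω : Subgroup Q :=
      { carrier := {x | x ^ 2 = 1}
        one_mem' := one_pow 2
        mul_mem' := fun {x y} hx hy => by
          show (x * y) ^ 2 = 1
          rw [(show Commute x y from hab x y).mul_pow, show x ^ 2 = 1 from hx, show y ^ 2 = 1 from hy, one_mul]
        inv_mem' := fun {x} hx => by
          show x⁻¹ ^ 2 = 1
          rw [inv_pow, show x ^ 2 = 1 from hx, inv_one] }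
    have hΩ : ∀ x ∈ Ω, φ x ∈ Ω := fun x hx => by
      show φ x ^ 2 = 1
      rw [← map_pow, show x ^ 2 = 1 from hx, map_one]
    by_cases hΩt : Ω = ⊤
    · have h2 : ∀ x : Q, x ^ 2 = 1 := fun x => (hΩt ▸ mem_top x : x ∈ Ω)
      refine hψ (MulEquiv.ext fun x => ?_)
      rw [MulAut.one_apply, hψdef]
      obtain ⟨k, hk⟩ : (3 : ℕ) ∣ 3 ^ (m - 1) := dvd_pow_self 3 (by omega)
      have h3 : (φ ^ 3) x = x := by
        rcases eq_or_ne x 1 with rfl | hx
        · rw [map_one]
        have hy : φ x ≠ 1 := fun e => hx (φ.injective (e.trans (map_one φ).symm))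
        have hxy : φ x ≠ x := fun e => hx (hfpf x e)
        have hinv : ∀ z : Q, z⁻¹ = z := fun z => inv_eq_of_mul_eq_one_left (by rw [← pow_two, h2])
        show φ (φ (φ x)) = x
        have h4 := hr x (φ x) (φ (φ x)) (hab _ _) (hab _ _) (hab _ _) (h2 _) (h2 _) (h2 _)
        have hz : φ (φ x) = x * φ x ∨ φ (φ x) = x := by
          rcases h4 with h | h | h | h | h | h | h
          · exact absurd h hx
          · exact absurd h hy
          · exact absurd (φ.injective (h.trans (map_one φ).symm)) hy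
          · exact absurd (by rw [mul_eq_one_iff_eq_inv, hinv] at h; exact h.symm) hxy
          · right; rw [mul_eq_one_iff_eq_inv, hinv] at h; exact h.symm
          · exact absurd (by rw [mul_eq_one_iff_eq_inv, hinv] at h; exact φ.injective h.symm) hxy
          · left; rw [mul_eq_one_iff_eq_inv', hinv] at h; exact h
        rcases hz with hz | hz
        · rw [hz, map_mul, hz, hab x (φ x), ← mul_assoc, ← pow_two, h2, one_mul]
        · exfalso
          have : φ (x * φ x) = x * φ x := by rw [map_mul, hz, hab]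
          have := hfpf _ this
          rw [mul_eq_one_iff_eq_inv, hinv] at this
          exact hxy this.symm
      rw [hk, pow_mul]
      have hfix : ∀ j : ℕ, ((φ ^ 3) ^ j) x = x := by
        intro j
        induction j with
        | zero => rfl
        | succ j ih => rw [pow_succ, MulAut.mul_apply, h3, ih]
      exact hfix k
    · refine hψ (MulEquiv.ext fun x => Lib.Thompson.eq_self_of_coprime hQ hcop (hmin Ω hΩt hΩ _ ?_))
      show (x⁻¹ * ψ x) ^ 2 = 1
      rw [(show Commute x⁻¹ (ψ x) from hab _ _).mul_pow, inv_pow, ← map_pow, hΦ _ (hsq x), inv_mul_cancel]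
  set Z := center Q with hZdef
  have hZfix : ∀ x ∈ Z, ψ x = x := hmin Z hne fun x hx =>
    characteristic_iff_le_comap.mp (inferInstance : (center Q).Characteristic) φ hx
  -- the central quotient has at least `2 ^ 6` elements
  have hV : 64 ≤ Z.index := by
    let Γ := Subgroup.zpowers φ
    have hΓc : Nat.card Γ = 3 ^ m := by
      rw [Nat.card_zpowers]
      obtain ⟨j, hj⟩ := (Nat.dvd_prime_pow Nat.prime_three).mp (orderOf_dvd_of_pow_eq_one hφ)
      rcases eq_or_lt_of_le hj.1 with rfl | hlt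
      · exact hj.2
      · refine absurd ?_ hψ
        rw [hψdef, ← orderOf_dvd_iff_pow_eq_one, hj.2]
        exact pow_dvd_pow 3 (by omega)
    let τ : ∀ γ : Γ, MulAut (Q ⧸ Z) := fun γ => QuotientGroup.congr Z Z (γ : MulAut Q)
      (characteristic_iff_map_eq.mp (inferInstance : (center Q).Characteristic) _)
    letI : MulAction Γ {v : Q ⧸ Z // v ≠ 1} :=
      { smul := fun γ v => ⟨τ γ v.1, fun e => v.2 ((τ γ).injective (e.trans (map_one _).symm))⟩
        one_smul := fun v => Subtype.ext (by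
          obtain ⟨q, hq⟩ := QuotientGroup.mk_surjective v.1
          show τ 1 v.1 = v.1
          rw [← hq]; rfl)
        mul_smul := fun γ δ v => Subtype.ext (by
          obtain ⟨q, hq⟩ := QuotientGroup.mk_surjective v.1
          show τ (γ * δ) v.1 = τ γ (τ δ v.1)
          rw [← hq]; rfl) }
    have hfree : ∀ v : {v : Q ⧸ Z // v ≠ 1}, MulAction.stabilizer Γ v = ⊥ := by
      intro v
      by_contra hst
      obtain ⟨q, hq⟩ := QuotientGroup.mk_surjective v.1
      have hψmem : (⟨ψ, pow_mem (Subgroup.mem_zpowers φ) _⟩ : Γ) ∈ MulAction.stabilizer Γ v := by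
        obtain ⟨γ, hγ, hγ1⟩ := (MulAction.stabilizer Γ v).bot_or_exists_ne_one.resolve_left hst
        obtain ⟨i, hi⟩ := (Submonoid.mem_powers_iff _ _).mp (mem_powers_iff_mem_zpowers.mpr γ.2)
        have hio : ¬ 3 ^ m ∣ i := fun hd => hγ1 (Subtype.ext (by
          show (γ : MulAut Q) = 1
          rw [← hi]; obtain ⟨t, rfl⟩ := hd; rw [pow_mul, hφ, one_pow]))
        obtain ⟨j, hj⟩ := (Nat.dvd_prime_pow Nat.prime_three).mp (Nat.gcd_dvd_right i (3 ^ m))
        have hj' : j ≤ m - 1 := by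
          by_contra hlt
          exact hio (by rw [show m = j by omega, ← hj.2]; exact Nat.gcd_dvd_left _ _)
        obtain ⟨x, hx⟩ : ∃ x : ℤ, ((φ : MulAut Q) ^ i) ^ x = φ ^ 3 ^ j := by
          refine ⟨Nat.gcdA i (3 ^ m), ?_⟩
          have hb := Nat.gcd_eq_gcd_ab i (3 ^ m)
          rw [hj.2] at hb
          rw [← zpow_natCast, ← zpow_mul, ← zpow_natCast φ (3 ^ j), hb, zpow_add, zpow_mul φ ((3 ^ m : ℕ) : ℤ),
            zpow_natCast φ (3 ^ m), hφ, one_zpow, mul_one]
        have : (⟨ψ, pow_mem (Subgroup.mem_zpowers φ) _⟩ : Γ) = (γ ^ x) ^ 3 ^ (m - 1 - j) := by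
          apply Subtype.ext
          show ψ = ((γ : MulAut Q) ^ x) ^ 3 ^ (m - 1 - j)
          rw [← hi, hx, ← pow_mul, ← pow_add, Nat.add_sub_cancel' hj']
        rw [this]
        exact pow_mem (zpow_mem hγ x) _
      have h1 : ((ψ q : Q) : Q ⧸ Z) = (q : Q ⧸ Z) := by
        have h := congrArg Subtype.val hψmem
        change τ _ v.1 = v.1 at h
        rw [← hq] at h
        exact h
      have hz : q⁻¹ * ψ q ∈ Z := QuotientGroup.eq.mp h1.symm
      have hq' := hfixZ q (Lib.Thompson.eq_self_of_coprime hQ hcop (hZfix _ hz))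
      exact v.2 (by rw [← hq]; exact (QuotientGroup.eq_one_iff q).mpr hq')
    have hdiv : 3 ^ m ∣ Nat.card {v : Q ⧸ Z // v ≠ 1} := by
      rw [Nat.card_congr (MulAction.selfEquivOrbitsQuotientProd hfree), Nat.card_prod, hΓc]
      exact dvd_mul_left _ _
    haveI := Fintype.ofFinite (Q ⧸ Z)
    rw [Nat.card_eq_fintype_card, Fintype.card_subtype_compl, Fintype.card_subtype_eq,
      ← Nat.card_eq_fintype_card, ← Subgroup.index_eq_card] at hdiv
    obtain ⟨k, hk⟩ := hQ.index Z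
    have h9 : 9 ∣ 2 ^ k - 1 := (pow_dvd_pow 3 hm).trans (hk ▸ hdiv)
    have hk0 : k ≠ 0 := fun e => hne (by rw [e, pow_zero] at hk; exact index_eq_one.mp hk)
    rw [hk]
    by_contra hlt
    have hk6 : k < 6 := by
      by_contra h
      exact hlt (by
        have := Nat.pow_le_pow_right (show 0 < 2 by norm_num) (show 6 ≤ k by omega)
        omega)
    interval_cases k
    all_goals first | omega | norm_num at h9
  -- involutions of the centre
  obtain ⟨z₁, hz₁Z, hz₁, hz₁1⟩ : ∃ z ∈ Z, z ^ 2 = 1 ∧ z ≠ 1 := by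
    obtain ⟨z, -, hz, hzo⟩ := Lib.Thompson.exists_central_order_p hQ (N := (⊤ : Subgroup Q)) top_ne_bot
    exact ⟨z, hz, by rw [← hzo, pow_orderOf_eq_one], fun e => by rw [e, orderOf_one] at hzo; norm_num at hzo⟩
  let z₂ := φ z₁
  have hz₂Z : z₂ ∈ Z := characteristic_iff_le_comap.mp (inferInstance : (center Q).Characteristic) φ hz₁Z
  have hz₂ : z₂ ^ 2 = 1 := by show φ z₁ ^ 2 = 1; rw [← map_pow, hz₁, map_one]
  have hz₂1 : z₂ ≠ 1 := fun e => hz₁1 (φ.injective (e.trans (map_one φ).symm))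
  have hz12 : z₁ * z₂ ≠ 1 := fun e => hz₁1 (hfpf z₁ (by
    rw [show φ z₁ = z₁⁻¹ from eq_inv_of_mul_eq_one_right e]
    exact inv_eq_of_mul_eq_one_left (by rw [← pow_two]; exact hz₁)))
  have hcz : ∀ z ∈ Z, ∀ x : Q, z * x = x * z := fun z hz x => (mem_center_iff.mp hz x).symm
  -- involutions lie in the four group
  have hinv : ∀ x : Q, x ^ 2 = 1 → x = 1 ∨ x = z₁ ∨ x = z₂ ∨ x = z₁ * z₂ := by
    intro x hx
    have hi : ∀ z : Q, z ^ 2 = 1 → z⁻¹ = z := fun z hz => inv_eq_of_mul_eq_one_left (by rw [← pow_two, hz])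
    rcases hr z₁ z₂ x (hcz _ hz₁Z _) (hcz _ hz₁Z _) (hcz _ hz₂Z _) hz₁ hz₂ hx with h | h | h | h | h | h | h
    · exact absurd h hz₁1
    · exact absurd h hz₂1
    · exact Or.inl h
    · exact absurd h hz12
    · right; left; rw [mul_eq_one_iff_eq_inv', hi _ hz₁] at h; exact h
    · right; right; left; rw [mul_eq_one_iff_eq_inv', hi _ hz₂] at h; exact h
    · right; right; right
      rw [mul_eq_one_iff_eq_inv'] at h
      rw [h, mul_inv_rev, hi _ hz₁, hi _ hz₂, hcz _ hz₂Z]
  -- squares of the centre have index at most four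
  let sqh : ↥Z →* ↥Z :=
    { toFun := fun z => z ^ 2
      map_one' := one_pow 2
      map_mul' := fun a b => (show Commute a b from Subtype.ext (hcz _ a.2 _)).mul_pow 2 }
  haveI hTn : sqh.range.Normal := ⟨fun n hn g => by
    rwa [show g * n = n * g from Subtype.ext (hcz _ g.2 _), mul_inv_cancel_right]⟩
  have hidx : sqh.range.index ≤ 4 := by
    have h1 := sqh.range.card_mul_index
    have h2 := sqh.ker.card_mul_index
    rw [Subgroup.index_ker] at h2
    have h3 : Nat.card sqh.ker ≤ 4 := by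
      have hsur : ∀ y : sqh.ker, ∃ i : Fin 4, ((y : ↥Z) : Q) = ![1, z₁, z₂, z₁ * z₂] i := fun y => by
        have hy : ((y : ↥Z) : Q) ^ 2 = 1 := congrArg Subtype.val (y.2 : sqh (y : ↥Z) = 1)
        rcases hinv _ hy with h | h | h | h
        · exact ⟨0, h⟩
        · exact ⟨1, h⟩
        · exact ⟨2, h⟩
        · exact ⟨3, h⟩
      choose i hi using hsur
      refine (Nat.card_le_card_of_injective i fun a b e => ?_).trans (Nat.card_fin 4).le
      exact Subtype.ext (Subtype.ext (by rw [hi, hi, e]))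
    have h5 : Nat.card sqh.ker = sqh.range.index :=
      Nat.eq_of_mul_eq_mul_right Nat.card_pos (by rw [h2, mul_comm]; exact h1.symm)
    omega
  let π : ↥Z →* ↥Z ⧸ sqh.range := QuotientGroup.mk' _
  have hA2 : ∀ v : ↥Z ⧸ sqh.range, v * v = 1 := fun v => by
    obtain ⟨z, rfl⟩ := QuotientGroup.mk_surjective v
    rw [← QuotientGroup.mk_mul, QuotientGroup.eq_one_iff, ← pow_two]
    exact ⟨z, rfl⟩
  have hAcard : Nat.card (↥Z ⧸ sqh.range) ≤ 4 := by rw [← Subgroup.index_eq_card]; exact hidx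
  have hAc : ∀ u v : ↥Z ⧸ sqh.range, u * v = v * u := fun u v => by
    obtain ⟨u, rfl⟩ := QuotientGroup.mk_surjective u
    obtain ⟨v, rfl⟩ := QuotientGroup.mk_surjective v
    rw [← QuotientGroup.mk_mul, ← QuotientGroup.mk_mul, show u * v = v * u from Subtype.ext (hcz _ u.2 _)]
  let σ : Q → ↥Z ⧸ sqh.range := fun x => π ⟨x ^ 2, hΦZ (hsq x)⟩
  let β : Q → Q → ↥Z ⧸ sqh.range := fun x y => π ⟨⁅x, y⁆, hΦZ (hcom x y)⟩
  have hnoinv : ∀ x : Q, x ∉ Z → σ x ≠ 1 := by
    intro x hx h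
    obtain ⟨z, hz⟩ := (QuotientGroup.eq_one_iff _).mp h
    have hz' : (z : Q) ^ 2 = x ^ 2 := congrArg Subtype.val hz
    have h2 : (x * (z : Q)⁻¹) ^ 2 = 1 := by
      rw [(show Commute x (z : Q)⁻¹ from (hcz _ (inv_mem z.2) x).symm).mul_pow, inv_pow, hz', mul_inv_cancel]
    have hxz : x * (z : Q)⁻¹ ∈ Z := by
      rcases hinv _ h2 with e | e | e | e <;> rw [e]
      exacts [one_mem _, hz₁Z, hz₂Z, mul_mem hz₁Z hz₂Z]
    exact hx (by simpa using mul_mem hxz z.2)
  have hσmul : ∀ x y : Q, β y x = 1 → σ (x * y) = σ x * σ y := by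
    intro x y h
    have e : (x * y) ^ 2 = x ^ 2 * y ^ 2 * ⁅y, x⁆ := by
      have hc := hcz _ (hΦZ (hcom y x))
      calc (x * y) ^ 2 = x * (⁅y, x⁆ * (x * y)) * y := by rw [commutatorElement_def, pow_two]; group
        _ = x * (x * y) * (⁅y, x⁆ * y) := by rw [hc]; group
        _ = x ^ 2 * y ^ 2 * ⁅y, x⁆ := by rw [hc, pow_two, pow_two]; group
    show π ⟨(x * y) ^ 2, _⟩ = _
    rw [show (⟨(x * y) ^ 2, hΦZ (hsq _)⟩ : ↥Z) = ⟨x ^ 2, hΦZ (hsq x)⟩ * ⟨y ^ 2, hΦZ (hsq y)⟩ *
      ⟨⁅y, x⁆, hΦZ (hcom y x)⟩ from Subtype.ext e, map_mul, map_mul]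
    show σ x * σ y * β y x = _
    rw [h, mul_one]
  have hβr : ∀ x y z : Q, β x (y * z) = β x y * β x z := fun x y z => by
    show π _ = π _ * π _
    rw [← map_mul]
    exact congrArg π (Subtype.ext (by
      show ⁅x, y * z⁆ = ⁅x, y⁆ * ⁅x, z⁆
      rw [show ⁅x, y * z⁆ = ⁅x, y⁆ * (y * ⁅x, z⁆ * y⁻¹) by simp only [commutatorElement_def]; group,
        ← hcz _ (hΦZ (hcom x z)) y, mul_inv_cancel_right]))
  have hβl : ∀ x y z : Q, β (y * z) x = β y x * β z x := fun x y z => by
    show π _ = π _ * π _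
    rw [← map_mul]
    exact congrArg π (Subtype.ext (by
      show ⁅y * z, x⁆ = ⁅y, x⁆ * ⁅z, x⁆
      rw [show ⁅y * z, x⁆ = y * ⁅z, x⁆ * y⁻¹ * ⁅y, x⁆ by simp only [commutatorElement_def]; group,
        ← hcz _ (hΦZ (hcom z x)) y, mul_inv_cancel_right, hcz _ (hΦZ (hcom z x))]))
  have hβs : ∀ x y : Q, β x y = β y x := fun x y => by
    have h : β x y * β y x = 1 := by
      show π _ * π _ = 1
      rw [← map_mul]
      refine (congrArg π (Subtype.ext ?_)).trans (map_one π)
      show ⁅x, y⁆ * ⁅y, x⁆ = 1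
      rw [← commutatorElement_inv x y, mul_inv_cancel]
    calc β x y = β x y * (β y x * β y x) := by rw [hA2, mul_one]
      _ = β y x := by rw [← mul_assoc, h, one_mul]
  have hβself : ∀ x : Q, β x x = 1 := fun x =>
    (congrArg π (Subtype.ext (commutatorElement_self x))).trans (map_one π)
  -- a subgroup containing the centre grows at most twofold
  have hgrow : ∀ H : Subgroup Q, Z ≤ H → ∀ x : Q,
      Nat.card (H ⊔ Subgroup.zpowers x : Subgroup Q) ≤ Nat.card H * 2 := by
    intro H hH x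
    have hn : Subgroup.zpowers x ≤ normalizer (H : Set Q) := by
      refine Subgroup.zpowers_le.mpr (mem_normalizer_iff.mpr fun h => ?_)
      have e : x * h * x⁻¹ = ⁅x, h⁆ * h := by rw [commutatorElement_def]; group
      rw [e]
      exact (Subgroup.mul_mem_cancel_left _ (hH (hΦZ (hcom x h)))).symm
    have h1 := Lib.Coprime.card_sup_mul_card_inf_of_le_normalizer hn
    have h2 : Subgroup.zpowers (x ^ 2) ≤ Subgroup.zpowers x ⊓ H :=
      le_inf (Subgroup.zpowers_le.mpr (npow_mem_zpowers x 2)) (Subgroup.zpowers_le.mpr (hH (hΦZ (hsq x))))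
    have h3 := Subgroup.card_le_of_le h2
    have h4 : Nat.card (Subgroup.zpowers x) ≤ 2 * Nat.card (Subgroup.zpowers (x ^ 2)) := by
      rw [Nat.card_zpowers, Nat.card_zpowers, orderOf_pow]
      have hg : Nat.gcd (orderOf x) 2 ≤ 2 := Nat.le_of_dvd two_pos (Nat.gcd_dvd_right _ _)
      calc orderOf x = orderOf x / Nat.gcd (orderOf x) 2 * Nat.gcd (orderOf x) 2 :=
            (Nat.div_mul_cancel (Nat.gcd_dvd_left _ _)).symm
        _ ≤ orderOf x / Nat.gcd (orderOf x) 2 * 2 := Nat.mul_le_mul_left _ hg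
        _ = _ := mul_comm _ _
    rw [sup_comm] at h1
    have h5 : 0 < Nat.card (Subgroup.zpowers x ⊓ H : Subgroup Q) := Nat.card_pos
    refine Nat.le_of_mul_le_mul_right ?_ h5
    rw [h1]
    calc Nat.card (Subgroup.zpowers x) * Nat.card H
        ≤ (2 * Nat.card (Subgroup.zpowers x ⊓ H : Subgroup Q)) * Nat.card H :=
          Nat.mul_le_mul_right _ (h4.trans (Nat.mul_le_mul_left 2 h3))
      _ = _ := by ring
  obtain ⟨a, ha⟩ : ∃ a, a ∉ Z := by
    by_contra! h; exact hne (eq_top_iff.mpr fun x _ => h x)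
  let f : Q →* ↥Z ⧸ sqh.range := MonoidHom.mk' (β a) (hβr a)
  have hK : 16 * Nat.card Z ≤ Nat.card f.ker := by
    have h1 := f.ker.card_mul_index
    have h2 := Z.card_mul_index
    rw [Subgroup.index_ker] at h1
    have h3 : Nat.card f.range ≤ 4 := (Subgroup.card_le_card_group _).trans hAcard
    have h4 : Nat.card Q ≤ Nat.card f.ker * 4 := h1 ▸ Nat.mul_le_mul_left _ h3
    have h5 : Nat.card Z * 64 ≤ Nat.card Q := h2 ▸ Nat.mul_le_mul_left _ hV
    omega
  have hpick : ∀ H : Subgroup Q, Nat.card H < Nat.card f.ker → ∃ u, β a u = 1 ∧ u ∉ H := by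
    intro H hH
    by_contra! h
    exact absurd (Subgroup.card_le_of_le (fun u hu => h u hu : f.ker ≤ H)) (not_le.mpr hH)
  let H₁ := Z ⊔ Subgroup.zpowers a
  have c1 := hgrow Z le_rfl a
  have hZ1 : Z ≤ H₁ := le_sup_left
  have ha1 : a ∈ H₁ := mem_sup_right (mem_zpowers a)
  have hpos : 0 < Nat.card Z := Nat.card_pos
  obtain ⟨u₁, hau₁, hu₁⟩ := hpick H₁ (by show Nat.card H₁ < _; change Nat.card H₁ ≤ _ at c1; omega)
  let H₂ := H₁ ⊔ Subgroup.zpowers u₁
  have c2 := hgrow H₁ hZ1 u₁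
  obtain ⟨u₂, hau₂, hu₂⟩ := hpick H₂ (by
    show Nat.card H₂ < _; change Nat.card H₂ ≤ _ at c2; change Nat.card H₁ ≤ _ at c1; omega)
  have hH12 : H₁ ≤ H₂ := le_sup_left
  let H₃ := H₂ ⊔ Subgroup.zpowers u₂
  have c3 := hgrow H₂ (hZ1.trans hH12) u₂
  obtain ⟨u₃, hau₃, hu₃⟩ := hpick H₃ (by
    show Nat.card H₃ < _
    change Nat.card H₃ ≤ _ at c3; change Nat.card H₂ ≤ _ at c2; change Nat.card H₁ ≤ _ at c1; omega)
  have hH23 : H₂ ≤ H₃ := le_sup_left
  have m₁ : u₁ ∈ H₂ := mem_sup_right (mem_zpowers u₁)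
  have m₂ : u₂ ∈ H₃ := mem_sup_right (mem_zpowers u₂)
  -- an isotropic triple
  obtain ⟨u, w, hu, hw, huw, hauw, hau, haw⟩ : ∃ u w, u ∉ H₁ ∧ w ∉ H₁ ∧ u * w ∉ H₁ ∧ β w u = 1 ∧
      β a u = 1 ∧ β a w = 1 := by
    have key : β u₂ u₁ = 1 ∨ β u₃ u₁ = 1 ∨ β u₃ u₂ = 1 ∨ β u₂ u₁ = β u₃ u₁ ∨ β u₂ u₁ = β u₃ u₂ ∨
        β u₃ u₁ = β u₃ u₂ ∨ β u₂ u₁ * β u₃ u₁ * β u₃ u₂ = 1 := by
      by_contra h
      simp only [not_or] at h
      obtain ⟨h1, h2, h3, h4, h5, h6, h7⟩ := h
      haveI := Fintype.ofFinite (↥Z ⧸ sqh.range)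
      have hc : ({1, β u₂ u₁, β u₃ u₁, β u₃ u₂, β u₂ u₁ * β u₃ u₁} : Finset _).card = 5 := by
        rw [Finset.card_insert_of_notMem, Finset.card_insert_of_notMem, Finset.card_insert_of_notMem,
          Finset.card_pair]
        · exact fun e => h7 (by rw [← e, hA2])
        · simp only [Finset.mem_insert, Finset.mem_singleton, not_or]
          exact ⟨h6, fun e => h1 (by
            calc β u₂ u₁ = β u₂ u₁ * (β u₃ u₁ * β u₃ u₁) := by rw [hA2, mul_one]
              _ = 1 := by rw [← mul_assoc, ← e, hA2])⟩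
        · simp only [Finset.mem_insert, Finset.mem_singleton, not_or]
          exact ⟨h4, h5, fun e => h2 (mul_eq_left.mp e.symm)⟩
        · simp only [Finset.mem_insert, Finset.mem_singleton, not_or]
          refine ⟨Ne.symm h1, Ne.symm h2, Ne.symm h3, fun e => h4 ?_⟩
          calc β u₂ u₁ = β u₂ u₁ * (β u₃ u₁ * β u₃ u₁) := by rw [hA2, mul_one]
            _ = β u₃ u₁ := by rw [← mul_assoc, ← e, one_mul]
      have := Finset.card_le_univ ({1, β u₂ u₁, β u₃ u₁, β u₃ u₂, β u₂ u₁ * β u₃ u₁} : Finset (↥Z ⧸ sqh.range))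
      rw [hc, ← Nat.card_eq_fintype_card] at this
      omega
    have n1 : u₂ ∉ H₁ := fun h => hu₂ (hH12 h)
    have n2 : u₃ ∉ H₁ := fun h => hu₃ (hH23 (hH12 h))
    have n12 : u₁ * u₂ ∉ H₁ := fun h => hu₂ (by simpa using mul_mem (inv_mem m₁) (hH12 h))
    have n13 : u₁ * u₃ ∉ H₁ := fun h => hu₃ (by simpa using mul_mem (inv_mem (hH23 m₁)) (hH23 (hH12 h)))
    have n23 : u₂ * u₃ ∉ H₁ := fun h => hu₃ (by simpa using mul_mem (inv_mem m₂) (hH23 (hH12 h)))
    have n123 : u₁ * u₂ * u₃ ∉ H₁ := fun h => hu₃ (by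
      simpa [mul_assoc] using mul_mem (inv_mem (mul_mem (hH23 m₁) m₂)) (hH23 (hH12 h)))
    rcases key with h | h | h | h | h | h | h
    · exact ⟨u₁, u₂, hu₁, n1, n12, h, hau₁, hau₂⟩
    · exact ⟨u₁, u₃, hu₁, n2, n13, h, hau₁, hau₃⟩
    · exact ⟨u₂, u₃, n1, n2, n23, h, hau₂, hau₃⟩
    · exact ⟨u₁, u₂ * u₃, hu₁, n23, by rw [← mul_assoc]; exact n123, by rw [hβl, h, hA2], hau₁,
        by rw [hβr, hau₂, hau₃, one_mul]⟩
    · refine ⟨u₂, u₁ * u₃, n1, n13, fun hh => hu₃ ?_, by rw [hβl, hβs u₁ u₂, h, hA2], hau₂,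
        by rw [hβr, hau₁, hau₃, one_mul]⟩
      have := mul_mem (inv_mem (hH23 m₁)) (mul_mem (inv_mem m₂) (hH23 (hH12 hh)))
      simpa [mul_assoc] using this
    · exact ⟨u₁ * u₂, u₃, n12, n2, n123, by rw [hβr, h, hA2], by rw [hβr, hau₁, hau₂, one_mul], hau₃⟩
    · refine ⟨u₁ * u₂, u₁ * u₃, n12, n13, fun hh => hu₃ ?_, ?_, by rw [hβr, hau₁, hau₂, one_mul],
        by rw [hβr, hau₁, hau₃, one_mul]⟩
      · have := mul_mem (inv_mem (mul_mem (mul_mem (hH23 m₁) m₂) (hH23 m₁))) (hH23 (hH12 hh))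
        simpa [mul_assoc] using this
      · rw [hβl, hβr, hβr, hβself, one_mul, hβs u₁ u₂, ← mul_assoc]
        exact h
  have hZu : ∀ x, x ∉ H₁ → x ∉ Z := fun x hx h => hx (hZ1 h)
  have hau' : β u a = 1 := by rw [hβs, hau]
  have haw' : β w a = 1 := by rw [hβs, haw]
  have na_u : a * u ∉ H₁ := fun h => hu (by simpa using mul_mem (inv_mem ha1) h)
  have na_w : a * w ∉ H₁ := fun h => hw (by simpa using mul_mem (inv_mem ha1) h)
  have na_uw : a * (u * w) ∉ H₁ := fun h => huw (by simpa using mul_mem (inv_mem ha1) h)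
  have hs1 := hnoinv a ha
  have hs2 := hnoinv u (hZu _ hu)
  have hs3 := hnoinv w (hZu _ hw)
  have hs4 : σ u * σ w ≠ 1 := hσmul u w hauw ▸ hnoinv _ (hZu _ huw)
  have hs5 : σ a * σ u ≠ 1 := hσmul a u hau' ▸ hnoinv _ (hZu _ na_u)
  have hs6 : σ a * σ w ≠ 1 := hσmul a w haw' ▸ hnoinv _ (hZu _ na_w)
  have hs7 : σ a * (σ u * σ w) ≠ 1 := by
    rw [← hσmul u w hauw, ← hσmul a (u * w) (by rw [hβl, hau', haw', one_mul])]
    exact hnoinv _ (hZu _ na_uw)
  haveI := Fintype.ofFinite (↥Z ⧸ sqh.range)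
  have hc : ({1, σ a, σ u, σ w, σ a * σ u} : Finset _).card = 5 := by
    rw [Finset.card_insert_of_notMem, Finset.card_insert_of_notMem, Finset.card_insert_of_notMem,
      Finset.card_pair]
    · exact fun e => hs7 (by rw [← mul_assoc, ← e, hA2])
    · simp only [Finset.mem_insert, Finset.mem_singleton, not_or]
      exact ⟨fun e => hs4 (by rw [e, hA2]), fun e => hs1 (by
        calc σ a = σ a * (σ u * σ u) := by rw [hA2, mul_one]
          _ = 1 := by rw [← mul_assoc, ← e, hA2])⟩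
    · simp only [Finset.mem_insert, Finset.mem_singleton, not_or]
      exact ⟨fun e => hs5 (by rw [e, hA2]), fun e => hs6 (by rw [e, hA2]),
        fun e => hs2 (mul_eq_left.mp e.symm)⟩
    · simp only [Finset.mem_insert, Finset.mem_singleton, not_or]
      exact ⟨Ne.symm hs1, Ne.symm hs2, Ne.symm hs3, Ne.symm hs5⟩
  have := Finset.card_le_univ ({1, σ a, σ u, σ w, σ a * σ u} : Finset (↥Z ⧸ sqh.range))
  rw [hc, ← Nat.card_eq_fintype_card] at this
  omega


/-- Let d be a non-identity 3-element of a finite group and P a 2-subgroup normalized by d on which ⟨d⟩ acts faithfully (no non-identity power of d centralizes P) and without non-identity fixed points (C_P(d) = 1). If every abelian subgroup of P has 2-rank at most 2, then d has order 3. -/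
theorem result {X : Type*} [Group X] [Finite X] (d : X) (n : ℕ) (hn : 1 ≤ n) (hd : orderOf d = 3 ^ n) (P : Subgroup X) (hP : IsPGroup 2 P) (hdP : d ∈ Subgroup.normalizer (P : Set X)) (hfaith : Subgroup.zpowers d ⊓ Subgroup.centralizer (P : Set X) = ⊥) (hfpf : P ⊓ Subgroup.centralizer {d} = ⊥) (hrank : ∀ V : Subgroup X, V ≤ P → IsMulCommutative V → Cfsg.PRankLE 2 2 V) : orderOf d = 3 := by
  classical
  rcases Nat.lt_or_ge n 2 with hn2 | hn2
  · rw [hd, show n = 1 by omega]; norm_num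
  exfalso
  let d' := d ^ 3 ^ (n - 1)
  have hd'1 : d' ≠ 1 := by
    rw [Ne, ← orderOf_dvd_iff_pow_eq_one, hd, Nat.pow_dvd_pow_iff_le_right (by norm_num : 1 < 3)]
    omega
  obtain ⟨Q, ⟨hQP, hdQ, hQd'⟩, hmin⟩ := WellFounded.has_min (wellFounded_lt (α := Subgroup X))
    {Q | Q ≤ P ∧ d ∈ Subgroup.normalizer (Q : Set X) ∧ ¬ Q ≤ Subgroup.centralizer {d'}}
    ⟨P, le_rfl, hdP, fun h => hd'1 (Subgroup.mem_bot.mp (hfaith ▸
      (Subgroup.mem_inf.mpr ⟨npow_mem_zpowers d _, Subgroup.mem_centralizer_iff.mpr fun x hx =>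
        Subgroup.mem_centralizer_singleton_iff.mp (h hx)⟩ :
        d' ∈ Subgroup.zpowers d ⊓ Subgroup.centralizer (P : Set X))))⟩
  let φ : MulAut ↥Q := Q.normalizerMonoidHom ⟨d, hdQ⟩
  have hφpow : ∀ (k : ℕ) (x : ↥Q), (((φ ^ k) x : ↥Q) : X) = d ^ k * x * (d ^ k)⁻¹ := by
    intro k x
    show ((((Q.normalizerMonoidHom ⟨d, hdQ⟩) ^ k) x : ↥Q) : X) = _
    rw [← map_pow]
    rfl
  refine minimal_false (hP.to_le hQP) φ n hn2 ?_ ?_ ?_ ?_ ?_
  · refine MulEquiv.ext fun x => Subtype.ext ?_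
    rw [hφpow, ← hd, pow_orderOf_eq_one, one_mul, inv_one, mul_one, MulAut.one_apply]
  · intro h
    refine hQd' fun x hx => Subgroup.mem_centralizer_singleton_iff.mpr ?_
    have := hφpow (3 ^ (n - 1)) ⟨x, hx⟩
    rw [h, MulAut.one_apply, eq_mul_inv_iff_mul_eq] at this
    exact this
  · intro S hS hSinv x hx
    apply Subtype.ext
    rw [hφpow, mul_inv_eq_iff_eq_mul]
    let S' : Subgroup X := S.map Q.subtype
    have hlt : S' < Q := lt_of_le_of_ne (Subgroup.map_subtype_le _) fun e => hS (by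
      refine Subgroup.map_injective Q.subtype_injective ?_
      rw [← MonoidHom.range_eq_map, Subgroup.range_subtype]; exact e)
    have hdS : d ∈ Subgroup.normalizer (S' : Set X) := by
      have hpow : ∀ (k : ℕ) (y : ↥Q), y ∈ S → (φ ^ k) y ∈ S := by
        intro k
        induction k with
        | zero => exact fun y hy => hy
        | succ k ih => exact fun y hy => by rw [pow_succ, MulAut.mul_apply]; exact ih _ (hSinv y hy)
      refine Subgroup.mem_normalizer_iff.mpr fun z => ⟨?_, ?_⟩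
      · rintro ⟨y, hy, rfl⟩
        exact ⟨φ y, hSinv y hy, rfl⟩
      · rintro ⟨y, hy, hyz⟩
        refine ⟨(φ ^ (3 ^ n - 1)) y, hpow _ y hy, ?_⟩
        have hdm : d ^ (3 ^ n - 1) * d = 1 := by
          rw [← pow_succ, Nat.sub_add_cancel (Nat.one_le_pow _ _ (by norm_num)), ← hd, pow_orderOf_eq_one]
        show ((((φ ^ (3 ^ n - 1)) y : ↥Q)) : X) = z
        rw [hφpow, eq_inv_of_mul_eq_one_left hdm, show (y : X) = d * z * d⁻¹ from hyz]
        group
    by_contra hne
    refine hmin S' ⟨hlt.le.trans hQP, hdS, fun h => hne ?_⟩ hlt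
    exact (Subgroup.mem_centralizer_singleton_iff.mp (h ⟨x, hx, rfl⟩)).symm
  · intro x hx
    apply Subtype.ext
    have h1 : d * (x : X) * d⁻¹ = x := congrArg Subtype.val hx
    exact Subgroup.mem_bot.mp (hfpf ▸ (Subgroup.mem_inf.mpr ⟨hQP x.2,
      Subgroup.mem_centralizer_singleton_iff.mpr (mul_inv_eq_iff_eq_mul.mp h1).symm⟩ :
      (x : X) ∈ P ⊓ Subgroup.centralizer {d}))
  · intro a b c hab hac hbc ha hb hc
    by_contra hne
    simp only [not_or] at hne
    obtain ⟨h1, h2, h3, h4, h5, h6, h7⟩ := hne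
    let V := Subgroup.closure ({(a : X), (b : X), (c : X)} : Set X)
    have hVP : V ≤ P := by
      rw [Subgroup.closure_le]
      rintro _ (rfl | rfl | rfl)
      exacts [hQP a.2, hQP b.2, hQP c.2]
    have ca : (a : X) * b = b * a := congrArg Subtype.val hab
    have cb : (a : X) * c = c * a := congrArg Subtype.val hac
    have cc : (b : X) * c = c * b := congrArg Subtype.val hbc
    have hVc : IsMulCommutative ↥V := Subgroup.isMulCommutative_closure (by
      rintro u (rfl | rfl | rfl) v (rfl | rfl | rfl) <;>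
        first | rfl | exact ca | exact ca.symm | exact cb | exact cb.symm | exact cc | exact cc.symm)
    have hV2 : ∀ v : ↥V, v ^ 2 = 1 := by
      rintro ⟨v, hv⟩
      induction hv using Subgroup.closure_induction with
      | mem y hy =>
        apply Subtype.ext
        show y ^ 2 = 1
        rcases hy with rfl | rfl | rfl
        exacts [congrArg Subtype.val ha, congrArg Subtype.val hb, congrArg Subtype.val hc]
      | one => exact one_pow 2
      | mul y z hy hz iy iz =>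
        show ((⟨y, hy⟩ : ↥V) * ⟨z, hz⟩) ^ 2 = 1
        rw [(show Commute (⟨y, hy⟩ : ↥V) ⟨z, hz⟩ from hVc.is_comm.comm _ _).mul_pow, iy, iz, one_mul]
      | inv y hy iy =>
        show ((⟨y, hy⟩ : ↥V)⁻¹) ^ 2 = 1
        rw [inv_pow, iy, inv_one]
    have h8 := hrank V hVP hVc ⊤ ⟨⟨fun u v => Subtype.ext (hVc.is_comm.comm _ _)⟩⟩ fun v _ => hV2 v
    rw [Subgroup.card_top] at h8
    have hi : ∀ z : ↥Q, z ^ 2 = 1 → z⁻¹ = z := fun z hz => inv_eq_of_mul_eq_one_left (by rw [← pow_two, hz])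
    let W : Fin 5 → ↥Q := ![1, a, b, c, a * b]
    have hW : Function.Injective W := by
      intro i j hij
      fin_cases i <;> fin_cases j <;> simp [W] at hij ⊢ <;>
        first
        | exact h1 hij | exact h1 hij.symm | exact h2 hij | exact h2 hij.symm | exact h3 hij
        | exact h3 hij.symm | exact h4 hij | exact h4 hij.symm
        | exact h4 (by rw [hij, ← pow_two]; exact hb)
        | exact h4 (by rw [← hij, ← pow_two]; exact hb)
        | exact h5 (by rw [hij, ← pow_two]; exact hc)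
        | exact h5 (by rw [← hij, ← pow_two]; exact hc)
        | exact h6 (by rw [hij, ← pow_two]; exact hc)
        | exact h6 (by rw [← hij, ← pow_two]; exact hc)
        | exact h7 (by rw [← hij, ← pow_two]; exact hc)
        | exact h7 (by rw [hij, ← pow_two]; exact hc)
        | exact h2 (mul_eq_left.mp hij) | exact h2 (mul_eq_left.mp hij.symm)
        | exact h1 (mul_eq_right.mp hij) | exact h1 (mul_eq_right.mp hij.symm)
    have hmem : ∀ i, ((W i : ↥Q) : X) ∈ V := by
      intro i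
      have ma : (a : X) ∈ V := Subgroup.subset_closure (Or.inl rfl)
      have mb : (b : X) ∈ V := Subgroup.subset_closure (Or.inr (Or.inl rfl))
      have mc : (c : X) ∈ V := Subgroup.subset_closure (Or.inr (Or.inr rfl))
      fin_cases i
      exacts [one_mem _, ma, mb, mc, mul_mem ma mb]
    have h5 := Nat.card_le_card_of_injective (fun i : Fin 5 => (⟨_, hmem i⟩ : ↥V))
      fun i j e => hW (Subtype.ext (congrArg (fun t : ↥V => (t : X)) e))
    rw [Nat.card_fin] at h5
    omega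

end Cfsg.Agent.S3738
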