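import Cfsg.Statements.S3739
import Cfsg.Agent.Lib.Components.Signalizer
import Cfsg.Agent.Lib.Components.Cores
import Cfsg.Agent.Lib.PGroupFrattini
import Cfsg.Agent.S0065
import Mathlib

set_option autoImplicit false
open Cfsg

namespace Cfsg.Agent.S3739

open Subgroup
open scoped commutatorElement Pointwise

section

variable {G : Type*} [Group G] [Finite G]

/-- The central elements of square one of a subgroup. -/
def omegaCenter (Q : Subgroup G) : Subgroup G where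
  carrier := {z | z ∈ Q ∧ (∀ u ∈ Q, z * u = u * z) ∧ z * z = 1}
  one_mem' := ⟨Q.one_mem, fun u _ => by rw [one_mul, mul_one], one_mul 1⟩
  mul_mem' := by
    rintro a b ⟨haQ, hac, haa⟩ ⟨hbQ, hbc, hbb⟩
    refine ⟨Q.mul_mem haQ hbQ, fun u hu => by rw [mul_assoc, hbc u hu, ← mul_assoc, hac u hu, mul_assoc], ?_⟩
    calc a * b * (a * b) = a * (b * a) * b := by group
      _ = a * (a * b) * b := by rw [hbc a haQ]
      _ = (a * a) * (b * b) := by group
      _ = 1 := by rw [haa, hbb, one_mul]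
  inv_mem' := by
    rintro a ⟨haQ, hac, haa⟩
    rw [inv_eq_of_mul_eq_one_right haa]
    exact ⟨haQ, hac, haa⟩

theorem le_normalizer_of_forall {H : Subgroup G} {K : Subgroup G}
    (h : ∀ g ∈ K, ∀ u ∈ H, g * u * g⁻¹ ∈ H) : K ≤ normalizer (H : Set G) := fun g hg =>
  mem_normalizer_iff.mpr fun u => ⟨h g hg u, fun hu => by
    have := h g⁻¹ (K.inv_mem hg) _ hu
    simpa [mul_assoc] using this⟩

/-- Enlarging an elementary abelian subgroup by a commuting involution. -/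
theorem elementary_sup {W : Subgroup G} (hW : Cfsg.IsElementaryAbelian 2 W) {z : G} (hz : z * z = 1)
    (hzW : z ∉ W) (hc : ∀ w ∈ W, z * w = w * z) :
    Cfsg.IsElementaryAbelian 2 (zpowers z ⊔ W) ∧ Nat.card ↥(zpowers z ⊔ W) = 2 * Nat.card W := by
  have hn : zpowers z ≤ normalizer (W : Set G) := zpowers_le.mpr
    (Subgroup.centralizer_le_normalizer _ (mem_centralizer_iff.mpr fun w hw => (hc w hw).symm))
  have hel : ∀ a ∈ zpowers z, a * a = 1 ∧ ∀ w ∈ W, a * w = w * a := by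
    rintro _ ⟨i, rfl⟩
    refine ⟨?_, fun w hw => ((show Commute z w from hc w hw).zpow_left i).eq⟩
    simp only
    rw [← (Commute.refl z).mul_zpow, hz, one_zpow]
  refine ⟨⟨⟨⟨fun u v => ?_⟩⟩, fun u hu => ?_⟩, ?_⟩
  · obtain ⟨a, ha, w, hw, hu⟩ := (Lib.Coprime.mem_sup_of_le_normalizer hn).mp u.2
    obtain ⟨b, hb, w', hw', hv⟩ := (Lib.Coprime.mem_sup_of_le_normalizer hn).mp v.2
    apply Subtype.ext
    rw [Subgroup.coe_mul, Subgroup.coe_mul, ← hu, ← hv]
    obtain ⟨i, rfl⟩ := ha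
    obtain ⟨j, rfl⟩ := hb
    have hww : w * w' = w' * w := congrArg Subtype.val (hW.1.is_comm.comm ⟨w, hw⟩ ⟨w', hw'⟩)
    have h1 : Commute (z ^ i * w) (z ^ j) :=
      ((Commute.refl z).zpow_zpow i j).mul_left ((hel _ ⟨j, rfl⟩).2 w hw).symm
    have h2 : Commute (z ^ i * w) w' :=
      (show Commute (z ^ i) w' from (hel _ ⟨i, rfl⟩).2 w' hw').mul_left hww
    exact (h1.mul_right h2).eq
  · obtain ⟨a, ha, w, hw, rfl⟩ := (Lib.Coprime.mem_sup_of_le_normalizer hn).mp hu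
    rw [pow_two, show a * w * (a * w) = a * (w * a) * w by group, ← (hel a ha).2 w hw,
      show a * (a * w) * w = (a * a) * (w * w) by group, (hel a ha).1, one_mul, ← pow_two, hW.2 w hw]
  · have hinf : zpowers z ⊓ W = ⊥ := by
      rw [eq_bot_iff]
      rintro _ ⟨⟨i, rfl⟩, hi⟩
      rw [mem_bot]
      rcases Int.even_or_odd' i with ⟨j, rfl | rfl⟩
      · simp only; rw [zpow_mul, zpow_two, hz, one_zpow]
      · exfalso
        simp only at hi
        rw [zpow_add, zpow_mul, zpow_two, hz, one_zpow, one_mul, zpow_one] at hi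
        exact hzW hi
    have hz1 : z ≠ 1 := fun e => hzW (e ▸ W.one_mem)
    have h := Lib.Coprime.card_sup_mul_card_inf_of_le_normalizer hn
    rw [hinf, card_bot, mul_one, Nat.card_zpowers, orderOf_eq_prime (by rwa [pow_two]) hz1] at h
    exact h

theorem exists_eight {E : Subgroup G} (hE : Cfsg.IsElementaryAbelian 2 E) (h : 8 ≤ Nat.card E) :
    ∃ E' : Subgroup G, Cfsg.IsElementaryAbelian 2 E' ∧ Nat.card E' = 8 := by
  haveI : Fact (Nat.Prime 2) := ⟨Nat.prime_two⟩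
  obtain ⟨k, hk⟩ := Lib.Components.Sig.card_eq_pow hE
  have h3 : 2 ^ 3 ∣ Nat.card ↥E := by
    rw [hk] at h ⊢
    exact pow_dvd_pow 2 (by
      by_contra hlt
      have : 2 ^ k ≤ 2 ^ 2 := Nat.pow_le_pow_right (by norm_num) (by omega)
      omega)
  obtain ⟨K, hK⟩ := Sylow.exists_subgroup_card_pow_prime 2 h3
  refine ⟨K.map E.subtype, Lib.Components.Sig.elem_mono hE (map_subtype_le K), ?_⟩
  rw [← Nat.card_congr (K.equivMapOfInjective _ E.subtype_injective).toEquiv, hK]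
  rfl

theorem cube (a : G) : a * a * a = a ^ 3 := by rw [pow_succ, pow_two]

theorem eq_one_of_conj_fix {x u : G} {m : ℕ} (hx : x ^ 3 = 1) (hu : u ^ 2 ^ m = 1) {c : G}
    (hc : x * c * x⁻¹ = u * c) (hxu : x * u * x⁻¹ = u) : u = 1 := by
  have h2 : u ^ 3 = 1 := by
    have e2 : x * (x * c * x⁻¹) * x⁻¹ = u * u * c := by
      rw [hc, show x * (u * c) * x⁻¹ = (x * u * x⁻¹) * (x * c * x⁻¹) by group, hxu, hc, mul_assoc]
    have e3 : x * (x * (x * c * x⁻¹) * x⁻¹) * x⁻¹ = u * u * u * c := by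
      rw [e2, show x * (u * u * c) * x⁻¹ = (x * u * x⁻¹) * (x * u * x⁻¹) * (x * c * x⁻¹) by group, hxu, hc]
      group
    have e4 : x * (x * (x * c * x⁻¹) * x⁻¹) * x⁻¹ = c := by
      rw [show x * (x * (x * c * x⁻¹) * x⁻¹) * x⁻¹ = x * x * x * c * (x * x * x)⁻¹ by group, cube, hx]
      group
    rw [e4, eq_comm, mul_eq_right] at e3
    rw [← cube]
    exact e3
  exact orderOf_eq_one_iff.mp (Nat.eq_one_of_dvd_coprimes (Nat.Coprime.pow_left m (by norm_num : (2).Coprime 3))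
    (orderOf_dvd_of_pow_eq_one hu) (orderOf_dvd_of_pow_eq_one h2))

/-- The configuration with a Klein group of involutions is impossible. -/
theorem no_config {Q : Subgroup G} (hQ : IsPGroup 2 Q) {x d : G} (hx : x ^ 3 = 1) (hxd : x * d = d * x)
    (hxQ : x ∈ normalizer (Q : Set G)) (hdQ : d ∈ normalizer (Q : Set G))
    (hnc : ¬ Q ≤ centralizer ({x} : Set G)) {z₁ z₂ z₃ : G}
    (hd1 : d * z₁ * d⁻¹ = z₂) (hd2 : d * z₂ * d⁻¹ = z₃) (hd3 : d * z₃ * d⁻¹ = z₁)
    (h12 : z₁ ≠ z₂) (h13 : z₁ ≠ z₃) (h23 : z₂ ≠ z₃) (h01 : z₁ ≠ 1) (h02 : z₂ ≠ 1) (h03 : z₃ ≠ 1)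
    (hmul : z₁ * z₂ = z₃)
    (hinv : ∀ u ∈ Q, u * u = 1 → u = 1 ∨ u = z₁ ∨ u = z₂ ∨ u = z₃)
    (hsq : z₁ * z₁ = 1 ∧ z₂ * z₂ = 1 ∧ z₃ * z₃ = 1)
    (hfix : x * z₁ * x⁻¹ = z₁ ∧ x * z₂ * x⁻¹ = z₂ ∧ x * z₃ * x⁻¹ = z₃) : False := by
  classical
  haveI : Fact (Nat.Prime 2) := ⟨Nat.prime_two⟩
  let P : Subgroup G → Prop := fun C => C ≤ Q ∧ x ∈ normalizer (C : Set G) ∧ d ∈ normalizer (C : Set G) ∧
    ¬ C ≤ centralizer ({x} : Set G)
  obtain ⟨C, -, hC⟩ := Finite.exists_le_minimal (p := P) (a := Q) ⟨le_rfl, hxQ, hdQ, hnc⟩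
  obtain ⟨hCQ, hxC, hdC, hCnc⟩ := hC.prop
  have hCp : IsPGroup 2 C := hQ.to_le hCQ
  have conjx : ∀ {c : G}, c ∈ C → x * c * x⁻¹ ∈ C := fun {c} hc => (mem_normalizer_iff.mp hxC c).mp hc
  have conjd : ∀ {c : G}, c ∈ C → d * c * d⁻¹ ∈ C := fun {c} hc => (mem_normalizer_iff.mp hdC c).mp hc
  have two_pow : ∀ {u : G}, u ∈ C → ∃ m, u ^ 2 ^ m = 1 := fun {u} hu => by
    obtain ⟨m, hm⟩ := hCp ⟨u, hu⟩
    exact ⟨m, by simpa using congrArg Subtype.val hm⟩
  -- `f c = [c, x]`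
  let f : G → G := fun c => c * x * c⁻¹ * x⁻¹
  have hfdef : ∀ c, f c = c * x * c⁻¹ * x⁻¹ := fun c => rfl
  have hfC : ∀ {c : G}, c ∈ C → f c ∈ C := fun {c} hc => by
    rw [hfdef, show c * x * c⁻¹ * x⁻¹ = c * (x * c⁻¹ * x⁻¹) by group]
    exact C.mul_mem hc (conjx (C.inv_mem hc))
  have hfix_of : ∀ {c : G}, c ∈ C → x * f c * x⁻¹ = f c → x * c * x⁻¹ = c := by
    intro c hc h
    obtain ⟨m, hm⟩ := two_pow (C.inv_mem (hfC hc))
    have h1 : x * (f c)⁻¹ * x⁻¹ = (f c)⁻¹ := by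
      conv_rhs => rw [← h]
      group
    have h2 : (f c)⁻¹ = 1 := eq_one_of_conj_fix hx hm (c := c) (by rw [hfdef]; group) h1
    rw [inv_eq_one, hfdef, mul_inv_eq_one, mul_inv_eq_iff_eq_mul] at h2
    rw [← h2, mul_inv_cancel_right]
  -- proper invariant subgroups are centralized
  have hmin : ∀ K : Subgroup G, K ≤ C → x ∈ normalizer (K : Set G) → d ∈ normalizer (K : Set G) → K ≠ C →
      ∀ u ∈ K, x * u * x⁻¹ = u := by
    intro K hKC hxK hdK hne u hu
    have hK : K ≤ centralizer ({x} : Set G) := by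
      by_contra h
      exact hne (le_antisymm hKC (hC.le_of_le ⟨hKC.trans hCQ, hxK, hdK, h⟩ hKC))
    rw [← mem_centralizer_singleton_iff.mp (hK hu), mul_inv_cancel_right]
  have hKC : closure (f '' (C : Set G)) = C := by
    have hle : closure (f '' (C : Set G)) ≤ C := by
      rw [closure_le]; rintro _ ⟨c, hc, rfl⟩; exact hfC hc
    have hnorm : ∀ g : G, g * x = x * g → g ∈ normalizer (C : Set G) →
        g ∈ normalizer ((closure (f '' (C : Set G)) : Subgroup G) : Set G) := by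
      intro g hg hgC
      refine mem_normalizer_iff_map_conj_eq.mpr (eq_of_le_of_card_ge ?_
        (by rw [card_map_of_injective (MulAut.conj g).injective]))
      rw [MonoidHom.map_closure, closure_le]
      rintro _ ⟨_, ⟨c, hc, rfl⟩, rfl⟩
      refine subset_closure ⟨g * c * g⁻¹, (mem_normalizer_iff.mp hgC c).mp hc, ?_⟩
      show (g * c * g⁻¹) * x * (g * c * g⁻¹)⁻¹ * x⁻¹ = g * (c * x * c⁻¹ * x⁻¹) * g⁻¹
      have e : g⁻¹ * x = x * g⁻¹ := (show Commute g x from hg).inv_left.eq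
      have e2 : g * x⁻¹ = x⁻¹ * g := (show Commute g x from hg).inv_right.eq
      calc (g * c * g⁻¹) * x * (g * c * g⁻¹)⁻¹ * x⁻¹ = g * c * (g⁻¹ * x) * g * c⁻¹ * g⁻¹ * x⁻¹ := by group
        _ = g * c * x * c⁻¹ * (g⁻¹ * x⁻¹) := by rw [e]; group
        _ = g * (c * x * c⁻¹ * x⁻¹) * g⁻¹ := by
          rw [(show Commute g x from hg).inv_inv.eq]; group
    by_contra hne
    refine hCnc fun c hc => mem_centralizer_singleton_iff.mpr ?_
    have h := hfix_of hc (hmin _ hle (hnorm x rfl hxC) (hnorm d hxd.symm hdC) hne _ (subset_closure ⟨c, hc, rfl⟩))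
    exact (mul_inv_eq_iff_eq_mul.mp h).symm
  -- the Frattini subgroup is centralized
  set Φ := (frattini ↥C).map C.subtype with hΦ
  have hΦn : normalizer (C : Set G) ≤ normalizer (Φ : Set G) := by
    refine le_normalizer_of_forall ?_
    rintro g hg _ ⟨y, hy, rfl⟩
    let e : ↥C ≃* ↥C := C.normalizerMonoidHom ⟨g, hg⟩
    exact ⟨e y, (characteristic_iff_map_le.1 inferInstance e) (mem_map_of_mem e.toMonoidHom hy), rfl⟩
  have hΦne : Φ ≠ C := by
    intro h
    have htop : frattini ↥C = ⊤ := map_injective C.subtype_injective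
      (by rw [← hΦ, h, ← MonoidHom.range_eq_map, range_subtype])
    have : Nontrivial ↥C := (nontrivial_iff_ne_bot C).mpr fun e => hCnc (e ▸ bot_le)
    obtain ⟨M, hM, -⟩ := (eq_top_or_exists_le_coatom (⊥ : Subgroup ↥C)).resolve_left bot_ne_top
    exact hM.1 (top_le_iff.mp (htop ▸ frattini_le_coatom hM))
  have hΦx : ∀ u ∈ Φ, x * u * x⁻¹ = u := hmin Φ (map_subtype_le _) (hΦn hxC) (hΦn hdC) hΦne
  have hcomΦ : ∀ {a b : G}, a ∈ C → b ∈ C → a * b * a⁻¹ * b⁻¹ ∈ Φ := fun {a b} ha hb =>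
    ⟨⁅(⟨a, ha⟩ : ↥C), ⟨b, hb⟩⁆, Lib.PGroupFrattini.commutator_le_frattini hCp
      (commutator_mem_commutator (mem_top _) (mem_top _)), by simp [commutatorElement_def]⟩
  have hsqΦ : ∀ {a : G}, a ∈ C → a * a ∈ Φ := fun {a} ha =>
    ⟨(⟨a, ha⟩ : ↥C) ^ 2, Lib.PGroupFrattini.pow_mem_frattini hCp _, by simp [pow_two]⟩
  -- fixed points are central
  have hDc : ∀ δ ∈ C, x * δ * x⁻¹ = δ → ∀ c ∈ C, c * δ = δ * c := by
    intro δ hδ hδx c hc
    have hgen : C ≤ centralizer ({δ} : Set G) := by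
      rw [← hKC, closure_le]
      rintro _ ⟨v, hv, rfl⟩
      refine mem_centralizer_singleton_iff.mpr ?_
      have h := hΦx _ (hcomΦ (C.inv_mem hv) hδ)
      have h' : (x * v⁻¹ * x⁻¹) * δ * (x * v⁻¹ * x⁻¹)⁻¹ * δ⁻¹ = v⁻¹ * δ * (v⁻¹)⁻¹ * δ⁻¹ := by
        rw [← h]
        conv_lhs => rw [← hδx]
        group
      have h'' : x * v⁻¹ * x⁻¹ * δ * (x * v * x⁻¹) = v⁻¹ * δ * v := by
        have e := mul_right_cancel h'
        rw [inv_inv, show (x * v⁻¹ * x⁻¹)⁻¹ = x * v * x⁻¹ by group] at e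
        exact e
      show f v * δ = δ * f v
      rw [hfdef]
      calc v * x * v⁻¹ * x⁻¹ * δ = v * (x * v⁻¹ * x⁻¹ * δ * (x * v * x⁻¹)) * (x * v⁻¹ * x⁻¹) := by group
        _ = v * (v⁻¹ * δ * v) * (x * v⁻¹ * x⁻¹) := by rw [h'']
        _ = δ * (v * x * v⁻¹ * x⁻¹) := by group
    exact mem_centralizer_singleton_iff.mp (hgen hc)
  have hΦc : ∀ u ∈ Φ, ∀ c ∈ C, c * u = u * c := fun u hu =>
    hDc u (map_subtype_le _ hu) (hΦx u hu)
  -- the commutator map
  let κ : G → G → G := fun a b => a * b * a⁻¹ * b⁻¹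
  have κdef : ∀ a b, κ a b = a * b * a⁻¹ * b⁻¹ := fun a b => rfl
  have κC : ∀ {a b}, a ∈ C → b ∈ C → κ a b ∈ C := fun {a b} ha hb => map_subtype_le _ (hcomΦ ha hb)
  have κc : ∀ {a b c}, a ∈ C → b ∈ C → c ∈ C → c * κ a b = κ a b * c := fun {a b c} ha hb hc =>
    hΦc _ (hcomΦ ha hb) c hc
  have κr : ∀ {a b b'}, a ∈ C → b ∈ C → b' ∈ C → κ a (b * b') = κ a b * κ a b' := fun {a b b'} ha hb hb' => by
    calc κ a (b * b') = (κ a b) * (b * κ a b') * b⁻¹ := by simp only [κdef]; group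
      _ = (κ a b) * (κ a b' * b) * b⁻¹ := by rw [κc ha hb' hb]
      _ = κ a b * κ a b' := by group
  have κl : ∀ {a a' b}, a ∈ C → a' ∈ C → b ∈ C → κ (a * a') b = κ a b * κ a' b := fun {a a' b} ha ha' hb => by
    calc κ (a * a') b = (a * κ a' b) * a⁻¹ * κ a b := by simp only [κdef]; group
      _ = (κ a' b * a) * a⁻¹ * κ a b := by rw [κc ha' hb ha]
      _ = κ a' b * κ a b := by group
      _ = κ a b * κ a' b := (κc ha hb (κC ha' hb))
  have κsq : ∀ {a b}, a ∈ C → b ∈ C → κ a b * κ a b = 1 := fun {a b} ha hb => by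
    rw [← κl ha ha hb, κdef, ← hΦc _ (hsqΦ ha) b hb]
    group
  -- squares of `f`
  let q : G → G := fun c => f c * f c
  have qdef : ∀ c, q c = f c * f c := fun c => rfl
  have hqsq : ∀ {c}, c ∈ C → q c * q c = 1 := by
    intro c hc
    set a := f c with ha
    have haC : a ∈ C := hfC hc
    set s := a * a with hs
    have hsΦ : s ∈ Φ := hsqΦ haC
    set b := x * a * x⁻¹ with hb
    have hbC : b ∈ C := conjx haC
    set e := x * b * x⁻¹ with he
    have hprod : a * b * e = 1 := by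
      rw [he, hb, ha, hfdef, show c * x * c⁻¹ * x⁻¹ * (x * (c * x * c⁻¹ * x⁻¹) * x⁻¹) *
          (x * (x * (c * x * c⁻¹ * x⁻¹) * x⁻¹) * x⁻¹) = c * (x * x * x) * c⁻¹ * (x * x * x)⁻¹ by group, cube, hx]
      group
    have hb2 : b * b = s := by
      rw [hb, show x * a * x⁻¹ * (x * a * x⁻¹) = x * (a * a) * x⁻¹ by group, ← hs, hΦx s hsΦ]
    have he2 : e * e = s := by
      rw [he, show x * b * x⁻¹ * (x * b * x⁻¹) = x * (b * b) * x⁻¹ by group, hb2, hΦx s hsΦ]
    have hee : e = (a * b)⁻¹ := eq_inv_of_mul_eq_one_right hprod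
    rw [hee] at he2
    have hab : a * b * (a * b) = κ b a * (s * s) := by
      calc a * b * (a * b) = a * κ b a * (a * (b * b)) := by simp only [κdef]; group
        _ = κ b a * a * (a * (b * b)) := by rw [κc hbC haC haC]
        _ = κ b a * (s * s) := by rw [hb2, hs]; group
    have hk : κ b a = (s * (s * s))⁻¹ := by
      refine eq_inv_of_mul_eq_one_left ?_
      have : (a * b * (a * b))⁻¹ = s := by rw [← he2]; group
      rw [hab] at this
      calc κ b a * (s * (s * s)) = κ b a * (s * s) * s := by group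
        _ = κ b a * (s * s) * (κ b a * (s * s))⁻¹ := by rw [this]
        _ = 1 := mul_inv_cancel _
    have h6 := κsq hbC haC
    rw [hk] at h6
    have h6' : s ^ 6 = 1 := by
      have := congrArg (·⁻¹) h6
      simp only [inv_one] at this
      rw [← this]; group
    obtain ⟨m, hm⟩ := two_pow (C.mul_mem haC haC)
    have h2 : orderOf s ∣ 2 := by
      have h := Nat.dvd_gcd (orderOf_dvd_of_pow_eq_one hm) (orderOf_dvd_of_pow_eq_one h6')
      refine (Nat.Coprime.dvd_of_dvd_mul_right (k := orderOf s) (n := 3) ?_ ?_)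
      · exact (Nat.Coprime.pow_left m (by norm_num : (2).Coprime 3)).coprime_dvd_left (orderOf_dvd_of_pow_eq_one hm)
      · exact (orderOf_dvd_of_pow_eq_one h6')
    show s * s = 1
    rw [← pow_two]
    exact orderOf_dvd_iff_pow_eq_one.mp h2
  have hqW : ∀ {c}, c ∈ C → q c = 1 ∨ q c = z₁ ∨ q c = z₂ ∨ q c = z₃ := fun {c} hc =>
    hinv _ (hCQ (C.mul_mem (hfC hc) (hfC hc))) (hqsq hc)
  have hq1 : ∀ {c}, c ∈ C → (q c = 1 ↔ x * c * x⁻¹ = c) := by
    intro c hc
    constructor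
    · intro h
      refine hfix_of hc ?_
      rcases hinv _ (hCQ (hfC hc)) h with e | e | e | e <;> rw [e]
      · group
      · exact hfix.1
      · exact hfix.2.1
      · exact hfix.2.2
    · intro h
      have h' : x * c⁻¹ * x⁻¹ = c⁻¹ := by
        conv_rhs => rw [← h]
        group
      have : f c = 1 := by
        rw [hfdef, show c * x * c⁻¹ * x⁻¹ = c * (x * c⁻¹ * x⁻¹) by group, h', mul_inv_cancel]
      rw [qdef, this, one_mul]
  -- the bilinear form
  let B : G → G → G := fun c c' => κ (f c) (f c')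
  have hf_mul : ∀ {c c'}, c ∈ C → c' ∈ C → f (c * c') = κ c (f c') * (f c' * f c) := fun {c c'} hc hc' => by
    simp only [κdef, hfdef]; group
  have hBr : ∀ {u c c'}, u ∈ C → c ∈ C → c' ∈ C → B u (c * c') = B u c * B u c' := fun {u c c'} hu hc hc' => by
    show κ (f u) (f (c * c')) = κ (f u) (f c) * κ (f u) (f c')
    have hk := κC hc (hfC hc')
    rw [hf_mul hc hc', κr (hfC hu) hk (C.mul_mem (hfC hc') (hfC hc)), κr (hfC hu) (hfC hc') (hfC hc)]
    have h1 : κ (f u) (κ c (f c')) = 1 := by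
      rw [κdef (f u), κc hc (hfC hc') (hfC hu)]; group
    rw [h1, one_mul, κc (hfC hu) (hfC hc) (κC (hfC hu) (hfC hc'))]
  have hBl : ∀ {u u' c}, u ∈ C → u' ∈ C → c ∈ C → B (u * u') c = B u c * B u' c := fun {u u' c} hu hu' hc => by
    show κ (f (u * u')) (f c) = κ (f u) (f c) * κ (f u') (f c)
    have hk := κC hu (hfC hu')
    rw [hf_mul hu hu', κl hk (C.mul_mem (hfC hu') (hfC hu)) (hfC hc), κl (hfC hu') (hfC hu) (hfC hc)]
    have h1 : κ (κ u (f u')) (f c) = 1 := by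
      rw [κdef (κ u (f u')), ← κc hu (hfC hu') (hfC hc)]; group
    rw [h1, one_mul, κc (hfC hu) (hfC hc) (κC (hfC hu') (hfC hc))]
  have hqmul : ∀ {c c'}, c ∈ C → c' ∈ C → q (c * c') = q c * q c' * B c c' := fun {c c'} hc hc' => by
    have hk := κC hc (hfC hc')
    have hfc := hfC hc; have hfc' := hfC hc'
    rw [qdef, hf_mul hc hc']
    set k := κ c (f c') with hkdef
    have hkk : k * k = 1 := κsq hc hfc'
    calc k * (f c' * f c) * (k * (f c' * f c)) = k * ((f c' * f c) * k) * (f c' * f c) := by group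
      _ = k * (k * (f c' * f c)) * (f c' * f c) := by rw [κc hc hfc' (C.mul_mem hfc' hfc)]
      _ = (k * k) * (f c' * κ (f c) (f c')) * (f c' * (f c * f c)) := by simp only [κdef]; group
      _ = κ (f c) (f c') * q c' * q c := by rw [hkk, one_mul, κc hfc hfc' hfc', qdef, qdef]; group
      _ = q c * q c' * B c c' := by
        have e1 : q c' * q c = q c * q c' := hΦc _ (hsqΦ hfc) _ (C.mul_mem hfc' hfc')
        rw [mul_assoc, e1]
        exact (hΦc _ (hcomΦ hfc hfc') _ (C.mul_mem (C.mul_mem hfc hfc) (C.mul_mem hfc' hfc'))).symm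
  -- the character
  let ψ : G → ℤ := fun w => if w = 1 ∨ w = z₁ then 1 else -1
  have hψ1 : ψ 1 = 1 := if_pos (Or.inl rfl)
  have hψz1 : ψ z₁ = 1 := if_pos (Or.inr rfl)
  have hψz2 : ψ z₂ = -1 := if_neg (by rintro (h | h); exacts [h02 h, h12 h.symm])
  have hψz3 : ψ z₃ = -1 := if_neg (by rintro (h | h); exacts [h03 h, h13 h.symm])
  obtain ⟨s1, s2, s3⟩ := hsq
  have i1 : z₁⁻¹ = z₁ := inv_eq_of_mul_eq_one_right s1
  have i2 : z₂⁻¹ = z₂ := inv_eq_of_mul_eq_one_right s2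
  have i3 : z₃⁻¹ = z₃ := inv_eq_of_mul_eq_one_right s3
  have m21 : z₂ * z₁ = z₃ := by rw [← i3, ← hmul, mul_inv_rev, i1, i2]
  have m13 : z₁ * z₃ = z₂ := by rw [← hmul, ← mul_assoc, s1, one_mul]
  have m23 : z₂ * z₃ = z₁ := by rw [← m21, ← mul_assoc, s2, one_mul]
  have m31 : z₃ * z₁ = z₂ := by rw [← m21, mul_assoc, s1, mul_one]
  have m32 : z₃ * z₂ = z₁ := by rw [← hmul, mul_assoc, s2, mul_one]
  let InW : G → Prop := fun w => w = 1 ∨ w = z₁ ∨ w = z₂ ∨ w = z₃
  have hψmul : ∀ {u v}, InW u → InW v → InW (u * v) ∧ ψ (u * v) = ψ u * ψ v := by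
    intro u v hu hv
    rcases hu with rfl | rfl | rfl | rfl <;> rcases hv with rfl | rfl | rfl | rfl <;>
      simp only [InW, one_mul, mul_one, s1, s2, s3, hmul, m21, m13, m23, m31, m32, hψ1, hψz1, hψz2, hψz3] <;>
      simp
  have hψsq : ∀ {u}, InW u → ψ u * ψ u = 1 := by
    intro u hu
    rcases hu with rfl | rfl | rfl | rfl <;> simp [hψ1, hψz1, hψz2, hψz3]
  have hBW : ∀ {u c}, u ∈ C → c ∈ C → InW (B u c) := fun {u c} hu hc =>
    hinv _ (hCQ (κC (hfC hu) (hfC hc))) (κsq (hfC hu) (hfC hc))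
  haveI : Fintype ↥C := Fintype.ofFinite _
  let T : ℤ := ∑ c : ↥C, ψ (q c)
  -- the radical
  let Rad : Subgroup ↥C :=
    { carrier := {w | ∀ c : ↥C, ψ (B (c : G) w) = 1}
      one_mem' := fun c => by
        show ψ (κ (f (c : G)) (f (((1 : ↥C) : G)))) = 1
        rw [hfdef (((1 : ↥C) : G)), κdef, OneMemClass.coe_one]
        simp [hψ1]
      mul_mem' := fun {a b} ha hb c => by
        rw [Subgroup.coe_mul, hBr c.2 a.2 b.2, (hψmul (hBW c.2 a.2) (hBW c.2 b.2)).2, ha c, hb c, mul_one]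
      inv_mem' := fun {a} ha c => by
        have h := (hψmul (hBW c.2 a⁻¹.2) (hBW c.2 a.2)).2
        rw [← hBr c.2 a⁻¹.2 a.2, ← Subgroup.coe_mul, inv_mul_cancel, ha c, mul_one] at h
        rw [← h]
        show ψ (κ (f (c : G)) (f (((1 : ↥C) : G)))) = 1
        rw [hfdef (((1 : ↥C) : G)), κdef, OneMemClass.coe_one]
        simp [hψ1] }
  let D : Subgroup ↥C := (centralizer ({x} : Set G)).subgroupOf C
  have hDmem : ∀ c : ↥C, c ∈ D ↔ x * (c : G) * x⁻¹ = c := fun c => by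
    rw [mem_subgroupOf, mem_centralizer_singleton_iff, mul_inv_eq_iff_eq_mul]
    exact eq_comm
  have hfD : ∀ c : ↥C, c ∈ D → f c = 1 := fun c hc => by
    have h := (hDmem c).mp hc
    rw [hfdef, show (c : G) * x * (c : G)⁻¹ * x⁻¹ = c * (x * c * x⁻¹)⁻¹ by group, h, mul_inv_cancel]
  have hDR : D ≤ Rad := fun w hw c => by
    show ψ (κ (f (c : G)) (f (w : G))) = 1
    rw [hfD w hw, κdef]
    simp [hψ1]
  have hinner : ∀ w : ↥C, ∑ c : ↥C, ψ (B (c : G) w) = if w ∈ Rad then (Nat.card ↥C : ℤ) else 0 := by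
    intro w
    by_cases hw : w ∈ Rad
    · rw [if_pos hw, Finset.sum_congr rfl fun c _ => hw c, Finset.sum_const, Finset.card_univ,
        Nat.card_eq_fintype_card]
      simp
    · rw [if_neg hw]
      obtain ⟨c₀, hc₀⟩ : ∃ c₀ : ↥C, ψ (B (c₀ : G) w) ≠ 1 := by
        by_contra h
        push Not at h
        exact hw h
      have hneg : ψ (B (c₀ : G) w) = -1 := by
        rcases hBW c₀.2 w.2 with e | e | e | e <;> rw [e] at hc₀ ⊢
        · exact absurd hψ1 hc₀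
        · exact absurd hψz1 hc₀
        · exact hψz2
        · exact hψz3
      have h := Equiv.sum_comp (Equiv.mulLeft c₀) fun c : ↥C => ψ (B (c : G) w)
      simp only [Equiv.coe_mulLeft, Subgroup.coe_mul] at h
      rw [Finset.sum_congr rfl fun (c : ↥C) _ => by
        rw [hBl c₀.2 c.2 w.2, (hψmul (hBW c₀.2 w.2) (hBW c.2 w.2)).2, hneg], ← Finset.mul_sum] at h
      omega
  have hT2 : T * T = (Nat.card ↥C : ℤ) * ∑ w ∈ Finset.univ.filter (· ∈ Rad), ψ (q w) := by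
    calc T * T = ∑ c : ↥C, ψ (q c) * ∑ w : ↥C, ψ (q ((c * w : ↥C) : G)) := by
          rw [Finset.sum_mul]
          refine Finset.sum_congr rfl fun c _ => ?_
          congr 1
          exact (Equiv.sum_comp (Equiv.mulLeft c) fun w : ↥C => ψ (q w)).symm
      _ = ∑ c : ↥C, ∑ w : ↥C, ψ (q w) * ψ (B (c : G) w) := by
          refine Finset.sum_congr rfl fun c _ => ?_
          rw [Finset.mul_sum]
          refine Finset.sum_congr rfl fun w _ => ?_
          obtain ⟨h1, h2⟩ := hψmul (hqW c.2) (hqW w.2)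
          rw [Subgroup.coe_mul, hqmul c.2 w.2, (hψmul h1 (hBW c.2 w.2)).2, h2]
          calc ψ (q c) * (ψ (q c) * ψ (q w) * ψ (B (c : G) w))
              = (ψ (q c) * ψ (q c)) * (ψ (q w) * ψ (B (c : G) w)) := by ring
            _ = _ := by rw [hψsq (hqW c.2), one_mul]
      _ = ∑ w : ↥C, ψ (q w) * ∑ c : ↥C, ψ (B (c : G) w) := by
          rw [Finset.sum_comm]
          exact Finset.sum_congr rfl fun w _ => (Finset.mul_sum _ _ _).symm
      _ = _ := by
          rw [Finset.mul_sum, Finset.sum_filter]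
          refine Finset.sum_congr rfl fun w _ => ?_
          rw [hinner w]
          split <;> ring
  have hdvd : (Nat.card ↥C : ℤ) * Nat.card ↥D ∣ T * T := by
    rw [hT2]
    refine mul_dvd_mul_left _ ?_
    have hR : ∑ w ∈ Finset.univ.filter (· ∈ Rad), ψ (q w) = ∑ w : ↥Rad, ψ (q ((w : ↥C) : G)) :=
      Finset.sum_subtype _ (fun w => by simp) _
    rw [hR]
    have hhom : ∀ a b : ↥Rad, ψ (q (((a * b : ↥Rad) : ↥C) : G)) = ψ (q ((a : ↥C) : G)) * ψ (q ((b : ↥C) : G)) := by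
      intro a b
      obtain ⟨h1, h2⟩ := hψmul (hqW (a : ↥C).2) (hqW (b : ↥C).2)
      rw [Subgroup.coe_mul, Subgroup.coe_mul, hqmul (a : ↥C).2 (b : ↥C).2,
        (hψmul h1 (hBW (a : ↥C).2 (b : ↥C).2)).2, h2, b.2 (a : ↥C), mul_one]
    by_cases hall : ∀ w : ↥Rad, ψ (q ((w : ↥C) : G)) = 1
    · rw [Finset.sum_congr rfl fun w _ => hall w, Finset.sum_const, Finset.card_univ, nsmul_one,
        ← Nat.card_eq_fintype_card]
      exact_mod_cast card_dvd_of_le hDR
    · push Not at hall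
      obtain ⟨a₀, ha₀⟩ := hall
      have h := Equiv.sum_comp (Equiv.mulLeft a₀) fun a : ↥Rad => ψ (q ((a : ↥C) : G))
      simp only [Equiv.coe_mulLeft] at h
      rw [Finset.sum_congr rfl fun (a : ↥Rad) _ => hhom a₀ a, ← Finset.mul_sum] at h
      have hneg : ψ (q ((a₀ : ↥C) : G)) = -1 := by
        rcases hqW (a₀ : ↥C).2 with e | e | e | e <;> rw [e] at ha₀ ⊢
        · exact absurd hψ1 ha₀
        · exact absurd hψz1 ha₀
        · exact hψz2
        · exact hψz3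
      rw [hneg] at h
      rw [show ∑ w : ↥Rad, ψ (q ((w : ↥C) : G)) = 0 by omega]
      exact dvd_zero _
  -- the three fibres
  let dd : ↥C → ↥C := fun c => ⟨d * c * d⁻¹, conjd c.2⟩
  have hdq : ∀ c : G, q (d * c * d⁻¹) = d * q c * d⁻¹ := fun c => by
    have e : x = d * x * d⁻¹ := by rw [← hxd, mul_inv_cancel_right]
    simp only [qdef, hfdef]
    conv_lhs => rw [e]
    group
  let N : G → ℕ := fun z => (Finset.univ.filter fun c : ↥C => q (c : G) = z).card
  have hdinj : Function.Injective dd := fun a b h => Subtype.ext (by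
    have := congrArg Subtype.val h
    simpa [dd] using this)
  have hN : ∀ z, N (d * z * d⁻¹) = N z := fun z => by
    refine (Finset.card_bij (fun c _ => dd c) ?_ (fun a _ b _ h => hdinj h) ?_).symm
    · intro c hc
      simp only [Finset.mem_filter, Finset.mem_univ, true_and] at hc ⊢
      show q (d * (c : G) * d⁻¹) = _
      rw [hdq, hc]
    · intro c hc
      simp only [Finset.mem_filter, Finset.mem_univ, true_and] at hc
      obtain ⟨c', rfl⟩ := (Finite.injective_iff_surjective.mp hdinj) c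
      refine ⟨c', ?_, rfl⟩
      simp only [Finset.mem_filter, Finset.mem_univ, true_and]
      have h : d * q (c' : G) * d⁻¹ = d * z * d⁻¹ := (hdq _).symm.trans hc
      exact mul_left_cancel (mul_right_cancel h)
  have e2 : N z₂ = N z₁ := hd1 ▸ hN z₁
  have e3 : N z₃ = N z₁ := (hd2 ▸ hN z₂).trans e2
  have hD0 : N 1 = Nat.card ↥D := by
    rw [Nat.card_eq_fintype_card, Fintype.card_subtype]
    show (Finset.univ.filter fun c : ↥C => q (c : G) = 1).card = _
    refine congrArg Finset.card ?_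
    ext c
    simp only [Finset.mem_filter, Finset.mem_univ, true_and]
    exact (hq1 c.2).trans (hDmem c).symm
  have hmaps : ∀ c ∈ (Finset.univ : Finset ↥C), q (c : G) ∈ ({1, z₁, z₂, z₃} : Finset G) := fun c _ => by
    rcases hqW c.2 with e | e | e | e <;> simp [e]
  have hne : (1 : G) ∉ ({z₁, z₂, z₃} : Finset G) ∧ z₁ ∉ ({z₂, z₃} : Finset G) ∧ z₂ ∉ ({z₃} : Finset G) := by
    simp [h01.symm, h02.symm, h03.symm, h12, h13, h23]
  have hcard : Nat.card ↥C = Nat.card ↥D + (N z₁ + (N z₁ + N z₁)) := by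
    rw [Nat.card_eq_fintype_card, ← Finset.card_univ, Finset.card_eq_sum_card_fiberwise hmaps,
      Finset.sum_insert hne.1, Finset.sum_insert hne.2.1, Finset.sum_insert hne.2.2, Finset.sum_singleton]
    show N 1 + (N z₁ + (N z₂ + N z₃)) = _
    rw [hD0, e2, e3]
  have hT : T = (Nat.card ↥D : ℤ) - N z₁ := by
    show ∑ c : ↥C, ψ (q c) = _
    rw [← Finset.sum_fiberwise_of_maps_to hmaps (fun c : ↥C => ψ (q c)),
      Finset.sum_insert hne.1, Finset.sum_insert hne.2.1, Finset.sum_insert hne.2.2, Finset.sum_singleton]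
    have hs : ∀ z, ∑ c ∈ Finset.univ.filter (fun c : ↥C => q (c : G) = z), ψ (q c) = ψ z * N z := fun z => by
      rw [Finset.sum_congr rfl fun c hc => by rw [(Finset.mem_filter.mp hc).2], Finset.sum_const]
      simp [N, mul_comm]
    rw [hs, hs, hs, hs, hψ1, hψz1, hψz2, hψz3, hD0, e2, e3]
    ring
  -- `x` is free on a fibre
  have h3N : 3 ∣ N z₁ := by
    let S := {c : ↥C // q (c : G) = z₁}
    have hxq : ∀ c : G, q (x * c * x⁻¹) = x * q c * x⁻¹ := fun c => by simp only [qdef, hfdef]; group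
    let σ : Equiv.Perm S :=
      { toFun := fun c => ⟨⟨x * (c.1 : G) * x⁻¹, conjx c.1.2⟩, by
          show q (x * (c.1 : G) * x⁻¹) = z₁
          rw [hxq, c.2, hfix.1]⟩
        invFun := fun c => ⟨⟨x⁻¹ * (c.1 : G) * x, (mem_normalizer_iff''.mp hxC _).mp c.1.2⟩, by
          show q (x⁻¹ * (c.1 : G) * x) = z₁
          have h := hxq (x⁻¹ * (c.1 : G) * x)
          rw [show x * (x⁻¹ * (c.1 : G) * x) * x⁻¹ = c.1 by group, c.2] at h
          have h' : x * q (x⁻¹ * (c.1 : G) * x) * x⁻¹ = x * z₁ * x⁻¹ := h.symm.trans hfix.1.symm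
          exact mul_left_cancel (mul_right_cancel h')⟩
        left_inv := fun c => Subtype.ext (Subtype.ext (by simp [mul_assoc]))
        right_inv := fun c => Subtype.ext (Subtype.ext (by simp [mul_assoc])) }
    have hσ : σ ^ 3 ^ 1 = 1 := Equiv.ext fun c => Subtype.ext (Subtype.ext (by
      show x * (x * (x * (c.1 : G) * x⁻¹) * x⁻¹) * x⁻¹ = c.1
      rw [show x * (x * (x * (c.1 : G) * x⁻¹) * x⁻¹) * x⁻¹ = x * x * x * c.1 * (x * x * x)⁻¹ by group, cube, hx]
      group))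
    have hnf : ∀ c : S, σ c ≠ c := fun c h => h01 (c.2.symm.trans ((hq1 c.1.2).mpr
      (congrArg (fun w : S => ((w.1 : ↥C) : G)) h)))
    haveI : Fact (Nat.Prime 3) := ⟨Nat.prime_three⟩
    by_contra h3
    have hc : ¬ 3 ∣ Fintype.card S := by rwa [Fintype.card_subtype]
    obtain ⟨c, hc'⟩ := Equiv.Perm.exists_fixed_point_of_prime hc hσ
    exact hnf c hc'
  -- arithmetic
  obtain ⟨δ, hδ⟩ := IsPGroup.iff_card.mp (hCp.to_subgroup D)
  obtain ⟨γ, hγ⟩ := IsPGroup.iff_card.mp hCp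
  obtain ⟨n, hn⟩ : ∃ n, γ = δ + n := by
    refine Nat.exists_eq_add_of_le ?_
    have h := Subgroup.card_subgroup_dvd_card D
    rw [hδ, hγ, Nat.pow_dvd_pow_iff_le_right (by norm_num)] at h
    exact h
  have h3M : 2 ^ δ ∣ N z₁ := by
    refine (Nat.Coprime.pow_left δ (by norm_num : (2).Coprime 3)).dvd_of_dvd_mul_left ?_
    have h : 2 ^ δ ∣ 2 ^ δ + 3 * N z₁ := by
      have : 2 ^ γ = 2 ^ δ + 3 * N z₁ := by rw [← hγ, hcard, hδ]; ring
      rw [← this, hn, pow_add]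
      exact dvd_mul_right _ _
    exact (Nat.dvd_add_right dvd_rfl).mp h
  obtain ⟨M, hM⟩ := h3M
  have hM3 : 3 ∣ M := by
    rw [hM] at h3N
    exact (Nat.Coprime.pow_right δ (by norm_num : (3).Coprime 2)).dvd_of_dvd_mul_left h3N
  have hrel : 2 ^ n = 1 + 3 * M := by
    have : 2 ^ δ * 2 ^ n = 2 ^ δ * (1 + 3 * M) := by
      rw [← pow_add, ← hn, ← hγ, hcard, hδ, hM]; ring
    exact Nat.eq_of_mul_eq_mul_left (by positivity) this
  have hdiv : (2 : ℤ) ^ n ∣ (1 - (M : ℤ)) * (1 - M) := by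
    rw [hT, hγ, hδ, hM, hn, pow_add] at hdvd
    push_cast at hdvd
    have h : (2 : ℤ) ^ δ * 2 ^ δ * 2 ^ n ∣ (2 : ℤ) ^ δ * 2 ^ δ * ((1 - (M : ℤ)) * (1 - M)) := by
      convert hdvd using 1 <;> ring
    exact (mul_dvd_mul_iff_left (by positivity)).mp h
  obtain ⟨M', rfl⟩ := hM3
  by_cases hn6 : n ≤ 5
  · have hM0 : M' ≠ 0 := by
      rintro rfl
      refine hCnc fun c hc => mem_centralizer_singleton_iff.mpr ?_
      rcases hqW hc with e | e | e | e
      · exact (mul_inv_eq_iff_eq_mul.mp ((hq1 hc).mp e)).symm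
      all_goals exfalso
      all_goals
        have hz : ∀ z, N z = 0 → q c ≠ z := fun z hz he => by
          have : (⟨c, hc⟩ : ↥C) ∈ Finset.univ.filter (fun w : ↥C => q (w : G) = z) := by simp [he]
          rw [Finset.card_eq_zero.mp hz] at this
          simp at this
      · exact hz z₁ (by rw [hM]; simp) e
      · exact hz z₂ (by rw [e2, hM]; simp) e
      · exact hz z₃ (by rw [e3, hM]; simp) e
    interval_cases n <;> omega
  · obtain ⟨r, rfl⟩ : ∃ r, n = r + 6 := ⟨n - 6, by omega⟩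
    have e : (3 * (1 - ((3 * M' : ℕ) : ℤ))) = 4 - 2 ^ (r + 6) := by
      have : ((2 ^ (r + 6) : ℕ) : ℤ) = 1 + 3 * ((3 * M' : ℕ) : ℤ) := by exact_mod_cast hrel
      push_cast at this ⊢
      linarith
    have h9 : (2 : ℤ) ^ (r + 6) ∣ (4 - 2 ^ (r + 6)) * (4 - 2 ^ (r + 6)) := by
      rw [← e]
      exact (hdiv.mul_left (3 * 3)).trans (dvd_of_eq (by ring))
    have h16 : (2 : ℤ) ^ (r + 6) ∣ 16 := by
      have h' : (2 : ℤ) ^ (r + 6) ∣ 16 + 2 ^ (r + 6) * (2 ^ (r + 6) - 8) := by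
        convert h9 using 1
        ring
      exact (dvd_add_left (dvd_mul_right _ _)).mp h'
    have hle := Int.le_of_dvd (by norm_num) h16
    have : (2 : ℤ) ^ 6 ≤ 2 ^ (r + 6) := pow_le_pow_right₀ (by norm_num) (by omega)
    omega

theorem exists_three_part (y : G) :
    ∃ k : ℕ, (∃ m, (y ^ k) ^ 3 ^ m = 1) ∧ k ≡ 1 [MOD 3] := by
  obtain ⟨e, r, hr, her⟩ := Nat.exists_eq_pow_mul_and_not_dvd (orderOf_pos y).ne' 3 (by norm_num)
  have hcop : Nat.Coprime 3 r := (Nat.prime_three.coprime_iff_not_dvd).mpr hr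
  obtain ⟨k, hk1, hk2⟩ := Nat.chineseRemainder hcop 1 0
  obtain ⟨c, rfl⟩ := Nat.modEq_zero_iff_dvd.mp hk2
  refine ⟨r * c, ⟨e, ?_⟩, hk1⟩
  rw [← pow_mul, show r * c * 3 ^ e = 3 ^ e * r * c by ring, ← her, pow_mul, pow_orderOf_eq_one, one_pow]

theorem main (hchar : centralizer (Cfsg.pCore 2 G : Set G) ≤ Cfsg.pCore 2 G) (hsix : ∃ g : G, orderOf g = 6)
    (d : G) (hd : IsPGroup 3 ↥(zpowers d)) (W : Subgroup G) (hW : Cfsg.IsElementaryAbelian 2 W)
    (hW1 : W ≠ ⊥) (hdW : d ∈ normalizer (W : Set G)) (hfpf : W ⊓ centralizer {d} = ⊥) :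
    ∃ E : Subgroup G, Cfsg.IsElementaryAbelian 2 E ∧ Nat.card E = 8 := by
  classical
  haveI : Fact (Nat.Prime 2) := ⟨Nat.prime_two⟩
  haveI : Fact (Nat.Prime 3) := ⟨Nat.prime_three⟩
  by_contra hno
  have hle4 : ∀ E : Subgroup G, Cfsg.IsElementaryAbelian 2 E → Nat.card E ≤ 4 := by
    intro E hE
    obtain ⟨k, hk⟩ := Lib.Components.Sig.card_eq_pow hE
    by_contra h
    refine hno (exists_eight hE ?_)
    rw [hk] at h ⊢
    rcases k with _ | _ | _ | k
    · omega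
    · omega
    · omega
    · exact le_trans (by norm_num) (Nat.pow_le_pow_right (by norm_num) (show 3 ≤ k + 1 + 1 + 1 by omega))
  have hnofix : ∀ w ∈ W, d * w * d⁻¹ = w → w = 1 := fun w hw h =>
    mem_bot.mp (hfpf ▸ ⟨hw, mem_centralizer_singleton_iff.mpr (mul_inv_eq_iff_eq_mul.mp h).symm⟩)
  have hWd : ∀ w ∈ W, d * w * d⁻¹ ∈ W := fun w hw => (mem_normalizer_iff.mp hdW w).mp hw
  have hWs : ∀ w ∈ W, w * w = 1 := fun w hw => by rw [← pow_two]; exact hW.2 w hw
  -- the three involutions of `W`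
  obtain ⟨z₁, hz1W, h01⟩ := W.bot_or_exists_ne_one.resolve_left hW1
  set z₂ := d * z₁ * d⁻¹ with hz2
  set z₃ := d * z₂ * d⁻¹ with hz3
  have hz2W : z₂ ∈ W := hWd _ hz1W
  have hz3W : z₃ ∈ W := hWd _ hz2W
  have cinj : ∀ {u v : G}, d * u * d⁻¹ = d * v * d⁻¹ → u = v := fun h => mul_left_cancel (mul_right_cancel h)
  have c1 : ∀ {u : G}, d * u * d⁻¹ = 1 → u = 1 := fun {u} h => cinj (h.trans (by group))
  have h02 : z₂ ≠ 1 := fun h => h01 (c1 (hz2 ▸ h))
  have h03 : z₃ ≠ 1 := fun h => h02 (c1 (hz3 ▸ h))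
  have h12 : z₁ ≠ z₂ := fun h => h01 (hnofix _ hz1W h.symm)
  have h23 : z₂ ≠ z₃ := fun h => h02 (hnofix _ hz2W h.symm)
  have hWc : ∀ {u v}, u ∈ W → v ∈ W → u * v = v * u := fun {u v} hu hv => Lib.Components.Sig.comm_of hW hu hv
  have h13 : z₁ ≠ z₃ := fun h => by
    have h' : d * (z₁ * z₂) * d⁻¹ = z₁ * z₂ := by
      rw [show d * (z₁ * z₂) * d⁻¹ = (d * z₁ * d⁻¹) * (d * z₂ * d⁻¹) by group, ← hz2, ← hz3, ← h, hWc hz2W hz1W]
    have h'' := hnofix _ (W.mul_mem hz1W hz2W) h'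
    rw [mul_eq_one_iff_eq_inv, inv_eq_of_mul_eq_one_right (hWs _ hz2W)] at h''
    exact h12 h''
  haveI : Fintype ↥W := Fintype.ofFinite _
  have hWlist : ∀ w ∈ W, w = 1 ∨ w = z₁ ∨ w = z₂ ∨ w = z₃ := by
    intro w hw
    by_contra h
    push Not at h
    obtain ⟨a, b, c, e⟩ := h
    let S : Finset ↥W := {1, ⟨z₁, hz1W⟩, ⟨z₂, hz2W⟩, ⟨z₃, hz3W⟩, ⟨w, hw⟩}
    have hS : S.card = 5 := by
      simp [S, Subtype.ext_iff, h01.symm, h02.symm, h03.symm, h12, h13, h23, a.symm, b.symm, c.symm, e.symm]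
    have := S.card_le_univ
    rw [hS, ← Nat.card_eq_fintype_card] at this
    have := hle4 W hW
    omega
  have hmul : z₁ * z₂ = z₃ := by
    rcases hWlist _ (W.mul_mem hz1W hz2W) with e | e | e | e
    · rw [mul_eq_one_iff_eq_inv, inv_eq_of_mul_eq_one_right (hWs _ hz2W)] at e
      exact absurd e h12
    · exact absurd (mul_eq_left.mp e) h02
    · exact absurd (mul_eq_right.mp e) h01
    · exact e
  have hd3 : d * z₃ * d⁻¹ = z₁ := by
    rcases hWlist _ (hWd _ hz3W) with e | e | e | e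
    · exact absurd (c1 e) h03
    · exact e
    · exact absurd (cinj (e.trans hz2)) (Ne.symm h13)
    · exact absurd (hnofix _ hz3W e) h03
  have hinvar : ∀ K : Subgroup G, K ≤ W → (∀ u ∈ K, d * u * d⁻¹ ∈ K) → K ≠ ⊥ → K = W := by
    intro K hKW hK hK1
    obtain ⟨u, hu, hu1⟩ := K.bot_or_exists_ne_one.resolve_left hK1
    refine le_antisymm hKW fun w hw => ?_
    have hu2 := hK u hu
    have hu3 := hK _ hu2
    have hz : z₁ ∈ K ∧ z₂ ∈ K ∧ z₃ ∈ K := by
      rcases hWlist u (hKW hu) with e | e | e | e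
      · exact absurd e hu1
      · rw [e] at hu hu2 hu3; exact ⟨hu, hu2, hu3⟩
      · rw [e] at hu hu2 hu3; rw [← hz3] at hu2 hu3; rw [hd3] at hu3; exact ⟨hu3, hu, hu2⟩
      · rw [e] at hu hu2 hu3; rw [hd3] at hu2 hu3; exact ⟨hu2, hu3, hu⟩
    rcases hWlist w hw with rfl | rfl | rfl | rfl
    · exact K.one_mem
    · exact hz.1
    · exact hz.2.1
    · exact hz.2.2
  -- `O_2(G)` and the centre
  set Q := Cfsg.pCore 2 G with hQdef
  have hQn : Q.Normal := Subgroup.sSup_normal _ fun _ h => h.1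
  have hQp : IsPGroup 2 Q := Lib.Components.pCore_isPGroup 2
  have hQ1 : Q ≠ ⊥ := by
    intro h
    have : (⊤ : Subgroup G) ≤ ⊥ := by
      refine le_trans ?_ (h ▸ hchar)
      intro g _
      refine mem_centralizer_iff.mpr fun u hu => ?_
      rw [SetLike.mem_coe, mem_bot] at hu
      rw [hu, one_mul, mul_one]
    exact hW1 (le_bot_iff.mp (le_top.trans this))
  set Z := omegaCenter Q with hZdef
  have hZe : Cfsg.IsElementaryAbelian 2 Z :=
    ⟨⟨⟨fun u v => Subtype.ext (u.2.2.1 v v.2.1)⟩⟩, fun u hu => by rw [pow_two]; exact hu.2.2⟩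
  have hZn : ∀ g : G, ∀ u ∈ Z, g * u * g⁻¹ ∈ Z := by
    rintro g u ⟨huQ, huc, huu⟩
    refine ⟨hQn.conj_mem u huQ g, fun v hv => ?_, by rw [show g * u * g⁻¹ * (g * u * g⁻¹) = g * (u * u) * g⁻¹ by group, huu]; group⟩
    have hv' : g⁻¹ * v * g ∈ Q := by
      have := hQn.conj_mem v hv g⁻¹
      rwa [inv_inv] at this
    calc g * u * g⁻¹ * v = g * (u * (g⁻¹ * v * g)) * g⁻¹ := by group
      _ = g * ((g⁻¹ * v * g) * u) * g⁻¹ := by rw [huc _ hv']
      _ = v * (g * u * g⁻¹) := by group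
  obtain ⟨z, hzZ, hz1⟩ : ∃ z ∈ Z, z ≠ 1 := by
    haveI : Nontrivial ↥Q := (nontrivial_iff_ne_bot Q).mpr hQ1
    haveI : Nontrivial (center ↥Q) := hQp.center_nontrivial
    obtain ⟨k, hk⟩ := IsPGroup.iff_card.mp (hQp.to_subgroup (center ↥Q))
    have hk0 : k ≠ 0 := fun h => by
      rw [h, pow_zero] at hk
      exact (Finite.one_lt_card (α := center ↥Q)).ne' hk
    obtain ⟨u, hu⟩ := exists_prime_orderOf_dvd_card' 2 (hk ▸ dvd_pow_self 2 hk0)
    refine ⟨((u : ↥Q) : G), ⟨(u : ↥Q).2, fun v hv => ?_, ?_⟩, fun h => ?_⟩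
    · exact (congrArg Subtype.val (mem_center_iff.mp u.2 ⟨v, hv⟩)).symm
    · have := pow_orderOf_eq_one u
      rw [hu, pow_two] at this
      exact congrArg (fun w : center ↥Q => ((w : ↥Q) : G)) this
    · rw [show u = 1 from Subtype.ext (Subtype.ext h), orderOf_one] at hu
      norm_num at hu
  have hWZ : W = Z := by
    have hZ8 : W ≤ Z := by
      have hK := hinvar (W ⊓ Z) inf_le_left (fun u hu => ⟨hWd u hu.1, hZn d u hu.2⟩)
      by_cases hbot : W ⊓ Z = ⊥
      · exfalso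
        -- a fixed point of `W` on `Z`
        have hWZn : W ≤ normalizer (Z : Set G) := le_normalizer_of_forall fun g _ u hu => hZn g u hu
        have hp : IsPGroup 2 ↥(W ⊔ Z) :=
          (Lib.Components.Sig.elem_pGroup hW).to_sup_of_normal_right' (Lib.Components.Sig.elem_pGroup hZe) hWZn
        obtain ⟨c, hc, hc1, hcW⟩ : ∃ c ∈ Z, c ≠ 1 ∧ ∀ w ∈ W, c * w = w * c := by
          haveI : Group.IsNilpotent ↥(W ⊔ Z) := hp.isNilpotent
          haveI hn : (Z.subgroupOf (W ⊔ Z)).Normal := (normal_subgroupOf_iff_le_normalizer le_sup_right).mpr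
            (sup_le hWZn le_normalizer)
          have hne : Z.subgroupOf (W ⊔ Z) ≠ ⊥ := by
            rw [ne_eq, subgroupOf_eq_bot, disjoint_iff, inf_eq_left.mpr le_sup_right]
            exact fun h => hz1 (mem_bot.mp (h ▸ hzZ))
          obtain ⟨c, ⟨hcZ, hcc⟩, hc1⟩ := (bot_or_exists_ne_one _).resolve_left
            (S0065.inf_center_ne_bot hn hne)
          exact ⟨c, hcZ, fun h => hc1 (Subtype.ext h), fun w hw =>
            (congrArg Subtype.val (mem_center_iff.mp hcc ⟨w, mem_sup_left hw⟩)).symm⟩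
        have hcnW : c ∉ W := fun h => hc1 (mem_bot.mp (hbot ▸ ⟨h, hc⟩))
        obtain ⟨hE, hEc⟩ := elementary_sup hW hc.2.2 hcnW hcW
        have := hle4 _ hE
        have h4 : 4 ≤ Nat.card W := by
          rw [Nat.card_eq_fintype_card]
          have hS : ({1, ⟨z₁, hz1W⟩, ⟨z₂, hz2W⟩, ⟨z₃, hz3W⟩} : Finset ↥W).card = 4 := by
            simp [Subtype.ext_iff, h01.symm, h02.symm, h03.symm, h12, h13, h23]
          exact hS ▸ Finset.card_le_univ _
        omega
      · exact (hK hbot).ge.trans inf_le_right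
    refine eq_of_le_of_card_ge hZ8 ((hle4 Z hZe).trans ?_)
    rw [Nat.card_eq_fintype_card]
    have hS : ({1, ⟨z₁, hz1W⟩, ⟨z₂, hz2W⟩, ⟨z₃, hz3W⟩} : Finset ↥W).card = 4 := by
      simp [Subtype.ext_iff, h01.symm, h02.symm, h03.symm, h12, h13, h23]
    exact hS ▸ Finset.card_le_univ _
  have hWn : W.Normal := ⟨fun u hu g => by rw [hWZ] at hu ⊢; exact hZn g u hu⟩
  have hinvo : ∀ t : G, t * t = 1 → (∀ w ∈ W, t * w = w * t) → t ∈ W := by
    intro t ht htc
    by_contra htW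
    obtain ⟨hE, hEc⟩ := elementary_sup hW ht htW htc
    have := hle4 _ hE
    have h2 : 2 ≤ Nat.card W := W.one_lt_card_iff_ne_bot.mpr hW1
    have h4 : Nat.card W ≠ 2 ∧ Nat.card W ≠ 3 := by
      have hS : ({1, ⟨z₁, hz1W⟩, ⟨z₂, hz2W⟩, ⟨z₃, hz3W⟩} : Finset ↥W).card = 4 := by
        simp [Subtype.ext_iff, h01.symm, h02.symm, h03.symm, h12, h13, h23]
      have h := Finset.card_le_univ ({1, ⟨z₁, hz1W⟩, ⟨z₂, hz2W⟩, ⟨z₃, hz3W⟩} : Finset ↥W)
      rw [hS] at h
      rw [← Nat.card_eq_fintype_card] at h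
      omega
    omega
  -- an element of order three centralizing `W`
  obtain ⟨g, hg⟩ := hsix
  set x₀ := g ^ 2 with hx₀
  set t := g ^ 3 with ht
  have hg6 : g ^ 6 = 1 := by rw [← hg]; exact pow_orderOf_eq_one g
  have hx₀3 : x₀ ^ 3 = 1 := by rw [hx₀, ← pow_mul]; exact hg6
  have htt : t * t = 1 := by rw [ht, ← pow_add]; exact hg6
  have ht1 : t ≠ 1 := fun h => by
    have := orderOf_dvd_of_pow_eq_one h
    rw [hg] at this; norm_num at this
  have hx₀1 : x₀ ≠ 1 := fun h => by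
    have := orderOf_dvd_of_pow_eq_one h
    rw [hg] at this; norm_num at this
  have htx : t * x₀ = x₀ * t := (Commute.pow_pow_self g 3 2).eq
  -- `x₀` has a nontrivial fixed point in `W`
  have hfp : ∃ w ∈ W, w ≠ 1 ∧ x₀ * w * x₀⁻¹ = w := by
    by_cases htW : t ∈ W
    · exact ⟨t, htW, ht1, by rw [← htx, mul_inv_cancel_right]⟩
    · by_contra hnf
      push Not at hnf
      refine htW (hinvo t htt fun w hw => ?_)
      obtain ⟨a, ha, ha1, hta⟩ : ∃ a ∈ W, a ≠ 1 ∧ t * a = a * t := by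
        by_cases h : t * z₁ * t⁻¹ = z₁
        · exact ⟨z₁, hz1W, h01, mul_inv_eq_iff_eq_mul.mp h⟩
        · refine ⟨z₁ * (t * z₁ * t⁻¹), W.mul_mem hz1W (hWn.conj_mem _ hz1W t), fun e => h ?_, ?_⟩
          · rw [mul_eq_one_iff_eq_inv'] at e
            rw [e, inv_eq_of_mul_eq_one_right (hWs _ hz1W)]
          · have ht' : t⁻¹ = t := inv_eq_of_mul_eq_one_right htt
            rw [ht']
            calc t * (z₁ * (t * z₁ * t)) = (t * z₁ * t) * z₁ * t := by group
              _ = z₁ * (t * z₁ * t) * t := by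
                rw [hWc (by have := hWn.conj_mem _ hz1W t; rwa [ht'] at this) hz1W]
      set b := x₀ * a * x₀⁻¹ with hb
      have hbW : b ∈ W := hWn.conj_mem a ha x₀
      have hb1 : b ≠ 1 := fun e => ha1 (by
        have : a = x₀⁻¹ * b * x₀ := by rw [hb]; group
        rw [this, e]; group)
      have hba : b ≠ a := hnf a ha ha1
      have htb : t * b = b * t := by
        have hA : Commute t a := hta
        have hX : Commute t x₀ := htx
        exact ((hX.mul_right hA).mul_right hX.inv_right).eq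
      have hlist : ∀ v ∈ W, v = 1 ∨ v = a ∨ v = b ∨ v = a * b := by
        intro v hv
        have hab : a * b ≠ 1 ∧ a * b ≠ a ∧ a * b ≠ b := by
          refine ⟨fun e => hba ?_, fun e => hb1 (mul_eq_left.mp e), fun e => ha1 (mul_eq_right.mp e)⟩
          rw [mul_eq_one_iff_eq_inv', inv_eq_of_mul_eq_one_right (hWs _ ha)] at e
          exact e
        by_contra hcon
        push Not at hcon
        let S : Finset ↥W := {1, ⟨a, ha⟩, ⟨b, hbW⟩, ⟨a * b, W.mul_mem ha hbW⟩, ⟨v, hv⟩}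
        have hS : S.card = 5 := by
          simp [S, Subtype.ext_iff, ha1.symm, hb1.symm, hab.1.symm, hba.symm, hab.2.1.symm, hab.2.2.symm,
            hcon.1.symm, hcon.2.1.symm, hcon.2.2.1.symm, hcon.2.2.2.symm]
        have := S.card_le_univ
        rw [hS, ← Nat.card_eq_fintype_card] at this
        have := hle4 W hW
        omega
      rcases hlist w hw with rfl | rfl | rfl | rfl
      · rw [one_mul, mul_one]
      · exact hta
      · exact htb
      · rw [← mul_assoc, hta, mul_assoc, htb, ← mul_assoc]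
  have hx₀W : ∀ w ∈ W, x₀ * w = w * x₀ := by
    obtain ⟨w₀, hw₀, hw₀1, hw₀x⟩ := hfp
    intro w hw
    refine mul_inv_eq_iff_eq_mul.mp ?_
    set v := x₀ * w * x₀⁻¹ with hv
    set u := x₀ * v * x₀⁻¹ with hu
    have hvW : v ∈ W := hWn.conj_mem w hw x₀
    have huW : u ∈ W := hWn.conj_mem v hvW x₀
    have hu3 : x₀ * u * x₀⁻¹ = w := by
      rw [hu, hv, show x₀ * (x₀ * (x₀ * w * x₀⁻¹) * x₀⁻¹) * x₀⁻¹ = x₀ * x₀ * x₀ * w * (x₀ * x₀ * x₀)⁻¹ by group, cube, hx₀3]
      group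
    by_contra hne
    have xinj : ∀ {p r : G}, x₀ * p * x₀⁻¹ = x₀ * r * x₀⁻¹ → p = r := fun h => mul_left_cancel (mul_right_cancel h)
    have n1 : u ≠ v := fun e => hne (xinj (hu ▸ e).symm).symm
    have n2 : u ≠ w := fun e => hne (by rw [e] at hu3; exact hu3)
    have o1 : w ≠ 1 := fun e => hne (by rw [hv, e]; group)
    have o2 : v ≠ 1 := fun e => o1 (xinj (hv ▸ e.trans (by group)))
    have o3 : u ≠ 1 := fun e => o2 (xinj (hu ▸ e.trans (by group)))
    have f1 : w ≠ w₀ := fun e => hne (by rw [hv, e, hw₀x])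
    have f2 : v ≠ w₀ := fun e => f1 (xinj ((hv.symm.trans e).trans hw₀x.symm))
    have f3 : u ≠ w₀ := fun e => f2 (xinj ((hu.symm.trans e).trans hw₀x.symm))
    let S : Finset ↥W := {1, ⟨w₀, hw₀⟩, ⟨w, hw⟩, ⟨v, hvW⟩, ⟨u, huW⟩}
    have hS : S.card = 5 := by
      simp [S, Subtype.ext_iff, hw₀1.symm, o1.symm, o2.symm, o3.symm, f1.symm, f2.symm, f3.symm,
        (show w ≠ v from fun e => hne e.symm), n2.symm, n1.symm]
    have := S.card_le_univ
    rw [hS, ← Nat.card_eq_fintype_card] at this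
    have := hle4 W hW
    omega
  -- a Sylow 3-subgroup of `C(W)`
  set C := centralizer (W : Set G) with hC
  haveI hCn : C.Normal := Subgroup.normal_centralizer
  have hx₀C : x₀ ∈ C := mem_centralizer_iff.mpr fun w hw => (hx₀W w hw).symm
  obtain ⟨P0, hP0⟩ := ((IsPGroup.of_card (n := 1) (by
    rw [Nat.card_zpowers, pow_one]
    exact orderOf_eq_prime hx₀3 hx₀1) : IsPGroup 3 ↥(zpowers x₀)).comap_subtype (K := C)).exists_le_sylow
  set P := (P0 : Subgroup ↥C).map C.subtype with hP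
  have hfrat := Sylow.normalizer_sup_eq_top P0
  have hdmem : d ∈ normalizer (P : Set G) ⊔ C := hfrat.ge (mem_top d)
  obtain ⟨n, hn, c, hc, hnc'⟩ := Set.mem_mul.mp (by
    rw [← Subgroup.mul_normal]; exact hdmem : d ∈ (normalizer (P : Set G) : Set G) * (C : Set G))
  have hnW : ∀ w ∈ W, n * w * n⁻¹ = d * w * d⁻¹ := fun w hw => by
    rw [← hnc', show n * c * w * (n * c)⁻¹ = n * (c * w * c⁻¹) * n⁻¹ by group,
      show c * w * c⁻¹ = w by rw [← mem_centralizer_iff.mp hc w hw, mul_inv_cancel_right]]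
  obtain ⟨k, ⟨m, hm⟩, hk⟩ := exists_three_part n
  set d' := n ^ k with hd'
  obtain ⟨j, rfl⟩ : ∃ j, k = 3 * j + 1 := ⟨k / 3, by have := hk; unfold Nat.ModEq at this; omega⟩
  have hcyc : ∀ w ∈ W, n * (n * (n * w * n⁻¹) * n⁻¹) * n⁻¹ = w := by
    intro w hw
    rw [hnW w hw, hnW _ (hWd w hw), hnW _ (hWd _ (hWd w hw))]
    rcases hWlist w hw with rfl | rfl | rfl | rfl
    · group
    · rw [← hz2, ← hz3, hd3]
    · rw [← hz3, hd3, ← hz2]
    · rw [hd3, ← hz2, ← hz3]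
  have hd'W : ∀ w ∈ W, d' * w * d'⁻¹ = d * w * d⁻¹ := by
    intro w hw
    have h3 : ∀ i : ℕ, ∀ v ∈ W, n ^ (3 * i) * v * (n ^ (3 * i))⁻¹ = v := by
      intro i
      induction i with
      | zero => intro v _; simp
      | succ i ih =>
        intro v hv
        rw [show n ^ (3 * (i + 1)) * v * (n ^ (3 * (i + 1)))⁻¹ =
          n ^ (3 * i) * (n * (n * (n * v * n⁻¹) * n⁻¹) * n⁻¹) * (n ^ (3 * i))⁻¹ by
            rw [mul_add, mul_one, pow_add]; group, hcyc v hv, ih v hv]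
    rw [hd', pow_succ, show n ^ (3 * j) * n * w * (n ^ (3 * j) * n)⁻¹ = n ^ (3 * j) * (n * w * n⁻¹) * (n ^ (3 * j))⁻¹ by group,
      hnW w hw, h3 j _ (hWd w hw)]
  have hd'P : d' ∈ normalizer (P : Set G) := pow_mem hn _
  have hd'3 : IsPGroup 3 ↥(zpowers d') := by
    obtain ⟨e, -, he⟩ := (Nat.dvd_prime_pow Nat.prime_three).mp (orderOf_dvd_of_pow_eq_one hm)
    exact IsPGroup.of_card (n := e) (by rw [Nat.card_zpowers]; exact he)
  -- a fixed point in `P`
  have hPp : IsPGroup 3 P := P0.isPGroup'.map _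
  have hsp : IsPGroup 3 ↥(zpowers d' ⊔ P) := hd'3.to_sup_of_normal_right' hPp (zpowers_le.mpr hd'P)
  have hx₀P : x₀ ∈ P := ⟨⟨x₀, hx₀C⟩, hP0 (mem_subgroupOf.mpr (mem_zpowers x₀)), rfl⟩
  obtain ⟨y, hyP, hy1, hyd⟩ : ∃ y ∈ P, y ≠ 1 ∧ d' * y = y * d' := by
    haveI : Group.IsNilpotent ↥(zpowers d' ⊔ P) := hsp.isNilpotent
    haveI : (P.subgroupOf (zpowers d' ⊔ P)).Normal := (normal_subgroupOf_iff_le_normalizer le_sup_right).mpr
      (sup_le (zpowers_le.mpr hd'P) le_normalizer)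
    have hne : P.subgroupOf (zpowers d' ⊔ P) ≠ ⊥ := by
      rw [ne_eq, subgroupOf_eq_bot, disjoint_iff, inf_eq_left.mpr le_sup_right]
      exact fun h => hx₀1 (mem_bot.mp (h ▸ hx₀P))
    obtain ⟨c, ⟨hcP, hcc⟩, hc1⟩ := (bot_or_exists_ne_one _).resolve_left
      (S0065.inf_center_ne_bot inferInstance hne)
    exact ⟨c, hcP, fun h => hc1 (Subtype.ext h),
      congrArg Subtype.val (mem_center_iff.mp hcc ⟨d', mem_sup_left (mem_zpowers d')⟩)⟩
  obtain ⟨e, he⟩ := IsPGroup.iff_orderOf.mp hPp ⟨y, hyP⟩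
  rw [Subgroup.orderOf_mk] at he
  obtain ⟨e', rfl⟩ : ∃ e', e = e' + 1 := ⟨e - 1, by
    have : e ≠ 0 := fun h => hy1 (orderOf_eq_one_iff.mp (by rw [he, h, pow_zero]))
    omega⟩
  set x := y ^ 3 ^ e' with hx
  have hxord : orderOf x = 3 := by
    rw [hx, orderOf_pow' _ (by positivity), he, pow_succ, Nat.gcd_eq_right (dvd_mul_right _ _),
      Nat.mul_div_cancel_left _ (by positivity)]
  have hxd' : x * d' = d' * x := ((show Commute d' y from hyd).symm.pow_left _).eq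
  have hxC : x ∈ C := C.pow_mem (map_subtype_le _ hyP) _
  have hxQ : ¬ Q ≤ centralizer ({x} : Set G) := by
    intro h
    have hxin : x ∈ Q := hchar (mem_centralizer_iff.mpr fun u hu => mem_centralizer_singleton_iff.mp (h hu))
    obtain ⟨i, hi⟩ := hQp ⟨x, hxin⟩
    have hd' : orderOf x ∣ 2 ^ i := orderOf_dvd_of_pow_eq_one (by simpa using congrArg Subtype.val hi)
    rw [hxord] at hd'
    exact absurd (Nat.prime_three.dvd_of_dvd_pow hd') (by norm_num)
  have hQW : W ≤ Q := by rw [hWZ]; exact fun u hu => hu.1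
  have hqW : ∀ u ∈ Q, u * u = 1 → u = 1 ∨ u = z₁ ∨ u = z₂ ∨ u = z₃ := fun u hu huu =>
    hWlist u (hinvo u huu fun w hw => by
      rw [hWZ] at hw
      exact (hw.2.1 u hu).symm)
  have hfx : ∀ w ∈ W, x * w * x⁻¹ = w := fun w hw => by
    rw [← mem_centralizer_iff.mp hxC w hw, mul_inv_cancel_right]
  have hnQ : ∀ g : G, g ∈ normalizer (Q : Set G) := fun g => by rw [normalizer_eq_top_iff.mpr hQn]; trivial
  exact no_config hQp (by rw [← hxord]; exact pow_orderOf_eq_one x) hxd' (hnQ x) (hnQ d') hxQ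
    ((hd'W _ hz1W).trans hz2.symm) ((hd'W _ hz2W).trans hz3.symm) ((hd'W _ hz3W).trans hd3)
    h12 h13 h23 h01 h02 h03 hmul hqW ⟨hWs _ hz1W, hWs _ hz2W, hWs _ hz3W⟩
    ⟨hfx _ hz1W, hfx _ hz2W, hfx _ hz3W⟩

end

/-- Let G be a finite group with C_G(O₂(G)) ≤ O₂(G) containing an element of order 6, and let d be a non-identity 3-element of G normalizing a nontrivial elementary abelian 2-subgroup W with C_W(d) = 1. Then G has an elementary abelian subgroup of order 8. -/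
theorem result {G : Type*} [Group G] [Finite G] (hchar : Subgroup.centralizer (Cfsg.pCore 2 G : Set G) ≤ Cfsg.pCore 2 G) (hsix : ∃ g : G, orderOf g = 6) (d : G) (hd1 : d ≠ 1) (hd : IsPGroup 3 ↥(Subgroup.zpowers d)) (W : Subgroup G) (hW : Cfsg.IsElementaryAbelian 2 W) (hW1 : W ≠ ⊥) (hdW : d ∈ Subgroup.normalizer (W : Set G)) (hfpf : W ⊓ Subgroup.centralizer {d} = ⊥) : ∃ E : Subgroup G, Cfsg.IsElementaryAbelian 2 E ∧ Nat.card E = 8 := by
  exact main hchar hsix d hd W hW hW1 hdW hfpf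

end Cfsg.Agent.S3739
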