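import Cfsg.Statements.S3742
import Mathlib

set_option autoImplicit false
open Cfsg

namespace Cfsg.Agent.S3742

open QuaternionGroup

/-- the diagonals of the cube -/
def vec : Fin 4 → ℤ × ℤ × ℤ := ![(1, 1, 1), (1, -1, -1), (-1, 1, -1), (-1, -1, 1)]

/-- image of a coordinate axis under the rotation attached to a permutation of the diagonals -/
def axis (σ : Equiv.Perm (Fin 4)) (k : Fin 4) : QuaternionGroup 2 :=
  let w : ℤ × ℤ × ℤ := ((Equiv.Perm.sign σ : ℤˣ) : ℤ) • (vec (σ 0) + vec (σ k))
  if w.1 = 2 then a 1 else if w.1 = -2 then a 3 else if w.2.1 = 2 then xa 0 else if w.2.1 = -2 then xa 2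
  else if w.2.2 = 2 then xa 3 else xa 1

/-- the action of a permutation of the diagonals on the quaternion group -/
def act (σ : Equiv.Perm (Fin 4)) (q : QuaternionGroup 2) : QuaternionGroup 2 :=
  if q = a 1 then axis σ 1 else if q = a 3 then a 2 * axis σ 1
  else if q = xa 0 then axis σ 2 else if q = xa 2 then a 2 * axis σ 2
  else if q = xa 3 then axis σ 3 else if q = xa 1 then a 2 * axis σ 3 else q

set_option maxRecDepth 100000 in
lemma act_mul : ∀ σ : Equiv.Perm (Fin 4), ∀ x y, act σ (x * y) = act σ x * act σ y := by decide +kernel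

set_option maxRecDepth 100000 in
lemma act_act : ∀ σ τ : Equiv.Perm (Fin 4), ∀ x, act (σ * τ) x = act σ (act τ x) := by decide +kernel

lemma act_one : ∀ x, act 1 x = x := by decide +kernel

set_option maxRecDepth 100000 in
lemma act_faithful : ∀ σ : Equiv.Perm (Fin 4), act σ (a 1) = a 1 → act σ (xa 0) = xa 0 → σ = 1 := by decide +kernel

set_option maxRecDepth 100000 in
lemma card_frames : (Finset.univ.filter fun z : QuaternionGroup 2 × QuaternionGroup 2 =>
    z.1 * z.2 ≠ z.2 * z.1).card = 24 := by decide +kernel

/-- the homomorphism from `S₄` -/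
def toAut : Equiv.Perm (Fin 4) →* MulAut (QuaternionGroup 2) where
  toFun σ :=
    { toFun := act σ
      invFun := act σ⁻¹
      left_inv := fun x => by rw [← act_act, inv_mul_cancel, act_one]
      right_inv := fun x => by rw [← act_act, mul_inv_cancel, act_one]
      map_mul' := act_mul σ }
  map_one' := MulEquiv.ext act_one
  map_mul' σ τ := MulEquiv.ext (act_act σ τ)


/-- The automorphism group of the quaternion group of order 8 is isomorphic to the symmetric group of degree 4. -/
theorem result : Nonempty (MulAut (QuaternionGroup 2) ≃* Equiv.Perm (Fin 4)) := by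
  classical
  haveI : Finite (MulAut (QuaternionGroup 2)) := Finite.of_injective (fun f x => f x) DFunLike.coe_injective
  haveI := Fintype.ofFinite (MulAut (QuaternionGroup 2))
  have hinj : Function.Injective toAut := by
    rw [← MonoidHom.ker_eq_bot_iff, eq_bot_iff]
    intro σ hσ
    rw [Subgroup.mem_bot]
    exact act_faithful σ (DFunLike.congr_fun (MonoidHom.mem_ker.mp hσ) (a 1)) (DFunLike.congr_fun (MonoidHom.mem_ker.mp hσ) (xa 0))
  have hext : ∀ f g : MulAut (QuaternionGroup 2), f (a 1) = g (a 1) → f (xa 0) = g (xa 0) → f = g := by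
    intro f g h1 h2
    refine MulEquiv.ext fun x => ?_
    have h3 : ∀ i : ZMod (2 * 2), f (a i) = g (a i) := by
      intro i
      have e : ∀ n : ℕ, f (a (n : ZMod (2 * 2))) = g (a (n : ZMod (2 * 2))) := by
        intro n
        rw [show (a (n : ZMod (2 * 2)) : QuaternionGroup 2) = a 1 ^ n from (a_one_pow n).symm, map_pow, map_pow, h1]
      rw [← ZMod.natCast_zmod_val i]
      exact e _
    cases x with
    | a i => exact h3 i
    | xa i =>
      rw [show (xa i : QuaternionGroup 2) = xa 0 * a i by rw [xa_mul_a, zero_add], map_mul, map_mul, h2, h3]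
  have hle : Fintype.card (MulAut (QuaternionGroup 2)) ≤ 24 := by
    rw [← card_frames]
    refine Finset.card_le_card_of_injOn (fun f => (f (a 1), f (xa 0))) ?_ ?_
    · intro f _
      simp only [Finset.coe_filter, Finset.mem_univ, true_and, Set.mem_setOf_eq]
      intro h
      rw [← map_mul, ← map_mul] at h
      exact absurd (f.injective h) (by decide)
    · intro f _ g _ h
      exact hext f g (congrArg Prod.fst h) (congrArg Prod.snd h)
  refine ⟨(MulEquiv.ofBijective toAut ((Fintype.bijective_iff_injective_and_card _).mpr ⟨hinj, ?_⟩)).symm⟩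
  refine le_antisymm (Fintype.card_le_of_injective _ hinj) (hle.trans ?_)
  rw [Fintype.card_perm, Fintype.card_fin]
  norm_num [Nat.factorial]

end Cfsg.Agent.S3742
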