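import Cfsg.Statements.S3740
import Cfsg.Agent.S3742
import Cfsg.Agent.Lib.UniqueInvolution
import Cfsg.Agent.Lib.Thompson.QuaternionSection
import Cfsg.Agent.Lib.Coprime.Basic
import Cfsg.Agent.Lib.Coprime.Action

set_option autoImplicit false
open Cfsg

namespace Cfsg.Agent.S3740

open Matrix

section

variable {F : Type} [Field F] {p : ℕ} [hp : Fact p.Prime] [CharP F p]

local notation "M2" => Matrix (Fin 2) (Fin 2) F
local notation "SL2" => Matrix.SpecialLinearGroup (Fin 2) F

theorem two_ne (hp2 : p ≠ 2) : (2 : F) ≠ 0 := Ring.two_ne_zero (by rwa [ringChar.eq F p])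

theorem cayley (X : M2) : X * X = X.trace • X - X.det • 1 := by
  ext i j
  fin_cases i <;> fin_cases j <;>
    simp [Matrix.mul_apply, Fin.sum_univ_two, Matrix.trace_fin_two, Matrix.det_fin_two] <;> ring

theorem anticomm (A B : M2) (hA : A.trace = 0) (hB : B.trace = 0) : A * B + B * A = (A * B).trace • 1 := by
  rw [Matrix.trace_fin_two] at hA hB
  have hA' : A 1 1 = -A 0 0 := by linear_combination hA
  have hB' : B 1 1 = -B 0 0 := by linear_combination hB
  ext i j
  fin_cases i <;> fin_cases j <;>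
    simp [Matrix.mul_apply, Fin.sum_univ_two, Matrix.trace_fin_two, hA', hB'] <;> ring

theorem eq_of_sq (hp2 : p ≠ 2) {x : SL2} (h : x ^ 2 = 1) :
    ∃ e : F, e ^ 2 = 1 ∧ (x : M2) = e • 1 := by
  have h2 := two_ne (F := F) hp2
  have hx : x⁻¹ = x := inv_eq_of_mul_eq_one_right (by rw [← pow_two, h])
  have hm := congrArg (fun y : SL2 => (y : M2)) hx
  simp only [Matrix.SpecialLinearGroup.coe_inv, Matrix.adjugate_fin_two] at hm
  have e00 := congrFun (congrFun hm 0) 0
  have e01 := congrFun (congrFun hm 0) 1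
  have e10 := congrFun (congrFun hm 1) 0
  simp at e00 e01 e10
  have b0 : (x : M2) 0 1 = 0 := by
    refine (mul_eq_zero.mp (?_ : (2 : F) * (x : M2) 0 1 = 0)).resolve_left h2
    linear_combination -e01
  have c0 : (x : M2) 1 0 = 0 := by
    refine (mul_eq_zero.mp (?_ : (2 : F) * (x : M2) 1 0 = 0)).resolve_left h2
    linear_combination -e10
  have hd := x.2
  rw [Matrix.det_fin_two, b0, c0, e00] at hd
  refine ⟨(x : M2) 0 0, by linear_combination hd, ?_⟩
  ext i j
  fin_cases i <;> fin_cases j <;> simp [b0, c0, e00]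

theorem commute_of_sq (hp2 : p ≠ 2) {x : SL2} (h : x ^ 2 = 1) (y : SL2) : Commute x y := by
  obtain ⟨e, -, hx⟩ := eq_of_sq hp2 h
  apply Subtype.ext
  rw [Matrix.SpecialLinearGroup.coe_mul, Matrix.SpecialLinearGroup.coe_mul, hx]
  simp

theorem involution_unique (hp2 : p ≠ 2) {x y : SL2} (hx : x ^ 2 = 1) (hy : y ^ 2 = 1) (hx1 : x ≠ 1)
    (hy1 : y ≠ 1) : x = y := by
  obtain ⟨e, he, hxe⟩ := eq_of_sq hp2 hx
  obtain ⟨f, hf, hyf⟩ := eq_of_sq hp2 hy
  have key : ∀ {z : SL2} {g : F}, g ^ 2 = 1 → (z : M2) = g • 1 → z ≠ 1 → g = -1 := by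
    intro z g hg hz hne
    rcases sq_eq_one_iff.mp hg with rfl | rfl
    · exact absurd (Subtype.ext (by rw [hz, one_smul]; rfl)) hne
    · rfl
  apply Subtype.ext
  rw [hxe, hyf, key he hxe hx1, key hf hyf hy1]

theorem pow_char_add (c : F) {N : M2} (hN : N * N = 0) : (c • (1 : M2) + N) ^ p = c ^ p • 1 := by
  have hcom : Commute (c • (1 : M2)) N := (Commute.one_left N).smul_left c
  rw [add_pow_char_of_commute (p := p) (h := hcom), smul_pow, one_pow]
  have : N ^ p = 0 := by
    obtain ⟨k, hk⟩ := Nat.exists_eq_add_of_le hp.out.two_le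
    rw [hk, pow_add, pow_two, hN, zero_mul]
  rw [this, add_zero]

theorem sq_of_trace (hp2 : p ≠ 2) {s : SL2} (hs : (orderOf s).Coprime p)
    (ht : (s : M2).trace ^ 2 = 4) : s ^ 2 = 1 := by
  have h2 := two_ne (F := F) hp2
  set t := (s : M2).trace with htdef
  set e := t / 2 with hedef
  have hte : t = 2 * e := by rw [hedef]; field_simp
  have he : e ^ 2 = 1 := by
    rw [hedef, div_pow, ht]; field_simp; norm_num
  set N : M2 := (s : M2) - e • 1 with hN
  have hN2 : N * N = 0 := by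
    rw [hN, sub_mul, mul_sub, mul_sub, cayley, ← htdef, s.2, hte]
    simp only [smul_one_mul, mul_smul_one, smul_smul, one_smul]
    rw [← pow_two, he, one_smul, two_mul, add_smul]
    abel
  have hs2p : s ^ (2 * p) = 1 := by
    apply Subtype.ext
    rw [Matrix.SpecialLinearGroup.coe_pow, mul_comm, pow_mul,
      show (s : M2) = e • 1 + N by rw [hN]; abel, pow_char_add e hN2, smul_pow, one_pow, ← pow_mul,
      mul_comm, pow_mul, he, one_pow, one_smul]
    rfl
  exact orderOf_dvd_iff_pow_eq_one.mp (hs.dvd_of_dvd_mul_right (orderOf_dvd_of_pow_eq_one hs2p))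

theorem unipotent {a : SL2} {k : ℕ} (ha : a ^ p ^ k = 1) :
    ((a : M2) - 1) * ((a : M2) - 1) = 0 ∧ a ^ p = 1 := by
  set N : M2 := (a : M2) - 1 with hN
  have hnil : N ^ p ^ k = 0 := by
    rw [hN, sub_pow_char_pow_of_commute (p := p) (n := k) (h := Commute.one_right (a : M2)), one_pow,
      ← Matrix.SpecialLinearGroup.coe_pow, ha]
    simp
  have hdet : N.det = 0 := by
    have := congrArg Matrix.det hnil
    rw [Matrix.det_pow, Matrix.det_zero] at this
    exact eq_zero_of_pow_eq_zero this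
  have hsq : N * N = N.trace • N := by rw [cayley, hdet, zero_smul, sub_zero]
  have hpow : ∀ n : ℕ, N ^ (n + 1) = N.trace ^ n • N := by
    intro n
    induction n with
    | zero => simp
    | succ n ih => rw [pow_succ, ih, smul_mul_assoc, hsq, smul_smul, ← pow_succ]
  have hN2 : N * N = 0 := by
    have h := hpow (p ^ k)
    rw [pow_succ, hnil, zero_mul] at h
    rcases smul_eq_zero.mp h.symm with h0 | h0
    · rw [hsq, eq_zero_of_pow_eq_zero h0, zero_smul]
    · rw [h0, zero_mul]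
  refine ⟨hN2, Subtype.ext ?_⟩
  rw [Matrix.SpecialLinearGroup.coe_pow, show (a : M2) = (1 : F) • 1 + N by rw [hN, one_smul]; abel,
    pow_char_add 1 hN2, one_pow, one_smul]
  rfl

/-- A `p'`-element centralized by a nontrivial unipotent element squares to one. -/
theorem sq_of_commute_unipotent (hp2 : p ≠ 2) {a x : SL2} {k : ℕ} (ha : a ^ p ^ k = 1) (ha1 : a ≠ 1)
    (hx : (orderOf x).Coprime p) (hc : Commute a x) : x ^ 2 = 1 := by
  refine sq_of_trace hp2 hx ?_
  have h2 := two_ne (F := F) hp2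
  set t := (x : M2).trace with htdef
  obtain ⟨N, hN⟩ : ∃ N : M2, N = (a : M2) - 1 := ⟨_, rfl⟩
  have hN2 : N * N = 0 := by rw [hN]; exact (unipotent ha).1
  have hNne : N ≠ 0 := fun h => ha1 (Subtype.ext (by rw [hN] at h; rw [sub_eq_zero.mp h]; rfl))
  have hNt : N.trace = 0 := by
    have h := cayley N
    have hd : N.det = 0 := by
      have := congrArg Matrix.det hN2
      rw [Matrix.det_mul, Matrix.det_zero] at this
      exact mul_self_eq_zero.mp this
    rw [hN2, hd, zero_smul, sub_zero] at h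
    exact (smul_eq_zero.mp h.symm).resolve_right hNne
  set K : M2 := (2 : F) • (x : M2) - t • 1 with hK
  have hKt : K.trace = 0 := by rw [hK]; simp [htdef]; ring
  have hxN : (x : M2) * N = N * (x : M2) := by
    have := congrArg (fun y : SL2 => (y : M2)) hc.eq
    simp only [Matrix.SpecialLinearGroup.coe_mul] at this
    rw [hN, mul_sub, sub_mul, mul_one, one_mul, this]
  have hKN : K * N = N * K := by
    rw [hK, sub_mul, mul_sub, smul_mul_assoc, mul_smul_comm, hxN, smul_one_mul, mul_smul_one]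
  have hKK : K * K = (t ^ 2 - 4) • 1 := by
    rw [hK, sub_mul, mul_sub, mul_sub, smul_mul_smul_comm, cayley, ← htdef, x.2]
    simp only [smul_one_mul, mul_smul_one, smul_smul, one_smul, smul_sub]
    module
  have hac := anticomm K N hKt hNt
  rw [← hKN] at hac
  have hsq : (K * N + K * N) * (K * N + K * N) = 0 := by
    have : K * N * (K * N) = 0 := by
      rw [mul_assoc, ← mul_assoc N K N, ← hKN, mul_assoc K N N, hN2, mul_zero, mul_zero]
    simp [mul_add, add_mul, this]
  rw [hac, smul_one_mul, smul_smul] at hsq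
  have hc0 : (K * N).trace = 0 := mul_self_eq_zero.mp ((smul_eq_zero.mp hsq).resolve_right one_ne_zero)
  rw [hc0, zero_smul, ← two_smul F] at hac
  have hKN0 : K * N = 0 := (smul_eq_zero.mp hac).resolve_left h2
  have h := congrArg (K * ·) hKN0
  simp only [mul_zero] at h
  rw [← mul_assoc, hKK, smul_one_mul] at h
  exact sub_eq_zero.mp ((smul_eq_zero.mp h).resolve_right hNne)

/-- Commuting elements with the same regular semisimple trace are equal or inverse. -/
theorem eq_or_eq_inv (hp2 : p ≠ 2) {x s : SL2} (hc : Commute x s) (htr : (x : M2).trace = (s : M2).trace)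
    (ht : (s : M2).trace ^ 2 ≠ 4) : x = s ∨ x = s⁻¹ := by
  have h2 := two_ne (F := F) hp2
  set t := (s : M2).trace with htdef
  set S : M2 := ((s⁻¹ : SL2) : M2) with hS
  have hSsum : (s : M2) + S = t • 1 := by
    rw [hS, Matrix.SpecialLinearGroup.coe_inv, Matrix.adjugate_fin_two, htdef, Matrix.trace_fin_two]
    ext i j
    fin_cases i <;> fin_cases j <;> simp <;> ring
  have hsS : (s : M2) * S = 1 := by
    rw [hS, ← Matrix.SpecialLinearGroup.coe_mul, mul_inv_cancel]; rfl
  have hxs : (x : M2) * (s : M2) = (s : M2) * (x : M2) := by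
    have := congrArg (fun y : SL2 => (y : M2)) hc.eq
    simpa using this
  set D : M2 := (x : M2) - (s : M2) with hD
  set K : M2 := (s : M2) - S with hK
  have hKs : K = (2 : F) • (s : M2) - t • 1 := by rw [hK, ← hSsum]; module
  have hKK : K * K = (t ^ 2 - 4) • 1 := by
    rw [hKs, sub_mul, mul_sub, mul_sub, smul_mul_smul_comm, cayley, ← htdef, s.2]
    simp only [smul_one_mul, mul_smul_one, smul_smul, one_smul, smul_sub]
    module
  have hDE : D * (D + K) = 0 := by
    have e : D + K = (x : M2) - S := by rw [hD, hK]; abel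
    rw [e, hD, sub_mul, mul_sub, mul_sub, cayley, htr, x.2, hsS, ← hxs]
    have e2 : (x : M2) * S = t • (x : M2) - (x : M2) * (s : M2) := by
      rw [eq_sub_iff_add_eq, ← mul_add, add_comm S, hSsum, mul_smul_one]
    rw [e2, one_smul]
    abel
  have hDt : D.trace = 0 := by rw [hD, Matrix.trace_sub, htr, sub_self]
  set d := -D.det with hd
  have hDD : D * D = d • 1 := by rw [cayley, hDt, hd]; simp
  have hDK : D * K = -d • 1 := by
    rw [mul_add, hDD, add_comm, add_eq_zero_iff_eq_neg] at hDE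
    rw [hDE, ← neg_smul]
  have hkD : (t ^ 2 - 4) • D = -d • K := by
    have := congrArg (· * K) hDK
    rwa [mul_assoc, hKK, mul_smul_one, smul_one_mul] at this
  have hk : t ^ 2 - 4 ≠ 0 := sub_ne_zero.mpr ht
  have hsq : (t ^ 2 - 4) * (t ^ 2 - 4) * d = d * d * (t ^ 2 - 4) := by
    have h := congrArg (fun X : M2 => X * X) hkD
    simp only [smul_mul_smul_comm, hDD, hKK, smul_smul] at h
    have h' := congrFun (congrFun h 0) 0
    simp at h'
    linear_combination h'
  by_cases hd0 : d = 0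
  · rw [hd0, neg_zero, zero_smul] at hkD
    exact Or.inl (Subtype.ext (sub_eq_zero.mp ((smul_eq_zero.mp hkD).resolve_left hk)))
  · have hdk : d = t ^ 2 - 4 := by
      have := mul_left_cancel₀ (mul_ne_zero hd0 hk) (b := d) (c := t ^ 2 - 4) (by linear_combination -hsq)
      exact this
    rw [hdk, neg_smul, ← smul_neg] at hkD
    have h := smul_right_injective M2 hk hkD
    refine Or.inr (Subtype.ext ?_)
    rw [hD, hK, neg_sub] at h
    exact sub_left_inj.mp h

/-- A `p'`-element commuting with its conjugate by a nontrivial unipotent element squares to one. -/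
theorem sq_of_commute_conj (hp2 : p ≠ 2) {a s : SL2} {k : ℕ} (ha : a ^ p ^ k = 1) (ha1 : a ≠ 1)
    (hs : (orderOf s).Coprime p) (hc : Commute (a * s * a⁻¹) s) : s ^ 2 = 1 := by
  by_cases ht : (s : M2).trace ^ 2 = 4
  · exact sq_of_trace hp2 hs ht
  have htr : ((a * s * a⁻¹ : SL2) : M2).trace = (s : M2).trace := by
    rw [Matrix.SpecialLinearGroup.coe_mul, Matrix.trace_mul_comm, ← Matrix.SpecialLinearGroup.coe_mul,
      ← mul_assoc, inv_mul_cancel, one_mul]
  rcases eq_or_eq_inv hp2 hc htr ht with h | h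
  · exact sq_of_commute_unipotent hp2 ha ha1 hs (mul_inv_eq_iff_eq_mul.mp h : Commute a s)
  · have h2 : a ^ 2 * s * (a ^ 2)⁻¹ = s := by
      calc a ^ 2 * s * (a ^ 2)⁻¹ = a * (a * s * a⁻¹) * a⁻¹ := by rw [pow_two]; group
        _ = a * s⁻¹ * a⁻¹ := by rw [h]
        _ = (a * s * a⁻¹)⁻¹ := by group
        _ = s := by rw [h, inv_inv]
    obtain ⟨m, hm⟩ := (Nat.Prime.odd_of_ne_two hp.out hp2).pow (n := k)
    have hc2 : Commute (a ^ 2) s := mul_inv_eq_iff_eq_mul.mp h2
    have hc3 : Commute a s := by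
      have e : a = ((a ^ 2) ^ m)⁻¹ := by
        refine eq_inv_of_mul_eq_one_left ?_
        rw [← pow_mul, ← pow_succ', ← hm, ha]
      rw [e]
      exact (hc2.pow_left m).inv_left
    exact sq_of_commute_unipotent hp2 ha ha1 hs hc3

end

open Subgroup
open scoped commutatorElement

theorem q8_comm_sq : ∀ x y : QuaternionGroup 2, x * y ≠ y * x →
    x * y * x⁻¹ * y⁻¹ * (x * y * x⁻¹ * y⁻¹) = 1 ∧ x * x * (x * x) = 1 ∧ x * x ≠ 1 := by decide +kernel

theorem q8_third : ∀ x y z : QuaternionGroup 2, x * y ≠ y * x → y * z ≠ z * y → z * x ≠ x * z →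
    z = x * y ∨ z = y * x := by decide +kernel

theorem q8_gen : ∀ x y z : QuaternionGroup 2, x * y ≠ y * x → z = 1 ∨ z = x ∨ z = y ∨ z = x * x ∨
    z = x⁻¹ ∨ z = y⁻¹ ∨ z = x * y ∨ z = y * x := by decide +kernel

theorem main (F : Type) [Field F] [Fintype F] {p : ℕ} [Fact p.Prime] [CharP F p] (hp2 : p ≠ 2)
    (a : Matrix.SpecialLinearGroup (Fin 2) F) (ha : IsPGroup p ↥(zpowers a))
    (R : Subgroup (Matrix.SpecialLinearGroup (Fin 2) F)) (hR : (Nat.card R).Coprime p)
    (haR : a ∈ normalizer (R : Set (Matrix.SpecialLinearGroup (Fin 2) F))) (hnt : ⁅R, zpowers a⁆ ≠ ⊥) :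
    p = 3 ∧ Nonempty (↥R ≃* QuaternionGroup 2) ∧
      Nonempty (↥(R ⊔ zpowers a) ≃* Matrix.SpecialLinearGroup (Fin 2) (ZMod 3)) := by
  classical
  have hp : p.Prime := Fact.out
  haveI : Finite (Matrix.SpecialLinearGroup (Fin 2) F) := inferInstance
  obtain ⟨k, hk⟩ := ha ⟨a, mem_zpowers a⟩
  have hak : a ^ p ^ k = 1 := by simpa using congrArg Subtype.val hk
  have hap : a ^ p = 1 := (unipotent hak).2
  have ha1 : a ≠ 1 := by
    rintro rfl
    exact hnt (by rw [zpowers_one_eq_bot, commutator_bot_right])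
  have hao : orderOf a = p := orderOf_eq_prime hap ha1
  have hRo : ∀ r ∈ R, (orderOf r).Coprime p := fun r hr => hR.coprime_dvd_left (orderOf_dvd_natCard R hr)
  have haR' : ∀ r ∈ R, a * r * a⁻¹ ∈ R := fun r hr => (mem_normalizer_iff.mp haR r).mp hr
  have habel : ∀ S : Subgroup (Matrix.SpecialLinearGroup (Fin 2) F), S ≤ R → (∀ s ∈ S, a * s * a⁻¹ ∈ S) →
      (∀ s ∈ S, ∀ t ∈ S, s * t = t * s) → ∀ s ∈ S, s ^ 2 = 1 := fun S hSR hinv hab s hs =>
    sq_of_commute_conj hp2 hak ha1 (hRo s (hSR hs)) (hab _ (hinv s hs) s hs)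
  -- the subgroup is a `2`-group
  have hR2 : IsPGroup 2 R := by
    have hcop : (Nat.card ↥(zpowers a)).Coprime (Nat.card R) := by rw [Nat.card_zpowers, hao]; exact hR.symm
    by_contra hno
    obtain ⟨r, hr, hrd, hr2⟩ : ∃ r, r.Prime ∧ r ∣ Nat.card R ∧ r ≠ 2 := by
      by_contra hcon
      push Not at hcon
      exact hno (IsPGroup.of_card (n := (Nat.card R).primeFactorsList.length)
        (Nat.eq_prime_pow_of_unique_prime_dvd Nat.card_pos.ne' fun {d} hd hdd => hcon d hd hdd))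
    haveI : Fact r.Prime := ⟨hr⟩
    have hsol : Group.IsSolvable ↥(zpowers a) := inferInstance
    obtain ⟨P, hP⟩ := Lib.Coprime.exists_invariant_sylow (zpowers_le.mpr haR) hcop (Or.inl hsol) r
    set S := (P : Subgroup ↥R).map R.subtype with hS
    have hSR : S ≤ R := map_subtype_le _
    have hSn : a ∈ normalizer (S : Set (Matrix.SpecialLinearGroup (Fin 2) F)) := hP (mem_zpowers a)
    have hSp : IsPGroup r S := P.isPGroup'.map _
    have hSne : S ≠ ⊥ := by
      intro h
      have h1 : (P : Subgroup ↥R) = ⊥ := map_injective R.subtype_injective (by rw [Subgroup.map_bot]; exact h)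
      exact P.ne_bot_of_dvd_card hrd h1
    haveI : Nontrivial S := nontrivial_iff_ne_bot S |>.mpr hSne
    have hZ : Nontrivial (center ↥S) := hSp.center_nontrivial
    obtain ⟨⟨z, hz⟩, hz1⟩ := exists_ne (1 : center ↥S)
    have h2 := habel ((center ↥S).map S.subtype) ((map_subtype_le _).trans hSR) ?_ ?_ z ⟨z, hz, rfl⟩
    · have h3 : orderOf (z : ↥S) ∣ 2 := orderOf_dvd_of_pow_eq_one (Subtype.ext (by simpa using h2))
      obtain ⟨e, he⟩ := IsPGroup.iff_orderOf.mp hSp z
      rw [he] at h3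
      rcases e with _ | e
      · rw [pow_zero, orderOf_eq_one_iff] at he
        exact hz1 (Subtype.ext he)
      · exact hr2 ((Nat.prime_dvd_prime_iff_eq hr Nat.prime_two).mp ((dvd_pow_self r e.succ_ne_zero).trans h3))
    · rintro _ ⟨w, hw, rfl⟩
      refine ⟨⟨a * w * a⁻¹, (mem_normalizer_iff.mp hSn _).mp w.2⟩, ?_, rfl⟩
      rw [SetLike.mem_coe, mem_center_iff]
      intro v
      have hv : a⁻¹ * (v : Matrix.SpecialLinearGroup (Fin 2) F) * a ∈ S := by
        refine (mem_normalizer_iff.mp hSn _).mpr ?_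
        rw [show a * (a⁻¹ * (v : Matrix.SpecialLinearGroup (Fin 2) F) * a) * a⁻¹ = v by group]; exact v.2
      have h := congrArg Subtype.val (mem_center_iff.mp hw ⟨_, hv⟩)
      simp only [Subgroup.coe_mul] at h
      apply Subtype.ext
      simp only [Subgroup.coe_mul]
      calc (v : Matrix.SpecialLinearGroup (Fin 2) F) * (a * w * a⁻¹)
          = a * ((a⁻¹ * v * a) * w) * a⁻¹ := by group
        _ = a * (w * (a⁻¹ * v * a)) * a⁻¹ := by rw [h]
        _ = _ := by group
    · rintro _ ⟨w, hw, rfl⟩ _ ⟨v, -, rfl⟩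
      exact (congrArg Subtype.val (mem_center_iff.mp hw v)).symm
  have huniq : ∀ H K : Subgroup R, Nat.card H = 2 → Nat.card K = 2 → H = K := by
    intro H K hH hK
    obtain ⟨h, hh, hh1⟩ := H.bot_or_exists_ne_one.resolve_left (fun e => by rw [e, card_bot] at hH; omega)
    obtain ⟨g, hg, hg1⟩ := K.bot_or_exists_ne_one.resolve_left (fun e => by rw [e, card_bot] at hK; omega)
    have e1 : h ^ 2 = 1 := by
      have := pow_card_eq_one' (G := H) (x := ⟨h, hh⟩)
      rw [hH] at this; exact congrArg Subtype.val this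
    have e2 : g ^ 2 = 1 := by
      have := pow_card_eq_one' (G := K) (x := ⟨g, hg⟩)
      rw [hK] at this; exact congrArg Subtype.val this
    have e3 : h = g := Subtype.ext (involution_unique hp2 (by simpa using congrArg Subtype.val e1)
      (by simpa using congrArg Subtype.val e2) (fun e => hh1 (Subtype.ext e)) (fun e => hg1 (Subtype.ext e)))
    have hHz : zpowers h = H := eq_of_le_of_card_ge (zpowers_le.mpr hh)
      (by rw [hH, Nat.card_zpowers, orderOf_eq_prime e1 hh1])
    have hKz : zpowers g = K := eq_of_le_of_card_ge (zpowers_le.mpr hg)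
      (by rw [hK, Nat.card_zpowers, orderOf_eq_prime e2 hg1])
    rw [← hHz, ← hKz, e3]
  have hnab : ¬ ∀ s ∈ R, ∀ t ∈ R, s * t = t * s := by
    intro hab
    refine hnt (commutator_eq_bot_iff_le_centralizer.mpr fun s hs => mem_centralizer_iff.mpr fun b _ => ?_)
    exact ((commute_of_sq hp2 (habel R le_rfl haR' hab s hs)) b).eq.symm
  rcases Lib.UniqueInvolution.isCyclic_or_quaternion hR2 huniq with hc | ⟨-, n, hn, ⟨φ⟩⟩
  · refine absurd (fun s hs t ht => ?_) hnab
    obtain ⟨g, hg⟩ := hc.exists_generator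
    obtain ⟨i, hi⟩ := hg ⟨s, hs⟩
    obtain ⟨j, hj⟩ := hg ⟨t, ht⟩
    have h := zpow_mul_comm g i j
    simp only at hi hj
    rw [hi, hj] at h
    exact congrArg Subtype.val h
  obtain rfl : n = 1 := by
    by_contra hne
    set q : QuaternionGroup (2 ^ n) := QuaternionGroup.a 1 with hq
    haveI : NeZero (2 ^ n) := ⟨by positivity⟩
    have hqo : orderOf q = 2 * 2 ^ n := by rw [hq, QuaternionGroup.orderOf_a_one]
    have h8 : 4 < 2 * 2 ^ n := by
      have : 2 ^ 2 ≤ 2 ^ n := Nat.pow_le_pow_right (by norm_num) (by omega)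
      omega
    set s : ↥R := φ.symm q with hs
    have hso : orderOf s = 2 * 2 ^ n := by rw [hs, MulEquiv.orderOf_eq, hqo]
    set c : ↥R := ⟨a * s * a⁻¹, haR' _ s.2⟩ with hcdef
    have hco : orderOf (φ c) = 2 * 2 ^ n := by
      rw [MulEquiv.orderOf_eq, ← Subgroup.orderOf_coe, hcdef]
      exact ((MulAut.conj a).orderOf_eq (s : Matrix.SpecialLinearGroup (Fin 2) F)).trans (by rw [Subgroup.orderOf_coe, hso])
    have hcomm : Commute (φ c) q := by
      rcases hx : φ c with i | i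
      · rw [hq]; show _ = _
        rw [QuaternionGroup.a_mul_a, QuaternionGroup.a_mul_a, add_comm]
      · rw [hx, QuaternionGroup.orderOf_xa] at hco
        omega
    have hcs : Commute c s := by
      have := hcomm.map φ.symm.toMonoidHom
      simpa [hs] using this
    have h2 := sq_of_commute_conj hp2 hak ha1 (hRo _ s.2) (congrArg Subtype.val hcs.eq : _)
    have h3 : orderOf s ∣ 2 := orderOf_dvd_of_pow_eq_one (Subtype.ext (by simpa using h2))
    have := Nat.le_of_dvd two_pos h3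
    omega
  change ↥R ≃* QuaternionGroup 2 at φ
  have hR8 : Nat.card R = 8 := by
    rw [Nat.card_congr φ.toEquiv, Nat.card_eq_fintype_card]; rfl
  -- `p = 3`
  have hp3 : p = 3 := by
    let f : zpowers a →* MulAut ↥R := R.normalizerMonoidHom.comp (inclusion (zpowers_le.mpr haR))
    let e : MulAut ↥R ≃* Equiv.Perm (Fin 4) := (MulAut.congr φ).trans S3742.result.some
    have hf1 : f ⟨a, mem_zpowers a⟩ ≠ 1 := by
      intro h
      refine hnt (commutator_eq_bot_iff_le_centralizer.mpr fun s hs => ?_)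
      rw [zpowers_eq_closure, centralizer_closure]
      refine mem_centralizer_singleton_iff.mpr ?_
      have h1 : a * s * a⁻¹ = s := congrArg (fun w : ↥R => (w : Matrix.SpecialLinearGroup (Fin 2) F)) (DFunLike.congr_fun h (⟨s, hs⟩ : ↥R))
      exact (mul_inv_eq_iff_eq_mul.mp h1).symm
    have hord : orderOf (e (f ⟨a, mem_zpowers a⟩)) = p := by
      rw [MulEquiv.orderOf_eq]
      refine orderOf_eq_prime ?_ hf1
      rw [← map_pow, show (⟨a, mem_zpowers a⟩ : zpowers a) ^ p = 1 from Subtype.ext (by simpa using hap), map_one]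
    have hd : p ∣ 24 := by
      have h := orderOf_dvd_natCard (e (f ⟨a, mem_zpowers a⟩))
      rw [hord, Nat.card_perm, Nat.card_fin] at h
      exact h
    have hle := Nat.le_of_dvd (by norm_num) hd
    rcases (Nat.Prime.dvd_mul hp).mp (show p ∣ 2 ^ 3 * 3 by norm_num; exact hd) with h | h
    · exact absurd ((Nat.prime_dvd_prime_iff_eq hp Nat.prime_two).mp (hp.dvd_of_dvd_pow h)) hp2
    · exact (Nat.prime_dvd_prime_iff_eq hp Nat.prime_three).mp h
  subst hp3
  refine ⟨rfl, ⟨φ⟩, ?_⟩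
  -- the semidirect product
  obtain ⟨i, hiR, hi2⟩ : ∃ i ∈ R, i ^ 2 ≠ 1 := by
    by_contra h
    push Not at h
    exact hnab fun s hs t _ => (commute_of_sq hp2 (h s hs) t).eq
  have hncc : ∀ b : Matrix.SpecialLinearGroup (Fin 2) F, b ^ 3 ^ 1 = 1 → b ≠ 1 →
      ∀ s ∈ R, s ^ 2 ≠ 1 → ¬ Commute (b * s * b⁻¹) s := fun b hb hb1 s hs hs2 hc =>
    hs2 (sq_of_commute_conj hp2 hb hb1 (hRo s hs) hc)
  set j := a * i * a⁻¹ with hj
  have hjR : j ∈ R := haR' i hiR
  have hj2 : j ^ 2 ≠ 1 := by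
    rw [hj, conj_pow, ne_eq, mul_inv_eq_one, mul_eq_left]; exact hi2
  set l := a * j * a⁻¹ with hl
  have hlR : l ∈ R := haR' j hjR
  have hij : i * j ≠ j * i := fun h => hncc a (by simpa using hap) ha1 i hiR hi2 h.symm
  have hjl : j * l ≠ l * j := fun h => hncc a (by simpa using hap) ha1 j hjR hj2 h.symm
  have hli : l * i ≠ i * l := by
    intro h
    refine hncc (a ^ 2) (by rw [pow_one, ← pow_mul, mul_comm, pow_mul, hap, one_pow]) ?_ i hiR hi2 ?_
    · intro e
      exact ha1 (by rw [← hap, show (3 : ℕ) = 2 + 1 from rfl, pow_succ, e, one_mul])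
    · show a ^ 2 * i * (a ^ 2)⁻¹ * i = i * (a ^ 2 * i * (a ^ 2)⁻¹)
      rw [show a ^ 2 * i * (a ^ 2)⁻¹ = l by rw [hl, hj, pow_two]; group]
      exact h
  have tr : ∀ {u v : Matrix.SpecialLinearGroup (Fin 2) F} (hu : u ∈ R) (hv : v ∈ R), u * v ≠ v * u →
      φ ⟨u, hu⟩ * φ ⟨v, hv⟩ ≠ φ ⟨v, hv⟩ * φ ⟨u, hu⟩ := by
    intro u v hu hv h e
    rw [← map_mul, ← map_mul] at e
    exact h (congrArg Subtype.val (φ.injective e))
  have hthird : l = i * j ∨ l = j * i := by
    rcases q8_third _ _ _ (tr hiR hjR hij) (tr hjR hlR hjl) (tr hlR hiR hli) with h | h <;>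
      rw [← map_mul] at h
    · exact Or.inl (congrArg Subtype.val (φ.injective h))
    · exact Or.inr (congrArg Subtype.val (φ.injective h))
  obtain ⟨i₁, hi₁R, hij₁, hl₁⟩ : ∃ i₁ ∈ R, i₁ * (a * i₁ * a⁻¹) ≠ a * i₁ * a⁻¹ * i₁ ∧
      a * (a * i₁ * a⁻¹) * a⁻¹ = i₁ * (a * i₁ * a⁻¹) := by
    rcases hthird with h | h
    · exact ⟨i, hiR, hij, h⟩
    · refine ⟨i⁻¹, R.inv_mem hiR, ?_, ?_⟩
      · rw [show a * i⁻¹ * a⁻¹ = j⁻¹ by rw [hj]; group]
        intro e
        exact hij (by simpa using (congrArg (·⁻¹) e).symm)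
      · rw [show a * (a * i⁻¹ * a⁻¹) * a⁻¹ = l⁻¹ by rw [hl, hj]; simp only [_root_.mul_inv_rev, inv_inv, mul_assoc], h, _root_.mul_inv_rev,
          show a * i⁻¹ * a⁻¹ = j⁻¹ by rw [hj]; group]
  set j₁ := a * i₁ * a⁻¹ with hj₁
  have hj₁R : j₁ ∈ R := haR' i₁ hi₁R
  obtain ⟨f1, f2, f3⟩ := q8_comm_sq _ _ (tr hi₁R hj₁R hij₁)
  obtain ⟨g1, g2, g3⟩ := q8_comm_sq _ _ (tr hj₁R hi₁R (Ne.symm hij₁))
  have pull : ∀ {u : Matrix.SpecialLinearGroup (Fin 2) F} (hu : u ∈ R), φ ⟨u, hu⟩ = 1 → u = 1 := by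
    intro u hu e
    rw [← map_one φ] at e
    exact congrArg Subtype.val (φ.injective e)
  have push : ∀ {u : Matrix.SpecialLinearGroup (Fin 2) F} (hu : u ∈ R), u = 1 → φ ⟨u, hu⟩ = 1 := by
    rintro u hu rfl; exact map_one φ
  simp only [← map_mul, ← map_inv] at f1 f2 f3 g1 g2 g3
  have hz : (i₁ * i₁) ^ 2 = 1 := by rw [pow_two]; exact pull _ f2
  have hz1 : i₁ * i₁ ≠ 1 := fun e => f3 (push (R.mul_mem hi₁R hi₁R) e)
  have hzj : (j₁ * j₁) ^ 2 = 1 := by rw [pow_two]; exact pull _ g2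
  have hzj1 : j₁ * j₁ ≠ 1 := fun e => g3 (push (R.mul_mem hj₁R hj₁R) e)
  have hjj : j₁ * j₁ = i₁ * i₁ := involution_unique hp2 hzj hz hzj1 hz1
  have hc1 : i₁ * j₁ * i₁⁻¹ * j₁⁻¹ = i₁ * i₁ := by
    refine involution_unique hp2 (by rw [pow_two]; exact pull _ f1) hz (fun e => hij₁ ?_) hz1
    rwa [mul_inv_eq_one, mul_inv_eq_iff_eq_mul] at e
  have hc2 : j₁ * i₁ * j₁⁻¹ * i₁⁻¹ = i₁ * i₁ := by
    refine involution_unique hp2 (by rw [pow_two]; exact pull _ g1) hz (fun e => hij₁ ?_) hz1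
    rw [mul_inv_eq_one, mul_inv_eq_iff_eq_mul] at e
    exact e.symm
  set X := R ⊔ zpowers a with hX
  have hiX : i₁ ∈ X := mem_sup_left hi₁R
  have hjX : j₁ ∈ X := mem_sup_left hj₁R
  have haX : a ∈ X := mem_sup_right (mem_zpowers a)
  have hX24 : Nat.card X = 24 := by
    have hinf : zpowers a ⊓ R = ⊥ := inf_eq_bot_of_coprime (by rw [Nat.card_zpowers, hao]; exact hR.symm)
    have h := Lib.Coprime.card_sup_mul_card_inf_of_le_normalizer (zpowers_le.mpr haR)
    rw [hinf, card_bot, mul_one, sup_comm, Nat.card_zpowers, hao, hR8] at h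
    exact h
  refine Lib.Thompson.Quat.iso_SL23 hX24 (i := ⟨i₁, hiX⟩) (j := ⟨j₁, hjX⟩) (t := ⟨a, haX⟩) (Subtype.ext hz) ?_
    (Subtype.ext hjj) (Subtype.ext hc1) (Subtype.ext hc2) (Subtype.ext hap) (Subtype.ext rfl)
    (Subtype.ext hl₁) ?_
  · exact fun g => Subtype.ext ((commute_of_sq hp2 hz) g).eq
  · rw [eq_top_iff]
    intro g _
    have hall : X ≤ (closure ({⟨i₁, hiX⟩, ⟨j₁, hjX⟩, ⟨a, haX⟩} : Set ↥X)).map X.subtype := by
      rw [MonoidHom.map_closure, Set.image_insert_eq, Set.image_insert_eq, Set.image_singleton]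
      set T := closure ({i₁, j₁, a} : Set (Matrix.SpecialLinearGroup (Fin 2) F))
      have hTi : i₁ ∈ T := subset_closure (Set.mem_insert _ _)
      have hTj : j₁ ∈ T := subset_closure (Set.mem_insert_of_mem _ (Set.mem_insert _ _))
      refine sup_le (fun r hr => ?_)
        (zpowers_le.mpr (subset_closure (Set.mem_insert_of_mem _ (Set.mem_insert_of_mem _ rfl))))
      rcases q8_gen (φ ⟨i₁, hi₁R⟩) (φ ⟨j₁, hj₁R⟩) (φ ⟨r, hr⟩) (tr hi₁R hj₁R hij₁)
        with h | h | h | h | h | h | h | h <;>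
        (try simp only [← map_mul, ← map_inv] at h)
      · exact pull hr h ▸ T.one_mem
      all_goals have h' := congrArg Subtype.val (φ.injective h)
      all_goals (try simp only [Subgroup.coe_mul, InvMemClass.coe_inv] at h')
      all_goals rw [h']
      exacts [hTi, hTj, T.mul_mem hTi hTi, T.inv_mem hTi, T.inv_mem hTj, T.mul_mem hTi hTj, T.mul_mem hTj hTi]
    obtain ⟨g', hg', hgg⟩ := hall g.2
    exact Subtype.ext hgg ▸ hg'

/-- Let F be a finite field of odd characteristic p and let a be a p-element of SL₂(F) normalizing a subgroup R of order prime to p with [R, a] ≠ 1. Then p = 3, R is a quaternion group of order 8, and R⟨a⟩ is isomorphic to SL₂(3). -/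
theorem result (F : Type) [Field F] [Fintype F] {p : ℕ} [Fact p.Prime] [CharP F p] (hp : p ≠ 2) (a : Matrix.SpecialLinearGroup (Fin 2) F) (ha : IsPGroup p ↥(Subgroup.zpowers a)) (R : Subgroup (Matrix.SpecialLinearGroup (Fin 2) F)) (hR : (Nat.card R).Coprime p) (haR : a ∈ Subgroup.normalizer (R : Set (Matrix.SpecialLinearGroup (Fin 2) F))) (hnt : ⁅R, Subgroup.zpowers a⁆ ≠ ⊥) : p = 3 ∧ Nonempty (↥R ≃* QuaternionGroup 2) ∧ Nonempty (↥(R ⊔ Subgroup.zpowers a) ≃* Matrix.SpecialLinearGroup (Fin 2) (ZMod 3)) := by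
  exact main F hp a ha R hR haR hnt

end Cfsg.Agent.S3740
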