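import Cfsg.Statements.S3741
import Mathlib

set_option autoImplicit false
open Cfsg

namespace Cfsg.Agent.S3741

open Subgroup in
lemma half {G : Type*} [Group G] [Finite G] {p : ℕ} [Fact p.Prime] (hG : IsPGroup p G) (A B : Subgroup G)
    (hAB : ⁅A, B⁆ ≤ A ⊓ B) (hcard : Nat.card ↥⁅A, B⁆ ≤ p) :
    (A ⊓ centralizer (B : Set G)).relIndex A ≤ (B ⊓ centralizer (A : Set G)).relIndex B := by
  have hp : p.Prime := Fact.out
  -- `⁅A, B⁆` has exponent dividing `p` and is central in `⟨A, B⟩`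
  have hcase : ⁅A, B⁆ = ⊥ ∨ Nat.card ↥⁅A, B⁆ = p := by
    rcases (hG.to_subgroup ⁅A, B⁆).card_eq_or_dvd with h | h
    · exact Or.inl (card_eq_one.mp h)
    · exact Or.inr (le_antisymm hcard (Nat.le_of_dvd Nat.card_pos h))
  have hpow : ∀ c ∈ ⁅A, B⁆, c ^ p = 1 := by
    intro c hc
    rcases hcase with h | h
    · rw [h, mem_bot] at hc; rw [hc, one_pow]
    · have := pow_card_eq_one' (x := (⟨c, hc⟩ : ↥⁅A, B⁆))
      rw [h] at this
      exact congrArg Subtype.val this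
  have hA : A ≤ normalizer ((⁅A, B⁆ : Subgroup G) : Set G) := normalizer_commutator_ge_left A B
  have hB : B ≤ normalizer ((⁅A, B⁆ : Subgroup G) : Set G) := normalizer_commutator_ge_right A B
  have hcent : ∀ g, g ∈ normalizer ((⁅A, B⁆ : Subgroup G) : Set G) → ∀ c ∈ ⁅A, B⁆, g * c = c * g := by
    intro g hg c hc
    rcases hcase with h | h
    · rw [h, mem_bot] at hc; simp [hc]
    let φ : MulAut ↥⁅A, B⁆ := ⁅A, B⁆.normalizerMonoidHom ⟨g, hg⟩
    by_cases hc1 : c = 1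
    · simp [hc1]
    let C := ⁅A, B⁆
    let Pg : Subgroup G := zpowers g
    have hg' : Pg ≤ normalizer (C : Set G) := zpowers_le.mpr hg
    letI : MulDistribMulAction ↥Pg ↥C :=
      MulDistribMulAction.compHom _ (C.normalizerMonoidHom.comp (Subgroup.inclusion hg'))
    have h1 : (1 : ↥C) ∈ MulAction.fixedPoints ↥Pg ↥C := fun x => smul_one x
    obtain ⟨z, hz, hz1⟩ := (hG.to_subgroup Pg).exists_fixed_point_of_prime_dvd_card_of_fixed_point ↥C (h ▸ dvd_rfl) h1
    have hzc : g * (z : G) = (z : G) * g := by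
      have := congrArg Subtype.val (hz ⟨g, mem_zpowers g⟩)
      exact mul_inv_eq_iff_eq_mul.mp this
    obtain ⟨k, hk⟩ := mem_zpowers_iff.mp (mem_zpowers_of_prime_card h (g' := (⟨c, hc⟩ : ↥C)) hz1.symm)
    have : c = (z : G) ^ k := by simpa using (congrArg Subtype.val hk).symm
    rw [this]
    exact (show Commute g (z : G) from hzc).zpow_right k
  set B₀ := B ⊓ centralizer (A : Set G) with hB₀
  have hcm : ∀ a ∈ A, ∀ b ∈ B, a * b * a⁻¹ * b⁻¹ ∈ ⁅A, B⁆ := fun a ha b hb => commutator_mem_commutator ha hb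
  let f : ↥A → ↥B → ↥⁅A, B⁆ := fun a b => ⟨a * b * (a : G)⁻¹ * (b : G)⁻¹, hcm a a.2 b b.2⟩
  have hfmul : ∀ a b b', f a (b * b') = f a b * f a b' := by
    intro a b b'
    apply Subtype.ext
    show (a : G) * (b * b') * (a : G)⁻¹ * ((b : G) * b')⁻¹ = (a * b * (a : G)⁻¹ * (b : G)⁻¹) * (a * b' * (a : G)⁻¹ * (b' : G)⁻¹)
    have := hcent b (hB b.2) _ (hcm a a.2 b' b'.2)
    calc (a : G) * (b * b') * (a : G)⁻¹ * ((b : G) * b')⁻¹
        = (a * b * (a : G)⁻¹ * (b : G)⁻¹) * (b * (a * b' * (a : G)⁻¹ * (b' : G)⁻¹)) * (b : G)⁻¹ := by group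
      _ = (a * b * (a : G)⁻¹ * (b : G)⁻¹) * ((a * b' * (a : G)⁻¹ * (b' : G)⁻¹) * b) * (b : G)⁻¹ := by rw [this]
      _ = _ := by group
  have hfmul' : ∀ a a' b, f (a * a') b = f a b * f a' b := by
    intro a a' b
    apply Subtype.ext
    show ((a : G) * a') * b * ((a : G) * a')⁻¹ * (b : G)⁻¹ = (a * b * (a : G)⁻¹ * (b : G)⁻¹) * (a' * b * (a' : G)⁻¹ * (b : G)⁻¹)
    have h1 := hcent a (hA a.2) _ (hcm a' a'.2 b b.2)
    have h2 := hcent _ (le_normalizer (hcm a a.2 b b.2)) _ (hcm a' a'.2 b b.2)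
    calc ((a : G) * a') * b * ((a : G) * a')⁻¹ * (b : G)⁻¹
        = (a * (a' * b * (a' : G)⁻¹ * (b : G)⁻¹)) * b * (a : G)⁻¹ * (b : G)⁻¹ := by group
      _ = ((a' * b * (a' : G)⁻¹ * (b : G)⁻¹) * a) * b * (a : G)⁻¹ * (b : G)⁻¹ := by rw [h1]
      _ = (a' * b * (a' : G)⁻¹ * (b : G)⁻¹) * (a * b * (a : G)⁻¹ * (b : G)⁻¹) := by group
      _ = _ := h2.symm
  -- choose generators of `B` modulo `B₀`
  obtain ⟨d, hd⟩ : ∃ d, B₀.relIndex B = p ^ d := (hG.to_subgroup B).index (B₀.subgroupOf B)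
  have hgen : ∀ k ≤ d, ∃ s : Fin k → ↥B, p ^ k ≤ (B₀.subgroupOf B ⊔ closure (Set.range s)).relIndex ⊤ * 0 + p ^ k ∧
      (B₀.subgroupOf B ⊔ closure (Set.range s)).index ≤ p ^ (d - k) := by
    intro k
    induction k with
    | zero =>
      intro _
      refine ⟨Fin.elim0, by simp, ?_⟩
      simp only [Set.range_eq_empty, Subgroup.closure_empty, sup_bot_eq, Nat.sub_zero]
      exact le_of_eq hd
    | succ k ih =>
      intro hk
      obtain ⟨s, -, hs⟩ := ih (by omega)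
      set K := B₀.subgroupOf B ⊔ closure (Set.range s) with hK
      by_cases htop : K = ⊤
      · refine ⟨Fin.snoc s 1, by simp, ?_⟩
        rw [eq_top_iff.mpr (htop.ge.trans (sup_le_sup_left (Subgroup.closure_mono (by
          rintro _ ⟨i, rfl⟩; exact ⟨i.castSucc, by simp⟩)) _)), index_top]
        exact Nat.one_le_pow _ _ hp.pos
      · obtain ⟨b, hb⟩ : ∃ b, b ∉ K := by
          by_contra h; push Not at h; exact htop (eq_top_iff.mpr fun b _ => h b)
        refine ⟨Fin.snoc s b, by simp, ?_⟩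
        set K' := B₀.subgroupOf B ⊔ closure (Set.range (Fin.snoc s b : Fin (k + 1) → ↥B)) with hK'
        have hle : K ≤ K' := sup_le_sup_left (Subgroup.closure_mono (by rintro _ ⟨i, rfl⟩; exact ⟨i.castSucc, by simp⟩)) _
        have hbK : b ∈ K' := mem_sup_right (subset_closure ⟨Fin.last k, by simp⟩)
        obtain ⟨i, hi⟩ := (hG.to_subgroup B).index K'
        obtain ⟨l, hl⟩ := (hG.to_subgroup B).index K
        have hlt : i < l := by
          have hlt' : K < K' := lt_of_le_of_ne hle (fun h => hb (h ▸ hbK))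
          have := index_strictAnti hlt'
          rw [hi, hl] at this
          exact (Nat.pow_lt_pow_iff_right hp.one_lt).mp this
        rw [hl, Nat.pow_le_pow_iff_right hp.one_lt] at hs
        rw [hi]
        exact Nat.pow_le_pow_right hp.pos (by omega)
  obtain ⟨s, -, hs⟩ := hgen d le_rfl
  have hgenB : B₀.subgroupOf B ⊔ closure (Set.range s) = ⊤ := by
    rw [← index_eq_one]
    rw [Nat.sub_self, pow_zero] at hs
    exact le_antisymm hs (Nat.one_le_iff_ne_zero.mpr FiniteIndex.index_ne_zero)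
  -- `A / C_A(B)` injects into the maps from the generators
  rw [hd]
  let Φ : ↥A ⧸ (A ⊓ centralizer (B : Set G)).subgroupOf A → (Fin d → ↥⁅A, B⁆) :=
    Quotient.lift (fun a i => f a (s i)) (by
      intro a a' h
      funext i
      have h' : a⁻¹ * a' ∈ (A ⊓ centralizer (B : Set G)).subgroupOf A := QuotientGroup.leftRel_apply.mp h
      have h1 : f (a⁻¹ * a') (s i) = 1 := Subtype.ext (by
        have := mem_centralizer_iff.mp h'.2 (s i) (s i).2
        show ((a⁻¹ * a' : ↥A) : G) * (s i : G) * ((a⁻¹ * a' : ↥A) : G)⁻¹ * (s i : G)⁻¹ = 1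
        exact mul_inv_eq_one.mpr (mul_inv_eq_iff_eq_mul.mpr this.symm))
      calc f a (s i) = f a (s i) * f (a⁻¹ * a') (s i) := by rw [h1, mul_one]
        _ = f a' (s i) := by rw [← hfmul', mul_inv_cancel_left])
  have hΦ : Function.Injective Φ := by
    intro q q' h
    obtain ⟨a, rfl⟩ := QuotientGroup.mk_surjective q
    obtain ⟨a', rfl⟩ := QuotientGroup.mk_surjective q'
    rw [QuotientGroup.eq]
    have h1 : ∀ i, f (a⁻¹ * a') (s i) = 1 := fun i => by
      have hi : f a (s i) = f a' (s i) := congrFun h i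
      have := hfmul' a (a⁻¹ * a') (s i)
      rw [mul_inv_cancel_left, ← hi, left_eq_mul] at this
      exact this
    let K : Subgroup ↥B := (MonoidHom.mk' (f (a⁻¹ * a')) (hfmul _)).ker
    have hK : B₀.subgroupOf B ⊔ closure (Set.range s) ≤ K := by
      refine sup_le (fun b hb => ?_) ((closure_le _).mpr ?_)
      · refine Subtype.ext ?_
        show ((a⁻¹ * a' : ↥A) : G) * (b : G) * ((a⁻¹ * a' : ↥A) : G)⁻¹ * (b : G)⁻¹ = 1
        exact mul_inv_eq_one.mpr (mul_inv_eq_iff_eq_mul.mpr (mem_centralizer_iff.mp hb.2 _ (a⁻¹ * a').2))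
      · rintro _ ⟨i, rfl⟩; exact h1 i
    rw [hgenB, top_le_iff] at hK
    refine ⟨(a⁻¹ * a').2, mem_centralizer_iff.mpr fun b hb => ?_⟩
    have : (⟨b, hb⟩ : ↥B) ∈ K := hK ▸ mem_top _
    have h2 : ((a⁻¹ * a' : ↥A) : G) * b * ((a⁻¹ * a' : ↥A) : G)⁻¹ * b⁻¹ = 1 := congrArg Subtype.val this
    exact (mul_inv_eq_iff_eq_mul.mp (mul_inv_eq_one.mp h2)).symm
  calc (A ⊓ centralizer (B : Set G)).relIndex A = Nat.card (↥A ⧸ (A ⊓ centralizer (B : Set G)).subgroupOf A) := rfl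
    _ ≤ Nat.card (Fin d → ↥⁅A, B⁆) := Nat.card_le_card_of_injective Φ hΦ
    _ ≤ p ^ d := by rw [Nat.card_fun, Nat.card_fin]; exact Nat.pow_le_pow_left hcard d

/-- Let A and B be subgroups of a finite p-group with [A, B] ≤ A ∩ B and [A, B] of order at most p. Then |A : C_A(B)| = |B : C_B(A)|. -/
theorem result {G : Type*} [Group G] [Finite G] {p : ℕ} [Fact p.Prime] (hG : IsPGroup p G) (A B : Subgroup G) (hAB : ⁅A, B⁆ ≤ A ⊓ B) (hcard : Nat.card ↥⁅A, B⁆ ≤ p) : (A ⊓ Subgroup.centralizer (B : Set G)).relIndex A = (B ⊓ Subgroup.centralizer (A : Set G)).relIndex B := by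
  refine le_antisymm (half hG A B hAB hcard) (half hG B A ?_ ?_)
  · rw [Subgroup.commutator_comm, inf_comm]; exact hAB
  · rw [Subgroup.commutator_comm]; exact hcard

end Cfsg.Agent.S3741
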