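import Cfsg.Statements.S3743
import Cfsg.Agent.Lib.Components.Cores
import Mathlib

set_option autoImplicit false
open Cfsg

namespace Cfsg.Agent.S3743


open Subgroup

lemma isCoreClass_pi {G : Type*} [Group G] [Finite G] (π : Set ℕ) :
    Lib.Components.IsCoreClass (fun N : Subgroup G => ∀ p : ℕ, p.Prime → p ∣ Nat.card N → p ∈ π) where
  bot p hp h := by rw [card_bot] at h; exact absurd (Nat.dvd_one.mp h) hp.one_lt.ne'
  sup N M h hN hM p hp hd :=
    ((hp.dvd_mul).mp (hd.trans ⟨_, (Lib.Components.card_sup_mul_card_inf_eq h).symm⟩)).elim (hN p hp) (hM p hp)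
  conj g N hN p hp hd := hN p hp (by rwa [card_map_of_injective (MulAut.conj g).injective] at hd)

/-- In a finite group G, every subnormal nilpotent subgroup lies in the Fitting subgroup F(G), and, for a set of primes π, every subnormal subgroup all of whose prime divisors lie in π lies in O_π(G). -/
theorem result {G : Type*} [Group G] [Finite G] (A : Subgroup G) (hA : A.IsSubnormal) : (Group.IsNilpotent A → A ≤ Cfsg.fittingSubgroup G) ∧ ∀ π : Set ℕ, (∀ p : ℕ, p.Prime → p ∣ Nat.card A → p ∈ π) → A ≤ Cfsg.piCore π G := by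
  refine ⟨fun h => Lib.Components.le_fittingSubgroup_of_subnormal hA h, fun π hπ => ?_⟩
  have := (isCoreClass_pi π).le_of_subnormal hA hπ
  rwa [Lib.Components.coreIn_top_eq] at this

end Cfsg.Agent.S3743
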