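import Cfsg.Statements.S3744
import Cfsg.Agent.Lib.GenStruct.PHall
import Cfsg.Agent.Lib.Coprime.Action
import Cfsg.Agent.Lib.Hall.Basic
import Mathlib

set_option autoImplicit false
open Cfsg

namespace Cfsg.Agent.S3744

open Subgroup
open Cfsg.Agent.Lib.Coprime
open scoped Pointwise

universe u

lemma isPSolvable_quotient {G : Type*} [Group G] [Finite G] {p : ℕ} [hp : Fact p.Prime]
    (h : Cfsg.IsPSolvable p G) (N : Subgroup G) [N.Normal] : Cfsg.IsPSolvable p (G ⧸ N) := by
  obtain ⟨n, H, h0, hlast, hmono, hn, hstep⟩ := h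
  refine ⟨n, fun i => (H i).map (QuotientGroup.mk' N), by simp [h0], ?_,
    fun i j hij => map_mono (hmono hij), fun i => (hn i).map _ (QuotientGroup.mk'_surjective N), fun i => ?_⟩
  · show (H (Fin.last n)).map _ = ⊤
    rw [hlast, map_top_of_surjective _ (QuotientGroup.mk'_surjective N)]
  have hd : ((H i.castSucc).map (QuotientGroup.mk' N)).relIndex ((H i.succ).map (QuotientGroup.mk' N)) ∣
      (H i.castSucc).relIndex (H i.succ) := by
    rw [← relIndex_comap]
    exact relIndex_dvd_of_le_left _ (le_comap_map _ _)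
  rcases hstep i with ⟨m, hm⟩ | hc
  · left
    obtain ⟨t, -, ht⟩ := (Nat.dvd_prime_pow hp.out).1 (hm ▸ hd)
    exact ⟨t, ht⟩
  · exact Or.inr (hc.coprime_dvd_left hd)

lemma exists_normal_p_or_p' {G : Type*} [Group G] [Finite G] {p : ℕ} [hp : Fact p.Prime]
    (h : Cfsg.IsPSolvable p G) [Nontrivial G] :
    ∃ N : Subgroup G, N.Normal ∧ N ≠ ⊥ ∧ (IsPGroup p N ∨ (Nat.card N).Coprime p) := by
  obtain ⟨n, H, h0, hlast, hmono, hn, hstep⟩ := h
  by_contra hno
  push_neg at hno
  have : ∀ i, H i = ⊥ := by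
    intro i
    induction i using Fin.induction with
    | zero => exact h0
    | succ i ih =>
      by_contra hne
      obtain ⟨h1, h2⟩ := hno _ (hn i.succ) hne
      rcases hstep i with ⟨m, hm⟩ | hc
      · rw [ih, relIndex_bot_left] at hm
        exact h1 (IsPGroup.of_card hm)
      · rw [ih, relIndex_bot_left] at hc
        exact h2 hc
  exact top_ne_bot ((hlast ▸ this (Fin.last n)) : (⊤ : Subgroup G) = ⊥)

lemma dominance (k : ℕ) : ∀ (G : Type u) [Group G] [Finite G] (p : ℕ) [Fact p.Prime],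
    Nat.card G = k → Cfsg.IsPSolvable p G → ∀ H U : Subgroup G, (Nat.card H).Coprime p →
    (∃ n, H.index = p ^ n) → (Nat.card U).Coprime p → ∃ g : G, U ≤ MulAut.conj g • H := by
  induction k using Nat.strongRecOn with | ind k ih => ?_
  intro G _ _ p hp hk hsol H U hH hHi hU
  rcases subsingleton_or_nontrivial G with hs | hnt
  · exact ⟨1, fun x _ => by rw [Subsingleton.elim x 1]; exact one_mem _⟩
  obtain ⟨N, hn, hN, hNcase⟩ := exists_normal_p_or_p' hsol
  haveI := hn
  obtain ⟨m, hm⟩ := hHi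
  have hdi := index_map_dvd H (QuotientGroup.mk'_surjective N)
  obtain ⟨x, hx⟩ := ih _ (hk ▸ card_quotient_lt hN) (G ⧸ N) p rfl (isPSolvable_quotient hsol N)
    (H.map (QuotientGroup.mk' N)) (U.map (QuotientGroup.mk' N))
    (hH.coprime_dvd_left (card_map_dvd _ _))
    (by obtain ⟨t, -, ht⟩ := (Nat.dvd_prime_pow hp.out).1 (hm ▸ hdi); exact ⟨t, ht⟩)
    (hU.coprime_dvd_left (card_map_dvd _ _))
  obtain ⟨g, rfl⟩ := QuotientGroup.mk'_surjective N x
  rw [← map_conj_smul, map_le_iff_le_comap, comap_map_eq, QuotientGroup.ker_mk'] at hx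
  let H' : Subgroup G := MulAut.conj g • H
  have hH'c : (Nat.card H').Coprime p := by rwa [card_conj_smul g H]
  rcases hNcase with hNp | hNp
  · obtain ⟨a, ha⟩ := IsPGroup.iff_card.mp hNp
    let B : Subgroup G := H' ⊓ (U ⊔ N)
    have hBN : B ⊔ N = U ⊔ N := by
      refine le_antisymm (sup_le inf_le_right le_sup_right) fun y hy => ?_
      have : y ∈ H' ⊔ N := sup_le hx le_sup_right hy
      rw [← SetLike.mem_coe, mul_normal] at this
      obtain ⟨h, hh, e, he, rfl⟩ := this
      exact mul_mem_sup ⟨hh, ((U ⊔ N).mul_mem_cancel_right (mem_sup_right he)).mp hy⟩ he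
    have hBc : (Nat.card B).Coprime (Nat.card N) :=
      ha ▸ Nat.Coprime.pow_right a (hH'c.coprime_dvd_left (card_dvd_of_le inf_le_left))
    have hUc : (Nat.card U).Coprime (Nat.card N) := ha ▸ Nat.Coprime.pow_right a hU
    have hcard : Nat.card U = Nat.card B := by
      apply mul_right_cancel₀ (Nat.card_pos (α := N)).ne'
      rw [← card_sup_of_coprime le_normalizer_of_normal hUc, ← hBN,
        card_sup_of_coprime le_normalizer_of_normal hBc]
    haveI : Group.IsNilpotent N := hNp.isNilpotent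
    obtain ⟨e, -, he⟩ := exists_conj_eq_of_le_sup (A := B) (N := N) le_normalizer_of_normal hBc
      (Or.inr inferInstance) (B := U) (hBN.symm ▸ le_sup_left) hcard
    refine ⟨e * g, ?_⟩
    rw [conj_smul_mul, ← he]
    exact pointwise_smul_le_pointwise_smul_iff.mpr inf_le_left
  · refine ⟨g, hx.trans (sup_le le_rfl ?_)⟩
    have hle : H' ≤ H' ⊔ N := le_sup_left
    have hdvd : Nat.card (H' ⊔ N : Subgroup G) ∣ Nat.card H' * Nat.card N :=
      ⟨_, (card_sup_mul_card_inf_of_le_normalizer (A := H') (N := N) le_normalizer_of_normal).symm⟩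
    have hcop : (Nat.card (H' ⊔ N : Subgroup G)).Coprime p :=
      (hH'c.mul_left hNp).coprime_dvd_left hdvd
    have hidx : (H'.relIndex (H' ⊔ N)) ∣ H.index := by
      have hH'i : H'.index = H.index := by
        apply mul_left_cancel₀ (Nat.card_pos (α := H')).ne'
        rw [card_mul_index, card_conj_smul g H, card_mul_index]
      rw [← hH'i]
      exact relIndex_dvd_index_of_le hle
    have h1 : H'.relIndex (H' ⊔ N) = 1 := by
      refine Nat.eq_one_of_dvd_coprimes ((hm ▸ Nat.Coprime.pow_right m hcop : _) : (Nat.card (H' ⊔ N : Subgroup G)).Coprime H.index) ?_ hidx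
      exact ⟨Nat.card H', by rw [← (H'.subgroupOf (H' ⊔ N)).index_mul_card, card_subgroupOf hle]; rfl⟩
    exact le_sup_right.trans (relIndex_eq_one.mp h1)

/-- A finite p-soluble group has a p-complement, all its p-complements are conjugate, and every subgroup of order prime to p lies in one of them. Here a p-complement is a subgroup of order prime to p whose index is a power of p. -/
theorem result {G : Type*} [Group G] [Finite G] {p : ℕ} [Fact p.Prime] (hG : Cfsg.IsPSolvable p G) : (∃ H : Subgroup G, (Nat.card H).Coprime p ∧ ∃ n : ℕ, H.index = p ^ n) ∧ (∀ H₁ H₂ : Subgroup G, (Nat.card H₁).Coprime p → (∃ n : ℕ, H₁.index = p ^ n) → (Nat.card H₂).Coprime p → (∃ n : ℕ, H₂.index = p ^ n) → ∃ g : G, H₂ = H₁.map (MulAut.conj g).toMonoidHom) ∧ (∀ U : Subgroup G, (Nat.card U).Coprime p → ∃ H : Subgroup G, (Nat.card H).Coprime p ∧ (∃ n : ℕ, H.index = p ^ n) ∧ ∃ g : G, U.map (MulAut.conj g).toMonoidHom ≤ H) := by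
  obtain ⟨H, hH, hHi⟩ := Cfsg.Agent.Lib.GenStruct.PHall.exists_pPrime_hall hG
  refine ⟨⟨H, hH, hHi⟩, fun H₁ H₂ c1 i1 c2 i2 => ?_, fun U hU => ?_⟩
  · obtain ⟨g, hg⟩ := dominance _ G p rfl hG H₁ H₂ c1 i1 c2
    obtain ⟨g', hg'⟩ := dominance _ G p rfl hG H₂ H₁ c2 i2 c1
    refine ⟨g, eq_of_le_of_card_ge hg ?_⟩
    exact (card_conj_smul g H₁).le.trans ((card_le_of_le hg').trans (card_conj_smul g' H₂).le)
  · obtain ⟨g, hg⟩ := dominance _ G p rfl hG H U hH hHi hU
    refine ⟨H, hH, hHi, g⁻¹, ?_⟩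
    rintro _ ⟨u, hu, rfl⟩
    have := hg hu
    rw [mem_conj_smul] at this
    simpa using this

end Cfsg.Agent.S3744
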