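import Cfsg.Statements.S3745
import Cfsg.Agent.Lib.Coprime.Action
import Cfsg.Agent.Lib.Hall.Solvable
import Mathlib

set_option autoImplicit false
open Cfsg

namespace Cfsg.Agent.S3745

open Subgroup
open Cfsg.Agent.Lib.Coprime
open scoped Pointwise

universe u

/-- invariance under conjugation by `A` gives normalisation -/
lemma invariant_le_normalizer {G : Type*} [Group G] {A L : Subgroup G}
    (h : ∀ a ∈ A, ∀ x ∈ L, a * x * a⁻¹ ∈ L) : A ≤ normalizer (L : Set G) := fun a ha =>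
  mem_normalizer_iff.mpr fun x => ⟨h a ha x, fun hx => by simpa [mul_assoc] using h a⁻¹ (inv_mem ha) _ hx⟩

variable {G : Type u} [Group G] [Finite G] {A K : Subgroup G} {π : Set ℕ}

lemma hall_coprime {H : Subgroup G} (hH : Cfsg.IsPiHallOf π H K) :
    (Nat.card (H.subgroupOf K)).Coprime (H.subgroupOf K).index := by
  rw [card_subgroupOf hH.1]
  exact Nat.coprime_of_dvd fun q hq h1 h2 => hH.2.2 q hq (hH.2.1 q hq h1) h2

lemma coprime_index {H U : Subgroup G} (hH : Cfsg.IsPiHallOf π H K) (hUK : U ≤ K)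
    (hU : ∀ q : ℕ, q.Prime → q ∣ Nat.card U → q ∈ π) :
    (Nat.card (U.subgroupOf K)).Coprime (H.subgroupOf K).index := by
  rw [card_subgroupOf hUK]
  exact Nat.coprime_of_dvd fun q hq h1 h2 => hH.2.2 q hq (hU q hq h1) h2

lemma le_conj_hall [Group.IsSolvable K] {H U : Subgroup G} (hH : Cfsg.IsPiHallOf π H K) (hUK : U ≤ K)
    (hU : ∀ q : ℕ, q.Prime → q ∣ Nat.card U → q ∈ π) : ∃ k ∈ K, U ≤ MulAut.conj k • H := by
  obtain ⟨k, hk⟩ := Lib.Hall.exists_le_conj (hall_coprime hH) (coprime_index hH hUK hU)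
  refine ⟨k, k.2, ?_⟩
  have := map_mono (f := K.subtype) hk
  rwa [map_conj_smul, map_subgroupOf_eq_of_le hUK, map_subgroupOf_eq_of_le hH.1] at this

lemma conj_hall [Group.IsSolvable K] {H H' : Subgroup G} (hH : Cfsg.IsPiHallOf π H K)
    (hH' : Cfsg.IsPiHallOf π H' K) : ∃ k ∈ K, MulAut.conj k • H = H' := by
  obtain ⟨k, hk, hle⟩ := le_conj_hall hH hH'.1 hH'.2.1
  obtain ⟨k', hk', hle'⟩ := le_conj_hall hH' hH.1 hH.2.1
  exact ⟨k, hk, (eq_of_le_of_card_ge hle ((card_conj_smul k H).le.trans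
    ((card_le_of_le hle').trans (card_conj_smul k' H').le))).symm⟩

lemma isPiHallOf_conj {H : Subgroup G} (hH : Cfsg.IsPiHallOf π H K) {g : G}
    (hg : g ∈ normalizer (K : Set G)) : Cfsg.IsPiHallOf π (MulAut.conj g • H) K := by
  have hle : MulAut.conj g • H ≤ K :=
    (pointwise_smul_le_pointwise_smul_iff.mpr hH.1).trans (conj_smul_eq_self hg).le
  refine ⟨hle, fun q hq h => hH.2.1 q hq (by rwa [card_conj_smul] at h), fun q hq hπ h => hH.2.2 q hq hπ ?_⟩
  have h1 := ((MulAut.conj g • H).subgroupOf K).index_mul_card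
  have h2 := (H.subgroupOf K).index_mul_card
  rw [card_subgroupOf hle, card_conj_smul] at h1
  rw [card_subgroupOf hH.1] at h2
  rw [relIndex, ← Nat.eq_of_mul_eq_mul_right Nat.card_pos (h1.trans h2.symm)]
  exact h

lemma exists_invariant_hall (hAK : A ≤ normalizer (K : Set G))
    (hcop : (Nat.card A).Coprime (Nat.card K)) (hs : Group.IsSolvable K) (π : Set ℕ) :
    ∃ H : Subgroup G, Cfsg.IsPiHallOf π H K ∧ A ≤ normalizer (H : Set G) := by
  haveI := hs
  obtain ⟨H0, h1, h2⟩ := Lib.Hall.exists_piHall (G := K) π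
  have hH : Cfsg.IsPiHallOf π (H0.map K.subtype) K := by
    refine ⟨map_subtype_le _, fun q hq h => h1 q hq (by rwa [card_map_of_injective K.subtype_injective] at h), ?_⟩
    intro q hq hπ
    rw [relIndex, subgroupOf, comap_map_eq_self_of_injective K.subtype_injective]
    exact h2 q hq hπ
  obtain ⟨k, hk, hk'⟩ := exists_invariant_conj hAK hcop (Or.inr hs) (H0.map K.subtype) fun a ha => by
    obtain ⟨k, hk, h⟩ := conj_hall hH (isPiHallOf_conj hH (hAK ha))
    exact ⟨k, hk, h.symm⟩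
  exact ⟨_, isPiHallOf_conj hH (le_normalizer hk), hk'⟩

lemma exists_ge_aux (n : ℕ) : ∀ (G : Type u) [Group G] [Finite G] (A K U : Subgroup G) (π : Set ℕ),
    Nat.card K = n → A ≤ normalizer (K : Set G) → (Nat.card A).Coprime (Nat.card K) →
    Group.IsSolvable K → U ≤ K → A ≤ normalizer (U : Set G) →
    (∀ q : ℕ, q.Prime → q ∣ Nat.card U → q ∈ π) →
    ∃ H : Subgroup G, Cfsg.IsPiHallOf π H K ∧ A ≤ normalizer (H : Set G) ∧ U ≤ H := by
  induction n using Nat.strong_induction_on with | _ n ih => ?_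
  intro G _ _ A K U π hn hAK hcop hs hUK hAU hU
  haveI := hs
  rcases subsingleton_or_nontrivial K with hsub | hnt
  · have hK : K = ⊥ := by
      rw [eq_bot_iff]; intro x hx
      exact mem_bot.2 (congrArg Subtype.val (Subsingleton.elim (⟨x, hx⟩ : K) 1))
    subst hK
    refine ⟨⊥, ⟨le_rfl, fun q hq h => ?_, fun q hq _ h => ?_⟩, hAK, hUK⟩
    · rw [card_bot] at h; exact absurd (Nat.dvd_one.mp h) hq.ne_one
    · rw [relIndex_self] at h; exact absurd (Nat.dvd_one.mp h) hq.ne_one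
  obtain ⟨N0, r, hN0n, hN0, hr, hN0r, -, -⟩ := Lib.Hall.exists_normal_pgroup (G := K)
  haveI := hN0n
  haveI : Fact r.Prime := ⟨hr⟩
  set C := Cfsg.pCore r ↥K with hC
  haveI hCn : C.Normal := Cfsg.pCore_normal r ↥K
  have hCne : C ≠ ⊥ := fun h => hN0 (le_bot_iff.mp (h ▸ Lib.Hall.le_pCore hN0r))
  set N := C.map K.subtype with hNdef
  have hNK : N ≤ K := map_subtype_le _
  have hNr : IsPGroup r N := (Lib.Hall.isPGroup_pCore (G := K) r).map _
  have hKN : K ≤ normalizer (N : Set G) := by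
    rw [← normal_subgroupOf_iff_le_normalizer hNK, subgroupOf, hNdef,
      comap_map_eq_self_of_injective K.subtype_injective]
    exact hCn
  have hAN : A ≤ normalizer (N : Set G) := by
    intro a ha
    refine mem_normalizer_of_conj_smul_eq (eq_of_le_of_card_ge ?_ (card_conj_smul a N).ge)
    rintro x hx
    rw [mem_conj_smul] at hx
    obtain ⟨c, hc, hcx⟩ := hx
    let e : ↥K ≃* ↥K :=
      { toFun := fun y => ⟨a * y * a⁻¹, (mem_normalizer_iff.mp (hAK ha) y).mp y.2⟩
        invFun := fun y => ⟨a⁻¹ * y * a⁻¹⁻¹, (mem_normalizer_iff.mp (hAK (inv_mem ha)) y).mp y.2⟩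
        left_inv := fun y => Subtype.ext (by simp [mul_assoc])
        right_inv := fun y => Subtype.ext (by simp [mul_assoc])
        map_mul' := fun y z => Subtype.ext (by simp [mul_assoc]) }
    refine ⟨e c, ?_, ?_⟩
    · show e c ∈ Cfsg.pCore r ↥K
      rw [← Lib.Hall.map_pCore_equiv r e]; exact mem_map_of_mem _ hc
    · show a * (c : G) * a⁻¹ = x
      rw [show (c : G) = K.subtype c from rfl, hcx]; group
  -- the quotient by `N`
  set T := normalizer (N : Set G) with hT
  haveI : (N.subgroupOf T).Normal := (normal_subgroupOf_iff_le_normalizer le_normalizer).mpr le_rfl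
  set f := QuotientGroup.mk' (N.subgroupOf T) with hf
  let im : Subgroup G → Subgroup (↥T ⧸ N.subgroupOf T) := fun X => (X.subgroupOf T).map f
  have hNT : N ≤ T := le_normalizer
  have hUT : U ≤ T := hUK.trans hKN
  have hcard : ∀ X : Subgroup G, X ≤ T → Nat.card (im X) ∣ Nat.card X := fun X hX => by
    rw [← card_subgroupOf hX]; exact card_map_dvd _ _
  have hnorm : ∀ X : Subgroup G, A ≤ normalizer (X : Set G) →
      im A ≤ normalizer (im X : Set (↥T ⧸ N.subgroupOf T)) := by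
    rintro X hX _ ⟨a, ha, rfl⟩
    refine le_normalizer_map f ⟨a, ?_, rfl⟩
    rw [SetLike.mem_coe, mem_normalizer_iff]
    intro y
    exact mem_normalizer_iff.mp (hX ha) (y : G)
  have hlt : Nat.card (im K) < n := by
    have h1 := card_map_mk' (N.subgroupOf T) (K.subgroupOf T)
    have h2 : N.subgroupOf T ≤ K.subgroupOf T := subgroupOf_mono _ hNK
    rw [card_subgroupOf hKN, inf_eq_right.mpr h2, card_subgroupOf hNT, hn] at h1
    have hN1 : 1 < Nat.card N := N.one_lt_card_iff_ne_bot.mpr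
      (fun h => hCne ((map_eq_bot_iff_of_injective _ K.subtype_injective).mp h))
    show Nat.card ((K.subgroupOf T).map f) < n
    rw [← h1]
    exact lt_mul_of_one_lt_right Nat.card_pos hN1
  haveI : Group.IsSolvable (K.subgroupOf T) := isSolvable_subgroupOf K T
  obtain ⟨Hb, hHb, hAHb, hUHb⟩ := ih _ hlt (↥T ⧸ N.subgroupOf T) (im A) (im K) (im U) π rfl
    (hnorm K hAK)
    ((hcop.coprime_dvd_left (hcard A hAN)).coprime_dvd_right (hcard K hKN))
    (isSolvable_map f _) (map_mono (subgroupOf_mono _ hUK)) (hnorm U hAU)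
    (fun q hq h => hU q hq (h.trans (hcard U hUT)))
  set L := (Hb.comap f).map T.subtype with hL
  have hNL : N ≤ L := by
    intro x hx
    refine ⟨⟨x, hNT hx⟩, ?_, rfl⟩
    show f _ ∈ Hb
    rw [show f ⟨x, hNT hx⟩ = 1 from (QuotientGroup.eq_one_iff _).mpr hx]
    exact one_mem _
  have hULe : U ≤ L := fun x hx => ⟨⟨x, hUT hx⟩, hUHb ⟨_, hx, rfl⟩, rfl⟩
  have hLK : L ≤ K := by
    rintro _ ⟨x, hx, rfl⟩
    obtain ⟨y, hy, hyx⟩ := hHb.1 hx
    have h1 : (y⁻¹ * x : ↥T) ∈ N.subgroupOf T := QuotientGroup.eq.mp hyx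
    have h2 := K.mul_mem hy (hNK h1)
    simpa using h2
  have hAL : A ≤ normalizer (L : Set G) := by
    refine invariant_le_normalizer fun a ha x hx => ?_
    obtain ⟨y, hy, rfl⟩ := hx
    refine ⟨⟨a, hAN ha⟩ * y * ⟨a, hAN ha⟩⁻¹, ?_, rfl⟩
    show f _ ∈ Hb
    rw [map_mul, map_mul, map_inv]
    exact (mem_normalizer_iff.mp (hAHb ⟨⟨a, hAN ha⟩, ha, rfl⟩) (f y)).mp hy
  have hcardL : Nat.card L = Nat.card Hb * Nat.card N := by
    rw [hL, card_map_of_injective T.subtype_injective]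
    have h1 := card_map_mk' (N.subgroupOf T) (Hb.comap f)
    have h2 : N.subgroupOf T ≤ Hb.comap f := by
      refine le_trans ?_ (ker_le_comap f Hb)
      rw [QuotientGroup.ker_mk']
    rw [map_comap_eq_self_of_surjective (QuotientGroup.mk'_surjective _), inf_eq_right.mpr h2,
      card_subgroupOf hNT] at h1
    exact h1.symm
  have hidxL : ∀ q : ℕ, q.Prime → q ∈ π → ¬ q ∣ L.relIndex K := by
    intro q hq hπ h
    refine hHb.2.2 q hq hπ ?_
    have e1 := (L.subgroupOf K).index_mul_card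
    rw [card_subgroupOf hLK, hcardL, hn] at e1
    have e2 := (Hb.subgroupOf (im K)).index_mul_card
    rw [card_subgroupOf hHb.1] at e2
    have e3 := card_map_mk' (N.subgroupOf T) (K.subgroupOf T)
    rw [card_subgroupOf hKN, inf_eq_right.mpr (subgroupOf_mono _ hNK), card_subgroupOf hNT, hn] at e3
    have : (L.subgroupOf K).index = (Hb.subgroupOf (im K)).index := by
      refine Nat.eq_of_mul_eq_mul_right (Nat.mul_pos (Nat.card_pos (α := Hb)) (Nat.card_pos (α := N))) ?_
      rw [e1, ← mul_assoc, e2]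
      exact e3.symm
    rw [relIndex, ← this]
    exact h
  obtain ⟨a, ha⟩ := IsPGroup.iff_card.mp hNr
  by_cases hrπ : r ∈ π
  · refine ⟨L, ⟨hLK, fun q hq h => ?_, hidxL⟩, hAL, hULe⟩
    rw [hcardL, ha] at h
    rcases hq.dvd_mul.mp h with h | h
    · exact hHb.2.1 q hq h
    · exact (Nat.prime_dvd_prime_iff_eq hq hr).mp (hq.dvd_of_dvd_pow h) ▸ hrπ
  have hLs : Group.IsSolvable L := isSolvable_of_le hLK hs
  have hcopL : (Nat.card A).Coprime (Nat.card L) := hcop.coprime_dvd_right (card_dvd_of_le hLK)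
  obtain ⟨H, hH, hAH⟩ := exists_invariant_hall hAL hcopL hLs π
  have hcopN : ∀ X : Subgroup G, (∀ q : ℕ, q.Prime → q ∣ Nat.card X → q ∈ π) →
      (Nat.card X).Coprime (Nat.card N) := fun X hX =>
    Nat.coprime_of_dvd fun q hq h1 h2 => hrπ (by
      rw [ha] at h2
      exact (Nat.prime_dvd_prime_iff_eq hq hr).mp (hq.dvd_of_dvd_pow h2) ▸ hX q hq h1)
  have hLN : L ≤ normalizer (N : Set G) := hLK.trans hKN
  have hHN : H ⊔ N = L := by
    refine eq_of_le_of_card_ge (sup_le hH.1 hNL) ?_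
    rw [card_sup_of_coprime (hH.1.trans hLN) (hcopN H hH.2.1), hcardL]
    refine Nat.mul_le_mul_right _ (Nat.le_of_dvd Nat.card_pos ?_)
    have h1 := (H.subgroupOf L).index_mul_card
    rw [card_subgroupOf hH.1, hcardL] at h1
    refine ((Nat.coprime_of_dvd fun q hq h2 h3 => hH.2.2 q hq (hHb.2.1 q hq h2) h3 :
      (Nat.card Hb).Coprime (H.subgroupOf L).index)).dvd_of_dvd_mul_left ?_
    exact ⟨_, h1⟩
  set K' := U ⊔ N with hK'
  have hUN : U ≤ normalizer (N : Set G) := hUK.trans hKN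
  have hK'L : K' ≤ L := sup_le hULe hNL
  set V := H ⊓ K' with hV
  have hVN : V ⊔ N = K' := by
    refine le_antisymm (sup_le inf_le_right le_sup_right) fun y hy => ?_
    have hyL : y ∈ H ⊔ N := hHN.symm ▸ hK'L hy
    obtain ⟨h, hh, e, he, rfl⟩ := (mem_sup_of_le_normalizer (hH.1.trans hLN)).mp hyL
    exact mul_mem_sup ⟨hh, (K'.mul_mem_cancel_right (mem_sup_right he)).mp hy⟩ he
  have hVcop := hcopN V fun q hq h => hH.2.1 q hq (h.trans (card_dvd_of_le inf_le_left))
  have hcardV : Nat.card V = Nat.card U := by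
    apply mul_right_cancel₀ (Nat.card_pos (α := N)).ne'
    rw [← card_sup_of_coprime (inf_le_left.trans (hH.1.trans hLN)) hVcop, hVN,
      card_sup_of_coprime hUN (hcopN U hU)]
  haveI : Group.IsNilpotent N := hNr.isNilpotent
  obtain ⟨e, heN, he⟩ := exists_conj_eq_of_le_sup (A := V) (N := N) (inf_le_left.trans (hH.1.trans hLN))
    hVcop (Or.inr inferInstance) (B := U) (hVN.symm ▸ le_sup_left) hcardV.symm
  have hK'K : K' ≤ K := hK'L.trans hLK
  have hAK' : A ≤ normalizer (K' : Set G) := (le_inf hAU hAN).trans fun g hg => by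
    refine mem_normalizer_of_conj_smul_eq ?_
    rw [Subgroup.smul_sup, conj_smul_eq_self hg.1, conj_smul_eq_self hg.2]
  have hAV : A ≤ normalizer (V : Set G) := (le_inf hAH hAK').trans inf_normalizer_le_normalizer_inf
  obtain ⟨c, hc, hcV⟩ := exists_centralizer_conj hAK' (hcop.coprime_dvd_right (card_dvd_of_le hK'K))
    (Or.inr (isSolvable_of_le hK'K hs)) hAV hAU (mem_sup_right heN) he
  refine ⟨MulAut.conj c • H, ?_, ?_, ?_⟩
  · have h1 := isPiHallOf_conj hH (le_normalizer (hK'L hc.1))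
    refine ⟨h1.1.trans hLK, h1.2.1, fun q hq hπ h => ?_⟩
    rw [← relIndex_mul_relIndex _ L K h1.1 hLK] at h
    rcases hq.dvd_mul.mp h with h | h
    exacts [h1.2.2 q hq hπ h, hidxL q hq hπ h]
  · intro a ha
    refine mem_normalizer_of_conj_smul_eq ?_
    rw [← conj_smul_mul, show a * c = c * a from mem_centralizer_iff.mp hc.2 a ha, conj_smul_mul,
      conj_smul_eq_self (hAH ha)]
  · rw [← hcV]
    exact pointwise_smul_le_pointwise_smul_iff.mpr inf_le_left

/-- Coprime action on a solvable group and Hall subgroups. Let A and G be subgroups of a finite group with A normalizing G, the orders of A and G coprime, and G solvable, and let π be a set of primes. Then (a) G has an A-invariant Hall π-subgroup; (b) any two A-invariant Hall π-subgroups of G are conjugate by an element of C_G(A); (c) every A-invariant π-subgroup of G lies in an A-invariant Hall π-subgroup of G. -/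
theorem result {X : Type*} [Group X] [Finite X] (A G : Subgroup X) (hAG : A ≤ Subgroup.normalizer (G : Set X)) (hcop : (Nat.card A).Coprime (Nat.card G)) (hsolv : Group.IsSolvable G) (π : Set ℕ) : (∃ H : Subgroup X, Cfsg.IsPiHallOf π H G ∧ A ≤ Subgroup.normalizer (H : Set X)) ∧ (∀ H₁ H₂ : Subgroup X, Cfsg.IsPiHallOf π H₁ G → A ≤ Subgroup.normalizer (H₁ : Set X) → Cfsg.IsPiHallOf π H₂ G → A ≤ Subgroup.normalizer (H₂ : Set X) → ∃ c ∈ G ⊓ Subgroup.centralizer (A : Set X), H₂ = H₁.map (MulAut.conj c).toMonoidHom) ∧ (∀ U : Subgroup X, U ≤ G → A ≤ Subgroup.normalizer (U : Set X) → (∀ p : ℕ, p.Prime → p ∣ Nat.card U → p ∈ π) → ∃ H : Subgroup X, Cfsg.IsPiHallOf π H G ∧ A ≤ Subgroup.normalizer (H : Set X) ∧ U ≤ H) := by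
  refine ⟨exists_invariant_hall hAG hcop hsolv π, fun H₁ H₂ h1 hA1 h2 hA2 => ?_,
    fun U hUG hAU hU => exists_ge_aux _ X A G U π rfl hAG hcop hsolv hUG hAU hU⟩
  haveI := hsolv
  obtain ⟨k, hk, hkH⟩ := conj_hall h1 h2
  obtain ⟨c, hc, hcH⟩ := exists_centralizer_conj hAG hcop (Or.inr hsolv) hA1 hA2 hk hkH
  exact ⟨c, hc, hcH.symm⟩

end Cfsg.Agent.S3745
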