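import Cfsg.Statements.S3746
import Mathlib
import Cfsg.Agent.Lib.Components.Basic
import Cfsg.Agent.Lib.Coprime.Action

set_option autoImplicit false
open Cfsg

namespace Cfsg.Agent.S3746

open Subgroup
open Cfsg.Agent.Lib.Components


/-- Let Z ≤ Z(G) be a central subgroup of a finite group G and E a subgroup of G containing Z whose image E/Z is a component of G/Z (subnormal and quasisimple). Then the derived subgroup [E, E] is a component of G. -/
theorem result {G : Type*} [Group G] [Finite G] (Z : Subgroup G) (hZ : Z ≤ Subgroup.center G) [Z.Normal] (E : Subgroup G) (hZE : Z ≤ E) (hE : Cfsg.IsComponent (E.map (QuotientGroup.mk' Z))) : Cfsg.IsComponent ⁅E, E⁆ := by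
  set f := QuotientGroup.mk' Z with hf
  have hperf : ⁅E.map f, E.map f⁆ = E.map f := comp_perfect hE
  have hmap : (⁅E, E⁆).map f = E.map f := by rw [map_commutator, hperf]
  have hEsup : E = ⁅E, E⁆ ⊔ Z := by
    have h := congrArg (Subgroup.comap f) hmap
    rw [comap_map_eq, comap_map_eq, hf, QuotientGroup.ker_mk', sup_eq_left.mpr hZE] at h
    exact h.symm
  have hperf' : ⁅⁅E, E⁆, ⁅E, E⁆⁆ = ⁅E, E⁆ := by
    conv_rhs => rw [hEsup]
    rw [commutator_sup_center_eq hZ]
  refine ⟨?_, ?_⟩
  · have hEsn : E.IsSubnormal := by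
      have h := hE.1.comap f
      rwa [comap_map_eq, hf, QuotientGroup.ker_mk', sup_eq_left.mpr hZE] at h
    have hle : ⁅E, E⁆ ≤ E := by
      have := map_subtype_le (commutator ↥E)
      rwa [map_subtype_commutator] at this
    refine Subgroup.IsSubnormal.step ⁅E, E⁆ E hle hEsn ?_
    exact normal_subgroupOf_of_le_normalizer (Cfsg.Agent.Lib.Coprime.left_le_normalizer_commutator E E)
  · haveI := hE.2.1
    let g : ↥⁅E, E⁆ →* ↥(E.map f) :=
      { toFun := fun x => ⟨f x, hmap ▸ mem_map_of_mem f x.2⟩
        map_one' := Subtype.ext (map_one f)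
        map_mul' := fun a b => Subtype.ext (map_mul f _ _) }
    refine qs_of_central_extension ?_ g ?_ ?_ hE.2
    · rw [Group.isPerfect_def]
      apply map_injective (⁅E, E⁆ : Subgroup G).subtype_injective
      rw [map_subtype_commutator, ← MonoidHom.range_eq_map, range_subtype, hperf']
    · rintro ⟨y, hy⟩
      obtain ⟨x, hx, hxy⟩ := hmap.ge hy
      exact ⟨⟨x, hx⟩, Subtype.ext hxy⟩
    · intro x hx
      have h1 : (x : G) ∈ Z := (QuotientGroup.eq_one_iff _).mp (congrArg Subtype.val (MonoidHom.mem_ker.mp hx))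
      exact mem_center_iff.mpr fun y => Subtype.ext (mem_center_iff.mp (hZ h1) y)

end Cfsg.Agent.S3746
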