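import Cfsg.Statements.S3747
import Mathlib
import Cfsg.Agent.Lib.Components.Bender
import Cfsg.Agent.Lib.Coprime.Action

set_option autoImplicit false
open Cfsg

namespace Cfsg.Agent.S3747

open Subgroup
open Cfsg.Agent.Lib.Components


/-- Let G be a finite group. (a) If K is a component of G with trivial centre, then the normal closure of K in G is a minimal normal subgroup of G. (b) If the Fitting subgroup of G is trivial, then the layer E(G) is generated by the minimal normal subgroups of G. -/
theorem result {G : Type*} [Group G] [Finite G] : (∀ K : Subgroup G, Cfsg.IsComponent K → Subgroup.center ↥K = ⊥ → (Subgroup.normalClosure (K : Set G) ≠ ⊥ ∧ ∀ N : Subgroup G, N.Normal → N ≤ Subgroup.normalClosure (K : Set G) → N = ⊥ ∨ N = Subgroup.normalClosure (K : Set G))) ∧ (Cfsg.fittingSubgroup G = ⊥ → sSup {N : Subgroup G | N ≠ ⊥ ∧ N.Normal ∧ ∀ N' : Subgroup G, N'.Normal → N' ≤ N → N' = ⊥ ∨ N' = N} = Cfsg.layer G) := by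
  classical
  have ha : ∀ K : Subgroup G, Cfsg.IsComponent K → Subgroup.center ↥K = ⊥ →
      (Subgroup.normalClosure (K : Set G) ≠ ⊥ ∧ ∀ N : Subgroup G, N.Normal → N ≤ Subgroup.normalClosure (K : Set G) → N = ⊥ ∨ N = Subgroup.normalClosure (K : Set G)) := by
    intro K hK hZ
    set W := Subgroup.normalClosure (K : Set G) with hW
    refine ⟨fun h => comp_ne_bot hK (le_bot_iff.mp (h ▸ le_normalClosure)), fun N hN hNW => ?_⟩
    haveI := hN
    rcases comp_normal_dichotomy hK (M := N) with h | h
    · exact Or.inr (le_antisymm hNW (normalClosure_le_normal h))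
    left
    have hsimple : ∀ g : G, IsComponent (K.map (MulAut.conj g).toMonoidHom) ∧
        center ↥(K.map (MulAut.conj g).toMonoidHom) = ⊥ := by
      intro g
      refine ⟨isComponent_map_equiv hK _, ?_⟩
      rw [eq_bot_iff]
      intro z hz
      let e := K.equivMapOfInjective (MulAut.conj g).toMonoidHom (MulAut.conj g).injective
      have h1 : e.symm z ∈ center ↥K := mem_center_iff.mpr fun y => by
        apply e.injective
        rw [map_mul, map_mul, e.apply_symm_apply]
        exact mem_center_iff.mp hz (e y)
      rw [hZ, mem_bot] at h1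
      rw [mem_bot, ← e.apply_symm_apply z, h1, map_one]
    haveI := Fintype.ofFinite G
    let S : Finset (Subgroup G) := Finset.univ.image fun g : G => K.map (MulAut.conj g).toMonoidHom
    have hWS : W ≤ S.sup id := by
      have hn : (S.sup id).Normal := by
        refine ⟨fun x hx g => ?_⟩
        have hle : S.sup id ≤ (S.sup id).comap (MulAut.conj g).toMonoidHom := by
          refine Finset.sup_le fun C hC => ?_
          obtain ⟨u, -, rfl⟩ := Finset.mem_image.mp hC
          rw [id, ← map_le_iff_le_comap, Subgroup.map_map]
          refine le_trans (le_of_eq ?_) (Finset.le_sup (f := id) (Finset.mem_image_of_mem _ (Finset.mem_univ (g * u))))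
          rw [id, show (MulAut.conj g).toMonoidHom.comp (MulAut.conj u).toMonoidHom = (MulAut.conj (g * u)).toMonoidHom by
            ext y; simp [mul_assoc]]
        exact hle hx
      refine normalClosure_le_normal fun x hx => ?_
      have hle : K.map (MulAut.conj (1 : G)).toMonoidHom ≤ S.sup id :=
        Finset.le_sup (f := id) (Finset.mem_image_of_mem _ (Finset.mem_univ (1 : G)))
      exact hle ⟨x, hx, by simp⟩
    have key : ∀ T : Finset (Subgroup G), T ⊆ S → ∀ z ∈ T.sup id, (∀ C ∈ T, ∀ c ∈ C, c * z = z * c) → z = 1 := by
      intro T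
      induction T using Finset.induction with
      | empty => intro _ z hz _; simpa using hz
      | insert C T hCT ih =>
        intro hsub z hz hcent
        obtain ⟨hCS, hTS⟩ := Finset.insert_subset_iff.mp hsub
        obtain ⟨g, -, rfl⟩ := Finset.mem_image.mp hCS
        set C := K.map (MulAut.conj g).toMonoidHom
        have hcomm : T.sup id ≤ centralizer (C : Set G) := Finset.sup_le fun D hD => by
          obtain ⟨u, -, rfl⟩ := Finset.mem_image.mp (hTS hD)
          rw [id, ← commutator_eq_bot_iff_le_centralizer]
          exact comp_commute (hsimple u).1 (hsimple g).1 (fun e => hCT (e ▸ hD))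
        rw [Finset.sup_insert, id, sup_comm] at hz
        obtain ⟨m, hm, c, hc, rfl⟩ := (Cfsg.Agent.Lib.Coprime.mem_sup_of_le_normalizer
          (hcomm.trans (centralizer_le_normalizer C))).mp hz
        have hc1 : c = 1 := by
          have h1 : (⟨c, hc⟩ : ↥C) ∈ center ↥C := by
            refine mem_center_iff.mpr fun y => Subtype.ext ?_
            show (y : G) * c = c * y
            have h2 := hcent C (Finset.mem_insert_self _ _) y y.2
            have h3 : (y : G) * m = m * y := mem_centralizer_iff.mp (hcomm hm) y y.2
            have h4 : m * ((y : G) * c) = m * (c * y) := by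
              rw [← mul_assoc, ← h3, mul_assoc, h2, mul_assoc]
            exact mul_left_cancel h4
          rw [(hsimple g).2, mem_bot] at h1
          exact congrArg Subtype.val h1
        subst hc1
        rw [mul_one]
        exact ih hTS m hm fun D hD d hd => by
          simpa using hcent D (Finset.mem_insert_of_mem hD) d hd
    rw [eq_bot_iff]
    intro z hz
    rw [mem_bot]
    refine key S (Finset.Subset.refl _) z (hWS (hNW hz)) fun C hC c hc => ?_
    obtain ⟨g, -, rfl⟩ := Finset.mem_image.mp hC
    rcases comp_normal_dichotomy (hsimple g).1 (M := N) with h' | h'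
    · exfalso
      apply comp_ne_bot hK
      rw [← le_bot_iff]
      intro y hy
      have h1 : y ∈ N := by
        have := hN.conj_mem _ (h' (mem_map_of_mem _ hy)) g⁻¹
        simpa [mul_assoc] using this
      have h2 : K ≤ centralizer (N : Set G) := commutator_eq_bot_iff_le_centralizer.mp h
      have h3 : (⟨y, hy⟩ : ↥K) ∈ center ↥K := mem_center_iff.mpr fun w => by
        refine Subtype.ext ?_
        exact ((mem_centralizer_iff.mp (h2 w.2)) y h1).symm
      rw [hZ, mem_bot] at h3
      exact congrArg Subtype.val h3
    · exact (mem_centralizer_iff.mp (commutator_eq_bot_iff_le_centralizer.mp h' hc) z hz).symm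
  refine ⟨ha, fun hF => le_antisymm (sSup_le fun N hN => ?_) (layer_le_iff.mpr fun K hK => ?_)⟩
  · obtain ⟨hne, hNn, hmin⟩ := hN
    haveI := hNn
    rcases hmin (N ⊓ layer G) inferInstance inf_le_left with h | h
    · exfalso
      apply hne
      rw [← le_bot_iff, ← hF]
      refine le_fitting_of_centralize (fun L hL => ?_) (by rw [hF, commutator_bot_left])
      rcases comp_normal_dichotomy hL (M := N) with h' | h'
      · exfalso
        apply comp_ne_bot hL
        rw [← le_bot_iff, ← h]
        exact le_inf h' (comp_le_layer hL)
      · exact h'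
    · exact h ▸ inf_le_right
  · have hZ : center ↥K = ⊥ := by
      rw [eq_bot_iff]
      intro z hz
      have hsn : ((center ↥K).map K.subtype).IsSubnormal :=
        ((inferInstance : (center ↥K).Normal).isSubnormal).trans' hK.1
      haveI : Group.IsNilpotent ↥(center ↥K) := by
        letI : CommGroup ↥(center ↥K) :=
          { (inferInstance : Group ↥(center ↥K)) with mul_comm := fun a b => Subtype.ext (mem_center_iff.mp b.2 a) }
        infer_instance
      have hnil : Group.IsNilpotent ↥((center ↥K).map K.subtype) :=
        Group.nilpotent_of_surjective (K.subtype.subgroupMap _) (K.subtype.subgroupMap_surjective _)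
      have h1 := le_fittingSubgroup_of_subnormal hsn hnil (mem_map_of_mem _ hz)
      rw [hF, mem_bot] at h1
      rw [mem_bot]
      exact Subtype.ext h1
    exact le_trans le_normalClosure (le_sSup ⟨(ha K hK hZ).1, inferInstance, (ha K hK hZ).2⟩)

end Cfsg.Agent.S3747
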