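import Cfsg.Statements.S3748
import Cfsg.Agent.Lib.LocalP2.SubnormalJoin
import Cfsg.Agent.Lib.Components.Cores
import Mathlib

set_option autoImplicit false
open Cfsg

namespace Cfsg.Agent.S3748


open Subgroup

/-- Call a proper subgroup M of G primitive when M = N_G(N) for every non-trivial normal subgroup N of M. If M is a primitive subgroup of the finite group G, then no non-trivial subnormal subgroup of G is contained in M; in particular M ∩ F(G) = 1. -/
theorem result {G : Type*} [Group G] [Finite G] (M : Subgroup G) (hM : M ≠ ⊤) (hprim : ∀ N : Subgroup G, N ≤ M → M ≤ Subgroup.normalizer (N : Set G) → N ≠ ⊥ → Subgroup.normalizer (N : Set G) = M) : (∀ L : Subgroup G, L.IsSubnormal → L ≤ M → L = ⊥) ∧ M ⊓ Cfsg.fittingSubgroup G = ⊥ := by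
  have hnc : ∀ C : Subgroup G, C.Normal → C ≤ M → C = ⊥ := fun C hC hCM => by
    by_contra hne
    haveI := hC
    have := hprim C hCM (by rw [Subgroup.normalizer_eq_top]; exact le_top) hne
    rw [Subgroup.normalizer_eq_top] at this
    exact hM this.symm
  constructor
  · intro L hL hLM
    by_contra hLne
    obtain ⟨R, ⟨hRn, hRne⟩, hRmin⟩ := (Set.toFinite {X : Subgroup G | X.Normal ∧ X ≠ ⊥}).exists_minimal
      ⟨⊤, inferInstance, fun h => hLne (le_bot_iff.mp (h ▸ le_top))⟩
    set S : Set G := {y | ∃ m ∈ M, ∃ l ∈ L, y = m * l * m⁻¹}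
    set J := closure S
    have hJM : J ≤ M := (closure_le _).mpr (by
      rintro _ ⟨m, hm, l, hl, rfl⟩
      exact M.mul_mem (M.mul_mem hm (hLM hl)) (M.inv_mem hm))
    have hnorm : ∀ g : G, (∀ y ∈ S, g * y * g⁻¹ ∈ J) → (∀ y ∈ S, g⁻¹ * y * g ∈ J) → g ∈ normalizer (J : Set G) := by
      intro g h1 h2
      have e1 : J ≤ J.comap (MulAut.conj g).toMonoidHom := (closure_le _).mpr h1
      have e2 : J ≤ J.comap (MulAut.conj g⁻¹).toMonoidHom := (closure_le _).mpr fun y hy => by
        simpa using h2 y hy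
      rw [mem_normalizer_iff]
      refine fun x => ⟨fun hx => e1 hx, fun hx => ?_⟩
      have := e2 hx
      simpa [mul_assoc] using this
    have hMJ : M ≤ normalizer (J : Set G) := by
      intro g hg
      refine hnorm g ?_ ?_ <;> rintro _ ⟨m, hm, l, hl, rfl⟩ <;> apply Subgroup.subset_closure
      · exact ⟨g * m, M.mul_mem hg hm, l, hl, by group⟩
      · exact ⟨g⁻¹ * m, M.mul_mem (M.inv_mem hg) hm, l, hl, by group⟩
    have hJne : J ≠ ⊥ := fun h => hLne (le_bot_iff.mp (h ▸ fun l hl => Subgroup.subset_closure ⟨1, M.one_mem, l, hl, by group⟩))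
    have hnorm' := Lib.LocalP2.minimal_normal_le_nz_of_subnormal _ G rfl R L hRn
      (fun X hX hle => or_iff_not_imp_left.2 fun hne => le_antisymm hle (hRmin ⟨hX, hne⟩ hle)) hL
    have hRJ : R ≤ normalizer (J : Set G) := by
      intro g hg
      refine hnorm g ?_ ?_ <;> rintro _ ⟨m, hm, l, hl, rfl⟩ <;> apply Subgroup.subset_closure
      · have h1 : m⁻¹ * g * m ∈ R := by simpa using hRn.conj_mem g hg m⁻¹
        exact ⟨m, hm, _, (mem_normalizer_iff.mp (hnorm' h1) l).mp hl, by group⟩
      · have h1 : m⁻¹ * g⁻¹ * m ∈ R := by simpa using hRn.conj_mem g⁻¹ (R.inv_mem hg) m⁻¹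
        exact ⟨m, hm, _, (mem_normalizer_iff.mp (hnorm' h1) l).mp hl, by group⟩
    rw [hprim J hJM hMJ hJne] at hRJ
    exact hRne (hnc R hRn hRJ)
  · set F := Cfsg.fittingSubgroup G
    haveI : F.Normal := Lib.Components.fittingSubgroup_normal
    by_contra hne
    have hMn : M ≤ normalizer ((M ⊓ F : Subgroup G) : Set G) :=
      (le_inf le_normalizer (by rw [normalizer_eq_top]; exact le_top)).trans inf_normalizer_le_normalizer_inf
    have hN := hprim (M ⊓ F) inf_le_left hMn hne
    haveI : Group.IsNilpotent F := Lib.Components.fittingSubgroup_nilpotent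
    by_cases htop : (M ⊓ F).subgroupOf F = ⊤
    · rw [subgroupOf_eq_top, le_inf_iff] at htop
      exact hne ((inf_eq_right.mpr htop.1).trans (hnc F inferInstance htop.1))
    · obtain ⟨x, hxN, hx⟩ := SetLike.exists_of_lt
        (normalizerCondition_of_isNilpotent (G := F) ((M ⊓ F).subgroupOf F) (lt_top_iff_ne_top.mpr htop))
      have h1 : (x : G) ∈ normalizer ((M ⊓ F : Subgroup G) : Set G) := by
        rw [mem_normalizer_iff]
        intro y
        constructor <;> intro hy
        · exact (mem_normalizer_iff.mp hxN ⟨y, (mem_inf.mp hy).2⟩).mp hy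
        · have hyF : y ∈ F := by
            have := F.mul_mem (F.mul_mem (F.inv_mem x.2) (mem_inf.mp hy).2) x.2
            simpa [mul_assoc] using this
          exact (mem_normalizer_iff.mp hxN ⟨y, hyF⟩).mpr hy
      rw [hN] at h1
      exact hx ⟨h1, x.2⟩

end Cfsg.Agent.S3748
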