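import Cfsg.Statements.S3749
import Cfsg.Agent.Lib.Hall.Basic

set_option autoImplicit false
open Cfsg

namespace Cfsg.Agent.S3749

open Subgroup
open scoped Pointwise

/-- Call a proper subgroup M of G primitive when M = N_G(N) for every non-trivial normal subgroup N of M. Let M be a primitive subgroup of the finite group G, p a prime with O_p(M) ≠ 1, and N a normal subgroup of G with M ∩ N = 1. Then p does not divide the order of N; for every prime q there is exactly one Sylow q-subgroup of N normalized by M; and if the order of N has at least two prime divisors then M is not a maximal subgroup of G. -/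
theorem result {G : Type*} [Group G] [Finite G] (M : Subgroup G) (hM : M ≠ ⊤) (hprim : ∀ N : Subgroup G, N ≤ M → M ≤ Subgroup.normalizer (N : Set G) → N ≠ ⊥ → Subgroup.normalizer (N : Set G) = M) {p : ℕ} [Fact p.Prime] (hOp : Cfsg.pCore p ↥M ≠ ⊥) (N : Subgroup G) [N.Normal] (hMN : M ⊓ N = ⊥) : ¬ p ∣ Nat.card N ∧ (∀ q : ℕ, [Fact q.Prime] → ∃! Q : Sylow q ↥N, M ≤ Subgroup.normalizer ((Q : Subgroup ↥N).map N.subtype : Set G)) ∧ ((∃ q r : ℕ, q.Prime ∧ r.Prime ∧ q ≠ r ∧ q ∣ Nat.card N ∧ r ∣ Nat.card N) → ¬ IsCoatom M) := by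
  set P : Subgroup G := (Cfsg.pCore p ↥M).map M.subtype with hP
  have hPM : P ≤ M := map_subtype_le _
  have hPp : IsPGroup p P := (Cfsg.Agent.Lib.Hall.isPGroup_pCore p).map _
  have hPn : M ≤ Subgroup.normalizer (P : Set G) := by
    intro m hm
    rw [mem_normalizer_iff]
    have hc : (Cfsg.pCore p ↥M).Normal := Cfsg.Agent.Lib.Hall.pCore_normal p
    have key : ∀ m ∈ M, ∀ x ∈ P, m * x * m⁻¹ ∈ P := by
      rintro m hm _ ⟨y, hy, rfl⟩
      exact ⟨⟨m, hm⟩ * y * ⟨m, hm⟩⁻¹, hc.conj_mem y hy _, rfl⟩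
    refine fun x => ⟨fun hx => key m hm x hx, fun hx => ?_⟩
    simpa [mul_assoc] using key m⁻¹ (inv_mem hm) _ hx
  have hP1 : P ≠ ⊥ := by
    rw [hP, Ne, Subgroup.map_eq_bot_iff, ker_subtype, le_bot_iff]; exact hOp
  have hNP : Subgroup.normalizer (P : Set G) = M := hprim P hPM hPn hP1
  let ψ : ↥P →* MulAut ↥N := (MulAut.conjNormal : G →* MulAut ↥N).comp P.subtype
  letI : MulDistribMulAction ↥P ↥N := MulDistribMulAction.compHom _ ψ
  have hsmul : ∀ (x : ↥P) (n : ↥N), ((x • n : ↥N) : G) = (x : G) * n * (x : G)⁻¹ := fun x n => rfl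
  have hfix : ∀ n : ↥N, (∀ x : ↥P, x • n = n) → n = 1 := by
    intro n hn
    have h1 : (n : G) ∈ M ⊓ N := by
      refine mem_inf.mpr ⟨?_, n.2⟩
      rw [← hNP, mem_normalizer_iff]
      intro x
      have hcomm : ∀ x ∈ P, (n : G) * x = x * n := fun x hx => by
        have := congrArg Subtype.val (hn ⟨x, hx⟩)
        rw [hsmul] at this
        exact (mul_inv_eq_iff_eq_mul.mp this).symm
      constructor
      · intro hx; rw [hcomm x hx, mul_inv_cancel_right]; exact hx
      · intro hx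
        have h := hcomm _ hx
        rw [mul_assoc ((n : G) * x), inv_mul_cancel, mul_one] at h
        exact (mul_left_cancel h) ▸ hx
    rw [hMN, mem_bot] at h1
    exact Subtype.ext h1
  have hpN : ¬ p ∣ Nat.card N := by
    intro hdvd
    have h1 : (1 : ↥N) ∈ MulAction.fixedPoints ↥P ↥N := fun x => smul_one x
    obtain ⟨b, hb, hb1⟩ := hPp.exists_fixed_point_of_prime_dvd_card_of_fixed_point ↥N hdvd h1
    exact hb1 (hfix b hb).symm
  -- Sylow subgroups of `N` fixed by `P`
  have hmem : ∀ (q : ℕ) (Q : Sylow q ↥N) (g : G),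
      g ∈ Subgroup.normalizer ((Q : Subgroup ↥N).map N.subtype : Set G) ↔
        (MulAut.conjNormal g : MulAut ↥N) • Q = Q := by
    intro q Q g
    rw [Sylow.ext_iff]
    have e1 : ((MulAut.conjNormal g : MulAut ↥N) • (Q : Subgroup ↥N)).map N.subtype =
        ((Q : Subgroup ↥N).map N.subtype).map (MulAut.conj g).toMonoidHom := by
      ext y
      constructor
      · rintro ⟨_, ⟨n, hn, rfl⟩, rfl⟩
        exact ⟨n, ⟨n, hn, rfl⟩, rfl⟩
      · rintro ⟨_, ⟨n, hn, rfl⟩, rfl⟩
        exact ⟨_, ⟨n, hn, rfl⟩, rfl⟩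
    rw [show ((MulAut.conjNormal g • Q : Sylow q ↥N) : Subgroup ↥N) =
      (MulAut.conjNormal g : MulAut ↥N) • (Q : Subgroup ↥N) from rfl,
      ← (map_injective N.subtype_injective).eq_iff, e1, mem_normalizer_iff_conj_image_eq]
    exact ⟨fun h => SetLike.coe_injective h, fun h => congrArg (fun H : Subgroup G => (H : Set G)) h⟩
  have hex : ∀ (q : ℕ) [Fact q.Prime], ∃! Q : Sylow q ↥N,
      M ≤ Subgroup.normalizer ((Q : Subgroup ↥N).map N.subtype : Set G) := by
    intro q _
    letI : MulAction ↥P (Sylow q ↥N) := Sylow.pointwiseMulAction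
    have hcard : Nat.card (Sylow q ↥N) ∣ Nat.card N := by
      obtain ⟨Q⟩ : Nonempty (Sylow q ↥N) := inferInstance
      rw [Q.card_eq_index_normalizer]
      exact index_dvd_card _
    obtain ⟨Q, hQ⟩ := hPp.nonempty_fixed_point_of_prime_not_dvd_card (Sylow q ↥N)
      (fun h => hpN (h.trans hcard))
    have huniq : ∀ Q' : Sylow q ↥N, (∀ x : ↥P, x • Q' = Q') → Q' = Q := by
      intro Q' hQ'
      let S : SubMulAction ↥P ↥N :=
        { carrier := {n : ↥N | n • Q = Q'}
          smul_mem' := fun x n (hn : n • Q = Q') => by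
            show (x • n) • Q = Q'
            have key : ∀ R : Sylow q ↥N, (x • n) • (x • R) = x • (n • R) := by
              intro R
              apply Sylow.ext
              show MulAut.conj (x • n) • ((ψ x : MulAut ↥N) • (R : Subgroup ↥N)) =
                (ψ x : MulAut ↥N) • (MulAut.conj n • (R : Subgroup ↥N))
              rw [smul_smul, smul_smul]
              congr 1
              ext1 y
              show (ψ x) n * (ψ x) y * ((ψ x) n)⁻¹ = (ψ x) (n * y * n⁻¹)
              rw [map_mul, map_mul, map_inv]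
            have h3 := key Q
            rw [show x • Q = Q from hQ x] at h3
            rw [h3, hn, hQ'] }
      obtain ⟨n0, hn0⟩ := MulAction.exists_smul_eq ↥N Q Q'
      have hS : Nat.card S = Nat.card (MulAction.stabilizer ↥N Q) :=
        Nat.card_congr
          { toFun := fun n => ⟨n0⁻¹ * n.1, by
              show (n0⁻¹ * n.1) • Q = Q
              rw [mul_smul, show n.1 • Q = Q' from n.2, ← hn0, inv_smul_smul]⟩
            invFun := fun s => ⟨n0 * s.1, by
              show (n0 * s.1) • Q = Q'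
              rw [mul_smul, show s.1 • Q = Q from s.2, hn0]⟩
            left_inv := fun n => Subtype.ext (mul_inv_cancel_left _ _)
            right_inv := fun s => Subtype.ext (inv_mul_cancel_left _ _) }
      obtain ⟨n, hn⟩ := hPp.nonempty_fixed_point_of_prime_not_dvd_card S
        (fun h => hpN (h.trans (hS ▸ card_subgroup_dvd_card _)))
      have h1 : n.1 = 1 := hfix n.1 (fun x => congrArg Subtype.val (hn x))
      have h2 : n.1 • Q = Q' := n.2
      rw [h1, one_smul] at h2
      exact h2.symm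
    refine ⟨Q, fun m hm => (hmem q Q m).mpr ?_, fun Q' hQ' => huniq Q' fun x =>
      (hmem q Q' x.1).mp (hQ' (hPM x.2))⟩
    refine huniq _ (fun x => ?_)
    have hx' : m⁻¹ * x.1 * m ∈ P := (mem_normalizer_iff''.mp (hPn hm) x.1).mp x.2
    have h := hQ ⟨_, hx'⟩
    change (MulAut.conjNormal (m⁻¹ * x.1 * m) : MulAut ↥N) • Q = Q at h
    show (MulAut.conjNormal x.1 : MulAut ↥N) • (MulAut.conjNormal m : MulAut ↥N) • Q = _
    rw [smul_smul, ← map_mul, show x.1 * m = m * (m⁻¹ * x.1 * m) by group, map_mul, mul_smul, h]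
  refine ⟨hpN, hex, ?_⟩
  rintro ⟨q, r, hq, hr, hqr, hqN, hrN⟩ hMmax
  haveI := Fact.mk hq
  haveI := Fact.mk hr
  obtain ⟨Q, hQ, -⟩ := hex q
  set Qg : Subgroup G := (Q : Subgroup ↥N).map N.subtype with hQg
  have hcap : (M ⊔ Qg) ⊓ N = Qg := by
    refine le_antisymm ?_ (le_inf le_sup_right (map_subtype_le _))
    intro x hx
    obtain ⟨hx1, hx2⟩ := mem_inf.mp hx
    rw [← SetLike.mem_coe, coe_mul_of_left_le_normalizer_right _ _ hQ] at hx1
    obtain ⟨m, hm, u, hu, rfl⟩ := hx1
    have : m ∈ M ⊓ N := mem_inf.mpr ⟨hm, (N.mul_mem_cancel_right (map_subtype_le _ hu)).mp hx2⟩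
    rw [hMN, mem_bot] at this
    simpa [this] using hu
  have hQcard : ∀ H : Subgroup G, H = Qg → q ∣ Nat.card H ∧ ¬ r ∣ Nat.card H := by
    rintro H rfl
    rw [hQg, card_map_of_injective N.subtype_injective]
    refine ⟨Q.dvd_card_of_dvd_card hqN, fun h => ?_⟩
    obtain ⟨k, hk⟩ := IsPGroup.iff_card.mp Q.2
    rw [hk] at h
    exact hqr ((Nat.prime_dvd_prime_iff_eq hr hq).mp (hr.dvd_of_dvd_pow h)).symm
  rcases hMmax.le_iff.mp (le_sup_left : M ≤ M ⊔ Qg) with h | h
  · rw [h, top_inf_eq] at hcap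
    exact (hQcard N hcap).2 hrN
  · have h2 : Qg = ⊥ := by rw [← hcap, h, hMN]
    have h3 := (hQcard ⊥ h2.symm).1
    rw [card_bot] at h3
    exact hq.one_lt.ne' (Nat.dvd_one.mp h3)

end Cfsg.Agent.S3749
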