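import Cfsg.Statements.S3750
import Cfsg.Agent.Lib.Components.Bender

set_option autoImplicit false
open Cfsg

namespace Cfsg.Agent.S3750

open Subgroup Cfsg.Agent.Lib.Components
open scoped commutatorElement

section

theorem main {G : Type*} [Group G] [Finite G] (M : Subgroup G) (hM : M ≠ ⊤)
    (hprim : ∀ N : Subgroup G, N ≤ M → M ≤ normalizer (N : Set G) → N ≠ ⊥ → normalizer (N : Set G) = M)
    (N : Subgroup G) [N.Normal] (hMF : M ⊓ (Cfsg.generalizedFittingSubgroup ↥N).map N.subtype ≠ ⊥) :
    Cfsg.fittingSubgroup G = ⊥ ∧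
      (Cfsg.generalizedFittingSubgroup ↥N).map N.subtype = Cfsg.generalizedFittingSubgroup G ∧
      Cfsg.generalizedFittingSubgroup G = Cfsg.layer G ∧
      ∀ K : Subgroup G, K.Normal → K ≠ ⊥ →
        (∀ K' : Subgroup G, K'.Normal → K' ≤ K → K' = ⊥ ∨ K' = K) → K ≤ N := by
  set Fs := (Cfsg.generalizedFittingSubgroup ↥N).map N.subtype with hFs
  have hFsn : Fs.Normal := inferInstance
  have hAN : normalizer ((M ⊓ Fs : Subgroup G) : Set G) = M :=
    hprim _ inf_le_left ((le_inf le_normalizer (le_normalizer_of_normal)).trans inf_normalizer_le_normalizer_inf) hMF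
  have hFsN : Fs ≤ N := map_subtype_le _
  have noNormal : ∀ K : Subgroup G, K.Normal → K ≤ M → K = ⊥ := fun K hK hKM => by
    by_contra h
    exact hM ((hprim K hKM le_normalizer_of_normal h).symm.trans (normalizer_eq_top_iff.mpr hK))
  have centM : ∀ K : Subgroup G, ⁅K, Fs⁆ = ⊥ → K ≤ M := fun K hK => by
    refine le_trans ?_ hAN.le
    refine le_trans ?_ (Subgroup.centralizer_le_normalizer _)
    exact (commutator_eq_bot_iff_le_centralizer.mp hK).trans (centralizer_le inf_le_right)
  have hsn : N.IsSubnormal := Subgroup.Normal.isSubnormal inferInstance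
  have hF : Cfsg.fittingSubgroup G = ⊥ := by
    by_contra hne
    have hnil : Group.IsNilpotent ↥(Cfsg.fittingSubgroup G) := fittingSubgroup_nilpotent
    set F := Cfsg.fittingSubgroup G with hFdef
    let K := (center ↥F).map F.subtype
    have hKn : K.Normal := inferInstance
    have hKF : K ≤ F := map_subtype_le _
    have hKc : ⁅K, F⁆ = ⊥ := by
      rw [commutator_eq_bot_iff_le_centralizer]
      rintro _ ⟨z, hz, rfl⟩
      exact mem_centralizer_iff.mpr fun f hf => congrArg Subtype.val (mem_center_iff.mp hz ⟨f, hf⟩)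
    have hK : K = ⊥ := noNormal K hKn <| centM K <| by
      rw [Subgroup.commutator_comm, hFs]
      unfold Cfsg.generalizedFittingSubgroup
      rw [Subgroup.map_sup, commutator_eq_bot_iff_le_centralizer, sup_le_iff]
      refine ⟨(layer_le_of_subnormal hsn).trans ?_, (fitting_le_of_subnormal hsn).trans ?_⟩
      · exact commutator_eq_bot_iff_le_centralizer.mp (commutator_eq_bot_mono layer_commute_fitting le_rfl hKF)
      · rw [← hFdef]
        exact commutator_eq_bot_iff_le_centralizer.mp (by rw [Subgroup.commutator_comm]; exact hKc)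
    have : Nontrivial ↥F := (nontrivial_iff_ne_bot F).mpr hne
    have hc : (center ↥F) ≠ ⊥ := Group.IsNilpotent.center_ne_bot ↥F
    exact hc ((Subgroup.map_eq_bot_iff_of_injective _ F.subtype_injective).mp hK)
  have hgfs : Cfsg.generalizedFittingSubgroup G = Cfsg.layer G := by
    unfold Cfsg.generalizedFittingSubgroup; rw [hF, sup_bot_eq]
  have hcomp : ∀ L : Subgroup G, IsComponent L → L ≤ N := by
    intro L hL
    by_contra hLN
    refine comp_ne_bot hL (le_bot_iff.mp ?_)
    have hall : ∀ g : G, L.map (MulAut.conj g).toMonoidHom ≤ M := by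
      intro g
      have hgL := isComponent_map_equiv hL (MulAut.conj g)
      rcases comp_normal_dichotomy hgL (M := N) with h | h
      · exfalso
        refine hLN fun x hx => ?_
        have := h (mem_map_of_mem _ hx)
        simp only [MulEquiv.coe_toMonoidHom, MulAut.conj_apply] at this
        simpa [mul_assoc] using (inferInstance : N.Normal).conj_mem _ this g⁻¹
      · exact centM _ (commutator_eq_bot_mono h le_rfl hFsN)
    have hnc : Subgroup.normalClosure (L : Set G) = ⊥ := by
      refine noNormal _ normalClosure_normal ((closure_le M).mpr ?_)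
      intro u hu
      obtain ⟨a, ha, hu⟩ := Group.mem_conjugatesOfSet_iff.mp hu
      obtain ⟨c, rfl⟩ := isConj_iff.mp hu
      exact hall c ⟨a, ha, rfl⟩
    exact hnc ▸ subset_normalClosure
  refine ⟨hF, le_antisymm (gfs_le_of_subnormal hsn) ?_, hgfs, fun K hK hKne hmin => ?_⟩
  · rw [hgfs, layer_le_iff]
    intro L hL
    exact (comp_le_layer_subtype hL (hcomp L hL)).trans (map_mono layer_le_gfs)
  · rcases hmin (K ⊓ N) inferInstance inf_le_left with h | h
    · exfalso
      refine hKne (noNormal K hK (centM K (commutator_eq_bot_mono ?_ le_rfl hFsN)))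
      exact le_bot_iff.mp ((commutator_le_inf K N).trans h.le)
    · exact h ▸ inf_le_right

end

/-- Call a proper subgroup M of G primitive when M = N_G(N) for every non-trivial normal subgroup N of M. Let M be a primitive subgroup of the finite group G and N a normal subgroup of G with M ∩ F*(N) ≠ 1. Then F(G) = 1 and F*(N) = F*(G) = E(G); in particular every minimal normal subgroup of G is contained in N. -/
theorem result {G : Type*} [Group G] [Finite G] (M : Subgroup G) (hM : M ≠ ⊤) (hprim : ∀ N : Subgroup G, N ≤ M → M ≤ Subgroup.normalizer (N : Set G) → N ≠ ⊥ → Subgroup.normalizer (N : Set G) = M) (N : Subgroup G) [N.Normal] (hMF : M ⊓ (Cfsg.generalizedFittingSubgroup ↥N).map N.subtype ≠ ⊥) : Cfsg.fittingSubgroup G = ⊥ ∧ (Cfsg.generalizedFittingSubgroup ↥N).map N.subtype = Cfsg.generalizedFittingSubgroup G ∧ Cfsg.generalizedFittingSubgroup G = Cfsg.layer G ∧ ∀ K : Subgroup G, K.Normal → K ≠ ⊥ → (∀ K' : Subgroup G, K'.Normal → K' ≤ K → K' = ⊥ ∨ K' = K) → K ≤ N := by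
  exact main M hM hprim N hMF

end Cfsg.Agent.S3750
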