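import Cfsg.Statements.S3751
import Cfsg.Agent.Lib.Hall.Basic
import Cfsg.Agent.Lib.LocalChar.Core

set_option autoImplicit false
open Cfsg

namespace Cfsg.Agent.S3751

open Subgroup

section

variable {G : Type*} [Group G] [Finite G] {p : ℕ} [hp : Fact p.Prime]

/-- A `p`-local subgroup. -/
def Loc (p : ℕ) (M : Subgroup G) : Prop := ∃ T : Subgroup G, IsPGroup p T ∧ T ≠ ⊥ ∧ M = normalizer (T : Set G)

/-- A maximal `p`-local subgroup. -/
def MaxLoc (p : ℕ) (M : Subgroup G) : Prop := Loc p M ∧ ∀ L, Loc p L → M ≤ L → L = M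

/-- `O_p(M)` in the ambient group. -/
def core (p : ℕ) (M : Subgroup G) : Subgroup G := (Cfsg.pCore p ↥M).map M.subtype

theorem le_pCore {H : Type*} [Group H] {N : Subgroup H} (hN : N.Normal) (hp' : IsPGroup p N) :
    N ≤ Cfsg.pCore p H := le_sSup ⟨hN, hp'⟩

theorem le_normalizer_core (M : Subgroup G) : M ≤ normalizer (core p M : Set G) := by
  have hn : (Cfsg.pCore p ↥M).Normal := Subgroup.sSup_normal _ fun _ h => h.1
  have h := (Cfsg.pCore p ↥M).le_normalizer_map M.subtype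
  rwa [normalizer_eq_top_iff.mpr hn, ← MonoidHom.range_eq_map, range_subtype] at h

theorem isPGroup_core (M : Subgroup G) : IsPGroup p (core p M) := (Lib.Hall.isPGroup_pCore p).map _

theorem le_core {B M : Subgroup G} (hB : IsPGroup p B) (hBM : B ≤ M) (hn : M ≤ normalizer (B : Set G)) :
    B ≤ core p M := by
  have h1 : (B.subgroupOf M).Normal := (normal_subgroupOf_iff_le_normalizer hBM).mpr hn
  calc B = (B.subgroupOf M).map M.subtype := (map_subgroupOf_eq_of_le hBM).symm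
    _ ≤ _ := map_mono (le_pCore h1 hB.comap_subtype)

theorem exists_maxLoc_ge {N : Subgroup G} (hN : Loc p N) : ∃ M, N ≤ M ∧ MaxLoc p M := by
  obtain ⟨M, hNM, hM⟩ := Finite.exists_le_maximal (p := fun M : Subgroup G => Loc p M) (a := N) hN
  exact ⟨M, hNM, hM.prop, fun L hL hle => le_antisymm (hM.le_of_ge hL hle) hle⟩

theorem core_ne_bot {M : Subgroup G} (hM : Loc p M) : core p M ≠ ⊥ := by
  obtain ⟨T, hT, hT1, rfl⟩ := hM
  exact fun h => hT1 (le_bot_iff.mp (h ▸ le_core hT le_normalizer le_rfl))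

theorem normalizer_core {M : Subgroup G} (hM : MaxLoc p M) : normalizer (core p M : Set G) = M :=
  hM.2 _ ⟨_, isPGroup_core M, core_ne_bot hM.1, rfl⟩ (le_normalizer_core M)

theorem map_conj {M : Subgroup G} (hM : MaxLoc p M) (g : G) : MaxLoc p (M.map (MulAut.conj g).toMonoidHom) := by
  have hloc : ∀ (L : Subgroup G) (x : G), Loc p L → Loc p (L.map (MulAut.conj x).toMonoidHom) := by
    rintro L x ⟨T, hT, hT1, rfl⟩
    refine ⟨T.map (MulAut.conj x).toMonoidHom, hT.map _, fun h => hT1 ?_, ?_⟩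
    · exact map_injective (MulAut.conj x).injective (h.trans (Subgroup.map_bot _).symm)
    · exact map_equiv_normalizer_eq T (MulAut.conj x)
  refine ⟨hloc M g hM.1, fun L hL hle => ?_⟩
  have h := hM.2 (L.map (MulAut.conj g⁻¹).toMonoidHom) (hloc L _ hL) (fun m hm =>
    ⟨g * m * g⁻¹, hle ⟨m, hm, rfl⟩, by simp [mul_assoc]⟩)
  rw [← h, map_map]
  refine le_antisymm (fun l hl => ⟨l, hl, by simp [mul_assoc]⟩) ?_
  rintro _ ⟨l, hl, rfl⟩
  simpa [mul_assoc] using hl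

theorem normalizer_le {M : Subgroup G} (hM : MaxLoc p M) :
    normalizer (M : Set G) ≤ M := by
  intro g hg
  have hg' := mem_normalizer_iff.mp hg
  rw [← normalizer_core hM]
  have key : ∀ x ∈ normalizer (M : Set G), ∀ u ∈ core p M, x * u * x⁻¹ ∈ core p M := by
    intro x hx
    have hle : (core p M).map (MulAut.conj x).toMonoidHom ≤ core p M := by
      refine le_core ((isPGroup_core M).map _) ?_ ?_
      · rintro _ ⟨u, hu, rfl⟩
        exact (mem_normalizer_iff.mp hx u).mp (map_subtype_le _ hu)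
      · intro m hm
        refine Subgroup.mem_normalizer_iff.mpr fun w => ?_
        have hm' : x⁻¹ * m * x ∈ normalizer (core p M : Set G) := le_normalizer_core M (by
          rw [mem_normalizer_iff.mp hx]; simpa [mul_assoc] using hm)
        constructor
        · rintro ⟨u, hu, rfl⟩
          exact ⟨_, (mem_normalizer_iff.mp hm' u).mp hu, by simp [mul_assoc]⟩
        · rintro ⟨u, hu, hu'⟩
          refine ⟨(x⁻¹ * m * x)⁻¹ * u * (x⁻¹ * m * x), ?_, ?_⟩
          · rw [SetLike.mem_coe, mem_normalizer_iff.mp hm']; simpa [mul_assoc] using hu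
          · simp only [MulEquiv.coe_toMonoidHom, MulAut.conj_apply] at hu' ⊢
            calc x * ((x⁻¹ * m * x)⁻¹ * u * (x⁻¹ * m * x)) * x⁻¹ = m⁻¹ * (x * u * x⁻¹) * m := by group
              _ = w := by rw [hu']; group
    exact fun u hu => hle ⟨u, hu, rfl⟩
  refine mem_normalizer_iff.mpr fun u => ⟨key g hg u, fun h => ?_⟩
  have := key g⁻¹ (inv_mem hg) _ h
  simpa [mul_assoc] using this

variable (hloc : Cfsg.IsOfLocalCharacteristic p G)

include hloc

theorem centralizer_le {M : Subgroup G} (hM : Loc p M) :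
    centralizer (Cfsg.pCore p ↥M : Set ↥M) ≤ Cfsg.pCore p ↥M := by
  obtain ⟨T, hT, hT1, rfl⟩ := hM
  exact hloc.2 T hT hT1

theorem primitive {M : Subgroup G} (hM : MaxLoc p M) {A : Subgroup G} (hA1 : A ≠ ⊥) (hAM : A ≤ M)
    (hn : M ≤ normalizer (A : Set G)) : normalizer (A : Set G) ≤ M := by
  set B := A ⊓ core p M with hB
  have hB1 : B ≠ ⊥ := by
    intro hb
    refine hA1 (le_bot_iff.mp ?_)
    rw [← hb]
    refine le_inf le_rfl fun a ha => ?_
    have hac : (⟨a, hAM ha⟩ : ↥M) ∈ centralizer (Cfsg.pCore p ↥M : Set ↥M) := by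
      refine mem_centralizer_iff.mpr fun u hu => Subtype.ext ?_
      have huC : (u : G) ∈ core p M := ⟨u, hu, rfl⟩
      have h1 : a * (u : G) * a⁻¹ * (u : G)⁻¹ ∈ B := by
        refine ⟨?_, ?_⟩
        · rw [show a * (u : G) * a⁻¹ * (u : G)⁻¹ = a * ((u : G) * a⁻¹ * (u : G)⁻¹) by group]
          exact A.mul_mem ha ((mem_normalizer_iff.mp (hn u.2) _).mp (A.inv_mem ha))
        · exact (core p M).mul_mem ((mem_normalizer_iff.mp (le_normalizer_core M (hAM ha)) _).mp huC)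
            ((core p M).inv_mem huC)
      rw [hb, mem_bot, mul_inv_eq_one, mul_inv_eq_iff_eq_mul] at h1
      exact h1.symm
    exact ⟨_, centralizer_le hloc hM.1 hac, rfl⟩
  have hBn : A ≤ normalizer (B : Set G) :=
    (le_inf le_normalizer (hAM.trans (le_normalizer_core M))).trans inf_normalizer_le_normalizer_inf
  have hBc : B ≤ core p A := le_core ((isPGroup_core M).to_le inf_le_right) inf_le_left hBn
  have hc1 : core p A ≠ ⊥ := fun h => hB1 (le_bot_iff.mp (h ▸ hBc))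
  have hNN : normalizer (A : Set G) ≤ normalizer (core p A : Set G) := by
    intro x hx
    have key : ∀ y ∈ normalizer (A : Set G), ∀ u ∈ core p A, y * u * y⁻¹ ∈ core p A := by
      intro y hy
      have hle : (core p A).map (MulAut.conj y).toMonoidHom ≤ core p A := by
        refine le_core ((isPGroup_core A).map _) ?_ ?_
        · rintro _ ⟨u, hu, rfl⟩
          exact (mem_normalizer_iff.mp hy u).mp (map_subtype_le _ hu)
        · intro m hm
          refine Subgroup.mem_normalizer_iff.mpr fun w => ?_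
          have hm' : y⁻¹ * m * y ∈ normalizer (core p A : Set G) := le_normalizer_core A (by
            rw [mem_normalizer_iff.mp hy]; simpa [mul_assoc] using hm)
          constructor
          · rintro ⟨u, hu, rfl⟩
            exact ⟨_, (mem_normalizer_iff.mp hm' u).mp hu, by simp [mul_assoc]⟩
          · rintro ⟨u, hu, hu'⟩
            refine ⟨(y⁻¹ * m * y)⁻¹ * u * (y⁻¹ * m * y), ?_, ?_⟩
            · rw [SetLike.mem_coe, mem_normalizer_iff.mp hm']; simpa [mul_assoc] using hu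
            · simp only [MulEquiv.coe_toMonoidHom, MulAut.conj_apply] at hu' ⊢
              calc y * ((y⁻¹ * m * y)⁻¹ * u * (y⁻¹ * m * y)) * y⁻¹ = m⁻¹ * (y * u * y⁻¹) * m := by group
                _ = w := by rw [hu']; group
      exact fun u hu => hle ⟨u, hu, rfl⟩
    refine mem_normalizer_iff.mpr fun u => ⟨key x hx u, fun h => ?_⟩
    have := key x⁻¹ (inv_mem hx) _ h
    simpa [mul_assoc] using this
  exact hNN.trans (hM.2 _ ⟨_, isPGroup_core A, hc1, rfl⟩ (hn.trans hNN)).le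

theorem main (hOp : Cfsg.pCore p G = ⊥) : (∃ M₁ M₂ : Subgroup G, M₁ ≠ M₂ ∧
    (∀ A : Subgroup G, A ≠ ⊥ → A ≤ M₁ ⊓ M₂ →
      (M₁ ≤ normalizer (A : Set G) → M₂ ⊓ normalizer (A : Set G) = M₁ ⊓ M₂) ∧
      (M₂ ≤ normalizer (A : Set G) → M₁ ⊓ normalizer (A : Set G) = M₁ ⊓ M₂)) ∧
    centralizer (Cfsg.pCore p ↥M₁ : Set ↥M₁) ≤ Cfsg.pCore p ↥M₁ ∧
    centralizer (Cfsg.pCore p ↥M₂ : Set ↥M₂) ≤ Cfsg.pCore p ↥M₂ ∧
    (Cfsg.pCore p ↥M₁).map M₁.subtype ⊔ (Cfsg.pCore p ↥M₂).map M₂.subtype ≤ M₁ ⊓ M₂) ∨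
    (∀ M : Subgroup G, (∃ T : Subgroup G, IsPGroup p T ∧ T ≠ ⊥ ∧ M = normalizer (T : Set G)) →
      (∀ L : Subgroup G, (∃ T : Subgroup G, IsPGroup p T ∧ T ≠ ⊥ ∧ L = normalizer (T : Set G)) → M ≤ L → L = M) →
      M ≠ ⊤ ∧ p ∣ Nat.card M ∧
        ∀ g : G, g ∉ M → ¬ p ∣ Nat.card ↥(M ⊓ M.map (MulAut.conj g).toMonoidHom)) := by
  classical
  by_cases hpair : ∀ M L : Subgroup G, MaxLoc p M → MaxLoc p L → M ≠ L → ¬ p ∣ Nat.card ↥(M ⊓ L : Subgroup G)
  · refine Or.inr fun M hM1 hM2 => ?_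
    have hM : MaxLoc p M := ⟨hM1, hM2⟩
    obtain ⟨T, hT, hT1, hMT⟩ := hM1
    refine ⟨fun h => hT1 (le_bot_iff.mp ?_), ?_, fun g hg hd => hpair M _ hM (map_conj hM g) ?_ hd⟩
    · rw [← hOp]
      exact le_pCore (normalizer_eq_top_iff.mp (hMT ▸ h)) hT
    · obtain ⟨k, hc⟩ := IsPGroup.iff_card.mp hT
      have hk : k ≠ 0 := fun h => hT1 (card_eq_one.mp (by rw [hc, h, pow_zero]))
      exact ((dvd_pow_self p hk).trans (hc ▸ dvd_rfl)).trans (card_dvd_of_le (hMT ▸ le_normalizer))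
    · intro he
      exact hg (normalizer_le hM (mem_normalizer_iff_map_conj_eq.mpr he.symm))
  push Not at hpair
  obtain ⟨M0, L0, hM0, hL0, hne0, hd0⟩ := hpair
  let 𝒮 := {S : Subgroup G | IsPGroup p S ∧ S ≠ ⊥ ∧ ∃ M L, MaxLoc p M ∧ MaxLoc p L ∧ M ≠ L ∧ S ≤ M ⊓ L}
  have hne : 𝒮.Nonempty := by
    obtain ⟨x, hx⟩ := exists_prime_orderOf_dvd_card' p hd0
    refine ⟨(zpowers x).map (M0 ⊓ L0).subtype, ?_, ?_, M0, L0, hM0, hL0, hne0, map_subtype_le _⟩
    · exact (IsPGroup.of_card (n := 1) (by rw [Nat.card_zpowers, hx, pow_one])).map _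
    · intro h
      have h1 : zpowers x = ⊥ := map_injective (M0 ⊓ L0).subtype_injective (h.trans (Subgroup.map_bot _).symm)
      rw [zpowers_eq_bot] at h1
      rw [h1, orderOf_one] at hx
      exact hp.out.ne_one hx.symm
  obtain ⟨S, hSm, hmax⟩ := Set.exists_max_image 𝒮 (fun S => Nat.card S) (Set.toFinite _) hne
  obtain ⟨hSp, hS1, M, L, hM, hL, hML, hSle⟩ := hSm
  -- no larger `p`-subgroup lies in two maximal locals
  have big : ∀ {U : Subgroup G}, IsPGroup p U → S < U → ∀ {X Y : Subgroup G}, MaxLoc p X → MaxLoc p Y →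
      U ≤ X ⊓ Y → X = Y := by
    intro U hU hSU X Y hX hY hUle
    by_contra hXY
    exact (hmax U ⟨hU, fun h => hS1 (le_bot_iff.mp (h ▸ hSU.le)), X, Y, hX, hY, hXY, hUle⟩).not_gt
      (lt_of_le_of_ne (card_le_of_le hSU.le) fun e => hSU.ne (eq_of_le_of_card_ge hSU.le e.ge))
  have grow : ∀ {U : Subgroup G}, IsPGroup p U → S < U →
      S < U ⊓ normalizer (S : Set G) := by
    intro U hU hSU
    haveI := hU.isNilpotent
    have hlt : S.subgroupOf U < ⊤ := by
      rw [lt_top_iff_ne_top, ne_eq, subgroupOf_eq_top]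
      exact hSU.not_ge
    obtain ⟨u, hu, hu'⟩ := SetLike.exists_of_lt (normalizerCondition_of_isNilpotent _ hlt)
    refine lt_of_le_of_ne (le_inf hSU.le le_normalizer) fun e => hu' (mem_subgroupOf.mpr ?_)
    rw [e]
    refine ⟨u.2, mem_normalizer_iff.mpr fun s => ?_⟩
    constructor
    · intro hs
      exact (mem_normalizer_iff.mp hu ⟨s, hSU.le hs⟩).mp hs
    · intro hs
      have h1 : u * (⟨(u : G)⁻¹ * ((u : G) * s * (u : G)⁻¹) * u,
          U.mul_mem (U.mul_mem (U.inv_mem u.2) (hSU.le hs)) u.2⟩ : ↥U) * u⁻¹ ∈ S.subgroupOf U := by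
        rw [mem_subgroupOf]; simpa [mul_assoc] using hs
      have h2 := (mem_normalizer_iff.mp hu _).mpr h1
      simpa [mul_assoc] using mem_subgroupOf.mp h2
  have good : ∀ X Y : Subgroup G, MaxLoc p X → MaxLoc p Y → X ≠ Y → S ≤ X → S ≤ Y →
      (∀ U : Subgroup G, IsPGroup p U → U ≤ X → S ≤ U → U = S) →
      (∀ U : Subgroup G, IsPGroup p U → U ≤ Y → S ≤ U → U = S) →
      ∃ M₁ M₂ : Subgroup G, M₁ ≠ M₂ ∧
        (∀ A : Subgroup G, A ≠ ⊥ → A ≤ M₁ ⊓ M₂ →
          (M₁ ≤ normalizer (A : Set G) → M₂ ⊓ normalizer (A : Set G) = M₁ ⊓ M₂) ∧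
          (M₂ ≤ normalizer (A : Set G) → M₁ ⊓ normalizer (A : Set G) = M₁ ⊓ M₂)) ∧
        centralizer (Cfsg.pCore p ↥M₁ : Set ↥M₁) ≤ Cfsg.pCore p ↥M₁ ∧
        centralizer (Cfsg.pCore p ↥M₂ : Set ↥M₂) ≤ Cfsg.pCore p ↥M₂ ∧
        (Cfsg.pCore p ↥M₁).map M₁.subtype ⊔ (Cfsg.pCore p ↥M₂).map M₂.subtype ≤ M₁ ⊓ M₂ := by
    intro X Y hX hY hXY hSX hSY hmX hmY
    have hO : ∀ Z : Subgroup G, S ≤ Z → (∀ U : Subgroup G, IsPGroup p U → U ≤ Z → S ≤ U → U = S) →
        core p Z ≤ S := by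
      intro Z hSZ hm
      have h1 := hSp.to_sup_of_normal_right' (isPGroup_core Z) (hSZ.trans (le_normalizer_core Z))
      exact (le_sup_right : core p Z ≤ S ⊔ core p Z).trans
        (hm _ h1 (sup_le hSZ (map_subtype_le _)) le_sup_left).le
    refine ⟨X, Y, hXY, fun A hA1 hA => ⟨fun hn => ?_, fun hn => ?_⟩, centralizer_le hloc hX.1,
      centralizer_le hloc hY.1, sup_le ((hO X hSX hmX).trans (le_inf hSX hSY))
        ((hO Y hSY hmY).trans (le_inf hSX hSY))⟩
    · refine le_antisymm (le_inf (inf_le_right.trans (primitive hloc hX hA1 (hA.trans inf_le_left) hn))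
        inf_le_left) (le_inf inf_le_right (inf_le_left.trans hn))
    · refine le_antisymm (le_inf inf_le_left (inf_le_right.trans (primitive hloc hY hA1 (hA.trans inf_le_right) hn)))
        (le_inf inf_le_left (inf_le_right.trans hn))
  have side : ∀ X Y : Subgroup G, MaxLoc p X → MaxLoc p Y → X ≠ Y → S ≤ X → S ≤ Y →
      ∀ T : Subgroup G, IsPGroup p T → T ≤ X → S ≤ T → T ≠ S →
      ∃ M₁ M₂ : Subgroup G, M₁ ≠ M₂ ∧
        (∀ A : Subgroup G, A ≠ ⊥ → A ≤ M₁ ⊓ M₂ →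
          (M₁ ≤ normalizer (A : Set G) → M₂ ⊓ normalizer (A : Set G) = M₁ ⊓ M₂) ∧
          (M₂ ≤ normalizer (A : Set G) → M₁ ⊓ normalizer (A : Set G) = M₁ ⊓ M₂)) ∧
        centralizer (Cfsg.pCore p ↥M₁ : Set ↥M₁) ≤ Cfsg.pCore p ↥M₁ ∧
        centralizer (Cfsg.pCore p ↥M₂ : Set ↥M₂) ≤ Cfsg.pCore p ↥M₂ ∧
        (Cfsg.pCore p ↥M₁).map M₁.subtype ⊔ (Cfsg.pCore p ↥M₂).map M₂.subtype ≤ M₁ ⊓ M₂ := by
    intro X Y hX hY hXY hSX hSY T hT hTX hST hTS
    have hlt : S < T ⊓ normalizer (S : Set G) := grow hT (lt_of_le_of_ne hST (Ne.symm hTS))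
    obtain ⟨H, hNH, hH⟩ := exists_maxLoc_ge (p := p) ⟨S, hSp, hS1, rfl⟩
    have hHX : H = X := big (hT.to_le inf_le_left) hlt hH hX
      (le_inf (inf_le_right.trans hNH) (inf_le_left.trans hTX))
    have hmY : ∀ U : Subgroup G, IsPGroup p U → U ≤ Y → S ≤ U → U = S := by
      intro U hU hUY hSU
      by_contra hUS
      exact hXY (big (hU.to_le inf_le_left) (grow hU (lt_of_le_of_ne hSU (Ne.symm hUS))) hX hY
        (le_inf (inf_le_right.trans (hHX ▸ hNH)) (inf_le_left.trans hUY)))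
    obtain ⟨g, hg, hgS⟩ := SetLike.exists_of_lt hlt
    have hgp : IsPGroup p (zpowers g) := hT.to_le (zpowers_le.mpr hg.1)
    have hgY : g ∉ Y := fun h => hgS ((hmY _ (hgp.to_sup_of_normal_right' hSp (zpowers_le.mpr hg.2))
      (sup_le (zpowers_le.mpr h) hSY) le_sup_right).le (mem_sup_left (mem_zpowers g)))
    set Y' := Y.map (MulAut.conj g).toMonoidHom with hY'
    have hS' : S.map (MulAut.conj g).toMonoidHom = S := mem_normalizer_iff_map_conj_eq.mp hg.2
    refine good Y Y' hY (map_conj hY g)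
      (fun e => hgY (normalizer_le hY (mem_normalizer_iff_map_conj_eq.mpr e.symm))) hSY
      (hS'.ge.trans (map_mono hSY)) hmY fun U hU hUY' hSU => ?_
    have hinv : ∀ v, g⁻¹ * (g * v * g⁻¹) * g = v := fun v => by group
    have hU' : U.map (MulAut.conj g⁻¹).toMonoidHom = S := by
      refine hmY _ (hU.map _) ?_ ?_
      · rintro _ ⟨u, hu, rfl⟩
        obtain ⟨y, hy, rfl⟩ := hUY' hu
        simp only [MulEquiv.coe_toMonoidHom, MulAut.conj_apply, inv_inv, hinv]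
        exact hy
      · intro s hs
        refine ⟨g * s * g⁻¹, hSU ((mem_normalizer_iff.mp hg.2 s).mp hs), ?_⟩
        simp only [MulEquiv.coe_toMonoidHom, MulAut.conj_apply, inv_inv, hinv]
    refine le_antisymm (fun u hu => ?_) hSU
    have h1 : g⁻¹ * u * g ∈ S := hU' ▸ ⟨u, hu, by simp⟩
    simpa [mul_assoc] using (mem_normalizer_iff.mp hg.2 _).mp h1
  left
  by_cases hm1 : ∀ U : Subgroup G, IsPGroup p U → U ≤ M → S ≤ U → U = S
  · by_cases hm2 : ∀ U : Subgroup G, IsPGroup p U → U ≤ L → S ≤ U → U = S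
    · exact good M L hM hL hML (hSle.trans inf_le_left) (hSle.trans inf_le_right) hm1 hm2
    · push Not at hm2
      obtain ⟨T, hT, hTL, hST, hTS⟩ := hm2
      exact side L M hL hM hML.symm (hSle.trans inf_le_right) (hSle.trans inf_le_left) T hT hTL hST hTS
  · push Not at hm1
    obtain ⟨T, hT, hTM, hST, hTS⟩ := hm1
    exact side M L hM hL hML (hSle.trans inf_le_left) (hSle.trans inf_le_right) T hT hTM hST hTS

end

/-- Two distinct subgroups M₁, M₂ of G form a primitive pair when, for {i, j} = {1, 2}, every non-trivial normal subgroup A of M_i contained in M₁ ∩ M₂ satisfies N_{M_j}(A) = M₁ ∩ M₂; the pair has characteristic p when moreover C_{M_i}(O_p(M_i)) ≤ O_p(M_i) for both i and O_p(M₁)O_p(M₂) ≤ M₁ ∩ M₂. Let G be a finite group, p a prime dividing its order, with O_p(G) = 1 and every p-local subgroup of characteristic p. Then either G has a primitive pair of characteristic p, or every maximal p-local subgroup M of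 G is strongly p-embedded in G: M is a proper subgroup, p divides its order, and for every g ∉ M the order of M ∩ gMg⁻¹ is prime to p. -/
theorem result {G : Type*} [Group G] [Finite G] {p : ℕ} [Fact p.Prime] (hloc : Cfsg.IsOfLocalCharacteristic p G) (hOp : Cfsg.pCore p G = ⊥) : (∃ M₁ M₂ : Subgroup G, M₁ ≠ M₂ ∧ (∀ A : Subgroup G, A ≠ ⊥ → A ≤ M₁ ⊓ M₂ → (M₁ ≤ Subgroup.normalizer (A : Set G) → M₂ ⊓ Subgroup.normalizer (A : Set G) = M₁ ⊓ M₂) ∧ (M₂ ≤ Subgroup.normalizer (A : Set G) → M₁ ⊓ Subgroup.normalizer (A : Set G) = M₁ ⊓ M₂)) ∧ Subgroup.centralizer (Cfsg.pCore p ↥M₁ : Set ↥M₁) ≤ Cfsg.pCore p ↥M₁ ∧ Subgroup.centralizer (Cfsg.pCore p ↥M₂ : Set ↥M₂) ≤ Cfsg.pCore p ↥M₂ ∧ (Cfsg.pCore p ↥M₁).map M₁.subtype ⊔ (Cfsg.pCore p ↥M₂).map M₂.subtype ≤ M₁ ⊓ M₂) ∨ (∀ M : Subgroup G, (∃ T : Subgroup G, IsPGroup p T ∧ T ≠ ⊥ ∧ M = Subgroup.normalizer (T : Set G)) → (∀ L : Subgroup G, (∃ T : Subgroup G, IsPGroup p T ∧ T ≠ ⊥ ∧ L = Subgroup.normalizer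 (T : Set G)) → M ≤ L → L = M) → M ≠ ⊤ ∧ p ∣ Nat.card M ∧ ∀ g : G, g ∉ M → ¬ p ∣ Nat.card ↥(M ⊓ M.map (MulAut.conj g).toMonoidHom)) := by
  exact main hloc hOp

end Cfsg.Agent.S3751
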