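import Cfsg.Statements.S3752
import Cfsg.Agent.Lib.Components.Bender

set_option autoImplicit false
open Cfsg

namespace Cfsg.Agent.S3752

open Subgroup
open scoped commutatorElement

section

variable {G : Type*} [Group G] [Finite G]

/-- `O_r(M)` in the ambient group. -/
def core (r : ℕ) (M : Subgroup G) : Subgroup G := (Cfsg.pCore r ↥M).map M.subtype

theorem isPGroup_core {r : ℕ} [Fact r.Prime] (M : Subgroup G) : IsPGroup r (core r M) :=
  (Lib.Components.pCore_isPGroup r).map _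

theorem le_core {r : ℕ} {B M : Subgroup G} (hB : IsPGroup r B) (hBM : B ≤ M)
    (hn : M ≤ normalizer (B : Set G)) : B ≤ core r M := by
  have h1 : (B.subgroupOf M).Normal := (normal_subgroupOf_iff_le_normalizer hBM).mpr hn
  calc B = (B.subgroupOf M).map M.subtype := (map_subgroupOf_eq_of_le hBM).symm
    _ ≤ _ := map_mono (show B.subgroupOf M ≤ Cfsg.pCore r ↥M from le_sSup ⟨h1, hB.comap_subtype⟩)

theorem le_normalizer_map {M : Subgroup G} (N : Subgroup ↥M) [hn : N.Normal] :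
    M ≤ normalizer (N.map M.subtype : Set G) := by
  have h := N.le_normalizer_map M.subtype
  rwa [normalizer_eq_top_iff.mpr hn, ← MonoidHom.range_eq_map, range_subtype] at h

theorem normalizer_le_normalizer_core {r : ℕ} [Fact r.Prime] (A : Subgroup G) :
    normalizer (A : Set G) ≤ normalizer (core r A : Set G) := by
  intro x hx
  have key : ∀ y ∈ normalizer (A : Set G), ∀ u ∈ core r A, y * u * y⁻¹ ∈ core r A := by
    intro y hy
    have hle : (core r A).map (MulAut.conj y).toMonoidHom ≤ core r A := by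
      refine le_core ((isPGroup_core A).map _) ?_ ?_
      · rintro _ ⟨u, hu, rfl⟩
        exact (mem_normalizer_iff.mp hy u).mp (map_subtype_le _ hu)
      · intro m hm
        refine Subgroup.mem_normalizer_iff.mpr fun w => ?_
        have hm' : y⁻¹ * m * y ∈ normalizer (core r A : Set G) := le_normalizer_map _ (by
          rw [mem_normalizer_iff.mp hy]; simpa [mul_assoc] using hm)
        constructor
        · rintro ⟨u, hu, rfl⟩
          exact ⟨_, (mem_normalizer_iff.mp hm' u).mp hu, by simp [mul_assoc]⟩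
        · rintro ⟨u, hu, hu'⟩
          refine ⟨(y⁻¹ * m * y)⁻¹ * u * (y⁻¹ * m * y), ?_, ?_⟩
          · rw [SetLike.mem_coe, mem_normalizer_iff.mp hm']; simpa [mul_assoc] using hu
          · simp only [MulEquiv.coe_toMonoidHom, MulAut.conj_apply] at hu' ⊢
            calc y * ((y⁻¹ * m * y)⁻¹ * u * (y⁻¹ * m * y)) * y⁻¹ = m⁻¹ * (y * u * y⁻¹) * m := by group
              _ = w := by rw [hu']; group
    exact fun u hu => hle ⟨u, hu, rfl⟩
  refine mem_normalizer_iff.mpr fun u => ⟨key x hx u, fun h => ?_⟩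
  have := key x⁻¹ (inv_mem hx) _ h
  simpa [mul_assoc] using this

theorem le_normalizer_core {r : ℕ} [Fact r.Prime] (M : Subgroup G) : M ≤ normalizer (core r M : Set G) :=
  le_normalizer.trans (normalizer_le_normalizer_core M)

theorem commute_core {r s : ℕ} [Fact r.Prime] [Fact s.Prime] (hrs : r ≠ s) {D A B : Subgroup G}
    (hA : IsPGroup r A) (hB : IsPGroup s B) (hAD : A ≤ D) (hBD : B ≤ D)
    (hAn : D ≤ normalizer (A : Set G)) (hBn : D ≤ normalizer (B : Set G)) {a b : G} (ha : a ∈ A) (hb : b ∈ B) :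
    a * b = b * a := by
  have h : a * b * a⁻¹ * b⁻¹ ∈ A ⊓ B := by
    refine ⟨?_, B.mul_mem ((mem_normalizer_iff.mp (hBn (hAD ha)) b).mp hb) (B.inv_mem hb)⟩
    rw [show a * b * a⁻¹ * b⁻¹ = a * (b * a⁻¹ * b⁻¹) by group]
    exact A.mul_mem ha ((mem_normalizer_iff.mp (hAn (hBD hb)) _).mp (A.inv_mem ha))
  rw [(IsPGroup.disjoint_of_ne r s hrs _ _ hA hB).eq_bot, mem_bot, mul_inv_eq_one, mul_inv_eq_iff_eq_mul] at h
  exact h

/-- The Fitting subgroup in the ambient group. -/
def fit (M : Subgroup G) : Subgroup G := (Cfsg.fittingSubgroup ↥M).map M.subtype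

theorem core_le_fit {r : ℕ} [Fact r.Prime] (M : Subgroup G) : core r M ≤ fit M :=
  map_mono (Lib.Components.pCore_le_fittingSubgroup r)

theorem le_core_of_le_fit {r : ℕ} [Fact r.Prime] {M T : Subgroup G} (hT : IsPGroup r T) (h : T ≤ fit M) :
    T ≤ core r M := by
  have hTM : T ≤ M := h.trans (map_subtype_le _)
  haveI := Lib.Components.fittingSubgroup_nilpotent (G := ↥M)
  set F := Cfsg.fittingSubgroup ↥M
  obtain ⟨P, hP⟩ := ((hT.comap_subtype (K := M)).comap_subtype (K := F)).exists_le_sylow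
  have h1 := Lib.Components.le_pCore_of_subnormal
    (Lib.Components.sylow_map_normal_isSubnormal (inferInstance : F.Normal).isSubnormal P) (P.isPGroup'.map F.subtype)
  intro t ht
  obtain ⟨f, hf, hft⟩ := h ht
  refine ⟨f, h1 ⟨⟨f, hf⟩, hP ?_, rfl⟩, hft⟩
  show (f : G) ∈ T
  rw [show (f : G) = t from hft]
  exact ht

theorem fit_le {M H : Subgroup G} (h : ∀ r : ℕ, r.Prime → core r M ≤ H) : fit M ≤ H := by
  rw [fit, Lib.Components.fittingSubgroup_eq_iSup, Subgroup.map_iSup]
  exact iSup_le fun r => h r r.2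

/-- Primitive pair conditions on one side. -/
def Prim (M₁ M₂ : Subgroup G) : Prop :=
  ∀ A : Subgroup G, A ≠ ⊥ → A ≤ M₁ ⊓ M₂ → M₁ ≤ normalizer (A : Set G) → M₂ ⊓ normalizer (A : Set G) = M₁ ⊓ M₂

theorem eq_of_common {M₁ M₂ A : Subgroup G} (h1 : Prim M₁ M₂) (h2 : Prim M₂ M₁) (hA : A ≠ ⊥)
    (hle : A ≤ M₁ ⊓ M₂) (n1 : M₁ ≤ normalizer (A : Set G)) (n2 : M₂ ≤ normalizer (A : Set G)) : M₁ = M₂ := by
  refine le_antisymm ?_ ?_
  · have h := h2 A hA (inf_comm M₁ M₂ ▸ hle) n2
    rw [inf_eq_left.mpr n1] at h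
    exact h.le.trans inf_le_left
  · have h := h1 A hA hle n1
    rw [inf_eq_left.mpr n2] at h
    exact h.le.trans inf_le_left

/-- The ambient `F*`. -/
def fstar (M : Subgroup G) : Subgroup G := (Cfsg.generalizedFittingSubgroup ↥M).map M.subtype

theorem mem_fstar_of_centralizes {M : Subgroup G} {x : G} (hx : x ∈ M)
    (hc : ∀ f ∈ fstar M, f * x = x * f) : x ∈ fit M := by
  refine ⟨⟨x, hx⟩, Lib.Components.centralizer_gfs_le_fitting (mem_centralizer_iff.mpr fun f hf => ?_), rfl⟩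
  exact Subtype.ext (hc f ⟨f, hf, rfl⟩)

theorem layer_le {M₁ M₂ : Subgroup G} (h₁ : fstar M₁ ≤ M₂) (h₂ : fstar M₂ ≤ M₁) :
    (Cfsg.layer ↥M₁).map M₁.subtype ≤ (Cfsg.layer ↥M₂).map M₂.subtype := by
  rw [map_le_iff_le_comap, Lib.Components.layer_le_iff]
  intro K hK
  rw [← map_le_iff_le_comap]
  set K' := K.map M₁.subtype with hK'
  set D := M₁ ⊓ M₂ with hD
  have hKD : K' ≤ D := le_inf (map_subtype_le _) ((map_mono (Lib.Components.comp_le_gfs hK)).trans h₁)
  have hKin : K ≤ D.subgroupOf M₁ := fun k hk => mem_subgroupOf.mpr (hKD ⟨k, hk, rfl⟩)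
  have hc : Cfsg.IsComponent (K'.subgroupOf D) := by
    have h := Lib.Components.isComponent_map_equiv (Lib.Components.isComponent_subgroupOf hK hKin)
      (subgroupOfEquivOfLe (inf_le_left : D ≤ M₁))
    convert h using 1
    ext d
    constructor
    · intro hd
      obtain ⟨k, hk, hkd⟩ := mem_subgroupOf.mp hd
      exact ⟨⟨k, hKin hk⟩, hk, Subtype.ext hkd⟩
    · rintro ⟨k, hk, rfl⟩
      exact mem_subgroupOf.mpr ⟨(k : ↥M₁), hk, rfl⟩
  set N := fstar M₂ with hN
  have hND : N ≤ D := le_inf h₂ (map_subtype_le _)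
  haveI hNn : (N.subgroupOf D).Normal := (normal_subgroupOf_iff_le_normalizer hND).mpr
    (inf_le_right.trans (le_normalizer_map _ (hn := sup_normal _ _)))
  rcases Lib.Components.comp_normal_dichotomy hc (M := N.subgroupOf D) with hle | hcom
  · have hKN : K' ≤ N := fun k hk => hle (show (⟨k, hKD hk⟩ : ↥D) ∈ K'.subgroupOf D from hk)
    set N2 := Cfsg.generalizedFittingSubgroup ↥M₂ with hN2
    have hN2n : N2.Normal := sup_normal _ _
    have hK2 : K' ≤ M₂ := hKD.trans inf_le_right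
    have hKN2 : K'.subgroupOf M₂ ≤ N2 := by
      intro k hk
      obtain ⟨n, hn, hnk⟩ := hKN hk
      exact (Subtype.ext hnk : n = k) ▸ hn
    have hin : K'.subgroupOf D ≤ N.subgroupOf D := fun k hk => hKN hk
    have hc1 := Lib.Components.isComponent_map_equiv (Lib.Components.isComponent_subgroupOf hc hin)
      (subgroupOfEquivOfLe hND)
    let e : ↥N2 ≃* ↥N := equivMapOfInjective N2 M₂.subtype M₂.subtype_injective
    have hc2 := Lib.Components.isComponent_map_equiv hc1 e.symm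
    have hc3 : Cfsg.IsComponent (K'.subgroupOf M₂) := by
      refine Lib.Components.isComponent_of_subgroupOf hN2n.isSubnormal hKN2 ?_
      convert hc2 using 1
      ext n
      constructor
      · intro hn
        have hnK : ((n : ↥M₂) : G) ∈ K' := hn
        exact ⟨e n, ⟨⟨⟨_, hKD hnK⟩, hKN hnK⟩, hnK, rfl⟩, e.symm_apply_apply n⟩
      · rintro ⟨_, ⟨k, hk, rfl⟩, rfl⟩
        have he := congrArg Subtype.val (e.apply_symm_apply (subgroupOfEquivOfLe hND k))
        show ((e.symm (subgroupOfEquivOfLe hND k) : ↥M₂) : G) ∈ K'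
        exact he.symm ▸ hk
    calc K' = (K'.subgroupOf M₂).map M₂.subtype := (map_subgroupOf_eq_of_le hK2).symm
      _ ≤ _ := map_mono (Lib.Components.comp_le_layer hc3)
  · exfalso
    have hKF : K' ≤ fit M₂ := by
      intro k hk
      refine mem_fstar_of_centralizes (hKD hk).2 fun f hf => ?_
      exact congrArg Subtype.val ((mem_centralizer_iff.mp ((commutator_eq_bot_iff_le_centralizer.mp hcom)
        (show (⟨k, hKD hk⟩ : ↥D) ∈ K'.subgroupOf D from hk)) ⟨f, hND hf⟩ hf) :)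
    have hFN : fit M₂ ≤ N := map_mono le_sup_right
    refine Lib.Components.comp_ne_bot hc ?_
    rw [← Lib.Components.comp_perfect hc]
    refine le_bot_iff.mp ((commutator_mono le_rfl (fun k hk => ?_)).trans hcom.le)
    exact hFN (hKF hk)

theorem core_eq_of_two {M₁ M₂ : Subgroup G} (hprim : Prim M₂ M₁) (hF₁ : fstar M₁ = fit M₁)
    (h₁ : fit M₁ ≤ M₂) (h₂ : fit M₂ ≤ M₁)
    {q r : ℕ} [hq : Fact q.Prime] [hr : Fact r.Prime] (hqr : q ≠ r) (hR2 : core r M₂ ≠ ⊥) :
    core q M₂ ≤ core q M₁ := by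
  set D := M₁ ⊓ M₂ with hD
  have hc1 : ∀ {s : ℕ} [Fact s.Prime], core s M₁ ≤ D := fun {s} _ =>
    le_inf (map_subtype_le _) ((core_le_fit M₁).trans h₁)
  have hc2 : ∀ {s : ℕ} [Fact s.Prime], core s M₂ ≤ D := fun {s} _ =>
    le_inf ((core_le_fit M₂).trans h₂) (map_subtype_le _)
  have hn1 : ∀ {s : ℕ} [Fact s.Prime], D ≤ normalizer (core s M₁ : Set G) := fun {s} _ =>
    inf_le_left.trans (le_normalizer_core M₁)
  have hn2 : ∀ {s : ℕ} [Fact s.Prime], D ≤ normalizer (core s M₂ : Set G) := fun {s} _ =>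
    inf_le_right.trans (le_normalizer_core M₂)
  let S : Set G := {x | x ∈ M₁ ∧ (∀ v ∈ core r M₁, x * v = v * x) ∧ (orderOf x).Coprime r}
  have hS : ∀ x ∈ S, x ∈ D := by
    rintro x ⟨hxM, hxR, hxo⟩
    have hu : ∀ u ∈ core r M₂, x * u * x⁻¹ = u := by
      intro u hu
      set c := x * u * x⁻¹ * u⁻¹ with hc
      have huM : u ∈ M₁ := (hc2 hu).1
      have hcM : c ∈ M₁ := M₁.mul_mem (M₁.mul_mem (M₁.mul_mem hxM huM) (M₁.inv_mem hxM)) (M₁.inv_mem huM)
      have hcF : c ∈ fit M₁ := by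
        refine mem_fstar_of_centralizes hcM fun f hf => ?_
        rw [hF₁] at hf
        have hle : fit M₁ ≤ centralizer ({c} : Set G) := by
          refine fit_le fun s hs v hv => mem_centralizer_singleton_iff.mpr ?_
          haveI := Fact.mk hs
          by_cases hsr : s = r
          · subst hsr
            have e1 : u * x⁻¹ * u⁻¹ * v = v * (u * x⁻¹ * u⁻¹) := by
              have hv' : u⁻¹ * v * u ∈ core s M₁ :=
                (mem_normalizer_iff.mp (le_normalizer_core M₁ huM) _).mpr (by simpa [mul_assoc] using hv)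
              have h := hxR _ hv'
              calc u * x⁻¹ * u⁻¹ * v = u * x⁻¹ * ((u⁻¹ * v * u) * x) * x⁻¹ * u⁻¹ := by group
                _ = u * x⁻¹ * (x * (u⁻¹ * v * u)) * x⁻¹ * u⁻¹ := by rw [h]
                _ = v * (u * x⁻¹ * u⁻¹) := by group
            calc v * c = v * x * (u * x⁻¹ * u⁻¹) := by rw [hc]; group
              _ = x * v * (u * x⁻¹ * u⁻¹) := by rw [hxR v hv]
              _ = x * (u * x⁻¹ * u⁻¹ * v) := by rw [e1]; group
              _ = c * v := by rw [hc]; group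
          · have e1 : u⁻¹ * v = v * u⁻¹ :=
              commute_core (Ne.symm hsr) (isPGroup_core M₂) (isPGroup_core M₁) hc2 hc1 hn2 hn1
                ((core r M₂).inv_mem hu) hv
            have hv' : x⁻¹ * v * x ∈ core s M₁ :=
              (mem_normalizer_iff.mp (le_normalizer_core M₁ hxM) _).mpr (by simpa [mul_assoc] using hv)
            have e2 : u * (x⁻¹ * v * x) = (x⁻¹ * v * x) * u :=
              commute_core (Ne.symm hsr) (isPGroup_core M₂) (isPGroup_core M₁) hc2 hc1 hn2 hn1 hu hv'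
            calc v * c = x * ((x⁻¹ * v * x) * u) * x⁻¹ * u⁻¹ := by rw [hc]; group
              _ = x * u * x⁻¹ * (v * u⁻¹) := by rw [← e2]; group
              _ = c * v := by rw [← e1, hc]; group
        exact (mem_centralizer_singleton_iff.mp (hle hf))
      have hcD : c ∈ D := ⟨hcM, h₁ hcF⟩
      have hxu : x * u * x⁻¹ ∈ D := by
        have h := D.mul_mem hcD (hc2 hu)
        rwa [hc, inv_mul_cancel_right] at h
      have hxup : IsPGroup r (zpowers (x * u * x⁻¹)) := by
        have h := ((isPGroup_core (r := r) M₂).to_le (zpowers_le.mpr hu)).map (MulAut.conj x).toMonoidHom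
        rwa [MonoidHom.map_zpowers] at h
      have hgr := hxup.to_sup_of_normal_right' (isPGroup_core (r := r) M₂)
        ((zpowers_le.mpr hxu).trans hn2)
      have hcr : c ∈ core r M₁ := by
        refine le_core_of_le_fit (hgr.to_le (zpowers_le.mpr ?_)) (zpowers_le.mpr hcF) (mem_zpowers c)
        exact mul_mem (mem_sup_left (mem_zpowers _)) (inv_mem (mem_sup_right hu))
      have hcx : x * c = c * x := hxR c hcr
      have hn : ∀ n : ℕ, x ^ n * u * (x ^ n)⁻¹ = c ^ n * u := by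
        intro n
        induction n with
        | zero => simp
        | succ n ih =>
          rw [pow_succ' x, mul_inv_rev, show x * x ^ n * u * ((x ^ n)⁻¹ * x⁻¹) = x * (x ^ n * u * (x ^ n)⁻¹) * x⁻¹ by group,
            ih, pow_succ]
          calc x * (c ^ n * u) * x⁻¹ = (x * c ^ n) * u * x⁻¹ := by group
            _ = (c ^ n * x) * u * x⁻¹ := by rw [((show Commute x c from hcx).pow_right n).eq]
            _ = c ^ n * c * u := by rw [hc]; group
      have h1 := hn (orderOf x)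
      rw [pow_orderOf_eq_one, one_mul, inv_one, mul_one, eq_comm, mul_eq_right] at h1
      obtain ⟨k, hk⟩ := isPGroup_core (r := r) M₁ ⟨c, hcr⟩
      have hk' : c ^ r ^ k = 1 := by simpa using congrArg Subtype.val hk
      have h2 : orderOf c = 1 := Nat.eq_one_of_dvd_coprimes (hxo.pow_right k)
        (orderOf_dvd_of_pow_eq_one h1) (orderOf_dvd_of_pow_eq_one hk')
      rw [orderOf_eq_one_iff, hc, mul_inv_eq_one] at h2
      exact h2
    have hx' : x ∈ normalizer (core r M₂ : Set G) := mem_normalizer_iff.mpr fun u => by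
      constructor
      · intro h; rwa [hu u h]
      · intro h
        have := hu _ h
        have e : x * u * x⁻¹ = u := by
          calc x * u * x⁻¹ = x⁻¹ * (x * (x * u * x⁻¹) * x⁻¹) * x := by group
            _ = x⁻¹ * (x * u * x⁻¹) * x := by rw [this]
            _ = u := by group
        exact e ▸ h
    have h := hprim _ hR2 (le_inf hc2 hc2 |>.trans (le_of_eq (by rw [inf_idem, hD, inf_comm]))) (le_normalizer_core M₂)
    exact (show D = M₁ ⊓ normalizer (core r M₂ : Set G) by rw [h, hD, inf_comm]) ▸ ⟨hxM, hx'⟩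
  set N := closure S
  have hND : N ≤ D := (closure_le _).mpr hS
  have hNn : M₁ ≤ normalizer (N : Set G) := by
    intro m hm
    refine mem_normalizer_iff_map_conj_eq.mpr (eq_of_le_of_card_ge ?_
      (by rw [card_map_of_injective (MulAut.conj m).injective]))
    rw [MonoidHom.map_closure, closure_le]
    rintro _ ⟨x, ⟨hxM, hxR, hxo⟩, rfl⟩
    refine subset_closure ⟨M₁.mul_mem (M₁.mul_mem hm hxM) (M₁.inv_mem hm), fun v hv => ?_, ?_⟩
    · have hv' : m⁻¹ * v * m ∈ core r M₁ :=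
        (mem_normalizer_iff.mp (le_normalizer_core M₁ hm) _).mpr (by simpa [mul_assoc] using hv)
      show m * x * m⁻¹ * v = v * (m * x * m⁻¹)
      calc m * x * m⁻¹ * v = m * (x * (m⁻¹ * v * m)) * m⁻¹ := by group
        _ = m * ((m⁻¹ * v * m) * x) * m⁻¹ := by rw [hxR _ hv']
        _ = v * (m * x * m⁻¹) := by group
    · show (orderOf (MulAut.conj m x)).Coprime r
      rwa [MulEquiv.orderOf_eq]
  have hQN : core q M₂ ≤ N := fun x hx => subset_closure ⟨(hc2 hx).1,
    fun v hv => commute_core hqr (isPGroup_core M₂) (isPGroup_core M₁) hc2 hc1 hn2 hn1 hx hv, by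
      obtain ⟨k, hk⟩ := isPGroup_core (r := q) M₂ ⟨x, hx⟩
      exact (((Nat.coprime_primes hq.out hr.out).mpr hqr).pow_left k).coprime_dvd_left
        (orderOf_dvd_of_pow_eq_one (by simpa using congrArg Subtype.val hk))⟩
  calc core q M₂ ≤ core q N := le_core (isPGroup_core M₂) hQN (hND.trans hn2)
    _ ≤ core q M₁ := le_core (isPGroup_core N) ((map_subtype_le _).trans (hND.trans inf_le_left))
        (hNn.trans (normalizer_le_normalizer_core N))

theorem main {M₁ M₂ : Subgroup G}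
    (hP : ∀ A : Subgroup G, A ≠ ⊥ → A ≤ M₁ ⊓ M₂ →
      (M₁ ≤ normalizer (A : Set G) → M₂ ⊓ normalizer (A : Set G) = M₁ ⊓ M₂) ∧
      (M₂ ≤ normalizer (A : Set G) → M₁ ⊓ normalizer (A : Set G) = M₁ ⊓ M₂))
    (hne : M₁ ≠ M₂) (h₁ : fstar M₁ ≤ M₂) (h₂ : fstar M₂ ≤ M₁) :
    ∃ p : ℕ, p.Prime ∧ centralizer (Cfsg.pCore p ↥M₁ : Set ↥M₁) ≤ Cfsg.pCore p ↥M₁ ∧
      centralizer (Cfsg.pCore p ↥M₂ : Set ↥M₂) ≤ Cfsg.pCore p ↥M₂ ∧
      (Cfsg.pCore p ↥M₁).map M₁.subtype ⊔ (Cfsg.pCore p ↥M₂).map M₂.subtype ≤ M₁ ⊓ M₂ := by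
  have hp1 : Prim M₁ M₂ := fun A hA hle hn => (hP A hA hle).1 hn
  have hp2 : Prim M₂ M₁ := fun A hA hle hn => (inf_comm M₂ M₁).symm ▸ (hP A hA (inf_comm M₂ M₁ ▸ hle)).2 hn
  -- no components
  have hE : (Cfsg.layer ↥M₁).map M₁.subtype = (Cfsg.layer ↥M₂).map M₂.subtype :=
    le_antisymm (layer_le h₁ h₂) (layer_le h₂ h₁)
  have hE0 : (Cfsg.layer ↥M₁).map M₁.subtype = ⊥ := by
    by_contra hb
    exact hne (eq_of_common hp1 hp2 hb (le_inf (map_subtype_le _) (hE.le.trans (map_subtype_le _)))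
      (le_normalizer_map _) (hE ▸ le_normalizer_map _))
  have hF : ∀ M : Subgroup G, (Cfsg.layer ↥M).map M.subtype = ⊥ → fstar M = fit M := by
    intro M h
    rw [fstar, Cfsg.generalizedFittingSubgroup, Subgroup.map_sup, h, bot_sup_eq]
    rfl
  have hF1 := hF M₁ hE0
  have hF2 := hF M₂ (hE ▸ hE0)
  rw [hF1] at h₁
  rw [hF2] at h₂
  have htrans : ∀ (A B : Subgroup G), fstar B = fit B → fit A ≤ B → fit B ≤ A → ∀ r : ℕ, r.Prime →
      core r A ≠ ⊥ → core r B ≠ ⊥ := by
    intro A B hFB hAB hBA r hr hA hB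
    haveI := Fact.mk hr
    refine hA (le_bot_iff.mp ?_)
    rw [← hB]
    refine le_core_of_le_fit (isPGroup_core A) fun x hx => ?_
    refine mem_fstar_of_centralizes (hAB (core_le_fit A hx)) fun f hf => ?_
    rw [hFB] at hf
    refine mem_centralizer_singleton_iff.mp ((fit_le (fun s hs => ?_) : fit B ≤ centralizer ({x} : Set G)) hf)
    haveI := Fact.mk hs
    intro v hv
    refine mem_centralizer_singleton_iff.mpr ?_
    by_cases hsr : s = r
    · subst hsr
      rw [hB, mem_bot] at hv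
      rw [hv, one_mul, mul_one]
    · exact (commute_core (D := A ⊓ B) (Ne.symm hsr) (isPGroup_core A) (isPGroup_core B)
        (le_inf (map_subtype_le _) ((core_le_fit A).trans hAB))
        (le_inf ((core_le_fit B).trans hBA) (map_subtype_le _))
        (inf_le_left.trans (le_normalizer_core A)) (inf_le_right.trans (le_normalizer_core B)) hx hv).symm
  obtain ⟨p, hp, hp0⟩ : ∃ p : ℕ, p.Prime ∧ core p M₁ ≠ ⊥ := by
    by_contra h
    push Not at h
    have hfit : fit M₁ = ⊥ := le_bot_iff.mp (fit_le fun r hr => (h r hr).le)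
    have hM1 : M₁ = ⊥ := le_bot_iff.mp fun x hx => hfit ▸ mem_fstar_of_centralizes hx fun f hf => by
      rw [hF1, hfit, mem_bot] at hf
      rw [hf, one_mul, mul_one]
    have hfit2 : fit M₂ = ⊥ := le_bot_iff.mp (hM1 ▸ h₂)
    have hM2 : M₂ = ⊥ := le_bot_iff.mp fun x hx => hfit2 ▸ mem_fstar_of_centralizes hx fun f hf => by
      rw [hF2, hfit2, mem_bot] at hf
      rw [hf, one_mul, mul_one]
    exact hne (hM1.trans hM2.symm)
  haveI := Fact.mk hp
  have hp02 := htrans M₁ M₂ hF2 h₁ h₂ p hp hp0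
  have hone : ∀ r : ℕ, r.Prime → r ≠ p → core r M₁ = ⊥ ∧ core r M₂ = ⊥ := by
    intro r hr hrp
    by_contra h
    haveI := Fact.mk hr
    have hr1 : core r M₁ ≠ ⊥ := fun h1 => h ⟨h1, by_contra fun h2 => htrans M₂ M₁ hF1 h₂ h₁ r hr h2 h1⟩
    have hr2 := htrans M₁ M₂ hF2 h₁ h₂ r hr hr1
    have e : core p M₁ = core p M₂ := le_antisymm
      (core_eq_of_two hp1 hF2 h₂ h₁ (Ne.symm hrp) hr1) (core_eq_of_two hp2 hF1 h₁ h₂ (Ne.symm hrp) hr2)
    exact hne (eq_of_common hp1 hp2 hp0 (le_inf (map_subtype_le _) (e.le.trans (map_subtype_le _)))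
      (le_normalizer_core M₁) (e ▸ le_normalizer_core M₂))
  have hchar : ∀ M : Subgroup G, fstar M = fit M → (∀ r : ℕ, r.Prime → r ≠ p → core r M = ⊥) →
      centralizer (Cfsg.pCore p ↥M : Set ↥M) ≤ Cfsg.pCore p ↥M := by
    intro M hM ho x hx
    have hle : fit M ≤ core p M := fit_le fun r hr => by
      by_cases h : r = p
      · rw [h]
      · rw [ho r hr h]; exact bot_le
    have h1 : (x : G) ∈ core p M := hle (mem_fstar_of_centralizes x.2 fun f hf => by
      obtain ⟨w, hw, rfl⟩ := hle (hM ▸ hf)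
      exact congrArg Subtype.val (mem_centralizer_iff.mp hx w hw))
    obtain ⟨w, hw, hwx⟩ := h1
    exact (Subtype.ext hwx : w = x) ▸ hw
  exact ⟨p, hp, hchar M₁ hF1 fun r hr h => (hone r hr h).1, hchar M₂ hF2 fun r hr h => (hone r hr h).2,
    sup_le (le_inf (map_subtype_le _) ((core_le_fit M₁).trans h₁))
      (le_inf ((core_le_fit M₂).trans h₂) (map_subtype_le _))⟩

end

/-- Bender's Theorem on primitive pairs. Two distinct subgroups M₁, M₂ of G form a primitive pair when, for {i, j} = {1, 2}, every non-trivial normal subgroup A of M_i contained in M₁ ∩ M₂ satisfies N_{M_j}(A) = M₁ ∩ M₂; the pair has characteristic p when moreover C_{M_i}(O_p(M_i)) ≤ O_p(M_i) for both i and O_p(M₁)O_p(M₂) ≤ M₁ ∩ M₂. If (M₁, M₂) is a primitive pair of the finite group G with F*(M₁) ≤ M₂ and F*(M₂) ≤ M₁, then for some prime p the pair has characteristic p. -/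
theorem result {G : Type*} [Group G] [Finite G] (M₁ M₂ : Subgroup G) (hne : M₁ ≠ M₂) (hP : ∀ A : Subgroup G, A ≠ ⊥ → A ≤ M₁ ⊓ M₂ → (M₁ ≤ Subgroup.normalizer (A : Set G) → M₂ ⊓ Subgroup.normalizer (A : Set G) = M₁ ⊓ M₂) ∧ (M₂ ≤ Subgroup.normalizer (A : Set G) → M₁ ⊓ Subgroup.normalizer (A : Set G) = M₁ ⊓ M₂)) (h₁ : (Cfsg.generalizedFittingSubgroup ↥M₁).map M₁.subtype ≤ M₂) (h₂ : (Cfsg.generalizedFittingSubgroup ↥M₂).map M₂.subtype ≤ M₁) : ∃ p : ℕ, p.Prime ∧ Subgroup.centralizer (Cfsg.pCore p ↥M₁ : Set ↥M₁) ≤ Cfsg.pCore p ↥M₁ ∧ Subgroup.centralizer (Cfsg.pCore p ↥M₂ : Set ↥M₂) ≤ Cfsg.pCore p ↥M₂ ∧ (Cfsg.pCore p ↥M₁).map M₁.subtype ⊔ (Cfsg.pCore p ↥M₂).map M₂.subtype ≤ M₁ ⊓ M₂ := by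
  exact main hP hne h₁ h₂

end Cfsg.Agent.S3752
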