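import Cfsg.Statements.S3754
import Cfsg.Agent.Lib.Coprime.Abelian
import Cfsg.Agent.Lib.PGroupFrattini
import Cfsg.Agent.Lib.LocalChar.Core
import Cfsg.Agent.Lib.PLength.Basic
import Cfsg.Agent.Lib.HallHigman.Prime
import Cfsg.Agent.Lib.Fusion.PSolvableModel

set_option autoImplicit false
open Cfsg

namespace Cfsg.Agent.S3754

open Subgroup
open scoped Pointwise commutatorElement

section

theorem exists_p'_pow {X : Type*} [Group X] [Finite X] {p : ℕ} [hp : Fact p.Prime] (y : X) {m : ℕ}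
    (hm : m.Coprime p) : ∃ k : ℕ, (orderOf (y ^ k)).Coprime p ∧ k ≡ 1 [MOD m] := by
  obtain ⟨e, d, hd, hed⟩ := Nat.exists_eq_pow_mul_and_not_dvd (orderOf_pos y).ne' p hp.out.ne_one
  have hcop : m.Coprime (p ^ e) := hm.pow_right e
  obtain ⟨k, hk1, hk2⟩ := Nat.chineseRemainder hcop 1 0
  obtain ⟨c, rfl⟩ := Nat.modEq_zero_iff_dvd.mp hk2
  refine ⟨p ^ e * c, ?_, hk1⟩
  refine Nat.Coprime.coprime_dvd_left (orderOf_dvd_of_pow_eq_one ?_) ((hp.out.coprime_iff_not_dvd.mpr hd).symm)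
  rw [← pow_mul, show p ^ e * c * d = p ^ e * d * c by ring, ← hed, pow_mul, pow_orderOf_eq_one, one_pow]

theorem main {M : Type*} [Group M] [Finite M] {p : ℕ} [Fact p.Prime] (hM : Cfsg.IsPSolvable p M)
    (A : Subgroup M) (hA : IsPGroup p A) (hΦ : (frattini ↥A).map A.subtype ≤ Cfsg.pCore p M)
    (hnot : ¬ A ≤ Cfsg.pCore p M) :
    ∃ x ∈ (Cfsg.pPrimeCore p (M ⧸ Cfsg.pCore p M)).comap (QuotientGroup.mk' (Cfsg.pCore p M)),
      x ∈ (Cfsg.pResidual p ↥(A ⊔ A.map (MulAut.conj x).toMonoidHom)).map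
        (A ⊔ A.map (MulAut.conj x).toMonoidHom).subtype ∧
      (Cfsg.pResidual p ↥(A ⊔ A.map (MulAut.conj x).toMonoidHom)).map
          (A ⊔ A.map (MulAut.conj x).toMonoidHom).subtype ≤
        (Cfsg.pPrimeCore p (M ⧸ Cfsg.pCore p M)).comap (QuotientGroup.mk' (Cfsg.pCore p M)) ∧
      ⁅(Cfsg.pResidual p ↥(A ⊔ A.map (MulAut.conj x).toMonoidHom)).map
          (A ⊔ A.map (MulAut.conj x).toMonoidHom).subtype, A⁆ =
        (Cfsg.pResidual p ↥(A ⊔ A.map (MulAut.conj x).toMonoidHom)).map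
          (A ⊔ A.map (MulAut.conj x).toMonoidHom).subtype ∧
      (A ⊓ (Cfsg.pCore p ↥(A ⊔ A.map (MulAut.conj x).toMonoidHom)).map
          (A ⊔ A.map (MulAut.conj x).toMonoidHom).subtype).relIndex A = p ∧
      ⁅A ⊓ (Cfsg.pCore p ↥(A ⊔ A.map (MulAut.conj x).toMonoidHom)).map
          (A ⊔ A.map (MulAut.conj x).toMonoidHom).subtype, A ⊔ A.map (MulAut.conj x).toMonoidHom⁆ ≤
        Cfsg.pCore p M := by
  classical
  have hp : p.Prime := Fact.out
  set R := Cfsg.pCore p M with hRdef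
  have hRn : R.Normal := Lib.LocalChar.pCore_normal
  have hRp : IsPGroup p R := Lib.Hall.isPGroup_pCore p
  let q := QuotientGroup.mk' R
  have hqs : Function.Surjective q := QuotientGroup.mk'_surjective R
  have hker : q.ker = R := QuotientGroup.ker_mk' R
  set Ab := A.map q with hAb
  have hAbp : IsPGroup p Ab := hA.map q
  have hAb1 : Ab ≠ ⊥ := fun h => hnot (by rw [hAb, Subgroup.map_eq_bot_iff, hker] at h; exact h)
  have hAc : ∀ a ∈ Ab, ∀ b ∈ Ab, a * b = b * a := by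
    rintro _ ⟨a, ha, rfl⟩ _ ⟨b, hb, rfl⟩
    rw [← map_mul, ← map_mul]
    have h1 : (⁅(⟨a, ha⟩ : ↥A), (⟨b, hb⟩ : ↥A)⁆ : ↥A) ∈ frattini ↥A :=
      Lib.PGroupFrattini.commutator_le_frattini hA (commutator_mem_commutator (mem_top _) (mem_top _))
    have h2 := (QuotientGroup.eq_one_iff _).mpr (hΦ (mem_map_of_mem A.subtype h1))
    simp only [commutatorElement_def, map_mul, map_inv, coe_subtype] at h2
    rw [← QuotientGroup.mk'_apply, map_mul, map_mul, map_mul, map_inv, map_inv, mul_inv_eq_one,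
      mul_inv_eq_iff_eq_mul] at h2
    rw [map_mul, map_mul]; exact h2
  have hAe : ∀ a ∈ Ab, a ^ p = 1 := by
    rintro _ ⟨a, ha, rfl⟩
    rw [← map_pow]
    exact (QuotientGroup.eq_one_iff _).mpr
      (hΦ (mem_map_of_mem A.subtype (Lib.PGroupFrattini.pow_mem_frattini hA (⟨a, ha⟩ : ↥A))))
  have hAI : IsMulCommutative Ab := ⟨⟨fun a b => Subtype.ext (hAc a a.2 b b.2)⟩⟩
  set K := Cfsg.pPrimeCore p (M ⧸ R) with hKdef
  have hKn : K.Normal := Subgroup.sSup_normal _ fun _ h => h.1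
  have hKcop : (Nat.card K).Coprime p := Lib.Hall.coprime_card_pPrimeCore p
  have hMq : Cfsg.IsPSolvable p (M ⧸ R) := Lib.Fusion.PSolvableModel.isPSolvable_of_surjective hqs hM
  have hCK : centralizer (K : Set (M ⧸ R)) ≤ K :=
    Lib.HallHigman.centralizer_pPrimeCore_le hMq Lib.PLength.pCore_quotient_pCore_eq_bot
  have hcopA : ∀ S : Subgroup (M ⧸ R), IsPGroup p S → ∀ T : Subgroup (M ⧸ R), T ≤ K →
      (Nat.card S).Coprime (Nat.card T) := by
    intro S hS T hT
    obtain ⟨e, he⟩ := IsPGroup.iff_card.mp hS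
    rw [he]
    exact ((hKcop.coprime_dvd_left (card_dvd_of_le hT)).pow_right e).symm
  -- a maximal subgroup `B` with `C_K(B)` not centralized by `Ab`
  obtain ⟨B, -, hB⟩ := Finite.exists_le_maximal
    (p := fun B : Subgroup (M ⧸ R) => B ≤ Ab ∧ ¬ Ab ≤ centralizer ((K ⊓ centralizer (B : Set (M ⧸ R)) : Subgroup _) : Set (M ⧸ R)))
    (a := (⊥ : Subgroup (M ⧸ R))) ⟨bot_le, fun h => hAb1 (le_bot_iff.mp (by
      have h1 : Ab ≤ centralizer (K : Set (M ⧸ R)) := h.trans (centralizer_le (le_inf le_rfl fun k _ =>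
        mem_centralizer_iff.mpr fun b hb => by rw [mem_bot.mp hb, one_mul, mul_one]))
      exact (le_inf le_rfl (h1.trans hCK)).trans (inf_eq_bot_of_coprime (hcopA _ hAbp K le_rfl)).le))⟩
  obtain ⟨hBA, hBK⟩ := hB.prop
  set KB := K ⊓ centralizer (B : Set (M ⧸ R)) with hKB
  have hAKB : Ab ≤ normalizer (KB : Set (M ⧸ R)) := by
    refine (le_inf le_normalizer_of_normal ((fun a ha => ?_) : Ab ≤ normalizer ((centralizer (B : Set (M ⧸ R)) : Subgroup _) : Set (M ⧸ R)))).trans inf_normalizer_le_normalizer_inf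
    exact le_normalizer (mem_centralizer_iff.mpr fun b hb => hAc b (hBA hb) a ha)
  have hBlt : B ≠ Ab := fun e => hBK (le_centralizer_iff.mp (e ▸ inf_le_right))
  obtain ⟨a0, ha0, ha0B⟩ := SetLike.exists_of_lt (lt_of_le_of_ne hBA hBlt)
  have hsupB : B ⊔ zpowers a0 = Ab := by
    by_contra hne
    obtain ⟨b0, hb0, hb0B⟩ := SetLike.exists_of_lt (lt_of_le_of_ne (sup_le hBA (zpowers_le.mpr ha0)) hne)
    let E := closure ({a0, b0} : Set (M ⧸ R))
    have hEA : E ≤ Ab := by rw [closure_le]; rintro _ (rfl | rfl) <;> assumption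
    have : IsMulCommutative E := ⟨⟨fun u v => Subtype.ext (hAc u (hEA u.2) v (hEA v.2))⟩⟩
    have hEB : ∀ e ∈ E, e ∈ B → e = 1 := by
      intro e he
      obtain ⟨i, j, rfl⟩ : ∃ i j : ℤ, a0 ^ i * b0 ^ j = e := by
        induction he using closure_induction with
        | mem u hu => rcases hu with rfl | rfl
                      · exact ⟨1, 0, by simp⟩
                      · exact ⟨0, 1, by simp⟩
        | one => exact ⟨0, 0, by simp⟩
        | mul u v _ _ hu hv =>
          obtain ⟨i, j, rfl⟩ := hu; obtain ⟨i', j', rfl⟩ := hv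
          refine ⟨i + i', j + j', ?_⟩
          rw [zpow_add, zpow_add]
          have := ((show Commute a0 b0 from hAc _ ha0 _ hb0).zpow_zpow i' j).eq
          calc a0 ^ i * a0 ^ i' * (b0 ^ j * b0 ^ j') = a0 ^ i * (a0 ^ i' * b0 ^ j) * b0 ^ j' := by group
            _ = a0 ^ i * (b0 ^ j * a0 ^ i') * b0 ^ j' := by rw [this]
            _ = _ := by group
        | inv u _ hu =>
          obtain ⟨i, j, rfl⟩ := hu
          refine ⟨-i, -j, ?_⟩
          rw [mul_inv_rev, zpow_neg, zpow_neg]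
          exact (((show Commute a0 b0 from hAc _ ha0 _ hb0).zpow_zpow i j).inv_inv).eq
      intro heB
      have root : ∀ (c : M ⧸ R) (k : ℤ), c ∈ Ab → ¬ (p : ℤ) ∣ k → ∀ S : Subgroup (M ⧸ R), c ^ k ∈ S → c ∈ S := by
        intro c k hc hk S hS
        obtain ⟨s, t, hst⟩ : IsCoprime k (p : ℤ) :=
          ((Nat.prime_iff_prime_int.mp hp).coprime_iff_not_dvd.mpr hk).symm
        have : c = (c ^ k) ^ s * (c ^ (p : ℤ)) ^ t := by
          rw [← zpow_mul, ← zpow_mul, ← zpow_add, mul_comm k, mul_comm (p : ℤ), hst, zpow_one]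
        rw [this]
        exact mul_mem (zpow_mem hS s) (zpow_mem (by rw [zpow_natCast, hAe c hc]; exact one_mem S) t)
      have zero : ∀ (c : M ⧸ R) (k : ℤ), c ∈ Ab → (p : ℤ) ∣ k → c ^ k = 1 := by
        rintro c _ hc ⟨d, rfl⟩; rw [zpow_mul, zpow_natCast, hAe c hc, one_zpow]
      have hj : (p : ℤ) ∣ j := by
        by_contra hj
        refine hb0B (root b0 j hb0 hj _ ?_)
        have h1 : b0 ^ j = (a0 ^ i)⁻¹ * (a0 ^ i * b0 ^ j) := by group
        rw [h1]
        exact mul_mem (mem_sup_right (inv_mem (zpow_mem (mem_zpowers a0) i))) (mem_sup_left heB)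
      rw [zero b0 j hb0 hj, mul_one] at heB ⊢
      by_cases hi : (p : ℤ) ∣ i
      · exact zero a0 i ha0 hi
      · exact absurd (root a0 i ha0 hi B heB) ha0B
    have hEc : ¬ IsCyclic E := by
      intro hc
      obtain ⟨g, hg⟩ := hc.exists_generator
      have hgo : Nat.card (zpowers (g : M ⧸ R)) ≤ p := by
        rw [Nat.card_zpowers]
        exact Nat.le_of_dvd hp.pos (orderOf_dvd_of_pow_eq_one (hAe _ (hEA g.2)))
      have hzp : ∀ w ∈ E, w ∈ zpowers (g : M ⧸ R) := fun w hw => by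
        obtain ⟨k, hk⟩ := mem_zpowers_iff.mp (hg ⟨w, hw⟩)
        exact ⟨k, by simpa using congrArg Subtype.val hk⟩
      have ha01 : a0 ≠ 1 := fun e => ha0B (e ▸ one_mem B)
      have hoa : orderOf a0 = p := ((Nat.dvd_prime hp).mp (orderOf_dvd_of_pow_eq_one (hAe _ ha0))).resolve_left
        (by rwa [orderOf_eq_one_iff])
      have heq : zpowers a0 = zpowers (g : M ⧸ R) := eq_of_le_of_card_ge
        (zpowers_le.mpr (hzp _ (subset_closure (Set.mem_insert _ _))))
        (by rw [Nat.card_zpowers a0, hoa]; exact hgo)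
      exact hb0B (mem_sup_right (heq.ge (hzp _ (subset_closure (Set.mem_insert_of_mem _ rfl)))))
    have hfg := Lib.Coprime.fixGen_eq (A := E) (K := KB) hEc (hEA.trans hAKB)
      ((hcopA _ hAbp KB inf_le_left).coprime_dvd_left (card_dvd_of_le hEA))
    refine hBK (le_centralizer_iff.mp ?_)
    rw [← hfg]
    refine iSup₂_le fun e he => ?_
    by_contra hle
    have hgood : B ⊔ zpowers e ≤ Ab ∧
        ¬ Ab ≤ centralizer ((K ⊓ centralizer ((B ⊔ zpowers e : Subgroup _) : Set (M ⧸ R)) : Subgroup _) : Set (M ⧸ R)) := by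
      refine ⟨sup_le hBA (zpowers_le.mpr (hEA he.1)), fun hc => hle (le_trans ?_ (le_centralizer_iff.mp hc))⟩
      rintro k ⟨hk, hke⟩
      refine ⟨hk.1, ?_⟩
      have : B ⊔ zpowers e ≤ centralizer ({k} : Set (M ⧸ R)) := sup_le
        (fun b hb => mem_centralizer_singleton_iff.mpr (mem_centralizer_iff.mp hk.2 b hb))
        (zpowers_le.mpr (mem_centralizer_singleton_iff.mpr (mem_centralizer_singleton_iff.mp hke).symm))
      exact mem_centralizer_iff.mpr fun u hu => mem_centralizer_singleton_iff.mp (this hu)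
    have := hB.le_of_ge hgood le_sup_left
    exact he.2 (hEB e he.1 (this (mem_sup_right (mem_zpowers e))))
  -- a minimal invariant subgroup of `KB` not centralized by `Ab`
  obtain ⟨Q, hQKB, hQmin⟩ := Finite.exists_le_minimal
    (p := fun Q : Subgroup (M ⧸ R) => Q ≤ KB ∧ Ab ≤ normalizer (Q : Set (M ⧸ R)) ∧ ¬ Ab ≤ centralizer (Q : Set (M ⧸ R)))
    (a := KB) ⟨le_rfl, hAKB, hBK⟩
  obtain ⟨-, hAQ, hQnc⟩ := hQmin.prop
  have hQK : Q ≤ K := hQKB.trans inf_le_left
  have hQB : ∀ v ∈ Q, ∀ b ∈ B, b * v = v * b := fun v hv b hb => mem_centralizer_iff.mp (hQKB hv).2 b hb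
  obtain ⟨v, hv, hva⟩ : ∃ v ∈ Q, a0 * v ≠ v * a0 := by
    by_contra h
    push Not at h
    refine hQnc ?_
    rw [← hsupB]
    refine sup_le (fun b hb => mem_centralizer_iff.mpr fun v hv => (hQB v hv b hb).symm) ?_
    exact zpowers_le.mpr (mem_centralizer_iff.mpr fun v hv => (h v hv).symm)
  obtain ⟨m0, hm0⟩ := hqs v
  obtain ⟨x, hxv, hxmin⟩ : ∃ x : M, q x = v ∧ ∀ y : M, q y = v →
      Nat.card (A ⊔ A.map (MulAut.conj x).toMonoidHom : Subgroup M) ≤
        Nat.card (A ⊔ A.map (MulAut.conj y).toMonoidHom : Subgroup M) := by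
    have hne : ((Set.toFinite {y : M | q y = v}).toFinset).Nonempty := ⟨m0, by simp [hm0]⟩
    obtain ⟨x, hx, hmin⟩ := Finset.exists_min_image _
      (fun y => Nat.card (A ⊔ A.map (MulAut.conj y).toMonoidHom : Subgroup M)) hne
    exact ⟨x, by simpa using hx, fun y hy => hmin y (by simpa using hy)⟩
  -- the image of `L`
  have himg : ∀ y : M, q y = v → Q ≤ (A ⊔ A.map (MulAut.conj y).toMonoidHom).map q := by
    intro y hy
    set Lb := (A ⊔ A.map (MulAut.conj y).toMonoidHom).map q with hLb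
    have hALb : Ab ≤ Lb := map_mono le_sup_left
    by_contra hne
    have hTQ : ¬ Q ≤ Q ⊓ Lb := fun h => hne (h.trans inf_le_right)
    have hT : Ab ≤ centralizer ((Q ⊓ Lb : Subgroup _) : Set (M ⧸ R)) := by
      by_contra hn
      exact hTQ (hQmin.le_of_le ⟨inf_le_left.trans hQKB,
        (le_inf hAQ (hALb.trans le_normalizer)).trans inf_normalizer_le_normalizer_inf, hn⟩ inf_le_left)
    obtain ⟨a1, ha1, ha1q⟩ := ha0
    have hc : v * a0 * v⁻¹ * a0⁻¹ ∈ Q ⊓ Lb := by
      refine ⟨?_, ?_⟩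
      · rw [show v * a0 * v⁻¹ * a0⁻¹ = v * (a0 * v⁻¹ * a0⁻¹) by group]
        exact Q.mul_mem hv ((mem_normalizer_iff.mp (hAQ (ha1q ▸ mem_map_of_mem q ha1)) _).mp (Q.inv_mem hv))
      · refine Lb.mul_mem ?_ (Lb.inv_mem (hALb (ha1q ▸ mem_map_of_mem q ha1)))
        refine ⟨y * a1 * y⁻¹, mem_sup_right ⟨a1, ha1, rfl⟩, ?_⟩
        rw [map_mul, map_mul, map_inv, hy, ha1q]
    set c := v * a0 * v⁻¹ * a0⁻¹ with hcdef
    have hca : Commute a0 c := (mem_centralizer_iff.mp (hT (ha1q ▸ mem_map_of_mem q ha1)) c hc).symm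
    have h2 : (v * a0 * v⁻¹) ^ p = 1 := by
      rw [conj_pow, hAe a0 (ha1q ▸ mem_map_of_mem q ha1), mul_one, mul_inv_cancel]
    rw [show v * a0 * v⁻¹ = c * a0 by rw [hcdef]; group, hca.symm.mul_pow,
      hAe a0 (ha1q ▸ mem_map_of_mem q ha1), mul_one] at h2
    have h3 : orderOf c = 1 := Nat.eq_one_of_dvd_coprimes
      ((hKcop.coprime_dvd_left (card_dvd_of_le hQK)))
      (orderOf_dvd_natCard Q hc.1) (orderOf_dvd_of_pow_eq_one h2)
    rw [orderOf_eq_one_iff, hcdef, mul_inv_eq_one, mul_inv_eq_iff_eq_mul] at h3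
    exact hva h3.symm
  set L := A ⊔ A.map (MulAut.conj x).toMonoidHom with hL
  have hAL : A ≤ L := le_sup_left
  -- replace `x` by the `p'`-part of a preimage in `L`
  obtain ⟨y0, hy0, hy0v⟩ := himg x hxv hv
  obtain ⟨k, hk1, hk2⟩ := exists_p'_pow (p := p) y0
    (hKcop.coprime_dvd_left (orderOf_dvd_natCard K (hQK hv)))
  set z := y0 ^ k with hz
  have hzL : z ∈ L := L.pow_mem hy0 k
  have hzv : q z = v := by
    rw [hz, map_pow, hy0v]
    calc v ^ k = v ^ 1 := pow_eq_pow_iff_modEq.mpr hk2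
      _ = v := pow_one v
  have hLz : A ⊔ A.map (MulAut.conj z).toMonoidHom = L := by
    refine eq_of_le_of_card_ge (sup_le hAL ?_) (hxmin z hzv)
    rintro _ ⟨a, ha, rfl⟩
    exact L.mul_mem (L.mul_mem hzL (hAL ha)) (L.inv_mem hzL)
  have hzK : z ∈ K.comap q := by rw [mem_comap, hzv]; exact hQK hv
  refine ⟨z, hzK, ?_⟩
  rw [hLz]
  set O := (Cfsg.pResidual p ↥L).map L.subtype with hO
  have hOgen : ∀ g : M, g ∈ L → (orderOf g).Coprime p → g ∈ O := fun g hg hco =>
    ⟨⟨g, hg⟩, subset_closure (show (orderOf (⟨g, hg⟩ : ↥L)).Coprime p by rwa [Subgroup.orderOf_mk]), rfl⟩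
  have hzO : z ∈ O := hOgen z hzL hk1
  -- the image of `L` lies in `Q` times `Ab`
  have hLQA : L.map q ≤ Q ⊔ Ab := by
    rw [← hLz, Subgroup.map_sup]
    refine sup_le le_sup_right ?_
    rintro _ ⟨_, ⟨a, ha, rfl⟩, rfl⟩
    simp only [MulEquiv.coe_toMonoidHom, MulAut.conj_apply, map_mul, map_inv, hzv]
    exact mul_mem (mul_mem (mem_sup_left hv) (mem_sup_right (mem_map_of_mem q ha))) (inv_mem (mem_sup_left hv))
  have hOQ : O.map q ≤ Q := by
    rw [hO, Cfsg.pResidual, MonoidHom.map_closure, MonoidHom.map_closure, closure_le]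
    rintro _ ⟨_, ⟨g, hg, rfl⟩, rfl⟩
    have hgo : (orderOf (q (g : M))).Coprime p :=
      (show (orderOf g).Coprime p from hg).coprime_dvd_left ((orderOf_map_dvd q (g : M)).trans (orderOf_coe g).dvd)
    have hmem := hLQA (mem_map_of_mem q g.2)
    rw [sup_comm] at hmem
    obtain ⟨a, ha, w, hw, haw⟩ := (Lib.Coprime.mem_sup_of_le_normalizer hAQ).mp hmem
    have hpow : ∀ n : ℕ, (a * w) ^ n * (a ^ n)⁻¹ ∈ Q := by
      intro n
      induction n with
      | zero => simp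
      | succ n ih =>
        rw [pow_succ, pow_succ,
          show (a * w) ^ n * (a * w) * (a ^ n * a)⁻¹ =
            ((a * w) ^ n * (a ^ n)⁻¹) * ((a ^ n * a) * w * (a ^ n * a)⁻¹) by group]
        exact Q.mul_mem ih ((mem_normalizer_iff.mp (hAQ (Ab.mul_mem (Ab.pow_mem ha n) ha)) w).mp hw)
    have h1 := hpow (orderOf (q (g : M)))
    rw [haw, pow_orderOf_eq_one, one_mul] at h1
    have ha1 : a ^ orderOf (q (g : M)) = 1 := by
      have h2 := inf_eq_bot_of_coprime (hcopA _ hAbp Q hQK)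
      have h3 : a ^ orderOf (q (g : M)) ∈ Ab ⊓ Q := ⟨Ab.pow_mem ha _, Q.inv_mem_iff.mp h1⟩
      rwa [h2, mem_bot] at h3
    have h4 : orderOf a = 1 :=
      Nat.eq_one_of_dvd_coprimes hgo (orderOf_dvd_of_pow_eq_one ha1) (orderOf_dvd_of_pow_eq_one (hAe a ha))
    show q (g : M) ∈ Q
    rw [← haw, orderOf_eq_one_iff.mp h4, one_mul]
    exact hw
  refine ⟨hzO, fun g hg => mem_comap.mpr (hQK (hOQ (mem_map_of_mem q hg))), ?_, ?_⟩
  · -- `[O, A] = O`
    have hOn : L ≤ normalizer (O : Set M) := by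
      intro l hl
      refine Lib.Coprime.mem_normalizer_of_conj_smul_eq (eq_of_le_of_card_ge ?_
        (Nat.card_congr (equivSMul (MulAut.conj l) O).toEquiv).le)
      intro g hg
      rw [Lib.Coprime.mem_conj_smul] at hg
      have hn : (Cfsg.pResidual p ↥L).Normal := by
        refine ⟨fun a ha b => ?_⟩
        induction ha using closure_induction with
        | mem u hu =>
          refine subset_closure ?_
          show (orderOf (MulAut.conj b u)).Coprime p
          rwa [MulEquiv.orderOf_eq]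
        | one => simp
        | mul u w _ _ hu hw => rw [← conj_mul]; exact mul_mem hu hw
        | inv u _ hu => rw [← conj_inv]; exact inv_mem hu
      obtain ⟨o, ho, hog⟩ := hg
      rw [coe_subtype] at hog
      refine ⟨⟨l, hl⟩ * o * (⟨l, hl⟩ : ↥L)⁻¹, hn.conj_mem o ho _, ?_⟩
      rw [coe_subtype, coe_mul, coe_mul, InvMemClass.coe_inv, hog]
      group
    set D := ⁅O, A⁆ with hD
    have hDO : D ≤ O := Lib.Coprime.commutator_le_of_le_normalizer' (hAL.trans hOn)
    have hDL : L ≤ normalizer (D : Set M) := by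
      rw [← hLz]
      refine sup_le (Lib.Coprime.right_le_normalizer_commutator O A) ?_
      rintro _ ⟨a, ha, rfl⟩
      have hzN : z ∈ normalizer (D : Set M) := Lib.Coprime.left_le_normalizer_commutator O A hzO
      exact mul_mem (mul_mem hzN (Lib.Coprime.right_le_normalizer_commutator O A ha)) (inv_mem hzN)
    refine le_antisymm hDO ?_
    have hLDA : L ≤ D ⊔ A := by
      rw [← hLz]
      refine sup_le le_sup_right ?_
      rintro _ ⟨a, ha, rfl⟩
      show z * a * z⁻¹ ∈ D ⊔ A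
      rw [show z * a * z⁻¹ = ⁅z, a⁆ * a by rw [commutatorElement_def]; group]
      exact mul_mem (mem_sup_left (commutator_mem_commutator hzO ha)) (mem_sup_right ha)
    rw [hO, Cfsg.pResidual, MonoidHom.map_closure, closure_le]
    rintro _ ⟨g, hg, rfl⟩
    have hgDA := hLDA g.2
    rw [sup_comm] at hgDA
    obtain ⟨a, ha, d, hd, had⟩ := (Lib.Coprime.mem_sup_of_le_normalizer (hAL.trans hDL)).mp hgDA
    have hpow : ∀ n : ℕ, (a * d) ^ n * (a ^ n)⁻¹ ∈ D := by
      intro n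
      induction n with
      | zero => simp
      | succ n ih =>
        rw [pow_succ, pow_succ,
          show (a * d) ^ n * (a * d) * (a ^ n * a)⁻¹ =
            ((a * d) ^ n * (a ^ n)⁻¹) * ((a ^ n * a) * d * (a ^ n * a)⁻¹) by group]
        exact D.mul_mem ih
          ((mem_normalizer_iff.mp ((hAL.trans hDL) (A.mul_mem (A.pow_mem ha n) ha)) d).mp hd)
    have h1 := hpow (orderOf g)
    rw [had, ← orderOf_coe, pow_orderOf_eq_one, one_mul, orderOf_coe] at h1
    have haD : a ∈ D := by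
      obtain ⟨e, he⟩ := hA ⟨a, ha⟩
      have hae : a ^ p ^ e = 1 := by simpa using congrArg Subtype.val he
      obtain ⟨s, t, hst⟩ : IsCoprime ((orderOf g : ℕ) : ℤ) ((p ^ e : ℕ) : ℤ) :=
        Nat.isCoprime_iff_coprime.mpr ((show (orderOf g).Coprime p from hg).pow_right e)
      have h : a = (a ^ ((orderOf g : ℕ) : ℤ)) ^ s * (a ^ ((p ^ e : ℕ) : ℤ)) ^ t := by
        rw [← zpow_mul, ← zpow_mul, ← zpow_add, mul_comm ((orderOf g : ℕ) : ℤ), mul_comm ((p ^ e : ℕ) : ℤ), hst,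
          zpow_one]
      rw [h, zpow_natCast, zpow_natCast, hae]
      exact mul_mem (zpow_mem (inv_mem_iff.mp h1) s) (by simp)
    show (g : M) ∈ D
    rw [← had]
    exact mul_mem haD hd
  -- the intersection with `O_p(L)`
  have hLbQ : Q ≤ L.map q := hLz ▸ himg z hzv
  have hBcent : B ≤ centralizer ((L.map q : Subgroup _) : Set (M ⧸ R)) := by
    refine le_trans ?_ (centralizer_le (show ((L.map q : Subgroup _) : Set (M ⧸ R)) ⊆ (Q ⊔ Ab : Subgroup _) from hLQA))
    refine le_centralizer_iff.mp (sup_le ?_ ?_)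
    · exact fun w hw => mem_centralizer_iff.mpr fun b hb => hQB w hw b hb
    · exact fun w hw => mem_centralizer_iff.mpr fun b hb => hAc b (hBA hb) w hw
  set P := (Cfsg.pCore p ↥L).map L.subtype with hP
  have hPp : IsPGroup p P := (Lib.Hall.isPGroup_pCore p).map _
  have hPn : (Cfsg.pCore p ↥L).Normal := Lib.LocalChar.pCore_normal
  have hAP : A ⊓ P = A ⊓ B.comap q := by
    refine le_antisymm ?_ ?_
    · intro a ha
      refine ⟨ha.1, ?_⟩
      show q a ∈ B
      by_contra haB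
      obtain ⟨⟨a', ha'L⟩, ha', rfl⟩ := ha.2
      simp only [coe_subtype] at haB
      -- `q a'` centralizes `Q`
      have hcent : ∀ w ∈ Q, q a' * w = w * q a' := by
        intro w hw
        obtain ⟨l, hl, rfl⟩ := hLbQ hw
        set c := q a' * q l * (q a')⁻¹ * (q l)⁻¹ with hc
        have hcQ : c ∈ Q := Q.mul_mem ((mem_normalizer_iff.mp (hAQ (mem_map_of_mem q ha.1)) _).mp hw) (Q.inv_mem hw)
        have hcP : c ∈ P.map q := by
          refine ⟨a' * l * a'⁻¹ * l⁻¹, ?_, by rw [hc, map_mul, map_mul, map_mul, map_inv, map_inv]⟩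
          refine ⟨(⟨a', ha'L⟩ : ↥L) * ⟨l, hl⟩ * (⟨a', ha'L⟩ : ↥L)⁻¹ * (⟨l, hl⟩ : ↥L)⁻¹, ?_, rfl⟩
          rw [mul_assoc, mul_assoc]
          exact mul_mem ha' (by rw [← mul_assoc]; exact hPn.conj_mem _ (inv_mem ha') _)
        have h2 := inf_eq_bot_of_coprime (hcopA _ (hPp.map q) Q hQK)
        have h3 : c ∈ P.map q ⊓ Q := ⟨hcP, hcQ⟩
        rw [h2, mem_bot, hc, mul_inv_eq_one, mul_inv_eq_iff_eq_mul] at h3
        exact h3
      refine hQnc ?_
      have hne : ¬ B ⊔ zpowers (q a') ≤ B := fun h => haB (h (mem_sup_right (mem_zpowers _)))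
      have htop : B ⊔ zpowers (q a') = Ab := by
        refine le_antisymm (sup_le hBA (zpowers_le.mpr (mem_map_of_mem q ha.1))) ?_
        refine hsupB.ge.trans (sup_le le_sup_left (zpowers_le.mpr ?_))
        -- `q a'` is a power of `a0` modulo `B`
        have hq : q a' ∈ B ⊔ zpowers a0 := hsupB.ge (mem_map_of_mem q ha.1)
        have hBn : zpowers a0 ≤ normalizer (B : Set (M ⧸ R)) := zpowers_le.mpr
          (Subgroup.centralizer_le_normalizer _ (mem_centralizer_iff.mpr fun b hb => hAc b (hBA hb) a0 ha0))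
        rw [sup_comm] at hq
        obtain ⟨_, ⟨i, rfl⟩, b, hb, hib⟩ := (Lib.Coprime.mem_sup_of_le_normalizer hBn).mp hq
        simp only at hib
        have hi : ¬ (p : ℤ) ∣ i := fun ⟨d, hd⟩ => haB (by
          rw [← hib, hd, zpow_mul, zpow_natCast, hAe a0 ha0, one_zpow, one_mul]; exact hb)
        obtain ⟨s, t, hst⟩ : IsCoprime i (p : ℤ) :=
          ((Nat.prime_iff_prime_int.mp hp).coprime_iff_not_dvd.mpr hi).symm
        have hai : a0 ^ i ∈ B ⊔ zpowers (q a') := by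
          rw [show a0 ^ i = q a' * b⁻¹ by rw [← hib, mul_inv_cancel_right]]
          exact mul_mem (mem_sup_right (mem_zpowers _)) (mem_sup_left (inv_mem hb))
        have : a0 = (a0 ^ i) ^ s * (a0 ^ (p : ℤ)) ^ t := by
          rw [← zpow_mul, ← zpow_mul, ← zpow_add, mul_comm i, mul_comm (p : ℤ), hst, zpow_one]
        rw [this]
        exact mul_mem (zpow_mem hai s) (zpow_mem (by rw [zpow_natCast, hAe a0 ha0]; exact one_mem _) t)
      rw [← htop]
      exact sup_le (fun b hb => mem_centralizer_iff.mpr fun w hw => (hQB w hw b hb).symm)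
        (zpowers_le.mpr (mem_centralizer_iff.mpr fun w hw => (hcent w hw).symm))
    · -- `L ∩ q⁻¹(B)` is a normal `p`-subgroup of `L`
      intro a ha
      refine ⟨ha.1, ?_⟩
      have hBp : IsPGroup p (B.comap q) := (hAbp.to_le hBA).comap_of_ker_isPGroup q (hker.symm ▸ hRp)
      let S : Subgroup ↥L := (B.comap q).subgroupOf L
      have hSn : S.Normal := ⟨fun s hs l => by
        show q ((l : M) * (s : M) * (l : M)⁻¹) ∈ B
        rw [map_mul, map_mul, map_inv, mem_centralizer_iff.mp (hBcent (show q (s : M) ∈ B from hs)) (q l) (mem_map_of_mem q l.2),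
          mul_inv_cancel_right]
        exact hs⟩
      have hSp : IsPGroup p S := by
        intro s
        obtain ⟨k, hk⟩ := hBp ⟨((s : ↥L) : M), s.2⟩
        exact ⟨k, Subtype.ext (Subtype.ext (by simpa using congrArg Subtype.val hk))⟩
      exact ⟨⟨a, hAL ha.1⟩, Lib.Hall.le_pCore hSp ha.2, rfl⟩
  rw [hAP]
  refine ⟨?_, ?_⟩
  · rw [inf_relIndex_left, relIndex_comap, ← hAb]
    have hBn : zpowers a0 ≤ normalizer (B : Set (M ⧸ R)) := zpowers_le.mpr
      (Subgroup.centralizer_le_normalizer _ (mem_centralizer_iff.mpr fun b hb => hAc b (hBA hb) a0 ha0))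
    have h1 := Lib.Coprime.card_sup_mul_card_inf_of_le_normalizer hBn
    have hinf : zpowers a0 ⊓ B = ⊥ := by
      rw [eq_bot_iff]
      rintro _ ⟨⟨i, rfl⟩, hi⟩
      rw [mem_bot]
      by_cases hpi : (p : ℤ) ∣ i
      · obtain ⟨d, rfl⟩ := hpi; simp only; rw [zpow_mul, zpow_natCast, hAe a0 ha0, one_zpow]
      · refine absurd ?_ ha0B
        obtain ⟨s, t, hst⟩ : IsCoprime i (p : ℤ) :=
          ((Nat.prime_iff_prime_int.mp hp).coprime_iff_not_dvd.mpr hpi).symm
        have : a0 = (a0 ^ i) ^ s * (a0 ^ (p : ℤ)) ^ t := by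
          rw [← zpow_mul, ← zpow_mul, ← zpow_add, mul_comm i, mul_comm (p : ℤ), hst, zpow_one]
        rw [this]
        exact B.mul_mem (B.zpow_mem hi s) (B.zpow_mem (by rw [zpow_natCast, hAe a0 ha0]; exact B.one_mem) t)
    rw [hinf, card_bot, mul_one, sup_comm, hsupB, Nat.card_zpowers] at h1
    have hoa : orderOf a0 = p := ((Nat.dvd_prime hp).mp (orderOf_dvd_of_pow_eq_one (hAe _ ha0))).resolve_left
      (by rw [orderOf_eq_one_iff]; exact fun e => ha0B (e ▸ one_mem B))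
    have h2 := card_mul_index (B.subgroupOf Ab)
    rw [Nat.card_congr (subgroupOfEquivOfLe hBA).toEquiv, h1, hoa, mul_comm p] at h2
    exact Nat.eq_of_mul_eq_mul_left Nat.card_pos h2
  · rw [commutator_le]
    intro a ha l hl
    show ⁅a, l⁆ ∈ R
    rw [← hker, MonoidHom.mem_ker, map_commutatorElement, commutatorElement_eq_one_iff_mul_comm]
    exact (mem_centralizer_iff.mp (hBcent ha.2) (q l) (mem_map_of_mem q hl)).symm

end

/-- Let M be a finite p-soluble group and A a p-subgroup of M with Φ(A) ≤ O_p(M) but A ≰ O_p(M). Then there is x ∈ O_{p,p'}(M) such that L = ⟨A, xAx⁻¹⟩ satisfies: x ∈ O^p(L) and O^p(L) ≤ O_{p,p'}(M); [O^p(L), A] = O^p(L); A ∩ O_p(L) has index p in A; and [A ∩ O_p(L), L] ≤ O_p(M). Here O^p(L) is the subgroup generated by the p'-elements of L and O_{p,p'}(M) the preimage of O_{p'}(M/O_p(M)). -/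
theorem result {M : Type*} [Group M] [Finite M] {p : ℕ} [Fact p.Prime] (hM : Cfsg.IsPSolvable p M) (A : Subgroup M) (hA : IsPGroup p A) (hΦ : (frattini ↥A).map A.subtype ≤ Cfsg.pCore p M) (hnot : ¬ A ≤ Cfsg.pCore p M) : ∃ x ∈ (Cfsg.pPrimeCore p (M ⧸ Cfsg.pCore p M)).comap (QuotientGroup.mk' (Cfsg.pCore p M)), x ∈ (Cfsg.pResidual p ↥(A ⊔ A.map (MulAut.conj x).toMonoidHom)).map (A ⊔ A.map (MulAut.conj x).toMonoidHom).subtype ∧ (Cfsg.pResidual p ↥(A ⊔ A.map (MulAut.conj x).toMonoidHom)).map (A ⊔ A.map (MulAut.conj x).toMonoidHom).subtype ≤ (Cfsg.pPrimeCore p (M ⧸ Cfsg.pCore p M)).comap (QuotientGroup.mk' (Cfsg.pCore p M)) ∧ ⁅(Cfsg.pResidual p ↥(A ⊔ A.map (MulAut.conj x).toMonoidHom)).map (A ⊔ A.map (MulAut.conj x).toMonoidHom).subtype, A⁆ = (Cfsg.pResidual p ↥(A ⊔ A.map (MulAut.conj x).toMonoidHom)).map (A ⊔ A.map (MulAut.conj x).toMonoidHom).subtype ∧ (A ⊓ (Cfsg.pCore p ↥(A ⊔ A.map (MulAut.conj x).toMonoidHom)).map (A ⊔ A.map (MulAut.conj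 x).toMonoidHom).subtype).relIndex A = p ∧ ⁅A ⊓ (Cfsg.pCore p ↥(A ⊔ A.map (MulAut.conj x).toMonoidHom)).map (A ⊔ A.map (MulAut.conj x).toMonoidHom).subtype, A ⊔ A.map (MulAut.conj x).toMonoidHom⁆ ≤ Cfsg.pCore p M := by
  exact main hM A hA hΦ hnot

end Cfsg.Agent.S3754
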