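import Cfsg.Statements.S3755
import Cfsg.Agent.Lib.Components.Dihedral
import Cfsg.Agent.Lib.Components.Local
import Cfsg.Prelude.Def_LocalEven

set_option autoImplicit false
open Cfsg

namespace Cfsg.Agent.S3755

open Subgroup
open scoped commutatorElement

section

variable {X : Type*} [Group X] [Finite X]

theorem inv_eq {A : Subgroup X} (hA : Cfsg.IsElementaryAbelian 2 A) {a : X} (ha : a ∈ A) : a⁻¹ = a :=
  Lib.Components.Dihedral.inv_eq hA ha

/-- An inverted element of order three gives a section isomorphic to the symmetric group of degree 3. -/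
theorem involves_S3 {M : Subgroup X} {b x : X} (hbM : b ∈ M) (hxM : x ∈ M) (hx : orderOf x = 3)
    (hb1 : b ≠ 1) (hb : b * b = 1) (hinv : b * x * b = x⁻¹) : Cfsg.Involves (Equiv.Perm (Fin 3)) ↥M := by
  classical
  set b' : ↥M := ⟨b, hbM⟩ with hb'
  set x' : ↥M := ⟨x, hxM⟩ with hx'
  have hbo : orderOf b' = 2 := orderOf_eq_prime (Subtype.ext (by simpa [pow_two] using hb))
    (fun h => hb1 (congrArg Subtype.val h))
  have hxo : orderOf x' = 3 := by rw [hx', Subgroup.orderOf_mk, hx]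
  have hbinv : b'⁻¹ = b' := inv_eq_of_mul_eq_one_right (Subtype.ext hb)
  have hinv' : b' * x' * b' = x'⁻¹ := Subtype.ext hinv
  set K : Subgroup ↥M := zpowers b' ⊔ zpowers x' with hK
  have hn : zpowers b' ≤ normalizer (zpowers x' : Set ↥M) := by
    refine zpowers_le.mpr (mem_normalizer_iff_map_conj_eq.mpr ?_)
    rw [MonoidHom.map_zpowers]
    show zpowers (b' * x' * b'⁻¹) = zpowers x'
    rw [hbinv, hinv', zpowers_inv]
  have hcard : Nat.card K = 6 := by
    rw [hK, Lib.Coprime.card_sup_of_coprime hn (by rw [Nat.card_zpowers, Nat.card_zpowers, hbo, hxo]; decide),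
      Nat.card_zpowers, Nat.card_zpowers, hbo, hxo]
  have hbK : b' ∈ K := mem_sup_left (mem_zpowers b')
  have hxK : x' ∈ K := mem_sup_right (mem_zpowers x')
  let H : Subgroup ↥K := zpowers (⟨b', hbK⟩ : ↥K)
  have hHc : Nat.card H = 2 := by rw [Nat.card_zpowers, Subgroup.orderOf_mk, hbo]
  have hidx : H.index = 3 := by
    have h := H.card_mul_index
    rw [hHc, hcard] at h
    omega
  have hcore : H.normalCore = ⊥ := by
    by_contra hne
    have hle : Nat.card H.normalCore ∣ 2 := hHc ▸ card_dvd_of_le (normalCore_le H)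
    rcases (Nat.dvd_prime Nat.prime_two).mp hle with h | h
    · exact hne (card_eq_one.mp h)
    · have heq : H.normalCore = H := eq_of_le_of_card_ge (normalCore_le H) (by rw [h, hHc])
      have hbH : (⟨b', hbK⟩ : ↥K) ∈ H.normalCore := heq.ge (mem_zpowers _)
      have h1 := hbH ⟨x', hxK⟩
      obtain ⟨i, hi⟩ := h1
      have h2 : b' ^ i = x' * b' * x'⁻¹ := by simpa using congrArg Subtype.val hi
      have hb2 : b' ^ i = 1 ∨ b' ^ i = b' := by
        rcases Int.even_or_odd' i with ⟨j, rfl | rfl⟩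
        · exact Or.inl (by rw [zpow_mul, zpow_two, ← Subtype.ext_iff.mpr (show (b' * b' : ↥M).1 = (1 : ↥M).1 from hb)]; simp [show b' * b' = 1 from Subtype.ext hb])
        · exact Or.inr (by rw [zpow_add, zpow_mul, zpow_two, show b' * b' = 1 from Subtype.ext hb, one_zpow, zpow_one, one_mul])
      rcases hb2 with h3 | h3 <;> rw [h3] at h2
      · rw [eq_comm, mul_inv_eq_one, mul_eq_left] at h2
        exact hb1 (congrArg Subtype.val h2)
      · have h4 : x'⁻¹ = x' := by
          rw [← hinv']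
          calc b' * x' * b' = (x' * b' * x'⁻¹) * x' * b' := by rw [← h2]
            _ = x' * (b' * b') := by group
            _ = x' := by rw [show b' * b' = 1 from Subtype.ext hb, mul_one]
        have h5 : orderOf x' ∣ 2 := orderOf_dvd_of_pow_eq_one (by rw [pow_two]; nth_rw 1 [← h4]; exact inv_mul_cancel x')
        rw [hxo] at h5
        norm_num at h5
  let f := MulAction.toPermHom ↥K (↥K ⧸ H)
  have hinj : Function.Injective f := by
    rw [← MonoidHom.ker_eq_bot_iff, ← Subgroup.normalCore_eq_ker, hcore]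
  have hQ : Nat.card (↥K ⧸ H) = 3 := by rw [← index_eq_card, hidx]
  have hbij : Function.Bijective f := (Nat.bijective_iff_injective_and_card f).mpr
    ⟨hinj, by rw [Nat.card_perm, hQ, hcard]; rfl⟩
  let e0 : (↥K ⧸ H) ≃ Fin 3 := Finite.equivFinOfCardEq hQ
  have hn0 : ((⊥ : Subgroup ↥M).subgroupOf K).Normal := by rw [bot_subgroupOf]; infer_instance
  refine ⟨K, ⊥, hn0, ⟨?_⟩⟩
  exact ((QuotientGroup.quotientMulEquivOfEq (bot_subgroupOf K)).trans QuotientGroup.quotientBot).trans
    ((MulEquiv.ofBijective f hbij).trans e0.permCongrHom)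

/-- An inverted element of order at least five moves at least a quarter. -/
theorem four_le_relIndex {W : Subgroup X} (hW : Cfsg.IsElementaryAbelian 2 W) {b x : X} {q : ℕ}
    (hq : q.Prime) (hq5 : 5 ≤ q) (hx : orderOf x = q) (hinv : b * x * b = x⁻¹) (hb : b * b = 1)
    (hxW : x ∈ normalizer (W : Set X)) (hnc : ¬ W ≤ centralizer ({x} : Set X)) :
    4 ≤ (W ⊓ centralizer ({b} : Set X)).relIndex W := by
  by_contra hlt
  push Not at hlt
  set C1 := W ⊓ centralizer ({b} : Set X) with hC1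
  have h12 : C1.relIndex W ≤ 2 := by
    haveI : Fact (Nat.Prime 2) := ⟨Nat.prime_two⟩
    obtain ⟨k, hk⟩ := Lib.Components.Sig.card_eq_pow hW
    have hd : C1.relIndex W ∣ 2 ^ k := hk ▸ relIndex_dvd_card C1 W
    obtain ⟨j, -, hj⟩ := (Nat.dvd_prime_pow Nat.prime_two).mp hd
    rcases j with _ | _ | j
    · rw [hj]; norm_num
    · rw [hj]; norm_num
    · exfalso
      rw [hj] at hlt
      have : 2 ^ 2 ≤ 2 ^ (j + 1 + 1) := Nat.pow_le_pow_right (by norm_num) (by omega)
      omega
  set C2 := C1.map (MulAut.conj x).toMonoidHom with hC2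
  have hWx : W.map (MulAut.conj x).toMonoidHom = W := mem_normalizer_iff_map_conj_eq.mp hxW
  have h22 : C2.relIndex W ≤ 2 := by
    conv_lhs => rw [← hWx]
    rw [hC2, relIndex_map_map_of_injective _ _ (MulAut.conj x).injective]
    exact h12
  have hC : C1 ⊓ C2 ≤ W ⊓ centralizer ({x} : Set X) := by
    rintro w ⟨⟨hwW, hwb⟩, c, ⟨-, hcb⟩, rfl⟩
    refine ⟨hwW, mem_centralizer_singleton_iff.mpr ?_⟩
    have e1 : Commute (x * c * x⁻¹) b := mem_centralizer_singleton_iff.mp hwb
    have e2 : Commute c b := mem_centralizer_singleton_iff.mp hcb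
    have e3 : Commute (x * c * x⁻¹) (x * b * x⁻¹) := by
      show x * c * x⁻¹ * (x * b * x⁻¹) = x * b * x⁻¹ * (x * c * x⁻¹)
      calc x * c * x⁻¹ * (x * b * x⁻¹) = x * (c * b) * x⁻¹ := by group
        _ = x * (b * c) * x⁻¹ := by rw [e2.eq]
        _ = _ := by group
    have e4 : Commute (x * c * x⁻¹) ((x ^ 2)⁻¹) := by
      have h := e1.mul_right e3
      rwa [show b * (x * b * x⁻¹) = (x ^ 2)⁻¹ by
        rw [show b * (x * b * x⁻¹) = (b * x * b) * x⁻¹ by group, hinv, pow_two]; group] at h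
    obtain ⟨m, hm⟩ := hq.odd_of_ne_two (by omega)
    have e5 : x = ((x ^ 2) ^ m)⁻¹ := eq_inv_of_mul_eq_one_left (by
      rw [← pow_mul, ← pow_succ', ← hm, ← hx, pow_orderOf_eq_one])
    simp only [MulEquiv.coe_toMonoidHom, MulAut.conj_apply]
    conv_lhs => rw [e5]
    conv_rhs => rw [e5]
    have := ((e4.inv_right).pow_right m).inv_right
    rw [inv_inv] at this
    rw [← e5]
    have h6 : Commute (x * c * x⁻¹) x := by
      have := this
      rwa [← e5] at this
    exact h6.eq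
  set C := W ⊓ centralizer ({x} : Set X) with hCdef
  have h44 : C.relIndex W ≤ 4 := by
    refine (Nat.le_of_dvd (Nat.pos_of_ne_zero index_ne_zero_of_finite) (relIndex_dvd_of_le_left W hC)).trans ?_
    refine relIndex_inf_le.trans ?_
    exact Nat.mul_le_mul h12 h22
  refine hnc fun w hw => mem_centralizer_singleton_iff.mpr ?_
  -- the orbit of the coset of `w` under `x`
  set CW := C.subgroupOf W with hCW
  have hxC : ∀ v ∈ C, x * v * x⁻¹ = v := fun v hv => by
    rw [← mem_centralizer_singleton_iff.mp hv.2, mul_inv_cancel_right]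
  have hxW' : ∀ n : ℕ, x ^ n * w * (x ^ n)⁻¹ ∈ W := fun n =>
    (mem_normalizer_iff.mp ((normalizer (W : Set X)).pow_mem hxW n) w).mp hw
  let F : Fin q → ↥W ⧸ CW := fun n => QuotientGroup.mk ⟨x ^ (n : ℕ) * w * (x ^ (n : ℕ))⁻¹, hxW' n⟩
  have hcardQ : Nat.card (↥W ⧸ CW) ≤ 4 := h44
  have hninj : ¬ Function.Injective F := fun h => by
    have := Nat.card_le_card_of_injective F h
    rw [Nat.card_fin] at this
    omega
  simp only [Function.Injective, not_forall] at hninj
  obtain ⟨i, j, hij, hne⟩ := hninj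
  wlog hlt' : (i : ℕ) < (j : ℕ) generalizing i j
  · exact this j i hij.symm (Ne.symm hne) (lt_of_le_of_ne (not_lt.mp hlt') fun e => hne (Fin.ext e.symm))
  rw [QuotientGroup.eq] at hij
  set d := (j : ℕ) - (i : ℕ) with hd
  set c := (x ^ (i : ℕ) * w * (x ^ (i : ℕ))⁻¹)⁻¹ * (x ^ (j : ℕ) * w * (x ^ (j : ℕ))⁻¹) with hc
  have hcC : c ∈ C := hij
  set y := x ^ d with hy
  have hyc : y * c * y⁻¹ = c := by
    have hcx : Commute c x := mem_centralizer_singleton_iff.mp hcC.2
    rw [← (hcx.pow_right d).eq, mul_inv_cancel_right]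
  have hcc : c * c = 1 := by rw [← pow_two]; exact hW.2 c hcC.1
  set u := x ^ (i : ℕ) * w * (x ^ (i : ℕ))⁻¹ with hu
  have hyu : y * u * y⁻¹ = u * c := by
    rw [hc, hu, hy, hd, mul_inv_cancel_left]
    rw [← mul_assoc, ← mul_assoc, ← pow_add, mul_assoc _ (x ^ (i : ℕ))⁻¹, ← mul_inv_rev, ← pow_add,
      Nat.sub_add_cancel hlt'.le]
  have hn : ∀ n : ℕ, y ^ n * u * (y ^ n)⁻¹ = u * c ^ n := by
    intro n
    induction n with
    | zero => simp
    | succ n ih =>
      rw [pow_succ' y, mul_inv_rev, show y * y ^ n * u * ((y ^ n)⁻¹ * y⁻¹) = y * (y ^ n * u * (y ^ n)⁻¹) * y⁻¹ by group,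
        ih]
      calc y * (u * c ^ n) * y⁻¹ = (y * u * y⁻¹) * (y * c * y⁻¹) ^ n := by rw [conj_pow]; group
        _ = u * c ^ (n + 1) := by rw [hyu, hyc, mul_assoc, ← pow_succ']
  have h1 := hn q
  rw [hy, ← pow_mul, mul_comm d q, pow_mul, ← hx, pow_orderOf_eq_one, one_pow, one_mul, inv_one, mul_one,
    hx, left_eq_mul] at h1
  obtain ⟨m, hm⟩ := hq.odd_of_ne_two (by omega)
  have hc1 : c = 1 := by rwa [hm, pow_succ, pow_mul, pow_two, hcc, one_pow, one_mul] at h1
  have hyu' : Commute y u := by rw [hc1, mul_one] at hyu; exact mul_inv_eq_iff_eq_mul.mp hyu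
  have hxu : Commute x u := by
    have hdq : ¬ q ∣ d := fun h => by
      have := Nat.le_of_dvd (by omega) h
      have := j.2
      omega
    obtain ⟨e, he⟩ := exists_pow_eq_self_of_coprime (x := x) (n := d)
      (by rw [hx]; exact ((hq.coprime_iff_not_dvd.mpr hdq)).symm)
    have h := hyu'.pow_left e
    rwa [hy, he] at h
  have hxw : Commute x w := by
    have h := hxu
    show x * w = w * x
    have h' : x * (x ^ (i : ℕ) * w * (x ^ (i : ℕ))⁻¹) = x ^ (i : ℕ) * w * (x ^ (i : ℕ))⁻¹ * x := h.eq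
    have hxi : x * x ^ (i : ℕ) = x ^ (i : ℕ) * x := (Commute.self_pow x _).eq
    calc x * w = (x ^ (i : ℕ))⁻¹ * ((x ^ (i : ℕ) * x) * w * (x ^ (i : ℕ))⁻¹) * x ^ (i : ℕ) := by group
      _ = (x ^ (i : ℕ))⁻¹ * (x * (x ^ (i : ℕ) * w * (x ^ (i : ℕ))⁻¹)) * x ^ (i : ℕ) := by rw [← hxi]; group
      _ = (x ^ (i : ℕ))⁻¹ * (x ^ (i : ℕ) * w * (x ^ (i : ℕ))⁻¹ * x) * x ^ (i : ℕ) := by rw [h']
      _ = w * x := by group
  exact hxw.eq.symm

theorem bound {M V K : Subgroup X} (hV : Cfsg.IsElementaryAbelian 2 V)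
    (hMV : M ≤ normalizer (V : Set X)) (hfaith : M ⊓ centralizer (V : Set X) = ⊥) (hKM : K ≤ M)
    (hodd : (Nat.card K).Coprime 2) (hno : ¬ Cfsg.Involves (Equiv.Perm (Fin 3)) ↥M) :
    ∀ n : ℕ, ∀ A : Subgroup X, Nat.card A = n → A ≤ M → Cfsg.IsElementaryAbelian 2 A →
      A ≤ normalizer (K : Set X) → A ⊓ centralizer (K : Set X) = ⊥ →
      Nat.card A ^ 2 ≤ (V ⊓ centralizer (A : Set X)).relIndex V := by
  haveI : Fact (Nat.Prime 2) := ⟨Nat.prime_two⟩
  intro n
  induction n using Nat.strongRecOn with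
  | ind n ih =>
  intro A hn hAM hA hAK hAf
  by_cases hA1 : A = ⊥
  · rw [hA1, card_bot, one_pow]
    exact Nat.pos_of_ne_zero index_ne_zero_of_finite
  have hcop : (Nat.card A).Coprime (Nat.card K) := by
    obtain ⟨k, hk⟩ := Lib.Components.Sig.card_eq_pow hA
    rw [hk]
    exact Nat.Coprime.pow_left k hodd.symm
  have hKA : ¬ K ≤ centralizer (A : Set X) := fun h => hA1 (le_bot_iff.mp (hAf ▸ le_inf le_rfl (le_centralizer_iff.mp h)))
  obtain ⟨B, hBA, hBi, hB⟩ : ∃ B : Subgroup X, B ≤ A ∧ B.relIndex A ≤ 2 ∧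
      ¬ K ⊓ centralizer (B : Set X) ≤ centralizer (A : Set X) := by
    by_cases h4 : 2 ^ 2 ≤ Nat.card ↥A
    · by_contra hcon
      push Not at hcon
      exact hKA ((Lib.Components.Sig.gen_hyperplane hA h4 hcop hAK).trans
        (iSup_le fun H => hcon H H.2.1 H.2.2))
    · refine ⟨⊥, bot_le, ?_, fun h => hKA (le_trans (le_inf le_rfl ?_) h)⟩
      · rw [relIndex_bot_left]
        obtain ⟨k, hk⟩ := Lib.Components.Sig.card_eq_pow hA
        rw [hk] at h4 ⊢
        rcases k with _ | _ | k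
        · simp
        · simp
        · exact absurd (Nat.pow_le_pow_right (by norm_num) (by omega)) h4
      · intro y _
        exact mem_centralizer_iff.mpr fun z hz => by rw [mem_bot.mp hz, one_mul, mul_one]
  obtain ⟨y, ⟨hyK, hyB⟩, hyA⟩ := SetLike.not_le_iff_exists.mp hB
  obtain ⟨b, hb, hby⟩ : ∃ b ∈ A, b * y ≠ y * b := by
    by_contra h
    push Not at h
    exact hyA (mem_centralizer_iff.mpr h)
  have hbB : b ∉ B := fun h => hby (mem_centralizer_iff.mp hyB b h)
  have hi2 : B.relIndex A = 2 := by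
    have h0 : B.relIndex A ≠ 0 := index_ne_zero_of_finite
    have h1 : B.relIndex A ≠ 1 := fun e => hbB (relIndex_eq_one.mp e hb)
    omega
  have hbi : b⁻¹ = b := inv_eq hA hb
  have hbb : b * b = 1 := by rw [← pow_two]; exact hA.2 b hb
  set u := y⁻¹ * (b * y * b⁻¹) with hu
  have hu1 : u ≠ 1 := fun e => hby (mul_inv_eq_iff_eq_mul.mp (inv_mul_eq_one.mp e).symm)
  have huK : u ∈ K := K.mul_mem (K.inv_mem hyK) ((mem_normalizer_iff.mp (hAK hb) y).mp hyK)
  have hBu : ∀ c ∈ B, Commute c u := fun c hc => by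
    have h1 : Commute c y := mem_centralizer_iff.mp hyB c hc
    have h2 : Commute c b := Lib.Components.Sig.comm_of hA (hBA hc) hb
    exact h1.inv_right.mul_right ((h2.mul_right h1).mul_right h2.inv_right)
  have huinv : b * u * b⁻¹ = u⁻¹ := by
    rw [hu, hbi]
    calc b * (y⁻¹ * (b * y * b)) * b = b * y⁻¹ * b * y * (b * b) := by group
      _ = b⁻¹ * y⁻¹ * b⁻¹ * y := by rw [hbb, mul_one, hbi]
      _ = _ := by group
  obtain ⟨q, hq, hqd⟩ := Nat.exists_prime_and_dvd (n := orderOf u) (by rwa [ne_eq, orderOf_eq_one_iff])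
  set x := u ^ (orderOf u / q) with hx
  have hxo : orderOf x = q := orderOf_pow_orderOf_div (orderOf_pos u).ne' hqd
  have hxK : x ∈ K := K.pow_mem huK _
  have hxinv : b * x * b = x⁻¹ := by
    have h := congrArg (· ^ (orderOf u / q)) huinv
    simp only [conj_pow, inv_pow] at h
    rwa [hbi, ← hx] at h
  have hq2 : q ≠ 2 := by
    intro e
    have h := hodd.coprime_dvd_left ((hqd.trans (orderOf_dvd_natCard K huK)))
    rw [e] at h
    exact absurd h (by decide)
  have hb1 : b ≠ 1 := fun e => hbB (e ▸ B.one_mem)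
  have hq3 : q ≠ 3 := fun e => hno (involves_S3 (hAM hb) (hKM hxK) (hxo.trans e) hb1 hbb hxinv)
  have hq5 : 5 ≤ q := by
    have := hq.two_le
    by_contra h
    have : q = 4 := by omega
    subst this
    exact absurd hq (by norm_num)
  -- induction hypothesis for `B`
  have hBcard : Nat.card B * 2 = Nat.card A := hi2 ▸ Lib.Components.Sig.card_mul_relIndex hBA
  have hBf : B ⊓ centralizer (K : Set X) = ⊥ := le_bot_iff.mp (hAf ▸ inf_le_inf_right _ hBA)
  have hind := ih (Nat.card B) (by have := Nat.card_pos (α := ↥B); omega) B rfl (hBA.trans hAM)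
    (Lib.Components.Sig.elem_mono hA hBA) (hBA.trans hAK) hBf
  set W := V ⊓ centralizer (B : Set X) with hW
  have hWV : W ≤ V := inf_le_left
  have hxB : x ∈ centralizer (B : Set X) := mem_centralizer_iff.mpr fun c hc => ((hBu c hc).pow_right _).eq
  have hxN : x ∈ normalizer (W : Set X) := inf_normalizer_le_normalizer_inf
    ⟨hMV (hKM hxK), (le_normalizer (G := X)) hxB⟩
  have hnc : ¬ W ≤ centralizer ({x} : Set X) := by
    intro hle
    have hx1 : x ≠ 1 := fun e => hq.ne_one (by rw [← hxo, e, orderOf_one])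
    have hVp : IsPGroup 2 V := Lib.Components.Sig.elem_pGroup hV
    have hBp : IsPGroup 2 B := Lib.Components.Sig.elem_pGroup (Lib.Components.Sig.elem_mono hA hBA)
    have hD : (Nat.card ↥(zpowers x)).Coprime 2 := by
      rw [Nat.card_zpowers, hxo]; exact (Nat.coprime_primes hq Nat.prime_two).mpr hq2
    have h := Lib.Components.axb_coprime (D := zpowers x) hVp hBp (hBA.trans (hAM.trans hMV)) hD
      (commutator_eq_bot_iff_le_centralizer.mpr (zpowers_le.mpr hxB))
      (zpowers_le.mpr (hMV (hKM hxK)))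
      (commutator_eq_bot_iff_le_centralizer.mpr (zpowers_le.mpr (mem_centralizer_iff.mpr fun w hw =>
        (mem_centralizer_singleton_iff.mp (hle hw)))))
    rw [commutator_eq_bot_iff_le_centralizer, zpowers_le] at h
    exact hx1 (mem_bot.mp (hfaith ▸ ⟨hKM hxK, h⟩))
  have h4 := four_le_relIndex (Lib.Components.Sig.elem_mono hV hWV) hq hq5 hxo hxinv hbb hxN hnc
  have hle : V ⊓ centralizer (A : Set X) ≤ W ⊓ centralizer ({b} : Set X) := fun v hv =>
    ⟨⟨hv.1, centralizer_le hBA hv.2⟩, mem_centralizer_singleton_iff.mpr (mem_centralizer_iff.mp hv.2 b hb).symm⟩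
  have h5 : (W ⊓ centralizer ({b} : Set X)).relIndex V ≤ (V ⊓ centralizer (A : Set X)).relIndex V :=
    Nat.le_of_dvd (Nat.pos_of_ne_zero index_ne_zero_of_finite) (relIndex_dvd_of_le_left V hle)
  have h6 := relIndex_mul_relIndex (W ⊓ centralizer ({b} : Set X)) W V inf_le_left hWV
  refine le_trans ?_ h5
  rw [← h6, ← hBcard, mul_pow]
  calc Nat.card B ^ 2 * 2 ^ 2 = 4 * Nat.card B ^ 2 := by ring
    _ ≤ _ := Nat.mul_le_mul h4 hind

theorem main {M V : Subgroup X} (hV : Cfsg.IsElementaryAbelian 2 V)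
    (hMV : M ≤ normalizer (V : Set X)) (hfaith : M ⊓ centralizer (V : Set X) = ⊥)
    (hcon : centralizer (Cfsg.pPrimeCore 2 ↥M : Set ↥M) ≤ Cfsg.pPrimeCore 2 ↥M)
    (A : Subgroup X) (hAM : A ≤ M) (hA : Cfsg.IsElementaryAbelian 2 A)
    (hsmall : (V ⊓ centralizer (A : Set X)).relIndex V < Nat.card A ^ 2) :
    Cfsg.Involves (Equiv.Perm (Fin 3)) ↥M := by
  haveI : Fact (Nat.Prime 2) := ⟨Nat.prime_two⟩
  by_contra hno
  set K0 := Cfsg.pPrimeCore 2 ↥M with hK0
  have hK0c : (Nat.card K0).Coprime 2 := Lib.Components.pPrimeCore_coprime 2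
  have hK0n : K0.Normal := Subgroup.sSup_normal _ fun _ h => h.1
  set K := K0.map M.subtype with hK
  have hKc : (Nat.card K).Coprime 2 := by
    rwa [hK, Nat.card_congr (K0.equivMapOfInjective _ M.subtype_injective).toEquiv.symm]
  have hMK : M ≤ normalizer (K : Set X) := by
    have h := K0.le_normalizer_map M.subtype
    rwa [normalizer_eq_top_iff.mpr hK0n, ← MonoidHom.range_eq_map, range_subtype] at h
  have hAf : A ⊓ centralizer (K : Set X) = ⊥ := by
    rw [eq_bot_iff]
    rintro a ⟨ha, hac⟩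
    have h1 : (⟨a, hAM ha⟩ : ↥M) ∈ K0 := hcon (mem_centralizer_iff.mpr fun k hk =>
      Subtype.ext (mem_centralizer_iff.mp hac _ ⟨k, hk, rfl⟩))
    have h2 := hK0c.coprime_dvd_left (orderOf_dvd_natCard K0 h1)
    rw [Subgroup.orderOf_mk] at h2
    rw [mem_bot]
    exact orderOf_eq_one_iff.mp (Nat.eq_one_of_dvd_coprimes h2 dvd_rfl (orderOf_dvd_of_pow_eq_one (hA.2 a ha)))
  exact absurd (bound hV hMV hfaith (map_subtype_le _) hKc hno _ A rfl hAM hA (hAM.trans hMK) hAf)
    (not_le.mpr hsmall)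

end

/-- Let M and V be subgroups of a finite group with V an elementary abelian 2-group, M normalizing V and acting faithfully on it (M ∩ C(V) = 1), and C_M(O_{2'}(M)) ≤ O_{2'}(M). If some elementary abelian 2-subgroup A of M satisfies |V : C_V(A)| < |A|², then M has a section isomorphic to the symmetric group of degree 3. -/
theorem result {X : Type*} [Group X] [Finite X] (M V : Subgroup X) (hV : Cfsg.IsElementaryAbelian 2 V) (hMV : M ≤ Subgroup.normalizer (V : Set X)) (hfaith : M ⊓ Subgroup.centralizer (V : Set X) = ⊥) (hcon : Subgroup.centralizer (Cfsg.pPrimeCore 2 ↥M : Set ↥M) ≤ Cfsg.pPrimeCore 2 ↥M) (A : Subgroup X) (hAM : A ≤ M) (hA : Cfsg.IsElementaryAbelian 2 A) (hsmall : (V ⊓ Subgroup.centralizer (A : Set X)).relIndex V < Nat.card A ^ 2) : Cfsg.Involves (Equiv.Perm (Fin 3)) ↥M := by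
  exact main hV hMV hfaith hcon A hAM hA hsmall

end Cfsg.Agent.S3755
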