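import Cfsg.Statements.S3760

set_option autoImplicit false
open Cfsg

namespace Cfsg.Agent.S3760

/-- Let the group G act transitively on a set X, let x ∈ X with stabilizer H = G_x, and let K ≤ H. Then N_G(K) acts transitively on the set of fixed points of K if and only if every G-conjugate of K contained in H is already an H-conjugate of K. -/
theorem result {G : Type*} [Group G] {X : Type*} [MulAction G X] (htrans : ∀ a b : X, ∃ g : G, g • a = b) (x : X) (K : Subgroup G) (hK : K ≤ MulAction.stabilizer G x) : (∀ a b : X, (∀ k ∈ K, k • a = a) → (∀ k ∈ K, k • b = b) → ∃ g ∈ Subgroup.normalizer (K : Set G), g • a = b) ↔ ∀ g : G, K.map (MulAut.conj g).toMonoidHom ≤ MulAction.stabilizer G x → ∃ h ∈ MulAction.stabilizer G x, K.map (MulAut.conj g).toMonoidHom = K.map (MulAut.conj h).toMonoidHom := by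
  have hK' : ∀ k ∈ K, k • x = x := fun k hk => MulAction.mem_stabilizer_iff.mp (hK hk)
  constructor
  · intro h g hg
    have h2 : ∀ k ∈ K, k • (g⁻¹ • x) = g⁻¹ • x := fun k hk => by
      have := MulAction.mem_stabilizer_iff.mp (hg ⟨k, hk, rfl⟩)
      simp only [MulEquiv.coe_toMonoidHom, MulAut.conj_apply, mul_smul] at this
      exact smul_left_cancel g (this.trans (smul_inv_smul g x).symm)
    obtain ⟨n, hn, hnx⟩ := h (g⁻¹ • x) x h2 hK'
    refine ⟨g * n⁻¹, ?_, ?_⟩
    · rw [MulAction.mem_stabilizer_iff]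
      conv_lhs => rw [← hnx, ← mul_smul]
      rw [inv_mul_cancel_right, smul_inv_smul]
    · ext y
      simp only [Subgroup.mem_map, MulEquiv.coe_toMonoidHom, MulAut.conj_apply]
      have hn' := Subgroup.mem_normalizer_iff.mp hn
      constructor
      · rintro ⟨k, hk, rfl⟩
        exact ⟨n * k * n⁻¹, (hn' k).mp hk, by group⟩
      · rintro ⟨k, hk, rfl⟩
        exact ⟨n⁻¹ * k * n, (Subgroup.mem_normalizer_iff''.mp hn k).mp hk, by group⟩
  · intro h
    suffices h1 : ∀ a : X, (∀ k ∈ K, k • a = a) → ∃ n ∈ Subgroup.normalizer (K : Set G), n • a = x by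
      intro a b ha hb
      obtain ⟨n, hn, hna⟩ := h1 a ha
      obtain ⟨m, hm, hmb⟩ := h1 b hb
      exact ⟨m⁻¹ * n, mul_mem (inv_mem hm) hn, by rw [mul_smul, hna, ← hmb, inv_smul_smul]⟩
    intro a ha
    obtain ⟨g, hg⟩ := htrans a x
    obtain ⟨s, hs, hse⟩ := h g (by
      rintro _ ⟨k, hk, rfl⟩
      rw [MulAction.mem_stabilizer_iff]
      simp only [MulEquiv.coe_toMonoidHom, MulAut.conj_apply, mul_smul]
      rw [← hg, inv_smul_smul, ha k hk])
    refine ⟨s⁻¹ * g, ?_, by rw [mul_smul, hg, inv_smul_eq_iff, MulAction.mem_stabilizer_iff.mp hs]⟩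
    rw [Subgroup.mem_normalizer_iff]
    intro k
    constructor
    · intro hk
      have : g * k * g⁻¹ ∈ K.map (MulAut.conj s).toMonoidHom := hse ▸ ⟨k, hk, rfl⟩
      obtain ⟨u, hu, hu'⟩ := this
      simp only [MulEquiv.coe_toMonoidHom, MulAut.conj_apply] at hu'
      rw [show s⁻¹ * g * k * (s⁻¹ * g)⁻¹ = s⁻¹ * (g * k * g⁻¹) * s by group, ← hu']
      simpa [mul_assoc] using hu
    · intro hk
      have : s * (s⁻¹ * g * k * (s⁻¹ * g)⁻¹) * s⁻¹ ∈ K.map (MulAut.conj g).toMonoidHom := hse ▸ ⟨_, hk, rfl⟩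
      obtain ⟨u, hu, hu'⟩ := this
      simp only [MulEquiv.coe_toMonoidHom, MulAut.conj_apply] at hu'
      have h2 : g * u * g⁻¹ = g * k * g⁻¹ := hu'.trans (by group)
      exact (mul_left_cancel (mul_right_cancel h2)) ▸ hu

end Cfsg.Agent.S3760
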