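import Cfsg.Statements.S3763
import Cfsg.Agent.Lib.Classical.ExtraTwo

open Cfsg.Agent.Lib.Thompson.Extra Cfsg.Agent.Lib.Classical.QuadF2 Cfsg.Agent.Lib.Classical.ExtraOut Cfsg.Agent.Lib.Classical.ExtraTwo

set_option autoImplicit false
open Cfsg

namespace Cfsg.Agent.S3763

/-- Let E be an extraspecial 2-group of order 2^(2n+1). Then the largest elementary abelian subgroups of E have order 2^n or 2^(n+1); and two extraspecial 2-groups of the same order whose largest elementary abelian subgroups have the same order are isomorphic. -/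
theorem result {E : Type*} [Group E] [Finite E] (hE : Cfsg.IsExtraspecial 2 E) (n : ℕ) (hn : Nat.card E = 2 ^ (2 * n + 1)) : ((Cfsg.PRankLE 2 n E ∧ ¬ Cfsg.PRankLE 2 (n - 1) E) ∨ (Cfsg.PRankLE 2 (n + 1) E ∧ ¬ Cfsg.PRankLE 2 n E)) ∧ ∀ (E' : Type*) [Group E'] [Finite E'], Cfsg.IsExtraspecial 2 E' → Nat.card E' = Nat.card E → (∀ k : ℕ, Cfsg.PRankLE 2 k E ↔ Cfsg.PRankLE 2 k E') → Nonempty (E ≃* E') := by
  obtain ⟨z, d, m, a, b, hP, hC, hm, hcard⟩ := exists_setup hE
  obtain rfl : m = n := by
    have := Nat.pow_right_injective (le_refl 2) (hcard.symm.trans hn)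
    omega
  refine ⟨?_, fun E' _ _ hE' hcc hrk => ?_⟩
  · rcases (sqForm_pol d hP hC).isPlus_or_isMinus hm with h | h
    · exact Or.inr ⟨(rank_plus d hP hC h _).2 le_rfl, fun hk => by
        have := (rank_plus d hP hC h _).1 hk
        omega⟩
    · exact Or.inl ⟨(rank_minus d hP hC h hm _).2 le_rfl, fun hk => by
        have := (rank_minus d hP hC h hm _).1 hk
        omega⟩
  obtain ⟨z', d', m', a', b', hP', hC', hm', hcard'⟩ := exists_setup hE'
  obtain rfl : m' = m := by
    have := Nat.pow_right_injective (le_refl 2) (hcard'.symm.trans (hcc.trans hn))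
    omega
  rcases (sqForm_pol d hP hC).isPlus_or_isMinus hm with h | h <;>
    rcases (sqForm_pol d' hP' hC').isPlus_or_isMinus hm with h' | h'
  · exact iso_plus d hP hC d' hP' hC' h h'
  · exfalso
    have h1 := (rank_plus d hP hC h m').1 ((hrk m').2 ((rank_minus d' hP' hC' h' hm m').2 le_rfl))
    omega
  · exfalso
    have h1 := (rank_plus d' hP' hC' h' m').1 ((hrk m').1 ((rank_minus d hP hC h hm m').2 le_rfl))
    omega
  · exact iso_minus d hP hC d' hP' hC' h h'

end Cfsg.Agent.S3763
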