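import Cfsg.Statements.S3764
import Cfsg.Agent.Lib.FitHeight.FermatExact
import Cfsg.Agent.Lib.FitHeight.FpfSylow
import Cfsg.Agent.S0095
import Cfsg.Agent.S0065
import Cfsg.Agent.Lib.LargeExtra.Centralizer

set_option autoImplicit false
open Cfsg

namespace Cfsg.Agent.S3764

open Subgroup TensorProduct
open scoped commutatorElement
open Cfsg.Agent.Lib

lemma inf_centralizer_subgroupOf {G : Type*} [Group G] (Q : Subgroup G) :
    (Q ⊓ centralizer (Q : Set G)).subgroupOf Q = center Q := by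
  ext x
  simp only [mem_subgroupOf, mem_inf, mem_centralizer_iff, mem_center_iff]
  exact ⟨fun h y => Subtype.ext (h.2 y y.2),
    fun h => ⟨x.2, fun y hy => congrArg Subtype.val (h ⟨y, hy⟩)⟩⟩

lemma relIndex_mul_card_center {G : Type*} [Group G] [Finite G] {Q : Subgroup G} {P : Type*}
    [Group P] (e : P ≃* Q) :
    (Q ⊓ centralizer (Q : Set G)).relIndex Q * Nat.card (center P) = Nat.card P := by
  show ((Q ⊓ centralizer (Q : Set G)).subgroupOf Q).index * _ = _
  rw [inf_centralizer_subgroupOf, Nat.card_congr (Subgroup.centerCongr e).toEquiv,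
    Nat.card_congr e.toEquiv, mul_comm, card_mul_index]

/-- a minimal invariant submodule -/
lemma exists_minimal_invariant {k : Type*} [Field k] {W : Type*} [AddCommGroup W] [Module k W]
    [FiniteDimensional k W] (S : Set (Module.End k W)) (E : Submodule k W) (hE : E ≠ ⊥)
    (hinv : ∀ T ∈ S, ∀ w ∈ E, T w ∈ E) :
    ∃ U ≤ E, U ≠ ⊥ ∧ (∀ T ∈ S, ∀ w ∈ U, T w ∈ U) ∧
      ∀ U' ≤ U, (∀ T ∈ S, ∀ w ∈ U', T w ∈ U') → U' = ⊥ ∨ U' = U := by
  obtain ⟨U, ⟨hUE, hUb, hUi⟩, hmin⟩ := WellFounded.has_min (r := (· < · : Submodule k W → _ → Prop))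
    IsWellFounded.wf {U | U ≤ E ∧ U ≠ ⊥ ∧ ∀ T ∈ S, ∀ w ∈ U, T w ∈ U} ⟨E, le_rfl, hE, hinv⟩
  refine ⟨U, hUE, hUb, hUi, fun U' hle hi => or_iff_not_imp_left.mpr fun hb => ?_⟩
  exact eq_of_le_of_not_lt hle (hmin U' ⟨hle.trans hUE, hb, hi⟩)

set_option maxHeartbeats 800000 in
/-- the extraspecial group has order `2 (r - 1) ^ 2` -/
lemma card_extraspecial {Γ : Type*} [Group Γ] [Finite Γ] {k : Type*} [Field k] [IsAlgClosed k]
    {W : Type*} [AddCommGroup W] [Module k W] [FiniteDimensional k W] (ρ : Γ →* Module.End k W)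
    (hinj : Function.Injective ρ) {r : ℕ} (hr : r.Prime) (hr2 : 2 ≠ r) (hr0 : (r : k) ≠ 0)
    (h20 : (2 : k) ≠ 0) (Q : Subgroup Γ) [Q.Normal] (hQ : Cfsg.IsExtraspecial 2 ↥Q) (f : Γ)
    (hgen : Q ⊔ zpowers f = ⊤) (hf : f ^ r = 1) (hfix : ∀ y : Q, f * y = y * f ↔ y ∈ center Q)
    (hsum : ∑ i ∈ Finset.range r, ρ f ^ i = 0) : Nat.card Q = 2 * (r - 1) ^ 2 := by
  classical
  obtain ⟨⟨hQp, hQf, hQc⟩, hZ⟩ := hQ
  haveI : Nontrivial (center Q) := (Finite.one_lt_card_iff_nontrivial).mp (by omega)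
  obtain ⟨z, hz⟩ := exists_ne (1 : center Q)
  set zΓ : Γ := ((z : Q) : Γ) with hzdef
  have hz1 : zΓ ≠ 1 := fun h => hz (Subtype.ext (Subtype.ext h))
  have hz2 : zΓ * zΓ = 1 := by
    have h := pow_card_eq_one' (x := z)
    rw [hZ, pow_two] at h
    simpa [zΓ] using congrArg (fun w : center Q => ((w : Q) : Γ)) h
  have hzall : ∀ g : Γ, g * zΓ = zΓ * g := by
    intro g
    have hg : g ∈ Q ⊔ zpowers f := hgen ▸ mem_top g
    refine (mem_centralizer_singleton_iff.mp ((sup_le ?_ ?_ : Q ⊔ zpowers f ≤ centralizer {zΓ}) hg))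
    · intro y hy
      rw [mem_centralizer_singleton_iff]
      exact congrArg Subtype.val (mem_center_iff.mp z.2 ⟨y, hy⟩)
    · rw [zpowers_le, mem_centralizer_singleton_iff]
      exact (hfix z).mpr z.2
  -- the module where `z` is `-1`
  let E : Submodule k W := LinearMap.ker (ρ zΓ + 1)
  have hE : E ≠ ⊥ := by
    intro h
    refine hz1 (hinj ?_)
    rw [map_one]
    have h2 : (ρ zΓ + 1) * (ρ zΓ - 1) = 0 := by
      rw [add_mul, mul_sub, mul_one, one_mul, ← map_mul, hz2, map_one]; abel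
    refine sub_eq_zero.mp (LinearMap.ext fun w => ?_)
    have h3 : (ρ zΓ - 1) w ∈ E := LinearMap.mem_ker.mpr (LinearMap.congr_fun h2 w)
    rw [h, Submodule.mem_bot] at h3
    exact h3
  have hEinv : ∀ T ∈ Set.range ρ, ∀ w ∈ E, T w ∈ E := by
    rintro _ ⟨g, rfl⟩ w hw
    rw [LinearMap.mem_ker] at hw ⊢
    have h2 : (ρ zΓ + 1) * ρ g = ρ g * (ρ zΓ + 1) := by
      rw [add_mul, mul_add, one_mul, mul_one, ← map_mul, ← map_mul, hzall g]
    show ((ρ zΓ + 1) * ρ g) w = 0
    rw [h2, Module.End.mul_apply, hw, map_zero]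
  obtain ⟨U, hUE, hUb, hUi, hUmin⟩ := exists_minimal_invariant (Set.range ρ) E hE hEinv
  haveI : Nontrivial U := Submodule.nontrivial_iff_ne_bot.mpr hUb
  let σ : Γ →* Module.End k U :=
    { toFun := fun g => (ρ g).restrict (hUi _ ⟨g, rfl⟩)
      map_one' := LinearMap.ext fun u => Subtype.ext (by show ρ 1 u = u; rw [map_one]; rfl)
      map_mul' := fun a b => LinearMap.ext fun u => Subtype.ext (by
        show ρ (a * b) u = ρ a (ρ b u); rw [map_mul]; rfl) }
  have hσz : σ zΓ = -1 := LinearMap.ext fun u => Subtype.ext (by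
    show ρ zΓ u = -(u : W)
    exact eq_neg_of_add_eq_zero_left (LinearMap.mem_ker.mp (hUE u.2)))
  haveI : Finite σ.toHomUnits.range :=
    Finite.of_surjective _ σ.toHomUnits.rangeRestrict_surjective
  set φ := σ.toHomUnits.rangeRestrict with hφ
  let τ : σ.toHomUnits.range →* Module.End k U := (Units.coeHom _).comp σ.toHomUnits.range.subtype
  have hτ : Function.Injective τ := fun a b h => Subtype.ext (Units.ext h)
  have hτφ : ∀ g, τ (φ g) = σ g := fun g => rfl
  -- `φ` is injective on `Q`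
  have hφinj : Function.Injective (φ.comp Q.subtype) := by
    rw [← MonoidHom.ker_eq_bot_iff]
    by_contra hne
    haveI : Nontrivial (φ.comp Q.subtype).ker := (nontrivial_iff_ne_bot _).mpr hne
    haveI : Fact (Nat.Prime 2) := ⟨Nat.prime_two⟩
    haveI := hQp.isNilpotent
    obtain ⟨c, hc', hc1⟩ := (Subgroup.bot_or_exists_ne_one _).resolve_left
      (Cfsg.Agent.S0065.inf_center_ne_bot (N := (φ.comp Q.subtype).ker) inferInstance hne)
    have hc : c ∈ center Q ∧ c ∈ (φ.comp Q.subtype).ker := ⟨hc'.2, hc'.1⟩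
    have hzc : (z : Q) ∈ (φ.comp Q.subtype).ker := by
      haveI : Fact (Nat.card (center Q)).Prime := ⟨hZ.symm ▸ Nat.prime_two⟩
      rcases (zpowers (⟨c, hc.1⟩ : center Q)).eq_bot_or_eq_top_of_prime_card with h | h
      · exact absurd (congrArg Subtype.val (zpowers_eq_bot.mp h)) hc1
      · obtain ⟨i, hi⟩ := mem_zpowers_iff.mp (h ▸ mem_top z : z ∈ zpowers (⟨c, hc.1⟩ : center Q))
        rw [← hi]
        exact zpow_mem (K := (φ.comp Q.subtype).ker) hc.2 i
    have h1 : σ zΓ = 1 := by rw [← hτφ, show φ zΓ = 1 from MonoidHom.mem_ker.mp hzc, map_one]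
    rw [hσz] at h1
    obtain ⟨u, hu⟩ := exists_ne (0 : U)
    have h2 := LinearMap.congr_fun h1 u
    simp only [LinearMap.neg_apply, Module.End.one_apply] at h2
    refine hu ?_
    have h3 : (2 : k) • u = 0 := by rw [two_smul]; nth_rewrite 1 [← h2]; exact neg_add_cancel u
    exact (smul_eq_zero.mp h3).resolve_left h20
  set Q' : Subgroup σ.toHomUnits.range := Q.map φ with hQ'
  let e : Q ≃* Q' := MulEquiv.ofBijective (φ.subgroupMap Q)
    ⟨fun a b h => hφinj (congrArg Subtype.val h), φ.subgroupMap_surjective Q⟩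
  have hfN : f ∈ normalizer (Q : Set Γ) := by rw [normalizer_eq_top]; exact mem_top f
  have hcop : (Nat.card (zpowers f)).Coprime (Nat.card Q) := by
    haveI : Fact (Nat.Prime 2) := ⟨Nat.prime_two⟩
    obtain ⟨j, hj⟩ := IsPGroup.iff_card.mp hQp
    rw [Nat.card_zpowers, hj]
    exact (((Nat.coprime_primes hr Nat.prime_two).mpr hr2.symm).coprime_dvd_left
      (orderOf_dvd_of_pow_eq_one hf)).pow_right j
  have hfull : ⁅Q, zpowers f⁆ = Q := by
    have h1 := Coprime.commutator_sup_centralizer (zpowers_le.mpr hfN) hcop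
      (Or.inl (Group.isSolvable_of_comm fun a b => mul_comm' a b))
    have hle : ⁅Q, zpowers f⁆ ≤ Q := commutator_le_left Q _
    have h2 : (⁅Q, zpowers f⁆).subgroupOf Q ⊔ frattini Q = ⊤ := by
      rw [eq_top_iff]
      intro y _
      have hy : (y : Γ) ∈ ⁅Q, zpowers f⁆ ⊔ (Q ⊓ centralizer (zpowers f : Set Γ)) := h1.symm ▸ y.2
      have : ⁅Q, zpowers f⁆ ⊔ (Q ⊓ centralizer (zpowers f : Set Γ)) ≤
          ((⁅Q, zpowers f⁆).subgroupOf Q ⊔ frattini Q).map Q.subtype := by
        rw [Subgroup.map_sup, subgroupOf_map_subtype, inf_eq_left.mpr hle]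
        refine sup_le_sup_left (fun c hc => ⟨⟨c, hc.1⟩, ?_, rfl⟩) _
        rw [SetLike.mem_coe, hQf]
        exact (hfix ⟨c, hc.1⟩).mp (mem_centralizer_iff.mp hc.2 f (mem_zpowers f))
      obtain ⟨w, hw, hwy⟩ := this hy
      exact Subtype.ext hwy ▸ hw
    exact le_antisymm hle (subgroupOf_eq_top.mp (frattini_nongenerating h2))
  have hfull' : ⁅Q', zpowers (φ f)⁆ = Q' := by
    rw [← MonoidHom.map_zpowers, ← map_commutator, hfull]
  have hne : ¬ ∀ y ∈ Q', φ f * y = y * φ f := by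
    intro h
    have h1 : ⁅Q', zpowers (φ f)⁆ = ⊥ := by
      rw [commutator_eq_bot_iff_le_centralizer]
      intro y hy
      rw [mem_centralizer_iff]
      intro a ha
      obtain ⟨i, rfl⟩ := mem_zpowers_iff.mp ha
      exact (Commute.zpow_left (h y hy : Commute (φ f) y) i).eq
    rw [hfull'] at h1
    have h2 : (φ.comp Q.subtype) (z : Q) = 1 :=
      mem_bot.mp (h1 ▸ mem_map_of_mem φ (z : Q).2)
    exact hz1 (congrArg Subtype.val (hφinj (h2.trans (map_one _).symm)))
  have hcen : ∀ y ∈ Q', (y ∈ centralizer (Q' : Set σ.toHomUnits.range) ∨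
      y ∈ (frattini Q').map Q'.subtype) → φ f * y = y * φ f := by
    rintro _ ⟨y, hy, rfl⟩ h
    have hyc : (⟨y, hy⟩ : Q) ∈ center Q := by
      rcases h with h | ⟨w, hw, hwy⟩
      · rw [mem_center_iff]
        intro x
        apply hφinj
        rw [map_mul, map_mul]
        exact mem_centralizer_iff.mp h _ (mem_map_of_mem φ x.2)
      · have h3 : e.symm w ∈ frattini Q :=
          frattini_le_comap_frattini_of_surjective (φ := e.symm.toMonoidHom) e.symm.surjective hw
        have h4 : e.symm w = ⟨y, hy⟩ := e.injective (by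
          rw [e.apply_symm_apply]
          exact Subtype.ext hwy)
        rw [h4, hQf] at h3
        exact h3
    rw [← map_mul, ← map_mul, (hfix ⟨y, hy⟩).mpr hyc]
  have hsum' : ∑ i ∈ Finset.range r, τ (φ f) ^ i = 0 := by
    refine LinearMap.ext fun u => Subtype.ext ?_
    have h1 : ∀ i, (((τ (φ f) ^ i) u : U) : W) = (ρ f ^ i) (u : W) := fun i => by
      rw [← map_pow, ← map_pow, hτφ, ← map_pow]
      rfl
    rw [LinearMap.sum_apply, Submodule.coe_sum]
    simp only [h1, ← LinearMap.sum_apply, hsum]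
    rfl
  have hirr : ∀ U₂ : Submodule k U, (∀ y ∈ Q', ∀ u ∈ U₂, τ y u ∈ U₂) → (∀ u ∈ U₂, τ (φ f) u ∈ U₂) →
      U₂ = ⊥ ∨ U₂ = ⊤ := by
    intro U₂ h1 h2
    let M := Lib.FitHeight.stabilizerSubgroup σ U₂
    have htop : (⊤ : Subgroup Γ) ≤ M := by
      rw [← hgen]
      exact sup_le (fun y hy u hu => h1 (φ y) (mem_map_of_mem φ hy) u hu)
        (zpowers_le.mpr fun u hu => h2 u hu)
    have h3 : ∀ T ∈ Set.range ρ, ∀ w ∈ U₂.map U.subtype, T w ∈ U₂.map U.subtype := by
      rintro _ ⟨g, rfl⟩ _ ⟨u, hu, rfl⟩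
      exact ⟨σ g u, htop (mem_top g) u hu, rfl⟩
    rcases hUmin _ (U.map_subtype_le U₂) h3 with h | h
    · exact Or.inl (Submodule.map_injective_of_injective U.subtype_injective
        (h.trans (Submodule.map_bot _).symm))
    · exact Or.inr (Submodule.map_injective_of_injective U.subtype_injective
        (h.trans (Submodule.map_subtype_top U).symm))
  have key := Lib.FitHeight.irreducible_quotient_card hr Nat.prime_two hr2 hr0
    (by simpa using h20) τ hτ Q' (hQp.map φ) (φ f) (le_normalizer_map φ (mem_map_of_mem φ hfN))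
    (by rw [← map_pow, hf, map_one]) hsum' hirr hfull' hne hcen
  have h := relIndex_mul_card_center e
  rw [key, hZ] at h
  rw [← h]; ring

/-- the same for a linear action over the prime field -/
lemma card_of_linear {Γ : Type*} [Group Γ] [Finite Γ] {A : Type*} [AddCommGroup A] {p r : ℕ}
    [Fact p.Prime] [Module (ZMod p) A] [Finite A] (hp : p.Prime) (hr : r.Prime) (hpr : p ≠ r) (hp2 : p ≠ 2)
    (h2r : 2 ≠ r) (act : Γ →* AddMonoid.End A) (hfaith : ∀ g : Γ, (∀ a : A, act g a = a) → g = 1)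
    (Q : Subgroup Γ) [Q.Normal] (hQ : Cfsg.IsExtraspecial 2 ↥Q) (f : Γ)
    (hgen : Q ⊔ zpowers f = ⊤) (hf : f ^ r = 1) (hfix : ∀ y : Q, f * y = y * f ↔ y ∈ center Q)
    (hsum₀ : ∀ a : A, ∑ i ∈ Finset.range r, act (f ^ i) a = 0) : Nat.card Q = 2 * (r - 1) ^ 2 := by
  classical
  let μ : Γ →* Module.End (ZMod p) A :=
    { toFun := fun g => (act g : A →+ A).toZModLinearMap p
      map_one' := LinearMap.ext fun a => by show act 1 a = a; rw [map_one]; rfl
      map_mul' := fun g h => LinearMap.ext fun a => by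
        show act (g * h) a = act g (act h a); rw [map_mul]; rfl }
  let K := AlgebraicClosure (ZMod p)
  have hchar : ∀ t : ℕ, t.Prime → p ≠ t → (t : K) ≠ 0 := fun t ht hne h => hne
    ((Nat.prime_dvd_prime_iff_eq hp ht).mp ((CharP.cast_eq_zero_iff K p t).mp h))
  let ρ : Γ →* Module.End K (TensorProduct (ZMod p) K A) :=
    (Module.End.baseChangeHom (ZMod p) K A).toMonoidHom.comp μ
  have hinj : Function.Injective ρ := by
    refine (injective_iff_map_eq_one ρ).mpr fun g hg => hfaith g fun a => ?_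
    have h1 : μ g = 1 := by
      let bs := Module.Free.chooseBasis (ZMod p) A
      refine bs.ext fun i => bs.repr.injective (Finsupp.ext fun j => ?_)
      have h2 : (1 : K) ⊗ₜ[ZMod p] μ g (bs i) = (1 : K) ⊗ₜ[ZMod p] bs i :=
        LinearMap.congr_fun hg ((1 : K) ⊗ₜ[ZMod p] bs i)
      have h3 := congrArg (fun z => (bs.baseChange K).repr z j) h2
      simp only [Module.Basis.baseChange_repr_tmul, Algebra.smul_def, mul_one] at h3
      exact (algebraMap (ZMod p) K).injective h3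
    exact LinearMap.congr_fun h1 a
  have hsum : ∑ i ∈ Finset.range r, ρ f ^ i = 0 := by
    have hμsum : ∑ i ∈ Finset.range r, μ f ^ i = 0 := by
      refine LinearMap.ext fun a => ?_
      rw [LinearMap.sum_apply, LinearMap.zero_apply]
      simp only [← map_pow]
      exact hsum₀ a
    show ∑ i ∈ Finset.range r, (Module.End.baseChangeHom (ZMod p) K A) (μ f) ^ i = 0
    simp only [← map_pow, ← map_sum]
    rw [show ∑ i ∈ Finset.range r, μ (f ^ i) = ∑ i ∈ Finset.range r, μ f ^ i by simp only [map_pow],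
      hμsum, map_zero]
  exact card_extraspecial ρ hinj hr h2r (hchar r hr hpr) (by simpa using hchar 2 Nat.prime_two hp2)
    Q hQ f hgen hf hfix hsum

/-- the same for an action on a finite elementary abelian group -/
lemma card_of_action {Γ : Type*} [Group Γ] [Finite Γ] {V : Type*} [CommGroup V] [Finite V]
    [MulDistribMulAction Γ V] {p r : ℕ} (hp : p.Prime) (hr : r.Prime) (hpr : p ≠ r) (hp2 : p ≠ 2)
    (h2r : 2 ≠ r) (hfaith : ∀ g : Γ, (∀ v : V, g • v = v) → g = 1) (hexp : ∀ v : V, v ^ p = 1)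
    (Q : Subgroup Γ) [Q.Normal] (hQ : Cfsg.IsExtraspecial 2 ↥Q) (f : Γ)
    (hgen : Q ⊔ zpowers f = ⊤) (hf : f ^ r = 1) (hfix : ∀ y : Q, f * y = y * f ↔ y ∈ center Q)
    (hfix₀ : ∀ v : V, f • v = v → v = 1) : Nat.card Q = 2 * (r - 1) ^ 2 := by
  haveI := Fact.mk hp
  have hpv : ∀ x : Additive V, p • x = 0 := fun x => Additive.toMul.injective (hexp _)
  let act : Γ →* AddMonoid.End (Additive V) :=
    { toFun := fun g => (MulDistribMulAction.toMonoidHom V g).toAdditive
      map_one' := AddMonoidHom.ext fun v => Additive.toMul.injective (one_smul Γ (Additive.toMul v))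
      map_mul' := fun a b => AddMonoidHom.ext fun v =>
        Additive.toMul.injective (mul_smul a b (Additive.toMul v)) }
  have key := @card_of_linear Γ _ _ (Additive V) _ p r _ (AddCommGroup.zmodModule hpv) _ hp hr hpr hp2
    h2r act
  refine key (fun g hg => hfaith g fun v => congrArg Additive.toMul (hg (Additive.ofMul v)))
    Q hQ f hgen hf hfix fun a => ?_
  apply Additive.toMul.injective
  rw [toMul_sum, toMul_zero]
  exact hfix₀ _ (Lib.FitHeight.smul_cycProd hf (Additive.toMul a))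


/-- Let p, q, r be distinct primes and let X, Q, V be subgroups of a finite group with X of order r, Q an extraspecial q-group normalized by X with C_Q(X) = Z(Q), and V an elementary abelian p-group normalized by X and Q on which XQ acts faithfully ((X ⊔ Q) ∩ C(V) = 1). If C_V(X) = 1, then q = 2, r = 2^n + 1 for some n, and Q has order 2^(2n+1). -/
theorem result {G : Type*} [Group G] [Finite G] {p q r : ℕ} (hp : p.Prime) (hq : q.Prime) (hr : r.Prime) (hpq : p ≠ q) (hpr : p ≠ r) (hqr : q ≠ r) (X Q V : Subgroup G) (hX : Nat.card X = r) (hQ : Cfsg.IsExtraspecial q ↥Q) (hXQ : X ≤ Subgroup.normalizer (Q : Set G)) (hCQ : Q ⊓ Subgroup.centralizer (X : Set G) = (Subgroup.center ↥Q).map Q.subtype) (hV : Cfsg.IsElementaryAbelian p V) (hXV : X ≤ Subgroup.normalizer (V : Set G)) (hQV : Q ≤ Subgroup.normalizer (V : Set G)) (hfaith : (X ⊔ Q) ⊓ Subgroup.centralizer (V : Set G) = ⊥) (hCV : V ⊓ Subgroup.centralizer (X : Set G) = ⊥) : q = 2 ∧ ∃ n : ℕ, r = 2 ^ n + 1 ∧ Nat.card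 Q = 2 ^ (2 * n + 1) := by
  classical
  haveI : IsMulCommutative V := hV.1
  haveI := Fact.mk hq
  haveI := Fact.mk hp
  haveI hXp : Fact (Nat.card X).Prime := ⟨hX ▸ hr⟩
  haveI : IsCyclic X := isCyclic_of_prime_card rfl
  obtain ⟨f, hf⟩ := IsCyclic.exists_generator (α := X)
  have hfp : (f : G) ^ r = 1 := by
    rw [← hX]; exact congrArg Subtype.val (pow_card_eq_one' (x := f))
  have hgen : ∀ x ∈ X, ∃ i : ℕ, (f : G) ^ i = x := by
    intro x hx
    obtain ⟨i, hi⟩ := (IsOfFinOrder.mem_powers_iff_mem_zpowers (isOfFinOrder_of_finite f)).mpr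
      (hf ⟨x, hx⟩)
    exact ⟨i, congrArg Subtype.val hi⟩
  have hXc : ∀ v, (f : G) * v = v * f → v ∈ Subgroup.centralizer (X : Set G) := by
    intro v hfv
    refine Subgroup.mem_centralizer_iff.mpr fun x hx => ?_
    obtain ⟨i, rfl⟩ := hgen x hx
    exact (Commute.pow_left hfv i).eq
  have hfix : ∀ v ∈ V, (f : G) * v = v * f → v = 1 := by
    intro v hv hfv
    have : v ∈ V ⊓ Subgroup.centralizer (X : Set G) := ⟨hv, hXc v hfv⟩
    rwa [hCV, Subgroup.mem_bot] at this
  have hQp := hQ.1.1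
  obtain ⟨n, -, hn⟩ := Cfsg.Agent.S0095.result hQ
  have hfQfix : ∀ y : Q, (f : G) * y = y * f ↔ y ∈ Subgroup.center Q := by
    intro y
    constructor
    · intro h
      have h1 : (y : G) ∈ Q ⊓ Subgroup.centralizer (X : Set G) := ⟨y.2, hXc _ h⟩
      rw [hCQ] at h1
      obtain ⟨w, hw, hwy⟩ := h1
      exact Subtype.ext hwy ▸ hw
    · intro h
      have h1 : (y : G) ∈ (Subgroup.center ↥Q).map Q.subtype := ⟨y, h, rfl⟩
      rw [← hCQ] at h1
      exact Subgroup.mem_centralizer_iff.mp h1.2 f f.2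
  have hQne : ¬ ∀ y : Q, (f : G) * y = y * f := by
    intro h
    have h1 : Subgroup.center Q = ⊤ := eq_top_iff.mpr fun y _ => (hfQfix y).mp (h y)
    have h2 : commutator Q = ⊤ := hQ.1.2.2.trans h1
    have h3 : commutator Q = ⊥ := by
      rw [commutator_def, Subgroup.commutator_eq_bot_iff_le_centralizer]
      intro y _
      rw [Subgroup.mem_centralizer_iff]
      intro x _
      exact Subgroup.mem_center_iff.mp (h1.symm ▸ Subgroup.mem_top y) x
    have h4 := congrArg (fun H : Subgroup Q => Nat.card H) (h2.symm.trans h3)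
    simp only [Subgroup.card_top, Subgroup.card_bot, hn] at h4
    rcases (Nat.pow_eq_one.mp h4) with h5 | h5
    · exact hq.ne_one h5
    · omega
  have hexc : q = 2 ∧ ∃ m : ℕ, r = 2 ^ m + 1 := by
    by_contra hnot
    refine hQne fun y => ?_
    have key := Cfsg.Agent.Lib.FitHeight.commutator_mem_centralizer_of_fpf (p := r) hp hr hpr
      hV.2 hQV (hXV f.2) (hXQ f.2) hfp hfix
      (hn ▸ ((Nat.coprime_primes hr hq).mpr hqr.symm).pow_right _)
      (hn ▸ ((Nat.coprime_primes hp hq).mpr hpq).pow_right _) (fun t ht htd => by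
        rw [hn] at htd
        rw [(Nat.prime_dvd_prime_iff_eq ht hq).mp (ht.dvd_of_dvd_pow htd)]
        exact Or.inl (not_and_or.mp hnot)) y y.2
    have h1 : ⁅(y : G), (f : G)⁆ ∈ (X ⊔ Q) ⊓ Subgroup.centralizer (V : Set G) := by
      refine ⟨?_, key⟩
      rw [commutatorElement_def]
      exact (X ⊔ Q).mul_mem ((X ⊔ Q).mul_mem ((X ⊔ Q).mul_mem (Subgroup.mem_sup_right y.2)
        (Subgroup.mem_sup_left f.2)) ((X ⊔ Q).inv_mem (Subgroup.mem_sup_right y.2)))
        ((X ⊔ Q).inv_mem (Subgroup.mem_sup_left f.2))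
    rw [hfaith, Subgroup.mem_bot, commutatorElement_eq_one_iff_mul_comm] at h1
    exact h1.symm
  obtain ⟨rfl, m, hm⟩ := hexc
  refine ⟨rfl, n, ?_, hn⟩
  -- the action
  set Γ := X ⊔ Q with hΓ
  have hΓV : Γ ≤ Subgroup.normalizer (V : Set G) := sup_le hXV hQV
  letI : CommGroup V := { (inferInstance : Group V) with mul_comm := fun a b => mul_comm' a b }
  letI : MulDistribMulAction Γ V :=
    { smul := fun g v => ⟨(g : G) * v * (g : G)⁻¹,
        (Subgroup.mem_normalizer_iff.mp (hΓV g.2) v).mp v.2⟩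
      one_smul := fun v => Subtype.ext (by show ((1 : Γ) : G) * v * ((1 : Γ) : G)⁻¹ = v; simp)
      mul_smul := fun a b v => Subtype.ext (by
        show ((a * b : Γ) : G) * v * ((a * b : Γ) : G)⁻¹ =
          (a : G) * ((b : G) * v * (b : G)⁻¹) * (a : G)⁻¹
        simp [mul_assoc])
      smul_mul := fun g a b => Subtype.ext (by
        show (g : G) * ((a : G) * b) * (g : G)⁻¹ = (g : G) * a * (g : G)⁻¹ * ((g : G) * b * (g : G)⁻¹)
        group)
      smul_one := fun g => Subtype.ext (by show (g : G) * 1 * (g : G)⁻¹ = 1; simp) }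
  have hsmul : ∀ (g : Γ) (v : V), ((g • v : V) : G) = (g : G) * v * (g : G)⁻¹ := fun g v => rfl
  have hfaith' : ∀ g : Γ, (∀ v : V, g • v = v) → g = 1 := by
    intro g hg
    have h1 : (g : G) ∈ Γ ⊓ Subgroup.centralizer (V : Set G) := by
      refine ⟨g.2, Subgroup.mem_centralizer_iff.mpr fun v hv => ?_⟩
      have h2 := congrArg Subtype.val (hg ⟨v, hv⟩)
      rw [hsmul] at h2
      exact (mul_inv_eq_iff_eq_mul.mp h2).symm
    rw [hfaith, Subgroup.mem_bot] at h1
    exact Subtype.ext h1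
  let f' : Γ := ⟨f, Subgroup.mem_sup_left f.2⟩
  have hfix₀ : ∀ v : V, f' • v = v → v = 1 := by
    intro v hv
    have h2 := congrArg Subtype.val hv
    rw [hsmul] at h2
    exact Subtype.ext (hfix v v.2 (mul_inv_eq_iff_eq_mul.mp h2))
  haveI : (Q.subgroupOf Γ).Normal :=
    (Subgroup.normal_subgroupOf_iff_le_normalizer le_sup_right).mpr (sup_le hXQ Subgroup.le_normalizer)
  let eQ : Q.subgroupOf Γ ≃* Q := Subgroup.subgroupOfEquivOfLe le_sup_right
  have hQ' : Cfsg.IsExtraspecial 2 ↥(Q.subgroupOf Γ) :=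
    Cfsg.Agent.Lib.LargeExtra.isExtraspecial_equiv eQ.symm hQ
  have hgen' : Q.subgroupOf Γ ⊔ Subgroup.zpowers f' = ⊤ := by
    apply Subgroup.map_injective Γ.subtype_injective
    rw [Subgroup.map_sup, Subgroup.subgroupOf_map_subtype, MonoidHom.map_zpowers,
      ← MonoidHom.range_eq_map, Subgroup.range_subtype, inf_eq_left.mpr le_sup_right, sup_comm]
    refine le_antisymm (sup_le ?_ le_sup_right) (sup_le (fun x hx => ?_) le_sup_right)
    · rw [Subgroup.zpowers_le]; exact Subgroup.mem_sup_left f.2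
    · obtain ⟨i, rfl⟩ := hgen x hx
      exact Subgroup.mem_sup_left (Subgroup.npow_mem_zpowers _ _)
  have hfix' : ∀ y : Q.subgroupOf Γ, f' * y = y * f' ↔ y ∈ Subgroup.center (Q.subgroupOf Γ) := by
    intro y
    have h1 : eQ y ∈ Subgroup.center Q ↔ y ∈ Subgroup.center (Q.subgroupOf Γ) := by
      simp only [Subgroup.mem_center_iff]
      exact ⟨fun h w => eQ.injective (by rw [map_mul, map_mul]; exact h (eQ w)),
        fun h w => by obtain ⟨w, rfl⟩ := eQ.surjective w; rw [← map_mul, ← map_mul, h w]⟩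
    rw [← h1, ← hfQfix]
    exact ⟨fun h => congrArg Subtype.val h, fun h => Subtype.ext h⟩
  have hcard := card_of_action hp hr hpr hpq hqr hfaith' (fun v : V => Subtype.ext (hV.2 v v.2))
    (Q.subgroupOf Γ) hQ' f' hgen' (Subtype.ext hfp) hfix' hfix₀
  rw [Nat.card_congr eQ.toEquiv, hn, pow_succ', mul_comm 2 n, pow_mul] at hcard
  have h5 := Nat.pow_left_injective two_ne_zero (Nat.eq_of_mul_eq_mul_left two_pos hcard)
  have := hr.pos
  omega

end Cfsg.Agent.S3764
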