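import Cfsg.Statements.S3765
import Cfsg.Agent.Lib.FitHeight.FpfSylow

set_option autoImplicit false
open Cfsg

namespace Cfsg.Agent.S3765

open scoped commutatorElement


/-- Let p, q, r be distinct primes and let X, Q, V be subgroups of a finite group with X of order r normalizing the q-group Q and acting faithfully on it (X ∩ C(Q) = 1), and V a nontrivial elementary abelian p-group normalized by X and Q on which XQ acts faithfully. If q = 2 and r has the form 2^n + 1, assume in addition that Q is abelian. Then C_V(X) ≠ 1. -/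
theorem result {G : Type*} [Group G] [Finite G] {p q r : ℕ} (hp : p.Prime) (hq : q.Prime) (hr : r.Prime) (hpq : p ≠ q) (hpr : p ≠ r) (hqr : q ≠ r) (X Q V : Subgroup G) (hX : Nat.card X = r) (hQ : IsPGroup q Q) (hXQ : X ≤ Subgroup.normalizer (Q : Set G)) (hXfaith : X ⊓ Subgroup.centralizer (Q : Set G) = ⊥) (hV : Cfsg.IsElementaryAbelian p V) (hV1 : V ≠ ⊥) (hXV : X ≤ Subgroup.normalizer (V : Set G)) (hQV : Q ≤ Subgroup.normalizer (V : Set G)) (hfaith : (X ⊔ Q) ⊓ Subgroup.centralizer (V : Set G) = ⊥) (hexc : q = 2 → (∃ n : ℕ, r = 2 ^ n + 1) → IsMulCommutative Q) : V ⊓ Subgroup.centralizer (X : Set G) ≠ ⊥ := by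
  intro hbot
  haveI : IsMulCommutative V := hV.1
  haveI hRp : Fact (Nat.card X).Prime := ⟨hX ▸ hr⟩
  haveI : IsCyclic X := isCyclic_of_prime_card rfl
  obtain ⟨f, hf⟩ := IsCyclic.exists_generator (α := X) 
  have hfp : (f : G) ^ r = 1 := by
    rw [← hX]; exact congrArg Subtype.val (pow_card_eq_one' (x := f))
  have hgen : ∀ x ∈ X, ∃ i : ℕ, (f : G) ^ i = x := by
    intro x hx
    obtain ⟨i, hi⟩ := (IsOfFinOrder.mem_powers_iff_mem_zpowers (isOfFinOrder_of_finite f)).mpr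
      (hf ⟨x, hx⟩)
    exact ⟨i, congrArg Subtype.val hi⟩
  have hfix : ∀ v ∈ V, (f : G) * v = v * f → v = 1 := by
    intro v hv hfv
    have : v ∈ V ⊓ Subgroup.centralizer (X : Set G) := by
      refine ⟨hv, Subgroup.mem_centralizer_iff.mpr fun x hx => ?_⟩
      obtain ⟨i, rfl⟩ := hgen x hx
      exact (Commute.pow_left hfv i).eq
    rwa [hbot, Subgroup.mem_bot] at this
  haveI := Fact.mk hq
  obtain ⟨m, hm⟩ := IsPGroup.iff_card.mp hQ
  have hqeq : ∀ t : ℕ, t.Prime → t ∣ Nat.card Q → t = q := fun t ht htd =>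
    (Nat.prime_dvd_prime_iff_eq ht hq).mp (ht.dvd_of_dvd_pow (hm ▸ htd))
  have key := Cfsg.Agent.Lib.FitHeight.commutator_mem_centralizer_of_fpf (p := r) hp hr hpr
    hV.2 hQV (hXV f.2) (hXQ f.2) hfp hfix
    (hm ▸ ((Nat.coprime_primes hr hq).mpr hqr.symm).pow_right m)
    (hm ▸ ((Nat.coprime_primes hp hq).mpr hpq).pow_right m) (fun t ht htd => by
      rw [hqeq t ht htd]
      by_cases he : q = 2 ∧ ∃ n : ℕ, r = 2 ^ n + 1
      · refine Or.inr ⟨fun a ha b hb => ?_, hQ⟩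
        haveI := hexc he.1 he.2
        exact congrArg Subtype.val (mul_comm' (⟨a, ha⟩ : Q) ⟨b, hb⟩)
      · exact Or.inl (not_and_or.mp he))
  have hfQ : (f : G) ∈ X ⊓ Subgroup.centralizer (Q : Set G) := by
    refine ⟨f.2, Subgroup.mem_centralizer_iff.mpr fun y hy => ?_⟩
    have h1 : ⁅y, (f : G)⁆ ∈ (X ⊔ Q) ⊓ Subgroup.centralizer (V : Set G) := by
      refine ⟨?_, key y hy⟩
      rw [commutatorElement_def]
      exact (X ⊔ Q).mul_mem ((X ⊔ Q).mul_mem ((X ⊔ Q).mul_mem (Subgroup.mem_sup_right hy)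
        (Subgroup.mem_sup_left f.2)) ((X ⊔ Q).inv_mem (Subgroup.mem_sup_right hy)))
        ((X ⊔ Q).inv_mem (Subgroup.mem_sup_left f.2))
    rw [hfaith, Subgroup.mem_bot, commutatorElement_eq_one_iff_mul_comm] at h1
    exact h1
  rw [hXfaith, Subgroup.mem_bot] at hfQ
  have hall : ∀ x ∈ X, x = 1 := fun x hx => by
    obtain ⟨i, rfl⟩ := hgen x hx
    rw [hfQ, one_pow]
  rw [(Subgroup.eq_bot_iff_forall X).mpr hall, Subgroup.card_bot] at hX
  exact hr.ne_one hX.symm

end Cfsg.Agent.S3765
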