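import Cfsg.Statements.S3767
import Cfsg.Agent.Lib.Coprime.Action
import Cfsg.Agent.Lib.PGroupFrattini

set_option autoImplicit false
open Cfsg

namespace Cfsg.Agent.S3767

open Polynomial

section Linear

variable {p : ℕ} [Fact p.Prime] {V : Type*} [AddCommGroup V] [Module (ZMod p) V]

/-- An automorphism acting semiregularly on nonzero vectors with orbits of size `h`. -/
def Semireg (h : ℕ) (f : V →ₗ[ZMod p] V) : Prop :=
  ∀ v : V, v ≠ 0 → ∀ k : ℕ, (f ^ k) v = v ↔ h ∣ k

theorem aeval_frobenius {K : Type*} [Field K] [Algebra (ZMod p) K] (r : K) (q : (ZMod p)[X]) (t : ℕ) :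
    aeval (r ^ p ^ t) q = (aeval r q) ^ p ^ t := by
  induction t with
  | zero => simp
  | succ t ih =>
    rw [pow_succ, pow_mul, ← expand_aeval, ZMod.expand_card, map_pow, ih, ← pow_mul]

/-- The irreducible case. -/
theorem simple_case [Finite V] {h : ℕ} (hh : 3 ≤ h) {f : V →ₗ[ZMod p] V} (hf : Semireg h f)
    (hne : Nontrivial V) (hsimple : ∀ U : Submodule (ZMod p) V, (∀ u ∈ U, f u ∈ U) → U = ⊥ ∨ U = ⊤) :
    ((p : ZMod h)) ^ Module.finrank (ZMod p) V = 1 ∧
      ((∃ B : LinearMap.BilinForm (ZMod p) V, B.Nondegenerate ∧ ∀ u v, B (f u) (f v) = B u v) →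
        ∃ e, Module.finrank (ZMod p) V = 2 * e ∧ ((p : ZMod h)) ^ e = -1) := by
  classical
  have hp : p.Prime := Fact.out
  set m := minpoly (ZMod p) f
  have hint : IsIntegral (ZMod p) f := IsIntegral.of_finite (ZMod p) f
  have hker : ∀ q : (ZMod p)[X], ∀ v : V, v ≠ 0 → aeval f q v = 0 → aeval f q = 0 := by
    intro q v hv hqv
    rcases hsimple (LinearMap.ker (aeval f q)) (fun u hu => by
      rw [LinearMap.mem_ker] at hu ⊢
      have hc : aeval f q * f = f * aeval f q := by
        have := congrArg (aeval f) (mul_comm q X)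
        simpa [aeval_X] using this
      have := LinearMap.congr_fun hc u
      simp only [Module.End.mul_apply] at this
      rw [this, hu, map_zero]) with hb | ht
    · exact absurd (hb.le (LinearMap.mem_ker.mpr hqv) : v ∈ (⊥ : Submodule (ZMod p) V)) (by simpa using hv)
    · exact LinearMap.ker_eq_top.mp ht
  obtain ⟨v0, hv0⟩ := exists_ne (0 : V)
  have hirr : Irreducible m := by
    refine (irreducible_of_monic (minpoly.monic hint) fun h1 => ?_).mpr fun a b ha hb hab => ?_
    · have := minpoly.aeval (ZMod p) f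
      rw [show minpoly (ZMod p) f = 1 from h1, map_one] at this
      exact hv0 (LinearMap.congr_fun this v0)
    · have h0 : aeval f a (aeval f b v0) = 0 := by
        rw [← Module.End.mul_apply, ← map_mul, hab, minpoly.aeval]; rfl
      by_cases hb0 : aeval f b v0 = 0
      · left
        refine ha.natDegree_eq_zero.mp ?_
        have h1 := natDegree_le_of_dvd (minpoly.dvd (ZMod p) f (hker b v0 hv0 hb0)) hb.ne_zero
        change m.natDegree ≤ b.natDegree at h1
        rw [show m = minpoly (ZMod p) f from rfl, ← hab, natDegree_mul ha.ne_zero hb.ne_zero] at h1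
        omega
      · right
        refine hb.natDegree_eq_zero.mp ?_
        have h1 := natDegree_le_of_dvd (minpoly.dvd (ZMod p) f (hker a _ hb0 h0)) ha.ne_zero
        change m.natDegree ≤ a.natDegree at h1
        rw [show m = minpoly (ZMod p) f from rfl, ← hab, natDegree_mul ha.ne_zero hb.ne_zero] at h1
        omega
  have : Fact (Irreducible m) := ⟨hirr⟩
  let ev : AdjoinRoot m →ₗ[ZMod p] V :=
    (LinearMap.applyₗ v0).comp (Ideal.Quotient.liftₐ (Ideal.span {m}) (aeval f) (fun a ha => by
      obtain ⟨c, rfl⟩ := Ideal.mem_span_singleton.mp ha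
      rw [map_mul, minpoly.aeval, zero_mul]) : AdjoinRoot m →ₐ[ZMod p] Module.End (ZMod p) V).toLinearMap
  have hev : ∀ q : (ZMod p)[X], ev (AdjoinRoot.mk m q) = aeval f q v0 := fun q => by
    rfl
  have hinj : Function.Injective ev := by
    rw [injective_iff_map_eq_zero]
    intro a ha
    induction a using AdjoinRoot.induction_on with
    | ih q =>
      rw [hev] at ha
      rw [AdjoinRoot.mk_eq_zero]
      exact minpoly.dvd _ _ (hker q v0 hv0 ha)
  have hsurj : Function.Surjective ev := by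
    rw [← LinearMap.range_eq_top]
    refine (hsimple _ ?_).resolve_left fun hb => ?_
    · rintro _ ⟨a, rfl⟩
      induction a using AdjoinRoot.induction_on with
      | ih q =>
        refine ⟨AdjoinRoot.mk m (X * q), ?_⟩
        rw [hev, hev, map_mul, aeval_X, Module.End.mul_apply]
    · have : ev 1 ∈ LinearMap.range ev := ⟨1, rfl⟩
      rw [hb, Submodule.mem_bot, ← map_one (AdjoinRoot.mk m), hev] at this
      exact hv0 (by simpa using this)
  let e := LinearEquiv.ofBijective ev ⟨hinj, hsurj⟩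
  have : Finite (AdjoinRoot m) := Finite.of_equiv V e.symm.toEquiv
  set d := Module.finrank (ZMod p) V with hd
  have hd' : m.natDegree = d := by
    rw [hd, ← e.finrank_eq, (AdjoinRoot.powerBasis hirr.ne_zero).finrank, AdjoinRoot.powerBasis_dim]
  have hK : Nat.card (AdjoinRoot m) = p ^ d := by
    rw [Module.natCard_eq_pow_finrank (K := ZMod p), Nat.card_zmod, e.finrank_eq]
  set r := AdjoinRoot.root m
  have hr : ∀ q : (ZMod p)[X], aeval r q = AdjoinRoot.mk m q := fun q => AdjoinRoot.aeval_eq q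
  have hpow : ∀ k : ℕ, r ^ k = 1 ↔ h ∣ k := by
    intro k
    rw [← hf v0 hv0 k, ← sub_eq_zero, show r ^ k - 1 = AdjoinRoot.mk m (X ^ k - 1) by simp [r],
      ← map_eq_zero_iff ev hinj, hev, map_sub, map_pow, aeval_X, map_one, LinearMap.sub_apply, sub_eq_zero]
    rfl
  have hr0 : r ≠ 0 := fun h0 => by
    have := (hpow h).mpr dvd_rfl
    rw [h0, zero_pow (by omega)] at this
    exact zero_ne_one this
  have hcast : ∀ k : ℕ, r ^ p ^ k = r ↔ ((p : ZMod h)) ^ k = 1 := by
    intro k
    have h1 : 1 ≤ p ^ k := Nat.one_le_pow _ _ hp.pos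
    constructor
    · intro he
      have : r ^ (p ^ k - 1) = 1 := by
        apply mul_right_cancel₀ hr0
        rw [← pow_succ, Nat.sub_add_cancel h1, he, one_mul]
      rw [hpow, ← ZMod.natCast_eq_zero_iff, Nat.cast_sub h1, Nat.cast_pow, Nat.cast_one, sub_eq_zero] at this
      exact this
    · intro he
      have : h ∣ p ^ k - 1 := by
        rw [← ZMod.natCast_eq_zero_iff, Nat.cast_sub h1, Nat.cast_pow, Nat.cast_one, he, sub_self]
      conv_lhs => rw [← Nat.sub_add_cancel h1, pow_succ, (hpow _).mpr this, one_mul]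
  have hfix : ∀ t, 0 < t → t < d → r ^ p ^ t ≠ r := by
    intro t ht htd he
    have hall : ∀ a : AdjoinRoot m, a ^ p ^ t = a := by
      intro a
      induction a using AdjoinRoot.induction_on with
      | ih q => rw [← hr, ← aeval_frobenius, he]
    have hle : Nat.card (AdjoinRoot m) ≤ p ^ t := by
      have : Fintype (AdjoinRoot m) := Fintype.ofFinite _
      have hne : (X ^ p ^ t - X : (AdjoinRoot m)[X]) ≠ 0 :=
        FiniteField.X_pow_card_pow_sub_X_ne_zero _ ht.ne' hp.one_lt
      rw [Nat.card_eq_fintype_card]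
      calc Fintype.card (AdjoinRoot m) = (Finset.univ : Finset (AdjoinRoot m)).card := rfl
        _ ≤ (X ^ p ^ t - X : (AdjoinRoot m)[X]).roots.toFinset.card := by
          refine Finset.card_le_card fun a _ => ?_
          rw [Multiset.mem_toFinset, mem_roots hne, IsRoot, eval_sub, eval_pow, eval_X, hall, sub_self]
        _ ≤ (X ^ p ^ t - X : (AdjoinRoot m)[X]).roots.card := Multiset.toFinset_card_le _
        _ ≤ _ := card_roots' _
        _ = p ^ t := FiniteField.X_pow_card_pow_sub_X_natDegree_eq _ ht.ne' hp.one_lt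
    rw [hK] at hle
    exact absurd ((Nat.pow_le_pow_iff_right hp.one_lt).mp hle) (by omega)
  have hrd : r ^ p ^ d = r := by
    have : Fintype (AdjoinRoot m) := Fintype.ofFinite _
    rw [← hK, Nat.card_eq_fintype_card, FiniteField.pow_card]
  have hd1 := (hcast d).mp hrd
  refine ⟨hd1, ?_⟩
  rintro ⟨B, hB, hinv⟩
  obtain ⟨j, hj⟩ : ∃ j, j + 1 = h := ⟨h - 1, by omega⟩
  have hadj : ∀ (q : (ZMod p)[X]) (u v : V), B (aeval (f ^ j) q u) v = B u (aeval f q v) := by
    intro q
    induction q using Polynomial.induction_on' with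
    | add a b ha hb => intro u v; simp [ha, hb]
    | monomial k c =>
      intro u v
      have key : ∀ k : ℕ, ∀ u v, B (((f ^ j) ^ k) u) v = B u ((f ^ k) v) := by
        intro k
        induction k with
        | zero => intro u v; simp
        | succ k ih =>
          intro u v
          rw [pow_succ, Module.End.mul_apply, ih, pow_succ' f k, Module.End.mul_apply]
          have hfh : f ((f ^ j) u) = u := by
            rw [← Module.End.mul_apply, ← pow_succ', hj]
            by_cases hu : u = 0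
            · rw [hu, map_zero]
            · exact (hf u hu h).mpr dvd_rfl
          conv_rhs => rw [← hfh]
          rw [hinv]
      simp [aeval_monomial, key, Algebra.algebraMap_eq_smul_one]
  have hy : aeval (r ^ j) m = 0 := by
    have h0 : aeval (f ^ j) m = 0 := by
      refine LinearMap.ext fun u => hB.1 _ fun v => ?_
      rw [hadj, minpoly.aeval, LinearMap.zero_apply, map_zero]
    have h2 : aeval f (m.comp (X ^ j)) = 0 := by rw [aeval_comp, map_pow, aeval_X, h0]
    have h3 := AdjoinRoot.mk_eq_zero.mpr (minpoly.dvd _ _ h2)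
    rwa [← hr, aeval_comp, map_pow, aeval_X] at h3
  let S : Finset (AdjoinRoot m) := (Finset.range d).image fun i => r ^ p ^ i
  have hinjS : Set.InjOn (fun i => r ^ p ^ i) (Finset.range d : Set ℕ) := by
    intro a ha b hb he
    simp only [Finset.coe_range, Set.mem_Iio] at ha hb
    have hfr : ∀ i (s t : AdjoinRoot m), s ^ p ^ i = t ^ p ^ i → s = t := by
      intro i s t hst
      have := charP_of_injective_algebraMap (algebraMap (ZMod p) (AdjoinRoot m)).injective p
      rw [← sub_eq_zero, ← sub_pow_char_pow (p := p)] at hst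
      exact sub_eq_zero.mp (pow_eq_zero_iff (pow_ne_zero _ hp.ne_zero) |>.mp hst)
    have key : ∀ u w : ℕ, u < w → w < d → r ^ p ^ u ≠ r ^ p ^ w := fun u w huw hw he' => by
      refine hfix (w - u) (by omega) (by omega) (hfr u _ _ ?_)
      rw [← pow_mul, ← pow_add, Nat.sub_add_cancel huw.le]
      exact he'.symm
    rcases Nat.lt_trichotomy a b with hlt | heq | hgt
    · exact absurd he (key a b hlt hb)
    · exact heq
    · exact absurd he.symm (key b a hgt ha)
  have hm0 : m.map (algebraMap (ZMod p) (AdjoinRoot m)) ≠ 0 :=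
    (Polynomial.map_ne_zero_iff (algebraMap (ZMod p) (AdjoinRoot m)).injective).mpr hirr.ne_zero
  have hsub : S ⊆ (m.map (algebraMap (ZMod p) (AdjoinRoot m))).roots.toFinset := by
    intro a ha
    obtain ⟨i, -, rfl⟩ := Finset.mem_image.mp ha
    rw [Multiset.mem_toFinset, mem_roots hm0, IsRoot, eval_map_algebraMap, aeval_frobenius, hr,
      AdjoinRoot.mk_self, zero_pow (pow_ne_zero _ hp.ne_zero)]
  have hS : S.card = d := by rw [Finset.card_image_of_injOn hinjS, Finset.card_range]
  have heq : S = (m.map (algebraMap (ZMod p) (AdjoinRoot m))).roots.toFinset := by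
    refine Finset.eq_of_subset_of_card_le hsub ?_
    rw [hS, ← hd']
    exact (Multiset.toFinset_card_le _).trans ((card_roots' _).trans natDegree_map_le)
  have hyS : r ^ j ∈ S := by
    rw [heq, Multiset.mem_toFinset, mem_roots hm0, IsRoot, eval_map_algebraMap, hy]
  obtain ⟨i, hi, hir⟩ := Finset.mem_image.mp hyS
  rw [Finset.mem_range] at hi
  have hi1 : ((p : ZMod h)) ^ i = -1 := by
    have : r ^ (p ^ i + 1) = 1 := by rw [pow_succ, hir, ← pow_succ, hj, (hpow h).mpr dvd_rfl]
    rw [hpow, ← ZMod.natCast_eq_zero_iff] at this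
    push_cast at this
    exact eq_neg_of_add_eq_zero_left this
  refine ⟨i, ?_, hi1⟩
  have h2i : r ^ p ^ (2 * i) = r := (hcast _).mpr (by rw [mul_comm, pow_mul, hi1]; ring)
  rcases Nat.lt_trichotomy (2 * i) d with hlt | heq' | hgt
  · rcases Nat.eq_zero_or_pos i with rfl | hpos
    · rw [pow_zero] at hi1
      have : ((2 : ℕ) : ZMod h) = 0 := by rw [Nat.cast_ofNat, ← one_add_one_eq_two]; nth_rewrite 1 [hi1]; ring
      rw [ZMod.natCast_eq_zero_iff] at this
      exact absurd (Nat.le_of_dvd two_pos this) (by omega)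
    · exact absurd h2i (hfix _ (by omega) hlt)
  · exact heq'.symm
  · refine absurd ?_ (hfix (2 * i - d) (by omega) (by omega))
    conv_lhs => rw [← hrd]
    rw [← pow_mul, ← pow_add, Nat.add_sub_cancel' hgt.le, h2i]

theorem semireg_restrict {h : ℕ} {f : V →ₗ[ZMod p] V} (hf : Semireg h f) {U : Submodule (ZMod p) V}
    (hU : ∀ u ∈ U, f u ∈ U) : Semireg h (f.restrict hU) := by
  intro v hv k
  rw [← hf v (fun h0 => hv (Subtype.ext h0)) k, ← Subtype.coe_inj, Module.End.pow_restrict k,
    LinearMap.coe_restrict_apply]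

theorem semireg_quotient [Finite V] {h : ℕ} {f : V →ₗ[ZMod p] V} (hf : Semireg h f)
    (hfh : ∀ v, (f ^ h) v = v) {W : Submodule (ZMod p) V} (hW : ∀ u ∈ W, f u ∈ W) :
    Semireg h (W.mapQ W f hW) := by
  intro v hv k
  obtain ⟨v, rfl⟩ := Submodule.mkQ_surjective W v
  have hk : ((W.mapQ W f hW) ^ k) (W.mkQ v) = W.mkQ ((f ^ k) v) := by
    clear hv
    induction k with
    | zero => simp
    | succ k ih => rw [pow_succ', Module.End.mul_apply, ih, pow_succ', Module.End.mul_apply]; rfl
  rw [hk]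
  constructor
  · intro he
    by_contra hdvd
    have hWk : ∀ w ∈ W, (f ^ k) w - w ∈ W := fun w hw => W.sub_mem (by
      clear he hk hdvd hv
      induction k with
      | zero => simpa using hw
      | succ k ih => rw [pow_succ', Module.End.mul_apply]; exact hW _ ih) hw
    let g : W → W := fun w => ⟨(f ^ k) w - w, hWk w w.2⟩
    have hg : Function.Injective g := by
      intro a b hab
      by_contra hne
      refine hdvd ((hf ((a : V) - b) (fun h0 => hne (Subtype.ext (sub_eq_zero.mp h0))) k).mp ?_)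
      have := congrArg Subtype.val hab
      simp only [g] at this
      rw [map_sub, sub_eq_sub_iff_sub_eq_sub]
      exact this
    obtain ⟨w, hw⟩ := (Finite.injective_iff_surjective.mp hg) ⟨(f ^ k) v - v, (Submodule.Quotient.eq W).mp he⟩
    have hw' := congrArg Subtype.val hw
    simp only [g] at hw'
    refine hv ?_
    by_cases h0 : v - w = 0
    · rw [Submodule.mkQ_apply, Submodule.Quotient.mk_eq_zero, sub_eq_zero.mp h0]; exact w.2
    · exact absurd ((hf _ h0 k).mp (by rw [map_sub, sub_eq_sub_iff_sub_eq_sub]; exact hw'.symm)) hdvd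
  · rintro ⟨c, rfl⟩
    congr 1
    clear hk
    induction c with
    | zero => simp
    | succ c ih => rw [Nat.mul_succ, pow_add, Module.End.mul_apply, hfh, ih]

/-- A bilinear form over `ZMod p` from a biadditive map. -/
def mkBil (bb : V → V → ZMod p) (hl : ∀ a b w, bb (a + b) w = bb a w + bb b w)
    (hr : ∀ v a b, bb v (a + b) = bb v a + bb v b) : LinearMap.BilinForm (ZMod p) V :=
  LinearMap.mk₂ (ZMod p) bb hl
    (fun c v w => ((AddMonoidHom.mk' (fun u => bb u w) fun a b => hl a b w).toZModLinearMap p).map_smul c v)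
    hr
    (fun c v w => ((AddMonoidHom.mk' (fun u => bb v u) fun a b => hr v a b).toZModLinearMap p).map_smul c w)

end Linear

theorem symp.{w} {p : ℕ} [Fact p.Prime] {h : ℕ} (hh : 3 ≤ h) (m : ℕ) :
    ∀ (V : Type w) [AddCommGroup V] [Module (ZMod p) V] [Finite V],
      Module.finrank (ZMod p) V = m → ∀ (B : LinearMap.BilinForm (ZMod p) V), B.IsRefl → B.Nondegenerate →
      ∀ (f : V →ₗ[ZMod p] V), (∀ u v, B (f u) (f v) = B u v) → Semireg h f →
        ∃ n, m = 2 * n ∧ (((p : ZMod h)) ^ n = 1 ∨ ((p : ZMod h)) ^ n = -1) := by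
  classical
  induction m using Nat.strong_induction_on with | _ m IH => ?_
  intro V _ _ _ hm B hrefl hB f hinv hf
  rcases subsingleton_or_nontrivial V with hV | hV
  · exact ⟨0, by rw [← hm, Module.finrank_zero_of_subsingleton], Or.inl (pow_zero _)⟩
  have hfh : ∀ v, (f ^ h) v = v := fun v => by
    by_cases hv : v = 0
    · rw [hv, map_zero]
    · exact (hf v hv h).mpr dvd_rfl
  obtain ⟨W, -, hWmin⟩ := Finite.exists_le_minimal
    (p := fun U : Submodule (ZMod p) V => (∀ u ∈ U, f u ∈ U) ∧ U ≠ ⊥) (a := ⊤)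
    ⟨fun _ _ => trivial, top_ne_bot⟩
  obtain ⟨hW, hW0⟩ := hWmin.prop
  have : Nontrivial W := Submodule.nontrivial_iff_ne_bot.mpr hW0
  have hWsimple : ∀ U : Submodule (ZMod p) W, (∀ u ∈ U, f.restrict hW u ∈ U) → U = ⊥ ∨ U = ⊤ := by
    intro U hU
    by_cases h0 : U = ⊥
    · exact Or.inl h0
    · right
      have h1 : W ≤ U.map W.subtype := hWmin.le_of_le ⟨by
        rintro _ ⟨u, hu, rfl⟩; exact ⟨f.restrict hW u, hU u hu, rfl⟩, fun h2 => h0 (by
          rw [← Submodule.map_bot W.subtype] at h2; exact Submodule.map_injective_of_injective W.subtype_injective h2)⟩ (Submodule.map_subtype_le W U)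
      refine Submodule.map_injective_of_injective W.subtype_injective (le_antisymm ?_ ?_)
      · exact Submodule.map_mono le_top
      · rwa [Submodule.map_subtype_top]
  obtain ⟨hd1, hd2⟩ := simple_case hh (semireg_restrict hf hW) inferInstance hWsimple
  set d := Module.finrank (ZMod p) W with hd
  have hdpos : 0 < d := Module.finrank_pos
  set L := B.orthogonal W with hL
  have hLinv : ∀ u ∈ L, f u ∈ L := by
    intro u hu w hw
    obtain ⟨w', hw', rfl⟩ : ∃ w' ∈ W, f w' = w := by
      refine ⟨(f ^ (h - 1)) w, ?_, ?_⟩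
      · clear hu hd1 hd2
        induction (h - 1) with
        | zero => simpa using hw
        | succ k ih => rw [pow_succ', Module.End.mul_apply]; exact hW _ ih
      · rw [← Module.End.mul_apply, ← pow_succ', Nat.sub_add_cancel (by omega), hfh]
    show B (f w') (f u) = 0
    rw [hinv]
    exact hu w' hw'
  have hLdim : Module.finrank (ZMod p) L = m - d := by
    rw [hL, LinearMap.BilinForm.finrank_orthogonal hB, hm]
  have hdm : d ≤ m := hm ▸ Submodule.finrank_le W
  by_cases hWL : W ≤ L
  · -- `W` is totally isotropic: pass to `L / W`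
    set W' : Submodule (ZMod p) L := W.comap L.subtype with hW'
    have hW'f : ∀ u ∈ W', f.restrict hLinv u ∈ W' := fun u hu => hW _ hu
    have hW'd : Module.finrank (ZMod p) W' = d := (Submodule.comapSubtypeEquivOfLe hWL).finrank_eq
    let BL : L →ₗ[ZMod p] L →ₗ[ZMod p] ZMod p := B.restrict L
    have hk1 : ∀ u : L, W' ≤ LinearMap.ker (BL u) := fun u w hw => hrefl _ _ (u.2 _ hw)
    let BQ1 : L →ₗ[ZMod p] (L ⧸ W') →ₗ[ZMod p] ZMod p :=
      { toFun := fun u => W'.liftQ (BL u) (hk1 u)
        map_add' := fun a b => by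
          refine Submodule.linearMap_qext _ (LinearMap.ext fun x => ?_)
          simp
        map_smul' := fun c a => by
          refine Submodule.linearMap_qext _ (LinearMap.ext fun x => ?_)
          simp }
    have hk2 : W' ≤ LinearMap.ker BQ1 := fun w hw => by
      refine Submodule.linearMap_qext _ (LinearMap.ext fun x => ?_)
      exact x.2 _ hw
    let BQ : LinearMap.BilinForm (ZMod p) (L ⧸ W') := W'.liftQ BQ1 hk2
    have hBQ : ∀ u v : L, BQ (Submodule.Quotient.mk u) (Submodule.Quotient.mk v) = B u v := fun u v => rfl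
    have hQrefl : BQ.IsRefl := by
      intro a b
      induction a using Submodule.Quotient.induction_on with
      | H a =>
        induction b using Submodule.Quotient.induction_on with
        | H b => rw [hBQ, hBQ]; exact hrefl _ _
    have hQnd : BQ.Nondegenerate := by
      refine hQrefl.nondegenerate_iff_separatingLeft.mpr fun a ha => ?_
      induction a using Submodule.Quotient.induction_on with
      | H a =>
        rw [Submodule.Quotient.mk_eq_zero]
        show (a : V) ∈ W
        rw [← LinearMap.BilinForm.orthogonal_orthogonal hB hrefl W]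
        intro x hx
        exact hrefl _ _ (by simpa [hBQ] using ha (Submodule.Quotient.mk (⟨x, hx⟩ : L)))
    have hfLh : ∀ v : L, ((f.restrict hLinv) ^ h) v = v := fun v => Subtype.ext (by
      rw [Module.End.pow_restrict h, LinearMap.coe_restrict_apply, hfh])
    have : Finite (L ⧸ W') := Finite.of_surjective _ W'.mkQ_surjective
    have hQdim : Module.finrank (ZMod p) (L ⧸ W') = m - d - d := by
      rw [Submodule.finrank_quotient, hLdim, hW'd]
    obtain ⟨n, hn, hor⟩ := IH (m - d - d) (by omega) (L ⧸ W') hQdim BQ hQrefl hQnd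
      (W'.mapQ W' (f.restrict hLinv) hW'f) (fun a b => by
        induction a using Submodule.Quotient.induction_on with
        | H a =>
          induction b using Submodule.Quotient.induction_on with
          | H b => exact hinv _ _)
      (semireg_quotient (semireg_restrict hf hLinv) hfLh hW'f)
    have hWL' : d ≤ m - d := hLdim ▸ Submodule.finrank_mono hWL
    exact ⟨n + d, by omega, by rw [pow_add, hd1, mul_one]; exact hor⟩
  · -- `W` is nondegenerate
    have hinf : W ⊓ L = ⊥ := by
      by_contra h0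
      exact hWL (le_trans (hWmin.le_of_le ⟨fun u hu => Submodule.mem_inf.mpr ⟨hW _ (Submodule.mem_inf.mp hu).1, hLinv _ (Submodule.mem_inf.mp hu).2⟩, h0⟩ inf_le_left) inf_le_right)
    have hWnd : (B.restrict W).Nondegenerate :=
      B.nondegenerate_restrict_of_disjoint_orthogonal hrefl (disjoint_iff.mpr hinf)
    obtain ⟨e, he, hpe⟩ := hd2 ⟨B.restrict W, hWnd, fun u v => hinv _ _⟩
    have hLnd : (B.restrict L).Nondegenerate :=
      B.nondegenerate_restrict_of_disjoint_orthogonal hrefl (disjoint_iff.mpr (by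
        rw [hL, LinearMap.BilinForm.orthogonal_orthogonal hB hrefl W, ← hL, inf_comm, hinf]))
    obtain ⟨n, hn, hor⟩ := IH (m - d) (by omega) L hLdim (B.restrict L) (fun a b hab => hrefl _ _ hab) hLnd
      (f.restrict hLinv) (fun a b => hinv _ _) (semireg_restrict hf hLinv)
    refine ⟨n + e, by omega, ?_⟩
    rw [pow_add, hpe]
    rcases hor with h1 | h1
    · right; rw [h1, one_mul]
    · left; rw [h1]; ring

theorem symp_of_pairing {p : ℕ} [Fact p.Prime] {V : Type*} [AddCommGroup V] [Module (ZMod p) V] [Finite V]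
    {h : ℕ} (hh : 3 ≤ h) {m : ℕ} (hm : Module.finrank (ZMod p) V = m) (bb : V → V → ZMod p)
    (hl : ∀ a b w, bb (a + b) w = bb a w + bb b w) (hr : ∀ v a b, bb v (a + b) = bb v a + bb v b)
    (hrefl : ∀ u v, bb u v = 0 → bb v u = 0) (hsep : ∀ u, (∀ v, bb u v = 0) → u = 0)
    (f : V →ₗ[ZMod p] V) (hinv : ∀ u v, bb (f u) (f v) = bb u v) (hf : Semireg h f) :
    ∃ n, m = 2 * n ∧ (((p : ZMod h)) ^ n = 1 ∨ ((p : ZMod h)) ^ n = -1) :=
  have hB : (mkBil bb hl hr).IsRefl := hrefl
  symp hh m V hm (mkBil bb hl hr) hB (hB.nondegenerate_iff_separatingLeft.mpr hsep) f hinv hf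

theorem additive_pairing {p : ℕ} [Fact p.Prime] {V : Type*} [AddCommGroup V] [Module (ZMod p) V] [Finite V]
    {n h : ℕ} (hh : 3 ≤ h) (hcard : Nat.card V = p ^ (2 * n)) (bb : V → V → ZMod p)
    (hl : ∀ a b w, bb (a + b) w = bb a w + bb b w) (hr : ∀ v a b, bb v (a + b) = bb v a + bb v b)
    (hrefl : ∀ u v, bb u v = 0 → bb v u = 0) (hsep : ∀ u, (∀ v, bb u v = 0) → u = 0)
    (F : V →+ V) (hinv : ∀ u v, bb (F u) (F v) = bb u v)
    (hsemi : ∀ v : V, v ≠ 0 → ∀ k : ℕ, (F : V → V)^[k] v = v ↔ h ∣ k) :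
    ((p : ZMod h)) ^ n = 1 ∨ ((p : ZMod h)) ^ n = -1 := by
  let f : V →ₗ[ZMod p] V := F.toZModLinearMap p
  have hfk : ∀ (k : ℕ) (v : V), (f ^ k) v = (F : V → V)^[k] v := by
    intro k
    induction k with
    | zero => intro v; rfl
    | succ k ih => intro v; rw [pow_succ', Module.End.mul_apply, ih, Function.iterate_succ_apply']; rfl
  have hdim : Module.finrank (ZMod p) V = 2 * n := by
    have h1 := Module.natCard_eq_pow_finrank (K := ZMod p) (V := V)
    rw [hcard, Nat.card_zmod] at h1
    exact Nat.pow_right_injective (Fact.out : p.Prime).two_le h1.symm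
  obtain ⟨n', hn', hor⟩ := symp_of_pairing hh hdim bb hl hr hrefl hsep f hinv
    (fun v hv k => by rw [hfk]; exact hsemi v hv k)
  obtain rfl : n' = n := by omega
  exact hor

theorem group_pairing {p : ℕ} [Fact p.Prime] {Q : Type*} [CommGroup Q] [Finite Q] (hexp : ∀ a : Q, a ^ p = 1)
    {n h : ℕ} (hh : 3 ≤ h) (hcard : Nat.card Q = p ^ (2 * n)) (ω : Q → Q → ZMod p)
    (hl : ∀ a b w, ω (a * b) w = ω a w + ω b w) (hr : ∀ v a b, ω v (a * b) = ω v a + ω v b)
    (hrefl : ∀ u v, ω u v = 0 → ω v u = 0) (hsep : ∀ u, (∀ v, ω u v = 0) → u = 1)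
    (fQ : Q →* Q) (hinv : ∀ u v, ω (fQ u) (fQ v) = ω u v)
    (hsemi : ∀ v : Q, v ≠ 1 → ∀ k : ℕ, (fQ : Q → Q)^[k] v = v ↔ h ∣ k) :
    ((p : ZMod h)) ^ n = 1 ∨ ((p : ZMod h)) ^ n = -1 := by
  letI iM : Module (ZMod p) (Additive Q) := AddCommGroup.zmodModule fun v => by
    exact congrArg Additive.ofMul (hexp (Additive.toMul v))
  exact additive_pairing (V := Additive Q) hh (hcard ▸ rfl) (fun u v => ω (Additive.toMul u) (Additive.toMul v))
    (fun a b w => hl _ _ _) (fun v a b => hr _ _ _) (fun u v huv => hrefl _ _ huv)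
    (fun u hu => hsep _ fun v => hu (Additive.ofMul v)) (MonoidHom.toAdditive fQ) (fun u v => hinv _ _)
    (fun v hv k => hsemi (Additive.toMul v) hv k)

open Subgroup in
open scoped commutatorElement in
theorem main {G : Type*} [Group G] [Finite G] {p : ℕ} [Fact p.Prime] (P H : Subgroup G)
    (hP : Cfsg.IsExtraspecial p ↥P) (n : ℕ) (hn : Nat.card P = p ^ (2 * n + 1)) (hH : IsCyclic H)
    (hcop : (Nat.card H).Coprime p) (hHP : H ≤ normalizer (P : Set G))
    (hfix : ∀ x ∈ H, x ≠ 1 → P ⊓ centralizer {x} = (center ↥P).map P.subtype) :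
    Nat.card H ∣ p ^ n + 1 ∨ Nat.card H ∣ p ^ n - 1 := by
  classical
  have hp : p.Prime := Fact.out
  set h := Nat.card H with hhdef
  have hhpos : 0 < h := Nat.card_pos
  by_cases hh : h ≤ 2
  · interval_cases h
    · exact Or.inl (one_dvd _)
    · left
      have : Odd p := hp.odd_of_ne_two fun e => by subst e; exact absurd hcop (by norm_num)
      exact even_iff_two_dvd.mp ((this.pow).add_one)
  push Not at hh
  obtain ⟨⟨x, hx⟩, hxg⟩ := hH.exists_generator
  have hxo : orderOf x = h := by
    rw [hhdef, ← orderOf_eq_card_of_forall_mem_zpowers hxg, ← orderOf_coe]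
  set Z := center ↥P with hZ
  have hZcard : Nat.card Z = p := hP.2
  obtain ⟨⟨hPp, hfr, hcm⟩, -⟩ := hP
  have hfixcard : ∀ y ∈ H, y ≠ 1 → ∀ v : ↥P, y * v * y⁻¹ = v → v ∈ Z := by
    intro y hy hy1 v hv
    obtain ⟨w, hw, hwv⟩ := (hfix y hy hy1).le ⟨v.2, mem_centralizer_singleton_iff.mpr
      (mul_inv_eq_iff_eq_mul.mp hv).symm⟩
    exact Subtype.ext hwv ▸ hw
  have hZfix : ∀ v : ↥P, v ∈ Z → ∀ y ∈ H, y * v * y⁻¹ = (v : G) := by
    intro v hv y hy
    by_cases hy1 : y = 1
    · rw [hy1]; group
    · have := (hfix y hy hy1).ge (mem_map_of_mem P.subtype hv)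
      have e := mem_centralizer_singleton_iff.mp this.2
      rw [coe_subtype] at e
      rw [← e, mul_inv_cancel_right]
  -- the automorphism induced by the generator
  let φ : MulAut ↥P := P.normalizerMonoidHom (inclusion hHP ⟨x, hx⟩)
  have hφ : ∀ v : ↥P, ((φ v : ↥P) : G) = x * v * x⁻¹ := fun v => rfl
  have hφc : ∀ v ∈ Z, φ v = v := fun v hv => Subtype.ext ((hφ v).trans (hZfix v hv x hx))
  let Q := ↥P ⧸ Z
  have hcomm : ∀ a b : Q, a * b = b * a := by
    intro a b
    obtain ⟨a, rfl⟩ := QuotientGroup.mk'_surjective Z a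
    obtain ⟨b, rfl⟩ := QuotientGroup.mk'_surjective Z b
    rw [← map_mul, ← map_mul, QuotientGroup.mk'_apply, QuotientGroup.mk'_apply, QuotientGroup.eq,
      show (a * b)⁻¹ * (b * a) = ⁅b⁻¹, a⁻¹⁆ by rw [commutatorElement_def]; group, hZ, ← hcm]
    exact commutator_mem_commutator (mem_top _) (mem_top _)
  have hexp : ∀ a : Q, a ^ p = 1 := by
    intro a
    obtain ⟨a, rfl⟩ := QuotientGroup.mk'_surjective Z a
    rw [← map_pow, QuotientGroup.mk'_apply, QuotientGroup.eq_one_iff, hZ, ← hfr]
    exact Lib.PGroupFrattini.pow_mem_frattini hPp a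
  let iQ : CommGroup Q := { (inferInstance : Group Q) with mul_comm := hcomm }
  have hcz : ∀ a b : ↥P, ⁅a, b⁆ ∈ Z := fun a b => hcm.le (commutator_mem_commutator (mem_top a) (mem_top b))
  -- the commutator pairing
  let ω : ↥P → ↥P → ↥Z := fun a b => ⟨⁅a, b⁆, hcz a b⟩
  have hω1 : ∀ a a' b, ω (a * a') b = ω a b * ω a' b := by
    intro a a' b
    refine Subtype.ext ?_
    show ⁅a * a', b⁆ = ⁅a, b⁆ * ⁅a', b⁆
    have h1 := mem_center_iff.mp (hcz a' b)
    calc ⁅a * a', b⁆ = a * ⁅a', b⁆ * a⁻¹ * ⁅a, b⁆ := by simp only [commutatorElement_def]; group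
      _ = ⁅a', b⁆ * ⁅a, b⁆ := by rw [h1 a, mul_inv_cancel_right]
      _ = ⁅a, b⁆ * ⁅a', b⁆ := (h1 _).symm
  have hω2 : ∀ a b, ω b a = (ω a b)⁻¹ := fun a b => Subtype.ext (commutatorElement_inv a b).symm
  have hω3 : ∀ a b b', ω a (b * b') = ω a b * ω a b' := fun a b b' => by
    refine Subtype.ext ?_
    show ⁅a, b * b'⁆ = ⁅a, b⁆ * ⁅a, b'⁆
    have h1 := mem_center_iff.mp (hcz a b')
    calc ⁅a, b * b'⁆ = ⁅a, b⁆ * (b * ⁅a, b'⁆ * b⁻¹) := by simp only [commutatorElement_def]; group
      _ = ⁅a, b⁆ * ⁅a, b'⁆ := by rw [h1 b, mul_inv_cancel_right]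
  have : IsCyclic Z := isCyclic_of_prime_card hZcard
  let ψ : Additive Z ≃+ ZMod p := (zmodAddCyclicAddEquiv (G := Additive Z) inferInstance).symm.trans
    (ZMod.ringEquivCongr (by rw [Nat.card_congr Additive.toMul, hZcard])).toAddEquiv
  let g1 : ↥P → (Q →* Multiplicative (ZMod p)) := fun a =>
    QuotientGroup.lift Z
      (MonoidHom.mk' (fun b => Multiplicative.ofAdd (ψ (Additive.ofMul (ω a b)))) fun b b' => by
        rw [hω3, ofMul_mul, map_add, ofAdd_add])
      fun b hb => by
        have : ω a b = 1 := Subtype.ext (by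
          show ⁅a, b⁆ = 1
          exact commutatorElement_eq_one_iff_mul_comm.mpr (mem_center_iff.mp hb a))
        show Multiplicative.ofAdd _ = 1
        rw [this, ofMul_one, map_zero, ofAdd_zero]
  have hg1 : ∀ a b : ↥P, g1 a (QuotientGroup.mk' Z b) = Multiplicative.ofAdd (ψ (Additive.ofMul (ω a b))) :=
    fun a b => rfl
  let g2 : Q →* (Q →* Multiplicative (ZMod p)) :=
    QuotientGroup.lift Z (MonoidHom.mk' g1 fun a a' => by
      refine MonoidHom.ext fun b => ?_
      obtain ⟨b, rfl⟩ := QuotientGroup.mk'_surjective Z b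
      rw [MonoidHom.mul_apply, hg1, hg1, hg1, hω1, ofMul_mul, map_add, ofAdd_add])
      fun a ha => by
        refine MonoidHom.ext fun b => ?_
        obtain ⟨b, rfl⟩ := QuotientGroup.mk'_surjective Z b
        show g1 a _ = 1
        have : ω a b = 1 := Subtype.ext (by
          show ⁅a, b⁆ = 1
          exact commutatorElement_eq_one_iff_mul_comm.mpr (mem_center_iff.mp ha b).symm)
        rw [hg1, this, ofMul_one, map_zero, ofAdd_zero]
  let bb : Q → Q → ZMod p := fun v w => Multiplicative.toAdd (g2 v w)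
  have bb_add_left : ∀ a b w, bb (a * b) w = bb a w + bb b w := fun a b w => by
    show Multiplicative.toAdd (g2 (a * b) w) = _
    rw [map_mul, MonoidHom.mul_apply, toAdd_mul]
  have bb_add_right : ∀ v a b, bb v (a * b) = bb v a + bb v b := fun v a b => by
    show Multiplicative.toAdd (g2 v (a * b)) = _
    rw [map_mul, toAdd_mul]
  have hB : ∀ a b : ↥P, bb (QuotientGroup.mk' Z a) (QuotientGroup.mk' Z b) =
      ψ (Additive.ofMul (ω a b)) := fun a b => rfl
  have hsurj : ∀ v : Q, ∃ a : ↥P, QuotientGroup.mk' Z a = v := QuotientGroup.mk'_surjective Z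
  have hrefl : ∀ u v, bb u v = 0 → bb v u = 0 := by
    intro u v huv
    obtain ⟨a, rfl⟩ := hsurj u
    obtain ⟨b, rfl⟩ := hsurj v
    rw [hB] at huv ⊢
    rw [hω2, ofMul_inv, map_neg, huv, neg_zero]
  have hBnd : ∀ u, (∀ v, bb u v = 0) → u = 1 := by
    intro u hu
    obtain ⟨a, rfl⟩ := hsurj u
    have ha : a ∈ Z := mem_center_iff.mpr fun b => by
      have h1 := hu (QuotientGroup.mk' Z b)
      rw [hB, AddEquiv.map_eq_zero_iff, ofMul_eq_zero] at h1
      exact (commutatorElement_eq_one_iff_mul_comm.mp (congrArg Subtype.val h1)).symm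
    rw [QuotientGroup.mk'_apply, (QuotientGroup.eq_one_iff a).mpr ha]
  let fQ : Q →* Q := QuotientGroup.map Z Z φ.toMonoidHom fun v hv => by
    show φ v ∈ Z
    rwa [hφc v hv]
  have hfk : ∀ (k : ℕ) (a : ↥P), (fQ : Q → Q)^[k] (QuotientGroup.mk' Z a) = QuotientGroup.mk' Z ((φ ^ k) a) := by
    intro k
    induction k with
    | zero => intro a; rfl
    | succ k ih => intro a; rw [Function.iterate_succ_apply', ih, pow_succ', MulAut.mul_apply]; rfl
  have hφk : ∀ (k : ℕ) (a : ↥P), (((φ ^ k) a : ↥P) : G) = x ^ k * a * (x ^ k)⁻¹ := by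
    intro k
    induction k with
    | zero => intro a; simp
    | succ k ih =>
      intro a; rw [pow_succ' φ, MulAut.mul_apply, hφ, ih, pow_succ' x]; group
  have hinv : ∀ u v, bb (fQ u) (fQ v) = bb u v := by
    intro u v
    obtain ⟨a, rfl⟩ := hsurj u
    obtain ⟨b, rfl⟩ := hsurj v
    rw [show fQ (QuotientGroup.mk' Z a) = QuotientGroup.mk' Z (φ a) from rfl,
      show fQ (QuotientGroup.mk' Z b) = QuotientGroup.mk' Z (φ b) from rfl, hB, hB]
    congr 2
    refine Subtype.ext ?_
    show ⁅φ a, φ b⁆ = ⁅a, b⁆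
    rw [← map_commutatorElement, hφc _ (hcz a b)]
  have hsemi : ∀ v : Q, v ≠ 1 → ∀ k : ℕ, (fQ : Q → Q)^[k] v = v ↔ h ∣ k := by
    intro v hv k
    obtain ⟨a, rfl⟩ := hsurj v
    rw [hfk]
    constructor
    · intro he
      by_contra hdvd
      have hy1 : x ^ k ≠ 1 := fun e => hdvd (hxo ▸ orderOf_dvd_of_pow_eq_one e)
      have hy : x ^ k ∈ H := H.pow_mem hx k
      set Z' := Z.map P.subtype with hZ'
      have hT : zpowers (x ^ k) ≤ normalizer (Z' : Set G) := by
        intro y hy'
        refine Lib.Coprime.mem_normalizer_of_conj_smul_eq (eq_of_le_of_card_ge ?_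
          (Nat.card_congr (equivSMul (MulAut.conj y) Z').toEquiv).le)
        intro w hw
        rw [Lib.Coprime.mem_conj_smul] at hw
        obtain ⟨c, hc, hcw⟩ := hw
        have h1 := hZfix c hc y (zpowers_le.mpr hy hy')
        refine ⟨c, hc, ?_⟩
        rw [coe_subtype] at hcw ⊢
        rw [← h1, hcw]; group
      have hcop' : (Nat.card (zpowers (x ^ k))).Coprime (Nat.card Z') := by
        rw [Nat.card_zpowers, hZ', card_map_of_injective P.subtype_injective, hZcard]
        exact hcop.coprime_dvd_left (orderOf_dvd_natCard H hy)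
      have hk : ∀ y ∈ zpowers (x ^ k), (a : G)⁻¹ * (y * a * y⁻¹) ∈ Z' := by
        let S : Subgroup G :=
          { carrier := {y | y ∈ H ∧ (a : G)⁻¹ * (y * a * y⁻¹) ∈ Z'}
            one_mem' := ⟨one_mem _, by simp⟩
            mul_mem' := fun {y y'} hy hy' => ⟨mul_mem hy.1 hy'.1, by
              obtain ⟨c, hc, hcy⟩ := hy'.2
              rw [coe_subtype] at hcy
              have e2 : (a : G)⁻¹ * ((y * y') * a * (y * y')⁻¹) =
                  ((a : G)⁻¹ * (y * a * y⁻¹)) * (y * ((a : G)⁻¹ * (y' * a * y'⁻¹)) * y⁻¹) := by group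
              rw [e2, ← hcy, hZfix c hc y hy.1]
              exact mul_mem hy.2 (mem_map_of_mem P.subtype hc)⟩
            inv_mem' := fun {y} hy => ⟨inv_mem hy.1, by
              obtain ⟨c, hc, hcy⟩ := hy.2
              rw [coe_subtype] at hcy
              have e2 : (a : G)⁻¹ * (y⁻¹ * a * y⁻¹⁻¹) = (y⁻¹ * ((a : G)⁻¹ * (y * a * y⁻¹)) * y⁻¹⁻¹)⁻¹ := by
                group
              rw [e2, ← hcy, hZfix c hc y⁻¹ (inv_mem hy.1)]
              exact inv_mem (mem_map_of_mem P.subtype hc)⟩ }
        refine fun y hy' => ((zpowers_le.mpr ?_ : zpowers (x ^ k) ≤ S) hy').2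
        refine ⟨hy, ?_⟩
        rw [QuotientGroup.mk'_apply, QuotientGroup.mk'_apply, eq_comm, QuotientGroup.eq] at he
        have h2 := mem_map_of_mem P.subtype he
        simpa [hφk, hZ'] using h2
      obtain ⟨c, hc, hca⟩ := Lib.Coprime.exists_centralizer_mem_coset hT hcop'
        (Or.inl (Group.isSolvable_of_comm fun u v => Subtype.ext (by
          obtain ⟨i, hi⟩ := u.2; obtain ⟨j, hj⟩ := v.2
          simp only [Subgroup.coe_mul, ← hi, ← hj]; exact ((Commute.refl (x ^ k)).zpow_zpow i j).eq))) hk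
      refine hv ?_
      obtain ⟨d, hd, hda⟩ := hca
      rw [coe_subtype] at hda
      have hcP : c ∈ P := by
        have : c = (a : G) * d := by rw [hda]; group
        rw [this]; exact P.mul_mem a.2 d.2
      have hcZ : (⟨c, hcP⟩ : ↥P) ∈ Z := hfixcard _ hy hy1 ⟨c, hcP⟩ (by
        show x ^ k * c * (x ^ k)⁻¹ = c
        rw [mem_centralizer_iff.mp hc _ (mem_zpowers _), mul_inv_cancel_right])
      have : a ∈ Z := by
        have e3 : a = ⟨c, hcP⟩ * d⁻¹ := Subtype.ext (by
          show (a : G) = c * (d : G)⁻¹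
          rw [hda]; group)
        rw [e3]; exact mul_mem hcZ (inv_mem hd)
      rw [QuotientGroup.mk'_apply, (QuotientGroup.eq_one_iff a).mpr this]
    · intro hdvd
      have : x ^ k = 1 := orderOf_dvd_iff_pow_eq_one.mp (hxo.symm ▸ hdvd)
      congr 1
      exact Subtype.ext (by rw [hφk, this]; simp)
  have hcardQ : Nat.card Q = p ^ (2 * n) := by
    have h1 := card_eq_card_quotient_mul_card_subgroup Z
    rw [hn, hZcard, pow_succ] at h1
    exact (Nat.mul_right_cancel hp.pos h1).symm
  have hor := group_pairing (Q := Q) hexp (by omega) hcardQ bb bb_add_left bb_add_right hrefl hBnd fQ hinv hsemi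
  rcases hor with h1 | h1
  · right
    rw [← ZMod.natCast_eq_zero_iff, Nat.cast_sub (Nat.one_le_pow _ _ hp.pos), Nat.cast_pow, Nat.cast_one, h1,
      sub_self]
  · left
    rw [← ZMod.natCast_eq_zero_iff, Nat.cast_add, Nat.cast_pow, Nat.cast_one, h1, neg_add_cancel]

/-- Let P be an extraspecial p-group of order p^(2n+1) and H a cyclic group of order h prime to p acting on P (inside a common finite group: H normalizes P) so that C_P(x) = Z(P) for every non-identity x ∈ H. Then h divides p^n + 1 or h divides p^n − 1. -/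
theorem result {G : Type*} [Group G] [Finite G] {p : ℕ} [Fact p.Prime] (P H : Subgroup G) (hP : Cfsg.IsExtraspecial p ↥P) (n : ℕ) (hn : Nat.card P = p ^ (2 * n + 1)) (hH : IsCyclic H) (hcop : (Nat.card H).Coprime p) (hHP : H ≤ Subgroup.normalizer (P : Set G)) (hfix : ∀ x ∈ H, x ≠ 1 → P ⊓ Subgroup.centralizer {x} = (Subgroup.center ↥P).map P.subtype) : Nat.card H ∣ p ^ n + 1 ∨ Nat.card H ∣ p ^ n - 1 := by
  exact main P H hP n hn hH hcop hHP hfix

end Cfsg.Agent.S3767
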