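import Cfsg.Statements.S3768
import Cfsg.Agent.S0035
import Cfsg.Agent.S0039
import Cfsg.Agent.S0042
import Cfsg.Agent.Lib.Hall.Frobenius
import Cfsg.Agent.Lib.Coprime.Action

set_option autoImplicit false
open Cfsg

namespace Cfsg.Agent.S3768

/-- Let G be a finite Frobenius group with Frobenius complement R and Frobenius kernel K (the identity together with the elements in no conjugate of R), and let N be a normal subgroup of G not containing K. Then G/N is a Frobenius group with Frobenius complement RN/N whose Frobenius kernel is the image of K. -/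
theorem result {G : Type*} [Group G] [Finite G] (R : Subgroup G) (hR : Cfsg.IsFrobeniusComplement R) (N : Subgroup G) [N.Normal] (hKN : ¬ Cfsg.frobeniusKernel R ⊆ N) : Cfsg.IsFrobeniusComplement (R.map (QuotientGroup.mk' N)) ∧ Cfsg.frobeniusKernel (R.map (QuotientGroup.mk' N)) = QuotientGroup.mk' N '' Cfsg.frobeniusKernel R := by
  classical
  obtain ⟨K, hKset, hKn, hKc⟩ := Cfsg.Agent.S0035.result R hR
  haveI := hKn
  obtain ⟨K', hK'set, -, hK'nil⟩ := Cfsg.Agent.S0042.result R hR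
  have hKK : K' = K := SetLike.coe_injective (hK'set.trans hKset.symm)
  rw [hKK] at hK'nil
  haveI := hK'nil
  have hKne : K ≠ ⊥ := fun h => hKN (by rw [← hKset, h]; exact bot_le (a := N))
  have hfpf := (Cfsg.Agent.S0039.result K R hKc hKne hR.1).mp hR
  have hcop : (Nat.card K).Coprime (Nat.card R) := by
    have h1 : R.index = Nat.card K := hKc.index_eq_card
    have h2 := Cfsg.Agent.Lib.Hall.fc_index_mod_card hR
    rw [h1] at h2
    have h3 : (Nat.card K).gcd (Nat.card R) = Nat.gcd 1 (Nat.card R) := Nat.ModEq.gcd_eq h2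
    rw [Nat.gcd_one_left] at h3
    exact h3
  have hdec : ∀ g : G, ∃ k ∈ K, ∃ h ∈ R, k * h = g := by
    intro g
    obtain ⟨⟨⟨k, hk⟩, ⟨h, hh⟩⟩, hkh⟩ := hKc.2 g
    exact ⟨k, hk, h, hh, hkh⟩
  -- `N` lies in the kernel
  have hNR : ∀ h ∈ N, h ∈ R → h = 1 := by
    intro h hN hh
    by_contra h1
    let φ : K → K := fun k => ⟨(k : G) * h * (k : G)⁻¹ * h⁻¹, by
      rw [mul_assoc (k : G) h, mul_assoc (k : G)]
      exact K.mul_mem k.2 (hKn.conj_mem _ (K.inv_mem k.2) h)⟩
    have hinj : Function.Injective φ := by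
      intro a b hab
      have h2 : (a : G) * h * (a : G)⁻¹ = (b : G) * h * (b : G)⁻¹ :=
        mul_right_cancel (congrArg Subtype.val hab)
      have h3 : (b : G)⁻¹ * a ∈ K ⊓ Subgroup.centralizer ({h} : Set G) := by
        refine ⟨K.mul_mem (K.inv_mem b.2) a.2, Subgroup.mem_centralizer_singleton_iff.mpr ?_⟩
        calc (b : G)⁻¹ * a * h = (b : G)⁻¹ * ((a : G) * h * (a : G)⁻¹) * a := by group
          _ = h * ((b : G)⁻¹ * a) := by rw [h2]; group
      rw [hfpf h hh h1, Subgroup.mem_bot] at h3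
      exact Subtype.ext (inv_mul_eq_one.mp h3).symm
    refine hKN ?_
    rw [← hKset]
    intro k hk
    obtain ⟨a, ha⟩ := (Finite.injective_iff_surjective.mp hinj) ⟨k, hk⟩
    have ha' : (a : G) * h * (a : G)⁻¹ * h⁻¹ = k := congrArg Subtype.val ha
    rw [← ha']
    exact N.mul_mem ((inferInstance : N.Normal).conj_mem h hN _) (N.inv_mem hN)
  have hNK : N ≤ K := by
    intro g hg
    by_contra hgK
    have h0 : g ∉ Cfsg.frobeniusKernel R := fun h => hgK (by rw [← SetLike.mem_coe, hKset]; exact h)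
    simp only [Cfsg.frobeniusKernel, Set.mem_setOf_eq, not_or, not_forall, not_not] at h0
    obtain ⟨hg1, c, hc⟩ := h0
    rw [Cfsg.Agent.Lib.Coprime.mem_conj_smul] at hc
    have h2 := hNR _ (by simpa using (inferInstance : N.Normal).conj_mem g hg c⁻¹) hc
    exact hg1 (by rw [show g = c * (c⁻¹ * g * c) * c⁻¹ by group, h2]; group)
  set π := QuotientGroup.mk' N
  have hπ : Function.Surjective π := QuotientGroup.mk'_surjective N
  haveI : (K.map π).Normal := hKn.map π hπ
  have hker : ∀ {x : G}, π x = 1 → x ∈ N := fun {x} hx => (QuotientGroup.eq_one_iff x).mp hx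
  have hc' : Subgroup.IsComplement' (K.map π) (R.map π) := by
    refine Subgroup.isComplement'_of_disjoint_and_mul_eq_univ ?_ ?_
    · rw [disjoint_iff, Subgroup.eq_bot_iff_forall]
      rintro _ ⟨⟨k, hk, rfl⟩, ⟨h, hh, hkh⟩⟩
      have h1 : k⁻¹ * h ∈ N := QuotientGroup.eq.mp hkh.symm
      have h2 : h ∈ K := by simpa using K.mul_mem hk (hNK h1)
      have h3 : h = 1 := Subgroup.mem_bot.mp ((hKc.disjoint.eq_bot) ▸ ⟨h2, hh⟩)
      rw [← hkh, h3, map_one]
    · refine Set.eq_univ_of_forall fun y => ?_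
      obtain ⟨g, rfl⟩ := hπ y
      obtain ⟨k, hk, h, hh, rfl⟩ := hdec g
      exact ⟨π k, ⟨k, hk, rfl⟩, π h, ⟨h, hh, rfl⟩, (map_mul π k h).symm⟩
  have hK1 : K.map π ≠ ⊥ := by
    rw [ne_eq, Subgroup.map_eq_bot_iff, QuotientGroup.ker_mk']
    exact fun h => hKN (by rw [← hKset]; exact h)
  have hR1 : R.map π ≠ ⊥ := by
    rw [ne_eq, Subgroup.map_eq_bot_iff, QuotientGroup.ker_mk']
    exact fun h => hR.1 ((Subgroup.eq_bot_iff_forall R).mpr fun x hx => hNR x (h hx) hx)
  have hfpf' : ∀ h ∈ R.map π, h ≠ 1 → K.map π ⊓ Subgroup.centralizer {h} = ⊥ := by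
    rintro _ ⟨h, hh, rfl⟩ h1
    have hne : h ≠ 1 := fun e => h1 (by rw [e, map_one])
    rw [Subgroup.eq_bot_iff_forall]
    rintro _ ⟨⟨k, hk, rfl⟩, hkc⟩
    have hcm : Commute (π h) (π k) := (Subgroup.mem_centralizer_singleton_iff.mp hkc).symm
    have hk' : ∀ a ∈ Subgroup.zpowers h, k⁻¹ * (a * k * a⁻¹) ∈ N := by
      intro a ha
      obtain ⟨i, rfl⟩ := Subgroup.mem_zpowers_iff.mp ha
      refine hker ?_
      simp only [map_mul, map_inv, map_zpow]
      rw [(hcm.zpow_left i).eq, mul_inv_cancel_right, inv_mul_cancel]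
    obtain ⟨c, hc, hck⟩ := Cfsg.Agent.Lib.Coprime.exists_centralizer_mem_coset
      (A := Subgroup.zpowers h) (N := N) (k := k)
      (fun a _ => by rw [Subgroup.normalizer_eq_top]; exact Subgroup.mem_top a)
      ((hcop.symm.coprime_dvd_left (Subgroup.card_dvd_of_le (Subgroup.zpowers_le.mpr hh))).coprime_dvd_right
        (Subgroup.card_dvd_of_le hNK))
      (Or.inl (Group.isSolvable_of_comm fun a b => mul_comm' a b)) hk'
    have hcK : c ∈ K ⊓ Subgroup.centralizer ({h} : Set G) :=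
      ⟨by simpa using K.mul_mem hk (hNK hck), Subgroup.mem_centralizer_singleton_iff.mpr
        (Subgroup.mem_centralizer_iff.mp hc h (Subgroup.mem_zpowers h)).symm⟩
    rw [hfpf h hh hne, Subgroup.mem_bot] at hcK
    rw [hcK, mul_one] at hck
    exact (QuotientGroup.eq_one_iff k).mpr (by simpa using N.inv_mem hck)
  have hfc : Cfsg.IsFrobeniusComplement (R.map π) :=
    (Cfsg.Agent.S0039.result _ _ hc' hK1 hR1).mpr hfpf'
  refine ⟨hfc, ?_⟩
  obtain ⟨K₂, hK₂, -, hK₂c⟩ := Cfsg.Agent.S0035.result _ hfc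
  have hle : (K.map π : Set (G ⧸ N)) ⊆ Cfsg.frobeniusKernel (R.map π) := by
    intro y hy
    by_cases hy1 : y = 1
    · exact Or.inl hy1
    refine Or.inr fun g hg => hy1 ?_
    rw [Cfsg.Agent.Lib.Coprime.mem_conj_smul] at hg
    have h1 : g⁻¹ * y * g ∈ K.map π := by
      simpa using (inferInstance : (K.map π).Normal).conj_mem y hy g⁻¹
    have h2 : g⁻¹ * y * g = 1 := Subgroup.mem_bot.mp ((hc'.disjoint.eq_bot) ▸ ⟨h1, hg⟩)
    rw [show y = g * (g⁻¹ * y * g) * g⁻¹ by group, h2]; group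
  rw [← hK₂] at hle ⊢
  have h3 : K.map π = K₂ := Subgroup.eq_of_le_of_card_ge (fun y hy => hle hy) (by
    rw [← hK₂c.index_eq_card, hc'.index_eq_card])
  rw [← h3, ← hKset]
  rfl

end Cfsg.Agent.S3768
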