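import Cfsg.Statements.S3769
import Cfsg.Agent.Lib.FitHeight.FpfSylow

set_option autoImplicit false
open Cfsg

namespace Cfsg.Agent.S3769

open scoped commutatorElement

open Subgroup in
lemma pow_commutator_mem {X : Type*} [Group X] {V K : Subgroup X} {f : X}
    (hfV : f ∈ normalizer (V : Set X))
    (h : ∀ k ∈ K, ⁅k, f⁆ ∈ centralizer (V : Set X)) :
    ∀ (i : ℕ), ∀ k ∈ K, ⁅f ^ i, k⁆ ∈ centralizer (V : Set X) := by
  intro i
  induction i with
  | zero => intro k _; simp
  | succ i ih =>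
    intro k hk
    rw [show ⁅f ^ (i + 1), k⁆ = f ^ i * ⁅f, k⁆ * (f ^ i)⁻¹ * ⁅f ^ i, k⁆ by
      rw [pow_succ, commutatorElement_def, commutatorElement_def, commutatorElement_def]; group]
    refine mul_mem ?_ (ih k hk)
    have h1 : ⁅f, k⁆ ∈ centralizer (V : Set X) := by
      rw [← commutatorElement_inv]; exact inv_mem (h k hk)
    rw [mem_centralizer_iff] at h1 ⊢
    intro v hv
    have hn : f ^ i ∈ normalizer (V : Set X) := pow_mem hfV i
    have hv' : (f ^ i)⁻¹ * v * f ^ i ∈ V := by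
      simpa using (mem_normalizer_iff.mp (inv_mem hn) v).mp hv
    have h2 := h1 _ hv'
    calc v * (f ^ i * ⁅f, k⁆ * (f ^ i)⁻¹) = f ^ i * ((f ^ i)⁻¹ * v * f ^ i * ⁅f, k⁆) * (f ^ i)⁻¹ := by group
      _ = f ^ i * (⁅f, k⁆ * ((f ^ i)⁻¹ * v * f ^ i)) * (f ^ i)⁻¹ := by rw [h2]
      _ = f ^ i * ⁅f, k⁆ * (f ^ i)⁻¹ * v := by group


/-- Let G and V be subgroups of a finite group with G solvable of odd order normalizing V, V an elementary abelian ℓ-group for a prime ℓ not dividing the order of G, and suppose G has a normal Hall subgroup K with a complement R of prime order. If C_V(R) = 1, then [R, K] centralizes V. -/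
theorem result {X : Type*} [Group X] [Finite X] (G : Subgroup X) (hsolv : Group.IsSolvable G) (hodd : Odd (Nat.card G)) (V : Subgroup X) {ℓ : ℕ} (hℓ : ℓ.Prime) (hV : Cfsg.IsElementaryAbelian ℓ V) (hℓG : ¬ ℓ ∣ Nat.card G) (hGV : G ≤ Subgroup.normalizer (V : Set X)) (K R : Subgroup X) (hKG : K ≤ G) (hKn : G ≤ Subgroup.normalizer (K : Set X)) (hHall : (Nat.card K).Coprime (K.relIndex G)) (hRG : R ≤ G) (hR : (Nat.card R).Prime) (hKR : K ⊓ R = ⊥) (hKRG : K ⊔ R = G) (hCV : V ⊓ Subgroup.centralizer (R : Set X) = ⊥) : ⁅R, K⁆ ≤ Subgroup.centralizer (V : Set X) := by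
  haveI hRp : Fact (Nat.card R).Prime := ⟨hR⟩
  haveI : IsCyclic R := isCyclic_of_prime_card rfl
  haveI : IsMulCommutative V := hV.1
  obtain ⟨f, hf⟩ := IsCyclic.exists_generator (α := R) 
  have hfR : (f : X) ∈ R := f.2
  have hfp : (f : X) ^ Nat.card R = 1 := congrArg Subtype.val (pow_card_eq_one' (x := f))
  have hgen : ∀ r ∈ R, ∃ i : ℕ, (f : X) ^ i = r := by
    intro r hr
    obtain ⟨i, hi⟩ := (IsOfFinOrder.mem_powers_iff_mem_zpowers (isOfFinOrder_of_finite f)).mpr
      (hf ⟨r, hr⟩)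
    exact ⟨i, congrArg Subtype.val hi⟩
  have hfG : (f : X) ∈ G := hRG hfR
  have hfix : ∀ v ∈ V, (f : X) * v = v * f → v = 1 := by
    intro v hv hfv
    have : v ∈ V ⊓ Subgroup.centralizer (R : Set X) := by
      refine ⟨hv, Subgroup.mem_centralizer_iff.mpr fun r hr => ?_⟩
      obtain ⟨i, rfl⟩ := hgen r hr
      exact (Commute.pow_left hfv i).eq
    rwa [hCV, Subgroup.mem_bot] at this
  have hcard : Nat.card G = Nat.card R * Nat.card K := by
    have h := Cfsg.Agent.Lib.Coprime.card_sup_mul_card_inf_of_le_normalizer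
      (A := R) (N := K) (hRG.trans hKn)
    rw [inf_comm, hKR, Subgroup.card_bot, mul_one, sup_comm, hKRG] at h
    exact h
  have hrel : K.relIndex G = Nat.card R := by
    have h := Subgroup.relIndex_mul_relIndex ⊥ K G bot_le hKG
    rw [Subgroup.relIndex_bot_left, Subgroup.relIndex_bot_left, hcard, mul_comm (Nat.card R)] at h
    exact Nat.eq_of_mul_eq_mul_left Nat.card_pos h
  have hpK : (Nat.card R).Coprime (Nat.card K) := by rw [← hrel]; exact hHall.symm
  have hlK : ℓ.Coprime (Nat.card K) := hℓ.coprime_iff_not_dvd.mpr fun h => hℓG (hcard ▸ dvd_mul_of_dvd_right h _)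
  have hlp : ℓ ≠ Nat.card R := fun h => hℓG (hcard ▸ h ▸ dvd_mul_right _ _)
  have hfV : (f : X) ∈ Subgroup.normalizer (V : Set X) := hGV hfG
  have key := Cfsg.Agent.Lib.FitHeight.commutator_mem_centralizer_of_fpf (p := Nat.card R) hℓ hR hlp
    hV.2 (hKG.trans hGV) hfV (hKn hfG) hfp hfix hpK hlK (fun q hq hqd => Or.inl (Or.inl fun h2 => by
      subst h2
      exact hodd.not_two_dvd_nat (hqd.trans (Subgroup.card_dvd_of_le hKG))))
  rw [Subgroup.commutator_le]
  intro r hr k hk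
  obtain ⟨i, rfl⟩ := hgen r hr
  exact pow_commutator_mem hfV key i k hk

end Cfsg.Agent.S3769
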