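import Cfsg.Statements.S3770
import Cfsg.Agent.Lib.FitHeight.FpfRankOne
import Cfsg.Agent.Lib.Hall.Solvable
import Cfsg.Agent.S0035
import Cfsg.Agent.S0039
import Cfsg.Agent.S0042

set_option autoImplicit false
open Cfsg

namespace Cfsg.Agent.S3770

/-- Let G and V be subgroups of a finite group with G a Frobenius group with complement R of prime order and kernel K, G normalizing V, and V an elementary abelian ℓ-group for a prime ℓ not dividing the order of G. If C_V(R) has order ℓ, then the derived subgroup of K centralizes V. -/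
theorem result {X : Type*} [Group X] [Finite X] (G : Subgroup X) (V : Subgroup X) {ℓ : ℕ} (hℓ : ℓ.Prime) (hV : Cfsg.IsElementaryAbelian ℓ V) (hℓG : ¬ ℓ ∣ Nat.card G) (hGV : G ≤ Subgroup.normalizer (V : Set X)) (R : Subgroup ↥G) (hR : Cfsg.IsFrobeniusComplement R) (hRp : (Nat.card R).Prime) (hCV : Nat.card ↥(V ⊓ Subgroup.centralizer ((R.map G.subtype : Subgroup X) : Set X)) = ℓ) : ⁅Subgroup.closure (Subtype.val '' Cfsg.frobeniusKernel R), Subgroup.closure (Subtype.val '' Cfsg.frobeniusKernel R)⁆ ≤ Subgroup.centralizer (V : Set X) := by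
  classical
  haveI := Fact.mk hℓ
  obtain ⟨K, hKset, hKn, hKnil⟩ := Cfsg.Agent.S0042.result R hR
  haveI := hKnil
  haveI := hKn
  have hclo : Subgroup.closure (Subtype.val '' Cfsg.frobeniusKernel R) = K.map G.subtype := by
    rw [← hKset, ← Subgroup.coe_subtype, ← Subgroup.coe_map, Subgroup.closure_eq]
  rw [hclo, ← Subgroup.map_commutator]
  haveI : IsMulCommutative V := hV.1
  letI : CommGroup V := { (inferInstance : Group V) with mul_comm := fun a b => mul_comm' a b }
  letI : MulDistribMulAction G V :=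
    { smul := fun g v => ⟨(g : X) * v * (g : X)⁻¹,
        (Subgroup.mem_normalizer_iff.mp (hGV g.2) v).mp v.2⟩
      one_smul := fun v => Subtype.ext (by show ((1 : G) : X) * v * ((1 : G) : X)⁻¹ = v; simp)
      mul_smul := fun a b v => Subtype.ext (by
        show ((a * b : G) : X) * v * ((a * b : G) : X)⁻¹ =
          (a : X) * ((b : X) * v * (b : X)⁻¹) * (a : X)⁻¹
        simp [mul_assoc])
      smul_mul := fun g a b => Subtype.ext (by
        show (g : X) * ((a : X) * b) * (g : X)⁻¹ = (g : X) * a * (g : X)⁻¹ * ((g : X) * b * (g : X)⁻¹)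
        group)
      smul_one := fun g => Subtype.ext (by show (g : X) * 1 * (g : X)⁻¹ = 1; simp) }
  have hsmul : ∀ (g : G) (v : V), ((g • v : V) : X) = (g : X) * v * (g : X)⁻¹ := fun g v => rfl
  haveI hRf : Fact (Nat.card R).Prime := ⟨hRp⟩
  haveI : IsCyclic R := isCyclic_of_prime_card rfl
  obtain ⟨f, hf⟩ := IsCyclic.exists_generator (α := R)
  have hgen : ∀ r ∈ R, ∃ i : ℕ, (f : G) ^ i = r := by
    intro r hr
    obtain ⟨i, hi⟩ := (IsOfFinOrder.mem_powers_iff_mem_zpowers (isOfFinOrder_of_finite f)).mpr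
      (hf ⟨r, hr⟩)
    exact ⟨i, congrArg Subtype.val hi⟩
  have hft : (f : G) ^ Nat.card R = 1 := congrArg Subtype.val (pow_card_eq_one' (x := f))
  have hf1 : (f : G) ≠ 1 := by
    intro h
    refine hR.1 ((Subgroup.eq_bot_iff_forall R).mpr fun r hr => ?_)
    obtain ⟨i, rfl⟩ := hgen r hr
    rw [h, one_pow]
  obtain ⟨K', hK'set, -, hK'c⟩ := Cfsg.Agent.S0035.result R hR
  have hKK : K' = K := SetLike.coe_injective (hK'set.trans hKset.symm)
  rw [hKK] at hK'c
  have hKne : K ≠ ⊥ := by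
    intro h
    have := hK'c.sup_eq_top
    rw [h, bot_sup_eq] at this
    exact hR.2.1 this
  have hfpf := (Cfsg.Agent.S0039.result K R hK'c hKne hR.1).mp hR f f.2 hf1
  have hK : ∀ y ∈ K, (f : G) * y = y * f → y = 1 := by
    intro y hy h
    have : y ∈ K ⊓ Subgroup.centralizer ({(f : G)} : Set G) :=
      ⟨hy, Subgroup.mem_centralizer_singleton_iff.mpr h.symm⟩
    rwa [hfpf, Subgroup.mem_bot] at this
  obtain ⟨m, hm⟩ := IsPGroup.iff_card.mp (show IsPGroup ℓ V from
    Cfsg.Agent.Lib.Hall.isPGroup_of_pow_eq_one hV.2)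
  have hcop : (Nat.card K).Coprime (Nat.card V) := by
    rw [hm]
    refine Nat.Coprime.pow_right m ?_
    refine (hℓ.coprime_iff_not_dvd.mpr fun h => hℓG ?_).symm
    exact h.trans (Subgroup.card_subgroup_dvd_card K)
  have hfixC : ∀ v : V, (f : G) • v = v →
      (v : X) ∈ V ⊓ Subgroup.centralizer ((R.map G.subtype : Subgroup X) : Set X) := by
    intro v hv
    refine ⟨v.2, Subgroup.mem_centralizer_iff.mpr ?_⟩
    rintro _ ⟨r, hr, rfl⟩
    obtain ⟨i, rfl⟩ := hgen r hr
    have h := congrArg Subtype.val hv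
    rw [hsmul] at h
    simpa using (Commute.pow_left (mul_inv_eq_iff_eq_mul.mp h : Commute ((f : G) : X) (v : X)) i).eq
  have hone : ∀ w : V, (f : G) • w = w → w ≠ 1 → ∀ v : V, (f : G) • v = v → v ∈ Subgroup.zpowers w := by
    intro w hw hw1 v hv
    set C := V ⊓ Subgroup.centralizer ((R.map G.subtype : Subgroup X) : Set X)
    haveI : Fact (Nat.card C).Prime := ⟨hCV.symm ▸ hℓ⟩
    have h1 : (⟨w, hfixC w hw⟩ : C) ≠ 1 := fun h =>
      hw1 (Subtype.ext (show (w : X) = 1 from congrArg (fun x : C => (x : X)) h))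
    obtain ⟨i, hi⟩ := Subgroup.mem_zpowers_iff.mp
      (mem_zpowers_of_prime_card (G := C) rfl h1 : (⟨v, hfixC v hv⟩ : C) ∈ _)
    exact ⟨i, Subtype.ext (by simpa using congrArg Subtype.val hi)⟩
  have key := Cfsg.Agent.Lib.FitHeight.smul_commutator_eq_self_of_fpf (V := V) (K := K) (t := (f : G))
    hRp hft (by rw [Subgroup.normalizer_eq_top]; exact Subgroup.mem_top _) hK hcop hone
  rintro _ ⟨g, hg, rfl⟩
  rw [Subgroup.mem_centralizer_iff]
  intro v hv
  have h := congrArg Subtype.val (key g hg ⟨v, hv⟩)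
  rw [hsmul] at h
  exact (mul_inv_eq_iff_eq_mul.mp h).symm

end Cfsg.Agent.S3770
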