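import Cfsg.Statements.S3771
import Cfsg.Agent.Lib.OddLocal.SCN
import Mathlib

set_option autoImplicit false
open Cfsg

namespace Cfsg.Agent.S3771


open Subgroup

/-- Let p be a prime and R a finite p-group of p-rank at most 2 (no elementary abelian subgroup of order p³) in which every element has order dividing p. Then R has order at most p³. -/
theorem result {R : Type*} [Group R] [Finite R] {p : ℕ} [Fact p.Prime] (hR : IsPGroup p R) (hrank : Cfsg.PRankLE p 2 R) (hexp : ∀ x : R, x ^ p = 1) : Nat.card R ≤ p ^ 3 := by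
  obtain ⟨A, -, hAn, hAc, hCA⟩ := Lib.OddLocal.exists_selfCentralizing_normal hR (⊥ : Subgroup R) inferInstance
  haveI := hAn
  have hp := (Fact.out : p.Prime)
  have hA2 : Nat.card A ≤ p ^ 2 := hrank A hAc fun a _ => hexp a
  by_cases hAZ : A ≤ center R
  · have : A = ⊤ := by
      rw [← hCA, eq_top_iff]
      exact fun x _ => mem_centralizer_iff.mpr fun a ha => (mem_center_iff.mp (hAZ ha) x).symm
    rw [← card_top, ← this]
    exact hA2.trans (Nat.pow_le_pow_right hp.pos (by norm_num))
  obtain ⟨a, haA, haZ⟩ := SetLike.not_le_iff_exists.mp hAZ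
  have hApos : p ∣ Nat.card A := by
    obtain ⟨k, hk⟩ := IsPGroup.iff_card.mp (hR.to_subgroup A)
    refine hk ▸ dvd_pow_self p fun h0 => haZ ?_
    rw [h0, pow_zero, card_eq_one] at hk
    rw [hk, mem_bot] at haA
    exact haA ▸ one_mem _
  -- a central element in `A`
  obtain ⟨z, hz, hz1⟩ := (show IsPGroup p (ConjAct R) from hR).exists_fixed_point_of_prime_dvd_card_of_fixed_point
    A hApos (a := (1 : A)) (fun g => smul_one g)
  have hzc : (z : R) ∈ A ⊓ center R := ⟨z.2, mem_center_iff.mpr fun g => by
    have h := congrArg Subtype.val (hz (ConjAct.toConjAct g))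
    rw [ConjAct.Subgroup.val_conj_smul, ConjAct.smul_def, ConjAct.ofConjAct_toConjAct] at h
    exact mul_inv_eq_iff_eq_mul.mp h⟩
  have hAZcard : p ≤ Nat.card (A ⊓ center R : Subgroup R) := by
    obtain ⟨k, hk⟩ := IsPGroup.iff_card.mp (hR.to_subgroup (A ⊓ center R))
    rw [hk]
    refine Nat.le_self_pow (fun h0 => hz1 ?_) p
    rw [h0, pow_zero, card_eq_one] at hk
    rw [hk, mem_bot] at hzc
    exact Subtype.ext hzc.symm
  -- the centraliser of `a` is `A`
  have hCa : centralizer ({a} : Set R) = A := by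
    refine le_antisymm ?_ (fun b hb => mem_centralizer_singleton_iff.mpr
      (congrArg Subtype.val (hAc.is_comm.comm (⟨b, hb⟩ : A) ⟨a, haA⟩)))
    intro x hx
    rw [← hCA]
    set S := A ⊓ centralizer ({x} : Set R)
    have hlt : Nat.card (A ⊓ center R : Subgroup R) < Nat.card S := by
      have hle : A ⊓ center R < S := by
        refine lt_of_le_of_ne (fun y hy => ⟨hy.1, mem_centralizer_singleton_iff.mpr (mem_center_iff.mp hy.2 x).symm⟩) ?_
        intro h
        have : a ∈ A ⊓ center R := h ▸ ⟨haA, mem_centralizer_singleton_iff.mpr (mem_centralizer_singleton_iff.mp hx).symm⟩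
        exact haZ this.2
      exact lt_of_le_of_ne (Subgroup.card_le_of_le hle.le) fun h => hle.ne (eq_of_le_of_card_ge hle.le h.ge)
    have hS : S = A := by
      refine eq_of_le_of_card_ge inf_le_left ?_
      obtain ⟨i, hi⟩ := IsPGroup.iff_card.mp (hR.to_subgroup S)
      rw [hi] at hlt ⊢
      refine hA2.trans (Nat.pow_le_pow_right hp.pos ?_)
      by_contra hi2
      have : p ^ i ≤ p ^ 1 := Nat.pow_le_pow_right hp.pos (by omega)
      rw [pow_one] at this
      omega
    exact mem_centralizer_iff.mpr fun b hb =>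
      mem_centralizer_singleton_iff.mp ((hS.ge hb).2 : b ∈ centralizer ({x} : Set R))
  -- the class of `a` avoids the centre
  have hidx : A.index < p ^ 2 := by
    let f : R ⧸ A → {y : A // y ≠ 1} := fun q => ⟨⟨q.out * a * q.out⁻¹, hAn.conj_mem a haA _⟩, fun h => haZ (by
      have h' : q.out * a * q.out⁻¹ = 1 := congrArg Subtype.val h
      rw [mul_inv_eq_one, mul_eq_left] at h'
      exact h' ▸ one_mem _)⟩
    have hf : Function.Injective f := by
      intro q q' h
      have h' : q.out * a * q.out⁻¹ = q'.out * a * q'.out⁻¹ := congrArg (fun y : {y : A // y ≠ 1} => ((y : A) : R)) h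
      rw [← QuotientGroup.out_eq' q, ← QuotientGroup.out_eq' q', QuotientGroup.eq]
      refine hCa.le (mem_centralizer_singleton_iff.mpr ?_)
      calc q.out⁻¹ * q'.out * a = q.out⁻¹ * (q'.out * a * q'.out⁻¹) * q'.out := by group
        _ = a * (q.out⁻¹ * q'.out) := by rw [← h']; group
    have h1 := Nat.card_le_card_of_injective f hf
    rw [← index_eq_card] at h1
    have h2 : Nat.card {y : A // y ≠ 1} < Nat.card A :=
      Finite.card_subtype_lt (p := fun y : A => y ≠ 1) (x := 1) (not_not_intro rfl)
    omega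
  obtain ⟨j, hj⟩ := hR.index A
  have hj1 : j ≤ 1 := by
    by_contra h
    have : p ^ 2 ≤ p ^ j := Nat.pow_le_pow_right hp.pos (by omega)
    omega
  rw [← A.card_mul_index, pow_succ, hj]
  exact Nat.mul_le_mul hA2 ((Nat.pow_le_pow_right hp.pos hj1).trans (pow_one p).le)

end Cfsg.Agent.S3771
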