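import Cfsg.Statements.S3772
import Cfsg.Agent.Lib.SignSum
import Cfsg.Agent.Lib.PGroupFrattini

set_option autoImplicit false
open Cfsg

namespace Cfsg.Agent.S3772

lemma sq_mul_eq {G : Type*} [Group G] (x w : G) (hc : ∀ a b : G, a * b * a⁻¹ * b⁻¹ ∈ Subgroup.center G) :
    (x * w) ^ 2 = (w * x * w⁻¹ * x⁻¹) * x ^ 2 * w ^ 2 := by
  have h := Subgroup.mem_center_iff.mp (hc w x)
  calc (x * w) ^ 2 = x * ((w * x * w⁻¹ * x⁻¹) * (x * w)) * w := by rw [pow_two]; group
    _ = (x * (w * x * w⁻¹ * x⁻¹)) * (x * (w * w)) := by group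
    _ = ((w * x * w⁻¹ * x⁻¹) * x) * (x * (w * w)) := by rw [h x]
    _ = _ := by rw [pow_two, pow_two]; group

/-- Let G be a finite 2-group whose Frattini subgroup Φ(G) has order 2, with |G : Φ(G)| = 2^d, and let j be the number of elements x of G with x² = 1. Then j = 2^d, or j = 2^d + 2^(d−r) or j = 2^d − 2^(d−r) for some positive integer r with 2r ≤ d. Moreover if d = 2r and j is 2^d + 2^r or 2^d − 2^r, then G is extraspecial. -/
theorem result {G : Type*} [Group G] [Finite G] (hG : IsPGroup 2 G) (hΦ : Nat.card (frattini G) = 2) (d : ℕ) (hd : (frattini G).index = 2 ^ d) : (Nat.card {x : G // x ^ 2 = 1} = 2 ^ d ∨ ∃ r : ℕ, 1 ≤ r ∧ 2 * r ≤ d ∧ (Nat.card {x : G // x ^ 2 = 1} = 2 ^ d + 2 ^ (d - r) ∨ Nat.card {x : G // x ^ 2 = 1} + 2 ^ (d - r) = 2 ^ d)) ∧ (∀ r : ℕ, d = 2 * r → (Nat.card {x : G // x ^ 2 = 1} = 2 ^ d + 2 ^ r ∨ Nat.card {x : G // x ^ 2 = 1} + 2 ^ r = 2 ^ d) → Cfsg.IsExtraspecial 2 G) := by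
  classical
  haveI := Fintype.ofFinite G
  haveI : Fact (Nat.Prime 2) := ⟨Nat.prime_two⟩
  have hsq : ∀ x : G, x ^ 2 ∈ frattini G := Cfsg.Agent.Lib.PGroupFrattini.pow_mem_frattini hG
  have hcm : ∀ a b : G, a * b * a⁻¹ * b⁻¹ ∈ frattini G := fun a b =>
    Cfsg.Agent.Lib.PGroupFrattini.commutator_le_frattini hG
      (Subgroup.commutator_mem_commutator (Subgroup.mem_top a) (Subgroup.mem_top b))
  obtain ⟨t, ht, hu⟩ : ∃ t : frattini G, t ≠ 1 ∧ ∀ u : frattini G, u = 1 ∨ u = t := by
    obtain ⟨t, ht, hu⟩ := Nat.card_eq_two_iff' (1 : frattini G) |>.mp hΦ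
    exact ⟨t, ht, fun u => or_iff_not_imp_left.mpr (hu u)⟩
  have hΦc : frattini G ≤ Subgroup.center G := by
    intro u hu'
    rw [Subgroup.mem_center_iff]
    intro g
    have hmem : g * u * g⁻¹ ∈ frattini G := (inferInstance : (frattini G).Normal).conj_mem u hu' g
    rcases hu ⟨u, hu'⟩ with h | h
    · simp [show u = 1 from congrArg Subtype.val h]
    · rcases hu ⟨_, hmem⟩ with h' | h'
      · exfalso
        apply ht
        have : u = 1 := by simpa [mul_inv_eq_one] using congrArg Subtype.val h'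
        exact h.symm.trans (Subtype.ext this)
      · have : g * u * g⁻¹ = u := (congrArg Subtype.val h').trans (congrArg Subtype.val h).symm
        exact mul_inv_eq_iff_eq_mul.mp this
  let σ : G → ℤ := fun u => if u = 1 then 1 else -1
  have hσ : ∀ u v : G, u ∈ frattini G → v ∈ frattini G → σ (u * v) = σ u * σ v := by
    intro u v hu' hv'
    have htt : (t : G) * t = 1 := by
      rcases hu (t * t) with h | h
      · exact congrArg Subtype.val h
      · exact absurd (mul_eq_left.mp h) ht
    have ht' : (t : G) ≠ 1 := fun h => ht (Subtype.ext h)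
    rcases hu ⟨u, hu'⟩ with h | h <;> rcases hu ⟨v, hv'⟩ with h2 | h2 <;>
      simp [σ, show u = _ from congrArg Subtype.val h, show v = _ from congrArg Subtype.val h2, htt, ht']
  have hgen := Cfsg.Agent.Lib.SignSum.sq_sum (fun x : G => σ (x ^ 2)) (fun x w => σ (w * x * w⁻¹ * x⁻¹))
    (Subgroup.center G) ?_ ?_ ?_ ?_
  rotate_left
  · intro x w
    rw [sq_mul_eq x w (fun a b => hΦc (hcm a b)), hσ _ _ (mul_mem (hcm w x) (hsq x)) (hsq w),
      hσ _ _ (hcm w x) (hsq x)]
  · intro x; simp only [σ]; split_ifs <;> rfl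
  · intro x y w
    have hb := Subgroup.mem_center_iff.mp (hΦc (hcm w y))
    show σ _ = σ _ * σ _
    rw [← hσ _ _ (hcm w x) (hcm w y)]
    congr 1
    calc w * (x * y) * w⁻¹ * (x * y)⁻¹ = (w * x * w⁻¹) * (w * y * w⁻¹ * y⁻¹) * x⁻¹ := by group
      _ = (w * x * w⁻¹ * x⁻¹) * (x * (w * y * w⁻¹ * y⁻¹) * x⁻¹) := by group
      _ = _ := by rw [hb x]; group
  · intro w
    rw [Subgroup.mem_center_iff]
    refine forall_congr' (fun x => ?_)
    simp only [σ]
    constructor
    · intro h; rw [if_pos]; rw [← h]; group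
    · intro h
      have h1 : w * x * w⁻¹ * x⁻¹ = 1 := by by_contra h1; rw [if_neg h1] at h; omega
      exact (mul_inv_eq_iff_eq_mul.mp (mul_inv_eq_one.mp h1)).symm
  set T : ℤ := ∑ x : G, σ (x ^ 2) with hT
  set N : ℕ := Nat.card {x : G // x ^ 2 = 1} with hN
  have hGcard : Nat.card G = 2 ^ (d + 1) := by
    rw [← (frattini G).card_mul_index, hΦ, hd, pow_succ']
  have hTN : T = 2 * (N : ℤ) - 2 ^ (d + 1) := by
    have : ∀ x : G, σ (x ^ 2) = 2 * (if x ^ 2 = 1 then (1 : ℤ) else 0) - 1 := fun x => by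
      simp only [σ]; split_ifs <;> norm_num
    rw [hT, Finset.sum_congr rfl (fun x _ => this x), Finset.sum_sub_distrib, ← Finset.mul_sum,
      Finset.sum_boole, hN, Nat.card_eq_fintype_card, Fintype.card_subtype, Finset.sum_const,
      Finset.card_univ, ← Nat.card_eq_fintype_card, hGcard]
    simp
  obtain ⟨z, hz⟩ := IsPGroup.iff_card.mp (hG.to_subgroup (Subgroup.center G))
  rw [← Nat.card_eq_fintype_card, hGcard, hz] at hgen
  push_cast at hgen
  have hz1 : 1 ≤ z := by
    rcases Nat.eq_zero_or_pos z with rfl | h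
    · exfalso
      have h2 := Subgroup.card_le_of_le hΦc
      rw [hΦ, hz] at h2
      norm_num at h2
    · exact h
  rcases hgen with h0 | hT2
  · have hN2 : N = 2 ^ d := by
      have : T = 0 := by simpa using h0
      rw [hTN, pow_succ] at this
      have : (N : ℤ) = 2 ^ d := by linarith
      exact_mod_cast this
    refine ⟨Or.inl hN2, ?_⟩
    rintro r hr (h | h) <;> exfalso <;> have := Nat.two_pow_pos r <;> omega
  · -- `T² = 2^(d+1+z)`
    rw [← pow_add] at hT2
    have hzd : z ≤ d := by
      have h1 : z ≤ d + 1 := by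
        have := Subgroup.card_le_card_group (Subgroup.center G)
        rw [hz, hGcard] at this
        exact (Nat.pow_le_pow_iff_right (by norm_num)).mp this
      by_contra hcon
      have hz' : z = d + 1 := by omega
      have hall : T = 2 ^ (d + 1) ∨ T = -2 ^ (d + 1) := by
        apply eq_or_eq_neg_of_sq_eq_sq
        rw [hT2, hz', ← pow_mul]; ring_nf
      have hle : (N : ℤ) ≤ 2 ^ (d + 1) := by
        have : N ≤ 2 ^ (d + 1) := hGcard ▸ (hN ▸ Finite.card_subtype_le _)
        exact_mod_cast this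
      have hN1 : 0 < N := by
        haveI : Nonempty {x : G // x ^ 2 = 1} := ⟨⟨1, one_pow 2⟩⟩
        exact Nat.card_pos
      have hfull : N = 2 ^ (d + 1) := by
        rcases hall with h | h <;> rw [hTN] at h
        · have : (N : ℤ) = 2 ^ (d + 1) := by linarith
          exact_mod_cast this
        · omega
      -- then every square is trivial and `G` is abelian, so `Φ(G) = 1`
      have hsq1 : ∀ x : G, x ^ 2 = 1 := fun x => by
        have hb : Function.Bijective (Subtype.val : {x : G // x ^ 2 = 1} → G) :=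
          Subtype.val_injective.bijective_of_nat_card_le (by rw [← hN, hfull, hGcard])
        obtain ⟨y, rfl⟩ := hb.2 x
        exact y.2
      have hinv : ∀ a : G, a⁻¹ = a := fun a => inv_eq_of_mul_eq_one_left (by rw [← pow_two]; exact hsq1 a)
      have hab : ∀ a b : G, a * b = b * a := fun a b => by
        rw [← hinv (a * b), mul_inv_rev, hinv, hinv]
      have : frattini G = ⊥ := le_bot_iff.mp (Cfsg.Agent.Lib.PGroupFrattini.frattini_le Nat.prime_two ⊥
        (by rw [commutator_def, Subgroup.commutator_le]; intro a _ b _; simp [commutatorElement_def, hab a b])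
        (fun x => Subgroup.mem_bot.mpr (hsq1 x)))
      rw [this, Subgroup.card_bot] at hΦ
      omega
    obtain ⟨c, hc⟩ : 2 ∣ d + 1 + z := by
      have hcop : ∀ a : ℕ, ∀ e : ℕ, a * a = 2 ^ e → 2 ∣ e := by
        intro a e h
        have := congrArg (fun n => Nat.factorization n 2) h
        simp only [Nat.prime_two.factorization_pow, Finsupp.single_eq_same] at this
        rcases Nat.eq_zero_or_pos a with rfl | ha
        · exact absurd h.symm (by positivity)
        rw [Nat.factorization_mul ha.ne' ha.ne', Finsupp.add_apply] at this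
        exact ⟨a.factorization 2, by omega⟩
      apply hcop T.natAbs
      have := congrArg Int.natAbs hT2
      rwa [sq, Int.natAbs_mul, Int.natAbs_pow] at this
    have habs : T = 2 ^ c ∨ T = -2 ^ c := by
      apply eq_or_eq_neg_of_sq_eq_sq
      rw [hT2, hc, ← pow_mul, mul_comm]
    obtain ⟨c', rfl⟩ : ∃ c', c = c' + 1 := ⟨c - 1, by omega⟩
    have hform : N = 2 ^ d + 2 ^ c' ∨ N + 2 ^ c' = 2 ^ d := by
      rcases habs with h | h <;> rw [hTN, pow_succ, pow_succ] at h
      · left
        have : (N : ℤ) = 2 ^ d + 2 ^ c' := by linarith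
        exact_mod_cast this
      · right
        have : (N : ℤ) + 2 ^ c' = 2 ^ d := by linarith
        exact_mod_cast this
    refine ⟨Or.inr ⟨d - c', by omega, by omega, ?_⟩, ?_⟩
    · rwa [show d - (d - c') = c' by omega]
    intro r hr h
    have hpr : 2 ^ r = 2 ^ c' := by
      have := Nat.two_pow_pos c'
      have := Nat.two_pow_pos r
      omega
    have hrc : r = c' := Nat.pow_right_injective le_rfl hpr
    have hz1' : z = 1 := by omega
    have hZΦ : frattini G = Subgroup.center G :=
      Subgroup.eq_of_le_of_card_ge hΦc (by rw [hz, hΦ, hz1']; norm_num)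
    refine ⟨⟨hG, hZΦ, le_antisymm ((Cfsg.Agent.Lib.PGroupFrattini.commutator_le_frattini hG).trans hΦc) ?_⟩,
      by rw [hz, hz1']; norm_num⟩
    rw [← hZΦ]
    intro u hu'
    rcases hu ⟨u, hu'⟩ with h1 | h1
    · rw [show u = 1 from congrArg Subtype.val h1]; exact one_mem _
    · have hnab : ∃ a b : G, a * b * a⁻¹ * b⁻¹ ≠ 1 := by
        by_contra hall
        push Not at hall
        have : Subgroup.center G = ⊤ := eq_top_iff.mpr fun a _ => Subgroup.mem_center_iff.mpr fun b =>
          mul_inv_eq_iff_eq_mul.mp (mul_inv_eq_one.mp (hall b a))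
        have h2 := congrArg (fun H : Subgroup G => Nat.card H) this
        simp only [hz, hz1', Subgroup.card_top, hGcard] at h2
        have := Nat.pow_right_injective le_rfl h2
        omega
      obtain ⟨a, b, hab⟩ := hnab
      rcases hu ⟨_, hcm a b⟩ with h2 | h2
      · exact absurd (congrArg Subtype.val h2) hab
      · rw [show u = _ from (congrArg Subtype.val h1).trans (congrArg Subtype.val h2).symm]
        exact Subgroup.commutator_mem_commutator (Subgroup.mem_top a) (Subgroup.mem_top b)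

end Cfsg.Agent.S3772
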