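import Cfsg.Statements.S3773
import Cfsg.Agent.Lib.SignSum
import Cfsg.Agent.Lib.PGroupFrattini

set_option autoImplicit false
open Cfsg

namespace Cfsg.Agent.S3773

open scoped commutatorElement

/-- characters with values `±1` separate points of an elementary abelian `2`-group from subgroups -/
lemma exists_sign_hom {A : Type*} [Group A] [Finite A] (hA : ∀ a : A, a * a = 1) (K : Subgroup A) (z : A) (hz : z ∉ K) :
    ∃ μ : A →* ℤˣ, (∀ k ∈ K, μ k = 1) ∧ μ z = -1 := by
  classical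
  obtain ⟨U, ⟨hKU, hzU⟩, hmax⟩ :=
    (Set.toFinite {U : Subgroup A | K ≤ U ∧ z ∉ U}).exists_maximal ⟨K, le_rfl, hz⟩
  have hinv : ∀ a : A, a⁻¹ = a := fun a => inv_eq_of_mul_eq_one_left (hA a)
  have hcomm : ∀ a b : A, a * b = b * a := fun a b => by rw [← hinv (a * b), mul_inv_rev, hinv, hinv]
  have hout : ∀ y : A, y ∉ U → y * z ∈ U := by
    intro y hy
    by_contra hcon
    let V : Subgroup A :=
      { carrier := {a | a ∈ U ∨ a * y ∈ U}
        mul_mem' := fun {a b} ha hb => by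
          rcases ha with ha | ha <;> rcases hb with hb | hb
          · exact Or.inl (mul_mem ha hb)
          · exact Or.inr (by rw [mul_assoc]; exact mul_mem ha hb)
          · exact Or.inr (by rw [mul_assoc, hcomm b y, ← mul_assoc]; exact mul_mem ha hb)
          · left
            have := mul_mem ha hb
            rwa [hcomm b y, ← mul_assoc, mul_assoc a y y, hA, mul_one] at this
        one_mem' := Or.inl (one_mem U)
        inv_mem' := fun {a} ha => by rw [hinv]; exact ha }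
    have hV : z ∉ V := by
      rintro (h | h)
      · exact hzU h
      · exact hcon (hcomm y z ▸ h)
    have hUV : U ≤ V := fun a ha => Or.inl ha
    have := hmax (show V ∈ {U : Subgroup A | K ≤ U ∧ z ∉ U} from ⟨hKU.trans hUV, hV⟩) hUV
    exact hy (this (show y ∈ V from Or.inr (by rw [hA]; exact one_mem U)))
  have hmul : ∀ a b : A, a * b ∈ U ↔ (a ∈ U ↔ b ∈ U) := by
    intro a b
    by_cases ha : a ∈ U <;> by_cases hb : b ∈ U <;> simp only [ha, hb]
    · simp [mul_mem ha hb]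
    · simp [(U.mul_mem_cancel_left ha), hb]
    · simp [(U.mul_mem_cancel_right hb), ha]
    · have := mul_mem (hout a ha) (hout b hb)
      rw [hcomm b z, ← mul_assoc, mul_assoc a z z, hA, mul_one] at this
      simp [this]
  exact ⟨{ toFun := fun a => if a ∈ U then 1 else -1
           map_one' := if_pos (one_mem U)
           map_mul' := fun a b => by simp only [hmul]; by_cases a ∈ U <;> by_cases b ∈ U <;> simp [*] },
    fun k hk => if_pos (hKU hk), if_neg hzU⟩

/-- Let G be a finite 2-group of nilpotency class at most 2 and exponent dividing 4 in which the elements x with x² = 1 form a subgroup N. Then |G| ≤ |N|³, and |G| < |N|³ unless G is special. -/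
theorem result {G : Type*} [Group G] [Finite G] (hG : IsPGroup 2 G) (hcl : (⊤ : Subgroup G).lowerCentralSeries 2 = ⊥) (hexp : ∀ x : G, x ^ 4 = 1) (hN : ∀ x y : G, x ^ 2 = 1 → y ^ 2 = 1 → (x * y) ^ 2 = 1) : Nat.card G ≤ Nat.card {x : G // x ^ 2 = 1} ^ 3 ∧ (¬ Cfsg.IsSpecial 2 G → Nat.card G < Nat.card {x : G // x ^ 2 = 1} ^ 3) := by
  classical
  haveI := Fintype.ofFinite G
  haveI : Fact (Nat.Prime 2) := ⟨Nat.prime_two⟩
  have hsq : ∀ x : G, (x ^ 2) ^ 2 = 1 := fun x => by rw [← pow_mul]; exact hexp x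
  let N : Subgroup G :=
    { carrier := {z : G | z ^ 2 = 1}
      mul_mem' := fun {a b} ha hb => hN a b ha hb
      one_mem' := one_pow 2
      inv_mem' := fun {a} ha => by simp only [Set.mem_setOf_eq] at ha ⊢; rw [inv_pow, ha, inv_one] }
  have hsqN : ∀ x : G, x ^ 2 ∈ N := hsq
  have hcZ : ∀ a b : G, a * b * a⁻¹ * b⁻¹ ∈ Subgroup.center G := by
    intro a b
    rw [Subgroup.mem_center_iff]
    intro g
    have hm : ⁅⁅a, b⁆, g⁆ ∈ (⊤ : Subgroup G).lowerCentralSeries 2 :=
      Subgroup.commutator_mem_commutator (Subgroup.commutator_mem_commutator (Subgroup.mem_top a) (Subgroup.mem_top b))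
        (Subgroup.mem_top g)
    rw [hcl, Subgroup.mem_bot] at hm
    exact (commutatorElement_eq_one_iff_mul_comm.mp hm).symm
  have hcN : ∀ a b : G, a * b * a⁻¹ * b⁻¹ ∈ N := by
    intro a b
    have he : a * b * a⁻¹ * b⁻¹ = a ^ 2 * (a⁻¹ * b) ^ 2 * (b⁻¹) ^ 2 := by simp only [pow_two]; group
    rw [he]
    exact mul_mem (mul_mem (hsqN _) (hsqN _)) (hsqN _)
  have hsqZ : ∀ x : G, x ^ 2 ∈ Subgroup.center G := by
    intro x
    rw [Subgroup.mem_center_iff]
    intro g
    have hb := Subgroup.mem_center_iff.mp (hcZ x g) x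
    have hc2 : (x * g * x⁻¹ * g⁻¹) * (x * g * x⁻¹ * g⁻¹) = 1 := (pow_two _).symm.trans (hcN x g)
    have h3 : x ^ 2 * g * (x ^ 2)⁻¹ = g := by
      calc x ^ 2 * g * (x ^ 2)⁻¹ = (x * (x * g * x⁻¹ * g⁻¹)) * g * x⁻¹ := by rw [pow_two]; group
        _ = ((x * g * x⁻¹ * g⁻¹) * x) * g * x⁻¹ := by rw [hb]
        _ = ((x * g * x⁻¹ * g⁻¹) * (x * g * x⁻¹ * g⁻¹)) * g := by group
        _ = g := by rw [hc2, one_mul]
    exact (mul_inv_eq_iff_eq_mul.mp h3).symm
  let S : Subgroup G := N ⊓ Subgroup.center G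
  have hS2 : ∀ a : ↥S, a * a = 1 := fun a => Subtype.ext ((pow_two (a : G)).symm.trans a.2.1)
  haveI : Finite (↥S →* ℤˣ) := Finite.of_injective _ DFunLike.coe_injective
  haveI := Fintype.ofFinite (↥S →* ℤˣ)
  haveI := Fintype.ofFinite ↥S
  let sq : G → ↥S := fun x => ⟨x ^ 2, hsqN x, hsqZ x⟩
  let cm : G → G → ↥S := fun w x => ⟨w * x * w⁻¹ * x⁻¹, hcN w x, hcZ w x⟩
  have hsqm : ∀ x w, sq (x * w) = cm w x * sq x * sq w := by
    intro x w
    apply Subtype.ext
    show (x * w) ^ 2 = (w * x * w⁻¹ * x⁻¹) * x ^ 2 * w ^ 2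
    have h := Subgroup.mem_center_iff.mp (hcZ w x)
    calc (x * w) ^ 2 = (x * (w * x * w⁻¹ * x⁻¹)) * (x * (w * w)) := by rw [pow_two]; group
      _ = ((w * x * w⁻¹ * x⁻¹) * x) * (x * (w * w)) := by rw [h x]
      _ = _ := by rw [pow_two, pow_two]; group
  have hcml : ∀ w x y, cm w (x * y) = cm w x * cm w y := by
    intro w x y
    apply Subtype.ext
    show w * (x * y) * w⁻¹ * (x * y)⁻¹ = (w * x * w⁻¹ * x⁻¹) * (w * y * w⁻¹ * y⁻¹)
    have hb := Subgroup.mem_center_iff.mp (hcZ w y)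
    calc w * (x * y) * w⁻¹ * (x * y)⁻¹ = (w * x * w⁻¹ * x⁻¹) * (x * (w * y * w⁻¹ * y⁻¹) * x⁻¹) := by group
      _ = _ := by rw [hb x]; group
  have hcmr : ∀ w v x, cm (w * v) x = cm w x * cm v x := by
    intro w v x
    apply Subtype.ext
    show (w * v) * x * (w * v)⁻¹ * x⁻¹ = (w * x * w⁻¹ * x⁻¹) * (v * x * v⁻¹ * x⁻¹)
    have hb := Subgroup.mem_center_iff.mp (hcZ v x)
    calc (w * v) * x * (w * v)⁻¹ * x⁻¹ = (w * (v * x * v⁻¹ * x⁻¹)) * x * w⁻¹ * x⁻¹ := by group
      _ = ((v * x * v⁻¹ * x⁻¹) * w) * x * w⁻¹ * x⁻¹ := by rw [hb w]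
      _ = (v * x * v⁻¹ * x⁻¹) * (w * x * w⁻¹ * x⁻¹) := by group
      _ = _ := (hb _).symm
  let R : (↥S →* ℤˣ) → Subgroup G := fun φ =>
    { carrier := {w | ∀ x, φ (cm w x) = 1}
      mul_mem' := fun {a b} ha hb x => by rw [hcmr, map_mul, ha x, hb x, one_mul]
      one_mem' := fun x => by
        rw [show cm 1 x = 1 from Subtype.ext (by show 1 * x * 1⁻¹ * x⁻¹ = 1; group), map_one]
      inv_mem' := fun {a} ha x => by
        have h := hcmr a⁻¹ a x
        rw [show cm (a⁻¹ * a) x = 1 from Subtype.ext (by show a⁻¹ * a * x * (a⁻¹ * a)⁻¹ * x⁻¹ = 1; group)] at h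
        have h2 := congrArg φ h
        rw [map_one, map_mul, ha x, mul_one] at h2
        exact h2.symm }
  have hZR : ∀ φ, Subgroup.center G ≤ R φ := fun φ w hw x => by
    rw [show cm w x = 1 from Subtype.ext (by
      show w * x * w⁻¹ * x⁻¹ = 1
      rw [← Subgroup.mem_center_iff.mp hw x, mul_inv_cancel_right, mul_inv_cancel]), map_one]
  let T : (↥S →* ℤˣ) → ℤ := fun φ => ∑ x : G, ((φ (sq x) : ℤˣ) : ℤ)
  have hT : ∀ φ, T φ ^ 2 = 0 ∨ T φ ^ 2 = (Fintype.card G : ℤ) * Nat.card (R φ) := fun φ =>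
    Cfsg.Agent.Lib.SignSum.sq_sum (fun x => ((φ (sq x) : ℤˣ) : ℤ)) (fun x w => ((φ (cm w x) : ℤˣ) : ℤ)) (R φ)
      (fun x w => by rw [hsqm, map_mul, map_mul, Units.val_mul, Units.val_mul])
      (fun x => Int.units_coe_mul_self _)
      (fun x y w => by rw [hcml, map_mul, Units.val_mul])
      (fun w => forall_congr' fun x => by rw [Units.val_eq_one])
  -- orthogonality
  have hcol : ∀ a : ↥S, (∑ φ : ↥S →* ℤˣ, ((φ a : ℤˣ) : ℤ)) = if a = 1 then (Fintype.card (↥S →* ℤˣ) : ℤ) else 0 := by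
    intro a
    split_ifs with ha
    · subst ha; simp
    · obtain ⟨μ, -, hμ⟩ := exists_sign_hom hS2 ⊥ a (by rwa [Subgroup.mem_bot])
      have h : ∑ φ : ↥S →* ℤˣ, ((φ a : ℤˣ) : ℤ) = -∑ φ : ↥S →* ℤˣ, ((φ a : ℤˣ) : ℤ) := by
        conv_lhs => rw [← Equiv.sum_comp (Equiv.mulLeft μ) (fun φ : ↥S →* ℤˣ => ((φ a : ℤˣ) : ℤ))]
        simp [hμ]
      linarith
  have hD : Fintype.card (↥S →* ℤˣ) = Fintype.card ↥S := by
    have h1 : ∑ a : ↥S, ∑ φ : ↥S →* ℤˣ, ((φ a : ℤˣ) : ℤ) = Fintype.card (↥S →* ℤˣ) := by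
      simp only [hcol, Finset.sum_ite_eq', Finset.mem_univ, if_true]
    have h2 : ∀ φ : ↥S →* ℤˣ, ∑ a : ↥S, ((φ a : ℤˣ) : ℤ) = if φ = 1 then (Fintype.card ↥S : ℤ) else 0 := by
      intro φ
      split_ifs with hφ
      · subst hφ; simp
      · obtain ⟨b, hb⟩ : ∃ b, φ b ≠ 1 := by
          by_contra h; push Not at h; exact hφ (MonoidHom.ext h)
        have hb' : φ b = -1 := (Int.units_eq_one_or (φ b)).resolve_left hb
        have h : ∑ a : ↥S, ((φ a : ℤˣ) : ℤ) = -∑ a : ↥S, ((φ a : ℤˣ) : ℤ) := by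
          conv_lhs => rw [← Equiv.sum_comp (Equiv.mulLeft b) (fun a : ↥S => ((φ a : ℤˣ) : ℤ))]
          simp [hb']
        linarith
    rw [Finset.sum_comm] at h1
    simp only [h2, Finset.sum_ite_eq', Finset.mem_univ, if_true] at h1
    exact_mod_cast h1.symm
  set q := Nat.card {x : G // x ^ 2 = 1} with hqdef
  have hqN : q = Nat.card ↥N := rfl
  have htot : ∑ φ, T φ = (Nat.card ↥S : ℤ) * q := by
    simp only [T]
    rw [Finset.sum_comm]
    simp only [hcol]
    rw [← Finset.sum_filter, Finset.sum_const, hD, nsmul_eq_mul, Nat.card_eq_fintype_card, hqdef,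
      Nat.card_eq_fintype_card, Fintype.card_subtype, mul_comm]
    congr 2
    rw [Fintype.card_subtype]
    refine congrArg Finset.card ?_
    ext x
    simp [sq, Subtype.ext_iff]
  obtain ⟨g, hg⟩ := IsPGroup.iff_card.mp hG
  obtain ⟨m, hm⟩ := IsPGroup.iff_card.mp (hG.to_subgroup S)
  obtain ⟨n, hn⟩ := IsPGroup.iff_card.mp (hG.to_subgroup N)
  have hmn : m ≤ n := by
    have := Subgroup.card_le_of_le (inf_le_left : S ≤ N)
    rw [hm, hn] at this
    exact (Nat.pow_le_pow_iff_right (by norm_num)).mp this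
  have hTk : ∀ φ r, Nat.card (R φ) = 2 ^ r → T φ = 0 ∨ ∃ k, 2 * k = g + r ∧ (T φ).natAbs = 2 ^ k := by
    intro φ r hr
    rcases hT φ with h | h
    · exact Or.inl (pow_eq_zero_iff two_ne_zero |>.mp h)
    · right
      rw [← Nat.card_eq_fintype_card, hg, hr] at h
      have h2 := congrArg Int.natAbs h
      rw [Int.natAbs_pow] at h2
      push_cast [Int.natAbs_mul, Int.natAbs_pow] at h2
      rw [← pow_add] at h2
      norm_num at h2
      obtain ⟨k, -, hk⟩ := (Nat.dvd_prime_pow Nat.prime_two).mp (h2 ▸ dvd_pow_self _ two_ne_zero)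
      refine ⟨k, ?_, hk⟩
      rw [hk, ← pow_mul, mul_comm] at h2
      exact Nat.pow_right_injective le_rfl h2
  have hRr : ∀ φ, ∃ r, Nat.card (R φ) = 2 ^ r ∧ m ≤ r := by
    intro φ
    obtain ⟨r, hr⟩ := IsPGroup.iff_card.mp (hG.to_subgroup (R φ))
    refine ⟨r, hr, ?_⟩
    have := Subgroup.card_le_of_le ((inf_le_right : S ≤ _).trans (hZR φ))
    rw [hm, hr] at this
    exact (Nat.pow_le_pow_iff_right (by norm_num)).mp this
  have hdiv : ∀ c, 2 * c ≤ g + m + 1 → ∀ φ, (2 : ℤ) ^ c ∣ T φ := by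
    intro c hc φ
    obtain ⟨r, hr, hmr⟩ := hRr φ
    rcases hTk φ r hr with h | ⟨k, hk, hk'⟩
    · rw [h]; exact dvd_zero _
    · rw [← Int.dvd_natAbs, hk']
      exact_mod_cast pow_dvd_pow 2 (show c ≤ k by omega)
  have hbound : g ≤ m + 2 * n := by
    have h : (2 : ℤ) ^ ((g + m + 1) / 2) ∣ 2 ^ (m + n) := by
      have h := Finset.dvd_sum (s := Finset.univ) (fun φ _ => hdiv ((g + m + 1) / 2) (by omega) φ)
      rw [htot, hm, hqN, hn] at h
      push_cast at h
      rwa [← pow_add] at h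
    have h' : 2 ^ ((g + m + 1) / 2) ∣ 2 ^ (m + n) := by exact_mod_cast h
    have := (Nat.pow_dvd_pow_iff_le_right (by norm_num)).mp h'
    omega
  rw [hqN, hn, hg, ← pow_mul]
  refine ⟨Nat.pow_le_pow_right (by norm_num) (by omega), fun hns => ?_⟩
  refine Nat.pow_lt_pow_right (by norm_num) ?_
  by_contra hlt
  have hmeq : m = n := by omega
  subst hmeq
  have hgm : g = 3 * m := by omega
  have hSN : S = N := Subgroup.eq_of_le_of_card_ge inf_le_left (by rw [hm, hn])
  let f : (↥S →* ℤˣ) → ZMod 2 := fun φ => if Nat.card (R φ) = 2 ^ m then 1 else 0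
  have hTt : ∀ φ, ∃ t : ℤ, T φ = 2 ^ (2 * m) * t ∧ (t : ZMod 2) = f φ := by
    intro φ
    obtain ⟨r, hr, hmr⟩ := hRr φ
    rcases hmr.eq_or_lt with rfl | hlt'
    · have hR : R φ = S := (Subgroup.eq_of_le_of_card_ge ((inf_le_right : S ≤ _).trans (hZR φ)) (by rw [hr, hm])).symm
      rcases hTk φ m hr with h | ⟨k, hk, hk'⟩
      · exfalso
        have hs := Cfsg.Agent.Lib.SignSum.sq_sum_ne_zero (fun x => ((φ (sq x) : ℤˣ) : ℤ)) (fun x w => ((φ (cm w x) : ℤˣ) : ℤ)) (R φ)
          (fun x w => by rw [hsqm, map_mul, map_mul, Units.val_mul, Units.val_mul])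
          (fun x => Int.units_coe_mul_self _)
          (fun x y w => by rw [hcml, map_mul, Units.val_mul])
          (fun w => forall_congr' fun x => by rw [Units.val_eq_one])
          (fun w hw => by
            rw [hR] at hw
            rw [show sq w = 1 from Subtype.ext hw.1, map_one, Units.val_one])
        exact hs h
      · have hk2 : k = 2 * m := by omega
        rcases Int.natAbs_eq (T φ) with h | h
        · exact ⟨1, by rw [h, hk', hk2]; push_cast; ring, by rw [show f φ = 1 from if_pos hr]; rfl⟩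
        · exact ⟨-1, by rw [h, hk', hk2]; push_cast; ring, by rw [show f φ = 1 from if_pos hr]; rfl⟩
    · have hf : f φ = 0 := by
        simp only [f]
        rw [if_neg]
        rw [hr]
        exact fun h => hlt'.ne' (Nat.pow_right_injective le_rfl h)
      rcases hTk φ r hr with h | ⟨k, hk, hk'⟩
      · exact ⟨0, by rw [h, mul_zero], by simp [hf]⟩
      · obtain ⟨c, hc⟩ : (2 : ℤ) ^ (2 * m + 1) ∣ T φ := by
          rw [← Int.dvd_natAbs, hk']
          exact_mod_cast pow_dvd_pow 2 (show 2 * m + 1 ≤ k by omega)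
        refine ⟨2 * c, by rw [hc, pow_succ]; ring, ?_⟩
        rw [hf, Int.cast_mul, show ((2 : ℤ) : ZMod 2) = 0 from rfl, zero_mul]
  choose t ht htf using hTt
  have hone : ∑ φ, f φ = 1 := by
    have h : (2 : ℤ) ^ (2 * m) * ∑ φ, t φ = 2 ^ (2 * m) * 1 := by
      rw [Finset.mul_sum, ← Finset.sum_congr rfl (fun φ _ => ht φ), htot, hm, hqN, hn]
      push_cast
      ring
    have h1 := congrArg (fun z : ℤ => (z : ZMod 2)) (mul_left_cancel₀ (by positivity) h)
    push_cast at h1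
    rw [← h1]
    exact Finset.sum_congr rfl (fun φ _ => (htf φ).symm)
  have hcenter : Subgroup.center G = S := by
    refine (le_antisymm inf_le_right ?_).symm
    by_contra hne
    have h0 : ∀ φ, f φ = 0 := by
      intro φ
      simp only [f]
      rw [if_neg]
      intro h
      exact hne ((hZR φ).trans (Subgroup.eq_of_le_of_card_ge ((inf_le_right : S ≤ _).trans (hZR φ))
        (by rw [h, hm])).ge)
    rw [Finset.sum_congr rfl (fun φ _ => h0 φ), Finset.sum_const_zero] at hone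
    exact zero_ne_one hone
  have hG'S : commutator G ≤ S := by
    rw [commutator_def, Subgroup.commutator_le]
    exact fun a _ b _ => ⟨hcN a b, hcZ a b⟩
  have hcomm : commutator G = S := by
    refine le_antisymm hG'S (fun z hz => ?_)
    by_contra hzc
    obtain ⟨μ, hμ, hμz⟩ := exists_sign_hom hS2 ((commutator G).subgroupOf S) ⟨z, hz⟩ hzc
    have hRμ : ∀ φ, R (μ * φ) = R φ := fun φ => by
      ext w
      refine forall_congr' (fun x => ?_)
      rw [MonoidHom.mul_apply, hμ (cm w x) (Subgroup.commutator_mem_commutator (Subgroup.mem_top w) (Subgroup.mem_top x)), one_mul]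
    have hμ1 : μ ≠ 1 := fun h => by rw [h] at hμz; simp at hμz
    have : ∑ φ, f φ = 0 := by
      refine Finset.sum_involution (fun φ _ => μ * φ) (fun φ _ => ?_) (fun φ _ _ h => hμ1 (mul_eq_right.mp h))
        (fun φ _ => Finset.mem_univ _) (fun φ _ => ?_)
      · simp only [f, hRμ]; split_ifs <;> rfl
      · ext a; simp [← mul_assoc, Int.units_mul_self]
    rw [this] at hone
    exact zero_ne_one hone
  apply hns
  have hfr : frattini G = S := le_antisymm
    (Cfsg.Agent.Lib.PGroupFrattini.frattini_le Nat.prime_two S hG'S (fun x => ⟨hsqN x, hsqZ x⟩))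
    (hcomm ▸ Cfsg.Agent.Lib.PGroupFrattini.commutator_le_frattini hG)
  exact ⟨hG, hfr.trans hcenter.symm, hcomm.trans hcenter.symm⟩

end Cfsg.Agent.S3773
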