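import Cfsg.Statements.S3774

set_option autoImplicit false
open Cfsg

namespace Cfsg.Agent.S3774

lemma exists_involution_pow {G : Type*} [Group G] [Finite G] (hG : IsPGroup 2 G) (x : G) (hx : x ≠ 1) :
    x ^ (orderOf x / 2) ≠ 1 ∧ (x ^ (orderOf x / 2)) ^ 2 = 1 := by
  haveI : Fact (Nat.Prime 2) := ⟨Nat.prime_two⟩
  have hd : 2 ∣ orderOf x := hG.dvd_orderOf hx
  have hpos : 0 < orderOf x := orderOf_pos x
  refine ⟨pow_ne_one_of_lt_orderOf (by omega) (by omega), ?_⟩
  rw [← pow_mul, Nat.div_mul_cancel hd, pow_orderOf_eq_one]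

/-- Let G be a nontrivial finite 2-group whose automorphism group permutes the involutions of G transitively. Then every involution of G is central, so that the involutions together with 1 form the subgroup Ω₁(Z(G)), and if this subgroup has order q then |G| is a power of q. -/
theorem result {G : Type*} [Group G] [Finite G] [Nontrivial G] (hG : IsPGroup 2 G) (htrans : ∀ x y : G, x ≠ 1 → x ^ 2 = 1 → y ≠ 1 → y ^ 2 = 1 → ∃ a : MulAut G, a x = y) : (∀ x : G, x ^ 2 = 1 → x ∈ Subgroup.center G) ∧ ∃ m : ℕ, Nat.card G = Nat.card {z : G // z ^ 2 = 1} ^ m := by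
  classical
  haveI : Fact (Nat.Prime 2) := ⟨Nat.prime_two⟩
  obtain ⟨z, hz, hz1⟩ := (Subgroup.nontrivial_iff_exists_ne_one _).mp hG.center_nontrivial
  obtain ⟨hne, hsq⟩ := exists_involution_pow hG z hz1
  have hzc : z ^ (orderOf z / 2) ∈ Subgroup.center G := pow_mem hz _
  have hcentral : ∀ x : G, x ^ 2 = 1 → x ∈ Subgroup.center G := by
    intro x hx
    by_cases hx1 : x = 1
    · exact hx1 ▸ one_mem _
    obtain ⟨a, ha⟩ := htrans _ x hne hsq hx1 hx
    rw [← ha, Subgroup.mem_center_iff]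
    intro g
    obtain ⟨g, rfl⟩ := a.surjective g
    rw [← map_mul, ← map_mul, Subgroup.mem_center_iff.mp hzc g]
  refine ⟨hcentral, ?_⟩
  -- the subgroup of involutions
  let Ω : Subgroup G :=
    { carrier := {z : G | z ^ 2 = 1}
      mul_mem' := fun {a b} ha hb => by
        have hc : Commute a b := ((Subgroup.mem_center_iff.mp (hcentral a ha)) b).symm
        simp only [Set.mem_setOf_eq] at ha hb ⊢
        rw [hc.mul_pow, ha, hb, one_mul]
      one_mem' := one_pow 2
      inv_mem' := fun {a} ha => by simp only [Set.mem_setOf_eq] at ha ⊢; rw [inv_pow, ha, inv_one] }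
  have hq : Nat.card {z : G // z ^ 2 = 1} = Nat.card Ω := rfl
  obtain ⟨n, hn⟩ := IsPGroup.iff_card.mp (hG.to_subgroup Ω)
  obtain ⟨k, hk⟩ := IsPGroup.iff_card.mp hG
  -- the equivariant map to involutions
  let I := {x : G // x ≠ 1 ∧ x ^ 2 = 1}
  let f : {x : G // x ≠ 1} → I := fun x =>
    ⟨x.1 ^ (orderOf x.1 / 2), exists_involution_pow hG x.1 x.2⟩
  obtain ⟨i0⟩ : Nonempty I := ⟨⟨_, hne, hsq⟩⟩
  have hfib : ∀ i : I, Nat.card {x // f x = i} = Nat.card {x // f x = i0} := by
    intro i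
    obtain ⟨a, ha⟩ := htrans i.1 i0.1 i.2.1 i.2.2 i0.2.1 i0.2.2
    let e : {x : G // x ≠ 1} ≃ {x : G // x ≠ 1} :=
      a.toEquiv.subtypeEquiv (fun x => by simp)
    refine Nat.card_congr (e.subtypeEquiv (fun x => ?_))
    have key : (f (e x)).1 = a (f x).1 := by
      show (a x.1) ^ (orderOf (a x.1) / 2) = a (x.1 ^ (orderOf x.1 / 2))
      rw [map_pow, MulEquiv.orderOf_eq]
    constructor
    · rintro rfl; exact Subtype.ext (key.trans ha)
    · intro h
      exact Subtype.ext (a.injective (key.symm.trans ((congrArg Subtype.val h).trans ha.symm)))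
  haveI := Fintype.ofFinite I
  have htot : Nat.card {x : G // x ≠ 1} = Nat.card I * Nat.card {x // f x = i0} := by
    rw [Nat.card_congr (Equiv.sigmaFiberEquiv f).symm, Nat.card_sigma, Finset.sum_congr rfl (fun i _ => hfib i),
      Finset.sum_const, Finset.card_univ, smul_eq_mul, Nat.card_eq_fintype_card (α := I)]
  have h1 : ∀ (α : Type _) [Finite α] (a : α), Nat.card {x : α // x ≠ a} = Nat.card α - 1 := by
    intro α _ a
    haveI := Fintype.ofFinite α
    rw [Nat.card_eq_fintype_card, Nat.card_eq_fintype_card, Fintype.card_subtype_compl, Fintype.card_subtype_eq]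
  have hI : Nat.card I = Nat.card Ω - 1 := by
    rw [← h1 Ω 1]
    exact Nat.card_congr
      { toFun := fun x => ⟨⟨x.1, x.2.2⟩, fun h => x.2.1 (congrArg Subtype.val h)⟩
        invFun := fun x => ⟨x.1.1, fun h => x.2 (Subtype.ext h), x.1.2⟩
        left_inv := fun _ => rfl
        right_inv := fun _ => rfl }
  rw [h1 G 1, hI, hk, hn] at htot
  have hdvd : 2 ^ n - 1 ∣ 2 ^ k - 1 := ⟨_, htot⟩
  have hg := Nat.pow_sub_one_gcd_pow_sub_one 2 n k
  rw [Nat.gcd_eq_left hdvd] at hg
  have hgn : Nat.gcd n k = n := by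
    have h2 : 2 ^ n = 2 ^ (Nat.gcd n k) := by
      have := Nat.one_le_two_pow (n := n)
      have := Nat.one_le_two_pow (n := Nat.gcd n k)
      omega
    exact (Nat.pow_right_injective le_rfl h2).symm
  obtain ⟨m, hm⟩ := hgn ▸ Nat.gcd_dvd_right n k
  exact ⟨m, by rw [hq, hn, hk, hm, pow_mul]⟩

end Cfsg.Agent.S3774
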