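import Cfsg.Statements.S3775


set_option autoImplicit false
open Cfsg

namespace Cfsg.Agent.S3775

open Subgroup

section

variable {A : Type*} [CommGroup A]

/-- The subgroup of elements killed by `m`. -/
abbrev tor (m : ℕ) : Subgroup A := (powMonoidHom m : A →* A).ker

theorem mem_tor {m : ℕ} {a : A} : a ∈ tor m ↔ a ^ m = 1 := Iff.rfl

/-- A subgroup invariant under a set of automorphisms. -/
def IsInv (X : Subgroup (MulAut A)) (B : Subgroup A) : Prop := ∀ x ∈ X, B.map x.toMonoidHom = B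

theorem IsInv.apply_mem {X : Subgroup (MulAut A)} {B : Subgroup A} (h : IsInv X B) {x : MulAut A} (hx : x ∈ X)
    {b : A} (hb : b ∈ B) : x b ∈ B := (h x hx).le (mem_map_of_mem _ hb)

theorem isInv_of_apply_mem {X : Subgroup (MulAut A)} {B : Subgroup A}
    (h : ∀ x ∈ X, ∀ b ∈ B, x b ∈ B) : IsInv X B := by
  intro x hx
  refine le_antisymm ?_ fun b hb => ⟨x⁻¹ b, h _ (X.inv_mem hx) b hb, ?_⟩
  · rintro _ ⟨b, hb, rfl⟩; exact h x hx b hb
  · exact MulEquiv.apply_symm_apply x b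

theorem exists_complement [Finite A] {p : ℕ} [Fact p.Prime] {W : Subgroup A} (hW : W ≤ tor p) :
    ∃ C : Subgroup A, C ≤ tor p ∧ W ⊓ C = ⊥ ∧ W ⊔ C = tor p := by
  obtain ⟨C, -, hC⟩ := Finite.exists_le_maximal
    (p := fun C : Subgroup A => C ≤ tor p ∧ W ⊓ C = ⊥) (a := (⊥ : Subgroup A)) ⟨bot_le, inf_bot_eq W⟩
  refine ⟨C, hC.prop.1, hC.prop.2, le_antisymm (sup_le hW hC.prop.1) fun x hx => ?_⟩
  by_contra hxn
  have hle : C ⊔ zpowers x ≤ tor p := sup_le hC.prop.1 (zpowers_le.mpr hx)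
  have h2 : W ⊓ (C ⊔ zpowers x) = ⊥ := by
    rw [eq_bot_iff]
    rintro w ⟨hw, hw'⟩
    obtain ⟨c, hc, _, ⟨k, rfl⟩, rfl⟩ := mem_sup.mp hw'
    by_cases hk : (p : ℤ) ∣ k
    · obtain ⟨j, rfl⟩ := hk
      have h1 : x ^ ((p : ℤ) * j) = 1 := by rw [zpow_mul, zpow_natCast, mem_tor.mp hx, one_zpow]
      simp only [h1, mul_one] at hw ⊢
      exact hC.prop.2.le ⟨hw, hc⟩
    · refine absurd ?_ hxn
      have hxk : x ^ k ∈ W ⊔ C := by
        rw [show x ^ k = (c * x ^ k) * c⁻¹ by rw [mul_right_comm, mul_inv_cancel, one_mul]]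
        exact mul_mem (mem_sup_left hw) (mem_sup_right (inv_mem hc))
      have hcop : Int.gcd k p = 1 := by
        rw [Int.gcd_comm]
        exact Int.isCoprime_iff_gcd_eq_one.mp
          ((Nat.prime_iff_prime_int.mp (Fact.out : p.Prime)).coprime_iff_not_dvd.mpr hk)
      have : x = (x ^ k) ^ (Int.gcdA k p) := by
        conv_lhs => rw [← zpow_one x, ← Nat.cast_one, ← hcop, Int.gcd_eq_gcd_ab, zpow_add, zpow_mul, zpow_mul,
          zpow_natCast, mem_tor.mp hx, one_zpow, mul_one]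
      rw [this]
      exact zpow_mem hxk _
  have := hC.le_of_ge ⟨hle, h2⟩ le_sup_left
  exact hxn (mem_sup_right (this (mem_sup_right (mem_zpowers x))))

theorem exists_hom_extend [Finite A] {p : ℕ} [Fact p.Prime] (hA : IsPGroup p A) {e : ℕ}
    (hexp : ∀ a : A, a ^ p ^ (e + 1) = 1) {W : Subgroup A} (hWS : ∀ w ∈ W, ∃ c, c ^ p ^ e = w) :
    ∃ f : A →* A, (∀ w ∈ W, f w = w) ∧ ∀ a : A, a ^ p = 1 → f a ∈ W := by
  classical
  have hp : p.Prime := Fact.out
  have hWt : W ≤ tor p := fun w hw => by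
    obtain ⟨c, rfl⟩ := hWS w hw
    rw [mem_tor, ← pow_mul, ← pow_succ, hexp]
  obtain ⟨C, hC, hd, hsup⟩ := exists_complement hWt
  have dec : ∀ x : A, x ^ p = 1 → ∃ w ∈ W, w⁻¹ * x ∈ C := fun x hx => by
    obtain ⟨w, hw, c, hc, rfl⟩ := mem_sup.mp (hsup.ge hx)
    exact ⟨w, hw, by simpa using hc⟩
  have huniq : ∀ {x w w' : A}, w ∈ W → w' ∈ W → w⁻¹ * x ∈ C → w'⁻¹ * x ∈ C → w = w' := by
    intro x w w' hw hw' h h'
    have : w⁻¹ * w' ∈ W ⊓ C := ⟨W.mul_mem (W.inv_mem hw) hw', by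
      have := mul_mem h (inv_mem h')
      rwa [mul_inv_rev, inv_inv, mul_assoc, mul_inv_cancel_left] at this⟩
    rw [hd, mem_bot, inv_mul_eq_one] at this
    exact this
  have hT : ∀ x : ↥(tor p : Subgroup A), (x : A) ^ p = 1 := fun x => x.2
  choose π hπW hπC using fun x : ↥(tor p : Subgroup A) => dec x (hT x)
  let πh : ↥(tor p : Subgroup A) →* A := MonoidHom.mk' π fun x y => by
    refine huniq (hπW _) (mul_mem (hπW x) (hπW y)) (hπC _) ?_
    rw [coe_mul, mul_inv_rev, mul_comm (π y)⁻¹, mul_mul_mul_comm]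
    exact mul_mem (hπC x) (hπC y)
  let pm : A →* ↥(tor p : Subgroup A) :=
    (powMonoidHom (p ^ e) : A →* A).codRestrict _ fun a => by
      rw [mem_tor, powMonoidHom_apply, ← pow_mul, ← pow_succ, hexp]
  have hlift : ∀ a : A, ∃ b : A, b ^ p ^ e = πh (pm a) := fun a => hWS _ (hπW _)
  obtain ⟨ι, _, n, hn, ⟨φ⟩⟩ := CommGroup.equiv_prod_multiplicative_zmod_of_finite A
  let g : ι → A := fun i => φ.symm (Pi.mulSingle i (Multiplicative.ofAdd (1 : ZMod (n i))))
  have hgen : ∀ i, ∀ u : Multiplicative (ZMod (n i)),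
      u ∈ zpowers (Multiplicative.ofAdd (1 : ZMod (n i))) := fun i u => by
    have : NeZero (n i) := ⟨by have := hn i; omega⟩
    exact ⟨((Multiplicative.toAdd u).val : ℤ), by
      simp only
      rw [zpow_natCast, ← ofAdd_nsmul, nsmul_one, ZMod.natCast_zmod_val, ofAdd_toAdd]⟩
  have hord : ∀ i, orderOf (Multiplicative.ofAdd (1 : ZMod (n i))) = n i := fun i => by
    rw [orderOf_ofAdd_eq_addOrderOf, ZMod.addOrderOf_one]
  have hgo : ∀ i, orderOf (g i) = n i := fun i => by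
    rw [← hord i]
    show orderOf (φ.symm _) = _
    rw [MulEquiv.orderOf_eq, ← MonoidHom.mulSingle_apply,
      orderOf_injective (MonoidHom.mulSingle (fun i => Multiplicative (ZMod (n i))) i) (fun a b h => by simpa using congrFun h i)]
  have hb : ∀ i, ∃ b : A, b ^ n i = 1 ∧ b ^ p ^ e = πh (pm (g i)) ∧ (n i ∣ p ^ e → b = 1) := by
    intro i
    by_cases hi : n i ∣ p ^ e
    · refine ⟨1, one_pow _, ?_, fun _ => rfl⟩
      have : pm (g i) = 1 := Subtype.ext (by
        show g i ^ p ^ e = 1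
        exact orderOf_dvd_iff_pow_eq_one.mp ((hgo i).symm ▸ hi))
      rw [this, map_one, one_pow]
    · obtain ⟨b, hb⟩ := hlift (g i)
      refine ⟨b, ?_, hb, fun h => absurd h hi⟩
      have hd1 : n i ∣ p ^ (e + 1) := hgo i ▸ orderOf_dvd_of_pow_eq_one (hexp _)
      obtain ⟨k, hk, hk'⟩ := (Nat.dvd_prime_pow hp).mp hd1
      have : k = e + 1 := by
        rcases Nat.lt_or_ge k (e + 1) with h | h
        · exact absurd (hk' ▸ pow_dvd_pow p (Nat.lt_succ_iff.mp h)) hi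
        · omega
      rw [hk', this, hexp]
  choose b hb1 hb2 hb3 using hb
  let ψ : ∀ i, Multiplicative (ZMod (n i)) →* A := fun i =>
    monoidHomOfForallMemZpowers (hgen i) (g' := b i) (by rw [hord]; exact orderOf_dvd_of_pow_eq_one (hb1 i))
  let F : (∀ i, Multiplicative (ZMod (n i))) →* A :=
    { toFun := fun v => ∏ i, ψ i (v i)
      map_one' := by simp
      map_mul' := fun u v => by simp [Finset.prod_mul_distrib] }
  let f : A →* A := F.comp φ.toMonoidHom
  have hf : ∀ a, f a = ∏ i, ψ i (φ a i) := fun a => rfl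
  have hfg : ∀ i, f (g i) = b i := by
    intro i
    rw [hf, Finset.prod_eq_single i]
    · show ψ i (φ (φ.symm _) i) = _
      rw [MulEquiv.apply_symm_apply, Pi.mulSingle_eq_same]
      exact monoidHomOfForallMemZpowers_apply_gen _ _
    · intro j _ hj
      show ψ j (φ (φ.symm _) j) = 1
      rw [MulEquiv.apply_symm_apply, Pi.mulSingle_eq_of_ne hj, map_one]
    · exact fun h => absurd (Finset.mem_univ i) h
  have key : (powMonoidHom (p ^ e) : A →* A).comp f = πh.comp pm := by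
    have hspan : ∀ a : A, a ∈ closure (Set.range g) := by
      intro a
      have : φ a = ∏ i, Pi.mulSingle i (φ a i) := (Finset.univ_prod_mulSingle (φ a)).symm
      rw [← φ.symm_apply_apply a, this, map_prod]
      refine Subgroup.prod_mem _ fun i _ => ?_
      obtain ⟨k, hk⟩ := mem_zpowers_iff.mp (hgen i (φ a i))
      rw [← hk, ← MonoidHom.mulSingle_apply, map_zpow, map_zpow]
      exact zpow_mem (subset_closure (show g i ∈ Set.range g from ⟨i, rfl⟩)) k
    refine MonoidHom.eq_of_eqOn_dense (top_unique fun a _ => hspan a) ?_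
    rintro _ ⟨i, rfl⟩
    show f (g i) ^ p ^ e = πh (pm (g i))
    rw [hfg, hb2]
  refine ⟨f, fun w hw => ?_, fun a ha => ?_⟩
  · obtain ⟨c, hc⟩ := hWS w hw
    have h1 := DFunLike.congr_fun key c
    simp only [MonoidHom.comp_apply, powMonoidHom_apply] at h1
    rw [← map_pow, hc] at h1
    rw [h1]
    have h2 : ((pm c : ↥(tor p : Subgroup A)) : A) = w := hc
    refine huniq (hπW _) hw (hπC _) ?_
    rw [h2, inv_mul_cancel]
    exact one_mem _
  · rw [hf]
    refine Subgroup.prod_mem _ fun i _ => ?_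
    obtain ⟨k, hk⟩ := mem_zpowers_iff.mp (hgen i (φ a i))
    have h1 : Multiplicative.ofAdd (1 : ZMod (n i)) ^ (k * p) = 1 := by
      rw [zpow_mul, hk, zpow_natCast, ← Pi.pow_apply, ← map_pow, ha, map_one, Pi.one_apply]
    have h2 : (n i : ℤ) ∣ k * p := hord i ▸ orderOf_dvd_iff_zpow_eq_one.mpr h1
    rw [← hk, map_zpow, monoidHomOfForallMemZpowers_apply_gen]
    by_cases hi : n i ∣ p ^ e
    · rw [hb3 i hi, one_zpow]; exact one_mem _
    · have hd1 : n i ∣ p ^ (e + 1) := hgo i ▸ orderOf_dvd_of_pow_eq_one (hexp _)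
      obtain ⟨m, hm, hm'⟩ := (Nat.dvd_prime_pow hp).mp hd1
      have : m = e + 1 := by
        rcases Nat.lt_or_ge m (e + 1) with h | h
        · exact absurd (hm' ▸ pow_dvd_pow p (Nat.lt_succ_iff.mp h)) hi
        · omega
      rw [hm', this, pow_succ, Nat.cast_mul] at h2
      obtain ⟨j, rfl⟩ := Int.dvd_of_mul_dvd_mul_right (by exact_mod_cast hp.ne_zero) h2
      rw [zpow_mul, zpow_natCast, hb2]
      exact zpow_mem (hπW _) j

theorem exists_avg [Finite A] {p : ℕ} [Fact p.Prime] (X : Subgroup (MulAut A)) (hX : (Nat.card X).Coprime p)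
    {W : Subgroup A} (hW : IsInv X W) (hWp : W ≤ tor p) (f : A →* A) (hfW : ∀ w ∈ W, f w = w)
    (hfp : ∀ a : A, a ^ p = 1 → f a ∈ W) :
    ∃ F : A →* A, (∀ w ∈ W, F w = w) ∧ (∀ a : A, a ^ p = 1 → F a ∈ W) ∧
      ∀ x ∈ X, ∀ a, F (x a) = x (F a) := by
  classical
  have : Fintype X := Fintype.ofFinite _
  obtain ⟨k, hk⟩ := Nat.exists_mul_mod_eq_one_of_coprime hX (Fact.out : p.Prime).one_lt
  let F₀ : A →* A :=
    { toFun := fun a => ∏ x : X, (x : MulAut A) (f ((x⁻¹ : X).1 a))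
      map_one' := by simp
      map_mul' := fun a b => by simp only [map_mul, Finset.prod_mul_distrib] }
  have hF₀ : ∀ a, F₀ a = ∏ x : X, (x : MulAut A) (f ((x⁻¹ : X).1 a)) := fun a => rfl
  refine ⟨(powMonoidHom k).comp F₀, fun w hw => ?_, fun a ha => ?_, fun y hy a => ?_⟩
  · simp only [MonoidHom.comp_apply, powMonoidHom_apply, hF₀]
    rw [Finset.prod_eq_pow_card (b := w) fun x _ => by
      rw [hfW _ (hW.apply_mem (x⁻¹ : X).2 hw)]; simp]
    rw [Finset.card_univ, ← Nat.card_eq_fintype_card, ← pow_mul, ← Nat.mod_add_div (Nat.card X * k) p, hk.2,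
      pow_add, pow_one, pow_mul, mem_tor.mp (hWp hw), one_pow, mul_one]
  · simp only [MonoidHom.comp_apply, powMonoidHom_apply, hF₀]
    refine pow_mem (Subgroup.prod_mem _ fun x _ => hW.apply_mem x.2 (hfp _ ?_)) k
    rw [← map_pow, ha, map_one]
  · simp only [MonoidHom.comp_apply, powMonoidHom_apply, hF₀, map_pow, map_prod]
    refine (Fintype.prod_equiv (Equiv.mulLeft (⟨y, hy⟩ : X)) _ _ fun x => ?_).symm
    simp only [Equiv.coe_mulLeft, mul_inv_rev, coe_mul, InvMemClass.coe_inv, MulAut.mul_apply, MulAut.inv_apply_self]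

theorem exists_idempotent_pow [Finite A] (F : A →* A) :
    ∃ n : ℕ, 0 < n ∧ ∀ a, (F : A → A)^[n] ((F : A → A)^[n] a) = (F : A → A)^[n] a := by
  classical
  obtain ⟨i, j, hne, he⟩ := Finite.exists_ne_map_eq_of_infinite fun n : ℕ => (F : A → A)^[n]
  wlog hij : i < j generalizing i j
  · exact this j i (Ne.symm hne) he.symm (lt_of_le_of_ne (not_lt.mp hij) (Ne.symm hne))
  have hper : ∀ k, i ≤ k → ∀ t, (F : A → A)^[k + t * (j - i)] = (F : A → A)^[k] := by
    intro k hk t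
    induction t with
    | zero => rw [zero_mul, add_zero]
    | succ t ih =>
      rw [Nat.succ_mul, ← Nat.add_assoc]
      obtain ⟨s, hs⟩ : ∃ s, k + t * (j - i) = s + i := ⟨k + t * (j - i) - i, by omega⟩
      rw [hs] at ih ⊢
      rw [show s + i + (j - i) = s + j by omega, Function.iterate_add, ← he, ← Function.iterate_add, ih]
  refine ⟨(j - i) * (i + 1), Nat.mul_pos (by omega) (by omega), fun a => ?_⟩
  rw [← Function.iterate_add_apply]
  have h2 := hper ((j - i) * (i + 1)) (by nlinarith [Nat.sub_pos_of_lt hij]) (i + 1)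
  rw [mul_comm (i + 1)] at h2
  rw [h2]

theorem decomposable [Finite A] {p : ℕ} [Fact p.Prime] (hA : IsPGroup p A) (X : Subgroup (MulAut A))
    (hX : (Nat.card X).Coprime p) {B : Subgroup A} (hB : IsInv X B) (hBp : B ≤ tor p) (hB1 : B ≠ ⊥)
    (hB2 : ¬ tor p ≤ B) :
    ∃ B C : Subgroup A, B ≠ ⊥ ∧ C ≠ ⊥ ∧ IsInv X B ∧ IsInv X C ∧ B ⊓ C = ⊥ ∧ B ⊔ C = ⊤ := by
  classical
  have hex : ∃ e : ℕ, ∀ a : A, a ^ p ^ e = 1 := by
    obtain ⟨e, he⟩ := IsPGroup.iff_card.mp hA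
    exact ⟨e, fun a => he ▸ pow_card_eq_one'⟩
  set e := Nat.find hex with hedef
  have he := Nat.find_spec hex
  rw [← hedef] at he
  obtain ⟨e', he'⟩ : ∃ e', e = e' + 1 := by
    refine ⟨e - 1, ?_⟩
    rcases Nat.eq_zero_or_pos e with h0 | h
    · exfalso
      obtain ⟨b, hb, hb1⟩ := (bot_or_exists_ne_one B).resolve_left hB1
      rw [h0] at he
      exact hb1 (by simpa using he b)
    · omega
  rw [he'] at he
  set S := (powMonoidHom (p ^ e') : A →* A).range with hS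
  have hSp : S ≤ tor p := by
    rintro _ ⟨c, rfl⟩; rw [mem_tor, powMonoidHom_apply, ← pow_mul, ← pow_succ, he]
  have hS1 : S ≠ ⊥ := by
    intro h
    refine Nat.find_min hex (m := e') (by omega) fun a => ?_
    have : a ^ p ^ e' ∈ S := ⟨a, rfl⟩
    rwa [h, mem_bot] at this
  have hSinv : IsInv X S := isInv_of_apply_mem fun x _ b hb => by
    obtain ⟨c, rfl⟩ := hb
    exact ⟨x c, by simp⟩
  obtain ⟨W, hWinv, hW1, hW2, hWS⟩ : ∃ W : Subgroup A, IsInv X W ∧ W ≠ ⊥ ∧ ¬ tor p ≤ W ∧ W ≤ S := by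
    by_cases h : tor p ≤ S
    · exact ⟨B, hB, hB1, hB2, hBp.trans h⟩
    · exact ⟨S, hSinv, hS1, h, le_rfl⟩
  obtain ⟨f, hf1, hf2⟩ := exists_hom_extend hA he (W := W) fun w hw => by
    obtain ⟨c, hc⟩ := hWS hw; exact ⟨c, hc⟩
  obtain ⟨F, hF1, hF2, hF3⟩ := exists_avg X hX hWinv (hWS.trans hSp) f hf1 hf2
  obtain ⟨n, hn, hid⟩ := exists_idempotent_pow F
  let E : A →* A :=
    { toFun := (F : A → A)^[n]
      map_one' := iterate_map_one F n
      map_mul' := fun a b => iterate_map_mul F n a b }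
  have hE : ∀ a, E a = (F : A → A)^[n] a := fun a => rfl
  have hEx : ∀ x ∈ X, ∀ a, E (x a) = x (E a) := fun x hx a => by
    rw [hE, hE]
    exact (show Function.Commute (F : A → A) x from hF3 x hx).iterate_left n a
  have hEW : ∀ w ∈ W, E w = w := fun w hw => by
    rw [hE]; exact Function.iterate_fixed (hF1 w hw) n
  refine ⟨E.range, E.ker, ?_, ?_, isInv_of_apply_mem fun x hx b hb => ?_,
    isInv_of_apply_mem fun x hx b hb => ?_, ?_, ?_⟩
  · obtain ⟨w, hw, hw1⟩ := (bot_or_exists_ne_one W).resolve_left hW1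
    intro h
    exact hw1 (h.le ⟨w, hEW w hw⟩)
  · obtain ⟨a, ha, haW⟩ := SetLike.not_le_iff_exists.mp hW2
    intro h
    obtain ⟨m, rfl⟩ : ∃ m, n = m + 1 := ⟨n - 1, by omega⟩
    have h1 : E a = F a := by
      rw [hE, Function.iterate_succ_apply]
      exact Function.iterate_fixed (hF1 _ (hF2 a ha)) m
    have h2 : a⁻¹ * F a ∈ E.ker := by
      rw [MonoidHom.mem_ker, map_mul, map_inv, hEW _ (hF2 a ha), h1, inv_mul_cancel]
    rw [h, mem_bot, inv_mul_eq_one] at h2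
    exact haW (h2 ▸ hF2 a ha)
  · obtain ⟨c, rfl⟩ := hb
    exact ⟨x c, hEx x hx c⟩
  · rw [MonoidHom.mem_ker] at hb ⊢
    rw [hEx x hx, hb, map_one]
  · rw [eq_bot_iff]
    rintro _ ⟨⟨c, rfl⟩, hc⟩
    replace hc : E (E c) = 1 := hc
    rw [hE, hE, hid, ← hE] at hc
    rw [mem_bot, hc]
  · refine top_unique fun a _ => mem_sup.mpr ⟨E a, ⟨a, rfl⟩, (E a)⁻¹ * a, ?_, mul_inv_cancel_left _ _⟩
    rw [MonoidHom.mem_ker, map_mul, map_inv, show E (E a) = E a from hid a, inv_mul_cancel]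

theorem eq_tor [Finite A] {p : ℕ} [Fact p.Prime] (X : Subgroup (MulAut A))
    (hirr : ∀ B : Subgroup A, IsInv X B → B ≤ tor p → B = ⊥ ∨ tor p ≤ B) :
    ∀ i, ∀ B : Subgroup A, IsInv X B → B ≤ tor (p ^ i) → ∃ j, B = tor (p ^ j) := by
  intro i
  induction i with
  | zero =>
    intro B _ hB
    exact ⟨0, le_antisymm hB fun a ha => by
      rw [pow_zero, mem_tor, pow_one] at ha; rw [ha]; exact one_mem B⟩
  | succ i IH =>
    intro B hB hBi
    by_cases hB1 : B = ⊥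
    · refine ⟨0, le_antisymm (hB1 ▸ bot_le) fun a ha => ?_⟩
      rw [pow_zero, mem_tor, pow_one] at ha; rw [ha]; exact one_mem B
    have hBp : IsInv X (B.map (powMonoidHom p)) := isInv_of_apply_mem fun x hx b hb => by
      obtain ⟨c, hc, rfl⟩ := hb
      exact ⟨x c, hB.apply_mem hx hc, by simp⟩
    obtain ⟨j, hj⟩ := IH _ hBp (by
      rintro _ ⟨c, hc, rfl⟩
      rw [mem_tor, powMonoidHom_apply, ← pow_mul, ← pow_succ']
      exact hBi hc)
    have hT : tor p ≤ B := by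
      rcases hirr (B ⊓ tor p) (isInv_of_apply_mem fun x hx b hb => ⟨hB.apply_mem hx hb.1, by
        show (x b) ^ p = 1; rw [← map_pow, show b ^ p = 1 from hb.2, map_one]⟩) inf_le_right with h | h
      · exfalso
        obtain ⟨b, hb, hb1⟩ := (bot_or_exists_ne_one B).resolve_left hB1
        have hbe : orderOf b ∣ p ^ (i + 1) := orderOf_dvd_of_pow_eq_one (hBi hb)
        obtain ⟨k, hk, hk'⟩ := (Nat.dvd_prime_pow (Fact.out : p.Prime)).mp hbe
        obtain ⟨k', rfl⟩ : ∃ k', k = k' + 1 := by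
          refine ⟨k - 1, ?_⟩
          rcases Nat.eq_zero_or_pos k with h0 | h0
          · rw [h0, pow_zero, orderOf_eq_one_iff] at hk'; exact absurd hk' hb1
          · omega
        have h1 : b ^ p ^ k' ∈ B ⊓ tor p := ⟨pow_mem hb _, by
          show (b ^ p ^ k') ^ p = 1
          rw [← pow_mul, ← pow_succ, ← hk', pow_orderOf_eq_one]⟩
        rw [h, mem_bot] at h1
        have h2 := Nat.le_of_dvd (pow_pos (Fact.out : p.Prime).pos _) (orderOf_dvd_of_pow_eq_one h1)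
        rw [hk'] at h2
        exact absurd ((Nat.pow_le_pow_iff_right (Fact.out : p.Prime).one_lt).mp h2) (by omega)
      · exact h.trans inf_le_left
    refine ⟨j + 1, le_antisymm (fun b hb => ?_) fun a ha => ?_⟩
    · have h1 : b ^ p ∈ B.map (powMonoidHom p : A →* A) := ⟨b, hb, rfl⟩
      rw [hj, mem_tor, ← pow_mul, ← pow_succ'] at h1
      exact h1
    · have h1 : a ^ p ∈ B.map (powMonoidHom p : A →* A) := by
        rw [hj, mem_tor, ← pow_mul, ← pow_succ']; exact ha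
      obtain ⟨b, hb, hab⟩ := h1
      rw [powMonoidHom_apply] at hab
      have h2 : b⁻¹ * a ∈ tor p := by rw [mem_tor, mul_pow, inv_pow, hab, inv_mul_cancel]
      have := mul_mem hb (hT h2)
      rwa [mul_inv_cancel_left] at this

theorem main [Finite A] {p : ℕ} [Fact p.Prime] (hA : IsPGroup p A) (X : Subgroup (MulAut A))
    (hX : (Nat.card X).Coprime p) :
    ((¬ ∃ B C : Subgroup A, B ≠ ⊥ ∧ C ≠ ⊥ ∧ (∀ x ∈ X, B.map x.toMonoidHom = B) ∧
        (∀ x ∈ X, C.map x.toMonoidHom = C) ∧ B ⊓ C = ⊥ ∧ B ⊔ C = ⊤) ↔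
      (∀ B : Subgroup A, (∀ x ∈ X, B.map x.toMonoidHom = B) → ∃ i : ℕ, ∀ a : A, a ∈ B ↔ a ^ p ^ i = 1)) ∧
    ((∀ B : Subgroup A, (∀ x ∈ X, B.map x.toMonoidHom = B) → ∃ i : ℕ, ∀ a : A, a ∈ B ↔ a ^ p ^ i = 1) ↔
      (∀ B : Subgroup A, (∀ x ∈ X, B.map x.toMonoidHom = B) → (∀ b ∈ B, b ^ p = 1) →
        B = ⊥ ∨ ∀ a : A, a ∈ B ↔ a ^ p = 1)) := by
  have h32 : (∀ B : Subgroup A, IsInv X B → B ≤ tor p → B = ⊥ ∨ tor p ≤ B) →
      ∀ B : Subgroup A, IsInv X B → ∃ i : ℕ, ∀ a : A, a ∈ B ↔ a ^ p ^ i = 1 := by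
    intro hirr B hB
    obtain ⟨e, he⟩ := IsPGroup.iff_card.mp hA
    obtain ⟨j, rfl⟩ := eq_tor X hirr e B hB fun a _ => by rw [mem_tor, ← he, pow_card_eq_one']
    exact ⟨j, fun a => mem_tor⟩
  have h23 : (∀ B : Subgroup A, IsInv X B → ∃ i : ℕ, ∀ a : A, a ∈ B ↔ a ^ p ^ i = 1) →
      ∀ B : Subgroup A, IsInv X B → B ≤ tor p → B = ⊥ ∨ tor p ≤ B := by
    intro h B hB _
    obtain ⟨i, hi⟩ := h B hB
    rcases Nat.eq_zero_or_pos i with rfl | hpos
    · exact Or.inl (eq_bot_iff.mpr fun a ha => by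
        have := (hi a).mp ha; rw [pow_zero, pow_one] at this; exact mem_bot.mpr this)
    · refine Or.inr fun a ha => (hi a).mpr ?_
      obtain ⟨i, rfl⟩ : ∃ i', i = i' + 1 := ⟨i - 1, by omega⟩
      rw [pow_succ', pow_mul, mem_tor.mp ha, one_pow]
  constructor
  · refine ⟨fun h B hB => h32 (fun B' hB' hB'p => ?_) B hB, fun h => ?_⟩
    · by_contra hn
      push Not at hn
      obtain ⟨C, D, hC, hD, hCi, hDi, h1, h2⟩ := decomposable hA X hX hB' hB'p hn.1 hn.2
      exact h ⟨C, D, hC, hD, hCi, hDi, h1, h2⟩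
    · rintro ⟨B, C, hB1, hC1, hB, hC, hinf, -⟩
      have hirr := h23 h
      have key : ∀ D : Subgroup A, IsInv X D → D ≠ ⊥ → tor p ≤ D := by
        intro D hD hD1
        obtain ⟨i, hi⟩ := h D hD
        rcases Nat.eq_zero_or_pos i with rfl | hpos
        · exfalso
          exact hD1 (eq_bot_iff.mpr fun a ha => by
            have := (hi a).mp ha; rw [pow_zero, pow_one] at this; exact mem_bot.mpr this)
        · intro a ha
          obtain ⟨i, rfl⟩ : ∃ i', i = i' + 1 := ⟨i - 1, by omega⟩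
          exact (hi a).mpr (by rw [pow_succ', pow_mul, mem_tor.mp ha, one_pow])
      have hle : tor p ≤ B ⊓ C := le_inf (key B hB hB1) (key C hC hC1)
      obtain ⟨b, hb, hb1⟩ := (bot_or_exists_ne_one B).resolve_left hB1
      have : Nontrivial A := ⟨⟨b, 1, hb1⟩⟩
      obtain ⟨a, ha⟩ := exists_prime_orderOf_dvd_card' p ((hA.to_subgroup ⊤).card_eq_or_dvd.resolve_left (by
        rw [card_top]; exact (Finite.one_lt_card).ne') |>.trans (card_top.dvd))
      have h3 : a ∈ B ⊓ C := hle (by rw [mem_tor, ← ha, pow_orderOf_eq_one])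
      rw [hinf, mem_bot] at h3
      rw [h3, orderOf_one] at ha
      exact (Fact.out : p.Prime).one_lt.ne ha
  · refine ⟨fun h B hB hBp => (h23 h B hB fun b hb => mem_tor.mpr (hBp b hb)).imp_right fun hle a =>
      ⟨fun ha => hBp a ha, fun ha => hle (mem_tor.mpr ha)⟩, fun h B hB => h32 (fun B' hB' hB'p => ?_) B hB⟩
    exact (h B' hB' fun b hb => mem_tor.mp (hB'p hb)).imp_right fun hiff a ha => (hiff a).mpr (mem_tor.mp ha)

end

/-- Let A be a finite abelian p-group and X a group of automorphisms of A of order prime to p. Call a subgroup of A invariant when every element of X maps it onto itself. Then the following are equivalent: (i) A is not the direct product of two nontrivial invariant subgroups; (ii) every invariant subgroup of A is one of the subgroups Ω_i(A) = {a : a^(p^i) = 1}; (iii) the subgroup Ω₁(A) of elements of order dividing p has no invariant subgroups other than 1 and itself. -/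
theorem result {A : Type*} [CommGroup A] [Finite A] {p : ℕ} [Fact p.Prime] (hA : IsPGroup p A) (X : Subgroup (MulAut A)) (hX : (Nat.card X).Coprime p) : ((¬ ∃ B C : Subgroup A, B ≠ ⊥ ∧ C ≠ ⊥ ∧ (∀ x ∈ X, B.map x.toMonoidHom = B) ∧ (∀ x ∈ X, C.map x.toMonoidHom = C) ∧ B ⊓ C = ⊥ ∧ B ⊔ C = ⊤) ↔ (∀ B : Subgroup A, (∀ x ∈ X, B.map x.toMonoidHom = B) → ∃ i : ℕ, ∀ a : A, a ∈ B ↔ a ^ p ^ i = 1)) ∧ ((∀ B : Subgroup A, (∀ x ∈ X, B.map x.toMonoidHom = B) → ∃ i : ℕ, ∀ a : A, a ∈ B ↔ a ^ p ^ i = 1) ↔ (∀ B : Subgroup A, (∀ x ∈ X, B.map x.toMonoidHom = B) → (∀ b ∈ B, b ^ p = 1) → B = ⊥ ∨ ∀ a : A, a ∈ B ↔ a ^ p = 1)) := by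
  exact main hA X hX

end Cfsg.Agent.S3775
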