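import Cfsg.Statements.S3778


set_option autoImplicit false
open Cfsg

namespace Cfsg.Agent.S3778

open Subgroup
open scoped commutatorElement

section

variable {G : Type*} [Group G] [Finite G] {p : ℕ} [Fact p.Prime]

/-- elements acting trivially on the `i`-th factor, raised by one step -/
def twoStep (i : ℕ) : Subgroup G :=
  (centralizer (((⊤ : Subgroup G).lowerCentralSeries i).map
    (QuotientGroup.mk' ((⊤ : Subgroup G).lowerCentralSeries (i + 2))) :
      Set (G ⧸ (⊤ : Subgroup G).lowerCentralSeries (i + 2)))).comap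
    (QuotientGroup.mk' ((⊤ : Subgroup G).lowerCentralSeries (i + 2)))

theorem lcs_eq_bot_of_stable [Group.IsNilpotent G] {j : ℕ}
    (h : (⊤ : Subgroup G).lowerCentralSeries j = (⊤ : Subgroup G).lowerCentralSeries (j + 1)) :
    (⊤ : Subgroup G).lowerCentralSeries j = ⊥ := by
  have key : ∀ k, (⊤ : Subgroup G).lowerCentralSeries (j + k) = (⊤ : Subgroup G).lowerCentralSeries j := by
    intro k
    induction k with
    | zero => rfl
    | succ k ih => rw [← add_assoc, Subgroup.lowerCentralSeries_succ, ih, ← Subgroup.lowerCentralSeries_succ, ← h]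
  rw [eq_bot_iff, ← key (Group.nilpotencyClass G)]
  exact ((⊤ : Subgroup G).lowerCentralSeries_antitone (Nat.le_add_left _ _)).trans
    Subgroup.lowerCentralSeries_nilpotencyClass.le

theorem commutator_lcs_mem (i : ℕ) {l : G} (hl : l ∈ (⊤ : Subgroup G).lowerCentralSeries i) (x : G) :
    ⁅l, x⁆ ∈ (⊤ : Subgroup G).lowerCentralSeries (i + 1) := by
  rw [Subgroup.lowerCentralSeries_succ]
  exact commutator_mem_commutator hl (mem_top x)

theorem twoStep_ne_top [Group.IsNilpotent G] {i : ℕ}
    (hi : (⊤ : Subgroup G).lowerCentralSeries (i + 1) ≠ ⊥) : twoStep (G := G) i ≠ ⊤ := by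
  intro h
  refine hi (lcs_eq_bot_of_stable (le_antisymm ?_ ((⊤ : Subgroup G).lowerCentralSeries_antitone (Nat.le_succ _))))
  rw [Subgroup.lowerCentralSeries_succ, commutator_le]
  intro y hy x _
  have hx : x ∈ twoStep (G := G) i := by rw [h]; exact mem_top x
  rw [twoStep, mem_comap, mem_centralizer_iff] at hx
  have hc := hx _ (mem_map_of_mem _ hy)
  rw [← QuotientGroup.ker_mk' ((⊤ : Subgroup G).lowerCentralSeries (i + 1 + 1)), MonoidHom.mem_ker,
    map_commutatorElement, commutatorElement_eq_one_iff_mul_comm]
  exact hc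

theorem isPow_relIndex (hG : IsPGroup p G) (C K : Subgroup G) : ∃ n, C.relIndex K = p ^ n :=
  (hG.to_subgroup K).index _

theorem relIndex_step (hG : IsPGroup p G) {C K L : Subgroup G} [L.Normal] (hLK : L ≤ K) :
    (C.relIndex L ≤ C.relIndex K) ∧ (¬ K ≤ L ⊔ (C ⊓ K) → p * C.relIndex L ≤ C.relIndex K) := by
  haveI : Finite ↥K := inferInstance
  have hne : C.relIndex K ≠ 0 := Subgroup.index_ne_zero_of_finite
  have h1 : C.relIndex L ≤ C.relIndex K := Subgroup.relIndex_le_of_le_right hLK hne
  refine ⟨h1, fun hK => ?_⟩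
  obtain ⟨a, ha⟩ := isPow_relIndex hG C L
  obtain ⟨b, hb⟩ := isPow_relIndex hG C K
  have hab : a ≤ b := (Nat.pow_le_pow_iff_right (Fact.out : p.Prime).one_lt).mp (ha ▸ hb ▸ h1)
  rcases hab.eq_or_lt with hab | hab
  · refine absurd ?_ hK
    have heq : C.relIndex K = C.relIndex L := by rw [ha, hb, hab]
    have e1 : (C ⊓ L).relIndex L * L.relIndex K = (C ⊓ L).relIndex (C ⊓ K) * (C ⊓ K).relIndex K := by
      rw [relIndex_mul_relIndex _ _ _ inf_le_right hLK,
        relIndex_mul_relIndex _ _ _ (inf_le_inf_left C hLK) inf_le_right]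
    rw [inf_relIndex_right, inf_relIndex_right, heq] at e1
    have e2 : (C ⊓ L).relIndex (C ⊓ K) = L.relIndex (C ⊓ K) := by
      rw [← inf_relIndex_right L (C ⊓ K)]
      congr 1
      rw [← inf_assoc, inf_comm L C, inf_assoc, inf_eq_left.mpr hLK]
    rw [e2, mul_comm (L.relIndex (C ⊓ K))] at e1
    have hne' : C.relIndex L ≠ 0 := Subgroup.index_ne_zero_of_finite
    have e3 : L.relIndex K = L.relIndex (C ⊓ K) := Nat.eq_of_mul_eq_mul_left (Nat.pos_of_ne_zero hne') e1
    rw [← relIndex_eq_one]
    have e4 : L.relIndex (L ⊔ (C ⊓ K)) * (L ⊔ (C ⊓ K)).relIndex K = L.relIndex K :=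
      relIndex_mul_relIndex _ _ _ le_sup_left (sup_le hLK inf_le_right)
    rw [relIndex_sup_left, ← e3] at e4
    have hne'' : L.relIndex K ≠ 0 := Subgroup.index_ne_zero_of_finite
    exact mul_eq_left₀ hne'' |>.mp e4
  · rw [ha, hb, ← pow_succ']
    exact Nat.pow_le_pow_right (Fact.out : p.Prime).pos hab

open Classical in
theorem count_le (hG : IsPGroup p G) (b : ℕ)
    (hb : ∀ x : G, (centralizer ({x} : Set G)).index ≤ p ^ b) (x : G) (n : ℕ) :
    ((Finset.range n).filter fun i => x ∉ twoStep (G := G) i).card ≤ b := by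
  set S := fun i => (⊤ : Subgroup G).lowerCentralSeries i with hS
  set C := centralizer ({x} : Set G) with hC
  have key : ∀ k, p ^ (((Finset.range k).filter fun i => x ∉ twoStep (G := G) i).card) * C.relIndex (S k) ≤
      C.relIndex (S 0) := by
    intro k
    induction k with
    | zero => simp
    | succ k ih =>
      have hLK : S (k + 1) ≤ S k := (⊤ : Subgroup G).lowerCentralSeries_antitone (Nat.le_succ k)
      haveI : (S (k + 1)).Normal := inferInstanceAs ((⊤ : Subgroup G).lowerCentralSeries (k + 1)).Normal
      have hstep := relIndex_step (p := p) hG (C := C) hLK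
      by_cases hx : x ∈ twoStep (G := G) k
      · rw [Finset.range_add_one, Finset.filter_insert, if_neg (not_not.mpr hx)]
        exact (Nat.mul_le_mul_left _ hstep.1).trans ih
      · rw [Finset.range_add_one, Finset.filter_insert, if_pos hx,
          Finset.card_insert_of_notMem (by simp), pow_succ, mul_assoc]
        refine (Nat.mul_le_mul_left _ (hstep.2 fun hle => hx ?_)).trans ih
        rw [twoStep, mem_comap, ← zpowers_le, le_centralizer_iff, map_le_iff_le_comap]
        refine hle.trans (sup_le ?_ ?_)
        · intro l hl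
          rw [mem_comap, mem_centralizer_iff]
          rintro _ ⟨j, rfl⟩
          have h2 := commutator_lcs_mem (G := G) (k + 1) hl x
          rw [← QuotientGroup.ker_mk' ((⊤ : Subgroup G).lowerCentralSeries (k + 1 + 1)), MonoidHom.mem_ker,
            map_commutatorElement, commutatorElement_eq_one_iff_mul_comm] at h2
          exact ((show Commute _ _ from h2.symm).zpow_left j).eq
        · intro l hl
          rw [mem_comap, mem_centralizer_iff]
          rintro _ ⟨j, rfl⟩
          have h2 : Commute x l := (mem_centralizer_singleton_iff.mp hl.1).symm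
          exact ((h2.map (QuotientGroup.mk' _)).zpow_left j).eq
  have h0 : C.relIndex (S 0) = C.index := by
    show C.relIndex ((⊤ : Subgroup G).lowerCentralSeries 0) = _
    rw [Subgroup.lowerCentralSeries_zero, relIndex_top_right]
  have h1 : 1 ≤ C.relIndex (S n) := Nat.one_le_iff_ne_zero.mpr Subgroup.index_ne_zero_of_finite
  have h2 := ((Nat.le_mul_of_pos_right _ h1).trans (key n)).trans (h0.le.trans (hb x))
  exact (Nat.pow_le_pow_iff_right (Fact.out : p.Prime).one_lt).mp h2

open Classical in
theorem main (hG : IsPGroup p G) (b : ℕ) (hb : ∀ x : G, (centralizer ({x} : Set G)).index ≤ p ^ b) :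
    ∃ c : ℕ, (⊤ : Subgroup G).lowerCentralSeries c = ⊥ ∧ (b ≠ 0 → (c - 1) * (p - 1) < b * p ∧ c ≤ 2 * b) ∧
      (b = 0 → c ≤ 1) := by
  haveI : Group.IsNilpotent G := hG.isNilpotent
  letI := Fintype.ofFinite G
  have hp := (Fact.out : p.Prime).two_le
  set c := Group.nilpotencyClass G with hc
  refine ⟨c, Subgroup.lowerCentralSeries_nilpotencyClass, ?_, ?_⟩
  · intro hb0
    set n := c - 1
    have hne : ∀ i ∈ Finset.range n, (⊤ : Subgroup G).lowerCentralSeries (i + 1) ≠ ⊥ := fun i hi h => by
      have := Subgroup.lowerCentralSeries_eq_bot_iff_nilpotencyClass_le.mp h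
      rw [Finset.mem_range] at hi; omega
    have hmain : n * (p - 1) < b * p := by
      set F : G → ℕ := fun x => ((Finset.range n).filter fun i => x ∉ twoStep (G := G) i).card with hF
      have h1 : ∀ x, F x ≤ b := fun x => count_le hG b hb x n
      have h2 : F 1 = 0 := by simp [hF, one_mem]
      have h3 : ∑ x, F x < b * Fintype.card G := by
        calc ∑ x, F x < ∑ _x : G, b := Finset.sum_lt_sum (fun x _ => h1 x)
              ⟨1, Finset.mem_univ _, by rw [h2]; omega⟩
          _ = b * Fintype.card G := by simp [mul_comm]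
      have h4 : ∀ i ∈ Finset.range n,
          (p - 1) * Fintype.card G ≤ p * (Finset.univ.filter fun x => x ∉ twoStep (G := G) i).card := by
        intro i hi
        have hsum := Finset.card_filter_add_card_filter_not (s := (Finset.univ : Finset G))
          (fun x => x ∈ twoStep (G := G) i)
        have hmem : (Finset.univ.filter fun x => x ∈ twoStep (G := G) i).card = Nat.card ↥(twoStep (G := G) i) := by
          rw [Nat.card_eq_fintype_card, Fintype.card_subtype]
        obtain ⟨k, hk⟩ := hG.index (twoStep (G := G) i)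
        have hk0 : k ≠ 0 := by
          rintro rfl
          exact twoStep_ne_top (hne i hi) (index_eq_one.mp (by simpa using hk))
        have hdvd : p * Nat.card ↥(twoStep (G := G) i) ≤ Fintype.card G := by
          rw [← Nat.card_eq_fintype_card, ← (twoStep (G := G) i).card_mul_index, hk, mul_comm]
          exact Nat.mul_le_mul_left _ (Nat.le_self_pow hk0 p)
        rw [Finset.card_univ] at hsum
        obtain ⟨q, rfl⟩ : ∃ q, p = q + 1 := ⟨p - 1, by omega⟩
        rw [hmem] at hsum
        simp only [Nat.add_sub_cancel]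
        nlinarith
      have h5 : n * ((p - 1) * Fintype.card G) ≤ p * ∑ x, F x := by
        have hswap : ∑ x, F x = ∑ i ∈ Finset.range n, (Finset.univ.filter fun x => x ∉ twoStep (G := G) i).card := by
          simp only [hF, Finset.card_filter]
          exact Finset.sum_comm
        rw [hswap, Finset.mul_sum]
        calc n * ((p - 1) * Fintype.card G) = ∑ _i ∈ Finset.range n, (p - 1) * Fintype.card G := by simp
          _ ≤ _ := Finset.sum_le_sum h4
      have h6 : n * (p - 1) * Fintype.card G < b * p * Fintype.card G := by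
        calc n * (p - 1) * Fintype.card G ≤ p * ∑ x, F x := by rw [mul_assoc]; exact h5
          _ < p * (b * Fintype.card G) := Nat.mul_lt_mul_of_pos_left h3 (by omega)
          _ = b * p * Fintype.card G := by ring
      exact Nat.lt_of_mul_lt_mul_right h6
    refine ⟨hmain, ?_⟩
    by_contra hcon
    push Not at hcon
    obtain ⟨q, rfl⟩ : ∃ q, p = q + 2 := ⟨p - 2, by omega⟩
    have hn : 2 * b ≤ n := by omega
    have : 2 * b * (q + 1) ≤ n * (q + 2 - 1) := Nat.mul_le_mul hn (by omega)
    nlinarith
  · rintro rfl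
    refine Subgroup.lowerCentralSeries_eq_bot_iff_nilpotencyClass_le.mp ?_
    rw [Subgroup.lowerCentralSeries_succ, Subgroup.lowerCentralSeries_zero, eq_bot_iff, commutator_le]
    intro y _ x _
    rw [mem_bot, commutatorElement_eq_one_iff_mul_comm]
    have h := hb x
    rw [pow_zero] at h
    have : y ∈ centralizer ({x} : Set G) := by
      rw [index_eq_one.mp (le_antisymm h (Nat.one_le_iff_ne_zero.mpr Subgroup.index_ne_zero_of_finite))]
      exact mem_top y
    exact mem_centralizer_singleton_iff.mp this

end

/-- If G is a finite p-group in which every conjugacy class has at most p^b elements (every element has centralizer of index at most p^b), then G is abelian when b = 0, and when b ≥ 1 its nilpotency class c satisfies (c − 1)(p − 1) < bp, that is c < bp/(p − 1) + 1, and hence c ≤ 2b. -/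
theorem result {G : Type*} [Group G] [Finite G] {p : ℕ} [Fact p.Prime] (hG : IsPGroup p G) (b : ℕ) (hb : ∀ x : G, (Subgroup.centralizer ({x} : Set G)).index ≤ p ^ b) : ∃ c : ℕ, (⊤ : Subgroup G).lowerCentralSeries c = ⊥ ∧ (b ≠ 0 → (c - 1) * (p - 1) < b * p ∧ c ≤ 2 * b) ∧ (b = 0 → c ≤ 1) := by
  exact main hG b hb

end Cfsg.Agent.S3778
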