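import Cfsg.Statements.S3781

set_option autoImplicit false
open Cfsg

namespace Cfsg.Agent.S3781

lemma commutator_lcs_ucs : ∀ (k : ℕ) {G : Type*} [Group G],
    ⁅(⊤ : Subgroup G).lowerCentralSeries k, Subgroup.upperCentralSeries G (k + 1)⁆ = ⊥ := by
  intro k
  induction k with
  | zero =>
    intro G _
    rw [Subgroup.lowerCentralSeries_zero, Subgroup.upperCentralSeries_one, Subgroup.commutator_comm,
      Subgroup.commutator_eq_bot_iff_le_centralizer]
    exact Subgroup.center_le_centralizer _
  | succ k ih =>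
    intro G _
    rw [Subgroup.lowerCentralSeries_succ]
    apply Subgroup.commutator_commutator_eq_bot_of_rotate
    · rw [eq_bot_iff, ← ih (G := G), Subgroup.commutator_comm ((⊤ : Subgroup G).lowerCentralSeries k) (Subgroup.upperCentralSeries G (k+1))]
      refine Subgroup.commutator_mono ?_ le_rfl
      rw [Subgroup.commutator_comm]
      exact Subgroup.commutator_upperCentralSeries_top_le G (k + 1)
    · rw [Subgroup.commutator_eq_bot_iff_le_centralizer]
      refine le_trans ?_ (Subgroup.center_le_centralizer _)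
      have h : (⁅Subgroup.upperCentralSeries G (k + 1 + 1), (⊤ : Subgroup G).lowerCentralSeries k⁆).map
          (QuotientGroup.mk' (Subgroup.center G)) = ⊥ := by
        rw [Subgroup.map_commutator, Subgroup.commutator_comm, Subgroup.map_lowerCentralSeries, Subgroup.map_top_of_surjective _
          (QuotientGroup.mk'_surjective _), eq_bot_iff, ← ih (G := G ⧸ Subgroup.center G)]
        refine Subgroup.commutator_mono le_rfl ?_
        rw [Subgroup.map_le_iff_le_comap, Subgroup.comap_upperCentralSeries_quotient_center]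
      rwa [Subgroup.map_eq_bot_iff, QuotientGroup.ker_mk'] at h

lemma le_ucs_of_card_dvd {p : ℕ} [Fact p.Prime] : ∀ (k : ℕ) {G : Type*} [Group G] [Finite G],
    IsPGroup p G → ∀ (M : Subgroup G), M.Normal → Nat.card M ∣ p ^ k → M ≤ Subgroup.upperCentralSeries G k := by
  intro k
  induction k with
  | zero =>
    intro G _ _ _ M _ hM
    rw [pow_zero, Nat.dvd_one, Subgroup.card_eq_one] at hM
    simp [hM]
  | succ k ih =>
    intro G _ _ hG M hMn hM
    by_cases hM1 : M = ⊥
    · simp [hM1]
    rw [← Subgroup.comap_upperCentralSeries_quotient_center, ← Subgroup.map_le_iff_le_comap]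
    refine ih (hG.to_quotient _) _ (hMn.map _ (QuotientGroup.mk'_surjective _)) ?_
    obtain ⟨j, hj, hcard⟩ := (Nat.dvd_prime_pow Fact.out).mp hM
    have h1 : M ⊓ Subgroup.center G ≠ ⊥ := by
      have := (Subgroup.nontrivial_iff_ne_bot M).mpr hM1
      obtain ⟨n, hn, hn'⟩ := (hG.to_subgroup M).nontrivial_iff_card.mp this
      intro hbot
      let φ : ConjAct G →* MulAut M := MulDistribMulAction.toMulAut (ConjAct G) M
      have hα : p ∣ Nat.card M := hn' ▸ dvd_pow_self p (by omega)
      have hc : IsPGroup p (ConjAct G) := hG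
      have h1 : (1 : M) ∈ MulAction.fixedPoints (ConjAct G) M := fun g => smul_one g
      obtain ⟨b, hb, hb1⟩ := hc.exists_fixed_point_of_prime_dvd_card_of_fixed_point M hα h1
      apply hb1
      have : (b : G) ∈ M ⊓ Subgroup.center G := ⟨b.2, show (b : G) ∈ Subgroup.center G by
        rw [Subgroup.mem_center_iff]
        intro g
        have := congrArg Subtype.val (hb (ConjAct.toConjAct g))
        rw [ConjAct.Subgroup.val_conj_smul, ConjAct.smul_def, ConjAct.ofConjAct_toConjAct, mul_inv_eq_iff_eq_mul] at this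
        exact this⟩
      rw [hbot, Subgroup.mem_bot] at this
      exact (Subtype.ext this).symm
    have hmul : Nat.card (M.map (QuotientGroup.mk' (Subgroup.center G))) * Nat.card ↥(M ⊓ Subgroup.center G) = Nat.card M := by
      have hkey := Subgroup.relIndex_mul_relIndex ⊥ (M ⊓ Subgroup.center G) M bot_le inf_le_left
      rw [Subgroup.relIndex_bot_left, Subgroup.relIndex_bot_left, Subgroup.inf_relIndex_left] at hkey
      rw [← hkey, mul_comm]
      congr 1
      rw [← Subgroup.relIndex_bot_left, ← Subgroup.map_bot (QuotientGroup.mk' (Subgroup.center G)),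
        Subgroup.relIndex_map_map, bot_sup_eq, QuotientGroup.ker_mk', Subgroup.relIndex_sup_right]
    have h2 : p ∣ Nat.card ↥(M ⊓ Subgroup.center G) :=
      (hG.to_subgroup _).card_eq_or_dvd.resolve_left (fun h => h1 (Subgroup.card_eq_one.mp h))
    have h3 : Nat.card (M.map (QuotientGroup.mk' (Subgroup.center G))) * p ∣ p ^ k * p := by
      rw [← pow_succ]
      exact (mul_dvd_mul_left _ h2).trans (hmul ▸ hM)
    exact Nat.dvd_of_mul_dvd_mul_right (Fact.out : p.Prime).pos h3

/-- Let G be a finite p-group and n ≥ 1, and write γ_1(G) = G, γ_{k+1}(G) = [γ_k(G), G], and likewise γ_k(N) for a subgroup N. Let N be a normal subgroup of G contained in γ_n(G). If i > 1 and γ_{i+1}(N) ≠ 1, then |γ_i(N) : γ_{i+1}(N)| ≥ p^n. -/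
theorem result {G : Type*} [Group G] [Finite G] {p : ℕ} [Fact p.Prime] (hG : IsPGroup p G) (n : ℕ) (hn : 1 ≤ n) (N : Subgroup G) [N.Normal] (hN : N ≤ (⊤ : Subgroup G).lowerCentralSeries (n - 1)) (i : ℕ) (hi : 1 < i) (hne : N.lowerCentralSeries i ≠ ⊥) : p ^ n ≤ (N.lowerCentralSeries i).relIndex (N.lowerCentralSeries (i - 1)) := by
  obtain ⟨i, rfl⟩ : ∃ j, i = j + 1 := ⟨i - 1, by omega⟩
  simp only [Nat.add_sub_cancel]
  by_contra hlt
  rw [not_le] at hlt
  set γa := N.lowerCentralSeries i
  set γb := N.lowerCentralSeries (i + 1) with hγb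
  haveI := hG.isNilpotent
  set M : Subgroup G := ⁅γb, ⊤⁆ with hM
  apply hne
  -- it suffices that `γb` is central modulo `[γb, G]` forces `γb ≤ M`
  suffices hle : γb ≤ M by
    have : ∀ j, γb ≤ (⊤ : Subgroup G).lowerCentralSeries j := by
      intro j
      induction j with
      | zero => simp
      | succ j ih => exact hle.trans (Subgroup.commutator_mono ih le_rfl)
    obtain ⟨c, hc⟩ := Subgroup.nilpotent_iff_lowerCentralSeries.mp (inferInstance : Group.IsNilpotent G)
    exact le_bot_iff.mp (hc ▸ this c)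
  let φ := QuotientGroup.mk' M
  have hφ : Function.Surjective φ := QuotientGroup.mk'_surjective M
  have hker : φ.ker = M := QuotientGroup.ker_mk' M
  suffices hs : γb.map φ ≤ ⊥ by
    rw [le_bot_iff, Subgroup.map_eq_bot_iff, hker] at hs; exact hs
  show (⁅γa, N⁆).map φ ≤ ⊥
  rw [Subgroup.map_commutator]
  have hB : γb.map φ ≤ Subgroup.center (G ⧸ M) := by
    rw [← Subgroup.centralizer_univ, ← Subgroup.coe_top, ← Subgroup.commutator_eq_bot_iff_le_centralizer,
      ← Subgroup.map_top_of_surjective φ hφ, ← Subgroup.map_commutator, Subgroup.map_eq_bot_iff, hker]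
  haveI : γa.Normal := Subgroup.lowerCentralSeries_normal N i
  haveI hAn : (γa.map φ).Normal := Subgroup.Normal.map inferInstance φ hφ
  haveI : (Subgroup.center (G ⧸ M)).Normal := inferInstance
  have hpG : IsPGroup p (G ⧸ M) := hG.to_quotient M
  obtain ⟨a, ha⟩ := IsPGroup.index (hG.to_subgroup γa) (γb.subgroupOf γa)
  have han : a + 1 ≤ n := by
    have : p ^ a < p ^ n := by rw [← ha]; exact hlt
    exact (Nat.pow_lt_pow_iff_right (Fact.out : p.Prime).one_lt).mp this
  have hA : γa.map φ ≤ Subgroup.upperCentralSeries (G ⧸ M) (a + 1) := by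
    rw [← Subgroup.comap_upperCentralSeries_quotient_center, ← Subgroup.map_le_iff_le_comap]
    refine le_ucs_of_card_dvd a (hpG.to_quotient _) _ (hAn.map _ (QuotientGroup.mk'_surjective _)) ?_
    rw [← ha, ← Subgroup.relIndex_bot_left, ← Subgroup.map_bot (QuotientGroup.mk' (Subgroup.center (G ⧸ M))),
      Subgroup.relIndex_map_map, QuotientGroup.ker_mk', bot_sup_eq, Subgroup.relIndex_sup_right]
    refine (Subgroup.relIndex_dvd_of_le_left _ hB).trans ?_
    have hMb : M ≤ γb := Subgroup.commutator_le_left γb ⊤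
    rw [Subgroup.relIndex_map_map, hker, sup_eq_left.mpr hMb,
      sup_eq_left.mpr (hMb.trans (N.lowerCentralSeries_antitone i.le_succ))]
    exact dvd_rfl
  have hN' : N.map φ ≤ (⊤ : Subgroup (G ⧸ M)).lowerCentralSeries (n - 1) := by
    rw [← Subgroup.map_top_of_surjective φ hφ, ← Subgroup.map_lowerCentralSeries]
    exact Subgroup.map_mono hN
  refine le_trans (Subgroup.commutator_mono (hA.trans (Subgroup.upperCentralSeries_mono _ (show a + 1 ≤ n - 1 + 1 by omega))) hN') ?_
  rw [Subgroup.commutator_comm, commutator_lcs_ucs]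

end Cfsg.Agent.S3781
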