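import Cfsg.Statements.S3784
import Mathlib

set_option autoImplicit false
open Cfsg

namespace Cfsg.Agent.S3784

lemma odd_factor (x : ℤ) : ∀ b : ℕ, Odd b → ∃ u : ℤ, x ^ b + 1 = (x + 1) * u ∧ (Odd x → Odd u) := by
  intro b hb
  refine ⟨∑ i ∈ Finset.range b, (-x) ^ i, ?_, fun hx => ?_⟩
  · have := geom_sum_mul (-x) b
    rw [hb.neg_pow] at this
    linear_combination this
  · have key : ∀ k, Odd (∑ i ∈ Finset.range k, (-x) ^ i) ↔ Odd k := by
      intro k
      induction k with
      | zero => simp
      | succ k ih =>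
        rw [Finset.sum_range_succ]
        rw [Int.odd_add, ih, ← Int.not_odd_iff_even, Nat.odd_iff, Nat.odd_iff]
        simp [hx.neg.pow]
        omega
    exact (key b).mpr hb

/-- Let p, q be primes and a, b positive integers with p^a = q^b + 1. Then either p = 2, b = 1, a is prime and q = 2^a − 1; or q = 2, a = 1, b is a power of 2 and p = 2^b + 1; or p^a = 9 and q^b = 8. -/
theorem result (p q a b : ℕ) (hp : p.Prime) (hq : q.Prime) (ha : 1 ≤ a) (hb : 1 ≤ b) (h : p ^ a = q ^ b + 1) : (p = 2 ∧ b = 1 ∧ a.Prime ∧ q + 1 = 2 ^ a) ∨ (q = 2 ∧ a = 1 ∧ (∃ m : ℕ, b = 2 ^ m) ∧ p = 2 ^ b + 1) ∨ (p ^ a = 9 ∧ q ^ b = 8) := by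
  rcases hp.eq_two_or_odd' with rfl | hpo
  · -- `2^a = q^b + 1`
    left
    have hqo : Odd q := by
      have h1 : Even (q ^ b + 1) := h ▸ (even_two.pow_of_ne_zero (by omega))
      rw [Nat.even_add_one, Nat.not_even_iff_odd, Nat.odd_pow_iff (by omega)] at h1
      exact h1
    have hbo : Odd b := by
      by_contra hbe
      rw [Nat.not_odd_iff_even] at hbe
      obtain ⟨c, rfl⟩ := hbe
      have hmod : q ^ (c + c) % 4 = 1 := by
        obtain ⟨e, he⟩ := (hqo.pow (n := c))
        rw [pow_add, he, show (2 * e + 1) * (2 * e + 1) = 4 * (e * e + e) + 1 by ring]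
        omega
      rcases (show a = 1 ∨ 2 ≤ a by omega) with rfl | ha2
      · have := Nat.one_lt_pow (show c + c ≠ 0 by omega) hq.one_lt
        omega
      · obtain ⟨a', rfl⟩ := Nat.exists_eq_add_of_le ha2
        rw [pow_add] at h
        omega
    obtain ⟨u, hu, huo⟩ := odd_factor (q : ℤ) b hbo
    have hu1 : u = 1 := by
      have h2 : ((q : ℤ) + 1) * u = 2 ^ a := by rw [← hu]; exact_mod_cast h.symm
      have hupos : 0 < u := by
        by_contra hcon
        nlinarith [pow_pos (show (0:ℤ) < 2 by norm_num) a]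
      have hdvd : u.natAbs ∣ 2 ^ a := ⟨q + 1, by
        have := congrArg Int.natAbs h2
        rw [Int.natAbs_mul, Int.natAbs_pow, show ((q : ℤ) + 1).natAbs = q + 1 from Int.natAbs_natCast (q + 1)] at this
        exact (this.symm.trans (mul_comm _ _))⟩
      obtain ⟨i, -, hi⟩ := (Nat.dvd_prime_pow Nat.prime_two).mp hdvd
      have hodd := Int.natAbs_odd.mpr (huo (by exact_mod_cast hqo))
      rw [hi] at hodd
      rcases Nat.eq_zero_or_pos i with rfl | hi0
      · rw [pow_zero] at hi; omega
      · exact absurd (even_two.pow_of_ne_zero hi0.ne') (Nat.not_even_iff_odd.mpr hodd)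
    rw [hu1, mul_one] at hu
    have hb1 : b = 1 := by
      have : q ^ b = q := by exact_mod_cast (add_right_cancel hu : (q : ℤ) ^ b = q)
      exact Nat.pow_right_injective hq.two_le (this.trans (pow_one q).symm)
    subst hb1
    rw [pow_one] at h
    refine ⟨rfl, rfl, ?_, h.symm⟩
    have : Nat.Prime (2 ^ a - 1) := by rw [h, Nat.add_sub_cancel]; exact hq
    exact Nat.Prime.of_mersenne this
  · right
    have hq2 : q = 2 := by
      rcases hq.eq_two_or_odd' with h2 | h2
      · exact h2
      · have h3 : Even (q ^ b + 1) := h2.pow.add_one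
        rw [← h] at h3
        exact absurd hpo.pow (Nat.not_odd_iff_even.mpr h3)
    subst hq2
    rcases Nat.even_or_odd a with ⟨c, rfl⟩ | hao
    · right
      have hx : 1 ≤ p ^ c := Nat.one_le_pow _ _ hp.pos
      obtain ⟨y, hy⟩ := Nat.exists_eq_add_of_le hx
      rw [pow_add, hy] at h
      have hmul : y * (y + 2) = 2 ^ b := by nlinarith
      obtain ⟨i, -, hi⟩ := (Nat.dvd_prime_pow Nat.prime_two).mp ⟨y + 2, hmul.symm⟩
      obtain ⟨k, -, hk⟩ := (Nat.dvd_prime_pow Nat.prime_two).mp ⟨y, hmul.symm.trans (mul_comm _ _)⟩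
      have hy0 : 0 < y := by
        rcases Nat.eq_zero_or_pos y with rfl | h0
        · rw [zero_mul] at hmul; exact absurd hmul.symm (by positivity)
        · exact h0
      have hy2 : y = 2 := by
        rcases (show i = 0 ∨ i = 1 ∨ 2 ≤ i by omega) with rfl | rfl | hi2
        · rw [pow_zero] at hi
          subst hi
          rcases Nat.eq_zero_or_pos k with rfl | hk0
          · simp at hk
          · obtain ⟨e, he⟩ := dvd_pow_self 2 hk0.ne'
            omega
        · simpa using hi
        · exfalso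
          obtain ⟨e, he⟩ := pow_dvd_pow 2 hi2
          rw [← hi] at he
          rcases (show k ≤ 1 ∨ 2 ≤ k by omega) with hk1 | hk2
          · have := Nat.pow_le_pow_right (show 1 ≤ 2 by norm_num) hk1
            omega
          · obtain ⟨e', he'⟩ := pow_dvd_pow 2 hk2
            rw [← hk] at he'
            omega
      subst hy2
      have h9 : p ^ (c + c) = 9 := by rw [pow_add, hy]; all_goals rfl
      refine ⟨h9, ?_⟩
      omega
    · left
      have ha1 : a = 1 := by
        by_contra hne
        obtain ⟨u, hu⟩ : ∃ u, u = ∑ i ∈ Finset.range a, p ^ i := ⟨_, rfl⟩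
        have huo : Odd u := by
          rw [hu, Finset.odd_sum_iff_odd_card_odd, Finset.filter_true_of_mem fun i _ => hpo.pow, Finset.card_range]
          exact hao
        have hu2 : 1 < u := by
          rw [hu]
          calc 1 < ∑ i ∈ Finset.range 2, p ^ i := by simp [Finset.sum_range_succ]; exact hp.pos
            _ ≤ _ := Finset.sum_le_sum_of_subset (by intro i hi; simp at hi ⊢; omega)
        have hmul : u * (p - 1) = 2 ^ b := by
          have := geom_sum_mul_of_one_le hp.one_le a
          rw [← hu, h, Nat.add_sub_cancel] at this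
          exact this
        obtain ⟨i, -, hi⟩ := (Nat.dvd_prime_pow Nat.prime_two).mp ⟨_, hmul.symm⟩
        rcases Nat.eq_zero_or_pos i with rfl | hi0
        · simp at hi; omega
        · exact absurd (hi ▸ even_two.pow_of_ne_zero hi0.ne') (Nat.not_even_iff_odd.mpr huo)
      subst ha1
      rw [pow_one] at h
      refine ⟨rfl, rfl, ?_, h⟩
      obtain ⟨m, hm⟩ := Nat.pow_of_pow_add_prime (by norm_num) (by omega) (h ▸ hp)
      exact ⟨m, hm⟩

end Cfsg.Agent.S3784
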