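import Cfsg.Statements.S3785
import Cfsg.Agent.Lib.Hall.Solvable
import Cfsg.Agent.Lib.Components.Cores
import Cfsg.Agent.Lib.OddLocal.CoprimeOdd
import Mathlib

set_option autoImplicit false
open Cfsg

namespace Cfsg.Agent.S3785


open Subgroup

/-- Let G be a finite solvable group whose Fitting subgroup F(G) has odd order. If an element g of G commutes with every element of prime order of F(G), then g ∈ F(G). -/
theorem result {G : Type*} [Group G] [Finite G] (hG : Group.IsSolvable G) (hodd : Odd (Nat.card (Cfsg.fittingSubgroup G))) (g : G) (hg : ∀ x ∈ Cfsg.fittingSubgroup G, (orderOf x).Prime → g * x = x * g) : g ∈ Cfsg.fittingSubgroup G := by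
  haveI := hG
  set F := Cfsg.fittingSubgroup G with hF
  haveI : F.Normal := Lib.Hall.fittingSubgroup_normal
  set X : Set G := {x | x ∈ F ∧ (orderOf x).Prime}
  set C := centralizer X
  have hgC : g ∈ C := mem_centralizer_iff.mpr fun x hx => (hg x hx.1 hx.2).symm
  haveI hCn : C.Normal := ⟨fun c hc y => mem_centralizer_iff.mpr fun x hx => by
    have h1 : y⁻¹ * x * y ∈ X := ⟨by simpa using ‹F.Normal›.conj_mem x hx.1 y⁻¹, by
      rw [show y⁻¹ * x * y = MulAut.conj y⁻¹ x by simp, MulEquiv.orderOf_eq]; exact hx.2⟩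
    have h2 := mem_centralizer_iff.mp hc _ h1
    calc x * (y * c * y⁻¹) = y * ((y⁻¹ * x * y) * c) * y⁻¹ := by group
      _ = y * (c * (y⁻¹ * x * y)) * y⁻¹ := by rw [h2]
      _ = y * c * y⁻¹ * x := by group⟩
  suffices h : C ≤ F from h hgC
  -- elements of order prime to `p` centralise `O_p`
  have hfix : ∀ p : ℕ, p.Prime → ∀ y ∈ C, (orderOf y).Coprime p → ∀ z ∈ pCore p G, Commute y z := by
    intro p hp y hy hyp z hz
    haveI := Fact.mk hp
    have hle : pCore p G ≤ F := Lib.Hall.pCore_le_fittingSubgroup p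
    by_cases hp2 : p = 2
    · subst hp2
      obtain ⟨m, hm⟩ := hodd
      obtain ⟨j, hj⟩ := IsPGroup.iff_card.mp (Lib.Hall.isPGroup_pCore (G := G) 2)
      have hj0 : j = 0 := by
        by_contra h0
        have := (hj ▸ dvd_pow_self 2 h0 : 2 ∣ Nat.card (pCore 2 G)).trans (card_dvd_of_le hle)
        omega
      rw [hj0, pow_zero, card_eq_one] at hj
      rw [hj, mem_bot] at hz
      exact hz ▸ Commute.one_right y
    · refine (mem_centralizer_iff.mp (Lib.OddLocal.le_centralizer_of_fix_order_p p hp2
        (A := zpowers y) (by rwa [Nat.card_zpowers]) (Lib.Hall.isPGroup_pCore p)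
        (by rw [normalizer_eq_top]; exact le_top) (fun x hx hxp a ha => ?_) (mem_zpowers y)) z hz).symm
      by_cases hx1 : x = 1
      · subst hx1; simp
      · have hc : Commute x y := mem_centralizer_iff.mp hy x ⟨hle hx, by rw [orderOf_eq_prime hxp hx1]; exact hp⟩
        obtain ⟨k, rfl⟩ := mem_zpowers_iff.mp ha
        exact ((hc.zpow_right k).eq).symm
  -- each Sylow subgroup of `C` lies in `F`
  have hsyl : ∀ (p : ℕ) [Fact p.Prime] (x : G), x ∈ C → (∃ a, x ^ (p ^ a) = 1) → x ∈ F := by
    intro p hp x hx hxa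
    set R := ⨆ q : {q : ℕ // q.Prime ∧ q ≠ p}, pCore (q : ℕ) G with hR
    haveI hRn : ∀ q : {q : ℕ // q.Prime ∧ q ≠ p}, (pCore (q : ℕ) G).Normal := fun q => Lib.Hall.pCore_normal _
    haveI : R.Normal := Subgroup.iSup_normal _
    haveI : (centralizer (R : Set G)).Normal := inferInstance
    set H := C ⊓ centralizer (R : Set G)
    haveI : H.Normal := inferInstance
    have hxH : x ∈ H := by
      refine ⟨hx, ?_⟩
      have hle : R ≤ centralizer ({x} : Set G) := iSup_le fun q z hz =>
        mem_centralizer_singleton_iff.mpr (hfix q q.2.1 x hx (by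
          obtain ⟨a, ha⟩ := hxa
          exact ((Nat.coprime_primes hp.out q.2.1).mpr (Ne.symm q.2.2)).pow_left a |>.coprime_dvd_left
            (orderOf_dvd_of_pow_eq_one ha)) z hz).eq.symm
      exact mem_centralizer_iff.mpr fun z hz => mem_centralizer_singleton_iff.mp (hle hz)
    have hFR : F ≤ pCore p G ⊔ R := by
      rw [hF, Lib.Hall.fittingSubgroup_eq_iSup_pCore]
      refine iSup_le fun q => ?_
      by_cases hqp : (q : ℕ) = p
      · rw [hqp]; exact le_sup_left
      · exact (le_iSup (fun q : {q : ℕ // q.Prime ∧ q ≠ p} => pCore (q : ℕ) G) ⟨q, q.2, hqp⟩).trans le_sup_right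
    have hcen : ∀ y ∈ H, (orderOf y).Coprime p → ∀ h ∈ H, Commute y h := by
      intro y hy hyp h hh
      have hyF : y ∈ F := by
        refine Lib.Hall.centralizer_fittingSubgroup_le (mem_centralizer_iff.mpr fun z hz => ?_)
        have hle : pCore p G ⊔ R ≤ centralizer ({y} : Set G) := sup_le
          (fun w hw => mem_centralizer_singleton_iff.mpr (hfix p hp.out y hy.1 hyp w hw).eq.symm)
          (fun w hw => mem_centralizer_singleton_iff.mpr (mem_centralizer_iff.mp hy.2 w hw))
        exact mem_centralizer_singleton_iff.mp (hle (hFR hz))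
      have hyR : y ∈ R := by
        have h1 := hFR hyF
        rw [← SetLike.mem_coe, mul_normal] at h1
        obtain ⟨a, ha, r, hr, rfl⟩ := h1
        have h2 : orderOf ((a * r : G) : G ⧸ R) = 1 := by
          obtain ⟨k, hk⟩ := Lib.Hall.isPGroup_pCore p (⟨a, ha⟩ : pCore p G)
          refine Nat.eq_one_of_dvd_coprimes (hyp.pow_right k)
            (orderOf_map_dvd (QuotientGroup.mk' R) _) (orderOf_dvd_of_pow_eq_one ?_)
          have h3 : a ^ p ^ k = 1 := congrArg Subtype.val hk
          rw [QuotientGroup.mk_mul, show ((r : G) : G ⧸ R) = 1 from (QuotientGroup.eq_one_iff r).mpr hr,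
            mul_one, ← QuotientGroup.mk_pow, h3, QuotientGroup.mk_one]
        exact (QuotientGroup.eq_one_iff _).mp (orderOf_eq_one_iff.mp h2)
      exact mem_centralizer_iff.mp hh.2 y hyR
    have hq : IsPGroup p (H ⧸ center H) := by
      intro z
      obtain ⟨h, rfl⟩ := QuotientGroup.mk'_surjective _ z
      refine ⟨(orderOf h).factorization p, ?_⟩
      rw [← map_pow]
      refine (QuotientGroup.eq_one_iff _).mpr (mem_center_iff.mpr fun w => ?_)
      refine Subtype.ext (hcen _ (SetLike.coe_mem _) ?_ w w.2).eq.symm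
      rw [orderOf_coe]
      have hd : orderOf (h ^ p ^ (orderOf h).factorization p) ∣ orderOf h / p ^ (orderOf h).factorization p := by
        apply orderOf_dvd_of_pow_eq_one
        rw [← pow_mul, Nat.ordProj_mul_ordCompl_eq_self, pow_orderOf_eq_one]
      exact ((hp.out.coprime_iff_not_dvd.mpr (Nat.not_dvd_ordCompl hp.out (orderOf_pos h).ne')).symm).coprime_dvd_left hd
    haveI : Group.IsNilpotent (H ⧸ center H) := hq.isNilpotent
    haveI : Group.IsNilpotent H := Subgroup.isNilpotent_of_ker_le_center (QuotientGroup.mk' (center H))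
      (QuotientGroup.ker_mk' _).le
    exact Lib.Hall.le_fittingSubgroup inferInstance hxH
  intro x hx
  have htop : F.subgroupOf C = ⊤ := by
    refine Lib.Components.eq_top_of_forall_sylow_le fun p hp => ?_
    haveI := Fact.mk hp
    let P : Sylow p C := Classical.arbitrary _
    refine ⟨P, fun y hy => ?_⟩
    obtain ⟨a, ha⟩ := P.2 ⟨y, hy⟩
    exact hsyl p y y.2 ⟨a, congrArg (Subgroup.subtype C) (congrArg Subtype.val ha)⟩
  exact (subgroupOf_eq_top.mp htop) hx

end Cfsg.Agent.S3785
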