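import Cfsg.Statements.S3786
import Cfsg.Agent.Lib.HallHigman.PLengthTwice

set_option autoImplicit false
open Cfsg

namespace Cfsg.Agent.S3786

/-- The Hall–Higman bound on p-length. Let p be an odd prime and G a finite p-soluble group whose Sylow p-subgroups have exponent dividing p^e. (a) If p is not of the form 2^k + 1, or if the Sylow 2-subgroups of G are abelian, then G has p-length at most e. (b) In every case G has p-length at most 2e. -/
theorem result {G : Type*} [Group G] [Finite G] {p : ℕ} [Fact p.Prime] (hp : p ≠ 2) (hG : Cfsg.IsPSolvable p G) (e : ℕ) (hexp : ∀ (P : Sylow p G), ∀ x ∈ (P : Subgroup G), x ^ p ^ e = 1) : (((¬ ∃ k : ℕ, p = 2 ^ k + 1) ∨ ∀ S : Sylow 2 G, IsMulCommutative (S : Subgroup G)) → Cfsg.PLengthLE p e G) ∧ Cfsg.PLengthLE p (2 * e) G := by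
  refine ⟨fun hyp => Lib.HallHigman.pLengthLE_exponent hG e (Lib.HallHigman.pow_eq_one_of_sylow hexp)
    fun n₀ q j h1 _ hq _ hj h => ?_, Lib.HallHigman.pLengthLE_twice hp hG e (Lib.HallHigman.pow_eq_one_of_sylow hexp)⟩
  obtain ⟨rfl, hk⟩ := Lib.HallHigman.fermat_of_pow_sub_one (Fact.out : p.Prime) hp hq h1 hj h
  rcases hyp with hnf | hab
  · exact absurd hk hnf
  · haveI := Fact.mk hq
    exact ⟨default, hab default⟩

end Cfsg.Agent.S3786
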