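import Cfsg.Statements.S3787
import Cfsg.Agent.Lib.HallHigman.Wreath

set_option autoImplicit false
open Cfsg

namespace Cfsg.Agent.S3787

/-- A type without operations on `n` points. -/
def Pts (n : ℕ) : Type := Fin n

/-- Let G be a finite p-soluble group, p an odd prime not of the form 2^k + 1, and suppose the wreath product C_p ≀ C_p (of order p^(p+1)) is not involved in a Sylow p-subgroup of G: no section of a Sylow p-subgroup is isomorphic to it. Then G has p-length at most 1. -/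
theorem result {G : Type*} [Group G] [Finite G] {p : ℕ} [Fact p.Prime] (hp2 : p ≠ 2) (hnf : (¬ ∃ k : ℕ, p = 2 ^ k + 1)) (hG : Cfsg.IsPSolvable p G) (P : Sylow p G) (hwr : ∀ (W : Type) [Group W] [Finite W], (∃ (B : Subgroup W) (t : W), B.Normal ∧ IsMulCommutative B ∧ (∀ b ∈ B, b ^ p = 1) ∧ Nat.card B = p ^ p ∧ orderOf t = p ∧ t ∉ B ∧ Nat.card W = p ^ (p + 1) ∧ Nat.card ↥(B ⊓ Subgroup.centralizer ({t} : Set W)) = p) → ¬ Cfsg.Involves W ↥(P : Subgroup G)) : Cfsg.PLengthLE p 1 G := by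
  set O := pPrimeCore p G with hO
  refine Lib.PLength.pLengthLE_one fun hdvd => ?_
  obtain ⟨H, N, hN, hH, hW⟩ := Lib.HallHigman.exists_wreath_section hp2 hnf
    (Lib.PLength.isPSolvable_map (QuotientGroup.mk'_surjective O) hG)
    (Lib.OddLocal.pPrimeCore_quotient_eq_bot p) hdvd
  haveI := hN
  -- a copy in `Type`
  let W := Pts (Nat.card (↥H ⧸ N.subgroupOf H))
  let ε : (↥H ⧸ N.subgroupOf H) ≃ W := Finite.equivFin _
  letI : Group W := ε.symm.group
  let f : (↥H ⧸ N.subgroupOf H) ≃* W := (Equiv.mulEquiv ε.symm).symm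
  haveI : Finite W := Finite.of_equiv _ ε
  refine hwr W (Lib.HallHigman.IsWreath.of_mulEquiv f hW) ?_
  -- into the Sylow subgroup
  let Pb : Sylow p (G ⧸ O) := P.mapSurjective (QuotientGroup.mk'_surjective O)
  obtain ⟨P', hP'⟩ := hH.exists_le_sylow
  let g : (P : Subgroup G) →* (Pb : Subgroup (G ⧸ O)) := (QuotientGroup.mk' O).subgroupMap (P : Subgroup G)
  have hg : Function.Injective g := by
    rw [← MonoidHom.ker_eq_bot_iff, eq_bot_iff]
    rintro ⟨z, hz⟩ hz'
    have hzO : z ∈ O := (QuotientGroup.eq_one_iff z).mp (congrArg Subtype.val (MonoidHom.mem_ker.mp hz'))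
    have hdisj : (P : Subgroup G) ⊓ O = ⊥ := Lib.Coprime.inf_eq_bot_of_coprime (by
      obtain ⟨e, he⟩ := IsPGroup.iff_card.mp P.isPGroup'
      rw [he]
      exact (Lib.Components.pPrimeCore_coprime p).symm.pow_left e)
    exact Subtype.ext (Subgroup.mem_bot.mp (hdisj ▸ (⟨hz, hzO⟩ : z ∈ (P : Subgroup G) ⊓ O)))
  let e1 : (P : Subgroup G) ≃* (Pb : Subgroup (G ⧸ O)) :=
    MulEquiv.ofBijective g ⟨hg, (QuotientGroup.mk' O).subgroupMap_surjective _⟩
  refine Lib.HallHigman.involves_of_injective ((e1.symm.toMonoidHom).comp (P'.equiv Pb).toMonoidHom)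
    (e1.symm.injective.comp (P'.equiv Pb).injective) ?_
  refine Lib.HallHigman.involves_of_injective (Subgroup.inclusion hP') (Subgroup.inclusion_injective hP') ?_
  refine ⟨⊤, N.subgroupOf H, inferInstance, ⟨(QuotientGroup.congr _ _ Subgroup.topEquiv ?_).trans f⟩⟩
  ext z
  constructor
  · rintro ⟨y, hy, rfl⟩
    exact hy
  · intro hz
    exact ⟨⟨z, trivial⟩, hz, rfl⟩

end Cfsg.Agent.S3787
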