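import Cfsg.Statements.S3788
import Cfsg.Agent.Lib.HallHigman.CyclicNormal

set_option autoImplicit false
open Cfsg

namespace Cfsg.Agent.S3788

/-- Let G be a finite p-soluble group, P a Sylow p-subgroup of G and A a cyclic normal subgroup of P. If p is odd, or if no section of G is isomorphic to the symmetric group of degree 4, then A ≤ O_{p',p}(G). -/
theorem result {G : Type*} [Group G] [Finite G] {p : ℕ} [Fact p.Prime] (hG : Cfsg.IsPSolvable p G) (P : Sylow p G) (A : Subgroup G) (hAP : A ≤ (P : Subgroup G)) (hAn : (P : Subgroup G) ≤ Subgroup.normalizer (A : Set G)) (hA : IsCyclic A) (h : p ≠ 2 ∨ ¬ Cfsg.Involves (Equiv.Perm (Fin 4)) G) : A ≤ Cfsg.pPrimePCore p G := by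
  obtain ⟨⟨a, haA⟩, hgen⟩ := hA.exists_generator
  have hzA : A ≤ Subgroup.zpowers a := fun z hz => by
    obtain ⟨k, hk⟩ := hgen ⟨z, hz⟩
    exact ⟨k, congrArg Subtype.val hk⟩
  set N := pPrimeCore p G
  intro z hz
  suffices hmem : a ∈ Cfsg.pPrimePCore p G from (Subgroup.zpowers_le.mpr hmem) (hzA hz)
  rw [Cfsg.pPrimePCore, Subgroup.mem_comap]
  refine Lib.HallHigman.le_pCore_of_cyclic (Lib.PLength.isPSolvable_map (QuotientGroup.mk'_surjective N) hG)
    (Lib.OddLocal.pPrimeCore_quotient_eq_bot p) (P.mapSurjective (QuotientGroup.mk'_surjective N)) _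
    ⟨a, hAP haA, rfl⟩ ?_ (h.imp_right fun h2 h3 => h2 (Lib.HallHigman.involves_of_quotient N h3))
  rintro _ ⟨v, hv, rfl⟩
  have h1 : v * a * v⁻¹ ∈ A := (Subgroup.mem_normalizer_iff.mp (hAn hv) a).mp haA
  obtain ⟨k, hk⟩ := hzA h1
  exact ⟨k, by
    show (QuotientGroup.mk' N a) ^ k = _
    rw [← map_zpow, show a ^ k = v * a * v⁻¹ from hk, map_mul, map_mul, map_inv]⟩

end Cfsg.Agent.S3788
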