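import Cfsg.Statements.S3790
import Cfsg.Agent.Lib.PLength.Series
import Cfsg.Agent.Lib.FPFOrderFour.Basic
import Cfsg.Agent.Lib.OddLocal.PLengthOne
import Cfsg.Agent.Lib.Coprime.Action
import Mathlib

set_option autoImplicit false
open Cfsg

namespace Cfsg.Agent.S3790


open Subgroup

universe u

lemma main (p : ℕ) [hp : Fact p.Prime] (r : ℕ) (q : Fin r → ℕ) (hq : ∀ i, (q i).Prime ∧ q i ≠ p) :
    ∀ (n : ℕ) (G : Type u) [Group G] [Finite G], Nat.card G = n → Group.IsSolvable G →
    (∀ s : ℕ, s.Prime → s ∣ Nat.card G → s ≠ p → ∃ i, q i = s) →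
    ∀ l : Fin r → ℕ, (∀ i, PLengthLE (q i) (l i) G) → PLengthLE p (∏ i, (1 + l i)) G := by
  intro n
  induction n using Nat.strong_induction_on with
  | _ n ih =>
  intro G _ _ hn hG hcover l hl
  haveI := hG
  rcases subsingleton_or_nontrivial G with hs | hs
  · exact Subsingleton.elim _ _
  obtain ⟨N, s, hs', hNn, hNne, -, -, hNs, -⟩ := Lib.FPFOrderFour.exists_minimal (MulEquiv.refl G)
  haveI := hNn
  haveI := Fact.mk hs'
  haveI hqf : ∀ i, Fact (q i).Prime := fun i => ⟨(hq i).1⟩
  have hNp : IsPGroup s N := Lib.FPFOrderFour.isPGroup_of_pow_eq_one N hNs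
  have hIH : ∀ (M : Subgroup G) [M.Normal], M ≠ ⊥ → ∀ l' : Fin r → ℕ, (∀ i, PLengthLE (q i) (l' i) (G ⧸ M)) →
      PLengthLE p (∏ i, (1 + l' i)) (G ⧸ M) := fun M _ hM l' hl' =>
    ih (Nat.card (G ⧸ M)) (hn ▸ Lib.Coprime.card_quotient_lt hM) (G ⧸ M) rfl
      (Group.isSolvable_of_surjective (QuotientGroup.mk'_surjective M))
      (fun t ht htd => hcover t ht (htd.trans M.card_quotient_dvd_card)) l' hl'
  by_cases hM : pPrimeCore s G = ⊥
  · have hQ : pCore s G ≠ ⊥ := fun h => hNne (le_bot_iff.mp (h ▸ Lib.Hall.le_pCore hNp))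
    have hsdvd : s ∣ Nat.card G := by
      obtain ⟨a, ha, ha1⟩ := (bot_or_exists_ne_one N).resolve_left hNne
      rw [← orderOf_eq_prime (hNs a ha) ha1]
      exact orderOf_dvd_natCard a
    by_cases hsp : s = p
    · -- the main case
      subst hsp
      have hpos : 1 ≤ ∏ i, (1 + l i) := Finset.one_le_prod' fun i _ => by omega
      rw [show ∏ i, (1 + l i) = (∏ i, (1 + l i)) - 1 + 1 by omega]
      apply Lib.PLength.pLengthLE_succ_of_quotient_pCore
      have hlt : Nat.card (G ⧸ pCore s G) < n := hn ▸ Lib.Coprime.card_quotient_lt hQ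
      have hGb : Group.IsSolvable (G ⧸ pCore s G) :=
        Group.isSolvable_of_surjective (QuotientGroup.mk'_surjective _)
      refine Lib.PLength.pLengthLE_of_iInf_eq_bot (fun i => pPrimeCore (q i) (G ⧸ pCore s G)) ?_ fun i => ?_
      · set Y := ⨅ i, pPrimeCore (q i) (G ⧸ pCore s G) with hY
        haveI : Y.Normal := normal_iInf_normal inferInstance
        have hYp : IsPGroup s Y := by
          refine IsPGroup.of_card (n := (Nat.card Y).primeFactorsList.length)
            (Nat.eq_prime_pow_of_unique_prime_dvd Nat.card_pos.ne' fun {t} ht htd => ?_)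
          by_contra hts
          obtain ⟨j, rfl⟩ := hcover t ht
            (htd.trans ((card_subgroup_dvd_card Y).trans (pCore s G).card_quotient_dvd_card)) hts
          exact Lib.Hall.not_dvd_card_pPrimeCore ht (htd.trans (card_dvd_of_le (iInf_le _ j)))
        exact le_bot_iff.mp ((Lib.Hall.le_pCore hYp).trans Lib.PLength.pCore_quotient_pCore_eq_bot.le)
      · set X := (G ⧸ pCore s G) ⧸ pPrimeCore (q i) (G ⧸ pCore s G)
        have hX : pPrimeCore (q i) X = ⊥ := Lib.OddLocal.pPrimeCore_quotient_eq_bot (q i)
        have hlX : ∀ j, PLengthLE (q j) (l j) X := fun j =>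
          Lib.PLength.pLengthLE_of_surjective (QuotientGroup.mk'_surjective _)
            (Lib.PLength.pLengthLE_of_surjective (QuotientGroup.mk'_surjective _) (hl j))
        by_cases hl0 : l i = 0
        · have h1 := Lib.PLength.not_dvd_card_of_pLengthLE_zero (hl0 ▸ hlX i)
          have h2 : (⊤ : Subgroup X) ≤ ⊥ := hX ▸ Lib.Hall.le_pPrimeCore (by
            rw [card_top]; exact ((hq i).1.coprime_iff_not_dvd.mpr h1).symm)
          exact le_antisymm le_top (h2.trans bot_le)
        · have hXlt : Nat.card (X ⧸ pCore (q i) X) < n := lt_of_le_of_lt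
            ((Nat.le_of_dvd Nat.card_pos ((pCore (q i) X).card_quotient_dvd_card)).trans
              (Nat.le_of_dvd Nat.card_pos (pPrimeCore (q i) (G ⧸ pCore s G)).card_quotient_dvd_card)) hlt
          haveI : Group.IsSolvable X := Group.isSolvable_of_surjective (QuotientGroup.mk'_surjective _)
          have h1 := ih _ hXlt (X ⧸ pCore (q i) X) rfl
            (Group.isSolvable_of_surjective (QuotientGroup.mk'_surjective _))
            (fun t ht htd => hcover t ht (htd.trans ((pCore (q i) X).card_quotient_dvd_card.trans
              ((pPrimeCore (q i) (G ⧸ pCore s G)).card_quotient_dvd_card.trans (pCore s G).card_quotient_dvd_card))))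
            (Function.update l i (l i - 1)) fun j => by
              by_cases hji : j = i
              · subst hji
                rw [Function.update_self]
                exact Lib.PLength.pLengthLE_quotient_pCore hX
                  (by rw [Nat.sub_add_cancel (Nat.pos_of_ne_zero hl0)]; exact hlX j)
              · rw [Function.update_of_ne hji]
                exact Lib.PLength.pLengthLE_of_surjective (QuotientGroup.mk'_surjective _) (hlX j)
          have hcop : (Nat.card (pCore (q i) X)).Coprime s := by
            obtain ⟨k, hk⟩ := IsPGroup.iff_card.mp (Lib.Hall.isPGroup_pCore (G := X) (q i))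
            rw [hk]
            exact ((Nat.coprime_primes (hq i).1 hs').mpr (hq i).2).pow_left k
          refine Lib.PLength.pLengthLE_mono ?_ (Lib.PLength.pLengthLE_of_quotient_coprime _ hcop h1)
          rw [← Finset.mul_prod_erase _ _ (Finset.mem_univ i), ← Finset.mul_prod_erase _ (fun j => 1 + l j) (Finset.mem_univ i),
            Function.update_self, Finset.prod_congr rfl (fun j hj => by
              rw [Function.update_of_ne (Finset.ne_of_mem_erase hj)])]
          have hR : 1 ≤ ∏ j ∈ Finset.univ.erase i, (1 + l j) := Finset.one_le_prod' fun j _ => by omega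
          obtain ⟨k, hk⟩ := Nat.exists_eq_succ_of_ne_zero hl0
          rw [hk, Nat.succ_eq_add_one, Nat.add_sub_cancel, show 1 + (k + 1) = 1 + k + 1 by ring, add_mul _ 1, one_mul]
          omega
    · obtain ⟨i, hi⟩ := hcover s hs' hsdvd hsp
      subst hi
      have hl0 : l i ≠ 0 := fun h0 =>
        Lib.PLength.not_dvd_card_of_pLengthLE_zero (h0 ▸ hl i) hsdvd
      have h1 := hIH (pCore (q i) G) hQ (Function.update l i (l i - 1)) fun j => by
        by_cases hji : j = i
        · subst hji
          rw [Function.update_self]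
          exact Lib.PLength.pLengthLE_quotient_pCore hM (by rw [Nat.sub_add_cancel (Nat.pos_of_ne_zero hl0)]; exact hl j)
        · rw [Function.update_of_ne hji]
          exact Lib.PLength.pLengthLE_of_surjective (QuotientGroup.mk'_surjective _) (hl j)
      have hcop : (Nat.card (pCore (q i) G)).Coprime p := by
        obtain ⟨k, hk⟩ := IsPGroup.iff_card.mp (Lib.Hall.isPGroup_pCore (G := G) (q i))
        rw [hk]
        exact ((Nat.coprime_primes (hq i).1 hp.out).mpr (hq i).2).pow_left k
      refine Lib.PLength.pLengthLE_mono ?_ (Lib.PLength.pLengthLE_of_quotient_coprime _ hcop h1)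
      refine Finset.prod_le_prod' fun j _ => ?_
      by_cases hji : j = i
      · subst hji
        rw [Function.update_self]
        omega
      · rw [Function.update_of_ne hji]
  · let K : Bool → Subgroup G := fun b => if b then N else pPrimeCore s G
    haveI : ∀ b, (K b).Normal := fun b => Bool.rec (inferInstanceAs (pPrimeCore s G).Normal) hNn b
    refine Lib.PLength.pLengthLE_of_iInf_eq_bot K ?_ fun b => ?_
    · rw [iInf_bool_eq]
      refine Lib.Coprime.inf_eq_bot_of_coprime ?_
      obtain ⟨k, hk⟩ := IsPGroup.iff_card.mp hNp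
      simp only [K, if_true]
      rw [hk]
      exact (Lib.Hall.coprime_card_pPrimeCore s).symm.pow_left k
    · refine hIH (K b) ?_ l fun i => Lib.PLength.pLengthLE_of_surjective (QuotientGroup.mk'_surjective _) (hl i)
      cases b
      · exact hM
      · exact hNne

/-- Let G be a finite solvable group and p a prime. Suppose p₁, …, p_r are distinct primes, all different from p, that include every prime dividing the order of G other than p, and that G has p_i-length at most l_i for each i. Then G has p-length at most the product of the numbers 1 + l_i. -/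
theorem result {G : Type*} [Group G] [Finite G] (hG : Group.IsSolvable G) (p : ℕ) [Fact p.Prime] (r : ℕ) (q : Fin r → ℕ) (hq : ∀ i, (q i).Prime ∧ q i ≠ p) (hinj : Function.Injective q) (hcover : ∀ s : ℕ, s.Prime → s ∣ Nat.card G → s ≠ p → ∃ i, q i = s) (l : Fin r → ℕ) (hl : ∀ i, Cfsg.PLengthLE (q i) (l i) G) : Cfsg.PLengthLE p (Finset.univ.prod fun i => 1 + l i) G := by
  exact main p r q hq _ G rfl hG hcover l hl

end Cfsg.Agent.S3790
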