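import Cfsg.Statements.S3791
import Cfsg.Agent.Lib.PLength.Series
import Cfsg.Agent.Lib.FPFOrderFour.Basic
import Cfsg.Agent.Lib.Coprime.Action
import Mathlib

set_option autoImplicit false
open Cfsg

namespace Cfsg.Agent.S3791


open Subgroup

universe u

lemma derivedSeries_add_le {G : Type*} [Group G] (Q : Subgroup G) (a b : ℕ) (ha : derivedSeries G a ≤ Q) :
    derivedSeries G (a + b) ≤ (derivedSeries Q b).map Q.subtype := by
  induction b with
  | zero => rwa [derivedSeries_zero, ← MonoidHom.range_eq_map, range_subtype, add_zero]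
  | succ b ih =>
    rw [← add_assoc, derivedSeries_succ, derivedSeries_succ, map_commutator]
    exact commutator_mono ih ih

lemma derived_quotient {G : Type*} [Group G] [Finite G] (N : Subgroup G) [N.Normal] {r : ℕ} [Fact r.Prime]
    {d : ℕ} (h : ∀ S : Sylow r G, derivedSeries S d = ⊥) (T : Sylow r (G ⧸ N)) : derivedSeries T d = ⊥ := by
  obtain ⟨S, rfl⟩ := Sylow.mapSurjective_surjective (QuotientGroup.mk'_surjective N) r T
  let f : ↥(S : Subgroup G) →* ↥((S : Subgroup G).map (QuotientGroup.mk' N)) := (QuotientGroup.mk' N).subgroupMap _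
  have hf : Function.Surjective f := (QuotientGroup.mk' N).subgroupMap_surjective _
  have := map_derivedSeries_eq hf d
  rw [h S, Subgroup.map_bot] at this
  exact this.symm

lemma main (r : ℕ) (q : Fin r → ℕ) (hq : ∀ i, (q i).Prime) (d : Fin r → ℕ) : ∀ (n : ℕ) (G : Type u) [Group G] [Finite G],
    Nat.card G = n → Group.IsSolvable G → (∀ s : ℕ, s.Prime → s ∣ Nat.card G → ∃ i, q i = s) →
    (∀ i, ∀ S : Sylow (q i) G, derivedSeries S (d i) = ⊥) →
    ∀ l : Fin r → ℕ, (∀ i, PLengthLE (q i) (l i) G) → derivedSeries G (∑ i, d i * l i) = ⊥ := by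
  intro n
  induction n using Nat.strong_induction_on with
  | _ n ih =>
  intro G _ _ hn hG hcover hd l hl
  haveI := hG
  rcases subsingleton_or_nontrivial G with hs | hs
  · exact Subsingleton.elim _ _
  obtain ⟨N, s, hs', hNn, hNne, -, -, hNs, -⟩ := Lib.FPFOrderFour.exists_minimal (MulEquiv.refl G)
  haveI := hNn
  haveI := Fact.mk hs'
  have hNp : IsPGroup s N := Lib.FPFOrderFour.isPGroup_of_pow_eq_one N hNs
  have hIH : ∀ (M : Subgroup G) [M.Normal], M ≠ ⊥ → ∀ l' : Fin r → ℕ, (∀ i, PLengthLE (q i) (l' i) (G ⧸ M)) →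
      derivedSeries G (∑ i, d i * l' i) ≤ M := by
    intro M _ hM l' hl'
    have h := ih (Nat.card (G ⧸ M)) (hn ▸ Lib.Coprime.card_quotient_lt hM) (G ⧸ M) rfl
      (Group.isSolvable_of_surjective (QuotientGroup.mk'_surjective M))
      (fun t ht htd => hcover t ht (htd.trans M.card_quotient_dvd_card))
      (fun i T => haveI := Fact.mk (hq i); derived_quotient M (hd i) T) l' hl'
    rw [← map_derivedSeries_eq (QuotientGroup.mk'_surjective M), Subgroup.map_eq_bot_iff,
      QuotientGroup.ker_mk'] at h
    exact h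
  by_cases hM : pPrimeCore s G = ⊥
  · have hQ : pCore s G ≠ ⊥ := fun h => hNne (le_bot_iff.mp (h ▸ Lib.Hall.le_pCore hNp))
    obtain ⟨i, hi⟩ := hcover s hs' (by
      obtain ⟨a, ha, ha1⟩ := (bot_or_exists_ne_one N).resolve_left hNne
      rw [← orderOf_eq_prime (hNs a ha) ha1]
      exact orderOf_dvd_natCard a)
    subst hi
    have hl0 : l i ≠ 0 := by
      intro h0
      have h1 := Lib.PLength.not_dvd_card_of_pLengthLE_zero (h0 ▸ hl i)
      obtain ⟨a, ha, ha1⟩ := (bot_or_exists_ne_one N).resolve_left hNne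
      exact h1 (orderOf_eq_prime (hNs a ha) ha1 ▸ orderOf_dvd_natCard a)
    have h1 := hIH (pCore (q i) G) hQ (Function.update l i (l i - 1)) fun j => by
      haveI := Fact.mk (hq j)
      by_cases hji : j = i
      · subst hji
        rw [Function.update_self]
        exact Lib.PLength.pLengthLE_quotient_pCore hM (by rw [Nat.sub_add_cancel (Nat.pos_of_ne_zero hl0)]; exact hl j)
      · rw [Function.update_of_ne hji]
        exact Lib.PLength.pLengthLE_of_surjective (QuotientGroup.mk'_surjective _) (hl j)
    have h2 := derivedSeries_add_le _ _ (d i) h1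
    have hQd : derivedSeries (pCore (q i) G) (d i) = ⊥ := by
      let S : Sylow (q i) G := Classical.arbitrary _
      have h3 := map_derivedSeries_le_derivedSeries (inclusion (Lib.Hall.pCore_le_sylow S)) (d i)
      rw [hd i S, le_bot_iff, map_eq_bot_iff_of_injective _ (inclusion_injective _)] at h3
      exact h3
    rw [hQd, Subgroup.map_bot, le_bot_iff] at h2
    rw [← h2]
    congr 1
    have hupd : ∑ j ∈ Finset.univ.erase i, d j * Function.update l i (l i - 1) j =
        ∑ j ∈ Finset.univ.erase i, d j * l j :=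
      Finset.sum_congr rfl fun j hj => by rw [Function.update_of_ne (Finset.ne_of_mem_erase hj)]
    rw [← Finset.add_sum_erase _ (fun j => d j * l j) (Finset.mem_univ i),
      ← Finset.add_sum_erase _ (fun j => d j * Function.update l i (l i - 1) j) (Finset.mem_univ i),
      hupd, Function.update_self]
    obtain ⟨k, hk⟩ := Nat.exists_eq_succ_of_ne_zero hl0
    rw [hk, Nat.succ_eq_add_one, Nat.add_sub_cancel, mul_add]
    ring
  · have h1 := hIH N hNne l fun i => haveI := Fact.mk (hq i); Lib.PLength.pLengthLE_of_surjective (QuotientGroup.mk'_surjective _) (hl i)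
    have h2 := hIH (pPrimeCore s G) hM l fun i => haveI := Fact.mk (hq i); Lib.PLength.pLengthLE_of_surjective (QuotientGroup.mk'_surjective _) (hl i)
    rw [eq_bot_iff]
    refine (le_inf h1 h2).trans (le_of_eq (Lib.Coprime.inf_eq_bot_of_coprime ?_))
    obtain ⟨k, hk⟩ := IsPGroup.iff_card.mp hNp
    rw [hk]
    exact (Lib.Hall.coprime_card_pPrimeCore s).symm.pow_left k

/-- The Hall–Higman bound on derived length: let G be a finite solvable group, let p₁, …, p_r be distinct primes that include every prime dividing the order of G, and suppose that for each i the Sylow p_i-subgroups of G have derived length at most d_i and G has p_i-length at most l_i. Then G has derived length at most Σ d_i l_i. -/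
theorem result {G : Type*} [Group G] [Finite G] (hG : Group.IsSolvable G) (r : ℕ) (q : Fin r → ℕ) (hq : ∀ i, (q i).Prime) (hinj : Function.Injective q) (hcover : ∀ s : ℕ, s.Prime → s ∣ Nat.card G → ∃ i, q i = s) (d l : Fin r → ℕ) (hd : ∀ i, ∀ P : Subgroup G, (haveI := Fact.mk (hq i); ∃ S : Sylow (q i) G, (S : Subgroup G) = P) → derivedSeries ↥P (d i) = ⊥) (hl : ∀ i, Cfsg.PLengthLE (q i) (l i) G) : derivedSeries G (Finset.univ.sum fun i => d i * l i) = ⊥ := by
  refine main r q hq d _ G rfl hG hcover (fun i S => ?_) l hl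
  exact hd i S ⟨S, rfl⟩

end Cfsg.Agent.S3791
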