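import Cfsg.Statements.S3794
import Cfsg.Agent.Lib.FPFOrderFour.Basic
import Cfsg.Agent.Lib.Coprime.Basic
import Mathlib

set_option autoImplicit false
open Cfsg

namespace Cfsg.Agent.S3794


open Subgroup

universe u

/-- automorphisms act additively on `Additive N` -/
@[reducible] def autAction (N : Type*) [CommGroup N] : DistribMulAction (MulAut N) (Additive N) where
  smul f v := Additive.ofMul (f v.toMul)
  one_smul _ := rfl
  mul_smul _ _ _ := rfl
  smul_zero f := congrArg Additive.ofMul (map_one f)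
  smul_add f a b := congrArg Additive.ofMul (map_mul f a.toMul b.toMul)

/-- a fixed coset contains a fixed element -/
lemma mem_of_fixed {G : Type*} [Group G] [Finite G] (σ : MulAut G) (hfpf : ∀ g : G, σ g = g → g = 1)
    (K : Subgroup G) (hK : ∀ k ∈ K, σ k ∈ K) {g : G} (hg : g⁻¹ * σ g ∈ K) : g ∈ K := by
  let f : K → K := fun k => ⟨(k : G)⁻¹ * σ k, K.mul_mem (K.inv_mem k.2) (hK k k.2)⟩
  have key : ∀ a b : G, a⁻¹ * σ a = b⁻¹ * σ b → a = b := by
    intro a b h
    have h1 : σ (b * a⁻¹) = b * a⁻¹ := by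
      rw [map_mul, map_inv, mul_inv_eq_iff_eq_mul]
      calc σ b = b * (b⁻¹ * σ b) := by group
        _ = b * (a⁻¹ * σ a) := by rw [h]
        _ = b * a⁻¹ * σ a := by group
    exact (mul_inv_eq_one.mp (hfpf _ h1)).symm
  have hf : Function.Injective f := fun a b h => Subtype.ext (key _ _ (congrArg Subtype.val h))
  obtain ⟨k, hk⟩ := (Finite.injective_iff_surjective.mp hf) ⟨_, hg⟩
  rw [← key _ _ (congrArg Subtype.val hk : (k : G)⁻¹ * σ k = g⁻¹ * σ g)]
  exact k.2

lemma odd_card {G : Type*} [Group G] [Finite G] (σ : MulAut G) (hσ : σ ^ 4 = 1)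
    (hfpf : ∀ g : G, σ g = g → g = 1) : Odd (Nat.card G) := by
  haveI := Fact.mk Nat.prime_two
  have hP : IsPGroup 2 (zpowers σ) := by
    obtain ⟨k, -, hk⟩ := (Nat.dvd_prime_pow Nat.prime_two).mp (orderOf_dvd_of_pow_eq_one (n := 2 ^ 2) hσ)
    exact IsPGroup.of_card (by rw [Nat.card_zpowers, hk])
  have h := hP.card_modEq_card_fixedPoints G
  have h1 : Nat.card (MulAction.fixedPoints (zpowers σ) G) = 1 := by
    rw [Nat.card_eq_one_iff_unique]
    refine ⟨⟨fun a b => ?_⟩, ⟨⟨1, fun g => map_one (g : MulAut G)⟩⟩⟩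
    have : ∀ c : MulAction.fixedPoints (zpowers σ) G, (c : G) = 1 := fun c =>
      hfpf _ (c.2 ⟨σ, mem_zpowers σ⟩)
    exact Subtype.ext ((this a).trans (this b).symm)
  rw [h1] at h
  exact Nat.odd_iff.mpr h

lemma main : ∀ (n : ℕ) (G : Type u) [Group G] [Finite G], Nat.card G = n → Group.IsSolvable G →
    ∀ σ : MulAut G, σ ^ 4 = 1 → (∀ g : G, σ g = g → g = 1) → Group.IsNilpotent (commutator G) := by
  intro n
  induction n using Nat.strong_induction_on with
  | _ n ih =>
  intro G _ _ hn hG σ hσ hfpf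
  haveI := hG
  rcases subsingleton_or_nontrivial G with hs | hs
  · infer_instance
  have h4 : ∀ g, σ (σ (σ (σ g))) = g := fun g => by
    have : (σ ^ 4) g = g := by rw [hσ]; rfl
    simpa [pow_succ, MulAut.mul_apply] using this
  obtain ⟨N, r, hr, hNn, hNne, hNσ, hNc, hNr, hNmin⟩ := Lib.FPFOrderFour.exists_minimal σ
  haveI := hNn
  have hodd := odd_card σ hσ hfpf
  have hN3 : ∀ x ∈ N, σ (σ (σ x)) ∈ N := fun x hx => hNσ _ (hNσ _ (hNσ x hx))
  -- the quotient by `N`
  have hmap : N.map σ.toMonoidHom = N := by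
    refine le_antisymm ?_ fun x hx => ⟨σ (σ (σ x)), hN3 x hx, h4 x⟩
    rintro _ ⟨x, hx, rfl⟩
    exact hNσ x hx
  let σ' : MulAut (G ⧸ N) := QuotientGroup.congr N N σ hmap
  have hσ' : ∀ g : G, σ' (g : G ⧸ N) = (σ g : G ⧸ N) := fun g => rfl
  have hIH : Group.IsNilpotent (commutator (G ⧸ N)) := by
    refine ih (Nat.card (G ⧸ N)) (hn ▸ Lib.Coprime.card_quotient_lt hNne) (G ⧸ N) rfl
      (Group.isSolvable_of_surjective (QuotientGroup.mk'_surjective N)) σ' ?_ ?_
    · apply MulEquiv.ext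
      intro x
      obtain ⟨g, rfl⟩ := QuotientGroup.mk'_surjective N x
      simp only [pow_succ, pow_zero, one_mul, MulAut.mul_apply, MulAut.one_apply, QuotientGroup.mk'_apply,
        hσ', h4]
    · intro x hx
      obtain ⟨g, rfl⟩ := QuotientGroup.mk'_surjective N x
      rw [QuotientGroup.mk'_apply, hσ'] at hx
      exact (QuotientGroup.eq_one_iff g).mpr (mem_of_fixed σ hfpf N hNσ (QuotientGroup.eq.mp hx.symm))
  -- the action on `N`
  letI : CommGroup N := { (inferInstance : Group N) with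
    mul_comm := fun a b => Subtype.ext (hNc a a.2 b b.2) }
  letI := autAction N
  let ρ : G →* MulAut N := MulAut.conjNormal
  let sN : MulAut N :=
    { toFun := fun x => ⟨σ x, hNσ x x.2⟩
      invFun := fun x => ⟨σ (σ (σ (x : G))), hN3 x x.2⟩
      left_inv := fun x => Subtype.ext (h4 x)
      right_inv := fun x => Subtype.ext (h4 x)
      map_mul' := fun a b => Subtype.ext (map_mul σ (a : G) (b : G)) }
  have hconj : ∀ g, sN * ρ g * sN⁻¹ = ρ (σ g) := by
    intro g
    rw [mul_inv_eq_iff_eq_mul]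
    apply MulEquiv.ext
    intro x
    apply Subtype.ext
    show σ (g * x * g⁻¹) = σ g * σ x * (σ g)⁻¹
    rw [map_mul, map_mul, map_inv]
  have hconj' : ∀ g, sN⁻¹ * ρ g * sN = ρ (σ (σ (σ g))) := by
    intro g
    have := hconj (σ (σ (σ g)))
    rw [h4] at this
    rw [← this]
    group
  let σH : MulAut ρ.range :=
    { toFun := fun h => ⟨sN * h * sN⁻¹, by
        obtain ⟨_, g, rfl⟩ := h
        exact ⟨σ g, (hconj g).symm⟩⟩
      invFun := fun h => ⟨sN⁻¹ * h * sN, by
        obtain ⟨_, g, rfl⟩ := h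
        exact ⟨_, (hconj' g).symm⟩⟩
      left_inv := fun h => Subtype.ext (by group)
      right_inv := fun h => Subtype.ext (by group)
      map_mul' := fun a b => Subtype.ext (by push_cast; group) }
  have hσH : ∀ g, σH ⟨ρ g, g, rfl⟩ = ⟨ρ (σ g), σ g, rfl⟩ := fun g => Subtype.ext (hconj g)
  haveI : FaithfulSMul ρ.range (Additive N) := ⟨fun {a b} h => Subtype.ext (MulEquiv.ext fun x =>
    Additive.ofMul.injective (h (Additive.ofMul x)))⟩
  haveI : Group.IsSolvable ρ.range := Group.isSolvable_of_surjective ρ.rangeRestrict_surjective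
  haveI := Fact.mk hr
  haveI : Finite (Additive N) := inferInstanceAs (Finite N)
  obtain ⟨x0, hx0, hx01⟩ := (bot_or_exists_ne_one N).resolve_left hNne
  have hr2 : r ≠ 2 := by
    rintro rfl
    obtain ⟨m, hm⟩ := hodd
    have := orderOf_dvd_natCard x0
    rw [orderOf_eq_prime (hNr x0 hx0) hx01] at this
    omega
  have hab : ∀ g h : ρ.range, g * h = h * g := by
    refine Lib.FPFOrderFour.abelian_of_irreducible (H := ρ.range) (V := Additive N)
      (hodd.of_dvd_nat (Subgroup.card_range_dvd ρ)) hr2 ?_ σH (MulEquiv.toAdditive sN) ?_ ?_ ?_ ?_ ?_ ?_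
    · intro v
      exact congrArg Additive.ofMul (Subtype.ext (hNr _ (v.toMul : N).2) : (v.toMul : N) ^ r = 1)
    · rintro ⟨_, g, rfl⟩ v
      rw [hσH]
      refine congrArg Additive.ofMul (Subtype.ext ?_)
      show σ (g * (v.toMul : N) * g⁻¹) = σ g * σ (v.toMul : N) * (σ g)⁻¹
      rw [map_mul, map_mul, map_inv]
    · rintro ⟨_, g, rfl⟩
      rw [hσH, hσH, hσH, hσH]
      exact Subtype.ext (congrArg ρ (h4 g))
    · exact fun v => congrArg Additive.ofMul (Subtype.ext (h4 (v.toMul : N)))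
    · rintro ⟨_, g, rfl⟩ h
      rw [hσH] at h
      have h1 : ρ (σ g) = ρ g := congrArg Subtype.val h
      have h2 : g ∈ ρ.ker := mem_of_fixed σ hfpf ρ.ker (fun k hk => by
        rw [MonoidHom.mem_ker] at hk ⊢
        rw [← hconj, hk, mul_one, mul_inv_cancel]) (by rw [MonoidHom.mem_ker, map_mul, map_inv, h1, inv_mul_cancel])
      exact Subtype.ext h2
    · intro v hv
      have h1 : σ ((v.toMul : N) : G) = (v.toMul : N) := congrArg (fun w => ((Additive.toMul w : N) : G)) hv
      exact congrArg Additive.ofMul (Subtype.ext (hfpf _ h1) : (v.toMul : N) = 1)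
    · intro W hWh hWs
      let B : Subgroup G :=
        { carrier := {x | ∃ hx : x ∈ N, Additive.ofMul (⟨x, hx⟩ : N) ∈ W}
          one_mem' := ⟨N.one_mem, W.zero_mem⟩
          mul_mem' := fun ⟨ha, ha'⟩ ⟨hb, hb'⟩ => ⟨N.mul_mem ha hb, W.add_mem ha' hb'⟩
          inv_mem' := fun ⟨ha, ha'⟩ => ⟨N.inv_mem ha, W.neg_mem ha'⟩ }
      rcases hNmin B (fun x hx => hx.1)
          ⟨fun x ⟨hx, hx'⟩ g => ⟨hNn.conj_mem x hx g, hWh ⟨ρ g, g, rfl⟩ _ hx'⟩⟩
          (fun x ⟨hx, hx'⟩ => ⟨hNσ x hx, hWs _ hx'⟩) with h | h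
      · refine Or.inl (eq_bot_iff.mpr fun v hv => AddSubgroup.mem_bot.mpr ?_)
        have h2 : ((v.toMul : N) : G) ∈ B := ⟨(v.toMul : N).2, hv⟩
        rw [h, Subgroup.mem_bot, OneMemClass.coe_eq_one] at h2
        exact congrArg Additive.ofMul h2
      · refine Or.inr (eq_top_iff.mpr fun v _ => ?_)
        obtain ⟨_, h3⟩ : ((v.toMul : N) : G) ∈ B := h.ge (v.toMul : N).2
        exact h3
  -- hence the commutator subgroup centralises `N`
  have hker : commutator G ≤ ρ.ker := by
    rw [_root_.commutator_def, Subgroup.commutator_le]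
    intro a _ b _
    rw [MonoidHom.mem_ker, map_commutatorElement, commutatorElement_eq_one_iff_mul_comm]
    exact congrArg Subtype.val (hab ⟨ρ a, a, rfl⟩ ⟨ρ b, b, rfl⟩)
  let f : commutator G →* commutator (G ⧸ N) :=
    ((QuotientGroup.mk' N).comp (commutator G).subtype).codRestrict _ fun x => by
      have h := Subgroup.map_commutator ⊤ ⊤ (QuotientGroup.mk' N)
      rw [Subgroup.map_top_of_surjective _ (QuotientGroup.mk'_surjective N), ← _root_.commutator_def, ← _root_.commutator_def] at h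
      exact h ▸ mem_map_of_mem _ x.2
  refine Subgroup.isNilpotent_of_ker_le_center f ?_
  intro x hx
  rw [Subgroup.mem_center_iff]
  intro y
  have h1 : (x : G) ∈ N := (QuotientGroup.eq_one_iff _).mp (congrArg Subtype.val (MonoidHom.mem_ker.mp hx))
  have h2 := congrArg Subtype.val (DFunLike.congr_fun (MonoidHom.mem_ker.mp (hker y.2)) ⟨x, h1⟩)
  exact Subtype.ext (mul_inv_eq_iff_eq_mul.mp h2)

/-- Let G be a finite solvable group with an automorphism σ satisfying σ⁴ = 1 and fixing only the identity. Then the derived subgroup G' is nilpotent. -/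
theorem result {G : Type*} [Group G] [Finite G] (hG : Group.IsSolvable G) (σ : MulAut G) (hσ : σ ^ 4 = 1) (hfpf : ∀ g : G, σ g = g → g = 1) : Group.IsNilpotent (commutator G) := by
  exact main _ G rfl hG σ hσ hfpf

end Cfsg.Agent.S3794
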