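import Cfsg.Statements.S3795
import Cfsg.Agent.Lib.TwoPowerFPF.Chain
import Cfsg.Agent.S3794
-- import your own Cfsg.Agent.* helpers here

set_option autoImplicit false
open Cfsg

namespace Cfsg.Agent.S3795

universe u

/-- A chain of the quotient by the Fitting subgroup gives one a step longer. -/
theorem chain_succ {G : Type u} [Group G] [Finite G] {n : ℕ}
    (h : ∃ F : Fin (n + 1) → Subgroup (G ⧸ fittingSubgroup G), F 0 = ⊥ ∧ F (Fin.last n) = ⊤ ∧ Monotone F ∧
      (∀ i, (F i).Normal) ∧ ∀ i : Fin n, ∃ k : ℕ, (F i.succ).lowerCentralSeries k ≤ F i.castSucc) :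
    ∃ F : Fin (n + 1 + 1) → Subgroup G, F 0 = ⊥ ∧ F (Fin.last (n + 1)) = ⊤ ∧ Monotone F ∧
      (∀ i, (F i).Normal) ∧ ∀ i : Fin (n + 1), ∃ k : ℕ, (F i.succ).lowerCentralSeries k ≤ F i.castSucc := by
  obtain ⟨F', h0, hlast, hmono, hnorm, hnil⟩ := h
  refine ⟨Fin.cons ⊥ fun i => (F' i).comap (QuotientGroup.mk' (fittingSubgroup G)), rfl, ?_, ?_, ?_, ?_⟩
  · rw [← Fin.succ_last, Fin.cons_succ, hlast, Subgroup.comap_top]
  · refine Fin.monotone_iff_le_succ.mpr fun i => ?_
    induction i using Fin.cases with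
    | zero => simp
    | succ i =>
      rw [← Fin.succ_castSucc, Fin.cons_succ, Fin.cons_succ]
      exact Subgroup.comap_mono (hmono (Fin.le_iff_val_le_val.mpr (by simp)))
  · intro i
    induction i using Fin.cases with
    | zero => rw [Fin.cons_zero]; infer_instance
    | succ i => rw [Fin.cons_succ]; exact (hnorm i).comap _
  · intro i
    induction i using Fin.cases with
    | zero =>
      rw [Fin.cons_succ, h0, MonoidHom.comap_bot, QuotientGroup.ker_mk', Fin.castSucc_zero, Fin.cons_zero]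
      obtain ⟨k, hk⟩ := (Subgroup.isNilpotent_iff_lowerCentralSeries _).mp
        (Lib.Hall.fittingSubgroup_isNilpotent (G := G))
      exact ⟨k, hk.le⟩
    | succ i =>
      rw [Fin.cons_succ, ← Fin.succ_castSucc, Fin.cons_succ]
      obtain ⟨k, hk⟩ := hnil i
      refine ⟨k, ?_⟩
      rw [← Subgroup.map_le_iff_le_comap, Subgroup.map_lowerCentralSeries,
        Subgroup.map_comap_eq_self_of_surjective (QuotientGroup.mk'_surjective (fittingSubgroup G))]
      exact hk

/-- The automorphism induced on the quotient by the Fitting subgroup. -/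
theorem exists_induced {G : Type u} [Group G] [Finite G] (σ : MulAut G) (hfpf : ∀ g : G, σ g = g → g = 1) :
    ∃ σ' : MulAut (G ⧸ fittingSubgroup G), (∀ c, σ' c = c → c = 1) ∧
      ∀ (i : ℕ) (g : G), (σ' ^ i) (g : G ⧸ fittingSubgroup G) = (((σ ^ i) g : G) : G ⧸ fittingSubgroup G) := by
  have hmap : (fittingSubgroup G).map σ.toMonoidHom = fittingSubgroup G :=
    Subgroup.characteristic_iff_map_eq.mp inferInstance σ
  let σ' : MulAut (G ⧸ fittingSubgroup G) := QuotientGroup.congr _ _ σ hmap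
  refine ⟨σ', fun c => ?_, fun i => ?_⟩
  · induction c using QuotientGroup.induction_on with
    | _ g => ?_
    intro hg
    have hg' : g⁻¹ * σ g ∈ fittingSubgroup G := QuotientGroup.eq.mp (hg.symm : (g : G ⧸ fittingSubgroup G) = _)
    exact (QuotientGroup.eq_one_iff g).mpr (S3794.mem_of_fixed σ hfpf _
      (fun k hk => hmap.le (Subgroup.mem_map_of_mem σ.toMonoidHom hk)) hg')
  · induction i with
    | zero => intro g; rfl
    | succ i ihi =>
      intro g
      rw [pow_succ', pow_succ', MulAut.mul_apply, MulAut.mul_apply, ihi]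
      rfl

theorem main : ∀ (k : ℕ) (G : Type u) [Group G] [Finite G], Group.IsSolvable G → ∀ σ : MulAut G,
    σ ^ 2 ^ (k + 2) = 1 → (∀ g : G, σ g = g → g = 1) →
    ∃ F : Fin (2 * k + 2 + 1) → Subgroup G, F 0 = ⊥ ∧ F (Fin.last (2 * k + 2)) = ⊤ ∧ Monotone F ∧
      (∀ i, (F i).Normal) ∧ ∀ i : Fin (2 * k + 2), ∃ c : ℕ, (F i.succ).lowerCentralSeries c ≤ F i.castSucc := by
  intro k
  induction k with
  | zero =>
    intro G _ _ hG σ hσ hfpf
    have hnil := S3794.result hG σ (by simpa using hσ) hfpf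
    refine ⟨![⊥, commutator G, ⊤], rfl, rfl, ?_, ?_, ?_⟩
    · refine Fin.monotone_iff_le_succ.mpr fun i => ?_
      fin_cases i <;> simp
    · intro i
      fin_cases i <;> (simp; try infer_instance)
    · intro i
      fin_cases i
      · obtain ⟨c, hc⟩ := (Subgroup.isNilpotent_iff_lowerCentralSeries _).mp hnil
        exact ⟨c, hc.le⟩
      · refine ⟨1, ?_⟩
        show (⊤ : Subgroup G).lowerCentralSeries 1 ≤ commutator G
        rw [commutator_def]
        exact le_of_eq (by simp)
  | succ k ih =>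
    intro G _ _ hG σ hσ hfpf
    haveI := hG
    have hstep := Lib.TwoPowerFPF.mem_sndFitting hG σ (n := k + 3) (by omega) hσ hfpf
    obtain ⟨σ1, hfpf1, hσ1⟩ := exists_induced σ hfpf
    obtain ⟨σ2, hfpf2, hσ2⟩ := exists_induced σ1 hfpf1
    have hG1 : Group.IsSolvable (G ⧸ fittingSubgroup G) :=
      Group.isSolvable_of_surjective (QuotientGroup.mk'_surjective _)
    have h2 := ih _ (Group.isSolvable_of_surjective (QuotientGroup.mk'_surjective
      (fittingSubgroup (G ⧸ fittingSubgroup G)))) σ2 (by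
        refine MulEquiv.ext fun z => QuotientGroup.induction_on z fun w => QuotientGroup.induction_on w fun g => ?_
        rw [hσ2, hσ1, MulAut.one_apply]
        have h := hstep g
        exact (QuotientGroup.eq.mpr (show ((g : G ⧸ fittingSubgroup G))⁻¹ * _ ∈ _ from h)).symm) hfpf2
    exact chain_succ (chain_succ h2)

/-- Gross's Theorem: let G be a finite solvable group with an automorphism σ of order 2^n, n > 1, fixing only the identity. Then G has Fitting height at most 2n − 2: G has Fitting height at most m when there is a chain of normal subgroups 1 = F₀ ≤ F₁ ≤ ⋯ ≤ F_m = G with each F_{i+1}/F_i nilpotent. -/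
theorem result {G : Type*} [Group G] [Finite G] (hG : Group.IsSolvable G) (σ : MulAut G) (n : ℕ) (hn : 1 < n) (hσ : orderOf σ = 2 ^ n) (hfpf : ∀ g : G, σ g = g → g = 1) : ∃ F : Fin ((2 * n - 2) + 1) → Subgroup G, F 0 = ⊥ ∧ F (Fin.last (2 * n - 2)) = ⊤ ∧ Monotone F ∧ (∀ i, (F i).Normal) ∧ ∀ i : Fin (2 * n - 2), ∃ k : ℕ, (F i.succ).lowerCentralSeries k ≤ F i.castSucc := by
  obtain ⟨k, rfl⟩ : ∃ k, n = k + 2 := ⟨n - 2, by omega⟩
  rw [show 2 * (k + 2) - 2 = 2 * k + 2 by omega]
  exact main k G hG σ (hσ ▸ pow_orderOf_eq_one σ) hfpf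

end Cfsg.Agent.S3795
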