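import Cfsg.Statements.S3796
import Cfsg.Agent.Lib.FitHeight.Ward
import Cfsg.Agent.Lib.FitHeight.Semidirect

set_option autoImplicit false
open Cfsg

namespace Cfsg.Agent.S3796

universe u

theorem coprime_of_fpf {G : Type u} [Group G] [Finite G] {p : ℕ} (hp : p.Prime) (A : Subgroup (MulAut G))
    (hcard : Nat.card A = p ^ 2) (hfpf : ∀ g : G, (∀ a ∈ A, a g = g) → g = 1) :
    (Nat.card A).Coprime (Nat.card G) := by
  have : Fact p.Prime := ⟨hp⟩
  rw [hcard]
  refine Nat.Coprime.pow_left 2 (hp.coprime_iff_not_dvd.mpr fun hd => ?_)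
  have hfix : Nat.card (MulAction.fixedPoints A G) = 1 := by
    have hs : MulAction.fixedPoints A G = {1} :=
      Set.ext fun g => ⟨fun hg => hfpf g fun a ha => hg ⟨a, ha⟩, fun hg a => by
        rw [Set.mem_singleton_iff.mp hg]; exact map_one (a : MulAut G)⟩
    rw [hs, Nat.card_coe_set_eq, Set.ncard_singleton]
  have h := (IsPGroup.of_card (p := p) (n := 2) hcard).card_modEq_card_fixedPoints G
  rw [hfix, Nat.ModEq, Nat.mod_eq_of_lt hp.one_lt, Nat.mod_eq_zero_of_dvd hd] at h
  exact zero_ne_one h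

theorem chain_of_nilpotent_lcs {G : Type u} [Group G] {k : ℕ}
    (h : Group.IsNilpotent ((⊤ : Subgroup G).lowerCentralSeries k)) :
    ∃ F : Fin (2 + 1) → Subgroup G, F 0 = ⊥ ∧ F (Fin.last 2) = ⊤ ∧ Monotone F ∧ (∀ i, (F i).Normal) ∧
      ∀ i : Fin 2, ∃ k : ℕ, (F i.succ).lowerCentralSeries k ≤ F i.castSucc := by
  obtain ⟨j, hj⟩ := (Subgroup.isNilpotent_iff_lowerCentralSeries _).mp h
  have hn : ((⊤ : Subgroup G).lowerCentralSeries k).Normal := inferInstance
  refine ⟨![⊥, (⊤ : Subgroup G).lowerCentralSeries k, ⊤], rfl, rfl, ?_, ?_, ?_⟩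
  · refine Fin.monotone_iff_le_succ.mpr fun i => ?_
    fin_cases i
    · exact bot_le
    · exact le_top
  · intro i
    fin_cases i
    · exact (inferInstance : (⊥ : Subgroup G).Normal)
    · exact hn
    · exact (inferInstance : (⊤ : Subgroup G).Normal)
  · intro i
    fin_cases i
    · exact ⟨j, hj.le⟩
    · exact ⟨k, le_refl _⟩


/-- Ward's Theorem: let G be a finite solvable group and A an elementary abelian group of automorphisms of G of order p² (p a prime) with no non-identity common fixed point. Then G has Fitting height at most 2: G has Fitting height at most m when there is a chain of normal subgroups 1 = F₀ ≤ F₁ ≤ ⋯ ≤ F_m = G with each F_{i+1}/F_i nilpotent. -/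
theorem result {G : Type*} [Group G] [Finite G] (hG : Group.IsSolvable G) {p : ℕ} (hp : p.Prime) (A : Subgroup (MulAut G)) (hA : Cfsg.IsElementaryAbelian p A) (hcard : Nat.card A = p ^ 2) (hfpf : ∀ g : G, (∀ a ∈ A, a g = g) → g = 1) : ∃ F : Fin (2 + 1) → Subgroup G, F 0 = ⊥ ∧ F (Fin.last 2) = ⊤ ∧ Monotone F ∧ (∀ i, (F i).Normal) ∧ ∀ i : Fin 2, ∃ k : ℕ, (F i.succ).lowerCentralSeries k ≤ F i.castSucc := by
  have : Fact p.Prime := ⟨hp⟩
  have := Fintype.ofFinite G
  have hcop : (Nat.card A).Coprime (Nat.card G) := coprime_of_fpf hp A hcard hfpf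
  have hAc : ∀ a b : A, a * b = b * a := hA.1.is_comm.comm
  have : Group.IsSolvable A := Group.isSolvable_of_comm hAc
  have S := Lib.FitHeight.setting_semidirect A.subtype
    (P := Lib.FitHeight.IsElemSq p) (fun e h => Lib.FitHeight.isElemSq_equiv p e h)
    ⟨hAc, fun a => Subtype.ext (hA.2 a a.2), hcard⟩ hcop (fun g hg => hfpf g fun a ha => hg ⟨a, ha⟩)
  have : Finite (G ⋊[A.subtype] A) := Finite.of_equiv _ SemidirectProduct.equivProd.symm
  obtain ⟨k, hk⟩ := Lib.FitHeight.ward hp S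
  exact chain_of_nilpotent_lcs (Lib.FitHeight.isNilpotent_lcs_of_range A.subtype hk)

end Cfsg.Agent.S3796
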