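import Cfsg.Statements.S3798
import Cfsg.Agent.Lib.PLength.Basic
import Cfsg.Agent.Lib.LocalFusion.PSolvable
import Cfsg.Agent.Lib.OddLocal.PLengthOne
import Cfsg.Agent.Lib.Coprime.Action
import Mathlib

set_option autoImplicit false
open Cfsg

namespace Cfsg.Agent.S3798


open Subgroup
open scoped Pointwise

/-- the core of the argument, with trivial `p'`-core -/
lemma main {X : Type*} [Group X] [Finite X] {p : ℕ} [hp : Fact p.Prime] (hp2 : p ≠ 2) (hdvd : p ∣ Nat.card X)
    (hS : IsPSolvable p X) (hred : pPrimeCore p X = ⊥)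
    (htrans : ∀ U V : Subgroup X, Nat.card U = p → Nat.card V = p → ∃ a : MulAut X, U.map a.toMonoidHom = V) :
    ¬ p ∣ (pCore p X).index := by
  set Q := pCore p X with hQ
  haveI : Q.Normal := Lib.Hall.pCore_normal p
  have hQp : IsPGroup p Q := Lib.Hall.isPGroup_pCore p
  have hCQ := Lib.LocalFusion.centralizer_pCore_le_of_isPSolvable hS hred
  have hQne : Q ≠ ⊥ := by
    intro h
    have hC : centralizer (Q : Set X) = ⊤ := by
      rw [h, eq_top_iff]
      intro x _
      rw [mem_centralizer_iff]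
      intro y hy
      rw [SetLike.mem_coe, mem_bot] at hy
      simp [hy]
    have htop := hC ▸ hCQ
    rw [← hQ, h, top_le_iff] at htop
    rw [← card_top (G := X), ← htop, card_bot] at hdvd
    exact hp.out.one_lt.ne' (Nat.dvd_one.mp hdvd)
  haveI : Nontrivial Q := (nontrivial_iff_ne_bot _).mpr hQne
  haveI := hQp.center_nontrivial
  have hfix : ∀ a : MulAut X, Q.map a.toMonoidHom = Q := fun a => Lib.Hall.map_pCore_equiv p a
  -- all elements of order `p` lie in the centre of `Q`
  obtain ⟨z, hz⟩ : ∃ z : center Q, orderOf z = p := by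
    apply exists_prime_orderOf_dvd_card'
    obtain ⟨k, hk⟩ := IsPGroup.iff_card.mp (hQp.to_subgroup (center Q))
    have h1 : k ≠ 0 := by
      rintro rfl
      exact absurd hk (by rw [pow_zero]; exact Finite.one_lt_card.ne')
    rw [hk]
    exact dvd_pow_self p h1
  let z0 : X := ((z : Q) : X)
  have hz0 : orderOf z0 = p := by rw [orderOf_coe, orderOf_coe, hz]
  have horder : ∀ x : X, x ≠ 1 → x ^ p = 1 → ∃ a : MulAut X, ∃ k : ℤ, a (z0 ^ k) = x := by
    intro x hx1 hx
    obtain ⟨a, ha⟩ := htrans (zpowers z0) (zpowers x) (by rw [Nat.card_zpowers, hz0])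
      (by rw [Nat.card_zpowers, orderOf_eq_prime hx hx1])
    have : x ∈ (zpowers z0).map a.toMonoidHom := ha ▸ mem_zpowers x
    obtain ⟨w, hw, rfl⟩ := this
    obtain ⟨k, rfl⟩ := mem_zpowers_iff.mp hw
    exact ⟨a, k, rfl⟩
  have hE : ∀ x : X, x ^ p = 1 → x ∈ Q ∧ ∀ q ∈ Q, q * x = x * q := by
    intro x hx
    by_cases hx1 : x = 1
    · subst hx1; simp
    obtain ⟨a, k, rfl⟩ := horder x hx1 hx
    refine ⟨(hfix a) ▸ mem_map_of_mem a.toMonoidHom (zpow_mem (SetLike.coe_mem _) k), fun q hq => ?_⟩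
    obtain ⟨q0, hq0, rfl⟩ : ∃ q0 ∈ Q, a q0 = q := by
      rw [← hfix a] at hq
      exact hq
    rw [← map_mul, ← map_mul]
    congr 1
    have hc : Commute q0 z0 := congrArg Subtype.val (mem_center_iff.mp z.2 ⟨q0, hq0⟩)
    exact hc.zpow_right k
  intro hdv
  haveI : Finite (X ⧸ Q) := inferInstance
  -- the `p'`-core of `X / Q`
  set L := (pPrimeCore p (X ⧸ Q)).comap (QuotientGroup.mk' Q) with hL
  haveI : L.Normal := (Lib.Hall.pPrimeCore_normal p).comap _
  have hLfix : ∀ a : MulAut X, ∀ x ∈ L, a x ∈ L := by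
    intro a x hx
    have h1 := Lib.Hall.map_pPrimeCore_equiv p (QuotientGroup.congr Q Q a (hfix a))
    rw [hL, mem_comap, ← h1]
    exact ⟨QuotientGroup.mk' Q x, hx, rfl⟩
  have hLne : pPrimeCore p (X ⧸ Q) ≠ ⊥ := by
    intro h
    have hC := Lib.LocalFusion.centralizer_pCore_le_of_isPSolvable
      (Lib.PLength.isPSolvable_map (QuotientGroup.mk'_surjective Q) hS) h
    rw [Lib.PLength.pCore_quotient_pCore_eq_bot] at hC
    have : (⊤ : Subgroup (X ⧸ Q)) ≤ ⊥ := le_trans (fun x _ => mem_centralizer_iff.mpr fun y hy => by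
      rw [SetLike.mem_coe, mem_bot] at hy
      simp [hy]) hC
    rw [top_le_iff] at this
    rw [index_eq_card, ← card_top (G := X ⧸ Q), ← this, card_bot] at hdv
    exact hp.out.one_lt.ne' (Nat.dvd_one.mp hdv)
  have hQL : Q ≤ L := fun x hx => by
    rw [hL, mem_comap, show QuotientGroup.mk' Q x = 1 from (QuotientGroup.eq_one_iff x).mpr hx]
    exact one_mem _
  obtain ⟨j, hj⟩ := IsPGroup.iff_card.mp hQp
  have hcardL : Nat.card L = Nat.card (pPrimeCore p (X ⧸ Q)) * Nat.card Q := by
    have h := Lib.Coprime.card_map_mk' Q L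
    rw [hL, map_comap_eq_self_of_surjective (QuotientGroup.mk'_surjective Q), inf_eq_right.mpr hQL] at h
    exact h.symm
  have hidx : (Q.subgroupOf L).index = Nat.card (pPrimeCore p (X ⧸ Q)) := by
    have h := (Q.subgroupOf L).index_mul_card
    rw [Lib.Coprime.card_subgroupOf hQL, hcardL] at h
    exact Nat.eq_of_mul_eq_mul_right Nat.card_pos h
  have hcop : (Nat.card (pPrimeCore p (X ⧸ Q))).Coprime (Nat.card Q) := by
    rw [hj]
    exact (Lib.Hall.coprime_card_pPrimeCore p).pow_right j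
  obtain ⟨B, hB⟩ := exists_right_complement'_of_coprime (N := Q.subgroupOf L) (by
    rw [hidx, Lib.Coprime.card_subgroupOf hQL]
    exact hcop.symm)
  set K := B.map L.subtype
  have hKcard : Nat.card K = Nat.card (pPrimeCore p (X ⧸ Q)) := by
    rw [Nat.card_congr (B.equivMapOfInjective _ L.subtype_injective).toEquiv.symm, ← hidx,
      hB.symm.index_eq_card]
  have hKL : K ≤ L := map_subtype_le B
  have hKQ : (Nat.card K).Coprime (Nat.card Q) := hKcard ▸ hcop
  have hKn : K ≤ normalizer (Q : Set X) := by rw [normalizer_eq_top]; exact le_top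
  have hKsup : K ⊔ Q = L := by
    refine eq_of_le_of_card_ge (sup_le hKL hQL) (le_of_eq ?_)
    rw [Lib.Coprime.card_sup_of_coprime hKn hKQ, hKcard, hcardL]
  haveI : Group.IsNilpotent Q := hQp.isNilpotent
  -- Frattini argument
  have hF : Q ⊔ normalizer (K : Set X) = ⊤ := by
    rw [eq_top_iff]
    intro g _
    obtain ⟨n, hn, hnK⟩ := Lib.Coprime.exists_conj_eq_of_le_sup hKn hKQ (Or.inr inferInstance)
      (B := MulAut.conj g • K) (by
        rw [hKsup, ← Lib.Coprime.conj_smul_of_normal L g]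
        exact Subgroup.pointwise_smul_le_pointwise_smul_iff.mpr hKL) (Lib.Coprime.card_conj_smul g K)
    have h1 : n⁻¹ * g ∈ normalizer (K : Set X) := Lib.Coprime.mem_normalizer_of_conj_smul_eq (by
      rw [Lib.Coprime.conj_smul_mul, ← hnK, Lib.Coprime.conj_inv_smul_smul])
    simpa using mul_mem_sup hn h1
  by_cases hfpf : Q ⊓ centralizer (K : Set X) = ⊥
  · -- `N(K)` is a complement to `Q`
    have hdisj : Q ⊓ normalizer (K : Set X) = ⊥ := by
      rw [eq_bot_iff, ← hfpf]
      refine fun n hn => ⟨hn.1, mem_centralizer_iff.mpr fun k hk => ?_⟩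
      have h1 : n * k * n⁻¹ * k⁻¹ ∈ K ⊓ Q := by
        refine ⟨K.mul_mem ((mem_normalizer_iff.mp hn.2 k).mp hk) (K.inv_mem hk), ?_⟩
        have := Q.mul_mem hn.1 (‹Q.Normal›.conj_mem _ (Q.inv_mem hn.1) k)
        simpa [mul_assoc] using this
      rw [Lib.Coprime.inf_eq_bot_of_coprime hKQ, mem_bot, mul_inv_eq_one, mul_inv_eq_iff_eq_mul] at h1
      exact h1.symm
    have hcardN : Nat.card (normalizer (K : Set X)) = Q.index := by
      have h := Lib.Coprime.card_sup_mul_card_inf Q (normalizer (K : Set X))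
      rw [sup_comm, hF, inf_comm, hdisj, card_top, card_bot, mul_one, ← Q.index_mul_card] at h
      exact (Nat.eq_of_mul_eq_mul_right Nat.card_pos h).symm
    obtain ⟨x, hx⟩ := exists_prime_orderOf_dvd_card' (G := normalizer (K : Set X)) p (hcardN ▸ hdv)
    have hx' : (x : X) ^ p = 1 := by rw [← SubgroupClass.coe_pow, ← hx, pow_orderOf_eq_one]; rfl
    have h1 : (x : X) ∈ Q ⊓ normalizer (K : Set X) := ⟨(hE _ hx').1, x.2⟩
    rw [hdisj, mem_bot, OneMemClass.coe_eq_one] at h1
    rw [h1, orderOf_one] at hx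
    exact hp.out.one_lt.ne hx
  · -- some element of order `p` is fixed by `K`, hence all are
    obtain ⟨w, hwne⟩ : ∃ w : ↥(Q ⊓ centralizer (K : Set X) : Subgroup X), orderOf w = p := by
      apply exists_prime_orderOf_dvd_card'
      obtain ⟨k, hk⟩ := IsPGroup.iff_card.mp (hQp.to_le (inf_le_left : Q ⊓ centralizer (K : Set X) ≤ Q))
      have h1 : k ≠ 0 := by
        rintro rfl
        exact hfpf ((card_eq_one).mp (by rw [hk, pow_zero]))
      rw [hk]
      exact dvd_pow_self p h1
    have hw1 : (w : X) ≠ 1 := by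
      intro h
      rw [← orderOf_coe, h, orderOf_one] at hwne
      exact hp.out.one_lt.ne hwne
    have hwp : (w : X) ^ p = 1 := by rw [← SubgroupClass.coe_pow, ← hwne, pow_orderOf_eq_one]; rfl
    have hwL : L ≤ centralizer ({(w : X)} : Set X) := by
      rw [← hKsup]
      refine sup_le (fun k hk => ?_) (fun q hq => ?_)
      · exact mem_centralizer_singleton_iff.mpr (mem_centralizer_iff.mp w.2.2 k hk)
      · exact mem_centralizer_singleton_iff.mpr ((hE _ hwp).2 q hq)
    have hall : ∀ y : X, y ^ p = 1 → ∀ l ∈ L, l * y = y * l := by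
      intro y hy l hl
      by_cases hy1 : y = 1
      · subst hy1; simp
      obtain ⟨a, ha⟩ := htrans (zpowers (w : X)) (zpowers y) (by rw [Nat.card_zpowers, orderOf_coe, hwne])
        (by rw [Nat.card_zpowers, orderOf_eq_prime hy hy1])
      obtain ⟨u, hu, hua⟩ : y ∈ (zpowers (w : X)).map a.toMonoidHom := ha ▸ mem_zpowers y
      obtain ⟨k, rfl⟩ := mem_zpowers_iff.mp hu
      have h1 : Commute (a.symm l) ((w : X) ^ k) :=
        Commute.zpow_right (mem_centralizer_singleton_iff.mp (hwL (hLfix a.symm l hl))) k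
      have h2 := congrArg a h1.eq
      rw [map_mul, map_mul, MulEquiv.apply_symm_apply] at h2
      rw [← hua]
      exact h2
    have hKC := Lib.OddLocal.le_centralizer_of_fix_order_p p hp2 (hKcard ▸ Lib.Hall.coprime_card_pPrimeCore p)
      hQp hKn (fun x _ hx k hk => hall x hx k (hKL hk))
    have : K = ⊥ := by
      rw [← Lib.Coprime.inf_eq_bot_of_coprime hKQ, inf_eq_left.mpr (hKC.trans hCQ)]
    rw [this, card_bot] at hKcard
    exact hLne (card_eq_one.mp hKcard.symm)

/-- The Gaschütz–Yen Theorem: let G be a finite p-soluble group, p an odd prime dividing its order, such that the automorphism group of G permutes the subgroups of G of order p transitively. Then G has p-length at most 1. -/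
theorem result {G : Type*} [Group G] [Finite G] {p : ℕ} [Fact p.Prime] (hp : p ≠ 2) (hdvd : p ∣ Nat.card G) (hG : Cfsg.IsPSolvable p G) (htrans : ∀ U V : Subgroup G, Nat.card U = p → Nat.card V = p → ∃ a : MulAut G, U.map a.toMonoidHom = V) : Cfsg.PLengthLE p 1 G := by
  apply Lib.PLength.pLengthLE_one
  set N := pPrimeCore p G
  have hpN : ¬ p ∣ Nat.card N := Lib.Hall.not_dvd_card_pPrimeCore Fact.out
  refine main hp ?_ (Lib.PLength.isPSolvable_map (QuotientGroup.mk'_surjective N) hG)
    (Lib.OddLocal.pPrimeCore_quotient_eq_bot p) ?_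
  · rw [← N.index_eq_card]
    exact ((Fact.out : p.Prime).dvd_mul.mp (N.index_mul_card ▸ hdvd)).resolve_right hpN
  intro U V hU hV
  have lift : ∀ W : Subgroup (G ⧸ N), Nat.card W = p →
      ∃ W' : Subgroup G, Nat.card W' = p ∧ W'.map (QuotientGroup.mk' N) = W := by
    intro W hW
    set M := W.comap (QuotientGroup.mk' N)
    have hpM : p ∣ Nat.card M := by
      have h := Lib.Coprime.card_map_mk' N M
      rw [Subgroup.map_comap_eq_self_of_surjective (QuotientGroup.mk'_surjective N), hW] at h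
      exact Dvd.intro _ h
    obtain ⟨u, hu⟩ := exists_prime_orderOf_dvd_card' p hpM
    refine ⟨Subgroup.zpowers (u : G), by rw [Nat.card_zpowers, Subgroup.orderOf_coe, hu], ?_⟩
    refine Subgroup.eq_of_le_of_card_ge (Subgroup.map_le_iff_le_comap.mpr (Subgroup.zpowers_le.mpr u.2)) ?_
    have h := Lib.Coprime.card_map_mk' N (Subgroup.zpowers (u : G))
    rw [Nat.card_zpowers, Subgroup.orderOf_coe, hu] at h
    rcases (Fact.out : p.Prime).eq_one_or_self_of_dvd _ (Dvd.intro _ h) with h1 | h1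
    · rw [h1, one_mul] at h
      exact absurd (h ▸ Subgroup.card_dvd_of_le inf_le_right) hpN
    · rw [hW, h1]
  obtain ⟨U', hU', rfl⟩ := lift U hU
  obtain ⟨V', hV', rfl⟩ := lift V hV
  obtain ⟨a, rfl⟩ := htrans U' V' hU' hV'
  refine ⟨QuotientGroup.congr N N a (Lib.Hall.map_pPrimeCore_equiv p a), ?_⟩
  rw [Subgroup.map_map, Subgroup.map_map]
  congr 1

end Cfsg.Agent.S3798
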