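import Cfsg.Statements.S3799
import Cfsg.Agent.Lib.PGroupFrattini
import Cfsg.Agent.Lib.LocalChar.Frattini

set_option autoImplicit false
open Cfsg

namespace Cfsg.Agent.S3799

open Matrix
open scoped commutatorElement

variable {p : ℕ} [Fact p.Prime] {n : ℕ}

/-- the index type of the block form -/
abbrev I (n : ℕ) : Type := Unit ⊕ (Fin n ⊕ Unit)

/-- the index equivalence -/
noncomputable def eI (n : ℕ) : I n ≃ Fin (n + 2) :=
  Fintype.equivOfCardEq (by simp [I]; omega)

/-- parameters of an element -/
abbrev T (p n : ℕ) : Type := (Fin n → ZMod p) × (Fin n → ZMod p) × ZMod p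

/-- the product of parameters -/
def tmul (s t : T p n) : T p n :=
  (s.1 + t.1, s.2.1 + t.2.1, s.2.2 + t.2.2 + dotProduct s.1 t.2.1)

/-- the inverse of parameters -/
def tinv (s : T p n) : T p n := (-s.1, -s.2.1, -s.2.2 + dotProduct s.1 s.2.1)

/-- the unitriangular matrix -/
def hm (t : T p n) : Matrix (I n) (I n) (ZMod p) :=
  fromBlocks 1 (of fun _ j => Sum.elim t.1 (fun _ => t.2.2) j) 0
    (fromBlocks 1 (of fun i _ => t.2.1 i) 0 1)

lemma hm_mul (s t : T p n) : hm s * hm t = hm (tmul s t) := by
  unfold hm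
  rw [fromBlocks_multiply, fromBlocks_multiply]
  simp only [Matrix.one_mul, Matrix.mul_one, Matrix.mul_zero, Matrix.zero_mul, add_zero, zero_add]
  congr 1
  · ext i j
    rcases j with j | j
    · simp [tmul, mul_apply, one_apply, Fintype.sum_sum_type, add_comm]
    · simp [tmul, mul_apply, dotProduct, Fintype.sum_sum_type]
      ring
  · congr 1
    ext i j
    simp [tmul, add_comm]

lemma hm_zero : hm (0 : T p n) = 1 := by
  unfold hm
  rw [← fromBlocks_one, ← fromBlocks_one]
  congr 1
  · ext i j; rcases j with j | j <;> simp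

lemma hm_injective : Function.Injective (hm : T p n → _) := by
  intro s t h
  have h1 : s.1 = t.1 := funext fun j => by
    simpa [hm] using congrFun (congrFun h (Sum.inl ())) (Sum.inr (Sum.inl j))
  have h2 : s.2.1 = t.2.1 := funext fun i => by
    simpa [hm] using congrFun (congrFun h (Sum.inr (Sum.inl i))) (Sum.inr (Sum.inr ()))
  have h3 : s.2.2 = t.2.2 := by
    simpa [hm] using congrFun (congrFun h (Sum.inl ())) (Sum.inr (Sum.inr ()))
  exact Prod.ext h1 (Prod.ext h2 h3)

lemma tmul_tinv (s : T p n) : tmul s (tinv s) = 0 := by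
  simp only [tmul, tinv, dotProduct_neg]
  refine Prod.ext (add_neg_cancel _) (Prod.ext (add_neg_cancel _) ?_)
  simp

lemma tinv_tmul (s : T p n) : tmul (tinv s) s = 0 := by
  simp only [tmul, tinv, neg_dotProduct]
  refine Prod.ext (neg_add_cancel _) (Prod.ext (neg_add_cancel _) ?_)
  simp

/-- the element of the general linear group -/
noncomputable def el (t : T p n) : Matrix.GeneralLinearGroup (Fin (n + 2)) (ZMod p) where
  val := reindexAlgEquiv (ZMod p) (ZMod p) (eI n) (hm t)
  inv := reindexAlgEquiv (ZMod p) (ZMod p) (eI n) (hm (tinv t))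
  val_inv := by rw [← map_mul, hm_mul, tmul_tinv, hm_zero, map_one]
  inv_val := by rw [← map_mul, hm_mul, tinv_tmul, hm_zero, map_one]

lemma el_mul (s t : T p n) : el s * el t = el (tmul s t) :=
  Units.ext (by
    show reindexAlgEquiv (ZMod p) (ZMod p) (eI n) (hm s) * _ = _
    rw [el, el, ← map_mul, hm_mul])

lemma el_zero : el (0 : T p n) = 1 :=
  Units.ext (by
    show reindexAlgEquiv (ZMod p) (ZMod p) (eI n) (hm 0) = 1
    rw [hm_zero, map_one])

lemma el_injective : Function.Injective (el : T p n → _) := fun _ _ h =>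
  hm_injective ((reindexAlgEquiv (ZMod p) (ZMod p) (eI n)).injective (congrArg Units.val h))

lemma el_inv (s : T p n) : (el s)⁻¹ = el (tinv s) :=
  inv_eq_of_mul_eq_one_right (by rw [el_mul, tmul_tinv, el_zero])

/-- the Heisenberg group -/
noncomputable def heis (p n : ℕ) [Fact p.Prime] :
    Subgroup (Matrix.GeneralLinearGroup (Fin (n + 2)) (ZMod p)) where
  carrier := Set.range el
  one_mem' := ⟨0, el_zero⟩
  mul_mem' := by rintro _ _ ⟨s, rfl⟩ ⟨t, rfl⟩; exact ⟨tmul s t, (el_mul s t).symm⟩
  inv_mem' := by rintro _ ⟨s, rfl⟩; exact ⟨tinv s, (el_inv s).symm⟩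

lemma el_pow (s : T p n) (k : ℕ) :
    el s ^ k = el (k • s.1, k • s.2.1, k • s.2.2 + (k.choose 2) • dotProduct s.1 s.2.1) := by
  induction k with
  | zero => simp only [pow_zero, zero_smul, Nat.choose_zero_succ, add_zero]; exact el_zero.symm
  | succ k ih =>
    rw [pow_succ, ih, el_mul]
    congr 1
    refine Prod.ext (succ_nsmul _ _).symm (Prod.ext (succ_nsmul _ _).symm ?_)
    simp only [tmul, smul_dotProduct, Nat.choose_succ_succ' k 1, Nat.choose_one_right, add_smul,
      succ_nsmul]
    abel


/-- For every odd prime p and every n ≥ 1 there is an extraspecial p-group of order p^(1+2n) and exponent p; concretely, the general linear group of degree n + 2 over the field with p elements contains such a subgroup. -/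
theorem result (p : ℕ) [Fact p.Prime] (hp : p ≠ 2) (n : ℕ) (hn : 1 ≤ n) : ∃ E : Subgroup (Matrix.GeneralLinearGroup (Fin (n + 2)) (ZMod p)), Cfsg.IsExtraspecial p ↥E ∧ Nat.card E = p ^ (1 + 2 * n) ∧ ∀ x ∈ E, x ^ p = 1 := by
  have hp1 := (Fact.out : p.Prime)
  have hcard : Nat.card (heis p n) = p ^ (1 + 2 * n) := by
    have e : T p n ≃ ↥(heis p n) := Equiv.ofInjective el el_injective
    rw [← Nat.card_congr e]
    simp only [Nat.card_prod, Nat.card_fun, Nat.card_eq_fintype_card (α := Fin n),
      Fintype.card_fin, Nat.card_zmod]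
    rw [pow_add, pow_one, two_mul, pow_add]
    ring
  have hexp : ∀ x ∈ heis p n, x ^ p = 1 := by
    rintro _ ⟨s, rfl⟩
    rw [el_pow]
    have h2 : p ∣ p.choose 2 := hp1.dvd_choose_self two_ne_zero
      (lt_of_le_of_ne hp1.two_le (Ne.symm hp))
    have hz : ∀ (m : ℕ) (a : ZMod p), p ∣ m → m • a = 0 := fun m a hm => by
      rw [nsmul_eq_mul, (ZMod.natCast_eq_zero_iff m p).mpr hm, zero_mul]
    rw [show p • s.1 = 0 from funext fun i => hz p _ dvd_rfl,
      show p • s.2.1 = 0 from funext fun i => hz p _ dvd_rfl, hz p _ dvd_rfl, hz _ _ h2, add_zero]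
    exact el_zero
  set E := heis p n
  have hE : IsPGroup p E := IsPGroup.of_card hcard
  let g : T p n → E := fun t => ⟨el t, t, rfl⟩
  have hg : Function.Surjective g := by
    rintro ⟨_, t, rfl⟩; exact ⟨t, rfl⟩
  have hginj : Function.Injective g := fun s t h => el_injective (congrArg Subtype.val h)
  have hgm : ∀ s t, g s * g t = g (tmul s t) := fun s t => Subtype.ext (el_mul s t)
  have hcent : ∀ t, g t ∈ Subgroup.center E ↔ t.1 = 0 ∧ t.2.1 = 0 := by
    intro t
    rw [Subgroup.mem_center_iff]
    constructor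
    · intro h
      constructor
      · funext i
        have h1 := h (g (0, Pi.single i 1, 0))
        rw [hgm, hgm] at h1
        have h2 := congrArg (fun z => z.2.2) (hginj h1)
        simpa [tmul] using h2.symm
      · funext i
        have h1 := h (g (Pi.single i 1, 0, 0))
        rw [hgm, hgm] at h1
        have h2 := congrArg (fun z => z.2.2) (hginj h1)
        simpa [tmul] using h2
    · rintro ⟨h1, h2⟩ z
      obtain ⟨s, rfl⟩ := hg z
      rw [hgm, hgm]
      congr 1
      simp [tmul, h1, h2, add_comm]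
  have hZ : Nat.card (Subgroup.center E) = p := by
    have e : ZMod p ≃ Subgroup.center E := Equiv.ofBijective
      (fun c => ⟨g (0, 0, c), (hcent _).mpr ⟨rfl, rfl⟩⟩) ⟨fun c d h => by
        simpa using congrArg (fun z => z.2.2) (hginj (congrArg Subtype.val h)), fun z => by
        obtain ⟨t, ht⟩ := hg z.1
        have h3 := (hcent t).mp (ht ▸ z.2)
        exact ⟨t.2.2, Subtype.ext (by rw [← ht]; exact congrArg g (Prod.ext h3.1.symm (Prod.ext h3.2.symm rfl)))⟩⟩
    rw [← Nat.card_congr e, Nat.card_zmod]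
  have hle : commutator E ≤ Subgroup.center E := by
    rw [commutator_def, Subgroup.commutator_le]
    intro x _ y _
    obtain ⟨s, rfl⟩ := hg x
    obtain ⟨t, rfl⟩ := hg y
    obtain ⟨r, hr⟩ := hg ⁅g s, g t⁆
    rw [← hr, hcent]
    have h1 : g (tmul r (tmul t s)) = g (tmul s t) := by
      rw [← hgm, ← hgm, ← hgm, hr, commutatorElement_def]; group
    have h2 := hginj h1
    have ha := congrArg (fun z => z.1) h2
    have hb := congrArg (fun z => z.2.1) h2
    simp only [tmul] at ha hb
    rw [add_comm t.1, add_eq_right] at ha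
    rw [add_comm t.2.1, add_eq_right] at hb
    exact ⟨ha, hb⟩
  have hne : commutator E ≠ ⊥ := by
    intro h
    have h1 : ∀ x y : E, x * y = y * x := by
      intro x y
      have : ⁅x, y⁆ ∈ commutator E := by
        rw [commutator_def]; exact Subgroup.commutator_mem_commutator (Subgroup.mem_top _) (Subgroup.mem_top _)
      rw [h, Subgroup.mem_bot, commutatorElement_eq_one_iff_mul_comm] at this
      exact this
    have h2 : g (Pi.single ⟨0, hn⟩ 1, 0, 0) ∈ Subgroup.center E :=
      Subgroup.mem_center_iff.mpr fun z => h1 z _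
    have h3 := congrFun ((hcent _).mp h2).1 ⟨0, hn⟩
    simp at h3
  have heq : commutator E = Subgroup.center E := by
    haveI : Fact (Nat.card (Subgroup.center E)).Prime := ⟨hZ.symm ▸ hp1⟩
    rcases ((commutator E).subgroupOf (Subgroup.center E)).eq_bot_or_eq_top_of_prime_card with h | h
    · rw [Subgroup.subgroupOf_eq_bot, disjoint_iff, inf_eq_left.mpr hle] at h
      exact absurd h hne
    · exact le_antisymm hle (Subgroup.subgroupOf_eq_top.mp h)
  refine ⟨E, ⟨⟨hE, le_antisymm ?_ ?_, heq⟩, hZ⟩, hcard, hexp⟩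
  · refine Cfsg.Agent.Lib.LocalChar.frattini_le_of_pow_commutator (p := p) (fun a => ?_) hle
    rw [show a ^ p = 1 from Subtype.ext (by simpa using hexp a a.2)]
    exact one_mem _
  · rw [← heq]; exact Cfsg.Agent.Lib.PGroupFrattini.commutator_le_frattini hE

end Cfsg.Agent.S3799
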