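import Cfsg.Statements.S3800
import Cfsg.Agent.Lib.Coprime.Action
import Mathlib

set_option autoImplicit false
open Cfsg

namespace Cfsg.Agent.S3800


open Subgroup
open scoped Pointwise

lemma aux {G : Type*} [Group G] [Finite G] {p : ℕ} [Fact p.Prime] (N : Subgroup G) [N.Normal]
    (hN : (Nat.card N).Coprime p) (P : Subgroup G) (hP : IsPGroup p P) {g : G}
    (hg : QuotientGroup.mk' N g ∈ normalizer ((P.map (QuotientGroup.mk' N)) : Set (G ⧸ N))) :
    ∃ m ∈ normalizer (P : Set G), QuotientGroup.mk' N m = QuotientGroup.mk' N g ∧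
      ((∀ x ∈ P, QuotientGroup.mk' N (g * x * g⁻¹) = QuotientGroup.mk' N x) → m ∈ centralizer (P : Set G)) := by
  obtain ⟨k, hk⟩ := IsPGroup.iff_card.mp hP
  have hcop : (Nat.card P).Coprime (Nat.card N) := hk ▸ hN.symm.pow_left k
  have hPN : P ≤ normalizer (N : Set G) := by rw [normalizer_eq_top]; exact le_top
  haveI : Group.IsNilpotent P := hP.isNilpotent
  have hB : MulAut.conj g • P ≤ P ⊔ N := by
    intro x hx
    rw [Lib.Coprime.mem_conj_smul] at hx
    have h1 := (mem_normalizer_iff.mp hg (QuotientGroup.mk' N (g⁻¹ * x * g))).mp (mem_map_of_mem _ hx)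
    rw [← map_inv, ← map_mul, ← map_mul, show g * (g⁻¹ * x * g) * g⁻¹ = x by group] at h1
    rw [← QuotientGroup.ker_mk' N, ← comap_map_eq]
    exact h1
  obtain ⟨n, hn, hnP⟩ := Lib.Coprime.exists_conj_eq_of_le_sup hPN hcop (Or.inl inferInstance) hB
    (Lib.Coprime.card_conj_smul g P)
  have hm : n⁻¹ * g ∈ normalizer (P : Set G) := Lib.Coprime.mem_normalizer_of_conj_smul_eq (by
    rw [Lib.Coprime.conj_smul_mul, ← hnP, Lib.Coprime.conj_inv_smul_smul])
  have hmk : QuotientGroup.mk' N (n⁻¹ * g) = QuotientGroup.mk' N g := by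
    rw [map_mul, map_inv, show QuotientGroup.mk' N n = 1 from (QuotientGroup.eq_one_iff n).mpr hn]
    simp
  refine ⟨_, hm, hmk, fun hc => mem_centralizer_iff.mpr fun x hx => ?_⟩
  have h1 : (n⁻¹ * g) * x * (n⁻¹ * g)⁻¹ * x⁻¹ ∈ P ⊓ N := by
    refine ⟨P.mul_mem ((mem_normalizer_iff.mp hm x).mp hx) (P.inv_mem hx), ?_⟩
    apply (QuotientGroup.eq_one_iff _).mp
    show QuotientGroup.mk' N _ = 1
    have h2 := hc x hx
    rw [map_mul, map_mul, map_inv] at h2
    rw [map_mul, map_mul, map_mul, map_inv, map_inv, hmk, h2, mul_inv_cancel]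
  rw [Lib.Coprime.inf_eq_bot_of_coprime hcop, mem_bot, mul_inv_eq_one, mul_inv_eq_iff_eq_mul] at h1
  exact h1.symm

/-- Let G be a finite group, N a normal subgroup of G whose order is prime to p, and P a p-subgroup of G. Then in G/N the normalizer of the image of P is the image of N_G(P), and the centralizer of the image of P is the image of C_G(P). -/
theorem result {G : Type*} [Group G] [Finite G] {p : ℕ} [Fact p.Prime] (N : Subgroup G) [N.Normal] (hN : (Nat.card N).Coprime p) (P : Subgroup G) (hP : IsPGroup p P) : Subgroup.normalizer ((P.map (QuotientGroup.mk' N)) : Set (G ⧸ N)) = (Subgroup.normalizer (P : Set G)).map (QuotientGroup.mk' N) ∧ Subgroup.centralizer ((P.map (QuotientGroup.mk' N)) : Set (G ⧸ N)) = (Subgroup.centralizer (P : Set G)).map (QuotientGroup.mk' N) := by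
  constructor
  · refine le_antisymm (fun y hy => ?_) (Subgroup.le_normalizer_map _)
    obtain ⟨g, rfl⟩ := QuotientGroup.mk'_surjective N y
    obtain ⟨m, hm, hmg, -⟩ := aux N hN P hP hy
    exact ⟨m, hm, hmg⟩
  · refine le_antisymm (fun y hy => ?_) ?_
    · obtain ⟨g, rfl⟩ := QuotientGroup.mk'_surjective N y
      obtain ⟨m, -, hmg, hmc⟩ := aux N hN P hP (Subgroup.centralizer_le_normalizer _ hy)
      refine ⟨m, hmc fun x hx => ?_, hmg⟩
      rw [map_mul, map_mul, map_inv,
        ← (Subgroup.mem_centralizer_iff.mp hy _ (Subgroup.mem_map_of_mem _ hx)), mul_inv_cancel_right]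
    · rintro _ ⟨c, hc, rfl⟩
      rw [Subgroup.mem_centralizer_iff]
      rintro _ ⟨x, hx, rfl⟩
      rw [← map_mul, ← map_mul, Subgroup.mem_centralizer_iff.mp hc x hx]

end Cfsg.Agent.S3800
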