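import Cfsg.Statements.S3801
import Cfsg.Agent.Lib.TwoLength.Main
import Cfsg.Agent.Lib.HallHigman.Solvable
import Cfsg.Agent.Lib.LocalFusion.PSolvable

set_option autoImplicit false
open Cfsg

namespace Cfsg.Agent.S3801

open Cfsg.Agent.Lib

universe u

/-- The bound for a uniform exponent on the `2`-elements. -/
theorem bound {G : Type u} [Group G] [Finite G] [Group.IsSolvable G] (e : ℕ) (he : 1 ≤ e)
    (hexp : ∀ x : G, (∃ a, x ^ 2 ^ a = 1) → x ^ 2 ^ e = 1) : PLengthLE 2 (2 * e - 1) G := by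
  haveI : Fact (Nat.Prime 2) := ⟨Nat.prime_two⟩
  let Φ : ∀ (H : Type u) [Group H], ℕ → Prop := fun H _ k =>
    Group.IsSolvable H ∧ ∀ x : H, (∃ a, x ^ 2 ^ a = 1) → (k = 0 → x = 1) ∧
      (∀ j, k = 2 * j + 1 → x ^ 2 ^ (j + 1) = 1) ∧
      (∀ j, k = 2 * (j + 1) → x ^ 2 ^ (j + 1) ∈ (upperPSeries 2 H 2).1)
  refine HallHigman.pLengthLE_induction Φ ?_ ?_ ?_ (Nat.card G) G (2 * e - 1) rfl
    (HallHigman.isPSolvable_of_isSolvable 2) ⟨inferInstance, fun x hx => ?_⟩
  · intro H _ _ k N _ hH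
    haveI := hH.1
    refine ⟨Group.isSolvable_of_surjective (QuotientGroup.mk'_surjective N), fun y hy => ?_⟩
    obtain ⟨a, ha⟩ := hy
    obtain ⟨x, rfl, hx⟩ := HallHigman.exists_pElement_lift N ha
    obtain ⟨h0, h1, h2⟩ := hH.2 x hx
    refine ⟨fun hk => by rw [h0 hk, QuotientGroup.mk_one], fun j hk => ?_, fun j hk => ?_⟩
    · rw [← QuotientGroup.mk_pow, h1 j hk, QuotientGroup.mk_one]
    · rw [← QuotientGroup.mk_pow]
      exact PLength.map_upperPSeries_le (QuotientGroup.mk'_surjective N) 2 (Subgroup.mem_map_of_mem _ (h2 j hk))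
  · intro H _ _ hH hdvd
    obtain ⟨x, hx⟩ := exists_prime_orderOf_dvd_card' 2 hdvd
    have h1 := (hH.2 x ⟨1, by rw [pow_one, ← hx]; exact pow_orderOf_eq_one x⟩).1 rfl
    rw [h1, orderOf_one] at hx
    exact absurd hx (by decide)
  · intro H _ _ _ k hHsol hred _ hH
    haveI := hH.1
    refine ⟨Group.isSolvable_of_surjective (QuotientGroup.mk'_surjective _), fun y hy => ⟨?_, ?_, ?_⟩⟩
    · rintro rfl
      obtain ⟨a, ha⟩ := hy
      obtain ⟨x, rfl, hx⟩ := HallHigman.exists_pElement_lift (pCore 2 H) ha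
      have hsq : ∀ z : H, (∃ b, z ^ 2 ^ b = 1) → z * z = 1 := fun z hz => by
        have := (hH.2 z hz).2.1 0 rfl
        rwa [zero_add, pow_one, pow_two] at this
      rw [QuotientGroup.eq_one_iff]
      refine LocalFusion.centralizer_pCore_le_of_isPSolvable hHsol hred (Subgroup.mem_centralizer_iff.mpr ?_)
      intro v hv
      have hvx : ∃ c, (v * x) ^ 2 ^ c = 1 := by
        have h1 : ((v * x : H) : H ⧸ pCore 2 H) ^ 2 ^ a = 1 := by
          rw [QuotientGroup.mk_mul, (QuotientGroup.eq_one_iff _).mpr hv, one_mul, ha]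
        rw [← QuotientGroup.mk_pow, QuotientGroup.eq_one_iff] at h1
        obtain ⟨c, hc⟩ := Components.pCore_isPGroup 2 (⟨_, h1⟩ : pCore 2 H)
        exact ⟨a + c, by rw [pow_add, pow_mul]; exact congrArg Subtype.val hc⟩
      have hv2 : v * v = 1 := by
        obtain ⟨c, hc⟩ := Components.pCore_isPGroup 2 (⟨v, hv⟩ : pCore 2 H)
        exact hsq v ⟨c, congrArg Subtype.val hc⟩
      calc v * x = (v * x)⁻¹ := eq_inv_of_mul_eq_one_left (hsq _ hvx)
        _ = x⁻¹ * v⁻¹ := mul_inv_rev v x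
        _ = x * v := by
          rw [← eq_inv_of_mul_eq_one_left (hsq x hx), ← eq_inv_of_mul_eq_one_left hv2]
    · intro j hk
      obtain ⟨a, ha⟩ := hy
      obtain ⟨x, rfl, hx⟩ := HallHigman.exists_pElement_lift (pCore 2 H) ha
      rw [← QuotientGroup.mk_pow, QuotientGroup.eq_one_iff]
      exact PLength.upperPSeries_two_le_pCore hred ((hH.2 x hx).2.2 j (by omega))
    · intro j hk
      exact TwoLength.pow_mem_upperPSeries_two hHsol hred (j + 1)
        (fun x hx => (hH.2 x hx).2.1 (j + 1) (by omega)) y hy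
  · refine ⟨fun hk => by omega, fun j hk => ?_, fun j hk => by omega⟩
    rw [show j + 1 = e by omega]
    exact hexp x hx

/-- Gross's bound on 2-length: if G is a finite solvable group whose Sylow 2-subgroups have exponent dividing 2^e with e ≥ 1, then G has 2-length at most 2e − 1. -/
theorem result {G : Type*} [Group G] [Finite G] (hG : Group.IsSolvable G) (e : ℕ) (he : 1 ≤ e) (hexp : ∀ (P : Sylow 2 G), ∀ x ∈ (P : Subgroup G), x ^ 2 ^ e = 1) : Cfsg.PLengthLE 2 (2 * e - 1) G := by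
  haveI : Fact (Nat.Prime 2) := ⟨Nat.prime_two⟩
  haveI := hG
  refine bound e he fun x hx => ?_
  obtain ⟨a, ha⟩ := hx
  obtain ⟨i, -, hi⟩ := (Nat.dvd_prime_pow Nat.prime_two).mp (orderOf_dvd_of_pow_eq_one ha)
  obtain ⟨P, hP⟩ := (IsPGroup.of_card (p := 2) (n := i) (by rw [Nat.card_zpowers, hi] :
    Nat.card (Subgroup.zpowers x) = 2 ^ i)).exists_le_sylow
  exact hexp P x (hP (Subgroup.mem_zpowers x))

end Cfsg.Agent.S3801
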