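import Cfsg.Statements.S3950
import Cfsg.Agent.Lib.SchurMult.Bilinear
import Cfsg.Agent.Lib.GS.StemDihedral

set_option autoImplicit false
open Cfsg

namespace Cfsg.Agent.S3950

open scoped commutatorElement

/-- A finite abelian group has trivial Schur multiplier if and only if it is cyclic. -/
theorem result {G : Type*} [CommGroup G] [Finite G] : Cfsg.HasCyclicSchurMultiplier G 1 ↔ IsCyclic G := by
  constructor
  · intro htriv
    by_contra hcyc
    obtain ⟨p, hp, hbig⟩ : ∃ p : ℕ, p.Prime ∧ p < Nat.card {x : G // x ^ p = 1} := by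
      obtain ⟨g, hg⟩ := Monoid.exists_orderOf_eq_exponent (G := G) Monoid.ExponentExists.of_finite
      have hne : Subgroup.zpowers g ≠ ⊤ := fun h => hcyc ⟨g, fun x => Subgroup.mem_zpowers_iff.mp (h.ge (Subgroup.mem_top x))⟩
      haveI : Nontrivial (G ⧸ Subgroup.zpowers g) := by
        rw [← Finite.one_lt_card_iff_nontrivial, ← Subgroup.index_eq_card]
        exact Nat.one_lt_iff_ne_zero_and_ne_one.mpr
          ⟨Subgroup.index_ne_zero_of_finite, fun h => hne (Subgroup.index_eq_one.mp h)⟩
      obtain ⟨p, hp, hpd⟩ := Nat.exists_prime_and_dvd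
        (Finite.one_lt_card (α := G ⧸ Subgroup.zpowers g)).ne'
      haveI := Fact.mk hp
      obtain ⟨xb, hxb⟩ := exists_prime_orderOf_dvd_card' p hpd
      obtain ⟨x, rfl⟩ := QuotientGroup.mk_surjective xb
      obtain ⟨i, hi⟩ := Subgroup.mem_zpowers_iff.mp
        ((QuotientGroup.eq_one_iff (x ^ p)).mp (by rw [QuotientGroup.mk_pow, ← hxb, pow_orderOf_eq_one]))
      have hxg : x ∉ Subgroup.zpowers g := fun h => hp.one_lt.ne (by
        rw [← hxb, (QuotientGroup.eq_one_iff x).mpr h, orderOf_one])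
      have hpe : p ∣ orderOf g := by
        rw [← hxb]
        exact (orderOf_map_dvd (QuotientGroup.mk' (Subgroup.zpowers g)) x).trans
          (hg ▸ Monoid.order_dvd_exponent x)
      obtain ⟨t, ht⟩ := hpe
      have hpi : (p : ℤ) ∣ i := by
        have h1 : g ^ (i * (t : ℤ)) = 1 := by
          rw [zpow_mul, hi, zpow_natCast, ← pow_mul, ← ht, hg, Monoid.pow_exponent_eq_one]
        obtain ⟨s, hs⟩ := orderOf_dvd_iff_zpow_eq_one.mpr h1
        have htz : (t : ℤ) ≠ 0 := by
          intro h; rw [Int.natCast_eq_zero.mp h, mul_zero] at ht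
          exact (orderOf_pos g).ne' ht
        refine ⟨s, mul_right_cancel₀ htz ?_⟩
        rw [hs, ht]; push_cast; ring
      obtain ⟨j, rfl⟩ := hpi
      set y := x * g ^ (-j) with hy
      have hyp : y ^ p = 1 := by
        rw [hy, mul_pow, ← hi, ← zpow_natCast (g ^ (-j)), ← zpow_mul, ← zpow_add]
        simp [mul_comm]
      have hyg : y ∉ Subgroup.zpowers g := fun h => hxg (by
        have := Subgroup.mul_mem _ h (Subgroup.zpow_mem _ (Subgroup.mem_zpowers g) j)
        rwa [hy, mul_assoc, ← zpow_add, neg_add_cancel, zpow_zero, mul_one] at this)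
      have hyo : orderOf y = p := orderOf_eq_prime hyp (fun h => hyg (h ▸ one_mem _))
      have hgt : g ^ t ∉ Subgroup.zpowers y := fun h => by
        haveI : Fact (Nat.card (Subgroup.zpowers y)).Prime := ⟨by rw [Nat.card_zpowers, hyo]; exact hp⟩
        have hne1 : g ^ t ≠ 1 := fun h1 => by
          have h2 := orderOf_dvd_of_pow_eq_one h1
          rw [ht] at h2
          have ht0 : 0 < t := Nat.pos_of_ne_zero fun e => (orderOf_pos g).ne' (by rw [ht, e, mul_zero])
          have := Nat.le_of_dvd ht0 h2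
          nlinarith [hp.one_lt]
        have h3 : Subgroup.zpowers (⟨g ^ t, h⟩ : Subgroup.zpowers y) = ⊤ :=
          (Subgroup.eq_bot_or_eq_top_of_prime_card _).resolve_left
            (by simpa [Subtype.ext_iff] using hne1)
        obtain ⟨k, hk⟩ := Subgroup.mem_zpowers_iff.mp
          (h3 ▸ Subgroup.mem_top (⟨y, Subgroup.mem_zpowers y⟩ : Subgroup.zpowers y))
        refine hyg ?_
        rw [← show (g ^ t) ^ k = y from congrArg Subtype.val hk]
        exact Subgroup.zpow_mem _ (Subgroup.pow_mem _ (Subgroup.mem_zpowers g) t) k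
      refine ⟨p, hp, ?_⟩
      calc p = (Subgroup.zpowers y : Set G).ncard := by
            rw [← Nat.card_coe_set_eq]; exact (hyo ▸ (Nat.card_zpowers y).symm)
        _ < {x : G | x ^ p = 1}.ncard := Set.ncard_lt_ncard ((Set.ssubset_iff_of_subset ?_).mpr
            ⟨g ^ t, ?_, hgt⟩) (Set.toFinite _)
        _ = Nat.card {x : G // x ^ p = 1} := (Nat.card_coe_set_eq _).symm
      · intro z hz
        obtain ⟨k, rfl⟩ := Subgroup.mem_zpowers_iff.mp hz
        show (y ^ k) ^ p = 1
        rw [← zpow_natCast, zpow_comm, zpow_natCast, hyp, one_zpow]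
      · show (g ^ t) ^ p = 1
        rw [← pow_mul, mul_comm, ← ht, pow_orderOf_eq_one]
    haveI : Fact p.Prime := ⟨hp⟩
    obtain ⟨e⟩ := CommGroup.monoidHom_mulEquiv_of_hasEnoughRootsOfUnity G ℂ
    let C := Multiplicative (ZMod p)
    haveI : IsCyclic (rootsOfUnity p ℂ) := rootsOfUnity.isCyclic ℂ p
    let μ : rootsOfUnity p ℂ ≃* C := mulEquivOfCyclicCardEq (by
      rw [Complex.card_rootsOfUnity]; simp [C])
    obtain ⟨⟨φ, hφ⟩, ⟨ψ, hψ⟩, hne, hind⟩ : ∃ φ ψ : {l : G →* ℂˣ // l ^ p = 1},
        φ.1 ≠ 1 ∧ ∀ k : ℕ, ψ.1 ≠ φ.1 ^ k := by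
      have hc : p < Nat.card {l : G →* ℂˣ // l ^ p = 1} := by
        rw [Nat.card_congr (Equiv.subtypeEquiv e.toEquiv (q := fun x : G => x ^ p = 1) fun l => by
          simp [← map_pow])]
        exact hbig
      haveI : Finite (G →* ℂˣ) := Finite.of_equiv _ e.symm.toEquiv
      haveI : Nontrivial {l : G →* ℂˣ // l ^ p = 1} :=
        Finite.one_lt_card_iff_nontrivial.mp (hp.one_lt.trans hc)
      obtain ⟨φ, hφ⟩ := exists_ne (⟨1, MonoidHom.ext fun g => one_pow p⟩ : {l : G →* ℂˣ // l ^ p = 1})
      by_contra hall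
      push Not at hall
      have hle : Nat.card {l : G →* ℂˣ // l ^ p = 1} ≤ Nat.card (Fin p) := by
        refine Nat.card_le_card_of_surjective
          (fun k : Fin p => ⟨φ.1 ^ (k : ℕ), MonoidHom.ext fun g => by
            have h1 : φ.1 g ^ p = 1 := by rw [← MonoidHom.pow_apply, φ.2]; rfl
            rw [MonoidHom.pow_apply, MonoidHom.pow_apply, ← pow_mul, mul_comm, pow_mul, h1, one_pow]
            rfl⟩)
          fun l => ?_
        obtain ⟨k, hk⟩ := hall φ l fun h => hφ (Subtype.ext h)
        refine ⟨⟨k % p, Nat.mod_lt _ hp.pos⟩, Subtype.ext ?_⟩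
        show φ.1 ^ (k % p) = l.1
        rw [hk]
        refine MonoidHom.ext fun g => ?_
        have h1 : φ.1 g ^ p = 1 := by rw [← MonoidHom.pow_apply, φ.2]; rfl
        rw [MonoidHom.pow_apply, MonoidHom.pow_apply, ← pow_eq_pow_mod k h1]
      rw [Nat.card_fin] at hle
      omega
    have hroot : ∀ (l : G →* ℂˣ), l ^ p = 1 → ∀ g, l g ∈ rootsOfUnity p ℂ := fun l hl g => by
      rw [mem_rootsOfUnity, ← MonoidHom.pow_apply, hl]; rfl
    let φ' : G →* C := μ.toMonoidHom.comp (φ.codRestrict _ (hroot φ hφ))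
    let ψ' : G →* C := μ.toMonoidHom.comp (ψ.codRestrict _ (hroot ψ hψ))
    let β : G →* (G →* C) :=
      MonoidHom.mk' (fun x => AddMonoidHom.toMultiplicativeRight
        ((AddMonoidHom.mulLeft (Multiplicative.toAdd (φ' x))).comp (MonoidHom.toAdditiveLeft ψ')))
        fun x y => MonoidHom.ext fun z => by
          apply Multiplicative.toAdd.injective
          simp [C, add_mul]
    obtain ⟨x, y, hxy⟩ : ∃ x y : G, β x y * (β y x)⁻¹ ≠ 1 := by
      by_contra hall
      push Not at hall
      obtain ⟨x, hx⟩ : ∃ x, φ' x ≠ 1 := by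
        by_contra h
        push Not at h
        refine hne (MonoidHom.ext fun g => ?_)
        have := (MulEquiv.map_eq_one_iff μ).mp (h g)
        exact congrArg Subtype.val this
      set a := Multiplicative.toAdd (φ' x) with ha
      have ha0 : a ≠ 0 := fun h => hx (Multiplicative.toAdd.injective h)
      set c := Multiplicative.toAdd (ψ' x) * a⁻¹ with hc
      refine hind c.val (MonoidHom.ext fun g => ?_)
      have hg : Multiplicative.toAdd (φ' x) * Multiplicative.toAdd (ψ' g) -
          Multiplicative.toAdd (φ' g) * Multiplicative.toAdd (ψ' x) = 0 := by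
        rw [sub_eq_add_neg]
        exact congrArg Multiplicative.toAdd (hall x g)
      have h2 : ψ' g = φ' g ^ c.val := by
        apply Multiplicative.toAdd.injective
        rw [toAdd_pow, nsmul_eq_mul, ZMod.natCast_zmod_val, hc]
        field_simp
        linear_combination hg
      have h3 : (ψ.codRestrict _ (hroot ψ hψ)) g = (φ.codRestrict _ (hroot φ hφ)) g ^ c.val := by
        apply μ.injective
        rw [map_pow]
        exact h2
      exact congrArg Subtype.val h3
    have hgen : ∀ c : C, c ∈ Subgroup.closure (Set.range fun q : G × G =>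
        β q.1 q.2 * (β q.2 q.1)⁻¹) := fun c => by
      have hz : Subgroup.zpowers (β x y * (β y x)⁻¹) = ⊤ := by
        haveI : Fact (Nat.card C).Prime := ⟨by simpa [C] using hp⟩
        exact (Subgroup.eq_bot_or_eq_top_of_prime_card _).resolve_left (by simpa using hxy)
      exact Subgroup.zpowers_le.mpr (Subgroup.subset_closure (Set.mem_range.mpr ⟨(x, y), rfl⟩))
        (hz ▸ Subgroup.mem_top c)
    obtain ⟨hst, ⟨e'⟩⟩ := Cfsg.Agent.Lib.SchurMult.bExt_stem β hgen
    obtain ⟨π, hπ⟩ := htriv.2 _ (Cfsg.Agent.Lib.SchurMult.bProj β) hst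
    haveI : Subsingleton (Multiplicative (ZMod 1)) := Multiplicative.toAdd.injective.subsingleton
    have hsub : Subsingleton C := (e'.surjective.comp hπ).subsingleton
    exact hxy (Subsingleton.elim _ _)
  · intro hcyc
    refine Cfsg.Agent.Lib.GS.hasTrivialMultiplier fun Γ _ _ σ hσ => ?_
    haveI := hcyc
    rw [eq_bot_iff]
    refine hσ.2.2.trans ?_
    rw [commutator_eq_closure, Subgroup.closure_le]
    rintro _ ⟨a, b, rfl⟩
    exact commutatorElement_eq_one_iff_mul_comm.mpr
      (commutative_of_cyclic_center_quotient σ hσ.2.1 a b)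

end Cfsg.Agent.S3950
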