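import Cfsg.Statements.S3953
import Cfsg.Agent.Lib.SchurMult.Corestriction
import Cfsg.Agent.Lib.SchurMult.Exponent

set_option autoImplicit false
open Cfsg

namespace Cfsg.Agent.S3953


/-- Let `P` be a Sylow `p`-subgroup of the finite group `G`, let `A` be the Schur multiplier of `G` and `B` that of `P`. Then the `p`-primary component of `A` is isomorphic to a direct factor of `B`: there are subgroups `C` and `D` of `B` meeting trivially and generating `B`, with `C` isomorphic to the `p`-primary component of `A`. -/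
theorem result {G : Type*} [Group G] [Finite G] (p : ℕ) [Fact p.Prime] (P : Sylow p G) {A B : Type*} [CommGroup A] [CommGroup B] (hA : Cfsg.HasSchurMultiplier G A) (hB : Cfsg.HasSchurMultiplier P B) : ∃ C D : Subgroup B, C ⊓ D = ⊥ ∧ C ⊔ D = ⊤ ∧ Nonempty (CommGroup.primaryComponent A p ≃* C) := by
  classical
  obtain ⟨finA, ⟨eA⟩⟩ := Cfsg.Agent.Lib.SchurMult.mult_equiv _
    (Cfsg.Agent.Lib.SchurMult.stdPres_surjective G) hA
  obtain ⟨finB, ⟨eB⟩⟩ := Cfsg.Agent.Lib.SchurMult.mult_equiv _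
    (Cfsg.Agent.Lib.SchurMult.stdPres_surjective (P : Subgroup G)) hB
  obtain ⟨res₀, cor₀, h⟩ := Cfsg.Agent.Lib.SchurMult.exists_res_cor (P : Subgroup G)
  let res : A →* B := eB.toMonoidHom.comp (res₀.comp eA.symm.toMonoidHom)
  let cor : B →* A := eA.toMonoidHom.comp (cor₀.comp eB.symm.toMonoidHom)
  set m := (P : Subgroup G).index with hm
  have hrc : ∀ a, cor (res a) = a ^ m := by
    intro a
    simp only [cor, res, MonoidHom.comp_apply, MulEquiv.coe_toMonoidHom, MulEquiv.symm_apply_apply, h,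
      map_pow, MulEquiv.apply_symm_apply, hm]
  have hpm : ∀ k, Nat.Coprime m (p ^ k) := fun k =>
    (((Fact.out : p.Prime).coprime_iff_not_dvd).2 P.not_dvd_index).symm.pow_right k
  have hBp : ∀ b : B, ∃ k : ℕ, b ^ p ^ k = 1 := by
    intro b
    obtain ⟨Γ, _, _, σ, hσ, ⟨e⟩⟩ := hB.1
    obtain ⟨n, hn⟩ := IsPGroup.iff_card.1 P.2
    have h1 := Cfsg.Agent.Lib.SchurMult.exponent_sq_dvd hσ
    rw [Monoid.exponent_eq_of_mulEquiv e, hn] at h1
    exact ⟨n, Monoid.exponent_dvd_iff_forall_pow_eq_one.1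
      ((dvd_pow_self _ two_ne_zero).trans h1) b⟩
  refine ⟨(CommGroup.primaryComponent A p).map res, cor.ker, ?_, ?_, ?_⟩
  · rw [eq_bot_iff]
    rintro _ ⟨⟨a, ha, rfl⟩, hker⟩
    obtain ⟨k, hk⟩ := ha
    have h1 : a ^ m = 1 := (hrc a).symm.trans hker
    have h2 : a ^ Nat.gcd m (p ^ k) = 1 := pow_gcd_eq_one.2 ⟨h1, hk⟩
    rw [(hpm k).gcd_eq_one, pow_one] at h2
    simp [h2]
  · rw [eq_top_iff]
    intro b _
    obtain ⟨k, hk⟩ := hBp b
    have hak : cor b ^ p ^ k = 1 := by rw [← map_pow, hk, map_one]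
    obtain ⟨j, hj⟩ := exists_pow_eq_self_of_coprime
      ((hpm k).coprime_dvd_right (orderOf_dvd_of_pow_eq_one hak))
    have hc : cor (b * (res (cor b ^ j))⁻¹) = 1 := by
      rw [map_mul, map_inv, hrc, pow_right_comm, hj, mul_inv_cancel]
    have := Subgroup.mul_mem_sup
      (Subgroup.mem_map_of_mem res (show cor b ^ j ∈ CommGroup.primaryComponent A p from
        ⟨k, by rw [← pow_mul, mul_comm, pow_mul, hak, one_pow]⟩)) (show _ ∈ cor.ker from hc)
    rwa [mul_comm b, mul_inv_cancel_left] at this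
  · refine ⟨MulEquiv.ofBijective ((res.comp (CommGroup.primaryComponent A p).subtype).codRestrict _
      fun a => Subgroup.mem_map_of_mem res a.2) ⟨fun a b hab => ?_, fun y => ?_⟩⟩
    · have h0 : res (a : A) = res b := congrArg Subtype.val hab
      have h1 : ((a : A) * (b : A)⁻¹) ^ m = 1 := by
        rw [← hrc, map_mul, map_inv, h0, mul_inv_cancel, map_one]
      obtain ⟨k, hk⟩ := (a * b⁻¹).2
      have h2 : ((a : A) * (b : A)⁻¹) ^ Nat.gcd m (p ^ k) = 1 := pow_gcd_eq_one.2 ⟨h1, hk⟩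
      rw [(hpm k).gcd_eq_one, pow_one] at h2
      exact Subtype.ext (mul_inv_eq_one.1 h2)
    · obtain ⟨a, ha, hay⟩ := y.2
      exact ⟨⟨a, ha⟩, Subtype.ext hay⟩

end Cfsg.Agent.S3953
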