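import Cfsg.Statements.S3954
import Cfsg.Agent.Lib.SchurMult.Basic
import Cfsg.Agent.Lib.SchurMult.Comm

set_option autoImplicit false
open Cfsg

namespace Cfsg.Agent.S3954


/-- Let `U` be a subgroup of index `m` in the finite group `G`, let `A` be the Schur multiplier of `G` and `B` that of `U`. Then the subgroup of `m`-th powers of `A` is isomorphic to a subgroup of `B`. -/
theorem result {G : Type*} [Group G] [Finite G] (U : Subgroup G) {A B : Type*} [CommGroup A] [CommGroup B] (hA : Cfsg.HasSchurMultiplier G A) (hB : Cfsg.HasSchurMultiplier U B) : ∃ C : Subgroup B, Nonempty ((powMonoidHom U.index : A →* A).range ≃* C) := by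
  open Cfsg.Agent.Lib.SchurMult in
  obtain ⟨hAfin, ⟨eA⟩⟩ := mult_equiv (stdPres G) (stdPres_surjective G) hA
  obtain ⟨hBfin, ⟨eB⟩⟩ := Cfsg.Agent.Lib.SchurMult.mult_equiv _
    (Cfsg.Agent.Lib.SchurMult.stdPres_surjective U) hB
  haveI := hAfin
  haveI := hBfin
  open Cfsg.Agent.Lib.SchurMult in
  set π := proj (stdPres G) with hπ
  have hπs := Cfsg.Agent.Lib.SchurMult.proj_surjective _ (Cfsg.Agent.Lib.SchurMult.stdPres_surjective G)
  have hcen := Cfsg.Agent.Lib.SchurMult.ker_proj_le_center (Cfsg.Agent.Lib.SchurMult.stdPres G)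
  set W := U.comap π with hW
  let πW : W →* U := π.subgroupComap U
  have hπWs : Function.Surjective πW := fun x => by
    obtain ⟨w, hw⟩ := hπs x
    exact ⟨⟨w, show π w ∈ U by rw [hw]; exact x.2⟩, Subtype.ext hw⟩
  have hπWc : πW.ker ≤ Subgroup.center W := fun w hw => by
    rw [Subgroup.mem_center_iff]
    intro y
    exact Subtype.ext (Subgroup.mem_center_iff.mp (hcen (MonoidHom.mem_ker.mpr
      (congrArg Subtype.val (MonoidHom.mem_ker.mp hw)))) y)
  obtain ⟨η, hη⟩ := Cfsg.Agent.Lib.SchurMult.exists_lift (Cfsg.Agent.Lib.SchurMult.stdPres U)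
    (MonoidHom.id U) πW hπWs hπWc
  rw [MonoidHom.id_comp] at hη
  have hidx : W.index = U.index := Subgroup.index_comap_of_surjective U hπs
  haveI : W.FiniteIndex := ⟨by rw [hidx]; exact Subgroup.index_ne_zero_of_finite⟩
  -- powers of the multiplier come from the subgroup
  let g : Cfsg.Agent.Lib.SchurMult.mult (Cfsg.Agent.Lib.SchurMult.stdPres U) →*
      Cfsg.Agent.Lib.SchurMult.UGrp (Cfsg.Agent.Lib.SchurMult.stdPres G) :=
    (W.subtype.comp η).comp (Subgroup.subtype _)
  have hkey : ∀ m ∈ Cfsg.Agent.Lib.SchurMult.mult (Cfsg.Agent.Lib.SchurMult.stdPres G),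
      m ^ U.index ∈ g.range := by
    intro m hm
    have hmc := Subgroup.mem_center_iff.mp (Cfsg.Agent.Lib.SchurMult.mult_le_center _ hm)
    have hkey' : ∀ (k : ℕ) (g₀ : Cfsg.Agent.Lib.SchurMult.UGrp (Cfsg.Agent.Lib.SchurMult.stdPres G)),
        g₀⁻¹ * m ^ k * g₀ ∈ W → g₀⁻¹ * m ^ k * g₀ = m ^ k := fun k g₀ _ => by
      have hc : Commute g₀ (m ^ k) := (show Commute g₀ m from hmc g₀).pow_right k
      rw [mul_assoc, ← hc.eq, inv_mul_cancel_left]
    have ht := MonoidHom.transfer_eq_pow (Abelianization.of (G := W)) m hkey'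
    rw [MonoidHom.mem_ker.mp (Abelianization.commutator_subset_ker _ hm.2)] at ht
    have hmem : (⟨m ^ W.index, MonoidHom.transfer_eq_pow_aux m hkey'⟩ : W) ∈ commutator W := by
      rw [← Abelianization.ker_of]; exact ht.symm
    obtain ⟨c, hc, hce⟩ := Cfsg.Agent.Lib.SchurMult.commutator_le_map η (fun w => by
      obtain ⟨u, hu⟩ := Cfsg.Agent.Lib.SchurMult.proj_surjective _
        (Cfsg.Agent.Lib.SchurMult.stdPres_surjective U) (πW w)
      refine ⟨u, hπWc ?_⟩
      rw [MonoidHom.mem_ker, map_mul, map_inv, ← MonoidHom.comp_apply, hη, hu, inv_mul_cancel]) hmem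
    refine ⟨⟨c, ?_, hc⟩, ?_⟩
    · refine MonoidHom.mem_ker.mpr ?_
      rw [← hη, MonoidHom.comp_apply]
      rw [show η c = ⟨m ^ W.index, MonoidHom.transfer_eq_pow_aux m hkey'⟩ from hce]
      refine Subtype.ext ?_
      show π (m ^ W.index) = 1
      rw [map_pow, MonoidHom.mem_ker.mp (Cfsg.Agent.Lib.SchurMult.mult_le_ker _ hm), one_pow]
    · show ((η c : W) : Cfsg.Agent.Lib.SchurMult.UGrp (Cfsg.Agent.Lib.SchurMult.stdPres G)) = _
      rw [show η c = ⟨m ^ W.index, MonoidHom.transfer_eq_pow_aux m hkey'⟩ from hce, ← hidx]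
  -- the quotient of `B` embeds in `B`
  have hgc : g.range ≤ Subgroup.center _ := by
    rintro _ ⟨c, rfl⟩
    refine hcen ?_
    have h1 : πW (η c) = 1 := by
      rw [← MonoidHom.comp_apply, hη]
      exact Cfsg.Agent.Lib.SchurMult.mult_le_ker _ c.2
    exact congrArg Subtype.val h1
  letI : CommGroup g.range := { (inferInstance : Group g.range) with
    mul_comm := fun a b => Subtype.ext (Subgroup.mem_center_iff.mp (hgc b.2) a) }
  obtain ⟨j, hj⟩ := Cfsg.Agent.Lib.SchurMult.exists_injective_of_surjective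
    (g.rangeRestrict.comp eB.symm.toMonoidHom) (g.rangeRestrict_surjective.comp eB.symm.surjective)
  let ι : (powMonoidHom U.index : A →* A).range →* g.range :=
    (((Subgroup.subtype _).comp eA.symm.toMonoidHom).comp (Subgroup.subtype _)).codRestrict g.range
      (by
        rintro ⟨_, a, rfl⟩
        show ((eA.symm (a ^ U.index)) : Cfsg.Agent.Lib.SchurMult.UGrp _) ∈ g.range
        rw [map_pow, SubgroupClass.coe_pow]
        exact hkey _ (eA.symm a).2)
  have hι : Function.Injective ι := fun a b h => by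
    have h1 : ((eA.symm (a : A)) : Cfsg.Agent.Lib.SchurMult.UGrp (Cfsg.Agent.Lib.SchurMult.stdPres G)) =
        ((eA.symm (b : A)) : Cfsg.Agent.Lib.SchurMult.UGrp (Cfsg.Agent.Lib.SchurMult.stdPres G)) :=
      congrArg (Subtype.val : g.range → _) h
    exact Subtype.ext (eA.symm.injective (Subtype.ext h1))
  exact ⟨(j.comp ι).range, ⟨MonoidHom.ofInjective (hj.comp hι)⟩⟩

end Cfsg.Agent.S3954
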