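import Cfsg.Statements.S3955
import Cfsg.Agent.Lib.SchurMult.Proj

set_option autoImplicit false
open Cfsg

namespace Cfsg.Agent.S3955


/-- Let `Q` be a finite group with Schur multiplier `A`, and let `σ : Γ →* Q` be a finite stem extension whose kernel is isomorphic to `A` (a Schur covering group of `Q`). Then every homomorphism `γ` from `Q` to the quotient of `GL n ℂ` by its centre lifts along `σ`: there is a homomorphism `ρ : Γ →* GL n ℂ` which, followed by the quotient map, equals `γ ∘ σ`. -/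
theorem result {Q : Type*} [Group Q] [Finite Q] {A : Type*} [CommGroup A] (hA : Cfsg.HasSchurMultiplier Q A) {Γ : Type*} [Group Γ] [Finite Γ] (σ : Γ →* Q) (hσ : Cfsg.IsStemExtension σ) (hk : Nonempty (σ.ker ≃* A)) (n : ℕ) (γ : Q →* (GL (Fin n) ℂ ⧸ Subgroup.center (GL (Fin n) ℂ))) : ∃ ρ : Γ →* GL (Fin n) ℂ, (QuotientGroup.mk' (Subgroup.center (GL (Fin n) ℂ))).comp ρ = γ.comp σ := by
  open Cfsg.Agent.Lib.SchurMult in
  obtain ⟨η, hη⟩ := exists_stem_lift (stdPres Q) hσ
  obtain ⟨f, hf, hfe⟩ := Cfsg.Agent.Lib.SchurMult.exists_surj_mult _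
    (Cfsg.Agent.Lib.SchurMult.stdPres_surjective Q) hσ hη
  obtain ⟨e⟩ := hk
  obtain ⟨hAfin, ⟨e'⟩⟩ := Cfsg.Agent.Lib.SchurMult.mult_equiv _
    (Cfsg.Agent.Lib.SchurMult.stdPres_surjective Q) hA
  haveI := hAfin
  haveI := Cfsg.Agent.Lib.SchurMult.finite_mult (Cfsg.Agent.Lib.SchurMult.stdPres Q)
  have hbij : Function.Bijective f := (Nat.bijective_iff_surjective_and_card f).mpr
    ⟨hf, by rw [Nat.card_congr e'.toEquiv, Nat.card_congr e.toEquiv]⟩
  refine Cfsg.Agent.Lib.SchurMult.exists_gl_lift _ (Cfsg.Agent.Lib.SchurMult.stdPres_surjective Q)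
    hσ hη (fun m hm h => ?_) n γ
  have h2 : f ⟨m, hm⟩ = f 1 := by
    rw [map_one]; exact Subtype.ext (by rw [hfe]; exact h)
  exact congrArg Subtype.val (hbij.1 h2)

end Cfsg.Agent.S3955
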