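import Cfsg.Statements.S3960
import Cfsg.Agent.Lib.SchurMult.Proj

set_option autoImplicit false
universe u
open Cfsg

namespace Cfsg.Agent.S3960

open scoped commutatorElement

theorem hom_unique_of_perfect {G X Y : Type*} [Group G] [Group X] [Group Y] (hG : Group.IsPerfect G)
    (ξ : X →* Y) (hc : ξ.ker ≤ Subgroup.center X) (a b : G →* X) (h : ξ.comp a = ξ.comp b) :
    a = b := by
  haveI := hG
  have hle : commutator G ≤ a.eqLocus b := by
    rw [commutator_eq_closure, Subgroup.closure_le]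
    rintro _ ⟨x, y, rfl⟩
    have hz : ∀ t, (b t)⁻¹ * a t ∈ Subgroup.center X := fun t => hc (by
      rw [MonoidHom.mem_ker, map_mul, map_inv]
      have := DFunLike.congr_fun h t
      simp only [MonoidHom.comp_apply] at this
      rw [this, inv_mul_cancel])
    show a ⁅x, y⁆ = b ⁅x, y⁆
    rw [map_commutatorElement, map_commutatorElement]
    obtain ⟨z, hzx, ea⟩ : ∃ z ∈ Subgroup.center X, a x = b x * z := ⟨_, hz x, by group⟩
    obtain ⟨z', hzy, eb⟩ : ∃ z ∈ Subgroup.center X, a y = b y * z := ⟨_, hz y, by group⟩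
    have h1 : ∀ t, z * t = t * z := fun t => (Subgroup.mem_center_iff.mp hzx t).symm
    have h2 : ∀ t, z' * t = t * z' := fun t => (Subgroup.mem_center_iff.mp hzy t).symm
    rw [ea, eb, commutatorElement_def, commutatorElement_def]
    calc b x * z * (b y * z') * (b x * z)⁻¹ * (b y * z')⁻¹
        = b x * (z * b y) * (z' * (z⁻¹ * ((b x)⁻¹ * z'⁻¹))) * (b y)⁻¹ := by group
      _ = b x * (b y * z) * ((z⁻¹ * ((b x)⁻¹ * z'⁻¹)) * z') * (b y)⁻¹ := by rw [h1, h2]
      _ = b x * b y * (b x)⁻¹ * (b y)⁻¹ := by group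
  ext g
  exact hle (by rw [Group.IsPerfect.commutator_eq_top]; exact Subgroup.mem_top g)

open Cfsg.Agent.Lib.SchurMult in
theorem commutator_perfect {Q : Type*} [Group Q] (hQ : Group.IsPerfect Q) :
    Group.IsPerfect (commutator (UGrp (stdPres Q))) ∧
    Function.Surjective ((proj (stdPres Q)).comp (commutator (UGrp (stdPres Q))).subtype) := by
  haveI := hQ
  set U := UGrp (stdPres Q)
  have hs : Function.Surjective ((proj (stdPres Q)).comp (commutator U).subtype) := by
    intro q
    have hq : q ∈ (commutator U).map (proj (stdPres Q)) := by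
      rw [commutator_def, Subgroup.map_commutator,
        Subgroup.map_top_of_surjective _ (proj_surjective _ (stdPres_surjective Q)),
        ← commutator_def, Group.IsPerfect.commutator_eq_top]
      exact Subgroup.mem_top q
    obtain ⟨u, hu, e⟩ := hq
    exact ⟨⟨u, hu⟩, e⟩
  refine ⟨⟨?_⟩, hs⟩
  rw [eq_top_iff]
  rintro ⟨v, hv⟩ -
  suffices h : v ∈ (commutator (commutator U)).map (commutator U).subtype by
    obtain ⟨w, hw, e⟩ := h
    rwa [← show w = (⟨v, hv⟩ : commutator U) from Subtype.ext e]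
  rw [commutator_eq_closure, Subgroup.mem_closure] at hv
  apply hv
  rintro _ ⟨x, y, rfl⟩
  have hd : ∀ t : U, ∃ c : commutator U, ((c : U))⁻¹ * t ∈ Subgroup.center U := by
    intro t
    obtain ⟨c, hc⟩ := hs (proj _ t)
    refine ⟨c, ker_proj_le_center _ ?_⟩
    rw [MonoidHom.mem_ker, map_mul, map_inv]
    rw [MonoidHom.comp_apply, Subgroup.coe_subtype] at hc
    rw [hc, inv_mul_cancel]
  obtain ⟨a, ha⟩ := hd x
  obtain ⟨b, hb⟩ := hd y
  refine ⟨⁅a, b⁆, Subgroup.commutator_mem_commutator (Subgroup.mem_top _) (Subgroup.mem_top _), ?_⟩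
  rw [map_commutatorElement, Subgroup.coe_subtype]
  obtain ⟨z, hzx, ea⟩ : ∃ z ∈ Subgroup.center U, x = a * z := ⟨_, ha, by group⟩
  obtain ⟨z', hzy, eb⟩ : ∃ z ∈ Subgroup.center U, y = b * z := ⟨_, hb, by group⟩
  have h1 : ∀ t, z * t = t * z := fun t => (Subgroup.mem_center_iff.mp hzx t).symm
  have h2 : ∀ t, z' * t = t * z' := fun t => (Subgroup.mem_center_iff.mp hzy t).symm
  rw [ea, eb, commutatorElement_def, commutatorElement_def]
  symm
  calc (a : U) * z * ((b : U) * z') * ((a : U) * z)⁻¹ * ((b : U) * z')⁻¹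
      = (a : U) * (z * b) * (z' * (z⁻¹ * ((a : U)⁻¹ * z'⁻¹))) * (b : U)⁻¹ := by group
    _ = (a : U) * (b * z) * ((z⁻¹ * ((a : U)⁻¹ * z'⁻¹)) * z') * (b : U)⁻¹ := by rw [h1, h2]
    _ = (a : U) * b * (a : U)⁻¹ * (b : U)⁻¹ := by group

/-- A finite perfect group `Q` has a universal central extension: a finite perfect group `G` in the universe of `Q` and a surjective homomorphism `π : G →* Q` with central kernel such that for every group `X` in that universe and every surjective homomorphism `ξ : X →* Q` with central kernel there is exactly one homomorphism `η : G →* X` with `ξ ∘ η = π`. -/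
theorem result {Q : Type u} [Group Q] [Finite Q] (hQ : Group.IsPerfect Q) : ∃ (G : Type u) (_ : Group G) (_ : Finite G) (π : G →* Q), Group.IsPerfect G ∧ Function.Surjective π ∧ π.ker ≤ Subgroup.center G ∧ ∀ (X : Type u) [Group X] (ξ : X →* Q), Function.Surjective ξ → ξ.ker ≤ Subgroup.center X → ∃! η : G →* X, ξ.comp η = π := by
  obtain ⟨hperf, hsurj⟩ := commutator_perfect hQ
  refine ⟨_, inferInstance, Cfsg.Agent.Lib.SchurMult.finite_commutator _,
    (Cfsg.Agent.Lib.SchurMult.proj (Cfsg.Agent.Lib.SchurMult.stdPres Q)).comp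
      (commutator (Cfsg.Agent.Lib.SchurMult.UGrp (Cfsg.Agent.Lib.SchurMult.stdPres Q))).subtype,
    hperf, hsurj, ?_, ?_⟩
  · intro z hz
    rw [Subgroup.mem_center_iff]
    intro g
    refine Subtype.ext ?_
    exact Subgroup.mem_center_iff.mp
      (Cfsg.Agent.Lib.SchurMult.ker_proj_le_center _ (MonoidHom.mem_ker.mp hz)) g
  · intro X _ ξ hξ hc
    obtain ⟨η, hη⟩ := Cfsg.Agent.Lib.SchurMult.exists_lift (Cfsg.Agent.Lib.SchurMult.stdPres Q)
      (MonoidHom.id Q) ξ hξ hc
    rw [MonoidHom.id_comp] at hη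
    refine ⟨η.comp (commutator _).subtype, ?_, fun a ha => ?_⟩
    · show ξ.comp (η.comp _) = _
      rw [← MonoidHom.comp_assoc, hη]
    · refine hom_unique_of_perfect hperf ξ hc a _ ?_
      rw [ha, ← MonoidHom.comp_assoc, hη]

end Cfsg.Agent.S3960
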