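import Cfsg.Statements.S3962
import Mathlib
import Cfsg.Agent.Lib.GS.Sylow

set_option autoImplicit false
open Cfsg

namespace Cfsg.Agent.S3962

open scoped commutatorElement

/-- Let `G` be a perfect group and `π : G →* Q` a surjective homomorphism whose kernel is central. Then `π` maps the centre of `G` onto the centre of `Q`. Taking `π` to be the map to `G ⧸ Z(G)` shows that the central quotient of a perfect group has trivial centre. -/
theorem result {G Q : Type*} [Group G] [Group Q] (hG : Group.IsPerfect G) (π : G →* Q) (hπ : Function.Surjective π) (hker : π.ker ≤ Subgroup.center G) : (Subgroup.center G).map π = Subgroup.center Q := by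
  refine le_antisymm ?_ ?_
  · rintro _ ⟨z, hz, rfl⟩
    rw [Subgroup.mem_center_iff]
    intro q
    obtain ⟨g, rfl⟩ := hπ q
    rw [← map_mul, ← map_mul, Subgroup.mem_center_iff.mp hz g]
  · intro q hq
    obtain ⟨z, rfl⟩ := hπ q
    refine ⟨z, ?_, rfl⟩
    have hk : ∀ g : G, ⁅z, g⁆ ∈ π.ker := fun g => by
      rw [MonoidHom.mem_ker, map_commutatorElement, commutatorElement_eq_one_iff_commute]
      exact (Subgroup.mem_center_iff.mp hq (π g)).symm
    let f : G →* π.ker :=
      { toFun := fun g => ⟨⁅z, g⁆, hk g⟩
        map_one' := Subtype.ext (by simp [commutatorElement_def])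
        map_mul' := fun g h => by
          apply Subtype.ext
          change ⁅z, g * h⁆ = ⁅z, g⁆ * ⁅z, h⁆
          have hc := Subgroup.mem_center_iff.mp (hker (hk h)) g
          calc ⁅z, g * h⁆ = ⁅z, g⁆ * (g * ⁅z, h⁆ * g⁻¹) := by
                simp only [commutatorElement_def]; group
            _ = ⁅z, g⁆ * ⁅z, h⁆ := by rw [hc, mul_inv_cancel_right] }
    have hcomm : ∀ a b : π.ker, a * b = b * a := fun a b =>
      Subtype.ext (Subgroup.mem_center_iff.mp (hker b.2) a.1)
    have hle : commutator G ≤ f.ker := by
      rw [commutator_def, Subgroup.commutator_le]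
      intro a _ b _
      rw [MonoidHom.mem_ker, map_commutatorElement, commutatorElement_eq_one_iff_commute]
      exact hcomm _ _
    rw [hG.commutator_eq_top] at hle
    change z ∈ Subgroup.center G
    rw [Subgroup.mem_center_iff]
    intro g
    have : ⁅z, g⁆ = 1 := congrArg Subtype.val (MonoidHom.mem_ker.mp (hle (Subgroup.mem_top g)))
    exact (commutatorElement_eq_one_iff_commute.mp this).symm

end Cfsg.Agent.S3962
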