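import Cfsg.Statements.S3964
import Mathlib
import Cfsg.Agent.Lib.GS.StemDihedral

set_option autoImplicit false
open Cfsg

namespace Cfsg.Agent.S3964


/-- For odd `n` the dihedral group of order `2 n` has trivial Schur multiplier. -/
theorem result (n : ℕ) (hn : Odd n) : Cfsg.HasCyclicSchurMultiplier (DihedralGroup n) 1 := by
  haveI : NeZero n := ⟨hn.pos.ne'⟩
  refine Cfsg.Agent.Lib.GS.hasTrivialMultiplier fun Γ _ _ σ hσ => ?_
  obtain ⟨c, hcn, hc⟩ := Cfsg.Agent.Lib.GS.dihedral_stem_ker σ hσ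
  rw [eq_bot_iff]
  intro z hz
  obtain ⟨j, rfl, hj⟩ := hc z hz
  rw [Subgroup.mem_bot]
  obtain ⟨d, hd⟩ : (n : ℤ) ∣ j := by
    refine IsCoprime.dvd_of_dvd_mul_left ?_ hj
    rw [Int.isCoprime_iff_gcd_eq_one]
    simpa [Int.gcd, Nat.coprime_iff_gcd_eq_one] using (Nat.coprime_two_right.mpr hn)
  rw [hd, zpow_mul, zpow_natCast, hcn, one_zpow]

end Cfsg.Agent.S3964
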