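import Cfsg.Statements.S3967
import Cfsg.Agent.Lib.SchurMult.Metacyclic

set_option autoImplicit false
open Cfsg

namespace Cfsg.Agent.S3967


/-- Let `m, n ≥ 1`, `r ≥ 1` with `r ^ n ≡ 1 (mod m)`, and `l` a natural number; put `d = gcd(m, r - 1)`, `t = m l / d` and `h = d · gcd(m, 1 + r + ⋯ + r^(n-1)) / m`. The group presented by generators `a, b` and relations `a ^ m = 1`, `b ^ n = a ^ t`, `b a b⁻¹ = a ^ r` (a metacyclic group of order `m n`) has Schur multiplier cyclic of order `gcd(l, h)`. -/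
theorem result (m n r l : ℕ) (hm : 0 < m) (hn : 0 < n) (hr : 0 < r) (hrn : r ^ n ≡ 1 [MOD m]) : Cfsg.HasCyclicSchurMultiplier (PresentedGroup ({FreeGroup.of true ^ m, (FreeGroup.of false) ^ n * (FreeGroup.of true ^ (m * l / Nat.gcd m (r - 1)))⁻¹, FreeGroup.of false * FreeGroup.of true * (FreeGroup.of false)⁻¹ * (FreeGroup.of true ^ r)⁻¹} : Set (FreeGroup Bool))) (Nat.gcd l (Nat.gcd m (r - 1) * Nat.gcd m (∑ i ∈ Finset.range n, r ^ i) / m)) := by
  set rels : Set (FreeGroup Bool) := {FreeGroup.of true ^ m, (FreeGroup.of false) ^ n * (FreeGroup.of true ^ (m * l / Nat.gcd m (r - 1)))⁻¹, FreeGroup.of false * FreeGroup.of true * (FreeGroup.of false)⁻¹ * (FreeGroup.of true ^ r)⁻¹} with hrels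
  set d := Nat.gcd m (r - 1) with hd
  set S := ∑ i ∈ Finset.range n, r ^ i with hS
  have hdpos : 0 < d := Nat.gcd_pos_of_pos_left _ hm
  obtain ⟨m', hm'⟩ : d ∣ m := Nat.gcd_dvd_left _ _
  obtain ⟨r', hr'⟩ : d ∣ r - 1 := Nat.gcd_dvd_right _ _
  have hm'pos : 0 < m' := Nat.pos_of_ne_zero fun h => by rw [hm', h, mul_zero] at hm; omega
  have hcop : Nat.Coprime r' m' := by
    have h1 : d = d * Nat.gcd m' r' := by
      conv_lhs => rw [hd, hm', hr', Nat.gcd_mul_left]
    rw [Nat.Coprime, Nat.gcd_comm]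
    exact (Nat.eq_of_mul_eq_mul_left hdpos (by rw [← h1, mul_one]) : Nat.gcd m' r' = 1)
  have ht : m * l / d = m' * l := by rw [hm', mul_assoc, Nat.mul_div_cancel_left _ hdpos]
  have hgeo : ((r : ℤ) - 1) * (S : ℤ) = (r : ℤ) ^ n - 1 := by
    rw [hS]; push_cast; exact Cfsg.Agent.Lib.SchurMult.Metacyclic.geom_int r n
  have hr1 : ((r : ℤ) - 1) = (d : ℤ) * r' := by
    rw [← Nat.cast_one, ← Nat.cast_sub (show 1 ≤ r from hr), hr', Nat.cast_mul]
  have hmS : m' ∣ S := by
    have h1 : (m : ℤ) ∣ (r : ℤ) ^ n - 1 := by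
      have := hrn.symm
      rw [Nat.modEq_iff_dvd] at this
      push_cast at this
      exact this
    rw [← hgeo, hr1, hm', Nat.cast_mul, mul_assoc] at h1
    have h2 : m' ∣ r' * S := by
      exact_mod_cast Int.dvd_of_mul_dvd_mul_left (by exact_mod_cast hdpos.ne') h1
    exact (Nat.Coprime.symm hcop).dvd_of_dvd_mul_left h2
  obtain ⟨u, hu⟩ := hmS
  have hgcd : Nat.gcd m S = m' * Nat.gcd d u := by
    rw [hm', hu, mul_comm d m', Nat.gcd_mul_left]
  have hh : d * Nat.gcd m S / m = Nat.gcd d u := by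
    rw [hgcd, hm', ← mul_assoc, Nat.mul_div_cancel_left _ (Nat.mul_pos hdpos hm'pos)]
  rw [hh]
  set g := Nat.gcd l (Nat.gcd d u)
  have hgpos : 0 < g := Nat.gcd_pos_of_pos_right _ (Nat.gcd_pos_of_pos_left _ hdpos)
  set a : PresentedGroup rels := PresentedGroup.of true
  set b : PresentedGroup rels := PresentedGroup.of false
  have hgen : Subgroup.closure ({a, b} : Set (PresentedGroup rels)) = ⊤ := by
    rw [eq_top_iff, ← PresentedGroup.closure_range_of rels]
    refine Subgroup.closure_mono ?_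
    rintro _ ⟨i, rfl⟩
    cases i
    · exact Or.inr rfl
    · exact Or.inl rfl
  have hrel : ∀ w ∈ rels, PresentedGroup.mk rels w = 1 := fun w hw =>
    (QuotientGroup.eq_one_iff _).2 (Subgroup.subset_normalClosure hw)
  have ham : a ^ m = 1 := by
    have := hrel _ (show FreeGroup.of true ^ m ∈ rels from Or.inl rfl)
    rwa [map_pow] at this
  have hbn : b ^ n = a ^ (m' * l) := by
    have := hrel ((FreeGroup.of false) ^ n * (FreeGroup.of true ^ (m * l / d))⁻¹) (Or.inr (Or.inl rfl))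
    rwa [map_mul, map_inv, map_pow, map_pow, mul_inv_eq_one, ht] at this
  have hba : b * a * b⁻¹ = a ^ r := by
    have := hrel (FreeGroup.of false * FreeGroup.of true * (FreeGroup.of false)⁻¹ * (FreeGroup.of true ^ r)⁻¹)
      (Or.inr (Or.inr rfl))
    rwa [map_mul, map_mul, map_mul, map_inv, map_inv, map_pow, mul_inv_eq_one] at this
  have huniv : ∀ (H : Type) [Group H] (a' b' : H), a' ^ m = 1 → b' ^ n = a' ^ (m' * l) →
      b' * a' * b'⁻¹ = a' ^ r → ∃ f : PresentedGroup rels →* H, f a = a' ∧ f b = b' := by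
    intro H _ a' b' h1 h2 h3
    have hf : ∀ w ∈ rels, FreeGroup.lift (fun i : Bool => if i then a' else b') w = 1 := by
      intro w hw
      rcases hw with rfl | rfl | rfl
      · simp [h1]
      · rw [show m * l / m.gcd (r - 1) = m' * l from ht]; simp [h2]
      · simp [h3]
    refine ⟨PresentedGroup.toGroup hf, ?_, ?_⟩
    · simp [a, PresentedGroup.toGroup.of]
    · simp [b, PresentedGroup.toGroup.of]
  have hB := Nat.gcd_eq_gcd_ab m' r'
  rw [Nat.gcd_comm, hcop.gcd_eq_one] at hB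
  push_cast at hB
  obtain ⟨Γ, i1, i2, σ, hσ, ⟨e⟩, hord⟩ := Cfsg.Agent.Lib.SchurMult.Metacyclic.exists_cover a b m n r (m' * l) g
    (Nat.gcdB m' r') (Nat.gcdA m' r') (d := (d : ℤ)) (m' := (m' : ℤ)) (r' := (r' : ℤ)) (l' := (l : ℤ))
    hm hn hgpos (by linear_combination -hB) (by exact_mod_cast hm') hr1 (by push_cast; ring)
    (by exact_mod_cast (Nat.gcd_dvd_right l _).trans (Nat.gcd_dvd_left d u))
    (by exact_mod_cast Nat.gcd_dvd_left l _)
    (by
      refine ⟨(r' : ℤ) * u, ?_, ?_⟩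
      · rw [← hgeo, hr1, hm', hu]; push_cast; ring
      · have hgu : (g : ℤ) ∣ (u : ℤ) := by
          exact_mod_cast (Nat.gcd_dvd_right l _).trans (Nat.gcd_dvd_right d u)
        have hSu : (∑ i ∈ Finset.range n, (r : ℤ) ^ i) = (m' : ℤ) * u := by
          rw [← Nat.cast_mul, ← hu, hS]; push_cast; rfl
        rw [hSu]
        refine dvd_trans hgu (dvd_of_eq ?_)
        linear_combination (u : ℤ) * hB)
    ham hbn hba hgen huniv
  refine ⟨⟨Γ, i1, i2, σ, hσ, ⟨e⟩⟩, fun Γ' _ _ σ' hσ' => ?_⟩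
  refine Cfsg.Agent.Lib.SchurMult.Metacyclic.exists_surj a b m n r (m' * l) d m' l hr hgen ham hord hbn hba
    hm' rfl hr' hcop hdpos hm'pos σ' hσ' g fun k hkd hkl hkS => ?_
  refine Nat.dvd_gcd hkl (Nat.dvd_gcd hkd ?_)
  rw [← hS, hu, mul_comm k m'] at hkS
  exact Nat.dvd_of_mul_dvd_mul_left hm'pos hkS

end Cfsg.Agent.S3967
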