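import Cfsg.Statements.S3968
import Cfsg.Agent.Lib.Char.Scalar
import Cfsg.Agent.Lib.Char.Burnside
import Cfsg.Agent.Lib.Char.Linear
import Cfsg.Agent.Lib.Char.Degree

set_option autoImplicit false
open Cfsg

namespace Cfsg.Agent.S3968


/-- Let `p` be a prime and `G` a finite group with a faithful irreducible complex character of degree `p` (so `G` is an irreducible linear group in `p` variables). If `p ^ 2` divides the order of `G`, then the centre of `G` is nontrivial. -/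
theorem result {G : Type*} [Group G] [Finite G] (p : ℕ) (hp : p.Prime) (χ : Cfsg.IrrCharacter G) (hdeg : χ.1 1 = p) (hfaith : ∀ g : G, χ.1 g = χ.1 1 → g = 1) (hdiv : p ^ 2 ∣ Nat.card G) : Subgroup.center G ≠ ⊥ := by
  classical
  intro hcent
  haveI := Fact.mk hp
  haveI := Fintype.ofFinite G
  have hc := Cfsg.Agent.Lib.Char.isCharacter_of_isIrr χ.2
  -- scalar elements are trivial
  have hscal : ∀ z : G, ‖χ.1 z‖ = ‖χ.1 1‖ → z = 1 := by
    intro z hz
    have hmem : z ∈ Subgroup.center G := by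
      rw [Subgroup.mem_center_iff]
      intro h
      have h1 := (Cfsg.Agent.Lib.Char.apply_mul_of_norm_eq hc hz (h * z⁻¹ * h⁻¹)).1
      have h2 := (Cfsg.Agent.Lib.Char.apply_mul_of_norm_eq hc hz z⁻¹).1
      have hcl := Cfsg.Agent.Lib.Char.isClassFunction_of_isCharacter hc z⁻¹ h
      rw [mul_inv_cancel] at h2
      rw [hcl, ← h2] at h1
      have h3 := hfaith _ (mul_right_cancel₀ (by rw [hdeg]; exact_mod_cast hp.ne_zero) h1)
      calc h * z = (z * (h * z⁻¹ * h⁻¹)) * (h * z) := by rw [h3, one_mul]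
        _ = z * h := by group
    rwa [hcent, Subgroup.mem_bot] at hmem
  obtain ⟨P⟩ : Nonempty (Sylow p G) := Sylow.nonempty
  haveI := Fintype.ofFinite (P : Subgroup G)
  have hPdvd : p ^ 2 ∣ Nat.card (P : Subgroup G) := by
    rw [P.card_eq_multiplicity]
    exact pow_dvd_pow p ((Nat.Prime.pow_dvd_iff_le_factorization hp Nat.card_pos.ne').mp hdiv)
  -- values on the centre of P
  have hzero : ∀ x : (P : Subgroup G), x ∈ Subgroup.center (P : Subgroup G) → x ≠ 1 → χ.1 x = 0 := by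
    intro x hx hx1
    refine (Cfsg.Agent.Lib.Char.char_eq_zero_or_norm_eq χ.2 hdeg (x : G) ?_).resolve_right fun h => ?_
    · refine hp.coprime_iff_not_dvd.mpr fun hd => ?_
      have hle : (P : Subgroup G) ≤ Subgroup.centralizer ({(x : G)} : Set G) := fun y hy =>
        Subgroup.mem_centralizer_singleton_iff.mpr
          (congrArg Subtype.val (Subgroup.mem_center_iff.mp hx ⟨y, hy⟩))
      exact P.not_dvd_index (hd.trans (Subgroup.index_dvd_of_le hle))
    · refine hx1 (Subtype.ext (hscal _ ?_))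
      rw [h, hdeg, Complex.norm_natCast]
  haveI : Nontrivial (P : Subgroup G) := by
    rw [← Finite.one_lt_card_iff_nontrivial]
    exact lt_of_lt_of_le (Nat.one_lt_pow two_ne_zero hp.one_lt) (Nat.le_of_dvd Nat.card_pos hPdvd)
  set Z := Subgroup.center (P : Subgroup G) with hZ
  have hcardZ : Nat.card Z ∣ p := by
    obtain ⟨m, hm⟩ := Cfsg.Agent.Lib.Char.classInner_natCast
      (Cfsg.Agent.Lib.Char.isCharacter_comp hc ((P : Subgroup G).subtype.comp Z.subtype))
      (Cfsg.Agent.Lib.Char.isCharacter_one (G := Z))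
    refine Dvd.intro m ?_
    apply Nat.cast_injective (R := ℂ)
    rw [Nat.cast_mul, ← hm]
    simp only [Cfsg.classInner, map_one, mul_one]
    rw [Finset.sum_eq_single (1 : Z), ← mul_assoc,
      mul_inv_cancel₀ (Nat.cast_ne_zero.mpr Nat.card_pos.ne'), one_mul]
    · simpa using hdeg
    · intro z _ hz
      exact hzero z z.2 (fun e => hz (Subtype.ext e))
    · simp
  have hnab : ∃ a b : (P : Subgroup G), a * b ≠ b * a := by
    by_contra hab
    push Not at hab
    have hZt : Z = ⊤ := top_le_iff.mp fun a _ => Subgroup.mem_center_iff.mpr fun b => hab b a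
    rw [hZt, Subgroup.card_top] at hcardZ
    have := Nat.le_of_dvd hp.pos (hPdvd.trans hcardZ)
    nlinarith [hp.one_lt]
  obtain ⟨a, b, hab⟩ := hnab
  have hres := Cfsg.Agent.Lib.Char.isCharacter_comp hc (P : Subgroup G).subtype
  obtain ⟨n, hn⟩ := Cfsg.Agent.Lib.Char.isCharacter_eq_sum hres
  have hval : ∀ y : (P : Subgroup G), χ.1 y =
      ∑ ψ : Cfsg.IrrCharacter (P : Subgroup G), (n ψ : ℂ) * ψ.1 y := by
    intro y
    have := congrFun hn y
    simpa using this
  have hd : ∀ ψ : Cfsg.IrrCharacter (P : Subgroup G), ψ.1 1 = (Cfsg.charDegree ψ.1 : ℂ) := fun ψ =>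
    Cfsg.Agent.Lib.Char.apply_one_eq_charDegree (Cfsg.Agent.Lib.Char.isCharacter_of_isIrr ψ.2)
  obtain ⟨ψ₀, hn0, hd0⟩ : ∃ ψ : Cfsg.IrrCharacter (P : Subgroup G), n ψ ≠ 0 ∧ Cfsg.charDegree ψ.1 ≠ 1 := by
    by_contra hall
    push Not at hall
    apply hab
    have h1 : χ.1 ((a * b * (b * a)⁻¹ : (P : Subgroup G)) : G) = χ.1 1 := by
      rw [hval, show (1 : G) = ((1 : (P : Subgroup G)) : G) from rfl, hval]
      refine Finset.sum_congr rfl fun ψ _ => ?_
      rcases eq_or_ne (n ψ) 0 with h | h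
      · simp [h]
      · obtain ⟨l, hl⟩ := Cfsg.Agent.Lib.Char.exists_hom_of_degree_one
          (Cfsg.Agent.Lib.Char.isCharacter_of_isIrr ψ.2) (by rw [hd, hall ψ h, Nat.cast_one])
        simp only [hl, map_one, map_mul, map_inv, mul_comm (l b) (l a), mul_inv_cancel]
    exact mul_inv_eq_one.mp (Subtype.ext (hfaith _ h1))
  have hdeg0 : Cfsg.charDegree ψ₀.1 = p ∧ ∀ ψ, ψ ≠ ψ₀ → n ψ * Cfsg.charDegree ψ.1 = 0 := by
    have hsum : p = ∑ ψ : Cfsg.IrrCharacter (P : Subgroup G), n ψ * Cfsg.charDegree ψ.1 := by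
      apply Nat.cast_injective (R := ℂ)
      push_cast
      rw [← hdeg, show (1 : G) = ((1 : (P : Subgroup G)) : G) from rfl, hval]
      simp only [hd]
    rw [← Finset.add_sum_erase _ _ (Finset.mem_univ ψ₀)] at hsum
    obtain ⟨k, hk⟩ := IsPGroup.iff_card.mp P.2
    obtain ⟨j, -, hj⟩ := (Nat.dvd_prime_pow hp).mp
      (hk ▸ Cfsg.Agent.Lib.Char.charDegree_dvd_card ψ₀.2)
    have hj0 : 1 ≤ j := Nat.one_le_iff_ne_zero.mpr fun e => hd0 (by rw [hj, e, pow_zero])
    have hle : p ≤ Cfsg.charDegree ψ₀.1 := hj ▸ Nat.le_self_pow (by omega) p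
    have hle2 : Cfsg.charDegree ψ₀.1 ≤ n ψ₀ * Cfsg.charDegree ψ₀.1 :=
      Nat.le_mul_of_pos_left _ (Nat.pos_of_ne_zero hn0)
    refine ⟨by omega, fun ψ hψ => ?_⟩
    have h0 : ∑ ψ ∈ Finset.univ.erase ψ₀, n ψ * Cfsg.charDegree ψ.1 = 0 := by omega
    exact Finset.sum_eq_zero_iff.mp h0 ψ (Finset.mem_erase.mpr ⟨hψ, Finset.mem_univ _⟩)
  obtain ⟨z, hz, hz1⟩ : ∃ z ∈ Z, z ≠ 1 := by
    haveI := P.2.center_nontrivial
    obtain ⟨z, hz⟩ := exists_ne (1 : Z)
    exact ⟨z, z.2, fun e => hz (Subtype.ext e)⟩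
  have h1 := hzero z hz hz1
  rw [hval, Finset.sum_eq_single ψ₀] at h1
  · rcases mul_eq_zero.mp h1 with h | h
    · exact hn0 (by exact_mod_cast h)
    · have := Cfsg.Agent.Lib.Char.norm_char_of_mem_center ψ₀.2 hz
      rw [h, hd, hdeg0.1, Complex.norm_natCast, norm_zero] at this
      exact hp.ne_zero (by exact_mod_cast this.symm)
  · intro ψ _ hψ
    rcases mul_eq_zero.mp (hdeg0.2 ψ hψ) with h | h
    · simp [h]
    · exact absurd h (Cfsg.Agent.Lib.Char.charDegree_pos ψ.2).ne'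
  · simp

end Cfsg.Agent.S3968
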