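import Cfsg.Statements.S3969
import Mathlib

set_option autoImplicit false
open Cfsg

namespace Cfsg.Agent.S3969

theorem aut_trivial {P : Type*} [CommGroup P] [Finite P] {p q : ℕ} [Fact p.Prime] (hP : IsPGroup p P)
    (σ : P ≃* P) (hq : q.Prime) (hσ : ∀ x, (σ.toEquiv^[q]) x = x) (hqp : q ≠ p)
    (hdiv : ∀ i, 1 ≤ i → i ≤ Group.rank P → ¬ q ∣ p ^ i - 1) : ∀ x, σ x = x := by
  have hp : p.Prime := Fact.out
  have hiter : ∀ x, (⇑σ)^[q] x = x := hσ
  set K : Subgroup P := (powMonoidHom p).ker with hK
  obtain ⟨d, hd⟩ := IsPGroup.iff_card.1 (hP.to_subgroup K)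
  have hdr : d ≤ Group.rank P := by
    set R : Subgroup P := (powMonoidHom p : P →* P).range with hR
    have h1 : Nat.card K = Nat.card (P ⧸ R) := by
      rw [← Subgroup.index_eq_card]
      have e1 := K.card_mul_index
      have e2 := R.card_mul_index
      have e3 : K.index = Nat.card R := by rw [hK, hR]; exact Subgroup.index_ker _
      rw [← e2, e3, mul_comm (Nat.card R)] at e1
      exact Nat.eq_of_mul_eq_mul_right Nat.card_pos e1
    have h2 : Nat.card (P ⧸ R) ∣ p ^ Group.rank (P ⧸ R) := by
      refine card_dvd_exponent_pow_rank' _ fun g => ?_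
      obtain ⟨g, rfl⟩ := QuotientGroup.mk_surjective g
      rw [← QuotientGroup.mk_pow, QuotientGroup.eq_one_iff]
      exact ⟨g, rfl⟩
    rw [← h1, hd] at h2
    exact ((Nat.pow_dvd_pow_iff_le_right hp.one_lt).1 h2).trans
      (Group.rank_le_of_surjective (QuotientGroup.mk' R) (QuotientGroup.mk'_surjective R))
  -- the automorphism fixes the elements of order dividing `p`
  haveI : Fact q.Prime := ⟨hq⟩
  set f : K → K := fun x => ⟨σ x.1, MonoidHom.mem_ker.2 (by
    rw [powMonoidHom_apply, ← map_pow, show (x.1 : P) ^ p = 1 from x.2, map_one])⟩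
  have hf : ∀ (j : ℕ) (x : K), ((f^[j] x : K) : P) = (⇑σ)^[j] x := by
    intro j
    induction j with
    | zero => intro x; rfl
    | succ j ih => intro x; rw [Function.iterate_succ_apply', Function.iterate_succ_apply', ← ih]
  set F : Subgroup P := σ.toMonoidHom.eqLocus (MonoidHom.id P) ⊓ K with hF
  have hFK : F = K := by
    by_contra hne
    obtain ⟨e, he⟩ := IsPGroup.iff_card.1 (hP.to_subgroup F)
    have hed : e < d := by
      by_contra hle
      refine hne (Subgroup.eq_of_le_of_card_ge inf_le_right ?_)
      rw [he, hd]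
      exact Nat.pow_le_pow_right hp.pos (not_lt.1 hle)
    have hmod : Nat.card K ≡ Nat.card (Function.fixedPoints f) [MOD q] := by
      classical
      have := Fintype.ofFinite K
      rw [Nat.card_eq_fintype_card, Nat.card_eq_fintype_card]
      exact Equiv.Perm.card_fixedPoints_modEq (p := q) (n := 1)
        (funext fun x => Subtype.ext (by rw [pow_one]; exact (hf q x).trans (hiter x)))
    have hfix : Nat.card (Function.fixedPoints f) = Nat.card F := Nat.card_congr
      { toFun := fun x => ⟨x.1.1, congrArg Subtype.val x.2, x.1.2⟩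
        invFun := fun y => ⟨⟨y.1, y.2.2⟩, Subtype.ext y.2.1⟩
        left_inv := fun x => rfl
        right_inv := fun y => rfl }
    rw [hfix, hd, he] at hmod
    have h := (Nat.modEq_iff_dvd' (Nat.pow_le_pow_right hp.pos hed.le)).1 hmod.symm
    obtain ⟨i, rfl⟩ : ∃ i, d = e + i := ⟨d - e, by omega⟩
    rw [pow_add, ← Nat.mul_sub_one] at h
    rcases hq.dvd_mul.1 h with h' | h'
    · exact hqp ((Nat.prime_dvd_prime_iff_eq hq hp).1 (hq.dvd_of_dvd_pow h'))
    · exact hdiv i (by omega) (by omega) h'
  intro x
  obtain ⟨k, hk⟩ := hP x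
  induction k generalizing x with
  | zero => rw [pow_zero, pow_one] at hk; rw [hk, map_one]
  | succ k ih =>
    have hfx := ih (x ^ p) (by rw [← pow_mul, mul_comm, ← pow_succ, hk])
    rw [map_pow] at hfx
    set w := σ x * x⁻¹ with hw
    have hwK : w ∈ K := by
      rw [hK, MonoidHom.mem_ker, powMonoidHom_apply, hw, mul_pow, inv_pow, hfx, mul_inv_cancel]
    have hwf : σ w = w := by rw [← hFK] at hwK; exact hwK.1
    have hj : ∀ j : ℕ, (⇑σ)^[j] x = x * w ^ j := by
      intro j
      induction j with
      | zero => simp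
      | succ j ihj =>
        rw [Function.iterate_succ_apply', ihj, map_mul, map_pow, hwf, show σ x = x * w by rw [hw]; simp,
          mul_assoc, ← pow_succ']
    have hwq : w ^ q = 1 := mul_left_cancel (a := x) (by rw [← hj q, hiter, mul_one])
    have hw1 : orderOf w = 1 := Nat.eq_one_of_dvd_coprimes ((Nat.coprime_primes hp hq).2 (Ne.symm hqp))
      (orderOf_dvd_iff_pow_eq_one.2 hwK) (orderOf_dvd_iff_pow_eq_one.2 hwq)
    exact mul_inv_eq_one.1 (orderOf_eq_one_iff.1 hw1)

/-- Let `P` be an abelian Sylow `p`-subgroup of the finite group `G`, generated by `d` elements (`d` its minimal number of generators). If the order of `G` is coprime to `(p - 1)(p ^ 2 - 1) ⋯ (p ^ d - 1)`, then `G` has a normal `p`-complement. (The classical statement needs only the largest number of cyclic factors of `P` of equal order in place of `d`; the form here follows from it.) -/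
theorem result {G : Type*} [Group G] [Finite G] (p : ℕ) [Fact p.Prime] (P : Sylow p G) (hab : IsMulCommutative (P : Subgroup G)) (hcop : Nat.Coprime (Nat.card G) (∏ i ∈ Finset.Icc 1 (Group.rank (P : Subgroup G)), (p ^ i - 1))) : Cfsg.HasNormalPComplement p G := by
  classical
  have hp : p.Prime := Fact.out
  haveI := hab
  set N := Subgroup.normalizer ((P : Subgroup G) : Set G) with hN
  have hle : N ≤ Subgroup.centralizer ((P : Subgroup G) : Set G) := by
    by_contra hnle
    set C := (Subgroup.centralizer ((P : Subgroup G) : Set G)).subgroupOf N with hC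
    haveI : C.Normal := inferInstanceAs (((Subgroup.centralizer ((P : Subgroup G) : Set G)).subgroupOf N).Normal)
    haveI : Nontrivial (N ⧸ C) := QuotientGroup.nontrivial_iff.2 (by
      rw [Ne, hC, Subgroup.subgroupOf_eq_top]; exact hnle)
    obtain ⟨q, hq, hqd⟩ := Nat.exists_prime_and_dvd (Finite.one_lt_card (α := N ⧸ C)).ne'
    haveI := Fact.mk hq
    have hidx : C.index ∣ (P : Subgroup G).index := by
      have h1 : (P : Subgroup G).relIndex N ∣ (P : Subgroup G).index :=
        Dvd.intro _ (Subgroup.relIndex_mul_index Subgroup.le_normalizer)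
      refine dvd_trans (Subgroup.index_dvd_of_le ?_) h1
      intro a ha
      rw [hC, Subgroup.mem_subgroupOf, Subgroup.mem_centralizer_iff]
      intro b hb
      exact congrArg Subtype.val (hab.1.1 ⟨b, hb⟩ ⟨_, ha⟩)
    rw [← Subgroup.index_eq_card] at hqd
    have hqp : q ≠ p := by
      intro h
      have h2 := hqd.trans hidx
      rw [h] at h2
      exact P.not_dvd_index h2
    have hqG : q ∣ Nat.card G := (hqd.trans hidx).trans (Subgroup.index_dvd_card _)
    rw [Subgroup.index_eq_card] at hqd
    obtain ⟨ybar, hy⟩ := exists_prime_orderOf_dvd_card' (G := N ⧸ C) q hqd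
    obtain ⟨y, rfl⟩ := QuotientGroup.mk_surjective ybar
    have hyq : y ^ q ∈ C := by
      rw [← QuotientGroup.eq_one_iff, QuotientGroup.mk_pow, ← hy]
      exact pow_orderOf_eq_one _
    let cg : CommGroup ↥(P : Subgroup G) :=
      { (inferInstance : Group ↥(P : Subgroup G)) with mul_comm := fun a b => hab.1.1 a b }
    have hmem : ∀ (z : N) (x : ↥(P : Subgroup G)), (z : G) * x * (z : G)⁻¹ ∈ (P : Subgroup G) := fun z x =>
      (Subgroup.mem_normalizer_iff.1 z.2 x).1 x.2
    let σ : ↥(P : Subgroup G) ≃* ↥(P : Subgroup G) :=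
      { toFun := fun x => ⟨_, hmem y x⟩
        invFun := fun x => ⟨_, hmem y⁻¹ x⟩
        left_inv := fun x => Subtype.ext (by simp [mul_assoc])
        right_inv := fun x => Subtype.ext (by simp [mul_assoc])
        map_mul' := fun a b => Subtype.ext (by simp [mul_assoc]) }
    have hit : ∀ (j : ℕ) x, ((σ.toEquiv^[j] x : ↥(P : Subgroup G)) : G) = (y : G) ^ j * x * ((y : G) ^ j)⁻¹ := by
      intro j
      induction j with
      | zero => intro x; simp
      | succ j ih =>
        intro x
        rw [Function.iterate_succ_apply']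
        change (y : G) * _ * (y : G)⁻¹ = _
        rw [ih, pow_succ']; group
    have htriv := aut_trivial P.2 σ hq (fun x => Subtype.ext (by
      rw [hit]
      have hc : ((y ^ q : N) : G) ∈ Subgroup.centralizer ((P : Subgroup G) : Set G) := hyq
      rw [SubgroupClass.coe_pow, Subgroup.mem_centralizer_iff] at hc
      rw [← hc x x.2, mul_inv_cancel_right])) hqp (fun i h1 h2 hdvd => hq.one_lt.ne'
        (Nat.eq_one_of_dvd_coprimes hcop hqG
          (hdvd.trans (Finset.dvd_prod_of_mem _ (Finset.mem_Icc.2 ⟨h1, h2⟩)))))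
    have hyC : y ∈ C := by
      rw [hC, Subgroup.mem_subgroupOf, Subgroup.mem_centralizer_iff]
      intro b hb
      have := congrArg Subtype.val (htriv ⟨b, hb⟩)
      exact (mul_inv_eq_iff_eq_mul.1 this).symm
    rw [(QuotientGroup.eq_one_iff y).2 hyC, orderOf_one] at hy
    exact hq.one_lt.ne hy
  exact ⟨P, _, inferInstance, MonoidHom.ker_transferSylow_isComplement' P hle⟩

end Cfsg.Agent.S3969
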