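import Cfsg.Statements.S3970
import Mathlib
import Cfsg.Agent.S3969

set_option autoImplicit false
open Cfsg

namespace Cfsg.Agent.S3970

universe u

theorem solvable_aux : ∀ (n : ℕ) (G : Type u) [Group G] [Finite G], Nat.card G = n →
    (∀ p : ℕ, p.Prime → p ∣ Nat.card G → (∃ q : ℕ, q.Prime ∧ q ∣ Nat.card G ∧ p < q) → ∀ P : Sylow p G,
      IsMulCommutative (P : Subgroup G) ∧ Group.rank (P : Subgroup G) ≤ 2) →
    ¬ 12 ∣ Nat.card G → Group.IsSolvable G := by
  intro n
  induction n using Nat.strong_induction_on with
  | _ n ih =>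
  intro G _ _ hn h h12
  rcases eq_or_ne n 1 with rfl | hn1
  · haveI := (Nat.card_eq_one_iff_unique.1 hn).1
    exact Group.isSolvable_of_comm fun a b => Subsingleton.elim _ _
  obtain ⟨p, hp_def⟩ : ∃ p, p = (Nat.card G).minFac := ⟨_, rfl⟩
  have hp : p.Prime := hp_def ▸ Nat.minFac_prime (by rw [hn]; exact hn1)
  haveI := Fact.mk hp
  have hpG : p ∣ Nat.card G := hp_def ▸ Nat.minFac_dvd _
  obtain ⟨P⟩ : Nonempty (Sylow p G) := inferInstance
  by_cases hq : ∃ q : ℕ, q.Prime ∧ q ∣ Nat.card G ∧ p < q
  · obtain ⟨hab, hrank⟩ := h p hp hpG hq P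
    have hcop : Nat.Coprime (Nat.card G) (∏ i ∈ Finset.Icc 1 (Group.rank (P : Subgroup G)), (p ^ i - 1)) := by
      refine Nat.Coprime.prod_right fun i hi => Nat.coprime_of_dvd fun q hqp hqG hqi => ?_
      rw [Finset.mem_Icc] at hi
      have hge : p ≤ q := hp_def ▸ Nat.minFac_le_of_dvd hqp.two_le hqG
      have h1p : 1 ≤ p ^ i := hp.pos.trans_le (Nat.le_self_pow (by omega) p)
      have hne : q ≠ p := by
        intro hqp'
        rw [hqp'] at hqi
        have := Nat.dvd_sub (dvd_pow_self p (by omega : i ≠ 0)) hqi
        rw [Nat.sub_sub_self h1p] at this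
        exact hp.not_dvd_one this
      have hi2 : i = 1 ∨ i = 2 := by omega
      have hq1 : q ≤ p + 1 := by
        rcases hi2 with rfl | rfl
        · rw [pow_one] at hqi
          have := Nat.le_of_dvd (by have := hp.two_le; omega) hqi
          omega
        · have hfac : p ^ 2 - 1 = (p + 1) * (p - 1) := by
            rw [← Nat.sq_sub_sq, one_pow]
          rw [hfac] at hqi
          rcases hqp.dvd_mul.1 hqi with h' | h'
          · exact Nat.le_of_dvd (Nat.succ_pos p) h'
          · have := Nat.le_of_dvd (by have := hp.two_le; omega) h'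
            omega
      have hq2 : q = p + 1 := by omega
      have hp2 : p = 2 := by
        rcases hp.eq_two_or_odd with h' | h'
        · exact h'
        · have h2p := hp.two_le
          rcases hqp.eq_two_or_odd with h'' | h'' <;> omega
      subst hq2
      rw [hp2] at hqi hqG
      rcases hi2 with rfl | rfl
      · norm_num at hqi
      -- the Sylow `2`-subgroup has order two
      have h4 : ¬ 4 ∣ Nat.card G := fun h4 => h12 (by
        have : Nat.Coprime 4 3 := by norm_num
        exact this.mul_dvd_of_dvd_of_dvd h4 hqG)
      have hPcard : Nat.card (P : Subgroup G) = p := by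
        rw [P.card_eq_multiplicity]
        have h1 : (Nat.card G).factorization p = 1 := by
          have hge1 := hp.factorization_pos_of_dvd Nat.card_pos.ne' hpG
          by_contra hne1
          refine h4 ((show 4 ∣ p ^ 2 by rw [hp2]; norm_num).trans ?_)
          exact (pow_dvd_pow p (by omega)).trans (Nat.ordProj_dvd _ _)
        rw [h1, pow_one]
      haveI := isCyclic_of_prime_card (α := (P : Subgroup G)) hPcard
      obtain ⟨g, hg⟩ := IsCyclic.exists_generator (α := (P : Subgroup G))
      have hr : Group.rank (P : Subgroup G) ≤ 1 := by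
        have := Group.rank_le (G := (P : Subgroup G)) (S := {g}) (by
          rw [Finset.coe_singleton, ← Subgroup.zpowers_eq_closure]
          exact eq_top_iff.2 fun x _ => hg x)
        simpa using this
      omega
    obtain ⟨Q, N, hN, hNQ⟩ := Cfsg.Agent.S3969.result p P hab hcop
    have hlt : Nat.card N < n := by
      rw [← hn, ← hNQ.card_mul]
      exact (Nat.lt_mul_iff_one_lt_right Nat.card_pos).2 ((Subgroup.one_lt_card_iff_ne_bot _).2 (Q.ne_bot_of_dvd_card hpG))
    have hdvd : Nat.card N ∣ Nat.card G := Subgroup.card_subgroup_dvd_card N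
    haveI : Group.IsSolvable N := by
      refine ih _ hlt N rfl ?_ fun h' => h12 (h'.trans hdvd)
      rintro r hr hrN ⟨q, hq1, hq2, hq3⟩ R
      haveI := Fact.mk hr
      have hrp : r ≠ p := by
        rintro rfl
        rw [← hNQ.index_eq_card] at hrN
        exact Q.not_dvd_index hrN
      have hcard : Nat.card ((R : Subgroup N).map N.subtype) = r ^ (Nat.card G).factorization r := by
        rw [Subgroup.card_map_of_injective N.subtype_injective, R.card_eq_multiplicity, ← hNQ.card_mul,
          Nat.factorization_mul Nat.card_pos.ne' Nat.card_pos.ne', Finsupp.add_apply, Q.card_eq_multiplicity,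
          hp.factorization_pow, Finsupp.single_eq_of_ne hrp, add_zero]
      obtain ⟨hRab, hRr⟩ := h r hr (hrN.trans hdvd) ⟨q, hq1, hq2.trans hdvd, hq3⟩ (Sylow.ofCard _ hcard)
      set e := (R : Subgroup N).equivMapOfInjective N.subtype N.subtype_injective
      refine ⟨⟨⟨fun a b => e.injective ?_⟩⟩, ?_⟩
      · rw [map_mul, map_mul]; exact hRab.1.1 _ _
      · exact (Group.rank_congr e).le.trans hRr
    haveI : Group.IsSolvable (G ⧸ N) := by
      have hq' : IsPGroup p (G ⧸ N) := by
        refine IsPGroup.of_card (n := (Nat.card G).factorization p) ?_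
        rw [← Subgroup.index_eq_card, hNQ.symm.index_eq_card, Q.card_eq_multiplicity]
      haveI := hq'.isNilpotent
      infer_instance
    exact Group.isSolvable_of_ker_le_range N.subtype (QuotientGroup.mk' N)
      (by rw [QuotientGroup.ker_mk', Subgroup.range_subtype])
  · have hP : IsPGroup p G := by
      refine IsPGroup.of_card (n := (Nat.card G).factorization p) ?_
      refine Nat.eq_pow_of_factorization_eq_single Nat.card_pos.ne' (Finsupp.ext fun r => ?_)
      rcases eq_or_ne r p with rfl | hne
      · simp
      rw [Finsupp.single_eq_of_ne hne]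
      by_contra h0
      have hmem : r ∈ (Nat.card G).primeFactors := by
        rw [← Nat.support_factorization, Finsupp.mem_support_iff]; exact h0
      rw [Nat.mem_primeFactors] at hmem
      exact hq ⟨r, hmem.1, hmem.2.1, lt_of_le_of_ne (hp_def ▸ Nat.minFac_le_of_dvd hmem.1.two_le hmem.2.1) hne.symm⟩
    haveI := hP.isNilpotent
    infer_instance

/-- Let `G` be a finite group such that for every prime `p` dividing its order, other than the largest such prime, the Sylow `p`-subgroups are abelian and generated by at most two elements, and suppose `12` does not divide the order of `G`. Then `G` is solvable. In particular a group of cube-free order not divisible by `12` is solvable. -/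
theorem result {G : Type*} [Group G] [Finite G] (h : ∀ p : ℕ, p.Prime → p ∣ Nat.card G → (∃ q : ℕ, q.Prime ∧ q ∣ Nat.card G ∧ p < q) → ∀ P : Sylow p G, IsMulCommutative (P : Subgroup G) ∧ Group.rank (P : Subgroup G) ≤ 2) (h12 : ¬ 12 ∣ Nat.card G) : Group.IsSolvable G := solvable_aux _ G rfl h h12

end Cfsg.Agent.S3970
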