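import Cfsg.Statements.S3971
import Mathlib
import Cfsg.Agent.Lib.Transfer.Fusion
import Cfsg.Agent.Lib.Transfer.Hall
import Cfsg.Agent.Lib.Coprime.Action

set_option autoImplicit false
open Cfsg

namespace Cfsg.Agent.S3971

open Subgroup

theorem fix_of_card_le_four {V : Type*} [Finite V] (hV : Nat.card V ≤ 4) (f : V → V) {o : ℕ}
    (ho : Nat.Coprime o 6) (hf : ∀ v, f^[o] v = v) (v : V) : f v = v := by
  classical
  have := Fintype.ofFinite V
  have ho0 : 0 < o := Nat.pos_of_ne_zero fun h => by simp [h] at ho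
  have hper : Function.IsPeriodicPt f o v := hf v
  have hdvd := hper.minimalPeriod_dvd
  have hle : Function.minimalPeriod f v ≤ 4 := by
    refine le_trans ?_ hV
    rw [Nat.card_eq_fintype_card, ← Finset.card_univ, ← Finset.card_range (Function.minimalPeriod f v)]
    refine Finset.card_le_card_of_injOn (fun i => f^[i] v) (fun _ _ => Finset.mem_coe.2 (Finset.mem_univ _)) ?_
    intro i hi j hj h
    exact Function.iterate_injOn_Iio_minimalPeriod (by simpa using hi) (by simpa using hj) h
  have hpos : 0 < Function.minimalPeriod f v := hper.minimalPeriod_pos ho0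
  have h1 : Function.minimalPeriod f v = 1 := by
    have hc : Nat.Coprime (Function.minimalPeriod f v) 6 := ho.coprime_dvd_left hdvd
    interval_cases Function.minimalPeriod f v
    · rfl
    all_goals norm_num at hc
  exact Function.minimalPeriod_eq_one_iff_isFixedPt.1 h1

theorem quotient_card_le_four {Q : Type*} [Group Q] [Finite Q] (hQ : IsPGroup 2 Q) (C : Subgroup Q)
    (hC : IsCyclic C) (hidx : ∀ y z : Q, y ∉ C → z ∉ C → y⁻¹ * z ∈ C) :
    Nat.card (Q ⧸ frattini Q) ≤ 4 := by
  classical
  obtain ⟨c, hc⟩ := hC.exists_generator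
  obtain ⟨y, hy⟩ : ∃ y : Q, ∀ z : Q, z ∉ C → y⁻¹ * z ∈ C := by
    by_cases h : ∃ y, y ∉ C
    · obtain ⟨y, hy⟩ := h; exact ⟨y, fun z hz => hidx y z hy hz⟩
    · push Not at h; exact ⟨1, fun z hz => absurd (h z) hz⟩
  let f : Bool × Bool → Q ⧸ frattini Q := fun b =>
    ((cond b.1 y 1 * cond b.2 (c : Q) 1 : Q) : Q ⧸ frattini Q)
  have hpow : ∀ w ∈ C, (w : Q ⧸ frattini Q) = 1 ∨ (w : Q ⧸ frattini Q) = ((c : Q) : Q ⧸ frattini Q) := by
    intro w hw
    obtain ⟨i, hi⟩ := mem_zpowers_iff.1 (hc ⟨w, hw⟩)
    have hwc : (w : Q) = (c : Q) ^ i := by rw [← SubgroupClass.coe_zpow, hi]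
    have h2 : ((c : Q) : Q ⧸ frattini Q) ^ (2 : ℤ) = 1 := by
      rw [zpow_two, ← QuotientGroup.mk_mul, QuotientGroup.eq_one_iff, ← sq]
      exact Cfsg.Agent.Lib.Transfer.pow_mem_frattini hQ (c : Q)
    rw [hwc, QuotientGroup.mk_zpow]
    rcases Int.even_or_odd i with ⟨k, hk⟩ | ⟨k, hk⟩
    · left; rw [hk, ← two_mul, zpow_mul, h2, one_zpow]
    · right; rw [hk, zpow_add, zpow_mul, h2, one_zpow, one_mul, zpow_one]
  have hsurj : Function.Surjective f := by
    intro v
    obtain ⟨z, rfl⟩ := QuotientGroup.mk_surjective v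
    by_cases hz : z ∈ C
    · rcases hpow z hz with h | h
      · exact ⟨(false, false), by simp [f, h]⟩
      · exact ⟨(false, true), by simp [f, h]⟩
    · have hzy : (z : Q ⧸ frattini Q) = (y : Q ⧸ frattini Q) * ((y⁻¹ * z : Q) : Q ⧸ frattini Q) := by
        rw [← QuotientGroup.mk_mul, mul_inv_cancel_left]
      rcases hpow _ (hy z hz) with h | h
      · exact ⟨(true, false), by rw [hzy, h]; simp [f]⟩
      · exact ⟨(true, true), by rw [hzy, h]; simp [f]⟩
  have := Nat.card_le_card_of_surjective f hsurj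
  simpa using this

/-- Let `G` be a finite group of order `2 ^ a * n` with `n` odd and not divisible by `3`, and suppose `G` has an element of order `2 ^ (a - 1)` (so a Sylow `2`-subgroup has a cyclic subgroup of index at most `2`). Then `G` has a normal subgroup of order `n`. -/
theorem result {G : Type*} [Group G] [Finite G] (a n : ℕ) (hG : Nat.card G = 2 ^ a * n) (hn : Odd n) (h3 : ¬ 3 ∣ n) (hx : ∃ x : G, orderOf x = 2 ^ (a - 1)) : ∃ N : Subgroup G, N.Normal ∧ Nat.card N = n := by
  classical
  haveI : Fact (Nat.Prime 2) := ⟨Nat.prime_two⟩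
  have hn2 : ¬ 2 ∣ n := fun h => (Nat.not_even_iff_odd.2 hn) (even_iff_two_dvd.2 h)
  have hn0 : n ≠ 0 := fun h => by simp [h] at hn
  have hfac : (Nat.card G).factorization 2 = a := by
    rw [hG, Nat.factorization_mul (by positivity) hn0, Finsupp.add_apply, Nat.prime_two.factorization_pow,
      Finsupp.single_eq_same, Nat.factorization_eq_zero_of_not_dvd hn2, add_zero]
  obtain ⟨x, hx⟩ := hx
  have hnpc : Cfsg.HasNormalPComplement 2 G := by
    refine Cfsg.Agent.Lib.Transfer.frobenius_criterion fun Q hQ g hgN hg2 => ?_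
    obtain ⟨S, hS⟩ := hQ.exists_le_sylow
    obtain ⟨P0, hP0⟩ := (IsPGroup.of_card (n := a - 1) ((Nat.card_zpowers x).trans hx)).exists_le_sylow
      (G := G) (P := Subgroup.zpowers x)
    obtain ⟨t, ht⟩ := MulAction.exists_smul_eq G P0 S
    have hxS : t * x * t⁻¹ ∈ (S : Subgroup G) := by
      rw [← ht, Sylow.coe_subgroup_smul]
      exact Subgroup.smul_mem_pointwise_smul x (MulAut.conj t) _ (hP0 (Subgroup.mem_zpowers x))
    set C : Subgroup G := Subgroup.zpowers (t * x * t⁻¹) with hC
    have hCcard : Nat.card C = 2 ^ (a - 1) := by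
      rw [hC, Nat.card_zpowers, show t * x * t⁻¹ = MulAut.conj t x from rfl, MulEquiv.orderOf_eq, hx]
    have hSidx : (C.subgroupOf S).index ≤ 2 := by
      have hcm := (C.subgroupOf (S : Subgroup G)).card_mul_index
      rw [Nat.card_congr (Subgroup.subgroupOfEquivOfLe (Subgroup.zpowers_le.2 hxS : C ≤ S)).toEquiv, hCcard,
        S.card_eq_multiplicity, hfac] at hcm
      rcases a with _ | a
      · rw [Nat.zero_sub, pow_zero, one_mul] at hcm; omega
      · simp only [Nat.add_sub_cancel, pow_succ] at hcm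
        exact (Nat.eq_of_mul_eq_mul_left (pow_pos two_pos a) hcm).le
    have hidx : ∀ y z : Q, y ∉ C.subgroupOf Q → z ∉ C.subgroupOf Q → y⁻¹ * z ∈ C.subgroupOf Q := by
      intro y z hy hz
      rw [Subgroup.mem_subgroupOf] at hy hz ⊢
      have hne : (C.subgroupOf (S : Subgroup G)).index = 2 := by
        have h1 : (C.subgroupOf (S : Subgroup G)).index ≠ 1 := fun h =>
          hy (Subgroup.subgroupOf_eq_top.1 (Subgroup.index_eq_one.1 h) (hS y.2))
        have h0 : (C.subgroupOf (S : Subgroup G)).index ≠ 0 := Subgroup.index_ne_zero_of_finite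
        omega
      have := (Subgroup.mul_mem_iff_of_index_two hne (a := (⟨y.1, hS y.2⟩ : (S : Subgroup G))⁻¹)
        (b := ⟨z.1, hS z.2⟩)).2 (by
          rw [inv_mem_iff]
          exact ⟨fun h => absurd (Subgroup.mem_subgroupOf.1 h) hy, fun h => absurd (Subgroup.mem_subgroupOf.1 h) hz⟩)
      exact this
    have hCQ : IsCyclic (C.subgroupOf Q) := by
      have hle : (C.subgroupOf Q).map Q.subtype ≤ C := (Subgroup.subgroupOf_map_subtype C Q).le.trans inf_le_left
      set e := (C.subgroupOf Q).equivMapOfInjective Q.subtype Q.subtype_injective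
      exact isCyclic_of_injective ((Subgroup.inclusion hle).comp e.toMonoidHom)
        (fun u v h => e.injective (Subgroup.inclusion_injective hle h))
    have hle4 := quotient_card_le_four hQ (C.subgroupOf Q) hCQ hidx
    haveI := (frattini Q).normal_of_characteristic
    have hord : orderOf g ∣ n := by
      refine (Nat.Coprime.pow_right a hg2).dvd_of_dvd_mul_left ?_
      rw [← hG]; exact orderOf_dvd_natCard g
    have ho6 : Nat.Coprime (orderOf g) 6 := by
      rw [show (6 : ℕ) = 2 * 3 from rfl]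
      exact Nat.Coprime.mul_right hg2 (((Nat.prime_three.coprime_iff_not_dvd).2 h3).symm.coprime_dvd_left hord)
    set A := Subgroup.zpowers g with hA
    have hAN : A ≤ Subgroup.normalizer (Q : Set G) := Subgroup.zpowers_le.2 hgN
    let φ : Q →* Q :=
      { toFun := fun q => ⟨g * q * g⁻¹, (Subgroup.mem_normalizer_iff.1 hgN q).1 q.2⟩
        map_one' := Subtype.ext (by simp)
        map_mul' := fun u v => Subtype.ext (by simp [mul_assoc]) }
    have hφsurj : Function.Surjective φ := fun q =>
      ⟨⟨g⁻¹ * q * g, by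
        have := (Subgroup.mem_normalizer_iff.1 (inv_mem hgN) q).1 q.2
        simpa using this⟩, Subtype.ext (by simp [φ, mul_assoc])⟩
    have hφfr : frattini Q ≤ (frattini Q).comap φ := by
      have hbij : Function.Bijective φ := Finite.surjective_iff_bijective.1 hφsurj
      have := (inferInstance : (frattini Q).Characteristic).fixed (MulEquiv.ofBijective φ hbij)
      exact this.ge
    let f := QuotientGroup.map (frattini Q) (frattini Q) φ hφfr
    have hφit : ∀ (j : ℕ) (q : Q), ((φ^[j] q : Q) : G) = g ^ j * q * (g ^ j)⁻¹ := by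
      intro j
      induction j with
      | zero => intro q; simp
      | succ j ih =>
        intro q
        rw [Function.iterate_succ_apply']
        change g * _ * g⁻¹ = _
        rw [ih, pow_succ']; group
    have hfit : ∀ (j : ℕ) (q : Q), (⇑f)^[j] (q : Q ⧸ frattini Q) = ((φ^[j] q : Q) : Q ⧸ frattini Q) := by
      intro j
      induction j with
      | zero => intro q; rfl
      | succ j ih => intro q; rw [Function.iterate_succ_apply', Function.iterate_succ_apply', ih]; rfl
    have hfix := fix_of_card_le_four hle4 f ho6 (fun v => by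
      obtain ⟨q, rfl⟩ := QuotientGroup.mk_surjective v
      rw [hfit]
      exact congrArg _ (Subtype.ext (by rw [hφit, pow_orderOf_eq_one]; simp)))
    refine Cfsg.Agent.Lib.Coprime.le_centralizer_of_frattini hAN ?_ ?_ (Subgroup.mem_zpowers g)
    · rw [Nat.card_zpowers]
      obtain ⟨k, hk⟩ := IsPGroup.iff_card.1 (hQ.to_subgroup (frattini Q))
      rw [hk]; exact hg2.pow_right k
    · intro b hb k hk
      obtain ⟨j, hj⟩ := (mem_powers_iff_mem_zpowers.2 hb : b ∈ Submonoid.powers g)
      have hj' : g ^ j = b := hj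
      refine ⟨φ^[j] ⟨k, hk⟩ * (⟨k, hk⟩ : Q)⁻¹, ?_, ?_⟩
      · rw [SetLike.mem_coe, ← QuotientGroup.eq_one_iff, QuotientGroup.mk_mul, ← hfit,
          QuotientGroup.mk_inv, mul_inv_eq_one]
        exact Function.iterate_fixed (hfix _) j
      · change ((φ^[j] ⟨k, hk⟩ : Q) : G) * k⁻¹ = _
        rw [hφit, hj']
  obtain ⟨P, N, hN, hNP⟩ := hnpc
  refine ⟨N, hN, ?_⟩
  have := hNP.card_mul
  rw [P.card_eq_multiplicity, hfac, hG, mul_comm (2 ^ a)] at this
  exact Nat.eq_of_mul_eq_mul_right (by positivity) this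

end Cfsg.Agent.S3971
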