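import Cfsg.Statements.S3973
import Cfsg.Agent.Lib.SchurMult.Rank

set_option autoImplicit false
open Cfsg

namespace Cfsg.Agent.S3973


/-- If a finite group is presented by `n` generators and a finite set of `r` relators, then its Schur multiplier can be generated by `r - n` elements. In particular a finite group with a presentation having as many relators as generators has trivial Schur multiplier. -/
theorem result (n : ℕ) (rels : Finset (FreeGroup (Fin n))) [Finite (PresentedGroup (rels : Set (FreeGroup (Fin n))))] {A : Type*} [CommGroup A] [Finite A] (hA : Cfsg.HasSchurMultiplier (PresentedGroup (rels : Set (FreeGroup (Fin n)))) A) : Group.rank A ≤ rels.card - n := by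
  classical
  open Cfsg.Agent.Lib.SchurMult in
  set φ := PresentedGroup.mk (rels : Set (FreeGroup (Fin n))) with hφ
  have hφs : Function.Surjective φ := PresentedGroup.mk_surjective _
  obtain ⟨-, ⟨e⟩⟩ := Cfsg.Agent.Lib.SchurMult.mult_equiv φ hφs hA
  set S : Set (Cfsg.Agent.Lib.SchurMult.UGrp φ) :=
    QuotientGroup.mk' (Cfsg.Agent.Lib.SchurMult.relCore φ) '' (rels : Set (FreeGroup (Fin n))) with hS
  set K := (Cfsg.Agent.Lib.SchurMult.proj φ).ker with hK
  have hKc := Cfsg.Agent.Lib.SchurMult.ker_proj_le_center φ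
  have hkerφ : φ.ker = Subgroup.normalClosure (rels : Set (FreeGroup (Fin n))) :=
    QuotientGroup.ker_mk' _
  have hSK : Subgroup.closure S ≤ K := by
    rw [Subgroup.closure_le]
    rintro _ ⟨r, hr, rfl⟩
    exact MonoidHom.mem_ker.mpr (MonoidHom.mem_ker.mp (hkerφ ▸ Subgroup.subset_normalClosure hr :
      r ∈ φ.ker))
  haveI : (Subgroup.closure S).Normal := ⟨fun a ha g => by
    rw [Subgroup.mem_center_iff.mp (hKc (hSK ha)) g, mul_inv_cancel_right]; exact ha⟩
  have hKS : ∀ z ∈ K, z ∈ Subgroup.closure S := by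
    intro z hz
    obtain ⟨w, rfl⟩ := QuotientGroup.mk'_surjective _ z
    have hw : w ∈ φ.ker := hz
    rw [hkerφ] at hw
    have h1 := Subgroup.mem_map_of_mem (QuotientGroup.mk' (Cfsg.Agent.Lib.SchurMult.relCore φ)) hw
    rw [Subgroup.map_normalClosure _ _ (QuotientGroup.mk'_surjective _)] at h1
    exact Subgroup.normalClosure_le_normal Subgroup.subset_closure h1
  letI : CommGroup K := { (inferInstance : Group K) with
    mul_comm := fun a b => Subtype.ext (Subgroup.mem_center_iff.mp (hKc b.2) a) }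
  let gen : rels → Additive K := fun r => Additive.ofMul
    ⟨QuotientGroup.mk' _ (r : FreeGroup (Fin n)), hSK (Subgroup.subset_closure ⟨r, r.2, rfl⟩)⟩
  let ψ : (rels → ℤ) →ₗ[ℤ] Additive K := Fintype.linearCombination ℤ gen
  have hψ : Function.Surjective ψ := by
    intro y
    obtain ⟨⟨z, hz⟩, rfl⟩ := Additive.ofMul.surjective y
    show Additive.ofMul (⟨z, hz⟩ : K) ∈ LinearMap.range ψ
    refine Subgroup.closure_induction
      (p := fun t _ => ∀ h : t ∈ K, Additive.ofMul (⟨t, h⟩ : K) ∈ LinearMap.range ψ)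
      ?_ ?_ ?_ ?_ (hKS z hz) hz
    · rintro _ ⟨r, hr, rfl⟩ h
      exact ⟨Pi.single ⟨r, hr⟩ 1, by simp [ψ, gen, Fintype.linearCombination_apply, Pi.single_apply]⟩
    · intro h
      rw [show (⟨1, h⟩ : K) = 1 from rfl, ofMul_one]
      exact zero_mem _
    · intro a b ha hb iha ihb h
      rw [show (⟨a * b, h⟩ : K) = ⟨a, hSK ha⟩ * ⟨b, hSK hb⟩ from rfl, ofMul_mul]
      exact add_mem (iha _) (ihb _)
    · intro a ha iha h
      rw [show (⟨a⁻¹, h⟩ : K) = ⟨a, hSK ha⟩⁻¹ from rfl, ofMul_inv]
      exact neg_mem (iha _)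
  let f : Additive K →ₗ[ℤ] (Fin n →₀ ℤ) :=
    (MonoidHom.toAdditiveRight ((Cfsg.Agent.Lib.SchurMult.ab φ).comp K.subtype)).toIntLinearMap
  let F := f.comp ψ
  have hrange : Module.finrank ℤ (LinearMap.range F) = n := by
    rw [Cfsg.Agent.Lib.SchurMult.finrank_eq_of_smul_mem (LinearMap.range F)
      (k := (Nat.card (PresentedGroup (rels : Set (FreeGroup (Fin n)))) : ℤ))
      (by exact_mod_cast Nat.card_pos.ne') ?_, Fintype.card_fin]
    intro v
    obtain ⟨u, hu⟩ := Cfsg.Agent.Lib.SchurMult.ab_surjective φ (Multiplicative.ofAdd v)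
    obtain ⟨z, hz, hzu⟩ := Cfsg.Agent.Lib.SchurMult.ab_zpow_card_mem φ u
    obtain ⟨c, hc⟩ := hψ (Additive.ofMul ⟨z, hz⟩)
    refine ⟨c, ?_⟩
    show f (ψ c) = _
    rw [hc]
    show Multiplicative.toAdd (Cfsg.Agent.Lib.SchurMult.ab φ z) = _
    rw [hzu, hu]
    simp
  have hker : Module.finrank ℤ (LinearMap.ker F) = rels.card - n := by
    have h := LinearMap.rank_range_add_rank_ker F
    rw [← Module.finrank_eq_rank ℤ (LinearMap.range F), ← Module.finrank_eq_rank ℤ (LinearMap.ker F),
      ← Module.finrank_eq_rank ℤ (rels → ℤ), hrange, Module.finrank_pi, Fintype.card_coe] at h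
    have h' : n + Module.finrank ℤ (LinearMap.ker F) = rels.card := by exact_mod_cast h
    omega
  let b := Module.finBasisOfFinrankEq ℤ (LinearMap.ker F) hker
  have hmem : ∀ v : LinearMap.ker F, ((Additive.toMul (ψ v) : K) : Cfsg.Agent.Lib.SchurMult.UGrp φ) ∈
      Cfsg.Agent.Lib.SchurMult.mult φ := by
    intro v
    refine (Cfsg.Agent.Lib.SchurMult.mem_mult_iff φ).mpr ⟨(Additive.toMul (ψ v) : K).2, ?_⟩
    have h1 : f (ψ v) = 0 := v.2
    exact Multiplicative.toAdd.injective h1
  let h : Multiplicative (LinearMap.ker F) →* A := e.toMonoidHom.comp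
    ((K.subtype.comp (AddMonoidHom.toMultiplicativeLeft
      (ψ.comp (LinearMap.ker F).subtype).toAddMonoidHom)).codRestrict _ fun v => hmem (Multiplicative.toAdd v))
  have hh : Function.Surjective h := by
    refine e.surjective.comp fun m => ?_
    obtain ⟨v, hv⟩ := hψ (Additive.ofMul ⟨m, Cfsg.Agent.Lib.SchurMult.mult_le_ker φ m.2⟩)
    have hv0 : v ∈ LinearMap.ker F := by
      rw [LinearMap.mem_ker]
      show f (ψ v) = 0
      rw [hv]
      show Multiplicative.toAdd (Cfsg.Agent.Lib.SchurMult.ab φ m) = 0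
      rw [((Cfsg.Agent.Lib.SchurMult.mem_mult_iff φ).mp m.2).2]
      rfl
    refine ⟨Multiplicative.ofAdd ⟨v, hv0⟩, Subtype.ext ?_⟩
    show ((Additive.toMul (ψ v) : K) : Cfsg.Agent.Lib.SchurMult.UGrp φ) = m
    rw [hv]; rfl
  refine (Group.rank_le (S := Finset.univ.image fun i => h (Multiplicative.ofAdd (b i))) ?_).trans
    (Finset.card_image_le.trans (by simp))
  rw [eq_top_iff]
  intro a _
  obtain ⟨v, rfl⟩ := hh a
  obtain ⟨v, rfl⟩ := Multiplicative.ofAdd.surjective v
  rw [← b.sum_repr v]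
  have : ∀ i, h (Multiplicative.ofAdd ((b.repr v) i • b i)) ∈
      Subgroup.closure ((Finset.univ.image fun i => h (Multiplicative.ofAdd (b i)) : Finset A) : Set A) := by
    intro i
    rw [ofAdd_zsmul, map_zpow]
    exact Subgroup.zpow_mem _ (Subgroup.subset_closure (by simp)) _
  rw [ofAdd_sum, map_prod]
  exact Subgroup.prod_mem _ fun i _ => this i

end Cfsg.Agent.S3973
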