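import Cfsg.Statements.S3974
import Cfsg.Agent.Lib.SchurMult.Rank
import Cfsg.Agent.Lib.SchurMult.Comm

set_option autoImplicit false
universe u v
open Cfsg

namespace Cfsg.Agent.S3974

open Cfsg.Agent.Lib.SchurMult
open scoped commutatorElement


theorem inj_of_cover {Q : Type u} [Group Q] [Finite Q] {A : Type v} [CommGroup A]
    (hA : Cfsg.HasSchurMultiplier Q A) {Γ : Type u} [Group Γ] {σ : Γ →* Q}
    (hσ : Cfsg.IsStemExtension σ) (e : σ.ker ≃* A) {η : UGrp (stdPres Q) →* Γ}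
    (hη : σ.comp η = proj (stdPres Q)) :
    ∀ m ∈ mult (stdPres Q), η m = 1 → m = 1 := by
  obtain ⟨f, hf, hfe⟩ := exists_surj_mult _ (stdPres_surjective Q) hσ hη
  obtain ⟨hAfin, ⟨e'⟩⟩ := mult_equiv _ (stdPres_surjective Q) hA
  haveI := hAfin
  haveI := finite_mult (stdPres Q)
  have hbij : Function.Bijective f := (Nat.bijective_iff_surjective_and_card f).mpr
    ⟨hf, by rw [Nat.card_congr e'.toEquiv, Nat.card_congr e.toEquiv]⟩
  intro m hm h
  have h2 : f ⟨m, hm⟩ = f 1 := by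
    rw [map_one]; exact Subtype.ext (by rw [hfe]; exact h)
  exact congrArg Subtype.val (hbij.1 h2)

theorem card_cover {Γ Q A : Type*} [Group Γ] [Group Q] [Group A] {σ : Γ →* Q}
    (hσ : Function.Surjective σ) (e : σ.ker ≃* A) : Nat.card Γ = Nat.card Q * Nat.card A := by
  rw [Subgroup.card_eq_card_quotient_mul_card_subgroup σ.ker,
    Nat.card_congr (QuotientGroup.quotientKerEquivOfSurjective σ hσ).toEquiv, Nat.card_congr e.toEquiv]

theorem exists_ab_pow {Q : Type u} [Group Q] [Finite Q] {L : Subgroup (UGrp (stdPres Q))}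
    (hL : IsCompl' (stdPres Q) L) (y : UGrp (stdPres Q)) :
    ∃ l ∈ L, ab (stdPres Q) l = ab (stdPres Q) y ^ Nat.card (Abelianization Q) := by
  have h1 : proj (stdPres Q) (y ^ Nat.card (Abelianization Q)) ∈
      (commutator (UGrp (stdPres Q))).map (proj (stdPres Q)) := by
    rw [commutator_def, Subgroup.map_commutator,
      Subgroup.map_top_of_surjective _ (proj_surjective _ (stdPres_surjective Q)), ← commutator_def,
      ← Abelianization.ker_of, MonoidHom.mem_ker, map_pow, map_pow, pow_card_eq_one']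
  obtain ⟨c, hc, hce⟩ := h1
  have hz : y ^ Nat.card (Abelianization Q) * c⁻¹ ∈ (proj (stdPres Q)).ker := by
    rw [MonoidHom.mem_ker, map_mul, map_inv, hce, mul_inv_cancel]
  obtain ⟨l, hl, m, hm, hlm⟩ := hL.exists_mul _ hz
  refine ⟨l, hl, ?_⟩
  have h2 := congrArg (ab (stdPres Q)) hlm
  rw [map_mul, map_mul, map_inv, map_pow, ((mem_mult_iff _).mp hm).2, mul_one,
    show ab (stdPres Q) c = 1 from MonoidHom.mem_ker.mp ((ker_ab (stdPres Q)).ge hc),
    inv_one, mul_one] at h2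
  exact h2.symm

theorem cover_iso {Q : Type u} [Group Q] [Finite Q] {A : Type v} [CommGroup A]
    (hA : Cfsg.HasSchurMultiplier Q A)
    (hcop : Nat.Coprime (Nat.card (Abelianization Q)) (Nat.card A)) {Γ₁ Γ₂ : Type u} [Group Γ₁]
    [Finite Γ₁] [Group Γ₂] [Finite Γ₂] {σ₁ : Γ₁ →* Q} {σ₂ : Γ₂ →* Q} (h₁ : Cfsg.IsStemExtension σ₁)
    (h₂ : Cfsg.IsStemExtension σ₂) (e₁ : σ₁.ker ≃* A) (e₂ : σ₂.ker ≃* A) :
    ∃ e : Γ₁ ≃* Γ₂, σ₂.comp e.toMonoidHom = σ₁ := by
  have hs := stdPres_surjective Q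
  obtain ⟨η₁, hη₁⟩ := exists_stem_lift (stdPres Q) h₁
  obtain ⟨η₂, hη₂⟩ := exists_stem_lift (stdPres Q) h₂
  have hL : IsCompl' (stdPres Q) η₁.ker :=
    ker_compl_of_injective _ hη₁ (ker_le_map_mult _ hs h₁ hη₁) (inj_of_cover hA h₁ e₁ hη₁)
  letI : CommGroup σ₂.ker := { (inferInstance : Group σ₂.ker) with
    mul_comm := fun a b => Subtype.ext (Subgroup.mem_center_iff.mp (h₂.2.1 b.2) a) }
  have hk : (Nat.card σ₂.ker).Coprime (Nat.card (Abelianization Q)) := by
    rw [Nat.card_congr e₂.toEquiv]; exact hcop.symm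
  let rt : σ₂.ker ≃* σ₂.ker := MulEquiv.ofBijective (powMonoidHom (Nat.card (Abelianization Q)))
    (powCoprime hk).bijective
  choose lf hlf hlfab using exists_ab_pow hL
  have huniq : ∀ a b, a ∈ η₁.ker → b ∈ η₁.ker → ab (stdPres Q) a = ab (stdPres Q) b → a = b := by
    intro a b ha hb h
    have h3 : a⁻¹ * b ∈ η₁.ker ⊓ mult (stdPres Q) := by
      refine ⟨Subgroup.mul_mem _ (Subgroup.inv_mem _ ha) hb, (mem_mult_iff _).mpr ⟨?_, ?_⟩⟩
      · rw [map_mul, map_inv, MonoidHom.mem_ker.mp (hL.le_ker ha), MonoidHom.mem_ker.mp (hL.le_ker hb),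
          inv_one, one_mul]
      · rw [map_mul, map_inv, h, inv_mul_cancel]
    rw [hL.inf_eq_bot, Subgroup.mem_bot, inv_mul_eq_one] at h3
    exact h3
  have hker : ∀ a, η₂ (lf a) ∈ σ₂.ker := fun a => by
    rw [MonoidHom.mem_ker, lift_apply _ hη₂]; exact hL.le_ker (hlf a)
  let g : UGrp (stdPres Q) →* σ₂.ker := MonoidHom.mk' (fun a => ⟨η₂ (lf a), hker a⟩) fun a b =>
    Subtype.ext (by
      have : lf (a * b) = lf a * lf b := huniq _ _ (hlf _) (mul_mem (hlf a) (hlf b))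
        (by rw [hlfab, map_mul, map_mul, hlfab, hlfab, mul_pow])
      show η₂ (lf (a * b)) = η₂ (lf a) * η₂ (lf b)
      rw [this, map_mul])
  let ψ : UGrp (stdPres Q) →* σ₂.ker := rt.symm.toMonoidHom.comp g⁻¹
  let F : UGrp (stdPres Q) →* Γ₂ := MonoidHom.mk' (fun a => η₂ a * (ψ a : Γ₂)) fun a b => by
    rw [map_mul, map_mul, Subgroup.coe_mul]
    calc η₂ a * η₂ b * ((ψ a : Γ₂) * (ψ b : Γ₂)) = η₂ a * (η₂ b * (ψ a : Γ₂)) * (ψ b : Γ₂) := by group
      _ = η₂ a * ((ψ a : Γ₂) * η₂ b) * (ψ b : Γ₂) := by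
        rw [Subgroup.mem_center_iff.mp (h₂.2.1 (ψ a).2)]
      _ = η₂ a * (ψ a : Γ₂) * (η₂ b * (ψ b : Γ₂)) := by group
  have hF : σ₂.comp F = proj (stdPres Q) := MonoidHom.ext fun a => by
    show σ₂ (η₂ a * (ψ a : Γ₂)) = _
    rw [map_mul, MonoidHom.mem_ker.mp (ψ a).2, mul_one, lift_apply _ hη₂]
  have hkill : η₁.ker ≤ F.ker := by
    intro l hl
    have h4 : lf l = l ^ Nat.card (Abelianization Q) :=
      huniq _ _ (hlf l) (pow_mem hl _) (by rw [hlfab, map_pow])
    have hlk : η₂ l ∈ σ₂.ker := by rw [MonoidHom.mem_ker, lift_apply _ hη₂]; exact hL.le_ker hl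
    have h5 : ψ l = (⟨η₂ l, hlk⟩ : σ₂.ker)⁻¹ := by
      refine (MulEquiv.symm_apply_eq rt).mpr ?_
      show (g l)⁻¹ = (⟨η₂ l, hlk⟩ : σ₂.ker)⁻¹ ^ Nat.card (Abelianization Q)
      rw [inv_pow]
      refine congrArg _ (Subtype.ext ?_)
      show η₂ (lf l) = _
      rw [h4, map_pow]
      rfl
    rw [MonoidHom.mem_ker]
    show η₂ l * (ψ l : Γ₂) = 1
    rw [h5]
    exact mul_inv_cancel (η₂ l)
  let E : Γ₁ →* Γ₂ := η₁.liftOfRightInverse (Function.surjInv (lift_surjective _ hs h₁ hη₁))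
    (Function.rightInverse_surjInv _) ⟨F, hkill⟩
  have hE : ∀ a, E (η₁ a) = F a := fun a =>
    η₁.liftOfRightInverse_comp_apply _ (Function.rightInverse_surjInv _) ⟨F, hkill⟩ a
  have hsurj : Function.Surjective E := fun y => by
    obtain ⟨a, rfl⟩ := lift_surjective _ hs h₂ hF y
    exact ⟨η₁ a, hE a⟩
  refine ⟨MulEquiv.ofBijective E ((Nat.bijective_iff_surjective_and_card E).mpr
    ⟨hsurj, by rw [card_cover h₁.1 e₁, card_cover h₂.1 e₂]⟩), MonoidHom.ext fun x => ?_⟩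
  obtain ⟨a, rfl⟩ := lift_surjective _ hs h₁ hη₁ x
  show σ₂ (E (η₁ a)) = σ₁ (η₁ a)
  rw [hE, lift_apply _ hF, lift_apply _ hη₁]

theorem exists_hom_of_prime_dvd {C : Type*} [CommGroup C] [Finite C] {M : Type*} [Group M] [Finite M]
    {p : ℕ} [hp : Fact p.Prime] (hC : p ∣ Nat.card C) (hM : p ∣ Nat.card M) :
    ∃ d : C →* M, d ≠ 1 := by
  obtain ⟨e⟩ := CommGroup.monoidHom_mulEquiv_of_hasEnoughRootsOfUnity C ℂ
  obtain ⟨c, hc⟩ := exists_prime_orderOf_dvd_card' p hC
  obtain ⟨m, hm⟩ := exists_prime_orderOf_dvd_card' p hM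
  set χ := e.symm c
  have hχ : ∀ x, χ x ∈ rootsOfUnity p ℂ := fun x => by
    have h : χ ^ p = 1 := by
      rw [← map_pow, ← hc, pow_orderOf_eq_one, map_one]
    rw [mem_rootsOfUnity, ← MonoidHom.pow_apply]
    exact DFunLike.congr_fun h x
  haveI : IsCyclic (rootsOfUnity p ℂ) := rootsOfUnity.isCyclic ℂ p
  let μ : rootsOfUnity p ℂ ≃* Subgroup.zpowers m := mulEquivOfCyclicCardEq (by
    rw [Complex.card_rootsOfUnity, Nat.card_zpowers, hm])
  refine ⟨(Subgroup.zpowers m).subtype.comp (μ.toMonoidHom.comp (χ.codRestrict _ hχ)), fun h => ?_⟩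
  have h1 : χ = 1 := MonoidHom.ext fun x => by
    have h2 := (MulEquiv.map_eq_one_iff μ).mp (Subtype.ext (DFunLike.congr_fun h x) :
      μ (χ.codRestrict _ hχ x) = 1)
    exact congrArg Subtype.val h2
  rw [MulEquiv.map_eq_one_iff] at h1
  rw [h1, orderOf_one] at hc
  exact hp.out.one_lt.ne hc

theorem covers_not_iso {Q : Type u} [Group Q] [Finite Q] {p : ℕ} [Fact p.Prime]
    (hQ : p ∣ Nat.card (Abelianization Q)) (hM : p ∣ Nat.card (mult (stdPres Q))) :
    ∃ (L₁ L₂ : Subgroup (UGrp (stdPres Q))) (h₁ : IsCompl' (stdPres Q) L₁)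
      (h₂ : IsCompl' (stdPres Q) L₂),
      haveI := h₁.normal
      haveI := h₂.normal
      ¬ ∃ e : UGrp (stdPres Q) ⧸ L₁ ≃* UGrp (stdPres Q) ⧸ L₂,
        (QuotientGroup.lift L₂ (proj _) h₂.le_ker).comp e.toMonoidHom =
          QuotientGroup.lift L₁ (proj _) h₁.le_ker := by
  classical
  haveI := Fintype.ofFinite Q
  haveI := finite_mult (stdPres Q)
  set φ := stdPres Q
  have hs : Function.Surjective φ := stdPres_surjective Q
  obtain ⟨L, hL⟩ := exists_compl_ker φ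
  letI : CommGroup (mult φ) := { (inferInstance : Group (mult φ)) with
    mul_comm := fun a b => Subtype.ext (Subgroup.mem_center_iff.mp (mult_le_center φ b.2) a) }
  letI : CommGroup L := { (inferInstance : Group L) with
    mul_comm := fun a b =>
      Subtype.ext (Subgroup.mem_center_iff.mp (ker_proj_le_center φ (hL.le_ker b.2)) a) }
  -- a basis of the complement
  let f : Additive L →ₗ[ℤ] (Q →₀ ℤ) :=
    (MonoidHom.toAdditiveRight ((ab φ).comp L.subtype)).toIntLinearMap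
  have hf : Function.Injective f := by
    rw [injective_iff_map_eq_zero]
    intro y hy
    have h1 : ab φ ((Additive.toMul y : L) : UGrp φ) = 1 := Multiplicative.toAdd.injective hy
    have h2 : ((Additive.toMul y : L) : UGrp φ) ∈ L ⊓ mult φ :=
      ⟨(Additive.toMul y).2, (mem_mult_iff φ).mpr
        ⟨MonoidHom.mem_ker.mp (hL.le_ker (Additive.toMul y).2), h1⟩⟩
    rw [hL.inf_eq_bot, Subgroup.mem_bot] at h2
    exact Additive.toMul.injective (Subtype.ext h2)
  have hfin : Module.finrank ℤ (LinearMap.range f) = Fintype.card Q := by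
    refine finrank_eq_of_smul_mem _ (k := (Nat.card Q : ℤ)) (by exact_mod_cast Nat.card_pos.ne') ?_
    intro v
    obtain ⟨y, hy⟩ := ab_surjective φ (Multiplicative.ofAdd v)
    obtain ⟨z, hz, hzy⟩ := ab_zpow_card_mem φ y
    obtain ⟨l, hl, m, hm, rfl⟩ := hL.exists_mul z hz
    rw [map_mul, ((mem_mult_iff φ).mp hm).2, mul_one] at hzy
    refine ⟨Additive.ofMul ⟨l, hl⟩, ?_⟩
    show Multiplicative.toAdd (ab φ l) = _
    rw [hzy, hy]; simp
  let b : Module.Basis (Fin (Fintype.card Q)) ℤ (Additive L) :=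
    (Module.finBasisOfFinrankEq ℤ (LinearMap.range f) hfin).map (LinearEquiv.ofInjective f hf).symm
  -- homomorphisms into the multiplier
  let hom : (Q → mult φ) → (UGrp φ →* mult φ) := fun w =>
    QuotientGroup.lift _ (FreeGroup.lift w) ((Subgroup.commutator_mono le_rfl le_top).trans
      (by rw [← commutator_def]; exact Abelianization.commutator_subset_ker _))
  have hhom : ∀ d : UGrp φ →* mult φ,
      hom (fun x => d (QuotientGroup.mk' _ (FreeGroup.of x))) = d := fun d =>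
    QuotientGroup.monoidHom_ext _ (FreeGroup.ext_hom _ _ fun x => by
      show FreeGroup.lift _ (FreeGroup.of x) = _
      rw [FreeGroup.lift_apply_of]; rfl)
  let res : (Q → mult φ) → (Fin (Fintype.card Q) → Additive (mult φ)) := fun w i =>
    Additive.ofMul (hom w ((Additive.toMul (b i) : L) : UGrp φ))
  have hninj : ¬ Function.Injective res := by
    intro hinj
    obtain ⟨d, hd⟩ := exists_hom_of_prime_dvd (M := mult φ) hQ hM
    let d' : UGrp φ →* mult φ := (d.comp Abelianization.of).comp (proj φ)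
    have h1 : (fun x => d' (QuotientGroup.mk' _ (FreeGroup.of x))) =
        fun x => (1 : UGrp φ →* mult φ) (QuotientGroup.mk' _ (FreeGroup.of x)) := by
      refine hinj (funext fun i => ?_)
      show Additive.ofMul (hom _ _) = Additive.ofMul (hom _ _)
      rw [hhom, hhom]
      refine congrArg Additive.ofMul ?_
      show d (Abelianization.of (proj φ _)) = 1
      rw [MonoidHom.mem_ker.mp (hL.le_ker (Subtype.coe_prop _)), map_one, map_one]
    have h2 : d' = 1 := by rw [← hhom d', h1, hhom]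
    refine hd (MonoidHom.ext fun x => ?_)
    obtain ⟨q, rfl⟩ := (Abelianization.of : Q →* _).range_eq_top.mp
      (by rw [MonoidHom.range_eq_top]; exact fun y => QuotientGroup.mk_surjective y) x
    obtain ⟨y, rfl⟩ := proj_surjective φ hs q
    exact DFunLike.congr_fun h2 y
  have hnsurj : ¬ Function.Surjective res := fun h => hninj
    ((Finite.injective_iff_surjective_of_equiv
      (Equiv.arrowCongr (Fintype.equivFin Q) Additive.ofMul)).mpr h)
  simp only [Function.Surjective, not_forall, not_exists] at hnsurj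
  obtain ⟨v, hv⟩ := hnsurj
  let δ : L →* mult φ := MonoidHom.toAdditive.symm (b.constr ℤ v).toAddMonoidHom
  have hδ : ∀ i, Additive.ofMul (δ (Additive.toMul (b i))) = v i := fun i => b.constr_basis ℤ v i
  -- the second complement
  let t : L →* UGrp φ := MonoidHom.mk' (fun l => (l : UGrp φ) * (δ l : UGrp φ)) fun a c => by
    rw [Subgroup.coe_mul, map_mul, Subgroup.coe_mul]
    calc (a : UGrp φ) * c * ((δ a : UGrp φ) * δ c) = a * ((c : UGrp φ) * δ a) * δ c := by group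
      _ = a * ((δ a : UGrp φ) * c) * δ c := by
        rw [Subgroup.mem_center_iff.mp (mult_le_center φ (δ a).2)]
      _ = (a : UGrp φ) * δ a * (c * δ c) := by group
  have hL₂ : IsCompl' φ t.range := by
    refine ⟨?_, ?_, fun z hz => ?_⟩
    · rintro _ ⟨l, rfl⟩
      exact mul_mem (hL.le_ker l.2) (mult_le_ker φ (δ l).2)
    · rw [eq_bot_iff]
      rintro _ ⟨⟨l, rfl⟩, hm⟩
      have h1 : (l : UGrp φ) ∈ L ⊓ mult φ := by
        refine ⟨l.2, ?_⟩
        have h2 : (l : UGrp φ) * (δ l : UGrp φ) ∈ mult φ := hm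
        have := mul_mem h2 (inv_mem (δ l).2)
        rwa [mul_inv_cancel_right] at this
      rw [hL.inf_eq_bot, Subgroup.mem_bot] at h1
      rw [Subgroup.mem_bot, show l = 1 from Subtype.ext h1, map_one]
    · obtain ⟨l, hl, m, hm, rfl⟩ := hL.exists_mul z hz
      refine ⟨t ⟨l, hl⟩, ⟨_, rfl⟩, (δ ⟨l, hl⟩ : UGrp φ)⁻¹ * m, mul_mem (inv_mem (δ _).2) hm, ?_⟩
      show l * m = l * (δ ⟨l, hl⟩ : UGrp φ) * _
      group
  refine ⟨L, t.range, hL, hL₂, ?_⟩
  haveI := hL.normal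
  haveI := hL₂.normal
  rintro ⟨e, he⟩
  obtain ⟨hfinΓ, hst, -⟩ := cover_of_compl φ hs hL₂
  set σ := QuotientGroup.lift t.range (proj φ) hL₂.le_ker
  set q := QuotientGroup.mk' t.range
  have hη : σ.comp q = proj φ := MonoidHom.ext fun _ => rfl
  obtain ⟨g, hg, hge⟩ := exists_surj_mult φ hs hst hη
  have hgi : Function.Injective g := by
    rw [injective_iff_map_eq_one]
    intro m hm
    have h1 : (m : UGrp φ) ∈ t.range := (QuotientGroup.eq_one_iff _).mp
      (show q (m : UGrp φ) = 1 by rw [← hge, hm]; rfl)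
    have h2 : (m : UGrp φ) ∈ t.range ⊓ mult φ := ⟨h1, m.2⟩
    rw [hL₂.inf_eq_bot, Subgroup.mem_bot] at h2
    exact Subtype.ext h2
  have hcen : ∀ y, e (QuotientGroup.mk' L y) * (q y)⁻¹ ∈ σ.ker := fun y => by
    rw [MonoidHom.mem_ker, map_mul, map_inv,
      show σ (e (QuotientGroup.mk' L y)) = proj φ y from DFunLike.congr_fun he (QuotientGroup.mk' L y),
      show σ (q y) = proj φ y from rfl, mul_inv_cancel]
  let d₀ : UGrp φ →* σ.ker := MonoidHom.mk' (fun y => ⟨_, hcen y⟩) fun a c => Subtype.ext (by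
    show e (QuotientGroup.mk' L (a * c)) * (q (a * c))⁻¹ =
      e (QuotientGroup.mk' L a) * (q a)⁻¹ * (e (QuotientGroup.mk' L c) * (q c)⁻¹)
    rw [map_mul, map_mul, map_mul, _root_.mul_inv_rev]
    have hc : Commute (e (QuotientGroup.mk' L c) * (q c)⁻¹) (q a)⁻¹ :=
      (Subgroup.mem_center_iff.mp (hst.2.1 (hcen c)) _).symm
    calc e (QuotientGroup.mk' L a) * e (QuotientGroup.mk' L c) * ((q c)⁻¹ * (q a)⁻¹)
        = e (QuotientGroup.mk' L a) * ((e (QuotientGroup.mk' L c) * (q c)⁻¹) * (q a)⁻¹) := by group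
      _ = e (QuotientGroup.mk' L a) * ((q a)⁻¹ * (e (QuotientGroup.mk' L c) * (q c)⁻¹)) := by
        rw [hc.eq]
      _ = e (QuotientGroup.mk' L a) * (q a)⁻¹ * (e (QuotientGroup.mk' L c) * (q c)⁻¹) := by group)
  let gE := MulEquiv.ofBijective g ⟨hgi, hg⟩
  let d : UGrp φ →* mult φ := gE.symm.toMonoidHom.comp d₀
  have hd : ∀ l : L, d (l : UGrp φ) = δ l := fun l => by
    refine (MulEquiv.symm_apply_eq gE).mpr (Subtype.ext ?_)
    show e (QuotientGroup.mk' L (l : UGrp φ)) * (q l)⁻¹ = ((g (δ l) : σ.ker) : _)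
    rw [hge, show QuotientGroup.mk' L (l : UGrp φ) = 1 from (QuotientGroup.eq_one_iff _).mpr l.2,
      map_one, one_mul]
    refine inv_eq_of_mul_eq_one_right ?_
    rw [← map_mul]
    exact (QuotientGroup.eq_one_iff _).mpr ⟨l, rfl⟩
  refine hv (fun x => d (QuotientGroup.mk' _ (FreeGroup.of x))) (funext fun i => ?_)
  show Additive.ofMul (hom _ _) = v i
  rw [hhom, hd, hδ]

/-- Let `Q` be a finite group with Schur multiplier `A`. Any two Schur covering groups of `Q` (finite stem extensions `σ₁ : Γ₁ →* Q`, `σ₂ : Γ₂ →* Q` with kernels isomorphic to `A`, `Γ₁, Γ₂` in the universe of `Q`) are isomorphic over `Q` — there is a group isomorphism `e : Γ₁ ≃* Γ₂` with `σ₂ ∘ e = σ₁` — if and only if the order of the commutator quotient of `Q` is coprime to the order of `A`. In particular a finite perfect group has a unique Schur covering group up to isomorphism over it. -/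
theorem result {Q : Type u} [Group Q] [Finite Q] {A : Type v} [CommGroup A] (hA : Cfsg.HasSchurMultiplier Q A) : (∀ (Γ₁ Γ₂ : Type u) [Group Γ₁] [Finite Γ₁] [Group Γ₂] [Finite Γ₂] (σ₁ : Γ₁ →* Q) (σ₂ : Γ₂ →* Q), Cfsg.IsStemExtension σ₁ → Cfsg.IsStemExtension σ₂ → Nonempty (σ₁.ker ≃* A) → Nonempty (σ₂.ker ≃* A) → ∃ e : Γ₁ ≃* Γ₂, σ₂.comp e.toMonoidHom = σ₁) ↔ Nat.Coprime (Nat.card (Abelianization Q)) (Nat.card A) := by
  constructor
  · intro huniq
    by_contra hcop
    obtain ⟨p, hp, hQ, hM⟩ := Nat.Prime.not_coprime_iff_dvd.mp hcop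
    haveI := Fact.mk hp
    obtain ⟨hAfin, ⟨e⟩⟩ := mult_equiv _ (stdPres_surjective Q) hA
    rw [← Nat.card_congr e.toEquiv] at hM
    obtain ⟨L₁, L₂, h₁, h₂, hno⟩ := covers_not_iso hQ hM
    haveI := h₁.normal
    haveI := h₂.normal
    obtain ⟨f₁, s₁, ⟨k₁⟩⟩ := cover_of_compl _ (stdPres_surjective Q) h₁
    obtain ⟨f₂, s₂, ⟨k₂⟩⟩ := cover_of_compl _ (stdPres_surjective Q) h₂
    haveI := f₁
    haveI := f₂
    exact hno (huniq _ _ _ _ s₁ s₂ ⟨k₁.trans e⟩ ⟨k₂.trans e⟩)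
  · intro hcop Γ₁ Γ₂ _ _ _ _ σ₁ σ₂ h₁ h₂ he₁ he₂
    obtain ⟨e₁⟩ := he₁
    obtain ⟨e₂⟩ := he₂
    exact cover_iso hA hcop h₁ h₂ e₁ e₂

end Cfsg.Agent.S3974
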