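import Cfsg.Statements.S3976
import Mathlib
import Cfsg.Agent.Lib.GS.SubgroupCount

set_option autoImplicit false
open Cfsg

namespace Cfsg.Agent.S3976


/-- Let `p` be a prime and `G` a group of order `p ^ m`. For every `s ≤ m` the number of normal subgroups of `G` of order `p ^ s` is congruent to `1` modulo `p`. -/
theorem result {G : Type*} [Group G] [Finite G] (p m s : ℕ) (hp : p.Prime) (hG : Nat.card G = p ^ m) (hs : s ≤ m) : Nat.card {H : Subgroup G // H.Normal ∧ Nat.card H = p ^ s} ≡ 1 [MOD p] := by
  classical
  haveI : Fact p.Prime := ⟨hp⟩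
  have h1 := Cfsg.Agent.Lib.GS.SubgroupCount.card_subgroups_modEq_one (G := G) p s (hG ▸ pow_dvd_pow p hs)
  refine Nat.ModEq.trans ?_ h1
  letI : MulAction G {H : Subgroup G // Nat.card H = p ^ s} :=
    { smul := fun g H => ⟨H.1.map (MulAut.conj g).toMonoidHom,
        by rw [Subgroup.card_map_of_injective (MulAut.conj g).injective, H.2]⟩
      one_smul := fun H => Subtype.ext (by
        change H.1.map (MulAut.conj (1 : G)).toMonoidHom = H.1
        ext x; simp [Subgroup.mem_map])
      mul_smul := fun a b H => Subtype.ext (by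
        change H.1.map (MulAut.conj (a * b)).toMonoidHom =
          (H.1.map (MulAut.conj b).toMonoidHom).map (MulAut.conj a).toMonoidHom
        rw [Subgroup.map_map]
        congr 1
        ext x
        simp [mul_assoc]) }
  refine Eq.trans (congrArg (· % p) ?_) (IsPGroup.card_modEq_card_fixedPoints (IsPGroup.of_card hG) _).symm
  refine Nat.card_congr
    { toFun := fun H => ⟨⟨H.1, H.2.2⟩, fun g => Subtype.ext ?_⟩
      invFun := fun H => ⟨H.1.1, ⟨fun x hx g => ?_⟩, H.1.2⟩
      left_inv := fun H => rfl
      right_inv := fun H => rfl }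
  · refine Subgroup.eq_of_le_of_card_ge ?_ (Subgroup.card_map_of_injective (MulAut.conj g).injective).ge
    rintro _ ⟨x, hx, rfl⟩
    exact H.2.1.conj_mem x hx g
  · have := congrArg Subtype.val (H.2 g)
    change H.1.1.map (MulAut.conj g).toMonoidHom = H.1.1 at this
    rw [← this]
    exact ⟨x, hx, rfl⟩

end Cfsg.Agent.S3976
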