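import Cfsg.Statements.S3977
import Mathlib
import Cfsg.Agent.Lib.UniqueInvolution

set_option autoImplicit false
open Cfsg

namespace Cfsg.Agent.S3977


/-- Let `p` be a prime and `G` a group of order `p ^ m` which has exactly one subgroup of order `p ^ s`, where `1 ≤ s < m`, and where `s ≥ 2` if `p = 2`. Then `G` is cyclic. (For `p = 2` and `s = 1` the generalized quaternion groups also occur; that case is the classical criterion for a unique involution.) -/
theorem result {G : Type*} [Group G] [Finite G] (p m s : ℕ) (hp : p.Prime) (hG : Nat.card G = p ^ m) (hs : 1 ≤ s) (hsm : s < m) (h2 : p ≠ 2 ∨ 2 ≤ s) (huniq : ∀ H K : Subgroup G, Nat.card H = p ^ s → Nat.card K = p ^ s → H = K) : IsCyclic G := by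
  haveI : Fact p.Prime := ⟨hp⟩
  have hPG : IsPGroup p G := IsPGroup.of_card hG
  obtain ⟨H, hH⟩ := Sylow.exists_subgroup_card_pow_prime p (n := s) (G := G) (hG ▸ pow_dvd_pow p hsm.le)
  have hsmall : ∀ (K : Subgroup G) (t : ℕ), Nat.card K = p ^ t → t ≤ s → K ≤ H := by
    intro K t hK ht
    obtain ⟨L, hL, hKL⟩ := Sylow.exists_subgroup_card_pow_prime_le p (hG ▸ pow_dvd_pow p hsm.le) K hK ht
    exact hKL.trans (huniq L H hL hH).le
  obtain ⟨x, hx⟩ : ∃ x : G, x ∉ H := by
    by_contra! hall
    have : H = ⊤ := eq_top_iff.2 fun y _ => hall y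
    rw [this, Subgroup.card_top, hG] at hH
    exact hsm.ne' (Nat.pow_right_injective hp.two_le hH)
  have hcyc : IsCyclic H := by
    obtain ⟨t, ht⟩ := IsPGroup.iff_card.1 (hPG.to_subgroup (Subgroup.zpowers x))
    have hts : s ≤ t := by
      by_contra hlt
      exact hx (hsmall _ t ht (by omega) (Subgroup.mem_zpowers x))
    obtain ⟨K, hK⟩ := Sylow.exists_subgroup_card_pow_prime p (n := s) (G := Subgroup.zpowers x)
      (ht ▸ pow_dvd_pow p hts)
    have hKH : K.map (Subgroup.zpowers x).subtype = H :=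
      huniq _ _ (by rw [Subgroup.card_map_of_injective (Subgroup.subtype_injective _), hK]) hH
    have hle : H ≤ Subgroup.zpowers x := hKH ▸ Subgroup.map_subtype_le K
    exact isCyclic_of_injective (Subgroup.inclusion hle) (Subgroup.inclusion_injective hle)
  have huniq1 : ∀ A B : Subgroup G, Nat.card A = p → Nat.card B = p → A = B := by
    intro A B hA hB
    have hAH := hsmall A 1 (by rw [hA, pow_one]) hs
    have hBH := hsmall B 1 (by rw [hB, pow_one]) hs
    haveI := hcyc
    have h1 : Nat.card (A.subgroupOf H) = p := by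
      rw [Nat.card_congr (Subgroup.subgroupOfEquivOfLe hAH).toEquiv, hA]
    have h2 : Nat.card (B.subgroupOf H) = p := by
      rw [Nat.card_congr (Subgroup.subgroupOfEquivOfLe hBH).toEquiv, hB]
    obtain ⟨g, hg⟩ := exists_prime_orderOf_dvd_card' (G := A.subgroupOf H) p h1.symm.dvd
    obtain ⟨k, hk⟩ := exists_prime_orderOf_dvd_card' (G := B.subgroupOf H) p h2.symm.dvd
    have hgk : Subgroup.zpowers (g : H) = Subgroup.zpowers (k : H) := by
      classical
      have := Fintype.ofFinite H
      have hg' : orderOf (g : H) = p := by rw [Subgroup.orderOf_coe, hg]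
      have hk' : orderOf (k : H) = p := by rw [Subgroup.orderOf_coe, hk]
      have hall : ∀ a : H, orderOf a = p → (Finset.univ.filter fun y => y ∈ Subgroup.zpowers a) =
          Finset.univ.filter fun y : H => y ^ p = 1 := by
        intro a ha
        refine Finset.eq_of_subset_of_card_le (fun y hy => ?_) ?_
        · simp only [Finset.mem_filter, Finset.mem_univ, true_and] at hy ⊢
          exact orderOf_dvd_iff_pow_eq_one.1 (ha ▸ orderOf_dvd_of_mem_zpowers hy)
        · refine (IsCyclic.card_pow_eq_one_le hp.pos).trans ?_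
          rw [← Fintype.card_subtype, ← Nat.card_eq_fintype_card]
          exact ((Nat.card_zpowers a).trans ha).ge
      ext y
      have := Finset.ext_iff.1 ((hall _ hg').trans (hall _ hk').symm) y
      simpa using this
    have hA' : A.subgroupOf H = Subgroup.zpowers (g : H) :=
      (Subgroup.eq_of_le_of_card_ge (Subgroup.zpowers_le.2 g.2)
        (by rw [h1, Nat.card_zpowers, Subgroup.orderOf_coe, hg])).symm
    have hB' : B.subgroupOf H = Subgroup.zpowers (k : H) :=
      (Subgroup.eq_of_le_of_card_ge (Subgroup.zpowers_le.2 k.2)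
        (by rw [h2, Nat.card_zpowers, Subgroup.orderOf_coe, hk])).symm
    rw [← Subgroup.map_subgroupOf_eq_of_le hAH, ← Subgroup.map_subgroupOf_eq_of_le hBH, hA', hB', hgk]
  rcases Cfsg.Agent.Lib.UniqueInvolution.isCyclic_or_quaternion hPG huniq1 with h | ⟨h2p, n, hn, ⟨e⟩⟩
  · exact h
  · exfalso
    have hs2 : 2 ≤ s := h2.resolve_left (not_not.2 h2p)
    subst h2p
    obtain ⟨n, rfl⟩ : ∃ l, n = l + 1 := ⟨n - 1, by omega⟩
    haveI : NeZero (2 ^ (n + 1)) := ⟨by positivity⟩
    have hmem : ∀ u : QuaternionGroup (2 ^ (n + 1)), orderOf u = 4 → e.symm u ∈ H := by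
      intro u hu
      exact hsmall (Subgroup.zpowers (e.symm u)) 2 (by rw [Nat.card_zpowers, MulEquiv.orderOf_eq, hu]; norm_num)
        hs2 (Subgroup.mem_zpowers _)
    set k : ZMod (2 * 2 ^ (n + 1)) := ((2 ^ n : ℕ) : ZMod (2 * 2 ^ (n + 1))) with hk
    have hpos : 0 < 2 ^ n := by positivity
    have hlt : 2 ^ n < 2 * 2 ^ (n + 1) := by rw [pow_succ]; omega
    have hak : orderOf (QuaternionGroup.a k) = 4 := by
      rw [QuaternionGroup.orderOf_a, hk, ZMod.val_natCast, Nat.mod_eq_of_lt hlt,
        show 2 * 2 ^ (n + 1) = 4 * 2 ^ n by ring, Nat.gcd_eq_right (dvd_mul_left _ _), Nat.mul_div_cancel _ hpos]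
    haveI := hcyc
    obtain ⟨g, hg⟩ := IsCyclic.exists_generator (α := H)
    obtain ⟨i, hi⟩ := Subgroup.mem_zpowers_iff.1 (hg ⟨_, hmem _ hak⟩)
    obtain ⟨j, hj⟩ := Subgroup.mem_zpowers_iff.1 (hg ⟨_, hmem (QuaternionGroup.xa 0) (QuaternionGroup.orderOf_xa 0)⟩)
    have h := congrArg Subtype.val (Commute.zpow_zpow_self g i j).eq
    rw [hi, hj] at h
    simp only [Subgroup.coe_mul] at h
    rw [← map_mul, ← map_mul] at h
    have h' := e.symm.injective h
    rw [QuaternionGroup.a_mul_xa, QuaternionGroup.xa_mul_a, QuaternionGroup.xa.injEq, zero_sub, zero_add] at h'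
    have : ((2 ^ n + 2 ^ n : ℕ) : ZMod (2 * 2 ^ (n + 1))) = 0 := by
      push_cast; rw [hk] at h'; push_cast at h'; linear_combination -h'
    rw [ZMod.natCast_eq_zero_iff] at this
    have := Nat.le_of_dvd (by omega) this
    rw [pow_succ] at this
    omega

end Cfsg.Agent.S3977
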