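import Cfsg.Statements.S3978
import Cfsg.Agent.Lib.SchurMult.Proj

set_option autoImplicit false
open Cfsg

namespace Cfsg.Agent.S3978


/-- A finite group `Q` has trivial Schur multiplier if and only if, for every `n`, every homomorphism from `Q` to the projective general linear group (the quotient of `GL n ℂ` by its centre) lifts to a homomorphism into `GL n ℂ`. -/
theorem result {Q : Type*} [Group Q] [Finite Q] : Cfsg.HasCyclicSchurMultiplier Q 1 ↔ ∀ (n : ℕ) (γ : Q →* (GL (Fin n) ℂ ⧸ Subgroup.center (GL (Fin n) ℂ))), ∃ ρ : Q →* GL (Fin n) ℂ, (QuotientGroup.mk' (Subgroup.center (GL (Fin n) ℂ))).comp ρ = γ := by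
  have hs := Cfsg.Agent.Lib.SchurMult.stdPres_surjective Q
  have hid : Cfsg.IsStemExtension (MonoidHom.id Q) :=
    ⟨Function.surjective_id, by simp [MonoidHom.ker_id], by simp [MonoidHom.ker_id]⟩
  obtain ⟨η, hη⟩ := Cfsg.Agent.Lib.SchurMult.exists_stem_lift (Cfsg.Agent.Lib.SchurMult.stdPres Q) hid
  rw [Cfsg.Agent.Lib.SchurMult.hasCyclic_one_iff _ hs]
  constructor
  · intro h n γ
    exact Cfsg.Agent.Lib.SchurMult.exists_gl_lift _ hs hid hη (fun m hm _ => by
      rwa [h, Subgroup.mem_bot] at hm) n γ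
  · intro h
    rw [eq_bot_iff]
    intro m hm
    rw [Subgroup.mem_bot]
    refine Cfsg.Agent.Lib.SchurMult.injective_of_gl_lift _ hs hη h m hm ?_
    have : η m = Cfsg.Agent.Lib.SchurMult.proj _ m := DFunLike.congr_fun hη m
    rw [this, MonoidHom.mem_ker.mp (Cfsg.Agent.Lib.SchurMult.mult_le_ker _ hm)]

end Cfsg.Agent.S3978
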