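import Cfsg.Statements.S3979
import Mathlib
import Cfsg.Agent.Lib.GS.Sylow

set_option autoImplicit false
open Cfsg

namespace Cfsg.Agent.S3979


/-- A finite cyclic group has trivial Schur multiplier: every finite stem extension of it is an isomorphism, said through `HasCyclicSchurMultiplier G 1`. -/
theorem result {G : Type*} [Group G] [Finite G] [IsCyclic G] : Cfsg.HasCyclicSchurMultiplier G 1 := by
  refine ⟨⟨G, inferInstance, inferInstance, MonoidHom.id G, ⟨Function.surjective_id, ?_, ?_⟩, ?_⟩, ?_⟩
  · simp [MonoidHom.ker_id]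
  · simp [MonoidHom.ker_id]
  · haveI : Subsingleton (MonoidHom.id G).ker := by
      rw [MonoidHom.ker_id]; infer_instance
    haveI : Subsingleton (Multiplicative (ZMod 1)) := Multiplicative.toAdd.injective.subsingleton
    haveI : Unique (MonoidHom.id G).ker := uniqueOfSubsingleton 1
    haveI : Unique (Multiplicative (ZMod 1)) := uniqueOfSubsingleton 1
    exact ⟨MulEquiv.ofUnique⟩
  · intro Γ _ _ σ hσ
    have hbot : σ.ker = ⊥ := by
      have hc : commutator Γ = ⊥ := by
        rw [commutator_eq_bot_iff_center_eq_top, Subgroup.eq_top_iff']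
        intro a
        rw [Subgroup.mem_center_iff]
        intro b
        exact commutative_of_cyclic_center_quotient σ hσ.2.1 b a
      exact le_bot_iff.mp (hc ▸ hσ.2.2)
    refine ⟨1, fun y => ⟨1, ?_⟩⟩
    obtain ⟨y, hy⟩ := y
    rw [hbot, Subgroup.mem_bot] at hy
    subst hy
    exact Subtype.ext rfl

end Cfsg.Agent.S3979
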