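import Cfsg.Statements.S3980
import Cfsg.Agent.Lib.SchurMult.Product

set_option autoImplicit false
universe u v w
open Cfsg

namespace Cfsg.Agent.S3980


/-- Let `Q₁` and `Q₂` be finite groups whose commutator quotients have coprime orders, with Schur multipliers `A` and `B`. Then the Schur multiplier of `Q₁ × Q₂` is isomorphic to `A × B`. -/
theorem result {Q₁ : Type u} {Q₂ : Type v} [Group Q₁] [Group Q₂] [Finite Q₁] [Finite Q₂] {A B : Type w} [CommGroup A] [CommGroup B] (hA : Cfsg.HasSchurMultiplier Q₁ A) (hB : Cfsg.HasSchurMultiplier Q₂ B) (hcop : Nat.Coprime (Nat.card (Abelianization Q₁)) (Nat.card (Abelianization Q₂))) : Cfsg.HasSchurMultiplier (Q₁ × Q₂) (A × B) := by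
  have hsub : Subsingleton (Cfsg.Agent.Lib.SchurMult.AbTensor Q₁ Q₂) := by
    refine subsingleton_of_forall_eq 1 fun t => ?_
    induction t using Cfsg.Agent.Lib.SchurMult.tmk_induction with
    | h1 => rfl
    | hm a b ha hb => rw [ha, hb, one_mul]
    | hmk a b =>
      have h1 : (Cfsg.Agent.Lib.SchurMult.tmk a b) ^ Nat.card (Abelianization Q₁) = 1 := by
        simp only [Cfsg.Agent.Lib.SchurMult.tmk, MonoidHom.mk'_apply, ← ofAdd_nsmul,
          TensorProduct.smul_tmul', ← ofMul_pow, pow_card_eq_one', ofMul_one, TensorProduct.zero_tmul,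
          ofAdd_zero]
      have h2 : (Cfsg.Agent.Lib.SchurMult.tmk a b) ^ Nat.card (Abelianization Q₂) = 1 := by
        simp only [Cfsg.Agent.Lib.SchurMult.tmk, MonoidHom.mk'_apply, ← ofAdd_nsmul,
          ← TensorProduct.tmul_smul, ← ofMul_pow, pow_card_eq_one', ofMul_one, TensorProduct.tmul_zero,
          ofAdd_zero]
      have h3 : (Cfsg.Agent.Lib.SchurMult.tmk a b) ^
          Nat.gcd (Nat.card (Abelianization Q₁)) (Nat.card (Abelianization Q₂)) = 1 :=
        pow_gcd_eq_one.2 ⟨h1, h2⟩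
      rwa [hcop, pow_one] at h3
  haveI : Unique (Cfsg.Agent.Lib.SchurMult.AbTensor Q₁ Q₂) := uniqueOfSubsingleton 1
  have h := Cfsg.Agent.Lib.SchurMult.hasSchurMultiplier_prod hA hB
    (MulEquiv.refl (Cfsg.Agent.Lib.SchurMult.AbTensor Q₁ Q₂))
  let e : A × B × Cfsg.Agent.Lib.SchurMult.AbTensor Q₁ Q₂ ≃* A × B :=
    (MulEquiv.refl A).prodCongr MulEquiv.prodUnique
  refine ⟨?_, fun Γ _ _ σ hσ => ?_⟩
  · obtain ⟨Γ, i1, i2, σ, hσ, ⟨f⟩⟩ := h.1
    exact ⟨Γ, i1, i2, σ, hσ, ⟨f.trans e⟩⟩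
  · obtain ⟨π, hπ⟩ := h.2 Γ σ hσ
    exact ⟨π.comp e.symm.toMonoidHom, hπ.comp e.symm.surjective⟩

end Cfsg.Agent.S3980
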