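import Cfsg.Statements.S3992
import Mathlib
import Cfsg.Agent.Lib.Coprime.Abelian
import Cfsg.Agent.Lib.Coprime.Action
import Cfsg.Agent.Lib.GS.ConjPSub
import Cfsg.Agent.Lib.Recog.MinNormal

set_option autoImplicit false
open Cfsg

namespace Cfsg.Agent.S3992

open Subgroup

/-- Every nonidentity element has prime power order. -/
def EPPO (G : Type*) [Group G] : Prop := ∀ g : G, g ≠ 1 → IsPrimePow (orderOf g)

theorem EPPO.same {G : Type*} [Group G] [Finite G] (h : EPPO G) {a b : G} (hc : Commute a b) {p q : ℕ}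
    (hp : p.Prime) (hq : q.Prime) (ha : p ∣ orderOf a) (hb : q ∣ orderOf b) : p = q := by
  by_contra hne
  have e1 : orderOf (a ^ (orderOf a / p)) = p := by
    rw [orderOf_pow, Nat.gcd_eq_right (Nat.div_dvd_of_dvd ha), Nat.div_div_self ha (orderOf_pos a).ne']
  have e2 : orderOf (b ^ (orderOf b / q)) = q := by
    rw [orderOf_pow, Nat.gcd_eq_right (Nat.div_dvd_of_dvd hb), Nat.div_div_self hb (orderOf_pos b).ne']
  have e3 : orderOf (a ^ (orderOf a / p) * b ^ (orderOf b / q)) = p * q := by
    rw [(hc.pow_pow _ _).orderOf_mul_eq_mul_orderOf_of_coprime (by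
      rw [e1, e2]; exact (Nat.coprime_primes hp hq).2 hne), e1, e2]
  have hpq := h (a ^ (orderOf a / p) * b ^ (orderOf b / q)) fun h1 => by
    rw [h1, orderOf_one] at e3
    exact hp.one_lt.ne' (Nat.eq_one_of_mul_eq_one_right e3.symm)
  rw [e3, isPrimePow_iff_unique_prime_dvd] at hpq
  exact hne (hpq.unique ⟨hp, dvd_mul_right p q⟩ ⟨hq, dvd_mul_left q p⟩)

/-- A prime divisor of a nontrivial subgroup is the order of one of its elements. -/
theorem EPPO.comm_subgroup {G : Type*} [Group G] [Finite G] (h : EPPO G) (A : Subgroup G)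
    (hA : IsMulCommutative A) (hA1 : A ≠ ⊥) : ∃ p : ℕ, p.Prime ∧ p ∣ Nat.card A ∧ IsPGroup p A := by
  obtain ⟨p, hp, hpd⟩ := Nat.exists_prime_and_dvd (fun h1 => hA1 (card_eq_one.1 h1) : Nat.card A ≠ 1)
  haveI := Fact.mk hp
  obtain ⟨a, ha⟩ := exists_prime_orderOf_dvd_card' (G := A) p hpd
  refine ⟨p, hp, hpd, IsPGroup.of_card (n := (Nat.card A).factorization p) ?_⟩
  refine Nat.eq_pow_of_factorization_eq_single Nat.card_pos.ne' (Finsupp.ext fun r => ?_)
  rcases eq_or_ne r p with rfl | hne
  · simp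
  rw [Finsupp.single_eq_of_ne hne]
  by_contra h0
  have hmem : r ∈ (Nat.card A).primeFactors := by
    rw [← Nat.support_factorization, Finsupp.mem_support_iff]; exact h0
  rw [Nat.mem_primeFactors] at hmem
  haveI := Fact.mk hmem.1
  obtain ⟨b, hb⟩ := exists_prime_orderOf_dvd_card' (G := A) r hmem.2.1
  refine hne (h.same (show Commute (b : G) a from congrArg Subtype.val (hA.1.1 b a)) hmem.1 hp ?_ ?_)
  · rw [Subgroup.orderOf_coe, hb]
  · rw [Subgroup.orderOf_coe, ha]

theorem fixed_trivial {G : Type*} [Group G] [Finite G] (h : EPPO G) {A : Subgroup G} [A.Normal] {p : ℕ} [Fact p.Prime]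
    (hAp : IsPGroup p A) {e : G} {q : ℕ} (hq : q.Prime) (hqp : q ≠ p) (he : q ∣ orderOf e) {a : G} (ha : a ∈ A)
    (hfix : e * a * e⁻¹ = a) : a = 1 := by
  by_contra ha1
  obtain ⟨k, hk⟩ := IsPGroup.iff_orderOf.1 hAp ⟨a, ha⟩
  rw [Subgroup.orderOf_mk] at hk
  have hk0 : k ≠ 0 := fun h0 => ha1 (orderOf_eq_one_iff.1 (by rw [hk, h0, pow_zero]))
  exact hqp (h.same (show Commute e a from mul_inv_eq_iff_eq_mul.1 hfix) hq Fact.out he (hk ▸ dvd_pow_self p hk0))

/-- In a group acting on an abelian `p`-group, a `q`-subgroup has only one subgroup of order `q`. -/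
theorem order_q_unique {G : Type*} [Group G] [Finite G] (h : EPPO G) {A : Subgroup G} [A.Normal]
    (hAc : IsMulCommutative A) (hA : A ≠ ⊥) {p q : ℕ} [Fact p.Prime] [Fact q.Prime] (hAp : IsPGroup p A)
    (hqp : q ≠ p) (Q : Subgroup G) (hQ : IsPGroup q Q) (hQ1 : Q ≠ ⊥) :
    ∃ z ∈ Q, orderOf z = q ∧ ∀ y ∈ Q, orderOf y = q → y ∈ zpowers z := by
  classical
  haveI : Nontrivial Q := (nontrivial_iff_ne_bot Q).2 hQ1
  haveI := hQ.center_nontrivial
  obtain ⟨n, hn⟩ := IsPGroup.iff_card.1 (hQ.to_subgroup (center Q))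
  have hn0 : n ≠ 0 := fun h => (Finite.one_lt_card (α := center Q)).ne' (by rw [hn, h, pow_zero])
  obtain ⟨z, hz⟩ := exists_prime_orderOf_dvd_card' (G := center Q) q (hn ▸ dvd_pow_self q hn0)
  rw [← Subgroup.orderOf_coe, ← Subgroup.orderOf_coe] at hz
  refine ⟨((z : Q) : G), (z : Q).2, hz, fun y hy hyo => ?_⟩
  by_contra hyz
  have hcomm : ∀ a ∈ zpowers ((z : Q) : G), Commute a y := by
    intro a ha
    obtain ⟨i, rfl⟩ := mem_zpowers_iff.1 ha
    exact ((show Commute ((z : Q) : G) y from (congrArg Subtype.val (mem_center_iff.1 z.2 ⟨y, hy⟩)).symm)).zpow_left i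
  obtain ⟨hEc, hEcard⟩ := Cfsg.Agent.Lib.GS.ConjPSub.sup_zpowers_commutative (A := zpowers ((z : Q) : G))
    inferInstance hyo hyz hcomm
  rw [Nat.card_zpowers, hz, ← sq] at hEcard
  set E := zpowers ((z : Q) : G) ⊔ zpowers y
  have := Fintype.ofFinite E
  haveI := hEc
  have hexp : ∀ e : E, e ^ q = 1 := by
    let K : Subgroup E := (MonoidHom.mk' (fun e : E => e ^ q) (fun a b => (show Commute a b from hEc.1.1 a b).mul_pow q)).ker
    have hK : K = ⊤ := by
      rw [eq_top_iff]
      have h1 : (zpowers ((z : Q) : G)).subgroupOf E ≤ K := fun e he => by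
        change e ^ q = 1
        exact Subtype.ext (orderOf_dvd_iff_pow_eq_one.1 (hz ▸ orderOf_dvd_of_mem_zpowers he))
      have h2 : (zpowers y).subgroupOf E ≤ K := fun e he => by
        change e ^ q = 1
        exact Subtype.ext (orderOf_dvd_iff_pow_eq_one.1 (hyo ▸ orderOf_dvd_of_mem_zpowers he))
      refine le_trans ?_ (sup_le h1 h2)
      rw [← subgroupOf_sup le_sup_left le_sup_right, subgroupOf_self]
    exact fun e => (hK ▸ mem_top e : e ∈ K)
  let _i : CommGroup A := { (inferInstance : Group A) with mul_comm := fun a b => hAc.1.1 a b }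
  obtain ⟨k, hk⟩ := IsPGroup.iff_card.1 hAp
  have htop := Cfsg.Agent.Lib.Coprime.eq_top_of_fixed_mem ((MulAut.conjNormal (H := A)).comp E.subtype)
    (Fact.out : q.Prime) hexp hEcard
    (by rw [hk]; exact ((Nat.coprime_primes Fact.out Fact.out).2 hqp).pow_right k) (⊥ : Subgroup A) ?_
  · refine hA (eq_bot_iff.2 fun a ha => ?_)
    have : (⟨a, ha⟩ : A) ∈ (⊥ : Subgroup A) := htop ▸ Subgroup.mem_top _
    exact mem_bot.2 (congrArg Subtype.val (mem_bot.1 this))
  · intro e he a hea
    refine mem_bot.2 (Subtype.ext ?_)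
    refine fixed_trivial h hAp (Fact.out : q.Prime) hqp (e := (e : G)) ?_ a.2 ?_
    · rw [Subgroup.orderOf_coe, orderOf_eq_prime (hexp e) he]
    · simpa using congrArg Subtype.val hea

/-- A group of order `q * r` acting without fixed points on a nontrivial abelian `p`-group does not exist. -/
theorem no_qr {G : Type*} [Group G] [Finite G] (h : EPPO G) {A : Subgroup G} [A.Normal]
    (hAc : IsMulCommutative A) (hA : A ≠ ⊥) {p q r : ℕ} [Fact p.Prime] (hAp : IsPGroup p A)
    (hq : q.Prime) (hr : r.Prime) (hqp : q ≠ p) (hrp : r ≠ p) (hqr : q ≠ r) (b y : G)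
    (hb : orderOf b = q) (hy : orderOf y = r) (hnorm : y ∈ normalizer (zpowers b : Set G)) : False := by
  classical
  haveI := Fact.mk hq
  set Γ := zpowers y ⊔ zpowers b with hΓ
  have := Fintype.ofFinite Γ
  have hle : zpowers y ≤ normalizer (zpowers b : Set G) := zpowers_le.2 hnorm
  have hcop : (Nat.card (zpowers y)).Coprime (Nat.card (zpowers b)) := by
    rw [Nat.card_zpowers, Nat.card_zpowers, hy, hb]; exact (Nat.coprime_primes hr hq).2 (Ne.symm hqr)
  have hcard : Nat.card Γ = r * q := by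
    rw [hΓ, Cfsg.Agent.Lib.Coprime.card_sup_of_coprime hle hcop, Nat.card_zpowers, Nat.card_zpowers, hy, hb]
  have hord : ∀ g : Γ, g ≠ 1 → orderOf g = r ∨ orderOf g = q := by
    intro g hg
    obtain ⟨u, v, hu, hv, huv⟩ := exists_dvd_and_dvd_of_dvd_mul (hcard ▸ orderOf_dvd_natCard g)
    rcases (Nat.dvd_prime hr).1 hu with rfl | rfl <;> rcases (Nat.dvd_prime hq).1 hv with rfl | rfl
    · exact absurd (orderOf_eq_one_iff.1 huv) hg
    · exact Or.inr (by simpa using huv)
    · exact Or.inl (by simpa using huv)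
    · exfalso
      refine hqr (h.same (Commute.refl (g : G)) hq hr ?_ ?_) <;> rw [Subgroup.orderOf_coe, huv]
      · exact dvd_mul_left _ _
      · exact dvd_mul_right _ _
  have hA' : ∀ g : Γ, g ≠ 1 → (orderOf g).Prime := fun g hg => by
    rcases hord g hg with e | e <;> rw [e] <;> assumption
  have hbΓ : b ∈ Γ := mem_sup_right (mem_zpowers b)
  set B : Subgroup Γ := (zpowers b).subgroupOf Γ with hB
  have hBcard : Nat.card B = q := by
    rw [hB, Nat.card_congr (subgroupOfEquivOfLe (zpowers_le.2 hbΓ)).toEquiv, Nat.card_zpowers, hb]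
  haveI hBn : B.Normal := by
    refine normal_subgroupOf_of_le_normalizer ?_
    exact sup_le hle le_normalizer
  have hBuniq : ∀ g : Γ, orderOf g = q → g ∈ B := by
    intro g hg
    rw [← QuotientGroup.eq_one_iff, ← orderOf_eq_one_iff]
    have hidx : B.index = r := by
      have := B.card_mul_index
      rw [hBcard, hcard, mul_comm r] at this
      exact Nat.eq_of_mul_eq_mul_left hq.pos this
    refine Nat.eq_one_of_dvd_coprimes ((Nat.coprime_primes hq hr).2 hqr) ?_ ?_
    · exact hg ▸ orderOf_map_dvd (QuotientGroup.mk' B) g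
    · rw [← hidx, index_eq_card]; exact orderOf_dvd_natCard _
  have hlines : B ∈ Cfsg.Agent.Lib.Coprime.lines Γ := Cfsg.Agent.Lib.Coprime.mem_lines.2
    ⟨⟨b, hbΓ⟩, fun e => by
      have := congrArg Subtype.val e
      rw [show b = 1 from this, orderOf_one] at hb
      exact hq.one_lt.ne hb,
     eq_of_le_of_card_ge (zpowers_le.2 (mem_subgroupOf.2 (mem_zpowers b))) (by
      rw [hBcard, Nat.card_zpowers, Subgroup.orderOf_mk, hb])⟩
  have hsum := Cfsg.Agent.Lib.Coprime.sum_card_lines hA'
  rw [← Finset.add_sum_erase _ _ hlines, hBcard, Finset.sum_congr rfl (g := fun _ => r - 1) (fun L hL => by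
    obtain ⟨hLB, hL'⟩ := Finset.mem_erase.1 hL
    obtain ⟨g, hg, rfl⟩ := Cfsg.Agent.Lib.Coprime.mem_lines.1 hL'
    rw [Nat.card_zpowers]
    rcases hord g hg with e | e
    · rw [e]
    · exact absurd (eq_of_le_of_card_ge (zpowers_le.2 (hBuniq g e)) (by rw [hBcard, Nat.card_zpowers, e])) hLB),
    Finset.sum_const, smul_eq_mul, hcard] at hsum
  have hn : (Cfsg.Agent.Lib.Coprime.lines Γ).card - 1 = q := by
    rw [← Finset.card_erase_of_mem hlines]
    obtain ⟨q', rfl⟩ : ∃ t, q = t + 1 := ⟨q - 1, by have := hq.pos; omega⟩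
    obtain ⟨r', rfl⟩ : ∃ t, r = t + 1 := ⟨r - 1, by have := hr.pos; omega⟩
    simp only [Nat.add_sub_cancel] at hsum
    have hr' : 0 < r' := by have := hr.two_le; omega
    refine Nat.eq_of_mul_eq_mul_right hr' ?_
    have e : (r' + 1) * (q' + 1) = (q' + 1) * r' + q' + 1 := by ring
    rw [e] at hsum
    omega
  haveI : Nontrivial Γ := ⟨⟨⟨b, hbΓ⟩, 1, fun e => by
    rw [show b = 1 from congrArg Subtype.val e, orderOf_one] at hb
    exact hq.one_lt.ne hb⟩⟩
  let _i : CommGroup A := { (inferInstance : Group A) with mul_comm := fun a b => hAc.1.1 a b }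
  obtain ⟨a, ha, ha1⟩ := A.bot_or_exists_ne_one.resolve_left hA
  have hD : ∀ g : Γ, g ≠ 1 → ∀ w : A, ((MulAut.conjNormal (H := A)).comp Γ.subtype) g w = w → w ∈ (⊥ : Subgroup A) := by
    intro g hg w hw
    refine mem_bot.2 (Subtype.ext ?_)
    rcases hord g hg with e | e
    · refine fixed_trivial h hAp hr hrp (e := (g : G)) (by rw [Subgroup.orderOf_coe, e]) w.2 ?_
      simpa using congrArg Subtype.val hw
    · refine fixed_trivial h hAp hq hqp (e := (g : G)) (by rw [Subgroup.orderOf_coe, e]) w.2 ?_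
      simpa using congrArg Subtype.val hw
  have hfin := mem_bot.1 (Cfsg.Agent.Lib.Coprime.pow_mem_of_fixed_mem _ hA' ⊥ hD ⟨a, ha⟩)
  rw [hn] at hfin
  obtain ⟨k, hk⟩ := IsPGroup.iff_orderOf.1 hAp ⟨a, ha⟩
  refine ha1 (congrArg Subtype.val (orderOf_eq_one_iff.1 (Nat.eq_one_of_dvd_coprimes
    (((Nat.coprime_primes hq Fact.out).2 hqp).pow_right k) (orderOf_dvd_of_pow_eq_one hfin) (hk ▸ dvd_rfl))))

/-- An abelian normal nontrivial subgroup inside a nontrivial solvable normal subgroup. -/
theorem exists_abelian_normal {G : Type*} [Group G] (R : Subgroup G) [R.Normal] (hs : Group.IsSolvable R)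
    (hR : R ≠ ⊥) : ∃ A : Subgroup G, A.Normal ∧ A ≤ R ∧ A ≠ ⊥ ∧ IsMulCommutative A := by
  classical
  have hex : ∃ k, derivedSeries R k = ⊥ := hs.solvable
  have h0 : Nat.find hex ≠ 0 := fun h0 => by
    have := Nat.find_spec hex
    rw [h0, derivedSeries_zero] at this
    refine hR (eq_bot_iff.2 fun r hr => ?_)
    have hr' : (⟨r, hr⟩ : R) ∈ (⊥ : Subgroup R) := this ▸ mem_top _
    exact mem_bot.2 (congrArg Subtype.val (mem_bot.1 hr'))
  obtain ⟨k, hk⟩ := Nat.exists_eq_succ_of_ne_zero h0
  refine ⟨(derivedSeries R k).map R.subtype, ConjAct.normal_of_characteristic_of_normal, map_subtype_le _, ?_, ?_⟩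
  · rw [Ne, map_eq_bot_iff_of_injective _ R.subtype_injective]
    exact Nat.find_min hex (by omega)
  · refine ⟨⟨fun a b => Subtype.ext ?_⟩⟩
    obtain ⟨a', ha', hae⟩ := a.2
    obtain ⟨b', hb', hbe⟩ := b.2
    have hb : derivedSeries R (k + 1) = ⊥ := by
      have := Nat.find_spec hex; rwa [hk] at this
    rw [derivedSeries_succ, commutator_eq_bot_iff_le_centralizer] at hb
    have := congrArg R.subtype (mem_centralizer_iff.1 (hb hb') a' ha')
    simpa [← hae, ← hbe] using this

/-- A solvable group with elements of prime power order involves at most two primes. -/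
theorem card_primes_le_two {H : Type*} [Group H] [Finite H] [Group.IsSolvable H] (h : EPPO H) :
    (Nat.card H).primeFactors.card ≤ 2 := by
  classical
  by_contra hgt
  haveI : Nontrivial H := by
    by_contra hn
    rw [not_nontrivial_iff_subsingleton] at hn
    simp [Nat.card_of_subsingleton (1 : H)] at hgt
  obtain ⟨A, hAn, -, hA, hAc⟩ := exists_abelian_normal (⊤ : Subgroup H) inferInstance top_ne_bot
  haveI := hAn
  obtain ⟨p, hp, hpd, hAp⟩ := h.comm_subgroup A hAc hA
  haveI := Fact.mk hp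
  -- a maximal normal `p`-subgroup
  obtain ⟨U, ⟨hUn, hUp⟩, hUmax⟩ := (Set.toFinite {U : Subgroup H | U.Normal ∧ IsPGroup p U}).exists_maximal
    ⟨A, hAn, hAp⟩
  haveI := hUn
  have hUtop : U ≠ ⊤ := by
    intro e
    refine hgt ?_
    obtain ⟨k, hk⟩ := IsPGroup.iff_card.1 hUp
    rw [e, card_top] at hk
    rcases eq_or_ne k 0 with rfl | hk0
    · rw [hk, pow_zero, Nat.primeFactors_one]; simp
    · rw [hk, Nat.primeFactors_prime_pow hk0 hp]; simp
  haveI : Nontrivial (H ⧸ U) := QuotientGroup.nontrivial_iff.2 hUtop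
  obtain ⟨Vb, hVbn, -, hVb1, hVbc⟩ := exists_abelian_normal (⊤ : Subgroup (H ⧸ U)) inferInstance top_ne_bot
  have hquot : EPPO (H ⧸ U) := by
    intro x hx
    obtain ⟨g, rfl⟩ := QuotientGroup.mk_surjective x
    have hg : g ≠ 1 := fun e => hx (by rw [e]; rfl)
    exact (h g hg).dvd (orderOf_map_dvd (QuotientGroup.mk' U) g) (fun e => hx (orderOf_eq_one_iff.1 e))
  obtain ⟨q, hq, hqd, hVbp⟩ := hquot.comm_subgroup Vb hVbc hVb1
  haveI := Fact.mk hq
  set V := Vb.comap (QuotientGroup.mk' U) with hV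
  haveI hVn : V.Normal := hVbn.comap _
  have hqp : q ≠ p := by
    intro e
    subst e
    have hVp : IsPGroup q V := by
      intro v
      obtain ⟨i, hi⟩ := hVbp ⟨QuotientGroup.mk' U v, v.2⟩
      have hiU : (v : H) ^ q ^ i ∈ U := by
        rw [← QuotientGroup.eq_one_iff, QuotientGroup.mk_pow]
        exact congrArg Subtype.val hi
      obtain ⟨j, hj⟩ := hUp ⟨_, hiU⟩
      refine ⟨i + j, Subtype.ext ?_⟩
      rw [SubmonoidClass.coe_pow, pow_add, pow_mul]
      exact congrArg Subtype.val hj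
    have hUV : U ≤ V := fun u hu => by
      rw [hV, mem_comap, show QuotientGroup.mk' U u = 1 from (QuotientGroup.eq_one_iff u).2 hu]
      exact one_mem _
    have := le_antisymm (hUmax ⟨hVn, hVp⟩ hUV) hUV
    refine hVb1 ?_
    rw [← map_comap_eq_self_of_surjective (QuotientGroup.mk'_surjective U) Vb, ← hV, this, Subgroup.map_eq_bot_iff,
      QuotientGroup.ker_mk']
  obtain ⟨Q⟩ : Nonempty (Sylow q V) := inferInstance
  set Q' := (Q : Subgroup V).map V.subtype with hQ'
  have hqV : q ∣ Nat.card V := hqd.trans (by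
    have := card_dvd_of_surjective ((QuotientGroup.mk' U).subgroupComap Vb)
      ((QuotientGroup.mk' U).subgroupComap_surjective_of_surjective Vb (QuotientGroup.mk'_surjective U))
    exact this)
  have hQ1 : Q' ≠ ⊥ := by
    rw [hQ', Ne, map_eq_bot_iff_of_injective _ V.subtype_injective]
    exact Q.ne_bot_of_dvd_card hqV
  obtain ⟨b, hbQ, hbo, huniq⟩ := order_q_unique h hAc hA hAp hqp Q' (Q.2.map _) hQ1
  -- a third prime
  obtain ⟨r, hr, hrp, hrq⟩ : ∃ r, r ∈ (Nat.card H).primeFactors ∧ r ≠ p ∧ r ≠ q := by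
    by_contra! hall
    refine hgt (le_trans (Finset.card_le_card (t := {p, q}) fun r hr => ?_) Finset.card_le_two)
    rcases eq_or_ne r p with rfl | hne
    · simp
    · simp [hall r hr hne]
  rw [Nat.mem_primeFactors] at hr
  haveI := Fact.mk hr.1
  have hrV : ¬ r ∣ Nat.card V := by
    intro hd
    obtain ⟨v, hv⟩ := exists_prime_orderOf_dvd_card' (G := V) r hd
    rw [← Subgroup.orderOf_coe] at hv
    obtain ⟨i, hi⟩ := hVbp ⟨QuotientGroup.mk' U v, v.2⟩
    have hiU : (v : H) ^ q ^ i ∈ U := by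
      rw [← QuotientGroup.eq_one_iff, QuotientGroup.mk_pow]
      exact congrArg Subtype.val hi
    obtain ⟨j, hj⟩ := hUp ⟨_, hiU⟩
    have h1 : (v : H) ^ (q ^ i * p ^ j) = 1 := by rw [pow_mul]; exact congrArg Subtype.val hj
    have h2 := orderOf_dvd_of_pow_eq_one h1
    rw [hv] at h2
    rcases hr.1.dvd_mul.1 h2 with h3 | h3
    · exact hrq ((Nat.prime_dvd_prime_iff_eq hr.1 hq).1 (hr.1.dvd_of_dvd_pow h3))
    · exact hrp ((Nat.prime_dvd_prime_iff_eq hr.1 hp).1 (hr.1.dvd_of_dvd_pow h3))
  have hfr := Sylow.normalizer_sup_eq_top Q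
  rw [← hQ'] at hfr
  have hrN : r ∣ Nat.card (normalizer (Q' : Set H)) := by
    have h1 := Cfsg.Agent.Lib.Coprime.card_sup_mul_card_inf_of_le_normalizer
      (A := normalizer (Q' : Set H)) (N := V) (by rw [normalizer_eq_top_iff.2 hVn]; exact le_top)
    rw [hfr, card_top] at h1
    have h2 : r ∣ Nat.card (normalizer (Q' : Set H)) * Nat.card V := h1 ▸ dvd_mul_of_dvd_left hr.2.1 _
    exact (hr.1.dvd_mul.1 h2).resolve_right hrV
  obtain ⟨y, hy⟩ := exists_prime_orderOf_dvd_card' (G := normalizer (Q' : Set H)) r hrN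
  rw [← Subgroup.orderOf_coe] at hy
  refine no_qr h hAc hA hAp hq hr.1 hqp hrp (Ne.symm hrq) b y hbo hy (mem_normalizer_fintype fun x hx => ?_)
  obtain ⟨i, rfl⟩ := mem_zpowers_iff.1 hx
  rw [SetLike.mem_coe, ← conj_zpow]
  refine zpow_mem (huniq _ ((mem_normalizer_iff.1 y.2 b).1 hbQ) ?_) i
  rw [show (y : H) * b * (y : H)⁻¹ = MulAut.conj (y : H) b from rfl, MulEquiv.orderOf_eq, hbo]

/-- Let G be a finite non-solvable group in which every element has prime-power order, and let R be its largest solvable normal subgroup. Then R is a p-group for some prime p; G/R has a non-abelian simple normal subgroup contained in every nontrivial normal subgroup of G/R (its unique minimal normal subgroup); and the order of every solvable subgroup of G has at most two prime divisors. -/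
theorem result {G : Type*} [Group G] [Finite G] (hns : ¬ Group.IsSolvable G) (hpp : ∀ g : G, g ≠ 1 → IsPrimePow (orderOf g))
    (R : Subgroup G) [R.Normal] (hRs : Group.IsSolvable ↥R) (hRmax : ∀ N : Subgroup G, N.Normal → Group.IsSolvable ↥N → N ≤ R) :
    (∃ p : ℕ, p.Prime ∧ IsPGroup p ↥R) ∧
      (∃ M : Subgroup (G ⧸ R), M.Normal ∧ IsSimpleGroup ↥M ∧ ¬ IsMulCommutative ↥M ∧
        ∀ N : Subgroup (G ⧸ R), N.Normal → N ≠ ⊥ → M ≤ N) ∧
      ∀ H : Subgroup G, Group.IsSolvable ↥H → (Nat.card ↥H).primeFactors.card ≤ 2 := by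
  open Subgroup in
  classical
  have hE : EPPO G := hpp
  have hsub : ∀ H : Subgroup G, Group.IsSolvable H → (Nat.card ↥H).primeFactors.card ≤ 2 := by
    intro H hH
    refine card_primes_le_two fun g hg => ?_
    rw [← Subgroup.orderOf_coe]
    exact hpp _ fun e => hg (Subtype.ext e)
  refine ⟨?_, ?_, hsub⟩
  · -- the radical is a `p`-group
    rcases eq_or_ne R ⊥ with hR | hR
    · exact ⟨2, Nat.prime_two, fun x => ⟨0, Subtype.ext (by
        have := x.2; simp only [hR, mem_bot] at this; simpa using this)⟩⟩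
    obtain ⟨A, hAn, hAR, hA, hAc⟩ := exists_abelian_normal R hRs hR
    haveI := hAn
    obtain ⟨p, hp, hpd, hAp⟩ := hE.comm_subgroup A hAc hA
    haveI := Fact.mk hp
    refine ⟨p, hp, IsPGroup.of_card (n := (Nat.card R).factorization p)
      (Nat.eq_pow_of_factorization_eq_single Nat.card_pos.ne' (Finsupp.ext fun q => ?_))⟩
    rcases eq_or_ne q p with rfl | hqp
    · simp
    rw [Finsupp.single_eq_of_ne hqp]
    by_contra h0
    have hmem : q ∈ (Nat.card R).primeFactors := by
      rw [← Nat.support_factorization, Finsupp.mem_support_iff]; exact h0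
    rw [Nat.mem_primeFactors] at hmem
    haveI := Fact.mk hmem.1
    obtain ⟨Q⟩ : Nonempty (Sylow q R) := inferInstance
    set Q' := (Q : Subgroup R).map R.subtype with hQ'
    have hQ1 : Q' ≠ ⊥ := by
      rw [hQ', Ne, map_eq_bot_iff_of_injective _ R.subtype_injective]
      exact Q.ne_bot_of_dvd_card hmem.2.1
    obtain ⟨z, hzQ, hzo, huniq⟩ := order_q_unique hE hAc hA hAp hqp Q' (Q.2.map _) hQ1
    have hfr := Sylow.normalizer_sup_eq_top Q
    rw [← hQ'] at hfr
    set Z := zpowers z
    have hNle : normalizer (Q' : Set G) ≤ normalizer (Z : Set G) := fun n hn =>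
      mem_normalizer_fintype fun x hx => by
        obtain ⟨i, rfl⟩ := mem_zpowers_iff.1 hx
        rw [SetLike.mem_coe, ← conj_zpow]
        refine zpow_mem (huniq _ ((mem_normalizer_iff.1 hn z).1 hzQ) ?_) i
        rw [show n * z * n⁻¹ = MulAut.conj n z from rfl, MulEquiv.orderOf_eq, hzo]
    haveI hCs : Group.IsSolvable (centralizer (Z : Set G)) := by
      have hp' : IsPGroup q (centralizer (Z : Set G)) := by
        rw [IsPGroup.iff_orderOf]
        intro c
        rcases eq_or_ne (c : G) 1 with hc1 | hc1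
        · exact ⟨0, by rw [← Subgroup.orderOf_coe, hc1, orderOf_one, pow_zero]⟩
        obtain ⟨s, i, hs, hi, hsi⟩ := hpp _ hc1
        rw [← Nat.prime_iff] at hs
        have hsq : s = q := hE.same (show Commute (c : G) z from (mem_centralizer_iff.1 c.2 z (mem_zpowers z)).symm)
          hs hmem.1 (hsi ▸ dvd_pow_self s hi.ne') hzo.symm.dvd
        exact ⟨i, by rw [← Subgroup.orderOf_coe, ← hsi, hsq]⟩
      haveI := hp'.isNilpotent
      infer_instance
    haveI : IsCyclic Z := Subgroup.isCyclic_zpowers z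
    haveI : Group.IsSolvable (MulAut Z) := by
      refine Group.isSolvable_of_comm fun f g => ?_
      exact (IsCyclic.mulAutMulEquiv Z).injective (by rw [map_mul, map_mul, mul_comm])
    haveI hNs : Group.IsSolvable (normalizer (Z : Set G)) := by
      refine Group.isSolvable_of_ker_le_range (inclusion (centralizer_le_normalizer (Z : Set G))) Z.normalizerMonoidHom ?_
      rw [normalizerMonoidHom_ker, inclusion_range]
    haveI : Group.IsSolvable (normalizer (Q' : Set G)) := Cfsg.Agent.Lib.Coprime.isSolvable_of_le hNle hNs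
    have hsurj : Function.Surjective ((QuotientGroup.mk' R).comp (normalizer (Q' : Set G)).subtype) := by
      rw [← MonoidHom.range_eq_top, MonoidHom.range_comp, range_subtype]
      have := map_top_of_surjective _ (QuotientGroup.mk'_surjective R)
      rwa [← hfr, Subgroup.map_sup, (Subgroup.map_eq_bot_iff (f := QuotientGroup.mk' R) R).2 (QuotientGroup.ker_mk' R).ge,
        sup_bot_eq] at this
    haveI : Group.IsSolvable (G ⧸ R) := Group.isSolvable_of_surjective hsurj
    exact hns (Group.isSolvable_of_ker_le_range R.subtype (QuotientGroup.mk' R)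
      (by rw [QuotientGroup.ker_mk', range_subtype]))
  · -- the socle of the quotient
    haveI : Nontrivial (G ⧸ R) := QuotientGroup.nontrivial_iff.2 fun e => hns (by
      haveI : Group.IsSolvable (⊤ : Subgroup G) := e ▸ hRs
      exact Group.isSolvable_of_surjective (f := (⊤ : Subgroup G).subtype) fun g => ⟨⟨g, mem_top g⟩, rfl⟩)
    have hE' : EPPO (G ⧸ R) := by
      intro x hx
      obtain ⟨g, rfl⟩ := QuotientGroup.mk_surjective x
      have hg : g ≠ 1 := fun e => hx (by rw [e]; rfl)
      exact (hpp g hg).dvd (orderOf_map_dvd (QuotientGroup.mk' R) g) (fun e => hx (orderOf_eq_one_iff.1 e))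
    have hnosol : ∀ N : Subgroup (G ⧸ R), N.Normal → Group.IsSolvable N → N = ⊥ := by
      intro N hN hNs
      haveI := hN
      set N0 := N.comap (QuotientGroup.mk' R) with hN0
      have hN0s : Group.IsSolvable N0 := by
        refine Group.isSolvable_of_ker_le_range (inclusion (show R ≤ N0 from fun r hr => by
          rw [hN0, mem_comap, show QuotientGroup.mk' R r = 1 from (QuotientGroup.eq_one_iff r).2 hr]
          exact one_mem _)) ((QuotientGroup.mk' R).subgroupComap N) ?_
        rw [inclusion_range]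
        intro x hx
        rw [mem_subgroupOf, ← QuotientGroup.eq_one_iff]
        exact congrArg Subtype.val (MonoidHom.mem_ker.1 hx)
      have hle : N0 ≤ R := hRmax N0 (hN.comap _) hN0s
      rw [← map_comap_eq_self_of_surjective (QuotientGroup.mk'_surjective R) N, Subgroup.map_eq_bot_iff, QuotientGroup.ker_mk']
      exact hle
    -- two commuting nonsolvable subgroups do not exist
    have hpgroup : ∀ X : Subgroup (G ⧸ R), ¬ Group.IsSolvable X → ∀ r : ℕ, r.Prime →
        ∃ s : ℕ, s.Prime ∧ s ≠ r ∧ ∃ x ∈ X, s ∣ orderOf x := by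
      intro X hX r hr
      by_contra! hall
      haveI := Fact.mk hr
      refine hX ?_
      have : IsPGroup r X := by
        rw [IsPGroup.iff_orderOf]
        intro x
        rcases eq_or_ne x 1 with rfl | hx1
        · exact ⟨0, by rw [orderOf_one, pow_zero]⟩
        obtain ⟨s, i, hs, hi, hsi⟩ := hE' (x : G ⧸ R) fun e => hx1 (Subtype.ext e)
        rw [← Nat.prime_iff] at hs
        have hsr : s = r := by
          by_contra hne
          exact hall s hs hne x x.2 (hsi ▸ dvd_pow_self s hi.ne')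
        exact ⟨i, by rw [← Subgroup.orderOf_coe, ← hsi, hsr]⟩
      haveI := this.isNilpotent
      infer_instance
    have hcommute : ∀ X Y : Subgroup (G ⧸ R), ¬ Group.IsSolvable X → ¬ Group.IsSolvable Y →
        (∀ x ∈ X, ∀ y ∈ Y, x * y = y * x) → False := by
      intro X Y hX hY hXY
      obtain ⟨s, hs, -, x, hx, hsx⟩ := hpgroup X hX 2 Nat.prime_two
      obtain ⟨t, ht, hts, y, hy, hty⟩ := hpgroup Y hY s hs
      exact hts (hE'.same (hXY x hx y hy) hs ht hsx hty).symm
    obtain ⟨M, hM⟩ := Cfsg.Agent.Lib.Recog.exists_minNormal (G := G ⧸ R)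
    have hMns : ¬ Group.IsSolvable M := fun hs => hM.2.1 (hnosol M hM.1 hs)
    have hMna : ¬ IsMulCommutative M := fun hc => hMns (Group.isSolvable_of_comm hc.1.1)
    obtain ⟨T, hT⟩ := hM.exists_factor hMna
    have hTns : ¬ Group.IsSolvable T := fun hs => hT.nonab (by
      haveI := hT.simple
      refine ⟨⟨fun a b => ?_⟩⟩
      exact (IsSimpleGroup.comm_iff_isSolvable (G := T)).2 hs a b)
    have hTM : T = M := by
      have hcj : ∀ g, Cfsg.Agent.Lib.Recog.cj g T = T := by
        intro g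
        by_contra hne
        refine hcommute (Cfsg.Agent.Lib.Recog.cj g T) T ?_ hTns
          (fun x hx y hy => hT.cj_comm g 1 (by rwa [Cfsg.Agent.Lib.Recog.cj_one]) x hx y
            (by rwa [Cfsg.Agent.Lib.Recog.cj_one]))
        intro hs
        refine hTns ?_
        haveI : Group.IsSolvable (T.map (MulAut.conj g).toMonoidHom) := hs
        exact Group.isSolvable_of_surjective
          (f := (T.equivMapOfInjective (MulAut.conj g).toMonoidHom (MulAut.conj g).injective).symm.toMonoidHom)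
          (MulEquiv.surjective _)
      rw [hT.gen]
      simp only [hcj, iSup_const]
    refine ⟨M, hM.1, hTM ▸ hT.simple, hMna, fun N hN hN1 => ?_⟩
    haveI := hN
    haveI := hM.1
    rcases hM.2.2 (N ⊓ M) inferInstance inf_le_right with hbot | heq
    · exfalso
      refine hcommute N M (fun hs => hN1 (hnosol N hN hs)) hMns fun x hx y hy => ?_
      exact Subgroup.commute_of_normal_of_disjoint N M hN hM.1 (disjoint_iff.2 hbot) x y hx hy
    · exact inf_eq_right.1 heq

end Cfsg.Agent.S3992
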