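import Cfsg.Statements.S3994
import Mathlib
import Cfsg.Agent.Lib.GS.FrobeniusCount

set_option autoImplicit false
open Cfsg

namespace Cfsg.Agent.S3994


/-- Let G be a finite group and n a positive integer. The number of elements of G whose order is divisible by n is either 0 or divisible by the largest divisor of the order of G that is coprime to n. -/
theorem result {G : Type*} [Group G] [Finite G] (n : ℕ) (hn : 0 < n) :
    Nat.card {g : G // n ∣ orderOf g} = 0 ∨
      (Nat.card G / Nat.gcd (Nat.card G) (n ^ Nat.card G)) ∣ Nat.card {g : G // n ∣ orderOf g} := by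
  right
  open Cfsg.Agent.Lib.GS.FrobeniusCount in
  obtain ⟨R, hR⟩ : ∃ R, R = Nat.gcd (Nat.card G) (n ^ Nat.card G) := ⟨_, rfl⟩
  rw [← hR]
  obtain ⟨M, hM⟩ : ∃ M, M = Nat.card G / R := ⟨_, rfl⟩
  rw [← hM]
  have hN0 : Nat.card G ≠ 0 := Nat.card_pos.ne'
  have hRM : R * M = Nat.card G := by
    rw [hM, Nat.mul_div_cancel' (hR ▸ Nat.gcd_dvd_left _ _)]
  have hq : ∀ q : ℕ, q.Prime → q ∣ n → ¬ q ∣ M := by
    intro q hq hqn hqM
    refine Nat.pow_succ_factorization_not_dvd hN0 hq ?_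
    rw [pow_succ]
    refine (mul_dvd_mul ?_ hqM).trans (dvd_of_eq hRM)
    rw [hR]
    refine Nat.dvd_gcd (Nat.ordProj_dvd _ _) ((pow_dvd_pow_of_dvd hqn _).trans (pow_dvd_pow n ?_))
    exact (Nat.factorization_lt q hN0).le
  have hnM : Nat.Coprime n M := Nat.coprime_of_dvd hq
  have hcop : Nat.Coprime R M := by
    refine Nat.coprime_of_dvd fun q hq' hqR hqM => hq q hq' ?_ hqM
    exact hq'.dvd_of_dvd_pow (hqR.trans (hR ▸ Nat.gcd_dvd_right _ _))
  obtain ⟨e, he1, he0⟩ := Nat.chineseRemainder hcop 1 0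
  obtain ⟨f, hf0, hf1⟩ := Nat.chineseRemainder hcop 0 1
  have hA : Nat.card {g : G // n ∣ orderOf g} =
      Nat.card {g : G // g ^ (R * M) = 1 ∧ n ∣ orderOf (g ^ e)} := by
    refine Nat.card_congr (Equiv.subtypeEquivRight fun g => ?_)
    have hg1 : g ^ (R * M) = 1 := by rw [hRM]; exact pow_card_eq_one'
    refine ⟨fun h => ⟨hg1, ?_⟩, fun h => h.2.trans (orderOf_pow_dvd e)⟩
    have hgef : g = g ^ e * g ^ f := by
      rw [← pow_add, pow_eq_pow_mod (e + f) hg1]
      conv_lhs => rw [← pow_one g, pow_eq_pow_mod 1 hg1]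
      congr 1
      refine ((Nat.modEq_and_modEq_iff_modEq_mul hcop).1 ⟨?_, ?_⟩).symm
      · simpa using he1.add hf0
      · simpa using he0.add hf1
    rw [hgef] at h
    have h1 := h.trans ((Commute.pow_pow_self g e f).orderOf_mul_dvd_lcm.trans (Nat.lcm_dvd_mul _ _))
    refine (Nat.Coprime.coprime_dvd_right ?_ hnM).dvd_of_dvd_mul_right h1
    rw [orderOf_dvd_iff_pow_eq_one, ← pow_mul, pow_eq_pow_mod (f * M) hg1]
    have : f * M % (R * M) = 0 := Nat.mod_eq_zero_of_dvd (Nat.mul_dvd_mul_right (Nat.modEq_zero_iff_dvd.1 hf0) M)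
    rw [this, pow_zero]
  rw [hA, Cfsg.Agent.Lib.GS.FrobeniusCount.count_decomp hcop he1 he0 hf0 hf1 (fun h => n ∣ orderOf h)]
  refine Cfsg.Agent.Lib.GS.FrobeniusCount.dvd_card_sigma M (fun h => h ^ R = 1 ∧ n ∣ orderOf h) ?_
    (fun h => Nat.card {k : Subgroup.centralizer ({h} : Set G) // k ^ M = 1})
    (fun g h => Cfsg.Agent.Lib.GS.FrobeniusCount.card_centralizer_roots_conj g h M) _ (fun h => rfl) ?_
  · rintro g h ⟨h1, h2⟩
    refine ⟨by rw [conj_pow, h1]; group, ?_⟩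
    rwa [show g * h * g⁻¹ = MulAut.conj g h from rfl, MulEquiv.orderOf_eq]
  intro h _
  set C := Subgroup.centralizer ({h} : Set G) with hC
  have hgcd : Nat.card {x : C // x ^ M = 1} = Nat.card {x : C // x ^ Nat.gcd M (Nat.card C) = 1} := by
    refine Nat.card_congr (Equiv.subtypeEquivRight fun x => ?_)
    rw [← orderOf_dvd_iff_pow_eq_one, ← orderOf_dvd_iff_pow_eq_one, Nat.dvd_gcd_iff,
      and_iff_left (orderOf_dvd_natCard x)]
  rw [hgcd]
  refine dvd_trans ?_ (Nat.mul_dvd_mul_left _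
    (Cfsg.Agent.Lib.GS.FrobeniusCount.dvd_card_roots _ C rfl _ (Nat.gcd_dvd_right M _)))
  rw [← Nat.gcd_mul_left]
  refine Nat.dvd_gcd (dvd_mul_left _ _) ?_
  rw [mul_comm, Subgroup.card_mul_index]
  exact Dvd.intro_left R hRM

end Cfsg.Agent.S3994
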