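import Cfsg.Statements.S3995
import Mathlib
import Cfsg.Agent.Lib.GS.FrobeniusCount
import Cfsg.Agent.Lib.UniqueInvolution

set_option autoImplicit false
open Cfsg

namespace Cfsg.Agent.S3995

open Subgroup

section
variable {G : Type*} [Group G] [Finite G]

theorem totient_dvd (m : ℕ) : m.totient ∣ Nat.card {g : G // orderOf g = m} := by
  classical
  have := Fintype.ofFinite G
  rw [Nat.card_eq_fintype_card, Fintype.card_subtype,
    Finset.card_eq_sum_card_fiberwise (f := Subgroup.zpowers) (t := Finset.univ) (fun x _ => Finset.mem_univ _)]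
  refine Finset.dvd_sum fun C _ => ?_
  rcases Finset.eq_empty_or_nonempty ((Finset.univ.filter fun g : G => orderOf g = m).filter
    fun g => zpowers g = C) with h0 | ⟨g, hg⟩
  · rw [h0]; simp
  simp only [Finset.mem_filter, Finset.mem_univ, true_and] at hg
  obtain ⟨hg, rfl⟩ := hg
  have hcard : ((Finset.univ.filter fun x : G => orderOf x = m).filter fun x => zpowers x = zpowers g).card =
      (Finset.univ.filter fun x : zpowers g => orderOf x = m).card := by
    symm
    refine Finset.card_bij (fun x _ => (x : G)) ?_ (fun _ _ _ _ h => Subtype.ext h) ?_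
    · intro x hx
      simp only [Finset.mem_filter, Finset.mem_univ, true_and] at hx ⊢
      rw [← Subgroup.orderOf_coe] at hx
      exact ⟨hx, eq_of_le_of_card_ge (zpowers_le.2 x.2) (by rw [Nat.card_zpowers, Nat.card_zpowers, hx, hg])⟩
    · intro x hx
      simp only [Finset.mem_filter, Finset.mem_univ, true_and] at hx ⊢
      exact ⟨⟨x, hx.2 ▸ mem_zpowers x⟩, by rw [Subgroup.orderOf_mk, hx.1], rfl⟩
  rw [hcard, IsCyclic.card_orderOf_eq_totient (by rw [← Nat.card_eq_fintype_card, Nat.card_zpowers, hg])]

theorem sum_orders (m : ℕ) (hm : 0 < m) :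
    ∑ d ∈ m.divisors, Nat.card {g : G // orderOf g = d} = Nat.card {g : G // g ^ m = 1} := by
  classical
  have := Fintype.ofFinite G
  rw [Nat.card_eq_fintype_card, Fintype.card_subtype, Finset.card_eq_sum_card_fiberwise (f := orderOf) (t := m.divisors)
    (fun x hx => ?_)]
  · refine Finset.sum_congr rfl fun d hd => ?_
    rw [Nat.card_eq_fintype_card, Fintype.card_subtype, Finset.filter_filter]
    congr 1
    ext g
    simp only [Finset.mem_filter, Finset.mem_univ, true_and]
    exact ⟨fun h => ⟨orderOf_dvd_iff_pow_eq_one.1 (h ▸ Nat.dvd_of_mem_divisors hd), h⟩, fun h => h.2⟩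
  · rw [Finset.mem_coe, Finset.mem_filter] at hx
    exact Nat.mem_divisors.2 ⟨orderOf_dvd_of_pow_eq_one hx.2, hm.ne'⟩

theorem frob_sum (m : ℕ) (hm : m ∣ Nat.card G) :
    m ∣ ∑ d ∈ m.divisors, Nat.card {g : G // orderOf g = d} := by
  rw [sum_orders m (Nat.pos_of_dvd_of_pos hm Nat.card_pos)]
  exact Cfsg.Agent.Lib.GS.FrobeniusCount.dvd_card_roots _ G rfl m hm

end

/-- Let G be a finite group such that the numbers of elements of each order that occurs in G (the numbers #{g : o(g) = m}, m ranging over the element orders of G) take exactly two values, 1 and some n ≠ 1. Then either G is a p-group of exponent p and order at least 3 for some prime p, or G is the quaternion group of order 8, or G is cyclic of order 4, or G ≅ Z₂ × P for a p-group P of exponent p with p an odd prime. -/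
theorem result {G : Type*} [Group G] [Finite G] (n : ℕ) (hn : n ≠ 1) (h : ((fun m : ℕ => Nat.card {g : G // orderOf g = m}) '' Set.range (orderOf : G → ℕ)) = {1, n}) :
    (∃ p : ℕ, p.Prime ∧ IsPGroup p G ∧ 3 ≤ Nat.card G ∧ Monoid.exponent G = p) ∨
      Nonempty (G ≃* QuaternionGroup 2) ∨ (IsCyclic G ∧ Nat.card G = 4) ∨
      (∃ (p : ℕ) (P : Type) (_ : Group P) (_ : Finite P), p.Prime ∧ p ≠ 2 ∧ IsPGroup p P ∧ Monoid.exponent P = p ∧
        Nonempty (G ≃* Multiplicative (ZMod 2) × P)) := by
  open Subgroup in
  classical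
  have := Fintype.ofFinite G
  obtain ⟨c, hc⟩ : ∃ c : ℕ → ℕ, c = fun m => Nat.card {g : G // orderOf g = m} := ⟨_, rfl⟩
  have hc' : ∀ m, Nat.card {g : G // orderOf g = m} = c m := fun m => by rw [hc]
  have hpos : ∀ g : G, 0 < c (orderOf g) := fun g => by
    rw [← hc']
    haveI : Nonempty {x : G // orderOf x = orderOf g} := ⟨⟨g, rfl⟩⟩
    exact Nat.card_pos
  have hval : ∀ g : G, c (orderOf g) = 1 ∨ c (orderOf g) = n := fun g => by
    have : c (orderOf g) ∈ ({1, n} : Set ℕ) := by
      rw [← h, hc]; exact ⟨_, ⟨g, rfl⟩, rfl⟩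
    simpa using this
  obtain ⟨g0, hg0⟩ : ∃ g : G, c (orderOf g) = n := by
    have : n ∈ ({1, n} : Set ℕ) := Or.inr rfl
    rw [← h] at this
    obtain ⟨_, ⟨g, rfl⟩, hg⟩ := this
    exact ⟨g, by rw [hc]; exact hg⟩
  have hn2 : 2 ≤ n := by have := hpos g0; omega
  have hc1 : c 1 = 1 := by
    rw [← hc', Nat.card_eq_one_iff_unique]
    exact ⟨⟨fun a b => Subtype.ext ((orderOf_eq_one_iff.1 a.2).trans (orderOf_eq_one_iff.1 b.2).symm)⟩,
      ⟨⟨1, orderOf_one⟩⟩⟩
  have hbig : ∀ g : G, 3 ≤ orderOf g → c (orderOf g) = n := by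
    intro g hg
    refine (hval g).resolve_left fun h1 => ?_
    rw [← hc', Nat.card_eq_one_iff_unique] at h1
    obtain ⟨hsub, -⟩ := h1
    have heq := congrArg Subtype.val (hsub.elim ⟨g, rfl⟩ ⟨g⁻¹, orderOf_inv g⟩)
    have h2 : g ^ 2 = 1 := by rw [sq]; nth_rewrite 2 [show g = g⁻¹ from heq]; exact mul_inv_cancel g
    have := Nat.le_of_dvd two_pos (orderOf_dvd_of_pow_eq_one h2)
    omega
  have hor : ∀ m, c m = 0 ∨ ∃ g : G, orderOf g = m := fun m => by
    by_cases hex : ∃ g : G, orderOf g = m
    · exact Or.inr hex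
    · left
      rw [← hc']
      haveI : IsEmpty {g : G // orderOf g = m} := ⟨fun g => hex ⟨g.1, g.2⟩⟩
      exact Nat.card_of_isEmpty
  have hzn : ∀ m, 3 ≤ m → c m = 0 ∨ c m = n := fun m hm => by
    rcases hor m with h0 | ⟨g, rfl⟩
    · exact Or.inl h0
    · exact Or.inr (hbig g hm)
  have hexist : ∀ p, p.Prime → p ∣ Nat.card G → ∃ g : G, orderOf g = p := fun p hp hpd => by
    haveI := Fact.mk hp
    exact exists_prime_orderOf_dvd_card' p hpd
  have hfs : ∀ m, m ∣ Nat.card G → m ∣ ∑ d ∈ m.divisors, c d := fun m hm => by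
    have := frob_sum (G := G) m hm
    rwa [Finset.sum_congr rfl (fun d _ => hc' d)] at this
  -- for an odd prime divisor `p`
  have hcp : ∀ p, p.Prime → p ≠ 2 → p ∣ Nat.card G → c p = n ∧ p ∣ 1 + n := by
    intro p hp hp2 hpd
    obtain ⟨g, hg⟩ := hexist p hp hpd
    have h3 : 3 ≤ p := by have := hp.two_le; omega
    have hcn : c p = n := hg ▸ hbig g (hg ▸ h3)
    refine ⟨hcn, ?_⟩
    have := hfs p hpd
    rwa [hp.divisors, Finset.sum_pair hp.one_lt.ne, hc1, hcn] at this
  have hnotdvd : ∀ p, p.Prime → p ≠ 2 → p ∣ Nat.card G → ¬ p ∣ n := by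
    intro p hp hp2 hpd hpn
    exact hp.not_dvd_one ((Nat.dvd_add_iff_left hpn).2 (hcp p hp hp2 hpd).2)
  have hno2 : ∀ p, p.Prime → p ≠ 2 → p ∣ Nat.card G → ∀ g : G, orderOf g ≠ p ^ 2 := by
    intro p hp hp2 hpd g hg
    have h1 : c (p ^ 2) = n := hg ▸ hbig g (by rw [hg]; nlinarith [hp.two_le])
    have h2 := totient_dvd (G := G) (p ^ 2)
    rw [hc', h1, Nat.totient_prime_pow hp two_pos, show (2 : ℕ) - 1 = 1 from rfl, pow_one] at h2
    exact hnotdvd p hp hp2 hpd ((dvd_mul_right _ _).trans h2)
  have hpair : ∀ p q, p.Prime → p ≠ 2 → q.Prime → p ≠ q → p ∣ Nat.card G → q ∣ Nat.card G → c q = n → False := by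
    intro p q hp hp2 hq hpq hpd hqd hcq
    obtain ⟨hcpn, hp1⟩ := hcp p hp hp2 hpd
    have h1 := hfs (p * q) (((Nat.coprime_primes hp hq).2 hpq).mul_dvd_of_dvd_of_dvd hpd hqd)
    have hdiv : (p * q).divisors = {1, p, q, p * q} := by
      ext d
      simp only [Nat.mem_divisors, Finset.mem_insert, Finset.mem_singleton]
      constructor
      · rintro ⟨hd, -⟩
        obtain ⟨a, b, ha, hb, rfl⟩ := exists_dvd_and_dvd_of_dvd_mul hd
        rcases (Nat.dvd_prime hp).1 ha with rfl | rfl <;> rcases (Nat.dvd_prime hq).1 hb with rfl | rfl <;> simp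
      · intro hd
        refine ⟨?_, Nat.mul_ne_zero hp.ne_zero hq.ne_zero⟩
        rcases hd with rfl | rfl | rfl | rfl
        · exact one_dvd _
        · exact dvd_mul_right _ _
        · exact dvd_mul_left _ _
        · exact dvd_rfl
    have e1 : (1 : ℕ) ∉ ({p, q, p * q} : Finset ℕ) := by
      simp only [Finset.mem_insert, Finset.mem_singleton, not_or]
      refine ⟨hp.one_lt.ne, hq.one_lt.ne, ?_⟩
      have := hp.two_le; have := hq.two_le; nlinarith
    have e2 : p ∉ ({q, p * q} : Finset ℕ) := by
      simp only [Finset.mem_insert, Finset.mem_singleton, not_or]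
      refine ⟨hpq, ?_⟩
      have := hp.two_le; have := hq.two_le; nlinarith
    have e3 : q ≠ p * q := by
      have := hp.two_le; have := hq.two_le; nlinarith
    rw [hdiv, Finset.sum_insert e1, Finset.sum_insert e2, Finset.sum_pair e3, hc1, hcpn, hcq] at h1
    have h2 : p ∣ 1 + (n + (n + c (p * q))) := (dvd_mul_right p q).trans h1
    rcases hzn (p * q) (by have := hp.two_le; have := hq.two_le; nlinarith) with h0 | h0 <;> rw [h0] at h2
    · rw [add_zero, ← add_assoc] at h2
      exact hnotdvd p hp hp2 hpd ((Nat.dvd_add_iff_right hp1).2 h2)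
    · have h3 : p ∣ 2 * n := by
        refine (Nat.dvd_add_iff_right hp1).2 ?_
        rwa [show 1 + n + 2 * n = 1 + (n + (n + n)) by ring]
      rcases hp.dvd_mul.1 h3 with h4 | h4
      · exact hp2 ((Nat.prime_dvd_prime_iff_eq hp Nat.prime_two).1 h4)
      · exact hnotdvd p hp hp2 hpd h4
  -- at most one odd prime
  have hone : ∀ p q, p.Prime → q.Prime → p ≠ 2 → q ≠ 2 → p ∣ Nat.card G → q ∣ Nat.card G → p = q := by
    intro p q hp hq hp2 hq2 hpd hqd
    by_contra hne
    exact hpair p q hp hp2 hq hne hpd hqd (hcp q hq hq2 hqd).1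
  have hexp : ∀ p, p.Prime → p ≠ 2 → p ∣ Nat.card G → ∀ (P : Subgroup G), IsPGroup p P → ∀ x ∈ P, x ^ p = 1 := by
    intro p hp hp2 hpd P hP x hx
    haveI := Fact.mk hp
    obtain ⟨k, hk⟩ := IsPGroup.iff_orderOf.1 hP ⟨x, hx⟩
    rw [Subgroup.orderOf_mk] at hk
    rw [← orderOf_dvd_iff_pow_eq_one, hk]
    rcases Nat.lt_or_ge k 2 with hlt | hge
    · exact (pow_dvd_pow p (show k ≤ 1 by omega)).trans (pow_one p).dvd
    · exfalso
      refine hno2 p hp hp2 hpd (x ^ p ^ (k - 2)) ?_
      rw [orderOf_pow, hk, Nat.gcd_eq_right (pow_dvd_pow p (Nat.sub_le k 2)), Nat.pow_div (Nat.sub_le k 2) hp.pos]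
      congr 1; omega
  by_cases hoddp : ∃ p, p.Prime ∧ p ≠ 2 ∧ p ∣ Nat.card G
  · obtain ⟨p, hp, hp2, hpd⟩ := hoddp
    haveI := Fact.mk hp
    obtain ⟨P⟩ : Nonempty (Sylow p G) := inferInstance
    have hPexp : ∀ x : P, x ^ p = 1 := fun x => Subtype.ext (hexp p hp hp2 hpd P P.2 x x.2)
    obtain ⟨y, hy⟩ := hexist p hp hpd
    by_cases h2 : 2 ∣ Nat.card G
    · -- even order
      haveI : Fact (Nat.Prime 2) := ⟨Nat.prime_two⟩
      obtain ⟨z, hz⟩ := hexist 2 Nat.prime_two h2
      have hc2 : c 2 = 1 := by
        have := (hval z).resolve_right fun h => hpair p 2 hp hp2 Nat.prime_two hp2 hpd h2 (hz ▸ h)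
        rwa [hz] at this
      have hzuniq : ∀ w : G, orderOf w = 2 → w = z := by
        intro w hw
        rw [← hc', Nat.card_eq_one_iff_unique] at hc2
        exact congrArg Subtype.val (hc2.1.elim ⟨w, hw⟩ ⟨z, hz⟩)
      have hzc : z ∈ center G := mem_center_iff.2 fun g => by
        have := hzuniq (g * z * g⁻¹) (by rw [show g * z * g⁻¹ = MulAut.conj g z from rfl, MulEquiv.orderOf_eq, hz])
        exact mul_inv_eq_iff_eq_mul.1 this
      have hno4 : ∀ g : G, orderOf g ≠ 4 := by
        intro g hg
        have hc4 : c 4 = n := hg ▸ hbig g (by omega)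
        have hcop : Nat.Coprime 4 p :=
          (show (4 : ℕ) = 2 ^ 2 by norm_num) ▸ ((Nat.coprime_primes Nat.prime_two hp).2 (Ne.symm hp2)).pow_left 2
        have hp0 := hp.two_le
        have h4p : 4 * p ∣ Nat.card G := hcop.mul_dvd_of_dvd_of_dvd (hg ▸ orderOf_dvd_natCard g) hpd
        have h2p : 2 * p ∣ Nat.card G := (Nat.mul_dvd_mul_right (by norm_num) p).trans h4p
        have e1 := (dvd_mul_left p 4).trans (hfs _ h4p)
        have e2 := (dvd_mul_left p 2).trans (hfs _ h2p)
        have hdiv : (4 * p).divisors = insert 4 (insert (4 * p) (2 * p).divisors) := by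
          ext d
          simp only [Nat.mem_divisors, Finset.mem_insert]
          constructor
          · rintro ⟨hd, -⟩
            obtain ⟨u, v, hu, hv, rfl⟩ := exists_dvd_and_dvd_of_dvd_mul hd
            obtain ⟨i, hi, rfl⟩ := (Nat.dvd_prime_pow Nat.prime_two (m := 2)).1 (by simpa using hu)
            rcases Nat.lt_or_ge i 2 with hlt | hge
            · exact Or.inr (Or.inr ⟨mul_dvd_mul ((pow_dvd_pow 2 (show i ≤ 1 by omega)).trans (pow_one 2).dvd) hv, by omega⟩)
            · obtain rfl : i = 2 := by omega
              rcases (Nat.dvd_prime hp).1 hv with rfl | rfl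
              · left; norm_num
              · right; left; norm_num
          · rintro (rfl | rfl | ⟨hd, -⟩)
            · exact ⟨dvd_mul_right _ _, by omega⟩
            · exact ⟨dvd_rfl, by omega⟩
            · exact ⟨hd.trans (Nat.mul_dvd_mul_right (by norm_num) p), by omega⟩
        have f1 : 4 * p ∉ (2 * p).divisors := fun hm => by
          have := Nat.le_of_dvd (by omega) (Nat.dvd_of_mem_divisors hm)
          omega
        have f2 : 4 ∉ insert (4 * p) (2 * p).divisors := by
          simp only [Finset.mem_insert, Nat.mem_divisors, not_or, not_and_or]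
          refine ⟨by omega, Or.inl fun h4 => ?_⟩
          have h4' : 2 * 2 ∣ 2 * p := h4
          rw [Nat.mul_dvd_mul_iff_left two_pos] at h4'
          exact hp2 ((Nat.prime_dvd_prime_iff_eq Nat.prime_two hp).1 h4').symm
        rw [hdiv, Finset.sum_insert f2, Finset.sum_insert f1, ← add_assoc, hc4] at e1
        have h3 := (Nat.dvd_add_iff_left e2).2 e1
        rcases hzn (4 * p) (by omega) with h0 | h0 <;> rw [h0] at h3
        · exact hnotdvd p hp hp2 hpd (by simpa using h3)
        · rcases hp.dvd_mul.1 (show p ∣ 2 * n by rwa [two_mul]) with h4 | h4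
          · exact hp2 ((Nat.prime_dvd_prime_iff_eq hp Nat.prime_two).1 h4)
          · exact hnotdvd p hp hp2 hpd h4
      obtain ⟨S⟩ : Nonempty (Sylow 2 G) := inferInstance
      have hS : Nat.card (S : Subgroup G) = 2 := by
        have hle : (S : Subgroup G) ≤ zpowers z := by
          intro s hs
          obtain ⟨k, hk⟩ := IsPGroup.iff_orderOf.1 S.2 ⟨s, hs⟩
          rw [Subgroup.orderOf_mk] at hk
          rcases k with _ | _ | k
          · rw [orderOf_eq_one_iff.1 (hk.trans (pow_zero 2))]; exact one_mem _
          · rw [hzuniq s (hk.trans (pow_one 2))]; exact mem_zpowers z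
          · exfalso
            refine hno4 (s ^ 2 ^ k) ?_
            rw [orderOf_pow, hk, Nat.gcd_eq_right (pow_dvd_pow 2 (by omega)), Nat.pow_div (by omega) two_pos,
              show k + 1 + 1 - k = 2 by omega]
            norm_num
        have h1 := card_dvd_of_le hle
        rw [Nat.card_zpowers, hz] at h1
        exact ((Nat.dvd_prime Nat.prime_two).1 h1).resolve_left
          fun h => S.ne_bot_of_dvd_card h2 (card_eq_one.1 h)
      have hcard : Nat.card G = 2 * Nat.card (P : Subgroup G) := by
        refine Nat.eq_of_factorization_eq Nat.card_pos.ne' (Nat.mul_ne_zero two_ne_zero Nat.card_pos.ne') fun r => ?_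
        rw [Nat.factorization_mul two_ne_zero Nat.card_pos.ne', Finsupp.add_apply, P.card_eq_multiplicity,
          hp.factorization_pow, Nat.prime_two.factorization]
        rcases eq_or_ne r 2 with rfl | hr2
        · rw [Finsupp.single_eq_same, Finsupp.single_eq_of_ne (Ne.symm hp2), add_zero]
          have := S.card_eq_multiplicity
          rw [hS] at this
          exact (Nat.pow_right_injective le_rfl ((pow_one 2).trans this)).symm
        rcases eq_or_ne r p with rfl | hrp
        · rw [Finsupp.single_eq_same, Finsupp.single_eq_of_ne hr2, zero_add]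
        rw [Finsupp.single_eq_of_ne hr2, Finsupp.single_eq_of_ne hrp]
        by_contra h0
        have hmem : r ∈ (Nat.card G).primeFactors := by
          rw [← Nat.support_factorization, Finsupp.mem_support_iff]; exact h0
        rw [Nat.mem_primeFactors] at hmem
        exact hrp (hone r p hmem.1 hp hr2 hp2 hmem.2.1 hpd)
      refine Or.inr (Or.inr (Or.inr ?_))
      let e : (P : Subgroup G) ≃* Shrink.{0} (P : Subgroup G) := Shrink.mulEquiv.symm
      haveI : Finite (Shrink.{0} (P : Subgroup G)) := Finite.of_equiv _ e.toEquiv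
      refine ⟨p, Shrink.{0} (P : Subgroup G), inferInstance, inferInstance, hp, hp2, P.2.of_equiv e, ?_, ⟨?_⟩⟩
      · rw [← Monoid.exponent_eq_of_mulEquiv e]
        refine ((Nat.dvd_prime hp).1 (Monoid.exponent_dvd_of_forall_pow_eq_one hPexp)).resolve_left fun h1 => ?_
        rw [Monoid.exp_eq_one_iff] at h1
        exact P.ne_bot_of_dvd_card hpd (Subgroup.eq_bot_of_subsingleton _)
      · have hcm : ∀ (a : zpowers z) (b : (P : Subgroup G)), Commute ((zpowers z).subtype a) ((P : Subgroup G).subtype b) :=
          fun a b => ((mem_center_iff.1 (zpowers_le.2 hzc a.2)) b).symm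
        have hinj : Function.Injective (MonoidHom.noncommCoprod _ _ hcm) := by
          rw [MonoidHom.noncommCoprod_injective, range_subtype, range_subtype]
          refine ⟨subtype_injective _, subtype_injective _, disjoint_of_coprime_natCard ?_⟩
          rw [Nat.card_zpowers, hz, P.card_eq_multiplicity]
          exact Nat.Coprime.pow_right _ ((Nat.coprime_primes Nat.prime_two hp).2 (Ne.symm hp2))
        have hbij : Function.Bijective (MonoidHom.noncommCoprod _ _ hcm) :=
          (Nat.bijective_iff_injective_and_card _).2 ⟨hinj, by rw [Nat.card_prod, Nat.card_zpowers, hz, hcard]⟩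
        have e2 : zpowers z ≃* Multiplicative (ZMod 2) := mulEquivOfPrimeCardEq (p := 2)
          (by rw [Nat.card_zpowers, hz]) (by rw [Nat.card_congr Multiplicative.toAdd, Nat.card_zmod])
        exact (MulEquiv.ofBijective _ hbij).symm.trans (MulEquiv.prodCongr e2 e)
    · -- a group of exponent `p`
      have hG : IsPGroup p G := by
        refine IsPGroup.of_card (n := (Nat.card G).factorization p)
          (Nat.eq_pow_of_factorization_eq_single Nat.card_pos.ne' (Finsupp.ext fun r => ?_))
        rcases eq_or_ne r p with rfl | hne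
        · simp
        rw [Finsupp.single_eq_of_ne hne]
        by_contra h0
        have hmem : r ∈ (Nat.card G).primeFactors := by
          rw [← Nat.support_factorization, Finsupp.mem_support_iff]; exact h0
        rw [Nat.mem_primeFactors] at hmem
        exact hne (hone r p hmem.1 hp (fun h => h2 (h ▸ hmem.2.1)) hp2 hmem.2.1 hpd)
      refine Or.inl ⟨p, hp, hG, ?_, ?_⟩
      · exact le_trans (by have := hp.two_le; omega) (Nat.le_of_dvd Nat.card_pos hpd)
      · refine ((Nat.dvd_prime hp).1 (Monoid.exponent_dvd_of_forall_pow_eq_one fun x =>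
          hexp p hp hp2 hpd ⊤ (hG.to_subgroup ⊤) x trivial)).resolve_left fun h1 => ?_
        rw [Monoid.exp_eq_one_iff] at h1
        rw [Subsingleton.elim y 1, orderOf_one] at hy
        exact hp.one_lt.ne hy
  · -- a 2-group
    push Not at hoddp
    haveI : Fact (Nat.Prime 2) := ⟨Nat.prime_two⟩
    have hG : IsPGroup 2 G := by
      refine IsPGroup.of_card (n := (Nat.card G).factorization 2)
        (Nat.eq_pow_of_factorization_eq_single Nat.card_pos.ne' (Finsupp.ext fun r => ?_))
      rcases eq_or_ne r 2 with rfl | hne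
      · simp
      rw [Finsupp.single_eq_of_ne hne]
      by_contra h0
      have hmem : r ∈ (Nat.card G).primeFactors := by
        rw [← Nat.support_factorization, Finsupp.mem_support_iff]; exact h0
      rw [Nat.mem_primeFactors] at hmem
      exact hoddp r hmem.1 hne hmem.2.1
    have hG2 : 2 ∣ Nat.card G := by
      obtain ⟨k, hk⟩ := IsPGroup.iff_card.1 hG
      rcases k with _ | k
      · exfalso
        haveI := (Nat.card_eq_one_iff_unique.1 hk).1
        rw [Subsingleton.elim g0 1, orderOf_one, hc1] at hg0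
        omega
      · exact hk ▸ dvd_pow_self 2 (Nat.succ_ne_zero k)
    obtain ⟨z, hz⟩ := hexist 2 Nat.prime_two hG2
    rcases hval z with hc2 | hc2 <;> rw [hz] at hc2
    · have hzuniq : ∀ w : G, orderOf w = 2 → w = z := by
        intro w hw
        rw [← hc', Nat.card_eq_one_iff_unique] at hc2
        exact congrArg Subtype.val (hc2.1.elim ⟨w, hw⟩ ⟨z, hz⟩)
      have huniq : ∀ H K : Subgroup G, Nat.card H = 2 → Nat.card K = 2 → H = K := by
        have : ∀ H : Subgroup G, Nat.card H = 2 → H = zpowers z := by
          intro H hH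
          obtain ⟨w, hw⟩ := exists_prime_orderOf_dvd_card' (G := H) 2 (by rw [hH])
          rw [← Subgroup.orderOf_coe] at hw
          exact (eq_of_le_of_card_ge (zpowers_le.2 (hzuniq _ hw ▸ w.2)) (by rw [hH, Nat.card_zpowers, hz])).symm
        exact fun H K hH hK => (this H hH).trans (this K hK).symm
      rcases Cfsg.Agent.Lib.UniqueInvolution.isCyclic_or_quaternion hG huniq with hcyc | ⟨-, k, hk1, ⟨e⟩⟩
      · refine Or.inr (Or.inr (Or.inl ⟨hcyc, ?_⟩))
        haveI := hcyc
        obtain ⟨k, hk⟩ := IsPGroup.iff_card.1 hG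
        have htot : ∀ d, d ∣ Nat.card G → c d = d.totient := by
          intro d hd
          rw [← hc', Nat.card_eq_fintype_card, Fintype.card_subtype,
            IsCyclic.card_orderOf_eq_totient (by rwa [← Nat.card_eq_fintype_card])]
        have hk2 : 2 ≤ k := by
          by_contra hlt
          have hdvd : orderOf g0 ∣ 2 :=
            (orderOf_dvd_natCard g0).trans (hk ▸ (pow_dvd_pow 2 (show k ≤ 1 by omega)).trans (pow_one 2).dvd)
          rcases (Nat.dvd_prime Nat.prime_two).1 hdvd with h1 | h1 <;> rw [h1] at hg0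
          · rw [hc1] at hg0; omega
          · rw [hc2] at hg0; omega
        rcases Nat.lt_or_ge k 3 with hlt | hge
        · rw [hk, show k = 2 by omega]; norm_num
        · exfalso
          have h8 : 2 ^ 3 ∣ Nat.card G := hk ▸ pow_dvd_pow 2 hge
          have h4 : 2 ^ 2 ∣ Nat.card G := (pow_dvd_pow 2 (by norm_num)).trans h8
          have e8 := htot _ h8
          have e4 := htot _ h4
          rw [Nat.totient_prime_pow Nat.prime_two (by norm_num)] at e8 e4
          have a8 := (hzn (2 ^ 3) (by norm_num)).resolve_left (by rw [e8]; norm_num)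
          have a4 := (hzn (2 ^ 2) (by norm_num)).resolve_left (by rw [e4]; norm_num)
          rw [a8] at e8; rw [a4] at e4
          norm_num at e8 e4
          omega
      · refine Or.inr (Or.inl ?_)
        rcases eq_or_ne k 1 with rfl | hkne
        · exact ⟨e⟩
        exfalso
        obtain ⟨k, rfl⟩ : ∃ l, k = l + 2 := ⟨k - 2, by omega⟩
        haveI : NeZero (2 ^ (k + 2)) := ⟨by positivity⟩
        have hpos' : 0 < 2 ^ k := by positivity
        have hord : ∀ j : ℕ, j ≤ k + 2 → orderOf (QuaternionGroup.a ((2 ^ j : ℕ) : ZMod (2 * 2 ^ (k + 2))) : QuaternionGroup (2 ^ (k + 2))) = 2 ^ (k + 3 - j) := by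
          intro j hj
          have hlt : 2 ^ j < 2 * 2 ^ (k + 2) := by
            rw [← pow_succ']; exact Nat.pow_lt_pow_right one_lt_two (by omega)
          rw [QuaternionGroup.orderOf_a, ZMod.val_natCast, Nat.mod_eq_of_lt hlt, ← pow_succ',
            Nat.gcd_eq_right (pow_dvd_pow 2 (by omega)), Nat.pow_div (by omega) two_pos]
        have h4 := hord (k + 1) (by omega)
        have h8 := hord k (by omega)
        rw [show k + 3 - (k + 1) = 2 by omega] at h4
        rw [show k + 3 - k = 3 by omega] at h8
        have hc4 : c 4 = n := by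
          have := hbig (e.symm (QuaternionGroup.xa 0)) (by rw [MulEquiv.orderOf_eq, QuaternionGroup.orderOf_xa]; norm_num)
          rwa [MulEquiv.orderOf_eq, QuaternionGroup.orderOf_xa] at this
        have hc8 : c 8 = n := by
          have := hbig (e.symm (QuaternionGroup.a ((2 ^ k : ℕ) : ZMod (2 * 2 ^ (k + 2))))) (by rw [MulEquiv.orderOf_eq, h8]; norm_num)
          rwa [MulEquiv.orderOf_eq, h8] at this
        -- many elements of order four, few of order eight
        have hlow : 2 * 2 ^ (k + 2) + 1 ≤ c 4 := by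
          rw [← hc']
          have hN : Nat.card (Option (ZMod (2 * 2 ^ (k + 2)))) = 2 * 2 ^ (k + 2) + 1 := by
            rw [Finite.card_option, Nat.card_zmod]
          rw [← hN]
          refine Nat.card_le_card_of_injective (fun o => match o with
            | none => ⟨e.symm (QuaternionGroup.a ((2 ^ (k + 1) : ℕ) : ZMod (2 * 2 ^ (k + 2)))), by
                rw [MulEquiv.orderOf_eq, h4]; norm_num⟩
            | some i => ⟨e.symm (QuaternionGroup.xa i), by rw [MulEquiv.orderOf_eq, QuaternionGroup.orderOf_xa]⟩) ?_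
          intro a b hab
          rcases a with _ | a <;> rcases b with _ | b <;>
            simp only [Subtype.mk.injEq, EmbeddingLike.apply_eq_iff_eq, reduceCtorEq, QuaternionGroup.xa.injEq] at hab
          · rfl
          · rw [hab]
        have hupp : c 8 ≤ 8 := by
          haveI : IsCyclic (Multiplicative (ZMod (2 * 2 ^ (k + 2)))) := inferInstance
          rw [← hc']
          refine le_trans ?_ (IsCyclic.card_pow_eq_one_le (α := Multiplicative (ZMod (2 * 2 ^ (k + 2)))) (show 0 < 8 by norm_num))
          rw [← Fintype.card_subtype, ← Nat.card_eq_fintype_card]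
          have key : ∀ g : G, orderOf g = 8 → ∃ i, e g = QuaternionGroup.a i ∧ (Multiplicative.ofAdd i) ^ 8 = 1 := by
            intro g hg
            have hg' : orderOf (e g) = 8 := by rw [MulEquiv.orderOf_eq, hg]
            rcases hge : e g with i | i
            · refine ⟨i, rfl, ?_⟩
              have := pow_orderOf_eq_one (e g)
              rw [hg', hge] at this
              have hpow : ∀ m : ℕ, (QuaternionGroup.a i : QuaternionGroup (2 ^ (k + 2))) ^ m = QuaternionGroup.a (m • i) := by
                intro m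
                induction m with
                | zero => simp
                | succ m ih => rw [pow_succ (QuaternionGroup.a i) m, ih, QuaternionGroup.a_mul_a, succ_nsmul]
              rw [hpow, QuaternionGroup.one_def, QuaternionGroup.a.injEq] at this
              rw [← ofAdd_nsmul, this, ofAdd_zero]
            · rw [hge, QuaternionGroup.orderOf_xa] at hg'
              norm_num at hg'
          choose f hf1 hf2 using key
          refine Nat.card_le_card_of_injective (fun g => ⟨Multiplicative.ofAdd (f g.1 g.2), hf2 g.1 g.2⟩) ?_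
          intro a b hab
          have : f a.1 a.2 = f b.1 b.2 := Multiplicative.ofAdd.injective (congrArg Subtype.val hab)
          exact Subtype.ext (e.injective (by rw [hf1 a.1 a.2, hf1 b.1 b.2, this]))
        have hfour : 8 ≤ 2 * 2 ^ (k + 2) := by rw [pow_add]; omega
        omega
    · -- exponent two
      have hodd : Odd n := by
        have := hfs 2 hG2
        rw [Nat.prime_two.divisors, Finset.sum_pair (by norm_num), hc1, hc2] at this
        rw [Nat.odd_iff]; omega
      have hexp2 : ∀ x : G, x ^ 2 = 1 := by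
        intro x
        obtain ⟨k, hk⟩ := IsPGroup.iff_orderOf.1 hG x
        rw [← orderOf_dvd_iff_pow_eq_one, hk]
        rcases Nat.lt_or_ge k 2 with hlt | hge
        · exact (pow_dvd_pow 2 (show k ≤ 1 by omega)).trans (pow_one 2).dvd
        · exfalso
          have h4 : orderOf (x ^ 2 ^ (k - 2)) = 4 := by
            rw [orderOf_pow, hk, Nat.gcd_eq_right (pow_dvd_pow 2 (Nat.sub_le k 2)), Nat.pow_div (Nat.sub_le k 2) two_pos,
              show k - (k - 2) = 2 by omega]
            norm_num
          have hc4 : c 4 = n := h4 ▸ hbig _ (by omega)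
          have := totient_dvd (G := G) 4
          rw [hc', hc4, show Nat.totient 4 = 2 by decide] at this
          exact (Nat.not_even_iff_odd.2 hodd) (even_iff_two_dvd.2 this)
      refine Or.inl ⟨2, Nat.prime_two, hG, ?_, ?_⟩
      · obtain ⟨k, hk⟩ := IsPGroup.iff_card.1 hG
        by_contra hlt
        have hle : Nat.card {g : G // orderOf g = 2} < Nat.card G := by
          rw [Nat.card_eq_fintype_card, Nat.card_eq_fintype_card]
          exact Fintype.card_subtype_lt (x := (1 : G)) (by rw [orderOf_one]; norm_num)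
        rw [hc', hc2] at hle
        omega
      · refine ((Nat.dvd_prime Nat.prime_two).1 (Monoid.exponent_dvd_of_forall_pow_eq_one hexp2)).resolve_left fun h1 => ?_
        rw [Monoid.exp_eq_one_iff] at h1
        rw [Subsingleton.elim z 1, orderOf_one] at hz
        exact absurd hz (by norm_num)

end Cfsg.Agent.S3995
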