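import Cfsg.Statements.S3997
import Mathlib
import Cfsg.Agent.Lib.GS.Sylow

set_option autoImplicit false
open Cfsg

namespace Cfsg.Agent.S3997


/-- Let G and H be finite groups with the same order type: for every m they have the same number of elements of order m. If G is nilpotent then so is H. -/
theorem result {G H : Type*} [Group G] [Finite G] [Group H] [Finite H] (hT : (∀ m : ℕ, Nat.card {g : G // orderOf g = m} = Nat.card {h : H // orderOf h = m})) (hG : Group.IsNilpotent G) :
    Group.IsNilpotent H := by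
  obtain ⟨e, he⟩ := Cfsg.Agent.Lib.GS.exists_orderOf_equiv hT
  rw [(Group.isNilpotent_of_finite_tfae (G := H)).out 0 3 rfl rfl]
  intro p hp Q
  obtain ⟨P⟩ : Nonempty (Sylow p G) := inferInstance
  have hP := (Group.isNilpotent_of_finite_tfae (G := G)).out 0 3 rfl rfl |>.mp hG p hp P
  have hcard : Nat.card (P : Subgroup G) = Nat.card (Q : Subgroup H) := by
    rw [P.card_eq_multiplicity, Q.card_eq_multiplicity, Nat.card_congr e]
  have hset : ((Q : Subgroup H) : Set H) = {y : H | ∃ b : ℕ, orderOf y = p ^ b} := by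
    refine Set.eq_of_subset_of_ncard_le (fun y hy => ?_) ?_ (Set.toFinite _)
    · obtain ⟨b, hb⟩ := IsPGroup.iff_orderOf.mp Q.2 ⟨y, hy⟩
      exact ⟨b, by rw [← hb, ← Subgroup.orderOf_coe]⟩
    · rw [← Nat.card_coe_set_eq, ← Nat.card_coe_set_eq]
      refine le_of_le_of_eq (le_of_eq ?_) hcard
      refine Nat.card_congr (Equiv.subtypeEquiv e.symm (fun y => ?_))
      constructor
      · rintro ⟨b, hb⟩
        refine Cfsg.Agent.Lib.GS.mem_of_normal_sylow P hP (b := b) ?_
        rw [← he, Equiv.apply_symm_apply]; exact hb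
      · intro hy
        obtain ⟨b, hb⟩ := IsPGroup.iff_orderOf.mp P.2 ⟨_, hy⟩
        refine ⟨b, ?_⟩
        rw [← hb, ← Subgroup.orderOf_coe]
        change orderOf y = orderOf (e.symm y)
        rw [← he, Equiv.apply_symm_apply]
  refine ⟨fun y hy g => ?_⟩
  have h1 : y ∈ ((Q : Subgroup H) : Set H) := hy
  rw [hset] at h1
  change g * y * g⁻¹ ∈ ((Q : Subgroup H) : Set H)
  rw [hset]
  obtain ⟨b, hb⟩ := h1
  exact ⟨b, by rw [show g * y * g⁻¹ = MulAut.conj g y from rfl, MulEquiv.orderOf_eq, hb]⟩

end Cfsg.Agent.S3997
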