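import Cfsg.Statements.S3998
import Mathlib
import Cfsg.Agent.Lib.GS.Basic

set_option autoImplicit false
open Cfsg

namespace Cfsg.Agent.S3998

open Cfsg.Agent.Lib.GS

theorem supersolvable_quotient {G : Type*} [Group G] (hG : Cfsg.IsSupersolvable G) (N : Subgroup G)
    [N.Normal] : Cfsg.IsSupersolvable (G ⧸ N) := by
  obtain ⟨n, H, h0, h1, hn, hs⟩ := hG
  refine ⟨n, fun i => (H i).map (QuotientGroup.mk' N), by simp [h0], ?_, fun i => ?_, fun i => ?_⟩
  · simp only [h1]
    exact Subgroup.map_top_of_surjective _ (QuotientGroup.mk'_surjective N)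
  · exact (hn i).map _ (QuotientGroup.mk'_surjective N)
  · obtain ⟨g, hg⟩ := hs i
    refine ⟨QuotientGroup.mk' N g, ?_⟩
    simp [hg, Subgroup.map_sup]

theorem exists_normal_prime_order {G : Type*} [Group G] [Finite G] [Nontrivial G]
    (hG : Cfsg.IsSupersolvable G) :
    ∃ (N : Subgroup G), N.Normal ∧ (Nat.card N).Prime := by
  obtain ⟨n, H, h0, h1, hn, hs⟩ := hG
  have hex : ∃ i : Fin n, H i.castSucc = ⊥ ∧ H i.succ ≠ ⊥ := by
    by_contra! hcon
    have : ∀ i : Fin (n+1), H i = ⊥ := by
      intro i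
      induction i using Fin.induction with
      | zero => exact h0
      | succ j ih => exact hcon j ih
    exact top_ne_bot (α := Subgroup G) (h1.symm.trans (this (Fin.last n)))
  obtain ⟨i, hi0, hi1⟩ := hex
  obtain ⟨g, hg⟩ := hs i
  rw [hi0, bot_sup_eq] at hg
  have hnorm : (Subgroup.zpowers g).Normal := hg ▸ hn i.succ
  have hg1 : orderOf g ≠ 1 := by
    intro h
    apply hi1
    rw [hg, orderOf_eq_one_iff.mp h, Subgroup.zpowers_one_eq_bot]
  have hp := Nat.minFac_prime hg1
  set d := orderOf g with hd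
  set p := d.minFac
  refine ⟨Subgroup.zpowers (g ^ (d / p)), ⟨?_⟩, ?_⟩
  · intro y hy x
    obtain ⟨j, rfl⟩ := Subgroup.mem_zpowers_iff.mp hy
    obtain ⟨k, hk⟩ := Subgroup.mem_zpowers_iff.mp (hnorm.conj_mem g (Subgroup.mem_zpowers g) x)
    refine Subgroup.mem_zpowers_iff.mpr ⟨k * j, ?_⟩
    rw [← conj_zpow, ← conj_pow, ← hk]
    simp only [← zpow_natCast, ← zpow_mul]
    ring_nf
  · rw [Nat.card_zpowers, orderOf_pow_orderOf_div (orderOf_pos g).ne' (Nat.minFac_dvd d)]
    exact hp

/-- In a finite supersolvable group the elements with all prime divisors at least `t` form a Hall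
subgroup. -/
theorem exists_upper_hall {G : Type*} [Group G] [Finite G] (hG : Cfsg.IsSupersolvable G) (t : ℕ) :
    ∃ L : Subgroup G, (∀ x : G, x ∈ L ↔ ∀ q : ℕ, q.Prime → q ∣ orderOf x → t ≤ q) ∧
      ∀ q : ℕ, q.Prime → q ∣ L.index → q < t := by
  induction hn : Nat.card G using Nat.strong_induction_on generalizing G with
  | _ n ih => ?_
  rcases subsingleton_or_nontrivial G with hS | hS
  · refine ⟨⊤, fun x => ⟨fun _ q hq hd => ?_, fun _ => Subgroup.mem_top x⟩, fun q hq hd => ?_⟩
    · rw [Subsingleton.elim x 1, orderOf_one] at hd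
      exact absurd (Nat.dvd_one.mp hd) hq.ne_one
    · rw [Subgroup.index_top] at hd
      exact absurd (Nat.dvd_one.mp hd) hq.ne_one
  obtain ⟨N, hN, hp⟩ := exists_normal_prime_order hG
  haveI := hN
  have hlt : Nat.card (G ⧸ N) < n := by
    rw [← hn, Subgroup.card_eq_card_quotient_mul_card_subgroup N]
    exact lt_mul_of_one_lt_right Nat.card_pos hp.one_lt
  obtain ⟨L₀, hL₀, hi₀⟩ := ih _ hlt (supersolvable_quotient hG N) rfl
  set K := L₀.comap (QuotientGroup.mk' N) with hK
  have hKi : K.index = L₀.index :=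
    Subgroup.index_comap_of_surjective L₀ (QuotientGroup.mk'_surjective N)
  have hNK : N ≤ K := fun x hx => by
    rw [hK, Subgroup.mem_comap, QuotientGroup.mk'_apply, (QuotientGroup.eq_one_iff x).mpr hx]
    exact one_mem L₀
  have hxK : ∀ x : G, (∀ q : ℕ, q.Prime → q ∣ orderOf x → t ≤ q) → x ∈ K := fun x hx =>
    (hL₀ _).mpr (fun q hq hd => hx q hq (hd.trans (orderOf_map_dvd _ x)))
  have hcardK : Nat.card K = Nat.card L₀ * Nat.card N := by
    apply Nat.eq_of_mul_eq_mul_right (Nat.pos_of_ne_zero (Subgroup.index_ne_zero_of_finite (H := K)))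
    rw [K.card_mul_index, hKi, mul_right_comm, L₀.card_mul_index,
      Subgroup.card_eq_card_quotient_mul_card_subgroup N]
  have hL₀big : ∀ q : ℕ, q.Prime → q ∣ Nat.card L₀ → t ≤ q := by
    intro q hq hd
    haveI := Fact.mk hq
    obtain ⟨y, hy⟩ := exists_prime_orderOf_dvd_card' q hd
    refine (hL₀ _).mp y.2 q hq ?_
    rw [Subgroup.orderOf_coe, hy]
  by_cases hpt : t ≤ Nat.card N
  · refine ⟨K, fun x => ⟨fun hx q hq hd => ?_, hxK x⟩, hKi ▸ hi₀⟩
    rcases (Nat.Prime.dvd_mul hq).mp (hcardK ▸ hd.trans (orderOf_dvd_card_of_mem hx)) with h | h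
    · exact hL₀big q hq h
    · rwa [(Nat.prime_dvd_prime_iff_eq hq hp).mp h]
  push_neg at hpt
  have hcop : Nat.Coprime (Nat.card N) (Nat.card L₀) :=
    hp.coprime_iff_not_dvd.mpr (fun h => absurd (hL₀big _ hp h) (by omega))
  have hNcard : Nat.card (N.subgroupOf K) = Nat.card N :=
    Nat.card_congr (Subgroup.subgroupOfEquivOfLe hNK).toEquiv
  have hidx : (N.subgroupOf K).index = Nat.card L₀ := by
    have := (N.subgroupOf K).card_mul_index
    rw [hNcard, hcardK, mul_comm (Nat.card L₀)] at this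
    exact Nat.eq_of_mul_eq_mul_left hp.pos this
  obtain ⟨C, hC⟩ := Subgroup.exists_right_complement'_of_coprime (N := N.subgroupOf K)
    (by rw [hNcard, hidx]; exact hcop)
  have hCcard : Nat.card C = Nat.card L₀ := by rw [← hidx, hC.symm.index_eq_card]
  -- elements of C centralise N
  haveI : Fact (Nat.card N).Prime := ⟨hp⟩
  haveI : IsCyclic N := isCyclic_of_prime_card rfl
  have hcomm : ∀ c : K, c ∈ C → ∀ a : G, a ∈ N → (c : G) * a = a * (c : G) := by
    intro c hc a ha
    have h1 : orderOf (MulAut.conjNormal (H := N) (c : G)) ∣ orderOf (c : G) := orderOf_map_dvd _ _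
    have h2 : orderOf (MulAut.conjNormal (H := N) (c : G)) ∣ Nat.card N - 1 := by
      refine (orderOf_dvd_natCard _).trans ?_
      rw [IsCyclic.card_mulAut, Nat.totient_prime hp]
    have h3 : orderOf (c : G) ∣ Nat.card L₀ := by
      rw [← hCcard, Subgroup.orderOf_coe]; exact orderOf_dvd_card_of_mem hc
    have h4 : orderOf (MulAut.conjNormal (H := N) (c : G)) = 1 := by
      by_contra hne
      obtain ⟨q, hq, hd⟩ := Nat.exists_prime_and_dvd hne
      have e1 := hL₀big q hq (hd.trans (h1.trans h3))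
      have e2 := Nat.le_of_dvd (by have := hp.two_le; omega) (hd.trans h2)
      omega
    have := congrArg (fun f : MulAut N => ((f ⟨a, ha⟩ : N) : G)) (orderOf_eq_one_iff.mp h4)
    simp only [MulAut.conjNormal_apply, MulAut.one_apply] at this
    conv_rhs => rw [← this]
    group
  refine ⟨C.map K.subtype, fun x => ⟨?_, fun hx => ?_⟩, ?_⟩
  · rintro ⟨c, hc, rfl⟩ q hq hd
    refine hL₀big q hq (hd.trans ?_)
    rw [← hCcard]
    exact (orderOf_map_dvd _ c).trans (orderOf_dvd_card_of_mem hc)
  · obtain ⟨⟨a, c⟩, hac⟩ := hC.2 ⟨x, hxK x hx⟩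
    have hac' : ((a : K) : G) * ((c : K) : G) = x := congrArg Subtype.val hac
    have ha : ((a : K) : G) ∈ N := a.2
    have hcm : Commute ((a : K) : G) ((c : K) : G) := (hcomm c c.2 _ ha).symm
    have hoc : Nat.Coprime (orderOf ((a : K) : G)) (orderOf ((c : K) : G)) := by
      refine Nat.Coprime.coprime_dvd_left (orderOf_dvd_card_of_mem ha)
        (Nat.Coprime.coprime_dvd_right ?_ hcop)
      rw [← hCcard, Subgroup.orderOf_coe]; exact orderOf_dvd_card_of_mem c.2
    have hord := hcm.orderOf_mul_eq_mul_orderOf_of_coprime hoc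
    rw [hac'] at hord
    have ha1 : orderOf ((a : K) : G) = 1 := by
      rcases (Nat.dvd_prime hp).mp (orderOf_dvd_card_of_mem ha) with h | h
      · exact h
      · have := hx _ hp (hord ▸ (h ▸ dvd_mul_right _ _))
        omega
    rw [← hac', orderOf_eq_one_iff.mp ha1, one_mul]
    exact Subgroup.mem_map_of_mem _ c.2
  · intro q hq hd
    rw [Subgroup.index_map_subtype, hKi, hC.index_eq_card, hNcard] at hd
    rcases (Nat.Prime.dvd_mul hq).mp hd with h | h
    · rw [(Nat.prime_dvd_prime_iff_eq hq hp).mp h]; exact hpt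
    · exact hi₀ q hq h

/-- Let G and H be finite groups with the same order type (for every m the same number of elements of order m). If G is supersolvable then H is solvable. -/
theorem result {G H : Type*} [Group G] [Finite G] [Group H] [Finite H] (hT : (∀ m : ℕ, Nat.card {g : G // orderOf g = m} = Nat.card {h : H // orderOf h = m})) (hG : Cfsg.IsSupersolvable G) :
    Group.IsSolvable H := by
  obtain ⟨e, he⟩ := exists_orderOf_equiv hT
  have hcardGH : Nat.card G = Nat.card H := Nat.card_congr e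
  suffices main : ∀ k t : ℕ, Nat.card H + 1 ≤ t + k → ∃ L : Subgroup H,
      (∀ x : H, x ∈ L ↔ ∀ q : ℕ, q.Prime → q ∣ orderOf x → t ≤ q) ∧ Group.IsSolvable L by
    obtain ⟨L, hL, hs⟩ := main (Nat.card H + 1) 0 (by omega)
    exact solvable_of_surjective (f := L.subtype)
      (fun x => ⟨⟨x, (hL x).mpr (fun q _ _ => q.zero_le)⟩, rfl⟩)
  intro k
  induction k with
  | zero =>
    intro t ht
    refine ⟨⊥, fun x => ⟨fun hx q hq hd => ?_, fun hx => ?_⟩, inferInstance⟩
    · rw [Subgroup.mem_bot.mp hx, orderOf_one] at hd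
      exact absurd (Nat.dvd_one.mp hd) hq.ne_one
    · by_contra hne
      rw [Subgroup.mem_bot, ← orderOf_eq_one_iff] at hne
      obtain ⟨q, hq, hd⟩ := Nat.exists_prime_and_dvd hne
      have := hx q hq hd
      have := Nat.le_of_dvd Nat.card_pos (hd.trans (orderOf_dvd_natCard x))
      omega
  | succ k ih =>
    intro t ht
    obtain ⟨L, hL, hs⟩ := ih (t + 1) (by omega)
    haveI hLn : L.Normal := ⟨fun x hx g => by
      rw [hL] at hx ⊢
      rwa [show g * x * g⁻¹ = MulAut.conj g x from rfl, MulEquiv.orderOf_eq]⟩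
    by_cases hp : t.Prime ∧ t ∣ Nat.card H
    swap
    · refine ⟨L, fun x => ?_, hs⟩
      rw [hL]
      refine ⟨fun h q hq hd => by have := h q hq hd; omega, fun h q hq hd => ?_⟩
      have h1 := h q hq hd
      rcases h1.eq_or_lt with h2 | h2
      · exact absurd ⟨h2 ▸ hq, h2 ▸ hd.trans (orderOf_dvd_natCard x)⟩ hp
      · omega
    haveI := Fact.mk hp.1
    obtain ⟨P⟩ : Nonempty (Sylow t H) := inferInstance
    set Q := L ⊔ (P : Subgroup H) with hQ
    have hLbig : ∀ q : ℕ, q.Prime → q ∣ Nat.card L → t + 1 ≤ q := by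
      intro q hq hd
      haveI := Fact.mk hq
      obtain ⟨y, hy⟩ := exists_prime_orderOf_dvd_card' q hd
      refine (hL _).mp y.2 q hq ?_
      rw [Subgroup.orderOf_coe, hy]
    have hpow : IsPGroup t (↥Q ⧸ L.subgroupOf Q) := by
      have hsurj : Function.Surjective ((QuotientGroup.mk' (L.subgroupOf Q)).comp
          (Subgroup.inclusion (le_sup_right : (P : Subgroup H) ≤ Q))) := by
        intro y
        obtain ⟨⟨z, hz⟩, rfl⟩ := QuotientGroup.mk'_surjective _ y
        have hz' : z ∈ ((L ⊔ (P : Subgroup H) : Subgroup H) : Set H) := hz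
        rw [Subgroup.normal_mul] at hz'
        obtain ⟨a, ha, b, hb, rfl⟩ := Set.mem_mul.mp hz'
        refine ⟨⟨b, hb⟩, ?_⟩
        simp only [MonoidHom.coe_comp, Function.comp_apply, QuotientGroup.mk'_apply]
        rw [QuotientGroup.eq, Subgroup.mem_subgroupOf]
        simp only [Subgroup.coe_mul, Subgroup.coe_inv, Subgroup.coe_inclusion]
        exact hLn.mem_comm_iff.mp (by simpa using ha)
      exact P.2.of_surjective _ hsurj
    have hQprimes : ∀ q : ℕ, q.Prime → q ∣ Nat.card Q → t ≤ q := by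
      intro q hq hd
      rw [Subgroup.card_eq_card_quotient_mul_card_subgroup (L.subgroupOf Q),
        Nat.card_congr (Subgroup.subgroupOfEquivOfLe (le_sup_left : L ≤ Q)).toEquiv] at hd
      rcases (Nat.Prime.dvd_mul hq).mp hd with h | h
      · obtain ⟨j, hj⟩ := IsPGroup.iff_card.mp hpow
        rw [hj] at h
        exact le_of_eq ((Nat.prime_dvd_prime_iff_eq hq hp.1).mp (hq.dvd_of_dvd_pow h)).symm
      · have := hLbig q hq h; omega
    -- the Hall numbers coming from the supersolvable group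
    have hall : ∀ s : ℕ, ∃ a b : ℕ, Nat.card H = a * b ∧ (∀ q : ℕ, q.Prime → q ∣ b → q < s) ∧
        (∀ q : ℕ, q.Prime → q ∣ a → s ≤ q) ∧
        Nat.card {x : H // ∀ q : ℕ, q.Prime → q ∣ orderOf x → s ≤ q} = a := by
      intro s
      obtain ⟨M, hM, hMi⟩ := exists_upper_hall hG s
      refine ⟨Nat.card M, M.index, by rw [M.card_mul_index, hcardGH], hMi, fun q hq hd => ?_, ?_⟩
      · haveI := Fact.mk hq
        obtain ⟨y, hy⟩ := exists_prime_orderOf_dvd_card' q hd
        refine (hM _).mp y.2 q hq ?_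
        rw [Subgroup.orderOf_coe, hy]
      · refine Nat.card_congr ?_
        exact (Equiv.subtypeEquiv e (fun g => by rw [hM g, he g])).symm
    obtain ⟨a, b, hab, hb, ha, hca⟩ := hall t
    obtain ⟨a', b', hab', hb', ha', hca'⟩ := hall (t + 1)
    have hLcard : Nat.card L = a' := by
      rw [← hca']; exact Nat.card_congr (Equiv.subtypeEquivRight hL)
    have hQi : ∀ q : ℕ, q.Prime → q ∣ Q.index → q < t := by
      intro q hq hd
      have h1 : L.index = b' := by
        have := L.card_mul_index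
        rw [hLcard, hab'] at this
        exact Nat.eq_of_mul_eq_mul_left (hLcard ▸ Nat.card_pos) this
      have hle := hb' q hq (h1 ▸ hd.trans (Subgroup.index_dvd_of_le le_sup_left))
      have h2 : ¬ t ∣ Q.index := fun h3 =>
        P.not_dvd_index (h3.trans (Subgroup.index_dvd_of_le le_sup_right))
      have hne : q ≠ t := by
        intro h
        rw [h] at hd
        exact h2 hd
      omega
    have hdvd : a ∣ Nat.card Q := by
      have hc : Nat.Coprime a Q.index := by
        refine Nat.coprime_of_dvd (fun q hq h1 h2 => ?_)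
        have := ha q hq h1
        have := hQi q hq h2
        omega
      refine hc.dvd_of_dvd_mul_right ?_
      rw [Q.card_mul_index]; exact ⟨b, hab⟩
    refine ⟨Q, ?_, ?_⟩
    · have hsub : (Q : Set H) ⊆ {x : H | ∀ q : ℕ, q.Prime → q ∣ orderOf x → t ≤ q} :=
        fun x hx q hq hd => hQprimes q hq (hd.trans (orderOf_dvd_card_of_mem hx))
      have heq := Set.eq_of_subset_of_ncard_le hsub (by
        rw [← Nat.card_coe_set_eq, ← Nat.card_coe_set_eq]
        exact hca.le.trans (Nat.le_of_dvd Nat.card_pos hdvd)) (Set.toFinite _)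
      intro x
      exact Set.ext_iff.mp heq x
    · haveI : Group.IsSolvable ↥(L.subgroupOf Q) :=
        solvable_of_solvable_injective
          (f := (Subgroup.subgroupOfEquivOfLe (le_sup_left : L ≤ Q)).toMonoidHom)
          (Subgroup.subgroupOfEquivOfLe (le_sup_left : L ≤ Q)).injective
      haveI : Group.IsNilpotent (↥Q ⧸ L.subgroupOf Q) := hpow.isNilpotent
      exact solvable_of_ker_le_range (L.subgroupOf Q).subtype (QuotientGroup.mk' (L.subgroupOf Q))
        (by simp)

end Cfsg.Agent.S3998
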