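import Mathlib
import Cfsg.Statements.S3999
import Cfsg.Agent.S3359
import Cfsg.Agent.S0035
import Cfsg.Agent.S0039
import Cfsg.Agent.S0042
import Cfsg.Agent.Lib.Hall.Frobenius
import Cfsg.Agent.Lib.Hall.Solvable
import Cfsg.Agent.Lib.ZassSL25.Twist

set_option autoImplicit false

open scoped commutatorElement Pointwise

namespace Cfsg.Agent.S3999

open Subgroup Pointwise

/-- An order-preserving bijection between groups of the same order type. -/
lemma exists_order_equiv {F G : Type*} [Group F] [Finite F] [Group G] [Finite G]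
    (hT : ∀ m : ℕ, Nat.card {g : F // orderOf g = m} = Nat.card {h : G // orderOf h = m}) :
    ∃ e : F ≃ G, ∀ x, orderOf (e x) = orderOf x := by
  classical
  let em : ∀ m : ℕ, {g : F // orderOf g = m} ≃ {h : G // orderOf h = m} :=
    fun m => Classical.choice (Finite.card_eq.1 (hT m))
  refine ⟨Equiv.ofFiberEquiv (f := orderOf) (g := orderOf) em, fun x => ?_⟩
  exact Equiv.ofFiberEquiv_map em x

lemma card_pred_eq {F G : Type*} [Group F] [Group G] (e : F ≃ G)
    (he : ∀ x, orderOf (e x) = orderOf x) (P : ℕ → Prop) :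
    Nat.card {x : F // P (orderOf x)} = Nat.card {x : G // P (orderOf x)} :=
  Nat.card_congr (e.subtypeEquiv fun x => by rw [he])

lemma eq_of_subset_card {α : Type*} [Finite α] (A : Set α) (P : α → Prop) (h : ∀ x ∈ A, P x)
    (hc : Nat.card {x // P x} ≤ Nat.card A) : ∀ x, P x → x ∈ A := by
  intro x hx
  have e : A = {y | P y} := Set.eq_of_subset_of_ncard_le h
    (by rw [← Nat.card_coe_set_eq, ← Nat.card_coe_set_eq]; exact hc) (Set.toFinite _)
  rw [e]; exact hx

/-- The facts about a Frobenius group that are visible from its order type. -/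
lemma frobenius_facts {F : Type*} [Group F] [Finite F] {C : Subgroup F}
    (hC : Cfsg.IsFrobeniusComplement C) :
    1 < Nat.card C ∧ 1 < C.index ∧ C.index.Coprime (Nat.card C) ∧
    (∀ x : F, orderOf x ∣ C.index ∨ ∃ g : F, x ∈ MulAut.conj g • C) ∧
    Nat.card {x : F // orderOf x ∣ C.index} = C.index ∧
    (Group.IsSolvable F ↔ Group.IsSolvable C) ∧
    (∀ p : ℕ, p.Prime → p ∣ C.index → Nat.card {x : F // ∃ j : ℕ, orderOf x = p ^ j} =
      p ^ C.index.factorization p) := by
  obtain ⟨N, hN, hNn, hnil⟩ := Cfsg.Agent.S0042.result C hC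
  obtain ⟨N', hN', -, hc⟩ := Cfsg.Agent.S0035.result C hC
  obtain rfl : N = N' := SetLike.coe_injective (hN.trans hN'.symm)
  haveI := hNn
  have hk : Nat.card N = C.index := hc.index_eq_card.symm
  have hc1 : 1 < Nat.card C := (C.one_lt_card_iff_ne_bot).2 hC.1
  have hk1 : 1 < C.index := by
    have := Subgroup.index_ne_zero_of_finite (H := C)
    have : C.index ≠ 1 := fun e => hC.2.1 (Subgroup.index_eq_one.1 e)
    omega
  have hcop : C.index.Coprime (Nat.card C) := by
    have := Cfsg.Agent.Lib.Hall.fc_index_mod_card hC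
    rw [Nat.Coprime, Nat.gcd_comm, Nat.gcd_rec, this]
    rw [Nat.one_mod_eq_one.2 (by omega), Nat.gcd_one_left]
  have hsplit : ∀ x : F, x ∈ N ∨ ∃ g : F, x ∈ MulAut.conj g • C := fun x => by
    by_cases hx : x ∈ N
    · exact Or.inl hx
    · refine Or.inr ?_
      have h' : x ∉ Cfsg.frobeniusKernel C := fun h => hx (by rw [← SetLike.mem_coe, hN]; exact h)
      by_contra hne
      push Not at hne
      exact h' (Or.inr hne)
  have hdvC : ∀ {x g : F}, x ∈ MulAut.conj g • C → orderOf x ∣ Nat.card C := fun {x g} hx => by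
    have := Subgroup.orderOf_dvd_natCard _ hx
    rwa [Cfsg.Agent.Lib.Coprime.card_conj_smul] at this
  have hmemN : ∀ x : F, orderOf x ∣ C.index → x ∈ N := fun x hx => by
    rcases hsplit x with h | ⟨g, hg⟩
    · exact h
    · have : orderOf x = 1 := Nat.eq_one_of_dvd_coprimes hcop hx (hdvC hg)
      rw [orderOf_eq_one_iff.1 this]; exact one_mem _
  refine ⟨hc1, hk1, hcop, fun x => ?_, ?_, ?_, ?_⟩
  · rcases hsplit x with h | h
    · exact Or.inl (hk ▸ N.orderOf_dvd_natCard h)
    · exact Or.inr h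
  · rw [← hk]
    exact Nat.card_congr (Equiv.subtypeEquivRight fun x =>
      ⟨fun h => hmemN x (hk ▸ h), fun h => N.orderOf_dvd_natCard h⟩)
  · haveI : Group.IsSolvable N := inferInstance
    constructor
    · intro h; infer_instance
    · intro h
      haveI : Group.IsSolvable (F ⧸ N) :=
        Group.isSolvable_of_surjective (f := (QuotientGroup.mk' N).comp C.subtype) fun q => by
          obtain ⟨x, rfl⟩ := QuotientGroup.mk'_surjective N q
          obtain ⟨⟨⟨n, hn⟩, ⟨c, hcc⟩⟩, rfl⟩ := hc.2 x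
          refine ⟨⟨c, hcc⟩, ?_⟩
          show QuotientGroup.mk' N c = QuotientGroup.mk' N (n * c)
          rw [map_mul, (QuotientGroup.eq_one_iff n).2 hn |> (show (n : F ⧸ N) = 1 → QuotientGroup.mk' N n = 1 from id),
            one_mul]
      exact Group.isSolvable_of_ker_le_range N.subtype (QuotientGroup.mk' N)
        (by rw [QuotientGroup.ker_mk', range_subtype])
  · intro p hp hpk
    haveI := Fact.mk hp
    have hpC : ¬ p ∣ Nat.card C := fun h =>
      hp.one_lt.ne' (Nat.eq_one_of_dvd_coprimes hcop hpk h)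
    have hle : ∀ (P : Sylow p F), (P : Subgroup F) ≤ N := fun P x hx => by
      obtain ⟨j, hj⟩ := (IsPGroup.iff_orderOf.1 P.2) ⟨x, hx⟩
      rw [← Subgroup.orderOf_coe] at hj
      rcases hsplit x with h | ⟨g, hg⟩
      · exact h
      · have : orderOf x = 1 := by
          refine Nat.eq_one_of_dvd_coprimes ?_ (dvd_of_eq hj) (hdvC hg)
          exact Nat.Coprime.pow_left _ (hp.coprime_iff_not_dvd.2 hpC)
        rw [orderOf_eq_one_iff.1 this]; exact one_mem _
    obtain ⟨P⟩ := (inferInstance : Nonempty (Sylow p F))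
    haveI : Finite (Sylow p N) := inferInstance
    have huniq : ∀ Q : Sylow p F, Q = P := fun Q => by
      have hsub : Subsingleton (Sylow p N) := by
        obtain ⟨R⟩ := (inferInstance : Nonempty (Sylow p N))
        haveI : Group.IsNilpotent N := hnil
        exact (Sylow.unique_of_normal R inferInstance).instSubsingleton
      have := hsub.elim (Q.subtype (hle Q)) (P.subtype (hle P))
      refine Sylow.ext ?_
      have h2 := congrArg (fun S : Sylow p N => (S : Subgroup N)) this
      simp only [Sylow.coe_subtype] at h2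
      exact (Subgroup.subgroupOf_inj.1 h2 |> fun e => by
        rwa [inf_eq_left.2 (hle Q), inf_eq_left.2 (hle P)] at e)
    have hv : C.index.factorization p = (Nat.card F).factorization p := by
      rw [← C.index_mul_card, Nat.factorization_mul (by omega) (by omega), Finsupp.add_apply,
        Nat.factorization_eq_zero_of_not_dvd hpC, add_zero]
    rw [hv, ← P.card_eq_multiplicity]
    refine Nat.card_congr (Equiv.subtypeEquivRight fun x => ?_)
    constructor
    · rintro ⟨j, hj⟩
      have hx : IsPGroup p (zpowers x) := IsPGroup.of_card (n := j) (by rw [Nat.card_zpowers, hj])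
      obtain ⟨Q, hQ⟩ := hx.exists_le_sylow
      have := hQ (mem_zpowers x)
      rwa [huniq Q] at this
    · intro hx
      obtain ⟨j, hj⟩ := IsPGroup.iff_orderOf.1 P.2 ⟨x, hx⟩
      exact ⟨j, by rwa [← Subgroup.orderOf_coe] at hj⟩

/-- A normal subgroup built from the normal Sylow subgroups. -/
lemma exists_normal_product {G : Type*} [Group G] [Finite G] (s : Finset ℕ) (hs : ∀ p ∈ s, p.Prime)
    (h : ∀ p ∈ s, ∃ P : Subgroup G, P.Normal ∧ Nat.card P = p ^ (Nat.card G).factorization p) :
    ∃ N : Subgroup G, N.Normal ∧ Nat.card N = ∏ p ∈ s, p ^ (Nat.card G).factorization p := by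
  classical
  induction s using Finset.induction_on with
  | empty => exact ⟨⊥, inferInstance, by simp⟩
  | insert a s ha ih =>
    obtain ⟨N, hN, hNc⟩ := ih (fun p hp => hs p (Finset.mem_insert_of_mem hp))
      (fun p hp => h p (Finset.mem_insert_of_mem hp))
    obtain ⟨P, hP, hPc⟩ := h a (Finset.mem_insert_self a s)
    have hcop : (Nat.card P).Coprime (Nat.card N) := by
      rw [hPc, hNc]
      refine Nat.Coprime.prod_right fun p hp => Nat.Coprime.pow _ _ ?_
      exact (Nat.coprime_primes (hs a (Finset.mem_insert_self a s))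
        (hs p (Finset.mem_insert_of_mem hp))).2 (fun e => ha (e ▸ hp))
    refine ⟨P ⊔ N, inferInstance, ?_⟩
    have hinf : P ⊓ N = ⊥ := (Subgroup.disjoint_of_coprime_natCard hcop).eq_bot
    have h1 := Subgroup.relIndex_sup_right P N
    have h2 := Subgroup.card_mul_index (N.subgroupOf (P ⊔ N))
    rw [Nat.card_congr (Subgroup.subgroupOfEquivOfLe (le_sup_right : N ≤ P ⊔ N)).toEquiv,
      ← Subgroup.relIndex, h1, ← Subgroup.inf_relIndex_left, hinf,
      Subgroup.relIndex_bot_left] at h2
    rw [← h2, Finset.prod_insert ha, hPc, hNc, mul_comm]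

/-- The group with the same order type is a Frobenius group with the same parameters. -/
lemma transfer {F G : Type*} [Group F] [Finite F] [Group G] [Finite G] {C : Subgroup F}
    (hC : Cfsg.IsFrobeniusComplement C) (e : F ≃ G) (he : ∀ x, orderOf (e x) = orderOf x) :
    ∃ H : Subgroup G, Cfsg.IsFrobeniusComplement H ∧ Nat.card H = Nat.card C := by
  classical
  obtain ⟨hc1, hk1, hcop, hsplit, hcount, -, hsyl⟩ := frobenius_facts hC
  have hcard : Nat.card G = C.index * Nat.card C := by
    rw [C.index_mul_card]; exact (Nat.card_congr e).symm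
  have hsplitG : ∀ x : G, orderOf x ∣ C.index ∨ orderOf x ∣ Nat.card C := fun x => by
    rw [← e.apply_symm_apply x, he]
    rcases hsplit (e.symm x) with h | ⟨g, hg⟩
    · exact Or.inl h
    · refine Or.inr ?_
      have := Subgroup.orderOf_dvd_natCard _ hg
      rwa [Cfsg.Agent.Lib.Coprime.card_conj_smul] at this
  have hsylG : ∀ p ∈ C.index.primeFactors,
      ∃ P : Subgroup G, P.Normal ∧ Nat.card P = p ^ (Nat.card G).factorization p := by
    intro p hp
    obtain ⟨hpp, hpk, -⟩ := Nat.mem_primeFactors.1 hp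
    haveI := Fact.mk hpp
    obtain ⟨P⟩ := (inferInstance : Nonempty (Sylow p G))
    have hv : C.index.factorization p = (Nat.card G).factorization p := by
      rw [hcard, Nat.factorization_mul (by omega) (by omega), Finsupp.add_apply,
        Nat.factorization_eq_zero_of_not_dvd (fun h => hpp.one_lt.ne'
          (Nat.eq_one_of_dvd_coprimes hcop hpk h)), add_zero]
    have hcnt : Nat.card {x : G // ∃ j : ℕ, orderOf x = p ^ j} ≤ Nat.card ((P : Subgroup G) : Set G) := by
      rw [← card_pred_eq e he fun n => ∃ j : ℕ, n = p ^ j, hsyl p hpp hpk, hv]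
      exact le_of_eq P.card_eq_multiplicity.symm
    have hall := eq_of_subset_card ((P : Subgroup G) : Set G) _ (fun x hx => by
      obtain ⟨j, hj⟩ := IsPGroup.iff_orderOf.1 P.2 ⟨x, hx⟩
      exact ⟨j, by rwa [← Subgroup.orderOf_coe] at hj⟩) hcnt
    refine ⟨P, ⟨fun n hn g => hall _ ?_⟩, P.card_eq_multiplicity⟩
    obtain ⟨j, hj⟩ := IsPGroup.iff_orderOf.1 P.2 ⟨n, hn⟩
    refine ⟨j, ?_⟩
    rw [← Subgroup.orderOf_coe] at hj
    rw [← hj]
    exact MulEquiv.orderOf_eq (MulAut.conj g) n
  obtain ⟨N, hN, hNc⟩ := exists_normal_product C.index.primeFactors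
    (fun p hp => Nat.prime_of_mem_primeFactors hp) hsylG
  have hNk : Nat.card N = C.index := by
    rw [hNc]
    conv_rhs => rw [← Nat.prod_factorization_pow_eq_self (by omega : C.index ≠ 0)]
    rw [Finsupp.prod, Nat.support_factorization]
    refine Finset.prod_congr rfl fun p hp => ?_
    obtain ⟨hpp, hpk, -⟩ := Nat.mem_primeFactors.1 hp
    rw [hcard, Nat.factorization_mul (by omega) (by omega), Finsupp.add_apply,
      Nat.factorization_eq_zero_of_not_dvd (fun h => hpp.one_lt.ne'
        (Nat.eq_one_of_dvd_coprimes hcop hpk h)), add_zero]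
  have hNmem : ∀ x : G, orderOf x ∣ C.index → x ∈ N :=
    eq_of_subset_card (N : Set G) _ (fun x hx => hNk ▸ N.orderOf_dvd_natCard hx)
      (by rw [← card_pred_eq e he fun n => n ∣ C.index, hcount]; exact le_of_eq hNk.symm)
  haveI := hN
  have hidx : N.index = Nat.card C := by
    refine Nat.eq_of_mul_eq_mul_left (by omega : 0 < C.index) ?_
    rw [← hcard, ← hNk, N.card_mul_index]
  obtain ⟨H, hH⟩ := Subgroup.exists_right_complement'_of_coprime (N := N) (by rw [hNk, hidx]; exact hcop)
  have hHc : Nat.card H = Nat.card C := by rw [← hidx]; exact hH.symm.index_eq_card.symm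
  refine ⟨H, ?_, hHc⟩
  have hN1 : N ≠ ⊥ := (N.one_lt_card_iff_ne_bot).1 (by omega)
  have hH1 : H ≠ ⊥ := (H.one_lt_card_iff_ne_bot).1 (by omega)
  refine (Cfsg.Agent.S0039.result N H hH hN1 hH1).2 fun h hh hne => ?_
  rw [eq_bot_iff]
  rintro n ⟨hn, hnc⟩
  rw [Subgroup.mem_bot]
  by_contra hn1
  have hcomm : Commute n h := (Subgroup.mem_centralizer_singleton_iff.1 hnc)
  have hd1 : orderOf n ∣ C.index := hNk ▸ N.orderOf_dvd_natCard hn
  have hd2 : orderOf h ∣ Nat.card C := hHc ▸ H.orderOf_dvd_natCard hh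
  have ho := hcomm.orderOf_mul_eq_mul_orderOf_of_coprime
    ((hcop.coprime_dvd_left hd1).coprime_dvd_right hd2)
  rcases hsplitG (n * h) with hs | hs
  · rw [ho] at hs
    exact hne (orderOf_eq_one_iff.1 (Nat.eq_one_of_dvd_coprimes hcop (dvd_of_mul_left_dvd hs) hd2))
  · rw [ho] at hs
    exact hn1 (orderOf_eq_one_iff.1 (Nat.eq_one_of_dvd_coprimes hcop hd1 (dvd_of_mul_right_dvd hs)))

abbrev Quad := ZMod 5 × ZMod 5 × ZMod 5 × ZMod 5

def qmul : Quad → Quad → Quad := fun (a, b, c, d) (a', b', c', d') =>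
  (a * a' + b * c', a * b' + b * d', c * a' + d * c', c * b' + d * d')

def q3 (x : Quad) : Quad := qmul (qmul x x) x

def q4 (x : Quad) : Quad := qmul (qmul x x) (qmul x x)

set_option synthInstance.maxSize 4000 in
set_option synthInstance.maxHeartbeats 200000 in
lemma quad_fifteen : ∀ a b c d : ZMod 5, a * d - b * c = 1 →
    qmul (qmul (q4 (a, b, c, d)) (q4 (a, b, c, d))) (qmul (q4 (a, b, c, d)) (q3 (a, b, c, d)))
      = (1, 0, 0, 1) →
      qmul (q4 (a, b, c, d)) (a, b, c, d) = (1, 0, 0, 1) ∨ q3 (a, b, c, d) = (1, 0, 0, 1) := by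
  decide +kernel

lemma sl_no_fifteen (A : Matrix.SpecialLinearGroup (Fin 2) (ZMod 5)) : orderOf A ≠ 15 := by
  intro hA
  let q : Matrix.SpecialLinearGroup (Fin 2) (ZMod 5) → Quad := fun M =>
    (M.1 0 0, M.1 0 1, M.1 1 0, M.1 1 1)
  have hq : ∀ M N, q (M * N) = qmul (q M) (q N) := fun M N => by
    simp [q, qmul, Matrix.SpecialLinearGroup.coe_mul, Matrix.mul_apply, Fin.sum_univ_two]
  have hqinj : Function.Injective q := fun M N h => by
    simp only [q, Prod.mk.injEq] at h
    obtain ⟨h1, h2, h3, h4⟩ := h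
    ext i j; fin_cases i <;> fin_cases j <;> assumption
  have hq1 : q 1 = (1, 0, 0, 1) := by simp [q]
  have h := quad_fifteen (A.1 0 0) (A.1 0 1) (A.1 1 0) (A.1 1 1)
    (by rw [← Matrix.det_fin_two]; exact A.2)
  have e15 : A ^ 15 = 1 := hA ▸ pow_orderOf_eq_one A
  simp only [q3, q4] at h
  rw [show (A.1 0 0, A.1 0 1, A.1 1 0, A.1 1 1) = q A from rfl] at h
  simp only [← hq, ← hq1, hqinj.eq_iff] at h
  rcases h (by rw [← e15]; simp only [pow_succ, pow_zero, one_mul, mul_assoc]) with h5 | h3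
  · have : A ^ 5 = 1 := by rw [← h5]; simp only [pow_succ, pow_zero, one_mul, mul_assoc]
    have := Nat.le_of_dvd (by norm_num) (orderOf_dvd_of_pow_eq_one this)
    omega
  · have : A ^ 3 = 1 := by rw [← h3]; simp only [pow_succ, pow_zero, one_mul, mul_assoc]
    have := Nat.le_of_dvd (by norm_num) (orderOf_dvd_of_pow_eq_one this)
    omega

lemma isFC_of_complement {F : Type*} [Group F] [Finite F] {C : Subgroup F}
    (hC : Cfsg.IsFrobeniusComplement C) :
    ∃ (L : Type) (_ : Group L) (_ : Finite L) (H : Subgroup L),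
      Cfsg.IsFrobeniusComplement H ∧ Nonempty (C ≃* H) := by
  obtain ⟨D, i1, i2, ⟨e⟩⟩ := Cfsg.Agent.Struct4.exists_type0 F
  refine ⟨D, i1, i2, C.map e.toMonoidHom, ⟨?_, ?_, ?_⟩, ⟨C.equivMapOfInjective _ e.injective⟩⟩
  · exact fun h => hC.1 ((map_eq_bot_iff_of_injective _ e.injective).1 h)
  · intro h
    exact hC.2.1 (eq_top_iff.2 fun x _ => by
      have : e x ∈ C.map e.toMonoidHom := h ▸ mem_top _
      exact (Subgroup.mem_map_equiv).1 this |> fun h => by simpa using h)
  · intro g hg
    rw [eq_bot_iff]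
    rintro y ⟨hy, hy'⟩
    have h1 : e.symm y ∈ C := Subgroup.mem_map_equiv.1 hy
    have h2 : e.symm y ∈ MulAut.conj (e.symm g) • C := by
      have hy'' : y ∈ MulAut.conj g • C.map e.toMonoidHom := hy'
      rw [Subgroup.mem_pointwise_smul_iff_inv_smul_mem] at hy'' ⊢
      have := Subgroup.mem_map_equiv.1 hy''
      simpa [MulAut.smul_def] using this
    have h3 : e.symm g ∉ C := fun h => hg (Subgroup.mem_map_equiv.2 h)
    have := (hC.2.2 _ h3).le ⟨h1, h2⟩
    rw [Subgroup.mem_bot] at this ⊢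
    simpa using congrArg e this

/-- A nonsolvable Frobenius complement: no element of order fifteen. -/
lemma nonsolvable_data {A : Type*} [Group A] [Finite A] (hns : ¬ Group.IsSolvable A)
    (hFC : ∃ (L : Type) (_ : Group L) (_ : Finite L) (H : Subgroup L),
      Cfsg.IsFrobeniusComplement H ∧ Nonempty (A ≃* H)) :
    (∀ x : A, orderOf x ≠ 15) ∧ ∃ r : ℕ, Nat.card A = 15 * r ∧ Nat.Coprime r 15 := by
  obtain ⟨G₀, hG₀, hidx, S, M, hsup, hinf, hcomm, ⟨iso⟩, -, hcop⟩ :=
    Cfsg.Agent.S3359.result hns hFC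
  have hfac : ∀ y ∈ G₀, ∃ s ∈ S, ∃ m ∈ M, y = s * m := by
    intro y hy
    rw [← hsup] at hy
    have hn : M ≤ normalizer (S : Set A) := fun m hm => by
      rw [mem_normalizer_iff]
      intro s
      constructor
      · intro hs; rw [← hcomm s hs m hm, mul_inv_cancel_right]; exact hs
      · intro hs
        have := hcomm _ hs m hm
        rw [show m * (m * s * m⁻¹) = m * (m * s * m⁻¹) from rfl] at this
        have e : s = m * s * m⁻¹ := by
          calc s = m⁻¹ * (m * s * m⁻¹ * m) := by group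
            _ = m⁻¹ * (m * (m * s * m⁻¹)) := by rw [this]
            _ = m * s * m⁻¹ := by group
        rw [e]; exact hs
    have := Subgroup.coe_mul_of_right_le_normalizer_left S M hn
    obtain ⟨s, hs, m, hm, rfl⟩ := (this ▸ hy : y ∈ (S : Set A) * (M : Set A))
    exact ⟨s, hs, m, hm, rfl⟩
  have hcS : Nat.card S = 120 := by
    rw [Nat.card_congr iso.toEquiv, Cfsg.Agent.Lib.ZassSL25.card_sl_two_five]
  refine ⟨fun x hx => ?_, ⟨8 * Nat.card M * G₀.index, ?_, ?_⟩⟩
  · have hxG : x ∈ G₀ := by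
      rcases hidx with h | h
      · rw [Subgroup.index_eq_one.1 h]; exact mem_top _
      · have hsq : x ^ 2 ∈ G₀ := Subgroup.sq_mem_of_index_two h x
        have e : x = (x ^ 2) ^ 8 := by
          rw [← pow_mul, show (2 * 8 : ℕ) = 15 + 1 from rfl, pow_add, ← hx, pow_orderOf_eq_one,
            one_mul, pow_one]
        rw [e]; exact pow_mem hsq 8
    obtain ⟨s, hs, m, hm, rfl⟩ := hfac x hxG
    have h15 : (s * m) ^ 15 = 1 := hx ▸ pow_orderOf_eq_one (s * m)
    rw [(show Commute s m from hcomm s hs m hm).mul_pow] at h15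
    have hm15 : m ^ 15 ∈ S ⊓ M :=
      Subgroup.mem_inf.2 ⟨by rw [eq_inv_of_mul_eq_one_right h15]; exact S.inv_mem (S.pow_mem hs 15), M.pow_mem hm 15⟩
    rw [hinf, Subgroup.mem_bot] at hm15
    have hm1 : m = 1 := orderOf_eq_one_iff.1 (Nat.eq_one_of_dvd_coprimes hcop
      (M.orderOf_dvd_natCard hm) ((orderOf_dvd_of_pow_eq_one hm15).trans (by norm_num)))
    subst hm1
    rw [mul_one] at hx
    refine sl_no_fifteen (iso ⟨s, hs⟩) ?_
    rw [MulEquiv.orderOf_eq, ← Subgroup.orderOf_coe]; exact hx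
  · haveI := hG₀
    have hG : Nat.card G₀ = Nat.card S * Nat.card M := by
      rw [← Nat.card_prod]
      refine (Nat.card_eq_of_bijective (fun q : S × M => (⟨(q.1 : A) * q.2,
        hsup ▸ mul_mem (mem_sup_left q.1.2) (mem_sup_right q.2.2)⟩ : G₀)) ⟨?_, ?_⟩).symm
      · rintro ⟨⟨a, ha⟩, ⟨b, hb⟩⟩ ⟨⟨a', ha'⟩, ⟨b', hb'⟩⟩ h
        have h' : a * b = a' * b' := congrArg Subtype.val h
        have hmem : a'⁻¹ * a ∈ S ⊓ M := Subgroup.mem_inf.2 ⟨S.mul_mem (S.inv_mem ha') ha, by
          rw [show a'⁻¹ * a = b' * b⁻¹ by rw [eq_mul_inv_iff_mul_eq, mul_assoc, h', inv_mul_cancel_left]]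
          exact M.mul_mem hb' (M.inv_mem hb)⟩
        rw [hinf, Subgroup.mem_bot, inv_mul_eq_one] at hmem
        subst hmem
        obtain rfl := mul_left_cancel h'
        rfl
      · rintro ⟨y, hy⟩
        obtain ⟨s, hs, m, hm, rfl⟩ := hfac y hy
        exact ⟨(⟨s, hs⟩, ⟨m, hm⟩), rfl⟩
    rw [← G₀.card_mul_index, hG, hcS]; ring
  · refine Nat.Coprime.mul_left (Nat.Coprime.mul_left (by norm_num) ?_) ?_
    · exact Nat.Coprime.coprime_dvd_right (by norm_num : 15 ∣ 30) hcop
    · rcases hidx with h | h <;> rw [h] <;> norm_num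

lemma solvable_transfer {A B : Type*} [Group A] [Finite A] [Group B] [Finite B]
    (hns : ¬ Group.IsSolvable A)
    (hA : ∃ (L : Type) (_ : Group L) (_ : Finite L) (H : Subgroup L),
      Cfsg.IsFrobeniusComplement H ∧ Nonempty (A ≃* H))
    (hB : ∃ (L : Type) (_ : Group L) (_ : Finite L) (H : Subgroup L),
      Cfsg.IsFrobeniusComplement H ∧ Nonempty (B ≃* H))
    (hcard : Nat.card B = Nat.card A)
    (h15 : (∃ y : B, orderOf y = 15) → ∃ x : A, orderOf x = 15) : ¬ Group.IsSolvable B := by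
  intro hsol
  obtain ⟨hno, r, hr, hrc⟩ := nonsolvable_data hns hA
  obtain ⟨W, hW1, hW2⟩ := Cfsg.Agent.Lib.Hall.exists_piHall (G := B) {3, 5}
  have hW15 : Nat.card W = 15 := by
    have hmul : Nat.card W * W.index = 15 * r := by rw [W.card_mul_index, hcard, hr]
    have hWr : (Nat.card W).Coprime r := Nat.coprime_of_dvd fun q hq h1 h2 => by
      rcases hW1 q hq h1 with rfl | h
      · exact absurd (Nat.eq_one_of_dvd_coprimes hrc h2 (by norm_num)) (by norm_num)
      · rw [Set.mem_singleton_iff] at h; subst h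
        exact absurd (Nat.eq_one_of_dvd_coprimes hrc h2 (by norm_num)) (by norm_num)
    have hIdx : (15 : ℕ).Coprime W.index := by
      rw [show (15 : ℕ) = 3 * 5 from rfl]
      exact Nat.Coprime.mul_left ((Nat.Prime.coprime_iff_not_dvd (by norm_num)).2
          (hW2 3 (by norm_num) (Or.inl rfl)))
        ((Nat.Prime.coprime_iff_not_dvd (by norm_num)).2 (hW2 5 (by norm_num) (Or.inr rfl)))
    refine Nat.dvd_antisymm (hWr.dvd_of_dvd_mul_right (Dvd.intro _ hmul)) ?_
    exact hIdx.dvd_of_dvd_mul_right (Dvd.intro r hmul.symm)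
  have hcyc := Cfsg.Agent.Lib.ZassSL25.isCyclic_of_card_prime_mul
    (Cfsg.Agent.Lib.ZassSL25.fpfGroup_of_isFC hB) (H := W) (p := 3) (q := 5) (by norm_num) (by norm_num) hW15
  obtain ⟨w, hw⟩ := IsCyclic.exists_ofOrder_eq_natCard (α := W)
  obtain ⟨x, hx⟩ := h15 ⟨(w : B), by rw [Subgroup.orderOf_coe, hw, hW15]⟩
  exact hno x hx

lemma fifteen_down {F : Type*} [Group F] [Finite F] {C : Subgroup F}
    (hC : Cfsg.IsFrobeniusComplement C) {x : F} (hx : orderOf x = 15)
    (h15 : 15 ∣ Nat.card C) : ∃ y : C, orderOf y = 15 := by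
  obtain ⟨-, -, hcop, hsplit, -⟩ := frobenius_facts hC
  rcases hsplit x with h | ⟨g, hg⟩
  · rw [hx] at h
    exact absurd (Nat.eq_one_of_dvd_coprimes hcop h h15) (by norm_num)
  · rw [Subgroup.mem_pointwise_smul_iff_inv_smul_mem] at hg
    refine ⟨⟨_, hg⟩, ?_⟩
    rw [← Subgroup.orderOf_coe]
    show orderOf ((MulAut.conj g)⁻¹ • x) = 15
    rw [MulAut.smul_def, MulEquiv.orderOf_eq, hx]

/-- Let F be a finite Frobenius group (it has a Frobenius complement) and G a finite group with the same order type as F (for every m the same number of elements of order m). Then G is a Frobenius group; moreover G is solvable if and only if F is. -/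
theorem result {F G : Type*} [Group F] [Finite F] [Group G] [Finite G] (hF : (∃ C : Subgroup F, Cfsg.IsFrobeniusComplement C)) (hT : (∀ m : ℕ, Nat.card {g : F // orderOf g = m} = Nat.card {h : G // orderOf h = m})) :
    (∃ C : Subgroup G, Cfsg.IsFrobeniusComplement C) ∧ (Group.IsSolvable G ↔ Group.IsSolvable F) := by
  obtain ⟨C, hC⟩ := hF
  obtain ⟨e, he⟩ := exists_order_equiv hT
  obtain ⟨H, hH, hcard⟩ := transfer hC e he
  refine ⟨⟨H, hH⟩, ?_⟩
  have hC' := isFC_of_complement hC
  have hH' := isFC_of_complement hH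
  obtain ⟨-, -, -, -, -, hFs, -⟩ := frobenius_facts hC
  obtain ⟨-, -, -, -, -, hGs, -⟩ := frobenius_facts hH
  rw [hFs, hGs]
  constructor
  · intro hs
    by_contra hns
    obtain ⟨-, r, hr, -⟩ := nonsolvable_data hns hC'
    refine solvable_transfer hns hC' hH' hcard (fun ⟨y, hy⟩ => ?_) hs
    refine fifteen_down hC (x := e.symm (y : G)) ?_ (Dvd.intro r hr.symm)
    rw [← he, e.apply_symm_apply, Subgroup.orderOf_coe, hy]
  · intro hs
    by_contra hns
    obtain ⟨-, r, hr, -⟩ := nonsolvable_data hns hH'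
    refine solvable_transfer hns hH' hC' hcard.symm (fun ⟨y, hy⟩ => ?_) hs
    refine fifteen_down hH (x := e (y : F)) ?_ (Dvd.intro r hr.symm)
    rw [he, Subgroup.orderOf_coe, hy]

end Cfsg.Agent.S3999
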