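import Mathlib
import Cfsg.Statements.S4001
import Cfsg.Agent.S3999
import Cfsg.Agent.S0666
import Cfsg.Agent.S0065
import Cfsg.Agent.Lib.Transfer.Hall
import Cfsg.Agent.Lib.Coprime.Conjugacy

set_option autoImplicit false

open scoped commutatorElement Pointwise

namespace Cfsg.Agent.S4001

open Subgroup Pointwise

/-- The kernel subgroup of a Frobenius group, with its complement. -/
lemma kernel_facts {F : Type*} [Group F] [Finite F] {C : Subgroup F}
    (hC : Cfsg.IsFrobeniusComplement C) {N : Subgroup F}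
    (hN : Cfsg.frobeniusKernel C = (N : Set F)) :
    N.Normal ∧ N.IsComplement' C ∧ Group.IsNilpotent N ∧ (Nat.card N).Coprime (Nat.card C) ∧
      ∀ n ∈ N, ∀ c ∈ C, Commute n c → n = 1 ∨ c = 1 := by
  obtain ⟨M, hM, hMn, hnil⟩ := Cfsg.Agent.S0042.result C hC
  obtain ⟨M', hM', -, hc⟩ := Cfsg.Agent.S0035.result C hC
  obtain rfl : M = M' := SetLike.coe_injective (hM.trans hM'.symm)
  obtain rfl : N = M := SetLike.coe_injective (hN.symm.trans hM.symm)
  obtain ⟨-, -, hcop, -⟩ := S3999.frobenius_facts hC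
  refine ⟨hMn, hc, hnil, by rw [← hc.index_eq_card]; exact hcop, fun n hn c hcC h => ?_⟩
  by_cases hc1 : c = 1
  · exact Or.inr hc1
  · refine Or.inl ?_
    have hmem : n ∈ C := Cfsg.Agent.Lib.Hall.fc_centralizer_le hC hcC hc1
      (Subgroup.mem_centralizer_singleton_iff.2 h)
    exact Subgroup.disjoint_def.1 hc.disjoint hn hmem

/-- A finite group which is both a Frobenius kernel and a Frobenius complement is cyclic of odd order
when the kernel is inverted by nothing but is moved by the complement. -/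
lemma kernel_complement {Q : Type*} [Group Q] [Finite Q] {D : Subgroup Q}
    (hD : Cfsg.IsFrobeniusComplement D) {N : Subgroup Q}
    (hN : Cfsg.frobeniusKernel D = (N : Set Q))
    (hfpf : Cfsg.Agent.Lib.ZassSL25.FPFGroup N) :
    Odd (Nat.card N) ∧ IsCyclic N ∧ IsCyclic D := by
  obtain ⟨hNn, hc, hnil, -, hfix⟩ := kernel_facts hD hN
  haveI := hnil
  haveI := hNn
  obtain ⟨d, hd, hd1⟩ := (Subgroup.bot_or_exists_ne_one D).resolve_left hD.1
  have hodd : Odd (Nat.card N) := by
    rw [← Nat.not_even_iff_odd, even_iff_two_dvd]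
    intro h2
    haveI : Fact (Nat.Prime 2) := ⟨Nat.prime_two⟩
    obtain ⟨t, ht⟩ := exists_prime_orderOf_dvd_card' 2 h2
    let t' : N := ⟨d * t * d⁻¹, hNn.conj_mem _ t.2 d⟩
    have ht' : orderOf t' = 2 := by
      rw [← Subgroup.orderOf_coe]
      show orderOf (d * (t : Q) * d⁻¹) = 2
      rw [← ht, ← Subgroup.orderOf_coe]
      exact MulEquiv.orderOf_eq (MulAut.conj d) (t : Q)
    have heq : (t' : Q) = t := congrArg Subtype.val
      (Cfsg.Agent.Lib.ZassSL25.involution_unique hfpf ht' ht)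
    have hcm : Commute (t : Q) d := by
      have : d * (t : Q) * d⁻¹ = t := heq
      show (t : Q) * d = d * t
      calc (t : Q) * d = d * t * d⁻¹ * d := by rw [this]
        _ = d * t := by group
    rcases hfix _ t.2 _ hd hcm with h | h
    · rw [← Subgroup.orderOf_coe, h, orderOf_one] at ht; norm_num at ht
    · exact hd1 h
  haveI : IsZGroup N := by
    have h := Cfsg.Agent.Lib.ZassSL25.isZGroup_of_odd hfpf (O := (⊤ : Subgroup N))
      (by rwa [Subgroup.card_top])
    exact IsZGroup.of_injective (f := (Subgroup.topEquiv (G := N)).symm.toMonoidHom)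
      (Subgroup.topEquiv (G := N)).symm.injective
  haveI hcyc : IsCyclic N := inferInstance
  refine ⟨hodd, hcyc, ?_⟩
  have hcomm : IsMulCommutative D := by
    obtain ⟨g, hg⟩ := hcyc.exists_generator
    refine IsMulCommutative.of_setLike_mul_comm fun a ha b hb => ?_
    have hconj : ∀ x : Q, ∃ m : ℤ, x * (g : Q) * x⁻¹ = (g : Q) ^ m := fun x => by
      obtain ⟨m, hm⟩ := Subgroup.mem_zpowers_iff.1 (hg ⟨_, hNn.conj_mem _ g.2 x⟩)
      exact ⟨m, by rw [← Subgroup.coe_zpow, hm]⟩
    obtain ⟨m, hm⟩ := hconj a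
    obtain ⟨n, hn⟩ := hconj b
    have hab : a * b * (g : Q) * (a * b)⁻¹ = b * a * (g : Q) * (b * a)⁻¹ := by
      calc a * b * (g : Q) * (a * b)⁻¹ = a * (b * (g : Q) * b⁻¹) * a⁻¹ := by group
        _ = (a * (g : Q) * a⁻¹) ^ n := by rw [hn, conj_zpow]
        _ = ((g : Q) ^ n) ^ m := by rw [hm, ← zpow_mul, ← zpow_mul, mul_comm]
        _ = (b * (g : Q) * b⁻¹) ^ m := by rw [hn]
        _ = b * (a * (g : Q) * a⁻¹) * b⁻¹ := by rw [conj_zpow, ← hm]
        _ = b * a * (g : Q) * (b * a)⁻¹ := by group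
    have hcm : Commute (g : Q) ((b * a)⁻¹ * (a * b)) := by
      show (g : Q) * ((b * a)⁻¹ * (a * b)) = (b * a)⁻¹ * (a * b) * (g : Q)
      calc (g : Q) * ((b * a)⁻¹ * (a * b))
          = (b * a)⁻¹ * (b * a * (g : Q) * (b * a)⁻¹) * (a * b) := by group
        _ = (b * a)⁻¹ * (a * b * (g : Q) * (a * b)⁻¹) * (a * b) := by rw [hab]
        _ = (b * a)⁻¹ * (a * b) * (g : Q) := by group
    rcases hfix _ g.2 _ (D.mul_mem (D.inv_mem (D.mul_mem hb ha)) (D.mul_mem ha hb)) hcm with h | h
    · exfalso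
      have hN1 : Nat.card N ≤ 1 := by
        rw [← orderOf_eq_card_of_forall_mem_zpowers hg, ← Subgroup.orderOf_coe, h, orderOf_one]
      have hbot : N = ⊥ := Subgroup.eq_bot_of_card_le N hN1
      have hidx := hc.index_eq_card
      rw [hbot, Subgroup.card_bot, Subgroup.index_eq_one] at hidx
      exact hD.2.1 hidx
    · exact (inv_mul_eq_one.1 h).symm
  haveI := hcomm
  have := Cfsg.Agent.Lib.ZassSL25.isCyclic_of_isMulCommutative
    (Cfsg.Agent.Lib.ZassSL25.fpfGroup_of_isFC (S3999.isFC_of_complement hD)) (⊤ : Subgroup D)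
  exact isCyclic_of_surjective (Subgroup.topEquiv (G := D)).toMonoidHom (Subgroup.topEquiv (G := D)).surjective

lemma exists_order_dvd {G : Type*} [Group G] [Finite G] {g : G} {n : ℕ} (h : n ∣ orderOf g) :
    ∃ x : G, orderOf x = n :=
  ⟨g ^ (orderOf g / n), orderOf_pow_orderOf_div (orderOf_pos g).ne' h⟩

lemma exists_order_two_primes {G : Type*} [Group G] [Finite G] {x y : G} {p q : ℕ} (hp : p.Prime)
    (hq : q.Prime) (hpq : p ≠ q) (hx : orderOf x = p) (hy : orderOf y = q) (h : Commute x y) :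
    ∃ g : G, orderOf g = p * q :=
  ⟨x * y, by
    rw [h.orderOf_mul_eq_mul_orderOf_of_coprime (by rw [hx, hy]; exact (Nat.coprime_primes hp hq).2 hpq),
      hx, hy]⟩

/-- An element of the kernel commutes with nothing outside the kernel. -/
lemma kernel_commute {F : Type*} [Group F] [Finite F] {D : Subgroup F}
    (hD : Cfsg.IsFrobeniusComplement D) {u v : F} (hu : u ∈ Cfsg.frobeniusKernel D)
    (hv : v ∉ Cfsg.frobeniusKernel D) (h : Commute u v) : u = 1 := by
  simp only [Cfsg.frobeniusKernel, Set.mem_setOf_eq, not_or, not_forall, not_not] at hv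
  obtain ⟨hv1, g, hg⟩ := hv
  have hmem : u ∈ MulAut.conj g • D :=
    Cfsg.Agent.Lib.Hall.fc_centralizer_le (Cfsg.Agent.Lib.Hall.fc_conj hD g) hg hv1
      (Subgroup.mem_centralizer_singleton_iff.2 h)
  exact hu.resolve_right (fun h' => h' g hmem)

/-- An element of order `pq` cannot join the middle section with the outside. -/
lemma no_mixed {G : Type*} [Group G] [Finite G] {H K : Subgroup G} [H.Normal] [K.Normal] (hle : H ≤ K)
    {C : Subgroup ↥K} (hC : Cfsg.IsFrobeniusComplement C)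
    (hCk : Cfsg.frobeniusKernel C = (H.subgroupOf K : Set ↥K))
    {D : Subgroup (G ⧸ H)} (hD : Cfsg.IsFrobeniusComplement D)
    (hDk : Cfsg.frobeniusKernel D = (K.map (QuotientGroup.mk' H) : Set (G ⧸ H)))
    {p q : ℕ} (hp : p.Prime) (hq : q.Prime) (hpq : p ≠ q)
    (hpb : p ∣ Nat.card C) (hqb : ¬ q ∣ Nat.card C) (hph : ¬ p ∣ Nat.card H) (hpa : ¬ p ∣ K.index)
    {g : G} (hg : orderOf g = p * q) : False := by
  obtain ⟨-, hKc, -, -, -⟩ := kernel_facts hC hCk
  set x := g ^ q with hxdef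
  set y := g ^ p with hydef
  have hx : orderOf x = p := by
    rw [hxdef, orderOf_pow' g hq.ne_zero, hg, Nat.gcd_eq_right (dvd_mul_left q p),
      Nat.mul_div_cancel _ hq.pos]
  have hy : orderOf y = q := by
    rw [hydef, orderOf_pow' g hp.ne_zero, hg, Nat.gcd_eq_right (dvd_mul_right p q),
      Nat.mul_div_cancel_left _ hp.pos]
  have hxy : Commute x y := Commute.pow_pow_self g q p
  have hxK : x ∈ K := by
    rw [← QuotientGroup.eq_one_iff, ← orderOf_eq_one_iff]
    refine ((Nat.dvd_prime hp).1 (hx ▸ orderOf_map_dvd (QuotientGroup.mk' K) x)).resolve_right ?_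
    intro h
    exact hpa (h ▸ Subgroup.index_eq_card K ▸ orderOf_dvd_natCard _)
  have hxH : x ∉ H := fun h => hph (hx ▸ H.orderOf_dvd_natCard h)
  let π := QuotientGroup.mk' H
  have hxb : π x ≠ 1 := fun h => hxH ((QuotientGroup.eq_one_iff x).1 h)
  by_cases hyK : y ∈ K
  · have hcard : Nat.card (H.subgroupOf K) = Nat.card H :=
      Nat.card_congr (Subgroup.subgroupOfEquivOfLe hle).toEquiv
    have hyH : y ∈ H := by
      by_contra hyH
      obtain ⟨-, -, -, hsplit, -⟩ := S3999.frobenius_facts hC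
      rcases hsplit ⟨y, hyK⟩ with h | ⟨w, hw⟩
      · rw [← Subgroup.orderOf_coe, hy, hKc.index_eq_card, hcard] at h
        obtain ⟨hh, -, hnil, hcop, -⟩ := kernel_facts hC hCk
        have hmem : (⟨y, hyK⟩ : ↥K) ∉ Cfsg.frobeniusKernel C := by
          rw [hCk]; exact fun hk => hyH hk
        simp only [Cfsg.frobeniusKernel, Set.mem_setOf_eq, not_or, not_forall, not_not] at hmem
        obtain ⟨-, v, hv⟩ := hmem
        have := Subgroup.orderOf_dvd_natCard _ hv
        rw [Cfsg.Agent.Lib.Coprime.card_conj_smul, ← Subgroup.orderOf_coe, hy] at this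
        exact hqb this
      · have := Subgroup.orderOf_dvd_natCard _ hw
        rw [Cfsg.Agent.Lib.Coprime.card_conj_smul, ← Subgroup.orderOf_coe, hy] at this
        exact hqb this
    have h1 := kernel_commute hC (u := (⟨y, hyK⟩ : ↥K)) (v := ⟨x, hxK⟩)
      (by rw [hCk]; exact hyH) (by rw [hCk]; exact hxH) (Subtype.ext hxy.symm.eq)
    rw [show y = 1 from congrArg Subtype.val h1, orderOf_one] at hy
    exact hq.one_lt.ne hy
  · refine hxb (kernel_commute hD (u := π x) (v := π y)
      (by rw [hDk]; exact Subgroup.mem_map_of_mem π hxK) ?_ (hxy.map π))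
    rw [hDk]
    rintro ⟨k, hk, hky⟩
    refine hyK ?_
    have : k⁻¹ * y ∈ H := (QuotientGroup.eq).1 hky
    simpa using K.mul_mem hk (hle this)

/-- A prime of the kernel is joined to a prime of the top. -/
lemma kernel_top_edge {G : Type*} [Group G] [Finite G] {H K : Subgroup G} [H.Normal] [K.Normal]
    (hle : H ≤ K) {C : Subgroup ↥K} (hC : Cfsg.IsFrobeniusComplement C)
    (hCk : Cfsg.frobeniusKernel C = (H.subgroupOf K : Set ↥K))
    (hsolvH : Group.IsSolvable ↥(H.subgroupOf K))
    {D : Subgroup (G ⧸ H)} (hD : Cfsg.IsFrobeniusComplement D)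
    (hDk : Cfsg.frobeniusKernel D = (K.map (QuotientGroup.mk' H) : Set (G ⧸ H)))
    {p q : ℕ} (hp : p.Prime) (hq : q.Prime) (hpq : p ≠ q) (hph : p ∣ Nat.card H)
    (hqa : q ∣ K.index) (hqh : ¬ q ∣ Nat.card H) (hqb : ¬ q ∣ Nat.card C) :
    ∃ g : G, orderOf g = p * q := by
  haveI := Fact.mk hp
  haveI := Fact.mk hq
  obtain ⟨-, hc, hnil, hcop, hfix⟩ := kernel_facts hC hCk
  let C' : Subgroup G := C.map K.subtype
  have hcardH : Nat.card (H.subgroupOf K) = Nat.card H :=
    Nat.card_congr (Subgroup.subgroupOfEquivOfLe hle).toEquiv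
  have hcK : Nat.card K = Nat.card H * Nat.card C := by
    rw [← hcardH]; exact hc.card_mul.symm
  -- an element of order `q` normalising `C'`
  obtain ⟨gK, hgK⟩ := exists_prime_orderOf_dvd_card' (G := G ⧸ K) q (Subgroup.index_eq_card K ▸ hqa)
  obtain ⟨g₀, rfl⟩ := QuotientGroup.mk'_surjective K gK
  have hconj : ∃ n ∈ K, n * g₀ ∈ normalizer (C' : Set G) := by
    let φ : ↥K ≃* ↥K := MulAut.conjNormal g₀
    have hidx : (H.subgroupOf K).index = Nat.card C := hc.symm.index_eq_card
    obtain ⟨n, hn⟩ := Cfsg.Agent.Lib.Coprime.exists_conj_eq_of_card_eq (H.subgroupOf K)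
      (by rw [hidx]; exact hcop) (Or.inl hsolvH) (H := C.map φ.toMonoidHom) (K := C)
      (by rw [hidx, Subgroup.card_map_of_injective (f := φ.toMonoidHom) φ.injective]) hidx.symm
    refine ⟨n, n.2, ?_⟩
    refine Cfsg.Agent.Lib.ZassSL25.mem_normalizer_of_forall_conj_mem fun x hx => ?_
    obtain ⟨c, hcC, rfl⟩ := Subgroup.mem_map.1 hx
    have hm : n * φ c * n⁻¹ ∈ C := by
      have h' : n * φ c * n⁻¹ ∈ MulAut.conj n • C.map φ.toMonoidHom :=
        Subgroup.mem_pointwise_smul_iff_inv_smul_mem.2 (by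
          simpa [MulAut.smul_def, mul_assoc] using Subgroup.mem_map_of_mem φ.toMonoidHom hcC)
      rwa [hn] at h'
    refine ⟨_, hm, ?_⟩
    show ((n * φ c * n⁻¹ : ↥K) : G) = (n : G) * g₀ * (c : G) * ((n : G) * g₀)⁻¹
    simp only [φ, Subgroup.coe_mul, Subgroup.coe_inv, MulAut.conjNormal_apply]
    group
  obtain ⟨n, hn, hN⟩ := hconj
  have hord : q ∣ orderOf (n * g₀) := by
    rw [← hgK]
    have : QuotientGroup.mk' K g₀ = QuotientGroup.mk' K (n * g₀) := by
      rw [map_mul, show QuotientGroup.mk' K n = 1 from (QuotientGroup.eq_one_iff n).2 hn, one_mul]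
    rw [this]; exact orderOf_map_dvd _ _
  set y := (n * g₀) ^ (orderOf (n * g₀) / q)
  have hy : orderOf y = q := orderOf_pow_orderOf_div (orderOf_pos _).ne' hord
  have hyN : y ∈ normalizer (C' : Set G) := pow_mem hN _
  have hyK : y ∉ K := fun h => by
    have := K.orderOf_dvd_natCard h
    rw [hy, hcK] at this
    exact ((Nat.Prime.dvd_mul hq).1 this).elim hqh hqb
  -- the central `p`-subgroup
  let V : Subgroup G :=
    { carrier := {v | v ∈ H ∧ (∀ w ∈ H, w * v = v * w) ∧ v ^ p = 1}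
      one_mem' := ⟨one_mem _, fun w _ => by simp, one_pow _⟩
      mul_mem' := fun {a b} ha hb => ⟨mul_mem ha.1 hb.1, fun w hw => by
        rw [← mul_assoc, ha.2.1 w hw, mul_assoc, hb.2.1 w hw, mul_assoc],
        by rw [(show Commute a b from hb.2.1 a ha.1).mul_pow, ha.2.2, hb.2.2, one_mul]⟩
      inv_mem' := fun {a} ha => ⟨inv_mem ha.1, fun w hw =>
        (show Commute w a from ha.2.1 w hw).inv_right.eq, by rw [inv_pow, ha.2.2, inv_one]⟩ }
  have hVn : V.Normal := ⟨fun v hv g => ⟨(inferInstance : H.Normal).conj_mem v hv.1 g, fun w hw => by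
    have h := hv.2.1 (g⁻¹ * w * g) (by simpa using (inferInstance : H.Normal).conj_mem w hw g⁻¹)
    calc w * (g * v * g⁻¹) = g * (g⁻¹ * w * g * v) * g⁻¹ := by group
      _ = g * (v * (g⁻¹ * w * g)) * g⁻¹ := by rw [h]
      _ = g * v * g⁻¹ * w := by group,
    by rw [conj_pow, hv.2.2, mul_one, mul_inv_cancel]⟩⟩
  have hVab : IsMulCommutative V :=
    IsMulCommutative.of_setLike_mul_comm fun a ha b hb => hb.2.1 a ha.1
  have hV1 : V ≠ ⊥ := by
    haveI : Group.IsNilpotent H := Group.nilpotent_of_mulEquiv (Subgroup.subgroupOfEquivOfLe hle)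
    obtain ⟨P⟩ := (inferInstance : Nonempty (Sylow p H))
    have hP1 : (P : Subgroup H) ≠ ⊥ := fun h => by
      have h2 := P.card_eq_multiplicity
      rw [h, Subgroup.card_bot] at h2
      exact (one_lt_pow₀ hp.one_lt (Nat.Prime.factorization_pos_of_dvd hp Nat.card_pos.ne' hph).ne').ne h2
    obtain ⟨z, hz, hz1⟩ := (Subgroup.bot_or_exists_ne_one _).resolve_left
      (Cfsg.Agent.S0065.inf_center_ne_bot (G := H) (N := P) inferInstance hP1)
    obtain ⟨hzP, hzc⟩ := Subgroup.mem_inf.1 hz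
    obtain ⟨j, hj⟩ := IsPGroup.iff_orderOf.1 P.2 ⟨z, hzP⟩
    rw [← Subgroup.orderOf_coe] at hj
    have hj0 : j ≠ 0 := fun e => hz1 (by rwa [e, pow_zero, orderOf_eq_one_iff] at hj)
    set v := z ^ (orderOf z / p)
    have hv : orderOf v = p := orderOf_pow_orderOf_div (orderOf_pos z).ne' (hj ▸ dvd_pow_self p hj0)
    have hvc : v ∈ center H := pow_mem hzc _
    intro hb
    have hvV : (v : G) ∈ V := ⟨v.2, fun w hw =>
      congrArg Subtype.val (Subgroup.mem_center_iff.1 hvc ⟨w, hw⟩), by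
      rw [← hv, ← Subgroup.orderOf_coe, pow_orderOf_eq_one]⟩
    rw [hb, Subgroup.mem_bot] at hvV
    rw [← Subgroup.orderOf_coe, hvV, orderOf_one] at hv
    exact hp.one_lt.ne hv
  -- the Frobenius group acting on it
  have hC'K : C' ≤ K := Subgroup.map_subtype_le _
  have hcC' : Nat.card C' = Nat.card C := Subgroup.card_map_of_injective K.subtype_injective
  let F : Subgroup G := C' ⊔ zpowers y
  have hzy : zpowers y ≤ normalizer (C' : Set G) := zpowers_le.2 hyN
  have hFle : F ≤ normalizer (C' : Set G) := sup_le Subgroup.le_normalizer hzy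
  haveI hC'F : (C'.subgroupOf F).Normal :=
    ⟨fun a ha g => ((mem_normalizer_iff.1 (hFle g.2)) a).1 ha⟩
  have hdisj : C' ⊓ zpowers y = ⊥ := by
    refine (Subgroup.disjoint_of_coprime_natCard ?_).eq_bot
    rw [hcC', Nat.card_zpowers, hy]
    exact ((hq.coprime_iff_not_dvd).2 hqb).symm
  have hcompl : (C'.subgroupOf F).IsComplement' ((zpowers y).subgroupOf F) := by
    refine Subgroup.isComplement'_of_disjoint_and_mul_eq_univ ?_ ?_
    · rw [Subgroup.disjoint_def]
      intro a ha hb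
      refine Subtype.ext ?_
      exact (hdisj.le ⟨ha, hb⟩ : (a : G) ∈ (⊥ : Subgroup G))
    · refine Set.eq_univ_of_forall fun a => ?_
      have ha : (a : G) ∈ (C' : Set G) * (zpowers y : Set G) := by
        rw [← Subgroup.coe_mul_of_right_le_normalizer_left C' (zpowers y) hzy]; exact a.2
      obtain ⟨c, hcC, d, hd, e⟩ := ha
      exact ⟨⟨c, mem_sup_left hcC⟩, hcC, ⟨d, mem_sup_right hd⟩, hd, Subtype.ext e⟩
  have hC1 : C'.subgroupOf F ≠ ⊥ := fun h => by
    rw [Subgroup.subgroupOf_eq_bot, disjoint_iff, inf_eq_left.2 (le_sup_left : C' ≤ F)] at h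
    exact hC.1 ((Subgroup.map_eq_bot_iff_of_injective _ K.subtype_injective).1 h)
  have hy1 : (zpowers y).subgroupOf F ≠ ⊥ := fun h => by
    rw [Subgroup.subgroupOf_eq_bot, disjoint_iff, inf_eq_left.2 (le_sup_right : zpowers y ≤ F),
      Subgroup.zpowers_eq_bot] at h
    rw [h, orderOf_one] at hy; exact hq.one_lt.ne hy
  by_cases hfree : ∀ c ∈ C', Commute c y → c = 1
  · have hFC : Cfsg.IsFrobeniusComplement ((zpowers y).subgroupOf F) := by
      refine (Cfsg.Agent.S0039.result _ _ hcompl hC1 hy1).2 fun h hh hne => ?_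
      rw [eq_bot_iff]
      rintro a ⟨ha, hac⟩
      refine Subtype.ext (hfree a ha ?_)
      obtain ⟨i, hi⟩ := Subgroup.mem_zpowers_iff.1 (hh : (h : G) ∈ zpowers y)
      have hcm : Commute (a : G) (h : G) :=
        congrArg Subtype.val (Subgroup.mem_centralizer_singleton_iff.1 hac)
      have hgen : y ∈ zpowers (h : G) := by
        have hle' : zpowers (h : G) ≤ zpowers y := zpowers_le.2 hh
        have : zpowers (h : G) = zpowers y := by
          refine Subgroup.eq_of_le_of_card_ge hle' ?_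
          rw [Nat.card_zpowers, Nat.card_zpowers, hy]
          have hdv : orderOf (h : G) ∣ q := by
            rw [← hy, ← Nat.card_zpowers y]; exact Subgroup.orderOf_dvd_natCard _ hh
          rcases (Nat.dvd_prime hq).1 hdv with e | e
          · exact absurd (Subtype.ext (orderOf_eq_one_iff.1 e)) hne
          · rw [e]
        rw [this]; exact mem_zpowers y
      obtain ⟨k, hk⟩ := Subgroup.mem_zpowers_iff.1 hgen
      exact hk ▸ hcm.zpow_right k
    obtain ⟨M, hM, -⟩ := Cfsg.Agent.S0042.result _ hFC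
    have hker : ∀ a : ↥F, a ∈ C'.subgroupOf F → a ∈ Cfsg.frobeniusKernel ((zpowers y).subgroupOf F) := by
      intro a ha
      by_cases ha1 : a = 1
      · exact Or.inl ha1
      · refine Or.inr fun g hg => ha1 ?_
        rw [Subgroup.mem_pointwise_smul_iff_inv_smul_mem] at hg
        have hmem : (MulAut.conj g)⁻¹ • a ∈ C'.subgroupOf F := by
          rw [← map_inv, MulAut.smul_def, MulAut.conj_apply]
          exact hC'F.conj_mem a ha _
        have := Subgroup.disjoint_def.1 hcompl.disjoint hmem hg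
        rwa [MulAut.smul_def, EmbeddingLike.map_eq_one_iff] at this
    have hVcard : IsPGroup p V := fun v => ⟨1, Subtype.ext (by simpa using v.2.2.2)⟩
    have hfin := Cfsg.Agent.S0666.result V F hVab hV1 (fun g _ => by
      rw [Subgroup.normalizer_eq_top_iff.2 hVn]; exact mem_top g) _ hFC ?_ ?_
    · obtain ⟨v, hv, hv1⟩ := (Subgroup.bot_or_exists_ne_one _).resolve_left hfin
      obtain ⟨hvV, hvc⟩ := Subgroup.mem_inf.1 hv
      have hvy : Commute y v := Subgroup.mem_centralizer_iff.1 hvc y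
        ⟨⟨y, mem_sup_right (mem_zpowers y)⟩, mem_zpowers y, rfl⟩
      exact exists_order_two_primes hp hq hpq (orderOf_eq_prime hvV.2.2 hv1) hy hvy.symm
    · rw [Cfsg.Agent.Lib.Hall.card_frobeniusKernel hFC, hcompl.index_eq_card,
        Nat.card_congr (Subgroup.subgroupOfEquivOfLe (le_sup_left : C' ≤ F)).toEquiv, hcC']
      obtain ⟨k, hk⟩ := IsPGroup.iff_card.1 hVcard
      rw [hk]
      refine Nat.Coprime.pow_left _ ((hp.coprime_iff_not_dvd).2 fun h => ?_)
      exact hp.one_lt.ne' (Nat.eq_one_of_dvd_coprimes hcop (hcardH ▸ hph) h)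
    · rw [eq_bot_iff]
      rintro v ⟨hv, hvc⟩
      obtain ⟨c, hcC, hc1⟩ := (Subgroup.bot_or_exists_ne_one C).resolve_left hC.1
      have hcF : (c : G) ∈ F := mem_sup_left ⟨c, hcC, rfl⟩
      have hcm : Commute (c : G) v := Subgroup.mem_centralizer_iff.1 hvc (c : G)
        ⟨⟨c, hcF⟩, hker ⟨c, hcF⟩ ⟨c, hcC, rfl⟩, rfl⟩
      rcases hfix ⟨v, hle hv.1⟩ hv.1 c hcC (Subtype.ext hcm.symm.eq) with h | h
      · exact congrArg Subtype.val h
      · exact absurd h hc1
  · push Not at hfree
    obtain ⟨c, hcC, hcy, hc1⟩ := hfree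
    exfalso
    obtain ⟨c₀, hc₀, rfl⟩ := Subgroup.mem_map.1 hcC
    have h1 := kernel_commute hD (u := QuotientGroup.mk' H (K.subtype c₀)) (v := QuotientGroup.mk' H y)
      (by rw [hDk]; exact Subgroup.mem_map_of_mem _ c₀.2) (by
        rw [hDk]
        rintro ⟨k, hk, hky⟩
        refine hyK ?_
        have : k⁻¹ * y ∈ H := (QuotientGroup.eq).1 hky
        simpa using K.mul_mem hk (hle this)) (hcy.map _)
    have hmem : c₀ ∈ H.subgroupOf K := (QuotientGroup.eq_one_iff (N := H) _).1 h1
    have : c₀ = 1 := Subgroup.disjoint_def.1 hc.disjoint hmem hc₀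
    exact hc1 (by rw [this]; rfl)

/-- Let G be a 2-Frobenius group: it has normal subgroups H < K with K a Frobenius group with kernel H and G/H a Frobenius group with kernel K/H. Then G is solvable; K/H has odd order coprime to the order of H and to the order of G/K (it is the image of an odd-order Hall subgroup); G/K is cyclic; and the prime graph of G has exactly two connected components, both complete: for distinct primes p, q dividing the order of G, G has an element of order pq exactly when p and q either both divide the order of K/H or both do not. -/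
theorem result {G : Type*} [Group G] [Finite G] (H K : Subgroup G) [H.Normal] [K.Normal] (hlt : H < K)
    (hK : ∃ C : Subgroup ↥K, Cfsg.IsFrobeniusComplement C ∧ Cfsg.frobeniusKernel C = (H.subgroupOf K : Set ↥K))
    (hGH : ∃ C : Subgroup (G ⧸ H), Cfsg.IsFrobeniusComplement C ∧ Cfsg.frobeniusKernel C = (K.map (QuotientGroup.mk' H) : Set (G ⧸ H))) :
    Group.IsSolvable G ∧ Odd (Nat.card (↥K ⧸ H.subgroupOf K)) ∧
      Nat.Coprime (Nat.card (↥K ⧸ H.subgroupOf K)) (Nat.card ↥H * Nat.card (G ⧸ K)) ∧ IsCyclic (G ⧸ K) ∧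
      ∀ p q : ℕ, p.Prime → q.Prime → p ≠ q → p ∣ Nat.card G → q ∣ Nat.card G →
        ((∃ g : G, orderOf g = p * q) ↔ (p ∣ Nat.card (↥K ⧸ H.subgroupOf K) ↔ q ∣ Nat.card (↥K ⧸ H.subgroupOf K))) := by
  obtain ⟨C, hC, hCk⟩ := hK
  obtain ⟨D, hD, hDk⟩ := hGH
  have hle : H ≤ K := hlt.le
  obtain ⟨hHn, hc, hnilH, hcopHC, -⟩ := kernel_facts hC hCk
  obtain ⟨hKn, hDc, hnilK, hcopKD, -⟩ := kernel_facts hD hDk
  have hcardH : Nat.card (H.subgroupOf K) = Nat.card H :=
    Nat.card_congr (Subgroup.subgroupOfEquivOfLe hle).toEquiv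
  let π := QuotientGroup.mk' H
  let f : C →* K.map π :=
    { toFun := fun c => ⟨π ((c : ↥K) : G), Subgroup.mem_map_of_mem π (c : ↥K).2⟩
      map_one' := Subtype.ext (map_one π)
      map_mul' := fun a b => Subtype.ext (map_mul π _ _) }
  have hfinj : Function.Injective f := by
    refine (injective_iff_map_eq_one f).2 fun c h => Subtype.ext ?_
    have h' : π ((c : ↥K) : G) = 1 := congrArg Subtype.val h
    exact Subgroup.disjoint_def.1 hc.disjoint ((QuotientGroup.eq_one_iff (N := H) _).1 h') c.2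
  have hfsurj : Function.Surjective f := by
    rintro ⟨_, k, hk, rfl⟩
    obtain ⟨⟨⟨n, hn⟩, c⟩, e⟩ := hc.2 ⟨k, hk⟩
    refine ⟨c, Subtype.ext ?_⟩
    have e' : (n : G) * ((c : ↥K) : G) = k := congrArg Subtype.val e
    show π ((c : ↥K) : G) = π k
    rw [← e', map_mul, show π (n : G) = 1 from (QuotientGroup.eq_one_iff _).2 hn, one_mul]
  let e : C ≃* K.map π := MulEquiv.ofBijective f ⟨hfinj, hfsurj⟩
  have hfpf : Cfsg.Agent.Lib.ZassSL25.FPFGroup (K.map π) := by
    obtain ⟨L, i1, i2, W, hW, ⟨iso⟩⟩ := S3999.isFC_of_complement hC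
    exact Cfsg.Agent.Lib.ZassSL25.fpfGroup_of_isFC ⟨L, i1, i2, W, hW, ⟨e.symm.trans iso⟩⟩
  obtain ⟨hodd, hcycK, hcycD⟩ := kernel_complement hD hDk hfpf
  have hb : Nat.card (K.map π) = Nat.card C := (Nat.card_congr e.toEquiv).symm
  haveI := hnilH
  haveI := hcycK
  haveI := hcycD
  have hcycC : IsCyclic C := isCyclic_of_surjective e.symm.toMonoidHom e.symm.surjective
  let eQ := hc.symm.QuotientMulEquiv
  have hcycKH : IsCyclic (↥K ⧸ H.subgroupOf K) :=
    isCyclic_of_surjective eQ.symm.toMonoidHom eQ.symm.surjective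
  have hKH : Nat.card (↥K ⧸ H.subgroupOf K) = Nat.card C := (Nat.card_congr eQ.toEquiv)
  let eD : (G ⧸ H) ⧸ K.map π ≃* D := hDc.symm.QuotientMulEquiv
  let eT : G ⧸ K ≃* D := ((QuotientGroup.quotientQuotientEquivQuotient H K hle).symm.trans eD)
  have hcycT : IsCyclic (G ⧸ K) := isCyclic_of_surjective eT.symm.toMonoidHom eT.symm.surjective
  have ha : Nat.card (G ⧸ K) = Nat.card D := Nat.card_congr eT.toEquiv
  have hcop : (Nat.card C).Coprime (Nat.card H * Nat.card (G ⧸ K)) :=
    Nat.Coprime.mul_right (hcardH ▸ hcopHC.symm) (by rw [ha, ← hb]; exact hcopKD)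
  haveI hsolvN : Group.IsSolvable ↥(H.subgroupOf K) := inferInstance
  have hsolv : Group.IsSolvable G := by
    haveI : Group.IsSolvable (↥K ⧸ H.subgroupOf K) := by
      haveI := hcycKH
      letI := hcycKH.commGroup
      exact isSolvable_of_comm mul_comm
    haveI : Group.IsSolvable ↥K := Group.isSolvable_of_ker_le_range (H.subgroupOf K).subtype
      (QuotientGroup.mk' (H.subgroupOf K)) (by rw [QuotientGroup.ker_mk', range_subtype])
    haveI : Group.IsSolvable (G ⧸ K) := by
      letI := hcycT.commGroup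
      exact isSolvable_of_comm mul_comm
    exact Group.isSolvable_of_ker_le_range K.subtype (QuotientGroup.mk' K)
      (by rw [QuotientGroup.ker_mk', range_subtype])
  have hG : Nat.card G = Nat.card H * Nat.card C * Nat.card (G ⧸ K) := by
    rw [← K.card_mul_index, ← Subgroup.index_eq_card, ← hc.card_mul, hcardH]
  refine ⟨hsolv, by rw [hKH, ← hb]; exact hodd, by rw [hKH]; exact hcop, hcycT, ?_⟩
  intro p q hp hq hpq hpG hqG
  rw [hKH]
  have side : ∀ r : ℕ, r.Prime → r ∣ Nat.card G →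
      (¬ r ∣ Nat.card C ↔ r ∣ Nat.card H * Nat.card (G ⧸ K)) := fun r hr hrG => by
    constructor
    · intro h
      rw [hG, mul_right_comm] at hrG
      exact ((Nat.Prime.dvd_mul hr).1 hrG).resolve_right h
    · exact fun h h' => hr.one_lt.ne' (Nat.eq_one_of_dvd_coprimes hcop h' h)
  constructor
  · rintro ⟨g, hg⟩
    by_contra hne
    rcases em (p ∣ Nat.card C) with hpb | hpb
    · have hqb : ¬ q ∣ Nat.card C := fun h => hne ⟨fun _ => h, fun _ => hpb⟩
      exact no_mixed hle hC hCk hD hDk hp hq hpq hpb hqb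
        (fun h => (side p hp hpG).2 (dvd_mul_of_dvd_left h _) hpb)
        (fun h => (side p hp hpG).2 (dvd_mul_of_dvd_right (Subgroup.index_eq_card K ▸ h) _) hpb) hg
    · have hqb : q ∣ Nat.card C := by
        by_contra h
        exact hne ⟨fun h' => absurd h' hpb, fun h' => absurd h' h⟩
      exact no_mixed hle hC hCk hD hDk hq hp hpq.symm hqb hpb
        (fun h => (side q hq hqG).2 (dvd_mul_of_dvd_left h _) hqb)
        (fun h => (side q hq hqG).2 (dvd_mul_of_dvd_right (Subgroup.index_eq_card K ▸ h) _) hqb)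
        (hg.trans (mul_comm p q))
  · intro hiff
    have hcopq := (Nat.coprime_primes hp hq).2 hpq
    by_cases hpb : p ∣ Nat.card C
    · obtain ⟨w, hw⟩ := hcycC.exists_ofOrder_eq_natCard
      refine exists_order_dvd (g := ((w : ↥K) : G)) ?_
      rw [Subgroup.orderOf_coe, Subgroup.orderOf_coe, hw]
      exact hcopq.mul_dvd_of_dvd_of_dvd hpb (hiff.1 hpb)
    · have hqb : ¬ q ∣ Nat.card C := fun h => hpb (hiff.2 h)
      have key : ∀ {r s : ℕ}, r.Prime → s.Prime → r ≠ s → r ∣ Nat.card H → ¬ s ∣ Nat.card C →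
          s ∣ Nat.card H * Nat.card (G ⧸ K) → ∃ g : G, orderOf g = r * s := by
        intro r s hr hs hrs hrH hsC hsd
        by_cases hsH : s ∣ Nat.card H
        · haveI := Fact.mk hr
          haveI := Fact.mk hs
          obtain ⟨x, hx⟩ := exists_prime_orderOf_dvd_card' (G := ↥(H.subgroupOf K)) r (hcardH ▸ hrH)
          obtain ⟨y, hy⟩ := exists_prime_orderOf_dvd_card' (G := ↥(H.subgroupOf K)) s (hcardH ▸ hsH)
          refine exists_order_two_primes hr hs hrs (x := ((x : ↥K) : G)) (y := ((y : ↥K) : G))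
            (by rw [Subgroup.orderOf_coe, Subgroup.orderOf_coe, hx])
            (by rw [Subgroup.orderOf_coe, Subgroup.orderOf_coe, hy]) ?_
          exact ((Cfsg.Agent.Lib.Transfer.commute_of_coprime_orderOf
            (by rw [hx, hy]; exact (Nat.coprime_primes hr hs).2 hrs) : Commute x y).map
              (H.subgroupOf K).subtype).map K.subtype
        · exact kernel_top_edge hle hC hCk hsolvN hD hDk hr hs hrs hrH
            (Subgroup.index_eq_card K ▸ ((Nat.Prime.dvd_mul hs).1 hsd).resolve_left hsH) hsH hsC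
      by_cases hpH : p ∣ Nat.card H
      · exact key hp hq hpq hpH hqb ((side q hq hqG).1 hqb)
      · have hpa : p ∣ Nat.card (G ⧸ K) :=
          ((Nat.Prime.dvd_mul hp).1 ((side p hp hpG).1 hpb)).resolve_left hpH
        by_cases hqH : q ∣ Nat.card H
        · obtain ⟨g, hg⟩ := key hq hp hpq.symm hqH hpb (dvd_mul_of_dvd_right hpa _)
          exact ⟨g, hg.trans (mul_comm q p)⟩
        · have hqa : q ∣ Nat.card (G ⧸ K) :=
            ((Nat.Prime.dvd_mul hq).1 ((side q hq hqG).1 hqb)).resolve_left hqH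
          obtain ⟨w, hw⟩ := hcycT.exists_ofOrder_eq_natCard
          obtain ⟨g, rfl⟩ := QuotientGroup.mk'_surjective K w
          refine exists_order_dvd (g := g) (dvd_trans ?_ (orderOf_map_dvd (QuotientGroup.mk' K) g))
          rw [hw]
          exact hcopq.mul_dvd_of_dvd_of_dvd hpa hqa

end Cfsg.Agent.S4001
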