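import Cfsg.Statements.S4003
import Cfsg.Agent.Lib.GS.MillerCount

set_option autoImplicit false
open Cfsg

namespace Cfsg.Agent.S4003

/-- A group acts on the pairs of a subgroup and an element satisfying an invariant condition. -/
@[reducible] def conjPairAction {G : Type*} [Group G] (P : Subgroup G) (W : Subgroup G → G → Prop)
    (hW : ∀ (g : G) C y, W C y → W (C.map (MulAut.conj g).toMonoidHom) (g * y * g⁻¹)) :
    MulAction ↥P {w : Subgroup G × G // W w.1 w.2} where
  smul g w := ⟨(w.1.1.map (MulAut.conj (g : G)).toMonoidHom, (g : G) * w.1.2 * (g : G)⁻¹), hW g _ _ w.2⟩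
  one_smul w := Subtype.ext (Prod.ext
    (by show w.1.1.map (MulAut.conj ((1 : ↥P) : G)).toMonoidHom = w.1.1
        ext x; simp)
    (by show ((1 : ↥P) : G) * w.1.2 * ((1 : ↥P) : G)⁻¹ = w.1.2; simp))
  mul_smul g h w := Subtype.ext (Prod.ext
    (by show w.1.1.map (MulAut.conj ((g * h : ↥P) : G)).toMonoidHom =
          (w.1.1.map (MulAut.conj (h : G)).toMonoidHom).map (MulAut.conj (g : G)).toMonoidHom
        rw [Subgroup.map_map]; congr 1; ext x; simp [mul_assoc])
    (by show ((g * h : ↥P) : G) * w.1.2 * ((g * h : ↥P) : G)⁻¹ = (g : G) * ((h : G) * w.1.2 * (h : G)⁻¹) * (g : G)⁻¹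
        simp [mul_assoc]))

/-- The number of cyclic subgroups of order `p ^ s` of a noncyclic `p`-group is a multiple of `p`. -/
theorem dvd_card_cyclic {G : Type*} [Group G] [Finite G] {p : ℕ} [hp : Fact p.Prime] (hp2 : p ≠ 2)
    (hG : IsPGroup p G) (hnc : ¬ IsCyclic G) (s : ℕ) (hs : 1 < s) :
    p ∣ Nat.card {H : Subgroup G // IsCyclic H ∧ Nat.card H = p ^ s} := by
  have h := Lib.GS.MillerCount.dvd_card_orderOf hp2 hG hnc s hs
  rw [Lib.GS.MillerCount.card_orderOf_eq, Nat.totient_prime_pow hp.out (by omega), mul_assoc] at h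
  have h1 : p ^ (s - 1) * p ∣ p ^ (s - 1) * ((p - 1) * Nat.card {H : Subgroup G // IsCyclic H ∧ Nat.card H = p ^ s}) := by
    rwa [← pow_succ, Nat.sub_add_cancel (by omega)]
  refine ((hp.out.dvd_mul).1 (Nat.dvd_of_mul_dvd_mul_left (pow_pos hp.out.pos _) h1)).resolve_left ?_
  exact fun h2 => absurd (Nat.le_of_dvd (by have := hp.out.two_le; omega) h2) (by have := hp.out.two_le; omega)


/-- Let G be a finite group, p an odd prime dividing the order of G whose Sylow p-subgroups are not cyclic, and n = p^s·m with s > 1 and m coprime to p. Then the number of elements of G of order n is a multiple of p^s. -/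
theorem result {G : Type*} [Group G] [Finite G] (p : ℕ) [Fact p.Prime] (hodd : p ≠ 2) (hpG : p ∣ Nat.card G)
    (P : Sylow p G) (hP : ¬ IsCyclic ↥(P : Subgroup G)) (s m : ℕ) (hs : 1 < s) (hm : Nat.Coprime p m) :
    p ^ s ∣ Nat.card {g : G // orderOf g = p ^ s * m} := by
  classical
  have hp := (Fact.out : p.Prime)
  set W : Subgroup G → G → Prop := fun C y =>
    (IsCyclic C ∧ Nat.card C = p ^ s) ∧ orderOf y = m ∧ y ∈ Subgroup.centralizer (C : Set G) with hWdef
  have hW : ∀ (g : G) C y, W C y → W (C.map (MulAut.conj g).toMonoidHom) (g * y * g⁻¹) := by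
    rintro g C y ⟨⟨hc, hcard⟩, hy, hyC⟩
    refine ⟨⟨isCyclic_of_surjective ((MulAut.conj g).toMonoidHom.subgroupMap C) ((MulAut.conj g).toMonoidHom.subgroupMap_surjective C),
      by rw [Subgroup.card_map_of_injective (MulAut.conj g).injective, hcard]⟩, ?_, ?_⟩
    · rw [← hy]; exact MulEquiv.orderOf_eq (MulAut.conj g) y
    · rintro _ ⟨c, hc, rfl⟩
      show g * c * g⁻¹ * (g * y * g⁻¹) = g * y * g⁻¹ * (g * c * g⁻¹)
      calc g * c * g⁻¹ * (g * y * g⁻¹) = g * (c * y) * g⁻¹ := by group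
        _ = g * (y * c) * g⁻¹ := by rw [hyC c hc]
        _ = _ := by group
  -- the pairs are a multiple of `p`
  have hWp : p ∣ Nat.card {w : Subgroup G × G // W w.1 w.2} := by
    letI := conjPairAction (P : Subgroup G) W hW
    refine (Nat.modEq_zero_iff_dvd.1 ((P.isPGroup'.card_modEq_card_fixedPoints _).trans (Nat.modEq_zero_iff_dvd.2 ?_)))
    set Nrm := {H : Subgroup ↥(P : Subgroup G) // (IsCyclic H ∧ Nat.card H = p ^ s) ∧ H.Normal}
    set Yc := {y : G // orderOf y = m ∧ y ∈ Subgroup.centralizer ((P : Subgroup G) : Set G)}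
    have hfix : ∀ w : {w : Subgroup G × G // W w.1 w.2}, w ∈ MulAction.fixedPoints ↥(P : Subgroup G) {w : Subgroup G × G // W w.1 w.2} ↔
        (P : Subgroup G) ≤ Subgroup.normalizer (w.1.1 : Set G) ∧ w.1.2 ∈ Subgroup.centralizer ((P : Subgroup G) : Set G) := by
      intro w
      constructor
      · intro h
        refine ⟨fun g hg => Subgroup.mem_normalizer_iff_map_conj_eq.2 (congrArg (fun v => v.1.1) (h ⟨g, hg⟩)), fun g hg => ?_⟩
        have e : g * w.1.2 * g⁻¹ = w.1.2 := congrArg (fun v => v.1.2) (h ⟨g, hg⟩)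
        exact mul_inv_eq_iff_eq_mul.1 e
      · rintro ⟨h1, h2⟩ g
        refine Subtype.ext (Prod.ext (Subgroup.mem_normalizer_iff_map_conj_eq.1 (h1 g.2)) ?_)
        show (g : G) * w.1.2 * (g : G)⁻¹ = w.1.2
        rw [h2 g g.2, mul_inv_cancel_right]
    have hle : ∀ w : {w : Subgroup G × G // W w.1 w.2}, (P : Subgroup G) ≤ Subgroup.normalizer (w.1.1 : Set G) →
        w.1.1 ≤ (P : Subgroup G) := by
      intro w h
      have hC : IsPGroup p w.1.1 := IsPGroup.of_card w.2.1.2
      exact le_sup_right.trans (P.is_maximal' (P.isPGroup'.to_sup_of_normal_right' hC h) le_sup_left).le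
    let e : MulAction.fixedPoints ↥(P : Subgroup G) {w : Subgroup G × G // W w.1 w.2} ≃ Nrm × Yc :=
      { toFun := fun w => (⟨w.1.1.1.subgroupOf (P : Subgroup G),
          ⟨(Subgroup.subgroupOfEquivOfLe (hle _ ((hfix _).1 w.2).1)).isCyclic.2 w.1.2.1.1,
            (Nat.card_congr (Subgroup.subgroupOfEquivOfLe (hle _ ((hfix _).1 w.2).1)).toEquiv).trans w.1.2.1.2⟩,
          (Subgroup.normal_subgroupOf_iff_le_normalizer (hle _ ((hfix _).1 w.2).1)).2 ((hfix _).1 w.2).1⟩,
          ⟨w.1.1.2, w.1.2.2.1, ((hfix _).1 w.2).2⟩)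
        invFun := fun v => ⟨⟨(v.1.1.map (P : Subgroup G).subtype, v.2.1), by
          refine ⟨⟨(v.1.1.equivMapOfInjective _ (P : Subgroup G).subtype_injective).isCyclic.1 v.1.2.1.1, ?_⟩, v.2.2.1,
            Subgroup.centralizer_le (SetLike.coe_subset_coe.2 (Subgroup.map_subtype_le v.1.1)) v.2.2.2⟩
          rw [Subgroup.card_map_of_injective (P : Subgroup G).subtype_injective, v.1.2.1.2]⟩, by
          refine (hfix _).2 ⟨?_, v.2.2.2⟩
          have := v.1.2.2
          refine (Subgroup.normal_subgroupOf_iff_le_normalizer (Subgroup.map_subtype_le v.1.1)).1 ?_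
          rw [Subgroup.subgroupOf, Subgroup.comap_map_eq_self_of_injective (P : Subgroup G).subtype_injective]
          exact v.1.2.2⟩
        left_inv := fun w => Subtype.ext (Subtype.ext (Prod.ext
          (Subgroup.map_subgroupOf_eq_of_le (hle _ ((hfix _).1 w.2).1)) rfl))
        right_inv := fun v => Prod.ext (Subtype.ext
          (Subgroup.comap_map_eq_self_of_injective (P : Subgroup G).subtype_injective _)) rfl }
    rw [Nat.card_congr e, Nat.card_prod]
    refine Dvd.dvd.mul_right ?_ _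
    -- normal cyclic subgroups of `P`
    have h0 := dvd_card_cyclic hodd P.isPGroup' hP s hs
    letI : MulAction ↥(P : Subgroup G) {H : Subgroup ↥(P : Subgroup G) // IsCyclic H ∧ Nat.card H = p ^ s} :=
      { smul := fun g H => ⟨H.1.map (MulAut.conj g).toMonoidHom, (H.1.equivMapOfInjective _ (MulAut.conj g).injective).isCyclic.1 H.2.1,
          (Subgroup.card_map_of_injective (MulAut.conj g).injective).trans H.2.2⟩
        one_smul := fun H => Subtype.ext (by show H.1.map _ = H.1; ext x; simp)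
        mul_smul := fun g h H => Subtype.ext (by
          show H.1.map _ = (H.1.map _).map _
          rw [Subgroup.map_map]; congr 1; ext x; simp [mul_assoc]) }
    have h1 := Nat.modEq_zero_iff_dvd.1 ((P.isPGroup'.card_modEq_card_fixedPoints
      {H : Subgroup ↥(P : Subgroup G) // IsCyclic H ∧ Nat.card H = p ^ s}).symm.trans (Nat.modEq_zero_iff_dvd.2 h0))
    suffices e' : Nat.card Nrm = Nat.card (MulAction.fixedPoints ↥(P : Subgroup G) {H : Subgroup ↥(P : Subgroup G) // IsCyclic H ∧ Nat.card H = p ^ s}) by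
      rw [e']; exact h1
    refine Nat.card_congr (show Nrm ≃ MulAction.fixedPoints ↥(P : Subgroup G) {H : Subgroup ↥(P : Subgroup G) // IsCyclic H ∧ Nat.card H = p ^ s} from
      { toFun := fun H => ⟨⟨H.1, H.2.1⟩, fun g => Subtype.ext ?_⟩
        invFun := fun H => ⟨H.1.1, H.1.2, ?_⟩
        left_inv := fun H => rfl
        right_inv := fun H => rfl })
    · exact Subgroup.mem_normalizer_iff_map_conj_eq.1 ((Subgroup.normalizer_eq_top_iff.2 H.2.2).ge (Subgroup.mem_top g))
    · refine Subgroup.normalizer_eq_top_iff.1 (eq_top_iff.2 fun g _ => Subgroup.mem_normalizer_iff_map_conj_eq.2 ?_)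
      exact congrArg Subtype.val (H.2 g)
  -- counting the elements
  set X := {q : G × G // orderOf q.1 = p ^ s ∧ orderOf q.2 = m ∧ Commute q.1 q.2}
  have hcop : Nat.Coprime (p ^ s) m := hm.pow_left s
  have hXG : Nat.card {g : G // orderOf g = p ^ s * m} = Nat.card X := by
    obtain ⟨a, ha1, ha2⟩ := Nat.chineseRemainder hcop 1 0
    obtain ⟨b, hb1, hb2⟩ := Nat.chineseRemainder hcop 0 1
    have hab : ∀ g : G, orderOf g = p ^ s * m → g ^ a * g ^ b = g := by
      intro g hg
      rw [← pow_add]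
      conv_rhs => rw [← pow_one g]
      rw [pow_eq_pow_iff_modEq, hg, ← Nat.modEq_and_modEq_iff_modEq_mul hcop]
      exact ⟨by simpa using ha1.add hb1, by simpa using ha2.add hb2⟩
    refine Nat.card_congr
      { toFun := fun g => ⟨(g.1 ^ a, g.1 ^ b), ?_, ?_, Commute.pow_pow_self _ _ _⟩
        invFun := fun q => ⟨q.1.1 * q.1.2, by
          rw [q.2.2.2.orderOf_mul_eq_mul_orderOf_of_coprime (by rw [q.2.1, q.2.2.1]; exact hcop), q.2.1, q.2.2.1]⟩
        left_inv := fun g => Subtype.ext (hab g.1 g.2)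
        right_inv := fun q => ?_ }
    all_goals dsimp only
    · obtain ⟨c, hc⟩ : m ∣ a := Nat.modEq_zero_iff_dvd.1 ha2
      rw [hc, pow_mul]
      have ho : orderOf (g.1 ^ m) = p ^ s := by
        rw [orderOf_pow, g.2, Nat.gcd_mul_left_left, Nat.mul_div_cancel _ (Nat.pos_of_ne_zero (fun h0 => by
          have h3 : orderOf g.1 = p ^ s * 0 := g.2.trans (congrArg (p ^ s * ·) h0); rw [mul_zero] at h3; exact (orderOf_pos g.1).ne' h3))]
      rw [orderOf_pow, ho]
      have hcc : Nat.gcd (p ^ s) c = 1 := by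
        have h1 : Nat.gcd (p ^ s) a = 1 := by
          rw [Nat.gcd_comm]; exact (Nat.ModEq.gcd_eq ha1).trans (Nat.gcd_one_left _)
        exact Nat.Coprime.coprime_dvd_right ⟨m, (mul_comm _ _).trans rfl⟩ (hc ▸ h1 : (p ^ s).Coprime (m * c)) |>.gcd_eq_one
      rw [hcc, Nat.div_one]
    · obtain ⟨c, hc⟩ : p ^ s ∣ b := Nat.modEq_zero_iff_dvd.1 hb1
      rw [hc, pow_mul]
      have ho : orderOf (g.1 ^ p ^ s) = m := by
        rw [orderOf_pow, g.2, Nat.gcd_mul_right_left, Nat.mul_div_cancel_left _ (pow_pos hp.pos s)]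
      rw [orderOf_pow, ho]
      have hcc : Nat.gcd m c = 1 := by
        have h1 : Nat.gcd m b = 1 := by
          rw [Nat.gcd_comm]; exact (Nat.ModEq.gcd_eq hb2).trans (Nat.gcd_one_left _)
        exact Nat.Coprime.coprime_dvd_right ⟨p ^ s, (mul_comm _ _).trans rfl⟩ (hc ▸ h1 : m.Coprime (p ^ s * c)) |>.gcd_eq_one
      rw [hcc, Nat.div_one]
    · refine Subtype.ext (Prod.ext ?_ ?_)
      · show (q.1.1 * q.1.2) ^ a = q.1.1
        rw [q.2.2.2.mul_pow]
        conv_rhs => rw [← mul_one q.1.1, ← pow_one q.1.1]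
        congr 1
        · rw [pow_eq_pow_iff_modEq, q.2.1]; exact ha1
        · rw [← orderOf_dvd_iff_pow_eq_one, q.2.2.1]; exact Nat.modEq_zero_iff_dvd.1 ha2
      · show (q.1.1 * q.1.2) ^ b = q.1.2
        rw [q.2.2.2.mul_pow]
        conv_rhs => rw [← one_mul q.1.2, ← pow_one q.1.2]
        congr 1
        · rw [← orderOf_dvd_iff_pow_eq_one, q.2.1]; exact Nat.modEq_zero_iff_dvd.1 hb1
        · rw [pow_eq_pow_iff_modEq, q.2.2.1]; exact hb2
  rw [hXG]
  -- the fibres over the pairs
  let f : X → {w : Subgroup G × G // W w.1 w.2} := fun q => ⟨(Subgroup.zpowers q.1.1, q.1.2),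
    ⟨inferInstance, (Nat.card_zpowers _).trans q.2.1⟩, q.2.2.1, fun c hc => by
      obtain ⟨k, rfl⟩ := Subgroup.mem_zpowers_iff.1 hc
      exact (q.2.2.2.zpow_left k).eq⟩
  have hfib : ∀ w, Nat.card {q // f q = w} = (p ^ s).totient := by
    intro w
    haveI := w.2.1.1
    let e : {q // f q = w} ≃ {x : ↥w.1.1 // orderOf x = p ^ s} :=
      { toFun := fun q => ⟨⟨q.1.1.1, (show Subgroup.zpowers q.1.1.1 ≤ w.1.1 from (congrArg (fun v => v.1.1) q.2).le) (Subgroup.mem_zpowers _)⟩,
          (Subgroup.orderOf_mk _ _).trans q.1.2.1⟩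
        invFun := fun x => ⟨⟨(x.1.1, w.1.2), by rw [Subgroup.orderOf_coe]; exact x.2, w.2.2.1, w.2.2.2 _ x.1.2⟩, by
          refine Subtype.ext (Prod.ext (Subgroup.eq_of_le_of_card_ge (Subgroup.zpowers_le.2 x.1.2) ?_) rfl)
          show Nat.card ↥w.1.1 ≤ Nat.card (Subgroup.zpowers (x.1 : G))
          rw [w.2.1.2, Nat.card_zpowers, Subgroup.orderOf_coe, x.2]⟩
        left_inv := fun q => Subtype.ext (Subtype.ext (Prod.ext rfl (congrArg (fun v => v.1.2) q.2).symm))
        right_inv := fun x => rfl }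
    rw [Nat.card_congr e]
    have := Fintype.ofFinite ↥w.1.1
    rw [Nat.card_eq_fintype_card, Fintype.card_subtype]
    exact IsCyclic.card_orderOf_eq_totient (by rw [← Nat.card_eq_fintype_card, w.2.1.2])
  have := Fintype.ofFinite {w : Subgroup G × G // W w.1 w.2}
  rw [← Nat.card_congr (Equiv.sigmaFiberEquiv f), Nat.card_sigma]
  simp only [hfib, Finset.sum_const, Finset.card_univ, smul_eq_mul]
  rw [← Nat.card_eq_fintype_card, Nat.totient_prime_pow hp (by omega), mul_comm, mul_assoc]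
  conv_lhs => rw [show s = s - 1 + 1 by omega, pow_succ]
  exact Nat.mul_dvd_mul_left _ (dvd_mul_of_dvd_right hWp _)

end Cfsg.Agent.S4003
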