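import Cfsg.Statements.S4004
import Cfsg.Agent.Lib.GS.FrobeniusCount
import Cfsg.Agent.S0144

set_option autoImplicit false
open Cfsg

namespace Cfsg.Agent.S4004

open Subgroup
open scoped Pointwise commutatorElement

universe u

theorem eq_one_of_pow_pow {H : Type*} [Group H] {x : H} {a b : ℕ} (h : Nat.Coprime a b)
    (ha : x ^ a = 1) (hb : x ^ b = 1) : x = 1 := by
  have := pow_gcd_eq_one.2 ⟨ha, hb⟩
  rwa [h.gcd_eq_one, pow_one] at this

variable {G : Type u} [Group G] [Finite G]

/-- The number of elements of a given order. -/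
noncomputable def N (G : Type u) [Group G] (m : ℕ) : ℕ := Nat.card {g : G // orderOf g = m}

theorem card_roots (n : ℕ) (hn : 0 < n) :
    Nat.card {g : G // g ^ n = 1} = ∑ d ∈ n.divisors, N G d := by
  classical
  haveI := Fintype.ofFinite G
  simp only [N, Nat.card_eq_fintype_card, Fintype.card_subtype]
  rw [Finset.card_eq_sum_card_fiberwise (f := orderOf) (t := n.divisors) (fun g hg => by
    simp only [Finset.coe_filter, Set.mem_ofPred_eq, Finset.mem_univ, true_and] at hg
    exact Nat.mem_divisors.2 ⟨orderOf_dvd_of_pow_eq_one hg, hn.ne'⟩)]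
  refine Finset.sum_congr rfl fun d hd => ?_
  congr 1
  ext g
  simp only [Finset.mem_filter, Finset.mem_univ, true_and]
  exact ⟨fun h => h.2, fun h => ⟨orderOf_dvd_iff_pow_eq_one.1 (h ▸ (Nat.mem_divisors.1 hd).1), h⟩⟩

theorem dvd_sum_N {n : ℕ} (hn : n ∣ Nat.card G) : n ∣ ∑ d ∈ n.divisors, N G d := by
  have hpos : 0 < n := Nat.pos_of_dvd_of_pos hn Nat.card_pos
  rw [← card_roots n hpos]
  exact Cfsg.Agent.Lib.GS.FrobeniusCount.dvd_card_roots _ G rfl n hn

theorem N_one : N G 1 = 1 := by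
  rw [N, Nat.card_eq_one_iff_unique]
  exact ⟨⟨fun a b => Subtype.ext ((orderOf_eq_one_iff.1 a.2).trans (orderOf_eq_one_iff.1 b.2).symm)⟩,
    ⟨⟨1, orderOf_one⟩⟩⟩

theorem N_ne_zero_iff {m : ℕ} : N G m ≠ 0 ↔ ∃ g : G, orderOf g = m := by
  rw [N, Nat.card_ne_zero]
  exact ⟨fun h => ⟨h.1.some.1, h.1.some.2⟩, fun ⟨g, hg⟩ => ⟨⟨⟨g, hg⟩⟩, inferInstance⟩⟩

theorem N_prime_ne_zero {p : ℕ} (hp : p.Prime) (hd : p ∣ Nat.card G) : N G p ≠ 0 := by
  haveI := Fact.mk hp
  exact N_ne_zero_iff.2 (exists_prime_orderOf_dvd_card' p hd)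

theorem two_le_N (hodd : Odd (Nat.card G)) {m : ℕ} (hm : m ≠ 1) (h : N G m ≠ 0) : 2 ≤ N G m := by
  obtain ⟨g, hg⟩ := N_ne_zero_iff.1 h
  haveI : Nontrivial {g : G // orderOf g = m} := by
    refine ⟨⟨g, hg⟩, ⟨g⁻¹, by rwa [orderOf_inv]⟩, fun e => hm ?_⟩
    have h2 : g ^ 2 = 1 := by
      rw [pow_two]
      nth_rewrite 1 [show g = g⁻¹ from congrArg Subtype.val e]
      exact inv_mul_cancel g
    have hd := Nat.dvd_gcd (orderOf_dvd_of_pow_eq_one h2) (orderOf_dvd_natCard g)
    rw [show Nat.gcd 2 (Nat.card G) = 1 from (Nat.coprime_two_left.2 hodd)] at hd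
    rw [← hg]; exact Nat.dvd_one.1 hd
  exact Finite.one_lt_card

/-- `p` divides the number of elements of order `p ^ i`, `i ≥ 2`. -/
theorem dvd_N_pow {p : ℕ} (hp : p.Prime) {i : ℕ} (hi : 2 ≤ i) : p ∣ N G (p ^ i) := by
  classical
  haveI := Fact.mk hp
  by_contra hc
  let X := {g : G // orderOf g = p ^ i}
  haveI : Fintype X := Fintype.ofFinite X
  set k := 1 + p ^ (i - 1) with hk
  have hcop : ∀ g : X, Nat.Coprime (orderOf g.1) k := fun g => by
    rw [g.2]
    refine Nat.Coprime.pow_left i ((hp.coprime_iff_not_dvd).2 fun h => hp.not_dvd_one ?_)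
    exact (Nat.dvd_add_left (dvd_pow_self p (by omega : i - 1 ≠ 0))).1 h
  have hkp : k ^ p ≡ 1 [MOD p ^ i] := by
    have h := Nat.ModEq.pow_totient (x := k) (n := p ^ i)
    have h2 : ((k : ZMod (p ^ i)) ^ p = 1) := by
      have hz : ((p : ZMod (p ^ i)) ^ i) = 0 := by rw [← Nat.cast_pow, ZMod.natCast_self]
      have hsq : ((p : ZMod (p ^ i)) ^ (i - 1)) * ((p : ZMod (p ^ i)) ^ (i - 1)) = 0 := by
        rw [← pow_add, show i - 1 + (i - 1) = i + (i - 2) by omega, pow_add, hz, zero_mul]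
      have key : ∀ n : ℕ, (1 + (p : ZMod (p ^ i)) ^ (i - 1)) ^ n =
          1 + (n : ZMod (p ^ i)) * (p : ZMod (p ^ i)) ^ (i - 1) := by
        intro n
        induction n with
        | zero => simp
        | succ n ih =>
          rw [pow_succ, ih, Nat.cast_succ]
          linear_combination (n : ZMod (p ^ i)) * hsq
      rw [hk, Nat.cast_add, Nat.cast_one, Nat.cast_pow, key p, ← pow_succ',
        show i - 1 + 1 = i by omega, hz, add_zero]
    rw [← ZMod.natCast_eq_natCast_iff, Nat.cast_pow, h2, Nat.cast_one]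
  let f : X → X := fun g => ⟨g.1 ^ k, by rw [(hcop g).orderOf_pow, g.2]⟩
  have hf : ∀ (n : ℕ) (g : X), ((f^[n]) g).1 = g.1 ^ (k ^ n) := by
    intro n
    induction n with
    | zero => intro g; simp
    | succ n ih =>
      intro g
      rw [Function.iterate_succ', Function.comp_apply]
      show ((f^[n]) g).1 ^ k = _
      rw [ih, ← pow_mul, pow_succ]
  have hfp : ∀ g : X, (f^[p]) g = g := fun g => Subtype.ext (by
    rw [hf]
    conv_rhs => rw [← pow_one g.1]
    exact pow_eq_pow_iff_modEq.2 (g.2.symm ▸ hkp))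
  have hbij : Function.Bijective f := by
    refine (Finite.injective_iff_bijective).1 fun a b e => ?_
    rw [← hfp a, ← hfp b, show p = (p - 1) + 1 from (Nat.sub_add_cancel hp.one_le).symm,
      Function.iterate_succ_apply, Function.iterate_succ_apply, e]
  let σ : Equiv.Perm X := Equiv.ofBijective f hbij
  have hσ : σ ^ p ^ 1 = 1 := Equiv.ext fun g => by
    rw [pow_one, Equiv.Perm.coe_pow]; exact hfp g
  have hc' : ¬ p ∣ Fintype.card X := by rwa [← Nat.card_eq_fintype_card]
  obtain ⟨g, hg⟩ := Equiv.Perm.exists_fixed_point_of_prime hc' hσ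
  have he : g.1 ^ k = g.1 := congrArg Subtype.val hg
  have h1 : g.1 ^ (p ^ (i - 1)) = 1 := by
    rw [hk, pow_add, pow_one] at he
    exact mul_eq_left.1 he
  have hd := orderOf_dvd_of_pow_eq_one h1
  rw [g.2, Nat.pow_dvd_pow_iff_le_right hp.one_lt] at hd
  omega

section values

variable {p q r : ℕ}

theorem divisors_two (hp : p.Prime) (hq : q.Prime) : (p * q).divisors = {1, p, q, p * q} := by
  ext d
  simp only [Nat.mem_divisors, ne_eq, mul_eq_zero, Finset.mem_insert, Finset.mem_singleton]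
  constructor
  · rintro ⟨h, -⟩
    obtain ⟨a, b, ha, hb, rfl⟩ := Nat.dvd_mul.1 h
    rcases (Nat.dvd_prime hp).1 ha with rfl | rfl <;> rcases (Nat.dvd_prime hq).1 hb with rfl | rfl <;> simp
  · intro h
    refine ⟨?_, by simp [hp.ne_zero, hq.ne_zero]⟩
    rcases h with rfl | rfl | rfl | rfl <;> simp

theorem dvd_pair (hp : p.Prime) (hq : q.Prime) (hpq : p ≠ q) (hpd : p ∣ Nat.card G)
    (hqd : q ∣ Nat.card G) : p * q ∣ 1 + N G p + N G q + N G (p * q) := by
  have hd := dvd_sum_N (G := G) ((Nat.coprime_primes hp hq).2 hpq |>.mul_dvd_of_dvd_of_dvd hpd hqd)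
  have h1 := hp.two_le
  have h2 := hq.two_le
  have h3 : p * 1 < p * q := Nat.mul_lt_mul_of_pos_left (by omega) (by omega)
  have h4 : 1 * q < p * q := Nat.mul_lt_mul_of_pos_right (by omega) (by omega)
  rw [mul_one] at h3; rw [one_mul] at h4
  rw [divisors_two hp hq, Finset.sum_insert (by simp; omega), Finset.sum_insert (by simp [hpq]; omega),
    Finset.sum_insert (by simp; omega), Finset.sum_singleton, N_one] at hd
  convert hd using 1
  ring

theorem dvd_triple (hp : p.Prime) (hq : q.Prime) (hr : r.Prime) (hpq : p ≠ q) (hpr : p ≠ r) (hqr : q ≠ r)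
    (hpd : p ∣ Nat.card G) (hqd : q ∣ Nat.card G) (hrd : r ∣ Nat.card G) :
    p * q * r ∣ 1 + N G p + N G q + N G r + N G (p * q) + N G (p * r) + N G (q * r) + N G (p * q * r) := by
  classical
  have c1 : Nat.Coprime (p * q) r :=
    Nat.Coprime.mul_left ((Nat.coprime_primes hp hr).2 hpr) ((Nat.coprime_primes hq hr).2 hqr)
  have hd := dvd_sum_N (G := G)
    (c1.mul_dvd_of_dvd_of_dvd (((Nat.coprime_primes hp hq).2 hpq).mul_dvd_of_dvd_of_dvd hpd hqd) hrd)
  rw [Nat.Coprime.divisors_mul c1, Finset.sum_map] at hd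
  replace hd : p * q * r ∣ ∑ x ∈ ((p * q).divisors ×ˢ r.divisors).attach, N G (x.1.1 * x.1.2) := hd
  rw [Finset.sum_attach (s := (p * q).divisors ×ˢ r.divisors) (f := fun x => N G (x.1 * x.2)),
    Finset.sum_product] at hd
  rw [Finset.sum_congr rfl (fun d _ => by rw [hr.divisors, Finset.sum_pair hr.one_lt.ne, mul_one])] at hd
  rw [Finset.sum_add_distrib] at hd
  have h1 := hp.two_le
  have h2 := hq.two_le
  have h3 : p * 1 < p * q := Nat.mul_lt_mul_of_pos_left (by omega) (by omega)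
  have h4 : 1 * q < p * q := Nat.mul_lt_mul_of_pos_right (by omega) (by omega)
  rw [mul_one] at h3; rw [one_mul] at h4
  rw [divisors_two hp hq, Finset.sum_insert (by simp; omega), Finset.sum_insert (by simp [hpq]; omega),
    Finset.sum_insert (by simp; omega), Finset.sum_singleton, N_one] at hd
  rw [Finset.sum_insert (by simp; omega), Finset.sum_insert (by simp [hpq]; omega),
    Finset.sum_insert (by simp; omega), Finset.sum_singleton, one_mul] at hd
  convert hd using 1
  ring

end values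

section action

variable {V : Subgroup G} [V.Normal] [hV : IsMulCommutative V]

open scoped IsMulCommutative

/-- If `(v h) ^ n = h ^ n`, the product of the conjugates of `v` by powers of `h` is one. -/
theorem prod_eq_one_of_pow {h : G} {n : ℕ} (v : V) (hpow : ((v : G) * h) ^ n = h ^ n) :
    ∏ j ∈ Finset.range n, MulAut.conjNormal (h ^ j) v = 1 := by
  have key : ∀ m : ℕ, ((v : G) * h) ^ m =
      ((∏ j ∈ Finset.range m, MulAut.conjNormal (h ^ j) v : V) : G) * h ^ m := by
    intro m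
    induction m with
    | zero => simp
    | succ m ih =>
      rw [pow_succ, ih, Finset.prod_range_succ, Subgroup.coe_mul, MulAut.conjNormal_apply, pow_succ]
      group
  rw [key n] at hpow
  exact Subtype.ext (mul_eq_right.1 hpow)

theorem eq_one_of_action {π τ : G} {p r : ℕ} (hp : p.Prime) (hr : r.Prime) (hπ : orderOf π = p)
    (hn : τ * π * τ⁻¹ ∈ zpowers π) (hτ : τ ∉ zpowers π)
    (hfix : ∀ w : V, MulAut.conjNormal π w = w → w = 1)
    (hh : ∀ i : ℕ, (π ^ i * τ) ^ r = 1) (v : V)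
    (hprod : ∀ i : ℕ, ((v : G) * (π ^ i * τ)) ^ r = 1) : v ^ p = 1 := by
  classical
  haveI : NeZero p := ⟨hp.ne_zero⟩
  have horb : ∀ w : V, ∏ i ∈ Finset.range p, MulAut.conjNormal (π ^ i) w = 1 := by
    intro w
    refine hfix _ ?_
    rw [map_prod]
    have h1 : ∀ i : ℕ, MulAut.conjNormal π (MulAut.conjNormal (π ^ i) w) = MulAut.conjNormal (π ^ (i + 1)) w := by
      intro i; rw [← MulAut.mul_apply, ← map_mul, ← pow_succ']
    simp only [h1]
    have e1 := Finset.prod_range_succ' (fun i => MulAut.conjNormal (π ^ i) w) p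
    have e2 := Finset.prod_range_succ (fun i => MulAut.conjNormal (π ^ i) w) p
    rw [e2] at e1
    have hp1 : π ^ p = 1 := hπ ▸ pow_orderOf_eq_one π
    simp only [hp1, pow_zero] at e1
    exact (mul_right_cancel e1).symm
  have hconj : ∀ x ∈ zpowers π, τ * x * τ⁻¹ ∈ zpowers π := by
    rintro x ⟨m, rfl⟩
    show τ * π ^ m * τ⁻¹ ∈ zpowers π
    rw [← conj_zpow]
    exact zpow_mem hn m
  have hcoset : ∀ j i : ℕ, (π ^ i * τ) ^ j * (τ ^ j)⁻¹ ∈ zpowers π := by
    intro j i
    induction j with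
    | zero => simp
    | succ j ih =>
      have e : (π ^ i * τ) ^ (j + 1) * (τ ^ (j + 1))⁻¹ =
          π ^ i * (τ * ((π ^ i * τ) ^ j * (τ ^ j)⁻¹) * τ⁻¹) := by
        rw [pow_succ' (π ^ i * τ), pow_succ' τ]; group
      rw [e]
      exact mul_mem (pow_mem (mem_zpowers π) i) (hconj _ ih)
  have hswap : ∏ j ∈ Finset.range r, ∏ i ∈ Finset.range p, MulAut.conjNormal ((π ^ i * τ) ^ j) v = 1 := by
    rw [Finset.prod_comm]
    exact Finset.prod_eq_one fun i _ => prod_eq_one_of_pow v (by rw [hprod, hh])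
  rw [Finset.prod_eq_single 0] at hswap
  · simpa using hswap
  · intro j hj hj0
    rw [Finset.mem_range] at hj
    have hinj : Set.InjOn (fun i : ℕ => (π ^ i * τ) ^ j) (Finset.range p : Set ℕ) := by
      intro a ha b hb hab
      simp only [Finset.coe_range, Set.mem_Iio] at ha hb
      have hcop : Nat.Coprime r j := (hr.coprime_iff_not_dvd).2 fun h => by
        have := Nat.le_of_dvd (Nat.pos_of_ne_zero hj0) h; omega
      have h1 : ∀ i, Nat.Coprime (orderOf (π ^ i * τ)) j := fun i =>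
        hcop.coprime_dvd_left (orderOf_dvd_of_pow_eq_one (hh i))
      obtain ⟨m, hm⟩ : ∃ m, j * m ≡ 1 [MOD r] := by
        refine ⟨j ^ (Nat.totient r - 1), ?_⟩
        rw [← pow_succ', Nat.sub_add_cancel (Nat.totient_pos.2 hr.pos)]
        exact Nat.ModEq.pow_totient hcop.symm
      have h2 : ∀ i, ((π ^ i * τ) ^ j) ^ m = π ^ i * τ := fun i => by
        rw [← pow_mul]
        conv_rhs => rw [← pow_one (π ^ i * τ)]
        exact pow_eq_pow_iff_modEq.2 (hm.of_dvd (orderOf_dvd_of_pow_eq_one (hh i)))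
      have h3 := congrArg (· ^ m) hab
      simp only [h2] at h3
      have h4 := mul_right_cancel h3
      exact pow_injOn_Iio_orderOf (by rwa [hπ]) (by rwa [hπ]) h4
    have hall : ∀ i, ∃ k, k < p ∧ (π ^ i * τ) ^ j = π ^ k * τ ^ j := by
      intro i
      obtain ⟨z, hz⟩ := hcoset j i
      obtain ⟨k, hk⟩ := Finset.mem_image.1 ((mem_zpowers_iff_mem_range_orderOf).1 (zpow_mem (mem_zpowers π) z))
      simp only [Finset.mem_range, hπ] at hk
      refine ⟨k, hk.1, ?_⟩
      rw [hk.2, show π ^ z = (π ^ i * τ) ^ j * (τ ^ j)⁻¹ from hz, inv_mul_cancel_right]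
    choose k hkp hk using hall
    have hkinj : Set.InjOn k (Finset.range p : Set ℕ) := fun a ha b hb e => hinj ha hb (by
      show (π ^ a * τ) ^ j = (π ^ b * τ) ^ j
      rw [hk a, hk b, e])
    have himg : (Finset.range p).image k = Finset.range p := by
      refine Finset.eq_of_subset_of_card_le ?_ ?_
      · exact Finset.image_subset_iff.2 fun i _ => Finset.mem_range.2 (hkp i)
      · rw [Finset.card_image_of_injOn hkinj]
    calc ∏ i ∈ Finset.range p, MulAut.conjNormal ((π ^ i * τ) ^ j) v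
        = ∏ i ∈ Finset.range p, (fun l => MulAut.conjNormal (π ^ l) (MulAut.conjNormal (τ ^ j) v)) (k i) :=
          Finset.prod_congr rfl fun i _ => by rw [hk i, map_mul, MulAut.mul_apply]
      _ = ∏ l ∈ Finset.range p, MulAut.conjNormal (π ^ l) (MulAut.conjNormal (τ ^ j) v) := by
          rw [← Finset.prod_image (f := fun l => MulAut.conjNormal (π ^ l) (MulAut.conjNormal (τ ^ j) v)) hkinj, himg]
      _ = 1 := horb _
  · intro h; exact absurd (Finset.mem_range.2 hr.pos) h

end action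

/-- With exponents `p`, `q`, no elements of order `pq`, and a normal elementary abelian `q`-subgroup,
a Sylow `p`-subgroup is a Frobenius complement of prime order. -/
theorem complement_of_normal {p q : ℕ} [hp : Fact p.Prime] (hq : q.Prime) (hpq : p ≠ q)
    (hpd : p ∣ Nat.card G) (hqd : q ∣ Nat.card G)
    (hord : ∀ g : G, orderOf g = 1 ∨ orderOf g = p ∨ orderOf g = q)
    {V : Subgroup G} [V.Normal] [IsMulCommutative V] (hV1 : V ≠ ⊥) (hVq : ∀ v ∈ V, v ^ q = 1) :
    ∃ C : Subgroup G, Cfsg.IsFrobeniusComplement C ∧ (Nat.card C).Prime := by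
  classical
  haveI := Fact.mk hq
  have hcop := (Nat.coprime_primes hp.out hq).2 hpq
  have hnc : ∀ x y : G, orderOf x = p → orderOf y = q → ¬ Commute x y := by
    intro x y hx hy hc
    have h := hc.orderOf_mul_eq_mul_orderOf_of_coprime (by rw [hx, hy]; exact hcop)
    rw [hx, hy] at h
    have h1 := hp.out.two_le
    have h2 := hq.two_le
    have h3 : p * 1 < p * q := Nat.mul_lt_mul_of_pos_left (by omega) (by omega)
    have h4 : 1 * q < p * q := Nat.mul_lt_mul_of_pos_right (by omega) (by omega)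
    rw [mul_one] at h3; rw [one_mul] at h4
    rcases hord (x * y) with e | e | e <;> omega
  have hfix : ∀ x : G, orderOf x = p → ∀ w : V, MulAut.conjNormal x w = w → w = 1 := by
    intro x hx w hw
    by_contra hne
    have hw' : (w : G) ≠ 1 := fun e => hne (Subtype.ext e)
    refine hnc x w hx (orderOf_eq_prime (hVq _ w.2) hw') ?_
    have h := congrArg Subtype.val hw
    rw [MulAut.conjNormal_apply, mul_inv_eq_iff_eq_mul] at h
    exact h
  obtain ⟨⟨v₀, hv₀⟩, hv₀1⟩ : ∃ v : V, v ≠ 1 := by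
    by_contra hc
    push Not at hc
    exact hV1 ((Subgroup.eq_bot_iff_forall _).2 fun x hx => congrArg Subtype.val (hc ⟨x, hx⟩))
  have hcontra : ¬ ((⟨v₀, hv₀⟩ : V) ^ p = 1) := fun h => hv₀1 (by
    refine Subtype.ext ((eq_one_of_pow_pow (a := q) (b := p) ?_ (hVq v₀ hv₀) ?_))
    · exact hcop.symm
    · simpa using congrArg Subtype.val h)
  obtain ⟨P⟩ : Nonempty (Sylow p G) := inferInstance
  have hPel : ∀ x ∈ (P : Subgroup G), x ≠ 1 → orderOf x = p := by
    intro x hx hx1
    obtain ⟨k, hk⟩ := P.2.exists_card_eq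
    have hd : orderOf x ∣ p ^ k := hk ▸ Subgroup.orderOf_dvd_natCard _ hx
    rcases hord x with e | e | e
    · exact absurd (orderOf_eq_one_iff.1 e) hx1
    · exact e
    · rw [e] at hd
      exact absurd ((Nat.prime_dvd_prime_iff_eq hq hp.out).1 (hq.dvd_of_dvd_pow hd)).symm hpq
  have hP1 : (P : Subgroup G) ≠ ⊥ := P.ne_bot_of_dvd_card hpd
  have hPp : Nat.card P = p := by
    haveI : Nontrivial (P : Subgroup G) := (Subgroup.nontrivial_iff_ne_bot _).2 hP1
    haveI := P.2.center_nontrivial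
    obtain ⟨z, hz⟩ := exists_ne (1 : center (P : Subgroup G))
    have hz1 : ((z : (P : Subgroup G)) : G) ≠ 1 := fun e => hz (Subtype.ext (Subtype.ext e))
    have hzp := hPel _ (z : (P : Subgroup G)).2 hz1
    have heq : (P : Subgroup G) = zpowers ((z : (P : Subgroup G)) : G) := by
      refine le_antisymm (fun x hx => ?_) (zpowers_le.2 (z : (P : Subgroup G)).2)
      by_contra hxz
      set π := ((z : (P : Subgroup G)) : G)
      have hc : Commute x π := congrArg Subtype.val (mem_center_iff.1 z.2 ⟨x, hx⟩)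
      refine hcontra (eq_one_of_action (V := V) hp.out hp.out hzp ?_ hxz (hfix π hzp) (fun i => ?_) _ fun i => ?_)
      · rw [hc.eq, mul_inv_cancel_right]; exact mem_zpowers π
      · have hm : π ^ i * x ∈ (P : Subgroup G) := mul_mem (pow_mem (z : (P : Subgroup G)).2 i) hx
        rcases eq_or_ne (π ^ i * x) 1 with e | e
        · rw [e, one_pow]
        · rw [← hPel _ hm e, pow_orderOf_eq_one]
      · have hm : π ^ i * x ∈ (P : Subgroup G) := mul_mem (pow_mem (z : (P : Subgroup G)).2 i) hx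
        have hne : π ^ i * x ≠ 1 := fun e => hxz (by
          rw [eq_inv_of_mul_eq_one_right e]; exact inv_mem (pow_mem (mem_zpowers π) i))
        have ho := hPel _ hm hne
        rcases hord (v₀ * (π ^ i * x)) with e | e | e
        · rw [orderOf_eq_one_iff.1 e, one_pow]
        · rw [← e, pow_orderOf_eq_one]
        · exfalso
          have himg : ((v₀ * (π ^ i * x) : G) : G ⧸ V) = ((π ^ i * x : G) : G ⧸ V) := by
            rw [QuotientGroup.mk_mul, (QuotientGroup.eq_one_iff v₀).2 hv₀, one_mul]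
          have h1 : ((π ^ i * x : G) : G ⧸ V) ^ q = 1 := by
            rw [← himg, ← QuotientGroup.mk_pow, ← e, pow_orderOf_eq_one]; rfl
          have h2 : ((π ^ i * x : G) : G ⧸ V) ^ p = 1 := by
            rw [← QuotientGroup.mk_pow, ← ho, pow_orderOf_eq_one]; rfl
          have h3 := (QuotientGroup.eq_one_iff _).1 (eq_one_of_pow_pow hcop h2 h1)
          have h4 := orderOf_dvd_of_pow_eq_one (hVq _ h3)
          rw [ho] at h4
          exact hpq ((Nat.prime_dvd_prime_iff_eq hp.out hq).1 h4)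
    rw [heq, Nat.card_zpowers, hzp]
  haveI : IsCyclic (P : Subgroup G) := isCyclic_of_prime_card hPp
  have hself : normalizer ((P : Subgroup G) : Set G) = P := by
    refine le_antisymm (fun τ hτ => ?_) le_normalizer
    by_contra hτP
    obtain ⟨⟨π, hπP⟩, hgen⟩ := IsCyclic.exists_generator (α := (P : Subgroup G))
    have hπ1 : π ≠ 1 := by
      intro e
      apply hP1
      rw [Subgroup.eq_bot_iff_forall]
      intro x hx
      obtain ⟨m, hm⟩ := hgen ⟨x, hx⟩
      have := congrArg Subtype.val hm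
      simpa [e] using this.symm
    have hπo := hPel π hπP hπ1
    have hPz : (P : Subgroup G) = zpowers π := by
      refine (Subgroup.eq_of_le_of_card_ge (zpowers_le.2 hπP) ?_).symm
      rw [Nat.card_zpowers, hπo, hPp]
    have hnotp : ∀ g ∈ normalizer ((P : Subgroup G) : Set G), g ∉ (P : Subgroup G) → orderOf g = q := by
      intro g hg hgP
      rcases hord g with e | e | e
      · exact absurd (orderOf_eq_one_iff.1 e ▸ one_mem _) hgP
      · exfalso
        have hz : IsPGroup p (zpowers g) := IsPGroup.of_card (n := 1) (by rw [Nat.card_zpowers, e, pow_one])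
        have hsup : IsPGroup p ((P : Subgroup G) ⊔ zpowers g : Subgroup G) :=
          P.2.to_sup_of_normal_left' hz (zpowers_le.2 hg)
        exact hgP (P.3 hsup le_sup_left ▸ le_sup_right (a := (P : Subgroup G)) (mem_zpowers g))
      · exact e
    have hmem : ∀ i : ℕ, π ^ i * τ ∈ normalizer ((P : Subgroup G) : Set G) ∧ π ^ i * τ ∉ (P : Subgroup G) := by
      intro i
      refine ⟨mul_mem (le_normalizer (pow_mem hπP i)) hτ, fun h => hτP ?_⟩
      have := mul_mem (inv_mem (pow_mem hπP i)) h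
      rwa [inv_mul_cancel_left] at this
    refine hcontra (eq_one_of_action (V := V) hp.out hq hπo ?_ (hPz ▸ hτP) (hfix π hπo)
      (fun i => ?_) _ fun i => ?_)
    · rw [← hPz]; exact (mem_normalizer_iff.1 hτ π).1 hπP
    · rw [← hnotp _ (hmem i).1 (hmem i).2, pow_orderOf_eq_one]
    · rcases hord (v₀ * (π ^ i * τ)) with e | e | e
      · rw [orderOf_eq_one_iff.1 e, one_pow]
      · exfalso
        have ho := hnotp _ (hmem i).1 (hmem i).2
        have himg : ((v₀ * (π ^ i * τ) : G) : G ⧸ V) = ((π ^ i * τ : G) : G ⧸ V) := by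
          rw [QuotientGroup.mk_mul, (QuotientGroup.eq_one_iff v₀).2 hv₀, one_mul]
        have h1 : ((π ^ i * τ : G) : G ⧸ V) ^ p = 1 := by
          rw [← himg, ← QuotientGroup.mk_pow, ← e, pow_orderOf_eq_one]; rfl
        have h2 : ((π ^ i * τ : G) : G ⧸ V) ^ q = 1 := by
          rw [← QuotientGroup.mk_pow, ← ho, pow_orderOf_eq_one]; rfl
        have hVm := (QuotientGroup.eq_one_iff _).1 (eq_one_of_pow_pow hcop.symm h2 h1)
        have hm : (v₀ * (π ^ i * τ)) ^ q = 1 := hVq _ (mul_mem hv₀ hVm)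
        have := orderOf_dvd_of_pow_eq_one hm
        rw [e] at this
        exact hpq ((Nat.prime_dvd_prime_iff_eq hp.out hq).1 this)
      · rw [← e, pow_orderOf_eq_one]
  refine ⟨P, ⟨hP1, fun htop => ?_, fun g hg => ?_⟩, by rw [hPp]; exact hp.out⟩
  · have : Nat.card G = p := by rw [← hPp, htop, Subgroup.card_top]
    rw [this] at hqd
    exact hpq ((Nat.prime_dvd_prime_iff_eq hq hp.out).1 hqd).symm
  · by_contra hne
    apply hg
    have hmem := hself
    rw [← hmem]
    have hcardc : Nat.card (MulAut.conj g • (P : Subgroup G) : Subgroup G) = p :=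
      (Nat.card_congr (Subgroup.equivSMul (MulAut.conj g) (P : Subgroup G)).toEquiv).symm.trans hPp
    have hI : Nat.card ((P : Subgroup G) ⊓ (MulAut.conj g • (P : Subgroup G)) : Subgroup G) = p := by
      rcases (Nat.dvd_prime hp.out).1 (hPp ▸ Subgroup.card_dvd_of_le
        (inf_le_left : (P : Subgroup G) ⊓ (MulAut.conj g • (P : Subgroup G)) ≤ P)) with e | e
      · exact absurd (Subgroup.card_eq_one.1 e) hne
      · exact e
    have e1 := Subgroup.eq_of_le_of_card_ge (inf_le_left : _ ≤ (P : Subgroup G)) (hPp.trans hI.symm).le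
    have e2 := Subgroup.eq_of_le_of_card_ge (inf_le_right : _ ≤ MulAut.conj g • (P : Subgroup G))
      (hcardc.trans hI.symm).le
    rw [e1] at e2
    rw [mem_normalizer_iff]
    intro x
    constructor
    · intro hx
      have h : MulAut.conj g • x ∈ MulAut.conj g • (P : Subgroup G) := Subgroup.smul_mem_pointwise_smul x _ _ hx
      rw [← e2] at h
      exact h
    · intro hx
      have h : MulAut.conj g • x ∈ MulAut.conj g • (P : Subgroup G) := by rw [← e2]; exact hx
      exact Subgroup.smul_mem_pointwise_smul_iff.1 h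

/-- The elements of order `pq` are not equinumerous with those of order `p`. -/
theorem N_mul_ne {p q : ℕ} [hp : Fact p.Prime] (hq : q.Prime) (hq2 : 3 ≤ q) (hpq : p ≠ q)
    (hpd : p ∣ Nat.card G) (hw : ¬ p ∣ N G q) : N G (p * q) ≠ N G p := by
  classical
  intro hN
  haveI := Fact.mk hq
  obtain ⟨P⟩ : Nonempty (Sylow p G) := inferInstance
  let X := {y : G // orderOf y = q}
  letI : MulAction (P : Subgroup G) X :=
    { smul := fun s y => ⟨(s : G) * y.1 * (s : G)⁻¹, by
        exact (orderOf_injective (MulAut.conj (s : G)).toMonoidHom (MulAut.conj (s : G)).injective y.1).trans y.2⟩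
      one_smul := fun y => Subtype.ext (by
        show ((1 : (P : Subgroup G)) : G) * y.1 * ((1 : (P : Subgroup G)) : G)⁻¹ = y.1
        simp)
      mul_smul := fun s t y => Subtype.ext (by
        show ((s * t : (P : Subgroup G)) : G) * y.1 * ((s * t : (P : Subgroup G)) : G)⁻¹ =
          (s : G) * ((t : G) * y.1 * (t : G)⁻¹) * (s : G)⁻¹
        rw [Subgroup.coe_mul]; group) }
  haveI : Fintype X := Fintype.ofFinite _
  obtain ⟨y, hy⟩ := P.2.nonempty_fixed_point_of_prime_not_dvd_card X hw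
  have hcomm : ∀ s ∈ (P : Subgroup G), Commute s y.1 := fun s hs => by
    have h : s * y.1 * s⁻¹ = y.1 := congrArg Subtype.val (hy ⟨s, hs⟩)
    exact mul_inv_eq_iff_eq_mul.1 h
  have hall : ∀ x : {x : G // orderOf x = p}, ∃ z : G, orderOf z = q ∧ Commute x.1 z := by
    rintro ⟨x, hx⟩
    have hz : IsPGroup p (zpowers x) := IsPGroup.of_card (n := 1) (by rw [Nat.card_zpowers, hx, pow_one])
    obtain ⟨Q, hQ⟩ := hz.exists_le_sylow
    obtain ⟨g, hg⟩ := MulAction.exists_smul_eq G P Q
    have hxQ : x ∈ ((g • P : Sylow p G) : Subgroup G) := hg ▸ hQ (mem_zpowers x)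
    rw [Sylow.coe_subgroup_smul] at hxQ
    obtain ⟨s, hs, rfl⟩ := hxQ
    exact ⟨MulAut.conj g y.1, (orderOf_injective (MulAut.conj g).toMonoidHom (MulAut.conj g).injective y.1).trans y.2,
      (hcomm s hs).map (MulAut.conj g).toMonoidHom⟩
  choose z hzo hzc using hall
  have hcop := (Nat.coprime_primes hp.out hq).2 hpq
  have hord : ∀ (x : {x : G // orderOf x = p}) (j : Fin (q - 1)), orderOf (x.1 * z x ^ ((j : ℕ) + 1)) = p * q := by
    intro x j
    have hzj : orderOf (z x ^ ((j : ℕ) + 1)) = q := by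
      rw [Nat.Coprime.orderOf_pow, hzo]
      rw [hzo]
      exact hq.coprime_iff_not_dvd.2 fun h => by have := Nat.le_of_dvd (by omega) h; omega
    rw [((hzc x).pow_right _).orderOf_mul_eq_mul_orderOf_of_coprime (by rw [x.2, hzj]; exact hcop), x.2, hzj]
  let f : {x : G // orderOf x = p} × Fin (q - 1) → {g : G // orderOf g = p * q} := fun a =>
    ⟨a.1.1 * z a.1 ^ ((a.2 : ℕ) + 1), hord a.1 a.2⟩
  have hf : Function.Injective f := by
    rintro ⟨x, i⟩ ⟨x', i'⟩ e
    have e' : x.1 * z x ^ ((i : ℕ) + 1) = x'.1 * z x' ^ ((i' : ℕ) + 1) := congrArg Subtype.val e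
    have hq' : ∀ (a : {x : G // orderOf x = p}) (n : ℕ), (a.1 * z a ^ n) ^ q = a.1 ^ q := by
      intro a n
      rw [((hzc a).pow_right n).mul_pow, ← pow_mul, mul_comm n q, pow_mul]
      rw [show z a ^ q = 1 from hzo a ▸ pow_orderOf_eq_one (z a), one_pow, mul_one]
    have hx : x = x' := by
      apply Subtype.ext
      have h := congrArg (· ^ q) e'
      simp only [hq'] at h
      obtain ⟨m, hm⟩ : ∃ m, q * m ≡ 1 [MOD p] := by
        refine ⟨q ^ (Nat.totient p - 1), ?_⟩
        rw [← pow_succ', Nat.sub_add_cancel (Nat.totient_pos.2 hp.out.pos)]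
        exact Nat.ModEq.pow_totient hcop.symm
      have h2 : ∀ a : {x : G // orderOf x = p}, (a.1 ^ q) ^ m = a.1 := fun a => by
        rw [← pow_mul]
        conv_rhs => rw [← pow_one a.1]
        exact pow_eq_pow_iff_modEq.2 (a.2.symm ▸ hm)
      rw [← h2 x, h, h2]
    subst hx
    have h := mul_left_cancel e'
    rw [pow_eq_pow_iff_modEq, hzo] at h
    have hi := i.2
    have hi' := i'.2
    rw [Nat.ModEq, Nat.mod_eq_of_lt (by omega), Nat.mod_eq_of_lt (by omega)] at h
    exact Prod.ext rfl (Fin.ext (by simpa using h))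
  have hle := Nat.card_le_card_of_injective f hf
  rw [Nat.card_prod, Nat.card_fin] at hle
  change N G p * (q - 1) ≤ N G (p * q) at hle
  rw [hN] at hle
  have h0 : 0 < N G p := Nat.pos_of_ne_zero (N_prime_ne_zero hp.out hpd)
  have : N G p * 2 ≤ N G p * (q - 1) := Nat.mul_le_mul_left _ (by omega)
  omega

/-- The Sylow order divides the number of elements of order `q` if no element has order `pq`. -/
theorem sylow_dvd_N {p q : ℕ} [hp : Fact p.Prime] (hq : q.Prime) (hpq : p ≠ q) (hN : N G (p * q) = 0)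
    (P : Sylow p G) : Nat.card P ∣ N G q := by
  classical
  let X := {y : G // orderOf y = q}
  letI : MulAction (P : Subgroup G) X :=
    { smul := fun s y => ⟨(s : G) * y.1 * (s : G)⁻¹, by
        exact (orderOf_injective (MulAut.conj (s : G)).toMonoidHom (MulAut.conj (s : G)).injective y.1).trans y.2⟩
      one_smul := fun y => Subtype.ext (by
        show ((1 : (P : Subgroup G)) : G) * y.1 * ((1 : (P : Subgroup G)) : G)⁻¹ = y.1
        simp)
      mul_smul := fun s t y => Subtype.ext (by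
        show ((s * t : (P : Subgroup G)) : G) * y.1 * ((s * t : (P : Subgroup G)) : G)⁻¹ =
          (s : G) * ((t : G) * y.1 * (t : G)⁻¹) * (s : G)⁻¹
        rw [Subgroup.coe_mul]; group) }
  have hfree : ∀ y : X, MulAction.stabilizer (P : Subgroup G) y = ⊥ := by
    intro y
    rw [Subgroup.eq_bot_iff_forall]
    rintro ⟨s, hs⟩ hst
    by_contra h1
    have hs1 : s ≠ 1 := fun e => h1 (Subtype.ext e)
    have hc : Commute s y.1 :=
      mul_inv_eq_iff_eq_mul.1 (show s * y.1 * s⁻¹ = y.1 from congrArg Subtype.val hst)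
    obtain ⟨k, hk⟩ := P.2.exists_card_eq
    obtain ⟨m, -, hm⟩ := (Nat.dvd_prime_pow hp.out).1 (hk ▸ Subgroup.orderOf_dvd_natCard _ hs : orderOf s ∣ p ^ k)
    have hm0 : m ≠ 0 := fun e => hs1 (orderOf_eq_one_iff.1 (by rw [hm, e, pow_zero]))
    have ho : orderOf (s ^ p ^ (m - 1)) = p := by
      rw [orderOf_pow_of_dvd (pow_ne_zero _ hp.out.ne_zero) (hm ▸ Nat.pow_dvd_pow p (by omega)), hm,
        Nat.pow_div (by omega) hp.out.pos, show m - (m - 1) = 1 by omega, pow_one]
    refine (N_ne_zero_iff.2 ⟨s ^ p ^ (m - 1) * y.1, ?_⟩) hN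
    rw [(hc.pow_left _).orderOf_mul_eq_mul_orderOf_of_coprime
      (by rw [ho, y.2]; exact (Nat.coprime_primes hp.out hq).2 hpq), ho, y.2]
  have e := MulAction.selfEquivSigmaOrbitsQuotientStabilizer (P : Subgroup G) X
  haveI : Fintype (MulAction.orbitRel.Quotient (P : Subgroup G) X) := Fintype.ofFinite _
  rw [N, Nat.card_congr e, Nat.card_sigma]
  refine Finset.dvd_sum fun ω _ => ?_
  rw [hfree, ← Subgroup.index_eq_card, Subgroup.index_bot]

theorem card_roots_pow {p : ℕ} (hp : p.Prime) (a : ℕ) :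
    Nat.card {g : G // g ^ p ^ a = 1} = ∑ i ∈ Finset.range (a + 1), N G (p ^ i) := by
  rw [card_roots _ (pow_pos hp.pos a), Nat.divisors_prime_pow hp, Finset.sum_map]
  rfl

theorem sum_range_split {f : ℕ → ℕ} {a : ℕ} (ha : 1 ≤ a) :
    ∑ i ∈ Finset.range (a + 1), f i = f 0 + f 1 + ∑ i ∈ Finset.Ico 2 (a + 1), f i := by
  rw [Finset.range_eq_Ico, Finset.sum_eq_sum_Ico_succ_bot (by omega), Finset.sum_eq_sum_Ico_succ_bot (by omega),
    ← add_assoc]

theorem zmod_facts {p : ℕ} (hp : p.Prime) (hd : p ∣ Nat.card G) :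
    ((N G p : ℕ) : ZMod p) = -1 := by
  have h := dvd_sum_N (G := G) hd
  rw [hp.sum_divisors, N_one] at h
  have h2 : (((N G p + 1 : ℕ)) : ZMod p) = 0 := (ZMod.natCast_eq_zero_iff _ _).2 h
  push_cast at h2
  linear_combination h2

theorem neg_one_ne_one {p : ℕ} (hp : p.Prime) (hp2 : p ≠ 2) : (-1 : ZMod p) ≠ 1 := by
  haveI : Fact (2 < p) := ⟨by have := hp.two_le; omega⟩
  exact ZMod.neg_one_ne_one

/-- All primes with equinumerous elements: impossible. -/
theorem exists_ne_N (hodd : Odd (Nat.card G)) {u v : ℕ}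
    (hval : ∀ m, m ≠ 1 → N G m ≠ 0 → N G m = u ∨ N G m = v)
    {p₀ q₀ : ℕ} (hp₀ : p₀.Prime) (hq₀ : q₀.Prime) (hne : p₀ ≠ q₀) (hpd : p₀ ∣ Nat.card G) (hqd : q₀ ∣ Nat.card G)
    (hall : ∀ s : ℕ, s.Prime → s ∣ Nat.card G → N G s = u) : False := by
  classical
  have hdvd : ∀ s : ℕ, s.Prime → s ∣ Nat.card G → s ^ (Nat.card G).factorization s ∣ 1 + u := by
    intro s hs hsd
    haveI := Fact.mk hs
    have hs2 : s ≠ 2 := fun e => Nat.not_even_iff_odd.2 hodd (even_iff_two_dvd.2 (e ▸ hsd))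
    obtain ⟨t, ht, htd, hts⟩ : ∃ t : ℕ, t.Prime ∧ t ∣ Nat.card G ∧ t ≠ s := by
      rcases eq_or_ne p₀ s with e | e
      · exact ⟨q₀, hq₀, hqd, fun e' => hne (e.trans e'.symm)⟩
      · exact ⟨p₀, hp₀, hpd, e⟩
    have hst := dvd_pair hs ht (Ne.symm hts) hsd htd
    rw [hall s hs hsd, hall t ht htd] at hst
    have hu : ((u : ℕ) : ZMod s) = -1 := hall s hs hsd ▸ zmod_facts hs hsd
    have hst' : (((1 + u + u + N G (s * t) : ℕ)) : ZMod s) = 0 :=
      (ZMod.natCast_eq_zero_iff _ _).2 ((dvd_mul_right s t).trans hst)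
    push_cast at hst'
    rw [hu] at hst'
    have hN : ((N G (s * t) : ℕ) : ZMod s) = 1 := by linear_combination hst'
    have hN0 : N G (s * t) ≠ 0 := by intro h; rw [h, Nat.cast_zero] at hN; exact zero_ne_one hN
    have hv : N G (s * t) = v := (hval _ (Nat.ne_of_gt (by have := hs.two_le; have := ht.two_le; nlinarith)) hN0).resolve_left fun h => by
      rw [h, hu] at hN; exact neg_one_ne_one hs hs2 hN
    have hzero : ∀ i, 2 ≤ i → N G (s ^ i) = 0 := by
      intro i hi
      by_contra h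
      have h0 : ((N G (s ^ i) : ℕ) : ZMod s) = 0 := (ZMod.natCast_eq_zero_iff _ _).2 (dvd_N_pow hs hi)
      rcases hval _ (Nat.ne_of_gt (Nat.one_lt_pow (by omega) hs.one_lt)) h with e | e
      · rw [e, hu] at h0; exact neg_ne_zero.2 one_ne_zero h0
      · rw [e, ← hv, hN] at h0; exact one_ne_zero h0
    set a := (Nat.card G).factorization s
    have ha : 1 ≤ a := hs.factorization_pos_of_dvd Nat.card_pos.ne' hsd
    have h := dvd_sum_N (G := G) (Nat.ordProj_dvd (Nat.card G) s)
    rw [Nat.divisors_prime_pow hs, Finset.sum_map] at h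
    simp only [Function.Embedding.coeFn_mk] at h
    rw [sum_range_split ha, pow_zero, pow_one, N_one, hall s hs hsd,
      Finset.sum_eq_zero fun i hi => hzero i (Finset.mem_Ico.1 hi).1, add_zero] at h
    exact h
  have hG : Nat.card G ∣ 1 + u := by
    refine (Nat.factorization_prime_le_iff_dvd Nat.card_pos.ne' (by omega)).1 fun s hs => ?_
    by_cases hsd : s ∣ Nat.card G
    · exact (hs.pow_dvd_iff_le_factorization (by omega)).1 (hdvd s hs hsd)
    · simp [Nat.factorization_eq_zero_of_not_dvd hsd]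
  have hle : Nat.card G ≤ 1 + u := Nat.le_of_dvd (by omega) hG
  haveI := Fintype.ofFinite G
  have hsum : 1 + u + u ≤ Nat.card G := by
    have hf : Function.Injective (fun a : {g : G // orderOf g = 1} ⊕ {g : G // orderOf g = p₀} ⊕ {g : G // orderOf g = q₀} =>
        Sum.elim Subtype.val (Sum.elim Subtype.val Subtype.val) a) := by
      have := hp₀.one_lt
      have := hq₀.one_lt
      rintro (⟨a, ha⟩ | ⟨a, ha⟩ | ⟨a, ha⟩) (⟨b, hb⟩ | ⟨b, hb⟩ | ⟨b, hb⟩) e <;>
        simp only [Sum.elim_inl, Sum.elim_inr] at e <;> subst e <;> first | rfl | omega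
    have h := Nat.card_le_card_of_injective _ hf
    rw [Nat.card_sum, Nat.card_sum] at h
    change N G 1 + (N G p₀ + N G q₀) ≤ _ at h
    rw [N_one, hall p₀ hp₀ hpd, hall q₀ hq₀ hqd] at h
    omega
  have : 2 ≤ u := hall p₀ hp₀ hpd ▸ two_le_N hodd hp₀.ne_one (N_prime_ne_zero hp₀ hpd)
  omega

/-- Three primes, two of them with equinumerous elements: impossible. -/
theorem no_triple (hodd : Odd (Nat.card G)) {u v : ℕ}
    (hval : ∀ m, m ≠ 1 → N G m ≠ 0 → N G m = u ∨ N G m = v)
    {p q r : ℕ} (hp : p.Prime) (hq : q.Prime) (hr : r.Prime) (hpq : p ≠ q) (hpr : p ≠ r) (hqr : q ≠ r)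
    (hpd : p ∣ Nat.card G) (hqd : q ∣ Nat.card G) (hrd : r ∣ Nat.card G)
    (hpu : N G p = u) (hqu : N G q = u) (hrv : N G r = v) : False := by
  have odd_ne : ∀ s, s ∣ Nat.card G → s ≠ 2 := fun s hsd e =>
    Nat.not_even_iff_odd.2 hodd (even_iff_two_dvd.2 (e ▸ hsd))
  have h1 : ∀ s : ℕ, s.Prime → ∀ t : ℕ, t.Prime → s * t ≠ 1 := fun s hs t _ h =>
    hs.ne_one (Nat.eq_one_of_mul_eq_one_right h)
  have side : ∀ s t : ℕ, s.Prime → t.Prime → s ≠ t → s ∣ Nat.card G → t ∣ Nat.card G → N G s = u → N G t = u →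
      s ≠ r → N G (s * t) = v ∧ ((v : ℕ) : ZMod s) = 1 ∧ N G (s * r) = u := by
    intro s t hs ht hst hsd htd hsu htu hsr
    haveI := Fact.mk hs
    have hu : ((u : ℕ) : ZMod s) = -1 := hsu ▸ zmod_facts hs hsd
    have e1 : (((1 + N G s + N G t + N G (s * t) : ℕ)) : ZMod s) = 0 :=
      (ZMod.natCast_eq_zero_iff _ _).2 ((dvd_mul_right s t).trans (dvd_pair hs ht hst hsd htd))
    push_cast at e1
    rw [hsu, htu, hu] at e1
    have hN : ((N G (s * t) : ℕ) : ZMod s) = 1 := by linear_combination e1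
    have hN0 : N G (s * t) ≠ 0 := by intro h; rw [h, Nat.cast_zero] at hN; exact zero_ne_one hN
    have hv : N G (s * t) = v := (hval _ (h1 s hs t ht) hN0).resolve_left fun h => by
      rw [h, hu] at hN; exact neg_one_ne_one hs (odd_ne s hsd) hN
    have hvs : ((v : ℕ) : ZMod s) = 1 := hv ▸ hN
    have e2 : (((1 + N G s + N G r + N G (s * r) : ℕ)) : ZMod s) = 0 :=
      (ZMod.natCast_eq_zero_iff _ _).2 ((dvd_mul_right s r).trans (dvd_pair hs hr hsr hsd hrd))
    push_cast at e2
    rw [hsu, hu, hrv, hvs] at e2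
    have hN2 : ((N G (s * r) : ℕ) : ZMod s) = -1 := by linear_combination e2
    have hN20 : N G (s * r) ≠ 0 := by
      intro h; rw [h, Nat.cast_zero] at hN2; exact neg_ne_zero.2 one_ne_zero hN2.symm
    refine ⟨hv, hvs, (hval _ (h1 s hs r hr) hN20).resolve_right fun h => ?_⟩
    rw [h, hvs] at hN2
    exact neg_one_ne_one hs (odd_ne s hsd) hN2.symm
  obtain ⟨hNpq, hvp, hNpr⟩ := side p q hp hq hpq hpd hqd hpu hqu hpr
  obtain ⟨-, -, hNqr⟩ := side q p hq hp (Ne.symm hpq) hqd hpd hqu hpu hqr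
  haveI := Fact.mk hr
  have hv : ((v : ℕ) : ZMod r) = -1 := hrv ▸ zmod_facts hr hrd
  have e1 : (((1 + N G p + N G r + N G (p * r) : ℕ)) : ZMod r) = 0 :=
    (ZMod.natCast_eq_zero_iff _ _).2 ((dvd_mul_left r p).trans (dvd_pair hp hr hpr hpd hrd))
  push_cast at e1
  rw [hpu, hrv, hNpr, hv] at e1
  have hu0 : ((u : ℕ) : ZMod r) = 0 := by
    have h2 : (2 : ZMod r) * (u : ZMod r) = 0 := by linear_combination e1
    refine (mul_eq_zero.1 h2).resolve_left fun h => ?_
    have : (-1 : ZMod r) = 1 := by linear_combination -h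
    exact neg_one_ne_one hr (odd_ne r hrd) this
  have e3 : (((1 + N G p + N G q + N G r + N G (p * q) + N G (p * r) + N G (q * r) + N G (p * q * r) : ℕ)) : ZMod r) = 0 :=
    (ZMod.natCast_eq_zero_iff _ _).2 ((dvd_mul_left r (p * q)).trans (dvd_triple hp hq hr hpq hpr hqr hpd hqd hrd))
  push_cast at e3
  rw [hpu, hqu, hrv, hNpq, hNpr, hNqr, hv, hu0] at e3
  have hN : ((N G (p * q * r) : ℕ) : ZMod r) = 1 := by linear_combination e3
  have hN0 : N G (p * q * r) ≠ 0 := by intro h; rw [h, Nat.cast_zero] at hN; exact zero_ne_one hN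
  rcases hval _ (fun h => h1 p hp q hq (Nat.eq_one_of_mul_eq_one_right h)) hN0 with h | h
  · rw [h, hu0] at hN; exact zero_ne_one hN
  · rw [h, hv] at hN; exact neg_one_ne_one hr (odd_ne r hrd) hN

theorem two_primes (hodd : Odd (Nat.card G)) {p q : ℕ} (hp : p.Prime) (hq : q.Prime) (hpq : p ≠ q)
    (hpf : (Nat.card G).primeFactors = {p, q}) {u w : ℕ}
    (hval : ∀ m, m ≠ 1 → N G m ≠ 0 → N G m = u ∨ N G m = w) (hu : N G p = u) (hw : N G q = w) :
    ∀ g : G, orderOf g = 1 ∨ orderOf g = p ∨ orderOf g = q := by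
  classical
  haveI := Fact.mk hp
  haveI := Fact.mk hq
  have hpd : p ∣ Nat.card G := Nat.dvd_of_mem_primeFactors (by simp [hpf])
  have hqd : q ∣ Nat.card G := Nat.dvd_of_mem_primeFactors (by simp [hpf])
  have hp3 : 3 ≤ p := by
    have := hp.two_le
    rcases eq_or_ne p 2 with e | e
    · exact absurd (even_iff_two_dvd.2 (e ▸ hpd)) (Nat.not_even_iff_odd.2 hodd)
    · omega
  have hq3 : 3 ≤ q := by
    have := hq.two_le
    rcases eq_or_ne q 2 with e | e
    · exact absurd (even_iff_two_dvd.2 (e ▸ hqd)) (Nat.not_even_iff_odd.2 hodd)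
    · omega
  have hup : ((u : ℕ) : ZMod p) = -1 := hu ▸ zmod_facts hp hpd
  have hwq : ((w : ℕ) : ZMod q) = -1 := hw ▸ zmod_facts hq hqd
  have e := dvd_pair hp hq hpq hpd hqd
  rw [hu, hw] at e
  have ep : (((1 + u + w + N G (p * q) : ℕ)) : ZMod p) = 0 :=
    (ZMod.natCast_eq_zero_iff _ _).2 ((dvd_mul_right p q).trans e)
  have eq' : (((1 + u + w + N G (p * q) : ℕ)) : ZMod q) = 0 :=
    (ZMod.natCast_eq_zero_iff _ _).2 ((dvd_mul_left q p).trans e)
  push_cast at ep eq'
  rw [hup] at ep; rw [hwq] at eq'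
  have hN0 : N G (p * q) = 0 := by
    by_contra h
    rcases hval _ (fun h' => hp.ne_one (Nat.eq_one_of_mul_eq_one_right h')) h with h' | h'
    · refine N_mul_ne (G := G) hq hq3 hpq hpd (fun hd => ?_) (h'.trans hu.symm)
      rw [hw, ← ZMod.natCast_eq_zero_iff] at hd
      rw [h', hup, hd] at ep
      exact neg_ne_zero.2 one_ne_zero (by linear_combination ep)
    · refine N_mul_ne (G := G) hp hp3 (Ne.symm hpq) hqd (fun hd => ?_) (by rw [mul_comm q p, h', hw])
      rw [hu, ← ZMod.natCast_eq_zero_iff] at hd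
      rw [h', hwq, hd] at eq'
      exact neg_ne_zero.2 one_ne_zero (by linear_combination eq')
  set a := (Nat.card G).factorization p
  set b := (Nat.card G).factorization q
  have ha : 1 ≤ a := hp.factorization_pos_of_dvd Nat.card_pos.ne' hpd
  have hb : 1 ≤ b := hq.factorization_pos_of_dvd Nat.card_pos.ne' hqd
  have hcard : Nat.card G = p ^ a * q ^ b := by
    conv_lhs => rw [← Nat.prod_factorization_pow_eq_self (Nat.card_pos (α := G)).ne']
    rw [Finsupp.prod, Nat.support_factorization, hpf, Finset.prod_pair hpq]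
  obtain ⟨P⟩ : Nonempty (Sylow p G) := inferInstance
  obtain ⟨Q⟩ : Nonempty (Sylow q G) := inferInstance
  have hPw : p ^ a ∣ w := by
    have := sylow_dvd_N (G := G) hq hpq hN0 P
    rwa [Sylow.card_eq_multiplicity, hw] at this
  have hQu : q ^ b ∣ u := by
    have := sylow_dvd_N (G := G) hp (Ne.symm hpq) (by rw [mul_comm]; exact hN0) Q
    rwa [Sylow.card_eq_multiplicity, hu] at this
  have hwp : ((w : ℕ) : ZMod p) = 0 :=
    (ZMod.natCast_eq_zero_iff _ _).2 ((dvd_pow_self p (by omega)).trans hPw)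
  have huq : ((u : ℕ) : ZMod q) = 0 :=
    (ZMod.natCast_eq_zero_iff _ _).2 ((dvd_pow_self q (by omega)).trans hQu)
  have hpow_p : ∀ i, 2 ≤ i → N G (p ^ i) = 0 ∨ N G (p ^ i) = w := by
    intro i hi
    by_contra hc
    push Not at hc
    have hv := (hval _ (Nat.ne_of_gt (Nat.one_lt_pow (by omega) hp.one_lt)) hc.1).resolve_right hc.2
    have h0 : ((N G (p ^ i) : ℕ) : ZMod p) = 0 := (ZMod.natCast_eq_zero_iff _ _).2 (dvd_N_pow hp hi)
    rw [hv, hup] at h0
    exact neg_ne_zero.2 one_ne_zero h0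
  have hpow_q : ∀ i, 2 ≤ i → N G (q ^ i) = 0 ∨ N G (q ^ i) = u := by
    intro i hi
    by_contra hc
    push Not at hc
    have hv := (hval _ (Nat.ne_of_gt (Nat.one_lt_pow (by omega) hq.one_lt)) hc.1).resolve_left hc.2
    have h0 : ((N G (q ^ i) : ℕ) : ZMod q) = 0 := (ZMod.natCast_eq_zero_iff _ _).2 (dvd_N_pow hq hi)
    rw [hv, hwq] at h0
    exact neg_ne_zero.2 one_ne_zero h0
  set e0 := ((Finset.Ico 2 (a + 1)).filter fun i => N G (p ^ i) ≠ 0).card with he0
  set f0 := ((Finset.Ico 2 (b + 1)).filter fun i => N G (q ^ i) ≠ 0).card with hf0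
  have hea : e0 < a := by
    refine lt_of_le_of_lt (Finset.card_filter_le _ _) ?_
    rw [Nat.card_Ico]; omega
  have hfb : f0 < b := by
    refine lt_of_le_of_lt (Finset.card_filter_le _ _) ?_
    rw [Nat.card_Ico]; omega
  have hRp : Nat.card {g : G // g ^ p ^ a = 1} = 1 + u + e0 * w := by
    rw [card_roots_pow hp, sum_range_split ha, pow_zero, pow_one, N_one, hu]
    congr 1
    rw [← Finset.sum_filter_ne_zero, Finset.sum_congr rfl fun i hi => ?_, Finset.sum_const, smul_eq_mul]
    obtain ⟨h1, h2⟩ := Finset.mem_filter.1 hi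
    exact (hpow_p i (Finset.mem_Ico.1 h1).1).resolve_left h2
  have hRq : Nat.card {g : G // g ^ q ^ b = 1} = 1 + w + f0 * u := by
    rw [card_roots_pow hq, sum_range_split hb, pow_zero, pow_one, N_one, hw]
    congr 1
    rw [← Finset.sum_filter_ne_zero, Finset.sum_congr rfl fun i hi => ?_, Finset.sum_const, smul_eq_mul]
    obtain ⟨h1, h2⟩ := Finset.mem_filter.1 hi
    exact (hpow_q i (Finset.mem_Ico.1 h1).1).resolve_left h2
  have hnomix : ∀ g : G, g ^ p ^ a = 1 ∨ g ^ q ^ b = 1 := by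
    intro g
    have hd : orderOf g ∣ p ^ a * q ^ b := hcard ▸ orderOf_dvd_natCard g
    by_cases h1 : p ∣ orderOf g
    · by_cases h2 : q ∣ orderOf g
      · exfalso
        have hd2 := ((Nat.coprime_primes hp hq).2 hpq).mul_dvd_of_dvd_of_dvd h1 h2
        refine N_ne_zero_iff.2 ⟨g ^ (orderOf g / (p * q)), ?_⟩ hN0
        rw [orderOf_pow_of_dvd _ (Nat.div_dvd_of_dvd hd2), Nat.div_div_self hd2 (orderOf_pos g).ne']
        exact (Nat.div_pos (Nat.le_of_dvd (orderOf_pos g) hd2) (Nat.mul_pos hp.pos hq.pos)).ne'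
      · exact Or.inl (orderOf_dvd_iff_pow_eq_one.1
          ((Nat.Coprime.pow_right b ((hq.coprime_iff_not_dvd.2 h2).symm)).dvd_of_dvd_mul_right hd))
    · exact Or.inr (orderOf_dvd_iff_pow_eq_one.1
        ((Nat.Coprime.pow_right a ((hp.coprime_iff_not_dvd.2 h1).symm)).dvd_of_dvd_mul_left hd))
  have htot : Nat.card G + 1 = Nat.card {g : G // g ^ p ^ a = 1} + Nat.card {g : G // g ^ q ^ b = 1} := by
    haveI := Fintype.ofFinite G
    simp only [Nat.card_eq_fintype_card, Fintype.card_subtype]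
    rw [← Finset.card_union_add_card_inter]
    congr 1
    · rw [← Finset.card_univ]
      congr 1
      ext g; simpa using hnomix g
    · rw [eq_comm, Finset.card_eq_one]
      refine ⟨1, ?_⟩
      ext g
      simp only [Finset.mem_inter, Finset.mem_filter, Finset.mem_univ, true_and, Finset.mem_singleton]
      refine ⟨fun ⟨h1, h2⟩ => ?_, fun h => by simp [h]⟩
      exact eq_one_of_pow_pow (((Nat.coprime_primes hp hq).2 hpq).pow a b) h1 h2
  rw [hRp, hRq] at htot
  have hP : p ^ a ∣ 1 + u + e0 * w := hRp ▸ Cfsg.Agent.Lib.GS.FrobeniusCount.dvd_card_roots _ G rfl _ (Nat.ordProj_dvd _ _)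
  have hQ : q ^ b ∣ 1 + w + f0 * u := hRq ▸ Cfsg.Agent.Lib.GS.FrobeniusCount.dvd_card_roots _ G rfl _ (Nat.ordProj_dvd _ _)
  have hcop_u : Nat.Coprime (p ^ a) u := Nat.Coprime.pow_left a (hp.coprime_iff_not_dvd.2 fun h => by
    rw [← ZMod.natCast_eq_zero_iff, hup] at h; exact neg_ne_zero.2 one_ne_zero h)
  have hcop_w : Nat.Coprime (q ^ b) w := Nat.Coprime.pow_left b (hq.coprime_iff_not_dvd.2 fun h => by
    rw [← ZMod.natCast_eq_zero_iff, hwq] at h; exact neg_ne_zero.2 one_ne_zero h)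
  have hf : p ^ a ∣ f0 := by
    refine hcop_u.dvd_of_dvd_mul_right ?_
    have h1 : p ^ a ∣ Nat.card G := Nat.ordProj_dvd _ _
    rw [show Nat.card G = w + f0 * u + (1 + u + e0 * w) by omega] at h1
    exact (Nat.dvd_add_right hPw).1 ((Nat.dvd_add_left hP).1 h1)
  have he : q ^ b ∣ e0 := by
    refine hcop_w.dvd_of_dvd_mul_right ?_
    have h1 : q ^ b ∣ Nat.card G := Nat.ordProj_dvd _ _
    rw [show Nat.card G = u + e0 * w + (1 + w + f0 * u) by omega] at h1
    exact (Nat.dvd_add_right hQu).1 ((Nat.dvd_add_left hQ).1 h1)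
  have hapow : a < p ^ a := Nat.lt_pow_self hp.one_lt
  have hbpow : b < q ^ b := Nat.lt_pow_self hq.one_lt
  have hu0 : 0 < u := hu ▸ Nat.pos_of_ne_zero (N_prime_ne_zero hp hpd)
  have hw0 : 0 < w := hw ▸ Nat.pos_of_ne_zero (N_prime_ne_zero hq hqd)
  have hwa : p ^ a ≤ w := Nat.le_of_dvd hw0 hPw
  have hub : q ^ b ≤ u := Nat.le_of_dvd hu0 hQu
  have hzero : e0 = 0 ∧ f0 = 0 := by
    rcases Nat.eq_zero_or_pos e0 with h1 | h1 <;> rcases Nat.eq_zero_or_pos f0 with h2 | h2
    · exact ⟨h1, h2⟩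
    · exfalso
      have h3 := Nat.le_of_dvd h2 hf
      have h4 : p ^ a * q ^ b ≤ f0 * u := Nat.mul_le_mul h3 hub
      rw [hcard] at htot
      omega
    · exfalso
      have h3 := Nat.le_of_dvd h1 he
      have h4 : q ^ b * p ^ a ≤ e0 * w := Nat.mul_le_mul h3 hwa
      rw [hcard, mul_comm] at htot
      omega
    · exfalso
      have h3 := Nat.le_of_dvd h2 hf
      have h4 := Nat.le_of_dvd h1 he
      omega
  intro g
  have hsmall : ∀ (s c : ℕ), s.Prime → 1 ≤ c → ((Finset.Ico 2 (c + 1)).filter fun i => N G (s ^ i) ≠ 0).card = 0 →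
      g ^ s ^ c = 1 → orderOf g = 1 ∨ orderOf g = s := by
    intro s c hs hc h0 hg
    obtain ⟨i, hi, hgi⟩ := (Nat.dvd_prime_pow hs).1 (orderOf_dvd_of_pow_eq_one hg)
    rcases Nat.lt_or_ge i 2 with h | h
    · interval_cases i
      · exact Or.inl (by simpa using hgi)
      · exact Or.inr (by simpa using hgi)
    · exfalso
      have := Finset.card_eq_zero.1 h0
      have hmem : i ∈ (Finset.Ico 2 (c + 1)).filter fun i => N G (s ^ i) ≠ 0 :=
        Finset.mem_filter.2 ⟨Finset.mem_Ico.2 ⟨h, by omega⟩, N_ne_zero_iff.2 ⟨g, hgi⟩⟩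
      rw [this] at hmem
      exact Finset.notMem_empty _ hmem
  rcases hnomix g with h | h
  · rcases hsmall p a hp ha (he0 ▸ hzero.1) h with h' | h'
    · exact Or.inl h'
    · exact Or.inr (Or.inl h')
  · rcases hsmall q b hq hb (hf0 ▸ hzero.2) h with h' | h'
    · exact Or.inl h'
    · exact Or.inr (Or.inr h')

theorem main_aux (hodd : Odd (Nat.card G))
    (h : (((fun m : ℕ => Nat.card {g : G // orderOf g = m}) '' Set.range (orderOf : G → ℕ))).ncard = 3) :
    (Nat.card G).primeFactors.card ≤ 2 ∧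
      ((Nat.card G).primeFactors.card = 2 →
        (∀ (p : ℕ) [Fact p.Prime] (P : Sylow p G), p ∣ Nat.card G → Monoid.exponent ↥(P : Subgroup G) = p) ∧
        ∃ C : Subgroup G, Cfsg.IsFrobeniusComplement C ∧ (Nat.card ↥C).Prime) := by
  classical
  set S := (fun m : ℕ => Nat.card {g : G // orderOf g = m}) '' Set.range (orderOf : G → ℕ)
  have hmemS : ∀ m, N G m ≠ 0 → N G m ∈ S := fun m hm => by
    obtain ⟨g, hg⟩ := N_ne_zero_iff.1 hm
    exact ⟨m, ⟨g, hg⟩, rfl⟩
  have h1S : (1 : ℕ) ∈ S := N_one (G := G) ▸ hmemS 1 (by rw [N_one]; exact one_ne_zero)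
  have h2 : (S \ {1}).ncard = 2 := by rw [Set.ncard_sdiff_singleton_of_mem h1S, h]
  obtain ⟨u, v, -, huv⟩ := Set.ncard_eq_two.1 h2
  have hval : ∀ m, m ≠ 1 → N G m ≠ 0 → N G m = u ∨ N G m = v := fun m hm1 hm => by
    have hin : N G m ∈ S \ {1} := ⟨hmemS m hm, by
      simp only [Set.mem_singleton_iff]; have := two_le_N hodd hm1 hm; omega⟩
    rw [huv] at hin
    simpa using hin
  have hvalp : ∀ s ∈ (Nat.card G).primeFactors, N G s = u ∨ N G s = v := fun s hs =>
    hval s (Nat.prime_of_mem_primeFactors hs).ne_one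
      (N_prime_ne_zero (Nat.prime_of_mem_primeFactors hs) (Nat.dvd_of_mem_primeFactors hs))
  have hval' : ∀ m, m ≠ 1 → N G m ≠ 0 → N G m = v ∨ N G m = u := fun m a b => (hval m a b).symm
  have hmix : ∀ p₀ ∈ (Nat.card G).primeFactors, ∀ q₀ ∈ (Nat.card G).primeFactors, p₀ ≠ q₀ →
      (∃ s ∈ (Nat.card G).primeFactors, N G s ≠ u) ∧ (∃ s ∈ (Nat.card G).primeFactors, N G s ≠ v) := by
    intro p₀ hp₀ q₀ hq₀ hne
    constructor
    all_goals by_contra hc; push Not at hc
    · exact exists_ne_N hodd hval (Nat.prime_of_mem_primeFactors hp₀) (Nat.prime_of_mem_primeFactors hq₀) hne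
        (Nat.dvd_of_mem_primeFactors hp₀) (Nat.dvd_of_mem_primeFactors hq₀)
        fun s hs hsd => hc s (Nat.mem_primeFactors.2 ⟨hs, hsd, Nat.card_pos.ne'⟩)
    · exact exists_ne_N hodd hval' (Nat.prime_of_mem_primeFactors hp₀) (Nat.prime_of_mem_primeFactors hq₀) hne
        (Nat.dvd_of_mem_primeFactors hp₀) (Nat.dvd_of_mem_primeFactors hq₀)
        fun s hs hsd => hc s (Nat.mem_primeFactors.2 ⟨hs, hsd, Nat.card_pos.ne'⟩)
  have hle : (Nat.card G).primeFactors.card ≤ 2 := by
    by_contra hgt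
    obtain ⟨x, hx, y, hy, hxy⟩ := Finset.one_lt_card.1 (by omega : 1 < (Nat.card G).primeFactors.card)
    obtain ⟨⟨a, ha, hau⟩, ⟨b, hb, hbv⟩⟩ := hmix x hx y hy hxy
    have hav := (hvalp a ha).resolve_left hau
    have hbu := (hvalp b hb).resolve_right hbv
    obtain ⟨c, hc, hca, hcb⟩ : ∃ c ∈ (Nat.card G).primeFactors, c ≠ a ∧ c ≠ b := by
      by_contra hcc
      push Not at hcc
      have : (Nat.card G).primeFactors ⊆ {a, b} := fun c hc => by
        simp only [Finset.mem_insert, Finset.mem_singleton]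
        exact or_iff_not_imp_left.2 (hcc c hc)
      have := (Finset.card_le_card this).trans Finset.card_le_two
      omega
    have hab : a ≠ b := fun e => hbv (e ▸ hav)
    have pr := fun {s : ℕ} (hs : s ∈ (Nat.card G).primeFactors) => Nat.prime_of_mem_primeFactors hs
    have dv := fun {s : ℕ} (hs : s ∈ (Nat.card G).primeFactors) => Nat.dvd_of_mem_primeFactors hs
    rcases hvalp c hc with hcu | hcv
    · exact no_triple hodd hval (pr hc) (pr hb) (pr ha) hcb hca (Ne.symm hab) (dv hc) (dv hb) (dv ha) hcu hbu hav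
    · exact no_triple hodd hval' (pr hc) (pr ha) (pr hb) hca hcb hab (dv hc) (dv ha) (dv hb) hcv hav hbu
  refine ⟨hle, fun hcard2 => ?_⟩
  obtain ⟨p, q, hpq, hpf⟩ := Finset.card_eq_two.1 hcard2
  have hpm : p ∈ (Nat.card G).primeFactors := by simp [hpf]
  have hqm : q ∈ (Nat.card G).primeFactors := by simp [hpf]
  have hp := Nat.prime_of_mem_primeFactors hpm
  have hq := Nat.prime_of_mem_primeFactors hqm
  have hord : ∀ g : G, orderOf g = 1 ∨ orderOf g = p ∨ orderOf g = q := by
    obtain ⟨⟨a, ha, hau⟩, ⟨b, hb, hbv⟩⟩ := hmix p hpm q hqm hpq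
    rcases hvalp p hpm with hpu | hpv <;> rcases hvalp q hqm with hqu | hqv
    · exfalso; apply hau
      rw [hpf, Finset.mem_insert, Finset.mem_singleton] at ha
      rcases ha with rfl | rfl
      · exact hpu
      · exact hqu
    · exact two_primes hodd hp hq hpq hpf hval hpu hqv
    · exact two_primes hodd hp hq hpq hpf hval' hpv hqu
    · exfalso; apply hbv
      rw [hpf, Finset.mem_insert, Finset.mem_singleton] at hb
      rcases hb with rfl | rfl
      · exact hpv
      · exact hqv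
  refine ⟨fun s hsF S hsd => ?_, ?_⟩
  · have hs : s.Prime := hsF.out
    obtain ⟨k, hk⟩ := S.2.exists_card_eq
    refine Nat.dvd_antisymm ?_ ?_
    · rw [Monoid.exponent_dvd_iff_forall_pow_eq_one]
      intro x
      rw [← orderOf_dvd_iff_pow_eq_one, ← Subgroup.orderOf_coe]
      have hd : orderOf (x : G) ∣ s ^ k := hk ▸ Subgroup.orderOf_dvd_natCard _ x.2
      rcases hord (x : G) with e | e | e
      · rw [e]; exact one_dvd _
      · rw [e] at hd ⊢
        rw [(Nat.prime_dvd_prime_iff_eq hp hs).1 (hp.dvd_of_dvd_pow hd)]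
      · rw [e] at hd ⊢
        rw [(Nat.prime_dvd_prime_iff_eq hq hs).1 (hq.dvd_of_dvd_pow hd)]
    · obtain ⟨x, hx⟩ := exists_prime_orderOf_dvd_card' (G := (S : Subgroup G)) s (S.dvd_card_of_dvd_card hsd)
      exact (dvd_of_eq hx.symm).trans (Monoid.order_dvd_exponent x)
  · haveI := Fact.mk hp
    haveI := Fact.mk hq
    have hpd := Nat.dvd_of_mem_primeFactors hpm
    have hqd := Nat.dvd_of_mem_primeFactors hqm
    haveI hsol : Group.IsSolvable G :=
      Cfsg.Agent.S0144.result p q ((Nat.card G).factorization p) ((Nat.card G).factorization q) hp hq (by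
        conv_lhs => rw [← Nat.prod_factorization_pow_eq_self (Nat.card_pos (α := G)).ne']
        rw [Finsupp.prod, Nat.support_factorization, hpf, Finset.prod_pair hpq])
    haveI : Nontrivial G := Finite.one_lt_card_iff_nontrivial.1
      (lt_of_lt_of_le hp.one_lt (Nat.le_of_dvd Nat.card_pos hpd))
    obtain ⟨n, hn⟩ := (Group.isSolvable_def G).1 hsol
    obtain ⟨m, hm, hm1⟩ : ∃ m, derivedSeries G m ≠ ⊥ ∧ derivedSeries G (m + 1) = ⊥ := by
      by_contra hc
      push Not at hc
      have hall : ∀ i, derivedSeries G i ≠ ⊥ := by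
        intro i
        induction i with
        | zero => rw [derivedSeries_zero]; exact top_ne_bot
        | succ i ih => exact hc i ih
      exact hall n hn
    set V := derivedSeries G m
    haveI hVn : V.Normal := derivedSeries_normal G m
    haveI hVc : IsMulCommutative V := by
      refine ⟨⟨fun a b => Subtype.ext ?_⟩⟩
      have hmem : ⁅(a : G), (b : G)⁆ ∈ derivedSeries G (m + 1) := by
        rw [derivedSeries_succ]; exact Subgroup.commutator_mem_commutator a.2 b.2
      rw [hm1, Subgroup.mem_bot, commutatorElement_eq_one_iff_mul_comm] at hmem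
      exact hmem
    obtain ⟨x, hxV, hx1⟩ : ∃ x ∈ V, x ≠ 1 := by
      by_contra hc
      push Not at hc
      exact hm ((Subgroup.eq_bot_iff_forall _).2 hc)
    have key : ∀ s t : ℕ, s.Prime → t.Prime → s ≠ t →
        (∀ g : G, orderOf g = 1 ∨ orderOf g = t ∨ orderOf g = s) → orderOf x = s → ∀ v ∈ V, v ^ s = 1 := by
      intro s t hs ht hst hord' hx v hv
      rcases hord' v with e | e | e
      · rw [orderOf_eq_one_iff.1 e, one_pow]
      · exfalso
        have hc : Commute v x := congrArg Subtype.val (hVc.is_comm.comm (⟨v, hv⟩ : V) ⟨x, hxV⟩)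
        have hmul := hc.orderOf_mul_eq_mul_orderOf_of_coprime (by rw [e, hx]; exact (Nat.coprime_primes ht hs).2 hst.symm)
        rw [e, hx] at hmul
        have h1 := ht.two_le
        have h2 := hs.two_le
        have h3 : t * 1 < t * s := Nat.mul_lt_mul_of_pos_left (by omega) (by omega)
        have h4 : 1 * s < t * s := Nat.mul_lt_mul_of_pos_right (by omega) (by omega)
        rw [mul_one] at h3; rw [one_mul] at h4
        rcases hord' (v * x) with e' | e' | e' <;> omega
      · rw [← e, pow_orderOf_eq_one]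
    rcases hord x with e | e | e
    · exact absurd (orderOf_eq_one_iff.1 e) hx1
    · exact complement_of_normal (p := q) hp (Ne.symm hpq) hqd hpd
        (fun g => (hord g).imp_right Or.symm) hm (key p q hp hq hpq (fun g => (hord g).imp_right Or.symm) e)
    · exact complement_of_normal (p := p) hq hpq hpd hqd hord hm (key q p hq hp (Ne.symm hpq) hord e)


/-- Let G be a finite group of odd order in which the numbers of elements of each order that occurs (the numbers #{g : o(g) = m}, m ranging over the element orders of G) take exactly three different values. Then the order of G has at most two prime divisors; and if it has exactly two, then every Sylow subgroup of G for a prime dividing its order has prime exponent, G is a Frobenius group, and some Frobenius complement of G has prime order. -/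
theorem result {G : Type*} [Group G] [Finite G] (hodd : Odd (Nat.card G)) (h : (((fun m : ℕ => Nat.card {g : G // orderOf g = m}) '' Set.range (orderOf : G → ℕ))).ncard = 3) :
    (Nat.card G).primeFactors.card ≤ 2 ∧
      ((Nat.card G).primeFactors.card = 2 →
        (∀ (p : ℕ) [Fact p.Prime] (P : Sylow p G), p ∣ Nat.card G → Monoid.exponent ↥(P : Subgroup G) = p) ∧
        ∃ C : Subgroup G, Cfsg.IsFrobeniusComplement C ∧ (Nat.card ↥C).Prime) := by
  exact main_aux hodd h

end Cfsg.Agent.S4004
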