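import Cfsg.Statements.S4005
import Mathlib
import Cfsg.Agent.S0144
import Cfsg.Agent.Lib.Coprime.Abelian

set_option autoImplicit false
open Cfsg

namespace Cfsg.Agent.S4005

open Subgroup

theorem no_elem_sq {G : Type*} [Group G] [Finite G] {p r : ℕ} (hp : p.Prime) (hr : r.Prime) (hpr : p ≠ r)
    (hno : ∀ g : G, orderOf g ≠ p * r) (A : Subgroup G) [A.Normal] (hAc : IsMulCommutative A)
    (hAexp : ∀ a ∈ A, a ^ p = 1) (hA : A ≠ ⊥) (E : Subgroup G) (hEexp : ∀ e ∈ E, e ^ r = 1)
    (hE : Nat.card E = r ^ 2) : False := by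
  classical
  have := Fintype.ofFinite E
  haveI := Fact.mk hp
  haveI := Fact.mk hr
  let _i : CommGroup A := { (inferInstance : Group A) with mul_comm := fun a b => hAc.1.1 a b }
  let φ : E →* MulAut A := (MulAut.conjNormal (H := A)).comp E.subtype
  obtain ⟨k, hk⟩ := IsPGroup.iff_card.1 (show IsPGroup p A from fun a => ⟨1, Subtype.ext (by
    rw [SubmonoidClass.coe_pow, pow_one, hAexp a a.2]; rfl)⟩)
  have h := Cfsg.Agent.Lib.Coprime.eq_top_of_fixed_mem φ hr (fun e => Subtype.ext (hEexp e e.2)) hE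
    (by rw [hk]; exact ((Nat.coprime_primes hr hp).2 (Ne.symm hpr)).pow_right k) (⊥ : Subgroup A) ?_
  · refine hA (eq_bot_iff.2 fun a ha => ?_)
    have : (⟨a, ha⟩ : A) ∈ (⊥ : Subgroup A) := h ▸ Subgroup.mem_top _
    rw [Subgroup.mem_bot] at this
    exact Subgroup.mem_bot.2 (congrArg Subtype.val this)
  · intro e he a hea
    rw [Subgroup.mem_bot]
    by_contra ha
    have h1 : (e : G) * a * (e : G)⁻¹ = a := by
      have := congrArg Subtype.val hea
      simpa [φ] using this
    have hoa : orderOf (a : G) = p := orderOf_eq_prime (hAexp a a.2) fun h => ha (Subtype.ext h)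
    have hoe : orderOf (e : G) = r := orderOf_eq_prime (hEexp e e.2) fun h => he (Subtype.ext h)
    refine hno ((a : G) * e) ?_
    rw [(show Commute (a : G) e from (mul_inv_eq_iff_eq_mul.1 h1).symm).orderOf_mul_eq_mul_orderOf_of_coprime
      (by rw [hoa, hoe]; exact (Nat.coprime_primes hp hr).2 hpr), hoa, hoe]

/-- A finite group whose set of element orders is exactly {1, 2, 3} has either a normal elementary abelian 3-subgroup of index 2 or a normal elementary abelian 2-subgroup of index 3. -/
theorem result {G : Type*} [Group G] [Finite G] (h : Set.range (orderOf : G → ℕ) = {k : ℕ | 1 ≤ k ∧ k ≤ 3}) :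
    (∃ N : Subgroup G, N.Normal ∧ Cfsg.IsElementaryAbelian 3 N ∧ N.index = 2) ∨
      (∃ N : Subgroup G, N.Normal ∧ Cfsg.IsElementaryAbelian 2 N ∧ N.index = 3) := by
  open Subgroup in
  classical
  have hord : ∀ g : G, orderOf g = 1 ∨ orderOf g = 2 ∨ orderOf g = 3 := by
    intro g
    have : orderOf g ∈ {k : ℕ | 1 ≤ k ∧ k ≤ 3} := h ▸ Set.mem_range_self g
    simp only [Set.mem_ofPred_eq] at this
    omega
  have hno6 : ∀ g : G, orderOf g ≠ 2 * 3 := fun g hg => by rcases hord g with h' | h' | h' <;> omega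
  have hno6' : ∀ g : G, orderOf g ≠ 3 * 2 := fun g hg => by rcases hord g with h' | h' | h' <;> omega
  obtain ⟨t, ht⟩ : ∃ g : G, orderOf g = 2 := by
    have : (2 : ℕ) ∈ Set.range (orderOf : G → ℕ) := by rw [h]; exact ⟨by norm_num, by norm_num⟩
    exact this
  obtain ⟨u, hu⟩ : ∃ g : G, orderOf g = 3 := by
    have : (3 : ℕ) ∈ Set.range (orderOf : G → ℕ) := by rw [h]; exact ⟨by norm_num, le_rfl⟩
    exact this
  haveI : Fact (Nat.Prime 2) := ⟨Nat.prime_two⟩
  haveI : Fact (Nat.Prime 3) := ⟨Nat.prime_three⟩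
  have hpg : ∀ (p : ℕ) (H : Subgroup G) [Fact p.Prime], IsPGroup p H → ∀ x ∈ H, x ^ p = 1 := by
    intro p H hp hH x hx
    obtain ⟨k, hk⟩ := IsPGroup.iff_orderOf.1 hH ⟨x, hx⟩
    rw [Subgroup.orderOf_mk] at hk
    rw [← orderOf_dvd_iff_pow_eq_one, hk]
    rcases Nat.lt_or_ge k 2 with hlt | hge
    · exact (pow_dvd_pow p (show k ≤ 1 by omega)).trans (pow_one p).dvd
    · exfalso
      have h4 : p ^ 2 ∣ orderOf x := hk ▸ pow_dvd_pow p hge
      have hle : p ^ 2 ≤ orderOf x := Nat.le_of_dvd (orderOf_pos x) h4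
      have : 4 ≤ p ^ 2 := Nat.pow_le_pow_left hp.out.two_le 2
      rcases hord x with h' | h' | h' <;> omega
  have hprimes : ∀ r : ℕ, r.Prime → r ∣ Nat.card G → r = 2 ∨ r = 3 := by
    intro r hr hrd
    haveI := Fact.mk hr
    obtain ⟨g, hg⟩ := exists_prime_orderOf_dvd_card' (G := G) r hrd
    have := hr.two_le
    rcases hord g with h' | h' | h' <;> omega
  obtain ⟨S⟩ : Nonempty (Sylow 2 G) := inferInstance
  obtain ⟨P⟩ : Nonempty (Sylow 3 G) := inferInstance
  have hcard : Nat.card G = Nat.card (S : Subgroup G) * Nat.card (P : Subgroup G) := by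
    refine Nat.eq_of_factorization_eq Nat.card_pos.ne' (Nat.mul_ne_zero Nat.card_pos.ne' Nat.card_pos.ne') fun r => ?_
    rw [Nat.factorization_mul Nat.card_pos.ne' Nat.card_pos.ne', Finsupp.add_apply, S.card_eq_multiplicity,
      P.card_eq_multiplicity, Nat.prime_two.factorization_pow, Nat.prime_three.factorization_pow]
    rcases eq_or_ne r 2 with rfl | h2
    · rw [Finsupp.single_eq_same, Finsupp.single_eq_of_ne (by norm_num), add_zero]
    rcases eq_or_ne r 3 with rfl | h3
    · rw [Finsupp.single_eq_same, Finsupp.single_eq_of_ne (by norm_num), zero_add]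
    rw [Finsupp.single_eq_of_ne h2, Finsupp.single_eq_of_ne h3]
    by_contra h0
    have hmem : r ∈ (Nat.card G).primeFactors := by
      rw [← Nat.support_factorization, Finsupp.mem_support_iff]; exact h0
    rw [Nat.mem_primeFactors] at hmem
    rcases hprimes r hmem.1 hmem.2.1 with h' | h' <;> contradiction
  haveI : Nontrivial G := ⟨⟨t, 1, fun h => by rw [h, orderOf_one] at ht; omega⟩⟩
  haveI : Group.IsSolvable G := Cfsg.Agent.S0144.result 2 3 _ _ Nat.prime_two Nat.prime_three
    (by rw [← S.card_eq_multiplicity, ← P.card_eq_multiplicity]; exact hcard)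
  -- an abelian normal subgroup
  obtain ⟨A, hAn, hA, hAc⟩ : ∃ A : Subgroup G, A.Normal ∧ A ≠ ⊥ ∧ IsMulCommutative A := by
    have hex : ∃ k, derivedSeries G k = ⊥ := Group.IsSolvable.solvable
    have h0 : Nat.find hex ≠ 0 := fun h0 => by
      have := Nat.find_spec hex
      rw [h0, derivedSeries_zero] at this
      exact top_ne_bot this
    obtain ⟨k, hk⟩ := Nat.exists_eq_succ_of_ne_zero h0
    refine ⟨derivedSeries G k, inferInstance, Nat.find_min hex (by omega), ⟨⟨fun a b => Subtype.ext ?_⟩⟩⟩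
    have hb : derivedSeries G (k + 1) = ⊥ := by
      have := Nat.find_spec hex; rwa [hk] at this
    rw [derivedSeries_succ, commutator_eq_bot_iff_le_centralizer] at hb
    exact mem_centralizer_iff.1 (hb b.2) a a.2
  haveI := hAn
  obtain ⟨a, ha, ha1⟩ := A.bot_or_exists_ne_one.resolve_left hA
  have hmix : ∀ x ∈ A, ∀ y ∈ A, orderOf x = 2 → orderOf y = 3 → False := by
    intro x hx y hy hx2 hy3
    refine hno6 (x * y) ?_
    rw [(show Commute x y from congrArg Subtype.val (hAc.1.1 ⟨x, hx⟩ ⟨y, hy⟩)).orderOf_mul_eq_mul_orderOf_of_coprime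
      (by rw [hx2, hy3]; norm_num), hx2, hy3]
  rcases hord a with h1 | h2 | h3
  · exact absurd (orderOf_eq_one_iff.1 h1) ha1
  · -- a normal elementary abelian 2-subgroup
    have hAexp : ∀ x ∈ A, x ^ 2 = 1 := by
      intro x hx
      rw [← orderOf_dvd_iff_pow_eq_one]
      rcases hord x with h' | h' | h' <;> rw [h']
      · exact one_dvd _
      · exact (hmix a ha x hx h2 h').elim
    refine Or.inr ⟨S, ?_, ?_, ?_⟩
    pick_goal 3
    · have hP3 : Nat.card (P : Subgroup G) = 3 := by
        obtain ⟨k, hk⟩ := IsPGroup.iff_card.1 P.2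
        have hd : 3 ∣ Nat.card G := hu ▸ orderOf_dvd_natCard u
        have hk0 : k ≠ 0 := fun h0 => P.ne_bot_of_dvd_card hd (card_eq_one.1 (by rw [hk, h0, pow_zero]))
        rcases Nat.lt_or_ge k 2 with hlt | hge
        · rw [hk, show k = 1 by omega, pow_one]
        · exfalso
          obtain ⟨E, hE⟩ := Sylow.exists_subgroup_card_pow_prime 3 (n := 2) (G := (P : Subgroup G)) (hk ▸ pow_dvd_pow 3 hge)
          exact no_elem_sq Nat.prime_two Nat.prime_three (by norm_num) hno6 A hAc hAexp hA (E.map (P : Subgroup G).subtype)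
            (fun e he => hpg 3 P P.2 e (map_subtype_le E he))
            (by rw [card_map_of_injective (P : Subgroup G).subtype_injective, hE])
      have := (S : Subgroup G).card_mul_index
      rw [hcard, hP3] at this
      exact Nat.eq_of_mul_eq_mul_left Nat.card_pos this
    · have hSexp := hpg 2 S S.2
      have hScomm : ∀ x ∈ (S : Subgroup G), ∀ y ∈ (S : Subgroup G), x * y = y * x := by
        intro x hx y hy
        have hinv : ∀ c ∈ (S : Subgroup G), c⁻¹ = c := fun c hc => inv_eq_of_mul_eq_one_right (by rw [← sq, hSexp c hc])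
        calc x * y = (x * y)⁻¹ := (hinv _ (mul_mem hx hy)).symm
          _ = y * x := by rw [mul_inv_rev, hinv x hx, hinv y hy]
      have hAS : A ≤ (S : Subgroup G) := (show IsPGroup 2 A from fun x => ⟨1, Subtype.ext (by
        rw [SubmonoidClass.coe_pow, pow_one, hAexp x x.2]; rfl)⟩).le_sylow_of_normal S
      have hSC : (S : Subgroup G) ≤ centralizer (A : Set G) := fun s hs =>
        mem_centralizer_iff.2 fun x hx => hScomm x (hAS hx) s hs
      have hCp : IsPGroup 2 (centralizer (A : Set G)) := fun c => ⟨1, Subtype.ext (by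
        rw [SubmonoidClass.coe_pow, pow_one]
        rcases hord c with h' | h' | h'
        · rw [orderOf_eq_one_iff.1 h']; exact one_pow 2
        · exact h' ▸ pow_orderOf_eq_one (c : G)
        · exfalso
          refine hno6 (a * c) ?_
          rw [(show Commute a c from mem_centralizer_iff.1 c.2 a ha).orderOf_mul_eq_mul_orderOf_of_coprime
            (by rw [h2, h']; norm_num), h2, h'])⟩
      rw [← S.3 hCp hSC]
      haveI : (centralizer (A : Set G)).Normal := Subgroup.normal_centralizer
      infer_instance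
    · refine ⟨⟨⟨fun x y => Subtype.ext ?_⟩⟩, hpg 2 S S.2⟩
      have hinv : ∀ c ∈ (S : Subgroup G), c⁻¹ = c := fun c hc =>
        inv_eq_of_mul_eq_one_right (by rw [← sq, hpg 2 S S.2 c hc])
      calc (x : G) * y = ((x : G) * y)⁻¹ := (hinv _ (mul_mem x.2 y.2)).symm
        _ = (y : G) * x := by rw [mul_inv_rev, hinv x x.2, hinv y y.2]
  · -- a normal elementary abelian 3-subgroup
    have hAexp : ∀ x ∈ A, x ^ 3 = 1 := by
      intro x hx
      rw [← orderOf_dvd_iff_pow_eq_one]
      rcases hord x with h' | h' | h' <;> rw [h']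
      · exact one_dvd _
      · exact (hmix x hx a ha h' h3).elim
    have hS2 : Nat.card (S : Subgroup G) = 2 := by
      obtain ⟨k, hk⟩ := IsPGroup.iff_card.1 S.2
      have hd : 2 ∣ Nat.card G := ht ▸ orderOf_dvd_natCard t
      have hk0 : k ≠ 0 := fun h0 => S.ne_bot_of_dvd_card hd (card_eq_one.1 (by rw [hk, h0, pow_zero]))
      rcases Nat.lt_or_ge k 2 with hlt | hge
      · rw [hk, show k = 1 by omega, pow_one]
      · exfalso
        obtain ⟨E, hE⟩ := Sylow.exists_subgroup_card_pow_prime 2 (n := 2) (G := (S : Subgroup G)) (hk ▸ pow_dvd_pow 2 hge)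
        exact no_elem_sq Nat.prime_three Nat.prime_two (by norm_num) hno6' A hAc hAexp hA (E.map (S : Subgroup G).subtype)
          (fun e he => hpg 2 S S.2 e (map_subtype_le E he))
          (by rw [card_map_of_injective (S : Subgroup G).subtype_injective, hE])
    have hidx : (P : Subgroup G).index = 2 := by
      have := (P : Subgroup G).card_mul_index
      rw [hcard, hS2, mul_comm 2] at this
      exact Nat.eq_of_mul_eq_mul_left Nat.card_pos this
    haveI hPn : (P : Subgroup G).Normal := Subgroup.normal_of_index_eq_two hidx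
    refine Or.inl ⟨P, hPn, ⟨?_, hpg 3 P P.2⟩, hidx⟩
    let φ : (P : Subgroup G) →* (P : Subgroup G) := ((MulAut.conjNormal (H := (P : Subgroup G))) t).toMonoidHom
    have hφv : ∀ x, ((φ x : (P : Subgroup G)) : G) = t * x * t⁻¹ := fun x => MulAut.conjNormal_apply t x
    have hfpf : MonoidHom.FixedPointFree φ := by
      intro x hx
      by_contra hx1
      have h1 : t * (x : G) * t⁻¹ = x := (hφv x).symm.trans (congrArg Subtype.val hx)
      have hx3 : orderOf (x : G) = 3 := orderOf_eq_prime (hpg 3 P P.2 x x.2) fun h => hx1 (Subtype.ext h)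
      refine hno6 (t * x) ?_
      rw [(show Commute t (x : G) from mul_inv_eq_iff_eq_mul.1 h1).orderOf_mul_eq_mul_orderOf_of_coprime
        (by rw [ht, hx3]; norm_num), ht, hx3]
    have hinvol : Function.Involutive φ := by
      intro x
      apply Subtype.ext
      rw [hφv, hφv]
      have htt : t * t = 1 := by rw [← sq, ← ht]; exact pow_orderOf_eq_one t
      calc t * (t * (x : G) * t⁻¹) * t⁻¹ = (t * t) * x * (t * t)⁻¹ := by group
        _ = x := by rw [htt]; group
    exact ⟨⟨fun x y => hfpf.commute_all_of_involutive hinvol x y⟩⟩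

end Cfsg.Agent.S4005
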