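import Mathlib
import Cfsg.Statements.S4006
import Cfsg.Agent.Lib.Hall.Solvable
import Cfsg.Agent.Lib.Char.Burnside
import Cfsg.Agent.Lib.UniqueInvolution
import Cfsg.Prelude.Def_Transfer

set_option autoImplicit false

open scoped commutatorElement Pointwise

namespace Cfsg.Agent.S4006

open Subgroup
open scoped commutatorElement

universe u

/-- A 2-group in which every element commutes with its conjugates has class at most two. -/
theorem two_engel (n : ℕ) : ∀ (T : Type u) [Group T] [Finite T], Nat.card T = n → IsPGroup 2 T →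
    (∀ a b : T, Commute a (b * a * b⁻¹)) → ∀ a b c : T, Commute ⁅a, b⁆ c := by
  induction n using Nat.strongRecOn with | ind n ih => ?_
  intro T _ _ hn hT hE
  rcases subsingleton_or_nontrivial T with hs | hnt
  · exact fun a b c => Subsingleton.elim _ _
  have hZ : center T ≠ ⊥ := fun h => by
    have := hT.center_nontrivial
    exact (nontrivial_iff_ne_bot _).mp this h
  have hlt : Nat.card (T ⧸ center T) < n := hn ▸ Lib.Coprime.card_quotient_lt hZ
  have hq : ∀ a b c : T, ⁅⁅a, b⁆, c⁆ ∈ center T := fun a b c => by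
    have h := ih _ hlt (T ⧸ center T) rfl (hT.to_quotient _) (fun x y => by
      induction x using QuotientGroup.induction_on with | H x => ?_
      induction y using QuotientGroup.induction_on with | H y => ?_
      rw [← QuotientGroup.mk_inv, ← QuotientGroup.mk_mul, ← QuotientGroup.mk_mul]
      exact (hE x y).map (QuotientGroup.mk' (center T))) a b c
    rw [← QuotientGroup.eq_one_iff]
    exact (map_commutatorElement (QuotientGroup.mk' (center T)) ⁅a, b⁆ c).trans
      (by rw [map_commutatorElement]; exact commutatorElement_eq_one_iff_commute.mpr h)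
  -- `f a b c = [[a, b], c]` is a central trilinear form
  have hcz : ∀ {z : T}, z ∈ center T → ∀ y, z * y = y * z := fun hz y =>
    (mem_center_iff.mp hz y).symm
  have hlc : ∀ a b c c' : T, ⁅⁅a, b⁆, c * c'⁆ = ⁅⁅a, b⁆, c⁆ * ⁅⁅a, b⁆, c'⁆ := fun a b c c' => by
    rw [commutatorElement_mul_right_eq_mul_conj, mul_assoc ⁅⁅a, b⁆, c⁆ c, ← hcz (hq a b c') c,
      ← mul_assoc, mul_inv_cancel_right]
  have hla : ∀ a a' b c : T, ⁅⁅a * a', b⁆, c⁆ = ⁅⁅a', b⁆, c⁆ * ⁅⁅a, b⁆, c⁆ := fun a a' b c => by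
    set z := ⁅a, ⁅a', b⁆⁆ with hzdef
    have hz : z ∈ center T := by
      rw [hzdef, ← commutatorElement_inv]; exact inv_mem (hq a' b a)
    have e : ⁅a * a', b⁆ = z * (⁅a', b⁆ * ⁅a, b⁆) := by
      rw [hzdef]; simp only [commutatorElement_def]; group
    have e2 : ∀ u v w : T, ⁅u * v, w⁆ = u * ⁅v, w⁆ * u⁻¹ * ⁅u, w⁆ := fun u v w => by
      simp only [commutatorElement_def]; group
    rw [e, e2 z, e2 ⁅a', b⁆, show ⁅z, c⁆ = 1 from commutatorElement_eq_one_iff_commute.mpr (hcz hz c),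
      mul_one, hcz hz, mul_inv_cancel_right, ← hcz (hq a b c) ⁅a', b⁆, mul_inv_cancel_right,
      hcz (hq a b c)]
  have hneg : ∀ a b c : T, ⁅⁅a, b⁆, c⁆ * ⁅⁅b, a⁆, c⁆ = 1 := fun a b c => by
    rw [← commutatorElement_inv a b]
    have h : ⁅⁅a, b⁆⁻¹, c⁆ = ⁅a, b⁆⁻¹ * ⁅⁅a, b⁆, c⁆⁻¹ * ⁅a, b⁆ := by
      simp only [commutatorElement_def]; group
    rw [h, ← hcz (inv_mem (hq a b c)), inv_mul_cancel_right, mul_inv_cancel]
  have hbb : ∀ a b : T, ⁅⁅a, b⁆, b⁆ = 1 := fun a b => by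
    rw [commutatorElement_eq_one_iff_commute, commutatorElement_def]
    have h : Commute (a * b * a⁻¹) b := (hE b a).symm
    exact h.mul_left (Commute.refl b).inv_left
  have hlb : ∀ a b b' c : T, ⁅⁅a, b * b'⁆, c⁆ = ⁅⁅a, b⁆, c⁆ * ⁅⁅a, b'⁆, c⁆ := fun a b b' c => by
    rw [eq_inv_of_mul_eq_one_left (hneg a (b * b') c), hla, eq_inv_of_mul_eq_one_left (hneg a b c),
      eq_inv_of_mul_eq_one_left (hneg a b' c), mul_inv_rev]
  have hskew : ∀ a b c : T, ⁅⁅a, b⁆, c⁆ * ⁅⁅a, c⁆, b⁆ = 1 := fun a b c => by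
    have h := hbb a (b * c)
    rw [hlb, hlc, hlc, hbb, hbb, one_mul, mul_one] at h
    exact h
  have hcyc : ∀ a b c : T, ⁅⁅b, c⁆, a⁆ = ⁅⁅a, b⁆, c⁆ := fun a b c => by
    rw [eq_inv_of_mul_eq_one_left (hskew b c a), eq_inv_of_mul_eq_one_left (hneg b a c), inv_inv]
  have hconj : ∀ a b c g : T, ⁅⁅a, b⁆, g * c * g⁻¹⁆ = ⁅⁅a, b⁆, c⁆ := fun a b c g => by
    have h1 : ⁅⁅a, b⁆, g⁆ * ⁅⁅a, b⁆, g⁻¹⁆ = 1 := by
      rw [← hlc, mul_inv_cancel, commutatorElement_one_right]
    rw [hlc, hlc, hcz (hq a b g), mul_assoc, h1, mul_one]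
  intro a b c
  have hW : ⁅⁅a, b⁆, b * c * b⁻¹⁆ * ⁅⁅b, c⁆, c * a * c⁻¹⁆ * ⁅⁅c, a⁆, a * b * a⁻¹⁆ = 1 := by
    simp only [commutatorElement_def]; group
  rw [hconj, hconj, hconj, hcyc a b c, hcyc b c a, hcyc a b c] at hW
  rw [← commutatorElement_eq_one_iff_commute]
  obtain ⟨k, hk⟩ := IsPGroup.iff_orderOf.mp hT ⁅⁅a, b⁆, c⁆
  rw [← orderOf_eq_one_iff]
  refine Nat.eq_one_of_dvd_coprimes (Nat.Coprime.pow_right k (show Nat.Coprime 3 2 by norm_num))
    (orderOf_dvd_of_pow_eq_one ?_) (hk.symm ▸ dvd_rfl)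
  rw [pow_succ, pow_two]; exact hW

section
variable {G : Type*} [Group G] [Finite G]

theorem order_cases (hord : ∀ g : G, orderOf g ∈ ({1, 2, 3, 4} : Set ℕ)) (g : G) :
    g ^ 4 = 1 ∨ g ^ 3 = 1 := by
  rcases hord g with h | h | h | h
  · left; rw [orderOf_eq_one_iff.mp h, one_pow]
  · left; rw [show (4 : ℕ) = 2 * 2 from rfl, pow_mul, ← h, pow_orderOf_eq_one, one_pow]
  · right; rw [← h]; exact pow_orderOf_eq_one g
  · left
    rw [Set.mem_singleton_iff] at h
    rw [← h]; exact pow_orderOf_eq_one g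

theorem eq_one_of_pow3_pow4 {H : Type*} [Group H] {g : H} (h3 : g ^ 3 = 1) (h4 : g ^ 4 = 1) :
    g = 1 := by
  rwa [pow_succ, h3, one_mul] at h4

theorem no_six (hord : ∀ g : G, orderOf g ∈ ({1, 2, 3, 4} : Set ℕ)) {x y : G} (hx : x ^ 3 = 1)
    (hy : y ^ 4 = 1) (h : Commute x y) : x = 1 ∨ y = 1 := by
  rcases order_cases hord (x * y) with h' | h' <;> rw [h.mul_pow] at h'
  · rw [hy, mul_one] at h'; exact Or.inl (eq_one_of_pow3_pow4 hx h')
  · rw [hx, one_mul] at h'; exact Or.inr (eq_one_of_pow3_pow4 h' hy)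

theorem pow4_of_mem (hord : ∀ g : G, orderOf g ∈ ({1, 2, 3, 4} : Set ℕ)) {T : Subgroup G}
    (hT : IsPGroup 2 T) {n : G} (hn : n ∈ T) : n ^ 4 = 1 := by
  obtain ⟨k, hk⟩ := IsPGroup.iff_orderOf.mp hT ⟨n, hn⟩
  rw [orderOf_mk] at hk
  rcases order_cases hord n with h | h3
  · exact h
  · rw [orderOf_eq_one_iff.mp (Nat.eq_one_of_dvd_coprimes
      (Nat.Coprime.pow_right k (show Nat.Coprime 3 2 by norm_num))
      (orderOf_dvd_of_pow_eq_one h3) (hk ▸ dvd_rfl)), one_pow]

/-- Elements of order 3 outside a normal 2-subgroup. -/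
theorem cube_of_coset (hord : ∀ g : G, orderOf g ∈ ({1, 2, 3, 4} : Set ℕ)) {T : Subgroup G}
    [T.Normal] {x : G} (hx : x ^ 3 = 1) (hxT : x ∉ T) {n : G} (hn : n ∈ T) :
    (n * x) ^ 3 = 1 ∧ n * x ∉ T := by
  have hnx : n * x ∉ T := fun h => hxT ((mul_mem_cancel_left hn).mp h)
  refine ⟨(order_cases hord (n * x)).resolve_left fun h4 => hxT ?_, hnx⟩
  let π := QuotientGroup.mk' T
  have hπn : π n = 1 := (QuotientGroup.eq_one_iff n).mpr hn
  have h4' : π x ^ 4 = 1 := by
    have := congrArg π h4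
    rw [map_pow, map_mul, hπn, one_mul, map_one] at this
    exact this
  have h3' : π x ^ 3 = 1 := by rw [← map_pow, hx, map_one]
  exact (QuotientGroup.eq_one_iff x).mp (eq_one_of_pow3_pow4 h3' h4')

theorem fpf_identity {x : G} (hx : x ^ 3 = 1) {n : G} (h : (n * x) ^ 3 = 1) :
    n * (x * n * x⁻¹) * (x * (x * n * x⁻¹) * x⁻¹) = 1 := by
  have e : (n * x) ^ 3 = n * (x * n * x⁻¹) * (x * (x * n * x⁻¹) * x⁻¹) * x ^ 3 := by
    simp only [pow_succ, pow_zero, one_mul]; group
  rwa [e, hx, mul_one] at h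

theorem commute_conj (hord : ∀ g : G, orderOf g ∈ ({1, 2, 3, 4} : Set ℕ)) {T : Subgroup G}
    [T.Normal] {x : G} (hx : x ^ 3 = 1) (hxT : x ∉ T) {n : G} (hn : n ∈ T) :
    Commute n (x * n * x⁻¹) := by
  have h1 := fpf_identity hx (cube_of_coset hord hx hxT hn).1
  have hxi : x⁻¹ ^ 3 = 1 := by rw [inv_pow, hx, inv_one]
  have h2 := fpf_identity hxi (cube_of_coset hord hxi (fun h => hxT (inv_mem_iff.mp h)) hn).1
  have hx2 : x⁻¹ = x * x := inv_eq_of_mul_eq_one_left (by rw [← pow_two, ← pow_succ, hx])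
  have hx2' : x⁻¹ * x⁻¹ = x := by
    rw [hx2, ← mul_assoc, mul_assoc x x x, ← hx2]; simp
  rw [inv_inv] at h2
  set a := x * n * x⁻¹ with ha
  set b := x⁻¹ * n * x with hb
  have e1 : x * a * x⁻¹ = b := by
    rw [ha, hb]
    calc x * (x * n * x⁻¹) * x⁻¹ = (x * x) * n * (x * x)⁻¹ := by group
      _ = x⁻¹ * n * x := by rw [← hx2, inv_inv]
  have e2 : x⁻¹ * b * x = a := by
    rw [ha, hb]
    calc x⁻¹ * (x⁻¹ * n * x) * x = (x⁻¹ * x⁻¹) * n * (x⁻¹ * x⁻¹)⁻¹ := by
          simp only [mul_inv_rev, inv_inv, mul_assoc]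
      _ = x * n * x⁻¹ := by rw [hx2']
  rw [e1] at h1
  rw [e2, mul_assoc] at h2
  rw [mul_assoc] at h1
  have hab : a * b = b * a := by rw [eq_inv_of_mul_eq_one_right h1, eq_inv_of_mul_eq_one_right h2]
  have := congrArg (fun g => x⁻¹ * g * x) hab
  have e3 : x⁻¹ * (a * b) * x = n * a := by
    calc x⁻¹ * (a * b) * x = (x⁻¹ * a * x) * (x⁻¹ * b * x) := by group
      _ = n * a := by rw [e2, ha]; group
  have e4 : x⁻¹ * (b * a) * x = a * n := by
    calc x⁻¹ * (b * a) * x = (x⁻¹ * b * x) * (x⁻¹ * a * x) := by group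
      _ = a * n := by rw [e2, ha]; group
  show n * a = a * n
  rw [← e3, ← e4]; exact this

theorem engel (hord : ∀ g : G, orderOf g ∈ ({1, 2, 3, 4} : Set ℕ)) {T : Subgroup G}
    [T.Normal] {x : G} (hx : x ^ 3 = 1) (hxT : x ∉ T) {n c : G} (hn : n ∈ T) (hc : c ∈ T) :
    Commute n (c * n * c⁻¹) := by
  have key : ∀ y : G, y ^ 3 = 1 → y ∉ T → Commute n (c * (y * n * y⁻¹) * c⁻¹) := fun y hy hyT => by
    obtain ⟨h1, h2⟩ := cube_of_coset hord hy hyT hc
    have := commute_conj hord h1 h2 hn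
    rwa [show c * y * n * (c * y)⁻¹ = c * (y * n * y⁻¹) * c⁻¹ by group] at this
  have h1 := fpf_identity hx (cube_of_coset hord hx hxT hn).1
  have hx2 : x⁻¹ = x * x := inv_eq_of_mul_eq_one_left (by rw [← pow_two, ← pow_succ, hx])
  have e1 : x * (x * n * x⁻¹) * x⁻¹ = x⁻¹ * n * x⁻¹⁻¹ := by
    calc x * (x * n * x⁻¹) * x⁻¹ = (x * x) * n * (x * x)⁻¹ := by group
      _ = _ := by rw [← hx2]
  rw [mul_assoc, e1] at h1
  have hn' := eq_inv_of_mul_eq_one_left h1
  nth_rewrite 2 [hn']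
  rw [show c * (x * n * x⁻¹ * (x⁻¹ * n * x⁻¹⁻¹))⁻¹ * c⁻¹ =
    (c * (x⁻¹ * n * x⁻¹⁻¹) * c⁻¹)⁻¹ * (c * (x * n * x⁻¹) * c⁻¹)⁻¹ by
      simp only [mul_inv_rev, inv_inv, mul_assoc, inv_mul_cancel_left, mul_inv_cancel_left]]
  exact (key x⁻¹ (by rw [inv_pow, hx, inv_one]) (fun h => hxT (inv_mem_iff.mp h))).inv_right.mul_right
    (key x hx hxT).inv_right

theorem class_two (hord : ∀ g : G, orderOf g ∈ ({1, 2, 3, 4} : Set ℕ)) {T : Subgroup G}
    [T.Normal] (hT : IsPGroup 2 T) {x : G} (hx : x ^ 3 = 1) (hxT : x ∉ T) :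
    ∀ a b c : T, Commute ⁅a, b⁆ c :=
  two_engel _ T rfl hT fun a b => Subtype.ext (engel hord hx hxT a.2 b.2).eq

/-- A normal 2-subgroup normalised by `S₃` is elementary abelian. -/
theorem elementary (hord : ∀ g : G, orderOf g ∈ ({1, 2, 3, 4} : Set ℕ)) {T : Subgroup G}
    [T.Normal] (hT : IsPGroup 2 T) {x t : G} (hx : x ^ 3 = 1) (hxT : x ∉ T) (ht : t * t = 1)
    (htx : t * x * t⁻¹ = x⁻¹) (htT : t ∉ T) :
    ∀ a ∈ T, ∀ b ∈ T, a * b = b * a ∧ a ^ 2 = 1 := by
  have hTc : ∀ {a : G}, a ∈ T → ∀ g : G, g * a * g⁻¹ ∈ T := fun ha g =>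
    (inferInstance : T.Normal).conj_mem _ ha g
  have hcl := class_two hord hT hx hxT
  set Z := T ⊓ centralizer (T : Set G) with hZdef
  have hZn : Z.Normal := inferInstance
  let π := QuotientGroup.mk' Z
  have hcz : ∀ a ∈ T, ∀ b ∈ T, ⁅a, b⁆ ∈ Z := fun a ha b hb => by
    refine ⟨show ⁅a, b⁆ ∈ T by rw [commutatorElement_def]; exact mul_mem (mul_mem (mul_mem ha hb) (inv_mem ha)) (inv_mem hb),
      mem_centralizer_iff.mpr fun c hc => ?_⟩
    exact (congrArg Subtype.val (hcl ⟨a, ha⟩ ⟨b, hb⟩ ⟨c, hc⟩).eq).symm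
  have hπc : ∀ a ∈ T, ∀ b ∈ T, Commute (π a) (π b) := fun a ha b hb => by
    rw [← commutatorElement_eq_one_iff_commute, ← map_commutatorElement]
    exact (QuotientGroup.eq_one_iff _).mpr (hcz a ha b hb)
  have hfpf : ∀ u ∈ T, u * (x * u * x⁻¹) * (x * (x * u * x⁻¹) * x⁻¹) = 1 := fun u hu =>
    fpf_identity hx (cube_of_coset hord hx hxT hu).1
  -- the involutions in the cosets
  let v : G → G := fun u => u * (t * u * t⁻¹)
  have hv : ∀ u ∈ T, v u * v u = 1 := by
    intro u hu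
    have ht' : t⁻¹ = t := inv_eq_of_mul_eq_one_right ht
    have e : (u * t) ^ 2 = v u := by rw [pow_two]; simp only [v, ht']; group
    rw [← e, ← pow_two, ← pow_mul]
    refine (order_cases hord (u * t)).resolve_right fun h3 => htT ?_
    have hπu : QuotientGroup.mk' T u = 1 := (QuotientGroup.eq_one_iff u).mpr hu
    have h3' : QuotientGroup.mk' T t ^ 3 = 1 := by
      have := congrArg (QuotientGroup.mk' T) h3
      rw [map_pow, map_mul, hπu, one_mul, map_one] at this
      exact this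
    refine (QuotientGroup.eq_one_iff t).mp (eq_one_of_pow3_pow4 h3' ?_)
    show QuotientGroup.mk' T t ^ 4 = 1
    rw [← map_pow, show t ^ 4 = t * t * (t * t) by simp only [pow_succ, pow_zero, one_mul, mul_assoc],
      ht, one_mul, map_one]
  have hvT : ∀ u ∈ T, v u ∈ T := fun u hu => mul_mem hu (hTc hu t)
  -- conjugates of these by powers of `x`
  let w : G → G → G := fun g u => g * v (g⁻¹ * u * g) * g⁻¹
  have hw : ∀ g, ∀ u ∈ T, w g u * w g u = 1 := fun g u hu => by
    have h := hv _ (by simpa using hTc hu g⁻¹)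
    rw [show w g u * w g u = g * (v (g⁻¹ * u * g) * v (g⁻¹ * u * g)) * g⁻¹ by
      simp only [w]; group, h]
    group
  have hwT : ∀ g, ∀ u ∈ T, w g u ∈ T := fun g u hu => hTc (hvT _ (by simpa using hTc hu g⁻¹)) g
  have hw_eq : ∀ g u, w g u = u * ((g * t * g⁻¹) * u * (g * t * g⁻¹)⁻¹) := fun g u => by
    simp only [w, v]; group
  have ht' : t⁻¹ = t := inv_eq_of_mul_eq_one_right ht
  have hx2 : x⁻¹ = x * x := inv_eq_of_mul_eq_one_left (by rw [← pow_two, ← pow_succ, hx])
  have hxt : x * t * x⁻¹ = x * x * t := by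
    have e : t * x⁻¹ = x * t := by
      have := congrArg (fun g => g⁻¹ * t) htx
      simp only [mul_inv_rev, inv_inv] at this
      calc t * x⁻¹ = t * (x⁻¹ * t⁻¹) * t := by group
        _ = x * t := this
    rw [mul_assoc, e, mul_assoc]
  have hxt' : x * x * t * (x * x)⁻¹ = x * t := by
    calc x * x * t * (x * x)⁻¹ = x * (x * t * x⁻¹) * x⁻¹ := by group
      _ = x * (x * x * t) * x⁻¹ := by rw [hxt]
      _ = x * (x * (x * t * x⁻¹)) := by group
      _ = x ^ 3 * (x * t) := by rw [hxt]; simp only [pow_succ, pow_zero]; group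
      _ = x * t := by rw [hx, one_mul]
  -- `u³` is a product of three of them in every abelian image
  have hprod : ∀ {H : Type _} [Group H] (f : G →* H), (∀ a ∈ T, ∀ b ∈ T, Commute (f a) (f b)) →
      ∀ u ∈ T, f u ^ 3 = f (w 1 u) * f (w (x * x) u) * f (w x u) := by
    intro H _ f hf u hu
    set m := t * u * t⁻¹ with hm
    have hmT : m ∈ T := hTc hu t
    have h1 : w 1 u = u * m := by rw [hw_eq]; simp [hm]
    have h2 : w (x * x) u = u * (x * m * x⁻¹) := by rw [hw_eq, hxt', hm]; group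
    have h3 : w x u = u * (x * (x * m * x⁻¹) * x⁻¹) := by rw [hw_eq, hxt, hm]; group
    rw [h1, h2, h3, map_mul f u m, map_mul f u (x * m * x⁻¹), map_mul f u (x * (x * m * x⁻¹) * x⁻¹)]
    set a := f m with ha
    set b := f (x * m * x⁻¹) with hb
    set c := f (x * (x * m * x⁻¹) * x⁻¹) with hc
    have habc : a * b * c = 1 := by rw [ha, hb, hc, ← map_mul, ← map_mul, hfpf m hmT, map_one]
    have hua : Commute (f u) a := hf u hu m hmT
    have hub : Commute (f u) b := hf u hu _ (hTc hmT x)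
    calc f u ^ 3 = f u ^ 3 * (a * b * c) := by rw [habc, mul_one]
      _ = f u * (f u * (f u * (a * b))) * c := by
          simp only [pow_succ, pow_zero, one_mul, mul_assoc]
      _ = f u * (f u * a) * b * f u * c := by
          rw [(hua.mul_right hub).eq]; simp only [mul_assoc]
      _ = f u * (a * f u) * b * f u * c := by rw [hua.eq]
      _ = f u * a * (f u * b) * (f u * c) := by simp only [mul_assoc]
  have hsq : ∀ u ∈ T, π u ^ 2 = 1 := by
    intro u hu
    have h6 : (π u ^ 3) ^ 2 = 1 := by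
      rw [hprod π hπc u hu,
        (((hπc _ (hwT 1 u hu) _ (hwT x u hu))).mul_left (hπc _ (hwT _ u hu) _ (hwT x u hu))).mul_pow,
        (hπc _ (hwT 1 u hu) _ (hwT _ u hu)).mul_pow, pow_two, pow_two, pow_two]
      simp only [← map_mul, hw 1 u hu, hw (x * x) u hu, hw x u hu, map_one, mul_one]
    have h4 : π u ^ 4 = 1 := by rw [← map_pow, pow4_of_mem hord hT hu, map_one]
    rw [← pow_mul, show 3 * 2 = 4 + 2 from rfl, pow_add, h4, one_mul] at h6
    exact h6
  have hcz' : ∀ z ∈ Z, ∀ a ∈ T, Commute z a := fun z hz a ha => (mem_centralizer_iff.mp hz.2 a ha).symm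
  have hml : ∀ a ∈ T, ∀ b ∈ T, ∀ c ∈ T, ⁅a * b, c⁆ = ⁅a, c⁆ * ⁅b, c⁆ := fun a ha b hb c hc => by
    have e : ⁅a * b, c⁆ = a * ⁅b, c⁆ * a⁻¹ * ⁅a, c⁆ := by simp only [commutatorElement_def]; group
    rw [e, ← (hcz' _ (hcz b hb c hc) a ha).eq, mul_inv_cancel_right,
      (hcz' _ (hcz b hb c hc) _ (hcz a ha c hc).1).eq]
  have hmr : ∀ a ∈ T, ∀ b ∈ T, ∀ c ∈ T, ⁅a, b * c⁆ = ⁅a, b⁆ * ⁅a, c⁆ := fun a ha b hb c hc => by
    rw [commutatorElement_mul_right_eq_mul_conj, mul_assoc ⁅a, b⁆ b,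
      ← (hcz' _ (hcz a ha c hc) b hb).eq, ← mul_assoc, mul_inv_cancel_right]
  have hc2 : ∀ a ∈ T, ∀ b ∈ T, ⁅a, b⁆ * ⁅a, b⁆ = 1 := fun a ha b hb => by
    rw [← hml a ha a ha b hb, commutatorElement_eq_one_iff_commute, ← pow_two]
    exact hcz' _ ((QuotientGroup.eq_one_iff _).mp (by
      rw [show ((a ^ 2 : G) : G ⧸ Z) = π a ^ 2 from map_pow π a 2]; exact hsq a ha)) b hb
  have hinv : ∀ a ∈ T, ∀ b ∈ T, ⁅a, b⁆⁻¹ = ⁅a, b⁆ := fun a ha b hb =>
    inv_eq_of_mul_eq_one_right (hc2 a ha b hb)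
  -- the involutions `v u` commute with each other
  have hvv : ∀ u ∈ T, ∀ u' ∈ T, Commute (v u) (v u') := by
    intro u hu u' hu'
    set z := ⁅u', t * u * t⁻¹⁆ with hz
    have hzZ : z ∈ Z := hcz _ hu' _ (hTc hu t)
    have e : v (u * u') = u * z * ((t * u * t⁻¹) * u' * (t * u' * t⁻¹)) := by
      simp only [v, hz, commutatorElement_def]; group
    rw [← (hcz' z hzZ u hu).eq, mul_assoc, show u * ((t * u * t⁻¹) * u' * (t * u' * t⁻¹)) = v u * v u' by
      simp only [v]; group] at e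
    have h1 := hv _ (mul_mem hu hu')
    rw [e] at h1
    have hzV : Commute z (v u * v u') := hcz' z hzZ _ (mul_mem (hvT u hu) (hvT u' hu'))
    rw [mul_assoc, ← mul_assoc (v u * v u') z, ← hzV.eq, mul_assoc z (v u * v u'), ← mul_assoc z z,
      hc2 _ hu' _ (hTc hu t), one_mul] at h1
    show v u * v u' = v u' * v u
    rw [← inv_eq_of_mul_eq_one_right h1, mul_inv_rev, inv_eq_of_mul_eq_one_right (hv u hu),
      inv_eq_of_mul_eq_one_right (hv u' hu')]
  have hcomm1 : ∀ u ∈ T, ∀ u' ∈ T, Commute (v u) (x * v u' * x⁻¹) := by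
    intro a ha b hb
    set c := v a with hc
    set d := v b with hd
    have hcT := hvT a ha
    have hdT := hvT b hb
    have hlin : ∀ n ∈ T, ⁅n, x * n * x⁻¹⁆ = 1 := fun n hn =>
      commutatorElement_eq_one_iff_commute.mpr (commute_conj hord hx hxT hn)
    set β := ⁅c, x * d * x⁻¹⁆ with hβ
    have hsym : ⁅d, x * c * x⁻¹⁆ = β := by
      have h := hlin (c * d) (mul_mem hcT hdT)
      rw [show x * (c * d) * x⁻¹ = x * c * x⁻¹ * (x * d * x⁻¹) by group,
        hml c hcT d hdT _ (mul_mem (hTc hcT x) (hTc hdT x)),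
        hmr c hcT _ (hTc hcT x) _ (hTc hdT x), hmr d hdT _ (hTc hcT x) _ (hTc hdT x),
        hlin c hcT, hlin d hdT, one_mul, mul_one] at h
      rw [eq_inv_of_mul_eq_one_right h, hinv c hcT _ (hTc hdT x)]
    have hfix : x * β * x⁻¹ = β := by
      have e : x * β * x⁻¹ = ⁅x * c * x⁻¹, x * (x * d * x⁻¹) * x⁻¹⁆ := by
        simp only [hβ, commutatorElement_def]; group
      have h := hfpf d hdT
      rw [mul_assoc] at h
      have h' : ⁅x * c * x⁻¹, d⁆ * (⁅x * c * x⁻¹, x * d * x⁻¹⁆ *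
          ⁅x * c * x⁻¹, x * (x * d * x⁻¹) * x⁻¹⁆) = 1 := by
        rw [← hmr _ (hTc hcT x) _ (hTc hdT x) _ (hTc (hTc hdT x) x),
          ← hmr _ (hTc hcT x) _ hdT _ (mul_mem (hTc hdT x) (hTc (hTc hdT x) x)), h,
          commutatorElement_one_right]
      have h0 : ⁅x * c * x⁻¹, x * d * x⁻¹⁆ = 1 := by
        rw [commutatorElement_eq_one_iff_commute]
        exact (hvv a ha b hb).map (MulAut.conj x).toMonoidHom
      rw [h0, one_mul, ← e] at h'
      rw [eq_inv_of_mul_eq_one_right h', commutatorElement_inv, hsym]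
    have hcxβ : Commute x β := by
      show x * β = β * x
      nth_rewrite 2 [← hfix]; group
    rcases no_six hord hx (pow4_of_mem hord hT (hcz c hcT _ (hTc hdT x)).1) hcxβ with h | h
    · exact absurd (h ▸ T.one_mem) hxT
    · exact commutatorElement_eq_one_iff_commute.mp h
  have hall : ∀ u ∈ T, ∀ u' ∈ T, u * u' = u' * u := by
    have hgen : ∀ a ∈ T, ∀ u ∈ T, Commute (v a) u := by
      intro a ha u hu
      have hc1 : Commute (v a) (w 1 u) := by
        have : w 1 u = v u := by simp [w]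
        rw [this]; exact hvv a ha u hu
      have hcx : Commute (v a) (w x u) := hcomm1 a ha _ (by simpa using hTc hu x⁻¹)
      have hcxx : Commute (v a) (w (x * x) u) := by
        set u' := (x * x)⁻¹ * u * (x * x) with hu'
        have hu'T : u' ∈ T := by rw [hu']; simpa using hTc hu (x * x)⁻¹
        have h := hfpf (v u') (hvT u' hu'T)
        have e : w (x * x) u = x * (x * v u' * x⁻¹) * x⁻¹ := by simp only [w, hu']; group
        rw [e, eq_inv_of_mul_eq_one_right h]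
        exact ((hvv a ha u' hu'T).mul_right (hcomm1 a ha u' hu'T)).inv_right
      set W := w 1 u * w (x * x) u * w x u with hW
      have hz : W⁻¹ * u ∈ Z := by
        refine QuotientGroup.eq.mp ?_
        show π W = π u
        have := hprod π hπc u hu
        rw [pow_succ, hsq u hu, one_mul] at this
        rw [this, hW, map_mul, map_mul]
      rw [show u = W * (W⁻¹ * u) by group]
      exact ((hc1.mul_right hcxx).mul_right hcx).mul_right (hcz' _ hz _ (hvT a ha)).symm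
    have hgenw : ∀ g, ∀ a ∈ T, ∀ u ∈ T, Commute (w g a) u := fun g a ha u hu => by
      have := (hgen _ (by simpa using hTc ha g⁻¹) _ (by simpa using hTc hu g⁻¹)).map
        (MulAut.conj g).toMonoidHom
      simpa [w, mul_assoc] using this
    intro u hu u' hu'
    have hz : (w 1 u * w (x * x) u * w x u)⁻¹ * u ∈ Z := by
      refine QuotientGroup.eq.mp ?_
      show π (w 1 u * w (x * x) u * w x u) = π u
      have := hprod π hπc u hu
      rw [pow_succ, hsq u hu, one_mul] at this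
      rw [this, map_mul, map_mul]
    rw [show u = (w 1 u * w (x * x) u * w x u) * ((w 1 u * w (x * x) u * w x u)⁻¹ * u) by group]
    exact ((((hgenw 1 u hu u' hu').mul_left (hgenw _ u hu u' hu')).mul_left
      (hgenw x u hu u' hu')).mul_left (hcz' _ hz u' hu')).eq
  intro a ha b hb
  refine ⟨hall a ha b hb, ?_⟩
  have hidc : ∀ a ∈ T, ∀ b ∈ T, Commute (MonoidHom.id G a) (MonoidHom.id G b) := hall
  have h6 : (a ^ 3) ^ 2 = 1 := by
    have := hprod (MonoidHom.id G) hidc a ha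
    simp only [MonoidHom.id_apply] at this
    rw [this, ((show Commute (w 1 a) (w x a) from hall _ (hwT 1 a ha) _ (hwT x a ha)).mul_left
      (show Commute (w (x * x) a) (w x a) from hall _ (hwT _ a ha) _ (hwT x a ha))).mul_pow,
      (show Commute (w 1 a) (w (x * x) a) from hall _ (hwT 1 a ha) _ (hwT _ a ha)).mul_pow,
      pow_two, pow_two, pow_two, hw 1 a ha, hw _ a ha, hw x a ha, one_mul, one_mul]
  rw [← pow_mul, show 3 * 2 = 4 + 2 from rfl, pow_add, pow4_of_mem hord hT ha, one_mul] at h6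
  exact h6

theorem cube_aux {A : Type*} [CommGroup A] {n a b p q r s : A} (h1 : n * a * b = 1)
    (h2 : n * p * q = 1) (h3 : n * r * s = 1) (h4 : a * p * s = 1) (h5 : b * r * q = 1) :
    n ^ 3 = 1 := by
  have e : a * p * s * (b * r * q) * n ^ 3 = n * a * b * (n * p * q) * (n * r * s) := by
    simp only [pow_succ, pow_zero, one_mul]; ac_rfl
  rw [h1, h2, h3, h4, h5, one_mul, one_mul] at e
  simpa using e

theorem notMem_two (hord : ∀ g : G, orderOf g ∈ ({1, 2, 3, 4} : Set ℕ)) {T : Subgroup G}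
    (hT : IsPGroup 2 T) {g : G} (h3 : g ^ 3 = 1) (h1 : g ≠ 1) : g ∉ T := fun hg =>
  h1 (eq_one_of_pow3_pow4 h3 (pow4_of_mem hord hT hg))

/-- There is no elementary abelian subgroup of order 9 next to a normal abelian 2-subgroup. -/
theorem no_nine (hord : ∀ g : G, orderOf g ∈ ({1, 2, 3, 4} : Set ℕ)) {N : Subgroup G} [N.Normal]
    (hN : IsPGroup 2 N) (hc : IsMulCommutative N) (hne : N ≠ ⊥) {z y : G} (hz : z ^ 3 = 1)
    (hz1 : z ≠ 1) (hy : y ^ 3 = 1) (hzy : Commute z y) : y ∈ zpowers z := by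
  by_contra hy'
  apply hne
  rw [eq_bot_iff]
  intro n hn
  letI : CommGroup N := { (inferInstance : Group N) with mul_comm := hc.is_comm.comm }
  have hcj : ∀ g : G, g * n * g⁻¹ ∈ N := fun g => (inferInstance : N.Normal).conj_mem n hn g
  have hid : ∀ g : G, g ^ 3 = 1 → g ≠ 1 → n * (g * n * g⁻¹) * (g * g * n * (g * g)⁻¹) = 1 := by
    intro g h3 h1
    have h := fpf_identity h3 (cube_of_coset hord h3 (notMem_two hord hN h3 h1) hn).1
    rwa [show g * g * n * (g * g)⁻¹ = g * (g * n * g⁻¹) * g⁻¹ by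
      simp only [mul_inv_rev, mul_assoc]]
  have hzy1 : z * y ≠ 1 := fun h => hy' (by
    rw [eq_inv_of_mul_eq_one_right h]; exact inv_mem (mem_zpowers z))
  have hzzy1 : z * z * y ≠ 1 := fun h => hy' (by
    rw [eq_inv_of_mul_eq_one_right h]; exact inv_mem (mul_mem (mem_zpowers z) (mem_zpowers z)))
  have hzy3 : (z * y) ^ 3 = 1 := by rw [hzy.mul_pow, hz, hy, one_mul]
  have hzzy3 : (z * z * y) ^ 3 = 1 := by
    rw [(hzy.mul_left hzy).mul_pow, (Commute.refl z).mul_pow, hz, hy, one_mul, one_mul]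
  have h0 := hid z hz hz1
  have h2 := hid _ hzy3 hzy1
  have h3 := hid _ hzzy3 hzzy1
  have hy1 : y ≠ 1 := fun h => hy' (h ▸ one_mem _)
  have h4 : (z * n * z⁻¹) * (z * y * n * (z * y)⁻¹) * (z * y * y * n * (z * y * y)⁻¹) = 1 := by
    have h := congrArg (fun g => z * g * z⁻¹) (hid y hy hy1)
    simp only [mul_one, mul_inv_cancel] at h
    rw [← h]; group
  have h5 : (z * z * n * (z * z)⁻¹) * (z * z * y * n * (z * z * y)⁻¹) *
      (z * z * y * y * n * (z * z * y * y)⁻¹) = 1 := by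
    have h := congrArg (fun g => z * z * g * (z * z)⁻¹) (hid y hy hy1)
    simp only [mul_one, mul_inv_cancel] at h
    rw [← h]; group
  have e2 : z * y * (z * y) = z * z * y * y := by
    rw [mul_assoc z y (z * y), ← mul_assoc y z y, ← hzy.eq, mul_assoc z z y]; simp only [mul_assoc]
  have hz4 : z * z * (z * z) = z := by
    calc z * z * (z * z) = z ^ 3 * z := by simp only [pow_succ, pow_zero, one_mul, mul_assoc]
      _ = z := by rw [hz, one_mul]
  have e3 : z * z * y * (z * z * y) = z * y * y := by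
    calc z * z * y * (z * z * y) = z * z * (y * (z * z)) * y := by simp only [mul_assoc]
      _ = z * z * ((z * z) * y) * y := by rw [(hzy.mul_left hzy).eq]
      _ = z * z * (z * z) * y * y := by simp only [mul_assoc]
      _ = z * y * y := by rw [hz4]
  rw [e2] at h2
  rw [e3] at h3
  have := cube_aux (A := N) (n := ⟨n, hn⟩) (a := ⟨_, hcj z⟩) (b := ⟨_, hcj (z * z)⟩)
    (p := ⟨_, hcj (z * y)⟩) (q := ⟨_, hcj (z * z * y * y)⟩) (r := ⟨_, hcj (z * z * y)⟩)
    (s := ⟨_, hcj (z * y * y)⟩) (Subtype.ext h0) (Subtype.ext h2) (Subtype.ext h3)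
    (Subtype.ext h4) (Subtype.ext h5)
  exact mem_bot.mpr (eq_one_of_pow3_pow4 (congrArg Subtype.val this) (pow4_of_mem hord hN hn))

theorem class_le_two (hord : ∀ g : G, orderOf g ∈ ({1, 2, 3, 4} : Set ℕ)) {T : Subgroup G}
    [T.Normal] (hT : IsPGroup 2 T) {x : G} (hx : x ^ 3 = 1) (hxT : x ∉ T) :
    Group.nilpotencyClass T ≤ 2 := by
  have : Group.IsNilpotent T := hT.isNilpotent
  rw [← Subgroup.lowerCentralSeries_eq_bot_iff_nilpotencyClass_le]
  have h : (⁅(⊤ : Subgroup T), (⊤ : Subgroup T)⁆) ≤ centralizer ((⊤ : Subgroup T) : Set T) :=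
    commutator_le.mpr fun a _ b _ => mem_centralizer_iff.mpr fun c _ =>
      ((class_two hord hT hx hxT a b c).eq).symm
  exact commutator_eq_bot_iff_le_centralizer.mpr h

theorem case_two (hord : ∀ g : G, orderOf g ∈ ({1, 2, 3, 4} : Set ℕ))
    (h3 : ∃ g : G, orderOf g = 3) (h4 : ∃ g : G, orderOf g = 4)
    (hsol : Group.IsSolvable G) {N0 : Subgroup G} [N0.Normal] (hN0 : IsPGroup 2 N0)
    (hN0c : IsMulCommutative N0) (hN0ne : N0 ≠ ⊥) :
    ∃ (N : Subgroup G) (_ : N.Normal),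
      (IsPGroup 2 ↥N ∧ Monoid.exponent ↥N = 4 ∧ Group.nilpotencyClass ↥N ≤ 2 ∧ N.index = 3) ∨
      (Cfsg.IsElementaryAbelian 2 N ∧ Nonempty (G ⧸ N ≃* Equiv.Perm (Fin 3))) := by
  haveI : Fact (Nat.Prime 3) := ⟨Nat.prime_three⟩
  haveI := hsol
  classical
  set T := pCore 2 G with hTdef
  have hT : IsPGroup 2 T := Lib.Hall.isPGroup_pCore 2
  obtain ⟨g3, hg3⟩ := h3
  have hg3p : g3 ^ 3 = 1 := by rw [← hg3, pow_orderOf_eq_one]
  have hg31 : g3 ≠ 1 := fun h => by rw [h, orderOf_one] at hg3; omega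
  -- Sylow 3-subgroups have order three
  have hP3 : ∀ P : Sylow 3 G, Nat.card P = 3 := by
    intro P
    have hp3 : ∀ w ∈ (P : Subgroup G), w ^ 3 = 1 := fun w hw => by
      obtain ⟨k, hk⟩ := IsPGroup.iff_orderOf.mp P.isPGroup' ⟨w, hw⟩
      rw [orderOf_mk] at hk
      rcases order_cases hord w with h | h
      · rw [orderOf_eq_one_iff.mp (Nat.eq_one_of_dvd_coprimes
          (Nat.Coprime.pow_right k (show Nat.Coprime 4 3 by norm_num))
          (orderOf_dvd_of_pow_eq_one h) (hk ▸ dvd_rfl)), one_pow]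
      · exact h
    have hdvd : 3 ∣ Nat.card G := hg3 ▸ orderOf_dvd_natCard g3
    have hPne : (P : Subgroup G) ≠ ⊥ := P.ne_bot_of_dvd_card hdvd
    haveI : Nontrivial (P : Subgroup G) := (nontrivial_iff_ne_bot _).mpr hPne
    haveI : Nontrivial (center (P : Subgroup G)) := P.isPGroup'.center_nontrivial
    obtain ⟨⟨⟨z, hzP⟩, hzc⟩, hz1⟩ := exists_ne (1 : center (P : Subgroup G))
    have hz1' : z ≠ 1 := fun h => hz1 (Subtype.ext (Subtype.ext h))
    have hle : (P : Subgroup G) ≤ zpowers z := fun y hy =>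
      no_nine hord hN0 hN0c hN0ne (hp3 z hzP) hz1' (hp3 y hy)
        (congrArg Subtype.val (mem_center_iff.mp hzc ⟨y, hy⟩)).symm
    rw [show (P : Subgroup G) = zpowers z from le_antisymm hle (zpowers_le.mpr hzP),
      Nat.card_zpowers, orderOf_eq_prime (hp3 z hzP) hz1']
  have hg3T : g3 ∉ T := notMem_two hord hT hg3p hg31
  haveI : Nontrivial (G ⧸ T) := ⟨⟨QuotientGroup.mk g3, 1, fun h => hg3T ((QuotientGroup.eq_one_iff g3).mp h)⟩⟩
  obtain ⟨M, q, hMn, hMne, hq, hMp, -, -⟩ := Lib.Hall.exists_normal_pgroup (G := G ⧸ T)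
  haveI := Fact.mk hq
  let π := QuotientGroup.mk' T
  have hker : ∀ g, π g = 1 ↔ g ∈ T := fun g => QuotientGroup.eq_one_iff g
  have hqdvd : q ∣ Nat.card G := by
    obtain ⟨k, hk, -⟩ : ∃ k, q ∣ Nat.card M ∧ k = 0 := ⟨0, by
      obtain ⟨k, hk⟩ := IsPGroup.iff_card.mp hMp
      rcases Nat.eq_zero_or_pos k with h0 | h0
      · exact absurd (card_eq_one.mp (by rw [hk, h0, pow_zero])) hMne
      · exact hk ▸ dvd_pow_self q h0.ne', rfl⟩
    exact hk.trans (M.card_subgroup_dvd_card.trans (T.card_quotient_dvd_card))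
  obtain ⟨gq, hgq⟩ := exists_prime_orderOf_dvd_card' q hqdvd
  have hq23 : q = 2 ∨ q = 3 := by
    have := hord gq
    rw [hgq] at this
    simp only [Set.mem_insert_iff, Set.mem_singleton_iff] at this
    rcases this with h | h | h | h
    · exact absurd h hq.one_lt.ne'
    · exact Or.inl h
    · exact Or.inr h
    · exact absurd (h ▸ hq : Nat.Prime 4) (by norm_num)
  set W := M.comap π with hWdef
  have hMimg : ∀ w ∈ W, ∃ k, π w ^ q ^ k = 1 := fun w hw => by
    obtain ⟨k, hk⟩ := hMp ⟨π w, hw⟩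
    exact ⟨k, congrArg Subtype.val hk⟩
  rcases hq23 with rfl | rfl
  · have hW2 : IsPGroup 2 W := fun ⟨w, hw⟩ => ⟨2, Subtype.ext (by
      show w ^ 2 ^ 2 = 1
      rcases order_cases hord w with h | h
      · exact h
      · obtain ⟨k, hk⟩ := hMimg w hw
        have hw1 : π w = 1 := by
          have e : π w ^ Nat.gcd 3 (2 ^ k) = 1 :=
            pow_gcd_eq_one.mpr ⟨by rw [← map_pow, h, map_one], hk⟩
          rwa [show Nat.gcd 3 (2 ^ k) = 1 from Nat.Coprime.pow_right k (by norm_num), pow_one] at e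
        exact pow4_of_mem hord hT ((hker w).mp hw1))⟩
    refine absurd ?_ hMne
    rw [eq_bot_iff]
    intro m hm
    obtain ⟨w, rfl⟩ := QuotientGroup.mk'_surjective T m
    exact mem_bot.mpr ((hker w).mpr (Lib.Hall.le_pCore hW2 hm))
  obtain ⟨m, hmM, hm1⟩ : ∃ m ∈ M, m ≠ 1 := by
    by_contra hc; push_neg at hc; exact hMne ((eq_bot_iff_forall M).mpr hc)
  obtain ⟨x, rfl⟩ := QuotientGroup.mk'_surjective T m
  have hx : x ^ 3 = 1 := (order_cases hord x).resolve_left fun h => hm1 (by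
    obtain ⟨k, hk⟩ := hMimg x hmM
    have e : π x ^ Nat.gcd 4 (3 ^ k) = 1 :=
      pow_gcd_eq_one.mpr ⟨by rw [← map_pow, h, map_one], hk⟩
    rwa [show Nat.gcd 4 (3 ^ k) = 1 from Nat.Coprime.pow_right k (by norm_num), pow_one] at e)
  have hx1 : x ≠ 1 := fun h => hm1 (by rw [h, map_one])
  have hxT : x ∉ T := notMem_two hord hT hx hx1
  have hxo : orderOf x = 3 := orderOf_eq_prime hx hx1
  obtain ⟨P, hxP⟩ := (IsPGroup.of_card (n := 1) (p := 3)
    (by rw [Nat.card_zpowers, hxo, pow_one]) : IsPGroup 3 (zpowers x)).exists_le_sylow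
  have hPx : (P : Subgroup G) = zpowers x :=
    (eq_of_le_of_card_ge hxP (by rw [hP3, Nat.card_zpowers, hxo])).symm
  haveI : W.Normal := hMn.comap π
  have hPW : (P : Subgroup G) ≤ W := by rw [hPx, zpowers_le]; exact hmM
  -- the normaliser of `P` covers `G ⧸ T`
  have hM : M = zpowers (π x) := by
    symm
    refine eq_of_le_of_card_ge (zpowers_le.mpr hmM) ?_
    rw [Nat.card_zpowers, orderOf_eq_prime (by rw [← map_pow, hx, map_one]) hm1]
    obtain ⟨k, hk⟩ := IsPGroup.iff_card.mp hMp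
    rw [hk]
    refine le_trans (Nat.pow_le_pow_right (by norm_num) ?_) (le_of_eq (pow_one 3))
    have hf : (Nat.card G).factorization 3 = 1 := by
      have e := P.card_eq_multiplicity
      rw [hP3] at e
      exact (Nat.pow_right_injective (le_refl 2 |>.trans (by norm_num)) (by rw [← e, pow_one] : 3 ^ 1 = 3 ^ _)).symm
    rw [← hf, ← Nat.Prime.pow_dvd_iff_le_factorization Nat.prime_three Nat.card_pos.ne', ← hk]
    exact M.card_subgroup_dvd_card.trans T.card_quotient_dvd_card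
  set N := normalizer ((P : Subgroup G) : Set G) with hNdef
  have hsur : ∀ y : G ⧸ T, ∃ n ∈ N, π n = y := by
    intro y
    obtain ⟨g, rfl⟩ := QuotientGroup.mk'_surjective T y
    have htop := Sylow.normalizer_sup_eq_top (P.subtype hPW)
    have hmap : ((P.subtype hPW : Sylow 3 W) : Subgroup W).map W.subtype = P := by
      rw [Sylow.coe_subtype, subgroupOf_map_subtype, inf_eq_left.mpr hPW]
    rw [hmap] at htop
    have hg : g ∈ N ⊔ W := htop ▸ mem_top g
    obtain ⟨n, hn, w, hw, rfl⟩ := mem_sup_of_normal_right.mp hg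
    have hw' : π w ∈ zpowers (π x) := hM ▸ hw
    obtain ⟨i, hi⟩ := mem_zpowers_iff.mp hw'
    refine ⟨n * x ^ i, mul_mem hn (le_normalizer (hPx ▸ zpow_mem (mem_zpowers x) i)), ?_⟩
    rw [map_mul, map_mul, map_zpow, hi]
  have hTN : ∀ g ∈ T, g ∈ N → g = 1 := by
    intro g hgT hgN
    have h1 : g * x * g⁻¹ * x⁻¹ ∈ (P : Subgroup G) := mul_mem
      ((mem_normalizer_iff.mp hgN x).mp (hPx ▸ mem_zpowers x)) (inv_mem (hPx ▸ mem_zpowers x))
    have h2 : g * x * g⁻¹ * x⁻¹ ∈ T := by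
      rw [show g * x * g⁻¹ * x⁻¹ = g * (x * g⁻¹ * x⁻¹) by group]
      exact mul_mem hgT ((inferInstance : T.Normal).conj_mem _ (inv_mem hgT) x)
    have h3 : g * x * g⁻¹ * x⁻¹ = 1 := by
      by_contra hne
      refine notMem_two hord hT ?_ hne h2
      rw [hPx, mem_zpowers_iff] at h1
      obtain ⟨i, hi⟩ := h1
      rw [← hi, ← zpow_natCast, ← zpow_mul, mul_comm, zpow_mul, zpow_natCast, hx, one_zpow]
    have hc : Commute g x := commutatorElement_eq_one_iff_commute.mp h3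
    exact (no_six hord hx (pow4_of_mem hord hT hgT) hc.symm).resolve_left hx1
  have hC : ∀ c : G, Commute x c → c ∈ zpowers x := fun c hc => by
    rcases order_cases hord c with h | h
    · rw [(no_six hord hx h hc).resolve_left hx1]; exact one_mem _
    · exact no_nine hord hN0 hN0c hN0ne hx hx1 h hc
  have hTn : T.Normal := inferInstance
  refine ⟨T, hTn, ?_⟩
  have hπx : orderOf (π x) = 3 := orderOf_eq_prime (by rw [← map_pow, hx, map_one]) hm1
  by_cases hall : ∀ n ∈ N, Commute x n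
  · left
    have hidx : T.index = 3 := by
      rw [index_eq_card]
      have : (⊤ : Subgroup (G ⧸ T)) = zpowers (π x) := by
        refine le_antisymm (fun y _ => ?_) le_top
        obtain ⟨n, hn, rfl⟩ := hsur y
        obtain ⟨i, rfl⟩ := mem_zpowers_iff.mp (hC n (hall n hn))
        exact ⟨i, (map_zpow π x i).symm⟩
      rw [← card_top, this, Nat.card_zpowers, hπx]
    refine ⟨hT, Nat.dvd_antisymm (Monoid.exponent_dvd_of_forall_pow_eq_one fun a =>
      Subtype.ext (pow4_of_mem hord hT a.2)) ?_, class_le_two hord hT hx hxT, hidx⟩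
    obtain ⟨g4, hg4⟩ := h4
    have hg4T : g4 ∈ T := (hker g4).mp (eq_one_of_pow3_pow4 (by
      rw [← hidx, index_eq_card]; exact pow_card_eq_one') (by
      rw [← map_pow, ← hg4, pow_orderOf_eq_one, map_one]))
    rw [← hg4, ← orderOf_mk g4 hg4T]
    exact Monoid.order_dvd_exponent _
  right
  push_neg at hall
  obtain ⟨t, htN, htc⟩ := hall
  have hxx : x ^ 2 = x⁻¹ := eq_inv_of_mul_eq_one_left (by rw [← pow_succ, hx])
  have hinvx : ∀ n ∈ N, ¬ Commute x n → n * x * n⁻¹ = x⁻¹ := by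
    intro n hn hnc
    have hm : n * x * n⁻¹ ∈ zpowers x := hPx ▸ (mem_normalizer_iff.mp hn x).mp (hPx ▸ mem_zpowers x)
    obtain ⟨i, hi, he⟩ : ∃ i < 3, x ^ i = n * x * n⁻¹ := by
      have := (mem_zpowers_iff_mem_range_orderOf).mp hm
      rw [hxo, Finset.mem_image] at this
      obtain ⟨i, hi, he⟩ := this
      exact ⟨i, Finset.mem_range.mp hi, he⟩
    interval_cases i
    · exact absurd (by rw [pow_zero] at he; exact conj_eq_one_iff.mp he.symm) hx1
    · exfalso; apply hnc; rw [pow_one] at he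
      exact (eq_mul_inv_iff_mul_eq.mp he)
    · rw [← he, hxx]
  have htx := hinvx t htN htc
  have hprod : ∀ n ∈ N, ¬ Commute x n → Commute x (n * t) := fun n hn hnc => by
    have h1 := hinvx n hn hnc
    have e : n * t * x * (n * t)⁻¹ = x := by
      calc n * t * x * (n * t)⁻¹ = n * (t * x * t⁻¹) * n⁻¹ := by group
        _ = (n * x * n⁻¹)⁻¹ := by rw [htx]; group
        _ = x := by rw [h1, inv_inv]
    exact (mul_inv_eq_iff_eq_mul.mp e).symm
  have htt : t * t = 1 := by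
    have ht2 := hC _ (hprod t htN htc)
    obtain ⟨i, hi⟩ := mem_zpowers_iff.mp ht2
    rcases order_cases hord t with h | h
    · refine eq_one_of_pow3_pow4 (g := t * t) ?_ ?_
      · rw [← hi, ← zpow_natCast, ← zpow_mul, mul_comm, zpow_mul, zpow_natCast, hx, one_zpow]
      · rw [← pow_two, ← pow_mul, pow_mul' t 2 4, h, one_pow]
    · exfalso; apply htc
      have : t = t * t * (t * t) := by
        calc t = t ^ 3 * t := by rw [h, one_mul]
          _ = _ := by simp only [pow_succ, pow_zero, one_mul, mul_assoc]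
      rw [this, ← hi]
      exact ((Commute.refl x).zpow_right i).mul_right ((Commute.refl x).zpow_right i)
  have htT : t ∉ T := fun h => htc (by rw [hTN t h htN]; exact Commute.one_right x)
  have hel := elementary hord hT hx hxT htt htx htT
  refine ⟨⟨⟨⟨fun a b => Subtype.ext (hel a a.2 b b.2).1⟩⟩, fun a ha => (hel a ha a ha).2⟩, ?_⟩
  have hπt1 : π t ≠ 1 := fun h => htT ((hker t).mp h)
  have hπt : orderOf (π t) = 2 := orderOf_eq_prime (by rw [pow_two, ← map_mul, htt, map_one]) hπt1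
  have hcard : Nat.card (G ⧸ T) = 6 := by
    refine le_antisymm ?_ (Nat.le_of_dvd Nat.card_pos ?_)
    · refine (Nat.card_le_card_of_surjective
        (fun ij : Fin 3 × Fin 2 => π x ^ (ij.1 : ℕ) * π t ^ (ij.2 : ℕ)) fun y => ?_).trans (by simp)
      obtain ⟨n, hn, rfl⟩ := hsur y
      have hgetpow : ∀ c, Commute x c → ∃ i : Fin 3, x ^ (i : ℕ) = c := fun c hc => by
        have := (mem_zpowers_iff_mem_range_orderOf).mp (hC c hc)
        rw [hxo, Finset.mem_image] at this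
        obtain ⟨i, hi, he⟩ := this
        exact ⟨⟨i, Finset.mem_range.mp hi⟩, he⟩
      by_cases hnc : Commute x n
      · obtain ⟨i, hi⟩ := hgetpow n hnc
        exact ⟨(i, 0), by simp [← hi]⟩
      · obtain ⟨i, hi⟩ := hgetpow _ (hprod n hn hnc)
        refine ⟨(i, 1), ?_⟩
        simp only [Fin.val_one, pow_one]
        rw [← map_pow, ← map_mul, hi, mul_assoc, htt, mul_one]
    · exact Nat.Coprime.mul_dvd_of_dvd_of_dvd (by norm_num : Nat.Coprime 2 3)
        (hπt ▸ orderOf_dvd_natCard (π t)) (hπx ▸ orderOf_dvd_natCard (π x))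
  set S := zpowers (π t) with hS
  have hScard : Nat.card S = 2 := by rw [hS, Nat.card_zpowers, hπt]
  have hcos : Nat.card ((G ⧸ T) ⧸ S) = 3 := by
    have := S.index_mul_card
    rw [hcard, hScard, index_eq_card] at this
    omega
  let φ := MulAction.toPermHom (G ⧸ T) ((G ⧸ T) ⧸ S)
  have hinj : Function.Injective φ := by
    rw [← MonoidHom.ker_eq_bot_iff, ← normalCore_eq_ker]
    by_contra hne
    have hle := S.normalCore_le
    have heq : S.normalCore = S := eq_of_le_of_card_ge hle (by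
      rw [hScard]
      exact (S.normalCore.one_lt_card_iff_ne_bot).mpr hne)
    have hn : S.Normal := heq ▸ S.normalCore_normal
    have h1 : π x * π t * (π x)⁻¹ ∈ S := hn.conj_mem _ (mem_zpowers _) (π x)
    have h2 : π x * π t * (π x)⁻¹ = π t := by
      have := (mem_zpowers_iff_mem_range_orderOf).mp h1
      rw [hπt, Finset.mem_image] at this
      obtain ⟨i, hi, he⟩ := this
      rw [Finset.mem_range] at hi
      interval_cases i
      · rw [pow_zero] at he; exact absurd (conj_eq_one_iff.mp he.symm) hπt1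
      · rw [← he, pow_one]
    have h3 : π x = (π x)⁻¹ := by
      rw [← map_inv, ← htx, map_mul, map_mul, map_inv]
      exact eq_mul_inv_of_mul_eq (mul_inv_eq_iff_eq_mul.mp h2)
    have h4 : π x ^ 2 = 1 := by rw [pow_two]; nth_rewrite 2 [h3]; exact mul_inv_cancel _
    have := orderOf_dvd_of_pow_eq_one h4
    rw [hπx] at this
    norm_num at this
  have hbij : Function.Bijective φ := (Nat.bijective_iff_injective_and_card φ).mpr
    ⟨hinj, by rw [Nat.card_perm, hcos, hcard]; rfl⟩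
  exact ⟨(MulEquiv.ofBijective φ hbij).trans
    (Finite.equivFinOfCardEq hcos).permCongrHom⟩

theorem cube_of_mem (hord : ∀ g : G, orderOf g ∈ ({1, 2, 3, 4} : Set ℕ)) {K : Subgroup G}
    (hK : IsPGroup 3 K) {n : G} (hn : n ∈ K) : n ^ 3 = 1 := by
  obtain ⟨k, hk⟩ := IsPGroup.iff_orderOf.mp hK ⟨n, hn⟩
  rw [orderOf_mk] at hk
  rcases order_cases hord n with h | h3
  · rw [orderOf_eq_one_iff.mp (Nat.eq_one_of_dvd_coprimes
      (Nat.Coprime.pow_right k (show Nat.Coprime 4 3 by norm_num))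
      (orderOf_dvd_of_pow_eq_one h) (hk ▸ dvd_rfl)), one_pow]
  · exact h3

omit [Finite G] in
theorem pow4_of_sq {z : G} (h : z * z = 1) : z ^ 4 = 1 := by
  rw [show z ^ 4 = z * z * (z * z) by simp only [pow_succ, pow_zero, one_mul, mul_assoc], h, one_mul]

theorem case_three (hord : ∀ g : G, orderOf g ∈ ({1, 2, 3, 4} : Set ℕ))
    (h4 : ∃ g : G, orderOf g = 4) {N0 : Subgroup G} [N0.Normal] (hN0 : IsPGroup 3 N0)
    (hN0ne : N0 ≠ ⊥) :
    ∃ (N : Subgroup G) (_ : N.Normal),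
      Cfsg.IsElementaryAbelian 3 N ∧
        ((IsCyclic (G ⧸ N) ∧ N.index = 4) ∨ Nonempty (G ⧸ N ≃* QuaternionGroup 2)) := by
  haveI : Fact (Nat.Prime 3) := ⟨Nat.prime_three⟩
  haveI : Fact (Nat.Prime 2) := ⟨Nat.prime_two⟩
  set K := pCore 3 G with hKdef
  have hK : IsPGroup 3 K := Lib.Hall.isPGroup_pCore 3
  obtain ⟨k0, hk0, hk01⟩ : ∃ k ∈ K, k ≠ 1 := by
    by_contra hc; push_neg at hc
    exact hN0ne (eq_bot_iff.mpr ((Lib.Hall.le_pCore hN0).trans
      ((eq_bot_iff_forall K).mpr hc).le))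
  obtain ⟨g4, hg4⟩ := h4
  have hg44 : g4 ^ 4 = 1 := by rw [← hg4, pow_orderOf_eq_one]
  have hg42 : g4 * g4 ≠ 1 := fun h => by
    have := orderOf_dvd_of_pow_eq_one (show g4 ^ 2 = 1 by rw [pow_two, h])
    rw [hg4] at this; norm_num at this
  have hKn : K.Normal := inferInstance
  have h12 : ∀ g : G, g ^ 4 = 1 → g ∈ K → g = 1 := fun g h hg =>
    eq_one_of_pow3_pow4 (cube_of_mem hord hK hg) h
  -- involutions invert `K`
  have hinv : ∀ z : G, z * z = 1 → z ≠ 1 → ∀ k ∈ K, z * k * z⁻¹ = k⁻¹ := by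
    intro z hz hz1 k hk
    have hzi : z⁻¹ = z := inv_eq_of_mul_eq_one_right hz
    have hz4 : z ^ 4 = 1 := pow4_of_sq hz
    have hzK : z ∉ K := fun h => hz1 (h12 z hz4 h)
    have e : (k * z) ^ 2 = k * (z * k * z⁻¹) := by rw [pow_two, hzi]; simp only [mul_assoc]
    have hm : k * (z * k * z⁻¹) ∈ K := mul_mem hk (hKn.conj_mem k hk z)
    have h4' : (k * z) ^ 4 = 1 := (order_cases hord (k * z)).resolve_right fun h3 => hzK (by
      have : k * z ∈ K := by
        have e3 : k * z = (k * z) ^ 4 := by rw [pow_succ _ 3, h3, one_mul]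
        rw [e3, show (4 : ℕ) = 2 * 2 from rfl, pow_mul, e]; exact pow_mem hm 2
      exact (mul_mem_cancel_left hk).mp this)
    have h2 : (k * (z * k * z⁻¹)) ^ 4 = 1 := by
      rw [← e, ← pow_mul, pow_mul' (k * z) 2 4, h4', one_pow]
    exact eq_inv_of_mul_eq_one_right (h12 _ h2 hm)
  have hz : g4 * g4 * (g4 * g4) = 1 := by rw [← hg44]; simp only [pow_succ, pow_zero, one_mul, mul_assoc]
  have hab : ∀ a ∈ K, ∀ b ∈ K, a * b = b * a := fun a ha b hb => by
    have h1 := hinv _ hz hg42 (a * b) (mul_mem ha hb)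
    rw [show g4 * g4 * (a * b) * (g4 * g4)⁻¹ =
      g4 * g4 * a * (g4 * g4)⁻¹ * (g4 * g4 * b * (g4 * g4)⁻¹) by group, hinv _ hz hg42 a ha,
      hinv _ hz hg42 b hb, ← mul_inv_rev, inv_inj] at h1
    exact h1.symm
  refine ⟨K, hKn, ⟨⟨⟨fun a b => Subtype.ext (hab a a.2 b b.2)⟩⟩,
    fun a ha => cube_of_mem hord hK ha⟩, ?_⟩
  -- `K` contains its centraliser
  have hCK : centralizer (K : Set G) ≤ K := by
    refine Lib.Hall.le_pCore (p := 3) fun c => ⟨1, Subtype.ext ?_⟩
    show (c : G) ^ 3 ^ 1 = 1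
    rw [pow_one]
    rcases order_cases hord c with h | h
    · rw [(no_six hord (cube_of_mem hord hK hk0) h (mem_centralizer_iff.mp c.2 k0 hk0)).resolve_left hk01,
        one_pow]
    · exact h
  have hzz : ∀ z z' : G, z * z = 1 → z ≠ 1 → z' * z' = 1 → z' ≠ 1 → z * z' ∈ K := by
    intro z z' hz hz1 hz' hz1'
    refine hCK (mem_centralizer_iff.mpr fun k hk => ?_)
    have e : z * z' * k * (z * z')⁻¹ = k := by
      calc z * z' * k * (z * z')⁻¹ = z * (z' * k * z'⁻¹) * z⁻¹ := by group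
        _ = k := by rw [hinv z' hz' hz1' k hk, hinv z hz hz1 _ (inv_mem hk), inv_inv]
    exact (mul_inv_eq_iff_eq_mul.mp e).symm
  let π := QuotientGroup.mk' K
  have hker : ∀ g, π g = 1 ↔ g ∈ K := fun g => QuotientGroup.eq_one_iff g
  -- `G ⧸ K` has exponent four
  have hexp : ∀ g : G, g ^ 4 = 1 ∨ g ∈ K := by
    intro g
    rcases order_cases hord g with h | h
    · exact Or.inl h
    right
    by_contra hgK
    set z := g4 * g4 with hzdef
    have hw : g * z * g⁻¹ * (g * z * g⁻¹) = 1 := by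
      calc g * z * g⁻¹ * (g * z * g⁻¹) = g * (z * z) * g⁻¹ := by group
        _ = 1 := by rw [hz]; group
    have hw1 : g * z * g⁻¹ ≠ 1 := fun e => hg42 (conj_eq_one_iff.mp e)
    set m := g * z * g⁻¹ * z with hm
    have hmK : m ∈ K := hzz _ _ hw hw1 hz hg42
    have hzi : z⁻¹ = z := inv_eq_of_mul_eq_one_right hz
    have hgz : g * z * g⁻¹ = m * z := by rw [hm, mul_assoc (g * z * g⁻¹) z z, hz, mul_one]
    have hcm : Commute (m * g) z := by
      have h1 : m * g * z * (m * g)⁻¹ = z := by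
        calc m * g * z * (m * g)⁻¹ = m * (g * z * g⁻¹) * m⁻¹ := by group
          _ = m * m * (z * m⁻¹ * z⁻¹) * z := by rw [hgz]; group
          _ = m ^ 3 * z := by
              rw [hinv z hz hg42 _ (inv_mem hmK), inv_inv]
              simp only [pow_succ, pow_zero, one_mul, mul_assoc]
          _ = z := by rw [cube_of_mem hord hK hmK, one_mul]
      exact mul_inv_eq_iff_eq_mul.mp h1
    rcases order_cases hord (m * g) with h' | h'
    · apply hgK
      refine (hker g).mp (eq_one_of_pow3_pow4 (by rw [← map_pow, h, map_one]) ?_)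
      have := congrArg π h'
      rwa [map_pow, map_mul, (hker m).mpr hmK, one_mul, map_one] at this
    · have hz4 : z ^ 4 = 1 := pow4_of_sq hz
      have := (no_six hord h' hz4 hcm).resolve_right hg42
      exact hgK ((mul_mem_cancel_left hmK).mp (this ▸ K.one_mem))
  have hq4 : ∀ y : G ⧸ K, y ^ 4 = 1 := fun y => by
    obtain ⟨g, rfl⟩ := QuotientGroup.mk'_surjective K y
    rcases hexp g with h | h
    · rw [← map_pow, h, map_one]
    · rw [show QuotientGroup.mk' K g = 1 from (hker g).mpr h, one_pow]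
  have huniq : ∀ y y' : G ⧸ K, y * y = 1 → y ≠ 1 → y' * y' = 1 → y' ≠ 1 → y = y' := by
    intro y y' h h1 h' h1'
    obtain ⟨v, rfl⟩ := QuotientGroup.mk'_surjective K y
    obtain ⟨v', rfl⟩ := QuotientGroup.mk'_surjective K y'
    have lift : ∀ u : G, π u * π u = 1 → π u ≠ 1 → u * u = 1 ∧ u ≠ 1 := fun u hu hu1 => by
      refine ⟨h12 _ ?_ ((hker _).mp (by rw [map_mul, hu])), fun e => hu1 (by rw [e, map_one])⟩
      have := (hexp u).resolve_right fun e => hu1 ((hker u).mpr e)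
      rw [← pow_two, ← pow_mul, pow_mul' u 2 4, this, one_pow]
    have := hzz v v' (lift v h h1).1 (lift v h h1).2 (lift v' h' h1').1 (lift v' h' h1').2
    rw [← hker, map_mul] at this
    rw [eq_inv_of_mul_eq_one_left this]
    exact inv_eq_of_mul_eq_one_right h'
  have hQ : IsPGroup 2 (G ⧸ K) := fun y => ⟨2, hq4 y⟩
  have hπ4 : orderOf (π g4) = 4 := by
    rw [show (4 : ℕ) = 2 ^ (1 + 1) from rfl]
    refine orderOf_eq_prime_pow ?_ (hq4 _)
    intro e
    rw [pow_one, pow_two, ← map_mul] at e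
    exact hg42 (h12 _ (by rw [← pow_two, ← pow_mul, pow_mul' g4 2 4, hg44, one_pow]) ((hker _).mp e))
  rcases Lib.UniqueInvolution.isCyclic_or_quaternion hQ (fun H L hH hL => by
    have gen : ∀ {J : Subgroup (G ⧸ K)}, Nat.card J = 2 → ∀ y ∈ J, y * y = 1 := fun hJ y hy => by
      have := congrArg Subtype.val (pow_card_eq_one' (x := (⟨y, hy⟩ : _)))
      rw [hJ] at this; rw [← pow_two]; exact this
    have le : ∀ {J J' : Subgroup (G ⧸ K)}, Nat.card J = 2 → Nat.card J' = 2 → J ≤ J' := by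
      intro J J' hJ hJ' y hy
      rcases eq_or_ne y 1 with rfl | hy1
      · exact one_mem _
      obtain ⟨y', hy', hy1'⟩ : ∃ y' ∈ J', y' ≠ 1 := by
        by_contra hc; push_neg at hc
        rw [(eq_bot_iff_forall J').mpr hc, card_bot] at hJ'; omega
      rwa [huniq y y' (gen hJ y hy) hy1 (gen hJ' y' hy') hy1']
    exact le_antisymm (le hH hL) (le hL hH)) with hc | ⟨-, n, hn, ⟨e⟩⟩
  · left
    refine ⟨hc, ?_⟩
    rw [index_eq_card]
    obtain ⟨g, hg⟩ := hc.exists_generator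
    refine Nat.dvd_antisymm ?_ (hπ4 ▸ orderOf_dvd_natCard _)
    rw [← orderOf_eq_card_of_forall_mem_zpowers hg]
    exact orderOf_dvd_of_pow_eq_one (hq4 g)
  · right
    haveI : NeZero (2 ^ n) := ⟨by positivity⟩
    have h1 := orderOf_dvd_of_pow_eq_one (hq4 (e.symm (QuaternionGroup.a 1)))
    rw [MulEquiv.orderOf_eq, QuaternionGroup.orderOf_a_one] at h1
    have : n = 1 := by
      rw [show 2 * 2 ^ n = 2 ^ (n + 1) by ring, show (4 : ℕ) = 2 ^ 2 from rfl,
        Nat.pow_dvd_pow_iff_le_right (by norm_num)] at h1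
      omega
    subst this
    exact ⟨e⟩

end

/-- A finite group whose set of element orders is exactly {1, 2, 3, 4} has a normal subgroup N such that either N is a 2-group of exponent 4 and nilpotency class at most 2 with G/N of order 3, or N is an elementary abelian 2-group with G/N isomorphic to the symmetric group of degree 3, or N is an elementary abelian 3-group with G/N cyclic of order 4 or quaternion of order 8. -/
theorem result {G : Type*} [Group G] [Finite G] (h : Set.range (orderOf : G → ℕ) = {k : ℕ | 1 ≤ k ∧ k ≤ 4}) :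
    ∃ (N : Subgroup G) (_ : N.Normal),
      (IsPGroup 2 ↥N ∧ Monoid.exponent ↥N = 4 ∧ Group.nilpotencyClass ↥N ≤ 2 ∧ N.index = 3) ∨
      (Cfsg.IsElementaryAbelian 2 N ∧ Nonempty (G ⧸ N ≃* Equiv.Perm (Fin 3))) ∨
      (Cfsg.IsElementaryAbelian 3 N ∧ ((IsCyclic (G ⧸ N) ∧ N.index = 4) ∨ Nonempty (G ⧸ N ≃* QuaternionGroup 2))) := by
  have hord : ∀ g : G, orderOf g ∈ ({1, 2, 3, 4} : Set ℕ) := fun g => by
    have hg : orderOf g ∈ Set.range (orderOf : G → ℕ) := ⟨g, rfl⟩
    rw [h, Set.mem_setOf_eq] at hg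
    simp only [Set.mem_insert_iff, Set.mem_singleton_iff]
    omega
  have hex : ∀ k, 1 ≤ k ∧ k ≤ 4 → ∃ g : G, orderOf g = k := fun k hk => by
    have : k ∈ Set.range (orderOf : G → ℕ) := h ▸ hk
    exact this
  have h3 := hex 3 (by norm_num)
  have h4 := hex 4 (by norm_num)
  have hpr : ∀ r : ℕ, r.Prime → r ∣ Nat.card G → r = 2 ∨ r = 3 := fun r hr hd => by
    haveI := Fact.mk hr
    obtain ⟨g, hg⟩ := exists_prime_orderOf_dvd_card' r hd
    have := hord g
    simp only [Set.mem_insert_iff, Set.mem_singleton_iff, hg] at this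
    rcases this with h | h | h | h
    · exact absurd h hr.one_lt.ne'
    · exact Or.inl h
    · exact Or.inr h
    · exact absurd (h ▸ hr : Nat.Prime 4) (by norm_num)
  have hsol : Group.IsSolvable G :=
    Lib.Char.isSolvable_of_card_eq_two_primes Nat.prime_two Nat.prime_three _ G rfl hpr
  haveI : Nontrivial G := by
    obtain ⟨g, hg⟩ := h3
    exact ⟨⟨g, 1, fun e => by rw [e, orderOf_one] at hg; omega⟩⟩
  obtain ⟨N0, q, hN0, hne, hq, hp, hc, -⟩ := Lib.Hall.exists_normal_pgroup (G := G)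
  haveI := Fact.mk hq
  have hd : q ∣ Nat.card G := by
    obtain ⟨k, hk⟩ := IsPGroup.iff_card.mp hp
    refine dvd_trans ?_ N0.card_subgroup_dvd_card
    rcases Nat.eq_zero_or_pos k with h0 | h0
    · exact absurd (Subgroup.card_eq_one.mp (by rw [hk, h0, pow_zero])) hne
    · exact hk ▸ dvd_pow_self q h0.ne'
  rcases hpr q hq hd with rfl | rfl
  · obtain ⟨N, hN, h'⟩ := case_two hord h3 h4 hsol hp hc hne
    exact ⟨N, hN, h'.imp id Or.inl⟩
  · obtain ⟨N, hN, h'⟩ := case_three hord h4 hp hne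
    exact ⟨N, hN, Or.inr (Or.inr h')⟩

end Cfsg.Agent.S4006
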