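import Cfsg.Statements.S4198
import Mathlib

set_option autoImplicit false
open Cfsg

namespace Cfsg.Agent.S4198

open Equiv in
theorem isConj_or_odd_free {n : ℕ} {x y : alternatingGroup (Fin n)}
    (h : IsConj (x : Perm (Fin n)) y) (hne : ¬ IsConj x y) (ρ : Perm (Fin n))
    (hρ : Commute ρ (x : Perm (Fin n))) : Perm.sign ρ = 1 := by
  by_contra hs
  obtain ⟨σ, hσ⟩ := isConj_iff.1 h
  rcases Int.units_eq_one_or (Perm.sign σ) with e | e
  · exact hne (isConj_iff.2 ⟨⟨σ, e⟩, Subtype.ext hσ⟩)
  · refine hne (isConj_iff.2 ⟨⟨σ * ρ, ?_⟩, Subtype.ext ?_⟩)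
    · rw [Perm.mem_alternatingGroup, Perm.sign_mul, e, (Int.units_eq_one_or _).resolve_left hs]
      decide
    · show σ * ρ * (x : Perm (Fin n)) * (σ * ρ)⁻¹ = y
      rw [← hσ, mul_assoc σ ρ, hρ.eq]
      group

open Equiv in
theorem no_odd_centraliser {n : ℕ} {x : Perm (Fin n)}
    (h : ∀ ρ : Perm (Fin n), Commute ρ x → Perm.sign ρ = 1) :
    (∀ a ∈ x.cycleType, Odd a) ∧ n ≤ x.cycleType.sum + 1 := by
  refine ⟨fun a ha => ?_, ?_⟩
  · rw [Perm.cycleType_def, Multiset.mem_map] at ha
    obtain ⟨c, hc, rfl⟩ := ha
    rw [Finset.mem_val] at hc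
    simp only [Function.comp_apply]
    by_contra he
    have hcy : c.IsCycle := (Perm.mem_cycleFactorsFinset_iff.1 hc).1
    have := h c (Perm.self_mem_cycle_factors_commute hc)
    rw [hcy.sign, (Nat.not_odd_iff_even.1 he).neg_one_pow] at this
    exact absurd this (by decide)
  · by_contra hlt
    have hc : 1 < x.supportᶜ.card := by
      rw [Finset.card_compl, ← Perm.sum_cycleType, Fintype.card_fin]
      omega
    obtain ⟨i, hi, j, hj, hij⟩ := Finset.one_lt_card.1 hc
    rw [Finset.mem_compl, Perm.notMem_support] at hi hj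
    have hcomm : Commute (swap i j) x := by
      show swap i j * x = x * swap i j
      rw [Equiv.mul_swap_eq_swap_mul, hi, hj]
    have := h _ hcomm
    rw [Perm.sign_swap hij] at this
    exact absurd this (by decide)

/-- replace some part `a` by `a - 1` -/
noncomputable def shrink (m : Multiset ℕ) : Multiset ℕ :=
  open scoped Classical in
  if h : ∃ a, a ∈ m then (h.choose - 1) ::ₘ m.erase h.choose else 0

theorem shrink_spec {m : Multiset ℕ} (hm : m ≠ 0) :
    ∃ a ∈ m, shrink m = (a - 1) ::ₘ m.erase a := by
  have h : ∃ a, a ∈ m := Multiset.exists_mem_of_ne_zero hm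
  exact ⟨h.choose, h.choose_spec, by rw [shrink, dif_pos h]⟩

theorem shrink_inj {m m' : Multiset ℕ} (hm0 : m ≠ 0) (hm0' : m' ≠ 0) (h : ∀ a ∈ m, Odd a ∧ 2 ≤ a)
    (h' : ∀ a ∈ m', Odd a ∧ 2 ≤ a) (e : shrink m = shrink m') : m = m' := by
  obtain ⟨a, ha, ea⟩ := shrink_spec hm0
  obtain ⟨b, hb, eb⟩ := shrink_spec hm0'
  rw [ea, eb] at e
  obtain ⟨hao, ha2⟩ := h a ha
  obtain ⟨hbo, hb2⟩ := h' b hb
  have hmem : a - 1 ∈ (b - 1) ::ₘ m'.erase b := e ▸ Multiset.mem_cons_self _ _
  have hab : a = b := by
    rcases Multiset.mem_cons.1 hmem with he | he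
    · omega
    · have := (h' _ (Multiset.mem_of_mem_erase he)).1
      rw [Nat.odd_iff] at this hao
      omega
  subst hab
  rw [← Multiset.cons_erase ha, ← Multiset.cons_erase hb, (Multiset.cons_inj_right _).1 e]

open Equiv in
theorem even_cycleType {n : ℕ} (x : alternatingGroup (Fin n)) :
    Even ((x : Perm (Fin n)).cycleType.sum + (x : Perm (Fin n)).cycleType.card) := by
  have h : Perm.sign (x : Perm (Fin n)) = 1 := x.2
  rw [Perm.sign_of_cycleType] at h
  exact neg_one_pow_eq_one_iff_even (by decide) |>.1 h

/-- partitions of `m + 1` at most double those of `m` -/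
theorem partition_step (m : ℕ) (hm : 1 ≤ m) :
    Nat.card (m + 1).Partition ≤ 2 * Nat.card m.Partition := by
  classical
  have hone : Nat.card {p : (m + 1).Partition // 1 ∈ p.parts} = Nat.card m.Partition :=
    Nat.card_congr (Nat.Partition.partitionWithPartEquiv le_rfl (by omega))
  have hmin : ∀ p : {p : (m + 1).Partition // 1 ∉ p.parts}, ∃ k ∈ p.1.parts, 2 ≤ k ∧ ∀ j ∈ p.1.parts, k ≤ j := by
    rintro ⟨p, hp⟩
    have hne : p.parts.toFinset.Nonempty := by
      have : p.parts ≠ 0 := fun e => by simpa [e] using p.parts_sum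
      simpa [Finset.nonempty_iff_ne_empty] using this
    refine ⟨_, Multiset.mem_toFinset.1 (p.parts.toFinset.min'_mem hne), ?_,
      fun j hj => Finset.min'_le _ _ (Multiset.mem_toFinset.2 hj)⟩
    have hk := Multiset.mem_toFinset.1 (p.parts.toFinset.min'_mem hne)
    have := p.parts_pos hk
    have hne1 : p.parts.toFinset.min' hne ≠ 1 := fun e => hp (by rw [e] at hk; exact hk)
    omega
  choose k hk hk2 hkle using hmin
  let f : {p : (m + 1).Partition // 1 ∉ p.parts} → m.Partition := fun p =>
    ⟨(k p - 1) ::ₘ p.1.parts.erase (k p), by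
      intro i hi
      rcases Multiset.mem_cons.1 hi with rfl | hi
      · have := hk2 p; omega
      · exact p.1.parts_pos (Multiset.mem_of_mem_erase hi), by
      have hs : k p + (p.1.parts.erase (k p)).sum = m + 1 := by
        simpa [p.1.parts_sum] using congrArg Multiset.sum (Multiset.cons_erase (hk p))
      have := hk2 p
      rw [Multiset.sum_cons]
      omega⟩
  have hf : Function.Injective f := by
    intro p q e
    have e' : (k p - 1) ::ₘ p.1.parts.erase (k p) = (k q - 1) ::ₘ q.1.parts.erase (k q) :=
      congrArg Nat.Partition.parts e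
    have h1 : k p - 1 ∈ (k q - 1) ::ₘ q.1.parts.erase (k q) := by
      rw [← e']; exact Multiset.mem_cons_self _ _
    have h2 : k q - 1 ∈ (k p - 1) ::ₘ p.1.parts.erase (k p) := by
      rw [e']; exact Multiset.mem_cons_self _ _
    have hpq : k p = k q := by
      have := hk2 p; have := hk2 q
      rcases Multiset.mem_cons.1 h1 with a | a <;> rcases Multiset.mem_cons.1 h2 with b | b
      · omega
      · omega
      · omega
      · have := hkle q _ (Multiset.mem_of_mem_erase a)
        have := hkle p _ (Multiset.mem_of_mem_erase b)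
        omega
    rw [hpq] at e'
    apply Subtype.ext
    apply Nat.Partition.ext
    rw [← Multiset.cons_erase (hk p), ← Multiset.cons_erase (hk q), hpq,
      (Multiset.cons_inj_right _).1 e']
  have h := Nat.card_le_card_of_injective f hf
  have hsplit := Nat.card_congr
    (Equiv.sumCompl (fun p : (m + 1).Partition => 1 ∈ p.parts))
  rw [Nat.card_sum] at hsplit
  omega

theorem partition_five : Nat.card (Nat.Partition 5) ≤ 8 := by
  classical
  have hsum : ∀ p : Nat.Partition 5, 1 * p.parts.count 1 + 2 * p.parts.count 2 + 3 * p.parts.count 3 +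
      4 * p.parts.count 4 + 5 * p.parts.count 5 = 5 := by
    intro p
    have hsub : p.parts.toFinset ⊆ {1, 2, 3, 4, 5} := by
      intro a ha
      rw [Multiset.mem_toFinset] at ha
      have := p.parts_pos ha
      have := p.parts_sum ▸ Multiset.le_sum_of_mem ha
      simp only [Finset.mem_insert, Finset.mem_singleton]
      omega
    have := Finset.sum_multiset_count_of_subset p.parts _ hsub
    rw [p.parts_sum] at this
    simp at this
    omega
  let S := {c : Fin 6 × Fin 3 × Fin 2 × Fin 2 × Fin 2 //
    (c.1 : ℕ) + 2 * c.2.1 + 3 * c.2.2.1 + 4 * c.2.2.2.1 + 5 * c.2.2.2.2 = 5}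
  let f : Nat.Partition 5 → S := fun p =>
    have h := hsum p
    ⟨(⟨p.parts.count 1, by omega⟩, ⟨p.parts.count 2, by omega⟩, ⟨p.parts.count 3, by omega⟩,
      ⟨p.parts.count 4, by omega⟩, ⟨p.parts.count 5, by omega⟩), by show _ = 5; simp; omega⟩
  have hf : Function.Injective f := by
    intro p q e
    have e1 : p.parts.count 1 = q.parts.count 1 := congrArg (fun c : S => (c.1.1 : ℕ)) e
    have e2 : p.parts.count 2 = q.parts.count 2 := congrArg (fun c : S => (c.1.2.1 : ℕ)) e
    have e3 : p.parts.count 3 = q.parts.count 3 := congrArg (fun c : S => (c.1.2.2.1 : ℕ)) e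
    have e4 : p.parts.count 4 = q.parts.count 4 := congrArg (fun c : S => (c.1.2.2.2.1 : ℕ)) e
    have e5 : p.parts.count 5 = q.parts.count 5 := congrArg (fun c : S => (c.1.2.2.2.2 : ℕ)) e
    apply Nat.Partition.ext
    refine Multiset.ext.2 fun a => ?_
    have hout : ∀ r : Nat.Partition 5, a = 0 ∨ 5 < a → r.parts.count a = 0 := fun r ha =>
      Multiset.count_eq_zero.2 fun hm => by
        have := r.parts_pos hm
        have := r.parts_sum ▸ Multiset.le_sum_of_mem hm
        omega
    rcases lt_or_ge 5 a with h | h
    · rw [hout p (Or.inr h), hout q (Or.inr h)]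
    · interval_cases a
      · rw [hout p (Or.inl rfl), hout q (Or.inl rfl)]
      all_goals assumption
  refine (Nat.card_le_card_of_injective f hf).trans ?_
  rw [Nat.card_eq_fintype_card]
  decide

theorem partition_bound : ∀ n, 5 ≤ n → Nat.card n.Partition ≤ 2 ^ (n - 2) := by
  intro n hn
  induction n, hn using Nat.le_induction with
  | base => exact partition_five
  | succ m hm ih =>
    refine (partition_step m (by omega)).trans ?_
    rw [show m + 1 - 2 = (m - 2) + 1 by omega, pow_succ']
    omega


/-- For n ≥ 5 the alternating group of degree n has strictly fewer conjugacy classes than the symmetric group of degree n, and the symmetric group of degree n (whose classes correspond to the partitions of n) has at most 2^(n−2) conjugacy classes. -/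
theorem result (n : ℕ) (hn : 5 ≤ n) : Nat.card (ConjClasses (alternatingGroup (Fin n))) < Nat.card (ConjClasses (Equiv.Perm (Fin n))) ∧ Nat.card (ConjClasses (Equiv.Perm (Fin n))) ≤ 2 ^ (n - 2) := by
  classical
  refine ⟨?_, ?_⟩
  · let T : Finset (Multiset ℕ) :=
      (Finset.univ : Finset (Equiv.Perm (Fin n))).image Equiv.Perm.cycleType
    have hT : Nat.card (ConjClasses (Equiv.Perm (Fin n))) = T.card := by
      have hf : Function.Injective (Quotient.lift (fun σ : Equiv.Perm (Fin n) => σ.cycleType)
          (fun a b h => Equiv.Perm.isConj_iff_cycleType_eq.1 h) :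
          ConjClasses (Equiv.Perm (Fin n)) → Multiset ℕ) := by
        intro a b
        induction a using Quotient.inductionOn
        induction b using Quotient.inductionOn
        exact fun e => Quotient.sound (Equiv.Perm.isConj_iff_cycleType_eq.2 e)
      letI : Fintype (ConjClasses (Equiv.Perm (Fin n))) := Quotient.fintype (IsConj.setoid (Equiv.Perm (Fin n)))
      rw [Nat.card_eq_fintype_card, ← Finset.card_univ]
      refine (Finset.card_image_of_injective _ hf).symm.trans (congrArg Finset.card ?_)
      ext m
      constructor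
      · intro hm
        obtain ⟨c, -, hc⟩ := Finset.mem_image.1 hm
        induction c using Quotient.inductionOn with
        | _ σ => exact Finset.mem_image.2 ⟨σ, Finset.mem_univ _, hc⟩
      · intro hm
        obtain ⟨σ, -, hσ⟩ := Finset.mem_image.1 hm
        exact Finset.mem_image.2 ⟨ConjClasses.mk σ, Finset.mem_univ _, hσ⟩
    let ct : ConjClasses (alternatingGroup (Fin n)) → Multiset ℕ := fun c =>
      (c.out : Equiv.Perm (Fin n)).cycleType
    let d : Multiset ℕ → alternatingGroup (Fin n) := fun m =>
      Classical.epsilon fun y : alternatingGroup (Fin n) => (y : Equiv.Perm (Fin n)).cycleType = m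
    let Φ : ConjClasses (alternatingGroup (Fin n)) → Multiset ℕ := fun c =>
      if IsConj (d (ct c)) c.out then ct c else shrink (ct c)
    have hd : ∀ c, (d (ct c) : Equiv.Perm (Fin n)).cycleType = ct c := fun c =>
      Classical.epsilon_spec (p := fun y : alternatingGroup (Fin n) =>
        (y : Equiv.Perm (Fin n)).cycleType = ct c) ⟨c.out, rfl⟩
    have hperm : ∀ c, IsConj (d (ct c) : Equiv.Perm (Fin n)) c.out := fun c =>
      Equiv.Perm.isConj_iff_cycleType_eq.2 (hd c)
    have hsplit : ∀ c, ¬ IsConj (d (ct c)) c.out → (∀ a ∈ ct c, Odd a ∧ 2 ≤ a) ∧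
        n ≤ (ct c).sum + 1 ∧ ct c ≠ 0 := by
      intro c hc
      have h1 := no_odd_centraliser (fun ρ hρ => isConj_or_odd_free (hperm c) hc ρ hρ)
      rw [hd c] at h1
      refine ⟨fun a ha => ⟨h1.1 a ha, Equiv.Perm.two_le_of_mem_cycleType ha⟩, h1.2, fun e => ?_⟩
      rw [e, Multiset.sum_zero] at h1
      omega
    have hshrink : ∀ c, ¬ IsConj (d (ct c)) c.out →
        ¬ Even ((shrink (ct c)).sum + (shrink (ct c)).card) ∧ shrink (ct c) ∈ T ∧ shrink (ct c) ≠ {2} := by
      intro c hc
      obtain ⟨h1, h2, h3⟩ := hsplit c hc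
      obtain ⟨a, ha, ea⟩ := shrink_spec h3
      have hae : a + ((ct c).erase a).sum = (ct c).sum := by
        simpa using congrArg Multiset.sum (Multiset.cons_erase ha)
      have hac : ((ct c).erase a).card + 1 = (ct c).card := by
        simpa using congrArg Multiset.card (Multiset.cons_erase ha)
      have ha3 : 3 ≤ a := by
        obtain ⟨⟨u, hu⟩, hu2⟩ := h1 a ha
        omega
      have hev : Even ((ct c).sum + (ct c).card) := even_cycleType c.out
      have hle : (ct c).sum ≤ n :=
        (Equiv.Perm.sum_cycleType_le _).trans_eq (Fintype.card_fin n)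
      refine ⟨?_, ?_, ?_⟩
      · rw [ea, Multiset.sum_cons, Multiset.card_cons]
        rw [Nat.even_iff] at hev ⊢
        omega
      · obtain ⟨σ, hσ⟩ := (Equiv.Perm.exists_with_cycleType_iff (α := Fin n) (m := shrink (ct c))).2
          ⟨by rw [ea, Multiset.sum_cons, Fintype.card_fin]; omega, fun b hb => by
            rw [ea] at hb
            rcases Multiset.mem_cons.1 hb with rfl | hb
            · omega
            · exact (h1 b (Multiset.mem_of_mem_erase hb)).2⟩
        exact Finset.mem_image.2 ⟨σ, Finset.mem_univ _, hσ⟩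
      · intro e
        have hs := congrArg Multiset.sum e
        have hcc := congrArg Multiset.card e
        rw [ea, Multiset.sum_cons, Multiset.sum_singleton] at hs
        rw [ea, Multiset.card_cons, Multiset.card_singleton] at hcc
        have h0 : ((ct c).erase a) = 0 := Multiset.card_eq_zero.1 (by omega)
        rw [h0] at hae
        simp at hae hs
        omega
    have hinj : Function.Injective Φ := by
      intro c c' e
      have hct : ct c = ct c' → (IsConj (d (ct c)) c.out ↔ IsConj (d (ct c')) c'.out) → c = c' := by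
        intro e1 e2
        have hout : IsConj c.out c'.out := by
          by_cases hc : IsConj (d (ct c)) c.out
          · exact hc.symm.trans (e1.symm ▸ e2.1 hc)
          · have hc' : ¬ IsConj (d (ct c')) c'.out := fun h => hc (e2.2 h)
            obtain ⟨σ, hσ⟩ := isConj_iff.1 (hperm c)
            obtain ⟨τ, hτ⟩ := isConj_iff.1 (hperm c')
            rw [← e1] at hτ hc'
            rcases Int.units_eq_one_or (Equiv.Perm.sign σ) with s | s
            · exact absurd (isConj_iff.2 ⟨⟨σ, s⟩, Subtype.ext hσ⟩) hc
            rcases Int.units_eq_one_or (Equiv.Perm.sign τ) with t | t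
            · exact absurd (isConj_iff.2 ⟨⟨τ, t⟩, Subtype.ext hτ⟩) hc'
            refine isConj_iff.2 ⟨⟨τ * σ⁻¹, ?_⟩, Subtype.ext ?_⟩
            · rw [Equiv.Perm.mem_alternatingGroup, Equiv.Perm.sign_mul, Equiv.Perm.sign_inv, s, t]
              decide
            · show τ * σ⁻¹ * (c.out : Equiv.Perm (Fin n)) * (τ * σ⁻¹)⁻¹ = c'.out
              rw [← hσ, ← hτ]
              group
        rw [← Quotient.out_eq c, ← Quotient.out_eq c']
        exact Quotient.sound hout
      simp only [Φ] at e
      split_ifs at e with hc hc' hc'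
      · exact hct e (iff_of_true hc hc')
      · exact absurd (e ▸ (even_cycleType c.out : Even ((ct c).sum + (ct c).card))) (hshrink c' hc').1
      · exact absurd (e.symm ▸ (even_cycleType c'.out : Even ((ct c').sum + (ct c').card))) (hshrink c hc).1
      · exact hct (shrink_inj (hsplit c hc).2.2 (hsplit c' hc').2.2 (hsplit c hc).1 (hsplit c' hc').1 e)
          (iff_of_false hc hc')
    have : Fintype (ConjClasses (alternatingGroup (Fin n))) := Fintype.ofFinite _
    rw [hT, Nat.card_eq_fintype_card, ← Finset.card_univ, ← Finset.card_image_of_injective _ hinj]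
    refine Finset.card_lt_card ⟨?_, fun hsub => ?_⟩
    · intro m hm
      obtain ⟨c, -, rfl⟩ := Finset.mem_image.1 hm
      simp only [Φ]
      split_ifs with hc
      · exact Finset.mem_image.2 ⟨(c.out : Equiv.Perm (Fin n)), Finset.mem_univ _, rfl⟩
      · exact (hshrink c hc).2.1
    · have h2 : ({2} : Multiset ℕ) ∈ T := by
        obtain ⟨σ, hσ⟩ := (Equiv.Perm.exists_with_cycleType_iff (α := Fin n) (m := {2})).2
          ⟨by simp; omega, by simp⟩
        exact Finset.mem_image.2 ⟨σ, Finset.mem_univ _, hσ⟩
      obtain ⟨c, -, hc2⟩ := Finset.mem_image.1 (hsub h2)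
      simp only [Φ] at hc2
      split_ifs at hc2 with hc
      · have := even_cycleType c.out
        have e : (c.out : Equiv.Perm (Fin n)).cycleType = {2} := hc2
        rw [e] at this
        simp [Nat.even_iff] at this
      · exact (hshrink c hc).2.2 hc2
  · refine le_trans ?_ (partition_bound n hn)
    have hle : Nat.card (ConjClasses (Equiv.Perm (Fin n))) ≤
        Nat.card (Fintype.card (Fin n)).Partition := by
      refine Nat.card_le_card_of_injective (Quotient.lift (fun σ : Equiv.Perm (Fin n) => σ.partition)
        (fun a b h => Equiv.Perm.partition_eq_of_isConj.1 h)) ?_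
      intro a b
      induction a using Quotient.inductionOn
      induction b using Quotient.inductionOn
      exact fun e => Quotient.sound (Equiv.Perm.partition_eq_of_isConj.2 e)
    rwa [Fintype.card_fin] at hle

end Cfsg.Agent.S4198
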