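import Cfsg.Statements.S4201
import Mathlib
-- import your own Cfsg.Agent.* helpers here

set_option autoImplicit false
open Cfsg

namespace Cfsg.Agent.S4201

/-- If N is a normal subgroup of the finite group X then k(X) ≤ k(N)·k(X ⧸ N), where k denotes the number of conjugacy classes. -/
theorem result {X : Type*} [Group X] [Finite X] (N : Subgroup X) [N.Normal] : Nat.card (ConjClasses X) ≤ Nat.card (ConjClasses N) * Nat.card (ConjClasses (X ⧸ N)) := by
  classical
  have : Fintype X := Fintype.ofFinite X
  have hN : 0 < Nat.card N := Nat.card_pos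
  set π := QuotientGroup.mk' N with hπ
  let PX := {p : X × X // Commute p.1 p.2}
  let PQ := {p : (X ⧸ N) × (X ⧸ N) // Commute p.1 p.2}
  let PN := {p : N × N // Commute p.1 p.2}
  let f : PX → PQ := fun p => ⟨(π p.1.1, π p.1.2), p.2.map π⟩
  -- number of partners of a fixed element in a coset is at most that in N
  have hpart : ∀ (h : X) (q : X ⧸ N), Nat.card {g : X // π g = q ∧ Commute g h} ≤ Nat.card {g : N // Commute (g : X) h} := by
    intro h q
    by_cases he : Nonempty {g : X // π g = q ∧ Commute g h}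
    · obtain ⟨g0, hg0, hc0⟩ := he
      refine Nat.card_le_card_of_injective (fun g => ⟨⟨g0⁻¹ * g.1, (QuotientGroup.eq (s := N)).1 (hg0.trans g.2.1.symm)⟩, hc0.inv_left.mul_left g.2.2⟩) ?_
      intro a b e
      have := congrArg (fun s => (s.1 : X)) e
      exact Subtype.ext (mul_left_cancel this)
    · rw [not_nonempty_iff] at he
      simp
  have hfib : ∀ c : PQ, Nat.card {p : PX // f p = c} ≤ Nat.card PN := by
    rintro ⟨⟨a, b⟩, hab⟩
    let E := Σ h : {h : X // π h = b}, {g : X // π g = a ∧ Commute g h}
    let E' := Σ h : {h : X // π h = b}, {g : N // Commute (g : X) h}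
    let E'' := Σ n : N, {h : X // π h = b ∧ Commute h (n : X)}
    have h1 : Nat.card {p : PX // f p = (⟨(a, b), hab⟩ : PQ)} = Nat.card E := Nat.card_congr
      { toFun := fun p => ⟨⟨p.1.1.2, congrArg (fun c : PQ => c.1.2) p.2⟩, p.1.1.1, congrArg (fun c : PQ => c.1.1) p.2, p.1.2⟩
        invFun := fun s => ⟨⟨(s.2.1, s.1.1), s.2.2.2⟩, Subtype.ext (Prod.ext s.2.2.1 s.1.2)⟩
        left_inv := fun _ => rfl
        right_inv := fun _ => rfl }
    have h2 : Nat.card E ≤ Nat.card E' := by
      simp only [E, E', Nat.card_sigma]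
      exact Finset.sum_le_sum fun h _ => hpart h a
    have h3 : Nat.card E' = Nat.card E'' := Nat.card_congr
      { toFun := fun s => ⟨s.2.1, s.1.1, s.1.2, s.2.2.symm⟩
        invFun := fun s => ⟨⟨s.2.1, s.2.2.1⟩, s.1, s.2.2.2.symm⟩
        left_inv := fun _ => rfl
        right_inv := fun _ => rfl }
    have h4 : Nat.card E'' ≤ Nat.card PN := by
      have e : Nat.card PN = Nat.card (Σ n : N, {g : N // Commute (g : X) n}) := Nat.card_congr
        { toFun := fun p => ⟨p.1.2, p.1.1, congrArg Subtype.val p.2.eq⟩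
          invFun := fun s => ⟨(s.2.1, s.1), Subtype.ext s.2.2.eq⟩
          left_inv := fun _ => rfl
          right_inv := fun _ => rfl }
      rw [e]
      simp only [E'', Nat.card_sigma]
      exact Finset.sum_le_sum fun n _ => hpart n b
    omega
  have htot : Nat.card PX ≤ Nat.card PQ * Nat.card PN := by
    have : Fintype PQ := Fintype.ofFinite PQ
    rw [← Nat.card_congr (Equiv.sigmaFiberEquiv f), Nat.card_sigma]
    refine le_trans (Finset.sum_le_sum fun c _ => hfib c) ?_
    rw [Finset.sum_const, Finset.card_univ, smul_eq_mul, ← Nat.card_eq_fintype_card (α := PQ)]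
  simp only [PX, PQ, PN, card_comm_eq_card_conjClasses_mul_card] at htot
  rw [Subgroup.card_eq_card_quotient_mul_card_subgroup N] at htot
  refine Nat.le_of_mul_le_mul_right (c := _) ?_ (Nat.mul_pos (Nat.card_pos (α := X ⧸ N)) hN)
  linarith

end Cfsg.Agent.S4201
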