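import Cfsg.Statements.S4203
import Mathlib
import Cfsg.Agent.S0144
-- import your own Cfsg.Agent.* helpers here

set_option autoImplicit false
open Cfsg

namespace Cfsg.Agent.S4203

universe u

lemma solvable_aux : ∀ (n : ℕ) (G : Type u) [Group G] [Finite G], Nat.card G = n →
    (∀ M : Subgroup G, IsCoatom M → ∃ p : ℕ, p.Prime ∧ (M.index = p ∨ M.index = p ^ 2)) → Group.IsSolvable G := by
  intro n
  induction n using Nat.strong_induction_on with
  | _ n ih =>
    intro G _ _ hn h
    classical
    by_cases hbig : ∃ r ∈ (Nat.card G).primeFactors, 3 < r
    · obtain ⟨r, hr, hr3⟩ := hbig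
      have hne : (Nat.card G).primeFactors.Nonempty := ⟨r, hr⟩
      set p := (Nat.card G).primeFactors.max' hne with hp_def
      have hpmem : p ∈ (Nat.card G).primeFactors := Finset.max'_mem _ hne
      have hp3 : 3 < p := lt_of_lt_of_le hr3 (Finset.le_max' _ r hr)
      have hp : p.Prime := Nat.prime_of_mem_primeFactors hpmem
      have := Fact.mk hp
      let P : Sylow p G := default
      by_cases hPn : (P : Subgroup G).Normal
      · have : Group.IsNilpotent (P : Subgroup G) := P.isPGroup'.isNilpotent
        have hPs : Group.IsSolvable (P : Subgroup G) := IsNilpotent.to_isSolvable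
        have hlt : Nat.card (G ⧸ (P : Subgroup G)) < n := by
          rw [← hn, Subgroup.card_eq_card_quotient_mul_card_subgroup (P : Subgroup G)]
          refine lt_mul_of_one_lt_right Nat.card_pos ((Subgroup.one_lt_card_iff_ne_bot _).2 (P.ne_bot_of_dvd_card (Nat.dvd_of_mem_primeFactors hpmem)))
        have hq : Group.IsSolvable (G ⧸ (P : Subgroup G)) := by
          refine ih _ hlt _ rfl fun M hM => ?_
          have hsur := QuotientGroup.mk'_surjective (P : Subgroup G)
          obtain ⟨q, hq, hi⟩ := h (M.comap (QuotientGroup.mk' (P : Subgroup G))) (Subgroup.isCoatom_comap_of_surjective hsur hM)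
          rw [Subgroup.index_comap_of_surjective M hsur] at hi
          exact ⟨q, hq, hi⟩
        exact Group.isSolvable_of_ker_le_range (P : Subgroup G).subtype (QuotientGroup.mk' (P : Subgroup G)) (by simp)
      · exfalso
        have hNne : Subgroup.normalizer ((P : Subgroup G) : Set G) ≠ ⊤ := fun e => hPn (Subgroup.normalizer_eq_top_iff.1 e)
        obtain ⟨M, hM, hNM⟩ := (eq_top_or_exists_le_coatom (Subgroup.normalizer ((P : Subgroup G) : Set G))).resolve_left hNne
        obtain ⟨q, hq, hi⟩ := h M hM
        have hPM : (P : Subgroup G) ≤ M := Subgroup.le_normalizer.trans hNM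
        have e1 : Nat.card (Sylow p G) = (Subgroup.normalizer ((P : Subgroup G) : Set G)).index := P.card_eq_index_normalizer
        let PM : Sylow p M := P.subtype hPM
        have e2 : Nat.card (Sylow p M) = (Subgroup.normalizer ((P : Subgroup G) : Set G)).relIndex M := by
          rw [PM.card_eq_index_normalizer, Subgroup.relIndex]
          congr 1
          show Subgroup.normalizer ((PM : Subgroup M) : Set M) = _
          rw [show (PM : Subgroup M) = (P : Subgroup G).subgroupOf M from rfl]
          exact (Subgroup.subgroupOf_normalizer_eq hPM).symm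
        have e3 : Nat.card (Sylow p G) = Nat.card (Sylow p M) * M.index := by
          rw [e1, e2, Subgroup.relIndex_mul_index hNM]
        have hmod : M.index ≡ 1 [MOD p] := by
          have h1 := card_sylow_modEq_one p G
          have h2 := card_sylow_modEq_one p M
          rw [e3] at h1
          have := (Nat.ModEq.mul_right M.index h2).symm.trans h1
          rwa [one_mul] at this
        have hqG : q ∣ Nat.card G := by
          refine dvd_trans ?_ M.index_dvd_card
          rcases hi with e | e <;> rw [e]
          exact dvd_pow_self q (by norm_num)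
        have hqp : q ≤ p := Finset.le_max' _ q (Nat.mem_primeFactors.2 ⟨hq, hqG, Nat.card_pos.ne'⟩)
        have hq2 := hq.two_le
        rcases hi with e | e <;> rw [e] at hmod
        · rcases lt_or_eq_of_le hqp with hlt | heq
          · have := Nat.ModEq.eq_of_lt_of_lt hmod hlt hp.one_lt; omega
          · rw [heq, Nat.ModEq, Nat.mod_self, Nat.one_mod_eq_one.2 hp.ne_one] at hmod; omega
        · rcases lt_or_eq_of_le hqp with hlt | heq
          · have hd : p ∣ (q - 1) * (q + 1) := by
              rw [mul_comm, ← Nat.sq_sub_sq, one_pow]
              exact (Nat.modEq_iff_dvd' (Nat.one_le_pow _ _ hq.pos)).1 hmod.symm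
            rcases hp.dvd_mul.1 hd with hd | hd
            · have := Nat.le_of_dvd (by omega) hd; omega
            · have := Nat.le_of_dvd (by omega) hd
              have hpq : p = q + 1 := by omega
              rcases hq.eq_two_or_odd with rfl | ho
              · omega
              · rcases hp.eq_two_or_odd with h2 | h2 <;> omega
          · rw [heq, Nat.ModEq, Nat.pow_mod, Nat.mod_self, Nat.one_mod_eq_one.2 hp.ne_one] at hmod; simp at hmod
    · push Not at hbig
      have hdiv : ∀ r : ℕ, r ∈ (Nat.card G).primeFactors → r = 2 ∨ r = 3 := fun r hr => by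
        have := hbig r hr; have := (Nat.prime_of_mem_primeFactors hr).two_le; omega
      refine Cfsg.Agent.S0144.result 2 3 ((Nat.card G).factorization 2) ((Nat.card G).factorization 3) Nat.prime_two Nat.prime_three ?_
      conv_lhs => rw [← Nat.prod_factorization_pow_eq_self (n := Nat.card G) Nat.card_pos.ne']
      rw [Finsupp.prod, Nat.support_factorization]
      rw [Finset.prod_subset (s₂ := ({2, 3} : Finset ℕ)) (fun r hr => by simpa using hdiv r hr)
        (fun r _ hr => by
          have : (Nat.card G).factorization r = 0 := Finsupp.notMem_support_iff.1 (by rwa [Nat.support_factorization])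
          rw [this, pow_zero])]
      rw [Finset.prod_pair (by norm_num)]

/-- A finite group in which every maximal subgroup has index a prime or the square of a prime is solvable. -/
theorem result {G : Type*} [Group G] [Finite G] (h : ∀ M : Subgroup G, IsCoatom M → ∃ p : ℕ, p.Prime ∧ (M.index = p ∨ M.index = p ^ 2)) : Group.IsSolvable G := by
  exact solvable_aux _ G rfl h

end Cfsg.Agent.S4203
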