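import Cfsg.Statements.S4204
import Mathlib

set_option autoImplicit false
open Cfsg

namespace Cfsg.Agent.S4204

def shifted {G : Type*} [Group G] (H : Subgroup G) : ℕ → Subgroup G
  | 0 => ⊤
  | n + 1 => H.lowerCentralSeries n

lemma shifted_normal {G : Type*} [Group G] (H : Subgroup G) [H.Normal] : ∀ n, (shifted H n).Normal
  | 0 => by show (⊤ : Subgroup G).Normal; infer_instance
  | n + 1 => by
    show (H.lowerCentralSeries n).Normal
    induction n with
    | zero => assumption
    | succ d hd => rw [Subgroup.lowerCentralSeries_succ]; infer_instance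

lemma shifted_comm {G : Type*} [Group G] (H : Subgroup G) [H.Normal] :
    ∀ n, ⁅shifted H n, H⁆ ≤ shifted H (n + 1)
  | 0 => Subgroup.commutator_le_right _ _
  | n + 1 => le_rfl

lemma iSup_normal_of_normal {G : Type*} [Group G] {ι : Sort*} (f : ι → Subgroup G)
    (h : ∀ i, (f i).Normal) : (⨆ i, f i).Normal := by
  constructor
  intro x hx g
  have : (⨆ i, f i).map (MulAut.conj g).toMonoidHom ≤ ⨆ i, f i := by
    rw [Subgroup.map_iSup]
    refine iSup_le fun i => le_trans ?_ (le_iSup f i)
    rintro _ ⟨y, hy, rfl⟩
    exact (h i).conj_mem y hy g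
  exact this ⟨x, hx, rfl⟩

lemma sup_lcs_le {G : Type*} [Group G] (H K : Subgroup G) [H.Normal] [K.Normal] : ∀ n,
    (H ⊔ K).lowerCentralSeries n ≤
      ⨆ i ∈ Finset.range (n + 2), shifted H i ⊓ shifted K (n + 1 - i) := by
  intro n
  induction n with
  | zero =>
    refine sup_le ?_ ?_
    · exact le_iSup₂_of_le 1 (by simp) (by simp [shifted])
    · exact le_iSup₂_of_le 0 (by simp) (by simp [shifted])
  | succ n ih =>
    set R := ⨆ i ∈ Finset.range (n + 3), shifted H i ⊓ shifted K (n + 2 - i) with hR
    haveI := shifted_normal H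
    haveI := shifted_normal K
    haveI : R.Normal := iSup_normal_of_normal _ fun i => iSup_normal_of_normal _ fun _ => inferInstance
    rw [Subgroup.lowerCentralSeries_succ]
    refine (Subgroup.commutator_mono ih le_rfl).trans ?_
    have key : ∀ A B : Subgroup G, ⁅A, B⁆ ≤ R ↔
        A.map (QuotientGroup.mk' R) ≤ Subgroup.centralizer (B.map (QuotientGroup.mk' R) : Set _) := by
      intro A B
      rw [← Subgroup.commutator_eq_bot_iff_le_centralizer, ← Subgroup.map_commutator,
        Subgroup.map_eq_bot_iff, QuotientGroup.ker_mk']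
    have key2 : ∀ A B C : Subgroup G, ⁅A, B⁆ ≤ R → ⁅A, C⁆ ≤ R → ⁅A, B ⊔ C⁆ ≤ R := by
      intro A B C h1 h2
      rw [key] at *
      rw [Subgroup.map_sup, Subgroup.le_centralizer_iff]
      exact sup_le (Subgroup.le_centralizer_iff.1 h1) (Subgroup.le_centralizer_iff.1 h2)
    rw [key]
    simp only [Subgroup.map_iSup, iSup_le_iff]
    intro i hi
    rw [← key]
    simp only [Finset.mem_range] at hi
    refine key2 _ _ _ ?_ ?_
    · refine le_trans (le_inf ((Subgroup.commutator_mono inf_le_left le_rfl).trans (shifted_comm H i))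
        ((Subgroup.commutator_mono inf_le_right le_rfl).trans (Subgroup.commutator_le_left _ _))) ?_
      refine le_iSup₂_of_le (i + 1) (Finset.mem_range.2 (by omega)) ?_
      rw [show n + 2 - (i + 1) = n + 1 - i by omega]
    · refine le_trans (le_inf ((Subgroup.commutator_mono inf_le_left le_rfl).trans (Subgroup.commutator_le_left _ _))
        ((Subgroup.commutator_mono inf_le_right le_rfl).trans (shifted_comm K _))) ?_
      refine le_iSup₂_of_le i (Finset.mem_range.2 (by omega)) ?_
      rw [show n + 2 - i = n + 1 - i + 1 by omega]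

/-- If `H` and `K` are normal subgroups of a finite group with `H` nilpotent of class at most `c` and `K` nilpotent of class at most `d` (the terms with index `c`, respectively `d`, of their lower central series are trivial, indices starting at `0`), then `HK` is nilpotent of class at most `c + d`. -/
theorem result {G : Type*} [Group G] [Finite G] (H K : Subgroup G) [H.Normal] [K.Normal] (c d : ℕ) (hH : H.lowerCentralSeries c = ⊥) (hK : K.lowerCentralSeries d = ⊥) : (H ⊔ K).lowerCentralSeries (c + d) = ⊥ := by
  refine eq_bot_iff.2 ((sup_lcs_le H K (c + d)).trans ?_)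
  simp only [iSup_le_iff, Finset.mem_range]
  intro i hi
  rcases Nat.lt_or_ge c i with h | h
  · obtain ⟨j, rfl⟩ : ∃ j, i = j + 1 := ⟨i - 1, by omega⟩
    refine inf_le_left.trans ?_
    exact (Subgroup.lowerCentralSeries_antitone H (show c ≤ j by omega)).trans hH.le
  · obtain ⟨j, hj⟩ : ∃ j, c + d + 1 - i = j + 1 := ⟨c + d - i, by omega⟩
    rw [hj]
    refine inf_le_right.trans ?_
    exact (Subgroup.lowerCentralSeries_antitone K (show d ≤ j by omega)).trans hK.le

end Cfsg.Agent.S4204
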