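import Cfsg.Statements.S4205
import Mathlib
-- import your own Cfsg.Agent.* helpers here

set_option autoImplicit false
open Cfsg

namespace Cfsg.Agent.S4205

/-- In a finite group whose upper central series reaches the whole group at step `c` (nilpotent of class at most `c`), starting from any subgroup and taking normalizers `c` times reaches the whole group. -/
theorem result {G : Type*} [Group G] [Finite G] (c : ℕ) (hG : Subgroup.upperCentralSeries G c = ⊤) (H : Subgroup G) : (fun K : Subgroup G => Subgroup.normalizer (K : Set G))^[c] H = ⊤ := by
  have h : ∀ n, Subgroup.upperCentralSeries G n ≤ (fun K : Subgroup G => Subgroup.normalizer (K : Set G))^[n] H ∧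
      H ≤ (fun K : Subgroup G => Subgroup.normalizer (K : Set G))^[n] H := by
    intro n
    induction n with
    | zero => simp
    | succ n ih =>
      rw [Function.iterate_succ_apply']
      set K := (fun K : Subgroup G => Subgroup.normalizer (K : Set G))^[n] H
      refine ⟨?_, ih.2.trans Subgroup.le_normalizer⟩
      intro x hx
      have key : ∀ y ∈ Subgroup.upperCentralSeries G (n + 1), ∀ k ∈ K, y * k * y⁻¹ ∈ K := by
        intro y hy k hk
        have h1 := ih.1 ((Subgroup.mem_upperCentralSeries_succ_iff).1 hy k)
        rw [show y * k * y⁻¹ = (y * k * y⁻¹ * k⁻¹) * k by group]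
        exact mul_mem h1 hk
      rw [Subgroup.mem_normalizer_iff]
      refine fun k => ⟨key x hx k, fun hk => ?_⟩
      have := key x⁻¹ (inv_mem hx) _ hk
      rwa [show x⁻¹ * (x * k * x⁻¹) * x⁻¹⁻¹ = k by group] at this
  exact top_unique (hG ▸ (h c).1)

end Cfsg.Agent.S4205
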