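import Cfsg.Statements.S4206
import Mathlib
-- import your own Cfsg.Agent.* helpers here

set_option autoImplicit false
open Cfsg

namespace Cfsg.Agent.S4206

/-- Let `H 0 ≥ H 1 ≥ H 2 ≥ ⋯` be normal subgroups of a finite group and `L` a subgroup with `⁅H i, L⁆ ≤ H (i+1)` for all `i`. Then `⁅H i, γ⁆ ≤ H (i + j + 1)` where `γ` is the `j`-th term of the lower central series of `L` (indexed from `0`, so the term with index `j` is the `(j+1)`-fold commutator). -/
theorem result {G : Type*} [Group G] [Finite G] (H : ℕ → Subgroup G) (hN : ∀ i, (H i).Normal) (hdesc : ∀ i, H (i + 1) ≤ H i) (L : Subgroup G) (hL : ∀ i, ⁅H i, L⁆ ≤ H (i + 1)) (i j : ℕ) : ⁅H i, L.lowerCentralSeries j⁆ ≤ H (i + j + 1) := by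
  induction j generalizing i with
  | zero => exact hL i
  | succ j ih =>
    have := hN (i + (j + 1) + 1)
    set N := H (i + (j + 1) + 1)
    let π := QuotientGroup.mk' N
    suffices h : ⁅(H i).map π, ((L.lowerCentralSeries (j + 1))).map π⁆ = ⊥ by
      rwa [← Subgroup.map_commutator, Subgroup.map_eq_bot_iff, QuotientGroup.ker_mk'] at h
    have hb : ∀ a b : Subgroup G, ⁅a, b⁆ ≤ N → ⁅a.map π, b.map π⁆ = ⊥ := fun a b hab => by
      rwa [← Subgroup.map_commutator, Subgroup.map_eq_bot_iff, QuotientGroup.ker_mk']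
    rw [Subgroup.lowerCentralSeries_succ, Subgroup.map_commutator, Subgroup.commutator_comm]
    apply Subgroup.commutator_commutator_eq_bot_of_rotate
    · rw [← Subgroup.map_commutator]
      refine hb _ _ ((Subgroup.commutator_mono ((Subgroup.commutator_comm L (H i)) ▸ hL i) le_rfl).trans ?_)
      exact le_trans (ih (i + 1)) (le_of_eq (by rw [show i + 1 + j + 1 = i + (j + 1) + 1 by omega]))
    · rw [← Subgroup.map_commutator]
      refine hb _ _ ((Subgroup.commutator_mono (ih i) le_rfl).trans ?_)
      exact le_trans (hL _) (le_of_eq (by rw [show i + j + 1 + 1 = i + (j + 1) + 1 by omega]))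

end Cfsg.Agent.S4206
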