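import Cfsg.Statements.S4207
import Mathlib
-- import your own Cfsg.Agent.* helpers here

set_option autoImplicit false
open Cfsg

namespace Cfsg.Agent.S4207

lemma exists_generators {Q : Type*} [Group Q] [Finite Q] {p r : ℕ} [Fact p.Prime] (hQ : Nat.card Q = p ^ r) :
    ∃ b : Fin r → Q, Subgroup.closure (Set.range b) = ⊤ := by
  have key : ∀ k, k ≤ r → ∃ t : Fin k → Q, p ^ k ≤ Nat.card (Subgroup.closure (Set.range t)) := by
    intro k hk
    induction k with
    | zero => exact ⟨fun i => i.elim0, by simpa using Nat.card_pos⟩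
    | succ k ih =>
      obtain ⟨t, ht⟩ := ih (by omega)
      by_cases h : p ^ (k + 1) ≤ Nat.card (Subgroup.closure (Set.range t))
      · refine ⟨Fin.snoc t 1, h.trans (Subgroup.card_le_of_le (Subgroup.closure_mono ?_))⟩
        rintro _ ⟨i, rfl⟩
        exact ⟨i.castSucc, by simp⟩
      · push Not at h
        have hne : Subgroup.closure (Set.range t) ≠ ⊤ := by
          intro e
          rw [e, Subgroup.card_top, hQ] at h
          have := (Nat.pow_lt_pow_iff_right (Fact.out : p.Prime).one_lt).1 h
          omega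
        obtain ⟨x, -, hx⟩ := SetLike.exists_of_lt (lt_top_iff_ne_top.2 hne)
        refine ⟨Fin.snoc t x, ?_⟩
        set K := Subgroup.closure (Set.range t)
        set L := Subgroup.closure (Set.range (Fin.snoc t x))
        have hKL : K < L := by
          refine lt_of_le_of_ne (Subgroup.closure_mono ?_) fun e => hx (e ▸ Subgroup.subset_closure ⟨Fin.last k, by simp⟩)
          rintro _ ⟨i, rfl⟩
          exact ⟨i.castSucc, by simp⟩
        have hdvd := Subgroup.card_dvd_of_le hKL.le
        have hlt : Nat.card K < Nat.card L := by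
          have h := Set.ncard_lt_ncard (SetLike.coe_ssubset_coe.2 hKL) (Set.toFinite _)
          rwa [← Nat.card_coe_set_eq, ← Nat.card_coe_set_eq] at h
        obtain ⟨i, -, hi⟩ := (Nat.dvd_prime_pow (Fact.out : p.Prime)).1 (hQ ▸ K.card_subgroup_dvd_card)
        obtain ⟨j, -, hj⟩ := (Nat.dvd_prime_pow (Fact.out : p.Prime)).1 (hQ ▸ L.card_subgroup_dvd_card)
        rw [hi] at ht hlt
        rw [hj] at hlt ⊢
        rw [Nat.pow_lt_pow_iff_right (Fact.out : p.Prime).one_lt] at hlt
        rw [Nat.pow_le_pow_iff_right (Fact.out : p.Prime).one_lt] at ht ⊢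
        omega
  obtain ⟨t, ht⟩ := key r le_rfl
  exact ⟨t, Subgroup.eq_top_of_le_card _ (hQ ▸ ht)⟩

lemma card_dvd_of_free {A T : Type*} [Group A] [MulAction A T] [Finite A] [Finite T]
    (h : ∀ (a : A) (t : T), a • t = t → a = 1) : Nat.card A ∣ Nat.card T := by
  classical
  have : Fintype (MulAction.orbitRel.Quotient A T) := Fintype.ofFinite _
  rw [Nat.card_congr (MulAction.selfEquivSigmaOrbitsQuotientStabilizer A T), Nat.card_sigma]
  refine Finset.dvd_sum fun ω _ => ?_
  have : MulAction.stabilizer A ω.out = ⊥ := eq_bot_iff.2 fun a ha => Subgroup.mem_bot.2 (h a _ ha)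
  rw [← Subgroup.index, this, Subgroup.index_bot]

lemma eq_one_of_fix {P : Type*} [Group P] (α : MulAut P) (S : Set P) (hS : Subgroup.closure S = ⊤)
    (h : ∀ x ∈ S, α x = x) : α = 1 := by
  apply MulEquiv.ext
  intro x
  have : α.toMonoidHom = MonoidHom.id P := MonoidHom.eq_of_eqOn_dense hS h
  exact DFunLike.congr_fun this x

lemma gen_of_lift {P : Type*} [Group P] [Finite P] {k : ℕ} (t : Fin k → P)
    (h : Subgroup.closure (Set.range fun i => QuotientGroup.mk' (frattini P) (t i)) = ⊤) :
    Subgroup.closure (Set.range t) = ⊤ := by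
  apply frattini_nongenerating
  rw [Set.range_comp', ← MonoidHom.map_closure] at h
  have := congrArg (Subgroup.comap (QuotientGroup.mk' (frattini P))) h
  rwa [Subgroup.comap_map_eq, QuotientGroup.ker_mk', Subgroup.comap_top] at this

lemma card_fibre {P : Type*} [Group P] [Finite P] {k : ℕ} (N : Subgroup P) [N.Normal] (b : Fin k → P ⧸ N) :
    Nat.card {t : Fin k → P // ∀ i, QuotientGroup.mk' N (t i) = b i} = Nat.card N ^ k := by
  rw [Nat.card_congr (Equiv.subtypePiEquivPi (p := fun i x => QuotientGroup.mk' N x = b i)), Nat.card_pi]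
  rw [Finset.prod_congr rfl (g := fun _ => Nat.card N) ?_, Finset.prod_const, Finset.card_univ, Fintype.card_fin]
  intro i _
  obtain ⟨x, hx⟩ := QuotientGroup.mk'_surjective N (b i)
  rw [← hx]
  exact Nat.card_congr
    { toFun := fun y => ⟨x⁻¹ * y.1, (QuotientGroup.eq (s := N)).1 y.2.symm⟩
      invFun := fun n => ⟨x * n.1, ((QuotientGroup.eq (s := N)).2 (by simpa using n.2)).symm⟩
      left_inv := fun y => Subtype.ext (mul_inv_cancel_left x y.1)
      right_inv := fun n => Subtype.ext (inv_mul_cancel_left x n.1) }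

/-- Let `P` be a group of order `p^n` whose Frattini subgroup has index `p^r`. Then any group of automorphisms of `P` each of which induces the identity on the Frattini quotient has order dividing `p^(r(n-r))`; in particular it is a `p`-group. -/
theorem result {P : Type*} [Group P] [Finite P] {p n r : ℕ} [Fact p.Prime] (hP : Nat.card P = p ^ n) (hr : (frattini P).index = p ^ r) (A : Subgroup (MulAut P)) (hA : ∀ α ∈ A, ∀ x : P, α x * x⁻¹ ∈ frattini P) : Nat.card A ∣ p ^ (r * (n - r)) := by
  classical
  have hq : Nat.card (P ⧸ frattini P) = p ^ r := by rw [← Subgroup.index_eq_card, hr]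
  obtain ⟨b, hb⟩ := exists_generators hq
  have hrn : r ≤ n := by
    have := (frattini P).index_dvd_card
    rw [hr, hP] at this
    exact (Nat.pow_dvd_pow_iff_le_right (Fact.out : p.Prime).one_lt).1 this
  have hΦ : Nat.card (frattini P) = p ^ (n - r) := by
    have h := (frattini P).card_mul_index
    rw [hr, hP] at h
    conv_rhs at h => rw [show n = n - r + r by omega, pow_add]
    exact Nat.eq_of_mul_eq_mul_right (pow_pos (Fact.out : p.Prime).pos r) h
  let T := {t : Fin r → P // ∀ i, QuotientGroup.mk' (frattini P) (t i) = b i}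
  have hfix : ∀ (a : A) (x : P), QuotientGroup.mk' (frattini P) ((a : MulAut P) x) = QuotientGroup.mk' (frattini P) x := by
    intro a x
    rw [QuotientGroup.mk'_apply, QuotientGroup.mk'_apply]
    exact QuotientGroup.eq_iff_div_mem.2 (by rw [div_eq_mul_inv]; exact hA a a.2 x)
  let _ : MulAction A T :=
    { smul := fun a t => ⟨fun i => (a : MulAut P) (t.1 i), fun i => (hfix a (t.1 i)).trans (t.2 i)⟩
      one_smul := fun t => rfl
      mul_smul := fun a a' t => rfl }
  have hdvd := card_dvd_of_free (A := A) (T := T) (fun a t h => by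
    apply Subtype.ext
    refine eq_one_of_fix (a : MulAut P) (Set.range t.1) (gen_of_lift t.1 (by simpa [t.2] using hb)) ?_
    rintro _ ⟨i, rfl⟩
    exact congrFun (congrArg Subtype.val h) i)
  rw [card_fibre, hΦ, ← pow_mul, mul_comm] at hdvd
  exact hdvd

end Cfsg.Agent.S4207
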