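import Cfsg.Statements.S4208
import Mathlib
import Cfsg.Agent.Lib.PGroupFrattini
import Cfsg.Agent.S4207
-- import your own Cfsg.Agent.* helpers here

set_option autoImplicit false
open Cfsg

namespace Cfsg.Agent.S4208

open Cfsg.Agent.S4207

lemma pow_eq_one' {Q : Type*} [Group Q] {p : ℕ} (h : ∀ x : Q, x ^ p = 1) [Fact p.Prime] {x : Q} (hx : x ≠ 1) :
    orderOf x = p := orderOf_eq_prime (h x) hx

/-- counting generating tuples of an elementary abelian group -/
lemma card_tuples {Q : Type*} [Group Q] [Finite Q] {p r : ℕ} [Fact p.Prime] (hQ : Nat.card Q = p ^ r)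
    (hc : ∀ a b : Q, a * b = b * a) (he : ∀ x : Q, x ^ p = 1) :
    ∀ k, k ≤ r → (∀ t : Fin k → Q, Nat.card (Subgroup.closure (Set.range t)) ≤ p ^ k) ∧
      Nat.card {t : Fin k → Q // Nat.card (Subgroup.closure (Set.range t)) = p ^ k} = ∏ i ∈ Finset.range k, (p ^ r - p ^ i) := by
  classical
  have hsnoc : ∀ {k : ℕ} (t : Fin k → Q) (x : Q), Subgroup.closure (Set.range (Fin.snoc t x)) = Subgroup.closure (Set.range t) ⊔ Subgroup.zpowers x := by
    intro k t x
    rw [Subgroup.zpowers_eq_closure, ← Subgroup.closure_union]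
    congr 1
    ext y
    constructor
    · rintro ⟨i, rfl⟩
      induction i using Fin.lastCases with
      | last => exact Or.inr (by simp)
      | cast i => exact Or.inl ⟨i, by simp⟩
    · rintro (⟨i, rfl⟩ | rfl)
      · exact ⟨i.castSucc, by simp⟩
      · exact ⟨Fin.last k, by simp⟩
  have hcardsup : ∀ (K : Subgroup Q) (x : Q), x ∉ K → Nat.card ↥(K ⊔ Subgroup.zpowers x) = Nat.card K * p := by
    intro K x hx
    have hKn : K.Normal := ⟨fun n hn g => by rw [hc g n, mul_inv_cancel_right]; exact hn⟩
    have h1 : K.relIndex (Subgroup.zpowers x ⊔ K) = K.relIndex (Subgroup.zpowers x) := Subgroup.relIndex_sup_right _ _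
    have hne : x ≠ 1 := fun e => hx (e ▸ one_mem K)
    have h2 : K.subgroupOf (Subgroup.zpowers x) = ⊥ := by
      have hprime : (Nat.card (Subgroup.zpowers x)).Prime := by rw [Nat.card_zpowers, pow_eq_one' he hne]; exact Fact.out
      have := Fact.mk hprime
      rcases (K.subgroupOf (Subgroup.zpowers x)).eq_bot_or_eq_top_of_prime_card with h | h
      · exact h
      · exact absurd (Subgroup.subgroupOf_eq_top.1 h (Subgroup.mem_zpowers x)) hx
    rw [Subgroup.relIndex, Subgroup.relIndex, h2, Subgroup.index_bot, Nat.card_zpowers, pow_eq_one' he hne] at h1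
    rw [sup_comm K, ← (K.subgroupOf (Subgroup.zpowers x ⊔ K)).card_mul_index, h1,
      Nat.card_congr (Subgroup.subgroupOfEquivOfLe (le_sup_right : K ≤ Subgroup.zpowers x ⊔ K)).toEquiv]
  intro k
  induction k with
  | zero =>
    intro _
    have hbot : ∀ t : Fin 0 → Q, Nat.card (Subgroup.closure (Set.range t)) = 1 := fun t => by
      rw [Set.range_eq_empty, Subgroup.closure_empty, Subgroup.card_bot]
    refine ⟨fun t => by rw [hbot, pow_zero], ?_⟩
    rw [Finset.prod_range_zero, Nat.card_congr (Equiv.subtypeUnivEquiv fun t => by rw [hbot, pow_zero]), Nat.card_fun]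
    simp
  | succ k ih =>
    intro hk
    obtain ⟨hle, hcount⟩ := ih (by omega)
    have hstep : ∀ (t : Fin k → Q) (x : Q), Nat.card (Subgroup.closure (Set.range (Fin.snoc t x))) ≤ p ^ (k + 1) ∧
        (Nat.card (Subgroup.closure (Set.range (Fin.snoc t x))) = p ^ (k + 1) ↔
          Nat.card (Subgroup.closure (Set.range t)) = p ^ k ∧ x ∉ Subgroup.closure (Set.range t)) := by
      intro t x
      rw [hsnoc, pow_succ]
      have hp2 := (Fact.out : p.Prime).two_le
      have hpk : 0 < p ^ k := pow_pos (Fact.out : p.Prime).pos k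
      by_cases hx : x ∈ Subgroup.closure (Set.range t)
      · rw [sup_eq_left.2 (Subgroup.zpowers_le.2 hx)]
        refine ⟨(hle t).trans (Nat.le_mul_of_pos_right _ (by omega)), fun e => ?_, fun e => absurd hx e.2⟩
        have := hle t
        rw [e] at this
        nlinarith
      · rw [hcardsup _ x hx]
        refine ⟨Nat.mul_le_mul_right _ (hle t), fun e => ⟨Nat.eq_of_mul_eq_mul_right (by omega) e, hx⟩, fun e => by rw [e.1]⟩
    refine ⟨fun t => by rw [← Fin.snoc_init_self t]; exact (hstep _ _).1, ?_⟩
    rw [Finset.prod_range_succ, ← hcount]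
    let E := {t : Fin k → Q // Nat.card (Subgroup.closure (Set.range t)) = p ^ k}
    let E' := {t : Fin (k + 1) → Q // Nat.card (Subgroup.closure (Set.range t)) = p ^ (k + 1)}
    have e : E' ≃ Σ t : E, {x : Q // x ∉ Subgroup.closure (Set.range t.1)} :=
      { toFun := fun t => ⟨⟨Fin.init t.1, (((hstep _ (t.1 (Fin.last k))).2).1 (by rw [Fin.snoc_init_self]; exact t.2)).1⟩,
          t.1 (Fin.last k), (((hstep _ (t.1 (Fin.last k))).2).1 (by rw [Fin.snoc_init_self]; exact t.2)).2⟩
        invFun := fun s => ⟨Fin.snoc s.1.1 s.2.1, ((hstep _ _).2).2 ⟨s.1.2, s.2.2⟩⟩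
        left_inv := fun t => Subtype.ext (Fin.snoc_init_self t.1)
        right_inv := fun s => by
          rcases s with ⟨⟨t, ht⟩, ⟨x, hx⟩⟩
          refine Sigma.subtype_ext (Subtype.ext (Fin.init_snoc (α := fun _ => Q) x t)) ?_
          simp }
    have : Fintype E := Fintype.ofFinite E
    rw [Nat.card_congr e, Nat.card_sigma]
    have hfib : ∀ t : E, Nat.card {x : Q // x ∉ Subgroup.closure (Set.range t.1)} = p ^ r - p ^ k := by
      intro t
      have : Fintype Q := Fintype.ofFinite Q
      rw [Nat.card_eq_fintype_card, Fintype.card_subtype_compl, ← Nat.card_eq_fintype_card, hQ, ← Nat.card_eq_fintype_card]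
      congr 1
      exact t.2
    rw [Finset.sum_congr rfl fun t _ => hfib t, Finset.sum_const, smul_eq_mul, Finset.card_univ, ← Nat.card_eq_fintype_card]

/-- Let `P` be a group of order `p^n` whose Frattini subgroup has index `p^r`. Then the order of the automorphism group of `P` divides `p^(r(n-r)) · (p^r - 1)(p^r - p) ⋯ (p^r - p^(r-1))`. -/
theorem result {P : Type*} [Group P] [Finite P] {p n r : ℕ} [Fact p.Prime] (hP : Nat.card P = p ^ n) (hr : (frattini P).index = p ^ r) : Nat.card (MulAut P) ∣ p ^ (r * (n - r)) * ∏ i ∈ Finset.range r, (p ^ r - p ^ i) := by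
  classical
  have hPp : IsPGroup p P := IsPGroup.of_card hP
  have hq : Nat.card (P ⧸ frattini P) = p ^ r := by rw [← Subgroup.index_eq_card, hr]
  have hrn : r ≤ n := by
    have := (frattini P).index_dvd_card
    rw [hr, hP] at this
    exact (Nat.pow_dvd_pow_iff_le_right (Fact.out : p.Prime).one_lt).1 this
  have hΦ : Nat.card (frattini P) = p ^ (n - r) := by
    have h := (frattini P).card_mul_index
    rw [hr, hP] at h
    conv_rhs at h => rw [show n = n - r + r by omega, pow_add]
    exact Nat.eq_of_mul_eq_mul_right (pow_pos (Fact.out : p.Prime).pos r) h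
  have he : ∀ x : P ⧸ frattini P, x ^ p = 1 := by
    intro x
    obtain ⟨y, rfl⟩ := QuotientGroup.mk'_surjective (frattini P) x
    rw [← map_pow]
    exact (QuotientGroup.eq_one_iff _).2 (Lib.PGroupFrattini.pow_mem_frattini hPp y)
  have hc : ∀ a b : P ⧸ frattini P, a * b = b * a :=
    ((Subgroup.Normal.quotient_commutative_iff_commutator_le (N := frattini P)).2 (Lib.PGroupFrattini.commutator_le_frattini hPp)).is_comm.comm
  have hcount := (card_tuples hq hc he r le_rfl).2
  let T := {t : Fin r → P // Subgroup.closure (Set.range t) = ⊤}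
  let E := {t : Fin r → P ⧸ frattini P // Nat.card (Subgroup.closure (Set.range t)) = p ^ r}
  have hiff : ∀ t : Fin r → P, Subgroup.closure (Set.range t) = ⊤ ↔
      Nat.card (Subgroup.closure (Set.range fun i => QuotientGroup.mk' (frattini P) (t i))) = p ^ r := by
    intro t
    constructor
    · intro h
      rw [Set.range_comp', ← MonoidHom.map_closure, h, Subgroup.map_top_of_surjective _ (QuotientGroup.mk'_surjective _), Subgroup.card_top, hq]
    · intro h
      exact gen_of_lift t (Subgroup.eq_top_of_card_eq _ (h.trans hq.symm))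
  have e : T ≃ Σ b : E, {t : Fin r → P // ∀ i, QuotientGroup.mk' (frattini P) (t i) = b.1 i} :=
    { toFun := fun t => ⟨⟨fun i => QuotientGroup.mk' (frattini P) (t.1 i), (hiff t.1).1 t.2⟩, t.1, fun i => rfl⟩
      invFun := fun s => ⟨s.2.1, (hiff s.2.1).2 (by rw [show (fun i => QuotientGroup.mk' (frattini P) (s.2.1 i)) = s.1.1 from funext s.2.2]; exact s.1.2)⟩
      left_inv := fun t => rfl
      right_inv := fun s => by
        rcases s with ⟨⟨b, hb⟩, ⟨t, ht⟩⟩
        exact Sigma.subtype_ext (Subtype.ext (funext ht)) rfl }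
  have hT : Nat.card T = p ^ (r * (n - r)) * ∏ i ∈ Finset.range r, (p ^ r - p ^ i) := by
    have : Fintype E := Fintype.ofFinite E
    rw [Nat.card_congr e, Nat.card_sigma, Finset.sum_congr rfl fun b _ => card_fibre (frattini P) b.1, Finset.sum_const,
      smul_eq_mul, Finset.card_univ, ← Nat.card_eq_fintype_card, hcount, hΦ, ← pow_mul, mul_comm (n - r) r, mul_comm]
  let _ : MulAction (MulAut P) T :=
    { smul := fun a t => ⟨fun i => a (t.1 i), by
        rw [Set.range_comp']
        show Subgroup.closure ((a.toMonoidHom : P → P) '' Set.range t.1) = ⊤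
        rw [← MonoidHom.map_closure, t.2, Subgroup.map_top_of_surjective _ a.surjective]⟩
      one_smul := fun t => rfl
      mul_smul := fun a a' t => rfl }
  have : Fintype E := Fintype.ofFinite E
  rw [← hT]
  refine card_dvd_of_free fun a t h => eq_one_of_fix a (Set.range t.1) t.2 ?_
  rintro _ ⟨i, rfl⟩
  exact congrFun (congrArg Subtype.val h) i

end Cfsg.Agent.S4208
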