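import Cfsg.Statements.S4211
import Mathlib

set_option autoImplicit false
open Cfsg

namespace Cfsg.Agent.S4211

open scoped commutatorElement

theorem commute_of_powers {G : Type*} [Group G] [Finite G] (a b : G)
    (h : ∀ t ∈ Subgroup.zpowers a, (∃ p k : ℕ, p.Prime ∧ orderOf t = p ^ k) → Commute t b) : Commute a b := by
  set K := (Subgroup.centralizer ({b} : Set G)).subgroupOf (Subgroup.zpowers a)
  suffices hK : K.index = 1 by
    rw [Subgroup.index_eq_one] at hK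
    exact Subgroup.mem_centralizer_singleton_iff.1 (show (⟨a, Subgroup.mem_zpowers a⟩ : Subgroup.zpowers a) ∈ K from hK ▸ trivial)
  rw [Nat.eq_one_iff_not_exists_prime_dvd]
  intro p hp hdvd
  haveI : Fact p.Prime := ⟨hp⟩
  obtain ⟨P⟩ : Nonempty (Sylow p (Subgroup.zpowers a)) := inferInstance
  refine P.not_dvd_index (hdvd.trans (Subgroup.index_dvd_of_le fun t ht => ?_))
  obtain ⟨k, hk⟩ := IsPGroup.iff_orderOf.1 P.isPGroup' ⟨t, ht⟩
  rw [← Subgroup.orderOf_coe] at hk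
  exact Subgroup.mem_centralizer_singleton_iff.2 (h t t.2 ⟨p, k, hp, by rw [Subgroup.orderOf_coe]; exact hk⟩).eq

theorem pow_mul_twist {G : Type*} [Group G] {x y e : G} (he : x * y = e * y * x) (hex : Commute e x) (hey : Commute e y) :
    ∀ k : ℕ, (y * x) ^ k = e ^ k.choose 2 * y ^ k * x ^ k := by
  have h1 : ∀ k : ℕ, x ^ k * y = e ^ k * y * x ^ k := by
    intro k
    induction k with
    | zero => simp
    | succ k ih =>
      calc x ^ (k + 1) * y = x ^ k * (x * y) := by rw [pow_succ, mul_assoc]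
        _ = x ^ k * e * y * x := by rw [he]; group
        _ = e * (x ^ k * y) * x := by rw [((hex.pow_right k).symm).eq]; group
        _ = e ^ (k + 1) * y * x ^ (k + 1) := by rw [ih]; group
  intro k
  induction k with
  | zero => simp
  | succ k ih =>
    calc (y * x) ^ (k + 1) = e ^ k.choose 2 * y ^ k * x ^ k * (y * x) := by rw [pow_succ, ih]
      _ = e ^ k.choose 2 * y ^ k * (x ^ k * y) * x := by group
      _ = e ^ k.choose 2 * (y ^ k * e ^ k) * y * x ^ (k + 1) := by rw [h1]; group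
      _ = e ^ (k + 1).choose 2 * y ^ (k + 1) * x ^ (k + 1) := by
        rw [((hey.pow_pow k k).symm).eq, Nat.choose_succ_succ, Nat.choose_one_right, pow_add e, pow_succ y,
          ((Commute.refl e).pow_pow k _).eq]
        group

section

variable {G : Type*} [Group G] (hn : ∀ H : Subgroup G, H.Normal)
include hn

theorem conj_mem_zpowers (x g : G) : g * x * g⁻¹ ∈ Subgroup.zpowers x :=
  (hn _).conj_mem x (Subgroup.mem_zpowers x) g

theorem comm_mem (x y : G) : ⁅y, x⁆ ∈ Subgroup.zpowers x ∧ ⁅y, x⁆ ∈ Subgroup.zpowers y :=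
  ⟨Subgroup.mul_mem _ (conj_mem_zpowers hn x y) (Subgroup.inv_mem _ (Subgroup.mem_zpowers x)), by
    rw [show ⁅y, x⁆ = y * (x * y⁻¹ * x⁻¹) by simp [commutatorElement_def]; group]
    exact Subgroup.mul_mem _ (Subgroup.mem_zpowers y) (by simpa using Subgroup.inv_mem _ (conj_mem_zpowers hn y x) |> fun h => by rw [mul_inv_rev, mul_inv_rev, inv_inv] at h; rwa [mul_assoc])⟩

theorem comm_commute (x y : G) : Commute ⁅y, x⁆ x ∧ Commute ⁅y, x⁆ y := by
  obtain ⟨⟨i, hi⟩, j, hj⟩ := comm_mem hn x y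
  exact ⟨hi ▸ (Commute.refl x).zpow_left i, hj ▸ (Commute.refl y).zpow_left j⟩

theorem central_of_sq {u : G} (hu : u ^ 2 = 1) (g : G) : Commute g u := by
  obtain ⟨i, hi⟩ := conj_mem_zpowers hn u g
  change u ^ i = g * u * g⁻¹ at hi
  rcases Int.even_or_odd' i with ⟨k, rfl | rfl⟩
  · rw [zpow_mul, zpow_two, ← pow_two, hu, one_zpow] at hi
    rw [conj_eq_one_iff.1 hi.symm]
    exact Commute.one_right g
  · rw [zpow_add, zpow_mul, zpow_two, ← pow_two, hu, one_zpow, one_mul, zpow_one] at hi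
    exact (mul_inv_eq_iff_eq_mul.1 hi.symm)

variable [Finite G]

theorem eq_prime {p q : ℕ} (hp : p.Prime) (hq : q.Prime) {x y : G} {i j : ℕ} (hx : orderOf x = p ^ i)
    (hy : orderOf y = q ^ j) (hxy : ¬ Commute x y) : p = q := by
  by_contra hne
  obtain ⟨h1, h2⟩ := comm_mem hn x y
  refine hxy (Commute.symm (commutatorElement_eq_one_iff_commute.1 (orderOf_eq_one_iff.1 ?_)))
  refine Nat.eq_one_of_dvd_coprimes ((Nat.coprime_primes hp hq).2 hne |>.pow i j) ?_ ?_
  · rw [← hx, ← Nat.card_zpowers x]; exact Subgroup.orderOf_dvd_natCard _ h1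
  · rw [← hy, ← Nat.card_zpowers y]; exact Subgroup.orderOf_dvd_natCard _ h2

/-- A minimal noncommuting pair of elements of prime power order is a quaternion pair. -/
theorem exists_pair {p : ℕ} (hp : p.Prime) (h : ∃ x y : G, ∃ i j : ℕ, orderOf x = p ^ i ∧ orderOf y = p ^ j ∧ ¬ Commute x y) :
    p = 2 ∧ ∃ x y : G, x ^ 4 = 1 ∧ x ^ 2 = y ^ 2 ∧ x ^ 2 ≠ 1 ∧ y * x * y⁻¹ = x⁻¹ := by
  haveI : Fact p.Prime := ⟨hp⟩
  classical
  have hex : ∃ s : ℕ, ∃ x y : G, ∃ i j : ℕ, orderOf x = p ^ i ∧ orderOf y = p ^ j ∧ ¬ Commute x y ∧ orderOf x + orderOf y = s := by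
    obtain ⟨x, y, i, j, hx, hy, hxy⟩ := h
    exact ⟨_, x, y, i, j, hx, hy, hxy, rfl⟩
  obtain ⟨x, y, m, n, hx, hy, hxy, hs, hnm⟩ : ∃ x y : G, ∃ i j : ℕ, orderOf x = p ^ i ∧ orderOf y = p ^ j ∧ ¬ Commute x y ∧
      orderOf x + orderOf y = Nat.find hex ∧ j ≤ i := by
    obtain ⟨x, y, i, j, hx, hy, hxy, hs⟩ := Nat.find_spec hex
    rcases le_total j i with hij | hij
    · exact ⟨x, y, i, j, hx, hy, hxy, hs, hij⟩
    · exact ⟨y, x, j, i, hy, hx, fun e => hxy e.symm, by rw [add_comm]; exact hs, hij⟩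
  have hmin : ∀ a b : G, (∃ i, orderOf a = p ^ i) → (∃ j, orderOf b = p ^ j) → orderOf a + orderOf b < orderOf x + orderOf y → Commute a b := by
    rintro a b ⟨i, ha⟩ ⟨j, hb⟩ hlt
    by_contra hab
    have := Nat.find_min' hex ⟨a, b, i, j, ha, hb, hab, rfl⟩
    omega
  obtain ⟨hdx', hdy'⟩ := comm_commute hn x y
  obtain ⟨hdmx, hdmy⟩ := comm_mem hn x y
  set d := ⁅y, x⁆ with hd
  have hd1 : d ≠ 1 := fun e => hxy (commutatorElement_eq_one_iff_commute.1 e).symm
  have hm0 : m ≠ 0 := fun h0 => hxy (by rw [h0, pow_zero, orderOf_eq_one_iff] at hx; rw [hx]; exact Commute.one_left y)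
  have hconj : ∀ k : ℕ, y * x ^ k * y⁻¹ = d ^ k * x ^ k := fun k => by
    rw [← conj_pow, ← hdx'.mul_pow, hd, commutatorElement_def, inv_mul_cancel_right]
  have hxp : Commute (x ^ p) y := by
    obtain ⟨m', rfl⟩ := Nat.exists_eq_succ_of_ne_zero hm0
    have ho : orderOf (x ^ p) = p ^ m' := by
      rw [orderOf_pow' x hp.ne_zero, hx, Nat.gcd_eq_right (dvd_pow_self p (Nat.succ_ne_zero m')), pow_succ, Nat.mul_div_cancel _ hp.pos]
    refine hmin _ _ ⟨m', ho⟩ ⟨n, hy⟩ ?_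
    rw [ho, hx]
    exact Nat.add_lt_add_right (Nat.pow_lt_pow_right hp.one_lt (Nat.lt_succ_self m')) _
  have hdp : d ^ p = 1 := by
    have := hconj p
    rw [← hxp.eq, mul_inv_cancel_right] at this
    exact right_eq_mul.1 this |>.symm ▸ rfl
  have hdo : orderOf d = p := orderOf_eq_prime hdp hd1
  have hroot : ∀ {t : G}, t ∈ Subgroup.zpowers x → t ^ p = 1 → ∃ j : ℤ, t = (x ^ p ^ (m - 1)) ^ j := by
    rintro t ⟨i, rfl⟩ ht
    change (x ^ i) ^ p = 1 at ht
    rw [← zpow_natCast (x ^ i), ← zpow_mul, ← orderOf_dvd_iff_zpow_eq_one, hx] at ht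
    obtain ⟨k, hk⟩ : ((p ^ (m - 1) : ℕ) : ℤ) ∣ i := by
      refine Int.dvd_of_mul_dvd_mul_right (by exact_mod_cast hp.ne_zero : (p : ℤ) ≠ 0) ?_
      rw [← Nat.cast_mul, ← pow_succ, show m - 1 + 1 = m by omega]
      exact ht
    exact ⟨k, show x ^ i = _ by rw [hk, zpow_mul, zpow_natCast]⟩
  have hn2 : 2 ≤ n := by
    by_contra hlt
    rcases (show n = 0 ∨ n = 1 by omega) with rfl | rfl
    · rw [pow_zero, orderOf_eq_one_iff] at hy
      exact hxy (hy ▸ Commute.one_right x)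
    · have : Subgroup.zpowers d = Subgroup.zpowers y := Subgroup.eq_of_le_of_card_ge (Subgroup.zpowers_le.2 hdmy) (by rw [Nat.card_zpowers, Nat.card_zpowers, hdo, hy, pow_one])
      obtain ⟨i, hi⟩ := this.ge (Subgroup.mem_zpowers y)
      have hc : Commute (d ^ i) x := hdx'.zpow_left i
      rw [show d ^ i = y from hi] at hc
      exact hxy hc.symm
  have hyP : (y ^ p ^ (n - 1)) ^ p = 1 := by
    rw [← pow_mul, ← pow_succ, show n - 1 + 1 = n by omega, ← hy, pow_orderOf_eq_one]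
  have hyd : y ^ p ^ (n - 1) ∈ Subgroup.zpowers d := by
    have e1 : y ^ p ^ (n - 1) ≠ 1 := fun e => by
      have h1 := orderOf_dvd_of_pow_eq_one e
      rw [hy, Nat.pow_dvd_pow_iff_le_right hp.one_lt] at h1
      omega
    obtain ⟨b, hb⟩ : ∃ b : ℤ, d = (y ^ p ^ (n - 1)) ^ b := by
      obtain ⟨i, hi⟩ := hdmy
      have ht : (y ^ i) ^ p = 1 := by rw [show y ^ i = d from hi, hdp]
      rw [← zpow_natCast (y ^ i), ← zpow_mul, ← orderOf_dvd_iff_zpow_eq_one, hy] at ht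
      obtain ⟨k, hk⟩ : ((p ^ (n - 1) : ℕ) : ℤ) ∣ i := by
        refine Int.dvd_of_mul_dvd_mul_right (by exact_mod_cast hp.ne_zero : (p : ℤ) ≠ 0) ?_
        rw [← Nat.cast_mul, ← pow_succ, show n - 1 + 1 = n by omega]
        exact ht
      exact ⟨k, by rw [← hi, hk]; show y ^ (((p ^ (n - 1) : ℕ) : ℤ) * k) = _; rw [zpow_mul, zpow_natCast]⟩
    have : Subgroup.zpowers d = Subgroup.zpowers (y ^ p ^ (n - 1)) :=
      Subgroup.eq_of_le_of_card_ge (Subgroup.zpowers_le.2 ⟨b, hb.symm⟩) (by rw [Nat.card_zpowers, Nat.card_zpowers, hdo, orderOf_eq_prime hyP e1])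
    rw [this]
    exact Subgroup.mem_zpowers _
  obtain ⟨j, hj⟩ := hroot (Subgroup.zpowers_le.2 hdmx hyd) hyP
  set z := (x ^ p ^ (m - n)) ^ (-j) with hz
  have hzP : z ^ p ^ (n - 1) = (y ^ p ^ (n - 1))⁻¹ := by
    rw [hj, hz, ← zpow_natCast ((x ^ p ^ (m - n)) ^ (-j)), ← zpow_mul, mul_comm, zpow_mul, zpow_natCast, ← pow_mul, ← pow_add,
      show m - n + (n - 1) = m - 1 by omega, zpow_neg]
  have hzx : Commute x z := ((Commute.refl x).pow_right _).zpow_right _
  have hnc : ¬ Commute x (y * z) := fun e => hxy (by simpa using e.mul_right hzx.inv_right)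
  have hPG : ∀ g : G, g ∈ Subgroup.zpowers x ⊔ Subgroup.zpowers y → ∃ k, orderOf g = p ^ k := by
    haveI := hn (Subgroup.zpowers y)
    have hS : IsPGroup p ↥(Subgroup.zpowers x ⊔ Subgroup.zpowers y : Subgroup G) :=
      (IsPGroup.of_card (n := m) (by rw [Nat.card_zpowers, hx])).to_sup_of_normal_right (IsPGroup.of_card (n := n) (by rw [Nat.card_zpowers, hy]))
    intro g hg
    obtain ⟨k, hk⟩ := IsPGroup.iff_orderOf.1 hS ⟨g, hg⟩
    exact ⟨k, by rwa [← Subgroup.orderOf_coe] at hk⟩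
  have hbad : (y * z) ^ p ^ (n - 1) ≠ 1 := fun e => by
    have hmem : y * z ∈ Subgroup.zpowers x ⊔ Subgroup.zpowers y :=
      Subgroup.mul_mem _ (Subgroup.mem_sup_right (Subgroup.mem_zpowers y))
        (Subgroup.mem_sup_left (Subgroup.zpow_mem _ (Subgroup.pow_mem _ (Subgroup.mem_zpowers x) _) _))
    refine hnc (hmin x _ ⟨m, hx⟩ (hPG _ hmem) (Nat.add_lt_add_left ?_ _))
    rw [hy]
    exact (Nat.le_of_dvd (pow_pos hp.pos _) (orderOf_dvd_of_pow_eq_one e)).trans_lt (Nat.pow_lt_pow_right hp.one_lt (by omega))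
  have hmn : m = n := by
    by_contra hne
    refine hbad ?_
    have hc : Commute y z := by
      rw [hz, show m - n = m - n - 1 + 1 by omega, pow_succ', pow_mul]
      exact ((hxp.symm).pow_right _).zpow_right _
    rw [hc.mul_pow, hzP, mul_inv_cancel]
  subst hmn
  obtain ⟨hez, hey⟩ := comm_commute hn y z
  set e := ⁅z, y⁆ with he
  have hep : e ^ p = 1 := by
    have hzx' : z = x ^ (-j) := by rw [hz, Nat.sub_self, pow_zero, pow_one]
    have h1 : y * z⁻¹ * y⁻¹ = d ^ j * z⁻¹ := by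
      rw [hzx', zpow_neg, inv_inv, ← conj_zpow, ← hdx'.mul_zpow, hd, commutatorElement_def, inv_mul_cancel_right]
    have h2 : e = d ^ j := by
      have : Commute z (d ^ j) := by rw [hzx']; exact ((hdx'.symm).zpow_zpow _ _)
      calc e = z * (y * z⁻¹ * y⁻¹) := by simp [he, commutatorElement_def]; group
        _ = d ^ j := by rw [h1, ← mul_assoc, this.eq, mul_inv_cancel_right]
    rw [h2, ← zpow_natCast (d ^ j), ← zpow_mul, mul_comm, zpow_mul, zpow_natCast, hdp, one_zpow]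
  have hch : ¬ p ∣ (p ^ (m - 1)).choose 2 := fun hdiv => by
    refine hbad ?_
    obtain ⟨c, hc⟩ := hdiv
    rw [pow_mul_twist (e := e) (by simp [he, commutatorElement_def]) hey hez, hc, pow_mul, hep, one_pow, one_mul, hzP, mul_inv_cancel]
  obtain ⟨k, hk⟩ := Nat.exists_eq_add_of_le' hn2
  have hp2 : p = 2 := by
    by_contra hne
    refine hch ?_
    have h2 : p ∣ 2 * (p ^ (m - 1)).choose 2 := by
      rw [Nat.choose_two_right, Nat.mul_div_cancel' (even_iff_two_dvd.1 (Nat.even_mul_pred_self _))]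
      exact (dvd_pow_self p (by omega)).trans (dvd_mul_right _ _)
    exact ((Nat.coprime_primes hp Nat.prime_two).2 hne).dvd_of_dvd_mul_left h2
  subst hp2
  have hk0 : k = 0 := by
    by_contra hk1
    refine hch ?_
    obtain ⟨k', rfl⟩ := Nat.exists_eq_succ_of_ne_zero hk1
    rw [hk, Nat.choose_two_right, show 2 ^ (k' + 1 + 2 - 1) = 4 * 2 ^ k' by rw [show k' + 1 + 2 - 1 = k' + 2 by omega, pow_add]; ring]
    rw [show 4 * 2 ^ k' * (4 * 2 ^ k' - 1) = 2 * (2 * (2 ^ k' * (4 * 2 ^ k' - 1))) by ring, Nat.mul_div_cancel_left _ two_pos]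
    exact dvd_mul_right 2 _
  subst hk0
  norm_num at hk
  subst hk
  have hx4 : x ^ 4 = 1 := by rw [← pow_orderOf_eq_one x, hx]; rfl
  have hpw : ∀ t : G, t ≠ 1 → (∃ j : ℤ, t = (x ^ 2) ^ j) → t = x ^ 2 := by
    rintro t ht ⟨j, rfl⟩
    rcases Int.even_or_odd' j with ⟨l, rfl | rfl⟩
    · refine absurd ?_ ht
      rw [zpow_mul, zpow_two, ← pow_add, hx4, one_zpow]
    · rw [zpow_add, zpow_mul, zpow_two, ← pow_add, hx4, one_zpow, one_mul, zpow_one]
  have hdx2 : d = x ^ 2 := hpw d hd1 (by obtain ⟨j, hj⟩ := hroot hdmx hdp; exact ⟨j, by simpa using hj⟩)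
  refine ⟨rfl, x, y, hx4, (hpw _ ?_ ⟨j, by simpa using hj⟩).symm, hdx2 ▸ hd1, ?_⟩
  · intro e
    have := orderOf_dvd_of_pow_eq_one e
    rw [hy] at this
    norm_num at this
  · have := hconj 1
    rw [pow_one, pow_one, hdx2, ← pow_succ] at this
    rw [this]
    exact eq_inv_of_mul_eq_one_left (by rw [← pow_succ]; exact hx4)

end


theorem odd_commute {G : Type*} [Group G] [Finite G] (hn : ∀ H : Subgroup G, H.Normal) {a b : G}
    (ha : Odd (orderOf a)) (hb : Odd (orderOf b)) : Commute a b := by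
  refine commute_of_powers a b fun t ht ⟨p, i, hp, hti⟩ => (commute_of_powers b t fun s hs ⟨q, j, hq, hsj⟩ => ?_).symm
  by_contra hst
  have hqp := eq_prime hn hq hp hsj hti hst
  subst hqp
  obtain ⟨h2, -⟩ := exists_pair hn hp ⟨s, t, j, i, hsj, hti, hst⟩
  subst h2
  have hdiv : orderOf s ∣ orderOf b := by rw [← Nat.card_zpowers b]; exact Subgroup.orderOf_dvd_natCard _ hs
  rcases j with _ | j
  · rw [pow_zero, orderOf_eq_one_iff] at hsj
    exact hst (hsj ▸ Commute.one_left t)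
  · rw [hsj] at hdiv
    exact (Nat.not_even_iff_odd.2 hb) (even_iff_two_dvd.2 ((dvd_pow_self 2 j.succ_ne_zero).trans hdiv))


/-- A finite non-abelian group in which every subgroup is normal is the internal direct product of a subgroup isomorphic to the quaternion group of order `8`, an elementary abelian `2`-subgroup and an abelian subgroup of odd order. -/
theorem result {G : Type*} [Group G] [Finite G] (hna : ¬ IsMulCommutative G) (hn : ∀ H : Subgroup G, H.Normal) : ∃ Q E A : Subgroup G, Nonempty (Q ≃* QuaternionGroup 2) ∧ Cfsg.IsElementaryAbelian 2 E ∧ IsMulCommutative A ∧ Odd (Nat.card A) ∧ E ⊓ A = ⊥ ∧ Q ⊓ (E ⊔ A) = ⊥ ∧ Q ⊔ (E ⊔ A) = ⊤ := by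
  classical
  haveI : Fact (Nat.Prime 2) := ⟨Nat.prime_two⟩
  obtain ⟨x, y, hx4, hxy2, hx2, hyx⟩ : ∃ x y : G, x ^ 4 = 1 ∧ x ^ 2 = y ^ 2 ∧ x ^ 2 ≠ 1 ∧ y * x * y⁻¹ = x⁻¹ := by
    by_contra hcon
    refine hna ⟨⟨fun a b => ?_⟩⟩
    refine (commute_of_powers a b fun t ht ⟨p, i, hp, hti⟩ => (commute_of_powers b t fun s hs ⟨q, j, hq, hsj⟩ => ?_).symm).eq
    by_contra hst
    have hqp := eq_prime hn hq hp hsj hti hst
    subst hqp
    exact hcon (exists_pair hn hp ⟨s, t, j, i, hsj, hti, hst⟩).2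
  set d := x ^ 2 with hd
  have hxinv : x⁻¹ = x ^ 3 := inv_eq_of_mul_eq_one_right (by rw [← pow_succ']; exact hx4)
  have hxne : x⁻¹ ≠ x := fun e => hx2 (by rw [hd, pow_two]; nth_rewrite 1 [← e]; exact inv_mul_cancel x)
  have hy4 : y ^ 4 = 1 := by rw [show 4 = 2 * 2 from rfl, pow_mul, ← hxy2, hd, ← pow_mul]; exact hx4
  have hyinv : y⁻¹ = y ^ 3 := inv_eq_of_mul_eq_one_right (by rw [← pow_succ']; exact hy4)
  have hxy : x * y * x⁻¹ = y⁻¹ := by
    calc x * y * x⁻¹ = x * (y * x⁻¹ * y⁻¹) * y := by group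
      _ = x * x * y := by rw [← conj_inv, hyx, inv_inv]
      _ = y ^ 2 * y := by rw [← pow_two, ← hd, hxy2]
      _ = y⁻¹ := by rw [hyinv]; group
  have hxnc : ¬ Commute y x := fun e => hxne (by rw [← hyx, e.eq, mul_inv_cancel_right])
  have hnc : ∀ i : ℕ, y ≠ x ^ i := fun i e => hxnc (e ▸ (Commute.refl x).pow_left i)
  -- the quaternion subgroup
  let pw : ZMod 4 → G := fun i => x ^ i.val
  have hxmod : ∀ k : ℕ, x ^ (k % 4) = x ^ k := fun k => by
    conv_rhs => rw [← Nat.mod_add_div k 4, pow_add, pow_mul, hx4, one_pow, mul_one]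
  have hpw : ∀ i j : ZMod 4, pw (i + j) = pw i * pw j := fun i j => by
    show x ^ (i + j).val = x ^ i.val * x ^ j.val
    rw [ZMod.val_add, hxmod, pow_add]
  have hpw0 : pw 0 = 1 := by
    show x ^ (0 : ZMod 4).val = 1
    rw [ZMod.val_zero, pow_zero]
  have hpwy : ∀ i : ZMod 4, pw i * y = y * pw (-i) := fun i => by
    have h1 : pw (-i) = (pw i)⁻¹ := eq_inv_of_mul_eq_one_left (by rw [← hpw, neg_add_cancel, hpw0])
    rw [h1]
    show x ^ i.val * y = y * (x ^ i.val)⁻¹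
    have h2 : y * x ^ i.val * y⁻¹ = (x ^ i.val)⁻¹ := by rw [← conj_pow, hyx, inv_pow]
    calc x ^ i.val * y = (y * x ^ i.val * y⁻¹)⁻¹ * y := by rw [h2, inv_inv]
      _ = y * (x ^ i.val)⁻¹ := by group
  let f : QuaternionGroup 2 →* G := MonoidHom.mk' (fun q => match q with
    | .a i => pw i
    | .xa i => y * pw i) (by
      rintro (i | i) (j | j)
      · exact hpw i j
      · show y * pw (j - i) = pw i * (y * pw j)
        rw [← mul_assoc, hpwy, mul_assoc, ← hpw, neg_add_eq_sub]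
      · show y * pw (i + j) = y * pw i * pw j
        rw [mul_assoc, ← hpw]
      · show pw (2 + j - i) = y * pw i * (y * pw j)
        rw [← mul_assoc, mul_assoc y (pw i) y, hpwy, ← mul_assoc, mul_assoc, ← hpw, ← pow_two y, ← hxy2, hd,
          show (2 : ZMod 4) + j - i = 2 + (-i + j) by ring, hpw]
        rfl)
  have hpw1 : ∀ i : ZMod 4, pw i = 1 → i = 0 := fun i hi => by
    have hv := i.val_lt
    change x ^ i.val = 1 at hi
    rw [← ZMod.val_eq_zero]
    rcases (show i.val = 0 ∨ i.val = 1 ∨ i.val = 2 ∨ i.val = 3 by omega) with h | h | h | h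
    · exact h
    · rw [h, pow_one] at hi; exact absurd (by rw [hd, hi, one_pow]) hx2
    · rw [h] at hi; exact absurd hi hx2
    · rw [h, ← hxinv, inv_eq_one] at hi; exact absurd (by rw [hd, hi, one_pow]) hx2
  have hfi : Function.Injective f := by
    rw [injective_iff_map_eq_one]
    rintro (i | i) hi
    · rw [hpw1 i hi]; rfl
    · exfalso
      refine hnc ((-i).val) ?_
      have : y * pw i = 1 := hi
      rw [eq_inv_of_mul_eq_one_left this]
      exact (eq_inv_of_mul_eq_one_left (by rw [← hpw, neg_add_cancel, hpw0])).symm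
  set Q := f.range
  have hxQ : x ∈ Q := ⟨.a 1, by show x ^ (1 : ZMod 4).val = x; rw [show (1 : ZMod 4).val = 1 from rfl, pow_one]⟩
  have hyQ : y ∈ Q := ⟨.xa 0, by show y * x ^ (0 : ZMod 4).val = y; rw [ZMod.val_zero, pow_zero, mul_one]⟩
  -- elements of odd order
  let A : Subgroup G :=
    { carrier := {g | Odd (orderOf g)}
      one_mem' := by simp
      mul_mem' := fun {a b} ha hb => Odd.of_dvd_nat (ha.mul hb)
        ((odd_commute hn ha hb).orderOf_mul_dvd_lcm.trans (Nat.lcm_dvd_mul _ _))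
      inv_mem' := fun {a} ha => by simpa using ha }
  -- elementary part
  obtain ⟨E, ⟨hE2, hdE⟩, hmax⟩ := (Set.toFinite {E : Subgroup G | (∀ u ∈ E, u ^ 2 = 1) ∧ d ∉ E}).exists_maximal
    ⟨⊥, fun u hu => by rw [Subgroup.mem_bot.1 hu, one_pow], fun h => hx2 (Subgroup.mem_bot.1 h)⟩
  have hd2 : d ^ 2 = 1 := by rw [hd, ← pow_mul]; exact hx4
  have hEU : ∀ u : G, u ^ 2 = 1 → u ∈ E ∨ d * u ∈ E := by
    intro u hu
    by_contra hcon
    push Not at hcon
    let E' : Subgroup G :=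
      { carrier := {v | v ∈ E ∨ u * v ∈ E}
        one_mem' := Or.inl E.one_mem
        mul_mem' := by
          rintro a b (ha | ha) (hb | hb)
          · exact Or.inl (E.mul_mem ha hb)
          · exact Or.inr (by rw [← mul_assoc, ← (central_of_sq hn hu a).eq, mul_assoc]; exact E.mul_mem ha hb)
          · exact Or.inr (by rw [← mul_assoc]; exact E.mul_mem ha hb)
          · refine Or.inl ?_
            have h := E.mul_mem ha hb
            rwa [← mul_assoc, mul_assoc u a u, (central_of_sq hn hu a).eq, ← mul_assoc, ← pow_two, hu, one_mul] at h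
        inv_mem' := by
          rintro a (ha | ha)
          · exact Or.inl (E.inv_mem ha)
          · refine Or.inr ?_
            have h := E.inv_mem ha
            rwa [mul_inv_rev, show u⁻¹ = u from inv_eq_of_mul_eq_one_right (by rw [← pow_two]; exact hu),
              (central_of_sq hn hu a⁻¹).eq] at h }
    have hle : E ≤ E' := fun v hv => Or.inl hv
    have hE'2 : ∀ v ∈ E', v ^ 2 = 1 := by
      rintro v (hv | hv)
      · exact hE2 v hv
      · have hv2 := hE2 _ hv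
        rw [((central_of_sq hn hu v).symm).mul_pow, hu, one_mul] at hv2
        exact hv2
    have hd' : d ∉ E' := by
      rintro (h | h)
      · exact hdE h
      · exact hcon.2 (by rw [(central_of_sq hn hu d).eq]; exact h)
    exact hcon.1 (hmax ⟨hE'2, hd'⟩ hle (show u ∈ E' from Or.inr (by rw [← pow_two, hu]; exact E.one_mem)))
  have hcase : ∀ {a b g : G}, a ^ 4 = 1 → g * a * g⁻¹ ∈ Subgroup.zpowers a → a ^ 2 ≠ 1 → g * a * g⁻¹ = a ∨ g * a * g⁻¹ = a⁻¹ := by
    intro a b g ha4 hmem ha2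
    obtain ⟨i, hi⟩ := hmem
    change a ^ i = g * a * g⁻¹ at hi
    rcases Int.even_or_odd' i with ⟨k, rfl | rfl⟩
    · exfalso
      refine ha2 (conj_eq_one_iff.1 (show g * a ^ 2 * g⁻¹ = 1 from ?_))
      rw [← conj_pow, ← hi, ← zpow_natCast (a ^ (2 * k)), ← zpow_mul, show 2 * k * ((2 : ℕ) : ℤ) = (4 : ℕ) * k by push_cast; ring,
        zpow_mul, zpow_natCast, ha4, one_zpow]
    · rcases Int.even_or_odd' k with ⟨l, rfl | rfl⟩
      · left
        rw [← hi, show 2 * (2 * l) + 1 = (4 : ℕ) * l + 1 by push_cast; ring, zpow_add, zpow_mul, zpow_natCast, ha4, one_zpow, one_mul, zpow_one]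
      · right
        rw [← hi, show 2 * (2 * l + 1) + 1 = (4 : ℕ) * (l + 1) + (-1) by push_cast; ring, zpow_add, zpow_mul, zpow_natCast, ha4, one_zpow, one_mul, zpow_neg_one]
  obtain ⟨S⟩ : Nonempty (Sylow 2 G) := inferInstance
  have hmemS : ∀ {t : G}, (∃ k, orderOf t = 2 ^ k) → t ∈ (S : Subgroup G) := by
    rintro t ⟨k, hk⟩
    haveI := hn (S : Subgroup G)
    haveI := S.normalizer_eq_top
    obtain ⟨T, hT⟩ := (IsPGroup.of_card (n := k) (by rw [Nat.card_zpowers, hk] : Nat.card (Subgroup.zpowers t) = 2 ^ k)).exists_le_sylow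
    haveI := Sylow.unique_of_normal S (hn _)
    rw [Subsingleton.elim S T]
    exact hT (Subgroup.mem_zpowers t)
  have hxS : x ∈ (S : Subgroup G) := hmemS ⟨2, orderOf_eq_prime_pow (by simpa using hx2) (by simpa using hx4)⟩
  have hyS : y ∈ (S : Subgroup G) := hmemS ⟨2, orderOf_eq_prime_pow (by simpa [← hxy2] using hx2) (by simpa using hy4)⟩
  have hQS : Q ≤ (S : Subgroup G) := by
    rintro _ ⟨(i | i), rfl⟩
    · exact (S : Subgroup G).pow_mem hxS _
    · exact (S : Subgroup G).mul_mem hyS ((S : Subgroup G).pow_mem hxS _)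
  have hkey : ∀ w ∈ (S : Subgroup G), Commute w x → Commute w y → w ^ 2 = 1 := by
    intro w hw hwx hwy
    by_contra hw2
    obtain ⟨k, hk⟩ := IsPGroup.iff_orderOf.1 S.isPGroup' ⟨w, hw⟩
    rw [← Subgroup.orderOf_coe] at hk
    change orderOf w = 2 ^ k at hk
    obtain ⟨k', rfl⟩ : ∃ k', k = k' + 2 := by
      refine Nat.exists_eq_add_of_le' (by_contra fun hlt => hw2 ?_)
      rcases (show k = 0 ∨ k = 1 by omega) with rfl | rfl
      · rw [pow_zero, orderOf_eq_one_iff] at hk; rw [hk, one_pow]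
      · rw [← pow_one 2, ← hk, pow_orderOf_eq_one]
    set v := w ^ 2 ^ k'
    have hv4 : v ^ 4 = 1 := by rw [← pow_mul, show 2 ^ k' * 4 = 2 ^ (k' + 2) by rw [pow_add]; rfl, ← hk, pow_orderOf_eq_one]
    have hv2 : v ^ 2 ≠ 1 := fun e => by
      rw [← pow_mul, ← pow_succ] at e
      have := orderOf_dvd_of_pow_eq_one e
      rw [hk, Nat.pow_dvd_pow_iff_le_right one_lt_two] at this
      omega
    have hvx : Commute v x := hwx.pow_left _
    have hvy : Commute v y := hwy.pow_left _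
    have hsq : (x * v) ^ 2 = d * v ^ 2 := by rw [hvx.symm.mul_pow, ← hd]
    have hconj : y * (x * v) * y⁻¹ = x⁻¹ * v := by
      rw [← hyx, mul_assoc (y * x) y⁻¹ v, ← (hvy.inv_right).eq]; group
    by_cases hdv : v ^ 2 = d
    · have h1 : (x * v) ^ 2 = 1 := by rw [hsq, hdv, ← pow_two, hd2]
      have h2 := (central_of_sq hn h1 y).eq
      rw [← mul_inv_eq_iff_eq_mul, hconj] at h2
      exact hxne (mul_right_cancel h2)
    · have h1 : (x * v) ^ 4 = 1 := by rw [hvx.symm.mul_pow, hx4, hv4, one_mul]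
      have hne2 : (x * v) ^ 2 ≠ 1 := fun e => hdv (by
        rw [hsq] at e
        rw [eq_inv_of_mul_eq_one_right e]
        exact inv_eq_of_mul_eq_one_right (by rw [← pow_two]; exact hd2))
      rcases hcase (b := y) h1 (conj_mem_zpowers hn (x * v) y) hne2 with h | h
      · rw [hconj] at h; exact hxne (mul_right_cancel h)
      · rw [hconj, mul_inv_rev, (hvx.inv_left.inv_right).eq] at h
        have h3 := mul_left_cancel h
        exact hv2 (by rw [pow_two]; nth_rewrite 1 [h3]; exact inv_mul_cancel v)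
  have hS2 : ∀ g ∈ (S : Subgroup G), ∃ q ∈ Q, ∃ u : G, u ^ 2 = 1 ∧ g = q * u := by
    intro g hg
    obtain ⟨q1, hq1, h1⟩ : ∃ q1 ∈ Q, Commute (q1⁻¹ * g) x := by
      rcases hcase (b := y) hx4 (conj_mem_zpowers hn x g) hx2 with h | h
      · exact ⟨1, Q.one_mem, by rw [inv_one, one_mul]; exact mul_inv_eq_iff_eq_mul.1 h⟩
      · refine ⟨y, hyQ, mul_inv_eq_iff_eq_mul.1 ?_⟩
        calc y⁻¹ * g * x * (y⁻¹ * g)⁻¹ = y⁻¹ * (g * x * g⁻¹) * y := by group
          _ = x := by rw [h, ← hyx]; group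
    obtain ⟨q2, hq2, hq2x, h2⟩ : ∃ q2 ∈ Q, Commute q2 x ∧ Commute (q2⁻¹ * (q1⁻¹ * g)) y := by
      rcases hcase (b := x) hy4 (conj_mem_zpowers hn y (q1⁻¹ * g)) (hxy2 ▸ hx2) with h | h
      · exact ⟨1, Q.one_mem, Commute.one_left x, by rw [inv_one, one_mul]; exact mul_inv_eq_iff_eq_mul.1 h⟩
      · refine ⟨x, hxQ, Commute.refl x, mul_inv_eq_iff_eq_mul.1 ?_⟩
        calc x⁻¹ * (q1⁻¹ * g) * y * (x⁻¹ * (q1⁻¹ * g))⁻¹ = x⁻¹ * (q1⁻¹ * g * y * (q1⁻¹ * g)⁻¹) * x := by group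
          _ = y := by rw [h, ← hxy]; group
    refine ⟨q1 * q2, Q.mul_mem hq1 hq2, q2⁻¹ * (q1⁻¹ * g), hkey _ ?_ (hq2x.inv_left.mul_left h1) h2, by group⟩
    exact mul_mem (inv_mem (hQS hq2)) (mul_mem (inv_mem (hQS hq1)) hg)
  have hEc : ∀ e ∈ E, ∀ g : G, Commute g e := fun e he g => central_of_sq hn (hE2 e he) g
  haveI : A.Normal := hn A
  have hEA : ∀ g ∈ E ⊔ A, ∃ e ∈ E, ∃ a ∈ A, e * a = g := fun g hg => Subgroup.mem_sup_of_normal_right.1 hg
  have hodd2 : ∀ {t : G}, t ∈ A → (∃ k, orderOf t = 2 ^ k) → t = 1 := by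
    rintro t ht ⟨k, hk⟩
    rcases k with _ | k
    · exact orderOf_eq_one_iff.1 (by simpa using hk)
    · exact absurd (hk ▸ ht : Odd (2 ^ (k + 1))) (Nat.not_odd_iff_even.2 (Nat.even_pow.2 ⟨even_two, k.succ_ne_zero⟩))
  have hES : ∀ e ∈ E, e ∈ (S : Subgroup G) := fun e he => by
    refine hmemS ?_
    rcases (Nat.dvd_prime Nat.prime_two).1 (orderOf_dvd_of_pow_eq_one (hE2 e he)) with h | h
    · exact ⟨0, h⟩
    · exact ⟨1, h⟩
  have hSord : ∀ {t : G}, t ∈ (S : Subgroup G) → ∃ k, orderOf t = 2 ^ k := fun {t} ht => by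
    obtain ⟨k, hk⟩ := IsPGroup.iff_orderOf.1 S.isPGroup' ⟨t, ht⟩
    exact ⟨k, by rwa [← Subgroup.orderOf_coe] at hk⟩
  refine ⟨Q, E, A, ⟨(MonoidHom.ofInjective hfi).symm⟩, ?_, ⟨⟨fun a b => Subtype.ext (odd_commute hn a.2 b.2).eq⟩⟩, ?_, ?_, ?_, ?_⟩
  · exact ⟨⟨⟨fun a b => Subtype.ext (hEc b b.2 a).eq⟩⟩, hE2⟩
  · rw [← Nat.not_even_iff_odd]
    intro hev
    obtain ⟨t, ht⟩ := exists_prime_orderOf_dvd_card' (G := A) 2 (even_iff_two_dvd.1 hev)
    have := t.2
    rw [show ((t : G) ∈ A) = Odd (orderOf (t : G)) from rfl, Subgroup.orderOf_coe, ht] at this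
    exact absurd this (by decide)
  · rw [eq_bot_iff]
    rintro t ⟨htE, htA⟩
    exact Subgroup.mem_bot.2 (hodd2 htA (hSord (hES t htE)))
  · rw [eq_bot_iff]
    rintro t ⟨htQ, htEA⟩
    obtain ⟨e, he, a, ha, rfl⟩ := hEA t htEA
    have ha1 : a = 1 := hodd2 ha (hSord (by simpa using mul_mem (inv_mem (hES e he)) (hQS htQ)))
    rw [ha1, mul_one] at htQ ⊢
    have he2 := hE2 e he
    obtain ⟨(i | i), hi⟩ := htQ
    · change pw i = e at hi
      have h2 : pw (i + i) = 1 := by rw [hpw, hi, ← pow_two, he2]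
      have h3 : i = 0 ∨ i = 2 := by
        have := hpw1 _ h2
        exact (by decide : ∀ k : ZMod 4, k + k = 0 → k = 0 ∨ k = 2) i this
      rcases h3 with rfl | rfl
      · rw [← hi]; exact Subgroup.mem_bot.2 hpw0
      · exact absurd (show d ∈ E from (show pw 2 = d from rfl) ▸ hi ▸ he) hdE
    · change y * pw i = e at hi
      exfalso
      refine hxnc ?_
      have h1 : Commute x e := hEc e he x
      rw [← hi] at h1
      have h2 : Commute x (pw i) := (Commute.refl x).pow_right _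
      have h3 := h1.mul_right h2.inv_right
      rw [mul_inv_cancel_right] at h3
      exact h3.symm
  · refine top_le_iff.1 fun g _ => ?_
    obtain ⟨i, t, hnd, ht⟩ := Nat.exists_eq_pow_mul_and_not_dvd (orderOf_pos g).ne' 2 (by norm_num)
    have hto : Odd t := Nat.odd_iff.2 (by omega)
    obtain ⟨α, β, hab⟩ : ∃ α β : ℤ, ((2 ^ i : ℕ) : ℤ) * α + (t : ℤ) * β = 1 := by
      refine ⟨Nat.gcdA (2 ^ i) t, Nat.gcdB (2 ^ i) t, ?_⟩
      rw [← Nat.gcd_eq_gcd_ab, Nat.Coprime.gcd_eq_one ((Nat.coprime_two_left.2 hto).pow_left i)]; rfl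
    have ha : g ^ (((2 ^ i : ℕ) : ℤ) * α) ∈ A := by
      refine Odd.of_dvd_nat hto (orderOf_dvd_of_pow_eq_one ?_)
      rw [← zpow_natCast, ← zpow_mul, show ((2 ^ i : ℕ) : ℤ) * α * (t : ℤ) = ((2 ^ i * t : ℕ) : ℤ) * α by push_cast; ring, ← ht, zpow_mul, zpow_natCast, pow_orderOf_eq_one, one_zpow]
    have hb : g ^ ((t : ℤ) * β) ∈ (S : Subgroup G) := by
      obtain ⟨j, -, hj⟩ := (Nat.dvd_prime_pow Nat.prime_two).1 (show orderOf (g ^ ((t : ℤ) * β)) ∣ 2 ^ i from orderOf_dvd_of_pow_eq_one (by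
        rw [← zpow_natCast, ← zpow_mul, show (t : ℤ) * β * ((2 ^ i : ℕ) : ℤ) = ((2 ^ i * t : ℕ) : ℤ) * β by push_cast; ring, ← ht, zpow_mul, zpow_natCast, pow_orderOf_eq_one, one_zpow]))
      exact hmemS ⟨j, hj⟩
    obtain ⟨q, hq, u, hu, hqu⟩ := hS2 _ hb
    have hu' : u ∈ Q ⊔ (E ⊔ A) := by
      rcases hEU u hu with h | h
      · exact Subgroup.mem_sup_right (Subgroup.mem_sup_left h)
      · rw [show u = d * (d * u) by rw [← mul_assoc, ← pow_two, hd2, one_mul]]
        exact mul_mem (Subgroup.mem_sup_left (Q.pow_mem hxQ 2)) (Subgroup.mem_sup_right (Subgroup.mem_sup_left h))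
    rw [show g = g ^ (((2 ^ i : ℕ) : ℤ) * α) * g ^ ((t : ℤ) * β) by rw [← zpow_add, hab, zpow_one], hqu]
    exact mul_mem (Subgroup.mem_sup_right (Subgroup.mem_sup_right ha)) (mul_mem (Subgroup.mem_sup_left hq) hu')

end Cfsg.Agent.S4211
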