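import Cfsg.Statements.S4213
import Cfsg.Agent.Lib.Hall.Solvable
import Cfsg.Agent.Lib.GS.FrobeniusCount

set_option autoImplicit false
open Cfsg

namespace Cfsg.Agent.S4213

open Cfsg.Agent.Lib

universe u

theorem count_ge_one {Q : Type*} [Group Q] [Finite Q] (n : ℕ) (hn : n ∣ Nat.card Q) :
    n ≤ Nat.card {x : Q // x ^ n = 1} := by
  have : Nonempty {x : Q // x ^ n = 1} := ⟨⟨1, one_pow n⟩⟩
  exact Nat.le_of_dvd Nat.card_pos (GS.FrobeniusCount.dvd_card_roots _ Q rfl n hn)

theorem exists_subgroup : ∀ (N : ℕ) (G : Type u) [Group G] [Finite G] [Group.IsSolvable G], Nat.card G = N → ∀ n : ℕ,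
    n ∣ Nat.card G → Nat.card {x : G // x ^ n = 1} = n → ∃ H : Subgroup G, (H : Set G) = {x : G | x ^ n = 1} := by
  intro N
  induction N using Nat.strong_induction_on with
  | h N ih =>
    intro G _ _ _ hN n hn hcount
    classical
    rcases subsingleton_or_nontrivial G with h | h
    · refine ⟨⊤, Set.ext fun x => ?_⟩
      simp [Subsingleton.elim x 1]
    obtain ⟨M, p, hMn, hMne, hp, hMp, hMc, hmin⟩ := Hall.exists_normal_pgroup (G := G)
    haveI := hMn
    haveI : Group.IsSolvable M := inferInstance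
    obtain ⟨-, p', hp', hexp⟩ := Hall.minimal_normal_solvable M hMne hmin
    haveI : Fact p.Prime := ⟨hp⟩
    obtain ⟨m, hm⟩ := hMp.exists_card_eq
    have hM1 : 1 < Nat.card M := M.one_lt_card_iff_ne_bot.2 hMne
    have hm0 : m ≠ 0 := by
      rintro rfl
      rw [pow_zero] at hm
      omega
    have hpp : p' = p := by
      obtain ⟨x, hx⟩ := exists_prime_orderOf_dvd_card' (G := M) p (hm ▸ dvd_pow_self p hm0)
      have h2 : orderOf x ∣ p' := orderOf_dvd_of_pow_eq_one (Subtype.ext (by simpa using hexp x x.2))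
      rw [hx] at h2
      exact ((Nat.prime_dvd_prime_iff_eq hp hp').1 h2).symm
    subst hpp
    set π := QuotientGroup.mk' M
    have hcardQ : Nat.card G = Nat.card (G ⧸ M) * Nat.card M := Subgroup.card_eq_card_quotient_mul_card_subgroup M
    have hlt : Nat.card (G ⧸ M) < N := by
      rw [← hN, hcardQ]
      exact lt_mul_of_one_lt_right Nat.card_pos hM1
    have hsize : ∀ H : Subgroup G, Nat.card H = n → (∀ x ∈ H, x ^ n = 1) → ∃ H : Subgroup G, (H : Set G) = {x : G | x ^ n = 1} :=
      fun H hH hx => ⟨H, Set.eq_of_subset_of_ncard_le (fun x hxH => hx x hxH)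
        (by rw [← Nat.card_coe_set_eq, ← Nat.card_coe_set_eq]; exact (hcount.trans hH.symm).le) (Set.toFinite _)⟩
    by_cases hpn : p' ∣ n
    · -- the roots contain a union of cosets of `M`
      set g := Nat.gcd n (p' ^ m) with hg
      set n0 := n / g with hn0
      have hg0 : 0 < g := Nat.gcd_pos_of_pos_right _ (pow_pos hp.pos m)
      have hng : n0 * g = n := Nat.div_mul_cancel (Nat.gcd_dvd_left _ _)
      have hpg : p' ∣ g := Nat.dvd_gcd hpn (dvd_pow_self p' hm0)
      have hn0Q : n0 ∣ Nat.card (G ⧸ M) := by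
        have h1 : Nat.Coprime (n / g) (p' ^ m / g) := Nat.coprime_div_gcd_div_gcd hg0
        refine h1.dvd_of_dvd_mul_right ?_
        rw [← Nat.mul_dvd_mul_iff_right hg0, mul_assoc, hng, Nat.div_mul_cancel (Nat.gcd_dvd_right _ _), ← hm, ← hcardQ]
        exact hn
      have hroot : ∀ y : G, π y ^ n0 = 1 → y ^ n = 1 := fun y hy => by
        rw [← map_pow] at hy
        obtain ⟨c, hc⟩ := hpg
        rw [← hng, pow_mul, hc, pow_mul, hexp _ ((QuotientGroup.eq_one_iff _).1 hy), one_pow]
      let f : {y : G // π y ^ n0 = 1} → {x : G // x ^ n = 1} := fun y => ⟨y.1, hroot y.1 y.2⟩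
      have hf : Function.Injective f := fun a b hab => Subtype.ext (congrArg (Subtype.val : {x : G // x ^ n = 1} → G) hab)
      have hpre : Nat.card {y : G // π y ^ n0 = 1} = p' ^ m * Nat.card {z : G ⧸ M // z ^ n0 = 1} := by
        rw [← hm]
        show Nat.card ↥(QuotientGroup.mk ⁻¹' {z : G ⧸ M | z ^ n0 = 1}) = _
        rw [Nat.card_congr (QuotientGroup.preimageMkEquivSubgroupProdSet M {z : G ⧸ M | z ^ n0 = 1}), Nat.card_prod]
        rfl
      have hle := Nat.card_le_card_of_injective f hf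
      rw [hpre, hcount] at hle
      have hge := count_ge_one n0 hn0Q
      have hgle : g ≤ p' ^ m := Nat.gcd_le_right _ (pow_pos hp.pos m)
      have hn0pos : 0 < n0 := Nat.pos_of_ne_zero fun h => by rw [h, zero_mul] at hng; rw [← hng] at hn; simp [Nat.card_pos.ne'] at hn
      have hgm : g = p' ^ m := by
        refine le_antisymm hgle (Nat.le_of_mul_le_mul_left ?_ hn0pos)
        calc n0 * p' ^ m ≤ Nat.card {z : G ⧸ M // z ^ n0 = 1} * p' ^ m := Nat.mul_le_mul_right _ hge
          _ ≤ n := by rw [mul_comm]; exact hle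
          _ = n0 * g := hng.symm
      have hQ : Nat.card {z : G ⧸ M // z ^ n0 = 1} = n0 := by
        refine le_antisymm ?_ hge
        rw [← Nat.mul_le_mul_left_iff (pow_pos hp.pos m)]
        calc _ ≤ n := hle
          _ = p' ^ m * n0 := by rw [← hgm, mul_comm, hng]
      obtain ⟨H, hH⟩ := ih _ hlt (G ⧸ M) rfl n0 hn0Q hQ
      refine hsize (H.comap π) ?_ fun x hx => hroot x (show π x ∈ {z : G ⧸ M | z ^ n0 = 1} by rw [← hH]; exact hx)
      have e : ((H.comap π : Subgroup G) : Set G) = {y : G | π y ^ n0 = 1} := by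
        rw [Subgroup.coe_comap, hH]; rfl
      show Nat.card ↥((H.comap π : Subgroup G) : Set G) = n
      rw [e]
      exact hpre.trans (by rw [hQ, ← hgm, mul_comm, hng])
    · -- the roots map onto the roots of the quotient
      have hcop : n.Coprime (p' ^ m) := ((hp.coprime_iff_not_dvd.2 hpn).symm).pow_right m
      have hnQ : n ∣ Nat.card (G ⧸ M) := hcop.dvd_of_dvd_mul_right (by rw [← hm, ← hcardQ]; exact hn)
      have hsurj : Function.Surjective (fun x : {x : G // x ^ n = 1} => (⟨π x.1, by rw [← map_pow, x.2, map_one]⟩ : {z : G ⧸ M // z ^ n = 1})) := by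
        rintro ⟨z, hz⟩
        obtain ⟨y, rfl⟩ := QuotientGroup.mk'_surjective M z
        obtain ⟨k, hk⟩ : ∃ k : ℤ, ∃ l : ℤ, (p' ^ m : ℕ) * k + (n : ℤ) * l = 1 :=
          ⟨Nat.gcdA (p' ^ m) n, Nat.gcdB (p' ^ m) n, by rw [← Nat.gcd_eq_gcd_ab, hcop.symm.gcd_eq_one]; rfl⟩
        obtain ⟨l, hk⟩ := hk
        have hyn : y ^ n ∈ M := by rw [← QuotientGroup.eq_one_iff]; exact (map_pow π y n).trans hz
        have hyM : (y ^ n) ^ (p' ^ m) = 1 := by
          rw [← hm]
          exact congrArg Subtype.val (pow_card_eq_one' (x := (⟨y ^ n, hyn⟩ : M)))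
        refine ⟨⟨y ^ (((p' ^ m : ℕ) : ℤ) * k), ?_⟩, Subtype.ext ?_⟩
        · rw [← zpow_natCast, ← zpow_mul, mul_comm, ← mul_assoc, zpow_mul, zpow_mul, zpow_natCast, zpow_natCast, hyM, one_zpow]
        · show π (y ^ (((p' ^ m : ℕ) : ℤ) * k)) = π y
          have e : y = y ^ (((p' ^ m : ℕ) : ℤ) * k) * y ^ ((n : ℤ) * l) := by rw [← zpow_add, hk, zpow_one]
          have h1 : π (y ^ ((n : ℤ) * l)) = 1 := by
            rw [map_zpow, zpow_mul, zpow_natCast, hz, one_zpow]
          exact ((congrArg π e).trans (by rw [map_mul, h1, mul_one])).symm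
      have hle := Nat.card_le_card_of_surjective _ hsurj
      rw [hcount] at hle
      have hQ : Nat.card {z : G ⧸ M // z ^ n = 1} = n := le_antisymm hle (count_ge_one n hnQ)
      obtain ⟨H, hH⟩ := ih _ hlt (G ⧸ M) rfl n hnQ hQ
      have hHn : Nat.card H = n := (Nat.card_congr (Equiv.setCongr hH)).trans hQ
      set W := H.comap π
      have hMW : M ≤ W := fun x hx => by
        show π x ∈ H
        rw [show π x = 1 from (QuotientGroup.eq_one_iff x).2 hx]
        exact H.one_mem
      have hidx : (M.subgroupOf W).index = n := by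
        rw [Subgroup.index_eq_card, ← hHn]
        exact Nat.card_congr (QuotientGroup.quotientKerEquivOfSurjective _ ((π.subgroupComap_surjective_of_surjective H (QuotientGroup.mk'_surjective M))) |>.toEquiv.trans (Equiv.refl _) |> fun e =>
          (QuotientGroup.quotientMulEquivOfEq (by ext x; rw [MonoidHom.mem_ker, Subgroup.mem_subgroupOf, ← QuotientGroup.eq_one_iff]; exact ⟨fun h => Subtype.ext h, fun h => congrArg Subtype.val h⟩)).toEquiv.trans e)
      have hMcard : Nat.card (M.subgroupOf W) = p' ^ m := by rw [Nat.card_congr (Subgroup.subgroupOfEquivOfLe hMW).toEquiv, hm]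
      obtain ⟨K, hK⟩ := Subgroup.exists_right_complement'_of_coprime (N := M.subgroupOf W) (by rw [hidx, hMcard]; exact hcop.symm)
      have hKn : Nat.card K = n := by
        have h1 := hK.card_mul
        rw [hMcard, ← (M.subgroupOf W).card_mul_index, hidx, hMcard] at h1
        exact Nat.eq_of_mul_eq_mul_left (pow_pos hp.pos m) h1
      refine hsize (K.map W.subtype) (by rw [Subgroup.card_map_of_injective W.subtype_injective, hKn]) ?_
      rintro x ⟨w, hw, rfl⟩
      have h1 := congrArg Subtype.val (pow_card_eq_one' (x := (⟨w, hw⟩ : K)))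
      rw [hKn] at h1
      exact congrArg Subtype.val h1


/-- If `G` is a finite solvable group and `n` divides the order of `G` and exactly `n` elements `x` of `G` satisfy `x^n = 1`, then these elements form a normal subgroup. -/
theorem result {G : Type*} [Group G] [Finite G] [Group.IsSolvable G] (n : ℕ) (hn : n ∣ Nat.card G) (hcount : Nat.card {x : G // x ^ n = 1} = n) : ∃ H : Subgroup G, H.Normal ∧ (H : Set G) = {x : G | x ^ n = 1} := by
  obtain ⟨H, hH⟩ := exists_subgroup _ G rfl n hn hcount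
  refine ⟨H, ⟨fun x hx g => ?_⟩, hH⟩
  have h1 : x ∈ {x : G | x ^ n = 1} := hH ▸ hx
  have h2 : g * x * g⁻¹ ∈ {x : G | x ^ n = 1} := by
    show (g * x * g⁻¹) ^ n = 1
    rw [conj_pow, h1, mul_one, mul_inv_cancel]
  rw [← hH] at h2
  exact h2

end Cfsg.Agent.S4213
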