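import Cfsg.Statements.S4214
import Cfsg.Agent.Lib.Hall.Solvable
import Cfsg.Agent.Lib.Coprime.Action
import Mathlib

set_option autoImplicit false
open Cfsg

namespace Cfsg.Agent.S4214

open Subgroup
open scoped Pointwise

universe u

/-- The conditions on one factor. -/
def Good (G : Type u) [Group G] (m x : ℕ) : Prop :=
  (∃ q e : ℕ, q.Prime ∧ x = q ^ e) ∧ (∃ K L : Subgroup G, K.Normal ∧ L.Normal ∧ K < L ∧
    (∀ M : Subgroup G, M.Normal → K ≤ M → M ≤ L → M = K ∨ M = L) ∧ x ∣ K.relIndex L) ∧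
    (∃ q : ℕ, q.Prime ∧ q ∣ m ∧ x ≡ 1 [MOD q])

def GoodProd (G : Type u) [Group G] (m c : ℕ) : Prop := ∃ l : List ℕ, l.prod = c ∧ ∀ x ∈ l, Good G m x

/-- `[M : C_M(H)]` decomposes. -/
theorem centIndex {G : Type u} [Group G] [Finite G] [Group.IsSolvable G] (N : Subgroup G) [N.Normal]
    (hN : N ≠ ⊥) (hmin : ∀ M : Subgroup G, M.Normal → M ≤ N → M = ⊥ ∨ M = N) {q : ℕ} (hq : q.Prime)
    (hNq : IsPGroup q N) (H : Subgroup G) (hqH : ¬ q ∣ Nat.card H) :
    ∀ (k : ℕ) (M : Subgroup G), Nat.card M = k → M ≤ N → H ≤ normalizer (M : Set G) →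
      GoodProd G (Nat.card H) ((M ⊓ centralizer (H : Set G)).relIndex M) := by
  intro k
  induction k using Nat.strong_induction_on with
  | _ k ih =>
  intro M hk hMN hHM
  haveI : Fact q.Prime := ⟨hq⟩
  by_cases hc : M ≤ centralizer (H : Set G)
  · exact ⟨[], by rw [inf_eq_left.mpr hc, relIndex_self, List.prod_nil], by simp⟩
  have hconj : ∀ (h : H) (x : G), x ∈ M → (h : G) * x * (h : G)⁻¹ ∈ M := fun h x hx =>
    (Subgroup.mem_normalizer_iff.mp (hHM h.2) x).mp hx
  -- the action of `H` on `M`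
  let φ : H →* MulAut M :=
    { toFun := fun h =>
        { toFun := fun x => ⟨(h : G) * x * (h : G)⁻¹, hconj h x x.2⟩
          invFun := fun x => ⟨(h : G)⁻¹ * x * h, by simpa using hconj h⁻¹ x x.2⟩
          left_inv := fun x => Subtype.ext (by simp [mul_assoc])
          right_inv := fun x => Subtype.ext (by simp [mul_assoc])
          map_mul' := fun x y => Subtype.ext (by simp [mul_assoc]) }
      map_one' := by ext x; simp
      map_mul' := fun a b => by ext x; simp [mul_assoc] }
  have hφ : ∀ (h : H) (x : M), φ h x = x ↔ (h : G) * x = x * h := fun h x => by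
    rw [Subtype.ext_iff]
    exact mul_inv_eq_iff_eq_mul
  haveI : Nontrivial (H ⧸ φ.ker) := by
    rw [QuotientGroup.nontrivial_iff]
    intro htop
    refine hc fun x hx => mem_centralizer_iff.mpr fun h hh => ?_
    have h1 : φ ⟨h, hh⟩ = 1 := MonoidHom.mem_ker.mp (htop ▸ mem_top _)
    exact (hφ ⟨h, hh⟩ ⟨x, hx⟩).mp (by rw [h1]; rfl)
  obtain ⟨Pb, r, hPbn, hPb1, hr, hPbr, -, -⟩ := Lib.Hall.exists_normal_pgroup (G := H ⧸ φ.ker)
  haveI : Fact r.Prime := ⟨hr⟩
  set P := Pb.comap (QuotientGroup.mk' φ.ker) with hP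
  haveI hPn : P.Normal := hPbn.comap _
  set Q := P.map φ with hQ
  have hQr : IsPGroup r Q := by
    rintro ⟨_, x, hx, rfl⟩
    obtain ⟨j, hj⟩ := hPbr ⟨_, hx⟩
    refine ⟨j, Subtype.ext ?_⟩
    have h1 : x ^ r ^ j ∈ φ.ker := by
      rw [← QuotientGroup.eq_one_iff, QuotientGroup.mk_pow]
      simpa using congrArg Subtype.val hj
    simpa using MonoidHom.mem_ker.mp h1
  have hrm : r ∣ Nat.card H := by
    refine dvd_trans ?_ (φ.ker.index_dvd_card)
    rw [index_eq_card]
    exact (hPbr.card_eq_or_dvd.resolve_left fun h => hPb1 (card_eq_one.mp h)).trans (card_subgroup_dvd_card Pb)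
  have hrq : r ≠ q := fun h => hqH (h ▸ hrm)
  set C := M ⊓ centralizer ((P.map H.subtype : Subgroup G) : Set G) with hC
  have hCmem : ∀ x : M, (x : G) ∈ C ↔ x ∈ MulAction.fixedPoints Q M := by
    intro x
    refine ⟨fun hx ψ => ?_, fun hx => ⟨x.2, mem_centralizer_iff.mpr fun g hg => ?_⟩⟩
    · obtain ⟨h, hh, hψ⟩ := ψ.2
      show (ψ : MulAut M) x = x
      rw [← hψ]
      exact (hφ h x).mpr (mem_centralizer_iff.mp hx.2 h (mem_map_of_mem H.subtype hh))
    · obtain ⟨h, hh, rfl⟩ := hg
      exact (hφ h x).mp (hx ⟨φ h, mem_map_of_mem φ hh⟩)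
  have hcard : Nat.card C = Nat.card (MulAction.fixedPoints Q M) :=
    Nat.card_congr
      { toFun := fun c => ⟨⟨c, c.2.1⟩, (hCmem ⟨c, c.2.1⟩).mp c.2⟩
        invFun := fun x => ⟨(x : M), (hCmem x).mpr x.2⟩
        left_inv := fun c => rfl
        right_inv := fun x => rfl }
  have hmod : Nat.card M ≡ Nat.card C [MOD r] := by
    rw [hcard]; exact hQr.card_modEq_card_fixedPoints M
  have hCM : C < M := by
    refine lt_of_le_of_ne inf_le_left fun h => hPb1 ((eq_bot_iff_forall _).mpr fun y hy => ?_)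
    obtain ⟨x, rfl⟩ := QuotientGroup.mk'_surjective φ.ker y
    refine (QuotientGroup.eq_one_iff x).mpr (MonoidHom.mem_ker.mpr (MulEquiv.ext fun z => ?_))
    exact (hφ x z).mpr (mem_centralizer_iff.mp (h.ge z.2 : (z : G) ∈ C).2 x (mem_map_of_mem H.subtype hy))
  have hHC : H ≤ normalizer (C : Set G) := by
    have key : ∀ h ∈ H, ∀ c ∈ C, h * c * h⁻¹ ∈ C := by
      rintro h hh c ⟨hc1, hc2⟩
      refine ⟨hconj ⟨h, hh⟩ c hc1, mem_centralizer_iff.mpr ?_⟩
      rintro g ⟨p', hp', rfl⟩
      have h2 := mem_centralizer_iff.mp hc2 _ (mem_map_of_mem H.subtype (hPn.conj_mem p' hp' ⟨h, hh⟩⁻¹))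
      simp only [Subgroup.coe_subtype, Subgroup.coe_mul, Subgroup.coe_inv, inv_inv] at h2 ⊢
      calc (p' : G) * (h * c * h⁻¹) = h * (h⁻¹ * p' * h * c) * h⁻¹ := by group
        _ = h * (c * (h⁻¹ * p' * h)) * h⁻¹ := by rw [h2]
        _ = h * c * h⁻¹ * p' := by group
    intro h hh
    refine Subgroup.mem_normalizer_iff.mpr fun c => ⟨key h hh c, fun hc' => ?_⟩
    simpa [mul_assoc] using key h⁻¹ (H.inv_mem hh) _ hc'
  obtain ⟨l, hl, hlg⟩ := ih (Nat.card C) (hk ▸ lt_of_le_of_ne (card_le_of_le hCM.le) fun e =>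
      hCM.ne (eq_of_le_of_card_ge hCM.le e.ge)) C rfl (inf_le_left.trans hMN) hHC
  have hCH : C ⊓ centralizer (H : Set G) = M ⊓ centralizer (H : Set G) := by
    rw [hC, inf_assoc, inf_eq_right.mpr (centralizer_le
      (SetLike.coe_subset_coe.mpr (map_subtype_le P)))]
  rw [← hCH, ← relIndex_mul_relIndex (C ⊓ centralizer (H : Set G)) C M inf_le_left hCM.le, ← hl]
  refine ⟨l ++ [C.relIndex M], by simp, fun x hx => ?_⟩
  rcases List.mem_append.mp hx with hx | hx
  · exact hlg x hx
  rw [List.mem_singleton] at hx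
  subst hx
  have hmul : Nat.card C * C.relIndex M = Nat.card M := by
    rw [relIndex, ← Lib.Coprime.card_subgroupOf hCM.le, card_mul_index]
  have hdN : C.relIndex M ∣ Nat.card N := (Dvd.intro_left _ hmul).trans (card_dvd_of_le hMN)
  obtain ⟨a, ha⟩ := IsPGroup.iff_card.mp hNq
  obtain ⟨e, -, he⟩ := (Nat.dvd_prime_pow hq).mp (ha ▸ hdN)
  refine ⟨⟨q, e, hq, he⟩, ⟨⊥, N, inferInstance, inferInstance, bot_lt_iff_ne_bot.mpr hN,
    fun X hX _ hXN => hmin X hX hXN, by rwa [relIndex_bot_left]⟩, r, hr, hrm, ?_⟩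
  obtain ⟨b, hb⟩ := IsPGroup.iff_card.mp (hNq.to_le (hCM.le.trans hMN))
  refine Nat.ModEq.cancel_left_of_coprime (c := Nat.card C) ?_ ?_
  · rw [hb]
    exact Nat.Coprime.pow_right b ((Nat.coprime_primes hr hq).mpr hrq)
  · rw [hmul, mul_one]; exact hmod

theorem main : ∀ (k : ℕ) (G : Type u) [Group G] [Finite G] [Group.IsSolvable G], Nat.card G = k →
    ∀ m n : ℕ, Nat.card G = m * n → Nat.Coprime m n →
      GoodProd G m (Nat.card {H : Subgroup G // Nat.card H = m}) := by
  intro k
  induction k using Nat.strong_induction_on with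
  | _ k ih =>
  intro G _ _ _ hk m n hG hmn
  classical
  rcases subsingleton_or_nontrivial G with hs | hnt
  · have hm : m = 1 := by
      rw [Nat.card_unique] at hG
      exact Nat.eq_one_of_mul_eq_one_right hG.symm
    refine ⟨[], ?_, by simp⟩
    haveI : Subsingleton (Subgroup G) := ⟨fun A B => by ext x; simp [Subsingleton.elim x 1]⟩
    haveI : Nonempty {H : Subgroup G // Nat.card H = m} := ⟨⟨⊥, by rw [hm, card_bot]⟩⟩
    rw [List.prod_nil, Nat.card_unique]
  obtain ⟨N, q, hNn, hN1, hq, hNq, hNab, hmin⟩ := Lib.Hall.exists_normal_pgroup (G := G)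
  haveI := hNn
  haveI : Fact q.Prime := ⟨hq⟩
  let π := QuotientGroup.mk' N
  have hπs : Function.Surjective π := QuotientGroup.mk'_surjective N
  obtain ⟨a, ha⟩ := IsPGroup.iff_card.mp hNq
  have hqN : q ∣ Nat.card N := hNq.card_eq_or_dvd.resolve_left fun h => hN1 (card_eq_one.mp h)
  have hNdvd : Nat.card N ∣ m * n := hG ▸ card_subgroup_dvd_card N
  have hquot : Nat.card (G ⧸ N) * Nat.card N = m * n := by
    rw [← hG, ← index_eq_card, mul_comm, card_mul_index]
  have hlt : Nat.card (G ⧸ N) < k := by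
    rw [← hk, hG, ← hquot]
    exact lt_mul_of_one_lt_right Nat.card_pos (lt_of_lt_of_le hq.one_lt (Nat.le_of_dvd Nat.card_pos hqN))
  have hlift : ∀ m', m' ∣ m → ∀ x, Good (G ⧸ N) m' x → Good G m x := by
    rintro m' hm' x ⟨hx1, ⟨K, L, hK, hL, hKL, hmid, hdvd⟩, r, hr, hrm, hmod⟩
    refine ⟨hx1, ⟨K.comap π, L.comap π, hK.comap π, hL.comap π,
      (comap_lt_comap_of_surjective hπs).mpr hKL, fun M hM hKM hML => ?_, ?_⟩,
      r, hr, hrm.trans hm', hmod⟩
    · have hNM : N ≤ M := le_trans (fun y hy => by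
        rw [mem_comap, show π y = 1 from (QuotientGroup.eq_one_iff y).mpr hy]; exact K.one_mem) hKM
      have hMc : (M.map π).comap π = M := comap_map_eq_self (by rwa [QuotientGroup.ker_mk'])
      rcases hmid (M.map π) (hM.map π hπs) ((comap_le_comap_of_surjective hπs).mp (hMc.symm ▸ hKM))
        (map_le_iff_le_comap.mpr hML) with h | h <;> rw [h] at hMc
      exacts [Or.inl hMc.symm, Or.inr hMc.symm]
    · rwa [relIndex_comap, map_comap_eq_self_of_surjective hπs]
  by_cases hqm : q ∣ m
  · -- `N` lies in every Hall subgroup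
    have hcop : (Nat.card N).Coprime n := ha ▸ Nat.Coprime.pow_left a (Nat.Coprime.coprime_dvd_left hqm hmn)
    obtain ⟨m', hm'⟩ : Nat.card N ∣ m := hcop.dvd_of_dvd_mul_right hNdvd
    have hle : ∀ H : Subgroup G, Nat.card H = m → N ≤ H := by
      intro H hH
      have h1 := Lib.Coprime.card_map_mul_card_inf_ker π (H ⊔ N)
      rw [Subgroup.map_sup, (Subgroup.map_eq_bot_iff N).mpr (QuotientGroup.ker_mk' N).ge, sup_bot_eq,
        QuotientGroup.ker_mk', inf_eq_right.mpr le_sup_right] at h1
      have h2 : Nat.card (H ⊔ N : Subgroup G) ∣ m * Nat.card N :=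
        h1 ▸ Nat.mul_dvd_mul_right (hH ▸ Lib.Coprime.card_map_mul_card_inf_ker π H ▸ dvd_mul_right _ _) _
      have h3 : Nat.card (H ⊔ N : Subgroup G) ∣ m := by
        have := Nat.dvd_gcd h2 (hG ▸ card_subgroup_dvd_card (H ⊔ N))
        rwa [Nat.gcd_mul_left, hcop, mul_one] at this
      have h4 : H = H ⊔ N := eq_of_le_of_card_ge le_sup_left (by
        rw [hH]; exact Nat.le_of_dvd (hH ▸ Nat.card_pos) h3)
      exact h4 ▸ le_sup_right
    have hG' : Nat.card (G ⧸ N) = m' * n := by
      refine Nat.eq_of_mul_eq_mul_right (Nat.card_pos (α := N)) ?_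
      rw [hquot, hm']; ring
    obtain ⟨l, hl, hlg⟩ := ih _ hlt (G ⧸ N) rfl m' n hG' (Nat.Coprime.coprime_dvd_left (Dvd.intro_left _ hm'.symm) hmn)
    have hmap : ∀ H : Subgroup G, N ≤ H → Nat.card (H.map π) * Nat.card N = Nat.card H := fun H hH => by
      have h := Lib.Coprime.card_map_mul_card_inf_ker π H
      rwa [QuotientGroup.ker_mk', inf_eq_right.mpr hH] at h
    let e : {H : Subgroup G // Nat.card H = m} ≃ {X : Subgroup (G ⧸ N) // Nat.card X = m'} :=
      { toFun := fun H => ⟨H.1.map π, by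
          refine Nat.eq_of_mul_eq_mul_right (Nat.card_pos (α := N)) ?_
          rw [hmap _ (hle _ H.2), H.2, hm', mul_comm]⟩
        invFun := fun X => ⟨X.1.comap π, by
          have hN' : N ≤ X.1.comap π := fun y hy => by
            rw [mem_comap, show π y = 1 from (QuotientGroup.eq_one_iff y).mpr hy]; exact one_mem _
          rw [← hmap _ hN', map_comap_eq_self_of_surjective hπs, X.2, hm', mul_comm]⟩
        left_inv := fun H => Subtype.ext (comap_map_eq_self (by rw [QuotientGroup.ker_mk']; exact hle _ H.2))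
        right_inv := fun X => Subtype.ext (map_comap_eq_self_of_surjective hπs _) }
    exact ⟨l, hl.trans (Nat.card_congr e).symm, fun x hx => hlift m' (Dvd.intro_left _ hm'.symm) x (hlg x hx)⟩
  · -- `N` meets every Hall subgroup trivially
    have hcop : (Nat.card N).Coprime m := ha ▸ Nat.Coprime.pow_left a ((Nat.Prime.coprime_iff_not_dvd hq).mpr hqm)
    obtain ⟨n', hn'⟩ : Nat.card N ∣ n := hcop.dvd_of_dvd_mul_left hNdvd
    have hG' : Nat.card (G ⧸ N) = m * n' := by
      refine Nat.eq_of_mul_eq_mul_right (Nat.card_pos (α := N)) ?_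
      rw [hquot, hn']; ring
    obtain ⟨l, hl, hlg⟩ := ih _ hlt (G ⧸ N) rfl m n' hG'
      (Nat.Coprime.coprime_dvd_right (Dvd.intro_left _ hn'.symm) hmn)
    have hinf : ∀ H : Subgroup G, Nat.card H = m → H ⊓ N = ⊥ := fun H hH => by
      refine inf_eq_bot_of_coprime ?_
      rw [hH]; exact hcop.symm
    have hmapc : ∀ H : Subgroup G, Nat.card H = m → Nat.card (H.map π) = m := fun H hH => by
      have h := Lib.Coprime.card_map_mul_card_inf_ker π H
      rwa [QuotientGroup.ker_mk', hinf H hH, card_bot, mul_one, hH] at h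
    let F : {H : Subgroup G // Nat.card H = m} → {X : Subgroup (G ⧸ N) // Nat.card X = m} :=
      fun H => ⟨H.1.map π, hmapc _ H.2⟩
    obtain ⟨H₀, hH₀⟩ := Lib.Hall.exists_subgroup_card_eq hG hmn
    set c := (N ⊓ centralizer (H₀ : Set G)).relIndex N with hc
    have hGoodc : GoodProd G m c := by
      have h := centIndex N hN1 hmin hq hNq H₀ (hH₀.symm ▸ hqm) _ N rfl le_rfl
        (by rw [normalizer_eq_top]; exact le_top)
      rwa [hH₀] at h
    -- conjugates
    let cj : G → Subgroup G → Subgroup G := fun g H => H.map (MulAut.conj g).toMonoidHom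
    have hcjc : ∀ g H, Nat.card (cj g H) = Nat.card H := fun g H =>
      card_map_of_injective (MulAut.conj g).injective
    have hcjeq : ∀ (g : G) (H K : Subgroup G), Nat.card K = Nat.card H → (∀ x ∈ H, g * x * g⁻¹ ∈ K) → cj g H = K := by
      intro g H K hHK h
      refine eq_of_le_of_card_ge ?_ (by rw [hcjc, hHK])
      rintro _ ⟨x, hx, rfl⟩
      exact h x hx
    have hcentc : ∀ H : Subgroup G, Nat.card H = m → (N ⊓ centralizer (H : Set G)).relIndex N = c := by
      intro H hH
      have hco : (Nat.card H₀).Coprime H₀.index := by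
        have h1 := H₀.card_mul_index
        rw [hH₀, hG] at h1
        rw [hH₀, Nat.eq_of_mul_eq_mul_left (hH₀ ▸ Nat.card_pos) h1]
        exact hmn
      obtain ⟨g, hg⟩ := Lib.Hall.exists_conj_eq hco (hH.trans hH₀.symm)
      have hg' : cj g H₀ = H := hcjeq g H₀ H (hH.trans hH₀.symm) fun x hx => by
        rw [← hg]; exact ⟨x, hx, rfl⟩
      have himg : cj g (N ⊓ centralizer (H₀ : Set G)) = N ⊓ centralizer (H : Set G) := by
        ext y
        constructor
        · rintro ⟨x, ⟨hx1, hx2⟩, rfl⟩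
          refine ⟨hNn.conj_mem x hx1 g, mem_centralizer_iff.mpr fun h hh => ?_⟩
          rw [← hg'] at hh
          obtain ⟨h₀, hh₀, rfl⟩ := hh
          show MulAut.conj g h₀ * MulAut.conj g x = MulAut.conj g x * MulAut.conj g h₀
          rw [← map_mul, ← map_mul, mem_centralizer_iff.mp hx2 h₀ hh₀]
        · rintro ⟨hy1, hy2⟩
          refine ⟨(MulAut.conj g).symm y, ⟨?_, mem_centralizer_iff.mpr fun h₀ hh₀ => ?_⟩, (MulAut.conj g).apply_symm_apply y⟩
          · simpa [mul_assoc] using hNn.conj_mem y hy1 g⁻¹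
          · apply (MulAut.conj g).injective
            rw [map_mul, map_mul, MulEquiv.apply_symm_apply]
            exact mem_centralizer_iff.mp hy2 _ (hg' ▸ ⟨h₀, hh₀, rfl⟩)
      have hcardeq : Nat.card (N ⊓ centralizer (H : Set G) : Subgroup G) =
          Nat.card (N ⊓ centralizer (H₀ : Set G) : Subgroup G) := by rw [← himg, hcjc]
      have e1 : ∀ A : Subgroup G, A ≤ N → Nat.card A * A.relIndex N = Nat.card N := fun A hA => by
        rw [relIndex, ← Lib.Coprime.card_subgroupOf hA, card_mul_index]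
      refine Nat.eq_of_mul_eq_mul_left (Nat.card_pos (α := (N ⊓ centralizer (H : Set G) : Subgroup G))) ?_
      rw [e1 _ inf_le_left, hcardeq, hc, e1 _ inf_le_left]
    have hfib : ∀ X, Nat.card {H // F H = X} = c := by
      intro X
      -- a point of the fibre
      have hNY : N ≤ X.1.comap π := fun y hy => by
        rw [mem_comap, show π y = 1 from (QuotientGroup.eq_one_iff y).mpr hy]; exact one_mem _
      have hY : Nat.card (X.1.comap π) = m * Nat.card N := by
        have h := Lib.Coprime.card_map_mul_card_inf_ker π (X.1.comap π)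
        rwa [map_comap_eq_self_of_surjective hπs, QuotientGroup.ker_mk', inf_eq_right.mpr hNY, X.2,
          eq_comm] at h
      obtain ⟨H', hH'⟩ := Lib.Hall.exists_subgroup_card_eq (G := ↥(X.1.comap π)) hY hcop.symm
      set H := H'.map (X.1.comap π).subtype with hHdef
      have hH : Nat.card H = m := by rw [hHdef, card_subtype, hH']
      have hHX : H.map π = X.1 := eq_of_le_of_card_ge
        ((map_mono (map_subtype_le H')).trans (map_comap_le _ _)) (by rw [hmapc H hH, X.2])
      rw [← hcentc H hH]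
      have hHn : ∀ n ∈ N, cj n H = H ↔ n ∈ centralizer (H : Set G) := by
        intro n hn
        refine ⟨fun he => mem_centralizer_iff.mpr fun h hh => ?_, fun hn' => hcjeq n H H rfl fun x hx => ?_⟩
        · have h1 : n * h * n⁻¹ * h⁻¹ ∈ H ⊓ N :=
            ⟨H.mul_mem (he.le ⟨h, hh, rfl⟩) (H.inv_mem hh), by
              rw [mul_assoc, mul_assoc n, ← mul_assoc h]
              exact N.mul_mem hn (hNn.conj_mem _ (N.inv_mem hn) h)⟩
          rw [hinf H hH, mem_bot, mul_inv_eq_one, mul_inv_eq_iff_eq_mul] at h1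
          exact h1.symm
        · rwa [← mem_centralizer_iff.mp hn' x hx, mul_inv_cancel_right]
      have hcjmul : ∀ x y, cj x (cj y H) = cj (x * y) H := fun x y => by
        show (H.map _).map _ = _
        rw [Subgroup.map_map]
        congr 1
        ext z
        simp [mul_assoc]
      let f : N → {H'' // F H'' = X} := fun n => ⟨⟨cj n H, (hcjc _ _).trans hH⟩, Subtype.ext (by
        show (cj n H).map π = X.1
        rw [← hHX, Subgroup.map_map]
        refine congrArg (fun φ => H.map φ) (MonoidHom.ext fun z => ?_)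
        show π ((n : G) * z * (n : G)⁻¹) = π z
        rw [map_mul, map_mul, show π (n : G) = 1 from (QuotientGroup.eq_one_iff _).mpr n.2, map_inv,
          show π (n : G) = 1 from (QuotientGroup.eq_one_iff _).mpr n.2, one_mul, inv_one, mul_one])⟩
      set D := (N ⊓ centralizer (H : Set G)).subgroupOf N with hD
      have hfD : ∀ x y : N, f x = f y ↔ x⁻¹ * y ∈ D := by
        intro x y
        have hone : cj 1 H = H := hcjeq 1 H H rfl fun z hz => by simpa using hz
        rw [hD, mem_subgroupOf, Subgroup.coe_mul, Subgroup.coe_inv]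
        constructor
        · intro h
          have h' : cj x H = cj y H := congrArg (fun w => w.1.1) h
          refine ⟨N.mul_mem (N.inv_mem x.2) y.2, (hHn _ (N.mul_mem (N.inv_mem x.2) y.2)).mp ?_⟩
          rw [← hcjmul, ← h', hcjmul, inv_mul_cancel, hone]
        · rintro ⟨hn, hcent⟩
          refine Subtype.ext (Subtype.ext ?_)
          show cj x H = cj y H
          conv_lhs => rw [← (hHn _ hn).mpr hcent, hcjmul, mul_inv_cancel_left]
      let g : N ⧸ D → {H'' // F H'' = X} := Quotient.lift f fun x y h =>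
        (hfD x y).mpr (QuotientGroup.leftRel_apply.mp h)
      rw [relIndex, index_eq_card]
      symm
      refine Nat.card_congr (Equiv.ofBijective g ⟨?_, ?_⟩)
      · intro x y
        induction x using QuotientGroup.induction_on with
        | H x => induction y using QuotientGroup.induction_on with
          | H y => exact fun h => QuotientGroup.eq.mpr ((hfD x y).mp h)
      · rintro ⟨⟨K, hK⟩, hKX⟩
        have hKX' : K.map π = X.1 := congrArg Subtype.val hKX
        have hHY : H ≤ X.1.comap π := map_le_iff_le_comap.mp hHX.le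
        have hKY : K ≤ X.1.comap π := map_le_iff_le_comap.mp hKX'.le
        set Hs := H.subgroupOf (X.1.comap π) with hHs
        set Ks := K.subgroupOf (X.1.comap π) with hKs
        have hHsc : Nat.card Hs = m := (Lib.Coprime.card_subgroupOf hHY).trans hH
        have hKsc : Nat.card Ks = m := (Lib.Coprime.card_subgroupOf hKY).trans hK
        have hco : (Nat.card Hs).Coprime Hs.index := by
          have h1 := Hs.card_mul_index
          rw [hHsc, hY] at h1
          rw [hHsc, Nat.eq_of_mul_eq_mul_left (hH ▸ Nat.card_pos) h1]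
          exact hcop.symm
        obtain ⟨y, hy⟩ := Lib.Hall.exists_conj_eq hco (hKsc.trans hHsc.symm)
        have hconj : ∀ x ∈ H, (y : G) * x * (y : G)⁻¹ ∈ K := fun x hx => by
          have : MulAut.conj y • (⟨x, hHY hx⟩ : X.1.comap π) ∈ MulAut.conj y • Hs :=
            Subgroup.smul_mem_pointwise_smul _ _ _ hx
          rw [hy] at this
          exact this
        have hy' : (y : G) ∈ ((N ⊔ H : Subgroup G) : Set G) := by
          have h1 : π y ∈ H.map π := by rw [hHX]; exact y.2
          have h2 : (y : G) ∈ (H.map π).comap π := h1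
          rw [comap_map_eq, QuotientGroup.ker_mk', sup_comm] at h2
          exact h2
        rw [normal_mul] at hy'
        obtain ⟨n, hn, h, hh, hnh⟩ := Set.mem_mul.mp hy'
        refine ⟨((⟨n, hn⟩ : N) : N ⧸ D), Subtype.ext (Subtype.ext (hcjeq n H K (hK.trans hH.symm) fun x hx => ?_))⟩
        have := hconj (h⁻¹ * x * h) (H.mul_mem (H.mul_mem (H.inv_mem hh) hx) hh)
        rw [← hnh] at this
        simpa [mul_assoc] using this
    haveI := Fintype.ofFinite {X : Subgroup (G ⧸ N) // Nat.card X = m}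
    have hcount : Nat.card {H : Subgroup G // Nat.card H = m} = l.prod * c := by
      rw [← Nat.card_congr (Equiv.sigmaFiberEquiv F), Nat.card_sigma]
      simp only [hfib, Finset.sum_const, Finset.card_univ, smul_eq_mul]
      rw [← Nat.card_eq_fintype_card, hl]
    obtain ⟨l₂, hl₂, hlg₂⟩ := hGoodc
    refine ⟨l ++ l₂, by rw [List.prod_append, hl₂, hcount], fun x hx => ?_⟩
    rcases List.mem_append.mp hx with hx | hx
    exacts [hlift m dvd_rfl x (hlg x hx), hlg₂ x hx]

/-- Let `G` be a finite solvable group of order `mn` with `gcd(m, n) = 1`. Then the number of subgroups of order `m` is a product of natural numbers each of which is a power of a prime, divides the order of some chief factor of `G` (a quotient `L/K` of normal subgroups `K < L` of `G` with no normal subgroup of `G` strictly between them), and is congruent to `1` modulo some prime divisor of `m`. -/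
theorem result {G : Type*} [Group G] [Finite G] [Group.IsSolvable G] (m n : ℕ) (hG : Nat.card G = m * n) (hmn : Nat.Coprime m n) : ∃ (k : ℕ) (f : Fin k → ℕ), Nat.card {H : Subgroup G // Nat.card H = m} = ∏ i, f i ∧ ∀ i, (∃ q e : ℕ, q.Prime ∧ f i = q ^ e) ∧ (∃ K L : Subgroup G, K.Normal ∧ L.Normal ∧ K < L ∧ (∀ M : Subgroup G, M.Normal → K ≤ M → M ≤ L → M = K ∨ M = L) ∧ f i ∣ K.relIndex L) ∧ (∃ q : ℕ, q.Prime ∧ q ∣ m ∧ f i ≡ 1 [MOD q]) := by
  obtain ⟨l, hl, hg⟩ := main _ G rfl m n hG hmn
  refine ⟨l.length, fun i => l[i.1], ?_, fun i => hg _ (List.getElem_mem _)⟩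
  rw [← hl, ← Fin.prod_univ_getElem]

end Cfsg.Agent.S4214
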