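import Cfsg.Statements.S4217
import Mathlib
import Cfsg.Agent.Lib.Hall.Gaschutz

set_option autoImplicit false
open Cfsg

namespace Cfsg.Agent.S4217

section
open Subgroup Cfsg.Agent.Lib.Hall Cfsg.Agent.Lib.Coprime
open scoped IsMulCommutative
variable {G : Type*} [Group G] (K : Subgroup G) [K.Normal] [IsMulCommutative K]

/-- the transferred crossed homomorphism -/
lemma exists_crossed [Finite G] {U : Subgroup G} (hKU : K ≤ U) {A : Subgroup G}
    (hA : IsComplement' (K.subgroupOf U) (A.subgroupOf U)) :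
    ∃ F : G → K, (∀ g h, F (g * h) = F g * cnj K g (F h)) ∧ ∀ k : K, F (k : G) = k ^ U.index := by
  classical
  have := Fintype.ofFinite (G ⧸ U)
  have : IsMulCommutative (K.subgroupOf U) := by
    refine ⟨⟨fun a b => Subtype.ext (Subtype.ext ?_)⟩⟩
    show ((a : U) : G) * ((b : U) : G) = ((b : U) : G) * ((a : U) : G)
    exact congrArg Subtype.val (mul_comm' (⟨((a : U) : G), a.2⟩ : K) ⟨((b : U) : G), b.2⟩)
  let p₀ : U → K := fun u => ⟨((proj (K.subgroupOf U) (A.subgroupOf U) hA u : K.subgroupOf U) : U),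
    (proj (K.subgroupOf U) (A.subgroupOf U) hA u).2⟩
  have hp₀ : ∀ u v : U, p₀ (u * v) = p₀ u * cnj K (u : G) (p₀ v) := fun u v => by
    apply Subtype.ext
    show ((proj (K.subgroupOf U) (A.subgroupOf U) hA (u * v) : K.subgroupOf U) : G) = _
    rw [proj_mul]
    rfl
  have hid : ∀ k : K, p₀ ⟨k, hKU k.2⟩ = k := fun k => by
    apply Subtype.ext
    show ((proj (K.subgroupOf U) (A.subgroupOf U) hA ((⟨⟨k, hKU k.2⟩, k.2⟩ : K.subgroupOf U) : U) : K.subgroupOf U) : G) = _
    rw [proj_self]
  let u : G → G ⧸ U → U := fun g q => ⟨(g • q).out⁻¹ * g * q.out, by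
    have : ((g * q.out : G) : G ⧸ U) = g • q := by
      conv_rhs => rw [← q.out_eq]
      rfl
    rw [mul_assoc]
    exact QuotientGroup.eq.mp ((g • q).out_eq.trans this.symm)⟩
  let F : G → K := fun g => ∏ q : G ⧸ U, cnj K (g • q).out (p₀ (u g q))
  have hF : ∀ g h, F (g * h) = F g * cnj K g (F h) := by
    intro g h
    have e : ∀ q, cnj K ((g * h) • q).out (p₀ (u (g * h) q)) =
        cnj K (g • (h • q)).out (p₀ (u g (h • q))) * cnj K g (cnj K (h • q).out (p₀ (u h q))) := by
      intro q
      have e1 : u (g * h) q = u g (h • q) * u h q := Subtype.ext (by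
        simp only [u, Subgroup.coe_mul, mul_smul]; group)
      rw [e1, hp₀, map_mul, ← cnj_mul, ← cnj_mul, mul_smul]
      congr 2
      simp only [u]
      group
    simp only [F]
    rw [Finset.prod_congr rfl fun q _ => e q, Finset.prod_mul_distrib, map_prod]
    congr 1
    exact Fintype.prod_equiv (MulAction.toPerm h) _ _ (fun q => rfl)
  have hFk : ∀ k : K, F (k : G) = k ^ U.index := by
    intro k
    have hfix : ∀ q : G ⧸ U, (k : G) • q = q := by
      intro q
      induction q using QuotientGroup.induction_on with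
      | H a =>
        refine QuotientGroup.eq.mpr ?_
        simpa [mul_assoc] using hKU (Subgroup.Normal.conj_mem ‹K.Normal› _ (K.inv_mem k.2) a⁻¹)
    have e : ∀ q : G ⧸ U, cnj K ((k : G) • q).out (p₀ (u (k : G) q)) = k := by
      intro q
      have e2 : u (k : G) q = ⟨(cnj K q.out⁻¹ k : K), hKU (cnj K q.out⁻¹ k).2⟩ := Subtype.ext (by
        simp only [u, hfix, coe_cnj, inv_inv])
      rw [e2, hid, hfix, ← cnj_mul, mul_inv_cancel]
      exact Subtype.ext (by simp [coe_cnj])
    simp only [F]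
    rw [Finset.prod_congr rfl fun q _ => e q, Finset.prod_const, Finset.card_univ,
      ← Nat.card_eq_fintype_card, ← index_eq_card]
  exact ⟨F, hF, hFk⟩

/-- exponents of crossed homomorphisms -/
def crossedExps : AddSubgroup ℤ where
  carrier := {n : ℤ | ∃ F : G → K, (∀ g h, F (g * h) = F g * cnj K g (F h)) ∧ ∀ k : K, F (k : G) = k ^ n}
  zero_mem' := ⟨fun _ => 1, fun g h => by simp, fun k => by simp⟩
  add_mem' := by
    rintro a b ⟨F, h1, h2⟩ ⟨F', h1', h2'⟩
    refine ⟨fun g => F g * F' g, fun g h => ?_, fun k => ?_⟩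
    · show F (g * h) * F' (g * h) = _; rw [h1, h1', map_mul]; exact mul_mul_mul_comm _ _ _ _
    · simp [h2, h2', zpow_add]
  neg_mem' := by
    rintro a ⟨F, h1, h2⟩
    refine ⟨fun g => (F g)⁻¹, fun g h => ?_, fun k => ?_⟩
    · show (F (g * h))⁻¹ = _; rw [h1, map_inv, mul_inv]
    · simp [h2]

end

/-- Let `A` be an abelian normal subgroup of the finite group `G`. Then `A` has a complement in `G` if and only if, for every prime `p` dividing the index of `A`, there are a Sylow `p`-subgroup `S` of `G/A` and a subgroup `K` of `G` with `K ∩ A = 1` and `KA` equal to the preimage of `S` (that is, `A` has a complement in the preimage of a Sylow `p`-subgroup of `G/A`). -/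
theorem result {G : Type*} [Group G] [Finite G] (A : Subgroup G) [A.Normal] (hA : IsMulCommutative A) : (∃ K : Subgroup G, K.IsComplement' A) ↔ ∀ p : ℕ, p.Prime → p ∣ A.index → ∃ (S : Sylow p (G ⧸ A)) (K : Subgroup G), K ⊓ A = ⊥ ∧ K ⊔ A = (S : Subgroup (G ⧸ A)).comap (QuotientGroup.mk' A) := by
  constructor
  · rintro ⟨K, hK⟩ p hp hdvd
    haveI := Fact.mk hp
    obtain ⟨S⟩ : Nonempty (Sylow p (G ⧸ A)) := inferInstance
    refine ⟨S, K ⊓ (S : Subgroup (G ⧸ A)).comap (QuotientGroup.mk' A), ?_, ?_⟩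
    · rw [eq_bot_iff]
      rintro x ⟨⟨h1, -⟩, h2⟩
      exact Subgroup.disjoint_def.1 hK.disjoint h1 h2
    · refine le_antisymm (sup_le inf_le_right (fun a ha => ?_)) (fun x hx => ?_)
      · show (QuotientGroup.mk' A) a ∈ (S : Subgroup (G ⧸ A))
        rw [show (QuotientGroup.mk' A) a = 1 from (QuotientGroup.eq_one_iff a).2 ha]
        exact one_mem _
      · obtain ⟨⟨k, a⟩, hka⟩ := hK.2 x
        have hka' : (k : G) * a = x := hka
        have hkU : (k : G) ∈ (S : Subgroup (G ⧸ A)).comap (QuotientGroup.mk' A) := by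
          show (QuotientGroup.mk' A) (k : G) ∈ (S : Subgroup (G ⧸ A))
          have hx' : (QuotientGroup.mk' A) x ∈ (S : Subgroup (G ⧸ A)) := hx
          rwa [← hka', map_mul, show (QuotientGroup.mk' A) (a : G) = 1 from (QuotientGroup.eq_one_iff _).2 a.2,
            mul_one] at hx'
        rw [← hka']
        exact Subgroup.mul_mem_sup ⟨k.2, hkU⟩ a.2
  · intro h
    haveI : IsMulCommutative A := hA
    have key : ∀ (U L : Subgroup G), A ≤ U → L ⊓ A = ⊥ → L ⊔ A = U → (U.index : ℤ) ∈ crossedExps A := by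
      intro U L hAU hi hs
      have hc : Subgroup.IsComplement' (A.subgroupOf U) (L.subgroupOf U) := by
        apply Subgroup.isComplement'_of_disjoint_and_mul_eq_univ
        · rw [Subgroup.disjoint_def]
          intro x h1 h2
          have : (x : G) ∈ L ⊓ A := ⟨h2, h1⟩
          rw [hi] at this
          exact Subtype.ext this
        · refine Set.eq_univ_of_forall fun x => ?_
          have hx : (x : G) ∈ A ⊔ L := by rw [sup_comm, hs]; exact x.2
          obtain ⟨a, ha, l, hl, he⟩ := Subgroup.mem_sup_of_normal_left.1 hx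
          have hlU : l ∈ U := hs ▸ Subgroup.mem_sup_left hl
          exact ⟨⟨a, hAU ha⟩, ha, ⟨l, hlU⟩, hl, Subtype.ext he⟩
      obtain ⟨F, h1, h2⟩ := exists_crossed A hAU hc
      exact ⟨F, h1, fun k => by rw [h2, zpow_natCast]⟩
    obtain ⟨d, hd⟩ := Int.subgroup_cyclic (crossedExps A)
    have hdvd : ∀ n ∈ crossedExps A, d ∣ n := fun n hn => by
      rw [hd, AddSubgroup.mem_closure_singleton] at hn
      obtain ⟨z, rfl⟩ := hn
      exact ⟨z, by rw [smul_eq_mul, mul_comm]⟩
    have hone : d.natAbs = 1 := by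
      by_contra hne
      obtain ⟨p, hp, hpd⟩ := Nat.exists_prime_and_dvd hne
      have hpi : ∀ n : ℕ, (n : ℤ) ∈ crossedExps A → p ∣ n := fun n hn => by
        have := Int.natAbs_dvd_natAbs.2 (hdvd _ hn)
        simpa using hpd.trans this
      have hpI : p ∣ A.index := hpi _ (key A ⊥ le_rfl (by simp) (by simp))
      haveI := Fact.mk hp
      obtain ⟨S, L, h1, h2⟩ := h p hp hpI
      have h3 := hpi _ (key _ L (fun a ha => by
        show (QuotientGroup.mk' A) a ∈ (S : Subgroup (G ⧸ A))
        rw [show (QuotientGroup.mk' A) a = 1 from (QuotientGroup.eq_one_iff a).2 ha]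
        exact one_mem _) h1 h2)
      rw [Subgroup.index_comap_of_surjective _ (QuotientGroup.mk'_surjective A)] at h3
      exact S.not_dvd_index h3
    have h1 : (1 : ℤ) ∈ crossedExps A := by
      rw [hd, AddSubgroup.mem_closure_singleton]
      rcases Int.natAbs_eq d with h | h <;> rw [hone] at h
      · exact ⟨1, by simp [h]⟩
      · exact ⟨-1, by simp [h]⟩
    obtain ⟨F, hF, hFk⟩ := h1
    obtain ⟨L, hL⟩ := Cfsg.Agent.Lib.Hall.exists_complement_of_crossed A F hF (fun k => by rw [hFk, zpow_one])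
    exact ⟨L, hL.symm⟩

end Cfsg.Agent.S4217
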