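import Cfsg.Statements.S4218
import Mathlib
import Cfsg.Agent.Lib.HallHigman.Faithful
import Cfsg.Agent.Lib.OddLocal.PLengthOne
import Cfsg.Agent.Lib.PLength.Basic

set_option autoImplicit false
open Cfsg

namespace Cfsg.Agent.S4218

/-- Let `G` be a finite `p`-solvable group, `N₀ = O_{p'}(G)`, `P₁ = O_{p',p}(G)`, and let `F ≤ P₁` be the preimage of the Frattini subgroup of `P₁/N₀`. Then an element `g` of `G` induces the identity on `P₁/F` by conjugation (that is, `g x g⁻¹ x⁻¹ ∈ F` for all `x ∈ P₁`) if and only if `g ∈ P₁`: the group `G/P₁` acts faithfully on `P₁/F`. -/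
theorem result {G : Type*} [Group G] [Finite G] {p : ℕ} [Fact p.Prime] (hG : Cfsg.IsPSolvable p G) (g : G) : (∀ x ∈ Cfsg.pPrimePCore p G, g * x * g⁻¹ * x⁻¹ ∈ ((frattini (↥(Cfsg.pPrimePCore p G) ⧸ (Cfsg.pPrimeCore p G).subgroupOf (Cfsg.pPrimePCore p G))).comap (QuotientGroup.mk' ((Cfsg.pPrimeCore p G).subgroupOf (Cfsg.pPrimePCore p G)))).map (Cfsg.pPrimePCore p G).subtype) ↔ g ∈ Cfsg.pPrimePCore p G := by
  have hp := (Fact.out : p.Prime)
  set N0 := Cfsg.pPrimeCore p G with hN0
  set P1 := Cfsg.pPrimePCore p G with hP1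
  let f := QuotientGroup.mk' N0
  set Q := Cfsg.pCore p (G ⧸ N0) with hQdef
  let φ : P1 →* Q := f.subgroupComap Q
  have hφ : Function.Surjective φ :=
    f.subgroupComap_surjective_of_surjective _ (QuotientGroup.mk'_surjective _)
  have hker : φ.ker = N0.subgroupOf P1 := by
    ext x
    rw [MonoidHom.mem_ker, Subgroup.mem_subgroupOf, Subtype.ext_iff]
    exact QuotientGroup.eq_one_iff (x : G)
  let e : P1 ⧸ N0.subgroupOf P1 →* Q := QuotientGroup.lift _ φ hker.ge
  have hes : Function.Surjective e := fun y => by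
    obtain ⟨x, rfl⟩ := hφ y
    exact ⟨x, rfl⟩
  have hei : Function.Injective e := by
    rw [← MonoidHom.ker_eq_bot_iff, QuotientGroup.ker_lift, hker, QuotientGroup.map_mk'_self]
  have hQ : IsPGroup p Q := Cfsg.Agent.Lib.Components.pCore_isPGroup p
  have hR : IsPGroup p (P1 ⧸ N0.subgroupOf P1) := hQ.of_injective e hei
  haveI hP1n : P1.Normal := by rw [hP1]; unfold Cfsg.pPrimePCore; infer_instance
  constructor
  · intro h
    have hg : f g ∈ Q := by
      refine Cfsg.Agent.Lib.HallHigman.mem_pCore_of_trivial_on_frattini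
        (Cfsg.Agent.Lib.PLength.isPSolvable_map (QuotientGroup.mk'_surjective N0) hG)
        (Cfsg.Agent.Lib.OddLocal.pPrimeCore_quotient_eq_bot p) fun a => ?_
      obtain ⟨x, rfl⟩ := hφ a
      obtain ⟨y, hy, hyx⟩ := h x x.2
      have hle : frattini (P1 ⧸ N0.subgroupOf P1) ≤ (frattini Q).comap e := by
        refine Cfsg.Agent.Lib.PGroupFrattini.frattini_le hp _ ?_ fun z => ?_
        · rw [commutator_eq_closure, Subgroup.closure_le]
          rintro _ ⟨u, v, rfl⟩
          show e _ ∈ frattini Q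
          rw [map_commutatorElement]
          exact Cfsg.Agent.Lib.PGroupFrattini.commutator_le_frattini hQ
            (Subgroup.commutator_mem_commutator trivial trivial)
        · show e (z ^ p) ∈ frattini Q
          rw [map_pow]
          exact Cfsg.Agent.Lib.PGroupFrattini.pow_mem_frattini hQ _
      have h2 : φ y ∈ frattini Q := hle hy
      convert h2 using 1
      apply Subtype.ext
      show f g * f x * (f g)⁻¹ * (f x)⁻¹ = f y
      rw [← map_inv, ← map_inv, ← map_mul, ← map_mul, ← map_mul]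
      exact congrArg f hyx.symm
    exact hg
  · intro hg x hx
    refine ⟨(⟨g, hg⟩ : P1) * ⟨x, hx⟩ * (⟨g, hg⟩ : P1)⁻¹ * (⟨x, hx⟩ : P1)⁻¹, ?_, rfl⟩
    show QuotientGroup.mk' _ _ ∈ frattini _
    apply Cfsg.Agent.Lib.PGroupFrattini.commutator_le_frattini hR
    simp only [map_mul, map_inv]
    exact Subgroup.commutator_mem_commutator trivial trivial

end Cfsg.Agent.S4218
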