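import Cfsg.Statements.S4219
import Mathlib
-- import your own Cfsg.Agent.* helpers here

set_option autoImplicit false
open Cfsg

namespace Cfsg.Agent.S4219

/-- Let a finite group `G` act `t`-fold transitively on a finite set, let `H` be the stabilizer of `t` distinct points and `P` a Sylow `p`-subgroup of `H`. Then the normalizer of `P` in `G` is `t`-fold transitive on the fixed points of `P`: any `t` distinct fixed points of `P` can be carried to any other `t` distinct fixed points of `P` by an element normalizing `P`. -/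
theorem result {G : Type*} [Group G] [Finite G] {α : Type*} [Fintype α] [MulAction G α] {t : ℕ} (hG : MulAction.IsMultiplyPretransitive G α t) (x : Fin t ↪ α) {p : ℕ} [Fact p.Prime] (P : Sylow p (MulAction.stabilizer G x)) (a b : Fin t ↪ α) (ha : ∀ i, a i ∈ MulAction.fixedPoints ((P : Subgroup (MulAction.stabilizer G x)).map (MulAction.stabilizer G x).subtype) α) (hb : ∀ i, b i ∈ MulAction.fixedPoints ((P : Subgroup (MulAction.stabilizer G x)).map (MulAction.stabilizer G x).subtype) α) : ∃ g ∈ Subgroup.normalizer ((((P : Subgroup (MulAction.stabilizer G x)).map (MulAction.stabilizer G x).subtype) : Subgroup G) : Set G), g • a = b := by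
  classical
  rw [MulAction.isMultiplyPretransitive_iff] at hG
  obtain ⟨c, hc⟩ := hG x a
  obtain ⟨g, hg⟩ := hG a b
  set A := MulAction.stabilizer G a with hA
  set PG := (P : Subgroup (MulAction.stabilizer G x)).map (MulAction.stabilizer G x).subtype with hPG
  have hfix : ∀ (v : Fin t ↪ α), (∀ i, v i ∈ MulAction.fixedPoints PG α) → ∀ u ∈ PG, u • v = v := by
    intro v hv u hu
    ext i
    exact hv i ⟨u, hu⟩
  have hconjA : A = (MulAction.stabilizer G x).map (MulAut.conj c).toMonoidHom := by
    rw [hA, ← hc, MulAction.stabilizer_smul_eq_stabilizer_map_conj]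
  have hcardA : Nat.card A = Nat.card (MulAction.stabilizer G x) := by
    rw [hconjA]
    exact Nat.card_congr ((MulAction.stabilizer G x).equivMapOfInjective _ (MulAut.conj c).injective).symm.toEquiv
  set PG' := PG.map (MulAut.conj g⁻¹).toMonoidHom with hPG'
  have h1 : PG ≤ A := fun u hu => hfix a ha u hu
  have h2 : PG' ≤ A := by
    rintro _ ⟨u, hu, rfl⟩
    show (g⁻¹ * u * (g⁻¹)⁻¹) • a = a
    rw [inv_inv, mul_smul, mul_smul, hg, hfix b hb u hu, ← hg, inv_smul_smul]
  have hcP : Nat.card PG = p ^ (Nat.card A).factorization p := by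
    rw [hcardA, ← P.card_eq_multiplicity]
    exact Nat.card_congr ((P : Subgroup (MulAction.stabilizer G x)).equivMapOfInjective _ (Subgroup.subtype_injective (MulAction.stabilizer G x))).symm.toEquiv
  have hcP' : Nat.card PG' = p ^ (Nat.card A).factorization p := by
    rw [← hcP]
    exact Nat.card_congr (PG.equivMapOfInjective _ (MulAut.conj g⁻¹).injective).symm.toEquiv
  let Q : Sylow p A := Sylow.ofCard (PG.subgroupOf A) (by rw [← hcP]; exact Nat.card_congr (Subgroup.subgroupOfEquivOfLe h1).toEquiv)
  let Q' : Sylow p A := Sylow.ofCard (PG'.subgroupOf A) (by rw [← hcP']; exact Nat.card_congr (Subgroup.subgroupOfEquivOfLe h2).toEquiv)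
  obtain ⟨s, hs⟩ := MulAction.exists_smul_eq A Q Q'
  refine ⟨g * s, ?_, ?_⟩
  · rw [Subgroup.mem_normalizer_iff_map_conj_eq]
    have hs' : ((Q : Subgroup A)).map (MulAut.conj s).toMonoidHom = (Q' : Subgroup A) := by
      rw [← hs, Sylow.coe_subgroup_smul]; rfl
    have e := congrArg (Subgroup.map A.subtype) hs'
    rw [Subgroup.map_map] at e
    have e1 : A.subtype.comp (MulAut.conj s).toMonoidHom = ((MulAut.conj (s : G)).toMonoidHom).comp A.subtype := by
      ext w; simp
    rw [e1, ← Subgroup.map_map, show (Q : Subgroup A) = PG.subgroupOf A from rfl, show (Q' : Subgroup A) = PG'.subgroupOf A from rfl,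
      Subgroup.subgroupOf_map_subtype, Subgroup.subgroupOf_map_subtype, inf_eq_left.2 h1, inf_eq_left.2 h2, hPG'] at e
    show PG.map (MulAut.conj (g * (s : G))).toMonoidHom = PG
    have e2 : (MulAut.conj (g * (s : G))).toMonoidHom = (MulAut.conj g).toMonoidHom.comp (MulAut.conj (s : G)).toMonoidHom := by
      ext w; simp [mul_assoc]
    rw [e2, ← Subgroup.map_map, e, Subgroup.map_map]
    convert Subgroup.map_id PG
    ext w; simp [mul_assoc]
  · rw [mul_smul, s.2, hg]

end Cfsg.Agent.S4219
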