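import Cfsg.Statements.S4220
import Cfsg.Agent.Lib.Perm.KpBound
import Cfsg.Agent.S0711
import Cfsg.Agent.S0713
import Mathlib.GroupTheory.GroupAction.Jordan

set_option autoImplicit false
open Cfsg

namespace Cfsg.Agent.S4220

open Equiv MulAction Cfsg.Agent.Lib.Perm.KpBound

theorem ias {β : Type*} (f : Perm β) (x : β) : f⁻¹ (f x) = x := f.symm_apply_apply x

theorem asi {β : Type*} (f : Perm β) (x : β) : f (f⁻¹ x) = x := f.apply_symm_apply x

/-- The finite check behind the case `n = 9`. -/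
theorem fin9 : ∀ z y : Fin 9, z ≠ 0 → z ≠ 1 → z ≠ 3 → z ≠ 5 → y ≠ 0 → y ≠ 1 → y ≠ 3 → y ≠ 5 →
    z ≠ y →
    let v : Perm (Fin 9) := swap 0 1 * swap 1 2 * (swap 3 4 * swap 4 5)
    let w : Perm (Fin 9) := swap 0 1 * swap 1 z * (swap 3 5 * swap 5 y)
    let ok := fun f : Perm (Fin 9) => 0 < f.support.card ∧ f.support.card < 6
    ok (v * w) ∨ ok (v * w⁻¹) ∨ ok (v * w * (v * w)) ∨ ok (v * w * v * w⁻¹) := by
  decide +kernel

theorem support_permCongrHom {β γ : Type*} [Fintype β] [DecidableEq β] [Fintype γ] [DecidableEq γ]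
    (e : β ≃ γ) (f : Perm β) :
    (e.permCongrHom f).support = f.support.map e.toEmbedding := by
  ext x
  obtain ⟨y, rfl⟩ := e.surjective x
  simp [Perm.mem_support, Equiv.permCongrHom]

theorem permCongrHom_swap {β γ : Type*} [DecidableEq β] [DecidableEq γ] (e : β ≃ γ) (a b : β) :
    e.permCongrHom (swap a b) = swap (e a) (e b) := by
  ext x
  obtain ⟨y, rfl⟩ := e.surjective x
  simp [Equiv.permCongrHom, e.injective.swap_apply]

theorem small9 {α : Type*} [Fintype α] [DecidableEq α] (G : Subgroup (Perm α))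
    (hG : IsMultiplyPretransitive G α 4) (e : Fin 9 ≃ α) (v : Perm α) (hv : v ∈ G)
    (hve : v = e.permCongrHom (swap 0 1 * swap 1 2 * (swap 3 4 * swap 4 5))) :
    ∃ f ∈ G, f ≠ 1 ∧ f.support.card < 6 := by
  let s : Fin 4 ↪ α := ⟨![e 0, e 1, e 3, e 4], by
    intro i j h; fin_cases i <;> fin_cases j <;> simp at h <;> rfl⟩
  let t : Fin 4 ↪ α := ⟨![e 0, e 1, e 3, e 5], by
    intro i j h; fin_cases i <;> fin_cases j <;> simp at h <;> rfl⟩
  obtain ⟨g, hg⟩ := hG.exists_smul_eq s t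
  have hg' : ∀ i, (g : Perm α) (s i) = t i := fun i => by
    simpa [Function.Embedding.smul_apply, Subgroup.smul_def] using DFunLike.congr_fun hg i
  have g0 : (g : Perm α) (e 0) = e 0 := hg' 0
  have g1 : (g : Perm α) (e 1) = e 1 := hg' 1
  have g3 : (g : Perm α) (e 3) = e 3 := hg' 2
  have g4 : (g : Perm α) (e 4) = e 5 := hg' 3
  set g' := (g : Perm α) with hgdef
  obtain ⟨z, hz⟩ := e.surjective (g' (e 2))
  obtain ⟨y, hy⟩ := e.surjective (g' (e 5))
  have hne : ∀ a b : Fin 9, a ≠ b → g' (e a) ≠ g' (e b) := fun a b h hh =>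
    h (e.injective (g'.injective hh))
  have hw : g' * v * g'⁻¹ = e.permCongrHom (swap 0 1 * swap 1 z * (swap 3 5 * swap 5 y)) := by
    rw [hve]
    simp only [map_mul, permCongrHom_swap]
    rw [hz, hy]
    conv_rhs => rw [← g0, ← g1, ← g3]
    rw [← g4]
    simp only [swap_apply_apply]
    group
  have key : ∀ {a : Fin 9} {x : Fin 9}, e x = g' (e a) → ∀ b, g' (e b) = e b → a ≠ b → x ≠ b := by
    intro a x h b hb hab hxb
    subst hxb
    exact hab (e.injective (g'.injective (h ▸ hb.symm)))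
  have key' : ∀ {a : Fin 9} {x : Fin 9}, e x = g' (e a) → a ≠ 4 → x ≠ 5 := by
    intro a x h hab hxb
    subst hxb
    exact hab (e.injective (g'.injective (h.symm.trans g4.symm)))
  have hwG : g' * v * g'⁻¹ ∈ G := G.mul_mem (G.mul_mem g.2 hv) (G.inv_mem g.2)
  have hzy : z ≠ y := by
    rintro rfl
    exact hne 2 5 (by decide) (hz.symm.trans hy)
  have fin : ∀ f : Perm (Fin 9), e.permCongrHom f ∈ G → 0 < f.support.card ∧ f.support.card < 6 →
      ∃ f ∈ G, f ≠ 1 ∧ f.support.card < 6 := by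
    intro f hf h
    refine ⟨_, hf, fun h1 => ?_, by rw [support_permCongrHom, Finset.card_map]; exact h.2⟩
    have := congrArg (fun q : Perm α => q.support.card) h1
    simp only [support_permCongrHom, Finset.card_map, Perm.support_one, Finset.card_empty] at this
    omega
  rw [hve] at hv
  rw [hw] at hwG
  rcases fin9 z y (key hz 0 g0 (by decide)) (key hz 1 g1 (by decide)) (key hz 3 g3 (by decide))
      (key' hz (by decide)) (key hy 0 g0 (by decide)) (key hy 1 g1 (by decide))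
      (key hy 3 g3 (by decide)) (key' hy (by decide)) hzy with h | h | h | h
  · exact fin _ (by rw [map_mul]; exact G.mul_mem hv hwG) h
  · exact fin _ (by rw [map_mul, map_inv]; exact G.mul_mem hv (G.inv_mem hwG)) h
  · exact fin _ (by rw [map_mul, map_mul]; exact G.mul_mem (G.mul_mem hv hwG) (G.mul_mem hv hwG)) h
  · exact fin _ (by
      rw [map_mul, map_mul, map_mul, map_inv]
      exact G.mul_mem (G.mul_mem (G.mul_mem hv hwG) hv) (G.inv_mem hwG)) h

/-- The Sylow subgroup of the stabilizer of `r` points, with its properties. -/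
theorem exists_P {α : Type*} [Fintype α] [DecidableEq α] (G : Subgroup (Perm α)) {k p r : ℕ}
    (hp : p.Prime) (hn : Fintype.card α = k * p + r) (hk : 1 ≤ k) (hpk : k < p)
    (hG : IsMultiplyPretransitive G α (r + 1)) (Δ : Finset α) (hΔ : Δ.card = r) :
    ∃ P : Subgroup (Perm α), P ≤ G ∧ IsPGroup p P ∧ (∀ u ∈ P, ∀ x ∈ Δ, u x = x) ∧
      (∀ x, x ∉ Δ → (orbF P x).card = p) ∧
      ∀ σ : Perm ↥Δ, ∃ g ∈ G, (∀ u ∈ P, g * u * g⁻¹ ∈ P) ∧ ∀ x : ↥Δ, g x = σ x := by
  classical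
  have hp' : Fact p.Prime := ⟨hp⟩
  let K : Subgroup (Perm α) := G ⊓ fixingSubgroup (Perm α) (Δ : Set α)
  have hK : ∀ u, u ∈ K ↔ u ∈ G ∧ ∀ x ∈ Δ, u x = x := fun u => by
    simp [K, mem_fixingSubgroup_iff]
  obtain ⟨Q⟩ : Nonempty (Sylow p K) := inferInstance
  let P : Subgroup (Perm α) := (Q : Subgroup K).map K.subtype
  have hPK : P ≤ K := Subgroup.map_subtype_le _
  have hPp : IsPGroup p P := Q.isPGroup'.map _
  have hfix : ∀ u ∈ P, ∀ x ∈ Δ, u x = x := fun u hu => ((hK u).1 (hPK hu)).2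
  refine ⟨P, fun u hu => ((hK u).1 (hPK hu)).1, hPp, hfix, ?_, ?_⟩
  · intro x hx
    have hsub : orbF P x ⊆ Δᶜ := by
      intro y hy
      obtain ⟨u, hu, rfl⟩ := mem_orbF.1 hy
      rw [Finset.mem_compl]
      intro h
      exact hx (u.injective (hfix u hu _ h) ▸ h)
    have hc : Δᶜ.card = k * p := by rw [Finset.card_compl, hΔ, hn]; omega
    have horb : Nat.card (orbit K x) = k * p := by
      rw [← hc, ← Fintype.card_coe, ← Nat.card_eq_fintype_card]
      refine Nat.card_congr (Equiv.setCongr ?_)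
      ext y
      simp only [Finset.coe_compl, Set.mem_compl_iff, Finset.mem_coe]
      constructor
      · rintro ⟨⟨u, hu⟩, rfl⟩ h
        exact hx (u.injective (((hK u).1 hu).2 _ h) ▸ h)
      · intro hy
        obtain ⟨f, hf, hfB, hfx⟩ := Cfsg.Agent.Lib.Perm.exists_fix_move G hG Δ hΔ x y hx hy
        exact ⟨⟨f, (hK f).2 ⟨hf, hfB⟩⟩, hfx⟩
    have hlt : k * p < p ^ 2 := by rw [pow_two]; exact Nat.mul_lt_mul_of_pos_right hpk hp.pos
    obtain ⟨a, ha⟩ := hPp.card_orbit x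
    rw [← card_orbF] at ha
    have hle : (orbF P x).card ≤ k * p := hc ▸ Finset.card_le_card hsub
    have ha1 : a ≤ 1 := by
      by_contra h
      have : p ^ 2 ≤ p ^ a := Nat.pow_le_pow_right hp.pos (by omega)
      omega
    rcases Nat.le_one_iff_eq_zero_or_eq_one.1 ha1 with rfl | rfl
    · exfalso
      have hQ : (Q : Subgroup K) ≤ stabilizer K x := by
        intro u hu
        have hu' : (u : Perm α) x ∈ orbF P x :=
          mem_orbF.2 ⟨_, ⟨u, hu, rfl⟩, rfl⟩
        obtain ⟨z, hz⟩ := Finset.card_eq_one.1 (by simpa using ha)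
        have h1 := mem_orbF_self P x
        rw [hz, Finset.mem_singleton] at hu' h1
        rw [mem_stabilizer_iff, Subgroup.smul_def, Perm.smul_def, hu', ← h1]
      have h := Subgroup.index_dvd_of_le hQ
      rw [index_stabilizer, ← Nat.card_coe_set_eq, horb] at h
      exact Q.not_dvd_index ((dvd_mul_left p k).trans h)
    · simpa using ha
  · intro σ
    let s : Fin r ↪ α := ((Δ.equivFinOfCardEq hΔ).symm.toEmbedding.trans (Function.Embedding.subtype _))
    let t : Fin r ↪ α := ((Δ.equivFinOfCardEq hΔ).symm.trans σ).toEmbedding.trans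
      (Function.Embedding.subtype _)
    have : IsMultiplyPretransitive G α (r + 1) := hG
    have hr : IsMultiplyPretransitive G α r :=
      isMultiplyPretransitive_of_le (n := r + 1) (Nat.le_succ r)
        (by rw [Nat.card_eq_fintype_card, hn]; have := Nat.mul_pos hk hp.pos; omega)
    obtain ⟨g, hg⟩ := hr.exists_smul_eq s t
    have hgx : ∀ x : ↥Δ, (g : Perm α) x = σ x := fun x => by
      have := DFunLike.congr_fun hg (Δ.equivFinOfCardEq hΔ x)
      simpa [s, t, Function.Embedding.smul_apply, Subgroup.smul_def] using this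
    have hgK : ∀ u ∈ K, (g : Perm α) * u * (g : Perm α)⁻¹ ∈ K := by
      intro u hu
      refine (hK _).2 ⟨G.mul_mem (G.mul_mem g.2 ((hK u).1 hu).1) (G.inv_mem g.2), fun x hx => ?_⟩
      obtain ⟨y, hy⟩ := σ.surjective ⟨x, hx⟩
      have := hgx y
      rw [hy] at this
      have hx' : (g : Perm α) y = x := this
      rw [← hx', Perm.mul_apply, Perm.mul_apply, ias, ((hK u).1 hu).2 _ y.2]
    let f : K →* K :=
      { toFun := fun u => ⟨(g : Perm α) * u * (g : Perm α)⁻¹, hgK u u.2⟩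
        map_one' := by ext; simp
        map_mul' := fun u v => Subtype.ext (by simp only [Subgroup.coe_mul]; group) }
    have hf : Function.Surjective f := Finite.surjective_of_injective fun u v h =>
      Subtype.ext (mul_left_cancel (mul_right_cancel (congrArg Subtype.val h)))
    obtain ⟨h, hh⟩ := MulAction.exists_smul_eq K (Q.mapSurjective hf) Q
    refine ⟨(h : Perm α) * g, G.mul_mem ((hK _).1 h.2).1 g.2, ?_, fun x => ?_⟩
    · rintro u ⟨u, hu, rfl⟩
      refine ⟨h * f u * h⁻¹, ?_, ?_⟩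
      · rw [SetLike.mem_coe, ← hh, Sylow.coe_subgroup_smul]
        have hfu : f u ∈ (Q.mapSurjective hf : Subgroup K) := ⟨u, hu, rfl⟩
        have := Subgroup.smul_mem_pointwise_smul _ (MulAut.conj h) _ hfu
        simpa using this
      · simp [f, mul_assoc]
    · rw [Perm.mul_apply, hgx, ((hK _).1 h.2).2 _ (σ x).2]

variable {α : Type*} [Fintype α] [DecidableEq α] {p : ℕ} {P : Subgroup (Perm α)}

set_option maxHeartbeats 1000000 in
theorem scalar (hp : p.Prime) (hP : IsPGroup p P) (Δ : Finset α)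
    (hfix : ∀ u ∈ P, ∀ x ∈ Δ, u x = x) (horb : ∀ x, x ∉ Δ → (orbF P x).card = p)
    (h3 : (Δᶜ.image (orbF P)).card ≤ 3)
    (hone : ∀ u ∈ P, ∀ x, x ∉ Δ → (∀ y, y ∉ orbF P x → u y = y) → u = 1)
    (hcomm : ∀ u ∈ P, ∀ v ∈ P, u * v = v * u)
    {c : Perm α} (hc : ∀ u ∈ P, c * u * c⁻¹ ∈ P)
    (hcO : ∀ x, x ∉ Δ → c⁻¹ x ∈ orbF P x) :
    ∃ m : ℕ, ∀ u ∈ P, c * u * c⁻¹ = u ^ m := by
  classical
  have hmap : ∀ x, x ∉ Δ → ∃ m : ℕ, ∀ u ∈ P, ∀ y ∈ orbF P x, (c * u * c⁻¹) y = (u ^ m) y := by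
    intro x hx
    refine exists_power_map hp hP (horb x hx) hc fun y hy => ?_
    rw [← orbF_eq hy]
    refine hcO y fun h => ?_
    obtain ⟨u, hu, rfl⟩ := mem_orbF.1 hy
    exact hx (u.injective (hfix u hu _ h) ▸ h)
  by_cases hK : ∃ x, x ∉ Δ ∧ ∀ u ∈ P, u x = x → u = 1
  · obtain ⟨x, hx, hx1⟩ := hK
    obtain ⟨m, hm⟩ := hmap x hx
    refine ⟨m, fun u hu => ?_⟩
    have := hx1 _ (P.mul_mem (P.inv_mem (P.pow_mem hu m)) (hc u hu))
      (by rw [Perm.mul_apply, hm u hu x (mem_orbF_self P x), ias])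
    exact (inv_mul_eq_one.1 this).symm
  push Not at hK
  by_cases hΔ : ∀ x, x ∈ Δ
  · exact ⟨0, fun u hu => by rw [pow_zero]; exact Equiv.ext fun x => hfix _ (hc u hu) x (hΔ x)⟩
  push Not at hΔ
  obtain ⟨x3, hx3⟩ := hΔ
  obtain ⟨u1, hu1, hu13, hu1n⟩ := hK x3 hx3
  obtain ⟨x1, hx1u⟩ : ∃ x, u1 x ≠ x := by
    by_contra h; push Not at h; exact hu1n (Equiv.ext h)
  have hx1 : x1 ∉ Δ := fun h => hx1u (hfix u1 hu1 _ h)
  obtain ⟨x2, hx2O, hx2u⟩ : ∃ y, y ∉ orbF P x1 ∧ u1 y ≠ y := by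
    by_contra h; push Not at h; exact hu1n (hone u1 hu1 x1 hx1 h)
  have hx2 : x2 ∉ Δ := fun h => hx2u (hfix u1 hu1 _ h)
  have hf3 := fix_orbF hp hP (horb x3 hx3) hu1 hu13
  have d13 : orbF P x1 ≠ orbF P x3 := fun h => hx1u (hf3 _ (h ▸ mem_orbF_self P x1))
  have d23 : orbF P x2 ≠ orbF P x3 := fun h => hx2u (hf3 _ (h ▸ mem_orbF_self P x2))
  have d12 : orbF P x1 ≠ orbF P x2 := fun h => hx2O (h ▸ mem_orbF_self P x2)
  have hall : ∀ y, y ∈ Δ ∨ y ∈ orbF P x1 ∨ y ∈ orbF P x2 ∨ y ∈ orbF P x3 := by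
    intro y
    by_cases hy : y ∈ Δ
    · exact Or.inl hy
    refine Or.inr ?_
    have hsub : ({orbF P x1, orbF P x2, orbF P x3} : Finset (Finset α)) ⊆ Δᶜ.image (orbF P) := by
      intro O hO
      simp only [Finset.mem_insert, Finset.mem_singleton] at hO
      rcases hO with rfl | rfl | rfl <;>
        exact Finset.mem_image_of_mem _ (Finset.mem_compl.2 ‹_›)
    have heq := Finset.eq_of_subset_of_card_le hsub (by
      rw [Finset.card_eq_three.2 ⟨_, _, _, d12, d13, d23, rfl⟩]; exact h3)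
    have : orbF P y ∈ ({orbF P x1, orbF P x2, orbF P x3} : Finset (Finset α)) :=
      heq ▸ Finset.mem_image_of_mem _ (Finset.mem_compl.2 hy)
    simp only [Finset.mem_insert, Finset.mem_singleton] at this
    rcases this with h | h | h
    · exact Or.inl (h ▸ mem_orbF_self P y)
    · exact Or.inr (Or.inl (h ▸ mem_orbF_self P y))
    · exact Or.inr (Or.inr (h ▸ mem_orbF_self P y))
  have two : ∀ u ∈ P, ∀ a b c' : α, a ∉ Δ → b ∉ Δ → c' ∉ Δ → u a = a → u b = b →
      (∀ y, y ∈ Δ ∨ y ∈ orbF P a ∨ y ∈ orbF P b ∨ y ∈ orbF P c') → u = 1 := by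
    intro u hu a b c' ha hb hc' hua hub hcov
    refine hone u hu c' hc' fun y hy => ?_
    rcases hcov y with h | h | h | h
    · exact hfix u hu _ h
    · exact fix_orbF hp hP (horb a ha) hu hua _ h
    · exact fix_orbF hp hP (horb b hb) hu hub _ h
    · exact absurd h hy
  obtain ⟨v1, hv1, hv11, hv1n⟩ := hK x1 hx1
  have hv13 : v1 x3 ≠ x3 := fun h => hv1n (two v1 hv1 x1 x3 x2 hx1 hx3 hx2 hv11 h
    fun y => by rcases hall y with h | h | h | h <;> tauto)
  obtain ⟨m, hm⟩ := hmap x2 hx2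
  have conjfix : ∀ u ∈ P, ∀ x, x ∉ Δ → u x = x → ((u ^ m)⁻¹ * (c * u * c⁻¹)) x = x := by
    intro u hu x hx hux
    have h := fix_orbF hp hP (horb x hx) hu hux _ (hcO x hx)
    rw [Perm.mul_apply, Perm.mul_apply, Perm.mul_apply, h, asi,
      Perm.inv_eq_iff_eq, Perm.pow_apply_eq_self_of_apply_eq_self hux]
  have eq2 : ∀ u ∈ P, ((u ^ m)⁻¹ * (c * u * c⁻¹)) x2 = x2 := fun u hu => by
    rw [Perm.mul_apply, hm u hu x2 (mem_orbF_self P x2), ias]
  have mem : ∀ u ∈ P, (u ^ m)⁻¹ * (c * u * c⁻¹) ∈ P := fun u hu =>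
    P.mul_mem (P.inv_mem (P.pow_mem hu m)) (hc u hu)
  have eu : c * u1 * c⁻¹ = u1 ^ m := (inv_mul_eq_one.1 (two _ (mem u1 hu1) x2 x3 x1 hx2 hx3 hx1
    (eq2 u1 hu1) (conjfix u1 hu1 x3 hx3 hu13)
    fun y => by rcases hall y with h | h | h | h <;> tauto)).symm
  have ev : c * v1 * c⁻¹ = v1 ^ m := (inv_mul_eq_one.1 (two _ (mem v1 hv1) x1 x2 x3 hx1 hx2 hx3
    (conjfix v1 hv1 x1 hx1 hv11) (eq2 v1 hv1) hall)).symm
  refine ⟨m, fun u hu => ?_⟩
  obtain ⟨i, hi⟩ := exists_pow_eq hp hP (horb x3 hx3) hv1 hv13 hu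
  have hu' : (v1 ^ i)⁻¹ * u ∈ P := P.mul_mem (P.inv_mem (P.pow_mem hv1 i)) hu
  obtain ⟨j, hj⟩ := exists_pow_eq hp hP (horb x1 hx1) hu1 hx1u hu'
  have hz : (u1 ^ j)⁻¹ * ((v1 ^ i)⁻¹ * u) = 1 := by
    refine two _ (P.mul_mem (P.inv_mem (P.pow_mem hu1 j)) hu') x1 x3 x2 hx1 hx3 hx2 ?_ ?_
      fun y => by rcases hall y with h | h | h | h <;> tauto
    · rw [Perm.mul_apply, hj _ (mem_orbF_self P x1), ias]
    · rw [Perm.mul_apply, Perm.mul_apply, hi _ (mem_orbF_self P x3), ias,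
        Perm.inv_eq_iff_eq, Perm.pow_apply_eq_self_of_apply_eq_self hu13]
  have hu_eq : u = v1 ^ i * u1 ^ j := by
    rw [inv_mul_eq_one] at hz
    rw [hz, mul_inv_cancel_left]
  have hcm : Commute (v1 ^ i) (u1 ^ j) := Commute.pow_pow (hcomm v1 hv1 u1 hu1) i j
  rw [hu_eq, hcm.mul_pow, ← conj_mul, ← conj_pow, ← conj_pow, eu, ev, ← pow_mul, ← pow_mul,
    ← pow_mul, ← pow_mul, Nat.mul_comm i m, Nat.mul_comm j m]

set_option maxHeartbeats 1600000 in
/-- Let `n = kp + r` with `p` prime, `1 ≤ k < p` and `r > k`, excluding the case `k = 1, r = 2`. Then a permutation group of degree `n` that is `(r + 1)`-fold transitive contains the alternating group. -/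
theorem result {α : Type*} [Fintype α] [DecidableEq α] (G : Subgroup (Equiv.Perm α)) {k p r : ℕ} (hp : p.Prime) (hn : Fintype.card α = k * p + r) (hk : 1 ≤ k) (hpk : k < p) (hrk : k < r) (hex : ¬ (k = 1 ∧ r = 2)) (hG : MulAction.IsMultiplyPretransitive G α (r + 1)) : alternatingGroup α ≤ G := by
  classical
  have hp' : Fact p.Prime := ⟨hp⟩
  have hkp : p ≤ k * p := Nat.le_mul_of_pos_left p hk
  have hr2 : 2 ≤ r := by omega
  have hr3 : 3 ≤ r := by
    by_contra h
    exact hex ⟨by omega, by omega⟩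
  obtain ⟨Δ, -, hΔ⟩ := Finset.exists_subset_card_eq (s := (Finset.univ : Finset α)) (n := r)
    (by rw [Finset.card_univ, hn]; omega)
  obtain ⟨P, hPG, hPp, hfix, horb, hlift⟩ := exists_P G hp hn hk hpk hG Δ hΔ
  have hc : Δᶜ.card = k * p := by rw [Finset.card_compl, hΔ, hn]; omega
  have hout : ∀ {x y : α}, x ∉ Δ → y ∈ orbF P x → y ∉ Δ := by
    intro x y hx hy h
    obtain ⟨u, hu, rfl⟩ := mem_orbF.1 hy
    exact hx (u.injective (hfix u hu _ h) ▸ h)
  -- an element supported on one orbit is a `p`-cycle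
  by_cases hone : ∀ u ∈ P, ∀ x, x ∉ Δ → (∀ y, y ∉ orbF P x → u y = y) → u = 1
  swap
  · push Not at hone
    obtain ⟨u, hu, x, hx, hux, hu1⟩ := hone
    have hsub : u.support ⊆ orbF P x := fun y hy => by
      by_contra h
      exact Perm.mem_support.1 hy (hux y h)
    have hle : u.support.card ≤ p := horb x hx ▸ Finset.card_le_card hsub
    have hup : u ^ p = 1 := Equiv.ext fun y => by
      by_cases hy : y ∈ Δ
      · exact Perm.pow_apply_eq_self_of_apply_eq_self (hfix u hu y hy) p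
      · exact pow_p_apply hp hPp (horb y hy) hu
    have hord : orderOf u = p :=
      (Nat.dvd_prime hp).1 (orderOf_dvd_of_pow_eq_one hup) |>.resolve_left
        (fun h => hu1 (orderOf_eq_one_iff.1 h))
    have hcyc : u.IsCycle := Perm.isCycle_of_prime_order (hord ▸ hp)
      (by rw [hord]; have := hp.two_le; omega)
    have hprim : IsPreprimitive G α := by
      have : IsMultiplyPretransitive G α (r + 1) := hG
      exact isPreprimitive_of_is_two_pretransitive
        (isMultiplyPretransitive_of_le (n := r + 1) (by omega)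
          (by rw [Nat.card_eq_fintype_card, hn]; omega))
    exact Cfsg.Agent.S0713.result G hprim hp (by have := hp.two_le; omega) (by omega) hcyc
      (hcyc.orderOf ▸ hord) (hPG hu)
  -- counting orbits
  set 𝒪 := Δᶜ.image (orbF P) with h𝒪
  have h𝒪k : 𝒪.card = k := by
    have h : Δᶜ.card = 𝒪.card * p := by
      refine Finset.card_eq_sum_card_image (orbF P) Δᶜ |>.trans ?_
      rw [Finset.sum_const_nat]
      intro O hO
      obtain ⟨x, hx, rfl⟩ := Finset.mem_image.1 hO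
      rw [← horb x (Finset.mem_compl.1 hx)]
      congr 1
      ext y
      simp only [Finset.mem_filter, Finset.mem_compl]
      refine ⟨fun h => h.2 ▸ mem_orbF_self P y, fun h => ⟨hout (Finset.mem_compl.1 hx) h, orbF_eq h⟩⟩
    exact (Nat.mul_right_cancel hp.pos (h.symm.trans hc))
  have hk2 : 2 ≤ k := by
    by_contra h
    obtain ⟨x, hx⟩ := Finset.card_pos.1 (show 0 < Δᶜ.card by have := hp.pos; omega)
    rw [Finset.mem_compl] at hx
    obtain ⟨w, hw, hwx⟩ := exists_move hp (horb x hx)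
    refine hwx ?_
    rw [hone w hw x hx fun y hy => ?_, Perm.one_apply]
    refine hfix w hw y ?_
    by_contra hyΔ
    have hO : ∀ O ∈ 𝒪, ∀ O' ∈ 𝒪, O = O' := Finset.card_le_one.1 (by omega)
    exact hy (hO _ (Finset.mem_image_of_mem _ (Finset.mem_compl.2 hyΔ)) _
      (Finset.mem_image_of_mem _ (Finset.mem_compl.2 hx)) ▸ mem_orbF_self P y)
  have hp2 : p ≠ 2 := by omega
  have hn1 : r + 1 ≤ Fintype.card α := by omega
  by_cases h9 : p = 3 ∧ r = 3
  · obtain ⟨rfl, rfl⟩ := h9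
    obtain rfl : k = 2 := by omega
    obtain ⟨x1, hx1⟩ := Finset.card_pos.1 (show 0 < Δᶜ.card by omega)
    rw [Finset.mem_compl] at hx1
    obtain ⟨u, hu, hux1⟩ := exists_move hp (horb x1 hx1)
    have hu1 : u ≠ 1 := fun h => hux1 (by simp [h])
    obtain ⟨x2, hx2O, hux2⟩ : ∃ y, y ∉ orbF P x1 ∧ u y ≠ y := by
      by_contra h; push Not at h; exact hu1 (hone u hu x1 hx1 h)
    have hx2 : x2 ∉ Δ := fun h => hux2 (hfix u hu _ h)
    let F : Fin 9 → α := ![x1, u x1, u (u x1), x2, u x2, u (u x2),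
      ((Δ.equivFinOfCardEq hΔ).symm 0).1, ((Δ.equivFinOfCardEq hΔ).symm 1).1,
      ((Δ.equivFinOfCardEq hΔ).symm 2).1]
    have hcyc : ∀ x, x ∉ Δ → u x ≠ x → ∀ y ∈ orbF P x, y = x ∨ y = u x ∨ y = u (u x) := by
      intro x hx hux y hy
      rw [← orbF_eq_image hp hPp (horb x hx) hu hux] at hy
      obtain ⟨i, hi, rfl⟩ := Finset.mem_image.1 hy
      rw [Finset.mem_range] at hi
      interval_cases i <;> simp [pow_succ]
    have hcov : ∀ y, y ∈ Δ ∨ y ∈ orbF P x1 ∨ y ∈ orbF P x2 := by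
      intro y
      by_cases hy : y ∈ Δ
      · exact Or.inl hy
      have hne : orbF P x1 ≠ orbF P x2 := fun h => hx2O (h ▸ mem_orbF_self P x2)
      have hsub : ({orbF P x1, orbF P x2} : Finset (Finset α)) ⊆ 𝒪 := by
        intro O hO
        simp only [Finset.mem_insert, Finset.mem_singleton] at hO
        rcases hO with rfl | rfl <;> exact Finset.mem_image_of_mem _ (Finset.mem_compl.2 ‹_›)
      have heq := Finset.eq_of_subset_of_card_le hsub (by rw [Finset.card_pair hne, h𝒪k])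
      have : orbF P y ∈ ({orbF P x1, orbF P x2} : Finset (Finset α)) :=
        heq ▸ Finset.mem_image_of_mem _ (Finset.mem_compl.2 hy)
      simp only [Finset.mem_insert, Finset.mem_singleton] at this
      rcases this with h | h
      · exact Or.inr (Or.inl (h ▸ mem_orbF_self P y))
      · exact Or.inr (Or.inr (h ▸ mem_orbF_self P y))
    have hFs : Function.Surjective F := by
      intro y
      rcases hcov y with h | h | h
      · obtain ⟨i, hi⟩ := (Δ.equivFinOfCardEq hΔ).symm.surjective ⟨y, h⟩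
        fin_cases i
        · exact ⟨6, congrArg Subtype.val hi⟩
        · exact ⟨7, congrArg Subtype.val hi⟩
        · exact ⟨8, congrArg Subtype.val hi⟩
      · rcases hcyc x1 hx1 hux1 y h with rfl | rfl | rfl
        · exact ⟨0, rfl⟩
        · exact ⟨1, rfl⟩
        · exact ⟨2, rfl⟩
      · rcases hcyc x2 hx2 hux2 y h with rfl | rfl | rfl
        · exact ⟨3, rfl⟩
        · exact ⟨4, rfl⟩
        · exact ⟨5, rfl⟩
    let e : Fin 9 ≃ α := Equiv.ofBijective F
      ((Fintype.bijective_iff_surjective_and_card F).2 ⟨hFs, by rw [hn, Fintype.card_fin]⟩)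
    have hu3 : ∀ x, x ∉ Δ → u (u (u x)) = x := fun x hx => by
      simpa [pow_succ] using pow_p_apply hp hPp (horb x hx) hu
    have hue : u = e.permCongrHom (swap 0 1 * swap 1 2 * (swap 3 4 * swap 4 5)) := by
      refine Equiv.ext fun y => ?_
      obtain ⟨i, rfl⟩ := e.surjective y
      rw [show e.permCongrHom (swap 0 1 * swap 1 2 * (swap 3 4 * swap 4 5)) (e i) =
        e ((swap 0 1 * swap 1 2 * (swap 3 4 * swap 4 5) : Perm (Fin 9)) i) by
          simp [Equiv.permCongrHom]]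
      change u (F i) = F _
      have hd : ∀ j : Fin 3, u ((Δ.equivFinOfCardEq hΔ).symm j).1 =
          ((Δ.equivFinOfCardEq hΔ).symm j).1 := fun j => hfix u hu _ (Subtype.mem _)
      fin_cases i <;> simp [F, swap_apply_def, hu3 x1 hx1, hu3 x2 hx2, hd]
    obtain ⟨f, hf, hf1, hfs⟩ := small9 G hG e u (hPG hu) hue
    exact (Cfsg.Agent.S0711.result G (by omega) hn1 hG f hf hf1 (by omega)).2
  -- the normalizer of `P`
  have h34 : p ≠ 3 ∨ 4 ≤ r := by omega
  let N : Subgroup (Perm α) :=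
    { carrier := {g | g ∈ G ∧ ∀ u, u ∈ P ↔ g * u * g⁻¹ ∈ P}
      one_mem' := ⟨G.one_mem, by simp⟩
      mul_mem' := fun {a b} ha hb => ⟨G.mul_mem ha.1 hb.1, fun u => by
        rw [hb.2 u, ha.2 (b * u * b⁻¹), show a * (b * u * b⁻¹) * a⁻¹ = a * b * u * (a * b)⁻¹ by group]⟩
      inv_mem' := fun {a} ha => ⟨G.inv_mem ha.1, fun u => by
        rw [ha.2 (a⁻¹ * u * a⁻¹⁻¹), show a * (a⁻¹ * u * a⁻¹⁻¹) * a⁻¹ = u by group]⟩ }
  have hNmem : ∀ g ∈ G, (∀ u ∈ P, g * u * g⁻¹ ∈ P) → g ∈ N := by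
    intro g hg h
    refine ⟨hg, fun u => ⟨h u, fun hu => ?_⟩⟩
    let f : P → P := fun v => ⟨g * v * g⁻¹, h v v.2⟩
    obtain ⟨v, hv⟩ := Finite.surjective_of_injective (f := f)
      (fun v w hvw => Subtype.ext (mul_left_cancel (mul_right_cancel (congrArg Subtype.val hvw)))) ⟨_, hu⟩
    have : g * v * g⁻¹ = g * u * g⁻¹ := congrArg Subtype.val hv
    have : (v : Perm α) = u := mul_left_cancel (mul_right_cancel this)
    exact this ▸ v.2
  have hNΔ : ∀ g ∈ N, ∀ x ∈ Δ, g x ∈ Δ := by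
    intro g hg x hx
    by_contra h
    obtain ⟨w, hw, hwx⟩ := exists_move hp (horb _ h)
    have hmem : g⁻¹ * w * g ∈ P := by
      have := (N.inv_mem hg).2 w
      simpa using this.1 hw
    have := hfix _ hmem x hx
    rw [Perm.mul_apply, Perm.mul_apply, Perm.inv_eq_iff_eq] at this
    exact hwx this
  have hNΔ' : ∀ (g : N) (x : α), (g : Perm α) x ∈ Δ ↔ x ∈ Δ := fun g x =>
    ⟨fun h => by simpa using hNΔ _ (N.inv_mem g.2) _ h, hNΔ _ g.2 x⟩
  let ψ : N →* Perm ↥Δ :=
    { toFun := fun g => (g : Perm α).subtypePerm (hNΔ' g)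
      map_one' := by ext; simp
      map_mul' := fun a b => Equiv.ext fun _ => rfl }
  have hψs : Function.Surjective ψ := fun σ => by
    obtain ⟨g, hg, hgP, hgσ⟩ := hlift σ
    refine ⟨⟨g, hNmem g hg hgP⟩, ?_⟩
    ext x
    simpa [ψ] using hgσ x
  have himg : ∀ g ∈ N, ∀ x, (orbF P x).image g = orbF P (g x) := by
    intro g hg x
    ext y
    simp only [Finset.mem_image, mem_orbF]
    constructor
    · rintro ⟨_, ⟨u, hu, rfl⟩, rfl⟩
      exact ⟨g * u * g⁻¹, (hg.2 u).1 hu, by simp⟩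
    · rintro ⟨u, hu, rfl⟩
      refine ⟨(g⁻¹ * u * g) x, ⟨_, ?_, rfl⟩, by simp⟩
      simpa using ((N.inv_mem hg).2 u).1 hu
  have himg𝒪 : ∀ (g : N) (O : ↥𝒪), O.1.image (g : Perm α) ∈ 𝒪 := by
    intro g O
    obtain ⟨x, hx, hxO⟩ := Finset.mem_image.1 O.2
    rw [← hxO, himg _ g.2]
    refine Finset.mem_image_of_mem _ ?_
    rw [Finset.mem_compl, hNΔ']
    exact Finset.mem_compl.1 hx
  let act : MulAction N ↥𝒪 :=
    { smul := fun g O => ⟨O.1.image (g : Perm α), himg𝒪 g O⟩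
      one_smul := fun O => Subtype.ext (show O.1.image ((1 : N) : Perm α) = O.1 by simp)
      mul_smul := fun a b O => Subtype.ext
        (show O.1.image ((a * b : N) : Perm α) = (O.1.image (b : Perm α)).image (a : Perm α) by
          rw [Finset.image_image]; rfl) }
  let φ : N →* Perm ↥𝒪 := @MulAction.toPermHom N ↥𝒪 _ act
  have hker : ∀ c : N, c ∈ φ.ker → ∀ x, x ∉ Δ → (c : Perm α) x ∈ orbF P x := by
    intro c hc x hx
    have h1 := DFunLike.congr_fun (MonoidHom.mem_ker.1 hc)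
      ⟨orbF P x, Finset.mem_image_of_mem _ (Finset.mem_compl.2 hx)⟩
    have h2 : (orbF P x).image (c : Perm α) = orbF P x := congrArg Subtype.val h1
    rw [← h2]
    exact Finset.mem_image_of_mem _ (mem_orbF_self P x)
  have hkeri : ∀ c : N, c ∈ φ.ker → ∀ x, x ∉ Δ → ∀ y ∈ orbF P x,
      (c : Perm α)⁻¹ y ∈ orbF P x := by
    intro c hc x hx y hy
    rw [← orbF_eq hy]
    exact hker c⁻¹ (φ.ker.inv_mem hc) y (hout hx hy)
  let M : Subgroup N := (Subgroup.centralizer (P : Set (Perm α))).comap N.subtype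
  have hM : ∀ c : N, c ∈ M ↔ ∀ u ∈ P, (c : Perm α) * u * (c : Perm α)⁻¹ = u := fun c => by
    simp only [M, Subgroup.mem_comap, Subgroup.mem_centralizer_iff, SetLike.mem_coe,
      Subgroup.coe_subtype]
    exact forall₂_congr fun u _ => by rw [mul_inv_eq_iff_eq_mul, eq_comm]
  have hMn : M.Normal := by
    refine ⟨fun c hc g => (hM _).2 fun u hu => ?_⟩
    have h := (hM c).1 hc _ ((g⁻¹).2.2 u |>.1 hu)
    simp only [Subgroup.coe_inv, inv_inv] at h
    have := congrArg (fun z => (g : Perm α) * z * (g : Perm α)⁻¹) h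
    simpa [mul_assoc] using this
  let C0 : Subgroup N := φ.ker ⊓ M
  let H : Subgroup (Perm ↥Δ) := C0.map ψ
  have hHn : H.Normal := Subgroup.Normal.map (by infer_instance) ψ hψs
  have hcomm : ∀ u ∈ P, ∀ v ∈ P, u * v = v * u := by
    intro u hu v hv
    refine Equiv.ext fun y => ?_
    by_cases hy : y ∈ Δ
    · simp [hfix u hu y hy, hfix v hv y hy]
    obtain ⟨w, hw, hwy⟩ := exists_move hp (horb y hy)
    obtain ⟨i, hi⟩ := exists_pow_eq hp hPp (horb y hy) hw hwy hu
    obtain ⟨j, hj⟩ := exists_pow_eq hp hPp (horb y hy) hw hwy hv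
    have hy' := mem_orbF_self P y
    rw [Perm.mul_apply, Perm.mul_apply, hi _ (apply_mem_orbF hv hy'), hj _ (apply_mem_orbF hu hy'),
      hj _ hy', hi _ hy', ← Perm.mul_apply, ← Perm.mul_apply, ← pow_add, ← pow_add, Nat.add_comm]
  have hH : H ≠ ⊥ := by
    intro hbot
    have hψC0 : ∀ c ∈ C0, ψ c = 1 := fun c hc => by
      have : ψ c ∈ H := ⟨c, hc, rfl⟩
      rwa [hbot, Subgroup.mem_bot] at this
    obtain ⟨c, hc, hc1⟩ : ∃ c ∈ φ.ker, ψ c ≠ 1 := by
      by_contra h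
      push Not at h
      have h1 := Subgroup.index_antitone (show φ.ker ≤ ψ.ker from fun c hc => h c hc)
      rw [Subgroup.index_ker, Subgroup.index_ker, MonoidHom.range_eq_top.2 hψs,
        Subgroup.card_top, Nat.card_perm, Nat.card_eq_fintype_card (α := ↥Δ), Fintype.card_coe, hΔ] at h1
      have h2 := Subgroup.card_le_card_group φ.range
      rw [Nat.card_perm, Nat.card_eq_fintype_card (α := ↥𝒪), Fintype.card_coe, h𝒪k] at h2
      exact absurd (h1.trans h2) (not_le.2 ((Nat.factorial_lt (by omega)).2 hrk))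
    by_cases hr5 : 5 ≤ r
    · obtain ⟨π, hπ⟩ := exists_not_commute_conj (by rw [Fintype.card_coe]; omega) hc1
      obtain ⟨g, rfl⟩ := hψs π
      refine hπ ?_
      rw [← map_inv, ← map_mul, ← map_mul]
      set d := g * c * g⁻¹ with hd
      have hdk : d ∈ φ.ker := (MonoidHom.normal_ker φ).conj_mem c hc g
      have hmem : c * d * c⁻¹ * d⁻¹ ∈ C0 := by
        refine ⟨φ.ker.mul_mem (φ.ker.mul_mem (φ.ker.mul_mem hc hdk) (φ.ker.inv_mem hc))
          (φ.ker.inv_mem hdk), (hM _).2 fun u hu => Equiv.ext fun y => ?_⟩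
        by_cases hy : y ∈ Δ
        · rw [hfix _ ((c * d * c⁻¹ * d⁻¹).2.2 u |>.1 hu) y hy, hfix u hu y hy]
        obtain ⟨a, ha⟩ := exists_power_map hp hPp (horb y hy) (fun v hv => (c.2.2 v).1 hv)
          (hkeri c hc y hy)
        obtain ⟨b, hb⟩ := exists_power_map hp hPp (horb y hy) (fun v hv => (d.2.2 v).1 hv)
          (hkeri d hdk y hy)
        set z : Perm α := ((c⁻¹ * d⁻¹ : N) : Perm α) * u * ((c⁻¹ * d⁻¹ : N) : Perm α)⁻¹ with hz
        have hzP : z ∈ P := ((c⁻¹ * d⁻¹ : N).2.2 u).1 hu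
        have key : ∀ z' ∈ orbF P y, ((c : Perm α) * ((d : Perm α) * z * (d : Perm α)⁻¹) *
            (c : Perm α)⁻¹) z' = ((d : Perm α) * ((c : Perm α) * z * (c : Perm α)⁻¹) *
            (d : Perm α)⁻¹) z' := by
          intro z' hz'
          rw [ha _ ((d.2.2 z).1 hzP) z' hz', hb _ ((c.2.2 z).1 hzP) z' hz',
            pow_apply_congr (hb z hzP) (fun w hw => apply_mem_orbF (P.pow_mem hzP b) hw) a z' hz',
            pow_apply_congr (ha z hzP) (fun w hw => apply_mem_orbF (P.pow_mem hzP a) hw) b z' hz',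
            ← pow_mul, ← pow_mul, Nat.mul_comm]
        have e1 : (c : Perm α) * ((d : Perm α) * z * (d : Perm α)⁻¹) * (c : Perm α)⁻¹ =
            ((c * d * c⁻¹ * d⁻¹ : N) : Perm α) * u * ((c * d * c⁻¹ * d⁻¹ : N) : Perm α)⁻¹ := by
          simp [hz, mul_assoc]
        have e2 : (d : Perm α) * ((c : Perm α) * z * (c : Perm α)⁻¹) * (d : Perm α)⁻¹ = u := by
          simp [hz, mul_assoc]
        rw [← e1, key y (mem_orbF_self P y), e2]
      have := hψC0 _ hmem
      rw [map_mul, map_mul, map_mul, map_inv, map_inv, mul_inv_eq_one, mul_inv_eq_iff_eq_mul]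
        at this
      exact this
    · obtain ⟨π, hπ⟩ := exists_not_commute (by rw [Fintype.card_coe]; omega) hc1
      obtain ⟨g, rfl⟩ := hψs π
      obtain ⟨m, hm⟩ := scalar hp hPp Δ hfix horb (by rw [← h𝒪, h𝒪k]; omega) hone hcomm
        (fun v hv => (c.2.2 v).1 hv) (fun x hx => hkeri c hc x hx x (mem_orbF_self P x))
      have hmem : g * c * g⁻¹ * c⁻¹ ∈ C0 := by
        refine ⟨φ.ker.mul_mem ((MonoidHom.normal_ker φ).conj_mem c hc g) (φ.ker.inv_mem hc),
          (hM _).2 fun u hu => ?_⟩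
        set z : Perm α := (c : Perm α)⁻¹ * u * (c : Perm α)⁻¹⁻¹ with hz
        have hzP : z ∈ P := ((c⁻¹).2.2 u).1 hu
        set t : Perm α := (g : Perm α)⁻¹ * z * (g : Perm α)⁻¹⁻¹ with ht
        have htP : t ∈ P := ((g⁻¹).2.2 z).1 hzP
        have e1 : ((g * c * g⁻¹ * c⁻¹ : N) : Perm α) * u *
            ((g * c * g⁻¹ * c⁻¹ : N) : Perm α)⁻¹ =
            (g : Perm α) * ((c : Perm α) * t * (c : Perm α)⁻¹) * (g : Perm α)⁻¹ := by
          simp [ht, hz, mul_assoc]
        have e2 : (c : Perm α) * z * (c : Perm α)⁻¹ = u := by simp [hz, mul_assoc]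
        have e3 : (g : Perm α) * t * (g : Perm α)⁻¹ = z := by simp [ht, mul_assoc]
        rw [e1, hm t htP, ← conj_pow, e3, ← hm z hzP, e2]
      have := hψC0 _ hmem
      rw [map_mul, map_mul, map_mul, map_inv, map_inv, mul_inv_eq_one, mul_inv_eq_iff_eq_mul]
        at this
      exact hπ this
  obtain ⟨σ, ⟨c, hc, rfl⟩, hσp⟩ := exists_pow_ne_one hH hp hp2 (by rw [Fintype.card_coe]; omega)
    (by rw [Fintype.card_coe]; omega)
  have hne : (c : Perm α) ^ p ≠ 1 := fun h => hσp (by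
    rw [← map_pow, show c ^ p = 1 from Subtype.ext h, map_one])
  refine (Cfsg.Agent.S0711.result G (by omega) hn1 hG _ (G.pow_mem c.2.1 p) hne ?_).2
  refine lt_of_le_of_lt (Finset.card_le_card (show ((c : Perm α) ^ p).support ⊆ Δ from ?_))
    (by rw [hΔ]; omega)
  intro x hx
  by_contra hxΔ
  refine Perm.mem_support.1 hx (pow_p_apply_centralizer hp hPp (horb x hxΔ) ?_ (hker c hc.1 x hxΔ))
  exact fun u hu => mul_inv_eq_iff_eq_mul.1 ((hM c).1 hc.2 u hu)

end Cfsg.Agent.S4220
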