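import Cfsg.Statements.S4221
import Cfsg.Agent.Lib.FourTrans.Odd
import Cfsg.Agent.Lib.JordanSharp.Main
-- import your own Cfsg.Agent.* helpers here

set_option autoImplicit false
open Cfsg

namespace Cfsg.Agent.S4221

open Lib.FourTrans MulAction in
theorem hyp_of_odd {α : Type*} [Fintype α] [DecidableEq α] (G : Subgroup (Equiv.Perm α))
    (hG : IsMultiplyPretransitive G α 4) (x : Fin 4 ↪ α) (hodd : Odd (Nat.card (stabilizer G x))) :
    Hyp G α := by
  have mk : ∀ {a b c d : α}, Four a b c d → ∃ e : Fin 4 ↪ α, ⇑e = ![a, b, c, d] := by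
    intro a b c d hf
    obtain ⟨h1, h2, h3, h4, h5, h6⟩ := hf
    refine ⟨⟨![a, b, c, d], fun i j he => ?_⟩, rfl⟩
    fin_cases i <;> fin_cases j <;>
      simp [h1, h2, h3, h4, h5, h6, h1.symm, h2.symm, h3.symm, h4.symm, h5.symm, h6.symm] at he ⊢
  refine ⟨fun g hg => Subtype.ext (Equiv.ext fun p => hg p), ?_, ?_⟩
  · intro a b c d a' b' c' d' hf hf'
    obtain ⟨e, he⟩ := mk hf
    obtain ⟨e', he'⟩ := mk hf'
    obtain ⟨g, hg⟩ := isMultiplyPretransitive_iff.1 hG e e'
    refine ⟨g, ?_, ?_, ?_, ?_⟩
    · simpa [he, he'] using DFunLike.congr_fun hg 0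
    · simpa [he, he'] using DFunLike.congr_fun hg 1
    · simpa [he, he'] using DFunLike.congr_fun hg 2
    · simpa [he, he'] using DFunLike.congr_fun hg 3
  · intro t ht a b c d hf ha hb hc hd
    obtain ⟨e, he⟩ := mk hf
    obtain ⟨g, hg⟩ := isMultiplyPretransitive_iff.1 hG e x
    have hmem : g * t * g⁻¹ ∈ stabilizer G x := by
      refine mem_stabilizer_iff.2 (DFunLike.ext _ _ fun i => ?_)
      have hgi : x i = g • e i := (DFunLike.congr_fun hg i).symm
      show (g * t * g⁻¹) • x i = x i
      rw [hgi, mul_smul, mul_smul, inv_smul_smul]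
      congr 1
      fin_cases i <;> simp [he, ha, hb, hc, hd]
    have hsq : (⟨g * t * g⁻¹, hmem⟩ : stabilizer G x) ^ 2 = 1 := by
      refine Subtype.ext ?_
      show (g * t * g⁻¹) ^ 2 = 1
      rw [conj_pow, sq, ht, mul_one, mul_inv_cancel]
    obtain ⟨j, hj⟩ := hodd
    have h1 := pow_card_eq_one' (x := (⟨g * t * g⁻¹, hmem⟩ : stabilizer G x))
    rw [hj, pow_succ, pow_mul, hsq, one_pow, one_mul] at h1
    exact conj_eq_one_iff.1 (congrArg Subtype.val h1)

theorem index_small {α : Type*} [Fintype α] [DecidableEq α] (G : Subgroup (Equiv.Perm α))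
    (h5 : 5 ≤ Fintype.card α) (hi : Nat.factorial G.index < Nat.factorial (Fintype.card α)) :
    alternatingGroup α ≤ G := by
  have hcore : G.normalCore ≠ ⊥ := by
    intro hbot
    rw [Subgroup.normalCore_eq_ker, MonoidHom.ker_eq_bot_iff] at hbot
    have := Nat.card_le_card_of_injective _ hbot
    rw [Nat.card_perm, Nat.card_perm, ← Subgroup.index_eq_card, Nat.card_eq_fintype_card] at this
    omega
  exact (Equiv.Perm.alternatingGroup_le_of_normal (α := α)
    (by rw [Nat.card_eq_fintype_card]; omega) (N := G.normalCore)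
    (G.normalCore.nontrivial_iff_ne_bot.2 hcore)).trans G.normalCore_le

theorem eq_alt {α : Type*} [Fintype α] [DecidableEq α] (G : Subgroup (Equiv.Perm α))
    (e : Fintype.card α = 6 ∨ Fintype.card α = 7) {S : ℕ}
    (hindex : G.index * Nat.card G = (Fintype.card α).factorial)
    (hcard : Nat.card G = (Fintype.card α).descFactorial 4 * S) (hodd : Odd S) :
    G = alternatingGroup α := by
  haveI : Nontrivial α := Fintype.one_lt_card_iff_nontrivial.1 (by omega)
  obtain ⟨j, hj⟩ := hodd
  have hbound : G.index * S ∣ 6 := by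
    rcases e with e | e <;>
      rw [hcard, e] at hindex <;> simp [Nat.descFactorial, Nat.factorial] at hindex
    · exact ⟨3, by linarith⟩
    · exact ⟨1, by linarith⟩
  have hle : G.index ≤ 6 := Nat.le_of_dvd (by norm_num) ((dvd_mul_right _ _).trans hbound)
  have hne : G.index ≠ 1 := by
    intro h1
    rcases e with e | e <;>
      rw [hcard, e, h1, one_mul] at hindex <;> simp [Nat.descFactorial, Nat.factorial] at hindex <;>
      omega
  have hfac : G.index.factorial < (Fintype.card α).factorial := by
    rcases e with e | e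
    · have : G.index ≤ 5 := by
        by_contra h6
        rw [hcard, e, show G.index = 6 by omega] at hindex
        simp [Nat.descFactorial, Nat.factorial] at hindex
        omega
      refine lt_of_le_of_lt (Nat.factorial_le this) ?_
      rw [e]; decide
    · refine lt_of_le_of_lt (Nat.factorial_le hle) ?_
      rw [e]; decide
  have hA := index_small G (by omega) hfac
  have h2 : G.index ∣ 2 := by
    rw [← alternatingGroup.index_eq_two (α := α)]
    exact Subgroup.index_dvd_of_le hA
  have h1 : G.index = 2 := ((Nat.dvd_prime Nat.prime_two).1 h2).resolve_left hne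
  refine (Subgroup.eq_of_le_of_card_ge hA ?_).symm
  have hiA := (alternatingGroup α).index_mul_card
  rw [alternatingGroup.index_eq_two, ← G.index_mul_card, h1] at hiA
  omega

/-- Let `G` be a `4`-fold transitive permutation group on a finite set of `n` points in which the pointwise stabilizer of some four distinct points has odd order. Then `n = 4` or `n = 5` with `G` the full symmetric group, or `n = 6` or `n = 7` with `G` the alternating group, or `n = 11` and `G` has order `7920`. -/
theorem result {α : Type*} [Fintype α] [DecidableEq α] (G : Subgroup (Equiv.Perm α)) (hG : MulAction.IsMultiplyPretransitive G α 4) (x : Fin 4 ↪ α) (hodd : Odd (Nat.card (MulAction.stabilizer G x))) : ((Fintype.card α = 4 ∨ Fintype.card α = 5) ∧ G = ⊤) ∨ ((Fintype.card α = 6 ∨ Fintype.card α = 7) ∧ G = alternatingGroup α) ∨ (Fintype.card α = 11 ∧ Nat.card G = 7920) := by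
  classical
  have hn4 : 4 ≤ Fintype.card α := by simpa using Fintype.card_le_of_injective x x.injective
  set n := Fintype.card α with hn
  have hcard : Nat.card G = n.descFactorial 4 * Nat.card (MulAction.stabilizer G x) := by
    have htr : MulAction.orbit G x = Set.univ :=
      Set.eq_univ_of_forall fun e => MulAction.isMultiplyPretransitive_iff.1 hG x e
    rw [← Nat.card_congr (MulAction.orbitProdStabilizerEquivGroup G x), Nat.card_prod]
    congr 1
    refine (Nat.card_congr ((Equiv.setCongr ?_).trans (Equiv.Set.univ (Fin 4 ↪ α)))).trans ?_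
    · exact htr
    · rw [Nat.card_eq_fintype_card, Fintype.card_embedding_eq, Fintype.card_fin]
  have hindex : G.index * Nat.card G = n.factorial := by
    rw [G.index_mul_card, Nat.card_perm, Nat.card_eq_fintype_card]
  have h := hyp_of_odd G hG x hodd
  set S := Nat.card (MulAction.stabilizer G x) with hS
  rcases (by omega : n = 4 ∨ n = 5 ∨ n = 6 ∨ n = 7 ∨ 8 ≤ n) with e | e | e | e | e
  · refine Or.inl ⟨Or.inl e, Subgroup.index_eq_one.1 ?_⟩
    rw [hcard, e, show Nat.descFactorial 4 4 = 24 by decide, show Nat.factorial 4 = 24 by decide] at hindex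
    exact Nat.eq_one_of_mul_eq_one_right (show G.index * S = 1 by linarith)
  · refine Or.inl ⟨Or.inr e, Subgroup.index_eq_one.1 ?_⟩
    rw [hcard, e, show Nat.descFactorial 5 4 = 120 by decide, show Nat.factorial 5 = 120 by decide] at hindex
    exact Nat.eq_one_of_mul_eq_one_right (show G.index * S = 1 by linarith)
  · exact Or.inr (Or.inl ⟨Or.inl e, eq_alt G (Or.inl e) hindex hcard (hS ▸ hodd)⟩)
  · exact Or.inr (Or.inl ⟨Or.inr e, eq_alt G (Or.inr e) hindex hcard (hS ▸ hodd)⟩)
  haveI := Fintype.ofFinite G
  rcases Nat.even_or_odd n with he | ho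
  · exact (Lib.FourTrans.even_false h e he).elim
  have h9 : 9 ≤ n := by
    rw [Nat.odd_iff] at ho
    omega
  have hbot : ∀ y : Fin 4 ↪ α, MulAction.stabilizer G y = ⊥ := by
    intro y
    refine (Subgroup.eq_bot_iff_forall _).2 fun g hg => ?_
    have hy : ∀ i, g • y i = y i := fun i => DFunLike.congr_fun (MulAction.mem_stabilizer_iff.1 hg) i
    have hf : Lib.FourTrans.Four (y 0) (y 1) (y 2) (y 3) := by
      simp [Lib.FourTrans.Four, y.injective.eq_iff]
    have hmem : g ∈ Lib.FourTrans.stab4 G (y 0) (y 1) (y 2) (y 3) :=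
      Lib.FourTrans.mem_stab4.2 ⟨hy 0, hy 1, hy 2, hy 3⟩
    rwa [Lib.FourTrans.odd_stab4 h h9 ho hf, Subgroup.mem_bot] at hmem
  have hsharp := Lib.JordanSharp.Sharp.of_perm hG hbot
  rcases Lib.JordanSharp.four_degree hsharp hn4 with d | d | d | d <;>
    [omega; omega; omega; skip]
  refine Or.inr (Or.inr ⟨d, ?_⟩)
  rw [Lib.JordanSharp.Sharp.card_group hsharp hn4, d]
  decide

end Cfsg.Agent.S4221
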