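import Cfsg.Statements.S4222
import Mathlib
-- import your own Cfsg.Agent.* helpers here

set_option autoImplicit false
open Cfsg

namespace Cfsg.Agent.S4222

/-- If a normal subgroup `N` of a finite group is complete (its centre is trivial and every automorphism of `N` is inner), then the group is the internal direct product of `N` and the centralizer of `N`: the centralizer is a complement to `N`. -/
theorem result {T : Type*} [Group T] [Finite T] (N : Subgroup T) [N.Normal] (hz : Subgroup.center ↥N = ⊥) (ha : Function.Surjective (MulAut.conj : ↥N →* MulAut ↥N)) : (Subgroup.centralizer (N : Set T)).IsComplement' N := by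
  apply Subgroup.isComplement'_of_disjoint_and_mul_eq_univ
  · rw [Subgroup.disjoint_def]
    intro x hxC hxN
    have h1 : (⟨x, hxN⟩ : N) ∈ Subgroup.center N :=
      Subgroup.mem_center_iff.2 fun n => Subtype.ext (Subgroup.mem_centralizer_iff.1 hxC n n.2)
    rw [hz, Subgroup.mem_bot] at h1
    exact congrArg Subtype.val h1
  · refine Set.eq_univ_of_forall fun t => ?_
    obtain ⟨n, hn⟩ := ha (MulAut.conjNormal t)
    refine Set.mem_mul.2 ⟨t * (n : T)⁻¹, ?_, n, n.2, by group⟩
    rw [SetLike.mem_coe, Subgroup.mem_centralizer_iff]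
    intro m hm
    have key : ∀ k : N, (n : T) * k * (n : T)⁻¹ = t * k * t⁻¹ := fun k => by
      have := congrArg (fun φ : MulAut N => (φ k : T)) hn
      simpa using this
    have hk : (n : T)⁻¹ * m * n ∈ N := mul_mem (mul_mem (inv_mem n.2) hm) n.2
    have h2 := key ⟨_, hk⟩
    simp only at h2
    calc m * (t * (n : T)⁻¹) = ((n : T) * ((n : T)⁻¹ * m * n) * (n : T)⁻¹) * (t * (n : T)⁻¹) := by group
      _ = (t * ((n : T)⁻¹ * m * n) * t⁻¹) * (t * (n : T)⁻¹) := by rw [h2]
      _ = _ := by group

end Cfsg.Agent.S4222
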