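import Cfsg.Statements.S4223
import Cfsg.Agent.Lib.KRS.Basic

set_option autoImplicit false
open Cfsg

namespace Cfsg.Agent.S4223

universe u v

open Cfsg.Agent.Lib.KRS in
theorem aux : ∀ (m n : ℕ) {A : Fin m → Type u} {B : Fin n → Type v} [∀ i, Group (A i)] [∀ j, Group (B j)]
    [∀ i, Finite (A i)], (∀ i, Indec (A i)) → (∀ j, Indec (B j)) →
    ∀ (_ : ((i : Fin m) → A i) ≃* ((j : Fin n) → B j)),
    ∃ σ : Fin m ≃ Fin n, ∀ i, Nonempty (A i ≃* B (σ i)) := by
  intro m
  induction m with
  | zero =>
    intro n A B _ _ _ _ hB e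
    cases n with
    | zero => exact ⟨Equiv.refl _, fun i => i.elim0⟩
    | succ n =>
      exfalso
      obtain ⟨x, hx⟩ := @exists_ne (B 0) (hB 0).1 1
      apply hx
      have h : e.symm (Pi.mulSingle 0 x) = 1 := funext fun i => i.elim0
      rw [MulEquiv.map_eq_one_iff] at h
      simpa using congrFun h 0
  | succ m ih =>
    intro n A B _ _ _ hA hB e
    cases n with
    | zero =>
      exfalso
      obtain ⟨x, hx⟩ := @exists_ne (A 0) (hA 0).1 1
      apply hx
      have h : e (Pi.mulSingle 0 x) = 1 := funext fun i => i.elim0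
      rw [MulEquiv.map_eq_one_iff] at h
      simpa using congrFun h 0
    | succ n =>
      obtain ⟨j, ⟨e0⟩, ⟨e'⟩⟩ := exchange (hA 0) hB e
      obtain ⟨σ, hσ⟩ := ih n (fun i => hA i.succ) (fun k => hB (j.succAbove k)) e'
      refine ⟨(finSuccEquiv m).trans (σ.optionCongr.trans (finSuccEquiv' j).symm), fun i => ?_⟩
      induction i using Fin.cases with
      | zero =>
        have : ((finSuccEquiv m).trans (σ.optionCongr.trans (finSuccEquiv' j).symm)) 0 = j := by
          simp
        rw [this]
        exact ⟨e0⟩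
      | succ i =>
        have : ((finSuccEquiv m).trans (σ.optionCongr.trans (finSuccEquiv' j).symm)) i.succ
            = j.succAbove (σ i) := by
          simp
        rw [this]
        exact hσ i

/-- If a finite group is isomorphic both to a direct product of `m` directly indecomposable nontrivial groups and to a direct product of `n` such groups (a group is directly indecomposable when it is not the internal direct product of two nontrivial normal subgroups), then `m = n` and the factors are isomorphic in pairs after a suitable matching. -/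
theorem result {m n : ℕ} {A : Fin m → Type*} {B : Fin n → Type*} [∀ i, Group (A i)] [∀ j, Group (B j)] [∀ i, Finite (A i)] [∀ j, Finite (B j)] (hA : ∀ i, Nontrivial (A i) ∧ ∀ H K : Subgroup (A i), H.Normal → K.Normal → H ⊓ K = ⊥ → H ⊔ K = ⊤ → H = ⊥ ∨ K = ⊥) (hB : ∀ j, Nontrivial (B j) ∧ ∀ H K : Subgroup (B j), H.Normal → K.Normal → H ⊓ K = ⊥ → H ⊔ K = ⊤ → H = ⊥ ∨ K = ⊥) (e : ((i : Fin m) → A i) ≃* ((j : Fin n) → B j)) : ∃ σ : Fin m ≃ Fin n, ∀ i, Nonempty (A i ≃* B (σ i)) :=
  aux m n hA hB e

end Cfsg.Agent.S4223
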