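import Cfsg.Statements.S4227
import Cfsg.Agent.Lib.HallHigman.PLength
import Cfsg.Agent.Lib.HallHigman.Solvable
import Cfsg.Agent.Lib.Char.Burnside

set_option autoImplicit false
open Cfsg

namespace Cfsg.Agent.S4227

open Cfsg.Agent.Lib in

/-- A finite group in which every element has order dividing `6` has `2`-length at most `1` and `3`-length at most `1`. -/
theorem result {G : Type*} [Group G] [Finite G] (h : ∀ x : G, x ^ 6 = 1) : Cfsg.PLengthLE 2 1 G ∧ Cfsg.PLengthLE 3 1 G := by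
  haveI h2f : Fact (Nat.Prime 2) := ⟨Nat.prime_two⟩
  haveI h3f : Fact (Nat.Prime 3) := ⟨Nat.prime_three⟩
  have hpr : ∀ r : ℕ, r.Prime → r ∣ Nat.card G → r = 2 ∨ r = 3 := by
    intro r hr hd
    haveI := Fact.mk hr
    obtain ⟨x, hx⟩ := exists_prime_orderOf_dvd_card' r hd
    have h6 : r ∣ 2 * 3 := hx ▸ orderOf_dvd_of_pow_eq_one (h x)
    rcases hr.dvd_mul.mp h6 with h2 | h3
    · exact Or.inl ((Nat.prime_dvd_prime_iff_eq hr Nat.prime_two).mp h2)
    · exact Or.inr ((Nat.prime_dvd_prime_iff_eq hr Nat.prime_three).mp h3)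
  haveI : Group.IsSolvable G :=
    Lib.Char.isSolvable_of_card_eq_two_primes Nat.prime_two Nat.prime_three _ G rfl hpr
  have hsyl : ∀ (p e : ℕ) [Fact p.Prime], Nat.Coprime p e → 6 = p * e →
      ∀ (P : Sylow p G), ∀ x ∈ (P : Subgroup G), x ^ p = 1 := by
    intro p e _ hcop h6 P x hx
    obtain ⟨k, hk⟩ := P.isPGroup' ⟨x, hx⟩
    have h1 : (x ^ p) ^ p ^ k = 1 := by
      rw [← pow_mul, mul_comm, pow_mul, show x ^ p ^ k = 1 from congrArg Subtype.val hk, one_pow]
    have h2 : (x ^ p) ^ e = 1 := by rw [← pow_mul, ← h6]; exact h x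
    have h3 := pow_gcd_eq_one.mpr ⟨h1, h2⟩
    rwa [show Nat.gcd (p ^ k) e = 1 from hcop.pow_left k, pow_one] at h3
  have hab : ∀ P : Sylow 2 G, IsMulCommutative (P : Subgroup G) := fun P => ⟨⟨fun a b => by
    have hinv : ∀ c : (P : Subgroup G), c⁻¹ = c := fun c => inv_eq_of_mul_eq_one_right
      (Subtype.ext ((sq (c : G)).symm.trans (hsyl 2 3 (by decide) rfl P c c.2)))
    rw [← hinv (a * b), mul_inv_rev, hinv, hinv]⟩⟩
  refine ⟨?_, ?_⟩
  · refine Lib.HallHigman.pLengthLE_exponent (Lib.HallHigman.isPSolvable_of_isSolvable 2) 1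
      (fun x hx => ?_) fun n₀ q j h1 h1' hq hne hj heq => ?_
    · exact Lib.HallHigman.pow_eq_one_of_sylow (e := 1) (fun P x hx => by
        rw [pow_one]; exact hsyl 2 3 (by decide) rfl P x hx) x hx
    · exfalso
      rw [show n₀ = 1 by omega, pow_one] at heq
      have := Nat.one_lt_pow (by omega : j ≠ 0) hq.one_lt
      omega
  · refine Lib.HallHigman.pLengthLE_exponent (Lib.HallHigman.isPSolvable_of_isSolvable 3) 1
      (fun x hx => ?_) fun n₀ q j h1 h1' hq hne hj heq => ?_
    · exact Lib.HallHigman.pow_eq_one_of_sylow (e := 1) (fun P x hx => by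
        rw [pow_one]; exact hsyl 3 2 (by decide) rfl P x hx) x hx
    · rw [show n₀ = 1 by omega, pow_one] at heq
      have hq2 : q = 2 := by
        have hd : q ∣ 2 := by
          rw [show (2 : ℕ) = q ^ j from heq]
          exact dvd_pow_self q (by omega)
        exact (Nat.prime_dvd_prime_iff_eq hq Nat.prime_two).mp hd
      subst hq2
      exact ⟨Classical.arbitrary _, hab _⟩

end Cfsg.Agent.S4227
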