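import Cfsg.Statements.S4274
import Cfsg.Agent.Lib.SmallSimple.Order175560
import Cfsg.Agent.Lib.Classical.Order
import Cfsg.Agent.S3996
import Cfsg.Agent.S0111
import Cfsg.Agent.S0999

set_option autoImplicit false
open Cfsg

namespace Cfsg.Agent.S4274

open Cfsg.Agent.Lib.SmallSimple.Order175560
open Cfsg.Agent.S3996 (N N_eq N_one)

universe u

section Basic

variable {G : Type*} [Group G] [Finite G]

/-- Order of the centralizer. -/
noncomputable def Cc (x : G) : ℕ := Nat.card (Subgroup.centralizer {x} : Subgroup G)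

/-- Order of the normalizer of the generated subgroup. -/
noncomputable def Nn (x : G) : ℕ := Nat.card (Subgroup.normalizer (Subgroup.zpowers x : Set G))

/-- Number of conjugates of the generated subgroup. -/
noncomputable def nn (x : G) : ℕ := (Subgroup.normalizer (Subgroup.zpowers x : Set G)).index

/-- Number of elements of order `q` commuting with `x`. -/
noncomputable def Aq (x : G) (q : ℕ) : ℕ := Nat.card {y : G // Commute x y ∧ orderOf y = q}

lemma mem_cent {x g : G} : g ∈ (Subgroup.centralizer {x} : Subgroup G) ↔ Commute x g := by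
  rw [Subgroup.mem_centralizer_singleton_iff]
  exact ⟨fun h => h.symm, fun h => h.symm⟩

lemma centralizer_zpowers (x : G) :
    Subgroup.centralizer (Subgroup.zpowers x : Set G) = Subgroup.centralizer {x} := by
  rw [Subgroup.zpowers_eq_closure, Subgroup.centralizer_closure]

lemma fact_one {p d : ℕ} (hp : p.Prime) (hd0 : d ≠ 0) (hd : p ∣ d) (hp2 : ¬ p ^ 2 ∣ d) :
    d.factorization p = 1 := by
  have h1 := (hp.dvd_iff_one_le_factorization hd0).1 hd
  have h2 : ¬ 2 ≤ d.factorization p := fun h => hp2 ((hp.pow_dvd_iff_le_factorization hd0).2 h)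
  omega

/-- The Sylow subgroup generated by an element of prime order. -/
noncomputable def sylOf {p : ℕ} [hp : Fact p.Prime] (hp2 : ¬ p ^ 2 ∣ Nat.card G) (x : G)
    (hx : orderOf x = p) : Sylow p G :=
  Sylow.ofCard (Subgroup.zpowers x) (by
    rw [Nat.card_zpowers, hx, fact_one hp.out Nat.card_pos.ne' (hx ▸ orderOf_dvd_natCard x) hp2, pow_one])

lemma coe_sylOf {p : ℕ} [hp : Fact p.Prime] (hp2 : ¬ p ^ 2 ∣ Nat.card G) (x : G) (hx : orderOf x = p) :
    (sylOf hp2 x hx : Subgroup G) = Subgroup.zpowers x := rfl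

lemma sylow_card {p : ℕ} [hp : Fact p.Prime] (hd : p ∣ Nat.card G) (hp2 : ¬ p ^ 2 ∣ Nat.card G)
    (P : Sylow p G) : Nat.card (P : Subgroup G) = p := by
  rw [P.card_eq_multiplicity, fact_one hp.out Nat.card_pos.ne' hd hp2, pow_one]

lemma exists_conj {p : ℕ} [hp : Fact p.Prime] (hp2 : ¬ p ^ 2 ∣ Nat.card G) {x y : G}
    (hx : orderOf x = p) (hy : orderOf y = p) :
    ∃ g : G, ∀ z : G, Commute y z ↔ Commute x (g⁻¹ * z * g) := by
  obtain ⟨g, hg⟩ := MulAction.exists_smul_eq G (sylOf hp2 x hx) (sylOf hp2 y hy)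
  refine ⟨g, fun z => ?_⟩
  set y' := g⁻¹ * y * g with hy'
  have hmem : y' ∈ Subgroup.zpowers x := by
    have h1 : y ∈ ((g • sylOf hp2 x hx : Sylow p G) : Subgroup G) := by
      rw [hg, coe_sylOf]; exact Subgroup.mem_zpowers y
    rw [Sylow.coe_subgroup_smul, Subgroup.mem_pointwise_smul_iff_inv_smul_mem, coe_sylOf] at h1
    simpa [y', MulAut.smul_def] using h1
  have hoy : orderOf y' = p := by
    rw [hy', show g⁻¹ * y * g = MulAut.conj g⁻¹ y by simp, MulEquiv.orderOf_eq, hy]
  have heq : Subgroup.zpowers y' = Subgroup.zpowers x :=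
    Subgroup.eq_of_le_of_card_ge (Subgroup.zpowers_le.2 hmem) (by rw [Nat.card_zpowers, Nat.card_zpowers, hx, hoy])
  have key : ∀ w, Commute y' w ↔ Commute x w := by
    intro w
    constructor
    · intro h
      obtain ⟨i, hi⟩ := Subgroup.mem_zpowers_iff.1 (heq.symm ▸ Subgroup.mem_zpowers x)
      rw [← hi]; exact h.zpow_left i
    · intro h
      obtain ⟨i, hi⟩ := Subgroup.mem_zpowers_iff.1 hmem
      rw [← hi]; exact h.zpow_left i
  rw [← key]
  constructor
  · intro h
    simpa [y'] using h.map (MulAut.conj g⁻¹ : G →* G)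
  · intro h
    simpa [y', mul_assoc] using h.map (MulAut.conj g : G →* G)

lemma Cc_eq {p : ℕ} [hp : Fact p.Prime] (hp2 : ¬ p ^ 2 ∣ Nat.card G) {x y : G}
    (hx : orderOf x = p) (hy : orderOf y = p) : Cc y = Cc x := by
  obtain ⟨g, hg⟩ := exists_conj hp2 hx hy
  refine Nat.card_congr ((MulAut.conj g⁻¹).toEquiv.subtypeEquiv fun z => ?_)
  change z ∈ Subgroup.centralizer {y} ↔ MulAut.conj g⁻¹ z ∈ Subgroup.centralizer {x}
  rw [mem_cent, mem_cent, hg]
  simp

lemma Aq_eq {p : ℕ} [hp : Fact p.Prime] (hp2 : ¬ p ^ 2 ∣ Nat.card G) {x y : G}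
    (hx : orderOf x = p) (hy : orderOf y = p) (q : ℕ) : Aq y q = Aq x q := by
  obtain ⟨g, hg⟩ := exists_conj hp2 hx hy
  refine Nat.card_congr ((MulAut.conj g⁻¹).toEquiv.subtypeEquiv fun z => ?_)
  change Commute y z ∧ orderOf z = q ↔ Commute x (MulAut.conj g⁻¹ z) ∧ orderOf (MulAut.conj g⁻¹ z) = q
  rw [hg, MulEquiv.orderOf_eq]
  simp

lemma card_sylow_eq_nn {p : ℕ} [hp : Fact p.Prime] (hp2 : ¬ p ^ 2 ∣ Nat.card G) {x : G} (hx : orderOf x = p) :
    Nat.card (Sylow p G) = nn x := by
  rw [(sylOf hp2 x hx).card_eq_index_normalizer]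
  rfl

/-- The number of elements of prime order. -/
lemma N_prime_eq {p : ℕ} [hp : Fact p.Prime] (hp2 : ¬ p ^ 2 ∣ Nat.card G) {x : G} (hx : orderOf x = p) :
    N G p = nn x * (p - 1) := by
  classical
  let f : {y : G // orderOf y = p} → Sylow p G := fun y => sylOf hp2 y.1 y.2
  have hd : p ∣ Nat.card G := hx ▸ orderOf_dvd_natCard x
  haveI := Fintype.ofFinite G
  haveI := Fintype.ofFinite (Sylow p G)
  have hfib : ∀ P : Sylow p G, Nat.card {y // f y = P} = p - 1 := by
    intro P
    haveI := Fintype.ofFinite (P : Subgroup G)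
    have hc : Fintype.card {z : (P : Subgroup G) // ¬ z = 1} = p - 1 := by
      rw [Fintype.card_subtype_compl, Fintype.card_subtype_eq, ← Nat.card_eq_fintype_card,
        sylow_card hd hp2 P]
    rw [← hc, ← Nat.card_eq_fintype_card]
    refine Nat.card_congr
      { toFun := fun y => ⟨⟨y.1.1, by
          have h := congrArg (fun Q : Sylow p G => (Q : Subgroup G)) y.2
          rw [show (P : Subgroup G) = Subgroup.zpowers y.1.1 from h.symm]; exact Subgroup.mem_zpowers _⟩,
          fun h => by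
            have h1 := y.1.2
            rw [show y.1.1 = 1 from congrArg Subtype.val h, orderOf_one] at h1
            exact hp.out.one_lt.ne h1⟩
        invFun := fun z => ⟨⟨z.1.1, by
          have h1 : orderOf z.1.1 ∣ p := by
            have h := orderOf_dvd_natCard z.1
            rwa [sylow_card hd hp2 P, ← Subgroup.orderOf_coe] at h
          rcases hp.out.eq_one_or_self_of_dvd _ h1 with h | h
          · exact absurd (Subtype.ext (orderOf_eq_one_iff.1 h)) z.2
          · exact h⟩, by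
          apply Sylow.ext
          change (sylOf hp2 z.1.1 _ : Subgroup G) = P
          rw [coe_sylOf]
          refine Subgroup.eq_of_le_of_card_ge (Subgroup.zpowers_le.2 z.1.2) ?_
          rw [sylow_card hd hp2 P, Nat.card_zpowers]
          rcases hp.out.eq_one_or_self_of_dvd (orderOf z.1.1) (by
            have h := orderOf_dvd_natCard z.1
            rwa [sylow_card hd hp2 P, ← Subgroup.orderOf_coe] at h) with h | h
          · exact absurd (Subtype.ext (orderOf_eq_one_iff.1 h)) z.2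
          · exact h.ge⟩
        left_inv := fun y => by ext; rfl
        right_inv := fun z => by ext; rfl }
  rw [N, Nat.card_congr (Equiv.sigmaFiberEquiv f).symm, Nat.card_sigma]
  simp only [hfib]
  rw [Finset.sum_const, Finset.card_univ, smul_eq_mul, ← Nat.card_eq_fintype_card, card_sylow_eq_nn hp2 hx]

lemma Nn_mul_nn (x : G) : Nn x * nn x = Nat.card G := Subgroup.card_mul_index _

lemma nn_pos (x : G) : 0 < nn x := Nat.pos_of_ne_zero Subgroup.index_ne_zero_of_finite

lemma Nn_eq (x : G) : Nat.card G / nn x = Nn x := by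
  rw [← Nn_mul_nn x, Nat.mul_div_cancel _ (nn_pos x)]

lemma nn_mod {p : ℕ} [hp : Fact p.Prime] (hp2 : ¬ p ^ 2 ∣ Nat.card G) {x : G} (hx : orderOf x = p) :
    nn x % p = 1 := by
  have h := card_sylow_modEq_one p G
  rw [card_sylow_eq_nn hp2 hx] at h
  rw [h, Nat.mod_eq_of_lt hp.out.one_lt]

lemma Cc_dvd_card (x : G) : Cc x ∣ Nat.card G := Subgroup.card_subgroup_dvd_card _

lemma dvd_Cc {p : ℕ} {x y : G} (hy : orderOf y = p) (hc : Commute x y) : p ∣ Cc x := by
  have h : orderOf (⟨y, mem_cent.2 hc⟩ : (Subgroup.centralizer {x} : Subgroup G)) ∣ Cc x := orderOf_dvd_natCard _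
  rwa [Subgroup.orderOf_mk, hy] at h

lemma Cc_dvd_Nn (x : G) : Cc x ∣ Nn x := by
  apply Subgroup.card_dvd_of_le
  intro g hg
  rw [mem_cent] at hg
  rw [Subgroup.mem_normalizer_iff]
  intro z
  constructor
  · intro hz
    obtain ⟨i, rfl⟩ := Subgroup.mem_zpowers_iff.1 hz
    rw [← (hg.zpow_left i).eq, mul_inv_cancel_right]; exact hz
  · intro hz
    obtain ⟨i, hi⟩ := Subgroup.mem_zpowers_iff.1 hz
    have : z = x ^ i := by
      rw [show z = g⁻¹ * (g * z * g⁻¹) * g by group, ← hi, mul_assoc, (hg.zpow_left i).eq, inv_mul_cancel_left]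
    rw [this]; exact zpow_mem (Subgroup.mem_zpowers x) i

lemma div_dvd {p : ℕ} [hp : Fact p.Prime] {x : G} (hx : orderOf x = p) :
    Nn x / Cc x ∣ p - 1 := by
  set H := Subgroup.zpowers x with hH
  have hk : Nat.card H.normalizerMonoidHom.ker = Cc x := by
    rw [Subgroup.normalizerMonoidHom_ker,
      Nat.card_congr (Subgroup.subgroupOfEquivOfLe (by
        intro g hg
        rw [centralizer_zpowers, mem_cent] at hg
        rw [Subgroup.mem_normalizer_iff]
        intro z
        constructor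
        · intro hz
          obtain ⟨i, rfl⟩ := Subgroup.mem_zpowers_iff.1 hz
          rw [← (hg.zpow_left i).eq, mul_inv_cancel_right]; exact hz
        · intro hz
          obtain ⟨i, hi⟩ := Subgroup.mem_zpowers_iff.1 hz
          have : z = x ^ i := by
            rw [show z = g⁻¹ * (g * z * g⁻¹) * g by group, ← hi, mul_assoc, (hg.zpow_left i).eq, inv_mul_cancel_left]
          rw [this]; exact zpow_mem (Subgroup.mem_zpowers x) i)).toEquiv, centralizer_zpowers, Cc]
  have h1 := H.normalizerMonoidHom.ker.card_mul_index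
  rw [hk, Subgroup.index_ker] at h1
  have h2 : Nat.card H.normalizerMonoidHom.range ∣ Nat.card (MulAut H) := Subgroup.card_subgroup_dvd_card _
  rw [IsCyclic.card_mulAut, Nat.card_zpowers, hx, Nat.totient_prime hp.out] at h2
  rw [Nn, ← h1, Nat.mul_div_cancel_left]
  · exact h2
  · exact Nat.card_pos

lemma Aq_eq_N (x : G) (q : ℕ) : Aq x q = N (Subgroup.centralizer {x} : Subgroup G) q := by
  refine Nat.card_congr
    { toFun := fun y => ⟨⟨y.1, mem_cent.2 y.2.1⟩, by rw [Subgroup.orderOf_mk]; exact y.2.2⟩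
      invFun := fun y => ⟨y.1.1, mem_cent.1 y.1.2, by rw [Subgroup.orderOf_coe]; exact y.2⟩
      left_inv := fun y => rfl
      right_inv := fun y => rfl }

lemma card_pairs {p : ℕ} [hp : Fact p.Prime] (hp2 : ¬ p ^ 2 ∣ Nat.card G) {x : G} (hx : orderOf x = p) (q : ℕ) :
    Nat.card {z : G × G // orderOf z.1 = p ∧ Commute z.1 z.2 ∧ orderOf z.2 = q} = N G p * Aq x q := by
  classical
  haveI := Fintype.ofFinite G
  rw [Nat.card_congr
    (show {z : G × G // orderOf z.1 = p ∧ Commute z.1 z.2 ∧ orderOf z.2 = q} ≃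
        Σ a : {a : G // orderOf a = p}, {y : G // Commute a.1 y ∧ orderOf y = q} from
      { toFun := fun z => ⟨⟨z.1.1, z.2.1⟩, ⟨z.1.2, z.2.2⟩⟩
        invFun := fun s => ⟨(s.1.1, s.2.1), s.1.2, s.2.2⟩
        left_inv := fun z => rfl
        right_inv := fun s => rfl }), Nat.card_sigma]
  have h : ∀ a : {a : G // orderOf a = p}, Nat.card {y : G // Commute a.1 y ∧ orderOf y = q} = Aq x q :=
    fun a => Aq_eq hp2 hx a.2 q
  simp only [h]
  rw [Finset.sum_const, Finset.card_univ, smul_eq_mul, N, Nat.card_eq_fintype_card]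

lemma pairs_swap (p q : ℕ) :
    Nat.card {z : G × G // orderOf z.1 = p ∧ Commute z.1 z.2 ∧ orderOf z.2 = q} =
      Nat.card {z : G × G // orderOf z.1 = q ∧ Commute z.1 z.2 ∧ orderOf z.2 = p} :=
  Nat.card_congr ((Equiv.prodComm G G).subtypeEquiv fun _ =>
    ⟨fun h => ⟨h.2.2, h.2.1.symm, h.1⟩, fun h => ⟨h.2.2, h.2.1.symm, h.1⟩⟩)

lemma pairs_le {p q : ℕ} (hp : p.Prime) (hq : q.Prime) (hpq : p ≠ q) :
    Nat.card {z : G × G // orderOf z.1 = p ∧ Commute z.1 z.2 ∧ orderOf z.2 = q} ≤ N G (p * q) := by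
  have hcop : Nat.Coprime p q := (Nat.coprime_primes hp hq).2 hpq
  refine Nat.card_le_card_of_injective
    (fun z => (⟨z.1.1 * z.1.2, by
      rw [z.2.2.1.orderOf_mul_eq_mul_orderOf_of_coprime (by rw [z.2.1, z.2.2.2]; exact hcop), z.2.1, z.2.2.2]⟩ :
        {g : G // orderOf g = p * q})) ?_
  intro z w h
  have h' : z.1.1 * z.1.2 = w.1.1 * w.1.2 := congrArg Subtype.val h
  obtain ⟨t, -, ht⟩ := Nat.exists_mul_mod_eq_one_of_coprime hcop.symm hp.one_lt
  have hq' : z.1.1 ^ q = w.1.1 ^ q := by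
    have e := congrArg (fun g => g ^ q) h'
    simp only [z.2.2.1.mul_pow, w.2.2.1.mul_pow] at e
    have e1 : z.1.2 ^ q = 1 := orderOf_dvd_iff_pow_eq_one.1 (dvd_of_eq z.2.2.2)
    have e2 : w.1.2 ^ q = 1 := orderOf_dvd_iff_pow_eq_one.1 (dvd_of_eq w.2.2.2)
    rwa [e1, e2, mul_one, mul_one] at e
  have ha : z.1.1 = w.1.1 := by
    have e := congrArg (fun g => g ^ t) hq'
    simp only [← pow_mul] at e
    rwa [← pow_mod_orderOf z.1.1, ← pow_mod_orderOf w.1.1, z.2.1, w.2.1, ht, pow_one, pow_one] at e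
  apply Subtype.ext
  apply Prod.ext ha
  rw [ha] at h'
  exact mul_left_cancel h'

lemma sum_le_card (s : Finset ℕ) : ∑ m ∈ s, N G m ≤ Nat.card G := by
  classical
  haveI := Fintype.ofFinite G
  have h : (Finset.univ.filter fun g : G => orderOf g ∈ s).card ≤ Nat.card G := by
    rw [Nat.card_eq_fintype_card]; exact Finset.card_le_univ _
  refine le_trans (le_of_eq ?_) h
  rw [Finset.card_eq_sum_card_fiberwise (f := fun g : G => orderOf g)
    (s := Finset.univ.filter fun g : G => orderOf g ∈ s) (t := s)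
    (fun g hg => (Finset.mem_filter.1 hg).2)]
  refine Finset.sum_congr rfl fun m hm => ?_
  rw [N_eq]
  congr 1
  ext g
  simp only [Finset.mem_filter, Finset.mem_univ, true_and]
  exact ⟨fun h => ⟨h ▸ hm, h⟩, fun h => h.2⟩

end Basic

lemma mem_mulL {A B : ℕ} {l₁ l₂ : List ℕ} (h₁ : ∀ a, a ∣ A → a ∈ l₁) (h₂ : ∀ b, b ∣ B → b ∈ l₂)
    {x : ℕ} (hx : x ∣ A * B) : x ∈ mulL l₁ l₂ := by
  obtain ⟨a, b, ha, hb, rfl⟩ := Nat.dvd_mul.1 hx
  exact List.mem_flatMap.2 ⟨a, h₁ a ha, List.mem_map.2 ⟨b, h₂ b hb, rfl⟩⟩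

lemma mem_small {n : ℕ} (l : List ℕ) (h : ∀ a < n + 1, a ∣ n → a ∈ l) (hn : 0 < n) {a : ℕ} (ha : a ∣ n) : a ∈ l :=
  h a (Nat.lt_succ_of_le (Nat.le_of_dvd hn ha)) ha

lemma mem_dl {x : ℕ} (hx : x ∣ 175560) : x ∈ dl := by
  refine mem_mulL (A := 8) (B := 21945) (fun a => mem_small _ (by decide) (by norm_num)) ?_ hx
  intro b hb
  refine mem_mulL (A := 3) (B := 7315) (fun a => mem_small _ (by decide) (by norm_num)) ?_ hb
  intro c hc
  refine mem_mulL (A := 5) (B := 1463) (fun a => mem_small _ (by decide) (by norm_num)) ?_ hc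
  intro d hd
  refine mem_mulL (A := 7) (B := 209) (fun a => mem_small _ (by decide) (by norm_num)) ?_ hd
  intro e he
  exact mem_mulL (A := 11) (B := 19) (fun a => mem_small _ (by decide) (by norm_num))
    (fun a => mem_small _ (by decide) (by norm_num)) he

lemma not_sq {p d : ℕ} (hp : p ∈ [19, 11, 7, 5, 3]) (hd : d ∣ 175560) : ¬ p ^ 2 ∣ d := by
  intro h
  have h' := h.trans hd
  fin_cases hp <;> norm_num at h'

section Simple

variable {G : Type*} [Group G] [Finite G] [IsSimpleGroup G]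

lemma not_comm (hd : Nat.card G ∣ 175560) (h4 : 4 ∣ Nat.card G) : ¬ IsMulCommutative G := by
  intro hc
  letI : CommGroup G := { ‹Group G› with mul_comm := hc.is_comm.comm }
  have hp : (Nat.card G).Prime := IsSimpleGroup.prime_card
  rcases (Nat.dvd_prime hp).1 h4 with h | h
  · omega
  · rw [← h] at hp; norm_num at hp

lemma center_bot (hG : ¬ IsMulCommutative G) : Subgroup.center G = ⊥ := by
  refine (inferInstance : (Subgroup.center G).Normal).eq_bot_or_eq_top.resolve_right fun h => hG ?_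
  exact ⟨⟨fun a b => ((Subgroup.mem_center_iff.1 (h ▸ Subgroup.mem_top a)) b).symm⟩⟩

lemma centralizer_ne_top (hG : ¬ IsMulCommutative G) {u : G} (hu : u ≠ 1) :
    (Subgroup.centralizer {u} : Subgroup G) ≠ ⊤ := by
  intro h
  apply hu
  have h1 : u ∈ Subgroup.center G := Subgroup.mem_center_iff.2 fun g =>
    ((mem_cent.1 (h ▸ Subgroup.mem_top g : g ∈ Subgroup.centralizer {u})).eq).symm
  rwa [center_bot hG, Subgroup.mem_bot] at h1

lemma Nn_ne_Cc (hG : ¬ IsMulCommutative G) {p : ℕ} [hp : Fact p.Prime] (hp2 : ¬ p ^ 2 ∣ Nat.card G) {x : G}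
    (hx : orderOf x = p) : Nn x ≠ Cc x := by
  intro h
  have hle : Subgroup.normalizer ((sylOf hp2 x hx : Subgroup G) : Set G) ≤
      Subgroup.centralizer ((sylOf hp2 x hx : Subgroup G) : Set G) := by
    rw [coe_sylOf, centralizer_zpowers]
    have hsub : (Subgroup.centralizer {x} : Subgroup G) ≤ Subgroup.normalizer (Subgroup.zpowers x : Set G) := by
      intro g hg
      rw [mem_cent] at hg
      rw [Subgroup.mem_normalizer_iff]
      intro z
      constructor
      · intro hz
        obtain ⟨i, rfl⟩ := Subgroup.mem_zpowers_iff.1 hz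
        rw [← (hg.zpow_left i).eq, mul_inv_cancel_right]; exact hz
      · intro hz
        obtain ⟨i, hi⟩ := Subgroup.mem_zpowers_iff.1 hz
        have : z = x ^ i := by
          rw [show z = g⁻¹ * (g * z * g⁻¹) * g by group, ← hi, mul_assoc, (hg.zpow_left i).eq, inv_mul_cancel_left]
        rw [this]; exact zpow_mem (Subgroup.mem_zpowers x) i
    exact (Subgroup.eq_of_le_of_card_ge hsub h.le).ge
  have hcompl := MonoidHom.ker_transferSylow_isComplement' (sylOf hp2 x hx) hle
  rcases (inferInstance : (MonoidHom.transferSylow (sylOf hp2 x hx) hle).ker.Normal).eq_bot_or_eq_top with hk | hk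
  · rw [hk, Subgroup.isComplement'_bot_left] at hcompl
    apply hG
    have hcyc : IsCyclic G := by
      refine ⟨⟨x, fun g => ?_⟩⟩
      have hg : g ∈ (sylOf hp2 x hx : Subgroup G) := hcompl ▸ Subgroup.mem_top g
      rwa [coe_sylOf] at hg
    exact ⟨⟨fun a b => by letI := hcyc.commGroup; exact mul_comm a b⟩⟩
  · rw [hk, Subgroup.isComplement'_top_left, coe_sylOf, Subgroup.zpowers_eq_bot] at hcompl
    rw [hcompl, orderOf_one] at hx
    exact hp.out.one_lt.ne hx

lemma nn_ne_one (hG : ¬ IsMulCommutative G) {p : ℕ} [hp : Fact p.Prime] {x : G}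
    (hx : orderOf x = p) : nn x ≠ 1 := by
  intro h
  rw [nn, Subgroup.index_eq_one, Subgroup.normalizer_eq_top_iff] at h
  rcases h.eq_bot_or_eq_top with h' | h'
  · rw [Subgroup.zpowers_eq_bot] at h'
    rw [h', orderOf_one] at hx
    exact hp.out.one_lt.ne hx
  · apply hG
    have hcyc : IsCyclic G := ⟨⟨x, fun g => (h'.symm ▸ Subgroup.mem_top g : g ∈ Subgroup.zpowers x)⟩⟩
    exact ⟨⟨fun a b => by letI := hcyc.commGroup; exact mul_comm a b⟩⟩

lemma no_index_two (hG : ¬ IsMulCommutative G) (h4 : 4 ∣ Nat.card G) :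
    ¬ ∃ M : Subgroup G, M.Normal ∧ M.index = 2 := by
  rintro ⟨M, hM, hi⟩
  rcases hM.eq_bot_or_eq_top with rfl | rfl
  · rw [Subgroup.index_bot] at hi; omega
  · rw [Subgroup.index_top] at hi; omega

/-- Moving an involution into a subgroup of index at most two of a Sylow `2`-subgroup. -/
lemma conj_into (hG : ¬ IsMulCommutative G) (h4 : 4 ∣ Nat.card G) (S : Sylow 2 G) (A : Subgroup G)
    (hA : A ≤ (S : Subgroup G)) (hi : A.relIndex (S : Subgroup G) = 1 ∨ A.relIndex (S : Subgroup G) = 2)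
    {y : G} (hy : orderOf y = 2) : ∃ g : G, g * y * g⁻¹ ∈ A := by
  haveI : Fact (Nat.Prime 2) := ⟨Nat.prime_two⟩
  have hyp : IsPGroup 2 (Subgroup.zpowers y) :=
    IsPGroup.of_card (n := 1) (by rw [Nat.card_zpowers, hy, pow_one])
  obtain ⟨T, hT⟩ := hyp.exists_le_sylow
  obtain ⟨g, hg⟩ := MulAction.exists_smul_eq G T S
  have hyS : g * y * g⁻¹ ∈ (S : Subgroup G) := by
    rw [← hg, Sylow.coe_subgroup_smul, Subgroup.mem_pointwise_smul_iff_inv_smul_mem]
    simpa [MulAut.smul_def, mul_assoc] using hT (Subgroup.mem_zpowers y)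
  by_cases hyA : g * y * g⁻¹ ∈ A
  · exact ⟨g, hyA⟩
  rcases hi with hi | hi
  · exact absurd (Subgroup.relIndex_eq_one.1 hi hyS) hyA
  have hu : orderOf (g * y * g⁻¹) = 2 := by
    rw [show g * y * g⁻¹ = MulAut.conj g y from rfl, MulEquiv.orderOf_eq, hy]
  rcases Cfsg.Agent.S0111.result S A hA hi _ hu hyS hyA with ⟨M, hM, hMi, -⟩ | ⟨k, hk⟩
  · exact absurd ⟨M, hM, hMi⟩ (no_index_two hG h4)
  · exact ⟨k * g, by simpa [mul_assoc] using hk⟩

/-- The centralizer of an involution has full `2`-part when a Sylow `2`-subgroup has order at most eight. -/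
lemma sylow_dvd_Cc (hG : ¬ IsMulCommutative G) (h4 : 4 ∣ Nat.card G) (hd : Nat.card G ∣ 175560) {t : G}
    (ht : orderOf t = 2) : ∃ S : Sylow 2 G, Nat.card (S : Subgroup G) ∣ Cc t := by
  haveI : Fact (Nat.Prime 2) := ⟨Nat.prime_two⟩
  have hyp : IsPGroup 2 (Subgroup.zpowers t) :=
    IsPGroup.of_card (n := 1) (by rw [Nat.card_zpowers, ht, pow_one])
  obtain ⟨S, hS⟩ := hyp.exists_le_sylow
  have htS : t ∈ (S : Subgroup G) := hS (Subgroup.mem_zpowers t)
  by_cases hab : ∀ a ∈ (S : Subgroup G), ∀ b ∈ (S : Subgroup G), Commute a b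
  · exact ⟨S, Subgroup.card_dvd_of_le fun g hg => mem_cent.2 (hab t htS g hg)⟩
  obtain ⟨k, hk⟩ := IsPGroup.iff_card.1 S.isPGroup'
  have hk3 : k ≤ 3 := by
    by_contra hlt
    have h16 : 2 ^ 4 ∣ 175560 := ((pow_dvd_pow 2 (show 4 ≤ k by omega)).trans
      (hk ▸ Subgroup.card_subgroup_dvd_card _)).trans hd
    norm_num at h16
  have hex : ∃ s ∈ (S : Subgroup G), orderOf s = 4 := by
    by_contra hno
    push Not at hno
    apply hab
    intro a ha b hb
    have hsq : ∀ c ∈ (S : Subgroup G), c * c = 1 := by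
      intro c hc
      have h1 : orderOf (⟨c, hc⟩ : (S : Subgroup G)) ∣ 2 ^ k := hk ▸ orderOf_dvd_natCard _
      rw [Subgroup.orderOf_mk] at h1
      obtain ⟨i, hik, hi⟩ := (Nat.dvd_prime_pow Nat.prime_two).1 h1
      have hne := hno c hc
      rcases (show i ≤ 1 ∨ i = 2 ∨ i = 3 by omega) with h' | rfl | rfl
      · rw [← pow_two]; exact orderOf_dvd_iff_pow_eq_one.1 (hi ▸ by simpa using pow_dvd_pow 2 h')
      · exact absurd hi hne
      · exfalso
        apply hno (c ^ 2) (pow_mem hc 2)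
        rw [orderOf_pow' c two_ne_zero, hi]; norm_num
    have h1 := hsq a ha
    have h2 := hsq b hb
    have h3 := hsq (a * b) (mul_mem ha hb)
    have ea : a⁻¹ = a := inv_eq_of_mul_eq_one_right h1
    have eb : b⁻¹ = b := inv_eq_of_mul_eq_one_right h2
    have eab : (a * b)⁻¹ = a * b := inv_eq_of_mul_eq_one_right h3
    rw [mul_inv_rev, ea, eb] at eab
    exact eab.symm
  obtain ⟨s, hs, hs4⟩ := hex
  have hQS : Subgroup.zpowers s ≤ (S : Subgroup G) := Subgroup.zpowers_le.2 hs
  have hrel : Nat.card (Subgroup.zpowers s) * (Subgroup.zpowers s).relIndex (S : Subgroup G) = 2 ^ k := by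
    rw [← hk, Subgroup.relIndex, ← Nat.card_congr (Subgroup.subgroupOfEquivOfLe hQS).toEquiv,
      Subgroup.card_mul_index]
  rw [Nat.card_zpowers, hs4] at hrel
  have hr : (Subgroup.zpowers s).relIndex (S : Subgroup G) = 1 ∨ (Subgroup.zpowers s).relIndex (S : Subgroup G) = 2 := by
    interval_cases k <;> omega
  obtain ⟨g, hg⟩ := conj_into hG h4 S _ hQS hr ht
  have huniq : ∀ z ∈ Subgroup.zpowers s, orderOf z = 2 → z = s ^ 2 := by
    intro z hz hz2
    classical
    rw [mem_zpowers_iff_mem_range_orderOf, hs4] at hz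
    simp only [Finset.mem_image, Finset.mem_range] at hz
    obtain ⟨i, hi, rfl⟩ := hz
    interval_cases i
    · simp at hz2
    · rw [pow_one, hs4] at hz2; omega
    · rfl
    · rw [orderOf_pow' s (by norm_num), hs4] at hz2; norm_num at hz2
  have ho2 : orderOf (s ^ 2) = 2 := by rw [orderOf_pow' s two_ne_zero, hs4]; rfl
  have hnorm : ((Subgroup.zpowers s).subgroupOf (S : Subgroup G)).Normal := by
    rcases hr with hr | hr
    · rw [Subgroup.index_eq_one.1 (show ((Subgroup.zpowers s).subgroupOf (S : Subgroup G)).index = 1 from hr)]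
      infer_instance
    · exact Subgroup.normal_of_index_eq_two hr
  have hcz : (S : Subgroup G) ≤ Subgroup.centralizer {s ^ 2} := by
    intro a ha
    rw [mem_cent]
    have h1 : a * s ^ 2 * a⁻¹ ∈ Subgroup.zpowers s := by
      have := hnorm.conj_mem ⟨s ^ 2, hQS (Subgroup.pow_mem _ (Subgroup.mem_zpowers s) 2)⟩
        (Subgroup.mem_subgroupOf.2 (Subgroup.pow_mem _ (Subgroup.mem_zpowers s) 2)) ⟨a, ha⟩
      simpa [Subgroup.mem_subgroupOf] using this
    have h2 := huniq _ h1 (by rw [show a * s ^ 2 * a⁻¹ = MulAut.conj a (s ^ 2) from rfl, MulEquiv.orderOf_eq, ho2])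
    exact (mul_inv_eq_iff_eq_mul.1 h2).symm
  have hgt : g * t * g⁻¹ = s ^ 2 :=
    huniq _ hg (by rw [show g * t * g⁻¹ = MulAut.conj g t from rfl, MulEquiv.orderOf_eq, ht])
  refine ⟨S, (Subgroup.card_dvd_of_le hcz).trans (dvd_of_eq ?_)⟩
  refine Nat.card_congr ((MulAut.conj g⁻¹).toEquiv.subtypeEquiv fun z => ?_)
  change z ∈ Subgroup.centralizer {s ^ 2} ↔ MulAut.conj g⁻¹ z ∈ Subgroup.centralizer {t}
  rw [mem_cent, mem_cent, ← hgt]
  constructor
  · intro h
    simpa [mul_assoc] using h.map (MulAut.conj g⁻¹ : G →* G)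
  · intro h
    simpa [mul_assoc] using h.map (MulAut.conj g : G →* G)

/-- Every proper subgroup containing `x₁₉` normalizes it. -/
def LocalHyp (x : G) : Prop :=
  ∀ K : Subgroup G, K ≠ ⊤ → x ∈ K → K ≤ Subgroup.normalizer (Subgroup.zpowers x : Set G)

lemma card_two_part {d : ℕ} (hd : d ∣ 175560) {k : ℕ} (hk : 2 ^ k ∣ d) : k ≤ 3 := by
  by_contra hlt
  have h16 : 2 ^ 4 ∣ 175560 := ((pow_dvd_pow 2 (show 4 ≤ k by omega)).trans hk).trans hd
  norm_num at h16

/-- Arithmetic data of a simple group. -/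
theorem simple_false (hG : ¬ IsMulCommutative G) (hd : Nat.card G ∣ 175560) (h19 : 19 ∣ Nat.card G)
    (h4 : 4 ∣ Nat.card G) (hbig : 6859 ≤ Nat.card G) (hne : Nat.card G ≠ 175560)
    (hloc : ∀ x : G, orderOf x = 19 → LocalHyp x) : False := by
  classical
  haveI : Fact (Nat.Prime 2) := ⟨Nat.prime_two⟩
  set d := Nat.card G with hdd
  have hps : ∀ p ∈ plist d, p.Prime ∧ p ∣ d ∧ ¬ p ^ 2 ∣ d := by
    intro p hp
    simp only [plist, List.mem_filter, decide_eq_true_eq] at hp
    refine ⟨?_, hp.2, not_sq hp.1 hd⟩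
    have := hp.1
    fin_cases this <;> norm_num
  have hex : ∀ p, ∃ x : G, p ∈ plist d → orderOf x = p := by
    intro p
    by_cases hp : p ∈ plist d
    · haveI : Fact p.Prime := ⟨(hps p hp).1⟩
      obtain ⟨x, hx⟩ := exists_prime_orderOf_dvd_card' (G := G) p (hps p hp).2.1
      exact ⟨x, fun _ => hx⟩
    · exact ⟨1, fun h => absurd h hp⟩
  choose x hx using hex
  let dat : ℕ → Ent := fun p => ⟨p, nn (x p), Cc (x p)⟩
  have hC : ∀ p, Cc (x p) ∈ dl := fun p => mem_dl ((Cc_dvd_card _).trans hd)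
  have hopts : ∀ p ∈ plist d, dat p ∈ opts d p := by
    intro p hp
    obtain ⟨hpp, hpd, hp2⟩ := hps p hp
    haveI : Fact p.Prime := ⟨hpp⟩
    have hxp := hx p hp
    have hn : nn (x p) ∣ d := Dvd.intro_left _ (Nn_mul_nn _)
    simp only [opts, List.mem_flatMap, List.mem_filter, List.mem_map, decide_eq_true_eq]
    refine ⟨nn (x p), ⟨mem_dl (hn.trans hd), nn_mod hp2 hxp, nn_ne_one hG hxp, hn⟩,
      ⟨Cc (x p), ⟨hC p, by rw [Nn_eq]; exact Cc_dvd_Nn _, dvd_Cc hxp (Commute.refl _)⟩, rfl⟩, ?_⟩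
    refine decide_eq_true ?_
    show d / nn (x p) / Cc (x p) ∣ p - 1 ∧ d / nn (x p) ≠ Cc (x p) ∧
      (p = 19 → 2 ∣ Cc (x p) → 4 ∣ d / nn (x p) ∧ (8 ∣ d → 8 ∣ d / nn (x p)))
    rw [show d / nn (x p) = Nn (x p) from Nn_eq _]
    refine ⟨div_dvd hxp, Nn_ne_Cc hG hp2 hxp, fun h19p h2 => ?_⟩
    subst h19p
    obtain ⟨t, ht⟩ := exists_prime_orderOf_dvd_card' (G := (Subgroup.centralizer {x 19} : Subgroup G)) 2 h2
    have ht2 : orderOf t.1 = 2 := by rwa [Subgroup.orderOf_coe]
    have htc : Commute (x 19) t.1 := mem_cent.1 t.2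
    have ht1 : t.1 ≠ 1 := fun h => by rw [h, orderOf_one] at ht2; omega
    have hle : (Subgroup.centralizer {t.1} : Subgroup G) ≤ Subgroup.normalizer (Subgroup.zpowers (x 19) : Set G) :=
      hloc _ hxp _ (centralizer_ne_top hG ht1) (mem_cent.2 htc.symm)
    obtain ⟨S, hS⟩ := sylow_dvd_Cc hG h4 hd ht2
    have hSN : Nat.card (S : Subgroup G) ∣ Nn (x 19) := hS.trans (Subgroup.card_dvd_of_le hle)
    refine ⟨?_, fun h8 => ?_⟩
    · exact (show 2 ^ 2 ∣ _ from S.pow_dvd_card_of_pow_dvd_card h4).trans hSN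
    · exact (show 2 ^ 3 ∣ _ from S.pow_dvd_card_of_pow_dvd_card h8).trans hSN
  have hsymm : ∀ p ∈ plist d, ∀ q ∈ plist d, q ∣ Cc (x p) → p ∣ Cc (x q) := by
    intro p hp q hq h
    haveI : Fact q.Prime := ⟨(hps q hq).1⟩
    obtain ⟨y, hy⟩ := exists_prime_orderOf_dvd_card' (G := (Subgroup.centralizer {x p} : Subgroup G)) q h
    rw [← Cc_eq (hps q hq).2.2 (hx q hq) (y := y.1) (by rwa [Subgroup.orderOf_coe])]
    exact dvd_Cc (hx p hp) (mem_cent.1 y.2).symm
  have hA : ∀ p ∈ plist d, ∀ q ∈ plist d, q ∣ Cc (x p) →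
      ∃ k, Aq (x p) q = k * (q - 1) ∧ k % q = 1 ∧ k ∣ Cc (x p) ∧ 0 < k := by
    intro p hp q hq h
    haveI : Fact q.Prime := ⟨(hps q hq).1⟩
    obtain ⟨y, hy⟩ := exists_prime_orderOf_dvd_card' (G := (Subgroup.centralizer {x p} : Subgroup G)) q h
    have hq2 : ¬ q ^ 2 ∣ Nat.card (Subgroup.centralizer {x p} : Subgroup G) :=
      fun h' => (hps q hq).2.2 (h'.trans (Cc_dvd_card _))
    exact ⟨nn y, by rw [Aq_eq_N, N_prime_eq hq2 hy], nn_mod hq2 hy, Dvd.intro_left _ (Nn_mul_nn y), nn_pos y⟩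
  have hpair : ∀ p ∈ plist d, ∀ q ∈ plist d, p ≠ q → pairOK d (dat p) (dat q) = true := by
    intro p hp q hq hpq
    haveI : Fact p.Prime := ⟨(hps p hp).1⟩
    haveI : Fact q.Prime := ⟨(hps q hq).1⟩
    refine Bool.and_eq_true_iff.2 ⟨decide_eq_true ⟨⟨hsymm p hp q hq, hsymm q hq p hp⟩, ?_⟩, ?_⟩
    · show q = 19 → 2 ∣ Cc (x q) → (8 ∣ d → 4 ∣ Cc (x q)) → 2 ∣ Cc (x p) → p ∣ d / nn (x q)
      intro hq19 h2q h84 h2p
      subst hq19
      rw [show d / nn (x 19) = Nn (x 19) from Nn_eq _]
      set K : Subgroup G := Subgroup.centralizer {x 19} with hK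
      obtain ⟨Q⟩ : Nonempty (Sylow 2 K) := inferInstance
      set A : Subgroup G := (Q : Subgroup K).map K.subtype with hAdef
      have hAp : IsPGroup 2 A := Q.isPGroup'.map _
      obtain ⟨S, hAS⟩ := hAp.exists_le_sylow
      have hAc : Nat.card A = Nat.card (Q : Subgroup K) := Subgroup.card_map_of_injective K.subtype_injective
      have hA2 : 2 ∣ Nat.card A := by
        rw [hAc]; exact (show 2 ^ 1 ∣ _ from Q.pow_dvd_card_of_pow_dvd_card (by rw [pow_one]; exact h2q))
      obtain ⟨k, hk⟩ := IsPGroup.iff_card.1 S.isPGroup'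
      have hk3 : k ≤ 3 := card_two_part hd (hk ▸ Subgroup.card_subgroup_dvd_card _)
      have hrel : Nat.card A * A.relIndex (S : Subgroup G) = 2 ^ k := by
        rw [← hk, Subgroup.relIndex, ← Nat.card_congr (Subgroup.subgroupOfEquivOfLe hAS).toEquiv,
          Subgroup.card_mul_index]
      have hr : A.relIndex (S : Subgroup G) = 1 ∨ A.relIndex (S : Subgroup G) = 2 := by
        by_cases h8 : 8 ∣ d
        · have hA4 : 4 ∣ Nat.card A := by
            rw [hAc]; exact (show 2 ^ 2 ∣ _ from Q.pow_dvd_card_of_pow_dvd_card (h84 h8))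
          have h8S : 2 ^ k ∣ 2 ^ 3 := pow_dvd_pow 2 hk3
          obtain ⟨a, ha⟩ := hA4
          rw [ha] at hrel
          have h1 : 4 * A.relIndex (S : Subgroup G) ∣ 2 ^ k := ⟨a, by rw [← hrel]; ring⟩
          have h2 : (2 : ℕ) ^ k ≤ 8 := (Nat.pow_le_pow_right (by norm_num) hk3).trans (by norm_num)
          have h3 := Nat.le_of_dvd (by positivity) h1
          have h4 : A.relIndex (S : Subgroup G) ≠ 0 := Subgroup.index_ne_zero_of_finite
          omega
        · have hk2 : k ≤ 2 := by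
            by_contra hlt
            exact h8 ((show 2 ^ 3 ∣ 2 ^ k from pow_dvd_pow 2 (by omega)).trans (hk ▸ Subgroup.card_subgroup_dvd_card _))
          obtain ⟨a, ha⟩ := hA2
          rw [ha] at hrel
          have h1 : 2 * A.relIndex (S : Subgroup G) ∣ 2 ^ k := ⟨a, by rw [← hrel]; ring⟩
          have h2 : (2 : ℕ) ^ k ≤ 4 := (Nat.pow_le_pow_right (by norm_num) hk2).trans (by norm_num)
          have h3 := Nat.le_of_dvd (by positivity) h1
          have h4 : A.relIndex (S : Subgroup G) ≠ 0 := Subgroup.index_ne_zero_of_finite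
          omega
      obtain ⟨y, hy⟩ := exists_prime_orderOf_dvd_card' (G := (Subgroup.centralizer {x p} : Subgroup G)) 2 h2p
      have hy2 : orderOf y.1 = 2 := by rwa [Subgroup.orderOf_coe]
      obtain ⟨g, hg⟩ := conj_into hG h4 S A hAS hr hy2
      have huK : g * y.1 * g⁻¹ ∈ K := Subgroup.map_subtype_le _ hg
      have hu1 : g * y.1 * g⁻¹ ≠ 1 := fun h => by
        rw [conj_eq_one_iff] at h; rw [h, orderOf_one] at hy2; omega
      have hle : (Subgroup.centralizer {g * y.1 * g⁻¹} : Subgroup G) ≤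
          Subgroup.normalizer (Subgroup.zpowers (x 19) : Set G) :=
        hloc _ (hx 19 hq) _ (centralizer_ne_top hG hu1) (mem_cent.2 (mem_cent.1 huK).symm)
      have hmem : g * x p * g⁻¹ ∈ (Subgroup.centralizer {g * y.1 * g⁻¹} : Subgroup G) :=
        mem_cent.2 (by simpa using ((mem_cent.1 y.2).symm.map (MulAut.conj g : G →* G)))
      have h' := orderOf_dvd_natCard (⟨_, hle hmem⟩ : Subgroup.normalizer (Subgroup.zpowers (x 19) : Set G))
      rw [Subgroup.orderOf_mk, show g * x p * g⁻¹ = MulAut.conj g (x p) from rfl, MulEquiv.orderOf_eq, hx p hp] at h'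
      exact h'
    · simp only [dat, Bool.or_eq_true, Bool.not_eq_true', decide_eq_true_eq,
        decide_eq_false_iff_not, List.any_eq_true]
      by_cases h : q ∣ Cc (x p)
      · right
        obtain ⟨k, hk, hk1, hk2, hk0⟩ := hA p hp q hq h
        obtain ⟨l, hl, hl1, hl2, -⟩ := hA q hq p hp (hsymm p hp q hq h)
        have heq := (card_pairs (hps p hp).2.2 (hx p hp) q).symm.trans
          ((pairs_swap p q).trans (card_pairs (hps q hq).2.2 (hx q hq) p))
        rw [N_prime_eq (hps p hp).2.2 (hx p hp), N_prime_eq (hps q hq).2.2 (hx q hq), hk, hl] at heq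
        have heq' : nn (x p) * k = nn (x q) * l := by
          have h1 := (hps p hp).1.two_le
          have h2 := (hps q hq).1.two_le
          have hpos : 0 < (p - 1) * (q - 1) := Nat.mul_pos (by omega) (by omega)
          refine Nat.eq_of_mul_eq_mul_right hpos ?_
          linarith
        have hdiv : nn (x p) * k / nn (x q) = l := by rw [heq', Nat.mul_div_cancel_left _ (nn_pos _)]
        refine ⟨k, mem_dl ((hk2.trans (Cc_dvd_card _)).trans hd), hk2, hk1, ?_, ?_, ?_⟩
        · rw [heq', Nat.mul_mod_right]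
        · rw [hdiv]; exact hl2
        · rw [hdiv]; exact hl1
      · exact Or.inl h
  have hadd : ∀ p ∈ plist d, ∀ l : List ℕ, l.Nodup → (∀ q ∈ l, q ∈ plist d ∧ q ≠ p) →
      ∃ t : Finset ℕ, (∀ m ∈ t, m = p ∨ ∃ q ∈ l, m = p * q) ∧ add (dat p) (l.map dat) ≤ ∑ m ∈ t, N G m := by
    intro p hp l
    haveI : Fact p.Prime := ⟨(hps p hp).1⟩
    induction l with
    | nil =>
      intro _ _
      exact ⟨{p}, by simp, by simp [add, dat, N_prime_eq (hps p hp).2.2 (hx p hp)]⟩
    | cons q l ih =>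
      intro hnd hl
      obtain ⟨hql, hnd'⟩ := List.nodup_cons.1 hnd
      obtain ⟨t, ht, hsum⟩ := ih hnd' fun r hr => hl r (List.mem_cons_of_mem q hr)
      obtain ⟨hq, hqp⟩ := hl q List.mem_cons_self
      haveI : Fact q.Prime := ⟨(hps q hq).1⟩
      by_cases h : q ∣ Cc (x p)
      · have hnt : p * q ∉ t := by
          intro hm
          rcases ht _ hm with he | ⟨r, hr, he⟩
          · exact (hps q hq).1.ne_one ((Nat.mul_eq_left (hps p hp).1.ne_zero).1 he)
          · exact hql (Nat.eq_of_mul_eq_mul_left (hps p hp).1.pos he ▸ hr)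
        refine ⟨insert (p * q) t, ?_, ?_⟩
        · intro m hm
          rcases Finset.mem_insert.1 hm with rfl | hm
          · exact Or.inr ⟨q, List.mem_cons_self, rfl⟩
          · rcases ht m hm with he | ⟨r, hr, he⟩
            · exact Or.inl he
            · exact Or.inr ⟨r, List.mem_cons_of_mem q hr, he⟩
        · rw [Finset.sum_insert hnt]
          simp only [List.map_cons, add]
          rw [if_pos (show (dat q).p ∣ (dat p).C from h)]
          have hb : nn (x p) * (p - 1) * (q - 1) ≤ N G (p * q) := by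
            refine le_trans ?_ (pairs_le (hps p hp).1 (hps q hq).1 (Ne.symm hqp))
            obtain ⟨k, hk, -, -, hk0⟩ := hA p hp q hq h
            rw [card_pairs (hps p hp).2.2 (hx p hp), hk, N_prime_eq (hps p hp).2.2 (hx p hp)]
            exact Nat.mul_le_mul_left _ (Nat.le_mul_of_pos_left _ hk0)
          simp only [dat] at hsum hb ⊢
          omega
      · refine ⟨t, fun m hm => ?_, ?_⟩
        · rcases ht m hm with he | ⟨r, hr, he⟩
          · exact Or.inl he
          · exact Or.inr ⟨r, List.mem_cons_of_mem q hr, he⟩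
        · simp only [List.map_cons, add]
          rw [if_neg (show ¬ (dat q).p ∣ (dat p).C from h), Nat.add_zero]
          exact hsum
  have sound : ∀ ps done : List ℕ, (ps ++ done).Nodup → (∀ p ∈ ps ++ done, p ∈ plist d) → ∀ tot,
      (∃ s : Finset ℕ, (∀ m ∈ s, m ≠ 1 ∧ ∀ r : ℕ, r.Prime → r ∣ m → r ∈ done) ∧ tot ≤ ∑ m ∈ s, N G m) →
      kill d ps (done.map dat) tot = false := by
    intro ps
    induction ps with
    | nil =>
      rintro done - - tot ⟨s, hs, htot⟩
      simp only [kill, decide_eq_false_iff_not]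
      intro hle
      have h1 := sum_le_card (G := G) (insert 1 s)
      rw [Finset.sum_insert (fun h => (hs 1 h).1 rfl), N_one] at h1
      omega
    | cons p ps ih =>
      rintro done hnd hmem tot ⟨s, hs, htot⟩
      have hp : p ∈ plist d := hmem p (by simp)
      have hsplit := List.nodup_append.1 hnd
      have hpd : p ∉ done := fun h => hsplit.2.2 p List.mem_cons_self p h rfl
      obtain ⟨t, ht, hsum⟩ := hadd p hp done hsplit.2.1 fun q hq =>
        ⟨hmem q (by simp [hq]), fun h => hpd (h ▸ hq)⟩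
      have hrec := ih (p :: done) (by simpa using (List.perm_middle.nodup_iff).2 hnd)
        (fun r hr => hmem r (by simp only [List.mem_append, List.mem_cons] at hr ⊢; tauto))
        (tot + add (dat p) (done.map dat)) ⟨s ∪ t, ?_, ?_⟩
      · simp only [kill, List.all_eq_false]
        refine ⟨dat p, hopts p hp, ?_⟩
        simp only [List.map_cons] at hrec
        rw [hrec]
        simp only [Bool.or_false, Bool.not_eq_true', List.all_eq_false, List.mem_map]
        rintro ⟨_, ⟨q, hq, rfl⟩, hq'⟩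
        exact hq' (hpair p hp q (hmem q (by simp [hq])) (fun h => hpd (h ▸ hq)))
      · intro m hm
        rcases Finset.mem_union.1 hm with hm | hm
        · exact ⟨(hs m hm).1, fun r hr hrm => List.mem_cons_of_mem p ((hs m hm).2 r hr hrm)⟩
        · have hpp := (hps p hp).1
          rcases ht m hm with rfl | ⟨q, hq, rfl⟩
          · exact ⟨hpp.ne_one, fun r hr hrm => by
              rw [(Nat.prime_dvd_prime_iff_eq hr hpp).1 hrm]; exact List.mem_cons_self⟩
          · have hqq := (hps q (hmem q (by simp [hq]))).1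
            refine ⟨fun h => hpp.ne_one (Nat.eq_one_of_mul_eq_one_right h), fun r hr hrm => ?_⟩
            rcases hr.dvd_mul.1 hrm with h | h
            · rw [(Nat.prime_dvd_prime_iff_eq hr hpp).1 h]; exact List.mem_cons_self
            · rw [(Nat.prime_dvd_prime_iff_eq hr hqq).1 h]; exact List.mem_cons_of_mem p hq
      · rw [Finset.sum_union]
        · omega
        · rw [Finset.disjoint_left]
          intro m hm hm'
          have hpp := (hps p hp).1
          have hpm : p ∣ m := by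
            rcases ht m hm' with rfl | ⟨q, -, rfl⟩
            · exact dvd_rfl
            · exact dvd_mul_right _ _
          exact hpd ((hs m hm).2 p hpp hpm)
  have hnd : (plist d ++ []).Nodup := by
    rw [List.append_nil]; exact (by decide : [19, 11, 7, 5, 3].Nodup).filter _
  have h := sound (plist d) [] hnd (fun p hp => by simpa using hp) 0 ⟨∅, by simp, by simp⟩
  rw [List.map_nil, check d (mem_dl hd) h19 h4 hbig hne] at h
  exact absurd h (by simp)

end Simple

lemma squarefree_43890 : Squarefree 43890 := by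
  rw [Nat.squarefree_iff_minSqFac]
  decide +kernel

/-- All Sylow `19`-subgroups coincide with a normal one. -/
lemma normal_of_normal {G : Type*} [Group G] [Finite G] {p : ℕ} [Fact p.Prime] (P : Sylow p G)
    (hP : (P : Subgroup G).Normal) (Q : Sylow p G) : (Q : Subgroup G).Normal := by
  haveI : Subsingleton (Sylow p G) := @Unique.instSubsingleton _ (Sylow.unique_of_normal P hP)
  rwa [Subsingleton.elim Q P]

/-- From a normal subgroup whose order is a multiple of nineteen. -/
lemma of_normal_sub {G : Type*} [Group G] [Finite G] (hd : Nat.card G ∣ 175560) (N : Subgroup G) (hN : N.Normal)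
    (h19 : 19 ∣ Nat.card N) (hP : ∀ P : Sylow 19 N, (P : Subgroup N).Normal) (Q : Sylow 19 G) :
    (Q : Subgroup G).Normal := by
  haveI : Fact (Nat.Prime 19) := ⟨by norm_num⟩
  have hdG : 19 ∣ Nat.card G := h19.trans (Subgroup.card_subgroup_dvd_card N)
  have h2 : ¬ 19 ^ 2 ∣ Nat.card G := not_sq (by simp) hd
  obtain ⟨R⟩ : Nonempty (Sylow 19 N) := inferInstance
  haveI := hN
  haveI : (R : Subgroup N).Characteristic := R.characteristic_of_normal (hP R)
  have hRn : ((R : Subgroup N).map N.subtype).Normal := inferInstance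
  have hRc : Nat.card ((R : Subgroup N).map N.subtype) = 19 := by
    rw [Subgroup.card_map_of_injective N.subtype_injective,
      sylow_card h19 (fun h => h2 (h.trans (Subgroup.card_subgroup_dvd_card N))) R]
  let P : Sylow 19 G := Sylow.ofCard ((R : Subgroup N).map N.subtype) (by
    rw [hRc, fact_one (by norm_num) Nat.card_pos.ne' hdG h2, pow_one])
  exact normal_of_normal P hRn Q

/-- An automorphism of order nineteen of a set with fewer points is trivial. -/
lemma perm_trivial {α : Type*} [Finite α] (σ : Equiv.Perm α) (h : σ ^ 19 = 1) (hc : Nat.card α < 19) : σ = 1 := by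
  classical
  haveI := Fintype.ofFinite α
  have h1 := orderOf_dvd_of_pow_eq_one h
  have h2 : orderOf σ ∣ (Nat.card α).factorial := by
    rw [Nat.card_eq_fintype_card, ← Fintype.card_perm]; exact orderOf_dvd_card
  have hcop : Nat.Coprime 19 (Nat.card α).factorial := by
    refine ((show Nat.Prime 19 by norm_num).coprime_iff_not_dvd).2 fun h' => ?_
    have := ((show Nat.Prime 19 by norm_num).dvd_factorial).1 h'
    omega
  exact orderOf_eq_one_iff.1 (Nat.eq_one_of_dvd_coprimes hcop h1 h2)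

lemma not_simple_case {G : Type u} [Group G] [Finite G] (hd : Nat.card G ∣ 175560) (h19 : 19 ∣ Nat.card G)
    (hns : ¬ IsSimpleGroup G)
    (IH : ∀ (H : Type u) [Group H] [Finite H], Nat.card H < Nat.card G → Nat.card H ∣ 175560 → 19 ∣ Nat.card H →
      ∀ P : Sylow 19 H, (P : Subgroup H).Normal)
    (Q : Sylow 19 G) : (Q : Subgroup G).Normal := by
  haveI hF : Fact (Nat.Prime 19) := ⟨by norm_num⟩
  haveI : Nontrivial G := Finite.one_lt_card_iff_nontrivial.1
    (by have := Nat.le_of_dvd Nat.card_pos h19; omega)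
  obtain ⟨N, hN, hNb, hNt⟩ : ∃ N : Subgroup G, N.Normal ∧ N ≠ ⊥ ∧ N ≠ ⊤ := by
    by_contra hno
    push Not at hno
    exact hns ⟨fun N hN => or_iff_not_imp_left.2 (hno N hN)⟩
  haveI := hN
  have hsub : ∀ K : Subgroup G, K ≠ ⊤ → 19 ∣ Nat.card K → ∀ P : Sylow 19 K, (P : Subgroup K).Normal :=
    fun K hK h P => IH K (lt_of_le_of_ne (Subgroup.card_le_card_group K)
      (fun he => hK (Subgroup.eq_top_of_card_eq K he))) ((Subgroup.card_subgroup_dvd_card K).trans hd) h P
  by_cases h19N : 19 ∣ Nat.card N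
  · exact of_normal_sub hd N hN h19N (hsub N hNt h19N) Q
  have hcard : Nat.card G = Nat.card (G ⧸ N) * Nat.card N := Subgroup.card_eq_card_quotient_mul_card_subgroup N
  have hN1 : 1 < Nat.card N := (Subgroup.one_lt_card_iff_ne_bot N).2 hNb
  have hq19 : 19 ∣ Nat.card (G ⧸ N) :=
    ((show Nat.Prime 19 by norm_num).dvd_mul.1 (hcard ▸ h19)).resolve_right h19N
  have hqlt : Nat.card (G ⧸ N) < Nat.card G := by
    rw [hcard]; exact lt_mul_of_one_lt_right Nat.card_pos hN1
  have hqd : Nat.card (G ⧸ N) ∣ 175560 := (Dvd.intro _ hcard.symm).trans hd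
  obtain ⟨Pb⟩ : Nonempty (Sylow 19 (G ⧸ N)) := inferInstance
  have hPbn := IH (G ⧸ N) hqlt hqd hq19 Pb
  set K : Subgroup G := (Pb : Subgroup (G ⧸ N)).comap (QuotientGroup.mk' N) with hKdef
  haveI : K.Normal := hPbn.comap _
  have hKc : Nat.card K = 19 * Nat.card N := by
    have h1 : K.index = (Pb : Subgroup (G ⧸ N)).index :=
      Subgroup.index_comap_of_surjective _ (QuotientGroup.mk'_surjective N)
    have h2 := K.card_mul_index
    have h3 := (Pb : Subgroup (G ⧸ N)).card_mul_index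
    rw [sylow_card hq19 (not_sq (by simp) hqd) Pb] at h3
    refine Nat.eq_of_mul_eq_mul_right (Nat.pos_of_ne_zero (Subgroup.index_ne_zero_of_finite (H := K))) ?_
    rw [h2, hcard, ← h3, h1]; ring
  by_cases hKt : K = ⊤
  swap
  · exact of_normal_sub hd K inferInstance (hKc ▸ dvd_mul_right _ _) (hsub K hKt (hKc ▸ dvd_mul_right _ _)) Q
  rw [hKt, Subgroup.card_top] at hKc
  -- nineteen times the order of the normal subgroup
  obtain ⟨x, hx⟩ := exists_prime_orderOf_dvd_card' (G := G) 19 h19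
  have h2 : ¬ 19 ^ 2 ∣ Nat.card G := not_sq (by simp) hd
  have hkey : ∀ r k : ℕ, r.Prime → r ^ k ∣ Nat.card N → r ^ k ∣ Cc x := by
    intro r k hr hrk
    haveI : Fact r.Prime := ⟨hr⟩
    obtain ⟨R⟩ : Nonempty (Sylow r N) := inferInstance
    set R' : Subgroup G := (R : Subgroup N).map N.subtype with hR'
    have hRc : Nat.card R' = Nat.card (R : Subgroup N) := Subgroup.card_map_of_injective N.subtype_injective
    have hdvdR : r ^ k ∣ Nat.card R' := hRc ▸ R.pow_dvd_card_of_pow_dvd_card hrk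
    have hfr : Subgroup.normalizer (R' : Set G) ⊔ N = ⊤ := Sylow.normalizer_sup_eq_top R
    have hdn : 19 ∣ Nat.card (Subgroup.normalizer (R' : Set G)) := by
      by_contra hno
      have h1 := hN
      have hmul := Subgroup.card_eq_card_quotient_mul_card_subgroup N
      have hsurj : Function.Surjective ((QuotientGroup.mk' N).comp (Subgroup.normalizer (R' : Set G)).subtype) := by
        rw [← MonoidHom.range_eq_top, MonoidHom.range_comp, Subgroup.range_subtype, eq_top_iff]
        intro z _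
        obtain ⟨g, rfl⟩ := QuotientGroup.mk'_surjective N z
        have hg : g ∈ Subgroup.normalizer (R' : Set G) ⊔ N := hfr ▸ Subgroup.mem_top g
        rw [Subgroup.mem_sup_of_normal_right] at hg
        obtain ⟨a, ha, b, hb, rfl⟩ := hg
        refine ⟨a, ha, ?_⟩
        rw [map_mul, show QuotientGroup.mk' N b = 1 from (QuotientGroup.eq_one_iff b).2 hb, mul_one]
      exact hno (hq19.trans (Subgroup.card_dvd_of_surjective _ hsurj))
    obtain ⟨y, hy⟩ := exists_prime_orderOf_dvd_card' (G := Subgroup.normalizer (R' : Set G)) 19 hdn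
    have hy' : orderOf y.1 = 19 := by rwa [Subgroup.orderOf_coe]
    have hcomm : R' ≤ Subgroup.centralizer {y.1} := by
      intro a ha
      have hsmall : Nat.card R' < 19 := by
        obtain ⟨j, hj⟩ := IsPGroup.iff_card.1 R.isPGroup'
        have hd' : Nat.card R' ∣ 175560 := (Subgroup.card_subgroup_dvd_card R').trans hd
        have hn19 : ¬ 19 ∣ Nat.card R' := fun h => h19N (h.trans (hRc ▸ Subgroup.card_subgroup_dvd_card _))
        rw [hRc, hj] at hd' hn19 ⊢
        have hmem := mem_dl hd'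
        by_contra hge
        have : ∀ m ∈ dl, 19 ≤ m → ¬ 19 ∣ m → ¬ m.primeFactors.card ≤ 1 := by decide +kernel
        refine this _ hmem (by omega) hn19 ?_
        rcases Nat.eq_zero_or_pos j with rfl | hj0
        · simp
        · rw [Nat.primeFactors_prime_pow hj0.ne' hr]; simp
      have hm : ∀ b : G, b ∈ R' ↔ y.1 * b * y.1⁻¹ ∈ R' := fun b => (Subgroup.mem_normalizer_iff.1 y.2 b)
      let σ : Equiv.Perm R' := (MulAut.conj y.1).toEquiv.subtypeEquiv fun b => hm b
      have hpow : ∀ (i : ℕ) (b : R'), ((σ ^ i) b : G) = MulAut.conj (y.1 ^ i) b.1 := by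
        intro i
        induction i with
        | zero => simp
        | succ i ih =>
          intro b
          rw [pow_succ, Equiv.Perm.mul_apply, ih, pow_succ, map_mul, MulAut.mul_apply]
          rfl
      have hσ : σ ^ 19 = 1 := by
        ext b
        rw [hpow, ← hy', pow_orderOf_eq_one]
        simp
      have h1 := congrArg (fun τ : Equiv.Perm R' => ((τ ⟨a, ha⟩ : R') : G)) (perm_trivial σ hσ hsmall)
      change y.1 * a * y.1⁻¹ = a at h1
      exact mem_cent.2 (mul_inv_eq_iff_eq_mul.1 h1)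
    exact hdvdR.trans ((Subgroup.card_dvd_of_le hcomm).trans (dvd_of_eq (Cc_eq h2 hx hy')))
  have hNC : Nat.card N ∣ Cc x := by
    rw [Nat.dvd_iff_prime_pow_dvd_dvd]
    exact fun r k hr h => hkey r k hr h
  have hGC : Nat.card G ∣ Cc x := by
    rw [hKc]
    exact (((show Nat.Prime 19 by norm_num).coprime_iff_not_dvd).2 h19N).mul_dvd_of_dvd_of_dvd
      (dvd_Cc hx (Commute.refl _)) hNC
  have htop : (Subgroup.centralizer {x} : Subgroup G) = ⊤ :=
    Subgroup.eq_top_of_card_eq _ (Nat.dvd_antisymm (Cc_dvd_card x) hGC)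
  refine normal_of_normal (sylOf h2 x hx) ?_ Q
  rw [coe_sylOf]
  refine ⟨fun z hz g => ?_⟩
  obtain ⟨i, rfl⟩ := Subgroup.mem_zpowers_iff.1 hz
  have hg : Commute x g := mem_cent.1 (htop ▸ Subgroup.mem_top g)
  rw [← (hg.zpow_left i).eq, mul_inv_cancel_right]
  exact hz

theorem key : ∀ (d : ℕ) (G : Type u) [Group G] [Finite G], Nat.card G = d → d ∣ 175560 → d ≠ 175560 → 19 ∣ d →
    ∀ P : Sylow 19 G, (P : Subgroup G).Normal := by
  intro d
  induction d using Nat.strong_induction_on with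
  | _ d IH =>
    intro G _ _ hc hd hne h19 P
    haveI : Fact (Nat.Prime 19) := ⟨by norm_num⟩
    subst hc
    have IH' : ∀ (H : Type u) [Group H] [Finite H], Nat.card H < Nat.card G → Nat.card H ∣ 175560 → 19 ∣ Nat.card H →
        ∀ Q : Sylow 19 H, (Q : Subgroup H).Normal := fun H _ _ hlt h1 h2 Q =>
      IH _ hlt H rfl h1 (by have := Nat.le_of_dvd (by norm_num) hd; omega) h2 Q
    by_cases hs : IsSimpleGroup G
    swap
    · exact not_simple_case hd h19 hs IH' P
    have h2 : ¬ 19 ^ 2 ∣ Nat.card G := not_sq (by simp) hd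
    by_cases hcy : IsMulCommutative G
    · exact ⟨fun a ha g => by rw [hcy.is_comm.comm g a, mul_inv_cancel_right]; exact ha⟩
    exfalso
    by_cases h4 : 4 ∣ Nat.card G
    swap
    · have hsq : Squarefree (Nat.card G) := by
        refine squarefree_43890.squarefree_of_dvd ?_
        exact (show ∀ m ∈ dl, ¬ 4 ∣ m → m ∣ 43890 by decide +kernel) _ (mem_dl hd) h4
      haveI := IsZGroup.of_squarefree hsq
      exact hcy (IsSimpleGroup.comm_iff_isSolvable.2 inferInstance |> fun h => ⟨⟨h⟩⟩)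
    by_cases hbig : 6859 ≤ Nat.card G
    · refine simple_false hcy hd h19 h4 hbig hne fun x hx K hK hxK => ?_
      have h19K : 19 ∣ Nat.card K := by
        have := orderOf_dvd_natCard (⟨x, hxK⟩ : K)
        rwa [Subgroup.orderOf_mk, hx] at this
      have hK2 : ¬ 19 ^ 2 ∣ Nat.card K := fun h => h2 (h.trans (Subgroup.card_subgroup_dvd_card K))
      have hn : (Subgroup.zpowers (⟨x, hxK⟩ : K)).Normal := by
        have := IH' K (lt_of_le_of_ne (Subgroup.card_le_card_group K) (fun he => hK (Subgroup.eq_top_of_card_eq K he)))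
          ((Subgroup.card_subgroup_dvd_card K).trans hd) h19K
          (sylOf hK2 ⟨x, hxK⟩ (by rw [Subgroup.orderOf_mk]; exact hx))
        rwa [coe_sylOf] at this
      intro g hg
      rw [Subgroup.mem_normalizer_iff]
      have hfw : ∀ (g : G), g ∈ K → ∀ z ∈ Subgroup.zpowers x, g * z * g⁻¹ ∈ Subgroup.zpowers x := by
        intro g hg z hz
        obtain ⟨i, rfl⟩ := Subgroup.mem_zpowers_iff.1 hz
        obtain ⟨j, hj⟩ := Subgroup.mem_zpowers_iff.1 (hn.conj_mem _ (zpow_mem (Subgroup.mem_zpowers _) i) ⟨g, hg⟩)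
        exact Subgroup.mem_zpowers_iff.2 ⟨j, by simpa using congrArg Subtype.val hj⟩
      intro z
      refine ⟨hfw g hg z, fun hz => ?_⟩
      simpa [mul_assoc] using hfw g⁻¹ (inv_mem hg) _ hz
    · have hcyc : ¬ IsCyclic G := fun h => hcy ⟨⟨fun a b => by letI := h.commGroup; exact mul_comm a b⟩⟩
      rcases Cfsg.Agent.S0999.result hcyc 19 (by norm_num) h19 (by norm_num; omega) with
        ⟨F, hFf, hFF, hF, -, ⟨e⟩⟩ | ⟨m, F, hFf, hFF, hF, hm, -, -⟩
      · have h1 := Cfsg.Agent.Lib.Classical.card_PSL_two (F := F)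
        rw [← Nat.card_congr e.toEquiv, hF] at h1
        have h3 : Nat.card G = 3420 := by norm_num at h1; omega
        rw [h3] at hd
        norm_num at hd
      · have h18 : 2 ^ m = 18 := by omega
        have h9 : 9 ∣ 2 ^ m := by rw [h18]; norm_num
        have h32 := (show Nat.Prime 3 by norm_num).dvd_of_dvd_pow ((show 3 ∣ 9 by norm_num).trans h9)
        norm_num at h32

/-- A finite group of order 175560 = 2³·3·5·7·11·19 is either simple or has a normal Sylow 19-subgroup. -/
theorem result {G : Type*} [Group G] [Finite G] (hG : Nat.card G = 175560) : IsSimpleGroup G ∨ ∀ P : Sylow 19 G, (P : Subgroup G).Normal := by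
  by_cases hs : IsSimpleGroup G
  · exact Or.inl hs
  refine Or.inr fun P => not_simple_case (by rw [hG]) (by rw [hG]; norm_num) hs (fun H _ _ hlt h1 h2 Q => ?_) P
  exact key _ H rfl h1 (by omega) h2 Q

end Cfsg.Agent.S4274
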