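import Cfsg.Statements.S4277
import Cfsg.Agent.Lib.PrimeIndex.Twist

set_option autoImplicit false
open Cfsg

namespace Cfsg.Agent.S4277

open MulAction Cfsg.Agent.Lib.Perm
open scoped commutatorElement

theorem isSolvable_of_derived_two {N : Type*} [Group N] (K : Subgroup N)
    (hK : ∀ a ∈ K, ∀ b ∈ K, Commute a b) (hN : ∀ a b : N, ⁅a, b⁆ ∈ K) : Group.IsSolvable N := by
  refine (isSolvable_def N).mpr ⟨2, ?_⟩
  have h1 : derivedSeries N 1 ≤ K := by
    rw [derivedSeries_one, commutator_def, Subgroup.commutator_le]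
    exact fun a _ b _ => hN a b
  rw [derivedSeries_succ, eq_bot_iff, Subgroup.commutator_le]
  intro a ha b hb
  rw [Subgroup.mem_bot, commutatorElement_eq_one_iff_commute]
  exact hK a (h1 ha) b (h1 hb)


/-- A case of the Schreier conjecture: if a finite simple group G has a subgroup of prime index, then the outer automorphism group of G is solvable. -/
theorem result {G : Type*} [Group G] [Finite G] [IsSimpleGroup G] (H : Subgroup G) (hH : H.index.Prime) : Group.IsSolvable (Cfsg.Out G) := by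
  classical
  by_cases hab : ∀ a b : G, a * b = b * a
  · let _ : CommGroup G := { ‹Group G› with mul_comm := hab }
    have : IsCyclic G := IsSimpleGroup.isCyclic
    refine Group.isSolvable_of_comm fun a b => ?_
    induction a using QuotientGroup.induction_on with | H φ => ?_
    induction b using QuotientGroup.induction_on with | H ψ => ?_
    rw [← QuotientGroup.mk_mul, ← QuotientGroup.mk_mul]
    congr 1
    refine MulEquiv.ext fun g => ?_
    obtain ⟨z, hz⟩ := IsCyclic.exists_generator (α := G)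
    obtain ⟨i, hi⟩ := Subgroup.mem_zpowers_iff.mp (hz (φ z))
    obtain ⟨j, hj⟩ := Subgroup.mem_zpowers_iff.mp (hz (ψ z))
    obtain ⟨k, rfl⟩ := Subgroup.mem_zpowers_iff.mp (hz g)
    simp only [MulAut.mul_apply, map_zpow, ← hi, ← hj, ← zpow_mul]
    congr 1; ring
  have hp : Fact H.index.Prime := ⟨hH⟩
  set p := H.index with hpdef
  let Ω := G ⧸ H
  have hΩ : Nat.card Ω = p := rfl
  have hfaith : FaithfulSMul G Ω := by
    refine ⟨fun {g h} heq => ?_⟩
    have hker : (toPermHom G Ω).ker = ⊥ := by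
      refine ((inferInstance : (toPermHom G Ω).ker.Normal).eq_bot_or_eq_top).resolve_right fun htop => ?_
      have hH1 : H = ⊤ := (Subgroup.eq_top_iff' H).mpr fun x => by
        have hx : x ∈ (toPermHom G Ω).ker := htop ▸ Subgroup.mem_top x
        have := Equiv.Perm.congr_fun (MonoidHom.mem_ker.mp hx) ((1 : G) : Ω)
        simp only [toPermHom_apply, toPerm_apply, Equiv.Perm.coe_one, id_eq,
          MulAction.Quotient.smul_mk, smul_eq_mul, mul_one] at this
        have h2 := QuotientGroup.eq.mp this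
        simp only [smul_eq_mul, mul_one, inv_mem_iff] at h2
        exact h2
      exact hH.ne_one (hpdef.trans (Subgroup.index_eq_one.mpr hH1))
    exact ((toPermHom G Ω).ker_eq_bot_iff.mp hker) (Equiv.ext heq)
  obtain ⟨c, hc⟩ := exists_prime_orderOf_dvd_card' p (Subgroup.index_dvd_card H)
  obtain ⟨e, he⟩ := exists_label_faithful hΩ hc
  have hna : ¬ ∀ g : G, IsAffineElt e g := fun hall => hab (fun a b => by
    have := isSolvable_of_affine e hall
    exact IsSimpleGroup.comm_iff_isSolvable.mpr this a b)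
  have : Fintype Ω := Fintype.ofFinite Ω
  have h2t := two_transitive he hna
  have hp2 : ¬ p * p ∣ Nat.card G := by
    intro hd
    obtain ⟨U, hU⟩ := Sylow.exists_subgroup_card_pow_prime p (n := 2) (by rwa [pow_two])
    obtain ⟨Q, hQ⟩ := (IsPGroup.of_card hU).exists_le_sylow
    have h1 := Subgroup.card_dvd_of_le hQ
    rw [hU, card_sylow_of_prime hΩ Q, pow_two] at h1
    exact absurd (Nat.le_of_dvd hH.pos h1) (not_le.mpr (lt_mul_of_one_lt_left hH.pos hH.one_lt))
  let N : Subgroup (MulAut G) :=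
    { carrier := {φ | (Subgroup.zpowers c).map φ.toMonoidHom = Subgroup.zpowers c}
      one_mem' := by simp [MulAut.one_def]
      mul_mem' := by
        intro φ ψ (hφ : _ = _) (hψ : _ = _)
        show _ = _
        conv_rhs => rw [← hφ, ← hψ, Subgroup.map_map]
        rfl
      inv_mem' := by
        intro φ (hφ : _ = _)
        show _ = _
        conv_lhs => rw [← hφ, Subgroup.map_map]
        convert Subgroup.map_id _
        exact MonoidHom.ext fun g => φ.symm_apply_apply g }
  have hNc : ∀ φ : N, ∃ i : ℤ, (φ : MulAut G) c = c ^ i := fun φ => by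
    have h : (φ : MulAut G) c ∈ Subgroup.zpowers c := by
      have h' := Subgroup.mem_map_of_mem (φ : MulAut G).toMonoidHom (Subgroup.mem_zpowers c)
      rwa [φ.2] at h'
    obtain ⟨i, hi⟩ := Subgroup.mem_zpowers_iff.mp h
    exact ⟨i, hi.symm⟩
  let K : Subgroup N :=
    { carrier := {φ | (φ : MulAut G) c = c}
      one_mem' := rfl
      mul_mem' := by
        intro φ ψ (hφ : _ = _) (hψ : _ = _)
        show _ = _
        rw [Subgroup.coe_mul, MulAut.mul_apply, hψ, hφ]
      inv_mem' := by
        intro φ (hφ : _ = _)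
        show _ = _
        conv_lhs => rw [← hφ]
        simp }
  have hN : Group.IsSolvable N := by
    refine isSolvable_of_derived_two K (fun φ hφ ψ hψ =>
      Subtype.ext (Lib.PrimeIndex.commute_of_fix he hp2 h2t hφ hψ)) fun φ ψ => ?_
    have hcomm : (φ : MulAut G) ((ψ : MulAut G) c) = (ψ : MulAut G) ((φ : MulAut G) c) := by
      obtain ⟨i, hi⟩ := hNc φ
      obtain ⟨j, hj⟩ := hNc ψ
      rw [hi, hj, map_zpow, map_zpow, hi, hj, ← zpow_mul, ← zpow_mul, mul_comm]
    show ((⁅φ, ψ⁆ : N) : MulAut G) c = c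
    have hc1 : c = (ψ : MulAut G) ((φ : MulAut G) ((φ : MulAut G)⁻¹ ((ψ : MulAut G)⁻¹ c))) := by simp
    rw [commutatorElement_def]
    simp only [Subgroup.coe_mul, Subgroup.coe_inv, MulAut.mul_apply]
    conv_rhs => rw [hc1]
    have hgen : ∀ x ∈ Subgroup.zpowers c,
        (φ : MulAut G) ((ψ : MulAut G) x) = (ψ : MulAut G) ((φ : MulAut G) x) := by
      intro x hx
      obtain ⟨k, rfl⟩ := Subgroup.mem_zpowers_iff.mp hx
      simp only [map_zpow, hcomm]
    apply hgen
    obtain ⟨i, hi⟩ := hNc (φ⁻¹ * ψ⁻¹)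
    simp only [Subgroup.coe_mul, Subgroup.coe_inv, MulAut.mul_apply] at hi
    exact hi ▸ Subgroup.zpow_mem _ (Subgroup.mem_zpowers c) i
  refine Group.isSolvable_of_surjective
    (f := (QuotientGroup.mk' (Cfsg.Inn G)).comp N.subtype) fun q => ?_
  induction q using QuotientGroup.induction_on with | H φ => ?_
  -- Sylow conjugacy
  have hcard : ∀ x : G, orderOf x = p → ∃ R : Sylow p G, (R : Subgroup G) = Subgroup.zpowers x := by
    intro x hx
    obtain ⟨R, hR⟩ := (IsPGroup.of_card (n := 1)
      (by rw [Nat.card_zpowers, hx, pow_one] : Nat.card (Subgroup.zpowers x) = p ^ 1)).exists_le_sylow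
    exact ⟨R, (Subgroup.eq_of_le_of_card_ge hR (by
      rw [Nat.card_zpowers, hx, card_sylow_of_prime hΩ R])).symm⟩
  obtain ⟨R₁, hR₁⟩ := hcard c hc
  obtain ⟨R₂, hR₂⟩ := hcard (φ c) (by rw [MulEquiv.orderOf_eq, hc])
  obtain ⟨g, hg⟩ := MulAction.exists_smul_eq G R₂ R₁
  refine ⟨⟨MulAut.conj g * φ, ?_⟩, ?_⟩
  · show (Subgroup.zpowers c).map (MulAut.conj g * φ).toMonoidHom = Subgroup.zpowers c
    rw [MonoidHom.map_zpowers]
    conv_rhs => rw [← hR₁, ← hg]
    rw [Sylow.coe_subgroup_smul, hR₂, Subgroup.pointwise_smul_def]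
    show _ = (Subgroup.zpowers (φ c)).map (MulAut.conj g).toMonoidHom
    rw [MonoidHom.map_zpowers]
    rfl
  · show QuotientGroup.mk' (Cfsg.Inn G) (MulAut.conj g * φ) = _
    rw [QuotientGroup.mk'_apply, QuotientGroup.eq]
    have h := (Cfsg.innNormal G).conj_mem _
      (inv_mem (⟨g, rfl⟩ : MulAut.conj g ∈ Cfsg.Inn G)) φ⁻¹
    simpa [mul_inv_rev, mul_assoc] using h

end Cfsg.Agent.S4277
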