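import Cfsg.Statements.S4279

import Cfsg.Agent.Lib.Chev.G2OddInvol
set_option autoImplicit false
open Cfsg

namespace Cfsg.Agent.S4279

open Cfsg.Agent.Lib.Chev

/-- In the Chevalley group G of type G₂ over a finite field F of odd order q, the centralizer of an involution t has order q²(q² − 1)² and contains two elementwise commuting subgroups, each isomorphic to SL(2, F), which meet exactly in the subgroup generated by t and whose join has index 2 in the centralizer. -/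
theorem result {F : Type*} [Field F] [Fintype F] (hF : Odd (Fintype.card F)) (t : ↥(Cfsg.Lie.chevG2.group F)) (ht : orderOf t = 2) : Nat.card (Subgroup.centralizer ({t} : Set ↥(Cfsg.Lie.chevG2.group F))) = Fintype.card F ^ 2 * (Fintype.card F ^ 2 - 1) ^ 2 ∧ ∃ L₁ L₂ : Subgroup ↥(Cfsg.Lie.chevG2.group F), Nonempty (L₁ ≃* Matrix.SpecialLinearGroup (Fin 2) F) ∧ Nonempty (L₂ ≃* Matrix.SpecialLinearGroup (Fin 2) F) ∧ (∀ x ∈ L₁, ∀ y ∈ L₂, x * y = y * x) ∧ L₁ ⊓ L₂ = Subgroup.zpowers t ∧ L₁ ⊔ L₂ ≤ Subgroup.centralizer ({t} : Set ↥(Cfsg.Lie.chevG2.group F)) ∧ (L₁ ⊔ L₂).relIndex (Subgroup.centralizer ({t} : Set ↥(Cfsg.Lie.chevG2.group F))) = 2 := by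
  have h2 := G2Odd.two_ne_zero_of_odd hF
  obtain ⟨g, hg⟩ := isConj_iff.1 (G2Odd.isConj_inv0 hF t ht).symm
  set φ : ↥(Cfsg.Lie.chevG2.group F) ≃* ↥(Cfsg.Lie.chevG2.group F) := MulAut.conj g with hφ
  have hC : (Subgroup.centralizer ({G2Odd.inv0 F} : Set ↥(Cfsg.Lie.chevG2.group F))).map φ.toMonoidHom =
      Subgroup.centralizer ({t} : Set ↥(Cfsg.Lie.chevG2.group F)) := by
    ext x
    rw [Subgroup.mem_map_equiv, Subgroup.mem_centralizer_singleton_iff,
      Subgroup.mem_centralizer_singleton_iff, ← hg]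
    simp only [hφ, MulAut.conj_symm_apply]
    constructor
    · intro h
      calc x * (g * G2Odd.inv0 F * g⁻¹) = g * (g⁻¹ * x * g * G2Odd.inv0 F) * g⁻¹ := by group
        _ = _ := by rw [h]; group
    · intro h
      calc g⁻¹ * x * g * G2Odd.inv0 F = g⁻¹ * (x * (g * G2Odd.inv0 F * g⁻¹)) * g := by group
        _ = _ := by rw [h]; group
  refine ⟨?_, ?_⟩
  · rw [← hC, Subgroup.card_map_of_injective φ.injective, G2Odd.card_cent h2]
  obtain ⟨L₁, L₂, ⟨e₁⟩, ⟨e₂⟩, hcomm, hinf, hle, hidx⟩ := G2Odd.cent_struct (F := F) h2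
  refine ⟨L₁.map φ.toMonoidHom, L₂.map φ.toMonoidHom, ⟨(φ.subgroupMap L₁).symm.trans e₁⟩,
    ⟨(φ.subgroupMap L₂).symm.trans e₂⟩, ?_, ?_, ?_, ?_⟩
  · rintro _ ⟨a, ha, rfl⟩ _ ⟨b, hb, rfl⟩
    rw [← map_mul, ← map_mul, hcomm a ha b hb]
  · rw [← Subgroup.map_inf _ _ _ φ.injective, hinf, MonoidHom.map_zpowers, ← hg]
    rfl
  · rw [← Subgroup.map_sup, ← hC]
    exact Subgroup.map_mono hle
  · rw [← Subgroup.map_sup, ← hC, Subgroup.relIndex_map_map_of_injective _ _ φ.injective, hidx]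

end Cfsg.Agent.S4279
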