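import Cfsg.Statements.S4280

import Cfsg.Agent.Lib.Chev.InvolF4E8
set_option autoImplicit false
open Cfsg

namespace Cfsg.Agent.S4280

open Cfsg.Agent.Lib Cfsg.Agent.Lib.Chev

/-- In the Chevalley group of type F₄ over a finite field of odd order q there are exactly two conjugacy classes of involutions; the centralizer of an involution in one class has order q¹⁶(q² − 1)(q⁴ − 1)(q⁶ − 1)(q⁸ − 1), and in the other class q¹⁰(q² − 1)²(q⁴ − 1)(q⁶ − 1). -/
theorem result {F : Type*} [Field F] [Fintype F] (hF : Odd (Fintype.card F)) : ∃ s t : ↥(Cfsg.Lie.chevF4.group F), orderOf s = 2 ∧ orderOf t = 2 ∧ ¬ IsConj s t ∧ (∀ u : ↥(Cfsg.Lie.chevF4.group F), orderOf u = 2 → IsConj u s ∨ IsConj u t) ∧ Nat.card (Subgroup.centralizer ({s} : Set ↥(Cfsg.Lie.chevF4.group F))) = Fintype.card F ^ 16 * (Fintype.card F ^ 2 - 1) * (Fintype.card F ^ 4 - 1) * (Fintype.card F ^ 6 - 1) * (Fintype.card F ^ 8 - 1) ∧ Nat.card (Subgroup.centralizer ({t} : Set ↥(Cfsg.Lie.chevF4.group F))) = Fintype.card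 F ^ 10 * (Fintype.card F ^ 2 - 1) ^ 2 * (Fintype.card F ^ 4 - 1) * (Fintype.card F ^ 6 - 1) := by
  have hker : Nat.card (F4.checked.cartanMap (F := F)).ker = 1 := by
    rw [F4.checked.card_ker_cartanMap smith_F4, show F4.fast.l = 4 from rfl]
    simp [Finset.prod_range_succ]
  have hq : 1 < Fintype.card F := Fintype.one_lt_card
  set q := Fintype.card F with hqdef
  obtain ⟨s, t, hs, ht, hst, hcls, es, et⟩ := F4.checked.two_invol_classes (F := F) hF f4_orth hker
    f4_orbits f4_signs_s f4_signs_t f4_cent_s f4_cent_t (by decide) (by decide)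
    (by rw [F4.checked.tables.rank]; decide) (by rw [F4.checked.tables.rank]; decide) (by
      intro h
      simp only [List.map_cons, List.map_nil, List.prod_cons, List.prod_nil, mul_one, ← hqdef] at h
      have hp : ∀ n : ℕ, 1 ≤ n → (1 : ℤ) < (q : ℤ) ^ n := fun n hn =>
        one_lt_pow₀ (by exact_mod_cast hq) (by omega)
      have h2 := hp 2 (by norm_num)
      have h4 := hp 4 (by norm_num)
      have h6 := hp 6 (by norm_num)
      have hc : (0 : ℤ) < (q : ℤ) ^ 10 * (((q : ℤ) ^ 2 - 1) * (((q : ℤ) ^ 4 - 1) * ((q : ℤ) ^ 6 - 1))) := by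
        have h10 : (0 : ℤ) < (q : ℤ) ^ 10 := by linarith [hp 10 (by norm_num)]
        exact mul_pos h10 (mul_pos (by linarith) (mul_pos (by linarith) (by linarith)))
      have h' : (q : ℤ) ^ 6 * ((q : ℤ) ^ 8 - 1) = (q : ℤ) ^ 2 - 1 := by
        refine mul_left_cancel₀ hc.ne' ?_
        linear_combination h
      have h8 : (q : ℤ) ^ 8 = ((q : ℤ) ^ 2) ^ 4 := by ring
      nlinarith [h', h2, h6, mul_lt_mul_of_pos_left h2 (show (0 : ℤ) < (q : ℤ) ^ 6 by linarith)])
  refine ⟨s, t, hs, ht, hst, hcls, ?_, ?_⟩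
  · rw [← Nat.cast_inj (R := ℤ), es]
    simp only [List.map_cons, List.map_nil, List.prod_cons, List.prod_nil, mul_one]
    push_cast [Nat.cast_sub (Nat.one_le_pow _ q (by omega))]
    ring
  · rw [← Nat.cast_inj (R := ℤ), et]
    simp only [List.map_cons, List.map_nil, List.prod_cons, List.prod_nil, mul_one]
    push_cast [Nat.cast_sub (Nat.one_le_pow _ q (by omega))]
    ring

end Cfsg.Agent.S4280
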