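import Cfsg.Statements.S4281

import Cfsg.Agent.Lib.Chev.InvolF4E8
set_option autoImplicit false
open scoped BigOperators
open Cfsg

namespace Cfsg.Agent.S4281

open Cfsg.Agent.Lib Cfsg.Agent.Lib.Chev

/-- In the Chevalley group of type E₈ over a finite field of odd order q there are exactly two conjugacy classes of involutions; the centralizer of an involution in one class has order q⁵⁶(q⁸ − 1)·∏_{i=1}^{7}(q^{2i} − 1), and in the other class q⁶⁴(q² − 1)²(q⁶ − 1)(q⁸ − 1)(q¹⁰ − 1)(q¹² − 1)(q¹⁴ − 1)(q¹⁸ − 1). -/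
theorem result {F : Type*} [Field F] [Fintype F] (hF : Odd (Fintype.card F)) : ∃ s t : ↥(Cfsg.Lie.chevE8.group F), orderOf s = 2 ∧ orderOf t = 2 ∧ ¬ IsConj s t ∧ (∀ u : ↥(Cfsg.Lie.chevE8.group F), orderOf u = 2 → IsConj u s ∨ IsConj u t) ∧ Nat.card (Subgroup.centralizer ({s} : Set ↥(Cfsg.Lie.chevE8.group F))) = Fintype.card F ^ 56 * (Fintype.card F ^ 8 - 1) * ∏ i ∈ Finset.Icc 1 7, (Fintype.card F ^ (2 * i) - 1) ∧ Nat.card (Subgroup.centralizer ({t} : Set ↥(Cfsg.Lie.chevE8.group F))) = Fintype.card F ^ 64 * (Fintype.card F ^ 2 - 1) ^ 2 * (Fintype.card F ^ 6 - 1) * (Fintype.card F ^ 8 - 1) * (Fintype.card F ^ 10 - 1) * (Fintype.card F ^ 12 - 1) * (Fintype.card F ^ 14 - 1) * (Fintype.card F ^ 18 - 1) := by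
  have hker : Nat.card (E8.checked.cartanMap (F := F)).ker = 1 := by
    rw [E8.checked.card_ker_cartanMap smith_E8, show E8.fast.l = 8 from rfl]
    simp [Finset.prod_range_succ]
  have hq : 1 < Fintype.card F := Fintype.one_lt_card
  set q := Fintype.card F with hqdef
  obtain ⟨s, t, hs, ht, hst, hcls, es, et⟩ := E8.checked.two_invol_classes (F := F) hF e8_orth hker
    e8_orbits e8_signs_s e8_signs_t e8_cent_s e8_cent_t (by decide) (by decide)
    (by rw [E8.checked.tables.rank]; decide) (by rw [E8.checked.tables.rank]; decide) (by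
      intro h
      simp only [List.map_cons, List.map_nil, List.prod_cons, List.prod_nil, mul_one, ← hqdef] at h
      rw [show (q : ℤ) ^ 64 = (q : ℤ) ^ 56 * (q : ℤ) ^ 8 by ring, mul_assoc] at h
      have h' := mul_left_cancel₀ (pow_ne_zero 56 (by exact_mod_cast (show q ≠ 0 by omega))) h
      have : Fact (1 < q) := ⟨hq⟩
      have h'' := congrArg (Int.cast : ℤ → ZMod q) h'
      push_cast at h''
      simp at h'')
  refine ⟨s, t, hs, ht, hst, hcls, ?_, ?_⟩
  · rw [← Nat.cast_inj (R := ℤ), es]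
    simp only [List.map_cons, List.map_nil, List.prod_cons, List.prod_nil, mul_one,
      show Finset.Icc 1 7 = ({1, 2, 3, 4, 5, 6, 7} : Finset ℕ) by decide]
    simp [Nat.cast_sub (Nat.one_le_pow _ q (by omega))]
    ring
  · rw [← Nat.cast_inj (R := ℤ), et]
    simp only [List.map_cons, List.map_nil, List.prod_cons, List.prod_nil, mul_one]
    push_cast [Nat.cast_sub (Nat.one_le_pow _ q (by omega))]
    ring

end Cfsg.Agent.S4281
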