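import Cfsg.Statements.S4282
import Cfsg.Agent.Lib.HallHigman.TheoremB

set_option autoImplicit false
open Cfsg

namespace Cfsg.Agent.S4282

open Cfsg.Agent.Lib.HallHigman in

/-- A critical case behind the Hall–Higman theorem. Let p ≠ q be primes and G a finite group generated by a normal q-subgroup Q and a cyclic p-subgroup generated by x, such that the centralizer of every non-identity element of that cyclic subgroup is its product with the centre of G. Let K be an algebraically closed field of characteristic p and ρ a faithful representation of G on a nonzero finite-dimensional K-space whose restriction to Q is irreducible. If s is the least exponent with (ρ(x) − 1)^s = 0, then |⟨x⟩| − 1 ≤ s ≤ |⟨x⟩|; and if s = |⟨x⟩| − 1 then |⟨x⟩| − 1 is a power of q and Q is non-abelian. -/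
theorem result {G : Type*} [Group G] [Finite G] (p q : ℕ) [Fact p.Prime] [Fact q.Prime] (hpq : p ≠ q) (Q : Subgroup G) [Q.Normal] (hQ : IsPGroup q Q) (x : G) (hx : IsPGroup p (Subgroup.zpowers x)) (hgen : Q ⊔ Subgroup.zpowers x = ⊤) (hC : ∀ y ∈ Subgroup.zpowers x, y ≠ 1 → Subgroup.centralizer ({y} : Set G) = Subgroup.zpowers x ⊔ Subgroup.center G) {K : Type*} [Field K] [IsAlgClosed K] [CharP K p] {V : Type*} [AddCommGroup V] [Module K V] [FiniteDimensional K V] [Nontrivial V] (ρ : Representation K G V) (hfaith : Function.Injective ρ) (hirr : ∀ W : Submodule K V, (∀ g ∈ Q, Submodule.map (ρ g) W ≤ W) → W = ⊥ ∨ W = ⊤) (s : ℕ) (hs : (ρ x - 1) ^ s = 0) (hmin : ∀ k < s, (ρ x - 1) ^ k ≠ 0) : Nat.card (Subgroup.zpowers x) - 1 ≤ s ∧ s ≤ Nat.card (Subgroup.zpowers x) ∧ (s = Nat.card (Subgroup.zpowers x) - 1 → (∃ b : ℕ, Nat.card (Subgroup.zpowers x) - 1 = q ^ b) ∧ ¬ IsMulCommutative Q) := by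
  have hp : p.Prime := Fact.out
  have hq : q.Prime := Fact.out
  have hqK : (q : K) ≠ 0 := fun h => hpq ((Nat.prime_dvd_prime_iff_eq hp hq).mp ((CharP.cast_eq_zero_iff K p q).mp h))
  obtain ⟨n, hn⟩ := IsPGroup.iff_card.mp hx
  rw [hn]
  have hord : orderOf x = p ^ n := by rw [← Nat.card_zpowers, hn]
  have hxN : x ^ p ^ n = 1 := by rw [← hord]; exact pow_orderOf_eq_one x
  have hx0 : (ρ x - 1) ^ p ^ n = 0 := by
    rw [rho_sub_one_pow, ← map_pow, hxN, map_one, sub_self]
  have hsN : s ≤ p ^ n := le_of_not_gt fun h => hmin _ h hx0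
  have hs0 : s ≠ 0 := by
    rintro rfl
    rw [pow_zero] at hs
    obtain ⟨v, hv⟩ := exists_ne (0 : V)
    exact hv (LinearMap.congr_fun hs v)
  rcases Nat.eq_zero_or_pos n with hn0 | hn0
  · subst hn0
    rw [pow_zero] at hsN ⊢
    refine ⟨by omega, hsN, fun h => ?_⟩
    omega
  let ρ' : G →* Module.End K V := ρ
  have hQirr : Irred ρ' Q := fun W hW => hirr W fun g hg => Submodule.map_le_iff_le_comap.mpr (hW g hg)
  have hxQ : x ∈ Subgroup.normalizer (Q : Set G) := by rw [Subgroup.normalizer_eq_top (H := Q)]; trivial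
  have hsr : ∀ i, 0 < i → i < p ^ n → ∀ u ∈ Q, x ^ i * u * (x ^ i)⁻¹ = u → IsScalar ρ' u := by
    intro i hi hin u hu hfix
    have hne : x ^ i ≠ 1 := fun h => by
      have := Nat.le_of_dvd hi (hord ▸ orderOf_dvd_of_pow_eq_one h); omega
    have h1 : u ∈ Subgroup.centralizer ({x ^ i} : Set G) :=
      Subgroup.mem_centralizer_singleton_iff.mpr (mul_inv_eq_iff_eq_mul.mp hfix).symm
    rw [hC _ (Subgroup.npow_mem_zpowers x i) hne, Subgroup.mem_sup_of_normal_right] at h1
    obtain ⟨a, ⟨m, rfl⟩, z, hz, hu'⟩ := h1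
    have h2 : u ^ p ^ n = z ^ p ^ n := by
      rw [← hu', (show Commute (x ^ m) z from (Subgroup.mem_center_iff.mp hz (x ^ m))).mul_pow]
      rw [← zpow_natCast, ← zpow_mul, mul_comm, zpow_mul, zpow_natCast, hxN, one_zpow, one_mul]
    obtain ⟨e, he⟩ := hQ ⟨u, hu⟩
    have hue : u ^ q ^ e = 1 := congrArg Subtype.val he
    have h3 : u ∈ Subgroup.center G := by
      obtain ⟨k, hk⟩ := exists_pow_eq_self_of_coprime (x := u) (n := p ^ n)
        ((Nat.Coprime.pow n e ((Nat.coprime_primes hp hq).mpr hpq)).coprime_dvd_right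
          (orderOf_dvd_of_pow_eq_one hue))
      rw [← hk, h2]
      exact Subgroup.pow_mem _ (Subgroup.pow_mem _ hz _) _
    exact schur hQirr _ fun v _ => by rw [← map_mul, ← map_mul, Subgroup.mem_center_iff.mp h3 v]
  have hQK : (Nat.card Q : K) ≠ 0 := by
    obtain ⟨e, he⟩ := IsPGroup.iff_card.mp hQ
    rw [he, Nat.cast_pow]; exact pow_ne_zero e hqK
  obtain ⟨j, hj⟩ := finrank_eq_prime_pow ρ' Q hQ hQirr
  have hone : ∀ a : K, a ^ p ^ n = 1 → a = 1 := fun a ha => by
    have : (a - 1) ^ p ^ n = 0 := by rw [sub_pow_char_pow, one_pow, ha, sub_self]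
    exact sub_eq_zero.mp (pow_eq_zero_iff (Nat.pow_pos hp.pos).ne' |>.mp this)
  have hD : 2 ≤ Module.finrank K V := by
    by_contra hlt
    have h1 : Module.finrank K V = 1 := by
      have := Module.finrank_pos (R := K) (M := V); omega
    obtain ⟨v, hv⟩ := exists_ne (0 : V)
    have hspan := (finrank_eq_one_iff_of_nonzero' v hv).mp h1
    obtain ⟨a, ha⟩ := hspan (ρ x v)
    have hall : ∀ t : ℕ, ρ (x ^ t) v = a ^ t • v := by
      intro t
      induction t with
      | zero => simp
      | succ t ih => rw [pow_succ', map_mul, Module.End.mul_apply, ih, map_smul, ← ha, smul_smul, pow_succ]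
    have h2 := hall (p ^ n)
    rw [hxN, map_one, Module.End.one_apply] at h2
    have ha1 : a = 1 := hone a (smul_left_injective K hv (h2.symm.trans (one_smul K v).symm))
    have h3 : ρ x = ρ 1 := LinearMap.ext fun t => by
      obtain ⟨c, rfl⟩ := hspan t
      rw [map_smul, ← ha, ha1, one_smul, map_one, Module.End.one_apply]
    have := hfaith h3
    rw [this, orderOf_one] at hord
    have := Nat.one_lt_pow hn0.ne' hp.one_lt
    omega
  obtain ⟨c, hcsum, hcS⟩ := flag_bound (ρ' x - 1) s hs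
  have hcomm : commutant (ρ' x - 1) = commutant (ρ' x) := by
    ext f; rw [mem_commutant, mem_commutant, sub_mul, mul_sub, one_mul, mul_one, sub_left_inj]
  rw [hcomm] at hcS
  have hnd : ¬ p ^ n ∣ Module.finrank K V := by
    rw [hj]
    intro h
    exact hpq ((Nat.prime_dvd_prime_iff_eq hp hq).mp (hp.dvd_of_dvd_pow ((dvd_pow_self p hn0.ne').trans h)))
  have hmain := core (p := p) hn0.ne' ρ' Q hQK hQirr x hxQ hxN hsr
  have hnum := numeric_bound c (Nat.one_lt_pow hn0.ne' hp.one_lt) hnd hD hcsum hcS hmain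
  have hpos := Nat.one_le_pow n p hp.pos
  refine ⟨by omega, hsN, fun hs1 => ⟨⟨j, by omega⟩, fun hab => ?_⟩⟩
  obtain ⟨v, hv⟩ := exists_ne (0 : V)
  have hsp : Submodule.span K ({v} : Set V) = ⊤ := by
    refine (hQirr _ fun u hu w hw => ?_).resolve_left (mt Submodule.span_singleton_eq_bot.mp hv)
    obtain ⟨a, ha⟩ := schur hQirr (ρ' u) fun t ht => by
      rw [← map_mul, ← map_mul]
      exact congrArg ρ' (congrArg Subtype.val (hab.is_comm.comm (⟨t, ht⟩ : Q) ⟨u, hu⟩))
    rw [ha, LinearMap.smul_apply]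
    exact Submodule.smul_mem _ _ hw
  have h1 := finrank_span_singleton (K := K) hv
  rw [hsp, finrank_top] at h1
  omega

end Cfsg.Agent.S4282
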