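import Cfsg.Statements.S4283

import Cfsg.Agent.Lib.Struct4.FrobeniusCons
import Mathlib
set_option autoImplicit false
open Cfsg

namespace Cfsg.Agent.S4283

/-- Let G be a finite group with centre Z and let K, H be abelian subgroups of G containing Z such that G/Z is a Frobenius group with complement H/Z and kernel K/Z. Then the conjugacy class sizes of G are exactly 1, [G : K] and [G : H], and these two indices are coprime. (This is the converse half of the characterization of finite groups whose conjugacy class sizes are exactly 1, m and n with m and n coprime.) -/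
theorem result {G : Type*} [Group G] [Finite G] (K H : Subgroup G) (hZK : Subgroup.center G ≤ K) (hZH : Subgroup.center G ≤ H) (hK : IsMulCommutative K) (hH : IsMulCommutative H) (hFrob : Cfsg.IsFrobeniusComplement (H.map (QuotientGroup.mk' (Subgroup.center G)))) (hker : Cfsg.frobeniusKernel (H.map (QuotientGroup.mk' (Subgroup.center G))) = (K.map (QuotientGroup.mk' (Subgroup.center G)) : Set (G ⧸ Subgroup.center G))) : Set.range (fun x : G => (Subgroup.centralizer ({x} : Set G)).index) = ({1, K.index, H.index} : Set ℕ) ∧ K.index.Coprime H.index := by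
  classical
  set Z := Subgroup.center G with hZdef
  set π := QuotientGroup.mk' Z with hπ
  set Hb := H.map π with hHb
  obtain ⟨N, hN, hNn, hNc, hNb, hfpf⟩ := Struct4.exists_kernel_of_fc hFrob
  have hNK : N = K.map π := SetLike.coe_injective (hN.trans hker)
  have hπs : Function.Surjective π := QuotientGroup.mk'_surjective Z
  have hπk : π.ker = Z := QuotientGroup.ker_mk' Z
  have hmemK : ∀ x, π x ∈ N ↔ x ∈ K := fun x => by
    rw [hNK, ← Subgroup.mem_comap, Subgroup.comap_map_eq_self (hπk.le.trans hZK)]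
  have hmemH : ∀ x, π x ∈ Hb ↔ x ∈ H := fun x => by
    rw [hHb, ← Subgroup.mem_comap, Subgroup.comap_map_eq_self (hπk.le.trans hZH)]
  have hKi : K.index = Nat.card Hb := by
    rw [← Subgroup.index_map_eq (f := π) K hπs (hπk.le.trans hZK), ← hNK]
    exact hNc.symm.index_eq_card
  have hHi : H.index = Nat.card N := by
    rw [← Subgroup.index_map_eq (f := π) H hπs (hπk.le.trans hZH)]
    exact hNc.index_eq_card
  have hcop : K.index.Coprime H.index := by
    rw [hKi, ← Subgroup.index_map_eq (f := π) H hπs (hπk.le.trans hZH), ← hHb, Nat.Coprime, Nat.gcd_rec,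
      Lib.Hall.fc_index_mod_card hFrob, ← Nat.gcd_rec, Nat.gcd_one_right]
  have habK : ∀ a ∈ K, ∀ b ∈ K, a * b = b * a := fun a ha b hb =>
    congrArg Subtype.val (mul_comm' (⟨a, ha⟩ : K) ⟨b, hb⟩)
  have habH : ∀ a ∈ H, ∀ b ∈ H, a * b = b * a := fun a ha b hb =>
    congrArg Subtype.val (mul_comm' (⟨a, ha⟩ : H) ⟨b, hb⟩)
  have hcK : ∀ x ∈ K, x ∉ Z → Subgroup.centralizer ({x} : Set G) = K := by
    intro x hx hxZ
    refine le_antisymm (fun y hy => ?_) fun y hy =>
      Subgroup.mem_centralizer_singleton_iff.2 (habK y hy x hx)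
    rw [← hmemK]
    obtain ⟨⟨⟨k, hk⟩, ⟨h, hh⟩⟩, hkh⟩ := hNc.2 (π y)
    simp only at hkh
    have hyx : π y * π x = π x * π y := by
      rw [← map_mul, ← map_mul, Subgroup.mem_centralizer_singleton_iff.1 hy]
    obtain ⟨k₀, hk₀, hk₀'⟩ : ∃ k₀ ∈ K, π k₀ = k := by
      rw [hNK] at hk
      exact Subgroup.mem_map.1 hk
    have hkx : k * π x = π x * k := by rw [← hk₀', ← map_mul, ← map_mul, habK k₀ hk₀ x hx]
    have hhx : h * π x = π x * h := by
      have e : k * (h * π x) = k * (π x * h) := by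
        rw [← mul_assoc, ← mul_assoc, hkh, hkx, mul_assoc, hkh]; exact hyx
      exact mul_left_cancel e
    by_contra hyK
    have hh1 : h ≠ 1 := fun e => hyK (by rw [← hkh, e, mul_one]; exact hk)
    have : π x ∈ N ⊓ Subgroup.centralizer {h} :=
      ⟨(hmemK x).2 hx, Subgroup.mem_centralizer_singleton_iff.2 hhx.symm⟩
    rw [hfpf h hh hh1, Subgroup.mem_bot] at this
    exact hxZ (by rw [← hπk]; exact this)
  have hcH : ∀ x ∈ H, x ∉ Z → Subgroup.centralizer ({x} : Set G) = H := by
    intro x hx hxZ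
    refine le_antisymm (fun y hy => ?_) fun y hy =>
      Subgroup.mem_centralizer_singleton_iff.2 (habH y hy x hx)
    rw [← hmemH]
    refine Lib.Hall.fc_centralizer_le hFrob ((hmemH x).2 hx) (fun e => hxZ (hπk ▸ e)) ?_
    exact Subgroup.mem_centralizer_singleton_iff.2 (by
      rw [← map_mul, ← map_mul, Subgroup.mem_centralizer_singleton_iff.1 hy])
  have hcZ : ∀ x ∈ Z, (Subgroup.centralizer ({x} : Set G)).index = 1 := fun x hx => by
    rw [Subgroup.index_eq_one, eq_top_iff]
    exact fun y _ => Subgroup.mem_centralizer_singleton_iff.2 (Subgroup.mem_center_iff.1 hx y)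
  refine ⟨Set.ext fun n => ⟨?_, ?_⟩, hcop⟩
  · rintro ⟨x, rfl⟩
    simp only [Set.mem_insert_iff, Set.mem_singleton_iff]
    by_cases hxZ : x ∈ Z
    · exact Or.inl (hcZ x hxZ)
    by_cases hxK : x ∈ K
    · exact Or.inr (Or.inl (by rw [hcK x hxK hxZ]))
    refine Or.inr (Or.inr ?_)
    have hnk : π x ∉ Cfsg.frobeniusKernel Hb := fun h => hxK ((hmemK x).1 (hN ▸ h :))
    rw [Lib.Hall.frobeniusKernel_eq_compl, Set.notMem_compl_iff] at hnk
    obtain ⟨-, c, hc⟩ := hnk
    obtain ⟨c₀, rfl⟩ := hπs c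
    have hx0 : c₀⁻¹ * x * c₀ ∈ H := by
      rw [← hmemH, map_mul, map_mul, map_inv]
      exact Lib.Coprime.mem_conj_smul.1 hc
    have hx0Z : c₀⁻¹ * x * c₀ ∉ Z := fun h => hxZ (by
      have := Subgroup.Normal.conj_mem (inferInstance : Z.Normal) _ h c₀
      simpa [mul_assoc] using this)
    rw [← hcH _ hx0 hx0Z]
    have e : Subgroup.centralizer ({x} : Set G) =
        (Subgroup.centralizer ({c₀⁻¹ * x * c₀} : Set G)).map (MulAut.conj c₀).toMonoidHom := by
      ext y
      rw [Subgroup.mem_centralizer_singleton_iff, Subgroup.mem_map]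
      constructor
      · intro hy
        refine ⟨c₀⁻¹ * y * c₀, Subgroup.mem_centralizer_singleton_iff.2 ?_, by simp [mul_assoc]⟩
        calc c₀⁻¹ * y * c₀ * (c₀⁻¹ * x * c₀) = c₀⁻¹ * (y * x) * c₀ := by group
          _ = c₀⁻¹ * (x * y) * c₀ := by rw [hy]
          _ = _ := by group
      · rintro ⟨z, hz, rfl⟩
        have hz' := Subgroup.mem_centralizer_singleton_iff.1 hz
        simp only [MulEquiv.coe_toMonoidHom, MulAut.conj_apply]
        calc c₀ * z * c₀⁻¹ * x = c₀ * (z * (c₀⁻¹ * x * c₀)) * c₀⁻¹ := by group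
          _ = c₀ * ((c₀⁻¹ * x * c₀) * z) * c₀⁻¹ := by rw [hz']
          _ = _ := by group
    rw [e]
    exact Subgroup.index_map_equiv _ (MulAut.conj c₀)
  · simp only [Set.mem_insert_iff, Set.mem_singleton_iff]
    have hnb : ∀ (M : Subgroup G) (P : Subgroup (G ⧸ Z)), P ≠ ⊥ → (∀ x, π x ∈ P ↔ x ∈ M) →
        ∃ x ∈ M, x ∉ Z := by
      intro M P hP hMP
      obtain ⟨⟨q, hq⟩, hq1⟩ := @exists_ne P ((Subgroup.nontrivial_iff_ne_bot P).2 hP) 1
      obtain ⟨x, rfl⟩ := hπs q
      exact ⟨x, (hMP x).1 hq, fun h => hq1 (Subtype.ext ((QuotientGroup.eq_one_iff x).2 h))⟩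
    rintro (rfl | rfl | rfl)
    · exact ⟨1, hcZ 1 (one_mem _)⟩
    · obtain ⟨x, hx, hxZ⟩ := hnb K N hNb hmemK
      exact ⟨x, by simp only [hcK x hx hxZ]⟩
    · obtain ⟨x, hx, hxZ⟩ := hnb H Hb hFrob.1 hmemH
      exact ⟨x, by simp only [hcH x hx hxZ]⟩

end Cfsg.Agent.S4283
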