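import Cfsg.Statements.S4291
import Mathlib
import Cfsg.Agent.Lib.ZassSL25.SixTypes

set_option autoImplicit false
open Cfsg

namespace Cfsg.Agent.S4291

/-- Let G be a finite group that occurs as a Frobenius complement. Then G has exactly one normal subgroup N such that every Sylow subgroup of N is cyclic and the quotient of G by N is trivial or isomorphic to one of the following five groups: the Klein four-group, the alternating group of degree 4, the symmetric group of degree 4, the alternating group of degree 5, the symmetric group of degree 5. (The quotient is described by a surjective homomorphism with kernel N; the Klein four-group is written as the dihedral group of order 4.) -/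
theorem result {G : Type*} [Group G] [Finite G]
    (hFC : (∃ (L : Type) (_ : Group L) (_ : Finite L) (H : Subgroup L), Cfsg.IsFrobeniusComplement H ∧ Nonempty (G ≃* H))) :
    ∃! N : Subgroup G, N.Normal ∧ (∀ (p : ℕ) [Fact p.Prime] (P : Sylow p N), IsCyclic P) ∧
      (N = ⊤ ∨
        (∃ f : G →* DihedralGroup 2, Function.Surjective f ∧ f.ker = N) ∨
        (∃ f : G →* alternatingGroup (Fin 4), Function.Surjective f ∧ f.ker = N) ∨
        (∃ f : G →* Equiv.Perm (Fin 4), Function.Surjective f ∧ f.ker = N) ∨
        (∃ f : G →* alternatingGroup (Fin 5), Function.Surjective f ∧ f.ker = N) ∨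
        (∃ f : G →* Equiv.Perm (Fin 5), Function.Surjective f ∧ f.ker = N)) := by
  obtain ⟨N, ⟨hn, hZ, hq⟩, huniq⟩ := Lib.ZassSL25.sixTypes_unique (Lib.ZassSL25.fpfGroup_of_isFC hFC)
  exact ⟨N, ⟨hn, fun p hp P => @IsZGroup.isZGroup _ _ hZ p hp.out P, hq⟩,
    fun N' ⟨hn', hZ', hq'⟩ => huniq N' ⟨hn', ⟨fun p hp P => @hZ' p ⟨hp⟩ P⟩, hq'⟩⟩

end Cfsg.Agent.S4291
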