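import Cfsg.Statements.S4292

import Cfsg.Agent.Lib.Struct4.FCModule
set_option autoImplicit false
open Cfsg

namespace Cfsg.Agent.S4292


theorem nontrivial_hom {q : ℕ} [Fact q.Prime] {S T : Type} [AddCommGroup S] [AddCommGroup T]
    [Nontrivial S] [Nontrivial T] [Module (ZMod q) S] [Module (ZMod q) T] : Nontrivial (S →+ T) := by
  obtain ⟨t, ht⟩ := exists_ne (0 : T)
  let bs := Module.Basis.ofVectorSpace (ZMod q) S
  obtain ⟨i⟩ := bs.index_nonempty
  refine ⟨⟨((bs.coord i).smulRight t).toAddMonoidHom, 0, fun h => ht ?_⟩⟩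
  simpa using DFunLike.congr_fun h (bs i)

/-- Let A and B be nontrivial finite groups. Then the direct product A × B occurs as a Frobenius complement if and only if A and B both occur as Frobenius complements and the orders of A and B are coprime. -/
theorem result {A B : Type*} [Group A] [Finite A] [Nontrivial A] [Group B] [Finite B] [Nontrivial B] :
    (∃ (L : Type) (_ : Group L) (_ : Finite L) (H : Subgroup L), Cfsg.IsFrobeniusComplement H ∧ Nonempty ((A × B) ≃* H)) ↔
    ((∃ (L : Type) (_ : Group L) (_ : Finite L) (H : Subgroup L), Cfsg.IsFrobeniusComplement H ∧ Nonempty (A ≃* H)) ∧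
     (∃ (L : Type) (_ : Group L) (_ : Finite L) (H : Subgroup L), Cfsg.IsFrobeniusComplement H ∧ Nonempty (B ≃* H)) ∧
     (Nat.card A).Coprime (Nat.card B)) := by
  constructor
  · intro h
    refine ⟨Struct4.IsFC.of_injective h (MonoidHom.inl A B) (fun a a' e => congrArg Prod.fst e),
      Struct4.IsFC.of_injective h (MonoidHom.inr A B) (fun a a' e => congrArg Prod.snd e), ?_⟩
    by_contra hnc
    obtain ⟨r, hr, hrA, hrB⟩ := Nat.Prime.not_coprime_iff_dvd.1 hnc
    have := Fact.mk hr
    obtain ⟨a, ha⟩ := exists_prime_orderOf_dvd_card' r hrA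
    obtain ⟨b, hb⟩ := exists_prime_orderOf_dvd_card' r hrB
    refine Struct4.no_prime_square h hr ((Subgroup.zpowers a).prod (Subgroup.zpowers b)) ?_ ?_ ?_
    · rintro x ⟨⟨i, hi⟩, ⟨j, hj⟩⟩ y ⟨⟨i', hi'⟩, ⟨j', hj'⟩⟩
      ext
      · simp only [Prod.fst_mul, ← hi, ← hi', ← zpow_add, add_comm]
      · simp only [Prod.snd_mul, ← hj, ← hj', ← zpow_add, add_comm]
    · rintro x ⟨h1, h2⟩
      refine Prod.ext ?_ ?_
      · rw [Prod.pow_fst, Prod.fst_one]
        exact orderOf_dvd_iff_pow_eq_one.1 ((orderOf_dvd_of_mem_zpowers h1).trans ha.dvd)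
      · rw [Prod.pow_snd, Prod.snd_one]
        exact orderOf_dvd_iff_pow_eq_one.1 ((orderOf_dvd_of_mem_zpowers h2).trans hb.dvd)
    · rw [Nat.card_congr (Subgroup.prodEquiv _ _).toEquiv, Nat.card_prod, Nat.card_zpowers,
        Nat.card_zpowers, ha, hb, sq]
  · rintro ⟨hA, hB, hcop⟩
    obtain ⟨q, hq1, hq2⟩ := Nat.exists_infinite_primes (Nat.card A * Nat.card B + 1)
    have := Fact.mk hq2
    have hA0 := Nat.card_pos (α := A)
    have hB0 := Nat.card_pos (α := B)
    obtain ⟨S, _, _, _, σ, hS, hσ⟩ := Struct4.exists_module_of_fc hA (q := q) (fun h => by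
      have := Nat.le_of_dvd hA0 h; nlinarith)
    obtain ⟨T, _, _, _, τ, hT, hτ⟩ := Struct4.exists_module_of_fc hB (q := q) (fun h => by
      have := Nat.le_of_dvd hB0 h; nlinarith)
    letI mS : Module (ZMod q) S := AddCommGroup.zmodModule hS
    letI mT : Module (ZMod q) T := AddCommGroup.zmodModule hT
    have : Finite (S →+ T) := Finite.of_injective (fun f => (f : S → T)) DFunLike.coe_injective
    have : Nontrivial (S →+ T) := nontrivial_hom (q := q)
    let ρ : A × B →* AddMonoid.End (S →+ T) :=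
      { toFun := fun x =>
          AddMonoidHom.mk' (fun f => AddMonoidHom.mk' (fun s => τ x.2 (f (σ x.1⁻¹ s)))
              (fun s s' => by simp only [map_add]))
            (fun f g => AddMonoidHom.ext fun s => (map_add (τ x.2) _ _))
        map_one' := by
          refine AddMonoidHom.ext fun f => AddMonoidHom.ext fun s => ?_
          show τ (1 : B) (f (σ (1 : A)⁻¹ s)) = f s
          rw [inv_one, map_one, map_one]
          rfl
        map_mul' := fun x y => by
          refine AddMonoidHom.ext fun f => AddMonoidHom.ext fun s => ?_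
          show τ (x.2 * y.2) (f (σ (x.1 * y.1)⁻¹ s)) = τ x.2 (τ y.2 (f (σ y.1⁻¹ (σ x.1⁻¹ s))))
          rw [mul_inv_rev, map_mul, map_mul]
          rfl }
    have key2 : ∀ b : B, b ≠ 1 → ∀ f, ρ (1, b) f = f → f = 0 := fun b hb f hf => by
      ext s
      have h : τ b (f (σ (1 : A)⁻¹ s)) = f s := DFunLike.congr_fun hf s
      rw [inv_one, map_one] at h
      exact hτ b hb _ h
    have key1 : ∀ a : A, a ≠ 1 → ∀ f, ρ (a, 1) f = f → f = 0 := fun a ha f hf => by
      have hsurj : Function.Surjective fun s => σ a⁻¹ s - s := by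
        refine Finite.injective_iff_surjective.1 fun s s' hs => sub_eq_zero.1 (hσ a⁻¹ (by simpa) _ ?_)
        rw [map_sub]
        rw [sub_eq_sub_iff_sub_eq_sub] at hs
        exact hs
      ext s
      obtain ⟨s', rfl⟩ := hsurj s
      have h : τ (1 : B) (f (σ a⁻¹ s')) = f s' := DFunLike.congr_fun hf s'
      rw [map_one] at h
      replace h : f (σ a⁻¹ s') = f s' := h
      simp [h]
    obtain ⟨L, i1, i2, K, hK, hiso, -⟩ := Struct4.fc_of_fpf_add ρ fun x hx f hf => by
      have hp : ∀ n : ℕ, ρ (x ^ n) f = f := fun n => by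
        induction n with
        | zero => rw [pow_zero, map_one]; rfl
        | succ n ih => rw [pow_succ, map_mul]; exact (congrArg (ρ (x ^ n)) hf).trans ih
      by_cases hb : x.2 = 1
      · refine key1 x.1 (fun h => hx (Prod.ext h hb)) f ?_
        rw [← hb]; exact hf
      · have hxn : x ^ Nat.card A = (1, x.2 ^ Nat.card A) := Prod.ext (by simp) (by simp)
        refine key2 (x.2 ^ Nat.card A) (fun h => hb ?_) f (hxn ▸ hp _)
        have h1 := orderOf_dvd_of_pow_eq_one h
        have h2 := Nat.dvd_gcd h1 (orderOf_dvd_natCard x.2)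
        rw [hcop, Nat.dvd_one] at h2
        exact orderOf_eq_one_iff.1 h2
    exact ⟨L, i1, i2, K, hK, hiso⟩

end Cfsg.Agent.S4292
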