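import Cfsg.Statements.S4293

import Cfsg.Agent.Lib.Struct4.FCModule
set_option autoImplicit false
open Cfsg

namespace Cfsg.Agent.S4293

/-- A nontrivial finite subgroup of the multiplicative group of a division ring occurs as a Frobenius complement of some finite Frobenius group. -/
theorem result {D : Type*} [DivisionRing D] (H : Subgroup Dˣ) [Finite H] (hH : H ≠ ⊥) :
    ∃ (L : Type) (_ : Group L) (_ : Finite L) (C : Subgroup L), Cfsg.IsFrobeniusComplement C ∧ Nonempty (H ≃* C) := by
  classical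
  obtain ⟨C, _, _, ⟨e⟩⟩ := Struct4.exists_type0 H
  have : Nontrivial H := (Subgroup.nontrivial_iff_ne_bot H).2 hH
  have : Nontrivial C := e.symm.toEquiv.nontrivial
  let g : C →* D := (Units.coeHom D).comp (H.subtype.comp e.symm.toMonoidHom)
  have hg : Function.Injective g :=
    Units.val_injective.comp (Subtype.val_injective.comp e.symm.injective)
  have hkill : ∀ {k : Type} [CommRing k] (f : k →+* D) (hc : ∀ x y, Commute (f x) (g y)),
      ∀ c : C, c ≠ 1 → MonoidAlgebra.liftNCRingHom f g hc (Struct4.normEl k c) = 0 := by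
    intro k _ f hc c hc1
    set Φ := MonoidAlgebra.liftNCRingHom f g hc
    have hof : ∀ y, Φ (MonoidAlgebra.of k C y) = g y := fun y => by
      rw [MonoidAlgebra.of_apply]
      refine (MonoidAlgebra.liftNC_single _ _ y (1 : k)).trans ?_
      simp
    have h := congrArg Φ (Struct4.of_mul_normEl k c)
    rw [map_mul, hof] at h
    have h2 : (g c - 1) * Φ (Struct4.normEl k c) = 0 := by rw [sub_mul, one_mul, h, sub_self]
    exact (mul_eq_zero.1 h2).resolve_left fun h3 => hc1 (hg (by rw [map_one, sub_eq_zero.1 h3]))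
  obtain ⟨q, hq, hqC, h1⟩ : ∃ (q : ℕ) (_ : Fact q.Prime), ¬ q ∣ Nat.card C ∧
      (1 : MonoidAlgebra (ZMod q) C) ∉ Struct4.fpfIdeal (ZMod q) C := by
    obtain ⟨r, hr⟩ := CharP.exists D
    rcases CharP.char_is_prime_or_zero D r with hrp | rfl
    · have := Fact.mk hrp
      refine ⟨r, this, fun hdvd => ?_, Struct4.one_notMem_of_ringHom _
        (MonoidAlgebra.liftNCRingHom (ZMod.castHom dvd_rfl D) g fun x y => ?_) (hkill _ _)⟩
      · obtain ⟨c, hc⟩ := exists_prime_orderOf_dvd_card' r hdvd
        have h2 : (g c - 1) ^ r = 0 := by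
          rw [sub_pow_char_of_commute r (Commute.one_right _), ← map_pow, ← hc, pow_orderOf_eq_one,
            map_one, hc, one_pow, sub_self]
        have h3 : c = 1 := hg (by rw [map_one, sub_eq_zero.1 (pow_eq_zero_iff hrp.ne_zero |>.1 h2)])
        rw [h3, orderOf_one] at hc
        exact hrp.one_lt.ne hc
      · rw [← ZMod.natCast_zmod_val x, map_natCast]
        exact Nat.cast_commute _ _
    · have := CharP.charP_to_charZero D
      obtain ⟨q, hq1, hq2⟩ := Nat.exists_infinite_primes (Nat.card C + 1)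
      refine ⟨q, ⟨hq2⟩, fun hd => by have := Nat.le_of_dvd Nat.card_pos hd; omega,
        Struct4.one_notMem_of_int hq2.one_lt fun z hz hmem => ?_⟩
      let Φ : MonoidAlgebra ℤ C →+* D :=
        MonoidAlgebra.liftNCRingHom (Int.castRingHom D) g fun x y => Int.cast_commute _ _
      have hz0 : ∀ x ∈ Struct4.fpfIdeal ℤ C, Φ x = 0 := fun x hx => by
        refine Submodule.span_induction ?_ (map_zero Φ) ?_ ?_ hx
        · rintro _ ⟨c, y, hc, rfl⟩
          rw [map_mul, hkill _ _ c hc, zero_mul]
        · intro a b _ _ ha hb; rw [map_add, ha, hb, add_zero]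
        · intro a b _ hb; rw [smul_eq_mul, map_mul, hb, mul_zero]
      have h2 := hz0 _ hmem
      rw [map_intCast, Int.cast_eq_zero] at h2
      exact hz h2
  obtain ⟨T, _, _, _, ρ, -, hρ⟩ := Struct4.exists_fpf_module hqC h1
  obtain ⟨L, i1, i2, K, hK, ⟨f⟩, -⟩ := Struct4.fc_of_fpf_add ρ hρ
  exact ⟨L, i1, i2, K, hK, ⟨e.trans f⟩⟩

end Cfsg.Agent.S4293
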