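import Cfsg.Statements.S4294
import Mathlib
import Cfsg.Agent.Lib.ZassSL25.Twist
import Cfsg.Agent.Lib.ZassSL25.DivisionRing
import Cfsg.Agent.S4293

set_option autoImplicit false
open Cfsg

namespace Cfsg.Agent.S4294

open Subgroup Lib.ZassSL25

/-- A division ring with a nonsolvable finite group of units has characteristic zero. -/
theorem charZero_of_nonsolvable {D : Type*} [DivisionRing D] (H : Subgroup Dˣ) [Finite H]
    (hH : ¬ Group.IsSolvable H) : CharZero D := by
  obtain ⟨r, hr⟩ := CharP.exists D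
  rcases CharP.char_is_prime_or_zero D r with hrp | rfl
  · exfalso
    haveI := Fact.mk hrp
    letI := ZMod.algebra D r
    let T : Submonoid D := Submonoid.map (Units.coeHom D) H.toSubmonoid
    have hfin : (T : Set D).Finite := by
      haveI : Finite H.toSubmonoid := inferInstanceAs (Finite H)
      exact (Set.toFinite (H.toSubmonoid : Set Dˣ)).image _
    set R := Algebra.adjoin (ZMod r) (T : Set D)
    have hR : Subalgebra.toSubmodule R = Submodule.span (ZMod r) (T : Set D) := by
      rw [Algebra.adjoin_eq_span, Submonoid.closure_eq]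
    haveI : Module.Finite (ZMod r) (Subalgebra.toSubmodule R) := hR ▸ Module.Finite.span_of_finite _ hfin
    haveI : Finite R := Module.finite_of_finite (ZMod r) (M := Subalgebra.toSubmodule R)
    have hcomm : ∀ a b : R, a * b = b * a :=
      (Finite.isDomain_to_isField R).mul_comm
    refine hH (Group.isSolvable_of_comm fun a b => Subtype.ext (Units.ext ?_))
    exact congrArg Subtype.val (hcomm ⟨_, Algebra.subset_adjoin ⟨(a : Dˣ), a.2, rfl⟩⟩
      ⟨_, Algebra.subset_adjoin ⟨(b : Dˣ), b.2, rfl⟩⟩)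
  · exact CharP.charP_to_charZero D

/-- The sum of an element of order five and its inverse. -/
def tau {D : Type*} [DivisionRing D] (v : D) : D := v + v ^ 4

/-- In a perfect group of order 120 the elements of order four, three and five generate. -/
theorem closure_eq_top {S : Type*} [Group S] [Finite S] (hc : Nat.card S = 120) (hp : commutator S = ⊤)
    {a b : S} (ha : orderOf a = 4) (hb : orderOf b = 3) (hab : orderOf (a * b) = 5) :
    closure ({a, b} : Set S) = ⊤ := by
  set K := closure ({a, b} : Set S)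
  have haK : a ∈ K := subset_closure (Or.inl rfl)
  have hbK : b ∈ K := subset_closure (Or.inr rfl)
  have h60 : 4 * 3 * 5 ∣ Nat.card K := by
    refine Nat.Coprime.mul_dvd_of_dvd_of_dvd (by norm_num) (Nat.Coprime.mul_dvd_of_dvd_of_dvd (by norm_num) ?_ ?_) ?_
    · rw [← ha]; exact K.orderOf_dvd_natCard haK
    · rw [← hb]; exact K.orderOf_dvd_natCard hbK
    · rw [← hab]; exact K.orderOf_dvd_natCard (mul_mem haK hbK)
  have h1 := K.card_mul_index
  rw [hc] at h1
  have hd : K.index ∣ 2 := by
    obtain ⟨d, hd⟩ := h60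
    rw [hd] at h1
    exact ⟨d, Nat.eq_of_mul_eq_mul_left (show 0 < 60 by norm_num) (by linarith)⟩
  rcases (Nat.dvd_prime Nat.prime_two).1 hd with e | e
  · exact index_eq_one.1 e
  · exfalso
    haveI := Subgroup.normal_of_index_eq_two e
    haveI : Fact (Nat.Prime 2) := ⟨Nat.prime_two⟩
    haveI : IsCyclic (S ⧸ K) := isCyclic_of_prime_card (p := 2) (by rw [← Subgroup.index_eq_card, e])
    haveI : Group.IsSolvable (S ⧸ K) := Group.isSolvable_of_comm fun x y => by
      obtain ⟨g, hg⟩ := IsCyclic.exists_generator (α := S ⧸ K)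
      obtain ⟨m, rfl⟩ := mem_zpowers_iff.1 (hg x)
      obtain ⟨n, rfl⟩ := mem_zpowers_iff.1 (hg y)
      rw [← zpow_add, ← zpow_add, add_comm]
    have : K = ⊤ := (eq_top_iff' K).2 fun x => (QuotientGroup.eq_one_iff x).1
      (map_eq_one_of_perfect hp (QuotientGroup.mk' K) x)
    rw [this, index_top] at e
    norm_num at e


/-- Three elements of the special linear group of degree two over five elements. -/
theorem sl_elements : ∃ A B I : Matrix.SpecialLinearGroup (Fin 2) (ZMod 5),
    orderOf A = 4 ∧ orderOf B = 3 ∧ orderOf I = 4 ∧ orderOf (A * B) = 5 ∧ I * (A * B) = (A * B) ^ 4 * I := by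
  obtain ⟨A, hA⟩ : ∃ A : Matrix.SpecialLinearGroup (Fin 2) (ZMod 5), A.val = !![0, -1; 1, 0] :=
    ⟨⟨_, by decide +kernel⟩, rfl⟩
  obtain ⟨B, hB⟩ : ∃ B : Matrix.SpecialLinearGroup (Fin 2) (ZMod 5), B.val = !![0, 1; -1, -1] :=
    ⟨⟨_, by decide +kernel⟩, rfl⟩
  obtain ⟨I, hI⟩ : ∃ I : Matrix.SpecialLinearGroup (Fin 2) (ZMod 5), I.val = !![2, 0; 0, 3] :=
    ⟨⟨_, by decide +kernel⟩, rfl⟩
  have hord : ∀ (X : Matrix.SpecialLinearGroup (Fin 2) (ZMod 5)) (p n : ℕ) [Fact p.Prime],
      X.val ^ p ^ n ≠ 1 → X.val ^ p ^ (n + 1) = 1 → orderOf X = p ^ (n + 1) := by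
    intro X p n _ h1 h2
    refine orderOf_eq_prime_pow (fun h => h1 ?_) ?_
    · have := congrArg Subtype.val h
      rwa [Matrix.SpecialLinearGroup.coe_pow] at this
    · exact Subtype.ext (by rw [Matrix.SpecialLinearGroup.coe_pow]; exact h2)
  refine ⟨A, B, I, @hord A 2 1 ⟨Nat.prime_two⟩ (by rw [hA]; decide +kernel) (by rw [hA]; decide +kernel),
    @hord B 3 0 ⟨Nat.prime_three⟩ (by rw [hB]; decide +kernel) (by rw [hB]; decide +kernel),
    @hord I 2 1 ⟨Nat.prime_two⟩ (by rw [hI]; decide +kernel) (by rw [hI]; decide +kernel),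
    @hord (A * B) 5 0 ⟨Nat.prime_five⟩ (by rw [Matrix.SpecialLinearGroup.coe_mul, hA, hB]; decide +kernel)
      (by rw [Matrix.SpecialLinearGroup.coe_mul, hA, hB]; decide +kernel), Subtype.ext ?_⟩
  simp only [Matrix.SpecialLinearGroup.coe_mul, Matrix.SpecialLinearGroup.coe_pow, hA, hB, hI]
  decide +kernel

/-- The sums attached to the elements of order five take only two values. -/
theorem tau_cases {S : Type*} [Group S] [Finite S] (hc : Nat.card S = 120) {D : Type*} [DivisionRing D]
    (f : S →* D) {T v : S} (hT : orderOf T = 5) (hv : orderOf v = 5)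
    (hcent : ∀ w, Commute (tau (f T)) (f w)) (hsum : tau (f (T ^ 2)) = -1 - tau (f T)) :
    tau (f v) = tau (f T) ∨ tau (f v) = -1 - tau (f T) := by
  classical
  haveI : Fact (Nat.Prime 5) := ⟨Nat.prime_five⟩
  have hf : (Nat.card S).factorization 5 = 1 := by
    rw [hc, show (120 : ℕ) = 24 * 5 from rfl, Nat.factorization_mul (by norm_num) (by norm_num),
      Finsupp.add_apply, Nat.prime_five.factorization_self, Nat.factorization_eq_zero_of_not_dvd (by norm_num)]
  let P : Sylow 5 S := Sylow.ofCard (zpowers T) (by rw [Nat.card_zpowers, hT, hf, pow_one])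
  let Q : Sylow 5 S := Sylow.ofCard (zpowers v) (by rw [Nat.card_zpowers, hv, hf, pow_one])
  obtain ⟨w, hw⟩ := MulAction.exists_smul_eq S Q P
  have hmem : w * v * w⁻¹ ∈ zpowers T := by
    have h1 : w * v * w⁻¹ ∈ ((w • Q : Sylow 5 S) : Subgroup S) := by
      rw [Sylow.coe_subgroup_smul]
      exact ⟨v, mem_zpowers v, rfl⟩
    rwa [hw] at h1
  rw [mem_zpowers_iff_mem_range_orderOf, hT, Finset.mem_image] at hmem
  obtain ⟨k, hk, hkv⟩ := hmem
  rw [Finset.mem_range] at hk
  have hconj : tau (f (w * v * w⁻¹)) = f w * tau (f v) * f w⁻¹ := by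
    have hp : ∀ n : ℕ, (f w * f v * f w⁻¹) ^ n = f w * f v ^ n * f w⁻¹ := fun n => by
      rw [← map_mul, ← map_mul, ← map_pow, conj_pow, map_mul, map_mul, map_pow]
    simp only [tau, map_mul, hp, mul_add, add_mul]
  have hback : tau (f v) = f w⁻¹ * tau (f (w * v * w⁻¹)) * f w := by
    rw [hconj, mul_assoc, mul_assoc, mul_assoc, ← map_mul, inv_mul_cancel, map_one, mul_one, ← mul_assoc,
      ← map_mul, inv_mul_cancel, map_one, one_mul]
  have hT5 : T ^ 5 = 1 := hT ▸ pow_orderOf_eq_one T
  have hred : ∀ m : ℕ, T ^ m = T ^ (m % 5) := fun m => pow_eq_pow_mod m hT5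
  have hval : tau (f (T ^ k)) = tau (f T) ∨ tau (f (T ^ k)) = -1 - tau (f T) := by
    have hpw : ∀ m : ℕ, tau (f (T ^ m)) = f (T ^ (m % 5)) + f (T ^ (m * 4 % 5)) := fun m => by
      rw [tau, ← map_pow, ← pow_mul, hred m, hred (m * 4)]
    have hk0 : k ≠ 0 := by
      rintro rfl
      rw [pow_zero, eq_comm, conj_eq_one_iff] at hkv
      rw [hkv, orderOf_one] at hv
      norm_num at hv
    have h2 := hpw 2
    rw [hsum] at h2
    have hkpos : 1 ≤ k := Nat.pos_of_ne_zero hk0
    interval_cases k
    · exact Or.inl (by rw [pow_one])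
    · exact Or.inr hsum
    · exact Or.inr (by rw [h2, hpw 3]; exact add_comm _ _)
    · exact Or.inl ((hpw 4).trans ((add_comm _ _).trans ((hpw 1).symm.trans (by rw [pow_one]))))
  rw [hback, ← hkv]
  rcases hval with h | h <;> rw [h]
  · left
    rw [← (hcent w⁻¹).eq, mul_assoc, ← map_mul, inv_mul_cancel, map_one, mul_one]
  · right
    have hc' : Commute (-1 - tau (f T)) (f w⁻¹) := ((Commute.one_left _).neg_left).sub_left (hcent w⁻¹)
    rw [← hc'.eq, mul_assoc, ← map_mul, inv_mul_cancel, map_one, mul_one]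

/-- An involutory automorphism of the alternating group of degree five that is not inner. -/
theorem exists_outer_involution : ∃ σ : MulAut (alternatingGroup (Fin 5)), σ * σ = 1 ∧
    σ ∉ (MulAut.conj : alternatingGroup (Fin 5) →* _).range := by
  have hfix : ∀ p : Equiv.Perm (Fin 5), p * (Lib.Icosa.three : Equiv.Perm (Fin 5)) = Lib.Icosa.three * p →
      p * (Lib.Icosa.five : Equiv.Perm (Fin 5)) = Lib.Icosa.five * p → p = 1 := by decide +kernel
  let f : Equiv.Perm (Fin 5) →* MulAut (alternatingGroup (Fin 5)) := MulAut.conjNormal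
  set p : Equiv.Perm (Fin 5) := Equiv.swap 0 1
  refine ⟨f p, ?_, ?_⟩
  · rw [← map_mul, Equiv.swap_mul_self, map_one]
  · rintro ⟨a, ha⟩
    have h1 : ∀ x : alternatingGroup (Fin 5), ((a : Equiv.Perm (Fin 5))⁻¹ * p) * x = x * ((a : Equiv.Perm (Fin 5))⁻¹ * p) := by
      intro x
      have h := congrArg Subtype.val (DFunLike.congr_fun ha x)
      rw [MulAut.conjNormal_apply, MulAut.conj_apply, Subgroup.coe_mul, Subgroup.coe_mul, Subgroup.coe_inv] at h
      calc (a : Equiv.Perm (Fin 5))⁻¹ * p * x = (a : Equiv.Perm (Fin 5))⁻¹ * (p * x * p⁻¹) * p := by group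
        _ = (x : Equiv.Perm (Fin 5)) * ((a : Equiv.Perm (Fin 5))⁻¹ * p) := by rw [← h]; group
    have h2 := hfix _ (h1 _) (h1 _)
    rw [inv_mul_eq_one] at h2
    have h3 := Equiv.Perm.mem_alternatingGroup.1 a.2
    rw [h2, Equiv.Perm.sign_swap (by decide)] at h3
    exact absurd h3 (by decide)

/-- A finite non-solvable subgroup of the multiplicative group of a division ring is isomorphic to the binary icosahedral group SL(2,5). -/
theorem result {D : Type*} [DivisionRing D] (H : Subgroup Dˣ) [Finite H] (hH : ¬ Group.IsSolvable H) :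
    Nonempty (H ≃* Matrix.SpecialLinearGroup (Fin 2) (ZMod 5)) := by
  classical
  haveI := charZero_of_nonsolvable H hH
  have hbot : H ≠ ⊥ := fun e => hH (by
    haveI : Subsingleton H := e ▸ inferInstanceAs (Subsingleton (⊥ : Subgroup Dˣ))
    infer_instance)
  have hfpf := fpfGroup_of_isFC (S4293.result H hbot)
  obtain ⟨N⟩ := exists_nonsolvData hfpf hH
  haveI := N.S_normal
  haveI := N.M_normal
  let g : H →* D := (Units.coeHom D).comp H.subtype
  have hg : Function.Injective g := Units.val_injective.comp Subtype.val_injective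
  have hg0 : ∀ v, g v ≠ 0 := fun v => Units.ne_zero _
  have hneg : ∀ v : H, orderOf v = 2 → g v = -1 := fun v hv => by
    have h2 : g v * g v = 1 := by
      rw [← map_mul, ← pow_two, ← hv, pow_orderOf_eq_one, map_one]
    refine (mul_self_eq_one_iff.1 h2).resolve_left fun e => ?_
    rw [hg (e.trans (map_one g).symm), orderOf_one] at hv
    norm_num at hv
  -- elements of the special linear group
  obtain ⟨e⟩ := N.iso
  obtain ⟨A, B, I, hoA, hoB, hoI, hoT, hrel⟩ := sl_elements
  have hA4 : orderOf (e.symm A) = 4 := by rw [MulEquiv.orderOf_eq]; exact hoA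
  have hI4 : orderOf (e.symm I) = 4 := by rw [MulEquiv.orderOf_eq]; exact hoI
  have hB3 : orderOf (e.symm B) = 3 := by rw [MulEquiv.orderOf_eq]; exact hoB
  have hT5 : orderOf (e.symm A * e.symm B) = 5 := by rw [← map_mul, MulEquiv.orderOf_eq]; exact hoT
  let gS : N.S →* D := g.comp N.S.subtype
  have hsq4 : ∀ v : N.S, orderOf v = 4 → gS v * gS v = -1 := fun v hv => by
    rw [← map_mul, ← pow_two]
    refine hneg _ ?_
    rw [Subgroup.coe_subtype, Subgroup.orderOf_coe, orderOf_pow' _ two_ne_zero, hv]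
    rfl
  set a := gS (e.symm A)
  set b := gS (e.symm B)
  set i := gS (e.symm I)
  have haa : a * a = -1 := hsq4 _ hA4
  have hii : i * i = -1 := hsq4 _ hI4
  have hb3 : b ^ 3 = 1 := by rw [← map_pow, ← hB3, pow_orderOf_eq_one, map_one]
  have hinjS : Function.Injective gS := hg.comp Subtype.val_injective
  have hb1 : b ≠ 1 := fun h => by
    rw [hinjS (h.trans (map_one gS).symm), orderOf_one] at hB3
    norm_num at hB3
  set t := a * b with ht
  have ht' : t = gS (e.symm A * e.symm B) := (map_mul gS _ _).symm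
  have ht5 : t ^ 5 = 1 := by rw [ht', ← map_pow, orderOf_dvd_iff_pow_eq_one.1 hT5.dvd, map_one]
  have ht1 : t ≠ 1 := fun h => by
    rw [ht'] at h
    rw [hinjS (h.trans (map_one gS).symm), orderOf_one] at hT5
    norm_num at hT5
  have hit : SemiconjBy i t (t ^ 4) := by
    show i * t = t ^ 4 * i
    rw [ht', ← map_pow, ← map_mul, ← map_mul, ← map_mul, ← map_pow, ← map_mul, ← map_mul]
    exact congrArg gS (congrArg e.symm hrel)
  -- the central element
  set u := tau t with hu
  have hua : Commute u a ∧ Commute u b := by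
    have hb2 : b * b + b + 1 = 0 := by
      have h1 : (b - 1) * (b * b + b + 1) = 0 := by
        rw [show (b - 1) * (b * b + b + 1) = b ^ 3 - 1 by noncomm_ring, hb3, sub_self]
      exact (mul_eq_zero.1 h1).resolve_left (sub_ne_zero.2 hb1)
    have hbb : b * b = -b - 1 := by
      rw [← sub_eq_zero, ← hb2]; noncomm_ring
    have ht4 : t ^ 4 = a + b * a := by
      have hbbb : b * (b * b) = 1 := by rw [← hb3, pow_succ', pow_two]
      have h1 : t * (a + b * a) = 1 := by
        rw [ht, mul_add, mul_assoc a b (b * a), ← mul_assoc b b a, hbb]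
        rw [show a * b * a + a * ((-b - 1) * a) = -(a * a) by noncomm_ring, haa, neg_neg]
      calc t ^ 4 = t ^ 4 * (t * (a + b * a)) := by rw [h1, mul_one]
        _ = t ^ 5 * (a + b * a) := by rw [← mul_assoc, ← pow_succ]
        _ = a + b * a := by rw [ht5, one_mul]
    rw [hu, tau, ht4, ht]
    constructor
    · show (a * b + (a + b * a)) * a = a * (a * b + (a + b * a))
      rw [add_mul, add_mul, mul_add, mul_add, mul_assoc b a a, haa, ← mul_assoc a a b, haa, ← mul_assoc a b a]
      noncomm_ring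
    · show (a * b + (a + b * a)) * b = b * (a * b + (a + b * a))
      rw [add_mul, add_mul, mul_add, mul_add, mul_assoc a b b, ← mul_assoc b b a, hbb, ← mul_assoc b a b]
      noncomm_ring
  have hcent : ∀ v : N.S, Commute u (gS v) := by
    let K : Subgroup N.S :=
      { carrier := {v | Commute u (gS v)}
        one_mem' := by simp
        mul_mem' := fun {x y} hx hy => by
          show Commute u (gS (x * y))
          rw [map_mul]; exact hx.mul_right hy
        inv_mem' := fun {x} hx => by
          show Commute u (gS x⁻¹)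
          rw [show gS x⁻¹ = (gS x)⁻¹ from eq_inv_of_mul_eq_one_left (by rw [← map_mul, inv_mul_cancel, map_one])]
          exact Commute.inv_right₀ hx }
    have hperf : commutator N.S = ⊤ := by
      obtain ⟨C⟩ := nonempty_icoCover_sl
      rw [← (Subgroup.map_injective (f := e.toMonoidHom) e.injective).eq_iff]
      rw [_root_.commutator_def, Subgroup.map_commutator, Subgroup.map_top_of_surjective _ e.surjective,
        ← _root_.commutator_def, C.perfect]
    have htop := closure_eq_top N.card_S hperf hA4 hB3 hT5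
    intro v
    have : closure ({e.symm A, e.symm B} : Set N.S) ≤ K := closure_le K |>.2 (by
      rintro x (rfl | rfl)
      · exact hua.1
      · exact hua.2)
    exact this (htop ▸ mem_top v)
  -- the odd part is trivial
  have hM : N.M = ⊥ := by
    by_contra hne
    obtain ⟨r, hr, hrM⟩ := Nat.exists_prime_and_dvd (n := Nat.card N.M)
      (fun e => hne (card_eq_one.1 e))
    haveI := Fact.mk hr
    obtain ⟨x, hx⟩ := exists_prime_orderOf_dvd_card' (G := N.M) r hrM
    rw [← Subgroup.orderOf_coe] at hx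
    have hr30 : ¬ r ∣ 30 := fun h => hr.ne_one (Nat.eq_one_of_dvd_coprimes N.M_coprime hrM h)
    have hzc : ∀ v : N.S, Commute (g x) (gS v) := fun v =>
      ((show Commute (v : H) (x : H) from N.commutes v v.2 x x.2).map g).symm
    refine no_commuting_prime (t := t) (i := i) (ζ := g x) hr (fun e => hr30 (e ▸ by norm_num))
      (fun e => hr30 (e ▸ by norm_num)) ht5 ht1 hii hit ?_ ?_ (ht' ▸ hzc _) (hzc _)
    · rw [← map_pow, ← hx, pow_orderOf_eq_one, map_one]
    · intro h
      rw [hg (h.trans (map_one g).symm), orderOf_one] at hx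
      exact hr.ne_one hx.symm
  have hMcard : Nat.card N.M = 1 := card_eq_one.2 hM
  rcases N.card_eq with h120 | h240
  · rw [hMcard, mul_one] at h120
    have htop : N.S = ⊤ := eq_top_of_card_eq _ (by rw [h120, N.card_S])
    exact ⟨topEquiv.symm.trans ((MulEquiv.subgroupCongr htop.symm).trans e)⟩
  exfalso
  rw [hMcard, mul_one] at h240
  have hidx : N.S.index = 2 := by
    have h := N.S.card_mul_index
    rw [N.card_S, h240] at h
    omega
  have hSM : N.S ⊔ N.M = N.S := by rw [hM, sup_bot_eq]
  obtain ⟨huu, -, -, -⟩ := five_facts ht5 ht1 hit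
  obtain ⟨w, hw⟩ : ∃ w, w ∉ N.S := by
    by_contra hall
    push Not at hall
    rw [(eq_top_iff' N.S).2 hall, index_top] at hidx
    norm_num at hidx
  obtain ⟨t₀, ht₀, γ, ht₀5, hγ⟩ := N.exists_twist (x := w) (by rwa [hSM])
  -- the twist negates the central element
  set s := 2 * u + 1 with hs
  have hss : s * s = 5 := by
    have huu' : u * u + u = 1 := huu
    rw [hs, show (2 * u + 1) * (2 * u + 1) = 4 * (u * u + u) + 1 by noncomm_ring, huu']
    norm_num
  have hs0 : s ≠ 0 := fun h => by rw [h, zero_mul] at hss; exact (by norm_num : (5 : D) ≠ 0) hss.symm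
  have hsum : ∀ v : D, v ^ 5 = 1 → v ≠ 1 → tau (v ^ 2) = -1 - tau v := fun v hv hv1 => by
    have h1 : (v - 1) * (1 + v + v ^ 2 + v ^ 3 + v ^ 4) = 0 := by
      rw [show (v - 1) * (1 + v + v ^ 2 + v ^ 3 + v ^ 4) = v ^ 5 - 1 by noncomm_ring, hv, sub_self]
    have h2 := (mul_eq_zero.1 h1).resolve_left (sub_ne_zero.2 hv1)
    rw [tau, tau, ← pow_mul, show 2 * 4 = 5 + 3 from rfl, pow_add, hv, one_mul, eq_sub_iff_add_eq,
      eq_neg_iff_add_eq_zero, ← h2]
    abel
  have hγu : g γ * u * g γ⁻¹ = -1 - u := by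
    have h5 : (g t₀) ^ 5 = 1 := by rw [← map_pow, orderOf_dvd_iff_pow_eq_one.1 ht₀5.dvd, map_one]
    have h1 : g t₀ ≠ 1 := fun h => by
      rw [hg (h.trans (map_one g).symm), orderOf_one] at ht₀5
      norm_num at ht₀5
    have hmain : g γ * tau (g t₀) * g γ⁻¹ = -1 - tau (g t₀) := by
      rw [← hsum _ h5 h1]
      have hp : ∀ n : ℕ, g γ * g t₀ ^ n * g γ⁻¹ = (g t₀ ^ 2) ^ n := fun n => by
        rw [← map_pow g t₀ n, ← map_mul, ← map_mul, ← conj_pow, hγ, map_pow, map_pow]
      have hp1 := hp 1
      rw [pow_one, pow_one] at hp1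
      simp only [tau, mul_add, add_mul, hp, hp1]
    have hcases := tau_cases N.card_S gS hT5 (v := (⟨t₀, ht₀⟩ : N.S)) (by rw [Subgroup.orderOf_mk]; exact ht₀5)
      (fun v => by rw [← ht']; exact hcent v) (by rw [map_pow, ← ht']; exact hsum t ht5 ht1)
    rw [← ht', ← hu] at hcases
    change tau (g t₀) = u ∨ tau (g t₀) = -1 - u at hcases
    rcases hcases with h | h <;> rw [h] at hmain
    · exact hmain
    · have hneg1 : g γ * g γ⁻¹ = 1 := by rw [← map_mul, mul_inv_cancel, map_one]
      rw [mul_sub, sub_mul, mul_neg, mul_one, neg_mul, hneg1] at hmain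
      rw [show g γ * u * g γ⁻¹ = -1 - (-1 - g γ * u * g γ⁻¹) by abel, hmain]
      abel
  have hγs : g γ * s * g γ⁻¹ = -s := by
    have hneg1 : g γ * g γ⁻¹ = 1 := by rw [← map_mul, mul_inv_cancel, map_one]
    rw [hs, mul_add, add_mul, mul_one, hneg1, ← mul_assoc, ← (Commute.ofNat_left 2 (g γ)).eq, mul_assoc (2 : D),
      mul_assoc (2 : D), hγu]
    noncomm_ring
  have hscent : ∀ v : N.S, Commute s (gS v) := fun v =>
    ((Commute.ofNat_left 2 _).mul_left (hcent v)).add_left (Commute.one_left _)
  have hγS : γ ∉ N.S := fun hmem => by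
    have h := (hscent ⟨γ, hmem⟩).eq
    change s * g γ = g γ * s at h
    rw [← h, mul_assoc, ← map_mul, mul_inv_cancel, map_one, mul_one] at hγs
    refine hs0 ((mul_eq_zero.1 (show (2 : D) * s = 0 from ?_)).resolve_left two_ne_zero)
    rw [two_mul]; exact eq_neg_iff_add_eq_zero.1 hγs
  -- an outer element of order four
  obtain ⟨σ, hσ2, hσ⟩ := exists_outer_involution
  haveI := Lib.Icosa.finite_mulAut
  have hsur : Function.Surjective N.act := by
    rw [← MonoidHom.range_eq_top]
    refine eq_top_of_le_card _ ?_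
    have h1 := card_dvd_of_le N.inner_le
    rw [Lib.Icosa.card_inner] at h1
    have h2 : N.act.range ≠ (MulAut.conj : alternatingGroup (Fin 5) →* _).range := fun h => hγS (by
      rw [← hSM]; exact (N.inner γ).1 (h ▸ ⟨γ, rfl⟩))
    have h3 : Nat.card N.act.range ≠ 60 := fun h => h2 (eq_of_le_of_card_ge N.inner_le
      (by rw [h, Lib.Icosa.card_inner])).symm
    have h4 := Lib.Icosa.card_mulAut_le
    have := Nat.card_pos (α := N.act.range)
    omega
  obtain ⟨x, hx⟩ := hsur σ
  have hxS : x ∉ N.S := fun h => hσ (hx ▸ (N.inner x).2 (hSM.symm ▸ h))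
  have hx4 : (x * x) * (x * x) = 1 := by
    obtain ⟨m, hm, hxx⟩ := (N.mem_ker (x * x)).1 (by rw [map_mul, hx, hσ2])
    rw [hM, mem_bot] at hm
    rcases hxx with h | h <;> rw [h, hm]
    · rw [one_mul]
    · rw [one_mul, N.z_sq]
  have hxx : g x * g x = -1 := by
    rcases mul_self_eq_one_iff.1 (show (g x * g x) * (g x * g x) = 1 by
        rw [← map_mul, ← map_mul, hx4, map_one]) with h | h
    · exfalso
      rcases mul_self_eq_one_iff.1 h with h' | h'
      · rw [hg (h'.trans (map_one g).symm)] at hxS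
        exact hxS (one_mem _)
      · have hmem : g ((e.symm A ^ 2 : N.S) : H) = -1 := hneg _ (by
          rw [Subgroup.orderOf_coe, orderOf_pow' _ two_ne_zero, hA4]; rfl)
        rw [hg (h'.trans hmem.symm)] at hxS
        exact hxS (Subtype.mem _)
    · exact h
  have hxγ : γ⁻¹ * x ∈ N.S :=
    (Subgroup.mul_mem_iff_of_index_two hidx).2
      ⟨fun h => absurd (inv_mem_iff.1 h) hγS, fun h => absurd h hxS⟩
  have hgx : g x = g γ * g (γ⁻¹ * x) := by rw [← map_mul, mul_inv_cancel_left]
  have hγs' : g γ * s = -(s * g γ) := by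
    have h := congrArg (· * g γ) hγs
    simp only [mul_assoc, ← map_mul, inv_mul_cancel, map_one, mul_one, neg_mul] at h
    exact h
  have hxs : g x * s = -(s * g x) := by
    rw [hgx, mul_assoc]
    have h := (hscent ⟨_, hxγ⟩).eq
    change s * g (γ⁻¹ * x) = g (γ⁻¹ * x) * s at h
    rw [← h, ← mul_assoc, hγs', neg_mul, mul_assoc]
  set c := 2 + s with hc
  have hxc : g x * c = (2 - s) * g x := by
    rw [hc, mul_add, sub_mul, hxs, (Commute.ofNat_left 2 (g x)).eq, ← sub_eq_add_neg]
  have hsq : c * g x * (c * g x) = 1 := by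
    rw [mul_assoc, ← mul_assoc (g x), hxc, mul_assoc (2 - s), hxx, ← mul_assoc, hc,
      ← (Commute.ofNat_left 2 s).mul_self_sub_mul_self_eq, hss]
    norm_num
  have hcs : Commute (c * g x) s := by
    rcases mul_self_eq_one_iff.1 hsq with h | h <;> rw [h]
    · exact Commute.one_left s
    · exact (Commute.one_left s).neg_left
  have hc0 : c ≠ 0 := fun h => by rw [h, zero_mul, zero_mul] at hsq; exact zero_ne_one hsq
  have h2 : c * s = s * c := ((Commute.ofNat_left 2 s).add_left (Commute.refl s)).eq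
  have h3 : c * (s * g x) = 0 := by
    have h4 : (2 : D) * (c * (s * g x)) = 0 := by
      have := hcs.eq
      rw [mul_assoc, hxs, mul_neg, ← mul_assoc s c, ← h2, mul_assoc c s] at this
      rw [two_mul]
      exact neg_eq_iff_add_eq_zero.1 this
    exact (mul_eq_zero.1 h4).resolve_left two_ne_zero
  exact mul_ne_zero hc0 (mul_ne_zero hs0 (hg0 x)) h3

end Cfsg.Agent.S4294
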