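import Cfsg.Statements.S4295

import Cfsg.Agent.Lib.Struct4.KernelSquare
set_option autoImplicit false
open Cfsg

namespace Cfsg.Agent.S4295


/-- Powers of `I` twisted by `J`. -/
def qmap {M : Type*} [Monoid M] (I J : M) : QuaternionGroup 2 → M
  | .a i => I ^ i.val
  | .xa i => J * I ^ i.val

theorem qmap_mul {M : Type*} [Monoid M] (I J : M) (h4 : I ^ 4 = 1) (hJ : J * J = I ^ 2)
    (hIJ : I * J = J * I ^ 3) (x y : QuaternionGroup 2) : qmap I J (x * y) = qmap I J x * qmap I J y := by
  have hI : ∀ n, I ^ n * J = J * I ^ (3 * n) := by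
    intro n
    induction n with
    | zero => simp
    | succ n ih =>
      rw [pow_succ, mul_assoc, hIJ, ← mul_assoc, ih, mul_assoc, ← pow_add, Nat.mul_succ]
  have hmod : ∀ a b, a % 4 = b % 4 → I ^ a = I ^ b := fun a b h => by
    rw [pow_eq_pow_mod a h4, h, ← pow_eq_pow_mod b h4]
  have e1 : ∀ i j : ZMod (2 * 2), (i + j).val % 4 = (i.val + j.val) % 4 := by decide
  have e2 : ∀ i j : ZMod (2 * 2), (j - i).val % 4 = (3 * i.val + j.val) % 4 := by decide
  have e3 : ∀ i j : ZMod (2 * 2),
      (((2 : ℕ) : ZMod (2 * 2)) + j - i).val % 4 = (2 + (3 * i.val + j.val)) % 4 := by decide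
  rcases x with i | i <;> rcases y with j | j <;>
    simp only [QuaternionGroup.a_mul_a, QuaternionGroup.a_mul_xa, QuaternionGroup.xa_mul_a,
      QuaternionGroup.xa_mul_xa, qmap]
  · rw [← pow_add]; exact hmod _ _ (e1 i j)
  · rw [← mul_assoc, hI, mul_assoc, ← pow_add, hmod _ _ (e2 i j)]
  · rw [mul_assoc, ← pow_add, hmod _ _ (e1 i j)]
  · rw [show J * I ^ i.val * (J * I ^ j.val) = J * (I ^ i.val * J) * I ^ j.val by simp [mul_assoc],
      hI, ← mul_assoc J J, hJ, ← pow_add, ← pow_add]
    exact hmod _ _ (by rw [e3]; congr 1; omega)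

/-- For a natural number m the following are equivalent: (a) some finite group has a Frobenius complement isomorphic to the quaternion group of order 8 whose Frobenius kernel (the identity together with the elements lying in no conjugate of the complement) has exactly m elements; (b) m is an odd perfect square greater than 1. -/
theorem result (m : ℕ) :
    (∃ (L : Type) (_ : Group L) (_ : Finite L) (H : Subgroup L), Cfsg.IsFrobeniusComplement H ∧
        Nonempty (H ≃* QuaternionGroup 2) ∧ Nat.card (Cfsg.frobeniusKernel H) = m) ↔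
    (Odd m ∧ IsSquare m ∧ 1 < m) := by
  constructor
  · rintro ⟨L, _, _, H, hF, ⟨e⟩, rfl⟩
    obtain ⟨i, j, t, h1, h2, h3, h4, h5⟩ := Struct4.quaternion_triple (m := 2) even_two
    have h := Struct4.kernel_square hF (i := e.symm i) (j := e.symm j) (t := e.symm t)
      (fun h => h1 (e.symm.injective (by rw [h, map_one]))) (by rw [← map_mul, h2, map_one])
      (by rw [← map_mul, h3]) (by rw [← map_mul, h4]) (by rw [← map_mul, ← map_mul, ← map_mul, h5])
    refine ⟨h.1, h.2, ?_⟩
    rw [Lib.Hall.card_frobeniusKernel hF]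
    exact Subgroup.one_lt_index_of_ne_top hF.2.1
  · rintro ⟨hodd, ⟨k, rfl⟩, h1⟩
    have hk : Odd k := (Nat.odd_mul.1 hodd).1
    have hk1 : 1 < k := by
      by_contra h
      interval_cases k <;> simp at h1
    let l := k.primeFactorsList
    have hpl : ∀ i : Fin l.length, (l.get i).Prime := fun i =>
      Nat.prime_of_mem_primeFactorsList (List.get_mem l i)
    have hpo : ∀ i : Fin l.length, Odd (l.get i) := fun i =>
      hk.of_dvd_nat (Nat.dvd_of_mem_primeFactorsList (List.get_mem l i))
    have hne : ∀ i : Fin l.length, NeZero (l.get i) := fun i => ⟨(hpl i).ne_zero⟩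
    have hfact : ∀ i : Fin l.length, Fact (l.get i).Prime := fun i => ⟨hpl i⟩
    choose a b hab using fun i : Fin l.length => ZMod.sq_add_sq (l.get i) (-1)
    let A := ∀ i : Fin l.length, ZMod (l.get i) × ZMod (l.get i)
    let I : AddMonoid.End A := AddMonoidHom.mk' (fun v i => (-(v i).2, (v i).1)) fun v w => by
      funext i
      exact Prod.ext (neg_add _ _) rfl
    let J : AddMonoid.End A := AddMonoidHom.mk'
      (fun v i => (a i * (v i).1 + b i * (v i).2, b i * (v i).1 - a i * (v i).2)) fun v w => by
      funext i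
      refine Prod.ext ?_ ?_
      · show a i * ((v i).1 + (w i).1) + b i * ((v i).2 + (w i).2) =
          (a i * (v i).1 + b i * (v i).2) + (a i * (w i).1 + b i * (w i).2)
        ring
      · show b i * ((v i).1 + (w i).1) - a i * ((v i).2 + (w i).2) =
          (b i * (v i).1 - a i * (v i).2) + (b i * (w i).1 - a i * (w i).2)
        ring
    have hI2 : ∀ v, I (I v) = -v := fun v => by
      funext i
      exact Prod.ext rfl rfl
    have hJ2 : ∀ v, J (J v) = -v := fun v => by
      funext i
      refine Prod.ext ?_ ?_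
      · show a i * (a i * (v i).1 + b i * (v i).2) + b i * (b i * (v i).1 - a i * (v i).2) = -(v i).1
        linear_combination (v i).1 * hab i
      · show b i * (a i * (v i).1 + b i * (v i).2) - a i * (b i * (v i).1 - a i * (v i).2) = -(v i).2
        linear_combination (v i).2 * hab i
    have hIJ : ∀ v, I (J v) = -J (I v) := fun v => by
      funext i
      refine Prod.ext ?_ ?_
      · show -(b i * (v i).1 - a i * (v i).2) = -(a i * -(v i).2 + b i * (v i).1)
        ring
      · show a i * (v i).1 + b i * (v i).2 = -(b i * -(v i).2 - a i * (v i).1)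
        ring
    have h4 : I ^ 4 = 1 := AddMonoidHom.ext fun v => by
      show I (I (I (I v))) = v
      rw [hI2, hI2, neg_neg]
    have hJI : J * J = I ^ 2 := AddMonoidHom.ext fun v => by
      show J (J v) = I (I v)
      rw [hI2, hJ2]
    have hIJ3 : I * J = J * I ^ 3 := AddMonoidHom.ext fun v => by
      show I (J v) = J (I (I (I v)))
      rw [hI2, map_neg J, hIJ]
    let ρ : QuaternionGroup 2 →* AddMonoid.End A :=
      { toFun := qmap I J, map_one' := pow_zero I, map_mul' := qmap_mul I J h4 hJI hIJ3 }
    have hcard : Nat.card A = k * k := by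
      rw [Nat.card_pi]
      simp only [Nat.card_prod, Nat.card_zmod]
      rw [Finset.prod_mul_distrib]
      simp only [List.get_eq_getElem, Fin.prod_univ_getElem, l]
      rw [Nat.prod_primeFactorsList (by omega)]
    have : Nontrivial A := Finite.one_lt_card_iff_nontrivial.1 (hcard ▸ h1)
    obtain ⟨L, i1, i2, H, hH, ⟨e⟩, hK⟩ := Struct4.fc_of_fpf_add ρ fun c hc v hv => by
      have hpow : c = .a (2 : ℕ) ∨ c * c = .a (2 : ℕ) := by
        revert hc; clear hv; revert c; decide
      have h2 : ρ (.a (2 : ℕ)) v = v := by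
        rcases hpow with h | h
        · rw [← h]; exact hv
        · rw [← h, map_mul]; exact (congrArg (ρ c) hv).trans hv
      replace h2 : (I ^ ((2 : ℕ) : ZMod (2 * 2)).val) v = v := h2
      rw [show ((2 : ℕ) : ZMod (2 * 2)).val = 2 from rfl] at h2
      replace h2 : I (I v) = v := h2
      rw [hI2] at h2
      funext i
      have h2i := congrFun h2 i
      have key : ∀ x : ZMod (l.get i), -x = x → x = 0 := fun x hx => by
        rcases (ZMod.neg_eq_self_iff x).1 hx with h | h
        · exact h
        · exact absurd (h ▸ dvd_mul_right 2 x.val) (Nat.not_even_iff_odd.2 (hpo i) ∘ even_iff_two_dvd.2)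
      exact Prod.ext (key _ (congrArg Prod.fst h2i)) (key _ (congrArg Prod.snd h2i))
    exact ⟨L, i1, i2, H, hH, ⟨e.symm⟩, hK.trans hcard⟩

end Cfsg.Agent.S4295
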