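import Cfsg.Statements.S4296

import Cfsg.Agent.Lib.Struct4.KernelSquare
set_option autoImplicit false
open Cfsg

namespace Cfsg.Agent.S4296

/-- Let H be a Frobenius complement in a finite group, and suppose some Sylow subgroup of H is not cyclic. Then the number of elements of the Frobenius kernel (the identity together with the elements lying in no conjugate of H) is an odd perfect square. -/
theorem result {L : Type*} [Group L] [Finite L] (H : Subgroup L) (hF : Cfsg.IsFrobeniusComplement H)
    (hZ : ∃ (p : ℕ) (_ : Fact p.Prime) (P : Sylow p H), ¬ IsCyclic P) :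
    Odd (Nat.card (Cfsg.frobeniusKernel H)) ∧ IsSquare (Nat.card (Cfsg.frobeniusKernel H)) := by
  obtain ⟨p, _, P, hP⟩ := hZ
  obtain ⟨K, -, hKn, hKc, hKb, hfpf⟩ := Struct4.exists_kernel_of_fc hF
  rcases S0040.result K H hKc hKb hfpf p P with h | ⟨n, ⟨e⟩⟩
  · exact absurd h hP
  rcases Nat.eq_zero_or_pos n with rfl | hn
  · refine absurd ?_ hP
    have : IsCyclic (QuaternionGroup (2 ^ 0)) := by
      rw [pow_zero]; exact QuaternionGroup.quaternionGroup_one_isCyclic
    exact e.isCyclic.2 this
  · obtain ⟨i, j, t, h1, h2, h3, h4, h5⟩ :=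
      Struct4.quaternion_triple (m := 2 ^ n) (Nat.even_pow.2 ⟨even_two, hn.ne'⟩)
    let φ : QuaternionGroup (2 ^ n) →* H := (P : Subgroup H).subtype.comp e.symm.toMonoidHom
    have hφ : Function.Injective φ := Subtype.val_injective.comp e.symm.injective
    exact Struct4.kernel_square hF (i := φ i) (j := φ j) (t := φ t)
      (fun h => h1 (hφ (by rw [h, map_one]))) (by rw [← map_mul, h2, map_one])
      (by rw [← map_mul, h3]) (by rw [← map_mul, h4]) (by rw [← map_mul, ← map_mul, ← map_mul, h5])

end Cfsg.Agent.S4296
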