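import Cfsg.Statements.S4297

import Cfsg.Agent.Lib.Struct4.FrobeniusCons
set_option autoImplicit false
open Cfsg

namespace Cfsg.Agent.S4297


section

variable {n p : ℕ} [NeZero n] [Fact p.Prime]

theorem nat_add_self : (n : ZMod (2 * n)) + (n : ZMod (2 * n)) = 0 := by
  rw [← Nat.cast_add, ← two_mul, ZMod.natCast_self]

/-- The diagonal and anti-diagonal matrices attached to an element of the dicyclic group. -/
def mat (w : ZMod (2 * n) → ZMod p) : QuaternionGroup n → Matrix (Fin 2) (Fin 2) (ZMod p)
  | .a i => !![w i, 0; 0, w (-i)]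
  | .xa i => !![0, -w (-i); w i, 0]

theorem mat_mul (w : ZMod (2 * n) → ZMod p) (hw : ∀ i j, w (i + j) = w i * w j)
    (hn : w (n : ZMod (2 * n)) = -1) (x y : QuaternionGroup n) :
    mat w (x * y) = mat w x * mat w y := by
  have hneg : w (-(n : ZMod (2 * n))) = -1 := by
    rw [neg_eq_of_add_eq_zero_left (a := (n : ZMod (2 * n))) (b := (n : ZMod (2 * n)))
      nat_add_self, hn]
  rcases x with i | i <;> rcases y with j | j <;>
    simp only [QuaternionGroup.a_mul_a, QuaternionGroup.a_mul_xa, QuaternionGroup.xa_mul_a,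
      QuaternionGroup.xa_mul_xa, mat]
  all_goals ext r c
  all_goals fin_cases r <;> fin_cases c <;>
    simp [Matrix.mul_apply, Fin.sum_univ_two, sub_eq_add_neg, hw, hn, hneg, neg_add_rev, mul_comm]

end

/-- For every n ≥ 2 the dicyclic group of order 4n (generated by an element a of order 2n and an element x with x² = aⁿ and x a x⁻¹ = a⁻¹) occurs as a Frobenius complement of some finite Frobenius group. -/
theorem result (n : ℕ) (hn : 2 ≤ n) :
    ∃ (L : Type) (_ : Group L) (_ : Finite L) (H : Subgroup L), Cfsg.IsFrobeniusComplement H ∧ Nonempty (H ≃* QuaternionGroup n) := by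
  obtain ⟨p, hp, hpn, hmod⟩ := Nat.exists_prime_gt_modEq_one (4 * n) (k := 2 * n) (by omega)
  have := Fact.mk hp
  have : NeZero n := ⟨by omega⟩
  have hcard : Nat.card (ZMod p)ˣ = p - 1 := by rw [Nat.card_eq_fintype_card, ZMod.card_units]
  obtain ⟨k, hk⟩ : 2 * n ∣ p - 1 := (Nat.modEq_iff_dvd' hp.one_lt.le).1 hmod.symm
  obtain ⟨u, hu⟩ := IsCyclic.exists_ofOrder_eq_natCard (α := (ZMod p)ˣ)
  have hord : orderOf (u ^ k) = 2 * n := by
    rw [orderOf_pow, hu, hcard, hk, Nat.gcd_eq_right (dvd_mul_left k _)]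
    refine Nat.mul_div_cancel _ (Nat.pos_of_ne_zero fun h => ?_)
    rw [h, mul_zero] at hk
    have := hp.two_le
    omega
  set ω : ZMod p := ((u ^ k : (ZMod p)ˣ) : ZMod p) with hω
  have hωord : orderOf ω = 2 * n := by rw [hω, orderOf_units, hord]
  set w : ZMod (2 * n) → ZMod p := fun i => ω ^ i.val with hw
  have hadd : ∀ i j, w (i + j) = w i * w j := fun i j => by
    simp only [hw]
    rw [← pow_add, ZMod.val_add]
    conv_rhs => rw [← pow_mod_orderOf, hωord]
  have hinj : Function.Injective w := fun i j h => by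
    apply ZMod.val_injective
    simp only [hw] at h
    exact pow_injOn_Iio_orderOf (by rw [Set.mem_Iio, hωord]; exact ZMod.val_lt i)
      (by rw [Set.mem_Iio, hωord]; exact ZMod.val_lt j) h
  have h0 : w 0 = 1 := by simp [hw]
  have hwn : w (n : ZMod (2 * n)) = -1 := by
    have hsq : w (n : ZMod (2 * n)) * w (n : ZMod (2 * n)) = 1 := by
      rw [← hadd, nat_add_self, h0]
    refine (mul_self_eq_one_iff.1 hsq).resolve_left fun h => ?_
    rw [← h0] at h
    have := (ZMod.natCast_eq_zero_iff _ _).1 (hinj h)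
    have := Nat.le_of_dvd (by omega) this
    omega
  have hne : ∀ i, w i ≠ 0 := fun i h => by
    have := hadd i (-i)
    rw [add_neg_cancel, h0, h, zero_mul] at this
    exact one_ne_zero this
  let f : QuaternionGroup n →* Matrix.SpecialLinearGroup (Fin 2) (ZMod p) :=
    MonoidHom.mk' (fun x => ⟨mat w x, by
      rcases x with i | i <;> simp [mat, Matrix.det_fin_two, ← hadd, h0]⟩)
      fun x y => Subtype.ext (mat_mul w hadd hwn x y)
  have hfi : Function.Injective f := by
    intro x y h
    have h1 : mat w x = mat w y := congrArg Subtype.val h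
    rcases x with i | i <;> rcases y with j | j <;> simp only [mat] at h1
    · exact congrArg _ (hinj (congrFun (congrFun h1 0) 0))
    · exact absurd (congrFun (congrFun h1 0) 0) (by simpa using hne i)
    · exact absurd (congrFun (congrFun h1 0) 0).symm (by simpa using hne j)
    · exact congrArg _ (hinj (congrFun (congrFun h1 1) 0))
  obtain ⟨L, i1, i2, H, hH, ⟨e⟩⟩ := Struct4.fc_of_sl2 f hfi (by
    rw [Nat.card_eq_fintype_card, QuaternionGroup.card]
    intro hd
    have := Nat.le_of_dvd (by omega) hd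
    omega)
  exact ⟨L, i1, i2, H, hH, ⟨e.symm⟩⟩

end Cfsg.Agent.S4297
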