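import Cfsg.Statements.S4298

import Cfsg.Agent.Lib.Struct4.SLEmbed
set_option autoImplicit false
open Cfsg

namespace Cfsg.Agent.S4298


/-- Images. -/
def imgs : List (ℕ × ℕ × ℕ × ℕ × ℕ) := [(15, 0, 1, 4, 0), (16, 4, 1, 2, 2), (17, 1, 3, 4, 3), (21, 0, 4, 1, 0), (22, 4, 2, 1, 2), (23, 1, 4, 3, 3), (28, 1, 0, 0, 1), (31, 1, 1, 2, 3), (34, 3, 4, 3, 1), (37, 1, 2, 1, 3), (41, 2, 0, 0, 3), (42, 2, 3, 4, 4), (46, 3, 3, 4, 1), (48, 2, 4, 3, 4), (53, 0, 3, 3, 0), (56, 4, 0, 0, 4), (59, 2, 1, 2, 4), (62, 4, 4, 3, 2), (65, 2, 2, 1, 4), (67, 0, 2, 2, 0), (69, 3, 1, 2, 1), (74, 4, 3, 4, 2), (75, 3, 2, 1, 1), (79, 3, 0, 0, 2)]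

/-- Words in the two generators. -/
def wrds : List (ℕ × List Bool) := [(15, [false, false, false]), (16, [false, false, false, true, true]), (17, [false, false, false, true]), (21, [false]), (22, [false, true]), (23, [false, true, true]), (28, []), (31, [true, false, true]), (34, [false, false, false, true, false]), (37, [true]), (41, [true, false, true, true]), (42, [false, false, true, true, false]), (46, [true, true]), (48, [true, false]), (53, [true, false, true, true, false]), (56, [false, false]), (59, [false, true, false]), (62, [false, true, true, false]), (65, [false, false, true, true]), (67, [true, true, false, true]), (69, [false, false, true, false]), (74, [false, false, true]), (75, [true, true, false]), (79, [false, true, true, false, true])]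

/-- The embedding. -/
def f0 (M : Matrix (Fin 2) (Fin 2) (ZMod 3)) : Matrix (Fin 2) (Fin 2) (ZMod 5) :=
  Struct4.tableMat 5 imgs (Struct4.matKey M)

/-- The generators. -/
def gens : List (Matrix (Fin 2) (Fin 2) (ZMod 3)) := [!![0, -1; 1, 0], !![1, 1; 0, 1]]

/-- The word of a matrix. -/
def word (M : Matrix (Fin 2) (Fin 2) (ZMod 3)) : List (Matrix (Fin 2) (Fin 2) (ZMod 3)) :=
  Struct4.tableWord wrds (Struct4.matKey M)

set_option synthInstance.maxSize 4000 in
set_option synthInstance.maxHeartbeats 200000 in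
set_option maxRecDepth 20000 in
theorem check : ∀ a b c d : ZMod 3, a * d - b * c = 1 →
    (f0 !![a, b; c, d]).det = 1 ∧ (∀ s ∈ gens, f0 (!![a, b; c, d] * s) = f0 !![a, b; c, d] * f0 s) ∧
    ((∀ s ∈ word !![a, b; c, d], s ∈ gens) ∧ (word !![a, b; c, d]).prod = !![a, b; c, d]) ∧
    (f0 !![a, b; c, d] = 1 → !![a, b; c, d] = 1) ∧
    (!![a, b; c, d] ^ 5 = 1 → !![a, b; c, d] = 1) := by
  decide +kernel
theorem gens_det : ∀ s ∈ gens, s.det = 1 := by decide +kernel

theorem f0_one : f0 1 = 1 := by decide +kernel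

/-- The group SL(2,3) of order 24 (the binary tetrahedral group) occurs as a Frobenius complement of some finite Frobenius group. -/
theorem result :
    ∃ (L : Type) (_ : Group L) (_ : Finite L) (H : Subgroup L), Cfsg.IsFrobeniusComplement H ∧ Nonempty (H ≃* Matrix.SpecialLinearGroup (Fin 2) (ZMod 3)) := by
  have : Fact (Nat.Prime 3) := ⟨by norm_num⟩
  have : Fact (Nat.Prime 5) := ⟨by norm_num⟩
  obtain ⟨L, i1, i2, H, hH, ⟨e⟩⟩ := Struct4.isFC_sl2_of_table 3 5 f0 gens word
    gens_det f0_one check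
  exact ⟨L, i1, i2, H, hH, ⟨e.symm⟩⟩

end Cfsg.Agent.S4298
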