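import Cfsg.Statements.S4299

import Cfsg.Agent.Lib.Struct4.FrobeniusCons
set_option autoImplicit false
open Cfsg

namespace Cfsg.Agent.S4299

/-- Every nontrivial finite cyclic group occurs as a Frobenius complement of some finite Frobenius group. -/
theorem result {C : Type*} [Group C] [Finite C] [IsCyclic C] [Nontrivial C] :
    ∃ (L : Type) (_ : Group L) (_ : Finite L) (H : Subgroup L), Cfsg.IsFrobeniusComplement H ∧ Nonempty (C ≃* H) := by
  have hn : Nat.card C ≠ 0 := Nat.card_pos.ne'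
  obtain ⟨ℓ, hℓ, -, hmod⟩ := Nat.exists_prime_gt_modEq_one 1 hn
  have := Fact.mk hℓ
  obtain ⟨u, hu⟩ := IsCyclic.exists_ofOrder_eq_natCard (α := (ZMod ℓ)ˣ)
  have hcard : Nat.card (ZMod ℓ)ˣ = ℓ - 1 := by rw [Nat.card_eq_fintype_card, ZMod.card_units]
  obtain ⟨k, hk⟩ : Nat.card C ∣ ℓ - 1 := (Nat.modEq_iff_dvd' hℓ.one_lt.le).1 hmod.symm
  have hord : orderOf (u ^ k) = Nat.card C := by
    rw [orderOf_pow, hu, hcard, hk, Nat.gcd_eq_right (dvd_mul_left k _)]
    refine Nat.mul_div_cancel _ (Nat.pos_of_ne_zero fun h => ?_)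
    rw [h, mul_zero] at hk
    have := hℓ.two_le
    omega
  let e : C ≃* Subgroup.zpowers (u ^ k) :=
    mulEquivOfCyclicCardEq (by rw [Nat.card_zpowers, hord])
  exact Struct4.fc_of_units ((Subgroup.zpowers (u ^ k)).subtype.comp e.toMonoidHom)
    (Subtype.val_injective.comp e.injective)

end Cfsg.Agent.S4299
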