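import Cfsg.Statements.S4300

set_option autoImplicit false
open Cfsg

namespace Cfsg.Agent.S4300

/-- Let G act faithfully and primitively on a set X, and suppose the stabilizer of some point is a simple group. Then either G is simple, or G has a normal subgroup, neither trivial nor the whole group, that acts regularly on X (transitively with trivial point stabilizers). -/
theorem result {G : Type*} [Group G] {X : Type*} [MulAction G X] [FaithfulSMul G X]
    (hprim : MulAction.IsPreprimitive G X) (x : X) (hsimple : IsSimpleGroup (MulAction.stabilizer G x)) :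
    IsSimpleGroup G ∨ ∃ N : Subgroup G, N.Normal ∧ N ≠ ⊥ ∧ N ≠ ⊤ ∧
      MulAction.IsPretransitive N X ∧ ∀ y : X, MulAction.stabilizer N y = ⊥ := by
  by_cases hG : IsSimpleGroup G
  · exact Or.inl hG
  right
  set Gx := MulAction.stabilizer G x
  haveI : Nontrivial G := Gx.subtype_injective.nontrivial
  obtain ⟨N, hN, hb, ht⟩ : ∃ N : Subgroup G, N.Normal ∧ N ≠ ⊥ ∧ N ≠ ⊤ := by
    by_contra hc
    push Not at hc
    exact hG ⟨fun N hN => or_iff_not_imp_left.2 (hc N hN)⟩
  haveI := hN
  haveI : MulAction.IsPretransitive N X := by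
    refine MulAction.IsQuasiPreprimitive.isPretransitive_of_normal ?_
    intro h
    refine hb ((Subgroup.eq_bot_iff_forall N).2 fun n hn => ?_)
    refine FaithfulSMul.eq_of_smul_eq_smul (α := X) fun y => ?_
    rw [one_smul]
    have : y ∈ MulAction.fixedPoints N X := h ▸ Set.mem_univ y
    exact this ⟨n, hn⟩
  refine ⟨N, hN, hb, ht, inferInstance, fun y => ?_⟩
  obtain ⟨⟨m, hm⟩, rfl⟩ := MulAction.exists_smul_eq N x y
  have h0 : N.subgroupOf Gx = ⊥ := by
    refine ((hN.subgroupOf Gx).eq_bot_or_eq_top).resolve_right fun h => ht ?_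
    rw [Subgroup.eq_top_iff']
    intro g
    obtain ⟨⟨n, hn⟩, hng⟩ := MulAction.exists_smul_eq N x (g • x)
    have h1 : n⁻¹ * g ∈ Gx := by
      show (n⁻¹ * g) • x = x
      rw [mul_smul, inv_smul_eq_iff]
      exact hng.symm
    have h2 : n⁻¹ * g ∈ N := Subgroup.subgroupOf_eq_top.1 h h1
    simpa using N.mul_mem hn h2
  rw [Subgroup.eq_bot_iff_forall]
  rintro ⟨a, ha⟩ hax
  have h1 : m⁻¹ * a * m ∈ Gx := by
    show (m⁻¹ * a * m) • x = x
    rw [mul_smul, mul_smul, inv_smul_eq_iff]
    exact hax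
  have h2 : m⁻¹ * a * m ∈ N := N.mul_mem (N.mul_mem (N.inv_mem hm) ha) hm
  have h3 : (⟨_, h1⟩ : Gx) ∈ N.subgroupOf Gx := h2
  rw [h0, Subgroup.mem_bot, Subtype.ext_iff] at h3
  refine Subtype.ext ?_
  show a = 1
  calc a = m * (m⁻¹ * a * m) * m⁻¹ := by group
    _ = 1 := by rw [show m⁻¹ * a * m = 1 from h3]; group

end Cfsg.Agent.S4300
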