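import Cfsg.Statements.S4301

import Mathlib
set_option autoImplicit false
open Cfsg

namespace Cfsg.Agent.S4301

/-- One-point extension of a multiply transitive group. Let X be a set and G a group of permutations of Option X (the set X with one extra point ∗ = none) all of whose elements fix ∗, such that G is k-transitive on the points of X for some k ≥ 2, X having at least k points. Suppose a permutation h of Option X and an element g of G satisfy: h interchanges ∗ with a point x of X and fixes a point y of X; g interchanges x and y; (g h)³ and h² lie in G; and for every f in G fixing x, the product h f h lies in G and fixes x. Then an element of the group generated by G and h fixes ∗ exactly when it lies in G, and that group acts (k+1)-transitively on Option X. -/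
theorem result {X : Type*} (G : Subgroup (Equiv.Perm (Option X))) (hfix : ∀ f ∈ G, f none = none)
    (k : ℕ) (hk : 2 ≤ k) (hkX : Nonempty (Fin k ↪ X))
    (htrans : ∀ a b : Fin k ↪ X, ∃ f ∈ G, ∀ i, f (some (a i)) = some (b i))
    (h g : Equiv.Perm (Option X)) (hg : g ∈ G) (x y : X)
    (h1 : h none = some x) (h2 : h (some x) = none) (h3 : h (some y) = some y)
    (h4 : g (some x) = some y) (h5 : g (some y) = some x)
    (h6 : (g * h) ^ 3 ∈ G) (h7 : h ^ 2 ∈ G)
    (h8 : ∀ f ∈ G, f (some x) = some x → h * f * h ∈ G ∧ (h * f * h) (some x) = some x) :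
    (∀ f ∈ Subgroup.closure ((G : Set (Equiv.Perm (Option X))) ∪ {h}), f none = none ↔ f ∈ G) ∧
      MulAction.IsMultiplyPretransitive (Subgroup.closure ((G : Set (Equiv.Perm (Option X))) ∪ {h})) (Option X) (k + 1) := by
  classical
  obtain ⟨e0⟩ := hkX
  have hxy : x ≠ y := by
    rintro rfl
    rw [h2] at h3
    exact Option.some_ne_none x h3.symm
  have hget : ∀ f ∈ G, ∀ z : X, ∃ w, f (some z) = some w := fun f hf z => by
    cases hfz : f (some z) with
    | some w => exact ⟨w, rfl⟩
    | none => exact absurd (f.injective (hfz.trans (hfix f hf).symm)) (by simp)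
  have tuple : ∀ z w : X, z ≠ w → ∃ a : Fin k ↪ X, a ⟨0, by omega⟩ = z ∧ a ⟨1, by omega⟩ = w := by
    intro z w hzw
    set i0 : Fin k := ⟨0, by omega⟩
    set i1 : Fin k := ⟨1, by omega⟩
    let s : Equiv.Perm X := Equiv.swap (e0 i0) z
    let t : Equiv.Perm X := Equiv.swap (s (e0 i1)) w
    refine ⟨e0.trans (t * s).toEmbedding, ?_, ?_⟩
    · show t (s (e0 i0)) = z
      rw [show s (e0 i0) = z from Equiv.swap_apply_left _ _]
      refine Equiv.swap_apply_of_ne_of_ne ?_ hzw
      intro h
      have : s (e0 i1) = s (e0 i0) := h.symm.trans (Equiv.swap_apply_left _ _).symm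
      simp [i0, i1] at this
    · exact Equiv.swap_apply_left _ _
  set s := h ^ 2 with hs
  have hsG : s ∈ G := h7
  set u := (g * h) ^ 3 with hu
  have huG : u ∈ G := h6
  have hinvh : h⁻¹ = s⁻¹ * h := by rw [hs, sq]; group
  let S : Set (Equiv.Perm (Option X)) :=
    {f | f ∈ G ∨ ∃ a ∈ G, ∃ b ∈ G, f = a * h * b}
  have key : ∀ f ∈ G, h * f * h ∈ S := by
    intro f hf
    by_cases hfx : f (some x) = some x
    · exact Or.inl (h8 f hf hfx).1
    · obtain ⟨z, hz⟩ := hget f hf x
      have hzx : x ≠ z := fun e => hfx (by rw [hz, e])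
      obtain ⟨t1, ht10, ht11⟩ := tuple x y hxy
      obtain ⟨t2, ht20, ht21⟩ := tuple x z hzx
      obtain ⟨a, ha, hat⟩ := htrans t1 t2
      have hax : a (some x) = some x := by rw [← ht10, hat, ht20, ht10]
      have hay : a (some y) = some z := by rw [← ht11, hat, ht21]
      set b := g⁻¹ * a⁻¹ * f with hb
      have hbG : b ∈ G := G.mul_mem (G.mul_mem (G.inv_mem hg) (G.inv_mem ha)) hf
      have hbx : b (some x) = some x := by
        apply g.injective
        apply a.injective
        rw [hb, h4, hay, ← hz]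
        simp [Equiv.Perm.mul_apply]
      obtain ⟨hA, -⟩ := h8 a ha hax
      obtain ⟨hB, -⟩ := h8 b hbG hbx
      refine Or.inr ⟨h * a * h * s⁻¹ * g⁻¹ * u * s⁻¹, ?_, g⁻¹ * s⁻¹ * (h * b * h), ?_, ?_⟩
      · exact G.mul_mem (G.mul_mem (G.mul_mem (G.mul_mem hA (G.inv_mem hsG)) (G.inv_mem hg)) huG)
          (G.inv_mem hsG)
      · exact G.mul_mem (G.mul_mem (G.inv_mem hg) (G.inv_mem hsG)) hB
      · rw [hu, hs, hb, pow_three, sq]
        group
  have hmul : ∀ p ∈ S, ∀ q ∈ S, p * q ∈ S := by
    have hGl : ∀ p ∈ G, ∀ q ∈ S, p * q ∈ S := by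
      rintro p hp q (hq | ⟨a, ha, b, hb, rfl⟩)
      · exact Or.inl (G.mul_mem hp hq)
      · exact Or.inr ⟨p * a, G.mul_mem hp ha, b, hb, by group⟩
    have hGr : ∀ p ∈ S, ∀ q ∈ G, p * q ∈ S := by
      rintro p (hp | ⟨a, ha, b, hb, rfl⟩) q hq
      · exact Or.inl (G.mul_mem hp hq)
      · exact Or.inr ⟨a, ha, b * q, G.mul_mem hb hq, by group⟩
    rintro p (hp | ⟨a, ha, b, hb, rfl⟩) q hq
    · exact hGl p hp q hq
    · rcases hq with hq | ⟨c, hc, d, hd, rfl⟩
      · exact Or.inr ⟨a, ha, b * q, G.mul_mem hb hq, by group⟩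
      · have h' := hGr _ (hGl a ha _ (key (b * c) (G.mul_mem hb hc))) d hd
        convert h' using 1
        group
  have hinv : ∀ p ∈ S, p⁻¹ ∈ S := by
    rintro p (hp | ⟨a, ha, b, hb, rfl⟩)
    · exact Or.inl (G.inv_mem hp)
    · refine Or.inr ⟨b⁻¹ * s⁻¹, G.mul_mem (G.inv_mem hb) (G.inv_mem hsG), a⁻¹, G.inv_mem ha, ?_⟩
      rw [mul_inv_rev, mul_inv_rev, hinvh]
      group
  have hclo : ∀ f ∈ Subgroup.closure ((G : Set (Equiv.Perm (Option X))) ∪ {h}), f ∈ S := by
    intro f hf
    refine Subgroup.closure_induction ?_ (Or.inl G.one_mem) (fun p q _ _ => fun hp hq => hmul p hp q hq)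
      (fun p _ => hinv p) hf
    rintro p (hp | hp)
    · exact Or.inl hp
    · rw [Set.mem_singleton_iff] at hp
      subst hp
      exact Or.inr ⟨1, G.one_mem, 1, G.one_mem, by group⟩
  refine ⟨fun f hf => ⟨fun hfn => ?_, fun hfG => hfix f hfG⟩, ?_⟩
  · rcases hclo f hf with hG | ⟨a, ha, b, hb, rfl⟩
    · exact hG
    · rw [Equiv.Perm.mul_apply, Equiv.Perm.mul_apply, hfix b hb, h1] at hfn
      obtain ⟨w, hw⟩ := hget a ha x
      rw [hw] at hfn
      exact absurd hfn (Option.some_ne_none w)
  · set L := Subgroup.closure ((G : Set (Equiv.Perm (Option X))) ∪ {h}) with hL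
    have hGL : ∀ f ∈ G, f ∈ L := fun f hf => Subgroup.subset_closure (Or.inl hf)
    have hhL : h ∈ L := Subgroup.subset_closure (Or.inr rfl)
    let c0 : Fin (k + 1) → Option X := Fin.cons none fun i => some (e0 i)
    have hstd : ∀ a : Fin (k + 1) ↪ Option X, ∃ l ∈ L, ∀ i, l (a i) = c0 i := by
      intro a
      have hstep : ∀ b : Fin (k + 1) ↪ Option X, b 0 = none → ∃ l ∈ L, ∀ i, l (b i) = c0 i := by
        intro b hb0
        have hsome : ∀ i : Fin k, ∃ w, b i.succ = some w := fun i => by
          cases hbi : b i.succ with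
          | some w => exact ⟨w, rfl⟩
          | none => exact absurd (b.injective (hbi.trans hb0.symm)) (Fin.succ_ne_zero i)
        choose w hw using hsome
        have hwi : Function.Injective w := fun i j e => by
          have := b.injective ((hw i).trans ((congrArg some e).trans (hw j).symm))
          simpa using this
        obtain ⟨f, hf, hfi⟩ := htrans ⟨w, hwi⟩ e0
        refine ⟨f, hGL f hf, Fin.cases ?_ fun i => ?_⟩
        · rw [hb0, hfix f hf]
          simp [c0]
        · rw [hw, show f (some (w i)) = _ from hfi i]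
          simp [c0]
      cases ha0 : a 0 with
      | none => exact hstep a ha0
      | some z =>
        let i0 : Fin k := ⟨0, by omega⟩
        obtain ⟨f, hf, hfi⟩ := htrans (e0.trans (Equiv.swap (e0 i0) z).toEmbedding)
          (e0.trans (Equiv.swap (e0 i0) x).toEmbedding)
        have hfz : f (some z) = some x := by simpa using hfi i0
        obtain ⟨l, hl, hli⟩ := hstep (a.trans (h * f).toEmbedding)
          (by simp [ha0, hfz, h2])
        exact ⟨l * (h * f), L.mul_mem hl (L.mul_mem hhL (hGL f hf)), fun i => hli i⟩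
    refine MulAction.isMultiplyPretransitive_iff.2 fun a b => ?_
    obtain ⟨l, hl, hli⟩ := hstd a
    obtain ⟨m, hm, hmi⟩ := hstd b
    refine ⟨⟨m⁻¹ * l, L.mul_mem (L.inv_mem hm) hl⟩, Function.Embedding.ext fun i => ?_⟩
    show (m⁻¹ * l) (a i) = b i
    apply m.injective
    rw [hmi, Equiv.Perm.mul_apply, hli]
    simp

end Cfsg.Agent.S4301
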