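import Cfsg.Statements.S4303

import Cfsg.Agent.Lib.Struct4.SylowParts
set_option autoImplicit false
universe u
open Cfsg

namespace Cfsg.Agent.S4303

open Cfsg.Agent.Lib.Struct4

/-- For a finite group `G` and a prime `p`, the number of Sylow `p`-subgroups of `G` is a product of natural numbers each of which is either a prime power congruent to 1 modulo `p` or the number of Sylow `p`-subgroups of some finite simple group. -/
theorem result {G : Type u} [Group G] [Finite G]
    (p : ℕ) [Fact p.Prime] :
    ∃ l : List ℕ, l.prod = Nat.card (Sylow p G) ∧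
      ∀ m ∈ l, (IsPrimePow m ∧ m % p = 1) ∨
        ∃ (S : Type u) (_ : Group S) (_ : Finite S), IsSimpleGroup S ∧ m = Nat.card (Sylow p S) := by
  classical
  refine card_sylow_induction p (fun _ _ _ => True) (fun _ _ _ _ _ => trivial) (fun _ _ _ _ _ _ => trivial)
    (fun n => ∃ l : List ℕ, l.prod = n ∧
      ∀ m ∈ l, (IsPrimePow m ∧ m % p = 1) ∨
        ∃ (S : Type u) (_ : Group S) (_ : Finite S), IsSimpleGroup S ∧ m = Nat.card (Sylow p S)) ?_ ?_ ?_ G trivial
  · rintro a b ⟨l, hl, hl'⟩ ⟨l2, hl2, hl2'⟩
    exact ⟨l ++ l2, by rw [List.prod_append, hl, hl2], fun m hm => (List.mem_append.1 hm).elim (hl' m) (hl2' m)⟩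
  · intro n hn h
    refine ⟨n.primeFactors.toList.map (fun q => q ^ n.factorization q), ?_, ?_⟩
    · rw [Finset.prod_map_toList]
      exact Nat.prod_factorization_pow_eq_self hn
    · intro m hm
      obtain ⟨q, hq, rfl⟩ := List.mem_map.1 hm
      rw [Finset.mem_toList] at hq
      have hqp := Nat.prime_of_mem_primeFactors hq
      have h0 : n.factorization q ≠ 0 := by
        rw [← Finsupp.mem_support_iff, Nat.support_factorization]; exact hq
      refine Or.inl ⟨hqp.isPrimePow.pow h0, ?_⟩
      rw [h q hqp, Nat.mod_eq_of_lt (Fact.out : p.Prime).one_lt]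
  · intro H _ _ _ hs
    exact ⟨[Nat.card (Sylow p H)], by simp, fun m hm => Or.inr ⟨H, inferInstance, inferInstance, hs, by simpa using hm⟩⟩

end Cfsg.Agent.S4303
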