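import Cfsg.Statements.S4304

import Cfsg.Agent.Lib.Struct4.SylowParts
import Cfsg.Agent.Lib.Struct4.SylowSmall
import Cfsg.Agent.Lib.Struct4.TransferCriteria
set_option autoImplicit false
open Cfsg

namespace Cfsg.Agent.S4304

open Cfsg.Agent.Lib.Struct4

theorem comm_card_sylow {G : Type*} [Group G] [Finite G] [Fact (Nat.Prime 7)]
    (hc : ∀ a b : G, a * b = b * a) : Nat.card (Sylow 7 G) = 1 := by
  have P : Sylow 7 G := default
  have hn : (P : Subgroup G).Normal :=
    ⟨fun x hx g => by rw [hc g x, mul_assoc, mul_inv_cancel, mul_one]; exact hx⟩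
  have := Sylow.unique_of_normal P hn
  exact Nat.card_unique

theorem prime_centralizing {G : Type*} [Group G] [Finite G] [Fact (Nat.Prime 7)]
    (hinj : Function.Injective (MulAction.toPermHom G (Sylow 7 G)))
    (hn : Nat.card (Sylow 7 G) = 15) (P : Sylow 7 G)
    (hsign : ∀ g : G, ∀ [Fintype (Sylow 7 G)] [DecidableEq (Sylow 7 G)],
      Equiv.Perm.sign (MulAction.toPermHom G (Sylow 7 G) g) = 1)
    (t : G) (r : ℕ) (hr : r.Prime) (ht : orderOf t = r) (hr7 : r ≠ 7)
    (htc : t ∈ Subgroup.centralizer ((P : Subgroup G) : Set G)) : False := by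
  classical
  cases nonempty_fintype (Sylow 7 G)
  set f := MulAction.toPermHom G (Sylow 7 G)
  set σ := f t
  have hσ : orderOf σ = r := by rw [← ht]; exact orderOf_injective f hinj t
  let s := σ.support
  have hPs : P ∉ s := by
    rw [Equiv.Perm.notMem_support]
    show t • P = P
    rw [Sylow.smul_eq_iff_mem_normalizer]
    exact Subgroup.centralizer_le_normalizer _ htc
  letI : MulAction (P : Subgroup G) {Q : Sylow 7 G // Q ∈ s} :=
    { smul := fun x Q => ⟨(x : G) • Q.1, by
        have h1 := Subgroup.mem_centralizer_iff.1 htc x x.2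
        have h2 : t • Q.1 ≠ Q.1 := Equiv.Perm.mem_support.1 Q.2
        rw [Equiv.Perm.mem_support]
        show t • ((x : G) • Q.1) ≠ (x : G) • Q.1
        rw [← mul_smul, ← h1, mul_smul]
        simpa using h2⟩
      one_smul := fun Q => Subtype.ext (one_smul G Q.1)
      mul_smul := fun x y Q => Subtype.ext (mul_smul (x : G) (y : G) Q.1) }
  have hdiv : 7 ∣ s.card := by
    have hmod := P.isPGroup'.card_modEq_card_fixedPoints {Q : Sylow 7 G // Q ∈ s}
    have : IsEmpty (MulAction.fixedPoints (P : Subgroup G) {Q : Sylow 7 G // Q ∈ s}) := by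
      refine ⟨fun ⟨Q, hQ⟩ => ?_⟩
      have hle : (P : Subgroup G) ≤ (Q.1 : Subgroup G) := by
        intro x hx
        obtain ⟨k, hk⟩ := IsPGroup.iff_orderOf.1 P.isPGroup' ⟨x, hx⟩
        refine mem_sylow_of_normalizer Q.1 ?_ ⟨k, by rw [Subgroup.orderOf_mk] at hk; exact hk⟩
        refine Sylow.smul_eq_iff_mem_normalizer.1 ?_
        exact congrArg Subtype.val (hQ ⟨x, hx⟩)
      have : Q.1 = P := Sylow.ext (P.is_maximal' Q.1.isPGroup' hle)
      exact hPs (this ▸ Q.2)
    have hcs : Nat.card {Q : Sylow 7 G // Q ∈ s} = s.card := by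
      rw [Nat.card_eq_fintype_card]; exact Fintype.card_coe s
    have hz : Nat.card (MulAction.fixedPoints (P : Subgroup G) {Q : Sylow 7 G // Q ∈ s}) = 0 :=
      @Nat.card_of_isEmpty _ this
    rw [hcs] at hmod
    exact Nat.modEq_zero_iff_dvd.1 (hz ▸ hmod)
  obtain ⟨n, hct⟩ := Equiv.Perm.cycleType_prime_order (hσ.symm ▸ hr)
  rw [hσ] at hct
  have hsum := σ.sum_cycleType
  rw [hct, Multiset.sum_replicate, smul_eq_mul] at hsum
  change (n + 1) * r = s.card at hsum
  have hle : s.card ≤ 14 := by
    have h1 : s ⊆ Finset.univ.erase P := fun Q hQ => Finset.mem_erase.2 ⟨fun h => hPs (h ▸ hQ), Finset.mem_univ _⟩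
    refine (Finset.card_le_card h1).trans ?_
    rw [Finset.card_erase_of_mem (Finset.mem_univ _), Finset.card_univ, ← Nat.card_eq_fintype_card, hn]
  obtain ⟨c, hc⟩ := hdiv
  have hr2 := hr.two_le
  have hcase : r = 2 ∧ n = 6 := by
    have hc12 : c = 1 ∨ c = 2 := by
      rcases c with _ | _ | _ | c
      · exfalso; rw [hc] at hsum; simp at hsum; omega
      · exact Or.inl rfl
      · exact Or.inr rfl
      · exfalso; omega
    have hd : r ∣ 7 * c := ⟨n + 1, by rw [← hc, ← hsum, mul_comm]⟩
    rcases (Nat.Prime.dvd_mul hr).1 hd with h | h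
    · exact absurd ((Nat.prime_dvd_prime_iff_eq hr (Fact.out)).1 h) hr7
    · rcases hc12 with rfl | rfl
      · exact absurd (Nat.le_of_dvd one_pos h) (by omega)
      · have : r = 2 := le_antisymm (Nat.le_of_dvd (by norm_num) h) hr2
        subst this
        exact ⟨rfl, by omega⟩
  obtain ⟨rfl, rfl⟩ := hcase
  have := hsign t
  change Equiv.Perm.sign σ = 1 at this
  rw [Equiv.Perm.sign_of_cycleType, hct] at this
  simp at this
  exact absurd this (by decide)

theorem simple_ne_fifteen {G : Type*} [Group G] [Finite G] [Fact (Nat.Prime 7)] [IsSimpleGroup G] :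
    Nat.card (Sylow 7 G) ≠ 15 := by
  classical
  intro hn
  cases nonempty_fintype (Sylow 7 G)
  obtain ⟨P⟩ : Nonempty (Sylow 7 G) := inferInstance
  have hnc : ¬ IsMulCommutative G := fun h => by
    rw [comm_card_sylow fun a b => h.is_comm.comm a b] at hn; omega
  have hdvd : 7 ∣ Nat.card G := by
    by_contra h
    have : Subsingleton (Sylow 7 G) := by
      refine ⟨fun A B => Sylow.ext ?_⟩
      have : ∀ A : Sylow 7 G, (A : Subgroup G) = ⊥ := by
        intro A
        rw [← Subgroup.card_eq_one]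
        obtain ⟨k, hk⟩ := IsPGroup.iff_card.1 A.isPGroup'
        cases k with
        | zero => simpa using hk
        | succ k =>
          exact absurd ((dvd_pow_self 7 k.succ_ne_zero).trans (hk ▸ Subgroup.card_subgroup_dvd_card _)) h
      rw [this A, this B]
    rw [Nat.card_of_subsingleton P] at hn
    omega
  have hP7 : Nat.card (P : Subgroup G) = 7 := card_sylow_eq_prime_of_simple hnc hdvd (by omega) P
  set f := MulAction.toPermHom G (Sylow 7 G) with hf
  have hinj : Function.Injective f := by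
    rw [← MonoidHom.ker_eq_bot_iff]
    refine (Subgroup.Normal.eq_bot_or_eq_top inferInstance).resolve_right fun h => ?_
    have hs : Subsingleton (Sylow 7 G) := by
      refine ⟨fun A B => ?_⟩
      obtain ⟨g, rfl⟩ := MulAction.exists_smul_eq G A B
      have : f g = 1 := (MonoidHom.mem_ker).1 (h ▸ Subgroup.mem_top g)
      exact (congrArg (fun s : Equiv.Perm (Sylow 7 G) => s A) this).symm
    rw [Nat.card_of_subsingleton P] at hn
    omega
  have hsign : ∀ g : G, Equiv.Perm.sign (f g) = 1 := by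
    intro g
    rcases (inferInstance : (Equiv.Perm.sign.comp f).ker.Normal).eq_bot_or_eq_top with h | h
    · exfalso
      refine hnc ⟨⟨fun a b => ?_⟩⟩
      apply (MonoidHom.ker_eq_bot_iff _).1 h
      rw [map_mul, map_mul, mul_comm]
    · have hg : g ∈ (Equiv.Perm.sign.comp f).ker := h ▸ Subgroup.mem_top g
      exact hg
  set C := Subgroup.centralizer ((P : Subgroup G) : Set G)
  set N := Subgroup.normalizer ((P : Subgroup G) : Set G)
  have hCP : Nat.card C ∣ 7 := by
    have hpg : IsPGroup 7 C := by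
      refine IsPGroup.of_card (n := (Nat.card C).primeFactorsList.length) ?_
      refine Nat.eq_prime_pow_of_unique_prime_dvd Nat.card_pos.ne' ?_
      intro r hr hrd
      by_contra hr7
      haveI := Fact.mk hr
      obtain ⟨t, ht⟩ := exists_prime_orderOf_dvd_card' r hrd
      refine prime_centralizing hinj hn P ?_ (t : G) r hr (by rw [Subgroup.orderOf_coe]; exact ht) hr7 t.2
      intro g _ _
      convert hsign g
    have hle : C ⊔ (P : Subgroup G) = (P : Subgroup G) :=
      P.is_maximal' (hpg.to_sup_of_normal_right' P.isPGroup' (Subgroup.centralizer_le_normalizer _)) le_sup_right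
    rw [← hP7]
    exact Subgroup.card_dvd_of_le (sup_eq_right.1 hle)
  haveI hcyc : IsCyclic (P : Subgroup G) := isCyclic_of_prime_card hP7
  have hN : C.relIndex N ∣ 6 := by
    have key := Subgroup.card_dvd_of_injective _ (QuotientGroup.kerLift_injective (P : Subgroup G).normalizerMonoidHom)
    rw [Subgroup.normalizerMonoidHom_ker, ← Subgroup.index, ← Subgroup.relIndex, hcyc.card_mulAut, hP7,
      Nat.totient_prime (Fact.out : Nat.Prime 7)] at key
    exact key
  have hG : Nat.card G = Nat.card C * C.relIndex N * 15 := by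
    rw [← hn, P.card_eq_index_normalizer]
    show _ = Nat.card C * C.relIndex N * N.index
    rw [mul_assoc, Subgroup.relIndex_mul_index (Subgroup.centralizer_le_normalizer _), Subgroup.card_mul_index]
  have hd630 : Nat.card G ∣ 630 := by
    rw [hG, show 630 = 7 * 6 * 15 from rfl]
    exact Nat.mul_dvd_mul_right (Nat.mul_dvd_mul hCP hN) 15
  have h105 : 105 ∣ Nat.card G := by
    have h15 : 15 ∣ Nat.card G := hG ▸ dvd_mul_left _ _
    exact (show Nat.Coprime 7 15 by norm_num).mul_dvd_of_dvd_of_dvd hdvd h15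
  obtain ⟨f', hf'⟩ := h105
  have hf6 : f' ∣ 6 := Nat.dvd_of_mul_dvd_mul_left (by norm_num : 0 < 105) (hf' ▸ hd630)
  have hlt : f' ≤ 6 := Nat.le_of_dvd (by norm_num) hf6
  have sylowPrime : ∀ q : ℕ, ∀ [Fact q.Prime], q ∣ Nat.card G → ¬ q ^ 2 ∣ Nat.card G →
      ∀ Q : Sylow q G, Nat.card (Q : Subgroup G) = q := by
    intro q _ h1 h2 Q
    obtain ⟨k, hk⟩ := IsPGroup.iff_card.1 Q.isPGroup'
    have h3 := Q.dvd_card_of_dvd_card h1
    rw [hk] at h3 ⊢
    rcases k with _ | _ | k
    · rw [pow_zero, Nat.dvd_one] at h3; exact absurd h3 (Fact.out : q.Prime).one_lt.ne'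
    · exact pow_one q
    · exact absurd ((pow_dvd_pow q (by omega : 2 ≤ k + 2)).trans (hk ▸ Subgroup.card_subgroup_dvd_card _)) h2
  have hpos : 0 < Nat.card G := Nat.card_pos
  have h5 : 5 ∣ Nat.card G := ⟨21 * f', by omega⟩
  have h5lt : 5 < Nat.card G := by omega
  haveI : Fact (Nat.Prime 2) := ⟨Nat.prime_two⟩
  haveI : Fact (Nat.Prime 5) := ⟨by norm_num⟩
  obtain ⟨P2⟩ : Nonempty (Sylow 2 G) := inferInstance
  obtain ⟨P5⟩ : Nonempty (Sylow 5 G) := inferInstance
  by_cases h2 : 2 ∣ Nat.card G
  · refine not_simple_of_prime_sylow P2 (sylowPrime 2 h2 ?_ P2) (by omega) (Nat.coprime_one_right _) inferInstance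
    intro h4
    have := h4.trans hd630
    norm_num at this
  · refine not_simple_of_prime_sylow P5 (sylowPrime 5 h5 ?_ P5) h5lt ?_ inferInstance
    · intro h4
      have := h4.trans hd630
      norm_num at this
    · exact Nat.Coprime.pow_right 2 ((Nat.prime_two.coprime_iff_not_dvd.2 h2).symm)

/-- No finite group has exactly 15 Sylow 7-subgroups. -/
theorem result {G : Type*} [Group G] [Finite G] : Nat.card (Sylow 7 G) ≠ 15 := by
  haveI : Fact (Nat.Prime 7) := ⟨by norm_num⟩
  refine (card_sylow_induction 7 (fun _ _ _ => True) (fun _ _ _ _ _ => trivial) (fun _ _ _ _ _ _ => trivial)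
    (fun n => n % 7 = 1 ∧ n ≠ 15) ?_ ?_ ?_ G trivial).2
  · rintro a b ⟨ha, ha'⟩ ⟨hb, hb'⟩
    refine ⟨by rw [Nat.mul_mod, ha, hb], fun h => ?_⟩
    have hle : a ≤ 15 := Nat.le_of_dvd (by norm_num) (h ▸ dvd_mul_right a b)
    interval_cases a <;> omega
  · intro n hn h
    refine ⟨?_, ?_⟩
    · have h1 : ∏ q ∈ n.primeFactors, q ^ n.factorization q ≡ ∏ q ∈ n.primeFactors, 1 [MOD 7] :=
        Nat.ModEq.prod fun q hq => h q (Nat.prime_of_mem_primeFactors hq)
      rw [Finset.prod_const_one] at h1
      have h2 : ∏ q ∈ n.primeFactors, q ^ n.factorization q = n := Nat.prod_factorization_pow_eq_self hn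
      rwa [h2] at h1
    · rintro rfl
      have := h 3 Nat.prime_three
      rw [show (15 : ℕ).factorization 3 = 1 by
        rw [show 15 = 3 * 5 from rfl, Nat.factorization_mul (by norm_num) (by norm_num), Finsupp.add_apply,
          Nat.Prime.factorization_self Nat.prime_three,
          Nat.factorization_eq_zero_of_not_dvd (by norm_num : ¬ 3 ∣ 5)]] at this
      exact absurd this (by decide)
  · intro H _ _ _ hs
    exact ⟨card_sylow_modEq_one 7 H, simple_ne_fifteen⟩

end Cfsg.Agent.S4304
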