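import Cfsg.Statements.S4305
import Cfsg.Agent.Lib.FitHeight.S3
import Cfsg.Agent.Lib.FitHeight.Bridge
import Cfsg.Agent.Lib.FitHeight.Semidirect
import Mathlib.GroupTheory.Perm.Sign

set_option autoImplicit false
open Cfsg

namespace Cfsg.Agent.S4305

open Subgroup Lib.FitHeight
open scoped commutatorElement IsMulCommutative

universe u

/-- Isomorphic to the symmetric group of degree three. -/
def IsS3 (A : Type u) [Group A] : Prop := Nonempty (A ≃* Equiv.Perm (Fin 3))

theorem isS3_equiv {A B : Type u} [Group A] [Group B] (e : A ≃* B) (h : IsS3 A) : IsS3 B := by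
  obtain ⟨i⟩ := h
  exact ⟨e.symm.trans i⟩

theorem prime_of_dvd_six {n : ℕ} (h : n ∣ 6) (h1 : n ≠ 1) (h6 : n ≠ 6) : n.Prime := by
  have h2 : n < 7 := Nat.lt_succ_of_le (Nat.le_of_dvd (by norm_num) h)
  revert h h1 h6
  interval_cases n <;> decide

theorem perm_three_facts : ∀ a : Equiv.Perm (Fin 3),
    (a = 1 ∨ a = finRotate 3 ∨ a = finRotate 3 * finRotate 3) ∨
    (a * a = 1 ∧ a ≠ 1 ∧ ∀ b : Equiv.Perm (Fin 3),
      b ∈ ([1, a, finRotate 3 * a * (finRotate 3)⁻¹, a * (finRotate 3 * a * (finRotate 3)⁻¹),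
        finRotate 3 * a * (finRotate 3)⁻¹ * a,
        a * (finRotate 3 * a * (finRotate 3)⁻¹) * a] : List (Equiv.Perm (Fin 3)))) := by decide

theorem s3_core (Γ : Type u) [Group Γ] [Finite Γ] (H A V : Subgroup Γ) (l : ℕ) (S : Setting IsS3.{u} H A)
    (hVn : V.Normal) (hVH : V ≤ H) (hl : l.Prime) (hVl : ∀ x ∈ V, x ^ l = 1) (hVc : IsMulCommutative V)
    (hCV : H ⊓ centralizer (V : Set Γ) ≤ V)
    (hO : ∀ M : Subgroup Γ, M.Normal → M ≤ H → IsPGroup l M → M ≤ V) :
    H.lowerCentralSeries 1 ≤ V := by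
  have := S.normal
  rw [Subgroup.lowerCentralSeries_succ, Subgroup.lowerCentralSeries_zero]
  by_cases hV : V = ⊥
  · subst hV
    have : H = ⊥ := eq_bot_iff.mpr fun x hx => hCV ⟨hx, mem_centralizer_iff.mpr fun v hv => by
      rw [SetLike.mem_coe, mem_bot] at hv; rw [hv, one_mul, mul_one]⟩
    rw [this, commutator_bot_left]
  let _ := quotientAction V
  let π := QuotientGroup.mk' V
  obtain ⟨i⟩ := (S.quotient (fun e h => isS3_equiv e h) V hVH).hA
  let f : Γ ⧸ V := ((i.symm (finRotate 3) : A.map π) : Γ ⧸ V)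
  let t : Γ ⧸ V := ((i.symm (Equiv.swap 0 1) : A.map π) : Γ ⧸ V)
  have hcard : Nat.card (A.map π) = 6 := by
    rw [Nat.card_congr i.toEquiv, Nat.card_eq_fintype_card, Fintype.card_perm, Fintype.card_fin]
    rfl
  have hmin : ∀ B : Subgroup (Γ ⧸ V), B ≤ A.map π → B ≠ A.map π → B ≠ ⊥ → (Nat.card B).Prime :=
    fun B h1 h2 h3 => prime_of_dvd_six (hcard ▸ card_dvd_of_le h1) (fun e => h3 (eq_bot_of_card_eq B e))
      (fun e => h2 (eq_of_le_of_card_ge h1 (by rw [e, hcard])))
  have D := coreData_quotient (fun e h => isS3_equiv e h) S hVH hl hVl hCV hO hV hmin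
  have hval : ∀ a b : Equiv.Perm (Fin 3), ((i.symm (a * b) : A.map π) : Γ ⧸ V) =
      ((i.symm a : A.map π) : Γ ⧸ V) * ((i.symm b : A.map π) : Γ ⧸ V) := fun a b => by rw [map_mul]; rfl
  have hf : orderOf f = 3 := by
    rw [Subgroup.orderOf_coe, MulEquiv.orderOf_eq]
    exact orderOf_eq_prime (by decide) (by decide)
  have ht : t * t = 1 := by
    show _ = _
    rw [← hval, show Equiv.swap (0 : Fin 3) 1 * Equiv.swap 0 1 = 1 by decide, map_one]; rfl
  have ht1 : t ≠ 1 := fun e => by
    have h : i.symm (Equiv.swap (0 : Fin 3) 1) = 1 := Subtype.ext e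
    have := congrArg i h
    rw [MulEquiv.apply_symm_apply, map_one] at this
    exact absurd this (by decide)
  have htf : t * f * t⁻¹ = f⁻¹ := by
    have h : i.symm (Equiv.swap (0 : Fin 3) 1) * i.symm (finRotate 3) * (i.symm (Equiv.swap (0 : Fin 3) 1))⁻¹ =
        (i.symm (finRotate 3))⁻¹ := by
      rw [← map_inv, ← map_inv, ← map_mul, ← map_mul]
      congr 1
      decide
    exact congrArg Subtype.val h
  have hinv : ∀ a ∈ A.map π, a ∈ zpowers f ∨ (a * a = 1 ∧ a ≠ 1 ∧ A.map π ≤ closure {a, f * a * f⁻¹}) := by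
    intro a ha
    obtain ⟨b, hb⟩ : ∃ b, i.symm b = (⟨a, ha⟩ : A.map π) := ⟨i ⟨a, ha⟩, i.symm_apply_apply _⟩
    have hab : a = ((i.symm b : A.map π) : Γ ⧸ V) := by rw [hb]
    rcases perm_three_facts b with (h | h | h) | ⟨h2, h1, hgen⟩
    · left; rw [hab, h, map_one]; exact one_mem _
    · left; rw [hab, h]; exact mem_zpowers f
    · left; rw [hab, h, hval]; exact mul_mem (mem_zpowers f) (mem_zpowers f)
    · right
      refine ⟨?_, ?_, ?_⟩
      · rw [hab, ← hval, h2, map_one]; rfl
      · intro e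
        apply h1
        have h : i.symm b = 1 := Subtype.ext (hab ▸ e)
        simpa using congrArg i h
      · intro x hx
        obtain ⟨c, hc⟩ : ∃ c, i.symm c = (⟨x, hx⟩ : A.map π) := ⟨i ⟨x, hx⟩, i.symm_apply_apply _⟩
        let C : Subgroup (A.map π) := (closure {a, f * a * f⁻¹}).subgroupOf (A.map π)
        have hb1 : i.symm b ∈ C := by
          show ((i.symm b : A.map π) : Γ ⧸ V) ∈ closure ({a, f * a * f⁻¹} : Set (Γ ⧸ V))
          rw [← hab]
          exact Subgroup.subset_closure (Set.mem_insert _ _)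
        have hb2 : i.symm (finRotate 3 * b * (finRotate 3)⁻¹) ∈ C := by
          rw [map_mul, map_mul, map_inv]
          show ((i.symm (finRotate 3) * i.symm b * (i.symm (finRotate 3))⁻¹ : A.map π) : Γ ⧸ V) ∈
            closure ({a, f * a * f⁻¹} : Set (Γ ⧸ V))
          rw [hb]
          exact Subgroup.subset_closure (Set.mem_insert_of_mem _ rfl)
        have hmem : i.symm c ∈ C := by
          have h := hgen c
          simp only [List.mem_cons, List.not_mem_nil, or_false] at h
          rcases h with h | h | h | h | h | h <;> rw [h]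
          · rw [map_one]; exact one_mem _
          · exact hb1
          · exact hb2
          · rw [map_mul i.symm b]; exact mul_mem hb1 hb2
          · rw [map_mul i.symm (finRotate 3 * b * (finRotate 3)⁻¹)]; exact mul_mem hb2 hb1
          · rw [map_mul i.symm (b * (finRotate 3 * b * (finRotate 3)⁻¹)), map_mul i.symm b]
            exact mul_mem (mul_mem hb1 hb2) hb1
        rw [hc] at hmem
        exact hmem
  have key := D.commute_of_s3 (i.symm (finRotate 3)).2 (i.symm (Equiv.swap 0 1)).2 hf ht ht1 htf hinv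
  rw [commutator_le]
  intro x hx y hy
  have h : π ⁅x, y⁆ = 1 := by
    rw [map_commutatorElement]
    exact commutatorElement_eq_one_iff_mul_comm.mpr (key _ (mem_map_of_mem π hx) _ (mem_map_of_mem π hy))
  exact (QuotientGroup.eq_one_iff _).mp h


/-- Let the symmetric group of degree 3 act by automorphisms on a finite solvable group `G` of order prime to 6, so that only the identity of `G` is fixed by all of it. Then the derived subgroup of `G` is nilpotent. -/
theorem result {G : Type*} [Group G] [Finite G] [Group.IsSolvable G]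
    [MulDistribMulAction (Equiv.Perm (Fin 3)) G] (hcop : (Nat.card G).Coprime 6)
    (hfpf : ∀ g : G, (∀ a : Equiv.Perm (Fin 3), a • g = g) → g = 1) :
    Group.IsNilpotent ↥(commutator G) := by
  let φ : ULift.{u_1} (Equiv.Perm (Fin 3)) →* MulAut G :=
    (MulDistribMulAction.toMulAut (Equiv.Perm (Fin 3)) G).comp MulEquiv.ulift.toMonoidHom
  haveI hs : Group.IsSolvable (ULift.{u_1} (Equiv.Perm (Fin 3))) := by
    have h : Group.IsSolvable (Equiv.Perm (Fin 3)) := by
      have hk : Group.IsSolvable (Equiv.Perm.sign (α := Fin 3)).ker := Group.isSolvable_of_comm fun a b =>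
        Subtype.ext (by
          have : ∀ a b : Equiv.Perm (Fin 3), Equiv.Perm.sign a = 1 → Equiv.Perm.sign b = 1 → a * b = b * a := by
            decide
          exact this a b a.2 b.2)
      exact Group.isSolvable_of_ker_le_range (Equiv.Perm.sign (α := Fin 3)).ker.subtype
        (Equiv.Perm.sign (α := Fin 3)) (by rw [range_subtype])
    exact Group.isSolvable_of_surjective (f := (MulEquiv.ulift.{0, u_1} (α := Equiv.Perm (Fin 3))).symm.toMonoidHom)
      (MulEquiv.surjective _)
  have hA : Nat.card (ULift.{u_1} (Equiv.Perm (Fin 3))) = 6 := by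
    rw [Nat.card_congr Equiv.ulift, Nat.card_eq_fintype_card, Fintype.card_perm, Fintype.card_fin]; rfl
  have S := setting_semidirect φ (P := IsS3) (fun e h => isS3_equiv e h) ⟨MulEquiv.ulift⟩
    (by rw [hA]; exact hcop.symm) (fun g hg => hfpf g fun a => hg ⟨a⟩)
  have : Finite (G ⋊[φ] ULift.{u_1} (Equiv.Perm (Fin 3))) :=
    Finite.of_equiv _ SemidirectProduct.equivProd.symm
  obtain ⟨k, hk, hnil⟩ := reduce (P := IsS3) (fun e h => isS3_equiv e h) {1} (Set.singleton_nonempty 1)
    (by intro i hi j hj; simp_all)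
    (fun Γ _ _ H A V l S hVn hVH hl hVl hVc hCV hO =>
      ⟨1, rfl, s3_core Γ H A V l S hVn hVH hl hVl hVc hCV hO⟩) _ _ _ _ rfl S
  rw [Set.mem_singleton_iff] at hk
  subst hk
  have h := isNilpotent_lcs_of_range φ hnil
  exact nil_of_equiv h (MulEquiv.subgroupCongr (by
    rw [Subgroup.lowerCentralSeries_succ, Subgroup.lowerCentralSeries_zero]; rfl))

end Cfsg.Agent.S4305
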