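import Cfsg.Statements.S4306
import Cfsg.Agent.Lib.FitHeight.PQ
import Cfsg.Agent.Lib.FitHeight.Bridge
import Cfsg.Agent.Lib.FitHeight.Semidirect
import Mathlib.GroupTheory.Index

set_option autoImplicit false
open Cfsg

namespace Cfsg.Agent.S4306

open Subgroup Lib.FitHeight Lib.Coprime
open scoped IsMulCommutative commutatorElement Pointwise

universe u

/-- Non-abelian of order `p * q`. -/
def IsPQ (p q : ℕ) (A : Type u) [Group A] : Prop := Nat.card A = p * q ∧ ¬ IsMulCommutative A

theorem isPQ_equiv {p q : ℕ} {A B : Type u} [Group A] [Group B] (e : A ≃* B) (h : IsPQ p q A) : IsPQ p q B := by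
  refine ⟨by rw [← Nat.card_congr e.toEquiv]; exact h.1, fun hc => h.2 ⟨⟨fun a b => e.injective ?_⟩⟩⟩
  rw [map_mul, map_mul]
  exact hc.is_comm.comm _ _

theorem exists_shape {Γ : Type u} [Group Γ] [Finite Γ] {A : Subgroup Γ} {p q : ℕ} (hp : p.Prime) (hq : q.Prime)
    (hlt : p < q) (h : IsPQ p q A) : ∃ f t a, PQData A p q f t a := by
  obtain ⟨hcard, hna⟩ := h
  have : Fact p.Prime := ⟨hp⟩
  have : Fact q.Prime := ⟨hq⟩
  obtain ⟨f, hf⟩ := exists_prime_orderOf_dvd_card' (G := A) q (hcard ▸ dvd_mul_left q p)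
  obtain ⟨t, ht⟩ := exists_prime_orderOf_dvd_card' (G := A) p (hcard ▸ dvd_mul_right p q)
  have hidx : (zpowers f).index = p := by
    have h := (zpowers f).card_mul_index
    rw [Nat.card_zpowers, hf, hcard, mul_comm p q] at h
    exact Nat.eq_of_mul_eq_mul_left hq.pos h
  have hn : (zpowers f).Normal := normal_of_index_eq_minFac_card (by
    rw [hidx, hcard]
    refine le_antisymm ?_ (Nat.minFac_le_of_dvd hp.two_le (dvd_mul_right p q))
    have hne : p * q ≠ 1 := (Nat.one_lt_mul_iff.mpr ⟨hp.pos, hq.pos, Or.inl hp.one_lt⟩).ne'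
    rcases (Nat.minFac_prime hne).dvd_mul.mp (Nat.minFac_dvd (p * q)) with h | h
    · exact ((Nat.prime_dvd_prime_iff_eq (Nat.minFac_prime hne) hp).mp h).ge
    · exact hlt.le.trans ((Nat.prime_dvd_prime_iff_eq (Nat.minFac_prime hne) hq).mp h).ge)
  have hmem : t * f * t⁻¹ ∈ zpowers f := hn.conj_mem f (mem_zpowers f) t
  rw [← mem_powers_iff_mem_zpowers] at hmem
  obtain ⟨a, ha⟩ := hmem
  refine ⟨f, t, a, hp, hq, hlt.ne, f.2, t.2, by rw [Subgroup.orderOf_coe, hf], by rw [Subgroup.orderOf_coe, ht],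
    hcard, by rw [← Subgroup.coe_pow, ← Subgroup.coe_inv, ← Subgroup.coe_mul, ← Subgroup.coe_mul]; exact congrArg Subtype.val ha.symm, fun hc => hna ?_⟩
  have hne : t ∉ zpowers f := fun h => by
    have h2 := orderOf_dvd_of_mem_zpowers h
    rw [hf, ht] at h2
    exact hlt.ne ((Nat.prime_dvd_prime_iff_eq hp hq).mp h2)
  have hcomm : IsMulCommutative (closure ({t, f} : Set A)) := isMulCommutative_closure (by
    have hc' : t * f = f * t := Subtype.ext hc
    rintro x (rfl | rfl) y (rfl | rfl)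
    exacts [rfl, hc', hc'.symm, rfl])
  have htop : (closure {t, f} : Subgroup A) = ⊤ := by
    have h1 : zpowers f ≤ closure {t, f} :=
      zpowers_le.mpr (Subgroup.subset_closure (Set.mem_insert_of_mem _ rfl))
    have h2 := card_dvd_of_le h1
    rw [Nat.card_zpowers, hf] at h2
    refine eq_top_of_card_eq _ (Nat.dvd_antisymm (card_subgroup_dvd_card _) ?_)
    rw [hcard]
    refine ((Nat.coprime_primes hp hq).mpr hlt.ne).mul_dvd_of_dvd_of_dvd ?_ h2
    rw [← ht, ← Nat.card_zpowers]
    exact card_dvd_of_le (zpowers_le.mpr (Subgroup.subset_closure (Set.mem_insert _ _)))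
  exact ⟨⟨fun x y => congrArg Subtype.val
    (hcomm.is_comm.comm ⟨x, htop.symm ▸ mem_top x⟩ ⟨y, htop.symm ▸ mem_top y⟩)⟩⟩

theorem pq_core {p q : ℕ} (hp : p.Prime) (hq : q.Prime) (hlt : p < q) (Γ : Type u) [Group Γ] [Finite Γ]
    (H A V : Subgroup Γ) (l : ℕ) (S : Setting (IsPQ.{u} p q) H A)
    (hVn : V.Normal) (hVH : V ≤ H) (hl : l.Prime) (hVl : ∀ x ∈ V, x ^ l = 1) (hVc : IsMulCommutative V)
    (hCV : H ⊓ centralizer (V : Set Γ) ≤ V)
    (hO : ∀ M : Subgroup Γ, M.Normal → M ≤ H → IsPGroup l M → M ≤ V) :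
    ∃ k ∈ (Set.univ : Set ℕ), H.lowerCentralSeries k ≤ V := by
  have := S.normal
  by_cases hV : V = ⊥
  · subst hV
    refine ⟨0, Set.mem_univ _, fun x hx => hCV ⟨hx, mem_centralizer_iff.mpr fun v hv => ?_⟩⟩
    rw [SetLike.mem_coe, mem_bot] at hv
    rw [hv, one_mul, mul_one]
  let _ := quotientAction V
  let π := QuotientGroup.mk' V
  have hPQ := (S.quotient (fun e h => isPQ_equiv e h) V hVH).hA
  obtain ⟨f, t, a, P⟩ := exists_shape hp hq hlt hPQ
  have hmin : ∀ B : Subgroup (Γ ⧸ V), B ≤ A.map π → B ≠ A.map π → B ≠ ⊥ → (Nat.card B).Prime := by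
    intro B h1 h2 h3
    have hd := card_dvd_of_le h1
    rw [P.hcard] at hd
    obtain ⟨a', b', ha', hb', hab⟩ := Nat.dvd_mul.mp hd
    rcases (Nat.dvd_prime hp).mp ha' with rfl | rfl <;> rcases (Nat.dvd_prime hq).mp hb' with rfl | rfl
    · exact absurd (eq_bot_of_card_eq B (by rw [← hab, mul_one])) h3
    · rw [← hab, one_mul]; exact hq
    · rw [← hab, mul_one]; exact hp
    · exact absurd (eq_of_le_of_card_ge h1 (by rw [P.hcard, hab])) h2
  have D := coreData_quotient (fun e h => isPQ_equiv e h) S hVH hl hVl hCV hO hV hmin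
  obtain ⟨k, hk⟩ := (Subgroup.isNilpotent_iff_lowerCentralSeries (H.map π)).mp (P.isNilpotent D)
  refine ⟨k, Set.mem_univ _, fun x hx => ?_⟩
  rw [← map_lowerCentralSeries] at hk
  exact (QuotientGroup.eq_one_iff x).mp (mem_bot.mp (hk ▸ mem_map_of_mem π hx))

theorem quotient_lcs_isNilpotent {G : Type u} [Group G] (k : ℕ) :
    Group.IsNilpotent (G ⧸ (⊤ : Subgroup G).lowerCentralSeries k) := by
  refine _root_.nilpotent_iff_lowerCentralSeries.mpr ⟨k, ?_⟩
  rw [← map_top_of_surjective _ (QuotientGroup.mk'_surjective ((⊤ : Subgroup G).lowerCentralSeries k)),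
    ← map_lowerCentralSeries]
  exact QuotientGroup.map_mk'_self _

theorem of_lt {G : Type u} {A : Type*} [Group G] [Finite G]
    [Group.IsSolvable G] [Group A] [Finite A] [MulDistribMulAction A G] (p q : ℕ) (hp : p.Prime) (hq : q.Prime)
    (hlt : p < q) (hA : Nat.card A = p * q) (hAna : ¬ IsMulCommutative A) (hcop : (Nat.card G).Coprime (p * q))
    (hfpf : ∀ g : G, (∀ a : A, a • g = g) → g = 1) :
    ∃ F : Subgroup G, ∃ hF : F.Normal, Group.IsNilpotent ↥F ∧ Group.IsNilpotent (G ⧸ F) := by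
  let φ₀ : A →* MulAut G := MulDistribMulAction.toMulAut A G
  have hfin : Finite (MulAut G) := Finite.of_injective (fun σ : MulAut G => (σ : G → G)) DFunLike.coe_injective
  -- move the operators to the universe of `G`
  let A' : Type u := Shrink.{u} A
  let me : A' ≃* A := Shrink.mulEquiv
  let φ : A' →* MulAut G := φ₀.comp me.toMonoidHom
  have hA' : IsPQ p q A' := ⟨by rw [Nat.card_congr me.toEquiv, hA], fun hc => hAna ⟨⟨fun a b => by
    have h := congrArg me (hc.is_comm.comm (me.symm a) (me.symm b))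
    rw [map_mul, map_mul, me.apply_symm_apply, me.apply_symm_apply] at h
    exact h⟩⟩⟩
  haveI hs : Group.IsSolvable A' := by
    have : Fact p.Prime := ⟨hp⟩
    have : Fact q.Prime := ⟨hq⟩
    obtain ⟨f, hf⟩ := exists_prime_orderOf_dvd_card' (G := A') q (hA'.1 ▸ dvd_mul_left q p)
    have hidx : (zpowers f).index = p := by
      have h := (zpowers f).card_mul_index
      rw [Nat.card_zpowers, hf, hA'.1, mul_comm p q] at h
      exact Nat.eq_of_mul_eq_mul_left hq.pos h
    have hn : (zpowers f).Normal := normal_of_index_eq_minFac_card (by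
      rw [hidx, hA'.1]
      refine le_antisymm ?_ (Nat.minFac_le_of_dvd hp.two_le (dvd_mul_right p q))
      have hne : p * q ≠ 1 := (Nat.one_lt_mul_iff.mpr ⟨hp.pos, hq.pos, Or.inl hp.one_lt⟩).ne'
      rcases (Nat.minFac_prime hne).dvd_mul.mp (Nat.minFac_dvd (p * q)) with h | h
      · exact ((Nat.prime_dvd_prime_iff_eq (Nat.minFac_prime hne) hp).mp h).ge
      · exact hlt.le.trans ((Nat.prime_dvd_prime_iff_eq (Nat.minFac_prime hne) hq).mp h).ge)
    have h1 : Group.IsSolvable (zpowers f) := Group.isSolvable_of_comm fun a b => mul_comm' a b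
    have h2 : IsCyclic (A' ⧸ zpowers f) := isCyclic_of_prime_card (p := p) (by rw [← index_eq_card, hidx])
    have h3 : Group.IsSolvable (A' ⧸ zpowers f) := Group.isSolvable_of_comm fun a b => mul_comm' a b
    exact Group.isSolvable_of_ker_le_range (zpowers f).subtype (QuotientGroup.mk' (zpowers f))
      (by rw [QuotientGroup.ker_mk', range_subtype])
  have S := setting_semidirect φ (P := IsPQ p q) (fun e h => isPQ_equiv e h) hA'
    (by rw [hA'.1]; exact hcop.symm)
    (fun g hg => hfpf g fun a => by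
      have h := hg (me.symm a)
      change φ₀ (me (me.symm a)) g = g at h
      rwa [me.apply_symm_apply] at h)
  have : Finite (G ⋊[φ] A') := Finite.of_equiv _ SemidirectProduct.equivProd.symm
  obtain ⟨k, -, hnil⟩ := reduce (P := IsPQ p q) (fun e h => isPQ_equiv e h) Set.univ Set.univ_nonempty
    (fun _ _ _ _ => Set.mem_univ _)
    (fun Γ _ _ H A V l S hVn hVH hl hVl hVc hCV hO =>
      pq_core hp hq hlt Γ H A V l S hVn hVH hl hVl hVc hCV hO) _ _ _ _ rfl S
  exact ⟨_, inferInstance, isNilpotent_lcs_of_range φ hnil, quotient_lcs_isNilpotent k⟩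

/-- Let `A` be a non-abelian group of order `pq` with `p, q` distinct primes, acting by automorphisms on a finite solvable group `G` of order prime to `pq`, so that only the identity of `G` is fixed by all of `A`. Then `G` has Fitting height at most 2: there is a normal nilpotent subgroup `F` of `G` with `G/F` nilpotent. -/
theorem result {G A : Type*} [Group G] [Finite G]
    [Group.IsSolvable G] [Group A] [Finite A] [MulDistribMulAction A G] (p q : ℕ) (hp : p.Prime) (hq : q.Prime) (hpq : p ≠ q)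
    (hA : Nat.card A = p * q) (hAna : ¬ IsMulCommutative A) (hcop : (Nat.card G).Coprime (p * q))
    (hfpf : ∀ g : G, (∀ a : A, a • g = g) → g = 1) :
    ∃ F : Subgroup G, ∃ hF : F.Normal, Group.IsNilpotent ↥F ∧ Group.IsNilpotent (G ⧸ F) := by
  rcases Nat.lt_or_gt_of_ne hpq with h | h
  · exact of_lt p q hp hq h hA hAna hcop hfpf
  · exact of_lt q p hq hp h (hA.trans (mul_comm p q)) hAna (by rwa [mul_comm q p]) hfpf

end Cfsg.Agent.S4306
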