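import Cfsg.Statements.S4314

import Cfsg.Agent.Lib.Struct4.Basic
set_option autoImplicit false
open Cfsg

namespace Cfsg.Agent.S4314

open Cfsg.Agent.Lib.Struct4

theorem caseA {G : Type*} [Group G] [Finite G] (p : ℕ) [Fact p.Prime]
    (h : ∀ x : G, (Subgroup.centralizer ({x} : Set G)).index = 1 ∨ (Subgroup.centralizer ({x} : Set G)).index = p) :
    Subgroup.upperCentralSeries G 2 = ⊤ := by
  classical
  have hp : p.Prime := Fact.out
  have hcentral : ∀ q : ℕ, q.Prime → q ≠ p → ∀ Q : Sylow q G, (Q : Subgroup G) ≤ Subgroup.center G := by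
    intro q hq hqp Q
    haveI := Fact.mk hq
    have hC : Subgroup.centralizer ((Q : Subgroup G) : Set G) = ⊤ := by
      by_contra hne
      obtain ⟨y, hy⟩ := exists_not_mem_conj _ hne
      set Cy := Subgroup.centralizer ({y} : Set G)
      obtain ⟨R⟩ : Nonempty (Sylow q Cy) := inferInstance
      have hR : ¬ q ∣ ((R : Subgroup Cy).map Cy.subtype).index := by
        rw [Subgroup.index_map_subtype]
        refine hq.not_dvd_mul R.not_dvd_index ?_
        rcases h y with e | e <;> rw [e]
        · exact hq.not_dvd_one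
        · exact fun hd => hqp ((Nat.prime_dvd_prime_iff_eq hq hp).1 hd)
      obtain ⟨g, hg⟩ := MulAction.exists_smul_eq G ((R.isPGroup'.map Cy.subtype).toSylow hR) Q
      refine hy g⁻¹ ?_
      rw [Subgroup.mem_centralizer_iff]
      intro a ha
      have ha' : a ∈ ((g • ((R.isPGroup'.map Cy.subtype).toSylow hR) : Sylow q G) : Subgroup G) := by
        rw [hg]; exact ha
      rw [mem_normal_smul_sylow] at ha'
      obtain ⟨b, -, hb⟩ := (ha' : g⁻¹ * a * g ∈ (R : Subgroup Cy).map Cy.subtype)
      have hby : y * (b : G) = b * y := Subgroup.mem_centralizer_iff.1 b.2 y rfl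
      have e : (b : G) = g⁻¹ * a * g := hb
      rw [e] at hby
      have := congrArg (fun z => g * z * g⁻¹) hby
      simp only [mul_assoc, mul_inv_cancel_left, mul_inv_cancel, mul_one] at this
      simpa [mul_assoc] using this.symm
    intro z hz
    rw [Subgroup.mem_center_iff]
    intro g
    exact (Subgroup.mem_centralizer_iff.1 (hC ▸ Subgroup.mem_top g : g ∈ Subgroup.centralizer ((Q : Subgroup G) : Set G)) z hz).symm
  have hpq : IsPGroup p (G ⧸ Subgroup.center G) := by
    refine IsPGroup.of_card (n := (Nat.card (G ⧸ Subgroup.center G)).primeFactorsList.length) ?_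
    refine Nat.eq_prime_pow_of_unique_prime_dvd Nat.card_pos.ne' ?_
    intro q hq hd
    by_contra hne
    haveI := Fact.mk hq
    obtain ⟨Q⟩ : Nonempty (Sylow q G) := inferInstance
    exact Q.not_dvd_index (hd.trans (Subgroup.index_dvd_of_le (hcentral q hq hne Q)))
  have hnilq := hpq.isNilpotent
  have hnil : Group.IsNilpotent G := Group.of_quotient_center_nilpotent hnilq
  rw [eq_top_iff]
  intro a _
  rw [show (2 : ℕ) = 1 + 1 from rfl, Subgroup.mem_upperCentralSeries_succ_iff, Subgroup.upperCentralSeries_one]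
  intro b
  rw [Subgroup.mem_center_iff]
  intro g
  rcases h g with e | e
  · have := (Subgroup.index_eq_one.1 e) ▸ Subgroup.mem_top (a * b * a⁻¹ * b⁻¹)
    exact Subgroup.mem_centralizer_iff.1 this g rfl
  · have hco : IsCoatom (Subgroup.centralizer ({g} : Set G)) := by
      refine ⟨fun ht => hp.one_lt.ne' (by rw [← e, ht, Subgroup.index_top]), fun L hL => ?_⟩
      have h1 := Subgroup.index_dvd_of_le hL.le
      rw [e, Nat.dvd_prime hp] at h1
      rcases h1 with h1 | h1
      · exact Subgroup.index_eq_one.1 h1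
      · exact absurd h1 (e ▸ (Subgroup.index_strictAnti hL).ne)
    haveI hCn := Subgroup.NormalizerCondition.normal_of_coatom _ Group.normalizerCondition_of_isNilpotent hco
    haveI : IsCyclic (G ⧸ Subgroup.centralizer ({g} : Set G)) := isCyclic_of_prime_card (p := p) e
    let _ := IsCyclic.commGroup (α := G ⧸ Subgroup.centralizer ({g} : Set G))
    have : a * b * a⁻¹ * b⁻¹ ∈ Subgroup.centralizer ({g} : Set G) := by
      rw [← QuotientGroup.eq_one_iff]
      simp only [QuotientGroup.mk_mul, QuotientGroup.mk_inv]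
      rw [mul_comm (a : G ⧸ Subgroup.centralizer ({g} : Set G)) b, mul_inv_cancel_right, mul_inv_cancel]
    exact Subgroup.mem_centralizer_iff.1 this g rfl

section CaseB

open scoped Pointwise

variable {G : Type*} [Group G] [Finite G]

theorem class_card (x : G) :
    (MulAction.orbit (ConjAct G) x).ncard = (Subgroup.centralizer ({x} : Set G)).index := by
  rw [← MulAction.index_stabilizer, ConjAct.stabilizer_eq_centralizer]
  rfl

theorem key (h : ∀ x : G, (Subgroup.centralizer ({x} : Set G)).index = 1 ∨ ((Subgroup.centralizer ({x} : Set G)).index).Prime)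
    (x y : G) (hx : (Subgroup.centralizer ({x} : Set G)).index.Prime)
    (hy : (Subgroup.centralizer ({y} : Set G)).index.Prime)
    (hlt : (Subgroup.centralizer ({x} : Set G)).index < (Subgroup.centralizer ({y} : Set G)).index) :
    Nat.card (MulAction.stabilizer G (MulAction.orbit (ConjAct G) y)) =
        (Subgroup.centralizer ({y} : Set G)).index ∧
      (∀ g : G, g * y * g⁻¹ * y⁻¹ ∈ MulAction.stabilizer G (MulAction.orbit (ConjAct G) y)) ∧
      (∀ g : G, x⁻¹ * (g * x * g⁻¹) ∈ MulAction.stabilizer G (MulAction.orbit (ConjAct G) y)) := by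
  classical
  set Cx := Subgroup.centralizer ({x} : Set G)
  set Cy := Subgroup.centralizer ({y} : Set G)
  have hfac : ∀ h : G, ∃ a ∈ Cx, ∃ b ∈ Cy, h = a * b := by
    have hdp : Cx.index ∣ (Cx ⊓ Cy).index := Subgroup.index_dvd_of_le inf_le_left
    have hdq : Cy.index ∣ (Cx ⊓ Cy).index := Subgroup.index_dvd_of_le inf_le_right
    have hdpq := (Nat.coprime_primes hx hy |>.2 hlt.ne).mul_dvd_of_dvd_of_dvd hdp hdq
    have e := Subgroup.relIndex_mul_index (inf_le_left : Cx ⊓ Cy ≤ Cx)
    rw [Subgroup.inf_relIndex_left] at e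
    have hle : Cy.index ≤ Cy.relIndex Cx := by
      refine Nat.le_of_mul_le_mul_left ?_ hx.pos
      rw [mul_comm Cx.index (Cy.relIndex Cx), e]
      exact Nat.le_of_dvd (Nat.pos_of_ne_zero Subgroup.index_ne_zero_of_finite) hdpq
    intro h
    have horb : MulAction.orbit Cx ((1 : G) : G ⧸ Cy) = Set.univ := by
      refine Set.eq_of_subset_of_ncard_le (Set.subset_univ _) ?_
      · rw [Set.ncard_univ, ← MulAction.index_stabilizer]
        refine le_trans hle (le_of_eq ?_)
        show (Cy.subgroupOf Cx).index = _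
        congr 1
        ext a
        rw [Subgroup.mem_subgroupOf, MulAction.mem_stabilizer_iff]
        show (a : G) ∈ Cy ↔ (((a : G) * 1 : G) : G ⧸ Cy) = ((1 : G) : G ⧸ Cy)
        rw [mul_one, QuotientGroup.eq, mul_one]
        exact inv_mem_iff.symm
    obtain ⟨a, ha⟩ := (horb.symm ▸ Set.mem_univ _ : (h : G ⧸ Cy) ∈ MulAction.orbit Cx ((1 : G) : G ⧸ Cy))
    have ha' : ((a : G) : G ⧸ Cy) = (h : G ⧸ Cy) := by
      change (((a : G) * 1 : G) : G ⧸ Cy) = (h : G ⧸ Cy) at ha
      rwa [mul_one] at ha
    exact ⟨a, a.2, (a : G)⁻¹ * h, QuotientGroup.eq.1 ha', (mul_inv_cancel_left _ _).symm⟩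
  set X := MulAction.orbit (ConjAct G) x
  set Y := MulAction.orbit (ConjAct G) y
  set W := MulAction.orbit (ConjAct G) (x * y)
  have hXY : ∀ x' ∈ X, x' • Y ⊆ W := by
    rintro _ ⟨g, rfl⟩ _ ⟨_, ⟨h', rfl⟩, rfl⟩
    obtain ⟨a, ha, b, hb, hab⟩ := hfac ((ConjAct.ofConjAct g)⁻¹ * ConjAct.ofConjAct h')
    refine ⟨ConjAct.toConjAct (ConjAct.ofConjAct g * a), ?_⟩
    simp only [ConjAct.smul_def, ConjAct.ofConjAct_toConjAct, smul_eq_mul]
    have e : ConjAct.ofConjAct h' = ConjAct.ofConjAct g * a * b := by
      rw [mul_assoc, ← hab, mul_inv_cancel_left]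
    rw [e]
    have ha' : a * x * a⁻¹ = x := by
      rw [← Subgroup.mem_centralizer_iff.1 ha x rfl, mul_inv_cancel_right]
    have hb' : b * y * b⁻¹ = y := by
      rw [← Subgroup.mem_centralizer_iff.1 hb y rfl, mul_inv_cancel_right]
    generalize ConjAct.ofConjAct g = u
    calc u * a * (x * y) * (u * a)⁻¹ = (u * (a * x * a⁻¹) * u⁻¹) * (u * a * y * (u * a)⁻¹) := by group
      _ = (u * x * u⁻¹) * (u * a * (b * y * b⁻¹) * (u * a)⁻¹) := by rw [ha', hb']
      _ = _ := by group
  have hsm : ∀ x' : G, (x' • Y).ncard = Cy.index := by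
    intro x'
    rw [Set.ncard_smul_set, class_card]
  have hWq : W.ncard = Cy.index := by
    have hxW : x • Y ⊆ W := hXY x (MulAction.mem_orbit_self x)
    have hge : Cy.index ≤ W.ncard := (hsm x) ▸ Set.ncard_le_ncard hxW
    have hge2 : W.ncard = (Subgroup.centralizer ({x * y} : Set G)).index := class_card _
    rcases h (x * y) with e | e
    · have := hy.one_lt; omega
    · -- the class of `xy` is covered by translates of `X` as well
      refine le_antisymm ?_ hge
      by_contra hlt'
      push Not at hlt'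
      -- `W ⊆ ` orbit of size ≤ index of `Cx ⊓ Cy`
      have hle2 : (Subgroup.centralizer ({x * y} : Set G)).index ∣ (Cx ⊓ Cy).index := by
        refine Subgroup.index_dvd_of_le fun z hz => ?_
        rw [Subgroup.mem_centralizer_iff]
        rintro _ rfl
        have h1 := Subgroup.mem_centralizer_iff.1 hz.1 x rfl
        have h2 := Subgroup.mem_centralizer_iff.1 hz.2 y rfl
        rw [mul_assoc, h2, ← mul_assoc, h1, mul_assoc]
      have e1 := Subgroup.relIndex_mul_index (inf_le_left : Cx ⊓ Cy ≤ Cx)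
      rw [Subgroup.inf_relIndex_left] at e1
      have hle3 : Cy.relIndex Cx ≤ Cy.index := by
        show (Cy.subgroupOf Cx).index ≤ _
        obtain ⟨f, hf⟩ : ∃ f : (Cx ⧸ Cy.subgroupOf Cx) → G ⧸ Cy, Function.Injective f := by
          refine ⟨Quotient.map' (fun a : Cx => (a : G)) (fun a b hab => ?_), ?_⟩
          · rw [QuotientGroup.leftRel_apply] at hab ⊢
            exact hab
          · rintro ⟨a⟩ ⟨b⟩ hab
            have h0 := (QuotientGroup.leftRel_apply (s := Cy)).1 (Quotient.exact (s := QuotientGroup.leftRel Cy) hab)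
            exact Quotient.sound' (QuotientGroup.leftRel_apply.2 h0)
        exact Nat.card_le_card_of_injective f hf
      have hdd : (Subgroup.centralizer ({x * y} : Set G)).index ∣ Cx.index * Cy.index := by
        have hdp : Cx.index ∣ (Cx ⊓ Cy).index := Subgroup.index_dvd_of_le inf_le_left
        have hdq : Cy.index ∣ (Cx ⊓ Cy).index := Subgroup.index_dvd_of_le inf_le_right
        have hdpq := (Nat.coprime_primes hx hy |>.2 hlt.ne).mul_dvd_of_dvd_of_dvd hdp hdq
        have hle4 : (Cx ⊓ Cy).index ≤ Cx.index * Cy.index := by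
          rw [← e1, mul_comm Cx.index]
          exact Nat.mul_le_mul_right _ hle3
        rwa [Nat.le_antisymm hle4 (Nat.le_of_dvd (Nat.pos_of_ne_zero Subgroup.index_ne_zero_of_finite) hdpq)] at hle2
      rcases e.dvd_mul.1 hdd with hd | hd
      · rw [(Nat.prime_dvd_prime_iff_eq e hx).1 hd] at hge2; omega
      · rw [(Nat.prime_dvd_prime_iff_eq e hy).1 hd] at hge2; omega
  have hmem : ∀ x' ∈ X, x⁻¹ * x' ∈ MulAction.stabilizer G Y := by
    intro x' hx'
    rw [MulAction.mem_stabilizer_iff, mul_smul, inv_smul_eq_iff]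
    refine (Set.eq_of_subset_of_ncard_le (hXY x' hx') (by rw [hWq, hsm])).trans
      (Set.eq_of_subset_of_ncard_le (hXY x (MulAction.mem_orbit_self x)) (by rw [hWq, hsm])).symm
  have hgX : ∀ g : G, g * x * g⁻¹ ∈ X := fun g => ⟨ConjAct.toConjAct g, by simp [ConjAct.smul_def]⟩
  set K := MulAction.stabilizer G Y
  letI : MulAction K Y :=
    { smul := fun k z => ⟨(k : G) * z, by
        show (k : G) • (z : G) ∈ Y
        have := Set.smul_mem_smul_set (a := (k : G)) z.2
        rwa [MulAction.mem_stabilizer_iff.1 k.2] at this⟩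
      one_smul := fun z => Subtype.ext (one_mul _)
      mul_smul := fun k l z => Subtype.ext (mul_assoc _ _ _) }
  have hfree : ∀ z : Y, MulAction.stabilizer K z = ⊥ := by
    intro z
    rw [Subgroup.eq_bot_iff_forall]
    intro k hk
    exact Subtype.ext (mul_eq_right.1 (congrArg Subtype.val hk))
  have hdvd : Nat.card K ∣ Cy.index := by
    have := Nat.card_congr (MulAction.selfEquivOrbitsQuotientProd hfree)
    rw [Nat.card_prod, Nat.card_coe_set_eq, class_card] at this
    exact ⟨_, this.trans (mul_comm _ _)⟩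
  have hKne : Nat.card K ≠ 1 := by
    intro hK1
    rw [Subgroup.card_eq_one] at hK1
    have hX1 : X ⊆ {x} := by
      intro x' hx'
      have := hmem x' hx'
      change x⁻¹ * x' ∈ K at this
      rw [hK1, Subgroup.mem_bot, inv_mul_eq_one] at this
      exact this.symm
    have := Set.ncard_le_ncard hX1
    rw [class_card, Set.ncard_singleton] at this
    exact absurd this (not_le.2 hx.one_lt)
  have hKq : Nat.card K = Cy.index := ((Nat.dvd_prime hy).1 hdvd).resolve_left hKne
  refine ⟨hKq, fun g => ?_, fun g => hmem _ (hgX g)⟩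
  have hKy : (fun k : K => (k : G) * y) '' Set.univ = Y := by
    refine Set.eq_of_subset_of_ncard_le ?_ ?_
    · rintro _ ⟨k, -, rfl⟩
      exact (k • (⟨y, MulAction.mem_orbit_self y⟩ : Y)).2
    · rw [Set.ncard_image_of_injective _ (fun k l h => Subtype.ext (mul_right_cancel h)), Set.ncard_univ, hKq,
        class_card]
  obtain ⟨k, -, hk⟩ := hKy.ge (show g * y * g⁻¹ ∈ Y from ⟨ConjAct.toConjAct g, by simp [ConjAct.smul_def]⟩)
  rw [← hk, mul_inv_cancel_right]
  exact k.2

end CaseB

/-- Let `G` be a finite group every conjugacy class of which has size 1 or a prime. Then either `G` is nilpotent of class at most 2, or `G/Z(G)` is a non-abelian group of order `pq` for distinct primes `p, q` (a Frobenius group of order `pq`). -/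
theorem result {G : Type*} [Group G] [Finite G]
    (h : ∀ x : G, (Subgroup.centralizer ({x} : Set G)).index = 1 ∨ ((Subgroup.centralizer ({x} : Set G)).index).Prime) :
    Subgroup.upperCentralSeries G 2 = ⊤ ∨
      ∃ p q : ℕ, p.Prime ∧ q.Prime ∧ p ≠ q ∧ Nat.card (G ⧸ Subgroup.center G) = p * q ∧ ¬ IsMulCommutative (G ⧸ Subgroup.center G) := by
  classical
  open scoped Pointwise in
  by_cases hsame : ∀ x y : G, (Subgroup.centralizer ({x} : Set G)).index.Prime →
      (Subgroup.centralizer ({y} : Set G)).index.Prime →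
      (Subgroup.centralizer ({x} : Set G)).index = (Subgroup.centralizer ({y} : Set G)).index
  · left
    by_cases hex : ∃ x : G, (Subgroup.centralizer ({x} : Set G)).index.Prime
    · obtain ⟨x, hx⟩ := hex
      haveI := Fact.mk hx
      exact caseA _ fun y => (h y).imp_right fun hy => hsame y x hy hx
    · haveI := Fact.mk Nat.prime_two
      exact caseA 2 fun y => (h y).elim Or.inl fun hy => absurd ⟨y, hy⟩ hex
  right
  obtain ⟨x, y, hx, hy, hlt⟩ : ∃ x y : G, (Subgroup.centralizer ({x} : Set G)).index.Prime ∧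
      (Subgroup.centralizer ({y} : Set G)).index.Prime ∧
      (Subgroup.centralizer ({x} : Set G)).index < (Subgroup.centralizer ({y} : Set G)).index := by
    push Not at hsame
    obtain ⟨x, y, hx, hy, hne⟩ := hsame
    rcases Nat.lt_or_gt_of_ne hne with h' | h'
    · exact ⟨x, y, hx, hy, h'⟩
    · exact ⟨y, x, hy, hx, h'⟩
  obtain ⟨hKq, hKy, hKx⟩ := key h x y hx hy hlt
  set K := MulAction.stabilizer G (MulAction.orbit (ConjAct G) y)
  set q := (Subgroup.centralizer ({y} : Set G)).index with hqdef
  haveI hKn : K.Normal := by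
    refine ⟨fun k hk g => ?_⟩
    rw [MulAction.mem_stabilizer_iff] at hk ⊢
    refine Set.eq_of_subset_of_ncard_le ?_ (by rw [Set.ncard_smul_set])
    rintro _ ⟨z, hz, rfl⟩
    have hz' : g⁻¹ * z * g ∈ MulAction.orbit (ConjAct G) y := by
      have := MulAction.mem_orbit_of_mem_orbit (ConjAct.toConjAct g⁻¹) hz
      simpa [ConjAct.smul_def] using this
    have hmem : k • (g⁻¹ * z * g) ∈ k • MulAction.orbit (ConjAct G) y := Set.smul_mem_smul_set hz'
    rw [hk] at hmem
    have := MulAction.mem_orbit_of_mem_orbit (ConjAct.toConjAct g) hmem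
    simpa [ConjAct.smul_def, mul_assoc] using this
  haveI : Fact q.Prime := ⟨hy⟩
  haveI hKcyc : IsCyclic K := isCyclic_of_prime_card hKq
  have hKc : ∀ a ∈ K, ∀ b ∈ K, a * b = b * a := by
    intro a ha b hb
    let _ := hKcyc.commGroup
    exact congrArg Subtype.val (mul_comm (⟨a, ha⟩ : K) ⟨b, hb⟩)
  have hKmax : ∀ L : Subgroup G, L ≤ K → L = ⊥ ∨ L = K := by
    intro L hL
    have hd := Subgroup.card_dvd_of_le hL
    rw [hKq, Nat.dvd_prime hy] at hd
    rcases hd with hd | hd
    · exact Or.inl (Subgroup.card_eq_one.1 hd)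
    · exact Or.inr (Subgroup.eq_of_le_of_card_ge hL (by rw [hd, hKq]))
  -- all commutators lie in `K`
  have hcomm : ∀ g z : G, g * z * g⁻¹ * z⁻¹ ∈ K := by
    intro g z
    rcases h z with e | e
    · have hm : g ∈ Subgroup.centralizer ({z} : Set G) := by rw [Subgroup.index_eq_one.1 e]; exact Subgroup.mem_top g
      have := Subgroup.mem_centralizer_iff.1 hm z rfl
      rw [← this, mul_inv_cancel_right, mul_inv_cancel]
      exact K.one_mem
    · rcases lt_or_ge (Subgroup.centralizer ({z} : Set G)).index q with hz | hz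
      · have h1 := (key h z y e hy hz).2.2 g
        have h2 := hKn.conj_mem _ h1 z
        simpa [mul_assoc] using h2
      · have hzlt : (Subgroup.centralizer ({x} : Set G)).index < (Subgroup.centralizer ({z} : Set G)).index :=
          lt_of_lt_of_le hlt hz
        obtain ⟨hK'q, hK'z, hK'x⟩ := key h x z hx e hzlt
        set K' := MulAction.stabilizer G (MulAction.orbit (ConjAct G) z)
        have : K' = K := by
          obtain ⟨g0, hg0⟩ : ∃ g0, x⁻¹ * (g0 * x * g0⁻¹) ≠ 1 := by
            by_contra hc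
            push Not at hc
            refine hx.one_lt.ne' (Subgroup.index_eq_one.2 ((Subgroup.eq_top_iff' _).2 fun g0 => ?_))
            rw [Subgroup.mem_centralizer_iff]
            rintro _ rfl
            have := inv_mul_eq_one.1 (hc g0)
            calc _ = (g0 * _ * g0⁻¹) * g0 := by rw [← this]
              _ = _ := by group
          have hD1 := hKx g0
          have hD2 := hK'x g0
          have hd := Subgroup.card_dvd_of_le (inf_le_right : K' ⊓ K ≤ K)
          rcases hKmax (K' ⊓ K) inf_le_right with hb | hb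
          · have : x⁻¹ * (g0 * x * g0⁻¹) ∈ K' ⊓ K := ⟨hD2, hD1⟩
            rw [hb, Subgroup.mem_bot] at this
            exact absurd this hg0
          · have hle : K ≤ K' := hb ▸ inf_le_left
            refine (Subgroup.eq_of_le_of_card_ge hle ?_).symm
            rw [hK'q, hKq]
            have h1 := Subgroup.card_dvd_of_le hle
            rw [hKq, hK'q, Nat.prime_dvd_prime_iff_eq hy e] at h1
            exact h1.ge
        rw [← this]; exact hK'z g
  -- `K` is not central
  have hKnc : ∃ k ∈ K, k ∉ Subgroup.center G := by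
    by_contra hc
    push Not at hc
    let φ : G →* K :=
      { toFun := fun g => ⟨g * x * g⁻¹ * x⁻¹, hcomm g x⟩
        map_one' := Subtype.ext (by simp)
        map_mul' := fun a b => Subtype.ext (by
          show a * b * x * (a * b)⁻¹ * x⁻¹ = a * x * a⁻¹ * x⁻¹ * (b * x * b⁻¹ * x⁻¹)
          rw [← (Subgroup.mem_center_iff.1 (hc _ (hcomm b x)) (a * x * a⁻¹ * x⁻¹)).symm]
          have h1 := Subgroup.mem_center_iff.1 (hc _ (hcomm b x)) a
          calc a * b * x * (a * b)⁻¹ * x⁻¹
              = (a * (b * x * b⁻¹ * x⁻¹)) * (x * a⁻¹ * x⁻¹) := by group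
            _ = ((b * x * b⁻¹ * x⁻¹) * a) * (x * a⁻¹ * x⁻¹) := by rw [h1]
            _ = _ := by group) }
    have hker : φ.ker = Subgroup.centralizer ({x} : Set G) := by
      ext g
      rw [MonoidHom.mem_ker, Subgroup.mem_centralizer_iff, Subtype.ext_iff]
      show g * x * g⁻¹ * x⁻¹ = 1 ↔ _
      simp only [Set.mem_singleton_iff, forall_eq]
      rw [mul_inv_eq_one, mul_inv_eq_iff_eq_mul]
      exact eq_comm
    have hd := φ.range.card_subgroup_dvd_card
    rw [← Subgroup.index_ker φ, hker, hKq, Nat.prime_dvd_prime_iff_eq hx hy] at hd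
    omega
  obtain ⟨k, hkK, hkZ⟩ := hKnc
  have hk1 : k ≠ 1 := fun h1 => hkZ (h1 ▸ Subgroup.one_mem _)
  have hKk : Subgroup.zpowers k = K :=
    (hKmax _ (Subgroup.zpowers_le.2 hkK)).resolve_left (fun hb => hk1 (Subgroup.zpowers_eq_bot.1 hb))
  set C := Subgroup.centralizer ({k} : Set G) with hCdef
  have hr : C.index.Prime := (h k).resolve_left fun e => hkZ (Subgroup.mem_center_iff.2 fun g => by
    have hm : g ∈ Subgroup.centralizer ({k} : Set G) := by rw [Subgroup.index_eq_one.1 e]; exact Subgroup.mem_top g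
    exact (Subgroup.mem_centralizer_iff.1 hm k rfl).symm)
  have hCK : ∀ c ∈ C, ∀ a ∈ K, c * a = a * c := by
    intro c hc a ha
    rw [← hKk] at ha
    obtain ⟨i, rfl⟩ := ha
    exact ((show Commute k c from Subgroup.mem_centralizer_iff.1 hc k rfl).zpow_left i).symm
  have hKC : K ≤ C := fun a ha => by
    rw [hCdef, Subgroup.mem_centralizer_iff]
    rintro _ rfl
    exact hKc _ hkK a ha
  have hrq : C.index < q := by
    rw [hCdef, ← class_card k, ← hKq]
    have hsub : MulAction.orbit (ConjAct G) k ⊆ (K : Set G) \ {1} := by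
      rintro _ ⟨g, rfl⟩
      refine ⟨hKn.conj_mem k hkK _, fun h1 => hk1 ?_⟩
      simpa [ConjAct.smul_def] using h1
    refine lt_of_le_of_lt (Set.ncard_le_ncard hsub) ?_
    have := Set.ncard_diff_singleton_lt_of_mem (s := (K : Set G)) K.one_mem
    exact this.trans_eq (Nat.card_coe_set_eq _).symm
  obtain ⟨g, hg⟩ : ∃ g, g ∉ C := by
    by_contra hc
    push Not at hc
    exact hr.one_lt.ne' (Subgroup.index_eq_one.2 ((Subgroup.eq_top_iff' _).2 hc))
  let ψ : C →* K :=
    { toFun := fun c => ⟨(c : G) * g * (c : G)⁻¹ * g⁻¹, hcomm _ g⟩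
      map_one' := Subtype.ext (by simp)
      map_mul' := fun a b => Subtype.ext (by
        show (a : G) * b * g * ((a : G) * b)⁻¹ * g⁻¹ = a * g * (a : G)⁻¹ * g⁻¹ * (b * g * (b : G)⁻¹ * g⁻¹)
        rw [hKc _ (hcomm (a : G) g) _ (hcomm (b : G) g)]
        have h1 := hCK a a.2 _ (hcomm (b : G) g)
        calc (a : G) * b * g * ((a : G) * b)⁻¹ * g⁻¹
            = ((a : G) * ((b : G) * g * (b : G)⁻¹ * g⁻¹)) * (g * (a : G)⁻¹ * g⁻¹) := by group
          _ = (((b : G) * g * (b : G)⁻¹ * g⁻¹) * a) * (g * (a : G)⁻¹ * g⁻¹) := by rw [h1]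
          _ = _ := by group) }
  have hkg : k * g * k⁻¹ * g⁻¹ ≠ 1 := by
    intro h1
    refine hg ?_
    rw [hCdef, Subgroup.mem_centralizer_iff]
    rintro _ rfl
    exact mul_inv_eq_iff_eq_mul.1 (mul_inv_eq_one.1 h1)
  have hψsurj : ψ.range = ⊤ := by
    refine (Subgroup.eq_top_iff' _).2 fun a => ?_
    have hle : ψ.range.map K.subtype ≤ K := Subgroup.map_subtype_le _
    rcases hKmax _ hle with hb | hb
    · exfalso
      have : (ψ ⟨k, hKC hkK⟩ : G) ∈ ψ.range.map K.subtype := ⟨_, ⟨_, rfl⟩, rfl⟩
      rw [hb, Subgroup.mem_bot] at this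
      exact hkg this
    · have : (a : G) ∈ ψ.range.map K.subtype := hb.symm ▸ a.2
      obtain ⟨b, hb', hbe⟩ := this
      rwa [← Subtype.ext hbe]
  have hker : (Subgroup.center G).subgroupOf C = ψ.ker := by
    ext c
    rw [Subgroup.mem_subgroupOf, MonoidHom.mem_ker, Subtype.ext_iff]
    show _ ↔ (c : G) * g * (c : G)⁻¹ * g⁻¹ = 1
    constructor
    · intro hc
      rw [← Subgroup.mem_center_iff.1 hc g, mul_inv_cancel_right, mul_inv_cancel]
    · intro hc
      have hcg : (c : G) * g = g * c := mul_inv_eq_iff_eq_mul.1 (mul_inv_eq_one.1 hc)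
      set Cc := Subgroup.centralizer ({(c : G)} : Set G)
      have hCle : C ≤ Cc := by
        intro d hd
        rw [Subgroup.mem_centralizer_iff]
        rintro _ rfl
        set w := (c : G) * d * (c : G)⁻¹ * d⁻¹ with hw
        have hwK : w ∈ K := hcomm _ _
        -- `w` commutes with `g`
        set e := g * d * g⁻¹ * d⁻¹
        have heK : e ∈ K := hcomm _ _
        have he : g * d * g⁻¹ = e * d := by simp [e]
        have hce : (c : G) * e = e * c := hCK c c.2 e heK
        have hwe : e * w = w * e := hKc e heK w hwK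
        have hgw : g * w * g⁻¹ = w := by
          have h1 : g * (c : G) * g⁻¹ = c := by rw [← hcg, mul_inv_cancel_right]
          calc g * w * g⁻¹ = (g * (c : G) * g⁻¹) * (g * d * g⁻¹) * (g * (c : G) * g⁻¹)⁻¹ * (g * d * g⁻¹)⁻¹ := by
                rw [hw]; group
            _ = (c : G) * e * d * (c : G)⁻¹ * (d⁻¹ * e⁻¹) := by rw [h1, he]; group
            _ = e * w * e⁻¹ := by rw [hce, hw]; group
            _ = w := by rw [hwe, mul_inv_cancel_right]
        have hw1 : w = 1 := by
          rcases hKmax (Subgroup.zpowers w) (Subgroup.zpowers_le.2 hwK) with hb | hb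
          · exact Subgroup.zpowers_eq_bot.1 hb
          · exfalso
            apply hkg
            have hkw : k ∈ Subgroup.zpowers w := by rw [hb]; exact hkK
            obtain ⟨i, hi⟩ := Subgroup.mem_zpowers_iff.1 hkw
            have h2 : g * w = w * g := mul_inv_eq_iff_eq_mul.1 hgw
            rw [← hi, ((show Commute g w from h2).zpow_right i).symm.eq, mul_inv_cancel_right, mul_inv_cancel]
        exact mul_inv_eq_iff_eq_mul.1 (mul_inv_eq_one.1 hw1)
      have hgmem : g ∈ Cc := by
        rw [Subgroup.mem_centralizer_iff]; rintro _ rfl; exact hcg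
      have htop : Cc = ⊤ := by
        have h1 := Subgroup.index_dvd_of_le hCle
        rw [Nat.dvd_prime hr] at h1
        rcases h1 with h1 | h1
        · exact Subgroup.index_eq_one.1 h1
        · exfalso
          have := Subgroup.relIndex_mul_index hCle
          rw [h1, Nat.mul_eq_right (Subgroup.index_ne_zero_of_finite), Subgroup.relIndex_eq_one] at this
          exact hg (this hgmem)
      exact Subgroup.mem_center_iff.2 fun z =>
        (Subgroup.mem_centralizer_iff.1 (htop ▸ Subgroup.mem_top z : z ∈ Cc) _ rfl).symm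
  refine ⟨q, C.index, hy, hr, hrq.ne', ?_, fun hcom => hkZ ?_⟩
  · show (Subgroup.center G).index = _
    rw [← Subgroup.relIndex_mul_index (Subgroup.center_le_centralizer ({k} : Set G) : Subgroup.center G ≤ C)]
    congr 1
    show ((Subgroup.center G).subgroupOf C).index = q
    rw [hker, Subgroup.index_ker, hψsurj, Subgroup.card_top, hKq]
  · -- a commutator `[k, g]` generates `K`, so cannot be central
    have h1 := hcom.is_comm.comm (k : G ⧸ Subgroup.center G) g
    rw [← QuotientGroup.mk_mul, ← QuotientGroup.mk_mul, QuotientGroup.eq] at h1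
    have h2 : k * g * k⁻¹ * g⁻¹ ∈ Subgroup.center G := by
      have h3 := Subgroup.mem_center_iff.1 h1 (k * g)
      have : k * g * ((k * g)⁻¹ * (g * k)) = g * k := by group
      rw [this] at h3
      have h4 : (k * g * k⁻¹ * g⁻¹) = ((k * g)⁻¹ * (g * k))⁻¹ := by
        rw [eq_inv_iff_mul_eq_one]
        calc k * g * k⁻¹ * g⁻¹ * ((k * g)⁻¹ * (g * k)) = k * g * (k⁻¹ * g⁻¹) * ((k * g)⁻¹ * (g * k)) := by group
          _ = k * g * (k⁻¹ * g⁻¹) * (((k * g)⁻¹ * (g * k)) * ((g * k) * (g * k)⁻¹)) := by group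
          _ = _ := by rw [← mul_assoc ((k * g)⁻¹ * (g * k)), ← Subgroup.mem_center_iff.1 h1 (g * k)]; group
      rw [h4]
      exact (Subgroup.center G).inv_mem h1
    rcases hKmax (Subgroup.zpowers (k * g * k⁻¹ * g⁻¹)) (Subgroup.zpowers_le.2 (hcomm k g)) with hb | hb
    · exact absurd (Subgroup.zpowers_eq_bot.1 hb) hkg
    · exact (Subgroup.zpowers_le.2 h2) (hb.symm ▸ hkK)

end Cfsg.Agent.S4314
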