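import Cfsg.Statements.S4316
import Cfsg.Agent.Lib.Coprime.Abelian
import Cfsg.Agent.Lib.Coprime.Action
import Cfsg.Agent.Lib.PGroupFrattini
import Mathlib.GroupTheory.Sylow
import Mathlib.GroupTheory.GroupAction.FixedPoints

set_option autoImplicit false
universe u
open Cfsg

namespace Cfsg.Agent.S4316

open Subgroup
open scoped commutatorElement Pointwise

theorem rin {G : Type*} [Group G] [Finite G] (H K : Subgroup G) : H.relIndex K ≠ 0 := by
  rw [relIndex]
  exact index_ne_zero_of_finite

/-! Dietzmann: a finite conjugation invariant set of bounded orders generates a bounded group. -/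

theorem collect {G : Type*} [Group G] (t : G) (T : Set G)
    (hT : ∀ g : G, ∀ x ∈ T, g * x * g⁻¹ ∈ T) [DecidableEq G] :
    ∀ (k : ℕ) (l : List G), (∀ x ∈ l, x ∈ T) → k ≤ l.count t →
      ∃ l' : List G, (∀ x ∈ l', x ∈ T) ∧ l'.length + k = l.length ∧ t ^ k * l'.prod = l.prod := by
  intro k
  induction k with
  | zero => intro l hl _; exact ⟨l, hl, rfl, by simp⟩
  | succ k ih =>
    intro l hl hk
    have hmem : t ∈ l := List.count_pos_iff.mp (by omega)
    obtain ⟨a, b, rfl⟩ := List.append_of_mem hmem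
    set f : G → G := fun x => t⁻¹ * x * t with hf
    have hfc : ∀ (a : List G), (a.map f).prod = t⁻¹ * a.prod * t := by
      intro a
      induction a with
      | nil => simp
      | cons x a iha => rw [List.map_cons, List.prod_cons, iha, List.prod_cons, hf]; group
    have hft : ∀ (a : List G), (a.map f).count t = a.count t := by
      intro a
      have hfi : Function.Injective f := fun x y h => by simpa [hf] using h
      conv_lhs => rw [show t = f t by simp [hf]]
      exact List.count_map_of_injective a f hfi t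
    obtain ⟨l', hl', hlen, hprod⟩ := ih (a.map f ++ b) (by
        intro x hx
        rw [List.mem_append, List.mem_map] at hx
        rcases hx with ⟨y, hy, rfl⟩ | hx
        · simpa [hf] using hT t⁻¹ y (hl y (by simp [hy]))
        · exact hl x (by simp [hx]))
      (by
        rw [List.count_append, hft]
        rw [List.count_append, List.count_cons_self] at hk
        omega)
    refine ⟨l', hl', ?_, ?_⟩
    · simp only [List.length_append, List.length_map, List.length_cons] at hlen ⊢
      omega
    · rw [pow_succ', mul_assoc, hprod, List.prod_append, List.prod_append, List.prod_cons, hfc]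
      simp [mul_assoc]

theorem card_closure_le {G : Type*} [Group G] [Finite G] (T : Set G) (L m : ℕ)
    (hT : ∀ g : G, ∀ x ∈ T, g * x * g⁻¹ ∈ T) (hL : Nat.card T ≤ L)
    (hm : ∀ x ∈ T, orderOf x ≤ m) :
    Nat.card (closure T : Subgroup G) ≤ (L + 1) ^ (L * m) := by
  classical
  have key : ∀ g ∈ closure T, ∃ l : List G, (∀ x ∈ l, x ∈ T) ∧ l.length ≤ L * m ∧ l.prod = g := by
    intro g hg
    have hg' : g ∈ Submonoid.closure T := by
      rw [← Subgroup.closure_toSubmonoid_of_finite]; exact hg
    obtain ⟨l, hl, hlp⟩ := Submonoid.exists_list_of_mem_closure hg'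
    have hex : ∃ n, ∃ l : List G, (∀ x ∈ l, x ∈ T) ∧ l.prod = g ∧ l.length = n := ⟨_, l, hl, hlp, rfl⟩
    obtain ⟨l, hl, hlp, hlen⟩ := Nat.find_spec hex
    refine ⟨l, hl, ?_, hlp⟩
    by_contra hlong
    have hsub : l.toFinset.card ≤ L := by
      refine le_trans ?_ hL
      rw [← Nat.card_eq_finsetCard]
      exact Nat.card_le_card_of_injective (fun x => (⟨x.1, hl x.1 (List.mem_toFinset.mp x.2)⟩ : T))
        (fun x y h => Subtype.ext (Subtype.mk.inj h))
    obtain ⟨t, ht, htc⟩ : ∃ t ∈ l.toFinset, m < l.count t := by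
      by_contra h
      push Not at h
      apply hlong
      have h1 := List.sum_toFinset_count_eq_length l
      rw [← h1]
      calc ∑ a ∈ l.toFinset, l.count a ≤ ∑ _a ∈ l.toFinset, m := Finset.sum_le_sum h
        _ = l.toFinset.card * m := by simp
        _ ≤ L * m := Nat.mul_le_mul_right _ hsub
    have htT := hl t (List.mem_toFinset.mp ht)
    have hpos : 0 < orderOf t := orderOf_pos t
    obtain ⟨l', hl', hlen', hprod⟩ := collect t T hT (orderOf t) l hl (by have := hm t htT; omega)
    rw [pow_orderOf_eq_one, one_mul] at hprod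
    exact Nat.find_min hex (show l'.length < Nat.find hex by omega) ⟨l', hl', hprod.trans hlp, rfl⟩
  let Φ : (Fin (L * m) → Option T) → G :=
    fun f => ((List.ofFn f).map fun o => (o.map Subtype.val).getD 1).prod
  have hsurj : (closure T : Set G) ⊆ Set.range Φ := by
    intro g hg
    obtain ⟨l, hl, hlen, rfl⟩ := key g hg
    refine ⟨fun i => if h : (i : ℕ) < l.length then some ⟨l[(i : ℕ)], hl _ (List.getElem_mem h)⟩ else none, ?_⟩
    have : (List.ofFn fun i : Fin (L * m) =>
        if h : (i : ℕ) < l.length then some (⟨l[(i : ℕ)], hl _ (List.getElem_mem h)⟩ : T) else none).map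
        (fun o => (o.map Subtype.val).getD 1) = l ++ List.replicate (L * m - l.length) 1 := by
      apply List.ext_getElem
      · simp; omega
      · intro i h1 h2
        simp only [List.getElem_map, List.getElem_ofFn]
        by_cases h : i < l.length
        · simp [h, List.getElem_append_left h]
        · simp [h, List.getElem_append_right (le_of_not_gt h)]
    show List.prod _ = _
    rw [this, List.prod_append]
    simp
  calc Nat.card (closure T : Subgroup G) ≤ Nat.card (Set.range Φ) :=
        Nat.card_mono (Set.toFinite _) hsurj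
    _ ≤ Nat.card (Fin (L * m) → Option T) := Finite.card_range_le Φ
    _ = (Nat.card T + 1) ^ (L * m) := by
        rw [Nat.card_fun, Nat.card_fin, Finite.card_option]
    _ ≤ (L + 1) ^ (L * m) := Nat.pow_le_pow_left (by omega) _

section Action

variable {A G : Type*} [Group A] [Finite A] [Group G] [Finite G] [MulDistribMulAction A G]
  {q : ℕ}

/-- the subgroups of order `q ^ 2` -/
noncomputable def planes (A : Type*) [Group A] [Finite A] (q : ℕ) : Finset (Subgroup A) :=
  haveI := Fintype.ofFinite (Subgroup A)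
  haveI : DecidablePred (fun B : Subgroup A => Nat.card B = q ^ 2) := Classical.decPred _
  Finset.univ.filter fun B => Nat.card B = q ^ 2

theorem mem_planes {B : Subgroup A} : B ∈ planes A q ↔ Nat.card B = q ^ 2 := by
  simp [planes]

theorem card_planes_le : (planes A q).card ≤ 2 ^ Nat.card A := by
  have : Fintype A := Fintype.ofFinite A
  classical
  calc (planes A q).card ≤ Nat.card (Subgroup A) := by
        have := Fintype.ofFinite (Subgroup A)
        rw [Nat.card_eq_fintype_card]; exact Finset.card_le_univ _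
    _ ≤ Nat.card (Set A) := Nat.card_le_card_of_injective _ SetLike.coe_injective
    _ = 2 ^ Nat.card A := by simp [Nat.card_eq_fintype_card]

/-- fixed points of a subgroup of the operators -/
abbrev fix (G : Type*) [Group G] [MulDistribMulAction A G] (B : Subgroup A) : Subgroup G :=
  FixedPoints.subgroup ↥B G

theorem mem_fix {B : Subgroup A} {x : G} : x ∈ fix G B ↔ ∀ b ∈ B, b • x = x :=
  ⟨fun h b hb => h ⟨b, hb⟩, fun h b => h b b.2⟩

theorem fix_mono {B B' : Subgroup A} (h : B ≤ B') : fix G B' ≤ fix G B :=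
  fun _ hx => mem_fix.mpr fun b hb => mem_fix.mp hx b (h hb)

theorem smul_mem_fix (hAc : ∀ a b : A, a * b = b * a) (B : Subgroup A) (c : A) {x : G} (hx : x ∈ fix G B) :
    c • x ∈ fix G B :=
  mem_fix.mpr fun b hb => by rw [← mul_smul, hAc, mul_smul, mem_fix.mp hx b hb]

theorem card_zpowers_of (hq : q.Prime) (hAe : ∀ a : A, a ^ q = 1) {a : A} (ha : a ≠ 1) :
    Nat.card (zpowers a) = q := by
  haveI : Fact q.Prime := ⟨hq⟩
  rw [Nat.card_zpowers]
  exact orderOf_eq_prime (hAe a) ha

theorem card_pair (hq : q.Prime) (hAc : ∀ a b : A, a * b = b * a) (hAe : ∀ a : A, a ^ q = 1)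
    {a b : A} (ha : a ≠ 1) (hb : b ∉ zpowers a) :
    Nat.card (zpowers a ⊔ zpowers b : Subgroup A) = q ^ 2 := by
  have hb1 : b ≠ 1 := fun h => hb (h ▸ one_mem _)
  have hn : zpowers a ≤ normalizer ((zpowers b : Subgroup A) : Set A) := by
    intro x _
    rw [mem_normalizer_iff]
    intro y
    rw [hAc x y, mul_inv_cancel_right]
  have h1 := Lib.Coprime.card_sup_mul_card_inf_of_le_normalizer hn
  haveI : Fact (Nat.card (zpowers b)).Prime := ⟨by rw [card_zpowers_of hq hAe hb1]; exact hq⟩
  have hinf : zpowers a ⊓ zpowers b = ⊥ := by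
    have hle : zpowers a ⊓ zpowers b ≤ zpowers b := inf_le_right
    rcases Subgroup.eq_bot_or_eq_top_of_prime_card ((zpowers a ⊓ zpowers b).subgroupOf (zpowers b)) with h | h
    · rw [subgroupOf_eq_bot] at h
      rw [disjoint_iff, inf_assoc, inf_idem] at h
      exact h
    · exact absurd ((subgroupOf_eq_top.mp h (mem_zpowers b)).1) hb
  rw [hinf, Subgroup.card_bot, mul_one, card_zpowers_of hq hAe ha, card_zpowers_of hq hAe hb1] at h1
  rw [h1, pow_two]

theorem planes_meet (hq : q.Prime) (hA : Nat.card A = q ^ 3) (hAc : ∀ a b : A, a * b = b * a)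
    {B B' : Subgroup A} (hB : Nat.card B = q ^ 2) (hB' : Nat.card B' = q ^ 2) :
    ∃ a ∈ B ⊓ B', a ≠ 1 := by
  have hn : B ≤ normalizer (B' : Set A) := by
    intro x _
    rw [mem_normalizer_iff]
    intro y
    rw [hAc x y, mul_inv_cancel_right]
  have h1 := Lib.Coprime.card_sup_mul_card_inf_of_le_normalizer hn
  rw [hB, hB'] at h1
  by_contra h
  push Not at h
  have : B ⊓ B' = ⊥ := (eq_bot_iff_forall _).mpr h
  rw [this, Subgroup.card_bot, mul_one] at h1
  have h2 := Subgroup.card_le_card_group (B ⊔ B')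
  rw [h1, hA, ← pow_add] at h2
  exact absurd h2 (not_le.mpr (Nat.pow_lt_pow_right hq.one_lt (by norm_num)))

/-- an operator acting on a coset fixes one of its points -/
theorem exists_fixed_in_coset [hqf : Fact q.Prime] (B : Subgroup A) (hB : Nat.card B = q ^ 2) {P K : Subgroup G}
    (hKP : K ≤ P) (hPi : ∀ a : A, ∀ x ∈ P, a • x ∈ P) (hKi : ∀ a : A, ∀ x ∈ K, a • x ∈ K)
    (hK : ¬ q ∣ Nat.card K) {x : G} (hx : x ∈ P) (hfix : ∀ b ∈ B, x⁻¹ * b • x ∈ K) :
    ∃ f ∈ P ⊓ fix G B, f⁻¹ * x ∈ K := by
  let Y := {y : G // x⁻¹ * y ∈ K}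
  letI : MulAction ↥B Y :=
    { smul := fun b y => ⟨(b : A) • y.1, by
        have h1 := K.mul_mem (hfix b b.2) (hKi b _ y.2)
        rw [smul_mul', smul_inv'] at h1
        simpa [mul_assoc] using h1⟩
      one_smul := fun y => Subtype.ext (one_smul A y.1)
      mul_smul := fun b c y => Subtype.ext (mul_smul (b : A) c y.1) }
  have hBp : IsPGroup q ↥B := IsPGroup.of_card hB
  have hY : Nat.card Y = Nat.card K :=
    Nat.card_congr
      { toFun := fun y => ⟨x⁻¹ * y.1, y.2⟩
        invFun := fun k => ⟨x * k.1, by simp⟩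
        left_inv := fun y => by simp
        right_inv := fun k => by simp }
  obtain ⟨f, hf⟩ := hBp.nonempty_fixed_point_of_prime_not_dvd_card Y (hY ▸ hK)
  refine ⟨f.1, ⟨?_, mem_fix.mpr fun b hb => congrArg Subtype.val (hf ⟨b, hb⟩)⟩, ?_⟩
  · simpa using P.mul_mem hx (hKP f.2)
  · simpa using K.inv_mem f.2

theorem sylow_bound_step (hq : q.Prime) (hA : Nat.card A = q ^ 3) (hAc : ∀ a b : A, a * b = b * a)
    (hAe : ∀ a : A, a ^ q = 1) (hcop : ¬ q ∣ Nat.card G) {p : ℕ} [Fact p.Prime] {P K : Subgroup G}
    (hP : IsPGroup p P) (hPi : ∀ a : A, ∀ x ∈ P, a • x ∈ P) (hKP : K < P)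
    (hKi : ∀ a : A, ∀ x ∈ K, a • x ∈ K)
    (hmax : ∀ L : Subgroup G, K < L → L ≤ P → (∀ a : A, ∀ x ∈ L, a • x ∈ L) → L = P) :
    ∃ B ∈ planes A q, K.relIndex P ≤ K.relIndex (P ⊓ fix G B) := by
  classical
  haveI : Fact q.Prime := ⟨hq⟩
  have hPn : P ≤ normalizer (K : Set G) := by
    have hlt : K < P ⊓ normalizer (K : Set G) := by
      refine lt_of_le_of_ne (le_inf hKP.le le_normalizer) fun he => ?_
      have : Group.IsNilpotent P := hP.isNilpotent
      have hne : K.subgroupOf P < ⊤ :=
        lt_of_le_of_ne le_top fun h => hKP.not_ge (subgroupOf_eq_top.mp h)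
      obtain ⟨x, hx, hxK⟩ := SetLike.exists_of_lt (Group.normalizerCondition_of_isNilpotent _ hne)
      refine hxK (mem_subgroupOf.mpr (he ▸ ⟨x.2, ?_⟩))
      show (x : G) ∈ normalizer (K : Set G)
      rw [mem_normalizer_iff]
      intro y
      constructor
      · intro hy
        exact (mem_normalizer_iff.mp hx ⟨y, hKP.le hy⟩).mp hy
      · intro hy
        have hyP : y ∈ P := by
          simpa [mul_assoc] using P.mul_mem (P.mul_mem (P.inv_mem x.2) (hKP.le hy)) x.2
        exact (mem_normalizer_iff.mp hx ⟨y, hyP⟩).mpr hy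
    have h := hmax _ hlt inf_le_left (by
      intro a x hx
      refine ⟨hPi a x hx.1, ?_⟩
      show a • x ∈ normalizer (K : Set G)
      rw [mem_normalizer_iff]
      intro y
      have hxy := mem_normalizer_iff.mp hx.2 (a⁻¹ • y)
      constructor
      · intro hy
        have := hKi a _ (hxy.mp (hKi a⁻¹ y hy))
        simpa [smul_mul', smul_inv', smul_inv_smul] using this
      · intro hy
        have h2 := hKi a⁻¹ _ hy
        rw [smul_mul', smul_mul', smul_inv', inv_smul_smul] at h2
        have := hKi a _ (hxy.mpr h2)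
        simpa [smul_inv_smul] using this)
    exact h ▸ inf_le_right
  have hnc : ∀ x ∈ P, ∀ k ∈ K, x * k * x⁻¹ ∈ K := fun x hx k hk => (mem_normalizer_iff.mp (hPn hx) k).mp hk
  -- elements fixed modulo K
  let S : A → Subgroup G := fun a =>
    { carrier := {x | x ∈ P ∧ x⁻¹ * a • x ∈ K}
      one_mem' := ⟨P.one_mem, by simp⟩
      mul_mem' := by
        rintro x y ⟨hx, hx'⟩ ⟨hy, hy'⟩
        refine ⟨P.mul_mem hx hy, ?_⟩
        have h1 := K.mul_mem (hnc y⁻¹ (P.inv_mem hy) _ hx') hy'
        rw [smul_mul']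
        simpa [mul_assoc] using h1
      inv_mem' := by
        rintro x ⟨hx, hx'⟩
        refine ⟨P.inv_mem hx, ?_⟩
        have h1 := hnc x hx _ (K.inv_mem hx')
        rw [smul_inv', inv_inv]
        simpa [mul_assoc] using h1 }
  have hS : ∀ a : A, S a = K ∨ S a = P := by
    intro a
    by_cases h : S a = K
    · exact Or.inl h
    refine Or.inr (hmax _ (lt_of_le_of_ne (fun x hx => ⟨hKP.le hx, K.mul_mem (K.inv_mem hx) (hKi a x hx)⟩)
      (Ne.symm h)) (fun x hx => hx.1) ?_)
    rintro c x ⟨hx, hx'⟩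
    refine ⟨hPi c x hx, ?_⟩
    have := hKi c _ hx'
    rwa [smul_mul', smul_inv', ← mul_smul, hAc c a, mul_smul] at this
  -- every plane has an element centralizing `P` modulo `K`
  have hplane : ∀ E : Subgroup A, Nat.card E = q ^ 2 → ∃ e ∈ E, e ≠ 1 ∧ S e = P := by
    intro E hE
    by_contra hcon
    push Not at hcon
    let K' : Subgroup P := K.subgroupOf P
    haveI hK'n : K'.Normal := (normal_subgroupOf_iff_le_normalizer hKP.le).mpr hPn
    let ρ : A → ↥P ≃* ↥P := fun a =>
      { toFun := fun x => ⟨a • (x : G), hPi a x x.2⟩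
        invFun := fun x => ⟨a⁻¹ • (x : G), hPi a⁻¹ x x.2⟩
        left_inv := fun x => Subtype.ext (inv_smul_smul a (x : G))
        right_inv := fun x => Subtype.ext (smul_inv_smul a (x : G))
        map_mul' := fun x y => Subtype.ext (smul_mul' a (x : G) y) }
    have hρK : ∀ a, K'.map (ρ a).toMonoidHom = K' := by
      intro a
      ext x
      constructor
      · rintro ⟨y, hy, rfl⟩
        exact hKi a _ hy
      · intro hx
        exact ⟨(ρ a).symm x, hKi a⁻¹ _ hx, (ρ a).apply_symm_apply x⟩
    let σ : A → (↥P ⧸ K' ≃* ↥P ⧸ K') := fun a => QuotientGroup.congr K' K' (ρ a) (hρK a)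
    have hσ : ∀ (a : A) (x : ↥P), σ a (x : ↥P ⧸ K') = ((ρ a x : ↥P) : ↥P ⧸ K') :=
      fun a x => rfl
    let φ : E →* MulAut (↥P ⧸ K') :=
      { toFun := fun e => σ e
        map_one' := MulEquiv.ext fun w => by
          obtain ⟨x, rfl⟩ := QuotientGroup.mk_surjective w
          rw [hσ]
          exact congrArg QuotientGroup.mk (Subtype.ext (one_smul A (x : G)))
        map_mul' := fun e f => MulEquiv.ext fun w => by
          obtain ⟨x, rfl⟩ := QuotientGroup.mk_surjective w
          rw [MulAut.mul_apply, hσ, hσ, hσ]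
          exact congrArg QuotientGroup.mk (Subtype.ext (mul_smul (e : A) (f : A) (x : G))) }
    have hcomm : ∀ u v : ↥P ⧸ K', u * v = v * u := by
      have hD : (⁅P, P⁆ ⊔ K) = K := by
        by_contra h
        have hle : ⁅P, P⁆ ⊔ K ≤ P := sup_le (commutator_le_self P) hKP.le
        have hKeq := hmax _ (lt_of_le_of_ne le_sup_right (Ne.symm h)) hle (by
          intro a
          have : (⁅P, P⁆ ⊔ K).map (MulDistribMulAction.toMonoidHom G a) ≤ ⁅P, P⁆ ⊔ K := by
            rw [Subgroup.map_sup, Subgroup.map_commutator]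
            refine sup_le_sup (commutator_mono ?_ ?_) ?_
            · rintro _ ⟨y, hy, rfl⟩; exact hPi a y hy
            · rintro _ ⟨y, hy, rfl⟩; exact hPi a y hy
            · rintro _ ⟨y, hy, rfl⟩; exact hKi a y hy
          exact fun x hx => this (mem_map_of_mem _ hx))
        have : Group.IsNilpotent P := hP.isNilpotent
        have h2 : (commutator ↥P) ⊔ K' = ⊤ := by
          apply map_injective P.subtype_injective
          rw [Subgroup.map_sup, map_subtype_commutator, map_subgroupOf_eq_of_le hKP.le, hKeq,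
            ← MonoidHom.range_eq_map, range_subtype]
        have h3 : K' = ⊤ := by
          apply frattini_nongenerating
          refine eq_top_iff.mpr (h2.ge.trans (sup_le ?_ le_sup_left))
          exact le_trans (Lib.PGroupFrattini.commutator_le_frattini hP) le_sup_right
        exact hKP.not_ge (subgroupOf_eq_top.mp h3)
      intro u v
      obtain ⟨x, rfl⟩ := QuotientGroup.mk_surjective u
      obtain ⟨y, rfl⟩ := QuotientGroup.mk_surjective v
      rw [← QuotientGroup.mk_mul, ← QuotientGroup.mk_mul, QuotientGroup.eq]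
      show ((x * y)⁻¹ * (y * x) : ↥P).1 ∈ K
      have : ⁅(y : G)⁻¹, (x : G)⁻¹⁆ ∈ K :=
        hD ▸ mem_sup_left (commutator_mem_commutator (P.inv_mem y.2) (P.inv_mem x.2))
      simpa [commutatorElement_def, mul_assoc] using this
    have := Fintype.ofFinite E
    letI : CommGroup (↥P ⧸ K') := { (inferInstance : Group (↥P ⧸ K')) with mul_comm := hcomm }
    have htop : (⊥ : Subgroup (↥P ⧸ K')) = ⊤ := by
      refine Lib.Coprime.eq_top_of_fixed_mem φ hq (fun e => Subtype.ext (hAe e)) hE ?_ ⊥ ?_
      · have hd : Nat.card (↥P ⧸ K') ∣ Nat.card G :=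
          (card_quotient_dvd_card K').trans (card_subgroup_dvd_card P)
        exact (hq.coprime_iff_not_dvd.mpr hcop).coprime_dvd_right hd
      · intro e he w hw
        obtain ⟨x, rfl⟩ := QuotientGroup.mk_surjective w
        have hxS : (x : G) ∈ S (e : A) := by
          refine ⟨x.2, ?_⟩
          have h1 : ((ρ (e : A) x : ↥P) : ↥P ⧸ K') = (x : ↥P ⧸ K') := (hσ (e : A) x).symm.trans hw
          have h2 : x⁻¹ * ρ (e : A) x ∈ K' := QuotientGroup.eq.mp h1.symm
          exact h2
        rcases hS (e : A) with h | h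
        · rw [mem_bot, QuotientGroup.eq_one_iff]
          exact (h ▸ hxS : (x : G) ∈ K)
        · exact absurd h (hcon e e.2 fun h' => he (Subtype.ext h'))
    have : K' = ⊤ := by
      refine eq_top_iff.mpr fun x _ => ?_
      have h1 : (x : ↥P ⧸ K') ∈ (⊥ : Subgroup (↥P ⧸ K')) := htop ▸ mem_top _
      exact (QuotientGroup.eq_one_iff x).mp (mem_bot.mp h1)
    exact hKP.not_ge (subgroupOf_eq_top.mp this)
  obtain ⟨E, hE⟩ := Sylow.exists_subgroup_card_pow_prime (G := A) q (n := 2) (hA ▸ pow_dvd_pow q (by norm_num))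
  obtain ⟨a, -, ha, haS⟩ := hplane E hE
  obtain ⟨b, hb⟩ : ∃ b, b ∉ zpowers a := by
    by_contra h
    push Not at h
    have : (zpowers a) = ⊤ := eq_top_iff.mpr fun x _ => h x
    have h' := card_zpowers_of hq hAe ha
    rw [this, Subgroup.card_top, hA] at h'
    have h3 := Nat.pow_lt_pow_right hq.one_lt (show 1 < 3 by norm_num)
    rw [pow_one, h'] at h3
    exact absurd h3 (lt_irrefl _)
  have hb1 : b ≠ 1 := fun h => hb (h ▸ one_mem _)
  have hE' := card_pair hq hAc hAe ha hb
  obtain ⟨c, hc⟩ : ∃ c, c ∉ zpowers a ⊔ zpowers b := by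
    by_contra h
    push Not at h
    have : zpowers a ⊔ zpowers b = ⊤ := eq_top_iff.mpr fun x _ => h x
    rw [this, Subgroup.card_top, hA] at hE'
    exact absurd (Nat.pow_right_injective hq.two_le hE') (by norm_num)
  have hcb : c ∉ zpowers b := fun h => hc (mem_sup_right h)
  have hE2 := card_pair hq hAc hAe hb1 hcb
  obtain ⟨e, he, he1, heS⟩ := hplane _ hE2
  have hea : e ∉ zpowers a := by
    intro hmem
    have h1 : zpowers e = zpowers a :=
      eq_of_le_of_card_ge (zpowers_le.mpr hmem)
        (by rw [card_zpowers_of hq hAe ha, card_zpowers_of hq hAe he1])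
    have h2 : zpowers a ⊔ zpowers b = zpowers b ⊔ zpowers c :=
      eq_of_le_of_card_ge (sup_le (h1 ▸ zpowers_le.mpr he) le_sup_left) (by rw [hE', hE2])
    exact hc (h2 ▸ mem_sup_right (mem_zpowers c))
  refine ⟨zpowers a ⊔ zpowers e, mem_planes.mpr (card_pair hq hAc hAe ha hea), ?_⟩
  set B := zpowers a ⊔ zpowers e
  have hBfix : ∀ x ∈ P, ∀ d ∈ B, x⁻¹ * d • x ∈ K := by
    intro x hx
    let St : Subgroup A :=
      { carrier := {d | x⁻¹ * d • x ∈ K}
        one_mem' := by simp
        mul_mem' := by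
          intro d d' hd hd'
          show x⁻¹ * (d * d') • x ∈ K
          have h1 := K.mul_mem (hd : x⁻¹ * d • x ∈ K) (hKi d _ hd')
          rw [smul_mul', smul_inv'] at h1
          rw [mul_smul]
          simpa [mul_assoc] using h1
        inv_mem' := by
          intro d hd
          show x⁻¹ * d⁻¹ • x ∈ K
          have h1 := hKi d⁻¹ _ (K.inv_mem hd)
          rw [smul_inv', smul_mul', smul_inv', inv_smul_smul] at h1
          simpa using h1 }
    exact fun d hd => (sup_le (zpowers_le.mpr (show a ∈ St from (haS.ge hx).2))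
      (zpowers_le.mpr (show e ∈ St from (heS.ge hx).2)) : B ≤ St) hd
  rw [relIndex, relIndex, index_eq_card, index_eq_card]
  let g : ↥(P ⊓ fix G B) ⧸ K.subgroupOf (P ⊓ fix G B) → ↥P ⧸ K.subgroupOf P :=
    Quotient.map' (fun x => ⟨x.1, x.2.1⟩) (fun x y h => by
      rw [QuotientGroup.leftRel_apply] at h ⊢
      exact h)
  refine Nat.card_le_card_of_surjective g fun w => ?_
  obtain ⟨x, rfl⟩ := QuotientGroup.mk_surjective w
  have hKq : ¬ q ∣ Nat.card K := fun h => hcop (h.trans (card_subgroup_dvd_card K))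
  obtain ⟨f, hf, hfx⟩ := exists_fixed_in_coset B (card_pair hq hAc hAe ha hea) hKP.le hPi hKi hKq x.2
    (hBfix x x.2)
  refine ⟨QuotientGroup.mk ⟨f, hf⟩, ?_⟩
  exact QuotientGroup.eq.mpr hfx

theorem sylow_bound (hq : q.Prime) (hA : Nat.card A = q ^ 3) (hAc : ∀ a b : A, a * b = b * a)
    (hAe : ∀ a : A, a ^ q = 1) (hcop : ¬ q ∣ Nat.card G) {p : ℕ} [Fact p.Prime] (H : Subgroup G)
    (hHi : ∀ a : A, ∀ x ∈ H, a • x ∈ H) :
    ∀ (n : ℕ) (P : Subgroup G), Nat.card P = n → IsPGroup p P → (∀ a : A, ∀ x ∈ P, a • x ∈ P) →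
      H.relIndex P ≤ ∏ B ∈ planes A q, H.relIndex (P ⊓ fix G B) := by
  classical
  intro n
  induction n using Nat.strong_induction_on with
  | _ n ih =>
    intro P hn hP hPi
    by_cases hPH : P ≤ H
    · rw [relIndex_eq_one.mpr hPH]
      exact Finset.one_le_prod fun B _ => Nat.pos_of_ne_zero (rin _ _)
    obtain ⟨K, hHK, hK⟩ := Finite.exists_le_maximal
      (p := fun K : Subgroup G => K < P ∧ ∀ a : A, ∀ x ∈ K, a • x ∈ K) (a := H ⊓ P)
      ⟨lt_of_le_of_ne inf_le_right (fun h => hPH (inf_eq_right.mp h)),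
        fun a x hx => ⟨hHi a x hx.1, hPi a x hx.2⟩⟩
    obtain ⟨hKP, hKi⟩ := hK.prop
    obtain ⟨B0, hB0, hle⟩ := sylow_bound_step hq hA hAc hAe hcop hP hPi hKP hKi
      (fun L hKL hLP hLi => by
        by_contra h
        exact hKL.not_ge (hK.le_of_ge ⟨lt_of_le_of_ne hLP h, hLi⟩ hKL.le))
    have hind := ih (Nat.card K) (hn ▸ lt_of_le_of_ne (Subgroup.card_le_of_le hKP.le) fun h => hKP.ne (eq_of_le_of_card_ge hKP.le h.ge)) K rfl (hP.to_le hKP.le) hKi
    have hsplit : H.relIndex P = H.relIndex K * K.relIndex P := by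
      rw [← inf_relIndex_right H P, ← inf_relIndex_right H K,
        show H ⊓ K = H ⊓ P from le_antisymm (inf_le_inf_left _ hKP.le) (le_inf inf_le_left hHK),
        relIndex_mul_relIndex _ _ _ hHK hKP.le]
    have hsplit0 : H.relIndex (P ⊓ fix G B0) =
        H.relIndex (K ⊓ fix G B0) * K.relIndex (P ⊓ fix G B0) := by
      have h1 : H ⊓ (P ⊓ fix G B0) ≤ K ⊓ fix G B0 :=
        le_inf ((inf_le_inf_left H inf_le_left).trans hHK) (inf_le_right.trans inf_le_right)
      have h2 := relIndex_mul_relIndex _ _ _ h1 (inf_le_inf_right (fix G B0) hKP.le)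
      rw [inf_relIndex_right] at h2
      have h3 : (H ⊓ (P ⊓ fix G B0)).relIndex (K ⊓ fix G B0) = H.relIndex (K ⊓ fix G B0) := by
        rw [← inf_relIndex_right H (K ⊓ fix G B0)]
        congr 1
        exact le_antisymm (le_inf inf_le_left h1) (inf_le_inf_left _ (inf_le_inf_right _ hKP.le))
      have h4 : (K ⊓ fix G B0).relIndex (P ⊓ fix G B0) = K.relIndex (P ⊓ fix G B0) := by
        rw [← inf_relIndex_right K (P ⊓ fix G B0), ← inf_relIndex_right (K ⊓ fix G B0)]
        congr 1
        exact le_antisymm (inf_le_inf_right _ inf_le_left)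
          (le_inf (le_inf inf_le_left (inf_le_right.trans inf_le_right)) inf_le_right)
      rw [← h2, h3, h4]
    rw [hsplit]
    calc H.relIndex K * K.relIndex P
        ≤ (∏ B ∈ planes A q, H.relIndex (K ⊓ fix G B)) * K.relIndex (P ⊓ fix G B0) :=
          Nat.mul_le_mul hind hle
      _ ≤ ∏ B ∈ planes A q, H.relIndex (P ⊓ fix G B) := by
          rw [← Finset.mul_prod_erase _ _ hB0, ← Finset.mul_prod_erase _ _ hB0, hsplit0,
            mul_right_comm]
          exact Nat.mul_le_mul le_rfl (Finset.prod_le_prod (fun _ _ => Nat.zero_le _) fun B _ =>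
            relIndex_le_of_le_right (inf_le_inf_right _ hKP.le) (rin _ _))

theorem exists_invariant_sylow (hq : q.Prime) (hA : Nat.card A = q ^ 3) (hcop : ¬ q ∣ Nat.card G)
    (p : ℕ) [Fact p.Prime] :
    ∃ P : Sylow p G, ∀ a : A, ∀ x ∈ (P : Subgroup G), a • x ∈ (P : Subgroup G) := by
  haveI : Fact q.Prime := ⟨hq⟩
  have hdvd : ¬ q ∣ Nat.card (Sylow p G) := fun h =>
    hcop ((h.trans (default : Sylow p G).card_dvd_index).trans (index_dvd_card _))
  obtain ⟨P, hP⟩ := (IsPGroup.of_card hA).nonempty_fixed_point_of_prime_not_dvd_card (Sylow p G) hdvd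
  refine ⟨P, fun a x hx => ?_⟩
  have h1 : a • x ∈ ((a • P : Sylow p G) : Subgroup G) := smul_mem_pointwise_smul x a (P : Subgroup G) hx
  rwa [hP a] at h1

/-- The index of an invariant subgroup is bounded by the indices at fixed points of planes. -/
theorem index_bound (hq : q.Prime) (hA : Nat.card A = q ^ 3) (hAc : ∀ a b : A, a * b = b * a)
    (hAe : ∀ a : A, a ^ q = 1) (hcop : ¬ q ∣ Nat.card G) (H : Subgroup G)
    (hHi : ∀ a : A, ∀ x ∈ H, a • x ∈ H) (M : ℕ)
    (hM : ∀ B ∈ planes A q, H.relIndex (fix G B) ≤ M) :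
    ∀ p ∈ H.index.primeFactors, p ^ H.index.factorization p ≤ M ^ (planes A q).card := by
  intro p hp
  haveI : Fact p.Prime := ⟨Nat.prime_of_mem_primeFactors hp⟩
  have hpp : p.Prime := Fact.out
  obtain ⟨P, hP⟩ := exists_invariant_sylow (A := A) hq hA hcop p
  have h1 := sylow_bound hq hA hAc hAe hcop H hHi _ (P : Subgroup G) rfl P.2 hP
  have h2 : ∏ B ∈ planes A q, H.relIndex ((P : Subgroup G) ⊓ fix G B) ≤ M ^ (planes A q).card :=
    (Finset.prod_le_pow_card _ _ _ fun B hB =>
      (relIndex_le_of_le_right inf_le_right (rin _ _)).trans (hM B hB))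
  refine le_trans ?_ (h1.trans h2)
  have hPc := P.card_eq_multiplicity
  obtain ⟨j, hj⟩ := IsPGroup.iff_card.mp (P.2.to_inf_left : IsPGroup p ((P : Subgroup G) ⊓ H : Subgroup G))
  have hjH : j ≤ (Nat.card H).factorization p :=
    (hpp.pow_dvd_iff_le_factorization Nat.card_pos.ne').mp (hj ▸ card_dvd_of_le inf_le_right)
  have hmul : Nat.card ((P : Subgroup G) ⊓ H : Subgroup G) * H.relIndex (P : Subgroup G) =
      Nat.card (P : Subgroup G) := by
    rw [← inf_relIndex_right H (P : Subgroup G), inf_comm]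
    have := relIndex_mul_relIndex (⊥ : Subgroup G) _ _ bot_le (inf_le_right : H ⊓ (P : Subgroup G) ≤ P)
    rwa [relIndex_bot_left, relIndex_bot_left] at this
  have hGfac : (Nat.card G).factorization p = (Nat.card H).factorization p + H.index.factorization p := by
    rw [← H.card_mul_index, Nat.factorization_mul Nat.card_pos.ne' index_ne_zero_of_finite]
    rfl
  rw [hj, hPc, hGfac, pow_add] at hmul
  have h3 : p ^ j ≤ p ^ (Nat.card H).factorization p := Nat.pow_le_pow_right hpp.pos hjH
  have h4 : 0 < p ^ (Nat.card H).factorization p := pow_pos hpp.pos _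
  nlinarith [Nat.mul_le_mul_right (H.relIndex (P : Subgroup G)) h3]

/-- Elements of a subgroup have few conjugates in it when the derived subgroup is small. -/
theorem relIndex_centralizer_le (C : Subgroup G) {x : G} (hx : x ∈ C) :
    (centralizer ({x} : Set G)).relIndex C ≤ Nat.card (⁅C, C⁆ : Subgroup G) := by
  rw [relIndex, index_eq_card]
  let f : ↥C ⧸ (centralizer ({x} : Set G)).subgroupOf C → (⁅C, C⁆ : Subgroup G) :=
    Quotient.lift (fun y => ⟨⁅(y : G), x⁆, commutator_mem_commutator y.2 hx⟩) fun y z h => by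
      have h1 : y⁻¹ * z ∈ (centralizer ({x} : Set G)).subgroupOf C := QuotientGroup.leftRel_apply.mp h
      rw [mem_subgroupOf, mem_centralizer_singleton_iff] at h1
      refine Subtype.ext ?_
      simp only [commutatorElement_def, Subgroup.coe_mul, Subgroup.coe_inv] at h1 ⊢
      have h2 : (z : G) * x * (z : G)⁻¹ = (y : G) * x * (y : G)⁻¹ :=
        calc (z : G) * x * (z : G)⁻¹ = y * ((y : G)⁻¹ * z * x) * (z : G)⁻¹ := by group
          _ = y * (x * ((y : G)⁻¹ * z)) * (z : G)⁻¹ := by rw [h1]
          _ = _ := by group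
      rw [h2]
  refine Nat.card_le_card_of_injective f ?_
  intro u v huv
  induction u using Quotient.inductionOn with
  | _ y =>
    induction v using Quotient.inductionOn with
    | _ z =>
      apply Quotient.sound
      show QuotientGroup.leftRel _ y z
      rw [QuotientGroup.leftRel_apply, mem_subgroupOf, mem_centralizer_singleton_iff]
      have h1 : ⁅(y : G), x⁆ = ⁅(z : G), x⁆ := congrArg Subtype.val huv
      simp only [commutatorElement_def] at h1
      have h2 : (y : G) * x * (y : G)⁻¹ = (z : G) * x * (z : G)⁻¹ := mul_right_cancel h1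
      simp only [Subgroup.coe_mul, Subgroup.coe_inv]
      calc (y : G)⁻¹ * z * x = (y : G)⁻¹ * ((z : G) * x * (z : G)⁻¹) * z := by group
        _ = (y : G)⁻¹ * ((y : G) * x * (y : G)⁻¹) * z := by rw [h2]
        _ = x * ((y : G)⁻¹ * z) := by group

end Action

/-- Let `m` bound the derived subgroups of the centralisers; the bound obtained. -/
def bound (q m : ℕ) : ℕ :=
  let N1 := (m ^ q ^ 3) ^ 2 ^ q ^ 3
  let L := q ^ 3 * m * ((N1 ^ N1) * (N1 ^ N1))
  (L + 1) ^ (L * m)

/-- There is a function `f` of two natural-number arguments with the following property. Let `q` be a prime and `A` an elementary abelian group of order `q³` acting by automorphisms on a finite group `G` of order prime to `q`, and suppose that for every non-identity `a ∈ A` the derived subgroup of the fixed-point subgroup `C_G(a)` has order at most `m`. Then the derived subgroup of `G` has order at most `f(q, m)`. -/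
theorem result :
    ∃ f : ℕ → ℕ → ℕ, ∀ (q m : ℕ) (A G : Type u) [Group A] [Finite A] [Group G] [Finite G] [MulDistribMulAction A G],
      q.Prime → Nat.card A = q ^ 3 → (∀ a b : A, a * b = b * a) → (∀ a : A, a ^ q = 1) → ¬ q ∣ Nat.card G →
      (∀ a : A, a ≠ 1 → Nat.card ↥(commutator ↥(FixedPoints.subgroup (Subgroup.zpowers a) G)) ≤ m) →
      Nat.card ↥(commutator G) ≤ f q m := by
  refine ⟨bound, ?_⟩
  intro q m A G _ _ _ _ _ hq hA hAc hAe hcop hm
  classical
  have := Fintype.ofFinite A
  have := Fintype.ofFinite G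
  let D : A → Subgroup G := fun a =>
    ⁅FixedPoints.subgroup (Subgroup.zpowers a) G, FixedPoints.subgroup (Subgroup.zpowers a) G⁆
  have hD : ∀ a : A, a ≠ 1 → Nat.card (D a) ≤ m := by
    intro a ha
    rw [show D a = (commutator _).map (FixedPoints.subgroup (Subgroup.zpowers a) G).subtype from
      (map_subtype_commutator _).symm, Nat.card_congr (equivMapOfInjective _ _ (subtype_injective _)).toEquiv.symm]
    exact hm a ha
  obtain ⟨a0, ha0⟩ : ∃ a : A, a ≠ 1 := by
    haveI : Nontrivial A := Finite.one_lt_card_iff_nontrivial.mp (hA ▸ Nat.one_lt_pow (by norm_num) hq.one_lt)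
    exact exists_ne 1
  have hm1 : 1 ≤ m := le_trans Nat.card_pos (hD a0 ha0)
  set M := m ^ q ^ 3 with hMdef
  set N1 := M ^ 2 ^ q ^ 3 with hN1
  have hN1pos : 1 ≤ N1 := Nat.one_le_pow _ _ (Nat.one_le_pow _ _ hm1)
  -- classes of fixed points of planes
  have hclass : ∀ B ∈ planes A q, ∀ x ∈ fix G B, (centralizer ({x} : Set G)).index ≤ N1 ^ N1 := by
    intro B hB x hx
    let H : Subgroup G := ⨅ a : A, centralizer ({a • x} : Set G)
    have hHi : ∀ a : A, ∀ y ∈ H, a • y ∈ H := by
      intro c y hy
      simp only [H, Subgroup.mem_iInf, mem_centralizer_singleton_iff] at hy ⊢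
      intro a
      have h1 := congrArg (fun z => c • z) (hy (c⁻¹ * a))
      simp only [smul_mul', ← mul_smul, mul_inv_cancel_left] at h1
      exact h1
    have hrel : ∀ B' ∈ planes A q, H.relIndex (fix G B') ≤ M := by
      intro B' hB'
      refine (relIndex_iInf_le _).trans ?_
      rw [hMdef, ← hA, Nat.card_eq_fintype_card, ← Finset.card_univ]
      refine Finset.prod_le_pow_card _ _ _ fun a _ => ?_
      obtain ⟨c, hc, hc1⟩ := planes_meet hq hA hAc (mem_planes.mp hB) (mem_planes.mp hB')
      have hle1 : fix G B' ≤ FixedPoints.subgroup (Subgroup.zpowers c) G :=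
        fix_mono (zpowers_le.mpr hc.2)
      have hax : a • x ∈ FixedPoints.subgroup (Subgroup.zpowers c) G :=
        fix_mono (zpowers_le.mpr hc.1) (smul_mem_fix hAc B a hx)
      exact (relIndex_le_of_le_right hle1 (rin _ _)).trans
        ((relIndex_centralizer_le _ hax).trans (hD c hc1))
    have hfac := index_bound hq hA hAc hAe hcop H hHi M hrel
    have hfac' : ∀ p ∈ H.index.primeFactors, p ^ H.index.factorization p ≤ N1 := fun p hp =>
      (hfac p hp).trans (Nat.pow_le_pow_right (Nat.one_le_pow _ _ hm1) (hA ▸ card_planes_le))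
    have hH : H.index ≤ N1 ^ N1 := by
      rw [← Nat.prod_factorization_pow_eq_self (n := H.index) index_ne_zero_of_finite,
        Nat.prod_factorization_eq_prod_primeFactors]
      refine (Finset.prod_le_pow_card _ _ _ hfac').trans (Nat.pow_le_pow_right hN1pos ?_)
      have hsub : H.index.primeFactors ⊆ Finset.Icc 1 N1 := by
        intro p hp
        have hpp := Nat.prime_of_mem_primeFactors hp
        refine Finset.mem_Icc.mpr ⟨hpp.one_le, le_trans ?_ (hfac' p hp)⟩
        exact Nat.le_self_pow (hpp.factorization_pos_of_dvd index_ne_zero_of_finite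
          (Nat.dvd_of_mem_primeFactors hp)).ne' p
      simpa using Finset.card_le_card hsub
    refine le_trans ?_ hH
    refine index_antitone ?_
    have := iInf_le (fun a : A => centralizer ({a • x} : Set G)) 1
    simpa using this
  -- generation
  let K0 : Subgroup G := ⨆ B ∈ planes A q, fix G B
  have hK0 : K0 = ⊤ := by
    have hK0i : ∀ a : A, ∀ x ∈ K0, a • x ∈ K0 := by
      intro a
      have : K0.map (MulDistribMulAction.toMonoidHom G a) ≤ K0 := by
        rw [Subgroup.map_iSup]
        refine iSup_le fun B => ?_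
        rw [Subgroup.map_iSup]
        refine iSup_le fun hB => ?_
        rintro _ ⟨x, hx, rfl⟩
        exact le_iSup₂ (f := fun B (_ : B ∈ planes A q) => fix G B) B hB (smul_mem_fix hAc B a hx)
      exact fun x hx => this (mem_map_of_mem _ hx)
    have hfac := index_bound hq hA hAc hAe hcop K0 hK0i 1 fun B hB => by
      rw [relIndex_eq_one.mpr (le_iSup₂ (f := fun B (_ : B ∈ planes A q) => fix G B) B hB)]
    rw [← index_eq_one]
    by_contra h
    obtain ⟨p, hp, hpd⟩ := Nat.exists_prime_and_dvd h
    have h1 := hfac p (Nat.mem_primeFactors.mpr ⟨hp, hpd, index_ne_zero_of_finite⟩)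
    rw [one_pow] at h1
    have h2 := (hp.factorization_pos_of_dvd index_ne_zero_of_finite hpd)
    have := Nat.one_lt_pow h2.ne' hp.one_lt
    omega
  -- the commutators of the generators and their conjugates
  let T0 : Finset G := ((Finset.univ.filter fun a : A => a ≠ 1).biUnion fun a => (D a : Set G).toFinset).filter
    fun k => (centralizer ({k} : Set G)).index ≤ (N1 ^ N1) * (N1 ^ N1)
  let T : Finset G := T0.biUnion fun k => Finset.univ.image fun g : G => g * k * g⁻¹
  have hT0 : T0.card ≤ q ^ 3 * m := by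
    refine (Finset.card_filter_le _ _).trans ?_
    refine (Finset.card_biUnion_le_card_mul _ _ m fun a ha => ?_).trans ?_
    · rw [Set.toFinset_card, ← Nat.card_eq_fintype_card]
      exact hD a (Finset.mem_filter.mp ha).2
    · refine Nat.mul_le_mul_right _ ((Finset.card_filter_le _ _).trans ?_)
      rw [Finset.card_univ, ← Nat.card_eq_fintype_card, hA]
  have hTcard : T.card ≤ q ^ 3 * m * ((N1 ^ N1) * (N1 ^ N1)) := by
    refine (Finset.card_biUnion_le_card_mul _ _ ((N1 ^ N1) * (N1 ^ N1)) fun k hk => ?_).trans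
      (Nat.mul_le_mul_right _ hT0)
    refine le_trans ?_ (Finset.mem_filter.mp hk).2
    rw [index_eq_card, Nat.card_eq_fintype_card, ← Finset.card_univ]
    refine Finset.card_le_card_of_surjOn
      (Quotient.lift (fun g : G => g * k * g⁻¹) fun y z h => ?_) ?_
    · have h1 := mem_centralizer_singleton_iff.mp (QuotientGroup.leftRel_apply.mp h)
      calc y * k * y⁻¹ = y * (k * (y⁻¹ * z)) * z⁻¹ := by group
        _ = y * (y⁻¹ * z * k) * z⁻¹ := by rw [h1]
        _ = z * k * z⁻¹ := by group
    · intro c hc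
      obtain ⟨g, -, rfl⟩ := Finset.mem_image.mp hc
      exact ⟨QuotientGroup.mk g, Finset.mem_univ _, rfl⟩
  have hTinv : ∀ g : G, ∀ x ∈ (T : Set G), g * x * g⁻¹ ∈ (T : Set G) := by
    intro g x hx
    simp only [T, Finset.coe_biUnion, Finset.coe_image, Finset.coe_univ, Set.image_univ, Set.mem_iUnion,
      Set.mem_range, Finset.mem_coe] at hx ⊢
    obtain ⟨k, hk, h, rfl⟩ := hx
    exact ⟨k, hk, g * h, by group⟩
  have hTord : ∀ x ∈ (T : Set G), orderOf x ≤ m := by
    intro x hx
    obtain ⟨k, hk, hx⟩ := Finset.mem_biUnion.mp hx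
    obtain ⟨g, -, rfl⟩ := Finset.mem_image.mp hx
    obtain ⟨a, ha, hka⟩ := Finset.mem_biUnion.mp (Finset.mem_filter.mp hk).1
    rw [show g * k * g⁻¹ = MulAut.conj g k from rfl, MulEquiv.orderOf_eq]
    refine le_trans ?_ (hD a (Finset.mem_filter.mp ha).2)
    exact Nat.le_of_dvd Nat.card_pos (Subgroup.orderOf_dvd_natCard _ (Set.mem_toFinset.mp hka))
  haveI hNn : (closure (T : Set G)).Normal := by
    refine ⟨fun x hx g => ?_⟩
    have : (closure (T : Set G)).map (MulAut.conj g).toMonoidHom ≤ closure (T : Set G) := by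
      rw [MonoidHom.map_closure]
      refine closure_mono ?_
      rintro _ ⟨y, hy, rfl⟩
      exact hTinv g y hy
    exact this (mem_map_of_mem _ hx)
  have hle : commutator G ≤ closure (T : Set G) := by
    set N := closure (T : Set G)
    have hgen : ∀ B ∈ planes A q, ∀ x ∈ fix G B, ∀ B' ∈ planes A q, ∀ y ∈ fix G B', ⁅x, y⁆ ∈ N := by
      intro B hB x hx B' hB' y hy
      obtain ⟨c, hc, hc1⟩ := planes_meet hq hA hAc (mem_planes.mp hB) (mem_planes.mp hB')
      have hk : ⁅x, y⁆ ∈ D c := commutator_mem_commutator (fix_mono (zpowers_le.mpr hc.1) hx)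
        (fix_mono (zpowers_le.mpr hc.2) hy)
      refine subset_closure (Finset.mem_biUnion.mpr ⟨_, Finset.mem_filter.mpr
        ⟨Finset.mem_biUnion.mpr ⟨c, Finset.mem_filter.mpr ⟨Finset.mem_univ _, hc1⟩, Set.mem_toFinset.mpr hk⟩, ?_⟩,
        Finset.mem_image.mpr ⟨1, Finset.mem_univ _, by group⟩⟩)
      refine le_trans (index_antitone ?_) ((index_inf_le).trans (Nat.mul_le_mul (hclass B hB x hx) (hclass B' hB' y hy)))
      intro g hg
      have h1 : Commute g x := mem_centralizer_singleton_iff.mp hg.1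
      have h2 : Commute g y := mem_centralizer_singleton_iff.mp hg.2
      rw [mem_centralizer_singleton_iff]
      exact (((h1.mul_right h2).mul_right h1.inv_right).mul_right h2.inv_right).eq
    let π := QuotientGroup.mk' N
    have h1 : ∀ x y : G, π x * π y = π y * π x := by
      have hbase : ∀ B ∈ planes A q, ∀ x ∈ fix G B, ∀ B' ∈ planes A q, ∀ y ∈ fix G B', π x * π y = π y * π x := by
        intro B hB x hx B' hB' y hy
        have := (QuotientGroup.eq_one_iff (N := N) _).mpr (hgen B hB x hx B' hB' y hy)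
        rw [← QuotientGroup.mk'_apply, map_commutatorElement] at this
        exact commutatorElement_eq_one_iff_mul_comm.mp this
      have hC : ∀ B ∈ planes A q, ∀ x ∈ fix G B, ∀ y : G, π x * π y = π y * π x := by
        intro B hB x hx y
        have : K0 ≤ (centralizer ({π x} : Set (G ⧸ N))).comap π :=
          iSup₂_le fun B' hB' y hy => mem_centralizer_singleton_iff.mpr (hbase B' hB' y hy B hB x hx)
        exact (mem_centralizer_singleton_iff.mp (this (hK0 ▸ mem_top y))).symm
      intro x y
      have : K0 ≤ (centralizer ({π y} : Set (G ⧸ N))).comap π :=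
        iSup₂_le fun B hB x hx => mem_centralizer_singleton_iff.mpr (hC B hB x hx y)
      exact mem_centralizer_singleton_iff.mp (this (hK0 ▸ mem_top x))
    rw [_root_.commutator_def, commutator_le]
    intro x _ y _
    rw [← QuotientGroup.eq_one_iff, ← QuotientGroup.mk'_apply, map_commutatorElement]
    exact commutatorElement_eq_one_iff_mul_comm.mpr (h1 x y)
  refine (Subgroup.card_le_of_le hle).trans ?_
  exact card_closure_le (T : Set G) _ m hTinv (by rw [Nat.card_coe_set_eq, Set.ncard_coe_finset]; exact hTcard) hTord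

end Cfsg.Agent.S4316
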