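import Cfsg.Statements.S4320

set_option autoImplicit false
open Cfsg

namespace Cfsg.Agent.S4320

open scoped commutatorElement

universe u

theorem det_trick {R : Type*} [CommRing R] (ε : R →+* ℤ) {M : Type*} [AddCommGroup M] [Module R M]
    {ι : Type*} [Fintype ι] [DecidableEq ι] (e : ι → M) (k : ι → ℕ) (u : ι → ι → R)
    (hu : ∀ i j, ε (u i j) = 0) (hrel : ∀ i, (k i : R) • e i = ∑ j, u i j • e j) :
    ∃ x : R, ε x = ∏ i, (k i : ℤ) ∧ ∀ i, x • e i = 0 := by
  set B : Matrix ι ι R := Matrix.diagonal (fun i => (k i : R)) - Matrix.of u with hB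
  refine ⟨B.det, ?_, fun i => ?_⟩
  · rw [RingHom.map_det]
    have : ε.mapMatrix B = Matrix.diagonal (fun i => (k i : ℤ)) := by
      ext i j
      rcases eq_or_ne i j with rfl | h
      · simp [hB, hu]
      · simp [hB, hu, h]
    rw [this, Matrix.det_diagonal]
  · have hBe : ∀ l, ∑ j, B l j • e j = 0 := by
      intro l
      simp only [hB, Matrix.sub_apply, Matrix.of_apply, sub_smul, Finset.sum_sub_distrib]
      rw [← hrel l, sub_eq_zero, Finset.sum_eq_single l]
      · rw [Matrix.diagonal_apply_eq]
      · intro j _ hj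
        rw [Matrix.diagonal_apply_ne _ hj.symm, zero_smul]
      · simp
    have h1 : ∀ j, (B.det • (1 : Matrix ι ι R)) i j = ∑ l, B.adjugate i l * B l j := fun j => by
      rw [← Matrix.adjugate_mul, Matrix.mul_apply]
    calc B.det • e i = ∑ j, (B.det • (1 : Matrix ι ι R)) i j • e j := by
          rw [Finset.sum_eq_single i]
          · simp
          · intro j _ hj; simp [Matrix.one_apply_ne hj.symm]
          · simp
      _ = ∑ j, ∑ l, (B.adjugate i l * B l j) • e j := by simp only [h1, Finset.sum_smul]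
      _ = ∑ l, B.adjugate i l • ∑ j, B l j • e j := by
          rw [Finset.sum_comm]; simp only [Finset.smul_sum, smul_smul]
      _ = 0 := by simp [hBe]

theorem sum_of_invariant {Q : Type*} [CommGroup Q] [Fintype Q] (ε : MonoidAlgebra ℤ Q →+* ℤ)
    (hε : ∀ σ, ε (MonoidAlgebra.of ℤ Q σ) = 1) (x : MonoidAlgebra ℤ Q)
    (hx : ∀ σ, x * MonoidAlgebra.of ℤ Q σ = x) (hn : ε x = Fintype.card Q) :
    x = ∑ σ, MonoidAlgebra.of ℤ Q σ := by
  classical
  set N := ∑ σ, MonoidAlgebra.of ℤ Q σ with hN
  have hNσ : ∀ σ, N * MonoidAlgebra.of ℤ Q σ = N := fun σ => by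
    rw [hN, Finset.sum_mul]
    exact Fintype.sum_equiv (Equiv.mulRight σ) _ _ fun τ => (map_mul _ τ σ).symm
  have key : ∀ y, (∀ σ, y * MonoidAlgebra.of ℤ Q σ = y) → ∀ z, y * z = ε z • y := by
    intro y hy z
    induction z using MonoidAlgebra.induction_on with
    | of σ => rw [hε, one_smul]; exact hy σ
    | add a b ha hb => rw [mul_add, ha, hb, map_add, add_smul]
    | smul r a ha => rw [mul_smul_comm, ha, map_zsmul, smul_assoc]
  have h1 := key x hx N
  have h2 := key N hNσ x
  rw [mul_comm, h2, hn, show ε N = Fintype.card Q by simp only [hN, map_sum, hε, Finset.sum_const, Finset.card_univ, nsmul_one]] at h1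
  exact (smul_right_injective _ (show ((Fintype.card Q : ℤ)) ≠ 0 by exact_mod_cast Fintype.card_ne_zero)) h1.symm

variable {G : Type u} [Group G]

noncomputable def out (q : Abelianization G) : G := Quotient.out q

theorem of_out (q : Abelianization G) : Abelianization.of (out q) = q := Quotient.out_eq' q

theorem mem_of_eq_one {g : G} (h : Abelianization.of g = 1) : g ∈ commutator G :=
  (QuotientGroup.eq_one_iff g).1 h

/-- The monomial crossed homomorphism. -/
noncomputable def crossed (g : G) (τ : Abelianization G) : Additive (Abelianization ↥(commutator G)) :=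
  Additive.ofMul (Abelianization.of ⟨(out τ)⁻¹ * g * out ((Abelianization.of g)⁻¹ * τ),
    mem_of_eq_one (by rw [map_mul, map_mul, map_inv, of_out, of_out]; group)⟩)

theorem crossed_mul (g h : G) (τ : Abelianization G) :
    crossed (g * h) τ = crossed g τ + crossed h ((Abelianization.of g)⁻¹ * τ) := by
  rw [crossed, crossed, crossed, ← ofMul_mul, ← map_mul]
  refine congrArg _ (congrArg _ (Subtype.ext ?_))
  show (out τ)⁻¹ * (g * h) * out ((Abelianization.of (g * h))⁻¹ * τ) = _
  rw [map_mul, mul_inv_rev, mul_assoc (Abelianization.of h)⁻¹]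
  show _ = ((out τ)⁻¹ * g * out ((Abelianization.of g)⁻¹ * τ)) *
    ((out ((Abelianization.of g)⁻¹ * τ))⁻¹ * h * out ((Abelianization.of h)⁻¹ * ((Abelianization.of g)⁻¹ * τ)))
  group

/-- Translation. -/
noncomputable def rho : Abelianization G →* AddMonoid.End (Abelianization G → Additive (Abelianization ↥(commutator G))) where
  toFun σ :=
    { toFun := fun w τ => w (σ⁻¹ * τ)
      map_zero' := rfl
      map_add' := fun _ _ => rfl }
  map_one' := by
    refine AddMonoidHom.ext fun w => funext fun τ => ?_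
    show w (1⁻¹ * τ) = w τ
    rw [inv_one, one_mul]
  map_mul' σ σ' := by
    refine AddMonoidHom.ext fun w => funext fun τ => ?_
    show w ((σ * σ')⁻¹ * τ) = w (σ'⁻¹ * (σ⁻¹ * τ))
    rw [mul_inv_rev, mul_assoc]

theorem sum_crossed [Finite G] [Fintype (Abelianization G)] (g : G) :
    ∑ τ, crossed g τ = 0 := by
  classical
  haveI : Fintype G := Fintype.ofFinite G
  let W := Abelianization G → Additive (Abelianization ↥(commutator G))
  let R := MonoidAlgebra ℤ (Abelianization G)
  let φ : R →+* AddMonoid.End W := (MonoidAlgebra.lift ℤ (AddMonoid.End W) (Abelianization G) rho).toRingHom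
  letI : Module R W := Module.compHom W φ
  let ε : R →+* ℤ := (MonoidAlgebra.lift ℤ ℤ (Abelianization G) 1).toRingHom
  have hε : ∀ σ, ε (MonoidAlgebra.of ℤ _ σ) = 1 := fun σ => MonoidAlgebra.lift_of _ σ
  have hρ : ∀ σ (w : W), (MonoidAlgebra.of ℤ _ σ : R) • w = rho σ w := fun σ w => by
    show φ (MonoidAlgebra.of ℤ _ σ) w = _
    exact DFunLike.congr_fun (MonoidAlgebra.lift_of _ σ) w
  let of' : G → R := fun x => MonoidAlgebra.of ℤ _ (Abelianization.of x)
  let δ : G → W × R := fun x => (crossed x, of' x - 1)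
  have hof : ∀ a b, of' (a * b) = of' a * of' b := fun a b => by simp only [of']; rw [map_mul, map_mul]
  have hδ : ∀ a b, δ (a * b) = δ a + of' a • δ b := by
    intro a b
    refine Prod.ext (funext fun τ => ?_) ?_
    · show crossed (a * b) τ = crossed a τ + (of' a • (crossed b : W)) τ
      rw [hρ, crossed_mul]
      rfl
    · show of' (a * b) - 1 = (of' a - 1) + of' a * (of' b - 1)
      rw [hof, mul_sub, mul_one]
      abel
  have hof1 : of' 1 = 1 := by simp only [of']; rw [map_one, map_one]
  have hδ1 : δ 1 = 0 := by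
    have := hδ 1 1
    rw [mul_one, hof1, one_smul] at this
    exact left_eq_add.1 this
  have hofH : ∀ x ∈ commutator G, of' x = 1 := fun x hx => by
    simp only [of']
    rw [show Abelianization.of x = 1 from (QuotientGroup.eq_one_iff x).2 hx, map_one]
  have hδinv : ∀ a, δ a⁻¹ = -(of' a⁻¹ • δ a) := fun a => by
    refine eq_neg_of_add_eq_zero_left ?_
    rw [← hδ, inv_mul_cancel, hδ1]
  -- generators
  obtain ⟨ι₀, hι, n, hn1, ⟨e0⟩⟩ := CommGroup.equiv_prod_multiplicative_zmod_of_finite (Abelianization G)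
  haveI : ∀ i, NeZero (n i) := fun i => ⟨by have := hn1 i; omega⟩
  haveI : Fintype ↥(commutator G) := Fintype.ofFinite _
  let γ : ι₀ ⊕ ↥(commutator G) → G :=
    Sum.elim (fun i => out (e0.symm (Pi.mulSingle i (Multiplicative.ofAdd 1)))) (fun x => x.1)
  let k : ι₀ ⊕ ↥(commutator G) → ℕ := Sum.elim n (fun _ => 1)
  have hgen : Subgroup.closure (Set.range γ) = ⊤ := by
    rw [Subgroup.eq_top_iff']
    intro x
    set K := Subgroup.closure (Set.range γ)
    have hK : ∀ q : Abelianization G, ∃ y ∈ K, Abelianization.of y = q := by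
      intro q
      have hq : q = ∏ i, e0.symm (Pi.mulSingle i (e0 q i)) := by
        rw [← map_prod, Finset.univ_prod_mulSingle, MulEquiv.symm_apply_apply]
      have : q ∈ (K.map (Abelianization.of : G →* Abelianization G)) := by
        rw [hq]
        refine Subgroup.prod_mem _ fun i _ => ?_
        obtain ⟨a, ha⟩ : ∃ a : ℕ, (Pi.mulSingle i (e0 q i) : (j : ι₀) → Multiplicative (ZMod (n j))) =
            (Pi.mulSingle i (Multiplicative.ofAdd 1)) ^ a := by
          refine ⟨(Multiplicative.toAdd (e0 q i)).val, ?_⟩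
          rw [← Pi.mulSingle_pow, ← ofAdd_nsmul, nsmul_one, ZMod.natCast_zmod_val, ofAdd_toAdd]
        rw [ha, map_pow]
        refine Subgroup.pow_mem _ (Subgroup.mem_map.2 ⟨γ (Sum.inl i), (Subgroup.subset_closure (Set.mem_range_self _) : γ (Sum.inl i) ∈ K), ?_⟩) _
        exact of_out _
      obtain ⟨y, hy, hy'⟩ := this
      exact ⟨y, hy, hy'⟩
    obtain ⟨y, hy, hy'⟩ := hK (Abelianization.of x)
    have hmem : y⁻¹ * x ∈ commutator G := mem_of_eq_one (by rw [map_mul, map_inv, hy', inv_mul_cancel])
    have := K.mul_mem hy (Subgroup.subset_closure ⟨Sum.inr ⟨_, hmem⟩, rfl⟩ : y⁻¹ * x ∈ K)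
    rwa [mul_inv_cancel_left] at this
  have hk : ∀ j, γ j ^ k j ∈ commutator G := by
    rintro (i | x)
    · refine mem_of_eq_one ?_
      show Abelianization.of (out (e0.symm (Pi.mulSingle i (Multiplicative.ofAdd 1))) ^ n i) = 1
      rw [map_pow, of_out, ← map_pow, ← Pi.mulSingle_pow, ← ofAdd_nsmul, nsmul_one, ZMod.natCast_self, ofAdd_zero,
        Pi.mulSingle_one, map_one]
    · show (x : G) ^ 1 ∈ _
      rw [pow_one]; exact x.2
  let ev := fun j => δ (γ j)
  -- everything is a combination of the generators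
  have hspan : ∀ x, ∃ c : ι₀ ⊕ ↥(commutator G) → R, ∑ j, c j • ev j = δ x := by
    intro x
    have hx' : x ∈ Subgroup.closure (Set.range γ) := by rw [hgen]; trivial
    induction hx' using Subgroup.closure_induction with
    | mem y hy =>
      obtain ⟨j, rfl⟩ := hy
      exact ⟨Pi.single j 1, by
        rw [Finset.sum_eq_single j (fun l _ hl => by rw [Pi.single_eq_of_ne hl, zero_smul]) (by simp),
          Pi.single_eq_same, one_smul]⟩
    | one => exact ⟨0, by simp [hδ1]⟩
    | mul a b _ _ iha ihb =>
      obtain ⟨c, hc⟩ := iha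
      obtain ⟨d, hd⟩ := ihb
      refine ⟨c + of' a • d, ?_⟩
      rw [hδ, ← hc, ← hd]
      simp only [Pi.add_apply, Pi.smul_apply, smul_eq_mul, add_smul, Finset.sum_add_distrib, Finset.smul_sum, smul_smul]
    | inv a _ ih =>
      obtain ⟨c, hc⟩ := ih
      refine ⟨-(of' a⁻¹ • c), ?_⟩
      rw [hδinv, ← hc]
      simp only [Pi.neg_apply, Pi.smul_apply, smul_eq_mul, neg_smul, Finset.sum_neg_distrib, Finset.smul_sum, smul_smul]
  let T : W × R → Prop := fun m => ∃ c : ι₀ ⊕ ↥(commutator G) → R, (∀ j, ε (c j) = 0) ∧ ∑ j, c j • ev j = m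
  have hTadd : ∀ m m', T m → T m' → T (m + m') := by
    rintro m m' ⟨c, hc, rfl⟩ ⟨d, hd, rfl⟩
    exact ⟨c + d, fun j => by rw [Pi.add_apply, map_add, hc, hd, add_zero],
      by simp only [Pi.add_apply, add_smul, Finset.sum_add_distrib]⟩
  have hTneg : ∀ m, T m → T (-m) := by
    rintro m ⟨c, hc, rfl⟩
    exact ⟨-c, fun j => by rw [Pi.neg_apply, map_neg, hc, neg_zero],
      by simp only [Pi.neg_apply, neg_smul, Finset.sum_neg_distrib]⟩
  have hTaug : ∀ a x, T ((of' a - 1) • δ x) := by
    intro a x
    obtain ⟨c, hc⟩ := hspan x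
    refine ⟨(of' a - 1) • c, fun j => ?_, ?_⟩
    · rw [Pi.smul_apply, smul_eq_mul, map_mul, map_sub, map_one, show ε (of' a) = 1 from hε _, sub_self, zero_mul]
    · rw [← hc]
      simp only [Pi.smul_apply, smul_eq_mul, Finset.smul_sum, smul_smul]
  have hT0 : T 0 := ⟨0, fun j => by rw [Pi.zero_apply, map_zero], by simp⟩
  have hTcomm : ∀ x ∈ commutator G, T (δ x) := by
    intro x hx
    have hx' := hx
    rw [commutator_eq_closure] at hx'
    induction hx' using Subgroup.closure_induction with
    | mem y hy =>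
      obtain ⟨a, b, rfl⟩ := hy
      have e : δ ⁅a, b⁆ = -((of' b - 1) • δ a) + (of' a - 1) • δ b := by
        rw [commutatorElement_def, hδ, hδ, hδ, hδinv, hδinv, smul_neg, smul_neg, smul_smul, smul_smul, ← hof, ← hof]
        have e1 : of' (a * b * a⁻¹) = of' b := congrArg (MonoidAlgebra.of ℤ _) (by
          rw [map_mul, map_mul, map_inv, mul_comm (Abelianization.of a), mul_inv_cancel_right])
        have e2 : of' (a * b * a⁻¹ * b⁻¹) = 1 := (congrArg (MonoidAlgebra.of ℤ _) (show Abelianization.of (a * b * a⁻¹ * b⁻¹) = 1 by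
          rw [map_mul, map_mul, map_mul, map_inv, map_inv, mul_comm (Abelianization.of a), mul_inv_cancel_right,
            mul_inv_cancel])).trans (map_one _)
        rw [e1, e2, sub_smul, sub_smul, one_smul, one_smul]
        abel
      rw [e]
      exact hTadd _ _ (hTneg _ (hTaug b a)) (hTaug a b)
    | one => rw [hδ1]; exact hT0
    | mul a b ha hb iha ihb =>
      rw [← commutator_eq_closure] at ha hb
      rw [hδ, hofH a ha, one_smul]
      exact hTadd _ _ (iha ha) (ihb hb)
    | inv a ha ih =>
      rw [← commutator_eq_closure] at ha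
      rw [hδinv, hofH _ (Subgroup.inv_mem _ ha), one_smul]
      exact hTneg _ (ih ha)
  have hpow : ∀ (a : G) (m : ℕ), T (δ (a ^ m) - (m : R) • δ a) := by
    intro a m
    induction m with
    | zero => rw [pow_zero, hδ1, Nat.cast_zero, zero_smul, sub_zero]; exact hT0
    | succ m ih =>
      have e : δ (a ^ (m + 1)) - ((m + 1 : ℕ) : R) • δ a =
          (δ (a ^ m) - (m : R) • δ a) + (of' (a ^ m) - 1) • δ a := by
        rw [pow_succ, hδ, Nat.cast_succ, add_smul, one_smul, sub_smul, one_smul]
        abel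
      rw [e]
      exact hTadd _ _ ih (hTaug _ _)
  have hrel : ∀ j, T ((k j : R) • ev j) := by
    intro j
    have h1 := hTadd _ _ (hTneg _ (hpow (γ j) (k j))) (hTcomm _ (hk j))
    rwa [neg_sub, sub_add_cancel] at h1
  choose c hc hsum using hrel
  obtain ⟨x, hx, hkill⟩ := det_trick ε ev k c hc fun i => (hsum i).symm
  have hall : ∀ y, x • δ y = 0 := by
    intro y
    obtain ⟨d, hd⟩ := hspan y
    rw [← hd, Finset.smul_sum]
    exact Finset.sum_eq_zero fun j _ => by rw [smul_comm, hkill, smul_zero]
  have hxN : x = ∑ σ, MonoidAlgebra.of ℤ (Abelianization G) σ := by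
    refine sum_of_invariant ε hε x (fun σ => ?_) ?_
    · have := congrArg Prod.snd (hall (out σ))
      simp only [Prod.smul_snd, Prod.snd_zero, δ, of', of_out, smul_eq_mul, mul_sub, mul_one, sub_eq_zero] at this
      exact this
    · rw [hx, Fintype.prod_sum_type]
      have hQ : Fintype.card (Abelianization G) = ∏ i, n i := by
        rw [← Nat.card_eq_fintype_card, Nat.card_congr e0.toEquiv, Nat.card_pi]
        exact Finset.prod_congr rfl fun i _ => (Nat.card_congr Multiplicative.toAdd).trans (Nat.card_zmod _)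
      simp [k, hQ]
  have h1 := congrArg Prod.fst (hall g)
  rw [hxN] at h1
  change (∑ σ : Abelianization G, (MonoidAlgebra.of ℤ (Abelianization G) σ : R)) • (crossed g : W) = 0 at h1
  rw [Finset.sum_smul] at h1
  simp only [hρ] at h1
  have h2 := congrFun h1 1
  rw [Finset.sum_apply] at h2
  refine (Fintype.sum_equiv (Equiv.inv _) _ _ fun τ => ?_).trans h2
  show crossed g τ = crossed g ((τ⁻¹)⁻¹ * 1)
  rw [inv_inv, mul_one]

theorem transfer_eq_sum [Finite G] [Fintype (Abelianization G)] (g : G) :
    Additive.ofMul (MonoidHom.transfer (Abelianization.of : ↥(commutator G) →* Abelianization ↥(commutator G)) g) =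
      ∑ τ, crossed g τ := by
  classical
  let T : (commutator G).LeftTransversal :=
    ⟨Set.range (out : G ⧸ commutator G → G), Subgroup.isComplement_range_left fun q => of_out q⟩
  rw [MonoidHom.transfer_def (T := T)]
  unfold Subgroup.leftTransversals.diff
  rw [ofMul_prod]
  refine @Fintype.sum_equiv _ _ _ (_) (_) _ (Equiv.refl _) _ _ fun (q : G ⧸ commutator G) => ?_
  refine congrArg _ (congrArg _ (Subtype.ext ?_))
  show (T.2.leftQuotientEquiv q : G)⁻¹ * ((g • T).2.leftQuotientEquiv q : G) = (out q)⁻¹ * g * out ((QuotientGroup.mk g : G ⧸ commutator G)⁻¹ * q)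
  rw [Subgroup.smul_apply_eq_smul_apply_inv_smul]
  have hT : ∀ q, (T.2.leftQuotientEquiv q : G) = out q := fun q => Subgroup.IsComplement.leftQuotientEquiv_apply (fun q => of_out q) q
  rw [hT, hT, smul_eq_mul, mul_assoc]
  congr 3


/-- The Principal Ideal Theorem of class field theory in its group-theoretic form: for every finite group `G`, the transfer homomorphism from `G` into the abelianization `G'/G''` of its derived subgroup `G'` is the trivial homomorphism. -/
theorem result {G : Type*} [Group G] [Finite G] :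
    MonoidHom.transfer (Abelianization.of : ↥(commutator G) →* Abelianization ↥(commutator G)) =
      (1 : G →* Abelianization ↥(commutator G)) := by
  classical
  haveI : Fintype (Abelianization G) := Fintype.ofFinite _
  refine MonoidHom.ext fun g => ?_
  have := (transfer_eq_sum g).trans (sum_crossed g)
  exact this

end Cfsg.Agent.S4320
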