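import Cfsg.Statements.S4321
import Mathlib
import Cfsg.Agent.Lib.GS.Sylow
import Cfsg.Agent.Lib.Hall.TwoClassSizes

set_option autoImplicit false
open Cfsg
open scoped commutatorElement

namespace Cfsg.Agent.S4321

open Subgroup

section

variable {G : Type*} [Group G]

/-- The class size. -/
noncomputable def ind (x : G) : ℕ := (Subgroup.centralizer ({x} : Set G)).index

theorem mem_cent {x g : G} : g ∈ Subgroup.centralizer ({x} : Set G) ↔ g * x = x * g :=
  mem_centralizer_singleton_iff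

theorem ind_dvd {a b : G} (h : ∀ g, Commute g a → Commute g b) : ind b ∣ ind a :=
  index_dvd_of_le fun g hg => mem_cent.2 (h g (mem_cent.1 hg))

theorem ind_pow_dvd (x : G) (m : ℕ) : ind (x ^ m) ∣ ind x := ind_dvd fun _ hg => hg.pow_right m

theorem commute_conj {x v : G} (g : G) (h : Commute x v) : Commute (g * x * g⁻¹) (g * v * g⁻¹) :=
  h.map (MulAut.conj g).toMonoidHom

theorem ind_conj (g x : G) : ind (g * x * g⁻¹) = ind x := by
  have : Subgroup.centralizer ({g * x * g⁻¹} : Set G) =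
      (Subgroup.centralizer ({x} : Set G)).map (MulAut.conj g).toMonoidHom := by
    ext z
    rw [mem_cent]
    constructor
    · intro h
      refine ⟨g⁻¹ * z * g, mem_cent.2 ?_, by simp [mul_assoc]⟩
      calc g⁻¹ * z * g * x = g⁻¹ * (z * (g * x * g⁻¹)) * g := by group
        _ = g⁻¹ * (g * x * g⁻¹ * z) * g := by rw [h]
        _ = x * (g⁻¹ * z * g) := by group
    · rintro ⟨w, hw, rfl⟩
      exact (commute_conj g (mem_cent.1 hw : Commute w x)).eq
  rw [ind, this]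
  exact Subgroup.index_map_equiv _ (MulAut.conj g)

variable [Finite G]

theorem factor {C D : Subgroup G} (h : C.index * D.index ≤ (C ⊓ D).index) (g : G) :
    ∃ c ∈ C, c⁻¹ * g ∈ D := by
  let f : G ⧸ (C ⊓ D) → (G ⧸ C) × (G ⧸ D) := fun q => Quotient.liftOn' q (fun a => ((a : G ⧸ C), (a : G ⧸ D)))
    fun a b hab => by
      rw [QuotientGroup.leftRel_apply] at hab
      exact Prod.ext (QuotientGroup.eq.2 hab.1) (QuotientGroup.eq.2 hab.2)
  have hf : Function.Injective f := by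
    intro a b
    induction a using QuotientGroup.induction_on
    induction b using QuotientGroup.induction_on
    intro hab
    exact QuotientGroup.eq.2 ⟨QuotientGroup.eq.1 (congrArg Prod.fst hab), QuotientGroup.eq.1 (congrArg Prod.snd hab)⟩
  obtain ⟨q, hq⟩ := (hf.bijective_of_nat_card_le (by rw [Nat.card_prod]; exact h)).2 (((1 : G) : G ⧸ C), (g : G ⧸ D))
  induction q using QuotientGroup.induction_on with
  | H c =>
    refine ⟨c, ?_, QuotientGroup.eq.1 (congrArg Prod.snd hq)⟩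
    simpa using QuotientGroup.eq.1 (congrArg Prod.fst hq)

theorem index_inf {x v : G} (h : (ind x).Coprime (ind v)) :
    (Subgroup.centralizer ({x} : Set G) ⊓ Subgroup.centralizer ({v} : Set G)).index = ind x * ind v :=
  le_antisymm index_inf_le (Nat.le_of_dvd (Nat.pos_of_ne_zero index_ne_zero_of_finite)
    (h.mul_dvd_of_dvd_of_dvd (index_dvd_of_le inf_le_left) (index_dvd_of_le inf_le_right)))

theorem conj_in_centralizer {x v : G} (h : (ind x).Coprime (ind v)) (g : G) :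
    ∃ c, Commute c x ∧ c * v * c⁻¹ = g * v * g⁻¹ := by
  obtain ⟨c, hc, hcg⟩ := factor (index_inf h).ge g
  refine ⟨c, mem_cent.1 hc, ?_⟩
  have h1 : c⁻¹ * g * v = v * (c⁻¹ * g) := mem_cent.1 hcg
  calc c * v * c⁻¹ = c * (v * (c⁻¹ * g)) * g⁻¹ := by group
    _ = g * v * g⁻¹ := by rw [← h1]; group

theorem all_commute {x v : G} (h : (ind x).Coprime (ind v)) (hxv : Commute x v) (g : G) :
    Commute x (g * v * g⁻¹) := by
  obtain ⟨c, hc, hcv⟩ := conj_in_centralizer h g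
  rw [← hcv]
  exact ((hc.symm.mul_right hxv).mul_right hc.symm.inv_right)

theorem ind_mul {x v : G} (hxv : Commute x v) (h : (ind x).Coprime (ind v)) :
    ind (x * v) ∣ ind x * ind v ∧
      (Subgroup.centralizer ({x * v} : Set G) ⊓ Subgroup.centralizer ({v} : Set G)).index = ind x * ind v := by
  have e : Subgroup.centralizer ({x * v} : Set G) ⊓ Subgroup.centralizer ({v} : Set G) =
      Subgroup.centralizer ({x} : Set G) ⊓ Subgroup.centralizer ({v} : Set G) := by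
    refine le_antisymm (le_inf (fun z hz => mem_cent.2 ?_) inf_le_right) (le_inf (fun z hz => mem_cent.2 ?_) inf_le_right)
    · have h1 : Commute z (x * v) := mem_cent.1 hz.1
      have h2 : Commute z v := mem_cent.1 hz.2
      have := h1.mul_right h2.inv_right
      rwa [mul_inv_cancel_right] at this
    · exact (Commute.mul_right (mem_cent.1 hz.1) (mem_cent.1 hz.2) : Commute z (x * v))
  exact ⟨by rw [← index_inf h, ← e]; exact index_dvd_of_le inf_le_left, by rw [e, index_inf h]⟩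

/-- If the product has the class size of the first factor, translation is possible inside the class. -/
theorem translate {a b : G} (hab : Commute a b) (hcop : (ind a).Coprime (ind b)) (hy : ind (a * b) = ind a)
    (g₀ g : G) : ∃ k, k * a * k⁻¹ = g * a * g⁻¹ * (b * (g₀ * b * g₀⁻¹)⁻¹) := by
  obtain ⟨c, hc, hca⟩ := conj_in_centralizer hcop.symm g
  obtain ⟨k, hk, hkd⟩ := factor (C := Subgroup.centralizer ({a * b} : Set G))
    (D := Subgroup.centralizer ({b} : Set G)) (by rw [(ind_mul hab hcop).2, ← hy]; rfl) (c⁻¹ * g₀)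
  refine ⟨c * k, ?_⟩
  have h1 : k⁻¹ * (c⁻¹ * g₀) * b = b * (k⁻¹ * (c⁻¹ * g₀)) := mem_cent.1 hkd
  have h2 : k * (a * b) = a * b * k := mem_cent.1 hk
  have h3 : k * b * k⁻¹ = c⁻¹ * (g₀ * b * g₀⁻¹) * c := by
    calc k * b * k⁻¹ = k * (b * (k⁻¹ * (c⁻¹ * g₀))) * g₀⁻¹ * c := by group
      _ = _ := by rw [← h1]; group
  rw [← hca]
  calc c * k * a * (c * k)⁻¹ = c * (k * (a * b) * k⁻¹ * (k * b * k⁻¹)⁻¹) * c⁻¹ := by group
    _ = c * (a * b * (c⁻¹ * (g₀ * b * g₀⁻¹) * c)⁻¹) * c⁻¹ := by rw [h2, h3, mul_inv_cancel_right]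
    _ = c * a * c⁻¹ * (c * b * c⁻¹ * (g₀ * b * g₀⁻¹)⁻¹) := by group
    _ = _ := by rw [hc.eq, mul_inv_cancel_right]

theorem dvd_ind {p : ℕ} [Fact p.Prime] {a d : G} (hd : d ^ p = 1) (hd1 : d ≠ 1)
    (hcl : ∀ g : G, ∃ k, k * a * k⁻¹ = g * a * g⁻¹ * d) : p ∣ ind a := by
  classical
  let S := {z : G // ∃ g : G, g * a * g⁻¹ = z}
  haveI := Fintype.ofFinite S
  let f : S → S := fun z => ⟨z.1 * d, by
    obtain ⟨g, hg⟩ := z.2
    obtain ⟨k, hk⟩ := hcl g
    exact ⟨k, by rw [hk, hg]⟩⟩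
  have hf : Function.Injective f := fun z z' h => Subtype.ext (mul_right_cancel (congrArg Subtype.val h))
  let σ : Equiv.Perm S := Equiv.ofBijective f (Finite.injective_iff_bijective.1 hf)
  have hσ : ∀ (n : ℕ) (z : S), ((σ ^ n) z).1 = z.1 * d ^ n := by
    intro n
    induction n with
    | zero => intro z; simp
    | succ n ih =>
      intro z
      rw [pow_succ', Equiv.Perm.mul_apply, pow_succ, ← mul_assoc, ← ih z]
      rfl
  have hσp : σ ^ p ^ 1 = 1 := by
    ext z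
    rw [pow_one, hσ, hd, mul_one]
    rfl
  have hfix : σ.supportᶜ = ∅ := by
    refine Finset.eq_empty_of_forall_notMem fun z hz => hd1 ?_
    rw [Finset.mem_compl, Equiv.Perm.notMem_support] at hz
    have : z.1 * d = z.1 := congrArg Subtype.val hz
    exact mul_eq_left.1 this
  have h := Equiv.Perm.card_compl_support_modEq hσp
  rw [hfix, Finset.card_empty] at h
  have hdvd : p ∣ Nat.card S := by rw [Nat.card_eq_fintype_card]; exact Nat.modEq_zero_iff_dvd.1 h.symm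
  have hS : Nat.card S = ind a := by
    rw [ind, ← Cfsg.Agent.Lib.GS.ncard_carrier_eq_index, ← Nat.card_coe_set_eq]
    refine Nat.card_congr (Equiv.subtypeEquivRight fun z => ?_)
    simp only [Set.mem_setOf_eq, ConjClasses.mem_carrier_iff_mk_eq, ConjClasses.mk_eq_mk_iff_isConj]
    rw [isConj_comm, isConj_iff]
  rwa [hS] at hdvd

variable {p : ℕ} [Fact p.Prime]

theorem ind_ne_one (hZ : ¬ p ∣ Nat.card (Subgroup.center G)) {v : G} (hv : orderOf v = p) : ind v ≠ 1 := by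
  intro h
  have hz : v ∈ Subgroup.center G := mem_center_iff.2 fun g => mem_cent.1 (by
    rw [show Subgroup.centralizer ({v} : Set G) = ⊤ from index_eq_one.1 h]; exact mem_top g)
  refine hZ ?_
  rw [← hv, ← Subgroup.orderOf_mk v hz]
  exact orderOf_dvd_natCard _

omit [Finite G] in
theorem pgroup_zpowers {v : G} (hv : orderOf v = p) : IsPGroup p (Subgroup.zpowers v) :=
  IsPGroup.of_card (n := 1) (by rw [Nat.card_zpowers, hv, pow_one])

theorem exists_sylow_le {x : G} (hx : ¬ p ∣ ind x) : ∃ P : Sylow p G, (P : Subgroup G) ≤ Subgroup.centralizer ({x} : Set G) := by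
  obtain ⟨P⟩ := (inferInstance : Nonempty (Sylow p ↥(Subgroup.centralizer ({x} : Set G))))
  have hPG : IsPGroup p ↥((P : Subgroup _).map (Subgroup.centralizer ({x} : Set G)).subtype) := P.2.map _
  have hPidx : ¬ p ∣ ((P : Subgroup _).map (Subgroup.centralizer ({x} : Set G)).subtype).index := by
    rw [Subgroup.index_map_subtype]
    intro h
    rcases (Fact.out : p.Prime).dvd_mul.1 h with h | h
    · exact P.not_dvd_index h
    · exact hx h
  exact ⟨hPG.toSylow hPidx, Subgroup.map_subtype_le _⟩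

theorem exists_conj_commute {x u : G} (hx : ¬ p ∣ ind x) (hu : orderOf u = p) :
    ∃ g : G, Commute x (g * u * g⁻¹) := by
  obtain ⟨P, hP⟩ := exists_sylow_le hx
  obtain ⟨Q, hQ⟩ := (pgroup_zpowers hu).exists_le_sylow
  obtain ⟨g, hg⟩ := MulAction.exists_smul_eq G Q P
  refine ⟨g, (mem_cent.1 (hP ?_)).symm⟩
  rw [← hg, Sylow.coe_subgroup_smul]
  exact ⟨u, hQ (Subgroup.mem_zpowers u), rfl⟩

theorem sing_mul (hZ : ¬ p ∣ Nat.card (Subgroup.center G)) {x v : G} (hv : orderOf v = p) (hxv : Commute x v)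
    (h : (ind x).Coprime (ind v)) : p ∣ orderOf (x * v) := by
  have hp : p.Prime := Fact.out
  by_contra hn
  have hc : (orderOf (x * v)).Coprime p := (hp.coprime_iff_not_dvd.2 hn).symm
  have h1 : v ^ orderOf (x * v) = (x ^ orderOf (x * v))⁻¹ := by
    rw [eq_inv_iff_mul_eq_one, (hxv.symm.pow_pow _ _).eq, ← hxv.mul_pow, pow_orderOf_eq_one]
  obtain ⟨j, hj⟩ := exists_pow_eq_self_of_coprime (x := v) (n := orderOf (x * v)) (by rw [hv]; exact hc)
  refine ind_ne_one hZ hv (Nat.eq_one_of_dvd_coprimes h ?_ dvd_rfl)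
  rw [← hj, h1]
  exact ind_dvd fun g hg => ((hg.pow_right _).inv_right).pow_right _

/-- The central step: a class divisible by `p` and sharing a prime with a class of size prime to `p`. -/
theorem core (hZ : ¬ p ∣ Nat.card (Subgroup.center G)) {u : G} (hu : orderOf u = p) (hpA : ¬ p ∣ ind u)
    (hcomm : ∀ g : G, Commute u (g * u * g⁻¹)) (hv : ∃ v : G, orderOf v = p ∧ p ∣ ind v) :
    ∃ y : G, p ∣ orderOf y ∧ p ∣ ind y ∧ ¬ (ind y).Coprime (ind u) := by
  classical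
  have hp : p.Prime := Fact.out
  have hA1 : ind u ≠ 1 := ind_ne_one hZ hu
  by_contra hF
  push Not at hF
  set L := Subgroup.centralizer ({u} : Set G) with hLdef
  obtain ⟨P₀, hP₀⟩ := exists_sylow_le (p := p) hpA
  -- `p'`-elements of `L` are centralized by a Sylow subgroup
  have hk : ∀ k ∈ L, ¬ p ∣ orderOf k → ∃ Q : Sylow p G, (Q : Subgroup G) ≤ L ∧
      (Q : Subgroup G) ≤ Subgroup.centralizer ({k} : Set G) := by
    intro k hkL hkp
    have hku : Commute k u := mem_cent.1 hkL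
    have hc : (orderOf u).Coprime (orderOf k) := by rw [hu]; exact hp.coprime_iff_not_dvd.2 hkp
    have ho : p ∣ orderOf (u * k) := by
      rw [hku.symm.orderOf_mul_eq_mul_orderOf_of_coprime hc, hu]
      exact dvd_mul_right _ _
    obtain ⟨i, hi⟩ := exists_pow_eq_self_of_coprime (x := u) (n := orderOf k) hc.symm
    have hgu : ∀ g, Commute g (u * k) → Commute g u := fun g hg => by
      have h1 : Commute g ((u * k) ^ orderOf k) := hg.pow_right _
      rw [hku.symm.mul_pow, pow_orderOf_eq_one, mul_one] at h1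
      rw [← hi]
      exact h1.pow_right _
    have hny : ¬ p ∣ ind (u * k) := fun h => hA1 (Nat.eq_one_of_dvd_coprimes (hF _ ho h) (ind_dvd hgu) dvd_rfl)
    obtain ⟨Q, hQ⟩ := exists_sylow_le hny
    refine ⟨Q, fun g hg => mem_cent.2 (hgu g (mem_cent.1 (hQ hg))), fun g hg => mem_cent.2 ?_⟩
    have h1 : Commute g (u * k) := mem_cent.1 (hQ hg)
    have := (hgu g h1).inv_right.mul_right h1
    rwa [inv_mul_cancel_left] at this
  -- hence the Sylow subgroup is normal in `L`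
  set P : Subgroup ↥L := (P₀ : Subgroup G).subgroupOf L with hPdef
  have hPp : IsPGroup p P := P₀.2.comap_subtype
  have hJ : Subgroup.normalizer (P : Set ↥L) = ⊤ := by
    by_contra hne
    obtain ⟨l, hl⟩ := Cfsg.Agent.Lib.Hall.TwoClass.exists_not_conj_mem hne
    -- split `l` into commuting parts
    set e := (orderOf l).factorization p
    set s := orderOf l / p ^ e
    have hsd : s ∣ orderOf l := Nat.ordCompl_dvd _ _
    have hps : p ^ e * s = orderOf l := Nat.ordProj_mul_ordCompl_eq_self _ _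
    have hcop : (p ^ e).Coprime s :=
      Nat.Coprime.pow_left e (hp.coprime_iff_not_dvd.mpr (Nat.not_dvd_ordCompl hp (orderOf_pos l).ne'))
    have hkp : ¬ p ∣ orderOf ((l ^ p ^ e : ↥L) : G) := by
      rw [orderOf_coe]
      intro h
      have h1 : orderOf (l ^ p ^ e) ∣ s := orderOf_dvd_of_pow_eq_one (by rw [← pow_mul, hps, pow_orderOf_eq_one])
      exact Nat.not_dvd_ordCompl hp (orderOf_pos l).ne' (h.trans h1)
    obtain ⟨Q, hQL, hQk⟩ := hk _ (l ^ p ^ e).2 hkp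
    obtain ⟨i, j, hij⟩ : ∃ i j : ℤ, (p ^ e : ℕ) * i + (s : ℤ) * j = 1 :=
      ⟨_, _, by rw [← Nat.gcd_eq_gcd_ab, hcop]; rfl⟩
    have hlsplit : l = (l ^ p ^ e) ^ i * (l ^ s) ^ j := by
      conv_lhs => rw [← zpow_one l, ← hij, zpow_add, zpow_mul, zpow_mul, zpow_natCast, zpow_natCast]
    have hws : IsPGroup p (Subgroup.zpowers (l ^ s)) := IsPGroup.of_card (n := e) (by
      rw [Nat.card_zpowers, orderOf_pow_of_dvd (fun h0 => (orderOf_pos l).ne' (by rw [← hps, h0, mul_zero])) hsd]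
      exact Nat.div_eq_of_eq_mul_left (Nat.pos_of_ne_zero fun h0 => (orderOf_pos l).ne' (by rw [← hps, h0, mul_zero]))
        hps.symm)
    set D := Subgroup.centralizer ({(l ^ p ^ e : ↥L)} : Set ↥L) with hD
    have hwD : Subgroup.zpowers (l ^ s) ≤ D := Subgroup.zpowers_le.2 (mem_centralizer_singleton_iff.2
      ((Commute.refl l).pow_pow _ _))
    have hQD : (Q : Subgroup G).subgroupOf L ≤ D := fun z hz =>
      mem_centralizer_singleton_iff.2 (Subtype.ext (mem_cent.1 (hQk hz)))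
    obtain ⟨R, hR⟩ := (hws.comap_subtype (K := D)).exists_le_sylow
    let QL : Sylow p ↥L := Sylow.subtype Q hQL
    let QD : Sylow p ↥D := Sylow.subtype QL hQD
    obtain ⟨d, hd⟩ := MulAction.exists_smul_eq ↥D R QD
    let PL : Sylow p ↥L := Sylow.subtype P₀ hP₀
    obtain ⟨m, hm⟩ := MulAction.exists_smul_eq ↥L QL PL
    set w := m * (d : ↥L) with hw
    refine hl w⁻¹ ?_
    have hdk : Commute (d : ↥L) (l ^ p ^ e) := mem_centralizer_singleton_iff.1 d.2
    have hmemQ : (d : ↥L) * l ^ s * (d : ↥L)⁻¹ ∈ (QL : Subgroup ↥L) := by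
      have h1 : (⟨l ^ s, hwD (Subgroup.mem_zpowers _)⟩ : ↥D) ∈ (R : Subgroup ↥D) :=
        hR (Subgroup.mem_subgroupOf.2 (Subgroup.mem_zpowers _))
      have h2 : d * ⟨l ^ s, hwD (Subgroup.mem_zpowers _)⟩ * d⁻¹ ∈ ((d • R : Sylow p ↥D) : Subgroup ↥D) := by
        rw [Sylow.coe_subgroup_smul]
        exact ⟨_, h1, rfl⟩
      rw [hd] at h2
      exact h2
    have hs1 : w * l ^ s * w⁻¹ ∈ P := by
      have h2 : m * ((d : ↥L) * l ^ s * (d : ↥L)⁻¹) * m⁻¹ ∈ ((m • QL : Sylow p ↥L) : Subgroup ↥L) := by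
        rw [Sylow.coe_subgroup_smul]
        exact ⟨_, hmemQ, rfl⟩
      rw [hm] at h2
      have h3 : w * l ^ s * w⁻¹ = m * ((d : ↥L) * l ^ s * (d : ↥L)⁻¹) * m⁻¹ := by rw [hw]; group
      rw [h3]; exact h2
    have hk1 : w * l ^ p ^ e * w⁻¹ ∈ Subgroup.normalizer (P : Set ↥L) := by
      have hcent : ∀ q ∈ P, Commute (w * l ^ p ^ e * w⁻¹) q := by
        intro q hq
        have hq' : q ∈ ((m • QL : Sylow p ↥L) : Subgroup ↥L) := by rw [hm]; exact hq
        rw [Sylow.coe_subgroup_smul] at hq'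
        obtain ⟨q', hq'', rfl⟩ := hq'
        have he : w * l ^ p ^ e * w⁻¹ = m * l ^ p ^ e * m⁻¹ := by
          rw [hw, _root_.mul_inv_rev, mul_assoc m (d : ↥L), hdk.eq]; group
        rw [he]
        exact commute_conj m ((mem_centralizer_singleton_iff.1 (hQD hq'') : Commute q' (l ^ p ^ e)).symm)
      refine Subgroup.mem_normalizer_iff.2 fun q => ⟨fun hq => ?_, fun hq => ?_⟩
      · rw [(hcent q hq).eq, mul_inv_cancel_right]; exact hq
      · set k := w * l ^ p ^ e * w⁻¹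
        have h := (hcent _ hq).inv_left.eq
        have : q = k * q * k⁻¹ := by
          calc q = k⁻¹ * (k * q * k⁻¹) * k := by group
            _ = k * q * k⁻¹ * k⁻¹ * k := by rw [h]
            _ = _ := by group
        rw [this]; exact hq
    have hconj : ∀ (z : ↥L) (n : ℤ), w * z ^ n * w⁻¹ = (w * z * w⁻¹) ^ n := fun z n => (conj_zpow (a := w) (b := z) (i := n)).symm
    rw [inv_inv, hlsplit]
    rw [show w * ((l ^ p ^ e) ^ i * (l ^ s) ^ j) * w⁻¹ = (w * (l ^ p ^ e) ^ i * w⁻¹) * (w * (l ^ s) ^ j * w⁻¹) by group,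
      hconj, hconj]
    exact mul_mem (zpow_mem hk1 i) (zpow_mem (Subgroup.le_normalizer hs1) j)
  haveI hPn : P.Normal := Subgroup.normalizer_eq_top_iff.1 hJ
  have hPL : ∀ Q : Subgroup G, IsPGroup p Q → Q ≤ L → Q ≤ (P₀ : Subgroup G) := by
    intro Q hQ hQL z hz
    have hle : P ≤ Q.subgroupOf L ⊔ P := le_sup_right
    have hsup : IsPGroup p ↥(Q.subgroupOf L ⊔ P) := hQ.comap_subtype.to_sup_of_normal_right hPp
    have := (Sylow.subtype P₀ hP₀).3 hsup hle
    exact (this.le (Subgroup.mem_sup_left (Subgroup.mem_subgroupOf.2 hz : (⟨z, hQL hz⟩ : ↥L) ∈ Q.subgroupOf L)) :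
      (⟨z, hQL hz⟩ : ↥L) ∈ (Sylow.subtype P₀ hP₀ : Subgroup ↥L))
  -- every element of the Sylow subgroup centralizes the class of `u`
  have hPu : ∀ h ∈ (P₀ : Subgroup G), ∀ g : G, Commute h (g * u * g⁻¹) := by
    intro h hh g
    rcases eq_or_ne h 1 with rfl | h1
    · exact Commute.one_left _
    have hhp : p ∣ orderOf h := by
      obtain ⟨n, hn⟩ := P₀.2 ⟨h, hh⟩
      obtain ⟨i, -, hi⟩ := (Nat.dvd_prime_pow hp).1 (orderOf_dvd_of_pow_eq_one (congrArg Subtype.val hn : h ^ p ^ n = 1))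
      rw [hi]
      refine dvd_pow_self p fun h0 => h1 (orderOf_eq_one_iff.1 (by rw [hi, h0, pow_zero]))
    by_cases hph : p ∣ ind h
    · exact all_commute (hF h hhp hph) (mem_cent.1 (hP₀ hh)) g
    · obtain ⟨Q, hQ⟩ := exists_sylow_le hph
      refine ((mem_cent.1 (hQ ?_)) : Commute (g * u * g⁻¹) h).symm
      set U := Subgroup.closure {z : G | ∃ g : G, g * u * g⁻¹ = z} with hU
      haveI : IsMulCommutative U := Subgroup.isMulCommutative_closure (by
        rintro _ ⟨a, rfl⟩ _ ⟨b, rfl⟩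
        have := commute_conj a (hcomm (a⁻¹ * b))
        rw [show a * (a⁻¹ * b * u * (a⁻¹ * b)⁻¹) * a⁻¹ = b * u * b⁻¹ by group] at this
        exact this.eq)
      haveI : U.Normal := ⟨fun z hz c => by
        have : U.map (MulAut.conj c).toMonoidHom ≤ U := by
          rw [hU, MonoidHom.map_closure, Subgroup.closure_le]
          rintro _ ⟨_, ⟨a, rfl⟩, rfl⟩
          exact Subgroup.subset_closure ⟨c * a, by simp [mul_assoc]⟩
        exact this ⟨z, hz, rfl⟩⟩
      have hUp : IsPGroup p U := by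
        intro z
        refine ⟨1, Subtype.ext ?_⟩
        rw [pow_one]
        obtain ⟨z, hz⟩ := z
        show z ^ p = 1
        induction hz using Subgroup.closure_induction with
        | mem z hz =>
          obtain ⟨a, rfl⟩ := hz
          rw [conj_pow, ← hu, pow_orderOf_eq_one, mul_one, mul_inv_cancel]
        | one => exact one_pow p
        | mul a b ha hb iha ihb =>
          rw [(show Commute a b from congrArg Subtype.val (IsMulCommutative.is_comm.comm (⟨a, ha⟩ : U) ⟨b, hb⟩)).mul_pow, iha, ihb, one_mul]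
        | inv a _ ih => rw [inv_pow, ih, inv_one]
      have := Q.3 (Q.2.to_sup_of_normal_right hUp) le_sup_left
      rw [← this]
      exact Subgroup.mem_sup_right (Subgroup.subset_closure ⟨g, rfl⟩)
  have hPnG : ∀ g : G, ∀ z ∈ (P₀ : Subgroup G), g * z * g⁻¹ ∈ (P₀ : Subgroup G) := by
    intro g z hz
    refine hPL ((P₀ : Subgroup G).map (MulAut.conj g).toMonoidHom) (P₀.2.map _) ?_ ⟨z, hz, rfl⟩
    rintro _ ⟨z', hz', rfl⟩
    have := commute_conj g (hPu z' hz' g⁻¹)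
    rw [show g * (g⁻¹ * u * g⁻¹⁻¹) * g⁻¹ = u by group] at this
    exact mem_cent.2 this.eq
  have hSyl : ∀ Q : Sylow p G, (Q : Subgroup G) = P₀ := fun Q => by
    haveI : (P₀ : Subgroup G).Normal := ⟨fun n hn g => hPnG g n hn⟩
    haveI := Sylow.unique_of_normal P₀ this
    rw [Subsingleton.elim Q P₀]
  -- `L` is the product of `P₀` and its centralizer
  have hLdec : ∀ l ∈ L, ∃ ρ ∈ (P₀ : Subgroup G), ∀ z ∈ (P₀ : Subgroup G), Commute (ρ⁻¹ * l) z := by
    intro l hl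
    set e := (orderOf l).factorization p
    set s := orderOf l / p ^ e
    have hps : p ^ e * s = orderOf l := Nat.ordProj_mul_ordCompl_eq_self _ _
    have hns : ¬ p ∣ s := Nat.not_dvd_ordCompl hp (orderOf_pos l).ne'
    have hcop : (p ^ e).Coprime s := Nat.Coprime.pow_left e (hp.coprime_iff_not_dvd.mpr hns)
    obtain ⟨i, j, hij⟩ : ∃ i j : ℤ, (p ^ e : ℕ) * i + (s : ℤ) * j = 1 :=
      ⟨_, _, by rw [← Nat.gcd_eq_gcd_ab, hcop]; rfl⟩
    have hkp : ¬ p ∣ orderOf (l ^ p ^ e) := fun h =>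
      hns (h.trans (orderOf_dvd_of_pow_eq_one (by rw [← pow_mul, hps, pow_orderOf_eq_one])))
    obtain ⟨Q, -, hQ⟩ := hk _ (pow_mem hl _) hkp
    rw [hSyl Q] at hQ
    have hρ : l ^ s ∈ (P₀ : Subgroup G) := by
      refine hPL (Subgroup.zpowers (l ^ s)) (fun z => ⟨e, ?_⟩) (Subgroup.zpowers_le.2 (pow_mem hl _)) (Subgroup.mem_zpowers _)
      obtain ⟨n, hn⟩ := Subgroup.mem_zpowers_iff.1 z.2
      refine Subtype.ext ?_
      rw [Subgroup.coe_pow, Subgroup.coe_one, ← hn, ← zpow_natCast ((l ^ s) ^ n), ← zpow_mul, mul_comm, zpow_mul,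
        zpow_natCast, ← pow_mul, mul_comm s, hps, pow_orderOf_eq_one, one_zpow]
    refine ⟨(l ^ s) ^ j, zpow_mem hρ j, fun z hz => ?_⟩
    have hlsplit : ((l ^ s) ^ j)⁻¹ * l = (l ^ p ^ e) ^ i := by
      rw [inv_mul_eq_iff_eq_mul, ← zpow_natCast l, ← zpow_natCast l, ← zpow_mul, ← zpow_mul, ← zpow_add,
        add_comm, hij, zpow_one]
    rw [hlsplit]
    exact (show Commute z (l ^ p ^ e) from mem_cent.1 (hQ hz)).symm.zpow_left i
  -- classes inside `P₀` outside its centre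
  have hcls : ∀ h ∈ (P₀ : Subgroup G), (¬ ∀ z ∈ (P₀ : Subgroup G), Commute z h) → ∀ g : G,
      ∃ ρ ∈ (P₀ : Subgroup G), ρ * h * ρ⁻¹ = g * h * g⁻¹ := by
    intro h hh hnc g
    have hhp : p ∣ orderOf h := by
      obtain ⟨n, hn⟩ := P₀.2 ⟨h, hh⟩
      obtain ⟨i, -, hi⟩ := (Nat.dvd_prime_pow hp).1 (orderOf_dvd_of_pow_eq_one (congrArg Subtype.val hn : h ^ p ^ n = 1))
      rw [hi]
      refine dvd_pow_self p fun h0 => hnc ?_
      rw [h0, pow_zero, orderOf_eq_one_iff] at hi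
      exact fun z _ => by rw [show h = 1 from hi]; exact Commute.one_right z
    have hph : p ∣ ind h := by
      by_contra hph
      obtain ⟨Q, hQ⟩ := exists_sylow_le hph
      rw [hSyl Q] at hQ
      exact hnc fun z hz => mem_cent.1 (hQ hz)
    obtain ⟨c, hc, hcg⟩ := factor (index_inf (hF h hhp hph).symm).ge g
    obtain ⟨ρ, hρ, hρc⟩ := hLdec c hc
    refine ⟨ρ, hρ, ?_⟩
    have h1 : c⁻¹ * g * h = h * (c⁻¹ * g) := mem_cent.1 hcg
    calc ρ * h * ρ⁻¹ = ρ * (h * (ρ⁻¹ * c)) * c⁻¹ := by group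
      _ = c * (h * (c⁻¹ * g)) * g⁻¹ := by rw [← (hρc h hh).eq]; group
      _ = g * h * g⁻¹ := by rw [← h1]; group
  -- a second centre element outside the centre
  obtain ⟨v, hv, hpv⟩ := hv
  haveI hPnormal : (P₀ : Subgroup G).Normal := ⟨fun n hn g => hPnG g n hn⟩
  have hvP : v ∈ (P₀ : Subgroup G) := by
    obtain ⟨Q, hQ⟩ := (pgroup_zpowers hv).exists_le_sylow
    rw [← hSyl Q]
    exact hQ (Subgroup.mem_zpowers v)
  set Z := Subgroup.center ↥(P₀ : Subgroup G) with hZdef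
  haveI : Nontrivial (↥(P₀ : Subgroup G) ⧸ Z) := by
    refine ⟨⟨((⟨v, hvP⟩ : ↥(P₀ : Subgroup G)) : _ ⧸ Z), 1, fun h => ?_⟩⟩
    have hz := (QuotientGroup.eq_one_iff _).1 h
    obtain ⟨Q, hQ⟩ : ∃ Q : Sylow p G, (Q : Subgroup G) ≤ Subgroup.centralizer ({v} : Set G) :=
      ⟨P₀, fun z hz' => mem_cent.2 (congrArg Subtype.val (Subgroup.mem_center_iff.1 hz ⟨z, hz'⟩))⟩
    exact P₀.not_dvd_index (hpv.trans (Subgroup.index_dvd_of_le (hSyl Q ▸ hQ)))
  haveI := (P₀.2.to_quotient Z).center_nontrivial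
  obtain ⟨⟨hq, hqc⟩, hq1⟩ := exists_ne (1 : Subgroup.center (↥(P₀ : Subgroup G) ⧸ Z))
  obtain ⟨h, rfl⟩ := QuotientGroup.mk_surjective hq
  have hhnc : ¬ ∀ z ∈ (P₀ : Subgroup G), Commute z (h : G) := fun hall => hq1 (Subtype.ext
    ((QuotientGroup.eq_one_iff h).2 (Subgroup.mem_center_iff.2 fun z => Subtype.ext (hall z z.2))))
  have hI : ∀ π ∈ (P₀ : Subgroup G), ∀ z ∈ (P₀ : Subgroup G), Commute z ⁅π, (h : G)⁆ := by
    intro π hπ z hz
    have hmem : ⁅(⟨π, hπ⟩ : ↥(P₀ : Subgroup G)), h⁆ ∈ Z := by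
      rw [← QuotientGroup.eq_one_iff]
      have := Subgroup.mem_center_iff.1 hqc ((⟨π, hπ⟩ : ↥(P₀ : Subgroup G)) : _ ⧸ Z)
      rw [show ((⁅(⟨π, hπ⟩ : ↥(P₀ : Subgroup G)), h⁆ : ↥(P₀ : Subgroup G)) : _ ⧸ Z) =
        ⁅((⟨π, hπ⟩ : ↥(P₀ : Subgroup G)) : _ ⧸ Z), (h : _ ⧸ Z)⁆ from rfl,
        commutatorElement_eq_one_iff_mul_comm]
      exact this
    exact congrArg Subtype.val (Subgroup.mem_center_iff.1 hmem ⟨z, hz⟩)
  obtain ⟨π, hπ, hne⟩ : ∃ π ∈ (P₀ : Subgroup G), ¬ Commute π (h : G) := by simpa using hhnc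
  set m := ⁅π, (h : G)⁆ with hmdef
  have hm1 : m ≠ 1 := fun e => hne (commutatorElement_eq_one_iff_mul_comm.1 e)
  have hmP : m ∈ (P₀ : Subgroup G) := by
    rw [hmdef, commutatorElement_def]
    exact mul_mem (mul_mem (mul_mem hπ h.2) (inv_mem hπ)) (inv_mem h.2)
  have hgm : ∀ g : G, Commute g m := by
    intro g
    have hπnc : ¬ ∀ z ∈ (P₀ : Subgroup G), Commute z π := fun hall => hne (hall (h : G) h.2).symm
    obtain ⟨ρ, hρ, hρe⟩ := hcls π hπ hπnc g
    obtain ⟨σ, hσ, hσe⟩ := hcls (h : G) h.2 hhnc g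
    set cσ := ⁅σ, (h : G)⁆ with hcσ
    set cρ := ⁅ρ, (h : G)⁆ with hcρ
    have hcσP := hI σ hσ
    have hcρP := hI ρ hρ
    have e1 : g * (h : G) * g⁻¹ = cσ * (h : G) := by
      rw [← hσe, hcσ, commutatorElement_def]; group
    have hcσh : Commute cσ (h : G) := (hcσP (h : G) h.2).symm
    have hP1 : ρ * π * ρ⁻¹ ∈ (P₀ : Subgroup G) := hPnG ρ π hπ
    have e2 : g * m * g⁻¹ = ⁅ρ * π * ρ⁻¹, cσ * (h : G)⁆ := by
      rw [← e1, hρe, hmdef, conjugate_commutatorElement]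
    have e3 : ⁅ρ * π * ρ⁻¹, cσ * (h : G)⁆ = ⁅ρ * π * ρ⁻¹, (h : G)⁆ := by
      have hc : Commute (ρ * π * ρ⁻¹) cσ := hcσP _ hP1
      generalize ρ * π * ρ⁻¹ = a at hc hP1 ⊢
      rw [commutatorElement_def, commutatorElement_def, _root_.mul_inv_rev]
      calc a * (cσ * (h : G)) * a⁻¹ * ((h : G)⁻¹ * cσ⁻¹)
          = (a * cσ) * (h : G) * a⁻¹ * ((h : G)⁻¹ * cσ⁻¹) := by group
        _ = cσ * (a * (h : G) * a⁻¹ * (h : G)⁻¹) * cσ⁻¹ := by rw [hc.eq]; group
        _ = cσ * ⁅a, (h : G)⁆ * cσ⁻¹ := by rw [commutatorElement_def]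
        _ = _ := by
          rw [(hI _ hP1 cσ (by
            rw [hcσ, commutatorElement_def]
            exact mul_mem (mul_mem (mul_mem hσ h.2) (inv_mem hσ)) (inv_mem h.2))).eq,
            mul_inv_cancel_right, commutatorElement_def]
    have e4 : ⁅ρ * π * ρ⁻¹, (h : G)⁆ = m := by
      have c1 : Commute ρ m := hI π hπ ρ hρ
      have c2 : Commute ρ⁻¹ ⁅ρ⁻¹, (h : G)⁆ := hI ρ⁻¹ (inv_mem hρ) _ (inv_mem hρ)
      calc ⁅ρ * π * ρ⁻¹, (h : G)⁆
          = ρ * (π * ⁅ρ⁻¹, (h : G)⁆ * π⁻¹) * ρ⁻¹ * (ρ * m * ρ⁻¹) * cρ := by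
            simp only [hmdef, hcρ, commutatorElement_def]; group
        _ = ρ * ⁅ρ⁻¹, (h : G)⁆ * ρ⁻¹ * m * cρ := by
            rw [(hI ρ⁻¹ (inv_mem hρ) π hπ).eq, mul_inv_cancel_right, c1.eq, mul_inv_cancel_right]
        _ = ⁅ρ⁻¹, (h : G)⁆ * cρ * m := by
            rw [(hI ρ⁻¹ (inv_mem hρ) ρ hρ).eq, mul_inv_cancel_right, mul_assoc, (hcρP m hmP).eq, ← mul_assoc]
        _ = m := by
            have : ρ * ⁅ρ⁻¹, (h : G)⁆ * ρ⁻¹ * cρ = 1 := by
              simp only [hcρ, commutatorElement_def]; group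
            rw [(hI ρ⁻¹ (inv_mem hρ) ρ hρ).eq, mul_inv_cancel_right] at this
            rw [this, one_mul]
    have : g * m * g⁻¹ = m := by rw [e2, e3, e4]
    exact mul_inv_eq_iff_eq_mul.1 this
  have hmz : m ∈ Subgroup.center G := Subgroup.mem_center_iff.2 fun g => (hgm g).eq
  obtain ⟨n, hn⟩ := P₀.2 ⟨m, hmP⟩
  have hd : orderOf m ∣ p ^ n := orderOf_dvd_of_pow_eq_one (congrArg Subtype.val hn)
  obtain ⟨i, -, hi⟩ := (Nat.dvd_prime_pow hp).1 hd
  refine hZ (((dvd_pow_self p fun h0 : i = 0 => hm1 (orderOf_eq_one_iff.1 (by rw [hi, h0, pow_zero]))).trans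
    (dvd_of_eq hi.symm)).trans ?_)
  rw [← Subgroup.orderOf_mk m hmz]
  exact orderOf_dvd_natCard _

/-- The path between two primes. -/
def Path (p r s : ℕ) (G : Type*) [Group G] : Prop :=
  (∃ x : G, p ∣ orderOf x ∧ r * s ∣ ind x) ∨
    (∃ t : ℕ, (t.Prime ∧ ∃ x : G, p ∣ orderOf x ∧ t ∣ ind x) ∧ t ≠ r ∧ t ≠ s ∧
      (∃ x : G, p ∣ orderOf x ∧ r * t ∣ ind x) ∧ (∃ x : G, p ∣ orderOf x ∧ t * s ∣ ind x)) ∨
    ∃ t u : ℕ, (t.Prime ∧ ∃ x : G, p ∣ orderOf x ∧ t ∣ ind x) ∧ (u.Prime ∧ ∃ x : G, p ∣ orderOf x ∧ u ∣ ind x) ∧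
      t ≠ r ∧ u ≠ s ∧ t ≠ u ∧ (∃ x : G, p ∣ orderOf x ∧ r * t ∣ ind x) ∧
      (∃ x : G, p ∣ orderOf x ∧ t * u ∣ ind x) ∧ (∃ x : G, p ∣ orderOf x ∧ u * s ∣ ind x)

omit [Finite G] [Fact p.Prime] in
theorem Path.symm {r s : ℕ} (h : Path p r s G) : Path p s r G := by
  rcases h with h | ⟨t, ht, h1, h2, h3, h4⟩ | ⟨t, u, ht, hu, h1, h2, h3, h4, h5, h6⟩
  · exact Or.inl (by simpa [mul_comm] using h)
  · exact Or.inr (Or.inl ⟨t, ht, h2, h1, by simpa [mul_comm] using h4, by simpa [mul_comm] using h3⟩)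
  · exact Or.inr (Or.inr ⟨u, t, hu, ht, h2, h1, h3.symm, by simpa [mul_comm] using h6,
      by simpa [mul_comm] using h5, by simpa [mul_comm] using h4⟩)

omit [Finite G] [Fact p.Prime] in
/-- Chaining edges. -/
theorem path_of_chain {r s t w : ℕ} (hr : r.Prime) (hs : s.Prime) (ht : t.Prime) (hw : w.Prime)
    {x y x' : G} (hx : p ∣ orderOf x) (hy : p ∣ orderOf y) (hx' : p ∣ orderOf x') (h1 : r ∣ ind x) (h2 : t ∣ ind x)
    (h3 : t ∣ ind y) (h4 : w ∣ ind y) (h5 : w ∣ ind x') (h6 : s ∣ ind x') (hrs : r ≠ s) (hrw : r ≠ w) (htw : t ≠ w) :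
    Path p r s G := by
  have mul : ∀ {a b n : ℕ}, a.Prime → b.Prime → a ≠ b → a ∣ n → b ∣ n → a * b ∣ n := fun ha hb hab h h' =>
    ((Nat.coprime_primes ha hb).2 hab).mul_dvd_of_dvd_of_dvd h h'
  by_cases htr : t = r
  · subst htr
    by_cases hws : w = s
    · subst hws
      exact Or.inl ⟨y, hy, mul hr hs hrs h3 h4⟩
    · exact Or.inr (Or.inl ⟨w, ⟨hw, y, hy, h4⟩, hrw.symm, hws, ⟨y, hy, mul hr hw hrw h3 h4⟩,
        ⟨x', hx', mul hw hs hws h5 h6⟩⟩)
  · by_cases hts : t = s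
    · subst hts
      exact Or.inl ⟨x, hx, mul hr hs hrs h1 h2⟩
    · by_cases hws : w = s
      · subst hws
        exact Or.inr (Or.inl ⟨t, ⟨ht, y, hy, h3⟩, htr, hts, ⟨x, hx, mul hr ht (Ne.symm htr) h1 h2⟩,
          ⟨y, hy, mul ht hw htw h3 h4⟩⟩)
      · exact Or.inr (Or.inr ⟨t, w, ⟨ht, y, hy, h3⟩, ⟨hw, y, hy, h4⟩, htr, hws, htw,
          ⟨x, hx, mul hr ht (Ne.symm htr) h1 h2⟩, ⟨y, hy, mul ht hw htw h3 h4⟩,
          ⟨x', hx', mul hw hs hws h5 h6⟩⟩)

theorem main (hZ : ¬ p ∣ Nat.card (Subgroup.center G)) {r s : ℕ} (hr : r.Prime) (hs : s.Prime) (hrs : r ≠ s)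
    {x x' : G} (hx : p ∣ orderOf x) (hx' : p ∣ orderOf x') (hrx : r ∣ ind x) (hsx : s ∣ ind x')
    (hcop : (ind x).Coprime (ind x')) (hpA : ¬ p ∣ ind x) : Path p r s G := by
  have hp : p.Prime := Fact.out
  obtain ⟨v₀, hv₀, hv₀d⟩ : ∃ v, orderOf v = p ∧ ind v ∣ ind x' :=
    ⟨x' ^ (orderOf x' / p), orderOf_pow_orderOf_div (orderOf_pos x').ne' hx', ind_pow_dvd _ _⟩
  obtain ⟨g, hxv⟩ := exists_conj_commute hpA hv₀
  set v := g * v₀ * g⁻¹ with hvdef
  have hv : orderOf v = p := by rw [hvdef, ← MulAut.conj_apply, MulEquiv.orderOf_eq, hv₀]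
  have hbB : ind v ∣ ind x' := by rw [hvdef, ind_conj]; exact hv₀d
  have hAb : (ind x).Coprime (ind v) := hcop.coprime_dvd_right hbB
  have hy : p ∣ orderOf (x * v) := sing_mul hZ hv hxv hAb
  have hvp : v ^ p = 1 := by rw [← hv]; exact pow_orderOf_eq_one v
  have hxall := all_commute hAb hxv
  obtain ⟨hyd, hyi⟩ := ind_mul hxv hAb
  have hge : ∀ {a b : ℕ}, a ∣ ind x * ind v → a.Coprime b → (b = ind v → a ∣ ind x) := fun h hc e =>
    (e ▸ hc).dvd_of_dvd_mul_right h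
  by_cases hcb : (ind (x * v)).Coprime (ind v)
  · -- translation contradicts `p ∤ ind x`
    exfalso
    have hdA : ind (x * v) ∣ ind x := hcb.dvd_of_dvd_mul_right hyd
    have heq : ind (x * v) = ind x := by
      refine le_antisymm (Nat.le_of_dvd (Nat.pos_of_ne_zero Subgroup.index_ne_zero_of_finite) hdA) ?_
      have h1 : ind x * ind v ≤ ind (x * v) * ind v := hyi ▸ Subgroup.index_inf_le
      exact Nat.le_of_mul_le_mul_right h1 (Nat.pos_of_ne_zero Subgroup.index_ne_zero_of_finite)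
    obtain ⟨g₀, hg₀⟩ : ∃ g₀ : G, g₀ * v * g₀⁻¹ ≠ v := by
      by_contra hall
      push Not at hall
      exact ind_ne_one hZ hv (by
        rw [ind, Subgroup.index_eq_one, eq_top_iff]
        exact fun z _ => mem_cent.2 (mul_inv_eq_iff_eq_mul.1 (hall z)))
    refine hpA (dvd_ind (d := v * (g₀ * v * g₀⁻¹)⁻¹) ?_ ?_ fun g => translate hxv hAb heq g₀ g)
    · obtain ⟨k, hk⟩ := translate hxv hAb heq g₀ 1
      have hk1 : Commute (k * x * k⁻¹) v := by
        have := commute_conj k (hxall k⁻¹)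
        rwa [show k * (k⁻¹ * v * k⁻¹⁻¹) * k⁻¹ = v by group] at this
      have h2 : Commute v (g₀ * v * g₀⁻¹)⁻¹ := by
        have e : (g₀ * v * g₀⁻¹)⁻¹ = v⁻¹ * x⁻¹ * (k * x * k⁻¹) := by rw [hk]; group
        rw [e]
        exact ((Commute.refl v).inv_right.mul_right hxv.symm.inv_right).mul_right hk1.symm
      rw [h2.mul_pow, hvp, one_mul, inv_pow, conj_pow, hvp, mul_one, mul_inv_cancel, inv_one]
    · intro h
      exact hg₀ (mul_inv_eq_one.1 h).symm
  by_cases hca : (ind (x * v)).Coprime (ind x)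
  swap
  · obtain ⟨t, ht, ht1, ht2⟩ := Nat.Prime.not_coprime_iff_dvd.1 hca
    obtain ⟨w, hw, hw1, hw2⟩ := Nat.Prime.not_coprime_iff_dvd.1 hcb
    have dist : ∀ {a b : ℕ}, a.Prime → a ∣ ind x → b ∣ ind x' → b.Prime → a ≠ b := fun ha h1 h2 _ e =>
      ha.ne_one (Nat.eq_one_of_dvd_coprimes hcop h1 (e ▸ h2))
    exact path_of_chain hr hs ht hw hx hy hx' hrx ht2 ht1 hw1 (hw2.trans hbB) hsx hrs
      (dist hr hrx (hw2.trans hbB) hw) (dist ht ht2 (hw2.trans hbB) hw)
  -- now `x` is, up to a central factor, of order `p`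
  have heq : ind (v * x) = ind v := by
    rw [← hxv.eq]
    have hdb : ind (x * v) ∣ ind v := hca.dvd_of_dvd_mul_left hyd
    refine le_antisymm (Nat.le_of_dvd (Nat.pos_of_ne_zero Subgroup.index_ne_zero_of_finite) hdb) ?_
    have e : Subgroup.centralizer ({x * v} : Set G) = Subgroup.centralizer ({v * x} : Set G) := by rw [hxv.eq]
    obtain ⟨-, h2⟩ := ind_mul hxv.symm hAb.symm
    have h1 : ind v * ind x ≤ ind (x * v) * ind x := by
      rw [← h2, ← e]; exact Subgroup.index_inf_le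
    exact Nat.le_of_mul_le_mul_right h1 (Nat.pos_of_ne_zero Subgroup.index_ne_zero_of_finite)
  have hd : ∀ g : G, (x * (g * x * g⁻¹)⁻¹) ^ p = 1 ∧ Commute x (g * x * g⁻¹) := by
    intro g
    obtain ⟨k, hk⟩ := translate hxv.symm hAb.symm heq g 1
    rw [one_mul, inv_one, mul_one] at hk
    have hvk : Commute v (k * v * k⁻¹) := by
      rw [hk]
      refine (Commute.refl v).mul_right (hxv.symm.mul_right (Commute.inv_right ?_))
      have := commute_conj g (hxall g⁻¹)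
      rw [show g * (g⁻¹ * v * g⁻¹⁻¹) * g⁻¹ = v by group] at this
      exact this.symm
    have e : x * (g * x * g⁻¹)⁻¹ = v⁻¹ * (k * v * k⁻¹) := by rw [hk, inv_mul_cancel_left]
    refine ⟨by rw [e, hvk.inv_left.mul_pow, inv_pow, hvp, conj_pow, hvp]; group, ?_⟩
    have h1 : Commute x (x * (g * x * g⁻¹)⁻¹) := by
      rw [e]; exact hxv.inv_right.mul_right (hxall k)
    have h2 := (Commute.refl x).inv_right.mul_right h1
    rw [inv_mul_cancel_left] at h2
    exact Commute.inv_right_iff.1 h2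
  have hxp : ∀ g : G, Commute g (x ^ p) := fun g => by
    obtain ⟨h1, h2⟩ := hd g
    rw [h2.inv_right.mul_pow, inv_pow, mul_inv_eq_one, conj_pow] at h1
    exact (eq_mul_inv_iff_mul_eq.1 h1).symm
  have hn : ¬ p ∣ orderOf (x ^ p) := fun h => hZ (h.trans (by
    rw [← Subgroup.orderOf_mk (x ^ p) (Subgroup.mem_center_iff.2 fun g => (hxp g).eq)]
    exact orderOf_dvd_natCard _))
  have hord : orderOf (x ^ p) = orderOf x / p := orderOf_pow_of_dvd hp.ne_zero hx
  set n := orderOf (x ^ p) with hndef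
  have hu : orderOf (x ^ n) = p := by rw [hord]; exact orderOf_pow_orderOf_div (orderOf_pos x).ne' hx
  obtain ⟨i, j, hij⟩ : ∃ i j : ℤ, (n : ℤ) * i + (p : ℤ) * j = 1 :=
    ⟨_, _, by rw [← Nat.gcd_eq_gcd_ab, (hp.coprime_iff_not_dvd.2 hn).symm]; rfl⟩
  have hA : ind (x ^ n) = ind x := by
    refine Nat.dvd_antisymm (ind_pow_dvd _ _) (ind_dvd fun g hg => ?_)
    have h := (hg.zpow_right i).mul_right ((hxp g).zpow_right j)
    rwa [← zpow_natCast, ← zpow_natCast, ← zpow_mul, ← zpow_mul, ← zpow_add, hij, zpow_one] at h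
  obtain ⟨g₀, hg₀⟩ : ∃ g₀ : G, g₀ * x * g₀⁻¹ ≠ x := by
    by_contra hall
    push Not at hall
    have : ind x = 1 := by
      rw [ind, Subgroup.index_eq_one, eq_top_iff]
      exact fun z _ => mem_cent.2 (mul_inv_eq_iff_eq_mul.1 (hall z))
    exact hr.ne_one (Nat.dvd_one.1 (this ▸ hrx))
  have hpb : p ∣ ind v := dvd_ind (hd g₀).1 (fun h => hg₀ (mul_inv_eq_one.1 h).symm)
    fun g => translate hxv.symm hAb.symm heq g₀ g
  obtain ⟨y, hy1, hy2, hy3⟩ := core hZ hu (hA ▸ hpA) (fun g => by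
    rw [← conj_pow]; exact (hd g).2.pow_pow n n) ⟨v, hv, hpb⟩
  obtain ⟨t, ht, ht1, ht2⟩ := Nat.Prime.not_coprime_iff_dvd.1 hy3
  rw [hA] at ht2
  exact path_of_chain hr hs ht hp hx hy1 hx' hrx ht2 ht1 hy2 (hpb.trans hbB) hsx hrs
    (fun e => hpA (e ▸ hrx)) (fun e => hpA (e ▸ ht2))

end

/-- Let `G` be a finite group and `p` a prime not dividing the order of the centre of `G`. Consider the primes dividing the size of some conjugacy class of a `p`-singular element (an element of order divisible by `p`), two of them adjacent when their product divides such a class size. Then any two distinct such primes are joined by a path with at most 3 edges (the graph is connected of diameter at most 3). -/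
theorem result {G : Type*} [Group G] [Finite G] (p : ℕ) [Fact p.Prime]
    (hZ : ¬ p ∣ Nat.card ↥(Subgroup.center G)) (r s : ℕ) (hr : (r.Prime ∧ ∃ x : G, p ∣ orderOf x ∧ r ∣ (Subgroup.centralizer ({x} : Set G)).index)) (hs : (s.Prime ∧ ∃ x : G, p ∣ orderOf x ∧ s ∣ (Subgroup.centralizer ({x} : Set G)).index)) (hrs : r ≠ s) :
    (∃ x : G, p ∣ orderOf x ∧ r * s ∣ (Subgroup.centralizer ({x} : Set G)).index) ∨ (∃ t : ℕ, (t.Prime ∧ ∃ x : G, p ∣ orderOf x ∧ t ∣ (Subgroup.centralizer ({x} : Set G)).index) ∧ t ≠ r ∧ t ≠ s ∧ (∃ x : G, p ∣ orderOf x ∧ r * t ∣ (Subgroup.centralizer ({x} : Set G)).index) ∧ (∃ x : G, p ∣ orderOf x ∧ t * s ∣ (Subgroup.centralizer ({x} : Set G)).index)) ∨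
      (∃ t u : ℕ, (t.Prime ∧ ∃ x : G, p ∣ orderOf x ∧ t ∣ (Subgroup.centralizer ({x} : Set G)).index) ∧ (u.Prime ∧ ∃ x : G, p ∣ orderOf x ∧ u ∣ (Subgroup.centralizer ({x} : Set G)).index) ∧ t ≠ r ∧ u ≠ s ∧ t ≠ u ∧ (∃ x : G, p ∣ orderOf x ∧ r * t ∣ (Subgroup.centralizer ({x} : Set G)).index) ∧ (∃ x : G, p ∣ orderOf x ∧ t * u ∣ (Subgroup.centralizer ({x} : Set G)).index) ∧ (∃ x : G, p ∣ orderOf x ∧ u * s ∣ (Subgroup.centralizer ({x} : Set G)).index)) := by
  obtain ⟨hr, x, hx, hrx⟩ := hr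
  obtain ⟨hs, x', hx', hsx⟩ := hs
  have key : Path p r s G := by
    by_cases hcop : (ind x).Coprime (ind x')
    · by_cases hpA : p ∣ ind x
      · exact (main hZ hs hr hrs.symm hx' hx hsx hrx hcop.symm fun h =>
          (Fact.out : p.Prime).ne_one (Nat.eq_one_of_dvd_coprimes hcop hpA h)).symm
      · exact main hZ hr hs hrs hx hx' hrx hsx hcop hpA
    · obtain ⟨t, ht, ht1, ht2⟩ := Nat.Prime.not_coprime_iff_dvd.1 hcop
      by_cases htr : t = r
      · subst htr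
        exact Or.inl ⟨x', hx', ((Nat.coprime_primes hr hs).2 hrs).mul_dvd_of_dvd_of_dvd ht2 hsx⟩
      by_cases hts : t = s
      · subst hts
        exact Or.inl ⟨x, hx, ((Nat.coprime_primes hr hs).2 hrs).mul_dvd_of_dvd_of_dvd hrx ht1⟩
      exact Or.inr (Or.inl ⟨t, ⟨ht, x, hx, ht1⟩, htr, hts,
        ⟨x, hx, ((Nat.coprime_primes hr ht).2 (Ne.symm htr)).mul_dvd_of_dvd_of_dvd hrx ht1⟩,
        ⟨x', hx', ((Nat.coprime_primes ht hs).2 hts).mul_dvd_of_dvd_of_dvd ht2 hsx⟩⟩)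
  exact key

end Cfsg.Agent.S4321
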