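import Cfsg.Statements.S4416
import Cfsg.Agent.Lib.Classical.ExtraTwo

open Cfsg.Agent.Lib.Thompson.Extra Cfsg.Agent.Lib.Classical.QuadF2 Cfsg.Agent.Lib.Classical.ExtraOut Cfsg.Agent.Lib.Classical.ExtraTwo

set_option autoImplicit false
open Cfsg

namespace Cfsg.Agent.S4416

/-- Classification of extraspecial 2-groups in intrinsic form. An extraspecial 2-group has order 2^(2m+1) for some m ≥ 1, and the number of its elements squaring to the identity is either 2^(2m) + 2^m or 2^(2m) − 2^m; two extraspecial 2-groups of the same order with the same number of such elements are isomorphic. (The two cases are the central products of m dihedral groups of order 8, and of m − 1 dihedral groups with one quaternion group.) -/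
theorem result (E : Type*) [Group E] [Finite E] (hE : Cfsg.IsExtraspecial 2 E) :
    (∃ m : ℕ, 1 ≤ m ∧ Nat.card E = 2 ^ (2 * m + 1) ∧
      (Nat.card {x : E // x ^ 2 = 1} = 2 ^ (2 * m) + 2 ^ m ∨ Nat.card {x : E // x ^ 2 = 1} = 2 ^ (2 * m) - 2 ^ m)) ∧
    ∀ (E' : Type*) [Group E'] [Finite E'], Cfsg.IsExtraspecial 2 E' → Nat.card E' = Nat.card E →
      Nat.card {x : E' // x ^ 2 = 1} = Nat.card {x : E // x ^ 2 = 1} → Nonempty (E ≃* E') := by
  obtain ⟨z, d, m, a, b, hP, hC, hm, hcard⟩ := exists_setup hE
  refine ⟨⟨m, hm, hcard, ?_⟩, fun E' _ _ hE' hcc hcount => ?_⟩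
  · rcases (sqForm_pol d hP hC).isPlus_or_isMinus hm with h | h
    · exact Or.inl (card_sq_one_plus d hP hC h hm)
    · exact Or.inr (card_sq_one_minus d hP hC h hm)
  obtain ⟨z', d', m', a', b', hP', hC', hm', hcard'⟩ := exists_setup hE'
  obtain rfl : m' = m := by
    have := Nat.pow_right_injective (le_refl 2) (hcard'.symm.trans (hcc.trans hcard))
    omega
  have hpos : 0 < 2 ^ m' := Nat.two_pow_pos _
  rcases (sqForm_pol d hP hC).isPlus_or_isMinus hm with h | h <;>
    rcases (sqForm_pol d' hP' hC').isPlus_or_isMinus hm with h' | h'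
  · exact iso_plus d hP hC d' hP' hC' h h'
  · exfalso
    rw [card_sq_one_minus d' hP' hC' h' hm, card_sq_one_plus d hP hC h hm] at hcount
    omega
  · exfalso
    rw [card_sq_one_plus d' hP' hC' h' hm, card_sq_one_minus d hP hC h hm] at hcount
    omega
  · exact iso_minus d hP hC d' hP' hC' h h'

end Cfsg.Agent.S4416
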