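import Cfsg.Statements.S4422

set_option autoImplicit false
open Cfsg

namespace Cfsg.Agent.S4422

theorem prime_mod (q e ℓ : ℕ) (hq : 2 ≤ q) (he : 1 ≤ e) (hℓ : ℓ.Prime) (hd : ℓ ∣ q ^ e - 1)
    (hn : ∀ i : ℕ, 1 ≤ i → i < e → ¬ ℓ ∣ q ^ i - 1) : ℓ % e = 1 % e := by
  haveI := Fact.mk hℓ
  have key : ∀ i, ℓ ∣ q ^ i - 1 ↔ (q : ZMod ℓ) ^ i = 1 := by
    intro i
    rw [← Nat.cast_pow, ← (Nat.cast_one : ((1 : ℕ) : ZMod ℓ) = 1), ZMod.natCast_eq_natCast_iff]
    rw [Nat.ModEq.comm, Nat.modEq_iff_dvd' (Nat.one_le_pow _ _ (by omega))]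
  have h1 : (q : ZMod ℓ) ^ e = 1 := (key e).1 hd
  have hord : orderOf (q : ZMod ℓ) = e := by
    rw [orderOf_eq_iff (by omega)]
    exact ⟨h1, fun i hi hi0 h => hn i hi0 hi ((key i).2 h)⟩
  have hq0 : (q : ZMod ℓ) ≠ 0 := by
    intro h
    rw [h, zero_pow (by omega)] at h1
    exact zero_ne_one h1
  have h2 := ZMod.orderOf_dvd_card_sub_one hq0
  rw [hord] at h2
  exact ((Nat.modEq_iff_dvd' hℓ.one_le).2 h2).symm

/-- Primitive divisors of `q^e - 1` are congruent to 1 modulo `e`. Let `q ≥ 2` and `e ≥ 1` be natural numbers and let `m` be a divisor of `q^e - 1` that is coprime to `q^i - 1` for every `1 ≤ i < e` (so `m` divides the primitive part of `q^e - 1`, the largest such divisor). Then `m ≡ 1 (mod e)`. -/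
theorem result (q e m : ℕ) (hq : 2 ≤ q) (he : 1 ≤ e)
    (hm : m ∣ q ^ e - 1) (hcop : ∀ i : ℕ, 1 ≤ i → i < e → Nat.Coprime m (q ^ i - 1)) :
    m % e = 1 % e := by
  suffices ∀ d : ℕ, d ∣ m → d % e = 1 % e from this m dvd_rfl
  intro d
  induction d using Nat.recOnMul with
  | zero =>
    intro h
    have : 1 < q ^ e := Nat.one_lt_pow (by omega) (by omega)
    have h0 : m = 0 := by simpa using h
    subst h0
    simp at hm
    omega
  | one => intro _; rfl
  | prime p hp =>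
    intro hd
    refine prime_mod q e p hq he hp (hd.trans hm) fun i h1 h2 h3 => ?_
    exact hp.one_lt.ne' (Nat.eq_one_of_dvd_one ((hcop i h1 h2).gcd_eq_one ▸ Nat.dvd_gcd hd h3))
  | mul a b iha ihb =>
    intro hd
    rw [Nat.mul_mod, iha ((dvd_mul_right a b).trans hd), ihb ((dvd_mul_left b a).trans hd), ← Nat.mul_mod]

end Cfsg.Agent.S4422
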