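import Cfsg.Statements.S4424
import Cfsg.Agent.Lib.Char.Regular
import Cfsg.Agent.Lib.Block.Singular

set_option autoImplicit false
open Cfsg

namespace Cfsg.Agent.S4424

/-- Let χ be an irreducible character of the finite group G lying in the p-block B (relative to a maximal ideal M of the algebraic integers containing p), and let p^a be the p-part of the order of G. Then the class function that equals p^a · χ on the p-regular elements and vanishes on the p-singular elements is an integer combination of the irreducible characters in B: there are integers a_ψ, zero for ψ outside B, with that function equal to Σ a_ψ ψ. -/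
theorem result {G : Type*} [Group G] [Finite G] (p : ℕ) [Fact p.Prime] (M : Ideal Cfsg.AlgInt) (hM : Cfsg.IsPModular p M) (B : Set (Cfsg.IrrCharacter G)) (hB : Cfsg.IsPBlock M B) (χ : Cfsg.IrrCharacter G) (hχ : χ ∈ B) : ∃ a : Cfsg.IrrCharacter G → ℤ, (∀ ψ, ψ ∉ B → a ψ = 0) ∧ (fun x : G => if p ∣ orderOf x then (0 : ℂ) else ((p ^ (Nat.card G).factorization p : ℕ) : ℂ) * (χ : G → ℂ) x) = fun x => ∑ᶠ ψ : Cfsg.IrrCharacter G, (a ψ : ℂ) * (ψ : G → ℂ) x := by
  classical
  have := Fintype.ofFinite G
  haveI : M.IsPrime := hM.2.1.isPrime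
  have hp : p.Prime := Fact.out
  have hgen := Lib.Char.regFun_isGeneralized χ.2 hp (d := 0) (by simp)
  simp only [Nat.sub_zero] at hgen
  choose a ha using fun ψ : Cfsg.IrrCharacter G =>
    Lib.Char.classInner_intCast hgen (Lib.Char.isCharacter_of_isIrr ψ.2)
  have hzero : ∀ ψ, ψ ∉ B → a ψ = 0 := by
    intro ψ hψ
    have hns : ¬ Cfsg.SameBlock M (χ : G → ℂ) (ψ : G → ℂ) := by
      obtain ⟨χ₀, rfl⟩ := hB
      exact fun h => hψ (Lib.Block.sameBlock_trans (show Cfsg.SameBlock M (χ₀ : G → ℂ) (χ : G → ℂ) from hχ) h)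
    have h0 : Cfsg.classInner (fun x => if p ∣ orderOf x then 0 else (χ : G → ℂ) x)
        (ψ : G → ℂ) = 0 := Lib.Block.regInner_eq_zero hM hns
    have hrw : Lib.Char.regFun p ((p ^ (Nat.card G).factorization p : ℕ) : ℂ) (χ : G → ℂ) =
        ((p ^ (Nat.card G).factorization p : ℕ) : ℂ) •
          (fun x => if p ∣ orderOf x then 0 else (χ : G → ℂ) x) := by
      funext x
      simp only [Lib.Char.regFun, Pi.smul_apply, smul_eq_mul, mul_ite, mul_zero]
    have h1 := ha ψ
    rw [hrw, Lib.Char.classInner_smul_left, h0, mul_zero] at h1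
    exact_mod_cast h1.symm
  refine ⟨a, hzero, ?_⟩
  show Lib.Char.regFun p ((p ^ (Nat.card G).factorization p : ℕ) : ℂ) (χ : G → ℂ) = _
  funext x
  rw [finsum_eq_sum_of_fintype]
  conv_lhs => rw [Lib.Char.eq_sum_classInner_smul
    (Lib.Char.isClassFunction_regFun p _ (Lib.Char.isClassFunction_of_isIrr χ.2))]
  simp only [Finset.sum_apply, Pi.smul_apply, smul_eq_mul]
  exact Finset.sum_congr rfl fun ψ _ => by rw [ha ψ]

end Cfsg.Agent.S4424
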