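import Cfsg.Statements.S4426
import Cfsg.Agent.Lib.Heights.Basic

set_option autoImplicit false
open Cfsg

namespace Cfsg.Agent.S4426

/-- Let χ be an irreducible character in the p-block B of the finite group G (relative to a maximal ideal M of the algebraic integers containing p), let p^a be the p-part of the order of G, and let χ̃ be the class function equal to p^a · χ on p-regular elements and zero elsewhere. For ξ ∈ B the inner product [χ̃, ξ] is an integer. The following are equivalent: (a) χ has height zero in B; (b) for some ξ ∈ B the integer [χ̃, ξ] is nonzero and the exact power of p dividing it equals the exact power of p dividing ξ(1); (c) the same holds for every ξ ∈ B. -/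
theorem result {G : Type*} [Group G] [Fintype G] (p : ℕ) [Fact p.Prime] (M : Ideal Cfsg.AlgInt) (hM : Cfsg.IsPModular p M) (B : Set (Cfsg.IrrCharacter G)) (hB : Cfsg.IsPBlock M B) (χ : Cfsg.IrrCharacter G) (hχ : χ ∈ B) : (Cfsg.blockHeight p B (χ : G → ℂ) = 0 ↔ ∃ ξ ∈ B, ∃ n : ℤ, Cfsg.classInner (fun x : G => if p ∣ orderOf x then (0 : ℂ) else ((p ^ (Nat.card G).factorization p : ℕ) : ℂ) * (χ : G → ℂ) x) (ξ : G → ℂ) = (n : ℂ) ∧ n ≠ 0 ∧ padicValInt p n = (Cfsg.charDegree (ξ : G → ℂ)).factorization p) ∧ (Cfsg.blockHeight p B (χ : G → ℂ) = 0 ↔ ∀ ξ ∈ B, ∃ n : ℤ, Cfsg.classInner (fun x : G => if p ∣ orderOf x then (0 : ℂ) else ((p ^ (Nat.card G).factorization p : ℕ) : ℂ) * (χ : G → ℂ) x) (ξ : G → ℂ) = (n : ℂ) ∧ n ≠ 0 ∧ padicValInt p n = (Cfsg.charDegree (ξ : G → ℂ)).factorization p) := by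
  classical
  haveI : M.IsPrime := hM.2.1.isPrime
  have hp : p.Prime := Fact.out
  have hv : ∀ ξ ∈ B, (Cfsg.blockHeight p B (χ : G → ℂ) = 0 →
      ∃ n : ℤ, Cfsg.classInner (fun x : G => if p ∣ orderOf x then (0 : ℂ) else
          ((p ^ (Nat.card G).factorization p : ℕ) : ℂ) * (χ : G → ℂ) x) (ξ : G → ℂ) = (n : ℂ) ∧
        n ≠ 0 ∧ padicValInt p n = (Cfsg.charDegree (ξ : G → ℂ)).factorization p) ∧
      ((∃ n : ℤ, Cfsg.classInner (fun x : G => if p ∣ orderOf x then (0 : ℂ) else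
          ((p ^ (Nat.card G).factorization p : ℕ) : ℂ) * (χ : G → ℂ) x) (ξ : G → ℂ) = (n : ℂ) ∧
        n ≠ 0 ∧ padicValInt p n = (Cfsg.charDegree (ξ : G → ℂ)).factorization p) →
        Cfsg.blockHeight p B (χ : G → ℂ) = 0) := by
    intro ξ hξ
    obtain ⟨ψ₀, h₀, -⟩ := Lib.Block.exists_height_zero hB p
    have hd : (p : ℤ) ^ (Cfsg.charDegree (ξ : G → ℂ)).factorization p ∣ Lib.Heights.mult p χ ξ := by
      rw [Lib.Heights.mult_comm hp]
      exact (Lib.Heights.mult_val hM hB χ h₀ hξ).1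
    have hiff := Lib.Heights.exact_iff hM hB hχ hξ
    have hc := Lib.Heights.classInner_scaled (G := G) hp χ ξ
    refine ⟨fun h0 => ?_, fun ⟨n, hn, hn0, hval⟩ => ?_⟩
    · have hne : ¬ (p : ℤ) ^ ((Cfsg.charDegree (ξ : G → ℂ)).factorization p + 1) ∣
          Lib.Heights.mult p χ ξ := fun h => (hiff.mp h) h0
      have hn0 : Lib.Heights.mult p χ ξ ≠ 0 := fun h => hne (h ▸ dvd_zero _)
      refine ⟨_, hc, hn0, ?_⟩
      have h1 := (padicValInt_dvd_iff _ _).mp hd
      have h2 : ¬ (Cfsg.charDegree (ξ : G → ℂ)).factorization p + 1 ≤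
          padicValInt p (Lib.Heights.mult p χ ξ) := fun h =>
        hne ((padicValInt_dvd_iff _ _).mpr (Or.inr h))
      have h1' := h1.resolve_left hn0
      omega
    · by_contra h0
      have hdd := (padicValInt_dvd_iff _ _).mp (hiff.mpr h0)
      have : Lib.Heights.mult p χ ξ = n := by exact_mod_cast hc.symm.trans hn
      rw [this, hval] at hdd
      exact absurd (hdd.resolve_left hn0) (by omega)
  refine ⟨⟨fun h0 => ⟨χ, hχ, (hv χ hχ).1 h0⟩, fun ⟨ξ, hξ, h⟩ => (hv ξ hξ).2 h⟩,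
    ⟨fun h0 ξ hξ => (hv ξ hξ).1 h0, fun h => (hv χ hχ).2 (h χ hχ)⟩⟩

end Cfsg.Agent.S4426
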