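import Cfsg.Statements.S4429
import Cfsg.Agent.Lib.Char.Order7920Table

set_option autoImplicit false
open Cfsg

namespace Cfsg.Agent.S4429

/-- Let G be a simple group of order 7920. Then G has exactly ten irreducible complex characters, and their degrees, listed with multiplicity, are 1, 10, 10, 10, 11, 16, 16, 44, 45, 55: for every natural number n, the number of irreducible characters of degree n is 1 if n ∈ {1, 11, 44, 45, 55}, 3 if n = 10, 2 if n = 16, and 0 otherwise. -/
theorem result {G : Type*} [Group G] [Finite G] [IsSimpleGroup G] (hG : Nat.card G = 7920) : Nat.card (Cfsg.IrrCharacter G) = 10 ∧ ∀ n : ℕ, Nat.card {χ : Cfsg.IrrCharacter G // Cfsg.charDegree (χ : G → ℂ) = n} = (if n = 1 ∨ n = 11 ∨ n = 44 ∨ n = 45 ∨ n = 55 then 1 else if n = 10 then 3 else if n = 16 then 2 else 0) := by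
  obtain ⟨f, x, y, hbij, hdeg, -⟩ := Cfsg.Agent.Lib.Char.O7920.exists_table hG
  refine ⟨by rw [← Nat.card_eq_of_bijective f hbij, Nat.card_eq_fintype_card, Fintype.card_fin], fun n => ?_⟩
  have e : {i : Fin 10 // Cfsg.Agent.Lib.Char.O7920.degList i = n} ≃
      {χ : Cfsg.IrrCharacter G // Cfsg.charDegree (χ : G → ℂ) = n} :=
    (Equiv.ofBijective f hbij).subtypeEquiv fun i => by rw [Equiv.ofBijective_apply, hdeg]
  rw [← Nat.card_congr e, Nat.card_eq_fintype_card, Fintype.card_subtype]
  by_cases h : n ∈ ({1, 10, 11, 16, 44, 45, 55} : Finset ℕ)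
  · simp only [Finset.mem_insert, Finset.mem_singleton] at h
    rcases h with rfl | rfl | rfl | rfl | rfl | rfl | rfl <;> decide
  · simp only [Finset.mem_insert, Finset.mem_singleton, not_or] at h
    obtain ⟨h1, h2, h3, h4, h5, h6, h7⟩ := h
    rw [if_neg (by omega), if_neg h2, if_neg h4, Finset.card_eq_zero, Finset.filter_eq_empty_iff]
    intro i _
    fin_cases i <;> simp [Cfsg.Agent.Lib.Char.O7920.degList] <;> omega

end Cfsg.Agent.S4429
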