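import Cfsg.Statements.S4430
import Cfsg.Agent.Lib.Heights.Basic
import Cfsg.Agent.Lib.Block.Induced
import Cfsg.Agent.Lib.Block.Apply
import Cfsg.Agent.Lib.Block.Parts
import Cfsg.Agent.Lib.Char.Degree

set_option autoImplicit false
open Cfsg

namespace Cfsg.Agent.S4430

/-- Let H be a subgroup of the finite group G, b a block of H whose induced block B₀ in G is defined (relative to a maximal ideal M of the algebraic integers containing p), and ξ ∈ b. For a block B of G let n_B be the value at 1 of the B-part of the induced character ξ^G (a natural number: the sum over χ ∈ B of the multiplicity of χ in ξ^G times χ(1)). Then for B = B₀ the exact power of p dividing n_B equals the exact power of p dividing ξ^G(1), while for every other block B either n_B = 0 or n_B is divisible by a strictly higher power of p than ξ^G(1). -/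
theorem result {G : Type*} [Group G] [Fintype G] (p : ℕ) [Fact p.Prime] (M : Ideal Cfsg.AlgInt) (hM : Cfsg.IsPModular p M) (H : Subgroup G) [Fintype H] (b : Set (Cfsg.IrrCharacter H)) (B₀ : Set (Cfsg.IrrCharacter G)) (hind : Cfsg.IsInducedBlock M H b B₀) (ξ : Cfsg.IrrCharacter H) (hξ : ξ ∈ b) : (∃ n : ℕ, Cfsg.blockPart B₀ (Cfsg.indFun H (ξ : H → ℂ)) 1 = (n : ℂ) ∧ n ≠ 0 ∧ n.factorization p = (Cfsg.charDegree (Cfsg.indFun H (ξ : H → ℂ))).factorization p) ∧ ∀ B : Set (Cfsg.IrrCharacter G), Cfsg.IsPBlock M B → B ≠ B₀ → ∃ n : ℕ, Cfsg.blockPart B (Cfsg.indFun H (ξ : H → ℂ)) 1 = (n : ℂ) ∧ (n = 0 ∨ (Cfsg.charDegree (Cfsg.indFun H (ξ : H → ℂ))).factorization p < n.factorization p) := by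
  classical
  haveI := hM.2.1
  have hp : p.Prime := Fact.out
  set θ := Cfsg.indFun H (ξ : H → ℂ) with hθ
  have hθc : Cfsg.IsCharacter G θ := Lib.Char.isCharacter_indFun H (Lib.Char.isCharacter_of_isIrr ξ.2)
  choose m hm using fun χ : Cfsg.IrrCharacter G =>
    Lib.Char.classInner_natCast hθc (Lib.Char.isCharacter_of_isIrr χ.2)
  haveI := Lib.Block.resField_charP (M := M) hM
  obtain ⟨φ, hφ⟩ := Lib.Block.isPBlock_nonempty hind.2.1
  have hd0 : Cfsg.charDegree θ ≠ 0 := by
    rw [hθ, Lib.Char.charDegree_indFun H (Lib.Char.isCharacter_of_isIrr ξ.2)]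
    exact mul_ne_zero Subgroup.index_ne_zero_of_finite (Lib.Char.charDegree_pos ξ.2).ne'
  set v := (Cfsg.charDegree θ).factorization p with hv
  obtain ⟨u, hu⟩ := Nat.ordProj_dvd (Cfsg.charDegree θ) p
  have hu0 : ¬ p ∣ u := fun h => Nat.pow_succ_factorization_not_dvd hd0 hp
    (by rw [pow_succ]; exact (mul_dvd_mul_left _ h).trans hu.symm.dvd)
  have key : ∀ B : Set (Cfsg.IrrCharacter G), Cfsg.IsPBlock M B →
      ∃ n : ℕ, Cfsg.blockPart B θ 1 = (n : ℂ) ∧ ∃ z : ℕ, n = p ^ v * z ∧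
        (z : Lib.Block.ResField M) = (u : Lib.Block.ResField M) * (if φ ∈ B then 1 else 0) := by
    intro B hB
    refine ⟨∑ χ : Cfsg.IrrCharacter G, if χ ∈ B then m χ * Cfsg.charDegree (χ : G → ℂ) else 0, ?_, ?_⟩
    · rw [Lib.Block.blockPart_apply]
      push_cast
      exact Finset.sum_congr rfl fun χ _ => by rw [hm, Lib.Block.irr_one_eq_natCast]
    set n := ∑ χ : Cfsg.IrrCharacter G, if χ ∈ B then m χ * Cfsg.charDegree (χ : G → ℂ) else 0
    set w := Lib.Block.omega (ξ : H → ℂ) (Lib.Block.toSub H (Lib.Block.eIdem B)) with hw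
    have hwR : w ∈ Lib.Block.locRing M := Lib.Block.omega_mem_locRing ξ
      (Lib.Block.isClassCoeff_toSub (Lib.Block.isClassCoeff_eIdem B))
      (Lib.Block.intR_toSub (Lib.Block.intR_eIdem hB))
    have hred : Lib.Block.redC M w = if φ ∈ B then 1 else 0 := by
      rw [hw, Lib.Block.redC_omega_toSub_eq hind hξ hφ (Lib.Block.isClassCoeff_eIdem B)
        (Lib.Block.intR_eIdem hB), Lib.Block.omega_eIdem]
      split_ifs
      · exact Lib.Block.redC_one
      · exact Lib.Block.redC_zero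
    have hn : (n : ℂ) = ((p ^ v * u : ℕ) : ℂ) * w := by
      have h1 : Cfsg.blockPart B θ 1 = (n : ℂ) := by
        rw [Lib.Block.blockPart_apply]
        push_cast [n]
        exact Finset.sum_congr rfl fun χ _ => by rw [hm, Lib.Block.irr_one_eq_natCast]
      rw [← h1, Lib.Block.blockPart_eq_sum B (Lib.Char.isClassFunction_of_isCharacter hθc), ← hu, hw,
        ← Lib.Block.omega_indFun H _ (Lib.Block.isClassCoeff_eIdem B), ← hθ, Lib.Block.omega_eq_sum,
        ← Lib.Char.apply_one_eq_charDegree hθc]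
      have hθ1 : θ 1 ≠ 0 := by
        rw [Lib.Char.apply_one_eq_charDegree hθc]; exact Nat.cast_ne_zero.2 hd0
      rw [mul_div_cancel₀ _ hθ1]
      exact Finset.sum_congr rfl fun k _ => by rw [mul_one, Lib.Block.coeff_eIdem]
    have hdvd : (p : ℤ) ^ v ∣ (n : ℤ) := by
      refine Lib.Heights.pow_dvd_of_div_mem hM v _ ?_
      rw [Int.cast_natCast, hn, Nat.cast_mul, Nat.cast_pow, mul_assoc,
        mul_div_cancel_left₀ _ (pow_ne_zero _ (Nat.cast_ne_zero.2 hp.ne_zero))]
      exact mul_mem (natCast_mem _ _) hwR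
    obtain ⟨z, hz⟩ : p ^ v ∣ n := Int.natCast_dvd_natCast.1 (by push_cast; exact hdvd)
    refine ⟨z, hz, ?_⟩
    have hzw : (z : ℂ) = (u : ℂ) * w := by
      rw [hz] at hn
      push_cast at hn
      exact mul_left_cancel₀ (pow_ne_zero v (Nat.cast_ne_zero.2 hp.ne_zero)) (hn.trans (mul_assoc _ _ _))
    rw [← hred, ← Lib.Block.redC_natCast (M := M) z, hzw, Lib.Block.redC_mul (natCast_mem _ _) hwR,
      Lib.Block.redC_natCast]
  refine ⟨?_, fun B hB hne => ?_⟩
  · obtain ⟨n, hn, z, hz, hzr⟩ := key B₀ hind.2.1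
    rw [if_pos hφ, mul_one] at hzr
    have hzp : ¬ p ∣ z := fun h => hu0 ((CharP.cast_eq_zero_iff (Lib.Block.ResField M) p u).1
      (hzr ▸ (CharP.cast_eq_zero_iff (Lib.Block.ResField M) p z).2 h))
    have hz0 : z ≠ 0 := fun h => hzp (h ▸ dvd_zero p)
    refine ⟨n, hn, by rw [hz]; exact mul_ne_zero (pow_ne_zero _ hp.ne_zero) hz0, ?_⟩
    rw [hz, Nat.factorization_mul (pow_ne_zero _ hp.ne_zero) hz0]
    simp only [Finsupp.add_apply, hp.factorization_pow, Finsupp.single_eq_same,
      Nat.factorization_eq_zero_of_not_dvd hzp, add_zero]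
  · obtain ⟨n, hn, z, hz, hzr⟩ := key B hB
    rw [if_neg (fun h => hne (Lib.Block.eq_of_mem_of_mem hB hind.2.1 h hφ)), mul_zero,
      CharP.cast_eq_zero_iff (Lib.Block.ResField M) p] at hzr
    refine ⟨n, hn, ?_⟩
    by_cases hn0 : n = 0
    · exact Or.inl hn0
    · right
      have : p ^ (v + 1) ∣ n := by rw [hz, pow_succ]; exact mul_dvd_mul_left _ hzr
      exact (hp.pow_dvd_iff_le_factorization hn0).1 this

end Cfsg.Agent.S4430
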