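import Cfsg.Statements.S4435
import Cfsg.Agent.Lib.Block.FongReynolds
-- import your own Cfsg.Agent.* helpers here

set_option autoImplicit false
open Cfsg

open Cfsg Cfsg.Agent.Lib.Block
open Cfsg.Agent.Lib

namespace Cfsg.Agent.S4435

/-- Let N be a normal subgroup of the finite group G, b a block of N (relative to a maximal ideal M of the algebraic integers containing p), and T the stabilizer of b in G (the elements g such that conjugating any member of b by g gives a member of b); N ≤ T. Say that a block of T (or of G) covers b when some member has a constituent in b on restriction to N. Then: (i) every block B′ of T covering b induces a block B of G, B covers b, every ψ ∈ B′ induces to an irreducible character of G, and B consists exactly of the characters induced from members of B′; (ii) distinct blocks of T covering b induce distinct blocks of G; (iii) every block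 of G covering b is induced by some block of T covering b. -/
theorem result {G : Type*} [Group G] [Fintype G] (p : ℕ) [Fact p.Prime] (M : Ideal Cfsg.AlgInt) (hM : Cfsg.IsPModular p M) (N : Subgroup G) [hN : N.Normal] [Fintype N] (b : Set (Cfsg.IrrCharacter N)) (hb : Cfsg.IsPBlock M b) (T : Subgroup G) [Fintype T] (hT : ∀ g : G, g ∈ T ↔ ∀ θ ∈ b, ∀ θ' : Cfsg.IrrCharacter N, (∀ n : N, (θ' : N → ℂ) n = (θ : N → ℂ) ⟨g * n * g⁻¹, hN.conj_mem n n.2 g⟩) → θ' ∈ b) (hNT : N ≤ T) : (∀ B' : Set (Cfsg.IrrCharacter T), Cfsg.IsPBlock M B' → (∃ ψ ∈ B', ∃ θ ∈ b, Cfsg.classInner (fun n : N => (ψ : T → ℂ) ⟨(n : G), hNT n.2⟩) (θ : N → ℂ) ≠ 0) → ∃ B : Set (Cfsg.IrrCharacter G), Cfsg.IsInducedBlock M T B' B ∧ (∃ χ ∈ B, ∃ θ ∈ b, Cfsg.classInner (fun n : N => (χ : G → ℂ) n) (θ : N → ℂ) ≠ 0) ∧ (∀ ψ ∈ B', Cfsg.IsIrrCharacter G (Cfsg.indFun T (ψ : T → ℂ))) ∧ ∀ χ : Cfsg.IrrCharacter G, χ ∈ B ↔ ∃ ψ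 ∈ B', (χ : G → ℂ) = Cfsg.indFun T (ψ : T → ℂ)) ∧ (∀ B'₁ B'₂ : Set (Cfsg.IrrCharacter T), Cfsg.IsPBlock M B'₁ → Cfsg.IsPBlock M B'₂ → (∃ ψ ∈ B'₁, ∃ θ ∈ b, Cfsg.classInner (fun n : N => (ψ : T → ℂ) ⟨(n : G), hNT n.2⟩) (θ : N → ℂ) ≠ 0) → (∃ ψ ∈ B'₂, ∃ θ ∈ b, Cfsg.classInner (fun n : N => (ψ : T → ℂ) ⟨(n : G), hNT n.2⟩) (θ : N → ℂ) ≠ 0) → ∀ B : Set (Cfsg.IrrCharacter G), Cfsg.IsInducedBlock M T B'₁ B → Cfsg.IsInducedBlock M T B'₂ B → B'₁ = B'₂) ∧ (∀ B : Set (Cfsg.IrrCharacter G), Cfsg.IsPBlock M B → (∃ χ ∈ B, ∃ θ ∈ b, Cfsg.classInner (fun n : N => (χ : G → ℂ) n) (θ : N → ℂ) ≠ 0) → ∃ B' : Set (Cfsg.IrrCharacter T), Cfsg.IsPBlock M B' ∧ (∃ ψ ∈ B', ∃ θ ∈ b, Cfsg.classInner (fun n : N => (ψ : T → ℂ) ⟨(n : G), hNT n.2⟩) (θ : N → ℂ) ≠ 0) ∧ Cfsg.IsInducedBlock M T B' B) := by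
  haveI := hM.2.1.isPrime
  classical
  have hS := Lib.Block.isStab_of b hT
  refine ⟨fun B' hB' hcov => ?_, fun B₁ B₂ h₁ h₂ hc₁ hc₂ B hi₁ hi₂ => ?_, fun B hB hcov => ?_⟩
  · obtain ⟨ψ, hψ⟩ := Lib.Block.isPBlock_nonempty hB'
    have ho := Lib.Block.isOver_of_cover hb hS hNT hB' hcov hψ
    have hind := Lib.Block.exists_induced hb hS hNT hB' hψ ho
    obtain ⟨θ, hθ, hne⟩ := Lib.Block.exists_constituent_indFun hb hS hNT ho
    exact ⟨_, hind, ⟨⟨_, Lib.Block.isIrr_indFun hb hS hNT ho⟩,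
      Lib.Block.mem_of_isInducedBlock hind hψ _, θ, hθ, hne⟩,
      fun φ hφ => Lib.Block.isIrr_indFun hb hS hNT (Lib.Block.isOver_of_cover hb hS hNT hB' hcov hφ),
      Lib.Block.mem_induced_iff hM hb hS hNT hB' hcov hind⟩
  · obtain ⟨ψ₁, hψ₁⟩ := Lib.Block.isPBlock_nonempty h₁
    obtain ⟨ψ₂, hψ₂⟩ := Lib.Block.isPBlock_nonempty h₂
    have ho₁ := Lib.Block.isOver_of_cover hb hS hNT h₁ hc₁ hψ₁
    have ho₂ := Lib.Block.isOver_of_cover hb hS hNT h₂ hc₂ hψ₂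
    have hs := (Lib.Block.sameBlock_indFun_iff hM hb hS hNT ho₁ ho₂).1
      (Lib.Block.sameBlock_of_mem hi₁.2.1
        (Lib.Block.mem_of_isInducedBlock hi₁ hψ₁ (Lib.Block.isIrr_indFun hb hS hNT ho₁))
        (Lib.Block.mem_of_isInducedBlock hi₂ hψ₂ (Lib.Block.isIrr_indFun hb hS hNT ho₂)))
    exact Lib.Block.eq_of_mem_of_mem h₁ h₂ ((Lib.Block.mem_iff_sameBlock h₁ hψ₁).2 hs) hψ₂
  · obtain ⟨χ, hχ, θ, hθ, hne⟩ := hcov
    obtain ⟨ψ, ho, he⟩ := Lib.Block.exists_eq_indFun hb hS hNT hθ hne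
    refine ⟨_, Lib.Block.isPBlock_blockOf ψ, ⟨ψ, Lib.Block.mem_blockOf_self ψ,
      (Lib.Block.isOver_iff hS hNT ψ).1 ho⟩, ?_⟩
    have hind := Lib.Block.exists_induced hb hS hNT (Lib.Block.isPBlock_blockOf ψ)
      (Lib.Block.mem_blockOf_self ψ) ho
    rwa [Lib.Block.blockOf_eq_of_mem hB hχ, show χ = ⟨_, Lib.Block.isIrr_indFun hb hS hNT ho⟩
      from Subtype.ext he]

end Cfsg.Agent.S4435
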