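import Cfsg.Statements.S4438
import Cfsg.Agent.S4671
import Cfsg.Agent.Lib.Block.Covering
-- import your own Cfsg.Agent.* helpers here

set_option autoImplicit false
open Cfsg

open Cfsg Cfsg.Agent.Lib.Block
open Cfsg.Agent.Lib

namespace Cfsg.Agent.S4438

/-- Let N be a normal subgroup of the finite group G, b a block of N with defect group Q, and B a block of G covering b (some member of B has a constituent in b on restriction to N), all relative to a maximal ideal M of the algebraic integers containing p. Then B has a defect group P with P ⊓ N = Q. -/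
theorem result {G : Type*} [Group G] [Fintype G] (p : ℕ) [Fact p.Prime] (M : Ideal Cfsg.AlgInt) (hM : Cfsg.IsPModular p M) (N : Subgroup G) [hN : N.Normal] [Fintype N] (b : Set (Cfsg.IrrCharacter N)) (hb : Cfsg.IsPBlock M b) (Q : Subgroup G) (hQN : Q ≤ N) (hQ : Cfsg.IsDefectGroup p M b (Q.subgroupOf N)) (B : Set (Cfsg.IrrCharacter G)) (hB : Cfsg.IsPBlock M B) (hcov : (∃ χ ∈ B, ∃ θ ∈ b, Cfsg.classInner (fun n : N => (χ : G → ℂ) n) (θ : N → ℂ) ≠ 0)) : ∃ P : Subgroup G, Cfsg.IsDefectGroup p M B P ∧ P ⊓ N = Q := by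
  haveI := hM.2.1.isPrime
  classical
  obtain ⟨P, hP⟩ := Lib.Block.exists_isDefectGroup hM hB
  obtain ⟨c, hc, -, hccov, hcd⟩ := Cfsg.Agent.S4671.result p M hM N B hB P hP
  obtain ⟨g, hg⟩ := Lib.Block.exists_conj_of_cover N hM hB hb hc
    ((Lib.BrauerPairs.covers_iff N hM hB hb).1 hcov) ((Lib.BrauerPairs.covers_iff N hM hB hc).1 hccov)
  have hQ' := Lib.BrauerPairs.isDefectGroup_mapBlock hM
    (Lib.BrauerPairs.normEquiv (Lib.BrauerPairs.mem_normalizer_normal N g)) hb hQ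
  rw [← hg] at hQ'
  obtain ⟨n, hn⟩ := Lib.Block.exists_conj_defect hM hc hQ' hcd
  refine ⟨P.map (MulAut.conj ((n : G) * g)⁻¹).toMonoidHom,
    Lib.Block.IsDefectGroup.map_conj hM hB hP _, ?_⟩
  have key : ∀ x ∈ N, x ∈ Q ↔ (n : G) * g * x * ((n : G) * g)⁻¹ ∈ P := by
    intro x hx
    have hxN : (n : G) * g * x * ((n : G) * g)⁻¹ ∈ N := hN.conj_mem x hx _
    constructor
    · intro hxQ
      have h1 : (⟨_, hxN⟩ : N) ∈ (P ⊓ N).subgroupOf N := by
        rw [← hn]
        refine ⟨_, ⟨⟨x, hx⟩, hxQ, rfl⟩, Subtype.ext ?_⟩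
        simp [Lib.BrauerPairs.coe_normEquiv, mul_assoc]
      exact h1.1
    · intro hxP
      have h1 : (⟨_, hxN⟩ : N) ∈ (P ⊓ N).subgroupOf N := ⟨hxP, hxN⟩
      rw [← hn] at h1
      obtain ⟨-, ⟨y, hy, rfl⟩, he⟩ := h1
      have he' := congrArg (fun w : N => (w : G)) he
      simp [Lib.BrauerPairs.coe_normEquiv, mul_assoc] at he'
      rw [← he']
      exact hy
  ext x
  constructor
  · rintro ⟨⟨y, hy, rfl⟩, hxN⟩
    refine (key _ hxN).2 ?_
    simpa [mul_assoc] using hy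
  · intro hx
    refine ⟨⟨_, (key x (hQN hx)).1 hx, ?_⟩, hQN hx⟩
    simp [mul_assoc]

end Cfsg.Agent.S4438
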