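import Cfsg.Statements.S4442
import Cfsg.Agent.Lib.DefectOne.Orbit

set_option autoImplicit false
open Cfsg

namespace Cfsg.Agent.S4442

/-- Blocks of defect one. Let p be an odd prime and G a finite group whose Sylow p-subgroup P has order p; let C = C_G(P) and N = N_G(P), and fix a maximal ideal M of the algebraic integers containing p. Let B be a block of G with defect group P, b a block of C inducing B, and θ the member of b having P in its kernel (there is exactly one). Let T be the stabilizer of θ in N (the elements g ∈ N with θ(g c g⁻¹) = θ(c) for all c ∈ C) and e the index of C in T. Then e divides p − 1 and B contains exactly e + (p − 1)/e irreducible characters. Moreover B is the disjoint union of a set X of e characters and a set Y of (p − 1)/e characters such that, with f the index of C in N: every χ ∈ X has χ(1) ≡ ±(f/e)·θ(1) (mod p), there is one sign ε with ψ(1) ≡ ε f θ(1) (mod p) for all ψ ∈ Y, and all members of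 Y agree on the p-regular elements of G. -/
theorem result {G : Type*} [Group G] [Finite G] (p : ℕ) [Fact p.Prime] (M : Ideal Cfsg.AlgInt) (hM : Cfsg.IsPModular p M) (hodd : p ≠ 2) (P : Sylow p G) (hP : Nat.card P = p) (B : Set (Cfsg.IrrCharacter G)) (hB : Cfsg.IsPBlock M B) (hBP : Cfsg.IsDefectGroup p M B P) (b : Set (Cfsg.IrrCharacter (Subgroup.centralizer ((P : Subgroup G) : Set G)))) (hind : Cfsg.IsInducedBlock M (Subgroup.centralizer ((P : Subgroup G) : Set G)) b B) (θ : Cfsg.IrrCharacter (Subgroup.centralizer ((P : Subgroup G) : Set G))) (hθ : θ ∈ b) (hθP : ∀ x : Subgroup.centralizer ((P : Subgroup G) : Set G), (x : G) ∈ (P : Subgroup G) → (θ : Subgroup.centralizer ((P : Subgroup G) : Set G) → ℂ) x = (θ : Subgroup.centralizer ((P : Subgroup G) : Set G) → ℂ) 1) (T : Subgroup G) (hT : ∀ g : G, g ∈ T ↔ (g ∈ Subgroup.normalizer ((P : Subgroup G) : Set G) ∧ ∀ c c' : Subgroup.centralizer ((P : Subgroup G) : Set G), (c' : G) = g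 * c * g⁻¹ → (θ : Subgroup.centralizer ((P : Subgroup G) : Set G) → ℂ) c' = (θ : Subgroup.centralizer ((P : Subgroup G) : Set G) → ℂ) c)) (e f : ℕ) (he : (Subgroup.centralizer ((P : Subgroup G) : Set G)).relIndex T = e) (hf : (Subgroup.centralizer ((P : Subgroup G) : Set G)).relIndex (Subgroup.normalizer ((P : Subgroup G) : Set G)) = f) : e ∣ p - 1 ∧ Nat.card B = e + (p - 1) / e ∧ ∃ X Y : Set (Cfsg.IrrCharacter G), B = X ∪ Y ∧ Disjoint X Y ∧ Nat.card X = e ∧ Nat.card Y = (p - 1) / e ∧ (∀ χ ∈ X, (Cfsg.charDegree (χ : G → ℂ) : ℤ) ≡ ((f / e * Cfsg.charDegree (θ : Subgroup.centralizer ((P : Subgroup G) : Set G) → ℂ) : ℕ) : ℤ) [ZMOD p] ∨ (Cfsg.charDegree (χ : G → ℂ) : ℤ) ≡ -((f / e * Cfsg.charDegree (θ : Subgroup.centralizer ((P : Subgroup G) : Set G) → ℂ) : ℕ) : ℤ) [ZMOD p]) ∧ (∃ ε : ℤ, (ε = 1 ∨ ε = -1) ∧ ∀ ψ ∈ Y, (Cfsg.charDegree (ψ : G → ℂ) : ℤ) ≡ ε * ((f * Cfsg.charDegree (θ : Subgroup.centralizer ((P : Subgroup G) : Set G) → ℂ)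 : ℕ) : ℤ) [ZMOD p]) ∧ ∀ ψ ∈ Y, ∀ ψ' ∈ Y, ∀ g : G, ¬ p ∣ orderOf g → (ψ : G → ℂ) g = (ψ' : G → ℂ) g := by
  classical
  have := hM.2.1.isPrime
  haveI := Fintype.ofFinite G
  haveI := Lib.Block.resField_charP (M := M) hM
  obtain ⟨θ', hθ'⟩ : ∃ θ' : Lib.DefectOne.Th P, θ'.1 = θ := ⟨⟨θ, hθP⟩, rfl⟩
  subst hθ'
  have hb : Cfsg.blockOf M ((θ'.1 : _ → ℂ)) = b :=
    Lib.Block.eq_of_mem_of_mem (Lib.Block.isPBlock_blockOf θ'.1) hind.1 (Lib.Block.mem_blockOf_self θ'.1) hθ
  rw [← hb] at hind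
  have hd := Lib.DefectOne.blockDefect_eq_one hM hP hB hBP
  have hTe : T = Lib.DefectOne.Tgrp θ' := by
    ext g
    rw [hT g, Lib.DefectOne.mem_Tgrp]
    constructor
    · rintro ⟨hg, h⟩
      refine ⟨hg, funext fun c => ?_⟩
      rw [Lib.Char.UC.cj_apply hg]
      exact (h _ c (by simp [mul_assoc])).symm
    · rintro ⟨hg, h⟩
      refine ⟨hg, fun c c' hc => ?_⟩
      have := congrFun h c'
      rw [Lib.Char.UC.cj_apply hg] at this
      rw [← this]
      exact congrArg _ (Subtype.ext (by simp [hc, mul_assoc]))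
  subst hTe
  subst he
  subst hf
  obtain ⟨hdvd, Z, Y, sgn, ε, hBeq, hdis, hZc, hYc, hε, hZ, hY, hYr, -⟩ :=
    Lib.DefectOne.exists_structure hM hP θ' hB hind
      (Lib.DefectOne.exists_degree hM hP hB (by omega))
      (Lib.DefectOne.relIndex_Tgrp_le_blockRank hM hP θ' hB hind)
  have hmul := Subgroup.relIndex_mul_relIndex (Lib.Char.UC.C P) (Lib.DefectOne.Tgrp θ')
    (Lib.Char.UC.N P) (Lib.DefectOne.C_le_Tgrp θ') (fun g hg => (Lib.DefectOne.mem_Tgrp.1 hg).1)
  have hdiv : (Lib.Char.UC.C P).relIndex (Lib.Char.UC.N P) /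
      (Lib.Char.UC.C P).relIndex (Lib.DefectOne.Tgrp θ') =
      (Lib.DefectOne.Tgrp θ').relIndex (Lib.Char.UC.N P) := by
    rw [← hmul]
    exact Nat.mul_div_cancel_left _ (Nat.pos_of_ne_zero Subgroup.index_ne_zero_of_finite)
  have hcong : ∀ χ ∈ B, ∀ z : ℤ, ((Lib.DefectOne.R θ' χ : ℤ) : Lib.Block.ResField M) =
      (z : Lib.Block.ResField M) → (Cfsg.charDegree (χ : G → ℂ) : ℤ) ≡ z *
        (((Lib.DefectOne.Tgrp θ').relIndex (Lib.Char.UC.N P) *
          Cfsg.charDegree (θ'.1 : Lib.Char.UC.C P → ℂ) : ℕ) : ℤ) [ZMOD p] := fun χ hχ z hz => by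
    refine (CharP.intCast_eq_intCast (Lib.Block.ResField M) p).1 ?_
    rw [Int.cast_mul, Int.cast_natCast, Int.cast_natCast,
      Lib.DefectOne.charDegree_congr_orb hM hP hd θ' hind hχ, hz]
  refine ⟨hdvd, ?_, (Z : Set _), (Y : Set _), hBeq, Finset.disjoint_coe.2 hdis,
    ?_, ?_, fun χ hχ => ?_, ⟨ε, hε, fun ψ hψ => ?_⟩, fun ψ hψ ψ' hψ' g hg => hYr ψ hψ ψ' hψ' g hg⟩
  · rw [hBeq, ← Finset.coe_union, Nat.card_coe_set_eq, Set.ncard_coe_finset,
      Finset.card_union_of_disjoint hdis, hZc, hYc]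
  · rw [Nat.card_coe_set_eq, Set.ncard_coe_finset, hZc]
  · rw [Nat.card_coe_set_eq, Set.ncard_coe_finset, hYc]
  · obtain ⟨hs, hv⟩ := hZ χ hχ
    have hχB : χ ∈ B := by rw [hBeq]; exact Or.inl hχ
    have hR : ((Lib.DefectOne.R θ' χ : ℤ) : Lib.Block.ResField M) = (sgn χ : Lib.Block.ResField M) := by
      obtain ⟨x, hx, hx1⟩ := Lib.DefectOne.exists_mem_ne_one (P := P) hP
      rw [← (Lib.DefectOne.redC_S hM hP θ' χ ⟨x, hx⟩).2,
        hv ⟨x, hx⟩ fun h => hx1 (congrArg Subtype.val h)]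
      rcases hs with h | h <;> rw [h]
      · simp [Lib.Block.redC_one]
      · rw [show ((-1 : ℤ) : ℂ) = (0 : ℂ) - 1 by norm_num,
          Lib.Block.redC_sub (zero_mem _) (one_mem _), Lib.Block.redC_zero, Lib.Block.redC_one]
        simp
    have h := hcong χ hχB (sgn χ) hR
    rw [hdiv]
    rcases hs with hs | hs <;> rw [hs] at h
    · exact Or.inl (by simpa using h)
    · exact Or.inr (by simpa using h)
  · have h := hcong ψ (by rw [hBeq]; exact Or.inr hψ) _ (hY ψ hψ)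
    rw [← hmul]
    push_cast at h ⊢
    convert h using 1
    ring

end Cfsg.Agent.S4442
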