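import Cfsg.Statements.S4491
import Cfsg.Agent.Lib.Heights.Basic
import Cfsg.Agent.Lib.Char.Induced
import Cfsg.Agent.Lib.Block.Singular

set_option autoImplicit false
open Cfsg

namespace Cfsg.Agent.S4491

/-- Let B be a p-block of defect d of the finite group G (relative to a maximal ideal M of the algebraic integers containing p), and let p^a be the p-part of the order of G. Then the exact power of p dividing the sum of the squares of the degrees of the irreducible characters in B is p^(2a − d). -/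
theorem result {G : Type*} [Group G] [Finite G] (p : ℕ) [Fact p.Prime] (M : Ideal Cfsg.AlgInt) (hM : Cfsg.IsPModular p M) (B : Set (Cfsg.IrrCharacter G)) (hB : Cfsg.IsPBlock M B) : (∑ᶠ χ ∈ B, Cfsg.charDegree (χ : G → ℂ) ^ 2).factorization p = 2 * (Nat.card G).factorization p - Cfsg.blockDefect p B := by
  classical
  haveI := Fintype.ofFinite G
  haveI := hM.2.1
  have hp : p.Prime := Fact.out
  set a := (Nat.card G).factorization p with ha
  set T := ((fun χ : Cfsg.IrrCharacter G => (Cfsg.charDegree (χ : G → ℂ)).factorization p) '' B) with hT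
  set h := sInf T with hh
  set S := Finset.univ.filter (fun χ : Cfsg.IrrCharacter G => χ ∈ B) with hS
  have hd : Cfsg.blockDefect p B = a - h := rfl
  obtain ⟨χ₀, hχ₀B, hχ₀⟩ : h ∈ T := Nat.sInf_mem ((Lib.Block.isPBlock_nonempty hB).image _)
  have hmin : ∀ χ ∈ B, p ^ h ∣ Cfsg.charDegree (χ : G → ℂ) := fun χ hχ =>
    (pow_dvd_pow p (Nat.sInf_le (show _ ∈ T from ⟨χ, hχ, rfl⟩))).trans (Nat.ordProj_dvd _ p)
  have hha : h ≤ a := by
    rw [ha, ← hp.pow_dvd_iff_le_factorization Nat.card_pos.ne']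
    exact (hmin χ₀ hχ₀B).trans (Lib.Char.charDegree_dvd_card χ₀.2)
  set pa : ℕ := p ^ a with hpa
  have hdeg : ∀ χ : Cfsg.IrrCharacter G, (χ : G → ℂ) 1 = (Cfsg.charDegree (χ : G → ℂ) : ℂ) :=
    Lib.Block.irr_one_eq_natCast
  -- the permutation character on the cosets of a Sylow subgroup
  let P : Sylow p G := default
  haveI := Fintype.ofFinite (P : Subgroup G)
  set θ : G → ℂ := Cfsg.indFun (P : Subgroup G) (fun _ => 1) with hθ
  have hθc : Cfsg.IsCharacter G θ :=
    Lib.Char.isCharacter_indFun _ Lib.Char.isCharacter_one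
  choose x hx using fun ψ : Cfsg.IrrCharacter G =>
    Lib.Char.classInner_natCast hθc (Lib.Char.isCharacter_of_isIrr ψ.2)
  have hθ1 : θ 1 * (pa : ℂ) = (Nat.card G : ℂ) := by
    rw [hθ, Lib.Char.indFun_one, mul_one, hpa, ha, ← P.card_eq_multiplicity, ← Nat.cast_mul,
      (P : Subgroup G).index_mul_card]
  have hθ0 : ∀ g : G, g ≠ 1 → ¬ p ∣ orderOf g → θ g = 0 := by
    intro g hg hgp
    simp only [hθ, Cfsg.indFun]
    refine mul_eq_zero_of_right _ (Finset.sum_eq_zero fun c _ => ?_)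
    refine Lib.Char.extendByZero_not_mem _ _ fun hc => hg ?_
    have h1 : Lib.Block.IsPElem p (c⁻¹ * g * c) := Lib.Block.isPElem_of_mem P.2 hc
    have h2 : ¬ p ∣ orderOf (c⁻¹ * g * c) := by
      have := Lib.Block.orderOf_conj_eq c⁻¹ g
      rw [inv_inv] at this
      rwa [this]
    have h3 := Lib.Block.eq_one_of_isPElem_of_regular h1 h2
    calc g = c * (c⁻¹ * g * c) * c⁻¹ := by group
      _ = 1 := by rw [h3]; group
  -- first identity: the degrees are integral combinations of the rows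
  have I1 : ∀ χ ∈ S, ∑ ψ ∈ S, (x ψ : ℤ) * Lib.Heights.mult p χ ψ =
      (Cfsg.charDegree (χ : G → ℂ) : ℤ) := by
    intro χ hχ
    have hχB := (Finset.mem_filter.1 hχ).2
    rw [Finset.sum_subset (Finset.subset_univ S) fun ψ _ hψ => by
      rw [Lib.Heights.mult_eq_zero_of_not_mem hM hB hχB fun h' =>
        hψ (Finset.mem_filter.2 ⟨Finset.mem_univ _, h'⟩), mul_zero]]
    apply Int.cast_injective (α := ℂ)
    push_cast
    have e := Lib.Char.classInner_eq_sum (φ := Lib.Heights.scaled p (χ : G → ℂ)) (ψ := θ)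
      (Lib.Char.isClassFunction_of_isCharacter hθc)
    simp only [hx, map_natCast, Lib.Heights.classInner_scaled hp] at e
    rw [Finset.sum_congr rfl fun ψ _ => mul_comm ((x ψ : ℂ)) _, ← e]
    simp only [Cfsg.classInner, Lib.Heights.scaled, Lib.Char.regFun, ← ha, ← hpa]
    rw [Finset.sum_eq_single (1 : G)]
    · have hc : starRingEnd ℂ (θ 1) = θ 1 := by
        rw [hθ, Lib.Char.indFun_one, mul_one, map_natCast]
      rw [if_neg Lib.Block.regular_one, hc, hdeg]
      have hG0 := Lib.Char.card_ne_zero_complex G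
      field_simp
      linear_combination ((Cfsg.charDegree (χ : G → ℂ) : ℂ)) * hθ1
    · intro g _ hg
      split_ifs with hgp
      · simp
      · rw [hθ0 g hg hgp, map_zero, mul_zero]
    · simp
  -- second identity: the block's part of the regular character is projective
  have I2 : ∀ ψ ∈ S, ∑ χ ∈ S, (Cfsg.charDegree (χ : G → ℂ) : ℤ) * Lib.Heights.mult p χ ψ =
      (pa : ℤ) * (Cfsg.charDegree (ψ : G → ℂ) : ℤ) := by
    intro ψ hψ
    apply Int.cast_injective (α := ℂ)
    push_cast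
    set Φ : G → ℂ := ∑ χ ∈ S, (Cfsg.charDegree (χ : G → ℂ) : ℂ) • (χ : G → ℂ) with hΦ
    have hΦ0 : ∀ g : G, p ∣ orderOf g → Φ g = 0 := by
      intro g hg
      have h0 := Lib.Block.blockCoeff_eq_zero_of_singular hM hB hg
      rw [Lib.Block.blockCoeff_eq_sum, mul_eq_zero, or_iff_right (inv_ne_zero
        (Lib.Char.card_ne_zero_complex G)), ← Finset.sum_filter] at h0
      have h1 := congrArg (starRingEnd ℂ) h0
      rw [map_sum, map_zero] at h1
      rw [← h1, hΦ, Finset.sum_apply]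
      exact Finset.sum_congr rfl fun χ _ => by
        rw [map_mul, Complex.conj_conj, hdeg, map_natCast, Pi.smul_apply, smul_eq_mul]
    have e : (pa : ℂ) • Φ =
        ∑ χ ∈ S, (Cfsg.charDegree (χ : G → ℂ) : ℂ) • Lib.Heights.scaled p (χ : G → ℂ) := by
      funext g
      simp only [Finset.sum_apply, Pi.smul_apply, smul_eq_mul, Lib.Heights.scaled, Lib.Char.regFun,
        ← ha, ← hpa]
      by_cases hg : p ∣ orderOf g
      · rw [hΦ0 g hg, mul_zero]
        simp [hg]
      · rw [hΦ, Finset.sum_apply, Finset.mul_sum]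
        exact Finset.sum_congr rfl fun χ _ => by
          rw [if_neg hg, Pi.smul_apply, smul_eq_mul]; ring
    have e2 := congrArg (fun f => Cfsg.classInner f (ψ : G → ℂ)) e
    simp only [hΦ, Lib.Char.classInner_smul_left, Lib.Char.classInner_sum_left,
      Lib.Heights.classInner_scaled hp, Lib.Char.classInner_irrCharacter, mul_ite, mul_one, mul_zero,
      Finset.sum_ite_eq', if_pos hψ] at e2
    exact e2.symm
  -- the reduced degree sum
  choose f hf using fun χ : S => hmin χ.1 (Finset.mem_filter.1 χ.2).2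
  set X : ℕ := ∑ χ : S, x χ.1 * f χ with hX
  have hsum : (∑ᶠ χ ∈ B, Cfsg.charDegree (χ : G → ℂ) ^ 2) = p ^ a * (p ^ h * X) := by
    rw [finsum_mem_eq_finite_toFinset_sum _ B.toFinite,
      show B.toFinite.toFinset = S by ext; simp [hS], hX, Finset.mul_sum]
    rw [Finset.sum_congr rfl (fun (χ : S) _ =>
      show p ^ h * (x χ.1 * f χ) = x χ.1 * Cfsg.charDegree ((χ.1 : Cfsg.IrrCharacter G) : G → ℂ) by
        rw [hf χ]; ring), Finset.sum_coe_sort S (fun χ => x χ * Cfsg.charDegree (χ : G → ℂ))]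
    zify
    calc ∑ χ ∈ S, (Cfsg.charDegree (χ : G → ℂ) : ℤ) ^ 2
        = ∑ χ ∈ S, ∑ ψ ∈ S, (x ψ : ℤ) * ((Cfsg.charDegree (χ : G → ℂ) : ℤ) * Lib.Heights.mult p χ ψ) :=
          Finset.sum_congr rfl fun χ hχ => by
            rw [pow_two]; nth_rw 2 [← I1 χ hχ]; rw [Finset.mul_sum]
            exact Finset.sum_congr rfl fun ψ _ => by ring
      _ = _ := by
          rw [Finset.sum_comm, Finset.mul_sum]
          refine Finset.sum_congr rfl fun ψ hψ => ?_
          rw [← Finset.mul_sum, I2 ψ hψ, hpa]; push_cast; ring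
  have hχ₀S : χ₀ ∈ S := Finset.mem_filter.2 ⟨Finset.mem_univ _, hχ₀B⟩
  have hXp : ¬ p ∣ X := by
    intro hpX
    have hf0 : ¬ p ∣ f ⟨χ₀, hχ₀S⟩ := by
      intro hd'
      have h2 : p ^ (h + 1) ∣ Cfsg.charDegree (χ₀ : G → ℂ) := by
        rw [hf ⟨χ₀, hχ₀S⟩, pow_succ]; exact mul_dvd_mul_left _ hd'
      rw [hp.pow_dvd_iff_le_factorization (Lib.Char.charDegree_pos χ₀.2).ne'] at h2
      exact absurd (hχ₀ ▸ h2 : h + 1 ≤ h) (by omega)
    set w : Cfsg.IrrCharacter G → ℂ := fun ψ =>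
      Lib.Block.omega (ψ : G → ℂ) (Lib.Heights.regElt p (χ₀ : G → ℂ)) with hw
    have hwR : ∀ ψ, w ψ ∈ Lib.Block.locRing M := fun ψ =>
      Lib.Block.omega_mem_locRing ψ (Lib.Heights.isClassCoeff_regElt χ₀) (Lib.Heights.intR_regElt hM χ₀)
    have e := I1 χ₀ hχ₀S
    rw [← Finset.sum_coe_sort S] at e
    have e' : ((f ⟨χ₀, hχ₀S⟩ : ℕ) : ℂ) = ∑ ψ : S, ((x ψ.1 * f ψ : ℕ) : ℂ) * w ψ.1 := by
      have hp0 : ((p ^ h : ℕ) : ℂ) ≠ 0 := Nat.cast_ne_zero.2 (pow_ne_zero _ hp.ne_zero)
      refine mul_left_cancel₀ hp0 ?_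
      rw [Finset.mul_sum, ← Nat.cast_mul, ← hf ⟨χ₀, hχ₀S⟩]
      have e1 := congrArg (fun z : ℤ => (z : ℂ)) e
      push_cast at e1
      rw [← e1]
      refine Finset.sum_congr rfl fun ψ _ => ?_
      rw [Lib.Heights.mult_comm hp, Lib.Heights.mult_eq_degree_mul hp, hdeg, hf ψ]
      simp only [hw]
      push_cast
      ring
    haveI := Lib.Block.resField_charP (M := M) hM
    have e2 := congrArg (Lib.Block.redC M) e'
    rw [Lib.Block.redC_natCast, Lib.Block.redC_sum _ fun ψ _ => mul_mem (natCast_mem _ _) (hwR ψ.1)] at e2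
    rw [Finset.sum_congr rfl fun (ψ : S) _ => show
      Lib.Block.redC M (((x ψ.1 * f ψ : ℕ) : ℂ) * w ψ.1) =
        ((x ψ.1 * f ψ : ℕ) : Lib.Block.ResField M) * Lib.Block.redC M (w χ₀) by
        rw [Lib.Block.redC_mul (natCast_mem _ _) (hwR ψ.1), Lib.Block.redC_natCast]
        congr 1
        exact Lib.Block.redC_omega_eq_of_sameBlock
          (Lib.Block.sameBlock_of_mem hB (Finset.mem_filter.1 ψ.2).2 hχ₀B)
          (Lib.Heights.isClassCoeff_regElt χ₀) (Lib.Heights.intR_regElt hM χ₀)] at e2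
    rw [← Finset.sum_mul, ← Nat.cast_sum, ← hX, (CharP.cast_eq_zero_iff _ p X).2 hpX, zero_mul,
      CharP.cast_eq_zero_iff _ p] at e2
    exact hf0 e2
  have hX0 : X ≠ 0 := fun e => hXp (e ▸ dvd_zero p)
  rw [hsum, hd, ← mul_assoc, ← pow_add, Nat.factorization_mul (pow_ne_zero _ hp.ne_zero) hX0]
  simp only [Finsupp.add_apply, hp.factorization_pow, Finsupp.single_eq_same,
    Nat.factorization_eq_zero_of_not_dvd hXp, add_zero]
  omega

end Cfsg.Agent.S4491
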