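import Cfsg.Statements.S4443
import Cfsg.Agent.S4491
import Cfsg.Agent.Lib.BrauerPairs.BlockAlg
import Cfsg.Agent.Lib.BrauerPairs.Descent
import Cfsg.Agent.Lib.Block.Defect
import Cfsg.Agent.Lib.Block.NormalP
import Mathlib.LinearAlgebra.Matrix.Rank

set_option autoImplicit false
set_option linter.style.haveILetI false
open Cfsg Cfsg.Agent.Lib Cfsg.Agent.Lib.Block Cfsg.Agent.Lib.BrauerPairs
open scoped ComplexConjugate

namespace Cfsg.Agent.S4443

universe u

/-- The rank does not change along a homomorphism of fields. -/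
theorem rank_map {F L : Type*} [Field F] [Field L] {n : Type*} [Fintype n] [DecidableEq n]
    (A : Matrix n n F) (f : F →+* L) : (A.map f).rank = A.rank := by
  classical
  obtain ⟨T, T', D, hA⟩ := Matrix.Pivot.exists_list_transvec_mul_diagonal_mul_list_transvec A
  set P := (T.map Matrix.TransvectionStruct.toMatrix).prod with hP
  set Q := (T'.map Matrix.TransvectionStruct.toMatrix).prod with hQ
  have hPd : P.det = 1 := by rw [hP]; simp
  have hQd : Q.det = 1 := by rw [hQ]; simp
  have hA' : A.map f = P.map f * Matrix.diagonal (fun i => f (D i)) * Q.map f := by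
    rw [hA, Matrix.map_mul, Matrix.map_mul, Matrix.diagonal_map (map_zero f)]
  have hPu : IsUnit (P.map f).det := by
    rw [← RingHom.mapMatrix_apply, ← RingHom.map_det, hPd, map_one]; exact isUnit_one
  have hQu : IsUnit (Q.map f).det := by
    rw [← RingHom.mapMatrix_apply, ← RingHom.map_det, hQd, map_one]; exact isUnit_one
  rw [hA', hA, Matrix.rank_mul_eq_left_of_isUnit_det (Q.map f) _ hQu,
    Matrix.rank_mul_eq_right_of_isUnit_det (P.map f) _ hPu,
    Matrix.rank_mul_eq_left_of_isUnit_det Q _ (hQd ▸ isUnit_one),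
    Matrix.rank_mul_eq_right_of_isUnit_det P _ (hPd ▸ isUnit_one),
    Matrix.rank_diagonal, Matrix.rank_diagonal]
  exact Fintype.card_congr (Equiv.subtypeEquivRight fun i => by simp)

variable {p : ℕ} {M : Ideal AlgInt} [M.IsPrime] {G : Type u} [Group G] [Finite G]

/-- A natural number with an integral quotient by a power of `p` is divisible by it. -/
theorem pow_dvd_of_mem (hM : IsPModular p M) {n e : ℕ} {t : ℂ} (ht : t ∈ locRing M)
    (h : (n : ℂ) = ((p ^ e : ℕ) : ℂ) * t) : p ^ e ∣ n := by
  induction e generalizing n t with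
  | zero => simp
  | succ e ih =>
    obtain ⟨q, hq⟩ := ih (t := (p : ℂ) * t) (mul_mem (nat_mem p) ht)
      (by rw [h]; push_cast; ring)
    have hqt : (q : ℂ) = (p : ℂ) * t := by
      have h1 : ((p ^ e : ℕ) : ℂ) * (q : ℂ) = ((p ^ e : ℕ) : ℂ) * ((p : ℂ) * t) := by
        rw [← Nat.cast_mul, ← hq, h]; push_cast; ring
      exact mul_left_cancel₀ (Nat.cast_ne_zero.2 (pow_ne_zero e hM.1.ne_zero)) h1
    have h2 : redC M (q : ℂ) = 0 := by
      rw [hqt, redC_mul (nat_mem p) ht, (redC_natCast_eq_zero_iff hM).2 dvd_rfl, zero_mul]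
    rw [hq, pow_succ]
    exact mul_dvd_mul_left _ ((redC_natCast_eq_zero_iff hM).1 h2)

/-- Let D be a normal p-subgroup of the finite group G, of order p^d, let p^a be the p-part of the order of G, and fix a Sylow p-subgroup S and a maximal ideal M of the algebraic integers containing p. Index by a finite type ι (via an injective map K) exactly the conjugacy classes of p-regular elements x of G for which D is a Sylow p-subgroup of C_G(x). For classes K_i, K_j let ω(i, j) be the number of pairs (y, z) ∈ K_i × K_j with z y⁻¹ ∈ S; this number is divisible by p^(a−d). Then the number of p-blocks of G having D as a defect group equals the rank over ℤ/pℤ of the matrix with (i, j) entry ω(i, j)/p^(a−d) reduced modulo p. -/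
theorem result {G : Type*} [Group G] [Finite G] (p : ℕ) [Fact p.Prime] (M : Ideal Cfsg.AlgInt) (hM : Cfsg.IsPModular p M) (D : Subgroup G) [D.Normal] (hD : IsPGroup p D) (S : Sylow p G) {ι : Type*} [Fintype ι] [DecidableEq ι] (K : ι → ConjClasses G) (hKinj : Function.Injective K) (hK : ∀ C : ConjClasses G, (∃ i, K i = C) ↔ ∃ x ∈ C.carrier, ¬ p ∣ orderOf x ∧ ∃ Q : Sylow p (Subgroup.centralizer ({x} : Set G)), (Q : Subgroup (Subgroup.centralizer ({x} : Set G))).map (Subgroup.centralizer ({x} : Set G)).subtype = D) : Nat.card {B : Set (Cfsg.IrrCharacter G) // Cfsg.IsPBlock M B ∧ Cfsg.IsDefectGroup p M B D} = (Matrix.of fun i j : ι => ((Nat.card {yz : G × G // yz.1 ∈ (K i).carrier ∧ yz.2 ∈ (K j).carrier ∧ yz.2 * yz.1⁻¹ ∈ (S : Subgroup G)} / p ^ ((Nat.card G).factorization p - (Nat.card D).factorization p) : ℕ) : ZMod p)).rank := by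
  classical
  haveI := hM.2.1
  haveI := resField_charP (M := M) hM
  haveI := Fintype.ofFinite G
  haveI := Fintype.ofFinite (ConjClasses G)
  set a := (Nat.card G).factorization p with ha
  set d := (Nat.card D).factorization p with hd
  set e := a - d with he
  have hDc : Nat.card D = p ^ d := by
    obtain ⟨k, hk⟩ := IsPGroup.iff_card.1 hD
    rw [hd, hk, hM.1.factorization_pow, Finsupp.single_eq_same]
  have hda : d ≤ a := (Nat.factorization_le_iff_dvd Nat.card_pos.ne' Nat.card_pos.ne').2
    (Subgroup.card_subgroup_dvd_card D) p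
  -- the classes
  let P : G → Prop := fun g => ¬ p ∣ orderOf g ∧ g ∈ Subgroup.centralizer (D : Set G) ∧
    (Subgroup.centralizer ({g} : Set G)).index.factorization p = e
  have hPconj : ∀ g h : G, IsConj g h → P g → P h := by
    intro g h hgh hg
    obtain ⟨c, rfl⟩ := isConj_iff.1 hgh
    refine ⟨by rw [orderOf_conj_eq]; exact hg.1,
      (inferInstance : (Subgroup.centralizer (D : Set G)).Normal).conj_mem g hg.2.1 c, ?_⟩
    rw [show c * g * c⁻¹ = MulAut.conj c g from rfl, index_centralizer_map (MulAut.conj c) g]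
    exact hg.2.2
  have hPiff : ∀ g : G, P g ↔ ¬ p ∣ orderOf g ∧
      ∃ Q : Sylow p (Subgroup.centralizer ({g} : Set G)),
        (Q : Subgroup (Subgroup.centralizer ({g} : Set G))).map
          (Subgroup.centralizer ({g} : Set G)).subtype = D := by
    intro g
    have hfac := factorization_card_eq g p
    rw [← ha] at hfac
    constructor
    · rintro ⟨h1, h2, h3⟩
      refine ⟨h1, ?_⟩
      obtain ⟨Q, hQ⟩ :=
        (hD.comap_subtype (K := Subgroup.centralizer ({g} : Set G))).exists_le_sylow
      refine ⟨Q, (Subgroup.eq_of_le_of_card_ge ?_ ?_).symm⟩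
      · intro x hx
        exact ⟨⟨x, le_centralizer_singleton_iff.2 h2 hx⟩, hQ hx, rfl⟩
      · rw [card_sylow_centralizer hM, hDc]
        exact Nat.pow_le_pow_right hM.1.pos (by omega)
    · rintro ⟨h1, Q, hQ⟩
      refine ⟨h1, le_centralizer_singleton_iff.1 (hQ ▸ Subgroup.map_subtype_le _), ?_⟩
      have h4 := card_sylow_centralizer hM g Q
      rw [hQ, hDc] at h4
      have h5 := Nat.pow_right_injective hM.1.two_le h4
      omega
  let x : ι → G := fun i => (K i).out
  have hxK : ∀ i, ConjClasses.mk (x i) = K i := fun i => Quotient.out_eq _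
  have hclass : ∀ g, P g ↔ ∃ i, K i = ConjClasses.mk g := by
    intro g
    rw [hK]
    constructor
    · exact fun hg => ⟨g, ConjClasses.mem_carrier_mk, (hPiff g).1 hg⟩
    · rintro ⟨y, hy, hPy⟩
      exact hPconj y g (ConjClasses.mk_eq_mk_iff_isConj.1 (ConjClasses.mem_carrier_iff_mk_eq.1 hy))
        ((hPiff y).2 hPy)
  have hPx : ∀ i, P (x i) := fun i => (hclass _).2 ⟨i, (hxK i).symm⟩
  have hPinv : ∀ g, P g → P g⁻¹ := by
    rintro g ⟨h1, h2, h3⟩
    refine ⟨by rwa [orderOf_inv], inv_mem h2, ?_⟩
    rw [show Subgroup.centralizer ({g⁻¹} : Set G) = Subgroup.centralizer ({g} : Set G) from ?_]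
    · exact h3
    ext y
    rw [Subgroup.mem_centralizer_singleton_iff, Subgroup.mem_centralizer_singleton_iff]
    exact ⟨fun h => by simpa using (Commute.inv_right h : Commute y g⁻¹⁻¹).eq,
      fun h => (Commute.inv_right h : Commute y g⁻¹).eq⟩
  -- the blocks
  have hdef : ∀ B : Set (IrrCharacter G), IsPBlock M B →
      (IsDefectGroup p M B D ↔ blockDefect p B = d) ∧ d ≤ blockDefect p B := by
    intro B hB
    obtain ⟨E, hE⟩ := exists_isDefectGroup hM hB
    obtain ⟨-, hEc, -⟩ := IsDefectGroup.props hM hB hE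
    have hle := le_defect_of_normal hM hB hD hE
    have h1 := Subgroup.card_le_of_le hle
    rw [hDc, hEc] at h1
    refine ⟨⟨fun h => ?_, fun h => ?_⟩, (Nat.pow_le_pow_iff_right hM.1.one_lt).1 h1⟩
    · have h2 := (IsDefectGroup.props hM hB h).2.1
      rw [hDc] at h2
      exact (Nat.pow_right_injective hM.1.two_le h2).symm
    · rwa [Subgroup.eq_of_le_of_card_ge hle (by rw [hDc, hEc, h])]
  have hsupp : ∀ B : Set (IrrCharacter G), IsPBlock M B → blockDefect p B = d → ∀ g,
      redC M ((eIdem B).coeff g) ≠ 0 → P g := by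
    intro B hB hBd g hg
    have hg' : (bar M B).coeff g ≠ 0 := by rwa [coeff_bar, ← coeff_eIdem]
    have hreg : ¬ p ∣ orderOf g := fun h => hg (by
      rw [coeff_eq_zero_of_singular hM (isIdempotentElem_eIdem B) (isClassCoeff_eIdem B)
        (intR_eIdem hB) h, redC_zero])
    have hgC : g ∈ Subgroup.centralizer (D : Set G) := by
      by_contra hn
      apply hg'
      rw [← br_eq_self_of_normal hM hD (isClassCoeff_bar B) (isIdempotentElem_bar hB)]
      exact coeff_br_of_not_mem _ hn
    refine ⟨hreg, hgC, ?_⟩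
    rw [coeff_eIdem] at hg
    have h1 := factorization_le_blockDefect_of_support hM hB hg
    have h2 : d ≤ (Nat.card (Subgroup.centralizer ({g} : Set G))).factorization p :=
      (Nat.factorization_le_iff_dvd Nat.card_pos.ne' Nat.card_pos.ne').2
        (Subgroup.card_dvd_of_le (le_centralizer_singleton_iff.2 hgC)) p
    have h3 := factorization_card_eq g p
    omega
  have hvanish : ∀ χ : IrrCharacter G, blockDefect p (blockOf M (χ : G → ℂ)) ≠ d → ∀ g, P g →
      redC M (centralChar (χ : G → ℂ) g) = 0 := by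
    intro χ hne g hg
    by_contra h0
    have hB := isPBlock_blockOf (M := M) χ
    obtain ⟨χm, hχm, hmin⟩ := exists_height_zero hB p
    rw [sameBlock_iff.1 (sameBlock_of_mem hB (mem_blockOf_self χ) hχm) g] at h0
    have h1 := index_le_deg_of_redC_ne_zero hM χm h0
    rw [hg.2.2] at h1
    have h2 := blockDefect_eq_of_min (p := p) hχm hmin
    have h3 := (hdef _ hB).2
    omega
  -- the counting identity
  let m : IrrCharacter G → ℕ := fun χ => Classical.choose (Char.classInner_natCast
    (G := (S : Subgroup G)) (χ := fun _ => (1 : ℂ))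
    (Char.isCharacter_of_isIrr Char.isIrrCharacter_one)
    (Char.isCharacter_restrict (Char.isCharacter_of_isIrr χ.2) (S : Subgroup G)))
  have hm : ∀ χ : IrrCharacter G, classInner (fun _ : (S : Subgroup G) => (1 : ℂ))
      (fun s : (S : Subgroup G) => (χ : G → ℂ) s) = m χ := fun χ =>
    Classical.choose_spec (Char.classInner_natCast
      (G := (S : Subgroup G)) (χ := fun _ => (1 : ℂ))
      (Char.isCharacter_of_isIrr Char.isIrrCharacter_one)
      (Char.isCharacter_restrict (Char.isCharacter_of_isIrr χ.2) (S : Subgroup G)))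
  set w := ((S : Subgroup G).index : ℂ)⁻¹ with hw
  have hwR : w ∈ locRing M := inv_natCast_mem_locRing hM S.not_dvd_index
  have hT : ∀ χ : IrrCharacter G,
      ∑ s : (S : Subgroup G), (eIdem ({χ} : Set (IrrCharacter G))).coeff (s : G) =
        (χ : G → ℂ) 1 * m χ * w := by
    intro χ
    have h1 := hm χ
    rw [classInner] at h1
    simp only [coeff_eIdem, blockCoeff, finsum_mem_singleton, ← Finset.mul_sum]
    simp only [one_mul] at h1
    rw [← h1, hw, ← Subgroup.card_mul_index (S : Subgroup G), Nat.cast_mul]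
    have : (Nat.card (S : Subgroup G) : ℂ) ≠ 0 := Nat.cast_ne_zero.2 Nat.card_pos.ne'
    field_simp
  set n : ι → ι → ℕ := fun i j => Nat.card {yz : G × G // yz.1 ∈ (K i).carrier ∧
    yz.2 ∈ (K j).carrier ∧ yz.2 * yz.1⁻¹ ∈ (S : Subgroup G)} with hn
  have hcount : ∀ i j, (n i j : ℂ) = ∑ χ : IrrCharacter G,
      centralChar (χ : G → ℂ) (x j) * centralChar (χ : G → ℂ) (x i)⁻¹ *
        ((χ : G → ℂ) 1 * m χ * w) := by
    intro i j
    set Z := classSum ℂ (x j) * classSum ℂ (x i)⁻¹ with hZ
    have hZc : IsClassCoeff Z := (isClassCoeff_classSum _).mul (isClassCoeff_classSum _)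
    have hdec : Z = ∑ χ : IrrCharacter G, omega (χ : G → ℂ) Z • eIdem {χ} := by
      refine eq_of_omega_eq hZc (fun u y => ?_) fun χ => ?_
      · simp only [coeff_sum_apply, MonoidAlgebra.coeff_smul_apply, coeff_eIdem]
        exact Finset.sum_congr rfl fun ψ _ => by rw [isClassFunction_blockCoeff {ψ} y u]
      · simp only [omega_sum, omega_smul, omega_eIdem, Set.mem_singleton_iff, mul_ite, mul_one,
          mul_zero]
        rw [Finset.sum_ite_eq, if_pos (Finset.mem_univ χ)]
    have hL : (n i j : ℂ) = ∑ s : (S : Subgroup G), Z.coeff (s : G) := by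
      have hmem : ∀ (k : ι) (y : G), y ∈ (K k).carrier ↔ IsConj (x k) y := fun k y => by
        rw [ConjClasses.mem_carrier_iff_mk_eq, ← hxK k, ConjClasses.mk_eq_mk_iff_isConj]
        exact ⟨IsConj.symm, IsConj.symm⟩
      have hinvc : ∀ (g y : G), IsConj g⁻¹ y ↔ IsConj g y⁻¹ := fun g y => by
        rw [isConj_iff, isConj_iff]
        constructor
        · rintro ⟨c, rfl⟩; exact ⟨c, by group⟩
        · rintro ⟨c, hc⟩; exact ⟨c, by rw [← inv_inv y, ← hc]; group⟩
      rw [hn, hZ]
      dsimp only
      simp only [coeff_mul_eq_sum', coeff_classSum, hinvc, hmem]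
      rw [Nat.card_eq_fintype_card, Fintype.card_subtype, Finset.natCast_card_filter,
        Fintype.sum_prod_type, Finset.sum_comm (γ := (S : Subgroup G))]
      refine (Equiv.sum_comp (Equiv.inv G) _).symm.trans (Finset.sum_congr rfl fun y _ => ?_)
      rw [← Equiv.sum_comp (Equiv.mulRight y⁻¹)]
      simp only [Equiv.inv_apply, Equiv.coe_mulRight, inv_inv, mul_inv_cancel_right]
      rw [← Finset.sum_subtype (Finset.univ.filter (· ∈ (S : Subgroup G))) (fun z => by simp)
        (fun z => (if IsConj (x j) (z * y⁻¹) then (1 : ℂ) else 0) *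
          if IsConj (x i) y⁻¹ then 1 else 0), Finset.sum_filter]
      refine Finset.sum_congr rfl fun z _ => ?_
      by_cases h1 : IsConj (x i) y⁻¹ <;> by_cases h2 : IsConj (x j) (z * y⁻¹) <;>
        by_cases h3 : z ∈ (S : Subgroup G) <;> simp [-isConj_iff, h1, h2, h3]
    rw [hL]
    conv_lhs => rw [hdec]
    simp only [coeff_sum_apply, MonoidAlgebra.coeff_smul_apply, smul_eq_mul]
    rw [Finset.sum_comm]
    refine Finset.sum_congr rfl fun χ _ => ?_
    rw [← Finset.mul_sum, hT, hZ, omega_mul χ (isClassCoeff_classSum _), omega_classSum_irr,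
      omega_classSum_irr]
  -- integrality
  let r : ι → ℕ := fun i => (Subgroup.centralizer ({(x i)⁻¹} : Set G)).index / p ^ e
  have hr : ∀ i, (Subgroup.centralizer ({(x i)⁻¹} : Set G)).index = p ^ e * r i := by
    intro i
    refine (Nat.mul_div_cancel' ?_).symm
    conv_lhs => rw [← (hPinv _ (hPx i)).2.2]
    exact Nat.ordProj_dvd _ p
  let t : ι → IrrCharacter G → ℂ := fun i χ => (r i : ℂ) * (χ : G → ℂ) (x i)⁻¹ * m χ * w
  have htR : ∀ i χ, t i χ ∈ locRing M := fun i χ =>
    mul_mem (mul_mem (mul_mem (nat_mem _) (irr_mem_locRing χ _)) (nat_mem _)) hwR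
  have hcount' : ∀ i j, (n i j : ℂ) = ((p ^ e : ℕ) : ℂ) *
      ∑ χ : IrrCharacter G, centralChar (χ : G → ℂ) (x j) * t i χ := by
    intro i j
    rw [hcount i j, Finset.mul_sum]
    refine Finset.sum_congr rfl fun χ _ => ?_
    have hne : (χ : G → ℂ) 1 ≠ 0 := by
      rw [irr_one_eq_natCast]; exact Nat.cast_ne_zero.2 (charDegree_pos χ).ne'
    conv_lhs => rw [show centralChar (χ : G → ℂ) (x i)⁻¹ =
      ((Subgroup.centralizer ({(x i)⁻¹} : Set G)).index : ℂ) * (χ : G → ℂ) (x i)⁻¹ /
        (χ : G → ℂ) 1 from rfl, hr i, Nat.cast_mul]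
    simp only [t]
    field_simp
  have hsumR : ∀ i j, (∑ χ : IrrCharacter G, centralChar (χ : G → ℂ) (x j) * t i χ) ∈ locRing M :=
    fun i j => sum_mem fun χ _ => mul_mem (centralChar_mem_locRing χ _) (htR i χ)
  have hmod : ∀ i j, ((n i j / p ^ e : ℕ) : ResField M) =
      ∑ χ : IrrCharacter G, redC M (centralChar (χ : G → ℂ) (x j)) * redC M (t i χ) := by
    intro i j
    obtain ⟨q, hq⟩ := pow_dvd_of_mem hM (hsumR i j) (hcount' i j)
    have hqt : (q : ℂ) = ∑ χ : IrrCharacter G, centralChar (χ : G → ℂ) (x j) * t i χ := by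
      have h1 := hcount' i j
      rw [hq, Nat.cast_mul] at h1
      exact mul_left_cancel₀ (Nat.cast_ne_zero.2 (pow_ne_zero e hM.1.ne_zero)) h1
    rw [hq, Nat.mul_div_cancel_left q (pow_pos hM.1.pos e), ← redC_natCast (M := M), hqt,
      redC_sum _ fun χ _ => mul_mem (centralChar_mem_locRing χ _) (htR i χ)]
    exact Finset.sum_congr rfl fun χ _ => redC_mul (centralChar_mem_locRing χ _) (htR i χ)
  -- regroup by blocks
  let β := {B : Set (IrrCharacter G) // IsPBlock M B ∧ blockDefect p B = d}
  haveI : Fintype β := Fintype.ofFinite _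
  choose rep hrep using fun B : β => isPBlock_nonempty B.2.1
  let lamB : β → G → ResField M := fun B g => redC M (centralChar (rep B : G → ℂ) g)
  let u : IrrCharacter G → ℕ := fun χ => charDegree (χ : G → ℂ) / p ^ e
  have hu : ∀ (B : β) (χ : IrrCharacter G), χ ∈ B.1 → charDegree (χ : G → ℂ) = p ^ e * u χ := by
    intro B χ hχ
    refine (Nat.mul_div_cancel' ?_).symm
    refine (Nat.pow_dvd_pow p ?_).trans (Nat.ordProj_dvd _ p)
    have h1 : blockDefect p B.1 = d := B.2.2
    rw [blockDefect, ← ha] at h1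
    have h2 : sInf ((fun χ : IrrCharacter G => (charDegree (χ : G → ℂ)).factorization p) '' B.1) ≤
        (charDegree (χ : G → ℂ)).factorization p := Nat.sInf_le ⟨χ, hχ, rfl⟩
    omega
  let c : β → ResField M := fun B =>
    ∑ χ : IrrCharacter G, if χ ∈ B.1 then redC M ((u χ : ℂ) * m χ * w) else 0
  have hkey : ∀ i j, ((n i j / p ^ e : ℕ) : ResField M) =
      ∑ B : β, lamB B (x i)⁻¹ * c B * lamB B (x j) := by
    intro i j
    rw [hmod i j]
    simp only [c, Finset.mul_sum, Finset.sum_mul]
    rw [Finset.sum_comm]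
    refine Finset.sum_congr rfl fun χ _ => ?_
    by_cases hdχ : blockDefect p (blockOf M (χ : G → ℂ)) = d
    · set B₀ : β := ⟨blockOf M (χ : G → ℂ), isPBlock_blockOf χ, hdχ⟩ with hB₀
      rw [Finset.sum_eq_single B₀]
      · have hmem : χ ∈ B₀.1 := mem_blockOf_self χ
        have hs := sameBlock_iff.1 (sameBlock_of_mem B₀.2.1 (hrep B₀) hmem)
        rw [if_pos hmem]
        simp only [lamB]
        rw [hs, hs]
        have hrt : t i χ = centralChar (χ : G → ℂ) (x i)⁻¹ * ((u χ : ℂ) * m χ * w) := by
          simp only [t]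
          rw [centralChar, hr i, irr_one_eq_natCast, hu B₀ χ hmem]
          have h1 : ((p ^ e : ℕ) : ℂ) ≠ 0 := Nat.cast_ne_zero.2 (pow_ne_zero e hM.1.ne_zero)
          have h2 : (u χ : ℂ) ≠ 0 := Nat.cast_ne_zero.2 fun h0 => (charDegree_pos χ).ne' (by
            rw [hu B₀ χ hmem, h0, mul_zero])
          push_cast at h1 ⊢
          field_simp
        rw [hrt, redC_mul (centralChar_mem_locRing χ _)
          (mul_mem (mul_mem (nat_mem _) (nat_mem _)) hwR)]
        ring
      · intro B _ hne
        rw [if_neg fun hmem => hne (Subtype.ext (eq_of_mem_of_mem B.2.1 B₀.2.1 hmem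
          (mem_blockOf_self χ))), mul_zero, zero_mul]
      · exact fun h => absurd (Finset.mem_univ _) h
    · rw [hvanish χ hdχ (x j) (hPx j), zero_mul, Finset.sum_eq_zero fun B _ => ?_]
      rw [if_neg fun hmem => hdχ (by
        rw [← eq_of_mem_of_mem B.2.1 (isPBlock_blockOf χ) hmem (mem_blockOf_self χ)]
        exact B.2.2), mul_zero, zero_mul]
  have hc : ∀ B : β, c B ≠ 0 := by
    intro B
    set N := ∑ᶠ χ ∈ B.1, charDegree (χ : G → ℂ) ^ 2 with hN
    have hNv := S4491.result p M hM B.1 B.2.1
    rw [← hN, ← ha, B.2.2] at hNv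
    have hN0 : N ≠ 0 := fun h0 => by
      obtain ⟨χ, hχ⟩ := isPBlock_nonempty B.2.1
      have h1 : N = ∑ χ : IrrCharacter G, if χ ∈ B.1 then charDegree (χ : G → ℂ) ^ 2 else 0 := by
        rw [hN, finsum_mem_def, finsum_eq_sum_of_fintype]
        simp only [Set.indicator_apply]
      have h2 := Finset.sum_eq_zero_iff.1 (h1.symm.trans h0) χ (Finset.mem_univ _)
      rw [if_pos hχ] at h2
      exact (charDegree_pos χ).ne' (pow_eq_zero_iff two_ne_zero |>.1 h2)
    have hG0 : Nat.card G * p ^ e ≠ 0 := mul_ne_zero Nat.card_pos.ne' (pow_ne_zero e hM.1.ne_zero)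
    have hv : (Nat.card G * p ^ e).factorization p = N.factorization p := by
      rw [hNv, Nat.factorization_mul Nat.card_pos.ne' (pow_ne_zero e hM.1.ne_zero),
        Finsupp.add_apply, hM.1.factorization_pow, Finsupp.single_eq_same, ← ha]
      omega
    obtain ⟨-, hne⟩ := natDiv_aux hM hN0 hG0 hv.le
    suffices hcB : c B = redC M ((N : ℂ) / ((Nat.card G * p ^ e : ℕ) : ℂ)) by
      rw [hcB]
      exact fun h0 => (hne.1 h0).ne hv
    have hsum : ∑ χ : IrrCharacter G, (if χ ∈ B.1 then (χ : G → ℂ) 1 * m χ * w else 0) =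
        (N : ℂ) / (Nat.card G : ℂ) := by
      have h1 : ∀ s : (S : Subgroup G), ∑ χ : IrrCharacter G,
          (if χ ∈ B.1 then (eIdem ({χ} : Set (IrrCharacter G))).coeff (s : G) else 0) =
            blockCoeff B.1 s := by
        intro s
        rw [blockCoeff_eq_sum, Finset.mul_sum]
        refine Finset.sum_congr rfl fun χ _ => ?_
        split_ifs
        · rw [coeff_eIdem, blockCoeff, finsum_mem_singleton]
        · rw [mul_zero]
      calc ∑ χ : IrrCharacter G, (if χ ∈ B.1 then (χ : G → ℂ) 1 * m χ * w else 0)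
          = ∑ s : (S : Subgroup G), blockCoeff B.1 s := by
            rw [← Finset.sum_congr rfl fun s _ => h1 s, Finset.sum_comm]
            refine Finset.sum_congr rfl fun χ _ => ?_
            split_ifs
            · rw [hT]
            · rw [Finset.sum_const_zero]
        _ = blockCoeff B.1 ((1 : (S : Subgroup G)) : G) := by
            refine Finset.sum_eq_single 1 (fun s _ hs => ?_) fun h => absurd (Finset.mem_univ _) h
            rw [← coeff_eIdem]
            refine coeff_eq_zero_of_singular hM (isIdempotentElem_eIdem B.1)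
              (isClassCoeff_eIdem B.1) (intR_eIdem B.2.1) ?_
            obtain ⟨k, hk⟩ := IsPGroup.iff_orderOf.1 S.isPGroup' s
            rw [Subgroup.orderOf_coe, hk]
            refine dvd_pow_self p fun h0 => hs (orderOf_eq_one_iff.1 ?_)
            rw [hk, h0, pow_zero]
        _ = (N : ℂ) / (Nat.card G : ℂ) := by
            rw [blockCoeff_eq_sum, Subgroup.coe_one, hN, finsum_mem_def, finsum_eq_sum_of_fintype,
              Nat.cast_sum, div_eq_inv_mul]
            congr 1
            refine Finset.sum_congr rfl fun χ _ => ?_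
            rw [Set.indicator_apply]
            split_ifs
            · rw [irr_one_eq_natCast, Complex.conj_natCast, Nat.cast_pow, pow_two]
            · rw [Nat.cast_zero]
    have hfin : (N : ℂ) / ((Nat.card G * p ^ e : ℕ) : ℂ) =
        ∑ χ : IrrCharacter G, if χ ∈ B.1 then (u χ : ℂ) * m χ * w else 0 := by
      rw [Nat.cast_mul, ← div_div, ← hsum, Finset.sum_div]
      refine Finset.sum_congr rfl fun χ _ => ?_
      split_ifs with hmem
      · rw [irr_one_eq_natCast, hu B χ hmem, Nat.cast_mul]
        have h1 : ((p ^ e : ℕ) : ℂ) ≠ 0 := Nat.cast_ne_zero.2 (pow_ne_zero e hM.1.ne_zero)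
        field_simp
      · rw [zero_div]
    rw [hfin, redC_sum _ fun χ _ => by
      split_ifs
      · exact mul_mem (mul_mem (nat_mem _) (nat_mem _)) hwR
      · exact zero_mem _]
    refine Finset.sum_congr rfl fun χ _ => ?_
    split_ifs
    · rfl
    · rw [redC_zero]
  -- duality of idempotents and central characters
  have hdual : ∀ B B' : β, ∑ j, redC M ((eIdem B'.1).coeff (x j)) * lamB B (x j) =
      if B = B' then 1 else 0 := by
    intro B B'
    have h1 := redC_omega_eq_sum (M := M) (rep B) (isClassCoeff_eIdem B'.1) (intR_eIdem B'.2.1)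
    rw [omega_eIdem] at h1
    have h2 : (if rep B ∈ B'.1 then (1 : ℂ) else 0) = if B = B' then 1 else 0 := by
      by_cases hBB : B = B'
      · rw [if_pos hBB, if_pos (hBB ▸ hrep B)]
      · rw [if_neg hBB, if_neg fun hmem =>
          hBB (Subtype.ext (eq_of_mem_of_mem B.2.1 B'.2.1 (hrep B) hmem))]
    rw [h2, apply_ite (redC M), redC_one, redC_zero] at h1
    rw [h1, ← Finset.sum_image (f := fun C : ConjClasses G => redC M ((eIdem B'.1).coeff C.out) *
      redC M (centralChar (rep B : G → ℂ) C.out)) (s := Finset.univ) (g := K) fun i _ j _ h => hKinj h]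
    refine Finset.sum_subset (Finset.subset_univ _) fun C _ hC => ?_
    by_contra h0
    apply hC
    obtain ⟨i, hi⟩ := (hclass _).1 (hsupp B'.1 B'.2.1 B'.2.2 _ (left_ne_zero_of_mul h0))
    exact Finset.mem_image.2 ⟨i, Finset.mem_univ _, hi.trans (Quotient.out_eq C)⟩
  -- the rank
  set Ω : Matrix ι ι (ZMod p) := Matrix.of fun i j : ι => ((n i j / p ^ e : ℕ) : ZMod p) with hΩ
  set f : ZMod p →+* ResField M := ZMod.castHom (dvd_refl p) (ResField M) with hf
  set V : Matrix ι β (ResField M) := Matrix.of fun i B => lamB B (x i)⁻¹ with hV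
  set W : Matrix β ι (ResField M) := Matrix.of fun B j => lamB B (x j) with hW
  have hmap : Ω.map f = V * Matrix.diagonal c * W := by
    ext i j
    rw [Matrix.map_apply, hΩ, Matrix.of_apply, map_natCast, hkey i j, Matrix.mul_apply]
    simp only [Matrix.mul_diagonal, hV, hW, Matrix.of_apply]
  have hWs : Function.Surjective W.mulVecLin := by
    intro g
    refine ⟨fun j => ∑ B' : β, g B' * redC M ((eIdem B'.1).coeff (x j)), funext fun B => ?_⟩
    simp only [Matrix.mulVecLin_apply, Matrix.mulVec, dotProduct, hW, Matrix.of_apply,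
      Finset.mul_sum]
    rw [Finset.sum_comm]
    calc ∑ B' : β, ∑ j, lamB B (x j) * (g B' * redC M ((eIdem B'.1).coeff (x j)))
        = ∑ B' : β, g B' * ∑ j, redC M ((eIdem B'.1).coeff (x j)) * lamB B (x j) := by
          simp only [Finset.mul_sum]
          exact Finset.sum_congr rfl fun _ _ => Finset.sum_congr rfl fun _ _ => by ring
      _ = g B := by
          simp only [hdual, mul_ite, mul_one, mul_zero]
          exact (Finset.sum_eq_single B (fun _ _ hb => if_neg (Ne.symm hb))
            (fun h => absurd (Finset.mem_univ _) h)).trans (if_pos rfl)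
  have hVi : Function.Injective V.mulVecLin := by
    rw [← LinearMap.ker_eq_bot, LinearMap.ker_eq_bot']
    intro g hg
    have hzero : ∀ j, ∑ B : β, lamB B (x j) * g B = 0 := by
      intro j
      obtain ⟨i, hi⟩ := (hclass _).1 (hPinv _ (hPx j))
      have hconj : IsConj (x j) (x i)⁻¹ := by
        have h1 : IsConj (x i) (x j)⁻¹ := ConjClasses.mk_eq_mk_iff_isConj.1 ((hxK i).trans hi)
        obtain ⟨s, hs⟩ := isConj_iff.1 h1.symm
        exact isConj_iff.2 ⟨s, by rw [← hs]; group⟩
      have h2 := congrFun hg i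
      simp only [Matrix.mulVecLin_apply, Matrix.mulVec, dotProduct, hV, Matrix.of_apply,
        Pi.zero_apply] at h2
      refine (Finset.sum_congr rfl fun B _ => ?_).trans h2
      simp only [lamB]
      rw [redC_centralChar_of_isConj (rep B) hconj]
    funext B'
    calc g B' = ∑ B : β, (∑ j, redC M ((eIdem B'.1).coeff (x j)) * lamB B (x j)) * g B := by
          simp only [hdual, ite_mul, one_mul, zero_mul]
          exact ((Finset.sum_eq_single B' (fun _ _ hb => if_neg hb)
            (fun h => absurd (Finset.mem_univ _) h)).trans (if_pos rfl)).symm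
      _ = ∑ j, redC M ((eIdem B'.1).coeff (x j)) * ∑ B : β, lamB B (x j) * g B := by
          simp only [Finset.sum_mul, Finset.mul_sum, mul_assoc]
          rw [Finset.sum_comm]
      _ = 0 := by simp [hzero]
  have hDs : Function.Surjective (Matrix.diagonal c).mulVecLin := fun g =>
    ⟨fun B => (c B)⁻¹ * g B, funext fun B => by
      rw [Matrix.mulVecLin_apply, Matrix.mulVec_diagonal]
      field_simp [hc B]⟩
  have hrank : (Ω.map f).rank = Fintype.card β := by
    rw [hmap, Matrix.rank, Matrix.mulVecLin_mul, Matrix.mulVecLin_mul,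
      LinearMap.range_comp_of_range_eq_top _ (LinearMap.range_eq_top.2 hWs),
      LinearMap.range_comp_of_range_eq_top _ (LinearMap.range_eq_top.2 hDs),
      LinearMap.finrank_range_of_inj hVi, Module.finrank_fintype_fun_eq_card]
  rw [rank_map] at hrank
  show _ = Ω.rank
  rw [hrank, ← Nat.card_eq_fintype_card]
  exact Nat.card_congr (Equiv.subtypeEquivRight fun B =>
    and_congr_right fun hB => (hdef B hB).1)

end Cfsg.Agent.S4443
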