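import Cfsg.Statements.S4444
import Cfsg.Agent.Lib.Glauberman.Subgroup

set_option autoImplicit false
open Cfsg

namespace Cfsg.Agent.S4444

open Cfsg.Agent.Lib.Glauberman Cfsg.Agent.Lib.Char

set_option maxHeartbeats 1600000 in
/-- The Glauberman correspondence for a p-group of operators. Inside a finite group Γ let S normalise G with the orders of G and S coprime, S a p-group, and let C = G ⊓ C(S) be the fixed points. Call an irreducible character χ of G S-invariant when χ(s g s⁻¹) = χ(g) for s ∈ S, g ∈ G. Then: (i) for every S-invariant χ there is exactly one irreducible character β of C whose multiplicity [χ_C, β] in the restriction of χ is not divisible by p; (ii) that multiplicity is ≡ 1 or ≡ −1 (mod p); (iii) distinct S-invariant χ give distinct β; (iv) every irreducible character of C arises in this way. So χ ↦ β is a bijection from the S-invariant irreducible characters of G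 onto the irreducible characters of C. -/
theorem result {Γ : Type*} [Group Γ] [Fintype Γ] (G S : Subgroup Γ) [Fintype G] (hnorm : ∀ s ∈ S, ∀ g ∈ G, s * g * s⁻¹ ∈ G) (hcop : (Nat.card G).Coprime (Nat.card S)) (p : ℕ) (hp : p.Prime) (hS : IsPGroup p S) (C : Subgroup Γ) [Fintype C] (hC : C = G ⊓ Subgroup.centralizer (S : Set Γ)) (hCG : C ≤ G) : (∀ χ : Cfsg.IrrCharacter G, (∀ s ∈ S, ∀ g g' : G, (g' : Γ) = s * g * s⁻¹ → (χ : G → ℂ) g' = (χ : G → ℂ) g) → ∃! β : Cfsg.IrrCharacter C, ∃ m : ℕ, Cfsg.classInner (fun c : C => (χ : G → ℂ) ⟨c, hCG c.2⟩) (β : C → ℂ) = (m : ℂ) ∧ ¬ p ∣ m) ∧ (∀ χ : Cfsg.IrrCharacter G, (∀ s ∈ S, ∀ g g' : G, (g' : Γ) = s * g * s⁻¹ → (χ : G → ℂ) g' = (χ : G → ℂ) g) → ∀ β : Cfsg.IrrCharacter C, ∀ m : ℕ, Cfsg.classInner (fun c : C => (χ : G → ℂ) ⟨c, hCG c.2⟩) (β : C → ℂ) = (m : ℂ) → ¬ p ∣ m → ((m : ℤ) ≡ 1 [ZMOD p] ∨ (m : ℤ) ≡ -1 [ZMOD p])) ∧ (∀ χ χ' : Cfsg.IrrCharacter G,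 (∀ s ∈ S, ∀ g g' : G, (g' : Γ) = s * g * s⁻¹ → (χ : G → ℂ) g' = (χ : G → ℂ) g) → (∀ s ∈ S, ∀ g g' : G, (g' : Γ) = s * g * s⁻¹ → (χ' : G → ℂ) g' = (χ' : G → ℂ) g) → ∀ β : Cfsg.IrrCharacter C, ∀ m m' : ℕ, Cfsg.classInner (fun c : C => (χ : G → ℂ) ⟨c, hCG c.2⟩) (β : C → ℂ) = (m : ℂ) → ¬ p ∣ m → Cfsg.classInner (fun c : C => (χ' : G → ℂ) ⟨c, hCG c.2⟩) (β : C → ℂ) = (m' : ℂ) → ¬ p ∣ m' → χ = χ') ∧ (∀ β : Cfsg.IrrCharacter C, ∃ χ : Cfsg.IrrCharacter G, (∀ s ∈ S, ∀ g g' : G, (g' : Γ) = s * g * s⁻¹ → (χ : G → ℂ) g' = (χ : G → ℂ) g) ∧ ∃ m : ℕ, Cfsg.classInner (fun c : C => (χ : G → ℂ) ⟨c, hCG c.2⟩) (β : C → ℂ) = (m : ℂ) ∧ ¬ p ∣ m) := by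
  have : Fact p.Prime := ⟨hp⟩
  by_cases hS1 : S = ⊥
  · -- the trivial group
    have hCG' : G ≤ C := fun g hg => by
      rw [hC]
      refine ⟨hg, Subgroup.mem_centralizer_iff.2 fun s hs => ?_⟩
      rw [hS1, SetLike.mem_coe, Subgroup.mem_bot] at hs
      rw [hs, one_mul, mul_one]
    let e : C ≃* G := MulEquiv.subgroupCongr (le_antisymm hCG hCG')
    have he : ∀ c : C, e c = ⟨c, hCG c.2⟩ := fun c => rfl
    let E : Cfsg.IrrCharacter G → Cfsg.IrrCharacter C := fun χ =>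
      ⟨fun c => (χ : G → ℂ) (e c), isIrrCharacter_comp χ.2 e.toMonoidHom e.surjective⟩
    have hE : Function.Bijective E := by
      refine ⟨fun χ χ' h => Subtype.ext (funext fun g => ?_), fun β => ?_⟩
      · have := congrArg (fun z : Cfsg.IrrCharacter C => (z : C → ℂ) (e.symm g)) h
        simpa [E] using this
      · exact ⟨⟨fun g => (β : C → ℂ) (e.symm g), isIrrCharacter_comp β.2 e.symm.toMonoidHom e.symm.surjective⟩,
          Subtype.ext (funext fun c => congrArg (β : C → ℂ) (e.symm_apply_apply c))⟩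
    have hm : ∀ (χ : Cfsg.IrrCharacter G) (β : Cfsg.IrrCharacter C) (m : ℕ), Cfsg.classInner (fun c : C => (χ : G → ℂ) ⟨c, hCG c.2⟩) (β : C → ℂ) = (m : ℂ) →
        ¬ p ∣ m → β = E χ ∧ m = 1 := by
      intro χ β m h hd
      change Cfsg.classInner ((E χ : Cfsg.IrrCharacter C) : C → ℂ) (β : C → ℂ) = (m : ℂ) at h
      by_cases hb : β = E χ
      · refine ⟨hb, ?_⟩
        rw [hb, classInner_irr_self (E χ).2] at h
        exact_mod_cast h.symm
      · rw [classInner_irr_ne (E χ).2 β.2 (fun e => hb (Subtype.ext e.symm))] at h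
        exact absurd (show m = 0 by exact_mod_cast h.symm) (fun h0 => hd (h0 ▸ dvd_zero p))
    have hinv : ∀ χ : Cfsg.IrrCharacter G, ∀ s ∈ S, ∀ g g' : G, (g' : Γ) = s * g * s⁻¹ →
        (χ : G → ℂ) g' = (χ : G → ℂ) g := fun χ s hs g g' h => by
      rw [hS1, Subgroup.mem_bot] at hs
      subst hs
      rw [show g' = g from Subtype.ext (by simpa using h)]
    have hone : ∀ χ : Cfsg.IrrCharacter G, ∃ m : ℕ,
        Cfsg.classInner (fun c : C => (χ : G → ℂ) ⟨c, hCG c.2⟩) ((E χ) : C → ℂ) = (m : ℂ) ∧ ¬ p ∣ m :=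
      fun χ => ⟨1, by rw [Nat.cast_one]; exact classInner_irr_self (E χ).2, hp.not_dvd_one⟩
    refine ⟨fun χ _ => ⟨E χ, hone χ, fun β ⟨m, h, hd⟩ => (hm χ β m h hd).1⟩,
      fun χ _ β m h hd => ?_, fun χ χ' _ _ β m m' h hd h' hd' => hE.1 ((hm χ β m h hd).1.symm.trans (hm χ' β m' h' hd').1),
      fun β => ?_⟩
    · rw [(hm χ β m h hd).2]
      exact Or.inl (Int.ModEq.refl _)
    · obtain ⟨χ, rfl⟩ := hE.2 β
      exact ⟨χ, hinv χ, hone χ⟩
  have hpG : ¬ p ∣ Nat.card G := by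
    intro h
    obtain ⟨n, hn⟩ := IsPGroup.iff_card.1 hS
    refine hp.not_dvd_one (hcop ▸ Nat.dvd_gcd h ?_)
    rw [hn]
    refine dvd_pow_self p fun h0 => hS1 (Subgroup.card_eq_one.1 ?_)
    rw [hn, h0, pow_zero]
  have St : Setup (conjHom hnorm) p ⊥ (C.subgroupOf G) := by
    refine ⟨hS, inferInstance, IsPGroup.of_bot, by rwa [Subgroup.index_bot], fun k => ?_⟩
    rw [Subgroup.mem_subgroupOf, hC, Subgroup.mem_inf, Subgroup.mem_centralizer_iff]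
    constructor
    · rintro ⟨-, h⟩ s
      rw [Subgroup.mem_bot]
      refine Subtype.ext ?_
      show (s : Γ) * k * (s : Γ)⁻¹ * (k : Γ)⁻¹ = 1
      rw [h s s.2]; group
    · intro h
      refine ⟨k.2, fun s hs => ?_⟩
      have h2 := congrArg Subtype.val (Subgroup.mem_bot.1 (h ⟨s, hs⟩))
      simp only [Subgroup.coe_mul, coe_conjHom, InvMemClass.coe_inv, OneMemClass.coe_one] at h2
      exact mul_inv_eq_iff_eq_mul.1 (mul_inv_eq_one.1 h2)
  obtain ⟨f, hf, hprop⟩ := St.exists_bijective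
  have hCinv : ∀ β : Cfsg.IrrCharacter C, Inv St.autC ((irrSub hCG β) : C.subgroupOf G → ℂ) := by
    intro β
    rw [inv_autC_irrSub_iff hCG St]
    intro s hs c c' h
    have hc : (c : Γ) ∈ Subgroup.centralizer (S : Set Γ) := by
      have h1 : (c : Γ) ∈ G ⊓ Subgroup.centralizer (S : Set Γ) := hC ▸ c.2
      exact h1.2
    rw [Subgroup.mem_centralizer_iff.1 hc s hs, mul_inv_cancel_right] at h
    rw [show c' = c from Subtype.ext h]
  let F : ∀ χ : Cfsg.IrrCharacter G, (∀ s ∈ S, ∀ g g' : G, (g' : Γ) = s * g * s⁻¹ → (χ : G → ℂ) g' = (χ : G → ℂ) g) →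
      Cfsg.IrrCharacter C := fun χ hχ => (irrSub hCG).symm (f ⟨χ, (inv_conjHom_iff hnorm _).2 hχ⟩).1
  have key : ∀ (χ : Cfsg.IrrCharacter G) (hχ : ∀ s ∈ S, ∀ g g' : G, (g' : Γ) = s * g * s⁻¹ → (χ : G → ℂ) g' = (χ : G → ℂ) g) (β : Cfsg.IrrCharacter C) (m : ℕ), Cfsg.classInner (fun c : C => (χ : G → ℂ) ⟨c, hCG c.2⟩) (β : C → ℂ) = (m : ℂ) →
      ¬ p ∣ m → β = F χ hχ ∧ ((m : ZMod p) = 1 ∨ (m : ZMod p) = -1) := by
    intro χ hχ β m h hd
    rw [classInner_eq_mult hCG, Nat.cast_inj] at h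
    subst h
    have hne : (mult χ (irrSub hCG β) : ZMod p) ≠ 0 := fun h0 => hd ((ZMod.natCast_eq_zero_iff _ _).1 h0)
    have hb : (⟨irrSub hCG β, hCinv β⟩ : {ξ : Cfsg.IrrCharacter (C.subgroupOf G) // Inv St.autC (ξ : C.subgroupOf G → ℂ)}) = f ⟨χ, (inv_conjHom_iff hnorm _).2 hχ⟩ :=
      not_not.1 fun e => hne ((hprop ⟨χ, (inv_conjHom_iff hnorm _).2 hχ⟩).2.1 ⟨irrSub hCG β, hCinv β⟩ e)
    refine ⟨?_, ?_⟩
    · show β = (irrSub hCG).symm _
      rw [← hb, Equiv.symm_apply_apply]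
    · rw [show irrSub hCG β = (f ⟨χ, (inv_conjHom_iff hnorm _).2 hχ⟩).1 from congrArg Subtype.val hb]
      exact (hprop ⟨χ, (inv_conjHom_iff hnorm _).2 hχ⟩).1
  have hex : ∀ (χ : Cfsg.IrrCharacter G) (hχ : ∀ s ∈ S, ∀ g g' : G, (g' : Γ) = s * g * s⁻¹ → (χ : G → ℂ) g' = (χ : G → ℂ) g), ∃ m : ℕ,
      Cfsg.classInner (fun c : C => (χ : G → ℂ) ⟨c, hCG c.2⟩) ((F χ hχ) : C → ℂ) = (m : ℂ) ∧ ¬ p ∣ m := by
    intro χ hχ
    refine ⟨_, classInner_eq_mult hCG _ _, fun hd => ?_⟩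
    rw [show irrSub hCG (F χ hχ) = _ from (irrSub hCG).apply_symm_apply _] at hd
    have h0 := (ZMod.natCast_eq_zero_iff _ _).2 hd
    rcases (hprop ⟨χ, (inv_conjHom_iff hnorm _).2 hχ⟩).1 with e | e <;> rw [e] at h0
    · exact one_ne_zero h0
    · exact neg_ne_zero.2 one_ne_zero h0
  refine ⟨fun χ hχ => ⟨F χ hχ, hex χ hχ, fun β ⟨m, h, hd⟩ => (key χ hχ β m h hd).1⟩,
    fun χ hχ β m h hd => ?_, fun χ χ' hχ hχ' β m m' h hd h' hd' => ?_, fun β => ?_⟩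
  · rcases (key χ hχ β m h hd).2 with e | e
    · exact Or.inl ((ZMod.intCast_eq_intCast_iff _ _ _).1 (by simpa using e))
    · exact Or.inr ((ZMod.intCast_eq_intCast_iff _ _ _).1 (by simpa using e))
  · have e := (irrSub hCG).symm.injective ((key χ hχ β m h hd).1.symm.trans (key χ' hχ' β m' h' hd').1)
    exact congrArg Subtype.val (hf.1 (Subtype.ext e))
  · obtain ⟨⟨χ, hχ⟩, he⟩ := hf.2 ⟨irrSub hCG β, hCinv β⟩
    refine ⟨χ, (inv_conjHom_iff hnorm _).1 hχ, ?_⟩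
    have hFβ : F χ ((inv_conjHom_iff hnorm _).1 hχ) = β := by
      show (irrSub hCG).symm (f ⟨χ, _⟩).1 = β
      rw [he, Equiv.symm_apply_apply]
    have := hex χ ((inv_conjHom_iff hnorm _).1 hχ)
    rwa [hFβ] at this

end Cfsg.Agent.S4444
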