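import Cfsg.Statements.S4447
import Cfsg.Agent.Lib.Glauberman.SubgroupLayer
-- import your own Cfsg.Agent.* helpers here

set_option autoImplicit false
open Cfsg

namespace Cfsg.Agent.S4447

/-- Inside a finite group Γ let S normalise G and also normalise a normal subgroup N of G, with the order of S coprime to the index of N in G and S or G/N solvable. Then for every S-invariant irreducible character χ of G, the restriction of χ to N has an S-invariant irreducible constituent. -/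
theorem result {Γ : Type*} [Group Γ] [Fintype Γ] (G S N : Subgroup Γ) [Fintype G] [Fintype N] (hnorm : ∀ s ∈ S, ∀ g ∈ G, s * g * s⁻¹ ∈ G) (hNG : N ≤ G) [hNn : (N.subgroupOf G).Normal] (hNS : ∀ s ∈ S, ∀ n ∈ N, s * n * s⁻¹ ∈ N) (hcop : (N.relIndex G).Coprime (Nat.card S)) (hsolv : Group.IsSolvable S ∨ Group.IsSolvable (G ⧸ N.subgroupOf G)) (χ : Cfsg.IrrCharacter G) (hinv : (∀ s ∈ S, ∀ g g' : G, (g' : Γ) = s * g * s⁻¹ → (χ : G → ℂ) g' = (χ : G → ℂ) g)) : ∃ θ : Cfsg.IrrCharacter N, Cfsg.classInner (fun n : N => (χ : G → ℂ) ⟨n, hNG n.2⟩) (θ : N → ℂ) ≠ 0 ∧ (∀ s ∈ S, ∀ g g' : N, (g' : Γ) = s * g * s⁻¹ → (θ : N → ℂ) g' = (θ : N → ℂ) g) := by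
  have := Fintype.ofFinite (N.subgroupOf G)
  have hN' := Lib.Glauberman.stable_subgroupOf hnorm hNS (G := G)
  obtain ⟨φ, hφ, hφinv⟩ := Lib.Glauberman.exists_inv_below (a := Lib.Glauberman.conjHom hnorm) hN'
    ((Lib.Glauberman.inv_conjHom_iff hnorm _).mpr hinv) hcop hsolv.symm
  obtain ⟨θ, rfl⟩ := (Lib.Glauberman.irrSub hNG).surjective φ
  exact ⟨θ, (Lib.Glauberman.classInner_irrSub hNG χ θ).trans_ne hφ,
    (Lib.Glauberman.inv_irrSub_iff hnorm hNS hNG θ).mp hφinv⟩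

end Cfsg.Agent.S4447
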