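import Cfsg.Statements.S4453
import Cfsg.Agent.Lib.OddCorr.General
-- import your own Cfsg.Agent.* helpers here

set_option autoImplicit false
open Cfsg

namespace Cfsg.Agent.S4453

/-- Inside a finite group Γ let S normalise the solvable subgroup G of odd order with the orders of G and S coprime, let C = G ⊓ C(S), and let L ≤ K be S-invariant normal subgroups of G with K/L abelian, G = KC and H = LC (so C ≤ H ≤ G). Then for each S-invariant irreducible character χ of G there is exactly one S-invariant irreducible character ψ of H whose multiplicity in the restriction of χ to H is odd, and χ ↦ ψ is a bijection from the S-invariant irreducible characters of G onto those of H (distinct χ give distinct ψ, and every S-invariant ψ arises). -/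
theorem result {Γ : Type*} [Group Γ] [Fintype Γ] (G S : Subgroup Γ) [Fintype G] (hnorm : ∀ s ∈ S, ∀ g ∈ G, s * g * s⁻¹ ∈ G) (hcop : (Nat.card G).Coprime (Nat.card S)) (hGsolv : Group.IsSolvable G) (hodd : Odd (Nat.card G)) (C : Subgroup Γ) [Fintype C] (hC : C = G ⊓ Subgroup.centralizer (S : Set Γ)) (hCG : C ≤ G) (K L H : Subgroup Γ) [Fintype H] (hLK : L ≤ K) (hKG : K ≤ G) (hKn : ∀ g ∈ G, ∀ k ∈ K, g * k * g⁻¹ ∈ K) (hLn : ∀ g ∈ G, ∀ l ∈ L, g * l * g⁻¹ ∈ L) (hKS : ∀ s ∈ S, ∀ k ∈ K, s * k * s⁻¹ ∈ K) (hLS : ∀ s ∈ S, ∀ l ∈ L, s * l * s⁻¹ ∈ L) (hab : ∀ a ∈ K, ∀ b ∈ K, a * b * a⁻¹ * b⁻¹ ∈ L) (hGKC : K ⊔ C = G) (hH : H = L ⊔ C) (hHG : H ≤ G) : (∀ χ : Cfsg.IrrCharacter G, (∀ s ∈ S, ∀ g g' : G, (g' : Γ) = s * g * s⁻¹ → (χ : G → ℂ) g' = (χ : G → ℂ) g) → ∃! ψ : Cfsg.IrrCharacter H, (∀ s ∈ S, ∀ g g' : H, (g' : Γ) = s * g * s⁻¹ → (ψ : H → ℂ) g' = (ψ : H → ℂ) g) ∧ ∃ m : ℕ,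 Cfsg.classInner (fun h : H => (χ : G → ℂ) ⟨h, hHG h.2⟩) (ψ : H → ℂ) = (m : ℂ) ∧ Odd m) ∧ (∀ χ χ' : Cfsg.IrrCharacter G, (∀ s ∈ S, ∀ g g' : G, (g' : Γ) = s * g * s⁻¹ → (χ : G → ℂ) g' = (χ : G → ℂ) g) → (∀ s ∈ S, ∀ g g' : G, (g' : Γ) = s * g * s⁻¹ → (χ' : G → ℂ) g' = (χ' : G → ℂ) g) → ∀ ψ : Cfsg.IrrCharacter H, (∀ s ∈ S, ∀ g g' : H, (g' : Γ) = s * g * s⁻¹ → (ψ : H → ℂ) g' = (ψ : H → ℂ) g) → ∀ m m' : ℕ, Cfsg.classInner (fun h : H => (χ : G → ℂ) ⟨h, hHG h.2⟩) (ψ : H → ℂ) = (m : ℂ) → Odd m → Cfsg.classInner (fun h : H => (χ' : G → ℂ) ⟨h, hHG h.2⟩) (ψ : H → ℂ) = (m' : ℂ) → Odd m' → χ = χ') ∧ (∀ ψ : Cfsg.IrrCharacter H, (∀ s ∈ S, ∀ g g' : H, (g' : Γ) = s * g * s⁻¹ → (ψ : H → ℂ) g' = (ψ : H → ℂ) g) → ∃ χ : Cfsg.IrrCharacter G, (∀ s ∈ S, ∀ g g' : G, (g' : Γ) = s * g * s⁻¹ → (χ : G → ℂ) g' = (χ : G → ℂ) g) ∧ ∃ m : ℕ, Cfsg.classInner (fun h : H => (χ : G → ℂ) ⟨h, hHG h.2⟩)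 (ψ : H → ℂ) = (m : ℂ) ∧ Odd m) := by
  classical
  have hLG : L ≤ G := hLK.trans hKG
  have hCH : C ≤ H := hH ▸ le_sup_right
  have hLH : L ≤ H := hH ▸ le_sup_left
  let a := Lib.Glauberman.conjHom hnorm
  haveI : (L.subgroupOf G).Normal := ⟨fun n hn g => by
    rw [Subgroup.mem_subgroupOf] at hn ⊢
    exact hLn g g.2 _ hn⟩
  haveI hKN : (K.subgroupOf G).Normal := ⟨fun n hn g => by
    rw [Subgroup.mem_subgroupOf] at hn ⊢
    exact hKn g g.2 _ hn⟩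
  have hdec : ∀ (A : Subgroup Γ), A ≤ G → (A.subgroupOf G).Normal → ∀ x ∈ A ⊔ C,
      ∃ l ∈ A, ∃ c ∈ C, x = l * c := by
    intro A hA hAn x hx
    have hxG : x ∈ G := (sup_le hA hCG) hx
    have h1 : (⟨x, hxG⟩ : G) ∈ A.subgroupOf G ⊔ C.subgroupOf G := by
      rw [← Subgroup.subgroupOf_sup hA hCG]; exact hx
    rw [← SetLike.mem_coe, Subgroup.normal_mul, Set.mem_mul] at h1
    obtain ⟨l, hl, c, hc, he⟩ := h1
    exact ⟨l, hl, c, hc, (congrArg Subtype.val he).symm⟩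
  have hCfix : ∀ s ∈ S, ∀ c ∈ C, s * c * s⁻¹ = c := by
    intro s hs c hc
    rw [hC] at hc
    have h1 : s * c = c * s := (Subgroup.mem_inf.mp hc).2 s hs
    rw [h1, mul_inv_cancel_right]
  have hHdec : ∀ x ∈ H, ∃ l ∈ L, ∃ c ∈ C, x = l * c := by
    rw [hH]; exact hdec L hLG inferInstance
  haveI : ((K ⊓ H).subgroupOf G).Normal := ⟨fun n hn g => by
    rw [Subgroup.mem_subgroupOf] at hn ⊢
    obtain ⟨k, hk, c, hc, hg⟩ := hdec K hKG inferInstance (g : Γ) (hGKC.symm ▸ g.2)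
    obtain ⟨hnK, hnH⟩ := Subgroup.mem_inf.mp hn
    set m : Γ := c * (n : Γ) * c⁻¹ with hm
    have hmK : m ∈ K := hKn c (hCG hc) _ hnK
    have hmH : m ∈ H := H.mul_mem (H.mul_mem (hCH hc) hnH) (H.inv_mem (hCH hc))
    have e : ((g * n * g⁻¹ : G) : Γ) = (k * m * k⁻¹ * m⁻¹) * m := by
      push_cast
      rw [hg, hm]; group
    rw [e]
    exact Subgroup.mul_mem _ (Subgroup.mem_inf.mpr ⟨hLK (hab k hk m hmK), hLH (hab k hk m hmK)⟩)
      (Subgroup.mem_inf.mpr ⟨hmK, hmH⟩)⟩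
  have cfg : Lib.OddCorr.Cfg a (K.subgroupOf G) ((K ⊓ H).subgroupOf G) (H.subgroupOf G) := by
    have hcopG : (Nat.card G).Coprime (Nat.card S) := hcop
    have hstabKH : ∀ x : S, ∀ l ∈ (K ⊓ H).subgroupOf G, a x l ∈ (K ⊓ H).subgroupOf G := by
      intro x l hl
      rw [Subgroup.mem_subgroupOf] at hl ⊢
      obtain ⟨hlK, hlH⟩ := Subgroup.mem_inf.mp hl
      refine Subgroup.mem_inf.mpr ⟨hKS x x.2 _ hlK, ?_⟩
      obtain ⟨l0, hl0, c, hc, he⟩ := hHdec _ hlH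
      show (x : Γ) * (l : Γ) * (x : Γ)⁻¹ ∈ H
      rw [he, show (x : Γ) * (l0 * c) * (x : Γ)⁻¹ = ((x : Γ) * l0 * (x : Γ)⁻¹) * ((x : Γ) * c * (x : Γ)⁻¹) by
        group, hCfix x x.2 c hc]
      exact H.mul_mem (hLH (hLS x x.2 l0 hl0)) (hCH hc)
    refine ⟨fun g hg => (Subgroup.mem_inf.mp hg).1, fun g hg => (Subgroup.mem_inf.mp hg).2,
      fun g h1 h2 => Subgroup.mem_inf.mpr ⟨h1, h2⟩, fun g => ?_, fun x hx y hy => ?_, hodd, hGsolv,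
      fun x k hk => hKS x x.2 _ hk, hstabKH, fun x h hh => ?_, fun k hk hf => ?_,
      hcopG.coprime_dvd_left ((Subgroup.index_dvd_card _).trans (Subgroup.card_subgroup_dvd_card _)), hcopG⟩
    · obtain ⟨k, hk, c, hc, hg⟩ := hdec K hKG inferInstance (g : Γ) (hGKC.symm ▸ g.2)
      refine ⟨⟨c, hCG hc⟩, hCH hc, ⟨c⁻¹ * k * c, G.mul_mem (G.mul_mem (G.inv_mem (hCG hc)) (hKG hk)) (hCG hc)⟩,
        ?_, Subtype.ext ?_⟩
      · rw [Subgroup.mem_subgroupOf]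
        simpa using hKn c⁻¹ (G.inv_mem (hCG hc)) k hk
      · push_cast; rw [hg]; group
    · rw [Subgroup.mem_subgroupOf] at hx hy ⊢
      exact Subgroup.mem_inf.mpr ⟨hLK (hab _ hx _ hy), hLH (hab _ hx _ hy)⟩
    · rw [Subgroup.mem_subgroupOf] at hh ⊢
      obtain ⟨l0, hl0, c, hc, he⟩ := hHdec _ hh
      show (h : Γ)⁻¹ * ((x : Γ) * (h : Γ) * (x : Γ)⁻¹) ∈ K ⊓ H
      rw [he, show (l0 * c)⁻¹ * ((x : Γ) * (l0 * c) * (x : Γ)⁻¹) =
        c⁻¹ * (l0⁻¹ * ((x : Γ) * l0 * (x : Γ)⁻¹)) * ((x : Γ) * c * (x : Γ)⁻¹) by group, hCfix x x.2 c hc]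
      have h5 : c⁻¹ * (l0⁻¹ * ((x : Γ) * l0 * (x : Γ)⁻¹)) * c ∈ L := by
        simpa using hLn c⁻¹ (G.inv_mem (hCG hc)) _ (L.mul_mem (L.inv_mem hl0) (hLS x x.2 l0 hl0))
      exact Subgroup.mem_inf.mpr ⟨hLK h5, hLH h5⟩
    · let X := {g : G // k⁻¹ * g ∈ (K ⊓ H).subgroupOf G}
      letI : MulAction ((K ⊓ H).subgroupOf G) X :=
        { smul := fun l g => ⟨g.1 * (l : G)⁻¹, by
            rw [← mul_assoc]; exact Subgroup.mul_mem _ g.2 (Subgroup.inv_mem _ l.2)⟩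
          one_smul := fun g => Subtype.ext (by
            show g.1 * ((1 : (K ⊓ H).subgroupOf G) : G)⁻¹ = g.1
            simp)
          mul_smul := fun l m g => Subtype.ext (by
            show g.1 * ((l * m : (K ⊓ H).subgroupOf G) : G)⁻¹ = g.1 * (m : G)⁻¹ * (l : G)⁻¹
            simp [mul_assoc]) }
      letI : MulAction S X :=
        { smul := fun x g => ⟨a x g.1, by
            have h1 := Subgroup.mul_mem _ (hf x) (hstabKH x _ g.2)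
            rw [map_mul, map_inv (a x), mul_assoc, mul_inv_cancel_left] at h1
            exact h1⟩
          one_smul := fun g => Subtype.ext (by
            show a 1 g.1 = g.1
            rw [map_one, MulAut.one_apply])
          mul_smul := fun x y g => Subtype.ext (by
            show a (x * y) g.1 = a x (a y g.1)
            rw [map_mul, MulAut.mul_apply]) }
      haveI : Nonempty X := ⟨⟨k, by rw [inv_mul_cancel]; exact Subgroup.one_mem _⟩⟩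
      haveI := hGsolv
      obtain ⟨g, hg⟩ := Lib.Glauberman.exists_fixed_point (X := X)
        (Lib.Glauberman.restrAut a ((K ⊓ H).subgroupOf G) hstabKH)
        (fun x l g => Subtype.ext (by
          show a x (g.1 * (l : G)⁻¹) = a x g.1 * (a x (l : G))⁻¹
          rw [map_mul, map_inv (a x)]))
        (fun g g' => ⟨⟨g'.1⁻¹ * g.1, by
          have := Subgroup.mul_mem _ (Subgroup.inv_mem _ g'.2) g.2
          simpa [mul_assoc] using this⟩, Subtype.ext (by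
          show g.1 * (g'.1⁻¹ * g.1)⁻¹ = g'.1
          group)⟩)
        (hcopG.coprime_dvd_left (Subgroup.card_subgroup_dvd_card _)) (Or.inl inferInstance)
      have hgC : (g.1 : Γ) ∈ C := by
        rw [hC]
        refine Subgroup.mem_inf.mpr ⟨g.1.2, fun s hs => ?_⟩
        have h1 : s * (g.1 : Γ) * s⁻¹ = g.1 :=
          congrArg (fun z : X => (z.1 : Γ)) (hg ⟨s, hs⟩)
        calc s * (g.1 : Γ) = s * (g.1 : Γ) * s⁻¹ * s := by group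
          _ = g.1 * s := by rw [h1]
      have hgK : g.1 ∈ K.subgroupOf G := by
        have h1 : k⁻¹ * g.1 ∈ K.subgroupOf G := (Subgroup.mem_inf.mp g.2).1
        have h2 := Subgroup.mul_mem _ hk h1
        rwa [mul_inv_cancel_left] at h2
      have hgL : g.1 ∈ (K ⊓ H).subgroupOf G := Subgroup.mem_inf.mpr ⟨hgK, hCH hgC⟩
      have h3 := Subgroup.mul_mem _ hgL (Subgroup.inv_mem _ g.2)
      simpa [mul_assoc] using h3
  have := Fintype.ofFinite (H.subgroupOf G)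
  have hHS : ∀ s ∈ S, ∀ n ∈ H, s * n * s⁻¹ ∈ H := fun s hs n hn => by
    obtain ⟨l0, hl0, c, hc, he⟩ := hHdec _ hn
    rw [he, show s * (l0 * c) * s⁻¹ = (s * l0 * s⁻¹) * (s * c * s⁻¹) by group, hCfix s hs c hc]
    exact H.mul_mem (hLH (hLS s hs l0 hl0)) (hCH hc)
  obtain ⟨h1, h2, h3⟩ := cfg.correspondence_all
  have hinvG : ∀ χ : Cfsg.IrrCharacter G, Lib.Glauberman.Inv a (χ : G → ℂ) ↔
      ∀ s ∈ S, ∀ g g' : G, (g' : Γ) = s * g * s⁻¹ → (χ : G → ℂ) g' = (χ : G → ℂ) g :=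
    fun χ => Lib.Glauberman.inv_conjHom_iff hnorm _
  have hinvH : ∀ ψ : Cfsg.IrrCharacter H,
      Lib.Glauberman.Inv (Lib.Glauberman.restrAut a (H.subgroupOf G) cfg.stabH)
          ((Lib.Glauberman.irrSub hHG ψ) : H.subgroupOf G → ℂ) ↔
        ∀ s ∈ S, ∀ g g' : H, (g' : Γ) = s * g * s⁻¹ → (ψ : H → ℂ) g' = (ψ : H → ℂ) g :=
    fun ψ => Lib.Glauberman.inv_irrSub_iff hnorm hHS hHG ψ
  have hmult : ∀ (χ : Cfsg.IrrCharacter G) (ψ : Cfsg.IrrCharacter H),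
      Cfsg.classInner (fun h : H => (χ : G → ℂ) ⟨h, hHG h.2⟩) (ψ : H → ℂ) =
        Cfsg.classInner (fun h : H.subgroupOf G => (χ : G → ℂ) h)
          ((Lib.Glauberman.irrSub hHG ψ) : H.subgroupOf G → ℂ) :=
    fun χ ψ => Lib.Glauberman.classInner_irrSub hHG χ ψ
  refine ⟨fun χ hχ => ?_, fun χ χ' hχ hχ' ψ hψ m m' hm hmo hm' hmo' => ?_, fun ψ hψ => ?_⟩
  · obtain ⟨ψ', ⟨hψ's, m, hm, hmo⟩, huniq⟩ := h1 χ ((hinvG χ).mpr hχ)
    obtain ⟨ψ, rfl⟩ := (Lib.Glauberman.irrSub hHG).surjective ψ'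
    refine ⟨ψ, ⟨(hinvH ψ).mp hψ's, m, (hmult χ ψ).trans hm, hmo⟩, ?_⟩
    rintro ψ₂ ⟨hψ₂, j, hj, hjo⟩
    exact (Lib.Glauberman.irrSub hHG).injective
      (huniq _ ⟨(hinvH ψ₂).mpr hψ₂, j, (hmult χ ψ₂).symm.trans hj, hjo⟩)
  · exact h2 χ χ' _ ((hinvG χ).mpr hχ) ((hinvG χ').mpr hχ') ((hinvH ψ).mpr hψ)
      ⟨m, (hmult χ ψ).symm.trans hm, hmo⟩ ⟨m', (hmult χ' ψ).symm.trans hm', hmo'⟩
  · obtain ⟨χ, hχ, m, hm, hmo⟩ := h3 _ ((hinvH ψ).mpr hψ)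
    exact ⟨χ, (hinvG χ).mp hχ, m, (hmult χ ψ).trans hm, hmo⟩

end Cfsg.Agent.S4453
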