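import Cfsg.Statements.S4454
import Cfsg.Agent.Lib.Char.FrobeniusRamified
import Cfsg.Agent.S0065

set_option autoImplicit false
open Cfsg

namespace Cfsg.Agent.S4454

/-- Let N ≤ G be normal subgroups of the finite group Γ with Γ/G cyclic and Γ/N a Frobenius group with kernel G/N: G ≠ Γ, N ≠ G, and no element of Γ outside G fixes a non-identity coset of N in G under conjugation. Let ϑ be an irreducible character of N invariant under conjugation by Γ and suppose ϑ is fully ramified in G: the character of G induced from ϑ equals e·χ for an irreducible character χ of G and a natural number e. Then the index of G in Γ divides e − 1 or e + 1. -/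
theorem result {Γ : Type*} [Group Γ] [Fintype Γ] (G N : Subgroup Γ) [hG : G.Normal] [hN : N.Normal] [Fintype G] [Fintype N] (hNG : N ≤ G) (hGlt : G ≠ ⊤) (hNlt : N ≠ G) (hcyc : IsCyclic (Γ ⧸ G)) (hfrob : ∀ x : Γ, x ∉ G → ∀ g : Γ, g ∈ G → x * g * x⁻¹ * g⁻¹ ∈ N → g ∈ N) (θ : Cfsg.IrrCharacter N) (hinv : ∀ (x : Γ) (n : N), (θ : N → ℂ) ⟨x * n * x⁻¹, hN.conj_mem n n.2 x⟩ = (θ : N → ℂ) n) (χ : Cfsg.IrrCharacter G) (e : ℕ) (hram : Cfsg.indFun (N.subgroupOf G) (fun n : N.subgroupOf G => (θ : N → ℂ) ⟨(n : G), n.2⟩) = fun g => (e : ℂ) * (χ : G → ℂ) g) : (G.index : ℤ) ∣ (e : ℤ) - 1 ∨ (G.index : ℤ) ∣ (e : ℤ) + 1 := by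
  classical
  set m := G.index with hm
  -- the induced character
  let N₀ := N.subgroupOf G
  haveI : Fintype N₀ := Fintype.ofFinite _
  let θ₀ : N₀ → ℂ := fun n => (θ : N → ℂ) ⟨(n : G), n.2⟩
  have hθ₀ : Cfsg.IsIrrCharacter N₀ θ₀ :=
    Lib.Char.isIrrCharacter_comp θ.2 (Subgroup.subgroupOfEquivOfLe hNG).toMonoidHom
      (Subgroup.subgroupOfEquivOfLe hNG).surjective
  have hinv₀ : ∀ g : G, Lib.Char.conjChar N₀ g θ₀ = θ₀ := fun g => funext fun n =>
    hinv (g : Γ) ⟨(n : G), n.2⟩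
  have hram' : Cfsg.indFun N₀ θ₀ = fun g => (e : ℂ) * (χ : G → ℂ) g := hram
  have hnrm := Lib.CharClifford.classInner_indFun_self_invariant N₀ hθ₀ hinv₀
  rw [hram', show (fun g : G => (e : ℂ) * (χ : G → ℂ) g) = (e : ℂ) • (χ : G → ℂ) from rfl,
    Lib.Char.classInner_smul_left, Lib.Char.classInner_smul_right, Lib.Char.classInner_irr_self χ.2,
    map_natCast, mul_one] at hnrm
  have he2 : e * e = N.relIndex G := by exact_mod_cast hnrm
  have he : (e : ℂ) ≠ 0 := by
    intro h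
    rw [Nat.cast_eq_zero] at h
    exact Subgroup.index_ne_zero_of_finite (H := N₀) (by
      rw [← Subgroup.relIndex, ← he2, h])
  have hχN : ∀ (n : Γ) (hn : n ∈ N), (χ : G → ℂ) ⟨n, hNG hn⟩ = (e : ℂ) * (θ : N → ℂ) ⟨n, hn⟩ := by
    intro n hn
    have h := congrFun (Lib.CharClifford.indFun_restrict_invariant N₀ hinv₀) ⟨⟨n, hNG hn⟩, hn⟩
    simp only [hram', Pi.smul_apply, smul_eq_mul, show N₀.index = e * e from he2.symm] at h
    refine mul_left_cancel₀ he (h.trans ?_)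
    rw [Nat.cast_mul, mul_assoc]
  have hinvχ : ∀ x : Γ, Lib.Char.conjChar G x (χ : G → ℂ) = χ := by
    intro x
    funext g
    refine mul_left_cancel₀ he ?_
    have h1 := congrFun hram' ⟨x * g * x⁻¹, hG.conj_mem g g.2 x⟩
    have h2 := congrFun hram' g
    rw [Lib.Char.conjChar_apply, ← h1, ← h2, Cfsg.indFun, Cfsg.indFun]
    congr 1
    refine Fintype.sum_equiv ((MulAut.conjNormal (H := G) x).toEquiv.symm) _ _ fun y => ?_
    set y' : G := (MulAut.conjNormal (H := G) x).toEquiv.symm y with hy'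
    have hy : (y : Γ) = x * (y' : Γ) * x⁻¹ := by
      have : y = MulAut.conjNormal (H := G) x y' := by simp [hy']
      conv_lhs => rw [this]
      exact MulAut.conjNormal_apply x y'
    by_cases hmem : (y' : G)⁻¹ * g * y' ∈ N₀
    · have hmem' : y⁻¹ * ⟨x * g * x⁻¹, hG.conj_mem g g.2 x⟩ * y ∈ N₀ := by
        show ((y : Γ))⁻¹ * (x * g * x⁻¹) * y ∈ N
        have := hN.conj_mem _ (show ((y' : Γ))⁻¹ * g * y' ∈ N from hmem) x
        rw [hy]
        convert this using 1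
        group
      rw [Lib.Char.extendByZero_mem _ _ hmem, Lib.Char.extendByZero_mem _ _ hmem']
      refine Eq.trans ?_ (hinv x ⟨((y' : G)⁻¹ * g * y' : G), hmem⟩)
      refine congrArg (θ : N → ℂ) (Subtype.ext ?_)
      show ((y : Γ))⁻¹ * (x * g * x⁻¹) * y = x * (((y' : Γ))⁻¹ * g * y') * x⁻¹
      rw [hy]; group
    · rw [Lib.Char.extendByZero_not_mem _ _ hmem, Lib.Char.extendByZero_not_mem]
      intro hmem'
      refine hmem ?_
      have := hN.conj_mem _ (show ((y : Γ))⁻¹ * (x * g * x⁻¹) * y ∈ N from hmem') x⁻¹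
      show ((y' : Γ))⁻¹ * g * y' ∈ N
      rw [hy] at this
      convert this using 1
      group
  obtain ⟨ψ, hψ, hψG⟩ := Lib.CharClifford.extends_of_cyclic χ.2 hinvχ hcyc
  -- a complement in `Γ ⧸ N`
  let π := QuotientGroup.mk' N
  set Gb : Subgroup (Γ ⧸ N) := G.map π with hGb
  haveI : Gb.Normal := hG.map π (QuotientGroup.mk'_surjective N)
  have hmem : ∀ g : Γ, π g ∈ Gb ↔ g ∈ G := by
    intro g
    rw [← Subgroup.mem_comap, hGb, Subgroup.comap_map_eq, QuotientGroup.ker_mk', sup_eq_left.2 hNG]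
  have hfix : ∀ u g : Γ ⧸ N, u ∉ Gb → g ∈ Gb → Commute u g → g = 1 := by
    intro u g hu hg hc
    obtain ⟨x, rfl⟩ := QuotientGroup.mk'_surjective N u
    obtain ⟨y, rfl⟩ := QuotientGroup.mk'_surjective N g
    refine (QuotientGroup.eq_one_iff y).2 (hfrob x (fun h => hu ((hmem x).2 h)) y ((hmem y).1 hg) ?_)
    rw [← QuotientGroup.eq_one_iff]
    show π (x * y * x⁻¹ * y⁻¹) = 1
    rw [map_mul, map_mul, map_mul, map_inv, map_inv, hc.eq, mul_inv_cancel_right, mul_inv_cancel]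
  have hidx : Gb.index = m := by
    rw [hGb, Subgroup.index_map_eq G (QuotientGroup.mk'_surjective N)
      (by rw [QuotientGroup.ker_mk']; exact hNG)]
  have hcard : Nat.card Gb = N.relIndex G := by
    have h1 := Subgroup.card_mul_index Gb
    rw [hidx, ← Subgroup.index_eq_card, ← Subgroup.relIndex_mul_index hNG] at h1
    exact Nat.eq_of_mul_eq_mul_right (Nat.pos_of_ne_zero Subgroup.index_ne_zero_of_finite) h1
  have hcop : Nat.Coprime (Nat.card Gb) Gb.index := by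
    refine Nat.coprime_of_dvd fun l hl h1 h2 => ?_
    haveI : Fact l.Prime := ⟨hl⟩
    obtain ⟨Q⟩ : Nonempty (Sylow l (Γ ⧸ N)) := inferInstance
    have hQG : ¬ (Q : Subgroup (Γ ⧸ N)) ≤ Gb := fun hle =>
      Q.not_dvd_index (h2.trans (Subgroup.index_dvd_of_le hle))
    let Z := Gb.subgroupOf (Q : Subgroup (Γ ⧸ N))
    have hZ : Z ≠ ⊥ := by
      intro hb
      obtain ⟨g, hg⟩ := exists_prime_orderOf_dvd_card' (G := Gb) l h1
      have hgp : IsPGroup l (Subgroup.zpowers (g : Γ ⧸ N)) :=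
        IsPGroup.of_card (n := 1) (by rw [Nat.card_zpowers, Subgroup.orderOf_coe, hg, pow_one])
      obtain ⟨Q', hQ'⟩ := hgp.exists_le_sylow
      obtain ⟨c, hc⟩ := MulAction.exists_smul_eq (Γ ⧸ N) Q' Q
      have h3 : c * g * c⁻¹ ∈ (Q : Subgroup (Γ ⧸ N)) := by
        rw [← hc]
        exact Subgroup.smul_mem_pointwise_smul _ (MulAut.conj c) _ (hQ' (Subgroup.mem_zpowers _))
      have h4 : (⟨c * g * c⁻¹, h3⟩ : (Q : Subgroup (Γ ⧸ N))) ∈ Z :=
        (inferInstance : Gb.Normal).conj_mem _ g.2 c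
      rw [hb, Subgroup.mem_bot] at h4
      have h5 : (g : Γ ⧸ N) = 1 := by simpa [mul_inv_eq_one] using congrArg Subtype.val h4
      rw [show g = 1 from Subtype.ext h5, orderOf_one] at hg
      exact hl.ne_one hg.symm
    haveI : Z.Normal := inferInstance
    haveI : Group.IsNilpotent (Q : Subgroup (Γ ⧸ N)) := Q.isPGroup'.isNilpotent
    obtain ⟨⟨z, hzQ⟩, hz, hz1⟩ : ∃ z ∈ Z ⊓ Subgroup.center (Q : Subgroup (Γ ⧸ N)), z ≠ 1 := by
      by_contra hcn
      push Not at hcn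
      exact Cfsg.Agent.S0065.inf_center_ne_bot (G := (Q : Subgroup (Γ ⧸ N))) (N := Z) inferInstance hZ
        (eq_bot_iff.2 fun z hz => Subgroup.mem_bot.2 (hcn z hz))
    obtain ⟨u, hu, huG⟩ := SetLike.not_le_iff_exists.1 hQG
    exact hz1 (Subtype.ext (hfix u z huG (Subgroup.mem_inf.1 hz).1
      (congrArg Subtype.val (Subgroup.mem_center_iff.1 (Subgroup.mem_inf.1 hz).2 ⟨u, hu⟩))))
  obtain ⟨K, hK⟩ := Subgroup.exists_right_complement'_of_coprime (N := Gb) hcop
  set X : Subgroup Γ := K.comap π with hX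
  haveI : Fintype X := Fintype.ofFinite _
  have hNX : N ≤ X := fun n hn => by
    show π n ∈ K
    rw [show π n = 1 from (QuotientGroup.eq_one_iff n).2 hn]
    exact one_mem K
  have hXK : X.map π = K := Subgroup.map_comap_eq_self_of_surjective (QuotientGroup.mk'_surjective N) K
  have hKcard : Nat.card K = m := by rw [← hidx]; exact hK.symm.index_eq_card.symm
  have hrel : N.relIndex X = m := by
    rw [← hKcard]
    have : Nat.card (K : Subgroup (Γ ⧸ N)) = (π.ker).relIndex X := by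
      rw [Subgroup.relIndex_ker, hXK]
    rw [this, QuotientGroup.ker_mk']
  -- the sums
  let f : Γ ⧸ N → ℝ := fun q => ∑ y ∈ Finset.univ.filter (fun y : Γ => π y = q), ‖ψ y‖ ^ 2
  haveI : Fintype (Γ ⧸ N) := Fintype.ofFinite _
  have hψc := Lib.Char.isCharacter_of_isIrr hψ
  have hconj : ∀ a b : Γ ⧸ N, f (a * b * a⁻¹) = f b := by
    intro a b
    obtain ⟨c, rfl⟩ := QuotientGroup.mk'_surjective N a
    refine Finset.sum_equiv ((MulAut.conj c).toEquiv.symm) (fun y => ?_) (fun y _ => ?_)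
    · simp only [Finset.mem_filter, Finset.mem_univ, true_and]
      show π y = π c * b * (π c)⁻¹ ↔ π ((MulAut.conj c).symm y) = b
      rw [MulAut.conj_symm_apply, map_mul, map_mul, map_inv]
      constructor
      · intro h; rw [h]; group
      · intro h; rw [← h]; group
    · show _ = ‖ψ ((MulAut.conj c).symm y)‖ ^ 2
      rw [MulAut.conj_symm_apply]
      have := Lib.Char.isClassFunction_of_isIrr hψ y c⁻¹
      rw [inv_inv] at this
      rw [this]
  -- the Frobenius partition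
  let Φ : Gb × {k : K // k ≠ 1} → {u : Γ ⧸ N // u ∉ Gb} := fun z =>
    ⟨(z.1 : Γ ⧸ N) * (z.2.1 : Γ ⧸ N) * (z.1 : Γ ⧸ N)⁻¹, fun h => z.2.2 (Subtype.ext (by
      have h1 := (inferInstance : Gb.Normal).conj_mem _ h (z.1 : Γ ⧸ N)⁻¹
      have h2 : (z.2.1 : Γ ⧸ N) ∈ Gb := by convert h1 using 1; group
      exact Subgroup.disjoint_def.1 hK.disjoint h2 z.2.1.2))⟩
  have hinj : Function.Injective Φ := by
    rintro ⟨g, k, hk⟩ ⟨g', k', hk'⟩ h
    have h1 : (g : Γ ⧸ N) * k * (g : Γ ⧸ N)⁻¹ = g' * k' * (g' : Γ ⧸ N)⁻¹ := congrArg Subtype.val h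
    have hkk : k = k' := by
      refine Subtype.ext (mul_inv_eq_one.1 (Subgroup.disjoint_def.1 hK.disjoint ?_
        (K.mul_mem k.2 (K.inv_mem k'.2))))
      have hb : ∀ (g : Gb) (k : Γ ⧸ N), QuotientGroup.mk' Gb ((g : Γ ⧸ N) * k * (g : Γ ⧸ N)⁻¹) =
          QuotientGroup.mk' Gb k := fun g k => by
        rw [map_mul, map_mul, map_inv, show QuotientGroup.mk' Gb (g : Γ ⧸ N) = 1 from
          (QuotientGroup.eq_one_iff _).2 g.2, one_mul, inv_one, mul_one]
      rw [← QuotientGroup.eq_one_iff]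
      show QuotientGroup.mk' Gb _ = 1
      rw [map_mul, map_inv, ← hb g k, h1, hb g' k', mul_inv_cancel]
    subst hkk
    have hc : Commute (k : Γ ⧸ N) ((g' : Γ ⧸ N)⁻¹ * g) := by
      show _ * _ = _ * _
      calc (k : Γ ⧸ N) * ((g' : Γ ⧸ N)⁻¹ * g)
          = (g' : Γ ⧸ N)⁻¹ * ((g' : Γ ⧸ N) * k * (g' : Γ ⧸ N)⁻¹) * g := by group
        _ = _ := by rw [← h1]; group
    have h3 := hfix _ _ (fun h => hk (Subtype.ext (Subgroup.disjoint_def.1 hK.disjoint h k.2)))
      (Gb.mul_mem (Gb.inv_mem g'.2) g.2) hc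
    have h4 : g = g' := Subtype.ext (inv_mul_eq_one.1 h3).symm
    subst h4; rfl
  have hbij : Function.Bijective Φ := by
    refine (Nat.bijective_iff_injective_and_card Φ).2 ⟨hinj, ?_⟩
    rw [Nat.card_prod, Nat.card_eq_fintype_card (α := {k : K // k ≠ 1}),
      Nat.card_eq_fintype_card (α := {u : Γ ⧸ N // u ∉ Gb}), Fintype.card_subtype_compl,
      Fintype.card_subtype_compl, Fintype.card_subtype_eq, ← Nat.card_eq_fintype_card,
      ← Nat.card_eq_fintype_card, ← Nat.card_eq_fintype_card, hKcard,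
      ← Subgroup.card_mul_index Gb, hidx, Nat.mul_sub, mul_one]
  have hsum : ∀ (H : Subgroup Γ) [Fintype H], (∑ g ∈ Finset.univ.filter (· ∈ H), ‖ψ g‖ ^ 2 : ℝ) =
      (Nat.card H : ℝ) * (Cfsg.classInner (fun h : H => ψ h) (fun h : H => ψ h)).re := by
    intro H _
    rw [Finset.sum_subtype (p := (· ∈ H)) _ (fun x => by simp) _, Cfsg.classInner]
    have : ∀ h : H, ψ h * (starRingEnd ℂ) (ψ h) = ((‖ψ h‖ ^ 2 : ℝ) : ℂ) := fun h => by
      rw [Complex.mul_conj, Complex.normSq_eq_norm_sq]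
    simp only [this, ← Complex.ofReal_sum, ← Complex.ofReal_natCast, ← Complex.ofReal_inv,
      ← Complex.ofReal_mul, Complex.ofReal_re]
    rw [mul_inv_cancel_left₀ (by exact_mod_cast Nat.card_pos.ne')]
  have hout : ∀ (p : Γ → Prop) [DecidablePred p] (S : Finset (Γ ⧸ N)),
      (∀ g, p g ↔ π g ∈ S) → (∑ g ∈ Finset.univ.filter p, ‖ψ g‖ ^ 2 : ℝ) = ∑ q ∈ S, f q := by
    intro p _ S hS
    rw [← Finset.sum_fiberwise_of_maps_to (s := Finset.univ.filter p) (t := S) (g := π)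
      (fun g hg => (hS g).1 (Finset.mem_filter.1 hg).2)]
    refine Finset.sum_congr rfl fun q hq => Finset.sum_congr ?_ fun _ _ => rfl
    ext g
    simp only [Finset.mem_filter, Finset.mem_univ, true_and]
    exact ⟨fun h => h.2, fun h => ⟨(hS g).2 (h ▸ hq), h⟩⟩
  have hG1 : (∑ g ∈ Finset.univ.filter (· ∈ G), ‖ψ g‖ ^ 2 : ℝ) = Nat.card G := by
    rw [hsum G, show (fun h : G => ψ h) = (χ : G → ℂ) from funext hψG,
      Lib.Char.classInner_irr_self χ.2, Complex.one_re, mul_one]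
  have hT : (∑ g : Γ, ‖ψ g‖ ^ 2 : ℝ) = Nat.card Γ := by
    haveI : Fintype (⊤ : Subgroup Γ) := Fintype.ofFinite _
    have h := hsum ⊤
    rw [Finset.filter_true_of_mem (fun g _ => Subgroup.mem_top g), Subgroup.card_top] at h
    rw [h]
    have h1 := Lib.Char.classInner_irr_self (Lib.Char.isIrrCharacter_comp hψ
      (Subgroup.topEquiv (G := Γ)).toMonoidHom Subgroup.topEquiv.surjective)
    rw [show (fun h : (⊤ : Subgroup Γ) => ψ h) = ψ ∘ (Subgroup.topEquiv (G := Γ)).toMonoidHom from rfl,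
      h1, Complex.one_re, mul_one]
  have hN1 : (∑ g ∈ Finset.univ.filter (· ∈ N), ‖ψ g‖ ^ 2 : ℝ) = (e : ℝ) ^ 2 * Nat.card N := by
    rw [hsum N, show (fun n : N => ψ n) = (e : ℂ) • (θ : N → ℂ) from funext fun n => by
        rw [Pi.smul_apply, smul_eq_mul]
        exact (hψG ⟨n, hNG n.2⟩).trans (hχN n n.2),
      Lib.Char.classInner_smul_left, Lib.Char.classInner_smul_right, Lib.Char.classInner_irr_self θ.2,
      map_natCast, mul_one, ← Nat.cast_mul, Complex.natCast_re]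
    push_cast; ring
  have hS2 : ∑ q ∈ Finset.univ.filter (fun q : Γ ⧸ N => q ∉ Gb), f q =
      (Nat.card Gb : ℝ) * ∑ q ∈ Finset.univ.filter (fun q : Γ ⧸ N => q ∈ K ∧ q ≠ 1), f q := by
    rw [Finset.sum_subtype (p := fun q : Γ ⧸ N => q ∉ Gb) _ (fun x => by simp) _,
      ← Fintype.sum_bijective Φ hbij (fun z => f ((z.2.1 : K) : Γ ⧸ N)) _ (fun z => (hconj _ _).symm),
      Fintype.sum_prod_type]
    simp only []
    rw [Finset.sum_const, Finset.card_univ, ← Nat.card_eq_fintype_card, nsmul_eq_mul]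
    refine congrArg _ (Finset.sum_bij (fun k _ => ((k.1 : K) : Γ ⧸ N)) (fun k _ => ?_)
      (fun a _ b _ h => Subtype.ext (Subtype.ext h)) (fun q hq => ?_) (fun _ _ => rfl))
    · simpa using fun h : ((k.1 : K) : Γ ⧸ N) = 1 => k.2 (Subtype.ext h)
    · obtain ⟨h1, h2⟩ := (Finset.mem_filter.1 hq).2
      exact ⟨⟨⟨q, h1⟩, fun h => h2 (congrArg Subtype.val h)⟩, Finset.mem_univ _, rfl⟩
  have hXsum : (∑ g ∈ Finset.univ.filter (· ∈ X), ‖ψ g‖ ^ 2 : ℝ) =
      (∑ g ∈ Finset.univ.filter (· ∈ N), ‖ψ g‖ ^ 2) +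
        ∑ g ∈ Finset.univ.filter (fun g => g ∈ X ∧ g ∉ N), ‖ψ g‖ ^ 2 := by
    rw [← Finset.sum_filter_add_sum_filter_not (Finset.univ.filter (· ∈ X)) (· ∈ N),
      Finset.filter_filter, Finset.filter_filter]
    congr 1
    refine Finset.sum_congr ?_ fun _ _ => rfl
    ext g; simpa using fun h => hNX h
  rw [hsum X, hN1, hout (fun g => g ∈ X ∧ g ∉ N) (Finset.univ.filter (fun q => q ∈ K ∧ q ≠ 1))
    (fun g => by simp [hX, π, QuotientGroup.eq_one_iff])] at hXsum
  have hO := Finset.sum_filter_add_sum_filter_not Finset.univ (fun g : Γ => g ∈ G) (fun g => ‖ψ g‖ ^ 2)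
  rw [hT, hG1, hout (fun g => g ∉ G) (Finset.univ.filter (fun q => q ∉ Gb))
    (fun g => by simp only [Finset.mem_filter, Finset.mem_univ, true_and, hmem]), hS2] at hO
  have hGN : Nat.card G = Nat.card N * N.relIndex G := by
    rw [← Subgroup.card_mul_index (N.subgroupOf G), Subgroup.relIndex,
      Nat.card_congr (Subgroup.subgroupOfEquivOfLe hNG).toEquiv]
  have hXN : Nat.card X = Nat.card N * m := by
    rw [← hrel, ← Subgroup.card_mul_index (N.subgroupOf X), Subgroup.relIndex,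
      Nat.card_congr (Subgroup.subgroupOfEquivOfLe hNX).toEquiv]
  have hΓ : Nat.card Γ = Nat.card G * m := (Subgroup.card_mul_index G).symm
  set s := ∑ q ∈ Finset.univ.filter (fun q : Γ ⧸ N => q ∈ K ∧ q ≠ 1), f q with hs
  set r := (Cfsg.classInner (fun h : X => ψ h) (fun h : X => ψ h)) with hr
  obtain ⟨q, hq⟩ := Lib.Char.classInner_natCast (Lib.Char.isCharacter_restrict hψc X)
    (Lib.Char.isCharacter_restrict hψc X)
  have hrq : r = (q : ℂ) := hq
  rw [hcard, hΓ, hGN] at hO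
  push_cast at hO
  rw [hrq, Complex.natCast_re, hXN] at hXsum
  push_cast at hXsum
  have hNp : (0 : ℝ) < Nat.card N := by exact_mod_cast Nat.card_pos
  have hrp : (0 : ℝ) < (N.relIndex G : ℕ) := by
    exact_mod_cast Nat.pos_of_ne_zero (Subgroup.index_ne_zero_of_finite (H := N.subgroupOf G))
  have hmq : (q : ℝ) * m = (e : ℝ) ^ 2 + m - 1 := by
    have h1 : s = (Nat.card N : ℝ) * ((m : ℝ) - 1) := by
      refine mul_left_cancel₀ hrp.ne' ?_
      linear_combination hO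
    rw [h1] at hXsum
    refine mul_left_cancel₀ hNp.ne' ?_
    linear_combination hXsum
  have := Lib.Char.FrobeniusRamified.restrict_mod X N hNX ?_ θ.2 (fun x => funext fun n => hinv x n)
    hψc (e := e) (fun n => (hψG ⟨n, hNG n.2⟩).trans (hχN n n.2)) ?_
  · rwa [hrel] at this
  · haveI : IsCyclic (Γ ⧸ G) := hcyc
    refine isCyclic_of_injective (QuotientGroup.map (N.subgroupOf X) G X.subtype
      (fun z hz => hNG hz)) ?_
    rw [injective_iff_map_eq_one]
    intro z hz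
    obtain ⟨z, rfl⟩ := QuotientGroup.mk_surjective z
    change ((z : Γ) : Γ ⧸ G) = 1 at hz
    rw [QuotientGroup.eq_one_iff] at hz
    rw [QuotientGroup.eq_one_iff]
    show (z : Γ) ∈ N
    rw [← QuotientGroup.eq_one_iff]
    exact Subgroup.disjoint_def.1 hK.disjoint ((hmem z).2 hz) z.2
  · show r * ((N.relIndex X : ℕ) : ℂ) = _
    rw [hrel, hrq]
    exact_mod_cast hmq

end Cfsg.Agent.S4454
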