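import Cfsg.Statements.S4459
import Cfsg.Agent.Lib.Char.TwoDegreesPrime
import Cfsg.Agent.Lib.Char.Scalar
import Cfsg.Agent.S0187

set_option autoImplicit false
open Cfsg

namespace Cfsg.Agent.S4459

/-- Let G be a non-abelian finite group and p a prime. Then the irreducible character degrees of G are exactly 1 and p if and only if either G has an abelian normal subgroup of index p or the centre of G has index p³. -/
theorem result {G : Type*} [Group G] [Finite G] (hG : ∃ a b : G, a * b ≠ b * a) (p : ℕ) (hp : p.Prime) : ((∀ χ : Cfsg.IrrCharacter G, Cfsg.charDegree (χ : G → ℂ) = 1 ∨ Cfsg.charDegree (χ : G → ℂ) = p) ∧ ∃ χ : Cfsg.IrrCharacter G, Cfsg.charDegree (χ : G → ℂ) = p) ↔ ((∃ A : Subgroup G, A.Normal ∧ (∀ a ∈ A, ∀ b ∈ A, a * b = b * a) ∧ A.index = p) ∨ (Subgroup.center G).index = p ^ 3) := by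
  classical
  haveI := Fintype.ofFinite G
  haveI := Fact.mk hp
  have hGne : ¬ ∀ a b : G, a * b = b * a := by
    obtain ⟨a, b, h⟩ := hG
    exact fun hc => h (hc a b)
  constructor
  · rintro ⟨hd, hχ⟩
    rcases Cfsg.Agent.Lib.Char.TwoDegPrime.exists_abelian hp hd hχ with h | ⟨B, hBn, hBab, hB⟩
    · exact Or.inl h
    · haveI := hBn
      exact Cfsg.Agent.Lib.Char.TwoDegPrime.center_or_abelian hp hd hGne B hBab hB
  · intro h
    have hd : ∀ χ : Cfsg.IrrCharacter G,
        Cfsg.charDegree (χ : G → ℂ) = 1 ∨ Cfsg.charDegree (χ : G → ℂ) = p := by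
      intro χ
      rcases h with ⟨A, hAn, hAab, hAp⟩ | hZ
      · haveI := hAn
        haveI := Fintype.ofFinite A
        have h1 := Cfsg.Agent.Lib.Char.degree_dvd_index_of_abelian A χ.2 hAab
        rw [hAp] at h1
        exact (Nat.dvd_prime hp).1 h1
      · have hnorm : ∀ z ∈ Subgroup.center G, ‖(χ : G → ℂ) z‖ = ‖(χ : G → ℂ) 1‖ :=
          fun z hz => Cfsg.Agent.Lib.Char.norm_char_of_mem_center χ.2 hz
        have h1 := Cfsg.Agent.Lib.Char.degree_dvd_index_of_scalar χ.2 (Subgroup.center G) hnorm
        rw [hZ] at h1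
        have hc := Cfsg.Agent.Lib.Char.isCharacter_of_isIrr χ.2
        have hself := Cfsg.Agent.Lib.Char.classInner_irr_self χ.2
        set d := Cfsg.charDegree (χ : G → ℂ) with hdd
        have hle : d ^ 2 * Nat.card (Subgroup.center G) ≤ Nat.card G := by
          have h2 : (∑ g : G, ‖(χ : G → ℂ) g‖ ^ 2 : ℝ) = Nat.card G := by
            have h3 : ((∑ g : G, ‖(χ : G → ℂ) g‖ ^ 2 : ℝ) : ℂ) = (Nat.card G : ℂ) := by
              rw [Cfsg.classInner, inv_mul_eq_iff_eq_mul₀ (Nat.cast_ne_zero.2 Nat.card_pos.ne'),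
                mul_one] at hself
              rw [← hself, Complex.ofReal_sum]
              refine Finset.sum_congr rfl fun g _ => ?_
              rw [Complex.mul_conj, Complex.normSq_eq_norm_sq]
            exact_mod_cast h3
          have h4 : ((d ^ 2 * Nat.card (Subgroup.center G) : ℕ) : ℝ) ≤ (Nat.card G : ℝ) := by
            rw [← h2]
            refine le_trans (le_of_eq ?_) (Finset.sum_le_sum_of_subset_of_nonneg
              (Finset.subset_univ (Finset.univ.filter (· ∈ Subgroup.center G)))
              fun g _ _ => by positivity)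
            rw [Finset.sum_congr rfl fun g hg => by rw [hnorm g (Finset.mem_filter.1 hg).2],
              Finset.sum_const, nsmul_eq_mul,
              Cfsg.Agent.Lib.Char.apply_one_eq_charDegree hc, ← hdd, Complex.norm_natCast,
              ← Fintype.card_subtype, ← Nat.card_eq_fintype_card]
            push_cast
            ring
          exact_mod_cast h4
        have hidx := (Subgroup.center G).card_mul_index
        rw [hZ] at hidx
        rw [← hidx, mul_comm (Nat.card (Subgroup.center G))] at hle
        have hle' := Nat.le_of_mul_le_mul_right hle Nat.card_pos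
        obtain ⟨k, -, hk⟩ := (Nat.dvd_prime_pow hp).1 h1
        rw [hk, ← pow_mul, Nat.pow_le_pow_iff_right hp.one_lt] at hle'
        rcases Nat.lt_or_ge k 1 with hk0 | hk1
        · exact Or.inl (by rw [hk, show k = 0 by omega, pow_zero])
        · exact Or.inr (by rw [hk, show k = 1 by omega, pow_one])
    refine ⟨hd, ?_⟩
    by_contra hc
    push Not at hc
    refine hGne ((Cfsg.Agent.S0187.result (G := G)).2 fun χ => ?_)
    rw [Cfsg.Agent.Lib.Char.apply_one_eq_charDegree (Cfsg.Agent.Lib.Char.isCharacter_of_isIrr χ.2),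
      (hd χ).resolve_right (hc χ), Nat.cast_one]

end Cfsg.Agent.S4459
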