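import Cfsg.Statements.S4460
import Cfsg.Agent.Lib.Char.ThreeDeg.Main
-- import your own Cfsg.Agent.* helpers here

set_option autoImplicit false
open Cfsg

namespace Cfsg.Agent.S4460

/-- A finite group with exactly three distinct irreducible character degrees is solvable of derived length at most 3: its third derived subgroup is trivial. -/
theorem result {G : Type*} [Group G] [Finite G] (hcd : Nat.card {n : ℕ // ∃ χ : Cfsg.IrrCharacter G, Cfsg.charDegree (χ : G → ℂ) = n} = 3) : derivedSeries G 3 = ⊥ := by
  classical
  haveI := Fintype.ofFinite G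
  have h := Cfsg.Agent.Lib.Char.ThreeDeg.derived_length (Nat.card G) G le_rfl
    (Finset.univ.image fun χ : Cfsg.IrrCharacter G => Cfsg.charDegree (χ : G → ℂ))
  have hc : (Finset.univ.image fun χ : Cfsg.IrrCharacter G => Cfsg.charDegree (χ : G → ℂ)).card = 3 := by
    rw [← hcd, Nat.subtype_card (Finset.univ.image fun χ : Cfsg.IrrCharacter G =>
      Cfsg.charDegree (χ : G → ℂ)) (fun x => by simp [eq_comm])]
  rw [hc] at h
  exact h le_rfl fun χ => Finset.mem_image_of_mem _ (Finset.mem_univ χ)

end Cfsg.Agent.S4460
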