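import Cfsg.Statements.S4462
import Cfsg.Agent.Lib.Char.BrolineGarrison

set_option autoImplicit false
open Cfsg

namespace Cfsg.Agent.S4462

open Cfsg.Agent.Lib Cfsg.Agent.Lib.Char in
theorem key : ∀ (n : ℕ) (G : Type*) [Group G] [Finite G], Group.IsSolvable G →
    {d : ℕ | ∃ χ : IrrCharacter G, charDegree (χ : G → ℂ) = d}.ncard ≤ n →
    ∃ N : ℕ → Subgroup G, N 0 = ⊥ ∧ N n = ⊤ ∧ Monotone N ∧ (∀ i, (N i).Normal) ∧
      ∀ i < n, ∀ h : (N i).subgroupOf (N (i + 1)) |>.Normal,
        Group.IsNilpotent (↥(N (i + 1)) ⧸ (N i).subgroupOf (N (i + 1))) := by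
  intro n
  induction n with
  | zero =>
    intro G _ _ _ h
    exfalso
    have hfin : {d : ℕ | ∃ χ : IrrCharacter G, charDegree (χ : G → ℂ) = d}.Finite := by
      refine (Set.finite_range fun χ : IrrCharacter G => charDegree (χ : G → ℂ)).subset ?_
      rintro d ⟨χ, rfl⟩
      exact ⟨χ, rfl⟩
    have := (Set.ncard_pos hfin).2 ⟨_, ⟨_, isIrrCharacter_one⟩, rfl⟩
    omega
  | succ n ih =>
    intro G _ _ hsolv h
    classical
    set F := fittingSubgroup G with hF
    have hFnil : Group.IsNilpotent ↥F := Hall.fittingSubgroup_isNilpotent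
    by_cases htop : F = ⊤
    · refine ⟨fun i => if i = 0 then ⊥ else ⊤, by simp, by simp, ?_, ?_, ?_⟩
      · intro i j hij
        by_cases hi : i = 0
        · simp [hi]
        · have : j ≠ 0 := by omega
          simp [hi, this]
      · intro i
        by_cases hi : i = 0
        · simp only [hi, if_true]; infer_instance
        · simp only [if_neg hi]; infer_instance
      · intro i _ hn
        haveI : Group.IsNilpotent G := Group.nilpotent_of_mulEquiv
          ((MulEquiv.subgroupCongr htop).trans Subgroup.topEquiv)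
        exact Group.nilpotent_of_surjective (QuotientGroup.mk' _) (QuotientGroup.mk'_surjective _)
    have hq : {d : ℕ | ∃ χ : IrrCharacter (G ⧸ F), charDegree (χ : G ⧸ F → ℂ) = d}.ncard ≤ n := by
      have hfin : {d : ℕ | ∃ χ : IrrCharacter G, charDegree (χ : G → ℂ) = d}.Finite := by
        refine (Set.finite_range fun χ : IrrCharacter G => charDegree (χ : G → ℂ)).subset ?_
        rintro d ⟨χ, rfl⟩
        exact ⟨χ, rfl⟩
      obtain ⟨d, hd, hmax⟩ := Set.exists_max_image _ id hfin
        ⟨_, ⟨⟨_, isIrrCharacter_one⟩, rfl⟩⟩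
      refine Nat.le_of_lt_succ (lt_of_lt_of_le (Set.ncard_lt_ncard ⟨?_, fun hsub => ?_⟩ hfin) h)
      · rintro e ⟨η, rfl⟩
        refine ⟨(inflateEquiv F η).1, ?_⟩
        exact congrArg (fun z : ℂ => ⌊z.re⌋₊) (by
          simp [inflateEquiv_apply])
      · obtain ⟨η, hη⟩ := hsub hd
        set χ := (inflateEquiv F η).1 with hχdef
        have hdeg : charDegree (χ : G → ℂ) = d := by
          rw [← hη]
          exact congrArg (fun z : ℂ => ⌊z.re⌋₊) (by simp [hχdef, inflateEquiv_apply])
        have hχc := isCharacter_of_isIrr χ.2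
        haveI := charKer_normal hχc
        have hFK : F ≤ charKer (χ : G → ℂ) := fun f hf =>
          (mem_charKer hχc).2 ((inflateEquiv F η).2 f hf)
        obtain ⟨ψ, hlt, -⟩ := BrolineGarrison.main χ.2 (charKer (χ : G → ℂ))
          (fun g => mem_charKer hχc) (by
            by_cases hle : charKer (χ : G → ℂ) ≤ F
            · exact Or.inr ⟨le_antisymm hle hFK, inferInstance, fun e => htop (top_le_iff.1 (e ▸ hle))⟩
            · exact Or.inl hle)
        have := hmax _ ⟨ψ, rfl⟩
        simp only [id] at this
        omega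
    obtain ⟨M, h0, hn', hmono, hnorm, hnil⟩ := ih (G ⧸ F) inferInstance hq
    refine ⟨fun i => if i = 0 then ⊥ else (M (i - 1)).comap (QuotientGroup.mk' F), by simp, ?_, ?_,
      ?_, ?_⟩
    · simp [hn']
    · intro i j hij
      by_cases hi : i = 0
      · simp [hi]
      · have : j ≠ 0 := by omega
        simp only [if_neg hi, if_neg this]
        exact Subgroup.comap_mono (hmono (by omega))
    · intro i
      by_cases hi : i = 0
      · simp only [hi, if_true]; infer_instance
      · simp only [if_neg hi]
        exact (hnorm _).comap _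
    · intro i hi hn
      rcases i with - | j
      · haveI : Group.IsNilpotent ↥(if 0 + 1 = 0 then (⊥ : Subgroup G) else
            (M (0 + 1 - 1)).comap (QuotientGroup.mk' F)) := by
          have e : (if 0 + 1 = 0 then (⊥ : Subgroup G) else
            (M (0 + 1 - 1)).comap (QuotientGroup.mk' F)) = F := by simp [h0]
          exact Group.nilpotent_of_mulEquiv (MulEquiv.subgroupCongr e).symm
        exact Group.nilpotent_of_surjective (QuotientGroup.mk' _) (QuotientGroup.mk'_surjective _)
      · haveI := hnorm j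
        have hn2 : ((M j).subgroupOf (M (j + 1))).Normal := Subgroup.Normal.subgroupOf inferInstance _
        haveI := hnil j (by omega) hn2
        let A := (M (j + 1)).comap (QuotientGroup.mk' F)
        let f : ↥A →* ↥(M (j + 1)) ⧸ (M j).subgroupOf (M (j + 1)) :=
          (QuotientGroup.mk' _).comp ((QuotientGroup.mk' F).subgroupComap (M (j + 1)))
        have hker : f.ker = ((M j).comap (QuotientGroup.mk' F)).subgroupOf A := by
          ext x
          rw [MonoidHom.mem_ker, MonoidHom.comp_apply, QuotientGroup.mk'_apply,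
            QuotientGroup.eq_one_iff]
          rfl
        revert hn
        dsimp only
        intro hn
        haveI := hn
        haveI : (((M j).comap (QuotientGroup.mk' F)).subgroupOf A).Normal := hker ▸ f.normal_ker
        show Group.IsNilpotent (↥A ⧸ ((M j).comap (QuotientGroup.mk' F)).subgroupOf A)
        exact Group.nilpotent_of_mulEquiv (G := ↥f.range)
          ((QuotientGroup.quotientKerEquivRange f).symm.trans (QuotientGroup.quotientMulEquivOfEq hker))

/-- Let G be a finite solvable group with exactly n distinct irreducible character degrees. Then G has normal subgroups 1 = N₀ ≤ N₁ ≤ ⋯ ≤ Nₙ = G with every quotient N_{i+1}/N_i nilpotent (the nilpotent length of G is at most n). -/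
theorem result {G : Type*} [Group G] [Finite G] (hsolv : Group.IsSolvable G) (n : ℕ) (hcd : Nat.card {d : ℕ // ∃ χ : Cfsg.IrrCharacter G, Cfsg.charDegree (χ : G → ℂ) = d} = n) : ∃ N : Fin (n + 1) → Subgroup G, N 0 = ⊥ ∧ N (Fin.last n) = ⊤ ∧ Monotone N ∧ (∀ i, (N i).Normal) ∧ ∀ i : Fin n, ∀ h : (N i.castSucc).subgroupOf (N i.succ) |>.Normal, Group.IsNilpotent (↥(N i.succ) ⧸ (N i.castSucc).subgroupOf (N i.succ)) := by
  obtain ⟨N, h0, hn, hmono, hnorm, hnil⟩ := key n G hsolv (le_of_eq (by
    rw [← hcd, ← Nat.card_coe_set_eq]; rfl))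
  exact ⟨fun i => N i, by simpa using h0, by simpa using hn, fun i j hij => hmono hij,
    fun i => hnorm i, fun i h => by simpa using hnil i.1 i.2 h⟩

end Cfsg.Agent.S4462
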