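import Cfsg.Statements.S4467
import Cfsg.Agent.Lib.Char.Clifford
import Cfsg.Agent.Lib.Char.Kernel
import Cfsg.Agent.Lib.Char.Degree
import Cfsg.Agent.Lib.Char.Monomial
import Cfsg.Agent.Lib.Char.Linear
import Cfsg.Agent.Lib.CharAux
import Cfsg.Agent.Lib.CharTools.Basic
import Cfsg.Agent.Lib.CharClifford.Basic
import Cfsg.Agent.Lib.CharClifford.Divides
import Cfsg.Agent.Lib.Hall.Basic
import Cfsg.Agent.Lib.Hall.Solvable
import Cfsg.Agent.Lib.GenStruct.RudvalisType

set_option autoImplicit false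
open Cfsg

namespace Cfsg.Agent.S4467

open Cfsg.Agent.Lib Cfsg.Agent.Lib.Char Module
open scoped ComplexConjugate commutatorElement

universe v

/-- The conclusion of Winter's theorem for the degree `n`. -/
def Concl (p n : ℕ) : Prop :=
  ∃ q : ℕ, IsPrimePow q ∧ q ∣ n ∧
    ((q : ℤ) ≡ -1 [ZMOD p] ∨ (q : ℤ) ≡ 0 [ZMOD p] ∨ (q : ℤ) ≡ 1 [ZMOD p])

theorem Concl.mono {p m n : ℕ} (h : Concl p m) (hd : m ∣ n) : Concl p n := by
  obtain ⟨q, h1, h2, h3⟩ := h
  exact ⟨q, h1, h2.trans hd, h3⟩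

theorem cast_pow_sub_eq_one {p r a f : ℕ} [hp : Fact p.Prime] [hr : Fact r.Prime] (hrp : r ≠ p)
    (hf : f ≤ a) (h : r ^ a ≡ r ^ f [MOD p]) : (r : ZMod p) ^ (a - f) = 1 := by
  have h0 : (r : ZMod p) ≠ 0 := by
    rw [Ne, ZMod.natCast_eq_zero_iff]
    exact fun hd => hrp ((Nat.prime_dvd_prime_iff_eq hp.out hr.out).1 hd).symm
  have h1 : (r : ZMod p) ^ a = (r : ZMod p) ^ f := by
    have := (ZMod.natCast_eq_natCast_iff _ _ _).2 h
    simpa using this
  rw [← Nat.sub_add_cancel hf, pow_add] at h1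
  exact mul_right_cancel₀ (pow_ne_zero f h0) (h1.trans (one_mul _).symm)

theorem concl_one {p r a f n : ℕ} [Fact p.Prime] [hr : Fact r.Prime] (hrp : r ≠ p) (hf : f < a)
    (h : r ^ a ≡ r ^ f [MOD p]) (hn : r ^ a ∣ n) : Concl p n := by
  refine ⟨r ^ (a - f), hr.out.isPrimePow.pow (by omega),
    (pow_dvd_pow r (Nat.sub_le a f)).trans hn, Or.inr (Or.inr ?_)⟩
  rw [← ZMod.intCast_eq_intCast_iff]
  push_cast
  exact cast_pow_sub_eq_one hrp hf.le h

theorem concl_sq {p r a b n : ℕ} [Fact p.Prime] [hr : Fact r.Prime] (hrp : r ≠ p) (hb : b < a)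
    (h : r ^ (2 * a) ≡ r ^ (2 * b) [MOD p]) (hn : r ^ a ∣ n) : Concl p n := by
  have h1 := cast_pow_sub_eq_one hrp (by omega) h
  rw [show 2 * a - 2 * b = (a - b) * 2 by omega, pow_mul, sq_eq_one_iff] at h1
  refine ⟨r ^ (a - b), hr.out.isPrimePow.pow (by omega),
    (pow_dvd_pow r (Nat.sub_le a b)).trans hn, ?_⟩
  rcases h1 with h1 | h1
  · refine Or.inr (Or.inr ?_)
    rw [← ZMod.intCast_eq_intCast_iff]
    push_cast
    exact h1
  · refine Or.inl ?_
    rw [← ZMod.intCast_eq_intCast_iff]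
    push_cast
    exact h1

/-- An element of `p`-power order permuting `A` fixes `card A` points modulo `p`. -/
theorem count {Γ : Type v} [Group Γ] [Finite Γ] {p : ℕ} [hp : Fact p.Prime] (A : Subgroup Γ)
    (y : Γ) (hy : ∀ a ∈ A, y * a * y⁻¹ ∈ A) {j : ℕ} (hj : y ^ p ^ j = 1) :
    Nat.card ↥A ≡ Nat.card ↥(A ⊓ Subgroup.centralizer {y}) [MOD p] := by
  classical
  let f : ↥A → ↥A := fun a => ⟨y * a * y⁻¹, hy a a.2⟩
  have hinj : Function.Injective f := fun a b hab =>
    Subtype.ext (by simpa [f] using congrArg Subtype.val hab)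
  let σ : Equiv.Perm ↥A := Equiv.ofBijective f ⟨hinj, Finite.surjective_of_injective hinj⟩
  have hσ1 : ∀ a : ↥A, (σ a : Γ) = y * a * y⁻¹ := fun a => rfl
  have hσ : ∀ (i : ℕ) (a : ↥A), ((σ ^ i) a : Γ) = y ^ i * a * (y ^ i)⁻¹ := by
    intro i a
    induction i with
    | zero => simp
    | succ i ih =>
      rw [pow_succ' σ, Equiv.Perm.mul_apply, hσ1, ih]
      group
  have hP : IsPGroup p ↥(Subgroup.zpowers σ) := by
    have h1 : σ ^ p ^ j = 1 := by
      ext a
      rw [hσ, hj]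
      simp
    obtain ⟨i, -, hi⟩ := (Nat.dvd_prime_pow hp.out).1 (orderOf_dvd_of_pow_eq_one h1)
    exact IsPGroup.of_card (n := i) (by rw [Nat.card_zpowers, hi])
  refine (hP.card_modEq_card_fixedPoints (↥A)).trans ?_
  refine congrArg (· % p) (Nat.card_congr
    { toFun := fun a => ⟨a.1.1, a.1.2, ?_⟩
      invFun := fun a => ⟨⟨a.1, a.2.1⟩, ?_⟩
      left_inv := fun _ => rfl
      right_inv := fun _ => rfl })
  · show (a.1 : Γ) ∈ Subgroup.centralizer _
    rw [Subgroup.mem_centralizer_singleton_iff]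
    have h1 : σ a.1 = a.1 := a.2 ⟨σ, Subgroup.mem_zpowers σ⟩
    have h2 := congrArg Subtype.val h1
    rw [hσ1, mul_inv_eq_iff_eq_mul] at h2
    exact h2.symm
  · rintro ⟨τ, hτ⟩
    obtain ⟨i, rfl⟩ := mem_powers_iff_mem_zpowers.2 hτ
    have hc : (a.1 : Γ) * y = y * a.1 := Subgroup.mem_centralizer_singleton_iff.1 a.2.2
    show (σ ^ i) _ = _
    apply Subtype.ext
    rw [hσ]
    show y ^ i * (a.1 : Γ) * (y ^ i)⁻¹ = a.1
    rw [mul_inv_eq_iff_eq_mul]
    exact ((Commute.pow_right (show Commute (a.1 : Γ) y from hc) i)).eq.symm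

/-- Fully ramified restrictions. -/
theorem ramified {G : Type v} [Group G] [Finite G] {n : ℕ} (ρ : Representation ℂ G (Fin n → ℂ))
    [ρ.IsIrreducible] (hinj : ∀ g, ρ g = 1 → g = 1) (X Z : Subgroup G) [Fintype ↥X] (hZX : Z ≤ X)
    (hZ : Z ≤ Subgroup.center G)
    (hX : ∀ x ∈ X, x ∉ Z → ∃ g ∈ X, x * g * x⁻¹ * g⁻¹ ∈ Z ∧ x * g * x⁻¹ * g⁻¹ ≠ 1)
    {φ : ↥X → ℂ} (hφ : IsIrrCharacter ↥X φ)
    (hne : classInner (fun x : ↥X => ρ.character x) φ ≠ 0) {d : ℕ} (hd : φ 1 = d) :
    Nat.card ↥X = Nat.card ↥Z * d ^ 2 := by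
  classical
  haveI := Fintype.ofFinite G
  have hsum := CharAux.sum_normSq_irr hφ
  obtain ⟨m, τ, hτ, rfl⟩ := hφ
  haveI := hτ
  have key : ∀ z (hz : z ∈ Z), ∃ c : ℂ, ρ z = c • 1 ∧ τ ⟨z, hZX hz⟩ = c • 1 := by
    intro z hz
    have hzc := Subgroup.mem_center_iff.1 (hZ hz)
    obtain ⟨c, hc⟩ := exists_scalar_of_commute_all ρ (z := z) (fun g => by
      rw [← map_mul, ← map_mul, hzc g])
    obtain ⟨c', hc'⟩ := exists_scalar_of_commute_all τ (z := ⟨z, hZX hz⟩) (fun g => by
      rw [← map_mul, ← map_mul]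
      congr 1
      exact Subtype.ext (hzc g.1).symm)
    refine ⟨c, hc, ?_⟩
    have hρz : ∀ u : G, ρ.character (z * u) = c * ρ.character u := fun u => by
      show LinearMap.trace ℂ _ (ρ (z * u)) = _
      rw [map_mul, hc, smul_mul_assoc, one_mul, map_smul, smul_eq_mul]
      rfl
    have hτz : ∀ u : ↥X, τ.character (⟨z, hZX hz⟩ * u) = c' * τ.character u := fun u => by
      show LinearMap.trace ℂ _ (τ (⟨z, hZX hz⟩ * u)) = _
      rw [map_mul, hc', smul_mul_assoc, one_mul, map_smul, smul_eq_mul]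
      rfl
    set S := ∑ u : ↥X, ρ.character u * conj (τ.character u) with hSdef
    have hS : S ≠ 0 := fun h0 => hne (by
      show (Nat.card ↥X : ℂ)⁻¹ * _ = 0
      rw [hSdef] at h0
      rw [h0, mul_zero])
    have hS2 : S = c * conj c' * S := by
      conv_lhs => rw [hSdef, ← Equiv.sum_comp (Equiv.mulLeft (⟨z, hZX hz⟩ : ↥X))]
      rw [hSdef, Finset.mul_sum]
      refine Finset.sum_congr rfl fun u _ => ?_
      simp only [Equiv.coe_mulLeft, Subgroup.coe_mul, hρz, hτz, map_mul]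
      ring
    have h1 : c * conj c' = 1 := mul_right_cancel₀ hS (hS2.symm.trans (one_mul S).symm)
    have hm : 0 < m := by
      rcases Nat.eq_zero_or_pos m with rfl | hm
      · exfalso
        apply irr_degree_ne_zero (G := ↥X) (χ := τ.character) ⟨0, τ, hτ, rfl⟩
        simp
      · exact hm
    have hn : ‖c'‖ = 1 := by
      have h2 := norm_character_of_eq_smul τ _ hc'
      have h3 : τ.character ⟨z, hZX hz⟩ = c' * (m : ℂ) := by
        show LinearMap.trace ℂ _ _ = _
        rw [hc', map_smul, LinearMap.trace_one, smul_eq_mul, Module.finrank_fin_fun]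
      rw [h3, norm_mul, Complex.norm_natCast, Module.finrank_fin_fun] at h2
      field_simp at h2
      exact h2
    have h4 : conj c' * c' = 1 := by
      rw [mul_comm, Complex.mul_conj, Complex.normSq_eq_norm_sq, hn]
      simp
    have : c' = c := by
      calc c' = (c * conj c') * c' := by rw [h1, one_mul]
        _ = c := by rw [mul_assoc, h4, mul_one]
    rw [hc', this]
  have hvan : ∀ x : ↥X, (x : G) ∉ Z → τ.character x = 0 := by
    intro x hx
    obtain ⟨g, hg, hgZ, hg1⟩ := hX x.1 x.2 hx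
    set z := (x : G) * g * (x : G)⁻¹ * g⁻¹ with hzdef
    obtain ⟨c, hc, hc'⟩ := key z⁻¹ (Z.inv_mem hgZ)
    have hc1 : c ≠ 1 := by
      intro h1
      apply hg1
      rw [h1, one_smul] at hc
      exact inv_eq_one.1 (hinj _ hc)
    have heq : (⟨g, hg⟩ : ↥X) * x * (⟨g, hg⟩ : ↥X)⁻¹ = ⟨z⁻¹, hZX (Z.inv_mem hgZ)⟩ * x := by
      apply Subtype.ext
      simp only [Subgroup.coe_mul, Subgroup.coe_inv, hzdef]
      group
    have h1 : τ.character x = c * τ.character x := by
      conv_lhs => rw [← τ.char_conj x ⟨g, hg⟩, heq]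
      show LinearMap.trace ℂ _ (τ (_ * x)) = _
      rw [map_mul, hc', smul_mul_assoc, one_mul, map_smul, smul_eq_mul]
      rfl
    have h2 : (1 - c) * τ.character x = 0 := by linear_combination h1
    exact (mul_eq_zero.1 h2).resolve_left (sub_ne_zero.2 (Ne.symm hc1))
  have hnorm : ∀ x : ↥X, (x : G) ∈ Z → Complex.normSq (τ.character x) = ((d : ℝ) ^ 2) := by
    intro x hx
    obtain ⟨c, -, hc'⟩ := key x.1 hx
    rw [Complex.normSq_eq_norm_sq, norm_character_of_eq_smul τ x hc']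
    congr 1
    rw [Representation.char_one] at hd
    exact_mod_cast hd
  have hcalc : (∑ x : ↥X, Complex.normSq (τ.character x)) = (Nat.card ↥Z : ℝ) * (d : ℝ) ^ 2 := by
    rw [← Finset.sum_filter_add_sum_filter_not Finset.univ (fun x : ↥X => (x : G) ∈ Z),
      Finset.sum_congr rfl (g := fun _ => (d : ℝ) ^ 2)
        (fun x hx => hnorm x (Finset.mem_filter.1 hx).2),
      Finset.sum_eq_zero (s := Finset.filter (fun x : ↥X => ¬ (x : G) ∈ Z) Finset.univ)
        (fun x hx => by rw [hvan x (Finset.mem_filter.1 hx).2, map_zero]),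
      add_zero, Finset.sum_const, nsmul_eq_mul]
    congr 2
    rw [← Nat.card_congr (Subgroup.subgroupOfEquivOfLe hZX).toEquiv, Nat.card_eq_fintype_card,
      ← Fintype.card_subtype]
    exact Fintype.card_congr (Equiv.refl _)
  have hfin : (Nat.card ↥X : ℝ) = (Nat.card ↥Z : ℝ) * (d : ℝ) ^ 2 := by
    rw [← hcalc]
    exact_mod_cast hsum.symm
  exact_mod_cast hfin

/-- The degree data from Clifford's theorem. -/
theorem clifford_nat {G : Type v} [Group G] [Fintype G] {χ : G → ℂ} (hχ : IsIrrCharacter G χ)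
    (N : Subgroup G) [N.Normal] [Fintype ↥N] {θ : ↥N → ℂ} (hθ : IsIrrCharacter ↥N θ)
    (h : classInner (fun x : N => χ x) θ ≠ 0) :
    (inertia N θ).index ∣ charDegree χ ∧ charDegree θ ∣ charDegree χ := by
  have h1 := clifford_degree N hχ hθ h
  obtain ⟨m, hm⟩ := classInner_natCast (isCharacter_restrict (isCharacter_of_isIrr hχ) N)
    (isCharacter_of_isIrr hθ)
  rw [hm, CharAux.charDegree_eq (isCharacter_of_isIrr hχ),
    CharAux.charDegree_eq (isCharacter_of_isIrr hθ)] at h1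
  have h2 : charDegree χ = m * (inertia N θ).index * charDegree θ := by exact_mod_cast h1
  rw [h2]
  exact ⟨(dvd_mul_left _ _).mul_right _, dvd_mul_left _ _⟩

theorem exists_constituent_restrict {G : Type v} [Group G] [Fintype G] {χ : G → ℂ}
    (hχ : IsIrrCharacter G χ) (N : Subgroup G) [Fintype ↥N] :
    ∃ θ : ↥N → ℂ, IsIrrCharacter ↥N θ ∧ classInner (fun x : N => χ x) θ ≠ 0 := by
  obtain ⟨θ, hθ⟩ := exists_constituent (isCharacter_restrict (isCharacter_of_isIrr hχ) N) (fun e => by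
    have := congrFun e (1 : ↥N)
    exact irr_degree_ne_zero hχ (by simpa using this))
  exact ⟨θ.1, θ.2, hθ⟩

/-- A normal subgroup with a non-normal Sylow subgroup gives a smaller faithful example. -/
theorem reduce {G : Type v} [Group G] [Finite G] {p : ℕ} [hp : Fact p.Prime] {χ : G → ℂ}
    (hχ : IsIrrCharacter G χ) (hf : ∀ g, χ g = χ 1 → g = 1) (hsolv : Group.IsSolvable G)
    (ih : ∀ (H : Type v) [Group H] [Finite H], Nat.card H < Nat.card G → ∀ ψ : H → ℂ,
      IsIrrCharacter H ψ → (∀ g, ψ g = ψ 1 → g = 1) → Group.IsSolvable H →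
      ∀ P : Sylow p H, ¬ (P : Subgroup H).Normal → Concl p (charDegree ψ))
    (N : Subgroup G) [N.Normal] (hN : N ≠ ⊤) (Q : Sylow p ↥N) (hQ : ¬ (Q : Subgroup ↥N).Normal) :
    Concl p (charDegree χ) := by
  classical
  haveI := Fintype.ofFinite G
  haveI := hsolv
  by_contra hcon
  set χN : ↥N → ℂ := fun x => χ x with hχN
  have hχNc : IsCharacter ↥N χN := isCharacter_restrict (isCharacter_of_isIrr hχ) N
  have hall : ∀ θ : IrrCharacter ↥N, classInner χN (θ : ↥N → ℂ) ≠ 0 →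
      ∀ x ∈ Subgroup.normalClosure ((Q : Subgroup ↥N) : Set ↥N),
      (θ : ↥N → ℂ) (x ^ Nat.card (Q : Subgroup ↥N)) = (θ : ↥N → ℂ) 1 := by
    intro θ hθ x hx
    have hθc := isCharacter_of_isIrr θ.2
    haveI := charKer_normal hθc
    set K := charKer (θ : ↥N → ℂ) with hK
    obtain ⟨ψ, hψ, hψe⟩ := exists_irr_deflation θ.2 K (fun k hk => (mem_charKer hθc).1 hk)
    let Qb : Sylow p (↥N ⧸ K) := Q.mapSurjective (QuotientGroup.mk'_surjective K)
    have hQbn : (Qb : Subgroup (↥N ⧸ K)).Normal := by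
      by_contra hnn
      apply hcon
      have hd : charDegree ψ = charDegree (θ : ↥N → ℂ) := by
        unfold charDegree
        rw [← hψe 1]
        rfl
      refine (ih (↥N ⧸ K) ?_ ψ hψ ?_ inferInstance Qb hnn).mono (hd ▸ (clifford_nat hχ N θ.2 hθ).2)
      · calc Nat.card (↥N ⧸ K) ≤ Nat.card ↥N :=
              Nat.card_le_card_of_surjective _ (QuotientGroup.mk'_surjective K)
          _ < Nat.card G := by
              refine lt_of_le_of_ne (Subgroup.card_le_card_group N) fun e => hN ?_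
              exact Subgroup.eq_top_of_card_eq N e
      · intro g hg
        obtain ⟨a, rfl⟩ := QuotientGroup.mk_surjective g
        rw [hψe, show (1 : ↥N ⧸ K) = QuotientGroup.mk 1 from rfl, hψe] at hg
        exact (QuotientGroup.eq_one_iff a).2 ((mem_charKer hθc).2 hg)
    haveI := hQbn
    have hle : Subgroup.normalClosure ((Q : Subgroup ↥N) : Set ↥N) ≤
        (Qb : Subgroup (↥N ⧸ K)).comap (QuotientGroup.mk' K) :=
      Subgroup.normalClosure_le_normal fun a ha => ⟨a, ha, rfl⟩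
    obtain ⟨b, hb, hbe⟩ := hle hx
    have h1 : b ^ Nat.card (Q : Subgroup ↥N) = 1 := by
      have := congrArg Subtype.val (pow_card_eq_one' (x := (⟨b, hb⟩ : ↥(Q : Subgroup ↥N))))
      rwa [SubgroupClass.coe_pow, Subgroup.coe_one] at this
    have h2 : QuotientGroup.mk' K (x ^ Nat.card (Q : Subgroup ↥N)) = 1 := by
      rw [map_pow, ← hbe, ← map_pow, h1, map_one]
    exact (mem_charKer hθc).1 ((QuotientGroup.eq_one_iff _).1 h2)
  apply hQ
  set X := Subgroup.normalClosure ((Q : Subgroup ↥N) : Set ↥N) with hX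
  have hXp : IsPGroup p ↥X := by
    obtain ⟨j, hj⟩ := IsPGroup.iff_card.1 Q.2
    intro x
    refine ⟨j, ?_⟩
    rw [← hj]
    apply Subtype.ext
    have key : χN ((x : ↥N) ^ Nat.card (Q : Subgroup ↥N)) = χN 1 := by
      rw [eq_sum_classInner_smul (isClassFunction_of_isCharacter hχNc)]
      simp only [Finset.sum_apply, Pi.smul_apply, smul_eq_mul]
      refine Finset.sum_congr rfl fun θ _ => ?_
      by_cases h0 : classInner χN (θ : ↥N → ℂ) = 0
      · rw [h0, zero_mul, zero_mul]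
      · rw [hall θ h0 x x.2]
    have h1 := hf _ key
    push_cast
    exact Subtype.ext h1
  rw [← Q.3 hXp Subgroup.le_normalClosure]
  exact Subgroup.normalClosure_normal

/-- A non-invariant constituent gives the conclusion. -/
theorem step_orbit {G : Type v} [Group G] [Finite G] {p : ℕ} [hp : Fact p.Prime] {n : ℕ}
    (hsolv : Group.IsSolvable G) (hpn : ¬ p ∣ n) (S : Subgroup G) [S.Normal] {y : G} (hyS : y ∉ S)
    {j : ℕ} (hj : y ^ p ^ j = 1)
    (hpel : ∀ L : Subgroup G, L.Normal → L ≠ ⊤ → ∀ x ∈ L, x ^ p ^ j = 1 → x ∈ S)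
    (P : Sylow p G) (hyP : y ∈ (P : Subgroup G))
    (H : Subgroup G) (hH : H ≠ ⊤) (hHn : H.index ∣ n) : Concl p n := by
  classical
  haveI := hsolv
  obtain ⟨H1, hH1, hHH1⟩ := (eq_top_or_exists_le_coatom H).resolve_left hH
  have hk : H1.index ∣ n := (Subgroup.index_dvd_of_le hHH1).trans hHn
  obtain ⟨Q⟩ : Nonempty (Sylow p ↥H1) := inferInstance
  have hQnd : ¬ p ∣ ((Q : Subgroup ↥H1).map H1.subtype).index := by
    rw [Subgroup.index_map_subtype]
    intro hd
    rcases hp.out.dvd_mul.1 hd with h | h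
    · exact Q.not_dvd_index h
    · exact hpn (h.trans hk)
  let Q' : Sylow p G := (Q.2.map H1.subtype).toSylow hQnd
  obtain ⟨g, hg⟩ := MulAction.exists_smul_eq G P Q'
  set w := g * y * g⁻¹ with hw
  have hwH : w ∈ H1 := by
    have h1 : w ∈ (Q' : Subgroup G) := by
      rw [← hg, Sylow.coe_subgroup_smul]
      exact ⟨y, hyP, rfl⟩
    exact Subgroup.map_subtype_le _ h1
  have hwS : w ∉ S := fun h => hyS (by
    have := (inferInstance : S.Normal).conj_mem _ h g⁻¹
    simpa [hw, mul_assoc] using this)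
  have hwj : w ^ p ^ j = 1 := by rw [hw, conj_pow, hj]; simp
  set L := H1.normalCore with hL
  haveI : L.Normal := Subgroup.normalCore_normal H1
  have hLle : L ≤ H1 := Subgroup.normalCore_le H1
  have hLtop : L ≠ ⊤ := fun e => hH1.1 (top_le_iff.1 (e ▸ hLle))
  have hwL : ∀ K : Subgroup G, K.Normal → K ≤ H1 → w ∉ K := fun K hKn hK h =>
    hwS (hpel K hKn (fun e => hH1.1 (top_le_iff.1 (e ▸ hK))) w h hwj)
  obtain ⟨A, ⟨hAn, hLA⟩, hmin⟩ := Set.Finite.exists_minimal
    (Set.toFinite {A : Subgroup G | A.Normal ∧ L < A}) ⟨⊤, inferInstance, lt_top_iff_ne_top.2 hLtop⟩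
  haveI := hAn
  have hAH : ¬ A ≤ H1 := fun h => hLA.not_ge (Subgroup.normal_le_normalCore.2 h)
  have hsup : A ⊔ H1 = ⊤ :=
    hH1.2 _ (lt_of_le_of_ne le_sup_right fun e => hAH (le_sup_left.trans e.ge))
  have hdec : ∀ x : G, ∃ a ∈ A, ∃ b ∈ H1, a * b = x := fun x =>
    Subgroup.mem_sup_of_normal_left.1 (hsup ▸ Subgroup.mem_top x)
  set π := QuotientGroup.mk' L with hπ
  have hker : ∀ x : G, π x = 1 ↔ x ∈ L := fun x => QuotientGroup.eq_one_iff x
  set Ab := A.map π with hAb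
  haveI : Ab.Normal := hAn.map π (QuotientGroup.mk'_surjective L)
  -- the chief factor is abelian
  have hcomm : ∀ a ∈ A, ∀ b ∈ A, π a * π b = π b * π a := by
    have hbot : ⁅Ab, Ab⁆ = ⊥ := by
      by_contra hne
      have hle : ⁅Ab, Ab⁆ ≤ Ab := Subgroup.commutator_le_left Ab Ab
      have h1 : A ≤ (⁅Ab, Ab⁆).comap π := by
        by_contra hnot
        set B := (⁅Ab, Ab⁆).comap π ⊓ A with hB
        have hLB : L < B := by
          refine lt_of_le_of_ne (le_inf (fun l hl => ?_) hLA.le) fun e => hne ?_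
          · rw [Subgroup.mem_comap, (hker l).2 hl]; exact one_mem _
          · rw [Subgroup.eq_bot_iff_forall]
            intro c hc
            obtain ⟨a, ha, rfl⟩ := hle hc
            exact (hker a).2 (e ▸ (⟨hc, ha⟩ : a ∈ B))
        have hBn : B.Normal := by rw [hB]; infer_instance
        have := hmin ⟨hBn, hLB⟩ inf_le_right
        exact hnot (this.trans inf_le_left)
      have heq : ⁅Ab, Ab⁆ = Ab := le_antisymm hle (by
        rintro _ ⟨a, ha, rfl⟩
        exact h1 ha)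
      have hall : ∀ i, Ab ≤ derivedSeries (G ⧸ L) i := by
        intro i
        induction i with
        | zero => simp
        | succ i ih =>
          rw [derivedSeries_succ, ← heq]
          exact Subgroup.commutator_mono ih ih
      obtain ⟨i, hi⟩ := (Group.isSolvable_def (G ⧸ L)).1 inferInstance
      exact hne (le_bot_iff.1 ((heq.le.trans (hall i)).trans hi.le))
    intro a ha b hb
    rw [Subgroup.commutator_eq_bot_iff_le_centralizer] at hbot
    exact (Subgroup.mem_centralizer_iff.1 (hbot ⟨a, ha, rfl⟩) (π b) ⟨b, hb, rfl⟩).symm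
  have hinter : ∀ a ∈ A, a ∈ H1 → a ∈ L := by
    have hn : (A ⊓ H1).Normal := by
      refine ⟨fun x hx g => ?_⟩
      obtain ⟨a, ha, b, hb, rfl⟩ := hdec g
      have hbx : b * x * b⁻¹ ∈ A ⊓ H1 :=
        ⟨hAn.conj_mem x hx.1 b, H1.mul_mem (H1.mul_mem hb hx.2) (H1.inv_mem hb)⟩
      have hl : a * (b * x * b⁻¹) * a⁻¹ * (b * x * b⁻¹)⁻¹ ∈ L := by
        rw [← hker]
        simp only [map_mul, map_inv]
        have := hcomm a ha _ hbx.1
        simp only [map_mul, map_inv] at this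
        rw [this]
        group
      have he : a * b * x * (a * b)⁻¹ =
          a * (b * x * b⁻¹) * a⁻¹ * (b * x * b⁻¹)⁻¹ * (b * x * b⁻¹) := by group
      rw [he]
      exact (A ⊓ H1).mul_mem ⟨hLA.le hl, hLle hl⟩ hbx
    exact fun a ha ha' => (Subgroup.normal_le_normalCore.2 (inf_le_right : A ⊓ H1 ≤ H1)) ⟨ha, ha'⟩
  have hcard : Nat.card ↥Ab = H1.index := by
    have h1 : Nat.card ↥Ab = L.relIndex A := by
      rw [hAb, hπ, ← Subgroup.relIndex_ker A (QuotientGroup.mk' L), QuotientGroup.ker_mk']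
    have h3 : L.relIndex H1 = A.index := by
      rw [← Subgroup.relIndex_top_right A, ← hsup, Subgroup.relIndex_sup_left,
        ← Subgroup.inf_relIndex_right A H1]
      congr 1
      exact le_antisymm (le_inf hLA.le hLle) (fun a ha => hinter a ha.1 ha.2)
    have h4 : L.relIndex A * A.index = H1.index * A.index := by
      rw [Subgroup.relIndex_mul_index hLA.le, ← h3, mul_comm, Subgroup.relIndex_mul_index hLle]
    rw [h1]
    exact Nat.eq_of_mul_eq_mul_right (Nat.pos_of_ne_zero Subgroup.index_ne_zero_of_finite) h4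
  -- the chief factor is an `r`-group
  have h1lt : 1 < Nat.card ↥Ab := by
    rw [hcard]
    have hne : H1.index ≠ 1 := fun e => hH1.1 (Subgroup.index_eq_one.1 e)
    have : 0 < H1.index := Nat.pos_of_ne_zero Subgroup.index_ne_zero_of_finite
    omega
  obtain ⟨r, hr, hrd⟩ := Nat.exists_prime_and_dvd h1lt.ne'
  haveI : Fact r.Prime := ⟨hr⟩
  have hrp : r ≠ p := by rintro rfl; exact hpn ((hcard ▸ hrd).trans hk)
  obtain ⟨c, hc⟩ := exists_prime_orderOf_dvd_card' r hrd
  let B : Subgroup G :=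
    { carrier := {a | a ∈ A ∧ (π a) ^ r = 1}
      one_mem' := ⟨A.one_mem, by simp⟩
      mul_mem' := fun {a b} ha hb => ⟨A.mul_mem ha.1 hb.1, by
        rw [map_mul, (show Commute (π a) (π b) from hcomm a ha.1 b hb.1).mul_pow, ha.2, hb.2, one_mul]⟩
      inv_mem' := fun {a} ha => ⟨A.inv_mem ha.1, by rw [map_inv, inv_pow, ha.2, inv_one]⟩ }
  have hBn : B.Normal := ⟨fun x hx g => ⟨hAn.conj_mem x hx.1 g, by
    rw [map_mul, map_mul, map_inv, conj_pow, hx.2]; simp⟩⟩
  have hLB : L < B := by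
    refine lt_of_le_of_ne (fun l hl => ⟨hLA.le hl, by rw [(hker l).2 hl, one_pow]⟩) fun e => ?_
    obtain ⟨a, ha, hac⟩ := c.2
    have haB : a ∈ B := ⟨ha, by
      rw [hac, ← hc]
      rw [← SubgroupClass.coe_pow, pow_orderOf_eq_one, Subgroup.coe_one]⟩
    have h1 : π a = 1 := (hker a).2 (e ▸ haB)
    have : c = 1 := Subtype.ext (hac ▸ h1)
    rw [this, orderOf_one] at hc
    exact hr.one_lt.ne hc
  have hAB : A ≤ B := hmin ⟨hBn, hLB⟩ fun x hx => hx.1
  have hpg : IsPGroup r ↥Ab := by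
    rintro ⟨_, a, ha, rfl⟩
    exact ⟨1, Subtype.ext (by simpa using (hAB ha).2)⟩
  obtain ⟨e, he⟩ := IsPGroup.iff_card.1 hpg
  obtain ⟨f, hf⟩ := IsPGroup.iff_card.1 (hpg.to_le
    (inf_le_left : Ab ⊓ Subgroup.centralizer {π w} ≤ Ab))
  -- `w` moves the chief factor
  have hmove : ¬ Ab ≤ Subgroup.centralizer {π w} := by
    intro hle
    set K := H1 ⊓ (Subgroup.centralizer (Ab : Set (G ⧸ L))).comap π with hK
    have hKn : K.Normal := by
      refine ⟨fun x hx g => ?_⟩
      obtain ⟨a, ha, b, hb, rfl⟩ := hdec g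
      have hbx : b * x * b⁻¹ ∈ K := ⟨H1.mul_mem (H1.mul_mem hb hx.1) (H1.inv_mem hb),
        ((inferInstance : ((Subgroup.centralizer (Ab : Set (G ⧸ L))).comap π).Normal)).conj_mem x hx.2 b⟩
      have hl : a * (b * x * b⁻¹) * a⁻¹ * (b * x * b⁻¹)⁻¹ ∈ L := by
        rw [← hker]
        have := Subgroup.mem_centralizer_iff.1 hbx.2 (π a) ⟨a, ha, rfl⟩
        simp only [map_mul, map_inv] at this ⊢
        rw [this]
        group
      have he : a * b * x * (a * b)⁻¹ =
          a * (b * x * b⁻¹) * a⁻¹ * (b * x * b⁻¹)⁻¹ * (b * x * b⁻¹) := by group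
      rw [he]
      refine K.mul_mem ⟨hLle hl, ?_⟩ hbx
      show π _ ∈ Subgroup.centralizer _
      rw [(hker _).2 hl]
      exact one_mem _
    refine hwL K hKn inf_le_left ⟨hwH, ?_⟩
    show π w ∈ Subgroup.centralizer _
    rw [Subgroup.mem_centralizer_iff]
    intro x hx
    exact Subgroup.mem_centralizer_singleton_iff.1 (hle hx)
  have hfe : f < e := by
    rw [← Nat.pow_lt_pow_iff_right hr.one_lt, ← hf, ← he]
    refine lt_of_le_of_ne (Nat.card_le_card_of_injective (Subgroup.inclusion inf_le_left)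
      (Subgroup.inclusion_injective _)) fun heq => hmove ?_
    have := Subgroup.eq_of_le_of_card_ge (inf_le_left : Ab ⊓ Subgroup.centralizer {π w} ≤ Ab) heq.ge
    exact inf_eq_left.1 this
  have hcount := count Ab (π w)
    (fun x hx => (inferInstance : Ab.Normal).conj_mem x hx (π w))
    (j := j) (by rw [← map_pow, hwj, map_one])
  rw [hf, he] at hcount
  exact concl_one hrp hfe hcount (by rw [← he, hcard]; exact hk)

theorem key {p : ℕ} [hp : Fact p.Prime] : ∀ (N : ℕ) (G : Type v) [Group G] [Finite G],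
    Nat.card G = N → ∀ χ : G → ℂ, IsIrrCharacter G χ → (∀ g, χ g = χ 1 → g = 1) →
    Group.IsSolvable G → ∀ P : Sylow p G, ¬ (P : Subgroup G).Normal → Concl p (charDegree χ) := by
  intro N
  induction N using Nat.strong_induction_on with
  | _ N IH =>
  intro G _ _ hN χ hχ hfaith hsolv P hP
  classical
  haveI := Fintype.ofFinite G
  haveI := hsolv
  by_contra hcon
  have hpn : ¬ p ∣ charDegree χ := fun h =>
    hcon ⟨p, hp.out.isPrimePow, h, Or.inr (Or.inl (by simp [Int.ModEq]))⟩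
  set S := pCore p G with hS
  haveI : S.Normal := Hall.pCore_normal p
  have hpel : ∀ L : Subgroup G, L.Normal → L ≠ ⊤ → ∀ i : ℕ, ∀ x ∈ L, x ^ p ^ i = 1 → x ∈ S := by
    intro L hLn hL i x hx hxi
    haveI := hLn
    obtain ⟨Q⟩ : Nonempty (Sylow p ↥L) := inferInstance
    have hQn : (Q : Subgroup ↥L).Normal := by
      by_contra hQ
      refine hcon (reduce hχ hfaith hsolv (fun H _ _ hlt ψ h1 h2 h3 R h4 => ?_) L hL Q hQ)
      exact IH _ (hN ▸ hlt) H rfl ψ h1 h2 h3 R h4
    haveI : Unique (Sylow p ↥L) := Sylow.unique_of_normal Q hQn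
    have hxp : IsPGroup p ↥(Subgroup.zpowers (⟨x, hx⟩ : ↥L)) := by
      obtain ⟨k, -, hk⟩ := (Nat.dvd_prime_pow hp.out).1
        (orderOf_dvd_of_pow_eq_one (show (⟨x, hx⟩ : ↥L) ^ p ^ i = 1 from Subtype.ext (by simpa using hxi)))
      exact IsPGroup.of_card (n := k) (by rw [Nat.card_zpowers, hk])
    obtain ⟨Q2, hQ2⟩ := hxp.exists_le_sylow
    haveI : (Q : Subgroup ↥L).Characteristic := Sylow.characteristic_of_normal Q hQn
    haveI : ((Q : Subgroup ↥L).map L.subtype).Normal := inferInstance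
    refine Hall.le_pCore (Q.2.map L.subtype) ⟨⟨x, hx⟩, ?_, rfl⟩
    rw [Subsingleton.elim Q Q2]
    exact hQ2 (Subgroup.mem_zpowers _)
  -- the element `y`
  obtain ⟨x0, hx0P, hx0S⟩ : ∃ x ∈ (P : Subgroup G), x ∉ S := by
    by_contra h
    push Not at h
    apply hP
    rw [le_antisymm (fun x hx => h x hx) (Hall.pCore_le_sylow P)]
    infer_instance
  obtain ⟨y, hyP, hyS, hypS⟩ : ∃ y ∈ (P : Subgroup G), y ∉ S ∧ y ^ p ∈ S := by
    obtain ⟨k, hk⟩ := P.2 ⟨x0, hx0P⟩
    have hex : ∃ i, x0 ^ p ^ i ∈ S := ⟨k, by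
      have := congrArg Subtype.val hk
      simp only [SubgroupClass.coe_pow, Subgroup.coe_one] at this
      rw [this]; exact S.one_mem⟩
    obtain ⟨i, hi⟩ : ∃ i, Nat.find hex = i + 1 := by
      refine ⟨Nat.find hex - 1, ?_⟩
      have : Nat.find hex ≠ 0 := fun h0 => hx0S (by
        have := Nat.find_spec hex
        rwa [h0, pow_zero, pow_one] at this)
      omega
    refine ⟨x0 ^ p ^ i, Subgroup.pow_mem _ hx0P _, Nat.find_min hex (by omega), ?_⟩
    rw [← pow_mul, ← pow_succ, ← hi]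
    exact Nat.find_spec hex
  obtain ⟨jy, hjy⟩ : ∃ j, y ^ p ^ j = 1 := by
    obtain ⟨k, hk⟩ := P.2 ⟨y, hyP⟩
    exact ⟨k, by simpa using congrArg Subtype.val hk⟩
  -- homogeneity
  have hhom : ∀ (A : Subgroup G) [A.Normal] [Fintype ↥A] (θ : ↥A → ℂ), IsIrrCharacter ↥A θ →
      classInner (fun x : A => χ x) θ ≠ 0 → inertia A θ = ⊤ := by
    intro A _ _ θ hθ hne
    by_contra hne'
    exact hcon (step_orbit hsolv hpn S hyS hjy (fun L hL1 hL2 x hx hxj => hpel L hL1 hL2 jy x hx hxj)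
      P hyP _ hne' (clifford_nat hχ A hθ hne).1)
  obtain ⟨n, ρ, hρ, rfl⟩ := hχ
  haveI := hρ
  have hχ : IsIrrCharacter G ρ.character := ⟨n, ρ, hρ, rfl⟩
  have hinj : ∀ g, ρ g = 1 → g = 1 := fun g hg => hfaith g (by
    rw [(character_eq_degree_iff ρ g).2 hg, Representation.char_one])
  have hab : ∀ A : Subgroup G, A.Normal → (∀ a ∈ A, ∀ b ∈ A, a * b = b * a) →
      A ≤ Subgroup.center G := by
    intro A hA habA a ha
    haveI := hA
    obtain ⟨θ, hθ, hne⟩ := exists_constituent_restrict hχ A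
    have h1 := commute_all_of_inertia_top ρ A ⟨θ, hθ⟩ hne (hhom A θ hθ hne) ha
      (fun x hx => by rw [← map_mul, ← map_mul, habA a ha x hx])
    rw [Subgroup.mem_center_iff]
    intro g
    have h2 : ρ ((a * g)⁻¹ * (g * a)) = 1 := by
      rw [map_mul, map_mul ρ g a, ← h1 g, ← map_mul ρ a g, ← map_mul, inv_mul_cancel, map_one]
    exact (inv_mul_eq_one.1 (hinj _ h2)).symm
  -- `O_p(G)` is central
  have hSc : S ≤ Subgroup.center G := by
    refine hab S inferInstance ?_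
    obtain ⟨θ, hθ, hne⟩ := exists_constituent_restrict hχ S
    have hd := (clifford_nat hχ S hθ hne).2
    have hθ1 : θ 1 = 1 := by
      have hc := CharAux.charDegree_eq (isCharacter_of_isIrr hθ)
      have h1 : charDegree θ ∣ Nat.card ↥S := by
        have := CharClifford.degree_dvd_index_of_scalar hθ hc ⊥ (fun m hm => by
          rw [Subgroup.mem_bot.1 hm])
        rwa [Subgroup.index_bot] at this
      obtain ⟨k, hk⟩ := IsPGroup.iff_card.1 (Hall.isPGroup_pCore (G := G) p)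
      rw [hk] at h1
      obtain ⟨i, -, hi⟩ := (Nat.dvd_prime_pow hp.out).1 h1
      rcases Nat.eq_zero_or_pos i with rfl | hipos
      · rw [hc, hi]; simp
      · exact absurd ((dvd_pow_self p hipos.ne').trans (hi ▸ hd)) hpn
    obtain ⟨φ, hφ⟩ := exists_hom_of_degree_one (isCharacter_of_isIrr hθ) hθ1
    intro a ha b hb
    have hcf := clifford S hχ hθ hne
    have horb : orbit S θ = {θ} := by
      ext ψ
      rw [mem_orbit, Finset.mem_singleton]
      constructor
      · rintro ⟨g, rfl⟩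
        exact (mem_inertia S).1 ((hhom S θ hθ hne) ▸ Subgroup.mem_top g)
      · rintro rfl
        exact ⟨1, conjChar_one S _⟩
    set u : ↥S := ⟨a, ha⟩ * ⟨b, hb⟩ * (⟨b, hb⟩ * ⟨a, ha⟩)⁻¹ with hu
    have hθu : θ u = θ 1 := by
      rw [hφ, hφ, hu, map_mul, map_inv, map_mul, map_mul, mul_comm (φ ⟨b, hb⟩), mul_inv_cancel,
        map_one]
    have e1 := congrFun hcf u
    have e2 := congrFun hcf 1
    rw [horb, Finset.sum_singleton] at e1 e2
    simp only [Pi.smul_apply, smul_eq_mul] at e1 e2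
    rw [hθu, ← e2] at e1
    have h3 : (u : G) = 1 := hfaith _ (by simpa using e1)
    rw [hu] at h3
    simp only [Subgroup.coe_mul, Subgroup.coe_inv] at h3
    exact mul_inv_eq_one.1 h3
  -- a Fitting constituent moved by `y`
  set F := fittingSubgroup G with hF
  have hFtop : F ≠ ⊤ := by
    intro e
    apply hP
    have hnil : Group.IsNilpotent G := Group.isNilpotent_top.1 (e ▸ Hall.fittingSubgroup_isNilpotent)
    exact ((Group.isNilpotent_of_finite_tfae (G := G)).out 0 3 rfl rfl).mp hnil p inferInstance P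
  have hyF : ¬ y ∈ Subgroup.centralizer (F : Set G) := fun h => by
    have h1 := Hall.centralizer_fittingSubgroup_le h
    exact hyS (hpel F inferInstance hFtop jy y h1 hjy)
  obtain ⟨r, hr, hyR⟩ : ∃ r : ℕ, r.Prime ∧ ¬ pCore r G ≤ Subgroup.centralizer {y} := by
    by_contra h
    push Not at h
    apply hyF
    have hle : F ≤ Subgroup.centralizer {y} := by
      rw [hF, Hall.fittingSubgroup_eq_iSup_pCore]
      exact iSup_le fun q => h q q.2
    rw [Subgroup.mem_centralizer_iff]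
    exact fun x hx => Subgroup.mem_centralizer_singleton_iff.1 (hle hx)
  haveI : Fact r.Prime := ⟨hr⟩
  have hrp : r ≠ p := by
    rintro rfl
    exact hyR fun x hx => Subgroup.mem_centralizer_singleton_iff.2
      (Subgroup.mem_center_iff.1 (hSc hx) y).symm
  set R := pCore r G with hR
  haveI : R.Normal := Hall.pCore_normal r
  have hRr : IsPGroup r ↥R := Hall.isPGroup_pCore r
  set Z := R ⊓ Subgroup.center G with hZ
  have hZR : Z ≤ R := inf_le_left
  have hZc : Z ≤ Subgroup.center G := inf_le_right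
  have hcz : ∀ z ∈ Z, ∀ g : G, g * z = z * g := fun z hz g => Subgroup.mem_center_iff.1 (hZc hz) g
  -- a central element of `R` lies in `Z`
  have hRZ : ∀ x ∈ R, (∀ g ∈ R, x * g = g * x) → x ∈ Z := by
    intro x hx hxg
    have hn : (R ⊓ Subgroup.centralizer (R : Set G)).Normal := inferInstance
    exact ⟨hx, hab _ hn (fun a ha b hb => (Subgroup.mem_centralizer_iff.1 hb.2 a ha.1))
      ⟨hx, Subgroup.mem_centralizer_iff.2 fun g hg => (hxg g hg).symm⟩⟩
  set π := QuotientGroup.mk' Z with hπ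
  have hker : ∀ x : G, π x = 1 ↔ x ∈ Z := fun x => QuotientGroup.eq_one_iff x
  set V := R.map π with hV
  haveI : V.Normal := (inferInstance : R.Normal).map π (QuotientGroup.mk'_surjective Z)
  -- class at most two
  set D := ⁅R, R⁆ with hD
  have hDR : D ≤ R := Subgroup.commutator_le_left R R
  set T := R ⊓ (Subgroup.centralizer (V : Set (G ⧸ Z))).comap π with hT
  have hTD : ∀ x ∈ T, D ≤ Subgroup.centralizer {x} := by
    intro x hx
    rw [hD, Subgroup.commutator_le]
    intro g hg h hh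
    rw [Subgroup.mem_centralizer_singleton_iff]
    have hconj : ∀ u ∈ R, ∃ z ∈ Z, x * u * x⁻¹ = z * u := fun u hu => ⟨x * u * x⁻¹ * u⁻¹, by
      rw [← hker]
      have := Subgroup.mem_centralizer_iff.1 hx.2 (π u) ⟨u, hu, rfl⟩
      simp only [map_mul, map_inv]
      rw [← this]
      group, by group⟩
    obtain ⟨z1, hz1, e1⟩ := hconj g hg
    obtain ⟨z2, hz2, e2⟩ := hconj h hh
    have hcalc : x * ⁅g, h⁆ * x⁻¹ = ⁅g, h⁆ := by
      have he : x * ⁅g, h⁆ * x⁻¹ =
          (x * g * x⁻¹) * (x * h * x⁻¹) * (x * g * x⁻¹)⁻¹ * (x * h * x⁻¹)⁻¹ := by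
        rw [commutatorElement_def]; group
      rw [he, e1, e2, mul_inv_rev, mul_inv_rev, commutatorElement_def]
      have c1 := hcz z1 hz1
      have c2 := hcz z2 hz2
      have c1' : ∀ u : G, u * z1⁻¹ = z1⁻¹ * u := fun u => hcz _ (Z.inv_mem hz1) u
      have c2' : ∀ u : G, u * z2⁻¹ = z2⁻¹ * u := fun u => hcz _ (Z.inv_mem hz2) u
      calc z1 * g * (z2 * h) * (g⁻¹ * z1⁻¹) * (h⁻¹ * z2⁻¹)
          = z1 * (g * z2) * h * g⁻¹ * (z1⁻¹ * h⁻¹) * z2⁻¹ := by group
        _ = z1 * (z2 * g) * h * g⁻¹ * (h⁻¹ * z1⁻¹) * z2⁻¹ := by rw [c2, c1']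
        _ = (z1 * z2) * (g * h * g⁻¹ * h⁻¹) * (z1⁻¹ * z2⁻¹) := by group
        _ = (g * h * g⁻¹ * h⁻¹) * (z1 * z2) * (z1⁻¹ * z2⁻¹) := by
              rw [hcz _ (Z.mul_mem hz1 hz2)]
        _ = g * h * g⁻¹ * h⁻¹ := by rw [c2' z1⁻¹]; group
    calc ⁅g, h⁆ * x = x * ⁅g, h⁆ * x⁻¹ * x := by rw [hcalc]
      _ = x * ⁅g, h⁆ := by group
  have hDT : D ⊓ T ≤ Z := by
    refine le_inf (inf_le_left.trans hDR) (hab _ inferInstance fun a ha b hb => ?_)
    exact Subgroup.mem_centralizer_singleton_iff.1 (hTD b hb.2 ha.1)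
  have hDZ : D ≤ Z := by
    have hVr : IsPGroup r ↥V := hRr.map _
    set Db := (D.map π).subgroupOf V with hDb
    haveI : (D.map π).Normal := (inferInstance : D.Normal).map π (QuotientGroup.mk'_surjective Z)
    have hbot : Db = ⊥ := by
      refine RudvalisType.eq_bot_of_inf_center_eq_bot' hVr Db ?_
      rw [Subgroup.eq_bot_iff_forall]
      rintro ⟨v, hv⟩ ⟨h1, h2⟩
      obtain ⟨d, hd, hdv⟩ := h1
      have hdv' : π d = v := hdv
      have hdT : d ∈ T := ⟨hDR hd, by
        show π d ∈ Subgroup.centralizer _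
        rw [Subgroup.mem_centralizer_iff, hdv']
        intro u hu
        exact congrArg Subtype.val (Subgroup.mem_center_iff.1 h2 ⟨u, hu⟩)⟩
      exact Subtype.ext (hdv' ▸ (hker d).2 (hDT ⟨hd, hdT⟩))
    intro d hd
    have : (⟨π d, ⟨d, hDR hd, rfl⟩⟩ : ↥V) ∈ Db := ⟨d, hd, rfl⟩
    rw [hbot, Subgroup.mem_bot] at this
    exact (hker d).1 (congrArg Subtype.val this)
  have hcommZ : ∀ a ∈ R, ∀ b ∈ R, a * b * a⁻¹ * b⁻¹ ∈ Z := fun a ha b hb =>
    hDZ (by rw [← commutatorElement_def]; exact Subgroup.commutator_mem_commutator ha hb)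
  -- the fixed points of `y`
  set C := R ⊓ Subgroup.centralizer {y} with hC
  have hyp : ∀ g : G, y ^ p * g = g * y ^ p := fun g =>
    (Subgroup.mem_center_iff.1 (hSc hypS) g).symm
  have hz1 : ∀ z ∈ Z, z ^ p = 1 → z = 1 := by
    intro z hz h1
    obtain ⟨k, hk⟩ := hRr ⟨z, hZR hz⟩
    have h2 : z ^ r ^ k = 1 := by simpa using congrArg Subtype.val hk
    have h3 := Nat.dvd_gcd (orderOf_dvd_of_pow_eq_one h1) (orderOf_dvd_of_pow_eq_one h2)
    rw [Nat.Coprime.gcd_eq_one (((Nat.coprime_primes hp.out hr).2 (Ne.symm hrp)).pow_right k),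
      Nat.dvd_one, orderOf_eq_one_iff] at h3
    exact h3
  have hlift : ∀ g ∈ R, π g * π y = π y * π g → g ∈ C := by
    intro g hg hgy
    set z := y * g * y⁻¹ * g⁻¹ with hzdef
    have hz : z ∈ Z := by
      rw [← hker, hzdef]
      simp only [map_mul, map_inv]
      rw [← hgy]
      group
    have hiter : ∀ i : ℕ, y ^ i * g * (y ^ i)⁻¹ = z ^ i * g := by
      intro i
      induction i with
      | zero => simp
      | succ i ih =>
        calc y ^ (i + 1) * g * (y ^ (i + 1))⁻¹ = y * (y ^ i * g * (y ^ i)⁻¹) * y⁻¹ := by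
              rw [pow_succ']; group
          _ = (y * z ^ i) * g * y⁻¹ := by rw [ih]; group
          _ = z ^ i * (y * g * y⁻¹) := by rw [hcz _ (Z.pow_mem hz i) y]; group
          _ = z ^ (i + 1) * g := by rw [pow_succ, hzdef]; group
    have h1 := hiter p
    rw [hyp g, mul_inv_cancel_right] at h1
    have h2 := hz1 z hz (mul_eq_right.1 h1.symm)
    rw [hzdef, mul_inv_eq_one, mul_inv_eq_iff_eq_mul] at h2
    exact ⟨hg, Subgroup.mem_centralizer_singleton_iff.2 h2.symm⟩
  have hZC : Z ≤ C := fun z hz =>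
    ⟨hZR hz, Subgroup.mem_centralizer_singleton_iff.2 (hcz z hz y).symm⟩
  have hfix : V ⊓ Subgroup.centralizer {π y} = C.map π := by
    apply le_antisymm
    · rintro _ ⟨⟨g, hg, rfl⟩, h2⟩
      exact ⟨g, hlift g hg (Subgroup.mem_centralizer_singleton_iff.1 h2), rfl⟩
    · rintro _ ⟨g, hg, rfl⟩
      refine ⟨⟨g, hg.1, rfl⟩, ?_⟩
      show π g ∈ Subgroup.centralizer _
      rw [Subgroup.mem_centralizer_singleton_iff, ← map_mul, ← map_mul,
        Subgroup.mem_centralizer_singleton_iff.1 hg.2]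
  -- non-degeneracy
  have hCnd : ∀ x ∈ C, x ∉ Z → ∃ g ∈ C, x * g * x⁻¹ * g⁻¹ ∈ Z ∧ x * g * x⁻¹ * g⁻¹ ≠ 1 := by
    intro x hx hxZ
    by_contra hcon'
    push Not at hcon'
    apply hxZ
    refine hRZ x hx.1 fun g hg => ?_
    set ζ := x * g * x⁻¹ * g⁻¹ with hζdef
    have hζ : ζ ∈ Z := hcommZ x hx.1 g hg
    have hxy : x * y = y * x := Subgroup.mem_centralizer_singleton_iff.1 hx.2
    set w := (g * y) ^ p * (y ^ p)⁻¹ with hw
    have hwR : ∀ i : ℕ, (g * y) ^ i * (y ^ i)⁻¹ ∈ R := by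
      intro i
      induction i with
      | zero => simp
      | succ i ih =>
        have he : (g * y) ^ (i + 1) * (y ^ (i + 1))⁻¹ =
            g * (y * ((g * y) ^ i * (y ^ i)⁻¹) * y⁻¹) := by
          rw [pow_succ', pow_succ' y]; group
        rw [he]
        exact R.mul_mem hg ((inferInstance : R.Normal).conj_mem _ ih y)
    have hwC : w ∈ C := by
      refine hlift w (hwR p) ?_
      have h1 : y * w * y⁻¹ = g⁻¹ * w * g := by
        have e1 : y * (g * y) ^ p = (y * g) ^ p * y :=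
          (show SemiconjBy y (g * y) (y * g) from (mul_assoc y g y).symm).pow_right p
        have e2 : g * (y * g) ^ p = (g * y) ^ p * g :=
          (show SemiconjBy g (y * g) (g * y) from (mul_assoc g y g).symm).pow_right p
        have e3 : (y * g) ^ p = g⁻¹ * ((g * y) ^ p * g) := by rw [← e2]; group
        have e4 : g * (y ^ p)⁻¹ = (y ^ p)⁻¹ * g := by
          rw [eq_inv_mul_iff_mul_eq, ← mul_assoc, hyp g, mul_inv_cancel_right]
        calc y * w * y⁻¹ = (y * (g * y) ^ p) * ((y ^ p)⁻¹ * y⁻¹) := by rw [hw]; group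
          _ = (y * g) ^ p * (y * ((y ^ p)⁻¹ * y⁻¹)) := by rw [e1, mul_assoc]
          _ = g⁻¹ * ((g * y) ^ p * g) * (y * ((y ^ p)⁻¹ * y⁻¹)) := by rw [e3]
          _ = g⁻¹ * (g * y) ^ p * (g * (y ^ p)⁻¹) := by group
          _ = g⁻¹ * w * g := by rw [e4, hw]; group
      have h2 : π w * π g = π g * π w := by
        have h := (hker _).2 (hcommZ w (hwR p) g hg)
        simp only [map_mul, map_inv] at h
        rwa [mul_inv_eq_one, mul_inv_eq_iff_eq_mul] at h
      have h3 := congrArg π h1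
      simp only [map_mul, map_inv] at h3
      rw [mul_assoc (π g)⁻¹, h2, inv_mul_cancel_left, mul_inv_eq_iff_eq_mul] at h3
      exact h3.symm
    have hxg : x * g * x⁻¹ = ζ * g := by rw [hζdef]; group
    have h4 : x * w * x⁻¹ * w⁻¹ = ζ ^ p := by
      have e1 : x * (g * y) * x⁻¹ = ζ * (g * y) := by
        calc x * (g * y) * x⁻¹ = (x * g * x⁻¹) * (x * y * x⁻¹) := by group
          _ = ζ * g * y := by rw [hxg, hxy, mul_inv_cancel_right]
          _ = ζ * (g * y) := mul_assoc _ _ _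
      have e2 : x * (y ^ p)⁻¹ * x⁻¹ = (y ^ p)⁻¹ := by
        have := (hyp x)
        rw [mul_inv_eq_iff_eq_mul, eq_inv_mul_iff_mul_eq, ← mul_assoc, this, mul_inv_cancel_right]
      calc x * w * x⁻¹ * w⁻¹ = (x * (g * y) ^ p * x⁻¹) * (x * (y ^ p)⁻¹ * x⁻¹) * w⁻¹ := by
            rw [hw]; group
        _ = (ζ * (g * y)) ^ p * (y ^ p)⁻¹ * w⁻¹ := by rw [e2, ← conj_pow, e1]
        _ = ζ ^ p := by
            rw [(show Commute ζ (g * y) from (hcz ζ hζ (g * y)).symm).mul_pow, hw]; group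
    have hcn : x * w * x⁻¹ * w⁻¹ = 1 :=
      hcon' w hwC (hcommZ x hx.1 w (hwR p))
    rw [h4] at hcn
    have h5 := hz1 ζ hζ hcn
    rw [h5, one_mul, mul_inv_eq_iff_eq_mul] at hxg
    exact hxg
  have hRnd : ∀ x ∈ R, x ∉ Z → ∃ g ∈ R, x * g * x⁻¹ * g⁻¹ ∈ Z ∧ x * g * x⁻¹ * g⁻¹ ≠ 1 := by
    intro x hx hxZ
    by_contra hcon'
    push Not at hcon'
    refine hxZ (hRZ x hx fun g hg => ?_)
    have := hcon' g hg (hcommZ x hx g hg)
    rwa [mul_inv_eq_one, mul_inv_eq_iff_eq_mul] at this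
  -- counting
  have hcardmap : ∀ X : Subgroup G, Z ≤ X → Nat.card ↥X = Nat.card ↥Z * Nat.card ↥(X.map π) := by
    intro X hX
    rw [← Subgroup.relIndex_ker X π, hπ, QuotientGroup.ker_mk']
    calc Nat.card ↥X = Nat.card ↥(Z.subgroupOf X) * (Z.subgroupOf X).index :=
          (Subgroup.card_mul_index _).symm
      _ = Nat.card ↥Z * Z.relIndex X := by
          rw [Nat.card_congr (Subgroup.subgroupOfEquivOfLe hX).toEquiv]; rfl
  obtain ⟨θ, hθ, hne⟩ := exists_constituent_restrict hχ R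
  have hR2 := ramified ρ hinj R Z hZR hZc hRnd hθ hne
    (CharAux.charDegree_eq (isCharacter_of_isIrr hθ))
  obtain ⟨φ, hφ, hneC⟩ := exists_constituent_restrict hχ C
  have hC2 := ramified ρ hinj C Z hZC hZc hCnd hφ hneC
    (CharAux.charDegree_eq (isCharacter_of_isIrr hφ))
  rw [hcardmap R hZR, Nat.mul_left_cancel_iff Nat.card_pos] at hR2
  rw [hcardmap C hZC, Nat.mul_left_cancel_iff Nat.card_pos] at hC2
  have hVr : IsPGroup r ↥V := hRr.map _
  obtain ⟨e, he⟩ := IsPGroup.iff_card.1 hVr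
  obtain ⟨f, hf⟩ := IsPGroup.iff_card.1 (hVr.to_le (Subgroup.map_mono (f := π) (inf_le_left : C ≤ R)))
  obtain ⟨a, -, ha⟩ := (Nat.dvd_prime_pow hr).1
    (show charDegree θ ∣ r ^ e by rw [← he, hR2]; exact dvd_pow_self _ (by omega))
  obtain ⟨b, -, hb⟩ := (Nat.dvd_prime_pow hr).1
    (show charDegree φ ∣ r ^ f by rw [← hf, hC2]; exact dvd_pow_self _ (by omega))
  rw [ha, ← pow_mul] at hR2
  rw [hb, ← pow_mul] at hC2
  have hba : b < a := by
    by_contra hle
    apply hyR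
    have h1 : Nat.card ↥(R.map π) ≤ Nat.card ↥(C.map π) := by
      rw [hR2, hC2]; exact Nat.pow_le_pow_right hr.pos (by omega)
    have heq : C.map π = V := Subgroup.eq_of_le_of_card_ge (Subgroup.map_mono inf_le_left) h1
    intro g hg
    obtain ⟨c, hc, hce⟩ := (heq.ge ⟨g, hg, rfl⟩ : π g ∈ C.map π)
    refine (hlift g hg ?_).2
    rw [← hce, ← map_mul, ← map_mul, Subgroup.mem_centralizer_singleton_iff.1 hc.2]
  have hcount := count V (π y) (fun x hx => (inferInstance : V.Normal).conj_mem x hx (π y))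
    (j := jy) (by rw [← map_pow, hjy, map_one])
  rw [hfix, hR2, hC2, mul_comm a 2, mul_comm b 2] at hcount
  exact hcon (concl_sq hrp hba hcount (ha ▸ (clifford_nat hχ R hθ hne).2))

/-- Let the finite solvable group G have a faithful irreducible character of degree n, and suppose that for the prime p a Sylow p-subgroup of G is not normal. Then n is divisible by a prime power q > 1 with q congruent to −1, 0 or 1 modulo p. -/
theorem result {G : Type*} [Group G] [Finite G] (χ : Cfsg.IrrCharacter G) (hfaith : ∀ g : G, (χ : G → ℂ) g = (χ : G → ℂ) 1 → g = 1) (n : ℕ) (hn : Cfsg.charDegree (χ : G → ℂ) = n) (hsolv : Group.IsSolvable G) (p : ℕ) (hp : p.Prime) (P : Sylow p G) (hP : ¬ (P : Subgroup G).Normal) : ∃ q : ℕ, IsPrimePow q ∧ q ∣ n ∧ ((q : ℤ) ≡ -1 [ZMOD p] ∨ (q : ℤ) ≡ 0 [ZMOD p] ∨ (q : ℤ) ≡ 1 [ZMOD p]) := by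
  haveI : Fact p.Prime := ⟨hp⟩
  have h := key (p := p) (Nat.card G) G rfl (χ : G → ℂ) χ.2 hfaith hsolv P hP
  rw [hn] at h
  exact h

end Cfsg.Agent.S4467
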