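import Cfsg.Statements.S4468
import Cfsg.Agent.Lib.Char.Clifford
import Cfsg.Agent.Lib.Char.Kernel
import Cfsg.Agent.Lib.Char.Degree
import Cfsg.Agent.Lib.CharAux
import Cfsg.Agent.Lib.CharGalois
import Cfsg.Agent.Lib.CharTools.Basic
import Cfsg.Agent.Lib.CharClifford.Basic
import Cfsg.Agent.Lib.CharClifford.Gallagher
import Cfsg.Agent.Lib.CharClifford.Divides
import Cfsg.Agent.Lib.Coprime.Action
import Cfsg.Agent.Lib.Hall.Basic
import Cfsg.Agent.Lib.HallHigman.Prime
import Cfsg.Agent.Lib.HallHigman.DerivedLength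

set_option autoImplicit false
open Cfsg

namespace Cfsg.Agent.S4468

open Cfsg.Agent.Lib Cfsg.Agent.Lib.Char Module

universe v

/-- A set of eigenvalues that is invariant under a twisted generator of the Galois group is large. -/
theorem card_ge {p : ℕ} [Fact p.Prime] (u : (ZMod p)ˣ) (hu : ∀ w, w ∈ Subgroup.zpowers u)
    (hu1 : (u : ZMod p) ≠ 1) (t : ZMod p) (A : Set (ZMod p))
    (hA : ∀ a ∈ A, (u : ZMod p) * a + t ∈ A) {b c : ZMod p} (hb : b ∈ A) (hc : c ∈ A) (hbc : b ≠ c) :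
    p - 1 ≤ A.ncard := by
  set a0 : ZMod p := t / (1 - (u : ZMod p)) with ha0
  have hfix : (u : ZMod p) * a0 + t = a0 := by
    have h : (1 - (u : ZMod p)) ≠ 0 := sub_ne_zero.2 (Ne.symm hu1)
    rw [ha0]; field_simp; ring
  obtain ⟨a, ha, hne⟩ : ∃ a ∈ A, a ≠ a0 := by
    by_cases h : b = a0
    · exact ⟨c, hc, fun e => hbc (h.trans e.symm)⟩
    · exact ⟨b, hb, h⟩
  have horb : ∀ i : ℕ, a0 + ((u ^ i : (ZMod p)ˣ) : ZMod p) * (a - a0) ∈ A := by
    intro i
    induction i with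
    | zero => simpa using ha
    | succ i ih =>
      have := hA _ ih
      have e : (u : ZMod p) * (a0 + ((u ^ i : (ZMod p)ˣ) : ZMod p) * (a - a0)) + t =
          a0 + ((u ^ (i + 1) : (ZMod p)ˣ) : ZMod p) * (a - a0) := by
        rw [pow_succ, Units.val_mul]
        linear_combination hfix
      rwa [e] at this
  have hsub : Set.range (fun w : (ZMod p)ˣ => a0 + (w : ZMod p) * (a - a0)) ⊆ A := by
    rintro _ ⟨w, rfl⟩
    obtain ⟨i, hi⟩ := mem_powers_iff_mem_zpowers.2 (hu w)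
    simp only at hi
    subst hi
    exact horb i
  have hinj : Function.Injective (fun w : (ZMod p)ˣ => a0 + (w : ZMod p) * (a - a0)) := by
    intro w w' h
    simp only [add_right_inj] at h
    exact Units.ext (mul_right_cancel₀ (sub_ne_zero.2 hne) h)
  refine le_trans ?_ (Set.ncard_le_ncard hsub)
  rw [Set.ncard_range_of_injective hinj, Nat.card_eq_fintype_card, ZMod.card_units]

/-- The heart: an element acting non-trivially on a normal subgroup of order prime to `p`, over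
which the character stays irreducible, forces degree at least `p - 1`. -/
theorem degree_ge {H : Type v} [Group H] [Finite H] {p : ℕ} [hp : Fact p.Prime] (h3 : 3 ≤ p)
    (N : Subgroup H) [N.Normal] (hN : ¬ p ∣ Nat.card N) {m : ℕ} (hidx : N.index = p ^ m)
    {n : ℕ} (ρ : Representation ℂ H (Fin n → ℂ)) (hρN : IsIrrCharacter ↥N (fun a : ↥N => ρ.character a))
    (hρ : IsIrrCharacter H ρ.character) (x : H)
    (hxp : ∀ a ∈ N, x ^ p * a = a * x ^ p) (a : H) (ha : a ∈ N)
    (hxa : ρ (x * a) ≠ ρ (a * x)) : p - 1 ≤ n := by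
  classical
  haveI := Fintype.ofFinite H
  let ρN : Representation ℂ ↥N (Fin n → ℂ) := ρ.comp N.subtype
  haveI : ρN.IsIrreducible := CharClifford.isIrreducible_of_isIrrCharacter ρN hρN
  -- the Galois twist
  obtain ⟨u, hu⟩ := IsCyclic.exists_generator (α := (ZMod p)ˣ)
  have hu1 : (u : ZMod p) ≠ 1 := by
    intro h1
    have h2 : u = 1 := Units.ext h1
    subst h2
    have : Nat.card (ZMod p)ˣ = 1 := by
      rw [Nat.card_eq_one_iff_unique]
      refine ⟨⟨fun w w' => ?_⟩, inferInstance⟩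
      have e1 := hu w
      have e2 := hu w'
      rw [Subgroup.zpowers_one_eq_bot, Subgroup.mem_bot] at e1 e2
      rw [e1, e2]
    rw [Nat.card_eq_fintype_card, ZMod.card_units] at this
    omega
  obtain ⟨k, hk1, hk2⟩ := Nat.chineseRemainder ((hp.out.coprime_iff_not_dvd.2 hN))
    (u : ZMod p).val 1
  have hku : (k : ZMod p) = (u : ZMod p) := by
    rw [← ZMod.natCast_zmod_val (u : ZMod p)]
    exact (ZMod.natCast_eq_natCast_iff _ _ _).2 hk1
  have hcard : Nat.card H = Nat.card N * p ^ m := by rw [← hidx, Subgroup.card_mul_index]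
  have hkcop : Nat.Coprime k (Nat.card H) := by
    rw [hcard]
    refine Nat.Coprime.mul_right ?_ (Nat.Coprime.pow_right _ ?_)
    · rw [Nat.Coprime, hk2.gcd_eq, Nat.gcd_one_left]
    · rw [Nat.coprime_comm, hp.out.coprime_iff_not_dvd, ← ZMod.natCast_eq_zero_iff, hku]
      exact Units.ne_zero u
  obtain ⟨σ, hσ⟩ := CharGalois.exists_aut_pow Nat.card_pos hkcop
  -- the conjugate is a twist
  have hfixN : ∀ c : ↥N, σ (ρ.character c) = ρ.character c := by
    intro c
    rw [CharGalois.aut_apply_char hσ ⟨n, ρ, rfl⟩ (c : H)]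
    congr 1
    have h1 : orderOf (c : H) ∣ Nat.card N := by
      rw [Subgroup.orderOf_coe]; exact orderOf_dvd_natCard c
    conv_rhs => rw [← pow_one (c : H)]
    exact pow_eq_pow_iff_modEq.2 (hk2.of_dvd h1)
  obtain ⟨l, hlN, hl⟩ := CharClifford.extension_unique_mul_linear N hρN hρ (fun _ => rfl)
    (CharGalois.isIrrCharacter_aut σ hρ) hfixN
  -- eigenvalues of x
  obtain ⟨b, μ, hμo, hk', hc⟩ := exists_eigenbasis ρ x
  set o := orderOf x with ho
  have ho0 : (o : ℂ) ≠ 0 := by exact_mod_cast (orderOf_pos x).ne'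
  set lx : ℂ := (l x : ℂ) with hlx
  have hlxo : lx ^ o = 1 := by
    rw [hlx, ← Units.val_pow_eq_pow_val, ← map_pow, ho, pow_orderOf_eq_one, map_one, Units.val_one]
  have hlx0 : lx ≠ 0 := Units.ne_zero _
  have hμ0 : ∀ j, μ j ≠ 0 := fun j h => by
    have := hμo j
    rw [h, zero_pow (orderOf_pos x).ne'] at this
    exact zero_ne_one this
  have hgeom : ∀ z : ℂ, z ^ o = 1 → z ≠ 1 → ∑ i ∈ Finset.range o, z ^ i = 0 := by
    intro z hz hz1
    rw [geom_sum_eq hz1, hz, sub_self, zero_div]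
  set Spec : Finset ℂ := Finset.univ.image μ with hSpec
  have hclosed : ∀ j, σ (μ j) / lx ∈ Spec := by
    intro j0
    by_contra hnot
    have hE : ∀ i : ℕ, ∑ j, σ (μ j) ^ i = lx ^ i * ∑ j, μ j ^ i := by
      intro i
      have h1 : σ (ρ.character (x ^ i)) = (l (x ^ i) : ℂ) * ρ.character (x ^ i) := congrFun hl (x ^ i)
      rw [hc i, map_sum, map_pow, Units.val_pow_eq_pow_val] at h1
      rw [← h1]
      exact Finset.sum_congr rfl fun j _ => (map_pow σ _ _).symm
    have hL : ∑ i ∈ Finset.range o, ∑ j, (σ (μ j) / σ (μ j0)) ^ i =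
        (o : ℂ) * ((Finset.univ.filter fun j => μ j = μ j0).card : ℂ) := by
      rw [Finset.sum_comm, Finset.sum_congr rfl (g := fun j => if μ j = μ j0 then (o : ℂ) else 0)
        fun j _ => ?_]
      · rw [← Finset.sum_filter, Finset.sum_const, nsmul_eq_mul, mul_comm]
      · by_cases he : μ j = μ j0
        · rw [if_pos he, he]
          simp [hμ0 j0]
        · rw [if_neg he]
          refine hgeom _ ?_ ?_
          · rw [← map_div₀, ← map_pow, div_pow, hμo, hμo, div_one, map_one]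
          · rw [ne_eq, div_eq_one_iff_eq (by simpa using hμ0 j0)]
            exact fun e => he (σ.injective e)
    have hR : ∑ i ∈ Finset.range o, ∑ j, (σ (μ j) / σ (μ j0)) ^ i = 0 := by
      rw [Finset.sum_congr rfl (g := fun i => ∑ j, (lx * μ j / σ (μ j0)) ^ i) fun i _ => by
        simp only [div_pow, ← Finset.sum_div, mul_pow, ← Finset.mul_sum, hE i]]
      rw [Finset.sum_comm]
      refine Finset.sum_eq_zero fun j _ => hgeom _ ?_ ?_
      · rw [div_pow, mul_pow, hlxo, hμo, one_mul, ← map_pow, hμo, map_one, div_one]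
      · intro e
        apply hnot
        rw [hSpec, Finset.mem_image]
        refine ⟨j, Finset.mem_univ _, ?_⟩
        rw [div_eq_one_iff_eq (by simpa using hμ0 j0)] at e
        rw [← e, mul_div_cancel_left₀ _ hlx0]
    rw [hL, mul_eq_zero, Nat.cast_eq_zero] at hR
    rcases hR with h | h
    · exact (orderOf_pos x).ne' (by exact_mod_cast h)
    · have h' : (Finset.univ.filter fun j => μ j = μ j0).card = 0 := by exact_mod_cast h
      rw [Finset.card_eq_zero, Finset.filter_eq_empty_iff] at h'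
      exact h' (Finset.mem_univ j0) rfl
  -- ratios are p-th roots of unity
  obtain ⟨c, hc'⟩ := CharClifford.exists_smul_of_commute ρN (ρ (x ^ p)) (fun d => by
    show ρ (x ^ p) * ρ d.1 = ρ d.1 * ρ (x ^ p)
    rw [← map_mul, ← map_mul, hxp d.1 d.2])
  have hμp : ∀ j, μ j ^ p = c := by
    intro j
    have h1 := hk' j p
    rw [hc'] at h1
    simp only [LinearMap.smul_apply, Module.End.one_apply] at h1
    exact (smul_left_injective ℂ (b.ne_zero j) h1).symm
  obtain ⟨j0, j1, hj⟩ : ∃ j0 j1, μ j0 ≠ μ j1 := by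
    by_contra hcon
    push Not at hcon
    rcases isEmpty_or_nonempty (Fin (finrank ℂ (Fin n → ℂ))) with hem | ⟨⟨j0⟩⟩
    · exact hxa (b.ext fun j => isEmptyElim j)
    have hx : ρ x = μ j0 • 1 := b.ext fun j => by
      have := hk' j 1
      rw [pow_one, pow_one] at this
      rw [this, hcon j j0]
      simp
    apply hxa
    rw [map_mul, map_mul, hx, smul_mul_assoc, one_mul, mul_smul_comm, mul_one]
  set g : ℂ := μ j1 / μ j0 with hg
  have hgp : g ^ p = 1 := by
    rw [hg, div_pow, hμp, hμp, div_self]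
    rw [← hμp j0]; exact pow_ne_zero _ (hμ0 j0)
  have hg1 : g ≠ 1 := by
    rw [hg, ne_eq, div_eq_one_iff_eq (hμ0 j0)]
    exact Ne.symm hj
  have hgo : orderOf g = p := orderOf_eq_prime hgp hg1
  have hpr : IsPrimitiveRoot g p := hgo ▸ IsPrimitiveRoot.orderOf g
  have hval : ∀ i : ℕ, g ^ i = g ^ ((i : ZMod p)).val := fun i => by
    rw [ZMod.val_natCast]
    conv_lhs => rw [← pow_mod_orderOf, hgo]
  have hσg : σ g = g ^ k := by
    refine hσ g ?_
    have hpd : p ∣ Nat.card H := by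
      rcases Nat.eq_zero_or_pos m with rfl | hm
      · exfalso
        rw [pow_zero, Subgroup.index_eq_one] at hidx
        have h1 : orderOf x ∣ Nat.card N := by
          have hx : x ∈ N := hidx ▸ Subgroup.mem_top x
          have := orderOf_dvd_natCard (⟨x, hx⟩ : ↥N)
          rwa [← Subgroup.orderOf_coe] at this
        have hgo' : g ^ o = 1 := by rw [hg, div_pow, hμo, hμo, div_one]
        exact hN ((hgo ▸ orderOf_dvd_of_pow_eq_one hgo').trans h1)
      · rw [hcard]; exact dvd_mul_of_dvd_right (dvd_pow_self p hm.ne') _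
    obtain ⟨d, hd⟩ := hpd
    rw [hd, pow_mul, hgp, one_pow]
  set A : Set (ZMod p) := {a | μ j0 * g ^ a.val ∈ Spec} with hA
  have hmem : ∀ z ∈ Spec, ∃ a : ZMod p, z = μ j0 * g ^ a.val := by
    intro z hz
    obtain ⟨j, -, rfl⟩ := Finset.mem_image.1 hz
    obtain ⟨i, -, hi⟩ := hpr.eq_pow_of_pow_eq_one (ξ := μ j / μ j0) (by
      rw [div_pow, hμp, hμp, div_self]
      rw [← hμp j0]; exact pow_ne_zero _ (hμ0 j0))
    exact ⟨(i : ZMod p), by rw [← hval, hi, mul_div_cancel₀ _ (hμ0 j0)]⟩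
  obtain ⟨t, ht⟩ := hmem _ (hclosed j0)
  have hAcl : ∀ a ∈ A, (u : ZMod p) * a + t ∈ A := by
    intro a ha'
    obtain ⟨j, -, hj'⟩ := Finset.mem_image.1 (show μ j0 * g ^ a.val ∈ Spec from ha')
    have := hclosed j
    rw [hj', map_mul, map_pow, hσg, mul_div_right_comm, ht, ← pow_mul, mul_assoc, ← pow_add,
      hval] at this
    show μ j0 * g ^ ((u : ZMod p) * a + t).val ∈ Spec
    convert this using 4
    rw [← hku]
    push_cast [ZMod.natCast_zmod_val]
    ring
  have hA0 : (0 : ZMod p) ∈ A := by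
    show μ j0 * g ^ (0 : ZMod p).val ∈ Spec
    simp [Spec]
  have hA1 : (1 : ZMod p) ∈ A := by
    show μ j0 * g ^ (1 : ZMod p).val ∈ Spec
    rw [ZMod.val_one, pow_one, hg, mul_div_cancel₀ _ (hμ0 j0)]
    simp [Spec]
  refine (card_ge u hu hu1 t A hAcl hA0 hA1 zero_ne_one).trans ?_
  calc A.ncard ≤ (Spec : Set ℂ).ncard := by
        refine Set.ncard_le_ncard_of_injOn (fun a => μ j0 * g ^ a.val) (fun a ha => ha) ?_
        intro a _ a' _ he
        have := mul_left_cancel₀ (hμ0 j0) he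
        exact ZMod.val_injective p (hpr.pow_inj (ZMod.val_lt a) (ZMod.val_lt a') this)
    _ = Spec.card := Set.ncard_coe_finset Spec
    _ ≤ n := Finset.card_image_le.trans (by simp [Module.finrank_fin_fun])

/-- A `p`-element acting non-trivially on a `q`-subgroup of a group with a faithful character. -/
theorem exists_data {G : Type v} [Group G] [Finite G] {p : ℕ} [hp : Fact p.Prime]
    (hsolv : IsPSolvable p G) (P : Sylow p G) (hP : ¬ (P : Subgroup G).Normal) :
    ∃ (q : ℕ) (_ : Fact q.Prime) (Q : Subgroup G) (y : G), q ≠ p ∧ IsPGroup q ↥Q ∧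
      (∃ j, orderOf y = p ^ j) ∧ y ∈ Subgroup.normalizer (Q : Set G) ∧
      (∀ a ∈ Q, y ^ p * a = a * y ^ p) ∧ ∃ a ∈ Q, y * a ≠ a * y := by
  classical
  set S := pCore p G with hS
  haveI : S.Normal := Hall.pCore_normal p
  have hsolvbar : IsPSolvable p (G ⧸ S) := PLength.isPSolvable_map (QuotientGroup.mk'_surjective S) hsolv
  have hOp : pCore p (G ⧸ S) = ⊥ := PLength.pCore_quotient_pCore_eq_bot
  set Pb := (P : Subgroup G).map (QuotientGroup.mk' S) with hPb
  have hPb1 : Pb ≠ ⊥ := by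
    intro e
    apply hP
    rw [hPb, Subgroup.map_eq_bot_iff, QuotientGroup.ker_mk'] at e
    rw [le_antisymm e (Hall.pCore_le_sylow P)]
    infer_instance
  have hPbp : IsPGroup p ↥Pb := P.2.map _
  haveI : Nontrivial ↥Pb := (Subgroup.nontrivial_iff_ne_bot Pb).2 hPb1
  have hdvd : p ∣ Nat.card ↥Pb := by
    obtain ⟨j, hj⟩ := IsPGroup.iff_card.1 hPbp
    rw [hj]
    refine dvd_pow_self p fun h0 => ?_
    have := Finite.one_lt_card (α := ↥Pb)
    rw [hj, h0] at this
    simp at this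
  obtain ⟨z, hz⟩ := exists_prime_orderOf_dvd_card' p hdvd
  set zb : G ⧸ S := z.1 with hzb
  have hzo : orderOf zb = p := by rw [hzb, Subgroup.orderOf_coe]; exact hz
  set K := pPrimeCore p (G ⧸ S) with hK
  haveI : K.Normal := Hall.pPrimeCore_normal p
  have hKcop : ¬ p ∣ Nat.card K := Hall.not_dvd_card_pPrimeCore hp.out
  have hznot : ¬ K ≤ Subgroup.centralizer ({zb} : Set (G ⧸ S)) := by
    intro hle
    have h1 : zb ∈ K := HallHigman.centralizer_pPrimeCore_le hsolvbar hOp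
      (Subgroup.mem_centralizer_iff.2 fun k hk => by
        exact (Subgroup.mem_centralizer_singleton_iff.1 (hle hk)))
    apply hKcop
    rw [← hzo]
    have := orderOf_dvd_natCard (⟨zb, h1⟩ : ↥K)
    rwa [← Subgroup.orderOf_coe] at this
  have hq : ∃ (q : ℕ) (_ : Fact q.Prime) (Qb : Sylow q ↥K),
      zb ∈ Subgroup.normalizer ((((Qb : Subgroup ↥K).map K.subtype : Subgroup (G ⧸ S))) : Set (G ⧸ S)) ∧
      ¬ ((Qb : Subgroup ↥K).map K.subtype) ≤ Subgroup.centralizer ({zb} : Set (G ⧸ S)) := by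
    by_contra hcon
    push Not at hcon
    apply hznot
    set Cz := (Subgroup.centralizer ({zb} : Set (G ⧸ S))).subgroupOf K with hCz
    have hCtop : Cz = ⊤ := by
      rw [← Subgroup.index_eq_one]
      by_contra h1
      obtain ⟨q, hq, hqd⟩ := Nat.exists_prime_and_dvd h1
      haveI := Fact.mk hq
      obtain ⟨Qb, hQb⟩ := Cfsg.Agent.Lib.Coprime.exists_invariant_sylow
        (A := Subgroup.zpowers zb) (K := K)
        (by rw [Subgroup.normalizer_eq_top_iff.2 (inferInstance : K.Normal)]; exact le_top)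
        (by rw [Nat.card_zpowers, hzo]; exact hp.out.coprime_iff_not_dvd.2 hKcop)
        (Or.inl inferInstance) q
      have hle := hcon q inferInstance Qb (hQb (Subgroup.mem_zpowers zb))
      apply Qb.not_dvd_index
      refine hqd.trans (Subgroup.index_dvd_of_le fun w hw => ?_)
      exact hle ⟨w, hw, rfl⟩
    intro w hw
    have : (⟨w, hw⟩ : ↥K) ∈ Cz := hCtop ▸ Subgroup.mem_top _
    exact this
  obtain ⟨q, hqf, Qb, hzQ, hQz⟩ := hq
  set Qbar := (Qb : Subgroup ↥K).map K.subtype with hQbar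
  have hQbp : IsPGroup q ↥Qbar := Qb.2.map _
  have hqp : q ≠ p := by
    rintro rfl
    refine hQz ?_
    have hQ1 : Nat.card ↥Qbar = 1 := by
      obtain ⟨j, hj⟩ := IsPGroup.iff_card.1 hQbp
      rcases Nat.eq_zero_or_pos j with rfl | hj0
      · simpa using hj
      · exfalso
        apply hKcop
        refine ((dvd_pow_self q hj0.ne').trans (dvd_of_eq hj.symm)).trans ?_
        exact Subgroup.card_dvd_of_le (Subgroup.map_subtype_le _)
    rw [Subgroup.card_eq_one] at hQ1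
    rw [hQ1]; exact bot_le
  set W := Qbar.comap (QuotientGroup.mk' S) with hW
  obtain ⟨x, hx, hxz⟩ : ∃ x ∈ (P : Subgroup G), QuotientGroup.mk' S x = zb := z.2
  obtain ⟨Q⟩ : Nonempty (Sylow q ↥W) := inferInstance
  set Q0 := (Q : Subgroup ↥W).map W.subtype with hQ0
  have hQ0W : Q0 ≤ W := Subgroup.map_subtype_le _
  have hSW : S ≤ W := by
    intro s hs
    rw [hW, Subgroup.mem_comap, QuotientGroup.mk'_apply, (QuotientGroup.eq_one_iff s).2 hs]
    exact Subgroup.one_mem _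
  have hSQ : S ⊓ Q0 = ⊥ := by
    rw [← Subgroup.card_eq_one]
    obtain ⟨i, hi⟩ := IsPGroup.iff_card.1
      ((Hall.isPGroup_pCore (G := G) p).to_le (inf_le_left : S ⊓ Q0 ≤ S))
    obtain ⟨j, hj⟩ := IsPGroup.iff_card.1 ((Q.2.map W.subtype).to_le (inf_le_right : S ⊓ Q0 ≤ Q0))
    exact Nat.eq_one_of_dvd_coprimes (((Nat.coprime_primes hp.out hqf.out).2 (Ne.symm hqp)).pow i j)
      hi.dvd hj.dvd
  have hWeq : ∀ w ∈ W, ∃ s ∈ S, ∃ c ∈ Q0, w = s * c := by
    intro w hw
    have htop : S.subgroupOf W ⊔ (Q : Subgroup ↥W) = ⊤ := by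
      rw [← Subgroup.index_eq_one]
      have h1 : (S.subgroupOf W).index ∣ Nat.card ↥Qbar := by
        rw [show (S.subgroupOf W).index = S.relIndex W from rfl]
        conv_lhs => rw [← QuotientGroup.ker_mk' S]
        rw [Subgroup.relIndex_ker, hW,
          Subgroup.map_comap_eq_self_of_surjective (QuotientGroup.mk'_surjective S)]
      obtain ⟨j, hj⟩ := IsPGroup.iff_card.1 hQbp
      rw [hj] at h1
      exact Nat.eq_one_of_dvd_coprimes ((hqf.out.coprime_iff_not_dvd.2 Q.not_dvd_index).pow_left j)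
        ((Subgroup.index_dvd_of_le le_sup_left).trans h1) (Subgroup.index_dvd_of_le le_sup_right)
    have hmem : (⟨w, hw⟩ : ↥W) ∈ S.subgroupOf W ⊔ (Q : Subgroup ↥W) := htop ▸ Subgroup.mem_top _
    obtain ⟨s, hs, c, hc, hsc⟩ := Subgroup.mem_sup_of_normal_left.1 hmem
    exact ⟨s, hs, c, ⟨c, hc, rfl⟩, (congrArg Subtype.val hsc).symm⟩
  have hxW : ∀ w ∈ W, x * w * x⁻¹ ∈ W := by
    intro w hw
    rw [hW, Subgroup.mem_comap, map_mul, map_mul, map_inv, hxz]
    exact (Subgroup.mem_normalizer_iff.1 hzQ _).1 hw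
  set Q1 := Q0.map (MulAut.conj x).toMonoidHom with hQ1
  have hQ1W : Q1 ≤ W := by
    rintro _ ⟨c, hc, rfl⟩
    exact hxW c (hQ0W hc)
  obtain ⟨⟨w, hwW⟩, hw⟩ : ∃ w : ↥W, Q1 = Q0.map (MulAut.conj (w : G)).toMonoidHom := by
    let Q1' : Sylow q ↥W := (((Q.2.map W.subtype).map (MulAut.conj x).toMonoidHom).of_equiv
      (Subgroup.subgroupOfEquivOfLe hQ1W).symm).toSylow (by
        have e : Nat.card ↥(Q1.subgroupOf W) = Nat.card (Q : Subgroup ↥W) := by
          rw [Nat.card_congr (Subgroup.subgroupOfEquivOfLe hQ1W).toEquiv, hQ1,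
            Subgroup.card_map_of_injective (MulAut.conj x).injective, hQ0,
            Subgroup.card_map_of_injective W.subtype_injective]
        have h1 := Subgroup.card_mul_index (Q1.subgroupOf W)
        rw [e, ← Subgroup.card_mul_index (Q : Subgroup ↥W)] at h1
        rw [Nat.eq_of_mul_eq_mul_left Nat.card_pos h1]
        exact Q.not_dvd_index)
    obtain ⟨w, hw⟩ := MulAction.exists_smul_eq (M := ↥W) Q Q1'
    refine ⟨w, ?_⟩
    have h1 : ((Q1' : Subgroup ↥W)).map W.subtype = Q1 := Subgroup.map_subgroupOf_eq_of_le hQ1W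
    rw [← h1, ← hw, hQ0, Subgroup.map_map, Sylow.coe_subgroup_smul]
    show ((Q : Subgroup ↥W).map (MulAut.conj w).toMonoidHom).map W.subtype = _
    rw [Subgroup.map_map]
    congr 1
  obtain ⟨s, hs, c, hc, hsc⟩ := hWeq w hwW
  set y := s⁻¹ * x with hy
  have hyQ : y ∈ Subgroup.normalizer (Q0 : Set G) := by
    have hfin : ∀ a ∈ Q0, y * a * y⁻¹ ∈ Q0 := by
      intro a ha
      have h1 : x * a * x⁻¹ ∈ Q1 := ⟨a, ha, rfl⟩
      rw [hw] at h1
      obtain ⟨a', ha', he⟩ := h1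
      have he' : w * a' * w⁻¹ = x * a * x⁻¹ := he
      have : y * a * y⁻¹ = c * a' * c⁻¹ := by
        rw [hy, show s⁻¹ * x * a * (s⁻¹ * x)⁻¹ = s⁻¹ * (x * a * x⁻¹) * s from by group, ← he', hsc]
        group
      rw [this]
      exact Q0.mul_mem (Q0.mul_mem hc ha') (Q0.inv_mem hc)
    have hle : Q0.map (MulAut.conj y).toMonoidHom ≤ Q0 := by
      rintro _ ⟨b, hb, rfl⟩
      exact hfin b hb
    have hmap : Q0.map (MulAut.conj y).toMonoidHom = Q0 :=
      Subgroup.eq_of_le_of_card_ge hle (by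
        rw [Subgroup.card_map_of_injective (K := Q0) (f := (MulAut.conj y).toMonoidHom) (MulAut.conj y).injective])
    rw [Subgroup.mem_normalizer_iff]
    intro b
    refine ⟨fun hb => hfin b hb, fun hb => ?_⟩
    rw [← hmap] at hb
    obtain ⟨b', hb', he⟩ := hb
    exact (MulAut.conj y).injective he ▸ hb'
  have hyb : QuotientGroup.mk' S y = zb := by
    rw [hy, map_mul, map_inv, hxz, QuotientGroup.mk'_apply, (QuotientGroup.eq_one_iff s).2 hs,
      inv_one, one_mul]
  refine ⟨q, hqf, Q0, y, hqp, Q.2.map _, ?_, hyQ, ?_, ?_⟩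
  · have hyP : y ∈ (P : Subgroup G) :=
      mul_mem (inv_mem (Hall.pCore_le_sylow P hs)) hx
    obtain ⟨j, hj⟩ := P.2 ⟨y, hyP⟩
    obtain ⟨i, -, hi⟩ := (Nat.dvd_prime_pow hp.out).1
      (orderOf_dvd_of_pow_eq_one (show y ^ p ^ j = 1 by simpa using congrArg Subtype.val hj))
    exact ⟨i, hi⟩
  · intro a ha
    have hyp : y ^ p ∈ S := by
      rw [← QuotientGroup.eq_one_iff, QuotientGroup.mk_pow, ← QuotientGroup.mk'_apply, hyb,
        ← hzo, pow_orderOf_eq_one]
    have hypQ : y ^ p * a * (y ^ p)⁻¹ ∈ Q0 :=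
      (Subgroup.mem_normalizer_iff.1 (Subgroup.pow_mem _ hyQ p) a).1 ha
    have hm : y ^ p * a * (y ^ p)⁻¹ * a⁻¹ ∈ S ⊓ Q0 := by
      refine ⟨?_, Q0.mul_mem hypQ (Q0.inv_mem ha)⟩
      have h2 := (inferInstance : S.Normal).conj_mem _ (S.inv_mem hyp) a
      have := S.mul_mem hyp h2
      simpa [mul_assoc] using this
    rw [hSQ, Subgroup.mem_bot, mul_inv_eq_one, mul_inv_eq_iff_eq_mul] at hm
    exact hm
  · by_contra hcon
    push Not at hcon
    apply hQz
    intro d hd
    obtain ⟨d', rfl⟩ := QuotientGroup.mk'_surjective S d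
    obtain ⟨s', hs', c', hc', rfl⟩ := hWeq d' hd
    rw [Subgroup.mem_centralizer_singleton_iff, map_mul, QuotientGroup.mk'_apply,
      (QuotientGroup.eq_one_iff s').2 hs', one_mul, ← hyb, ← map_mul, ← map_mul, hcon c' hc']

/-- Let the finite p-solvable group G have a faithful character χ of degree n ≤ p − 1 and suppose that a Sylow p-subgroup of G is not normal. Then n = p − 1, n is a power of 2, and χ is irreducible. -/
theorem result {G : Type*} [Group G] [Finite G] (χ : G → ℂ) (hχ : Cfsg.IsCharacter G χ) (hfaith : ∀ g : G, χ g = χ 1 → g = 1) (n : ℕ) (hn : Cfsg.charDegree χ = n) (p : ℕ) (hp : p.Prime) (hsolv : Cfsg.IsPSolvable p G) (hnp : n + 1 ≤ p) (P : Sylow p G) (hP : ¬ (P : Subgroup G).Normal) : n + 1 = p ∧ (∃ k : ℕ, n = 2 ^ k) ∧ Cfsg.IsIrrCharacter G χ := by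
  classical
  haveI := Fact.mk hp
  haveI := Fintype.ofFinite G
  obtain ⟨q, hqf, Q, y, hqp, hQ, ⟨j, hj⟩, hyQ, hyp, a, ha, hya⟩ := exists_data hsolv P hP
  set H := Q ⊔ Subgroup.zpowers y with hH
  haveI := Fintype.ofFinite ↥H
  have hQH : Q ≤ H := le_sup_left
  have hyH : y ∈ H := (le_sup_right : Subgroup.zpowers y ≤ H) (Subgroup.mem_zpowers y)
  have hHN : H ≤ Subgroup.normalizer (Q : Set G) :=
    sup_le Subgroup.le_normalizer ((Subgroup.zpowers_le).2 hyQ)
  set N := Q.subgroupOf H with hN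
  haveI : N.Normal := Subgroup.normal_subgroupOf_of_le_normalizer hHN
  haveI := Fintype.ofFinite ↥N
  have hNp : ¬ p ∣ Nat.card ↥N := by
    rw [Nat.card_congr (Subgroup.subgroupOfEquivOfLe hQH).toEquiv]
    obtain ⟨i, hi⟩ := IsPGroup.iff_card.1 hQ
    rw [hi]
    exact fun h => hqp ((Nat.prime_dvd_prime_iff_eq hp hqf.out).1 (hp.dvd_of_dvd_pow h)).symm
  obtain ⟨m, hm⟩ : ∃ m, N.index = p ^ m := by
    have h1 : N.index ∣ orderOf y := by
      have h2 := Cfsg.Agent.Lib.Coprime.card_sup_mul_card_inf_of_le_normalizer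
        (A := Subgroup.zpowers y) (N := Q) ((Subgroup.zpowers_le).2 hyQ)
      rw [sup_comm, ← hH, Nat.card_zpowers, ← Subgroup.card_mul_index N,
        Nat.card_congr (Subgroup.subgroupOfEquivOfLe hQH).toEquiv, mul_assoc] at h2
      rw [mul_comm (orderOf y)] at h2
      exact Dvd.intro _ (Nat.eq_of_mul_eq_mul_left Nat.card_pos h2)
    rw [hj] at h1
    obtain ⟨m, -, hm⟩ := (Nat.dvd_prime_pow hp).1 h1
    exact ⟨m, hm⟩
  -- a constituent on which the commutator survives
  set y' : ↥H := ⟨y, hyH⟩ with hy'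
  set a' : ↥H := ⟨a, hQH ha⟩ with ha'
  set cc := y' * a' * y'⁻¹ * a'⁻¹ with hcc
  have hχH := Cfsg.Agent.Lib.Char.isCharacter_restrict hχ H
  obtain ⟨mult, hmult⟩ := Cfsg.Agent.Lib.Char.isCharacter_eq_sum hχH
  obtain ⟨ψ, hψm, hψc⟩ : ∃ ψ : Cfsg.IrrCharacter ↥H, mult ψ ≠ 0 ∧
      (ψ : ↥H → ℂ) cc ≠ (ψ : ↥H → ℂ) 1 := by
    by_contra hcon
    push Not at hcon
    have h1 : χ (cc : G) = χ 1 := by
      have e1 := congrFun hmult cc
      have e2 := congrFun hmult 1
      simp only [Finset.sum_apply, Pi.smul_apply, smul_eq_mul] at e1 e2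
      rw [OneMemClass.coe_one] at e2
      rw [e1, e2]
      refine Finset.sum_congr rfl fun ψ _ => ?_
      by_cases hψ : mult ψ = 0
      · simp [hψ]
      · rw [hcon ψ hψ]
    have h2 := hfaith _ h1
    apply hya
    rw [hcc] at h2
    simp only [hy', ha', Subgroup.coe_mul, Subgroup.coe_inv] at h2
    rw [mul_inv_eq_one, mul_inv_eq_iff_eq_mul] at h2
    exact h2
  have hdegsum : ∑ φ : Cfsg.IrrCharacter ↥H, mult φ * Cfsg.charDegree (φ : ↥H → ℂ) = n := by
    have e := congrFun hmult 1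
    rw [OneMemClass.coe_one, Cfsg.Agent.Lib.CharAux.charDegree_eq hχ, hn] at e
    simp only [Finset.sum_apply, Pi.smul_apply, smul_eq_mul,
      Cfsg.Agent.Lib.CharAux.charDegree_eq (Cfsg.Agent.Lib.Char.isCharacter_of_isIrr (Subtype.prop _))] at e
    exact_mod_cast e.symm
  have hψle : Cfsg.charDegree (ψ : ↥H → ℂ) ≤ n := by
    rw [← hdegsum]
    exact le_trans (Nat.le_mul_of_pos_left _ (Nat.pos_of_ne_zero hψm))
      (Finset.single_le_sum (f := fun φ : Cfsg.IrrCharacter ↥H => mult φ * Cfsg.charDegree (φ : ↥H → ℂ))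
        (fun _ _ => Nat.zero_le _) (Finset.mem_univ ψ))
  have hd0 := Cfsg.Agent.Lib.CharAux.charDegree_pos ψ.2
  obtain ⟨d, ρ, hρi, hρ⟩ := ψ.2
  have hρψ : Cfsg.IsIrrCharacter ↥H ρ.character := ⟨d, ρ, hρi, rfl⟩
  have hdd : d = Cfsg.charDegree (ψ : ↥H → ℂ) := by
    rw [← hρ, Cfsg.charDegree, Representation.char_one]
    simp
  have h3 : 3 ≤ p := by
    rcases Nat.lt_or_ge p 3 with h | h
    swap; · exact h
    exfalso
    have hp2 := hp.two_le
    have hn1 : Cfsg.charDegree (ψ : ↥H → ℂ) = 1 := by omega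
    obtain ⟨l, hl⟩ := Cfsg.Agent.Lib.Char.exists_hom_of_degree_one
      (Cfsg.Agent.Lib.Char.isCharacter_of_isIrr ψ.2) (by
        rw [Cfsg.Agent.Lib.CharAux.charDegree_eq (Cfsg.Agent.Lib.Char.isCharacter_of_isIrr ψ.2),
          hn1, Nat.cast_one])
    apply hψc
    rw [hl, hl, hcc, map_mul, map_mul, map_mul, map_inv, map_inv, map_one,
      mul_comm (l y') (l a'), mul_inv_cancel_right, mul_inv_cancel]
  -- restriction to Q is irreducible
  obtain ⟨θ, hθ⟩ := Cfsg.Agent.Lib.Char.exists_constituent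
    (Cfsg.Agent.Lib.Char.isCharacter_restrict (Cfsg.Agent.Lib.Char.isCharacter_of_isIrr ψ.2) N) (fun h0 => by
      have := congrFun h0 1
      simp only [OneMemClass.coe_one, Pi.zero_apply] at this
      exact Cfsg.Agent.Lib.Char.irr_degree_ne_zero ψ.2 this)
  obtain ⟨e, he⟩ := Cfsg.Agent.Lib.Char.classInner_natCast
    (Cfsg.Agent.Lib.Char.isCharacter_restrict (Cfsg.Agent.Lib.Char.isCharacter_of_isIrr ψ.2) N)
    (Cfsg.Agent.Lib.Char.isCharacter_of_isIrr θ.2)
  have hcl := Cfsg.Agent.Lib.Char.clifford_degree N ψ.2 θ.2 hθ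
  rw [he, Cfsg.Agent.Lib.CharAux.charDegree_eq (Cfsg.Agent.Lib.Char.isCharacter_of_isIrr ψ.2),
    Cfsg.Agent.Lib.CharAux.charDegree_eq (Cfsg.Agent.Lib.Char.isCharacter_of_isIrr θ.2)] at hcl
  have hcl' : Cfsg.charDegree (ψ : ↥H → ℂ) =
      e * (Cfsg.Agent.Lib.Char.inertia N (θ : ↥N → ℂ)).index * Cfsg.charDegree (θ : ↥N → ℂ) := by
    exact_mod_cast hcl
  have hsmall : ∀ r : ℕ, r ∣ p ^ m → r ∣ Cfsg.charDegree (ψ : ↥H → ℂ) → r = 1 := by
    intro r hr hrd
    obtain ⟨i, -, rfl⟩ := (Nat.dvd_prime_pow hp).1 hr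
    rcases Nat.eq_zero_or_pos i with rfl | hi
    · rfl
    · have := Nat.le_of_dvd hd0 ((dvd_pow_self p hi.ne').trans hrd)
      omega
  have hinert : (Cfsg.Agent.Lib.Char.inertia N (θ : ↥N → ℂ)).index = 1 :=
    hsmall _ (hm ▸ Subgroup.index_dvd_of_le
      (Cfsg.Agent.Lib.Char.le_inertia N (Cfsg.Agent.Lib.Char.isClassFunction_of_isIrr θ.2)))
      (hcl' ▸ dvd_mul_of_dvd_left (dvd_mul_left _ _) _)
  have hres : ∀ b : ↥N, (ψ : ↥H → ℂ) b = (e : ℂ) * (θ : ↥N → ℂ) b := by
    intro b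
    have h1 := congrFun (Cfsg.Agent.Lib.Char.clifford N ψ.2 θ.2 hθ) b
    rw [he] at h1
    have horb : Cfsg.Agent.Lib.Char.orbit N (θ : ↥N → ℂ) = {(θ : ↥N → ℂ)} := by
      rw [Finset.eq_singleton_iff_unique_mem]
      refine ⟨(Cfsg.Agent.Lib.Char.mem_orbit N).2 ⟨1, Cfsg.Agent.Lib.Char.conjChar_one N _⟩, ?_⟩
      intro φ hφ
      obtain ⟨g, rfl⟩ := (Cfsg.Agent.Lib.Char.mem_orbit N).1 hφ
      exact (Cfsg.Agent.Lib.Char.mem_inertia N).1
        ((Subgroup.index_eq_one.1 hinert).symm ▸ Subgroup.mem_top g)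
    rw [horb] at h1
    simpa using h1
  have he1 : e = 1 := hsmall e (hm ▸ Cfsg.Agent.Lib.CharClifford.ramification_dvd_index N ψ.2 θ.2 e hres)
    (hcl' ▸ dvd_mul_of_dvd_left (dvd_mul_right _ _) _)
  have hρN : Cfsg.IsIrrCharacter ↥N (fun b : ↥N => ρ.character b) := by
    have e1 : (fun b : ↥N => ρ.character b) = (θ : ↥N → ℂ) := by
      funext b
      rw [hρ, hres, he1, Nat.cast_one, one_mul]
    rw [e1]
    exact θ.2
  have hcent : ∀ b ∈ N, y' ^ p * b = b * y' ^ p := by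
    intro b hb
    apply Subtype.ext
    simpa using hyp _ (Subgroup.mem_subgroupOf.1 hb)
  have hne : ρ (y' * a') ≠ ρ (a' * y') := by
    intro heq
    apply hψc
    rw [← hρ, hcc]
    simp only [Representation.character]
    congr 1
    rw [show y' * a' * y'⁻¹ * a'⁻¹ = (y' * a') * (a' * y')⁻¹ by group, map_mul, heq,
      ← map_mul, mul_inv_cancel]
  have hge := degree_ge h3 N hNp hm ρ hρN hρψ y' hcent a'
    (Subgroup.mem_subgroupOf.2 ha) hne
  have hnp1 : n + 1 = p := by omega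
  refine ⟨hnp1, ?_, ?_⟩
  · have h1 : Cfsg.charDegree (θ : ↥N → ℂ) ∣ Nat.card ↥N := Cfsg.Agent.Lib.Char.charDegree_dvd_card θ.2
    rw [Nat.card_congr (Subgroup.subgroupOfEquivOfLe hQH).toEquiv] at h1
    obtain ⟨i, hi⟩ := IsPGroup.iff_card.1 hQ
    rw [hi] at h1
    obtain ⟨b, -, hb⟩ := (Nat.dvd_prime_pow hqf.out).1 h1
    rw [he1, hinert, hb, one_mul, one_mul] at hcl'
    have hnq : n = q ^ b := by omega
    have hq2 : q = 2 := by
      have hodd : Odd p := hp.odd_of_ne_two (by omega)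
      have heven : Even n := by
        rw [← hnp1, Nat.odd_add_one, Nat.not_odd_iff_even] at hodd
        exact hodd
      rw [hnq] at heven
      exact ((Nat.prime_dvd_prime_iff_eq Nat.prime_two hqf.out).1
        (Nat.prime_two.dvd_of_dvd_pow heven.two_dvd)).symm
    exact ⟨b, hq2 ▸ hnq⟩
  · obtain ⟨dG, R, rfl⟩ := hχ
    have hψn : Cfsg.charDegree (ψ : ↥H → ℂ) = n := by omega
    have hm1 : (fun h : ↥H => R.character h) = (ψ : ↥H → ℂ) := by
      have hψone : mult ψ = 1 ∧ ∀ φ, φ ≠ ψ → mult φ = 0 := by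
        rw [← Finset.add_sum_erase _ _ (Finset.mem_univ ψ), hψn] at hdegsum
        have h1 : mult ψ * n ≤ n := by omega
        have h2 : mult ψ = 1 := by
          have := Nat.le_of_mul_le_mul_right (show mult ψ * n ≤ 1 * n by omega) (by omega)
          omega
        rw [h2] at hdegsum
        refine ⟨h2, fun φ hφ => ?_⟩
        have h3 := (Finset.sum_eq_zero_iff).1 (show (Finset.univ.erase ψ).sum
          (fun φ => mult φ * Cfsg.charDegree (φ : ↥H → ℂ)) = 0 by omega) φ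
          (Finset.mem_erase.2 ⟨hφ, Finset.mem_univ _⟩)
        exact (mul_eq_zero.1 h3).resolve_right
          (Cfsg.Agent.Lib.CharAux.charDegree_pos φ.2).ne'
      rw [hmult, Finset.sum_eq_single ψ (fun φ _ hφ => by simp [hψone.2 φ hφ]) (by simp), hψone.1,
        Nat.cast_one, one_smul]
    let RH : Representation ℂ ↥H (Fin dG → ℂ) := R.comp H.subtype
    haveI : RH.IsIrreducible := Cfsg.Agent.Lib.CharClifford.isIrreducible_of_isIrrCharacter RH (by
      show Cfsg.IsIrrCharacter ↥H (fun h : ↥H => R.character h)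
      rw [hm1]; exact ψ.2)
    exact ⟨dG, R, Cfsg.Agent.Lib.CharClifford.isIrreducible_of_comp R H.subtype, rfl⟩

end Cfsg.Agent.S4468
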