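import Cfsg.Statements.S4472
import Cfsg.Agent.Lib.Char.Clifford
import Cfsg.Agent.Lib.Char.Kernel
import Cfsg.Agent.Lib.Char.Degree
import Cfsg.Agent.Lib.Char.SchurBound
import Cfsg.Agent.Lib.CharAux
import Cfsg.Agent.Lib.CharKernel
import Cfsg.Agent.Lib.CharGalois
import Cfsg.Agent.Lib.CharClifford.Basic
import Cfsg.Agent.Lib.CharClifford.Linear
import Cfsg.Agent.Lib.CharClifford.Extend
import Cfsg.Agent.Lib.Coprime.Action
import Cfsg.Agent.Lib.Hall.Basic
import Cfsg.Agent.Lib.HallHigman.Prime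
import Cfsg.Agent.Lib.PLength.Basic
import Mathlib.GroupTheory.SchurZassenhaus

set_option autoImplicit false
open Cfsg

namespace Cfsg.Agent.S4472

open Cfsg.Agent.Lib Cfsg.Agent.Lib.Char Module
open scoped Pointwise

universe v

/-- The Galois conjugate representation has the conjugate determinant. -/
theorem detChar_aut {G : Type v} [Group G] [Finite G] (σ : ℂ ≃+* ℂ) {χ : G → ℂ}
    (h : IsIrrCharacter G χ) (g : G) : detChar (fun x => σ (χ x)) g = σ (detChar χ g) := by
  classical
  obtain ⟨n, ρ, hρ, rfl⟩ := h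
  haveI := hρ
  let T : (Matrix (Fin n) (Fin n) ℂ) →+* Matrix (Fin n) (Fin n) ℂ := (σ : ℂ →+* ℂ).mapMatrix
  let R : Representation ℂ G (Fin n → ℂ) :=
    { toFun := fun g => Matrix.toLin' (T (LinearMap.toMatrix' (ρ g)))
      map_one' := by simp [map_one, Module.End.one_eq_id]
      map_mul' := fun a b => by
        rw [map_mul, LinearMap.toMatrix'_mul, map_mul, Matrix.toLin'_mul]
        rfl }
  have hch : R.character = fun x => σ (ρ.character x) := by
    funext x
    show LinearMap.trace ℂ _ (Matrix.toLin' (T (LinearMap.toMatrix' (ρ x)))) = σ (ρ.character x)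
    rw [Matrix.trace_toLin'_eq, Representation.character,
      LinearMap.trace_eq_matrix_trace ℂ (Pi.basisFun ℂ (Fin n)), LinearMap.toMatrix_eq_toMatrix']
    simp [Matrix.trace, T]
  haveI : R.IsIrreducible := CharClifford.isIrreducible_of_isIrrCharacter R (by
    rw [hch]; exact CharGalois.isIrrCharacter_aut σ (isIrrCharacter_character ρ))
  rw [← hch, CharClifford.detChar_character R, CharClifford.detChar_character ρ]
  show LinearMap.det (Matrix.toLin' (T (LinearMap.toMatrix' (ρ g)))) = _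
  rw [LinearMap.det_toLin']
  show _ = σ (LinearMap.det (ρ g))
  rw [← LinearMap.det_toMatrix']
  exact (RingHom.map_det (σ : ℂ →+* ℂ) _).symm

/-- An invariant character of a normal `p`-complement has an extension fixed by the Galois
automorphisms fixing the `p'`-roots of unity. -/
theorem canonical {T : Type v} [Group T] [Finite T] {p : ℕ} [hp : Fact p.Prime] (K : Subgroup T)
    [K.Normal] (hK : ¬ p ∣ Nat.card K) {m : ℕ} (hidx : K.index = p ^ m) {θ : ↥K → ℂ}
    (hθ : IsIrrCharacter ↥K θ) (hinv : ∀ g : T, conjChar K g θ = θ) :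
    ∃ η : T → ℂ, IsIrrCharacter T η ∧ (∀ a : ↥K, η a = θ a) ∧
      ∀ (k : ℕ) (σ : ℂ ≃+* ℂ), k ≡ 1 [MOD Nat.card K] →
        (∀ μ : ℂ, μ ^ Nat.card T = 1 → σ μ = μ ^ k) → ∀ x, σ (η x) = η x := by
  classical
  obtain ⟨d, ρ, hρ, hρc, hd, hdet⟩ := CharClifford.exists_detHom hθ
  haveI := hρ
  set φ : ↥K →* ℂˣ := CharClifford.detHom ρ with hφ
  have hφinv : ∀ (g : T) (a : ↥K),
      φ ⟨g * a * g⁻¹, (inferInstance : K.Normal).conj_mem (a : T) a.2 g⟩ = φ a := by
    intro g a
    let ρg : Representation ℂ ↥K (Fin d → ℂ) := ρ.comp (MulAut.conjNormal g : MulAut ↥K).toMonoidHom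
    have hch : ρg.character = θ := by
      funext b
      show ρ.character (MulAut.conjNormal g b) = θ b
      rw [hρc]
      exact (CharClifford.conjChar_eq_iff g).1 (hinv g) b
    haveI : ρg.IsIrreducible := CharClifford.isIrreducible_of_isIrrCharacter ρg (by rw [hch]; exact hθ)
    apply Units.ext
    have h1 := hdet a
    rw [← hch, CharClifford.detChar_character ρg] at h1
    rw [← h1]
    rfl
  have hordK : orderOf φ ∣ Nat.card K := by
    refine orderOf_dvd_of_pow_eq_one (MonoidHom.ext fun a => ?_)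
    rw [MonoidHom.pow_apply, ← map_pow, pow_card_eq_one', map_one]
    rfl
  have hpK : ∀ b, b ∣ Nat.card K → Nat.Coprime K.index b := fun b hb => by
    rw [hidx]
    exact ((hp.out.coprime_iff_not_dvd.2 hK).coprime_dvd_right hb).pow_left m
  obtain ⟨μ, hμ, hμo, -⟩ := CharClifford.exists_extension_coprime φ hφinv (hpK _ hordK)
  have hμK : ∀ x, μ x ^ Nat.card K = 1 := by
    intro x
    obtain ⟨c, hc⟩ := hμo ▸ hordK
    have h1 : μ x ^ orderOf μ = 1 := by
      rw [← MonoidHom.pow_apply, pow_orderOf_eq_one]; rfl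
    rw [hc, pow_mul, h1, one_pow]
  have hdK : d ∣ Nat.card K := by
    have := charDegree_dvd_card hθ
    rwa [charDegree_eq_of_apply_one hd] at this
  have hμdet : ∀ a : ↥K, (μ a : ℂ) = detChar θ a := fun a => by rw [hμ, hdet]
  have hext := CharClifford.extends_of_det hθ hinv d hd (hpK d hdK) μ hμdet
  obtain ⟨η, ⟨hη, hηK, hηdet⟩, huniq⟩ :=
    CharClifford.existsUnique_extension_det hθ d hd (hpK d hdK) hext μ hμdet
  refine ⟨η, hη, hηK, fun k σ hk hσ x => ?_⟩
  have h1 : (fun y => σ (η y)) = η := by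
    refine huniq _ ⟨CharGalois.isIrrCharacter_aut σ hη, fun a => ?_, ?_⟩
    · show σ (η a) = θ a
      rw [CharGalois.aut_apply_char hσ (isCharacter_of_isIrr hη) (a : T), ← hηK a]
      congr 1
      conv_rhs => rw [← pow_one (a : T)]
      refine pow_eq_pow_iff_modEq.2 (hk.of_dvd ?_)
      rw [Subgroup.orderOf_coe]
      exact orderOf_dvd_natCard a
    · funext y
      rw [detChar_aut σ hη y, congrFun hηdet y]
      rw [hσ _ (by
        obtain ⟨c, hc⟩ := Subgroup.card_subgroup_dvd_card K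
        rw [hc, pow_mul, ← Units.val_pow_eq_pow_val, hμK, Units.val_one, one_pow]),
        ← Units.val_pow_eq_pow_val]
      congr 1
      conv_rhs => rw [← pow_one (μ y)]
      exact pow_eq_pow_iff_modEq.2 (hk.of_dvd (orderOf_dvd_of_pow_eq_one (hμK y)))
  exact congrFun h1 x

/-- A sum of values of modulus at most the degrees equals the sum of degrees only termwise. -/
theorem eq_of_sum_eq {ι : Type*} (s : Finset ι) (f : ι → ℂ) (d : ι → ℕ)
    (hf : ∀ i ∈ s, ‖f i‖ ≤ d i) (h : ∑ i ∈ s, f i = ∑ i ∈ s, (d i : ℂ)) :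
    ∀ i ∈ s, f i = d i := by
  intro i hi
  have hre : ∑ j ∈ s, (f j).re = ∑ j ∈ s, (d j : ℝ) := by
    simpa using congrArg Complex.re h
  have h1 := (Finset.sum_eq_sum_iff_of_le fun j hj => (Complex.re_le_norm _).trans (hf j hj)).1 hre i hi
  have h2 := hf i hi
  have h3 := Complex.sq_norm (f i)
  rw [Complex.normSq_apply, h1] at h3
  have h4 : (f i).im = 0 := by
    have : ‖f i‖ ^ 2 ≤ (d i : ℝ) ^ 2 := pow_le_pow_left₀ (norm_nonneg _) h2 2
    nlinarith
  exact Complex.ext (by simp [h1]) (by simp [h4])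

/-- For every constituent, a Galois-stable character of no larger degree with the same kernel on
the `p`-complement. -/
theorem stable_cover {H : Type v} [Group H] [Fintype H] {p : ℕ} [hp : Fact p.Prime] (K : Subgroup H)
    [K.Normal] (hK : ¬ p ∣ Nat.card K) {m : ℕ} (hidx : K.index = p ^ m) {ψ : H → ℂ}
    (hψ : IsIrrCharacter H ψ) :
    ∃ Φ : H → ℂ, IsCharacter H Φ ∧ charDegree Φ ≤ charDegree ψ ∧
      (∀ a ∈ K, Φ a = Φ 1 → ψ a = ψ 1) ∧
      ∀ (k : ℕ) (σ : ℂ ≃+* ℂ), k ≡ 1 [MOD Nat.card K] →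
        (∀ μ : ℂ, μ ^ Nat.card H = 1 → σ μ = μ ^ k) → ∀ x, σ (Φ x) = Φ x := by
  classical
  haveI := Fintype.ofFinite ↥K
  obtain ⟨θ, hθ⟩ := exists_constituent (isCharacter_restrict (isCharacter_of_isIrr hψ) K) (fun h0 => by
      have := congrFun h0 1
      simp only [OneMemClass.coe_one, Pi.zero_apply] at this
      exact irr_degree_ne_zero hψ this)
  set T := inertia K (θ : ↥K → ℂ) with hT
  have hKT : K ≤ T := le_inertia K (isClassFunction_of_isIrr θ.2)
  haveI := Fintype.ofFinite ↥T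
  set K' := K.subgroupOf T with hK'
  haveI : K'.Normal := Subgroup.Normal.subgroupOf inferInstance T
  let e := Subgroup.subgroupOfEquivOfLe hKT
  have hθ' := CharClifford.isIrrCharacter_comp_equiv e θ.2
  obtain ⟨m', hm'⟩ : ∃ m', K'.index = p ^ m' := by
    have h1 : K'.index ∣ K.index := Dvd.intro _ (Subgroup.relIndex_mul_index hKT)
    rw [hidx] at h1
    obtain ⟨i, -, hi⟩ := (Nat.dvd_prime_pow hp.out).1 h1
    exact ⟨i, hi⟩
  have hcardK' : Nat.card ↥K' = Nat.card ↥K := Nat.card_congr e.toEquiv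
  obtain ⟨η, hη, hηK, hηfix⟩ := canonical K' (hcardK' ▸ hK) hm' hθ' (fun t => by
    funext a
    show (θ : ↥K → ℂ) (e ⟨(t : ↥T) * a * t⁻¹, _⟩) = (θ : ↥K → ℂ) (e a)
    exact congrFun ((mem_inertia K).1 t.2) (e a))
  refine ⟨indFun T η, isCharacter_indFun T (isCharacter_of_isIrr hη), ?_, ?_, ?_⟩
  · have hcl := clifford_degree K hψ θ.2 hθ
    obtain ⟨c, hc0, hc⟩ := CharClifford.classInner_nat_ne_zero
      (isCharacter_restrict (isCharacter_of_isIrr hψ) K) (isCharacter_of_isIrr θ.2) hθ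
    rw [hc, apply_one_eq_charDegree (isCharacter_of_isIrr hψ),
      apply_one_eq_charDegree (isCharacter_of_isIrr θ.2)] at hcl
    have hcl' : charDegree ψ = c * T.index * charDegree (θ : ↥K → ℂ) := by exact_mod_cast hcl
    have hd : charDegree (indFun T η) = T.index * charDegree (θ : ↥K → ℂ) := by
      refine charDegree_eq_of_apply_one ?_
      rw [indFun_one, show η 1 = (θ : ↥K → ℂ) 1 from hηK 1,
        apply_one_eq_charDegree (isCharacter_of_isIrr θ.2)]
      push_cast; ring
    rw [hd, hcl', mul_assoc]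
    exact Nat.le_mul_of_pos_left _ hc0
  · intro a ha hΦ
    have hval : ∀ b ∈ K, extendByZero T η b = if hb : b ∈ K then (θ : ↥K → ℂ) ⟨b, hb⟩ else 0 := by
      intro b hb
      rw [dif_pos hb, extendByZero_mem T η (hKT hb)]
      exact hηK ⟨⟨b, hKT hb⟩, hb⟩
    have hsum : ∑ x : H, extendByZero T η (x⁻¹ * a * x) = ∑ _x : H, (charDegree (θ : ↥K → ℂ) : ℂ) := by
      have h1 : indFun T η a = indFun T η 1 := hΦ
      simp only [indFun] at h1
      rw [mul_right_inj' (inv_ne_zero (card_ne_zero_complex _))] at h1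
      rw [h1]
      refine Finset.sum_congr rfl fun x _ => ?_
      rw [mul_one, inv_mul_cancel, hval 1 K.one_mem, dif_pos K.one_mem]
      exact apply_one_eq_charDegree (isCharacter_of_isIrr θ.2)
    have hmem : ∀ x : H, x⁻¹ * a * x ∈ K := fun x =>
      by simpa using (inferInstance : K.Normal).conj_mem a ha x⁻¹
    have hall : ∀ x : H, (θ : ↥K → ℂ) ⟨x⁻¹ * a * x, hmem x⟩ = (charDegree (θ : ↥K → ℂ) : ℂ) := by
      intro x
      have := eq_of_sum_eq Finset.univ (fun x : H => extendByZero T η (x⁻¹ * a * x))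
        (fun _ => charDegree (θ : ↥K → ℂ)) (fun y _ => by
          rw [hval _ (hmem y), dif_pos (hmem y)]
          have hb := norm_apply_le (isCharacter_of_isIrr θ.2) ⟨y⁻¹ * a * y, hmem y⟩
          rwa [apply_one_eq_charDegree (isCharacter_of_isIrr θ.2), Complex.norm_natCast] at hb)
        hsum x (Finset.mem_univ x)
      rwa [hval _ (hmem x), dif_pos (hmem x)] at this
    have hcl := clifford K hψ θ.2 hθ
    have e1 := congrFun hcl ⟨a, ha⟩
    have e2 := congrFun hcl 1
    simp only [Pi.smul_apply, Finset.sum_apply, smul_eq_mul, OneMemClass.coe_one] at e1 e2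
    rw [e1, e2]
    congr 1
    refine Finset.sum_congr rfl fun φ hφ => ?_
    obtain ⟨g, rfl⟩ := (mem_orbit K).1 hφ
    rw [conjChar_apply_one, apply_one_eq_charDegree (isCharacter_of_isIrr θ.2), ← hall g⁻¹]
    simp only [conjChar, inv_inv]
  · intro k σ hk hσ x
    simp only [indFun, map_mul, map_inv₀, map_natCast, map_sum]
    congr 1
    refine Finset.sum_congr rfl fun y _ => ?_
    by_cases hy : y⁻¹ * x * y ∈ T
    · rw [extendByZero_mem T η hy]
      refine hηfix k σ (hcardK' ▸ hk) (fun μ hμ => hσ μ ?_) _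
      obtain ⟨c, hc⟩ := Subgroup.card_subgroup_dvd_card T
      rw [hc, pow_mul, hμ, one_pow]
    · rw [extendByZero_not_mem T η hy, map_zero]

/-- The bound in a group with a normal `p`-complement. -/
theorem bound_split {H : Type v} [Group H] [Fintype H] {p : ℕ} [hp : Fact p.Prime] (K : Subgroup H)
    [K.Normal] (hK : ¬ p ∣ Nat.card K) {m : ℕ} (hidx : K.index = p ^ m) {χ : H → ℂ}
    (hχ : IsCharacter H χ) (hf : ∀ g, χ g = χ 1 → g = 1) (P : Subgroup H) (hP : IsPGroup p ↥P) :
    ∃ (L : Subgroup H) (n' : ℕ), L ≤ P ∧ (∀ l ∈ L, ∀ a ∈ K, l * a = a * l) ∧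
      n' ≤ charDegree χ ∧
      L.relIndex P ∣ p ^ (n' / (p - 1)) * (n' / (p - 1)).factorial := by
  classical
  obtain ⟨mult, hmult⟩ := isCharacter_eq_sum hχ
  choose Φ hΦc hΦd hΦk hΦfix using fun ψ : IrrCharacter H => stable_cover K hK hidx ψ.2
  set s := Finset.univ.filter (fun ψ : IrrCharacter H => mult ψ ≠ 0) with hs
  set X : H → ℂ := ∑ ψ ∈ s, Φ ψ with hX
  have hXc : IsCharacter H X := isCharacter_sum _ _ fun ψ _ => hΦc ψ
  have hX1 : X 1 = ((∑ ψ ∈ s, charDegree (Φ ψ) : ℕ) : ℂ) := by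
    rw [hX, Finset.sum_apply, Nat.cast_sum]
    exact Finset.sum_congr rfl fun ψ _ => apply_one_eq_charDegree (hΦc ψ)
  have hdeg : ∑ ψ ∈ s, charDegree (Φ ψ) ≤ charDegree χ := by
    have h1 : charDegree χ = ∑ ψ : IrrCharacter H, mult ψ * charDegree (ψ : H → ℂ) := by
      have e := congrFun hmult 1
      simp only [Finset.sum_apply, Pi.smul_apply, smul_eq_mul,
        apply_one_eq_charDegree hχ, apply_one_eq_charDegree (isCharacter_of_isIrr (Subtype.prop _))] at e
      exact_mod_cast e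
    rw [h1]
    refine le_trans (Finset.sum_le_sum fun ψ hψ => (hΦd ψ).trans ?_)
      (Finset.sum_le_sum_of_subset (Finset.subset_univ s))
    exact Nat.le_mul_of_pos_left _ (Nat.pos_of_ne_zero (Finset.mem_filter.1 hψ).2)
  have hkerK : ∀ a ∈ K, X a = X 1 → a = 1 := by
    intro a ha heq
    apply hf
    have h1 := eq_of_sum_eq s (fun ψ => Φ ψ a) (fun ψ => charDegree (Φ ψ)) (fun ψ _ => by
      have hb := norm_apply_le (hΦc ψ) a
      rwa [apply_one_eq_charDegree (hΦc ψ), Complex.norm_natCast] at hb) (by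
      rw [← Nat.cast_sum, ← hX1, ← heq, hX, Finset.sum_apply])
    rw [hmult]
    simp only [Finset.sum_apply, Pi.smul_apply, smul_eq_mul]
    refine Finset.sum_congr rfl fun ψ _ => ?_
    by_cases hm0 : mult ψ = 0
    · simp [hm0]
    · congr 1
      refine hΦk ψ a ha ?_
      rw [h1 ψ (Finset.mem_filter.2 ⟨Finset.mem_univ _, hm0⟩), apply_one_eq_charDegree (hΦc ψ)]
  let NX := CharKernel.kerChar hXc
  haveI hNXn : NX.Normal := CharKernel.kerChar_normal hXc
  set L := NX ⊓ P with hL
  refine ⟨L, _, inf_le_right, ?_, hdeg, ?_⟩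
  · intro l hl a ha
    have h1 : l * a * l⁻¹ * a⁻¹ ∈ NX := by
      have h2 : a * l⁻¹ * a⁻¹ ∈ NX := hNXn.conj_mem _ (NX.inv_mem hl.1) a
      have := NX.mul_mem hl.1 h2
      simpa [mul_assoc] using this
    have h3 : l * a * l⁻¹ * a⁻¹ ∈ K :=
      K.mul_mem ((inferInstance : K.Normal).conj_mem a ha l) (K.inv_mem ha)
    have := hkerK _ h3 h1
    rwa [mul_inv_eq_one, mul_inv_eq_iff_eq_mul] at this
  · set L' := L.subgroupOf P with hL'
    haveI : L'.Normal := by
      rw [hL', hL, Subgroup.inf_subgroupOf_right]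
      exact Subgroup.Normal.subgroupOf hNXn P
    obtain ⟨η, hη, he⟩ := Char.exists_deflation (isCharacter_restrict hXc P) L' (fun a ha =>
      (show X a = X 1 from (Subgroup.mem_subgroupOf.1 ha).1))
    have hn' : η 1 = ((∑ ψ ∈ s, charDegree (Φ ψ) : ℕ) : ℂ) := by
      rw [← QuotientGroup.mk_one, he, OneMemClass.coe_one, hX1]
    have := SchurBound.card_dvd hp.out hη (fun g hg => by
      obtain ⟨b, rfl⟩ := QuotientGroup.mk_surjective g
      rw [QuotientGroup.eq_one_iff]
      rw [he, ← QuotientGroup.mk_one, he, OneMemClass.coe_one] at hg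
      exact Subgroup.mem_subgroupOf.2 ⟨hg, b.2⟩) hn' ⊤
      ((hP.to_quotient L').of_equiv Subgroup.topEquiv.symm) (fun g _ => by
      obtain ⟨b, rfl⟩ := QuotientGroup.mk_surjective g
      rw [he]
      refine CharGalois.exists_int_of_fixed (char_isIntegral hXc _) fun σ => ?_
      obtain ⟨j, hj, hσj⟩ := CharGalois.exists_pow_forall_char (G := H) σ
      obtain ⟨i, hi⟩ := hP b
      have hbo : orderOf (b : H) ∣ p ^ i := orderOf_dvd_of_pow_eq_one (by
        simpa using congrArg Subtype.val hi)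
      obtain ⟨k, hk1, hk2⟩ := Nat.chineseRemainder
        (((hp.out.coprime_iff_not_dvd.2 hK)).pow_left (m + i)) j 1
      have hcard : Nat.card H = Nat.card K * p ^ m := by rw [← hidx, Subgroup.card_mul_index]
      have hkc : Nat.Coprime k (Nat.card H) := by
        rw [hcard]
        refine Nat.Coprime.mul_right ?_ ?_
        · rw [Nat.Coprime, hk2.gcd_eq, Nat.gcd_one_left]
        · rcases Nat.eq_zero_or_pos m with rfl | hm
          · simp
          refine Nat.Coprime.pow_right _ ?_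
          have h2 : Nat.Coprime j p := hj.coprime_dvd_right
            (hcard ▸ dvd_mul_of_dvd_right (dvd_pow_self p hm.ne') _)
          rw [Nat.Coprime, (hk1.of_dvd (dvd_pow_self p (by omega : m + i ≠ 0))).gcd_eq]
          exact h2
      obtain ⟨τ, hτ⟩ := CharGalois.exists_aut_pow Nat.card_pos hkc
      have h4 : (b : H) ^ j = (b : H) ^ k := pow_eq_pow_iff_modEq.2
        ((hk1.of_dvd (hbo.trans (pow_dvd_pow p (by omega)))).symm)
      rw [hσj X hXc, h4, ← CharGalois.aut_apply_char hτ hXc, hX, Finset.sum_apply, map_sum]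
      exact Finset.sum_congr rfl fun ψ _ => hΦfix ψ k τ hk2 hτ _)
    rwa [Subgroup.card_top, ← Subgroup.index_eq_card] at this

/-- Let the finite p-solvable group G have a faithful character of degree n, and let p^a be the index of O_p(G) in a Sylow p-subgroup of G (the p-part of [G : O_p(G)]). Then a ≤ Σ_{i ≥ 0} ⌊n / ((p − 1) p^i)⌋ (a finite sum; the terms vanish for p^i > n). -/
theorem result {G : Type*} [Group G] [Finite G] (χ : G → ℂ) (hχ : Cfsg.IsCharacter G χ) (hfaith : ∀ g : G, χ g = χ 1 → g = 1) (n : ℕ) (hn : Cfsg.charDegree χ = n) (p : ℕ) (hp : p.Prime) (hsolv : Cfsg.IsPSolvable p G) : ((Cfsg.pCore p G).index).factorization p ≤ ∑ i ∈ Finset.range (n + 1), n / ((p - 1) * p ^ i) := by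
  classical
  haveI := Fact.mk hp
  set S := Cfsg.pCore p G with hS
  haveI : S.Normal := Cfsg.Agent.Lib.Hall.pCore_normal p
  have hSp : IsPGroup p ↥S := Cfsg.Agent.Lib.Hall.isPGroup_pCore p
  have hsolvbar : Cfsg.IsPSolvable p (G ⧸ S) :=
    Cfsg.Agent.Lib.PLength.isPSolvable_map (QuotientGroup.mk'_surjective S) hsolv
  have hOp : Cfsg.pCore p (G ⧸ S) = ⊥ := Cfsg.Agent.Lib.PLength.pCore_quotient_pCore_eq_bot
  set Kb := Cfsg.pPrimeCore p (G ⧸ S) with hKb
  haveI : Kb.Normal := Cfsg.Agent.Lib.Hall.pPrimeCore_normal p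
  have hKbp : ¬ p ∣ Nat.card Kb := Cfsg.Agent.Lib.Hall.not_dvd_card_pPrimeCore hp
  set W := Kb.comap (QuotientGroup.mk' S) with hW
  haveI : W.Normal := Subgroup.Normal.comap inferInstance _
  have hSW : S ≤ W := fun s hs => by
    rw [hW, Subgroup.mem_comap, QuotientGroup.mk'_apply, (QuotientGroup.eq_one_iff s).2 hs]
    exact Kb.one_mem
  have hidxW : S.relIndex W = Nat.card Kb := by
    conv_lhs => rw [← QuotientGroup.ker_mk' S]
    rw [Subgroup.relIndex_ker, hW,
      Subgroup.map_comap_eq_self_of_surjective (QuotientGroup.mk'_surjective S)]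
  have hcopSW : Nat.Coprime (Nat.card (S.subgroupOf W)) (S.subgroupOf W).index := by
    rw [Nat.card_congr (Subgroup.subgroupOfEquivOfLe hSW).toEquiv]
    show Nat.Coprime (Nat.card ↥S) (S.relIndex W)
    rw [hidxW]
    obtain ⟨i, hi⟩ := IsPGroup.iff_card.1 hSp
    rw [hi]
    exact (hp.coprime_iff_not_dvd.2 hKbp).pow_left i
  obtain ⟨C, hC⟩ := Subgroup.exists_right_complement'_of_coprime hcopSW
  set K0 := C.map W.subtype with hK0
  have hK0W : K0 ≤ W := Subgroup.map_subtype_le _
  have hK0card : Nat.card ↥K0 = Nat.card Kb := by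
    rw [hK0, Subgroup.card_map_of_injective W.subtype_injective, ← hidxW]
    exact hC.symm.index_eq_card.symm
  have hK0sup : K0 ⊔ S = W := by
    refine le_antisymm (sup_le hK0W hSW) ?_
    have h1 := congrArg (Subgroup.map W.subtype) hC.sup_eq_top
    rw [Subgroup.map_sup, Subgroup.map_subgroupOf_eq_of_le hSW, ← MonoidHom.range_eq_map,
      Subgroup.range_subtype, ← hK0] at h1
    rw [sup_comm]
    exact h1.ge
  have hK0p : ¬ p ∣ Nat.card ↥K0 := hK0card ▸ hKbp
  set N := Subgroup.normalizer (K0 : Set G) with hN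
  have hSN : N ⊔ S = ⊤ := by
    rw [eq_top_iff]
    intro g _
    haveI : Group.IsSolvable ↥S := by
      haveI := hSp.isNilpotent
      infer_instance
    obtain ⟨s, hs, hse⟩ := Cfsg.Agent.Lib.Coprime.exists_conj_eq_of_le_sup
      (A := K0) (N := S) (B := MulAut.conj g • K0)
      (by rw [Subgroup.normalizer_eq_top_iff.2 (inferInstance : S.Normal)]; exact le_top)
      (by
        obtain ⟨i, hi⟩ := IsPGroup.iff_card.1 hSp
        rw [hi, Nat.coprime_comm]
        exact (hp.coprime_iff_not_dvd.2 hK0p).pow_left i)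
      (Or.inr inferInstance)
      (by
        rw [hK0sup]
        exact (Subgroup.pointwise_smul_le_pointwise_smul_iff.2 hK0W).trans
          (Cfsg.Agent.Lib.Coprime.conj_smul_of_normal W g).le)
      (Cfsg.Agent.Lib.Coprime.card_conj_smul g K0)
    have hmem : s⁻¹ * g ∈ N := by
      refine Cfsg.Agent.Lib.Coprime.mem_normalizer_of_conj_smul_eq ?_
      first
        | rw [Cfsg.Agent.Lib.Coprime.conj_smul_mul, ← hse, Cfsg.Agent.Lib.Coprime.conj_inv_smul_smul]
        | rw [map_mul, mul_smul, ← hse, Cfsg.Agent.Lib.Coprime.conj_inv_smul_smul]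
    have := (N ⊔ S).mul_mem ((le_sup_right : S ≤ N ⊔ S) hs) ((le_sup_left : N ≤ N ⊔ S) hmem)
    simpa using this
  obtain ⟨PN⟩ : Nonempty (Sylow p ↥N) := inferInstance
  set P0 := (PN : Subgroup ↥N).map N.subtype with hP0
  have hP0N : P0 ≤ N := Subgroup.map_subtype_le _
  set H := P0 ⊔ K0 with hH
  haveI := Fintype.ofFinite ↥H
  have hHN : H ≤ Subgroup.normalizer (K0 : Set G) := sup_le hP0N Subgroup.le_normalizer
  set K := K0.subgroupOf H with hKdef
  haveI : K.Normal := Subgroup.normal_subgroupOf_of_le_normalizer hHN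
  have hKp : ¬ p ∣ Nat.card ↥K := by
    rw [Nat.card_congr (Subgroup.subgroupOfEquivOfLe (le_sup_right : K0 ≤ H)).toEquiv]
    exact hK0p
  obtain ⟨m, hm⟩ : ∃ m, K.index = p ^ m := by
    obtain ⟨i, hi⟩ := IsPGroup.iff_card.1 (PN.2.map N.subtype)
    have h2 := Cfsg.Agent.Lib.Coprime.card_sup_mul_card_inf_of_le_normalizer
      (A := P0) (N := K0) hP0N
    rw [← hH, ← Subgroup.card_mul_index K,
      Nat.card_congr (Subgroup.subgroupOfEquivOfLe (le_sup_right : K0 ≤ H)).toEquiv, mul_assoc,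
      hi, mul_comm (p ^ i)] at h2
    obtain ⟨j, -, hj⟩ := (Nat.dvd_prime_pow hp).1
      (Dvd.intro _ (Nat.eq_of_mul_eq_mul_left Nat.card_pos h2))
    exact ⟨j, hj⟩
  have hfH : ∀ g : ↥H, χ g = χ (1 : ↥H) → g = 1 := fun g hg => Subtype.ext (hfaith _ hg)
  obtain ⟨L, n', hLP, hLc, hn', hdvd⟩ := bound_split K hKp hm
    (Cfsg.Agent.Lib.Char.isCharacter_restrict hχ H) hfH (P0.subgroupOf H)
    ((PN.2.map N.subtype).of_equiv
      (Subgroup.subgroupOfEquivOfLe (le_sup_left : P0 ≤ H)).symm)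
  have hn'' : n' ≤ n := by
    refine hn'.trans (le_of_eq ?_)
    rw [← hn]; rfl
  -- L lies in S
  have hLS : L ≤ S.subgroupOf H := by
    intro l hl
    rw [Subgroup.mem_subgroupOf]
    by_contra hlS
    set lb : G ⧸ S := QuotientGroup.mk' S (l : G) with hlb
    have hcent : lb ∈ Subgroup.centralizer (Kb : Set (G ⧸ S)) := by
      rw [Subgroup.mem_centralizer_iff]
      intro k hk
      obtain ⟨w, rfl⟩ := QuotientGroup.mk'_surjective S k
      have hw : w ∈ K0 ⊔ S := hK0sup.symm ▸ hk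
      obtain ⟨a, ha, s, hs, rfl⟩ := Subgroup.mem_sup_of_normal_right.1 hw
      have h1 := congrArg Subtype.val (hLc l hl ⟨a, (le_sup_right : K0 ≤ H) ha⟩ ha)
      rw [map_mul, show QuotientGroup.mk' S s = 1 from (QuotientGroup.eq_one_iff s).2 hs, mul_one,
        hlb, ← map_mul, ← map_mul]
      exact congrArg _ h1.symm
    have hmem := Cfsg.Agent.Lib.HallHigman.centralizer_pPrimeCore_le hsolvbar hOp hcent
    obtain ⟨j, hj⟩ := (PN.2.map N.subtype) ⟨(l : G), hLP hl⟩
    have h1 : orderOf lb ∣ p ^ j := orderOf_dvd_of_pow_eq_one (by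
      rw [hlb, ← map_pow, show (l : G) ^ p ^ j = 1 by simpa using congrArg Subtype.val hj, map_one])
    have h2 : orderOf lb ∣ Nat.card Kb := by
      have := orderOf_dvd_natCard (⟨lb, hmem⟩ : ↥Kb)
      rwa [← Subgroup.orderOf_coe] at this
    have h3 := Nat.eq_one_of_dvd_coprimes ((hp.coprime_iff_not_dvd.2 hKbp).pow_left j) h1 h2
    rw [orderOf_eq_one_iff, hlb, QuotientGroup.mk'_apply, QuotientGroup.eq_one_iff] at h3
    exact hlS h3
  -- counting
  have hidxS : S.index * Nat.card ↥(N ⊓ S) = Nat.card ↥N := by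
    have h2 := Cfsg.Agent.Lib.Coprime.card_sup_mul_card_inf_of_le_normalizer (A := N) (N := S)
      (by rw [Subgroup.normalizer_eq_top_iff.2 (inferInstance : S.Normal)]; exact le_top)
    rw [hSN, Subgroup.card_top, ← Subgroup.card_mul_index S, mul_assoc, mul_comm (Nat.card ↥N)] at h2
    exact Nat.eq_of_mul_eq_mul_left Nat.card_pos h2
  have hP0card : (Nat.card ↥P0).factorization p = (Nat.card ↥N).factorization p := by
    rw [hP0, Subgroup.card_map_of_injective N.subtype_injective, Sylow.card_eq_multiplicity]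
    simp [Nat.Prime.factorization_self hp]
  have hLcard : (Nat.card ↥L).factorization p ≤ (Nat.card ↥(N ⊓ S)).factorization p := by
    have hd : Nat.card ↥L ∣ Nat.card ↥(N ⊓ S) := by
      rw [← Subgroup.card_map_of_injective (K := L) H.subtype_injective]
      refine Subgroup.card_dvd_of_le ?_
      rintro _ ⟨l, hl, rfl⟩
      exact ⟨hP0N (hLP hl), hLS hl⟩
    exact (Nat.factorization_le_iff_dvd Nat.card_pos.ne' Nat.card_pos.ne').2 hd p
  have hrel : Nat.card ↥L * L.relIndex (P0.subgroupOf H) = Nat.card ↥P0 := by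
    rw [← Nat.card_congr (Subgroup.subgroupOfEquivOfLe (le_sup_left : P0 ≤ H)).toEquiv,
      ← Subgroup.card_mul_index (L.subgroupOf (P0.subgroupOf H)),
      Nat.card_congr (Subgroup.subgroupOfEquivOfLe hLP).toEquiv]
    rfl
  have hrel0 : L.relIndex (P0.subgroupOf H) ≠ 0 := Subgroup.index_ne_zero_of_finite
  have e1 := congrArg (fun z => z.factorization p) hrel
  have e2 := congrArg (fun z => z.factorization p) hidxS
  simp only [Nat.factorization_mul Nat.card_pos.ne' hrel0, Finsupp.add_apply] at e1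
  simp only [Nat.factorization_mul Subgroup.index_ne_zero_of_finite Nat.card_pos.ne',
    Finsupp.add_apply] at e2
  have hle : S.index.factorization p ≤ (L.relIndex (P0.subgroupOf H)).factorization p := by omega
  have h2 : (L.relIndex (P0.subgroupOf H)).factorization p ≤
      (p ^ (n' / (p - 1)) * (n' / (p - 1)).factorial).factorization p :=
    (Nat.factorization_le_iff_dvd hrel0
      (mul_ne_zero (pow_pos hp.pos _).ne' (Nat.factorial_ne_zero _))).2 hdvd p
  rw [Cfsg.Agent.Lib.Char.SchurBound.factorization_pow_mul_factorial hp _ (n + 1)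
    (Nat.lt_succ_of_le ((Nat.div_le_self _ _).trans hn''))] at h2
  refine (hle.trans h2).trans (Finset.sum_le_sum fun i _ => ?_)
  rw [Nat.div_div_eq_div_mul]
  exact Nat.div_le_div_right hn''

end Cfsg.Agent.S4472
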