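import Cfsg.Statements.S4473
import Cfsg.Agent.Lib.CharClifford.DegreeTwo
-- import your own Cfsg.Agent.* helpers here

set_option autoImplicit false
open Cfsg

namespace Cfsg.Agent.S4473

/-- Let the finite group G have a faithful irreducible character χ of degree 2 that is primitive: χ is not induced from a character of any proper subgroup. Then the centre of G has index 12, 24 or 60. -/
theorem result {G : Type*} [Group G] [Fintype G] (χ : Cfsg.IrrCharacter G) (hfaith : ∀ g : G, (χ : G → ℂ) g = (χ : G → ℂ) 1 → g = 1) (h2 : Cfsg.charDegree (χ : G → ℂ) = 2) (hprim : ∀ H : Subgroup G, H ≠ ⊤ → ∀ θ : H → ℂ, Cfsg.IsCharacter H θ → (χ : G → ℂ) ≠ Cfsg.indFun H θ) : (Subgroup.center G).index = 12 ∨ (Subgroup.center G).index = 24 ∨ (Subgroup.center G).index = 60 := by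
  obtain ⟨n, ρ, hirr, hρ⟩ := χ.2
  haveI := hirr
  have hn : n = 2 := by
    have h := Lib.Char.apply_one_eq_charDegree (Lib.Char.isCharacter_of_isIrr χ.2)
    rw [h2, ← hρ, Representation.char_one, Module.finrank_fin_fun] at h
    exact_mod_cast h
  subst hn
  have hinj : Function.Injective ρ := by
    intro a b hab
    have hone : ρ (a⁻¹ * b) = 1 := by
      rw [map_mul, ← hab, ← map_mul, inv_mul_cancel, map_one]
    refine inv_mul_eq_one.mp (hfaith (a⁻¹ * b) ?_)
    rw [← hρ]
    show LinearMap.trace ℂ (Fin 2 → ℂ) (ρ (a⁻¹ * b)) = LinearMap.trace ℂ (Fin 2 → ℂ) (ρ 1)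
    rw [hone, map_one ρ]
  refine Lib.CharClifford.center_index ρ hinj ?_ (by rw [hρ]; exact hprim)
  by_contra h
  push Not at h
  -- an irreducible representation of an abelian group is one-dimensional
  obtain ⟨v, hv⟩ := exists_ne (0 : Fin 2 → ℂ)
  obtain ⟨g, hg⟩ := Lib.CharClifford.not_invariant ρ hv
  obtain ⟨c, hc⟩ := Lib.CharClifford.exists_smul_of_commute ρ (ρ g) fun a => by
    rw [← map_mul, ← map_mul, Subgroup.mem_center_iff.mp (h g) a]
  exact hg (Submodule.mem_span_singleton.mpr ⟨c, by rw [hc]; rfl⟩)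

end Cfsg.Agent.S4473
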