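import Cfsg.Statements.S4474
import Cfsg.Agent.Lib.Char.RealRep

set_option autoImplicit false
open Cfsg

namespace Cfsg.Agent.S4474

/-- Let χ be an irreducible character of the finite group G. Then the Frobenius–Schur indicator of χ (the average over s ∈ G of χ(s²)) equals 1 if and only if χ is afforded by a real representation: there is a representation of G on a real coordinate space whose trace function, viewed in ℂ, is χ. -/
theorem result {G : Type*} [Group G] [Fintype G] (χ : Cfsg.IrrCharacter G) : ((Nat.card G : ℂ)⁻¹ * ∑ s : G, (χ : G → ℂ) (s * s)) = 1 ↔ ∃ (n : ℕ) (ρ : Representation ℝ G (Fin n → ℝ)), ∀ g : G, ((LinearMap.trace ℝ (Fin n → ℝ) (ρ g) : ℝ) : ℂ) = (χ : G → ℂ) g := by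
  constructor
  · intro hν
    obtain ⟨n, ρ, hρ, he⟩ := χ.2
    haveI := hρ
    rw [← he] at hν
    obtain ⟨h0, h1⟩ := Lib.Char.fsInd_spec ρ
    have hreal : ∀ s, (ρ.character s).im = 0 := by
      intro s
      by_contra hs
      exact one_ne_zero (hν.symm.trans (h0 ⟨s, hs⟩))
    obtain ⟨-, ⟨M, hM0, hM⟩, hall⟩ := h1 hreal
    have hsym := hall M hM
    rw [show Lib.Char.fsInd ρ.character = 1 from hν, one_smul] at hsym
    obtain ⟨d, R, hR⟩ := Lib.Char.RealRep.exists_real_of_symm ρ hM0 hsym
      ((Lib.Char.mem_invariants_formRep ρ M).1 hM)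
    exact ⟨d, R, fun g => by rw [hR g, he]⟩
  · rintro ⟨d, R, hR⟩
    exact Lib.Char.RealRep.fsInd_of_real χ.2 R hR

end Cfsg.Agent.S4474
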