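import Cfsg.Statements.S4476
import Cfsg.Agent.Lib.Char.CharCount
import Cfsg.Agent.Lib.Char.BrauerPerm
import Mathlib.Algebra.Order.Chebyshev

set_option autoImplicit false
open Cfsg

namespace Cfsg.Agent.S4476

/-- Let G be a finite group of even order g with exactly t involutions, and put α = (g − 1)/t (a rational number). Then (a) some non-identity element x of G has at most α² conjugates; and (b) some non-principal real-valued irreducible character of G has degree at most α. -/
theorem result {G : Type*} [Group G] [Fintype G] (heven : Even (Nat.card G)) (t : ℕ) (ht : Nat.card {x : G // orderOf x = 2} = t) : (∃ x : G, x ≠ 1 ∧ ((Subgroup.centralizer ({x} : Set G)).index : ℚ) ≤ (((Nat.card G : ℚ) - 1) / t) ^ 2) ∧ ∃ χ : Cfsg.IrrCharacter G, (χ : G → ℂ) ≠ (fun _ => 1) ∧ (∀ g : G, ((χ : G → ℂ) g).im = 0) ∧ (Cfsg.charDegree (χ : G → ℂ) : ℚ) ≤ ((Nat.card G : ℚ) - 1) / t := by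
  classical
  let one : Cfsg.IrrCharacter G := ⟨fun _ => 1, Lib.Char.isIrrCharacter_one⟩
  let R : Finset (Cfsg.IrrCharacter G) :=
    Finset.univ.filter fun χ => (∀ g : G, ((χ : G → ℂ) g).im = 0) ∧ χ ≠ one
  let d : Cfsg.IrrCharacter G → ℕ := fun χ => Cfsg.charDegree (χ : G → ℂ)
  have htpos : 0 < t := by
    rw [← ht]
    have : Fact (Nat.Prime 2) := ⟨Nat.prime_two⟩
    obtain ⟨x, hx⟩ := exists_prime_orderOf_dvd_card' (G := G) 2 heven.two_dvd
    exact Nat.card_pos_iff.mpr ⟨⟨⟨x, hx⟩⟩, inferInstance⟩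
  have hsum : t ≤ ∑ χ ∈ R, d χ := by
    have h := Lib.Char.card_sqrt_eq_sum (1 : G)
    rw [← Finset.add_sum_erase _ _ (Finset.mem_univ one)] at h
    have hcount : (Finset.univ.filter fun s : G => s * s = 1).card = t + 1 := by
      rw [← ht, Nat.card_eq_fintype_card, Fintype.card_subtype]
      have : (Finset.univ.filter fun s : G => s * s = 1) =
          insert 1 (Finset.univ.filter fun x : G => orderOf x = 2) := by
        ext s
        simp only [Finset.mem_filter, Finset.mem_univ, true_and, Finset.mem_insert,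
          orderOf_eq_prime_iff, sq]
        constructor
        · intro hs
          by_cases h1 : s = 1
          · exact Or.inl h1
          · exact Or.inr ⟨hs, h1⟩
        · rintro (rfl | ⟨hs, -⟩)
          · simp
          · exact hs
      rw [this, Finset.card_insert_of_notMem (by simp)]
    rw [hcount] at h
    have h1 : Lib.Char.fsInd (fun _ : G => (1 : ℂ)) = 1 := by
      simp [Lib.Char.fsInd, Nat.card_eq_fintype_card]
    simp only [one, h1, one_mul, Nat.cast_add, Nat.cast_one, add_comm _ (1 : ℂ),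
      add_right_inj] at h
    have h2 := congrArg Complex.re h
    rw [Complex.natCast_re, Complex.re_sum] at h2
    have h3 : (t : ℝ) ≤ ∑ χ ∈ R, (d χ : ℝ) := by
      rw [h2]
      have hle : ∀ χ ∈ Finset.univ.erase one,
          (Lib.Char.fsInd (χ : G → ℂ) * (χ : G → ℂ) 1).re ≤ if χ ∈ R then (d χ : ℝ) else 0 := by
        intro χ hχ
        rw [Lib.Char.apply_one_eq_charDegree (Lib.Char.isCharacter_of_isIrr χ.2)]
        obtain ⟨htri, hiff⟩ := Lib.Char.fsInd_irr χ.2
        by_cases hR : χ ∈ R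
        · rw [if_pos hR]
          rcases htri with e | e | e <;> simp [e, d]
        · rw [if_neg hR]
          have : ¬ ∀ g : G, ((χ : G → ℂ) g).im = 0 := fun hr =>
            hR (Finset.mem_filter.mpr ⟨Finset.mem_univ _, hr, (Finset.mem_erase.mp hχ).1⟩)
          push Not at this
          simp [hiff.mpr this]
      refine (Finset.sum_le_sum hle).trans (le_of_eq ?_)
      rw [Finset.sum_ite_mem]
      refine Finset.sum_congr (Finset.ext fun χ => ?_) fun _ _ => rfl
      simp only [Finset.mem_inter, Finset.mem_erase, Finset.mem_univ, and_true, and_iff_right_iff_imp]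
      exact fun h => (Finset.mem_filter.mp h).2.2
    exact_mod_cast h3
  have hsq : ∑ χ ∈ R, d χ ^ 2 + 1 ≤ Nat.card G := by
    rw [← Lib.Char.sum_charDegree_sq, ← Finset.add_sum_erase _ _ (Finset.mem_univ one)]
    have : Cfsg.charDegree (one : G → ℂ) = 1 := Lib.Char.charDegree_one
    rw [this, one_pow, add_comm]
    refine Nat.add_le_add_left (Finset.sum_le_sum_of_subset ?_) 1
    intro χ hχ
    exact Finset.mem_erase.mpr ⟨(Finset.mem_filter.mp hχ).2.2, Finset.mem_univ _⟩
  have hne : R.Nonempty := by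
    by_contra he
    rw [Finset.not_nonempty_iff_eq_empty.mp he, Finset.sum_empty] at hsum
    omega
  obtain ⟨χ₀, hχ₀, hmin⟩ := Finset.exists_min_image R d hne
  have hgq : ((∑ χ ∈ R, d χ ^ 2 : ℕ) : ℚ) ≤ (Nat.card G : ℚ) - 1 := by
    rw [le_sub_iff_add_le]
    exact_mod_cast hsq
  have htq : (0 : ℚ) < t := by exact_mod_cast htpos
  refine ⟨?_, χ₀, fun e => (Finset.mem_filter.mp hχ₀).2.2 (Subtype.ext e),
    (Finset.mem_filter.mp hχ₀).2.1, ?_⟩
  swap
  · have h1 : d χ₀ * t ≤ ∑ χ ∈ R, d χ ^ 2 := by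
      calc d χ₀ * t ≤ d χ₀ * ∑ χ ∈ R, d χ := Nat.mul_le_mul_left _ hsum
        _ = ∑ χ ∈ R, d χ₀ * d χ := Finset.mul_sum _ _ _
        _ ≤ _ := Finset.sum_le_sum fun χ hχ => by
            rw [sq]; exact Nat.mul_le_mul_right _ (hmin χ hχ)
    rw [le_div_iff₀ htq]
    refine le_trans ?_ hgq
    exact_mod_cast h1
  -- the class bound
  have := Fintype.ofFinite (ConjClasses G)
  have hk : R.card + 1 ≤ Fintype.card (ConjClasses G) := by
    rw [← Nat.card_eq_fintype_card, ← Lib.Char.card_irr_eq_card_conjClasses,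
      Nat.card_eq_fintype_card]
    have : one ∉ R := by simp [R]
    rw [← Finset.card_insert_of_notMem this]
    exact Finset.card_le_univ _
  let f : G → ℕ := fun x => (Subgroup.centralizer ({x} : Set G)).index
  have hsizes : ∑ C : ConjClasses G, (Finset.univ.filter fun x => ConjClasses.mk x = C).card =
      Nat.card G := by
    rw [Nat.card_eq_fintype_card, ← Finset.card_univ]
    exact (Finset.card_eq_sum_card_fiberwise fun x _ => Finset.mem_univ _).symm
  rw [← Finset.add_sum_erase _ _ (Finset.mem_univ (ConjClasses.mk (1 : G)))] at hsizes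
  have hone : (Finset.univ.filter fun x => ConjClasses.mk x = ConjClasses.mk (1 : G)).card = 1 :=
    Finset.card_eq_one.mpr ⟨1, by ext x; simp [ConjClasses.mk_eq_mk_iff_isConj]⟩
  rw [hone] at hsizes
  have hE : (Finset.univ.erase (ConjClasses.mk (1 : G))).Nonempty := by
    rw [← Finset.card_pos, Finset.card_erase_of_mem (Finset.mem_univ _), Finset.card_univ]
    have := hne.card_pos
    omega
  obtain ⟨C, hC, hCmin⟩ := Finset.exists_min_image _
    (fun C => (Finset.univ.filter fun x => ConjClasses.mk x = C).card) hE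
  obtain ⟨x, rfl⟩ := ConjClasses.mk_surjective C
  refine ⟨x, fun e => (Finset.mem_erase.mp hC).1 (by rw [e]), ?_⟩
  have hfx : (Finset.univ.filter fun y => ConjClasses.mk y = ConjClasses.mk x).card = f x := by
    show _ = (Subgroup.centralizer ({x} : Set G)).index
    rw [← Lib.Char.card_conjClass_eq_index]
    simp only [ConjClasses.mk_eq_mk_iff_isConj]
  rw [hfx] at hCmin
  have h1 : R.card * f x + 1 ≤ Nat.card G := by
    have h2 := Finset.card_nsmul_le_sum (Finset.univ.erase (ConjClasses.mk (1 : G))) _ (f x) hCmin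
    rw [Finset.card_erase_of_mem (Finset.mem_univ _), Finset.card_univ, smul_eq_mul] at h2
    have h3 : R.card * f x ≤ (Fintype.card (ConjClasses G) - 1) * f x :=
      Nat.mul_le_mul_right _ (by omega)
    omega
  have h2 : t ^ 2 ≤ R.card * (∑ χ ∈ R, d χ ^ 2) :=
    le_trans (Nat.pow_le_pow_left hsum 2) (sq_sum_le_card_mul_sum_sq)
  have h1' : (R.card : ℚ) * (f x : ℚ) ≤ (Nat.card G : ℚ) - 1 := by
    rw [le_sub_iff_add_le]
    exact_mod_cast h1
  have h2' : (t : ℚ) ^ 2 ≤ (R.card : ℚ) * ((Nat.card G : ℚ) - 1) := by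
    refine le_trans (show (t : ℚ) ^ 2 ≤ (R.card : ℚ) * ((∑ χ ∈ R, d χ ^ 2 : ℕ) : ℚ) by
      exact_mod_cast h2) ?_
    exact mul_le_mul_of_nonneg_left hgq (by positivity)
  show (f x : ℚ) ≤ _
  rw [div_pow, le_div_iff₀ (by positivity)]
  calc (f x : ℚ) * (t : ℚ) ^ 2 ≤ (f x : ℚ) * ((R.card : ℚ) * ((Nat.card G : ℚ) - 1)) :=
        mul_le_mul_of_nonneg_left h2' (by positivity)
    _ = (R.card : ℚ) * (f x : ℚ) * ((Nat.card G : ℚ) - 1) := by ring
    _ ≤ ((Nat.card G : ℚ) - 1) * ((Nat.card G : ℚ) - 1) :=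
        mul_le_mul_of_nonneg_right h1' (le_trans (by positivity) h1')
    _ = _ := by ring

end Cfsg.Agent.S4476
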