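import Cfsg.Statements.S4477
import Cfsg.Agent.Lib.Char.FrobSchur
import Cfsg.Agent.Lib.Char.Degree
import Cfsg.Agent.Lib.Char.Kernel
import Cfsg.Agent.Lib.PGroupFrattini
import Mathlib

set_option autoImplicit false
open Cfsg

namespace Cfsg.Agent.S4477

open scoped ComplexConjugate

theorem linear_conj_mul' {G : Type*} [Group G] [Finite G] (l : G →* ℂˣ) (g : G) :
    conj (l g : ℂ) * (l g : ℂ) = 1 := by rw [mul_comm]; exact Lib.Char.linear_conj_mul l g

variable {G : Type*} [Group G] [Finite G]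

/-- The twist of an irreducible character by a linear one. -/
noncomputable def twist (l : G →* ℂˣ) (χ : IrrCharacter G) : IrrCharacter G :=
  ⟨fun g => (l g : ℂ) * (χ : G → ℂ) g, Lib.Char.isIrrCharacter_linear_mul χ.2 l⟩

theorem twist_apply (l : G →* ℂˣ) (χ : IrrCharacter G) (g : G) :
    (twist l χ : G → ℂ) g = (l g : ℂ) * (χ : G → ℂ) g := rfl

theorem twist_degree (l : G →* ℂˣ) (χ : IrrCharacter G) :
    charDegree (twist l χ : G → ℂ) = charDegree (χ : G → ℂ) :=
  Lib.Char.charDegree_eq_of_apply_one (by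
    rw [twist_apply, map_one, Units.val_one, one_mul,
      Lib.Char.apply_one_eq_charDegree (Lib.Char.isCharacter_of_isIrr χ.2)])

theorem fixed_odd (hLp : IsPGroup 2 (G →* ℂˣ)) (H : Subgroup (G →* ℂˣ))
    (D : Finset (IrrCharacter G)) (hD : ∀ l ∈ H, ∀ χ ∈ D, twist l χ ∈ D) (hodd : Odd D.card) :
    ∃ F : Finset (IrrCharacter G),
      (∀ χ, χ ∈ F ↔ χ ∈ D ∧ ∀ l ∈ H, ∀ g, (l g : ℂ) * (χ : G → ℂ) g = (χ : G → ℂ) g) ∧
      Odd F.card := by
  classical
  haveI : Fact (Nat.Prime 2) := ⟨Nat.prime_two⟩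
  letI : MulAction H D :=
    { smul := fun l χ => ⟨twist l.1 χ.1, hD l.1 l.2 χ.1 χ.2⟩
      one_smul := fun χ => Subtype.ext (Subtype.ext (funext fun g => by
        show (((1 : H) : G →* ℂˣ) g : ℂ) * (χ.1 : G → ℂ) g = _; simp))
      mul_smul := fun a b χ => Subtype.ext (Subtype.ext (funext fun g => by
        show ((((a * b : H) : G →* ℂˣ) g : ℂˣ) : ℂ) * (χ.1 : G → ℂ) g =
          ((a : G →* ℂˣ) g : ℂ) * (((b : G →* ℂˣ) g : ℂ) * (χ.1 : G → ℂ) g)
        simp [mul_assoc])) }
  have h := (hLp.to_subgroup H).card_modEq_card_fixedPoints D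
  refine ⟨D.filter fun χ : IrrCharacter G => ∀ l ∈ H, ∀ g, (l g : ℂ) * (χ : G → ℂ) g = (χ : G → ℂ) g,
    fun χ => Finset.mem_filter, ?_⟩
  rw [Nat.card_eq_fintype_card, Fintype.card_coe] at h
  have hc : Nat.card (MulAction.fixedPoints H D) =
      (D.filter fun χ : IrrCharacter G => ∀ l ∈ H, ∀ g, (l g : ℂ) * (χ : G → ℂ) g = (χ : G → ℂ) g).card := by
    rw [← Fintype.card_coe, ← Nat.card_eq_fintype_card]
    refine Nat.card_congr ⟨fun x => ⟨x.1.1, Finset.mem_filter.2 ⟨x.1.2, fun l hl g =>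
      congrFun (congrArg Subtype.val (congrArg Subtype.val (x.2 ⟨l, hl⟩))) g⟩⟩,
      fun x => ⟨⟨x.1, (Finset.mem_filter.1 x.2).1⟩, fun l => Subtype.ext (Subtype.ext
        (funext fun g => (Finset.mem_filter.1 x.2).2 l.1 l.2 g))⟩, fun x => rfl, fun x => rfl⟩
  rw [hc] at h
  rw [Nat.odd_iff] at hodd ⊢
  exact Eq.trans (Nat.ModEq.symm h) hodd

theorem card_fix_le (H : Subgroup (G →* ℂˣ)) (χ : IrrCharacter G)
    (hdeg : charDegree (χ : G → ℂ) = 2)
    (hfix : ∀ l ∈ H, ∀ g, (l g : ℂ) * (χ : G → ℂ) g = (χ : G → ℂ) g) : Nat.card H ≤ 4 := by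
  classical
  haveI := Fintype.ofFinite G
  haveI : Finite (G →* ℂˣ) := Finite.of_equiv _ (Lib.Char.linearEquiv G).symm
  haveI := Fintype.ofFinite H
  set supp : Finset G := Finset.univ.filter (fun g => (χ : G → ℂ) g ≠ 0) with hs
  set h : G → ℂ := fun g => ∑ l : H, ((l : G →* ℂˣ) g : ℂ) with hh
  have hon : ∀ g ∈ supp, h g = (Nat.card H : ℂ) := by
    intro g hg
    simp only [hh]
    rw [Finset.sum_congr rfl fun l _ => (mul_eq_right₀ (Finset.mem_filter.1 hg).2).1
      (hfix l.1 l.2 g), Finset.sum_const, Finset.card_univ, Nat.card_eq_fintype_card,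
      nsmul_eq_mul, mul_one]
  have horth : ∑ g : G, h g * conj (h g) = (Nat.card H : ℂ) * (Nat.card G : ℂ) := by
    simp only [hh, map_sum, Finset.sum_mul, Finset.mul_sum]
    rw [Finset.sum_comm]
    have hin : ∀ a b : H, ∑ g : G, ((a : G →* ℂˣ) g : ℂ) * conj ((b : G →* ℂˣ) g : ℂ) =
        if a = b then (Nat.card G : ℂ) else 0 := by
      intro a b
      set χa : IrrCharacter G := ((Lib.Char.linearEquiv G) a.1).1 with hχa
      set χb : IrrCharacter G := ((Lib.Char.linearEquiv G) b.1).1 with hχb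
      have he := Lib.Char.classInner_irrCharacter χa χb
      have : χa = χb ↔ a = b :=
        ⟨fun e => Subtype.ext ((Lib.Char.linearEquiv G).injective (Subtype.ext e)),
          fun e => by rw [hχa, hχb, e]⟩
      simp only [classInner, this] at he
      rw [inv_mul_eq_iff_eq_mul₀ (Lib.Char.card_ne_zero_complex G)] at he
      rw [show (Nat.card G : ℂ) = (Nat.card G : ℂ) * 1 from (mul_one _).symm, ← mul_zero (Nat.card G : ℂ),
        ← mul_ite]
      exact he
    rw [Finset.sum_congr rfl fun a _ => Finset.sum_comm]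
    simp only [hin, Finset.sum_ite_eq', Finset.mem_univ, if_true, Finset.sum_const, Finset.card_univ,
      Nat.card_eq_fintype_card, nsmul_eq_mul]
  have e1 : (supp.card * Nat.card H ^ 2 : ℝ) ≤ Nat.card H * Nat.card G := by
    have hre := congrArg Complex.re horth
    rw [Complex.re_sum] at hre
    have hnorm : ∀ g, (h g * conj (h g)).re = Complex.normSq (h g) := fun g => by
      rw [Complex.mul_conj, Complex.ofReal_re]
    simp only [hnorm] at hre
    calc (supp.card * Nat.card H ^ 2 : ℝ) = ∑ g ∈ supp, Complex.normSq (h g) := by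
          rw [Finset.sum_congr rfl fun g hg => by rw [hon g hg, Complex.normSq_natCast],
            Finset.sum_const, nsmul_eq_mul]
          ring
      _ ≤ ∑ g : G, Complex.normSq (h g) :=
          Finset.sum_le_sum_of_subset_of_nonneg (Finset.subset_univ _) fun g _ _ =>
            Complex.normSq_nonneg _
      _ = _ := by rw [hre]; simp
  have e2 : (Nat.card G : ℝ) ≤ supp.card * 4 := by
    have hn := Lib.Char.classInner_irrCharacter χ χ
    rw [if_pos rfl] at hn
    simp only [classInner] at hn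
    rw [inv_mul_eq_one₀ (Lib.Char.card_ne_zero_complex G)] at hn
    have hre := congrArg Complex.re hn
    simp only [Complex.re_sum, Complex.natCast_re, Complex.mul_conj, Complex.ofReal_re] at hre
    rw [hre, ← Finset.sum_filter_of_ne (p := fun g => (χ : G → ℂ) g ≠ 0)
      fun g _ hg h0 => hg (by rw [h0, map_zero])]
    calc ∑ g ∈ supp, Complex.normSq ((χ : G → ℂ) g) ≤ ∑ _g ∈ supp, (4 : ℝ) := by
          refine Finset.sum_le_sum fun g _ => ?_
          have hb := Lib.Char.norm_apply_le (Lib.Char.isCharacter_of_isIrr χ.2) g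
          rw [Lib.Char.apply_one_eq_charDegree (Lib.Char.isCharacter_of_isIrr χ.2), hdeg] at hb
          rw [Complex.normSq_eq_norm_sq]
          norm_num at hb
          nlinarith [norm_nonneg ((χ : G → ℂ) g)]
      _ = _ := by rw [Finset.sum_const, nsmul_eq_mul]
  have hH : (0 : ℝ) < Nat.card H := Nat.cast_pos.2 Nat.card_pos
  have hG0 : (0 : ℝ) < Nat.card G := Nat.cast_pos.2 Nat.card_pos
  have h1 : (supp.card : ℝ) * Nat.card H ≤ Nat.card G := by nlinarith
  have hs0 : (0 : ℝ) < supp.card := by nlinarith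
  have : (Nat.card H : ℝ) ≤ 4 := by nlinarith
  exact_mod_cast this

/-- A noncyclic 2-group has at least three linear characters with square one. -/
theorem card_two_ge (hG : IsPGroup 2 G) (hcyc : ¬ IsCyclic G) (H : Subgroup (G →* ℂˣ))
    (hH : ∀ l : G →* ℂˣ, l ^ 2 = 1 → l ∈ H) : 3 ≤ Nat.card H := by
  classical
  haveI : Fact (Nat.Prime 2) := ⟨Nat.prime_two⟩
  haveI : Finite (G →* ℂˣ) := Finite.of_equiv _ (Lib.Char.linearEquiv G).symm
  have hne : (⊥ : Subgroup G) ≠ ⊤ := fun h => hcyc (by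
    haveI : Subsingleton G := subsingleton_of_bot_eq_top h |> fun _ => subsingleton_of_forall_eq 1 fun g =>
      Subgroup.mem_bot.1 (h ▸ Subgroup.mem_top g)
    infer_instance)
  obtain ⟨M, hM, -⟩ := (eq_top_or_exists_le_coatom (⊥ : Subgroup G)).resolve_left hne
  obtain ⟨g, hg⟩ : ∃ g, g ∉ M := by
    by_contra h; push Not at h; exact hM.1 ((Subgroup.eq_top_iff' M).2 h)
  have hz : Subgroup.zpowers g ≠ ⊤ := fun h => hcyc
    ⟨g, fun a => by have := Subgroup.mem_top a; rwa [← h] at this⟩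
  obtain ⟨N, hN, hgN⟩ := (eq_top_or_exists_le_coatom (Subgroup.zpowers g)).resolve_left hz
  have hMN : M ≠ N := fun h => hg (h ▸ hgN (Subgroup.mem_zpowers g))
  have two : ∀ K : Subgroup G, IsCoatom K → K.index = 2 := fun K hK =>
    (Lib.PGroupFrattini.coatom_index hG hK).2
  have hhom : ∀ K : Subgroup G, K.index = 2 →
      ∃ l : G →* ℂˣ, l ^ 2 = 1 ∧ ∀ x, l x = 1 ↔ x ∈ K := by
    intro K hK
    refine ⟨{ toFun := fun x => if x ∈ K then 1 else -1
              map_one' := by simp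
              map_mul' := fun a b => ?_ }, MonoidHom.ext fun x => ?_, fun x => ?_⟩
    · have := Subgroup.mul_mem_iff_of_index_two hK (a := a) (b := b)
      by_cases ha : a ∈ K <;> by_cases hb : b ∈ K <;> simp [ha, hb, this]
    · rw [MonoidHom.pow_apply]
      simp only [MonoidHom.coe_mk, OneHom.coe_mk, MonoidHom.one_apply]
      split_ifs <;> simp
    · simp only [MonoidHom.coe_mk, OneHom.coe_mk]
      split_ifs with h
      · simp [h]
      · simp only [h, iff_false]
        intro e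
        have := congrArg Units.val e
        norm_num at this
  obtain ⟨a, ha, ha'⟩ := hhom M (two M hM)
  obtain ⟨b, hb, hb'⟩ := hhom N (two N hN)
  have hab : a ≠ b := fun e => hMN (Subgroup.ext fun x => by rw [← ha', ← hb', e])
  have ha1 : a ≠ 1 := fun e => hM.1 ((Subgroup.eq_top_iff' M).2 fun x => (ha' x).1 (by rw [e]; rfl))
  have hb1 : b ≠ 1 := fun e => hN.1 ((Subgroup.eq_top_iff' N).2 fun x => (hb' x).1 (by rw [e]; rfl))
  haveI := Fintype.ofFinite H
  rw [Nat.card_eq_fintype_card]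
  have : ({1, ⟨a, hH a ha⟩, ⟨b, hH b hb⟩} : Finset H).card = 3 := by
    rw [Finset.card_insert_of_notMem, Finset.card_pair] <;> simp [Subtype.ext_iff, hab, Ne.symm ha1, Ne.symm hb1]
  rw [← this]
  exact Finset.card_le_univ _

open scoped Classical in
/-- The number of real irreducible characters of degree two is odd. -/
theorem real_count (hG : IsPGroup 2 G) (ht : Nat.card {x : G // orderOf x = 2} % 4 = 1)
    (L2 : Subgroup (G →* ℂˣ)) (m2 : ∀ l, l ∈ L2 ↔ l ^ 2 = 1) (hR4 : 4 ∣ Nat.card L2) :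
    Odd (Finset.univ.filter (fun χ : IrrCharacter G =>
      charDegree (χ : G → ℂ) = 2 ∧ ∀ g, ((χ : G → ℂ) g).im = 0)).card := by
  classical
  haveI := Fintype.ofFinite G
  haveI : Finite (G →* ℂˣ) := Finite.of_equiv _ (Lib.Char.linearEquiv G).symm
  haveI : Fact (Nat.Prime 2) := ⟨Nat.prime_two⟩
  set R : Finset (IrrCharacter G) := Finset.univ.filter
    (fun χ => charDegree (χ : G → ℂ) = 1 ∧ ∀ g, ((χ : G → ℂ) g).im = 0) with hR
  set D : Finset (IrrCharacter G) := Finset.univ.filter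
    (fun χ => charDegree (χ : G → ℂ) = 2 ∧ ∀ g, ((χ : G → ℂ) g).im = 0) with hD
  -- the linear real characters
  have hsq : ∀ (l : G →* ℂˣ), l ^ 2 = 1 ↔ ∀ g, ((l g : ℂ)).im = 0 := by
    intro l
    constructor
    · intro h g
      have e : (l g : ℂ) ^ 2 = 1 := by
        rw [← Units.val_pow_eq_pow_val, ← MonoidHom.pow_apply, h]; rfl
      rcases sq_eq_one_iff.1 e with e' | e' <;> simp [e']
    · intro h
      refine MonoidHom.ext fun g => Units.ext ?_
      have := linear_conj_mul' l g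
      rw [Complex.conj_eq_iff_im.2 (h g)] at this
      rw [MonoidHom.pow_apply, Units.val_pow_eq_pow_val, pow_two, this]; rfl
  have hRc : R.card = Nat.card L2 := by
    rw [← Fintype.card_coe, ← Nat.card_eq_fintype_card]
    refine (Nat.card_congr (Equiv.ofBijective (fun l : L2 => (⟨((Lib.Char.linearEquiv G) l.1).1,
      Finset.mem_filter.2 ⟨Finset.mem_univ _, ?_, ?_⟩⟩ : R)) ⟨fun a b h => ?_, fun χ => ?_⟩)).symm
    · exact (Lib.Char.charDegree_eq_one_iff (((Lib.Char.linearEquiv G) l.1).1).2).2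
        ((Lib.Char.linearEquiv G) l.1).2
    · exact (hsq l.1).1 ((m2 _).1 l.2)
    · exact Subtype.ext ((Lib.Char.linearEquiv G).injective (Subtype.ext (congrArg (fun x : {χ // χ ∈ R} => x.1) h)))
    · obtain ⟨-, h1, h2⟩ := Finset.mem_filter.1 χ.2
      obtain ⟨l, hl⟩ := (Lib.Char.linearEquiv G).surjective
        ⟨χ.1, (Lib.Char.charDegree_eq_one_iff χ.1.2).1 h1⟩
      refine ⟨⟨l, (m2 l).2 ((hsq l).2 fun g => ?_)⟩, Subtype.ext (by simp [hl])⟩
      have := congrArg (fun x => ((x.1 : IrrCharacter G) : G → ℂ) g) hl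
      rw [show ((l g : ℂ)) = (χ.1 : G → ℂ) g from this]
      exact h2 g
  -- mod 4
  have hint : ∀ χ : IrrCharacter G, ∃ z : ℤ,
      Lib.Char.fsInd (χ : G → ℂ) * (χ : G → ℂ) 1 =
        (((if χ ∈ R then 1 else 0) + (if χ ∈ D then 2 else 0) + 4 * z : ℤ) : ℂ) := by
    intro χ
    rw [Lib.Char.apply_one_eq_charDegree (Lib.Char.isCharacter_of_isIrr χ.2)]
    obtain ⟨n, hn⟩ := IsPGroup.iff_card.1 hG
    obtain ⟨k, hk, hd⟩ := (Nat.dvd_prime_pow Nat.prime_two).1 (hn ▸ Lib.Char.charDegree_dvd_card χ.2)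
    obtain ⟨h3, h0⟩ := Lib.Char.fsInd_irr χ.2
    by_cases hre : ∀ g, ((χ : G → ℂ) g).im = 0
    · have hne : Lib.Char.fsInd (χ : G → ℂ) ≠ 0 := fun h => by
        obtain ⟨g, hg⟩ := h0.1 h; exact hg (hre g)
      by_cases hk0 : k = 0
      · subst hk0
        rw [pow_zero] at hd
        have hν : Lib.Char.fsInd (χ : G → ℂ) = 1 := by
          obtain ⟨l, hl⟩ := (Lib.Char.linearEquiv G).surjective
            ⟨χ, (Lib.Char.charDegree_eq_one_iff χ.2).1 hd⟩
          have hl' : ∀ g, (χ : G → ℂ) g = (l g : ℂ) := fun g =>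
            (congrArg (fun x => ((x.1 : IrrCharacter G) : G → ℂ) g) hl).symm
          have h2 : l ^ 2 = 1 := (hsq l).2 fun g => hl' g ▸ hre g
          have : ∀ s : G, (χ : G → ℂ) (s * s) = 1 := fun s => by
            rw [hl', map_mul, ← pow_two, ← MonoidHom.pow_apply, h2]; rfl
          simp only [Lib.Char.fsInd, this, Finset.sum_const, Finset.card_univ, nsmul_eq_mul, mul_one,
            ← Nat.card_eq_fintype_card]
          exact inv_mul_cancel₀ (Lib.Char.card_ne_zero_complex G)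
        refine ⟨0, ?_⟩
        rw [if_pos (Finset.mem_filter.2 ⟨Finset.mem_univ _, hd, hre⟩), if_neg (fun h => by
          have := (Finset.mem_filter.1 h).2.1; omega), hν, hd]
        norm_num
      by_cases hk1 : k = 1
      · subst hk1
        rw [pow_one] at hd
        rw [if_neg (fun h => by have := (Finset.mem_filter.1 h).2.1; omega),
          if_pos (Finset.mem_filter.2 ⟨Finset.mem_univ _, hd, hre⟩), hd]
        rcases h3 with h | h | h
        · exact absurd h hne
        · exact ⟨0, by rw [h]; norm_num⟩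
        · exact ⟨-1, by rw [h]; norm_num⟩
      obtain ⟨j, rfl⟩ : ∃ j, k = j + 2 := ⟨k - 2, by omega⟩
      rw [if_neg (fun h => by
          have := (Finset.mem_filter.1 h).2.1; rw [hd, pow_add] at this; omega),
        if_neg (fun h => by
          have := (Finset.mem_filter.1 h).2.1; rw [hd, pow_add] at this; omega), hd]
      rcases h3 with h | h | h
      · exact ⟨0, by rw [h]; simp⟩
      · exact ⟨2 ^ j, by rw [h]; push_cast; ring⟩
      · exact ⟨-(2 ^ j), by rw [h]; push_cast; ring⟩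
    · have : Lib.Char.fsInd (χ : G → ℂ) = 0 := h0.2 (by push Not at hre; exact hre)
      refine ⟨0, ?_⟩
      rw [if_neg (fun h => hre (Finset.mem_filter.1 h).2.2),
        if_neg (fun h => hre (Finset.mem_filter.1 h).2.2), this]
      simp
  choose z hz using hint
  have hcount := Lib.Char.card_sqrt_eq_sum (1 : G)
  rw [Finset.sum_congr rfl fun χ _ => hz χ, ← Int.cast_sum, ← Int.cast_natCast, Int.cast_inj,
    Finset.sum_add_distrib, Finset.sum_add_distrib, ← Finset.mul_sum, Finset.sum_boole,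
    Finset.filter_univ_mem] at hcount
  rw [← Finset.sum_filter, Finset.filter_univ_mem, Finset.sum_const, nsmul_eq_mul] at hcount
  have hsplit : (Finset.univ.filter fun s : G => s * s = 1).card =
      Nat.card {x : G // orderOf x = 2} + 1 := by
    rw [Nat.card_eq_fintype_card, Fintype.card_subtype,
      ← Finset.card_insert_of_notMem (s := Finset.univ.filter fun x : G => orderOf x = 2) (a := 1) (by simp)]
    congr 1
    ext s
    simp only [Finset.mem_filter, Finset.mem_univ, true_and, Finset.mem_insert]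
    rw [← pow_two, orderOf_eq_prime_iff]
    constructor
    · intro h
      by_cases h1 : s = 1
      · exact Or.inl h1
      · exact Or.inr ⟨h, h1⟩
    · rintro (rfl | ⟨h, -⟩)
      · simp
      · exact h
  rw [hsplit, hRc] at hcount
  obtain ⟨q, hq⟩ := hR4
  rw [hq] at hcount
  push_cast at hcount
  rw [Nat.odd_iff]
  have hfin : D.card % 2 = 1 := by omega
  convert hfin using 4

/-- Let G be a finite 2-group whose number of involutions is congruent to 1 modulo 4. Then G is cyclic or its commutator subgroup has index 4. -/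
theorem result {G : Type*} [Group G] [Finite G] (hG : IsPGroup 2 G) (ht : Nat.card {x : G // orderOf x = 2} % 4 = 1) : IsCyclic G ∨ (commutator G).index = 4 := by
  classical
  haveI := Fintype.ofFinite G
  haveI : Fact (Nat.Prime 2) := ⟨Nat.prime_two⟩
  by_cases hcyc : IsCyclic G
  · exact Or.inl hcyc
  right
  haveI : Finite (G →* ℂˣ) := Finite.of_equiv _ (Lib.Char.linearEquiv G).symm
  haveI := Fintype.ofFinite (G →* ℂˣ)
  have hLp : IsPGroup 2 (G →* ℂˣ) := by
    obtain ⟨n, hn⟩ := IsPGroup.iff_card.1 hG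
    refine fun l => ⟨n, MonoidHom.ext fun g => ?_⟩
    rw [MonoidHom.pow_apply, ← hn, ← map_pow, pow_card_eq_one', map_one, MonoidHom.one_apply]
  set L2 : Subgroup (G →* ℂˣ) := (powMonoidHom 2).ker with hL2
  set L4 : Subgroup (G →* ℂˣ) := (powMonoidHom 4).ker with hL4
  have m2 : ∀ l, l ∈ L2 ↔ l ^ 2 = 1 := fun l => MonoidHom.mem_ker
  have m4 : ∀ l, l ∈ L4 ↔ l ^ 4 = 1 := fun l => MonoidHom.mem_ker
  have h24 : L2 ≤ L4 := fun l hl => (m4 l).2 (by
    rw [show (4 : ℕ) = 2 * 2 from rfl, pow_mul, (m2 l).1 hl]; exact MonoidHom.ext fun g => by simp)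
  have hR := card_two_ge hG hcyc
  obtain ⟨r, hr⟩ := IsPGroup.iff_card.1 (hLp.to_subgroup L2)
  have hR4 : 4 ∣ Nat.card L2 := by
    have h3 : 3 ≤ Nat.card L2 := hR L2 fun l hl => (m2 l).2 hl
    rw [hr] at h3 ⊢
    have : 2 ≤ r := by
      by_contra h
      interval_cases r <;> norm_num at h3
    exact pow_dvd_pow 2 this
  -- the real characters of degree two
  set D : Finset (Cfsg.IrrCharacter G) := Finset.univ.filter
    (fun χ => Cfsg.charDegree (χ : G → ℂ) = 2 ∧ ∀ g, ((χ : G → ℂ) g).im = 0) with hD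
  have hDodd : Odd D.card := by convert real_count hG ht L2 m2 hR4 using 4
  obtain ⟨F, hF, hFodd⟩ : ∃ F : Finset (Cfsg.IrrCharacter G),
      (∀ χ, χ ∈ F ↔ χ ∈ D ∧ ∀ l ∈ L2, ∀ g, (l g : ℂ) * (χ : G → ℂ) g = (χ : G → ℂ) g) ∧ Odd F.card := by
    refine fixed_odd hLp L2 D (fun l hl χ hχ => ?_) hDodd
    simp only [hD, Finset.mem_filter, Finset.mem_univ, true_and] at hχ ⊢
    refine ⟨?_, fun g => ?_⟩
    · rw [← hχ.1]; exact twist_degree l χ
    · have e : ((l g : ℂ)) ^ 2 = 1 := by
        rw [← Units.val_pow_eq_pow_val, ← MonoidHom.pow_apply, (m2 l).1 hl]; rfl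
      rw [twist_apply, Complex.mul_im, hχ.2 g]
      rcases sq_eq_one_iff.1 e with e' | e' <;> simp [e']
  obtain ⟨F4, hF4, hF4odd⟩ := fixed_odd hLp L4 F (fun l hl χ hχ => by
    rw [hF] at hχ ⊢
    have hmem : l⁻¹ * l⁻¹ ∈ L2 := (m2 _).2 (by
      refine MonoidHom.ext fun g => ?_
      have h := DFunLike.congr_fun ((m4 l).1 hl) g
      simp only [MonoidHom.pow_apply, MonoidHom.mul_apply, MonoidHom.inv_apply,
        MonoidHom.one_apply] at h ⊢
      calc ((l g)⁻¹ * (l g)⁻¹) ^ 2 = ((l g) ^ 4)⁻¹ := by group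
        _ = 1 := by rw [h, inv_one])
    have hfix : ∀ g, ((l⁻¹ : G →* ℂˣ) g : ℂ) * (χ : G → ℂ) g = (l g : ℂ) * (χ : G → ℂ) g := fun g => by
      conv_rhs => rw [← hχ.2 _ hmem g]
      rw [← mul_assoc, ← Units.val_mul, ← MonoidHom.mul_apply, mul_inv_cancel_left]
    have hχD := hχ.1
    simp only [hD, Finset.mem_filter, Finset.mem_univ, true_and] at hχD ⊢
    refine ⟨⟨by rw [← hχD.1]; exact twist_degree l χ, fun g => ?_⟩, fun m hm g => ?_⟩
    · rw [twist_apply]
      refine Complex.conj_eq_iff_im.1 ?_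
      rw [map_mul, Complex.conj_eq_iff_im.2 (hχD.2 g), ← hfix g, MonoidHom.inv_apply,
        Units.val_inv_eq_inv_val]
      congr 1
      exact eq_inv_of_mul_eq_one_left (linear_conj_mul' l g)
    · rw [twist_apply, mul_left_comm, hχ.2 m hm g]) hFodd
  obtain ⟨χ, hχ⟩ := Finset.card_pos.1 hF4odd.pos
  rw [hF4, hF] at hχ
  have hdeg : Cfsg.charDegree (χ : G → ℂ) = 2 := by
    simpa [hD] using (Finset.mem_filter.1 hχ.1.1).2.1
  have h4 : Nat.card L4 ≤ 4 := card_fix_le L4 χ hdeg hχ.2
  have h2 : Nat.card L2 = 4 := le_antisymm ((Subgroup.card_le_of_le h24).trans h4)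
    (Nat.le_of_dvd Nat.card_pos hR4)
  have heq : L2 = L4 := Subgroup.eq_of_le_of_card_ge h24 (by rw [h2]; exact h4)
  have htop : L2 = ⊤ := by
    rw [eq_top_iff]
    rintro l -
    obtain ⟨k, hk⟩ := hLp l
    induction k generalizing l with
    | zero => rw [pow_zero, pow_one] at hk; rw [hk]; exact L2.one_mem
    | succ k ih =>
      rw [pow_succ', pow_mul] at hk
      rw [heq, m4, show (4 : ℕ) = 2 * 2 from rfl, pow_mul]
      exact (m2 _).1 (ih hk)
  rw [← Lib.Char.card_linear, ← Nat.card_congr (Lib.Char.linearEquiv G), ← h2, htop,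
    Subgroup.card_top]

end Cfsg.Agent.S4477
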