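import Cfsg.Statements.S4478
import Cfsg.Agent.Lib.Char.Regular
import Cfsg.Agent.Lib.Char.FrobSchur
import Cfsg.Agent.Lib.Char.Degree
import Cfsg.Agent.Lib.Char.Integral

set_option autoImplicit false
open Cfsg

namespace Cfsg.Agent.S4478

/-- Let G be a finite group of even order and χ an irreducible character of G whose degree x is divisible by the full power of 2 dividing the order of G and, for every odd prime p such that G has an element of order 2p, by the full power of p dividing the order of G. Then all involutions of G are conjugate, the centralizer of every involution has order exactly x with x coprime to its index, and the Frobenius–Schur indicator of χ equals 1. -/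
theorem result {G : Type*} [Group G] [Fintype G] (heven : Even (Nat.card G)) (χ : Cfsg.IrrCharacter G) (h2 : 2 ^ (Nat.card G).factorization 2 ∣ Cfsg.charDegree (χ : G → ℂ)) (hp : ∀ p : ℕ, p.Prime → p ≠ 2 → (∃ g : G, orderOf g = 2 * p) → p ^ (Nat.card G).factorization p ∣ Cfsg.charDegree (χ : G → ℂ)) : (∀ s t : G, orderOf s = 2 → orderOf t = 2 → IsConj s t) ∧ (∀ s : G, orderOf s = 2 → Nat.card (Subgroup.centralizer ({s} : Set G)) = Cfsg.charDegree (χ : G → ℂ) ∧ (Nat.card (Subgroup.centralizer ({s} : Set G))).Coprime (Subgroup.centralizer ({s} : Set G)).index) ∧ (Nat.card G : ℂ)⁻¹ * ∑ g : G, (χ : G → ℂ) (g * g) = 1 := by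
  classical
  haveI : Fact (Nat.Prime 2) := ⟨Nat.prime_two⟩
  set x := Cfsg.charDegree (χ : G → ℂ) with hx
  have hxpos : 0 < x := Lib.Char.charDegree_pos χ.2
  have hN0 : Nat.card G ≠ 0 := Nat.card_pos.ne'
  have h2x : 2 ∣ x := by
    refine (dvd_pow_self 2 ?_).trans h2
    exact (Nat.Prime.factorization_pos_of_dvd Nat.prime_two hN0 heven.two_dvd).ne'
  -- the relevant primes
  let π : ℕ → Prop := fun p => p.Prime ∧ (p = 2 ∨ ∃ g : G, orderOf g = 2 * p)
  have hfull : ∀ p, π p → p ^ (Nat.card G).factorization p ∣ x := by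
    rintro p ⟨hpp, rfl | hg⟩
    · exact h2
    · by_cases h : p = 2
      · subst h; exact h2
      · exact hp p hpp h hg
  have hvan : ∀ p, π p → ∀ g : G, p ∣ orderOf g → (χ : G → ℂ) g = 0 := fun p hp' g hg =>
    Lib.Char.apply_eq_zero_of_defect_zero χ.2 hp'.1 (hfull p hp') hg
  set A : Finset G := Finset.univ.filter (fun g => ∀ p, π p → ¬ p ∣ orderOf g) with hA
  set S : Finset G := Finset.univ.filter (fun g => orderOf g = 2) with hS
  have hodd : ∀ g ∈ A, Odd (orderOf g) := fun g hg =>
    Nat.not_even_iff_odd.1 fun h =>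
      (Finset.mem_filter.1 hg).2 2 ⟨Nat.prime_two, Or.inl rfl⟩ h.two_dvd
  have hsq : ∀ g : G, g ∉ A → g ∉ S → (χ : G → ℂ) (g * g) = 0 := by
    intro g hgA hgS
    obtain ⟨p, hp', hpg⟩ : ∃ p, π p ∧ p ∣ orderOf g := by
      simpa [hA] using hgA
    have hodd2 : ∀ r, π r → r ≠ 2 → r ∣ orderOf g → (χ : G → ℂ) (g * g) = 0 := by
      intro r hr hr2 hrg
      refine hvan r hr _ ?_
      rw [← pow_two, orderOf_pow]
      have hco : r.Coprime (Nat.gcd (orderOf g) 2) :=
        Nat.Coprime.coprime_dvd_right (Nat.gcd_dvd_right _ _)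
          ((Nat.coprime_primes hr.1 Nat.prime_two).2 hr2)
      exact hco.dvd_of_dvd_mul_right
        (by rwa [Nat.div_mul_cancel (Nat.gcd_dvd_left _ _)])
    by_cases h : p = 2
    swap; · exact hodd2 p hp' h hpg
    subst h
    obtain ⟨m, hm⟩ := hpg
    by_cases hm2 : 2 ∣ m
    · refine hvan 2 hp' _ ?_
      rw [← pow_two, orderOf_pow, hm, Nat.gcd_eq_right (dvd_mul_right 2 m),
        Nat.mul_div_cancel_left _ two_pos]
      exact hm2
    · have hm1 : m ≠ 1 := fun e => hgS (Finset.mem_filter.2 ⟨Finset.mem_univ _, by rw [hm, e]⟩)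
      obtain ⟨r, hr, hrm⟩ := Nat.exists_prime_and_dvd hm1
      have hr2 : r ≠ 2 := fun e => hm2 (e ▸ hrm)
      refine hodd2 r ⟨hr, Or.inr ⟨g ^ (m / r), ?_⟩⟩ hr2 (hm ▸ hrm.mul_left 2)
      obtain ⟨k, rfl⟩ := hrm
      have hk : k ≠ 0 := fun e => by simp [e] at hm2
      rw [Nat.mul_div_cancel_left _ hr.pos, orderOf_pow, hm,
        Nat.gcd_eq_right ((dvd_mul_left k r).mul_left 2), ← mul_assoc,
        Nat.mul_div_cancel _ (Nat.pos_of_ne_zero hk)]
  have hdis : Disjoint A S := Finset.disjoint_left.2 fun g hg hg' =>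
    (Finset.mem_filter.1 hg).2 2 ⟨Nat.prime_two, Or.inl rfl⟩ (dvd_of_eq (Finset.mem_filter.1 hg').2.symm)
  have hone : (χ : G → ℂ) ≠ fun _ => 1 := fun e => by
    have : x = 1 := Lib.Char.charDegree_eq_of_apply_one (by rw [e]; simp)
    rw [this] at h2x
    norm_num at h2x
  have hsum0 : ∑ g ∈ A, (χ : G → ℂ) g = 0 := by
    have h := Lib.Char.classInner_irr_ne χ.2 Lib.Char.isIrrCharacter_one hone
    simp only [Cfsg.classInner, map_one, mul_one] at h
    rw [Finset.sum_subset (Finset.subset_univ A) fun g _ hg => by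
      obtain ⟨p, hp', hpg⟩ : ∃ p, π p ∧ p ∣ orderOf g := by simpa [hA] using hg
      exact hvan p hp' g hpg]
    exact (mul_eq_zero.1 h).resolve_left (inv_ne_zero (Nat.cast_ne_zero.2 hN0))
  have hA2 : ∑ g ∈ A, (χ : G → ℂ) (g * g) = ∑ g ∈ A, (χ : G → ℂ) g := by
    have ho : ∀ g ∈ A, orderOf (g * g) = orderOf g := fun g hg => by
      rw [← pow_two, Nat.Coprime.orderOf_pow (hodd g hg).coprime_two_right]
    have hinj : ∀ a ∈ A, ∀ b ∈ A, a * a = b * b → a = b := by
      intro a ha b hb h
      have key : ∀ c ∈ A, c = (c * c) ^ ((orderOf (c * c) + 1) / 2) := fun c hc => by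
        rw [ho c hc, ← pow_two, ← pow_mul, Nat.mul_div_cancel' ((hodd c hc).add_one.two_dvd),
          pow_succ, pow_orderOf_eq_one, one_mul]
      rw [key a ha, key b hb, h]
    have hmap : ∀ g ∈ A, g * g ∈ A := fun g hg => Finset.mem_filter.2
      ⟨Finset.mem_univ _, by rw [ho g hg]; exact (Finset.mem_filter.1 hg).2⟩
    have himg : A.image (fun g => g * g) = A := Finset.eq_of_subset_of_card_le
      (Finset.image_subset_iff.2 hmap) (by rw [Finset.card_image_of_injOn (fun a ha b hb => hinj a ha b hb)])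
    conv_rhs => rw [← himg, Finset.sum_image (fun a ha b hb => hinj a ha b hb)]
  have hS2 : ∀ g ∈ S, (χ : G → ℂ) (g * g) = (x : ℂ) := fun g hg => by
    rw [show g * g = 1 by rw [← pow_two, ← (Finset.mem_filter.1 hg).2, pow_orderOf_eq_one], hx,
      Lib.Char.apply_one_eq_charDegree (Lib.Char.isCharacter_of_isIrr χ.2)]
  have htot : ∑ g : G, (χ : G → ℂ) (g * g) = ((S.card * x : ℕ) : ℂ) := by
    rw [← Finset.sum_subset (Finset.subset_univ (A ∪ S)) fun g _ hg => by
      rw [Finset.notMem_union] at hg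
      exact hsq g hg.1 hg.2, Finset.sum_union hdis, hA2, hsum0, zero_add, Finset.sum_congr rfl hS2,
      Finset.sum_const, nsmul_eq_mul, Nat.cast_mul]
  obtain ⟨s₀, hs₀⟩ := exists_prime_orderOf_dvd_card' (G := G) 2 heven.two_dvd
  have hSpos : 0 < S.card := Finset.card_pos.2 ⟨s₀, Finset.mem_filter.2 ⟨Finset.mem_univ _, hs₀⟩⟩
  have hν : (Nat.card G : ℂ)⁻¹ * ∑ g : G, (χ : G → ℂ) (g * g) = 1 ∧ Nat.card G = S.card * x := by
    have h := (Lib.Char.fsInd_irr χ.2).1
    simp only [Lib.Char.fsInd] at h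
    rw [htot] at h ⊢
    rcases h with h | h | h
    · exact absurd h (mul_ne_zero (inv_ne_zero (Nat.cast_ne_zero.2 hN0))
        (Nat.cast_ne_zero.2 (Nat.mul_pos hSpos hxpos).ne'))
    · refine ⟨h, ?_⟩
      rw [inv_mul_eq_one₀ (Nat.cast_ne_zero.2 hN0), Nat.cast_inj] at h
      exact h
    · exfalso
      rw [inv_mul_eq_iff_eq_mul₀ (Nat.cast_ne_zero.2 hN0), mul_neg, mul_one,
        eq_neg_iff_add_eq_zero, ← Nat.cast_add, Nat.cast_eq_zero] at h
      have := Nat.mul_pos hSpos hxpos
      omega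
  -- centralisers of involutions
  have hCx : ∀ s : G, orderOf s = 2 → ∀ r : ℕ, r.Prime →
      r ∣ Nat.card (Subgroup.centralizer ({s} : Set G)) → π r := by
    intro s hs r hr hrC
    refine ⟨hr, ?_⟩
    by_cases hr2 : r = 2
    · exact Or.inl hr2
    haveI : Fact r.Prime := ⟨hr⟩
    obtain ⟨y, hy⟩ := exists_prime_orderOf_dvd_card' r hrC
    right
    have hc : Commute s (y : G) := (Subgroup.mem_centralizer_singleton_iff.1 y.2).symm
    refine ⟨s * y, ?_⟩
    rw [hc.orderOf_mul_eq_mul_orderOf_of_coprime (by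
      rw [hs, Subgroup.orderOf_coe, hy]; exact (Nat.coprime_primes Nat.prime_two hr).2 (Ne.symm hr2)),
      hs, Subgroup.orderOf_coe, hy]
  have hCdvd : ∀ s : G, orderOf s = 2 → Nat.card (Subgroup.centralizer ({s} : Set G)) ∣ x := by
    intro s hs
    refine (Nat.factorization_prime_le_iff_dvd Nat.card_pos.ne' hxpos.ne').1 fun r hr => ?_
    by_cases h : r ∣ Nat.card (Subgroup.centralizer ({s} : Set G))
    · refine le_trans ?_ ((hr.pow_dvd_iff_le_factorization hxpos.ne').1 (hfull r (hCx s hs r hr h)))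
      exact (Nat.factorization_le_iff_dvd Nat.card_pos.ne' hN0).2
        (Subgroup.card_subgroup_dvd_card _) r
    · rw [Nat.factorization_eq_zero_of_not_dvd h]; exact Nat.zero_le _
  have hclass : ∀ s : G, orderOf s = 2 → (Finset.univ.filter fun y => IsConj y s) = S ∧
      (Subgroup.centralizer ({s} : Set G)).index = S.card := by
    intro s hs
    have hsub : (Finset.univ.filter fun y => IsConj y s) ⊆ S := by
      intro y hy
      obtain ⟨c, hc⟩ := isConj_iff.1 (Finset.mem_filter.1 hy).2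
      refine Finset.mem_filter.2 ⟨Finset.mem_univ _, ?_⟩
      rw [← hs, ← hc]
      exact (orderOf_injective (MulAut.conj c).toMonoidHom (MulAut.conj c).injective y).symm
    have hle : S.card ≤ (Subgroup.centralizer ({s} : Set G)).index := by
      have h1 := (Subgroup.centralizer ({s} : Set G)).index_mul_card
      have h2' := Nat.le_of_dvd hxpos (hCdvd s hs)
      refine Nat.le_of_mul_le_mul_right ?_ hxpos
      rw [← hν.2, ← h1]
      exact Nat.mul_le_mul_left _ h2'
    have heq := Finset.eq_of_subset_of_card_le hsub (by rwa [Lib.Char.card_conjClass_eq_index])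
    exact ⟨heq, by rw [← Lib.Char.card_conjClass_eq_index, heq]⟩
  have hCeq : ∀ s : G, orderOf s = 2 → Nat.card (Subgroup.centralizer ({s} : Set G)) = x := by
    intro s hs
    have h1 := (Subgroup.centralizer ({s} : Set G)).index_mul_card
    rw [(hclass s hs).2, hν.2] at h1
    exact Nat.eq_of_mul_eq_mul_left hSpos h1
  refine ⟨fun s t hs ht => ?_, fun s hs => ⟨hCeq s hs, ?_⟩, hν.1⟩
  · have : s ∈ (Finset.univ.filter fun y => IsConj y t) :=
      (hclass t ht).1 ▸ Finset.mem_filter.2 ⟨Finset.mem_univ _, hs⟩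
    exact (Finset.mem_filter.1 this).2
  · refine Nat.coprime_of_dvd fun r hr hrC hri => ?_
    have h1 := (Subgroup.centralizer ({s} : Set G)).index_mul_card
    have h3 := (hr.pow_dvd_iff_le_factorization Nat.card_pos.ne').1
      ((hCeq s hs).symm ▸ hfull r (hCx s hs r hr hrC) :
        r ^ (Nat.card G).factorization r ∣ Nat.card (Subgroup.centralizer ({s} : Set G)))
    have h4 : (Nat.card G).factorization r = (Subgroup.centralizer ({s} : Set G)).index.factorization r +
        (Nat.card (Subgroup.centralizer ({s} : Set G))).factorization r := by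
      rw [← h1, Nat.factorization_mul Subgroup.index_ne_zero_of_finite Nat.card_pos.ne']; rfl
    have h5 := Nat.Prime.factorization_pos_of_dvd hr Subgroup.index_ne_zero_of_finite hri
    omega

end Cfsg.Agent.S4478
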