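import Cfsg.Statements.S4480
import Cfsg.Agent.Lib.Char.KleinTriple

set_option autoImplicit false
open Cfsg

namespace Cfsg.Agent.S4480

/-- Same setting as the Klein-four order formula: G of order 4·g₀ (g₀ odd) with no normal 2-complement, P a Sylow 2-subgroup, J an involution of P, M over 2, principal 2-block {1, χ₁, χ₂, χ₃} with χ_i(J) = ε_i = ±1. Suppose ε₁ε₂ε₃ = −1 and ε₃ = −1, and put q = x₃ = χ₃(1). Then there is a natural number m with 4·c(J) = m·c(P)·(q + 1), and the order of G equals (m³·c(P)/4)·(q³ − q)/2, that is 8·#G = m³·c(P)·(q³ − q). -/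
theorem result {G : Type*} [Group G] [Finite G] (M : Ideal Cfsg.AlgInt) (hM : Cfsg.IsPModular 2 M) (g₀ : ℕ) (hg₀ : Odd g₀) (hG : Nat.card G = 4 * g₀) (hnc : ¬ ∃ N : Subgroup G, N.Normal ∧ Nat.card N = g₀) (P : Sylow 2 G) (J : G) (hJ : J ∈ (P : Subgroup G)) (hJ2 : orderOf J = 2) (χ₁ χ₂ χ₃ : Cfsg.IrrCharacter G) (ε₁ ε₂ ε₃ : ℤ) (hB : Cfsg.principalBlock M G = {χ : Cfsg.IrrCharacter G | (χ : G → ℂ) = (fun _ => 1) ∨ χ = χ₁ ∨ χ = χ₂ ∨ χ = χ₃}) (hdist : (χ₁ : G → ℂ) ≠ (fun _ => 1) ∧ (χ₂ : G → ℂ) ≠ (fun _ => 1) ∧ (χ₃ : G → ℂ) ≠ (fun _ => 1) ∧ χ₁ ≠ χ₂ ∧ χ₁ ≠ χ₃ ∧ χ₂ ≠ χ₃) (hε : (ε₁ = 1 ∨ ε₁ = -1) ∧ (ε₂ = 1 ∨ ε₂ = -1) ∧ (ε₃ = 1 ∨ ε₃ = -1)) (hval : (χ₁ : G → ℂ) J = ε₁ ∧ (χ₂ : G → ℂ) J = ε₂ ∧ (χ₃ : G → ℂ) J = ε₃) (hprod : ε₁ * ε₂ * ε₃ = -1) (hε₃ : ε₃ = -1) : ∃ m : ℕ, 4 * Nat.card (Subgroup.centralizer ({J} : Set G)) = m * Nat.card (Subgroup.centralizer ((P : Subgroup G) : Set G)) * (Cfsg.charDegree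 (χ₃ : G → ℂ) + 1) ∧ 8 * Nat.card G = m ^ 3 * Nat.card (Subgroup.centralizer ((P : Subgroup G) : Set G)) * (Cfsg.charDegree (χ₃ : G → ℂ) ^ 3 - Cfsg.charDegree (χ₃ : G → ℂ)) := by
  classical
  haveI := Fintype.ofFinite G
  obtain ⟨o, c, hc0, hco, ho0, hC, hD, ⟨oa, ob, od⟩, hrel, hmain, hfs, hconj⟩ :=
    Lib.Char.klein_triple hM hg₀ hG hnc P hJ hJ2 hB hdist hε hval
  have fa := Lib.Char.charDegree_pos χ₁.2
  have fb := Lib.Char.charDegree_pos χ₂.2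
  have fd := Lib.Char.charDegree_pos χ₃.2
  obtain ⟨u1, u2, u3⟩ := hε
  have he : ε₁ = 1 ∧ ε₂ = 1 := by
    subst hε₃
    rcases u1 with rfl | rfl <;> rcases u2 with rfl | rfl <;> simp_all <;> omega
  obtain ⟨rfl, rfl⟩ := he
  subst hε₃
  obtain ⟨v1, v2, v3⟩ := hval
  -- complex conjugation interchanges the two positive characters
  have hcj : ∀ χ : Cfsg.IrrCharacter G, ∃ ψ : Cfsg.IrrCharacter G,
      (ψ : G → ℂ) = fun g => starRingEnd ℂ ((χ : G → ℂ) g) :=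
    fun χ => ⟨⟨_, Lib.Char.isIrrCharacter_conj χ.2⟩, rfl⟩
  obtain ⟨ψ₁, hψ₁⟩ := hcj χ₁
  obtain ⟨ψ₂, hψ₂⟩ := hcj χ₂
  obtain ⟨ψ₃, hψ₃⟩ := hcj χ₃
  have w1 : (ψ₁ : G → ℂ) J = 1 := by rw [hψ₁]; simp [v1]
  have w2 : (ψ₂ : G → ℂ) J = 1 := by rw [hψ₂]; simp [v2]
  have w3 : (ψ₃ : G → ℂ) J = -1 := by rw [hψ₃]; simp [v3]
  have r3 : ψ₃ = χ₃ := by
    rcases hconj χ₃ (Or.inr (Or.inr rfl)) ψ₃ hψ₃ with h | h | h
    · rw [h, v1] at w3; norm_num at w3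
    · rw [h, v2] at w3; norm_num at w3
    · exact h
  have hab : Cfsg.charDegree (χ₁ : G → ℂ) = Cfsg.charDegree (χ₂ : G → ℂ) := by
    rcases hconj χ₁ (Or.inl rfl) ψ₁ hψ₁ with h | h | h
    · -- all three are real
      exfalso
      rcases hconj χ₂ (Or.inr (Or.inl rfl)) ψ₂ hψ₂ with h' | h' | h'
      · refine hdist.2.2.2.1 (Subtype.ext (funext fun g => ?_))
        have e : starRingEnd ℂ ((χ₁ : G → ℂ) g) = starRingEnd ℂ ((χ₂ : G → ℂ) g) := by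
          rw [← congrFun hψ₁ g, ← congrFun hψ₂ g, h, h']
        exact (starRingEnd ℂ).injective e
      · have real : ∀ {χ ψ : Cfsg.IrrCharacter G}, ψ = χ →
            ((ψ : G → ℂ) = fun g => starRingEnd ℂ ((χ : G → ℂ) g)) →
            ∀ g, ((χ : G → ℂ) g).im = 0 := by
          intro χ ψ e h g
          subst e
          exact Complex.conj_eq_iff_im.1 (congrFun h g).symm
        rw [Lib.Char.fsInd_eq_one_of_odd χ₁.2 (real h hψ₁) oa,
          Lib.Char.fsInd_eq_one_of_odd χ₂.2 (real h' hψ₂) ob,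
          Lib.Char.fsInd_eq_one_of_odd χ₃.2 (real r3 hψ₃) od] at hfs
        norm_num at hfs
      · rw [h', v3] at w2; norm_num at w2
    · have e : (χ₂ : G → ℂ) 1 = (χ₁ : G → ℂ) 1 := by
        rw [← h, hψ₁]
        show starRingEnd ℂ ((χ₁ : G → ℂ) 1) = _
        rw [Lib.Block.irr_one_eq_natCast, map_natCast]
      rw [Lib.Block.irr_one_eq_natCast, Lib.Block.irr_one_eq_natCast, Nat.cast_inj] at e
      exact e.symm
    · rw [h, v3] at w1; norm_num at w1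
  rw [← hab] at hrel hmain
  set f := Cfsg.charDegree (χ₁ : G → ℂ)
  set g := Cfsg.charDegree (χ₃ : G → ℂ)
  have hg : g = 2 * f + 1 := by push_cast at hrel; omega
  obtain ⟨i, hi⟩ := oa
  set h := i + 1 with hh
  have hf : f + 1 = 2 * h := by omega
  have hf3 : g + 1 = 4 * h := by omega
  obtain ⟨a, rfl⟩ := hco
  -- `|G| h² = 4 a³ c f g`
  have key : Nat.card G * h ^ 2 = 4 * a ^ 3 * c * f * g := by
    have hfz : (f : ℤ) + 1 = 2 * (h : ℤ) := by exact_mod_cast hf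
    have hgz : (g : ℤ) + -1 = 2 * (f : ℤ) := by push_cast [hg]; ring
    rw [hfz, hgz] at hmain
    push_cast at hmain
    have e : ((8 * f * c ^ 2 : ℕ) : ℤ) * ((Nat.card G * h ^ 2 : ℕ) : ℤ) =
        ((8 * f * c ^ 2 : ℕ) : ℤ) * ((4 * a ^ 3 * c * f * g : ℕ) : ℤ) := by
      push_cast; linear_combination hmain
    exact_mod_cast mul_left_cancel₀ (by
      have : 0 < f := fa
      have h' : (0 : ℕ) < 8 * f * c ^ 2 := by positivity
      exact_mod_cast h'.ne') e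
  have hidx := (Subgroup.centralizer ({J} : Set G)).card_mul_index
  rw [hC] at hidx
  set K := (Subgroup.centralizer ({J} : Set G)).index
  have ha0 : 0 < a := Nat.pos_of_mul_pos_left ho0
  have key2 : K * h ^ 2 = a ^ 2 * (f * g) := by
    rw [← hidx] at key
    have : 4 * c * a * (K * h ^ 2) = 4 * c * a * (a ^ 2 * (f * g)) := by
      rw [show 4 * c * a * (K * h ^ 2) = 4 * (c * a) * K * h ^ 2 by ring, key]; ring
    exact Nat.eq_of_mul_eq_mul_left (by positivity) this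
  have cf : Nat.Coprime h f := by
    have e : f + 1 = 2 * h := hf
    refine Nat.coprime_of_dvd fun k hk h1 h2 => hk.ne_one ?_
    have : k ∣ f + 1 := e ▸ h1.mul_left 2
    exact Nat.dvd_one.1 ((Nat.dvd_add_right h2).1 this)
  have cg : Nat.Coprime h g := by
    refine Nat.coprime_of_dvd fun k hk h1 h2 => hk.ne_one ?_
    have : k ∣ g + 1 := hf3 ▸ h1.mul_left 4
    exact Nat.dvd_one.1 ((Nat.dvd_add_right h2).1 this)
  have hd : h ^ 2 ∣ a ^ 2 :=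
    ((cf.mul_right cg).pow_left 2).dvd_of_dvd_mul_right ⟨K, by rw [← key2]; ring⟩
  obtain ⟨t, rfl⟩ := (Nat.pow_dvd_pow_iff two_ne_zero).1 hd
  refine ⟨t, ?_, ?_⟩
  · rw [hC, hD, hf3]; ring
  · rw [hD]
    have hcube : g ^ 3 - g = g * (2 * f) * (4 * h) := by
      have e : g ^ 3 = g * (2 * f) * (4 * h) + g := by
        rw [← hf3, hg]; ring
      omega
    rw [hcube]
    have hp : 0 < h := by omega
    refine Nat.eq_of_mul_eq_mul_left (pow_pos hp 2) ?_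
    rw [show h ^ 2 * (8 * Nat.card G) = 8 * (Nat.card G * h ^ 2) by ring, key]
    ring

end Cfsg.Agent.S4480
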