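import Cfsg.Statements.S4481
import Cfsg.Agent.Lib.Char.DihedralBlockMain

set_option autoImplicit false
open Cfsg

namespace Cfsg.Agent.S4481

/-- The principal 2-block of a group with dihedral Sylow 2-subgroups. Let G be a finite group whose Sylow 2-subgroup P is dihedral of order 2^n ≥ 8, let σ be an element of P of order 2^(n−1), ζ a primitive 2^(n−1)-th root of unity, and M a maximal ideal of the algebraic integers containing 2. Then the principal 2-block consists of exactly 3 + 2^(n−2) irreducible characters, which can be labelled 1, χ₁, χ₂, χ₃ and χ^(j) for 1 ≤ j ≤ 2^(n−2) − 1 (all distinct), with signs δ₁, δ₂, δ₃ such that for 0 < λ < 2^(n−1): χ₁(σ^λ) = δ₁, χ₂(σ^λ) = δ₂(−1)^(λ+1), χ₃(σ^λ) = δ₃(−1)^(λ+1) and χ^(j)(σ^λ) = δ₁(ζ^(jλ) + ζ^(−jλ)); and for every element ρ of odd order and every j: 1 + δ₁χ₁(ρ) = −δ₂χ₂(ρ) − δ₃χ₃(ρ) = δ₁χ^(j)(ρ). -/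
theorem result {G : Type*} [Group G] [Finite G] (M : Ideal Cfsg.AlgInt) (hM : Cfsg.IsPModular 2 M) (n : ℕ) (hn : 3 ≤ n) (P : Sylow 2 G) (hP : Nonempty ((P : Subgroup G) ≃* DihedralGroup (2 ^ (n - 1)))) (σ : G) (hσ : σ ∈ (P : Subgroup G)) (hσo : orderOf σ = 2 ^ (n - 1)) (ζ : ℂ) (hζ : IsPrimitiveRoot ζ (2 ^ (n - 1))) : Nat.card (Cfsg.principalBlock M G) = 3 + 2 ^ (n - 2) ∧ ∃ (χ₁ χ₂ χ₃ : Cfsg.IrrCharacter G) (χ' : Fin (2 ^ (n - 2) - 1) → Cfsg.IrrCharacter G) (δ₁ δ₂ δ₃ : ℤ), (δ₁ = 1 ∨ δ₁ = -1) ∧ (δ₂ = 1 ∨ δ₂ = -1) ∧ (δ₃ = 1 ∨ δ₃ = -1) ∧ Function.Injective χ' ∧ (χ₁ : G → ℂ) ≠ (fun _ => 1) ∧ (χ₂ : G → ℂ) ≠ (fun _ => 1) ∧ (χ₃ : G → ℂ) ≠ (fun _ => 1) ∧ χ₁ ≠ χ₂ ∧ χ₁ ≠ χ₃ ∧ χ₂ ≠ χ₃ ∧ (∀ j, χ' j ≠ χ₁ ∧ χ' j ≠ χ₂ ∧ χ' j ≠ χ₃ ∧ (χ' j : G → ℂ) ≠ (fun _ => 1)) ∧ Cfsg.principalBlock M G = {χ : Cfsg.IrrCharacter G | (χ : G → ℂ) = (fun _ => 1) ∨ χ = χ₁ ∨ χ = χ₂ ∨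 χ = χ₃ ∨ ∃ j, χ = χ' j} ∧ (∀ l : ℕ, 0 < l → l < 2 ^ (n - 1) → (χ₁ : G → ℂ) (σ ^ l) = δ₁ ∧ (χ₂ : G → ℂ) (σ ^ l) = δ₂ * (-1) ^ (l + 1) ∧ (χ₃ : G → ℂ) (σ ^ l) = δ₃ * (-1) ^ (l + 1) ∧ ∀ j : Fin (2 ^ (n - 2) - 1), (χ' j : G → ℂ) (σ ^ l) = δ₁ * (ζ ^ (((j : ℕ) + 1) * l) + (ζ ^ (((j : ℕ) + 1) * l))⁻¹)) ∧ ∀ ρ : G, Odd (orderOf ρ) → ∀ j : Fin (2 ^ (n - 2) - 1), 1 + δ₁ * (χ₁ : G → ℂ) ρ = -δ₂ * (χ₂ : G → ℂ) ρ - δ₃ * (χ₃ : G → ℂ) ρ ∧ 1 + δ₁ * (χ₁ : G → ℂ) ρ = δ₁ * (χ' j : G → ℂ) ρ := by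
  classical
  obtain ⟨e⟩ := hP
  set N := 2 ^ (n - 1) with hN
  have hN4 : 4 ≤ N := by
    rw [hN]
    exact le_trans (le_of_eq (by norm_num : 4 = 2 ^ 2)) (Nat.pow_le_pow_right (by norm_num) (by omega))
  have hσe : orderOf (e ⟨σ, hσ⟩) = N := by
    rw [MulEquiv.orderOf_eq, Subgroup.orderOf_mk, hσo]
  obtain ⟨i, hi⟩ : ∃ i, e ⟨σ, hσ⟩ = DihedralGroup.r i := by
    cases hx : e ⟨σ, hσ⟩ with
    | r i => exact ⟨i, rfl⟩
    | sr i =>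
      rw [hx, DihedralGroup.orderOf_sr] at hσe
      omega
  set t : (P : Subgroup G) := e.symm (DihedralGroup.sr 0) with ht
  have hto : orderOf (t : G) = 2 := by
    rw [Subgroup.orderOf_coe, ht, MulEquiv.orderOf_eq, DihedralGroup.orderOf_sr]
  have hrel : (t : G) * σ * (t : G)⁻¹ = σ⁻¹ := by
    have h : t * ⟨σ, hσ⟩ * t⁻¹ = (⟨σ, hσ⟩ : (P : Subgroup G))⁻¹ := by
      apply e.injective
      simp only [map_mul, map_inv, ht, MulEquiv.apply_symm_apply, hi, DihedralGroup.sr_mul_r,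
        DihedralGroup.inv_sr, DihedralGroup.sr_mul_sr, DihedralGroup.inv_r]
      congr 1
      ring
    exact congrArg Subtype.val h
  have hgen : Subgroup.closure ({σ, (t : G)} : Set G) = (P : Subgroup G) := by
    haveI : NeZero N := ⟨by omega⟩
    have hle : Subgroup.closure ({σ, (t : G)} : Set G) ≤ (P : Subgroup G) := by
      rw [Subgroup.closure_le]
      rintro x (rfl | rfl)
      exacts [hσ, t.2]
    refine le_antisymm hle ?_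
    have h1 : Subgroup.zpowers σ ≤ Subgroup.closure ({σ, (t : G)} : Set G) :=
      Subgroup.zpowers_le.2 (Subgroup.subset_closure (by simp))
    have hc1 : N ∣ Nat.card (Subgroup.closure ({σ, (t : G)} : Set G)) := by
      have := Subgroup.card_dvd_of_le h1
      rwa [Nat.card_zpowers, hσo] at this
    have hc2 : Nat.card (P : Subgroup G) = 2 * N := by
      rw [Nat.card_congr e.toEquiv, DihedralGroup.nat_card]
    have hc3 := Subgroup.card_dvd_of_le hle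
    rw [hc2] at hc3
    have hne : Nat.card (Subgroup.closure ({σ, (t : G)} : Set G)) ≠ N := by
      intro h
      have heq := Subgroup.eq_of_le_of_card_ge h1 (by rw [h, Nat.card_zpowers, hσo])
      have ht' : (t : G) ∈ Subgroup.zpowers σ := heq ▸ Subgroup.subset_closure (by simp)
      obtain ⟨k, hk⟩ := ht'
      dsimp only at hk
      have h2 : (t : G) * σ * (t : G)⁻¹ = σ := by rw [← hk]; group
      rw [hrel, inv_eq_iff_mul_eq_one, ← pow_two] at h2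
      have := Nat.le_of_dvd (by norm_num) (orderOf_dvd_of_pow_eq_one h2)
      omega
    obtain ⟨q, hq⟩ := hc1
    obtain ⟨q', hq'⟩ := hc3
    rw [hq] at hq' hne
    have hqq : q * q' = 2 :=
      Nat.eq_of_mul_eq_mul_left (show 0 < N by omega) (by rw [← mul_assoc]; linarith)
    have hq2 : q = 2 := by
      rcases (Nat.dvd_prime Nat.prime_two).1 ⟨q', hqq.symm⟩ with h | h
      · exact absurd (by rw [h, mul_one]) hne
      · exact h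
    exact (Subgroup.eq_of_le_of_card_ge hle (by rw [hc2, hq, hq2, mul_comm])).ge
  obtain ⟨D⟩ := Cfsg.Agent.Lib.Char.DihBlock.exists_centData M hM n hn P σ (t : G) hσ t.2 hσo hto
    hrel hgen ζ hζ
  exact Cfsg.Agent.Lib.Char.DihBlock.main hM hn hσo hζ D

end Cfsg.Agent.S4481
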