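import Cfsg.Statements.S4482
import Cfsg.Agent.Lib.Char.DihedralCentral
import Cfsg.Agent.Lib.Involution.Exceptional
import Cfsg.Agent.Lib.Involution.PrincipalSection
import Cfsg.Agent.Lib.Block.FirstMain
import Cfsg.Agent.Lib.CharAux

set_option autoImplicit false
open Cfsg

namespace Cfsg.Agent.S4482

/-- An order formula for groups with dihedral Sylow 2-subgroups and one class of involutions. Let G be a finite group whose Sylow 2-subgroup P = ⟨σ, τ⟩ is dihedral of order 2^n ≥ 8 (σ of order 2^(n−1), τ an involution inverting σ), let J be the central involution σ^(2^(n−2)), and suppose J, τ and στ are conjugate in G. Fix M over 2 and let χ₁ be an irreducible character in the principal 2-block taking one constant value δ₁ = ±1 at every non-identity power of σ, with χ₁ ≠ 1. Then, with x₁ = χ₁(1) and c(·) denoting orders of centralizers, x₁ ≠ δ₁ and #G · (x₁ − δ₁)² = 2·x₁(x₁ + δ₁)·c(J)³·(1/c(J, τ) + 1/c(J, στ))², where c(J, y) is the order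 of the joint centralizer of J and y. -/
theorem result {G : Type*} [Group G] [Finite G] (M : Ideal Cfsg.AlgInt) (hM : Cfsg.IsPModular 2 M) (n : ℕ) (hn : 3 ≤ n) (P : Sylow 2 G) (σ τ : G) (hσ : σ ∈ (P : Subgroup G)) (hτ : τ ∈ (P : Subgroup G)) (hσo : orderOf σ = 2 ^ (n - 1)) (hτo : orderOf τ = 2) (hrel : τ * σ * τ⁻¹ = σ⁻¹) (hgen : Subgroup.closure ({σ, τ} : Set G) = (P : Subgroup G)) (hconj : IsConj (σ ^ (2 ^ (n - 2))) τ ∧ IsConj (σ ^ (2 ^ (n - 2))) (σ * τ)) (χ₁ : Cfsg.IrrCharacter G) (hχ₁ : χ₁ ∈ Cfsg.principalBlock M G) (h1 : (χ₁ : G → ℂ) ≠ (fun _ => 1)) (δ₁ : ℤ) (hδ₁ : δ₁ = 1 ∨ δ₁ = -1) (hval : ∀ l : ℕ, 0 < l → l < 2 ^ (n - 1) → (χ₁ : G → ℂ) (σ ^ l) = δ₁) : (Cfsg.charDegree (χ₁ : G → ℂ) : ℤ) ≠ δ₁ ∧ (Nat.card G : ℚ) * ((Cfsg.charDegree (χ₁ : G → ℂ) : ℚ) - δ₁) ^ 2 = 2 * (Cfsg.charDegree (χ₁ : G → ℂ) : ℚ) * ((Cfsg.charDegree (χ₁ : G → ℂ) : ℚ) + δ₁) * (Nat.card (Subgroup.centralizer ({σ ^ (2 ^ (n - 2))} : Set G)) : ℚ) ^ 3 * (1 / (Nat.card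 (Subgroup.centralizer ({σ ^ (2 ^ (n - 2)), τ} : Set G)) : ℚ) + 1 / (Nat.card (Subgroup.centralizer ({σ ^ (2 ^ (n - 2)), σ * τ} : Set G)) : ℚ)) ^ 2 := by
  classical
  haveI := Fintype.ofFinite G
  haveI : Fact (Nat.Prime 2) := ⟨Nat.prime_two⟩
  set N := 2 ^ (n - 1) with hN
  set z : G := σ ^ 2 ^ (n - 2) with hzdef
  have hN2 : N = 2 * 2 ^ (n - 2) := by rw [hN, ← pow_succ']; congr 1; omega
  have hN4 : 4 ≤ N := by
    rw [hN]
    exact le_trans (le_of_eq (by norm_num : 4 = 2 ^ 2)) (Nat.pow_le_pow_right (by norm_num) (by omega))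
  have hzo : orderOf z = 2 := by
    rw [hzdef, orderOf_pow' _ (by positivity), hσo, Nat.gcd_eq_right ⟨2, by rw [hN2]; ring⟩,
      hN2, Nat.mul_div_cancel _ (by positivity)]
  have hzi : z⁻¹ = z := Lib.Involution.inv_self hzo
  have hτi : τ⁻¹ = τ := Lib.Involution.inv_self hτo
  have hτz : τ * z = z * τ := by
    have e : τ * z * τ⁻¹ = z := by rw [hzdef, ← conj_pow, hrel, inv_pow]; exact hzi
    exact mul_inv_eq_iff_eq_mul.1 e
  set C := Subgroup.centralizer ({z} : Set G) with hC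
  haveI := Fintype.ofFinite C
  have hσC : σ ∈ C := Subgroup.mem_centralizer_singleton_iff.2 (Commute.self_pow σ _).eq
  have hτC : τ ∈ C := Subgroup.mem_centralizer_singleton_iff.2 hτz
  have hPC : (P : Subgroup G) ≤ C := by
    rw [← hgen, Subgroup.closure_le]
    rintro x (rfl | rfl)
    exacts [hσC, hτC]
  set S := P.subtype hPC
  set s : C := ⟨σ, hσC⟩ with hs
  set t : C := ⟨τ, hτC⟩ with ht
  have hSmem : ∀ x : C, x ∈ (S : Subgroup C) ↔ (x : G) ∈ (P : Subgroup G) := fun x => Iff.rfl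
  have hso : orderOf s = N := by rw [← Subgroup.orderOf_coe]; exact hσo
  have hto : orderOf t = 2 := by rw [← Subgroup.orderOf_coe]; exact hτo
  have hrel' : t * s * t⁻¹ = s⁻¹ := Subtype.ext hrel
  have hgen' : Subgroup.closure ({s, t} : Set C) = (S : Subgroup C) := by
    refine Subgroup.map_injective C.subtype_injective ?_
    rw [MonoidHom.map_closure, Set.image_pair]
    refine hgen.trans ?_
    ext x
    exact ⟨fun h => ⟨⟨x, hPC h⟩, h, rfl⟩, fun ⟨_, h, e⟩ => e ▸ h⟩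
  set zc : C := s ^ 2 ^ (n - 2) with hzc
  have hzcG : (zc : G) = z := by simp [hzc, hs, hzdef]
  have hcomm : ∀ c : C, Commute c zc := fun c => Subtype.ext (by
    rw [Subgroup.coe_mul, Subgroup.coe_mul, hzcG]
    exact Subgroup.mem_centralizer_singleton_iff.1 c.2)
  have hzco : orderOf zc = 2 := by rw [← Subgroup.orderOf_coe, hzcG, hzo]
  have htt : t * t = 1 := Lib.Involution.mul_self hto
  have hti : t⁻¹ = t := Lib.Involution.inv_self hto
  obtain ⟨C0, hs0, l, hidx, ht0, hS0, hprim, hexi, hker, hcardσ, hK0⟩ :=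
    Lib.Char.DihC.exists_hom S hn (show s ∈ (S : Subgroup C) from hσ)
      (show t ∈ (S : Subgroup C) from hτ) hso hto hrel' hgen' hcomm
  haveI : C0.Normal := Subgroup.normal_of_index_eq_two hidx
  set u : ℂˣ := l ⟨s, hs0⟩ with hu
  have hcj : ∀ c : C, ∀ d ∈ C0, c * d * c⁻¹ ∈ C0 := fun c d hd =>
    Subgroup.Normal.conj_mem inferInstance d hd c
  have hlN : ∀ c, l c ^ N = 1 := fun c => by
    obtain ⟨i, hi⟩ := hexi c
    rw [hi, ← pow_mul, mul_comm, pow_mul]
    rw [show u ^ N = 1 from Units.ext (by rw [Units.val_pow_eq_pow_val]; exact hprim.pow_eq_one),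
      one_pow]
  have hodd1 : ∀ c : C0, ¬ 2 ∣ orderOf c → l c = 1 := by
    intro c hc
    rw [← orderOf_eq_one_iff]
    exact Nat.eq_one_of_dvd_coprimes
      (((Nat.prime_two.coprime_iff_not_dvd).2 hc).pow_left _ : N.Coprime (orderOf c))
      (orderOf_dvd_of_pow_eq_one (hlN c)) (orderOf_map_dvd l c)
  have hkord : ∀ (v : C) (hv : v ∈ C0), l ⟨v, hv⟩ = 1 → orderOf v ∣ Nat.card l.ker := by
    intro v hv h
    have := orderOf_dvd_natCard (⟨⟨v, hv⟩, h⟩ : l.ker)
    rwa [← Subgroup.orderOf_coe, ← Subgroup.orderOf_coe] at this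
  have hinv : ∀ (c : C0) (h : t * (c : C) * t⁻¹ ∈ C0), l ⟨_, h⟩ = (l c)⁻¹ := by
    intro c h
    obtain ⟨i, hi⟩ := hexi c
    set v : C0 := (⟨s, hs0⟩ ^ i)⁻¹ * c with hv
    have hvk : v ∈ l.ker := by
      rw [MonoidHom.mem_ker, hv, map_mul, map_inv, map_pow, hi, inv_mul_cancel]
    have hvo : ¬ 2 ∣ orderOf v := fun hd => hker (hd.trans
      (Subgroup.orderOf_mk v hvk ▸ orderOf_dvd_natCard (⟨v, hvk⟩ : l.ker)))
    have e : (⟨_, h⟩ : C0) = ((⟨s, hs0⟩ : C0) ^ i)⁻¹ * ⟨_, hcj t _ v.2⟩ := Subtype.ext (by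
      have e1 : (c : C) = s ^ i * (v : C) := by simp [hv]
      have e2 : t * s ^ i * t⁻¹ = (s ^ i)⁻¹ := by rw [← conj_pow, hrel', inv_pow]
      simp only [Subgroup.coe_mul, Subgroup.coe_inv, SubgroupClass.coe_pow]
      rw [← e2, e1]; group)
    rw [e, map_mul, map_inv, map_pow, ← hi, hodd1 ⟨_, hcj t _ v.2⟩ (by
      rw [← Subgroup.orderOf_coe]
      show ¬ 2 ∣ orderOf (t * (v : C) * t⁻¹)
      rwa [Lib.Involution.orderOf_conj, Subgroup.orderOf_coe]), mul_one]
  have hu1 : ∀ i : ℕ, u ^ i = 1 ↔ N ∣ i := fun i => by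
    rw [← Units.val_eq_one, Units.val_pow_eq_pow_val]
    exact hprim.pow_eq_one_iff_dvd i
  obtain ⟨β, hβgen, hβ1, hβn, hβone, hβcf, hβin, hβout⟩ := Lib.Involution.exists_beta C0 hidx l
    ht0 hinv
    ⟨⟨s, hs0⟩, fun h => by
      have := Nat.le_of_dvd one_pos ((hu1 1).1 (by rw [pow_one]; exact h)); omega⟩
    ⟨⟨s, hs0⟩, fun h => by
      have := Nat.le_of_dvd two_pos ((hu1 2).1 (by rw [pow_two]; exact h)); omega⟩
  -- the support
  have hsupp : ∀ c : C, β c ≠ 0 → ∃ (i : ℕ) (d v : C), c = d * (s ^ i * v) * d⁻¹ ∧ ¬ N ∣ i ∧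
      Commute v (s ^ i) ∧ ∃ hv : v ∈ C0, l ⟨v, hv⟩ = 1 := by
    intro c hc
    have hc0 : c ∈ C0 := by
      by_contra h; exact hc (hβout c h)
    set g : C0 := ⟨c, hc0⟩ with hg
    have hlg : l g ≠ 1 := fun h => hc (by rw [show c = ((g : C0) : C) from rfl, hβin, h]; simp; norm_num)
    obtain ⟨x, y, hxy, hcxy, hxp, hy⟩ := Lib.Block.exists_isPPart (p := 2) g
    have hly : l y = 1 := hodd1 y hy
    have hp : IsPGroup 2 (Subgroup.zpowers x) := Lib.Block.IsPElem.isPGroup_zpowers hxp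
    let S0 : Sylow 2 C0 := Sylow.ofCard ((Subgroup.zpowers s).subgroupOf C0) (by
      have h1 := ((Subgroup.zpowers s).subgroupOf C0).card_mul_index
      rw [Nat.card_congr (Subgroup.subgroupOfEquivOfLe (Subgroup.zpowers_le.2 hs0)).toEquiv, hcardσ] at h1 ⊢
      rw [← h1, Nat.factorization_mul (by omega) Subgroup.index_ne_zero_of_finite, Finsupp.add_apply,
        Nat.factorization_eq_zero_of_not_dvd hK0, Nat.prime_two.factorization_pow,
        Finsupp.single_eq_same, add_zero])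
    obtain ⟨Q, hQ⟩ := hp.exists_le_sylow
    obtain ⟨e, he⟩ := MulAction.exists_smul_eq C0 Q S0
    have hm : e * x * e⁻¹ ∈ (S0 : Subgroup C0) := by
      rw [← he, Sylow.coe_subgroup_smul]
      exact Subgroup.smul_mem_pointwise_smul _ (MulAut.conj e) _ (hQ (Subgroup.mem_zpowers _))
    have hm' : ((e * x * e⁻¹ : C0) : C) ∈ Subgroup.zpowers s := hm
    obtain ⟨i, hi⟩ := mem_powers_iff_mem_zpowers.2 hm'
    dsimp only at hi
    have hii : e * x * e⁻¹ = (⟨s, hs0⟩ : C0) ^ i := Subtype.ext (by rw [SubgroupClass.coe_pow, ← hi])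
    refine ⟨i, ((e⁻¹ : C0) : C), ((e * y * e⁻¹ : C0) : C), ?_, ?_, ?_, (e * y * e⁻¹).2, ?_⟩
    · rw [show c = ((g : C0) : C) from rfl, ← hxy, hi]
      simp only [Subgroup.coe_mul, Subgroup.coe_inv]
      group
    · intro hd
      apply hlg
      have : l (e * x * e⁻¹) = 1 := by rw [hii, map_pow]; exact (hu1 i).2 hd
      rw [map_mul, map_mul, map_inv, mul_comm (l e), mul_inv_cancel_right] at this
      rw [← hxy, map_mul, this, hly, one_mul]
    · rw [hi]
      show _ = _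
      rw [← Subgroup.coe_mul, ← Subgroup.coe_mul]
      exact congrArg Subtype.val ((hcxy.symm.map (MulAut.conj e).toMonoidHom).eq)
    · show l (e * y * e⁻¹) = 1
      rw [map_mul, map_mul, map_inv, hly, mul_one, mul_inv_cancel]
  have hzc_zp : ∀ i : ℕ, ¬ N ∣ i → zc ∈ Subgroup.zpowers (s ^ i) := by
    intro i hi
    have hd : orderOf (s ^ i) ∣ 2 ^ (n - 1) := hN ▸ hso ▸ orderOf_pow_dvd i
    obtain ⟨k, -, hk⟩ := (Nat.dvd_prime_pow Nat.prime_two).1 hd
    obtain ⟨w, hw⟩ := exists_prime_orderOf_dvd_card' (G := Subgroup.zpowers (s ^ i)) 2 (by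
      rw [Nat.card_zpowers, hk]
      refine dvd_pow_self 2 fun h0 => hi ?_
      rw [h0, pow_zero, orderOf_eq_one_iff] at hk
      rw [← hso]; exact orderOf_dvd_iff_pow_eq_one.2 hk)
    rw [← Subgroup.orderOf_coe] at hw
    have e : zc = (w : C) := Lib.Char.DihC.involution_unique (g := s)
      (pow_mem (Subgroup.mem_zpowers s) _)
      ((Subgroup.zpowers_le.2 (pow_mem (Subgroup.mem_zpowers s) i)) w.2) hzco hw
    rw [e]
    exact w.2
  have hzsupp : ∀ c : C, β c ≠ 0 → z ∈ Subgroup.zpowers (c : G) := by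
    intro c hc
    obtain ⟨i, d, v, rfl, hi, hvs, hv, hlv⟩ := hsupp c hc
    have hvo : ¬ 2 ∣ orderOf v := fun hd => hker (hd.trans (hkord v hv hlv))
    have hmem := (Lib.Block.exists_pow_of_parts rfl hvs.symm
      ⟨_, ((Nat.dvd_prime_pow Nat.prime_two).1 (hN ▸ hso ▸ orderOf_pow_dvd i)).choose_spec.2⟩ hvo).1
    have h1 : d * zc * d⁻¹ ∈ Subgroup.zpowers (d * (s ^ i * v) * d⁻¹) := by
      obtain ⟨j, hj⟩ := (Subgroup.zpowers_le.2 hmem) (hzc_zp i hi)
      exact ⟨j, by dsimp only at hj ⊢; rw [conj_zpow, hj]⟩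
    rw [(hcomm d).eq, mul_inv_cancel_right] at h1
    obtain ⟨j, hj⟩ := h1
    exact ⟨j, by rw [← hzcG, ← hj, Subgroup.coe_zpow]⟩
  have hinvC0 : ∀ c : C, orderOf c = 2 → c ∈ C0 → c = zc := by
    intro c hc hc0
    have hne : β c ≠ 0 := by
      rw [show c = ((⟨c, hc0⟩ : C0) : C) from rfl, hβin]
      have hsq : l ⟨c, hc0⟩ * l ⟨c, hc0⟩ = 1 := by
        rw [← map_mul, show (⟨c, hc0⟩ : C0) * ⟨c, hc0⟩ = 1 from
          Subtype.ext (Lib.Involution.mul_self hc), map_one]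
      have h2 : ((l ⟨c, hc0⟩ : ℂˣ) : ℂ) * ((l ⟨c, hc0⟩ : ℂˣ) : ℂ) = 1 := by
        rw [← Units.val_mul, hsq, Units.val_one]
      rw [inv_eq_of_mul_eq_one_left hsq]
      rcases mul_self_eq_one_iff.1 h2 with h | h
      · exfalso
        have hk : (⟨c, hc0⟩ : C0) ∈ l.ker := Units.val_eq_one.1 h
        have h3 := orderOf_dvd_natCard (⟨_, hk⟩ : l.ker)
        rw [Subgroup.orderOf_mk, Subgroup.orderOf_mk, hc] at h3
        exact hker h3
      · rw [h]; norm_num
    have := hzsupp c hne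
    exact Subtype.ext ((Lib.Char.DihC.involution_unique (Subgroup.mem_zpowers (c : G)) this
      (by rwa [Subgroup.orderOf_coe]) hzo).trans hzcG.symm)
  -- values of the given character
  have hχc : ∀ c : C, β c ≠ 0 → (χ₁ : G → ℂ) (c : G) = δ₁ := by
    intro c hc
    obtain ⟨i, d, v, rfl, hi, hvs, hv, hlv⟩ := hsupp c hc
    have hcf := Lib.Char.isClassFunction_of_isIrr χ₁.2
    rw [Subgroup.coe_mul, Subgroup.coe_mul, Subgroup.coe_mul, Subgroup.coe_inv, hcf,
      SubgroupClass.coe_pow]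
    show (χ₁ : G → ℂ) (σ ^ i * (v : G)) = δ₁
    have hxp : ∃ k : ℕ, orderOf (σ ^ i) = 2 ^ k := by
      obtain ⟨k, -, hk⟩ := (Nat.dvd_prime_pow Nat.prime_two).1 (hσo ▸ orderOf_pow_dvd (x := σ) i)
      exact ⟨k, hk⟩
    rw [Lib.Involution.value_mul_core hM hxp ?_ hχ₁, ← pow_mod_orderOf, hσo]
    · exact hval _ (Nat.pos_of_ne_zero fun h => hi (Nat.dvd_of_mod_eq_zero h))
        (Nat.mod_lt _ (by positivity))
    -- `v` lies in the core of the centraliser of the power
    set X := Subgroup.centralizer ({σ ^ i} : Set G) with hX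
    have hXC : X ≤ C := by
      intro g hg
      obtain ⟨j, hj⟩ := hzc_zp i hi
      have e : (σ ^ i) ^ j = z := by rw [← hzcG, ← hj]; simp [hs]
      refine Subgroup.mem_centralizer_singleton_iff.2 ?_
      rw [← e]
      exact ((show Commute g (σ ^ i) from Subgroup.mem_centralizer_singleton_iff.1 hg).zpow_right j).eq
    set K : Subgroup X := ((l.ker.map C0.subtype).map C.subtype).subgroupOf X with hK
    have hKmem : ∀ g : X, g ∈ K ↔ ∃ h0 : (⟨g, hXC g.2⟩ : C) ∈ C0, l ⟨_, h0⟩ = 1 := by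
      intro g
      simp only [hK, Subgroup.mem_subgroupOf, Subgroup.mem_map, Subgroup.coe_subtype,
        MonoidHom.mem_ker]
      constructor
      · rintro ⟨w, ⟨w', hw', rfl⟩, hw⟩
        have e : (⟨g, hXC g.2⟩ : C) = w' := Subtype.ext hw.symm
        exact ⟨e ▸ w'.2, by convert hw'⟩
      · rintro ⟨h0, h1⟩
        exact ⟨_, ⟨⟨_, h0⟩, h1, rfl⟩, rfl⟩
    haveI hKn : K.Normal := ⟨fun a ha b => by
      obtain ⟨ha0, ha1⟩ := (hKmem a).1 ha
      rw [hKmem]
      refine ⟨hcj ⟨b, hXC b.2⟩ _ ha0, ?_⟩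
      refine hodd1 _ fun hd => hker (hd.trans ?_)
      refine dvd_trans (dvd_of_eq ?_) (hkord _ ha0 ha1)
      rw [← Subgroup.orderOf_coe]
      exact Lib.Involution.orderOf_conj (⟨b, hXC b.2⟩ : C) ⟨a, hXC a.2⟩⟩
    have hKc : (Nat.card K).Coprime 2 := by
      rw [Nat.coprime_comm, Nat.prime_two.coprime_iff_not_dvd]
      intro hd
      obtain ⟨⟨w, hwK⟩, hw⟩ := exists_prime_orderOf_dvd_card' (G := K) 2 hd
      obtain ⟨h0, h1⟩ := (hKmem w).1 hwK
      have := hkord _ h0 h1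
      rw [← Subgroup.orderOf_coe] at this
      rw [← Subgroup.orderOf_coe, ← Subgroup.orderOf_coe] at hw
      exact hker (hw ▸ this)
    have hvX : (v : G) ∈ X := Subgroup.mem_centralizer_singleton_iff.2 (by
      have := congrArg Subtype.val hvs.eq
      simpa [hs] using this)
    exact ⟨⟨v, hvX⟩, Lib.Hall.le_pPrimeCore hKc ((hKmem _).2 ⟨hv, hlv⟩), rfl⟩
  -- the induced virtual character
  set Ψ := Cfsg.indFun C β with hΨ
  have hΨgen := Lib.Involution.isGeneralized_indFun C hβgen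
  have hext : ∀ w : G, ∀ c : C, β c ≠ 0 → Cfsg.extendByZero C β (w⁻¹ * (c : G) * w) =
      if w ∈ C then β c else 0 := by
    intro w c hc
    by_cases hw : w ∈ C
    · rw [if_pos hw, show w⁻¹ * (c : G) * w = ((⟨w, hw⟩⁻¹ * c * ⟨w, hw⟩⁻¹⁻¹ : C) : G) by simp,
        Lib.Char.extendByZero_coe, hβcf]
    · rw [if_neg hw]
      by_cases hm : w⁻¹ * (c : G) * w ∈ C
      · rw [Lib.Char.extendByZero_mem C β hm]
        by_contra hne
        obtain ⟨j, hj⟩ := hzsupp c hc
        have h1 : w⁻¹ * z * w ∈ Subgroup.zpowers (w⁻¹ * (c : G) * w) :=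
          ⟨j, by dsimp only at hj ⊢; rw [← hj]; simpa using (conj_zpow (a := w⁻¹) (b := (c : G)) (i := j))⟩
        have e := Lib.Char.DihC.involution_unique h1 (hzsupp ⟨_, hm⟩ hne)
          (by rw [show w⁻¹ * z * w = w⁻¹ * z * w⁻¹⁻¹ by rw [inv_inv], Lib.Involution.orderOf_conj, hzo]) hzo
        refine hw (Subgroup.mem_centralizer_singleton_iff.2 ?_)
        calc w * z = w * (w⁻¹ * z * w) := by rw [e]
          _ = z * w := by group
      · exact Lib.Char.extendByZero_not_mem C β hm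
  have hΨc : ∀ c : C, β c ≠ 0 → Ψ (c : G) = β c := by
    intro c hc
    rw [hΨ, Cfsg.indFun, Finset.sum_congr rfl fun w _ => hext w c hc, ← Finset.sum_filter,
      Finset.sum_const, nsmul_eq_mul, ← Fintype.card_subtype, ← Nat.card_eq_fintype_card,
      ← mul_assoc, inv_mul_cancel₀ (Lib.Char.card_ne_zero_complex C), one_mul]
  have hΨ1 : Ψ 1 = 0 := by rw [hΨ, Lib.Char.indFun_one, hβ1, mul_zero]
  have hΨn : Cfsg.classInner Ψ Ψ = 3 := by
    rw [hΨ, Lib.Char.classInner_indFun C β (Lib.Char.isClassFunction_indFun C β), ← hβn]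
    simp only [Cfsg.classInner]
    congr 1
    refine Finset.sum_congr rfl fun c _ => ?_
    by_cases hc : β c = 0
    · rw [hc, zero_mul, zero_mul]
    · rw [← hΨ, hΨc c hc]
  have hΨone : Cfsg.classInner Ψ (fun _ => 1) = 1 := by
    rw [hΨ, Lib.Char.classInner_indFun C β (Lib.Char.isClassFunction_of_isIrr
      Lib.Char.isIrrCharacter_one)]
    exact hβone
  have hΨχ : Cfsg.classInner Ψ (χ₁ : G → ℂ) = δ₁ := by
    rw [hΨ, Lib.Char.classInner_indFun C β (Lib.Char.isClassFunction_of_isIrr χ₁.2),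
      ← mul_one (δ₁ : ℂ), ← hβone]
    simp only [Cfsg.classInner, Finset.mul_sum]
    refine Finset.sum_congr rfl fun c _ => ?_
    by_cases hc : β c = 0
    · rw [hc]; ring
    · rw [hχc c hc, map_intCast, map_one]; ring
  have hzz : Ψ z = 4 := by
    have hz0 : zc ∈ C0 := pow_mem hs0 _
    have h2 : ((l ⟨zc, hz0⟩ : ℂˣ) : ℂ) = -1 := by
      rw [show (⟨zc, hz0⟩ : C0) = (⟨s, hs0⟩ : C0) ^ 2 ^ (n - 2) from Subtype.ext rfl, map_pow,
        Units.val_pow_eq_pow_val]
      exact (hprim.pow (by omega) (show N = 2 ^ (n - 2) * 2 by rw [hN2, mul_comm])).eq_neg_one_of_two_right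
    have hb : β zc = 4 := by
      rw [show zc = ((⟨zc, hz0⟩ : C0) : C) from rfl, hβin, Units.val_inv_eq_inv_val, h2]
      norm_num
    rw [← hzcG, hΨc zc (by rw [hb]; norm_num), hb]
  obtain ⟨a, b, hab, -, -, hdeg, hθ, hF⟩ :=
    Lib.Involution.exists_chars_of_norm_three hΨgen hΨ1 hΨn hΨone
  set one : Cfsg.IrrCharacter G := ⟨_, Lib.Char.isIrrCharacter_one⟩ with hone
  -- fusion of involutions
  have hdih : ∀ c : C, c ∈ (S : Subgroup C) → c ∉ C0 → IsConj c t ∨ IsConj c (s * t) := by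
    intro c hc hc0
    rcases Lib.Char.DihC.mem_closure_dihedral hto hrel' (hgen'.symm ▸ hc : c ∈ Subgroup.closure ({s, t} : Set C)) with h | h
    · exact absurd ((Subgroup.zpowers_le.2 hs0) h) hc0
    obtain ⟨i, hi⟩ := h
    dsimp only at hi
    have hc' : c = s ^ i * t := by rw [hi, mul_assoc, htt, mul_one]
    have hmove : ∀ j : ℤ, t * s ^ j = s ^ (-j) * t := fun j => by
      have : t * s ^ j * t⁻¹ = s ^ (-j) := by rw [← conj_zpow, hrel', inv_zpow']
      exact mul_inv_eq_iff_eq_mul.1 this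
    rcases Int.even_or_odd' i with ⟨j, rfl | rfl⟩
    · refine Or.inl (isConj_iff.2 ⟨s ^ (-j), ?_⟩)
      rw [hc', mul_assoc (s ^ (-j)), mul_assoc (s ^ (2 * j)), ← zpow_neg, neg_neg, hmove,
        ← mul_assoc, ← mul_assoc, ← zpow_add, ← zpow_add,
        show -j + 2 * j + -j = 0 by ring, zpow_zero, one_mul]
    · refine Or.inr (isConj_iff.2 ⟨s ^ (-j), ?_⟩)
      rw [hc', mul_assoc (s ^ (-j)), mul_assoc (s ^ (2 * j + 1)), ← zpow_neg, neg_neg, hmove,
        ← mul_assoc, ← mul_assoc, ← zpow_add, ← zpow_add,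
        show -j + (2 * j + 1) + -j = 1 by ring, zpow_one]
  have hsto : orderOf (s * t) = 2 := by
    refine Lib.Involution.orderOf_two_of ?_ fun h => ht0 ?_
    · rw [show s * t * (s * t) = s * (t * s * t⁻¹) * (t * t) by group, hrel', htt]; group
    · rw [eq_inv_of_mul_eq_one_right h]; exact inv_mem hs0
  have hst0 : s * t ∉ C0 := fun h => ht0 (by
    have := mul_mem (inv_mem hs0) h
    rwa [inv_mul_cancel_left] at this)
  have hallz : ∀ x : G, orderOf x = 2 → IsConj x z := by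
    intro x hx
    obtain ⟨Q, hQ⟩ := (Lib.Block.IsPElem.isPGroup_zpowers (p := 2) (x := x) ⟨1, by rw [hx, pow_one]⟩).exists_le_sylow
    obtain ⟨g, hg⟩ := MulAction.exists_smul_eq G Q P
    have hm : g * x * g⁻¹ ∈ (P : Subgroup G) := by
      rw [← hg, Sylow.coe_subgroup_smul]
      exact Subgroup.smul_mem_pointwise_smul _ (MulAut.conj g) _ (hQ (Subgroup.mem_zpowers _))
    refine (isConj_iff.2 ⟨g, rfl⟩ : IsConj x (g * x * g⁻¹)).trans ?_
    have hco : orderOf (⟨_, hPC hm⟩ : C) = 2 := by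
      rw [← Subgroup.orderOf_coe]; exact (Lib.Involution.orderOf_conj g x).trans hx
    by_cases h0 : (⟨_, hPC hm⟩ : C) ∈ C0
    · rw [show g * x * g⁻¹ = z from (congrArg Subtype.val (hinvC0 _ hco h0)).trans hzcG]
    · rcases hdih ⟨_, hPC hm⟩ hm h0 with h | h
      · exact ((C.subtype.map_isConj h : IsConj (g * x * g⁻¹) τ)).trans hconj.1.symm
      · exact ((C.subtype.map_isConj h : IsConj (g * x * g⁻¹) (σ * τ))).trans hconj.2.symm
  -- the involutions outside the index two subgroup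
  set J : Finset C := Finset.univ.filter fun c => orderOf c = 2 ∧ c ∉ C0 with hJ
  let W : C → ℂ := fun c => if h : t * c ∈ C0 then ((l ⟨_, h⟩ : ℂˣ) : ℂ) else 0
  have htC0 : ∀ c ∈ J, t * c ∈ C0 := fun c hc => by
    rw [Subgroup.mul_mem_iff_of_index_two hidx]
    simp [ht0, (Finset.mem_filter.1 hc).2.2]
  have hWsum : ∑ c ∈ J, W c = 0 := by
    have hmap : ∑ c ∈ J, W (s * c * s⁻¹) = ∑ c ∈ J, W c := by
      refine Finset.sum_equiv (MulAut.conj s).toEquiv (fun c => ?_) (fun c _ => rfl)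
      simp only [hJ, Finset.mem_filter, Finset.mem_univ, true_and]
      show _ ↔ orderOf (s * c * s⁻¹) = 2 ∧ s * c * s⁻¹ ∉ C0
      rw [Lib.Involution.orderOf_conj]
      exact and_congr_right fun _ => not_congr ⟨fun h => hcj s c h, fun h => by
        simpa [mul_assoc] using hcj s⁻¹ _ h⟩
    have hterm : ∀ c ∈ J, W (s * c * s⁻¹) = ((u⁻¹ ^ 2 : ℂˣ) : ℂ) * W c := by
      intro c hc
      have h0 := htC0 c hc
      have h1 : t * (s * c * s⁻¹) ∈ C0 := by
        rw [show t * (s * c * s⁻¹) = (t * s * t⁻¹) * (t * c) * s⁻¹ by group]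
        exact mul_mem (mul_mem (hrel'.symm ▸ inv_mem hs0) h0) (inv_mem hs0)
      simp only [W, dif_pos h0, dif_pos h1]
      rw [← Units.val_mul, Units.val_inj,
        show (⟨_, h1⟩ : C0) = (⟨s, hs0⟩ : C0)⁻¹ * ⟨_, h0⟩ * (⟨s, hs0⟩ : C0)⁻¹ from Subtype.ext (by
          show t * (s * c * s⁻¹) = s⁻¹ * (t * c) * s⁻¹
          rw [← hrel']; group), map_mul, map_mul, map_inv, pow_two]
      rw [mul_right_comm]
    rw [Finset.sum_congr rfl hterm, ← Finset.mul_sum] at hmap
    have hne : ((u⁻¹ ^ 2 : ℂˣ) : ℂ) ≠ 1 := by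
      rw [Ne, Units.val_eq_one, inv_pow, inv_eq_one, hu1]
      intro h; have := Nat.le_of_dvd two_pos h; omega
    by_contra h'
    exact hne ((mul_eq_right₀ h').1 hmap)
  have hW' : ∑ c ∈ J, (W c)⁻¹ = 0 := by
    have hc : ∀ c ∈ J, (W c)⁻¹ = starRingEnd ℂ (W c) := fun c hc => by
      simp only [W, dif_pos (htC0 c hc)]
      rw [Complex.inv_eq_conj]
      exact Complex.norm_eq_one_of_pow_eq_one
        (by rw [← Units.val_pow_eq_pow_val, hlN, Units.val_one]) (by omega)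
    rw [Finset.sum_congr rfl hc, ← map_sum, hWsum, map_zero]
  have hβJ : ∀ c ∈ J, ∀ d ∈ J, β (c * d) = 2 - (W c)⁻¹ * W d - W c * (W d)⁻¹ := by
    intro c hc d hd
    have h1 := htC0 c hc
    have h2 := htC0 d hd
    have h3 := hcj t _ h1
    rw [show c * d = (((⟨_, h3⟩ : C0) * ⟨_, h2⟩ : C0) : C) by
      show c * d = t * (t * c) * t⁻¹ * (t * d)
      rw [← mul_assoc t t c, htt, one_mul, ← mul_assoc, mul_assoc (c * t⁻¹)]
      group,
      hβin, map_mul, hinv ⟨_, h1⟩ h3]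
    simp only [W, dif_pos h1, dif_pos h2, Units.val_mul, Units.val_inv_eq_inv_val, mul_inv,
      inv_inv]
  have hE : ∑ c ∈ J, ∑ d ∈ J, β (c * d) = 2 * (J.card : ℂ) ^ 2 := by
    rw [Finset.sum_congr rfl fun c hc => Finset.sum_congr rfl fun d hd => hβJ c hc d hd]
    simp only [Finset.sum_sub_distrib, ← Finset.mul_sum, ← Finset.sum_mul, hWsum, hW', zero_mul,
      mul_zero, sub_zero, Finset.sum_const, nsmul_eq_mul]
    ring
  -- the size of `J`
  have hnc : ¬ IsConj t (s * t) := by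
    rintro hcj'
    obtain ⟨c, hc⟩ := isConj_iff.1 hcj'
    obtain ⟨d, hd, hd'⟩ : ∃ d ∈ C0, d * t * d⁻¹ = s * t := by
      by_cases h : c ∈ C0
      · exact ⟨c, h, hc⟩
      · refine ⟨c * t, (Subgroup.mul_mem_iff_of_index_two hidx).2 (by simp [h, ht0]), ?_⟩
        rw [← hc, mul_inv_rev]; group
    have e : (⟨s, hs0⟩ : C0) = ⟨d, hd⟩ * ⟨_, hcj t _ (inv_mem hd)⟩ := Subtype.ext (by
      show s = d * (t * d⁻¹ * t⁻¹)
      rw [← mul_assoc, ← mul_assoc, hd', mul_inv_cancel_right])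
    have e2 : l ⟨_, hcj t _ (inv_mem hd)⟩ = (l (⟨d, hd⟩⁻¹))⁻¹ := hinv (⟨d, hd⟩⁻¹) _
    obtain ⟨i, hi⟩ := hexi ⟨d, hd⟩
    have := congrArg l e
    rw [map_mul, e2, map_inv, inv_inv, hi, ← pow_add, ← hu] at this
    have h1 : u ^ (i + i + (N - 1)) = 1 := by
      rw [pow_add, ← this, ← pow_succ', Nat.sub_add_cancel (by omega : 1 ≤ N), (hu1 N).2 dvd_rfl]
    have h2 : 2 ∣ i + i + (N - 1) := (Dvd.intro _ hN2.symm).trans ((hu1 _).1 h1)
    omega
  have hJmem : ∀ c : C, c ∈ J ↔ IsConj c t ∨ IsConj c (s * t) := by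
    intro c
    simp only [hJ, Finset.mem_filter, Finset.mem_univ, true_and]
    constructor
    · rintro ⟨h2, h0⟩
      obtain ⟨Q, hQ⟩ := (Lib.Block.IsPElem.isPGroup_zpowers (p := 2) (x := c) ⟨1, by rw [h2, pow_one]⟩).exists_le_sylow
      obtain ⟨g, hg⟩ := MulAction.exists_smul_eq C Q S
      have hm : g * c * g⁻¹ ∈ (S : Subgroup C) := by
        rw [← hg, Sylow.coe_subgroup_smul]
        exact Subgroup.smul_mem_pointwise_smul _ (MulAut.conj g) _ (hQ (Subgroup.mem_zpowers _))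
      have hc : IsConj c (g * c * g⁻¹) := isConj_iff.2 ⟨g, rfl⟩
      exact (hdih _ hm fun h => h0 (by simpa [mul_assoc] using hcj g⁻¹ _ h)).imp hc.trans hc.trans
    · rintro (h | h) <;> obtain ⟨g, hg⟩ := isConj_iff.1 h.symm <;> subst hg <;>
        refine ⟨by rw [Lib.Involution.orderOf_conj]; assumption, fun h' => ?_⟩
      · exact ht0 (by simpa [mul_assoc] using hcj g⁻¹ _ h')
      · exact hst0 (by simpa [mul_assoc] using hcj g⁻¹ _ h')
  have hcent : ∀ (w : G) (hw : w ∈ C), Nat.card (Subgroup.centralizer ({(⟨w, hw⟩ : C)} : Set C)) =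
      Nat.card (Subgroup.centralizer ({z, w} : Set G)) := by
    intro w hw
    rw [← Lib.Block.card_centralizer_inf C ⟨w, hw⟩,
      show Subgroup.centralizer ({z, w} : Set G) = Subgroup.centralizer ({w} : Set G) ⊓ C by
        rw [hC]
        ext g
        simp only [Subgroup.mem_centralizer_iff, Subgroup.mem_inf, Set.mem_insert_iff,
          Set.mem_singleton_iff, forall_eq_or_imp, forall_eq]
        exact and_comm]
  have hcl : ∀ c : C, (((Finset.univ.filter fun d : C => IsConj d c).card : ℕ) : ℂ) =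
      (Nat.card C : ℂ) / (Nat.card (Subgroup.centralizer ({c} : Set C)) : ℂ) := by
    intro c
    rw [eq_div_iff (Lib.Char.card_ne_zero_complex _), ← Nat.cast_mul]
    exact congrArg Nat.cast (by convert Lib.CharAux.card_conj_mul_card_centralizer c)
  have hJcard : (J.card : ℂ) = (Nat.card C : ℂ) * (1 / (Nat.card (Subgroup.centralizer ({z, τ} : Set G)) : ℂ) +
      1 / (Nat.card (Subgroup.centralizer ({z, σ * τ} : Set G)) : ℂ)) := by
    have : J = (Finset.univ.filter fun d : C => IsConj d t) ∪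
        (Finset.univ.filter fun d : C => IsConj d (s * t)) := by
      ext c; simp [hJmem]
    rw [this, Finset.card_union_of_disjoint (Finset.disjoint_filter.2 fun c _ h h' =>
      hnc (h.symm.trans h')), Nat.cast_add, hcl, hcl]
    rw [show Nat.card (Subgroup.centralizer ({t} : Set C)) = _ from hcent τ hτC,
      show Nat.card (Subgroup.centralizer ({s * t} : Set C)) = _ from hcent (σ * τ) (mul_mem hσC hτC)]
    ring
  -- the count
  set k : ℂ := (C.index : ℂ) with hk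
  set K := fun x : G => Lib.CharTools.classInd z x with hKdef
  set f := fun χ : Cfsg.IrrCharacter G => (χ : G → ℂ) z * (χ : G → ℂ) z / (χ : G → ℂ) 1
  have hcount : k * k * (f one + f b - f a) = ∑ x : G, ∑ y : G, K x * K y * Ψ (x * y) := by
    rw [← hF f, Finset.mul_sum]
    have e : ∀ g, Ψ g = ∑ χ : Cfsg.IrrCharacter G, Cfsg.classInner Ψ (χ : G → ℂ) * (χ : G → ℂ) g := by
      intro g
      have := congrFun (Lib.Char.eq_sum_classInner_smul (Lib.Char.isClassFunction_of_generalized hΨgen)) g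
      simpa only [Finset.sum_apply, Pi.smul_apply, smul_eq_mul] using this
    simp only [e, Finset.mul_sum]
    rw [Finset.sum_congr rfl fun x (_ : x ∈ Finset.univ) => Finset.sum_comm, Finset.sum_comm]
    refine Finset.sum_congr rfl fun χ _ => ?_
    simp only [hKdef]
    rw [show k * k * (Cfsg.classInner Ψ (χ : G → ℂ) * f χ) =
      Cfsg.classInner Ψ (χ : G → ℂ) * (k * k * ((χ : G → ℂ) z * (χ : G → ℂ) z) / (χ : G → ℂ) 1) by
        simp only [f]; ring, hk, hC, ← Lib.CharTools.sum_classes_mul χ.2 z z]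
    simp only [Finset.mul_sum]
    exact Finset.sum_congr rfl fun x _ => Finset.sum_congr rfl fun y _ => by ring
  have hshift : ∀ w : G, ∑ x : G, ∑ y : G, K x * K y * Cfsg.extendByZero C β (w⁻¹ * (x * y) * w) =
      ∑ x : G, ∑ y : G, K x * K y * Cfsg.extendByZero C β (x * y) := by
    intro w
    rw [← Equiv.sum_comp (MulAut.conj w).toEquiv]
    refine Finset.sum_congr rfl fun x _ => ?_
    rw [← Equiv.sum_comp (MulAut.conj w).toEquiv]
    refine Finset.sum_congr rfl fun y _ => ?_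
    simp only [MulEquiv.toEquiv_eq_coe, MulEquiv.coe_toEquiv, MulAut.conj_apply, hKdef,
      Lib.CharTools.classInd_conj]
    rw [show w⁻¹ * (w * x * w⁻¹ * (w * y * w⁻¹)) * w = x * y by group]
  have hpairs : ∑ x : G, ∑ y : G, K x * K y * Cfsg.extendByZero C β (x * y) =
      ∑ c ∈ J, ∑ d ∈ J, β (c * d) := by
    set J' := J.map ⟨Subtype.val, Subtype.val_injective⟩ with hJ'
    have hnz : ∀ x y : G, K x * K y * Cfsg.extendByZero C β (x * y) ≠ 0 → x ∈ J' ∧ y ∈ J' := by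
      intro x y hne
      have hx : IsConj x z := by
        by_contra h; exact hne (by simp [hKdef, Lib.CharTools.classInd_of_not h])
      have hy : IsConj y z := by
        by_contra h; exact hne (by simp [hKdef, Lib.CharTools.classInd_of_not h])
      have hxo : orderOf x = 2 := (Lib.Involution.isConj_orderOf hx).trans hzo
      have hyo : orderOf y = 2 := (Lib.Involution.isConj_orderOf hy).trans hzo
      have hm : x * y ∈ C := by
        by_contra h; exact hne (by rw [Lib.Char.extendByZero_not_mem C β h, mul_zero])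
      rw [Lib.Char.extendByZero_mem C β hm] at hne
      have hβ0 : β ⟨x * y, hm⟩ ≠ 0 := right_ne_zero_of_mul hne
      obtain ⟨j, hj⟩ := hzsupp _ hβ0
      have hzj : x * z * x⁻¹ = z := by
        dsimp only at hj
        rw [← hj, ← conj_zpow, show x * (x * y) * x⁻¹ = (x * y)⁻¹ by
          rw [mul_inv_rev, Lib.Involution.inv_self hxo, Lib.Involution.inv_self hyo, ← mul_assoc,
            Lib.Involution.mul_self hxo, one_mul], inv_zpow', zpow_neg, hj, hzi]
      have hxC : x ∈ C := Subgroup.mem_centralizer_singleton_iff.2 (mul_inv_eq_iff_eq_mul.1 hzj)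
      have hyC : y ∈ C := by simpa using mul_mem (inv_mem hxC) hm
      have hc0 : (⟨x * y, hm⟩ : C) ∈ C0 := by
        by_contra h; exact hβ0 (hβout _ h)
      have hiff := (Subgroup.mul_mem_iff_of_index_two hidx (a := (⟨x, hxC⟩ : C)) (b := ⟨y, hyC⟩)).1 hc0
      have hxo' : orderOf (⟨x, hxC⟩ : C) = 2 := by rw [← Subgroup.orderOf_coe]; exact hxo
      have hyo' : orderOf (⟨y, hyC⟩ : C) = 2 := by rw [← Subgroup.orderOf_coe]; exact hyo
      have hx0 : (⟨x, hxC⟩ : C) ∉ C0 := by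
        intro h
        have e1 := hinvC0 _ hxo' h
        have e2 := hinvC0 _ hyo' (hiff.1 h)
        refine hβ0 ?_
        rw [show (⟨x * y, hm⟩ : C) = ⟨x, hxC⟩ * ⟨y, hyC⟩ from rfl, e1, e2,
          Lib.Involution.mul_self hzco]
        exact hβ1
      have hy0 : (⟨y, hyC⟩ : C) ∉ C0 := fun h => hx0 (hiff.2 h)
      exact ⟨Finset.mem_map.2 ⟨⟨x, hxC⟩, Finset.mem_filter.2 ⟨Finset.mem_univ _, hxo', hx0⟩, rfl⟩,
        Finset.mem_map.2 ⟨⟨y, hyC⟩, Finset.mem_filter.2 ⟨Finset.mem_univ _, hyo', hy0⟩, rfl⟩⟩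
    rw [← Finset.sum_subset (Finset.subset_univ J') (fun x _ hx => Finset.sum_eq_zero fun y _ => by
      by_contra h; exact hx (hnz x y h).1), hJ', Finset.sum_map]
    refine Finset.sum_congr rfl fun c hc => ?_
    rw [← Finset.sum_subset (Finset.subset_univ J') (fun y _ hy => by
      by_contra h; exact hy (hnz _ y h).2), hJ', Finset.sum_map]
    refine Finset.sum_congr rfl fun d hd => ?_
    have hKc : ∀ e ∈ J, K (e : G) = 1 := fun e he => Lib.CharTools.classInd_of
      (hallz _ (by rw [Subgroup.orderOf_coe]; exact (Finset.mem_filter.1 he).2.1))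
    simp only [Function.Embedding.coeFn_mk]
    rw [hKc c hc, hKc d hd, one_mul, one_mul, ← Subgroup.coe_mul, Lib.Char.extendByZero_coe]
  have hsum : ∑ x : G, ∑ y : G, K x * K y * Ψ (x * y) =
      (Nat.card C : ℂ)⁻¹ * ((Nat.card G : ℂ) * (2 * (J.card : ℂ) ^ 2)) := by
    rw [← hE, ← hpairs]
    simp only [hΨ, Cfsg.indFun, Finset.mul_sum]
    rw [Finset.sum_congr rfl fun x (_ : x ∈ Finset.univ) => Finset.sum_comm, Finset.sum_comm,
      Finset.sum_congr rfl (g := fun _ => (Nat.card C : ℂ)⁻¹ *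
        ∑ x : G, ∑ y : G, K x * K y * Cfsg.extendByZero C β (x * y)) fun w _ => ?_]
    · rw [Finset.sum_const, nsmul_eq_mul, Finset.card_univ, ← Nat.card_eq_fintype_card]
      simp only [Finset.mul_sum]
      exact Finset.sum_congr rfl fun x _ => Finset.sum_congr rfl fun y _ => by ring
    · rw [← hshift w]
      simp only [Finset.mul_sum]
      exact Finset.sum_congr rfl fun x _ => Finset.sum_congr rfl fun y _ => by ring
  have hG : k * (Nat.card C : ℂ) = (Nat.card G : ℂ) := by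
    rw [hk, ← Nat.cast_mul, C.index_mul_card]
  -- the degrees
  set A : ℂ := 1 / (Nat.card (Subgroup.centralizer ({z, τ} : Set G)) : ℂ) +
      1 / (Nat.card (Subgroup.centralizer ({z, σ * τ} : Set G)) : ℂ) with hA
  have hmain : (Nat.card G : ℂ) * (f one + f b - f a) = 2 * (Nat.card C : ℂ) ^ 3 * A ^ 2 := by
    have e := hcount.trans hsum
    rw [hJcard] at e
    have hk0 : k ≠ 0 := fun h => Lib.Char.card_ne_zero_complex G (by rw [← hG, h, zero_mul])
    rw [← hG] at e ⊢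
    field_simp [Lib.Char.card_ne_zero_complex C] at e
    linear_combination (Nat.card C : ℂ) * e
  have hA0 : A ≠ 0 := by
    intro h
    have hpos : (0 : ℂ).re < A.re := by
      simp only [hA, one_div, Complex.zero_re, Complex.add_re, Complex.inv_re, Complex.natCast_re,
        Complex.normSq_natCast]
      have p1 : (0 : ℝ) < (Nat.card (Subgroup.centralizer ({z, τ} : Set G)) : ℝ) := by exact_mod_cast Nat.card_pos
      have p2 : (0 : ℝ) < (Nat.card (Subgroup.centralizer ({z, σ * τ} : Set G)) : ℝ) := by exact_mod_cast Nat.card_pos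
      positivity
    rw [h] at hpos
    exact lt_irrefl _ hpos
  set x := Cfsg.charDegree (χ₁ : G → ℂ) with hx
  have hxpos : 0 < x := Lib.Char.charDegree_pos χ₁.2
  have hx1 : (χ₁ : G → ℂ) 1 = (x : ℂ) :=
    Lib.Char.apply_one_eq_charDegree (Lib.Char.isCharacter_of_isIrr χ₁.2)
  have hσl : (χ₁ : G → ℂ) z = δ₁ := hval _ (by positivity) (by rw [hN2]; linarith [Nat.two_pow_pos (n - 2)])
  have hf1 : f one = 1 := by simp [f, hone]
  have hsel := hF (fun χ => if χ = χ₁ then (1 : ℂ) else 0)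
  simp only [mul_ite, mul_one, mul_zero, Finset.sum_ite_eq', Finset.mem_univ, if_true] at hsel
  rw [hΨχ, if_neg (show one ≠ χ₁ from fun h => h1 (by rw [← h]))] at hsel
  have hz4 := hzz.symm.trans (hθ z)
  have hne' : (x : ℂ) * ((x : ℂ) + δ₁) ≠ 0 ∧ f one + f b - f a =
      ((x : ℂ) - δ₁) ^ 2 / ((x : ℂ) * ((x : ℂ) + δ₁)) := by
    have hx0 : (x : ℂ) ≠ 0 := Nat.cast_ne_zero.2 hxpos.ne'
    by_cases hb : b = χ₁
    · have ha : a ≠ χ₁ := fun h => hab (h.trans hb.symm)
      rw [if_pos hb, if_neg ha] at hsel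
      have hd : (δ₁ : ℂ) = 1 := by linear_combination hsel
      subst hb
      have haz : (a : G → ℂ) z = -2 := by rw [hσl, hd] at hz4; linear_combination hz4
      rw [hx1] at hdeg
      have h10 : (x : ℂ) + 1 ≠ 0 := by exact_mod_cast Nat.succ_ne_zero x
      refine ⟨by rw [hd]; exact mul_ne_zero hx0 h10, ?_⟩
      rw [hf1, hd]
      simp only [f, hσl, hd, haz, hdeg, hx1]
      field_simp
      ring
    · have ha : a = χ₁ := by
        by_contra ha
        rw [if_neg hb, if_neg ha] at hsel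
        rcases hδ₁ with rfl | rfl <;> norm_num at hsel
      rw [if_neg hb, if_pos ha] at hsel
      have hd : (δ₁ : ℂ) = -1 := by linear_combination hsel
      subst ha
      have hbz : (b : G → ℂ) z = 2 := by rw [hσl, hd] at hz4; linear_combination -hz4
      have hb1 : (b : G → ℂ) 1 = (x : ℂ) - 1 := by rw [← hx1]; linear_combination -hdeg
      have h10 : (x : ℂ) - 1 ≠ 0 := by rw [← hb1]; exact Lib.Block.deg_ne_zero b
      refine ⟨by rw [hd, ← sub_eq_add_neg]; exact mul_ne_zero hx0 h10, ?_⟩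
      rw [hf1, hd]
      simp only [f, hσl, hd, hbz, hb1, hx1]
      rw [← sub_eq_add_neg, sub_neg_eq_add]
      field_simp
      ring
  obtain ⟨hden, hval'⟩ := hne'
  rw [hval'] at hmain
  have hxd : (x : ℤ) ≠ δ₁ := by
    intro h
    have : (x : ℂ) = (δ₁ : ℂ) := by exact_mod_cast h
    rw [this, sub_self, zero_pow two_ne_zero, zero_div, mul_zero] at hmain
    exact mul_ne_zero (mul_ne_zero two_ne_zero (pow_ne_zero 3 (Lib.Char.card_ne_zero_complex C)))
      (pow_ne_zero 2 hA0) hmain.symm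
  refine ⟨hxd, ?_⟩
  have hC' : (Nat.card G : ℂ) * ((x : ℂ) - δ₁) ^ 2 =
      2 * (x : ℂ) * ((x : ℂ) + δ₁) * (Nat.card C : ℂ) ^ 3 * A ^ 2 := by
    rw [← mul_div_assoc, div_eq_iff hden] at hmain
    linear_combination hmain
  rw [← Rat.cast_inj (α := ℂ)]
  push_cast
  exact hC'

end Cfsg.Agent.S4482
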