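import Cfsg.Statements.S4484
import Cfsg.Agent.Lib.Block.Singular
import Cfsg.Agent.Lib.Block.Principal
import Cfsg.Agent.Lib.Block.Defect
import Cfsg.Agent.Lib.Block.Exist
import Cfsg.Agent.Lib.CharArc.Sixty
import Cfsg.Agent.Lib.CharArc.Coords

set_option autoImplicit false
open Cfsg

namespace Cfsg.Agent.S4484

open Cfsg.Agent.Lib Cfsg.Agent.Lib.PrimeIndex
open scoped ComplexConjugate

universe u

theorem redC_stdAddChar {p : ℕ} [hp : Fact p.Prime] {M : Ideal AlgInt} [M.IsMaximal]
    (hM : IsPModular p M) (r : ZMod p) : Block.redC M (ZMod.stdAddChar r) = 1 := by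
  have hz : (ZMod.stdAddChar r : ℂ) ^ p = 1 := by
    rw [← AddChar.map_nsmul_eq_pow, nsmul_eq_mul, ZMod.natCast_self, zero_mul, AddChar.map_zero_eq_one]
  have hzl : (ZMod.stdAddChar r : ℂ) ∈ Block.locRing M :=
    Block.integral_mem_locRing (IsIntegral.of_pow hp.out.pos (by rw [hz]; exact isIntegral_one))
  haveI : CharP (Block.ResField M) p := (CharP.charP_iff_prime_eq_zero hp.out).mpr (by
    rw [← Block.redC_natCast (M := M), Block.redC_natCast_eq_zero_iff hM])
  have h := Block.redC_pow hzl p
  rw [hz, Block.redC_one] at h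
  exact frobenius_inj (Block.ResField M) p (by rw [frobenius_def, frobenius_def, one_pow, ← h])


/-- A refinement of Burnside's result on simple groups of order divisible by only two primes. Let G be a finite simple group of order p^a · q^b · g₀ with p, q distinct primes, a > 0, g₀ coprime to p and q, and the order of G different from p. Then g₀ − 1 > log p / log 6, that is 6^(g₀ − 1) > p. -/
theorem result {G : Type*} [Group G] [Finite G] [IsSimpleGroup G] (p q a b g₀ : ℕ) (hp : p.Prime) (hq : q.Prime) (hpq : p ≠ q) (ha : 0 < a) (hg : Nat.card G = p ^ a * q ^ b * g₀) (hcop : ¬ p ∣ g₀) (hcoq : ¬ q ∣ g₀) (hne : Nat.card G ≠ p) : p < 6 ^ (g₀ - 1) := by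
  classical
  have hpF : Fact p.Prime := ⟨hp⟩
  have := Fintype.ofFinite G
  by_contra hlt
  push Not at hlt
  have hg0 : 0 < g₀ := Nat.pos_of_ne_zero fun h => hcop (h ▸ dvd_zero p)
  have hlt' : 6 ^ (g₀ - 1) < p := by
    refine lt_of_le_of_ne hlt fun h => ?_
    rcases Nat.eq_zero_or_pos (g₀ - 1) with h0 | h0
    · rw [h0, pow_zero] at h; exact hp.ne_one h.symm
    · have h6 : 6 ∣ p := h ▸ dvd_pow_self 6 h0.ne'
      have := (Nat.prime_dvd_prime_iff_eq Nat.prime_two hp).1 ((by norm_num : 2 ∣ 6).trans h6)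
      have := (Nat.prime_dvd_prime_iff_eq Nat.prime_three hp).1 ((by norm_num : 3 ∣ 6).trans h6)
      omega
  have hgp : g₀ < p := by
    have := Nat.lt_pow_self (n := g₀ - 1) (by norm_num : 1 < 6)
    have : g₀ ≠ p := fun h => hcop (h ▸ dvd_rfl)
    omega
  -- the group is not commutative
  have hdvd : p ∣ Nat.card G := hg ▸ ((dvd_pow_self p ha.ne').mul_right _).mul_right _
  have hcen : Subgroup.center G = ⊥ := by
    refine (Subgroup.Normal.eq_bot_or_eq_top inferInstance).resolve_right fun htop => hne ?_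
    have hab : ∀ u w : G, u * w = w * u := fun u w => Subgroup.mem_center_iff.mp (htop ▸ Subgroup.mem_top w) u
    let _ : CommGroup G := { ‹Group G› with mul_comm := hab }
    exact ((Nat.prime_dvd_prime_iff_eq hp IsSimpleGroup.prime_card).1 hdvd).symm
  -- a central element of order `p` in a Sylow subgroup
  obtain ⟨x, hx, hxc⟩ : ∃ x : G, orderOf x = p ∧
      ¬ p ∣ (Subgroup.centralizer ({x} : Set G)).index := by
    obtain ⟨P⟩ : Nonempty (Sylow p G) := inferInstance
    have hP1 : Nontrivial (P : Subgroup G) :=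
      Finite.one_lt_card_iff_nontrivial.mp (lt_of_lt_of_le hp.one_lt
        (Nat.le_of_dvd Nat.card_pos (P.dvd_card_of_dvd_card hdvd)))
    have hZ := IsPGroup.center_nontrivial P.2
    obtain ⟨⟨z, hz⟩, hzo⟩ := exists_prime_orderOf_dvd_card' p
      (show p ∣ Nat.card (Subgroup.center (P : Subgroup G)) by
        obtain ⟨k, hk⟩ := IsPGroup.iff_card.mp (P.2.to_subgroup (Subgroup.center (P : Subgroup G)))
        have := Finite.one_lt_card_iff_nontrivial.mpr hZ
        rw [hk] at this ⊢
        exact dvd_pow_self p fun h0 => by simp [h0] at this)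
    refine ⟨(z : G), by rw [Subgroup.orderOf_coe]; rwa [Subgroup.orderOf_mk] at hzo, fun hd => ?_⟩
    refine P.not_dvd_index (hd.trans (Subgroup.index_dvd_of_le fun w hw => ?_))
    rw [Subgroup.mem_centralizer_singleton_iff]
    exact congrArg Subtype.val (Subgroup.mem_center_iff.mp hz ⟨w, hw⟩)
  set c := (Subgroup.centralizer ({x} : Set G)).index with hcdef
  have hcdvd : c ∣ q ^ b * g₀ := by
    refine ((Nat.Coprime.pow_right a ((hp.coprime_iff_not_dvd.2 hxc).symm))).dvd_of_dvd_mul_left ?_
    rw [← mul_assoc, ← hg]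
    exact Subgroup.index_dvd_card _
  obtain ⟨M, hM⟩ := Block.exists_isPModular hp
  haveI : M.IsMaximal := hM.2.1
  -- a character in the principal block
  obtain ⟨χ, hχB, hχ1, hqn, hχx⟩ : ∃ χ : IrrCharacter G, χ ∈ principalBlock M G ∧
      χ ≠ Block.oneIrr G ∧ ¬ q ∣ charDegree (χ : G → ℂ) ∧ (χ : G → ℂ) x ≠ 0 := by
    by_contra! hall
    have hw := Block.weak_orthogonality hM (B := principalBlock M G) Block.isPBlock_principalBlock
      (x := (1 : G)) (y := x) (by rw [orderOf_one]; exact hp.not_dvd_one) (by rw [hx])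
    rw [← Finset.add_sum_erase _ _ (Finset.mem_univ (Block.oneIrr G)),
      if_pos (Block.oneIrr_mem (M := M)), Block.oneIrr_apply, Block.oneIrr_apply, map_one, mul_one]
      at hw
    have hint : IsIntegral ℤ (((1 : ℕ) : ℂ) / (q : ℂ)) := by
      rw [Nat.cast_one, eq_neg_of_add_eq_zero_left hw, neg_div, Finset.sum_div]
      refine (IsIntegral.sum _ fun χ hχ => ?_).neg
      by_cases h : χ ∈ principalBlock M G
      · rw [if_pos h]
        have hc := Char.isCharacter_of_isIrr χ.2
        rw [Char.apply_one_eq_charDegree hc, ← Char.char_inv hc]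
        by_cases hd : q ∣ charDegree (χ : G → ℂ)
        · obtain ⟨d, hd⟩ := hd
          rw [hd, Nat.cast_mul, mul_assoc, mul_div_cancel_left₀ _ (Nat.cast_ne_zero.2 hq.ne_zero)]
          exact (isIntegral_algebraMap (x := (d : ℤ))).mul (Char.char_isIntegral hc _)
        · rw [Char.char_inv hc, hall χ h (Finset.mem_erase.1 hχ).1 hd, map_zero, mul_zero, zero_div]
          exact isIntegral_zero
      · rw [if_neg h, zero_div]
        exact isIntegral_zero
    exact hq.not_dvd_one (Char.dvd_of_isIntegral_div hq.ne_zero hint)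
  have hcc : MemLocalIdeal M (centralChar (fun _ : G => (1 : ℂ)) x - centralChar (χ : G → ℂ) x) :=
    hχB x
  rw [show centralChar (fun _ : G => (1 : ℂ)) x = (c : ℂ) by simp [centralChar, hcdef]] at hcc
  have hω : IsIntegral ℤ (centralChar (χ : G → ℂ) x) := Char.isIntegral_classSize_mul_div χ.2 x
  have hred : Block.redC M (centralChar (χ : G → ℂ) x) = c := by
    rw [← Block.redC_natCast (M := M) c]
    exact ((Block.redC_eq_iff (Block.nat_mem _) (Block.centralChar_mem_locRing χ x)).2 hcc).symm
  obtain ⟨f, n, ρ, hirr, hfe⟩ := χ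
  subst hfe
  simp only at *
  have hn : charDegree ρ.character = n := by
    apply Char.charDegree_eq_of_apply_one
    simp
  rw [hn] at hqn
  have hn0 : 0 < n := Nat.pos_of_ne_zero fun h => hqn (h ▸ dvd_zero q)
  -- eigenvalues
  obtain ⟨bb, μ, hμ, hbk, hchar⟩ := Char.exists_eigenbasis ρ x
  have hfin : Module.finrank ℂ (Fin n → ℂ) = n := Module.finrank_fin_fun ℂ
  have hex : ∀ i, ∃ r : ZMod p, ZMod.stdAddChar r = μ i := by
    intro i
    obtain ⟨m, -, hm⟩ := (isPrimitiveRoot_stdAddChar (p := p)).eq_pow_of_pow_eq_one (hx ▸ hμ i)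
    exact ⟨(m : ZMod p), by rw [← nsmul_one m, AddChar.map_nsmul_eq_pow, hm]⟩
  choose k hk using hex
  let m : ZMod p → ℕ := fun r => (Finset.univ.filter fun i => k i = r).card
  have hmsum : ∑ r, m r = n := by
    rw [← Finset.card_eq_sum_card_fiberwise (fun i _ => Finset.mem_univ (k i)), Finset.card_univ,
      Fintype.card_fin, hfin]
  have hχm : ρ.character x = fEval (fun r => (m r : ℚ)) := by
    have h1 := hchar 1
    rw [pow_one] at h1
    rw [h1, fEval, ← Finset.sum_fiberwise Finset.univ k]
    refine Finset.sum_congr rfl fun r _ => ?_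
    rw [Finset.sum_congr rfl fun i hi => show μ i ^ 1 = ZMod.stdAddChar r by
      rw [pow_one, ← hk, (Finset.mem_filter.mp hi).2], Finset.sum_const, nsmul_eq_mul]
    simp [m]
  -- the algebraic integer `δ χ(x) / n`
  set δ := Nat.gcd n c with hδ
  have hδ0 : 0 < δ := Nat.gcd_pos_of_pos_left _ hn0
  have hδg : δ ∣ g₀ := by
    refine Nat.Coprime.dvd_of_dvd_mul_left ?_ ((Nat.gcd_dvd_right n c).trans hcdvd)
    exact Nat.Coprime.pow_right b ((hq.coprime_iff_not_dvd.2 fun h =>
      hqn (h.trans (Nat.gcd_dvd_left n c))).symm)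
  have hδle : δ ≤ g₀ := Nat.le_of_dvd hg0 hδg
  set u := Nat.gcdA n c with hu
  set v := Nat.gcdB n c with hv
  have hbez : (δ : ℤ) = n * u + c * v := Nat.gcd_eq_gcd_ab n c
  set α : ℂ := (u : ℂ) * ρ.character x + (v : ℂ) * centralChar ρ.character x with hα
  have hn1 : ρ.character 1 = (n : ℂ) := by simp
  have hαn : (δ : ℂ) * ρ.character x = (n : ℂ) * α := by
    have : ((δ : ℤ) : ℂ) = n * u + c * v := by rw [hbez]; push_cast; ring
    rw [Int.cast_natCast] at this
    have hn' : (n : ℂ) ≠ 0 := Nat.cast_ne_zero.2 hn0.ne'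
    rw [this, hα, centralChar, hn1, ← hcdef]
    field_simp
  have hαint : IsIntegral ℤ α :=
    ((isIntegral_algebraMap (x := u)).mul (Char.isIntegral_character ρ x)).add
      ((isIntegral_algebraMap (x := v)).mul hω)
  have hαc : α = fEval (fun r => (δ : ℚ) * m r / n) := by
    have hn' : (n : ℂ) ≠ 0 := Nat.cast_ne_zero.2 hn0.ne'
    have h2 : (n : ℂ) * fEval (fun r => (δ : ℚ) * m r / n) = (n : ℂ) * α := by
      rw [← hαn, hχm, fEval, fEval, Finset.mul_sum, Finset.mul_sum]
      refine Finset.sum_congr rfl fun r _ => ?_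
      push_cast
      field_simp
    exact (mul_left_cancel₀ hn' h2).symm
  obtain ⟨d, hd⟩ := CharArc.exists_int_coords _ (hαc ▸ hαint)
  have hconst : ∀ r s, (δ : ℚ) * m r / n - d r = (δ : ℚ) * m s / n - d s := by
    refine const_of_fEval_eq_zero (f := fun r => (δ : ℚ) * m r / n - d r) ?_
    simp only [fEval, Rat.cast_sub, sub_mul, Finset.sum_sub_distrib] at hd ⊢
    rw [hd, sub_self]
  -- all multiplicities are congruent modulo `n / δ`
  obtain ⟨K, hK⟩ : δ ∣ n := Nat.gcd_dvd_left n c
  have hK0 : 0 < K := Nat.pos_of_ne_zero fun h => by rw [h, mul_zero] at hK; omega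
  have hmod : ∀ r s, m r % K = m s % K := by
    intro r s
    have h1 := hconst r s
    rw [hK] at h1
    push_cast at h1
    have hδ' : (δ : ℚ) ≠ 0 := Nat.cast_ne_zero.2 hδ0.ne'
    have hK' : (K : ℚ) ≠ 0 := Nat.cast_ne_zero.2 hK0.ne'
    have h2 : (((m r : ℤ) - m s : ℤ) : ℚ) = (((K : ℤ) * (d r - d s) : ℤ) : ℚ) := by
      field_simp at h1
      push_cast
      linarith
    have h3 : ((m r : ℤ) - m s) = (K : ℤ) * (d r - d s) := by exact_mod_cast h2
    have h4 : (m r : ℤ) % (K : ℤ) = (m s : ℤ) % (K : ℤ) :=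
      Int.emod_eq_emod_iff_emod_sub_eq_zero.mpr (by rw [h3, Int.mul_emod_right])
    exact_mod_cast h4
  let t : ZMod p → ℕ := fun r => m r / K
  set r0 := m 0 % K with hr0
  have hmt : ∀ r, m r = r0 + K * t r := fun r => by
    rw [hr0, hmod 0 r, Nat.mod_add_div]
  have hαt : α = fEval (fun r => (t r : ℚ)) := by
    rw [hαc]
    have hn' : (n : ℚ) ≠ 0 := Nat.cast_ne_zero.2 hn0.ne'
    have h : ∀ r, (δ : ℚ) * m r / n = (t r : ℚ) + (r0 : ℚ) / K := by
      intro r
      rw [hmt r, hK]
      push_cast
      have : (δ : ℚ) ≠ 0 := Nat.cast_ne_zero.2 hδ0.ne'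
      have : (K : ℚ) ≠ 0 := Nat.cast_ne_zero.2 hK0.ne'
      field_simp
      ring
    simp only [fEval, h, Rat.cast_add, add_mul, Finset.sum_add_distrib, ← Finset.mul_sum]
    rw [AddChar.sum_eq_zero_of_ne_one, mul_zero, add_zero]
    intro hone
    exact one_ne_zero (ZMod.injective_stdAddChar (N := p) (a₁ := 1) (a₂ := 0)
      (by rw [hone]; simp))
  -- congruence modulo `M`
  set T := ∑ r, t r with hT
  have hnT : n = p * r0 + K * T := by
    rw [← hmsum, Finset.sum_congr rfl fun r _ => hmt r, Finset.sum_add_distrib, Finset.sum_const,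
      Finset.card_univ, ZMod.card, smul_eq_mul, ← Finset.mul_sum]
  have hTle : T ≤ δ := by
    have : K * T ≤ K * δ := by rw [mul_comm K δ, ← hK]; omega
    exact Nat.le_of_mul_le_mul_left this hK0
  have hint1 : ∀ r : ZMod p, IsIntegral ℤ (ZMod.stdAddChar r : ℂ) := fun r =>
    IsIntegral.of_pow hp.pos (by
      rw [← AddChar.map_nsmul_eq_pow, nsmul_eq_mul, ZMod.natCast_self, zero_mul,
        AddChar.map_zero_eq_one]; exact isIntegral_one)
  have hTmod : Block.redC M α = (T : Block.ResField M) := by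
    rw [hαt, fEval, Block.redC_sum _ (fun r _ => mul_mem (by simp)
      (Block.integral_mem_locRing (hint1 r))), hT, Nat.cast_sum]
    refine Finset.sum_congr rfl fun r _ => ?_
    rw [Rat.cast_natCast, Block.redC_mul (Block.nat_mem _) (Block.integral_mem_locRing (hint1 r)),
      redC_stdAddChar hM, mul_one, Block.redC_natCast]
  have hxmod : Block.redC M (ρ.character x) = (n : Block.ResField M) := by
    rw [hχm, fEval, Block.redC_sum _ (fun r _ => mul_mem (by simp)
      (Block.integral_mem_locRing (hint1 r))), ← hmsum, Nat.cast_sum]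
    refine Finset.sum_congr rfl fun r _ => ?_
    rw [Rat.cast_natCast, Block.redC_mul (Block.nat_mem _) (Block.integral_mem_locRing (hint1 r)),
      redC_stdAddChar hM, mul_one, Block.redC_natCast]
  have hδmod : Block.redC M α = (δ : Block.ResField M) := by
    have hi : ∀ w : ℤ, IsIntegral ℤ (w : ℂ) := fun w => isIntegral_algebraMap (x := w)
    have hz : ∀ w : ℤ, Block.redC M (w : ℂ) = (w : Block.ResField M) := by
      intro w
      rw [show (w : ℂ) = ((w : Block.locRing M) : ℂ) by simp, Block.redC_coe, map_intCast]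
    have hxi := Block.integral_mem_locRing (M := M) (Char.isIntegral_character ρ x)
    have hωi := Block.integral_mem_locRing (M := M) hω
    have hui := Block.integral_mem_locRing (M := M) (hi u)
    have hvi := Block.integral_mem_locRing (M := M) (hi v)
    rw [hα, Block.redC_add (mul_mem hui hxi) (mul_mem hvi hωi), Block.redC_mul hui hxi,
      Block.redC_mul hvi hωi, hz, hz, hxmod, hred]
    have h := congrArg (fun w : ℤ => (w : Block.ResField M)) hbez
    push_cast at h
    rw [h]; ring
  haveI : CharP (Block.ResField M) p := (CharP.charP_iff_prime_eq_zero hp).mpr (by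
    rw [← Block.redC_natCast (M := M), Block.redC_natCast_eq_zero_iff hM])
  have hTδ : T = δ := by
    have h := hTmod.symm.trans hδmod
    rw [CharP.natCast_eq_natCast (Block.ResField M) p] at h
    exact Nat.ModEq.eq_of_lt_of_lt h (by omega) (by omega)
  have hr00 : r0 = 0 := by
    have : p * r0 = 0 := by rw [hTδ, mul_comm K δ, ← hK] at hnT; omega
    exact (Nat.mul_eq_zero.mp this).resolve_left hp.ne_zero
  -- the support is small
  set S := Finset.univ.filter fun r => m r ≠ 0 with hS
  have hScard : S.card ≤ δ := by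
    rw [← hTδ, hT, Finset.card_eq_sum_ones]
    refine (Finset.sum_le_sum fun r hr => ?_).trans
      (Finset.sum_le_sum_of_subset (Finset.subset_univ S))
    rw [hS, Finset.mem_filter, hmt r, hr00, zero_add] at hr
    exact Nat.one_le_iff_ne_zero.mpr fun h => hr.2 (by rw [h, mul_zero])
  have hmemS : ∀ i, k i ∈ S := fun i => Finset.mem_filter.mpr ⟨Finset.mem_univ _,
    show (Finset.univ.filter fun i' => k i' = k i).card ≠ 0 from
      (Finset.card_pos.mpr ⟨i, by simp⟩).ne'⟩
  let i₀ : Fin (Module.finrank ℂ (Fin n → ℂ)) := ⟨0, by rw [hfin]; exact hn0⟩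
  obtain ⟨j, hj0, hj⟩ := CharArc.exists_mul_close S (hmemS i₀)
    (lt_of_le_of_lt (Nat.pow_le_pow_right (by norm_num) (by omega)) hlt')
  -- Blichfeldt's theorem for `x ^ j`
  set y := x ^ j.val with hy
  have hy1 : y ≠ 1 := by
    intro h
    have hd := orderOf_dvd_of_pow_eq_one (hy ▸ h)
    rw [hx] at hd
    have := Nat.eq_zero_of_dvd_of_lt hd (ZMod.val_lt j)
    exact hj0 ((ZMod.val_eq_zero j).mp this)
  have hμj : ∀ i, μ i ^ j.val = ZMod.stdAddChar (j * k i) := fun i => by
    rw [← hk, ← AddChar.map_nsmul_eq_pow, nsmul_eq_mul, ZMod.natCast_zmod_val]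
  set ξ : ℂ := ZMod.stdAddChar (j * k i₀) with hξ
  obtain ⟨E, _, _, _, π, e, hπ, he⟩ := CharArc.exists_unitary_equiv ρ
  have hirrE : ∀ W : Submodule ℂ E, (∀ g, ∀ w ∈ W, π g w ∈ W) → W = ⊥ ∨ W = ⊤ := by
    intro W hW
    let W' : Subrepresentation ρ := ⟨W.comap e.toLinearMap, fun g w hw => by
      show e (ρ g w) ∈ W
      rw [← he]; exact hW g _ hw⟩
    rcases hirr.eq_bot_or_eq_top W' with h | h
    · left
      have h' : W.comap e.toLinearMap = ⊥ := congrArg Subrepresentation.toSubmodule h
      exact Submodule.comap_injective_of_surjective e.surjective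
        (h'.trans (LinearMap.ker_eq_bot.mpr e.injective).symm)
    · right
      have h' : W.comap e.toLinearMap = ⊤ := congrArg Subrepresentation.toSubmodule h
      exact Submodule.comap_injective_of_surjective e.surjective
        (h'.trans (Submodule.comap_top _).symm)
  have hnc : Subgroup.normalClosure ({y} : Set G) = ⊤ :=
    (Subgroup.Normal.eq_bot_or_eq_top inferInstance).resolve_left fun h =>
      hy1 (Subgroup.mem_bot.mp (h ▸ Subgroup.subset_normalClosure rfl))
  have hsmall : ‖π y - ξ • (1 : E →L[ℂ] E)‖ < 1 := by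
    refine Blichfeldt.norm_sub_lt hπ one_pos fun cv w hw hcw => ?_
    obtain ⟨z, rfl⟩ := e.surjective w
    rw [he, ← map_smul] at hcw
    have hz := e.injective hcw
    have hz0 : z ≠ 0 := fun h => hw (by rw [h, map_zero])
    obtain ⟨i, hi⟩ : ∃ i, bb.repr z i ≠ 0 := by
      by_contra! h
      exact hz0 (bb.repr.injective (by ext i; simp [h i]))
    have hexp : ρ y z = ∑ i', (bb.repr z i' * μ i' ^ j.val) • bb i' := by
      conv_lhs => rw [← bb.sum_repr z]
      rw [map_sum]
      exact Finset.sum_congr rfl fun i' _ => by rw [map_smul, hy, hbk, smul_smul]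
    have hci : bb.repr z i * μ i ^ j.val = cv * bb.repr z i := by
      have h1 := congrArg (fun w' => bb.repr w' i) (hexp.symm.trans hz)
      simpa [Finsupp.single_apply] using h1
    have : cv = μ i ^ j.val := mul_right_cancel₀ hi (by rw [← hci, mul_comm])
    rw [this, hμj]
    exact hj _ (hmemS i)
  have hscal := CharArc.scalar_of_small hπ hirrE hnc (a := ξ)
    (AddChar.norm_apply _ _) (v₀ := e (bb i₀)) (fun h => bb.ne_zero i₀ (e.injective (h.trans (map_zero e).symm)))
    (by rw [he, hy, hbk, hμj, map_smul]) hsmall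
  have hρy : ρ y = ξ • 1 := by
    apply LinearMap.ext
    intro z
    apply e.injective
    rw [← he, hscal]
    simp
  have hker : ρ.ker = ⊥ := by
    refine (Subgroup.Normal.eq_bot_or_eq_top inferInstance).resolve_right fun htop => ?_
    have hall : ∀ g, ρ g = 1 := fun g => MonoidHom.mem_ker.mp (htop ▸ Subgroup.mem_top g)
    have hn' : n = 1 := by
      have hW : (⟨Submodule.span ℂ {bb i₀}, fun g w hw => by rw [hall g]; exact hw⟩ :
          Subrepresentation ρ) = ⊤ := (hirr.eq_bot_or_eq_top _).resolve_left fun h =>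
        bb.ne_zero i₀ (Submodule.span_singleton_eq_bot.mp (congrArg Subrepresentation.toSubmodule h))
      have h2 : Module.finrank ℂ ↥(Submodule.span ℂ {bb i₀}) = n := by
        rw [show Submodule.span ℂ {bb i₀} = ⊤ from congrArg Subrepresentation.toSubmodule hW,
          finrank_top, hfin]
      rw [finrank_span_singleton (bb.ne_zero i₀)] at h2
      exact h2.symm
    refine hχ1 (Subtype.ext (funext fun g => ?_))
    show ρ.character g = _
    rw [Block.oneIrr_apply, Representation.character, hall g, Module.End.one_eq_id, LinearMap.trace_id, hfin, hn']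
    simp
  have hcomm : y ∈ Subgroup.center G := by
    rw [Subgroup.mem_center_iff]
    intro g
    apply (MonoidHom.ker_eq_bot_iff ρ).mp hker
    rw [map_mul, map_mul, hρy]
    simp
  rw [hcen, Subgroup.mem_bot] at hcomm
  exact hy1 hcomm

end Cfsg.Agent.S4484
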