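import Cfsg.Statements.S4485
import Cfsg.Agent.Lib.Char.UniformMain
import Cfsg.Agent.Lib.Char.Abelian

set_option autoImplicit false
open Cfsg
open scoped commutatorElement

namespace Cfsg.Agent.S4485

universe u

private theorem normal_aux {p : ℕ} [Fact p.Prime] :
    ∀ (k : ℕ) {G : Type u} [Group G] [Finite G] (P : Sylow p G), Nat.card G ≤ k →
      (∀ x ∈ (P : Subgroup G), x ≠ 1 → Subgroup.centralizer ({x} : Set G) =
        Subgroup.centralizer ((P : Subgroup G) : Set G)) →
      ∀ χ : G → ℂ, Cfsg.IsCharacter G χ → (∀ g : G, χ g = χ 1 → g = 1) →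
      Cfsg.charDegree χ ^ 2 + 1 < Nat.card (P : Subgroup G) → (P : Subgroup G).Normal := by
  intro k
  induction k with
  | zero => intro G _ _ P hk; exact absurd hk (by have := Nat.card_pos (α := G); omega)
  | succ k ih =>
    intro G _ _ P hk hstar χ hχ hfaith hdeg
    classical
    haveI := Fintype.ofFinite G
    by_cases hK : ∃ K : Subgroup G, K.Normal ∧ K ≠ ⊤ ∧ (P : Subgroup G) ≤ K
    · obtain ⟨K, hKn, hKt, hPK⟩ := hK
      have hlt : Nat.card K < Nat.card G := by
        refine lt_of_le_of_ne (Subgroup.card_le_card_group K) fun h => hKt ?_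
        exact Subgroup.eq_top_of_card_eq K h
      have hstarK : ∀ x ∈ ((P.subtype hPK : Sylow p K) : Subgroup K), x ≠ 1 →
          Subgroup.centralizer ({x} : Set K) =
            Subgroup.centralizer (((P.subtype hPK : Sylow p K) : Subgroup K) : Set K) := by
        intro x hx hx1
        have e := hstar (x : G) hx (fun h => hx1 (Subtype.ext h))
        ext w
        have ew : (w : G) ∈ Subgroup.centralizer ({(x : G)} : Set G) ↔
            (w : G) ∈ Subgroup.centralizer ((P : Subgroup G) : Set G) := by rw [e]
        rw [Subgroup.mem_centralizer_singleton_iff, Subgroup.mem_centralizer_iff] at ew ⊢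
        constructor
        · intro h y hy
          exact Subtype.ext (ew.1 (congrArg Subtype.val h) (y : G) hy)
        · intro h
          exact Subtype.ext (ew.2 fun y hy => congrArg Subtype.val (h ⟨y, hPK hy⟩ hy))
      have hcard : Nat.card ((P.subtype hPK : Sylow p K) : Subgroup K) =
          Nat.card (P : Subgroup G) :=
        Nat.card_congr (Subgroup.subgroupOfEquivOfLe hPK).toEquiv
      have hres := Lib.Char.isCharacter_restrict hχ K
      have hd : Cfsg.charDegree (fun x : K => χ x) = Cfsg.charDegree χ :=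
        Lib.Char.charDegree_eq_of_apply_one (Lib.Char.apply_one_eq_charDegree hχ)
      haveI := ih (P.subtype hPK) (by omega) hstarK (fun x : K => χ x) hres
        (fun g hg => Subtype.ext (hfaith g hg)) (by rw [hd, hcard]; exact hdeg)
      refine ⟨fun x hx g => ?_⟩
      have hm : g * x * g⁻¹ ∈ K := hKn.conj_mem x (hPK hx) g
      have hz : IsPGroup p (Subgroup.zpowers (⟨_, hm⟩ : K)) := by
        refine Lib.Block.IsPElem.isPGroup_zpowers ?_
        obtain ⟨j, hj⟩ := IsPGroup.iff_orderOf.1 P.2 ⟨x, hx⟩
        refine ⟨j, ?_⟩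
        rw [← hj, ← Subgroup.orderOf_coe, ← Subgroup.orderOf_coe]
        exact (MulAut.conj g).orderOf_eq x
      obtain ⟨Q, hQ⟩ := hz.exists_le_sylow
      have := Sylow.unique_of_normal (P.subtype hPK) this
      rw [Subsingleton.elim Q (P.subtype hPK)] at hQ
      exact hQ (Subgroup.mem_zpowers _)
    · have hnone : ∀ K : Subgroup G, K.Normal → (P : Subgroup G) ≤ K → K = ⊤ := fun K h1 h2 => by
        by_contra h; exact hK ⟨K, h1, h, h2⟩
      have hlin : ∀ [Fintype G] (ψ : Cfsg.IrrCharacter G),
          Cfsg.classInner χ (ψ : G → ℂ) ≠ 0 → (ψ : G → ℂ) 1 = 1 := by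
        intro _ ψ hψ
        by_cases h1 : (ψ : G → ℂ) = fun _ => 1
        · rw [h1]
        obtain ⟨a, ha⟩ := Lib.Char.isCharacter_eq_sum hχ
        have hc : Cfsg.classInner χ (ψ : G → ℂ) = (a ψ : ℂ) := by
          rw [ha, Lib.Char.classInner_sum_left]
          simp [Lib.Char.classInner_smul_left, Lib.Char.classInner_irrCharacter]
        have h := congrFun ha 1
        simp only [Finset.sum_apply, Pi.smul_apply, smul_eq_mul,
          Lib.Char.apply_one_eq_charDegree hχ] at h
        rw [Finset.sum_congr rfl fun φ _ => by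
          rw [Lib.Char.apply_one_eq_charDegree (Lib.Char.isCharacter_of_isIrr φ.2)]] at h
        have h' : Cfsg.charDegree χ = ∑ φ, a φ * Cfsg.charDegree (φ : G → ℂ) := by exact_mod_cast h
        have hle : Cfsg.charDegree (ψ : G → ℂ) ≤ Cfsg.charDegree χ := by
          rw [h']
          refine le_trans ?_ (Finset.single_le_sum
            (f := fun φ : Cfsg.IrrCharacter G => a φ * Cfsg.charDegree (φ : G → ℂ))
            (fun _ _ => Nat.zero_le _) (Finset.mem_univ ψ))
          refine Nat.le_mul_of_pos_left _ (Nat.pos_of_ne_zero fun h0 => hψ ?_)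
          rw [hc, h0, Nat.cast_zero]
        have hf := Lib.Char.UC.degree_eq_one (hstar : Lib.Char.UC.Star P) hnone ψ h1
          (lt_of_le_of_lt (Nat.add_le_add_right (Nat.pow_le_pow_left hle 2) 1) hdeg)
        rw [Lib.Char.apply_one_eq_charDegree (Lib.Char.isCharacter_of_isIrr ψ.2), hf, Nat.cast_one]
      have hcomm : ∀ g ∈ commutator G, g = 1 := fun g hg =>
        hfaith g (Lib.Char.commutator_apply_of_linear_constituents hχ hlin g hg)
      refine ⟨fun x hx g => ?_⟩
      have h := hcomm ⁅g, x⁆ (Subgroup.commutator_mem_commutator (Subgroup.mem_top g) (Subgroup.mem_top x))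
      rw [commutatorElement_eq_one_iff_mul_comm] at h
      rwa [h, mul_inv_cancel_right]

/-- Let G be a finite group and p a prime dividing its order such that every non-identity element of a Sylow p-subgroup P has the same centralizer as P itself (so P is abelian); let p^n be the order of P. If G has a faithful character of degree x with x² < p^n − 1, then P is normal in G. -/
theorem result {G : Type*} [Group G] [Finite G] (p : ℕ) (hp : p.Prime) (hpG : p ∣ Nat.card G) (P : Sylow p G) (hstar : ∀ x ∈ (P : Subgroup G), x ≠ 1 → Subgroup.centralizer ({x} : Set G) = Subgroup.centralizer ((P : Subgroup G) : Set G)) (n : ℕ) (hn : Nat.card P = p ^ n) (χ : G → ℂ) (hχ : Cfsg.IsCharacter G χ) (hfaith : ∀ g : G, χ g = χ 1 → g = 1) (hdeg : Cfsg.charDegree χ ^ 2 + 1 < p ^ n) : (P : Subgroup G).Normal := by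
  haveI : Fact p.Prime := ⟨hp⟩
  exact normal_aux (Nat.card G) P le_rfl hstar χ hχ hfaith (by rw [hn]; exact hdeg)

end Cfsg.Agent.S4485
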