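import Cfsg.Statements.S4486
import Cfsg.Agent.Lib.Char.UniformMain

set_option autoImplicit false
open Cfsg

namespace Cfsg.Agent.S4486

/-- Let G be a finite group and p a prime dividing its order such that every non-identity element of a Sylow p-subgroup P has the same centralizer as P; let p^n be the order of P. If G has a non-principal irreducible character χ of degree x with x² < p^n − 1, then either G has a proper normal subgroup containing P, or G has a normal subgroup of index p^n and x = 1. -/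
theorem result {G : Type*} [Group G] [Finite G] (p : ℕ) (hp : p.Prime) (hpG : p ∣ Nat.card G) (P : Sylow p G) (hstar : ∀ x ∈ (P : Subgroup G), x ≠ 1 → Subgroup.centralizer ({x} : Set G) = Subgroup.centralizer ((P : Subgroup G) : Set G)) (n : ℕ) (hn : Nat.card P = p ^ n) (χ : Cfsg.IrrCharacter G) (h1 : (χ : G → ℂ) ≠ fun _ => 1) (hdeg : Cfsg.charDegree (χ : G → ℂ) ^ 2 + 1 < p ^ n) : (∃ K : Subgroup G, K.Normal ∧ K ≠ ⊤ ∧ (P : Subgroup G) ≤ K) ∨ ((∃ N : Subgroup G, N.Normal ∧ N.index = p ^ n) ∧ Cfsg.charDegree (χ : G → ℂ) = 1) := by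
  classical
  haveI : Fact p.Prime := ⟨hp⟩
  haveI := Fintype.ofFinite G
  by_cases hK : ∃ K : Subgroup G, K.Normal ∧ K ≠ ⊤ ∧ (P : Subgroup G) ≤ K
  · exact Or.inl hK
  refine Or.inr ?_
  have hnone : ∀ K : Subgroup G, K.Normal → (P : Subgroup G) ≤ K → K = ⊤ := fun K h1 h2 => by
    by_contra h; exact hK ⟨K, h1, h, h2⟩
  have hst : Lib.Char.UC.Star P := hstar
  have hf := Lib.Char.UC.degree_eq_one hst hnone χ h1 (by rw [hn]; exact hdeg)
  refine ⟨?_, hf⟩
  have hc := Lib.Char.isCharacter_of_isIrr χ.2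
  have hx1 : (χ : G → ℂ) 1 = 1 := by rw [Lib.Char.apply_one_eq_charDegree hc, hf, Nat.cast_one]
  obtain ⟨l, hl⟩ := Lib.Char.exists_hom_of_degree_one hc hx1
  obtain ⟨ξ, hξ, hξl⟩ := (Lib.Char.UC.exists_extension hst).1 (l.comp (P : Subgroup G).subtype)
  have hξ1 : ξ ≠ 1 := by
    intro h
    have hle : (P : Subgroup G) ≤ l.ker := fun x hx => by
      have := hξl ⟨x, hx⟩
      rw [h] at this
      exact this.symm
    have htop := hnone l.ker inferInstance hle
    refine h1 (funext fun g => ?_)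
    have hg : l g = 1 := (htop ▸ Subgroup.mem_top g : g ∈ l.ker)
    rw [hl, hg, Units.val_one]
  have hle : Subgroup.normalizer ((P : Subgroup G) : Set G) ≤
      Subgroup.centralizer ((P : Subgroup G) : Set G) := by
    intro g hg
    refine Lib.Char.UC.mem_C_of_fixed hst hg hξ hξ1 fun c hc => ?_
    have hm : g⁻¹ * (c : G) * g ∈ (P : Subgroup G) := by
      simpa using (Subgroup.mem_normalizer_iff.1 (inv_mem hg) (c : G)).1 hc
    have e1 := hξl ⟨_, hm⟩
    have e2 := hξl ⟨_, hc⟩
    rw [e1]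
    refine Eq.trans ?_ e2.symm
    simp [mul_comm (l g)⁻¹]
  refine ⟨(MonoidHom.transferSylow P hle).ker, MonoidHom.normal_ker _, ?_⟩
  rw [(MonoidHom.ker_transferSylow_isComplement' P hle).symm.index_eq_card, hn]

end Cfsg.Agent.S4486
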