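import Cfsg.Statements.S4487
import Cfsg.Agent.Lib.Block.NormalP
import Cfsg.Agent.Lib.Block.Defect
import Cfsg.Agent.Lib.Block.Principal
import Cfsg.Agent.Lib.Hall.Basic

set_option autoImplicit false
open Cfsg

namespace Cfsg.Agent.S4487

/-- Let G be a finite group and p a prime such that G has no non-trivial normal subgroup of order prime to p and C_G(O_p(G)) ≤ O_p(G). Then G has a single p-block: any two irreducible characters lie in the same block relative to every maximal ideal M of the algebraic integers containing p. -/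
theorem result {G : Type*} [Group G] [Finite G] (p : ℕ) [Fact p.Prime] (M : Ideal Cfsg.AlgInt) (hM : Cfsg.IsPModular p M) (hcore : Cfsg.pPrimeCore p G = ⊥) (hconstr : Subgroup.centralizer ((Cfsg.pCore p G) : Set G) ≤ Cfsg.pCore p G) (χ ψ : Cfsg.IrrCharacter G) : Cfsg.SameBlock M (χ : G → ℂ) (ψ : G → ℂ) := by
  classical
  haveI := hM.2.1
  have key : ∀ φ : Cfsg.IrrCharacter G, Cfsg.SameBlock M (φ : G → ℂ) (Lib.Block.oneIrr G : G → ℂ) := by
    intro φ
    obtain ⟨ξ, hξ, hξQ⟩ := Lib.Block.exists_mem_trivial_on hM (Lib.Hall.isPGroup_pCore p)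
      (Lib.Block.isPBlock_blockOf (M := M) φ)
    refine Lib.Block.sameBlock_trans hξ (Lib.Block.sameBlock_iff.2 fun g => ?_)
    by_cases hg : g ∈ Subgroup.centralizer ((Cfsg.pCore p G) : Set G)
    · have h1 := hξQ g (hconstr hg)
      simp only [Cfsg.centralChar, h1, Lib.Block.oneIrr_apply, mul_one, div_one]
      rw [mul_div_assoc, div_self (Lib.Block.deg_ne_zero ξ), mul_one]
    · have hz : ∀ ζ : Cfsg.IrrCharacter G, Lib.Block.redC M (Cfsg.centralChar (ζ : G → ℂ) g) = 0 := by
        intro ζ
        by_contra h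
        exact hg (Lib.Block.mem_centralizer_of_lambda hM (Lib.Hall.isPGroup_pCore p) ζ h)
      rw [hz, hz]
  exact Lib.Block.sameBlock_trans (key χ) (Lib.Block.sameBlock_symm (key ψ))

end Cfsg.Agent.S4487
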