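import Cfsg.Statements.S4488
import Cfsg.Agent.Lib.Char.SchurBound

set_option autoImplicit false
open Cfsg

namespace Cfsg.Agent.S4488

/-- Let the finite group G have a faithful p-rational character χ of degree n (all values of χ lie in the field generated over ℚ by a root of unity of order prime to p), and let p^a be the order of a Sylow p-subgroup of G. Then a ≤ Σ_{i ≥ 0} ⌊n / ((p − 1)·p^i)⌋ (a finite sum; the terms vanish once (p − 1)p^i > n). -/
theorem result {G : Type*} [Group G] [Finite G] (p : ℕ) (hp : p.Prime) (χ : G → ℂ) (hχ : Cfsg.IsCharacter G χ) (hfaith : ∀ g : G, χ g = χ 1 → g = 1) (hrat : (∃ r : ℕ, 0 < r ∧ ¬ p ∣ r ∧ ∀ g : G, χ g ∈ IntermediateField.adjoin ℚ ({Complex.exp (2 * Real.pi * Complex.I / r)} : Set ℂ))) (n : ℕ) (hn : Cfsg.charDegree χ = n) : (Nat.card G).factorization p ≤ ∑ i ∈ Finset.range (n + 1), n / ((p - 1) * p ^ i) := by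
  classical
  obtain ⟨r, hr0, hr, hv⟩ := hrat
  haveI : Fact p.Prime := ⟨hp⟩
  obtain ⟨P⟩ : Nonempty (Sylow p G) := inferInstance
  have hn' : χ 1 = (n : ℂ) := hn ▸ Lib.Char.apply_one_eq_charDegree hχ
  have hdvd := Lib.Char.SchurBound.card_dvd hp hχ hfaith hn' (P : Subgroup G) P.2 (fun g hg => by
    obtain ⟨k, hk⟩ := P.2 ⟨g, hg⟩
    obtain ⟨j, -, hj⟩ := (Nat.dvd_prime_pow hp).1 (orderOf_dvd_of_pow_eq_one
      (show g ^ p ^ k = 1 by simpa using congrArg Subtype.val hk))
    exact Lib.Char.SchurBound.exists_int_value hp hχ hj hr0 hr (hv g))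
  rw [Sylow.card_eq_multiplicity] at hdvd
  have h2 := (hp.pow_dvd_iff_le_factorization
    (mul_ne_zero (pow_pos hp.pos _).ne' (Nat.factorial_ne_zero _))).1 hdvd
  rw [Lib.Char.SchurBound.factorization_pow_mul_factorial hp _ (n + 1)
    (Nat.lt_succ_of_le (Nat.div_le_self _ _))] at h2
  simpa [Nat.div_div_eq_div_mul] using h2

end Cfsg.Agent.S4488
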