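import Cfsg.Statements.S4490
import Cfsg.Agent.Lib.RealOdd.Galois

set_option autoImplicit false
open Cfsg

namespace Cfsg.Agent.S4490

/-- Let G be a finite group and M a maximal ideal of the algebraic integers containing 2. Every 2-block B of G whose defect groups are the Sylow 2-subgroups of G (a block of full defect) and which is not the principal block is different from its complex-conjugate block, the block formed by the complex conjugates of the members of B. -/
theorem result {G : Type*} [Group G] [Finite G] (M : Ideal Cfsg.AlgInt) (hM : Cfsg.IsPModular 2 M) (B : Set (Cfsg.IrrCharacter G)) (hB : Cfsg.IsPBlock M B) (P : Sylow 2 G) (hfull : Cfsg.IsDefectGroup 2 M B (P : Subgroup G)) (hnp : B ≠ Cfsg.principalBlock M G) : {ψ : Cfsg.IrrCharacter G | ∃ χ ∈ B, (ψ : G → ℂ) = fun g => (starRingEnd ℂ) ((χ : G → ℂ) g)} ≠ B := by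
  classical
  haveI : M.IsPrime := hM.2.1.isPrime
  have := Fintype.ofFinite G
  intro heq
  apply hnp
  refine Lib.RealOdd.eq_principal_of_stable (k := Nat.card G - 1) hM (fun g _ => ?_) hB ?_ fun χ hχ => ?_
  · refine eq_inv_of_mul_eq_one_left ?_
    rw [← pow_succ, Nat.sub_add_cancel Nat.card_pos, pow_card_eq_one']
  · obtain ⟨g, hg, S, hS⟩ := hfull
    have h1 := congrArg (fun H : Subgroup G => Nat.card H) hS
    rw [Lib.Block.card_sylow_centralizer hM g S, (Lib.Block.defectClass_facts hM hB hg).1] at h1
    rw [show Nat.card (P : Subgroup G) = 2 ^ (Nat.card G).factorization 2 from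
      P.card_eq_multiplicity] at h1
    exact (Nat.pow_right_injective le_rfl h1).symm
  · refine ⟨⟨_, Lib.Char.isIrrCharacter_conj χ.2⟩, ?_, fun g _ => ?_⟩
    · rw [← heq]; exact ⟨χ, hχ, rfl⟩
    · show (starRingEnd ℂ) ((χ : G → ℂ) g) = _
      rw [← Lib.Char.char_inv (Lib.Char.isCharacter_of_isIrr χ.2)]
      refine congrArg (χ : G → ℂ) (eq_inv_of_mul_eq_one_left ?_).symm
      rw [← pow_succ, Nat.sub_add_cancel Nat.card_pos, pow_card_eq_one']

end Cfsg.Agent.S4490
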