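import Cfsg.Statements.S4493
import Cfsg.Agent.Lib.Char.DegreesPrimeTo
import Cfsg.Agent.Lib.HallHigman.Solvable

set_option autoImplicit false
open Cfsg

namespace Cfsg.Agent.S4493

/-- Let G be a finite solvable group and p a prime. Then G has a normal abelian Sylow p-subgroup if and only if no irreducible character degree of G is divisible by p. -/
theorem result {G : Type*} [Group G] [Finite G] (hsolv : Group.IsSolvable G) (p : ℕ) (hp : p.Prime) : (∃ P : Subgroup G, P.Normal ∧ (∀ x ∈ P, ∀ y ∈ P, x * y = y * x) ∧ IsPGroup p P ∧ ¬ p ∣ P.index) ↔ ∀ χ : Cfsg.IrrCharacter G, ¬ p ∣ Cfsg.charDegree (χ : G → ℂ) := by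
  haveI := hsolv
  haveI : Fact p.Prime := ⟨hp⟩
  have hs := Lib.HallHigman.isPSolvable_of_isSolvable (G := G) p
  obtain ⟨S⟩ : Nonempty (Sylow p G) := inferInstance
  rw [← Lib.Char.DegreesPrimeTo.iff_degrees hs S]
  constructor
  · rintro ⟨P, hn, hab, hPp, hi⟩
    haveI : Subsingleton (Sylow p G) :=
      (Sylow.unique_of_normal (hPp.toSylow hi) hn).instSubsingleton
    have e : (S : Subgroup G) = P := congrArg (·.toSubgroup) (Subsingleton.elim S (hPp.toSylow hi))
    exact ⟨e ▸ hn, e ▸ ⟨⟨fun a b => Subtype.ext (hab a a.2 b b.2)⟩⟩⟩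
  · rintro ⟨hn, hab⟩
    haveI := hn
    exact ⟨S, hn, fun a ha b hb => congrArg Subtype.val (hab.is_comm.comm ⟨a, ha⟩ ⟨b, hb⟩), S.isPGroup',
      S.not_dvd_index⟩

end Cfsg.Agent.S4493
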