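import Cfsg.Statements.S4494
import Cfsg.Agent.Lib.Heights.Basic

set_option autoImplicit false
open Cfsg

namespace Cfsg.Agent.S4494

/-- The Brauer–Feit bound. Let B be a p-block of the finite group G (relative to a maximal ideal M of the algebraic integers containing p) and let d be its defect. Then the number k(B) of irreducible characters in B satisfies k(B) ≤ p^(2d)/4 + 1, stated here as 4·k(B) ≤ p^(2d) + 4. -/
theorem result {G : Type*} [Group G] [Finite G] (p : ℕ) [Fact p.Prime] (M : Ideal Cfsg.AlgInt) (hM : Cfsg.IsPModular p M) (B : Set (Cfsg.IrrCharacter G)) (hB : Cfsg.IsPBlock M B) : 4 * Nat.card B ≤ p ^ (2 * Cfsg.blockDefect p B) + 4 := by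
  classical
  haveI : M.IsPrime := hM.2.1.isPrime
  have := Fintype.ofFinite G
  have hp : p.Prime := Fact.out
  obtain ⟨χ, hχ, hh⟩ := Lib.Block.exists_height_zero hB p
  obtain ⟨μ, hμ, -, hle⟩ := Lib.Heights.four_mul_sum_le hM hB hχ
  rw [← Lib.Block.blockDefect_eq_of_min hχ hh] at hle
  have h1 : ∀ φ ∈ (Finset.univ.filter (· ∈ B)).erase χ, (1 : ℤ) ≤ μ φ ^ 2 := by
    intro φ hφ
    have hφB : φ ∈ B := (Finset.mem_filter.mp (Finset.mem_of_mem_erase hφ)).2
    have : μ φ ≠ 0 := by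
      intro h
      refine (Lib.Heights.exact_iff hM hB hχ hφB).mp ?_ hh
      rw [hμ, h, mul_zero]; exact dvd_zero _
    nlinarith [mul_self_pos.mpr this]
  have h2 := Finset.sum_le_sum h1
  rw [Finset.sum_const, nsmul_eq_mul, mul_one,
    Finset.card_erase_of_mem (Finset.mem_filter.mpr ⟨Finset.mem_univ χ, hχ⟩),
    ← Fintype.card_subtype, ← Nat.card_eq_fintype_card] at h2
  have hB1 : 0 < Nat.card {φ // φ ∈ B} := by
    haveI : Nonempty {φ // φ ∈ B} := ⟨⟨χ, hχ⟩⟩
    exact Nat.card_pos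
  rw [Nat.cast_sub hB1] at h2
  push_cast at h2
  have : (4 * Nat.card {φ // φ ∈ B} : ℤ) ≤ ((p ^ (2 * Cfsg.blockDefect p B) + 4 : ℕ) : ℤ) := by
    push_cast
    linarith
  exact_mod_cast this

end Cfsg.Agent.S4494
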