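import Cfsg.Statements.S4495
import Cfsg.Agent.Lib.Char.SelfCentGroup

set_option autoImplicit false
open Cfsg

namespace Cfsg.Agent.S4495

/-- Let the finite group G contain an element x of prime order p with C_G(x) = ⟨x⟩, and let t be the number of conjugacy classes of elements of order p. If t ≠ p − 1 then the commutator subgroup has index at most (p − 1)/t; if t = p − 1 it has index exactly p. -/
theorem result {G : Type*} [Group G] [Finite G] (p : ℕ) (hp : p.Prime) (x : G) (hx : orderOf x = p) (hC : Subgroup.centralizer ({x} : Set G) = Subgroup.zpowers x) (t : ℕ) (ht : Nat.card {C : ConjClasses G // ∃ g ∈ C.carrier, orderOf g = p} = t) : (t ≠ p - 1 → (commutator G).index * t ≤ p - 1) ∧ (t = p - 1 → (commutator G).index = p) := by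
  haveI : Fact p.Prime := ⟨hp⟩
  have hiff := Lib.Char.SC.t_eq_iff hx hC ht
  have hcc := Lib.Char.SC.card_classes hx hC
  rw [ht] at hcc
  refine ⟨fun hne => ?_, fun he => ?_⟩
  · have hd : p ∣ Nat.card (commutator G) := by
      by_contra h
      exact hne (hiff.2 h)
    obtain ⟨k, hk⟩ := Lib.Char.SC.index_commutator_dvd hx hC hd
    rw [hk] at hcc
    have h : (commutator G).index * t * k = p - 1 :=
      Nat.eq_of_mul_eq_mul_left hp.pos (by rw [← hcc]; ring)
    exact Nat.le_of_dvd (Nat.sub_pos_of_lt hp.one_lt) ⟨k, h.symm⟩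
  · obtain ⟨hord, hcent⟩ := Lib.Char.SC.centralizer_quotient hx hC (commutator G) (hiff.1 he)
    have htop : Subgroup.zpowers (QuotientGroup.mk x : G ⧸ commutator G) = ⊤ := by
      rw [← hcent, eq_top_iff]
      exact fun a _ => Subgroup.mem_centralizer_singleton_iff.2
        (mul_comm (G := Abelianization G) a _)
    rw [Subgroup.index_eq_card, ← Subgroup.card_top, ← htop, Nat.card_zpowers, hord]

end Cfsg.Agent.S4495
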