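import Cfsg.Statements.S4497
import Cfsg.Agent.Lib.Char.SelfCentGroup

set_option autoImplicit false
open Cfsg

open scoped commutatorElement
namespace Cfsg.Agent.S4497

/-- Let the finite group G contain an element x of prime order p with C_G(x) = ⟨x⟩, let t be the number of conjugacy classes of elements of order p, and let S* = O_{p′}(G) be the largest normal subgroup of order prime to p. Then S* ≤ G′; if t ≠ p − 1 the quotient G′/S* is simple (in particular non-trivial); if t = p − 1 then G′ = S*. -/
theorem result {G : Type*} [Group G] [Finite G] (p : ℕ) (hp : p.Prime) (x : G) (hx : orderOf x = p) (hC : Subgroup.centralizer ({x} : Set G) = Subgroup.zpowers x) (t : ℕ) (ht : Nat.card {C : ConjClasses G // ∃ g ∈ C.carrier, orderOf g = p} = t) : Cfsg.pPrimeCore p G ≤ commutator G ∧ (t ≠ p - 1 → ∀ h : ((Cfsg.pPrimeCore p G).subgroupOf (commutator G)).Normal, IsSimpleGroup (↥(commutator G) ⧸ (Cfsg.pPrimeCore p G).subgroupOf (commutator G))) ∧ (t = p - 1 → commutator G = Cfsg.pPrimeCore p G) := by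
  haveI : Fact p.Prime := ⟨hp⟩
  have hiff := Lib.Char.SC.t_eq_iff hx hC ht
  set S := Cfsg.pPrimeCore p G with hS
  have hSp : ¬ p ∣ Nat.card S := Lib.Hall.not_dvd_card_pPrimeCore hp
  have hle : S ≤ commutator G := by
    intro s hs
    by_cases hd : p ∣ Nat.card (commutator G)
    · have hxG := (Lib.Char.SC.card_dvd_iff_mem hx hC _).1 hd
      have hy : s * x * x⁻¹ ∈ S := by simpa using hs
      obtain ⟨r, hr, hrx⟩ := Lib.Char.SC.exists_conj_eq hx hC S hSp hy
      have e : s = r * x * r⁻¹ * x⁻¹ := by rw [hrx]; group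
      rw [e]
      exact (commutator G).mul_mem ((inferInstance : (commutator G).Normal).conj_mem _ hxG r)
        ((commutator G).inv_mem hxG)
    · have hy : s * x * x⁻¹ ∈ S := by simpa using hs
      obtain ⟨r, hr, hrx⟩ := Lib.Char.SC.exists_conj_eq hx hC S hSp hy
      have e : s = ⁅r, x⁆ := by
        rw [commutatorElement_def, hrx]; group
      rw [e]
      exact Subgroup.commutator_mem_commutator (Subgroup.mem_top _) (Subgroup.mem_top _)
  refine ⟨hle, fun hne hnorm => ?_, fun he =>
    le_antisymm (Lib.Hall.le_pPrimeCore ((hp.coprime_iff_not_dvd.2 (hiff.1 he)).symm)) hle⟩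
  haveI := hnorm
  have hd : p ∣ Nat.card (commutator G) := by
    by_contra h
    exact hne (hiff.2 h)
  have hxG := (Lib.Char.SC.card_dvd_iff_mem hx hC _).1 hd
  set T : Subgroup ↥(commutator G) := S.subgroupOf (commutator G) with hT
  haveI : Nontrivial (↥(commutator G) ⧸ T) :=
    nontrivial_of_ne (QuotientGroup.mk ⟨x, hxG⟩) 1 fun h => by
      rw [QuotientGroup.eq_one_iff, hT, Subgroup.mem_subgroupOf] at h
      exact hSp ((Lib.Char.SC.card_dvd_iff_mem hx hC S).2 h)
  refine ⟨fun L hL => ?_⟩
  set L' := L.comap (QuotientGroup.mk' T) with hL'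
  haveI : L'.Normal := hL.comap _
  have hmap : L = L'.map (QuotientGroup.mk' T) :=
    (Subgroup.map_comap_eq_self_of_surjective (QuotientGroup.mk'_surjective T) L).symm
  by_cases hdL : p ∣ Nat.card L'
  · right
    obtain ⟨y, hy⟩ := exists_prime_orderOf_dvd_card' p hdL
    obtain ⟨P, hP⟩ := Lib.Char.SC.exists_sylow hx hC
    set N : Subgroup G := Subgroup.normalClosure {g : G | orderOf g = p} with hN
    have hNL : N ≤ L'.map (commutator G).subtype := by
      have hall : ∀ g : G, orderOf g = p → g ∈ L'.map (commutator G).subtype := by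
        intro g hg
        have hgG : g ∈ commutator G := by
          obtain ⟨Q, hQ⟩ := (IsPGroup.of_card (n := 1) (G := Subgroup.zpowers g)
            (by rw [Nat.card_zpowers, hg, pow_one])).exists_le_sylow
          obtain ⟨c, hc⟩ := MulAction.exists_smul_eq G P Q
          have h1 : g ∈ ((c • P : Sylow p G) : Subgroup G) := hc ▸ hQ (Subgroup.mem_zpowers g)
          rw [Lib.Transfer.mem_smul_sylow, hP] at h1
          have h2 := (inferInstance : (commutator G).Normal).conj_mem _ (Subgroup.zpowers_le.2 hxG h1) c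
          simpa [mul_assoc] using h2
        -- both generate Sylow subgroups of `G'`
        have hQ : IsPGroup p (Subgroup.zpowers (⟨g, hgG⟩ : commutator G)) :=
          IsPGroup.of_card (n := 1) (by rw [Nat.card_zpowers, Subgroup.orderOf_mk, hg, pow_one])
        have hY : IsPGroup p (Subgroup.zpowers (y : commutator G)) :=
          IsPGroup.of_card (n := 1) (by rw [Nat.card_zpowers, Subgroup.orderOf_coe, hy, pow_one])
        obtain ⟨Q₁, hQ₁⟩ := hQ.exists_le_sylow
        obtain ⟨Q₂, hQ₂⟩ := hY.exists_le_sylow
        have hcard : ∀ Q : Sylow p (commutator G), Nat.card (Q : Subgroup (commutator G)) ≤ p := by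
          intro Q
          obtain ⟨R, hR⟩ := (Q.2.map (commutator G).subtype).exists_le_sylow
          refine le_trans (le_of_eq (Subgroup.card_map_of_injective (Subgroup.subtype_injective _)).symm)
            ((Subgroup.card_le_of_le hR).trans (le_of_eq ?_))
          rw [Nat.card_congr (Sylow.equiv R P).toEquiv, hP, Nat.card_zpowers, hx]
        have h2 : (Q₂ : Subgroup (commutator G)) ≤ L' := by
          rw [← Subgroup.eq_of_le_of_card_ge hQ₂
            ((hcard Q₂).trans (by rw [Nat.card_zpowers, Subgroup.orderOf_coe, hy]))]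
          exact Subgroup.zpowers_le.2 y.2
        obtain ⟨c, hc⟩ := MulAction.exists_smul_eq (commutator G) Q₂ Q₁
        have h3 : (⟨g, hgG⟩ : commutator G) ∈ L' := by
          have h4 : (⟨g, hgG⟩ : commutator G) ∈ ((c • Q₂ : Sylow p (commutator G)) : Subgroup _) :=
            hc ▸ hQ₁ (Subgroup.mem_zpowers _)
          rw [Lib.Transfer.mem_smul_sylow] at h4
          have h5 := (inferInstance : L'.Normal).conj_mem _ (h2 h4) c
          simpa [mul_assoc] using h5
        exact ⟨_, h3, rfl⟩
      rw [hN, Subgroup.normalClosure, Subgroup.closure_le]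
      intro g hg
      obtain ⟨a, ha, hc⟩ := Group.mem_conjugatesOfSet_iff.1 hg
      obtain ⟨c, hc⟩ := isConj_iff.1 hc
      refine hall g ?_
      rw [← hc]
      exact (orderOf_injective (MulAut.conj c).toMonoidHom (MulAut.conj c).injective a).trans ha
    have hG : commutator G ≤ N := Lib.Char.SC.commutator_le_of_dvd hx hC N
      ((Lib.Char.SC.card_dvd_iff_mem hx hC N).2 (Subgroup.subset_normalClosure hx))
    have htop : L' = ⊤ := by
      rw [eq_top_iff]
      intro g _
      obtain ⟨a, ha, e⟩ := hNL (hG g.2)
      exact (Subtype.ext e : a = g) ▸ ha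
    rw [hmap, htop, Subgroup.map_top_of_surjective _ (QuotientGroup.mk'_surjective T)]
  · left
    have h1 : L' ≤ Cfsg.pPrimeCore p (commutator G) :=
      Lib.Hall.le_pPrimeCore (hp.coprime_iff_not_dvd.2 hdL).symm
    set K := (Cfsg.pPrimeCore p (commutator G)).map (commutator G).subtype with hK
    haveI : (Cfsg.pPrimeCore p (commutator G)).Characteristic := inferInstance
    haveI : K.Normal := ConjAct.normal_of_characteristic_of_normal
    have h2 : K ≤ S := Lib.Hall.le_pPrimeCore (by
      rw [hK, Subgroup.card_map_of_injective (Subgroup.subtype_injective _)]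
      exact Lib.Hall.coprime_card_pPrimeCore p)
    rw [eq_bot_iff, hmap, Subgroup.map_le_iff_le_comap]
    intro g hg
    rw [Subgroup.mem_comap, Subgroup.mem_bot, QuotientGroup.mk'_apply, QuotientGroup.eq_one_iff, hT,
      Subgroup.mem_subgroupOf]
    exact h2 ⟨g, h1 hg, rfl⟩

end Cfsg.Agent.S4497
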