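import Cfsg.Statements.S4498
import Cfsg.Agent.Lib.Char.SectionInner
import Cfsg.Agent.Lib.Block.Principal

set_option autoImplicit false
open Cfsg

namespace Cfsg.Agent.S4498

/-- Let p and q be distinct primes dividing the order of the finite group G, and suppose G has no element of order p·q. Fix maximal ideals M_p over p and M_q over q of the algebraic integers. Then the principal p-block and the principal q-block of G have a non-principal irreducible character in common. -/
theorem result {G : Type*} [Group G] [Finite G] (p q : ℕ) [Fact p.Prime] [Fact q.Prime] (hpq : p ≠ q) (hp : p ∣ Nat.card G) (hq : q ∣ Nat.card G) (hno : ∀ g : G, orderOf g ≠ p * q) (Mp Mq : Ideal Cfsg.AlgInt) (hMp : Cfsg.IsPModular p Mp) (hMq : Cfsg.IsPModular q Mq) : ∃ χ : Cfsg.IrrCharacter G, (χ : G → ℂ) ≠ (fun _ => 1) ∧ χ ∈ Cfsg.principalBlock Mp G ∧ χ ∈ Cfsg.principalBlock Mq G := by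
  classical
  haveI := Fintype.ofFinite G
  haveI := hMp.2.1
  haveI := hMq.2.1
  by_contra hne
  obtain ⟨a, ha⟩ := exists_prime_orderOf_dvd_card' p hp
  obtain ⟨b, hb⟩ := exists_prime_orderOf_dvd_card' q hq
  have key : ∀ {r : ℕ} [Fact r.Prime] (M : Ideal Cfsg.AlgInt) (hM : Cfsg.IsPModular r M) {c : G},
      orderOf c = r → ∀ g : G, (∀ z, Cfsg.IsPPart r g z → ¬ IsConj z c) →
      ∑ χ ∈ Finset.univ.filter (fun χ : Cfsg.IrrCharacter G => χ ∈ Cfsg.principalBlock M G),
        (χ : G → ℂ) g * starRingEnd ℂ ((χ : G → ℂ) c) = 0 := by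
    intro r _ M hM c hc g h
    haveI := hM.2.1
    obtain ⟨z, hz⟩ := Lib.Block.exists_isPPart (p := r) g
    obtain ⟨v, hv, hcm, hzp, hvr⟩ := id hz
    set w : Subgroup.centralizer ({z} : Set G) :=
      ⟨v, Subgroup.mem_centralizer_singleton_iff.2 hcm.symm.eq⟩ with hw
    have h0 := Lib.Char.sum_block_cross_eq_zero hM hzp
      (B := Cfsg.principalBlock M G) Lib.Block.isPBlock_principalBlock (y₁ := w)
      (by rwa [hw, Subgroup.orderOf_mk]) (g := c) fun w' hw' hc' => by
        obtain ⟨d, hc'⟩ := isConj_iff.1 hc'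
        have h1 := Lib.Block.IsPPart.conj (Lib.Block.isPPart_mul hzp
          (show ¬ r ∣ orderOf (w' : G) by rwa [Subgroup.orderOf_coe])
          (Subgroup.mem_centralizer_singleton_iff.1 w'.2).symm) d
        rw [hc'] at h1
        exact h z hz (isConj_iff.2 ⟨d, Lib.Block.IsPPart.unique h1
          (Lib.Block.isPPart_self ⟨1, by rw [hc, pow_one]⟩)⟩)
    rw [← Finset.sum_filter] at h0
    rw [← hv]
    exact h0
  set Sp := Finset.univ.filter (fun χ : Cfsg.IrrCharacter G => χ ∈ Cfsg.principalBlock Mp G) with hSp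
  set Sq := Finset.univ.filter (fun χ : Cfsg.IrrCharacter G => χ ∈ Cfsg.principalBlock Mq G) with hSq
  set F : G → ℂ := ∑ χ ∈ Sp, starRingEnd ℂ ((χ : G → ℂ) a) • (χ : G → ℂ) with hF
  set H : G → ℂ := ∑ χ ∈ Sq, starRingEnd ℂ ((χ : G → ℂ) b) • (χ : G → ℂ) with hH
  have hzero : Cfsg.classInner F H = 0 := by
    simp only [Cfsg.classInner]
    refine mul_eq_zero_of_right _ (Finset.sum_eq_zero fun g _ => ?_)
    by_cases h : ∃ z, Cfsg.IsPPart p g z ∧ IsConj z a
    · obtain ⟨z, hz, hza⟩ := h
      have : H g = 0 := by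
        simp only [hH, Finset.sum_apply, Pi.smul_apply, smul_eq_mul]
        rw [← key Mq hMq hb g ?_]
        · exact Finset.sum_congr rfl fun χ _ => mul_comm _ _
        intro w hw hwb
        obtain ⟨v, hv, hcv, hzp, -⟩ := id hz
        obtain ⟨u, hu, hcu, hwp, -⟩ := id hw
        have hzo : orderOf z = p := by rw [← Lib.Block.orderOf_of_isConj hza, ha]
        have hwo : orderOf w = q := by rw [← Lib.Block.orderOf_of_isConj hwb, hb]
        have hcop : (orderOf z).Coprime (orderOf w) := by
          rw [hzo, hwo]; exact (Nat.coprime_primes Fact.out Fact.out).2 hpq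
        have hzw : Commute z w := by
          have h1 : Commute z g := by rw [← hv]; exact (Commute.refl z).mul_right hcv
          exact Lib.Block.IsPPart.commute_of_commute hw h1
        exact hno (z * w) (by rw [hzw.orderOf_mul_eq_mul_orderOf_of_coprime hcop, hzo, hwo])
      rw [this, map_zero, mul_zero]
    · push Not at h
      have : F g = 0 := by
        simp only [hF, Finset.sum_apply, Pi.smul_apply, smul_eq_mul]
        rw [← key Mp hMp ha g h]
        exact Finset.sum_congr rfl fun χ _ => mul_comm _ _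
      rw [this, zero_mul]
  rw [hF, hH, Lib.Char.classInner_sum_left] at hzero
  simp only [Lib.Char.classInner_sum_right, Lib.Char.classInner_smul_left,
    Lib.Char.classInner_smul_right, Lib.Char.classInner_irrCharacter, mul_ite, mul_one, mul_zero,
    Finset.sum_ite_eq] at hzero
  rw [Finset.sum_eq_single (Lib.Block.oneIrr G)] at hzero
  · simp [Sq, Lib.Block.oneIrr_mem, Lib.Block.oneIrr_apply] at hzero
  · intro χ hχ hne1
    split_ifs with h
    · exact absurd ⟨χ, fun e => hne1 (Subtype.ext e), (Finset.mem_filter.1 hχ).2,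
        (Finset.mem_filter.1 h).2⟩ hne
    · rfl
  · intro h
    exact absurd (Finset.mem_filter.2 ⟨Finset.mem_univ _, Lib.Block.oneIrr_mem⟩) h

end Cfsg.Agent.S4498
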