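import Cfsg.Statements.S4499
import Cfsg.Agent.Lib.Heights.Basic

set_option autoImplicit false
open Cfsg

namespace Cfsg.Agent.S4499

/-- Let G be a finite group whose order has p-part p^a (a ≥ 1), and fix a maximal ideal M of the algebraic integers containing p. If the degree of one irreducible character of a p-block B is divisible by p^(a−1), then the degree of every irreducible character in B is divisible by p^(a−1) (so B has defect at most 1). -/
theorem result {G : Type*} [Group G] [Finite G] (p : ℕ) [Fact p.Prime] (M : Ideal Cfsg.AlgInt) (hM : Cfsg.IsPModular p M) (hpa : p ∣ Nat.card G) (B : Set (Cfsg.IrrCharacter G)) (hB : Cfsg.IsPBlock M B) (χ : Cfsg.IrrCharacter G) (hχ : χ ∈ B) (hdiv : p ^ ((Nat.card G).factorization p - 1) ∣ Cfsg.charDegree (χ : G → ℂ)) (ψ : Cfsg.IrrCharacter G) (hψ : ψ ∈ B) : p ^ ((Nat.card G).factorization p - 1) ∣ Cfsg.charDegree (ψ : G → ℂ) := by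
  classical
  haveI : M.IsPrime := hM.2.1.isPrime
  have := Fintype.ofFinite G
  have hp : p.Prime := Fact.out
  have hpos : 0 < Cfsg.charDegree (χ : G → ℂ) := Lib.Char.charDegree_pos χ.2
  have hv : (Nat.card G).factorization p - 1 ≤ (Cfsg.charDegree (χ : G → ℂ)).factorization p :=
    (hp.pow_dvd_iff_le_factorization hpos.ne').mp hdiv
  suffices h0 : Cfsg.blockHeight p B (χ : G → ℂ) = 0 by
    exact (pow_dvd_pow p (hv.trans (Lib.Block.le_of_height_zero h0 hψ))).trans (Nat.ordProj_dvd _ p)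
  by_contra hne
  obtain ⟨ψ₀, h₀, hh₀⟩ := Lib.Block.exists_height_zero hB p
  obtain ⟨μ, hμ, heq, -⟩ := Lib.Heights.four_mul_sum_le hM hB hχ
  set v := (Cfsg.charDegree (χ : G → ℂ)).factorization p
  have hpμ : (p : ℤ) ∣ μ χ := by
    have h := (Lib.Heights.exact_iff hM hB hχ hχ).mpr hne
    rw [hμ, pow_succ] at h
    exact (mul_dvd_mul_iff_left (pow_ne_zero _ (Int.natCast_ne_zero.mpr hp.ne_zero))).mp h
  have hψne : ψ₀ ≠ χ := fun h => hne (h ▸ hh₀)
  have hunit : μ ψ₀ ≠ 0 := by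
    intro h
    have h2 : ¬ (p : ℤ) ^ (v + 1) ∣ Lib.Heights.mult p ψ₀ χ :=
      fun hd => (Lib.Heights.exact_iff hM hB h₀ hχ).mp hd hh₀
    rw [Lib.Heights.mult_comm hp, hμ, h, mul_zero] at h2
    exact h2 (dvd_zero _)
  have hsum : 0 < μ χ * ((p : ℤ) ^ ((Nat.card G).factorization p - v) - μ χ) := by
    rw [← heq]
    refine lt_of_lt_of_le (by positivity : 0 < μ ψ₀ ^ 2) ?_
    exact Finset.single_le_sum (fun φ _ => sq_nonneg (μ φ))
      (Finset.mem_erase.mpr ⟨hψne, Finset.mem_filter.mpr ⟨Finset.mem_univ _, h₀⟩⟩)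
  have hpe : (p : ℤ) ^ ((Nat.card G).factorization p - v) ≤ (p : ℤ) ^ 1 :=
    pow_le_pow_right₀ (by exact_mod_cast hp.pos) (by omega)
  rw [pow_one] at hpe
  rcases lt_trichotomy (μ χ) 0 with h | h | h
  · have h2 : (0 : ℤ) ≤ (p : ℤ) ^ ((Nat.card G).factorization p - v) := by positivity
    nlinarith
  · rw [h, zero_mul] at hsum; exact lt_irrefl _ hsum
  · have h3 := Int.le_of_dvd h hpμ
    nlinarith

end Cfsg.Agent.S4499
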