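import Cfsg.Statements.S4500
import Cfsg.Agent.Lib.Char.SectionInner
import Cfsg.Agent.Lib.Char.Burnside
import Cfsg.Agent.Lib.CharTools.Basic
import Cfsg.Agent.Lib.Block.Exist
import Cfsg.Agent.S4710

set_option autoImplicit false
open Cfsg

namespace Cfsg.Agent.S4500

/-- Let G be a non-trivial finite group of order p^a · q^b · r^c with p, q, r distinct primes and a ≤ 2. Then G has a non-principal irreducible character whose degree is a power of q, and a non-principal irreducible character whose degree is a power of r; the power may be the zeroth, so a non-principal linear character serves for both. -/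
theorem result {G : Type*} [Group G] [Finite G] [Nontrivial G] (p q r a b c : ℕ) (hp : p.Prime) (hq : q.Prime) (hr : r.Prime) (hpq : p ≠ q) (hpr : p ≠ r) (hqr : q ≠ r) (ha : a ≤ 2) (hG : Nat.card G = p ^ a * q ^ b * r ^ c) : (∃ χ : Cfsg.IrrCharacter G, (χ : G → ℂ) ≠ (fun _ => 1) ∧ ∃ k : ℕ, Cfsg.charDegree (χ : G → ℂ) = q ^ k) ∧ ∃ χ : Cfsg.IrrCharacter G, (χ : G → ℂ) ≠ (fun _ => 1) ∧ ∃ k : ℕ, Cfsg.charDegree (χ : G → ℂ) = r ^ k := by
  have key : ∀ (q r b c : ℕ), q.Prime → r.Prime → p ≠ q → p ≠ r → q ≠ r →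
      Nat.card G = p ^ a * q ^ b * r ^ c →
      ∃ χ : Cfsg.IrrCharacter G, (χ : G → ℂ) ≠ (fun _ => 1) ∧
        ∃ k : ℕ, Cfsg.charDegree (χ : G → ℂ) = q ^ k := by
    classical
    intro q r b c hq hr hpq hpr hqr hG
    haveI := Fintype.ofFinite G
    by_cases hper : commutator G = ⊤
    swap
    · obtain ⟨g, hg⟩ : ∃ g, g ∉ commutator G := by
        by_contra hc
        push Not at hc
        exact hper (eq_top_iff.2 fun x _ => hc x)
      obtain ⟨l, hl⟩ := Lib.CharTools.exists_linear_ne_one hg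
      refine ⟨⟨_, Lib.Char.isIrrCharacter_linear l⟩, fun e => hl (Units.ext (congrFun e g)), 0, ?_⟩
      exact Lib.Char.charDegree_eq_of_apply_one (by simp)
    have ha1 : 0 < a := by
      by_contra h0
      have ha0 : a = 0 := by omega
      subst ha0
      haveI := Lib.Char.isSolvable_of_card_eq_two_primes hq hr _ G rfl (fun s hs hd => by
        rw [hG, pow_zero, one_mul] at hd
        rcases hs.dvd_mul.1 hd with h | h
        · exact Or.inl ((Nat.prime_dvd_prime_iff_eq hs hq).1 (hs.dvd_of_dvd_pow h))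
        · exact Or.inr ((Nat.prime_dvd_prime_iff_eq hs hr).1 (hs.dvd_of_dvd_pow h)))
      exact (Group.IsSolvable.commutator_lt_top_of_nontrivial G).ne hper
    haveI : Fact p.Prime := ⟨hp⟩
    obtain ⟨M, hM⟩ := Lib.Block.exists_isPModular hp
    haveI := hM.2.1
    set B := Cfsg.principalBlock M G with hBdef
    have hB : Cfsg.IsPBlock M B := Lib.Block.isPBlock_principalBlock
    have hone : Lib.Block.oneIrr G ∈ B := Lib.Block.oneIrr_mem
    have h1d : Cfsg.charDegree (Lib.Block.oneIrr G : G → ℂ) = 1 := Lib.Char.charDegree_one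
    have hfac : (Nat.card G).factorization p = a := by
      have hz : ∀ (s e : ℕ), s.Prime → p ≠ s → (s ^ e).factorization p = 0 := fun s e hs hne => by
        rw [hs.factorization_pow, Finsupp.single_eq_of_ne hne]
      rw [hG, Nat.factorization_mul (mul_ne_zero (pow_pos hp.pos a).ne' (pow_pos hq.pos b).ne')
        (pow_pos hr.pos c).ne', Nat.factorization_mul (pow_pos hp.pos a).ne' (pow_pos hq.pos b).ne',
        Finsupp.add_apply, Finsupp.add_apply, hz q b hq hpq, hz r c hr hpr, hp.factorization_pow,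
        Finsupp.single_eq_same, Nat.add_zero]
    have hinf : sInf ((fun χ : Cfsg.IrrCharacter G =>
        (Cfsg.charDegree (χ : G → ℂ)).factorization p) '' B) = 0 :=
      Nat.le_zero.1 (Nat.sInf_le ⟨Lib.Block.oneIrr G, hone, by
        show (Cfsg.charDegree _).factorization p = 0
        rw [h1d]; simp⟩)
    have hd : Cfsg.blockDefect p B = a := by
      rw [Cfsg.blockDefect, hinf, hfac, Nat.sub_zero]
    have hh : ∀ χ ∈ B, ¬ p ∣ Cfsg.charDegree (χ : G → ℂ) := by
      intro χ hχ hdv
      obtain ⟨-, h⟩ := Cfsg.Agent.S4710.result p M hM B hB a hd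
      have h0 : Cfsg.blockHeight p B (χ : G → ℂ) = 0 := by
        rcases Nat.lt_or_ge a 2 with h' | h'
        · exact (h χ hχ).1 (by omega)
        · have := (h χ hχ).2 h'; omega
      rw [Cfsg.blockHeight, hinf, Nat.sub_zero] at h0
      have := (hp.dvd_iff_one_le_factorization (Lib.Char.charDegree_pos χ.2).ne').1 hdv
      omega
    obtain ⟨x, hx⟩ := exists_prime_orderOf_dvd_card' (G := G) p
      (hG ▸ Dvd.dvd.mul_right (Dvd.dvd.mul_right (dvd_pow_self p ha1.ne') _) _)
    have hx1 : ¬ IsConj x 1 := fun h => hp.ne_one (by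
      rw [← hx, isConj_one_left.1 h, orderOf_one])
    have horth := Lib.Char.sum_block_pElem_eq_zero hM
      (show Lib.Block.IsPElem p x from ⟨1, by rw [hx, pow_one]⟩)
      (show Lib.Block.IsPElem p (1 : G) from ⟨0, by simp⟩) hx1 hB
      (Finset.univ.filter (· ∈ B)) (fun χ => by simp)
    by_contra hcon
    push Not at hcon
    have hdiv : ∀ χ : Cfsg.IrrCharacter G, χ ∈ B → χ ≠ Lib.Block.oneIrr G →
        r ∣ Cfsg.charDegree (χ : G → ℂ) := by
      intro χ hχ hne
      by_contra hnr
      have hd := Lib.Char.charDegree_dvd_card χ.2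
      rw [hG] at hd
      have h1 := ((((Nat.Prime.coprime_iff_not_dvd hr).2 hnr).pow_left c).symm).dvd_of_dvd_mul_right hd
      have h2 := ((((Nat.Prime.coprime_iff_not_dvd hp).2 (hh χ hχ)).pow_left a).symm).dvd_of_dvd_mul_left h1
      obtain ⟨k, -, hk⟩ := (Nat.dvd_prime_pow hq).1 h2
      exact hcon χ (fun e => hne (Subtype.ext (e.trans (funext fun g =>
        (Lib.Block.oneIrr_apply g).symm)))) k hk
    rw [← Finset.add_sum_erase _ _ (show Lib.Block.oneIrr G ∈ Finset.univ.filter (· ∈ B) by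
      simp [hone])] at horth
    simp only [Lib.Block.oneIrr_apply, map_one, mul_one] at horth
    have hint : IsIntegral ℤ ((1 : ℂ) / (r : ℂ)) := by
      have : ((1 : ℂ) / (r : ℂ)) = - ∑ χ ∈ (Finset.univ.filter (· ∈ B)).erase (Lib.Block.oneIrr G),
          (χ : G → ℂ) x * ((Cfsg.charDegree (χ : G → ℂ) / r : ℕ) : ℂ) := by
        rw [eq_neg_of_add_eq_zero_left horth, neg_div, Finset.sum_div]
        refine congrArg Neg.neg (Finset.sum_congr rfl fun χ hχ => ?_)
        rw [Nat.cast_div (hdiv χ (Finset.mem_filter.1 (Finset.mem_of_mem_erase hχ)).2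
          (Finset.ne_of_mem_erase hχ)) (Nat.cast_ne_zero.2 hr.ne_zero),
          Lib.Char.apply_one_eq_charDegree (Lib.Char.isCharacter_of_isIrr χ.2), map_natCast,
          mul_div_assoc]
      rw [this]
      refine (IsIntegral.sum _ fun χ _ => ?_).neg
      exact (Lib.Char.char_isIntegral (Lib.Char.isCharacter_of_isIrr χ.2) x).mul
        (isIntegral_algebraMap (R := ℤ) (x := ((Cfsg.charDegree (χ : G → ℂ) / r : ℕ) : ℤ)))
    have := Lib.Char.dvd_of_isIntegral_div hr.ne_zero (N := 1) (by simpa using hint)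
    exact hr.not_dvd_one this
  exact ⟨key q r b c hq hr hpq hpr hqr hG, key r q c b hr hq hpr hpq hqr.symm (by rw [hG]; ring)⟩

end Cfsg.Agent.S4500
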