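import Cfsg.Statements.S4503
import Cfsg.Agent.Lib.DefectOne.SmallDegree
import Cfsg.Agent.Lib.Block.Exist

set_option autoImplicit false
open Cfsg

namespace Cfsg.Agent.S4503

/-- Let G be a finite group whose order is divisible by the prime p exactly once and which has no normal subgroup of order p. Then every faithful character χ of G has degree at least (p − 1)/2: 2·χ(1) + 1 ≥ p. -/
theorem result {G : Type*} [Group G] [Finite G] (p : ℕ) (hp : p.Prime) (hdiv : p ∣ Nat.card G) (hsq : ¬ p ^ 2 ∣ Nat.card G) (hnn : ∀ H : Subgroup G, H.Normal → Nat.card H ≠ p) (χ : G → ℂ) (hχ : Cfsg.IsCharacter G χ) (hfaith : ∀ g : G, χ g = χ 1 → g = 1) : p ≤ 2 * Cfsg.charDegree χ + 1 := by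
  haveI : Fact p.Prime := ⟨hp⟩
  obtain ⟨M, hM⟩ := Lib.Block.exists_isPModular hp
  have := hM.2.1.isPrime
  obtain ⟨P⟩ := (inferInstance : Nonempty (Sylow p G))
  have hP : Nat.card (P : Subgroup G) = p := by
    have hfac : (Nat.card G).factorization p = 1 := by
      refine le_antisymm ?_ (hp.factorization_pos_of_dvd Nat.card_pos.ne' hdiv)
      by_contra h
      exact hsq ((hp.pow_dvd_iff_le_factorization Nat.card_pos.ne').2 (by omega))
    rw [P.card_eq_multiplicity, hfac, pow_one]
  by_contra hlt
  exact hnn P (Lib.DefectOne.sylow_normal_of_small_degree hM (Nat.card G) G P le_rfl hP χ hχ hfaith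
    (by omega)) hP

end Cfsg.Agent.S4503
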