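import Cfsg.Statements.S4506
import Cfsg.Agent.Lib.CharPConj.Bound
import Cfsg.Agent.Lib.Block.Exist
-- import your own Cfsg.Agent.* helpers here

set_option autoImplicit false
open Cfsg

namespace Cfsg.Agent.S4506

/-- Let G be a finite group, p a prime, p^a the p-part of the order of G and g′ its p′-part. Call two irreducible characters p-conjugate when one is obtained from the other by applying a field automorphism of ℂ that fixes the g′-th roots of unity, and let r be the number of characters p-conjugate to the irreducible character χ (χ included). Then the exponent of p in r·χ(1) is at most a; and if p^a divides r·χ(1) then p^a already divides χ(1). -/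
theorem result {G : Type*} [Group G] [Finite G] (p : ℕ) (hp : p.Prime) (χ : Cfsg.IrrCharacter G) (r : ℕ) (hr : Nat.card {ψ : Cfsg.IrrCharacter G // ∃ σ : ℂ ≃+* ℂ, σ (Complex.exp (2 * Real.pi * Complex.I / ((Nat.card G / p ^ (Nat.card G).factorization p) : ℕ))) = Complex.exp (2 * Real.pi * Complex.I / ((Nat.card G / p ^ (Nat.card G).factorization p) : ℕ)) ∧ (ψ : G → ℂ) = fun g => σ ((χ : G → ℂ) g)} = r) : (r * Cfsg.charDegree (χ : G → ℂ)).factorization p ≤ (Nat.card G).factorization p ∧ (p ^ (Nat.card G).factorization p ∣ r * Cfsg.charDegree (χ : G → ℂ) → p ^ (Nat.card G).factorization p ∣ Cfsg.charDegree (χ : G → ℂ)) := by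
  classical
  haveI := Fintype.ofFinite G
  obtain ⟨M, hM⟩ := Cfsg.Agent.Lib.Block.exists_isPModular hp
  haveI := hM.2.1.isPrime
  set g' := Nat.card G / p ^ (Nat.card G).factorization p with hg'
  set ζ := Complex.exp (2 * Real.pi * Complex.I / (g' : ℕ)) with hζdef
  have hg'0 : 0 < g' := Nat.ordCompl_pos p Nat.card_pos.ne'
  have hζ : IsPrimitiveRoot ζ g' := Complex.isPrimitiveRoot_exp g' hg'0.ne'
  set S : Set (Cfsg.IrrCharacter G) :=
    {ψ | ∃ σ : ℂ ≃+* ℂ, σ ζ = ζ ∧ (ψ : G → ℂ) = fun g => σ ((χ : G → ℂ) g)} with hS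
  have hr' : S.toFinset.card = r := by
    rw [← hr, ← Nat.card_eq_card_toFinset]
    rfl
  have hrel : ∀ ψ ∈ S.toFinset, Cfsg.Agent.Lib.CharPConj.Rel p χ ψ := by
    intro ψ hψ
    obtain ⟨σ, hσ, hval⟩ := Set.mem_toFinset.1 hψ
    obtain ⟨k, hk, hpow⟩ := Cfsg.Agent.Lib.CharGalois.exists_pow_of_aut (n := Nat.card G) Nat.card_pos σ
    refine ⟨k, hk, ?_, fun g => ?_⟩
    · have h := hpow ζ (by
        obtain ⟨q, hq⟩ := Nat.ordCompl_dvd (Nat.card G) p
        rw [hq, pow_mul, hζ.pow_eq_one, one_pow])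
      rw [hσ] at h
      refine hζ.pow_inj (Nat.mod_lt _ hg'0) (Nat.mod_lt _ hg'0) ?_
      show ζ ^ (k % g') = ζ ^ (1 % g')
      rw [← pow_eq_pow_mod k hζ.pow_eq_one, ← pow_eq_pow_mod 1 hζ.pow_eq_one, pow_one]
      exact h.symm
    · rw [hval]
      exact Cfsg.Agent.Lib.CharGalois.aut_apply_char hpow (Cfsg.Agent.Lib.Char.isCharacter_of_isIrr χ.2) g
  have hr0 : r ≠ 0 := by
    rw [← hr']
    exact Finset.card_ne_zero.2 ⟨χ, Set.mem_toFinset.2 ⟨RingEquiv.refl ℂ, rfl, rfl⟩⟩
  have hd0 : Cfsg.charDegree (χ : G → ℂ) ≠ 0 := (Cfsg.Agent.Lib.Block.charDegree_pos χ).ne'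
  have hle : (Cfsg.charDegree (χ : G → ℂ)).factorization p ≤ (Nat.card G).factorization p :=
    Cfsg.Agent.Lib.Block.factorization_charDegree_le χ p
  rw [Nat.factorization_mul hr0 hd0, Finsupp.add_apply, hp.pow_dvd_iff_le_factorization
    (mul_ne_zero hr0 hd0), hp.pow_dvd_iff_le_factorization hd0, Nat.factorization_mul hr0 hd0,
    Finsupp.add_apply]
  by_cases hpr : p ∣ r
  · have h := Cfsg.Agent.Lib.CharPConj.factorization_lt hM χ S.toFinset hrel (hr'.symm ▸ hpr)
      (hr'.symm ▸ hr0)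
    rw [hr'] at h
    exact ⟨h.le, fun hc => absurd hc (Nat.not_le.2 h)⟩
  · rw [Nat.factorization_eq_zero_of_not_dvd hpr, zero_add]
    exact ⟨hle, id⟩

end Cfsg.Agent.S4506
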