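import Cfsg.Statements.S4507
import Cfsg.Agent.Lib.DefectOne.GaloisConj
import Cfsg.Agent.Lib.Block.FirstMain

set_option autoImplicit false
open Cfsg

namespace Cfsg.Agent.S4507

/-- Let G be a finite group whose order g is divisible by the prime p exactly once, g′ = g/p, and fix a maximal ideal M of the algebraic integers containing p. Call two irreducible characters p-conjugate when a field automorphism of ℂ fixing the g′-th roots of unity carries one to the other. Let B be a p-block of positive defect (its defect group is a Sylow p-subgroup). Then B contains a subset Y (the exceptional family) such that: Y is a full p-conjugacy class (its members are pairwise p-conjugate and every p-conjugate of a member of Y lies in Y); every member of B outside Y is p-conjugate only to itself; the size t of Y divides p − 1 and B has exactly t + (p − 1)/t members; and there are signs δ_χ = ±1 (χ ∈ B) such that for every p-regular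 element x and every θ ∈ Y, Σ_{χ ∈ B ∖ Y} δ_χ χ(x) + δ_θ θ(x) = 0. -/
theorem result {G : Type*} [Group G] [Finite G] (p : ℕ) [Fact p.Prime] (M : Ideal Cfsg.AlgInt) (hM : Cfsg.IsPModular p M) (hdiv : p ∣ Nat.card G) (hsq : ¬ p ^ 2 ∣ Nat.card G) (B : Set (Cfsg.IrrCharacter G)) (hB : Cfsg.IsPBlock M B) (hd : 0 < Cfsg.blockDefect p B) : ∃ Y : Set (Cfsg.IrrCharacter G), Y ⊆ B ∧ Y.Nonempty ∧ (∀ θ ∈ Y, ∀ ψ : Cfsg.IrrCharacter G, (∃ σ : ℂ ≃+* ℂ, σ (Complex.exp (2 * Real.pi * Complex.I / ((Nat.card G / p ^ (Nat.card G).factorization p) : ℕ))) = Complex.exp (2 * Real.pi * Complex.I / ((Nat.card G / p ^ (Nat.card G).factorization p) : ℕ)) ∧ (ψ : G → ℂ) = fun g => σ ((θ : G → ℂ) g)) ↔ ψ ∈ Y) ∧ (∀ χ ∈ B, χ ∉ Y → ∀ ψ : Cfsg.IrrCharacter G, (∃ σ : ℂ ≃+* ℂ, σ (Complex.exp (2 * Real.pi * Complex.I / ((Nat.card G / p ^ (Nat.card G).factorization p) : ℕ))) = Complex.exp (2 * Real.pi * Complex.I / ((Nat.card G / p ^ (Nat.card G).factorization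 p) : ℕ)) ∧ (ψ : G → ℂ) = fun g => σ ((χ : G → ℂ) g)) → ψ = χ) ∧ Nat.card Y ∣ p - 1 ∧ Nat.card B = Nat.card Y + (p - 1) / Nat.card Y ∧ ∃ δ : Cfsg.IrrCharacter G → ℤ, (∀ χ ∈ B, δ χ = 1 ∨ δ χ = -1) ∧ ∀ x : G, ¬ p ∣ orderOf x → ∀ θ ∈ Y, (∑ᶠ χ ∈ B \ Y, (δ χ : ℂ) * (χ : G → ℂ) x) + (δ θ : ℂ) * (θ : G → ℂ) x = 0 := by
  classical
  have := hM.2.1.isPrime
  haveI := Fintype.ofFinite G
  have hp : p.Prime := Fact.out
  have hfac : (Nat.card G).factorization p = 1 := by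
    refine le_antisymm ?_ ?_
    · by_contra h
      exact hsq ((hp.pow_dvd_iff_le_factorization Nat.card_pos.ne').2 (by omega))
    · exact hp.factorization_pos_of_dvd Nat.card_pos.ne' hdiv
  have hd1 : Cfsg.blockDefect p B = 1 := by
    refine le_antisymm ?_ hd
    rw [Cfsg.blockDefect, hfac]
    exact Nat.sub_le _ _
  obtain ⟨D, hD⟩ := Lib.Block.exists_isDefectGroup hM hB
  obtain ⟨P, rfl⟩ : ∃ P : Sylow p G, (P : Subgroup G) = D :=
    ⟨Sylow.ofCard D (by rw [(Lib.Block.IsDefectGroup.props hM hB hD).2.1, hd1, hfac]), by simp⟩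
  have hP : Nat.card (P : Subgroup G) = p := by
    rw [(Lib.Block.IsDefectGroup.props hM hB hD).2.1, hd1, pow_one]
  obtain ⟨b, hb⟩ := Lib.Block.exists_inducing_block hM P.2
    (Lib.Char.UC.le_C (Lib.DefectOne.star_of_card hP)) le_rfl (Lib.Char.UC.C_le_N P) hB hD le_rfl
  obtain ⟨φ, hφ⟩ := Lib.Block.isPBlock_nonempty hb.1
  obtain ⟨⟨ξ, θ⟩, hξθ⟩ := (Lib.DefectOne.phi_bijective hP).2 φ
  have hind : Cfsg.IsInducedBlock M (Lib.Char.UC.C P)
      (Cfsg.blockOf M (θ.1 : Lib.Char.UC.C P → ℂ)) B := by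
    have hmem : φ ∈ Cfsg.blockOf M (θ.1 : Lib.Char.UC.C P → ℂ) := by
      rw [← hξθ]
      exact (Lib.DefectOne.phi_mem_block_iff hM hP ξ θ θ).2 rfl
    rwa [Lib.Block.eq_of_mem_of_mem (Lib.Block.isPBlock_blockOf θ.1) hb.1 hmem hφ]
  obtain ⟨hdvd, Z, Y, sgn, ε, hBeq, hdis, hZc, hYc, hε, hsgn, hZfix, hYfix, htrans, hrel⟩ :=
    Lib.DefectOne.exists_structure_galois hM hP hsq θ hB hind hd1
  set e := (Lib.Char.UC.C P).relIndex (Lib.DefectOne.Tgrp θ)
  have hg : Nat.card G / p ^ (Nat.card G).factorization p = Nat.card G / p := by rw [hfac, pow_one]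
  rw [hg]
  set g' := Nat.card G / p with hg'
  have hg'0 : 0 < g' := Nat.div_pos (Nat.le_of_dvd Nat.card_pos hdiv) hp.pos
  set ζ := Complex.exp (2 * Real.pi * Complex.I / (g' : ℕ)) with hζdef
  have hζ : IsPrimitiveRoot ζ g' := Complex.isPrimitiveRoot_exp g' hg'0.ne'
  have hto : ∀ σ : ℂ ≃+* ℂ, σ ζ = ζ → ∃ k, ∃ hk : Lib.DefectOne.Adm p G k,
      ∀ χ : Cfsg.IrrCharacter G, ∀ g, σ ((χ : G → ℂ) g) =
        (Lib.DefectOne.powIrr k hk χ : G → ℂ) g := by
    intro σ hσ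
    obtain ⟨k, hk, hpow⟩ := Lib.CharGalois.exists_pow_of_aut (n := Nat.card G) Nat.card_pos σ
    have hkm : k ≡ 1 [MOD g'] := by
      have h := hpow ζ (by
        rw [← Nat.div_mul_cancel hdiv, pow_mul, hζ.pow_eq_one, one_pow])
      rw [hσ] at h
      refine (hζ.pow_inj (Nat.mod_lt _ hg'0) (Nat.mod_lt _ hg'0) ?_)
      show ζ ^ (k % g') = ζ ^ (1 % g')
      rw [← pow_eq_pow_mod k hζ.pow_eq_one, ← pow_eq_pow_mod 1 hζ.pow_eq_one, pow_one]
      exact h.symm
    exact ⟨k, ⟨hk, hkm⟩, fun χ g =>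
      Lib.CharGalois.aut_apply_char hpow (Lib.Char.isCharacter_of_isIrr χ.2) g⟩
  have hcard : Nat.card (Y : Set (Cfsg.IrrCharacter G)) = Y.card := by
    rw [Nat.card_coe_set_eq, Set.ncard_coe_finset]
  have he : 0 < e := Nat.pos_of_ne_zero Subgroup.index_ne_zero_of_finite
  have hp1 : 0 < p - 1 := by have := hp.two_le; omega
  refine ⟨(Y : Set _), ?_, ?_, fun θ' hθ' ψ => ⟨?_, fun hψ => ?_⟩, fun χ hχ hχY ψ hψ => ?_,
    ?_, ?_, fun χ => if χ ∈ Y then -ε else sgn χ, fun χ hχ => ?_, fun x hx θ' hθ' => ?_⟩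
  · rw [hBeq]; exact Set.subset_union_right
  · rw [Finset.coe_nonempty, ← Finset.card_pos, hYc]
    exact Nat.div_pos (Nat.le_of_dvd hp1 hdvd) he
  · rintro ⟨σ, hσ, hψ⟩
    obtain ⟨k, hk, hval⟩ := hto σ hσ
    rw [show ψ = Lib.DefectOne.powIrr k hk θ' from Subtype.ext (hψ.trans (funext (hval θ')))]
    exact hYfix θ' hθ' k hk
  · obtain ⟨k, hk, rfl⟩ := htrans θ' hθ' ψ hψ
    obtain ⟨σ, hσ⟩ := Lib.CharGalois.exists_aut_pow (n := Nat.card G) Nat.card_pos hk.1
    refine ⟨σ, ?_, funext fun g => ?_⟩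
    · rw [hσ ζ (by rw [← Nat.div_mul_cancel hdiv, pow_mul, hζ.pow_eq_one, one_pow])]
      rw [pow_eq_pow_mod k hζ.pow_eq_one, show k % g' = 1 % g' from hk.2,
        ← pow_eq_pow_mod 1 hζ.pow_eq_one, pow_one]
    · exact (Lib.CharGalois.aut_apply_char hσ (Lib.Char.isCharacter_of_isIrr θ'.2) g).symm
  · obtain ⟨σ, hσ, hψ⟩ := hψ
    obtain ⟨k, hk, hval⟩ := hto σ hσ
    rw [show ψ = Lib.DefectOne.powIrr k hk χ from Subtype.ext (hψ.trans (funext (hval χ)))]
    rw [hBeq] at hχ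
    exact hZfix χ (hχ.resolve_right hχY) k hk
  · rw [hcard, hYc]
    exact Nat.div_dvd_of_dvd hdvd
  · rw [hcard, hYc, Nat.div_div_self hdvd hp1.ne', hBeq, ← Finset.coe_union, Nat.card_coe_set_eq,
      Set.ncard_coe_finset, Finset.card_union_of_disjoint hdis, hZc, hYc, add_comm]
  · simp only
    split_ifs with h
    · omega
    · rw [hBeq] at hχ
      exact hsgn χ (hχ.resolve_right h)
  · have hset : B \ (Y : Set _) = (Z : Set (Cfsg.IrrCharacter G)) := by
      rw [hBeq, Set.union_diff_right]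
      exact Set.disjoint_iff_inter_eq_empty.1 (Finset.disjoint_coe.2 hdis) |> fun h =>
        sdiff_eq_left.2 (Set.disjoint_iff_inter_eq_empty.2 h)
    rw [hset, finsum_mem_coe_finset, Finset.sum_congr rfl (g := fun χ => (sgn χ : ℂ) * (χ : G → ℂ) x)
      fun χ hχ => by simp only [if_neg (Finset.disjoint_left.1 hdis hχ)]]
    rw [← hrel θ' hθ' x hx]
    simp only [if_pos (show θ' ∈ Y from hθ')]
    push_cast
    ring

end Cfsg.Agent.S4507
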