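import Cfsg.Statements.S4508
import Cfsg.Agent.Lib.CharSelfCentDet.Basic
-- import your own Cfsg.Agent.* helpers here

set_option autoImplicit false
open Cfsg

namespace Cfsg.Agent.S4508

/-- Let the finite group G contain an element x of prime order p with C_G(x) = ⟨x⟩, and let t be the number of conjugacy classes of elements of order p. If G has an irreducible character of degree p − 1, then t is even or the commutator subgroup has even index. -/
theorem result {G : Type*} [Group G] [Finite G] (p : ℕ) (hp : p.Prime) (x : G) (hx : orderOf x = p) (hC : Subgroup.centralizer ({x} : Set G) = Subgroup.zpowers x) (t : ℕ) (ht : Nat.card {C : ConjClasses G // ∃ g ∈ C.carrier, orderOf g = p} = t) (χ : Cfsg.IrrCharacter G) (hχ : Cfsg.charDegree (χ : G → ℂ) + 1 = p) : Even t ∨ Even (commutator G).index := by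
  classical
  haveI := Fintype.ofFinite G
  haveI := Fact.mk hp
  set P : Subgroup G := Subgroup.zpowers x with hPdef
  haveI := Fintype.ofFinite P
  have hP : Nat.card P = p := by rw [hPdef, Nat.card_zpowers, hx]
  have hCP : Subgroup.centralizer (P : Set G) ≤ P := by
    conv_rhs => rw [← hC]
    exact Subgroup.centralizer_le (Set.singleton_subset_iff.2 (Subgroup.mem_zpowers x))
  have hcc := Cfsg.Agent.Lib.Char.SC.card_classes hx hC
  rw [ht] at hcc
  obtain ⟨e, he⟩ := Cfsg.Agent.Lib.Char.SC.card_normalizer (p := p) hx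
  rw [he] at hcc
  have hte : t * e = p - 1 := Nat.eq_of_mul_eq_mul_left hp.pos (by rw [← hcc]; ring)
  rcases Nat.even_or_odd t with hte' | hto
  · exact Or.inl hte'
  refine Or.inr ?_
  by_cases hp2 : p = 2
  · subst hp2
    have ht1 : t = 2 - 1 := by
      have : t ≤ 1 := Nat.le_of_dvd Nat.one_pos ⟨e, hte.symm⟩
      obtain ⟨j, rfl⟩ := hto
      omega
    have hnd := (Cfsg.Agent.Lib.Char.SC.t_eq_iff hx hC ht).1 ht1
    have h2 : 2 ∣ Nat.card (commutator G) * (commutator G).index := by
      rw [Subgroup.card_mul_index, ← hx]; exact orderOf_dvd_natCard x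
    exact even_iff_two_dvd.2 ((hp.dvd_mul.1 h2).resolve_left hnd)
  have hpodd : Odd p := hp.odd_of_ne_two hp2
  have hee : Even e := by
    have h : Even (t * e) := by rw [hte]; exact Nat.Odd.sub_odd hpodd odd_one
    exact (Nat.even_mul.1 h).resolve_left (Nat.not_even_iff_odd.2 hto)
  have he0 : 0 < e := Nat.pos_of_ne_zero fun h => by
    rw [h, mul_zero] at hte; have := hp.two_le; omega
  have he2 : 2 ≤ e := by obtain ⟨j, rfl⟩ := hee; omega
  have hd1 : (χ : G → ℂ) 1 = ((p - 1 : ℕ) : ℂ) := by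
    rw [Cfsg.Agent.Lib.Char.apply_one_eq_charDegree (Cfsg.Agent.Lib.Char.isCharacter_of_isIrr χ.2),
      ← hχ, Nat.add_sub_cancel]
  have h0 := Cfsg.Agent.Lib.CharSelfCentDet.sum_eq_zero P hP hCP he he2 ⟨t, by rw [← hte, mul_comm]⟩
    χ.2 hd1
  obtain ⟨k, e', he'odd, hek⟩ := Nat.exists_eq_two_pow_mul_odd he0.ne'
  obtain ⟨a, rfl⟩ : ∃ a, k = a + 1 := by
    cases k with
    | zero =>
      rw [pow_zero, one_mul] at hek
      exact absurd (hek ▸ hee) (Nat.not_even_iff_odd.2 he'odd)
    | succ a => exact ⟨a, rfl⟩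
  set N := Subgroup.normalizer (P : Set G) with hN
  haveI : (P.subgroupOf N).Normal := Subgroup.normal_in_normalizer
  -- the quotient is cyclic
  have hcyc : IsCyclic (N ⧸ P.subgroupOf N) := by
    haveI : IsCyclic P := isCyclic_of_prime_card hP
    haveI : IsCyclic (MulAut P) := by
      haveI : IsCyclic (ZMod (Nat.card P))ˣ := by rw [hP]; infer_instance
      exact isCyclic_of_surjective (IsCyclic.mulAutMulEquiv P).symm (IsCyclic.mulAutMulEquiv P).symm.surjective
    have hker : (P.normalizerMonoidHom).ker = P.subgroupOf N := by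
      rw [Subgroup.normalizerMonoidHom_ker]
      refine le_antisymm (fun n hn => hCP hn) fun n hn => ?_
      rw [Subgroup.mem_subgroupOf, Subgroup.mem_centralizer_iff]
      intro y hy
      exact congrArg Subtype.val ((IsCyclic.commGroup (α := P)).mul_comm ⟨y, hy⟩ ⟨n, hn⟩)
    refine isCyclic_of_injective
      (QuotientGroup.lift (P.subgroupOf N) P.normalizerMonoidHom hker.ge) ?_
    intro a b h
    induction a using QuotientGroup.induction_on with
    | H a =>
      induction b using QuotientGroup.induction_on with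
      | H b =>
        have h' : P.normalizerMonoidHom a = P.normalizerMonoidHom b := h
        have hmem : a⁻¹ * b ∈ P.normalizerMonoidHom.ker := by
          rw [MonoidHom.mem_ker, map_mul, map_inv, ← h', inv_mul_cancel]
        exact QuotientGroup.eq.2 (hker.le hmem)
  obtain ⟨q, hq⟩ := hcyc.exists_ofOrder_eq_natCard
  have hqcard : Nat.card (N ⧸ P.subgroupOf N) = e := by
    have h := Subgroup.card_mul_index (P.subgroupOf N)
    rw [Nat.card_congr (Subgroup.subgroupOfEquivOfLe Subgroup.le_normalizer).toEquiv, hP, he] at h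
    exact Nat.eq_of_mul_eq_mul_left hp.pos h
  rw [hqcard] at hq
  obtain ⟨c₀, rfl⟩ := QuotientGroup.mk'_surjective (P.subgroupOf N) q
  have hce : orderOf (QuotientGroup.mk' (P.subgroupOf N) c₀) ∣ orderOf c₀ := orderOf_map_dvd _ _
  rw [hq] at hce
  obtain ⟨d, hd⟩ := hce
  -- an element of order `2 ^ (a + 1)` with nontrivial powers outside `P`
  set c : N := c₀ ^ (orderOf c₀ / 2 ^ (a + 1)) with hcdef
  have hdiv : 2 ^ (a + 1) ∣ orderOf c₀ := ⟨e' * d, by rw [hd, hek]; ring⟩
  have hc : orderOf c = 2 ^ (a + 1) := orderOf_pow_orderOf_div (orderOf_pos c₀).ne' hdiv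
  have hnotP : ∀ i : ℕ, ¬ orderOf (c : G) ∣ i → ((c : G) ^ i) ∉ P := by
    intro i hi hmem
    refine hi ?_
    rw [Subgroup.orderOf_coe, hc]
    have h1 : orderOf ((c : G) ^ i) ∣ p := hP ▸ P.orderOf_dvd_natCard hmem
    have h2 : orderOf ((c : G) ^ i) ∣ 2 ^ (a + 1) := by
      rw [← hc, ← Subgroup.orderOf_coe c]; exact orderOf_pow_dvd i
    have h3 := Nat.dvd_gcd h1 h2
    rw [Nat.Coprime.gcd_eq_one ((Nat.coprime_primes hp Nat.prime_two).2 hp2 |>.pow_right _),
      Nat.dvd_one, orderOf_eq_one_iff] at h3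
    rw [← hc, ← Subgroup.orderOf_coe c]
    exact orderOf_dvd_of_pow_eq_one h3
  obtain ⟨n, ρ, hρ, hρc, hn, hdet⟩ := Cfsg.Agent.Lib.CharClifford.exists_detHom χ.2
  have hnn : n = p - 1 := by exact_mod_cast hn.symm.trans hd1
  have hdet1 : LinearMap.det (ρ (c : G)) = (-1) ^ (e' * t) := by
    refine Cfsg.Agent.Lib.CharSelfCentDet.det_eq_neg_one_pow ρ (a := a)
      (by rw [Subgroup.orderOf_coe, hc]) (by rw [hnn, ← hte, hek]; ring) fun i hi => ?_
    rw [hρc]
    exact Cfsg.Agent.Lib.CharSelfCentDet.apply_eq_zero P hCP hP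
      (Cfsg.Agent.Lib.Char.isCharacter_of_isIrr χ.2) h0 (pow_mem c.2 i) (hnotP i hi)
  rw [(he'odd.mul hto).neg_one_pow] at hdet1
  set l := Cfsg.Agent.Lib.CharClifford.detHom ρ with hl
  have hlc : l (c : G) ≠ 1 := fun h => by
    have h' : (l (c : G) : ℂ) = 1 := by rw [h]; rfl
    rw [hl, Cfsg.Agent.Lib.CharClifford.detHom_apply, hdet1] at h'
    norm_num at h'
  -- the index of the commutator subgroup
  rw [even_iff_two_dvd]
  set z : G ⧸ commutator G := QuotientGroup.mk' _ (c : G) with hz
  have hz1 : z ≠ 1 := fun h => hlc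
    (Abelianization.commutator_subset_ker l ((QuotientGroup.eq_one_iff _).1 h))
  have h1 : orderOf z ∣ 2 ^ (a + 1) := by
    rw [← hc, ← Subgroup.orderOf_coe c]; exact orderOf_map_dvd _ _
  obtain ⟨i, -, hi⟩ := (Nat.dvd_prime_pow Nat.prime_two).1 h1
  cases i with
  | zero => exact absurd (orderOf_eq_one_iff.1 (by rw [hi, pow_zero])) hz1
  | succ i =>
    rw [Subgroup.index_eq_card]
    exact (Dvd.intro_left _ (pow_succ 2 i).symm).trans (hi ▸ orderOf_dvd_natCard z)

end Cfsg.Agent.S4508
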