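import Cfsg.Statements.S4509
import Cfsg.Agent.Lib.Char.SelfCentGroup
-- import your own Cfsg.Agent.* helpers here

set_option autoImplicit false
open Cfsg
open scoped commutatorElement

namespace Cfsg.Agent.S4509

/-- Let the finite group G contain an element x of prime order p with C_G(x) = ⟨x⟩; let t be the number of conjugacy classes of elements of order p and 1 + n·p the number of subgroups of order p. Then G has a normal subgroup of order 1 + n·p if and only if either t = p − 1, or t < p − 1 and G″ ≠ G′. Moreover, if t = p − 1 then G′ has order 1 + n·p and G/G′ is cyclic of order p; and if t < p − 1 and G″ ≠ G′ then G″ has order 1 + n·p and G′ has order p·(1 + n·p). -/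
theorem result {G : Type*} [Group G] [Finite G] (p : ℕ) (hp : p.Prime) (x : G) (hx : orderOf x = p) (hC : Subgroup.centralizer ({x} : Set G) = Subgroup.zpowers x) (t : ℕ) (ht : Nat.card {C : ConjClasses G // ∃ g ∈ C.carrier, orderOf g = p} = t) (n : ℕ) (hn : Nat.card {H : Subgroup G // Nat.card H = p} = 1 + n * p) : ((∃ S : Subgroup G, S.Normal ∧ Nat.card S = 1 + n * p) ↔ (t = p - 1 ∨ (t < p - 1 ∧ derivedSeries G 2 ≠ derivedSeries G 1))) ∧ (t = p - 1 → Nat.card (commutator G) = 1 + n * p ∧ IsCyclic (G ⧸ commutator G) ∧ (commutator G).index = p) ∧ (t < p - 1 → derivedSeries G 2 ≠ derivedSeries G 1 → Nat.card (derivedSeries G 2) = 1 + n * p ∧ Nat.card (commutator G) = p * (1 + n * p)) := by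
  haveI := Fact.mk hp
  have hcc := Cfsg.Agent.Lib.Char.SC.card_classes hx hC
  rw [ht] at hcc
  obtain ⟨e, he⟩ := Cfsg.Agent.Lib.Char.SC.card_normalizer (p := p) hx
  rw [he] at hcc
  have hte : t * e = p - 1 := Nat.eq_of_mul_eq_mul_left hp.pos (by rw [← hcc]; ring)
  have hidxN : (Subgroup.normalizer (Subgroup.zpowers x : Set G)).index = 1 + n * p := by
    rw [← Cfsg.Agent.Lib.Char.SC.card_subgroups_eq hx hC, hn]
  have hG : Nat.card G = (1 + n * p) * (p * e) := by
    rw [← hidxN, ← he, Subgroup.index_mul_card]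
  have hnp : ¬ p ∣ 1 + n * p := fun h =>
    hp.not_dvd_one ((Nat.dvd_add_left (dvd_mul_left p n)).1 h)
  have he1 : 0 < e := Nat.pos_of_ne_zero fun h => by
    rw [h, mul_zero] at hte; have := hp.two_le; omega
  -- the case `t = p - 1`
  have hA : t = p - 1 →
      Nat.card (commutator G) = 1 + n * p ∧ IsCyclic (G ⧸ commutator G) ∧ (commutator G).index = p := by
    intro htp
    have hnd := (Cfsg.Agent.Lib.Char.SC.t_eq_iff hx hC ht).1 htp
    obtain ⟨hord, hcent⟩ := Cfsg.Agent.Lib.Char.SC.centralizer_quotient hx hC (commutator G) hnd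
    have htop : Subgroup.zpowers (QuotientGroup.mk x : G ⧸ commutator G) = ⊤ := by
      rw [← hcent, eq_top_iff]
      exact fun a _ => Subgroup.mem_centralizer_singleton_iff.2 (mul_comm (G := Abelianization G) _ _)
    have hidx : (commutator G).index = p := by
      rw [Subgroup.index_eq_card, ← Subgroup.card_top, ← htop, Nat.card_zpowers, hord]
    have he' : e = 1 := by
      rw [htp] at hte
      exact Nat.eq_of_mul_eq_mul_left (Nat.sub_pos_of_lt hp.one_lt) (hte.trans (mul_one _).symm)
    refine ⟨?_, isCyclic_of_prime_card (p := p) (by rw [← Subgroup.index_eq_card, hidx]), hidx⟩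
    have h := (commutator G).card_mul_index
    rw [hidx, hG, he', mul_one] at h
    exact Nat.eq_of_mul_eq_mul_right hp.pos h
  -- the case `t < p - 1`
  have hB : t < p - 1 → derivedSeries G 2 ≠ derivedSeries G 1 →
      Nat.card (derivedSeries G 2) = 1 + n * p ∧ Nat.card (commutator G) = p * (1 + n * p) := by
    intro htlt hne
    rw [derivedSeries_one] at hne
    set D := derivedSeries G 2 with hD
    have hDeq : D = ⁅commutator G, commutator G⁆ := by
      rw [hD, derivedSeries_succ, derivedSeries_one]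
    haveI : D.Normal := derivedSeries_normal G 2
    have hDle : D ≤ commutator G := by rw [hDeq]; exact Subgroup.commutator_le_right _ _
    have hpG' : p ∣ Nat.card (commutator G) := by
      by_contra h
      exact htlt.ne ((Cfsg.Agent.Lib.Char.SC.t_eq_iff hx hC ht).2 h)
    have hpD : ¬ p ∣ Nat.card D := fun h =>
      hne (le_antisymm hDle (Cfsg.Agent.Lib.Char.SC.commutator_le_of_dvd hx hC D h))
    have hxG' := (Cfsg.Agent.Lib.Char.SC.card_dvd_iff_mem hx hC (commutator G)).1 hpG'
    obtain ⟨hord, hcent⟩ := Cfsg.Agent.Lib.Char.SC.centralizer_quotient hx hC D hpD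
    have hle : commutator G ≤ D ⊔ Subgroup.zpowers x := by
      intro g hg
      have hcomm : (QuotientGroup.mk g : G ⧸ D) * QuotientGroup.mk x =
          QuotientGroup.mk x * QuotientGroup.mk g := by
        rw [← QuotientGroup.mk_mul, ← QuotientGroup.mk_mul, QuotientGroup.eq, hDeq,
          show (g * x)⁻¹ * (x * g) = ⁅x⁻¹, g⁻¹⁆ by rw [commutatorElement_def]; group]
        exact Subgroup.commutator_mem_commutator (Subgroup.inv_mem _ hxG') (Subgroup.inv_mem _ hg)
      have h1 : (QuotientGroup.mk g : G ⧸ D) ∈ Subgroup.zpowers (QuotientGroup.mk x) := by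
        rw [← hcent, Subgroup.mem_centralizer_singleton_iff]; exact hcomm
      obtain ⟨k, hk⟩ := Subgroup.mem_zpowers_iff.1 h1
      rw [← QuotientGroup.mk_zpow, eq_comm, QuotientGroup.eq] at hk
      rw [show g = x ^ k * (g⁻¹ * x ^ k)⁻¹ by group]
      exact Subgroup.mul_mem _ (Subgroup.mem_sup_right (Subgroup.mem_zpowers_iff.2 ⟨k, rfl⟩))
        (Subgroup.mem_sup_left (Subgroup.inv_mem _ hk))
    have hcard : Nat.card (commutator G) = Nat.card D * p := by
      have heq : commutator G = D ⊔ Subgroup.zpowers x :=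
        le_antisymm hle (sup_le hDle (Subgroup.zpowers_le.2 hxG'))
      have hdisj : D ⊓ Subgroup.zpowers x = ⊥ := by
        refine Subgroup.inf_eq_bot_of_coprime ?_
        rw [Nat.card_zpowers, hx]
        exact ((hp.coprime_iff_not_dvd).2 hpD).symm
      have h1 : (D.subgroupOf (D ⊔ Subgroup.zpowers x)).index = p := by
        show D.relIndex (D ⊔ Subgroup.zpowers x) = p
        rw [sup_comm, Subgroup.relIndex_sup_right, ← Subgroup.inf_relIndex_right, hdisj,
          Subgroup.relIndex_bot_left, Nat.card_zpowers, hx]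
      rw [heq, ← Subgroup.card_mul_index (D.subgroupOf (D ⊔ Subgroup.zpowers x)), h1,
        Nat.card_congr (Subgroup.subgroupOfEquivOfLe le_sup_left).toEquiv]
    have hdvd : Nat.card D ∣ 1 + n * p :=
      hidxN ▸ Cfsg.Agent.Lib.Char.SC.card_dvd_index_normalizer hx hC D hpD
    have hidx : p * (commutator G).index ∣ p * e :=
      he ▸ Cfsg.Agent.Lib.Char.SC.index_commutator_dvd hx hC hpG'
    have h := (commutator G).card_mul_index
    rw [hcard, hG] at h
    have hD' : Nat.card D = 1 + n * p := by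
      refine le_antisymm (Nat.le_of_dvd (by positivity) hdvd) ?_
      refine Nat.le_of_mul_le_mul_right ?_ (Nat.mul_pos hp.pos he1)
      rw [← h, mul_assoc]
      exact Nat.mul_le_mul_left _ (Nat.le_of_dvd (Nat.mul_pos hp.pos he1) hidx)
    exact ⟨hD', by rw [hcard, hD', mul_comm]⟩
  refine ⟨⟨fun ⟨S, hS, hScard⟩ => ?_, fun h => ?_⟩, hA, hB⟩
  · haveI := hS
    rcases eq_or_lt_of_le (show t ≤ p - 1 from hte ▸ Nat.le_mul_of_pos_right t he1) with htp | htp
    · exact Or.inl htp
    refine Or.inr ⟨htp, fun heq => ?_⟩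
    have hpS : ¬ p ∣ Nat.card S := by rwa [hScard]
    obtain ⟨hord, -⟩ := Cfsg.Agent.Lib.Char.SC.centralizer_quotient hx hC S hpS
    have hNS : (Subgroup.normalizer (Subgroup.zpowers x : Set G)) ⊔ S = ⊤ := by
      refine (Subgroup.isComplement'_of_card_mul_and_disjoint ?_ ?_).sup_eq_top
      · rw [he, hScard, hG, mul_comm]
      · rw [disjoint_iff, eq_bot_iff]
        rintro s ⟨hsN, hsS⟩
        rw [Subgroup.mem_bot]
        refine Cfsg.Agent.Lib.Char.SC.eq_one_of_commute hx hC S hpS hsS ?_
        have h1 : s * x * s⁻¹ * x⁻¹ ∈ Subgroup.zpowers x :=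
          Subgroup.mul_mem _ ((Subgroup.mem_normalizer_iff.1 hsN x).1 (Subgroup.mem_zpowers x))
            (Subgroup.inv_mem _ (Subgroup.mem_zpowers x))
        have h2 : s * x * s⁻¹ * x⁻¹ ∈ S := by
          rw [show s * x * s⁻¹ * x⁻¹ = s * (x * s⁻¹ * x⁻¹) by group]
          exact S.mul_mem hsS (hS.conj_mem _ (S.inv_mem hsS) x)
        have hco : (Nat.card (Subgroup.zpowers x)).Coprime (Nat.card S) := by
          rw [Nat.card_zpowers, hx]; exact (hp.coprime_iff_not_dvd).2 hpS
        have := (Subgroup.inf_eq_bot_of_coprime hco).le ⟨h1, h2⟩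
        rw [Subgroup.mem_bot, mul_inv_eq_one, mul_inv_eq_iff_eq_mul] at this
        exact this
    set Z := Subgroup.zpowers (QuotientGroup.mk' S x) with hZ
    haveI : Z.Normal := by
      refine ⟨fun z hz q => ?_⟩
      obtain ⟨g, rfl⟩ := QuotientGroup.mk'_surjective S q
      obtain ⟨m, hm, s, hs, rfl⟩ := Subgroup.mem_sup_of_normal_right.1
        (hNS ▸ Subgroup.mem_top g : g ∈ Subgroup.normalizer (Subgroup.zpowers x : Set G) ⊔ S)
      rw [map_mul, show QuotientGroup.mk' S s = 1 from (QuotientGroup.eq_one_iff s).2 hs, mul_one]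
      rw [hZ, ← MonoidHom.map_zpowers] at hz ⊢
      obtain ⟨y, hy, rfl⟩ := hz
      exact ⟨m * y * m⁻¹, (Subgroup.mem_normalizer_iff.1 hm y).1 hy, by simp⟩
    haveI : (Z.comap (QuotientGroup.mk' S)).Normal := inferInstance
    have hxZ : x ∈ Z.comap (QuotientGroup.mk' S) := Subgroup.mem_zpowers _
    have hG'Z : commutator G ≤ Z.comap (QuotientGroup.mk' S) :=
      Cfsg.Agent.Lib.Char.SC.commutator_le_of_dvd hx hC _
        ((Cfsg.Agent.Lib.Char.SC.card_dvd_iff_mem hx hC _).2 hxZ)
    have hD : derivedSeries G 2 ≤ S := by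
      rw [derivedSeries_succ, derivedSeries_one, Subgroup.commutator_le]
      intro a ha b hb
      refine (QuotientGroup.eq_one_iff _).1 (?_ : QuotientGroup.mk' S ⁅a, b⁆ = 1)
      obtain ⟨i, hi⟩ := hG'Z ha
      obtain ⟨j, hj⟩ := hG'Z hb
      rw [map_commutatorElement, commutatorElement_eq_one_iff_mul_comm, ← hi, ← hj]
      exact ((Commute.refl _).zpow_zpow i j).eq
    have hpG' : p ∣ Nat.card (commutator G) := by
      by_contra h
      exact htp.ne ((Cfsg.Agent.Lib.Char.SC.t_eq_iff hx hC ht).2 h)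
    rw [heq, derivedSeries_one] at hD
    exact hpS (hpG'.trans (Subgroup.card_dvd_of_le hD))
  · rcases h with h | ⟨h1, h2⟩
    · exact ⟨commutator G, inferInstance, (hA h).1⟩
    · exact ⟨derivedSeries G 2, derivedSeries_normal G 2, (hB h1 h2).1⟩

end Cfsg.Agent.S4509
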