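import Cfsg.Statements.S4510
import Cfsg.Agent.Lib.Block.Apply
-- import your own Cfsg.Agent.* helpers here

set_option autoImplicit false
open Cfsg Cfsg.Agent.Lib.Block
open Cfsg.Agent.Lib

namespace Cfsg.Agent.S4510

/-- Let G be a finite group, p a prime, M a maximal ideal of the algebraic integers containing p, and call the defect of a conjugacy class the exponent of p in the order of the centralizer of its elements. Two irreducible characters lying in p-blocks of defect exactly d lie in the same block if and only if their central characters (class size times χ(x)/χ(1)) agree modulo the local ideal at M at every p-regular element x whose class has defect exactly d. -/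
theorem result {G : Type*} [Group G] [Finite G] (p : ℕ) [Fact p.Prime] (M : Ideal Cfsg.AlgInt) (hM : Cfsg.IsPModular p M) (d : ℕ) (χ ψ : Cfsg.IrrCharacter G) (hχ : Cfsg.blockDefect p (Cfsg.blockOf M (χ : G → ℂ)) = d) (hψ : Cfsg.blockDefect p (Cfsg.blockOf M (ψ : G → ℂ)) = d) : Cfsg.SameBlock M (χ : G → ℂ) (ψ : G → ℂ) ↔ ∀ x : G, ¬ p ∣ orderOf x → (Nat.card (Subgroup.centralizer ({x} : Set G))).factorization p = d → Cfsg.MemLocalIdeal M (Cfsg.centralChar (χ : G → ℂ) x - Cfsg.centralChar (ψ : G → ℂ) x) := by
  classical
  haveI := hM.2.1
  haveI := Fintype.ofFinite G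
  constructor
  · exact fun h x _ _ => h x
  intro hcls
  set B := blockOf M (χ : G → ℂ) with hB
  set B' := blockOf M (ψ : G → ℂ) with hB'
  have hb : IsPBlock M B := isPBlock_blockOf χ
  have hb' : IsPBlock M B' := isPBlock_blockOf ψ
  have h1 := redC_omega_eq_sum χ (isClassCoeff_eIdem B) (intR_eIdem hb)
  have h2 := redC_omega_eq_sum ψ (isClassCoeff_eIdem B) (intR_eIdem hb)
  have heq : redC M (omega (χ : G → ℂ) (eIdem B)) = redC M (omega (ψ : G → ℂ) (eIdem B)) := by
    rw [h1, h2]
    refine Finset.sum_congr rfl fun C _ => ?_
    by_cases he : redC M ((eIdem B).coeff C.out) = 0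
    · rw [he, zero_mul, zero_mul]
    have hreg := regular_of_redC_blockCoeff_ne_zero hM hb he
    have hle := factorization_le_blockDefect_of_support hM hb he
    rw [hχ] at hle
    rcases hle.lt_or_eq with hlt | heq
    · have z1 : redC M (centralChar (χ : G → ℂ) C.out) = 0 := by
        by_contra hne
        have := blockDefect_le_of_lambda hM hb (mem_blockOf_self χ) hne
        omega
      have z2 : redC M (centralChar (ψ : G → ℂ) C.out) = 0 := by
        by_contra hne
        have := blockDefect_le_of_lambda hM hb' (mem_blockOf_self ψ) hne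
        omega
      rw [z1, z2]
    · rw [(redC_eq_iff (centralChar_mem_locRing χ _) (centralChar_mem_locRing ψ _)).2
        (hcls _ hreg heq)]
  rw [omega_eIdem, omega_eIdem, if_pos (mem_blockOf_self χ), redC_one] at heq
  by_contra hn
  rw [if_neg (show ψ ∉ blockOf M (χ : G → ℂ) from fun h => hn h), redC_zero] at heq
  exact one_ne_zero heq

end Cfsg.Agent.S4510
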