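import Cfsg.Statements.S4512
import Cfsg.Agent.Lib.Block.Klein
-- import your own Cfsg.Agent.* helpers here

set_option autoImplicit false
open Cfsg

open Cfsg Cfsg.Agent.Lib.Block
open Cfsg.Agent.Lib

namespace Cfsg.Agent.S4512

/-- If G is a finite group with a Sylow 2-subgroup that is a Klein four-group and a single conjugacy class of involutions, then its principal 2-block (relative to a maximal ideal M of the algebraic integers containing 2) has 2-regular rank 3: the restrictions of its irreducible characters to the elements of odd order span a space of dimension 3 (it has three irreducible Brauer characters). -/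
theorem result {G : Type*} [Group G] [Finite G] (M : Ideal Cfsg.AlgInt) (hM : Cfsg.IsPModular 2 M) (P : Sylow 2 G)
    (hP : Nat.card P = 4) (hexp : ∀ x : P, x * x = 1)
    (hone : ∀ s t : G, orderOf s = 2 → orderOf t = 2 → IsConj s t) :
    Cfsg.blockRank 2 (Cfsg.principalBlock M G) = 3 := by
  haveI := hM.2.1
  classical
  haveI : Fact (Nat.Prime 2) := ⟨Nat.prime_two⟩
  obtain ⟨S, n, hS, hcard, h1S, hn1, hpm, hsing, hrel, z, hz⟩ :=
    klein_principal P hP hexp hone hM
  haveI := Fintype.ofFinite G
  let R : (G → ℂ) →ₗ[ℂ] (G → ℂ) :=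
    { toFun := pRegularPart 2
      map_add' := fun f g => funext fun x => by
        simp only [pRegularPart_apply, Pi.add_apply]
        split_ifs <;> simp
      map_smul' := fun c f => funext fun x => by
        simp only [pRegularPart_apply, Pi.smul_apply, RingHom.id_apply, smul_eq_mul]
        split_ifs <;> simp }
  set V := irrSpan (principalBlock M G) with hV
  have hrange : LinearMap.range (R.comp V.subtype) = regSpan 2 (principalBlock M G) := by
    rw [LinearMap.range_comp, Submodule.range_subtype, hV, irrSpan, Submodule.map_span, regSpan,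
      Set.image_image]
    rfl
  have hdim : Module.finrank ℂ V = 4 := by
    rw [hV, finrank_irrSpan, ← hcard, ← Nat.card_eq_finsetCard]
    exact Nat.card_congr (Equiv.subtypeEquivRight fun χ => (hS χ).symm)
  have hz2 : 2 ∣ orderOf z := by rw [hz]
  set v : G → ℂ := ∑ χ ∈ S, (n χ : ℂ) • (χ : G → ℂ) with hv
  have hvV : v ∈ V := Submodule.sum_mem _ fun χ hχ => Submodule.smul_mem _ _
    (Submodule.subset_span ⟨χ, (hS χ).1 hχ, rfl⟩)
  have hvz : v z = 4 := by
    rw [hv, Finset.sum_apply]
    rw [Finset.sum_congr rfl (g := fun _ => (1 : ℂ)) fun χ hχ => by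
      rw [Pi.smul_apply, smul_eq_mul, hsing χ hχ z hz2]
      rcases hpm χ hχ with h | h <;> simp [h]]
    simp [hcard]
  have hconst : ∀ w ∈ V, ∀ g : G, 2 ∣ orderOf g → w g = w z := by
    intro w hw g hg
    induction hw using Submodule.span_induction with
    | mem w hw =>
      obtain ⟨χ, hχ, rfl⟩ := hw
      simp only [hsing χ ((hS χ).2 hχ) g hg, hsing χ ((hS χ).2 hχ) z hz2]
    | zero => rfl
    | add a b _ _ ha hb => simp [ha, hb]
    | smul c a _ ha => simp [ha]
  have hker : Module.finrank ℂ (LinearMap.ker (R.comp V.subtype)) = 1 := by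
    have hvk : (⟨v, hvV⟩ : V) ∈ LinearMap.ker (R.comp V.subtype) := by
      rw [LinearMap.mem_ker]
      funext g
      show pRegularPart 2 v g = 0
      rw [pRegularPart_apply]
      split_ifs with hg
      · rfl
      · rw [hv, Finset.sum_apply]
        simpa using hrel g hg
    refine finrank_eq_one (⟨_, hvk⟩ : LinearMap.ker (R.comp V.subtype)) (fun h => ?_) fun w => ?_
    · have h' : v = 0 :=
        congrArg (fun t : LinearMap.ker (R.comp V.subtype) => ((t : V) : G → ℂ)) h
      rw [h'] at hvz
      simp at hvz
    · refine ⟨(w.1 : G → ℂ) z / 4, Subtype.ext (Subtype.ext (funext fun g => ?_))⟩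
      show (w.1 : G → ℂ) z / 4 * v g = (w.1 : G → ℂ) g
      by_cases hg : 2 ∣ orderOf g
      · rw [hconst v hvV g hg, hvz, hconst w.1 w.1.2 g hg]
        field_simp
      · have h0 := congrFun (LinearMap.mem_ker.1 w.2) g
        change pRegularPart 2 (w.1 : G → ℂ) g = 0 at h0
        rw [pRegularPart_apply, if_neg hg] at h0
        have h1 := congrFun (LinearMap.mem_ker.1 hvk) g
        change pRegularPart 2 v g = 0 at h1
        rw [pRegularPart_apply, if_neg hg] at h1
        rw [h0, h1, mul_zero]
  have := LinearMap.finrank_range_add_finrank_ker (R.comp V.subtype)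
  rw [hrange, finrank_regSpan, hker, hdim] at this
  omega

end Cfsg.Agent.S4512
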