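import Cfsg.Statements.S4633
import Cfsg.Agent.Lib.BrauerPairs.CyclicInertial

set_option autoImplicit false
set_option linter.style.haveILetI false
open Cfsg Cfsg.Agent.Lib.Block Cfsg.Agent.Lib.BrauerPairs

namespace Cfsg.Agent.S4633

/-- Let B be a block of the finite group G relative to a maximal ideal M of the algebraic integers containing the prime p, with a nontrivial cyclic defect group P. Let c be a block of C_G(P) inducing B and T the stabilizer of c in N_G(P) (the elements of N_G(P) conjugating c to itself); T contains C_G(P). Then T/C_G(P) is cyclic of order dividing p − 1, and it acts freely on the non-identity elements of P: an element of T fixing some non-identity element of P under conjugation lies in C_G(P). -/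
theorem result {G : Type*} [Group G] [Finite G] (p : ℕ) [Fact p.Prime] (M : Ideal Cfsg.AlgInt) (hM : Cfsg.IsPModular p M) (B : Set (Cfsg.IrrCharacter G)) (hB : Cfsg.IsPBlock M B) (P : Subgroup G) (hPD : Cfsg.IsDefectGroup p M B P) (hP1 : P ≠ ⊥) (hcyc : IsCyclic P) (c : Set (Cfsg.IrrCharacter (Subgroup.centralizer (P : Set G)))) (hc : Cfsg.IsInducedBlock M (Subgroup.centralizer (P : Set G)) c B) (T : Subgroup G) (hT : ∀ g : G, g ∈ T ↔ (g ∈ Subgroup.normalizer (P : Set G) ∧ Cfsg.StabilizesBlock (Subgroup.centralizer (P : Set G)) c g)) [hn : ((Subgroup.centralizer (P : Set G)).subgroupOf T).Normal] : IsCyclic (T ⧸ (Subgroup.centralizer (P : Set G)).subgroupOf T) ∧ (Subgroup.centralizer (P : Set G)).relIndex T ∣ p - 1 ∧ ∀ g ∈ T, ∀ x ∈ P, x ≠ 1 → g * x * g⁻¹ = x → g ∈ Subgroup.centralizer (P : Set G) := by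
  haveI : M.IsPrime := hM.2.1.isPrime
  obtain ⟨hcb, -, -⟩ := id hc
  have hmax := isMaximal_of_inducedBlock hM hB hPD hc
  obtain rfl : T = stab M P c := eq_stab hcb hT
  obtain ⟨φ, hφ⟩ := exists_inertial_embedding hM hmax hcyc hP1
  let ψ : stab M P c ⧸ (Subgroup.centralizer (P : Set G)).subgroupOf (stab M P c) →* (ZMod p)ˣ :=
    QuotientGroup.lift _ φ hφ.ge
  have hψ : Function.Injective ψ := by
    rw [← MonoidHom.ker_eq_bot_iff, QuotientGroup.ker_lift, hφ, QuotientGroup.map_mk'_self]
  refine ⟨isCyclic_of_injective ψ hψ, ?_, fun g hg x hx hx1 hfix =>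
    mem_centralizer_of_fix hM hmax hcyc hg hx hx1 hfix⟩
  have h := Subgroup.card_dvd_of_injective ψ hψ
  rwa [Nat.card_units, Nat.card_zmod, ← Subgroup.index_eq_card] at h

end Cfsg.Agent.S4633
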