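import Cfsg.Statements.S4634
import Cfsg.Agent.Lib.CyclicDefect.Matching
import Cfsg.Agent.Lib.Block.SylowCount
import Cfsg.Agent.Lib.Char.Linear

set_option autoImplicit false
set_option linter.style.haveILetI false
open Cfsg Cfsg.Agent.Lib Cfsg.Agent.Lib.Block Cfsg.Agent.Lib.BrauerPairs Cfsg.Agent.Lib.CyclicDefect
open Cfsg.Agent.Lib.Star

namespace Cfsg.Agent.S4634

universe u v

variable {p : ℕ} {M : Ideal AlgInt} [M.IsPrime]

/-- A single block when no nontrivial regular element centralises the normal Sylow subgroup. -/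
theorem block_eq_univ {X : Type v} [Group X] [Finite X] (hM : IsPModular p M) (P : Sylow p X)
    [(P : Subgroup X).Normal]
    (h : ∀ g ∈ Subgroup.centralizer ((P : Subgroup X) : Set X), ¬ p ∣ orderOf g → g = 1)
    {B : Set (IrrCharacter X)} (hB : IsPBlock M B) : B = Set.univ := by
  have hle : Nat.card {C : ConjClasses X // ∀ g : X, ConjClasses.mk g = C →
      ¬ p ∣ orderOf g ∧ g ∈ Subgroup.centralizer ((P : Subgroup X) : Set X)} ≤ 1 := by
    refine Finite.card_le_one_iff_subsingleton.2 ⟨fun C C' => Subtype.ext ?_⟩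
    obtain ⟨g, hg⟩ := ConjClasses.mk_surjective C.1
    obtain ⟨g', hg'⟩ := ConjClasses.mk_surjective C'.1
    obtain ⟨h1, h2⟩ := C.2 g hg
    obtain ⟨h1', h2'⟩ := C'.2 g' hg'
    rw [← hg, ← hg', h g h2 h1, h g' h2' h1']
  rw [← card_blocks_of_normal_sylow hM P, Finite.card_le_one_iff_subsingleton] at hle
  refine Set.eq_univ_of_forall fun χ => ?_
  have h1 := congrArg Subtype.val (hle.elim ⟨B, hB⟩ ⟨_, isPBlock_blockOf (M := M) χ⟩)
  simp only at h1
  rw [h1]
  exact mem_blockOf_self χ

variable {F : Type v} [Group F] [Finite F] {Q : Subgroup F} {B : Set (IrrCharacter F)}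
  {b : CBlock Q}

/-- Linear characters are trivial on the defect group when the inertia acts nontrivially. -/
theorem linear_trivial (S : Setup p M B Q b) (hm : S.m ≠ 1) (l : F →* ℂˣ) {x : F} (hx : x ∈ Q) :
    l x = 1 := by
  have hm1 : 1 < S.m := by have := S.m_pos; omega
  have hab := abelian_of_cyclic S.hcyc
  have hfix : ∀ u : Q, S.pconj 1 u = u → u = 1 := by
    intro u hu
    by_contra hne
    have h1 : S.n ^ 1 * (u : F) * (S.n ^ 1)⁻¹ = (u : F) := congrArg Subtype.val hu
    have hc := mem_centralizer_of_fix S.hM S.hmax S.hcyc (pow_mem S.n_stab 1) u.2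
      (fun h => hne (Subtype.ext h)) h1
    have := S.n_min 1 hm1 (Subgroup.centralizer_le (SetLike.coe_subset_coe.2 S.Z_le) hc)
    omega
  let D : Q → Q := fun u => S.pconj 1 u * u⁻¹
  have hD : Function.Surjective D := by
    refine Finite.injective_iff_surjective.1 fun u w huw => ?_
    have h1 : S.pconj 1 (w⁻¹ * u) = w⁻¹ * u := by
      rw [map_mul, map_inv]
      have h2 : S.pconj 1 u * u⁻¹ = S.pconj 1 w * w⁻¹ := huw
      rw [mul_inv_eq_iff_eq_mul.1 h2]
      simp only [mul_assoc, inv_mul_cancel_left]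
    exact (inv_mul_eq_one.1 (hfix _ h1)).symm
  obtain ⟨u, hu⟩ := hD ⟨x, hx⟩
  have h1 : S.n ^ 1 * (u : F) * (S.n ^ 1)⁻¹ * (u : F)⁻¹ = x := congrArg Subtype.val hu
  rw [← h1]
  simp only [map_mul, map_inv]
  rw [mul_right_comm (l (S.n ^ 1)) (l u), mul_inv_cancel, one_mul, mul_inv_cancel]

/-- The isometry with the Frobenius group. -/
theorem main {G : Type u} [Group G] [Finite G] (hM : IsPModular p M) {B : Set (IrrCharacter G)}
    {P : Subgroup G} {c : CBlock P} (S : Setup p M B P c) (hF : Nat.card F = Nat.card P * S.m)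
    (hQ : IsCyclic Q) (hQcard : Nat.card Q = Nat.card P)
    (hQC : Subgroup.centralizer (Q : Set F) = Q) :
    ∃ (I : IrrCharacter F → IrrCharacter G) (ε : IrrCharacter F → ℤ),
      IsPerfectIsometry p M (Set.univ : Set (IrrCharacter F)) B I ε ∧
      ∀ η η' : IrrCharacter F, (∃ x ∈ Q, (η : F → ℂ) x ≠ (η : F → ℂ) 1) →
        (∃ x ∈ Q, (η' : F → ℂ) x ≠ (η' : F → ℂ) 1) → ε η = ε η' := by
  classical
  haveI : Fact p.Prime := ⟨hM.1⟩
  have hp := hM.1
  have hQc : Nat.card Q = p ^ S.a := hQcard.trans S.card_P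
  have hmp : S.m < p := by
    have := Nat.le_of_dvd (by have := hp.two_le; omega) S.m_dvd
    have := hp.two_le
    omega
  have hindex : Q.index = S.m := by
    have h := Q.card_mul_index
    rw [hF, hQcard] at h
    exact Nat.eq_of_mul_eq_mul_left Nat.card_pos h
  have hpm : ¬ p ∣ S.m := Nat.not_dvd_of_pos_of_lt S.m_pos hmp
  have hfac : (Nat.card F).factorization p = S.a := by
    rw [hF, S.card_P, Nat.factorization_mul (pow_pos hp.pos _).ne' S.m_pos.ne', Finsupp.add_apply,
      hp.factorization_pow, Finsupp.single_eq_same, Nat.factorization_eq_zero_of_not_dvd hpm,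
      add_zero]
  let QS : Sylow p F := Sylow.ofCard Q (by rw [hfac, hQc])
  have hQS : (QS : Subgroup F) = Q := Sylow.coe_ofCard _ _
  haveI hsub : Subsingleton (Sylow p F) := by
    have h1 := QS.card_dvd_index
    rw [hQS, hindex] at h1
    have h2 := card_sylow_modEq_one p F
    have h3 : Nat.card (Sylow p F) < p := (Nat.le_of_dvd S.m_pos h1).trans_lt hmp
    rw [Nat.ModEq, Nat.mod_eq_of_lt h3, Nat.one_mod_eq_one.2 hp.ne_one] at h2
    exact Finite.card_le_one_iff_subsingleton.1 h2.le
  haveI hQn : Q.Normal := hQS ▸ Sylow.normal_of_subsingleton QS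
  haveI hQSn : (QS : Subgroup F).Normal := Sylow.normal_of_subsingleton QS
  have hmemQ : ∀ x : F, IsPElem p x → x ∈ Q := by
    intro x hx
    obtain ⟨R, hR⟩ := hx.isPGroup_zpowers.exists_le_sylow
    rw [Subsingleton.elim R QS, hQS] at hR
    exact hR (Subgroup.mem_zpowers x)
  have hregQ : ∀ x ∈ Q, ¬ p ∣ orderOf x → x = 1 := by
    intro x hx hr
    obtain ⟨k, hk⟩ := Block.isPElem_of_mem (IsPGroup.of_card hQc) hx
    rcases k with _ | k
    · exact orderOf_eq_one_iff.1 (by rw [hk, pow_zero])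
    · exact absurd (hk ▸ dvd_pow_self p k.succ_ne_zero) hr
  have hblock : ∀ {B' : Set (IrrCharacter F)}, IsPBlock M B' → B' = Set.univ := fun hB' =>
    block_eq_univ hM QS (fun g hg hr => hregQ g (by rw [hQS, hQC] at hg; exact hg) hr) hB'
  set C := Subgroup.centralizer (Q : Set F) with hC
  have hCp : IsPGroup p C := by rw [hQC]; exact IsPGroup.of_card hQc
  have hblockC : ∀ {f : CBlock Q}, IsPBlock M f → f = Set.univ := fun hf => by
    obtain ⟨T⟩ : Nonempty (Sylow p C) := inferInstance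
    have hT : (T : Subgroup C) = ⊤ :=
      (T.3 (hCp.to_subgroup ⊤) le_top).symm
    haveI : (T : Subgroup C).Normal := by rw [hT]; infer_instance
    refine block_eq_univ hM T (fun g _ hr => ?_) hf
    refine Subtype.ext (hregQ (g : F) (hQC.le g.2) ?_)
    rwa [Subgroup.orderOf_coe]
  obtain ⟨b, hb⟩ : ∃ b : CBlock Q, IsPBlock M b :=
    ⟨_, isPBlock_blockOf ⟨_, Char.isIrrCharacter_one⟩⟩
  obtain ⟨B', hpair⟩ := exists_block_of_pair hM (IsPGroup.of_card hQc) hb
  have hB'u : B' = Set.univ := hblock hpair.2.1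
  subst hB'u
  have hdefect : blockDefect p (Set.univ : Set (IrrCharacter F)) = S.a := by
    show (Nat.card F).factorization p - _ = S.a
    rw [hfac]
    have h0 : sInf ((fun χ : IrrCharacter F => (charDegree (χ : F → ℂ)).factorization p) ''
        Set.univ) = 0 := by
      refine Nat.sInf_eq_zero.2 (Or.inl ⟨⟨_, Char.isIrrCharacter_one⟩, Set.mem_univ _, ?_⟩)
      have h1 := irr_one_eq_natCast (⟨_, Char.isIrrCharacter_one⟩ : IrrCharacter F)
      show (charDegree _).factorization p = 0
      rw [show charDegree ((⟨_, Char.isIrrCharacter_one⟩ : IrrCharacter F) : F → ℂ) = 1 from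
        Nat.cast_injective (R := ℂ) (by rw [← h1]; simp)]
      simp
    exact Nat.sub_eq_iff_eq_add (le_of_eq_of_le h0 (Nat.zero_le _)) |>.2 (by rw [h0, add_zero])
  have hmax : IsMaximalBrauerPair p M (Set.univ : Set (IrrCharacter F)) Q b :=
    isMaximal_of_card hM hpair (by rw [hdefect, hQc])
  have hQ1 : Q ≠ ⊥ := by
    intro h
    rw [h, Subgroup.card_bot] at hQc
    exact (Nat.one_lt_pow S.a_pos.ne' hp.one_lt).ne hQc
  obtain ⟨S'⟩ := exists_setup hM hmax hQ hQ1
  have ha : S'.a = S.a := Nat.pow_right_injective hp.two_le (S'.card_P.symm.trans hQc)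
  have hm : S'.m = S.m := by
    rw [← S'.m_eq, ← hindex]
    have htop : (⊤ : Subgroup F) = stab M Q b := eq_stab hb fun y => by
      refine iff_of_true (Subgroup.mem_top y) ⟨by rw [Subgroup.normalizer_eq_top]; trivial, ?_⟩
      have hy : y ∈ Subgroup.normalizer (C : Set F) :=
        mem_normalizer_centralizer (by rw [Subgroup.normalizer_eq_top]; trivial)
      exact ⟨hy, fun χ _ => ⟨mapIrr (normEquiv hy) χ, by rw [hblockC hb]; trivial,
        (isConjCharOf_iff hy χ _).2 rfl⟩⟩
    rw [← htop]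
    show C.relIndex ⊤ = _
    rw [hQC, Subgroup.relIndex_top_right]
  obtain ⟨T', D', I, ε, k, hI, hεμ, hone⟩ := S.exists_isometry_setups S' ha hm
  refine ⟨I, ε, hI, fun η η' hη hη' => ?_⟩
  by_cases hm1 : S.m = 1
  · rw [hone hm1 η (Set.mem_univ _), hone hm1 η' (Set.mem_univ _)]
  -- linear characters
  have htriv : ∀ χ : IrrCharacter F, (χ : F → ℂ) 1 = 1 → ∀ x ∈ Q, (χ : F → ℂ) x = 1 := by
    intro χ h1 x hx
    obtain ⟨l, hl⟩ := Char.exists_hom_of_degree_one (Char.isCharacter_of_isIrr χ.2) h1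
    rw [hl, linear_trivial S' (hm ▸ hm1) l hx, Units.val_one]
  have hnl : ∀ χ : IrrCharacter F, (∃ x ∈ Q, (χ : F → ℂ) x ≠ (χ : F → ℂ) 1) →
      (χ : F → ℂ) 1 ≠ 1 := fun χ ⟨x, hx, hne⟩ h1 => hne (by rw [htriv χ h1 x hx, h1])
  have hcomm : commutator F ≤ Q := by
    rw [commutator_def, Subgroup.commutator_le]
    intro g _ h _
    rw [commutatorElement_def, ← hQC, Subgroup.mem_centralizer_iff]
    intro x hx
    haveI := hQ
    have hab : ∀ σ τ : MulAut Q, σ * τ = τ * σ := fun σ τ =>
      (IsCyclic.mulAutMulEquiv Q).injective (by rw [map_mul, map_mul, mul_comm])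
    have h1 : (MulAut.conjNormal (g * h * g⁻¹ * h⁻¹ : F) : MulAut Q) = 1 := by
      rw [map_mul, map_mul, map_mul, map_inv, map_inv, hab (MulAut.conjNormal g),
        mul_inv_cancel_right, mul_inv_cancel]
    have h2 := congrArg Subtype.val (DFunLike.congr_fun h1 (⟨x, hx⟩ : Q))
    rw [MulAut.conjNormal_apply, MulAut.one_apply] at h2
    exact (mul_inv_eq_iff_eq_mul.1 h2).symm
  haveI := Fintype.ofFinite (IrrCharacter F)
  set L : Finset (IrrCharacter F) :=
    Finset.univ.filter fun χ => (χ : F → ℂ) 1 = 1 with hL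
  have hLc : S.m ≤ L.card := by
    have h := Char.card_linear (G := F)
    rw [Nat.card_eq_fintype_card, Fintype.card_subtype] at h
    rw [hL, h, ← hindex]
    exact Nat.le_of_dvd (Nat.pos_of_ne_zero Subgroup.index_ne_zero_of_finite)
      (Subgroup.index_dvd_of_le hcomm)
  have hall : Fintype.card (IrrCharacter F) = S.m + S.r := by
    rw [← Nat.card_eq_fintype_card, ← Nat.card_congr (Equiv.Set.univ _), D'.card]
  by_cases hr : S.r = 1
  · have : η = η' := by
      by_contra hne
      have h1 : ({η, η'} : Finset (IrrCharacter F)) ⊆ Finset.univ \ L := by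
        intro χ hχ
        rcases Finset.mem_insert.1 hχ with rfl | hχ
        · simp [hL, hnl _ hη]
        · rw [Finset.mem_singleton] at hχ
          subst hχ
          simp [hL, hnl _ hη']
      have h2 := Finset.card_le_card h1
      rw [Finset.card_pair hne, Finset.card_univ_diff, hall, hr] at h2
      omega
    rw [this]
  -- the exceptional characters are not linear
  have hr2 : 2 ≤ S.r := by have := S.r_pos; omega
  have hμ : ∀ t, (D'.μ t : F → ℂ) 1 ≠ 1 := by
    intro t h1
    obtain ⟨s, hs⟩ : ∃ s : Fin S.r, s ≠ t := by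
      haveI : Nontrivial (Fin S.r) := Fin.nontrivial_iff_two_le.2 hr2
      exact exists_ne t
    have hk : (D'.ε : ℂ) ≠ 0 := by rcases D'.sign_ε with h | h <;> simp [h]
    have heq : ∀ g : F, ¬ p ∣ orderOf g → (D'.μ s : F → ℂ) g = (D'.μ t : F → ℂ) g := fun g hg =>
      mul_left_cancel₀ hk (add_right_cancel ((D'.reg s g hg).trans (D'.reg t g hg).symm))
    have h1s : (D'.μ s : F → ℂ) 1 = 1 := (heq 1 regular_one).trans h1
    refine hs (D'.inj (Subtype.ext (funext fun x => ?_)))
    obtain ⟨y, hy1, -, hy3, hy4⟩ := isPPart_iff.1 (isPPart_pp (p := p) x)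
    obtain ⟨l, hl⟩ := Char.exists_hom_of_degree_one (Char.isCharacter_of_isIrr (D'.μ t).2) h1
    obtain ⟨l', hl'⟩ := Char.exists_hom_of_degree_one (Char.isCharacter_of_isIrr (D'.μ s).2) h1s
    have hQm := hmemQ _ hy3
    rw [← hy1, hl, hl', map_mul, map_mul, linear_trivial S' (hm ▸ hm1) l hQm,
      linear_trivial S' (hm ▸ hm1) l' hQm, one_mul, one_mul, ← hl, ← hl', heq y hy4]
  set Y := Finset.univ.image D'.μ with hY
  have hLY : L ⊆ Finset.univ \ Y := by
    intro χ hχ
    refine Finset.mem_sdiff.2 ⟨Finset.mem_univ _, fun h => ?_⟩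
    obtain ⟨t, -, rfl⟩ := Finset.mem_image.1 h
    exact hμ t (Finset.mem_filter.1 hχ).2
  have hLeq : L = Finset.univ \ Y := Finset.eq_of_subset_of_card_le hLY (by
    rw [Finset.card_univ_diff, hall, hY, Finset.card_image_of_injective _ D'.inj, Finset.card_univ,
      Fintype.card_fin, Nat.add_sub_cancel]
    exact hLc)
  have hex : ∀ χ : IrrCharacter F, (χ : F → ℂ) 1 ≠ 1 → ε χ = k := fun χ hχ => by
    have h1 : χ ∈ Y := by
      by_contra hn
      have h2 : χ ∈ L := hLeq ▸ Finset.mem_sdiff.2 ⟨Finset.mem_univ _, hn⟩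
      exact hχ (Finset.mem_filter.1 h2).2
    obtain ⟨t, -, rfl⟩ := Finset.mem_image.1 h1
    exact hεμ t
  rw [hex η (hnl _ hη), hex η' (hnl _ hη')]

/-- Let B be a block of the finite group G relative to a maximal ideal M of the algebraic integers containing the prime p, with a nontrivial cyclic defect group P, let c be a block of C_G(P) inducing B, T the stabilizer of c in N_G(P) and e the index of C_G(P) in T. Let F be any finite group of order #P · e having a cyclic subgroup Q of order #P that is its own centralizer (F is then the semidirect product of Q by a cyclic group of order e acting faithfully). Then there is a perfect isometry from the set of all irreducible characters of F onto B whose signs agree on all the characters of F that do not contain Q in their kernel. -/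
theorem result {G : Type*} [Group G] [Finite G] (p : ℕ) [Fact p.Prime] (M : Ideal Cfsg.AlgInt) (hM : Cfsg.IsPModular p M) (B : Set (Cfsg.IrrCharacter G)) (hB : Cfsg.IsPBlock M B) (P : Subgroup G) (hPD : Cfsg.IsDefectGroup p M B P) (hP1 : P ≠ ⊥) (hcyc : IsCyclic P) (c : Set (Cfsg.IrrCharacter (Subgroup.centralizer (P : Set G)))) (hc : Cfsg.IsInducedBlock M (Subgroup.centralizer (P : Set G)) c B) (T : Subgroup G) (hT : ∀ g : G, g ∈ T ↔ (g ∈ Subgroup.normalizer (P : Set G) ∧ Cfsg.StabilizesBlock (Subgroup.centralizer (P : Set G)) c g)) (e : ℕ) (he : (Subgroup.centralizer (P : Set G)).relIndex T = e) (F : Type*) [Group F] [Finite F] (hF : Nat.card F = Nat.card P * e) (Q : Subgroup F) (hQ : IsCyclic Q) (hQcard : Nat.card Q = Nat.card P) (hQC : Subgroup.centralizer (Q : Set F) = Q) : ∃ (I : Cfsg.IrrCharacter F → Cfsg.IrrCharacter G) (ε : Cfsg.IrrCharacter F → ℤ), Cfsg.IsPerfectIsometry p M (Set.univ : Set (Cfsg.IrrCharacter F)) B I ε ∧ ∀ η η' : Cfsg.IrrCharacter F, (∃ x ∈ Q, (η : F →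 ℂ) x ≠ (η : F → ℂ) 1) → (∃ x ∈ Q, (η' : F → ℂ) x ≠ (η' : F → ℂ) 1) → ε η = ε η' := by
  haveI : M.IsPrime := hM.2.1.isPrime
  have hmax := isMaximal_of_inducedBlock hM hB hPD hc
  obtain ⟨S⟩ := exists_setup hM hmax hcyc hP1
  have hm : S.m = e := by
    rw [← S.m_eq, ← he, eq_stab hmax.1.1.2 hT]
  exact main hM S (by rw [hF, hm]) hQ hQcard hQC

end Cfsg.Agent.S4634
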