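import Cfsg.Statements.S4635
import Cfsg.Agent.Lib.CyclicDefect.Matching

set_option autoImplicit false
set_option linter.style.haveILetI false
open Cfsg Cfsg.Agent.Lib Cfsg.Agent.Lib.Block Cfsg.Agent.Lib.BrauerPairs Cfsg.Agent.Lib.CyclicDefect

namespace Cfsg.Agent.S4635

universe u

variable {p : ℕ} {M : Ideal AlgInt} [M.IsPrime] {G : Type u} [Group G] [Finite G]

/-- A maximal pair of the correspondent pushes to a maximal pair with the same inertial index. -/
theorem exists_pairs (hM : IsPModular p M) {Z H : Subgroup G} {P' : Subgroup H}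
    (hH : H = Subgroup.normalizer (Z : Set G)) (hZP : Z ≤ P'.map H.subtype)
    (hcyc : IsCyclic (P'.map H.subtype)) {B : Set (IrrCharacter G)} (hB : IsPBlock M B)
    {c : Set (IrrCharacter H)} (hc : IsInducedBlock M H c B) (hcD : IsDefectGroup p M c P') :
    ∃ (e : CBlock (P'.map H.subtype)) (e' : CBlock P'),
      IsMaximalBrauerPair p M B (P'.map H.subtype) e ∧ IsMaximalBrauerPair p M c P' e' ∧
      (Subgroup.centralizer (P' : Set H)).relIndex (stab M P' e') =
        (Subgroup.centralizer (P'.map H.subtype : Set G)).relIndex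
          (stab M (P'.map H.subtype) e) := by
  haveI : Fact p.Prime := ⟨hM.1⟩
  set P := P'.map H.subtype with hP
  have hN : Subgroup.normalizer (P : Set G) ≤ H := hH ▸ normalizer_le_of_cyclic hcyc hZP
  have hPH : P ≤ H := Subgroup.map_subtype_le P'
  have hCH : Subgroup.centralizer (P : Set G) ≤ H := normalizer_push hN le_rfl
  have hZH : Z ≤ H := hZP.trans hPH
  have hCZ : Subgroup.centralizer (Z : Set G) ≤ H := hH ▸ centralizer_le_normalizer_self Z
  obtain ⟨e', he'pair⟩ := exists_pair_on_defect hM hc.1 hcD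
  have hcmax := isMaximal_of_card hM he'pair (IsDefectGroup.props hM hc.1 hcD).2.1
  obtain ⟨hP', he', -, ho'⟩ := (isBrauerPairOf_iff hM).1 he'pair
  obtain ⟨e, he, hee⟩ := exists_push hCH he'
  have hPp : IsPGroup p P := hP'.of_equiv (P'.equivMapOfInjective _ H.subtype_injective)
  have hZp : IsPGroup p Z := hPp.to_le hZP
  have hind := (induced_iff_br hM hZp hZH hCZ hH.le hc.1 hB).1 hc
  have hfixc : ∀ u ∈ P, cj u (emb H (bar M c)) = emb H (bar M c) :=
    fun u hu => invUnder_emb (isClassCoeff_bar c) (hPH hu)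
  have hfixB : ∀ u ∈ P, cj u (br Z (bar M B)) = br Z (bar M B) := fun u hu => by
    rw [cj_br, sj_eq_of_mem_normalizer (hH ▸ hPH hu : u ∈ Subgroup.normalizer (Z : Set G)),
      isClassCoeff_iff_cj.1 (isClassCoeff_bar B) u]
  have hbr := congrArg (br P) hind
  rw [br_mul hM hPp hfixc hfixB, br_br hZP] at hbr
  have ho : pbar M P e * br P (emb H (bar M c)) = pbar M P e := (occ_push hee _).2 ho'
  have hpair : IsBrauerPairOf p M B P e := by
    refine (isBrauerPairOf_iff hM).2 ⟨hPp, he, hB, ?_⟩
    show pbar M P e * br P (bar M B) = pbar M P e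
    rw [← ho, mul_assoc, hbr]
  refine ⟨e, e', maximal_push hM hN hee hcmax hpair, hcmax, ?_⟩
  have hPP : P.subgroupOf H = P' := Subgroup.comap_map_eq_self_of_injective H.subtype_injective P'
  have hnorm : ∀ x : H, x ∈ Subgroup.normalizer (P' : Set H) ↔
      (x : G) ∈ Subgroup.normalizer (P : Set G) := fun x => by
    rw [← mem_normalizer_subgroupOf hPH x, hPP]
  have hT : (stab M P' e').map H.subtype = stab M P e := by
    ext g
    constructor
    · rintro ⟨h, hh, rfl⟩
      exact ⟨(hnorm h).1 hh.1, by
        show cj (h : G) (pbar M P e) = pbar M P e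
        rw [hee, cj_emb, show cj h (pbar M P' e') = pbar M P' e' from hh.2]⟩
    · intro hg
      refine ⟨⟨g, hN hg.1⟩, ⟨(hnorm _).2 hg.1, ?_⟩, rfl⟩
      have h2 : cj g (pbar M P e) = pbar M P e := hg.2
      rw [hee, cj_emb ⟨g, hN hg.1⟩] at h2
      exact emb_injective H h2
  have hCeq : Subgroup.centralizer (P' : Set H) =
      (Subgroup.centralizer (P : Set G)).comap H.subtype := by
    ext x
    exact mem_centralizer_push
  rw [hCeq, Subgroup.relIndex_comap, hT]

/-- The correspondent in the normaliser of the subgroup of order `p` is perfectly isometric. -/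
theorem main (hM : IsPModular p M) {B : Set (IrrCharacter G)} (hB : IsPBlock M B)
    {Z H : Subgroup G} {P' : Subgroup H} (hH : H = Subgroup.normalizer (Z : Set G))
    (hZP : Z ≤ P'.map H.subtype) (hcyc : IsCyclic (P'.map H.subtype))
    (hP1 : P'.map H.subtype ≠ ⊥) {c : Set (IrrCharacter H)} (hc : IsInducedBlock M H c B)
    (hcD : IsDefectGroup p M c P') :
    Nat.card c = Nat.card B ∧ blockRank p c = blockRank p B ∧
      ∃ (I : IrrCharacter H → IrrCharacter G) (ε : IrrCharacter H → ℤ),
        IsPerfectIsometry p M c B I ε := by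
  obtain ⟨e, e', he, he', hidx⟩ := exists_pairs hM hH hZP hcyc hB hc hcD
  have hiso := P'.equivMapOfInjective H.subtype H.subtype_injective
  obtain ⟨S⟩ := exists_setup hM he hcyc hP1
  obtain ⟨S'⟩ := exists_setup hM he' (hiso.isCyclic.2 hcyc) fun h => hP1 (by
    rw [h, Subgroup.map_bot])
  have hm : S'.m = S.m := S'.m_eq.symm.trans (hidx.trans S.m_eq)
  have ha : S'.a = S.a := Nat.pow_right_injective hM.1.two_le
    (S'.card_P.symm.trans ((Nat.card_congr hiso.toEquiv).trans S.card_P))
  have h1 := S.exists_structure.1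
  have h2 := S'.exists_structure.1
  obtain ⟨T', D', I, ε, _, hI, -, -⟩ := S.exists_isometry_setups S' ha hm
  refine ⟨?_, by rw [h1, h2, hm], I, ε, hI⟩
  rw [S.card_block, S'.card_block, h1, h2, hm, Setup.r_eq S S' ha hm]

/-- Let B be a block of the finite group G relative to a maximal ideal M of the algebraic integers containing the prime p, with a nontrivial cyclic defect group P; let Z be the subgroup of order p of P and H = N_G(Z), which contains N_G(P). Let c be the block of H with defect group P that induces B. Then B and c contain the same number of irreducible characters, have the same p-regular rank, and there is a perfect isometry from c onto B. -/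
theorem result {G : Type*} [Group G] [Finite G] (p : ℕ) [Fact p.Prime] (M : Ideal Cfsg.AlgInt) (hM : Cfsg.IsPModular p M) (B : Set (Cfsg.IrrCharacter G)) (hB : Cfsg.IsPBlock M B) (P : Subgroup G) (hPD : Cfsg.IsDefectGroup p M B P) (hP1 : P ≠ ⊥) (hcyc : IsCyclic P) (Z : Subgroup G) (hZ : Z ≤ P) (hZcard : Nat.card Z = p) (H : Subgroup G) (hH : H = Subgroup.normalizer (Z : Set G)) (c : Set (Cfsg.IrrCharacter H)) (hcD : Cfsg.IsDefectGroup p M c (P.subgroupOf H)) (hc : Cfsg.IsInducedBlock M H c B) : Nat.card c = Nat.card B ∧ Cfsg.blockRank p c = Cfsg.blockRank p B ∧ ∃ (I : Cfsg.IrrCharacter H → Cfsg.IrrCharacter G) (ε : Cfsg.IrrCharacter H → ℤ), Cfsg.IsPerfectIsometry p M c B I ε := by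
  haveI : M.IsPrime := hM.2.1.isPrime
  have hPH : P ≤ H := hH ▸
    (le_centralizer_of_abelian (abelian_of_cyclic hcyc) hZ).trans (centralizer_le_normalizer_self Z)
  have heq : (P.subgroupOf H).map H.subtype = P := Subgroup.map_subgroupOf_eq_of_le hPH
  exact main hM hB hH (heq.symm ▸ hZ) (heq.symm ▸ hcyc) (heq.symm ▸ hP1) hc hcD

end Cfsg.Agent.S4635
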