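import Cfsg.Statements.S4636

set_option autoImplicit false
open scoped Pointwise
open Cfsg

namespace Cfsg.Agent.S4636

/-- Let P be a nontrivial cyclic p-subgroup of the finite group G and Z its subgroup of order p. For every x outside N_G(Z), P meets its conjugate xPx⁻¹ trivially; consequently N_G(Q) ≤ N_G(Z) for every nontrivial subgroup Q of P. -/
theorem result {G : Type*} [Group G] [Finite G] (p : ℕ) [Fact p.Prime] (P : Subgroup G) (hP : IsPGroup p P) (hP1 : P ≠ ⊥) (hcyc : IsCyclic P) (Z : Subgroup G) (hZ : Z ≤ P) (hZcard : Nat.card Z = p) : (∀ x : G, x ∉ Subgroup.normalizer (Z : Set G) → P ⊓ MulAut.conj x • P = ⊥) ∧ ∀ Q : Subgroup G, Q ≤ P → Q ≠ ⊥ → Subgroup.normalizer (Q : Set G) ≤ Subgroup.normalizer (Z : Set G) := by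
  haveI := hcyc
  have hp : p.Prime := Fact.out
  -- every nontrivial subgroup of P contains Z
  have sub : ∀ Q : Subgroup G, Q ≤ P → Q ≠ ⊥ → Z ≤ Q := by
    intro Q hQ hQ1
    have hQp : IsPGroup p Q := hP.to_le hQ
    obtain ⟨n, hn⟩ := IsPGroup.iff_card.mp hQp
    have hn0 : n ≠ 0 := by
      rintro rfl
      exact hQ1 (Subgroup.card_eq_one.mp (by simpa using hn))
    have hd : p ∣ Nat.card Q := hn ▸ dvd_pow_self p hn0
    obtain ⟨x, hx⟩ := exists_prime_orderOf_dvd_card' (G := Q) p hd
    have hZ' : Z = Subgroup.zpowers (x : G) := by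
      have h1 : Nat.card (Subgroup.zpowers (x : G)) = p := by
        rw [Nat.card_zpowers, Subgroup.orderOf_coe, hx]
      have hxP : Subgroup.zpowers (x : G) ≤ P := by
        rw [Subgroup.zpowers_le]; exact hQ x.2
      have hle : ∀ K : Subgroup G, K ≤ P → Nat.card K = p → ∀ y ∈ K, y ∈ Subgroup.zpowers (x : G) := by
        intro K hK hKc y hy
        classical
        haveI : Fintype P := Fintype.ofFinite _
        let S : Finset P := Finset.univ.filter (fun z => z ^ p = 1)
        let T : Finset P := Finset.univ.filter (fun z => (z : G) ∈ Subgroup.zpowers (x : G))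
        have hTS : T ⊆ S := by
          intro z hz
          simp only [T, Finset.mem_filter, Finset.mem_univ, true_and] at hz
          simp only [S, Finset.mem_filter, Finset.mem_univ, true_and]
          apply Subtype.ext
          have h3 : (⟨_, hz⟩ : Subgroup.zpowers (x : G)) ^ p = 1 := by
            rw [← h1]; exact pow_card_eq_one'
          simpa using congrArg Subtype.val h3
        have hTc : T.card = p := by
          have h3 : Nat.card ((Subgroup.zpowers (x : G)).subgroupOf P) = p := by
            rw [Nat.card_congr (Subgroup.subgroupOfEquivOfLe hxP).toEquiv, h1]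
          rw [Nat.card_eq_fintype_card, Fintype.card_subtype] at h3
          convert h3 using 2
          ext z; simp [T, Subgroup.mem_subgroupOf]
        have hSc : S.card ≤ p := IsCyclic.card_pow_eq_one_le hp.pos
        have hST : T = S := Finset.eq_of_subset_of_card_le hTS (by omega)
        have hy' : (⟨y, hK hy⟩ : P) ∈ S := by
          simp only [S, Finset.mem_filter, Finset.mem_univ, true_and]
          apply Subtype.ext
          have h3 : (⟨y, hy⟩ : K) ^ p = 1 := by rw [← hKc]; exact pow_card_eq_one'
          simpa using congrArg Subtype.val h3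
        rw [← hST] at hy'
        simpa [T] using hy'
      exact Subgroup.eq_of_le_of_card_ge (hle Z hZ hZcard) (by rw [h1, hZcard])
    rw [hZ', Subgroup.zpowers_le]
    exact x.2
  have hcardsmul : ∀ x : G, Nat.card (MulAut.conj x • Z : Subgroup G) = Nat.card Z := by
    intro x
    exact (Nat.card_congr (Subgroup.equivSMul (MulAut.conj x) Z).toEquiv).symm
  have norm : ∀ x : G, MulAut.conj x • Z = Z → x ∈ Subgroup.normalizer (Z : Set G) := by
    intro x hx
    rw [Subgroup.mem_normalizer_iff]
    intro h
    have : x * h * x⁻¹ = MulAut.conj x • h := rfl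
    rw [this]
    nth_rewrite 2 [← hx]
    exact Subgroup.smul_mem_pointwise_smul_iff.symm
  refine ⟨?_, ?_⟩
  · intro x hx
    by_contra hne
    apply hx
    apply norm
    have h1 := sub _ inf_le_left hne
    have h2 : Z ≤ MulAut.conj x • P := h1.trans inf_le_right
    rw [Subgroup.subset_pointwise_smul_iff] at h2
    have hne2 : (MulAut.conj x)⁻¹ • Z ≠ ⊥ := by
      intro h
      have h3 : Nat.card ((MulAut.conj x)⁻¹ • Z : Subgroup G) = 1 := by rw [h]; simp
      rw [← map_inv, hcardsmul, hZcard] at h3
      exact hp.one_lt.ne' h3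
    have h4 := sub _ h2 hne2
    have h5 : MulAut.conj x • Z ≤ Z := by
      rw [Subgroup.pointwise_smul_subset_iff]; exact h4
    exact Subgroup.eq_of_le_of_card_ge h5 (hcardsmul x).ge
  · intro Q hQ hQ1 x hx
    apply norm
    have h1 : Z ≤ Q := sub Q hQ hQ1
    have h2 : MulAut.conj x • Z ≤ Q := by
      intro y hy
      rw [Subgroup.mem_pointwise_smul_iff_inv_smul_mem] at hy
      have := (Subgroup.mem_normalizer_iff.mp hx ((MulAut.conj x)⁻¹ • y)).mp (h1 hy)
      simpa [MulAut.smul_def, mul_assoc] using this
    have hne2 : MulAut.conj x • Z ≠ ⊥ := by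
      intro h
      have h3 : Nat.card (MulAut.conj x • Z : Subgroup G) = 1 := by rw [h]; simp
      rw [hcardsmul, hZcard] at h3
      exact hp.one_lt.ne' h3
    exact (Subgroup.eq_of_le_of_card_ge (sub _ (h2.trans hQ) hne2) (hcardsmul x).le).symm

end Cfsg.Agent.S4636
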