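import Cfsg.Statements.S4637
import Cfsg.Agent.Lib.BrauerPairs.KleinDefect

set_option autoImplicit false
set_option linter.style.haveILetI false
open Cfsg Cfsg.Agent.Lib.Block Cfsg.Agent.Lib.BrauerPairs Cfsg.Agent.Lib.BrauerPairs.KleinDefect
open Cfsg.Agent.S4642 (induced_iff_occ)

namespace Cfsg.Agent.S4637

/-- Let B be a block of the finite group G relative to a maximal ideal M of the algebraic integers containing 2, with a Klein four defect group P. Let c be a block of C_G(P) inducing B, T the stabilizer of c in N_G(P) and e the index of C_G(P) in T (the inertial index). Then e is 1 or 3, B contains exactly four irreducible characters, and the 2-regular rank of B (its number of irreducible Brauer characters) equals e. -/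
theorem result {G : Type*} [Group G] [Finite G] (M : Ideal Cfsg.AlgInt) (hM : Cfsg.IsPModular 2 M) (B : Set (Cfsg.IrrCharacter G)) (hB : Cfsg.IsPBlock M B) (P : Subgroup G) (hPD : Cfsg.IsDefectGroup 2 M B P) (hV : IsKleinFour P) (c : Set (Cfsg.IrrCharacter (Subgroup.centralizer (P : Set G)))) (hc : Cfsg.IsInducedBlock M (Subgroup.centralizer (P : Set G)) c B) (T : Subgroup G) (hT : ∀ g : G, g ∈ T ↔ (g ∈ Subgroup.normalizer (P : Set G) ∧ Cfsg.StabilizesBlock (Subgroup.centralizer (P : Set G)) c g)) (e : ℕ) (he : (Subgroup.centralizer (P : Set G)).relIndex T = e) : (e = 1 ∨ e = 3) ∧ Nat.card B = 4 ∧ Cfsg.blockRank 2 B = e := by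
  classical
  haveI : M.IsPrime := hM.2.1.isPrime
  haveI := Fintype.ofFinite G
  obtain ⟨hcb, -, -⟩ := id hc
  have hP : IsPGroup 2 P := (IsDefectGroup.props hM hB hPD).1
  have hmax := isMaximal_of_induced hM hB hPD hc
  have hd := blockDefect_eq_two hM hB hPD hV
  obtain rfl : T = stab M P c := eq_stab hcb hT
  have he13 : e = 1 ∨ e = 3 := he ▸ relIndex_stab hM hV hmax
  have hconjB : ∀ (x : G) (f : CBlock (Subgroup.zpowers x)), orderOf x = 2 →
      IsInducedBlock M (Subgroup.centralizer (Subgroup.zpowers x : Set G)) f B →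
      ∃ y : G, SubpairLE 2 M (sj y (Subgroup.zpowers x)) (conjBlock _ y f) P c ∧
        blockDefect 2 f = 2 := by
    intro x f hx hf
    have hxp : IsPGroup 2 (Subgroup.zpowers x) :=
      IsPElem.isPGroup_zpowers ⟨1, by rw [hx, pow_one]⟩
    obtain ⟨hfb, ho⟩ := (induced_iff_occ hM hxp hB).1 hf
    obtain ⟨y, hy⟩ := exists_conj_le_maximal hM
      ((isBrauerPairOf_iff hM).2 ⟨hxp, hfb, hB, ho⟩) hmax
    exact ⟨y, hy, by rw [← blockDefect_conjBlock _ y 2 f]; exact blockDefect_of_le hM hV hmax hd hy⟩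
  -- representatives of the classes of `2`-elements
  set X : Finset G := (Finset.univ.filter fun g : G => IsPElem 2 g).image
    fun g => (ConjClasses.mk g).out with hXdef
  have hout : ∀ g : G, IsConj g (ConjClasses.mk g).out := fun g =>
    ConjClasses.mk_eq_mk_iff_isConj.1 (Quotient.out_eq (ConjClasses.mk g)).symm
  have hXp : ∀ x ∈ X, IsPElem 2 x := by
    intro x hx
    obtain ⟨g, hg, rfl⟩ := Finset.mem_image.1 hx
    obtain ⟨k, hk⟩ := (Finset.mem_filter.1 hg).2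
    obtain ⟨a, ha⟩ := isConj_iff.1 (hout g)
    exact ⟨k, by rw [← ha, orderOf_conj_eq, hk]⟩
  have hXrep : ∀ g : G, IsPElem 2 g → ∃! x, x ∈ X ∧ IsConj g x := by
    intro g hg
    refine ⟨(ConjClasses.mk g).out, ⟨Finset.mem_image.2 ⟨g, by simpa using hg, rfl⟩, hout g⟩, ?_⟩
    rintro y ⟨hy, hgy⟩
    obtain ⟨g', -, rfl⟩ := Finset.mem_image.1 hy
    rw [ConjClasses.mk_eq_mk_iff_isConj.2 (hgy.trans (hout g').symm)]
  have h1X : (1 : G) ∈ X := by
    obtain ⟨x, ⟨hx, h1x⟩, -⟩ := hXrep 1 ⟨0, by simp⟩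
    obtain ⟨a, ha⟩ := isConj_iff.1 h1x
    rw [← ha, mul_one, mul_inv_cancel] at hx
    exact hx
  have hterm : ∀ x : G, (∑ᶠ b ∈ {b : Set (IrrCharacter (Subgroup.centralizer ({x} : Set G))) |
      IsInducedBlock M (Subgroup.centralizer ({x} : Set G)) b B}, blockRank 2 b) =
      ∑ᶠ f ∈ {f : CBlock (Subgroup.zpowers x) |
        IsInducedBlock M (Subgroup.centralizer (Subgroup.zpowers x : Set G)) f B},
        blockRank 2 f := fun x => finsum_congr_subgroup (centralizer_zpowers x).symm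
  -- the subsections away from the identity
  let S := Σ x : {x // x ∈ X.erase 1}, {f : CBlock (Subgroup.zpowers x.1) //
    IsInducedBlock M (Subgroup.centralizer (Subgroup.zpowers x.1 : Set G)) f B}
  let R : {v : P // v ≠ 1} → S → Prop := fun v a => ∃ g : G, g * (v.1 : G) * g⁻¹ = a.1.1 ∧
    SubpairLE 2 M (sj g⁻¹ (Subgroup.zpowers a.1.1)) (conjBlock _ g⁻¹ a.2.1) P c
  have hord : ∀ x ∈ X.erase 1, ∀ f : CBlock (Subgroup.zpowers x),
      IsInducedBlock M (Subgroup.centralizer (Subgroup.zpowers x : Set G)) f B → orderOf x = 2 := by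
    intro x hx f hf
    obtain ⟨hx1, hxX⟩ := Finset.mem_erase.1 hx
    have hxp : IsPGroup 2 (Subgroup.zpowers x) := IsPElem.isPGroup_zpowers (hXp x hxX)
    obtain ⟨hfb, ho⟩ := (induced_iff_occ hM hxp hB).1 hf
    obtain ⟨y, hy⟩ := exists_conj_le_maximal hM
      ((isBrauerPairOf_iff hM).2 ⟨hxp, hfb, hB, ho⟩) hmax
    have hmem : y * x * y⁻¹ ∈ P := subgroup_le hy ⟨x, Subgroup.mem_zpowers x, rfl⟩
    rw [← orderOf_conj_eq y x]
    exact orderOf_of_mem hV hmem fun h => hx1 (conj_eq_one_iff.1 h)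
  have hR1 : ∀ a : S, ∃ v, R v a := by
    rintro ⟨⟨x, hx⟩, f, hf⟩
    obtain ⟨y, hy, -⟩ := hconjB x f (hord x hx f hf) hf
    refine ⟨⟨⟨y * x * y⁻¹, subgroup_le hy ⟨x, Subgroup.mem_zpowers x, rfl⟩⟩, fun h => ?_⟩,
      y⁻¹, ?_, ?_⟩
    · exact (Finset.mem_erase.1 hx).1 (conj_eq_one_iff.1 (congrArg Subtype.val h))
    · show y⁻¹ * (y * x * y⁻¹) * y⁻¹⁻¹ = x
      group
    · rw [inv_inv]
      exact hy
  have hR2 : ∀ v, ∃ a : S, R v a := by
    intro v
    have hv1 : (v.1 : G) ≠ 1 := fun h => v.2 (Subtype.ext h)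
    obtain ⟨x, ⟨hxX, hvx⟩, -⟩ := hXrep (v.1 : G)
      ⟨1, by rw [orderOf_of_mem hV v.1.2 hv1, pow_one]⟩
    obtain ⟨h, hh⟩ := isConj_iff.1 hvx
    have hx1 : x ≠ 1 := fun h1 => hv1 (by rw [h1, conj_eq_one_iff] at hh; exact hh)
    obtain ⟨fv, hfv, hfvle⟩ := exists_le hM hP hcb (Subgroup.zpowers (v.1 : G))
      (Subgroup.zpowers_le.2 v.1.2)
    have hQ : sj h (Subgroup.zpowers (v.1 : G)) = Subgroup.zpowers x := by
      rw [sj, MonoidHom.map_zpowers]
      simp [hh]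
    obtain ⟨f, hf, hfe⟩ := exists_pbar_of_eq hQ.symm (isPBlock_conjBlock _ h hfv)
    have hid : (⟨Subgroup.zpowers x, f⟩ : BrauerPairIdx G) = cIdx h ⟨_, fv⟩ :=
      idx_ext hQ.symm hf (isPBlock_conjBlock _ h hfv) hfe
    have hle : Relation.ReflTransGen (NormalSubpairRel 2 M)
        (cIdx h⁻¹ (⟨Subgroup.zpowers x, f⟩ : BrauerPairIdx G)) ⟨P, c⟩ := by
      rw [hid, cIdx_cIdx (M := M) _ _ hfv, inv_mul_cancel, cIdx_one (M := M) hfv]
      exact hfvle
    have hind : IsInducedBlock M (Subgroup.centralizer (Subgroup.zpowers x : Set G)) f B := by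
      have hxp : IsPGroup 2 (Subgroup.zpowers x) := IsPElem.isPGroup_zpowers (hXp x hxX)
      have hpair := isBrauerPairOf_conj hM ((pairOf_iff_of_le hM hP hcb hfvle).2 hmax.1) h
      rw [isBrauerPairOf_iff hM] at hpair
      refine (induced_iff_occ hM hxp hB).2 ⟨hf, ?_⟩
      have ho := hpair.2.2.2
      rw [Occ, ← hfe, hQ] at ho
      exact ho
    exact ⟨⟨⟨x, Finset.mem_erase.2 ⟨hx1, hxX⟩⟩, f, hind⟩, h, hh, hle⟩
  have hR3 : ∀ v a a', R v a → R v a' → a = a' := by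
    rintro v ⟨⟨x, hx⟩, f, hf⟩ ⟨⟨x', hx'⟩, f', hf'⟩ ⟨g, hg, hle⟩ ⟨g', hg', hle'⟩
    dsimp only at hg hg' hle hle'
    have hv1 : (v.1 : G) ≠ 1 := fun h => v.2 (Subtype.ext h)
    obtain ⟨y, -, huniq⟩ := hXrep (v.1 : G) ⟨1, by rw [orderOf_of_mem hV v.1.2 hv1, pow_one]⟩
    obtain rfl : x = x' := (huniq x ⟨(Finset.mem_erase.1 hx).2, isConj_iff.2 ⟨g, hg⟩⟩).trans
      (huniq x' ⟨(Finset.mem_erase.1 hx').2, isConj_iff.2 ⟨g', hg'⟩⟩).symm
    have hsj : ∀ k : G, k * (v.1 : G) * k⁻¹ = x →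
        sj k⁻¹ (Subgroup.zpowers x) = Subgroup.zpowers (v.1 : G) := fun k hk => by
      rw [sj, MonoidHom.map_zpowers]
      congr 1
      simp only [MulEquiv.coe_toMonoidHom, MulAut.conj_apply, ← hk]
      group
    have heq := below_unique hM hP hcb
      (a := cIdx g⁻¹ (⟨Subgroup.zpowers x, f⟩ : BrauerPairIdx G))
      (b := cIdx g'⁻¹ (⟨Subgroup.zpowers x, f'⟩ : BrauerPairIdx G))
      ((hsj g hg).trans (hsj g' hg').symm) hle hle'
    have heq' := congrArg (cIdx g) heq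
    rw [cIdx_cIdx (M := M) _ _ hf.1, cIdx_cIdx (M := M) _ _ hf'.1, mul_inv_cancel,
      cIdx_one (M := M) hf.1] at heq'
    have hk : g * g'⁻¹ ∈ Subgroup.centralizer (Subgroup.zpowers x : Set G) := by
      rw [centralizer_zpowers, Subgroup.mem_centralizer_singleton_iff]
      calc g * g'⁻¹ * x = g * (v.1 : G) * g'⁻¹ := by rw [← hg']; group
        _ = x * (g * g'⁻¹) := by rw [← hg]; group
    have hff : cIdx (g * g'⁻¹) (⟨Subgroup.zpowers x, f'⟩ : BrauerPairIdx G) = ⟨_, f'⟩ :=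
      idx_ext (M := M) (sj_eq_of_mem_normalizer (centralizer_le_normalizer_self _ hk))
        (isPBlock_conjBlock _ _ hf'.1) hf'.1
        (by rw [pbar_conjBlock]; exact cj_pbar_of_centralizes _ f' hk)
    rw [hff] at heq'
    obtain rfl : f = f' := eq_of_heq (Sigma.mk.inj heq').2
    rfl
  have hR4 : ∀ v v' a, R v a → R v' a → ∃ t ∈ stab M P c, t * (v.1 : G) * t⁻¹ = (v'.1 : G) := by
    rintro v v' ⟨⟨x, hx⟩, f, hf⟩ ⟨g, hg, hle⟩ ⟨g', hg', hle'⟩
    dsimp only at hg hg' hle hle'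
    have hk : Relation.ReflTransGen (NormalSubpairRel 2 M)
        (cIdx (g'⁻¹ * g) (cIdx g⁻¹ (⟨Subgroup.zpowers x, f⟩ : BrauerPairIdx G))) ⟨P, c⟩ := by
      rw [cIdx_cIdx (M := M) _ _ hf.1, mul_assoc, mul_inv_cancel, mul_one]
      exact hle'
    obtain ⟨t, ht, htu⟩ := exists_stab_agree hM hV hmax hle hk
    refine ⟨t, ht, ?_⟩
    rw [htu (v.1 : G) ⟨x, Subgroup.mem_zpowers x, by simp [← hg]; group⟩]
    calc g'⁻¹ * g * (v.1 : G) * (g'⁻¹ * g)⁻¹ = g'⁻¹ * (g * (v.1 : G) * g⁻¹) * g' := by group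
      _ = (v'.1 : G) := by rw [hg, ← hg']; group
  have hR5 : ∀ v v' a, R v a → ∀ t ∈ stab M P c, t * (v.1 : G) * t⁻¹ = (v'.1 : G) → R v' a := by
    rintro v v' ⟨⟨x, hx⟩, f, hf⟩ ⟨g, hg, hle⟩ t ht htv
    dsimp only at hg hle
    refine ⟨g * t⁻¹, ?_, ?_⟩
    · rw [← htv]
      calc g * t⁻¹ * (t * (v.1 : G) * t⁻¹) * (g * t⁻¹)⁻¹ = g * (v.1 : G) * g⁻¹ := by group
        _ = x := hg
    · show Relation.ReflTransGen (NormalSubpairRel 2 M)
        (cIdx (g * t⁻¹)⁻¹ (⟨Subgroup.zpowers x, f⟩ : BrauerPairIdx G)) ⟨P, c⟩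
      rw [mul_inv_rev, inv_inv, ← cIdx_cIdx (M := M) _ _ hf.1, ← stab_eq_self hcb ht]
      exact le_cIdx hM hle t
  choose F hF using hR2
  have hsurj : Function.Surjective F := fun a =>
    (hR1 a).imp fun v hv => hR3 v _ _ (hF v) hv
  have hS : Nat.card S * e = 3 := by
    rcases he13 with rfl | rfl
    · rw [mul_one, ← card_nontrivial hV]
      refine (Nat.card_congr (Equiv.ofBijective F ⟨fun v v' hvv => ?_, hsurj⟩)).symm
      obtain ⟨t, ht, htv⟩ := hR4 v v' _ (hF v) (hvv ▸ hF v')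
      have htC := Subgroup.relIndex_eq_one.1 he ht
      refine Subtype.ext (Subtype.ext ?_)
      rw [← htv, ← Subgroup.mem_centralizer_iff.1 htC _ v.1.2, mul_inv_cancel_right]
    · haveI : Subsingleton S := ⟨fun a a' => by
        obtain ⟨v, rfl⟩ := hsurj a
        obtain ⟨v', rfl⟩ := hsurj a'
        obtain ⟨t, ht, htv⟩ := exists_stab_conj hM hV hmax he v.1.2
          (fun h => v.2 (Subtype.ext h)) v'.1.2 (fun h => v'.2 (Subtype.ext h))
        exact hR3 v' _ _ (hR5 v v' _ (hF v) t ht htv) (hF v')⟩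
      haveI : Nonempty {v : P // v ≠ 1} := by
        refine (Nat.card_ne_zero.1 ?_).1
        rw [card_nontrivial hV]; norm_num
      haveI : Nonempty S := Nonempty.map F inferInstance
      rw [show Nat.card S = 1 from Nat.card_eq_one_iff_unique.2 ⟨inferInstance, inferInstance⟩]
  -- four characters
  have hk : Nat.card B = 4 := by
    obtain ⟨⟨v, hv⟩⟩ : Nonempty {v : P // v ≠ 1} := by
      refine (Nat.card_ne_zero.1 ?_).1
      rw [card_nontrivial hV]; norm_num
    have hvo := orderOf_of_mem hV v.2 fun h => hv (Subtype.ext h)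
    have hvp : IsPGroup 2 (Subgroup.zpowers (v : G)) :=
      IsPElem.isPGroup_zpowers ⟨1, by rw [hvo, pow_one]⟩
    obtain ⟨f, hf, hle⟩ := exists_le hM hP hcb (Subgroup.zpowers (v : G))
      (Subgroup.zpowers_le.2 v.2)
    have hfd := blockDefect_of_le hM hV hmax hd hle
    exact Lib.Block.KleinDefect.card_eq_four hM hvo (centralizer_zpowers _)
      ((induced_iff_occ hM hvp hB).2 ⟨hf, ((isBrauerPairOf_iff hM).1
        ((pairOf_iff_of_le hM hP hcb hle).2 hmax.1)).2.2.2⟩)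
      hfd hd (blockRank_zpowers hM hvo hf hfd)
  refine ⟨he13, hk, ?_⟩
  have hcount := card_block_eq_sum hM hB X hXp hXrep
  have hone : ∀ x ∈ X.erase 1,
      (∑ᶠ b ∈ {b : Set (IrrCharacter (Subgroup.centralizer ({x} : Set G))) |
        IsInducedBlock M (Subgroup.centralizer ({x} : Set G)) b B}, blockRank 2 b) =
      Nat.card {f : CBlock (Subgroup.zpowers x) //
        IsInducedBlock M (Subgroup.centralizer (Subgroup.zpowers x : Set G)) f B} := by
    intro x hx
    rw [hterm x, finsum_mem_congr rfl (g := fun _ => 1) fun f hf => ?_,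
      finsum_mem_eq_toFinset_sum, Finset.sum_const, smul_eq_mul, mul_one]
    · rw [← Set.ncard_eq_toFinset_card']
      rfl
    · obtain ⟨y, -, hfd⟩ := hconjB x f (hord x hx f hf) hf
      exact blockRank_zpowers hM (hord x hx f hf) hf.1 hfd
  rw [← Finset.add_sum_erase X _ h1X, hterm 1, Finset.sum_congr rfl hone, hk,
    ← Finset.sum_coe_sort (X.erase 1), ← Nat.card_sigma] at hcount
  have h1 : (∑ᶠ f ∈ {f : CBlock (Subgroup.zpowers (1 : G)) |
      IsInducedBlock M (Subgroup.centralizer (Subgroup.zpowers (1 : G) : Set G)) f B},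
      blockRank 2 f) = blockRank 2 B := by
    rw [← finsum_bot hM hB]
    exact finsum_congr_subgroup (by rw [Subgroup.zpowers_one_eq_bot])
  rw [h1] at hcount
  change 4 = blockRank 2 B + Nat.card S at hcount
  rcases he13 with rfl | rfl <;> omega

end Cfsg.Agent.S4637
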