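import Cfsg.Statements.S4638
import Cfsg.Agent.Lib.Block.KleinSections

set_option autoImplicit false
set_option linter.style.haveILetI false
open Cfsg Cfsg.Agent.Lib Cfsg.Agent.Lib.Block Cfsg.Agent.Lib.BrauerPairs
open Cfsg.Agent.S4642 (induced_iff_occ)

namespace Cfsg.Agent.S4638

universe u v

section Inertia

variable {p : ℕ} {M : Ideal AlgInt} [M.IsPrime] {G : Type u} [Group G] [Finite G]

/-- Corresponding blocks have maximal pairs with the same inertial index. -/
theorem inertia_eq (hM : IsPModular p M) {H : Subgroup G} {P' : Subgroup H}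
    (hH : H = Subgroup.normalizer (P'.map H.subtype : Set G)) {B : Set (IrrCharacter G)}
    (hB : IsPBlock M B) (hD : IsDefectGroup p M B (P'.map H.subtype))
    {c : Set (IrrCharacter H)} (hc : IsInducedBlock M H c B) :
    ∃ (e : CBlock (P'.map H.subtype)) (e' : CBlock P'),
      IsMaximalBrauerPair p M B (P'.map H.subtype) e ∧ IsMaximalBrauerPair p M c P' e' ∧
      (Subgroup.centralizer (P' : Set H)).relIndex (stab M P' e') =
        (Subgroup.centralizer (P'.map H.subtype : Set G)).relIndex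
          (stab M (P'.map H.subtype) e) := by
  have hHN := hH.ge
  have hCH := normalizer_push hHN (le_refl (P'.map H.subtype))
  have hnorm : ∀ h : H, h ∈ Subgroup.normalizer (P' : Set H) := fun h => by
    refine Subgroup.mem_normalizer_iff.2 fun y => ?_
    have h1 := Subgroup.mem_normalizer_iff.1 (hH.le h.2) (y : G)
    have key : ∀ z : H, (z : G) ∈ P'.map H.subtype ↔ z ∈ P' := fun z =>
      Subgroup.mem_map_iff_mem H.subtype_injective
    rwa [key, show (h : G) * (y : G) * (h : G)⁻¹ = ((h * y * h⁻¹ : H) : G) from rfl, key] at h1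
  haveI : P'.Normal := ⟨fun y hy h => (Subgroup.mem_normalizer_iff.1 (hnorm h) y).1 hy⟩
  obtain ⟨e, hpe⟩ := exists_pair_on_defect hM hB hD
  have hmax := isMaximal_of_card hM hpe (IsDefectGroup.props hM hB hD).2.1
  obtain ⟨hP, heb, -, -⟩ := (isBrauerPairOf_iff hM).1 hpe
  obtain ⟨e', he', hee⟩ : ∃ e' : CBlock P', IsPBlock M e' ∧
      pbar M (P'.map H.subtype) e = emb H (pbar M P' e') := by
    refine ⟨mapBlock (subCent P' hCH).symm e, isPBlock_mapBlock _ heb, ?_⟩
    rw [← pbar_push P' hCH, mapBlock_symm]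
  have hP' : IsPGroup p P' := hP.of_equiv (P'.equivMapOfInjective _ H.subtype_injective).symm
  obtain ⟨c', hc'⟩ := exists_block_of_pair hM hP' he'
  have hcmax := maximal_pull hM hHN hee heb hmax hc'
  have hcc : c = c' := by
    have h1 := (induced_iff_br hM hP (Subgroup.map_subtype_le P') hCH hH.le hc.1 hB).1 hc
    rw [br_bar_eq hM hHN hee hmax hcmax, br_emb, br_eq_self_of_normal hM hP' (isClassCoeff_bar c')
      (isIdempotentElem_bar hc'.2.1), ← map_mul, (emb_injective (M := M) H).eq_iff] at h1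
    rcases bar_mul_idem hc'.2.1 (isClassCoeff_bar c) (isIdempotentElem_bar hc.1) with h | h
    · rw [((isClassCoeff_bar (M := M) c').commute _).eq, h1] at h
      exact absurd h (bar_ne_zero hc.1)
    · rw [((isClassCoeff_bar (M := M) c').commute _).eq, h1] at h
      exact bar_inj hc.1 hc'.2.1 h
  subst hcc
  refine ⟨e, e', hmax, hcmax, ?_⟩
  have hT : (stab M P' e').map H.subtype = stab M (P'.map H.subtype) e := by
    ext g
    constructor
    · rintro ⟨h, hh, rfl⟩
      exact ⟨hH.le h.2, by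
        show cj (h : G) (pbar M (P'.map H.subtype) e) = pbar M (P'.map H.subtype) e
        rw [hee, cj_emb, show cj h (pbar M P' e') = pbar M P' e' from hh.2]⟩
    · intro hg
      refine ⟨⟨g, hHN hg.1⟩, ⟨hnorm _, ?_⟩, rfl⟩
      have h2 : cj g (pbar M (P'.map H.subtype) e) = pbar M (P'.map H.subtype) e := hg.2
      rw [hee, cj_emb ⟨g, hHN hg.1⟩] at h2
      exact emb_injective H h2
  have hCeq : Subgroup.centralizer (P' : Set H) =
      (Subgroup.centralizer (P'.map H.subtype : Set G)).comap H.subtype := by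
    ext x
    exact mem_centralizer_push
  rw [hCeq, Subgroup.relIndex_comap, hT]

end Inertia

/-- Two mutually orthogonal columns of signs of length four with vanishing sums reach every sign
pattern exactly once. -/
theorem exists_unique_sign {α : Type*} (S : Finset α) (hS : S.card = 4) (r s : α → ℤ)
    (hr : ∀ x ∈ S, r x = 1 ∨ r x = -1) (hs : ∀ x ∈ S, s x = 1 ∨ s x = -1)
    (h1 : ∑ x ∈ S, r x = 0) (h2 : ∑ x ∈ S, s x = 0) (h3 : ∑ x ∈ S, r x * s x = 0)
    {u v : ℤ} (hu : u = 1 ∨ u = -1) (hv : v = 1 ∨ v = -1) :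
    ∃! x, x ∈ S ∧ r x = u ∧ s x = v := by
  classical
  have h : ∑ x ∈ S, (1 + u * r x) * (1 + v * s x) = 4 := by
    simp only [add_mul, mul_add, one_mul, mul_one, Finset.sum_add_distrib, Finset.sum_const,
      nsmul_eq_mul, hS]
    rw [← Finset.mul_sum, ← Finset.mul_sum, h1, h2, Finset.sum_congr rfl fun x _ =>
      show u * r x * (v * s x) = (u * v) * (r x * s x) by ring, ← Finset.mul_sum, h3]
    ring
  rw [Finset.sum_congr rfl (g := fun x => if r x = u ∧ s x = v then (4 : ℤ) else 0) fun x hx => by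
    rcases hr x hx with a | a <;> rcases hs x hx with b | b <;> rcases hu with c | c <;>
      rcases hv with d | d <;> simp [a, b, c, d]] at h
  rw [← Finset.sum_filter, Finset.sum_const, nsmul_eq_mul] at h
  have hcard : (S.filter fun x => r x = u ∧ s x = v).card = 1 := by
    have : ((S.filter fun x => r x = u ∧ s x = v).card : ℤ) = 1 := by linarith
    exact_mod_cast this
  obtain ⟨x, hx⟩ := Finset.card_eq_one.1 hcard
  have hmem : ∀ y, y ∈ S ∧ r y = u ∧ s y = v ↔ y = x := fun y => by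
    have := Finset.ext_iff.1 hx y
    rwa [Finset.mem_filter, Finset.mem_singleton] at this
  exact ⟨x, (hmem x).2 rfl, fun y hy => (hmem y).1 hy⟩

/-- The columns of two blocks with the same inertial index match under a signed bijection. -/
theorem exists_matching {α β : Type*} [Nonempty β] {ι κ : Type*} [Fintype ι] [Fintype κ]
    (S : Finset α) (T : Finset β) (hS : S.card = 4) (hT : T.card = 4)
    (d : ι → β → ℤ) (d' : κ → α → ℤ) (hd : ∀ a, ∀ x ∈ T, d a x = 1 ∨ d a x = -1)
    (hd' : ∀ a, ∀ x ∈ S, d' a x = 1 ∨ d' a x = -1)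
    (ho : ∀ a a', a ≠ a' → ∑ x ∈ T, d a x * d a' x = 0)
    (ho' : ∀ a a', a ≠ a' → ∑ x ∈ S, d' a x * d' a' x = 0)
    (hι : Fintype.card ι = 1 ∨ Fintype.card ι = 3) (hκ : Fintype.card κ = Fintype.card ι) :
    ∃ (σ : ι ≃ κ) (I : α → β) (ε : α → ℤ), Set.BijOn I S T ∧
      (∀ η ∈ S, ε η = 1 ∨ ε η = -1) ∧ ∀ a, ∀ η ∈ S, ε η * d a (I η) = d' (σ a) η := by
  classical
  obtain ⟨σ⟩ : Nonempty (ι ≃ κ) := ⟨Fintype.equivOfCardEq hκ.symm⟩
  have hST : ∀ I : α → β, Set.MapsTo I S T → Set.InjOn I S → Set.BijOn I S T := fun I hm hi =>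
    ⟨hm, hi, Finset.surjOn_of_injOn_of_card_le I hm hi (le_of_eq (hT.trans hS.symm))⟩
  have hpm : ∀ {x y : ℤ}, (x = 1 ∨ x = -1) → (y = 1 ∨ y = -1) → x * y = 1 ∨ x * y = -1 := by
    rintro x y (rfl | rfl) (rfl | rfl) <;> simp
  rcases hι with h1 | h3
  · obtain ⟨a₀, ha₀⟩ := Fintype.card_eq_one_iff.1 h1
    obtain ⟨f⟩ : Nonempty (S ≃ T) := ⟨Fintype.equivOfCardEq (by simp [hS, hT])⟩
    let I : α → β := fun η => if h : η ∈ S then (f ⟨η, h⟩).1 else Classical.arbitrary β
    have hm : Set.MapsTo I S T := fun η hη => by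
      simp only [I, dif_pos (Finset.mem_coe.1 hη)]; exact (f _).2
    refine ⟨σ, I, fun η => d' (σ a₀) η * d a₀ (I η), hST I hm ?_,
      fun η hη => hpm (hd' _ _ hη) (hd _ _ (hm hη)), fun a η hη => ?_⟩
    · intro x hx y hy hxy
      simp only [I, dif_pos (Finset.mem_coe.1 hx), dif_pos (Finset.mem_coe.1 hy)] at hxy
      exact congrArg Subtype.val (f.injective (Subtype.ext hxy))
    · rw [ha₀ a]
      rcases hd a₀ _ (hm hη) with h | h <;> simp [h]
  · obtain ⟨g⟩ : Nonempty (Fin 3 ≃ ι) := ⟨Fintype.equivOfCardEq (by simp [h3])⟩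
    set r : Fin 3 → β → ℤ := fun i x => d (g 0) x * d (g i) x with hr
    set r' : Fin 3 → α → ℤ := fun i x => d' (σ (g 0)) x * d' (σ (g i)) x with hr'
    have hsum : ∀ i : Fin 3, i ≠ 0 → ∑ x ∈ T, r i x = 0 := fun i hi =>
      ho _ _ fun e => hi (g.injective e).symm
    have hsum' : ∀ i : Fin 3, i ≠ 0 → ∑ x ∈ S, r' i x = 0 := fun i hi =>
      ho' _ _ fun e => hi (g.injective (σ.injective e)).symm
    have hsum3 : ∑ x ∈ T, r 1 x * r 2 x = 0 := by
      rw [← ho (g 1) (g 2) fun e => absurd (g.injective e) (by decide)]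
      refine Finset.sum_congr rfl fun x hx => ?_
      simp only [hr]
      rcases hd (g 0) x hx with h | h <;> simp [h]
    have hsum3' : ∑ x ∈ S, r' 1 x * r' 2 x = 0 := by
      rw [← ho' (σ (g 1)) (σ (g 2)) fun e => absurd (g.injective (σ.injective e)) (by decide)]
      refine Finset.sum_congr rfl fun x hx => ?_
      simp only [hr']
      rcases hd' (σ (g 0)) x hx with h | h <;> simp [h]
    have hex : ∀ η ∈ S, ∃ x, x ∈ T ∧ r 1 x = r' 1 η ∧ r 2 x = r' 2 η := fun η hη =>
      (exists_unique_sign T hT (r 1) (r 2) (fun x hx => hpm (hd _ x hx) (hd _ x hx))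
        (fun x hx => hpm (hd _ x hx) (hd _ x hx)) (hsum 1 (by decide)) (hsum 2 (by decide)) hsum3
        (hpm (hd' _ η hη) (hd' _ η hη)) (hpm (hd' _ η hη) (hd' _ η hη))).exists
    choose! I hI using hex
    have hm : Set.MapsTo I S T := fun η hη => (hI η hη).1
    refine ⟨σ, I, fun η => d' (σ (g 0)) η * d (g 0) (I η), hST I hm ?_,
      fun η hη => hpm (hd' _ _ hη) (hd _ _ (hm hη)), fun a η hη => ?_⟩
    · intro x hx y hy hxy
      refine (exists_unique_sign S hS (r' 1) (r' 2) (fun z hz => hpm (hd' _ z hz) (hd' _ z hz))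
        (fun z hz => hpm (hd' _ z hz) (hd' _ z hz)) (hsum' 1 (by decide)) (hsum' 2 (by decide))
        hsum3' (hpm (hd' _ x hx) (hd' _ x hx)) (hpm (hd' _ x hx) (hd' _ x hx))).unique
        ⟨hx, rfl, rfl⟩ ⟨hy, ?_, ?_⟩
      · show r' 1 y = r' 1 x
        rw [← (hI x hx).2.1, hxy, (hI y hy).2.1]
      · show r' 2 y = r' 2 x
        rw [← (hI x hx).2.2, hxy, (hI y hy).2.2]
    · obtain ⟨i, rfl⟩ := g.surjective a
      have key : r i (I η) = r' i η := by
        fin_cases i
        · simp only [hr, hr']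
          rcases hd (g 0) _ (hm hη) with h | h <;> rcases hd' (σ (g 0)) η hη with h' | h' <;>
            simp [h, h']
        · exact (hI η hη).2.1
        · exact (hI η hη).2.2
      simp only [hr, hr'] at key
      beta_reduce
      rcases hd' (σ (g 0)) η hη with h' | h'
      · rw [h', one_mul] at key ⊢
        exact key
      · rw [h'] at key ⊢
        linarith

section Perfect

variable {M : Ideal AlgInt} [M.IsPrime] {G : Type u} [Group G] [Finite G] {H : Type v} [Group H]
  [Finite H]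

theorem isPerfectIsometry_of_matching (hM : IsPModular 2 M) {B : Set (IrrCharacter G)}
    {c : Set (IrrCharacter H)} (S : Finset (IrrCharacter H)) (T : Finset (IrrCharacter G))
    (hS : ∀ η, η ∈ S ↔ η ∈ c) (hT : ∀ χ, χ ∈ T ↔ χ ∈ B) (hScard : S.card = 4)
    {ι : Type u} {κ : Type v} [Fintype ι] [Fintype κ]
    (d : ι → IrrCharacter G → ℤ) (w : ι → G → ℂ) (d' : κ → IrrCharacter H → ℤ)
    (w' : κ → H → ℂ)
    (hd' : ∀ a, ∀ η ∈ S, d' a η = 1 ∨ d' a η = -1)
    (ho' : ∀ a a', a ≠ a' → ∑ η ∈ S, d' a η * d' a' η = 0)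
    (hreg : ∀ a, ∀ g : G, ¬ 2 ∣ orderOf g → ∑ χ ∈ T, (d a χ : ℂ) * (χ : G → ℂ) g = 0)
    (hreg' : ∀ a, ∀ g : H, ¬ 2 ∣ orderOf g → ∑ η ∈ S, (d' a η : ℂ) * (η : H → ℂ) g = 0)
    (hval : ∀ χ ∈ B, ∀ g : G, 2 ∣ orderOf g → (χ : G → ℂ) g = ∑ a, (d a χ : ℂ) * w a g)
    (hval' : ∀ η ∈ c, ∀ g : H, 2 ∣ orderOf g → (η : H → ℂ) g = ∑ a, (d' a η : ℂ) * w' a g)
    (hwint : ∀ a g, IsIntegral ℤ (w a g)) (hwint' : ∀ a g, IsIntegral ℤ (w' a g))
    (hwdiv : ∀ a g, 4 * w a g / (Nat.card (Subgroup.centralizer ({g} : Set G)) : ℂ) ∈ locRing M)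
    (hwdiv' : ∀ a g, 4 * w' a g / (Nat.card (Subgroup.centralizer ({g} : Set H)) : ℂ) ∈ locRing M)
    (σ : ι ≃ κ) (I : IrrCharacter H → IrrCharacter G) (ε : IrrCharacter H → ℤ)
    (hI : Set.BijOn I S T) (hε : ∀ η ∈ S, ε η = 1 ∨ ε η = -1)
    (hmatch : ∀ a, ∀ η ∈ S, ε η * d a (I η) = d' (σ a) η) :
    IsPerfectIsometry 2 M c B I ε := by
  classical
  haveI : Fact (Nat.Prime 2) := ⟨Nat.prime_two⟩
  have hSc : (S : Set (IrrCharacter H)) = c := Set.ext fun η => hS η
  have hTB : (T : Set (IrrCharacter G)) = B := Set.ext fun χ => hT χ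
  refine ⟨hSc ▸ hTB ▸ hI, fun η hη => hε η ((hS η).2 hη), ?_⟩
  have hμ : ∀ x y, signedBijectionKernel c I ε x y =
      ∑ η ∈ S, (ε η : ℂ) * (I η : G → ℂ) x * (η : H → ℂ) y := fun x y => by
    rw [signedBijectionKernel, ← hSc]
    exact finsum_mem_coe_finset _ S
  have hmatch' : ∀ a, ∀ η ∈ S, (ε η : ℂ) * (d a (I η) : ℂ) = (d' (σ a) η : ℂ) := fun a η hη => by
    exact_mod_cast hmatch a η hη
  have hsq : ∀ η ∈ S, (ε η : ℂ) * (ε η : ℂ) = 1 := fun η hη => by
    rcases hε η hη with h | h <;> simp [h]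
  -- singular first variable, regular second
  have h10 : ∀ x y, 2 ∣ orderOf x → ¬ 2 ∣ orderOf y →
      ∑ η ∈ S, (ε η : ℂ) * (I η : G → ℂ) x * (η : H → ℂ) y = 0 := by
    intro x y hx hy
    rw [Finset.sum_congr rfl (g := fun η => ∑ a, w a x * ((d' (σ a) η : ℂ) * (η : H → ℂ) y))
      fun η hη => by
        rw [hval _ ((hT _).1 (hI.mapsTo hη)) x hx, Finset.mul_sum, Finset.sum_mul]
        refine Finset.sum_congr rfl fun a _ => ?_
        rw [← hmatch' a η hη]; ring, Finset.sum_comm]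
    exact Finset.sum_eq_zero fun a _ => by rw [← Finset.mul_sum, hreg' _ y hy, mul_zero]
  -- regular first variable, singular second
  have h01 : ∀ x y, ¬ 2 ∣ orderOf x → 2 ∣ orderOf y →
      ∑ η ∈ S, (ε η : ℂ) * (I η : G → ℂ) x * (η : H → ℂ) y = 0 := by
    intro x y hx hy
    rw [Finset.sum_congr rfl (g := fun η => ∑ a : ι, w' (σ a) y * ((d a (I η) : ℂ) *
        (I η : G → ℂ) x)) fun η hη => by
        rw [hval' _ ((hS _).1 hη) y hy,
          ← Equiv.sum_comp σ (fun b => (d' b η : ℂ) * w' b y), Finset.mul_sum]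
        refine Finset.sum_congr rfl fun a _ => ?_
        rw [← hmatch' a η hη]
        linear_combination ((d a (I η) : ℂ) * (I η : G → ℂ) x * w' (σ a) y) * hsq η hη,
      Finset.sum_comm]
    refine Finset.sum_eq_zero fun a _ => ?_
    rw [← Finset.mul_sum]
    have e : ∑ η ∈ S, (d a (I η) : ℂ) * (I η : G → ℂ) x = ∑ χ ∈ T, (d a χ : ℂ) * (χ : G → ℂ) x :=
      Finset.sum_nbij I (fun η hη => hI.mapsTo hη) hI.injOn hI.surjOn fun η _ => rfl
    rw [e, hreg a x hx, mul_zero]
  -- both singular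
  have h11 : ∀ x y, 2 ∣ orderOf x → 2 ∣ orderOf y →
      ∑ η ∈ S, (ε η : ℂ) * (I η : G → ℂ) x * (η : H → ℂ) y =
        4 * ∑ a, w a x * w' (σ a) y := by
    intro x y hx hy
    rw [Finset.sum_congr rfl (g := fun η => ∑ a : ι, ∑ b : κ,
        w a x * w' b y * (((d' (σ a) η * d' b η : ℤ)) : ℂ)) fun η hη => by
        rw [hval _ ((hT _).1 (hI.mapsTo hη)) x hx, hval' _ ((hS _).1 hη) y hy, Finset.mul_sum (a := (ε η : ℂ)),
          Finset.sum_mul]
        refine Finset.sum_congr rfl fun a _ => ?_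
        rw [Finset.mul_sum]
        refine Finset.sum_congr rfl fun b _ => ?_
        rw [Int.cast_mul, ← hmatch' a η hη]; ring, Finset.sum_comm, Finset.mul_sum]
    refine Finset.sum_congr rfl fun a _ => ?_
    rw [Finset.sum_comm, Finset.sum_eq_single (σ a)]
    · rw [← Finset.mul_sum, ← Int.cast_sum, Finset.sum_congr rfl (g := fun _ => (1 : ℤ)) fun η hη => by
        rcases hd' (σ a) η hη with h | h <;> simp [h], Finset.sum_const, hScard]
      simp only [nsmul_eq_mul, mul_one, Int.cast_natCast]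
      push_cast
      ring
    · intro b _ hb
      rw [← Finset.mul_sum, ← Int.cast_sum, ho' _ _ (Ne.symm hb), Int.cast_zero, mul_zero]
    · simp
  have hint : ∀ (z : ℤ) {w : ℂ}, IsIntegral ℤ w → IsIntegral ℤ ((z : ℂ) * w) := fun z w hw =>
    (isIntegral_intCast z).mul hw
  intro x y
  rw [hμ x y]
  refine ⟨?_, ?_, ?_⟩
  · by_cases hx : 2 ∣ orderOf x
    · by_cases hy : 2 ∣ orderOf y
      · rw [h11 x y hx hy, Finset.mul_sum, Finset.sum_div]
        refine Subring.sum_mem (locRing M) fun a _ => ?_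
        rw [show 4 * (w a x * w' (σ a) y) / (Nat.card (Subgroup.centralizer ({x} : Set G)) : ℂ) =
          4 * w a x / (Nat.card (Subgroup.centralizer ({x} : Set G)) : ℂ) * w' (σ a) y by ring]
        exact mul_mem (hwdiv a x) (integral_mem_locRing (hwint' _ y))
      · rw [h10 x y hx hy, zero_div]; exact zero_mem (locRing M)
    · by_cases hy : 2 ∣ orderOf y
      · rw [h01 x y hx hy, zero_div]; exact zero_mem (locRing M)
      · rw [Finset.sum_congr rfl fun η _ => show (ε η : ℂ) * (I η : G → ℂ) x * (η : H → ℂ) y =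
          ((ε η : ℂ) * (η : H → ℂ) y) * (I η : G → ℂ) x by ring]
        refine KleinSections.div_centralizer_mem hM S _ (fun η _ => hint _ ?_)
          (fun η => (I η : G → ℂ)) (fun η _ => Char.isCharacter_of_isIrr (I η).2) (fun g hg => ?_) hx
        · obtain ⟨n, ρ, hρ⟩ := Char.isCharacter_of_isIrr η.2
          rw [← hρ]
          exact Char.isIntegral_character ρ y
        · rw [← h10 g y hg hy]
          exact Finset.sum_congr rfl fun η _ => by ring
  · by_cases hy : 2 ∣ orderOf y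
    · by_cases hx : 2 ∣ orderOf x
      · rw [h11 x y hx hy, Finset.mul_sum, Finset.sum_div]
        refine Subring.sum_mem (locRing M) fun a _ => ?_
        rw [show 4 * (w a x * w' (σ a) y) / (Nat.card (Subgroup.centralizer ({y} : Set H)) : ℂ) =
          4 * w' (σ a) y / (Nat.card (Subgroup.centralizer ({y} : Set H)) : ℂ) * w a x by ring]
        exact mul_mem (hwdiv' _ y) (integral_mem_locRing (hwint a x))
      · rw [h01 x y hx hy, zero_div]; exact zero_mem (locRing M)
    · by_cases hx : 2 ∣ orderOf x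
      · rw [h10 x y hx hy, zero_div]; exact zero_mem (locRing M)
      · refine KleinSections.div_centralizer_mem hM S _ (fun η _ => hint _ ?_)
          (fun η => (η : H → ℂ)) (fun η _ => Char.isCharacter_of_isIrr η.2) (fun g hg => ?_) hy
        · obtain ⟨n, ρ, hρ⟩ := Char.isCharacter_of_isIrr (I η).2
          rw [← hρ]
          exact Char.isIntegral_character ρ x
        · exact h01 x g hx hg
  · by_cases hxy : IsPRegular 2 x ↔ IsPRegular 2 y
    · exact Or.inl hxy
    · right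
      by_cases hx : 2 ∣ orderOf x
      · exact h10 x y hx fun hy => hxy ⟨fun h => absurd hx h, fun h => absurd hy h⟩
      · refine h01 x y hx ?_
        by_contra hy
        exact hxy ⟨fun _ => hy, fun _ => hx⟩

end Perfect

/-- Let B be a block of the finite group G relative to a maximal ideal M of the algebraic integers containing 2, with a Klein four defect group P, and let c be its Brauer correspondent: the block of N_G(P) with defect group P that induces B. Then there is a perfect isometry from c onto B. -/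
theorem result {G : Type*} [Group G] [Finite G] (M : Ideal Cfsg.AlgInt) (hM : Cfsg.IsPModular 2 M) (B : Set (Cfsg.IrrCharacter G)) (hB : Cfsg.IsPBlock M B) (P : Subgroup G) (hPD : Cfsg.IsDefectGroup 2 M B P) (hV : IsKleinFour P) (c : Set (Cfsg.IrrCharacter (Subgroup.normalizer (P : Set G)))) (hcD : Cfsg.IsDefectGroup 2 M c (P.subgroupOf (Subgroup.normalizer (P : Set G)))) (hc : Cfsg.IsInducedBlock M (Subgroup.normalizer (P : Set G)) c B) : ∃ (I : Cfsg.IrrCharacter (Subgroup.normalizer (P : Set G)) → Cfsg.IrrCharacter G) (ε : Cfsg.IrrCharacter (Subgroup.normalizer (P : Set G)) → ℤ), Cfsg.IsPerfectIsometry 2 M c B I ε := by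
  classical
  haveI : M.IsPrime := hM.2.1.isPrime
  haveI := Fintype.ofFinite G
  have hPN : P ≤ (Subgroup.normalizer (P : Set G)) := Subgroup.le_normalizer
  have hmap : (P.subgroupOf (Subgroup.normalizer (P : Set G))).map (Subgroup.normalizer (P : Set G)).subtype = P := Subgroup.map_subgroupOf_eq_of_le hPN
  have hNeq : (Subgroup.normalizer (P : Set G)) = Subgroup.normalizer ((P.subgroupOf (Subgroup.normalizer (P : Set G))).map (Subgroup.normalizer (P : Set G)).subtype : Set G) := by rw [hmap]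
  have hV' : IsKleinFour ((P.subgroupOf (Subgroup.normalizer (P : Set G))).map (Subgroup.normalizer (P : Set G)).subtype : Subgroup G) := by rw [hmap]; exact hV
  have hVN : IsKleinFour (P.subgroupOf (Subgroup.normalizer (P : Set G))) :=
    ⟨(Nat.card_congr (Subgroup.subgroupOfEquivOfLe hPN).toEquiv).trans hV.card_four,
      (Monoid.exponent_eq_of_mulEquiv (Subgroup.subgroupOfEquivOfLe hPN)).trans hV.exponent_two⟩
  have hPD' : IsDefectGroup 2 M B ((P.subgroupOf (Subgroup.normalizer (P : Set G))).map (Subgroup.normalizer (P : Set G)).subtype) := by rw [hmap]; exact hPD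
  obtain ⟨e, e', hmax, hmax', hidx⟩ := inertia_eq hM hNeq hB hPD' hc
  obtain ⟨hP, heb, -, ho⟩ := (isBrauerPairOf_iff hM).1 hmax.1
  obtain ⟨hPn, heb', -, ho'⟩ := (isBrauerPairOf_iff hM).1 hmax'.1
  have hstab : ∀ {K : Type _} [Group K] [Finite K] (Q : Subgroup K) (f : CBlock Q), IsPBlock M f →
      ∀ g : K, g ∈ stab M Q f ↔ (g ∈ Subgroup.normalizer (Q : Set K) ∧
        StabilizesBlock (Subgroup.centralizer (Q : Set K)) f g) := fun Q f hf g =>
    ⟨fun h => ⟨h.1, (stabilizesBlock_iff h.1 hf).2 h.2⟩,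
      fun h => ⟨h.1, (stabilizesBlock_iff h.1 hf).1 h.2⟩⟩
  obtain ⟨he13, hkB, hlB⟩ := S4637.result M hM B hB _ hPD' hV' e
    ((induced_iff_occ hM hP hB).2 ⟨heb, ho⟩) _ (hstab _ e heb) _ rfl
  obtain ⟨-, hkc, hlc⟩ := S4637.result M hM c hc.1 (P.subgroupOf (Subgroup.normalizer (P : Set G))) hcD hVN e'
    ((induced_iff_occ hM hPn hc.1).2 ⟨heb', ho'⟩) _ (hstab _ e' heb') _ rfl
  rw [hidx] at hlc
  have hdB := Lib.BrauerPairs.KleinDefect.blockDefect_eq_two hM hB hPD' hV'
  have hdc := Lib.BrauerPairs.KleinDefect.blockDefect_eq_two hM hc.1 hcD hVN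
  obtain ⟨ι, fι, d, w, hι, hpm, ho1, hreg, hval, hwint, hwdiv⟩ :=
    KleinSections.exists_sections hM hV' hmax hdB hkB hlB
  obtain ⟨κ, fκ, d', w', hκ, hpm', ho1', hreg', hval', hwint', hwdiv'⟩ :=
    KleinSections.exists_sections hM hVN hmax' hdc hkc hlc
  set T : Finset (IrrCharacter G) := Finset.univ.filter (· ∈ B) with hTdef
  set S : Finset (IrrCharacter (Subgroup.normalizer (P : Set G))) := Finset.univ.filter (· ∈ c) with hSdef
  have hTm : ∀ χ, χ ∈ T ↔ χ ∈ B := fun χ => by simp [hTdef]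
  have hSm : ∀ η, η ∈ S ↔ η ∈ c := fun η => by simp [hSdef]
  have hTc : T.card = 4 := by
    rw [← hkB, ← Nat.card_eq_finsetCard]; exact Nat.card_congr (Equiv.subtypeEquivRight hTm)
  have hSc : S.card = 4 := by
    rw [← hkc, ← Nat.card_eq_finsetCard]; exact Nat.card_congr (Equiv.subtypeEquivRight hSm)
  haveI : Nonempty (IrrCharacter G) := (isPBlock_nonempty hB).to_type.map id
  obtain ⟨σ, I, ε, hI, hε, hmatch⟩ := exists_matching S T hSc hTc d d'
    (fun a x hx => hpm a x ((hTm x).1 hx)) (fun a x hx => hpm' a x ((hSm x).1 hx))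
    (fun a a' h => ho1 a a' h T hTm) (fun a a' h => ho1' a a' h S hSm)
    (by omega) (by omega)
  exact ⟨I, ε, isPerfectIsometry_of_matching hM S T hSm hTm hSc d w d' w'
    (fun a x hx => hpm' a x ((hSm x).1 hx)) (fun a a' h => ho1' a a' h S hSm)
    (fun a g hg => hreg a g hg T hTm) (fun a g hg => hreg' a g hg S hSm)
    hval hval' hwint hwint' hwdiv hwdiv' σ I ε hI hε hmatch⟩

end Cfsg.Agent.S4638
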