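import Cfsg.Statements.S4639
import Cfsg.Agent.Lib.FreeInertial.Main

set_option autoImplicit false
open Cfsg Cfsg.Agent.Lib Cfsg.Agent.Lib.BrauerPairs

namespace Cfsg.Agent.S4639

/-- Let B be a block of the finite group G relative to a maximal ideal M of the algebraic integers containing the prime p, with a nontrivial commutative defect group P. Let c be a block of C_G(P) inducing B, T the stabilizer of c in N_G(P) and e the index of C_G(P) in T. Suppose that T/C_G(P) is commutative (all commutators of elements of T lie in C_G(P)) and acts freely on the non-identity elements of P (an element of T fixing a non-identity element of P under conjugation lies in C_G(P)). Then B has at most e + (#P − 1)/e irreducible characters and p-regular rank at most e; equality holds in the first bound exactly when it holds in the second; and both equalities hold when e ≤ 3. -/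
theorem result {G : Type*} [Group G] [Finite G] (p : ℕ) [Fact p.Prime] (M : Ideal Cfsg.AlgInt) (hM : Cfsg.IsPModular p M) (B : Set (Cfsg.IrrCharacter G)) (hB : Cfsg.IsPBlock M B) (P : Subgroup G) (hPD : Cfsg.IsDefectGroup p M B P) (hP1 : P ≠ ⊥) (hPab : ∀ x ∈ P, ∀ y ∈ P, x * y = y * x) (c : Set (Cfsg.IrrCharacter (Subgroup.centralizer (P : Set G)))) (hc : Cfsg.IsInducedBlock M (Subgroup.centralizer (P : Set G)) c B) (T : Subgroup G) (hT : ∀ g : G, g ∈ T ↔ (g ∈ Subgroup.normalizer (P : Set G) ∧ Cfsg.StabilizesBlock (Subgroup.centralizer (P : Set G)) c g)) (e : ℕ) (he : (Subgroup.centralizer (P : Set G)).relIndex T = e) (hEab : ∀ g ∈ T, ∀ h ∈ T, g * h * g⁻¹ * h⁻¹ ∈ Subgroup.centralizer (P : Set G)) (hfree : ∀ g ∈ T, ∀ x ∈ P, x ≠ 1 → g * x * g⁻¹ = x → g ∈ Subgroup.centralizer (P : Set G)) : Nat.card B ≤ e + (Nat.card P - 1) / e ∧ Cfsg.blockRank p B ≤ e ∧ (Nat.card B = e + (Nat.card P - 1) / e ↔ Cfsg.blockRank p B = e) ∧ (e ≤ 3 → Nat.card B = e + (Nat.card P - 1) / e ∧ Cfsg.blockRank p B = e) := by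
  haveI : M.IsPrime := hM.2.1.isPrime
  have hmax := isMaximal_of_inducedBlock hM hB hPD hc
  obtain rfl := eq_stab hmax.1.1.2 hT
  obtain ⟨m, he0, hq, hkl, hle, h13⟩ :=
    Lib.FreeInertial.counts hM hmax hPab hP1 hfree he
  have hdiv : (Nat.card P - 1) / e = m := by
    rw [← hq, Nat.add_sub_cancel, Nat.mul_div_cancel _ he0]
  rw [hdiv]
  refine ⟨hle, by omega, by omega, fun h3 => ?_⟩
  suffices h : ¬ Nat.card B < e + m by omega
  intro hlt
  have hprime : (Nat.card P).Prime := by
    obtain ⟨k, hk⟩ := IsPGroup.iff_card.1 hmax.1.1.1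
    rcases h13 h3 hlt with h | h | h <;> rw [mul_comm, hq] at h
    · rw [h]; norm_num
    · exfalso
      have h2 : (2 : ℕ) ∣ p ^ k := by rw [← hk, h]; norm_num
      have h5 : (5 : ℕ) ∣ p ^ k := by rw [← hk, h]; norm_num
      have e2 := (Nat.prime_dvd_prime_iff_eq Nat.prime_two hM.1).1 (Nat.prime_two.dvd_of_dvd_pow h2)
      have e5 := (Nat.prime_dvd_prime_iff_eq Nat.prime_five hM.1).1
        (Nat.prime_five.dvd_of_dvd_pow h5)
      omega
    · rw [h]; norm_num
  haveI := Fact.mk hprime
  haveI : IsCyclic P := isCyclic_of_prime_card rfl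
  obtain ⟨S⟩ := Lib.CyclicDefect.exists_setup hM hmax inferInstance hP1
  have := S.le_blockRank
  rw [← S.m_eq, he] at this
  omega

end Cfsg.Agent.S4639
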