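import Cfsg.Statements.S4640
import Cfsg.Agent.S4672
import Cfsg.Agent.Lib.Block.AbelianDefectValues
import Cfsg.Agent.Lib.BrauerPairs.CoveringNormalizer
import Cfsg.Agent.Lib.CharClifford.Gallagher
import Cfsg.Agent.Lib.Char.Linear

set_option autoImplicit false
set_option linter.style.haveILetI false
open Cfsg Cfsg.Agent.Lib Cfsg.Agent.Lib.Block Cfsg.Agent.Lib.BrauerPairs
open scoped ComplexConjugate

namespace Cfsg.Agent.S4640

universe u

/-- The linear characters trivial on a normal subgroup with abelian quotient. -/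
theorem card_linear_trivial {G : Type u} [Group G] [Finite G] (N : Subgroup G) [N.Normal]
    (hcomm : ∀ a b : G, a * b * a⁻¹ * b⁻¹ ∈ N) :
    Nat.card (G ⧸ N →* ℂˣ) = N.index := by
  letI : CommGroup (G ⧸ N) :=
    { (inferInstance : Group (G ⧸ N)) with
      mul_comm := fun x y => by
        obtain ⟨a, rfl⟩ := QuotientGroup.mk_surjective x
        obtain ⟨b, rfl⟩ := QuotientGroup.mk_surjective y
        rw [← mul_inv_eq_one, ← QuotientGroup.mk_mul, ← QuotientGroup.mk_mul,
          ← QuotientGroup.mk_inv, ← QuotientGroup.mk_mul, QuotientGroup.eq_one_iff]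
        have := hcomm a b
        simpa [mul_assoc] using this }
  have : NeZero (Monoid.exponent (G ⧸ N)) := ⟨Monoid.exponent_ne_zero_of_finite⟩
  have : NeZero (Monoid.exponent (G ⧸ N) : ℂ) := NeZero.charZero
  rw [CommGroup.card_monoidHom_of_hasEnoughRootsOfUnity]
  rfl

/-- Let N be a normal subgroup of the finite group G of index a power of the prime p, M a maximal ideal of the algebraic integers containing p, b a block of N stabilized by every element of G, and B a block of G covering b (some member of B has a member of b as a constituent of its restriction to N). Suppose that B has a commutative defect group P. Then G = NP and P ∩ N is a defect group of b; every member of B restricts to a member of b; every member of b is the restriction of exactly [G : N] members of B; B contains exactly [G : N] times as many irreducible characters as b; and B and b have the same p-regular rank. -/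
theorem result {G : Type*} [Group G] [Fintype G] (p : ℕ) [Fact p.Prime] (M : Ideal Cfsg.AlgInt) (hM : Cfsg.IsPModular p M) (N : Subgroup G) [N.Normal] [Fintype N] (hNi : ∃ k : ℕ, N.index = p ^ k) (b : Set (Cfsg.IrrCharacter N)) (hb : Cfsg.IsPBlock M b) (hstab : ∀ g : G, Cfsg.StabilizesBlock N b g) (B : Set (Cfsg.IrrCharacter G)) (hB : Cfsg.IsPBlock M B) (hcov : ∃ χ ∈ B, ∃ θ ∈ b, Cfsg.classInner (fun n : N => (χ : G → ℂ) n) (θ : N → ℂ) ≠ 0) (P : Subgroup G) (hPD : Cfsg.IsDefectGroup p M B P) (hPab : ∀ x ∈ P, ∀ y ∈ P, x * y = y * x) : N ⊔ P = ⊤ ∧ Cfsg.IsDefectGroup p M b ((P ⊓ N).subgroupOf N) ∧ (∀ χ ∈ B, ∃ θ ∈ b, ∀ n : N, (χ : G → ℂ) n = (θ : N → ℂ) n) ∧ (∀ θ ∈ b, Nat.card {χ : Cfsg.IrrCharacter G // χ ∈ B ∧ ∀ n : N, (χ : G → ℂ) n = (θ : N → ℂ) n} = N.index) ∧ Nat.card B = N.index * Nat.card b ∧ Cfsg.blockRank p B = Cfsg.blockRank p b := by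
  classical
  haveI := hM.2.1
  obtain ⟨⟨B₀, hB₀, hB₀c⟩, hdefect⟩ := S4672.result p M hM N hNi b hb hstab
  have hbarB₀ : bar M B₀ = emb N (bar M b) := by
    refine alg_ext fun g => ?_
    rw [coeff_bar, hB₀c, subgroupBlockCoeff]
    by_cases hg : g ∈ N
    · rw [dif_pos hg, coeff_emb_of_mem _ _ hg, coeff_bar]
    · rw [dif_neg hg, coeff_emb_of_not_mem _ _ hg, redC_zero]
  have hcover : ∀ B' : Set (IrrCharacter G), IsPBlock M B' →
      (∃ χ ∈ B', ∃ θ ∈ b, classInner (fun n : N => (χ : G → ℂ) n) (θ : N → ℂ) ≠ 0) → B' = B₀ := by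
    intro B' hB' h
    by_contra hne
    refine bar_mul_ne_zero_of_cover N hM hB' hb h ?_
    rw [← hbarB₀, bar_mul_bar_of_ne hB' hB₀ hne]
  obtain rfl : B = B₀ := hcover B hB hcov
  obtain ⟨hNP, hbdef⟩ := hdefect B hB hB₀c P hPD
  obtain ⟨k, hk⟩ := hNi
  have hreg : ∀ x : G, IsPRegular p x → x ∈ N := fun x hx => mem_of_regular_of_index N hM hk hx
  have hNPmem : ∀ g : G, ∃ n ∈ N, ∃ u ∈ P, n * u = g := fun g => by
    have hg : g ∈ N ⊔ P := by rw [hNP]; trivial
    rwa [← SetLike.mem_coe, Subgroup.normal_mul N P] at hg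
  have hcomm : ∀ a c : G, a * c * a⁻¹ * c⁻¹ ∈ N := by
    intro a c
    rw [← QuotientGroup.eq_one_iff]
    obtain ⟨n, hn, u, hu, rfl⟩ := hNPmem a
    obtain ⟨m, hm, v, hv, rfl⟩ := hNPmem c
    simp only [QuotientGroup.mk_mul, QuotientGroup.mk_inv, (QuotientGroup.eq_one_iff n).2 hn,
      (QuotientGroup.eq_one_iff m).2 hm, one_mul]
    rw [← QuotientGroup.mk_mul, hPab u hu v hv, QuotientGroup.mk_mul]
    group
  haveI : Fintype (G ⧸ N →* ℂˣ) := by
    haveI : Finite (G ⧸ N →* ℂˣ) := Nat.finite_of_card_ne_zero (by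
      rw [card_linear_trivial N hcomm]; exact Subgroup.index_ne_zero_of_finite)
    exact Fintype.ofFinite _
  -- twisting
  let tw : IrrCharacter G → (G ⧸ N →* ℂˣ) → IrrCharacter G := fun χ l =>
    ⟨fun g => ((l.comp (QuotientGroup.mk' N)) g : ℂ) * (χ : G → ℂ) g,
      Char.isIrrCharacter_linear_mul χ.2 _⟩
  have htwN : ∀ χ l (n : N), (tw χ l : G → ℂ) n = (χ : G → ℂ) n := fun χ l n => by
    show ((l (QuotientGroup.mk' N (n : G))) : ℂ) * (χ : G → ℂ) n = (χ : G → ℂ) n
    rw [QuotientGroup.mk'_apply, (QuotientGroup.eq_one_iff (n : G)).2 n.2, map_one, Units.val_one,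
      one_mul]
  have hinj : ∀ χ ∈ B, Function.Injective (tw χ) := by
    intro χ hχ l l' he
    refine MonoidHom.ext fun q => ?_
    obtain ⟨g, rfl⟩ := QuotientGroup.mk_surjective q
    obtain ⟨n, hn, u, hu, rfl⟩ := hNPmem g
    rw [QuotientGroup.mk_mul, (QuotientGroup.eq_one_iff n).2 hn, one_mul]
    obtain ⟨s, -, hsp, hne⟩ := exists_regular_apply_ne_zero hM hB hPD hPab hu hχ
    have h1 := congrFun (congrArg Subtype.val he) (u * s)
    simp only [tw, MonoidHom.coe_comp, Function.comp_apply, QuotientGroup.mk'_apply,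
      QuotientGroup.mk_mul, (QuotientGroup.eq_one_iff s).2 (hreg s hsp), mul_one] at h1
    exact Units.ext (mul_right_cancel₀ hne h1)
  -- restriction to `N`
  have hbij : ∀ χ ∈ B, ∃ θ ∈ b, (∀ n : N, (χ : G → ℂ) n = (θ : N → ℂ) n) := by
    intro χ hχ
    obtain ⟨θ, hθ⟩ := exists_constituent_restrict N χ
    have hθb : θ ∈ b := by
      by_contra hn
      refine bar_mul_ne_zero_of_cover N hM hB (isPBlock_blockOf (M := M) θ)
        ⟨χ, hχ, θ, mem_blockOf_self θ, hθ⟩ ?_
      rw [hbarB₀, ← map_mul, bar_mul_bar_of_ne hb (isPBlock_blockOf θ)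
        (fun h => hn (h.symm ▸ mem_blockOf_self θ)), map_zero]
    refine ⟨θ, hθb, ?_⟩
    have hindc := Char.isCharacter_indFun N (Char.isCharacter_of_isIrr θ.2)
    obtain ⟨a, ha⟩ := Char.isCharacter_eq_sum hindc
    have ha' : ∀ ψ : IrrCharacter G, classInner (Cfsg.indFun N (θ : N → ℂ)) ψ = (a ψ : ℂ) := by
      intro ψ
      rw [ha, Char.classInner_sum_left, Finset.sum_eq_single ψ]
      · rw [Char.classInner_smul_left, Char.classInner_irr_self ψ.2, mul_one]
      · intro γ _ hγ
        rw [Char.classInner_smul_left, Char.classInner_irrCharacter, if_neg hγ, mul_zero]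
      · intro h; exact absurd (Finset.mem_univ ψ) h
    obtain ⟨e, he⟩ := Char.classInner_natCast
      (Char.isCharacter_restrict (Char.isCharacter_of_isIrr χ.2) N) (Char.isCharacter_of_isIrr θ.2)
    have hfrob : ∀ ψ : IrrCharacter G, (a ψ : ℂ) =
        conj (classInner (fun n : N => (ψ : G → ℂ) n) (θ : N → ℂ)) := fun ψ => by
      rw [← ha' ψ, Char.classInner_indFun N _ (Char.isClassFunction_of_isIrr ψ.2),
        Char.classInner_conj_symm]
    have hal : ∀ l, a (tw χ l) = e := fun l => by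
      have h := hfrob (tw χ l)
      rw [show (fun n : N => (tw χ l : G → ℂ) n) = fun n : N => (χ : G → ℂ) n from
        funext (htwN χ l), he, Complex.conj_natCast] at h
      exact_mod_cast h
    have hdeg : ∑ ψ : IrrCharacter G, a ψ * charDegree (ψ : G → ℂ) =
        N.index * charDegree (θ : N → ℂ) := by
      have h := congrFun ha 1
      rw [Char.indFun_one, irr_one_eq_natCast, Finset.sum_apply] at h
      simp only [Pi.smul_apply, smul_eq_mul, irr_one_eq_natCast] at h
      exact_mod_cast h.symm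
    have hle : N.index * (e * charDegree (χ : G → ℂ)) ≤ N.index * charDegree (θ : N → ℂ) := by
      rw [← hdeg]
      refine le_trans (le_of_eq ?_) (Finset.sum_le_sum_of_subset
        (Finset.subset_univ ((Finset.univ : Finset (G ⧸ N →* ℂˣ)).image (tw χ))))
      rw [Finset.sum_image fun l _ l' _ h => hinj χ hχ h]
      have hd : ∀ l, charDegree (tw χ l : G → ℂ) = charDegree (χ : G → ℂ) := fun l => by
        have h := htwN χ l 1
        rw [Subgroup.coe_one, irr_one_eq_natCast, irr_one_eq_natCast] at h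
        exact_mod_cast h
      simp only [hal, hd, Finset.sum_const, Finset.card_univ, smul_eq_mul]
      rw [← Nat.card_eq_fintype_card, card_linear_trivial N hcomm]
    have hle' := Nat.le_of_mul_le_mul_left hle (Nat.pos_of_ne_zero Subgroup.index_ne_zero_of_finite)
    obtain ⟨c, hc⟩ := Char.isCharacter_eq_sum
      (Char.isCharacter_restrict (Char.isCharacter_of_isIrr χ.2) N)
    have hcθ : c θ = e := by
      have : (c θ : ℂ) = e := by
        rw [← he, hc, Char.classInner_sum_left, Finset.sum_eq_single θ]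
        · rw [Char.classInner_smul_left, Char.classInner_irr_self θ.2, mul_one]
        · intro γ _ hγ
          rw [Char.classInner_smul_left, Char.classInner_irrCharacter, if_neg hγ, mul_zero]
        · intro h; exact absurd (Finset.mem_univ θ) h
      exact_mod_cast this
    have hsum : ∑ ψ : IrrCharacter N, c ψ * charDegree (ψ : N → ℂ) = charDegree (χ : G → ℂ) := by
      have h := congrFun hc 1
      rw [Finset.sum_apply] at h
      simp only [Pi.smul_apply, smul_eq_mul, irr_one_eq_natCast, Subgroup.coe_one] at h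
      exact_mod_cast h.symm
    have he0 : 1 ≤ e := by
      rcases Nat.eq_zero_or_pos e with h | h
      · exact absurd (by rw [he, h, Nat.cast_zero]) hθ
      · exact h
    rw [← Finset.add_sum_erase _ _ (Finset.mem_univ θ), hcθ] at hsum
    have hpos := charDegree_pos θ
    have hq1 := Nat.le_mul_of_pos_left (charDegree (χ : G → ℂ)) he0
    have hq2 := Nat.le_mul_of_pos_left (charDegree (θ : N → ℂ)) he0
    have hz : ∑ ψ ∈ Finset.univ.erase θ, c ψ * charDegree (ψ : N → ℂ) = 0 := by omega
    rw [hz, add_zero] at hsum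
    have he1 : e = 1 := by
      have h1 : e * charDegree (θ : N → ℂ) ≤ 1 * charDegree (θ : N → ℂ) := by
        have := Nat.le_mul_of_pos_left (charDegree (χ : G → ℂ)) he0
        omega
      exact le_antisymm (Nat.le_of_mul_le_mul_right h1 hpos) he0
    intro n
    have h := congrFun hc n
    rw [Finset.sum_apply, Finset.sum_eq_single θ] at h
    · rw [h, hcθ, he1, Nat.cast_one, one_smul]
    · intro ψ _ hψ
      have h0 := Finset.sum_eq_zero_iff.1 hz ψ (Finset.mem_erase.2 ⟨hψ, Finset.mem_univ _⟩)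
      rw [(mul_eq_zero.1 h0).resolve_right (charDegree_pos ψ).ne', Nat.cast_zero, zero_smul]
      rfl
    · intro hh; exact absurd (Finset.mem_univ θ) hh
  choose res hres hresn using hbij
  have hmemB : ∀ ψ : IrrCharacter G, ∀ θ ∈ b,
      classInner (fun n : N => (ψ : G → ℂ) n) (θ : N → ℂ) ≠ 0 → ψ ∈ B := by
    intro ψ θ hθ h
    rw [← hcover _ (isPBlock_blockOf (M := M) ψ) ⟨ψ, mem_blockOf_self ψ, θ, hθ, h⟩]
    exact mem_blockOf_self ψ
  have hext : ∀ θ ∈ b, ∃ χ ∈ B, ∀ n : N, (χ : G → ℂ) n = (θ : N → ℂ) n := by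
    intro θ hθ
    obtain ⟨χ, hχ⟩ := Char.exists_constituent
      (Char.isCharacter_indFun N (Char.isCharacter_of_isIrr θ.2)) (fun h => by
        have h1 := congrFun h 1
        rw [Char.indFun_one, Pi.zero_apply] at h1
        exact mul_ne_zero (Nat.cast_ne_zero.2 Subgroup.index_ne_zero_of_finite)
          (Char.irr_degree_ne_zero θ.2) h1)
    rw [Char.classInner_indFun N _ (Char.isClassFunction_of_isIrr χ.2)] at hχ
    have hχ' : classInner (fun n : N => (χ : G → ℂ) n) (θ : N → ℂ) ≠ 0 := fun h0 => hχ (by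
      rw [Char.classInner_conj_symm, h0, map_zero])
    have hχB := hmemB χ θ hθ hχ'
    refine ⟨χ, hχB, fun n => ?_⟩
    rw [show (fun n : N => (χ : G → ℂ) n) = (res χ hχB : N → ℂ) from funext (hresn χ hχB)] at hχ'
    by_cases he : res χ hχB = θ
    · rw [hresn χ hχB n, he]
    · rw [Char.classInner_irrCharacter, if_neg he] at hχ'
      exact absurd rfl hχ'
  have hfib : ∀ θ ∈ b, Nat.card {χ : IrrCharacter G // χ ∈ B ∧
      ∀ n : N, (χ : G → ℂ) n = (θ : N → ℂ) n} = N.index := by
    intro θ hθ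
    obtain ⟨χ, hχB, hχn⟩ := hext θ hθ
    have htwB : ∀ l, tw χ l ∈ B := fun l => hmemB _ θ hθ (by
      rw [show (fun n : N => (tw χ l : G → ℂ) n) = (θ : N → ℂ) from
        funext fun n => (htwN χ l n).trans (hχn n), Char.classInner_irr_self θ.2]
      exact one_ne_zero)
    rw [← card_linear_trivial N hcomm]
    refine (Nat.card_eq_of_bijective (fun l : G ⧸ N →* ℂˣ =>
      (⟨tw χ l, htwB l, fun n => (htwN χ l n).trans (hχn n)⟩ :
        {χ : IrrCharacter G // χ ∈ B ∧ ∀ n : N, (χ : G → ℂ) n = (θ : N → ℂ) n})) ⟨?_, ?_⟩).symm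
    · exact fun l l' h => hinj χ hχB (congrArg Subtype.val h)
    · rintro ⟨ψ, hψB, hψn⟩
      obtain ⟨l, hlN, hl⟩ := CharClifford.extension_unique_mul_linear N θ.2 χ.2 hχn ψ.2 hψn
      refine ⟨QuotientGroup.lift N l fun n hn => hlN ⟨n, hn⟩, Subtype.ext (Subtype.ext ?_)⟩
      exact hl.symm
  refine ⟨hNP, hbdef, fun χ hχ => ⟨res χ hχ, hres χ hχ, hresn χ hχ⟩, hfib, ?_, ?_⟩
  · haveI := Fintype.ofFinite b
    let e : B ≃ Σ θ : b, {χ : IrrCharacter G // χ ∈ B ∧
        ∀ n : N, (χ : G → ℂ) n = ((θ : IrrCharacter N) : N → ℂ) n} :=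
      { toFun := fun χ => ⟨⟨res χ.1 χ.2, hres χ.1 χ.2⟩, χ.1, χ.2, hresn χ.1 χ.2⟩
        invFun := fun x => ⟨x.2.1, x.2.2.1⟩
        left_inv := fun χ => rfl
        right_inv := by
          rintro ⟨⟨θ, hθ⟩, χ, hχ, hn⟩
          have h : res χ hχ = θ :=
            Subtype.ext (funext fun n => (hresn χ hχ n).symm.trans (hn n))
          subst h
          rfl }
    rw [Nat.card_congr e, Nat.card_sigma, Finset.sum_congr rfl fun θ _ => hfib θ.1 θ.2,
      Finset.sum_const, Finset.card_univ, smul_eq_mul, ← Nat.card_eq_fintype_card, mul_comm]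
  · let E : (N → ℂ) →ₗ[ℂ] (G → ℂ) :=
      { toFun := fun f g => if h : g ∈ N then f ⟨g, h⟩ else 0
        map_add' := fun f f' => funext fun g => by by_cases h : g ∈ N <;> simp [h]
        map_smul' := fun c f => funext fun g => by by_cases h : g ∈ N <;> simp [h] }
    have hE : Function.Injective E := fun f f' h => funext fun n => by
      have := congrFun h (n : G)
      simpa [E, n.2] using this
    have hEval : ∀ (χ : IrrCharacter G) (θ : IrrCharacter N),
        (∀ n : N, (χ : G → ℂ) n = (θ : N → ℂ) n) →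
        E (pRegularPart p (θ : N → ℂ)) = pRegularPart p (χ : G → ℂ) := by
      intro χ θ h
      funext g
      simp only [E, LinearMap.coe_mk, AddHom.coe_mk, pRegularPart]
      by_cases hg : g ∈ N
      · rw [dif_pos hg]
        refine if_congr ?_ (h ⟨g, hg⟩).symm rfl
        rw [IsPRegular, IsPRegular, Subgroup.orderOf_mk g hg]
      · rw [dif_neg hg, if_neg fun h => hg (hreg g h)]
    have himg : ((fun χ : IrrCharacter G => pRegularPart p (χ : G → ℂ)) '' B) =
        E '' ((fun θ : IrrCharacter N => pRegularPart p (θ : N → ℂ)) '' b) := by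
      ext φ
      constructor
      · rintro ⟨χ, hχ, rfl⟩
        exact ⟨_, ⟨res χ hχ, hres χ hχ, rfl⟩, hEval χ _ (hresn χ hχ)⟩
      · rintro ⟨_, ⟨θ, hθ, rfl⟩, rfl⟩
        obtain ⟨χ, hχ, hn⟩ := hext θ hθ
        exact ⟨χ, hχ, (hEval χ θ hn).symm⟩
    rw [blockRank, blockRank, himg, ← Submodule.map_span]
    exact (Submodule.equivMapOfInjective E hE _).finrank_eq.symm

end Cfsg.Agent.S4640
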