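import Cfsg.Statements.S4645
import Cfsg.Agent.Lib.BrauerPairs.AbelianInertial

set_option autoImplicit false
set_option linter.style.haveILetI false
open Cfsg Cfsg.Agent.Lib.Block Cfsg.Agent.Lib.BrauerPairs

namespace Cfsg.Agent.S4645

/-- Let B be a block of the finite group G relative to a maximal ideal M of the algebraic integers containing the prime p, with a nontrivial cyclic defect group P; let c be a block of C_G(P) inducing B and T the stabilizer of c in N_G(P). Let Q be a nontrivial subgroup of P (so C_G(P) ≤ C_G(Q)), f the block of C_G(Q) induced by c inside C_G(Q), and T' the stabilizer of f in N_G(Q). Then T' = T·C_G(Q), the index of C_G(Q) in T' equals the index of C_G(P) in T, f has p-regular rank 1, and f is a nilpotent block of C_G(Q). -/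
theorem result {G : Type*} [Group G] [Finite G] (p : ℕ) [Fact p.Prime] (M : Ideal Cfsg.AlgInt) (hM : Cfsg.IsPModular p M) (B : Set (Cfsg.IrrCharacter G)) (hB : Cfsg.IsPBlock M B) (P : Subgroup G) (hPD : Cfsg.IsDefectGroup p M B P) (hP1 : P ≠ ⊥) (hcyc : IsCyclic P) (c : Set (Cfsg.IrrCharacter (Subgroup.centralizer (P : Set G)))) (hc : Cfsg.IsInducedBlock M (Subgroup.centralizer (P : Set G)) c B) (T : Subgroup G) (hT : ∀ g : G, g ∈ T ↔ (g ∈ Subgroup.normalizer (P : Set G) ∧ Cfsg.StabilizesBlock (Subgroup.centralizer (P : Set G)) c g)) (Q : Subgroup G) (hQP : Q ≤ P) (hQ1 : Q ≠ ⊥) (f : Set (Cfsg.IrrCharacter (Subgroup.centralizer (Q : Set G)))) (hf : Cfsg.IsInducedBlockIn M (Subgroup.centralizer (Q : Set G)) (Subgroup.centralizer (P : Set G)) c f) (T' : Subgroup G) (hT' : ∀ g : G, g ∈ T' ↔ (g ∈ Subgroup.normalizer (Q : Set G) ∧ Cfsg.StabilizesBlock (Subgroup.centralizer (Q : Set G)) f g)) : T' = T ⊔ Subgroup.centralizer (Q : Set G) ∧ (Subgroup.centralizer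 (Q : Set G)).relIndex T' = (Subgroup.centralizer (P : Set G)).relIndex T ∧ Cfsg.blockRank p f = 1 ∧ Cfsg.IsNilpotentBlock p M f := by
  classical
  haveI : M.IsPrime := hM.2.1.isPrime
  obtain ⟨hcb, -, -⟩ := id hc
  have hP : IsPGroup p P := (IsDefectGroup.props hM hB hPD).1
  have hmax := isMaximal_of_inducedBlock hM hB hPD hc
  obtain rfl : T = stab M P c := eq_stab hcb hT
  obtain rfl : T' = stab M Q f := eq_stab hf.2.1 hT'
  obtain ⟨u, hu⟩ := hcyc.exists_generator
  have hgen : ∀ x ∈ P, ∃ k : ℤ, x = (u : G) ^ k := fun x hx => by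
    obtain ⟨k, hk⟩ := Subgroup.mem_zpowers_iff.1 (hu ⟨x, hx⟩)
    exact ⟨k, (congrArg Subtype.val hk).symm⟩
  have hab : ∀ x ∈ P, ∀ y ∈ P, x * y = y * x := by
    intro x hx y hy
    obtain ⟨k, rfl⟩ := hgen x hx
    obtain ⟨l, rfl⟩ := hgen y hy
    exact zpow_mul_comm _ _ _
  have hle := subpairLE_of_inducedIn hM hP hab hQP hf
  have hF := isBlockFusionSystemOn_pairSystem hM hmax
  have ho := stab_over hM hP hcb
  have hpow : ∀ t ∈ stab M P c, ∃ r : ℤ, ∀ k : ℤ, t * (u : G) ^ k * t⁻¹ = (u : G) ^ (r * k) := by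
    intro t ht
    obtain ⟨r, hr⟩ := hgen _ ((Subgroup.mem_normalizer_iff.1 (ho.norm ht) _).1 u.2)
    exact ⟨r, fun k => by rw [zpow_mul, ← hr, conj_zpow]⟩
  have hTN : stab M P c ≤ Subgroup.normalizer (Q : Set G) := fun t ht => by
    obtain ⟨r, hr⟩ := hpow t ht
    refine Subgroup.mem_normalizer_iff_map_conj_eq.2
      (Subgroup.eq_of_le_of_card_ge ?_ (card_map_conj Q t).ge)
    rintro _ ⟨x, hx, rfl⟩
    obtain ⟨k, rfl⟩ := hgen x (hQP hx)
    show t * (u : G) ^ k * t⁻¹ ∈ Q
    rw [hr, mul_comm, zpow_mul]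
    exact Q.zpow_mem hx r
  have hTC : stab M P c ⊓ Subgroup.centralizer (Q : Set G) =
      Subgroup.centralizer (P : Set G) := by
    refine le_antisymm ?_ (le_inf ho.cent_le
      (Subgroup.centralizer_le (SetLike.coe_subset_coe.2 hQP)))
    rintro t ⟨ht, htQ⟩
    haveI : ((Subgroup.centralizer (P : Set G)).subgroupOf (stab M P c)).Normal := Subgroup.normal_subgroupOf_of_le_normalizer
      fun s hs => mem_normalizer_centralizer (ho.norm hs)
    set m := (Subgroup.centralizer (P : Set G)).relIndex (stab M P c) with hm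
    have htm : t ^ m ∈ Subgroup.centralizer (P : Set G) := by
      have h := Subgroup.pow_index_mem ((Subgroup.centralizer (P : Set G)).subgroupOf (stab M P c)) (⟨t, ht⟩ : stab M P c)
      exact Subgroup.mem_subgroupOf.1 h
    obtain ⟨r, hr⟩ := hpow t ht
    obtain ⟨x, hx, hx1⟩ := Q.ne_bot_iff_exists_ne_one.1 hQ1 |>.elim
      fun x hx => (⟨x.1, x.2, fun h => hx (Subtype.ext h)⟩ : ∃ x ∈ Q, x ≠ 1)
    obtain ⟨k, rfl⟩ := hgen x (hQP hx)
    obtain ⟨n, hn⟩ := IsPGroup.iff_orderOf.1 hP u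
    rw [← Subgroup.orderOf_coe] at hn
    have hpr : (p : ℤ) ∣ r - 1 := by
      by_contra hndvd
      have hfix : (u : G) ^ (r * k) = (u : G) ^ k := by
        rw [← hr, ← Subgroup.mem_centralizer_iff.1 htQ _ hx, mul_inv_cancel_right]
      have h1 : (orderOf (u : G) : ℤ) ∣ (r - 1) * k := by
        rw [orderOf_dvd_iff_zpow_eq_one, sub_one_mul, zpow_sub, hfix, mul_inv_cancel]
      rw [hn, Nat.cast_pow] at h1
      have h2 : (p : ℤ) ^ n ∣ k :=
        (((Nat.prime_iff_prime_int.1 hM.1).coprime_iff_not_dvd.2 hndvd).pow_left).dvd_of_dvd_mul_left h1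
      refine hx1 (orderOf_dvd_iff_zpow_eq_one.1 ?_)
      rw [hn, Nat.cast_pow]
      exact h2
    have hiter : ∀ j : ℕ, t ^ j * (u : G) * (t ^ j)⁻¹ = (u : G) ^ (r ^ j) := by
      intro j
      induction j with
      | zero => simp
      | succ j ih =>
        rw [pow_succ' r, ← hr, ← ih, pow_succ']
        group
    have htp : t ^ p ^ n ∈ Subgroup.centralizer (P : Set G) := by
      have h1 : (orderOf (u : G) : ℤ) ∣ r ^ p ^ n - 1 := by
        rw [hn, Nat.cast_pow, ← one_pow (M := ℤ) (p ^ n)]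
        exact (pow_dvd_pow _ n.le_succ).trans (dvd_sub_pow_of_dvd_sub hpr n)
      rw [orderOf_dvd_iff_zpow_eq_one, zpow_sub, zpow_one, mul_inv_eq_one] at h1
      refine Subgroup.mem_centralizer_iff.2 fun y hy => ?_
      obtain ⟨l, rfl⟩ := hgen y hy
      have h2 : Commute (t ^ p ^ n) (u : G) := mul_inv_eq_iff_eq_mul.1 ((hiter _).trans h1)
      exact ((h2.zpow_right l).eq).symm
    obtain ⟨a, b, hab1⟩ : IsCoprime ((p ^ n : ℕ) : ℤ) (m : ℤ) :=
      Nat.isCoprime_iff_coprime.2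
        ((hM.1.coprime_iff_not_dvd.2 (not_dvd_inertial hM hmax hab)).pow_left n)
    have h3 := mul_mem (Subgroup.zpow_mem _ htp a) (Subgroup.zpow_mem _ htm b)
    rw [← zpow_natCast t (p ^ n), ← zpow_natCast t m, ← zpow_mul, ← zpow_mul, ← zpow_add,
      mul_comm _ a, mul_comm _ b, hab1, zpow_one] at h3
    exact h3
  have hQG : IsPGroup p Q := hP.to_le hQP
  refine ⟨le_antisymm (fun x hx => ?_) (sup_le ?_ (stab_over hM hQG hf.2.1).cent_le), ?_,
    below_nilpotent hM hmax hab hle hTC.le⟩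
  · obtain ⟨y, hy, d, hd, rfl⟩ := stab_le_of_abelian hM hF hab hle x hx
    exact mul_mem (Subgroup.mem_sup_left hy) (Subgroup.mem_sup_right hd)
  · exact (le_inf le_rfl hTN).trans (inf_normalizer_stab_le hM hP hcb hle)
  · rw [relIndex_stab_of_abelian hM hF hab hle, hTC, inf_of_le_left hTN]

end Cfsg.Agent.S4645
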