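import Cfsg.Statements.S4647
import Cfsg.Agent.Lib.LocalBlock.Dim
import Cfsg.Agent.Lib.Perm.Modules
import Cfsg.Agent.Lib.BrauerPairs.Nilpotent

/-!
# A block of least possible dimension is nilpotent

Over a Sylow subgroup `P` the block algebra is spanned freely by the translates `bar B * o`,
`o` running through one double coset `P o P`, so the fusion of the block is realised inside `P`.
-/

set_option autoImplicit false
set_option linter.style.haveILetI false
set_option linter.unusedSectionVars false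
open Cfsg Cfsg.Agent.Lib Cfsg.Agent.Lib.Block Cfsg.Agent.Lib.BrauerPairs Cfsg.Agent.Lib.CyclicDefect
  Cfsg.Agent.Lib.Star Cfsg.Agent.Lib.LocalBlock

namespace Cfsg.Agent.S4647

universe u

variable {p : ℕ} {M : Ideal AlgInt} [M.IsPrime] {G : Type u} [Group G] [Finite G]

/-- The action of `P × P` by multiplication on both sides. -/
@[reducible] def dsmul (P : Subgroup G) : MulAction (P × P) G where
  smul a g := (a.1 : G) * g * (a.2 : G)⁻¹
  one_smul g := show (1 : G) * g * (1 : G)⁻¹ = g by simp
  mul_smul a b g := show ((a.1 * b.1 : P) : G) * g * ((a.2 * b.2 : P) : G)⁻¹ =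
      (a.1 : G) * ((b.1 : G) * g * (b.2 : G)⁻¹) * (a.2 : G)⁻¹ by
    simp [mul_assoc]

/-- The double coset of `o`. -/
def dco (P : Subgroup G) (o : G) : Set G :=
  letI := dsmul P
  MulAction.orbit (P × P) o

theorem mem_dco {P : Subgroup G} {o g : G} :
    g ∈ dco P o ↔ ∃ a : P × P, (a.1 : G) * o * (a.2 : G)⁻¹ = g :=
  Iff.rfl

theorem self_mem_dco (P : Subgroup G) (o : G) : o ∈ dco P o :=
  mem_dco.2 ⟨1, by simp⟩

/-- The sum of a double coset. -/
noncomputable def dsum (M : Ideal AlgInt) [M.IsPrime] (P : Subgroup G) (o : G) : KG M G :=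
  open scoped Classical in ofFun fun g => if g ∈ dco P o then 1 else 0

/-- The block idempotent summed over right cosets. -/
noncomputable def cosetSum (M : Ideal AlgInt) [M.IsPrime] (P : Subgroup G)
    (B : Set (IrrCharacter G)) : KG M G :=
  bar M B * ofFun (Set.indicator (P : Set G) 1)

theorem coeff_cosetSum [Fintype G] (P : Subgroup G) (B : Set (IrrCharacter G)) (o : G) :
    (cosetSum M P B).coeff o =
      ∑ g, (bar M B).coeff g * (Set.indicator (P : Set G) (1 : G → ResField M)) (g⁻¹ * o) := by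
  rw [cosetSum, coeff_mul_eq_sum]
  simp only [coeff_ofFun]

theorem bar_cosetSum {B : Set (IrrCharacter G)} (hB : IsPBlock M B) (P : Subgroup G) :
    bar M B * cosetSum M P B = cosetSum M P B := by
  rw [cosetSum, ← mul_assoc, (isIdempotentElem_bar hB).eq]

theorem coeff_cosetSum_dco {P : Subgroup G} {B : Set (IrrCharacter G)} {o g : G}
    (h : g ∈ dco P o) : (cosetSum M P B).coeff g = (cosetSum M P B).coeff o := by
  classical
  haveI := Fintype.ofFinite G
  obtain ⟨⟨y, z⟩, rfl⟩ := mem_dco.1 h
  rw [coeff_cosetSum, coeff_cosetSum]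
  refine (Fintype.sum_equiv (MulAut.conj (y : G)).toEquiv _ _ fun k => ?_).symm
  have hb : (bar M B).coeff ((y : G) * k * (y : G)⁻¹) = (bar M B).coeff k :=
    isClassCoeff_bar B (y : G) k
  have hi : ((y : G) * k * (y : G)⁻¹)⁻¹ * ((y : G) * o * (z : G)⁻¹) =
      (y : G) * (k⁻¹ * o) * (z : G)⁻¹ := by group
  show _ = (bar M B).coeff ((y : G) * k * (y : G)⁻¹) *
    (Set.indicator (P : Set G) (1 : G → ResField M))
      (((y : G) * k * (y : G)⁻¹)⁻¹ * ((y : G) * o * (z : G)⁻¹))
  rw [hb, hi]
  congr 1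
  by_cases hk : k⁻¹ * o ∈ P
  · rw [Set.indicator_of_mem hk, Set.indicator_of_mem
      (P.mul_mem (P.mul_mem y.2 hk) (P.inv_mem z.2))]
    rfl
  · rw [Set.indicator_of_notMem hk, Set.indicator_of_notMem fun hc => hk (by
      simpa [mul_assoc] using P.mul_mem (P.mul_mem (P.inv_mem y.2) hc) z.2)]

/-- Left translations. -/
theorem single_mul_coeff (y : G) (v : KG M G) (g : G) :
    (MonoidAlgebra.single y (1 : ResField M) * v).coeff g = v.coeff (y⁻¹ * g) := by
  rw [MonoidAlgebra.coeff_single_mul_apply, one_mul]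

theorem mul_single_coeff (z : G) (v : KG M G) (g : G) :
    (v * MonoidAlgebra.single z (1 : ResField M)).coeff g = v.coeff (g * z⁻¹) := by
  rw [MonoidAlgebra.coeff_mul_single_apply, mul_one]

theorem cosetSum_ne_zero (hM : IsPModular p M) {P : Subgroup G} (hP : IsPGroup p P)
    {B : Set (IrrCharacter G)} (hB : IsPBlock M B) : cosetSum M P B ≠ 0 := by
  classical
  haveI : Fact p.Prime := ⟨hM.1⟩
  haveI := resField_charP (M := M) hM
  haveI := Fintype.ofFinite G
  let ρ : Representation (ResField M) P (KG M G) :=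
    { toFun := fun z => LinearMap.mulRight (ResField M)
        (MonoidAlgebra.single ((z : G)⁻¹) (1 : ResField M))
      map_one' := LinearMap.ext fun v => by simp [← MonoidAlgebra.one_def]
      map_mul' := fun a b => LinearMap.ext fun v => by simp [mul_assoc] }
  obtain ⟨v, hvW, hv0, hfix⟩ := Perm.exists_fixed_of_pGroup hP ρ (bar_ne_zero hB)
    (LinearMap.range (LinearMap.mulLeft (ResField M) (bar M B)))
    ⟨1, by simp⟩ fun z w hw => by
      obtain ⟨w, rfl⟩ := hw
      exact ⟨w * MonoidAlgebra.single ((z : G)⁻¹) 1, by simp [ρ, mul_assoc]⟩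
  intro h0
  have hvb : bar M B * v = v := by
    obtain ⟨w, rfl⟩ := hvW
    simp [← mul_assoc, (isIdempotentElem_bar hB).eq]
  have hinv : ∀ (g : G) (z : P), v.coeff (g * z) = v.coeff g := fun g z => by
    have h := congrArg (fun t : KG M G => t.coeff (g * z)) (hfix z⁻¹)
    simp only [ρ, MonoidHom.coe_mk, OneHom.coe_mk, LinearMap.mulRight_apply, mul_single_coeff] at h
    rw [← h]
    simp
  set w : KG M G := ofFun fun g => if (QuotientGroup.mk g : G ⧸ P).out = g then v.coeff g else 0
    with hw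
  have hvw : v = w * ofFun (Set.indicator (P : Set G) 1) := by
    refine alg_ext fun g => ?_
    rw [coeff_mul_eq_sum, Finset.sum_eq_single ((QuotientGroup.mk g : G ⧸ P).out)]
    · have hmem : ((QuotientGroup.mk g : G ⧸ P).out)⁻¹ * g ∈ P :=
        QuotientGroup.eq.1 (Quotient.out_eq _)
      rw [hw, coeff_ofFun, coeff_ofFun, if_pos (by rw [QuotientGroup.out_eq']),
        Set.indicator_of_mem hmem, Pi.one_apply, mul_one]
      exact (congrArg v.coeff (mul_inv_cancel_left _ g).symm).trans (hinv _ ⟨_, hmem⟩)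
    · intro y _ hy
      rw [hw, coeff_ofFun, coeff_ofFun]
      split_ifs with h
      · rw [Set.indicator_of_notMem fun hc => hy ?_, mul_zero]
        rw [← QuotientGroup.eq.2 hc, h]
      · rw [zero_mul]
    · intro h; exact absurd (Finset.mem_univ _) h
  refine hv0 ?_
  rw [← hvb, hvw, ← mul_assoc, ((isClassCoeff_bar B).commute w).eq, mul_assoc,
    show bar M B * ofFun (Set.indicator (P : Set G) 1) = cosetSum M P B from rfl, h0, mul_zero]

/-- Some double coset survives in the block and meets the support of the idempotent. -/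
theorem exists_good (hM : IsPModular p M) {P : Subgroup G} (hP : IsPGroup p P)
    {B : Set (IrrCharacter G)} (hB : IsPBlock M B) :
    ∃ o, (cosetSum M P B).coeff o ≠ 0 ∧ bar M B * dsum M P o ≠ 0 := by
  classical
  haveI := Fintype.ofFinite G
  letI := dsmul P
  by_contra hno
  push Not at hno
  refine cosetSum_ne_zero hM hP hB ?_
  rw [← bar_cosetSum hB P]
  have hdec : cosetSum M P B = ∑ q : Quotient (MulAction.orbitRel (P × P) G),
      (cosetSum M P B).coeff q.out • dsum M P q.out := by
    refine alg_ext fun g => ?_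
    rw [coeff_sum_apply, Finset.sum_eq_single (Quotient.mk'' g)]
    · have hmem : g ∈ dco P (Quotient.mk'' g : Quotient (MulAction.orbitRel (P × P) G)).out :=
        MulAction.orbitRel_apply.1 (Quotient.exact (Quotient.out_eq
          (Quotient.mk'' g : Quotient (MulAction.orbitRel (P × P) G))).symm)
      rw [MonoidAlgebra.coeff_smul_apply, dsum, coeff_ofFun, if_pos hmem, smul_eq_mul, mul_one,
        coeff_cosetSum_dco hmem]
    · intro q _ hq
      rw [MonoidAlgebra.coeff_smul_apply, dsum, coeff_ofFun, if_neg, smul_zero]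
      intro hmem
      refine hq ?_
      rw [← Quotient.out_eq q]
      exact (Quotient.sound (MulAction.orbitRel_apply.2 hmem)).symm
    · intro h; exact absurd (Finset.mem_univ _) h
  rw [hdec, Finset.mul_sum]
  refine Finset.sum_eq_zero fun q _ => ?_
  rw [mul_smul_comm]
  by_cases hq : (cosetSum M P B).coeff q.out = 0
  · rw [hq, zero_smul]
  · rw [hno _ hq, smul_zero]

/-- A coset with nonzero sum contains an element of the support centralising the intersection. -/
theorem exists_support (hM : IsPModular p M) {P : Subgroup G} (hP : IsPGroup p P)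
    {B : Set (IrrCharacter G)} {o : G} (ho : (cosetSum M P B).coeff o ≠ 0)
    {S : Subgroup G} (hSP : S ≤ P) (hS : ∀ s ∈ S, o⁻¹ * s * o ∈ P) :
    ∃ x, (bar M B).coeff x ≠ 0 ∧ x⁻¹ * o ∈ P ∧ x ∈ Subgroup.centralizer (S : Set G) := by
  classical
  haveI : Fact p.Prime := ⟨hM.1⟩
  haveI := resField_charP (M := M) hM
  haveI := Fintype.ofFinite G
  by_contra hno
  push Not at hno
  refine ho ?_
  rw [coeff_cosetSum, sum_conj_eq_sum_centralizer (p := p) (hP.to_le hSP)]
  · refine Finset.sum_eq_zero fun x hx => ?_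
    by_cases hb : (bar M B).coeff x = 0
    · rw [hb, zero_mul]
    · rw [Set.indicator_of_notMem (fun hc => hno x hb hc (Finset.mem_filter.1 hx).2), mul_zero]
  · intro s hs g
    rw [isClassCoeff_bar B s g]
    congr 1
    have hi : (s * g * s⁻¹)⁻¹ * o = s * (g⁻¹ * o) * (o⁻¹ * s * o)⁻¹ := by group
    by_cases hg : g⁻¹ * o ∈ P
    · rw [Set.indicator_of_mem hg, Set.indicator_of_mem (show (s * g * s⁻¹)⁻¹ * o ∈ P from hi ▸
        P.mul_mem (P.mul_mem (hSP hs) hg) (P.inv_mem (hS s hs)))]
      rfl
    · rw [Set.indicator_of_notMem hg, Set.indicator_of_notMem fun hc => hg ?_]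
      have hc' : (s * g * s⁻¹)⁻¹ * o ∈ P := hc
      have h2 := P.mul_mem (P.mul_mem (P.inv_mem (hSP hs)) hc') (hS s hs)
      rwa [show s⁻¹ * ((s * g * s⁻¹)⁻¹ * o) * (o⁻¹ * s * o) = g⁻¹ * o by group] at h2

/-- The intersection of `P` with a conjugate of itself. -/
noncomputable def inter (P : Subgroup G) (o : G) : Subgroup G :=
  P ⊓ P.comap (MulAut.conj o⁻¹).toMonoidHom

theorem mem_inter {P : Subgroup G} {o s : G} : s ∈ inter P o ↔ s ∈ P ∧ o⁻¹ * s * o ∈ P := by
  simp [inter]

/-- A good double coset is large. -/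
theorem card_dco (hM : IsPModular p M) {P : Subgroup G} (hP : IsPGroup p P)
    {B : Set (IrrCharacter G)} (hB : IsPBlock M B) {o : G}
    (ho : (cosetSum M P B).coeff o ≠ 0) :
    Nat.card P ^ 2 ≤ Nat.card (dco P o) * p ^ blockDefect p B := by
  classical
  letI := dsmul P
  have hmul : Nat.card (dco P o) * Nat.card (MulAction.stabilizer (P × P) o) = Nat.card P ^ 2 := by
    rw [dco, Nat.card_congr (MulAction.orbitEquivQuotientStabilizer (P × P) o),
      ← Subgroup.card_eq_card_quotient_mul_card_subgroup, Nat.card_prod, sq]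
  rw [← hmul]
  refine Nat.mul_le_mul_left _ ?_
  let f : MulAction.stabilizer (P × P) o → inter P o := fun a => ⟨(a.1.1 : G), mem_inter.2
    ⟨a.1.1.2, by
      have h : (a.1.1 : G) * o * (a.1.2 : G)⁻¹ = o := a.2
      rw [show o⁻¹ * (a.1.1 : G) * o = o⁻¹ * ((a.1.1 : G) * o * (a.1.2 : G)⁻¹) * (a.1.2 : G) by
        group, h, inv_mul_cancel, one_mul]
      exact a.1.2.2⟩⟩
  have hf : Function.Injective f := fun a b h => by
    have h1 : (a.1.1 : G) = (b.1.1 : G) := congrArg (fun t : inter P o => (t : G)) h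
    have ha : (a.1.1 : G) * o * (a.1.2 : G)⁻¹ = o := a.2
    have hb : (b.1.1 : G) * o * (b.1.2 : G)⁻¹ = o := b.2
    rw [h1] at ha
    have h2 := inv_injective (mul_left_cancel (ha.trans hb.symm))
    exact Subtype.ext (Prod.ext (Subtype.ext h1) (Subtype.ext h2))
  refine (Nat.card_le_card_of_injective f hf).trans ?_
  obtain ⟨x, hx, -, hxS⟩ := exists_support hM hP ho (S := inter P o) inf_le_left
    fun s hs => (mem_inter.1 hs).2
  obtain ⟨D, hD⟩ := exists_isDefectGroup hM hB
  rw [coeff_bar] at hx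
  exact (conjLE_defect_of_support hM hB hD hx (hP.to_le inf_le_left) hxS).card_le.trans
    (IsDefectGroup.props hM hB hD).2.1.le

/-- The translates of the block idempotent along a surviving double coset are independent. -/
theorem dco_independent (hM : IsPModular p M) {P : Subgroup G} (hP : IsPGroup p P)
    {B : Set (IrrCharacter G)} {o : G} (ho : bar M B * dsum M P o ≠ 0) :
    LinearIndependent (ResField M) fun g : dco P o =>
      bar M B * MonoidAlgebra.single (g : G) (1 : ResField M) := by
  classical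
  haveI : Fact p.Prime := ⟨hM.1⟩
  haveI := resField_charP (M := M) hM
  haveI := Fintype.ofFinite G
  rw [Fintype.linearIndependent_iff]
  intro lam hlam
  by_contra hne
  push Not at hne
  obtain ⟨g₀, hg₀⟩ := hne
  set v₀ : KG M G := ∑ g : dco P o, lam g • MonoidAlgebra.single (g : G) (1 : ResField M) with hv₀
  have hc : ∀ g : dco P o, v₀.coeff (g : G) = lam g := fun g => by
    rw [hv₀, coeff_sum_apply, Finset.sum_eq_single g]
    · rw [MonoidAlgebra.coeff_smul_apply, coeff_single_if, if_pos rfl, smul_eq_mul, mul_one]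
    · intro h _ hh
      rw [MonoidAlgebra.coeff_smul_apply, coeff_single_if, if_neg, smul_zero]
      intro e
      first | exact hh (Subtype.ext e) | exact hh (Subtype.ext e.symm)
    · intro h; exact absurd (Finset.mem_univ _) h
  have hPP : IsPGroup p (P × P) := by
    obtain ⟨n, hn⟩ := IsPGroup.iff_card.1 hP
    exact IsPGroup.of_card (n := n + n) (by rw [Nat.card_prod, hn, pow_add])
  let ρ : Representation (ResField M) (P × P) (KG M G) :=
    { toFun := fun a => (LinearMap.mulLeft (ResField M)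
          (MonoidAlgebra.single (a.1 : G) (1 : ResField M))).comp
        (LinearMap.mulRight (ResField M) (MonoidAlgebra.single ((a.2 : G)⁻¹) (1 : ResField M)))
      map_one' := LinearMap.ext fun v => by simp [← MonoidAlgebra.one_def]
      map_mul' := fun a b => LinearMap.ext fun v => by
        simp [mul_assoc]
        rw [← mul_assoc (MonoidAlgebra.single (a.1 : G) (1 : ResField M)), MonoidAlgebra.single_mul_single, one_mul] }
  let W : Submodule (ResField M) (KG M G) :=
    { carrier := {v | (∀ g, g ∉ dco P o → v.coeff g = 0) ∧ bar M B * v = 0}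
      add_mem' := fun {a b} ha hb => ⟨fun g hg => by
        rw [MonoidAlgebra.coeff_add, Finsupp.add_apply, ha.1 g hg, hb.1 g hg, add_zero],
        by rw [mul_add, ha.2, hb.2, add_zero]⟩
      zero_mem' := ⟨fun g _ => by simp, mul_zero _⟩
      smul_mem' := fun c a ha => ⟨fun g hg => by
        rw [MonoidAlgebra.coeff_smul_apply, ha.1 g hg, smul_zero],
        by rw [mul_smul_comm, ha.2, smul_zero]⟩ }
  have hv₀W : v₀ ∈ W := by
    refine ⟨fun g hg => ?_, ?_⟩
    · rw [hv₀, coeff_sum_apply]
      refine Finset.sum_eq_zero fun h _ => ?_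
      rw [MonoidAlgebra.coeff_smul_apply, coeff_single_if, if_neg, smul_zero]
      intro e
      first | exact hg (e ▸ h.2) | exact hg (e.symm ▸ h.2)
    · rw [hv₀, Finset.mul_sum, ← hlam]
      exact Finset.sum_congr rfl fun g _ => mul_smul_comm _ _ _
  have hv₀0 : v₀ ≠ 0 := fun h => hg₀ (by rw [← hc g₀, h]; simp)
  obtain ⟨w, hwW, hw0, hfix⟩ := Perm.exists_fixed_of_pGroup hPP ρ hv₀0 W hv₀W (by
    intro a w hw
    refine ⟨fun g hg => ?_, ?_⟩
    · show (MonoidAlgebra.single (a.1 : G) (1 : ResField M) *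
        (w * MonoidAlgebra.single ((a.2 : G)⁻¹) 1)).coeff g = 0
      rw [single_mul_coeff, mul_single_coeff, inv_inv]
      refine hw.1 _ fun hmem => hg ?_
      obtain ⟨b, hb⟩ := mem_dco.1 hmem
      refine mem_dco.2 ⟨a * b, ?_⟩
      simp only [Prod.fst_mul, Prod.snd_mul, Subgroup.coe_mul, mul_inv_rev]
      rw [show (a.1 : G) * (b.1 : G) * o * ((b.2 : G)⁻¹ * (a.2 : G)⁻¹) =
        (a.1 : G) * ((b.1 : G) * o * (b.2 : G)⁻¹) * (a.2 : G)⁻¹ by group, hb]
      group
    · show bar M B * (MonoidAlgebra.single (a.1 : G) (1 : ResField M) *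
        (w * MonoidAlgebra.single ((a.2 : G)⁻¹) 1)) = 0
      rw [← mul_assoc, ((isClassCoeff_bar B).commute _).eq, mul_assoc, ← mul_assoc (bar M B),
        hw.2, zero_mul, mul_zero])
  have hconst : w = w.coeff o • dsum M P o := by
    refine alg_ext fun g => ?_
    rw [MonoidAlgebra.coeff_smul_apply, dsum, coeff_ofFun]
    by_cases hg : g ∈ dco P o
    · obtain ⟨a, rfl⟩ := mem_dco.1 hg
      rw [if_pos hg, smul_eq_mul, mul_one]
      conv_lhs => rw [← hfix a]
      show (MonoidAlgebra.single (a.1 : G) (1 : ResField M) *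
        (w * MonoidAlgebra.single ((a.2 : G)⁻¹) 1)).coeff _ = _
      rw [single_mul_coeff, mul_single_coeff, inv_inv]
      congr 1
      group
    · rw [if_neg hg, smul_zero, hwW.1 g hg]
  have hwo : w.coeff o ≠ 0 := fun h => hw0 (by rw [hconst, h, zero_smul])
  refine ho ?_
  have h := hwW.2
  rw [hconst, mul_smul_comm, smul_eq_zero] at h
  exact h.resolve_left hwo

/-- With least dimension the fusion on a subgroup of `P` is induced by `P`. -/
theorem exists_conj_eq (hM : IsPModular p M) {B : Set (IrrCharacter G)} (hB : IsPBlock M B)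
    {P : Subgroup G} (hP : IsPGroup p P) {a d : ℕ} (hPa : Nat.card P = p ^ a)
    (hd : blockDefect p B = d) (hda : d ≤ a) (hmin : degSum B = p ^ (2 * a - d)) {Q : Subgroup G}
    {e : CBlock Q} (hQe : IsBrauerPairOf p M B Q e) (hQP : Q ≤ P) {x : G}
    (hx : x ∈ Subgroup.normalizer (Q : Set G)) :
    ∃ t ∈ P, x * t ∈ Subgroup.centralizer (Q : Set G) := by
  classical
  haveI : Fact p.Prime := ⟨hM.1⟩
  haveI := resField_charP (M := M) hM
  haveI := Fintype.ofFinite G
  obtain ⟨hQ, he, -, hocc⟩ := (isBrauerPairOf_iff hM).1 hQe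
  obtain ⟨o, ho, hbo⟩ := exists_good hM hP hB
  have hli := dco_independent hM hP hbo
  have hle : Submodule.span (ResField M) (Set.range fun g : dco P o =>
      bar M B * MonoidAlgebra.single (g : G) (1 : ResField M)) ≤ blockSpace M B :=
    Submodule.span_le.2 (by rintro _ ⟨g, rfl⟩; exact LinearMap.mem_range_self _ _)
  have hspan := Submodule.eq_of_le_of_finrank_le hle (by
    rw [finrank_span_eq_card hli, finrank_blockSpace hB, hmin]
    have h := card_dco hM hP hB ho
    rw [hPa, hd, ← pow_mul, show a * 2 = (2 * a - d) + d by omega, pow_add,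
      Nat.card_eq_fintype_card] at h
    exact Nat.le_of_mul_le_mul_right h (pow_pos hM.1.pos _))
  set w : KG M G := pbar M Q e * MonoidAlgebra.single x (1 : ResField M) with hw
  have hv : bar M B * w ∈ blockSpace M B := LinearMap.mem_range_self _ _
  rw [← hspan, Submodule.mem_span_range_iff_exists_fun] at hv
  obtain ⟨lam, hlam⟩ := hv
  have hxQ : ∀ u ∈ Q, x⁻¹ * u * x ∈ Q := fun u hu =>
    (Subgroup.mem_normalizer_iff''.1 hx u).1 hu
  have hpfix : ∀ u ∈ Q, cj u (pbar M Q e) = pbar M Q e := by
    intro u hu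
    refine alg_ext fun c => ?_
    rw [coeff_cj]
    have hn : u ∈ Subgroup.normalizer (Subgroup.centralizer (Q : Set G) : Set G) :=
      mem_normalizer_centralizer (Subgroup.le_normalizer hu)
    by_cases hc : c ∈ Subgroup.centralizer (Q : Set G)
    · rw [show u⁻¹ * c * u = c by
        rw [mul_assoc, ← Subgroup.mem_centralizer_iff.1 hc u hu, inv_mul_cancel_left]]
    · rw [← br_pbar, coeff_br_of_not_mem _ hc,
        coeff_br_of_not_mem _ fun h => hc ((Subgroup.mem_normalizer_iff''.1 hn c).2 h)]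
  have hwu : ∀ u ∈ Q, MonoidAlgebra.single u (1 : ResField M) * w *
      MonoidAlgebra.single (x⁻¹ * u * x)⁻¹ 1 = w := by
    intro u hu
    refine alg_ext fun g => ?_
    rw [hw, mul_single_coeff, single_mul_coeff, mul_single_coeff, mul_single_coeff]
    conv_rhs => rw [← hpfix u hu, coeff_cj]
    congr 1
    group
  -- an invariant coset element
  obtain ⟨g, hg⟩ : ∃ g : dco P o, ∀ u ∈ Q, (g : G)⁻¹ * u * (g : G) = x⁻¹ * u * x := by
    by_contra hno
    push Not at hno
    refine pbar_ne_zero he ?_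
    rw [← hocc]
    refine alg_ext fun c => ?_
    show _ = (0 : ResField M)
    have hbrQ : pbar M Q e * br Q (bar M B) = br Q (bar M B * pbar M Q e) := by
      rw [br_mul hM hQ (fun u _ => isClassCoeff_iff_cj.1 (isClassCoeff_bar B) u) hpfix, br_pbar]
      have hcl : ∀ u, u ∈ Subgroup.centralizer (Q : Set G) → cj u (br Q (bar M B)) =
          br Q (bar M B) := fun u hu => by
        rw [cj_br, isClassCoeff_iff_cj.1 (isClassCoeff_bar B) u,
          sj_eq_of_mem_normalizer (centralizer_le_normalizer_self Q hu)]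
      rw [br_eq_emb, pbar, ← map_mul, ← map_mul]
      congr 1
      exact (((isClassCoeff_bar e).commute _).eq)
    rw [hbrQ]
    by_cases hc : c ∈ Subgroup.centralizer (Q : Set G)
    swap
    · exact coeff_br_of_not_mem _ hc
    rw [coeff_br_of_mem _ hc]
    have hval : (bar M B * pbar M Q e).coeff c = (bar M B * w).coeff (c * x) := by
      rw [hw, ← mul_assoc, mul_single_coeff, mul_inv_cancel_right]
    rw [hval, ← hlam, coeff_sum_apply]
    simp only [MonoidAlgebra.coeff_smul_apply, mul_single_coeff, smul_eq_mul]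
    let act : MulAction Q (dco P o) :=
      { smul := fun u g => ⟨(u : G) * (g : G) * (x⁻¹ * (u : G) * x)⁻¹, by
          obtain ⟨b, hb⟩ := mem_dco.1 g.2
          refine mem_dco.2 ⟨(⟨u, hQP u.2⟩, ⟨_, hQP (hxQ u u.2)⟩) * b, ?_⟩
          rw [← hb]
          simp [mul_assoc]⟩
        one_smul := fun g => Subtype.ext (show (1 : G) * (g : G) * (x⁻¹ * 1 * x)⁻¹ = g by simp)
        mul_smul := fun u u' g => Subtype.ext (show
          ((u : G) * (u' : G)) * (g : G) * (x⁻¹ * ((u : G) * (u' : G)) * x)⁻¹ =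
          (u : G) * ((u' : G) * (g : G) * (x⁻¹ * (u' : G) * x)⁻¹) * (x⁻¹ * (u : G) * x)⁻¹ by
          group) }
    have hlaminv : ∀ (u : Q) (g : dco P o), lam (act.smul u g) = lam g := by
      intro u
      let σ : dco P o ≃ dco P o := @MulAction.toPerm _ _ _ act u
      have h1 : ∑ g, lam (σ.symm g) • (bar M B * MonoidAlgebra.single (g : G) (1 : ResField M)) =
          bar M B * w := by
        rw [← Equiv.sum_comp σ]
        simp only [Equiv.symm_apply_apply]
        have h2 := congrArg (fun t => MonoidAlgebra.single (u : G) (1 : ResField M) * t *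
          MonoidAlgebra.single (x⁻¹ * (u : G) * x)⁻¹ 1) hlam
        simp only [Finset.mul_sum, Finset.sum_mul, mul_smul_comm, smul_mul_assoc] at h2
        rw [← mul_assoc _ (bar M B) w, ← ((isClassCoeff_bar B).commute _).eq, mul_assoc (bar M B),
          mul_assoc (bar M B), hwu _ u.2] at h2
        rw [← h2]
        refine Finset.sum_congr rfl fun g _ => ?_
        congr 1
        rw [← mul_assoc _ (bar M B), ← ((isClassCoeff_bar B).commute _).eq, mul_assoc, mul_assoc,
          MonoidAlgebra.single_mul_single, MonoidAlgebra.single_mul_single, mul_one, mul_one]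
        congr 1
        refine congrArg (fun t => MonoidAlgebra.single t (1 : ResField M)) ?_
        show (u : G) * (g : G) * (x⁻¹ * (u : G) * x)⁻¹ = _
        simp [mul_assoc]
      have h3 := Fintype.linearIndependent_iffₛ.1 hli _ _ (h1.trans hlam.symm)
      intro g
      have := h3 (σ g)
      rw [Equiv.symm_apply_apply] at this
      exact this.symm
    letI := act
    rw [sum_eq_sum_fixed (p := p) hQ]
    · refine Finset.sum_eq_zero fun g hg => ?_
      obtain ⟨u, hu, hne⟩ := hno g
      refine absurd ?_ hne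
      have h : u * (g : G) * (x⁻¹ * u * x)⁻¹ = g :=
        congrArg Subtype.val ((Finset.mem_filter.1 hg).2 ⟨u, hu⟩)
      rw [mul_inv_eq_iff_eq_mul] at h
      rw [mul_assoc, h, inv_mul_cancel_left]
    · intro u g
      rw [show lam (u • g) = lam g from hlaminv u g]
      congr 1
      show (bar M B).coeff (c * x * ((u : G) * (g : G) * (x⁻¹ * (u : G) * x)⁻¹)⁻¹) = _
      have hcu : c * (u : G) = (u : G) * c := (Subgroup.mem_centralizer_iff.1 hc u u.2).symm
      rw [show c * x * ((u : G) * (g : G) * (x⁻¹ * (u : G) * x)⁻¹)⁻¹ =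
        (c * (u : G)) * (x * (g : G)⁻¹) * (u : G)⁻¹ by group, hcu,
        show (u : G) * c * (x * (g : G)⁻¹) * (u : G)⁻¹ =
          (u : G) * (c * x * (g : G)⁻¹) * (u : G)⁻¹ by group]
      exact isClassCoeff_bar B (u : G) _
  have hgo : (cosetSum M P B).coeff (g : G) ≠ 0 := by rwa [coeff_cosetSum_dco g.2]
  obtain ⟨y, -, hy, hyQ⟩ := exists_support hM hP hgo hQP fun u hu => by
    rw [hg u hu]
    exact hQP (hxQ u hu)
  refine ⟨(y⁻¹ * g)⁻¹, P.inv_mem hy, Subgroup.mem_centralizer_iff.2 fun u hu => ?_⟩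
  have h1 := hg u hu
  have h2 : u * y = y * u := Subgroup.mem_centralizer_iff.1 hyQ u hu
  calc u * (x * (y⁻¹ * g)⁻¹) = x * (x⁻¹ * u * x) * (g : G)⁻¹ * y := by group
    _ = x * ((g : G)⁻¹ * (u * y)) := by rw [← h1]; group
    _ = x * (y⁻¹ * g)⁻¹ * u := by rw [h2]; group

/-- Let B be a block of the finite group G relative to a maximal ideal M of the algebraic integers containing the prime p, p^a the p-part of the order of G and p^d the order of a defect group D of B. If Σ_{χ ∈ B} χ(1)² = p^(2a−d) (the least possible value), then B is nilpotent. -/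
theorem result {G : Type*} [Group G] [Finite G] (p : ℕ) [Fact p.Prime] (M : Ideal Cfsg.AlgInt) (hM : Cfsg.IsPModular p M) (B : Set (Cfsg.IrrCharacter G)) (hB : Cfsg.IsPBlock M B) (D : Subgroup G) (hD : Cfsg.IsDefectGroup p M B D) (a d : ℕ) (ha : (Nat.card G).factorization p = a) (hd : Nat.card D = p ^ d) (hmin : ∑ᶠ χ ∈ B, Cfsg.charDegree (χ : G → ℂ) ^ 2 = p ^ (2 * a - d)) : Cfsg.IsNilpotentBlock p M B := by
  haveI : M.IsPrime := hM.2.1.isPrime
  have hdef : blockDefect p B = d := Nat.pow_right_injective hM.1.two_le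
    ((IsDefectGroup.props hM hB hD).2.1.symm.trans hd)
  have hda : d ≤ a := by
    rw [← hdef, ← ha]; exact Nat.sub_le _ _
  refine ⟨hB, fun Q e hQe x hx _ hreg => ?_⟩
  have hQ : IsPGroup p Q := hQe.1.1
  obtain ⟨S, hQS⟩ := hQ.exists_le_sylow
  have hS : Nat.card (S : Subgroup G) = p ^ a := by rw [S.card_eq_multiplicity, ha]
  obtain ⟨t, ht, hxt⟩ := exists_conj_eq hM hB S.2 hS hdef hda hmin hQe hQS hx
  have htN : t ∈ Subgroup.normalizer (Q : Set G) := by
    have h := mul_mem (inv_mem hx) (centralizer_le_normalizer_self Q hxt)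
    rwa [inv_mul_cancel_left] at h
  set φ := Subgroup.normalizerMonoidHom Q with hφ
  have h1 : φ ⟨x, hx⟩ * φ ⟨t, htN⟩ = 1 := by
    rw [← map_mul, ← MonoidHom.mem_ker, Subgroup.normalizerMonoidHom_ker, Subgroup.mem_subgroupOf]
    exact hxt
  obtain ⟨k, hk⟩ := S.2 ⟨t, ht⟩
  have hd1 : orderOf (φ ⟨x, hx⟩) ∣ p ^ k := by
    rw [eq_inv_of_mul_eq_one_left h1, orderOf_inv]
    refine (orderOf_map_dvd φ _).trans (orderOf_dvd_of_pow_eq_one ?_)
    exact Subtype.ext (congrArg (fun s : (S : Subgroup G) => (s : G)) hk)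
  have hd2 : orderOf (φ ⟨x, hx⟩) ∣ orderOf x :=
    (orderOf_map_dvd φ _).trans (orderOf_submonoid (⟨x, hx⟩ : Subgroup.normalizer (Q : Set G))).symm.dvd
  have hone : φ ⟨x, hx⟩ = 1 := orderOf_eq_one_iff.1 (Nat.eq_one_of_dvd_coprimes
    (Nat.Coprime.pow_left k (hM.1.coprime_iff_not_dvd.2 hreg)) hd1 hd2)
  rw [← MonoidHom.mem_ker, Subgroup.normalizerMonoidHom_ker, Subgroup.mem_subgroupOf] at hone
  exact hone

end Cfsg.Agent.S4647
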