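import Cfsg.Statements.S4648
import Cfsg.Agent.S4637
import Cfsg.Agent.Lib.LocalBlock.Dim
import Cfsg.Agent.Lib.CyclicDefect.Matching
import Cfsg.Agent.Lib.BrauerPairs.Nilpotent

set_option autoImplicit false
set_option linter.style.haveILetI false
open Cfsg Cfsg.Agent.Lib Cfsg.Agent.Lib.Block Cfsg.Agent.Lib.BrauerPairs Cfsg.Agent.Lib.CyclicDefect
  Cfsg.Agent.Lib.LocalBlock
open Cfsg.Agent.S4642 (induced_iff_occ)

namespace Cfsg.Agent.S4648

/-- Let B be a block of the finite group G relative to a maximal ideal M of the algebraic integers containing the prime p, with a nontrivial defect group D. If B has p-regular rank 1 and at most four irreducible characters, then B is nilpotent, D has exactly as many elements as B has irreducible characters, and p is 2 or 3. -/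
theorem result {G : Type*} [Group G] [Finite G] (p : ℕ) [Fact p.Prime] (M : Ideal Cfsg.AlgInt) (hM : Cfsg.IsPModular p M) (B : Set (Cfsg.IrrCharacter G)) (hB : Cfsg.IsPBlock M B) (D : Subgroup G) (hD : Cfsg.IsDefectGroup p M B D) (hD1 : D ≠ ⊥) (hl : Cfsg.blockRank p B = 1) (hk : Nat.card B ≤ 4) : Cfsg.IsNilpotentBlock p M B ∧ Nat.card D = Nat.card B ∧ (p = 2 ∨ p = 3) := by
  haveI : M.IsPrime := hM.2.1.isPrime
  have hp : p.Prime := Fact.out
  have hcard := (IsDefectGroup.props hM hB hD).2.1
  -- the local algebra bounds the order of the defect group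
  obtain ⟨U, -⟩ := exists_units hM hB hl
  have hle : Nat.card D ≤ Nat.card B := hcard ▸
    (Nat.le_of_dvd U.finrank_A_pos (U.pow_dvd_finrank_A hM hB hl)).trans (U.finrank_A_le hB hk)
  have hd1 : 1 ≤ blockDefect p B := by
    by_contra h
    refine hD1 (Subgroup.card_eq_one.1 ?_)
    rw [hcard, Nat.lt_one_iff.1 (not_le.1 h), pow_zero]
  have hpow : p ^ blockDefect p B ≤ 4 := hcard ▸ hle.trans hk
  have hp4 : p ≤ 4 := (Nat.le_self_pow (by omega) p).trans hpow
  have hp23 : p = 2 ∨ p = 3 := by
    interval_cases p <;> first | exact Or.inl rfl | exact Or.inr rfl | (norm_num at hp)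
  obtain ⟨e, hpair⟩ := exists_pair_on_defect hM hB hD
  have hmax := isMaximal_of_card hM hpair hcard
  have hP : IsPGroup p D := hmax.1.1.1
  have he : IsPBlock M e := hmax.1.1.2
  have hab : ∀ x ∈ D, ∀ y ∈ D, x * y = y * x := by
    intro x hx y hy
    have hd2 : blockDefect p B ≤ 2 := by
      by_contra h
      have h1 := (Nat.pow_le_pow_left hp.two_le (blockDefect p B)).trans hpow
      have h2 : 2 ^ 3 ≤ 2 ^ blockDefect p B := Nat.pow_le_pow_right two_pos (by omega)
      omega
    obtain hd | hd : blockDefect p B = 1 ∨ blockDefect p B = 2 := by omega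
    · haveI := isCyclic_of_prime_card (α := D) (p := p) (by rw [hcard, hd, pow_one])
      exact abelian_of_cyclic inferInstance x hx y hy
    · exact congrArg Subtype.val
        ((IsPGroup.isMulCommutative_of_card_eq_prime_sq (G := D) (p := p) (by rw [hcard, hd])).is_comm.comm ⟨x, hx⟩ ⟨y, hy⟩)
  rw [isNilpotentBlock_iff_of_abelian hM hmax hab]
  by_cases hcyc : IsCyclic D
  · obtain ⟨S⟩ := exists_setup hM hmax hcyc hD1
    have h1 := S.exists_structure.1
    have h2 := S.card_block
    have h3 := S.m_mul_r
    rw [hl] at h1 h2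
    rw [← h1, one_mul] at h3
    have h4 : 1 < Nat.card D := by
      rw [hcard]; exact Nat.one_lt_pow (by omega) hp.one_lt
    refine ⟨Subgroup.relIndex_eq_one.1 (S.m_eq.trans h1.symm), ?_, hp23⟩
    rw [S.card_P] at h4 ⊢
    omega
  · have hd2 : blockDefect p B = 2 := by
      rcases Nat.lt_or_ge (blockDefect p B) 2 with h | h
      · refine absurd (isCyclic_of_prime_card (α := D) (p := p) ?_) hcyc
        rw [hcard, show blockDefect p B = 1 by omega, pow_one]
      · by_contra hne
        have h1 := (Nat.pow_le_pow_left hp.two_le (blockDefect p B)).trans hpow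
        have h2 : 2 ^ 3 ≤ 2 ^ blockDefect p B := Nat.pow_le_pow_right two_pos (by omega)
        omega
    rw [hd2] at hpow hcard
    obtain rfl : p = 2 := by
      rcases hp23 with h | h
      · exact h
      · subst h; norm_num at hpow
    haveI hV : IsKleinFour D :=
      { card_four := by rw [hcard]; norm_num
        exponent_two := (not_isCyclic_iff_exponent_eq_prime Nat.prime_two hcard).1 hcyc }
    have hind : IsInducedBlock M (Subgroup.centralizer (D : Set G)) e B :=
      (induced_iff_occ hM hP hB).2 ⟨he, ((isBrauerPairOf_iff hM).1 hpair).2.2.2⟩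
    obtain ⟨-, hB4, hrank⟩ := S4637.result M hM B hB D hD hV e hind (stab M D e)
      (fun g => mem_stab_iff he) _ rfl
    refine ⟨Subgroup.relIndex_eq_one.1 (hrank.symm.trans hl), ?_, Or.inl rfl⟩
    rw [hcard, hB4]; norm_num

end Cfsg.Agent.S4648
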