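import Cfsg.Statements.S4689
import Cfsg.Agent.Lib.Star.Nilpotent

set_option autoImplicit false
open Cfsg

namespace Cfsg.Agent.S4689

/-- Fix a prime p and a maximal ideal M of the algebraic integers containing p, and a nilpotent p-block B of the finite group G. Then B has p-regular rank one (a single irreducible Brauer character), and some χ₀ ∈ B restricts to that Brauer character: every χ ∈ B agrees on the p-regular elements with a natural-number multiple of χ₀. -/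
theorem result {G : Type*} [Group G] [Fintype G] (p : ℕ) [Fact p.Prime] (M : Ideal Cfsg.AlgInt) (hM : Cfsg.IsPModular p M) (B : Set (Cfsg.IrrCharacter G)) (hnil : Cfsg.IsNilpotentBlock p M B) : Cfsg.blockRank p B = 1 ∧ ∃ χ₀ ∈ B, ∀ χ ∈ B, ∃ d : ℕ, ∀ x : G, Cfsg.pRegularPart p (χ : G → ℂ) x = (d : ℂ) * Cfsg.pRegularPart p (χ₀ : G → ℂ) x := by
  classical
  haveI : M.IsPrime := hM.2.1.isPrime
  obtain ⟨D, hD⟩ := Cfsg.Agent.Lib.Block.exists_isDefectGroup hM hnil.1
  obtain ⟨e, he⟩ := Cfsg.Agent.Lib.BrauerPairs.exists_pair_on_defect hM hnil.1 hD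
  have hmax := Cfsg.Agent.Lib.BrauerPairs.isMaximal_of_card hM he
    (Cfsg.Agent.Lib.Block.IsDefectGroup.props hM hnil.1 hD).2.1
  obtain ⟨χ₀, h0B, -, Φ, -, hrange, hreg⟩ := Cfsg.Agent.Lib.Star.nilpotent_main hM hmax hnil
  have hB : ∀ χ ∈ B, ∃ d : ℕ, ∀ x : G, Cfsg.pRegularPart p (χ : G → ℂ) x =
      (d : ℂ) * Cfsg.pRegularPart p (χ₀ : G → ℂ) x := by
    intro χ hχ
    obtain ⟨ν, rfl⟩ := (hrange χ).1 hχ
    refine ⟨Cfsg.charDegree (ν : D → ℂ), fun x => ?_⟩
    rw [← Cfsg.Agent.Lib.Block.irr_one_eq_natCast]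
    unfold Cfsg.pRegularPart
    by_cases hx : Cfsg.IsPRegular p x
    · rw [if_pos hx, if_pos hx, hreg ν x hx]
    · rw [if_neg hx, if_neg hx, mul_zero]
  refine ⟨?_, χ₀, h0B, hB⟩
  unfold Cfsg.blockRank
  have hne : Cfsg.pRegularPart p (χ₀ : G → ℂ) ≠ 0 := by
    intro h
    have h1 := congrFun h 1
    have hr : Cfsg.IsPRegular p (1 : G) := by
      unfold Cfsg.IsPRegular
      rw [orderOf_one, Nat.dvd_one]; exact hM.1.ne_one
    simp only [Cfsg.pRegularPart, if_pos hr, Pi.zero_apply,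
      Cfsg.Agent.Lib.Block.irr_one_eq_natCast] at h1
    exact (Cfsg.Agent.Lib.Block.charDegree_pos χ₀).ne' (Nat.cast_eq_zero.1 h1)
  rw [show Submodule.span ℂ ((fun χ : Cfsg.IrrCharacter G =>
      Cfsg.pRegularPart p (χ : G → ℂ)) '' B) = ℂ ∙ Cfsg.pRegularPart p (χ₀ : G → ℂ) from ?_,
    finrank_span_singleton hne]
  apply le_antisymm
  · rw [Submodule.span_le]
    rintro _ ⟨χ, hχ, rfl⟩
    obtain ⟨d, hd⟩ := hB χ hχ
    exact Submodule.mem_span_singleton.2 ⟨d, (funext fun x => (hd x).symm)⟩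
  · exact Submodule.span_mono (Set.singleton_subset_iff.2 ⟨χ₀, h0B, rfl⟩)

end Cfsg.Agent.S4689
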