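import Cfsg.Statements.S4649
import Cfsg.Agent.S4689
import Cfsg.Agent.Lib.CyclicDefect.Setup

set_option autoImplicit false
open Cfsg

namespace Cfsg.Agent.S4649

/-- A block with cyclic defect group, of a finite group relative to a maximal ideal M of the algebraic integers containing the prime p, is nilpotent if and only if its p-regular rank is 1 (it has a unique irreducible Brauer character). -/
theorem result {G : Type*} [Group G] [Finite G] (p : ℕ) [Fact p.Prime] (M : Ideal Cfsg.AlgInt) (hM : Cfsg.IsPModular p M) (B : Set (Cfsg.IrrCharacter G)) (hB : Cfsg.IsPBlock M B) (P : Subgroup G) (hPD : Cfsg.IsDefectGroup p M B P) (hcyc : IsCyclic P) : Cfsg.IsNilpotentBlock p M B ↔ Cfsg.blockRank p B = 1 := by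
  classical
  haveI : M.IsPrime := hM.2.1.isPrime
  obtain ⟨e, he⟩ := Cfsg.Agent.Lib.BrauerPairs.exists_pair_on_defect hM hB hPD
  have hmax := Cfsg.Agent.Lib.BrauerPairs.isMaximal_of_card hM he
    (Cfsg.Agent.Lib.Block.IsDefectGroup.props hM hB hPD).2.1
  refine ⟨fun h => ?_, fun h => ?_⟩
  · letI := Fintype.ofFinite G
    exact (Cfsg.Agent.S4689.result p M hM B h).1
  refine (Cfsg.Agent.Lib.BrauerPairs.isNilpotentBlock_iff_of_abelian hM hmax
    (Cfsg.Agent.Lib.BrauerPairs.abelian_of_cyclic hcyc)).2 fun x hx => ?_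
  by_cases hP1 : P = ⊥
  · subst hP1
    rw [Subgroup.mem_centralizer_iff]
    intro u hu
    rw [Subgroup.mem_bot.1 hu, one_mul, mul_one]
  obtain ⟨S⟩ := Cfsg.Agent.Lib.CyclicDefect.exists_setup hM hmax hcyc hP1
  have h1 : (Subgroup.centralizer (P : Set G)).relIndex (Cfsg.Agent.Lib.BrauerPairs.stab M P e) = 1 := by
    have := S.le_blockRank
    have := S.m_pos
    rw [S.m_eq]
    omega
  exact Subgroup.relIndex_eq_one.1 h1 hx

end Cfsg.Agent.S4649
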