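import Cfsg.Statements.S4650
import Cfsg.Agent.Lib.BrauerPairs.AbelianInertial

set_option autoImplicit false
set_option linter.style.haveILetI false
open Cfsg Cfsg.Agent.Lib.Block Cfsg.Agent.Lib.BrauerPairs

namespace Cfsg.Agent.S4650

/-- Let B be a block of the finite group G relative to a maximal ideal M of the algebraic integers containing the prime p, with a nontrivial commutative defect group P; let c be a block of C_G(P) inducing B and T the stabilizer of c in N_G(P). Then T/C_G(P) acts freely on the non-identity elements of P (an element of T fixing a non-identity element of P under conjugation lies in C_G(P)) if and only if, for every nontrivial subgroup Q of P, the block of C_G(Q) induced by c inside C_G(Q) is a nilpotent block of C_G(Q). -/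
theorem result {G : Type*} [Group G] [Finite G] (p : ℕ) [Fact p.Prime] (M : Ideal Cfsg.AlgInt) (hM : Cfsg.IsPModular p M) (B : Set (Cfsg.IrrCharacter G)) (hB : Cfsg.IsPBlock M B) (P : Subgroup G) (hPD : Cfsg.IsDefectGroup p M B P) (hPab : ∀ x ∈ P, ∀ y ∈ P, x * y = y * x) (hP1 : P ≠ ⊥) (c : Set (Cfsg.IrrCharacter (Subgroup.centralizer (P : Set G)))) (hc : Cfsg.IsInducedBlock M (Subgroup.centralizer (P : Set G)) c B) (T : Subgroup G) (hT : ∀ g : G, g ∈ T ↔ (g ∈ Subgroup.normalizer (P : Set G) ∧ Cfsg.StabilizesBlock (Subgroup.centralizer (P : Set G)) c g)) : (∀ g ∈ T, ∀ x ∈ P, x ≠ 1 → g * x * g⁻¹ = x → g ∈ Subgroup.centralizer (P : Set G)) ↔ ∀ Q : Subgroup G, Q ≤ P → Q ≠ ⊥ → ∀ f : Set (Cfsg.IrrCharacter (Subgroup.centralizer (Q : Set G))), Cfsg.IsInducedBlockIn M (Subgroup.centralizer (Q : Set G)) (Subgroup.centralizer (P : Set G)) c f → Cfsg.IsNilpotentBlock p M f := by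
  haveI : M.IsPrime := hM.2.1.isPrime
  obtain ⟨hcb, -, -⟩ := id hc
  have hP : IsPGroup p P := (IsDefectGroup.props hM hB hPD).1
  have hmax := isMaximal_of_inducedBlock hM hB hPD hc
  obtain rfl : T = stab M P c := eq_stab hcb hT
  constructor
  · intro hfree Q hQP hQ1 f hf
    obtain ⟨x, hx⟩ := Q.ne_bot_iff_exists_ne_one.1 hQ1
    refine (below_nilpotent hM hmax hPab (subpairLE_of_inducedIn hM hP hPab hQP hf) ?_).2
    rintro t ⟨ht, htQ⟩
    refine hfree t ht x (hQP x.2) (fun h => hx (Subtype.ext h)) ?_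
    rw [← Subgroup.mem_centralizer_iff.1 htQ x x.2, mul_inv_cancel_right]
  · intro hnil g hg x hx hx1 hfix
    obtain ⟨f, -, hle⟩ := exists_le hM hP hcb (Subgroup.zpowers x) (Subgroup.zpowers_le.2 hx)
    refine stab_inf_le_of_below_nilpotent hM hmax hPab hle
      (hnil _ (Subgroup.zpowers_le.2 hx) (Subgroup.zpowers_ne_bot.2 hx1) f
        (inducedIn_of_subpairLE hM hP hcb hPab hle)) ⟨hg, ?_⟩
    show g ∈ Subgroup.centralizer (Subgroup.zpowers x : Set G)
    rw [KleinDefect.centralizer_zpowers, Subgroup.mem_centralizer_singleton_iff]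
    exact mul_inv_eq_iff_eq_mul.1 hfix

end Cfsg.Agent.S4650
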