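import Cfsg.Statements.S4654
import Cfsg.Agent.Lib.BrauerPairs.NormalP

set_option autoImplicit false
open Cfsg

namespace Cfsg.Agent.S4654

/-- Fix a prime p and a maximal ideal M of the algebraic integers containing p. Let P be a normal p-subgroup of the finite group G, B a p-block of G and e a p-block of C_G(P) such that (P, e) is a Brauer pair of B (as P is normal, this says that e occurs in the idempotent of B, which is supported on C_G(P)). Let T be the stabilizer of e in G under conjugation. Then the idempotent of e is a block idempotent of T: some block E of T has, at every element of T, the same idempotent coefficient as e (zero off C_G(P)); and the idempotent of B is the sum of the distinct G-conjugates of the idempotent of e: its coefficient at g is the sum over all x in G of the coefficient of e at x⁻¹ g x, divided by the order of T. -/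
theorem result {G : Type*} [Group G] [Fintype G] (p : ℕ) [Fact p.Prime] (M : Ideal Cfsg.AlgInt) (hM : Cfsg.IsPModular p M) (P : Subgroup G) [P.Normal] (hP : IsPGroup p P) (B : Set (Cfsg.IrrCharacter G)) (e : Set (Cfsg.IrrCharacter (Subgroup.centralizer (P : Set G)))) (hBe : Cfsg.IsBrauerPairOf p M B P e) (T : Subgroup G) (hT : ∀ x : G, x ∈ T ↔ Cfsg.StabilizesBlock (Subgroup.centralizer (P : Set G)) e x) : (∃ E : Set (Cfsg.IrrCharacter T), Cfsg.IsPBlock M E ∧ ∀ t : T, Cfsg.blockCoeff E t = Cfsg.subgroupBlockCoeff (Subgroup.centralizer (P : Set G)) e (t : G)) ∧ ∀ g : G, Cfsg.blockCoeff B g = (Nat.card T : ℂ)⁻¹ * ∑ x : G, Cfsg.subgroupBlockCoeff (Subgroup.centralizer (P : Set G)) e (x⁻¹ * g * x) := by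
  have := hM.2.1.isPrime
  have he := hBe.1.2
  have hT' : ∀ x : G, x ∈ T ↔ Lib.BrauerPairs.cj x (Lib.BrauerPairs.pbar M P e) =
      Lib.BrauerPairs.pbar M P e := fun x =>
    (hT x).trans (Lib.BrauerPairs.stabilizesBlock_iff
      (Lib.BrauerPairs.mem_normalizer_of_normal x) he)
  refine ⟨?_, fun g => Lib.BrauerPairs.blockCoeff_eq_sum_conj hM hBe hT' g⟩
  have ho : Lib.BrauerPairs.Over (M := M) P e T :=
    ⟨he, fun u hu => (hT' u).2 (Lib.BrauerPairs.self_le_fixSub hM hP he hu),
      fun u hu => (hT' u).2 (Lib.BrauerPairs.cj_pbar_of_centralizes P e hu),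
      fun u _ => Lib.BrauerPairs.mem_normalizer_of_normal u, fun u hu => (hT' u).1 hu⟩
  obtain ⟨E, hE, -, hcoe⟩ := ho.exists_block hM hP
  exact ⟨E, hE, hcoe⟩

end Cfsg.Agent.S4654
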