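import Cfsg.Statements.S4655
import Cfsg.Agent.Lib.BrauerPairs.Pairs

set_option autoImplicit false
open Cfsg

namespace Cfsg.Agent.S4655

/-- Fix a prime p and a maximal ideal M of the algebraic integers containing p. Let (P, e) be a Brauer pair of the finite group G (P a p-subgroup, e a p-block of C_G(P)) and Q a subgroup of P. Then there is exactly one p-block f of C_G(Q) such that the Brauer pair (Q, f) lies below (P, e). -/
theorem result {G : Type*} [Group G] [Fintype G] (p : ℕ) [Fact p.Prime] (M : Ideal Cfsg.AlgInt) (hM : Cfsg.IsPModular p M) (P Q : Subgroup G) (e : Set (Cfsg.IrrCharacter (Subgroup.centralizer (P : Set G)))) (hPe : Cfsg.IsBrauerPair p M P e) (hQP : Q ≤ P) : ∃! f : Set (Cfsg.IrrCharacter (Subgroup.centralizer (Q : Set G))), Cfsg.IsPBlock M f ∧ Cfsg.SubpairLE p M Q f P e := by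
  have := hM.2.1.isPrime
  obtain ⟨f, hf, hle⟩ := Lib.BrauerPairs.exists_le hM hPe.1 hPe.2 Q hQP
  exact ⟨f, ⟨hf, hle⟩, fun f' h => Lib.BrauerPairs.le_unique hM hPe.1 hPe.2 Q f' f h.2 hle⟩

end Cfsg.Agent.S4655
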