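import Cfsg.Statements.S4656
import Cfsg.Agent.Lib.BrauerPairs.Pairs

set_option autoImplicit false
open Cfsg

namespace Cfsg.Agent.S4656

/-- Fix a prime p and a maximal ideal M of the algebraic integers containing p. Let (P, e) be a Brauer pair of the finite group G and Q a normal subgroup of P. Then there is exactly one p-block f of C_G(Q) that is stable under conjugation by P and such that e occurs in the Brauer-map image at P of the idempotent of f; that is, exactly one f with (Q, f) normally below (P, e). -/
theorem result {G : Type*} [Group G] [Fintype G] (p : ℕ) [Fact p.Prime] (M : Ideal Cfsg.AlgInt) (hM : Cfsg.IsPModular p M) (P Q : Subgroup G) (e : Set (Cfsg.IrrCharacter (Subgroup.centralizer (P : Set G)))) (hPe : Cfsg.IsBrauerPair p M P e) (hQP : Q ≤ P) (hPN : P ≤ Subgroup.normalizer (Q : Set G)) : ∃! f : Set (Cfsg.IrrCharacter (Subgroup.centralizer (Q : Set G))), Cfsg.IsNormalSubpair p M Q f P e := by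
  have := hM.2.1.isPrime
  obtain ⟨f, hf⟩ := Lib.BrauerPairs.exists_step hM hPe.1 hQP hPN hPe.2
  exact ⟨f, (Lib.BrauerPairs.isNormalSubpair_iff hM).2 hf, fun f' h =>
    Lib.BrauerPairs.step_unique hM ((Lib.BrauerPairs.isNormalSubpair_iff hM).1 h) hf⟩

end Cfsg.Agent.S4656
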