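import Cfsg.Statements.S4657
import Cfsg.Agent.Lib.BrauerPairs.Pairs

set_option autoImplicit false
open Cfsg

namespace Cfsg.Agent.S4657

/-- Fix a prime p and a maximal ideal M of the algebraic integers containing p. Every Brauer pair (P, e) of the finite group G is a Brauer pair of exactly one p-block B of G. -/
theorem result {G : Type*} [Group G] [Fintype G] (p : ℕ) [Fact p.Prime] (M : Ideal Cfsg.AlgInt) (hM : Cfsg.IsPModular p M) (P : Subgroup G) (e : Set (Cfsg.IrrCharacter (Subgroup.centralizer (P : Set G)))) (hPe : Cfsg.IsBrauerPair p M P e) : ∃! B : Set (Cfsg.IrrCharacter G), Cfsg.IsBrauerPairOf p M B P e := by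
  classical
  have := hM.2.1.isPrime
  have hpair := fun B => Lib.BrauerPairs.isBrauerPairOf_iff (B := B) (Q := P) (e := e) hM
  have hsum := congrArg (fun a => Lib.BrauerPairs.pbar M P e * Lib.BrauerPairs.br P a)
    (Lib.BrauerPairs.sum_bar (M := M) (H := G))
  simp only [Lib.BrauerPairs.br_one, mul_one, Lib.BrauerPairs.br_sum, Finset.mul_sum] at hsum
  obtain ⟨B, hB, hne⟩ := Finset.exists_ne_zero_of_sum_ne_zero
    (hsum ▸ Lib.BrauerPairs.pbar_ne_zero hPe.2)
  have hB' := Lib.BrauerPairs.mem_blocks.1 hB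
  have ho := (Lib.BrauerPairs.occ_or_zero hM hPe.1 hPe.2
    (Lib.BrauerPairs.good_bar hB' P)).resolve_left hne
  refine ⟨B, (hpair B).2 ⟨hPe.1, hPe.2, hB', ho⟩, fun B₁ h1 => ?_⟩
  obtain ⟨-, -, hB1, ho1⟩ := (hpair B₁).1 h1
  by_contra hne'
  exact Lib.BrauerPairs.not_occ_of_mul_eq_zero hM hPe.1 hPe.2
    (Lib.BrauerPairs.good_bar hB' P).fixP (Lib.BrauerPairs.good_bar hB1 P).fixP
    (Lib.BrauerPairs.bar_mul_bar_of_ne hB' hB1 (Ne.symm hne')) ho ho1

end Cfsg.Agent.S4657
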