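import Cfsg.Statements.S4662
import Cfsg.Agent.Lib.BrauerPairs.Normalizer

set_option autoImplicit false
open Cfsg

namespace Cfsg.Agent.S4662

/-- Fix a prime p and a maximal ideal M of the algebraic integers containing p. Let (P, e) be a maximal Brauer pair of the p-block B of the finite group G, Q ≤ P, and f the p-block of C_G(Q) with (Q, f) ≤ (P, e). Let T be the stabilizer of f in N_G(Q). Then the idempotent of f is a block idempotent of T, and N_P(Q) is contained in a defect group of that block of T; moreover for some x in G the conjugate pair (x Q x⁻¹, conjugate of f) again lies below (P, e) and, with T' the stabilizer of the conjugate of f in N_G(x Q x⁻¹), N_P(x Q x⁻¹) is a defect group of the block of T' whose idempotent is that of the conjugate of f. -/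
theorem result {G : Type*} [Group G] [Fintype G] (p : ℕ) [Fact p.Prime] (M : Ideal Cfsg.AlgInt) (hM : Cfsg.IsPModular p M) (B : Set (Cfsg.IrrCharacter G)) (P Q : Subgroup G) (e : Set (Cfsg.IrrCharacter (Subgroup.centralizer (P : Set G)))) (f : Set (Cfsg.IrrCharacter (Subgroup.centralizer (Q : Set G)))) (hmax : Cfsg.IsMaximalBrauerPair p M B P e) (hQP : Q ≤ P) (hf : Cfsg.IsPBlock M f) (hle : Cfsg.SubpairLE p M Q f P e) (T : Subgroup G) (hT : ∀ y : G, y ∈ T ↔ y ∈ Subgroup.normalizer (Q : Set G) ∧ Cfsg.StabilizesBlock (Subgroup.centralizer (Q : Set G)) f y) : (∃ F : Set (Cfsg.IrrCharacter T), Cfsg.IsPBlock M F ∧ (∀ t : T, Cfsg.blockCoeff F t = Cfsg.subgroupBlockCoeff (Subgroup.centralizer (Q : Set G)) f (t : G)) ∧ ∃ D : Subgroup T, Cfsg.IsDefectGroup p M F D ∧ (P ⊓ Subgroup.normalizer (Q : Set G)).subgroupOf T ≤ D) ∧ ∃ x : G, Cfsg.SubpairLE p M (Q.map (MulAut.conj x).toMonoidHom) (Cfsg.conjBlock Q x f) P e ∧ ∀ (T' : Subgroup G), (∀ y : G, y ∈ T' ↔ y ∈ Subgroup.normalizer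 ((Q.map (MulAut.conj x).toMonoidHom) : Set G) ∧ Cfsg.StabilizesBlock (Subgroup.centralizer ((Q.map (MulAut.conj x).toMonoidHom) : Set G)) (Cfsg.conjBlock Q x f) y) → ∃ F' : Set (Cfsg.IrrCharacter T'), Cfsg.IsPBlock M F' ∧ (∀ t : T', Cfsg.blockCoeff F' t = Cfsg.subgroupBlockCoeff (Subgroup.centralizer ((Q.map (MulAut.conj x).toMonoidHom) : Set G)) (Cfsg.conjBlock Q x f) (t : G)) ∧ Cfsg.IsDefectGroup p M F' ((P ⊓ Subgroup.normalizer ((Q.map (MulAut.conj x).toMonoidHom) : Set G)).subgroupOf T') := by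
  have := hM.2.1.isPrime
  have hP : IsPGroup p P := hmax.1.1.1
  have he := hmax.1.1.2
  have hQ : IsPGroup p Q := hP.to_le hQP
  obtain rfl := Lib.BrauerPairs.eq_stab hf hT
  constructor
  · obtain ⟨F, hF, heq, hcoe⟩ := (Lib.BrauerPairs.stab_over hM hQ hf).exists_block hM hQ
    obtain ⟨D, hD, hle'⟩ := Lib.BrauerPairs.exists_defect_over hM hP he hle
      (Lib.BrauerPairs.stab_over hM hQ hf) hF heq
    rw [Lib.BrauerPairs.inf_stab hM hP he hle] at hle'
    exact ⟨F, hF, hcoe, D, hD, hle'⟩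
  · obtain ⟨x, hx, hd⟩ := Lib.BrauerPairs.exists_conj_normalizer_defect hM hmax hle
    refine ⟨x, hx, fun T' hT' => ?_⟩
    have hf' := Lib.BrauerPairs.isPBlock_conjBlock Q x hf
    have hQ' := hQ.map (MulAut.conj x).toMonoidHom
    obtain rfl := Lib.BrauerPairs.eq_stab hf' hT'
    obtain ⟨F', hF', heq', hcoe⟩ := (Lib.BrauerPairs.stab_over hM hQ' hf').exists_block hM hQ'
    refine ⟨F', hF', hcoe, ?_⟩
    have e1 := Lib.BrauerPairs.inf_stab hM hP he hx
    rw [← e1]
    refine Lib.BrauerPairs.isDefectGroup_over_of_card hM hP he hx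
      (Lib.BrauerPairs.stab_over hM hQ' hf') hF' heq' ?_
    rw [e1]
    exact hd F' hF' heq'

end Cfsg.Agent.S4662
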