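import Cfsg.Statements.S4664
import Cfsg.Agent.Lib.Block.Singular
import Cfsg.Agent.Lib.Char.Kernel

set_option autoImplicit false
open Cfsg

namespace Cfsg.Agent.S4664

/-- Fix a prime p and a maximal ideal M of the algebraic integers containing p, and let B be a p-block of the finite group G. Let m be the p'-part of the order of G and η = exp(2πi/m). Then every coefficient of the idempotent of B lies in the cyclotomic field ℚ(η). -/
theorem result {G : Type*} [Group G] [Fintype G] (p : ℕ) [Fact p.Prime] (M : Ideal Cfsg.AlgInt) (hM : Cfsg.IsPModular p M) (B : Set (Cfsg.IrrCharacter G)) (hB : Cfsg.IsPBlock M B) (g : G) : Cfsg.blockCoeff B g ∈ IntermediateField.adjoin ℚ ({Complex.exp (2 * Real.pi * Complex.I / ((Nat.card G / p ^ (Nat.card G).factorization p : ℕ) : ℂ))} : Set ℂ) := by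
  classical
  haveI : M.IsPrime := hM.2.1.isPrime
  set m := Nat.card G / p ^ (Nat.card G).factorization p with hm
  set K := IntermediateField.adjoin ℚ
    ({Complex.exp (2 * Real.pi * Complex.I / ((m : ℕ) : ℂ))} : Set ℂ)
  have hm0 : m ≠ 0 := (Nat.ordCompl_pos p Nat.card_pos.ne').ne'
  have hroot : ∀ μ : ℂ, μ ^ m = 1 → μ ∈ K := by
    intro μ hμ
    haveI : NeZero m := ⟨hm0⟩
    obtain ⟨i, -, rfl⟩ := (Complex.isPrimitiveRoot_exp m hm0).eq_pow_of_pow_eq_one hμ
    exact pow_mem (IntermediateField.subset_adjoin ℚ _ (Set.mem_singleton _)) i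
  by_cases hg : p ∣ orderOf g
  · rw [Lib.Block.blockCoeff_eq_zero_of_singular hM hB hg]
    exact zero_mem K
  have hval : ∀ (χ : Cfsg.IrrCharacter G) (y : G), orderOf y = orderOf g → (χ : G → ℂ) y ∈ K := by
    intro χ y hy
    obtain ⟨n, ρ, -, hρ⟩ := χ.2
    obtain ⟨b, μ, h1, -, hc⟩ := Lib.Char.exists_eigenbasis ρ y
    have h := hc 1
    rw [pow_one] at h
    rw [← hρ, h]
    refine sum_mem fun i _ => ?_
    rw [pow_one]
    refine hroot _ ?_
    have hd : orderOf y ∣ m := by
      refine Nat.Coprime.dvd_of_dvd_mul_left ?_ (show orderOf y ∣ p ^ (Nat.card G).factorization p * m by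
        rw [hm, Nat.ordProj_mul_ordCompl_eq_self]; exact orderOf_dvd_natCard y)
      exact ((hM.1.coprime_iff_not_dvd.2 (hy ▸ hg)).pow_left _).symm
    obtain ⟨k, hk⟩ := hd
    rw [hk, pow_mul, h1 i, one_pow]
  have hterm : ∀ χ : Cfsg.IrrCharacter G,
      (χ : G → ℂ) 1 * (starRingEnd ℂ) ((χ : G → ℂ) g) ∈ K := fun χ => by
    rw [← Lib.Char.char_inv (Lib.Char.isCharacter_of_isIrr χ.2), Lib.Block.irr_one_eq_natCast]
    exact mul_mem (natCast_mem K _) (hval χ _ (orderOf_inv g))
  rw [Cfsg.blockCoeff]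
  exact mul_mem (inv_mem (natCast_mem K _)) (finsum_mem_induction (fun z => z ∈ K) (zero_mem K)
    (fun _ _ ha hb => add_mem ha hb) fun χ _ => hterm χ)

end Cfsg.Agent.S4664
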