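import Cfsg.Statements.S4665
import Cfsg.Agent.Lib.CharTools.ClassMult

set_option autoImplicit false
open Cfsg

namespace Cfsg.Agent.S4665

/-- Fix a prime p, a maximal ideal M of the algebraic integers containing p, and a p-block B of the finite group G, and let p^a be the p-part of the order of G. Let χ be an integer combination of the irreducible characters in B. If the function that agrees with χ on p-regular elements and vanishes on p-singular elements is again an integer combination of the irreducible characters in B, then p^a divides χ(1). -/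
theorem result {G : Type*} [Group G] [Fintype G] (p : ℕ) [Fact p.Prime] (M : Ideal Cfsg.AlgInt) (hM : Cfsg.IsPModular p M) (B : Set (Cfsg.IrrCharacter G)) (hB : Cfsg.IsPBlock M B) (χ : G → ℂ) (hχ : (∃ n : Cfsg.IrrCharacter G → ℤ, ∀ g : G, χ g = ∑ᶠ ψ ∈ B, (n ψ : ℂ) * (ψ : G → ℂ) g)) (h0 : (∃ n : Cfsg.IrrCharacter G → ℤ, ∀ g : G, Cfsg.pRegularPart p χ g = ∑ᶠ ψ ∈ B, (n ψ : ℂ) * (ψ : G → ℂ) g)) : ∃ k : ℤ, χ 1 = (p ^ (Nat.card G).factorization p : ℂ) * k := by
  classical
  obtain ⟨n, hn⟩ := h0
  obtain ⟨P⟩ : Nonempty (Sylow p G) := inferInstance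
  choose m hm using fun ψ : Cfsg.IrrCharacter G =>
    Lib.CharTools.exists_nat_sum_subgroup (Lib.Char.isCharacter_of_isIrr ψ.2) (P : Subgroup G)
  refine ⟨∑ ψ ∈ Finset.univ.filter (· ∈ B), n ψ * (m ψ : ℤ), ?_⟩
  have hsum : ∑ g ∈ Finset.univ.filter (fun g : G => g ∈ (P : Subgroup G)), Cfsg.pRegularPart p χ g = χ 1 := by
    rw [Finset.sum_eq_single 1]
    · refine if_pos ?_
      show ¬ p ∣ orderOf (1 : G)
      rw [orderOf_one]
      exact fun hd => (Fact.out : p.Prime).one_lt.ne' (Nat.eq_one_of_dvd_one hd)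
    · intro g hg hg1
      refine if_neg ?_
      intro hreg
      obtain ⟨k, hk⟩ := P.isPGroup' ⟨g, (Finset.mem_filter.mp hg).2⟩
      obtain ⟨j, -, hj⟩ := (Nat.dvd_prime_pow (Fact.out : p.Prime)).mp
        (orderOf_dvd_of_pow_eq_one (congrArg Subtype.val hk))
      rcases j with _ | j
      · exact hg1 (orderOf_eq_one_iff.mp (by simpa using hj))
      · exact hreg (by
          change p ∣ orderOf g
          rw [show orderOf g = p ^ (j + 1) from hj]; exact dvd_pow_self p (Nat.succ_ne_zero j))
    · intro h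
      exact absurd (Finset.mem_filter.mpr ⟨Finset.mem_univ 1, one_mem _⟩) h
  rw [← hsum, Finset.sum_congr rfl fun g _ => hn g]
  simp only [finsum_mem_eq_toFinset_sum, Set.toFinset]
  rw [Finset.sum_comm]
  push_cast
  rw [Finset.mul_sum]
  refine Finset.sum_congr (by ext; simp) fun ψ _ => ?_
  rw [← Finset.mul_sum, hm, P.card_eq_multiplicity]
  push_cast
  ring

end Cfsg.Agent.S4665
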