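import Cfsg.Statements.S4666
import Cfsg.Agent.Lib.Char.Regular
import Cfsg.Agent.Lib.Block.Defect

set_option autoImplicit false
open Cfsg

namespace Cfsg.Agent.S4666

/-- Fix a prime p and a maximal ideal M of the algebraic integers containing p, and a p-block B of the finite group G of defect d. For every integer combination χ of the irreducible characters in B, p^d times the function that agrees with χ on p-regular elements and vanishes elsewhere is again an integer combination of the irreducible characters in B. -/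
theorem result {G : Type*} [Group G] [Fintype G] (p : ℕ) [Fact p.Prime] (M : Ideal Cfsg.AlgInt) (hM : Cfsg.IsPModular p M) (B : Set (Cfsg.IrrCharacter G)) (hB : Cfsg.IsPBlock M B) (χ : G → ℂ) (hχ : (∃ n : Cfsg.IrrCharacter G → ℤ, ∀ g : G, χ g = ∑ᶠ ψ ∈ B, (n ψ : ℂ) * (ψ : G → ℂ) g)) : (∃ n : Cfsg.IrrCharacter G → ℤ, ∀ g : G, (p ^ Cfsg.blockDefect p B : ℂ) * Cfsg.pRegularPart p χ g = ∑ᶠ ψ ∈ B, (n ψ : ℂ) * (ψ : G → ℂ) g) := by
  classical
  haveI : M.IsPrime := hM.2.1.isPrime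
  have hp : p.Prime := Fact.out
  obtain ⟨n, hn⟩ := hχ
  obtain ⟨χ₀, h₀, hh₀⟩ := Lib.Block.exists_height_zero hB p
  have hd := Lib.Block.blockDefect_eq_of_min h₀ hh₀
  set d := Cfsg.blockDefect p B with hd'
  have hgen : ∀ ψ : Cfsg.IrrCharacter G, ψ ∈ B →
      Cfsg.IsGeneralizedCharacter G (Lib.Char.regFun p ((p ^ d : ℕ) : ℂ) (ψ : G → ℂ)) := by
    intro ψ hψ
    have h1 := Lib.Block.le_of_height_zero hh₀ hψ
    have h2 : (Cfsg.charDegree (χ₀ : G → ℂ)).factorization p ≤ (Nat.card G).factorization p :=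
      (Nat.factorization_le_iff_dvd (Lib.Char.charDegree_pos χ₀.2).ne' Nat.card_pos.ne').mpr
        (Lib.Char.irr_degree_dvd_card χ₀.2
          (Lib.Char.apply_one_eq_charDegree (Lib.Char.isCharacter_of_isIrr χ₀.2))) p
    have := Lib.Char.regFun_isGeneralized ψ.2 hp (d := (Nat.card G).factorization p - d)
      ((pow_dvd_pow p (by omega)).trans (Nat.ordProj_dvd _ p))
    rwa [show (Nat.card G).factorization p - ((Nat.card G).factorization p - d) = d by omega] at this
  choose! c hc using fun (ψ : Cfsg.IrrCharacter G) (hψ : ψ ∈ B) (φ : Cfsg.IrrCharacter G) =>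
    Lib.Char.classInner_intCast (hgen ψ hψ) (Lib.Char.isCharacter_of_isIrr φ.2)
  have hzero : ∀ ψ ∈ B, ∀ φ, φ ∉ B → c ψ φ = 0 := by
    intro ψ hψ φ hφ
    obtain ⟨χ₁, rfl⟩ := hB
    have hns : ¬ Cfsg.SameBlock M (ψ : G → ℂ) (φ : G → ℂ) := fun h =>
      hφ (Lib.Block.sameBlock_trans (show Cfsg.SameBlock M (χ₁ : G → ℂ) (ψ : G → ℂ) from hψ) h)
    have h0 : Cfsg.classInner (fun x => if p ∣ orderOf x then 0 else (ψ : G → ℂ) x)
        (φ : G → ℂ) = 0 := Lib.Block.regInner_eq_zero hM hns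
    have h1 := hc ψ hψ φ
    rw [show Lib.Char.regFun p ((p ^ d : ℕ) : ℂ) (ψ : G → ℂ) = ((p ^ d : ℕ) : ℂ) •
        (fun x => if p ∣ orderOf x then 0 else (ψ : G → ℂ) x) by
      funext x; simp only [Lib.Char.regFun, Pi.smul_apply, smul_eq_mul, mul_ite, mul_zero],
      Lib.Char.classInner_smul_left, h0, mul_zero] at h1
    exact_mod_cast h1.symm
  refine ⟨fun φ => ∑ ψ ∈ Finset.univ.filter (· ∈ B), n ψ * c ψ φ, fun g => ?_⟩
  rw [finsum_mem_eq_toFinset_sum]
  have hset : B.toFinset = Finset.univ.filter (· ∈ B) := by ext; simp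
  have hexp : ∀ ψ ∈ Finset.univ.filter (fun ψ : Cfsg.IrrCharacter G => ψ ∈ B),
      Lib.Char.regFun p ((p ^ d : ℕ) : ℂ) (ψ : G → ℂ) g =
        ∑ φ ∈ B.toFinset, (c ψ φ : ℂ) * (φ : G → ℂ) g := by
    intro ψ hψ
    have hψB := (Finset.mem_filter.mp hψ).2
    conv_lhs => rw [Lib.Char.eq_sum_classInner_smul
      (Lib.Char.isClassFunction_regFun p _ (Lib.Char.isClassFunction_of_isIrr ψ.2))]
    simp only [Finset.sum_apply, Pi.smul_apply, smul_eq_mul, hc ψ hψB]
    refine (Finset.sum_subset (Finset.subset_univ _) fun φ _ hφ => ?_).symm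
    rw [hzero ψ hψB φ (fun h => hφ (Set.mem_toFinset.mpr h)), Int.cast_zero, zero_mul]
  simp only [Int.cast_sum, Int.cast_mul, Finset.sum_mul]
  rw [Finset.sum_comm]
  simp only [mul_assoc, ← Finset.mul_sum]
  rw [← Finset.sum_congr rfl (fun ψ hψ => congrArg ((n ψ : ℂ) * ·) (hexp ψ hψ)),
    Cfsg.pRegularPart]
  simp only [Lib.Char.regFun, Cfsg.IsPRegular, hn, finsum_mem_eq_toFinset_sum, hset, ite_not]
  by_cases hg : p ∣ orderOf g
  · simp [hg]
  · simp only [if_neg hg, Nat.cast_pow, Finset.mul_sum]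
    exact Finset.sum_congr rfl fun ψ _ => by ring

end Cfsg.Agent.S4666
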