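import Cfsg.Statements.S4667
import Cfsg.Agent.Lib.Block.RegProj

set_option autoImplicit false
open Cfsg

namespace Cfsg.Agent.S4667

/-- Fix a prime p and a maximal ideal M of the algebraic integers containing p, and a p-block B of the finite group G. The p-regular rank of B (the number of irreducible Brauer characters in B) times the order of G equals the sum over the p-regular elements x of G of Σ_{χ ∈ B} χ(x) χ(x⁻¹) (written with the restriction of χ to p-regular elements, which vanishes at p-singular x). -/
theorem result {G : Type*} [Group G] [Fintype G] (p : ℕ) [Fact p.Prime] (M : Ideal Cfsg.AlgInt) (hM : Cfsg.IsPModular p M) (B : Set (Cfsg.IrrCharacter G)) (hB : Cfsg.IsPBlock M B) : (Nat.card G : ℂ) * (Cfsg.blockRank p B : ℂ) = ∑ x : G, ∑ᶠ χ ∈ B, Cfsg.pRegularPart p (χ : G → ℂ) x * (χ : G → ℂ) x⁻¹ := by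
  classical
  haveI : M.IsPrime := hM.2.1.isPrime
  rw [← Lib.Block.sum_regInner_self hM hB, Finset.mul_sum]
  simp only [Lib.Block.finsum_mem_eq_sum_ite]
  rw [Finset.sum_comm]
  refine Finset.sum_congr rfl fun ξ _ => ?_
  by_cases h : ξ ∈ B
  · simp only [h, if_true]
    rw [Lib.Block.regInner_eq_classInner, classInner, ← mul_assoc,
      mul_inv_cancel₀ (Lib.Char.card_ne_zero_complex G), one_mul]
    exact Finset.sum_congr rfl fun x _ => by
      rw [Lib.Char.char_inv (Lib.Char.isCharacter_of_isIrr ξ.2)]
  · simp [h]

end Cfsg.Agent.S4667
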