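import Cfsg.Statements.S4668
import Cfsg.Agent.Lib.BrauerPairs.Chains

set_option autoImplicit false
open Cfsg

namespace Cfsg.Agent.S4668

/-- Fix a prime p and a maximal ideal M of the algebraic integers containing p. Let Q₀ < Q₁ < ⋯ < Q_m be a strictly increasing chain of p-subgroups of the finite group G and N the intersection of their normalizers. Then every block idempotent of N is supported on C_G(Q_m): for every p-block E of N, the idempotent coefficient of E vanishes at every element of N outside C_G(Q_m). -/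
theorem result {G : Type*} [Group G] [Fintype G] (p : ℕ) [Fact p.Prime] (M : Ideal Cfsg.AlgInt) (hM : Cfsg.IsPModular p M) (m : ℕ) (Q : Fin (m + 1) → Subgroup G) (hQ : StrictMono Q) (hQp : ∀ i, IsPGroup p (Q i)) (N : Subgroup G) (hN : ∀ g : G, g ∈ N ↔ ∀ i, g ∈ Subgroup.normalizer (Q i : Set G)) (E : Set (Cfsg.IrrCharacter N)) (hE : Cfsg.IsPBlock M E) (n : N) (hn : (n : G) ∉ Subgroup.centralizer (Q (Fin.last m) : Set G)) : Cfsg.blockCoeff E n = 0 := by
  have := hM.2.1.isPrime
  have hEc := Lib.BrauerPairs.isClassCoeff_bar (M := M) E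
  haveI : ((Subgroup.centralizer (Q (Fin.last m) : Set G)).subgroupOf N).Normal :=
    Subgroup.normal_subgroupOf_of_le_normalizer fun u hu =>
      Lib.BrauerPairs.mem_normalizer_centralizer ((hN u).1 hu _)
  refine Lib.BrauerPairs.blockCoeff_eq_zero_of_bar
    ((Subgroup.centralizer (Q (Fin.last m) : Set G)).subgroupOf N) hE (fun x hx => ?_)
    (fun h => hn (Subgroup.mem_subgroupOf.1 h))
  have h := Lib.BrauerPairs.supp_chain hM hQ.monotone hQp hN
    (a := Lib.BrauerPairs.emb N (Lib.BrauerPairs.bar M E))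
    (fun y hy => Lib.BrauerPairs.coeff_emb_of_not_mem _ _ hy)
    (fun u hu => Lib.BrauerPairs.invUnder_emb hEc hu)
    (by rw [IsIdempotentElem, ← map_mul, (Lib.BrauerPairs.isIdempotentElem_bar hE).eq])
    (Fin.last m) (x : G) (fun h => hx (Subgroup.mem_subgroupOf.2 h))
  rwa [Lib.BrauerPairs.coeff_emb_of_mem _ _ x.2] at h

end Cfsg.Agent.S4668
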