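import Cfsg.Statements.S4669
import Cfsg.Agent.Lib.Block.Contrib
import Cfsg.Agent.Lib.CharClifford.Divides

set_option autoImplicit false
open Cfsg

namespace Cfsg.Agent.S4669

/-- Fix a prime p and a maximal ideal M of the algebraic integers containing p. If the p-block B of the finite group G has a defect group P contained in the centre of G, then B has p-regular rank one (a single irreducible Brauer character). -/
theorem result {G : Type*} [Group G] [Fintype G] (p : ℕ) [Fact p.Prime] (M : Ideal Cfsg.AlgInt) (hM : Cfsg.IsPModular p M) (B : Set (Cfsg.IrrCharacter G)) (hB : Cfsg.IsPBlock M B) (P : Subgroup G) (hD : Cfsg.IsDefectGroup p M B P) (hPZ : P ≤ Subgroup.center G) : Cfsg.blockRank p B = 1 := by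
  classical
  haveI : M.IsPrime := hM.2.1.isPrime
  have hp : p.Prime := hM.1
  obtain ⟨hPp, hPc, -⟩ := Lib.Block.IsDefectGroup.props hM hB hD
  obtain ⟨χ, hχ, hχ0⟩ := Lib.Block.exists_height_zero hB p
  set d := Cfsg.blockDefect p B with hd
  have hind : (P.index).factorization p = (Nat.card G).factorization p - d := by
    rw [← Subgroup.card_mul_index P, Nat.factorization_mul Nat.card_pos.ne'
      Subgroup.index_ne_zero_of_finite, Finsupp.add_apply, hPc, hp.factorization_pow,
      Finsupp.single_eq_same, Nat.add_sub_cancel_left]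
  -- all heights vanish
  have hdeg : ∀ η ∈ B, (Cfsg.charDegree (η : G → ℂ)).factorization p = P.index.factorization p := by
    intro η hη
    refine le_antisymm ?_ ?_
    · refine (Nat.factorization_le_iff_dvd (Lib.Block.charDegree_pos η).ne'
        Subgroup.index_ne_zero_of_finite).2
        (Lib.CharClifford.degree_dvd_index_of_scalar η.2 (Lib.Block.irr_one_eq_natCast η) P ?_) p
      intro z hz
      have h := Lib.Block.normSq_char_center_mul η (hPZ hz) 1
      rw [mul_one, Complex.normSq_eq_norm_sq, Complex.normSq_eq_norm_sq] at h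
      exact (pow_left_inj₀ (norm_nonneg _) (norm_nonneg _) two_ne_zero).1 h
    · have h1 := Lib.Block.le_of_height_zero hχ0 hη
      have h2 := Lib.Block.blockDefect_eq_of_min (p := p) hχ hχ0
      have h3 := Lib.Block.factorization_charDegree_le χ p
      omega
  have hnorm : ∀ η ∈ B, (p : ℂ) ^ d * Lib.Block.regInner p (η : G → ℂ) (η : G → ℂ) = 1 := by
    intro η hη
    have h := (Lib.Block.central_defect_facts hp hPp hPZ η (hdeg η hη)).2
    rwa [hPc, Nat.cast_pow] at h
  have hprop : ∀ η ∈ B, Cfsg.pRegularPart p (η : G → ℂ) ∈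
      Submodule.span ℂ ({Cfsg.pRegularPart p (χ : G → ℂ)} : Set (G → ℂ)) := by
    intro η hη
    obtain ⟨z, hz⟩ := Lib.Block.exists_int_regInner (η := η) hM hB hd.symm hχ
    have hz' : (p : ℂ) ^ d * Lib.Block.regInner p (η : G → ℂ) (χ : G → ℂ) = (z : ℂ) := by
      rw [Lib.Block.regInner_comm hp η χ, hz]
    have hz0 : z ≠ 0 := fun h => Lib.Block.regInner_ne_zero_of_height_zero hM hB hχ hη hχ0
      ((mul_eq_zero.1 (by rw [hz', h, Int.cast_zero] :
        (p : ℂ) ^ d * Lib.Block.regInner p (η : G → ℂ) (χ : G → ℂ) = 0)).resolve_left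
        (pow_ne_zero _ (Nat.cast_ne_zero.2 hp.ne_zero)))
    set w := Cfsg.pRegularPart p (η : G → ℂ) - (z : ℂ) • Cfsg.pRegularPart p (χ : G → ℂ) with hw
    have hww : (p : ℂ) ^ d * Cfsg.classInner w w = ((1 - z ^ 2 : ℤ) : ℂ) := by
      rw [hw, Lib.Char.classInner_sub_left, Lib.Char.classInner_sub_right,
        Lib.Char.classInner_sub_right, Lib.Char.classInner_smul_left, Lib.Char.classInner_smul_left,
        Lib.Char.classInner_smul_right, Lib.Char.classInner_smul_right, map_intCast,
        Lib.Block.classInner_pRegularPart, Lib.Block.classInner_pRegularPart,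
        Lib.Block.classInner_pRegularPart, Lib.Block.classInner_pRegularPart]
      push_cast
      linear_combination hnorm η hη + (z : ℂ) ^ 2 * hnorm χ hχ - (z : ℂ) * hz' - (z : ℂ) * hz
    have hre : ((1 - z ^ 2 : ℤ) : ℝ) =
        (p : ℝ) ^ d * ((Nat.card G : ℝ)⁻¹ * ∑ x : G, Complex.normSq (w x)) := by
      apply Complex.ofReal_injective
      rw [Complex.ofReal_intCast, ← hww, Cfsg.classInner]
      push_cast
      simp only [Complex.mul_conj]
    have hnonneg : (0 : ℝ) ≤ ((1 - z ^ 2 : ℤ) : ℝ) := hre ▸ mul_nonneg (by positivity)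
      (mul_nonneg (by positivity) (Finset.sum_nonneg fun x _ => Complex.normSq_nonneg _))
    have h1 : (0 : ℤ) ≤ 1 - z ^ 2 := by exact_mod_cast hnonneg
    have h2 : 0 < z ^ 2 := sq_pos_of_ne_zero hz0
    have hzero : Cfsg.classInner w w = 0 := by
      rw [show (1 - z ^ 2 : ℤ) = 0 by omega, Int.cast_zero] at hww
      exact (mul_eq_zero.1 hww).resolve_left (pow_ne_zero _ (Nat.cast_ne_zero.2 hp.ne_zero))
    have hw0 := Lib.Char.eq_zero_of_classInner_self w hzero
    rw [hw, sub_eq_zero] at hw0
    rw [hw0]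
    exact Submodule.smul_mem _ _ (Submodule.subset_span rfl)
  have hne : Cfsg.pRegularPart p (χ : G → ℂ) ≠ 0 := fun h => by
    have h1 := congrFun h 1
    simp only [Lib.Block.pRegularPart_apply, orderOf_one, Nat.dvd_one, hp.ne_one, if_false,
      Pi.zero_apply] at h1
    exact Lib.Block.deg_ne_zero χ h1
  have hspan : Submodule.span ℂ ((fun η : Cfsg.IrrCharacter G =>
      Cfsg.pRegularPart p (η : G → ℂ)) '' B) =
      Submodule.span ℂ ({Cfsg.pRegularPart p (χ : G → ℂ)} : Set (G → ℂ)) := by
    refine le_antisymm (Submodule.span_le.2 ?_) (Submodule.span_mono ?_)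
    · rintro _ ⟨η, hη, rfl⟩
      exact hprop η hη
    · exact Set.singleton_subset_iff.2 ⟨χ, hχ, rfl⟩
  rw [Cfsg.blockRank, hspan, finrank_span_singleton hne]

end Cfsg.Agent.S4669
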