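import Cfsg.Statements.S4673
import Cfsg.Agent.Lib.BrauerPairs.Covering
import Cfsg.Agent.Lib.BrauerPairs.SubPairs

set_option autoImplicit false
open Cfsg

namespace Cfsg.Agent.S4673

open Lib.BrauerPairs in
theorem coeff_sandwich {M : Ideal AlgInt} [M.IsPrime] {G : Type*} [Group G] [Finite G]
    (T : Subgroup G) {E : MonoidAlgebra (Lib.Block.ResField M) G}
    (hE : ∀ y, y ∉ T → E.coeff y = 0) (hne : ∀ y, y ∉ T → E * cj y E = 0)
    (a : MonoidAlgebra (Lib.Block.ResField M) G) {x : G} (hx : x ∉ T) :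
    (E * a * E).coeff x = 0 := by
  classical
  haveI := Fintype.ofFinite G
  simp only [Lib.Block.coeff_mul_eq_sum', Finset.sum_mul]
  rw [Finset.sum_comm]
  refine Finset.sum_eq_zero fun w _ => ?_
  by_cases hw : w ∈ T
  · refine Finset.sum_eq_zero fun z _ => ?_
    by_cases hz : z ∈ T
    · rw [hE (x * z⁻¹ * w⁻¹) fun h => hx ?_, zero_mul, zero_mul]
      have := T.mul_mem (T.mul_mem h hw) hz
      simpa [mul_assoc] using this
    · rw [hE z hz, mul_zero]
  · have h := congrArg (fun b : MonoidAlgebra (Lib.Block.ResField M) G => b.coeff (x * w⁻¹)) (hne w hw)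
    simp only [Lib.Block.coeff_mul_eq_sum', coeff_cj] at h
    have he : ∑ z : G, E.coeff (x * z⁻¹ * w⁻¹) * E.coeff z = 0 := by
      refine Eq.trans ?_ (h.trans (by simp))
      refine Fintype.sum_equiv (MulAut.conj w).toEquiv _ _ fun z => ?_
      congr 2 <;> simp [mul_assoc]
    calc ∑ z : G, E.coeff (x * z⁻¹ * w⁻¹) * a.coeff w * E.coeff z
        = a.coeff w * ∑ z : G, E.coeff (x * z⁻¹ * w⁻¹) * E.coeff z := by
          rw [Finset.mul_sum]; exact Finset.sum_congr rfl fun z _ => by ring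
      _ = 0 := by rw [he, mul_zero]

/-- Fix a prime p and a maximal ideal M of the algebraic integers containing p. Let N ≤ L be normal subgroups of the finite group G with L/N a p-group, let B be a p-block of G covering the p-block c of N (some member of B has a constituent in c on restriction to N), and suppose that N contains a defect group of B. Then the stabilizer T of c in G satisfies T ∩ L = N. -/
theorem result {G : Type*} [Group G] [Fintype G] (p : ℕ) [Fact p.Prime] (M : Ideal Cfsg.AlgInt) (hM : Cfsg.IsPModular p M) (N L : Subgroup G) [N.Normal] [L.Normal] [Fintype N] (hNL : N ≤ L) (hLN : ∃ k : ℕ, (N.subgroupOf L).index = p ^ k) (B : Set (Cfsg.IrrCharacter G)) (hB : Cfsg.IsPBlock M B) (c : Set (Cfsg.IrrCharacter N)) (hc : Cfsg.IsPBlock M c) (hcov : (∃ χ ∈ B, ∃ θ ∈ c, Cfsg.classInner (fun n : N => (χ : G → ℂ) n) (θ : N → ℂ) ≠ 0)) (hD : ∃ D : Subgroup G, Cfsg.IsDefectGroup p M B D ∧ D ≤ N) (T : Subgroup G) (hT : ∀ x : G, x ∈ T ↔ Cfsg.StabilizesBlock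 N c x) : T ⊓ L = N := by
  classical
  haveI : M.IsPrime := hM.2.1.isPrime
  obtain ⟨D, hD, hDN⟩ := hD
  obtain ⟨k, hk⟩ := hLN
  set E := Lib.BrauerPairs.emb N (Lib.BrauerPairs.bar M c) with hEdef
  have hfixN : ∀ n ∈ N, Lib.BrauerPairs.cj n E = E := fun n hn =>
    Lib.BrauerPairs.invUnder_emb (Lib.BrauerPairs.isClassCoeff_bar c) hn
  have hTfix : ∀ x, x ∈ T ↔ Lib.BrauerPairs.cj x E = E := fun x =>
    (hT x).trans (Lib.BrauerPairs.stabilizesBlock_normal_iff N hc x)
  have hNT : N ≤ T := fun n hn => (hTfix n).2 (hfixN n hn)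
  refine le_antisymm ?_ (le_inf hNT hNL)
  generalize hKdef : T ⊓ L = K
  have hKT : K ≤ T := hKdef ▸ inf_le_left
  have hKL : K ≤ L := hKdef ▸ inf_le_right
  have hNK : N ≤ K := hKdef ▸ le_inf hNT hNL
  have hnorm : T ≤ Subgroup.normalizer (K : Set G) := by
    subst hKdef
    intro t ht
    refine Subgroup.mem_normalizer_iff.2 fun g => ?_
    simp only [Subgroup.mem_inf]
    refine and_congr ⟨fun h => T.mul_mem (T.mul_mem ht h) (T.inv_mem ht), fun h => ?_⟩
      ⟨fun h => (inferInstance : L.Normal).conj_mem g h t, fun h => ?_⟩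
    · have := T.mul_mem (T.mul_mem (T.inv_mem ht) h) ht
      simpa [mul_assoc] using this
    · have := (inferInstance : L.Normal).conj_mem _ h t⁻¹
      simpa [mul_assoc] using this
  obtain ⟨j, -, hj⟩ := (Nat.dvd_prime_pow hM.1).1
    (show (N.subgroupOf K).index ∣ p ^ k from hk ▸ Dvd.intro _ (Subgroup.relIndex_mul_relIndex N K L hNK hKL))
  set e := Subgroup.subgroupOfEquivOfLe hNK with he
  set c' := Lib.BrauerPairs.mapBlock e.symm c with hc'def
  have hc' : Cfsg.IsPBlock M c' := Lib.BrauerPairs.isPBlock_mapBlock _ hc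
  have hEK : Lib.BrauerPairs.emb K (Lib.BrauerPairs.emb (N.subgroupOf K) (Lib.BrauerPairs.bar M c')) = E := by
    refine Lib.Block.alg_ext fun y => ?_
    by_cases hy : y ∈ K
    · rw [Lib.BrauerPairs.coeff_emb_of_mem _ _ hy]
      by_cases hyN : y ∈ N
      · rw [Lib.BrauerPairs.coeff_emb_of_mem (N.subgroupOf K) _ (show (⟨y, hy⟩ : K) ∈ N.subgroupOf K from hyN),
          hEdef, Lib.BrauerPairs.coeff_emb_of_mem _ _ hyN,
          ← Lib.BrauerPairs.coeff_bar_mapBlock e.symm c ⟨y, hyN⟩]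
        rfl
      · rw [Lib.BrauerPairs.coeff_emb_of_not_mem (N.subgroupOf K) _ (show (⟨y, hy⟩ : K) ∉ N.subgroupOf K from hyN),
          hEdef, Lib.BrauerPairs.coeff_emb_of_not_mem _ _ hyN]
    · rw [Lib.BrauerPairs.coeff_emb_of_not_mem _ _ hy, hEdef,
        Lib.BrauerPairs.coeff_emb_of_not_mem _ _ fun h => hy (hNK h)]
  have hst : ∀ x : K, Cfsg.StabilizesBlock (N.subgroupOf K) c' x := fun x =>
    (Lib.BrauerPairs.stabilizesBlock_normal_iff _ hc' x).2 (Lib.BrauerPairs.emb_injective K (by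
      rw [← Lib.BrauerPairs.cj_emb, hEK, (hTfix _).1 (hKT x.2)]))
  obtain ⟨b, hb, hcoe⟩ := Lib.BrauerPairs.exists_block_of_stable (N.subgroupOf K) hM hj hc' hst
  have hbK : Lib.BrauerPairs.emb K (Lib.BrauerPairs.bar M b) = E := by
    rw [← hEK, ← Lib.BrauerPairs.toF_fromSub_eIdem (N.subgroupOf K) (c := c')]
    congr 1
    refine Lib.Block.alg_ext fun x => ?_
    rw [Lib.Block.coeff_toF, Lib.BrauerPairs.coeff_fromSub_eIdem, Lib.BrauerPairs.coeff_bar, hcoe]
  obtain ⟨P, hP⟩ := Lib.Block.exists_isDefectGroup hM hb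
  have htop := (Lib.BrauerPairs.defectGroup_stable (N.subgroupOf K) hM hj hc' hst hb hcoe hP).1
  have hPp := (Lib.Block.IsDefectGroup.props hM hb hP).1
  -- the idempotent
  have hBfix : ∀ x : G, Lib.BrauerPairs.cj x (Lib.BrauerPairs.bar M B) = Lib.BrauerPairs.bar M B :=
    Lib.BrauerPairs.isClassCoeff_iff_cj.1 (Lib.BrauerPairs.isClassCoeff_bar B)
  have hEi : IsIdempotentElem E := by
    rw [IsIdempotentElem, hEdef, ← map_mul, (Lib.BrauerPairs.isIdempotentElem_bar hc).eq]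
  have hcomm : Commute (Lib.BrauerPairs.bar M B) E := (Lib.BrauerPairs.isClassCoeff_bar B).commute _
  set z := Lib.BrauerPairs.bar M B * E with hzdef
  have hEz : E * z = z := by rw [hzdef, ← mul_assoc, ← hcomm.eq, mul_assoc, hEi.eq]
  have hsupp : ∀ x, x ∉ T → z.coeff x = 0 := by
    intro x hx
    rw [show z = E * Lib.BrauerPairs.bar M B * E by rw [← hcomm.eq, mul_assoc, hEi.eq]]
    refine coeff_sandwich T (fun y hy => ?_) (fun y hy => ?_) _ hx
    · rw [hEdef, Lib.BrauerPairs.coeff_emb_of_not_mem _ _ fun h => hy (hNT h)]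
    · rw [hEdef, ← Lib.BrauerPairs.emb_mapBlock_normEquiv, ← map_mul,
        Lib.BrauerPairs.bar_mul_bar_of_ne hc (Lib.BrauerPairs.isPBlock_mapBlock _ hc) ?_, map_zero]
      intro h
      exact hy ((hTfix y).2 (by rw [hEdef, ← Lib.BrauerPairs.emb_mapBlock_normEquiv, ← h]))
  have hbr := Lib.BrauerPairs.br_defect_ne_zero hM hKT hnorm hb hP
    (fun n hn => by rw [hzdef, map_mul, hBfix, (hTfix n).1 (hKT hn)]) hsupp
    ((Lib.BrauerPairs.isIdempotentElem_bar hB).mul_of_commute hcomm hEi) (by rw [hbK, hEz])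
    (Lib.BrauerPairs.bar_mul_ne_zero_of_cover N hM hB hc hcov)
  obtain ⟨t, ht⟩ := Lib.BrauerPairs.conjLE_of_br_bar_ne_zero hM hB hD (hPp.map K.subtype)
    (fun h => hbr (by
      rw [hzdef, Lib.BrauerPairs.br_mul hM (hPp.map _) (fun u _ => hBfix u)
        (fun u hu => (hTfix u).1 (hKT (Subgroup.map_subtype_le P hu))), h, zero_mul]))
  have hPN : P ≤ N.subgroupOf K := fun u hu => by
    have h : t * (u : G) * t⁻¹ ∈ N := hDN (ht ⟨(u : G), ⟨u, hu, rfl⟩, rfl⟩)
    have := (inferInstance : N.Normal).conj_mem _ h t⁻¹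
    simpa [mul_assoc, Subgroup.mem_subgroupOf] using this
  rw [sup_eq_left.2 hPN, Subgroup.subgroupOf_eq_top] at htop
  exact htop

end Cfsg.Agent.S4673
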