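import Cfsg.Statements.S4674
import Cfsg.Agent.Lib.BrauerPairs.CoveringNormalizer
import Cfsg.Agent.Lib.CharClifford.Basic

set_option autoImplicit false
open Cfsg

namespace Cfsg.Agent.S4674

/-- Fix a prime p and a maximal ideal M of the algebraic integers containing p. Let N be a normal subgroup of the finite group G, Q a p-subgroup of N, H = N_G(Q) and L = H ∩ N = N_N(Q). Let d be a p-block of N with defect group Q and e the p-block of L with defect group Q that induces d inside N (its Brauer correspondent). Then block induction from H to G is a bijection from the p-blocks of H covering e onto the p-blocks of G covering d: every block of H covering e induces exactly one block of G, and that block covers d; and every block of G covering d is induced by exactly one block of H covering e. -/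
theorem result {G : Type*} [Group G] [Fintype G] (p : ℕ) [Fact p.Prime] (M : Ideal Cfsg.AlgInt) (hM : Cfsg.IsPModular p M) (N : Subgroup G) [N.Normal] [Fintype N] (Q : Subgroup G) (hQ : IsPGroup p Q) (hQN : Q ≤ N) [Fintype ↥(Subgroup.normalizer (Q : Set G) ⊓ N)] (d : Set (Cfsg.IrrCharacter N)) (hd : Cfsg.IsPBlock M d) (hdQ : Cfsg.IsDefectGroup p M d (Q.subgroupOf N)) (e : Set (Cfsg.IrrCharacter ↥(Subgroup.normalizer (Q : Set G) ⊓ N))) (he : Cfsg.IsPBlock M e) (heQ : Cfsg.IsDefectGroup p M e (Q.subgroupOf (Subgroup.normalizer (Q : Set G) ⊓ N))) (hed : Cfsg.IsInducedBlockIn M N (Subgroup.normalizer (Q : Set G) ⊓ N) e d) : (∀ c : Set (Cfsg.IrrCharacter ↥(Subgroup.normalizer (Q : Set G))), Cfsg.IsPBlock M c → (∃ ψ ∈ c, ∃ ξ ∈ e, Cfsg.classInner (fun l : ↥(Subgroup.normalizer (Q : Set G) ⊓ N) => (ψ : ↥(Subgroup.normalizer (Q : Set G)) → ℂ) (Subgroup.inclusion inf_le_left l)) (ξ : ↥(Subgroup.normalizer (Q : Set G) ⊓ N) → ℂ) ≠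 0) → ∃! B : Set (Cfsg.IrrCharacter G), Cfsg.IsInducedBlock M (Subgroup.normalizer (Q : Set G)) c B ∧ (∃ χ ∈ B, ∃ θ ∈ d, Cfsg.classInner (fun n : N => (χ : G → ℂ) n) (θ : N → ℂ) ≠ 0)) ∧ (∀ B : Set (Cfsg.IrrCharacter G), Cfsg.IsPBlock M B → (∃ χ ∈ B, ∃ θ ∈ d, Cfsg.classInner (fun n : N => (χ : G → ℂ) n) (θ : N → ℂ) ≠ 0) → ∃! c : Set (Cfsg.IrrCharacter ↥(Subgroup.normalizer (Q : Set G))), (Cfsg.IsPBlock M c ∧ ∃ ψ ∈ c, ∃ ξ ∈ e, Cfsg.classInner (fun l : ↥(Subgroup.normalizer (Q : Set G) ⊓ N) => (ψ : ↥(Subgroup.normalizer (Q : Set G)) → ℂ) (Subgroup.inclusion inf_le_left l)) (ξ : ↥(Subgroup.normalizer (Q : Set G) ⊓ N) → ℂ) ≠ 0) ∧ Cfsg.IsInducedBlock M (Subgroup.normalizer (Q : Set G)) c B) := by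
  classical
  haveI : M.IsPrime := hM.2.1.isPrime
  haveI := Fintype.ofFinite ↥(Subgroup.normalizer (Q : Set G))
  haveI := Fintype.ofFinite ↥(N.subgroupOf (Subgroup.normalizer (Q : Set G)))
  let φ : ↥(Subgroup.normalizer (Q : Set G) ⊓ N) ≃* ↥(N.subgroupOf (Subgroup.normalizer (Q : Set G))) :=
    { toFun := fun x => ⟨⟨x, x.2.1⟩, x.2.2⟩
      invFun := fun y => ⟨((y : Subgroup.normalizer (Q : Set G)) : G), (y : Subgroup.normalizer (Q : Set G)).2, y.2⟩
      left_inv := fun _ => rfl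
      right_inv := fun _ => rfl
      map_mul' := fun _ _ => rfl }
  set e' := Lib.BrauerPairs.mapBlock φ e with he'def
  have he' : Cfsg.IsPBlock M e' := Lib.BrauerPairs.isPBlock_mapBlock φ he
  have heQ' : Cfsg.IsDefectGroup p M e'
      ((Q.subgroupOf (Subgroup.normalizer (Q : Set G))).subgroupOf
        (N.subgroupOf (Subgroup.normalizer (Q : Set G)))) := by
    convert Lib.BrauerPairs.isDefectGroup_mapBlock hM φ he heQ
    ext y
    rw [Subgroup.mem_map_equiv]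
    rfl
  -- inside `N`
  let Q₀ := Q.subgroupOf N
  have hmapQ : Q₀.map N.subtype = Q := Subgroup.map_subgroupOf_eq_of_le hQN
  have hnorm : ∀ x : N, x ∈ Subgroup.normalizer (Q₀ : Set N) ↔ (x : G) ∈ Subgroup.normalizer (Q : Set G) := by
    intro x
    rw [Subgroup.mem_normalizer_iff, Subgroup.mem_normalizer_iff]
    refine ⟨fun h g => ⟨fun hg => (h ⟨g, hQN hg⟩).1 hg, fun hg => ?_⟩, fun h y => h (y : G)⟩
    have hgN : g ∈ N := by
      have := N.mul_mem (N.mul_mem (N.inv_mem x.2) (hQN hg)) x.2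
      simpa [mul_assoc] using this
    exact (h ⟨g, hgN⟩).2 hg
  let ψ : ↥(Subgroup.normalizer (Q : Set G) ⊓ N) ≃* ↥(Subgroup.normalizer (Q₀ : Set N)) :=
    { toFun := fun x => ⟨⟨x, x.2.2⟩, (hnorm _).2 x.2.1⟩
      invFun := fun y => ⟨((y : N) : G), (hnorm _).1 y.2, (y : N).2⟩
      left_inv := fun _ => rfl
      right_inv := fun _ => rfl
      map_mul' := fun _ _ => rfl }
  set e₀ := Lib.BrauerPairs.mapBlock ψ e with he₀def
  have heQ₀ : Cfsg.IsDefectGroup p M e₀ (Q₀.subgroupOf (Subgroup.normalizer (Q₀ : Set N))) := by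
    convert Lib.BrauerPairs.isDefectGroup_mapBlock hM ψ he heQ
    ext y
    rw [Subgroup.mem_map_equiv]
    rfl
  have hind₀ : Cfsg.IsInducedBlock M (Subgroup.normalizer (Q₀ : Set N)) e₀ d := by
    refine ⟨Lib.BrauerPairs.isPBlock_mapBlock ψ he, hd, ?_⟩
    rintro _ ⟨ξ, hξ, rfl⟩ χ hχ h
    have heq : Cfsg.inducedCentralChar (Subgroup.normalizer (Q₀ : Set N))
        (Lib.BrauerPairs.mapIrr ψ ξ : ↥(Subgroup.normalizer (Q₀ : Set N)) → ℂ) h =
        Cfsg.inducedCentralCharIn N (Subgroup.normalizer (Q : Set G) ⊓ N)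
          (ξ : ↥(Subgroup.normalizer (Q : Set G) ⊓ N) → ℂ) (h : G) := by
      have hiff : ∀ k, IsConj h ((ψ k : ↥(Subgroup.normalizer (Q₀ : Set N))) : N) ↔
          ∃ x : N, (x : G) * (k : G) * (x : G)⁻¹ = (h : G) := by
        intro k
        rw [isConj_comm, isConj_iff]
        exact exists_congr fun x => ⟨fun hx => congrArg Subtype.val hx, fun hx => Subtype.ext hx⟩
      refine (finsum_mem_eq_of_bijOn ψ ⟨fun k hk => (hiff k).2 hk, ψ.injective.injOn, fun y hy => ?_⟩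
        fun k _ => ?_).symm
      · obtain ⟨k, rfl⟩ := ψ.surjective y
        exact ⟨k, (hiff k).1 hy, rfl⟩
      · rw [Lib.BrauerPairs.mapIrr_apply, ← map_one ψ, Lib.BrauerPairs.mapIrr_apply]
    rw [heq]
    exact hed.2.2 ξ hξ χ hχ h
  have hde : Lib.BrauerPairs.br Q (Lib.BrauerPairs.emb N (Lib.BrauerPairs.bar M d)) =
      Lib.BrauerPairs.emb (Subgroup.normalizer (Q : Set G))
        (Lib.BrauerPairs.emb (N.subgroupOf (Subgroup.normalizer (Q : Set G))) (Lib.BrauerPairs.bar M e')) := by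
    have h := Lib.BrauerPairs.br_emb Q₀ (Lib.BrauerPairs.bar M d)
    rw [hmapQ, Lib.BrauerPairs.br_bar_eq_of_induced hM (Q := Q₀) hQ.comap_subtype hind₀ heQ₀ hdQ,
      Lib.BrauerPairs.emb_emb_mapBlock ψ.symm (fun _ => rfl)] at h
    rw [h, Lib.BrauerPairs.emb_emb_mapBlock φ.symm (fun _ => rfl), he₀def, he'def]
    have key : ∀ {A : Type _} [Group A] [Finite A] (f : ↥(Subgroup.normalizer (Q : Set G) ⊓ N) ≃* A),
        Lib.BrauerPairs.mapBlock f.symm (Lib.BrauerPairs.mapBlock f e) = e := fun f => by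
      conv_rhs => rw [← Lib.BrauerPairs.mapBlock_symm f.symm e]
      rw [MulEquiv.symm_symm]
    rw [key, key]
  have hcovH : ∀ c : Set (Cfsg.IrrCharacter ↥(Subgroup.normalizer (Q : Set G))), Cfsg.IsPBlock M c →
      ((∃ χ ∈ c, ∃ ξ ∈ e, Cfsg.classInner (fun l : ↥(Subgroup.normalizer (Q : Set G) ⊓ N) =>
          (χ : ↥(Subgroup.normalizer (Q : Set G)) → ℂ) (Subgroup.inclusion inf_le_left l))
          (ξ : ↥(Subgroup.normalizer (Q : Set G) ⊓ N) → ℂ) ≠ 0) ↔
        Lib.BrauerPairs.bar M c * Lib.BrauerPairs.emb _ (Lib.BrauerPairs.bar M e') ≠ 0) := by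
    intro c hc
    rw [← Lib.BrauerPairs.covers_iff _ hM hc he']
    refine exists_congr fun χ => and_congr_right fun _ => ?_
    have key : ∀ ξ : Cfsg.IrrCharacter ↥(Subgroup.normalizer (Q : Set G) ⊓ N),
        Cfsg.classInner (fun n : ↥(N.subgroupOf (Subgroup.normalizer (Q : Set G))) =>
          (χ : ↥(Subgroup.normalizer (Q : Set G)) → ℂ) n) (Lib.BrauerPairs.mapIrr φ ξ : _ → ℂ) =
        Cfsg.classInner (fun l : ↥(Subgroup.normalizer (Q : Set G) ⊓ N) =>
          (χ : ↥(Subgroup.normalizer (Q : Set G)) → ℂ) (Subgroup.inclusion inf_le_left l))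
          (ξ : ↥(Subgroup.normalizer (Q : Set G) ⊓ N) → ℂ) := by
      intro ξ
      rw [← Lib.CharClifford.classInner_comp_equiv φ]
      congr 1
    constructor
    · rintro ⟨ξ, hξ, hne⟩
      exact ⟨_, ⟨ξ, hξ, rfl⟩, by rwa [key]⟩
    · rintro ⟨_, ⟨ξ, hξ, rfl⟩, hne⟩
      exact ⟨ξ, hξ, by rwa [key] at hne⟩
  refine ⟨fun c hc hcov => ?_, fun B hB hcov => ?_⟩
  · obtain ⟨B, hind, hB⟩ := Lib.BrauerPairs.exists_induced_of_cover N hM hQ hQN hde hc ((hcovH c hc).1 hcov)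
    exact ⟨B, ⟨hind, (Lib.BrauerPairs.covers_iff N hM hind.2.1 hd).2 hB⟩,
      fun B' hB' => Lib.BrauerPairs.induced_block_unique hB'.1 hind⟩
  · obtain ⟨c, ⟨hc, hcov'⟩, hind⟩ := Lib.BrauerPairs.exists_covering_inducing N hM hQ hQN hd hdQ hde hB
      ((Lib.BrauerPairs.covers_iff N hM hB hd).1 hcov)
    refine ⟨c, ⟨⟨hc, (hcovH c hc).2 hcov'⟩, hind⟩, ?_⟩
    rintro c₂ ⟨⟨hc₂, hcov₂⟩, hind₂⟩
    exact Lib.BrauerPairs.covering_inducing_unique N hM hQ he' heQ' hQN hc₂ ((hcovH c₂ hc₂).1 hcov₂)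
      hc hcov' hind₂ hind

end Cfsg.Agent.S4674
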