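import Cfsg.Statements.S4675
import Cfsg.Agent.Lib.Block.Contrib

set_option autoImplicit false
open Cfsg

namespace Cfsg.Agent.S4675

/-- Fix a prime p and a maximal ideal M of the algebraic integers containing p. Let B be a p-block of the finite group G with defect group P and p-regular rank one (a single irreducible Brauer character). Then there are a function φ on G that is, on the p-regular elements, an integer combination of the members of B, and natural numbers d_χ (χ ∈ B), such that every χ ∈ B agrees with d_χ·φ on the p-regular elements and Σ_{χ ∈ B} d_χ² equals the order of P (the single Cartan invariant of B is the order of P). -/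
theorem result {G : Type*} [Group G] [Fintype G] (p : ℕ) [Fact p.Prime] (M : Ideal Cfsg.AlgInt) (hM : Cfsg.IsPModular p M) (B : Set (Cfsg.IrrCharacter G)) (hB : Cfsg.IsPBlock M B) (P : Subgroup G) (hP : Cfsg.IsDefectGroup p M B P) (hl : Cfsg.blockRank p B = 1) : ∃ φ : G → ℂ, ∃ d : Cfsg.IrrCharacter G → ℕ, (∃ n : Cfsg.IrrCharacter G → ℤ, ∀ x : G, Cfsg.IsPRegular p x → φ x = ∑ᶠ ψ ∈ B, (n ψ : ℂ) * (ψ : G → ℂ) x) ∧ (∀ χ ∈ B, ∀ x : G, Cfsg.IsPRegular p x → (χ : G → ℂ) x = (d χ : ℂ) * φ x) ∧ ∑ᶠ χ ∈ B, d χ ^ 2 = Nat.card P := by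
  classical
  haveI : M.IsPrime := hM.2.1.isPrime
  haveI := Fintype.ofFinite B
  have hp : p.Prime := hM.1
  obtain ⟨-, hcard, -⟩ := Lib.Block.IsDefectGroup.props hM hB hP
  obtain ⟨χ₀, hχ₀, h00⟩ := Lib.Block.exists_height_zero hB p
  set v : B → ℤ := fun χ => (Cfsg.charDegree ((χ : Cfsg.IrrCharacter G) : G → ℂ) : ℤ) with hv
  set γ := Submodule.IsPrincipal.generator (Ideal.span (Set.range v)) with hγ
  obtain ⟨n, hn⟩ : ∃ n : B → ℤ, ∑ χ, n χ * v χ = γ :=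
    Ideal.mem_span_range_iff_exists_fun.1 (Submodule.IsPrincipal.generator_mem _)
  have hdvd : ∀ χ : B, γ ∣ v χ := fun χ =>
    (Submodule.IsPrincipal.mem_iff_generator_dvd _).1 (Ideal.subset_span ⟨χ, rfl⟩)
  have hγ0 : γ ≠ 0 := fun h => by
    have := hdvd ⟨χ₀, hχ₀⟩
    rw [h, zero_dvd_iff, hv, Nat.cast_eq_zero] at this
    exact (Lib.Block.charDegree_pos χ₀).ne' this
  -- the degrees divided by their greatest common divisor
  set d : Cfsg.IrrCharacter G → ℕ := fun χ => Cfsg.charDegree (χ : G → ℂ) / γ.natAbs with hd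
  have hdγ : ∀ χ ∈ B, (d χ : ℤ) * (γ.natAbs : ℤ) = (Cfsg.charDegree (χ : G → ℂ) : ℤ) := by
    intro χ hχ
    rw [hd, ← Nat.cast_mul, Nat.div_mul_cancel]
    have h := hdvd ⟨χ, hχ⟩
    rwa [hv, Int.dvd_natCast] at h
  set N : Cfsg.IrrCharacter G → ℤ := fun χ => if h : χ ∈ B then γ.sign * n ⟨χ, h⟩ else 0 with hN
  have hbez : ∑ χ : Cfsg.IrrCharacter G, (if χ ∈ B then N χ * (d χ : ℤ) else 0) = 1 := by
    have h : (∑ χ : Cfsg.IrrCharacter G, (if χ ∈ B then N χ * (d χ : ℤ) else 0)) * (γ.natAbs : ℤ) =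
        1 * (γ.natAbs : ℤ) := by
      rw [one_mul, ← Int.sign_mul_self_eq_natAbs γ]
      conv_rhs => arg 2; rw [← hn]
      rw [Finset.sum_mul, Finset.mul_sum, ← Finset.sum_subtype (Finset.univ.filter (· ∈ B))
        (p := (· ∈ B)) (by simp) (fun χ => γ.sign * ((if h : χ ∈ B then n ⟨χ, h⟩ else 0) *
          (Cfsg.charDegree (χ : G → ℂ) : ℤ))) |>.trans (Finset.sum_congr rfl fun χ _ => by
            simp [hv, χ.2]), Finset.sum_filter]
      refine Finset.sum_congr rfl fun χ _ => ?_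
      split_ifs with hχ
      · rw [Int.sign_mul_self_eq_natAbs, mul_assoc, hdγ χ hχ, hN]
        simp only [dif_pos hχ]
        ring
      · rw [zero_mul]
    exact mul_right_cancel₀ (by exact_mod_cast Int.natAbs_ne_zero.2 hγ0) h
  -- proportionality on the regular elements
  have hreg0 : Cfsg.pRegularPart p (χ₀ : G → ℂ) ≠ 0 := fun h => by
    have h1 := congrFun h 1
    simp only [Lib.Block.pRegularPart_apply, orderOf_one, Nat.dvd_one, hp.ne_one, if_false,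
      Pi.zero_apply] at h1
    exact Lib.Block.deg_ne_zero χ₀ h1
  have hprop : ∀ χ ∈ B, Cfsg.pRegularPart p (χ : G → ℂ) =
      ((χ : G → ℂ) 1 / (χ₀ : G → ℂ) 1) • Cfsg.pRegularPart p (χ₀ : G → ℂ) := by
    intro χ hχ
    obtain ⟨c, hc⟩ := exists_smul_eq_of_finrank_eq_one (K := ℂ) hl
      (x := (⟨_, Submodule.subset_span ⟨χ₀, hχ₀, rfl⟩⟩ : Lib.Block.regSpan p B))
      (fun h => hreg0 (congrArg Subtype.val h))
      (⟨_, Submodule.subset_span ⟨χ, hχ, rfl⟩⟩ : Lib.Block.regSpan p B)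
    have hc' : c • Cfsg.pRegularPart p (χ₀ : G → ℂ) = Cfsg.pRegularPart p (χ : G → ℂ) :=
      congrArg Subtype.val hc
    have h1 := congrFun hc' 1
    simp only [Pi.smul_apply, smul_eq_mul, Lib.Block.pRegularPart_apply, orderOf_one, Nat.dvd_one,
      hp.ne_one, if_false] at h1
    rw [← hc', ← h1, mul_div_cancel_right₀ _ (Lib.Block.deg_ne_zero χ₀)]
  refine ⟨fun x => ∑ᶠ ψ ∈ B, (N ψ : ℂ) * (ψ : G → ℂ) x, d, ⟨N, fun x _ => rfl⟩, ?_, ?_⟩
  · intro χ hχ x hx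
    have hval : ∀ ψ ∈ B, (ψ : G → ℂ) x = (ψ : G → ℂ) 1 / (χ₀ : G → ℂ) 1 * (χ₀ : G → ℂ) x := by
      intro ψ hψ
      have h := congrFun (hprop ψ hψ) x
      simpa [Lib.Block.pRegularPart_apply, show ¬ p ∣ orderOf x from hx] using h
    have hb : ((∑ ψ : Cfsg.IrrCharacter G, (if ψ ∈ B then N ψ * (d ψ : ℤ) else 0) : ℤ) : ℂ) = 1 := by
      rw [hbez, Int.cast_one]
    dsimp only
    rw [Lib.Block.finsum_mem_eq_sum_ite, hval χ hχ, ← mul_one ((χ : G → ℂ) 1 / (χ₀ : G → ℂ) 1 * _),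
      ← hb, Int.cast_sum, Finset.mul_sum, Finset.mul_sum]
    refine Finset.sum_congr rfl fun ψ _ => ?_
    split_ifs with hψ
    · rw [hval ψ hψ, Int.cast_mul, Lib.Block.irr_one_eq_natCast ψ, Lib.Block.irr_one_eq_natCast χ,
        ← Int.cast_natCast (Cfsg.charDegree (ψ : G → ℂ)), ← hdγ ψ hψ,
        ← Int.cast_natCast (Cfsg.charDegree (χ : G → ℂ)), ← hdγ χ hχ]
      push_cast
      ring
    · simp
  -- the Cartan invariant
  have h0deg := Lib.Block.deg_ne_zero χ₀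
  set r := Lib.Block.regInner p (χ₀ : G → ℂ) (χ₀ : G → ℂ) with hr
  have hγC : ((γ.natAbs : ℤ) : ℂ) ≠ 0 := by exact_mod_cast Int.natAbs_ne_zero.2 hγ0
  have hdeg : ∀ χ ∈ B, (χ : G → ℂ) 1 = (d χ : ℂ) * ((γ.natAbs : ℤ) : ℂ) := by
    intro χ hχ
    rw [Lib.Block.irr_one_eq_natCast χ, ← Int.cast_natCast (Cfsg.charDegree (χ : G → ℂ)),
      ← hdγ χ hχ]
    push_cast
    ring
  have hd0 : (d χ₀ : ℂ) ≠ 0 := fun h => h0deg (by rw [hdeg χ₀ hχ₀, h, zero_mul])
  have hrr : ∀ χ ∈ B, ∀ ψ ∈ B, Lib.Block.regInner p (χ : G → ℂ) (ψ : G → ℂ) =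
      (d χ : ℂ) * (d ψ : ℂ) * (r / (d χ₀ : ℂ) ^ 2) := by
    intro χ hχ ψ hψ
    rw [← Lib.Block.classInner_pRegularPart, hprop χ hχ, hprop ψ hψ,
      Lib.Char.classInner_smul_left, Lib.Char.classInner_smul_right,
      Lib.Block.classInner_pRegularPart, map_div₀, Lib.Block.irr_one_eq_natCast χ,
      Lib.Block.irr_one_eq_natCast ψ, Lib.Block.irr_one_eq_natCast χ₀, Complex.conj_natCast,
      Complex.conj_natCast, ← Lib.Block.irr_one_eq_natCast χ, ← Lib.Block.irr_one_eq_natCast ψ,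
      ← Lib.Block.irr_one_eq_natCast χ₀, hdeg χ hχ, hdeg ψ hψ, hdeg χ₀ hχ₀, ← hr]
    field_simp
  set D : ℕ := ∑ᶠ χ ∈ B, d χ ^ 2 with hD
  have hDr : (D : ℂ) * (r / (d χ₀ : ℂ) ^ 2) = 1 := by
    have h := Lib.Block.sum_regInner_self hM hB
    rw [hl, Nat.cast_one] at h
    rw [← h, hD, finsum_mem_def, finsum_eq_sum_of_fintype, Nat.cast_sum, Finset.sum_mul]
    refine Finset.sum_congr rfl fun χ _ => ?_
    split_ifs with hχ
    · rw [Set.indicator_of_mem hχ, hrr χ hχ χ hχ, Nat.cast_pow, sq]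
    · rw [Set.indicator_of_notMem hχ, Nat.cast_zero, zero_mul]
  set k := Cfsg.blockDefect p B with hk
  have hz : ∀ χ, χ ∈ B → ∀ ψ : Cfsg.IrrCharacter G, ∃ z : ℤ,
      (p : ℂ) ^ k * Lib.Block.regInner p (χ : G → ℂ) (ψ : G → ℂ) = (z : ℂ) :=
    fun χ hχ ψ => Lib.Block.exists_int_regInner (η := ψ) hM hB hk.symm hχ
  choose! z hz using hz
  set e : ℤ := ∑ χ : Cfsg.IrrCharacter G, ∑ ψ : Cfsg.IrrCharacter G,
    (if χ ∈ B ∧ ψ ∈ B then N χ * N ψ * z χ ψ else 0) with he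
  have hee : (e : ℂ) = (p : ℂ) ^ k * (r / (d χ₀ : ℂ) ^ 2) := by
    have hb : ((∑ ψ : Cfsg.IrrCharacter G, (if ψ ∈ B then N ψ * (d ψ : ℤ) else 0) : ℤ) : ℂ) = 1 := by
      rw [hbez, Int.cast_one]
    calc (e : ℂ) = ((∑ χ : Cfsg.IrrCharacter G, (if χ ∈ B then N χ * (d χ : ℤ) else 0) : ℤ) : ℂ) *
          ((∑ ψ : Cfsg.IrrCharacter G, (if ψ ∈ B then N ψ * (d ψ : ℤ) else 0) : ℤ) : ℂ) *
          ((p : ℂ) ^ k * (r / (d χ₀ : ℂ) ^ 2)) := by
            rw [he]
            push_cast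
            rw [Finset.sum_mul_sum, Finset.sum_mul]
            refine Finset.sum_congr rfl fun χ _ => ?_
            rw [Finset.sum_mul]
            refine Finset.sum_congr rfl fun ψ _ => ?_
            by_cases h : χ ∈ B ∧ ψ ∈ B
            · rw [if_pos h, if_pos h.1, if_pos h.2, ← hz χ h.1 ψ, hrr χ h.1 ψ h.2]
              ring
            · rw [if_neg h]
              rcases not_and_or.1 h with h | h <;> simp [h]
      _ = _ := by rw [hb, one_mul, one_mul]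
  have hDe : (D : ℤ) * e = (p : ℤ) ^ k := by
    have h : ((D : ℂ) * (e : ℂ)) = (p : ℂ) ^ k := by
      rw [hee, mul_left_comm, hDr, mul_one]
    exact_mod_cast h
  have hnd : ¬ (p : ℤ) ∣ e := by
    intro hpe
    have h1 := Lib.Block.redC_regInner_eq hM hB hk.symm hχ₀ hχ₀ χ₀
    have hne := mul_ne_zero ((Lib.Block.degUnit_facts hM hB hk.symm hχ₀).2 h00)
      (Lib.Block.redC_omega_regElem_ne_zero hM hB hχ₀ hχ₀ h00)
    rw [← h1] at hne
    refine hne ?_
    obtain ⟨f, hf⟩ := hpe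
    have e2 : (p : ℂ) ^ k * r = (p : ℂ) * ((d χ₀ : ℂ) ^ 2 * (f : ℂ)) := by
      have h2 : (p : ℂ) ^ k * r = (d χ₀ : ℂ) ^ 2 * (e : ℂ) := by
        rw [hee]; field_simp
      rw [h2, hf]
      push_cast
      ring
    rw [e2, Lib.Block.redC_mul (Lib.Block.nat_mem p)
      (mul_mem (pow_mem (Lib.Block.nat_mem _) 2) (intCast_mem _ f)),
      (Lib.Block.redC_natCast_eq_zero_iff hM).2 dvd_rfl, zero_mul]
  have heabs : e.natAbs = 1 := by
    have h := congrArg Int.natAbs hDe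
    rw [Int.natAbs_mul, Int.natAbs_natCast, Int.natAbs_pow, Int.natAbs_natCast] at h
    obtain ⟨i, -, hi⟩ := (Nat.dvd_prime_pow hp).1 (Dvd.intro_left _ h)
    rcases Nat.eq_zero_or_pos i with rfl | hi0
    · simpa using hi
    · exact absurd (Int.natCast_dvd.2 (hi ▸ dvd_pow_self p hi0.ne')) hnd
  have h := congrArg Int.natAbs hDe
  rw [Int.natAbs_mul, Int.natAbs_natCast, Int.natAbs_pow, Int.natAbs_natCast, heabs, mul_one] at h
  rw [hcard]
  exact h

end Cfsg.Agent.S4675
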