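import Cfsg.Statements.S4676
import Cfsg.Agent.Lib.Heights.Basic

set_option autoImplicit false
open Cfsg

namespace Cfsg.Agent.S4676

/-- Fix a prime p and a maximal ideal M of the algebraic integers containing p. Let B be a p-block of the finite group G with defect group P. For χ in B, let the height of χ be the exponent of p in the degree of χ minus the least such exponent over the members of B. Then the sum over χ in B of p raised to twice the height of χ is at most the integer part of (order of P)²/4, plus 1; in particular B has at most that many irreducible characters. -/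
theorem result {G : Type*} [Group G] [Fintype G] (p : ℕ) [Fact p.Prime] (M : Ideal Cfsg.AlgInt) (hM : Cfsg.IsPModular p M) (B : Set (Cfsg.IrrCharacter G)) (hB : Cfsg.IsPBlock M B) (P : Subgroup G) (hP : Cfsg.IsDefectGroup p M B P) : ∑ᶠ χ ∈ B, p ^ (2 * Cfsg.blockHeight p B (χ : G → ℂ)) ≤ Nat.card P ^ 2 / 4 + 1 := by
  classical
  haveI : M.IsPrime := hM.2.1.isPrime
  have hp : p.Prime := Fact.out
  obtain ⟨χ, hχ, hh⟩ := Lib.Block.exists_height_zero hB p
  obtain ⟨μ, hμ, -, hle⟩ := Lib.Heights.four_mul_sum_le hM hB hχ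
  rw [← Lib.Block.blockDefect_eq_of_min hχ hh] at hle
  obtain ⟨g, hg, S, rfl⟩ := hP
  rw [Lib.Block.card_sylow_centralizer hM g S, (Lib.Block.defectClass_facts hM hB hg).1]
  set v := (Cfsg.charDegree (χ : G → ℂ)).factorization p with hv
  have h1 : ∀ φ ∈ (Finset.univ.filter (· ∈ B)).erase χ,
      ((p ^ (2 * Cfsg.blockHeight p B (φ : G → ℂ)) : ℕ) : ℤ) ≤ μ φ ^ 2 := by
    intro φ hφ
    have hφB : φ ∈ B := (Finset.mem_filter.mp (Finset.mem_of_mem_erase hφ)).2
    have hd : (p : ℤ) ^ (Cfsg.charDegree (φ : G → ℂ)).factorization p ∣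
        Lib.Heights.mult p χ φ := by
      rw [Lib.Heights.mult_comm hp]
      exact (Lib.Heights.mult_val hM hB χ hχ hφB).1
    have hht : Cfsg.blockHeight p B (φ : G → ℂ) =
        (Cfsg.charDegree (φ : G → ℂ)).factorization p - v := by
      rw [Cfsg.blockHeight]
      congr 1
      have h' := Nat.sub_eq_zero_iff_le.mp hh
      exact le_antisymm (Nat.sInf_le ⟨χ, hχ, rfl⟩) h'
    rw [hμ, ← Nat.add_sub_of_le (Lib.Block.le_of_height_zero hh hφB), pow_add] at hd
    have hdvd := (mul_dvd_mul_iff_left (pow_ne_zero _ (Int.natCast_ne_zero.mpr hp.ne_zero))).mp hd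
    have hne : μ φ ≠ 0 := by
      intro h
      refine (Lib.Heights.exact_iff hM hB hχ hφB).mp ?_ hh
      rw [hμ, h, mul_zero]; exact dvd_zero _
    have habs := Int.le_of_dvd (abs_pos.mpr hne) ((dvd_abs _ _).mpr hdvd)
    rw [← hht] at habs
    rw [Nat.cast_pow, pow_mul', ← sq_abs (μ φ)]
    exact pow_le_pow_left₀ (by positivity) habs 2
  have h2 := Finset.sum_le_sum h1
  rw [finsum_mem_eq_toFinset_sum, Set.toFinset_congr (t := B) rfl]
  have hset : B.toFinset = Finset.univ.filter (· ∈ B) := by ext; simp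
  rw [hset, ← Finset.add_sum_erase _ _ (Finset.mem_filter.mpr ⟨Finset.mem_univ χ, hχ⟩), hh,
    mul_zero, pow_zero, add_comm, Nat.add_le_add_iff_right, Nat.le_div_iff_mul_le (by norm_num),
    ← pow_mul, mul_comm (Cfsg.blockDefect p B)]
  have : (((∑ φ ∈ (Finset.univ.filter (· ∈ B)).erase χ,
      p ^ (2 * Cfsg.blockHeight p B (φ : G → ℂ))) * 4 : ℕ) : ℤ) ≤
      ((p ^ (2 * Cfsg.blockDefect p B) : ℕ) : ℤ) := by
    push_cast
    push_cast at h2
    linarith
  exact_mod_cast this

end Cfsg.Agent.S4676
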