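import Cfsg.Statements.S4679
import Cfsg.Agent.Lib.BrauerPairs.Normalizer

set_option autoImplicit false
open Cfsg

namespace Cfsg.Agent.S4679

/-- Fix a prime p and a maximal ideal M of the algebraic integers containing p, a p-block B of the finite group G with maximal Brauer pair (P, e), its fusion system F on P, a Brauer pair (Q, f) ≤ (P, e), and let T be the stabilizer of f in N_G(Q). Then Q is fully normalized in F if and only if N_P(Q) is a defect group of the block of T whose idempotent is that of f. -/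
theorem result {G : Type*} [Group G] [Fintype G] (p : ℕ) [Fact p.Prime] (M : Ideal Cfsg.AlgInt) (hM : Cfsg.IsPModular p M) (B : Set (Cfsg.IrrCharacter G)) (P : Subgroup G) (e : Set (Cfsg.IrrCharacter (Subgroup.centralizer (P : Set G)))) (hmax : Cfsg.IsMaximalBrauerPair p M B P e) (F : Cfsg.FusionSystem P) (hF : Cfsg.IsBlockFusionSystemOn p M B P e F) (Q : Subgroup G) (f : Set (Cfsg.IrrCharacter (Subgroup.centralizer (Q : Set G)))) (hQP : Q ≤ P) (hf : Cfsg.IsPBlock M f) (hle : Cfsg.SubpairLE p M Q f P e) (T : Subgroup G) (hT : ∀ y : G, y ∈ T ↔ y ∈ Subgroup.normalizer (Q : Set G) ∧ Cfsg.StabilizesBlock (Subgroup.centralizer (Q : Set G)) f y) : F.IsFullyNormalized Q ↔ ∃ F' : Set (Cfsg.IrrCharacter T), Cfsg.IsPBlock M F' ∧ (∀ t : T, Cfsg.blockCoeff F' t = Cfsg.subgroupBlockCoeff (Subgroup.centralizer (Q : Set G)) f (t : G)) ∧ Cfsg.IsDefectGroup p M F' ((P ⊓ Subgroup.normalizer (Q : Set G)).subgroupOf T) := by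
  have := hM.2.1.isPrime
  have hP : IsPGroup p P := hmax.1.1.1
  have he := hmax.1.1.2
  have hQ : IsPGroup p Q := hP.to_le hQP
  obtain rfl := Lib.BrauerPairs.eq_stab hf hT
  have ho := Lib.BrauerPairs.stab_over hM hQ hf
  constructor
  · intro hn
    obtain ⟨F', hF', heq, hcoe⟩ := ho.exists_block hM hQ
    refine ⟨F', hF', hcoe, ?_⟩
    rw [← Lib.BrauerPairs.inf_stab hM hP he hle]
    refine Lib.BrauerPairs.isDefectGroup_over_of_card hM hP he hle ho hF' heq ?_
    rw [Lib.BrauerPairs.inf_stab hM hP he hle]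
    exact Lib.BrauerPairs.defect_le_of_fullyNormalized hM hF hle hn hF' heq
  · rintro ⟨F', hF', hcoe, hD⟩
    have heq := Lib.BrauerPairs.emb_bar_of_coeff ho hcoe
    refine ⟨hQP, fun Q' hc => ?_⟩
    obtain ⟨g, rfl, hg⟩ := Lib.BrauerPairs.exists_map_of_isConj hM hF hle hc
    have hf' := Lib.BrauerPairs.isPBlock_conjBlock Q g hf
    have hQ' := hQ.map (MulAut.conj g).toMonoidHom
    obtain ⟨F'', hF'', heq'', -⟩ := (Lib.BrauerPairs.stab_over hM hQ' hf').exists_block hM hQ'
    have h2 := Lib.BrauerPairs.card_inf_le hM hP he hg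
      (Lib.BrauerPairs.stab_over hM hQ' hf') hF'' heq''
    rw [Lib.BrauerPairs.inf_stab hM hP he hg,
      Lib.BrauerPairs.blockDefect_stab_conj hM hQ hf g hF' heq hF'' heq'',
      ← (Lib.Block.IsDefectGroup.props hM hF' hD).2.1,
      Lib.BrauerPairs.card_subgroupOf (le_trans le_rfl
        (Lib.BrauerPairs.inf_normalizer_le_stab hM hP he hle))] at h2
    exact h2

end Cfsg.Agent.S4679
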