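import Cfsg.Statements.S4680
import Cfsg.Agent.Lib.BrauerPairs.Local

set_option autoImplicit false
open Cfsg

namespace Cfsg.Agent.S4680

/-- Fix a prime p and a maximal ideal M of the algebraic integers containing p, a p-block B of the finite group G with maximal Brauer pair (P, e), its fusion system F on P, and a Brauer pair (Q, f) ≤ (P, e). Then Q is centric in F if and only if Z(Q) is a defect group of f as a block of C_G(Q). -/
theorem result {G : Type*} [Group G] [Fintype G] (p : ℕ) [Fact p.Prime] (M : Ideal Cfsg.AlgInt) (hM : Cfsg.IsPModular p M) (B : Set (Cfsg.IrrCharacter G)) (P : Subgroup G) (e : Set (Cfsg.IrrCharacter (Subgroup.centralizer (P : Set G)))) (hmax : Cfsg.IsMaximalBrauerPair p M B P e) (F : Cfsg.FusionSystem P) (hF : Cfsg.IsBlockFusionSystemOn p M B P e F) (Q : Subgroup G) (f : Set (Cfsg.IrrCharacter (Subgroup.centralizer (Q : Set G)))) (hQP : Q ≤ P) (hf : Cfsg.IsPBlock M f) (hle : Cfsg.SubpairLE p M Q f P e) : F.IsCentric Q ↔ Cfsg.IsDefectGroup p M f ((Q ⊓ Subgroup.centralizer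 (Q : Set G)).subgroupOf (Subgroup.centralizer (Q : Set G))) := by
  have := hM.2.1.isPrime
  have hP : IsPGroup p P := hmax.1.1.1
  have he := hmax.1.1.2
  constructor
  · rintro ⟨-, hcen⟩
    obtain ⟨x, hx, hD⟩ := Lib.BrauerPairs.exists_conj_centralizer_defect hM hmax hle
    have hxQ : Lib.BrauerPairs.sj x Q ≤ P := Lib.BrauerPairs.subgroup_le hx
    have e1 : P ⊓ Subgroup.centralizer (Lib.BrauerPairs.sj x Q : Set G) =
        Lib.BrauerPairs.sj x Q ⊓ Subgroup.centralizer (Lib.BrauerPairs.sj x Q : Set G) :=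
      le_antisymm (le_inf (hcen _ (Lib.BrauerPairs.isConj_of_le hF hle hx)) inf_le_right)
        (inf_le_inf_right _ hxQ)
    have h1 := (Lib.Block.IsDefectGroup.props hM
      (Lib.BrauerPairs.isPBlock_conjBlock Q x hf) hD).2.1
    rw [Lib.BrauerPairs.card_subgroupOf inf_le_right, Lib.BrauerPairs.blockDefect_conjBlock, e1,
      Lib.BrauerPairs.card_center_sj] at h1
    obtain ⟨D, hD', hUD⟩ := Lib.BrauerPairs.exists_defect_centralizer hM hP he hle
    have h2 : (Q ⊓ Subgroup.centralizer (Q : Set G)).subgroupOf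
        (Subgroup.centralizer (Q : Set G)) = D := by
      refine Subgroup.eq_of_le_of_card_ge
        (le_trans (Subgroup.comap_mono (inf_le_inf_right _ hQP)) hUD) ?_
      rw [(Lib.Block.IsDefectGroup.props hM hf hD').2.1, Lib.BrauerPairs.card_subgroupOf inf_le_right,
        h1]
    rw [h2]
    exact hD'
  · intro hD
    refine ⟨hQP, fun Q' hc => ?_⟩
    obtain ⟨g, rfl, hg⟩ := Lib.BrauerPairs.exists_map_of_isConj hM hF hle hc
    have h1 := (Lib.Block.IsDefectGroup.props hM hf hD).2.1
    rw [Lib.BrauerPairs.card_subgroupOf inf_le_right, ← Lib.BrauerPairs.card_center_sj g] at h1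
    have h2 := Lib.BrauerPairs.card_centralizer_le hM hP he hg
    rw [Lib.BrauerPairs.blockDefect_conjBlock, ← h1] at h2
    have h3 := Subgroup.eq_of_le_of_card_ge
      (inf_le_inf_right (Subgroup.centralizer (Lib.BrauerPairs.sj g Q : Set G))
        (Lib.BrauerPairs.subgroup_le hg)) h2
    rw [Cfsg.FusionSystem.centralizerIn, ← h3]
    exact inf_le_left

end Cfsg.Agent.S4680
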