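import Cfsg.Statements.S4683
import Cfsg.Agent.Lib.Block.RegProj
import Cfsg.Agent.Lib.Block.Apply

set_option autoImplicit false
open Cfsg

namespace Cfsg.Agent.S4683

open scoped ComplexConjugate in
theorem aux {G : Type*} [Group G] [Fintype G] (p : ℕ) (M : Ideal Cfsg.AlgInt) [M.IsPrime]
    (hM : Cfsg.IsPModular p M) (B : Set (Cfsg.IrrCharacter G)) (hB : Cfsg.IsPBlock M B) (u : G)
    (hu : ∃ k : ℕ, orderOf u = p ^ k) (H : Subgroup G) [Fintype H]
    (hH : H = Subgroup.centralizer ({u} : Set G)) (e : Set (Cfsg.IrrCharacter H))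
    (he : Cfsg.IsPBlock M e)
    (h1 : ∀ ξ ∈ e, Cfsg.MemLocalIdeal M
      ((∑ᶠ x : H, Cfsg.blockCoeff B (x : G) * (ξ : H → ℂ) x / (ξ : H → ℂ) 1) - 1)) :
    ∑ᶠ χ ∈ B, ∑ᶠ s : H, Cfsg.pRegularPart p
        (Cfsg.blockPart e (fun c : H => (χ : G → ℂ) (u * c))) s *
        Cfsg.blockPart e (fun c : H => (χ : G → ℂ) (u⁻¹ * c)) s⁻¹ =
      (Nat.card H : ℂ) * (Cfsg.blockRank p e : ℂ) := by
  classical
  subst hH
  obtain ⟨B', hind⟩ := Lib.Block.inducedBlockDefined_centralizer (x := u) hM hu he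
  obtain ⟨χ', hχ'⟩ := Lib.Block.isPBlock_nonempty hind.2.1
  obtain ⟨ξ, hξ⟩ := Lib.Block.isPBlock_nonempty he
  have hBB : B' = B := by
    by_contra hne
    have hno : χ' ∉ B := fun h => hne (Lib.Block.eq_of_mem_of_mem hind.2.1 hB hχ' h)
    have hc : Lib.Block.IsClassCoeff (Lib.Block.toSub (Subgroup.centralizer ({u} : Set G)) (Lib.Block.eIdem B)) :=
      Lib.Block.isClassCoeff_toSub (Lib.Block.isClassCoeff_eIdem B)
    have hr : Lib.Block.IntR M (Lib.Block.toSub (Subgroup.centralizer ({u} : Set G)) (Lib.Block.eIdem B)) :=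
      Lib.Block.intR_toSub (Lib.Block.intR_eIdem hB)
    have h2 := Lib.Block.redC_omega_toSub_eq hind hξ hχ' (Lib.Block.isClassCoeff_eIdem B)
      (Lib.Block.intR_eIdem hB)
    rw [Lib.Block.omega_eIdem, if_neg hno, Lib.Block.redC_zero] at h2
    have h3 := Lib.Block.redC_eq_zero_of_memLocalIdeal (h1 ξ hξ)
    have h4 : (∑ᶠ x : (Subgroup.centralizer ({u} : Set G)), Cfsg.blockCoeff B (x : G) * (ξ : (Subgroup.centralizer ({u} : Set G)) → ℂ) x / (ξ : (Subgroup.centralizer ({u} : Set G)) → ℂ) 1) =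
        Lib.Block.omega (ξ : (Subgroup.centralizer ({u} : Set G)) → ℂ) (Lib.Block.toSub (Subgroup.centralizer ({u} : Set G)) (Lib.Block.eIdem B)) := by
      rw [finsum_eq_sum_of_fintype, Lib.Block.omega_eq_sum, Finset.sum_div]
      exact Finset.sum_congr rfl fun x _ => by simp [Lib.Block.toSub, Lib.Block.eIdem]
    rw [h4, Lib.Block.redC_sub (Lib.Block.omega_mem_locRing ξ hc hr) (one_mem _), h2,
      Lib.Block.redC_one] at h3
    simp at h3
  subst hBB
  have hinv : ∀ (χ : Cfsg.IrrCharacter G) (s : (Subgroup.centralizer ({u} : Set G))),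
      Cfsg.blockPart e (fun c : (Subgroup.centralizer ({u} : Set G)) => (χ : G → ℂ) (u⁻¹ * c)) s⁻¹ =
        conj (Cfsg.blockPart e (fun c : (Subgroup.centralizer ({u} : Set G)) => (χ : G → ℂ) (u * c)) s) := by
    intro χ s
    rw [Lib.Block.blockPart_apply, Lib.Block.blockPart_apply, map_sum]
    refine Finset.sum_congr rfl fun φ _ => ?_
    by_cases hφ : φ ∈ e
    · simp only [hφ, if_true, map_mul]
      rw [Lib.Char.char_inv (Lib.Char.isCharacter_of_isIrr φ.2)]
      congr 1
      simp only [Cfsg.classInner, map_mul, map_sum, map_inv₀, map_natCast, Complex.conj_conj]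
      congr 1
      rw [← Equiv.sum_comp (Equiv.inv (Subgroup.centralizer ({u} : Set G)))]
      refine Finset.sum_congr rfl fun c _ => ?_
      simp only [Equiv.inv_apply, Subgroup.coe_inv]
      rw [Lib.Char.char_inv (Lib.Char.isCharacter_of_isIrr φ.2), Complex.conj_conj]
      congr 1
      rw [← mul_inv_rev, Lib.Char.char_inv (Lib.Char.isCharacter_of_isIrr χ.2),
        (Subgroup.mem_centralizer_singleton_iff.1 c.2 : (c : G) * u = u * c)]
    · simp [hφ]
  have hterm : ∀ (χ : Cfsg.IrrCharacter G) (s : (Subgroup.centralizer ({u} : Set G))),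
      Cfsg.pRegularPart p (Cfsg.blockPart e (fun c : (Subgroup.centralizer ({u} : Set G)) => (χ : G → ℂ) (u * c))) s *
        Cfsg.blockPart e (fun c : (Subgroup.centralizer ({u} : Set G)) => (χ : G → ℂ) (u⁻¹ * c)) s⁻¹ =
      Lib.Block.sectionMap p u e (χ : G → ℂ) s *
        conj (Lib.Block.sectionMap p u e (χ : G → ℂ) s) := by
    intro χ s
    rw [Lib.Block.sectionMap_eq_blockPart e (Lib.Char.isClassFunction_of_isIrr χ.2), hinv,
      Lib.Block.pRegularPart_apply]
    split_ifs <;> simp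
  rw [Lib.Block.finsum_mem_eq_sum_ite]
  simp only [hterm, finsum_eq_sum_of_fintype]
  rw [Finset.sum_congr rfl fun χ _ => ?_, Finset.sum_comm,
    Finset.sum_congr rfl fun s _ => Lib.Block.sum_sectionMap_mul_conj hM hu he s s,
    Finset.sum_comm, ← Lib.Block.sum_regInner_self hM he, Finset.mul_sum]
  · refine Finset.sum_congr rfl fun φ _ => ?_
    by_cases h : φ ∈ e
    · simp only [h, if_true]
      rw [Lib.Block.regInner_eq_classInner, Cfsg.classInner, ← mul_assoc,
        mul_inv_cancel₀ (Lib.Char.card_ne_zero_complex (Subgroup.centralizer ({u} : Set G))), one_mul]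
      refine Finset.sum_congr rfl fun s _ => ?_
      rw [Lib.Block.pRegularPart_apply]
      split_ifs <;> simp
    · simp [h]
  · split_ifs with h
    · rfl
    · simp [Lib.Block.sectionMap_eq_zero hM hu hind h]

/-- Fix a prime p and a maximal ideal M of the algebraic integers containing p, a p-block B of the finite group G, a p-element u and a p-block e of C = C_G(u) such that (⟨u⟩, e) is a Brauer pair of B (a Brauer element of B). For χ ∈ B let χ_u be the e-part of the class function c ↦ χ(u c) on C and χ_u' the e-part of c ↦ χ(u⁻¹ c). Then the sum over χ ∈ B and over the p-regular elements s of C of χ_u(s)·χ_u'(s⁻¹) equals the order of C times the p-regular rank of e (the number of irreducible Brauer characters of e). -/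
theorem result {G : Type*} [Group G] [Fintype G] (p : ℕ) [Fact p.Prime] (M : Ideal Cfsg.AlgInt) (hM : Cfsg.IsPModular p M) (B : Set (Cfsg.IrrCharacter G)) (u : G) (hu : ∃ k : ℕ, orderOf u = p ^ k) (e : Set (Cfsg.IrrCharacter (Subgroup.centralizer (Subgroup.zpowers u : Set G)))) (hBe : Cfsg.IsBrauerPairOf p M B (Subgroup.zpowers u) e) : ∑ᶠ χ ∈ B, ∑ᶠ s : Subgroup.centralizer (Subgroup.zpowers u : Set G), Cfsg.pRegularPart p (Cfsg.blockPart e (fun c : Subgroup.centralizer (Subgroup.zpowers u : Set G) => (χ : G → ℂ) (u * c))) s * Cfsg.blockPart e (fun c : Subgroup.centralizer (Subgroup.zpowers u : Set G) => (χ : G → ℂ) (u⁻¹ * c)) s⁻¹ = (Nat.card (Subgroup.centralizer (Subgroup.zpowers u : Set G)) : ℂ) * (Cfsg.blockRank p e : ℂ) := by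
  classical
  haveI : M.IsPrime := hM.2.1.isPrime
  haveI := Fintype.ofFinite (Subgroup.centralizer (Subgroup.zpowers u : Set G))
  obtain ⟨⟨-, he⟩, hB, h1⟩ := hBe
  have hH : Subgroup.centralizer (Subgroup.zpowers u : Set G) =
      Subgroup.centralizer ({u} : Set G) := by
    rw [Subgroup.zpowers_eq_closure, Subgroup.centralizer_closure]
  exact aux p M hM B hB u hu _ hH e he h1

end Cfsg.Agent.S4683
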