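import Cfsg.Statements.S4684
import Cfsg.Agent.Lib.Star.Orbit

set_option autoImplicit false
open Cfsg Cfsg.Agent.Lib

namespace Cfsg.Agent.S4684

/-- Fix a prime p and a maximal ideal M of the algebraic integers containing p, a p-block B of the finite group G with maximal Brauer pair (P, e) and fusion system F on P. Then the number of irreducible characters of height zero in B is divisible by the index in P of the focal subgroup of F. -/
theorem result {G : Type*} [Group G] [Fintype G] (p : ℕ) [Fact p.Prime] (M : Ideal Cfsg.AlgInt) (hM : Cfsg.IsPModular p M) (B : Set (Cfsg.IrrCharacter G)) (P : Subgroup G) (e : Set (Cfsg.IrrCharacter (Subgroup.centralizer (P : Set G)))) (hmax : Cfsg.IsMaximalBrauerPair p M B P e) (F : Cfsg.FusionSystem P) (hF : Cfsg.IsBlockFusionSystemOn p M B P e F) : (F.focalSubgroup.subgroupOf P).index ∣ Nat.card {χ : Cfsg.IrrCharacter G // χ ∈ B ∧ Cfsg.blockHeight p B (χ : G → ℂ) = 0} := by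
  haveI : M.IsPrime := hM.2.1.isPrime
  obtain ⟨hP, he, hB, -⟩ := (BrauerPairs.isBrauerPairOf_iff hM).1 hmax.1
  have h := Star.dvd_card_height hM hmax hF (Z := P) le_rfl 0 fun z hz χ hχ hχ0 => by
    obtain ⟨f, hf, hle, hb⟩ := Star.exists_below hM hP he hz
    rw [hb]
    exact Star.exists_sec_ne_zero_of_height hM hB (Block.isPElem_of_mem hP hz)
      ((BrauerPairs.pairOf_iff_of_le hM hP he hle).2 hmax.1) hχ hχ0
  rwa [Subgroup.inf_subgroupOf_left] at h

end Cfsg.Agent.S4684
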