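import Cfsg.Statements.S4688
import Cfsg.Agent.Lib.BrauerPairs.Nilpotent
import Cfsg.Agent.Lib.BrauerPairs.CentPairs

set_option autoImplicit false
open Cfsg

namespace Cfsg.Agent.S4688

/-- Fix a prime p and a maximal ideal M of the algebraic integers containing p, and a nilpotent p-block B of the finite group G with maximal Brauer pair (P, e). Then for every Brauer pair (Q, f) of B, f is a nilpotent block of C_G(Q); and if moreover (Q, f) ≤ (P, e), then C_P(Q) is a defect group of f as a block of C_G(Q). -/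
theorem result {G : Type*} [Group G] [Fintype G] (p : ℕ) [Fact p.Prime] (M : Ideal Cfsg.AlgInt) (hM : Cfsg.IsPModular p M) (B : Set (Cfsg.IrrCharacter G)) (P : Subgroup G) (e : Set (Cfsg.IrrCharacter (Subgroup.centralizer (P : Set G)))) (hmax : Cfsg.IsMaximalBrauerPair p M B P e) (hnil : Cfsg.IsNilpotentBlock p M B) (Q : Subgroup G) (f : Set (Cfsg.IrrCharacter (Subgroup.centralizer (Q : Set G)))) (hQf : Cfsg.IsBrauerPairOf p M B Q f) : Cfsg.IsNilpotentBlock p M f ∧ (Cfsg.SubpairLE p M Q f P e → Cfsg.IsDefectGroup p M f ((P ⊓ Subgroup.centralizer (Q : Set G)).subgroupOf (Subgroup.centralizer (Q : Set G)))) := by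
  have := hM.2.1.isPrime
  refine ⟨⟨hQf.1.2, fun R' g' hg' x hxN hxs hxp => ?_⟩,
    fun hle => Lib.BrauerPairs.isDefectGroup_of_nilpotent hM hmax hnil hle⟩
  obtain ⟨g, hge, hs⟩ := Lib.BrauerPairs.exists_step_of_centralizer_pair hM hQf.1.1 hQf.1.2 hg'
  have hpair : Cfsg.IsBrauerPairOf p M B _ g :=
    (Lib.BrauerPairs.pairOf_iff_of_le hM hs.1 hs.2.2.1
      (Relation.ReflTransGen.single ((Lib.BrauerPairs.rel_iff hM).2 hs))).1 hQf
  have hxQ : (x : G) ∈ Subgroup.normalizer (Q : Set G) :=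
    Lib.BrauerPairs.centralizer_le_normalizer_self Q x.2
  have hxR : (x : G) ∈ Subgroup.normalizer
      (R'.map (Subgroup.centralizer (Q : Set G)).subtype : Set G) :=
    R'.le_normalizer_map _ ⟨x, hxN, rfl⟩
  have hxV : (x : G) ∈ Subgroup.normalizer
      ((Q ⊔ R'.map (Subgroup.centralizer (Q : Set G)).subtype : Subgroup G) : Set G) := by
    rw [Subgroup.mem_normalizer_iff_map_conj_eq, Subgroup.map_sup]
    exact congrArg₂ (· ⊔ ·) (Subgroup.mem_normalizer_iff_map_conj_eq.1 hxQ)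
      (Subgroup.mem_normalizer_iff_map_conj_eq.1 hxR)
  have hfix : Lib.BrauerPairs.cj (x : G) (Lib.BrauerPairs.pbar M _ g) =
      Lib.BrauerPairs.pbar M _ g := by
    rw [hge, Lib.BrauerPairs.cj_emb, (Lib.BrauerPairs.stabilizesBlock_iff hxN hg'.1.2).1 hxs]
  have hxp' : Cfsg.IsPRegular p (x : G) := by
    rw [Cfsg.IsPRegular, Subgroup.orderOf_coe]
    exact hxp
  exact (Lib.BrauerPairs.mem_centralizer_sup_of_mem x).2 (hnil.2 _ g hpair _ hxV
    ((Lib.BrauerPairs.stabilizesBlock_iff hxV hpair.1.2).2 hfix) hxp')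

end Cfsg.Agent.S4688
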