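import Cfsg.Statements.S4690
import Cfsg.Agent.Lib.Star.Nilpotent

set_option autoImplicit false
open Cfsg

namespace Cfsg.Agent.S4690

/-- Fix a prime p and a maximal ideal M of the algebraic integers containing p, and a nilpotent p-block B of the finite group G with defect group P. Then there is a bijection from B onto the irreducible characters of P carrying the height of each χ ∈ B to the exponent of p in the degree of its image. -/
theorem result {G : Type*} [Group G] [Fintype G] (p : ℕ) [Fact p.Prime] (M : Ideal Cfsg.AlgInt) (hM : Cfsg.IsPModular p M) (B : Set (Cfsg.IrrCharacter G)) (hnil : Cfsg.IsNilpotentBlock p M B) (P : Subgroup G) (hP : Cfsg.IsDefectGroup p M B P) : ∃ Φ : B ≃ Cfsg.IrrCharacter P, ∀ χ : B, Cfsg.blockHeight p B ((χ : Cfsg.IrrCharacter G) : G → ℂ) = (Cfsg.charDegree ((Φ χ : Cfsg.IrrCharacter P) : P → ℂ)).factorization p := by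
  classical
  haveI : M.IsPrime := hM.2.1.isPrime
  obtain ⟨e, he⟩ := Cfsg.Agent.Lib.BrauerPairs.exists_pair_on_defect hM hnil.1 hP
  have hmax := Cfsg.Agent.Lib.BrauerPairs.isMaximal_of_card hM he
    (Cfsg.Agent.Lib.Block.IsDefectGroup.props hM hnil.1 hP).2.1
  obtain ⟨χ₀, h0B, h0, Φ, hinj, hrange, hreg⟩ := Cfsg.Agent.Lib.Star.nilpotent_main hM hmax hnil
  let E : Cfsg.IrrCharacter P ≃ B := Equiv.ofBijective
    (fun ν => ⟨Φ ν, (hrange _).2 ⟨ν, rfl⟩⟩)
    ⟨fun ν ν' h => hinj (congrArg Subtype.val h),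
      fun χ => (hrange _).1 χ.2 |>.imp fun ν h => Subtype.ext h⟩
  refine ⟨E.symm, fun χ => ?_⟩
  obtain ⟨ν, rfl⟩ := E.surjective χ
  rw [Equiv.symm_apply_apply]
  show Cfsg.blockHeight p B (Φ ν : G → ℂ) = _
  have hr : ¬ p ∣ orderOf (1 : G) := by
    rw [orderOf_one, Nat.dvd_one]; exact hM.1.ne_one
  have hdeg : Cfsg.charDegree (Φ ν : G → ℂ) =
      Cfsg.charDegree (ν : P → ℂ) * Cfsg.charDegree (χ₀ : G → ℂ) := by
    have h1 := hreg ν 1 hr
    simp only [Cfsg.Agent.Lib.Block.irr_one_eq_natCast] at h1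
    exact_mod_cast h1
  unfold Cfsg.blockHeight at h0 ⊢
  rw [hdeg, Nat.factorization_mul (Cfsg.Agent.Lib.Block.charDegree_pos ν).ne'
    (Cfsg.Agent.Lib.Block.charDegree_pos χ₀).ne', Finsupp.add_apply]
  have hle := Nat.sInf_le (Set.mem_image_of_mem
    (fun ψ : Cfsg.IrrCharacter G => (Cfsg.charDegree (ψ : G → ℂ)).factorization p) h0B)
  beta_reduce at hle
  omega

end Cfsg.Agent.S4690
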