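import Cfsg.Statements.S4691
import Cfsg.Agent.Lib.BrauerPairs.Principal
import Cfsg.Agent.Lib.Transfer.Fusion

set_option autoImplicit false
open Cfsg

namespace Cfsg.Agent.S4691

/-- Fix a prime p and a maximal ideal M of the algebraic integers containing p. A finite group G has a normal p-complement if and only if its principal p-block is nilpotent. -/
theorem result {G : Type*} [Group G] [Fintype G] (p : ℕ) [Fact p.Prime] (M : Ideal Cfsg.AlgInt) (hM : Cfsg.IsPModular p M) : Cfsg.HasNormalPComplement p G ↔ Cfsg.IsNilpotentBlock p M (Cfsg.principalBlock M G) := by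
  have := hM.2.1.isPrime
  have hp : p.Prime := Fact.out
  constructor
  · intro hc
    refine ⟨Lib.BrauerPairs.isPBlock_principal, fun Q e he x hx _ hreg => ?_⟩
    have hQ : IsPGroup p Q := he.1.1
    have hres := Lib.Transfer.hasNormalPComplement_iff.1 hc
    have hbot := Lib.Transfer.inf_eq_bot_of_not_dvd hres hQ
    have hxO : x ∈ Cfsg.pResidual p G :=
      Lib.Transfer.mem_pResidual ((hp.coprime_iff_not_dvd.2 hreg).symm)
    rw [Subgroup.mem_centralizer_iff]
    intro q hq
    have h1 : x * q * x⁻¹ * q⁻¹ ∈ Cfsg.pResidual p G ⊓ Q := by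
      refine Subgroup.mem_inf.2 ⟨?_, mul_mem ((Subgroup.mem_normalizer_iff.1 hx q).1 hq) (inv_mem hq)⟩
      rw [show x * q * x⁻¹ * q⁻¹ = x * (q * x⁻¹ * q⁻¹) by group]
      exact mul_mem hxO ((Lib.Transfer.pResidual_normal (G := G) (p := p)).conj_mem _ (inv_mem hxO) q)
    rw [hbot, Subgroup.mem_bot, mul_inv_eq_one, mul_inv_eq_iff_eq_mul] at h1
    exact h1.symm
  · intro h
    refine Lib.Transfer.frobenius_criterion fun Q hQ g hg hcop => ?_
    refine h.2 Q _ (Lib.BrauerPairs.isBrauerPairOf_e0 hM hQ) g hg ?_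
      (hp.coprime_iff_not_dvd.1 hcop.symm)
    exact (Lib.BrauerPairs.stabilizesBlock_iff hg Lib.BrauerPairs.isPBlock_principal).2
      (Lib.BrauerPairs.cj_pbar_e0 hg)

end Cfsg.Agent.S4691
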