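import Cfsg.Statements.S4693
import Cfsg.Agent.Lib.BrauerPairs.Fusion

set_option autoImplicit false
open Cfsg Cfsg.Agent.Lib.BrauerPairs Cfsg.Agent.Lib.Block Cfsg.Agent.Lib

namespace Cfsg.Agent.S4693

/-- Fix a prime p and a maximal ideal M of the algebraic integers containing p, a p-block B of the finite group G with maximal Brauer pair (P, e) and fusion system F on P, and a Brauer pair (Q, f) ≤ (P, e) with Q centric in F. Suppose every element of G normalizes Q and stabilizes f. Then the idempotent of B agrees with that of f modulo M at every element of G, and f is the idempotent of a nilpotent block of Q·C_G(Q): some p-block of Q·C_G(Q) has the idempotent coefficients of f and is nilpotent. -/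
theorem result {G : Type*} [Group G] [Fintype G] (p : ℕ) [Fact p.Prime] (M : Ideal Cfsg.AlgInt) (hM : Cfsg.IsPModular p M) (B : Set (Cfsg.IrrCharacter G)) (P : Subgroup G) (e : Set (Cfsg.IrrCharacter (Subgroup.centralizer (P : Set G)))) (hmax : Cfsg.IsMaximalBrauerPair p M B P e) (F : Cfsg.FusionSystem P) (hF : Cfsg.IsBlockFusionSystemOn p M B P e F) (Q : Subgroup G) (f : Set (Cfsg.IrrCharacter (Subgroup.centralizer (Q : Set G)))) (hQP : Q ≤ P) (hf : Cfsg.IsPBlock M f) (hle : Cfsg.SubpairLE p M Q f P e) (hcen : F.IsCentric Q) (hG : ∀ x : G, x ∈ Subgroup.normalizer (Q : Set G) ∧ Cfsg.StabilizesBlock (Subgroup.centralizer (Q : Set G)) f x) : (∀ g : G, Cfsg.MemLocalIdeal M (Cfsg.blockCoeff B g - Cfsg.subgroupBlockCoeff (Subgroup.centralizer (Q : Set G)) f g)) ∧ ∃ F' : Set (Cfsg.IrrCharacter ↥(Q ⊔ Subgroup.centralizer (Q : Set G))), Cfsg.IsPBlock M F' ∧ (∀ t : ↥(Q ⊔ Subgroup.centralizer (Q : Set G)), Cfsg.blockCoeff F' t = Cfsg.subgroupBlockCoeff (Subgroup.centralizer (Q : Set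 G)) f (t : G)) ∧ Cfsg.IsNilpotentBlock p M F' := by
  have := hM.2.1.isPrime
  have hP : IsPGroup p P := hmax.1.1.1
  have he := hmax.1.1.2
  have hQ : IsPGroup p Q := hP.to_le hQP
  haveI : Q.Normal := Subgroup.normalizer_eq_top_iff.1 (top_unique fun x _ => (hG x).1)
  have hfix : ∀ x : G, cj x (pbar M Q f) = pbar M Q f := fun x =>
    (stabilizesBlock_iff (hG x).1 hf).1 (hG x).2
  have hzc : IsClassCoeff (pbar M Q f) := isClassCoeff_iff_cj.2 hfix
  obtain ⟨-, -, hB, ho⟩ := (isBrauerPairOf_iff hM).1 ((pairOf_iff_of_le hM hP he hle).2 hmax.1)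
  rw [Occ, br_eq_self_of_normal hM hQ (isClassCoeff_bar B) (isIdempotentElem_bar hB)] at ho
  have heqB : bar M B = pbar M Q f := by
    rcases bar_mul_idem hB hzc (isIdempotentElem_pbar hf) with h0 | h1
    · rw [(hzc.commute (bar M B)).eq, h0] at ho
      exact absurd ho.symm (pbar_ne_zero hf)
    · rwa [(hzc.commute (bar M B)).eq, h1] at ho
  constructor
  · intro g
    have hBg : blockCoeff B g ∈ locRing M := by
      rw [← coeff_eIdem]; exact intR_eIdem hB g
    refine (redC_eq_iff hBg (subgroupBlockCoeff_mem Q hf g)).1 ?_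
    rw [← coeff_bar, heqB, coeff_pbar]
  have hover : Over (M := M) Q f (Q ⊔ Subgroup.centralizer (Q : Set G)) :=
    ⟨hf, le_sup_left, le_sup_right, fun x _ => (hG x).1, fun x _ => hfix x⟩
  obtain ⟨F', hF', heq, hcoe⟩ := hover.exists_block hM hQ
  refine ⟨F', hF', hcoe, hF', fun R r hr x hxN hxs hxp => ?_⟩
  -- `C_P(Q) = Z(Q)` and `Q` is fully normalized
  have hn : F.IsFullyNormalized Q := by
    refine ⟨hQP, fun Q' hc => ?_⟩
    obtain ⟨y, rfl, -⟩ := exists_map_of_isConj hM hF hle hc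
    rw [sj_eq_of_mem_normalizer (hG y).1]
  obtain ⟨hCP, -⟩ := fullyNormalized_data hM hF hle hn
  have hZ : P ⊓ Subgroup.centralizer (Q : Set G) = Q ⊓ Subgroup.centralizer (Q : Set G) :=
    le_antisymm (le_inf (hcen.2 Q (Fusion.isConj_refl hQP)) inf_le_right)
      (inf_le_inf_right _ hQP)
  rw [hZ] at hCP
  have hd := hover.blockDefect_eq hM hQ hF' heq
  have hcard := Fusion.relIndex_sup_of_normalizes
    (H := Q) (N := Subgroup.centralizer (Q : Set G)) fun q hq =>
      mem_normalizer_centralizer (hG q).1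
  have h1 := Fusion.card_mul_relIndex' (le_sup_right :
    Subgroup.centralizer (Q : Set G) ≤ Q ⊔ Subgroup.centralizer (Q : Set G))
  rw [hcard] at h1
  have h2 := Fusion.card_mul_relIndex' (inf_le_left :
    Q ⊓ Subgroup.centralizer (Q : Set G) ≤ Q)
  rw [Subgroup.inf_relIndex_left] at h2
  obtain ⟨a, ha⟩ := IsPGroup.iff_card.1 hQ
  have hrel : (Subgroup.centralizer (Q : Set G)).relIndex Q ≠ 0 := Subgroup.index_ne_zero_of_finite
  have e1 := congrArg (fun n => n.factorization p) h1
  have e2 := congrArg (fun n => n.factorization p) h2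
  simp only [Nat.factorization_mul Nat.card_pos.ne' hrel, hCP, ha,
    Nat.factorization_mul (pow_ne_zero _ hM.1.ne_zero) hrel, Finsupp.add_apply,
    Nat.factorization_pow_self hM.1] at e1 e2
  have hdF : blockDefect p F' = a := by omega
  -- the defect group is `Q`
  obtain ⟨D, hD⟩ := exists_isDefectGroup hM hF'
  haveI : (Q.subgroupOf (Q ⊔ Subgroup.centralizer (Q : Set G))).Normal :=
    Subgroup.normal_subgroupOf
  have hDeq : Q.subgroupOf (Q ⊔ Subgroup.centralizer (Q : Set G)) = D := by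
    refine Subgroup.eq_of_le_of_card_ge
      (le_defect_of_normal (Q := Q.subgroupOf _) hM hF' hQ.comap_subtype hD) ?_
    rw [(IsDefectGroup.props hM hF' hD).2.1, hdF, card_subgroupOf le_sup_left, ha]
  obtain ⟨y, hy⟩ := conjLE_defect_of_pair hM hr hD
  have hRQ : ∀ u ∈ R, ((u : ↥(Q ⊔ Subgroup.centralizer (Q : Set G))) : G) ∈ Q := by
    intro u hu
    have h3 := hy ⟨u, hu, rfl⟩
    rw [← hDeq] at h3
    have hn := (inferInstance : (Q.subgroupOf (Q ⊔ Subgroup.centralizer (Q : Set G))).Normal)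
    have h4 := hn.conj_mem _ h3 y⁻¹
    simp only [MulEquiv.coe_toMonoidHom, MulAut.conj_apply] at h4
    rw [inv_inv, mul_assoc y u y⁻¹, inv_mul_cancel_left, inv_mul_cancel_right] at h4
    exact Subgroup.mem_subgroupOf.1 h4
  -- a `p`-regular element of `Q C(Q)` centralizes `Q`
  obtain ⟨q, hq, c, hc, hqc⟩ := Fusion.mem_sup_of_normalizes
    (H := Q) (N := Subgroup.centralizer (Q : Set G))
    (fun q hq => mem_normalizer_centralizer (hG q).1) x.2
  haveI : (Subgroup.centralizer (Q : Set G)).Normal := inferInstance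
  have hxC : (x : G) ∈ Subgroup.centralizer (Q : Set G) := by
    rw [← QuotientGroup.eq_one_iff]
    refine Fusion.eq_one_of_pGroup_coprime (p := p) ?_ (m := orderOf (x : G))
      (by rw [← QuotientGroup.mk_pow, pow_orderOf_eq_one, QuotientGroup.mk_one])
      (hM.1.coprime_iff_not_dvd.2 (by rw [Subgroup.orderOf_coe]; exact hxp)).symm
    obtain ⟨k, hk⟩ := hQ ⟨q, hq⟩
    refine ⟨k, ?_⟩
    rw [← hqc, QuotientGroup.mk_mul, (QuotientGroup.eq_one_iff c).2 hc, mul_one,
      ← QuotientGroup.mk_pow, show q ^ p ^ k = 1 from congrArg Subtype.val hk, QuotientGroup.mk_one]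
  rw [Subgroup.mem_centralizer_iff]
  exact fun u hu => Subtype.ext (Subgroup.mem_centralizer_iff.1 hxC _ (hRQ u hu))

end Cfsg.Agent.S4693
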