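import Cfsg.Statements.S4694
import Cfsg.Agent.Lib.Block.CentralDefect
import Cfsg.Agent.Lib.BrauerPairs.PIndexBlock
import Cfsg.Agent.Lib.CharKernel
import Cfsg.Agent.Lib.Char.Monomial
import Cfsg.Agent.Lib.Char.Scalar
import Cfsg.Agent.S0887

set_option autoImplicit false
open Cfsg

namespace Cfsg.Agent.S4694

/-- Fix a prime p and a maximal ideal M of the algebraic integers containing p, a p-block B of the finite group G and a Brauer pair (Q, e) of B. Let T be the stabilizer of e in N_G(Q) and suppose that (Q, e) carries a weight: the block of T whose idempotent is that of e contains an irreducible character χ that is constant on the cosets of Q and whose degree has p-part equal to the p-part of the index of Q in T. Then Z(Q) is a defect group of e as a block of C_G(Q), and Q is the largest normal p-subgroup of T: every p-subgroup of T normalized by T lies in Q. -/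
theorem result {G : Type*} [Group G] [Fintype G] (p : ℕ) [Fact p.Prime] (M : Ideal Cfsg.AlgInt) (hM : Cfsg.IsPModular p M) (B : Set (Cfsg.IrrCharacter G)) (Q : Subgroup G) (e : Set (Cfsg.IrrCharacter (Subgroup.centralizer (Q : Set G)))) (hQe : Cfsg.IsBrauerPairOf p M B Q e) (T : Subgroup G) (hT : ∀ y : G, y ∈ T ↔ y ∈ Subgroup.normalizer (Q : Set G) ∧ Cfsg.StabilizesBlock (Subgroup.centralizer (Q : Set G)) e y) (F' : Set (Cfsg.IrrCharacter T)) (hF' : Cfsg.IsPBlock M F') (hF'e : ∀ t : T, Cfsg.blockCoeff F' t = Cfsg.subgroupBlockCoeff (Subgroup.centralizer (Q : Set G)) e (t : G)) (χ : Cfsg.IrrCharacter T) (hχ : χ ∈ F') (hχQ : ∀ q : G, q ∈ Q → ∀ t : T, ∀ t' : T, (t' : G) = q * (t : G) → (χ : T → ℂ) t' = (χ : T → ℂ) t) (hdeg : (Cfsg.charDegree (χ : T → ℂ)).factorization p + (Nat.card Q).factorization p = (Nat.card T).factorization p) : Cfsg.IsDefectGroup p M e ((Q ⊓ Subgroup.centralizer (Q : Set G)).subgroupOf (Subgroup.centralizer (Q : Set G))) ∧ ∀ R : Subgroup G, R ≤ T → IsPGroup p R → (∀ t ∈ T,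 t ∈ Subgroup.normalizer (R : Set G)) → R ≤ Q := by
  classical
  haveI : M.IsPrime := hM.2.1.isPrime
  obtain ⟨⟨hQp, he⟩, -, -⟩ := hQe
  have hQN : Q ≤ Subgroup.normalizer (Q : Set G) := Subgroup.le_normalizer
  have hCN : (Subgroup.centralizer (Q : Set G)) ≤ Subgroup.normalizer (Q : Set G) := Subgroup.centralizer_le_normalizer _
  have hcom : ∀ q ∈ Q, ∀ c ∈ (Subgroup.centralizer (Q : Set G)), q * c = c * q := fun q hq c hc =>
    Subgroup.mem_centralizer_iff.1 hc q hq
  have hCT : (Subgroup.centralizer (Q : Set G)) ≤ T := fun c hc => (hT c).2 ⟨hCN hc, Lib.BrauerPairs.mem_normalizer_centralizer (hCN hc),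
    fun ξ hξ => ⟨ξ, hξ, fun k k' hk => by
      rw [show k' = ⟨c, hc⟩ * k * (⟨c, hc⟩ : (Subgroup.centralizer (Q : Set G)))⁻¹ from Subtype.ext hk]
      exact Lib.Char.isClassFunction_of_isIrr ξ.2 k ⟨c, hc⟩⟩⟩
  have hQT : Q ≤ T := fun q hq => (hT q).2 ⟨hQN hq, Lib.BrauerPairs.mem_normalizer_centralizer (hQN hq),
    fun ξ hξ => ⟨ξ, hξ, fun k k' hk => by
      rw [show k' = k from Subtype.ext (by rw [hk, hcom q hq k k.2, mul_inv_cancel_right])]⟩⟩
  have hTN : T ≤ Subgroup.normalizer (Q : Set G) := fun t ht => ((hT t).1 ht).1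
  set QT := Q.subgroupOf T with hQTdef
  set CT := (Subgroup.centralizer (Q : Set G)).subgroupOf T with hCTdef
  haveI : QT.Normal := Subgroup.normal_subgroupOf_of_le_normalizer hTN
  haveI : CT.Normal := Subgroup.normal_subgroupOf_of_le_normalizer fun t ht =>
    Lib.BrauerPairs.mem_normalizer_centralizer (hTN ht)
  have hker : ∀ q ∈ QT, (χ : T → ℂ) q = (χ : T → ℂ) 1 := fun q hq =>
    hχQ q (Subgroup.mem_subgroupOf.1 hq) 1 q (by simp)
  have hcardQ : Nat.card QT = Nat.card Q :=
    Nat.card_congr (Subgroup.subgroupOfEquivOfLe hQT).toEquiv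
  have hχp : (Cfsg.charDegree (χ : T → ℂ)).factorization p = QT.index.factorization p := by
    have h : (Nat.card T).factorization p = (Nat.card Q).factorization p + QT.index.factorization p := by
      rw [← QT.card_mul_index, Nat.factorization_mul Nat.card_pos.ne'
        Subgroup.index_ne_zero_of_finite, Finsupp.add_apply, hcardQ]
    omega
  haveI := Fintype.ofFinite T
  -- degree bound for a constituent on a normal subgroup above `Q`
  have hbound : ∀ (S : Subgroup T) [S.Normal], QT ≤ S → ∃ θ : Cfsg.IrrCharacter S,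
      (∀ [Fintype S], Cfsg.classInner (fun s : S => (χ : T → ℂ) s) (θ : S → ℂ) ≠ 0) ∧
      (∀ q ∈ QT.subgroupOf S, (θ : S → ℂ) q = (θ : S → ℂ) 1) ∧
      (QT.subgroupOf S).index.factorization p ≤ (Cfsg.charDegree (θ : S → ℂ)).factorization p := by
    intro S _ hS
    letI := Fintype.ofFinite S
    obtain ⟨θ, hθ⟩ := Lib.Block.exists_constituent_restrict S χ
    refine ⟨θ, fun {i} => by convert hθ, fun q hq => ?_, ?_⟩
    · exact Lib.Char.constituent_apply_eq
        (Lib.Char.isCharacter_restrict (Lib.Char.isCharacter_of_isIrr χ.2) S) θ.2 hθ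
        (hker _ (Subgroup.mem_subgroupOf.1 hq))
    · obtain ⟨hd, hi⟩ := S0887.result S (χ : T → ℂ) χ.2 (θ : S → ℂ) θ.2 hθ _ _
        (Lib.Block.irr_one_eq_natCast χ) (Lib.Block.irr_one_eq_natCast θ)
      have h2 : (QT.subgroupOf S).index * S.index = QT.index := Subgroup.relIndex_mul_index hS
      have h3 := (Nat.factorization_le_iff_dvd (Lib.Block.charDegree_pos χ).ne'
        (Nat.mul_ne_zero (Lib.Block.charDegree_pos θ).ne' Subgroup.index_ne_zero_of_finite)).2
        ((Nat.mul_div_cancel' hd).symm.dvd.trans (Nat.mul_dvd_mul_left _ hi)) p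
      rw [Nat.factorization_mul (Lib.Block.charDegree_pos θ).ne' Subgroup.index_ne_zero_of_finite,
        Finsupp.add_apply, hχp, ← h2, Nat.factorization_mul Subgroup.index_ne_zero_of_finite
          Subgroup.index_ne_zero_of_finite, Finsupp.add_apply] at h3
      omega
  refine ⟨?_, fun R hRT hRp hRn => ?_⟩
  · -- the defect group
    set S := QT ⊔ CT with hS
    haveI : S.Normal := Subgroup.sup_normal QT CT
    haveI : (QT.subgroupOf S).Normal := (inferInstance : QT.Normal).subgroupOf S
    letI := Fintype.ofFinite S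
    letI := Fintype.ofFinite (Subgroup.centralizer (Q : Set G))
    obtain ⟨η, hη, hηQ, hηp⟩ := hbound S le_sup_left
    obtain ⟨η₀, hη₀, hηe⟩ := Lib.CharKernel.exists_irr_quotient (QT.subgroupOf S) η.2 hηQ
    let inc : (Subgroup.centralizer (Q : Set G)) →* S :=
      { toFun := fun c => ⟨⟨c, hCT c.2⟩, Subgroup.mem_sup_right (Subgroup.mem_subgroupOf.2 c.2)⟩
        map_one' := rfl
        map_mul' := fun _ _ => rfl }
    let φ : (Subgroup.centralizer (Q : Set G)) →* S ⧸ QT.subgroupOf S := (QuotientGroup.mk' _).comp inc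
    have hφ : Function.Surjective φ := by
      intro x
      obtain ⟨⟨s, hs⟩, rfl⟩ := QuotientGroup.mk_surjective x
      obtain ⟨q, hq, c, hc, rfl⟩ := Subgroup.mem_sup_of_normal_right.1 hs
      refine ⟨⟨((c : T) : G), hc⟩, QuotientGroup.eq.2 (Subgroup.mem_subgroupOf.2 ?_)⟩
      show c⁻¹ * (q * c) ∈ QT
      have := (inferInstance : QT.Normal).conj_mem q hq c⁻¹
      simpa [mul_assoc] using this
    let θ : Cfsg.IrrCharacter (Subgroup.centralizer (Q : Set G)) := ⟨η₀ ∘ φ, Lib.Char.isIrrCharacter_comp hη₀ φ hφ⟩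
    have hθv : ∀ c : (Subgroup.centralizer (Q : Set G)), (θ : (Subgroup.centralizer (Q : Set G)) → ℂ) c = (η : S → ℂ) (inc c) := fun c => hηe (inc c)
    have hθ1 : (θ : (Subgroup.centralizer (Q : Set G)) → ℂ) 1 = (η : S → ℂ) 1 := by rw [hθv, map_one]
    have hsupp : ∀ t : T, t ∉ S → (Lib.Block.eIdem F').coeff t = 0 := fun t ht => by
      rw [Lib.Block.coeff_eIdem, hF'e, Cfsg.subgroupBlockCoeff, dif_neg]
      exact fun h => ht (Subgroup.mem_sup_right (Subgroup.mem_subgroupOf.2 h))
    have hom : Lib.Block.omega (η : S → ℂ) (Lib.Block.toSub S (Lib.Block.eIdem F')) =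
        Lib.Block.omega (θ : (Subgroup.centralizer (Q : Set G)) → ℂ) (Lib.Block.eIdem e) := by
      rw [Lib.Block.omega, Lib.Block.omega, hθ1, Lib.Block.pair_eq_sum, Lib.Block.pair_eq_sum]
      congr 1
      symm
      refine Fintype.sum_of_injective inc (fun a b h => Subtype.ext ?_) _ _ (fun s hs => ?_) fun c => ?_
      · exact congrArg (fun s : S => ((s : T) : G)) h
      · rw [Lib.Block.coeff_toSub, Lib.Block.coeff_eIdem, hF'e, Cfsg.subgroupBlockCoeff, dif_neg,
          zero_mul]
        exact fun h => hs ⟨⟨_, h⟩, rfl⟩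
      · rw [Lib.Block.coeff_toSub, Lib.Block.coeff_eIdem, Lib.Block.coeff_eIdem, hθv, hF'e,
          Cfsg.subgroupBlockCoeff, dif_pos]
        rfl
    have hθe : θ ∈ e := by
      have h := Lib.Block.omega_eq_omega_of_constituent S hη
        (Lib.Block.isClassCoeff_eIdem F') hsupp
      rw [Lib.Block.omega_eIdem, if_pos hχ, hom, Lib.Block.omega_eIdem] at h
      by_contra hn
      rw [if_neg hn] at h
      exact one_ne_zero h
    set D := (Q ⊓ (Subgroup.centralizer (Q : Set G))).subgroupOf (Subgroup.centralizer (Q : Set G)) with hD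
    have hkerφ : φ.ker = D := by
      ext c
      rw [MonoidHom.mem_ker, MonoidHom.comp_apply, QuotientGroup.mk'_apply, QuotientGroup.eq_one_iff,
        hD]
      simp only [Subgroup.mem_subgroupOf, Subgroup.mem_inf]
      exact ⟨fun h => ⟨h, c.2⟩, fun h => h.1⟩
    have hidx : D.index = (QT.subgroupOf S).index := by
      rw [← hkerφ, Subgroup.index_ker, MonoidHom.range_eq_top.2 hφ, Subgroup.card_top]
      rfl
    have hDZ : D ≤ Subgroup.center (Subgroup.centralizer (Q : Set G)) := fun z hz =>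
      Subgroup.mem_center_iff.2 fun g => Subtype.ext (hcom _ (Subgroup.mem_subgroupOf.1 hz).1 g g.2).symm
    have hdegeq : Cfsg.charDegree (θ : (Subgroup.centralizer (Q : Set G)) → ℂ) = Cfsg.charDegree (η : S → ℂ) := by
      rw [Cfsg.charDegree, Cfsg.charDegree, hθ1]
    have hdvd := Lib.Char.degree_dvd_index_of_scalar θ.2 D fun z hz => by
      rw [← hkerφ, MonoidHom.mem_ker] at hz
      show ‖η₀ (φ z)‖ = ‖η₀ (φ 1)‖
      rw [hz, map_one]
    have hθp : (Cfsg.charDegree (θ : (Subgroup.centralizer (Q : Set G)) → ℂ)).factorization p = D.index.factorization p := by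
      refine le_antisymm ((Nat.factorization_le_iff_dvd (Lib.Block.charDegree_pos θ).ne'
        Subgroup.index_ne_zero_of_finite).2 hdvd p) ?_
      rw [hidx, hdegeq]
      exact hηp
    have h := Lib.Block.isDefectGroup_of_central hM
      ((hQp.to_le inf_le_left).comap_subtype : IsPGroup p D) hDZ θ hθp
    rwa [Lib.Block.eq_of_mem_of_mem (Lib.Block.isPBlock_blockOf θ) he (Lib.Block.mem_blockOf_self θ) hθe] at h
  · -- radicality
    set RT := R.subgroupOf T with hRTdef
    haveI : RT.Normal := Subgroup.normal_subgroupOf_of_le_normalizer fun t ht => hRn t ht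
    set S := RT ⊔ QT with hS
    haveI : S.Normal := Subgroup.sup_normal RT QT
    haveI : (QT.subgroupOf S).Normal := (inferInstance : QT.Normal).subgroupOf S
    have hSp : IsPGroup p S := IsPGroup.to_sup_of_normal_right hRp.comap_subtype hQp.comap_subtype
    obtain ⟨θ, -, hθQ, hθp⟩ := hbound S le_sup_right
    obtain ⟨k, hk⟩ := hSp.index (QT.subgroupOf S)
    have hone : (QT.subgroupOf S).index = 1 := by
      have hsum := Lib.CharKernel.sum_trivialOn_degree_mul (QT.subgroupOf S) 1
      rw [if_pos (one_mem _), hk] at hsum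
      simp only [Lib.Block.irr_one_eq_natCast, ← Nat.cast_mul, ← Nat.cast_sum, Nat.cast_inj] at hsum
      rw [hk, Nat.Prime.factorization_pow hM.1, Finsupp.single_eq_same] at hθp
      have hge : p ^ k ≤ Cfsg.charDegree (θ : S → ℂ) := Nat.le_of_dvd (Lib.Block.charDegree_pos θ)
        ((hM.1.pow_dvd_iff_le_factorization (Lib.Block.charDegree_pos θ).ne').2 hθp)
      by_contra hne
      rw [hk] at hne
      let triv : Cfsg.IrrCharacter S := ⟨fun _ => 1, Lib.Char.isIrrCharacter_one⟩
      have hd1 : Cfsg.charDegree (triv : S → ℂ) = 1 := by simp [Cfsg.charDegree, triv]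
      have hne' : θ ≠ triv := fun h => hne (le_antisymm (by rw [h, hd1] at hge; exact hge)
        (pow_pos hM.1.pos k))
      have h2 : Cfsg.charDegree (θ : S → ℂ) * Cfsg.charDegree (θ : S → ℂ) + 1 ≤ p ^ k := by
        rw [← hsum]
        refine le_trans (le_of_eq ?_) (Finset.sum_le_sum_of_subset (s := {θ, triv}) ?_)
        · rw [Finset.sum_pair hne', hd1]
        · intro x hx
          refine Finset.mem_filter.2 ⟨Finset.mem_univ _, ?_⟩
          rcases Finset.mem_insert.1 hx with rfl | hx
          · exact fun n hn => (hθQ n hn).trans (Lib.Block.irr_one_eq_natCast _)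
          · rw [Finset.mem_singleton.1 hx]
            exact fun _ _ => (Lib.Block.irr_one_eq_natCast triv)
      nlinarith
    intro r hr
    have h := Subgroup.index_eq_one.1 hone
    rw [Subgroup.subgroupOf_eq_top] at h
    exact Subgroup.mem_subgroupOf.1 (h (Subgroup.mem_sup_left (show (⟨r, hRT hr⟩ : T) ∈ RT from hr)))

end Cfsg.Agent.S4694
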