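import Mathlib
import Cfsg.Statements.S4699

set_option autoImplicit false
open Cfsg

namespace Cfsg.Agent.S4699

open Polynomial

section EndLemmas

variable {F : Type*} [Field F] {V : Type*} [AddCommGroup V] [Module F V]

theorem comm_iter_range (X : Module.End F V) (D : ℕ) (hD : X ^ D = 0) (k : ℕ) :
    ∀ (m : ℕ) (a b : ℕ) (β : Module.End F V), k + D ≤ a + b + m + 1 →
      ∀ w, (X ^ a * ((LinearMap.mulLeft F X - LinearMap.mulRight F X) ^ m) β * X ^ b) w ∈
        LinearMap.range (X ^ k) := by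
  intro m
  induction m with
  | zero =>
    intro a b β h w
    rcases le_or_gt k a with hka | hka
    · obtain ⟨c, rfl⟩ := Nat.exists_eq_add_of_le hka
      rw [pow_zero, Module.End.one_apply, pow_add, mul_assoc, mul_assoc, Module.End.mul_apply]
      exact LinearMap.mem_range_self _ _
    · rw [show X ^ b = 0 from pow_eq_zero_of_le (by omega) hD, mul_zero, LinearMap.zero_apply]
      exact zero_mem _
  | succ m ih =>
    intro a b β h w
    set γ := ((LinearMap.mulLeft F X - LinearMap.mulRight F X) ^ m) β with hγ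
    have hh : ((LinearMap.mulLeft F X - LinearMap.mulRight F X) ^ (m + 1)) β = X * γ - γ * X := by
      rw [pow_succ', Module.End.mul_apply, ← hγ, LinearMap.sub_apply, LinearMap.mulLeft_apply,
        LinearMap.mulRight_apply]
    rw [hh]
    have e : X ^ a * (X * γ - γ * X) * X ^ b = X ^ (a + 1) * γ * X ^ b - X ^ a * γ * X ^ (b + 1) := by
      rw [pow_succ X a, pow_succ' X b]
      noncomm_ring
    rw [e, LinearMap.sub_apply]
    exact sub_mem (ih (a + 1) b β (by omega) w) (ih a (b + 1) β (by omega) w)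

theorem poly_geom (p n : ℕ) [Fact p.Prime] [CharP F p] :
    (∑ i ∈ Finset.range (p ^ n), (Polynomial.X : F[X]) ^ i) = (Polynomial.X - 1) ^ (p ^ n - 1) := by
  have h0 : (Polynomial.X : F[X]) - 1 ≠ 0 := by
    simpa using Polynomial.X_sub_C_ne_zero (1 : F)
  apply mul_right_cancel₀ h0
  rw [geom_sum_mul, ← pow_succ, Nat.sub_add_cancel (Nat.one_le_pow _ _ (Fact.out : p.Prime).pos),
    sub_pow_char_pow, one_pow]

theorem trace_range (p n : ℕ) [Fact p.Prime] [CharP F p] (u v : Module.End F V) (huv : u * v = 1) (hvu : v * u = 1)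
    (D k : ℕ) (hD : (u - 1) ^ D = 0) (hk : k + D ≤ p ^ n) (α : Module.End F V) (w : V) :
    (∑ i ∈ Finset.range (p ^ n), u ^ i * α * v ^ i) w ∈ LinearMap.range ((u - 1) ^ k) := by
  set L := LinearMap.mulLeft F u with hL
  set R := LinearMap.mulRight F v with hR
  set M := LinearMap.mulRight F u with hM
  have hLR : Commute L R := LinearMap.commute_mulLeft_right u v
  have hC : ∀ i : ℕ, ((L * R) ^ i) α = u ^ i * α * v ^ i := by
    intro i
    rw [hLR.mul_pow, hL, hR, LinearMap.pow_mulLeft, LinearMap.pow_mulRight, Module.End.mul_apply,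
      LinearMap.mulRight_apply, LinearMap.mulLeft_apply, mul_assoc]
  have hsum : (∑ i ∈ Finset.range (p ^ n), u ^ i * α * v ^ i) = ((L * R - 1) ^ (p ^ n - 1)) α := by
    have h := congrArg (Polynomial.aeval (L * R)) (poly_geom (F := F) p n)
    simp only [map_sum, map_pow, map_sub, Polynomial.aeval_X, map_one] at h
    rw [← h, LinearMap.sum_apply]
    exact Finset.sum_congr rfl fun i _ => (hC i).symm
  have hdiff : L * R - 1 =
      (LinearMap.mulLeft F (u - 1) - LinearMap.mulRight F (u - 1)) * R := by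
    refine LinearMap.ext fun β => ?_
    simp only [hL, hR, Module.End.mul_apply, LinearMap.sub_apply, LinearMap.mulLeft_apply,
      LinearMap.mulRight_apply, Module.End.one_apply]
    rw [sub_mul, mul_sub, one_mul, mul_one, mul_assoc β v u, hvu, mul_one]
    abel
  have hcomm : Commute (LinearMap.mulLeft F (u - 1) - LinearMap.mulRight F (u - 1)) R := by
    refine Commute.sub_left (LinearMap.commute_mulLeft_right _ _) ?_
    show _ = _
    refine LinearMap.ext fun β => ?_
    simp only [hR, Module.End.mul_apply, LinearMap.mulRight_apply]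
    rw [mul_assoc, mul_assoc, mul_sub, sub_mul, hvu, huv, one_mul, mul_one]
  rw [hsum, hdiff, hcomm.mul_pow, Module.End.mul_apply]
  have := comm_iter_range (u - 1) D hD k (p ^ n - 1) 0 0 ((R ^ (p ^ n - 1)) α)
    (by have := Nat.one_le_pow n p (Fact.out : p.Prime).pos; omega) w
  simpa using this

theorem aeval_semiconj {g U U' : Module.End F V} (h : g * U = U' * g) (P : F[X]) :
    g * Polynomial.aeval U P = Polynomial.aeval U' P * g := by
  induction P using Polynomial.induction_on' with
  | add P Q hP hQ => rw [map_add, map_add, mul_add, add_mul, hP, hQ]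
  | monomial k c =>
    rw [Polynomial.aeval_monomial, Polynomial.aeval_monomial]
    have hk : g * U ^ k = U' ^ k * g := SemiconjBy.pow_right h k
    rw [← mul_assoc, ← Algebra.commutes c g, mul_assoc, hk, mul_assoc]

theorem isUnit_aeval {p n : ℕ} (u : Module.End F V) (hu : (u - 1) ^ p ^ n = 0) (h : F[X])
    (h1 : h.eval 1 ≠ 0) : ∃ s : Module.End F V, Polynomial.aeval u h * s = 1 ∧ s * Polynomial.aeval u h = 1 := by
  have hco : IsCoprime ((Polynomial.X - Polynomial.C (1 : F)) ^ p ^ n) h :=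
    ((Polynomial.irreducible_X_sub_C (1 : F)).coprime_iff_not_dvd.mpr
      (fun hd => h1 (Polynomial.dvd_iff_isRoot.mp hd))).pow_left
  obtain ⟨t, s, hts⟩ := hco
  have h2 := congrArg (Polynomial.aeval u) hts
  simp only [map_add, map_mul, map_pow, map_sub, Polynomial.aeval_X, Polynomial.C_1, map_one, hu, mul_zero,
    zero_add] at h2
  refine ⟨Polynomial.aeval u s, ?_, h2⟩
  rw [← map_mul, mul_comm h s, map_mul]
  exact h2

end EndLemmas

section Main

variable {G : Type*} [Group G]

theorem zpow_exponent_eq_one {p n : ℕ} [Fact p.Prime] {u g : G} (hu : orderOf u = p ^ n)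
    {c : ℕ} (hc : g * u * g⁻¹ = u ^ c) (hcp : c % p = 1) {m : ℕ} (hm : m.Coprime p)
    (hgm : Commute (g ^ m) u) : Commute g u := by
  have hiter : ∀ k : ℕ, g ^ k * u * (g ^ k)⁻¹ = u ^ (c ^ k) := by
    intro k
    induction k with
    | zero => simp
    | succ k ih =>
      calc g ^ (k + 1) * u * (g ^ (k + 1))⁻¹ = g * (g ^ k * u * (g ^ k)⁻¹) * g⁻¹ := by
            rw [pow_succ']; group
        _ = (g * u * g⁻¹) ^ (c ^ k) := by rw [ih, conj_pow]
        _ = u ^ (c ^ (k + 1)) := by rw [hc, ← pow_mul, pow_succ']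
  have hq : Commute (g ^ p ^ n) u := by
    have hdvd : (p : ℤ) ∣ (c : ℤ) - 1 := by
      refine ⟨((c / p : ℕ) : ℤ), ?_⟩
      have := Nat.div_add_mod c p
      rw [hcp] at this
      have h2 : (p : ℤ) * ((c / p : ℕ) : ℤ) + 1 = (c : ℤ) := by exact_mod_cast this
      linarith
    have h3 := dvd_sub_pow_of_dvd_sub hdvd n
    rw [one_pow] at h3
    have h4 : ((p ^ n : ℕ) : ℤ) ∣ ((c ^ p ^ n : ℕ) : ℤ) - ((1 : ℕ) : ℤ) := by
      push_cast
      exact (pow_dvd_pow _ (by omega)).trans h3
    have h5 : u ^ (c ^ p ^ n) = u := by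
      conv_rhs => rw [← pow_one u]
      rw [pow_eq_pow_iff_modEq, hu]
      exact (Nat.modEq_iff_dvd.mpr h4).symm
    have h6 := hiter (p ^ n)
    rw [h5, mul_inv_eq_iff_eq_mul] at h6
    exact h6
  have hcop : Nat.Coprime m (p ^ n) := Nat.Coprime.pow_right n hm
  obtain ⟨x, y, hxy⟩ := Nat.Coprime.isCoprime hcop
  have : g = (g ^ m) ^ x * (g ^ p ^ n) ^ y := by
    rw [← zpow_natCast g m, ← zpow_natCast g (p ^ n), ← zpow_mul, ← zpow_mul, ← zpow_add, mul_comm _ x,
      mul_comm _ y, hxy, zpow_one]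
  rw [this]
  exact (hgm.zpow_left x).mul_left (hq.zpow_left y)

end Main

/-- Let p be a prime and G a finite group whose Sylow p-subgroup P is cyclic of order p^n with n ≥ 2 and meets every other Sylow p-subgroup trivially. Then every faithful irreducible representation of G on a finite-dimensional space over a finite field of characteristic p has dimension at least p^n − (p − 1). -/
theorem result {G : Type*} [Group G] [Finite G] (p : ℕ) [Fact p.Prime] (P : Sylow p G) (hcyc : IsCyclic P) (n : ℕ) (hn : 2 ≤ n) (hPn : Nat.card P = p ^ n) (hTI : ∀ Q : Sylow p G, Q ≠ P → (P : Subgroup G) ⊓ (Q : Subgroup G) = ⊥) (F : Type*) [Field F] [Finite F] [CharP F p] (V : Type*) [AddCommGroup V] [Module F V] [FiniteDimensional F V] (ρ : Representation F G V) (hfaith : Function.Injective ρ) (hirr : ρ.IsIrreducible) : p ^ n - (p - 1) ≤ Module.finrank F V := by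
  classical
  have hp : p.Prime := Fact.out
  have hq1 : 1 < p ^ n := Nat.one_lt_pow (by omega) hp.one_lt
  by_contra hlt
  push Not at hlt
  obtain ⟨⟨u, huP⟩, hgen⟩ := IsCyclic.exists_generator (α := (P : Subgroup G))
  have hPmem : ∀ x : G, x ∈ (P : Subgroup G) → ∃ k, k < p ^ n ∧ x = u ^ k := by
    intro x hx
    obtain ⟨j, hj⟩ := hgen ⟨x, hx⟩
    have hj' : u ^ j = x := congrArg (fun z : (P : Subgroup G) => (z : G)) hj
    have hord : orderOf u ∣ p ^ n := by
      rw [← hPn, ← Subgroup.orderOf_mk u huP]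
      exact orderOf_dvd_natCard _
    have hmem : x ∈ Subgroup.zpowers u := ⟨j, hj'⟩
    rw [mem_zpowers_iff_mem_range_orderOf, Finset.mem_image] at hmem
    obtain ⟨k, hk, hk'⟩ := hmem
    exact ⟨k, (Finset.mem_range.mp hk).trans_le (Nat.le_of_dvd (by positivity) hord), hk'.symm⟩
  have hu : orderOf u = p ^ n := by
    rw [← hPn, ← Subgroup.orderOf_mk u huP]
    exact orderOf_eq_card_of_forall_mem_zpowers hgen
  have hpowinj : ∀ a b : ℕ, a < p ^ n → b < p ^ n → u ^ a = u ^ b → a = b := fun a b ha hb h =>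
    pow_injOn_Iio_orderOf (by rw [Set.mem_Iio, hu]; exact ha) (by rw [Set.mem_Iio, hu]; exact hb) h
  have hmod : ∀ a : ℕ, u ^ (a % p ^ n) = u ^ a := fun a => by rw [← hu, pow_mod_orderOf]
  -- the normalizer
  set N : Subgroup G := Subgroup.normalizer ((P : Subgroup G) : Set G) with hN
  have hPN : (P : Subgroup G) ≤ N := Subgroup.le_normalizer
  have hconj : ∀ g ∈ N, ∃ a, a < p ^ n ∧ g * u * g⁻¹ = u ^ a := fun g hg =>
    hPmem _ ((Subgroup.mem_normalizer_iff.mp hg u).mp huP)
  have hcommP : ∀ x ∈ (P : Subgroup G), Commute x u := by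
    intro x hx
    obtain ⟨k, -, rfl⟩ := hPmem x hx
    exact Commute.pow_self u k
  haveI hPn' : ((P : Subgroup G).subgroupOf N).Normal := Subgroup.normal_in_normalizer
  set m : ℕ := ((P : Subgroup G).subgroupOf N).index with hm
  have hmp : m.Coprime p := by
    have h := P.not_dvd_index
    have h2 : (P : Subgroup G).relIndex N ∣ (P : Subgroup G).index := Subgroup.relIndex_dvd_index_of_le hPN
    exact (Nat.Prime.coprime_iff_not_dvd hp).mpr (fun hd => h (hd.trans h2)) |>.symm
  have hpowm : ∀ g ∈ N, g ^ m ∈ (P : Subgroup G) := by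
    intro g hg
    have := ((P : Subgroup G).subgroupOf N).pow_index_mem ⟨g, hg⟩
    exact Subgroup.mem_subgroupOf.mp this
  set A : Finset ℕ := (Finset.range (p ^ n)).filter (fun a => ∃ g ∈ N, g * u * g⁻¹ = u ^ a) with hA
  have hAlt : ∀ a ∈ A, a < p ^ n := fun a ha => Finset.mem_range.mp (Finset.mem_filter.mp ha).1
  have hAp : ∀ a ∈ A, ¬ p ∣ a := by
    intro a ha hd
    obtain ⟨g, -, hg⟩ := (Finset.mem_filter.mp ha).2
    obtain ⟨b, rfl⟩ := hd
    have h1 : (g * u * g⁻¹) ^ p ^ (n - 1) = 1 := by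
      rw [hg, ← pow_mul, mul_comm p b, mul_assoc, ← pow_succ', Nat.sub_add_cancel (by omega : 1 ≤ n),
        mul_comm, pow_mul, ← hu, pow_orderOf_eq_one, one_pow]
    have h2 : orderOf (g * u * g⁻¹) = p ^ n := by rw [← MulAut.conj_apply, MulEquiv.orderOf_eq, hu]
    have h3 := Nat.le_of_dvd (pow_pos hp.pos _) (orderOf_dvd_of_pow_eq_one h1)
    rw [h2] at h3
    exact absurd h3 (not_le.mpr (Nat.pow_lt_pow_right hp.one_lt (by omega)))
  have hAinj : ∀ a ∈ A, ∀ b ∈ A, a % p = b % p → a = b := by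
    intro a ha b hb hab
    obtain ⟨g, hgN, hg⟩ := (Finset.mem_filter.mp ha).2
    obtain ⟨g', hg'N, hg'⟩ := (Finset.mem_filter.mp hb).2
    obtain ⟨c, -, hc⟩ := hconj g'⁻¹ (N.inv_mem hg'N)
    have hcb : u ^ (c * b) = u := by
      calc u ^ (c * b) = (g'⁻¹ * u * g'⁻¹⁻¹) ^ b := by rw [hc, pow_mul]
        _ = g'⁻¹ * u ^ b * g'⁻¹⁻¹ := conj_pow
        _ = u := by rw [← hg']; group
    have hcb1 : (c * b) % p = 1 := by
      conv_rhs at hcb => rw [← pow_one u]
      rw [pow_eq_pow_iff_modEq, hu] at hcb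
      have h := hcb.of_dvd (dvd_pow_self p (by omega : n ≠ 0))
      rw [Nat.ModEq, Nat.mod_eq_of_lt hp.one_lt] at h
      exact h
    have hk : (g'⁻¹ * g) * u * (g'⁻¹ * g)⁻¹ = u ^ (c * a) := by
      calc (g'⁻¹ * g) * u * (g'⁻¹ * g)⁻¹ = g'⁻¹ * (g * u * g⁻¹) * g'⁻¹⁻¹ := by group
        _ = (g'⁻¹ * u * g'⁻¹⁻¹) ^ a := by rw [hg, conj_pow]
        _ = u ^ (c * a) := by rw [hc, pow_mul]
    have hca1 : (c * a) % p = 1 := by rw [Nat.mul_mod, hab, ← Nat.mul_mod, hcb1]
    have hkN : g'⁻¹ * g ∈ N := N.mul_mem (N.inv_mem hg'N) hgN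
    have hcm := zpow_exponent_eq_one hu hk hca1 hmp (hcommP _ (hpowm _ hkN))
    apply hpowinj a b (hAlt a ha) (hAlt b hb)
    rw [← hg, ← hg']
    calc g * u * g⁻¹ = g' * ((g'⁻¹ * g) * u * (g'⁻¹ * g)⁻¹) * g'⁻¹ := by group
      _ = g' * u * g'⁻¹ := by rw [hcm.eq, mul_inv_cancel_right]
  set e := A.card with he
  have hep : e ≤ p - 1 := by
    have h1 : (A.image (fun a => a % p)) ⊆ Finset.Ico 1 p := by
      intro x hx
      obtain ⟨a, ha, rfl⟩ := Finset.mem_image.mp hx
      rw [Finset.mem_Ico]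
      have := Nat.mod_lt a hp.pos
      have h2 : a % p ≠ 0 := fun h => hAp a ha (Nat.dvd_of_mod_eq_zero h)
      omega
    have h2 := Finset.card_le_card h1
    rw [Finset.card_image_of_injOn (fun a ha b hb h => hAinj a ha b hb h), Nat.card_Ico] at h2
    exact h2
  have h1A : 1 ∈ A := Finset.mem_filter.mpr ⟨Finset.mem_range.mpr hq1, 1, N.one_mem, by simp⟩
  have he1 : 1 ≤ e := Finset.card_pos.mpr ⟨1, h1A⟩
  -- the operators
  haveI hVnt : Nontrivial V := by
    by_contra h
    rw [not_nontrivial_iff_subsingleton] at h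
    have h2 : u = 1 := hfaith (Subsingleton.elim _ _)
    rw [h2, orderOf_one] at hu
    omega
  haveI : Nontrivial (Module.End F V) := Module.End.instNontrivial
  set U : Module.End F V := ρ u with hU
  haveI : CharP (Module.End F V) p := charP_of_injective_algebraMap (algebraMap F (Module.End F V)).injective p
  have hUq : (U - 1) ^ p ^ n = 0 := by
    rw [sub_pow_char_pow_of_commute p n (Commute.one_right U), one_pow, hU, ← map_pow, ← hu, pow_orderOf_eq_one,
      map_one, sub_self]
  set D := Module.finrank F V with hD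
  have hXD : (U - 1) ^ D = 0 := by
    refine LinearMap.ext fun w => ?_
    have hw : w ∈ LinearMap.ker ((U - 1) ^ p ^ n) := by rw [hUq]; exact rfl
    exact Module.End.ker_pow_le_ker_pow_finrank (U - 1) (p ^ n) hw
  set P0 : Polynomial F := ∏ a ∈ A, ((Polynomial.X : Polynomial F) ^ a - 1) with hP0
  set h0 : Polynomial F := ∏ a ∈ A, ∑ i ∈ Finset.range a, (Polynomial.X : Polynomial F) ^ i with hh0
  have hPh : P0 = (Polynomial.X - 1) ^ e * h0 := by
    rw [hP0, hh0, he, ← Finset.prod_const, ← Finset.prod_mul_distrib]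
    exact Finset.prod_congr rfl fun a _ => by rw [mul_comm, geom_sum_mul]
  have hh1 : h0.eval 1 ≠ 0 := by
    rw [hh0, Polynomial.eval_prod, Finset.prod_ne_zero_iff]
    intro a ha
    simp only [Polynomial.eval_finsetSum, Polynomial.eval_pow, Polynomial.eval_X, one_pow, Finset.sum_const,
      Finset.card_range, nsmul_one]
    exact fun h => hAp a ha ((CharP.cast_eq_zero_iff F p a).mp h)
  obtain ⟨sU, hs1, hs2⟩ := isUnit_aeval U hUq h0 hh1
  set f : Module.End F V := Polynomial.aeval U P0 with hf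
  have hfX : f = (U - 1) ^ e * Polynomial.aeval U h0 := by
    rw [hf, hPh, map_mul, map_pow, map_sub, Polynomial.aeval_X, map_one]
  have hfN : ∀ g ∈ N, ρ g * f = f * ρ g := by
    intro g hg
    obtain ⟨c, hcq, hc⟩ := hconj g hg
    have h1 : ρ g * U = U ^ c * ρ g := by
      rw [hU, ← map_pow, ← map_mul, ← map_mul, ← hc, inv_mul_cancel_right]
    rw [hf, aeval_semiconj h1 P0]
    congr 1
    have h2 : Polynomial.aeval (U ^ c) P0 = Polynomial.aeval U (P0.comp (Polynomial.X ^ c)) := by
      rw [Polynomial.aeval_comp, map_pow, Polynomial.aeval_X]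
    rw [h2]
    let I : Ideal (Polynomial F) := Ideal.span {(Polynomial.X : Polynomial F) ^ p ^ n - 1}
    have hI : Ideal.Quotient.mk I ((Polynomial.X : Polynomial F) ^ p ^ n) = 1 := by
      rw [← map_one (Ideal.Quotient.mk I), Ideal.Quotient.eq]
      exact Ideal.subset_span rfl
    have hImod : ∀ a : ℕ, Ideal.Quotient.mk I ((Polynomial.X : Polynomial F) ^ a) =
        Ideal.Quotient.mk I ((Polynomial.X : Polynomial F) ^ (a % p ^ n)) := by
      intro a
      conv_lhs => rw [← Nat.div_add_mod a (p ^ n), pow_add, pow_mul, map_mul, map_pow, hI, one_pow, one_mul]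
    have hbij : A.image (fun a => c * a % p ^ n) = A ∧ Set.InjOn (fun a => c * a % p ^ n) A := by
      have hsub : A.image (fun a => c * a % p ^ n) ⊆ A := by
        intro x hx
        obtain ⟨a, ha, rfl⟩ := Finset.mem_image.mp hx
        obtain ⟨g', hg'N, hg'⟩ := (Finset.mem_filter.mp ha).2
        refine Finset.mem_filter.mpr ⟨Finset.mem_range.mpr (Nat.mod_lt _ (by omega)), g * g', N.mul_mem hg hg'N, ?_⟩
        rw [hmod, pow_mul, ← hc, conj_pow, ← hg']; group
      have hinj : Set.InjOn (fun a => c * a % p ^ n) A := by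
        intro a ha b hb hab
        have h3 : u ^ (c * a) = u ^ (c * b) := by rw [← hmod (c * a), ← hmod (c * b)]; exact congrArg (u ^ ·) hab
        rw [pow_mul, pow_mul, ← hc, conj_pow, conj_pow] at h3
        exact hpowinj a b (hAlt a ha) (hAlt b hb) (mul_left_cancel (mul_right_cancel h3))
      exact ⟨Finset.eq_of_subset_of_card_le hsub (by rw [Finset.card_image_of_injOn hinj]), hinj⟩
    have hq : Ideal.Quotient.mk I (P0.comp (Polynomial.X ^ c)) = Ideal.Quotient.mk I P0 := by
      conv_rhs => rw [hP0, ← hbij.1, Finset.prod_image hbij.2, map_prod]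
      rw [hP0, Polynomial.prod_comp, map_prod]
      refine Finset.prod_congr rfl fun a _ => ?_
      rw [Polynomial.sub_comp, Polynomial.pow_comp, Polynomial.X_comp, Polynomial.one_comp, ← pow_mul, map_sub,
        map_sub, hImod (c * a)]
    obtain ⟨t, ht⟩ := Ideal.mem_span_singleton'.mp ((Ideal.Quotient.eq).mp hq)
    have h4 := congrArg (Polynomial.aeval U) ht
    rw [map_mul, map_sub, map_sub, map_pow, Polynomial.aeval_X, map_one, hU, ← map_pow, ← hu, pow_orderOf_eq_one,
      map_one, sub_self, mul_zero, ← hU] at h4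
    exact sub_eq_zero.mp h4.symm
  -- the relative trace
  letI : Fintype (G ⧸ N) := Fintype.ofFinite _
  let φ : G ⧸ N → Module.End F V := fun x => ρ x.out * f * ρ x.out⁻¹
  have hφ : ∀ g : G, φ (QuotientGroup.mk g) = ρ g * f * ρ g⁻¹ := by
    intro g
    obtain ⟨h, hh⟩ := QuotientGroup.mk_out_eq_mul N g
    show ρ (QuotientGroup.mk g : G ⧸ N).out * f * ρ (QuotientGroup.mk g : G ⧸ N).out⁻¹ = _
    rw [hh, mul_inv_rev, map_mul, map_mul]
    calc ρ g * ρ (h : G) * f * (ρ (h : G)⁻¹ * ρ g⁻¹) = ρ g * (ρ (h : G) * f) * ρ (h : G)⁻¹ * ρ g⁻¹ := by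
          simp only [mul_assoc]
      _ = ρ g * f * (ρ (h : G) * ρ (h : G)⁻¹) * ρ g⁻¹ := by rw [hfN _ h.2]; simp only [mul_assoc]
      _ = _ := by rw [← map_mul, mul_inv_cancel, map_one, mul_one]
  have hφsmul : ∀ (g : G) (x : G ⧸ N), φ (g • x) = ρ g * φ x * ρ g⁻¹ := by
    intro g x
    induction x using QuotientGroup.induction_on with
    | H y =>
      rw [show g • (QuotientGroup.mk y : G ⧸ N) = QuotientGroup.mk (g * y) from rfl, hφ, hφ, mul_inv_rev,
        map_mul, map_mul]
      simp only [mul_assoc]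
  set x0 : G ⧸ N := QuotientGroup.mk 1 with hx0
  have hux0 : ∀ i : ℕ, u ^ i • x0 = x0 := by
    intro i
    rw [hx0, show u ^ i • (QuotientGroup.mk 1 : G ⧸ N) = QuotientGroup.mk (u ^ i * 1) from rfl, QuotientGroup.eq]
    simpa using N.inv_mem (N.pow_mem (hPN huP) i)
  have hfree : ∀ (x : G ⧸ N), x ≠ x0 → ∀ i, i < p ^ n → u ^ i • x = x → i = 0 := by
    intro x hx i hi hfix
    induction x using QuotientGroup.induction_on with
    | H g =>
      have hgN : g ∉ N := fun h => hx (by rw [hx0, QuotientGroup.eq]; simpa using N.inv_mem h)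
      rw [show u ^ i • (QuotientGroup.mk g : G ⧸ N) = QuotientGroup.mk (u ^ i * g) from rfl, eq_comm,
        QuotientGroup.eq] at hfix
      set y := g⁻¹ * (u ^ i * g) with hy
      have hyP : y ∈ (P : Subgroup G) := by
        have hpg : IsPGroup p (Subgroup.zpowers y) := by
          have h1 : y = MulAut.conj g⁻¹ (u ^ i) := by rw [hy, MulAut.conj_apply, inv_inv, mul_assoc]
          have h2 : y ^ p ^ n = 1 := by
            rw [h1, ← map_pow, ← pow_mul, mul_comm, pow_mul, ← hu, pow_orderOf_eq_one, one_pow, map_one]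
          obtain ⟨j, -, hj⟩ := (Nat.dvd_prime_pow hp).mp (orderOf_dvd_of_pow_eq_one h2)
          exact IsPGroup.of_card (n := j) (by rw [Nat.card_zpowers, hj])
        have hle : Subgroup.zpowers y ≤ Subgroup.normalizer ((P : Subgroup G) : Set G) :=
          Subgroup.zpowers_le.mpr hfix
        have := P.3 (IsPGroup.to_sup_of_normal_right' hpg P.2 hle) le_sup_right
        rw [← this]
        exact Subgroup.mem_sup_left (Subgroup.mem_zpowers y)
      have hne : g • P ≠ P := fun h => hgN (Sylow.smul_eq_iff_mem_normalizer.mp h)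
      have hmem : u ^ i ∈ ((g • P : Sylow p G) : Subgroup G) := by
        rw [Sylow.coe_subgroup_smul, Subgroup.mem_pointwise_smul_iff_inv_smul_mem, ← map_inv, MulAut.smul_def,
          MulAut.conj_apply, inv_inv, mul_assoc]
        exact hyP
      have h1 : u ^ i = 1 := by
        have : u ^ i ∈ (P : Subgroup G) ⊓ ((g • P : Sylow p G) : Subgroup G) := ⟨pow_mem huP i, hmem⟩
        rwa [hTI _ hne, Subgroup.mem_bot] at this
      exact hpowinj i 0 hi (by omega) (by rw [h1, pow_zero])
  have hcomb : ∀ (i j : ℕ) (x : G ⧸ N), u ^ i • u ^ j • x = u ^ ((i + j) % p ^ n) • x := fun i j x => by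
    rw [smul_smul, ← pow_add, hmod]
  set k := p ^ n - D with hk
  let O : G ⧸ N → Finset (G ⧸ N) := fun x => (Finset.range (p ^ n)).image (fun i => u ^ i • x)
  have hO : ∀ x y, y ∈ O x → O y = O x := by
    intro x y hy
    obtain ⟨j, hj, rfl⟩ := Finset.mem_image.mp hy
    have hj' := Finset.mem_range.mp hj
    apply Finset.Subset.antisymm <;> intro z hz <;> obtain ⟨i, hi, rfl⟩ := Finset.mem_image.mp hz
    · exact Finset.mem_image.mpr ⟨(i + j) % p ^ n, Finset.mem_range.mpr (Nat.mod_lt _ (by omega)), (hcomb i j x).symm⟩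
    · refine Finset.mem_image.mpr ⟨(i + (p ^ n - j)) % p ^ n, Finset.mem_range.mpr (Nat.mod_lt _ (by omega)), ?_⟩
      show u ^ ((i + (p ^ n - j)) % p ^ n) • u ^ j • x = u ^ i • x
      rw [hmod, smul_smul, ← pow_add, ← hmod, show i + (p ^ n - j) + j = i + p ^ n by omega, Nat.add_mod_right,
        hmod]
  have hOself : ∀ x, x ∈ O x := fun x =>
    Finset.mem_image.mpr ⟨0, Finset.mem_range.mpr (by omega), by simp⟩
  set s := (Finset.univ : Finset (G ⧸ N)).erase x0 with hs
  have hT : ∀ w, (∑ x ∈ s, φ x) w ∈ LinearMap.range ((U - 1) ^ k) := by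
    intro w
    rw [← Finset.sum_fiberwise_of_maps_to (g := O) (t := s.image O) (fun x hx => Finset.mem_image_of_mem O hx) φ,
      LinearMap.sum_apply]
    refine Submodule.sum_mem _ fun o ho => ?_
    obtain ⟨x, hx, rfl⟩ := Finset.mem_image.mp ho
    have hxne : x ≠ x0 := (Finset.mem_erase.mp hx).1
    have hfib : s.filter (fun y => O y = O x) = O x := by
      ext y
      constructor
      · intro hy
        rw [← (Finset.mem_filter.mp hy).2]
        exact hOself y
      · intro hy
        refine Finset.mem_filter.mpr ⟨Finset.mem_erase.mpr ⟨?_, Finset.mem_univ _⟩, hO x y hy⟩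
        intro hy0
        have := hO x y hy
        have hxy : x ∈ O x0 := by rw [hy0] at this; rw [this]; exact hOself x
        obtain ⟨i, -, hi⟩ := Finset.mem_image.mp hxy
        exact hxne (hi.symm.trans (hux0 i))
    have hinj : Set.InjOn (fun i => u ^ i • x) (Finset.range (p ^ n)) := by
      intro i hi j hj hij
      have hi' := Finset.mem_range.mp hi
      have hj' := Finset.mem_range.mp hj
      have h1 : u ^ ((i + (p ^ n - j)) % p ^ n) • x = x := by
        rw [← hcomb, show u ^ (p ^ n - j) • x = (u ^ j)⁻¹ • x by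
          rw [show u ^ (p ^ n - j) = (u ^ j)⁻¹ by
            rw [eq_inv_iff_mul_eq_one, ← pow_add, Nat.sub_add_cancel hj'.le, ← hu, pow_orderOf_eq_one]],
          smul_smul, show u ^ i * (u ^ j)⁻¹ = (u ^ j)⁻¹ * u ^ i from
            ((Commute.pow_pow_self u j i).inv_left).eq.symm, ← smul_smul,
          show u ^ i • x = u ^ j • x from hij, inv_smul_smul]
      have h2 := hfree x hxne _ (Nat.mod_lt _ (by omega)) h1
      rcases lt_trichotomy i j with h | h | h
      · rw [Nat.mod_eq_of_lt (by omega)] at h2; omega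
      · exact h
      · rw [show i + (p ^ n - j) = (i - j) + p ^ n by omega, Nat.add_mod_right, Nat.mod_eq_of_lt (by omega)] at h2
        omega
    rw [hfib, Finset.sum_image hinj]
    have heq : (∑ i ∈ Finset.range (p ^ n), φ (u ^ i • x)) =
        ∑ i ∈ Finset.range (p ^ n), U ^ i * φ x * (ρ u⁻¹) ^ i := by
      refine Finset.sum_congr rfl fun i _ => ?_
      rw [hφsmul, map_pow, ← inv_pow, map_pow]
    rw [heq]
    exact trace_range p n U (ρ u⁻¹) (by rw [hU, ← map_mul, mul_inv_cancel, map_one])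
      (by rw [hU, ← map_mul, inv_mul_cancel, map_one]) D k hXD (by omega) _ w
  have hfx0 : φ x0 = f := by rw [hx0, hφ]; simp
  set S : Module.End F V := ∑ x, φ x with hS
  have hSsplit : S = f + ∑ x ∈ s, φ x := by
    rw [hS, ← hfx0, hs, Finset.add_sum_erase _ _ (Finset.mem_univ x0)]
  have hScomm : ∀ g v, S (ρ g v) = ρ g (S v) := by
    intro g v
    have h1 : S * ρ g = ρ g * S := by
      rw [hS, Finset.sum_mul, Finset.mul_sum, ← Equiv.sum_comp (MulAction.toPerm g)]
      refine Finset.sum_congr rfl fun x _ => ?_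
      show φ (g • x) * ρ g = ρ g * φ x
      rw [hφsmul, mul_assoc, ← map_mul, inv_mul_cancel, map_one, mul_one]
    exact LinearMap.congr_fun h1 v
  have hX1 : ∀ j, 1 ≤ j → LinearMap.range ((U - 1) ^ j) ≤ LinearMap.range (U - 1) := by
    intro j hj
    rw [← Nat.sub_add_cancel hj, pow_succ']
    rintro _ ⟨w, rfl⟩
    exact LinearMap.mem_range_self _ _
  have hS0 : S = 0 := by
    haveI := hirr
    rcases Representation.IsIrreducible.bijective_or_eq_zero
      (LinearMap.intertwiningMap_of_isIntertwiningMap ρ ρ S hScomm) with hbij | h0'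
    · exfalso
      have hsurj : Function.Surjective ⇑(U - 1) := by
        intro y
        obtain ⟨w, hw⟩ := hbij.2 y
        have hmem : S w ∈ LinearMap.range (U - 1) := by
          rw [hSsplit, LinearMap.add_apply]
          refine add_mem ?_ (hX1 k (by omega) (hT w))
          rw [hfX, Module.End.mul_apply]
          exact hX1 e he1 (LinearMap.mem_range_self _ _)
        obtain ⟨z, hz⟩ := hmem
        exact ⟨z, hz.trans hw⟩
      have h2 : Function.Surjective ⇑((U - 1) ^ p ^ n) := by
        rw [Module.End.coe_pow]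
        exact hsurj.iterate _
      obtain ⟨y, hy⟩ := exists_ne (0 : V)
      obtain ⟨z, hz⟩ := h2 y
      rw [hUq] at hz
      exact hy (by simpa using hz.symm)
    · exact congrArg Representation.IntertwiningMap.toLinearMap h0'
  have hstep : ∀ w, ((U - 1) ^ e) w ∈ LinearMap.range ((U - 1) ^ (e + 1)) := by
    intro w
    have h1 : ((U - 1) ^ e) w = f (sU w) := by
      rw [← Module.End.mul_apply, hfX, mul_assoc, hs1, mul_one]
    have h2 : f (sU w) = - ((∑ x ∈ s, φ x) (sU w)) := by
      apply eq_neg_of_add_eq_zero_left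
      rw [← LinearMap.add_apply, ← hSsplit, hS0, LinearMap.zero_apply]
    rw [h1, h2]
    refine neg_mem ?_
    obtain ⟨z, hz⟩ := hT (sU w)
    rw [← hz, show (U - 1) ^ k = (U - 1) ^ (e + 1) * (U - 1) ^ (k - (e + 1)) by
      rw [← pow_add]; congr 1; omega, Module.End.mul_apply]
    exact LinearMap.mem_range_self _ _
  have hall : ∀ j w, ((U - 1) ^ e) w ∈ LinearMap.range ((U - 1) ^ (e + j)) := by
    intro j
    induction j with
    | zero => intro w; exact LinearMap.mem_range_self _ _
    | succ j ih =>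
      intro w
      obtain ⟨z, hz⟩ := ih w
      obtain ⟨z', hz'⟩ := hstep z
      refine ⟨z', ?_⟩
      rw [← hz, show e + (j + 1) = j + (e + 1) by omega, show e + j = j + e by omega, pow_add _ j (e + 1),
        Module.End.mul_apply, hz', pow_add _ j e, Module.End.mul_apply]
  have hXe : (U - 1) ^ e = 0 := by
    refine LinearMap.ext fun w => ?_
    obtain ⟨z, hz⟩ := hall D w
    rw [← hz, pow_add, hXD, mul_zero]
    simp
  have hle : e ≤ p ^ (n - 1) := by
    have := Nat.le_self_pow (by omega : n - 1 ≠ 0) p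
    omega
  have h9 : U ^ p ^ (n - 1) = 1 := by
    have h := sub_pow_char_pow_of_commute p (n - 1) (Commute.one_right U)
    rw [pow_eq_zero_of_le hle hXe, one_pow, eq_comm, sub_eq_zero] at h
    exact h
  rw [hU, ← map_pow, ← map_one ρ] at h9
  have h10 := Nat.le_of_dvd (pow_pos hp.pos _) (orderOf_dvd_of_pow_eq_one (hfaith h9))
  rw [hu] at h10
  exact absurd h10 (not_le.mpr (Nat.pow_lt_pow_right hp.one_lt (by omega)))

end Cfsg.Agent.S4699
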