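import Cfsg.Statements.S4700
import Cfsg.Agent.Lib.Brauer43.NoFMain

set_option autoImplicit false
open Cfsg

namespace Cfsg.Agent.S4700

/-- Let G be a finite perfect group and p a prime such that a Sylow p-subgroup of G has order p, and write the number of Sylow p-subgroups as 1 + np. Let H = O_p'(G). Then either p > 3 and G/H is isomorphic to PSL(2, p); or p = 2^m + 1 > 3 and G/H is isomorphic to SL(2, 2^m); or n = (hup + u^2 + u + h)/(u + 1) for some positive integers h and u. -/
theorem result {G : Type*} [Group G] [Finite G] (hperf : commutator G = ⊤) (p : ℕ) [Fact p.Prime] (P : Sylow p G) (hP : Nat.card P = p) (n : ℕ) (hn : Nat.card (Sylow p G) = 1 + n * p) : (∃ (F : Type) (_ : Field F) (_ : Fintype F), Fintype.card F = p ∧ 3 < p ∧ Nonempty (G ⧸ Cfsg.pPrimeCore p G ≃* Matrix.ProjectiveSpecialLinearGroup (Fin 2) F)) ∨ (∃ (m : ℕ) (F : Type) (_ : Field F) (_ : Fintype F), Fintype.card F = 2 ^ m ∧ p = 2 ^ m + 1 ∧ 3 < p ∧ Nonempty (G ⧸ Cfsg.pPrimeCore p G ≃* Matrix.SpecialLinearGroup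 (Fin 2) F)) ∨ (∃ h u : ℕ, 0 < h ∧ 0 < u ∧ n * (u + 1) = h * u * p + u ^ 2 + u + h) := by
  by_cases hF : Cfsg.Agent.Lib.Brauer43.NoF p n
  · haveI : (Cfsg.pPrimeCore p G).Normal := Cfsg.pPrimeCore_normal p G
    rcases Cfsg.Agent.Lib.Brauer43.perfect_dichotomy hperf P hP hn hF with
      h | ⟨m, F, i1, i2, h1, h2', h3, ⟨f⟩⟩
    · exact Or.inl h
    · refine Or.inr (Or.inl ⟨m, F, i1, i2, h1, h2', h3, ⟨f.trans ?_⟩⟩)
      have hm : m ≠ 0 := by rintro rfl; simp at h2'; omega
      have heven : Even (Fintype.card F) := by rw [h1]; exact (Nat.even_pow' hm).2 even_two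
      have hb : Subgroup.center (Matrix.SpecialLinearGroup (Fin 2) F) = ⊥ := by
        apply Subgroup.card_eq_one.1
        rw [Cfsg.Agent.Lib.Classical.card_center_SL, Fintype.card_fin]
        have hpos : 0 < Fintype.card F := Fintype.card_pos
        refine (Nat.prime_two.coprime_iff_not_dvd).2 ?_
        rw [even_iff_two_dvd] at heven
        omega
      exact (QuotientGroup.quotientMulEquivOfEq hb).trans QuotientGroup.quotientBot
  · simp only [Cfsg.Agent.Lib.Brauer43.NoF, ne_eq, not_forall, not_not] at hF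
    obtain ⟨u, h, hu, hh, e⟩ := hF
    exact Or.inr (Or.inr ⟨h, u, hh, hu, e⟩)

end Cfsg.Agent.S4700
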