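import Cfsg.Statements.S4701
import Cfsg.Agent.Lib.Brauer43.PerfectMain

set_option autoImplicit false
open Cfsg

namespace Cfsg.Agent.S4701

/-- Let G be a finite perfect group and p a prime dividing the order of G with p^3 larger than the order of G. Suppose a Sylow p-subgroup of G is not normal and G has no normal subgroup of order 2. Then p > 3 and G is isomorphic to PSL(2, p), or to SL(2, 2^m) with p = 2^m + 1. -/
theorem result {G : Type*} [Group G] [Finite G] (hperf : commutator G = ⊤) (p : ℕ) [Fact p.Prime] (hdvd : p ∣ Nat.card G) (hbig : Nat.card G < p ^ 3) (P : Sylow p G) (hP : ¬ (P : Subgroup G).Normal) (h2 : ∀ N : Subgroup G, N.Normal → Nat.card N ≠ 2) : (∃ (F : Type) (_ : Field F) (_ : Fintype F), Fintype.card F = p ∧ 3 < p ∧ Nonempty (G ≃* Matrix.ProjectiveSpecialLinearGroup (Fin 2) F)) ∨ (∃ (m : ℕ) (F : Type) (_ : Field F) (_ : Fintype F), Fintype.card F = 2 ^ m ∧ p = 2 ^ m + 1 ∧ 3 < p ∧ Nonempty (G ≃* Matrix.SpecialLinearGroup (Fin 2) F)) := by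
  rcases Cfsg.Agent.Lib.Brauer43.Perfect.shape_of_perfect hperf hdvd hbig P hP h2 with
    h | ⟨m, F, i1, i2, h1, h2', h3, ⟨f⟩⟩
  · exact Or.inl h
  · refine Or.inr ⟨m, F, i1, i2, h1, h2', h3, ⟨f.trans ?_⟩⟩
    have hm : m ≠ 0 := by rintro rfl; simp at h2'; omega
    have heven : Even (Fintype.card F) := by rw [h1]; exact (Nat.even_pow' hm).2 even_two
    have hb : Subgroup.center (Matrix.SpecialLinearGroup (Fin 2) F) = ⊥ := by
      apply Subgroup.card_eq_one.1
      rw [Cfsg.Agent.Lib.Classical.card_center_SL, Fintype.card_fin]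
      have hpos : 0 < Fintype.card F := Fintype.card_pos
      refine (Nat.prime_two.coprime_iff_not_dvd).2 ?_
      rw [even_iff_two_dvd] at heven
      omega
    exact (QuotientGroup.quotientMulEquivOfEq hb).trans QuotientGroup.quotientBot

end Cfsg.Agent.S4701
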