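import Cfsg.Statements.S4702
import Cfsg.Agent.Lib.Zass.SharpEven
import Cfsg.Agent.Lib.Classical.Order

set_option autoImplicit false
open Cfsg

namespace Cfsg.Agent.S4702

open Cfsg.Agent.Lib.Zass

open Matrix in
/-- In characteristic two `SL(2, K)` is `PGL(2, K)`. -/
theorem sl_pgl {K : Type} [Field K] [Fintype K] (h : Even (Fintype.card K)) :
    Nonempty (SpecialLinearGroup (Fin 2) K ≃* ProjGenLinGroup (Fin 2) K) := by
  classical
  haveI : Finite (ProjGenLinGroup (Fin 2) K) :=
    Finite.of_surjective _ ProjGenLinGroup.mk_surjective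
  have hc : Nat.card (Subgroup.center (SpecialLinearGroup (Fin 2) K)) = 1 := by
    have h1 := Cfsg.Agent.Lib.Classical.card_SL_eq_gcd_mul_card_PSL (ι := Fin 2) (F := K)
    rw [Fintype.card_fin, Cfsg.Agent.Lib.Classical.card_PSL_two_of_even h,
      Cfsg.Agent.Lib.Classical.card_SL_two] at h1
    have h2 := Subgroup.card_eq_card_quotient_mul_card_subgroup
      (Subgroup.center (SpecialLinearGroup (Fin 2) K))
    have h3 : Nat.card (SpecialLinearGroup (Fin 2) K ⧸ Subgroup.center (SpecialLinearGroup (Fin 2) K))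
        = Fintype.card K * (Fintype.card K ^ 2 - 1) :=
      Cfsg.Agent.Lib.Classical.card_PSL_two_of_even h
    rw [h3, Cfsg.Agent.Lib.Classical.card_SL_two] at h2
    have hpos : 0 < Nat.card (SpecialLinearGroup (Fin 2) K) := Nat.card_pos
    rw [Cfsg.Agent.Lib.Classical.card_SL_two] at hpos
    exact Nat.eq_of_mul_eq_mul_left hpos (by rw [mul_one]; exact h2.symm)
  refine ⟨MulEquiv.ofBijective SpecialLinearGroup.toPGL
    ((Nat.bijective_iff_injective_and_card _).mpr ⟨?_, ?_⟩)⟩
  · rw [← MonoidHom.ker_eq_bot_iff, SpecialLinearGroup.toPGL_ker]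
    exact Subgroup.card_eq_one.mp hc
  · rw [Cfsg.Agent.Lib.Classical.card_PGL_two, Cfsg.Agent.Lib.Classical.card_SL_two]

/-- Let G be a triply transitive permutation group on a finite set of odd size m ≥ 3 in which only the identity fixes three or more points. Then m = 2^a + 1 for some a ≥ 1 and G is isomorphic to SL(2, 2^a). -/
theorem result {α : Type*} [Fintype α] [DecidableEq α] (hm : 3 ≤ Fintype.card α) (hodd : Odd (Fintype.card α)) (G : Subgroup (Equiv.Perm α)) (h3 : MulAction.IsMultiplyPretransitive G α 3) (hfix : ∀ g : G, 3 ≤ Nat.card (MulAction.fixedBy α g) → g = 1) : ∃ a : ℕ, 1 ≤ a ∧ Fintype.card α = 2 ^ a + 1 ∧ ∃ (F : Type) (_ : Field F) (_ : Fintype F), Fintype.card F = 2 ^ a ∧ Nonempty (G ≃* Matrix.SpecialLinearGroup (Fin 2) F) := by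
  classical
  have hS : Sharp3 G α := sharp3_of_perm G hm h3 (fun g a b c hab hbc hac ha hb hc => by
    refine hfix g ?_
    have hsub : ({a, b, c} : Set α) ⊆ MulAction.fixedBy α g := by
      rintro x (rfl | rfl | rfl)
      · exact ha
      · exact hb
      · exact hc
    rw [Nat.card_coe_set_eq]
    refine le_trans ?_ (Set.ncard_le_ncard hsub (Set.toFinite _))
    rw [Set.ncard_eq_toFinset_card', show ({a, b, c} : Set α).toFinset = {a, b, c} by simp,
      Finset.card_insert_of_notMem (by simp [hab, hac]), Finset.card_pair hbc])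
  obtain ⟨f, hf, hcard, K, iF, iT, hK, ⟨e⟩⟩ := pgl_of_sharp3_odd hS hodd
  obtain ⟨e'⟩ := sl_pgl (K := K) (by rw [hK]; exact Nat.even_pow.mpr ⟨even_two, hf⟩)
  exact ⟨f, by omega, hcard, K, iF, iT, hK, ⟨e.trans e'.symm⟩⟩

end Cfsg.Agent.S4702
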