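import Cfsg.Statements.S4706
import Cfsg.Agent.Lib.Brauer43.PrimeTwoP
import Cfsg.Agent.S4702

set_option autoImplicit false
open Cfsg

namespace Cfsg.Agent.S4706

/-- Let p > 2 be a prime and G a permutation group on p letters whose Sylow p-subgroup P has normalizer of order 2p. Then either P is normal in G, or p − 1 = 2^a for some a and G is isomorphic to SL(2, 2^a). -/
theorem result {α : Type*} [Fintype α] [DecidableEq α] {p : ℕ} [Fact p.Prime] (hp : 2 < p) (hα : Fintype.card α = p) (G : Subgroup (Equiv.Perm α)) (P : Sylow p G) (hN : Nat.card (Subgroup.normalizer ((P : Subgroup G) : Set G)) = 2 * p) : (P : Subgroup G).Normal ∨ ∃ (a : ℕ) (F : Type) (_ : Field F) (_ : Fintype F), p = 2 ^ a + 1 ∧ Fintype.card F = 2 ^ a ∧ Nonempty (G ≃* Matrix.SpecialLinearGroup (Fin 2) F) := by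
  classical
  by_cases hnn : (P : Subgroup G).Normal
  · exact Or.inl hnn
  have hΩ : Nat.card α = p := by rw [Nat.card_eq_fintype_card, hα]
  have hdvdN : p ∣ Nat.card G :=
    (dvd_mul_left p 2).trans (hN ▸ Subgroup.card_subgroup_dvd_card _)
  obtain ⟨x, hx⟩ := exists_prime_orderOf_dvd_card' p hdvdN
  haveI := Cfsg.Agent.Lib.Perm.zpowers_pretransitive_of_prime (Ω := α) hΩ hx
  haveI : MulAction.IsPretransitive G α := ⟨fun a b => by
    obtain ⟨z, hz⟩ := MulAction.exists_smul_eq (Subgroup.zpowers x) a b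
    exact ⟨(z : G), hz⟩⟩
  have hp5 : 5 ≤ p := by
    by_contra hlt
    have hp3 : p = 3 := by
      have h4 : p ≠ 4 := fun h => absurd (h ▸ (Fact.out : p.Prime)) (by norm_num)
      omega
    refine hnn (Subgroup.normalizer_eq_top_iff.1 (Subgroup.eq_top_of_le_card _ ?_))
    rw [hN]
    have h := (Subgroup.card_subgroup_dvd_card G)
    rw [Nat.card_perm, hΩ] at h
    exact le_trans (Nat.le_of_dvd (Nat.factorial_pos p) h) (by rw [hp3]; decide)
  have h2t := Cfsg.Agent.Lib.Brauer43.PrimeTwoP.two_trans (Ω := α) hΩ P hdvdN hnn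
  have h3t := Cfsg.Agent.Lib.Brauer43.PrimeTwoP.three_trans (Ω := α) hΩ hp5 P hN h2t
  have hfix := Cfsg.Agent.Lib.Brauer43.PrimeTwoP.fix_bound (Ω := α) hΩ hp5 P hN h2t
  obtain ⟨a, ha, hcard, F, i1, i2, hF, e⟩ := Cfsg.Agent.S4702.result (by omega)
    (hα ▸ (Fact.out : p.Prime).odd_of_ne_two (by omega)) G h3t hfix
  exact Or.inr ⟨a, F, i1, i2, hα ▸ hcard, hF, e⟩

end Cfsg.Agent.S4706
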