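import Cfsg.Statements.S4707
import Cfsg.Agent.Lib.Brauer43.TwoPPrimitive
import Cfsg.Agent.Lib.SmallSimple.Basic
import Cfsg.Agent.Lib.Classical.Order
import Cfsg.Agent.S0720

set_option autoImplicit false
open Cfsg

namespace Cfsg.Agent.S4707

/-- Let p > 3 be a prime and G a primitive permutation group of degree 2p that is not doubly transitive. If a Sylow p-subgroup of G has normalizer of order 2p, then p = 5 and G is isomorphic to the alternating group of degree 5. -/
theorem result {α : Type*} [Fintype α] [DecidableEq α] {p : ℕ} [Fact p.Prime] (hp : 3 < p) (hα : Fintype.card α = 2 * p) (G : Subgroup (Equiv.Perm α)) (hprim : MulAction.IsPreprimitive G α) (hnot2 : ¬ MulAction.IsMultiplyPretransitive G α 2) (P : Sylow p G) (hN : Nat.card (Subgroup.normalizer ((P : Subgroup G) : Set G)) = 2 * p) : p = 5 ∧ Nonempty (G ≃* alternatingGroup (Fin 5)) := by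
  classical
  haveI : Fintype G := Fintype.ofFinite _
  haveI htr : MulAction.IsPretransitive G α := hprim.toIsPretransitive
  haveI : Nonempty α := Fintype.card_pos_iff.1 (by omega)
  obtain ⟨a₀⟩ := (inferInstance : Nonempty α)
  have hΩ : Nat.card α = 2 * p := by rw [Nat.card_eq_fintype_card, hα]
  have hpp : p.Prime := Fact.out
  have hp5 : 5 ≤ p := by
    rcases Nat.lt_or_ge p 5 with h | h
    · interval_cases p
      exact absurd hpp (by norm_num)
    · exact h
  -- elements of order `p` have no fixed points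
  have hfree : ∀ y : G, orderOf y = p → ∀ v : α, y • v ≠ v := by
    intro y hy v hv
    have hy' : orderOf (y : Equiv.Perm α) = p := by rw [Subgroup.orderOf_coe, hy]
    have hlt : (y : Equiv.Perm α).support.card < 2 * p := by
      rw [← hα]
      refine Finset.card_lt_univ_of_notMem (x := v) ?_
      rw [Equiv.Perm.mem_support, not_not]
      exact hv
    have hcyc : (y : Equiv.Perm α).IsCycle :=
      Equiv.Perm.isCycle_of_prime_order (hy' ▸ hpp) (by rwa [hy'])
    have hc : (y : Equiv.Perm α).support.card = p := by rw [← hcyc.orderOf, hy']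
    refine hnot2 (MulAction.IsPreprimitive.is_two_pretransitive (n := p - 1) hprim
      (s := ((y : Equiv.Perm α).support : Set α)ᶜ) ?_ (by omega)
      (Equiv.Perm.isPretransitive_of_isCycle_mem hcyc y.2))
    rw [← Finset.coe_compl, Set.ncard_coe_finset, Finset.card_compl, hc, hα]
    omega
  obtain ⟨hsimple, hcard, hshape⟩ :=
    Cfsg.Agent.Lib.Brauer43.TwoPPrimitive.structure_of hΩ hp5 P hN hprim hnot2 hfree
  have h5 : p = 5 := by
    rcases hshape with ⟨F, hF, hFf, hq, -, ⟨e⟩⟩ | ⟨m, F, hF, hFf, hq, hpm, -, ⟨e⟩⟩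
    · have h := Cfsg.Agent.Lib.Classical.card_PSL_two (F := F)
      rw [← Nat.card_congr e.toEquiv, hcard, hq] at h
      obtain ⟨t, rfl⟩ : ∃ t, p = 2 * t + 5 := by
        rcases hpp.eq_two_or_odd' with h2 | ⟨k, hk⟩
        · omega
        · exact ⟨k - 2, by omega⟩
      rw [show 2 * t + 5 - 1 = 2 * (t + 2) by omega, Nat.gcd_mul_right_right,
        show 2 * t + 5 - 2 = 2 * t + 3 by omega,
        show (2 * t + 5) ^ 2 - 1 = 4 * ((t + 2) * (t + 3)) by
          rw [Nat.sub_eq_iff_eq_add (Nat.one_le_pow _ _ (by omega))]; ring] at h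
      have h' : (2 * t + 5) * (4 * (t + 2)) * (2 * t + 3) =
          (2 * t + 5) * (4 * (t + 2)) * (t + 3) := by linarith
      have := Nat.eq_of_mul_eq_mul_left (Nat.mul_pos (by omega) (by omega)) h'
      omega
    · rcases Cfsg.Agent.S0720.result hpp hα G hprim a₀ with h2 | ⟨-, a, ha, hpa, -⟩
      · exact absurd h2 hnot2
      · have hdiv : a * (a + 1) ∣ 2 ^ m := ⟨2, by rw [show 2 ^ m = p - 1 by omega, hpa]; ring_nf; omega⟩
        obtain ⟨i, -, hi⟩ := (Nat.dvd_prime_pow Nat.prime_two).1 ((dvd_mul_right _ _).trans hdiv)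
        obtain ⟨j, -, hj⟩ := (Nat.dvd_prime_pow Nat.prime_two).1 ((dvd_mul_left _ _).trans hdiv)
        rcases Nat.eq_zero_or_pos i with rfl | hipos
        · rw [pow_zero] at hi; subst hi; omega
        · exfalso
          have h2a : 2 ∣ a := hi ▸ dvd_pow_self 2 hipos.ne'
          rcases Nat.eq_zero_or_pos j with rfl | hjpos
          · rw [pow_zero] at hj; omega
          · have h2b : 2 ∣ a + 1 := hj ▸ dvd_pow_self 2 hjpos.ne'
            omega
  subst h5
  haveI := hsimple
  exact ⟨rfl, Cfsg.Agent.Lib.SmallSimple.nonempty_mulEquiv_alternatingFive hcard⟩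

end Cfsg.Agent.S4707
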