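import Cfsg.Statements.S4708
import Cfsg.Agent.Lib.Block.PrincipalCover
import Cfsg.Agent.Lib.Char.Degree

set_option autoImplicit false
open Cfsg Cfsg.Agent Cfsg.Agent.Lib.Block

namespace Cfsg.Agent.S4708

/-- Let p be a prime, M a maximal ideal of the algebraic integers containing p, G a finite group and H a normal subgroup. Write λ(X) for the sum of the squares of the degrees of the irreducible characters in the principal p-block of a group X. Then λ(H) ≤ λ(G) ≤ [G : H]·λ(H). -/
theorem result {G : Type*} [Group G] [Finite G] (p : ℕ) [Fact p.Prime] (M : Ideal Cfsg.AlgInt) (hM : Cfsg.IsPModular p M) (H : Subgroup G) [H.Normal] : (∑ᶠ θ ∈ Cfsg.principalBlock M H, Cfsg.charDegree (θ : H → ℂ) ^ 2) ≤ (∑ᶠ χ ∈ Cfsg.principalBlock M G, Cfsg.charDegree (χ : G → ℂ) ^ 2) ∧ (∑ᶠ χ ∈ Cfsg.principalBlock M G, Cfsg.charDegree (χ : G → ℂ) ^ 2) ≤ H.index * ∑ᶠ θ ∈ Cfsg.principalBlock M H, Cfsg.charDegree (θ : H → ℂ) ^ 2 := by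
  classical
  haveI := hM.2.1
  haveI := Fintype.ofFinite G
  haveI := Fintype.ofFinite H
  choose m hm using fun (χ : IrrCharacter G) (θ : IrrCharacter H) => Lib.Char.classInner_natCast
    (Lib.Char.isCharacter_restrict (Lib.Char.isCharacter_of_isIrr χ.2) H)
    (Lib.Char.isCharacter_of_isIrr θ.2)
  set dG : IrrCharacter G → ℕ := fun χ => Cfsg.charDegree (χ : G → ℂ) with hdG
  set dH : IrrCharacter H → ℕ := fun θ => Cfsg.charDegree (θ : H → ℂ) with hdH
  have hG1 : ∀ χ : IrrCharacter G, (χ : G → ℂ) 1 = (dG χ : ℂ) := fun χ =>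
    Lib.Char.apply_one_eq_charDegree (Lib.Char.isCharacter_of_isIrr χ.2)
  have hH1 : ∀ θ : IrrCharacter H, (θ : H → ℂ) 1 = (dH θ : ℂ) := fun θ =>
    Lib.Char.apply_one_eq_charDegree (Lib.Char.isCharacter_of_isIrr θ.2)
  have hrow : ∀ χ : IrrCharacter G, dG χ = ∑ θ, m χ θ * dH θ := by
    intro χ
    have h := congrFun (Lib.Char.eq_sum_classInner_smul (Lib.Char.isClassFunction_of_isCharacter
      (Lib.Char.isCharacter_restrict (Lib.Char.isCharacter_of_isIrr χ.2) H))) 1
    simp only [Finset.sum_apply, Pi.smul_apply, smul_eq_mul, Subgroup.coe_one, hG1, hH1, hm] at h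
    exact_mod_cast h
  have hind : ∀ (θ : IrrCharacter H) (χ : IrrCharacter G),
      classInner (indFun H (θ : H → ℂ)) (χ : G → ℂ) = (m χ θ : ℂ) := by
    intro θ χ
    rw [Lib.Char.classInner_indFun H _ (Lib.Char.isClassFunction_of_isIrr χ.2),
      Lib.Char.classInner_conj_symm, hm, map_natCast]
  have hexp : ∀ θ : IrrCharacter H, indFun H (θ : H → ℂ) =
      ∑ χ : IrrCharacter G, (m χ θ : ℂ) • (χ : G → ℂ) := by
    intro θ
    conv_lhs => rw [Lib.Char.eq_sum_classInner_smul (Lib.Char.isClassFunction_of_isCharacter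
      (Lib.Char.isCharacter_indFun H (Lib.Char.isCharacter_of_isIrr θ.2)))]
    exact Finset.sum_congr rfl fun χ _ => by rw [hind]
  have hcol : ∀ θ : IrrCharacter H, H.index * dH θ = ∑ χ, m χ θ * dG χ := by
    intro θ
    have h := congrFun (hexp θ) 1
    rw [Lib.Char.apply_one_eq_charDegree (Lib.Char.isCharacter_indFun H
      (Lib.Char.isCharacter_of_isIrr θ.2)), Lib.Char.charDegree_indFun H
      (Lib.Char.isCharacter_of_isIrr θ.2)] at h
    simp only [Finset.sum_apply, Pi.smul_apply, smul_eq_mul, hG1] at h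
    exact_mod_cast h
  set BG := (principalBlock M G).toFinite.toFinset with hBG
  set BH := (principalBlock M H).toFinite.toFinset with hBH
  have hdown : ∀ χ ∈ BG, ∀ θ : IrrCharacter H, m χ θ ≠ 0 → θ ∈ BH := by
    intro χ hχ θ hθ
    rw [hBH, Set.Finite.mem_toFinset]
    refine constituent_mem_principal (by rwa [hBG, Set.Finite.mem_toFinset] at hχ) ?_
    rw [hm]
    exact_mod_cast hθ
  have hrow' : ∀ χ ∈ BG, dG χ = ∑ θ ∈ BH, m χ θ * dH θ := fun χ hχ => by
    rw [hrow χ]
    refine (Finset.sum_subset (Finset.subset_univ _) fun θ _ hθ => ?_).symm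
    rw [show m χ θ = 0 by by_contra h; exact hθ (hdown χ hχ θ h), zero_mul]
  have hup : ∀ θ ∈ BH, ∃ χ ∈ BG, m χ θ ≠ 0 := by
    intro θ hθ
    rw [hBH, Set.Finite.mem_toFinset] at hθ
    by_contra! hcon
    set F : G → ℂ := fun x => if p ∣ orderOf x then 0 else 1 with hF
    have hFc : IsClassFunction G F := fun g c => by simp only [hF, orderOf_conj_eq]
    have h1 : classInner (indFun H (θ : H → ℂ)) F = 0 := by
      rw [hexp θ, Lib.Char.classInner_sum_left]
      refine Finset.sum_eq_zero fun χ _ => ?_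
      rw [Lib.Char.classInner_smul_left]
      by_cases hχ : χ ∈ BG
      · rw [hcon χ hχ, Nat.cast_zero, zero_mul]
      · refine mul_eq_zero_of_right _ ?_
        have h0 := regInner_eq_zero hM (χ := χ) (ψ := oneIrr G) fun hs => hχ (by
          rw [hBG, Set.Finite.mem_toFinset]
          exact sameBlock_symm hs)
        rw [← h0, regInner, classInner, classInner]
        congr 1
        refine Finset.sum_congr rfl fun x _ => ?_
        simp only [hF, oneIrr_apply, apply_ite (starRingEnd ℂ), map_one, map_zero, mul_ite,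
          mul_one, mul_zero]
    rw [Lib.Char.classInner_indFun H _ hFc, classInner, mul_eq_zero] at h1
    have h2 := h1.resolve_left (inv_ne_zero (Lib.Char.card_ne_zero_complex H))
    refine redC_omega_regSum_of_mem hM hθ ?_
    rw [omega_eq_sum, show ∑ x : H, (regSum p H).coeff x * (θ : H → ℂ) x = 0 from
      Eq.trans (Finset.sum_congr rfl fun x _ => by
        simp only [hF, coeff_regSum, Subgroup.orderOf_coe, apply_ite (starRingEnd ℂ), map_one,
          map_zero, mul_ite, mul_one, mul_zero, ite_mul, one_mul, zero_mul]) h2, zero_div,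
      redC_zero]
  rw [finsum_mem_eq_finite_toFinset_sum _ (principalBlock M H).toFinite,
    finsum_mem_eq_finite_toFinset_sum _ (principalBlock M G).toFinite, ← hBG, ← hBH]
  constructor
  · calc ∑ θ ∈ BH, dH θ ^ 2 ≤ ∑ θ ∈ BH, ∑ χ ∈ BG, (m χ θ * dH θ) ^ 2 := by
          refine Finset.sum_le_sum fun θ hθ => ?_
          obtain ⟨χ, hχ, hne⟩ := hup θ hθ
          refine le_trans (Nat.pow_le_pow_left (Nat.le_mul_of_pos_left _
            (Nat.pos_of_ne_zero hne)) 2) ?_
          exact Finset.single_le_sum (f := fun χ => (m χ θ * dH θ) ^ 2)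
            (fun _ _ => Nat.zero_le _) hχ
      _ = ∑ χ ∈ BG, ∑ θ ∈ BH, (m χ θ * dH θ) ^ 2 := Finset.sum_comm
      _ ≤ ∑ χ ∈ BG, dG χ ^ 2 := by
          refine Finset.sum_le_sum fun χ hχ => ?_
          rw [hrow' χ hχ]
          exact Finset.sum_sq_le_sq_sum_of_nonneg fun _ _ => Nat.zero_le _
  · calc ∑ χ ∈ BG, dG χ ^ 2 = ∑ χ ∈ BG, ∑ θ ∈ BH, m χ θ * dG χ * dH θ := by
          refine Finset.sum_congr rfl fun χ hχ => ?_
          rw [sq]
          conv_lhs => arg 2; rw [hrow' χ hχ]
          rw [Finset.mul_sum]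
          exact Finset.sum_congr rfl fun θ _ => by ring
      _ = ∑ θ ∈ BH, ∑ χ ∈ BG, m χ θ * dG χ * dH θ := Finset.sum_comm
      _ ≤ ∑ θ ∈ BH, H.index * dH θ * dH θ := by
          refine Finset.sum_le_sum fun θ _ => ?_
          rw [hcol θ, Finset.sum_mul]
          exact Finset.sum_le_sum_of_subset (Finset.subset_univ _)
      _ = H.index * ∑ θ ∈ BH, dH θ ^ 2 := by
          rw [Finset.mul_sum]
          exact Finset.sum_congr rfl fun θ _ => by ring

end Cfsg.Agent.S4708
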