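import Cfsg.Statements.S4709
import Cfsg.Agent.Lib.Char.AbelianTI

set_option autoImplicit false
open Cfsg

namespace Cfsg.Agent.S4709

/-- Let p be a prime, M a maximal ideal of the algebraic integers containing p, and G a finite group with a nontrivial abelian Sylow p-subgroup P; put N = N_G(P), C = C_G(P). Suppose N/C is cyclic of order m with 1 < m < #P − 1 (C has index m in N and N is generated by C and one element), and C_G(y) ∩ N = C for every non-identity y ∈ P. Put r = (#P − 1)/m. Then there is s ≤ m such that the principal p-block is the disjoint union of a set X of s characters containing the principal character and a set Y of r characters, with integers a_χ ≠ 0 (χ ∈ X), d and a sign δ = ±1, such that: every χ ∈ X takes the value a_χ at every element whose p-part is a non-identity element of P; there is a map ζ from the non-principal linear characters ψ of P onto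 Y, constant on N-conjugacy classes, with ζ_ψ(z) = d + δ·Σ ψ'(y) for every z whose p-part y is a non-identity element of P, the sum running over the N-conjugates ψ' of ψ; (d − δ)^2 + (r − 1) d^2 + Σ_{χ ∈ X} a_χ^2 = m + 1; all members of Y agree on p-regular elements; and (r d − δ) η(g) + Σ_{χ ∈ X} a_χ χ(g) = 0 for every η ∈ Y and every p-regular g. -/
theorem result {G : Type*} [Group G] [Finite G] (p : ℕ) [Fact p.Prime] (M : Ideal Cfsg.AlgInt) (hM : Cfsg.IsPModular p M) (P : Sylow p G) (hab : IsMulCommutative P) (hP1 : Nat.card P ≠ 1) (m : ℕ) (hm1 : 1 < m) (hm2 : m + 1 < Nat.card P) (hCN : (Subgroup.centralizer ((P : Subgroup G) : Set G)).relIndex (Subgroup.normalizer ((P : Subgroup G) : Set G)) = m) (hcyc : ∃ g : G, g ∈ Subgroup.normalizer ((P : Subgroup G) : Set G) ∧ Subgroup.centralizer ((P : Subgroup G) : Set G) ⊔ Subgroup.zpowers g = Subgroup.normalizer ((P : Subgroup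 G) : Set G)) (hfrob : ∀ y : G, y ∈ (P : Subgroup G) → y ≠ 1 → Subgroup.centralizer ({y} : Set G) ⊓ Subgroup.normalizer ((P : Subgroup G) : Set G) = Subgroup.centralizer ((P : Subgroup G) : Set G)) : ∃ (s : ℕ) (X Y : Set (Cfsg.IrrCharacter G)), s ≤ m ∧ Cfsg.principalBlock M G = X ∪ Y ∧ Disjoint X Y ∧ Nat.card X = s ∧ Nat.card Y = (Nat.card P - 1) / m ∧ (∃ χ₁ ∈ X, (χ₁ : G → ℂ) = fun _ => 1) ∧ ∃ (a : Cfsg.IrrCharacter G → ℤ) (d δ : ℤ) (ζ : (↥(P : Subgroup G) →* ℂˣ) → Cfsg.IrrCharacter G), (δ = 1 ∨ δ = -1) ∧ (∀ χ ∈ X, a χ ≠ 0 ∧ ∀ z y : G, Cfsg.IsPPart p z y → y ∈ (P : Subgroup G) → y ≠ 1 → (χ : G → ℂ) z = (a χ : ℂ)) ∧ (∀ ψ : ↥(P : Subgroup G) →* ℂˣ, ψ ≠ 1 → ζ ψ ∈ Y) ∧ (∀ η ∈ Y, ∃ ψ : ↥(P : Subgroup G) →* ℂˣ, ψ ≠ 1 ∧ ζ ψ = η) ∧ (∀ ψ ψ' : ↥(P : Subgroup G) →* ℂˣ, ψ ≠ 1 → (∃ n : G, n ∈ Subgroup.normalizer ((P : Subgroup G) : Set G) ∧ ∀ w w' : ↥(P : Subgroup G), (w' : G) = n *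 w * n⁻¹ → ψ' w' = ψ w) → ζ ψ' = ζ ψ) ∧ (∀ ψ : ↥(P : Subgroup G) →* ℂˣ, ψ ≠ 1 → ∀ (z : G) (y : ↥(P : Subgroup G)), Cfsg.IsPPart p z (y : G) → (y : G) ≠ 1 → (ζ ψ : G → ℂ) z = (d : ℂ) + (δ : ℂ) * ∑ᶠ ψ' ∈ {ψ' : ↥(P : Subgroup G) →* ℂˣ | ∃ n : G, n ∈ Subgroup.normalizer ((P : Subgroup G) : Set G) ∧ ∀ w w' : ↥(P : Subgroup G), (w' : G) = n * w * n⁻¹ → ψ' w' = ψ w}, ((ψ' y : ℂˣ) : ℂ)) ∧ ((d - δ) ^ 2 + ((Nat.card P - 1) / m - 1 : ℤ) * d ^ 2 + ∑ᶠ χ ∈ X, a χ ^ 2 = (m : ℤ) + 1) ∧ (∀ η ∈ Y, ∀ η' ∈ Y, ∀ g : G, ¬ p ∣ orderOf g → (η : G → ℂ) g = (η' : G → ℂ) g) ∧ (∀ η ∈ Y, ∀ g : G, ¬ p ∣ orderOf g → ((((Nat.card P - 1) / m : ℕ) : ℂ) * d - δ) * (η : G → ℂ) g + ∑ᶠ χ ∈ X, (a χ : ℂ) * (χ : G → ℂ) g = 0) := by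
  classical
  haveI := Fintype.ofFinite G
  haveI := hM.2.1
  obtain ⟨X, a, d, δ, ι, _, rep, μ, hδ, hμi, hμX, hmem, hrep1, huniq, htm, ht, ha0, hone, -, hXv, hYv,
    heq, hYreg, hrel⟩ := Lib.Char.ATI.ti_principal P hM hab hP1 hm2 hCN hfrob
  obtain ⟨i₀⟩ : Nonempty ι := Fintype.card_pos_iff.1 (by omega)
  have hcomm : ∀ u ∈ (P : Subgroup G), ∀ v ∈ (P : Subgroup G), u * v = v * u :=
    fun u hu v hv => congrArg Subtype.val (hab.1.1 ⟨u, hu⟩ ⟨v, hv⟩)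
  have hsec : ∀ χ ∈ Cfsg.principalBlock M G, ∀ z y : G, Cfsg.IsPPart p z y →
      y ∈ (P : Subgroup G) → y ≠ 1 → (χ : G → ℂ) z = (χ : G → ℂ) y := by
    intro χ hχ z y hzy hy hy1
    obtain ⟨v, hv, hc, hyp, hvr⟩ := hzy
    obtain ⟨⟨k, hk⟩, -, -⟩ := Lib.Char.ATI.centralizer_data P hcomm hfrob hy hy1
    set w : Subgroup.centralizer ({y} : Set G) :=
      ⟨v, Subgroup.mem_centralizer_singleton_iff.2 hc.symm.eq⟩ with hw
    have hwK := Lib.Block.mem_of_regular_of_index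
      (Cfsg.pPrimeCore p (Subgroup.centralizer ({y} : Set G))) hM hk (x := w)
      (by rwa [hw, Subgroup.orderOf_mk])
    rw [← hv]
    exact S0942.result p M hM y hyp v ⟨w, hwK, rfl⟩ χ hχ
  have hm0 : 0 < m := by omega
  have hdiv : (Nat.card P - 1) / m = Fintype.card ι := by rw [← htm, Nat.mul_div_cancel _ hm0]
  have hdivZ : ((Nat.card P : ℤ) - 1) / (m : ℤ) = (Fintype.card ι : ℤ) := by
    have e : ((Nat.card P : ℤ) - 1) = (Fintype.card ι : ℤ) * m := by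
      have h1 : Nat.card P = Fintype.card ι * m + 1 := by omega
      rw [h1]; push_cast; ring
    rw [e, Int.mul_ediv_cancel _ (by omega)]
  let ζ : (↥(P : Subgroup G) →* ℂˣ) → Cfsg.IrrCharacter G := fun ψ =>
    if h : ψ ≠ 1 then μ (huniq ψ h).choose else μ i₀
  have hζ : ∀ ψ, ψ ≠ 1 → ∃ i, ζ ψ = μ i ∧ Lib.Char.ATI.Rel P (rep i) ψ := fun ψ h =>
    ⟨_, dif_pos h, (huniq ψ h).choose_spec.1⟩
  have hζeq : ∀ ψ i, ψ ≠ 1 → Lib.Char.ATI.Rel P (rep i) ψ → ζ ψ = μ i := fun ψ i h hr => by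
    obtain ⟨j, hj, hjr⟩ := hζ ψ h
    rw [hj, (huniq ψ h).unique hjr hr]
  refine ⟨X.card, ↑X, Set.range μ, ?_, ?_, ?_, ?_, ?_, ⟨_, hone, funext fun g => Lib.Block.oneIrr_apply g⟩,
    a, d, δ, ζ, hδ, ?_, ?_, ?_, ?_, ?_, ?_, ?_, ?_⟩
  · have h1 : (X.card : ℤ) ≤ ∑ χ ∈ X, a χ ^ 2 := by
      rw [Finset.card_eq_sum_ones]
      push_cast
      refine Finset.sum_le_sum fun χ hχ => ?_
      have : 0 < a χ ^ 2 := sq_pos_iff.2 (ha0 χ hχ)
      omega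
    have h2 : 0 ≤ (Fintype.card ι : ℤ) * d ^ 2 - 2 * δ * d := by
      have ht' : (2 : ℤ) ≤ Fintype.card ι := by exact_mod_cast ht
      rcases le_or_gt 1 d with h | h
      · rcases hδ with rfl | rfl <;> nlinarith
      · rcases le_or_gt d (-1) with h' | h'
        · rcases hδ with rfl | rfl <;> nlinarith
        · have : d = 0 := by omega
          subst this; simp
    omega
  · ext χ
    rw [hmem]; simp
  · rw [Set.disjoint_left]
    rintro χ hχ ⟨i, rfl⟩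
    exact hμX i hχ
  · simp
  · rw [Nat.card_range_of_injective hμi, Nat.card_eq_fintype_card, hdiv]
  · intro χ hχ
    refine ⟨ha0 χ hχ, fun z y hzy hy hy1 => ?_⟩
    rw [hsec χ ((hmem χ).2 (Or.inl hχ)) z y hzy hy hy1]
    exact hXv χ hχ y hy hy1
  · intro ψ h
    obtain ⟨i, hi, -⟩ := hζ ψ h
    exact ⟨i, hi.symm⟩
  · rintro η ⟨i, rfl⟩
    exact ⟨rep i, hrep1 i, hζeq _ i (hrep1 i) (Lib.Char.ATI.rel_refl P _)⟩
  · intro ψ ψ' h hr
    obtain ⟨i, hi, hir⟩ := hζ ψ h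
    have hr' : Lib.Char.ATI.Rel P ψ ψ' := hr
    rw [hi]
    exact hζeq ψ' i (fun e => h (Lib.Char.ATI.rel_one P (e ▸ hr'))) (Lib.Char.ATI.rel_trans P hir hr')
  · intro ψ h z y hzy hy1
    obtain ⟨i, hi, hir⟩ := hζ ψ h
    rw [hi, hsec (μ i) ((hmem _).2 (Or.inr ⟨i, rfl⟩)) z y hzy y.2 hy1, hYv i y hy1]
    congr 2
    refine finsum_mem_congr (Set.ext fun ψ' => ⟨fun h' => ?_, fun h' => ?_⟩) fun _ _ => rfl
    · exact Lib.Char.ATI.rel_trans P (Lib.Char.ATI.rel_symm P hir) h'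
    · exact Lib.Char.ATI.rel_trans P hir h'
  · rw [finsum_mem_coe_finset, hdivZ]
    rcases hδ with rfl | rfl <;> linear_combination heq
  · rintro η ⟨i, rfl⟩ η' ⟨j, rfl⟩ g hg
    exact hYreg i j g hg
  · rintro η ⟨i, rfl⟩ g hg
    rw [finsum_mem_coe_finset, hdiv]
    exact hrel i g hg

end Cfsg.Agent.S4709
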