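import Cfsg.Statements.S4711
import Cfsg.Agent.Lib.Block.PrincipalSolvable
import Cfsg.Agent.Lib.BrauerPairs.PrincipalNilpotent
import Cfsg.Agent.Lib.Block.Singular
import Cfsg.Agent.Lib.Char.Kernel
-- import your own Cfsg.Agent.* helpers here

set_option autoImplicit false
open Cfsg Cfsg.Agent.Lib
open scoped ComplexConjugate

namespace Cfsg.Agent.S4711

universe u

variable {G : Type u} [Group G] [Finite G]

/-- An irreducible restriction to a subgroup normalising `P` with a non-zero average over `P` has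
`P` in its kernel. -/
theorem trivial_of_average (N P : Subgroup G) [Fintype P] (hPN : P ≤ N)
    (hN : ∀ n ∈ N, ∀ u ∈ P, n * u * n⁻¹ ∈ P) (χ : IrrCharacter G)
    (hirr : IsIrrCharacter N fun n : N => (χ : G → ℂ) n)
    (havg : ∑ u : P, (χ : G → ℂ) u ≠ 0) {v : G} (hv : v ∈ P) :
    (χ : G → ℂ) v = (χ : G → ℂ) 1 := by
  classical
  obtain ⟨d, σ, hσ, hσc⟩ := hirr
  haveI := hσ
  have hval : ∀ n : N, σ.character n = (χ : G → ℂ) n := fun n => congrFun hσc n
  let T : Module.End ℂ (Fin d → ℂ) := ∑ u : P, σ ⟨u, hPN u.2⟩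
  have hTu : ∀ w (hw : w ∈ P), σ ⟨w, hPN hw⟩ * T = T := by
    intro w hw
    show σ ⟨w, hPN hw⟩ * ∑ u : P, σ ⟨u, hPN u.2⟩ = ∑ u : P, σ ⟨u, hPN u.2⟩
    rw [Finset.mul_sum]
    refine Fintype.sum_equiv (Equiv.mulLeft (⟨w, hw⟩ : P)) _ _ fun u => ?_
    rw [← map_mul]
    rfl
  let F : Submodule ℂ (Fin d → ℂ) :=
    ⨅ u : P, LinearMap.ker (σ ⟨u, hPN u.2⟩ - 1)
  have hF : ∀ x, x ∈ F ↔ ∀ u : P, σ ⟨u, hPN u.2⟩ x = x := fun x => by
    simp [F, Submodule.mem_iInf, sub_eq_zero]
  let S : Subrepresentation σ :=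
    { toSubmodule := F
      apply_mem_toSubmodule := fun n x hx => by
        rw [hF] at hx ⊢
        intro u
        have hmem : (n : G)⁻¹ * u * n ∈ P := by
          have := hN (n : G)⁻¹ (inv_mem n.2) u u.2
          rwa [inv_inv] at this
        have h1 := hx ⟨_, hmem⟩
        have he : (⟨u, hPN u.2⟩ : N) * n = n * ⟨(n : G)⁻¹ * u * n, hPN hmem⟩ :=
          Subtype.ext (by simp [mul_assoc])
        rw [← Module.End.mul_apply, ← map_mul, he, map_mul, Module.End.mul_apply, h1] }
  have hTF : ∀ x, T x ∈ F := fun x => (hF _).2 fun u => by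
    rw [← Module.End.mul_apply, hTu u u.2]
  have htop : F = ⊤ := by
    rcases eq_bot_or_eq_top S with h | h
    · exfalso
      have hFbot : F = ⊥ := congrArg Subrepresentation.toSubmodule h
      have hT : T = 0 := LinearMap.ext fun x => by
        have := hTF x
        rwa [hFbot, Submodule.mem_bot] at this
      apply havg
      have htr := congrArg (LinearMap.trace ℂ _) hT
      rw [map_zero, map_sum] at htr
      rw [← htr]
      exact Finset.sum_congr rfl fun u _ => (hval ⟨u, hPN u.2⟩).symm
    · exact congrArg Subrepresentation.toSubmodule h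
  have hone : σ ⟨v, hPN hv⟩ = 1 := LinearMap.ext fun x =>
    (hF x).1 (htop ▸ Submodule.mem_top) ⟨v, hv⟩
  have h := hval ⟨v, hPN hv⟩
  have h' := hval 1
  simp only [Representation.character, hone] at h
  simp only [Representation.character, map_one, OneMemClass.coe_one] at h'
  rw [← h, ← h']

/-- Restriction to a subgroup meeting every coset of the kernel stays irreducible. -/
theorem restrict_irr (N U : Subgroup G) [U.Normal] (hUN : U ⊔ N = ⊤) (χ : IrrCharacter G)
    (hU : ∀ u ∈ U, (χ : G → ℂ) u = (χ : G → ℂ) 1) :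
    IsIrrCharacter N fun n : N => (χ : G → ℂ) n := by
  obtain ⟨d, ρ, hρ, hρc⟩ := χ.2
  haveI := hρ
  have hker : ∀ u ∈ U, ρ u = 1 := fun u hu => by
    rw [← Char.character_eq_degree_iff]
    rw [← Representation.char_one ρ, hρc]
    exact hU u hu
  have hdec : ∀ g : G, ∃ n : N, ρ g = ρ n := by
    intro g
    have : g ∈ U ⊔ N := hUN ▸ Subgroup.mem_top g
    obtain ⟨u, hu, n, hn, rfl⟩ := Subgroup.mem_sup_of_normal_left.1 this
    exact ⟨⟨n, hn⟩, by rw [map_mul, hker u hu, one_mul]⟩
  refine ⟨d, ρ.comp N.subtype, ?_, funext fun n => ?_⟩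
  · haveI : Nontrivial (Subrepresentation (ρ.comp N.subtype)) := by
      obtain ⟨A, A', hne⟩ := hρ.1
      refine ⟨⟨⟨A.toSubmodule, fun n x hx => A.apply_mem_toSubmodule n hx⟩,
        ⟨A'.toSubmodule, fun n x hx => A'.apply_mem_toSubmodule n hx⟩, fun h => hne ?_⟩⟩
      exact Subrepresentation.toSubmodule_injective (congrArg Subrepresentation.toSubmodule h :)
    refine ⟨fun A => ?_⟩
    let A' : Subrepresentation ρ :=
      { toSubmodule := A.toSubmodule
        apply_mem_toSubmodule := fun g x hx => by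
          obtain ⟨n, hn⟩ := hdec g
          rw [hn]
          exact A.apply_mem_toSubmodule n hx }
    rcases eq_bot_or_eq_top A' with h | h
    · exact Or.inl (Subrepresentation.toSubmodule_injective
        (congrArg Subrepresentation.toSubmodule h :))
    · exact Or.inr (Subrepresentation.toSubmodule_injective
        (congrArg Subrepresentation.toSubmodule h :))
  · show LinearMap.trace ℂ _ (ρ n) = (χ : G → ℂ) n
    rw [← hρc]
    rfl

/-- Let p be a prime, M a maximal ideal of the algebraic integers containing p, G a finite group, P a Sylow p-subgroup and N = N_G(P). Then G has p-length 1 (G = O_{p',p,p'}(G)) if and only if every irreducible character in the principal p-block of G restricts to an irreducible character of N. -/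
theorem result {G : Type*} [Group G] [Finite G] (p : ℕ) [Fact p.Prime] (M : Ideal Cfsg.AlgInt) (hM : Cfsg.IsPModular p M) (P : Sylow p G) : Cfsg.PLengthLE p 1 G ↔ ∀ χ ∈ Cfsg.principalBlock M G, Cfsg.IsIrrCharacter ↥(Subgroup.normalizer ((P : Subgroup G) : Set G)) (fun n : ↥(Subgroup.normalizer ((P : Subgroup G) : Set G)) => (χ : G → ℂ) n) := by
  classical
  haveI : M.IsPrime := hM.2.1.isPrime
  haveI := Fintype.ofFinite G
  haveI := Fintype.ofFinite (P : Subgroup G)
  set N := Subgroup.normalizer ((P : Subgroup G) : Set G) with hNdef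
  have hPN : (P : Subgroup G) ≤ N := Subgroup.le_normalizer
  have hp : p.Prime := hM.1
  constructor
  · intro hlen χ hχ
    set K := pPrimeCore p G with hK
    haveI : K.Normal := Hall.pPrimeCore_normal p
    haveI : ((upperPSeries p G 1).1).Normal := (upperPSeries p G 1).2
    haveI : ((upperPSeries p G 2).1).Normal := (upperPSeries p G 2).2
    set U1 := (upperPSeries p G 1).1 with hU1
    set U2 := (upperPSeries p G 2).1 with hU2
    have hU1K : U1 = K := PLength.upperPSeries_one
    have htop : pPrimeCore p (G ⧸ U2) = ⊤ := by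
      have h3 : (pPrimeCore p (G ⧸ U2)).comap (QuotientGroup.mk' U2) = ⊤ := hlen
      rw [← Subgroup.map_comap_eq_self_of_surjective (QuotientGroup.mk'_surjective U2)
        (pPrimeCore p (G ⧸ U2)), h3,
        Subgroup.map_top_of_surjective _ (QuotientGroup.mk'_surjective U2)]
    have hidx : ¬ p ∣ U2.index := by
      have := Hall.coprime_card_pPrimeCore (G := G ⧸ U2) p
      rw [htop, Subgroup.card_top, ← Subgroup.index_eq_card] at this
      exact (Nat.Prime.coprime_iff_not_dvd hp).1 this.symm
    have hU2eq : U2 = (pCore p (G ⧸ U1)).comap (QuotientGroup.mk' U1) := rfl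
    have hle : U1 ≤ U2 := by
      rw [hU2eq]
      intro x hx
      rw [Subgroup.mem_comap, QuotientGroup.mk'_apply, (QuotientGroup.eq_one_iff x).2 hx]
      exact one_mem _
    have hPU2 : (P : Subgroup G) ≤ U2 := by
      intro x hx
      rw [← QuotientGroup.eq_one_iff, ← orderOf_eq_one_iff]
      obtain ⟨k, hk⟩ := IsPGroup.iff_orderOf.1 P.2 ⟨x, hx⟩
      rw [Subgroup.orderOf_mk] at hk
      have h1 : orderOf (QuotientGroup.mk' U2 x) ∣ p ^ k := hk ▸ orderOf_map_dvd _ x
      have h2 : orderOf (QuotientGroup.mk' U2 x) ∣ U2.index := by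
        rw [Subgroup.index_eq_card]; exact orderOf_dvd_natCard _
      exact Nat.eq_one_of_dvd_coprimes
        ((hp.coprime_iff_not_dvd.2 hidx).pow_left k) h1 h2
    have hU2P : U2 = (P : Subgroup G) ⊔ U1 := by
      refine (Subgroup.eq_of_le_of_card_ge (sup_le hPU2 hle) ?_).symm
      have hq : IsPGroup p (pCore p (G ⧸ U1)) := Hall.isPGroup_pCore p
      obtain ⟨k, hk⟩ := IsPGroup.iff_card.1 hq
      have hcard : Nat.card U2 = p ^ k * Nat.card U1 := by
        rw [← Subgroup.relIndex_bot_left, ← Subgroup.relIndex_mul_relIndex ⊥ U1 U2 bot_le hle,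
          Subgroup.relIndex_bot_left, mul_comm, ← hk]
        congr 1
        rw [hU2eq, ← Subgroup.relIndex_bot_left (pCore p (G ⧸ U1))]
        conv_lhs => arg 1; rw [← QuotientGroup.ker_mk' U1, ← MonoidHom.comap_bot]
        rw [Subgroup.relIndex_comap, Subgroup.map_comap_eq_self_of_surjective
          (QuotientGroup.mk'_surjective U1)]
      set X := (P : Subgroup G) ⊔ U1
      have h1 : Nat.card U1 ∣ Nat.card X := Subgroup.card_dvd_of_le le_sup_right
      have h2 : Nat.card (P : Subgroup G) ∣ Nat.card X := Subgroup.card_dvd_of_le le_sup_left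
      have h3 : Nat.Coprime (p ^ k) (Nat.card U1) := by
        rw [hU1K]
        exact ((Hall.coprime_card_pPrimeCore p).symm).pow_left k
      have h4 : p ^ k ∣ Nat.card (P : Subgroup G) := by
        rw [Sylow.card_eq_multiplicity]
        refine Nat.pow_dvd_pow p ((hp.pow_dvd_iff_le_factorization Nat.card_pos.ne').1 ?_)
        exact ((Dvd.intro _ hcard.symm).trans U2.card_subgroup_dvd_card)
      rw [hcard]
      exact Nat.le_of_dvd Nat.card_pos (h3.mul_dvd_of_dvd_of_dvd (h4.trans h2) h1)
    have hsup : U1 ⊔ N = ⊤ := by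
      let P' : Sylow p U2 := P.subtype hPU2
      have hfr := Sylow.normalizer_sup_eq_top P'
      have hmap : (P' : Subgroup U2).map U2.subtype = (P : Subgroup G) := by
        rw [Sylow.coe_subtype, Subgroup.subgroupOf_map_subtype, inf_eq_left.2 hPU2]
      rw [hmap, hU2P] at hfr
      rw [eq_top_iff, ← hfr]
      exact sup_le le_sup_right (sup_le (hPN.trans le_sup_right) le_sup_left)
    refine restrict_irr N U1 hsup χ fun u hu => ?_
    exact Block.trivial_on_of_sameBlock K hM (Hall.not_dvd_card_pPrimeCore hM.1)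
      (show SameBlock M (Block.oneIrr G : G → ℂ) (χ : G → ℂ) from hχ) (fun _ _ => rfl) (hU1K ▸ hu)
  · intro hres
    set L := Subgroup.normalClosure ((P : Subgroup G) : Set G) with hLdef
    set B := principalBlock M G with hB
    have hBb : IsPBlock M B := Block.isPBlock_principalBlock
    let kr : IrrCharacter G → Subgroup G := fun χ => Char.charKer (χ : G → ℂ)
    have hkr : ∀ (χ : IrrCharacter G) g, g ∈ kr χ ↔ (χ : G → ℂ) g = (χ : G → ℂ) 1 := fun χ g =>
      Char.mem_charKer (Char.isCharacter_of_isIrr χ.2)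
    set m : IrrCharacter G → ℂ := fun χ => ∑ u : (P : Subgroup G), (χ : G → ℂ) u with hm
    have hmL : ∀ χ ∈ B, m χ ≠ 0 → L ≤ kr χ := by
      intro χ hχ hne
      haveI : (kr χ).Normal := Char.charKer_normal (Char.isCharacter_of_isIrr χ.2)
      refine Subgroup.normalClosure_le_normal fun v hv => (hkr χ v).2 ?_
      refine trivial_of_average N (P : Subgroup G) hPN (fun n hn u hu => ?_) χ (hres χ hχ) hne hv
      exact (Subgroup.mem_normalizer_iff.1 hn u).1 hu
    have hreg : ∀ y ∈ L, ¬ p ∣ orderOf y → ∀ χ ∈ B, (χ : G → ℂ) y = (χ : G → ℂ) 1 := by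
      intro y hyL hy
      have hsum : ∀ x : G, ¬ p ∣ orderOf x →
          ∑ χ : IrrCharacter G, (if χ ∈ B then (χ : G → ℂ) x * conj (m χ) else 0) =
          ∑ χ : IrrCharacter G, (if χ ∈ B then (χ : G → ℂ) x * conj ((χ : G → ℂ) 1) else 0) := by
        intro x hx
        have : ∀ χ : IrrCharacter G, (if χ ∈ B then (χ : G → ℂ) x * conj (m χ) else 0) =
            ∑ u : (P : Subgroup G),
              if χ ∈ B then (χ : G → ℂ) x * conj ((χ : G → ℂ) u) else 0 := fun χ => by
          split_ifs
          · rw [hm, map_sum, Finset.mul_sum]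
          · rw [Finset.sum_const_zero]
        rw [Finset.sum_congr rfl fun χ _ => this χ, Finset.sum_comm,
          Finset.sum_eq_single (1 : (P : Subgroup G))]
        · rfl
        · intro u _ hu
          refine Block.weak_orthogonality hM hBb hx ?_
          obtain ⟨k, hk⟩ := IsPGroup.iff_orderOf.1 P.2 u
          rw [Subgroup.orderOf_coe, hk]
          refine dvd_pow_self p fun h0 => hu ?_
          rw [h0, pow_zero] at hk
          exact orderOf_eq_one_iff.1 hk
        · simp
      have hone : ¬ p ∣ orderOf (1 : G) := by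
        rw [orderOf_one]; exact hp.not_dvd_one
      have hlhs : ∑ χ : IrrCharacter G, (if χ ∈ B then (χ : G → ℂ) y * conj (m χ) else 0) =
          ∑ χ : IrrCharacter G, (if χ ∈ B then (χ : G → ℂ) 1 * conj (m χ) else 0) := by
        refine Finset.sum_congr rfl fun χ _ => ?_
        split_ifs with h
        · by_cases h0 : m χ = 0
          · rw [h0, map_zero, mul_zero, mul_zero]
          · rw [(hkr χ y).1 (hmL χ h h0 hyL)]
        · rfl
      rw [hsum y hy, hsum 1 hone] at hlhs
      intro χ hχ
      have hre := congrArg Complex.re hlhs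
      rw [Complex.re_sum, Complex.re_sum] at hre
      have hle : ∀ ψ ∈ (Finset.univ : Finset (IrrCharacter G)),
          (if ψ ∈ B then (ψ : G → ℂ) y * conj ((ψ : G → ℂ) 1) else 0).re ≤
          (if ψ ∈ B then (ψ : G → ℂ) 1 * conj ((ψ : G → ℂ) 1) else 0).re := by
        intro ψ _
        split_ifs
        · rw [Complex.mul_conj, Complex.ofReal_re, Complex.normSq_eq_norm_sq]
          refine (Complex.re_le_norm _).trans ?_
          rw [norm_mul, Complex.norm_conj, sq]
          exact mul_le_mul_of_nonneg_right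
            (Char.norm_apply_le (Char.isCharacter_of_isIrr ψ.2) y) (norm_nonneg _)
        · exact le_rfl
      have h1 := (Finset.sum_eq_sum_iff_of_le hle).1 hre χ (Finset.mem_univ _)
      rw [if_pos hχ, if_pos hχ, Block.irr_one_eq_natCast χ, map_natCast] at h1
      have hd : (0 : ℝ) < (charDegree (χ : G → ℂ) : ℝ) := by
        exact_mod_cast Block.charDegree_pos χ
      simp only [Complex.mul_re, Complex.natCast_re, Complex.natCast_im, mul_zero, sub_zero] at h1
      have hr : ((χ : G → ℂ) y).re = charDegree (χ : G → ℂ) := mul_right_cancel₀ hd.ne' h1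
      have hn : ‖(χ : G → ℂ) y‖ ≤ charDegree (χ : G → ℂ) := by
        have := Char.norm_apply_le (Char.isCharacter_of_isIrr χ.2) y
        rwa [Block.irr_one_eq_natCast χ, Complex.norm_natCast] at this
      rw [Block.irr_one_eq_natCast χ]
      refine Complex.ext (by rw [hr, Complex.natCast_re]) ?_
      rw [Complex.natCast_im]
      have h2 : ‖(χ : G → ℂ) y‖ ^ 2 = ((χ : G → ℂ) y).re ^ 2 + ((χ : G → ℂ) y).im ^ 2 := by
        rw [Complex.sq_norm, Complex.normSq_apply]; ring
      nlinarith [norm_nonneg ((χ : G → ℂ) y), sq_nonneg ((χ : G → ℂ) y).im]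
    set Kr : Subgroup G := ⨅ χ : B, kr χ.1 with hKr
    haveI : Kr.Normal := Subgroup.normal_iInf_normal fun χ =>
      Char.charKer_normal (Char.isCharacter_of_isIrr χ.1.2)
    have hKrK : Kr ≤ pPrimeCore p G := by
      refine Hall.le_pPrimeCore ((hp.coprime_iff_not_dvd.2 fun hdvd => ?_).symm)
      obtain ⟨z, hz⟩ := exists_prime_orderOf_dvd_card' p hdvd
      have hz1 : (z : G) = 1 := BrauerPairs.eq_one_of_kernels hM
        ⟨1, by rw [pow_one, ← hz, ← Subgroup.orderOf_coe, pow_orderOf_eq_one]⟩
        fun χ hχ => (hkr χ _).1 (Subgroup.mem_iInf.1 z.2 ⟨χ, hχ⟩)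
      rw [← Subgroup.orderOf_coe, hz1, orderOf_one] at hz
      exact hp.ne_one hz.symm
    refine PLength.pLengthLE_one fun hdvd => ?_
    haveI : (pPrimeCore p G).Normal := Hall.pPrimeCore_normal p
    set q := QuotientGroup.mk' (pPrimeCore p G) with hq
    haveI : (L.map q).Normal :=
      Subgroup.Normal.map (by rw [hLdef]; infer_instance) q (QuotientGroup.mk'_surjective _)
    have hLp : IsPGroup p (L.map q) := by
      rintro ⟨_, g, hg, rfl⟩
      obtain ⟨z, hz⟩ := Block.exists_isPPart (p := p) g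
      obtain ⟨y, hzy, hcom, hzp, hy⟩ := hz
      obtain ⟨k, hk⟩ := hzp
      refine ⟨k, Subtype.ext ?_⟩
      show (q g) ^ p ^ k = 1
      have hg' : g ^ p ^ k = y ^ p ^ k := by
        rw [← hzy, hcom.mul_pow, ← hk, pow_orderOf_eq_one, one_mul]
      rw [← map_pow, hg']
      show ((y ^ p ^ k : G) : G ⧸ pPrimeCore p G) = 1
      refine (QuotientGroup.eq_one_iff _).2 (hKrK (Subgroup.mem_iInf.2 fun χ =>
        (hkr χ.1 _).2 (hreg _ ?_ ?_ χ.1 χ.2)))
      · rw [← hg']; exact pow_mem hg _
      · exact fun h => hy (h.trans (orderOf_pow_dvd _))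
    have hLle : L.map q ≤ pCore p (G ⧸ pPrimeCore p G) := Hall.le_pCore hLp
    have hPle : (P : Subgroup G).map q ≤ pCore p (G ⧸ pPrimeCore p G) :=
      (Subgroup.map_mono Subgroup.subset_normalClosure).trans hLle
    refine P.not_dvd_index (hdvd.trans ((Subgroup.index_dvd_of_le hPle).trans ?_))
    exact (P : Subgroup G).index_map_dvd (QuotientGroup.mk'_surjective _)


end Cfsg.Agent.S4711
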