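import Cfsg.Statements.S4712
import Cfsg.Agent.Lib.Block.SectionBasis
import Cfsg.Agent.Lib.CharGalois
import Mathlib.LinearAlgebra.Trace
import Mathlib.RingTheory.ZMod.UnitsCyclic

set_option autoImplicit false
open Cfsg

namespace Cfsg.Agent.S4712

open Cfsg.Agent.Lib Cfsg.Agent.Lib.Block

universe u

theorem exists_pow_eq_self_of_coprime' {G : Type u} [Group G] [Finite G] {k : ℕ}
    (hk : Nat.Coprime k (Nat.card G)) : ∃ k' : ℕ, ∀ g : G, (g ^ k) ^ k' = g := by
  obtain ⟨j, hj⟩ : ∃ j : ℕ, k * j ≡ 1 [MOD Nat.card G] := by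
    refine ⟨k ^ (Nat.totient (Nat.card G) - 1), ?_⟩
    rw [← pow_succ', Nat.sub_add_cancel (Nat.totient_pos.2 Nat.card_pos)]
    exact Nat.ModEq.pow_totient hk
  refine ⟨j, fun g => ?_⟩
  rw [← pow_mul]
  conv_rhs => rw [← pow_one g]
  exact pow_eq_pow_iff_modEq.2 (hj.of_dvd (orderOf_dvd_natCard g))

open scoped Classical in
theorem blockRank_le_fixed {G : Type u} [Group G] [Finite G] {p : ℕ} [Fact p.Prime]
    {M : Ideal AlgInt} (hM : IsPModular p M) {B : Set (IrrCharacter G)} (hB : IsPBlock M B)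
    {k : ℕ} (hk : Nat.Coprime k (Nat.card G))
    (hkreg : ∀ y : G, ¬ p ∣ orderOf y → y ^ k = y) :
    blockRank p B ≤
      Nat.card {χ : IrrCharacter G // χ ∈ B ∧ ∀ g : G, (χ : G → ℂ) (g ^ k) = (χ : G → ℂ) g} := by
  haveI : M.IsPrime := hM.2.1.isPrime
  haveI := Fintype.ofFinite G
  haveI := resField_charP (M := M) hM
  haveI : IsAlgClosed (ResField M) := DefectOne.resField_isAlgClosed hM
  -- representatives of the classes of `p`-elements
  set X : Finset G := Finset.univ.filter fun x => IsPElem p x ∧ (ConjClasses.mk x).out = x with hXdef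
  have hX : ∀ x ∈ X, IsPElem p x := fun x hx => (Finset.mem_filter.1 hx).2.1
  have hXrep : ∀ g : G, IsPElem p g → ∃! x, x ∈ X ∧ IsConj g x := by
    intro g hg
    have hout : IsConj g (ConjClasses.mk g).out :=
      ConjClasses.mk_eq_mk_iff_isConj.1 (Quotient.out_eq (ConjClasses.mk g)).symm
    refine ⟨(ConjClasses.mk g).out, ⟨Finset.mem_filter.2 ⟨Finset.mem_univ _, ?_, ?_⟩, hout⟩, ?_⟩
    · obtain ⟨e, he⟩ := hg
      exact ⟨e, by rw [orderOf_of_isConj hout, he]⟩
    · exact congrArg Quotient.out (ConjClasses.mk_eq_mk_iff_isConj.2 hout.symm)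
    · rintro x ⟨hx, hgx⟩
      rw [← (Finset.mem_filter.1 hx).2.2]
      exact congrArg Quotient.out (ConjClasses.mk_eq_mk_iff_isConj.2 hgx.symm)
  have h1X : (1 : G) ∈ X := by
    refine Finset.mem_filter.2 ⟨Finset.mem_univ _, isPElem_one, ?_⟩
    have := ConjClasses.mk_eq_mk_iff_isConj.1 (Quotient.out_eq (ConjClasses.mk (1 : G)))
    exact isConj_one_right.1 this.symm
  -- operators
  let V : Submodule ℂ (G → ℂ) := Char.classFunctions G
  let E : (G → ℂ) →ₗ[ℂ] (G → ℂ) := SectionBasis.blockProjAll B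
  let T : (G → ℂ) →ₗ[ℂ] (G → ℂ) := LinearMap.funLeft ℂ ℂ fun g : G => g ^ k
  have hTapp : ∀ (f : G → ℂ) (g : G), T f g = f (g ^ k) := fun _ _ => rfl
  have hV : ∀ φ : IrrCharacter G, (φ : G → ℂ) ∈ V := fun φ => Char.isClassFunction_of_isIrr φ.2
  have hVspan : ∀ f ∈ V, f ∈ Submodule.span ℂ (Set.range fun φ : IrrCharacter G => (φ : G → ℂ)) := by
    intro f hf
    rw [Char.eq_sum_classInner_smul hf]
    exact Submodule.sum_mem _ fun φ _ => Submodule.smul_mem _ _ (Submodule.subset_span ⟨φ, rfl⟩)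
  have hVind : ∀ (P : (G → ℂ) → Prop), (∀ φ : IrrCharacter G, P (φ : G → ℂ)) → P 0 →
      (∀ a b, P a → P b → P (a + b)) → (∀ (c : ℂ) a, P a → P (c • a)) → ∀ f ∈ V, P f := by
    intro P h1 h2 h3 h4 f hf
    refine Submodule.span_induction ?_ h2 (fun a b _ _ => h3 a b) (fun c a _ => h4 c a) (hVspan f hf)
    rintro _ ⟨φ, rfl⟩; exact h1 φ
  have hET : ∀ f ∈ V, E f ∈ V := hVind _
    (fun φ => by
      show SectionBasis.blockProjAll B (φ : G → ℂ) ∈ V
      rw [SectionBasis.blockProjAll_irr]; split_ifs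
      · exact hV φ
      · exact zero_mem _)
    (by rw [map_zero]; exact zero_mem _)
    (fun a b ha hb => by rw [map_add]; exact add_mem ha hb)
    (fun c a ha => by rw [map_smul]; exact Submodule.smul_mem _ c ha)
  have hTV : ∀ f ∈ V, T f ∈ V := by
    intro f hf g c
    show f ((c * g * c⁻¹) ^ k) = f (g ^ k)
    rw [conj_pow]; exact hf _ c
  let powI : IrrCharacter G → IrrCharacter G := fun φ =>
    ⟨fun g => (φ : G → ℂ) (g ^ k), CharGalois.isIrrCharacter_pow hk φ.2⟩
  have hpow : ∀ φ : IrrCharacter G, T (φ : G → ℂ) = (powI φ : G → ℂ) := fun φ => rfl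
  have hpR : ∀ φ : IrrCharacter G,
      pRegularPart p ((powI φ : IrrCharacter G) : G → ℂ) = pRegularPart p (φ : G → ℂ) := by
    intro φ
    funext g
    rw [pRegularPart_apply, pRegularPart_apply]
    split_ifs with hg
    · rfl
    · show (φ : G → ℂ) (g ^ k) = _
      rw [hkreg g hg]
  have hpB : ∀ φ : IrrCharacter G, powI φ ∈ B ↔ φ ∈ B := by
    have hne : ∀ φ : IrrCharacter G, pRegularPart p (φ : G → ℂ) ≠ 0 := by
      intro φ h
      have := congrFun h 1
      rw [pRegularPart_apply, if_neg regular_one] at this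
      exact Char.irr_degree_ne_zero φ.2 this
    intro φ
    have h1 := blockProj_pRegularPart hM hB (powI φ)
    rw [hpR φ, blockProj_pRegularPart hM hB φ] at h1
    constructor
    · intro h
      by_contra h'
      rw [if_pos h, if_neg h'] at h1
      exact hne φ h1.symm
    · intro h
      by_contra h'
      rw [if_neg h', if_pos h] at h1
      exact hne φ h1
  have hEirr : ∀ φ : IrrCharacter G, E (φ : G → ℂ) = if φ ∈ B then (φ : G → ℂ) else 0 :=
    fun φ => SectionBasis.blockProjAll_irr B φ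
  have hcomm : ∀ f ∈ V, T (E f) = E (T f) := hVind _
    (fun φ => by
      rw [hpow, hEirr, hEirr, if_congr (hpB φ) rfl rfl]
      split_ifs
      · exact hpow φ
      · exact map_zero T)
    (by simp only [map_zero])
    (fun a b ha hb => by simp only [map_add, ha, hb])
    (fun c a ha => by simp only [map_smul, ha])
  have hidem : ∀ f ∈ V, E (E f) = E f := hVind _
    (fun φ => by
      rw [hEirr]; split_ifs with h
      · rw [hEirr, if_pos h]
      · rw [map_zero])
    (by simp only [map_zero])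
    (fun a b ha hb => by simp only [map_add, ha, hb])
    (fun c a ha => by simp only [map_smul, ha])
  let S : V →ₗ[ℂ] V := (T.comp E).restrict (fun f hf => hTV _ (hET f hf))
  have hSapp : ∀ v : V, ((S v : V) : G → ℂ) = T (E (v : G → ℂ)) := fun v => rfl
  -- the trace in the basis of irreducible characters
  have hliI : LinearIndependent ℂ fun φ : IrrCharacter G => (⟨(φ : G → ℂ), hV φ⟩ : V) :=
    LinearIndependent.of_comp V.subtype Char.linearIndependent_irr
  let bI : Module.Basis (IrrCharacter G) ℂ V := Module.Basis.mk hliI (by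
    rintro ⟨f, hf⟩ -
    have h : (⟨f, hf⟩ : V) = ∑ φ : IrrCharacter G,
        classInner f (φ : G → ℂ) • (⟨(φ : G → ℂ), hV φ⟩ : V) := by
      refine Subtype.ext ?_
      rw [Submodule.coe_sum]
      exact Char.eq_sum_classInner_smul hf
    rw [h]
    exact Submodule.sum_mem _ fun φ _ => Submodule.smul_mem _ _ (Submodule.subset_span ⟨φ, rfl⟩))
  have hbI : ∀ φ, bI φ = ⟨(φ : G → ℂ), hV φ⟩ := fun φ => Module.Basis.mk_apply _ _ _
  have htr1 : LinearMap.trace ℂ V S =
      ((Finset.univ.filter fun φ : IrrCharacter G =>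
        φ ∈ B ∧ ∀ g : G, (φ : G → ℂ) (g ^ k) = (φ : G → ℂ) g).card : ℂ) := by
    rw [LinearMap.trace_eq_matrix_trace ℂ bI, Matrix.trace, ← Finset.sum_boole]
    refine Finset.sum_congr rfl fun φ _ => ?_
    rw [Matrix.diag_apply, LinearMap.toMatrix_apply]
    have hS : S (bI φ) = if φ ∈ B then bI (powI φ) else 0 := by
      refine Subtype.ext ?_
      rw [hSapp, hbI, hEirr]
      split_ifs with h
      · rw [hbI]; exact hpow φ
      · simp
    rw [hS]
    by_cases h : φ ∈ B
    · rw [if_pos h, Module.Basis.repr_self, Finsupp.single_apply]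
      refine if_congr ?_ rfl rfl
      refine ⟨fun e => ⟨h, fun g => congrFun (congrArg Subtype.val e) g⟩, fun e => Subtype.ext (funext e.2)⟩
    · rw [if_neg h, if_neg fun e => h e.1]; simp
  -- the lifts of the simple traces
  let C : {x // x ∈ X} → Subgroup G := fun x => Subgroup.centralizer ({x.1} : Set G)
  let Idx : {x // x ∈ X} → Type u := fun x => SimpleTraces.irrTraces (ResField M) (C x)
  haveI hfin : ∀ x, Finite (Idx x) := fun x => SimpleTraces.finite_irrTraces
  haveI : ∀ x, Fintype (Idx x) := fun x => Fintype.ofFinite _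
  haveI : ∀ x, Fintype (C x) := fun x => Fintype.ofFinite _
  have hz : ∀ (x : {x // x ∈ X}) (i : Idx x), ∃ z : ResField M, ∀ y : C x,
      ∑ c : C x, redC M (SectionBasis.overCoeff M B x.1 c) * i.1 (c * y) = z * i.1 y := fun x i =>
    SimpleTraces.exists_scalar i.2 fun u c => congrArg (redC M) (SectionBasis.overCoeff_conj B x.1 u c)
  choose z hz using hz
  let F : (x : {x // x ∈ X}) → Idx x → (C x → ℂ) := fun x i w => SectionBasis.lift hM (i.1 w)
  have hF : ∀ x i, IsClassFunction (C x) (F x i) := fun x i w c =>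
    congrArg (SectionBasis.lift hM) ((SimpleTraces.isReg_irrTrace (p := p) i.2).1 c w)
  have hd : ∀ s : Σ x, Idx x, ∃ φ : G → ℂ, IsClassFunction G φ ∧
      ∀ (x : {x // x ∈ X}) (y : C x), ¬ p ∣ orderOf y →
        φ (x.1 * (y : G)) = (if h : x = s.1 then F x (h ▸ s.2) y else 0) := by
    intro s
    refine SectionBasis.exists_of_sections hX hXrep
      (fun x => fun y => if h : x = s.1 then F x (h ▸ s.2) y else 0) fun x => ?_
    by_cases h : x = s.1
    · intro w c; simp only [dif_pos h]; exact hF x _ w c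
    · intro w c; simp only [dif_neg h]
  choose δ hδc hδ using hd
  have hδsame : ∀ (x : {x // x ∈ X}) (i : Idx x) (y : C x), ¬ p ∣ orderOf y →
      δ ⟨x, i⟩ (x.1 * (y : G)) = F x i y := by
    intro x i y hy
    rw [hδ ⟨x, i⟩ x y hy, dif_pos rfl]
  have hδne : ∀ (x x' : {x // x ∈ X}) (i : Idx x) (y : C x'), x' ≠ x → ¬ p ∣ orderOf y →
      δ ⟨x, i⟩ (x'.1 * (y : G)) = 0 := by
    intro x x' i y hne hy
    rw [hδ ⟨x, i⟩ x' y hy, dif_neg hne]
  -- sections of the projections
  have hEsame : ∀ (x : {x // x ∈ X}) (i : Idx x) (y : C x), ¬ p ∣ orderOf y →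
      E (δ ⟨x, i⟩) (x.1 * (y : G)) ∈ locRing M ∧
        redC M (E (δ ⟨x, i⟩) (x.1 * (y : G))) = z x i * i.1 y := by
    intro x i y hy
    have h := SectionBasis.blockProjAll_section hM hB (hX x.1 x.2) (hδc ⟨x, i⟩) (hF x i)
      (fun w hw => hδsame x i w hw) hy
    rw [show E (δ ⟨x, i⟩) (x.1 * (y : G)) = _ from h]
    have hm : ∀ c : C x, SectionBasis.overCoeff M B x.1 c * F x i (c * y) ∈ locRing M := fun c =>
      mul_mem (SectionBasis.overCoeff_mem B x.1 c) (SectionBasis.lift_mem hM _)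
    refine ⟨sum_mem fun c _ => hm c, ?_⟩
    rw [redC_sum _ fun c _ => hm c, ← hz x i y]
    refine Finset.sum_congr rfl fun c _ => ?_
    rw [redC_mul (SectionBasis.overCoeff_mem B x.1 c) (SectionBasis.lift_mem hM _), SectionBasis.redC_lift]
  have hEzero : ∀ (x : {x // x ∈ X}) (f : G → ℂ), IsClassFunction G f →
      (∀ y : C x, ¬ p ∣ orderOf y → f (x.1 * (y : G)) = 0) →
      ∀ y : C x, ¬ p ∣ orderOf y → E f (x.1 * (y : G)) = 0 := by
    intro x f hf h y hy
    refine (SectionBasis.blockProjAll_section hM hB (hX x.1 x.2) hf (F := fun _ => (0 : ℂ))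
      (fun _ _ => rfl) h hy).trans ?_
    simp
  let γ : (Σ x, Idx x) → G → ℂ := fun s => if z s.1 s.2 = 0 then δ s - E (δ s) else E (δ s)
  have hγc : ∀ s, γ s ∈ V := fun s => by
    simp only [γ]; split_ifs
    · exact sub_mem (hδc s) (hET _ (hδc s))
    · exact hET _ (hδc s)
  have hγne : ∀ (x x' : {x // x ∈ X}) (i : Idx x) (y : C x'), x' ≠ x → ¬ p ∣ orderOf y →
      γ ⟨x, i⟩ (x'.1 * (y : G)) = 0 := by
    intro x x' i y hne hy
    have h0 := hEzero x' _ (hδc ⟨x, i⟩) (fun w hw => hδne x x' i w hne hw) y hy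
    simp only [γ]; split_ifs
    · rw [Pi.sub_apply, h0, hδne x x' i y hne hy, sub_zero]
    · exact h0
  let R : {x // x ∈ X} → Type u := fun x => SimpleTraces.RegClass (C x) p
  haveI : ∀ x, Fintype (R x) := fun x => Fintype.ofFinite _
  let g : (x : {x // x ∈ X}) → Idx x → R x → ℂ := fun x i r =>
    γ ⟨x, i⟩ (x.1 * ((r.1.out : C x) : G))
  have hg : ∀ x i (r : R x), g x i r ∈ locRing M ∧
      ∃ c : ResField M, c ≠ 0 ∧ (∀ r' : R x, redC M (g x i r') = c * i.1 r'.1.out) := by
    intro x i r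
    have hmem : ∀ r : R x, g x i r ∈ locRing M := fun r => by
      simp only [g, γ]; split_ifs
      · rw [Pi.sub_apply, hδsame x i _ r.2]
        exact sub_mem (SectionBasis.lift_mem hM _) (hEsame x i _ r.2).1
      · exact (hEsame x i _ r.2).1
    refine ⟨hmem r, if z x i = 0 then 1 else z x i, by split_ifs with h <;> simp [h], fun r' => ?_⟩
    simp only [g, γ]
    split_ifs with h
    · rw [Pi.sub_apply, hδsame x i _ r'.2, redC_sub (SectionBasis.lift_mem hM _) (hEsame x i _ r'.2).1,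
        (hEsame x i _ r'.2).2, h, zero_mul, sub_zero, SectionBasis.redC_lift, one_mul]
    · exact (hEsame x i _ r'.2).2
  have hgb : ∀ x, LinearIndependent ℂ (g x) ∧ ∀ f : R x → ℂ, f ∈ Submodule.span ℂ (Set.range (g x)) := by
    intro x
    refine SectionBasis.lift_basis (M := M) (SimpleTraces.card_irrTraces) _ (fun i r => (hg x i r).1) ?_
    have hli := SimpleTraces.linearIndependent_regular (k := ResField M) (G := C x) (p := p)
    rw [Fintype.linearIndependent_iff]
    intro a ha i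
    have hone : ¬ p ∣ orderOf (ConjClasses.mk (1 : C x)).out := by
      rw [show (ConjClasses.mk (1 : C x)).out = 1 from
        isConj_one_right.1 (ConjClasses.mk_eq_mk_iff_isConj.1 (Quotient.out_eq (ConjClasses.mk (1 : C x)))).symm]
      exact regular_one
    choose cc hcc hval using fun j => (hg x j ⟨ConjClasses.mk 1, hone⟩).2
    have h := Fintype.linearIndependent_iff.1 hli (fun j => a j * cc j) ?_ i
    · exact (mul_eq_zero.1 h).resolve_right (hcc i)
    · funext r
      have := congrFun ha r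
      simp only [Finset.sum_apply, Pi.smul_apply, smul_eq_mul, Pi.zero_apply] at this ⊢
      rw [← this]
      exact Finset.sum_congr rfl fun j _ => by rw [hval j r, mul_assoc]
  have hres : ∀ (a : (Σ x, Idx x) → ℂ) (x : {x // x ∈ X}) (r : R x),
      (∑ s, a s • γ s) (x.1 * ((r.1.out : C x) : G)) = (∑ i, a ⟨x, i⟩ • g x i) r := by
    intro a x r
    simp only [Finset.sum_apply, Pi.smul_apply, smul_eq_mul]
    rw [Fintype.sum_sigma, Finset.sum_eq_single x]
    · intro x' _ hne
      exact Finset.sum_eq_zero fun i _ => by rw [hγne x' x i _ (Ne.symm hne) r.2, mul_zero]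
    · simp
  have hout : ∀ (x : {x // x ∈ X}) (f : G → ℂ), IsClassFunction G f → ∀ y : C x, ¬ p ∣ orderOf y →
      ∃ r : R x, f (x.1 * (y : G)) = f (x.1 * ((r.1.out : C x) : G)) := by
    intro x f hf y hy
    have hc : IsConj y (ConjClasses.mk y).out :=
      ConjClasses.mk_eq_mk_iff_isConj.1 (Quotient.out_eq (ConjClasses.mk y)).symm
    refine ⟨⟨ConjClasses.mk y, by rwa [orderOf_of_isConj hc]⟩, ?_⟩
    obtain ⟨d, hd⟩ := isConj_iff.1 hc
    rw [← hd]
    exact (isClassFunction_translate hf x.1 y d).symm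
  have hliγ : LinearIndependent ℂ γ := by
    rw [Fintype.linearIndependent_iff]
    rintro a ha ⟨x, i⟩
    refine Fintype.linearIndependent_iff.1 (hgb x).1 (fun i => a ⟨x, i⟩) ?_ i
    funext r
    rw [← hres a x r, ha]
    rfl
  have hliV : LinearIndependent ℂ fun s => (⟨γ s, hγc s⟩ : V) :=
    LinearIndependent.of_comp V.subtype hliγ
  have hspanV : ∀ f ∈ V, ∃ a : (Σ x, Idx x) → ℂ, f = ∑ s, a s • γ s := by
    intro f hf
    have := fun x : {x // x ∈ X} => Submodule.mem_span_range_iff_exists_fun ℂ |>.1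
      ((hgb x).2 fun r => f (x.1 * ((r.1.out : C x) : G)))
    choose a ha using this
    refine ⟨fun s => a s.1 s.2, SectionBasis.eq_of_sections hXrep hf
      (sum_mem fun s _ => Submodule.smul_mem V _ (hγc s)) fun x hx y hy => ?_⟩
    have hsc : IsClassFunction G (f - ∑ s : Σ x, Idx x, a s.1 s.2 • γ s) :=
      V.sub_mem hf (sum_mem fun s _ => Submodule.smul_mem V _ (hγc s))
    obtain ⟨r, hr⟩ := hout ⟨x, hx⟩ _ hsc y hy
    rw [← sub_eq_zero, ← Pi.sub_apply, hr, Pi.sub_apply, hres (fun s => a s.1 s.2) ⟨x, hx⟩ r, sub_eq_zero]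
    exact (congrFun (ha ⟨x, hx⟩) r).symm
  let b : Module.Basis (Σ x, Idx x) ℂ V := Module.Basis.mk hliV (by
    rintro ⟨f, hf⟩ -
    obtain ⟨a, ha⟩ := hspanV f hf
    have h : (⟨f, hf⟩ : V) = ∑ s, a s • (⟨γ s, hγc s⟩ : V) := Subtype.ext (by simp [ha])
    rw [h]
    exact Submodule.sum_mem _ fun s _ => Submodule.smul_mem _ _ (Submodule.subset_span ⟨s, rfl⟩))
  have hb : ∀ s, ((b s : V) : G → ℂ) = γ s := fun s => congrArg Subtype.val (Module.Basis.mk_apply _ _ s)
  have hrepr : ∀ (v : V) (x : {x // x ∈ X}),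
      (∀ y : C x, ¬ p ∣ orderOf y → (v : G → ℂ) (x.1 * (y : G)) = 0) → ∀ i, b.repr v ⟨x, i⟩ = 0 := by
    intro v x hv i
    refine Fintype.linearIndependent_iff.1 (hgb x).1 (fun i => b.repr v ⟨x, i⟩) ?_ i
    funext r
    rw [← hres (fun s => b.repr v s) x r]
    have h : (v : G → ℂ) = ∑ s, b.repr v s • γ s := by
      conv_lhs => rw [← b.sum_repr v]
      rw [Submodule.coe_sum]
      simp only [Submodule.coe_smul, hb]
    rw [← h]
    exact hv _ r.2
  -- the diagonal entries
  have hkinv : ∃ k' : ℕ, ∀ g : G, (g ^ k) ^ k' = g := by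
    obtain ⟨j, hj⟩ := exists_pow_eq_self_of_coprime' hk
    exact ⟨j, hj⟩
  have hdiag : ∀ s : Σ x, Idx x, ∃ e : ℕ, b.repr (S (b s)) s = (e : ℂ) ∧
      (s.1.1 = 1 → z s.1 s.2 ≠ 0 → e = 1) := by
    rintro ⟨x, i⟩
    by_cases h0 : z x i = 0
    · refine ⟨0, ?_, fun _ h => absurd h0 h⟩
      have : S (b ⟨x, i⟩) = 0 := Subtype.ext (by
        rw [hSapp, hb]
        simp only [γ]
        rw [if_pos h0, map_sub, hidem _ (hδc ⟨x, i⟩), sub_self, map_zero]
        rfl)
      simp [this]
    have hSb : ((S (b ⟨x, i⟩) : V) : G → ℂ) = E (T (δ ⟨x, i⟩)) := by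
      rw [hSapp, hb]
      simp only [γ]
      rw [if_neg h0, hidem _ (hδc ⟨x, i⟩), hcomm _ (hδc ⟨x, i⟩)]
    have hyk : ∀ (x : {x // x ∈ X}) (y : C x), ¬ p ∣ orderOf y →
        (x.1 * (y : G)) ^ k = x.1 ^ k * (y : G) := by
      intro x y hy
      rw [(show Commute x.1 (y : G) from (Subgroup.mem_centralizer_singleton_iff.1 y.2).symm).mul_pow,
        hkreg (y : G) (by rwa [Subgroup.orderOf_coe])]
    by_cases hfix : IsConj x.1 (x.1 ^ k)
    swap
    · refine ⟨0, ?_, fun h1 => absurd (by rw [h1, one_pow]) hfix⟩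
      rw [Nat.cast_zero]
      refine hrepr _ x (fun y hy => ?_) i
      rw [hSb]
      refine hEzero x _ (hTV _ (hδc ⟨x, i⟩)) (fun w hw => ?_) y hy
      rw [hTapp, hyk x w hw]
      -- the section of the conjugate of `x ^ k`
      have hpk : IsPElem p (x.1 ^ k) := by
        obtain ⟨e, he⟩ := hX x.1 x.2
        refine ⟨e, ?_⟩
        rw [Nat.Coprime.orderOf_pow ((hk.symm).coprime_dvd_left (orderOf_dvd_natCard x.1)), he]
      obtain ⟨x', ⟨hx', hc'⟩, -⟩ := hXrep _ hpk
      obtain ⟨c, hc⟩ := isConj_iff.1 hc'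
      have hne : (⟨x', hx'⟩ : {x // x ∈ X}) ≠ x := fun e => hfix (by
        rw [← e] at hc' ⊢
        exact hc'.symm)
      have hmem : c * (w : G) * c⁻¹ ∈ C ⟨x', hx'⟩ := by
        refine Subgroup.mem_centralizer_singleton_iff.2 ?_
        show c * (w : G) * c⁻¹ * x' = x' * (c * (w : G) * c⁻¹)
        rw [← hc]
        exact (((show Commute (w : G) x.1 from Subgroup.mem_centralizer_singleton_iff.1 w.2).pow_right k).map
          (MulAut.conj c).toMonoidHom).eq
      have h := hδne x ⟨x', hx'⟩ i ⟨_, hmem⟩ hne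
        (by rwa [Subgroup.orderOf_mk, orderOf_conj_eq, Subgroup.orderOf_coe])
      rw [← hδc ⟨x, i⟩ _ c]
      rw [show c * (x.1 ^ k * (w : G)) * c⁻¹ = c * x.1 ^ k * c⁻¹ * (c * (w : G) * c⁻¹) by group, hc]
      exact h
    · obtain ⟨n, hn⟩ := isConj_iff.1 hfix
      have hmem : ∀ y : C x, n⁻¹ * (y : G) * n ∈ C x := by
        intro y
        refine Subgroup.mem_centralizer_singleton_iff.2 ?_
        have hc : Commute (y : G) (x.1 ^ k) :=
          (show Commute (y : G) x.1 from Subgroup.mem_centralizer_singleton_iff.1 y.2).pow_right k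
        rw [← hn] at hc
        calc n⁻¹ * (y : G) * n * x.1 = n⁻¹ * ((y : G) * (n * x.1 * n⁻¹)) * n := by group
          _ = x.1 * (n⁻¹ * (y : G) * n) := by rw [hc.eq]; group
      let πh : C x →* C x :=
        { toFun := fun y => ⟨n⁻¹ * (y : G) * n, hmem y⟩
          map_one' := Subtype.ext (by simp)
          map_mul' := fun a b => Subtype.ext (by simp only [Subgroup.coe_mul]; group) }
      have hπinj : Function.Injective πh := fun a b e => Subtype.ext (by
        have : n⁻¹ * (a : G) * n = n⁻¹ * (b : G) * n := congrArg Subtype.val e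
        simpa using this)
      let π : C x ≃* C x := MulEquiv.ofBijective πh (Finite.injective_iff_bijective.1 hπinj)
      have hπ : ∀ y : C x, ((π y : C x) : G) = n⁻¹ * (y : G) * n := fun y => rfl
      let j : Idx x := ⟨fun y => i.1 (π y), SimpleTraces.comp_mem i.2 π⟩
      have hTeq : T (δ ⟨x, i⟩) = δ ⟨x, j⟩ := by
        refine SectionBasis.eq_of_sections hXrep (hTV _ (hδc ⟨x, i⟩)) (hδc ⟨x, j⟩) fun x₀ hx₀ y hy => ?_
        rw [hTapp, hyk ⟨x₀, hx₀⟩ y hy]
        by_cases hxx : (⟨x₀, hx₀⟩ : {x // x ∈ X}) = x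
        · subst hxx
          rw [hδsame _ j y hy]
          show δ _ (x₀ ^ k * (y : G)) = _
          rw [← hδc ⟨_, i⟩ _ n⁻¹,
            show n⁻¹ * (x₀ ^ k * (y : G)) * n⁻¹⁻¹ = x₀ * ((π y : C ⟨x₀, hx₀⟩) : G) by
              rw [hπ, ← hn]; group]
          rw [hδsame ⟨x₀, hx₀⟩ i (π y) (by rwa [MulEquiv.orderOf_eq])]
        · rw [hδne x ⟨x₀, hx₀⟩ j y hxx hy]
          show δ ⟨x, i⟩ (x₀ ^ k * (y : G)) = 0
          -- the `p`-part `x₀ ^ k` is not conjugate to `x`
          have hpk : IsPElem p (x₀ ^ k) := by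
            obtain ⟨e, he⟩ := hX x₀ hx₀
            refine ⟨e, ?_⟩
            rw [Nat.Coprime.orderOf_pow ((hk.symm).coprime_dvd_left (orderOf_dvd_natCard x₀)), he]
          obtain ⟨x', ⟨hx', hc'⟩, -⟩ := hXrep _ hpk
          obtain ⟨c, hc⟩ := isConj_iff.1 hc'
          have hne : (⟨x', hx'⟩ : {x // x ∈ X}) ≠ x := by
            intro e
            apply hxx
            obtain ⟨k', hk'⟩ := hkinv
            have e1 : IsConj x₀ x.1 := by
              have h1 : IsConj (x₀ ^ k) (x.1 ^ k) := by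
                rw [← e] at hfix ⊢
                exact hc'.trans hfix
              obtain ⟨d, hd⟩ := isConj_iff.1 h1
              exact isConj_iff.2 ⟨d, by rw [← hk' x₀, ← conj_pow, hd, hk' x.1]⟩
            obtain ⟨w, -, huni⟩ := hXrep x₀ (hX x₀ hx₀)
            exact Subtype.ext ((huni x₀ ⟨hx₀, IsConj.refl _⟩).trans (huni x.1 ⟨x.2, e1⟩).symm)
          have hmem' : c * (y : G) * c⁻¹ ∈ C ⟨x', hx'⟩ := by
            refine Subgroup.mem_centralizer_singleton_iff.2 ?_
            show c * (y : G) * c⁻¹ * x' = x' * (c * (y : G) * c⁻¹)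
            rw [← hc]
            exact (((show Commute (y : G) x₀ from Subgroup.mem_centralizer_singleton_iff.1 y.2).pow_right k).map
              (MulAut.conj c).toMonoidHom).eq
          have h := hδne x ⟨x', hx'⟩ i ⟨_, hmem'⟩ hne
            (by rwa [Subgroup.orderOf_mk, orderOf_conj_eq, Subgroup.orderOf_coe])
          rw [← hδc ⟨x, i⟩ _ c,
            show c * (x₀ ^ k * (y : G)) * c⁻¹ = c * x₀ ^ k * c⁻¹ * (c * (y : G) * c⁻¹) by group, hc]
          exact h
      have hzj : z x j ≠ 0 := by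
        intro hj
        haveI := Fintype.ofFinite (R x)
        obtain ⟨r, hr⟩ : ∃ r : R x, i.1 (π r.1.out) ≠ 0 := by
          by_contra hall
          push Not at hall
          exact ((SimpleTraces.linearIndependent_regular (k := ResField M) (G := C x) (p := p)).ne_zero j)
            (funext hall)
        have hπr : ¬ p ∣ orderOf (π r.1.out) := by rw [MulEquiv.orderOf_eq]; exact r.2
        have e2 : E (δ ⟨x, j⟩) (x.1 * ((r.1.out : C x) : G)) =
            E (δ ⟨x, i⟩) (x.1 * ((π r.1.out : C x) : G)) := by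
          rw [← hTeq, ← hcomm _ (hδc ⟨x, i⟩), hTapp, hyk x _ r.2,
            ← hET _ (hδc ⟨x, i⟩) _ n⁻¹]
          congr 1
          rw [hπ, ← hn]; group
        have e3 := congrArg (redC M) e2
        rw [(hEsame x j _ r.2).2, (hEsame x i _ hπr).2, hj, zero_mul] at e3
        exact mul_ne_zero h0 hr e3.symm
      have hSb' : S (b ⟨x, i⟩) = b ⟨x, j⟩ := Subtype.ext (by
        rw [hSb, hTeq, hb]
        simp only [γ]
        rw [if_neg hzj])
      refine ⟨if j = i then 1 else 0, ?_, fun h1 _ => ?_⟩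
      · rw [hSb', Module.Basis.repr_self, Finsupp.single_apply]
        by_cases hji : j = i
        · rw [if_pos hji, if_pos (by rw [hji]), Nat.cast_one]
        · rw [if_neg hji, if_neg (fun e => hji (eq_of_heq (Sigma.mk.inj e).2)), Nat.cast_zero]
      · rw [if_pos]
        refine Subtype.ext (funext fun y => ?_)
        show i.1 (π y) = i.1 y
        obtain ⟨c, hc⟩ : ∃ c : C x, (c : G) = n := ⟨⟨n, Subgroup.mem_centralizer_singleton_iff.2
          (show n * x.1 = x.1 * n by rw [show x.1 = 1 from h1, mul_one, one_mul])⟩, rfl⟩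
        rw [show π y = c⁻¹ * y * c⁻¹⁻¹ from Subtype.ext (by simp [hπ, hc])]
        exact (SimpleTraces.isReg_irrTrace (p := p) i.2).1 _ _
  choose e he he1 using hdiag
  have htr2 : LinearMap.trace ℂ V S = ((∑ s, e s : ℕ) : ℂ) := by
    rw [LinearMap.trace_eq_matrix_trace ℂ b, Matrix.trace, Nat.cast_sum]
    refine Finset.sum_congr rfl fun s _ => ?_
    rw [Matrix.diag_apply, LinearMap.toMatrix_apply, he]
  have hcount : ∑ s, e s = (Finset.univ.filter fun φ : IrrCharacter G =>
      φ ∈ B ∧ ∀ g : G, (φ : G → ℂ) (g ^ k) = (φ : G → ℂ) g).card :=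
    Nat.cast_injective (htr2.symm.trans htr1)
  rw [Nat.card_eq_fintype_card, Fintype.card_subtype, ← hcount]
  -- the identity section
  let x₁ : {x // x ∈ X} := ⟨1, h1X⟩
  set I₁ : Finset (Idx x₁) := Finset.univ.filter fun i => z x₁ i ≠ 0
  let L : (G → ℂ) →ₗ[ℂ] (G → ℂ) :=
    { toFun := fun f => pRegularPart p f
      map_add' := fun f h => by funext g; simp only [pRegularPart_apply, Pi.add_apply]; split_ifs <;> simp
      map_smul' := fun c f => by
        funext g; simp only [pRegularPart_apply, Pi.smul_apply, RingHom.id_apply]; split_ifs <;> simp }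
  have hle : regSpan p B ≤ Submodule.span ℂ
      (Set.range fun i : I₁ => L (γ ⟨x₁, i.1⟩)) := by
    refine Submodule.span_le.2 ?_
    rintro _ ⟨φ, hφ, rfl⟩
    obtain ⟨a, ha⟩ := hspanV _ (hV φ)
    have hφ' : (φ : G → ℂ) = ∑ s, a s • E (γ s) := by
      have := congrArg E ha
      rw [hEirr, if_pos hφ, map_sum] at this
      simpa only [map_smul] using this
    show L (φ : G → ℂ) ∈ _
    rw [hφ', map_sum]
    refine Submodule.sum_mem _ fun s _ => ?_
    rw [map_smul]
    refine Submodule.smul_mem _ _ ?_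
    obtain ⟨x, i⟩ := s
    by_cases h0 : z x i = 0
    · simp only [γ]
      rw [if_pos h0, map_sub, hidem _ (hδc ⟨x, i⟩), sub_self, map_zero]
      exact zero_mem _
    have hEγ : E (γ ⟨x, i⟩) = γ ⟨x, i⟩ := by
      simp only [γ]
      rw [if_neg h0, hidem _ (hδc ⟨x, i⟩)]
    rw [hEγ]
    by_cases hx : x = x₁
    · subst hx
      exact Submodule.subset_span ⟨⟨i, Finset.mem_filter.2 ⟨Finset.mem_univ _, h0⟩⟩, rfl⟩
    · have : L (γ ⟨x, i⟩) = 0 := by
        funext g
        show pRegularPart p (γ ⟨x, i⟩) g = 0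
        rw [pRegularPart_apply]
        split_ifs with hg
        · rfl
        · have h := hγne x x₁ i ⟨g, Subgroup.mem_centralizer_singleton_iff.2
            (show g * 1 = 1 * g by rw [mul_one, one_mul])⟩ (Ne.symm hx)
            (by rwa [Subgroup.orderOf_mk])
          simpa [x₁] using h
      rw [this]
      exact zero_mem _
  rw [← finrank_regSpan]
  refine ((Submodule.finrank_mono hle).trans (finrank_range_le_card _)).trans ?_
  rw [Fintype.card_coe, Finset.card_eq_sum_ones]
  calc ∑ i ∈ I₁, 1 = ∑ i ∈ I₁, e ⟨x₁, i⟩ :=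
        Finset.sum_congr rfl fun i hi => (he1 ⟨x₁, i⟩ rfl (Finset.mem_filter.1 hi).2).symm
    _ ≤ ∑ i, e ⟨x₁, i⟩ := Finset.sum_le_sum_of_subset (Finset.subset_univ _)
    _ ≤ ∑ x, ∑ i, e ⟨x, i⟩ :=
        Finset.single_le_sum (f := fun x => ∑ i, e ⟨x, i⟩) (fun x _ => Nat.zero_le _) (Finset.mem_univ x₁)
    _ = ∑ s, e s := (Fintype.sum_sigma e).symm

theorem aux {G : Type u} [Group G] [Finite G] {p : ℕ} [Fact p.Prime] (hodd : p ≠ 2)
    {M : Ideal AlgInt} (hM : IsPModular p M) {B : Set (IrrCharacter G)} (hB : IsPBlock M B) :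
    blockRank p B ≤ Nat.card {χ : IrrCharacter G // χ ∈ B ∧ ∀ k : ℕ, Nat.Coprime k (Nat.card G) →
      k ≡ 1 [MOD Nat.card G / p ^ (Nat.card G).factorization p] →
        ∀ g : G, (χ : G → ℂ) (g ^ k) = (χ : G → ℂ) g} := by
  have hp : p.Prime := Fact.out
  set a := (Nat.card G).factorization p
  set m := Nat.card G / p ^ a with hm
  have hnm : p ^ a * m = Nat.card G := Nat.mul_div_cancel' (Nat.ordProj_dvd _ _)
  have hmp : Nat.Coprime (p ^ a) m :=
    Nat.Coprime.pow_left a (hp.coprime_iff_not_dvd.mpr (Nat.not_dvd_ordCompl hp Nat.card_pos.ne'))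
  haveI : IsCyclic (ZMod (p ^ a))ˣ := ZMod.isCyclic_units_of_prime_pow p hp hodd a
  obtain ⟨u, hu⟩ := IsCyclic.exists_monoid_generator (α := (ZMod (p ^ a))ˣ)
  haveI : NeZero (p ^ a) := ⟨pow_ne_zero _ hp.pos.ne'⟩
  obtain ⟨k, hk1, hk2⟩ := Nat.chineseRemainder hmp (u : ZMod (p ^ a)).val 1
  have hku : ((k : ℕ) : ZMod (p ^ a)) = (u : ZMod (p ^ a)) := by
    rw [(ZMod.natCast_eq_natCast_iff _ _ _).2 hk1, ZMod.natCast_zmod_val]
  have hcop : Nat.Coprime k (Nat.card G) := by
    rw [← hnm]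
    refine Nat.Coprime.mul_right ?_ ?_
    · rw [← ZMod.isUnit_iff_coprime, hku]
      exact u.isUnit
    · rw [Nat.coprime_iff_gcd_eq_one, hk2.gcd_eq, Nat.gcd_one_left]
  have hkreg : ∀ y : G, ¬ p ∣ orderOf y → y ^ k = y := by
    intro y hy
    have hd : orderOf y ∣ m := by
      have h1 : orderOf y ∣ p ^ a * m := hnm.symm ▸ orderOf_dvd_natCard y
      exact (Nat.Coprime.pow_right a ((hp.coprime_iff_not_dvd.mpr hy).symm)).dvd_of_dvd_mul_left h1
    conv_rhs => rw [← pow_one y]
    exact pow_eq_pow_iff_modEq.2 (hk2.of_dvd hd)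
  refine (blockRank_le_fixed hM hB hcop hkreg).trans (Nat.card_le_card_of_injective (fun χ => ⟨χ.1, ?_⟩) fun χ χ' e => Subtype.ext (congrArg (fun t => t.1) e))
  obtain ⟨χ, hχ⟩ := χ
  refine ⟨hχ.1, fun l hl hl1 g => ?_⟩
  have hlu : IsUnit (l : ZMod (p ^ a)) := by
    rw [ZMod.isUnit_iff_coprime]
    exact hl.coprime_dvd_right (Dvd.intro _ hnm)
  obtain ⟨j, hj⟩ := Submonoid.mem_powers_iff _ _ |>.1 (hu hlu.unit)
  have hmod : l ≡ k ^ j [MOD Nat.card G] := by
    rw [← hnm]
    refine (Nat.modEq_and_modEq_iff_modEq_mul hmp).1 ⟨?_, ?_⟩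
    · rw [← ZMod.natCast_eq_natCast_iff, Nat.cast_pow, hku, ← Units.val_pow_eq_pow_val, hj, IsUnit.unit_spec]
    · exact hl1.trans (by simpa using (hk2.pow j).symm)
  rw [show g ^ l = g ^ (k ^ j) from pow_eq_pow_iff_modEq.2 (hmod.of_dvd (orderOf_dvd_natCard g))]
  clear hj hmod
  induction j with
  | zero => simp
  | succ j ih => rw [pow_succ, pow_mul, hχ.2, ih]

/-- Let p be an odd prime, M a maximal ideal of the algebraic integers containing p, G a finite group of order n with p-part p^a, and B a p-block of G. Call an irreducible character χ p-rational when χ(g^k) = χ(g) for every g and every k coprime to n with k ≡ 1 modulo n/p^a (χ is fixed by the Galois automorphisms fixing the roots of unity of order prime to p). Then the number of p-rational irreducible characters in B is at least the p-regular rank of B (the number of irreducible Brauer characters in B). -/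
theorem result {G : Type*} [Group G] [Finite G] (p : ℕ) [Fact p.Prime] (hodd : p ≠ 2) (M : Ideal Cfsg.AlgInt) (hM : Cfsg.IsPModular p M) (B : Set (Cfsg.IrrCharacter G)) (hB : Cfsg.IsPBlock M B) : Cfsg.blockRank p B ≤ Nat.card {χ : Cfsg.IrrCharacter G // χ ∈ B ∧ ∀ k : ℕ, Nat.Coprime k (Nat.card G) → k ≡ 1 [MOD Nat.card G / p ^ (Nat.card G).factorization p] → ∀ g : G, (χ : G → ℂ) (g ^ k) = (χ : G → ℂ) g} := by
  exact aux hodd hM hB

end Cfsg.Agent.S4712
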