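import Cfsg.Statements.S4714
import Cfsg.Agent.Lib.Block.CentralCount

set_option autoImplicit false
open Cfsg

namespace Cfsg.Agent.S4714

/-- Let p be a prime, M a maximal ideal of the algebraic integers containing p, D a p-subgroup of the finite group G with G = D·C_G(D), and B a p-block with defect group D. Let χ be a member of B having D in its kernel (there is exactly one, the canonical character of B). Then the irreducible characters in B are exactly the functions θ on G for which there is an irreducible character ζ of D such that θ(yx) = ζ(y)χ(x) whenever y ∈ D, x has order prime to p and x commutes with y, and θ(z) = 0 whenever the p-part of z does not lie in D. -/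
theorem result {G : Type*} [Group G] [Finite G] (p : ℕ) [Fact p.Prime] (M : Ideal Cfsg.AlgInt) (hM : Cfsg.IsPModular p M) (D : Subgroup G) (hD : IsPGroup p D) (hG : D ⊔ Subgroup.centralizer (D : Set G) = ⊤) (B : Set (Cfsg.IrrCharacter G)) (hB : Cfsg.IsPBlock M B) (hBD : Cfsg.IsDefectGroup p M B D) (χ : Cfsg.IrrCharacter G) (hχ : χ ∈ B) (hχD : ∀ y ∈ D, (χ : G → ℂ) y = (χ : G → ℂ) 1) : (∀ θ : Cfsg.IrrCharacter G, θ ∈ B ↔ ∃ ζ : Cfsg.IrrCharacter D, (∀ (y : D) (x : G), ¬ p ∣ orderOf x → Commute (y : G) x → (θ : G → ℂ) ((y : G) * x) = (ζ : D → ℂ) y * (χ : G → ℂ) x) ∧ (∀ z : G, (∀ y : G, Cfsg.IsPPart p z y → y ∉ D) → (θ : G → ℂ) z = 0)) ∧ ∀ ζ : Cfsg.IrrCharacter D, ∃ θ ∈ B, (∀ (y : D) (x : G), ¬ p ∣ orderOf x → Commute (y : G) x → (θ : G → ℂ) ((y : G) * x) = (ζ : D → ℂ) y * (χ : G → ℂ) x) ∧ (∀ z : G, (∀ y : G, Cfsg.IsPPart p z y → y ∉ D) → (θ : G → ℂ) z = 0) := by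
  classical
  haveI : M.IsPrime := hM.2.1.isPrime
  haveI := Lib.Block.normal_of_sup_centralizer hG
  haveI := Fintype.ofFinite D
  haveI := Fintype.ofFinite G
  have hcomm : ∀ (u : D) (s : G), ¬ p ∣ orderOf s → Commute (u : G) s := fun u s hs =>
    Subgroup.mem_centralizer_iff.1 (Lib.Block.regular_mem_centralizer hM hD hG hs) _ u.2
  choose F hF1 hF2 using fun θ : B => Lib.Block.exists_restrict_eq_smul hM hB hBD hG hχ hχD θ.2
  have hvan : ∀ θ ∈ B, ∀ z : G, (∀ y : G, Cfsg.IsPPart p z y → y ∉ D) → (θ : G → ℂ) z = 0 := by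
    intro θ hθ z hz
    obtain ⟨y, hy⟩ := Lib.Block.exists_isPPart (p := p) z
    exact Lib.Block.char_eq_zero_of_not_mem hM hB hBD hθ hy (hz y hy)
  have huniq : ∀ θ θ' : Cfsg.IrrCharacter G, ∀ ζ : Cfsg.IrrCharacter D,
      (∀ (y : D) (x : G), ¬ p ∣ orderOf x → Commute (y : G) x →
        (θ : G → ℂ) ((y : G) * x) = (ζ : D → ℂ) y * (χ : G → ℂ) x) →
      (∀ z : G, (∀ y : G, Cfsg.IsPPart p z y → y ∉ D) → (θ : G → ℂ) z = 0) →
      (∀ (y : D) (x : G), ¬ p ∣ orderOf x → Commute (y : G) x →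
        (θ' : G → ℂ) ((y : G) * x) = (ζ : D → ℂ) y * (χ : G → ℂ) x) →
      (∀ z : G, (∀ y : G, Cfsg.IsPPart p z y → y ∉ D) → (θ' : G → ℂ) z = 0) → θ = θ' := by
    intro θ θ' ζ h1 h2 h1' h2'
    refine Subtype.ext (funext fun g => ?_)
    by_cases h : ∃ y : G, Cfsg.IsPPart p g y ∧ y ∈ D
    · obtain ⟨y, ⟨s, hs1, hs2, -, hs4⟩, hyD⟩ := h
      rw [← hs1]
      exact (h1 ⟨y, hyD⟩ s hs4 hs2).trans (h1' ⟨y, hyD⟩ s hs4 hs2).symm
    · push Not at h
      rw [h2 g h, h2' g h]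
  have hbij : Function.Bijective F := by
    haveI := Fintype.ofFinite B
    refine (Fintype.bijective_iff_injective_and_card F).2 ⟨fun a b he => Subtype.ext
      (huniq a b (F a) (fun y x hx _ => hF2 a y x hx) (hvan a a.2)
        (fun y x hx _ => he ▸ hF2 b y x hx) (hvan b b.2)), ?_⟩
    rw [← Nat.card_eq_fintype_card, ← Nat.card_eq_fintype_card,
      Lib.Block.card_block_central_product hM hB hBD hG, Lib.Char.card_irr_eq_card_conjClasses]
  refine ⟨fun θ => ⟨fun hθ => ⟨F ⟨θ, hθ⟩, fun y x hx _ => hF2 ⟨θ, hθ⟩ y x hx, hvan θ hθ⟩, ?_⟩,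
    fun ζ => ?_⟩
  · rintro ⟨ζ, h1, h2⟩
    obtain ⟨θ', rfl⟩ := hbij.2 ζ
    rw [huniq θ θ' (F θ') h1 h2 (fun y x hx _ => hF2 θ' y x hx) (hvan θ' θ'.2)]
    exact θ'.2
  · obtain ⟨θ', rfl⟩ := hbij.2 ζ
    exact ⟨θ', θ'.2, fun y x hx _ => hF2 θ' y x hx, hvan θ' θ'.2⟩

end Cfsg.Agent.S4714
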