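import Cfsg.Statements.S4715
import Cfsg.Agent.Lib.HeightBound.Center

set_option autoImplicit false
set_option linter.style.haveILetI false
open Cfsg Cfsg.Agent.Lib Cfsg.Agent.Lib.Block Cfsg.Agent.Lib.BrauerPairs Cfsg.Agent.Lib.HeightBound

namespace Cfsg.Agent.S4715

/-- Let p be a prime, M a maximal ideal of the algebraic integers containing p, B a p-block of the finite group G with defect group D of order p^d, H = D·C_G(D), b a block of H inducing B, T the stabilizer of b in N_G(D) and e = [T : H] the inertial index of B; let n be the integer with p^n ≤ e < p^(n+1) and p^c the order of the centre of D. Then every irreducible character in B has height h with h + c ≤ n + d. -/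
theorem result {G : Type*} [Group G] [Finite G] (p : ℕ) [Fact p.Prime] (M : Ideal Cfsg.AlgInt) (hM : Cfsg.IsPModular p M) (B : Set (Cfsg.IrrCharacter G)) (hB : Cfsg.IsPBlock M B) (D : Subgroup G) (hBD : Cfsg.IsDefectGroup p M B D) (d : ℕ) (hDd : Nat.card D = p ^ d) (H : Subgroup G) (hH : H = D ⊔ Subgroup.centralizer (D : Set G)) (b : Set (Cfsg.IrrCharacter H)) (hind : Cfsg.IsInducedBlock M H b B) (T : Subgroup G) (hT : ∀ g : G, g ∈ T ↔ (g ∈ Subgroup.normalizer (D : Set G) ∧ ∀ θ ∈ b, ∀ θ' : Cfsg.IrrCharacter H, (∀ h h' : H, (h' : G) = g * h * g⁻¹ → (θ' : H → ℂ) h' = (θ : H → ℂ) h) → θ' ∈ b)) (e : ℕ) (he : H.relIndex T = e) (n : ℕ) (hn : p ^ n ≤ e ∧ e < p ^ (n + 1)) (c : ℕ) (hc : Nat.card (Subgroup.center D) = p ^ c) : ∀ χ ∈ B, Cfsg.blockHeight p B (χ : G → ℂ) + c ≤ n + d := by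
  intro χ hχ
  haveI : M.IsPrime := hM.2.1.isPrime
  obtain ⟨f, hmax, hstab⟩ := exists_maximal_of_local hM hB hBD hH hind
  have hST : stab M D f ≤ T := fun s hs => (hT s).2 ⟨hs.1, hstab s hs⟩
  have hHZ : H ≤ Subgroup.centralizer (D ⊓ Subgroup.centralizer (D : Set G) : Set G) := by
    rw [hH]
    refine sup_le (fun w hw => Subgroup.mem_centralizer_iff.2 fun z hz => ?_)
      (Subgroup.centralizer_le fun z hz => hz.1)
    exact (Subgroup.mem_centralizer_iff.1 hz.2 w hw).symm
  have hcard : Nat.card (D ⊓ Subgroup.centralizer (D : Set G) : Subgroup G) = p ^ c := by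
    rw [← hc, Nat.card_congr ((Subgroup.center D).equivMapOfInjective _
      (Subgroup.subtype_injective _)).toEquiv]
    congr 2
    ext x
    simp only [Subgroup.mem_inf, Subgroup.mem_map, Subgroup.mem_centralizer_iff, SetLike.mem_coe,
      Subgroup.mem_center_iff]
    constructor
    · rintro ⟨hx, hxc⟩
      exact ⟨⟨x, hx⟩, fun w => Subtype.ext (hxc w w.2), rfl⟩
    · rintro ⟨z, hz, rfl⟩
      exact ⟨z.2, fun w hw => congrArg Subtype.val (hz ⟨w, hw⟩)⟩
  have hrel : H.relIndex (stab M D f) ≤ e := by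
    rw [← he]
    refine Subgroup.relIndex_le_of_le_right hST ?_
    intro h0
    rw [← he, h0] at hn
    have := Nat.one_le_pow n p (Fact.out : p.Prime).pos
    omega
  have h1 := card_center_mul_le hM hmax hDd hHZ hχ
  rw [hcard, ← pow_add] at h1
  have h2 : p ^ (c + blockHeight p B (χ : G → ℂ)) < p ^ (n + 1 + d) := by
    refine h1.trans_lt ?_
    rw [pow_add p (n + 1) d]
    exact Nat.mul_lt_mul_of_pos_right (hrel.trans_lt hn.2) (pow_pos (Fact.out : p.Prime).pos d)
  have := (Nat.pow_lt_pow_iff_right (Fact.out : p.Prime).one_lt).1 h2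
  omega

end Cfsg.Agent.S4715
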