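import Cfsg.Statements.S4717
import Cfsg.Agent.Lib.Block.Orth
import Cfsg.Agent.Lib.Block.FirstMain
import Mathlib.RingTheory.Idempotents

set_option autoImplicit false
open Cfsg

namespace Cfsg.Agent.S4717

/-- Let p be a prime, M a maximal ideal of the algebraic integers containing p, and r a natural number; say that a finite group X has deficiency class r when X has no non-principal p-block of defect ≥ r. If G has deficiency class r then so does the centralizer of every p-element of G; conversely, if r > 0 and the centralizer of every element of order p has deficiency class r, then G has deficiency class r. -/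
theorem result {G : Type*} [Group G] [Finite G] (p : ℕ) [Fact p.Prime] (M : Ideal Cfsg.AlgInt) (hM : Cfsg.IsPModular p M) (r : ℕ) : ((∀ B' : Set (Cfsg.IrrCharacter G), Cfsg.IsPBlock M B' → B' ≠ Cfsg.principalBlock M G → Cfsg.blockDefect p B' < r) → ∀ y : G, (∃ k : ℕ, orderOf y = p ^ k) → (∀ B' : Set (Cfsg.IrrCharacter ↥(Subgroup.centralizer ({y} : Set G))), Cfsg.IsPBlock M B' → B' ≠ Cfsg.principalBlock M ↥(Subgroup.centralizer ({y} : Set G)) → Cfsg.blockDefect p B' < r)) ∧ (0 < r → (∀ y : G, orderOf y = p → (∀ B' : Set (Cfsg.IrrCharacter ↥(Subgroup.centralizer ({y} : Set G))), Cfsg.IsPBlock M B' → B' ≠ Cfsg.principalBlock M ↥(Subgroup.centralizer ({y} : Set G)) → Cfsg.blockDefect p B' < r)) → (∀ B' : Set (Cfsg.IrrCharacter G), Cfsg.IsPBlock M B' → B' ≠ Cfsg.principalBlock M G → Cfsg.blockDefect p B' < r)) := by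
  classical
  haveI := hM.2.1
  have hp : p.Prime := Fact.out
  refine ⟨fun hG y hy b hb hne => ?_, fun hr hloc B hB hne => ?_⟩
  · obtain ⟨B, hind⟩ := Lib.Block.inducedBlockDefined_centralizer (x := y) hM hy hb
    have hBne : B ≠ principalBlock M G := fun h => hne ((Lib.Block.induced_principal_iff hM hind).1 h)
    obtain ⟨D, hD⟩ := Lib.Block.exists_isDefectGroup hM hb
    obtain ⟨F, hF, hDF⟩ := Lib.Block.exists_defect_ge_of_induced hM hind hD
    have h := Subgroup.card_le_of_le hDF
    rw [(Lib.Block.IsDefectGroup.props hM hind.2.1 hF).2.1,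
      ← Nat.card_congr (D.equivMapOfInjective _ (Subgroup.subtype_injective _)).toEquiv,
      (Lib.Block.IsDefectGroup.props hM hb hD).2.1] at h
    exact lt_of_le_of_lt ((Nat.pow_le_pow_iff_right hp.one_lt).1 h) (hG B hind.2.1 hBne)
  · by_contra hcon
    push Not at hcon
    obtain ⟨D, hD⟩ := Lib.Block.exists_isDefectGroup hM hB
    obtain ⟨hDp, hDc, g, hgdef, hgD⟩ := Lib.Block.IsDefectGroup.props hM hB hD
    haveI : Nontrivial D := (Finite.one_lt_card_iff_nontrivial).1
      (by rw [hDc]; exact Nat.one_lt_pow (by omega) hp.one_lt)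
    haveI := hDp.center_nontrivial
    obtain ⟨k, hk, hzc⟩ := ((hDp.to_subgroup (Subgroup.center D)).nontrivial_iff_card).1 inferInstance
    obtain ⟨z, hz⟩ := exists_prime_orderOf_dvd_card' (G := Subgroup.center D) p
      (by rw [hzc]; exact dvd_pow_self p (by omega))
    set y : G := ((z : D) : G) with hy
    have hyo : orderOf y = p := by rw [hy, Subgroup.orderOf_coe, Subgroup.orderOf_coe, hz]
    have hyD : y ∈ D := (z : D).2
    set P := Subgroup.zpowers y with hPdef
    set H := Subgroup.centralizer ({y} : Set G) with hHdef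
    have hP : IsPGroup p P := IsPGroup.of_card (n := 1) (by rw [Nat.card_zpowers, hyo, pow_one])
    have hPH : P ≤ H := Subgroup.zpowers_le.2 (Lib.Block.self_mem_centralizer y)
    have hCH : Subgroup.centralizer (P : Set G) ≤ H :=
      Subgroup.centralizer_le (Set.singleton_subset_iff.2 (Subgroup.mem_zpowers y))
    have hHN : H ≤ Subgroup.normalizer (P : Set G) := by
      rw [show H = Subgroup.centralizer (P : Set G) by
        rw [hHdef, hPdef, Subgroup.zpowers_eq_closure, Subgroup.centralizer_closure]]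
      exact Subgroup.centralizer_le_normalizer _
    have hPD : P ≤ D := Subgroup.zpowers_le.2 hyD
    have hDH : D ≤ H := fun u hu => Subgroup.mem_centralizer_singleton_iff.2
      (congrArg Subtype.val (Subgroup.mem_center_iff.1 z.2 ⟨u, hu⟩))
    obtain ⟨χ, hχ⟩ := Lib.Block.isPBlock_nonempty hB
    have hge := ((Lib.Block.isDefectClass_iff hB hχ).1 hgdef).1
    have hgP : g ∈ Subgroup.centralizer (P : Set G) := Subgroup.centralizer_le hPD hgD
    haveI := Lib.Block.resField_charP (M := M) hM
    set C := (Subgroup.centralizer (P : Set G) : Set G) with hC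
    set a := Lib.Block.toSub H (Lib.Block.restr C (Lib.Block.eIdem B)) with ha
    have hac : Lib.Block.IsClassCoeff a :=
      Lib.Block.isClassCoeff_toSub_restr hHN (Lib.Block.isClassCoeff_eIdem B)
    have haR : Lib.Block.IntR M a :=
      Lib.Block.intR_toSub (Lib.Block.intR_restr _ (Lib.Block.intR_eIdem hB))
    have haid : IsIdempotentElem (Lib.Block.toF M a) := by
      rw [IsIdempotentElem, ha, Lib.Block.toF_toSub, Lib.Block.toF_restr, hC,
        ← Lib.Block.toSub_mul_of_supp,
        ← Lib.Block.restr_centralizer_mul (p := p) hP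
          (fun u _ => Lib.Block.isClassCoeff_toF (Lib.Block.isClassCoeff_eIdem B) u)
          (fun u _ => Lib.Block.isClassCoeff_toF (Lib.Block.isClassCoeff_eIdem B) u),
        ← Lib.Block.toF_mul (Lib.Block.intR_eIdem hB) (Lib.Block.intR_eIdem hB),
        (Lib.Block.isIdempotentElem_eIdem B).eq]
      exact fun x hx => Lib.Block.coeff_restr_of_notMem fun h => hx (hCH h)
    set Φ : IrrCharacter H → Lib.Block.ResField M :=
      fun ψ => Lib.Block.redC M (Lib.Block.omega (ψ : H → ℂ) a) with hΦ
    have h01 : ∀ ψ, Φ ψ ≠ 0 → Φ ψ = 1 := fun ψ hψ => by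
      refine (mul_eq_left₀ hψ).1 ?_
      rw [hΦ]
      dsimp only
      rw [← Lib.Block.redC_mul (Lib.Block.omega_mem_locRing ψ hac haR)
        (Lib.Block.omega_mem_locRing ψ hac haR), ← Lib.Block.omega_mul ψ hac]
      exact Lib.Block.redC_omega_eq_of_toF_eq ψ (hac.mul hac) (haR.mul haR) hac haR
        (by rw [Lib.Block.toF_mul haR haR, haid.eq])
    set T := (Lib.Block.blocks M H).filter (fun b => ∃ ξ ∈ b, Φ ξ ≠ 0) with hT
    have hTb : ∀ b ∈ T, IsPBlock M b := fun b hb => Lib.Block.mem_blocks.1 (Finset.mem_filter.1 hb).1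
    set A := ∑ b ∈ T, Lib.Block.eIdem b with hA
    have hAc : Lib.Block.IsClassCoeff A := fun u x => by
      simp only [hA, Lib.Block.coeff_sum_apply]
      exact Finset.sum_congr rfl fun b _ => Lib.Block.isClassCoeff_eIdem b u x
    have hAR : Lib.Block.IntR M A := fun x => by
      rw [hA, Lib.Block.coeff_sum_apply]
      exact Subring.sum_mem _ fun b hb => Lib.Block.intR_eIdem (hTb b hb) x
    have hAid : IsIdempotentElem A := by
      rw [IsIdempotentElem]
      refine Lib.Block.eq_of_omega_eq (hAc.mul hAc) hAc fun ψ => ?_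
      rw [Lib.Block.omega_mul ψ hAc, hA, Lib.Block.omega_sum]
      simp only [Lib.Block.omega_eIdem]
      by_cases h : ∃ b ∈ T, ψ ∈ b
      · obtain ⟨b, hb, hψb⟩ := h
        rw [Finset.sum_eq_single b (fun b' hb' hne' => if_neg fun h' =>
          hne' (Lib.Block.eq_of_mem_of_mem (hTb b' hb') (hTb b hb) h' hψb)) (absurd hb), if_pos hψb,
          one_mul]
      · rw [Finset.sum_eq_zero fun b hb => if_neg fun h' => h ⟨b, hb, h'⟩, zero_mul]
    have heqω : ∀ ψ : IrrCharacter H,
        Lib.Block.redC M (Lib.Block.omega (ψ : H → ℂ) A) = Φ ψ := by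
      intro ψ
      have hblk : IsPBlock M (blockOf M (ψ : H → ℂ)) := Lib.Block.isPBlock_blockOf ψ
      rw [hA, Lib.Block.omega_sum]
      simp only [Lib.Block.omega_eIdem]
      by_cases h : Φ ψ = 0
      · rw [Finset.sum_eq_zero fun b hb => if_neg fun h' => ?_, Lib.Block.redC_zero, h]
        obtain ⟨ξ, hξ, hξ0⟩ := (Finset.mem_filter.1 hb).2
        exact hξ0 ((Lib.Block.redC_omega_eq_of_sameBlock
          (Lib.Block.sameBlock_of_mem (hTb b hb) hξ h') hac haR).trans h)
      · rw [Finset.sum_eq_single (blockOf M (ψ : H → ℂ))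
          (fun b hb hne' => if_neg fun h' =>
            hne' (Lib.Block.blockOf_eq_of_mem (hTb b hb) h'))
          (fun h' => absurd (Finset.mem_filter.2 ⟨Lib.Block.mem_blocks.2 hblk,
            ψ, Lib.Block.mem_blockOf_self ψ, h⟩) h'),
          if_pos (Lib.Block.mem_blockOf_self ψ), Lib.Block.redC_one, h01 ψ h]
    have hAF : IsIdempotentElem (Lib.Block.toF M A) := by
      rw [IsIdempotentElem, ← Lib.Block.toF_mul hAR hAR, hAid.eq]
    have heq : Lib.Block.toF M a = Lib.Block.toF M A := by
      obtain ⟨n, hn⟩ := Lib.Block.exists_pow_toF_eq_zero (hac.sub hAc) (haR.sub hAR) (fun ψ => by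
        rw [Lib.Block.omega_sub, Lib.Block.redC_sub (Lib.Block.omega_mem_locRing ψ hac haR)
          (Lib.Block.omega_mem_locRing ψ hAc hAR), heqω ψ]
        exact sub_self _)
      have hsub : Lib.Block.toF M (a - A) = Lib.Block.toF M a - Lib.Block.toF M A := by
        refine Lib.Block.alg_ext fun x => ?_
        simp only [Lib.Block.coeff_toF, MonoidAlgebra.coeff_sub, Finsupp.coe_sub, Pi.sub_apply]
        exact Lib.Block.redC_sub (haR x) (hAR x)
      rw [hsub] at hn
      have hcomm : Commute (Lib.Block.toF M a) (Lib.Block.toF M A) :=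
        (Lib.Block.isClassCoeff_toF hac).commute _
      exact eq_of_isNilpotent_sub_of_isIdempotentElem_of_commute haid hAF ⟨n, hn⟩ hcomm
    have h0 : Lib.Block.redC M (A.coeff ⟨g, hCH hgP⟩) ≠ 0 := by
      rw [← Lib.Block.coeff_toF, ← heq, Lib.Block.coeff_toF, ha, Lib.Block.coeff_toSub,
        Lib.Block.coeff_restr_of_mem (S := C) hgP, Lib.Block.coeff_eIdem]
      exact hge
    rw [hA, Lib.Block.coeff_sum_apply, Lib.Block.redC_sum T
      (fun b hb => Lib.Block.intR_eIdem (hTb b hb) _)] at h0
    obtain ⟨b, hbT, hb0⟩ := Finset.exists_ne_zero_of_sum_ne_zero h0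
    rw [Lib.Block.coeff_eIdem] at hb0
    have hb := hTb b hbT
    obtain ⟨ξ, hξ, hξ0⟩ := (Finset.mem_filter.1 hbT).2
    -- the defect of `b`
    have hdef : blockDefect p B ≤ blockDefect p b := by
      refine le_trans ?_ (Lib.Block.factorization_le_blockDefect_of_support hM hb hb0)
      refine (hp.pow_dvd_iff_le_factorization Nat.card_pos.ne').1 ?_
      rw [← hDc, ← Nat.card_congr (Subgroup.subgroupOfEquivOfLe hDH).toEquiv]
      exact Subgroup.card_dvd_of_le fun u hu => Subgroup.mem_centralizer_singleton_iff.2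
        (Subtype.ext (Subgroup.mem_centralizer_iff.1 hgD _ hu).symm).symm
    -- `b` induces `B`
    obtain ⟨B', hind⟩ := Lib.Block.inducedBlockDefined_of_brauer hM hP hPH hCH hHN hb
    obtain ⟨χ', hχ'⟩ := Lib.Block.isPBlock_nonempty hind.2.1
    have key := Lib.Block.redC_omega_toSub_eq hind hξ hχ' (Lib.Block.isClassCoeff_eIdem B)
      (Lib.Block.intR_eIdem hB)
    rw [← Lib.Block.redC_omega_toSub_restr hM hP hPH hHN ξ (Lib.Block.isClassCoeff_eIdem B)
      (Lib.Block.intR_eIdem hB), Lib.Block.omega_eIdem] at key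
    have hmem : χ' ∈ B := by
      by_contra hn
      rw [if_neg hn, Lib.Block.redC_zero] at key
      exact hξ0 key
    have hBB : B' = B := (Lib.Block.eq_of_mem_of_mem hB hind.2.1 hmem hχ').symm
    subst hBB
    have := hloc y hyo b hb (fun h => hne ((Lib.Block.induced_principal_iff hM hind).2 h))
    omega

end Cfsg.Agent.S4717
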