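import Cfsg.Statements.S4718
import Cfsg.Agent.Lib.Heights.Basic
import Cfsg.Agent.Lib.Block.Principal
import Cfsg.Agent.Lib.Char.Orthogonality
import Cfsg.Agent.Lib.Block.Green

set_option autoImplicit false
universe u
open Cfsg

namespace Cfsg.Agent.S4718

/-- Finitely many representations of a rational number as a sum of `k` reciprocals. -/
theorem exists_bound (k : ℕ) : ∀ r : ℚ, ∃ N : ℕ, ∀ s : Multiset ℕ, s.card = k →
    (∀ c ∈ s, 0 < c) → (s.map fun c : ℕ => (1 : ℚ) / c).sum = r → ∀ c ∈ s, c ≤ N := by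
  induction k with
  | zero =>
    intro r
    exact ⟨0, fun s hs _ _ c hc => absurd hc (by rw [Multiset.card_eq_zero.1 hs]; simp)⟩
  | succ k ih =>
    intro r
    choose N hN using ih
    refine ⟨((Finset.range (⌈((k : ℚ) + 1) / r⌉₊ + 1)).sup fun c : ℕ => max c (N (r - 1 / c))), ?_⟩
    intro s hs hpos hsum c hc
    obtain ⟨m, hm, hmin⟩ := s.toFinset.exists_min_image id ⟨c, Multiset.mem_toFinset.2 hc⟩
    rw [Multiset.mem_toFinset] at hm
    simp only [id, Multiset.mem_toFinset] at hmin
    have hm0 : (0 : ℚ) < m := Nat.cast_pos.2 (hpos m hm)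
    have hle : r ≤ ((k : ℚ) + 1) / m := by
      rw [← hsum]
      refine (Multiset.sum_le_card_nsmul _ ((1 : ℚ) / m) ?_).trans (le_of_eq ?_)
      · intro y hy
        obtain ⟨d, hd, rfl⟩ := Multiset.mem_map.1 hy
        exact one_div_le_one_div_of_le hm0 (Nat.cast_le.2 (hmin d hd))
      · rw [Multiset.card_map, hs, nsmul_eq_mul]
        push_cast
        ring
    have hr : 0 < r := by
      rw [← hsum, ← Multiset.cons_erase hm, Multiset.map_cons, Multiset.sum_cons]
      refine add_pos_of_pos_of_nonneg (one_div_pos.2 hm0) (Multiset.sum_nonneg ?_)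
      intro y hy
      obtain ⟨d, -, rfl⟩ := Multiset.mem_map.1 hy
      positivity
    have hmle : m ≤ ⌈((k : ℚ) + 1) / r⌉₊ := by
      have : (m : ℚ) ≤ ((k : ℚ) + 1) / r := by
        rw [le_div_iff₀ hr]
        rw [le_div_iff₀ hm0] at hle
        linarith
      exact_mod_cast this.trans (Nat.le_ceil _)
    refine le_trans ?_ (Finset.le_sup (f := fun c : ℕ => max c (N (r - 1 / c)))
      (Finset.mem_range.2 (Nat.lt_succ_of_le hmle)))
    by_cases hcm : c = m
    · subst hcm
      exact le_max_left _ _
    · refine le_trans ?_ (le_max_right _ _)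
      refine hN (r - 1 / m) (s.erase m) ?_ (fun d hd => hpos d (Multiset.mem_of_mem_erase hd)) ?_ c
        ((Multiset.mem_erase_of_ne hcm).2 hc)
      · rw [Multiset.card_erase_of_mem hm, hs]
        simp
      · rw [← hsum]
        conv_rhs => rw [← Multiset.cons_erase hm, Multiset.map_cons, Multiset.sum_cons]
        ring

/-- Landau: the number of classes bounds the order. -/
theorem exists_order_bound (k : ℕ) : ∃ N : ℕ, ∀ (G : Type u) [Group G] [Finite G],
    Nat.card (ConjClasses G) = k → Nat.card G ≤ N := by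
  obtain ⟨N, hN⟩ := exists_bound k 1
  refine ⟨N, fun G _ _ hk => ?_⟩
  classical
  haveI := Fintype.ofFinite G
  haveI := Fintype.ofFinite (ConjClasses G)
  let f : ConjClasses G → ℕ := fun C => Nat.card (Subgroup.centralizer ({C.out} : Set G))
  refine hN ((Finset.univ : Finset (ConjClasses G)).val.map f) ?_ ?_ ?_ _ (Multiset.mem_map.2
    ⟨ConjClasses.mk 1, Finset.mem_univ _, ?_⟩)
  · rw [Multiset.card_map, Finset.card_val, Finset.card_univ, ← Nat.card_eq_fintype_card, hk]
  · intro c hc
    obtain ⟨C, -, rfl⟩ := Multiset.mem_map.1 hc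
    exact Nat.card_pos
  · rw [Multiset.map_map]
    show ∑ C : ConjClasses G, (1 : ℚ) / f C = 1
    have hG : (Nat.card G : ℚ) ≠ 0 := Nat.cast_ne_zero.2 Nat.card_pos.ne'
    have h1 : ∀ C : ConjClasses G, (1 : ℚ) / f C =
        ((Finset.univ.filter fun y : G => ConjClasses.mk y = C).card : ℚ) / Nat.card G := by
      intro C
      have hfC : (f C : ℚ) ≠ 0 := Nat.cast_ne_zero.2 Nat.card_pos.ne'
      rw [show (Finset.univ.filter fun y : G => ConjClasses.mk y = C) =
          Finset.univ.filter fun y : G => IsConj C.out y from Finset.filter_congr fun y _ => by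
        rw [← ConjClasses.mk_eq_mk_iff_isConj]
        conv_lhs => rw [← Quotient.out_eq C]
        exact eq_comm, ← Fintype.card_subtype, ← Nat.card_eq_fintype_card,
        Lib.Block.card_isConj_eq_index]
      rw [div_eq_div_iff hfC hG, one_mul, ← (Subgroup.centralizer ({C.out} : Set G)).card_mul_index]
      push_cast
      ring
    rw [Finset.sum_congr rfl fun C _ => h1 C, ← Finset.sum_div, ← Nat.cast_sum,
      ← Finset.card_eq_sum_card_fiberwise (f := ConjClasses.mk) (t := Finset.univ)
        (fun y _ => Finset.mem_univ _), Finset.card_univ, ← Nat.card_eq_fintype_card, div_self hG]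
  · show Nat.card (Subgroup.centralizer ({(ConjClasses.mk (1 : G)).out} : Set G)) = Nat.card G
    have h : (ConjClasses.mk (1 : G)).out = 1 :=
      isConj_one_right.1 (ConjClasses.mk_eq_mk_iff_isConj.1 (Quotient.out_eq (ConjClasses.mk (1 : G))).symm)
    rw [h, Subgroup.centralizer_eq_top_iff_subset.2 (by simp), Subgroup.card_top]

/-- Let p be a prime and a a natural number. There is a bound N such that every finite group whose Sylow p-subgroups have order p^a and whose only p-block (relative to a maximal ideal of the algebraic integers containing p) is the principal block has order at most N. -/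
theorem result (p : ℕ) [Fact p.Prime] (a : ℕ) : ∃ N : ℕ, ∀ (G : Type u) [Group G] [Finite G] (M : Ideal Cfsg.AlgInt), Cfsg.IsPModular p M → (Nat.card G).factorization p = a → (∀ B : Set (Cfsg.IrrCharacter G), Cfsg.IsPBlock M B → B = Cfsg.principalBlock M G) → Nat.card G ≤ N := by
  choose N hN using exists_order_bound.{u}
  refine ⟨(Finset.range (p ^ (2 * a) + 2)).sup N, fun G _ _ M hM ha hB => ?_⟩
  classical
  haveI : M.IsPrime := hM.2.1.isPrime
  haveI := Fintype.ofFinite G
  refine (hN _ G rfl).trans (Finset.le_sup (f := N) (Finset.mem_range.2 ?_))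
  have hPB := Lib.Block.isPBlock_principalBlock (M := M) (G := G)
  have hall : ∀ χ : Cfsg.IrrCharacter G, χ ∈ Cfsg.principalBlock M G := fun χ => by
    rw [← hB _ (Lib.Block.isPBlock_blockOf χ)]
    exact Lib.Block.mem_blockOf_self χ
  have hone := Lib.Block.oneIrr_mem (M := M) (G := G)
  have hd1 : Cfsg.charDegree (Lib.Block.oneIrr G : G → ℂ) = 1 := by
    simp [Cfsg.charDegree, Lib.Block.oneIrr_apply]
  have hh : Cfsg.blockHeight p (Cfsg.principalBlock M G) (Lib.Block.oneIrr G : G → ℂ) = 0 := by
    simp [Cfsg.blockHeight, hd1]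
  obtain ⟨μ, hμ, -, hle⟩ := Lib.Heights.four_mul_sum_le hM hPB hone
  rw [hd1, Nat.factorization_one, Finsupp.zero_apply, Nat.sub_zero, ha] at hle
  have hne : ∀ φ : Cfsg.IrrCharacter G, (1 : ℤ) ≤ μ φ ^ 2 := by
    intro φ
    have h : μ φ ≠ 0 := by
      intro h
      refine (Lib.Heights.exact_iff hM hPB hone (hall φ)).mp ?_ hh
      rw [hμ, h, mul_zero]
      exact dvd_zero _
    nlinarith [mul_self_pos.mpr h]
  set S := (Finset.univ.filter (· ∈ Cfsg.principalBlock M G)).erase (Lib.Block.oneIrr G) with hS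
  have hsum := Finset.sum_le_sum (s := S) fun φ _ => hne φ
  simp only [Finset.sum_const, nsmul_eq_mul, mul_one] at hsum
  have hcard : S.card + 1 = Nat.card (ConjClasses G) := by
    rw [hS, Finset.card_erase_add_one (Finset.mem_filter.2 ⟨Finset.mem_univ _, hone⟩),
      Finset.filter_true_of_mem (fun χ _ => hall χ), Finset.card_univ, ← Nat.card_eq_fintype_card,
      Lib.Char.card_irr_eq_card_conjClasses]
  have h4 : ((4 * S.card : ℕ) : ℤ) ≤ ((p ^ (2 * a) : ℕ) : ℤ) := by
    push_cast
    linarith
  have h4' : 4 * S.card ≤ p ^ (2 * a) := by exact_mod_cast h4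
  omega

end Cfsg.Agent.S4718
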