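import Cfsg.Statements.S4719
import Cfsg.Agent.Lib.DeficiencyBound.Klein
import Cfsg.Agent.S4718
import Cfsg.Agent.S0919
import Cfsg.Agent.S0936
import Cfsg.Agent.Lib.Block.Defect
import Cfsg.Agent.Lib.Fusion.Sylow

set_option autoImplicit false
universe u
open Cfsg

namespace Cfsg.Agent.S4719


open Cfsg.Agent.Lib Cfsg.Agent.Lib.Block

/-- Blocks of the centraliser of a subgroup of order `2^r` are principal. -/
theorem single_block {G : Type u} [Group G] [Finite G] {M : Ideal Cfsg.AlgInt}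
    (hM : Cfsg.IsPModular 2 M) {r : ℕ}
    (hr : ∀ B : Set (Cfsg.IrrCharacter G), Cfsg.IsPBlock M B → B ≠ Cfsg.principalBlock M G →
      Cfsg.blockDefect 2 B < r)
    (Q : Subgroup G) (hQc : ∀ x ∈ Q, ∀ y ∈ Q, x * y = y * x) (hQ : Nat.card Q = 2 ^ r)
    (b : Set (Cfsg.IrrCharacter (Subgroup.centralizer (Q : Set G))))
    (hb : Cfsg.IsPBlock M b) : b = Cfsg.principalBlock M (Subgroup.centralizer (Q : Set G)) := by
  classical
  haveI : Fact (Nat.Prime 2) := ⟨Nat.prime_two⟩
  haveI : M.IsPrime := hM.2.1.isPrime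
  have hdef : Cfsg.InducedBlockDefined M (Subgroup.centralizer (Q : Set G)) b :=
    Cfsg.Agent.S0919.result 2 M hM Q (Subgroup.centralizer (Q : Set G)) (IsPGroup.of_card hQ)
      (fun x hx y hy => (hQc x hx y hy).symm) le_rfl (Subgroup.centralizer_le_normalizer _) b hb
  obtain ⟨B, hbB⟩ := id hdef
  by_cases hBP : B = Cfsg.principalBlock M G
  · exact (Cfsg.Agent.S0936.result 2 M hM _ b hdef).1 (hBP ▸ hbB)
  exfalso
  have hlt := hr B hbB.2.1 hBP
  obtain ⟨χ, hχ⟩ := isPBlock_nonempty hbB.2.1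
  obtain ⟨ξ, hξ⟩ := isPBlock_nonempty hb
  obtain ⟨D, hD⟩ := exists_isDefectGroup hM hbB.2.1
  obtain ⟨-, -, g, hg, -⟩ := IsDefectGroup.props hM hbB.2.1 hD
  obtain ⟨h1, h2⟩ := (isDefectClass_iff hbB.2.1 hχ).1 hg
  have hex : ∃ y : Subgroup.centralizer (Q : Set G), IsConj g (y : G) := by
    by_contra! hno
    have h0 : Cfsg.inducedCentralChar (Subgroup.centralizer (Q : Set G)) (ξ : _ → ℂ) g = 0 := by
      unfold Cfsg.inducedCentralChar
      rw [show {h : Subgroup.centralizer (Q : Set G) | IsConj g (h : G)} = ∅ from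
        Set.eq_empty_iff_forall_notMem.2 hno, finsum_mem_empty]
    refine hg.2.2 χ hχ ?_
    have h := hbB.2.2 ξ hξ χ hχ g
    rw [h0, zero_sub] at h
    obtain ⟨a, b, ha, hb, he⟩ := h
    exact ⟨-a, b, neg_mem ha, hb, by push_cast; rw [neg_div, he, neg_neg]⟩
  obtain ⟨y, hy⟩ := hex
  obtain ⟨c, hc⟩ := isConj_iff.1 hy
  have hle := factorization_le_blockDefect_of_support hM hbB.2.1 h1
  have hcard : 2 ^ r ∣ Nat.card (Subgroup.centralizer ({g} : Set G)) := by
    rw [← hQ, Nat.card_congr (Q.equivMapOfInjective (MulAut.conj c⁻¹).toMonoidHom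
      (MulAut.conj c⁻¹).injective).toEquiv]
    refine Subgroup.card_dvd_of_le ?_
    rintro _ ⟨q, hq, rfl⟩
    rw [Subgroup.mem_centralizer_singleton_iff]
    have hqy : q * (y : G) = y * q := y.2 q hq
    rw [← hc] at hqy
    calc (MulAut.conj c⁻¹).toMonoidHom q * g = c⁻¹ * (q * (c * g * c⁻¹)) * c := by
          simp [MulAut.conj_apply, mul_assoc]
      _ = c⁻¹ * (c * g * c⁻¹ * q) * c := by rw [hqy]
      _ = g * (MulAut.conj c⁻¹).toMonoidHom q := by simp [MulAut.conj_apply, mul_assoc]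
  have := (Nat.prime_two.pow_dvd_iff_le_factorization Nat.card_pos.ne').1 hcard
  omega

/-- Downward induction along the subgroups of the elementary abelian group. -/
theorem exists_chain_bound (a : ℕ) : ∀ j : ℕ, ∃ N : ℕ, ∀ (G : Type u) [Group G] [Finite G]
    (M : Ideal Cfsg.AlgInt) (r : ℕ) (E F : Subgroup G), Cfsg.IsPModular 2 M →
      (Nat.card G).factorization 2 ≤ a →
      (∀ B : Set (Cfsg.IrrCharacter G), Cfsg.IsPBlock M B → B ≠ Cfsg.principalBlock M G →
        Cfsg.blockDefect 2 B < r) →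
      (∀ x ∈ E, ∀ y ∈ E, x * y = y * x) → (∀ x ∈ E, x * x = 1) → Nat.card E = 2 ^ (r + 1) →
      F ≤ E → ∀ i : ℕ, Nat.card F = 2 ^ i → i + j = r →
      Nat.card (Subgroup.centralizer (F : Set G)) ≤ N := by
  haveI : Fact (Nat.Prime 2) := ⟨Nat.prime_two⟩
  intro j
  induction j with
  | zero =>
    choose N hN using fun b : ℕ => Cfsg.Agent.S4718.result.{u} 2 b
    refine ⟨(Finset.range (a + 1)).sup N, fun G _ _ M r E F hM ha hr hEc _ _ hFE i hi hij => ?_⟩
    obtain rfl : i = r := by omega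
    refine (hN _ (Subgroup.centralizer (F : Set G)) M hM rfl fun b hb => single_block hM hr F
      (fun x hx y hy => hEc x (hFE hx) y (hFE hy)) hi b hb).trans
      (Finset.le_sup (f := N) (Finset.mem_range.2 (Nat.lt_succ_of_le ?_)))
    exact le_trans (((Nat.factorization_le_iff_dvd Nat.card_pos.ne' Nat.card_pos.ne').2
      (Subgroup.card_subgroup_dvd_card _)) 2) ha
  | succ j ih =>
    obtain ⟨N, hN⟩ := ih
    obtain ⟨B, hB⟩ := DeficiencyBound.exists_klein_bound.{u} a (2 ^ a * N)
    refine ⟨2 ^ a * B, fun G _ _ M r E F hM ha hr hEc hE2 hEcard hFE i hi hij => ?_⟩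
    classical
    obtain ⟨t, htE, htF⟩ : ∃ t ∈ E, t ∉ F := by
      by_contra! hall
      have h := Subgroup.card_le_of_le (H := E) (K := F) hall
      rw [hi, hEcard] at h
      have := (Nat.pow_le_pow_iff_right (by norm_num)).1 h
      omega
    have hsup : ∀ x ∈ E, x ∉ F → F ⊔ Subgroup.zpowers x ≤ E ∧
        Nat.card ↥(F ⊔ Subgroup.zpowers x) = 2 ^ (i + 1) := by
      intro x hxE hxF
      refine ⟨sup_le hFE (by rw [Subgroup.zpowers_le]; exact hxE), ?_⟩
      have hnorm : Subgroup.zpowers x ≤ Subgroup.normalizer (F : Set G) := by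
        rw [Subgroup.zpowers_le, Subgroup.mem_normalizer_iff]
        intro f
        constructor
        · intro hf
          rwa [hEc x hxE f (hFE hf), mul_inv_cancel_right]
        · intro hf
          have hf' : f = x⁻¹ * (x * f * x⁻¹) * x := by group
          rw [hf', mul_assoc, hEc _ (hFE hf) x hxE, inv_mul_cancel_left]
          exact hf
      have hxo : orderOf x = 2 := orderOf_eq_prime (by rw [pow_two, hE2 x hxE])
        (fun h => hxF (h ▸ F.one_mem))
      have h1 : (F.relIndex (F ⊔ Subgroup.zpowers x)) = 2 := by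
        rw [sup_comm, Fusion.relIndex_sup_of_normalizes hnorm]
        have hdvd : F.relIndex (Subgroup.zpowers x) ∣ Nat.card (Subgroup.zpowers x) :=
          Subgroup.relIndex_dvd_card F _
        rw [Nat.card_zpowers, hxo] at hdvd
        refine ((Nat.dvd_prime Nat.prime_two).1 hdvd).resolve_left fun h => hxF ?_
        exact Subgroup.relIndex_eq_one.1 h (Subgroup.mem_zpowers x)
      have h2 := Subgroup.relIndex_mul_relIndex ⊥ F (F ⊔ Subgroup.zpowers x) bot_le le_sup_left
      rw [Subgroup.relIndex_bot_left, Subgroup.relIndex_bot_left, h1, hi] at h2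
      rw [← h2, pow_succ]
    obtain ⟨v, hvE, hvF⟩ : ∃ v ∈ E, v ∉ F ⊔ Subgroup.zpowers t := by
      by_contra! hall
      have h := Subgroup.card_le_of_le (H := E) (K := F ⊔ Subgroup.zpowers t) hall
      rw [(hsup t htE htF).2, hEcard] at h
      have := (Nat.pow_le_pow_iff_right (by norm_num)).1 h
      omega
    set Q := Subgroup.centralizer (F : Set G) with hQ
    have hEQ : E ≤ Q := fun x hx => fun f hf => (hEc x hx f (hFE hf)).symm
    have hFQ : F ≤ Q := hFE.trans hEQ
    haveI : (F.subgroupOf Q).Normal := ⟨fun f hf q => by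
      rw [Subgroup.mem_subgroupOf] at hf ⊢
      have h := q.2 (f : G) hf
      push_cast
      rwa [← h, mul_inv_cancel_right]⟩
    have hF' : Nat.card (F.subgroupOf Q) = 2 ^ i := by
      rw [Nat.card_congr (Subgroup.subgroupOfEquivOfLe hFQ).toEquiv, hi]
    have hia : 2 ^ i ≤ 2 ^ a := by
      refine Nat.pow_le_pow_right (by norm_num) (le_trans ?_ ha)
      exact (Nat.prime_two.pow_dvd_iff_le_factorization Nat.card_pos.ne').1
        (hi ▸ Subgroup.card_subgroup_dvd_card F)
    have hcen : ∀ x ∈ E, x ∉ F → ∀ hxQ : x ∈ Q,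
        Nat.card (Subgroup.centralizer ({((⟨x, hxQ⟩ : Q) : Q ⧸ F.subgroupOf Q)} :
          Set (Q ⧸ F.subgroupOf Q))) ≤ 2 ^ a * N := by
      intro x hxE hxF hxQ
      refine (DeficiencyBound.card_centralizer_mk_le _ _).trans
        (Nat.mul_le_mul (hF'.le.trans hia) (le_trans ?_ (hN G M r E (F ⊔ Subgroup.zpowers x) hM ha hr
          hEc hE2 hEcard (hsup x hxE hxF).1 (i + 1) (hsup x hxE hxF).2 (by omega))))
      refine Nat.card_le_card_of_injective (fun y => (⟨((y : Q) : G), ?_⟩ :
        Subgroup.centralizer ((F ⊔ Subgroup.zpowers x : Subgroup G) : Set G))) fun y y' h =>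
          Subtype.ext (Subtype.ext (Subtype.mk.inj h))
      have hyx : ((y : Q) : G) * x = x * ((y : Q) : G) :=
        congrArg Subtype.val (Subgroup.mem_centralizer_singleton_iff.1 y.2)
      have hkey : (F ⊔ Subgroup.zpowers x) ≤ Subgroup.centralizer ({((y : Q) : G)} : Set G) := by
        refine sup_le (fun f hf => Subgroup.mem_centralizer_singleton_iff.2 ((y : Q).2 f hf)) ?_
        rw [Subgroup.zpowers_le, Subgroup.mem_centralizer_singleton_iff]
        exact hyx.symm
      exact fun z hz => Subgroup.mem_centralizer_singleton_iff.1 (hkey hz)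
    obtain ⟨t', ht'⟩ : ∃ t' : Q, t' = ⟨t, hEQ htE⟩ := ⟨_, rfl⟩
    obtain ⟨v', hv'⟩ : ∃ v' : Q, v' = ⟨v, hEQ hvE⟩ := ⟨_, rfl⟩
    have hout : ∀ {x : Q}, (x : Q ⧸ F.subgroupOf Q) = 1 → (x : G) ∈ F := fun h =>
      Subgroup.mem_subgroupOf.1 ((QuotientGroup.eq_one_iff _).1 h)
    rw [Subgroup.card_eq_card_quotient_mul_card_subgroup (F.subgroupOf Q), mul_comm]
    refine Nat.mul_le_mul (hF'.le.trans hia) (hB (Q ⧸ F.subgroupOf Q) (t' : Q ⧸ F.subgroupOf Q)
      (v' : Q ⧸ F.subgroupOf Q) ?_ ?_ ?_ ?_ ?_ ?_ ?_ ?_ ?_ ?_)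
    · exact le_trans (((Nat.factorization_le_iff_dvd Nat.card_pos.ne' Nat.card_pos.ne').2
        ((Subgroup.card_quotient_dvd_card _).trans (Subgroup.card_subgroup_dvd_card Q))) 2) ha
    · exact fun h => htF (by simpa [ht'] using hout h)
    · exact fun h => hvF (Subgroup.mem_sup_left (by simpa [hv'] using hout h))
    · intro h
      have h1 : (t : G)⁻¹ * v ∈ F := by
        have := Subgroup.mem_subgroupOf.1 (QuotientGroup.eq.1 h)
        simpa [ht', hv'] using this
      have h2 := mul_mem (Subgroup.mem_sup_right (Subgroup.mem_zpowers t) :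
        t ∈ F ⊔ Subgroup.zpowers t) (Subgroup.mem_sup_left h1)
      rw [mul_inv_cancel_left] at h2
      exact hvF h2
    · rw [← QuotientGroup.mk_mul, ← QuotientGroup.mk_one]
      exact congrArg _ (Subtype.ext (by simp [ht', hE2 t htE]))
    · rw [← QuotientGroup.mk_mul, ← QuotientGroup.mk_one]
      exact congrArg _ (Subtype.ext (by simp [hv', hE2 v hvE]))
    · rw [← QuotientGroup.mk_mul, ← QuotientGroup.mk_mul]
      exact congrArg _ (Subtype.ext (by simp [ht', hv', hEc t htE v hvE]))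
    · rw [ht']; exact hcen t htE htF _
    · rw [hv']; exact hcen v hvE (fun h => hvF (Subgroup.mem_sup_left h)) _
    · rw [← QuotientGroup.mk_mul, ht', hv']
      refine hcen (t * v) (mul_mem htE hvE) (fun h => hvF ?_) _
      have h2 := mul_mem (inv_mem (Subgroup.mem_sup_right (Subgroup.mem_zpowers t)) :
        t⁻¹ ∈ F ⊔ Subgroup.zpowers t) (Subgroup.mem_sup_left h)
      rwa [inv_mul_cancel_left] at h2

/-- For every natural number a there is a bound N with the following property. Let G be a finite group with Sylow 2-subgroups of order 2^a and r ≥ 0 such that G has no non-principal 2-block (relative to a maximal ideal of the algebraic integers containing 2) of defect ≥ r, and suppose a Sylow 2-subgroup of G contains an elementary abelian subgroup of order 2^(r+1). Then the order of G is at most N. -/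
theorem result (a : ℕ) : ∃ N : ℕ, ∀ (G : Type u) [Group G] [Finite G] (M : Ideal Cfsg.AlgInt) (r : ℕ) (P : Sylow 2 G), Cfsg.IsPModular 2 M → Nat.card P = 2 ^ a → (∀ B : Set (Cfsg.IrrCharacter G), Cfsg.IsPBlock M B → B ≠ Cfsg.principalBlock M G → Cfsg.blockDefect 2 B < r) → (∃ E : Subgroup G, E ≤ (P : Subgroup G) ∧ IsMulCommutative E ∧ (∀ x ∈ E, x * x = 1) ∧ Nat.card E = 2 ^ (r + 1)) → Nat.card G ≤ N := by
  classical
  haveI : Fact (Nat.Prime 2) := ⟨Nat.prime_two⟩
  choose N hN using exists_chain_bound.{u} a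
  refine ⟨(Finset.range (a + 1)).sup N, fun G _ _ M r P hM hP hr hE => ?_⟩
  obtain ⟨E, hEP, hEc, hE2, hEcard⟩ := hE
  have ha : (Nat.card G).factorization 2 = a :=
    (Nat.pow_right_injective (le_refl 2) (P.card_eq_multiplicity.symm.trans hP))
  have hra : r ≤ a := by
    have h := Subgroup.card_le_of_le hEP
    rw [hEcard, hP] at h
    have := (Nat.pow_le_pow_iff_right (by norm_num)).1 h
    omega
  have h := hN r G M r E ⊥ hM ha.le hr
    (fun x hx y hy => congrArg Subtype.val (hEc.is_comm.comm (⟨x, hx⟩ : E) ⟨y, hy⟩)) hE2 hEcard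
    bot_le 0 (by simp) (zero_add r)
  rw [Subgroup.coe_bot, Subgroup.centralizer_eq_top_iff_subset.2 (by simp), Subgroup.card_top] at h
  exact h.trans (Finset.le_sup (f := N) (Finset.mem_range.2 (Nat.lt_succ_of_le hra)))

end Cfsg.Agent.S4719
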