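import Cfsg.Statements.S4720
import Cfsg.Agent.Lib.Char.SectionInner

set_option autoImplicit false
open Cfsg

namespace Cfsg.Agent.S4720

/-- Let p be a prime, M a maximal ideal of the algebraic integers containing p, P a p-subgroup of the finite group G, N a subgroup with P ≤ N ≤ N_G(P), and U a nonempty subset of P normalized by N such that an element of U and an element of P that are conjugate in G are already conjugate in N, and such that λ(C_G(y)) = w·#C_N(y) for every y ∈ U with one rational number w, where λ(X) denotes the sum of the squares of the degrees of the irreducible characters in the principal p-block of X. For a complex function θ on P and χ in the principal block of G put a_χ(θ) = #P⁻¹ Σ_{y ∈ P} χ(y) θ(y⁻¹). Then for generalized characters θ, η of P with θ vanishing outside U, Σ_χ a_χ(θ)·conj(a_χ(η)) = (w/#P²)·Σ_{y ∈ P} θ(y)·conj(Σ_{x ∈ N} η(x y x⁻¹)) (η extended by zero off P; the conjugates lie in P), the first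 sum over the principal p-block of G. -/
theorem result {G : Type*} [Group G] [Finite G] (p : ℕ) [Fact p.Prime] (M : Ideal Cfsg.AlgInt) (hM : Cfsg.IsPModular p M) (P : Subgroup G) (hP : IsPGroup p P) (N : Subgroup G) (hPN : P ≤ N) (hNN : N ≤ Subgroup.normalizer (P : Set G)) (U : Set G) (hUne : U.Nonempty) (hUP : U ⊆ (P : Set G)) (hUN : ∀ n ∈ N, ∀ u ∈ U, n * u * n⁻¹ ∈ U) (hfus : ∀ u ∈ U, ∀ g : G, g * u * g⁻¹ ∈ (P : Set G) → ∃ n ∈ N, n * u * n⁻¹ = g * u * g⁻¹) (w : ℚ) (hw : ∀ y ∈ U, ((∑ᶠ ψ ∈ Cfsg.principalBlock M ↥(Subgroup.centralizer ({y} : Set G)), Cfsg.charDegree (ψ : ↥(Subgroup.centralizer ({y} : Set G)) → ℂ) ^ 2) : ℚ) = w * Nat.card ↥(N ⊓ Subgroup.centralizer ({y} : Set G))) (θ η : ↥P → ℂ) (hθ : Cfsg.IsGeneralizedCharacter ↥P θ) (hη : Cfsg.IsGeneralizedCharacter ↥P η) (hθU : ∀ y : ↥P, (y : G) ∉ U → θ y = 0) : ∑ᶠ χ ∈ Cfsg.principalBlock M G, ((Nat.card ↥P : ℂ)⁻¹ * ∑ᶠ y : ↥P, (χ : G → ℂ) (y : G) * θ y⁻¹) * (starRingEnd ℂ) ((Nat.card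 ↥P : ℂ)⁻¹ * ∑ᶠ y : ↥P, (χ : G → ℂ) (y : G) * η y⁻¹) = ((w : ℂ) / ((Nat.card ↥P : ℂ) ^ 2)) * ∑ᶠ y : ↥P, θ y * (starRingEnd ℂ) (∑ᶠ x : ↥N, Cfsg.extendByZero P η ((x : G) * (y : G) * (x : G)⁻¹)) := by
  classical
  haveI := Fintype.ofFinite G
  haveI := Fintype.ofFinite ↥P
  haveI := Fintype.ofFinite ↥N
  haveI := hM.2.1
  set S := Finset.univ.filter (fun χ : Cfsg.IrrCharacter G => χ ∈ Cfsg.principalBlock M G) with hSdef
  have hS : ∀ χ, χ ∈ S ↔ χ ∈ Cfsg.principalBlock M G := fun χ => by simp [hSdef]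
  have hPe : ∀ x : ↥P, Lib.Block.IsPElem p (x : G) := fun x => Lib.Block.isPElem_of_mem hP x.2
  have hnorm : ∀ n ∈ N, ∀ y ∈ P, n * y * n⁻¹ ∈ P := fun n hn y hy =>
    (Subgroup.mem_normalizer_iff.1 (hNN hn) y).1 hy
  -- the kernel
  have hK : ∀ y x : ↥P, (y : G) ∈ U →
      ∑ χ ∈ S, (χ : G → ℂ) (x : G) * starRingEnd ℂ ((χ : G → ℂ) (y : G)) =
        (w : ℂ) * ∑ n : ↥N, (if (n : G) * y * (n : G)⁻¹ = x then 1 else 0 : ℂ) := by
    intro y x hy
    by_cases hc : IsConj (y : G) (x : G)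
    · obtain ⟨g, hg⟩ := isConj_iff.1 hc
      obtain ⟨n₀, hn₀, hn₀y⟩ := hfus y hy g (by rw [hg]; exact x.2)
      rw [hg] at hn₀y
      have hval : ∀ χ : Cfsg.IrrCharacter G, (χ : G → ℂ) (x : G) = (χ : G → ℂ) (y : G) :=
        fun χ => by rw [← hg]; exact Lib.Char.isClassFunction_of_isIrr χ.2 (y : G) g
      haveI := Fintype.ofFinite ↥(Subgroup.centralizer ({(y : G)} : Set G))
      have h := Lib.Block.sum_principal_section_eq (M := M) hM (hPe y)
        (y₁ := 1) (y₂ := 1) Lib.Block.regular_one Lib.Block.regular_one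
      simp only [Subgroup.coe_one, mul_one] at h
      rw [← Finset.sum_filter, ← Finset.sum_filter, ← hSdef] at h
      rw [Finset.sum_congr rfl fun χ _ => by rw [hval χ], h]
      have h2 : ∑ φ ∈ Finset.univ.filter (· ∈ Cfsg.principalBlock M ↥(Subgroup.centralizer ({(y : G)} : Set G))),
          (φ : ↥(Subgroup.centralizer ({(y : G)} : Set G)) → ℂ) 1 *
            starRingEnd ℂ ((φ : ↥(Subgroup.centralizer ({(y : G)} : Set G)) → ℂ) 1) =
          (((w * Nat.card ↥(N ⊓ Subgroup.centralizer ({(y : G)} : Set G)) : ℚ)) : ℂ) := by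
        rw [← hw y hy, finsum_mem_eq_finite_toFinset_sum _ (Set.toFinite _)]
        push_cast
        refine Finset.sum_congr (by ext; simp) fun φ _ => ?_
        rw [Lib.Block.irr_one_eq_natCast, map_natCast, pow_two]
      rw [h2]
      push_cast
      congr 1
      rw [Finset.sum_boole, Nat.cast_inj, Nat.card_eq_fintype_card, Fintype.card_subtype]
      refine Finset.card_bij' (fun c hc => (⟨n₀ * c, mul_mem hn₀ (Finset.mem_filter.1 hc).2.1⟩ : ↥N))
        (fun n _ => n₀⁻¹ * (n : G)) (fun c hc => ?_) (fun n hn => ?_) (fun c _ => by simp)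
        (fun n _ => Subtype.ext (by simp))
      · refine Finset.mem_filter.2 ⟨Finset.mem_univ _, ?_⟩
        have e := Subgroup.mem_centralizer_singleton_iff.1 (Finset.mem_filter.1 hc).2.2
        show n₀ * c * y * (n₀ * c)⁻¹ = x
        rw [← hn₀y]
        calc n₀ * c * y * (n₀ * c)⁻¹ = n₀ * (c * y) * c⁻¹ * n₀⁻¹ := by group
          _ = n₀ * y * n₀⁻¹ := by rw [e]; group
      · refine Finset.mem_filter.2 ⟨Finset.mem_univ _, Subgroup.mem_inf.2
          ⟨mul_mem (inv_mem hn₀) n.2, Subgroup.mem_centralizer_singleton_iff.2 ?_⟩⟩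
        have e := (Finset.mem_filter.1 hn).2
        calc n₀⁻¹ * (n : G) * y = n₀⁻¹ * ((n : G) * y * (n : G)⁻¹) * n := by group
          _ = n₀⁻¹ * (n₀ * y * n₀⁻¹) * n := by rw [e, hn₀y]
          _ = y * (n₀⁻¹ * (n : G)) := by group
    · rw [Lib.Char.sum_block_pElem_eq_zero hM (hPe x) (hPe y) (fun h => hc h.symm)
        Lib.Block.isPBlock_principalBlock S hS, Finset.sum_eq_zero, mul_zero]
      intro n _
      rw [if_neg fun h => hc (isConj_iff.2 ⟨n, h⟩)]
  have hinv : ∀ {f : ↥P → ℂ}, Cfsg.IsGeneralizedCharacter ↥P f →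
      ∀ y : ↥P, f y⁻¹ = starRingEnd ℂ (f y) := by
    rintro f ⟨a, b, ha, hb, rfl⟩ y
    simp only [Pi.sub_apply, Lib.Char.char_inv ha, Lib.Char.char_inv hb, map_sub]
  have hθ' : ∀ y : ↥P, θ y = starRingEnd ℂ (θ y⁻¹) := fun y => by rw [hinv hθ, Complex.conj_conj]
  rw [finsum_mem_eq_finite_toFinset_sum _ (Set.toFinite _),
    show (Set.toFinite (Cfsg.principalBlock M G)).toFinset = S by ext; simp [hS]]
  simp only [finsum_eq_sum_of_fintype]
  have hL : ∀ (χ : Cfsg.IrrCharacter G) (f : ↥P → ℂ),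
      ∑ y : ↥P, (χ : G → ℂ) (y : G) * f y⁻¹ =
        ∑ y : ↥P, starRingEnd ℂ ((χ : G → ℂ) (y : G)) * f y := by
    intro χ f
    refine Fintype.sum_equiv (Equiv.inv ↥P) _ _ fun y => ?_
    rw [Equiv.inv_apply, Subgroup.coe_inv, Lib.Char.char_inv (Lib.Char.isCharacter_of_isIrr χ.2),
      Complex.conj_conj]
  calc ∑ χ ∈ S, ((Nat.card ↥P : ℂ)⁻¹ * ∑ y : ↥P, (χ : G → ℂ) (y : G) * θ y⁻¹) *
        starRingEnd ℂ ((Nat.card ↥P : ℂ)⁻¹ * ∑ y : ↥P, (χ : G → ℂ) (y : G) * η y⁻¹)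
      = ((Nat.card ↥P : ℂ) ^ 2)⁻¹ * ∑ y : ↥P, ∑ x : ↥P, θ y * starRingEnd ℂ (η x) *
          ∑ χ ∈ S, (χ : G → ℂ) (x : G) * starRingEnd ℂ ((χ : G → ℂ) (y : G)) := by
        simp only [hL, map_mul, map_inv₀, map_natCast, map_sum, Complex.conj_conj, Finset.mul_sum,
          Finset.sum_mul]
        rw [Finset.sum_congr rfl fun χ _ => Finset.sum_comm, Finset.sum_comm]
        refine Finset.sum_congr rfl fun y _ => ?_
        rw [Finset.sum_comm]
        exact Finset.sum_congr rfl fun x _ => Finset.sum_congr rfl fun χ _ => by ring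
    _ = ((Nat.card ↥P : ℂ) ^ 2)⁻¹ * ∑ y : ↥P, ∑ x : ↥P, θ y * starRingEnd ℂ (η x) *
          ((w : ℂ) * ∑ n : ↥N, (if (n : G) * y * (n : G)⁻¹ = x then 1 else 0 : ℂ)) := by
        congr 1
        refine Finset.sum_congr rfl fun y _ => Finset.sum_congr rfl fun x _ => ?_
        by_cases hy : (y : G) ∈ U
        · rw [hK y x hy]
        · rw [hθU y hy]; simp
    _ = _ := by
        rw [div_eq_mul_inv, mul_comm (w : ℂ), mul_assoc, Finset.mul_sum (a := (w : ℂ))]
        congr 1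
        refine Finset.sum_congr rfl fun y _ => ?_
        rw [map_sum]
        simp only [Finset.mul_sum]
        rw [Finset.sum_comm]
        refine Finset.sum_congr rfl fun n _ => ?_
        rw [Finset.sum_eq_single ⟨(n : G) * y * (n : G)⁻¹, hnorm n n.2 y y.2⟩]
        · rw [if_pos rfl, Lib.Char.extendByZero_mem P η (hnorm n n.2 y y.2)]; ring
        · intro x _ hx
          rw [if_neg fun h => hx (Subtype.ext h.symm)]; ring
        · simp

end Cfsg.Agent.S4720
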