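import Cfsg.Statements.S4721
import Cfsg.Agent.Lib.Char.ThreeTI

set_option autoImplicit false
open Cfsg

namespace Cfsg.Agent.S4721

/-- Let p be a prime, M a maximal ideal of the algebraic integers containing p, and G a finite group with a nontrivial abelian Sylow p-subgroup P, N = N_G(P), C = C_G(P), such that N/C is cyclic of order 3, #P > 4, and C_G(y) ∩ N = C for every non-identity y ∈ P. Then the principal p-block is the disjoint union of a set X of exactly 3 characters containing the principal character and a set Y of (#P − 1)/3 characters, with signs a_χ = ±1 (χ ∈ X, a = 1 at the principal character) and δ = ±1 such that every χ ∈ X takes the value a_χ at every element whose p-part is a non-identity element of P, and there is a map ζ from the non-principal linear characters of P onto Y, constant on N-conjugacy classes, with ζ_ψ(z) = δ·Σ ψ'(y) over the N-orbit of ψ, for z with p-part y ≠ 1 in P. If moreover G has an involution lying in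 no proper normal subgroup of G, then exactly two of the three numbers −δ and a_χ (χ ∈ X non-principal) equal −1, and the product of the degrees of the two non-principal members of X and of any member of Y is a perfect square. -/
theorem result {G : Type*} [Group G] [Finite G] (p : ℕ) [Fact p.Prime] (M : Ideal Cfsg.AlgInt) (hM : Cfsg.IsPModular p M) (P : Sylow p G) (hab : IsMulCommutative P) (hP1 : Nat.card P ≠ 1) (hCN : (Subgroup.centralizer ((P : Subgroup G) : Set G)).relIndex (Subgroup.normalizer ((P : Subgroup G) : Set G)) = 3) (hcyc : ∃ g : G, g ∈ Subgroup.normalizer ((P : Subgroup G) : Set G) ∧ Subgroup.centralizer ((P : Subgroup G) : Set G) ⊔ Subgroup.zpowers g = Subgroup.normalizer ((P : Subgroup G) : Set G)) (hm2 : 3 + 1 < Nat.card P) (hfrob : ∀ y : G, y ∈ (P : Subgroup G) → y ≠ 1 → Subgroup.centralizer ({y} : Set G) ⊓ Subgroup.normalizer ((P : Subgroup G) : Set G) = Subgroup.centralizer ((P : Subgroup G) : Set G)) : ∃ (X Y : Set (Cfsg.IrrCharacter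 G)), Cfsg.principalBlock M G = X ∪ Y ∧ Disjoint X Y ∧ Nat.card X = 3 ∧ Nat.card Y = (Nat.card P - 1) / 3 ∧ (∃ χ₁ ∈ X, (χ₁ : G → ℂ) = fun _ => 1) ∧ ∃ (a : Cfsg.IrrCharacter G → ℤ) (δ : ℤ) (ζ : (↥(P : Subgroup G) →* ℂˣ) → Cfsg.IrrCharacter G), (δ = 1 ∨ δ = -1) ∧ (∀ χ ∈ X, (a χ = 1 ∨ a χ = -1) ∧ ∀ z y : G, Cfsg.IsPPart p z y → y ∈ (P : Subgroup G) → y ≠ 1 → (χ : G → ℂ) z = (a χ : ℂ)) ∧ (∀ ψ : ↥(P : Subgroup G) →* ℂˣ, ψ ≠ 1 → ζ ψ ∈ Y) ∧ (∀ η ∈ Y, ∃ ψ : ↥(P : Subgroup G) →* ℂˣ, ψ ≠ 1 ∧ ζ ψ = η) ∧ (∀ ψ ψ' : ↥(P : Subgroup G) →* ℂˣ, ψ ≠ 1 → (∃ n : G, n ∈ Subgroup.normalizer ((P : Subgroup G) : Set G) ∧ ∀ w w' : ↥(P : Subgroup G), (w' : G) = n * w * n⁻¹ → ψ' w' = ψ w) → ζ ψ' = ζ ψ) ∧ (∀ ψ : ↥(P : Subgroup G) →* ℂˣ, ψ ≠ 1 → ∀ (z : G) (y : ↥(P : Subgroup G)), Cfsg.IsPPart p z (y : G) → (y : G) ≠ 1 → (ζ ψ : G → ℂ) z = (δ : ℂ) * ∑ᶠ ψ' ∈ {ψ' : ↥(P : Subgroup G) →* ℂˣ | ∃ n : G, n ∈ Subgroup.normalizer ((P : Subgroup G) : Set G) ∧ ∀ w w' : ↥(P : Subgroup G),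 (w' : G) = n * w * n⁻¹ → ψ' w' = ψ w}, ((ψ' y : ℂˣ) : ℂ)) ∧ ((∃ t : G, orderOf t = 2 ∧ ∀ K : Subgroup G, K.Normal → t ∈ K → K = ⊤) → Nat.card {χ : Cfsg.IrrCharacter G // χ ∈ X ∧ (χ : G → ℂ) ≠ (fun _ => 1) ∧ a χ = -1} + (if δ = 1 then 1 else 0) = 2 ∧ ∀ η ∈ Y, IsSquare (Cfsg.charDegree (η : G → ℂ) * ∏ᶠ χ ∈ {χ : Cfsg.IrrCharacter G | χ ∈ X ∧ (χ : G → ℂ) ≠ fun _ => 1}, Cfsg.charDegree (χ : G → ℂ))) := by
  classical
  haveI := Fintype.ofFinite G
  haveI := hM.2.1
  obtain ⟨X, a, d, δ, ι, _, rep, μ, hδ, hμi, hμX, hmem, hrep1, huniq, htm, ht, ha0, hone, ha1, hXv, hYv,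
    heq, hYreg, hrel⟩ := Lib.Char.ATI.ti_principal P hM hab hP1 hm2 hCN hfrob
  obtain ⟨i₀⟩ : Nonempty ι := Fintype.card_pos_iff.1 (by omega)
  set t := Fintype.card ι with htdef
  have hsum1 : (1 : ℤ) ≤ ∑ χ ∈ X, a χ ^ 2 := by
    refine le_trans (le_of_eq ?_) (Finset.single_le_sum (fun χ _ => sq_nonneg (a χ)) hone)
    rw [ha1]; norm_num
  -- normalise `d = 0`
  obtain ⟨δ', μ', hδ', hμi', hrange, hYv', hsum3, hrel'⟩ :
      ∃ (δ' : ℤ) (μ' : ι → Cfsg.IrrCharacter G), (δ' = 1 ∨ δ' = -1) ∧ Function.Injective μ' ∧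
        Set.range μ' = Set.range μ ∧
        (∀ i, ∀ y : (P : Subgroup G), (y : G) ≠ 1 → (μ' i : G → ℂ) y =
          (δ' : ℂ) * ∑ᶠ ψ' ∈ {ψ' | Lib.Char.ATI.Rel P (rep i) ψ'}, ((ψ' y : ℂˣ) : ℂ)) ∧
        ∑ χ ∈ X, a χ ^ 2 = 3 ∧
        (∀ i, ∀ g : G, ¬ p ∣ orderOf g →
          ∑ χ ∈ X, (a χ : ℂ) * (χ : G → ℂ) g - (δ' : ℂ) * (μ' i : G → ℂ) g = 0) := by
    by_cases hd : d = 0
    · subst hd
      refine ⟨δ, μ, hδ, hμi, rfl, fun i y hy => by rw [hYv i y hy]; simp, by push_cast at heq; linarith,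
        fun i g hg => ?_⟩
      have := hrel i g hg
      push_cast at this
      linear_combination this
    · have htz : (2 : ℤ) ≤ (t : ℤ) := by exact_mod_cast ht
      have hdd : d = δ := by
        rcases lt_trichotomy d 0 with h | h | h
        · rcases hδ with rfl | rfl
          · exfalso; push_cast at heq; nlinarith
          · by_contra hne
            have : d ≤ -2 := by omega
            push_cast at heq
            nlinarith
        · exact absurd h hd
        · rcases hδ with rfl | rfl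
          · by_contra hne
            have : 2 ≤ d := by omega
            push_cast at heq
            nlinarith
          · exfalso; push_cast at heq; nlinarith
      subst hdd
      have hd2 : d * d = 1 := by rcases hδ with rfl | rfl <;> simp
      have heq' : (t : ℤ) - 2 + ∑ χ ∈ X, a χ ^ 2 = 3 := by
        push_cast at heq
        have h2 : d ^ 2 = 1 := by rw [pow_two]; exact hd2
        rw [h2, mul_one, mul_assoc, hd2, mul_one] at heq
        exact heq
      have ht4 : t ≤ 4 := by omega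
      have ht2 : t = 2 := by
        rcases (show t = 2 ∨ t = 3 ∨ t = 4 by omega) with h | h | h
        · exact h
        · exfalso
          obtain ⟨k, hk⟩ := P.2.exists_card_eq
          have h10 : Nat.card P = 10 := by rw [h] at htm; omega
          rw [hk] at h10
          have hk' : k ≠ 0 := by rintro rfl; simp at h10
          have h2' : (2 : ℕ) ∣ p ^ k := ⟨5, by rw [h10]⟩
          have h5' : (5 : ℕ) ∣ p ^ k := ⟨2, by rw [h10]⟩
          have e2 := (Nat.prime_dvd_prime_iff_eq Nat.prime_two (Fact.out : p.Prime)).1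
            (Nat.prime_two.dvd_of_dvd_pow h2')
          have e5 := (Nat.prime_dvd_prime_iff_eq (by norm_num) (Fact.out : p.Prime)).1
            ((by norm_num : Nat.Prime 5).dvd_of_dvd_pow h5')
          omega
        · exfalso
          have hX1 : X = {Lib.Block.oneIrr G} := by
            refine (Finset.eq_singleton_iff_unique_mem).2 ⟨hone, fun χ hχ => ?_⟩
            by_contra hne
            have h2 := Finset.sum_le_sum_of_subset_of_nonneg
              (show ({χ, Lib.Block.oneIrr G} : Finset _) ⊆ X by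
                intro x hx
                rcases Finset.mem_insert.1 hx with rfl | hx
                · exact hχ
                · exact Finset.mem_singleton.1 hx ▸ hone)
              (f := fun x => a x ^ 2) (fun x _ _ => sq_nonneg _)
            rw [Finset.sum_pair hne, ha1] at h2
            have : 0 < a χ ^ 2 := sq_pos_iff.2 (ha0 χ hχ)
            push_cast [h] at heq'
            linarith
          have h1 := hrel i₀ 1 Lib.Block.regular_one
          rw [hX1, Finset.sum_singleton, ha1, Lib.Block.oneIrr_apply, Lib.Block.irr_one_eq_natCast, h] at h1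
          have e : ((3 * d * (Cfsg.charDegree (μ i₀ : G → ℂ) : ℤ) + 1 : ℤ) : ℂ) = ((0 : ℤ) : ℂ) := by
            push_cast at h1 ⊢; linear_combination h1
          have e' : 3 * d * (Cfsg.charDegree (μ i₀ : G → ℂ) : ℤ) + 1 = 0 := by exact_mod_cast e
          have : (3 : ℤ) ∣ 1 := ⟨-(d * (Cfsg.charDegree (μ i₀ : G → ℂ) : ℤ)), by linarith⟩
          omega
      obtain ⟨σ, hσ⟩ : ∃ σ : ι ≃ ι, ∀ i, σ i ≠ i := by
        have e := Fintype.equivFinOfCardEq (α := ι) ht2
        refine ⟨e.trans ((Equiv.swap 0 1).trans e.symm), fun i h => ?_⟩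
        have h' : Equiv.swap (0 : Fin 2) 1 (e i) = e i := by
          have := congrArg e h
          simpa using this
        generalize e i = x at h'
        fin_cases x <;> simp at h'
      refine ⟨-d, μ ∘ σ, ?_, hμi.comp σ.injective, σ.surjective.range_comp μ, fun i y hy => ?_,
        by rw [ht2] at heq'; push_cast at heq'; linarith, fun i g hg => ?_⟩
      · rcases hδ with rfl | rfl <;> simp
      · have hs := Lib.Char.ATI.lam_sum P hab hrep1 huniq (y := y) fun h => hy (by rw [h]; rfl)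
        have hu : (Finset.univ : Finset ι) = {i, σ i} := by
          refine (Finset.eq_univ_of_card _ ?_).symm
          rw [Finset.card_pair (hσ i).symm, ← htdef, ht2]
        rw [hu, Finset.sum_pair (hσ i).symm] at hs
        show (μ (σ i) : G → ℂ) y = _
        rw [hYv _ y hy]
        push_cast
        linear_combination (d : ℂ) * hs
      · have := hrel (σ i) g hg
        rw [ht2] at this
        show _ - ((-d : ℤ) : ℂ) * (μ (σ i) : G → ℂ) g = 0
        push_cast at this ⊢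
        linear_combination this
  -- the three characters
  have hcard : X.card = 3 ∧ ∀ χ ∈ X, a χ = 1 ∨ a χ = -1 := by
    have hle : ∀ χ ∈ X, 1 ≤ a χ ^ 2 := fun χ hχ => by
      have : 0 < a χ ^ 2 := sq_pos_iff.2 (ha0 χ hχ)
      omega
    have hall : ∀ χ ∈ X, a χ = 1 ∨ a χ = -1 := by
      intro χ hχ
      by_cases h : χ = Lib.Block.oneIrr G
      · left; rw [h, ha1]
      · have h2 := Finset.sum_le_sum_of_subset_of_nonneg
          (show ({χ, Lib.Block.oneIrr G} : Finset _) ⊆ X by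
            intro x hx
            rcases Finset.mem_insert.1 hx with rfl | hx
            · exact hχ
            · exact Finset.mem_singleton.1 hx ▸ hone)
          (f := fun x => a x ^ 2) (fun x _ _ => sq_nonneg _)
        rw [Finset.sum_pair h, ha1, hsum3] at h2
        have h0 := ha0 χ hχ
        have : -1 ≤ a χ ∧ a χ ≤ 1 := ⟨by nlinarith, by nlinarith⟩
        omega
    refine ⟨?_, hall⟩
    have e : ∑ χ ∈ X, a χ ^ 2 = ∑ χ ∈ X, (1 : ℤ) :=
      Finset.sum_congr rfl fun χ hχ => by rcases hall χ hχ with h | h <;> rw [h] <;> norm_num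
    rw [hsum3] at e
    simp at e
    omega
  obtain ⟨hX3, hapm⟩ := hcard
  obtain ⟨χ₂, χ₃, hne, hXe⟩ := Finset.card_eq_two.1
    (show (X.erase (Lib.Block.oneIrr G)).card = 2 by rw [Finset.card_erase_of_mem hone, hX3])
  have hXins : X = {Lib.Block.oneIrr G, χ₂, χ₃} := by rw [← Finset.insert_erase hone, hXe]
  have h2X : χ₂ ∈ X := by simp [hXins]
  have h3X : χ₃ ∈ X := by simp [hXins]
  have h1f : (Lib.Block.oneIrr G : G → ℂ) = fun _ => 1 := funext Lib.Block.oneIrr_apply
  have h2e : χ₂ ∈ X.erase (Lib.Block.oneIrr G) := by simp [hXe]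
  have h3e : χ₃ ∈ X.erase (Lib.Block.oneIrr G) := by simp [hXe]
  have h2ne : (χ₂ : G → ℂ) ≠ fun _ => 1 := fun h =>
    Finset.ne_of_mem_erase h2e (Subtype.ext (h.trans h1f.symm))
  have h3ne : (χ₃ : G → ℂ) ≠ fun _ => 1 := fun h =>
    Finset.ne_of_mem_erase h3e (Subtype.ext (h.trans h1f.symm))
  have hsumX : ∀ f : Cfsg.IrrCharacter G → ℂ, ∑ χ ∈ X, f χ = f (Lib.Block.oneIrr G) + f χ₂ + f χ₃ := by
    intro f
    rw [← Finset.add_sum_erase _ _ hone, hXe, Finset.sum_pair hne]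
    ring
  have hYmem : ∀ i, μ' i ∈ Set.range μ := fun i => hrange ▸ Set.mem_range_self i
  have hμ'X : ∀ i, μ' i ∉ X := fun i h => by
    obtain ⟨j, hj⟩ := hYmem i
    exact hμX j (hj ▸ h)
  have hmem' : ∀ χ, χ ∈ Cfsg.principalBlock M G ↔
      (χ = Lib.Block.oneIrr G ∨ χ = χ₂ ∨ χ = χ₃) ∨ ∃ i, μ' i = χ := by
    intro χ
    rw [hmem, hXins]
    simp only [Finset.mem_insert, Finset.mem_singleton]
    refine or_congr Iff.rfl ?_
    show χ ∈ Set.range μ ↔ χ ∈ Set.range μ'
    rw [hrange]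
  have hYreg' : ∀ i j, ∀ g : G, ¬ p ∣ orderOf g → (μ' i : G → ℂ) g = (μ' j : G → ℂ) g := by
    intro i j g hg
    obtain ⟨i', hi'⟩ := hYmem i
    obtain ⟨j', hj'⟩ := hYmem j
    rw [← hi', ← hj']
    exact hYreg i' j' g hg
  have hcomm : ∀ u ∈ (P : Subgroup G), ∀ v ∈ (P : Subgroup G), u * v = v * u :=
    fun u hu v hv => congrArg Subtype.val (hab.1.1 ⟨u, hu⟩ ⟨v, hv⟩)
  let ζ : (↥(P : Subgroup G) →* ℂˣ) → Cfsg.IrrCharacter G := fun ψ =>
    if h : ψ ≠ 1 then μ' (huniq ψ h).choose else μ' i₀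
  have hζ : ∀ ψ, ψ ≠ 1 → ∃ i, ζ ψ = μ' i ∧ Lib.Char.ATI.Rel P (rep i) ψ := fun ψ h =>
    ⟨_, dif_pos h, (huniq ψ h).choose_spec.1⟩
  have hζeq : ∀ ψ i, ψ ≠ 1 → Lib.Char.ATI.Rel P (rep i) ψ → ζ ψ = μ' i := fun ψ i h hr => by
    obtain ⟨j, hj, hjr⟩ := hζ ψ h
    rw [hj, (huniq ψ h).unique hjr hr]
  refine ⟨↑X, Set.range μ', ?_, ?_, by simp [hX3], ?_, ⟨_, hone, h1f⟩, a, δ', ζ, hδ', ?_, ?_, ?_, ?_,
    ?_, ?_⟩
  · ext χ
    rw [hmem, hrange]; simp
  · rw [Set.disjoint_left]
    rintro χ hχ ⟨i, rfl⟩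
    exact hμ'X i hχ
  · rw [Nat.card_range_of_injective hμi', Nat.card_eq_fintype_card]
    show t = _
    omega
  · intro χ hχ
    refine ⟨hapm χ hχ, fun z y hzy hy hy1 => ?_⟩
    rw [Lib.Char.ATI.section_value hM P hcomm hfrob ((hmem χ).2 (Or.inl hχ)) hzy hy hy1]
    exact hXv χ hχ y hy hy1
  · intro ψ h
    obtain ⟨i, hi, -⟩ := hζ ψ h
    exact ⟨i, hi.symm⟩
  · rintro η ⟨i, rfl⟩
    exact ⟨rep i, hrep1 i, hζeq _ i (hrep1 i) (Lib.Char.ATI.rel_refl P _)⟩
  · intro ψ ψ' h hr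
    obtain ⟨i, hi, hir⟩ := hζ ψ h
    have hr' : Lib.Char.ATI.Rel P ψ ψ' := hr
    rw [hi]
    exact hζeq ψ' i (fun e => h (Lib.Char.ATI.rel_one P (e ▸ hr'))) (Lib.Char.ATI.rel_trans P hir hr')
  · intro ψ h z y hzy hy1
    obtain ⟨i, hi, hir⟩ := hζ ψ h
    rw [hi, Lib.Char.ATI.section_value hM P hcomm hfrob
      ((hmem' _).2 (Or.inr ⟨i, rfl⟩)) hzy y.2 hy1, hYv' i y hy1]
    congr 1
    refine finsum_mem_congr (Set.ext fun ψ' => ⟨fun h' => ?_, fun h' => ?_⟩) fun _ _ => rfl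
    · exact Lib.Char.ATI.rel_trans P (Lib.Char.ATI.rel_symm P hir) h'
    · exact Lib.Char.ATI.rel_trans P hir h'
  · rintro ⟨u, hu, hgen⟩
    obtain ⟨hcount, hsq⟩ := Lib.Char.ATI.three_signs P hM hab hm2 hCN hfrob
      (μ := μ') (rep := rep) (χ₂ := χ₂) (χ₃ := χ₃) (a₂ := a χ₂) (a₃ := a χ₃) (δ := δ')
      h2ne h3ne hne (fun i h => hμ'X i (h ▸ h2X)) (fun i h => hμ'X i (h ▸ h3X))
      (fun i h => hμ'X i (h ▸ hone)) hμi' hmem' hδ' (hapm _ h2X) (hapm _ h3X) hrep1 huniq
      (hXv χ₂ h2X) (hXv χ₃ h3X) hYv' hYreg'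
      (fun i g hg => by
        have h := hrel' i g hg
        rw [hsumX, ha1, Lib.Block.oneIrr_apply] at h
        push_cast at h
        linear_combination h) hu hgen
    refine ⟨?_, ?_⟩
    · rw [Nat.card_eq_fintype_card, Fintype.card_subtype]
      have e : Finset.univ.filter (fun χ : Cfsg.IrrCharacter G =>
          χ ∈ (↑X : Set _) ∧ (χ : G → ℂ) ≠ (fun _ => 1) ∧ a χ = -1) =
          ({χ₂, χ₃} : Finset _).filter (fun χ => a χ = -1) := by
        ext χ
        simp only [Finset.mem_filter, Finset.mem_univ, true_and, Finset.mem_coe, hXins,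
          Finset.mem_insert, Finset.mem_singleton]
        constructor
        · rintro ⟨rfl | h, h1, h2⟩
          · exact absurd h1f h1
          · exact ⟨h, h2⟩
        · rintro ⟨h, h2⟩
          refine ⟨Or.inr h, ?_, h2⟩
          rcases h with rfl | rfl
          exacts [h2ne, h3ne]
      rw [e, Finset.card_filter, Finset.sum_pair hne]
      exact hcount
    · rintro η ⟨i, rfl⟩
      have e : {χ : Cfsg.IrrCharacter G | χ ∈ (↑X : Set _) ∧ (χ : G → ℂ) ≠ fun _ => 1} =
          ↑({χ₂, χ₃} : Finset (Cfsg.IrrCharacter G)) := by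
        ext χ
        simp only [Set.mem_ofPred_eq, Finset.mem_coe, hXins, Finset.mem_insert, Finset.mem_singleton]
        constructor
        · rintro ⟨rfl | h, h1⟩
          · exact absurd h1f h1
          · exact h
        · intro h
          refine ⟨Or.inr h, ?_⟩
          rcases h with rfl | rfl
          exacts [h2ne, h3ne]
      rw [e, finprod_mem_coe_finset, Finset.prod_pair hne]
      exact hsq i

end Cfsg.Agent.S4721
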