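import Cfsg.Statements.S4722
import Cfsg.Agent.Lib.Char.SectionInner
import Cfsg.Agent.Lib.Block.Klein
import Cfsg.Agent.Lib.Block.Normal
import Cfsg.Agent.Lib.Char.Kernel
import Cfsg.Agent.Lib.CharTools.ClassMult
import Cfsg.Agent.Lib.Char.BrauerInduction
import Cfsg.Agent.Lib.Hall.Basic

set_option autoImplicit false
open Cfsg

namespace Cfsg.Agent.S4722

/-- Let M be a maximal ideal of the algebraic integers containing 2, P a 2-subgroup of the finite group G, U a subset of P, and t an involution of G such that no element of U is inverted by any conjugate of t. Let θ be a generalized character of P vanishing outside U, and for χ in the principal 2-block B₀ put a_χ = #P⁻¹ Σ_{y ∈ P} χ(y) θ(y⁻¹). Then Σ_{χ ∈ B₀} a_χ χ(t)^2/χ(1) = 0, Σ_{χ ∈ B₀} a_χ χ(1) = 0 and Σ_{χ ∈ B₀} a_χ χ(t) = 0. If moreover #P⁻¹ Σ_{y ∈ P} θ(y) ≠ 0, then either at least two of the a_χ have positive real part and at least two have negative real part,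 or G has a proper normal subgroup containing O_2'(G) and t. -/
theorem result {G : Type*} [Group G] [Finite G] (M : Ideal Cfsg.AlgInt) (hM : Cfsg.IsPModular 2 M) (P : Subgroup G) (hP : IsPGroup 2 P) (U : Set G) (hUP : U ⊆ (P : Set G)) (t : G) (ht : orderOf t = 2) (hinv : ∀ u ∈ U, ∀ g : G, (g * t * g⁻¹) * u * (g * t * g⁻¹)⁻¹ ≠ u⁻¹) (θ : ↥P → ℂ) (hθ : Cfsg.IsGeneralizedCharacter ↥P θ) (hθU : ∀ y : ↥P, (y : G) ∉ U → θ y = 0) : (∑ᶠ χ ∈ Cfsg.principalBlock M G, ((Nat.card ↥P : ℂ)⁻¹ * ∑ᶠ y : ↥P, (χ : G → ℂ) (y : G) * θ y⁻¹) * (χ : G → ℂ) t ^ 2 / (χ : G → ℂ) 1 = 0) ∧ (∑ᶠ χ ∈ Cfsg.principalBlock M G, ((Nat.card ↥P : ℂ)⁻¹ * ∑ᶠ y : ↥P, (χ : G → ℂ) (y : G) * θ y⁻¹) * (χ : G → ℂ) 1 = 0) ∧ (∑ᶠ χ ∈ Cfsg.principalBlock M G, ((Nat.card ↥P : ℂ)⁻¹ * ∑ᶠ y : ↥P, (χ : G → ℂ) (y : G) * θ y⁻¹) * (χ : G → ℂ) t = 0) ∧ ((Nat.card ↥P : ℂ)⁻¹ * ∑ᶠ y : ↥P, θ y ≠ 0 → (2 ≤ Nat.card {χ : Cfsg.IrrCharacter G // χ ∈ Cfsg.principalBlock M G ∧ 0 < (((Nat.card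 ↥P : ℂ)⁻¹ * ∑ᶠ y : ↥P, (χ : G → ℂ) (y : G) * θ y⁻¹)).re} ∧ 2 ≤ Nat.card {χ : Cfsg.IrrCharacter G // χ ∈ Cfsg.principalBlock M G ∧ (((Nat.card ↥P : ℂ)⁻¹ * ∑ᶠ y : ↥P, (χ : G → ℂ) (y : G) * θ y⁻¹)).re < 0}) ∨ ∃ K : Subgroup G, K.Normal ∧ K ≠ ⊤ ∧ Cfsg.pPrimeCore 2 G ≤ K ∧ t ∈ K) := by
  classical
  haveI := Fintype.ofFinite G
  haveI := Fintype.ofFinite ↥P
  haveI := hM.2.1
  haveI : Fact (Nat.Prime 2) := ⟨Nat.prime_two⟩
  set S := Finset.univ.filter (fun χ : Cfsg.IrrCharacter G => χ ∈ Cfsg.principalBlock M G) with hSdef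
  have hS : ∀ χ, χ ∈ S ↔ χ ∈ Cfsg.principalBlock M G := fun χ => by simp [hSdef]
  have hgc : ∀ {f : ↥P → ℂ}, Cfsg.IsGeneralizedCharacter ↥P f →
      ∀ y : ↥P, f y⁻¹ = starRingEnd ℂ (f y) := by
    rintro f ⟨a, b, ha, hb, rfl⟩ y
    simp only [Pi.sub_apply, Lib.Char.char_inv ha, Lib.Char.char_inv hb, map_sub]
  have ht2 : t * t = 1 := by
    have := pow_orderOf_eq_one t
    rwa [ht, pow_two] at this
  -- elements of `U` are nontrivial 2-elements not inverted by conjugates of `t`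
  have hU1 : (1 : G) ∉ U := fun h => hinv 1 h 1 (by simp)
  have hsame : ∀ s : G, ∀ u ∈ U, (∀ z, Cfsg.IsPPart 2 s z → ¬ IsConj z u) →
      ∑ χ ∈ S, (χ : G → ℂ) s * starRingEnd ℂ ((χ : G → ℂ) u) = 0 := by
    intro s u hu h
    obtain ⟨z, hz⟩ := Lib.Block.exists_isPPart (p := 2) s
    obtain ⟨v, hv, hc, hzp, hvr⟩ := id hz
    set w : Subgroup.centralizer ({z} : Set G) :=
      ⟨v, Subgroup.mem_centralizer_singleton_iff.2 hc.symm.eq⟩ with hw
    have h0 := Lib.Char.sum_block_cross_eq_zero hM hzp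
      (B := Cfsg.principalBlock M G) Lib.Block.isPBlock_principalBlock (y₁ := w)
      (by rwa [hw, Subgroup.orderOf_mk]) (g := u) fun w' hw' hc' => by
        obtain ⟨c, hc'⟩ := isConj_iff.1 hc'
        have h1 := Lib.Block.IsPPart.conj (Lib.Block.isPPart_mul hzp
          (show ¬ 2 ∣ orderOf (w' : G) by rwa [Subgroup.orderOf_coe])
          (Subgroup.mem_centralizer_singleton_iff.1 w'.2).symm) c
        rw [hc'] at h1
        exact h z hz (isConj_iff.2 ⟨c, Lib.Block.IsPPart.unique h1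
          (Lib.Block.isPPart_self (Lib.Block.isPElem_of_mem hP (hUP hu)))⟩)
    rw [← Finset.sum_filter, ← hSdef] at h0
    rw [← hv]
    exact h0
  -- the coefficients
  set c : Cfsg.IrrCharacter G → ℂ := fun χ =>
    (Nat.card ↥P : ℂ)⁻¹ * ∑ᶠ y : ↥P, (χ : G → ℂ) (y : G) * θ y⁻¹ with hcdef
  have hcint : ∀ χ : Cfsg.IrrCharacter G, ∃ z : ℤ, c χ = z := by
    intro χ
    obtain ⟨a, b, ha, hb, hab⟩ := hθ
    have hr := Lib.Char.isCharacter_restrict (Lib.Char.isCharacter_of_isIrr χ.2) P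
    obtain ⟨n, hn⟩ := Lib.Char.classInner_natCast hr ha
    obtain ⟨m, hm⟩ := Lib.Char.classInner_natCast hr hb
    refine ⟨(n : ℤ) - m, ?_⟩
    push_cast
    rw [← hn, ← hm, ← Lib.Char.classInner_sub_right]
    simp only [hcdef, Cfsg.classInner, finsum_eq_sum_of_fintype, hab]
    congr 1
    exact Finset.sum_congr rfl fun y _ => by
      rw [Pi.sub_apply, Lib.Char.char_inv ha, Lib.Char.char_inv hb, ← map_sub, Pi.sub_apply]
  choose n hn using hcint
  have hkey : ∀ F : Cfsg.IrrCharacter G → ℂ,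
      (∀ u ∈ U, ∑ χ ∈ S, F χ * starRingEnd ℂ ((χ : G → ℂ) u) = 0) → ∑ χ ∈ S, c χ * F χ = 0 := by
    intro F hF
    simp only [hcdef, finsum_eq_sum_of_fintype, Finset.mul_sum, Finset.sum_mul]
    rw [Finset.sum_comm]
    refine Finset.sum_eq_zero fun y _ => ?_
    by_cases hy : (y : G)⁻¹ ∈ U
    · have h := hF _ hy
      have e : ∀ χ : Cfsg.IrrCharacter G,
          (Nat.card ↥P : ℂ)⁻¹ * ((χ : G → ℂ) (y : G) * θ y⁻¹) * F χ =
          ((Nat.card ↥P : ℂ)⁻¹ * θ y⁻¹) * (F χ * starRingEnd ℂ ((χ : G → ℂ) (y : G)⁻¹)) := by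
        intro χ
        rw [Lib.Char.char_inv (Lib.Char.isCharacter_of_isIrr χ.2), Complex.conj_conj]
        ring
      simp only [e, ← Finset.mul_sum, h, mul_zero]
    · refine Finset.sum_eq_zero fun χ _ => ?_
      rw [hθU y⁻¹ (by simpa using hy)]; simp
  have hone2 : ∀ u ∈ U, ∀ z, Cfsg.IsPPart 2 (1 : G) z → ¬ IsConj z u := by
    intro u hu z hz hc
    have : z = 1 := Lib.Block.IsPPart.unique hz (Lib.Block.isPPart_one_of_regular Lib.Block.regular_one)
    rw [this] at hc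
    exact hU1 ((isConj_one_right).1 hc ▸ hu)
  have htt : ∀ u ∈ U, ∀ z, Cfsg.IsPPart 2 t z → ¬ IsConj z u := by
    intro u hu z hz hc
    rw [Lib.Block.IsPPart.unique hz (Lib.Block.isPPart_self ⟨1, by rw [ht, pow_one]⟩)] at hc
    obtain ⟨g, hg⟩ := isConj_iff.1 hc
    refine hinv u hu g ?_
    rw [hg, mul_inv_cancel_right]
    refine eq_inv_of_mul_eq_one_left ?_
    rw [← hg]
    calc g * t * g⁻¹ * (g * t * g⁻¹) = g * (t * t) * g⁻¹ := by group
      _ = 1 := by rw [ht2]; group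
  have E0 : ∑ χ ∈ S, c χ * (χ : G → ℂ) 1 = 0 := hkey _ fun u hu => hsame 1 u hu (hone2 u hu)
  have E1 : ∑ χ ∈ S, c χ * (χ : G → ℂ) t = 0 := hkey _ fun u hu => hsame t u hu (htt u hu)
  have E2 : ∑ χ ∈ S, c χ * ((χ : G → ℂ) t ^ 2 / (χ : G → ℂ) 1) = 0 := by
    refine hkey _ fun u hu => ?_
    have hz0 : ∀ a b : G, Lib.CharTools.classInd t a * Lib.CharTools.classInd t b *
        ∑ χ ∈ S, (χ : G → ℂ) (a * b) * starRingEnd ℂ ((χ : G → ℂ) u) = 0 := by
      intro a b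
      by_cases ha : IsConj a t
      swap; · rw [Lib.CharTools.classInd_of_not ha, zero_mul, zero_mul]
      by_cases hb : IsConj b t
      swap; · rw [Lib.CharTools.classInd_of_not hb, mul_zero, zero_mul]
      refine mul_eq_zero_of_right _ (hsame _ u hu fun z hz hc => ?_)
      have hsq : ∀ {x : G}, IsConj x t → x * x = 1 := fun {x} h => by
        have := pow_orderOf_eq_one x
        rwa [Lib.Block.orderOf_of_isConj h.symm, ht, pow_two] at this
      have hinvab : a * (a * b) * a⁻¹ = (a * b)⁻¹ := by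
        rw [mul_inv_rev, inv_eq_of_mul_eq_one_left (hsq ha), inv_eq_of_mul_eq_one_left (hsq hb),
          ← mul_assoc, hsq ha, one_mul]
      obtain ⟨v, hzv, hcv, hzp, hvr⟩ := id hz
      have hzinv : a * z * a⁻¹ = z⁻¹ := by
        have h1 := Lib.Block.IsPPart.conj hz a
        rw [hinvab] at h1
        refine Lib.Block.IsPPart.unique h1
          ⟨v⁻¹, by rw [← mul_inv_rev, ← hcv.eq, hzv], hcv.inv_inv, ?_, by rwa [orderOf_inv]⟩
        obtain ⟨k, hk⟩ := hzp
        exact ⟨k, by rw [orderOf_inv, hk]⟩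
      obtain ⟨g, hg⟩ := isConj_iff.1 hc
      obtain ⟨k, hk⟩ := isConj_iff.1 ha.symm
      refine hinv u hu (g * k) ?_
      rw [← hg]
      calc g * k * t * (g * k)⁻¹ * (g * z * g⁻¹) * (g * k * t * (g * k)⁻¹)⁻¹
          = g * ((k * t * k⁻¹) * z * (k * t * k⁻¹)⁻¹) * g⁻¹ := by group
        _ = g * (a * z * a⁻¹) * g⁻¹ := by rw [hk]
        _ = (g * z * g⁻¹)⁻¹ := by rw [hzinv]; group
    set idx : ℂ := ((Subgroup.centralizer ({t} : Set G)).index : ℂ) with hidx
    have hidx0 : idx * idx ≠ 0 :=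
      mul_ne_zero (Nat.cast_ne_zero.2 Subgroup.index_ne_zero_of_finite)
        (Nat.cast_ne_zero.2 Subgroup.index_ne_zero_of_finite)
    refine (mul_eq_zero.1 (?_ : idx * idx * _ = 0)).resolve_left hidx0
    have hterm : ∀ χ : Cfsg.IrrCharacter G,
        idx * idx * ((χ : G → ℂ) t ^ 2 / (χ : G → ℂ) 1 * starRingEnd ℂ ((χ : G → ℂ) u)) =
        (∑ a : G, ∑ b : G, Lib.CharTools.classInd t a * Lib.CharTools.classInd t b * (χ : G → ℂ) (a * b)) *
          starRingEnd ℂ ((χ : G → ℂ) u) := by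
      intro χ
      rw [Lib.CharTools.sum_classes_mul χ.2, ← hidx]; ring
    rw [Finset.mul_sum, Finset.sum_congr rfl fun χ _ => hterm χ]
    simp only [Finset.sum_mul]
    rw [Finset.sum_comm]
    refine Finset.sum_eq_zero fun a _ => ?_
    rw [Finset.sum_comm]
    refine Finset.sum_eq_zero fun b _ => ?_
    rw [← hz0 a b, Finset.mul_sum]
    exact Finset.sum_congr rfl fun χ _ => by ring
  have hfs : (Set.toFinite (Cfsg.principalBlock M G)).toFinset = S := by ext; simp [hS]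
  have hfin : ∀ F : Cfsg.IrrCharacter G → ℂ, ∑ᶠ χ ∈ Cfsg.principalBlock M G, F χ = ∑ χ ∈ S, F χ := by
    intro F
    rw [finsum_mem_eq_finite_toFinset_sum _ (Set.toFinite _), hfs]
  refine ⟨?_, ?_, ?_, fun hne => ?_⟩
  · rw [hfin, ← E2]
    exact Finset.sum_congr rfl fun χ _ => by rw [hcdef]; ring
  · rw [hfin]; exact E0
  · rw [hfin]; exact E1
  -- the sign alternative
  set one : Cfsg.IrrCharacter G := Lib.Block.oneIrr G
  have h1S : one ∈ S := (hS _).2 Lib.Block.oneIrr_mem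
  have hn1 : n one ≠ 0 := by
    intro h
    apply hne
    have e := hn one
    rw [h, Int.cast_zero] at e
    simp only [hcdef, finsum_eq_sum_of_fintype, one, Lib.Block.oneIrr_apply, one_mul] at e ⊢
    rw [← e]
    congr 1
    exact (Fintype.sum_equiv (Equiv.inv ↥P) _ _ fun y => rfl).symm
  choose T hT using fun χ : Cfsg.IrrCharacter G =>
    Lib.Block.exists_int_of_sq_eq_one (Lib.Char.isCharacter_of_isIrr χ.2) ht2
  set f : Cfsg.IrrCharacter G → ℝ := fun χ => (Cfsg.charDegree (χ : G → ℂ) : ℝ) with hf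
  have hfp : ∀ χ, 0 < f χ := fun χ => Nat.cast_pos.2 (Lib.Char.charDegree_pos χ.2)
  have R0 : ∑ χ ∈ S, (n χ : ℝ) * f χ = 0 := by
    apply Complex.ofReal_injective
    push_cast
    rw [← E0]
    exact Finset.sum_congr rfl fun χ _ => by
      rw [hn, Lib.Block.irr_one_eq_natCast, hf]; push_cast; ring
  have R1 : ∑ χ ∈ S, (n χ : ℝ) * (T χ : ℝ) = 0 := by
    apply Complex.ofReal_injective
    push_cast
    rw [← E1]
    exact Finset.sum_congr rfl fun χ _ => by rw [hn, hT]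
  have R2 : ∑ χ ∈ S, (n χ : ℝ) * ((T χ : ℝ) ^ 2 / f χ) = 0 := by
    apply Complex.ofReal_injective
    push_cast
    rw [← E2]
    exact Finset.sum_congr rfl fun χ _ => by
      rw [hn, hT, Lib.Block.irr_one_eq_natCast, hf]; push_cast; ring
  have hre : ∀ χ : Cfsg.IrrCharacter G,
      (((Nat.card ↥P : ℂ)⁻¹ * ∑ᶠ y : ↥P, (χ : G → ℂ) (y : G) * θ y⁻¹)).re = (n χ : ℝ) := by
    intro χ
    have := congrArg Complex.re (hn χ)
    simpa [hcdef] using this
  -- a single sign forces a kernel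
  have hmain : ∀ σ : ℤ, (σ = 1 ∨ σ = -1) → (S.filter fun χ => 0 < σ * n χ).card < 2 →
      ∃ K : Subgroup G, K.Normal ∧ K ≠ ⊤ ∧ Cfsg.pPrimeCore 2 G ≤ K ∧ t ∈ K := by
    intro σ hσ hlt
    have hσR : (σ : ℝ) ≠ 0 := by rcases hσ with rfl | rfl <;> norm_num
    rcases Finset.eq_empty_or_nonempty (S.filter fun χ => 0 < σ * n χ) with he | ⟨χ₀, hχ₀⟩
    · exfalso
      have hle : ∀ χ ∈ S, (σ : ℝ) * ((n χ : ℝ) * f χ) ≤ 0 := by
        intro χ hχ
        have h : σ * n χ ≤ 0 := not_lt.1 fun h =>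
          Finset.eq_empty_iff_forall_notMem.1 he χ (Finset.mem_filter.2 ⟨hχ, h⟩)
        have h' : (σ : ℝ) * (n χ : ℝ) ≤ 0 := by exact_mod_cast h
        rw [← mul_assoc]
        exact mul_nonpos_of_nonpos_of_nonneg h' (hfp χ).le
      have h0 := (Finset.sum_eq_zero_iff_of_nonpos hle).1 (by rw [← Finset.mul_sum, R0, mul_zero]) one h1S
      simp [hσR, hn1, (hfp one).ne'] at h0
    · set x : Cfsg.IrrCharacter G → ℝ := fun χ => (T χ : ℝ) / f χ with hx
      have hvar : ∑ χ ∈ S, (σ : ℝ) * ((n χ : ℝ) * f χ * (x χ - x χ₀) ^ 2) = 0 := by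
        rw [← Finset.mul_sum]
        have e : ∀ χ ∈ S, (n χ : ℝ) * f χ * (x χ - x χ₀) ^ 2 = (n χ : ℝ) * ((T χ : ℝ) ^ 2 / f χ) -
            2 * x χ₀ * ((n χ : ℝ) * (T χ : ℝ)) + x χ₀ ^ 2 * ((n χ : ℝ) * f χ) := by
          intro χ _
          have := (hfp χ).ne'
          simp only [hx]
          field_simp
          ring
        rw [Finset.sum_congr rfl e, Finset.sum_add_distrib, Finset.sum_sub_distrib, ← Finset.mul_sum,
          ← Finset.mul_sum, R0, R1, R2]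
        ring
      have hle : ∀ χ ∈ S, (σ : ℝ) * ((n χ : ℝ) * f χ * (x χ - x χ₀) ^ 2) ≤ 0 := by
        intro χ hχ
        by_cases h : 0 < σ * n χ
        · have : χ = χ₀ := Finset.card_le_one.1 (Nat.le_of_lt_succ hlt) χ
            (Finset.mem_filter.2 ⟨hχ, h⟩) χ₀ hχ₀
          rw [this]; simp
        · have h' : (σ : ℝ) * (n χ : ℝ) ≤ 0 := by exact_mod_cast not_lt.1 h
          have : 0 ≤ f χ * (x χ - x χ₀) ^ 2 := mul_nonneg (hfp χ).le (sq_nonneg _)
          calc (σ : ℝ) * ((n χ : ℝ) * f χ * (x χ - x χ₀) ^ 2)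
              = ((σ : ℝ) * (n χ : ℝ)) * (f χ * (x χ - x χ₀) ^ 2) := by ring
            _ ≤ 0 := mul_nonpos_of_nonpos_of_nonneg h' this
      have hall : ∀ χ ∈ S, n χ ≠ 0 → x χ = x χ₀ := by
        intro χ hχ h
        have h0 := (Finset.sum_eq_zero_iff_of_nonpos hle).1 hvar χ hχ
        simp [hσR, h, (hfp χ).ne', sub_eq_zero] at h0
        exact h0
      have hx1 : x one = 1 := by
        have h2 : (T one : ℂ) = 1 := by rw [← hT]; exact Lib.Block.oneIrr_apply t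
        have h2' : T one = 1 := by exact_mod_cast h2
        have h3 : Cfsg.charDegree (one : G → ℂ) = 1 :=
          Lib.Char.charDegree_eq_of_apply_one (by rw [Lib.Block.oneIrr_apply]; simp)
        simp only [hx, hf, h2', h3]; norm_num
      obtain ⟨χ, hχ, hnχ, hχ1⟩ : ∃ χ ∈ S, n χ ≠ 0 ∧ χ ≠ one := by
        by_contra h
        push Not at h
        rw [Finset.sum_eq_single one (fun χ hχ hne' => by
          rw [show n χ = 0 from by by_contra hh; exact hne' (h χ hχ hh)]; simp)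
          (fun h' => absurd h1S h')] at R0
        simp [hn1, (hfp one).ne'] at R0
      have hTf : (χ : G → ℂ) t = (χ : G → ℂ) 1 := by
        have e : x χ = 1 := by rw [hall χ hχ hnχ, ← hall one h1S hn1, hx1]
        simp only [hx] at e
        rw [div_eq_one_iff_eq (hfp χ).ne'] at e
        have e' : T χ = (Cfsg.charDegree (χ : G → ℂ) : ℤ) := by
          simp only [hf] at e; exact_mod_cast e
        rw [hT, e', Lib.Block.irr_one_eq_natCast]; simp
      have hc := Lib.Char.isCharacter_of_isIrr χ.2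
      refine ⟨Lib.Char.charKer (χ : G → ℂ), Lib.Char.charKer_normal hc, fun htop => ?_,
        fun g hg => ?_, (Lib.Char.mem_charKer hc).2 hTf⟩
      · have hcst : ∀ g, (χ : G → ℂ) g = (χ : G → ℂ) 1 := fun g =>
          (Lib.Char.mem_charKer hc).1 (by rw [htop]; trivial)
        have h0 := Lib.Char.classInner_irr_ne χ.2 one.2 (fun h => hχ1 (Subtype.ext h))
        simp only [Cfsg.classInner, one, Lib.Block.oneIrr_apply, map_one, mul_one, hcst,
          Finset.sum_const, Finset.card_univ, nsmul_eq_mul, ← Nat.card_eq_fintype_card] at h0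
        rw [← mul_assoc, inv_mul_cancel₀ (Lib.Char.card_ne_zero_complex G), one_mul] at h0
        exact Lib.Char.irr_degree_ne_zero χ.2 h0
      · rw [Lib.Char.mem_charKer hc]
        exact Lib.Block.trivial_on_of_sameBlock (N := Cfsg.pPrimeCore 2 G) hM
          (Lib.Hall.not_dvd_card_pPrimeCore Nat.prime_two)
          (χ := one) ((hS χ).1 hχ) (fun m _ => by simp [one, Lib.Block.oneIrr_apply]) hg
  by_cases hp : 2 ≤ (S.filter fun χ => 0 < (1 : ℤ) * n χ).card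
  · by_cases hm : 2 ≤ (S.filter fun χ => 0 < (-1 : ℤ) * n χ).card
    · left
      have cnt : ∀ (q : ℝ → Prop) (r : ℤ → Prop), (∀ k : ℤ, q (k : ℝ) ↔ r k) →
          Nat.card {χ : Cfsg.IrrCharacter G // χ ∈ Cfsg.principalBlock M G ∧
            q (((Nat.card ↥P : ℂ)⁻¹ * ∑ᶠ y : ↥P, (χ : G → ℂ) (y : G) * θ y⁻¹)).re} =
          (S.filter fun χ => r (n χ)).card := by
        intro q r hqr
        rw [Nat.card_eq_fintype_card, Fintype.card_subtype]
        congr 1
        ext χ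
        simp only [Finset.mem_filter, Finset.mem_univ, true_and, hS, hre, hqr]
      refine ⟨?_, ?_⟩
      · rw [cnt (fun x => 0 < x) (fun k => 0 < k) fun k => by simp]
        convert hp using 3; simp
      · rw [cnt (fun x => x < 0) (fun k => k < 0) fun k => by simp]
        convert hm using 3; simp
    · exact Or.inr (hmain (-1) (Or.inr rfl) (by omega))
  · exact Or.inr (hmain 1 (Or.inl rfl) (by omega))

end Cfsg.Agent.S4722
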