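import Cfsg.Statements.S4723
import Cfsg.Agent.Lib.Block.StableHeightZero
import Cfsg.Agent.Lib.Char.Degree

set_option autoImplicit false
open Cfsg Cfsg.Agent Cfsg.Agent.Lib.Block Cfsg.Agent.Lib.BrauerPairs

namespace Cfsg.Agent.S4723

/-- Let p be a prime, M a maximal ideal of the algebraic integers containing p, H a normal subgroup of the finite group G and b a p-block of H. Let T be the stabilizer of b in G. Then b contains a character θ of height zero whose own stabilizer in G (the elements g with θ(g h g⁻¹) = θ(h) for all h ∈ H) has index prime to p in T, i.e. contains a Sylow p-subgroup of T. -/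
theorem result {G : Type*} [Group G] [Finite G] (p : ℕ) [Fact p.Prime] (M : Ideal Cfsg.AlgInt) (hM : Cfsg.IsPModular p M) (H : Subgroup G) [H.Normal] (b : Set (Cfsg.IrrCharacter ↥H)) (hb : Cfsg.IsPBlock M b) (T : Subgroup G) (hT : (∀ g : G, g ∈ T ↔ ∀ θ ∈ b, ∀ θ' : Cfsg.IrrCharacter ↥H, (∀ h h' : ↥H, (h' : G) = g * h * g⁻¹ → (θ' : ↥H → ℂ) h' = (θ : ↥H → ℂ) h) → θ' ∈ b)) : ∃ θ ∈ b, Cfsg.blockHeight p b (θ : ↥H → ℂ) = 0 ∧ ∃ S : Subgroup G, S ≤ T ∧ (∀ g : G, g ∈ S ↔ (g ∈ T ∧ ∀ h h' : ↥H, (h' : G) = g * h * g⁻¹ → (θ : ↥H → ℂ) h' = (θ : ↥H → ℂ) h)) ∧ ¬ p ∣ S.relIndex T := by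
  classical
  haveI := hM.2.1
  have hmem : ∀ g : G, g ∈ T ↔ ∀ θ ∈ b, conjIrr H g⁻¹ θ ∈ b := by
    intro g
    rw [hT]
    refine forall₂_congr fun θ hθ => ⟨fun h => h _ fun a a' haa => ?_, fun h θ' hθ' => ?_⟩
    · show (θ : ↥H → ℂ) _ = _
      refine congrArg _ (Subtype.ext ?_)
      show g⁻¹ * (a' : G) * g⁻¹⁻¹ = a
      rw [haa]; group
    · have : θ' = conjIrr H g⁻¹ θ := Subtype.ext (funext fun a => hθ' _ a (by
        show (a : G) = g * (g⁻¹ * (a : G) * g⁻¹⁻¹) * g⁻¹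
        group))
      rwa [this]
  have hHT : H ≤ T := fun g hg => (hmem g).2 fun θ hθ => by
    have : conjIrr H g⁻¹ θ = θ := Subtype.ext
      (Lib.Char.conjChar_of_mem H (Lib.Char.isClassFunction_of_isIrr θ.2) (inv_mem hg))
    rwa [this]
  haveI : (H.subgroupOf T).Normal := inferInstance
  let e : ↥H ≃* ↥(H.subgroupOf T) := (Subgroup.subgroupOfEquivOfLe hHT).symm
  have hcoe : ∀ h : ↥H, (((e h : ↥(H.subgroupOf T)) : ↥T) : G) = (h : G) := fun _ => rfl
  have hkey : ∀ (t : ↥T) (θ : IrrCharacter ↥H) (h : ↥H),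
      Lib.Char.conjChar (H.subgroupOf T) t (mapIrr e θ : _ → ℂ) (e h) =
        Lib.Char.conjChar H (t : G) (θ : ↥H → ℂ) h := by
    intro t θ h
    rw [Lib.Char.conjChar_apply, Lib.Char.conjChar_apply, ← mapIrr_apply e θ]
    exact congrArg _ (Subtype.ext (Subtype.ext rfl))
  obtain ⟨θ', ⟨θ, hθ, rfl⟩, hh, hi⟩ := exists_height_zero_inertia hM (H.subgroupOf T)
    (isPBlock_mapBlock e hb) (by
      rintro t _ ⟨θ, hθ, rfl⟩
      refine ⟨conjIrr H (t : G) θ, ?_, Subtype.ext (funext fun n => ?_)⟩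
      · have := (hmem ((t : G))⁻¹).1 (inv_mem t.2) θ hθ
        rwa [inv_inv] at this
      · obtain ⟨h, rfl⟩ := e.surjective n
        rw [mapIrr_apply]
        exact (hkey t θ h).symm)
  have hdeg : ∀ φ : IrrCharacter ↥H,
      Cfsg.charDegree (mapIrr e φ : ↥(H.subgroupOf T) → ℂ) = Cfsg.charDegree (φ : ↥H → ℂ) := fun φ =>
    Lib.Char.charDegree_eq_of_apply_one (by
      rw [← map_one e, mapIrr_apply,
        Lib.Char.apply_one_eq_charDegree (Lib.Char.isCharacter_of_isIrr φ.2)])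
  refine ⟨θ, hθ, ?_, (Lib.Char.inertia (H.subgroupOf T) (mapIrr e θ : _ → ℂ)).map T.subtype,
    Subgroup.map_subtype_le _, fun g => ⟨?_, ?_⟩, ?_⟩
  · rw [← hh, Cfsg.blockHeight, Cfsg.blockHeight, hdeg, mapBlock, Set.image_image]
    simp only [hdeg]
  · rintro ⟨t, ht, rfl⟩
    refine ⟨t.2, fun a a' haa => ?_⟩
    have h1 := congrFun ((Lib.Char.mem_inertia (H.subgroupOf T)).1 ht) (e a)
    rw [hkey, mapIrr_apply, Lib.Char.conjChar_apply] at h1
    rw [← h1]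
    exact congrArg _ (Subtype.ext haa)
  · rintro ⟨hg, hfix⟩
    refine ⟨⟨g, hg⟩, (Lib.Char.mem_inertia (H.subgroupOf T)).2 (funext fun n => ?_), rfl⟩
    obtain ⟨h, rfl⟩ := e.surjective n
    rw [hkey, mapIrr_apply, Lib.Char.conjChar_apply]
    exact hfix h _ rfl
  · rw [Subgroup.relIndex, Subgroup.subgroupOf,
      Subgroup.comap_map_eq_self_of_injective T.subtype_injective]
    exact hi

end Cfsg.Agent.S4723
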