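import Cfsg.Statements.S4725
import Cfsg.Agent.Lib.Block.Contrib
import Cfsg.Agent.Lib.Char.Induced

set_option autoImplicit false
open Cfsg

namespace Cfsg.Agent.S4725

/-- Let p be a prime, M a maximal ideal of the algebraic integers containing p, H a subgroup of the finite group G, and b a p-block of H inducing the p-block B of G, with b and B of the same defect. Then for every height-zero ζ ∈ b there is a height-zero χ ∈ B whose multiplicity in the character induced from ζ is not divisible by p. -/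
theorem result {G : Type*} [Group G] [Fintype G] (p : ℕ) [Fact p.Prime] (M : Ideal Cfsg.AlgInt) (hM : Cfsg.IsPModular p M) (H : Subgroup G) (b : Set (Cfsg.IrrCharacter ↥H)) (B : Set (Cfsg.IrrCharacter G)) (hind : Cfsg.IsInducedBlock M H b B) (hdef : Cfsg.blockDefect p b = Cfsg.blockDefect p B) (ζ : Cfsg.IrrCharacter ↥H) (hζ : ζ ∈ b) (hζ0 : Cfsg.blockHeight p b (ζ : ↥H → ℂ) = 0) : ∃ χ ∈ B, Cfsg.blockHeight p B (χ : G → ℂ) = 0 ∧ ∃ a : ℕ, Cfsg.classInner (Cfsg.indFun H (ζ : ↥H → ℂ)) (χ : G → ℂ) = (a : ℂ) ∧ ¬ p ∣ a := by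
  classical
  haveI : M.IsPrime := hM.2.1.isPrime
  haveI := Fintype.ofFinite H
  obtain ⟨hb, hB, -⟩ := id hind
  set d := Cfsg.blockDefect p B with hd
  obtain ⟨ψ, hψ, hψ0⟩ := Lib.Block.exists_height_zero hB p
  have hmemH := Lib.Block.omega_mem_locRing (M := M) ζ
    (Lib.Block.isClassCoeff_toSub (H := H) (Lib.Block.isClassCoeff_regElem (p := p)
      (Lib.Char.isClassFunction_of_isIrr ψ.2))) (Lib.Block.intR_toSub (Lib.Block.intR_regElem ψ))
  have hne : Lib.Block.redC M (Lib.Block.omega (ζ : H → ℂ)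
      (Lib.Block.toSub H (Lib.Block.regElem p (ψ : G → ℂ)))) ≠ 0 := by
    rw [Lib.Block.redC_omega_toSub_eq hind hζ hψ
      (Lib.Block.isClassCoeff_regElem (Lib.Char.isClassFunction_of_isIrr ψ.2))
      (Lib.Block.intR_regElem ψ)]
    exact Lib.Block.redC_omega_regElem_ne_zero hM hB hψ hψ hψ0
  choose a ha using fun χ : Cfsg.IrrCharacter G =>
    Lib.Char.classInner_natCast (Lib.Char.isCharacter_indFun H (Lib.Char.isCharacter_of_isIrr ζ.2))
      (Lib.Char.isCharacter_of_isIrr χ.2)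
  obtain ⟨hU, hU0⟩ := Lib.Block.degUnit_facts hM hb hdef hζ
  have e : Lib.Block.degUnit p d ζ * Lib.Block.omega (ζ : H → ℂ)
      (Lib.Block.toSub H (Lib.Block.regElem p (ψ : G → ℂ))) =
      ∑ χ : Cfsg.IrrCharacter G, (a χ : ℂ) *
        (((p : ℂ) ^ d) * Lib.Block.regInner p (χ : G → ℂ) (ψ : G → ℂ)) := by
    have hreg := Lib.Block.isClassFunction_pRegularPart p (Lib.Char.isClassFunction_of_isIrr ψ.2)
    have h1 : Lib.Block.omega (ζ : H → ℂ) (Lib.Block.toSub H (Lib.Block.regElem p (ψ : G → ℂ))) =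
        (Nat.card H : ℂ) * Cfsg.classInner (Cfsg.indFun H (ζ : H → ℂ))
          (Cfsg.pRegularPart p (ψ : G → ℂ)) / (ζ : H → ℂ) 1 := by
      rw [Lib.Char.classInner_indFun H _ hreg, Lib.Block.omega_eq_sum, Cfsg.classInner, ← mul_assoc,
        mul_inv_cancel₀ (Lib.Char.card_ne_zero_complex H), one_mul]
      congr 1
      refine Finset.sum_congr rfl fun x _ => ?_
      rw [Lib.Block.toSub_regElem, Lib.Block.coeff_regElem, Lib.Block.pRegularPart_apply,
        Subgroup.orderOf_coe, Subgroup.coe_inv, Lib.Char.char_inv (Lib.Char.isCharacter_of_isIrr ψ.2)]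
      split_ifs <;> simp [mul_comm]
    have h2 : Cfsg.classInner (Cfsg.indFun H (ζ : H → ℂ)) (Cfsg.pRegularPart p (ψ : G → ℂ)) =
        ∑ χ : Cfsg.IrrCharacter G, (a χ : ℂ) * Lib.Block.regInner p (χ : G → ℂ) (ψ : G → ℂ) := by
      conv_lhs => arg 1; rw [Lib.Char.eq_sum_classInner_smul (Lib.Char.isClassFunction_of_isCharacter
        (Lib.Char.isCharacter_indFun H (Lib.Char.isCharacter_of_isIrr ζ.2)))]
      rw [Lib.Char.classInner_sum_left]
      refine Finset.sum_congr rfl fun χ _ => ?_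
      rw [Lib.Char.classInner_smul_left, ha, ← Lib.Block.regInner_conj p (χ : G → ℂ),
        Lib.Block.regInner_eq_classInner, ← Lib.Char.classInner_conj_symm]
    rw [h1, h2, Lib.Block.degUnit, Lib.Block.irr_one_eq_natCast ζ, Nat.cast_mul, Nat.cast_pow]
    have := Lib.Char.card_ne_zero_complex H
    have : (Cfsg.charDegree (ζ : H → ℂ) : ℂ) ≠ 0 :=
      Nat.cast_ne_zero.2 (Lib.Block.charDegree_pos ζ).ne'
    field_simp
    rw [Finset.mul_sum]
    exact Finset.sum_congr rfl fun χ _ => by ring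
  have hloc : ∀ χ : Cfsg.IrrCharacter G,
      ((p : ℂ) ^ d) * Lib.Block.regInner p (χ : G → ℂ) (ψ : G → ℂ) ∈ Lib.Block.locRing M ∧
      (Lib.Block.redC M (((p : ℂ) ^ d) * Lib.Block.regInner p (χ : G → ℂ) (ψ : G → ℂ)) ≠ 0 →
        χ ∈ B ∧ Cfsg.blockHeight p B (χ : G → ℂ) = 0) := by
    intro χ
    rw [Lib.Block.regInner_comm hM.1 χ ψ]
    obtain ⟨z, hz⟩ := Lib.Block.exists_int_regInner (η := χ) hM hB hd.symm hψ
    refine ⟨hz ▸ intCast_mem _ z, fun h => ?_⟩
    by_cases hχ : χ ∈ B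
    · refine ⟨hχ, by_contra fun hh => h ?_⟩
      rw [Lib.Block.redC_regInner_eq hM hB hd.symm hψ hψ χ,
        Lib.Block.redC_omega_regElem_eq_zero hM hB hχ hψ hh, mul_zero]
    · refine absurd ?_ h
      rw [Lib.Block.regInner_eq_zero hM fun hs => hχ ((Lib.Block.mem_iff_sameBlock hB hψ).2 hs),
        mul_zero, Lib.Block.redC_zero]
  have h := congrArg (Lib.Block.redC M) e
  rw [Lib.Block.redC_mul hU hmemH,
    Lib.Block.redC_sum _ fun χ _ => mul_mem (Lib.Block.nat_mem (a χ)) (hloc χ).1] at h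
  obtain ⟨χ, -, hχ⟩ := Finset.exists_ne_zero_of_sum_ne_zero (h ▸ mul_ne_zero (hU0 hζ0) hne)
  rw [Lib.Block.redC_mul (Lib.Block.nat_mem _) (hloc χ).1] at hχ
  exact ⟨χ, ((hloc χ).2 (right_ne_zero_of_mul hχ)).1, ((hloc χ).2 (right_ne_zero_of_mul hχ)).2,
    a χ, ha χ, fun hd => left_ne_zero_of_mul hχ ((Lib.Block.redC_natCast_eq_zero_iff hM).2 hd)⟩

end Cfsg.Agent.S4725
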