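import Cfsg.Statements.S4726
import Cfsg.Agent.Lib.BrauerPairs.CoveringNormalizer
import Cfsg.Agent.Lib.BrauerPairs.CentPairs

set_option autoImplicit false
open Cfsg Cfsg.Agent.Lib.Block Cfsg.Agent.Lib.BrauerPairs

namespace Cfsg.Agent.S4726

/-- Let p be a prime, M a maximal ideal of the algebraic integers containing p, H a subgroup of the finite group G and b a p-block of H with defect group D₀ such that C_G(D₀) ≤ H. Then b induces a block of G, and for every block B of G induced by b there is a defect group D of B with Z(D) ≤ Z(D₀) ≤ D₀ ≤ D (as subgroups of G). In particular, if the defect groups of B are abelian then D₀ is a defect group of B. -/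
theorem result {G : Type*} [Group G] [Finite G] (p : ℕ) [Fact p.Prime] (M : Ideal Cfsg.AlgInt) (hM : Cfsg.IsPModular p M) (H : Subgroup G) (b : Set (Cfsg.IrrCharacter ↥H)) (hb : Cfsg.IsPBlock M b) (D₀ : Subgroup ↥H) (hD₀ : Cfsg.IsDefectGroup p M b D₀) (hC : Subgroup.centralizer ((D₀.map H.subtype : Subgroup G) : Set G) ≤ H) : Cfsg.InducedBlockDefined M H b ∧ ∀ B : Set (Cfsg.IrrCharacter G), Cfsg.IsInducedBlock M H b B → (∃ D : Subgroup G, Cfsg.IsDefectGroup p M B D ∧ (Subgroup.center ↥D).map D.subtype ≤ ((Subgroup.center ↥D₀).map D₀.subtype).map H.subtype ∧ ((Subgroup.center ↥D₀).map D₀.subtype).map H.subtype ≤ D₀.map H.subtype ∧ D₀.map H.subtype ≤ D) ∧ (∀ D : Subgroup G, Cfsg.IsDefectGroup p M B D → IsMulCommutative ↥D → Cfsg.IsDefectGroup p M B (D₀.map H.subtype)) := by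
  classical
  haveI := hM.2.1
  obtain ⟨f₀, hf₀⟩ := exists_pair_on_defect hM hb hD₀
  obtain ⟨hp₀, hf₀b, -, -⟩ := (isBrauerPairOf_iff hM).1 hf₀
  obtain ⟨-, hcard₀, -⟩ := IsDefectGroup.props hM hb hD₀
  set V := D₀.map H.subtype with hV
  let φ := subCent D₀ hC
  set f : CBlock V := mapBlock φ f₀ with hf
  have hfb : IsPBlock M f := isPBlock_mapBlock φ hf₀b
  have hfe : pbar M V f = emb H (pbar M D₀ f₀) := pbar_push D₀ hC f₀
  obtain ⟨ξ, hξ⟩ := isPBlock_nonempty hf₀b
  haveI := Fintype.ofFinite G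
  haveI := Fintype.ofFinite (Subgroup.centralizer (D₀ : Set ↥H))
  haveI := Fintype.ofFinite (Subgroup.centralizer (V : Set G))
  obtain ⟨B₀, hB₀⟩ := exists_block_of_pair hM (hp₀.map H.subtype) hfb
  have hind : IsInducedBlock M H b B₀ := by
    rw [isInducedBlock_iff]
    refine ⟨hb, hB₀.2.1, fun ζ hζ χ hχ g => ?_⟩
    have ha := isClassCoeff_classSum (k := ℂ) g
    have haR := intR_classSum (M := M) g
    have haF : IsClassCoeff (toF M (classSum ℂ g) : MonoidAlgebra (ResField M) G) := fun u x => by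
      rw [coeff_toF, coeff_toF, ha u x]
    have h1 := lam_pair hM hB₀ hχ (show mapIrr φ ξ ∈ f from ⟨ξ, hξ, rfl⟩) haF
    have h2 := lam_pair hM hf₀ hζ hξ (isClassCoeff_toSub (H := H) haF)
    simp only [← toF_toSub] at h1 h2
    rw [lam_toF _ ha haR, lam_toF _ (isClassCoeff_toSub ha) (intR_toSub haR),
      omega_classSum_irr] at h1
    rw [lam_toF _ (isClassCoeff_toSub (isClassCoeff_toSub ha)) (intR_toSub (intR_toSub haR)),
      lam_toF _ (isClassCoeff_toSub ha) (intR_toSub haR), ← inducedCentralChar_eq] at h2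
    rw [← h2, ← h1, omega_eq_sum, omega_eq_sum]
    congr 2
    · refine Fintype.sum_equiv φ.toEquiv _ _ fun c => ?_
      rw [MulEquiv.toEquiv_eq_coe, MulEquiv.coe_toEquiv, mapIrr_apply]
      rfl
  refine ⟨⟨B₀, hind⟩, fun B hB => ?_⟩
  obtain rfl := induced_block_unique hind hB
  obtain ⟨D, e, hmax, hle⟩ := exists_maximal hM hB₀
  have hDd := isDefectGroup_of_maximal hM hmax
  obtain ⟨hDp, heb, -, -⟩ := (isBrauerPairOf_iff hM).1 hmax.1
  have hVD : V ≤ D := subgroup_le hle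
  set Z := (Subgroup.center ↥D).map D.subtype with hZ
  have hZc : ∀ z ∈ Z, z ∈ Subgroup.centralizer (V : Set G) := by
    rintro _ ⟨z, hz, rfl⟩
    refine Subgroup.mem_centralizer_iff.2 fun v hv => ?_
    exact congrArg Subtype.val (Subgroup.mem_center_iff.1 hz ⟨v, hVD hv⟩)
  set R := V ⊔ Z with hR
  have hRD : R ≤ D := sup_le hVD (Subgroup.map_subtype_le _)
  have hRH : R ≤ H := sup_le (Subgroup.map_subtype_le _) fun z hz => hC (hZc z hz)
  have hRN : R ≤ Subgroup.normalizer (V : Set G) :=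
    sup_le Subgroup.le_normalizer fun z hz => centralizer_le_normalizer_self V (hZc z hz)
  obtain ⟨r, hr, hrle⟩ := exists_le hM hDp heb R hRD
  obtain ⟨s1, s2, -, s4, s5, s6, s7⟩ := step_of_le hM hDp heb hle hrle le_sup_left hRN
  have hmap : (R.subgroupOf H).map H.subtype = R := Subgroup.map_subgroupOf_eq_of_le hRH
  obtain ⟨r₁, hr₁, hr₁e⟩ := exists_pbar_of_eq hmap hr
  obtain ⟨r', hr', hre⟩ := exists_pull hRH
    ((Subgroup.centralizer_le (SetLike.coe_subset_coe.2 s4)).trans hC) hr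
  have hs : Step p M V f ((R.subgroupOf H).map H.subtype) r₁ := by
    refine ⟨?_, s2, hr₁, ?_, ?_, ?_, ?_⟩
    · rw [hmap]; exact s1
    · rw [hmap]; exact s4
    · rw [hmap]; exact s5
    · rw [hmap]; exact s6
    · rw [Occ, hr₁e, hmap]; exact s7
  have hs' := step_pull hf₀b hr' hfe (hr₁e.trans hre.symm) hs
  have hle' : SubpairLE p M D₀ f₀ (R.subgroupOf H) r' :=
    Relation.ReflTransGen.single ((rel_iff hM).2 hs')
  have hpR := (pairOf_iff_of_le hM hs'.1 hr' hle').1 hf₀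
  have hRV : D₀ = R.subgroupOf H := Subgroup.eq_of_le_of_card_ge hs'.2.2.2.1 (by
    rw [hcard₀]
    exact card_le_of_pair hM hpR)
  have hZV : Z ≤ V := by
    have h : R = V := by rw [hV, hRV, hmap]
    exact h ▸ le_sup_right
  refine ⟨⟨D, hDd, ?_, Subgroup.map_mono (Subgroup.map_subtype_le _), hVD⟩, fun D' hD' hab => ?_⟩
  · intro z hz
    obtain ⟨z₀, hz₀, hzz⟩ := hZV hz
    refine ⟨z₀, ⟨⟨z₀, hz₀⟩, Subgroup.mem_center_iff.2 fun d => Subtype.ext (Subtype.ext ?_), rfl⟩,
      hzz⟩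
    have h := Subgroup.mem_centralizer_iff.1 (hzz ▸ hZc z hz) ((d : H) : G) (Subgroup.mem_map_of_mem H.subtype d.2)
    exact h
  · obtain ⟨x, hx⟩ := exists_conj_defect hM hB₀.2.1 hD' hDd
    have hab' : ∀ a ∈ D, ∀ c ∈ D, a * c = c * a := by
      rw [← hx]
      rintro _ ⟨a, ha, rfl⟩ _ ⟨c, hc, rfl⟩
      rw [← map_mul, ← map_mul]
      exact congrArg _ (congrArg Subtype.val (hab.is_comm.comm (⟨a, ha⟩ : D') ⟨c, hc⟩))
    have hDZ : D ≤ Z := fun a ha => ⟨⟨a, ha⟩,
      Subgroup.mem_center_iff.2 fun c => Subtype.ext (hab' _ c.2 _ ha), rfl⟩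
    have hVeq : V = D := le_antisymm hVD (hDZ.trans hZV)
    exact hVeq ▸ hDd

end Cfsg.Agent.S4726
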