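import Cfsg.Statements.S4727
import Cfsg.Agent.Lib.BrauerPairs.KernelCore
import Cfsg.Agent.Lib.Block.Parts

set_option autoImplicit false
open Cfsg Cfsg.Agent.Lib.Block Cfsg.Agent.Lib.BrauerPairs

namespace Cfsg.Agent.S4727

/-- Let p be a prime, π a set of primes containing p, M a maximal ideal of the algebraic integers containing p, and B a p-block of the finite group G with defect group D; let B₁ be the block of N_G(D) with defect group D that induces B (the Brauer correspondent of B). Suppose every element of O_π'(N_G(D)), the largest normal subgroup of N_G(D) whose order has no prime divisor in π, lies in the kernel of every member of B₁. If y is a p-element whose centralizer C has a normal Hall π'-subgroup (every element of C whose order has no prime divisor in π lies in O_π'(C)), then χ(y x) = χ(y) for every χ ∈ B and every x ∈ C whose order has no prime divisor in π. -/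
theorem result {G : Type*} [Group G] [Finite G] (p : ℕ) [Fact p.Prime] (M : Ideal Cfsg.AlgInt) (hM : Cfsg.IsPModular p M) (π : Set ℕ) (hpπ : p ∈ π) (B : Set (Cfsg.IrrCharacter G)) (hB : Cfsg.IsPBlock M B) (D : Subgroup G) (hBD : Cfsg.IsDefectGroup p M B D) (B₁ : Set (Cfsg.IrrCharacter ↥(Subgroup.normalizer (D : Set G)))) (hB₁ : Cfsg.IsInducedBlock M (Subgroup.normalizer (D : Set G)) B₁ B) (hB₁D : Cfsg.IsDefectGroup p M B₁ (D.subgroupOf (Subgroup.normalizer (D : Set G)))) (hker : ∀ n : ↥(Subgroup.normalizer (D : Set G)), n ∈ Cfsg.piCore {q | q ∉ π} ↥(Subgroup.normalizer (D : Set G)) → n ∈ Cfsg.blockKer B₁) (y : G) (hy : ∃ k : ℕ, orderOf y = p ^ k) (hC : ∀ x : ↥(Subgroup.centralizer ({y} : Set G)), (∀ q : ℕ, q.Prime → q ∣ orderOf x → q ∉ π) → x ∈ Cfsg.piCore {q | q ∉ π} ↥(Subgroup.centralizer ({y} : Set G))) : ∀ χ ∈ B, ∀ x : G, x ∈ Subgroup.centralizer ({y} : Set G) → (∀ q : ℕ, q.Prime → q ∣ orderOf x → q ∉ π) → (χ : G → ℂ) (y * x) = (χ : G → ℂ) y := by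
  classical
  haveI := hM.2.1
  intro χ hχ x hx hxπ
  haveI := Fintype.ofFinite (Subgroup.centralizer ({y} : Set G))
  have hQ : IsPGroup p (Subgroup.zpowers y) := by
    obtain ⟨k, hk⟩ := hy
    exact IsPGroup.of_card (n := k) (by rw [Nat.card_zpowers, hk])
  have hye : IsPElem p y := hy
  have hCy : Subgroup.centralizer (Subgroup.zpowers y : Set G) =
      Subgroup.centralizer ({y} : Set G) := by
    rw [Subgroup.zpowers_eq_closure, Subgroup.centralizer_closure]
  set C := Subgroup.centralizer ({y} : Set G) with hCdef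
  set X := piCore {q | q ∉ π} C with hX
  have hXp : ¬ p ∣ Nat.card X := fun hd =>
    Cfsg.Agent.Lib.OddLocal.piCore_isPi (G := C) {q | q ∉ π} p hM.1 hd hpπ
  have hxX : (⟨x, hx⟩ : C) ∈ X := hC ⟨x, hx⟩ fun q hq hd => hxπ q hq (by
    rwa [Subgroup.orderOf_mk] at hd)
  have hx0 : ¬ p ∣ orderOf (⟨x, hx⟩ : C) := fun hd =>
    hxπ p hM.1 (by rwa [Subgroup.orderOf_mk] at hd) hpπ
  have hb : ∀ b : Set (IrrCharacter C), IsInducedBlock M C b B →
      ∀ ξ ∈ b, (ξ : C → ℂ) ⟨x, hx⟩ = (ξ : C → ℂ) 1 := by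
    intro b hind ξ hξ
    obtain ⟨hbb, -, -⟩ := id hind
    have hQC : Subgroup.zpowers y ≤ C :=
      Subgroup.zpowers_le.2 (Subgroup.mem_centralizer_singleton_iff.2 rfl)
    have hCN : C ≤ Subgroup.normalizer (Subgroup.zpowers y : Set G) := by
      rw [← hCy]
      exact centralizer_le_normalizer_self _
    have h1 := (induced_iff_br hM hQ hQC hCy.le hCN hbb hB).1 hind
    obtain ⟨f, hfb, hfe⟩ : ∃ f : CBlock (Subgroup.zpowers y), IsPBlock M f ∧
        pbar M (Subgroup.zpowers y) f = emb C (bar M b) := by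
      let φ : C ≃* Subgroup.centralizer (Subgroup.zpowers y : Set G) :=
        MulEquiv.subgroupCongr hCy.symm
      refine ⟨mapBlock φ b, isPBlock_mapBlock _ hbb, alg_ext fun z => ?_⟩
      by_cases hz : z ∈ C
      · rw [pbar, coeff_emb_of_mem _ _ (hCy.ge hz), coeff_emb_of_mem _ _ hz,
          ← coeff_bar_mapBlock φ b]
        rfl
      · rw [pbar, coeff_emb_of_not_mem _ _ (fun h => hz (hCy.le h)),
          coeff_emb_of_not_mem _ _ hz]
    have hpair : IsBrauerPairOf p M B (Subgroup.zpowers y) f := by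
      refine (isBrauerPairOf_iff hM).2 ⟨hQ, hfb, hB, ?_⟩
      rw [Occ, hfe]
      exact h1
    have hk := kerCore_of_pair hM hpπ hBD hB₁ hB₁D hker hpair
    unfold KerCore at hk
    dsimp only at hk
    have hcc : cc π (Subgroup.zpowers y) = X.map C.subtype := by
      rw [cc, hCy]
      rfl
    rw [hcc, hfe, ← emb_avg, ← map_mul] at hk
    exact (bar_mul_avg_iff hM hbb hXp).1 (emb_injective C hk) _ hxX ξ hξ
  have hsx := sum_induced_blockPart hM hye B hB χ (y := (⟨x, hx⟩ : C)) hx0
  have hs1 := sum_induced_blockPart hM hye B hB χ (y := (1 : C))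
    (by rw [orderOf_one]; exact hM.1.not_dvd_one)
  rw [if_pos hχ] at hsx hs1
  rw [Subgroup.coe_one, mul_one] at hs1
  refine hsx.symm.trans (Eq.trans ?_ hs1)
  refine Finset.sum_congr rfl fun b hbm => ?_
  rw [blockPart, blockPart]
  refine finsum_congr fun ξ => finsum_congr fun hξ => ?_
  rw [hb b (Finset.mem_filter.1 hbm).2 ξ hξ]

end Cfsg.Agent.S4727
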