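import Cfsg.Statements.S4728
import Cfsg.Agent.Lib.BrauerPairs.KernelCore

set_option autoImplicit false
open Cfsg Cfsg.Agent.Lib.Block Cfsg.Agent.Lib.BrauerPairs

namespace Cfsg.Agent.S4728

/-- Let p be a prime, π a set of primes containing p, M a maximal ideal of the algebraic integers containing p, B a p-block of the finite group G with defect group D, and B₁ the block of N_G(D) with defect group D inducing B. Let D₀ be a p-subgroup, H₀ = D₀·C_G(D₀), and b a block of H₀ inducing B. Write O_π'(X) for the largest normal subgroup of X whose order has no prime divisor in π. Suppose that O_π'(C_G(D₀)) is a normal Hall π'-subgroup of C_G(D₀) (it contains every element of C_G(D₀) whose order has no prime divisor in π) and that every element of it lies in the kernel of every member of b. Then every element of O_π'(N_G(D)) lies in the kernel of every member of B₁. -/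
theorem result {G : Type*} [Group G] [Finite G] (p : ℕ) [Fact p.Prime] (M : Ideal Cfsg.AlgInt) (hM : Cfsg.IsPModular p M) (π : Set ℕ) (hpπ : p ∈ π) (B : Set (Cfsg.IrrCharacter G)) (hB : Cfsg.IsPBlock M B) (D : Subgroup G) (hBD : Cfsg.IsDefectGroup p M B D) (B₁ : Set (Cfsg.IrrCharacter ↥(Subgroup.normalizer (D : Set G)))) (hB₁ : Cfsg.IsInducedBlock M (Subgroup.normalizer (D : Set G)) B₁ B) (hB₁D : Cfsg.IsDefectGroup p M B₁ (D.subgroupOf (Subgroup.normalizer (D : Set G)))) (D₀ : Subgroup G) (hD₀ : IsPGroup p D₀) (H₀ : Subgroup G) (hH₀ : H₀ = D₀ ⊔ Subgroup.centralizer (D₀ : Set G)) (b : Set (Cfsg.IrrCharacter ↥H₀)) (hb : Cfsg.IsInducedBlock M H₀ b B) (hcompl : ∀ x : ↥(Subgroup.centralizer (D₀ : Set G)), (∀ q : ℕ, q.Prime → q ∣ orderOf x → q ∉ π) → x ∈ Cfsg.piCore {q | q ∉ π} ↥(Subgroup.centralizer (D₀ : Set G))) (hkerb : ∀ x : ↥(Subgroup.centralizer (D₀ : Set G)), x ∈ Cfsg.piCore {q | q ∉ π} ↥(Subgroup.centralizer (D₀ : Set G)) → ∀ θ ∈ b,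 ∀ h : ↥H₀, (h : G) = (x : G) → (θ : ↥H₀ → ℂ) h = (θ : ↥H₀ → ℂ) 1) : ∀ n : ↥(Subgroup.normalizer (D : Set G)), n ∈ Cfsg.piCore {q | q ∉ π} ↥(Subgroup.normalizer (D : Set G)) → n ∈ Cfsg.blockKer B₁ := by
  classical
  haveI := hM.2.1
  obtain ⟨hbb, -, -⟩ := id hb
  have hDH : D₀ ≤ H₀ := hH₀ ▸ le_sup_left
  have hCH : Subgroup.centralizer (D₀ : Set G) ≤ H₀ := hH₀ ▸ le_sup_right
  have hHN : H₀ ≤ Subgroup.normalizer (D₀ : Set G) :=
    hH₀ ▸ sup_le Subgroup.le_normalizer (centralizer_le_normalizer_self D₀)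
  have hXle : cc π D₀ ≤ H₀ := (Cfsg.Agent.Lib.OddLocal.piCoreOf_le _ _).trans hCH
  have hmap : (D₀.subgroupOf H₀).map H₀.subtype = D₀ := Subgroup.map_subgroupOf_eq_of_le hDH
  haveI : (D₀.subgroupOf H₀).Normal := Subgroup.normal_subgroupOf_of_le_normalizer hHN
  have hself : br D₀ (emb H₀ (bar M b)) = emb H₀ (bar M b) := by
    have h := br_emb (D₀.subgroupOf H₀) (bar M b)
    rw [hmap, br_eq_self_of_normal hM (Q := D₀.subgroupOf H₀) hD₀.comap_subtype
      (isClassCoeff_bar b) (isIdempotentElem_bar hbb)] at h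
    exact h
  have hgood : Good D₀ (emb H₀ (bar M b)) :=
    ⟨fun u hu => invUnder_emb (isClassCoeff_bar b) (hDH hu),
      fun u hu => invUnder_emb (isClassCoeff_bar b) (hCH hu),
      by rw [IsIdempotentElem, ← map_mul, (isIdempotentElem_bar hbb).eq]⟩
  obtain ⟨f, hf, hfo⟩ := exists_occ hM hD₀ hgood (by
    rw [hself]
    exact fun h0 => bar_ne_zero hbb (emb_injective H₀ (by rw [h0, map_zero])))
  rw [Occ, hself] at hfo
  have hind := (induced_iff_br hM hD₀ hDH hCH hHN hbb hB).1 hb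
  have hpair : IsBrauerPairOf p M B D₀ f := by
    refine (isBrauerPairOf_iff hM).2 ⟨hD₀, hf, hB, ?_⟩
    rw [Occ, ← hfo, mul_assoc, hind]
  haveI : ((cc π D₀).subgroupOf H₀).Normal := by
    refine Subgroup.normal_subgroupOf_of_le_normalizer ?_
    exact hHN.trans (normalizer_le_normalizer_cc π D₀)
  have hcard : Nat.card ((cc π D₀).subgroupOf H₀) = Nat.card (cc π D₀) :=
    Nat.card_congr (Subgroup.subgroupOfEquivOfLe hXle).toEquiv
  have hXp : ¬ p ∣ Nat.card ((cc π D₀).subgroupOf H₀) := by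
    rw [hcard]
    exact not_dvd_cc hM.1 hpπ D₀
  have hbX := (bar_mul_avg_iff hM hbb hXp).2 fun h hh θ hθ => by
    obtain ⟨c, hc, hch⟩ := Subgroup.mem_subgroupOf.1 hh
    exact hkerb c hc θ hθ h hch.symm
  have hk : KerCore M π ⟨D₀, f⟩ := by
    unfold KerCore
    dsimp only
    conv_lhs => rw [← hfo, mul_assoc, ← Subgroup.map_subgroupOf_eq_of_le hXle, ← emb_avg,
      ← map_mul, hbX, hfo]
  exact ker_correspondent_of_hall hM hpπ hBD hB₁ hB₁D hpair
    (fun x hx hxπ => ⟨⟨x, hx⟩, hcompl ⟨x, hx⟩ (fun q hq hd => hxπ q hq (by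
      rwa [Subgroup.orderOf_mk] at hd)), rfl⟩) hk

end Cfsg.Agent.S4728
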