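import Cfsg.Statements.S4729
import Cfsg.Agent.Lib.Block.Principal
import Cfsg.Agent.Lib.Block.Defect
import Cfsg.Agent.Lib.Char.Degree

set_option autoImplicit false
open Cfsg Cfsg.Agent Cfsg.Agent.Lib.Block

namespace Cfsg.Agent.S4729

/-- Let p be a prime, M a maximal ideal of the algebraic integers containing p, G a finite perfect group and P a Sylow p-subgroup. If the principal p-block of G contains a faithful irreducible character of degree less than 2p, then the centralizer of P is a p-group. -/
theorem result {G : Type*} [Group G] [Finite G] (p : ℕ) [Fact p.Prime] (M : Ideal Cfsg.AlgInt) (hM : Cfsg.IsPModular p M) (hperf : commutator G = ⊤) (P : Sylow p G) (χ : Cfsg.IrrCharacter G) (hχ : χ ∈ Cfsg.principalBlock M G) (hfaith : ∀ g : G, (χ : G → ℂ) g = (χ : G → ℂ) 1 → g = 1) (hdeg : Cfsg.charDegree (χ : G → ℂ) < 2 * p) : IsPGroup p ↥(Subgroup.centralizer ((P : Subgroup G) : Set G)) := by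
  classical
  haveI := hM.2.1
  haveI := resField_charP (M := M) hM
  haveI := Fintype.ofFinite G
  have hp := hM.1
  set C := Subgroup.centralizer ((P : Subgroup G) : Set G) with hC
  have key : ∀ v ∈ C, ¬ p ∣ orderOf v → v = 1 := by
    intro v hv hvp
    set m := orderOf v with hm
    have hmpos : 0 < m := orderOf_pos v
    obtain ⟨n, ρ, hρ⟩ := Lib.Char.isCharacter_of_isIrr χ.2
    obtain ⟨b, μ, hμ, hk, hch⟩ := Lib.Char.exists_eigenbasis ρ v
    have hn1 : (χ : G → ℂ) 1 = (Module.finrank ℂ (Fin n → ℂ) : ℂ) := by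
      rw [← hρ, Representation.char_one]
    have hdeg1 : Cfsg.charDegree (χ : G → ℂ) = Module.finrank ℂ (Fin n → ℂ) :=
      Lib.Char.charDegree_eq_of_apply_one hn1
    have hχ1 : (χ : G → ℂ) 1 ≠ 0 := deg_ne_zero χ
    -- every value on the powers of `v` is congruent to the degree
    have hval : ∀ j : ℕ, (χ : G → ℂ) (v ^ j) / (χ : G → ℂ) 1 ∈ locRing M ∧
        redC M ((χ : G → ℂ) (v ^ j) / (χ : G → ℂ) 1) = 1 := by
      intro j
      have hidx : ¬ p ∣ (Subgroup.centralizer ({v ^ j} : Set G)).index := fun hd =>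
        P.not_dvd_index (hd.trans (Subgroup.index_dvd_of_le fun u hu =>
          Subgroup.mem_centralizer_singleton_iff.2
            ((show Commute u v from Subgroup.mem_centralizer_iff.1 hv u hu).pow_right j).eq))
      obtain ⟨i, hi⟩ : ∃ i : ℕ, i = (Subgroup.centralizer ({v ^ j} : Set G)).index := ⟨_, rfl⟩
      rw [← hi] at hidx
      have hi0 : (i : ℂ) ≠ 0 := Nat.cast_ne_zero.2 fun h => hidx (h ▸ dvd_zero p)
      have hω := sameBlock_iff.1 (show SameBlock M (oneIrr G : G → ℂ) (χ : G → ℂ) from hχ) (v ^ j)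
      have hωm := centralChar_mem_locRing (M := M) χ (v ^ j)
      simp only [centralChar, oneIrr_apply, mul_one, div_one, ← hi] at hω hωm
      have e : (χ : G → ℂ) (v ^ j) / (χ : G → ℂ) 1 =
          (i : ℂ)⁻¹ * ((i : ℂ) * (χ : G → ℂ) (v ^ j) / (χ : G → ℂ) 1) := by
        field_simp
      have hr : redC M (i : ℂ) ≠ 0 := fun h => hidx ((redC_natCast_eq_zero_iff hM).1 h)
      rw [e]
      refine ⟨mul_mem (inv_natCast_mem_locRing hM hidx) hωm, ?_⟩
      rw [redC_mul (inv_natCast_mem_locRing hM hidx) hωm, ← hω, redC_inv (nat_mem i) hr,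
        inv_mul_cancel₀ hr]
    -- multiplicities of the nontrivial eigenvalues
    have hζint : ∀ {ζ : ℂ}, ζ ^ m = 1 → ∀ l : ℕ, ζ ^ l ∈ locRing M := fun hζ l =>
      pow_mem (integral_mem_locRing (IsIntegral.of_pow hmpos (by rw [hζ]; exact isIntegral_one))) l
    have hmult : ∀ ζ : ℂ, ζ ^ m = 1 → ζ ≠ 1 →
        p ∣ (Finset.univ.filter fun i => μ i = ζ).card := by
      intro ζ hζ hζ1
      set N := (Finset.univ.filter fun i => μ i = ζ).card with hN
      have hζ0 : ζ ≠ 0 := fun h => by simp [h, zero_pow hmpos.ne'] at hζ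
      have hgeom : ∀ z : ℂ, z ^ m = 1 →
          ∑ j ∈ Finset.range m, z ^ j = if z = 1 then (m : ℂ) else 0 := by
        intro z hz
        split_ifs with h
        · simp [h]
        · rw [geom_sum_eq h, hz, sub_self, zero_div]
      have hsum : ∑ j ∈ Finset.range m, (χ : G → ℂ) (v ^ j) * (ζ⁻¹) ^ j = (m : ℂ) * N := by
        simp only [← hρ, hch, Finset.sum_mul, ← mul_pow]
        rw [Finset.sum_comm, Finset.sum_congr rfl (g := fun i => if μ i = ζ then (m : ℂ) else 0)
          fun i _ => ?_, ← Finset.sum_filter, Finset.sum_const, nsmul_eq_mul, mul_comm, hN]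
        rw [hgeom _ (by rw [mul_pow, inv_pow, hμ i, hζ, inv_one, mul_one])]
        exact if_congr (mul_inv_eq_one₀ hζ0) rfl rfl
      have hζi : ζ⁻¹ ^ m = 1 := by rw [inv_pow, hζ, inv_one]
      have hminv := inv_natCast_mem_locRing (M := M) hM hvp
      set s := ∑ j ∈ Finset.range m, (χ : G → ℂ) (v ^ j) / (χ : G → ℂ) 1 * ζ⁻¹ ^ j with hs
      have hsR : s ∈ locRing M := sum_mem fun j _ => mul_mem (hval j).1 (hζint hζi j)
      have hs0 : redC M s = 0 := by
        rw [hs, redC_sum _ fun j _ => mul_mem (hval j).1 (hζint hζi j),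
          Finset.sum_congr rfl fun j _ => show _ = redC M (ζ⁻¹ ^ j) by
            rw [redC_mul (hval j).1 (hζint hζi j), (hval j).2, one_mul],
          ← redC_sum _ fun j _ => hζint hζi j, hgeom _ hζi,
          if_neg (fun h => hζ1 (inv_eq_one.1 h)), redC_zero]
      have hN' : (N : ℂ) = (χ : G → ℂ) 1 * ((m : ℂ)⁻¹ * s) := by
        have hm0 : (m : ℂ) ≠ 0 := Nat.cast_ne_zero.2 hmpos.ne'
        have h2 : (χ : G → ℂ) 1 * s = (m : ℂ) * N := by
          rw [← hsum, hs, Finset.mul_sum]
          exact Finset.sum_congr rfl fun j _ => by rw [← mul_assoc, mul_div_cancel₀ _ hχ1]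
        calc (N : ℂ) = (m : ℂ)⁻¹ * ((m : ℂ) * N) := by field_simp
          _ = _ := by rw [← h2]; ring
      apply (redC_natCast_eq_zero_iff hM).1
      rw [hN', hn1, redC_mul (nat_mem _) (mul_mem hminv hsR), redC_mul hminv hsR, hs0,
        mul_zero, mul_zero]
    -- the determinant is trivial
    have hprod : ∏ i, μ i = 1 := by
      have hdet : LinearMap.det (ρ v) = ∏ i, μ i := by
        rw [← LinearMap.det_toMatrix b, show LinearMap.toMatrix b b (ρ v) = Matrix.diagonal μ from
          Matrix.ext fun i j => by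
            have h := hk j 1
            rw [pow_one, pow_one] at h
            rw [LinearMap.toMatrix_apply, h, map_smul, Module.Basis.repr_self,
              Finsupp.smul_single, smul_eq_mul, mul_one, Matrix.diagonal_apply,
              Finsupp.single_apply]
            by_cases hij : i = j
            · subst hij; simp
            · simp [hij, Ne.symm hij], Matrix.det_diagonal]
      have hker := Abelianization.commutator_subset_ker
        ((LinearMap.det.comp ρ).toHomUnits)
      rw [hperf] at hker
      have h1 := congrArg Units.val (MonoidHom.mem_ker.1 (hker (Subgroup.mem_top v)))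
      rw [← hdet]
      exact h1
    -- so all eigenvalues are trivial
    have hall : ∀ i, μ i = 1 := by
      by_contra hne
      push Not at hne
      obtain ⟨i, hi⟩ := hne
      set S := Finset.univ.filter fun j => μ j = μ i with hS
      have hSp : p ∣ S.card := hmult _ (hμ i) hi
      have hS0 : i ∈ S := by simp [hS]
      have hSp' : p ≤ S.card := Nat.le_of_dvd (Finset.card_pos.2 ⟨i, hS0⟩) hSp
      have hrest : ∀ j, j ∉ S → μ j = 1 := by
        intro j hj
        by_contra hj1
        set T := Finset.univ.filter fun l => μ l = μ j with hT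
        have hTp : p ≤ T.card := Nat.le_of_dvd (Finset.card_pos.2 ⟨j, by simp [hT]⟩)
          (hmult _ (hμ j) hj1)
        have hdisj : Disjoint S T := Finset.disjoint_left.2 fun l hl hl' => by
          simp only [hS, hT, Finset.mem_filter, Finset.mem_univ, true_and] at hl hl' hj
          exact hj (by rw [← hl', hl])
        have h := (Finset.card_union_of_disjoint hdisj).symm.le.trans (Finset.card_le_univ _)
        have hc' := (Fintype.card_fin (Module.finrank ℂ (Fin n → ℂ))).trans hdeg1.symm
        omega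
      have hScard : S.card = p := by
        obtain ⟨c, hc⟩ := hSp
        have h : S.card ≤ _ := Finset.card_le_univ _
        have hc' := (Fintype.card_fin (Module.finrank ℂ (Fin n → ℂ))).trans hdeg1.symm
        have h2 : p * c < p * 2 := by rw [← hc]; omega
        have h3 : c < 2 := Nat.lt_of_mul_lt_mul_left h2
        interval_cases c
        · omega
        · omega
      have h1 : μ i ^ p = 1 := by
        rw [← hprod, ← Finset.prod_subset (Finset.subset_univ S) fun j _ hj => hrest j hj,
          Finset.prod_congr rfl fun j hj => (Finset.mem_filter.1 hj).2, Finset.prod_const, hScard]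
      have h2 := Nat.eq_one_of_dvd_coprimes ((hp.coprime_iff_not_dvd).2 hvp)
        (orderOf_dvd_of_pow_eq_one h1) (orderOf_dvd_of_pow_eq_one (hμ i))
      exact hi (orderOf_eq_one_iff.1 h2)
    refine hfaith v ?_
    have h := hch 1
    rw [pow_one, hρ] at h
    rw [h, hn1, Finset.sum_congr rfl fun i _ => by rw [hall i, one_pow]]
    simp
  intro g
  obtain ⟨k, m, hm, hkm⟩ := Nat.exists_eq_pow_mul_and_not_dvd (orderOf_pos (g : G)).ne' p hp.ne_one
  refine ⟨k, Subtype.ext ?_⟩
  rw [Subgroup.coe_pow, Subgroup.coe_one]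
  refine key _ (pow_mem g.2 _) ?_
  rw [orderOf_pow' _ (pow_ne_zero k hp.ne_zero), hkm, Nat.gcd_mul_right_left,
    Nat.mul_div_cancel_left _ (pow_pos hp.pos k)]
  exact hm

end Cfsg.Agent.S4729
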