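import Cfsg.Statements.S4730
import Cfsg.Agent.Lib.Block.Osima
import Cfsg.Agent.Lib.Char.Scalar
import Cfsg.Agent.Lib.Char.Burnside
import Cfsg.Agent.Lib.CharTools.ClassMult

set_option autoImplicit false
open Cfsg

namespace Cfsg.Agent.S4730

/-- Let p be a prime, M a maximal ideal of the algebraic integers containing p, and G a finite group with trivial centre, Sylow p-subgroup P of order p^a and centre Z(P) of order p^b. If χ is a faithful irreducible character of G whose degree is a power of p, then the p-block of χ has defect at most a − b; in particular, if P is abelian then χ lies in a block of defect zero. -/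
theorem result {G : Type*} [Group G] [Finite G] (p : ℕ) [Fact p.Prime] (M : Ideal Cfsg.AlgInt) (hM : Cfsg.IsPModular p M) (hZ : Subgroup.center G = ⊥) (P : Sylow p G) (a b : ℕ) (ha : Nat.card P = p ^ a) (hb : Nat.card (Subgroup.center ↥(P : Subgroup G)) = p ^ b) (χ : Cfsg.IrrCharacter G) (hfaith : ∀ g : G, (χ : G → ℂ) g = (χ : G → ℂ) 1 → g = 1) (n : ℕ) (hdeg : Cfsg.charDegree (χ : G → ℂ) = p ^ n) : Cfsg.blockDefect p (Cfsg.blockOf M (χ : G → ℂ)) ≤ a - b ∧ (IsMulCommutative ↥(P : Subgroup G) → Cfsg.blockDefect p (Cfsg.blockOf M (χ : G → ℂ)) = 0) := by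
  classical
  have := Fintype.ofFinite G
  have := hM.2.1.isPrime
  have hp : p.Prime := Fact.out
  have hc := Lib.Char.isCharacter_of_isIrr χ.2
  have hfa : (Nat.card G).factorization p = a := by
    have := P.card_eq_multiplicity
    rw [ha] at this
    exact (Nat.pow_right_injective hp.two_le this).symm
  set B := Cfsg.blockOf M (χ : G → ℂ)
  set Z := (Subgroup.center ↥(P : Subgroup G)).map (P : Subgroup G).subtype
  have hZc : Nat.card Z = p ^ b := by
    rw [Nat.card_congr (Subgroup.equivMapOfInjective _ _ (Subgroup.subtype_injective _)).toEquiv.symm, hb]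
  -- `χ` vanishes on the nontrivial elements of `Z`
  have hcent : ∀ z ∈ Z, ¬ p ∣ (Subgroup.centralizer ({z} : Set G)).index := by
    intro z hz hd
    obtain ⟨w, hw, rfl⟩ := hz
    have hle : (P : Subgroup G) ≤ Subgroup.centralizer ({(w : G)} : Set G) := by
      intro x hx
      rw [Subgroup.mem_centralizer_singleton_iff]
      exact congrArg Subtype.val (Subgroup.mem_center_iff.mp hw ⟨x, hx⟩)
    exact P.not_dvd_index (hd.trans (Subgroup.index_dvd_of_le hle))
  have hvan : ∀ z ∈ Z, z ≠ 1 → (χ : G → ℂ) z = 0 := by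
    intro z hz hz1
    refine (Lib.Char.char_eq_zero_or_norm_eq χ.2 (n := p ^ n)
      (by rw [Lib.Char.apply_one_eq_charDegree hc, hdeg]) z
      (Nat.Coprime.pow_left n (hp.coprime_iff_not_dvd.mpr (hcent z hz)))).resolve_right fun hn => ?_
    have hn1 : (χ : G → ℂ) 1 = ((p ^ n : ℕ) : ℂ) := by rw [Lib.Char.apply_one_eq_charDegree hc, hdeg]
    have hnorm : ‖(χ : G → ℂ) z‖ = ‖(χ : G → ℂ) 1‖ := by rw [hn, hn1, Complex.norm_natCast]
    apply hz1
    have hzc : z ∈ Subgroup.center G := by
      rw [Subgroup.mem_center_iff]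
      intro g
      have h1 := (Lib.Char.apply_mul_of_norm_eq hc hnorm (g * z⁻¹ * g⁻¹)).1
      rw [Lib.Char.isClassFunction_of_isCharacter hc z⁻¹ g, Lib.Char.char_inv hc z,
        Complex.mul_conj, Complex.normSq_eq_norm_sq, hnorm, hn1, Complex.norm_natCast] at h1
      have h2 : (χ : G → ℂ) (z * (g * z⁻¹ * g⁻¹)) = (χ : G → ℂ) 1 := by
        rw [hn1]
        refine mul_right_cancel₀ (b := ((p ^ n : ℕ) : ℂ))
          (Nat.cast_ne_zero.mpr (pow_pos hp.pos n).ne') ?_
        rw [h1]
        push_cast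
        ring
      have h3 := hfaith _ h2
      calc g * z = 1 * (g * z) := (one_mul _).symm
        _ = z * (g * z⁻¹ * g⁻¹) * (g * z) := by rw [h3]
        _ = z * g := by group
    rw [hZ] at hzc
    exact Subgroup.mem_bot.mp hzc
  -- every member of the block has degree divisible by `p ^ b`
  have hkey : ∀ ψ ∈ B, b ≤ (Cfsg.charDegree (ψ : G → ℂ)).factorization p := by
    intro ψ hψ
    have hψc := Lib.Char.isCharacter_of_isIrr ψ.2
    have hval : ∀ z ∈ Z, z ≠ 1 →
        (ψ : G → ℂ) z / (ψ : G → ℂ) 1 ∈ Lib.Block.locRing M ∧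
          Lib.Block.redC M ((ψ : G → ℂ) z / (ψ : G → ℂ) 1) = 0 := by
      intro z hz hz1
      have hi := Lib.Block.inv_natCast_mem_locRing hM (hcent z hz)
      have he : (ψ : G → ℂ) z / (ψ : G → ℂ) 1 =
          ((Subgroup.centralizer ({z} : Set G)).index : ℂ)⁻¹ * Cfsg.centralChar (ψ : G → ℂ) z := by
        rw [Cfsg.centralChar, mul_div_assoc, ← mul_assoc, inv_mul_cancel₀, one_mul]
        exact Nat.cast_ne_zero.mpr Subgroup.index_ne_zero_of_finite
      have h0 : Lib.Block.redC M (Cfsg.centralChar (ψ : G → ℂ) z) = 0 := by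
        rw [← Lib.Block.sameBlock_iff.1 hψ z, Cfsg.centralChar, hvan z hz hz1, mul_zero, zero_div,
          Lib.Block.redC_zero]
      rw [he]
      refine ⟨mul_mem hi (Lib.Block.centralChar_mem_locRing ψ z), ?_⟩
      rw [Lib.Block.redC_mul hi (Lib.Block.centralChar_mem_locRing ψ z), h0, mul_zero]
    obtain ⟨t, ht⟩ := Lib.CharTools.exists_nat_sum_subgroup hψc Z
    by_contra hlt
    obtain ⟨m, u, hu, hdu⟩ :=
      Nat.exists_eq_pow_mul_and_not_dvd (Lib.Block.charDegree_pos ψ).ne' p hp.ne_one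
    have hfac : (Cfsg.charDegree (ψ : G → ℂ)).factorization p = m := by
      rw [hdu, Nat.factorization_mul (pow_pos hp.pos m).ne' (fun h => hu (by rw [h]; exact dvd_zero p)),
        Finsupp.add_apply, hp.factorization_pow, Finsupp.single_eq_same,
        Nat.factorization_eq_zero_of_not_dvd hu, add_zero]
    rw [hfac] at hlt
    obtain ⟨k, hk⟩ := Nat.exists_eq_add_of_lt (not_le.mp hlt)
    have hone : (1 : G) ∈ Finset.univ.filter (· ∈ Z) := by simp
    have hterm : ∀ z ∈ (Finset.univ.filter (· ∈ Z)).erase 1,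
        (ψ : G → ℂ) z / (ψ : G → ℂ) 1 ∈ Lib.Block.locRing M ∧
          Lib.Block.redC M ((ψ : G → ℂ) z / (ψ : G → ℂ) 1) = 0 := by
      intro z hz
      rw [Finset.mem_erase, Finset.mem_filter] at hz
      exact hval z hz.2.2 hz.1
    have hrhs : (∑ z ∈ Finset.univ.filter (· ∈ Z), (ψ : G → ℂ) z) / (ψ : G → ℂ) 1 =
        ((p : ℕ) : ℂ) * ((((p ^ k * t : ℕ) : ℂ)) * ((u : ℂ))⁻¹) := by
      rw [ht, hZc, Lib.Char.apply_one_eq_charDegree hψc, hdu, hk]
      have : (u : ℂ) ≠ 0 := Nat.cast_ne_zero.mpr fun h => hu (by rw [h]; exact dvd_zero p)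
      have : (p : ℂ) ≠ 0 := Nat.cast_ne_zero.mpr hp.ne_zero
      push_cast
      field_simp
      ring
    have hR : ((p ^ k * t : ℕ) : ℂ) * (u : ℂ)⁻¹ ∈ Lib.Block.locRing M :=
      mul_mem (Lib.Block.integral_mem_locRing (isIntegral_natCast _))
        (Lib.Block.inv_natCast_mem_locRing hM hu)
    have h0 : Lib.Block.redC M ((∑ z ∈ Finset.univ.filter (· ∈ Z), (ψ : G → ℂ) z) / (ψ : G → ℂ) 1)
        = 0 := by
      rw [hrhs, Lib.Block.redC_mul (Lib.Block.integral_mem_locRing (isIntegral_natCast _)) hR,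
        Lib.Block.redC_eq_zero_of_memLocalIdeal (Lib.Block.natCast_mem_of_dvd hM (dvd_refl p)),
        zero_mul]
    rw [← Finset.add_sum_erase _ _ hone, add_div, div_self (Lib.Block.deg_ne_zero ψ), Finset.sum_div,
      Lib.Block.redC_add (one_mem _) (sum_mem fun z hz => (hterm z hz).1),
      Lib.Block.redC_one, Lib.Block.redC_sum _ fun z hz => (hterm z hz).1,
      Finset.sum_eq_zero fun z hz => (hterm z hz).2, add_zero] at h0
    exact one_ne_zero h0
  have hle : Cfsg.blockDefect p B ≤ a - b := by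
    rw [Cfsg.blockDefect, hfa]
    refine Nat.sub_le_sub_left (le_csInf (Set.Nonempty.image _ ⟨χ, Lib.Block.mem_blockOf_self χ⟩) ?_) _
    rintro _ ⟨ψ, hψ, rfl⟩
    exact hkey ψ hψ
  refine ⟨hle, fun hab => ?_⟩
  have : Subgroup.center ↥(P : Subgroup G) = ⊤ := by
    rw [eq_top_iff]
    intro x _
    rw [Subgroup.mem_center_iff]
    exact fun y => hab.is_comm.comm y x
  rw [this, Subgroup.card_top] at hb
  have : a = b := Nat.pow_right_injective hp.two_le (ha.symm.trans hb)
  omega

end Cfsg.Agent.S4730
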