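import Cfsg.Statements.S4731
import Cfsg.Agent.Lib.Block.RegProj

set_option autoImplicit false
open Cfsg

namespace Cfsg.Agent.S4731

open scoped ComplexConjugate in
open Lib.Block in
theorem pair_zero_of_singular {G : Type*} [Group G] [Finite G] {q : ℕ} {M : Ideal Cfsg.AlgInt}
    [M.IsPrime] (hM : Cfsg.IsPModular q M) {B : Set (Cfsg.IrrCharacter G)}
    (hB : Cfsg.IsPBlock M B) {z : G} (hz : q ∣ orderOf z) {f : G → ℂ}
    (hf : Cfsg.IsClassFunction G f) (h0 : ∀ w : G, q ∣ orderOf w → f w = 0) :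
    pair f (eIdem B * MonoidAlgebra.single z 1) = 0 := by
  classical
  haveI := Fintype.ofFinite G
  -- expand `f` along its values on the regular elements
  have hexp : f = ∑ φ : Cfsg.IrrCharacter G,
      Cfsg.classInner f (φ : G → ℂ) • Cfsg.pRegularPart q (φ : G → ℂ) := by
    funext w
    have h := congrFun (Lib.Char.eq_sum_classInner_smul hf) w
    rw [Finset.sum_apply] at h ⊢
    by_cases hw : q ∣ orderOf w
    · rw [h0 w hw]
      exact (Finset.sum_eq_zero fun φ _ => by simp [pRegularPart_apply, hw]).symm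
    · rw [h]
      exact Finset.sum_congr rfl fun φ _ => by simp [pRegularPart_apply, hw]
  have hφ : ∀ φ : Cfsg.IrrCharacter G,
      pair (Cfsg.pRegularPart q (φ : G → ℂ)) (eIdem B * MonoidAlgebra.single z 1) = 0 := by
    intro φ
    rw [← sum_blockCoeff_mul_eq_pair, ← blockPart_eq_sum B (isClassFunction_pRegularPart q
      (Lib.Char.isClassFunction_of_isIrr φ.2)), blockPart_apply]
    by_cases hφB : φ ∈ B
    · have h := congrFun (pRegularPart_eq_sum hM hB hφB) z
      rw [pRegularPart_apply, if_pos hz, Finset.sum_apply] at h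
      refine Eq.trans (Finset.sum_congr rfl fun χ _ => ?_) h.symm
      rw [← regInner_eq_classInner]
      split_ifs <;> simp
    · refine Finset.sum_eq_zero fun χ _ => ?_
      split_ifs with hχ
      · rw [← regInner_eq_classInner, regInner_eq_zero hM fun hs =>
          hφB ((mem_iff_sameBlock hB hχ).2 (sameBlock_symm hs)), zero_mul]
      · rfl
  rw [hexp, pair_eq_sum]
  simp only [Finset.sum_apply, Pi.smul_apply, smul_eq_mul, Finset.mul_sum]
  rw [Finset.sum_comm]
  refine Finset.sum_eq_zero fun φ _ => ?_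
  rw [Finset.sum_congr rfl fun x _ => mul_left_comm _ _ _, ← Finset.mul_sum, ← pair_eq_sum, hφ,
    mul_zero]

/-- Let p ≠ q be primes, M_p and M_q maximal ideals of the algebraic integers containing p and q respectively, and G a finite group with no element of order pq; let q^b be the q-part of the order of G. For a p-block B_p (relative to M_p), a q-block B_q (relative to M_q) and a p-singular element y, the sum of χ(1)χ(y) over the irreducible characters χ lying in both B_p and B_q is q^b times an algebraic integer. -/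
theorem result {G : Type*} [Group G] [Finite G] (p q : ℕ) [Fact p.Prime] [Fact q.Prime] (hpq : p ≠ q) (Mp Mq : Ideal Cfsg.AlgInt) (hMp : Cfsg.IsPModular p Mp) (hMq : Cfsg.IsPModular q Mq) (hno : ∀ g : G, orderOf g ≠ p * q) (b : ℕ) (hb : (Nat.card G).factorization q = b) (Bp : Set (Cfsg.IrrCharacter G)) (hBp : Cfsg.IsPBlock Mp Bp) (Bq : Set (Cfsg.IrrCharacter G)) (hBq : Cfsg.IsPBlock Mq Bq) (y : G) (hy : p ∣ orderOf y) : ∃ ω : Cfsg.AlgInt, ∑ᶠ χ ∈ Bp ∩ Bq, (Cfsg.charDegree (χ : G → ℂ) : ℂ) * (χ : G → ℂ) y = (q : ℂ) ^ b * (ω : ℂ) := by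
  classical
  haveI : Mp.IsPrime := hMp.2.1.isPrime
  haveI : Mq.IsPrime := hMq.2.1.isPrime
  haveI := Fintype.ofFinite G
  have hp : p.Prime := hMp.1
  have hq : q.Prime := hMq.1
  set f : G → ℂ := ∑ χ : Cfsg.IrrCharacter G,
    (if χ ∈ Bp then (χ : G → ℂ) y else 0) • (χ : G → ℂ) with hf
  have hfc : Cfsg.IsClassFunction G f := Lib.Char.isClassFunction_sum _ _ fun χ _ =>
    Lib.Char.isClassFunction_smul _ (Lib.Char.isClassFunction_of_isIrr χ.2)
  have hzero : ∀ z : G, q ∣ orderOf z → f z = 0 := by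
    intro z hz
    have hzp : ¬ p ∣ orderOf z := by
      intro h
      have hd : p * q ∣ orderOf z :=
        Nat.Coprime.mul_dvd_of_dvd_of_dvd ((Nat.coprime_primes hp hq).2 hpq) h hz
      refine hno (z ^ (orderOf z / (p * q))) ?_
      rw [orderOf_pow_of_dvd (Nat.div_pos (Nat.le_of_dvd (orderOf_pos z) hd)
        (Nat.mul_pos hp.pos hq.pos)).ne' (Nat.div_dvd_of_dvd hd),
        Nat.div_div_self hd (orderOf_pos z).ne']
    have hy' : p ∣ orderOf y⁻¹ := by rwa [orderOf_inv]
    have h := Lib.Block.weak_orthogonality (B := Bp) hMp hBp hzp hy'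
    simp only [hf, Finset.sum_apply, Pi.smul_apply, smul_eq_mul]
    refine Eq.trans (Finset.sum_congr rfl fun χ _ => ?_) h
    rw [Lib.Char.char_inv (Lib.Char.isCharacter_of_isIrr χ.2)]
    split_ifs <;> simp [mul_comm]
  -- the part in the `q`-block
  set g : G → ℂ := Cfsg.blockPart Bq f with hg
  have hgval : ∀ z, g z = ∑ χ : Cfsg.IrrCharacter G,
      if χ ∈ Bp ∧ χ ∈ Bq then (χ : G → ℂ) y * (χ : G → ℂ) z else 0 := by
    intro z
    rw [hg, Lib.Block.blockPart_apply]
    refine Finset.sum_congr rfl fun χ _ => ?_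
    have hc : Cfsg.classInner f (χ : G → ℂ) = if χ ∈ Bp then (χ : G → ℂ) y else 0 := by
      rw [hf, Lib.Char.classInner_sum_left, Finset.sum_eq_single χ]
      · rw [Lib.Char.classInner_smul_left, Lib.Char.classInner_irr_self χ.2, mul_one]
      · intro ψ _ hne
        rw [Lib.Char.classInner_smul_left,
          Lib.Char.classInner_irr_ne ψ.2 χ.2 (fun e => hne (Subtype.ext e)), mul_zero]
      · simp
    rw [hc]
    by_cases h1 : χ ∈ Bp <;> by_cases h2 : χ ∈ Bq <;> simp [h1, h2]
  have hgz : ∀ z : G, q ∣ orderOf z → g z = 0 := by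
    intro z hz
    rw [hg, Lib.Block.blockPart_eq_sum Bq hfc, Lib.Block.sum_blockCoeff_mul_eq_pair]
    exact pair_zero_of_singular hMq hBq hz hfc hzero
  obtain ⟨S⟩ := (inferInstance : Nonempty (Sylow q G))
  haveI := Fintype.ofFinite (S : Subgroup G)
  have hS : Nat.card (S : Subgroup G) = q ^ b := by rw [Sylow.card_eq_multiplicity, hb]
  have hint : IsIntegral ℤ ((Nat.card (S : Subgroup G) : ℂ)⁻¹ * ∑ s : (S : Subgroup G), g s) := by
    have e : (Nat.card (S : Subgroup G) : ℂ)⁻¹ * ∑ s : (S : Subgroup G), g s =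
        ∑ χ : Cfsg.IrrCharacter G, if χ ∈ Bp ∧ χ ∈ Bq then (χ : G → ℂ) y *
          ((Nat.card (S : Subgroup G) : ℂ)⁻¹ * ∑ s : (S : Subgroup G), (χ : G → ℂ) (1 * s)) else 0 := by
      simp only [hgval, one_mul, Finset.mul_sum]
      rw [Finset.sum_comm]
      refine Finset.sum_congr rfl fun χ _ => ?_
      split_ifs
      · exact Finset.sum_congr rfl fun s _ => by ring
      · simp
    rw [e]
    refine IsIntegral.sum _ fun χ _ => ?_
    split_ifs
    · exact (Lib.Char.char_isIntegral (Lib.Char.isCharacter_of_isIrr χ.2) y).mul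
        (Lib.Block.isIntegral_average (Lib.Char.isCharacter_of_isIrr χ.2)
          fun s _ => Commute.one_left s)
    · exact isIntegral_zero
  have hsum : ∑ s : (S : Subgroup G), g s = g 1 := by
    rw [Finset.sum_eq_single (1 : (S : Subgroup G))]
    · rfl
    · intro s _ hs1
      obtain ⟨k, hk⟩ := Lib.Block.isPElem_of_mem S.2 s.2
      refine hgz _ ?_
      rcases Nat.eq_zero_or_pos k with rfl | hk0
      · exact absurd (Subtype.ext (orderOf_eq_one_iff.1 (by simpa using hk))) hs1
      · exact hk ▸ dvd_pow_self q hk0.ne'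
    · simp
  rw [hsum] at hint
  refine ⟨⟨_, hint⟩, ?_⟩
  show _ = (q : ℂ) ^ b * ((Nat.card (S : Subgroup G) : ℂ)⁻¹ * g 1)
  rw [hS, Nat.cast_pow, ← mul_assoc, mul_inv_cancel₀ (pow_ne_zero _ (Nat.cast_ne_zero.2 hq.ne_zero)),
    one_mul, hgval, Lib.Block.finsum_mem_eq_sum_ite]
  refine Finset.sum_congr rfl fun χ _ => ?_
  rw [Lib.Block.irr_one_eq_natCast χ]
  by_cases h : χ ∈ Bp ∩ Bq
  · rw [if_pos h, if_pos (show χ ∈ Bp ∧ χ ∈ Bq from h), mul_comm]
  · rw [if_neg h, if_neg (show ¬(χ ∈ Bp ∧ χ ∈ Bq) from h)]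

end Cfsg.Agent.S4731
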