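import Cfsg.Statements.S4732
import Cfsg.Agent.Lib.ModJordan.Linear
import Mathlib.FieldTheory.IsAlgClosed.AlgebraicClosure
import Mathlib.Algebra.CharP.Algebra

set_option autoImplicit false
universe u v
open Cfsg Cfsg.Agent.Lib.ModJordan

namespace Cfsg.Agent.S4732

/-- Let p be a prime. There is a function f of two natural-number arguments such that every finite group G admitting a faithful representation of degree n over a field of characteristic p, with Sylow p-subgroups of order p^m, has a normal abelian subgroup A with [G : A] < f(m, n). -/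
theorem result (p : ℕ) [Fact p.Prime] : ∃ f : ℕ → ℕ → ℕ, ∀ (G : Type u) [Group G] [Finite G] (F : Type v) [Field F] [CharP F p] (n : ℕ) (ρ : Representation F G (Fin n → F)), Function.Injective ρ → ∀ m : ℕ, (Nat.card G).factorization p = m → ∃ A : Subgroup G, A.Normal ∧ IsMulCommutative A ∧ A.index < f m n := by
  classical
  refine ⟨fun m n => (linBound p m n).factorial + 1, fun G _ _ F _ _ n ρ hρ m hm => ?_⟩
  haveI : CharP (AlgebraicClosure F) p :=
    charP_of_injective_algebraMap (algebraMap F (AlgebraicClosure F)).injective p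
  let ι := algebraMap F (AlgebraicClosure F)
  let μ : G →* Matrix (Fin n) (Fin n) (AlgebraicClosure F) :=
    (ι.mapMatrix.toMonoidHom).comp
      ((LinearMap.toMatrixAlgEquiv (Pi.basisFun F (Fin n))).toAlgHom.toMonoidHom.comp ρ)
  let σ : Representation (AlgebraicClosure F) G (Fin n → AlgebraicClosure F) :=
    (Matrix.toLinAlgEquiv (Pi.basisFun (AlgebraicClosure F) (Fin n))).toAlgHom.toMonoidHom.comp μ
  have hσ : Function.Injective σ := fun a b h => hρ <|
    (LinearMap.toMatrixAlgEquiv (Pi.basisFun F (Fin n))).injective
      (Matrix.map_injective ι.injective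
        ((Matrix.toLinAlgEquiv (Pi.basisFun (AlgebraicClosure F) (Fin n))).injective h))
  obtain ⟨A, hA, hidx⟩ := linJordan (p := p) (m := m) n G (Fin n → AlgebraicClosure F) σ hσ
    (Module.finrank_fin_fun (AlgebraicClosure F)).le hm.le
  refine ⟨A.normalCore, Subgroup.normalCore_normal A,
    ⟨⟨fun a b => Subtype.ext (hA a (A.normalCore_le a.2) b (A.normalCore_le b.2))⟩⟩, ?_⟩
  haveI : Fintype (G ⧸ A) := Fintype.ofFinite _
  have h1 : A.normalCore.index ≤ (linBound p m n).factorial := by
    rw [Subgroup.normalCore_eq_ker, Subgroup.index_ker]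
    refine (Nat.card_le_card_of_injective _ Subtype.val_injective).trans ?_
    rw [Nat.card_eq_fintype_card, Fintype.card_perm, ← Nat.card_eq_fintype_card, ← Subgroup.index_eq_card]
    exact Nat.factorial_le hidx
  exact Nat.lt_succ_of_le h1

end Cfsg.Agent.S4732
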