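import Cfsg.Statements.S4734
import Cfsg.Agent.Lib.BrauerPairs.KernelCore

set_option autoImplicit false
open Cfsg Cfsg.Agent.Lib.Block Cfsg.Agent.Lib.BrauerPairs

namespace Cfsg.Agent.S4734

/-- Let p be a prime, π a set of primes containing p, M a maximal ideal of the algebraic integers containing p, B a p-block of the finite group G with defect group D, and B₁ the block of N_G(D) with defect group D inducing B. Write O_π'(X) for the largest normal subgroup of X whose order has no prime divisor in π, and suppose every element of O_π'(N_G(D)) lies in the kernel of every member of B₁. Let G₀ be a subgroup and B₀ a block of G₀ with defect group D₀ such that C_G(D₀) ≤ G₀ and B₀ induces B. Then every element of O_π'(G₀) lies in the kernel of every member of B₀. -/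
theorem result {G : Type*} [Group G] [Finite G] (p : ℕ) [Fact p.Prime] (M : Ideal Cfsg.AlgInt) (hM : Cfsg.IsPModular p M) (π : Set ℕ) (hpπ : p ∈ π) (B : Set (Cfsg.IrrCharacter G)) (hB : Cfsg.IsPBlock M B) (D : Subgroup G) (hBD : Cfsg.IsDefectGroup p M B D) (B₁ : Set (Cfsg.IrrCharacter ↥(Subgroup.normalizer (D : Set G)))) (hB₁ : Cfsg.IsInducedBlock M (Subgroup.normalizer (D : Set G)) B₁ B) (hB₁D : Cfsg.IsDefectGroup p M B₁ (D.subgroupOf (Subgroup.normalizer (D : Set G)))) (hker : ∀ n : ↥(Subgroup.normalizer (D : Set G)), n ∈ Cfsg.piCore {q | q ∉ π} ↥(Subgroup.normalizer (D : Set G)) → n ∈ Cfsg.blockKer B₁) (G₀ : Subgroup G) (B₀ : Set (Cfsg.IrrCharacter ↥G₀)) (hB₀ : Cfsg.IsInducedBlock M G₀ B₀ B) (D₀ : Subgroup ↥G₀) (hD₀ : Cfsg.IsDefectGroup p M B₀ D₀) (hC : Subgroup.centralizer ((D₀.map G₀.subtype : Subgroup G) : Set G) ≤ G₀) : ∀ x : ↥G₀, x ∈ Cfsg.piCore {q | q ∉ π} ↥G₀ → x ∈ Cfsg.blockKer B₀ := by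
  classical
  haveI := hM.2.1
  obtain ⟨hb₀, -, -⟩ := id hB₀
  obtain ⟨f₀, hf₀⟩ := exists_pair_on_defect hM hb₀ hD₀
  obtain ⟨hD₀p, hf₀b, -, ho₀⟩ := (isBrauerPairOf_iff hM).1 hf₀
  obtain ⟨f, hf, hfe⟩ := exists_push hC hf₀b
  obtain ⟨ξ, hξ⟩ := isPBlock_nonempty hf₀b
  obtain ⟨ζ, hζ⟩ := isPBlock_nonempty hb₀
  obtain ⟨χ, hχ⟩ := isPBlock_nonempty hB
  set z := toSub G₀ (bar M B) with hz
  have hzc : IsClassCoeff z := isClassCoeff_toSub (isClassCoeff_bar B)
  have hzlam : lam M ζ z = 1 := by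
    rw [hz, bar, show toSub G₀ (toF M (eIdem B)) = toF M (toSub G₀ (eIdem B)) from
        alg_ext fun x => by simp [toSub],
      lam_toF ζ (isClassCoeff_toSub (isClassCoeff_eIdem B)) (intR_toSub (intR_eIdem hB)),
      redC_omega_toSub_eq hB₀ hζ hχ (isClassCoeff_eIdem B) (intR_eIdem hB), omega_eIdem,
      if_pos hχ, redC_one]
  have hbrz : br (D₀.map G₀.subtype) (emb G₀ z) = br (D₀.map G₀.subtype) (bar M B) := by
    rw [hz, emb_toSub]
    refine alg_ext fun x => ?_
    by_cases hx : x ∈ Subgroup.centralizer (D₀.map G₀.subtype : Set G)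
    · rw [coeff_br_of_mem _ hx, coeff_br_of_mem _ hx,
        coeff_restr_of_mem (SetLike.mem_coe.2 (hC hx))]
    · rw [coeff_br_of_not_mem _ hx, coeff_br_of_not_mem _ hx]
  have hzi : IsIdempotentElem (toSub (Subgroup.centralizer (D₀ : Set G₀)) z) := by
    refine emb_injective (M := M) _ (emb_injective (M := M) G₀ ?_)
    rw [map_mul, map_mul, ← br_eq_emb, ← br_emb, hbrz]
    exact (good_bar hB _).br_idem hM (hD₀p.map _)
  have hl := lam_pair hM hf₀ hζ hξ hzc
  rw [hzlam] at hl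
  have hoz : Occ D₀ f₀ z := by
    rw [Occ, br_eq_emb, pbar, ← map_mul,
      (lam_eq_one_iff hf₀b hξ (isClassCoeff_toSub hzc) hzi).1 hl]
  have hpair : IsBrauerPairOf p M B (D₀.map G₀.subtype) f := by
    refine (isBrauerPairOf_iff hM).2 ⟨hD₀p.map _, hf, hB, ?_⟩
    have h := (occ_push hfe z).2 hoz
    rwa [Occ, hbrz] at h
  exact mem_blockKer_of_kerCore hM hpπ hb₀ (hD₀p.map _) (Subgroup.map_subtype_le D₀) hC hf
    ((occ_push hfe _).2 ho₀) (kerCore_of_pair hM hpπ hBD hB₁ hB₁D hker hpair)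

end Cfsg.Agent.S4734
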