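import Cfsg.Statements.S4735
import Cfsg.Agent.Lib.Block.Principal
import Cfsg.Agent.Lib.Block.Normal
import Cfsg.Agent.Lib.CharGalois
import Cfsg.Agent.Lib.CharKernel
import Cfsg.Agent.Lib.Hall.Basic

set_option autoImplicit false
open Cfsg

namespace Cfsg.Agent.S4735

theorem mem_iff_regSum {p : ℕ} {M : Ideal AlgInt} [M.IsPrime] {G : Type*} [Group G] [Finite G]
    (hM : IsPModular p M) (χ : IrrCharacter G) :
    χ ∈ principalBlock M G ↔
      Lib.Block.omega (χ : G → ℂ) (Lib.Block.regSum p G) ≠ 0 := by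
  refine ⟨fun h h0 => Lib.Block.redC_omega_regSum_of_mem hM h (by rw [h0, Lib.Block.redC_zero]),
    fun h => ?_⟩
  by_contra hn
  exact h (Lib.Block.omega_regSum_eq_zero hM hn)

theorem omega_regSum_inflate {p : ℕ} {G : Type*} [Group G] [Finite G] (hp : p.Prime)
    (H : Subgroup G) [H.Normal] (hH : ¬ p ∣ Nat.card H) (η : IrrCharacter (G ⧸ H)) :
    Lib.Block.omega ((Lib.CharKernel.inflateEquiv H η).1 : G → ℂ) (Lib.Block.regSum p G) =
      (Nat.card H : ℂ) * Lib.Block.omega (η : G ⧸ H → ℂ) (Lib.Block.regSum p (G ⧸ H)) := by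
  classical
  haveI := Fintype.ofFinite G
  haveI := Fintype.ofFinite (G ⧸ H)
  haveI := Fintype.ofFinite H
  have hreg : ∀ g : G, p ∣ orderOf g ↔ p ∣ orderOf (g : G ⧸ H) := by
    intro g
    refine ⟨fun h => ?_, fun h => h.trans (orderOf_map_dvd (QuotientGroup.mk' H) g)⟩
    have h1 : g ^ (orderOf (g : G ⧸ H) * Nat.card H) = 1 := by
      rw [pow_mul]
      have hm : g ^ orderOf (g : G ⧸ H) ∈ H := by
        rw [← QuotientGroup.eq_one_iff, QuotientGroup.mk_pow, pow_orderOf_eq_one]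
      exact congrArg Subtype.val (pow_card_eq_one' (x := (⟨_, hm⟩ : H)))
    exact ((Nat.Prime.dvd_mul hp).1 (h.trans (orderOf_dvd_of_pow_eq_one h1))).resolve_right hH
  rw [Lib.Block.omega_eq_sum, Lib.Block.omega_eq_sum, ← mul_div_assoc]
  congr 1
  simp only [Lib.Block.coeff_regSum, Lib.CharKernel.inflateEquiv_apply, hreg, Finset.mul_sum]
  rw [← Finset.sum_fiberwise (Finset.univ : Finset G) (fun g : G => (g : G ⧸ H))]
  refine Finset.sum_congr rfl fun q _ => ?_
  rw [Finset.sum_congr rfl (g := fun _ => (if p ∣ orderOf q then (0 : ℂ) else 1) * (η : G ⧸ H → ℂ) q)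
    fun g hg => by rw [(Finset.mem_filter.1 hg).2], Finset.sum_const, nsmul_eq_mul]
  congr 1
  obtain ⟨g, rfl⟩ := QuotientGroup.mk_surjective q
  norm_cast
  rw [Nat.card_eq_fintype_card, ← Finset.card_univ]
  refine Finset.card_bij' (fun x hx => (⟨g⁻¹ * x, QuotientGroup.eq.1 (Finset.mem_filter.1 hx).2.symm⟩ : H))
    (fun h _ => g * h) (fun _ _ => Finset.mem_univ _) (fun h _ => ?_) (fun x _ => by simp)
    (fun h _ => Subtype.ext (by simp))
  exact Finset.mem_filter.2 ⟨Finset.mem_univ _, QuotientGroup.mk_mul_of_mem g h.2⟩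

theorem finsum_principalBlock_quotient {p : ℕ} {M : Ideal AlgInt} [M.IsPrime] {G : Type*} [Group G]
    [Finite G] (hM : IsPModular p M) (H : Subgroup G) [H.Normal] (hH : ¬ p ∣ Nat.card H)
    {A : Type*} [AddCommMonoid A] (f : (G → ℂ) → A) :
    ∑ᶠ χ ∈ principalBlock M G, f (χ : G → ℂ) =
      ∑ᶠ η ∈ principalBlock M (G ⧸ H), f (fun g => (η : G ⧸ H → ℂ) (g : G ⧸ H)) := by
  classical
  haveI := Fintype.ofFinite H
  have hmem : ∀ η : IrrCharacter (G ⧸ H), (Lib.CharKernel.inflateEquiv H η).1 ∈ principalBlock M G ↔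
      η ∈ principalBlock M (G ⧸ H) := by
    intro η
    rw [mem_iff_regSum hM, mem_iff_regSum hM, omega_regSum_inflate hM.1 H hH, mul_ne_zero_iff]
    exact and_iff_right (Nat.cast_ne_zero.2 Nat.card_pos.ne')
  refine (finsum_mem_eq_of_bijOn (fun η => (Lib.CharKernel.inflateEquiv H η).1) ⟨fun η hη => (hmem η).2 hη,
    fun a _ b _ h => (Lib.CharKernel.inflateEquiv H).injective (Subtype.ext h), fun χ hχ => ?_⟩
    fun η _ => rfl).symm
  have htriv : ∀ n ∈ H, (χ : G → ℂ) n = (χ : G → ℂ) 1 := fun n hn =>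
    Lib.Block.trivial_on_of_sameBlock H hM hH
      (show SameBlock M (Lib.Block.oneIrr G : G → ℂ) (χ : G → ℂ) from hχ) (fun _ _ => rfl) hn
  obtain ⟨η, hη⟩ := (Lib.CharKernel.inflateEquiv H).surjective ⟨χ, htriv⟩
  have he : (Lib.CharKernel.inflateEquiv H η).1 = χ := by rw [hη]
  exact ⟨η, (hmem η).1 (he.symm ▸ hχ), he⟩

/-- Let p be a prime, M a maximal ideal of the algebraic integers containing p, G a finite group, H = O_p'(G) and Ḡ = G/H. For x ∈ G write λ(G, x) for the sum of |χ(x)|^2 over the irreducible characters χ in the principal p-block of G. Then λ(G, x) is a positive integer, λ(G, x) = λ(Ḡ, x̄) where x̄ is the image of x, and λ(G, x) ≤ #C_Ḡ(x̄). Moreover λ(G, 1) = [G : H] if and only if the principal block is the only p-block of Ḡ. -/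
theorem result {G : Type*} [Group G] [Finite G] (p : ℕ) [Fact p.Prime] (M : Ideal Cfsg.AlgInt) (hM : Cfsg.IsPModular p M) (x : G) : (∃ n : ℕ, 0 < n ∧ ∑ᶠ χ ∈ Cfsg.principalBlock M G, Complex.normSq ((χ : G → ℂ) x) = n) ∧ ∑ᶠ χ ∈ Cfsg.principalBlock M G, Complex.normSq ((χ : G → ℂ) x) = ∑ᶠ ψ ∈ Cfsg.principalBlock M (G ⧸ Cfsg.pPrimeCore p G), Complex.normSq ((ψ : G ⧸ Cfsg.pPrimeCore p G → ℂ) (QuotientGroup.mk x)) ∧ ∑ᶠ χ ∈ Cfsg.principalBlock M G, Complex.normSq ((χ : G → ℂ) x) ≤ (Nat.card ↥(Subgroup.centralizer ({(QuotientGroup.mk x : G ⧸ Cfsg.pPrimeCore p G)} : Set (G ⧸ Cfsg.pPrimeCore p G))) : ℝ) ∧ ((∑ᶠ χ ∈ Cfsg.principalBlock M G, Cfsg.charDegree (χ : G → ℂ) ^ 2) = (Cfsg.pPrimeCore p G).index ↔ ∀ B : Set (Cfsg.IrrCharacter (G ⧸ Cfsg.pPrimeCore p G)), Cfsg.IsPBlock M B → B = Cfsg.principalBlock M (G ⧸ Cfsg.pPrimeCore p G)) := by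
  classical
  haveI : M.IsPrime := hM.2.1.isPrime
  haveI := Fintype.ofFinite G
  set H := Cfsg.pPrimeCore p G
  have hH : ¬ p ∣ Nat.card H := Lib.Hall.not_dvd_card_pPrimeCore hM.1
  haveI := Fintype.ofFinite (G ⧸ H)
  have hq := finsum_principalBlock_quotient hM H hH (fun f => Complex.normSq (f x))
  refine ⟨?_, hq, ?_, ?_⟩
  · -- a positive integer
    set B := (Finset.univ : Finset (Cfsg.IrrCharacter G)).filter (· ∈ Cfsg.principalBlock M G) with hBdef
    have hsum : ∑ᶠ χ ∈ Cfsg.principalBlock M G, Complex.normSq ((χ : G → ℂ) x) =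
        ∑ χ ∈ B, Complex.normSq ((χ : G → ℂ) x) := by
      rw [← finsum_mem_coe_finset]
      simp [hBdef]
    set z := ∑ χ ∈ B, (χ : G → ℂ) x * (χ : G → ℂ) x⁻¹ with hz
    have hcast : z = ((∑ χ ∈ B, Complex.normSq ((χ : G → ℂ) x) : ℝ) : ℂ) := by
      rw [hz, Complex.ofReal_sum]
      exact Finset.sum_congr rfl fun χ _ => by
        rw [Lib.Char.char_inv (Lib.Char.isCharacter_of_isIrr χ.2), Complex.mul_conj]
    have hint : IsIntegral ℤ z := IsIntegral.sum _ fun χ _ =>
      (Lib.Char.char_isIntegral (Lib.Char.isCharacter_of_isIrr χ.2) x).mul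
        (Lib.Char.char_isIntegral (Lib.Char.isCharacter_of_isIrr χ.2) x⁻¹)
    have hfix : ∀ σ : ℂ ≃+* ℂ, σ z = z := by
      intro σ
      have hmaps : ∀ χ ∈ B, Lib.CharGalois.autIrr σ χ ∈ B := by
        intro χ hχ
        simp only [hBdef, Finset.mem_filter, Finset.mem_univ, true_and, mem_iff_regSum hM] at hχ ⊢
        have he : Lib.Block.omega (Lib.CharGalois.autIrr σ χ : G → ℂ) (Lib.Block.regSum p G) =
            σ (Lib.Block.omega (χ : G → ℂ) (Lib.Block.regSum p G)) := by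
          rw [Lib.Block.omega_eq_sum, Lib.Block.omega_eq_sum, map_div₀, map_sum]
          simp only [Lib.CharGalois.autIrr_apply, map_mul, Lib.Block.coeff_regSum]
          congr 1
          refine Finset.sum_congr rfl fun g _ => ?_
          split_ifs <;> simp
        rw [he, ne_eq, map_eq_zero]
        exact hχ
      have himg : B.image (Lib.CharGalois.autIrr σ) = B :=
        Finset.eq_of_subset_of_card_le (Finset.image_subset_iff.2 hmaps)
          (Finset.card_image_of_injective _ (Lib.CharGalois.autIrr_injective σ)).ge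
      rw [hz, map_sum]
      conv_rhs => rw [← himg, Finset.sum_image fun a _ b _ h => Lib.CharGalois.autIrr_injective σ h]
      simp
    obtain ⟨m, hm⟩ := Lib.CharGalois.exists_int_of_fixed hint hfix
    rw [hcast] at hm
    have hm' : ∑ χ ∈ B, Complex.normSq ((χ : G → ℂ) x) = (m : ℝ) := by
      apply Complex.ofReal_injective
      rw [hm, Complex.ofReal_intCast]
    have h1 : (1 : ℝ) ≤ m := by
      rw [← hm']
      have h := Finset.single_le_sum (f := fun χ : Cfsg.IrrCharacter G => Complex.normSq ((χ : G → ℂ) x))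
        (fun χ _ => Complex.normSq_nonneg _)
        (show Lib.Block.oneIrr G ∈ B by simp [hBdef, Lib.Block.oneIrr_mem])
      simpa [Lib.Block.oneIrr_apply] using h
    have h1' : 1 ≤ m := by exact_mod_cast h1
    refine ⟨m.toNat, by omega, ?_⟩
    rw [hsum, hm']
    exact_mod_cast (Int.toNat_of_nonneg (by omega : 0 ≤ m)).symm
  · rw [hq, finsum_mem_eq_toFinset_sum, ← Lib.CharAux.sum_irr_normSq]
    exact Finset.sum_le_univ_sum_of_nonneg fun ψ => Complex.normSq_nonneg _
  · have hq1 : (∑ᶠ χ ∈ Cfsg.principalBlock M G, Cfsg.charDegree (χ : G → ℂ) ^ 2) =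
        ∑ η ∈ (Cfsg.principalBlock M (G ⧸ H)).toFinset, Cfsg.charDegree (η : G ⧸ H → ℂ) ^ 2 := by
      rw [← finsum_mem_eq_toFinset_sum]
      exact finsum_principalBlock_quotient hM H hH (fun f => (⌊(f 1).re⌋₊) ^ 2)
    have hall : ∑ η : Cfsg.IrrCharacter (G ⧸ H), Cfsg.charDegree (η : G ⧸ H → ℂ) ^ 2 = H.index := by
      have h := Lib.Char.sum_degree_sq (G := G ⧸ H)
      simp only [Lib.Block.irr_one_eq_natCast, ← Nat.cast_pow, ← Nat.cast_sum, Nat.cast_inj] at h
      rw [h, Subgroup.index]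
    rw [hq1, ← hall]
    constructor
    · intro h B hB
      obtain ⟨η, hη⟩ := Lib.Block.isPBlock_nonempty hB
      refine Lib.Block.eq_of_mem_of_mem hB Lib.Block.isPBlock_principalBlock hη ?_
      by_contra hn
      have h2 := Finset.sum_lt_sum_of_subset
        (Finset.subset_univ (Cfsg.principalBlock M (G ⧸ H)).toFinset) (Finset.mem_univ η)
        (by simpa using hn) (pow_pos (Lib.Block.charDegree_pos η) 2)
        (f := fun η : Cfsg.IrrCharacter (G ⧸ H) => Cfsg.charDegree (η : G ⧸ H → ℂ) ^ 2) fun _ _ _ => Nat.zero_le _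
      omega
    · intro h
      refine Finset.sum_congr (Finset.eq_univ_of_forall fun η => ?_) fun _ _ => rfl
      rw [Set.mem_toFinset, ← h _ (Lib.Block.isPBlock_blockOf η)]
      exact Lib.Block.mem_blockOf_self η

end Cfsg.Agent.S4735
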