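import Cfsg.Statements.S4736
import Cfsg.Agent.Lib.Block.PrincipalSolvable
import Cfsg.Agent.Lib.Char.DegreesPrimeTo

set_option autoImplicit false
open Cfsg Cfsg.Agent Cfsg.Agent.Lib.Block
open scoped Pointwise

namespace Cfsg.Agent.S4736

/-- Let p be a prime, M a maximal ideal of the algebraic integers containing p, and G a finite p-solvable group with Sylow p-subgroup P. Then P is abelian if and only if every irreducible character in the principal p-block of G has height zero. -/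
theorem result {G : Type*} [Group G] [Finite G] (p : ℕ) [Fact p.Prime] (M : Ideal Cfsg.AlgInt) (hM : Cfsg.IsPModular p M) (hsolv : Cfsg.IsPSolvable p G) (P : Sylow p G) : IsMulCommutative P ↔ ∀ χ ∈ Cfsg.principalBlock M G, Cfsg.blockHeight p (Cfsg.principalBlock M G) (χ : G → ℂ) = 0 := by
  classical
  haveI := hM.2.1
  set K := Cfsg.pPrimeCore p G with hKdef
  have hKp : ¬ p ∣ Nat.card K := Lib.Hall.not_dvd_card_pPrimeCore hM.1
  have hone : oneIrr G ∈ Cfsg.principalBlock M G := oneIrr_mem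
  have hinf : sInf ((fun ψ : IrrCharacter G => (Cfsg.charDegree (ψ : G → ℂ)).factorization p) ''
      Cfsg.principalBlock M G) = 0 := Nat.sInf_eq_zero.2 (Or.inl ⟨oneIrr G, hone, by
        show (Cfsg.charDegree (fun _ : G => (1 : ℂ))).factorization p = 0
        rw [Lib.Char.charDegree_one, Nat.factorization_one]; rfl⟩)
  have hh : ∀ χ : IrrCharacter G,
      Cfsg.blockHeight p (Cfsg.principalBlock M G) (χ : G → ℂ) = 0 ↔
        ¬ p ∣ Cfsg.charDegree (χ : G → ℂ) := by
    intro χ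
    rw [Cfsg.blockHeight, hinf, Nat.sub_zero, Nat.factorization_eq_zero_iff]
    have h0 := (Lib.Char.charDegree_pos χ.2).ne'
    have hp := hM.1
    tauto
  set P' : Sylow p (G ⧸ K) := P.mapSurjective (QuotientGroup.mk'_surjective K) with hP'
  have hX : Cfsg.IsPSolvable p (G ⧸ K) :=
    Lib.PLength.isPSolvable_map (QuotientGroup.mk'_surjective K) hsolv
  have hO : Cfsg.pPrimeCore p (G ⧸ K) = ⊥ := Lib.Char2.pPrimeCore_quotient_eq_bot p
  have hdegeq : ∀ η : IrrCharacter (G ⧸ K), ∃ χ : IrrCharacter G,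
      χ ∈ Cfsg.principalBlock M G ∧
        Cfsg.charDegree (χ : G → ℂ) = Cfsg.charDegree (η : G ⧸ K → ℂ) := by
    intro η
    refine ⟨(Lib.CharKernel.inflateEquiv K η).1, (mem_principalBlock_iff_trivial hM hsolv _).2
      (Lib.CharKernel.inflateEquiv K η).2, Lib.Char.charDegree_eq_of_apply_one ?_⟩
    rw [Lib.CharKernel.inflateEquiv_apply, QuotientGroup.mk_one,
      Lib.Char.apply_one_eq_charDegree (Lib.Char.isCharacter_of_isIrr η.2)]
  constructor
  · intro hab χ hχ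
    rw [hh]
    have hab' : ∀ a ∈ (P : Subgroup G), ∀ c ∈ (P : Subgroup G), a * c = c * a := fun a ha c hc =>
      congrArg Subtype.val (hab.is_comm.comm ⟨a, ha⟩ ⟨c, hc⟩)
    have hcomm : ∀ a ∈ (P' : Subgroup (G ⧸ K)), ∀ c ∈ (P' : Subgroup (G ⧸ K)), a * c = c * a := by
      rintro _ ⟨a, ha, rfl⟩ _ ⟨c, hc, rfl⟩
      rw [← map_mul, ← map_mul, hab' a ha c hc]
    have hQ : Cfsg.pCore p (G ⧸ K) ≤ (P' : Subgroup (G ⧸ K)) := by
      obtain ⟨R, hR⟩ := (Lib.Hall.isPGroup_pCore (G := G ⧸ K) p).exists_le_sylow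
      obtain ⟨g, hg⟩ := MulAction.exists_smul_eq (G ⧸ K) R P'
      intro x hx
      have hx' : g⁻¹ * x * g ∈ (R : Subgroup (G ⧸ K)) := by
        have hn : (Cfsg.pCore p (G ⧸ K)).Normal := inferInstance
        have h := hR (hn.conj_mem x hx g⁻¹)
        rwa [inv_inv] at h
      rw [← hg, Sylow.coe_subgroup_smul]
      exact ⟨g⁻¹ * x * g, hx', by simp [mul_assoc]⟩
    have hle : (P' : Subgroup (G ⧸ K)) ≤ Cfsg.pCore p (G ⧸ K) := fun a ha =>
      Lib.LocalFusion.centralizer_pCore_le_of_isPSolvable hX hO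
        (Subgroup.mem_centralizer_iff.2 fun q hq => hcomm q (hQ hq) a ha)
    have hn : (P' : Subgroup (G ⧸ K)).Normal := by
      rw [le_antisymm hle hQ]; infer_instance
    obtain ⟨η, hη, hηe⟩ := Lib.CharKernel.exists_irr_quotient K χ.2
      ((mem_principalBlock_iff_trivial hM hsolv χ).1 hχ)
    have h := (Lib.Char.DegreesPrimeTo.iff_degrees hX P').1
      ⟨hn, ⟨⟨fun a c => Subtype.ext (hcomm a a.2 c c.2)⟩⟩⟩ ⟨η, hη⟩
    rwa [show Cfsg.charDegree (η : G ⧸ K → ℂ) = Cfsg.charDegree (χ : G → ℂ) from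
      Lib.Char.charDegree_eq_of_apply_one (by
        rw [← QuotientGroup.mk_one, hηe,
          Lib.Char.apply_one_eq_charDegree (Lib.Char.isCharacter_of_isIrr χ.2)])] at h
  · intro hall
    have hdeg : ∀ η : IrrCharacter (G ⧸ K), ¬ p ∣ Cfsg.charDegree (η : G ⧸ K → ℂ) := fun η => by
      obtain ⟨χ, hχ, he⟩ := hdegeq η
      exact he ▸ (hh χ).1 (hall χ hχ)
    obtain ⟨-, hab⟩ := (Lib.Char.DegreesPrimeTo.iff_degrees hX P').2 hdeg
    refine ⟨⟨fun a c => ?_⟩⟩
    have h1 : QuotientGroup.mk' K (a : G) * QuotientGroup.mk' K (c : G) =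
        QuotientGroup.mk' K (c : G) * QuotientGroup.mk' K (a : G) :=
      congrArg Subtype.val (hab.is_comm.comm
        (⟨_, Subgroup.mem_map_of_mem _ a.2⟩ : (P' : Subgroup (G ⧸ K))) ⟨_, Subgroup.mem_map_of_mem _ c.2⟩)
    rw [← map_mul, ← map_mul, QuotientGroup.mk'_apply, QuotientGroup.mk'_apply, QuotientGroup.eq] at h1
    obtain ⟨j, hj⟩ := P.isPGroup' ((a * c)⁻¹ * (c * a))
    have h2 : orderOf (((a : G) * c)⁻¹ * (c * a)) ∣ p ^ j :=
      orderOf_dvd_of_pow_eq_one (by simpa using congrArg Subtype.val hj)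
    have h3 := Nat.eq_one_of_dvd_coprimes ((hM.1.coprime_iff_not_dvd.2 hKp).pow_left j) h2
      (Subgroup.orderOf_dvd_natCard K h1)
    exact Subtype.ext (inv_mul_eq_one.1 (orderOf_eq_one_iff.1 h3))

end Cfsg.Agent.S4736
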