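import Cfsg.Statements.S4955
import Cfsg.Agent.Lib.CharGalois
import Cfsg.Agent.Lib.CharKernel
import Cfsg.Agent.Lib.CharNonvanishing
import Mathlib.GroupTheory.Complement

set_option autoImplicit false
open Cfsg

namespace Cfsg.Agent.S4955

open Cfsg.Agent.Lib.Char Cfsg.Agent.Lib.CharAux Cfsg.Agent.Lib.CharKernel Cfsg.Agent.Lib.CharGalois
  Cfsg.Agent.Lib.CharNonvanishing

theorem result {X : Type*} [Group X] [Finite X] (p : ℕ) [Fact p.Prime] (V : Subgroup X) [V.Normal] (hVp : IsPGroup p V) (hidx : ¬ p ∣ V.index) (hab : ∀ a ∈ V, ∀ b ∈ V, a * b = b * a) (G : Subgroup X) (hGV : Subgroup.IsComplement' V G) (v : X) (hv : v ∈ V) : Nat.card (ConjClasses X) + Nat.card G ≤ Nat.card ↥(G ⊓ Subgroup.centralizer ({v} : Set X)) * Nat.card V + Nat.card (ConjClasses G) := by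
  classical
  have := Fintype.ofFinite X
  set C := Subgroup.centralizer ({v} : Set X) with hC
  have hVC : V ≤ C := fun x hx => Subgroup.mem_centralizer_iff.2 fun y hy => by
    rw [Set.mem_singleton_iff.1 hy]; exact hab v hv x hx
  have hcl : ¬ p ∣ C.index := fun h => hidx (h.trans (Subgroup.index_dvd_of_le hVC))
  have hcardC : Nat.card C = Nat.card ↥(G ⊓ C) * Nat.card V := by
    rw [mul_comm, ← Nat.card_prod]
    refine (Nat.card_congr (Equiv.ofBijective
      (fun x : ↥V × ↥(G ⊓ C) =>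
        (⟨(x.1 : X) * (x.2 : X), C.mul_mem (hVC x.1.2) x.2.2.2⟩ : C)) ⟨?_, ?_⟩)).symm
    · rintro ⟨⟨a, ha⟩, ⟨b, hb⟩⟩ ⟨⟨a', ha'⟩, ⟨b', hb'⟩⟩ h
      have := @hGV.1 (⟨a, ha⟩, ⟨b, hb.1⟩) (⟨a', ha'⟩, ⟨b', hb'.1⟩) (congrArg Subtype.val h)
      simp only [Prod.mk.injEq, Subtype.mk.injEq] at this ⊢
      exact this
    · rintro ⟨x, hx⟩
      obtain ⟨⟨⟨a, ha⟩, ⟨b, hb⟩⟩, hab'⟩ := hGV.2 x
      have hbC : b ∈ C := by
        have : b = a⁻¹ * x := by rw [← hab']; simp
        rw [this]; exact C.mul_mem (C.inv_mem (hVC ha)) hx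
      exact ⟨(⟨a, ha⟩, ⟨b, hb, hbC⟩), Subtype.ext hab'⟩
  let T : Finset (IrrCharacter X) :=
    Finset.univ.filter fun χ => ∀ n ∈ V, (χ : X → ℂ) n = (χ : X → ℂ) 1
  have htot : ∑ χ : IrrCharacter X, Complex.normSq ((χ : X → ℂ) v) = (Nat.card C : ℝ) :=
    sum_irr_normSq v
  rw [← Finset.sum_filter_add_sum_filter_not Finset.univ
    (fun χ : IrrCharacter X => ∀ n ∈ V, (χ : X → ℂ) n = (χ : X → ℂ) 1)] at htot
  have hT : ∑ χ ∈ T, Complex.normSq ((χ : X → ℂ) v) = (Nat.card G : ℝ) := by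
    have h := sum_trivialOn_degree_mul V (1 : X)
    rw [if_pos V.one_mem, hGV.symm.index_eq_card] at h
    have h' := congrArg Complex.re h
    rw [Complex.re_sum, Complex.natCast_re] at h'
    rw [← h']
    refine Finset.sum_congr (by ext ξ; simp [T]) fun χ hχ => ?_
    simp only [T, Finset.mem_filter, Finset.mem_univ, true_and] at hχ
    rw [hχ v hv, charDegree_eq (isCharacter_of_isIrr χ.2)]
    simp [Complex.normSq_apply]
  have hTc : Finset.card (Finset.univ.filter fun χ : IrrCharacter X =>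
      ∀ n ∈ V, (χ : X → ℂ) n = (χ : X → ℂ) 1) = Nat.card (ConjClasses G) := by
    rw [← Fintype.card_subtype, ← Nat.card_eq_fintype_card,
      ← Nat.card_congr (Lib.CharKernel.inflateEquiv V), card_irr_eq_card_conjClasses]
    let e : X ⧸ V ≃* ↥G := hGV.symm.QuotientMulEquiv
    refine Nat.card_congr ?_
    exact
      { toFun := ConjClasses.map e.toMonoidHom
        invFun := ConjClasses.map e.symm.toMonoidHom
        left_inv := fun c => by
          obtain ⟨x, rfl⟩ := ConjClasses.exists_rep c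
          show ConjClasses.mk (e.symm (e x)) = ConjClasses.mk x
          rw [e.symm_apply_apply]
        right_inv := fun c => by
          obtain ⟨x, rfl⟩ := ConjClasses.exists_rep c
          show ConjClasses.mk (e (e.symm x)) = ConjClasses.mk x
          rw [e.apply_symm_apply] }
  have hge := card_le_sum_normSq_irr v
    (Finset.univ.filter fun χ : IrrCharacter X => ¬ ∀ n ∈ V, (χ : X → ℂ) n = (χ : X → ℂ) 1)
    (fun χ _ => apply_ne_zero (Fact.out : p.Prime) V hVp hab χ.2 hv hcl) (by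
      intro χ hχ σ
      simp only [Finset.mem_filter, Finset.mem_univ, true_and] at hχ ⊢
      intro hσ
      refine hχ fun n hn => σ.injective ?_
      simpa using hσ n hn)
  have hk : (Finset.univ.filter fun χ : IrrCharacter X => ¬ ∀ n ∈ V, (χ : X → ℂ) n = (χ : X → ℂ) 1).card
      + Nat.card (ConjClasses G) = Nat.card (ConjClasses X) := by
    rw [← hTc, ← card_irr_eq_card_conjClasses, Nat.card_eq_fintype_card, ← Finset.card_univ, add_comm,
      Finset.card_filter_add_card_filter_not]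
  simp only [T] at hT
  rw [hT] at htot
  have hk' : ((Finset.univ.filter fun χ : IrrCharacter X => ¬ ∀ n ∈ V, (χ : X → ℂ) n = (χ : X → ℂ) 1).card : ℝ)
      + (Nat.card (ConjClasses G) : ℝ) = (Nat.card (ConjClasses X) : ℝ) := by exact_mod_cast hk
  rw [← hcardC]
  have : (Nat.card (ConjClasses X) : ℝ) + (Nat.card G : ℝ) ≤
      (Nat.card C : ℝ) + (Nat.card (ConjClasses G) : ℝ) := by linarith
  exact_mod_cast this

end Cfsg.Agent.S4955
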