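import Cfsg.Statements.S4956
import Mathlib.GroupTheory.Coset.Card
import Mathlib.GroupTheory.Index
import Mathlib.GroupTheory.OrderOfElement
import Mathlib.GroupTheory.QuotientGroup.Basic
import Mathlib.GroupTheory.Complement
import Mathlib.Algebra.BigOperators.Group.Finset.Basic
import Mathlib.Data.Nat.GCD.BigOperators
import Mathlib.Data.Int.GCD
import Mathlib.SetTheory.Cardinal.NatCard
import Mathlib.Tactic.Group

set_option autoImplicit false
open Cfsg

namespace Cfsg.Agent.S4956

variable {X : Type*} [Group X] [Finite X]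

/-- An element of order dividing `|G|` is conjugate under `V` into the complement `G`. -/
theorem exists_conj_mem (V : Subgroup X) [V.Normal] (hab : ∀ a ∈ V, ∀ b ∈ V, a * b = b * a)
    (G : Subgroup X) (hGV : Subgroup.IsComplement' V G)
    (hcop : (Nat.card V).Coprime (Nat.card G)) (y : X) (hy : y ^ Nat.card G = 1) :
    ∃ t ∈ V, t⁻¹ * y * t ∈ G := by
  letI : CommGroup ↥V :=
    { (inferInstance : Group ↥V) with mul_comm := fun a b => Subtype.ext (hab a a.2 b b.2) }
  obtain ⟨⟨⟨u, hu⟩, ⟨h, hh⟩⟩, huh⟩ := hGV.2 y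
  dsimp only at huh
  set m := Nat.card G with hm
  have hhm : h ^ m = 1 := by
    have := pow_card_eq_one' (G := ↥G) (x := ⟨h, hh⟩)
    exact congrArg Subtype.val this
  have hn : ∀ v : ↥V, h * (v : X) * h⁻¹ ∈ V := fun v => ‹V.Normal›.conj_mem _ v.2 h
  let σ : ↥V →* ↥V :=
    { toFun := fun v => ⟨h * (v : X) * h⁻¹, hn v⟩
      map_one' := by apply Subtype.ext; simp
      map_mul' := fun a b => by apply Subtype.ext; simp [mul_assoc] }
  let u' : ↥V := ⟨u, hu⟩
  let c : ℕ → ↥V := fun i => Nat.rec 1 (fun _ ci => u' * σ ci) i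
  have hc : ∀ i : ℕ, Subtype.val (c i) * h ^ i = y ^ i := by
    intro i
    induction i with
    | zero => simp [c]
    | succ i ih =>
      have hcs : Subtype.val (c (i + 1)) = u * (h * Subtype.val (c i) * h⁻¹) := rfl
      rw [hcs, pow_succ', pow_succ', ← ih, ← huh]
      group
  have hcm : c m = 1 := by
    apply Subtype.ext
    have := hc m
    rw [hhm, mul_one, hy] at this
    exact this
  have h2 : ∏ i ∈ Finset.range m, c (i + 1) = ∏ i ∈ Finset.range m, c i := by
    have e1 := Finset.prod_range_succ c m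
    have e2 := Finset.prod_range_succ' c m
    rw [e1, hcm, mul_one] at e2
    have hc0 : c 0 = 1 := rfl
    rw [hc0, mul_one] at e2
    exact e2.symm
  set w := ∏ i ∈ Finset.range m, c i with hw
  have h3 : w = u' ^ m * σ w := by
    conv_lhs => rw [← h2]
    show ∏ i ∈ Finset.range m, u' * σ (c i) = u' ^ m * σ w
    rw [Finset.prod_mul_distrib, Finset.prod_const, Finset.card_range, hw, map_prod]
  obtain ⟨k, hk⟩ := exists_pow_eq_self_of_coprime (x := u')
    (Nat.Coprime.coprime_dvd_right (orderOf_dvd_natCard u') hcop.symm : m.Coprime (orderOf u'))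
  have h4 : w ^ k = u' * σ (w ^ k) := by
    conv_lhs => rw [h3, mul_pow, hk]
    rw [map_pow]
  refine ⟨(w ^ k : ↥V), (w ^ k).2, ?_⟩
  generalize w ^ k = t at h4 ⊢
  have h5 : (t : X) = u * (h * (t : X) * h⁻¹) := congrArg Subtype.val h4
  have : (t : X)⁻¹ * y * t = h := by
    calc (t : X)⁻¹ * y * t = (t : X)⁻¹ * (u * (h * (t : X) * h⁻¹)) * h := by rw [← huh]; group
      _ = h := by rw [← h5]; group
  rw [this]; exact hh

theorem result {X : Type*} [Group X] [Finite X] (V : Subgroup X) [V.Normal] (hab : ∀ a ∈ V, ∀ b ∈ V, a * b = b * a) (G : Subgroup X) (hGV : Subgroup.IsComplement' V G) (hcop : (Nat.card V).Coprime (Nat.card G)) (S : Finset X) (hSV : ∀ s ∈ S, s ∈ V) (hrep : ∀ v ∈ V, ∃! s, s ∈ S ∧ ∃ g ∈ G, g * v * g⁻¹ = s) : Nat.card (ConjClasses X) = ∑ s ∈ S, Nat.card (ConjClasses ↥(G ⊓ Subgroup.centralizer ({s} : Set X))) := by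
  classical
  have hinter : ∀ x, x ∈ V → x ∈ G → x = 1 := fun x hxV hxG =>
    Subgroup.mem_bot.1 (hGV.isCompl.inf_eq_bot.le ⟨hxV, hxG⟩)
  have hidx : V.index = Nat.card G := hGV.symm.index_eq_card
  obtain ⟨e, he1, he2⟩ := Nat.chineseRemainder hcop 0 1
  have hcardX : Nat.card X = Nat.card V * Nat.card G := hGV.card_mul_card.symm
  have pe : ∀ s h : X, s ∈ V → h ∈ G → Commute s h → (s * h) ^ e = h := by
    intro s h hs hh hc
    rw [hc.mul_pow]
    have h1 : s ^ e = 1 := by
      have hd : Nat.card V ∣ e := Nat.modEq_zero_iff_dvd.1 he1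
      apply orderOf_dvd_iff_pow_eq_one.1
      exact (V.orderOf_dvd_natCard hs).trans hd
    have h2 : h ^ e = h := by
      conv_rhs => rw [← pow_one h]
      exact pow_eq_pow_iff_modEq.2 (he2.of_dvd (G.orderOf_dvd_natCard hh))
    rw [h1, h2, one_mul]
  have hmem : ∀ (s : X) (h : ↥(G ⊓ Subgroup.centralizer ({s} : Set X))),
      (h : X) ∈ G ∧ Commute s (h : X) := fun s h =>
    ⟨h.2.1, Subgroup.mem_centralizer_iff.1 h.2.2 s rfl⟩
  let Φ : (Σ s : {x // x ∈ S}, ConjClasses ↥(G ⊓ Subgroup.centralizer ({(s : X)} : Set X))) →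
      ConjClasses X := fun p =>
    Quotient.liftOn p.2 (fun h => ConjClasses.mk ((p.1 : X) * (h : X))) (by
      intro a b hab'
      obtain ⟨c, hc⟩ := isConj_iff.1 hab'
      apply ConjClasses.mk_eq_mk_iff_isConj.2
      refine isConj_iff.2 ⟨(c : X), ?_⟩
      have hcs := (hmem _ c).2.eq
      have hb : (c : X) * (a : X) * (c : X)⁻¹ = (b : X) := congrArg Subtype.val hc
      rw [← hb]
      calc (c : X) * ((p.1 : X) * (a : X)) * (c : X)⁻¹
          = ((c : X) * (p.1 : X)) * (c : X)⁻¹ * ((c : X) * (a : X) * (c : X)⁻¹) := by group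
        _ = (p.1 : X) * ((c : X) * (a : X) * (c : X)⁻¹) := by rw [← hcs]; group)
  have hΦ : Function.Bijective Φ := by
    constructor
    · rintro ⟨⟨s, hs⟩, c⟩ ⟨⟨s', hs'⟩, c'⟩ h
      induction c using Quotient.inductionOn with
      | _ a =>
      induction c' using Quotient.inductionOn with
      | _ b =>
      change ConjClasses.mk (s * (a : X)) = ConjClasses.mk (s' * (b : X)) at h
      obtain ⟨x, hx⟩ := isConj_iff.1 (ConjClasses.mk_eq_mk_iff_isConj.1 h)
      obtain ⟨haG, has⟩ := hmem _ a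
      obtain ⟨hbG, hbs⟩ := hmem _ b
      have hxe : x * (a : X) * x⁻¹ = b := by
        have := congrArg (· ^ e) hx
        simp only [conj_pow, pe s a (hSV s hs) haG has, pe s' b (hSV s' hs') hbG hbs] at this
        exact this
      obtain ⟨⟨⟨u, hu⟩, ⟨g, hg⟩⟩, hug⟩ := hGV.2 x
      dsimp only at hug
      have hconj : g * (a : X) * g⁻¹ = b := by
        have hgag : g * (a : X) * g⁻¹ ∈ G := G.mul_mem (G.mul_mem hg haG) (G.inv_mem hg)
        have h1 : (b : X) * (g * (a : X) * g⁻¹)⁻¹ ∈ G := G.mul_mem hbG (G.inv_mem hgag)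
        have h2 : (b : X) * (g * (a : X) * g⁻¹)⁻¹ ∈ V := by
          have : (b : X) * (g * (a : X) * g⁻¹)⁻¹ =
              u * ((g * (a : X) * g⁻¹) * u⁻¹ * (g * (a : X) * g⁻¹)⁻¹) := by
            rw [← hxe, ← hug]; group
          rw [this]
          exact V.mul_mem hu (‹V.Normal›.conj_mem _ (V.inv_mem hu) _)
        exact (mul_inv_eq_one.1 (hinter _ h2 h1)).symm
      have hss : g * s * g⁻¹ = s' := by
        have h1 : x * s * x⁻¹ = s' := by
          have h3 : (x * s * x⁻¹) * b = s' * b := by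
            rw [← hx]
            calc x * s * x⁻¹ * b = x * s * x⁻¹ * (x * (a : X) * x⁻¹) := by rw [hxe]
              _ = x * (s * a) * x⁻¹ := by group
          exact mul_right_cancel h3
        have hv : g * s * g⁻¹ ∈ V := ‹V.Normal›.conj_mem _ (hSV s hs) _
        calc g * s * g⁻¹ = (g * s * g⁻¹) * u * u⁻¹ := by group
          _ = u * (g * s * g⁻¹) * u⁻¹ := by rw [hab _ hv _ hu]
          _ = x * s * x⁻¹ := by rw [← hug]; group
          _ = s' := h1
      have hsv := hSV s hs
      have heq : s = s' := (hrep s hsv).unique ⟨hs, 1, G.one_mem, by group⟩ ⟨hs', g, hg, hss⟩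
      subst heq
      have hgC : g ∈ G ⊓ Subgroup.centralizer ({s} : Set X) := by
        refine ⟨hg, Subgroup.mem_centralizer_iff.2 ?_⟩
        intro z hz
        rw [Set.mem_singleton_iff] at hz
        subst hz
        exact (mul_inv_eq_iff_eq_mul.1 hss).symm
      have : ConjClasses.mk a = ConjClasses.mk b :=
        ConjClasses.mk_eq_mk_iff_isConj.2 (isConj_iff.2 ⟨⟨g, hgC⟩, Subtype.ext hconj⟩)
      exact congrArg (Sigma.mk _) this
    · intro c
      induction c using Quotient.inductionOn with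
      | _ x =>
      have hy : (x ^ e) ^ Nat.card G = 1 := by
        obtain ⟨k, hk⟩ := Nat.modEq_zero_iff_dvd.1 he1
        rw [← pow_mul, hk, show Nat.card V * k * Nat.card G = Nat.card X * k by rw [hcardX]; ring,
          pow_mul, pow_card_eq_one', one_pow]
      obtain ⟨t, ht, htG⟩ := exists_conj_mem V hab G hGV hcop _ hy
      set x' := t⁻¹ * x * t with hx'
      have hx'e : x' ^ e ∈ G := by
        have := conj_pow (a := t⁻¹) (b := x) (i := e)
        rw [inv_inv] at this
        rw [hx', this]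
        exact htG
      have hzV : x' * (x' ^ e)⁻¹ ∈ V := by
        rw [← QuotientGroup.eq_one_iff, QuotientGroup.mk_mul, QuotientGroup.mk_inv,
          QuotientGroup.mk_pow, mul_inv_eq_one]
        conv_lhs => rw [← pow_one (QuotientGroup.mk x' : X ⧸ V)]
        refine (pow_eq_pow_iff_modEq.2 (he2.of_dvd ?_)).symm
        rw [← hidx]
        exact orderOf_dvd_natCard _
      set z := x' * (x' ^ e)⁻¹ with hz
      obtain ⟨s, ⟨hs, g, hg, hgs⟩, -⟩ := hrep z hzV
      set h := g * x' ^ e * g⁻¹ with hh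
      have hhG : h ∈ G := G.mul_mem (G.mul_mem hg hx'e) (G.inv_mem hg)
      have hzc : Commute z (x' ^ e) := by
        show Commute (x' * (x' ^ e)⁻¹) (x' ^ e)
        exact ((Commute.refl x').pow_right e).mul_left (Commute.refl _).inv_left
      have hsc : Commute s h := by
        rw [← hgs, hh]
        exact (Commute.conj_iff g).2 hzc
      have hC : h ∈ G ⊓ Subgroup.centralizer ({s} : Set X) := by
        refine ⟨hhG, Subgroup.mem_centralizer_iff.2 ?_⟩
        intro w hw
        rw [Set.mem_singleton_iff] at hw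
        subst hw
        exact hsc.eq
      refine ⟨⟨⟨s, hs⟩, ConjClasses.mk ⟨h, hC⟩⟩, ?_⟩
      show ConjClasses.mk (s * h) = ConjClasses.mk x
      refine ConjClasses.mk_eq_mk_iff_isConj.2 (IsConj.symm (isConj_iff.2 ⟨g * t⁻¹, ?_⟩))
      rw [← hgs, hh, hz, hx']
      group
  rw [← Nat.card_congr (Equiv.ofBijective Φ hΦ), Nat.card_sigma,
    Finset.sum_coe_sort S (fun s => Nat.card (ConjClasses ↥(G ⊓ Subgroup.centralizer ({s} : Set X))))]

end Cfsg.Agent.S4956
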