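import Cfsg.Statements.S4958
import Cfsg.Agent.Lib.CharCyclo
import Cfsg.Agent.Lib.CharKernel
import Cfsg.Agent.Lib.CharNonvanishing
import Cfsg.Agent.Lib.Char.Linear
import Mathlib.GroupTheory.Complement
-- import your own Cfsg.Agent.* helpers here

set_option autoImplicit false
open Cfsg

namespace Cfsg.Agent.S4958

open Cfsg.Agent.Lib Cfsg.Agent.Lib.Char Cfsg.Agent.Lib.CharCyclo
open scoped ComplexConjugate Classical

/-! ### Characters of an abelian group -/

section Abelian

variable {H : Type*} [Group H] [Fintype H]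

theorem apply_one_of_abelian (hH : ∀ a b : H, a * b = b * a) (χ : IrrCharacter H) :
    (χ : H → ℂ) 1 = 1 := by
  have hcard : Fintype.card (IrrCharacter H) = Nat.card H := by
    rw [← Nat.card_eq_fintype_card, card_irr_eq_card_conjClasses]
    refine (Nat.card_congr (Equiv.ofBijective ConjClasses.mk ⟨fun a b h => ?_, ConjClasses.mk_surjective⟩)).symm
    obtain ⟨c, hc⟩ := isConj_iff.1 (ConjClasses.mk_eq_mk_iff_isConj.1 h)
    rwa [hH c a, mul_inv_cancel_right] at hc
  have hsq := sum_degree_mul (G := H) (1 : H)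
  rw [if_pos rfl] at hsq
  have hnat : ∑ ψ : IrrCharacter H, charDegree (ψ : H → ℂ) ^ 2 = ∑ _ψ : IrrCharacter H, 1 := by
    rw [Finset.sum_const, smul_eq_mul, mul_one, Finset.card_univ, hcard]
    have e : ((∑ ψ : IrrCharacter H, charDegree (ψ : H → ℂ) ^ 2 : ℕ) : ℂ) = (Nat.card H : ℂ) := by
      rw [← hsq, Nat.cast_sum]
      refine Finset.sum_congr rfl fun ψ _ => ?_
      rw [CharAux.charDegree_eq (isCharacter_of_isIrr ψ.2), Nat.cast_pow, sq]
    exact_mod_cast e
  have hge : ∀ ψ ∈ (Finset.univ : Finset (IrrCharacter H)), 1 ≤ charDegree (ψ : H → ℂ) ^ 2 :=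
    fun ψ _ => Nat.one_le_pow _ _ (CharAux.charDegree_pos ψ.2)
  have h1 := (Finset.sum_eq_sum_iff_of_le hge).1 hnat.symm χ (Finset.mem_univ χ)
  rw [CharAux.charDegree_eq (isCharacter_of_isIrr χ.2),
    (by nlinarith [h1] : charDegree (χ : H → ℂ) = 1), Nat.cast_one]

/-- The product of two irreducible characters of an abelian group. -/
noncomputable def mulIrr (hH : ∀ a b : H, a * b = b * a) (a b : IrrCharacter H) : IrrCharacter H :=
  ⟨(a : H → ℂ) * (b : H → ℂ), isIrrCharacter_of_degree_one
    (isCharacter_mul (isCharacter_of_isIrr a.2) (isCharacter_of_isIrr b.2)) (by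
      rw [Pi.mul_apply, apply_one_of_abelian hH a, apply_one_of_abelian hH b, mul_one])⟩

/-- The principal character. -/
abbrev one (H : Type*) [Group H] : H → ℂ := fun _ => 1

theorem classInner_conj_twist (hH : ∀ a b : H, a * b = b * a) (f : H → ℂ) (a θ : IrrCharacter H) :
    classInner (fun h => f h * conj ((a : H → ℂ) h)) (θ : H → ℂ) =
      classInner f (mulIrr hH a θ : H → ℂ) := by
  simp only [classInner, mulIrr, Pi.mul_apply, map_mul]
  congr 1
  exact Finset.sum_congr rfl fun h _ => by ring

/-- All coefficients are cyclotomic integers. -/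
def Good (N : ℕ) (f : H → ℂ) : Prop :=
  ∀ θ : IrrCharacter H, IsIntegral ℤ (classInner f θ) ∧ Fixed N (classInner f θ)

theorem Good.twist (hH : ∀ a b : H, a * b = b * a) {N : ℕ} {f : H → ℂ} (hf : Good N f)
    (a : IrrCharacter H) : Good N (fun h => f h * conj ((a : H → ℂ) h)) := fun θ => by
  rw [classInner_conj_twist hH]
  exact hf _

theorem Good.sub {N : ℕ} {f g : H → ℂ} (hf : Good N f) (hg : Good N g) : Good N (f - g) := fun θ => by
  rw [classInner_sub_left]
  exact ⟨(hf θ).1.sub (hg θ).1, (hf θ).2.sub (hg θ).2⟩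

/-- The weight of a list of subgroups. -/
noncomputable def weight (l : List (Subgroup H)) (h : H) : ℕ :=
  (l.map fun K => if h ∈ K then 1 else K.index + 1).prod

/-- The product of the indices. -/
noncomputable def idxProd (l : List (Subgroup H)) : ℕ := (l.map fun K => K.index).prod

/-- The product of scaled indicators. -/
noncomputable def indProd (l : List (Subgroup H)) (h : H) : ℕ :=
  (l.map fun K => if h ∈ K then K.index else 0).prod

theorem two_mul_sum_lt {n : ℕ} (F : Fin n → Fin n → ℂ) (hsymm : ∀ a b, F a b = F b a)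
    (hdiag : ∀ a, F a a = 0) :
    2 * ∑ q : {q : Fin n × Fin n // q.1 < q.2}, F q.1.1 q.1.2 = ∑ a, ∑ b, F a b := by
  rw [← Finset.sum_subtype (Finset.univ.filter fun q : Fin n × Fin n => q.1 < q.2) (by simp)
      (fun q => F q.1 q.2),
    Finset.sum_filter, Fintype.sum_prod_type, two_mul]
  have e : ∑ a, ∑ b, (if a < b then F a b else 0) = ∑ a, ∑ b, (if b < a then F a b else 0) := by
    rw [Finset.sum_comm]
    exact Finset.sum_congr rfl fun a _ => Finset.sum_congr rfl fun b _ => by rw [hsymm]
  conv_lhs => arg 2; rw [e]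
  rw [← Finset.sum_add_distrib]
  refine Finset.sum_congr rfl fun a _ => ?_
  rw [← Finset.sum_add_distrib]
  refine Finset.sum_congr rfl fun b _ => ?_
  rcases lt_trichotomy a b with h | h | h
  · rw [if_pos h, if_neg h.not_gt, add_zero]
  · subst h; simp [hdiag]
  · rw [if_pos h, if_neg h.not_gt, zero_add]

theorem exists_terms (hH : ∀ a b : H, a * b = b * a) (N : ℕ) : ∀ l : List (Subgroup H),
    ∃ (m : ℕ) (e : Fin m → H → ℂ),
      (∀ h, ∑ j, e j h * conj (e j h) = ((idxProd l * weight l h : ℕ) : ℂ)) ∧
      (∀ f : H → ℂ, classInner (fun h => f h * (indProd l h : ℂ)) (one H) ≠ 0 →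
        idxProd l ≤ Nat.card {j : Fin m // classInner (fun h => f h * e j h) (one H) ≠ 0}) ∧
      ∀ f : H → ℂ, Good N f → ∀ j, Good N (fun h => f h * e j h) := by
  intro l
  induction l with
  | nil =>
    refine ⟨1, fun _ _ => 1, fun h => by simp [idxProd, weight], fun f hf => ?_, fun f hf j => by
      simpa using hf⟩
    simp only [indProd, List.map_nil, List.prod_nil, Nat.cast_one] at hf
    have : Nonempty {j : Fin 1 // classInner (fun h => f h * 1) (one H) ≠ 0} := ⟨⟨0, hf⟩⟩
    exact Nat.succ_le_of_lt (Nat.card_pos (α := {j : Fin 1 // classInner (fun h => f h * 1) (one H) ≠ 0}))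
  | cons K l ih =>
    obtain ⟨m, e, hsq, hcount, hgood⟩ := ih
    have : K.Normal := ⟨fun k hk g => by rwa [hH g k, mul_inv_cancel_right]⟩
    let S := Finset.univ.filter fun χ : IrrCharacter H =>
      ∀ k ∈ K, (χ : H → ℂ) k = (χ : H → ℂ) 1
    have hS : ∀ h, ∑ χ ∈ S, (χ : H → ℂ) h = if h ∈ K then (K.index : ℂ) else 0 := fun h => by
      rw [← CharKernel.sum_trivialOn_degree_mul K h]
      exact Finset.sum_congr (by ext; simp [S]) fun χ _ => by rw [apply_one_of_abelian hH, one_mul]
    set n := K.index with hn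
    have hcardS : S.card = n := by
      have := hS 1
      rw [if_pos K.one_mem, Finset.sum_congr rfl (g := fun _ => (1 : ℂ))
        fun χ _ => apply_one_of_abelian hH χ, Finset.sum_const, nsmul_eq_mul, mul_one] at this
      exact_mod_cast this
    let x : Fin n → IrrCharacter H := fun a => (S.equivFinOfCardEq hcardS).symm a
    have hx : ∀ h, ∑ a, ((x a : H → ℂ) h) = if h ∈ K then (n : ℂ) else 0 := fun h => by
      rw [← hS h, ← Finset.sum_coe_sort S (fun χ => (χ : H → ℂ) h)]
      exact Equiv.sum_comp (S.equivFinOfCardEq hcardS).symm (fun χ : S => ((χ : IrrCharacter H) : H → ℂ) h)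
    have hunit : ∀ a h, (x a : H → ℂ) h * conj ((x a : H → ℂ) h) = 1 := fun a h => by
      obtain ⟨r, hr⟩ := exists_hom_of_degree_one (isCharacter_of_isIrr (x a).2)
        (apply_one_of_abelian hH _)
      have h1 := linear_conj_mul r h
      rw [hr]
      exact h1
    let mult : Fin n ⊕ {q : Fin n × Fin n // q.1 < q.2} → H → ℂ := fun q h =>
      match q with
      | .inl a => conj ((x a : H → ℂ) h)
      | .inr q => conj ((x q.1.1 : H → ℂ) h) - conj ((x q.1.2 : H → ℂ) h)
    have hmult : ∀ h, ∑ q, mult q h * conj (mult q h) =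
        ((n * (if h ∈ K then 1 else n + 1) : ℕ) : ℂ) := by
      intro h
      rw [Fintype.sum_sum_type]
      have h1 : ∑ a : Fin n, mult (.inl a) h * conj (mult (.inl a) h) = (n : ℂ) := by
        simp only [mult, Complex.conj_conj]
        rw [Finset.sum_congr rfl fun a _ => (mul_comm _ _).trans (hunit a h)]
        simp
      let F : Fin n → Fin n → ℂ := fun a b =>
        (conj ((x a : H → ℂ) h) - conj ((x b : H → ℂ) h)) *
          conj (conj ((x a : H → ℂ) h) - conj ((x b : H → ℂ) h))
      have h2 := two_mul_sum_lt F (fun a b => by simp only [F, map_sub]; ring) (fun a => by simp [F])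
      have h3 : ∑ a, ∑ b, F a b =
          2 * (n : ℂ) * n - 2 * ((∑ a, (x a : H → ℂ) h) * conj (∑ a, (x a : H → ℂ) h)) := by
        have e : ∀ a b, F a b = 2 - ((x a : H → ℂ) h * conj ((x b : H → ℂ) h) +
            (x b : H → ℂ) h * conj ((x a : H → ℂ) h)) := fun a b => by
          simp only [F, map_sub, Complex.conj_conj]
          linear_combination hunit a h + hunit b h
        simp only [e, Finset.sum_sub_distrib, Finset.sum_add_distrib, Finset.sum_const,
          Finset.card_univ, Fintype.card_fin, nsmul_eq_mul, map_sum, Finset.sum_mul, Finset.mul_sum]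
        rw [Finset.sum_comm (f := fun a b => (x b : H → ℂ) h * conj ((x a : H → ℂ) h))]
        simp only [← Finset.mul_sum, ← Finset.sum_mul]
        ring
      rw [h1]
      show (n : ℂ) + ∑ q : {q : Fin n × Fin n // q.1 < q.2}, F q.1.1 q.1.2 = _
      rw [h3, hx h] at h2
      split_ifs at h2 ⊢ with hK
      · rw [Complex.conj_natCast] at h2
        push_cast
        linear_combination (1/2 : ℂ) * h2
      · push_cast
        linear_combination (1/2 : ℂ) * h2
    let ε := Fintype.equivFin ((Fin n ⊕ {q : Fin n × Fin n // q.1 < q.2}) × Fin m)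
    refine ⟨_, fun j h => mult (ε.symm j).1 h * e (ε.symm j).2 h, fun h => ?_, fun f hf => ?_,
      fun f hf j => ?_⟩
    · rw [Equiv.sum_comp ε.symm (fun z => mult z.1 h * e z.2 h * conj (mult z.1 h * e z.2 h)),
        Fintype.sum_prod_type]
      have e1 : ∀ q, ∑ j, mult q h * e j h * conj (mult q h * e j h) =
          mult q h * conj (mult q h) * ((idxProd l * weight l h : ℕ) : ℂ) := fun q => by
        rw [← hsq h, Finset.mul_sum]
        exact Finset.sum_congr rfl fun j _ => by rw [map_mul]; ring
      rw [Finset.sum_congr rfl fun q _ => e1 q, ← Finset.sum_mul, hmult h, ← Nat.cast_mul]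
      congr 1
      simp only [idxProd, weight, List.map_cons, List.prod_cons, ← hn]
      ring
    · let s : Fin n → ℂ := fun a =>
        classInner (fun h => f h * mult (.inl a) h * (indProd l h : ℂ)) (one H)
      have hsum : ∑ a, s a = classInner (fun h => f h * (indProd (K :: l) h : ℂ)) (one H) := by
        simp only [s, ← classInner_sum_left]
        congr 1
        funext h
        simp only [Finset.sum_apply, mult, ← Finset.sum_mul, ← Finset.mul_sum, ← map_sum, hx h]
        simp only [indProd, List.map_cons, List.prod_cons, ← hn]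
        split_ifs <;> simp [mul_assoc]
      let A := Finset.univ.filter fun a => s a ≠ 0
      have hA : 1 ≤ A.card := by
        rw [Nat.one_le_iff_ne_zero, Ne, Finset.card_eq_zero]
        intro h0
        refine hf (hsum ▸ Finset.sum_eq_zero fun a _ => ?_)
        by_contra hne
        exact Finset.notMem_empty a (h0 ▸ Finset.mem_filter.2 ⟨Finset.mem_univ a, hne⟩)
      let sq : Fin n ⊕ {q : Fin n × Fin n // q.1 < q.2} → ℂ := fun q =>
        classInner (fun h => f h * mult q h * (indProd l h : ℂ)) (one H)
      let Q := Finset.univ.filter fun q => sq q ≠ 0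
      have hpair : ∀ q : {q : Fin n × Fin n // q.1 < q.2}, sq (.inr q) = s q.1.1 - s q.1.2 := fun q => by
        simp only [sq, s, ← classInner_sub_left]
        congr 1
        funext h
        simp only [mult, Pi.sub_apply]
        ring
      let g : ↥A ⊕ (↥A × ↥Aᶜ) → ↥Q := fun z =>
        match z with
        | .inl a => ⟨.inl a.1, Finset.mem_filter.2 ⟨Finset.mem_univ _, (Finset.mem_filter.1 a.2).2⟩⟩
        | .inr ab =>
          if hlt : ab.1.1 < ab.2.1 then
            ⟨.inr ⟨(ab.1.1, ab.2.1), hlt⟩, Finset.mem_filter.2 ⟨Finset.mem_univ _, by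
              have h2 := ab.2.2
              simp only [A, Finset.mem_compl, Finset.mem_filter, Finset.mem_univ, true_and, not_not] at h2
              rw [hpair, h2, sub_zero]
              exact (Finset.mem_filter.1 ab.1.2).2⟩⟩
          else
            ⟨.inr ⟨(ab.2.1, ab.1.1), lt_of_le_of_ne (not_lt.1 hlt) fun (he : ab.2.1 = ab.1.1) =>
                (Finset.mem_compl.1 ab.2.2) (he ▸ ab.1.2)⟩, Finset.mem_filter.2 ⟨Finset.mem_univ _, by
              have h2 := ab.2.2
              simp only [A, Finset.mem_compl, Finset.mem_filter, Finset.mem_univ, true_and, not_not] at h2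
              rw [hpair, h2, zero_sub, neg_ne_zero]
              exact (Finset.mem_filter.1 ab.1.2).2⟩⟩
      have hg : Function.Injective g := by
        rintro (a | ab) (a' | ab') h
        · simp only [g, Subtype.mk.injEq, Sum.inl.injEq] at h
          exact congrArg _ (Subtype.ext h)
        · simp only [g] at h
          split_ifs at h <;> simp at h
        · simp only [g] at h
          split_ifs at h <;> simp at h
        · simp only [g] at h
          have m1 := ab.1.2
          have m2 := Finset.mem_compl.1 ab.2.2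
          have m1' := ab'.1.2
          have m2' := Finset.mem_compl.1 ab'.2.2
          split_ifs at h <;>
            simp only [Subtype.mk.injEq, Sum.inr.injEq, Prod.mk.injEq] at h
          · exact congrArg _ (Prod.ext (Subtype.ext h.1) (Subtype.ext h.2))
          · exact absurd (h.1 ▸ m1) m2'
          · exact absurd (h.1.symm ▸ m1') m2
          · exact congrArg _ (Prod.ext (Subtype.ext h.2) (Subtype.ext h.1))
      have hQ : n ≤ Q.card := by
        have h1 := Fintype.card_le_of_injective g hg
        simp only [Fintype.card_sum, Fintype.card_prod, Fintype.card_coe, Finset.card_compl,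
          Fintype.card_fin] at h1
        refine le_trans ?_ h1
        have hle : A.card ≤ n := le_trans (Finset.card_le_univ _) (le_of_eq (Fintype.card_fin n))
        obtain ⟨d, hd⟩ : ∃ d, n = A.card + d := ⟨n - A.card, by omega⟩
        rw [show n - A.card = d by omega]
        nlinarith
      rw [Nat.card_congr ((Equiv.subtypeEquiv ε.symm fun j => Iff.rfl :
          {j // classInner (fun h => f h * (mult (ε.symm j).1 h * e (ε.symm j).2 h)) (one H) ≠ 0} ≃
            {z : (Fin n ⊕ {q : Fin n × Fin n // q.1 < q.2}) × Fin m //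
              classInner (fun h => f h * (mult z.1 h * e z.2 h)) (one H) ≠ 0}).trans
          (Equiv.subtypeProdEquivSigmaSubtype
            (fun q j => classInner (fun h => f h * (mult q h * e j h)) (one H) ≠ 0))),
        Nat.card_sigma]
      calc idxProd (K :: l) = n * idxProd l := by simp [idxProd, hn]
        _ ≤ Q.card * idxProd l := Nat.mul_le_mul_right _ hQ
        _ = ∑ _q ∈ Q, idxProd l := by rw [Finset.sum_const, smul_eq_mul]
        _ ≤ ∑ q ∈ Q, Nat.card {j // classInner (fun h => f h * (mult q h * e j h)) (one H) ≠ 0} :=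
          Finset.sum_le_sum fun q hq => by
            simp only [← mul_assoc]
            exact hcount _ (Finset.mem_filter.1 hq).2
        _ ≤ _ := Finset.sum_le_sum_of_subset (Finset.subset_univ Q)
    · have hq : Good N (fun h => f h * mult (ε.symm j).1 h) := by
        rcases (ε.symm j).1 with a | q
        · exact hf.twist hH (x a)
        · have := (hf.twist hH (x q.1.1)).sub (hf.twist hH (x q.1.2))
          convert this using 1
          funext h
          simp only [mult, Pi.sub_apply]
          ring
      simp only [← mul_assoc]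
      exact hgood _ hq (ε.symm j).2

end Abelian

/-! ### A series of invariant subgroups -/

theorem mul_quad {X : Type*} [Group X] {V : Subgroup X} (hV : ∀ a ∈ V, ∀ b ∈ V, a * b = b * a)
    {a b c d : X} (hb : b ∈ V) (hc : c ∈ V) (hd : d ∈ V) :
    a * b * (d * c) = a * c * (b * d) := by
  have : b * (d * c) = c * (b * d) := by rw [hV c hc (b * d) (V.mul_mem hb hd), mul_assoc]
  rw [mul_assoc, this, ← mul_assoc]

theorem exists_ladder {X : Type*} [Group X] [Finite X] {p : ℕ} [Fact p.Prime] (V H : Subgroup X)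
    (hV : ∀ a ∈ V, ∀ b ∈ V, a * b = b * a) (hexp : ∀ a ∈ V, a ^ p = 1)
    (hH : ∀ a ∈ H, ∀ b ∈ H, a * b = b * a) (hcop : ∀ h ∈ H, Nat.Coprime (orderOf h) p)
    [Fintype H] :
    ∀ W : Subgroup X, W ≤ V → (∀ h ∈ H, ∀ w ∈ W, h * w * h⁻¹ ∈ W) →
      ∃ l : List (Subgroup H),
        (∀ h : H, weight l h * Nat.card ↥(W ⊓ Subgroup.centralizer ({(h : X)} : Set X)) ≤ Nat.card W) ∧
        ∀ h : H, (∀ K ∈ l, h ∈ K) → ∀ w ∈ W, (h : X) * w * (h : X)⁻¹ = w := by
  intro W
  induction hW : Nat.card W using Nat.strong_induction_on generalizing W with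
  | _ k ih =>
  intro hWV hinv
  subst hW
  by_cases hbot : W = ⊥
  · subst hbot
    refine ⟨[], fun h => ?_, fun h _ w hw => ?_⟩
    · simp [weight]
    · rw [Subgroup.mem_bot.1 hw]; simp
  obtain ⟨U, hUmax⟩ := Set.Finite.exists_maximal
    (s := {U : Subgroup X | U < W ∧ ∀ h ∈ H, ∀ u ∈ U, h * u * h⁻¹ ∈ U}) (Set.toFinite _)
    ⟨⊥, bot_lt_iff_ne_bot.2 hbot, fun h _ u hu => by rw [Subgroup.mem_bot.1 hu]; simp⟩
  obtain ⟨hUW, hUinv⟩ := hUmax.prop
  have hUle : U ≤ W := hUW.le
  obtain ⟨l, hl, hfix⟩ := ih _ (Set.ncard_lt_ncard hUW (Set.toFinite _)) U rfl (hUle.trans hWV) hUinv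
  let K : Subgroup H :=
    { carrier := {h | ∀ w ∈ W, (h : X) * w * (h : X)⁻¹ * w⁻¹ ∈ U}
      one_mem' := fun w _ => by simp
      mul_mem' := fun {a b} ha hb w hw => by
        have h1 := U.mul_mem (ha _ (hinv b b.2 w hw)) (hb w hw)
        convert h1 using 1
        simp [mul_assoc]
      inv_mem' := fun {a} ha w hw => by
        have hw' := hinv (a : X)⁻¹ (H.inv_mem a.2) w hw
        have h1 := U.inv_mem (ha _ hw')
        convert h1 using 1
        simp [mul_assoc] }
  obtain ⟨w₀, hw₀, hw₀U⟩ := SetLike.exists_of_lt hUW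
  have hWh : ∀ h : H, h ∉ K → ∀ w ∈ W, (h : X) * w * (h : X)⁻¹ * w⁻¹ ∈ U → w ∈ U := by
    intro h hh
    let Wh : Subgroup X :=
      { carrier := {w | w ∈ W ∧ (h : X) * w * (h : X)⁻¹ * w⁻¹ ∈ U}
        one_mem' := ⟨W.one_mem, by simp⟩
        mul_mem' := fun {a b} ha hb => ⟨W.mul_mem ha.1 hb.1, by
          have h1 := U.mul_mem ha.2 hb.2
          convert h1 using 1
          rw [← mul_quad hV (hWV (hinv h h.2 b hb.1)) (V.inv_mem (hWV ha.1)) (V.inv_mem (hWV hb.1))]
          simp [mul_assoc]⟩
        inv_mem' := fun {a} ha => ⟨W.inv_mem ha.1, by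
          have h1 := U.inv_mem ha.2
          convert h1 using 1
          rw [mul_inv_rev, inv_inv, hV a (hWV ha.1) _ (V.inv_mem (hWV (hinv h h.2 a ha.1)))]
          simp [mul_assoc]⟩ }
    have hUWh : U ≤ Wh := fun u hu =>
      ⟨hUle hu, U.mul_mem (hUinv h h.2 u hu) (U.inv_mem hu)⟩
    have hWhlt : Wh < W := by
      refine lt_of_le_of_ne (fun w hw => hw.1) fun heq => hh fun w hw => ?_
      exact (heq.symm ▸ hw : w ∈ Wh).2
    have hWhinv : ∀ k ∈ H, ∀ w ∈ Wh, k * w * k⁻¹ ∈ Wh := fun k hk w hw =>
      ⟨hinv k hk w hw.1, by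
        have h1 := hUinv k hk _ hw.2
        convert h1 using 1
        have hc : Commute (h : X) k := hH h h.2 k hk
        calc (h : X) * (k * w * k⁻¹) * (h : X)⁻¹ * (k * w * k⁻¹)⁻¹
            = ((h : X) * k) * w * (k⁻¹ * (h : X)⁻¹) * k * w⁻¹ * k⁻¹ := by simp [mul_assoc]
          _ = (k * (h : X)) * w * ((h : X)⁻¹ * k⁻¹) * k * w⁻¹ * k⁻¹ := by
              rw [hc.eq, hc.inv_inv.eq]
          _ = _ := by simp [mul_assoc]⟩
    intro w hw hwU
    exact hUmax.le_of_ge ⟨hWhlt, hWhinv⟩ hUWh ⟨hw, hwU⟩
  refine ⟨K :: l, fun h => ?_, fun h hh w hw => ?_⟩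
  · have hmono : ∀ a b : ℕ, weight (K :: l) h * b ≤ a ↔
        (if h ∈ K then 1 else K.index + 1) * (weight l h * b) ≤ a := fun a b => by
      simp [weight, mul_assoc]
    rw [hmono]
    set C := Subgroup.centralizer ({(h : X)} : Set X)
    by_cases hh : h ∈ K
    · rw [if_pos hh, one_mul]
      have h1 : Nat.card ↥(U ⊓ C) * U.relIndex (W ⊓ C) = Nat.card ↥(W ⊓ C) := by
        have h2 := Subgroup.relIndex_mul_relIndex (⊥ : Subgroup X) (U ⊓ C) (W ⊓ C) bot_le
          (inf_le_inf_right _ hUle)
        rw [Subgroup.relIndex_bot_left, Subgroup.relIndex_bot_left] at h2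
        rw [← h2]
        congr 1
        rw [← Subgroup.inf_relIndex_right U (W ⊓ C), ← inf_assoc, inf_eq_left.2 hUle]
      have h3 : Nat.card U * U.relIndex W = Nat.card W := by
        have h2 := Subgroup.relIndex_mul_relIndex (⊥ : Subgroup X) U W bot_le hUle
        rwa [Subgroup.relIndex_bot_left, Subgroup.relIndex_bot_left] at h2
      rw [← h1, ← h3, ← mul_assoc]
      exact Nat.mul_le_mul (hl h) (Subgroup.relIndex_le_of_le_right inf_le_left
        Subgroup.index_ne_zero_of_finite)
    · rw [if_neg hh]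
      have hCU : W ⊓ C ≤ U := fun w hw => hWh h hh w hw.1 (by
        have := (Subgroup.mem_centralizer_iff.1 hw.2) h rfl
        rw [this]
        simp)
      have heq : W ⊓ C = U ⊓ C := le_antisymm (le_inf hCU inf_le_right) (inf_le_inf_right _ hUle)
      rw [heq]
      have h3 : Nat.card U * U.relIndex W = Nat.card W := by
        have h2 := Subgroup.relIndex_mul_relIndex (⊥ : Subgroup X) U W bot_le hUle
        rwa [Subgroup.relIndex_bot_left, Subgroup.relIndex_bot_left] at h2
      have hidx : K.index + 1 ≤ U.relIndex W := by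
        rw [Subgroup.index, ← Finite.card_option, Subgroup.relIndex, Subgroup.index]
        refine Nat.card_le_card_of_injective
          (fun q : Option (H ⧸ K) => match q with
            | none => ((1 : W) : W ⧸ U.subgroupOf W)
            | some q => ((⟨(q.out : X) * w₀ * (q.out : X)⁻¹, hinv _ q.out.2 w₀ hw₀⟩ : W) :
                W ⧸ U.subgroupOf W)) ?_
        have hne : ∀ a : H, ((⟨(a : X) * w₀ * (a : X)⁻¹, hinv _ a.2 w₀ hw₀⟩ : W) :
            W ⧸ U.subgroupOf W) ≠ ((1 : W) : W ⧸ U.subgroupOf W) := fun a ha => hw₀U (by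
          rw [eq_comm, QuotientGroup.eq, Subgroup.mem_subgroupOf] at ha
          have h4 := hUinv (a : X)⁻¹ (H.inv_mem a.2) _ ha
          simpa [mul_assoc] using h4)
        rintro (_ | q₁) (_ | q₂) he
        · rfl
        · exact absurd he.symm (hne _)
        · exact absurd he (hne _)
        · rw [← q₁.out_eq, ← q₂.out_eq]
          refine congrArg some (QuotientGroup.eq.2 ?_)
          by_contra hnot
          refine hw₀U (hWh _ hnot w₀ hw₀ ?_)
          dsimp only at he
          rw [eq_comm, QuotientGroup.eq, Subgroup.mem_subgroupOf] at he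
          have h4 := hUinv ((q₁.out : X)⁻¹) (H.inv_mem q₁.out.2) _
            (U.inv_mem he)
          have h5 : ((q₁.out⁻¹ * q₂.out : H) : X) * w₀ * ((q₁.out⁻¹ * q₂.out : H) : X)⁻¹ * w₀⁻¹ =
              (q₁.out : X)⁻¹ * ((q₂.out : X) * w₀ * (q₂.out : X)⁻¹ *
                ((q₁.out : X) * w₀ * (q₁.out : X)⁻¹)⁻¹) * (q₁.out : X) := by
            simp [mul_assoc]
          rw [h5]
          have hm1 := hinv _ q₁.out.2 w₀ hw₀
          have hm2 := hinv _ q₂.out.2 w₀ hw₀
          rw [hV _ (hWV hm2) _ (V.inv_mem (hWV hm1))]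
          simpa using h4
      rw [← h3, mul_comm (Nat.card U)]
      exact Nat.mul_le_mul hidx (le_trans (hl h) le_rfl)
  · have hK := hh K List.mem_cons_self w hw
    have hu := hfix h (fun K' hK' => hh K' (List.mem_cons_of_mem _ hK')) _ hK
    set u := (h : X) * w * (h : X)⁻¹ * w⁻¹ with hu'
    have hpow : ∀ k : ℕ, (h : X) ^ k * w * ((h : X) ^ k)⁻¹ = u ^ k * w := by
      intro k
      induction k with
      | zero => simp
      | succ k ihk =>
        have hk2 : (h : X) * u ^ k * (h : X)⁻¹ = u ^ k := by rw [← conj_pow, hu]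
        calc (h : X) ^ (k + 1) * w * ((h : X) ^ (k + 1))⁻¹
            = (h : X) * ((h : X) ^ k * w * ((h : X) ^ k)⁻¹) * (h : X)⁻¹ := by
              rw [pow_succ']; simp [mul_assoc]
          _ = ((h : X) * u ^ k * (h : X)⁻¹) * ((h : X) * w * (h : X)⁻¹ * w⁻¹) * w := by
              rw [ihk]; simp [mul_assoc]
          _ = u ^ (k + 1) * w := by rw [hk2, ← hu', pow_succ]
    have hn := hpow (orderOf (h : X))
    rw [pow_orderOf_eq_one] at hn
    have hu1 : u = 1 := by
      refine orderOf_eq_one_iff.1 (Nat.eq_one_of_dvd_coprimes (hcop h h.2) ?_ ?_)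
      · exact orderOf_dvd_of_pow_eq_one (by simpa using hn)
      · exact orderOf_dvd_of_pow_eq_one (hexp u (hWV (hUle hK)))
    exact mul_inv_eq_one.1 hu1

/-- Let X be a finite group and V a normal subgroup of X in which every element has order dividing the prime p, whose index in X is prime to p and which is its own centralizer in X; so V is an elementary abelian normal Sylow p-subgroup, and any complement G to V in X is a group of order prime to p acting faithfully on the vector space V by conjugation (the coprime linear setting of the k(GV) problem). Let G be a complement to V in X and suppose that for some v in V the centralizer of v in G is abelian. Then the number of conjugacy classes of X is at most the order of V (the abelian-stabilizer criterion for the k(GV) problem). -/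
theorem result {X : Type*} [Group X] [Finite X] (p : ℕ) [Fact p.Prime] (V : Subgroup X) [V.Normal] (hVexp : ∀ v ∈ V, v ^ p = 1) (hidx : ¬ p ∣ V.index) (hself : Subgroup.centralizer (V : Set X) = V) (G : Subgroup X) (hGV : Subgroup.IsComplement' V G) (v : X) (hv : v ∈ V) (hab : ∀ a ∈ G ⊓ Subgroup.centralizer ({v} : Set X), ∀ b ∈ G ⊓ Subgroup.centralizer ({v} : Set X), a * b = b * a) : Nat.card (ConjClasses X) ≤ Nat.card V := by
  have := Fintype.ofFinite X
  have hp : p.Prime := Fact.out
  set H := G ⊓ Subgroup.centralizer ({v} : Set X) with hHdef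
  have := Fintype.ofFinite H
  have hVab : ∀ a ∈ V, ∀ b ∈ V, a * b = b * a := fun a ha b hb => by
    rw [← hself, Subgroup.mem_centralizer_iff] at ha
    exact (ha b hb).symm
  have hVp : IsPGroup p V := fun x => ⟨1, by
    rw [pow_one]; exact Subtype.ext (hVexp x x.2)⟩
  have hcl : ¬ p ∣ (Subgroup.centralizer ({v} : Set X)).index := fun h => hidx (h.trans
    (Subgroup.index_dvd_of_le fun x hx => Subgroup.mem_centralizer_iff.2 fun y hy => by
      rw [Set.mem_singleton_iff.1 hy]; exact hVab v hv x hx))
  have hcop : ∀ h ∈ H, Nat.Coprime (orderOf h) p := fun h hh => by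
    refine Nat.Coprime.coprime_dvd_left ?_ ((hp.coprime_iff_not_dvd.2 hidx).symm)
    rw [hGV.symm.index_eq_card, ← Subgroup.orderOf_mk h hh.1]
    exact orderOf_dvd_natCard _
  have hvH : ∀ h ∈ H, v * h = h * v := fun h hh =>
    (Subgroup.mem_centralizer_iff.1 hh.2) v rfl
  obtain ⟨l, hl, hker⟩ := exists_ladder (p := p) V H hVab hVexp hab hcop V le_rfl
    (fun h _ w hw => ‹V.Normal›.conj_mem w hw h)
  have hHab : ∀ a b : H, a * b = b * a := fun a b => Subtype.ext (hab a a.2 b b.2)
  have hone : ∀ h : H, (∀ K ∈ l, h ∈ K) → h = 1 := by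
    intro h hh
    have hc : (h : X) ∈ V := by
      rw [← hself, Subgroup.mem_centralizer_iff]
      intro w hw
      exact (mul_inv_eq_iff_eq_mul.1 (hker h hh w hw)).symm
    exact Subtype.ext (Subgroup.disjoint_def.1 hGV.disjoint hc h.2.1)
  obtain ⟨m, e, hsq, hcount, hgood⟩ := exists_terms hHab (Nat.card X) l
  let f : IrrCharacter X → H → ℂ := fun χ h => (χ : X → ℂ) (v * h)
  have hfgood : ∀ χ, Good (Nat.card X) (f χ) := fun χ θ =>
    ⟨isIntegral_classInner_shift H v hvH (isCharacter_of_isIrr χ.2) (isCharacter_of_isIrr θ.2), by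
      refine Fixed.mul ((fixed_natCast _ _).inv) (Fixed.sum _ _ fun h _ => Fixed.mul
        (fixed_char (isCharacter_of_isIrr χ.2) _) (Fixed.conj' Nat.card_pos.ne' ?_))
      intro σ hσ
      have := CharGalois.aut_apply_char (σ := σ) (k := 1) (fun μ hμ => by
        rw [pow_one]
        refine hσ μ ?_
        obtain ⟨d, hd⟩ := Subgroup.card_subgroup_dvd_card H
        rw [hd, pow_mul, hμ, one_pow]) (isCharacter_of_isIrr θ.2) h
      rwa [pow_one] at this⟩
  let t : (IrrCharacter X × IrrCharacter H) × Fin m → ℂ := fun z =>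
    classInner (fun h => f z.1.1 h * e z.2 h) (z.1.2 : H → ℂ)
  let r : ℕ := ∑ h : H, Nat.card ↥(V ⊓ Subgroup.centralizer ({(h : X)} : Set X)) *
    (idxProd l * weight l h)
  have hcol : ∀ h : H, ∑ χ : IrrCharacter X, f χ h * conj (f χ h) =
      ((Nat.card ↥(V ⊓ Subgroup.centralizer ({(h : X)} : Set X)) * Nat.card H : ℕ) : ℂ) := by
    intro h
    simp only [f, Complex.mul_conj, ← Complex.ofReal_sum, CharAux.sum_irr_normSq,
      Complex.ofReal_natCast, Nat.cast_inj]
    rw [← Nat.card_prod]
    have hvh : Commute v (h : X) := hvH h h.2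
    have hdec : ∀ x ∈ Subgroup.centralizer ({v * (h : X)} : Set X),
        Commute x v ∧ Commute x (h : X) := by
      intro x hx
      have hxc : Commute x (v * (h : X)) := ((Subgroup.mem_centralizer_iff.1 hx) _ rfl).symm
      have h1 : Commute x (v ^ orderOf (h : X)) := by
        have := hxc.pow_right (orderOf (h : X))
        rwa [hvh.mul_pow, pow_orderOf_eq_one, mul_one] at this
      obtain ⟨k, hk⟩ := exists_pow_eq_self_of_coprime (x := v) (n := orderOf (h : X))
        ((hcop h h.2).coprime_dvd_right (orderOf_dvd_of_pow_eq_one (hVexp v hv)))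
      have hxv : Commute x v := hk ▸ h1.pow_right k
      refine ⟨hxv, ?_⟩
      have h2 := hxv.inv_right.mul_right hxc
      simpa using h2
    refine Nat.card_congr (Equiv.ofBijective (fun z : ↥(V ⊓ Subgroup.centralizer ({(h : X)} : Set X)) × H =>
      (⟨(z.1 : X) * (z.2 : X), ?_⟩ : Subgroup.centralizer ({v * (h : X)} : Set X))) ⟨?_, ?_⟩).symm
    · refine Subgroup.mul_mem _ ?_ ?_ <;> rw [Subgroup.mem_centralizer_iff] <;>
        intro y hy <;> rw [Set.mem_singleton_iff.1 hy]
      · exact Commute.eq (Commute.mul_left (show Commute v (z.1 : X) from hVab v hv _ z.1.2.1)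
          ((Subgroup.mem_centralizer_iff.1 z.1.2.2) _ rfl))
      · exact Commute.eq (Commute.mul_left (show Commute v (z.2 : X) from hvH _ z.2.2)
          (hab h h.2 z.2 z.2.2))
    · intro a b hab'
      have := @hGV.1 (⟨a.1.1, a.1.2.1⟩, ⟨a.2.1, a.2.2.1⟩) (⟨b.1.1, b.1.2.1⟩, ⟨b.2.1, b.2.2.1⟩)
        (congrArg Subtype.val hab')
      simp only [Prod.mk.injEq, Subtype.mk.injEq] at this
      exact Prod.ext (Subtype.ext this.1) (Subtype.ext this.2)
    · rintro ⟨x, hx⟩
      obtain ⟨⟨⟨u, hu⟩, ⟨g, hg⟩⟩, hug⟩ := hGV.2 x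
      obtain ⟨hxv, hxh⟩ := hdec x hx
      have hgv : Commute g v := by
        have : g = u⁻¹ * x := by rw [← hug]; simp
        rw [this]
        exact (Commute.inv_left (hVab u hu v hv)).mul_left hxv
      have hgH : g ∈ H := ⟨hg, Subgroup.mem_centralizer_iff.2 fun y hy => by
        rw [Set.mem_singleton_iff.1 hy]; exact hgv.eq.symm⟩
      have huh : Commute u (h : X) := by
        have : u = x * g⁻¹ := by rw [← hug]; simp
        rw [this]
        exact hxh.mul_left (Commute.inv_left (hab g hgH h h.2))
      exact ⟨(⟨u, hu, Subgroup.mem_centralizer_iff.2 fun y hy => by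
        rw [Set.mem_singleton_iff.1 hy]; exact huh.eq.symm⟩, ⟨g, hgH⟩), Subtype.ext hug⟩
  have hsum : ∑ z, t z * conj (t z) = (r : ℂ) := by
    rw [Fintype.sum_prod_type_right, Finset.sum_congr rfl fun j _ => Fintype.sum_prod_type
      (f := fun y : IrrCharacter X × IrrCharacter H => t (y, j) * conj (t (y, j)))]
    have h1 : ∀ j χ, ∑ θ : IrrCharacter H, t ((χ, θ), j) * conj (t ((χ, θ), j)) =
        classInner (fun h => f χ h * e j h) (fun h => f χ h * e j h) := fun j χ => by
      have hcf : IsClassFunction H (fun h => f χ h * e j h) := fun a b => by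
        rw [hHab b a, mul_inv_cancel_right]
      rw [classInner_eq_sum (φ := fun h => f χ h * e j h) hcf]
    simp only [h1]
    simp only [classInner]
    rw [Finset.sum_congr rfl fun j _ => (Finset.mul_sum _ _ _).symm, ← Finset.mul_sum]
    rw [inv_mul_eq_iff_eq_mul₀ (card_ne_zero_complex H)]
    rw [Finset.sum_congr rfl fun j _ => Finset.sum_comm, Finset.sum_comm]
    simp only [r, Nat.cast_sum, Finset.mul_sum]
    refine Finset.sum_congr rfl fun h _ => ?_
    have h2 : ∀ j, ∑ χ, f χ h * e j h * conj (f χ h * e j h) =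
        (∑ χ, f χ h * conj (f χ h)) * (e j h * conj (e j h)) := fun j => by
      rw [Finset.sum_mul]
      exact Finset.sum_congr rfl fun χ _ => by rw [map_mul]; ring
    rw [Finset.sum_congr rfl fun j _ => h2 j, ← Finset.mul_sum, hcol, hsq]
    push_cast
    ring
  have hbound := card_ne_zero_le Nat.card_pos t (fun z => (hgood _ (hfgood z.1.1) z.2 z.1.2).1)
    (fun z => (hgood _ (hfgood z.1.1) z.2 z.1.2).2) r hsum
  have hr : r ≤ idxProd l * Nat.card V * Nat.card H := by
    refine (Finset.sum_le_card_nsmul _ _ (idxProd l * Nat.card V) fun h _ => ?_).trans (le_of_eq ?_)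
    · rw [mul_comm (Nat.card _), mul_assoc]
      exact Nat.mul_le_mul_left _ (hl h)
    · rw [Finset.card_univ, ← Nat.card_eq_fintype_card, smul_eq_mul]
      ring
  have hlow : Nat.card (ConjClasses X) * (Nat.card H * idxProd l) ≤ Nat.card {z // t z ≠ 0} := by
    rw [Nat.card_congr (Equiv.subtypeProdEquivSigmaSubtype (fun y j => t (y, j) ≠ 0)), Nat.card_sigma,
      ← mul_assoc, ← card_irr_eq_card_conjClasses]
    have hcH : Fintype.card (IrrCharacter H) = Nat.card H := by
      rw [← Nat.card_eq_fintype_card, card_irr_eq_card_conjClasses]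
      refine (Nat.card_congr (Equiv.ofBijective ConjClasses.mk ⟨fun a b h => ?_,
        ConjClasses.mk_surjective⟩)).symm
      obtain ⟨c, hc⟩ := isConj_iff.1 (ConjClasses.mk_eq_mk_iff_isConj.1 h)
      rwa [hHab c a, mul_inv_cancel_right] at hc
    calc Nat.card (IrrCharacter X) * Nat.card H * idxProd l
        = ∑ _y : IrrCharacter X × IrrCharacter H, idxProd l := by
          rw [Finset.sum_const, Finset.card_univ, Fintype.card_prod, hcH, smul_eq_mul,
            Nat.card_eq_fintype_card]
      _ ≤ _ := Finset.sum_le_sum fun y _ => by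
          refine le_trans (hcount (fun h => f y.1 h * conj ((y.2 : H → ℂ) h)) ?_) (le_of_eq ?_)
          · have hval : ∀ h : H, f y.1 h * conj ((y.2 : H → ℂ) h) * (indProd l h : ℂ) =
                if h = 1 then (y.1 : X → ℂ) v * (indProd l (1 : H) : ℂ) else 0 := by
              intro h
              split_ifs with h1
              · subst h1
                simp [f, apply_one_of_abelian hHab]
              · have : indProd l h = 0 := by
                  refine List.prod_eq_zero ?_
                  have hex : ∃ K ∈ l, h ∉ K := by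
                    by_contra hc
                    push Not at hc
                    exact h1 (hone h hc)
                  obtain ⟨K, hK, hhK⟩ := hex
                  exact List.mem_map.2 ⟨K, hK, if_neg hhK⟩
                simp [this]
            simp only [classInner, hval, map_one, mul_one, Finset.sum_ite_eq', Finset.mem_univ, if_true]
            refine mul_ne_zero (inv_ne_zero (card_ne_zero_complex H)) (mul_ne_zero
              (CharNonvanishing.apply_ne_zero hp V hVp hVab y.1.2 hv hcl) (Nat.cast_ne_zero.2 ?_))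
            refine List.prod_ne_zero fun h0 => ?_
            obtain ⟨K, -, hK⟩ := List.mem_map.1 h0
            rw [if_pos K.one_mem] at hK
            exact Subgroup.index_ne_zero_of_finite hK
          · refine Nat.card_congr (Equiv.subtypeEquivRight fun j => ?_)
            simp only [t, classInner, map_one, mul_one]
            rw [Finset.sum_congr rfl fun h _ => mul_right_comm _ _ _]
  have hpos : 0 < Nat.card H * idxProd l := Nat.mul_pos Nat.card_pos (Nat.pos_of_ne_zero
    (List.prod_ne_zero fun h0 => by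
      obtain ⟨K, -, hK⟩ := List.mem_map.1 h0
      exact Subgroup.index_ne_zero_of_finite hK))
  refine Nat.le_of_mul_le_mul_right ?_ hpos
  calc _ ≤ _ := hlow
    _ ≤ r := hbound
    _ ≤ _ := hr.trans (le_of_eq (by ring))

end Cfsg.Agent.S4958
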