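import Cfsg.Statements.S4959
import Cfsg.Agent.Lib.KGV.Weil
import Cfsg.Agent.Lib.InvForms
import Cfsg.Agent.Lib.Ito
import Cfsg.Agent.Lib.Block.Apply
import Cfsg.Agent.Lib.CharNonvanishing
import Mathlib.GroupTheory.Complement
-- import your own Cfsg.Agent.* helpers here

set_option autoImplicit false
open Cfsg

namespace Cfsg.Agent.S4959

open Cfsg.Agent.Lib Cfsg.Agent.Lib.Char Cfsg.Agent.Lib.CharCyclo Cfsg.Agent.Lib.KGV
open scoped ComplexConjugate Classical

universe u

theorem exists_pModular (p : ℕ) [Fact p.Prime] : ∃ M : Ideal AlgInt, IsPModular p M := by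
  have hp : p.Prime := Fact.out
  have hne : Ideal.span {(p : AlgInt)} ≠ ⊤ := by
    rw [Ne, Ideal.span_singleton_eq_top, isUnit_iff_exists_inv]
    rintro ⟨b, hb⟩
    have hb' : (p : ℂ) * (b : ℂ) = 1 := by simpa using congrArg (fun x : AlgInt => (x : ℂ)) hb
    have hb2 : (b : ℂ) = ((1 : ℕ) : ℂ) / (p : ℂ) := by
      rw [Nat.cast_one, eq_div_iff (Nat.cast_ne_zero.2 hp.ne_zero), mul_comm]
      exact hb'
    exact hp.not_dvd_one (dvd_of_isIntegral_div hp.ne_zero (hb2 ▸ b.2))
  obtain ⟨M, hM, hle⟩ := Ideal.exists_le_maximal _ hne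
  exact ⟨M, hp, hM, hle (Ideal.mem_span_singleton_self _)⟩

/-- The functions `η` for a module with a nondegenerate invariant form. -/
theorem hasEta_of_form {p : ℕ} [Fact p.Prime] {H : Type*} [Group H] [Fintype H] (hcop : ¬ p ∣ Fintype.card H)
    {W : Type u} [AddCommGroup W] [Module (ZMod p) W] [Finite W] (ρ : Representation (ZMod p) H W)
    (B : LinearMap.BilinForm (ZMod p) W) (hnd : ∀ x, (∀ y, B x y = 0) → x = 0)
    (hinv : ∀ h x y, B (ρ h x) (ρ h y) = B x y) : HasEta ρ := by
  have hp : p.Prime := Fact.out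
  have : Module.Finite (ZMod p) W := Module.Finite.of_finite
  have hG : (Nat.card H : ZMod p) ≠ 0 := by
    rwa [Nat.card_eq_fintype_card, Ne, ZMod.natCast_eq_zero_iff]
  have hord : ∀ h : H, ¬ p ∣ orderOf h := fun h hd => hcop (hd.trans orderOf_dvd_card)
  obtain ⟨P, Q, A, S, hc, hP, hQ, hA, hAi, hAn, hS, hSi, hSn, htriv⟩ :=
    InvForms.exists_decomposition (ρ := ρ) hG hnd hinv
  let σ : Representation (ZMod p) H P :=
    { toFun := fun h => (ρ h).restrict (hP h)
      map_one' := LinearMap.ext fun x => Subtype.ext (by simp)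
      map_mul' := fun a b => LinearMap.ext fun x => Subtype.ext (by simp) }
  let τ : Representation (ZMod p) H Q :=
    { toFun := fun h => (ρ h).restrict (hQ h)
      map_one' := LinearMap.ext fun x => Subtype.ext (by simp)
      map_mul' := fun a b => LinearMap.ext fun x => Subtype.ext (by simp) }
  let A' : LinearMap.BilinForm (ZMod p) P := A.compl₁₂ P.subtype P.subtype
  let S' : LinearMap.BilinForm (ZMod p) Q := S.compl₁₂ Q.subtype Q.subtype
  have hA'i : ∀ h x y, A' (σ h x) (σ h y) = A' x y := fun h x y => hAi h x x.2 y y.2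
  have hS'i : ∀ h x y, S' (τ h x) (τ h y) = S' x y := fun h x y => hSi h x x.2 y y.2
  have hA'n : ∀ x, (∀ y, A' x y = 0) → x = 0 := fun x hx =>
    Subtype.ext (hAn x x.2 fun y hy => hx ⟨y, hy⟩)
  have hS'n : ∀ x, (∀ y, S' x y = 0) → x = 0 := fun x hx =>
    Subtype.ext (hSn x x.2 fun y hy => hx ⟨y, hy⟩)
  have hS's : ∀ x y, S' x y = S' y x := fun x y => hS _ _
  have hP' : HasEta σ := by
    by_cases h2 : p = 2
    · subst h2
      refine hasEta_gauss σ A' hA'i fun h d hzero => ?_
      have halt : ∀ x : P, A' x x = 0 := fun x => hA _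
      have hsym : ∀ x y : P, A' x y = A' y x := fun x y => by
        have h0 := halt (x + y)
        simp only [map_add, LinearMap.add_apply, halt, zero_add, add_zero] at h0
        linear_combination h0 - CharTwo.add_self_eq_zero (A' y x)
      have h1 : σ h⁻¹ d = σ h d := by
        refine sub_eq_zero.1 (hA'n _ fun u => ?_)
        have hu := hzero u
        have e1 : A' (σ h u) d = A' (σ h⁻¹ d) u := by
          conv_lhs => rw [← rep_apply_inv σ h d]
          rw [hA'i, hsym]
        rw [e1, hsym u d] at hu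
        rw [map_sub, LinearMap.sub_apply]
        linear_combination -hu + CharTwo.add_self_eq_zero (A' d u) - CharTwo.add_self_eq_zero (A' (σ h d) u)
      have h2' : σ (h ^ 2) d = d := by
        rw [sq, map_mul, Module.End.mul_apply, ← h1, rep_apply_inv]
      obtain ⟨k, hk⟩ := Nat.odd_iff.2 (Nat.two_dvd_ne_zero.1 (hord h))
      have hsq : ∀ j : ℕ, σ ((h ^ 2) ^ j) d = d := fun j => by
        induction j with
        | zero => simp
        | succ j ih => rw [pow_succ, map_mul, Module.End.mul_apply, h2', ih]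
      have hh : (h ^ 2) ^ (k + 1) = h := by
        rw [← pow_mul, show 2 * (k + 1) = orderOf h + 1 by omega, pow_succ, pow_orderOf_eq_one, one_mul]
      rw [← hh]
      exact hsq _
    · exact hasEta_weil (β := A') σ h2 hcop (fun x => hA _) hA'n hA'i
  have hQ' : HasEta τ := by
    refine hasEta_gauss τ S' hS'i fun h d hzero => ?_
    by_cases h2 : p = 2
    · subst h2
      exact Subtype.ext (htriv CharTwo.two_eq_zero h d d.2)
    have h2' : (2 : ZMod p) ≠ 0 := by
      intro h0
      have := (ZMod.natCast_eq_zero_iff 2 p).1 (by exact_mod_cast h0)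
      exact h2 ((Nat.prime_dvd_prime_iff_eq hp Nat.prime_two).1 this)
    have h1 : d + d - τ h⁻¹ d - τ h d = 0 := by
      refine hS'n _ fun u => ?_
      have hu := hzero u
      have e1 : S' (τ h u) d = S' (τ h⁻¹ d) u := by
        conv_lhs => rw [← rep_apply_inv τ h d]
        rw [hS'i, hS's]
      rw [e1, hS's u d] at hu
      simp only [map_sub, map_add, LinearMap.sub_apply, LinearMap.add_apply]
      linear_combination hu
    have he : τ h (τ h d - d) = τ h d - d := by
      have h3 := congrArg (τ h) h1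
      simp only [map_sub, map_add, map_zero, rep_apply_inv] at h3
      rw [map_sub]
      rw [← sub_eq_zero] at h3 ⊢
      rw [sub_zero] at h3
      rw [← neg_eq_zero, ← h3]
      abel
    have hk : ∀ k : ℕ, τ (h ^ k) d = d + k • (τ h d - d) := fun k => by
      induction k with
      | zero => simp
      | succ k ih =>
        rw [pow_succ', map_mul, Module.End.mul_apply, ih, map_add, map_nsmul, he, succ_nsmul']
        abel
    have h4 := hk (orderOf h)
    rw [pow_orderOf_eq_one, map_one, Module.End.one_apply, left_eq_add,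
      ← Nat.cast_smul_eq_nsmul (ZMod p), smul_eq_zero] at h4
    exact sub_eq_zero.1 (h4.resolve_left fun h5 => hord h ((ZMod.natCast_eq_zero_iff _ _).1 h5))
  refine HasEta.prod (Submodule.prodEquivOfIsCompl P Q hc) (fun h x => ?_) hP' hQ'
  simp [Submodule.coe_prodEquivOfIsCompl', σ, τ]

/-- A sum weighted by centraliser orders is the group order times a sum over classes. -/
theorem sum_mul_card_centralizer {H : Type*} [Group H] [Fintype H] (φ : H → ℕ)
    (hφ : ∀ a b : H, φ (b * a * b⁻¹) = φ a) :
    ∑ h : H, φ h * Nat.card (Subgroup.centralizer ({h} : Set H)) =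
      Nat.card H * ∑ C : ConjClasses H, φ C.out := by
  rw [← Finset.sum_fiberwise Finset.univ ConjClasses.mk, Finset.mul_sum]
  refine Finset.sum_congr rfl fun C _ => ?_
  have hconst : ∀ h ∈ Finset.univ.filter (fun h : H => ConjClasses.mk h = C),
      φ h * Nat.card (Subgroup.centralizer ({h} : Set H)) =
        φ C.out * Nat.card (Subgroup.centralizer ({C.out} : Set H)) := by
    intro h hh
    have hh' : IsConj C.out h := by
      rw [← ConjClasses.mk_eq_mk_iff_isConj, (Finset.mem_filter.1 hh).2]
      exact Quotient.out_eq C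
    obtain ⟨c, rfl⟩ := isConj_iff.1 hh'
    rw [hφ]
    congr 1
    refine (Nat.card_congr ((Equiv.subtypeEquiv (MulAut.conj c).toEquiv fun x => ?_))).symm
    simp only [Subgroup.mem_centralizer_iff, Set.mem_singleton_iff, forall_eq,
      MulEquiv.toEquiv_eq_coe, MulEquiv.coe_toEquiv, MulAut.conj_apply]
    constructor
    · intro hx
      calc c * C.out * c⁻¹ * (c * x * c⁻¹) = c * (C.out * x) * c⁻¹ := by group
        _ = c * (x * C.out) * c⁻¹ := by rw [hx]
        _ = _ := by group
    · intro hx
      calc C.out * x = c⁻¹ * (c * C.out * c⁻¹ * (c * x * c⁻¹)) * c := by group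
        _ = c⁻¹ * (c * x * c⁻¹ * (c * C.out * c⁻¹)) * c := by rw [hx]
        _ = _ := by group
  rw [Finset.sum_congr rfl hconst, Finset.sum_const, smul_eq_mul]
  have hcl := CharAux.card_conj_mul_card_centralizer C.out
  have hfilter : (Finset.univ.filter fun x => IsConj x C.out) =
      Finset.univ.filter (fun h : H => ConjClasses.mk h = C) := by
    ext x
    simp only [Finset.mem_filter, Finset.mem_univ, true_and]
    rw [← ConjClasses.mk_eq_mk_iff_isConj]
    exact Iff.of_eq (congrArg (ConjClasses.mk x = ·) (Quotient.out_eq C))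
  rw [hfilter] at hcl
  rw [← hcl]
  ring

set_option maxHeartbeats 1600000 in
/-- Let X be a finite group and V a normal subgroup of X in which every element has order dividing the prime p, whose index in X is prime to p and which is its own centralizer in X; so V is an elementary abelian normal Sylow p-subgroup, and any complement G to V in X is a group of order prime to p acting faithfully on the vector space V by conjugation (the coprime linear setting of the k(GV) problem). Let G be a complement to V in X, let v be in V and let H be the centralizer of v in G. Suppose there is a subgroup U of V normalized by H, on which H acts faithfully, and carrying an H-invariant bi-additive pairing β with values in the integers modulo p that is nondegenerate on U (equivalently: the restriction of the module V to H has a faithful self-dual submodule; such a v is called a real vector for G). Then the number of conjugacy classes of X is at most the order of V (the real-vector criterion for the k(GV) problem). The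 pairing is given as a function on X whose relevant values are those on pairs from U. -/
theorem result {X : Type*} [Group X] [Finite X] (p : ℕ) [Fact p.Prime] (V : Subgroup X) [V.Normal] (hVexp : ∀ v ∈ V, v ^ p = 1) (hidx : ¬ p ∣ V.index) (hself : Subgroup.centralizer (V : Set X) = V) (G : Subgroup X) (hGV : Subgroup.IsComplement' V G) (v : X) (hv : v ∈ V) (U : Subgroup X) (hUV : U ≤ V) (hUinv : ∀ h ∈ G, h * v * h⁻¹ = v → ∀ u ∈ U, h * u * h⁻¹ ∈ U) (hUfaith : ∀ h ∈ G, h * v * h⁻¹ = v → (∀ u ∈ U, h * u * h⁻¹ = u) → h = 1) (β : X → X → ZMod p) (hβl : ∀ u ∈ U, ∀ u' ∈ U, ∀ w ∈ U, β (u * u') w = β u w + β u' w) (hβr : ∀ u ∈ U, ∀ w ∈ U, ∀ w' ∈ U, β u (w * w') = β u w + β u w') (hβinv : ∀ h ∈ G, h * v * h⁻¹ = v → ∀ u ∈ U, ∀ w ∈ U, β (h * u * h⁻¹) (h * w * h⁻¹) = β u w) (hβnd : ∀ u ∈ U, (∀ w ∈ U, β u w = 0) → u = 1) : Nat.card (ConjClasses X) ≤ Nat.card V := by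
  have := Fintype.ofFinite X
  have hp : p.Prime := Fact.out
  set H := G ⊓ Subgroup.centralizer ({v} : Set X) with hHdef
  have := Fintype.ofFinite H
  have hVab : ∀ a ∈ V, ∀ b ∈ V, a * b = b * a := fun a ha b hb => by
    rw [← hself, Subgroup.mem_centralizer_iff] at ha
    exact (ha b hb).symm
  have hcopH : ¬ p ∣ Fintype.card H := fun h => hidx (by
    rw [hGV.symm.index_eq_card]
    rw [← Nat.card_eq_fintype_card] at h
    exact h.trans (Subgroup.card_dvd_of_le inf_le_left))
  have hvH : ∀ h ∈ H, v * h = h * v := fun h hh =>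
    (Subgroup.mem_centralizer_iff.1 hh.2) v rfl
  have hfixv : ∀ h : H, (h : X) * v * (h : X)⁻¹ = v := fun h => by
    rw [← hvH _ h.2, mul_inv_cancel_right]
  obtain ⟨M, hM⟩ := exists_pModular p
  have := hM.2.1.isPrime
  -- the module
  let iU : CommGroup U :=
    { (inferInstance : Group U) with mul_comm := fun a b => Subtype.ext (hVab a (hUV a.2) b (hUV b.2)) }
  let iM : Module (ZMod p) (Additive U) := by
    exact AddCommGroup.zmodModule fun x => by
      show Additive.ofMul (x.toMul ^ p) = 0
      rw [show x.toMul ^ p = 1 from Subtype.ext (hVexp _ (hUV x.toMul.2))]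
      rfl
  let act : H → Additive U →+ Additive U := fun h =>
    { toFun := fun x => Additive.ofMul ⟨(h : X) * (x.toMul : X) * (h : X)⁻¹,
        hUinv _ h.2.1 (hfixv h) _ x.toMul.2⟩
      map_zero' := congrArg Additive.ofMul (Subtype.ext (by simp))
      map_add' := fun x y => congrArg Additive.ofMul (Subtype.ext (by simp [mul_assoc])) }
  let ρf : H → Module.End (ZMod p) (Additive U) := fun h => AddMonoidHom.toZModLinearMap p (act h)
  let ρ : Representation (ZMod p) H (Additive U) :=
    { toFun := ρf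
      map_one' := LinearMap.ext fun x => Additive.toMul.injective (Subtype.ext (by simp [ρf, act]))
      map_mul' := fun a b => LinearMap.ext fun x => Additive.toMul.injective
        (Subtype.ext (by simp [ρf, act, Module.End.mul_apply, mul_assoc])) }
  have hρ : ∀ (h : H) (x : Additive U), ((ρ h x).toMul : X) = (h : X) * (x.toMul : X) * (h : X)⁻¹ := fun h x => rfl
  let βu : Additive U → Additive U →+ ZMod p := fun x =>
    AddMonoidHom.mk' (fun y => β x.toMul y.toMul) (fun y y' => hβr _ x.toMul.2 _ y.toMul.2 _ y'.toMul.2)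
  let B : LinearMap.BilinForm (ZMod p) (Additive U) := AddMonoidHom.toZModLinearMap p
    (AddMonoidHom.mk' (fun x => AddMonoidHom.toZModLinearMap p (βu x))
      (fun x x' => LinearMap.ext fun y => hβl _ x.toMul.2 _ x'.toMul.2 _ y.toMul.2))
  have hB : ∀ x y, B x y = β x.toMul y.toMul := fun x y => rfl
  obtain ⟨K, η, hηI, hηn, hηint, hηfix, hη1, hηM⟩ := hasEta_of_form hcopH ρ B
    (fun x hx => by
      have := hβnd _ x.toMul.2 fun w hw => hx (Additive.ofMul ⟨w, hw⟩)
      exact congrArg Additive.ofMul (Subtype.ext this : x.toMul = 1))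
    (fun h x y => hβinv _ h.2.1 (hfixv h) _ x.toMul.2 _ y.toMul.2)
  have hfaith : ∀ h : H, h ≠ 1 → ρ h ≠ 1 := fun h hne he => hne (Subtype.ext
    (hUfaith _ h.2.1 (hfixv h) fun u hu => by
      have := congrArg (fun z : Module.End (ZMod p) (Additive U) => ((z (Additive.ofMul ⟨u, hu⟩)).toMul : X)) he
      exact this))
  have hcfix : ∀ h : H, cfix ρ h = Nat.card ↥(U ⊓ Subgroup.centralizer ({(h : X)} : Set X)) := by
    intro h
    refine Nat.card_congr
      { toFun := fun x => ⟨((x : Additive U).toMul : X), (x : Additive U).toMul.2,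
          Subgroup.mem_centralizer_iff.2 fun y hy => ?_⟩
        invFun := fun x => ⟨Additive.ofMul ⟨x, x.2.1⟩, mem_fix.2 (congrArg Additive.ofMul (Subtype.ext ?_))⟩
        left_inv := fun x => rfl
        right_inv := fun x => rfl }
    · have h1 := congrArg (fun z : Additive U => (z.toMul : X)) (mem_fix.1 x.2)
      rw [Set.mem_singleton_iff.1 hy]
      exact mul_inv_eq_iff_eq_mul.1 h1
    · show (h : X) * x * (h : X)⁻¹ = x
      rw [(Subgroup.mem_centralizer_iff.1 x.2.2) _ rfl, mul_inv_cancel_right]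
  let C : H → Subgroup X := fun h => Subgroup.centralizer ({(h : X)} : Set X)
  let q : H → ℕ := fun h => (C h).relIndex U
  have hq : ∀ h, η h * conj (η h) = (q h : ℂ) := by
    intro h
    have h1 := hηn h
    have h2 : Nat.card (Additive U) = cfix ρ h * q h := by
      rw [hcfix, show Nat.card (Additive U) = Nat.card U from Nat.card_congr Additive.toMul]
      have h3 := Subgroup.relIndex_mul_relIndex (⊥ : Subgroup X) (U ⊓ C h) U bot_le inf_le_left
      rw [Subgroup.relIndex_bot_left, Subgroup.relIndex_bot_left, Subgroup.inf_relIndex_left] at h3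
      exact h3.symm
    rw [h2, Nat.cast_mul, mul_comm (cfix ρ h : ℂ)] at h1
    exact mul_right_cancel₀ (cfix_ne_zero ρ h) h1
  let f : IrrCharacter X → H → ℂ := fun χ h => (χ : X → ℂ) (v * h)
  have hfI : ∀ χ, IntClass.IntFn (f χ) := fun χ => by
    refine ⟨fun a b => ?_, fun θ => isIntegral_classInner_shift H v hvH (isCharacter_of_isIrr χ.2)
      (isCharacter_of_isIrr θ.2)⟩
    show (χ : X → ℂ) (v * ((b : X) * (a : X) * (b : X)⁻¹)) = (χ : X → ℂ) (v * a)
    rw [← isClassFunction_of_isIrr χ.2 (v * a) b]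
    refine congrArg _ ?_
    calc v * ((b : X) * (a : X) * (b : X)⁻¹) = v * (b : X) * (a : X) * (b : X)⁻¹ := by
          simp [mul_assoc]
      _ = (b : X) * v * (a : X) * (b : X)⁻¹ := by rw [hvH _ b.2]
      _ = (b : X) * (v * (a : X)) * (b : X)⁻¹ := by simp [mul_assoc]
  have hHdvd : Nat.card H ∣ Nat.card X := Subgroup.card_subgroup_dvd_card H
  let t : IrrCharacter X × IrrCharacter H → ℂ := fun z =>
    classInner (fun h => η h * f z.1 h) (z.2 : H → ℂ)
  have hfix : ∀ z, Fixed (p * Nat.card X) (t z) := fun z => by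
    refine Fixed.mul ((fixed_natCast _ _).inv) (Fixed.sum _ _ fun h _ => Fixed.mul (Fixed.mul
      (fixed_mono (mul_dvd_mul_left p hHdvd) (hηfix h))
      (fixed_mono (dvd_mul_left _ p) (fixed_char (isCharacter_of_isIrr z.1.2) _))) ?_)
    exact Fixed.conj' (Nat.mul_ne_zero hp.ne_zero Nat.card_pos.ne')
      (fixed_mono (hHdvd.trans (dvd_mul_left _ p)) (fixed_char (isCharacter_of_isIrr z.2.2) h))
  have hHt : ∀ z : IrrCharacter X × IrrCharacter H, (Nat.card H : ℂ) * t z = ∑ h, η h * f z.1 h * conj ((z.2 : H → ℂ) h) := fun z => by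
    simp only [t, classInner, ← mul_assoc]
    rw [mul_inv_cancel₀ (card_ne_zero_complex H), one_mul]
  have hterm : ∀ (z : IrrCharacter X × IrrCharacter H) (h : H), IsIntegral ℤ (η h * f z.1 h * conj ((z.2 : H → ℂ) h)) := fun z h =>
    ((hηint h).mul (char_isIntegral (isCharacter_of_isIrr z.1.2) _)).mul
      (CharGalois.isIntegral_conj (char_isIntegral (isCharacter_of_isIrr z.2.2) h))
  have hint : ∀ z, IsIntegral ℤ (t z) := fun z => by
    have h1 : IsIntegral ℤ ((Nat.card H : ℂ) * t z) := by
      rw [hHt]; exact IsIntegral.sum _ fun h _ => hterm z h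
    have h2 : IsIntegral ℤ ((p : ℂ) ^ K * t z) := by
      have h3 := (hηI.mul (hfI z.1)).2 z.2
      have e : classInner ((((p : ℂ) ^ K) • η) * f z.1) (z.2 : H → ℂ) = (p : ℂ) ^ K * t z := by
        simp only [t, classInner, Pi.mul_apply, Pi.smul_apply, smul_eq_mul, mul_assoc, ← Finset.mul_sum]
        ring
      rwa [e] at h3
    have hg := Nat.gcd_eq_gcd_ab (Nat.card H) (p ^ K)
    rw [(Nat.Coprime.pow_right K ((hp.coprime_iff_not_dvd.2 (by rwa [Nat.card_eq_fintype_card])).symm)).gcd_eq_one] at hg
    have e : t z = ((Nat.gcdA (Nat.card H) (p ^ K) : ℤ) : ℂ) * ((Nat.card H : ℂ) * t z) +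
        ((Nat.gcdB (Nat.card H) (p ^ K) : ℤ) : ℂ) * ((p : ℂ) ^ K * t z) := by
      have := congrArg (fun k : ℤ => (k : ℂ) * t z) hg
      push_cast at this
      linear_combination this
    rw [e]
    exact ((isIntegral_algebraMap (x := (Nat.gcdA (Nat.card H) (p ^ K) : ℤ))).mul h1).add
      ((isIntegral_algebraMap (x := (Nat.gcdB (Nat.card H) (p ^ K) : ℤ))).mul h2)
  have hne : ∀ z, t z ≠ 0 := by
    intro z h0
    have h1 := congrArg (Block.redC M) (hHt z)
    rw [h0, mul_zero, Block.redC_zero, Block.redC_sum _ fun h _ => Block.integral_mem_locRing (hterm z h),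
      Finset.sum_eq_single 1] at h1
    · have hdX : ¬ p ∣ charDegree (z.1 : X → ℂ) := fun hd =>
        hidx (hd.trans (Ito.degree_dvd_index V hVab z.1.2))
      have hdH : ¬ p ∣ charDegree (z.2 : H → ℂ) := fun hd => hcopH (by
        rw [← Nat.card_eq_fintype_card]
        exact hd.trans (irr_degree_dvd_card z.2.2 (CharAux.charDegree_eq (isCharacter_of_isIrr z.2.2))))
      have hvred : Block.redC M ((z.1 : X → ℂ) v) = Block.redC M ((z.1 : X → ℂ) 1) := by
        have h3 := Block.redC_char_pPart hM (isCharacter_of_isIrr z.1.2) (x := v) (y := 1)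
          (Commute.one_right v) (by
            obtain ⟨i, -, hi⟩ := (Nat.dvd_prime_pow hp).1
              ((pow_one p).symm ▸ orderOf_dvd_of_pow_eq_one (hVexp v hv))
            exact ⟨i, hi⟩) (by rw [orderOf_one]; exact hp.not_dvd_one)
        rwa [mul_one] at h3
      have hval : η 1 * f z.1 1 * conj ((z.2 : H → ℂ) 1) =
          (z.1 : X → ℂ) v * (charDegree (z.2 : H → ℂ) : ℂ) := by
        rw [hη1, one_mul, CharAux.charDegree_eq (isCharacter_of_isIrr z.2.2), Complex.conj_natCast]
        simp [f]
      rw [hval, Block.redC_mul (Block.irr_mem_locRing _ _) (natCast_mem _ _), hvred,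
        CharAux.charDegree_eq (isCharacter_of_isIrr z.1.2), eq_comm, mul_eq_zero,
        Block.redC_eq_zero_iff (natCast_mem (Block.locRing M) _),
        Block.redC_eq_zero_iff (natCast_mem (Block.locRing M) _),
        Block.natCast_memLocalIdeal_iff hM, Block.natCast_memLocalIdeal_iff hM] at h1
      exact h1.elim hdX hdH
    · intro h _ hh
      rw [Block.redC_mul (Block.integral_mem_locRing ((hηint h).mul (char_isIntegral (isCharacter_of_isIrr z.1.2) _)))
          (Block.integral_mem_locRing (CharGalois.isIntegral_conj (char_isIntegral (isCharacter_of_isIrr z.2.2) h))),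
        Block.redC_mul (Block.integral_mem_locRing (hηint h)) (Block.irr_mem_locRing _ _),
        hηM h (hfaith h hh) M hM, zero_mul, zero_mul]
    · simp
  let φ : H → ℕ := fun h => q h * Nat.card ↥(V ⊓ C h)
  have hCconj : ∀ (a b : H) (W : Subgroup X), (∀ w ∈ W, (b : X) * w * (b : X)⁻¹ ∈ W) →
      (∀ w ∈ W, (b : X)⁻¹ * w * (b : X) ∈ W) →
      Nat.card ↥(W ⊓ C (b * a * b⁻¹)) = Nat.card ↥(W ⊓ C a) := by
    intro a b W hW hW'
    refine Nat.card_congr ((Equiv.subtypeEquiv (MulAut.conj (b : X)).toEquiv fun x => ?_)).symm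
    simp only [Subgroup.mem_inf, C, Subgroup.mem_centralizer_iff, Set.mem_singleton_iff, forall_eq,
      MulEquiv.toEquiv_eq_coe, MulEquiv.coe_toEquiv, MulAut.conj_apply, Subgroup.coe_mul, Subgroup.coe_inv]
    constructor
    · rintro ⟨hx, hc⟩
      refine ⟨hW x hx, ?_⟩
      calc (b : X) * a * (b : X)⁻¹ * ((b : X) * x * (b : X)⁻¹) = (b : X) * ((a : X) * x) * (b : X)⁻¹ := by group
        _ = (b : X) * (x * a) * (b : X)⁻¹ := by rw [hc]
        _ = _ := by group
    · rintro ⟨hx, hc⟩
      refine ⟨by have := hW' _ hx; simpa [mul_assoc] using this, ?_⟩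
      calc (a : X) * x = (b : X)⁻¹ * ((b : X) * a * (b : X)⁻¹ * ((b : X) * x * (b : X)⁻¹)) * b := by group
        _ = (b : X)⁻¹ * ((b : X) * x * (b : X)⁻¹ * ((b : X) * a * (b : X)⁻¹)) * b := by rw [hc]
        _ = _ := by group
  have hqU : ∀ h, Nat.card ↥(U ⊓ C h) * q h = Nat.card U := fun h => by
    have h3 := Subgroup.relIndex_mul_relIndex (⊥ : Subgroup X) (U ⊓ C h) U bot_le inf_le_left
    rwa [Subgroup.relIndex_bot_left, Subgroup.relIndex_bot_left, Subgroup.inf_relIndex_left] at h3
  have hφ : ∀ a b : H, φ (b * a * b⁻¹) = φ a := by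
    intro a b
    have hU1 : ∀ w ∈ U, (b : X) * w * (b : X)⁻¹ ∈ U := hUinv _ b.2.1 (hfixv b)
    have hU2 : ∀ w ∈ U, (b : X)⁻¹ * w * (b : X) ∈ U := fun w hw => by
      have := hUinv _ (b⁻¹).2.1 (hfixv b⁻¹) w hw
      simpa using this
    have e1 : q (b * a * b⁻¹) = q a := by
      refine Nat.eq_of_mul_eq_mul_left (Nat.card_pos (α := ↥(U ⊓ C a))) ?_
      conv_lhs => rw [← hCconj a b U hU1 hU2, hqU]
      rw [hqU]
    show q _ * _ = q a * _
    rw [e1, hCconj a b V (fun w hw => ‹V.Normal›.conj_mem w hw b)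
      (fun w hw => by simpa using ‹V.Normal›.conj_mem w hw (b : X)⁻¹)]
  have hcol : ∀ h : H, ∑ χ : IrrCharacter X, f χ h * conj (f χ h) =
      ((Nat.card ↥(V ⊓ C h) * Nat.card (Subgroup.centralizer ({h} : Set H)) : ℕ) : ℂ) := by
    intro h
    simp only [f, Complex.mul_conj, ← Complex.ofReal_sum, CharAux.sum_irr_normSq,
      Complex.ofReal_natCast, Nat.cast_inj]
    rw [← Nat.card_prod]
    have hvh : Commute v (h : X) := hvH h h.2
    have hcop' : Nat.Coprime (orderOf (h : X)) (orderOf v) := by
      refine Nat.Coprime.coprime_dvd_right (orderOf_dvd_of_pow_eq_one (hVexp v hv))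
        (Nat.Coprime.coprime_dvd_left ?_ ((hp.coprime_iff_not_dvd.2 hcopH).symm))
      rw [Subgroup.orderOf_coe]; exact orderOf_dvd_card
    refine Nat.card_congr (Equiv.ofBijective (fun z : ↥(V ⊓ C h) × ↥(Subgroup.centralizer ({h} : Set H)) =>
      (⟨(z.1 : X) * ((z.2 : H) : X), ?_⟩ : Subgroup.centralizer ({v * (h : X)} : Set X))) ⟨?_, ?_⟩).symm
    · refine Subgroup.mul_mem _ ?_ ?_ <;> rw [Subgroup.mem_centralizer_iff] <;>
        intro y hy <;> rw [Set.mem_singleton_iff.1 hy]
      · exact Commute.eq (Commute.mul_left (show Commute v (z.1 : X) from hVab v hv _ z.1.2.1)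
          ((Subgroup.mem_centralizer_iff.1 z.1.2.2) _ rfl))
      · exact Commute.eq (Commute.mul_left (show Commute v ((z.2 : H) : X) from hvH _ (z.2 : H).2)
          (congrArg Subtype.val ((Subgroup.mem_centralizer_iff.1 z.2.2) _ rfl)))
    · intro a b hab'
      have := @hGV.1 (⟨a.1.1, a.1.2.1⟩, ⟨((a.2 : H) : X), (a.2 : H).2.1⟩)
        (⟨b.1.1, b.1.2.1⟩, ⟨((b.2 : H) : X), (b.2 : H).2.1⟩) (congrArg Subtype.val hab')
      simp only [Prod.mk.injEq, Subtype.mk.injEq] at this
      exact Prod.ext (Subtype.ext this.1) (Subtype.ext (Subtype.ext this.2))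
    · rintro ⟨x, hx⟩
      have hxc : Commute x (v * (h : X)) := ((Subgroup.mem_centralizer_iff.1 hx) _ rfl).symm
      have hxv : Commute x v := by
        have h1 : Commute x (v ^ orderOf (h : X)) := by
          have := hxc.pow_right (orderOf (h : X))
          rwa [hvh.mul_pow, pow_orderOf_eq_one, mul_one] at this
        obtain ⟨k, hk⟩ := exists_pow_eq_self_of_coprime (x := v) (n := orderOf (h : X)) hcop'
        exact hk ▸ h1.pow_right k
      have hxh : Commute x (h : X) := by simpa using hxv.inv_right.mul_right hxc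
      obtain ⟨⟨⟨u, hu⟩, ⟨g, hg⟩⟩, hug⟩ := hGV.2 x
      have hug' : x = u * g := hug.symm
      have hgv : Commute g v := by
        rw [show g = u⁻¹ * x by rw [hug']; simp]
        exact (Commute.inv_left (hVab u hu v hv)).mul_left hxv
      have hgH : g ∈ H := ⟨hg, Subgroup.mem_centralizer_iff.2 fun y hy => by
        rw [Set.mem_singleton_iff.1 hy]; exact hgv.eq.symm⟩
      -- compare the two decompositions of `h x h⁻¹ = x`
      have h5 := @hGV.1 (⟨(h : X) * u * (h : X)⁻¹, ‹V.Normal›.conj_mem u hu h⟩,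
        ⟨(h : X) * g * (h : X)⁻¹, G.mul_mem (G.mul_mem h.2.1 hg) (G.inv_mem h.2.1)⟩)
        (⟨u, hu⟩, ⟨g, hg⟩) (by
          show (h : X) * u * (h : X)⁻¹ * ((h : X) * g * (h : X)⁻¹) = u * g
          rw [show (h : X) * u * (h : X)⁻¹ * ((h : X) * g * (h : X)⁻¹) = (h : X) * (u * g) * (h : X)⁻¹ by
            simp [mul_assoc], ← hug', ← hxh.eq, mul_inv_cancel_right])
      simp only [Prod.mk.injEq, Subtype.mk.injEq] at h5
      exact ⟨(⟨u, hu, Subgroup.mem_centralizer_iff.2 fun y hy => by
          rw [Set.mem_singleton_iff.1 hy]; exact mul_inv_eq_iff_eq_mul.1 h5.1⟩,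
        ⟨⟨g, hgH⟩, Subgroup.mem_centralizer_iff.2 fun y hy => by
          rw [Set.mem_singleton_iff.1 hy]
          exact Subtype.ext (mul_inv_eq_iff_eq_mul.1 h5.2)⟩), Subtype.ext hug⟩
  let r : ℕ := ∑ Cl : ConjClasses H, φ Cl.out
  have hr0 : Nat.card H * r = ∑ h : H, φ h * Nat.card (Subgroup.centralizer ({h} : Set H)) := by
    rw [sum_mul_card_centralizer φ hφ]
    simp only [r]
    congr!
  have hsum : ∑ z, t z * conj (t z) = (r : ℂ) := by
    rw [Fintype.sum_prod_type]
    have h1 : ∀ χ, ∑ θ : IrrCharacter H, t (χ, θ) * conj (t (χ, θ)) =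
        classInner (fun h => η h * f χ h) (fun h => η h * f χ h) := fun χ => by
      have hcf : IsClassFunction H (fun h => η h * f χ h) := fun a b => by
        have h2 := hηI.1 a b
        simp only [Pi.smul_apply, smul_eq_mul] at h2
        show η (b * a * b⁻¹) * f χ (b * a * b⁻¹) = η a * f χ a
        rw [mul_left_cancel₀ (pow_ne_zero K (natCast_p_ne_zero (p := p))) h2, (hfI χ).1 a b]
      rw [classInner_eq_sum (φ := fun h => η h * f χ h) hcf]
    rw [Finset.sum_congr rfl fun χ _ => h1 χ]
    simp only [classInner]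
    rw [← Finset.mul_sum, inv_mul_eq_iff_eq_mul₀ (card_ne_zero_complex H), Finset.sum_comm, ← Nat.cast_mul,
      hr0, Nat.cast_sum]
    refine Finset.sum_congr rfl fun h _ => ?_
    have h2 : ∑ χ, η h * f χ h * conj (η h * f χ h) =
        (η h * conj (η h)) * ∑ χ, f χ h * conj (f χ h) := by
      rw [Finset.mul_sum]
      exact Finset.sum_congr rfl fun χ _ => by rw [map_mul]; ring
    rw [h2, hcol, hq]
    simp only [φ]
    push_cast
    ring
  have hbound := card_ne_zero_le (Nat.mul_pos hp.pos Nat.card_pos) t hint hfix r hsum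
  have hall : Nat.card {z // t z ≠ 0} = Nat.card (ConjClasses X) * Nat.card (ConjClasses H) := by
    rw [Nat.card_congr (Equiv.subtypeUnivEquiv hne), Nat.card_prod, card_irr_eq_card_conjClasses,
      card_irr_eq_card_conjClasses]
  have hr : r ≤ Nat.card (ConjClasses H) * Nat.card V := by
    refine (Finset.sum_le_card_nsmul _ _ (Nat.card V) fun Cl _ => ?_).trans (le_of_eq ?_)
    · have h3 := Subgroup.relIndex_mul_relIndex (⊥ : Subgroup X) (V ⊓ C Cl.out) V bot_le inf_le_left
      rw [Subgroup.relIndex_bot_left, Subgroup.relIndex_bot_left, Subgroup.inf_relIndex_left] at h3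
      rw [← h3]
      show q Cl.out * _ ≤ _
      rw [mul_comm, mul_comm (Nat.card _) ((C Cl.out).relIndex V)]
      rw [mul_comm _ (Nat.card _)]
      exact Nat.mul_le_mul_left _ (Subgroup.relIndex_le_of_le_right hUV Subgroup.index_ne_zero_of_finite)
    · rw [Finset.card_univ, ← Nat.card_eq_fintype_card, smul_eq_mul]
  rw [hall] at hbound
  refine Nat.le_of_mul_le_mul_right ((hbound.trans hr).trans (le_of_eq (mul_comm _ _))) ?_
  exact Nat.card_pos

end Cfsg.Agent.S4959
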