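import Cfsg.Statements.S4965
import Mathlib.GroupTheory.GroupAction.CardCommute
import Mathlib.GroupTheory.Coset.Card
import Mathlib.GroupTheory.QuotientGroup.Basic
import Mathlib.Tactic.Group
import Mathlib.Tactic.Ring

set_option autoImplicit false
open Cfsg

namespace Cfsg.Agent.S4965

open QuotientGroup

theorem card_sdp_eq {X : Type*} [Group X] [Finite X] (V : Subgroup X) [V.Normal]
    (φ : X ⧸ V →* MulAut ↥V) :
    Nat.card (SemidirectProduct ↥V (X ⧸ V) φ) = Nat.card X := by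
  rw [Nat.card_congr SemidirectProduct.equivProd, Nat.card_prod,
    Subgroup.card_eq_card_quotient_mul_card_subgroup V]
  ring

theorem result {X : Type*} [Group X] [Finite X] (V : Subgroup X) [V.Normal] (hab : ∀ a ∈ V, ∀ b ∈ V, a * b = b * a) (φ : X ⧸ V →* MulAut ↥V) (hφ : ∀ (x : X) (v : ↥V), ((φ (QuotientGroup.mk x) v : ↥V) : X) = x * v * x⁻¹) : Nat.card (ConjClasses X) ≤ Nat.card (ConjClasses (SemidirectProduct ↥V (X ⧸ V) φ)) := by
  classical
  set S := SemidirectProduct ↥V (X ⧸ V) φ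
  haveI : Finite S := Finite.of_equiv _ SemidirectProduct.equivProd.symm
  have hcard : Nat.card S = Nat.card X := card_sdp_eq V φ
  suffices h : Nat.card {p : X × X // Commute p.1 p.2} ≤ Nat.card {p : S × S // Commute p.1 p.2} by
    rw [card_comm_eq_card_conjClasses_mul_card, card_comm_eq_card_conjClasses_mul_card, hcard] at h
    exact Nat.le_of_mul_le_mul_right h Nat.card_pos
  -- a chosen base pair over each pair of cosets
  let base : X ⧸ V → X ⧸ V → X × X := fun a b =>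
    Classical.epsilon fun q : X × X =>
      (QuotientGroup.mk q.1 : X ⧸ V) = a ∧ (QuotientGroup.mk q.2 : X ⧸ V) = b ∧ Commute q.1 q.2
  let bp : X × X → X × X := fun p => base (QuotientGroup.mk p.1) (QuotientGroup.mk p.2)
  have hb : ∀ p : X × X, Commute p.1 p.2 →
      p.1 * (bp p).1⁻¹ ∈ V ∧ p.2 * (bp p).2⁻¹ ∈ V ∧ Commute (bp p).1 (bp p).2 ∧
      ((QuotientGroup.mk (bp p).1 : X ⧸ V) = QuotientGroup.mk p.1) ∧
      ((QuotientGroup.mk (bp p).2 : X ⧸ V) = QuotientGroup.mk p.2) := by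
    intro p hp
    obtain ⟨h1, h2, h3⟩ := Classical.epsilon_spec (p := fun q : X × X =>
      (QuotientGroup.mk q.1 : X ⧸ V) = QuotientGroup.mk p.1 ∧
      (QuotientGroup.mk q.2 : X ⧸ V) = QuotientGroup.mk p.2 ∧ Commute q.1 q.2) ⟨p, rfl, rfl, hp⟩
    refine ⟨?_, ?_, h3, h1, h2⟩
    · rw [← QuotientGroup.eq_one_iff]
      rw [QuotientGroup.mk_mul, QuotientGroup.mk_inv]
      exact mul_inv_eq_one.2 h1.symm
    · rw [← QuotientGroup.eq_one_iff]
      rw [QuotientGroup.mk_mul, QuotientGroup.mk_inv]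
      exact mul_inv_eq_one.2 h2.symm
  let f : {p : X × X // Commute p.1 p.2} → {p : S × S // Commute p.1 p.2} := fun p =>
    ⟨(⟨⟨p.1.1 * (bp p.1).1⁻¹, (hb _ p.2).1⟩, QuotientGroup.mk p.1.1⟩,
      ⟨⟨p.1.2 * (bp p.1).2⁻¹, (hb _ p.2).2.1⟩, QuotientGroup.mk p.1.2⟩), by
      obtain ⟨⟨x, y⟩, hxy⟩ := p
      obtain ⟨hu, hw, hc, e1, e2⟩ := hb _ hxy
      dsimp only at hu hw hc e1 e2 ⊢
      generalize hx0 : (bp (x, y)).1 = x0 at hu hw hc e1 e2 ⊢
      generalize hy0 : (bp (x, y)).2 = y0 at hu hw hc e1 e2 ⊢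
      apply SemidirectProduct.ext
      · apply Subtype.ext
        show (x * x0⁻¹) * ((φ (QuotientGroup.mk x) ⟨y * y0⁻¹, hw⟩ : ↥V) : X) =
          (y * y0⁻¹) * ((φ (QuotientGroup.mk y) ⟨x * x0⁻¹, hu⟩ : ↥V) : X)
        rw [← e1, ← e2, hφ, hφ]
        have h := hxy.eq
        have h0 := hc.eq
        calc x * x0⁻¹ * (x0 * (y * y0⁻¹) * x0⁻¹) = x * y * (x0 * y0)⁻¹ := by group
          _ = y * x * (y0 * x0)⁻¹ := by rw [h, h0]
          _ = y * y0⁻¹ * (y0 * (x * x0⁻¹) * y0⁻¹) := by group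
      · show (QuotientGroup.mk x : X ⧸ V) * QuotientGroup.mk y = QuotientGroup.mk y * QuotientGroup.mk x
        rw [← QuotientGroup.mk_mul, ← QuotientGroup.mk_mul, hxy.eq]⟩
  refine Nat.card_le_card_of_injective f ?_
  rintro ⟨⟨x, y⟩, hxy⟩ ⟨⟨x', y'⟩, hxy'⟩ h
  have h' := congrArg Subtype.val h
  have hxl := congrArg (fun z : S × S => ((z.1.left : ↥V) : X)) h'
  have hyl := congrArg (fun z : S × S => ((z.2.left : ↥V) : X)) h'
  have hxq := congrArg (fun z : S × S => z.1.right) h'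
  have hyq := congrArg (fun z : S × S => z.2.right) h'
  change x * (bp (x, y)).1⁻¹ = x' * (bp (x', y')).1⁻¹ at hxl
  change y * (bp (x, y)).2⁻¹ = y' * (bp (x', y')).2⁻¹ at hyl
  change (QuotientGroup.mk x : X ⧸ V) = QuotientGroup.mk x' at hxq
  change (QuotientGroup.mk y : X ⧸ V) = QuotientGroup.mk y' at hyq
  have hbeq : bp (x, y) = bp (x', y') := by simp only [bp, hxq, hyq]
  rw [hbeq] at hxl hyl
  exact Subtype.ext (Prod.ext (mul_right_cancel hxl) (mul_right_cancel hyl))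

end Cfsg.Agent.S4965
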