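import Cfsg.Statements.S4967
import Mathlib.FieldTheory.Finite.Basic
import Mathlib.RingTheory.IntegralDomain
import Mathlib.LinearAlgebra.Dual.Lemmas
import Mathlib.LinearAlgebra.BilinearForm.Properties
-- import your own Cfsg.Agent.* helpers here

set_option autoImplicit false
open Cfsg

namespace Cfsg.Agent.S4967

universe w

variable {F : Type*} [Field F] [Fintype F] {H : Type*} [CommGroup H] [Finite H]
  {V : Type w} [AddCommGroup V] [Module F V] [FiniteDimensional F V]

omit [Fintype F] [Finite H] [FiniteDimensional F V] in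
theorem commute_of_mem (ρ : Representation F H V) :
    ∀ a ∈ Algebra.adjoin F (Set.range ρ), ∀ b ∈ Algebra.adjoin F (Set.range ρ), a * b = b * a := by
  intro a ha b hb
  refine Algebra.commute_of_mem_adjoin_of_forall_mem_commute (R := F) hb (fun y hy => ?_)
  obtain ⟨h, rfl⟩ := hy
  refine (Algebra.commute_of_mem_adjoin_of_forall_mem_commute (R := F) ha fun z hz => ?_).symm
  obtain ⟨k, rfl⟩ := hz
  show ρ h * ρ k = ρ k * ρ h
  rw [← map_mul, ← map_mul, mul_comm]

omit [Finite H] in
/-- The enveloping field of a faithful irreducible representation of an abelian group, with the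
evaluation at a nonzero vector. -/
theorem exists_field (ρ : Representation F H V) (hfaith : Function.Injective ρ)
    (hirr : ∀ U : Submodule F V, (∀ h : H, ∀ u ∈ U, ρ h u ∈ U) → U = ⊥ ∨ U = ⊤)
    (hn : 0 < Module.finrank F V) :
    ∃ (K : Type w) (_ : Field K) (_ : Algebra F K) (_ : Finite K) (act : K →ₐ[F] Module.End F V)
      (ι : H →* K) (e : K ≃ₗ[F] V),
      Function.Injective ι ∧ (∀ h, act (ι h) = ρ h) ∧ Algebra.adjoin F (Set.range ι) = ⊤ ∧
      ∀ a b : K, act a (e b) = e (a * b) := by
  classical
  let A := Algebra.adjoin F (Set.range ρ)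
  have : Finite V := Module.finite_of_finite F
  have : Finite (Module.End F V) := Finite.of_injective (fun f : Module.End F V => ⇑f) DFunLike.coe_injective
  let cr : CommRing A := { (A.toRing : Ring A) with
    mul_comm := fun a b => Subtype.ext (commute_of_mem ρ a a.2 b b.2) }
  obtain ⟨v, hv⟩ := Module.finrank_pos_iff_exists_ne_zero.1 hn
  have : Nontrivial V := ⟨⟨v, 0, hv⟩⟩
  have hinj : ∀ a : A, (a : Module.End F V) ≠ 0 → ∀ x, (a : Module.End F V) x = 0 → x = 0 := by
    intro a ha x hx
    rcases hirr (LinearMap.ker (a : Module.End F V)) (fun h u hu => by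
      have hc := commute_of_mem ρ a a.2 (ρ h) (Algebra.subset_adjoin ⟨h, rfl⟩)
      rw [LinearMap.mem_ker] at hu ⊢
      rw [← Module.End.mul_apply, hc, Module.End.mul_apply, hu, map_zero]) with hk | hk
    · exact (Submodule.mem_bot F).1 (hk ▸ (LinearMap.mem_ker.2 hx : x ∈ LinearMap.ker _))
    · exact absurd (LinearMap.ker_eq_top.1 hk) ha
  have : NoZeroDivisors A := ⟨fun {a b} hab => by
    by_contra hne
    push Not at hne
    refine hne.2 (Subtype.ext (LinearMap.ext fun x => ?_))
    have h1 : (a : Module.End F V) ((b : Module.End F V) x) = 0 := by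
      rw [← Module.End.mul_apply]
      exact LinearMap.congr_fun (congrArg Subtype.val hab) x
    exact hinj a (fun h0 => hne.1 (Subtype.ext h0)) _ h1⟩
  have : Nontrivial A := ⟨⟨0, 1, fun h => hv (by
    have := LinearMap.congr_fun (congrArg Subtype.val h) v
    simpa using this.symm)⟩⟩
  have : IsDomain A := NoZeroDivisors.to_isDomain A
  let fld : Field A := IsField.toField (Finite.isField_of_domain A)
  let ev : A →ₗ[F] V :=
    { toFun := fun a => (a : Module.End F V) v
      map_add' := fun a b => rfl
      map_smul' := fun c a => rfl }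
  have hev : Function.Injective ev := by
    rw [injective_iff_map_eq_zero]
    intro a ha
    by_contra hne
    exact hv (hinj a (fun h0 => hne (Subtype.ext h0)) v ha)
  have hsurj : Function.Surjective ev := by
    rw [← LinearMap.range_eq_top]
    rcases hirr (LinearMap.range ev) (fun h u hu => by
      obtain ⟨a, rfl⟩ := LinearMap.mem_range.1 hu
      exact LinearMap.mem_range.2 ⟨⟨ρ h, Algebra.subset_adjoin ⟨h, rfl⟩⟩ * a, rfl⟩) with hr | hr
    · exact absurd ((Submodule.mem_bot F).1 (hr ▸ LinearMap.mem_range_self ev 1)) hv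
    · exact hr
  refine ⟨A, fld, A.algebra, inferInstance, A.val,
    { toFun := fun h => ⟨ρ h, Algebra.subset_adjoin ⟨h, rfl⟩⟩
      map_one' := Subtype.ext (map_one ρ)
      map_mul' := fun a b => Subtype.ext (map_mul ρ a b) },
    LinearEquiv.ofBijective ev ⟨hev, hsurj⟩,
    fun a b hab => hfaith (congrArg Subtype.val hab), fun h => rfl, ?_, fun a b => rfl⟩
  refine (Algebra.eq_top_iff).2 fun x => ?_
  have hmap : (Algebra.adjoin F (Set.range fun h : H => (⟨ρ h, Algebra.subset_adjoin ⟨h, rfl⟩⟩ : A))).map A.val = A := by
    rw [AlgHom.map_adjoin, ← Set.range_comp]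
    rfl
  have hx : (x : Module.End F V) ∈ (Algebra.adjoin F (Set.range fun h : H =>
      (⟨ρ h, Algebra.subset_adjoin ⟨h, rfl⟩⟩ : A))).map A.val := by
    rw [hmap]
    exact x.2
  obtain ⟨y, hy, hyx⟩ := Subalgebra.mem_map.1 hx
  have hxy : x = y := Subtype.ext hyx.symm
  rwa [hxy]

omit [Finite H] in
/-- The dimension is the least exponent of `q` fixing the image of the group. -/
theorem finrank_le {K : Type*} [Field K] [Algebra F K] [Finite K] (ι : H →* K)
    (hgen : Algebra.adjoin F (Set.range ι) = ⊤) {k : ℕ} (hk : 0 < k)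
    (h : ∀ x, ι x ^ (Fintype.card F) ^ k = ι x) : Module.finrank F K ≤ k := by
  classical
  have := Fintype.ofFinite K
  let ψ : K →ₐ[F] K := FiniteField.frobeniusAlgHom F K ^ k
  have hψ : ∀ a, ψ a = a ^ (Fintype.card F) ^ k := fun a => by
    simp only [ψ, AlgHom.coe_pow, FiniteField.coe_frobeniusAlgHom, pow_iterate]
  have hid : ∀ a : K, a ^ (Fintype.card F) ^ k = a := by
    have : ψ = AlgHom.id F K := AlgHom.ext_of_adjoin_eq_top hgen fun a ⟨x, hx⟩ => by
      rw [← hx, hψ, h x]; rfl
    intro a
    rw [← hψ, this]; rfl
  have hr : 2 ≤ Fintype.card F := Fintype.one_lt_card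
  have hpos : 1 ≤ (Fintype.card F) ^ k := Nat.one_le_pow _ _ (by omega)
  have hdvd : Nat.card Kˣ ∣ (Fintype.card F) ^ k - 1 := by
    rw [← IsCyclic.exponent_eq_card]
    refine Monoid.exponent_dvd_of_forall_pow_eq_one fun u => Units.ext ?_
    rw [Units.val_pow_eq_pow_val, Units.val_one]
    have h1 := hid (u : K)
    rw [← Nat.sub_add_cancel hpos, pow_succ] at h1
    exact (mul_eq_right₀ u.ne_zero).1 h1
  rw [Nat.card_units, Nat.card_eq_fintype_card, Module.card_eq_pow_finrank (K := F)] at hdvd
  have hk1 : 1 < (Fintype.card F) ^ k := Nat.one_lt_pow hk.ne' hr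
  have := Nat.le_of_dvd (by omega) hdvd
  have hn1 : 1 ≤ (Fintype.card F) ^ Module.finrank F K := Nat.one_le_pow _ _ (by omega)
  exact (Nat.pow_le_pow_iff_right hr).1 (by omega)

/-- Let F be a finite field with r elements and of characteristic p, H a finite abelian group of order prime to p, and V a faithful irreducible representation of H over F of dimension n (faithful: distinct elements act differently; irreducible: the only H-invariant subspaces are 0 and V). Call V self-dual when it carries a nondegenerate H-invariant bilinear form. If n = 1 and V is self-dual then H has order at most 2. If n ≥ 2 then V is self-dual if and only if n is even and the order of H divides r^(n/2) + 1. -/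
theorem result {F : Type*} [Field F] [Fintype F] (p : ℕ) [Fact p.Prime] [CharP F p] {H : Type*} [CommGroup H] [Finite H] (hcop : ¬ p ∣ Nat.card H) {V : Type*} [AddCommGroup V] [Module F V] [FiniteDimensional F V] (ρ : Representation F H V) (hfaith : Function.Injective ρ) (hirr : ∀ U : Submodule F V, (∀ h : H, ∀ u ∈ U, ρ h u ∈ U) → U = ⊥ ∨ U = ⊤) : (Module.finrank F V = 1 → (∃ B : LinearMap.BilinForm F V, B.Nondegenerate ∧ ∀ h : H, ∀ x y : V, B (ρ h x) (ρ h y) = B x y) → Nat.card H ≤ 2) ∧ (2 ≤ Module.finrank F V → ((∃ B : LinearMap.BilinForm F V, B.Nondegenerate ∧ ∀ h : H, ∀ x y : V, B (ρ h x) (ρ h y) = B x y) ↔ (Even (Module.finrank F V) ∧ Nat.card H ∣ Fintype.card F ^ (Module.finrank F V / 2) + 1))) := by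
  classical
  have hr : 2 ≤ Fintype.card F := Fintype.one_lt_card
  have main : 0 < Module.finrank F V →
      ((∃ B : LinearMap.BilinForm F V, B.Nondegenerate ∧
        ∀ h : H, ∀ x y : V, B (ρ h x) (ρ h y) = B x y) →
        (Module.finrank F V = 1 ∧ Nat.card H ≤ 2) ∨
        (Even (Module.finrank F V) ∧ Nat.card H ∣ Fintype.card F ^ (Module.finrank F V / 2) + 1)) ∧
      (Even (Module.finrank F V) ∧ Nat.card H ∣ Fintype.card F ^ (Module.finrank F V / 2) + 1 →
        ∃ B : LinearMap.BilinForm F V, B.Nondegenerate ∧
          ∀ h : H, ∀ x y : V, B (ρ h x) (ρ h y) = B x y) := by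
    intro hn
    obtain ⟨K, iF, iA, iK, act, ι, e, hι, hact, hgen, he⟩ := exists_field ρ hfaith hirr hn
    let _ := iF
    let _ := iA
    have := iK
    have hdim : Module.finrank F K = Module.finrank F V := e.finrank_eq
    have hcyc : IsCyclic H := isCyclic_of_injective_ringHom ι hι
    have hρe : ∀ h a, ρ h (e a) = e (ι h * a) := fun h a => by rw [← hact, he]
    constructor
    · rintro ⟨B, hB, hBinv⟩
      -- the adjoint automorphism
      have hadj : ∀ a : K, ∃ b : K, ∀ x y, B (act a x) y = B x (act b y) := by
        intro a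
        have ha : a ∈ Algebra.adjoin F (Set.range ι) := by rw [hgen]; trivial
        induction ha using Algebra.adjoin_induction with
        | mem a ha =>
          obtain ⟨h, rfl⟩ := ha
          refine ⟨ι h⁻¹, fun x y => ?_⟩
          rw [hact, hact]
          conv_lhs => rw [show y = ρ h (ρ h⁻¹ y) by rw [← Module.End.mul_apply, ← map_mul, mul_inv_cancel, map_one]; rfl]
          rw [hBinv]
        | algebraMap c => exact ⟨algebraMap F K c, fun x y => by simp⟩
        | add a b _ _ ha hb =>
          obtain ⟨a', ha'⟩ := ha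
          obtain ⟨b', hb'⟩ := hb
          exact ⟨a' + b', fun x y => by simp [ha', hb']⟩
        | mul a b _ _ ha hb =>
          obtain ⟨a', ha'⟩ := ha
          obtain ⟨b', hb'⟩ := hb
          refine ⟨a' * b', fun x y => ?_⟩
          rw [map_mul, Module.End.mul_apply, ha', hb', mul_comm a' b', map_mul, Module.End.mul_apply]
      choose s hs using hadj
      have huniq : ∀ b b' : K, (∀ x y, B x (act b y) = B x (act b' y)) → b = b' := by
        intro b b' hbb
        have h1 : act b (e 1) = act b' (e 1) := by
          refine sub_eq_zero.1 (hB.2 _ fun x => ?_)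
          rw [map_sub, sub_eq_zero]
          exact hbb x _
        rw [he, he, mul_one, mul_one] at h1
        exact e.injective h1
      let σ : K →ₐ[F] K :=
        { toFun := s
          map_one' := huniq _ _ fun x y => by rw [← hs]; simp
          map_mul' := fun a b => huniq _ _ fun x y => by
            rw [← hs, map_mul, Module.End.mul_apply, hs, hs, mul_comm (s a) (s b), map_mul,
              Module.End.mul_apply]
          map_zero' := huniq _ _ fun x y => by rw [← hs]; simp
          map_add' := fun a b => huniq _ _ fun x y => by rw [← hs]; simp [hs]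
          commutes' := fun c => huniq _ _ fun x y => by rw [← hs]; simp }
      have hσι : ∀ h, σ (ι h) = ι h⁻¹ := fun h => huniq _ _ fun x y => by
        show B x (act (s (ι h)) y) = _
        rw [← hs, hact, hact]
        conv_lhs => rw [show y = ρ h (ρ h⁻¹ y) by rw [← Module.End.mul_apply, ← map_mul, mul_inv_cancel, map_one]; rfl]
        rw [hBinv]
      have hσbij : Function.Bijective σ := Finite.injective_iff_bijective.1 σ.toRingHom.injective
      obtain ⟨j, hj⟩ := (FiniteField.bijective_frobeniusAlgEquivOfAlgebraic_pow F K).2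
        (AlgEquiv.ofBijective σ hσbij)
      have hσj : ∀ a, σ a = a ^ (Fintype.card F) ^ (j : ℕ) := fun a => by
        have h1 := congrArg (fun f : K ≃ₐ[F] K => f a) hj
        simp only [AlgEquiv.coe_pow, FiniteField.coe_frobeniusAlgEquivOfAlgebraic, pow_iterate] at h1
        exact h1.symm
      have hinv : ∀ h : H, h ^ ((Fintype.card F) ^ (j : ℕ) + 1) = 1 := fun h => hι (by
        rw [map_pow, pow_succ, ← hσj, hσι, ← map_mul, inv_mul_cancel])
      have hdvd : Nat.card H ∣ (Fintype.card F) ^ (j : ℕ) + 1 := by
        rw [← IsCyclic.exponent_eq_card]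
        exact Monoid.exponent_dvd_of_forall_pow_eq_one hinv
      have hjlt : (j : ℕ) < Module.finrank F V := hdim ▸ j.2
      by_cases hj0 : (j : ℕ) = 0
      · left
        rw [hj0, pow_zero] at hdvd
        refine ⟨?_, Nat.le_of_dvd (by norm_num) hdvd⟩
        have h1 : Module.finrank F K ≤ 1 := by
          refine finrank_le ι hgen one_pos fun h => ?_
          have h2 : ι h * ι h = 1 := by
            have := congrArg ι (hinv h)
            rw [hj0, pow_zero, map_pow, map_one] at this
            simpa [sq] using this
          rcases mul_self_eq_one_iff.1 h2 with h3 | h3 <;> rw [h3, pow_one]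
          · rw [one_pow]
          · rw [← map_one (algebraMap F K), ← map_neg, ← map_pow, FiniteField.pow_card]
        omega
      · right
        have hper : ∀ h, ι h ^ (Fintype.card F) ^ (2 * (j : ℕ)) = ι h := fun h => by
          rw [two_mul, pow_add, pow_mul, ← hσj, ← hσj, hσι, hσι, inv_inv]
        have hle := finrank_le ι hgen (by omega) hper
        have heq : 2 * (j : ℕ) = Module.finrank F V := by
          refine le_antisymm ?_ (hdim ▸ hle)
          by_contra hgt
          have := Fintype.ofFinite K
          have hcard : ∀ a : K, a ^ (Fintype.card F) ^ Module.finrank F K = a := fun a => by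
            rw [← Module.card_eq_pow_finrank]; exact FiniteField.pow_card a
          have h2 := finrank_le ι hgen (k := 2 * (j : ℕ) - Module.finrank F K) (by omega) fun h => by
            have h3 := hper h
            rwa [show 2 * (j : ℕ) = Module.finrank F K + (2 * (j : ℕ) - Module.finrank F K) by omega,
              pow_add, pow_mul, hcard] at h3
          omega
        refine ⟨⟨j, by omega⟩, ?_⟩
        rwa [show Module.finrank F V / 2 = (j : ℕ) by omega]
    · rintro ⟨⟨m, hm⟩, hdvd⟩
      have hm' : Module.finrank F V / 2 = m := by omega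
      rw [hm'] at hdvd
      let σ : K →ₐ[F] K := FiniteField.frobeniusAlgHom F K ^ m
      have hσ : ∀ a, σ a = a ^ (Fintype.card F) ^ m := fun a => by
        simp only [σ, AlgHom.coe_pow, FiniteField.coe_frobeniusAlgHom, pow_iterate]
      have hσbij : Function.Bijective σ := Finite.injective_iff_bijective.1 σ.toRingHom.injective
      obtain ⟨τ, hτ⟩ : ∃ τ : Module.Dual F K, τ 1 ≠ 0 := by
        by_contra hall
        push Not at hall
        exact one_ne_zero ((Module.forall_dual_apply_eq_zero_iff F (1 : K)).1 hall)
      let B : LinearMap.BilinForm F V :=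
        LinearMap.mk₂ F (fun x y => τ (e.symm x * σ (e.symm y)))
          (fun x x' y => by simp [add_mul]) (fun c x y => by simp)
          (fun x y y' => by simp [mul_add]) (fun c x y => by simp)
      have hBapp : ∀ a b, B (e a) (e b) = τ (a * σ b) := fun a b => by simp [B]
      refine ⟨B, ⟨?_, ?_⟩, ?_⟩
      · intro x hx
        obtain ⟨a, rfl⟩ := e.surjective x
        by_contra hne
        have ha : a ≠ 0 := fun h => hne (by rw [h, map_zero])
        obtain ⟨b, hb⟩ := hσbij.2 a⁻¹
        exact hτ (by rw [← mul_inv_cancel₀ ha, ← hb, ← hBapp]; exact hx _)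
      · intro y hy
        obtain ⟨b, rfl⟩ := e.surjective y
        by_contra hne
        have hb : σ b ≠ 0 := fun h => hne (by rw [hσbij.1 (h.trans (map_zero σ).symm), map_zero])
        exact hτ (by rw [← inv_mul_cancel₀ hb, ← hBapp]; exact hy _)
      · intro h x y
        obtain ⟨a, rfl⟩ := e.surjective x
        obtain ⟨b, rfl⟩ := e.surjective y
        rw [hρe, hρe, hBapp, hBapp, map_mul σ, mul_mul_mul_comm, hσ (ι h), ← pow_succ']
        obtain ⟨c, hc⟩ := hdvd
        rw [← map_pow, hc, pow_mul, pow_card_eq_one', one_pow, map_one, one_mul]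
  constructor
  · intro h1 hB
    rcases (main (by omega)).1 hB with ⟨-, h⟩ | ⟨h, -⟩
    · exact h
    · rw [h1] at h; exact absurd h (by decide)
  · intro h2
    refine ⟨fun hB => ?_, (main (by omega)).2⟩
    rcases (main (by omega)).1 hB with ⟨h, -⟩ | h
    · omega
    · exact h

end Cfsg.Agent.S4967
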