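import Mathlib
import Cfsg.Statements.S5010
import Cfsg.Agent.Lib.Char.ThreeDeg.Tools
import Cfsg.Agent.Lib.Char.Degree
import Cfsg.Agent.Lib.Components.Cores
import Cfsg.Agent.Lib.Hall.Solvable
import Cfsg.Agent.Lib.Transfer.Basic

set_option autoImplicit false
set_option linter.all false

open scoped commutatorElement Pointwise

namespace Cfsg.Agent.S5010

open Subgroup
open Cfsg.Agent.Lib Cfsg.Agent.Lib.Char Cfsg.Agent.Lib.Components

universe u

variable {G : Type u} [Group G] [Finite G]

/-- All degrees are squarefree. -/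
def SqDeg (G : Type*) [Group G] : Prop :=
  ∀ χ : IrrCharacter G, Squarefree (charDegree (χ : G → ℂ))

theorem SqDeg.normal (h : SqDeg G) (N : Subgroup G) [N.Normal] : SqDeg N := by
  haveI := Fintype.ofFinite G
  haveI := Fintype.ofFinite N
  intro θ
  obtain ⟨χ, e, -, he, -⟩ := ThreeDeg.exists_over N θ
  exact (h χ).squarefree_of_dvd ⟨_, by rw [he, mul_comm]⟩

theorem pgroup_metabelian {p : ℕ} [hp : Fact p.Prime] (hP : IsPGroup p G) (h : SqDeg G) :
    derivedSeries G 2 = ⊥ := by
  haveI := Fintype.ofFinite G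
  refine ThreeDeg.derivedSeries_two (m := p) fun χ => ?_
  obtain ⟨n, hn⟩ := IsPGroup.iff_card.1 hP
  have hd : charDegree (χ : G → ℂ) ∣ Nat.card G := Lib.Char.charDegree_dvd_card χ.2
  rw [hn] at hd
  obtain ⟨i, -, hi⟩ := (Nat.dvd_prime_pow hp.out).1 hd
  rcases Nat.lt_or_ge i 2 with h2 | h2
  · interval_cases i
    · exact Or.inl (by rw [hi, pow_zero])
    · exact Or.inr (by rw [hi, pow_one])
  · exfalso
    have hsq : p * p ∣ charDegree (χ : G → ℂ) := by
      rw [hi, ← sq]; exact pow_dvd_pow p h2
    exact hp.out.ne_one (Nat.isUnit_iff.1 (h χ p hsq))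

theorem nilpotent_metabelian [Group.IsNilpotent G] (h : SqDeg G) : derivedSeries G 2 = ⊥ := by
  have hn : ∀ {p : ℕ} [Fact p.Prime] (P : Sylow p G), (P : Subgroup G).Normal :=
    fun P => inferInstance
  set e := Sylow.directProductOfNormal hn
  rw [eq_bot_iff]
  intro x hx
  have hy : e.symm x ∈ derivedSeries _ 2 :=
    map_derivedSeries_le_derivedSeries e.symm.toMonoidHom 2 (mem_map_of_mem _ hx)
  suffices h1 : e.symm x = 1 by
    rw [mem_bot, ← e.apply_symm_apply x, h1, map_one]
  funext p P
  haveI := Fact.mk (Nat.prime_of_mem_primeFactors p.2)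
  haveI := hn P
  have hyP := map_derivedSeries_le_derivedSeries
    ((Pi.evalMonoidHom (fun P : Sylow p G => (P : Subgroup G)) P).comp
      (Pi.evalMonoidHom (fun p : (Nat.card G).primeFactors => ∀ P : Sylow p G, (P : Subgroup G)) p))
    2 (mem_map_of_mem _ hy)
  rw [pgroup_metabelian P.2 (h.normal (P : Subgroup G))] at hyP
  exact mem_bot.1 hyP

theorem nilpotent_sup_commutator {Q : Type*} [Group Q] [Finite Q] [Group.IsNilpotent Q]
    {C : Subgroup Q} (h : C ⊔ commutator Q = ⊤) : C = ⊤ := by
  by_contra hne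
  obtain ⟨M, hM, hCM⟩ := (eq_top_or_exists_le_coatom C).resolve_left hne
  haveI : M.Normal := Subgroup.NormalizerCondition.normal_of_coatom M
    (Group.normalizerCondition_of_isNilpotent (G := Q)) hM
  refine hM.1 (top_le_iff.1 (h.ge.trans (sup_le hCM ?_)))
  rw [commutator_def, commutator_le]
  intro a _ b _
  by_cases ha : a ∈ M
  · show a * b * a⁻¹ * b⁻¹ ∈ M
    simpa only [mul_assoc] using M.mul_mem ha (Subgroup.Normal.conj_mem ‹M.Normal› a⁻¹ (inv_mem ha) b)
  · have htop : M ⊔ zpowers a = ⊤ :=
      hM.2 _ (left_lt_sup.2 fun hle => ha (hle (mem_zpowers a)))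
    obtain ⟨m, hm, c, hc, rfl⟩ := mem_sup_of_normal_left.1 (htop.ge (mem_top b))
    obtain ⟨i, rfl⟩ := mem_zpowers_iff.1 hc
    rw [← QuotientGroup.eq_one_iff, ← QuotientGroup.mk'_apply, map_commutatorElement, map_mul,
      map_zpow, QuotientGroup.mk'_apply M m, (QuotientGroup.eq_one_iff m).2 hm, one_mul]
    exact commutatorElement_eq_one_iff_mul_comm.2 (Commute.self_zpow _ i).eq

section Orbit

variable (N : Subgroup G) [N.Normal]

/-- The stabilizer of a linear character of `N`. -/
def St (l : N →* ℂˣ) : Subgroup G := inertia N (fun n => (l n : ℂ))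

theorem mem_St {l : N →* ℂˣ} {g : G} :
    g ∈ St N l ↔ ∀ n : N, l (MulAut.conjNormal g n) = l n := by
  constructor
  · intro h n
    exact Units.ext (congrFun h n)
  · intro h
    funext n
    exact congrArg Units.val (h n)

theorem le_St (l : N →* ℂˣ) : N ≤ St N l := fun g hg => (mem_St N).2 fun n => by
  rw [show MulAut.conjNormal g n = (⟨g, hg⟩ : N) * n * (⟨g, hg⟩ : N)⁻¹ from Subtype.ext rfl,
    map_mul, map_mul, map_inv, mul_inv_cancel_comm]

/-- The elements fixing every linear character of `N`. -/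
def X : Subgroup G := ⨅ l : N →* ℂˣ, St N l

theorem X_normal : (X N).Normal := ⟨fun x hx g => by
  rw [X, mem_iInf] at hx ⊢
  refine fun l => (mem_St N).2 fun n => ?_
  have h := (mem_St N).1 (hx (l.comp (MulAut.conjNormal g : MulAut N).toMonoidHom))
    (MulAut.conjNormal g⁻¹ n)
  simp only [MonoidHom.comp_apply, MulEquiv.coe_toMonoidHom, ← MulAut.mul_apply, ← map_mul,
    mul_inv_cancel, map_one, MulAut.one_apply] at h
  rw [← mul_assoc] at h
  exact h⟩

theorem orbit_small (hsq : SqDeg G) {r : ℕ} [hr : Fact r.Prime] (T : Subgroup G)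
    (hT : IsPGroup r T) (hK : (N ⊔ T).Normal) (hd : N ⊓ T = ⊥) (l : N →* ℂˣ) :
    (St N l).relIndex T ∣ r := by
  haveI := Fintype.ofFinite G
  haveI := Fintype.ofFinite N
  set S := St N l with hS
  obtain ⟨χ, e, -, he, -⟩ := ThreeDeg.exists_over N ⟨_, isIrrCharacter_linear l⟩
  have hSsq : Squarefree S.index :=
    (hsq χ).squarefree_of_dvd ⟨e * charDegree (fun n : N => (l n : ℂ)), by
      rw [he]; show e * S.index * _ = _; ring⟩
  have hdiv : S.relIndex T ∣ S.index := by
    have hNS : N ≤ S := le_St N l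
    have h1 := Lib.Coprime.card_sup_mul_card_inf N T
    rw [inf_comm T N, sup_comm T N, hd, card_bot, mul_one, mul_comm (Nat.card T)] at h1
    have hinf : S ⊓ (N ⊔ T) = N ⊔ (S ⊓ T) := by
      refine le_antisymm ?_ (le_inf (sup_le hNS inf_le_left) (sup_le_sup_left inf_le_right N))
      rintro x ⟨hxS, hx⟩
      obtain ⟨n, hn, t, ht, rfl⟩ := mem_sup_of_normal_left.1 hx
      refine mul_mem (mem_sup_left hn) (mem_sup_right ⟨?_, ht⟩)
      exact (mul_mem_cancel_left (hNS hn)).1 hxS
    have h2 := Lib.Coprime.card_sup_mul_card_inf N (S ⊓ T)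
    rw [inf_comm (S ⊓ T) N, sup_comm (S ⊓ T) N, ← hinf, show N ⊓ (S ⊓ T) = ⊥ from
      eq_bot_iff.2 (le_trans (inf_le_inf_left N inf_le_right) hd.le), card_bot, mul_one,
      mul_comm (Nat.card (S ⊓ T : Subgroup G))] at h2
    have e1 : Nat.card (S ⊓ T : Subgroup G) * S.relIndex T = Nat.card T := by
      rw [← Lib.Coprime.card_subgroupOf_inf]; exact card_mul_index _
    have e2 : Nat.card (S ⊓ (N ⊔ T) : Subgroup G) * S.relIndex (N ⊔ T) =
        Nat.card (N ⊔ T : Subgroup G) := by
      rw [← Lib.Coprime.card_subgroupOf_inf]; exact card_mul_index _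
    have e3 : S.relIndex T = S.relIndex (N ⊔ T) := by
      rw [h1, h2, ← e1, mul_assoc] at e2
      exact (Nat.eq_of_mul_eq_mul_left Nat.card_pos (Nat.eq_of_mul_eq_mul_left Nat.card_pos e2)).symm
    rw [e3]
    haveI := hK
    exact relIndex_dvd_index_of_normal' S (N ⊔ T)
  obtain ⟨n, hn⟩ := IsPGroup.iff_card.1 hT
  have hp : S.relIndex T ∣ r ^ n := hn ▸ index_dvd_card _
  obtain ⟨i, -, hi⟩ := (Nat.dvd_prime_pow hr.out).1 hp
  rw [hi] at hdiv ⊢
  rcases Nat.lt_or_ge i 2 with h2 | h2
  · exact (pow_dvd_pow r (Nat.le_of_lt_succ h2)).trans (pow_one r).dvd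
  · exact absurd (Nat.isUnit_iff.1 (hSsq r ((sq r).symm ▸ (pow_dvd_pow r h2).trans hdiv)))
      hr.out.ne_one
where
  relIndex_dvd_index_of_normal' (S K : Subgroup G) [K.Normal] : S.relIndex K ∣ S.index := by
    have h1 := Lib.Coprime.card_sup_mul_card_inf K S
    have h2 : Nat.card (S.subgroupOf K) * S.relIndex K = Nat.card K := card_mul_index _
    rw [Lib.Coprime.card_subgroupOf_inf] at h2
    have h3 := card_mul_index (S ⊔ K)
    have h4 := card_mul_index S
    refine ⟨(S ⊔ K).index, ?_⟩
    refine Nat.eq_of_mul_eq_mul_left (n := Nat.card S * Nat.card (S ⊓ K : Subgroup G))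
      (Nat.mul_pos Nat.card_pos Nat.card_pos) ?_
    calc _ = Nat.card (S ⊔ K : Subgroup G) * Nat.card (S ⊓ K : Subgroup G) * (S ⊔ K).index := by
          rw [mul_right_comm, h4, ← h3]; ring
      _ = Nat.card K * Nat.card S * (S ⊔ K).index := by rw [h1, mul_comm (Nat.card S) (Nat.card K)]
      _ = _ := by rw [← h2]; ring

theorem X_relIndex (hsq : SqDeg G) {r : ℕ} [hr : Fact r.Prime] (T : Subgroup G)
    (hT : IsPGroup r T) (hK : (N ⊔ T).Normal) (hd : N ⊓ T = ⊥) (hcop : ¬ r ∣ Nat.card N) :
    (X N).relIndex T ∣ r := by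
  have hidx : ∀ l, ¬ T ≤ St N l → (St N l).relIndex T = r := fun l hl =>
    ((Nat.dvd_prime hr.out).1 (orbit_small N hsq T hT hK hd l)).resolve_left fun h1 =>
      hl (relIndex_eq_one.1 h1)
  have hfix : ∀ (b : N →* ℂˣ) (k l : T) (n : N),
      b (MulAut.conjNormal ((k : G) * l) n) = b (MulAut.conjNormal ((l : G) * k) n) := by
    intro b k l n
    have hc : ((k * l * k⁻¹ * l⁻¹ : T) : G) ∈ St N b := by
      rcases em (T ≤ St N b) with hb | hb
      · exact hb (k * l * k⁻¹ * l⁻¹).2
      have hsub : ((St N b).subgroupOf T).index = r := hidx b hb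
      haveI : Group.IsNilpotent T := hT.isNilpotent
      obtain ⟨m, hm⟩ := IsPGroup.iff_card.1 hT
      haveI : ((St N b).subgroupOf T).Normal := by
        refine Subgroup.normal_of_index_eq_minFac_card ?_
        rw [hsub]
        rcases Nat.eq_zero_or_pos m with rfl | hm0
        · exact absurd (hsub ▸ index_dvd_card _) (by rw [hm, pow_zero, Nat.dvd_one]; exact hr.out.ne_one)
        · rw [hm, Nat.pow_minFac hm0.ne', hr.out.minFac_eq]
      have hcy : IsCyclic (T ⧸ (St N b).subgroupOf T) :=
        isCyclic_of_prime_card (p := r) (by rw [← index_eq_card]; exact hsub)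
      letI := hcy.commGroup
      refine mem_subgroupOf.1 ((QuotientGroup.eq_one_iff _).1 ?_)
      rw [QuotientGroup.mk_mul, QuotientGroup.mk_mul, QuotientGroup.mk_mul, QuotientGroup.mk_inv,
        QuotientGroup.mk_inv, mul_comm (QuotientGroup.mk k) (QuotientGroup.mk l),
        mul_inv_cancel_right, mul_inv_cancel]
    have h := (mem_St N).1 hc (MulAut.conjNormal ((l : G) * k) n)
    rw [← MulAut.mul_apply, ← map_mul] at h
    rw [← h]
    push_cast
    congr 2
    group
  by_cases hall : ∀ l, T ≤ St N l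
  · have : T ≤ X N := le_iInf hall
    rw [relIndex_eq_one.2 this]
    exact one_dvd r
  push Not at hall
  obtain ⟨a, ha⟩ := hall
  suffices hEq : St N a ⊓ T ≤ X N by
    have h1 := relIndex_dvd_of_le_left T hEq
    rwa [inf_relIndex_right, hidx a ha] at h1
  intro k hk
  rw [X, mem_iInf]
  intro b
  by_contra hkb
  obtain ⟨hka, hkT⟩ := mem_inf.1 hk
  have hb : ¬ T ≤ St N b := fun h => hkb (h hkT)
  have hab : ¬ (St N b).subgroupOf T ≤ (St N a).subgroupOf T := fun h => by
    have e := eq_of_le_of_card_ge h (by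
      have h1 := card_mul_index ((St N a).subgroupOf T)
      have h2 := card_mul_index ((St N b).subgroupOf T)
      rw [show ((St N a).subgroupOf T).index = r from hidx a ha] at h1
      rw [show ((St N b).subgroupOf T).index = r from hidx b hb] at h2
      exact le_of_eq (Nat.eq_of_mul_eq_mul_right hr.out.pos (h1.trans h2.symm)))
    exact hkb (mem_subgroupOf.1 (e.ge (mem_subgroupOf.2 hka : (⟨k, hkT⟩ : T) ∈ _)))
  obtain ⟨l, hlb, hla⟩ := SetLike.not_le_iff_exists.1 hab
  rw [mem_subgroupOf] at hlb hla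
  -- the product element
  obtain ⟨k', hk'T, l', hl'T, hk'a, hl'b, hk'b, hl'a, hm⟩ :
      ∃ k' ∈ T, ∃ l' ∈ T, k' ∈ St N a ∧ l' ∈ St N b ∧ k' ∉ St N b ∧ l' ∉ St N a ∧
        k' * l' ∈ St N (a * b) := by
    have hab1 : ¬ T ≤ St N (a * b) ∨ T ≤ St N (a * b) := (em _).symm
    rcases hab1 with hab1 | hab1
    · -- `T ⊓ St (a * b)` is a maximal subgroup of index `r`
      have hM : ((St N (a * b)).subgroupOf T).index = r := hidx _ hab1
      have hA : ((St N a).subgroupOf T).index = r := hidx _ ha
      have hB : ((St N b).subgroupOf T).index = r := hidx _ hb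
      have hnot : ∃ m : T, (m : G) ∈ St N (a * b) ∧ (m : G) ∉ St N a := by
        by_contra hcon
        push Not at hcon
        have hle : (St N (a * b)).subgroupOf T ≤ (St N a).subgroupOf T :=
          fun m hm => mem_subgroupOf.2 (hcon m (mem_subgroupOf.1 hm))
        have e := eq_of_le_of_card_ge hle (by
          have h1 := card_mul_index ((St N a).subgroupOf T)
          have h2 := card_mul_index ((St N (a * b)).subgroupOf T)
          rw [hA] at h1
          rw [hM] at h2
          exact le_of_eq (Nat.eq_of_mul_eq_mul_right hr.out.pos (h1.trans h2.symm)))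
        have hkab : k ∈ St N (a * b) :=
          mem_subgroupOf.1 (e.ge (mem_subgroupOf.2 hka : (⟨k, hkT⟩ : T) ∈ _))
        refine hkb ((mem_St N).2 fun n => ?_)
        have h1 := (mem_St N).1 hkab n
        rw [MonoidHom.mul_apply, MonoidHom.mul_apply, (mem_St N).1 hka n] at h1
        exact mul_left_cancel h1
      obtain ⟨m, hm, hma⟩ := hnot
      have hmb : (m : G) ∉ St N b := fun hmb => hma ((mem_St N).2 fun n => by
        have h1 := (mem_St N).1 hm n
        rw [MonoidHom.mul_apply, MonoidHom.mul_apply, (mem_St N).1 hmb n] at h1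
        exact mul_right_cancel h1)
      have hmax : (St N a).subgroupOf T ⊔ (St N b).subgroupOf T = ⊤ := by
        rw [← index_eq_one]
        have h1 : ((St N a).subgroupOf T ⊔ (St N b).subgroupOf T).index ∣ r :=
          hA ▸ index_dvd_of_le le_sup_left
        refine ((Nat.dvd_prime hr.out).1 h1).resolve_right fun h2 => hab ?_
        have e := eq_of_le_of_card_ge (le_sup_left : (St N a).subgroupOf T ≤ _ ⊔ (St N b).subgroupOf T) (by
          have h3 := card_mul_index ((St N a).subgroupOf T)
          have h4 := card_mul_index ((St N a).subgroupOf T ⊔ (St N b).subgroupOf T)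
          rw [hA] at h3
          rw [h2] at h4
          exact le_of_eq (Nat.eq_of_mul_eq_mul_right hr.out.pos (h4.trans h3.symm)))
        exact le_sup_right.trans e.ge
      haveI : Group.IsNilpotent T := hT.isNilpotent
      haveI : ((St N a).subgroupOf T).Normal := by
        obtain ⟨j, hj⟩ := IsPGroup.iff_card.1 hT
        refine Subgroup.normal_of_index_eq_minFac_card ?_
        rw [hA]
        rcases Nat.eq_zero_or_pos j with rfl | hj0
        · exact absurd (hA ▸ index_dvd_card _) (by rw [hj, pow_zero, Nat.dvd_one]; exact hr.out.ne_one)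
        · rw [hj, Nat.pow_minFac hj0.ne', hr.out.minFac_eq]
      obtain ⟨x, hx, y, hy, hxy⟩ := mem_sup_of_normal_left.1 (hmax.ge (mem_top m))
      rw [mem_subgroupOf] at hx hy
      refine ⟨x, x.2, y, y.2, hx, hy, fun hxb => hmb ?_, fun hya => hma ?_, ?_⟩
      · rw [← hxy]; exact mul_mem hxb hy
      · rw [← hxy]; exact mul_mem hx hya
      · rw [← Subgroup.coe_mul, hxy]; exact hm
    · exact ⟨k, hkT, l, l.2, hka, hlb, hkb, hla, hab1 (mul_mem hkT l.2)⟩
  -- the computation
  apply hl'a
  refine (mem_St N).2 fun n => ?_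
  have hβ : ∀ n : N, a (MulAut.conjNormal l' n) * b (MulAut.conjNormal k' n) = a n * b n := by
    intro n
    have h1 := (mem_St N).1 hm n
    rw [MonoidHom.mul_apply, MonoidHom.mul_apply, map_mul, MulAut.mul_apply,
      (mem_St N).1 hk'a, ← MulAut.mul_apply, ← map_mul,
      hfix b ⟨k', hk'T⟩ ⟨l', hl'T⟩ n, map_mul, MulAut.mul_apply, (mem_St N).1 hl'b] at h1
    exact h1
  have hstep : ∀ n : N, a (MulAut.conjNormal l' (MulAut.conjNormal l' n)) / a (MulAut.conjNormal l' n) =
      a (MulAut.conjNormal l' n) / a n := by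
    intro n
    have h1 := hβ n
    have h2 := hβ (MulAut.conjNormal l' n)
    rw [(mem_St N).1 hl'b n, ← MulAut.mul_apply _ (MulAut.conjNormal k') (MulAut.conjNormal l') n, ← map_mul,
      hfix b ⟨k', hk'T⟩ ⟨l', hl'T⟩ n, map_mul, MulAut.mul_apply, (mem_St N).1 hl'b] at h2
    replace h2 : a (MulAut.conjNormal l' (MulAut.conjNormal l' n)) * b (MulAut.conjNormal k' n) =
        a (MulAut.conjNormal l' n) * b n := by
      rw [← MulAut.mul_apply, ← map_mul] at h2 ⊢
      exact h2
    rw [div_eq_div_iff_mul_eq_mul]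
    refine mul_right_cancel (b := b n) ?_
    rw [mul_assoc, ← h1, mul_left_comm, h2, mul_assoc]
  set α := a (MulAut.conjNormal l' n) / a n with hα
  have hpow : ∀ j : ℕ, a (MulAut.conjNormal (l' ^ j) n) = α ^ j * a n ∧
      a (MulAut.conjNormal l' (MulAut.conjNormal (l' ^ j) n)) / a (MulAut.conjNormal (l' ^ j) n) = α := by
    intro j
    induction j with
    | zero => simp [hα]
    | succ j ih =>
      have hs : MulAut.conjNormal (l' ^ (j + 1)) n =
          MulAut.conjNormal l' (MulAut.conjNormal (l' ^ j) n) := by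
        rw [pow_succ', map_mul, MulAut.mul_apply]
      rw [hs]
      refine ⟨?_, ?_⟩
      · rw [pow_succ', mul_assoc, ← ih.1]
        exact (div_eq_iff_eq_mul.1 ih.2)
      · rw [hstep]; exact ih.2
  have hr1 : α ^ r = 1 := by
    have hmem : l' ^ r ∈ St N a := by
      have hA : ((St N a).subgroupOf T).index = r := hidx _ ha
      haveI : Group.IsNilpotent T := hT.isNilpotent
      haveI : ((St N a).subgroupOf T).Normal := by
        obtain ⟨j, hj⟩ := IsPGroup.iff_card.1 hT
        refine Subgroup.normal_of_index_eq_minFac_card ?_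
        rw [hA]
        rcases Nat.eq_zero_or_pos j with rfl | hj0
        · exact absurd (hA ▸ index_dvd_card _) (by rw [hj, pow_zero, Nat.dvd_one]; exact hr.out.ne_one)
        · rw [hj, Nat.pow_minFac hj0.ne', hr.out.minFac_eq]
      have := Subgroup.pow_index_mem ((St N a).subgroupOf T) (⟨l', hl'T⟩ : T)
      rw [hA] at this
      exact mem_subgroupOf.1 this
    have h1 := (hpow r).1
    rw [(mem_St N).1 hmem] at h1
    exact right_eq_mul.1 h1
  have hN1 : α ^ Nat.card N = 1 := by
    rw [hα, div_pow, ← map_pow, ← map_pow, ← map_pow, pow_card_eq_one', map_one, map_one, div_one]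
  have : α = 1 := orderOf_eq_one_iff.1 (Nat.eq_one_of_dvd_coprimes
    (hr.out.coprime_iff_not_dvd.2 hcop) (orderOf_dvd_of_pow_eq_one hr1) (orderOf_dvd_of_pow_eq_one hN1))
  exact div_eq_one.1 this

end Orbit

theorem card_pCore_quotient [Group.IsSolvable G] (hsq : SqDeg G) (r : ℕ) [hr : Fact r.Prime] :
    Nat.card (pCore r (G ⧸ fittingSubgroup G)) ∣ r := by
  set F := fittingSubgroup G with hF
  set K := (pCore r (G ⧸ F)).comap (QuotientGroup.mk' F) with hKdef
  haveI hKn : K.Normal := (pCore_normal r (G ⧸ F)).comap _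
  set R := pCore r G with hRdef
  haveI : R.Normal := pCore_normal r G
  haveI : (pPrimeCore r G).Normal := pPrimeCore_normal r G
  set N := pPrimeCore r G ⊓ F with hNdef
  haveI : N.Normal := inferInstance
  have hRN : F = R ⊔ N := by
    refine le_antisymm (fun x hx => ?_) (sup_le (pCore_le_fittingSubgroup r) inf_le_right)
    obtain ⟨a, ha, b, hb, rfl⟩ := mem_sup_of_normal_left.1 (fittingSubgroup_le_sup r hx)
    exact mul_mem_sup ha ⟨hb, (mul_mem_cancel_left (pCore_le_fittingSubgroup r ha)).1 hx⟩
  have hFK : F ≤ K := fun x hx => by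
    rw [hKdef, mem_comap, QuotientGroup.mk'_apply, (QuotientGroup.eq_one_iff x).2 hx]
    exact one_mem _
  have hcop : ¬ r ∣ Nat.card N := fun hd => hr.out.coprime_iff_not_dvd.1
    (pPrimeCore_coprime r (G := G)).symm (hd.trans (card_dvd_of_le inf_le_left))
  have hdisj : ∀ H : Subgroup G, IsPGroup r H → N ⊓ H = ⊥ := fun H hH => by
    obtain ⟨i, hi⟩ := IsPGroup.iff_card.1 hH
    refine Subgroup.eq_bot_of_card_eq _ (Nat.eq_one_of_dvd_coprimes ?_
      (hi ▸ card_dvd_of_le inf_le_right) (card_dvd_of_le inf_le_left))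
    exact (Nat.Coprime.pow_left i (hr.out.coprime_iff_not_dvd.2 hcop))
  -- a complement of `N` in `K`
  obtain ⟨T₀⟩ : Nonempty (Sylow r K) := inferInstance
  set T := (T₀ : Subgroup K).map K.subtype with hTdef
  have hT : IsPGroup r T := T₀.2.map _
  have hTK : T ≤ K := map_subtype_le _
  have hKeq : N ⊔ T = K := by
    refine le_antisymm (sup_le (inf_le_right.trans hFK) hTK) fun x hx => ?_
    have hq : IsPGroup r (K ⧸ N.subgroupOf K) := by
      intro q
      obtain ⟨y, rfl⟩ := QuotientGroup.mk_surjective q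
      obtain ⟨i, hi⟩ := pCore_isPGroup r (G := G ⧸ F) ⟨QuotientGroup.mk (y : G), y.2⟩
      have hiF : ((y : G)) ^ r ^ i ∈ F := by
        rw [← QuotientGroup.eq_one_iff, QuotientGroup.mk_pow]
        exact congrArg Subtype.val hi
      rw [hRN] at hiF
      obtain ⟨a, ha, b, hb, hab⟩ := mem_sup_of_normal_right.1 hiF
      obtain ⟨j, hj⟩ := pCore_isPGroup r (G := G) ⟨a, ha⟩
      refine ⟨i + j, ?_⟩
      rw [← QuotientGroup.mk_pow, QuotientGroup.eq_one_iff, mem_subgroupOf, coe_pow, pow_add,
        pow_mul, ← hab, ← QuotientGroup.eq_one_iff, QuotientGroup.mk_pow, QuotientGroup.mk_mul,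
        (QuotientGroup.eq_one_iff b).2 hb, mul_one, ← QuotientGroup.mk_pow,
        show a ^ r ^ j = 1 from congrArg Subtype.val hj]
      rfl
    have htop := Lib.Transfer.sup_sylow_eq_top_of_isPGroup_quotient T₀ hq
    obtain ⟨n, hn, t, ht, hnt⟩ := mem_sup_of_normal_left.1 (htop.ge (mem_top (⟨x, hx⟩ : K)))
    rw [show x = (n : G) * (t : G) from (congrArg Subtype.val hnt).symm]
    exact mul_mem_sup hn ⟨t, ht, rfl⟩
  -- the kernel lies in `F`
  haveI hXn := X_normal N
  have hNX : N ≤ X N := le_iInf fun l => le_St N l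
  have hNnil : Group.IsNilpotent N := by
    haveI := Lib.Components.fittingSubgroup_nilpotent (G := G)
    exact Group.nilpotent_of_mulEquiv (Subgroup.subgroupOfEquivOfLe (inf_le_right : N ≤ F))
  have hcent : ∀ t ∈ X N ⊓ T, ∀ n ∈ N, t * n = n * t := by
    intro t ht
    obtain ⟨htX, htT⟩ := mem_inf.1 ht
    let φ : N ≃* N := MulAut.conjNormal t
    let C : Subgroup N := φ.toMonoidHom.eqLocus (MonoidHom.id N)
    have hC : C ⊔ commutator N = ⊤ := by
      rw [eq_top_iff]
      intro n _
      haveI := Fact.mk hr.out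
      let Y := {y : N // Abelianization.of y = Abelianization.of n}
      have hinv : ∀ y : N, Abelianization.of (φ y) = Abelianization.of y := by
        intro y
        by_contra hne
        obtain ⟨χ, hχ⟩ := CommGroup.exists_apply_ne_one_of_hasEnoughRootsOfUnity
          (Abelianization N) ℂ (div_ne_one.2 hne)
        have hX : t ∈ St N (χ.comp Abelianization.of) := (mem_iInf.1 htX) _
        apply hχ
        rw [map_div, div_eq_one]
        exact (mem_St N).1 hX y
      let f : Y → Y := fun y => ⟨φ y.1, (hinv y.1).trans y.2⟩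
      obtain ⟨j, hj⟩ := hT ⟨t, htT⟩
      have hj' : t ^ r ^ j = 1 := congrArg Subtype.val hj
      have hf : ∀ m : ℕ, ∀ y : Y, ((f^[m] y).1 : N) = MulAut.conjNormal (t ^ m) y.1 := by
        intro m
        induction m with
        | zero => intro y; simp
        | succ m ih =>
          intro y
          rw [Function.iterate_succ_apply', pow_succ', map_mul, MulAut.mul_apply, ← ih]
      classical
      haveI := Fintype.ofFinite Y
      let Fn : Function.End Y := f
      have hFp : Fn ^ r ^ j = 1 := by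
        funext y
        have hpow : ∀ m : ℕ, Fn ^ m = f^[m] := fun m => by
          induction m with
          | zero => rfl
          | succ m ih => rw [pow_succ, ih, Function.iterate_succ]; rfl
        rw [hpow]
        apply Subtype.ext
        rw [hf, hj', map_one]
        rfl
      have hmod := Equiv.Perm.card_fixedPoints_modEq (f := Fn) hFp
      have hY : Nat.card Y = Nat.card (Abelianization.of (G := N)).ker := by
        refine Nat.card_congr
          { toFun := fun y => ⟨n⁻¹ * y.1, by
              rw [MonoidHom.mem_ker, map_mul, map_inv, y.2, inv_mul_cancel]⟩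
            invFun := fun k => ⟨n * k.1, by rw [map_mul, MonoidHom.mem_ker.1 k.2, mul_one]⟩
            left_inv := fun y => Subtype.ext (mul_inv_cancel_left _ _)
            right_inv := fun k => Subtype.ext (inv_mul_cancel_left _ _) }
      obtain ⟨y, hy⟩ : ∃ y : Y, Fn y = y := by
        by_contra hno
        push Not at hno
        haveI : IsEmpty (Function.fixedPoints Fn) := ⟨fun y => hno y.1 y.2⟩
        rw [Fintype.card_of_isEmpty (α := Function.fixedPoints Fn), ← Nat.card_eq_fintype_card,
          hY, Nat.modEq_zero_iff_dvd] at hmod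
        exact hcop (hmod.trans (card_subgroup_dvd_card _))
      have hyC : y.1 ∈ C := congrArg Subtype.val hy
      rw [← mul_inv_cancel_left y.1 n]
      refine mul_mem_sup hyC ?_
      rw [← Abelianization.ker_of, MonoidHom.mem_ker, map_mul, map_inv, y.2, inv_mul_cancel]
    have hCt := nilpotent_sup_commutator hC
    intro n hn
    have h1 : φ ⟨n, hn⟩ = ⟨n, hn⟩ := hCt.ge (mem_top (⟨n, hn⟩ : N))
    exact mul_inv_eq_iff_eq_mul.1 (congrArg Subtype.val h1)
  have hXF : X N ⊓ T ≤ F := by
    set K₀ := X N ⊓ K with hK0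
    haveI : K₀.Normal := inferInstance
    set W := R ⊔ (X N ⊓ T) with hW
    have hWp : IsPGroup r W := (pCore_isPGroup r).to_sup_of_normal_left (hT.to_le inf_le_right)
    have hcomm : ∀ w ∈ W, ∀ n ∈ N, w * n = n * w := by
      intro w hw n hn
      obtain ⟨a, ha, b, hb, rfl⟩ := mem_sup_of_normal_left.1 hw
      have hdRN : Disjoint R N := by
        rw [disjoint_iff, inf_comm]
        exact hdisj R (pCore_isPGroup r)
      have h1 : a * n = n * a :=
        Subgroup.commute_of_normal_of_disjoint R N inferInstance inferInstance hdRN a n ha hn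
      rw [mul_assoc, hcent b hb n hn, ← mul_assoc, h1, mul_assoc]
    have hK0W : K₀ ≤ Subgroup.normalizer (W : Set G) := by
      intro x hx
      obtain ⟨hxX, hxK⟩ := mem_inf.1 hx
      rw [← hKeq] at hxK
      obtain ⟨n, hn, t, ht, rfl⟩ := mem_sup_of_normal_left.1 hxK
      refine mul_mem (mem_normalizer_iff.2 fun w => ?_) (le_normalizer (mem_sup_right
        ⟨(mul_mem_cancel_left (hNX hn)).1 hxX, ht⟩))
      constructor
      · intro hw
        rw [← hcomm w hw n hn, mul_inv_cancel_right]
        exact hw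
      · intro hw
        have h := hcomm _ hw n hn
        have : n * w * n⁻¹ = w := by
          have h2 : n * w * n⁻¹ * n = n * (n * w * n⁻¹) := h
          rw [inv_mul_cancel_right] at h2
          exact (mul_left_cancel h2).symm
        rwa [this] at hw
    have hWK0 : W ≤ K₀ := by
      refine sup_le (le_inf ?_ ((pCore_le_fittingSubgroup r).trans hFK))
        (le_inf inf_le_left (inf_le_right.trans hTK))
      refine fun a ha => mem_iInf.2 fun l => (mem_St N).2 fun n => ?_
      congr 1
      apply Subtype.ext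
      show a * (n : G) * a⁻¹ = n
      rw [hcomm a (mem_sup_left ha) n n.2, mul_inv_cancel_right]
    haveI : (W.subgroupOf K₀).Normal := normal_subgroupOf_of_le_normalizer hK0W
    have h1 : W.subgroupOf K₀ ≤ pCore r K₀ :=
      le_pCore (hWp.of_equiv (subgroupOfEquivOfLe hWK0).symm)
    haveI : ((pCore r K₀).map K₀.subtype).Normal := ConjAct.normal_of_characteristic_of_normal
    have h2 : (pCore r K₀).map K₀.subtype ≤ R := le_pCore ((pCore_isPGroup r).map _)
    intro x hx
    exact pCore_le_fittingSubgroup r (h2 ⟨⟨x, hWK0 (mem_sup_right hx)⟩,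
      h1 (mem_subgroupOf.2 (mem_sup_right hx)), rfl⟩)
  have hrel : (F.subgroupOf T).index ∣ r := by
    have h1 := X_relIndex N hsq T hT (hKeq.symm ▸ hKn) (hdisj T hT) hcop
    have h2 : F.relIndex T ∣ (X N ⊓ T).relIndex T := relIndex_dvd_of_le_left T hXF
    rw [inf_relIndex_right] at h2
    exact h2.trans h1
  refine dvd_trans ?_ hrel
  let ψ : T →* G ⧸ F := (QuotientGroup.mk' F).comp T.subtype
  have hker : ψ.ker = F.subgroupOf T := by
    ext x
    rw [MonoidHom.mem_ker, mem_subgroupOf, MonoidHom.comp_apply, QuotientGroup.mk'_apply,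
      QuotientGroup.eq_one_iff]
    rfl
  rw [← hker, index_ker]
  refine card_dvd_of_le fun q hq => ?_
  obtain ⟨x, rfl⟩ := QuotientGroup.mk_surjective q
  have hxK : x ∈ K := hq
  rw [← hKeq] at hxK
  obtain ⟨n, hn, t, ht, rfl⟩ := mem_sup_of_normal_left.1 hxK
  refine ⟨⟨t, ht⟩, ?_⟩
  show (QuotientGroup.mk t : G ⧸ F) = QuotientGroup.mk (n * t)
  rw [QuotientGroup.mk_mul, (QuotientGroup.eq_one_iff n).2 hn.2, one_mul]

theorem quotient_metabelian [Group.IsSolvable G] (hsq : SqDeg G) :
    derivedSeries (G ⧸ fittingSubgroup G) 2 = ⊥ := by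
  set Q := G ⧸ fittingSubgroup G
  haveI : Group.IsSolvable Q := inferInstanceAs (Group.IsSolvable (G ⧸ fittingSubgroup G))
  have hcent : commutator Q ≤ centralizer (fittingSubgroup Q : Set Q) := by
    rw [le_centralizer_iff]
    refine (fittingSubgroup_eq_iSup (G := Q)).le.trans ?_
    refine iSup_le fun r => ?_
    rw [le_centralizer_iff]
    haveI := Fact.mk r.2
    haveI : (pCore (r : ℕ) Q).Normal := pCore_normal _ _
    have hd := card_pCore_quotient hsq (r : ℕ)
    haveI : IsCyclic (pCore (r : ℕ) Q) := by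
      rcases (Nat.dvd_prime r.2).1 hd with h1 | h1
      · haveI : Subsingleton (pCore (r : ℕ) Q) := (Nat.card_eq_one_iff_unique.1 h1).1
        infer_instance
      · exact isCyclic_of_prime_card h1
    let φ : Q →* MulAut (pCore (r : ℕ) Q) := MulAut.conjNormal
    have hle : commutator Q ≤ φ.ker := by
      have := Abelianization.commutator_subset_ker
        ((IsCyclic.mulAutMulEquiv (pCore (r : ℕ) Q)).toMonoidHom.comp φ)
      intro x hx
      have h1 : (IsCyclic.mulAutMulEquiv (pCore (r : ℕ) Q)) (φ x) = 1 := MonoidHom.mem_ker.1 (this hx)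
      exact MonoidHom.mem_ker.2 ((MulEquiv.map_eq_one_iff _).1 h1)
    intro x hx
    rw [mem_centralizer_iff]
    intro y hy
    have h1 := congrArg Subtype.val (DFunLike.congr_fun (MonoidHom.mem_ker.1 (hle hx)) ⟨y, hy⟩)
    exact (mul_inv_eq_iff_eq_mul.1 h1).symm
  have hle : commutator Q ≤ fittingSubgroup Q :=
    hcent.trans Lib.Hall.centralizer_fittingSubgroup_le
  rw [derivedSeries_succ, derivedSeries_one, eq_bot_iff, Subgroup.commutator_le]
  intro a ha b hb
  rw [mem_bot, commutatorElement_eq_one_iff_mul_comm]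
  exact (mem_centralizer_iff.1 (hcent ha) b (hle hb)).symm


/-- Let `G` be a finite solvable group. If every irreducible complex character degree of `G` is squarefree (1 included), then the derived length of `G` is at most 4. -/
theorem result {G : Type*} [Group G] [Finite G] [Group.IsSolvable G]
    (h : ∀ χ : Cfsg.IrrCharacter G, Squarefree (Cfsg.charDegree (χ : G → ℂ))) : derivedSeries G 4 = ⊥ := by
  haveI : Group.IsNilpotent (fittingSubgroup G) := Lib.Components.fittingSubgroup_nilpotent
  haveI := Fintype.ofFinite G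
  refine Lib.Char.ThreeDeg.derivedSeries_bot_of_le (N := fittingSubgroup G) (i := 2) (j := 2) ?_
    (nilpotent_metabelian (SqDeg.normal h _))
  intro x hx
  have h1 := map_derivedSeries_le_derivedSeries (QuotientGroup.mk' (fittingSubgroup G)) 2
    (Subgroup.mem_map_of_mem _ hx)
  rw [quotient_metabelian h, Subgroup.mem_bot] at h1
  exact (QuotientGroup.eq_one_iff x).1 h1

end Cfsg.Agent.S5010
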