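import Cfsg.Statements.S5014
import Cfsg.Agent.Lib.Root.RankOne
-- import your own Cfsg.Agent.* helpers here

set_option autoImplicit false
open Cfsg

namespace Cfsg.Agent.S5014

/-- Let X = ⟨A, B⟩ be a rank one group with unipotent subgroups A and B and let Ω be the set of conjugates of A under X. Then Ω has at least three members, X acts doubly transitively on Ω by conjugation (any two ordered pairs of distinct members are carried to one another by a single element of X), and A acts regularly on Ω with A removed: for C, D in Ω different from A there is exactly one element of A conjugating C to D. -/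
theorem result {G : Type*} [Group G] {A B : Subgroup G} (h : Cfsg.IsRankOnePair A B) :
    (∃ C₁ ∈ Cfsg.unipotentSubgroups A B, ∃ C₂ ∈ Cfsg.unipotentSubgroups A B, ∃ C₃ ∈ Cfsg.unipotentSubgroups A B,
      C₁ ≠ C₂ ∧ C₁ ≠ C₃ ∧ C₂ ≠ C₃) ∧
    (∀ C₁ ∈ Cfsg.unipotentSubgroups A B, ∀ C₂ ∈ Cfsg.unipotentSubgroups A B, ∀ D₁ ∈ Cfsg.unipotentSubgroups A B,
      ∀ D₂ ∈ Cfsg.unipotentSubgroups A B, C₁ ≠ C₂ → D₁ ≠ D₂ →
        ∃ x ∈ A ⊔ B, Cfsg.conjBy C₁ x = D₁ ∧ Cfsg.conjBy C₂ x = D₂) ∧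
    (∀ C ∈ Cfsg.unipotentSubgroups A B, ∀ D ∈ Cfsg.unipotentSubgroups A B, C ≠ A → D ≠ A →
      ∃! a : G, a ∈ A ∧ Cfsg.conjBy C a = D) := by
  open Lib.Root in
  refine ⟨?_, ?_, ?_⟩
  · obtain ⟨a, ha, ha1⟩ := exists_left h
    refine ⟨A, left_mem_unipotent, B, right_mem_unipotent h, conjBy B a,
      conjBy_mem_unipotent (right_mem_unipotent h) (Subgroup.mem_sup_left ha), h.ne, (conjBy_right_ne h ha).symm,
      fun e => ha1 (eq_one_of_normalizes h ha e.symm)⟩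
  · intro C₁ hC₁ C₂ hC₂ D₁ hD₁ D₂ hD₂ hC hD
    obtain ⟨x, hx, e₁, e₂⟩ := exists_conj_pair h hC₁ hC₂ hC
    obtain ⟨y, hy, f₁, f₂⟩ := exists_conj_pair h hD₁ hD₂ hD
    subst e₁ e₂ f₁ f₂
    exact ⟨y * x⁻¹, mul_mem hy (inv_mem hx), by rw [conjBy_mul, inv_mul_cancel_right],
      by rw [conjBy_mul, inv_mul_cancel_right]⟩
  · intro C hC D hD hCA hDA
    obtain ⟨c, hc, rfl⟩ := (unipotent_cases h hC).resolve_left hCA
    obtain ⟨d, hd, rfl⟩ := (unipotent_cases h hD).resolve_left hDA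
    refine ⟨d * c⁻¹, ⟨mul_mem hd (inv_mem hc), by rw [conjBy_mul, inv_mul_cancel_right]⟩, ?_⟩
    rintro a ⟨ha, e⟩
    rw [conjBy_mul] at e
    rw [← conjBy_right_unique h (mul_mem ha hc) hd e, mul_inv_cancel_right]

end Cfsg.Agent.S5014
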