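import Cfsg.Statements.S5015
import Cfsg.Agent.Lib.Root.RankOne
-- import your own Cfsg.Agent.* helpers here

set_option autoImplicit false
open Cfsg

namespace Cfsg.Agent.S5015

/-- Let a group Y act doubly transitively on a set Ω with at least three points, and suppose that the stabilizer of a point α contains a nilpotent subgroup A, normalized by that stabilizer, which acts regularly on the points other than α. Then for any y in Y moving α, the subgroups A and y A y⁻¹ are the unipotent subgroups of a rank one group, and the normal closure of A in Y (the subgroup generated by all conjugates of A) is generated by A and y A y⁻¹ alone. -/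
theorem result {Y Ω : Type*} [Group Y] [MulAction Y Ω]
    (h2 : MulAction.IsMultiplyPretransitive Y Ω 2) (hΩ : 3 ≤ ENat.card Ω) (α : Ω) (A : Subgroup Y)
    (hA : A ≤ MulAction.stabilizer Y α) (hAn : ∀ y ∈ MulAction.stabilizer Y α, Cfsg.conjBy A y = A)
    (hnil : Group.IsNilpotent A) (hreg : ∀ β γ : Ω, β ≠ α → γ ≠ α → ∃! a : Y, a ∈ A ∧ a • β = γ)
    (y : Y) (hy : y ∉ MulAction.stabilizer Y α) :
    Cfsg.IsRankOnePair A (Cfsg.conjBy A y) ∧ Subgroup.normalClosure (A : Set Y) = A ⊔ Cfsg.conjBy A y := by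
  open Lib.Root in
  have htr : ∀ β : Ω, ∃ g : Y, g • α = β := fun β => by
    haveI : MulAction.IsPretransitive Y Ω := MulAction.isPretransitive_of_is_two_pretransitive
    exact MulAction.exists_smul_eq Y α β
  have hind : ∀ g g' : Y, g • α = g' • α → conjBy A g = conjBy A g' := by
    intro g g' e
    have h1 : g⁻¹ * g' ∈ MulAction.stabilizer Y α := by
      rw [MulAction.mem_stabilizer_iff, mul_smul, ← e, inv_smul_smul]
    rw [show g' = g * (g⁻¹ * g') by group, ← conjBy_mul, hAn _ h1]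
  have hfix : ∀ (g : Y), ∀ z ∈ conjBy A g, z • g • α = g • α := by
    intro g z hz
    rw [mem_conjBy] at hz
    have h1 : (g⁻¹ * z * g) • α = α := hA hz
    rw [mul_smul, mul_smul] at h1
    simpa using congrArg (g • ·) h1
  have hregg : ∀ (g : Y) (β γ : Ω), β ≠ g • α → γ ≠ g • α → ∃ z, z ∈ conjBy A g ∧ z • β = γ := by
    intro g β γ hβ hγ
    obtain ⟨a, ⟨ha, e⟩, -⟩ := hreg (g⁻¹ • β) (g⁻¹ • γ)
      (fun e => hβ (by rw [← e, smul_inv_smul])) (fun e => hγ (by rw [← e, smul_inv_smul]))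
    exact ⟨g * a * g⁻¹, conj_mem_conjBy g ha, by rw [mul_smul, mul_smul, e, smul_inv_smul]⟩
  have hfree : ∀ a ∈ A, a ≠ 1 → ∀ β : Ω, β ≠ α → a • β ≠ β := by
    intro a ha ha1 β hβ e
    obtain ⟨c, -, huniq⟩ := hreg β β hβ hβ
    exact ha1 ((huniq a ⟨ha, e⟩).trans (huniq 1 ⟨one_mem A, one_smul _ _⟩).symm)
  have hy' : y • α ≠ α := hy
  have hcond : ∀ g : Y, ∀ a ∈ A, a ≠ 1 → g • α ≠ α →
      ∃ b ∈ conjBy A g, b ≠ 1 ∧ conjBy A b⁻¹ = conjBy (conjBy A g) a⁻¹ := by
    intro g a ha ha1 hg
    have hδg : a⁻¹ • g • α ≠ g • α := hfree _ (inv_mem ha) (by simpa using ha1) _ hg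
    have hδα : a⁻¹ • g • α ≠ α := fun e => hg (by
      have h1 : a • α = α := hA ha
      calc g • α = a • α := by simpa using congrArg (a • ·) e
        _ = α := h1)
    obtain ⟨z, hz, e⟩ := hregg g α (a⁻¹ • g • α) (Ne.symm hg) hδg
    refine ⟨z⁻¹, inv_mem hz, fun h1 => hδα (by rw [← e, inv_eq_one.mp h1, one_smul]), ?_⟩
    rw [inv_inv, conjBy_mul]
    exact hind _ _ (by rw [mul_smul, e])
  have hne : A ≠ conjBy A y := by
    intro e
    have hβ : ∃ β : Ω, β ≠ α ∧ β ≠ y • α := by
      by_contra hcon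
      push_neg at hcon
      have hall : ∀ β : Ω, β = α ∨ β = y • α := fun β => (em (β = α)).imp id (hcon β)
      have hle : ENat.card Ω ≤ 2 := by
        have : Function.Surjective ![α, y • α] := fun β => by
          rcases hall β with rfl | rfl
          · exact ⟨0, rfl⟩
          · exact ⟨1, rfl⟩
        refine (Cardinal.toENat.monotone' (Cardinal.mk_le_of_surjective
          (f := (fun i : ULift (Fin 2) => ![α, y • α] i.down)) fun β => ?_)).trans ?_
        · obtain ⟨i, hi⟩ := this β; exact ⟨⟨i⟩, hi⟩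
        · simp
      exact absurd (hΩ.trans hle) (by decide)
    obtain ⟨β, hβα, hβy⟩ := hβ
    obtain ⟨a, ⟨ha, e2⟩, -⟩ := hreg (y • α) β hy' hβα
    rw [hfix y a (e ▸ ha)] at e2
    exact hβy e2.symm
  haveI := hnil
  have hnilB : Group.IsNilpotent (conjBy A y) :=
    Group.nilpotent_of_mulEquiv (A.equivMapOfInjective _ (MulAut.conj y).injective)
  have hpair : Cfsg.IsRankOnePair A (Cfsg.conjBy A y) := by
    refine ⟨hne, hnil, hnilB, fun a ha ha1 => hcond y a ha ha1 hy', ?_⟩
    rintro b ⟨a, ha, rfl⟩ hb1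
    have ha1 : a ≠ 1 := fun h' => hb1 (by simp [h'])
    have hy'' : y⁻¹ • α ≠ α := fun e => hy' (by conv_lhs => rw [← e, smul_inv_smul])
    obtain ⟨c, hc, hc1, e⟩ := hcond y⁻¹ a ha ha1 hy''
    rw [mem_conjBy, inv_inv] at hc
    refine ⟨y * c * y⁻¹, hc, by simpa using hc1, ?_⟩
    calc conjBy (conjBy A y) (y * c * y⁻¹)⁻¹ = conjBy (conjBy A c⁻¹) y := by
          rw [conjBy_mul, conjBy_mul]; congr 1; group
      _ = conjBy (conjBy (conjBy A y⁻¹) a⁻¹) y := by rw [e]
      _ = conjBy A ((MulAut.conj y).toMonoidHom a)⁻¹ := by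
          rw [conjBy_mul, conjBy_mul]; congr 1; simp [mul_assoc]
  refine ⟨hpair, le_antisymm ?_ (sup_le Subgroup.le_normalClosure ?_)⟩
  · rw [Subgroup.normalClosure, Subgroup.closure_le]
    intro z hz
    obtain ⟨a, ha, hza⟩ := Group.mem_conjugatesOfSet_iff.mp hz
    obtain ⟨g, rfl⟩ := isConj_iff.mp hza
    rcases eq_or_ne (g • α) α with hg | hg
    · have := hind g 1 (by rw [hg, one_smul])
      rw [conjBy_one] at this
      exact Subgroup.mem_sup_left (by rw [← this]; exact conj_mem_conjBy g ha)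
    · obtain ⟨a', ⟨ha', e⟩, -⟩ := hreg (y • α) (g • α) hy' hg
      have h1 := hind g (a' * y) (by rw [mul_smul, e])
      rw [← conjBy_mul] at h1
      refine unipotent_le (conjBy_mem_unipotent (right_mem_unipotent hpair) (Subgroup.mem_sup_left ha')) ?_
      rw [← h1]; exact conj_mem_conjBy g ha
  · rintro z ⟨a, ha, rfl⟩
    exact Subgroup.normalClosure_normal.conj_mem _ (Subgroup.le_normalClosure ha) y

end Cfsg.Agent.S5015
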