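import Cfsg.Statements.S5016
import Cfsg.Agent.Lib.Root.RankOne
-- import your own Cfsg.Agent.* helpers here

set_option autoImplicit false
open Cfsg

namespace Cfsg.Agent.S5016

open Matrix Cfsg.Agent.Lib.Root

variable (k : Type*) [Field k]

/-- upper -/
noncomputable def up (t : k) : Matrix.SpecialLinearGroup (Fin 2) k :=
  ⟨!![1, t; 0, 1], by simp [Matrix.det_fin_two]⟩

/-- lower -/
noncomputable def low (t : k) : Matrix.SpecialLinearGroup (Fin 2) k :=
  ⟨!![1, 0; t, 1], by simp [Matrix.det_fin_two]⟩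

theorem coe_up (t : k) : (up k t : Matrix (Fin 2) (Fin 2) k) = !![1, t; 0, 1] := rfl

theorem coe_low (t : k) : (low k t : Matrix (Fin 2) (Fin 2) k) = !![1, 0; t, 1] := rfl

theorem up_add (s t : k) : up k (s + t) = up k s * up k t := by
  apply Subtype.ext
  ext i j; fin_cases i <;> fin_cases j <;> simp [coe_up, Matrix.SpecialLinearGroup.coe_mul, Matrix.mul_apply, add_comm]

theorem low_add (s t : k) : low k (s + t) = low k s * low k t := by
  apply Subtype.ext
  ext i j; fin_cases i <;> fin_cases j <;> simp [coe_low, Matrix.SpecialLinearGroup.coe_mul, Matrix.mul_apply]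

theorem up_zero : up k 0 = 1 := by
  apply Subtype.ext
  ext i j; fin_cases i <;> fin_cases j <;> simp [coe_up]

theorem low_zero : low k 0 = 1 := by
  apply Subtype.ext
  ext i j; fin_cases i <;> fin_cases j <;> simp [coe_low]

theorem up_neg (t : k) : up k (-t) = (up k t)⁻¹ :=
  eq_inv_of_mul_eq_one_left (by rw [← up_add, neg_add_cancel, up_zero])

theorem low_neg (t : k) : low k (-t) = (low k t)⁻¹ :=
  eq_inv_of_mul_eq_one_left (by rw [← low_add, neg_add_cancel, low_zero])

theorem mem_up (g : Matrix.SpecialLinearGroup (Fin 2) k) :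
    g ∈ upperUnipotentSL2 k ↔ ∃ t, g = up k t := by
  constructor
  · intro hg
    induction hg using Subgroup.closure_induction with
    | mem x hx =>
      obtain ⟨h1, h2, h3⟩ := hx
      refine ⟨(x : Matrix (Fin 2) (Fin 2) k) 0 1, ?_⟩
      apply Subtype.ext
      ext i j; fin_cases i <;> fin_cases j <;> simp [coe_up, h1, h2, h3]
    | one => exact ⟨0, (up_zero k).symm⟩
    | mul x y _ _ hx hy => obtain ⟨s, rfl⟩ := hx; obtain ⟨t, rfl⟩ := hy; exact ⟨s + t, (up_add k s t).symm⟩
    | inv x _ hx => obtain ⟨s, rfl⟩ := hx; exact ⟨-s, (up_neg k s).symm⟩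
  · rintro ⟨t, rfl⟩
    exact Subgroup.subset_closure ⟨by simp [coe_up], by simp [coe_up], by simp [coe_up]⟩

theorem mem_low (g : Matrix.SpecialLinearGroup (Fin 2) k) :
    g ∈ lowerUnipotentSL2 k ↔ ∃ t, g = low k t := by
  constructor
  · intro hg
    induction hg using Subgroup.closure_induction with
    | mem x hx =>
      obtain ⟨h1, h2, h3⟩ := hx
      refine ⟨(x : Matrix (Fin 2) (Fin 2) k) 1 0, ?_⟩
      apply Subtype.ext
      ext i j; fin_cases i <;> fin_cases j <;> simp [coe_low, h1, h2, h3]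
    | one => exact ⟨0, (low_zero k).symm⟩
    | mul x y _ _ hx hy => obtain ⟨s, rfl⟩ := hx; obtain ⟨t, rfl⟩ := hy; exact ⟨s + t, (low_add k s t).symm⟩
    | inv x _ hx => obtain ⟨s, rfl⟩ := hx; exact ⟨-s, (low_neg k s).symm⟩
  · rintro ⟨t, rfl⟩
    exact Subgroup.subset_closure ⟨by simp [coe_low], by simp [coe_low], by simp [coe_low]⟩

variable {k}

theorem key_conj (t u : k) (ht : t ≠ 0) :
    (up k t⁻¹)⁻¹ * low k u * up k t⁻¹ = (low k t)⁻¹ * up k (-(t⁻¹ * t⁻¹ * u)) * low k t := by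
  rw [← up_neg, ← low_neg]
  apply Subtype.ext
  ext i j; fin_cases i <;> fin_cases j <;>
    simp [coe_up, coe_low, Matrix.SpecialLinearGroup.coe_mul, Matrix.mul_apply, Fin.sum_univ_two] <;> field_simp <;> ring

theorem conj_eq (t : k) (ht : t ≠ 0) :
    conjBy (lowerUnipotentSL2 k) (up k t⁻¹)⁻¹ = conjBy (upperUnipotentSL2 k) (low k t)⁻¹ := by
  ext z
  simp only [mem_conjBy, inv_inv, mem_low, mem_up]
  constructor
  · rintro ⟨u, hu⟩
    refine ⟨-(t⁻¹ * t⁻¹ * u), ?_⟩
    have hz : z = (up k t⁻¹)⁻¹ * low k u * up k t⁻¹ := by rw [← hu]; group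
    rw [hz, key_conj t u ht]; group
  · rintro ⟨w, hw⟩
    refine ⟨-(t * t * w), ?_⟩
    have hz : z = (low k t)⁻¹ * up k w * low k t := by rw [← hw]; group
    have hw' : -(t⁻¹ * t⁻¹ * -(t * t * w)) = w := by field_simp
    have h2 := key_conj t (-(t * t * w)) ht
    rw [hw'] at h2
    rw [hz, ← h2]; group

theorem low_inj {s t : k} (h : low k s = low k t) : s = t := by
  simpa [coe_low] using congrArg (fun g : Matrix.SpecialLinearGroup (Fin 2) k => (g : Matrix (Fin 2) (Fin 2) k) 1 0) h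

theorem up_inj {s t : k} (h : up k s = up k t) : s = t := by
  simpa [coe_up] using congrArg (fun g : Matrix.SpecialLinearGroup (Fin 2) k => (g : Matrix (Fin 2) (Fin 2) k) 0 1) h

theorem comm_low : IsMulCommutative (lowerUnipotentSL2 k) :=
  ⟨⟨fun x y => by
    obtain ⟨s, hs⟩ := (mem_low k _).mp x.2
    obtain ⟨t, ht⟩ := (mem_low k _).mp y.2
    apply Subtype.ext
    rw [Subgroup.coe_mul, Subgroup.coe_mul, hs, ht, ← low_add, ← low_add, add_comm]⟩⟩

theorem comm_up : IsMulCommutative (upperUnipotentSL2 k) :=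
  ⟨⟨fun x y => by
    obtain ⟨s, hs⟩ := (mem_up k _).mp x.2
    obtain ⟨t, ht⟩ := (mem_up k _).mp y.2
    apply Subtype.ext
    rw [Subgroup.coe_mul, Subgroup.coe_mul, hs, ht, ← up_add, ← up_add, add_comm]⟩⟩

theorem main (k : Type*) [Field k] :
    IsRankOneGroup (Matrix.SpecialLinearGroup (Fin 2) k) (lowerUnipotentSL2 k) (upperUnipotentSL2 k) ∧
    IsSpecialRankOnePair (lowerUnipotentSL2 k) (upperUnipotentSL2 k) ∧
    HasAbelianUnipotents (lowerUnipotentSL2 k) (upperUnipotentSL2 k) := by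
  have hl : ∀ a ∈ lowerUnipotentSL2 k, a ≠ 1 → ∃ t, t ≠ 0 ∧ a = low k t := by
    intro a ha ha1
    obtain ⟨t, rfl⟩ := (mem_low k a).mp ha
    exact ⟨t, fun h => ha1 (by rw [h, low_zero]), rfl⟩
  have hu : ∀ a ∈ upperUnipotentSL2 k, a ≠ 1 → ∃ t, t ≠ 0 ∧ a = up k t := by
    intro a ha ha1
    obtain ⟨t, rfl⟩ := (mem_up k a).mp ha
    exact ⟨t, fun h => ha1 (by rw [h, up_zero]), rfl⟩
  have hpair : IsRankOnePair (lowerUnipotentSL2 k) (upperUnipotentSL2 k) := by
    refine ⟨?_, ?_, ?_, ?_, ?_⟩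
    · intro e
      have h1 : low k 1 ∈ upperUnipotentSL2 k := e ▸ (mem_low k _).mpr ⟨1, rfl⟩
      obtain ⟨t, ht⟩ := (mem_up k _).mp h1
      simpa [coe_low, up] using congrArg (fun g : Matrix.SpecialLinearGroup (Fin 2) k => (g : Matrix (Fin 2) (Fin 2) k) 1 0) ht
    · haveI := comm_low (k := k); exact nilpotent_of_comm ‹_›
    · haveI := comm_up (k := k); exact nilpotent_of_comm ‹_›
    · intro a ha ha1
      obtain ⟨t, ht, rfl⟩ := hl a ha ha1
      refine ⟨up k t⁻¹, (mem_up k _).mpr ⟨_, rfl⟩, ?_, conj_eq t ht⟩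
      rw [← up_zero k]; exact fun h => inv_ne_zero ht (up_inj h)
    · intro a ha ha1
      obtain ⟨t, ht, rfl⟩ := hu a ha ha1
      refine ⟨low k t⁻¹, (mem_low k _).mpr ⟨_, rfl⟩, ?_, ?_⟩
      · rw [← low_zero k]; exact fun h => inv_ne_zero ht (low_inj h)
      · have := conj_eq t⁻¹ (inv_ne_zero ht)
        rw [inv_inv] at this
        exact this.symm
  refine ⟨⟨?_, hpair⟩, ⟨hpair, ?_⟩, comm_low, comm_up⟩
  · rw [eq_top_iff]
    intro g _
    have hmemu : ∀ t, up k t ∈ lowerUnipotentSL2 k ⊔ upperUnipotentSL2 k :=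
      fun t => Subgroup.mem_sup_right ((mem_up k _).mpr ⟨t, rfl⟩)
    have hmeml : ∀ t, low k t ∈ lowerUnipotentSL2 k ⊔ upperUnipotentSL2 k :=
      fun t => Subgroup.mem_sup_left ((mem_low k _).mpr ⟨t, rfl⟩)
    have hgood : ∀ g : Matrix.SpecialLinearGroup (Fin 2) k, (g : Matrix (Fin 2) (Fin 2) k) 1 0 ≠ 0 →
        g ∈ lowerUnipotentSL2 k ⊔ upperUnipotentSL2 k := by
      intro g hc
      set c := (g : Matrix (Fin 2) (Fin 2) k) 1 0 with hcdef
      have e : g = up k (((g : Matrix (Fin 2) (Fin 2) k) 0 0 - 1) / c) * low k c *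
          up k (((g : Matrix (Fin 2) (Fin 2) k) 1 1 - 1) / c) := by
        have hdet := g.2
        rw [Matrix.det_fin_two, ← hcdef] at hdet
        apply Subtype.ext
        ext i j; fin_cases i <;> fin_cases j <;>
          simp [coe_up, coe_low, Matrix.SpecialLinearGroup.coe_mul, Matrix.mul_apply, Fin.sum_univ_two, ← hcdef] <;> field_simp <;>
          first | linear_combination hdet | linear_combination -hdet | ring1
      rw [e]; exact mul_mem (mul_mem (hmemu _) (hmeml _)) (hmemu _)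
    by_cases hc : (g : Matrix (Fin 2) (Fin 2) k) 1 0 = 0
    · have h00 : (g : Matrix (Fin 2) (Fin 2) k) 0 0 ≠ 0 := fun h => by
        have hdet := g.2
        rw [Matrix.det_fin_two, h, hc] at hdet
        simp at hdet
      have h1 := hgood (low k 1 * g) (by simpa [coe_low, Matrix.SpecialLinearGroup.coe_mul, Matrix.mul_apply, Fin.sum_univ_two, hc] using h00)
      simpa using mul_mem (inv_mem (hmeml 1)) h1
    · exact hgood g hc
  · intro a ha ha1 b hb hb1 e
    obtain ⟨t, ht, rfl⟩ := hl a ha ha1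
    have hbt : b = up k t⁻¹ := partner_unique hpair hb ((mem_up k _).mpr ⟨_, rfl⟩) (e.trans (conj_eq t ht).symm)
    rw [hbt, key_conj t t ht]
    congr 1
    rw [← up_neg]; congr 2
    field_simp

/-- For any field k, the special linear group SL₂(k) is a special rank one group with abelian unipotent subgroups, the unipotent subgroups being the group of lower unitriangular matrices and the group of upper unitriangular matrices. -/
theorem result (k : Type*) [Field k] :
    Cfsg.IsRankOneGroup (Matrix.SpecialLinearGroup (Fin 2) k) (Cfsg.lowerUnipotentSL2 k) (Cfsg.upperUnipotentSL2 k) ∧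
    Cfsg.IsSpecialRankOnePair (Cfsg.lowerUnipotentSL2 k) (Cfsg.upperUnipotentSL2 k) ∧
    Cfsg.HasAbelianUnipotents (Cfsg.lowerUnipotentSL2 k) (Cfsg.upperUnipotentSL2 k) := by
  open Lib.Root in
  exact main k

end Cfsg.Agent.S5016
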