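import Cfsg.Statements.S5017
import Cfsg.Agent.Lib.Root.RankOne
-- import your own Cfsg.Agent.* helpers here

set_option autoImplicit false
open Cfsg

namespace Cfsg.Agent.S5017

/-- Let X be a rank one group with unipotent subgroups A and B and N a normal subgroup of X. Then either X = N A or N lies in the centre of X. Consequently a perfect rank one group is quasisimple. -/
theorem result {X : Type*} [Group X] {A B : Subgroup X} (h : Cfsg.IsRankOneGroup X A B) :
    (∀ N : Subgroup X, N.Normal → N ⊔ A = ⊤ ∨ N ≤ Subgroup.center X) ∧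
    (Group.IsPerfect X → Cfsg.IsQuasisimple X) := by
  open Lib.Root in
  obtain ⟨htop, hp⟩ := h
  have key : ∀ N : Subgroup X, N.Normal → N ⊔ A = ⊤ ∨ N ≤ Subgroup.center X := by
    intro N hN
    rcases normal_dichotomy hp (htop ▸ le_top : N ≤ A ⊔ B) (fun x _ n hn => hN.conj_mem n hn x) with h1 | h1
    · exact Or.inl (h1.trans htop)
    · exact Or.inr fun n hn => Subgroup.mem_center_iff.mpr fun x => (h1 n hn x (htop ▸ Subgroup.mem_top x)).symm
  refine ⟨key, fun hperf => ⟨hperf, ?_⟩⟩
  have hnt : Subgroup.center X ≠ ⊤ := by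
    intro e
    apply not_commute hp
    rw [Subgroup.commutator_eq_bot_iff_le_centralizer]
    intro a _ b _
    exact ((Subgroup.mem_center_iff.mp (e ▸ Subgroup.mem_top a)) b)
  haveI : Nontrivial (X ⧸ Subgroup.center X) := QuotientGroup.nontrivial_iff.mpr hnt
  refine { eq_bot_or_eq_top_of_normal := fun K hK => ?_ }
  rcases key (K.comap (QuotientGroup.mk' _)) (hK.comap _) with h1 | h1
  · right
    have hN : K.comap (QuotientGroup.mk' (Subgroup.center X)) = ⊤ := by
      haveI : (K.comap (QuotientGroup.mk' (Subgroup.center X))).Normal := hK.comap _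
      set N := K.comap (QuotientGroup.mk' (Subgroup.center X))
      haveI := hp.nilpotent_left
      haveI : Group.IsNilpotent (X ⧸ N) := Group.nilpotent_of_surjective ((QuotientGroup.mk' N).comp A.subtype) (by
        intro q
        obtain ⟨x, rfl⟩ := QuotientGroup.mk'_surjective N q
        have hx : x ∈ (↑(N ⊔ A) : Set X) := by rw [h1]; trivial
        rw [Subgroup.normal_mul] at hx
        obtain ⟨n, hn, a, ha, rfl⟩ := hx
        exact ⟨⟨a, ha⟩, by simp [(QuotientGroup.eq_one_iff n).mpr hn]⟩)
      by_contra hN
      haveI : Nontrivial (X ⧸ N) := QuotientGroup.nontrivial_iff.mpr hN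
      have hperfQ : commutator (X ⧸ N) = ⊤ := by
        rw [commutator_def, ← Subgroup.map_top_of_surjective _ (QuotientGroup.mk'_surjective N),
          ← Subgroup.map_commutator, ← commutator_def, hperf.commutator_eq_top]
      exact absurd hperfQ (ne_of_lt (IsSolvable.commutator_lt_top_of_nontrivial _))
    have := congrArg (Subgroup.map (QuotientGroup.mk' (Subgroup.center X))) hN
    rwa [Subgroup.map_comap_eq_self_of_surjective (QuotientGroup.mk'_surjective _),
      Subgroup.map_top_of_surjective _ (QuotientGroup.mk'_surjective _)] at this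
  · left
    rw [eq_bot_iff]
    intro q hq
    obtain ⟨x, rfl⟩ := QuotientGroup.mk'_surjective _ q
    exact Subgroup.mem_bot.mpr ((QuotientGroup.eq_one_iff x).mpr (h1 hq))

end Cfsg.Agent.S5017
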