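import Cfsg.Statements.S5018
import Cfsg.Agent.Lib.Root.RankOne
-- import your own Cfsg.Agent.* helpers here

set_option autoImplicit false
open Cfsg

namespace Cfsg.Agent.S5018

/-- A rank one group is not nilpotent, and its second centre equals its centre. -/
theorem result {X : Type*} [Group X] {A B : Subgroup X} (h : Cfsg.IsRankOneGroup X A B) :
    Subgroup.upperCentralSeries X 2 = Subgroup.center X ∧ ¬ Group.IsNilpotent X := by
  open Lib.Root in
  obtain ⟨htop, hp⟩ := h
  have hZ : Subgroup.upperCentralSeries X 1 = Subgroup.center X := Subgroup.upperCentralSeries_one X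
  have h2 : Subgroup.upperCentralSeries X 2 = Subgroup.center X := by
    refine le_antisymm ?_ (hZ ▸ Subgroup.upperCentralSeries_mono X (by norm_num))
    intro z hz
    have hc : ∀ g : X, z * g * z⁻¹ * g⁻¹ ∈ Subgroup.center X := by
      intro g
      rw [← hZ]
      exact (Subgroup.mem_upperCentralSeries_succ_iff.mp hz) g
    rw [Subgroup.mem_center_iff]
    intro x
    refine (commute_of_fixes hp (fun C hC => ?_) x (htop ▸ Subgroup.mem_top x)).symm
    by_contra hne
    have hC' : conjBy C z ∈ unipotentSubgroups A B :=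
      conjBy_mem_unipotent hC (htop ▸ Subgroup.mem_top z)
    have hp' := (unipotent_pair hp hC hC' (Ne.symm hne)).1
    obtain ⟨d, hd, hd1⟩ := exists_right hp'
    refine hd1 (eq_one_of_normalizes' hp' hd ?_)
    obtain ⟨c, hc', rfl⟩ := hd
    have e : (MulAut.conj z).toMonoidHom c = (z * c * z⁻¹ * c⁻¹) * c := by simp [mul_assoc]
    rw [e, ← conjBy_mul, conjBy_eq_self_of_mem hc']
    exact conjBy_eq_self_of_commute fun a _ => (Subgroup.mem_center_iff.mp (hc c) a).symm
  refine ⟨h2, fun hnil => ?_⟩
  have hall : ∀ n, Subgroup.upperCentralSeries X (n + 1) = Subgroup.center X := by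
    intro n
    induction n with
    | zero => exact hZ
    | succ n ih =>
      refine le_antisymm (fun z hz => ?_) (hZ ▸ Subgroup.upperCentralSeries_mono X (by omega))
      rw [← h2]
      refine Subgroup.mem_upperCentralSeries_succ_iff.mpr fun g => ?_
      rw [hZ, ← ih]
      exact (Subgroup.mem_upperCentralSeries_succ_iff.mp hz) g
  obtain ⟨n, hn⟩ := Group.IsNilpotent.nilpotent X
  have htopZ : Subgroup.center X = ⊤ := by
    rw [← hall n, eq_top_iff, ← hn]
    exact Subgroup.upperCentralSeries_mono X (by omega)
  apply not_commute hp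
  rw [Subgroup.commutator_eq_bot_iff_le_centralizer]
  intro a _ b _
  exact ((Subgroup.mem_center_iff.mp (htopZ ▸ Subgroup.mem_top a)) b)

end Cfsg.Agent.S5018
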