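import Cfsg.Statements.S5020
import Cfsg.Agent.Lib.Root.Perfect
import Cfsg.Agent.Lib.Root.Sets
import Cfsg.Agent.Lib.Chev.SLTwoHom
import Cfsg.Agent.Lib.Components.Basic

set_option autoImplicit false
open Cfsg

namespace Cfsg.Agent.S5020

open Cfsg.Agent.Lib.Root
open scoped commutatorElement

section
variable {G : Type*} [Group G] {F D : Subgroup G}

theorem le_comm_diag (hs : IsSpecialRankOnePair F D) (hF : IsMulCommutative F) (hD : IsMulCommutative D)
    (hcard : 3 < ENat.card F) : F ≤ ⁅F, rankOneDiagonal F D⁆ := by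
  classical
  set H := rankOneDiagonal F D with hH
  have hFH : ⁅F, H⁆ ≤ F := Subgroup.commutator_le.2 fun f hf g hg => by
    have := ((Subgroup.mem_normalizer_iff.1 hg.1.2) f⁻¹).1 (inv_mem hf)
    rw [show ⁅f, g⁆ = f * (g * f⁻¹ * g⁻¹) by simp only [commutatorElement_def]; group]
    exact mul_mem hf this
  letI : CommGroup F := { (inferInstance : Group F) with mul_comm := fun a b => hF.is_comm.comm a b }
  set M := (⁅F, H⁆ : Subgroup G).subgroupOf F with hM
  haveI : M.Normal := ⟨fun n hn g => by rwa [mul_comm g n, mul_inv_cancel_right]⟩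
  set Y := F ⊔ D with hY
  have hFY : ∀ {x : G}, x ∈ F → x ∈ Y := fun h => Subgroup.mem_sup_left h
  have hDY : ∀ {x : G}, x ∈ D → x ∈ Y := fun h => Subgroup.mem_sup_right h
  let χ : G → F ⧸ M := fun g => if h : g ∈ F then QuotientGroup.mk' M ⟨g, h⟩ else 1
  have hmul : ∀ {x y : G}, x ∈ F → y ∈ F → χ (x * y) = χ x * χ y := fun {x y} hx hy => by
    simp only [χ, dif_pos hx, dif_pos hy, dif_pos (mul_mem hx hy)]
    rw [← map_mul]; rfl
  have hinv : ∀ {x : G}, x ∈ F → χ x⁻¹ = (χ x)⁻¹ := fun {x} hx => by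
    simp only [χ, dif_pos hx, dif_pos (inv_mem hx)]
    rw [← map_inv]; rfl
  have hone : χ 1 = 1 := by
    simp only [χ, dif_pos (one_mem F)]
    exact map_one _
  have hpow : ∀ {x : G}, x ∈ F → ∀ n : ℕ, χ (x ^ n) = χ x ^ n := by
    intro x hx n
    induction n with
    | zero => simp [hone]
    | succ n ih => rw [pow_succ, hmul (pow_mem hx n) hx, ih, pow_succ]
  have hdiag : ∀ g ∈ Y, conjBy F g = F → conjBy D g = D → g ∈ H := fun g hg h1 h2 =>
    ⟨⟨hg, conjBy_eq_self_iff.1 h1⟩, conjBy_eq_self_iff.1 h2⟩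
  have hinvar : ∀ g ∈ H, ∀ x ∈ F, χ (g * x * g⁻¹) = χ x := by
    intro g hg x hx
    have hxg : g * x * g⁻¹ ∈ F := ((Subgroup.mem_normalizer_iff.1 hg.1.2) x).1 hx
    simp only [χ, dif_pos hx, dif_pos hxg]
    refine (QuotientGroup.eq).2 ?_
    rw [hM, Subgroup.mem_subgroupOf]
    have hm : ⁅x⁻¹, g⁆⁻¹ ∈ ⁅F, H⁆ := inv_mem (Subgroup.commutator_mem_commutator (inv_mem hx) hg)
    have e : (((⟨g * x * g⁻¹, hxg⟩ : F)⁻¹ * ⟨x, hx⟩ : F) : G) = x * (g * x * g⁻¹)⁻¹ := by
      rw [mul_comm]; rfl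
    rw [e]
    have := inv_mem (inv_mem (Subgroup.commutator_mem_commutator hx hg))
    rwa [inv_inv, show ⁅x, g⁆ = x * (g * x * g⁻¹)⁻¹ by simp only [commutatorElement_def]; group] at this
  intro a ha
  suffices hgoal : χ a = 1 by
    simp only [χ, dif_pos ha] at hgoal
    have h := (QuotientGroup.eq_one_iff (N := M) (⟨a, ha⟩ : F)).1 hgoal
    exact h
  revert a
  by_contra hcon
  push Not at hcon
  obtain ⟨a, ha, hχa⟩ := hcon
  have ha1 : a ≠ 1 := fun e => hχa (e ▸ hone)
  obtain ⟨b, hb, hb1, e⟩ := hs.1.cond_left a ha ha1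
  obtain ⟨nF, nD, -⟩ := swap_elt hs hF ha ha1 hb hb1 e
  set n := a * b⁻¹ * a with hn
  have hnY : n ∈ Y := mul_mem (mul_mem (hFY ha) (inv_mem (hDY hb))) (hFY ha)
  have niF : conjBy F n⁻¹ = D := by
    conv_lhs => rw [← nD, conjBy_inv_conjBy]
  have niD : conjBy D n⁻¹ = F := by
    conv_lhs => rw [← nF, conjBy_inv_conjBy]
  have hback : ∀ y ∈ D, n⁻¹ * y * n ∈ F := fun y hy => mem_conjBy.1 (nF.symm ▸ hy)
  let ψ : G → F ⧸ M := fun y => χ (n⁻¹ * y * n)
  have hconjn : ∀ u ∈ F, ∀ v ∈ D, conjBy F v⁻¹ = conjBy D u⁻¹ → u ≠ 1 → v ≠ 1 →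
      (u * v⁻¹ * u) * u * (u * v⁻¹ * u)⁻¹ = v⁻¹ := by
    intro u hu v hv e hu1 hv1
    calc (u * v⁻¹ * u) * u * (u * v⁻¹ * u)⁻¹ = u * (v⁻¹ * u * v) * u⁻¹ := by group
      _ = v⁻¹ := by rw [hs.2 u hu hu1 v hv hv1 e]; group
  -- partners
  have hpart : ∀ u ∈ F, u ≠ 1 → ∃ v ∈ D, v ≠ 1 ∧ conjBy F v⁻¹ = conjBy D u⁻¹ ∧ ψ v⁻¹ = χ u := by
    intro u hu hu1
    obtain ⟨v, hv, hv1, e⟩ := hs.1.cond_left u hu hu1
    obtain ⟨mF, mD, -⟩ := swap_elt hs hF hu hu1 hv hv1 e
    refine ⟨v, hv, hv1, e, ?_⟩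
    set m := u * v⁻¹ * u with hm
    have hmY : m ∈ Y := mul_mem (mul_mem (hFY hu) (inv_mem (hDY hv))) (hFY hu)
    have hg : n⁻¹ * m ∈ H := hdiag _ (mul_mem (inv_mem hnY) hmY)
      (by rw [← conjBy_mul, mF, niD]) (by rw [← conjBy_mul, mD, niF])
    show χ (n⁻¹ * v⁻¹ * n) = χ u
    rw [← hconjn u hu v hv e hu1 hv1, ← hm, show n⁻¹ * (m * u * m⁻¹) * n = n⁻¹ * m * u * (n⁻¹ * m)⁻¹ by group]
    exact hinvar _ hg u hu
  have hswap : ∀ g ∈ Y, conjBy F g = D → conjBy D g = F → ∀ x ∈ F, x ≠ 1 →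
      ∃ y ∈ F, conjBy (conjBy D x) g = conjBy D y ∧ χ y = (χ x)⁻¹ := by
    intro g hg gF gD x hx hx1
    obtain ⟨b, hb, hb1, e, -⟩ := hpart x⁻¹ (inv_mem hx) (inv_ne_one.2 hx1)
    obtain ⟨nF, nD, nx⟩ := swap_elt hs hF (inv_mem hx) (inv_ne_one.2 hx1) hb hb1 e
    rw [inv_inv] at nx
    set n := x⁻¹ * b⁻¹ * x⁻¹
    have hn : n ∈ Y := mul_mem (mul_mem (inv_mem (hFY hx)) (inv_mem (hDY hb))) (inv_mem (hFY hx))
    set h := g * n⁻¹ with hh
    have hhF : conjBy F h = F := by
      rw [hh, ← conjBy_mul]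
      conv_lhs => rw [← nD, conjBy_inv_conjBy]
      exact gD
    have hhD : conjBy D h = D := by
      rw [hh, ← conjBy_mul]
      conv_lhs => rw [← nF, conjBy_inv_conjBy]
      exact gF
    have hhY : h ∈ Y := mul_mem hg (inv_mem hn)
    refine ⟨h * x⁻¹ * h⁻¹, ?_, ?_, ?_⟩
    · exact hhF.le (conj_mem_conjBy h (inv_mem hx))
    · rw [show g = h * n by rw [hh, inv_mul_cancel_right], ← conjBy_mul _ n h, nx]
      conv_rhs => rw [← hhD]
      rw [conjBy_mul, conjBy_mul]
      congr 1; group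
    · rw [hinvar h (hdiag h hhY hhF hhD) _ (inv_mem hx), hinv hx]
  set c := n⁻¹ * b⁻¹ * n with hc
  have hca : c = a := by rw [hc, ← hconjn a ha b hb e ha1 hb1, ← hn]; group
  have hcF : c ∈ F := hca ▸ ha
  have hχc : χ c = χ a := by rw [hca]
  let Bad : G → Prop := fun x => conjBy (conjBy D (a * x)) n⁻¹ = conjBy D c⁻¹
  have hbad : ∀ x ∈ F, ∀ x' ∈ F, Bad x → Bad x' → x = x' := by
    intro x hx x' hx' h h'
    exact mul_left_cancel (conjBy_right_unique hs.1 (mul_mem ha hx) (mul_mem ha hx')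
      (conjBy_injective n⁻¹ (h.trans h'.symm)))
  have hgen : ∀ x ∈ F, x ≠ 1 → x ≠ a⁻¹ → ¬ Bad x → χ a * χ x * χ x = 1 := by
    intro x hx hx1 hxa hxb
    have haxF : a * x ∈ F := mul_mem ha hx
    have hax1 : a * x ≠ 1 := fun h => hxa (eq_inv_of_mul_eq_one_right h)
    obtain ⟨y1, hy1, e1, c1⟩ := hswap n⁻¹ (inv_mem hnY) niF niD (a * x) haxF hax1
    have hcy : c * y1 ≠ 1 := fun h => hxb (by
      show conjBy (conjBy D (a * x)) n⁻¹ = conjBy D c⁻¹
      rw [e1, eq_inv_of_mul_eq_one_right h])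
    obtain ⟨y2, hy2, e2, c2⟩ := hswap n hnY nF nD (c * y1) (mul_mem hcF hy1) hcy
    obtain ⟨y, hy, e3, c3⟩ := hswap n hnY nF nD x hx hx1
    have hne : n * x = a * (n * (c * (n⁻¹ * (a * x)))) := by rw [hc, hn]; group
    have he : conjBy (conjBy D x) n = conjBy D (a * y2) := by
      calc conjBy (conjBy D x) n = conjBy D (a * (n * (c * (n⁻¹ * (a * x))))) := by rw [conjBy_mul, hne]
        _ = conjBy (conjBy (conjBy (conjBy (conjBy D (a * x)) n⁻¹) c) n) a := by simp only [conjBy_mul]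
        _ = conjBy (conjBy D y2) a := by rw [e1, conjBy_mul D y1 c, e2]
        _ = _ := by rw [conjBy_mul]
    have hyy := conjBy_right_unique hs.1 hy (mul_mem ha hy2) (e3.symm.trans he)
    have := congrArg χ hyy
    rw [c3, hmul ha hy2, c2, hmul hcF hy1, c1, hmul ha hx, hχc,
      mul_inv_rev, inv_inv, mul_inv_cancel_comm] at this
    rw [show χ a * χ x * χ x = (χ a * χ x) * χ x from rfl, ← this, inv_mul_cancel]
  have hcube : ∀ u ∈ F, u ^ 2 ≠ 1 → χ u ^ 3 = 1 := by
    intro u hu hu2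
    obtain ⟨b₁, hb₁, -, e₁, k₁⟩ := hpart u hu (fun h => hu2 (by rw [h, one_pow]))
    obtain ⟨b₂, hb₂, -, e₂, k₂⟩ := hpart (u ^ 2) (pow_mem hu 2) hu2
    have h := congrArg (fun y => χ (n⁻¹ * y * n)) (special_pow hs hF hD 2 u hu b₁ hb₁ b₂ hb₂ hu2 e₁ e₂)
    have hψi : ∀ v ∈ D, χ (n⁻¹ * v⁻¹ * n) = (χ (n⁻¹ * v * n))⁻¹ := fun v hv => by
      rw [← hinv (hback v hv)]; congr 1; group
    change χ (n⁻¹ * b₁⁻¹ * n) = _ at k₁
    change χ (n⁻¹ * b₂⁻¹ * n) = _ at k₂
    rw [hψi b₁ hb₁] at k₁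
    rw [hψi b₂ hb₂, hpow hu] at k₂
    rw [show n⁻¹ * b₂ ^ 2 * n = (n⁻¹ * b₂ * n) ^ 2 by rw [pow_two, pow_two]; group, hpow (hback b₂ hb₂),
      inv_eq_iff_eq_inv.1 k₁, inv_eq_iff_eq_inv.1 k₂, inv_pow, inv_inj, ← pow_mul] at h
    have h' : χ u ^ 3 * χ u = 1 * χ u := by rw [← pow_succ, one_mul]; exact h
    exact mul_right_cancel h'
  rcases special_dichotomy hs hF hD with ⟨p, hp, -, hpe⟩ | ⟨htf, hdiv⟩
  · have hchi : ∀ u ∈ F, χ u ^ p = 1 := fun u hu => by rw [← hpow hu, hpe u hu, hone]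
    by_cases hp3 : p = 3
    · subst hp3
      have ha3 := hchi a ha
      -- outside three points, `χ` is constant
      have hconst : ∀ x ∈ F, x ≠ 1 → x ≠ a⁻¹ → ¬ Bad x → χ x = χ a := by
        intro x hx h1 h2 h3
        have h := hgen x hx h1 h2 h3
        have hx3 : χ x * (χ x * χ x) = 1 := by rw [← hchi x hx]; simp [pow_succ, mul_assoc]
        rw [mul_assoc] at h
        exact mul_right_cancel (hx3.trans h.symm)
      have hinj : ∀ t ∈ F, χ t = 1 → t = 1 := by
        intro t ht h1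
        by_contra ht1
        have hta : χ (a⁻¹ * t) = (χ a)⁻¹ := by
          rw [hmul (inv_mem ha) ht, hinv ha, h1, mul_one]
        have hainv : (χ a)⁻¹ ≠ χ a := fun h => hχa (by
          have : χ a ^ 2 = 1 := by rw [pow_two]; nth_rewrite 1 [← h]; rw [inv_mul_cancel]
          calc χ a = χ a ^ 3 * (χ a ^ 2)⁻¹ := by rw [pow_succ _ 2]; group
            _ = 1 := by rw [ha3, this, inv_one, mul_one])
        have hb1 : Bad t := by
          by_contra hb
          refine hχa ?_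
          rw [← hconst t ht ht1 (fun h => hχa ?_) hb, h1]
          rw [h, hinv ha] at h1
          exact inv_eq_one.1 h1
        have hb2 : Bad (a⁻¹ * t) := by
          by_contra hb
          refine hainv ?_
          rw [← hta]
          refine hconst _ (mul_mem (inv_mem ha) ht) (fun h => hχa ?_) (fun h => ht1 ?_) hb
          · rw [h, hone] at hta; exact inv_eq_one.1 hta.symm
          · simpa using h
        have h := hbad _ (mul_mem (inv_mem ha) ht) t ht hb2 hb1
        exact ha1 (inv_eq_one.1 (by simpa using h))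
      have hsingle : ∀ x ∈ F, x ≠ 1 → x ≠ a⁻¹ → ¬ Bad x → x = a := fun x hx h1 h2 h3 => by
        have := hinj (x * a⁻¹) (mul_mem hx (inv_mem ha))
          (by rw [hmul hx (inv_mem ha), hinv ha, hconst x hx h1 h2 h3, mul_inv_cancel])
        exact mul_inv_eq_one.1 this
      obtain ⟨z, hz, z1, z2, z3⟩ := not_subset_three hcard 1 a⁻¹ a
      have hzb : Bad z := by
        by_contra h
        exact z3 (hsingle z hz z1 z2 h)
      have a3 : a * (a * a) = 1 := by simpa [pow_succ, mul_assoc] using hpe a ha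
      by_cases q1 : z * a = 1
      · exact z2 (eq_inv_of_mul_eq_one_left q1)
      by_cases q2 : z * a = a⁻¹
      · refine z3 ?_
        have : z * a * a = 1 := by rw [q2, inv_mul_cancel]
        rw [mul_assoc] at this
        exact mul_right_cancel (this.trans a3.symm)
      by_cases q3 : Bad (z * a)
      · exact ha1 (by simpa using hbad _ (mul_mem hz ha) z hz q3 hzb)
      exact z1 (by simpa using hsingle _ (mul_mem hz ha) q1 q2 q3)
    by_cases hp2 : p = 2
    · subst hp2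
      obtain ⟨x, hx, x1, x2, x3⟩ := not_subset_three hcard 1 a⁻¹
        (if h : ∃ x ∈ F, Bad x then h.choose else 1)
      have hxb : ¬ Bad x := fun hb => x3 (by
        have h : ∃ x ∈ F, Bad x := ⟨x, hx, hb⟩
        rw [dif_pos h]
        exact hbad x hx _ h.choose_spec.1 hb h.choose_spec.2)
      have h := hgen x hx x1 x2 hxb
      rw [mul_assoc, ← pow_two, hchi x hx, mul_one] at h
      exact hχa h
    have ha2 : a ^ 2 ≠ 1 := by
      intro h
      have h1 : a ^ (Nat.gcd 2 p) = 1 := pow_gcd_eq_one.2 ⟨h, hpe a ha⟩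
      rw [(Nat.coprime_primes Nat.prime_two hp).2 (Ne.symm hp2)] at h1
      exact ha1 (by simpa using h1)
    have h3 : χ a ^ (Nat.gcd 3 p) = 1 := pow_gcd_eq_one.2 ⟨hcube a ha ha2, hchi a ha⟩
    rw [(Nat.coprime_primes Nat.prime_three hp).2 (Ne.symm hp3)] at h3
    exact hχa (by simpa using h3)
  · obtain ⟨u, hu, rfl⟩ := hdiv a ha 3 (by norm_num)
    refine hχa ?_
    rw [hpow hu]
    refine hcube u hu fun h => ?_
    have hu1 : u ≠ 1 := fun e => ha1 (by rw [e, one_pow])
    exact htf u hu hu1 (isOfFinOrder_iff_pow_eq_one.2 ⟨2, by norm_num, h⟩)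

end

section
variable {G : Type*} [Group G]

theorem units_two : ∀ t : ZMod 2, t ≠ 0 → t = 1 ∨ t = -1 := by decide

theorem units_three : ∀ t : ZMod 3, t ≠ 0 → t = 1 ∨ t = -1 := by decide

open Cfsg.Agent.Lib.Chev in
theorem exists_small_hom {p : ℕ} [Fact p.Prime] (hp : p ≤ 3) {a c : G} (ha : a ^ p = 1) (hc : c ^ p = 1)
    (hbr : a * c * a = c * a * c) :
    ∃ φ : Matrix.SpecialLinearGroup (Fin 2) (ZMod p) →* G,
      φ.range = Subgroup.closure {a, c} ∧ φ (RootPair.upT 1) = a ∧ φ (RootPair.loT 1) = c⁻¹ := by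
  have hpp : p.Prime := Fact.out
  let X : ZMod p → G := fun t => a ^ t.val
  let Y : ZMod p → G := fun t => (c⁻¹) ^ t.val
  have hc' : (c⁻¹) ^ p = 1 := by rw [inv_pow, hc, inv_one]
  set n := a * c * a with hn
  have hna : n * a * n⁻¹ = c := by
    rw [mul_inv_eq_iff_eq_mul]
    calc n * a = c * (a * c * a) := by rw [hbr]; group
      _ = c * n := by rw [← hn]
  have hnc : n * c * n⁻¹ = a := by
    rw [mul_inv_eq_iff_eq_mul]
    calc n * c = a * (c * a * c) := by rw [hn]; group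
      _ = a * n := by rw [← hbr, hn]
  have hz : Commute (n * n) a := by
    have : n * n * a * (n * n)⁻¹ = a := by
      rw [show n * n * a * (n * n)⁻¹ = n * (n * a * n⁻¹) * n⁻¹ by group, hna, hnc]
    exact mul_inv_eq_iff_eq_mul.1 this
  have hzc : Commute (n * n) c := by
    have : n * n * c * (n * n)⁻¹ = c := by
      rw [show n * n * c * (n * n)⁻¹ = n * (n * c * n⁻¹) * n⁻¹ by group, hnc, hna]
    exact mul_inv_eq_iff_eq_mul.1 this
  have hX1 : X 1 = a := by show a ^ (1 : ZMod p).val = a; rw [ZMod.val_one, pow_one]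
  have hY1 : Y 1 = c⁻¹ := by show (c⁻¹) ^ (1 : ZMod p).val = _; rw [ZMod.val_one, pow_one]
  have hXadd : ∀ t u, X t * X u = X (t + u) := fun t u => by
    show a ^ t.val * a ^ u.val = a ^ (t + u).val
    rw [← pow_add, ZMod.val_add]
    exact pow_eq_pow_mod _ ha
  have hYadd : ∀ t u, Y t * Y u = Y (t + u) := fun t u => by
    show (c⁻¹) ^ t.val * (c⁻¹) ^ u.val = (c⁻¹) ^ (t + u).val
    rw [← pow_add, ZMod.val_add]
    exact pow_eq_pow_mod _ hc'
  have hX0 : X 0 = 1 := by show a ^ (0 : ZMod p).val = 1; simp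
  have hY0 : Y 0 = 1 := by show (c⁻¹) ^ (0 : ZMod p).val = 1; simp
  have hXn : ∀ t, X (-t) = (X t)⁻¹ := fun t => eq_inv_of_mul_eq_one_left (by rw [hXadd, neg_add_cancel, hX0])
  have hYn : ∀ t, Y (-t) = (Y t)⁻¹ := fun t => eq_inv_of_mul_eq_one_left (by rw [hYadd, neg_add_cancel, hY0])
  have hN1 : X 1 * Y (-1⁻¹) * X 1 = n := by rw [inv_one, hYn, hX1, hY1, inv_inv]
  have hNm : X (-1) * Y 1 * X (-1) = n⁻¹ := by rw [hXn, hX1, hY1, hn]; group
  have hpc : p = 2 ∨ p = 3 := by have := hpp.two_le; omega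
  have ht : ∀ t : ZMod p, t ≠ 0 → t = 1 ∨ t = -1 := by
    rcases hpc with rfl | rfl
    exacts [units_two, units_three]
  have hn4 : n * n * (n * n) = 1 := by
    rcases hpc with rfl | rfl
    · have haa : a * a = 1 := by rw [← pow_two]; exact ha
      have hcc : c * c = 1 := by rw [← pow_two]; exact hc
      have : n * n = 1 := by
        calc n * n = a * c * (a * a) * c * a := by rw [hn]; group
          _ = 1 := by rw [haa, mul_one, mul_assoc a c c, hcc, mul_one, haa]
      rw [this, one_mul]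
    · have ha2 : a * a = a⁻¹ := eq_inv_of_mul_eq_one_left (by rw [← ha]; simp [pow_succ, mul_assoc])
      have hc2 : c * c = c⁻¹ := eq_inv_of_mul_eq_one_left (by rw [← hc]; simp [pow_succ, mul_assoc])
      have e1 : c * a⁻¹ * c = n * n * a := by
        calc c * a⁻¹ * c = a⁻¹ * (a * c * (a * a) * c * a) * a⁻¹ := by rw [ha2]; group
          _ = a⁻¹ * (n * n) * a⁻¹ := by rw [hn]; group
          _ = n * n * (a⁻¹ * a⁻¹) := by rw [← hz.inv_right.eq]; group
          _ = n * n * a := by rw [← mul_inv_rev, ha2, inv_inv]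
      have e2 : a * c⁻¹ * a = n * n * c := by
        calc a * c⁻¹ * a = c⁻¹ * (c * a * (c * c) * a * c) * c⁻¹ := by rw [hc2]; group
          _ = c⁻¹ * (n * n) * c⁻¹ := by
            rw [show c * a * (c * c) * a * c = (c * a * c) * (c * a * c) by group, ← hbr]
          _ = n * n * (c⁻¹ * c⁻¹) := by rw [← hzc.inv_right.eq]; group
          _ = n * n * c := by rw [← mul_inv_rev, hc2, inv_inv]
      set z := n * n with hz'
      have e3 : a * c⁻¹ * a * c⁻¹ = z := by rw [e2]; group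
      have e4 : a * c⁻¹ * a * c⁻¹ = z⁻¹ := by
        calc a * c⁻¹ * a * c⁻¹ = a * (c * a⁻¹ * c)⁻¹ := by group
          _ = a * (z * a)⁻¹ := by rw [e1]
          _ = _ := by group
      have e5 : z = z⁻¹ := e3.symm.trans e4
      conv_lhs => arg 2; rw [e5]
      exact mul_inv_cancel z
  have hh : ∀ t : ZMod p, t ≠ 0 → (t = 1 ∧ X t * Y (-t⁻¹) * X t = n) ∨
      (t = -1 ∧ X t * Y (-t⁻¹) * X t = n⁻¹) := by
    intro t h
    rcases ht t h with rfl | rfl
    · exact Or.inl ⟨rfl, hN1⟩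
    · exact Or.inr ⟨rfl, by rw [inv_neg, neg_neg, inv_one]; exact hNm⟩
  have hsq : ∀ t : ZMod p, t ≠ 0 → t ^ 2 = 1 := fun t h => by
    rcases ht t h with rfl | rfl <;> simp
  have hni : n⁻¹ * a * n⁻¹⁻¹ = c := by
    rw [inv_inv]
    conv_lhs => rw [← hnc]
    group
  have hnX : ∀ u, n * X u * n⁻¹ = Y (-u) ∧ n⁻¹ * X u * n⁻¹⁻¹ = Y (-u) := fun u => by
    show n * a ^ u.val * n⁻¹ = _ ∧ n⁻¹ * a ^ u.val * n⁻¹⁻¹ = _
    rw [← conj_pow, hna, ← conj_pow, hni, hYn, and_self]
    show c ^ u.val = ((c⁻¹) ^ u.val)⁻¹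
    rw [inv_pow, inv_inv]
  have hzX : ∀ u, Commute (n * n) (X u) := fun u => hz.pow_right _
  have P : RootPair X Y := by
    refine ⟨hXadd, hYadd, fun t h u => ?_, fun t h u => ?_, fun s t hs h => ?_⟩
    · rw [inv_pow, hsq t h, inv_one, one_mul]
      rcases hh t h with ⟨-, e⟩ | ⟨-, e⟩ <;> rw [e]
      exacts [(hnX u).1, (hnX u).2]
    · rw [hsq t h, one_mul, hNm]
      rcases hh t h with ⟨-, e⟩ | ⟨-, e⟩ <;> rw [e]
      · group
      · rw [← mul_inv_rev, inv_inv]
        have := (hzX u).inv_left.eq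
        rw [this]; group
    · rw [hNm]
      rcases hh s hs with ⟨rfl, e⟩ | ⟨rfl, e⟩ <;> rcases hh t h with ⟨rfl, e'⟩ | ⟨rfl, e'⟩ <;> simp only [e, e']
      · rw [show (1 : ZMod p) * 1 = 1 from one_mul 1, hN1]; group
      · rw [one_mul, e']; group
      · rw [mul_one, e]; group
      · rw [show (-1 : ZMod p) * -1 = 1 by simp, hN1]
        have h4 : (n⁻¹ * n⁻¹) * (n⁻¹ * n⁻¹) = 1 := by
          rw [← mul_inv_rev, ← mul_inv_rev, hn4, inv_one]
        rw [mul_inv_cancel, h4]
  obtain ⟨φ, hr, he⟩ := P.exists_hom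
  refine ⟨φ, hr.trans (le_antisymm ?_ ?_), (he 1).1.trans hX1, (he 1).2.trans hY1⟩ <;> rw [Subgroup.closure_le]
  · rintro x (⟨t, rfl⟩ | ⟨t, rfl⟩)
    · exact pow_mem (Subgroup.subset_closure (by simp)) _
    · exact pow_mem (inv_mem (Subgroup.subset_closure (by simp))) _
  · rintro x (rfl | rfl)
    · exact Subgroup.subset_closure (Or.inl ⟨1, hX1⟩)
    · exact Subgroup.subset_closure (Or.inr ⟨-1, by rw [hYn, hY1, inv_inv]⟩)

set_option synthInstance.maxSize 4096 in
open Cfsg.Agent.Lib.Chev in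
theorem noncentral_two : ∀ g : Matrix.SpecialLinearGroup (Fin 2) (ZMod 2),
    (∀ h, h * g = g * h) ∨ ∃ h k, RootPair.upT 1 * RootPair.loT 1 * (RootPair.upT 1)⁻¹ * (RootPair.loT 1)⁻¹ =
      (h * g * h⁻¹)⁻¹ * (k * g * k⁻¹) ∨ RootPair.upT 1 * RootPair.loT 1 * (RootPair.upT 1)⁻¹ * (RootPair.loT 1)⁻¹ = h * g * h⁻¹ := by
  unfold RootPair.upT RootPair.loT
  decide +kernel

set_option synthInstance.maxSize 4096 in
open Cfsg.Agent.Lib.Chev in
theorem noncentral_three : ∀ g : Matrix.SpecialLinearGroup (Fin 2) (ZMod 3),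
    (∀ h, h * g = g * h) ∨ ∃ h k, RootPair.upT 1 * RootPair.loT 1 * (RootPair.upT 1)⁻¹ * (RootPair.loT 1)⁻¹ =
      (h * g * h⁻¹)⁻¹ * (k * g * k⁻¹) ∨ RootPair.upT 1 * RootPair.loT 1 * (RootPair.upT 1)⁻¹ * (RootPair.loT 1)⁻¹ = h * g * h⁻¹ := by
  unfold RootPair.upT RootPair.loT
  decide +kernel

set_option synthInstance.maxSize 4096 in
theorem center_small : ∀ g : Matrix.SpecialLinearGroup (Fin 2) (ZMod 2), (∀ h, h * g = g * h) → g = 1 := by
  decide +kernel

set_option synthInstance.maxSize 4096 in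
theorem center_three : ∀ g h : Matrix.SpecialLinearGroup (Fin 2) (ZMod 3),
    (∀ x, x * g = g * x) → (∀ x, x * h = h * x) → g ≠ 1 → h ≠ 1 → g = h := by
  decide +kernel

open Cfsg.Agent.Lib.Chev in
theorem ker_central {p : ℕ} [Fact p.Prime] (φ : Matrix.SpecialLinearGroup (Fin 2) (ZMod p) →* G)
    (hnc : ∀ g : Matrix.SpecialLinearGroup (Fin 2) (ZMod p),
      (∀ h, h * g = g * h) ∨ ∃ h k, RootPair.upT 1 * RootPair.loT 1 * (RootPair.upT 1)⁻¹ * (RootPair.loT 1)⁻¹ =
        (h * g * h⁻¹)⁻¹ * (k * g * k⁻¹) ∨ RootPair.upT 1 * RootPair.loT 1 * (RootPair.upT 1)⁻¹ * (RootPair.loT 1)⁻¹ = h * g * h⁻¹)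
    (hne : ¬ Commute (φ (RootPair.upT 1)) (φ (RootPair.loT 1))) {g : Matrix.SpecialLinearGroup (Fin 2) (ZMod p)}
    (hg : φ g = 1) : g ∈ Subgroup.center _ := by
  rcases hnc g with h | ⟨h, k, e⟩
  · exact Subgroup.mem_center_iff.2 h
  exfalso; apply hne
  have : φ (RootPair.upT 1 * RootPair.loT 1 * (RootPair.upT 1)⁻¹ * (RootPair.loT 1)⁻¹) = 1 := by
    rcases e with e | e <;> rw [e] <;> simp [hg]
  simp only [map_mul, map_inv] at this
  exact mul_inv_eq_iff_eq_mul.1 (mul_inv_eq_one.1 this)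

end


/-- Let X be a special rank one group with abelian unipotent subgroups A and B, and H = N(A) ∩ N(B) its diagonal subgroup. Then either A has at most three elements and X is isomorphic to SL₂(2), SL₂(3) or PSL₂(3); or X = X' A with the commutator subgroup X' quasisimple and the commutator subgroup ⁅A, H⁆ having more than three elements. -/
theorem result {X : Type*} [Group X] {A B : Subgroup X} (h : Cfsg.IsRankOneGroup X A B)
    (hs : Cfsg.IsSpecialRankOnePair A B) (hab : Cfsg.HasAbelianUnipotents A B) :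
    (ENat.card A ≤ 3 ∧ (Nonempty (X ≃* Matrix.SpecialLinearGroup (Fin 2) (ZMod 2)) ∨
        Nonempty (X ≃* Matrix.SpecialLinearGroup (Fin 2) (ZMod 3)) ∨
        Nonempty (X ≃* Matrix.ProjectiveSpecialLinearGroup (Fin 2) (ZMod 3)))) ∨
    (commutator X ⊔ A = ⊤ ∧ Cfsg.IsQuasisimple (commutator X) ∧
      3 < ENat.card ↥(⁅A, Cfsg.rankOneDiagonal A B⁆ : Subgroup X)) := by
  obtain ⟨htop, hp⟩ := h
  obtain ⟨hA, hB⟩ := hab
  by_cases hcard : 3 < ENat.card A
  · right
    have hd := le_derived hs hA hB hcard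
    rw [htop, ← commutator_def] at hd
    have hcom : commutator X = ⊤ := by
      rw [eq_top_iff, ← htop]
      refine sup_le hd ?_
      obtain ⟨x, -, e⟩ := right_mem_unipotent hp
      rw [e]
      rintro _ ⟨a, ha, rfl⟩
      exact (inferInstance : (commutator X).Normal).conj_mem a (hd ha) x
    refine ⟨by rw [hcom]; exact top_sup_eq _, ?_, lt_of_lt_of_le hcard ?_⟩
    · rw [hcom]
      have e : (⊤ : Subgroup X) ≃* X := Subgroup.topEquiv
      have hperf : Group.IsPerfect X := ⟨hcom⟩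
      have hsimple : IsSimpleGroup (X ⧸ Subgroup.center X) := by
        haveI : Nontrivial (X ⧸ Subgroup.center X) := by
          rw [QuotientGroup.nontrivial_iff]
          intro hc
          refine not_commute hp (comm_iff.2 fun a ha b _ => ?_)
          exact (Subgroup.mem_center_iff.1 (hc ▸ Subgroup.mem_top a) b).symm
        refine ⟨fun N hN => ?_⟩
        set M := N.comap (QuotientGroup.mk' (Subgroup.center X)) with hM
        rcases normal_dichotomy hp (N := M) (by rw [htop]; exact le_top)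
          (fun x _ n hn => (inferInstance : M.Normal).conj_mem n hn x) with h1 | h1
        · right
          have hMtop : M = ⊤ := by
            rw [eq_top_iff, ← hcom]
            refine (Subgroup.Normal.quotient_commutative_iff_commutator_le (N := M)).mp ?_
            refine ⟨⟨fun x y => ?_⟩⟩
            obtain ⟨x, rfl⟩ := QuotientGroup.mk_surjective x
            obtain ⟨y, rfl⟩ := QuotientGroup.mk_surjective y
            have key : ∀ z : X, ∃ a ∈ A, (QuotientGroup.mk z : X ⧸ M) = QuotientGroup.mk a := by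
              intro z
              have hz : z ∈ M ⊔ A := by rw [h1, htop]; exact Subgroup.mem_top z
              rw [sup_comm, ← SetLike.mem_coe, Subgroup.mul_normal] at hz
              obtain ⟨a, ha, m, hm, rfl⟩ := Set.mem_mul.1 hz
              exact ⟨a, ha, (QuotientGroup.eq.2 (by rw [← mul_assoc, inv_mul_cancel, one_mul]; exact hm)).symm⟩
            obtain ⟨a, ha, e1⟩ := key x
            obtain ⟨a', ha', e2⟩ := key y
            rw [e1, e2, ← QuotientGroup.mk_mul, ← QuotientGroup.mk_mul,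
              show a * a' = a' * a from congrArg Subtype.val (hA.is_comm.comm ⟨a, ha⟩ ⟨a', ha'⟩)]
          exact Subgroup.comap_injective (QuotientGroup.mk'_surjective _) (by rw [← hM, hMtop, Subgroup.comap_top])
        · left
          rw [eq_bot_iff]
          intro q hq
          obtain ⟨z, rfl⟩ := QuotientGroup.mk_surjective q
          rw [Subgroup.mem_bot, QuotientGroup.eq_one_iff, Subgroup.mem_center_iff]
          exact fun x => (h1 z hq x (by rw [htop]; exact Subgroup.mem_top x)).symm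
      exact (Lib.Components.qs_congr e.symm).1 ⟨hperf, hsimple⟩
    · exact ENat.card_le_card_of_injective (Subgroup.inclusion_injective (le_comm_diag hs hA hB hcard))
  · left
    push Not at hcard
    refine ⟨hcard, ?_⟩
    haveI : Finite A := by
      rcases finite_or_infinite A with h | h
      · exact h
      · rw [ENat.card_eq_top_of_infinite] at hcard; exact absurd hcard (by simp)
    have hn3 : Nat.card A ≤ 3 := by rw [ENat.card_eq_coe_natCard] at hcard; exact_mod_cast hcard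
    have hn1 : 1 < Nat.card A := (Subgroup.one_lt_card_iff_ne_bot A).2 (left_ne_bot hp)
    obtain ⟨p, hpe⟩ : ∃ p, p = Nat.card A := ⟨_, rfl⟩
    have hpp : p = 2 ∨ p = 3 := by omega
    haveI : Fact p.Prime := ⟨by rcases hpp with rfl | rfl <;> norm_num⟩
    obtain ⟨x, -, hxe⟩ := right_mem_unipotent hp
    have hBc : Nat.card B = p := by
      rw [hxe, hpe]; exact (Nat.card_congr (A.equivMapOfInjective _ (MulAut.conj x).injective).toEquiv).symm
    obtain ⟨a, ha, ha1⟩ := exists_left hp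
    obtain ⟨b, hb, hb1, e⟩ := hp.cond_left a ha ha1
    have hsp := hs.2 a ha ha1 b hb hb1 e
    have hgA : Subgroup.closure {a} = A := by
      refine le_antisymm ((Subgroup.closure_le _).2 (Set.singleton_subset_iff.2 ha)) fun y hy => ?_
      rw [← Subgroup.zpowers_eq_closure]
      have := mem_zpowers_of_prime_card (g := (⟨a, ha⟩ : A)) (g' := ⟨y, hy⟩) hpe.symm (fun h => ha1 (congrArg Subtype.val h))
      obtain ⟨k, hk⟩ := this
      exact ⟨k, congrArg Subtype.val hk⟩
    have hgB : Subgroup.closure {b} = B := by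
      refine le_antisymm ((Subgroup.closure_le _).2 (Set.singleton_subset_iff.2 hb)) fun y hy => ?_
      rw [← Subgroup.zpowers_eq_closure]
      have := mem_zpowers_of_prime_card (g := (⟨b, hb⟩ : B)) (g' := ⟨y, hy⟩) hBc (fun h => hb1 (congrArg Subtype.val h))
      obtain ⟨k, hk⟩ := this
      exact ⟨k, congrArg Subtype.val hk⟩
    have hap : a ^ p = 1 := by rw [hpe]; exact congrArg Subtype.val (pow_card_eq_one' (x := (⟨a, ha⟩ : A)))
    have hbp : b⁻¹ ^ p = 1 := by rw [← hBc]; exact congrArg Subtype.val (pow_card_eq_one' (x := (⟨b⁻¹, inv_mem hb⟩ : B)))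
    have hbr : a * b⁻¹ * a = b⁻¹ * a * b⁻¹ := by
      calc a * b⁻¹ * a = a * a * (a⁻¹ * b⁻¹ * a) := by group
        _ = a * a * (b⁻¹ * a * b) := by rw [hsp]
        _ = _ := by
          have : b⁻¹ * a = a * b⁻¹ * a * b := by
            calc b⁻¹ * a = a * (a⁻¹ * b⁻¹ * a) := by group
              _ = a * (b⁻¹ * a * b) := by rw [hsp]
              _ = _ := by group
          calc a * a * (b⁻¹ * a * b) = a * (a * b⁻¹ * a * b) := by group
            _ = a * (b⁻¹ * a) := by rw [← this]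
            _ = (a * b⁻¹ * a * b) * b⁻¹ := by group
            _ = _ := by rw [← this]
    obtain ⟨φ, hr, h1, h2⟩ := exists_small_hom (by omega) hap hbp hbr
    rw [inv_inv] at h2
    have hsurj : Function.Surjective φ := by
      rw [← MonoidHom.range_eq_top, hr, eq_top_iff, ← htop]
      refine sup_le ?_ ?_
      · rw [← hgA]; exact Subgroup.closure_mono (by simp)
      · rw [← hgB, Subgroup.closure_le, Set.singleton_subset_iff, ← inv_inv b]
        exact inv_mem (Subgroup.subset_closure (by simp))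
    have hne : ¬ Commute (φ (Lib.Chev.RootPair.upT 1)) (φ (Lib.Chev.RootPair.loT 1)) := by
      rw [h1, h2]
      intro hcm
      refine not_commute hp (comm_iff.2 fun u hu v hv => ?_)
      rw [← hgA, Subgroup.mem_closure_singleton] at hu
      rw [← hgB, Subgroup.mem_closure_singleton] at hv
      obtain ⟨i, rfl⟩ := hu
      obtain ⟨j, rfl⟩ := hv
      exact (hcm.zpow_zpow i j).eq
    rcases hpp with rfl | rfl
    · left
      have hker : φ.ker = ⊥ := (Subgroup.eq_bot_iff_forall _).2 fun g hg =>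
        center_small g (Subgroup.mem_center_iff.1 (ker_central φ noncentral_two hne hg))
      exact ⟨(MulEquiv.ofBijective φ ⟨(MonoidHom.ker_eq_bot_iff φ).1 hker, hsurj⟩).symm⟩
    · right
      by_cases hker : φ.ker = ⊥
      · left
        exact ⟨(MulEquiv.ofBijective φ ⟨(MonoidHom.ker_eq_bot_iff φ).1 hker, hsurj⟩).symm⟩
      · right
        have hk : φ.ker = Subgroup.center _ := by
          obtain ⟨g, hg, hg1⟩ := φ.ker.bot_or_exists_ne_one.resolve_left hker
          refine le_antisymm (fun y hy => ker_central φ noncentral_three hne hy) fun y hy => ?_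
          by_cases hy1 : y = 1
          · rw [hy1]; exact one_mem _
          rw [center_three y g (Subgroup.mem_center_iff.1 hy)
            (Subgroup.mem_center_iff.1 (ker_central φ noncentral_three hne hg)) hy1 hg1]
          exact hg
        exact ⟨((QuotientGroup.quotientMulEquivOfEq hk).symm.trans
          (QuotientGroup.quotientKerEquivOfSurjective φ hsurj)).symm⟩

end Cfsg.Agent.S5020
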