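import Cfsg.Statements.S5022
import Cfsg.Agent.Lib.Root.Special
import Cfsg.Agent.S2426

set_option autoImplicit false
open Cfsg

namespace Cfsg.Agent.S5022


open Cfsg.Agent.Lib.Root

variable {X : Type*} [Group X]

/-- Powers indexed by `ZMod p`. -/
def ev {p : ℕ} (a : X) (t : ZMod p) : X := a ^ t.val

variable {p : ℕ} [hp : Fact p.Prime]

lemma ev_add {a : X} (ha : a ^ p = 1) (t u : ZMod p) : ev a t * ev a u = ev a (t + u) := by
  rw [ev, ev, ev, ← pow_add, ZMod.val_add, ← pow_eq_pow_mod _ ha]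

lemma ev_mul {a : X} (ha : a ^ p = 1) (t u : ZMod p) : ev (ev a t) u = ev a (t * u) := by
  rw [ev, ev, ev, ← pow_mul, ZMod.val_mul, ← pow_eq_pow_mod _ ha]

lemma ev_one (a : X) : ev a (1 : ZMod p) = a := by rw [ev, ZMod.val_one, pow_one]

lemma ev_neg {a : X} (ha : a ^ p = 1) (t : ZMod p) : ev a (-t) = (ev a t)⁻¹ := by
  refine eq_inv_of_mul_eq_one_left ?_
  rw [ev_add ha, neg_add_cancel, ev, ZMod.val_zero, pow_zero]

lemma ev_conj (g a : X) (t : ZMod p) : g * ev a t * g⁻¹ = ev (g * a * g⁻¹) t := by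
  rw [ev, ev, conj_pow]

local notation "S" => Matrix.SpecialLinearGroup (Fin 2) (ZMod p)

def ux (t : ZMod p) : S := ⟨!![1, t; 0, 1], by simp [Matrix.det_fin_two]⟩
def uy (t : ZMod p) : S := ⟨!![1, 0; t, 1], by simp [Matrix.det_fin_two]⟩

@[simp] lemma coe_ux (t : ZMod p) : (ux t : Matrix (Fin 2) (Fin 2) (ZMod p)) = !![1, t; 0, 1] := rfl
@[simp] lemma coe_uy (t : ZMod p) : (uy t : Matrix (Fin 2) (Fin 2) (ZMod p)) = !![1, 0; t, 1] := rfl

lemma ent (g h : S) (i j : Fin 2) :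
    ((g * h : S) : Matrix (Fin 2) (Fin 2) (ZMod p)) i j =
      (g : Matrix (Fin 2) (Fin 2) (ZMod p)) i 0 * (h : Matrix (Fin 2) (Fin 2) (ZMod p)) 0 j +
      (g : Matrix (Fin 2) (Fin 2) (ZMod p)) i 1 * (h : Matrix (Fin 2) (Fin 2) (ZMod p)) 1 j := by
  rw [Matrix.SpecialLinearGroup.coe_mul, Matrix.mul_apply, Fin.sum_univ_two]

/-- A noncentral normal subgroup identifies `x(1)` with some `y(t)`. -/
lemma normal_collapse (N : Subgroup S) [N.Normal] (hN : ¬ N ≤ Subgroup.center S) :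
    ∃ t : ZMod p, ux (1 : ZMod p) * (uy t)⁻¹ ∈ N := by
  obtain ⟨g, hgN, hg⟩ : ∃ g ∈ N, (g : Matrix (Fin 2) (Fin 2) (ZMod p)) 1 0 ≠ 0 := by
    by_contra hn
    push_neg at hn
    refine hN fun g hg => ?_
    have h10 := hn g hg
    obtain ⟨w, hw'⟩ : ∃ w : S, (w : Matrix (Fin 2) (Fin 2) (ZMod p)) = !![0, 1; -1, 0] :=
      ⟨⟨!![0, 1; -1, 0], by simp [Matrix.det_fin_two]⟩, rfl⟩
    have hw := hn (w * g * w⁻¹) (Subgroup.Normal.conj_mem inferInstance g hg w)
    have hy := hn (uy 1 * g * (uy 1)⁻¹) (Subgroup.Normal.conj_mem inferInstance g hg (uy 1))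
    simp [hw', ent, Matrix.SpecialLinearGroup.coe_inv, Matrix.adjugate_fin_two, h10] at hw hy
    have h01 : (g : Matrix (Fin 2) (Fin 2) (ZMod p)) 0 1 = 0 := hw
    have h00 : (g : Matrix (Fin 2) (Fin 2) (ZMod p)) 0 0 = (g : Matrix (Fin 2) (Fin 2) (ZMod p)) 1 1 := by
      simp [h01] at hy
      linear_combination hy
    rw [Subgroup.mem_center_iff]
    intro k
    ext i j
    fin_cases i <;> fin_cases j <;>
      simp [ent, h10, h01, h00] <;> ring
  obtain ⟨g', hMN, hM10, hM00⟩ : ∃ g : S, g ∈ N ∧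
      (g : Matrix (Fin 2) (Fin 2) (ZMod p)) 1 0 ≠ 0 ∧ (g : Matrix (Fin 2) (Fin 2) (ZMod p)) 0 0 = 0 := by
    refine ⟨ux (-((g : Matrix (Fin 2) (Fin 2) (ZMod p)) 0 0 / (g : Matrix (Fin 2) (Fin 2) (ZMod p)) 1 0)) * g *
      (ux (-((g : Matrix (Fin 2) (Fin 2) (ZMod p)) 0 0 / (g : Matrix (Fin 2) (Fin 2) (ZMod p)) 1 0)))⁻¹,
      Subgroup.Normal.conj_mem inferInstance g hgN _, ?_, ?_⟩
    · simpa [ent, Matrix.SpecialLinearGroup.coe_inv, Matrix.adjugate_fin_two] using hg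
    · simp [ent, Matrix.SpecialLinearGroup.coe_inv, Matrix.adjugate_fin_two]
      field_simp
      ring
  set M : Matrix (Fin 2) (Fin 2) (ZMod p) := (g' : Matrix (Fin 2) (Fin 2) (ZMod p)) with hMdef
  refine ⟨-(M 1 0) ^ 2, ?_⟩
  have key : g' * ux 1 * g'⁻¹ = uy (-(M 1 0) ^ 2) := by
    rw [mul_inv_eq_iff_eq_mul]
    have hdet : M.det = 1 := g'.2
    rw [Matrix.det_fin_two] at hdet
    ext i j
    fin_cases i <;> fin_cases j <;>
      simp [ent, ← hMdef, hM00] at hdet ⊢ <;>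
      first | linear_combination (M 1 0) * hdet | linear_combination -(M 1 0) * hdet
  rw [← key, mul_inv_rev, mul_inv_rev, inv_inv]
  have h1 : ux (1 : ZMod p) * (g' * ((ux 1)⁻¹ * g'⁻¹)) = (ux 1 * g' * (ux 1)⁻¹) * g'⁻¹ := by group
  rw [h1]
  exact mul_mem (Subgroup.Normal.conj_mem inferInstance g' hMN _) (inv_mem hMN)

lemma center_eq {z : S} (hz : z ∈ Subgroup.center S) (hz1 : z ≠ 1) {c : S}
    (hc : c ∈ Subgroup.center S) : c = 1 ∨ c = z := by
  obtain ⟨r, hr, hrz⟩ := Matrix.SpecialLinearGroup.mem_center_iff.1 hz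
  obtain ⟨s, hs, hsc⟩ := Matrix.SpecialLinearGroup.mem_center_iff.1 hc
  simp only [Fintype.card_fin, sq] at hr hs
  have h1 : r ≠ 1 := fun h => hz1 (Subtype.ext (by rw [← hrz, h]; simp))
  rcases mul_self_eq_one_iff.1 hs with h | h
  · exact Or.inl (Subtype.ext (by rw [← hsc, h]; simp))
  · right
    rcases mul_self_eq_one_iff.1 hr with h' | h'
    · exact absurd h' h1
    · exact Subtype.ext (by rw [← hsc, ← hrz, h, h'])

/-- Let X be a special rank one group with abelian unipotent subgroups A and B, where A is an elementary abelian p-group for the prime p. Then for every non-identity a in A and the non-identity b in B with b⁻¹ A b = a⁻¹ B a, the subgroup generated by a and b is isomorphic to SL₂(p) or to PSL₂(p). -/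
theorem result {X : Type*} [Group X] {A B : Subgroup X} (h : Cfsg.IsRankOneGroup X A B)
    (hs : Cfsg.IsSpecialRankOnePair A B) (hab : Cfsg.HasAbelianUnipotents A B)
    {p : ℕ} [Fact p.Prime] (hA : Cfsg.IsElementaryAbelian p A)
    {a b : X} (ha : a ∈ A) (ha1 : a ≠ 1) (hb : b ∈ B) (hb1 : b ≠ 1) (hab' : Cfsg.conjBy A b⁻¹ = Cfsg.conjBy B a⁻¹) :
    Nonempty (↥(Subgroup.closure ({a, b} : Set X)) ≃* Matrix.SpecialLinearGroup (Fin 2) (ZMod p)) ∨
    Nonempty (↥(Subgroup.closure ({a, b} : Set X)) ≃* Matrix.ProjectiveSpecialLinearGroup (Fin 2) (ZMod p)) := by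
  obtain ⟨hA', hB'⟩ := hab
  have hR := hs.1
  have hap : a ^ p = 1 := hA.2 a ha
  have hBp : ∀ y ∈ B, y ^ p = 1 := by
    obtain ⟨x, -, e⟩ := right_mem_unipotent hR
    intro y hy
    have h1 : x⁻¹ * y * x ∈ A := by rw [← mem_conjBy, ← e]; exact hy
    have h2 := hA.2 _ h1
    have h3 : x⁻¹ * y ^ p * x = 1 := by
      rw [← h2]
      have := (conj_pow (a := x⁻¹) (b := y) (i := p))
      rw [inv_inv] at this
      exact this.symm
    calc y ^ p = x * (x⁻¹ * y ^ p * x) * x⁻¹ := by group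
      _ = 1 := by rw [h3]; group
  have hbp := hBp b hb
  -- the basic relations of a pair
  have rel : ∀ c ∈ A, c ≠ 1 → ∀ d ∈ B, d ≠ 1 → conjBy A d⁻¹ = conjBy B c⁻¹ →
      c * d⁻¹ * c = d⁻¹ * c * d⁻¹ ∧ (c * d⁻¹ * c) * c * (c * d⁻¹ * c)⁻¹ = d⁻¹ ∧
      (c * d⁻¹ * c)⁻¹ * d⁻¹ * (c * d⁻¹ * c) = c := by
    intro c hc hc1 d hd hd1 e
    have k := hs.2 c hc hc1 d hd hd1 e
    have k2 : c * d⁻¹ * c = d⁻¹ * c * d⁻¹ := by
      calc c * d⁻¹ * c = c * (d⁻¹ * c * d) * d⁻¹ := by group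
        _ = c * (c⁻¹ * d⁻¹ * c) * d⁻¹ := by rw [k]
        _ = _ := by group
    have h2 : (c * d⁻¹ * c) * c * (c * d⁻¹ * c)⁻¹ = d⁻¹ := by
      calc (c * d⁻¹ * c) * c * (c * d⁻¹ * c)⁻¹ = c * (d⁻¹ * c * d) * c⁻¹ := by group
        _ = c * (c⁻¹ * d⁻¹ * c) * c⁻¹ := by rw [k]
        _ = _ := by group
    refine ⟨k2, h2, ?_⟩
    conv_lhs => enter [1, 2]; rw [← h2]
    group
  -- partners of powers
  have pair : ∀ t : ZMod p, t ≠ 0 →
      ev a t * ev b (-t⁻¹) * ev a t = ev b (-t⁻¹) * ev a t * ev b (-t⁻¹) ∧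
      ∀ u, (ev a t * ev b (-t⁻¹) * ev a t) * ev a u * (ev a t * ev b (-t⁻¹) * ev a t)⁻¹ =
          ev b (-(t⁻¹ ^ 2 * u)) ∧
        (ev a t * ev b (-t⁻¹) * ev a t)⁻¹ * ev b u * (ev a t * ev b (-t⁻¹) * ev a t) =
          ev a (-(t ^ 2 * u)) := by
    intro t ht
    have hc1 : ev a t ≠ 1 := fun hh => ha1 (by
      have := congrArg (fun z => ev z t⁻¹) hh
      simp only [ev_mul hap, mul_inv_cancel₀ ht, ev_one] at this
      rw [ev, one_pow] at this
      exact this)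
    obtain ⟨d, hd, hd1, ed⟩ := hR.cond_left _ (A.pow_mem ha t.val) hc1
    have hdt : ev d t = b := special_pow hs hA' hB' t.val a ha b hb d hd hc1 hab' ed
    have hd' : d⁻¹ = ev b (-t⁻¹) := by
      rw [ev_neg hbp, ← hdt, ev_mul (hBp d hd), mul_inv_cancel₀ ht, ev_one]
    obtain ⟨k2, h2, h3⟩ := rel (ev a t) (A.pow_mem ha t.val) hc1 d hd hd1 ed
    rw [hd'] at k2 h2 h3
    refine ⟨k2, fun u => ⟨?_, ?_⟩⟩
    · have h4 := congrArg (fun z => ev z (t⁻¹ * u)) h2
      simp only [← ev_conj, ev_mul hap, ev_mul hbp, ← mul_assoc t t⁻¹ u, mul_inv_cancel₀ ht,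
        one_mul] at h4
      rw [h4]; congr 1; ring
    · have h5 : (ev a t * ev b (-t⁻¹) * ev a t)⁻¹ * ev b (-t⁻¹) *
          ((ev a t * ev b (-t⁻¹) * ev a t)⁻¹)⁻¹ = ev a t := by rw [inv_inv]; exact h3
      have h4 := congrArg (fun z => ev z (-(t * u))) h5
      rw [← ev_conj, ev_mul hbp, ev_mul hap, inv_inv] at h4
      rw [show -t⁻¹ * -(t * u) = u by field_simp] at h4
      rw [h4]; congr 1; ring
  obtain ⟨e, hex, hey⟩ := Cfsg.Agent.S2426.result (K := ZMod p)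
  let f : Bool × ZMod p → X := fun q => if q.1 then ev a q.2 else ev b q.2
  have hfun : ∀ r ∈ ({g : FreeGroup (Bool × ZMod p) | ∃ (b : Bool) (t u : ZMod p), g = FreeGroup.of (b, t) * FreeGroup.of (b, u) * (FreeGroup.of (b, t + u))⁻¹} ∪
          {g | ∃ (b : Bool) (t u : ZMod p), t ≠ 0 ∧
            g = (FreeGroup.of (b, t) * FreeGroup.of (!b, -t⁻¹) * FreeGroup.of (b, t)) * FreeGroup.of (b, u) *
                  (FreeGroup.of (b, t) * FreeGroup.of (!b, -t⁻¹) * FreeGroup.of (b, t))⁻¹ * (FreeGroup.of (!b, -(t⁻¹ ^ 2 * u)))⁻¹}),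
      FreeGroup.lift f r = 1 := by
    rintro r (⟨i, t, u, rfl⟩ | ⟨i, t, u, ht, rfl⟩)
    · simp only [map_mul, map_inv, FreeGroup.lift_apply_of]
      rw [mul_inv_eq_one]
      cases i
      · simpa [f] using ev_add hbp t u
      · simpa [f] using ev_add hap t u
    · simp only [map_mul, map_inv, FreeGroup.lift_apply_of]
      rw [mul_inv_eq_one]
      cases i
      · simp only [f, Bool.not_false, if_true, Bool.false_eq_true, if_false]
        obtain ⟨k2, hu⟩ := pair t⁻¹ (inv_ne_zero ht)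
        rw [inv_inv] at k2 hu
        have h1 := (hu u).2
        rw [k2] at h1
        rw [ev_neg hbp t] at h1
        rw [ev_neg hap t⁻¹]
        rw [← h1]
        group
      · simp only [f, Bool.not_true, if_true, Bool.false_eq_true, if_false]
        exact ((pair t ht).2 u).1
  let φ : Matrix.SpecialLinearGroup (Fin 2) (ZMod p) →* X :=
    (PresentedGroup.toGroup hfun).comp e.symm.toMonoidHom
  have hφx : φ (ux (1 : ZMod p)) = a := by
    have : e (PresentedGroup.of (true, 1)) = ux 1 := Subtype.ext (hex 1)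
    show PresentedGroup.toGroup hfun (e.symm (ux 1)) = a
    rw [← this, e.symm_apply_apply, PresentedGroup.toGroup.of]
    exact ev_one a
  have hφy : ∀ t, φ (uy t) = ev b t := fun t => by
    have : e (PresentedGroup.of (false, t)) = uy t := Subtype.ext (hey t)
    show PresentedGroup.toGroup hfun (e.symm (uy t)) = _
    rw [← this, e.symm_apply_apply, PresentedGroup.toGroup.of]
    rfl
  have hrange : φ.range = Subgroup.closure ({a, b} : Set X) := by
    apply le_antisymm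
    · rintro _ ⟨g, rfl⟩
      show PresentedGroup.toGroup hfun (e.symm g) ∈ _
      refine PresentedGroup.generated_by _ ((Subgroup.closure ({a, b} : Set X)).comap (PresentedGroup.toGroup hfun)) ?_ _
      rintro ⟨i, t⟩
      rw [Subgroup.mem_comap, PresentedGroup.toGroup.of]
      cases i
      · exact pow_mem (Subgroup.subset_closure (by simp)) _
      · exact pow_mem (Subgroup.subset_closure (by simp)) _
    · rw [Subgroup.closure_le]
      rintro _ (rfl | rfl)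
      · exact ⟨_, hφx⟩
      · exact ⟨_, (hφy 1).trans (ev_one _)⟩
  have hcen : φ.ker ≤ Subgroup.center (Matrix.SpecialLinearGroup (Fin 2) (ZMod p)) := by
    by_contra hk
    obtain ⟨t, ht⟩ := normal_collapse φ.ker hk
    rw [MonoidHom.mem_ker, map_mul, map_inv, hφx, hφy, mul_inv_eq_one] at ht
    exact hR.ne (unipotent_inter hR hA' (right_mem_unipotent hR) ha
      (ht.symm ▸ B.pow_mem hb t.val) ha1).symm
  let E := (QuotientGroup.quotientKerEquivRange φ).trans (MulEquiv.subgroupCongr hrange)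
  by_cases hbot : φ.ker = ⊥
  · exact Or.inl ⟨E.symm.trans ((QuotientGroup.quotientMulEquivOfEq hbot).trans QuotientGroup.quotientBot)⟩
  · refine Or.inr ⟨E.symm.trans (QuotientGroup.quotientMulEquivOfEq (le_antisymm hcen fun c hc => ?_))⟩
    obtain ⟨z, hz, hz1⟩ := (Subgroup.bot_or_exists_ne_one φ.ker).resolve_left hbot
    rcases center_eq (hcen hz) hz1 hc with rfl | rfl
    · exact one_mem _
    · exact hz

end Cfsg.Agent.S5022
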