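import Cfsg.Statements.S5024
import Cfsg.Agent.Lib.Root.Sets
-- import your own Cfsg.Agent.* helpers here

set_option autoImplicit false
open Cfsg

namespace Cfsg.Agent.S5024

open Cfsg.Agent.Lib.Root

variable {G : Type*} [Group G] {S : Set (Subgroup G)} {A B C D : Subgroup G}

theorem commuting_case (hS : IsRootSubgroupSet S) (hA : A ∈ S) (hC : C ∈ S) (hD : D ∈ S) (h : IsRankOnePair C D)
    (hle : A ≤ C ⊔ D) (hc : ⁅A, C⁆ = ⊥) : A = C ∨ ∀ a ∈ A, ∀ x ∈ C ⊔ D, a * x = x * a := by
  refine or_iff_not_imp_left.mpr fun hne a ha => ?_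
  have hfixC : conjBy C a = C := conjBy_eq_self_of_comm' hc ha
  have hDm : conjBy D a ∈ unipotentSubgroups C D := conjBy_mem_unipotent (right_mem_unipotent h) (hle ha)
  rcases unipotent_cases h hDm with e | ⟨c, hcC, e⟩
  · rw [← hfixC] at e
    exact absurd (conjBy_injective a e) h.ne.symm
  have hz : ∀ x ∈ C ⊔ D, (c⁻¹ * a) * x = x * (c⁻¹ * a) := by
    refine commute_of_fixes h fun E hE => ?_
    rcases unipotent_cases h hE with rfl | ⟨c', hc', rfl⟩
    · rw [← conjBy_mul, hfixC, conjBy_eq_self_of_mem (inv_mem hcC)]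
    · have hcc : c⁻¹ * a * c' = c' * (c⁻¹ * a) := by
        have h1 : a * c' = c' * a := comm_iff.mp hc a ha c' hc'
        have h2 : c⁻¹ * c' = c' * c⁻¹ :=
          congrArg Subtype.val ((hS.commutative C hC).is_comm.comm ⟨c⁻¹, inv_mem hcC⟩ ⟨c', hc'⟩)
        rw [mul_assoc, h1, ← mul_assoc, h2, mul_assoc]
      rw [conjBy_mul, hcc, ← conjBy_mul]
      congr 1
      rw [← conjBy_mul, e, conjBy_mul, inv_mul_cancel, conjBy_one]
  rcases eq_or_ne c 1 with rfl | hc1
  · simpa using hz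
  · refine absurd (eq_of_mul_mem hS hC hD h (z := c⁻¹ * a) hz hcC hc1 hA ?_) hne
    have h1 : c⁻¹ * a * c = c * (c⁻¹ * a) := hz c (Subgroup.mem_sup_left hcC)
    rw [h1, mul_inv_cancel_left]; exact ha

theorem member_mem (hS : IsRootSubgroupSet S) (hA : A ∈ S) (hB : B ∈ S) (hAB : IsRankOnePair A B) (hC : C ∈ S) (hD : D ∈ S)
    (h : IsRankOnePair C D) (hA' : A ≤ C ⊔ D) (hB' : B ≤ C ⊔ D) : A ∈ unipotentSubgroups C D := by
  have hcent : (∀ a ∈ A, ∀ x ∈ C ⊔ D, a * x = x * a) → False := fun hc =>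
    not_commute hAB (comm_iff.mpr fun a ha b hb => hc a ha b (hB' hb))
  rcases hS.pair A hA C hC with h' | h' | h'
  · rcases commuting_case hS hA hC hD h hA' h' with rfl | h''
    · exact left_mem_unipotent
    · exact absurd h'' hcent
  · obtain ⟨x, hx, e⟩ := right_mem_unipotent (RankOnePair_symm h')
    exact ⟨x, sup_le le_sup_left hA' hx, e⟩
  · exfalso
    have hFle : ⁅A, C⁆ ≤ C ⊔ D := (Subgroup.commutator_le).mpr fun a ha c hc =>
      mul_mem (mul_mem (mul_mem (hA' ha) (Subgroup.mem_sup_left hc)) (inv_mem (hA' ha)))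
        (inv_mem (Subgroup.mem_sup_left hc))
    rcases commuting_case hS h'.1 hC hD h hFle (comm_symm (rc_comm_right h')) with e | hcF
    · have := comm_symm (rc_comm_left h')
      rw [e] at this
      exact hS.ne_bot _ h'.1 (comm_symm this)
    · have hfix : ∀ a ∈ A, conjBy C a = C := by
        intro a ha
        by_contra hne
        exact not_commute (unipotent_pair h (conjBy_mem_unipotent left_mem_unipotent (hA' ha)) left_mem_unipotent hne).1
          (rc_conj_comm h' (hS.commutative C hC) ha)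
      refine hS.ne_bot _ h'.1 (eq_bot_iff.mpr fun f hf => Subgroup.mem_bot.mpr ?_)
      have hfC : ⁅A, C⁆ ≤ C := Subgroup.commutator_le.mpr fun a ha c hc =>
        mul_mem (by rw [← hfix a ha]; exact conj_mem_conjBy a hc) (inv_mem hc)
      exact eq_one_of_centralizes h (hfC hf) fun x hx => hcF f hf x hx

theorem main (hS : IsRootSubgroupSet S) (hA : A ∈ S) (hC : C ∈ S) (hB : B ∈ rankOnePartners S A) (hD : D ∈ rankOnePartners S C)
    (hle : A ⊔ B ≤ C ⊔ D) : A ⊔ B = C ⊔ D ∧ C ∈ unipotentSubgroups A B ∧ D ∈ unipotentSubgroups A B := by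
  obtain ⟨hBS, hAB⟩ := hB
  obtain ⟨hDS, hCD⟩ := hD
  have hA' := le_sup_left.trans hle
  have hB' := le_sup_right.trans hle
  have hAm := member_mem hS hA hBS hAB hC hDS hCD hA' hB'
  have hBm := member_mem hS hBS hA (RankOnePair_symm hAB) hC hDS hCD hB' hA'
  refine ⟨(unipotent_pair hCD hAm hBm hAB.ne).2, ?_, ?_⟩ <;> rw [unipotent_congr hCD hAm hBm hAB.ne]
  · exact left_mem_unipotent
  · exact right_mem_unipotent hCD

/-- Let S be a set of abstract root subgroups of G, A and C members of S, B a rank one partner of A in S and D a rank one partner of C in S. If the rank one group ⟨A, B⟩ is contained in ⟨C, D⟩ then the two coincide, and C and D are conjugates of A inside ⟨A, B⟩. -/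
theorem result {G : Type*} [Group G] {S : Set (Subgroup G)} (hS : Cfsg.IsRootSubgroupSet S)
    {A B C D : Subgroup G} (hA : A ∈ S) (hC : C ∈ S) (hB : B ∈ Cfsg.rankOnePartners S A) (hD : D ∈ Cfsg.rankOnePartners S C)
    (hle : A ⊔ B ≤ C ⊔ D) : A ⊔ B = C ⊔ D ∧ C ∈ Cfsg.unipotentSubgroups A B ∧ D ∈ Cfsg.unipotentSubgroups A B := by
  open Lib.Root in
  exact main hS hA hC hB hD hle

end Cfsg.Agent.S5024
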