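import Cfsg.Statements.S5026
import Cfsg.Agent.Lib.Root.Sets
-- import your own Cfsg.Agent.* helpers here

set_option autoImplicit false
open Cfsg

namespace Cfsg.Agent.S5026

/-- Let S be a degenerate set of abstract root subgroups of G (a set of abstract transvection groups) and let a, b be commuting non-identity elements of members of S with a b ≠ 1. Then the members of S centralizing a b are exactly those centralizing both a and b. -/
theorem result {G : Type*} [Group G] {S : Set (Subgroup G)} (hS : Cfsg.IsRootSubgroupSet S) (hdeg : Cfsg.IsDegenerateRootSet S)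
    {a b : G} (ha : a ∈ Cfsg.rootElements S) (hb : b ∈ Cfsg.rootElements S) (hab : a * b = b * a) (hab1 : a * b ≠ 1) :
    Cfsg.centralizingMembers S (Subgroup.zpowers (a * b)) =
      Cfsg.centralizingMembers S (Subgroup.zpowers a) ∩ Cfsg.centralizingMembers S (Subgroup.zpowers b) := by
  open Lib.Root in
  obtain ⟨ha1, A, hA, haA⟩ := ha
  obtain ⟨hb1, B, hB, hbB⟩ := hb
  ext C
  have hz : ∀ x : G, C ≤ Subgroup.centralizer (Subgroup.zpowers x : Set G) ↔ ∀ c ∈ C, x * c = c * x := by
    intro x
    constructor
    · exact fun h c hc => h hc x (Subgroup.mem_zpowers x)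
    · intro h c hc y hy
      obtain ⟨n, rfl⟩ := Subgroup.mem_zpowers_iff.mp hy
      exact (Commute.zpow_left (h c hc) n).eq
  simp only [Cfsg.centralizingMembers, Set.mem_setOf_eq, Set.mem_inter_iff, hz]
  constructor
  · rintro ⟨hC, h⟩
    suffices ⁅A, C⁆ = ⊥ ∨ ⁅B, C⁆ = ⊥ by
      rcases this with e | e
      · have h1 : ∀ c ∈ C, a * c = c * a := fun c hc => comm_iff.mp e a haA c hc
        refine ⟨⟨hC, h1⟩, hC, fun c hc => ?_⟩
        have := h c hc
        rw [mul_assoc, ← mul_assoc c, ← h1 c hc, mul_assoc] at this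
        exact mul_left_cancel this
      · have h1 : ∀ c ∈ C, b * c = c * b := fun c hc => comm_iff.mp e b hbB c hc
        refine ⟨⟨hC, fun c hc => ?_⟩, hC, h1⟩
        have := h c hc
        rw [mul_assoc, h1 c hc, ← mul_assoc, ← mul_assoc] at this
        exact mul_right_cancel this
    by_contra hcon
    rw [not_or] at hcon
    have hAC : Cfsg.IsRankOnePair A C := ((hS.pair A hA C hC).resolve_left hcon.1).resolve_right (hdeg A hA C hC)
    have hBC : Cfsg.IsRankOnePair B C := ((hS.pair B hB C hC).resolve_left hcon.2).resolve_right (hdeg B hB C hC)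
    obtain ⟨c, hc, -, e⟩ := hAC.cond_left a⁻¹ (inv_mem haA) (inv_ne_one.mpr ha1)
    obtain ⟨c', hc', -, e'⟩ := hBC.cond_left b hbB hb1
    rw [inv_inv] at e
    have hfix : conjBy C (a * b) = C := conjBy_eq_self_of_commute h
    have hCb : conjBy C b⁻¹ = conjBy C a := by
      conv_lhs => rw [← hfix, conjBy_mul, hab, inv_mul_cancel_left]
    rw [hCb, ← e, conjBy_eq_iff, inv_inv, conjBy_mul] at e'
    have hBm : B ∈ unipotentSubgroups A C := ⟨_, Subgroup.mem_sup_right (mul_mem hc' (inv_mem hc)), e'⟩
    have hABc : ⁅A, B⁆ = ⊥ := by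
      rcases hS.pair A hA B hB with h' | h' | h'
      · exact h'
      · exact absurd (eq_one_of_normalizes' h' hbB (by
          by_contra hne
          have hp := (unipotent_pair h' (conjBy_mem_unipotent left_mem_unipotent (Subgroup.mem_sup_right hbB)) left_mem_unipotent hne).1
          refine ha1 (eq_one_of_normalizes hp (mem_conjBy.mpr ?_) (conjBy_eq_self_of_mem haA))
          rw [mul_assoc, hab, inv_mul_cancel_left]; exact haA)) hb1
      · exact absurd h' (hdeg A hA B hB)
    have hAB : A = B := by
      by_contra hne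
      exact not_commute (unipotent_pair hAC left_mem_unipotent hBm hne).1 hABc
    exact hab1 (eq_one_of_normalizes hAC (mul_mem haA (hAB ▸ hbB)) hfix)
  · rintro ⟨⟨hC, h1⟩, -, h2⟩
    exact ⟨hC, fun c hc => by rw [mul_assoc, h2 c hc, ← mul_assoc, h1 c hc, mul_assoc]⟩

end Cfsg.Agent.S5026
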