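import Cfsg.Statements.S5027
import Cfsg.Agent.Lib.Root.Sets
-- import your own Cfsg.Agent.* helpers here

set_option autoImplicit false
open Cfsg

namespace Cfsg.Agent.S5027

/-- Let S be a set of abstract root subgroups of G such that every member of S has a rank one partner in S (the graph of rank one pairs on S has no isolated vertex). Then the second centre of G equals its centre. -/
theorem result {G : Type*} [Group G] {S : Set (Subgroup G)} (hS : Cfsg.IsRootSubgroupSet S)
    (hF : ∀ A ∈ S, ¬ Cfsg.IsIsolatedIn (Cfsg.FAdj S) S A) : Subgroup.upperCentralSeries G 2 = Subgroup.center G := by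
  open Lib.Root in
  refine le_antisymm ?_ (Subgroup.upperCentralSeries_one G ▸ Subgroup.upperCentralSeries_mono G (by norm_num))
  intro z hz
  have hc : ∀ g : G, z * g * z⁻¹ * g⁻¹ ∈ Subgroup.center G := fun g => by
    rw [← Subgroup.upperCentralSeries_one G]
    exact (Subgroup.mem_upperCentralSeries_succ_iff.mp hz) g
  rw [Subgroup.mem_center_iff]
  intro g
  have hle : (⨆ A ∈ S, A) ≤ Subgroup.centralizer ({z} : Set G) := by
    refine iSup₂_le fun A hA a ha => ?_
    rw [Subgroup.mem_centralizer_singleton_iff]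
    rcases eq_or_ne a 1 with rfl | ha1
    · simp
    obtain ⟨P, hP, hAP⟩ := exists_partner (hF A hA) hA
    have hzc : ∀ x ∈ A ⊔ P, (z * a * z⁻¹ * a⁻¹) * x = x * (z * a * z⁻¹ * a⁻¹) :=
      fun x _ => (Subgroup.mem_center_iff.mp (hc a) x).symm
    have hmem : z * a * z⁻¹ * a⁻¹ * a ∈ conjBy A z := by
      rw [inv_mul_cancel_right]; exact conj_mem_conjBy z ha
    have hCA := eq_of_mul_mem hS hA hP hAP hzc ha ha1 (hS.conj_mem A hA z) hmem
    have := eq_one_of_centralizes hAP ((mul_mem_cancel_right ha).mp (hCA ▸ hmem)) hzc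
    exact (mul_inv_eq_iff_eq_mul.mp (mul_inv_eq_one.mp this)).symm
  rw [hS.generates] at hle
  exact Subgroup.mem_centralizer_singleton_iff.mp (hle (Subgroup.mem_top g))

end Cfsg.Agent.S5027
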