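import Cfsg.Statements.S5029
import Cfsg.Agent.Lib.Root.Sets
-- import your own Cfsg.Agent.* helpers here

set_option autoImplicit false
open Cfsg

namespace Cfsg.Agent.S5029

/-- Let S be a set of abstract root subgroups of G, A ∈ S having a rank one partner in S, and B ∈ S with C = ⁅A, B⁆ ∈ S. Then the members of S contained in AC are the conjugates of A by elements of B together with C, they partition AC, the members of S inside AC partition AC so that A is a line partner of C, and for every non-identity a ∈ A the map b ↦ a⁻¹ b⁻¹ a b is an isomorphism from B onto C. -/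
theorem result {G : Type*} [Group G] {S : Set (Subgroup G)} (hS : Cfsg.IsRootSubgroupSet S)
    {A B : Subgroup G} (hA : ¬ Cfsg.IsIsolatedIn (Cfsg.FAdj S) S A) (hAS : A ∈ S) (hB : B ∈ S) (hC : ⁅A, B⁆ ∈ S) :
    Cfsg.membersIn S (A ⊔ ⁅A, B⁆) = (fun b : G => Cfsg.conjBy A b) '' (B : Set G) ∪ {⁅A, B⁆} ∧
    Cfsg.IsSubgroupPartition (A ⊔ ⁅A, B⁆) (Cfsg.membersIn S (A ⊔ ⁅A, B⁆)) ∧
    A ∈ Cfsg.linePartners S ⁅A, B⁆ ∧
    ∀ a ∈ A, a ≠ 1 → ∃ φ : ↥B ≃* ↥⁅A, B⁆, ∀ b : ↥B, (φ b : G) = a⁻¹ * (b : G)⁻¹ * a * b := by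
  open Lib.Root in
  obtain ⟨P, hP, hAP⟩ := exists_partner hA hAS
  have h := rc_of_mem hS hAS hB hC
  obtain ⟨h1, h2, h3⟩ := rc_members hS hAS hP hAP hB h
  refine ⟨h1, h2, h3, fun a ha ha1 => ?_⟩
  let f : ↥B →* ↥⁅A, B⁆ := MonoidHom.mk'
    (fun b => ⟨a⁻¹ * (b : G)⁻¹ * a * b, by simpa using comm_elem_mem (inv_mem ha) (inv_mem b.2)⟩)
    (by
      rintro ⟨b₁, h₁⟩ ⟨b₂, h₂⟩
      apply Subtype.ext
      have h := rc_mul h (inv_mem ha) (inv_mem h₁) (inv_mem h₂)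
      have hcomm : b₁⁻¹ * b₂⁻¹ = b₂⁻¹ * b₁⁻¹ :=
        congrArg Subtype.val ((hS.commutative B hB).is_comm.comm ⟨b₁⁻¹, inv_mem h₁⟩ ⟨b₂⁻¹, inv_mem h₂⟩)
      simp only [inv_inv, mul_inv_rev] at h
      show a⁻¹ * (b₁ * b₂)⁻¹ * a * (b₁ * b₂) = _
      have hcomm2 : b₁ * b₂ = b₂ * b₁ :=
        congrArg Subtype.val ((hS.commutative B hB).is_comm.comm ⟨b₁, h₁⟩ ⟨b₂, h₂⟩)
      calc a⁻¹ * (b₁ * b₂)⁻¹ * a * (b₁ * b₂) = a⁻¹ * (b₁⁻¹ * b₂⁻¹) * a * (b₂ * b₁) := by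
            rw [mul_inv_rev, hcomm, hcomm2]
        _ = _ := h)
  refine ⟨MulEquiv.ofBijective f ⟨?_, ?_⟩, fun b => rfl⟩
  · rw [injective_iff_map_eq_one]
    intro b hb
    have hb' : a⁻¹ * (b : G)⁻¹ * a⁻¹⁻¹ * (b : G)⁻¹⁻¹ = 1 := by simpa [f] using congrArg Subtype.val hb
    rcases rc_inj hS hAS hP hAP h (inv_mem ha) (inv_mem b.2) hb' with h' | h'
    · exact absurd (inv_eq_one.mp h') ha1
    · exact Subtype.ext (inv_eq_one.mp h')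
  · rintro ⟨c, hc⟩
    obtain ⟨b, hb, e⟩ := rc_surj h (inv_mem ha) (inv_ne_one.mpr ha1) hc
    exact ⟨⟨b⁻¹, inv_mem hb⟩, Subtype.ext (by simpa [f] using e)⟩

end Cfsg.Agent.S5029
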