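import Cfsg.Statements.S5030
import Cfsg.Agent.Lib.Root.Sets

set_option autoImplicit false
open Cfsg

namespace Cfsg.Agent.S5030

open Cfsg.Agent.Lib.Root
open scoped commutatorElement

section
variable {G : Type*} [Group G] {S : Set (Subgroup G)} {A B C : Subgroup G} (hS : IsRootSubgroupSet S)
  (hA : A ∈ S) (hC : C ∈ S) (h : RootCommutatorCase S A B)
  (hAC : ⁅A, C⁆ = ⊥)

include h in
theorem quot_mem {y a : G} (hy : y ∈ B) (ha : a ∈ A) : a⁻¹ * (y * a * y⁻¹) ∈ ⁅A, B⁆ := by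
  rw [show a⁻¹ * (y * a * y⁻¹) = a⁻¹ * y * a⁻¹⁻¹ * y⁻¹ by group]
  exact comm_elem_mem (inv_mem ha) hy

include h in
theorem quot_surj {b f : G} (hb : b ∈ B) (hb1 : b ≠ 1) (hf : f ∈ ⁅A, B⁆) :
    ∃ a ∈ A, f = a⁻¹ * (b⁻¹ * a * b) := by
  obtain ⟨a, ha, e⟩ := rc_surj' h (inv_mem hb) (inv_ne_one.2 hb1) hf
  exact ⟨a⁻¹, inv_mem ha, by rw [← e]; group⟩

include hS hA hC h hAC in
theorem no_rankOne {b : G} (hb : b ∈ B) : ¬ IsRankOnePair (conjBy A b⁻¹) C := by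
  intro hp
  obtain ⟨a', ha', ha'1⟩ := exists_left hp
  have haA : b * a' * b⁻¹ ∈ A := by simpa [mul_assoc] using mem_conjBy.1 ha'
  set a := b * a' * b⁻¹ with haeq
  have hae : a' = b⁻¹ * a * b := by rw [haeq]; group
  have hf : a⁻¹ * a' ∈ ⁅A, B⁆ := by
    rw [hae]; simpa using quot_mem h (inv_mem hb) haA
  have haf : a * (a⁻¹ * a') = (a⁻¹ * a') * a := comm_iff.1 (rc_comm_left h) a haA _ hf
  have hCa : ∀ x : G, conjBy C (a * x) = conjBy (conjBy C x) a := fun x => (conjBy_mul C x a).symm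
  have hCA : conjBy C a = C := conjBy_eq_self_of_comm' hAC haA
  have hconj : conjBy C a' = conjBy C (a⁻¹ * a') := by
    conv_lhs => rw [show a' = (a⁻¹ * a') * a by rw [← haf]; group]
    rw [← conjBy_mul, hCA]
  set f := a⁻¹ * a' with hfdef
  have hne : conjBy C a' ≠ C := fun e => ha'1 (eq_one_of_normalizes hp ha' e)
  rcases hS.pair _ h.1 C hC with h' | h' | h'
  · exact hne (hconj.trans (conjBy_eq_self_of_comm' h' hf))
  · have hf1 : f ≠ 1 := fun e => hne (by rw [hconj, e, conjBy_one])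
    have hconj' : conjBy C a'⁻¹ = conjBy C f⁻¹ := by
      rw [show a'⁻¹ = f⁻¹ * a⁻¹ by rw [hfdef]; group, ← conjBy_mul,
        conjBy_eq_self_of_comm' hAC (inv_mem haA)]
    obtain ⟨c, hc, -, e⟩ := hp.cond_left a' ha' ha'1
    obtain ⟨c', hc', -, e'⟩ := h'.cond_left f hf hf1
    rw [hconj', ← e', conjBy_eq_iff, inv_inv, conjBy_mul] at e
    have hmem : conjBy A b⁻¹ ∈ unipotentSubgroups ⁅A, B⁆ C :=
      ⟨_, Subgroup.mem_sup_right (mul_mem hc (inv_mem hc')), e⟩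
    have hFfix : conjBy ⁅A, B⁆ b⁻¹ = ⁅A, B⁆ :=
      conjBy_eq_self_of_comm (comm_symm (rc_comm_right h)) (inv_mem hb)
    by_cases he : conjBy A b⁻¹ = ⁅A, B⁆
    · exact rc_ne hS hA h (conjBy_injective b⁻¹ (hFfix.trans he.symm))
    · refine not_commute (unipotent_pair h' left_mem_unipotent hmem (Ne.symm he)).1 ?_
      have := comm_conj (comm_symm (rc_comm_left h)) b⁻¹
      rwa [hFfix] at this
  · exact rankOne_not_comm_conj hp ha' ha'1 (hconj ▸ rc_conj_comm h' (hS.commutative C hC) hf)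

include h hAC in
theorem comm_iff_F {b : G} (hb : b ∈ B) (hb1 : b ≠ 1) :
    ⁅conjBy A b⁻¹, C⁆ = ⊥ ↔ ⁅⁅A, B⁆, C⁆ = ⊥ := by
  constructor
  · intro h0
    refine comm_iff.2 fun f hf c hc => ?_
    obtain ⟨a, ha, rfl⟩ := quot_surj h hb hb1 hf
    have h1 : Commute (b⁻¹ * a * b) c := comm_iff.1 h0 _ (mem_conjBy.2 (by simpa [mul_assoc] using ha)) c hc
    exact ((show Commute a c from comm_iff.1 hAC a ha c hc).inv_left.mul_left h1).eq
  · intro h0
    refine comm_iff.2 fun a' ha' c hc => ?_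
    have haA : b * a' * b⁻¹ ∈ A := by simpa [mul_assoc] using mem_conjBy.1 ha'
    have hf := quot_mem h (inv_mem hb) haA
    rw [inv_inv, show b⁻¹ * (b * a' * b⁻¹) * b = a' by group] at hf
    have h1 : Commute ((b * a' * b⁻¹)⁻¹ * a') c := comm_iff.1 h0 _ hf c hc
    have e := ((show Commute (b * a' * b⁻¹) c from comm_iff.1 hAC _ haA c hc).mul_left h1).eq
    rwa [mul_inv_cancel_left] at e

theorem comm_conj_iff {P Q : Subgroup G} (g : G) : ⁅conjBy P g, conjBy Q g⁆ = ⊥ ↔ ⁅P, Q⁆ = ⊥ := by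
  refine ⟨fun e => ?_, fun e => comm_conj e g⟩
  simpa [conjBy_inv_conjBy] using comm_conj e g⁻¹

theorem sup_comm_iff {P Q : Subgroup G} (hP : IsMulCommutative P) (hQ : IsMulCommutative Q) :
    IsMulCommutative ↥(P ⊔ Q) ↔ ⁅P, Q⁆ = ⊥ := by
  constructor
  · intro hc
    exact comm_iff.2 fun p hp q hq => congrArg Subtype.val
      (hc.is_comm.comm (⟨p, Subgroup.mem_sup_left hp⟩ : ↥(P ⊔ Q)) ⟨q, Subgroup.mem_sup_right hq⟩)
  · intro h0
    rw [Subgroup.sup_eq_closure]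
    refine Subgroup.isMulCommutative_closure ?_
    rintro x (hx | hx) y (hy | hy)
    · exact congrArg Subtype.val (hP.is_comm.comm ⟨x, hx⟩ ⟨y, hy⟩)
    · exact comm_iff.1 h0 x hx y hy
    · exact (comm_iff.1 h0 y hy x hx).symm
    · exact congrArg Subtype.val (hQ.is_comm.comm ⟨x, hx⟩ ⟨y, hy⟩)

theorem comm_mul_left {u v w : G} (hz : Commute u ⁅v, w⁆) : ⁅u * v, w⁆ = ⁅v, w⁆ * ⁅u, w⁆ := by
  have : u * ⁅v, w⁆ * u⁻¹ = ⁅v, w⁆ := by rw [hz.eq, mul_inv_cancel_right]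
  calc ⁅u * v, w⁆ = (u * ⁅v, w⁆ * u⁻¹) * ⁅u, w⁆ := by simp only [commutatorElement_def]; group
    _ = _ := by rw [this]

theorem comm_mul_right {u v w : G} (hz : Commute v ⁅u, w⁆) : ⁅u, v * w⁆ = ⁅u, v⁆ * ⁅u, w⁆ := by
  have : v * ⁅u, w⁆ * v⁻¹ = ⁅u, w⁆ := by rw [hz.eq, mul_inv_cancel_right]
  calc ⁅u, v * w⁆ = ⁅u, v⁆ * (v * ⁅u, w⁆ * v⁻¹) := by simp only [commutatorElement_def]; group
    _ = _ := by rw [this]

theorem sup_derived {P Q : Subgroup G} (hP : IsMulCommutative P) (hQ : IsMulCommutative Q)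
    (hz : ∀ c ∈ ⁅P, Q⁆, ∀ x ∈ P ⊔ Q, c * x = x * c) : ∀ x ∈ P ⊔ Q, ∀ y ∈ P ⊔ Q, ⁅x, y⁆ ∈ ⁅P, Q⁆ := by
  set U := P ⊔ Q with hU
  have hWU : ⁅P, Q⁆ ≤ U := Subgroup.commutator_le.2 fun p hp q hq =>
    U.mul_mem (U.mul_mem (U.mul_mem (Subgroup.mem_sup_left hp) (Subgroup.mem_sup_right hq))
      (U.inv_mem (Subgroup.mem_sup_left hp))) (U.inv_mem (Subgroup.mem_sup_right hq))
  have hright : ∀ u ∈ U, ∀ v ∈ U, ∀ w ∈ U, ⁅u, v⁆ ∈ ⁅P, Q⁆ → ⁅u, w⁆ ∈ ⁅P, Q⁆ → ⁅u, v * w⁆ ∈ ⁅P, Q⁆ := by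
    intro u _ v hv w _ h1 h2
    rw [comm_mul_right (show Commute v ⁅u, w⁆ from (hz _ h2 v hv).symm)]
    exact mul_mem h1 h2
  have step : ∀ u ∈ U, (∀ p ∈ P, ⁅u, p⁆ ∈ ⁅P, Q⁆) → (∀ q ∈ Q, ⁅u, q⁆ ∈ ⁅P, Q⁆) →
      ∀ y ∈ U, ⁅u, y⁆ ∈ ⁅P, Q⁆ := by
    intro u hu h1 h2 y hy
    let T : Subgroup G :=
      { carrier := {y | y ∈ U ∧ ⁅u, y⁆ ∈ ⁅P, Q⁆}
        one_mem' := ⟨one_mem _, by rw [commutatorElement_one_right]; exact one_mem _⟩
        mul_mem' := fun {v w} hv hw => ⟨mul_mem hv.1 hw.1, hright u hu v hv.1 w hw.1 hv.2 hw.2⟩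
        inv_mem' := fun {v} hv => ⟨inv_mem hv.1, by
          have e : ⁅u, v⁻¹⁆ = v⁻¹ * ⁅u, v⁆⁻¹ * v := by simp only [commutatorElement_def]; group
          rw [e, mul_assoc, hz _ (inv_mem hv.2) v hv.1, ← mul_assoc, inv_mul_cancel, one_mul]
          exact inv_mem hv.2⟩ }
    exact ((sup_le (fun p hp => ⟨Subgroup.mem_sup_left hp, h1 p hp⟩)
      (fun q hq => ⟨Subgroup.mem_sup_right hq, h2 q hq⟩) : U ≤ T) hy).2
  have hswap : ∀ x y : G, ⁅x, y⁆ ∈ ⁅P, Q⁆ → ⁅y, x⁆ ∈ ⁅P, Q⁆ := fun x y h => by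
    rw [← commutatorElement_inv]; exact inv_mem h
  intro x hx y hy
  refine step x hx (fun p hp => hswap _ _ ?_) (fun q hq => hswap _ _ ?_) y hy
  · refine step p (Subgroup.mem_sup_left hp) (fun p' hp' => ?_) (fun q hq => Subgroup.commutator_mem_commutator hp hq) x hx
    rw [commutatorElement_eq_one_iff_mul_comm.2 (congrArg Subtype.val (hP.is_comm.comm ⟨p, hp⟩ ⟨p', hp'⟩))]
    exact one_mem _
  · refine step q (Subgroup.mem_sup_right hq) (fun p hp => hswap _ _ (Subgroup.commutator_mem_commutator hp hq))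
      (fun q' hq' => ?_) x hx
    rw [commutatorElement_eq_one_iff_mul_comm.2 (congrArg Subtype.val (hQ.is_comm.comm ⟨q, hq⟩ ⟨q', hq'⟩))]
    exact one_mem _

/-- `U` read in the upper central series of `R`. -/
def Z (R : Subgroup G) (i : ℕ) : Subgroup G := (Subgroup.upperCentralSeries R i).map R.subtype

theorem mem_Z_succ {A B C : Subgroup G} {i : ℕ} {z : G} (hz : z ∈ A ⊔ B ⊔ C)
    (h1 : ∀ y ∈ A, ⁅z, y⁆ ∈ Z (A ⊔ B ⊔ C) i) (h2 : ∀ y ∈ B, ⁅z, y⁆ ∈ Z (A ⊔ B ⊔ C) i)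
    (h3 : ∀ y ∈ C, ⁅z, y⁆ ∈ Z (A ⊔ B ⊔ C) i) : z ∈ Z (A ⊔ B ⊔ C) (i + 1) := by
  refine ⟨⟨z, hz⟩, ?_, rfl⟩
  rw [SetLike.mem_coe, Subgroup.mem_upperCentralSeries_succ_iff]
  set R := A ⊔ B ⊔ C with hR
  set N := Subgroup.upperCentralSeries R i
  let T : Subgroup R :=
    (Subgroup.centralizer {(QuotientGroup.mk' N) ⟨z, hz⟩}).comap (QuotientGroup.mk' N)
  have hT : ∀ y : R, y ∈ T ↔ ⁅(⟨z, hz⟩ : R), y⁆ ∈ N := by
    intro y
    rw [Subgroup.mem_comap, Subgroup.mem_centralizer_singleton_iff, ← QuotientGroup.eq_one_iff,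
      ← QuotientGroup.mk'_apply, map_commutatorElement, commutatorElement_eq_one_iff_mul_comm]
    exact eq_comm
  have hall : R ≤ T.map R.subtype := by
    have key : ∀ P : Subgroup G, P ≤ R → (∀ y ∈ P, ⁅z, y⁆ ∈ Z R i) → P ≤ T.map R.subtype := by
      intro P hP hy y hyP
      refine ⟨⟨y, hP hyP⟩, (hT _).2 ?_, rfl⟩
      obtain ⟨w, hw, e⟩ := hy y hyP
      rwa [show ⁅(⟨z, hz⟩ : R), (⟨y, hP hyP⟩ : R)⁆ = w from Subtype.ext e.symm]
    exact sup_le (sup_le (key A (le_sup_left.trans le_sup_left) h1) (key B (le_sup_right.trans le_sup_left) h2))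
      (key C le_sup_right h3)
  intro y
  obtain ⟨y', hy', e⟩ := hall y.2
  have := (hT y).1 (R.subtype_injective (show R.subtype y' = R.subtype y from e) ▸ hy')
  rwa [commutatorElement_def] at this

end


/-- Let S be a set of abstract root subgroups of G and A, B, C ∈ S with ⁅A, B⁆ ∈ S and ⁅B, C⁆ ∈ S, where A and C are different and commute. For a non-identity b ∈ B put X = ⟨A, b⁻¹ C b⟩ and Y = ⟨b⁻¹ A b, C⟩ and R = ⟨A, B, C⟩. Then X and Y are either both abelian or both nilpotent of class exactly two; X and Y commute elementwise; XY is normal in R with R = (XY) B; and R is nilpotent. -/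
theorem result {G : Type*} [Group G] {S : Set (Subgroup G)} (hS : Cfsg.IsRootSubgroupSet S)
    {A B C : Subgroup G} (hA : A ∈ S) (hB : B ∈ S) (hC : C ∈ S) (hAB : ⁅A, B⁆ ∈ S) (hBC : ⁅B, C⁆ ∈ S)
    (hAC : C ∈ Cfsg.commutingPartners S A)
    {b : G} (hb : b ∈ B) (hb1 : b ≠ 1) :
    ((IsMulCommutative ↥(A ⊔ Cfsg.conjBy C b⁻¹) ∧ IsMulCommutative ↥(Cfsg.conjBy A b⁻¹ ⊔ C)) ∨
      ((¬ IsMulCommutative ↥(A ⊔ Cfsg.conjBy C b⁻¹) ∧
          ⁅⁅A ⊔ Cfsg.conjBy C b⁻¹, A ⊔ Cfsg.conjBy C b⁻¹⁆, A ⊔ Cfsg.conjBy C b⁻¹⁆ = ⊥) ∧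
        (¬ IsMulCommutative ↥(Cfsg.conjBy A b⁻¹ ⊔ C) ∧
          ⁅⁅Cfsg.conjBy A b⁻¹ ⊔ C, Cfsg.conjBy A b⁻¹ ⊔ C⁆, Cfsg.conjBy A b⁻¹ ⊔ C⁆ = ⊥))) ∧
    ⁅A ⊔ Cfsg.conjBy C b⁻¹, Cfsg.conjBy A b⁻¹ ⊔ C⁆ = ⊥ ∧
    (∀ r ∈ A ⊔ B ⊔ C, Cfsg.conjBy ((A ⊔ Cfsg.conjBy C b⁻¹) ⊔ (Cfsg.conjBy A b⁻¹ ⊔ C)) r =
      (A ⊔ Cfsg.conjBy C b⁻¹) ⊔ (Cfsg.conjBy A b⁻¹ ⊔ C)) ∧
    ((A ⊔ Cfsg.conjBy C b⁻¹) ⊔ (Cfsg.conjBy A b⁻¹ ⊔ C)) ⊔ B = A ⊔ B ⊔ C ∧
    Group.IsNilpotent ↥(A ⊔ B ⊔ C) := by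
  have hAB' := rc_of_mem hS hA hB hAB
  have hCB := rc_of_mem hS hC hB (pair_symm hS hB hC hBC)
  obtain ⟨-, hne, hac⟩ := hAC
  have hca := comm_symm hac
  have hF := hAB'.1
  set F := ⁅A, B⁆ with hFdef
  set K := ⁅C, B⁆ with hKdef
  set A' := conjBy A b⁻¹ with hA'
  set C' := conjBy C b⁻¹ with hC'
  have hb1' : b⁻¹ ≠ 1 := inv_ne_one.2 hb1
  -- elementary commutations
  have hXY : ⁅A ⊔ C', A' ⊔ C⁆ = ⊥ := by
    have hAA' : ⁅A, A'⁆ = ⊥ := comm_symm (rc_conj_comm (rc_symm hAB') (hS.commutative A hA) (inv_mem hb))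
    have hC'C : ⁅C', C⁆ = ⊥ := rc_conj_comm (rc_symm hCB) (hS.commutative C hC) (inv_mem hb)
    have hC'A' : ⁅C', A'⁆ = ⊥ := comm_conj hca b⁻¹
    rw [Subgroup.commutator_eq_bot_iff_le_centralizer]
    refine sup_le ?_ ?_ <;> rw [← Subgroup.le_centralizer_iff] <;> refine sup_le ?_ ?_ <;>
      rw [← Subgroup.commutator_eq_bot_iff_le_centralizer]
    exacts [comm_symm hAA', comm_symm hac, comm_symm hC'A', comm_symm hC'C]
  have hiffY := comm_iff_F hAB' hac hb hb1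
  have hiffX : ⁅A, C'⁆ = ⊥ ↔ ⁅F, C⁆ = ⊥ := by
    rw [← comm_iff_F hAB' hac (inv_mem hb) hb1', inv_inv, ← comm_conj_iff b, hC', conjBy_conjBy_inv]
  have hAcom := hS.commutative A hA
  have hCcom := hS.commutative C hC
  have hA'com := hS.commutative _ (hS.conj_mem A hA b⁻¹)
  have hC'com := hS.commutative _ (hS.conj_mem C hC b⁻¹)
  -- the two sides
  have hY : ⁅A', C⁆ = ⊥ ∨ RootCommutatorCase S A' C :=
    (hS.pair _ (hS.conj_mem A hA b⁻¹) C hC).imp_right fun h =>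
      h.resolve_left (no_rankOne hS hA hC hAB' hac hb)
  have hX : ⁅A, C'⁆ = ⊥ ∨ RootCommutatorCase S A C' :=
    (hS.pair A hA _ (hS.conj_mem C hC b⁻¹)).imp_right fun h => h.resolve_left fun hp => by
      have := rankOne_conj hp b
      simp only [hC', conjBy_conjBy_inv] at this
      exact no_rankOne hS hA hC hAB' hac (inv_mem hb) (by rwa [inv_inv])
  have hWX : ∀ c ∈ ⁅A, C'⁆, ∀ x ∈ A ⊔ C', c * x = x * c := by
    rcases hX with e | e
    · rw [e]; intro c hc x _; rw [Subgroup.mem_bot.1 hc, one_mul, mul_one]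
    · exact e.2.1
  have hWY : ∀ c ∈ ⁅A', C⁆, ∀ x ∈ A' ⊔ C, c * x = x * c := by
    rcases hY with e | e
    · rw [e]; intro c hc x _; rw [Subgroup.mem_bot.1 hc, one_mul, mul_one]
    · exact e.2.1
  have hclass : ∀ {P Q : Subgroup G}, IsMulCommutative P → IsMulCommutative Q →
      (∀ c ∈ ⁅P, Q⁆, ∀ x ∈ P ⊔ Q, c * x = x * c) → ⁅⁅P ⊔ Q, P ⊔ Q⁆, P ⊔ Q⁆ = ⊥ := by
    intro P Q hP hQ hz
    refine comm_iff.2 fun c hc x hx => ?_
    exact hz c ((Subgroup.commutator_le.2 (sup_derived hP hQ hz)) hc) x hx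
  have hFle : F ≤ A ⊔ A' := by
    intro f hf
    obtain ⟨a, ha, rfl⟩ := quot_surj hAB' hb hb1 hf
    exact mul_mem (Subgroup.mem_sup_left (inv_mem ha))
      (Subgroup.mem_sup_right (mem_conjBy.2 (by simpa [mul_assoc] using ha)))
  have hKle : K ≤ C ⊔ C' := by
    intro k hk
    obtain ⟨c, hc, rfl⟩ := quot_surj hCB hb hb1 hk
    exact mul_mem (Subgroup.mem_sup_left (inv_mem hc))
      (Subgroup.mem_sup_right (mem_conjBy.2 (by simpa [mul_assoc] using hc)))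
  set N := (A ⊔ C') ⊔ (A' ⊔ C) with hN
  have hAN : A ≤ N := le_sup_left.trans le_sup_left
  have hC'N : C' ≤ N := le_sup_right.trans le_sup_left
  have hA'N : A' ≤ N := le_sup_left.trans le_sup_right
  have hCN : C ≤ N := le_sup_right.trans le_sup_right
  have hFN : F ≤ N := hFle.trans (sup_le hAN hA'N)
  have hKN : K ≤ N := hKle.trans (sup_le hCN hC'N)
  set R := A ⊔ B ⊔ C with hR
  have hAR : A ≤ R := le_sup_left.trans le_sup_left
  have hBR : B ≤ R := le_sup_right.trans le_sup_left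
  have hCR : C ≤ R := le_sup_right
  have hcj : ∀ {P : Subgroup G}, P ≤ R → ∀ y ∈ R, conjBy P y ≤ R := by
    rintro P hP y hy _ ⟨p, hp, rfl⟩
    exact R.mul_mem (R.mul_mem hy (hP hp)) (R.inv_mem hy)
  have hNR : N ≤ R := sup_le (sup_le hAR (hcj hCR _ (inv_mem (hBR hb)))) (sup_le (hcj hAR _ (inv_mem (hBR hb))) hCR)
  have hFR : F ≤ R := hFN.trans hNR
  have hKR : K ≤ R := hKN.trans hNR
  -- members of B act on the generators
  have hactA : ∀ y ∈ B, ∀ a ∈ A, a⁻¹ * (y * a * y⁻¹) ∈ F := fun y hy a ha => quot_mem hAB' hy ha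
  have hactC : ∀ y ∈ B, ∀ c ∈ C, c⁻¹ * (y * c * y⁻¹) ∈ K := fun y hy c hc => quot_mem hCB hy hc
  have hBF : ∀ y ∈ B, ∀ f ∈ F, Commute y f := fun y hy f hf => comm_iff.1 (rc_comm_right hAB') y hy f hf
  have hBK : ∀ y ∈ B, ∀ k ∈ K, Commute y k := fun y hy k hk => comm_iff.1 (rc_comm_right hCB) y hy k hk
  have hnorm : ∀ y ∈ B, ∀ n ∈ N, y * n * y⁻¹ ∈ N := by
    intro y hy n hn
    let T : Subgroup G := N.comap (MulAut.conj y).toMonoidHom
    have hA1 : A ≤ T := fun a ha => by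
      show y * a * y⁻¹ ∈ N
      simpa using mul_mem (hAN ha) (hFN (hactA y hy a ha))
    have hC1 : C ≤ T := fun c hc => by
      show y * c * y⁻¹ ∈ N
      simpa using mul_mem (hCN hc) (hKN (hactC y hy c hc))
    have hA2 : A' ≤ T := fun x hx => by
      have hxA : b * x * b⁻¹ ∈ A := by simpa [mul_assoc] using mem_conjBy.1 hx
      show y * x * y⁻¹ ∈ N
      have := mul_mem (hAN hxA) (hFN (hactA (y * b⁻¹) (mul_mem hy (inv_mem hb)) _ hxA))
      simpa [mul_assoc] using this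
    have hC2 : C' ≤ T := fun x hx => by
      have hxC : b * x * b⁻¹ ∈ C := by simpa [mul_assoc] using mem_conjBy.1 hx
      show y * x * y⁻¹ ∈ N
      have := mul_mem (hCN hxC) (hKN (hactC (y * b⁻¹) (mul_mem hy (inv_mem hb)) _ hxC))
      simpa [mul_assoc] using this
    exact (sup_le (sup_le hA1 hC2) (sup_le hA2 hC1) : N ≤ T) hn
  refine ⟨?_, hXY, ?_, ?_, ?_⟩
  · rw [sup_comm_iff hAcom hC'com, sup_comm_iff hA'com hCcom, hiffX, hiffY]
    by_cases h0 : ⁅F, C⁆ = ⊥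
    · exact Or.inl ⟨h0, h0⟩
    · exact Or.inr ⟨⟨h0, hclass hAcom hC'com hWX⟩, ⟨h0, hclass hA'com hCcom hWY⟩⟩
  · intro r hr
    have hle : R ≤ Subgroup.normalizer (N : Set G) := by
      refine sup_le (sup_le ?_ ?_) ?_
      · exact hAN.trans Subgroup.le_normalizer
      · intro y hy
        rw [Subgroup.mem_normalizer_iff]
        exact fun n => ⟨hnorm y hy n, fun h => by simpa [mul_assoc] using hnorm y⁻¹ (inv_mem hy) _ h⟩
      · exact hCN.trans Subgroup.le_normalizer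
    exact conjBy_eq_self_iff.2 (hle hr)
  · exact le_antisymm (sup_le hNR hBR) (sup_le (sup_le (hAN.trans le_sup_left) le_sup_right) (hCN.trans le_sup_left))
  -- the upper central series
  have hXYe : ∀ x ∈ A ⊔ C', ∀ y ∈ A' ⊔ C, x * y = y * x := comm_iff.1 hXY
  set W := ⁅A, C'⁆ ⊔ ⁅A', C⁆ with hW
  have hcle : ∀ {P Q U : Subgroup G}, P ≤ U → Q ≤ U → ⁅P, Q⁆ ≤ U := fun {P Q U} hP hQ =>
    Subgroup.commutator_le.2 fun p hp q hq =>
      U.mul_mem (U.mul_mem (U.mul_mem (hP hp) (hQ hq)) (U.inv_mem (hP hp))) (U.inv_mem (hQ hq))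
  have hWN : W ≤ Subgroup.centralizer (N : Set G) := by
    refine sup_le ?_ ?_ <;> intro w hw <;> rw [Subgroup.mem_centralizer_iff] <;>
      suffices N ≤ Subgroup.centralizer {w} from fun x hx => Subgroup.mem_centralizer_singleton_iff.1 (this hx)
    all_goals refine sup_le (fun x hx => ?_) (fun x hx => ?_) <;> rw [Subgroup.mem_centralizer_singleton_iff]
    · exact (hWX w hw x hx).symm
    · exact (hXYe w (hcle le_sup_left le_sup_right hw) x hx).symm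
    · exact hXYe x hx w (hcle le_sup_left le_sup_right hw)
    · exact (hWY w hw x hx).symm
  have hWc : ∀ w ∈ W, ∀ x ∈ N, Commute x w := fun w hw x hx => Subgroup.mem_centralizer_iff.1 (hWN hw) x hx
  have hA'e : ∀ a ∈ A, b⁻¹ * a * b ∈ A' := fun a ha => mem_conjBy.2 (by simpa [mul_assoc] using ha)
  have hC'e : ∀ c ∈ C, b⁻¹ * c * b ∈ C' := fun c hc => mem_conjBy.2 (by simpa [mul_assoc] using hc)
  have hone : ∀ {x y : G}, Commute x y → ⁅x, y⁆ = 1 := fun h => commutatorElement_eq_one_iff_mul_comm.2 h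
  have hFC : ∀ f ∈ F, ∀ c ∈ C, ⁅f, c⁆ ∈ W := by
    intro f hf c hc
    obtain ⟨a, ha, rfl⟩ := quot_surj hAB' hb hb1 hf
    have hm : ⁅b⁻¹ * a * b, c⁆ ∈ W := Subgroup.mem_sup_right (Subgroup.commutator_mem_commutator (hA'e a ha) hc)
    rw [comm_mul_left (hWc _ hm _ (hAN (inv_mem ha))), hone (comm_iff.1 hac _ (inv_mem ha) c hc), mul_one]
    exact hm
  have hAK : ∀ a ∈ A, ∀ k ∈ K, ⁅a, k⁆ ∈ W := by
    intro a ha k hk
    obtain ⟨c, hc, rfl⟩ := quot_surj hCB hb hb1 hk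
    have hm : ⁅a, b⁻¹ * c * b⁆ ∈ W := Subgroup.mem_sup_left (Subgroup.commutator_mem_commutator ha (hC'e c hc))
    rw [comm_mul_right (hWc _ hm _ (hCN (inv_mem hc))), hone (comm_iff.1 hac a ha _ (inv_mem hc)), one_mul]
    exact hm
  have hFK : ∀ f ∈ F, ∀ k ∈ K, ⁅f, k⁆ ∈ W := by
    intro f hf k hk
    obtain ⟨c, hc, rfl⟩ := quot_surj hCB hb hb1 hk
    have h1 : ⁅f, b⁻¹ * c * b⁆ ∈ W := by
      obtain ⟨a, ha, rfl⟩ := quot_surj hAB' hb hb1 hf
      have hz : ⁅b⁻¹ * a * b, b⁻¹ * c * b⁆ = 1 :=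
        hone ((comm_iff.1 (comm_conj hac b⁻¹)) _ (hA'e a ha) _ (hC'e c hc))
      rw [comm_mul_left (hz ▸ Commute.one_right _), hz, one_mul]
      exact Subgroup.mem_sup_left (Subgroup.commutator_mem_commutator (inv_mem ha) (hC'e c hc))
    rw [comm_mul_right (hWc _ h1 _ (hCN (inv_mem hc)))]
    exact mul_mem (hFC f hf _ (inv_mem hc)) h1
  -- level one
  have hP : ∀ f ∈ F, ∀ k ∈ K, ⁅f, k⁆ ∈ Z R 1 := by
    intro f hf k hk
    have hw := hWc _ (hFK f hf k hk)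
    refine mem_Z_succ (hNR ((hcle hFN hKN) (Subgroup.commutator_mem_commutator hf hk))) ?_ ?_ ?_ <;>
      intro y hy
    · rw [hone (hw y (hAN hy)).symm]; exact one_mem _
    · have : Commute y ⁅f, k⁆ := by
        have h1 := hBF y hy f hf
        have h2 := hBK y hy k hk
        exact ((h1.mul_right h2).mul_right h1.inv_right).mul_right h2.inv_right
      rw [hone this.symm]; exact one_mem _
    · rw [hone (hw y (hCN hy)).symm]; exact one_mem _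
  have hconjc : ∀ (y u v : G), y * ⁅u, v⁆ * y⁻¹ = ⁅y * u * y⁻¹, y * v * y⁻¹⁆ := by
    intro y u v; simp only [commutatorElement_def]; group
  have hstep : ∀ w ∈ W, ∀ y ∈ B, ∀ p, p ∈ Z R 1 → y * w * y⁻¹ = w * p → ⁅w, y⁆ ∈ Z R 1 := by
    intro w hw y hy p hp e
    have e' : ⁅w, y⁆ = w * p⁻¹ * w⁻¹ := by
      rw [commutatorElement_def, show w * y * w⁻¹ * y⁻¹ = w * (y * w * y⁻¹)⁻¹ by group, e]; group
    rw [e']
    obtain ⟨p', hp', rfl⟩ := hp
    have hwR : w ∈ R := hNR ((sup_le (hcle hAN hC'N) (hcle hA'N hCN)) hw)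
    exact ⟨_, (inferInstance : (Subgroup.upperCentralSeries R 1).Normal).conj_mem _ (inv_mem hp') ⟨w, hwR⟩, rfl⟩
  have hW2 : W ≤ Z R 2 := by
    refine sup_le ?_ ?_ <;> rw [Subgroup.commutator_le] <;> intro u hu v hv
    · have hwW : ⁅u, v⁆ ∈ W := Subgroup.mem_sup_left (Subgroup.commutator_mem_commutator hu hv)
      refine mem_Z_succ (hNR ((hcle hAN hC'N) (Subgroup.commutator_mem_commutator hu hv))) ?_ ?_ ?_ <;> intro y hy
      · rw [hone (hWc _ hwW y (hAN hy)).symm]; exact one_mem _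
      swap
      · rw [hone (hWc _ hwW y (hCN hy)).symm]; exact one_mem _
      have hvC : b * v * b⁻¹ ∈ C := by simpa [mul_assoc] using mem_conjBy.1 hv
      set c := b * v * b⁻¹ with hc
      have hk : c⁻¹ * v ∈ K := by
        have := hactC b⁻¹ (inv_mem hb) c hvC
        rwa [inv_inv, hc, show b⁻¹ * (b * v * b⁻¹) * b = v by group] at this
      set k := c⁻¹ * v with hkdef
      have hce : ⁅u, v⁆ = ⁅u, k⁆ := by
        rw [show v = c * k by rw [hkdef]; group, comm_mul_right (hWc _ (hAK u hu k hk) _ (hCN hvC)),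
          hone (comm_iff.1 hac u hu c hvC), one_mul]
      rw [hce] at hwW ⊢
      set φ := u⁻¹ * (y * u * y⁻¹) with hφ
      refine hstep _ hwW y hy ⁅φ, k⁆ (hP _ (hactA y hy u hu) k hk) ?_
      have hm := hFK _ (hactA y hy u hu) k hk
      rw [hconjc, show y * u * y⁻¹ = u * φ by rw [hφ]; group, (hBK y hy k hk).eq, mul_inv_cancel_right,
        comm_mul_left (hWc _ hm _ (hAN hu)), (hWc _ hwW _ ((hcle hFN hKN) (Subgroup.commutator_mem_commutator (hactA y hy u hu) hk))).eq]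
    · have hwW : ⁅u, v⁆ ∈ W := Subgroup.mem_sup_right (Subgroup.commutator_mem_commutator hu hv)
      refine mem_Z_succ (hNR ((hcle hA'N hCN) (Subgroup.commutator_mem_commutator hu hv))) ?_ ?_ ?_ <;> intro y hy
      · rw [hone (hWc _ hwW y (hAN hy)).symm]; exact one_mem _
      swap
      · rw [hone (hWc _ hwW y (hCN hy)).symm]; exact one_mem _
      have huA : b * u * b⁻¹ ∈ A := by simpa [mul_assoc] using mem_conjBy.1 hu
      set a := b * u * b⁻¹ with ha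
      have hf : a⁻¹ * u ∈ F := by
        have := hactA b⁻¹ (inv_mem hb) a huA
        rwa [inv_inv, ha, show b⁻¹ * (b * u * b⁻¹) * b = u by group] at this
      set f := a⁻¹ * u with hfdef
      have hce : ⁅u, v⁆ = ⁅f, v⁆ := by
        rw [show u = a * f by rw [hfdef]; group, comm_mul_left (hWc _ (hFC f hf v hv) _ (hAN huA)),
          hone (comm_iff.1 hac a huA v hv), mul_one]
      rw [hce] at hwW ⊢
      set κ := v⁻¹ * (y * v * y⁻¹) with hκ
      refine hstep _ hwW y hy ⁅f, κ⁆ (hP f hf _ (hactC y hy v hv)) ?_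
      have hm := hFK f hf _ (hactC y hy v hv)
      rw [hconjc, (hBF y hy f hf).eq, mul_inv_cancel_right, show y * v * y⁻¹ = v * κ by rw [hκ]; group,
        comm_mul_right (hWc _ hm _ (hCN hv))]
  have hone' : ∀ {i : ℕ} {x y : G}, Commute x y → ⁅x, y⁆ ∈ Z R i := fun h => by rw [hone h]; exact one_mem _
  have hF3 : F ≤ Z R 3 := fun f hf => mem_Z_succ (hFR hf)
    (fun y hy => hone' (Commute.symm (comm_iff.1 (rc_comm_left hAB') y hy f hf)))
    (fun y hy => hone' (hBF y hy f hf).symm) (fun y hy => hW2 (hFC f hf y hy))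
  have hK3 : K ≤ Z R 3 := fun k hk => mem_Z_succ (hKR hk)
    (fun y hy => by rw [← commutatorElement_inv]; exact inv_mem (hW2 (hAK y hy k hk)))
    (fun y hy => hone' (hBK y hy k hk).symm)
    (fun y hy => hone' (Commute.symm (comm_iff.1 (rc_comm_left hCB) y hy k hk)))
  have hA4 : A ≤ Z R 4 := fun a ha => mem_Z_succ (hAR ha)
    (fun y hy => hone' (show Commute a y from congrArg Subtype.val (hAcom.is_comm.comm ⟨a, ha⟩ ⟨y, hy⟩)))
    (fun y hy => hF3 (Subgroup.commutator_mem_commutator ha hy))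
    (fun y hy => hone' (comm_iff.1 hac a ha y hy))
  have hC4 : C ≤ Z R 4 := fun c hc => mem_Z_succ (hCR hc)
    (fun y hy => hone' (comm_iff.1 hca c hc y hy))
    (fun y hy => hK3 (Subgroup.commutator_mem_commutator hc hy))
    (fun y hy => hone' (show Commute c y from congrArg Subtype.val (hCcom.is_comm.comm ⟨c, hc⟩ ⟨y, hy⟩)))
  have hBcom := hS.commutative B hB
  have hmono : ∀ {i : ℕ}, Z R i ≤ Z R (i + 1) := fun {i} =>
    Subgroup.map_mono (Subgroup.upperCentralSeries_mono R (Nat.le_succ i))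
  have hB5 : B ≤ Z R 5 := fun y hy => mem_Z_succ (hBR hy)
    (fun a ha => hmono (hF3 (by rw [← commutatorElement_inv]; exact inv_mem (Subgroup.commutator_mem_commutator ha hy))))
    (fun z hz => hone' (show Commute y z from congrArg Subtype.val (hBcom.is_comm.comm ⟨y, hy⟩ ⟨z, hz⟩)))
    (fun c hc => hmono (hK3 (by rw [← commutatorElement_inv]; exact inv_mem (Subgroup.commutator_mem_commutator hc hy))))
  refine ⟨⟨5, eq_top_iff.2 fun x _ => ?_⟩⟩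
  obtain ⟨x', hx', e⟩ := (sup_le (sup_le (hA4.trans hmono) hB5) (hC4.trans hmono) : R ≤ Z R 5) x.2
  rwa [R.subtype_injective (show R.subtype x' = R.subtype x from e)] at hx'

end Cfsg.Agent.S5030
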