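import Cfsg.Statements.S5031
import Cfsg.Agent.Lib.Root.Sets
-- import your own Cfsg.Agent.* helpers here

set_option autoImplicit false
open Cfsg

namespace Cfsg.Agent.S5031

/-- Let S be a set of abstract root subgroups of G and let A, B ∈ S lie in different connected components of the graph of rank one pairs on S, each component having more than one member. Then B is not a line partner of A. -/
theorem result {G : Type*} [Group G] {S : Set (Subgroup G)} (hS : Cfsg.IsRootSubgroupSet S)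
    {A B : Subgroup G} (hA : A ∈ S) (hB : B ∈ S)
    (hne : Cfsg.componentOf (Cfsg.FAdj S) S A ≠ Cfsg.componentOf (Cfsg.FAdj S) S B)
    (hA2 : ∃ A' ∈ Cfsg.componentOf (Cfsg.FAdj S) S A, A' ≠ A) (hB2 : ∃ B' ∈ Cfsg.componentOf (Cfsg.FAdj S) S B, B' ≠ B) :
    B ∉ Cfsg.linePartners S A := by
  open Lib.Root in
  intro hline
  have hp : ∀ X ∈ S, (∃ X' ∈ Cfsg.componentOf (Cfsg.FAdj S) S X, X' ≠ X) → ∃ P ∈ S, Cfsg.IsRankOnePair X P := by
    rintro X - ⟨X', ⟨-, hr⟩, hne'⟩
    rcases Relation.ReflTransGen.cases_head hr with e | ⟨P, hadj, -⟩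
    · exact absurd e.symm hne'
    · exact ⟨P, hadj.2.1, hadj.2.2⟩
  obtain ⟨P, hP, hAP⟩ := hp A hA hA2
  have hr := linePartner_reach hS hA hP hAP hB (hp B hB hB2) hline
  apply hne
  ext X
  exact ⟨fun h => ⟨h.1, (freach_symm hr).trans h.2⟩, fun h => ⟨h.1, hr.trans h.2⟩⟩

end Cfsg.Agent.S5031
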