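import Cfsg.Statements.S5032
import Cfsg.Agent.Lib.Root.Sets
-- import your own Cfsg.Agent.* helpers here

set_option autoImplicit false
open Cfsg

namespace Cfsg.Agent.S5032

/-- Let S be a set of abstract root subgroups of G with more than one member. Then the graph of rank one pairs on S is connected if and only if S is a single conjugacy class of G and some member of S has a rank one partner in S. -/
theorem result {G : Type*} [Group G] {S : Set (Subgroup G)} (hS : Cfsg.IsRootSubgroupSet S) (h2 : ∃ A ∈ S, ∃ B ∈ S, A ≠ B) :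
    Cfsg.IsConnectedFamily (Cfsg.FAdj S) S ↔
      (Cfsg.IsConjClassOfSubgroups S ∧ ∃ A ∈ S, ¬ Cfsg.IsIsolatedIn (Cfsg.FAdj S) S A) := by
  open Lib.Root in
  constructor
  · intro hc
    obtain ⟨A, hA, B, hB, hne⟩ := h2
    refine ⟨⟨⟨A, hA⟩, fun X hX Y hY => ?_⟩, A, hA, ?_⟩
    · have := hc X hX Y hY
      clear hY
      induction this with
      | refl => exact ⟨1, (conjBy_one X).symm⟩
      | tail _ e ih =>
        obtain ⟨g, rfl⟩ := ih
        obtain ⟨x, -, ex⟩ := right_mem_unipotent e.2.2
        exact ⟨x * g, by rw [ex, conjBy_mul]⟩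
    · intro hiso
      rcases Relation.ReflTransGen.cases_head (hc A hA B hB) with e | ⟨C, hadj, -⟩
      · exact hne e
      · exact (hiso.2 C).1 hadj
  · rintro ⟨⟨-, hclass⟩, A₀, hA₀, hiso⟩
    have hpart : ∀ X ∈ S, ∃ P ∈ S, Cfsg.IsRankOnePair X P := by
      intro X hX
      obtain ⟨P, hP, hAP⟩ := exists_partner hiso hA₀
      obtain ⟨g, rfl⟩ := hclass A₀ hA₀ X hX
      exact ⟨_, hS.conj_mem P hP g, rankOne_conj hAP g⟩
    have hcomm : ∀ X ∈ S, ∀ Y ∈ S, ¬ Relation.ReflTransGen (Cfsg.FAdj S) X Y → ⁅X, Y⁆ = ⊥ := by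
      intro X hX Y hY hn
      rcases hS.pair X hX Y hY with h | h | h
      · exact h
      · exact absurd (.single ⟨hX, hY, h⟩) hn
      · exfalso
        obtain ⟨P, hP, hXP⟩ := hpart X hX
        obtain ⟨Q, hQ, hYQ⟩ := hpart Y hY
        obtain ⟨R, hR, hFR⟩ := hpart _ h.1
        have l1 := (rc_members hS hX hP hXP hY h).2.2
        have l2 := (rc_members hS hY hQ hYQ hX (rc_symm h)).2.2
        rw [Subgroup.commutator_comm Y X] at l2
        exact hn ((freach_symm (linePartner_reach hS h.1 hR hFR hX ⟨P, hP, hXP⟩ l1)).trans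
          (linePartner_reach hS h.1 hR hFR hY ⟨Q, hQ, hYQ⟩ l2))
    have hall : ∀ g : G, Relation.ReflTransGen (Cfsg.FAdj S) A₀ (Cfsg.conjBy A₀ g) := by
      let K : Subgroup G :=
        { carrier := {g | Relation.ReflTransGen (Cfsg.FAdj S) A₀ (Cfsg.conjBy A₀ g)}
          one_mem' := by simp only [Set.mem_setOf_eq, conjBy_one]; exact .refl
          mul_mem' := fun {g h} hg hh => by
            have := freach_conj hS g hh
            rw [conjBy_mul] at this
            exact hg.trans this
          inv_mem' := fun {g} hg => by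
            have := freach_conj hS g⁻¹ hg
            rw [conjBy_inv_conjBy] at this
            exact freach_symm this }
      have hle : (⨆ A ∈ S, A) ≤ K := by
        refine iSup₂_le fun E hE e he => ?_
        show Relation.ReflTransGen (Cfsg.FAdj S) A₀ (Cfsg.conjBy A₀ e)
        by_cases hr : Relation.ReflTransGen (Cfsg.FAdj S) A₀ E
        · have := freach_conj hS e (freach_symm hr)
          rw [conjBy_eq_self_of_mem he] at this
          exact hr.trans this
        · rw [conjBy_eq_self_of_comm (hcomm A₀ hA₀ E hE hr) he]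
      rw [hS.generates] at hle
      exact fun g => hle (Subgroup.mem_top g)
    intro X hX Y hY
    obtain ⟨g, rfl⟩ := hclass A₀ hA₀ X hX
    obtain ⟨g', rfl⟩ := hclass A₀ hA₀ Y hY
    exact (freach_symm (hall g)).trans (hall g')

end Cfsg.Agent.S5032
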