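import Cfsg.Statements.S5033
import Cfsg.Agent.Lib.Root.Perfect
import Cfsg.Agent.Lib.Root.Sets
import Cfsg.Agent.S5032

set_option autoImplicit false
open Cfsg

namespace Cfsg.Agent.S5033

open Cfsg.Agent.Lib.Root

variable {G : Type*} [Group G] {S : Set (Subgroup G)}

theorem comm_mod {N B X Y : Subgroup G} [N.Normal] (h : ⁅B, X⁆ = ⊥) (hY : Y ≤ N ⊔ X) : ⁅B, Y⁆ ≤ N := by
  rw [Subgroup.commutator_le]
  intro b hb y hy
  obtain ⟨m, hm, x, hx, rfl⟩ := Subgroup.mem_sup_of_normal_left.1 (hY hy)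
  have e := comm_iff.1 h b hb x hx
  have : b * (m * x) * b⁻¹ * (m * x)⁻¹ = (b * m * b⁻¹) * m⁻¹ := by
    calc b * (m * x) * b⁻¹ * (m * x)⁻¹ = (b * m * b⁻¹) * (b * x) * b⁻¹ * x⁻¹ * m⁻¹ := by group
      _ = (b * m * b⁻¹) * m⁻¹ := by rw [e]; group
  rw [commutatorElement_def, this]
  exact mul_mem ((inferInstance : N.Normal).conj_mem m hm b) (inv_mem hm)

theorem derived_mod {N B Y : Subgroup G} [N.Normal] (hB : IsMulCommutative B) (hY : IsMulCommutative Y)
    (h : ⁅B, Y⁆ ≤ N) : ⁅B ⊔ Y, B ⊔ Y⁆ ≤ N := by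
  have key : ∀ {H K : Subgroup G}, ⁅H, K⁆ ≤ N ↔ K.map (QuotientGroup.mk' N) ≤ Subgroup.centralizer (H.map (QuotientGroup.mk' N) : Set (G ⧸ N)) := by
    intro H K
    rw [← Subgroup.commutator_eq_bot_iff_le_centralizer, Subgroup.commutator_comm, ← Subgroup.map_commutator, Subgroup.map_eq_bot_iff,
      QuotientGroup.ker_mk']
  have hBB : ⁅B, B⁆ ≤ N := by
    rw [comm_iff.2 fun a ha b hb => congrArg Subtype.val (hB.is_comm.comm ⟨a, ha⟩ ⟨b, hb⟩)]; exact bot_le
  have hYY : ⁅Y, Y⁆ ≤ N := by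
    rw [comm_iff.2 fun a ha b hb => congrArg Subtype.val (hY.is_comm.comm ⟨a, ha⟩ ⟨b, hb⟩)]; exact bot_le
  have h' : ⁅Y, B⁆ ≤ N := by rw [Subgroup.commutator_comm]; exact h
  have h1 : ⁅B, B ⊔ Y⁆ ≤ N := key.2 (by rw [Subgroup.map_sup]; exact sup_le (key.1 hBB) (key.1 h))
  have h2 : ⁅Y, B ⊔ Y⁆ ≤ N := key.2 (by rw [Subgroup.map_sup]; exact sup_le (key.1 h') (key.1 hYY))
  rw [Subgroup.commutator_comm] at h1 h2
  exact key.2 ((Subgroup.map_sup _ _ _).le.trans (sup_le (key.1 h1) (key.1 h2)))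

theorem same_class {N B Y : Subgroup G} [N.Normal] (h : IsRankOnePair B Y) (hN : ⁅B, Y⁆ ≤ N) : Y ≤ N ⊔ B := by
  rcases normal_dichotomy h (N := (B ⊔ Y) ⊓ N) inf_le_left
    (fun x hx n hn => ⟨(B ⊔ Y).mul_mem ((B ⊔ Y).mul_mem hx hn.1) ((B ⊔ Y).inv_mem hx), (inferInstance : N.Normal).conj_mem n hn.2 x⟩) with h1 | h1
  · calc Y ≤ B ⊔ Y := le_sup_right
      _ = _ := h1.symm
      _ ≤ N ⊔ B := sup_le_sup inf_le_right le_rfl
  · refine (not_class_two h fun a ha b hb x hx => h1 _ ⟨?_, ?_⟩ x hx).elim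
    · exact (B ⊔ Y).mul_mem ((B ⊔ Y).mul_mem ((B ⊔ Y).mul_mem (Subgroup.mem_sup_left ha) (Subgroup.mem_sup_right hb))
        ((B ⊔ Y).inv_mem (Subgroup.mem_sup_left ha))) ((B ⊔ Y).inv_mem (Subgroup.mem_sup_right hb))
    · exact hN (comm_elem_mem ha hb)

theorem eq_top_of_member {N : Subgroup G} [N.Normal] (hS : IsRootSubgroupSet S) (hclass : IsConjClassOfSubgroups S)
    {C : Subgroup G} (hC : C ∈ S) (hCN : C ≤ N) : N = ⊤ := by
  rw [← top_le_iff, ← hS.generates]
  refine iSup₂_le fun A hA => ?_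
  obtain ⟨g, rfl⟩ := hclass.2 C hC A hA
  exact (Subgroup.map_mono hCN).trans (le_of_eq (by
    ext z
    rw [mem_conjBy]
    exact ⟨fun h => by simpa [mul_assoc] using (inferInstance : N.Normal).conj_mem _ h g,
      fun h => by simpa [mul_assoc] using (inferInstance : N.Normal).conj_mem _ h g⁻¹⟩))

theorem normal_cases (hS : IsRootSubgroupSet S) (hclass : IsConjClassOfSubgroups S)
    (hpart : ∀ X ∈ S, ∃ P ∈ S, IsRankOnePair X P)
    (h2' : ∀ A ∈ S, ∀ C ∈ S, A ≠ C → centralizingMembers S A ≠ centralizingMembers S C)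
    (h3 : IsDegenerateRootSet S → ∀ A ∈ S, 3 < ENat.card A)
    (h4 : ∀ A ∈ S, ∀ B ∈ rankOnePartners S A, IsSpecialRankOnePair A B)
    (N : Subgroup G) [hN : N.Normal] : N = ⊤ ∨ N ≤ Subgroup.center G := by
  by_cases hfix : ∀ n ∈ N, ∀ C ∈ S, conjBy C n = C
  · refine Or.inr fun n hn => ?_
    have hle : (⨆ A ∈ S, A) ≤ Subgroup.centralizer {n} := by
      refine iSup₂_le fun X hX x hx => ?_
      obtain ⟨P, hP, hXP⟩ := hpart X hX
      have := commute_of_fixes hXP (z := n) (fun C hC => ?_) x (Subgroup.mem_sup_left hx)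
      · rw [Subgroup.mem_centralizer_singleton_iff]; exact this.symm
      · obtain ⟨g, -, rfl⟩ := hC
        exact hfix n hn _ (hS.conj_mem X hX g)
    rw [hS.generates] at hle
    rw [Subgroup.mem_center_iff]
    intro g
    exact Subgroup.mem_centralizer_singleton_iff.1 (hle (Subgroup.mem_top g))
  left
  push Not at hfix
  obtain ⟨n, hn, C₀, hC₀, hne⟩ := hfix
  have hcent : ∀ {B X : Subgroup G}, B ∈ S → (B ∈ centralizingMembers S X ↔ ⁅B, X⁆ = ⊥) := fun {B X} hB => by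
    rw [Subgroup.commutator_eq_bot_iff_le_centralizer]
    exact ⟨fun h => h.2, fun h => ⟨hB, h⟩⟩
  have h01 : conjBy C₀ n ≤ N ⊔ C₀ := by
    rintro _ ⟨x, hx, rfl⟩
    have : (MulAut.conj n).toMonoidHom x = n * (x * n⁻¹ * x⁻¹) * x := by simp [mul_assoc]
    rw [this]
    exact mul_mem (Subgroup.mem_sup_left (mul_mem hn (hN.conj_mem _ (inv_mem hn) x))) (Subgroup.mem_sup_right hx)
  have h10 : C₀ ≤ N ⊔ conjBy C₀ n := by
    intro x hx
    have : x = (x * n * x⁻¹ * n⁻¹) * (n * x * n⁻¹) := by group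
    rw [this]
    exact mul_mem (Subgroup.mem_sup_left (mul_mem (hN.conj_mem n hn x) (inv_mem hn)))
      (Subgroup.mem_sup_right (conj_mem_conjBy n hx))
  obtain ⟨B, hB, X, Y, hY, hBX, hBY, hYX⟩ : ∃ B ∈ S, ∃ X Y : Subgroup G, Y ∈ S ∧ ⁅B, X⁆ = ⊥ ∧ ¬ ⁅B, Y⁆ = ⊥ ∧ Y ≤ N ⊔ X := by
    by_contra hcon
    push Not at hcon
    refine h2' _ (hS.conj_mem C₀ hC₀ n) C₀ hC₀ hne (Set.ext fun B => ⟨fun h => ?_, fun h => ?_⟩)
    · exact (hcent h.1).2 (by_contra fun hx => hcon B h.1 _ C₀ hC₀ ((hcent h.1).1 h) hx h10)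
    · exact (hcent h.1).2 (by_contra fun hx => hcon B h.1 _ _ (hS.conj_mem C₀ hC₀ n) ((hcent h.1).1 h) hx h01)
  have hBYN := comm_mod hBX hYX
  rcases hS.pair B hB Y hY with h | h | h
  · exact absurd h hBY
  swap
  · exact eq_top_of_member hS hclass h.1 hBYN
  by_cases hdeg : IsDegenerateRootSet S
  · refine eq_top_of_member hS hclass hB ?_
    exact (le_derived (h4 B hB Y ⟨hY, h⟩) (hS.commutative B hB) (hS.commutative Y hY) (h3 hdeg B hB)).trans
      (derived_mod (hS.commutative B hB) (hS.commutative Y hY) hBYN)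
  simp only [IsDegenerateRootSet, not_forall, not_not] at hdeg
  obtain ⟨P, hP, Q, hQ, hPQ⟩ := hdeg
  set C := ⁅P, Q⁆ with hC
  obtain ⟨g, hg⟩ := hclass.2 B hB C hPQ.1
  set C' := conjBy Y g with hC'
  have hC'S : C' ∈ S := hS.conj_mem Y hY g
  have hCC' : IsRankOnePair C C' := hg ▸ rankOne_conj h g
  have hmapN : N.map (MulAut.conj g).toMonoidHom = N :=
    Subgroup.mem_normalizer_iff_map_conj_eq.1 (by rw [Subgroup.normalizer_eq_top]; trivial)
  have hup : C' ≤ N ⊔ C := by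
    have := Subgroup.map_mono (f := (MulAut.conj g).toMonoidHom) (same_class h hBYN)
    rw [Subgroup.map_sup, hmapN] at this
    rw [hg]
    exact this
  have claim : ∀ T ∈ S, ⁅T, C⁆ = ⊥ → ⁅T, C'⁆ = ⊥ ∨ T ≤ N ⊔ C ∨ N = ⊤ := by
    intro T hT hTC
    have hm := comm_mod hTC hup
    rcases hS.pair T hT C' hC'S with h' | h' | h'
    · exact Or.inl h'
    · refine Or.inr (Or.inl ?_)
      have h'' : ⁅C', T⁆ ≤ N := by rw [Subgroup.commutator_comm]; exact hm
      exact (same_class (RankOnePair_symm h') h'').trans (sup_le le_sup_left hup)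
    · exact Or.inr (Or.inr (eq_top_of_member hS hclass h'.1 hm))
  rcases claim P hP (rc_comm_left hPQ) with hPC | hPC | hPC
  rotate_left
  · refine eq_top_of_member hS hclass hPQ.1 ?_
    rw [Subgroup.commutator_comm]
    exact comm_mod (rc_comm_right hPQ) hPC
  · exact hPC
  rcases claim Q hQ (rc_comm_right hPQ) with hQC | hQC | hQC
  rotate_left
  · exact eq_top_of_member hS hclass hPQ.1 (comm_mod (rc_comm_left hPQ) hQC)
  · exact hQC
  exfalso
  refine not_commute hCC' ?_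
  rw [Subgroup.commutator_eq_bot_iff_le_centralizer, hC, Subgroup.commutator_le]
  intro p hp q hq
  have h1 := comm_iff.1 hPC p hp
  have h2 := comm_iff.1 hQC q hq
  rw [Subgroup.mem_centralizer_iff]
  intro c hc
  have hp' : Commute c p := (h1 c hc).symm
  have hq' : Commute c q := (h2 c hc).symm
  rw [commutatorElement_def]
  exact (((hp'.mul_right hq').mul_right hp'.inv_right).mul_right hq'.inv_right).eq

theorem perfect (hS : IsRootSubgroupSet S) (hclass : IsConjClassOfSubgroups S)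
    (hpart : ∀ X ∈ S, ∃ P ∈ S, IsRankOnePair X P)
    (h3 : IsDegenerateRootSet S → ∀ A ∈ S, 3 < ENat.card A)
    (h4 : ∀ A ∈ S, ∀ B ∈ rankOnePartners S A, IsSpecialRankOnePair A B) : commutator G = ⊤ := by
  by_cases hdeg : IsDegenerateRootSet S
  · obtain ⟨A, hA⟩ := hclass.1
    obtain ⟨B, hB, h⟩ := hpart A hA
    refine eq_top_of_member hS hclass hA ?_
    refine (le_derived (h4 A hA B ⟨hB, h⟩) (hS.commutative A hA) (hS.commutative B hB) (h3 hdeg A hA)).trans ?_
    rw [commutator_def]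
    exact Subgroup.commutator_mono le_top le_top
  · simp only [IsDegenerateRootSet, not_forall, not_not] at hdeg
    obtain ⟨P, hP, Q, hQ, hPQ⟩ := hdeg
    refine eq_top_of_member hS hclass hPQ.1 ?_
    rw [commutator_def]
    exact Subgroup.commutator_mono le_top le_top


/-- Quasisimplicity criterion for groups generated by abstract root subgroups. Let S be a set of abstract root subgroups of G with more than one member such that: the graph of rank one pairs on S is connected; no two different members of S have the same set of commuting members of S; if S is degenerate then every member of S has more than three elements; and every rank one pair in S is special. Then for every A ∈ S one has G = G' A with A ∩ G' ≠ 1, and the commutator subgroup G' is quasisimple. Moreover G is perfect if S is non-degenerate, or if some rank one pair A, B in S generates a perfect group. -/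
theorem result {G : Type*} [Group G] {S : Set (Subgroup G)} (hS : Cfsg.IsRootSubgroupSet S) (h2 : ∃ A ∈ S, ∃ B ∈ S, A ≠ B)
    (h1 : Cfsg.IsConnectedFamily (Cfsg.FAdj S) S)
    (h2' : ∀ A ∈ S, ∀ C ∈ S, A ≠ C → Cfsg.centralizingMembers S A ≠ Cfsg.centralizingMembers S C)
    (h3 : Cfsg.IsDegenerateRootSet S → ∀ A ∈ S, 3 < ENat.card A)
    (h4 : ∀ A ∈ S, ∀ B ∈ Cfsg.rankOnePartners S A, Cfsg.IsSpecialRankOnePair A B) :
    (∀ A ∈ S, commutator G ⊔ A = ⊤ ∧ A ⊓ commutator G ≠ ⊥) ∧ Cfsg.IsQuasisimple ↥(commutator G) ∧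
    (Cfsg.IsNondegenerateRootSet S → commutator G = ⊤) ∧
    ((∃ A ∈ S, ∃ B ∈ Cfsg.rankOnePartners S A, Group.IsPerfect ↥(A ⊔ B)) → commutator G = ⊤) := by
  have hclass : IsConjClassOfSubgroups S := ((S5032.result hS h2).1 h1).1
  have hpart : ∀ X ∈ S, ∃ P ∈ S, Cfsg.IsRankOnePair X P := by
    intro X hX
    obtain ⟨A, hA, B, hB, hne⟩ := h2
    obtain ⟨Z, hZ, hXZ⟩ : ∃ Z ∈ S, X ≠ Z := by
      by_cases h : X = A
      · exact ⟨B, hB, h ▸ hne⟩
      · exact ⟨A, hA, h⟩
    rcases Relation.ReflTransGen.cases_head (h1 X hX Z hZ) with e | ⟨C, hadj, -⟩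
    · exact absurd e hXZ
    · exact ⟨C, hadj.2.1, hadj.2.2⟩
  have htop := perfect hS hclass hpart h3 h4
  refine ⟨fun A hA => ⟨by rw [htop, top_sup_eq], by rw [htop, inf_top_eq]; exact hS.ne_bot A hA⟩, ?_,
    fun _ => htop, fun _ => htop⟩
  rw [htop]
  refine ⟨Group.IsPerfect.top_iff.2 (Group.isPerfect_def.2 htop), ?_⟩
  have hmem : ∀ z : (⊤ : Subgroup G), z ∈ Subgroup.center (⊤ : Subgroup G) ↔ (z : G) ∈ Subgroup.center G := fun z => by
    simp only [Subgroup.mem_center_iff, Subtype.ext_iff, Subgroup.coe_mul]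
    exact ⟨fun h g => h ⟨g, trivial⟩, fun h g => h _⟩
  have : Nontrivial ((⊤ : Subgroup G) ⧸ Subgroup.center (⊤ : Subgroup G)) := by
    rw [QuotientGroup.nontrivial_iff]
    intro he
    obtain ⟨A, hA⟩ := hclass.1
    obtain ⟨P, hP, hAP⟩ := hpart A hA
    refine not_commute hAP (comm_iff.2 fun a ha b hb => ?_)
    have := (hmem ⟨a, trivial⟩).1 (he ▸ Subgroup.mem_top _)
    exact ((Subgroup.mem_center_iff.1 this) b).symm
  refine IsSimpleGroup.mk fun M hM => ?_
  let N : Subgroup G := (M.comap (QuotientGroup.mk' _)).map (Subgroup.subtype ⊤)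
  have hNn : N.Normal := (hM.comap _).map _ fun g => ⟨⟨g, trivial⟩, rfl⟩
  rcases normal_cases hS hclass hpart h2' h3 h4 N with hN | hN
  · right
    rw [← Subgroup.map_comap_eq_self_of_surjective (QuotientGroup.mk'_surjective _) M,
      show M.comap (QuotientGroup.mk' _) = ⊤ from Subgroup.map_injective (Subgroup.subtype_injective _)
        (show N = _ by rw [hN, ← MonoidHom.range_eq_map, Subgroup.range_subtype])]
    exact Subgroup.map_top_of_surjective _ (QuotientGroup.mk'_surjective _)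
  · left
    rw [eq_bot_iff]
    intro x hx
    obtain ⟨z, rfl⟩ := QuotientGroup.mk'_surjective _ x
    rw [Subgroup.mem_bot, QuotientGroup.mk'_apply, QuotientGroup.eq_one_iff, hmem]
    exact hN ⟨z, hx, rfl⟩

end Cfsg.Agent.S5033
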