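import Cfsg.Statements.S5035
import Cfsg.Agent.Lib.Root.Sets
-- import your own Cfsg.Agent.* helpers here

set_option autoImplicit false
open Cfsg

namespace Cfsg.Agent.S5035

open Cfsg.Agent.Lib.Root

variable {G H : Type*} [Group G] [Group H]

theorem map_conjBy (f : G →* H) (A : Subgroup G) (g : G) : (conjBy A g).map f = conjBy (A.map f) (f g) := by
  show (A.map (MulAut.conj g).toMonoidHom).map f = (A.map f).map (MulAut.conj (f g)).toMonoidHom
  rw [Subgroup.map_map, Subgroup.map_map]
  congr 1
  ext x
  simp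

theorem cond_map (f : G →* H) {A B : Subgroup G} (h : RankOneCondition A B) (hne : A.map f ≠ B.map f) :
    RankOneCondition (A.map f) (B.map f) := by
  rintro _ ⟨a, ha, rfl⟩ hx
  obtain ⟨b, hb, -, e⟩ := h a ha (fun e => hx (by rw [e, map_one]))
  have e' : conjBy (A.map f) (f b)⁻¹ = conjBy (B.map f) (f a)⁻¹ := by
    rw [← map_inv, ← map_inv, ← map_conjBy, ← map_conjBy, e]
  refine ⟨f b, Subgroup.mem_map_of_mem f hb, fun h1 => hne ?_, e'⟩
  rw [h1, inv_one, conjBy_one, eq_comm, conjBy_eq_iff, inv_inv, conjBy_eq_self_of_mem (Subgroup.mem_map_of_mem f ha)] at e'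
  exact e'.symm

theorem pair_map (f : G →* H) {A B : Subgroup G} (h : IsRankOnePair A B) (hne : A.map f ≠ B.map f) :
    IsRankOnePair (A.map f) (B.map f) := by
  haveI := h.nilpotent_left
  haveI := h.nilpotent_right
  exact ⟨hne, Group.nilpotent_of_surjective _ (MonoidHom.subgroupMap_surjective f A),
    Group.nilpotent_of_surjective _ (MonoidHom.subgroupMap_surjective f B),
    cond_map f h.cond_left hne, cond_map f h.cond_right hne.symm⟩

theorem main {S : Set (Subgroup G)} (hS : IsRootSubgroupSet S) (hc : IsConnectedFamily (FAdj S) S) (f : G →* H)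
    (hf : Function.Surjective f) :
    (IsRootSubgroupSet ((fun A : Subgroup G => A.map f) '' S) ∧
      IsConnectedFamily (FAdj ((fun A : Subgroup G => A.map f) '' S)) ((fun A : Subgroup G => A.map f) '' S)) ∨
    ∃ A ∈ S, A.map f = ⊤ := by
  by_cases hbot : ∃ A ∈ S, A.map f = ⊥
  · obtain ⟨A, hA, hAf⟩ := hbot
    refine Or.inr ⟨A, hA, ?_⟩
    have hall : ∀ B ∈ S, B.map f = ⊥ := by
      intro B hB
      have := hc A hA B hB
      clear hB
      induction this with
      | refl => exact hAf
      | @tail X Y _ e ih =>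
        obtain ⟨x, -, ex⟩ := right_mem_unipotent e.2.2
        rw [ex, map_conjBy, ih]; exact Subgroup.map_bot _
    have htop : (⊤ : Subgroup H) = ⊥ := by
      rw [← Subgroup.map_top_of_surjective f hf, ← hS.generates, Subgroup.map_iSup, eq_bot_iff]
      refine iSup_le fun B => ?_
      rw [Subgroup.map_iSup]
      exact iSup_le fun hB => (hall B hB).le
    rw [hAf, htop]
  · push_neg at hbot
    refine Or.inl ⟨⟨?_, ?_, ?_, ?_, ?_⟩, ?_⟩
    · rintro _ ⟨A, hA, rfl⟩
      haveI := hS.commutative A hA
      refine ⟨⟨?_⟩⟩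
      rintro ⟨_, x, hx, rfl⟩ ⟨_, y, hy, rfl⟩
      apply Subtype.ext
      show f x * f y = f y * f x
      rw [← map_mul, ← map_mul]
      exact congrArg f (congrArg Subtype.val ((hS.commutative A hA).is_comm.comm ⟨x, hx⟩ ⟨y, hy⟩))
    · rintro _ ⟨A, hA, rfl⟩; exact hbot A hA
    · rw [← Subgroup.map_top_of_surjective f hf, ← hS.generates, iSup_image, Subgroup.map_iSup]
      simp only [Subgroup.map_iSup]
    · rintro _ ⟨A, hA, rfl⟩ h
      obtain ⟨g, rfl⟩ := hf h
      exact ⟨_, hS.conj_mem A hA g, map_conjBy f A g⟩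
    · rintro _ ⟨A, hA, rfl⟩ _ ⟨B, hB, rfl⟩
      rcases hS.pair A hA B hB with h | h | h
      · left; rw [← Subgroup.map_commutator, h, Subgroup.map_bot]
      · rcases eq_or_ne (A.map f) (B.map f) with e | e
        · left
          show ⁅A.map f, B.map f⁆ = ⊥
          rw [← e, ← Subgroup.map_commutator, comm_iff.mpr (fun u hu v hv =>
            congrArg Subtype.val ((hS.commutative A hA).is_comm.comm ⟨u, hu⟩ ⟨v, hv⟩)), Subgroup.map_bot]
        · exact Or.inr (Or.inl (pair_map f h e))
      · refine Or.inr (Or.inr ⟨?_, ?_, ?_, ?_⟩)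
        · exact ⟨_, h.1, Subgroup.map_commutator A B f⟩
        · rw [← Subgroup.map_commutator, ← Subgroup.map_sup]
          rintro _ ⟨c, hc, rfl⟩ _ ⟨x, hx, rfl⟩
          rw [← map_mul, ← map_mul, h.2.1 c hc x hx]
        · rintro _ ⟨a, ha, rfl⟩ ha1
          rw [← Subgroup.map_commutator, ← h.2.2.1 a ha (fun e => ha1 (by rw [e, map_one])), MonoidHom.map_closure]
          congr 1
          ext z
          simp [Set.mem_image, ← map_mul, ← map_inv]
        · rintro _ ⟨b, hb, rfl⟩ hb1
          rw [← Subgroup.map_commutator, ← h.2.2.2 b hb (fun e => hb1 (by rw [e, map_one])), MonoidHom.map_closure]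
          congr 1
          ext z
          simp [Set.mem_image, ← map_mul, ← map_inv]
    · rintro _ ⟨A, hA, rfl⟩ _ ⟨B, hB, rfl⟩
      have := hc A hA B hB
      clear hB
      induction this with
      | refl => exact .refl
      | @tail X Y _ e ih =>
        rcases eq_or_ne (X.map f) (Y.map f) with h | h
        · show Relation.ReflTransGen _ _ (Y.map f)
          rw [← h]; exact ih
        · exact .tail ih ⟨⟨X, e.1, rfl⟩, ⟨Y, e.2.1, rfl⟩, pair_map f e.2.2 h⟩

/-- Let S be a set of abstract root subgroups of G whose graph of rank one pairs is connected, and f a homomorphism from G onto a group H. Then either the images of the members of S form a set of abstract root subgroups of H whose graph of rank one pairs is again connected, or H equals the image of a member of S. -/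
theorem result {G H : Type*} [Group G] [Group H] {S : Set (Subgroup G)} (hS : Cfsg.IsRootSubgroupSet S)
    (hc : Cfsg.IsConnectedFamily (Cfsg.FAdj S) S) (f : G →* H) (hf : Function.Surjective f) :
    (Cfsg.IsRootSubgroupSet ((fun A : Subgroup G => A.map f) '' S) ∧
      Cfsg.IsConnectedFamily (Cfsg.FAdj ((fun A : Subgroup G => A.map f) '' S)) ((fun A : Subgroup G => A.map f) '' S)) ∨
    ∃ A ∈ S, A.map f = ⊤ := by
  open Lib.Root in
  exact main hS hc f hf

end Cfsg.Agent.S5035
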