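import Cfsg.Statements.S5037
import Cfsg.Agent.Lib.Root.Lines
import Cfsg.Agent.Lib.Root.Special

set_option autoImplicit false
open Cfsg

namespace Cfsg.Agent.S5037

open Cfsg.Agent.Lib.Root

section
variable {G : Type*} [Group G] {S : Set (Subgroup G)} {A B C D : Subgroup G} (hS : IsRootSubgroupSet S)

theorem mem_centralizing {E U : Subgroup G} : E ∈ centralizingMembers S U ↔ E ∈ S ∧ ⁅E, U⁆ = ⊥ := by
  rw [Subgroup.commutator_eq_bot_iff_le_centralizer]; exact Iff.rfl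

include hS in
theorem comm_self (hA : A ∈ S) : ⁅A, A⁆ = ⊥ :=
  comm_iff.2 fun x hx y hy => congrArg Subtype.val ((hS.commutative A hA).is_comm.comm ⟨x, hx⟩ ⟨y, hy⟩)

include hS in
theorem centralizing_conj (g : G) (h : centralizingMembers S A ⊆ centralizingMembers S C) :
    centralizingMembers S (conjBy A g) ⊆ centralizingMembers S (conjBy C g) := by
  intro E hE
  rw [mem_centralizing] at hE ⊢
  refine ⟨hE.1, ?_⟩
  have h1 := comm_conj hE.2 g⁻¹
  rw [conjBy_inv_conjBy] at h1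
  have := comm_conj (mem_centralizing.1 (h (mem_centralizing.2 ⟨hS.conj_mem E hE.1 g⁻¹, h1⟩))).2 g
  rwa [conjBy_conjBy_inv] at this

include hS in
theorem rankOne_partners_conj (g : G) (h : rankOnePartners S A ⊆ rankOnePartners S C) :
    rankOnePartners S (conjBy A g) ⊆ rankOnePartners S (conjBy C g) := by
  rintro E ⟨hE, hp⟩
  have h1 := rankOne_conj hp g⁻¹
  rw [conjBy_inv_conjBy] at h1
  have := rankOne_conj (h ⟨hS.conj_mem E hE g⁻¹, h1⟩).2 g
  rw [conjBy_conjBy_inv] at this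
  exact ⟨hE, this⟩

include hS in
/-- a conjugation invariant relation between commuting members with a common special partner is symmetrical -/
theorem rel_symm (R : Subgroup G → Subgroup G → Prop) (hR : ∀ (g : G) P Q, R P Q → R (conjBy P g) (conjBy Q g))
    (hA : A ∈ S) (hC : C ∈ S) (hac : ⁅A, C⁆ = ⊥) (h₁ : IsSpecialRankOnePair A D) (h₂ : IsSpecialRankOnePair C D)
    (h : R A C) : R C A := by
  obtain ⟨d, hd, hd1⟩ := exists_right h₁.1
  obtain ⟨a, ha, ha1, ea⟩ := h₁.1.cond_right d hd hd1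
  obtain ⟨c, hc, hc1, ec⟩ := h₂.1.cond_right d hd hd1
  have ea' := special_inv h₁ (hS.commutative A hA) ha ha1 hd hd1 ea.symm
  have ec' := special_inv h₂ (hS.commutative C hC) hc hc1 hd hd1 ec.symm
  have hcomm : a * c = c * a := comm_iff.1 hac a ha c hc
  have h1 := hR (c⁻¹ * a⁻¹) _ _ (hR d _ _ h)
  rw [ea', ec', conjBy_mul, conjBy_mul, inv_mul_cancel_right] at h1
  have e : c⁻¹ * a⁻¹ * c = a⁻¹ := by
    rw [← mul_inv_rev, hcomm]; group
  rw [e, ec, ea] at h1
  have h2 := hR d _ _ h1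
  rwa [conjBy_conjBy_inv, conjBy_conjBy_inv] at h2

include hS in
theorem not_comm_of_rel (hA : A ∈ S) (hD : D ∈ S) (hCD : IsRankOnePair C D)
    (h : centralizingMembers S A ⊆ centralizingMembers S C) : ⁅A, D⁆ ≠ ⊥ := fun h0 =>
  not_commute hCD (comm_symm (mem_centralizing.1 (h (mem_centralizing.2 ⟨hD, comm_symm h0⟩))).2)

theorem unipotent_gen (hCD : IsRankOnePair C D) {d : G} (hd : d ∈ D) (hd1 : d ≠ 1) {A : Subgroup G}
    (h1 : ⁅A, C⁆ = ⊥) (h2 : ⁅A, conjBy C d⁆ = ⊥) : ⁅A, D⁆ = ⊥ := by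
  have hne : C ≠ conjBy C d := fun e => hd1 (eq_one_of_normalizes' hCD hd e.symm)
  have e := (unipotent_pair hCD left_mem_unipotent
    (conjBy_mem_unipotent left_mem_unipotent (Subgroup.mem_sup_right hd)) hne).2
  rw [Subgroup.commutator_comm, Subgroup.commutator_eq_bot_iff_le_centralizer]
  refine (le_sup_right : D ≤ C ⊔ D).trans (e ▸ sup_le ?_ ?_) <;>
    rw [← Subgroup.commutator_eq_bot_iff_le_centralizer]
  exacts [comm_symm h1, comm_symm h2]

include hS in
theorem rankOne_of_rel (hA : A ∈ S) (hD : D ∈ S) (hCD : IsRankOnePair C D)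
    (hac : ⁅A, C⁆ = ⊥) (h : centralizingMembers S A ⊆ centralizingMembers S C) : IsRankOnePair A D := by
  rcases hS.pair A hA D hD with h0 | h0 | h0
  · exact absurd h0 (not_comm_of_rel hS hA hD hCD h)
  · exact h0
  exfalso
  obtain ⟨d, hd, hd1⟩ := exists_right hCD
  refine not_comm_of_rel hS hA hD hCD h (unipotent_gen hCD hd hd1 hac ?_)
  have hFC : ⁅⁅A, D⁆, C⁆ = ⊥ := (mem_centralizing.1 (h (mem_centralizing.2 ⟨h0.1, comm_symm (rc_comm_left h0)⟩))).2
  have hle : conjBy A d⁻¹ ≤ A ⊔ ⁅D, A⁆ := conjBy_le_sup_commutator (inv_mem hd)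
  rw [Subgroup.commutator_comm D A] at hle
  have : ⁅conjBy A d⁻¹, C⁆ = ⊥ := by
    rw [Subgroup.commutator_eq_bot_iff_le_centralizer]
    refine hle.trans (sup_le ?_ ?_) <;> rw [← Subgroup.commutator_eq_bot_iff_le_centralizer]
    exacts [hac, hFC]
  have h2 := comm_conj this d
  rwa [conjBy_conjBy_inv] at h2

include hS in
theorem degenerate_cent (hdeg : IsDegenerateRootSet S) (hcl : IsConjClassOfSubgroups S) (hA : A ∈ S) (hC : C ∈ S)
    (h : centralizingMembers S A ⊆ centralizingMembers S C) {E : Subgroup G} (hE : E ∈ S) (hEC : ⁅E, C⁆ = ⊥) :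
    ⁅E, A⁆ = ⊥ := by
  by_contra hEA
  have hac : ⁅A, C⁆ = ⊥ := (mem_centralizing.1 (h (mem_centralizing.2 ⟨hA, comm_self hS hA⟩))).2
  have hp : ∀ {P Q}, P ∈ S → Q ∈ S → ⁅P, Q⁆ ≠ ⊥ → IsRankOnePair P Q := fun {P Q} hP hQ hne =>
    ((hS.pair P hP Q hQ).resolve_left hne).resolve_right (hdeg P hP Q hQ)
  have hAE : IsRankOnePair A E := hp hA hE fun h0 => hEA (comm_symm h0)
  obtain ⟨x, hx, hxA, -⟩ := exists_conj_pair hAE (right_mem_unipotent hAE) left_mem_unipotent hAE.ne.symm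
  have hxC : conjBy C x = C := by
    refine conjBy_eq_self_of_commute fun c hc => ?_
    have hle : A ⊔ E ≤ Subgroup.centralizer (C : Set G) := sup_le
      (Subgroup.commutator_eq_bot_iff_le_centralizer.1 hac) (Subgroup.commutator_eq_bot_iff_le_centralizer.1 hEC)
    exact (Subgroup.mem_centralizer_iff.1 (hle hx) c hc).symm
  have hrelE : centralizingMembers S E ⊆ centralizingMembers S C := by
    have := centralizing_conj hS x h
    rwa [hxA, hxC] at this
  obtain ⟨y, hy⟩ := hcl.2 A hA C hC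
  obtain ⟨D, hD⟩ : ∃ D, D = conjBy E y := ⟨_, rfl⟩
  have hCD : IsRankOnePair C D := by rw [hD, hy]; exact rankOne_conj hAE y
  have hDS : D ∈ S := by rw [hD]; exact hS.conj_mem E hE y
  have hAD := hp hA hDS (not_comm_of_rel hS hA hDS hCD h)
  have hED := hp hE hDS (not_comm_of_rel hS hE hDS hCD hrelE)
  obtain ⟨d, hd, hd1⟩ := exists_right hCD
  obtain ⟨a, ha, ha1, ea⟩ := hAD.cond_right d hd hd1
  obtain ⟨e, he, he1, ee⟩ := hED.cond_right d hd hd1
  obtain ⟨c, hc, -, ec⟩ := hCD.cond_right d hd hd1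
  -- transporting by `d`
  have key : ∀ {U : Subgroup G} {u : G}, u ∈ U → conjBy D u⁻¹ = conjBy U d⁻¹ →
      centralizingMembers S U ⊆ centralizingMembers S C → ⁅U, C⁆ = ⊥ →
      centralizingMembers S D ⊆ centralizingMembers S (conjBy D (u * c⁻¹)) ∧ ⁅D, conjBy D (u * c⁻¹)⁆ = ⊥ := by
    intro U u _ hu hrel hUC
    have h1 := centralizing_conj hS u (centralizing_conj hS d⁻¹ hrel)
    have h2 := comm_conj (comm_conj hUC d⁻¹) u
    rw [← hu, ← ec, conjBy_conjBy_inv, conjBy_mul] at h1 h2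
    exact ⟨h1, h2⟩
  obtain ⟨k1, -⟩ := key ha ea h hac
  obtain ⟨-, k2⟩ := key he ee hrelE hEC
  have h3 : ⁅conjBy D (e * c⁻¹), conjBy D (a * c⁻¹)⁆ = ⊥ :=
    (mem_centralizing.1 (k1 (mem_centralizing.2 ⟨hS.conj_mem D hDS _, comm_symm k2⟩))).2
  have h4 := comm_conj h3 c
  rw [conjBy_mul, conjBy_mul,
    show c * (e * c⁻¹) = e by rw [← mul_assoc, ← comm_iff.1 hEC e he c hc, mul_inv_cancel_right],
    show c * (a * c⁻¹) = a by rw [← mul_assoc, ← comm_iff.1 hac a ha c hc, mul_inv_cancel_right]] at h4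
  obtain ⟨b₁, hb₁, -, e₁⟩ := hAD.cond_left a⁻¹ (inv_mem ha) (inv_ne_one.2 ha1)
  obtain ⟨b₂, hb₂, -, e₂⟩ := hED.cond_left e⁻¹ (inv_mem he) (inv_ne_one.2 he1)
  rw [inv_inv] at e₁ e₂
  rw [← e₁, ← e₂] at h4
  have h5 := comm_conj h4 b₁
  rw [conjBy_conjBy_inv, conjBy_mul] at h5
  set δ := b₁ * b₂⁻¹ with hδ
  have hδD : δ ∈ D := mul_mem hb₁ (inv_mem hb₂)
  by_cases hδ1 : δ = 1
  · rw [hδ1, conjBy_one] at h5
    exact hEA h5
  · have h6 : ⁅conjBy E δ, C⁆ = ⊥ :=
      (mem_centralizing.1 (h (mem_centralizing.2 ⟨hS.conj_mem E hE δ, h5⟩))).2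
    have h7 := comm_conj h6 δ⁻¹
    rw [conjBy_inv_conjBy] at h7
    exact not_commute hED (unipotent_gen hCD (inv_mem hδD) (inv_ne_one.2 hδ1) hEC h7)

include hS in
/-- the two members of a line cannot both be in the commutator case with an opposite of the third -/
theorem not_two_rc (hA : A ∈ S) (hB : B ∈ S) (h : IsRankOnePair A B) {F F' : Subgroup G}
    (hpart : ∀ X ∈ S, ∃ P ∈ S, IsRankOnePair X P) (hF : F ∈ linePartners S A) (hF' : F' ∈ linePartners S A)
    (hff : ⁅F, F'⁆ = ⊥) (hgen : ∀ a ∈ A, ∃ f ∈ F, ∃ f' ∈ F', a = f * f')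
    (h1 : RootCommutatorCase S B F) (h2 : RootCommutatorCase S B F') : False := by
  obtain ⟨a, ha, ha1⟩ := exists_left h
  obtain ⟨b, hb, hb1, e⟩ := h.cond_left a ha ha1
  have hs := (line_swap hS hA hB h hF (hpart F hF.1.1) h1).2 a ha b hb e ha1
  have hs' := (line_swap hS hA hB h hF' (hpart F' hF'.1.1) h2).2 a ha b hb e ha1
  have hKK : ⁅⁅B, F⁆, ⁅B, F'⁆⁆ = ⊥ := by rw [← hs, ← hs']; exact comm_conj hff _
  obtain ⟨f, hf, f', hf', hfe⟩ := hgen a ha
  set k := b * f * b⁻¹ * f⁻¹ with hk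
  set k' := b * f' * b⁻¹ * f'⁻¹ with hk'
  have hkK : k ∈ ⁅B, F⁆ := comm_elem_mem hb hf
  have hkK' : k' ∈ ⁅B, F'⁆ := comm_elem_mem hb hf'
  set z := b * a * b⁻¹ * a⁻¹ with hz
  have hzz : z = k * (f * k' * f⁻¹) := by rw [hz, hfe, hk, hk']; group
  have hfix : ∀ y ∈ B, z * y = y * z := by
    intro y hy
    set w := y * f * y⁻¹ * f⁻¹ with hw
    have hwK : w ∈ ⁅B, F⁆ := comm_elem_mem hy hf
    have hyk : Commute y k := comm_iff.1 (rc_comm_left h1) y hy k hkK
    have hyk' : Commute y k' := comm_iff.1 (rc_comm_left h2) y hy k' hkK'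
    have hwf : Commute w f := (comm_iff.1 (rc_comm_right h1) f hf w hwK).symm
    have hwk' : Commute w k' := comm_iff.1 hKK w hwK k' hkK'
    have h3 : y * (f * k' * f⁻¹) * y⁻¹ = f * k' * f⁻¹ := by
      calc y * (f * k' * f⁻¹) * y⁻¹ = (y * f * y⁻¹) * (y * k' * y⁻¹) * (y * f * y⁻¹)⁻¹ := by group
        _ = w * (f * k' * f⁻¹) * w⁻¹ := by
          rw [hyk'.eq, mul_inv_cancel_right, hw]; group
        _ = _ := by
          rw [((hwf.mul_right hwk').mul_right hwf.inv_right).eq, mul_inv_cancel_right]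
    have h4 : Commute y z := by
      rw [hzz]; exact hyk.mul_right (mul_inv_eq_iff_eq_mul.1 h3)
    exact h4.symm.eq
  have hzB := conjBy_eq_self_of_commute hfix
  set U := conjBy B a⁻¹ with hU
  have hUB : U ≠ B := fun e' => ha1 (inv_eq_one.1 (eq_one_of_normalizes h (inv_mem ha) e'))
  have hpair := (unipotent_pair h (conjBy_mem_unipotent (right_mem_unipotent h)
    (Subgroup.mem_sup_left (inv_mem ha))) (right_mem_unipotent h) hUB).1
  refine hb1 (inv_eq_one.1 (eq_one_of_normalizes' hpair (inv_mem hb) ?_))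
  rw [hz, show b * a * b⁻¹ * a⁻¹ = b * (a * (b⁻¹ * a⁻¹)) by group, ← conjBy_mul B _ b,
    conjBy_eq_iff, conjBy_eq_self_of_mem (inv_mem hb), ← conjBy_mul B _ a, conjBy_eq_iff,
    ← conjBy_mul B a⁻¹ b⁻¹] at hzB
  exact hzB

include hS in
theorem not_rc_of_partners (hpart : ∀ X ∈ S, ∃ P ∈ S, IsRankOnePair X P) (hA : A ∈ S) (hC : C ∈ S)
    (h : rankOnePartners S A ⊆ rankOnePartners S C) : ¬ RootCommutatorCase S A C := by
  intro hAC
  have hCA := rc_symm hAC
  obtain ⟨D, hD, hFD, hFDA⟩ := exists_shift hS hpart hA hC hAC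
  obtain ⟨P, hP, hAP⟩ := hpart A hA
  obtain ⟨Q, hQ, hCQ⟩ := hpart C hC
  obtain ⟨-, -, hAlineF⟩ := rc_members hS hA hP hAP hC hAC
  obtain ⟨hmem, -, hlineC⟩ := rc_members hS hC hQ hCQ hA hCA
  rw [Subgroup.commutator_comm C A] at hmem hlineC
  set F := ⁅A, C⁆ with hF
  have hline := linePartner_symm hAC.1 hlineC
  -- every opposite of `A` is in the commutator case with `F`
  have hrc : ∀ B ∈ rankOnePartners S A, RootCommutatorCase S B F := by
    intro B hB
    obtain ⟨U, hU, hBU⟩ := S5034.exists_rc_member hS hC hB.1 (h hB).2 hline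
    rw [hmem] at hU
    rcases hU with ⟨a, ha, rfl⟩ | rfl
    · exfalso
      have hB' : conjBy B a⁻¹ ∈ rankOnePartners S A := ⟨hS.conj_mem B hB.1 _, by
        simpa [conjBy_eq_self_of_mem (inv_mem ha)] using rankOne_conj hB.2 a⁻¹⟩
      have hmemS : ⁅conjBy B a⁻¹, C⁆ ∈ S := by
        have := hS.conj_mem _ hBU.1 a⁻¹
        rwa [conj_commutator, conjBy_inv_conjBy] at this
      exact rc_not_rankOne hS hC (rc_of_mem hS hB'.1 hC hmemS) (RankOnePair_symm (h hB').2)
    · exact hBU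
  have hFline : F ∈ linePartners S A := linePartner_symm hAC.1 hAlineF
  have hDA : ⁅D, A⁆ = ⊥ := by rw [← hFDA]; exact rc_comm_right hFD
  obtain ⟨δ, hδ, hδ1⟩ := D.bot_or_exists_ne_one.resolve_left (hS.ne_bot D hD)
  have hAδ : conjBy A δ = A := conjBy_eq_self_of_comm (comm_symm hDA) hδ
  have hF'line : conjBy F δ ∈ linePartners S A := by
    have := linePartner_conj hS hFline δ
    rwa [hAδ] at this
  obtain ⟨B, hBS, hAB⟩ := hpart A hA
  have hF'rc : RootCommutatorCase S B (conjBy F δ) := by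
    have hB' : conjBy B δ⁻¹ ∈ rankOnePartners S A := by
      refine ⟨hS.conj_mem B hBS _, ?_⟩
      have := rankOne_conj hAB δ⁻¹
      rwa [show conjBy A δ⁻¹ = A from conjBy_eq_self_of_comm (comm_symm hDA) (inv_mem hδ)] at this
    have := hS.conj_mem _ (hrc _ hB').1 δ
    rw [conj_commutator, conjBy_conjBy_inv] at this
    exact rc_of_mem hS hBS hF'line.1.1 this
  refine not_two_rc hS hA hBS hAB hpart hFline hF'line ?_ (fun a ha => ?_) (hrc B ⟨hBS, hAB⟩) hF'rc
  · exact comm_symm (rc_conj_comm (rc_symm hFD) (hS.commutative F hAC.1) hδ)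
  · rw [← hFDA] at ha
    obtain ⟨f, hf, e⟩ := rc_surj' hFD hδ hδ1 ha
    exact ⟨f, hf, δ * f⁻¹ * δ⁻¹, conj_mem_conjBy δ (inv_mem hf), by rw [← e]; group⟩

end


/-- Let S be a class of abstract root subgroups of G that is either degenerate or non-degenerate (so either the commutator case never occurs, or all three cases occur), and A ≠ C members of S. If every member of S commuting with A commutes with C, then A and C have the same commuting members of S; and if every rank one partner of A is a rank one partner of C, then A and C commute and have the same rank one partners. -/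
theorem result {G : Type*} [Group G] {S : Set (Subgroup G)} (hS : Cfsg.IsRootSubgroupClass S)
    (hdn : Cfsg.IsDegenerateRootSet S ∨ Cfsg.IsNondegenerateRootSet S)
    {A C : Subgroup G} (hA : A ∈ S) (hC : C ∈ S) (hAC : A ≠ C) :
    (Cfsg.centralizingMembers S A ⊆ Cfsg.centralizingMembers S C →
      Cfsg.centralizingMembers S A = Cfsg.centralizingMembers S C) ∧
    (Cfsg.rankOnePartners S A ⊆ Cfsg.rankOnePartners S C →
      ⁅A, C⁆ = ⊥ ∧ Cfsg.rankOnePartners S A = Cfsg.rankOnePartners S C) := by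
  obtain ⟨hSS, hcl⟩ := hS
  have hself : ⁅A, A⁆ = ⊥ := comm_self hSS hA
  constructor
  · intro h
    have hac : ⁅A, C⁆ = ⊥ := (mem_centralizing.1 (h (mem_centralizing.2 ⟨hA, hself⟩))).2
    refine h.antisymm ?_
    rcases hdn with hdeg | hnd
    · intro E hE
      rw [mem_centralizing] at hE ⊢
      exact ⟨hE.1, degenerate_cent hSS hdeg hcl hA hC h hE.1 hE.2⟩
    · obtain ⟨P₀, hP₀, Q₀, hQ₀, hPQ⟩ := hnd.2.1
      obtain ⟨g, rfl⟩ := hcl.2 P₀ hP₀ C hC
      have hD := hSS.conj_mem Q₀ hQ₀ g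
      have hCD := rankOne_conj hPQ g
      have hAD := rankOne_of_rel hSS hA hD hCD hac h
      exact rel_symm hSS (fun P Q => centralizingMembers S P ⊆ centralizingMembers S Q)
        (fun g P Q => centralizing_conj hSS g) hA hC hac
        (Agent.S5034.result ⟨hSS, hcl⟩ hnd hA ⟨hD, hAD⟩).2 (Agent.S5034.result ⟨hSS, hcl⟩ hnd hC ⟨hD, hCD⟩).2 h
  · intro h
    have hnot : ¬ IsRankOnePair A C := fun h' => (h ⟨hC, h'⟩).2.ne rfl
    rcases hdn with hdeg | hnd
    · have hac : ⁅A, C⁆ = ⊥ :=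
        (hSS.pair A hA C hC).resolve_right (not_or.2 ⟨hnot, hdeg A hA C hC⟩)
      refine ⟨hac, h.antisymm ?_⟩
      have hp : ∀ {P Q}, P ∈ S → Q ∈ S → ⁅P, Q⁆ ≠ ⊥ → IsRankOnePair P Q := fun {P Q} hP hQ hne =>
        ((hSS.pair P hP Q hQ).resolve_left hne).resolve_right (hdeg P hP Q hQ)
      have hsub : centralizingMembers S C ⊆ centralizingMembers S A := by
        intro E hE
        rw [mem_centralizing] at hE ⊢
        refine ⟨hE.1, by_contra fun hne => ?_⟩
        exact not_commute (h ⟨hE.1, RankOnePair_symm (hp hE.1 hA hne)⟩).2 (comm_symm hE.2)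
      rintro E ⟨hE, hCE⟩
      refine ⟨hE, hp hA hE fun h0 => not_commute hCE (comm_symm ?_)⟩
      exact degenerate_cent hSS hdeg hcl hC hA hsub hE (comm_symm h0)
    · obtain ⟨P₀, hP₀, Q₀, hQ₀, hPQ⟩ := hnd.2.1
      have hpart : ∀ X ∈ S, ∃ P ∈ S, IsRankOnePair X P := by
        intro X hX
        obtain ⟨g, rfl⟩ := hcl.2 P₀ hP₀ X hX
        exact ⟨_, hSS.conj_mem Q₀ hQ₀ g, rankOne_conj hPQ g⟩
      have hac : ⁅A, C⁆ = ⊥ := (hSS.pair A hA C hC).resolve_right
        (not_or.2 ⟨hnot, not_rc_of_partners hSS hpart hA hC h⟩)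
      obtain ⟨D, hD, hAD⟩ := hpart A hA
      have hCD := (h ⟨hD, hAD⟩).2
      exact ⟨hac, h.antisymm (rel_symm hSS (fun P Q => rankOnePartners S P ⊆ rankOnePartners S Q)
        (fun g P Q => rankOne_partners_conj hSS g) hA hC hac
        (Agent.S5034.result ⟨hSS, hcl⟩ hnd hA ⟨hD, hAD⟩).2 (Agent.S5034.result ⟨hSS, hcl⟩ hnd hC ⟨hD, hCD⟩).2 h)⟩

end Cfsg.Agent.S5037
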