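import Cfsg.Statements.S5038
import Cfsg.Agent.Lib.Root.Lines

set_option autoImplicit false
open Cfsg

namespace Cfsg.Agent.S5038

open Cfsg.Agent.Lib.Root


/-- Let S be a set of abstract root subgroups of G in which every member has a rank one partner, A ∈ S and B a line partner of A. Then the subgroup generated by the members of S normalizing AB permutes the members of S inside AB doubly transitively by conjugation. -/
theorem result {G : Type*} [Group G] {S : Set (Subgroup G)} (hS : Cfsg.IsRootSubgroupSet S)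
    (hF : ∀ A ∈ S, ¬ Cfsg.IsIsolatedIn (Cfsg.FAdj S) S A) {A B : Subgroup G} (hA : A ∈ S) (hB : B ∈ Cfsg.linePartners S A) :
    ∀ C₁ ∈ Cfsg.membersIn S (A ⊔ B), ∀ C₂ ∈ Cfsg.membersIn S (A ⊔ B), ∀ D₁ ∈ Cfsg.membersIn S (A ⊔ B),
      ∀ D₂ ∈ Cfsg.membersIn S (A ⊔ B), C₁ ≠ C₂ → D₁ ≠ D₂ →
        ∃ x ∈ ⨆ E ∈ Cfsg.normalizingMembers S (A ⊔ B), E, Cfsg.conjBy C₁ x = D₁ ∧ Cfsg.conjBy C₂ x = D₂ := by
  have hpart : ∀ X ∈ S, ∃ P ∈ S, IsRankOnePair X P := fun X hX => exists_partner (hF X hX) hX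
  obtain ⟨K, hK, hAK, hgen⟩ := exists_line_gen hS hpart hA hB
  set U := ⁅A, K⁆ with hU
  have hUS : U ∈ S := hAK.1
  obtain ⟨P, hP, hAP⟩ := hpart A hA
  obtain ⟨hmem, -, hline⟩ := rc_members hS hA hP hAP hK hAK
  obtain ⟨K', hK', hUK', hgen'⟩ := exists_line_gen hS hpart hUS hline
  obtain ⟨Q, hQ, hUQ⟩ := hpart U hUS
  obtain ⟨hmem', -, -⟩ := rc_members hS hUS hQ hUQ hK' hUK'
  set U' := ⁅U, K'⁆ with hU'
  have hgen'' : U ⊔ U' = A ⊔ B := by rw [hgen', sup_comm, hgen]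
  rw [hgen] at hmem
  rw [hgen''] at hmem'
  set T := membersIn S (A ⊔ B) with hT
  set N := ⨆ E ∈ normalizingMembers S (A ⊔ B), E with hN
  -- the two movers normalize the line
  have hnorm : ∀ {X Y Z : Subgroup G}, Y ∈ S → RootCommutatorCase S X Y → ⁅X, Y⁆ = Z → X ⊔ Z = A ⊔ B → Y ≤ N := by
    intro X Y Z hY hXY hZ hXZ
    refine le_iSup₂_of_le Y ⟨hY, fun y hy => ?_⟩ le_rfl
    have hle : ∀ y ∈ Y, conjBy (A ⊔ B) y ≤ A ⊔ B := by
      intro y hy
      rw [← hXZ, conjBy_sup]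
      refine sup_le ?_ ?_
      · have := conjBy_le_sup_commutator (A := Y) (B := X) hy
        rwa [Subgroup.commutator_comm, hZ] at this
      · rw [show conjBy Z y = Z from conjBy_eq_self_of_comm (comm_symm (hZ ▸ rc_comm_right hXY)) hy]
        exact le_sup_right
    rw [← conjBy_eq_self_iff]
    refine le_antisymm (hle y hy) ?_
    calc A ⊔ B = conjBy (conjBy (A ⊔ B) y⁻¹) y := (conjBy_conjBy_inv _ _).symm
      _ ≤ conjBy (A ⊔ B) y := Subgroup.map_mono (hle _ (inv_mem hy))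
  have hKN : K ≤ N := hnorm hK hAK rfl hgen
  have hK'N : K' ≤ N := hnorm hK' hUK' rfl hgen''
  have hNT : ∀ x ∈ N, ∀ E ∈ T, conjBy E x ∈ T := by
    intro x hx E hE
    have hle : N ≤ Subgroup.normalizer ((A ⊔ B : Subgroup G) : Set G) := iSup₂_le fun E hE => hE.2
    have := membersIn_conj hS x hE
    rwa [conjBy_eq_self_iff.2 (hle hx)] at this
  have hUfix : ∀ k ∈ K, conjBy U k = U := fun k hk => conjBy_eq_self_of_comm (comm_symm (rc_comm_right hAK)) hk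
  have hU'fix : ∀ k ∈ K', conjBy U' k = U' := fun k hk => conjBy_eq_self_of_comm (comm_symm (rc_comm_right hUK')) hk
  -- members other than `U` form one orbit under `K`
  have hother : ∀ E ∈ T, E ≠ U → ∃ k ∈ K, E = conjBy A k := by
    intro E hE hne
    rw [hmem] at hE
    obtain ⟨k, hk, e⟩ := hE.resolve_right hne
    exact ⟨k, hk, e.symm⟩
  have hUU' : U' ≠ U := rc_ne hS hUS hUK'
  have htrans : ∀ E ∈ T, ∃ x ∈ N, conjBy E x = U := by
    have h1 : ∀ E ∈ T, E ≠ U' → ∃ x ∈ N, conjBy E x = U := by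
      intro E hE hne
      rw [hmem'] at hE
      obtain ⟨k, hk, rfl⟩ := hE.resolve_right hne
      exact ⟨k⁻¹, inv_mem (hK'N hk), conjBy_inv_conjBy U k⟩
    intro E hE
    by_cases hne : E = U'
    · subst hne
      obtain ⟨k, hk, e⟩ := hother _ hE hUU'
      -- move `U'` to another member first
      obtain ⟨k₁, hk₁, hk₁1⟩ := K.bot_or_exists_ne_one.resolve_left (hS.ne_bot K hK)
      have hne' : conjBy U' k₁ ≠ U' := by
        intro h
        rw [e, conjBy_mul] at h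
        have h2 : conjBy A k₁ = A := by
          have hcm : k₁ * k = k * k₁ := congrArg Subtype.val ((hS.commutative K hK).is_comm.comm ⟨k₁, hk₁⟩ ⟨k, hk⟩)
          rw [hcm, ← conjBy_mul] at h
          exact conjBy_injective k h
        have hle : U ≤ A := by
          rw [hU, ← hAK.2.2.2 k₁ hk₁ hk₁1, Subgroup.closure_le]
          rintro _ ⟨a, ha, rfl⟩
          have : k₁ * a⁻¹ * k₁⁻¹ ∈ A := h2 ▸ conj_mem_conjBy k₁ (inv_mem ha)
          simpa [mul_assoc] using mul_mem ha this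
        obtain ⟨u, hu, hu1⟩ := U.bot_or_exists_ne_one.resolve_left (hS.ne_bot U hUS)
        exact rc_ne hS hA hAK (eq_of_mem_inter hS hA hP hAP hUS (hle hu) hu hu1)
      obtain ⟨x, hx, hxe⟩ := h1 _ (hNT _ (hKN hk₁) _ hE) hne'
      exact ⟨x * k₁, mul_mem hx (hKN hk₁), by rw [← conjBy_mul, hxe]⟩
    · exact h1 E hE hne
  intro C₁ hC₁ C₂ hC₂ D₁ hD₁ D₂ hD₂ hC hD
  obtain ⟨x, hx, hxC⟩ := htrans C₁ hC₁
  obtain ⟨y, hy, hyD⟩ := htrans D₁ hD₁
  obtain ⟨k₁, hk₁, e₁⟩ := hother _ (hNT x hx C₂ hC₂) (fun e => hC (conjBy_injective x (hxC.trans e.symm)))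
  obtain ⟨k₂, hk₂, e₂⟩ := hother _ (hNT y hy D₂ hD₂) (fun e => hD (conjBy_injective y (hyD.trans e.symm)))
  refine ⟨y⁻¹ * (k₂ * k₁⁻¹ * x), mul_mem (inv_mem hy) (mul_mem (mul_mem (hKN hk₂) (inv_mem (hKN hk₁))) hx), ?_, ?_⟩
  · rw [← conjBy_mul, ← conjBy_mul, ← conjBy_mul, hxC, hUfix _ (inv_mem hk₁), hUfix _ hk₂, ← hyD, conjBy_inv_conjBy]
  · rw [← conjBy_mul, ← conjBy_mul, ← conjBy_mul, e₁, conjBy_inv_conjBy, ← e₂, conjBy_inv_conjBy]

end Cfsg.Agent.S5038
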