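import Cfsg.Statements.S5045
import Cfsg.Agent.Lib.Involution.BaerSuzuki
import Cfsg.Agent.Lib.LocalChar.Core

set_option autoImplicit false
open Cfsg

namespace Cfsg.Agent.S5045

open Cfsg.Agent.Lib.Involution

section
variable {G : Type*} [Group G] {D : Set G}

theorem reach_symm {x y : G} (h : Relation.ReflTransGen (OddAdj D) x y) : Relation.ReflTransGen (OddAdj D) y x := by
  induction h with
  | refl => exact .refl
  | @tail b c _ e ih =>
    refine .head ⟨e.2.1, e.1, e.2.2.1.symm, ?_⟩ ih
    have hc : (b * c) = b * (c * b) * b⁻¹ := by group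
    have := e.2.2.2
    rw [hc, orderOf_conj] at this
    exact this

variable (hD : IsRootInvolutionSet D)
include hD

theorem cases_pair {x y : G} (hx : x ∈ D) (hy : y ∈ D) (h1 : ¬ Commute x y) (h2 : ¬ Odd (orderOf (x * y))) :
    orderOf (x * y) = 4 ∧ Commute (y * x * y) x := by
  obtain h | h | h := hD.pair x hx y hy
  · exact absurd h h1
  · exact absurd h h2
  refine ⟨h.1, ?_⟩
  have sx := mul_self (hD.orderOf_eq x hx)
  have sy := mul_self (hD.orderOf_eq y hy)
  have h4 : (x * y) ^ 4 = 1 := by rw [← h.1]; exact pow_orderOf_eq_one _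
  have e : (x * y) ^ 2 = ((x * y) ^ 2)⁻¹ := eq_inv_of_mul_eq_one_left (by rw [← pow_add]; exact h4)
  have i1 := inv_self (hD.orderOf_eq x hx)
  have i2 := inv_self (hD.orderOf_eq y hy)
  show y * x * y * x = x * (y * x * y)
  simp only [pow_two, mul_inv_rev, i1, i2] at e
  simp only [mul_assoc] at e ⊢
  exact e.symm

/-- the key step -/
theorem reach_prod {a c e : G} (ha : a ∈ D) (hc : c ∈ D) (hac : Commute a c) (hacD : a * c ∈ D)
    (hn : ¬ Relation.ReflTransGen (OddAdj D) a c) (he : OddAdj D a e) :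
    Relation.ReflTransGen (OddAdj D) a (a * c) := by
  have sa := mul_self (hD.orderOf_eq a ha)
  have sc := mul_self (hD.orderOf_eq c hc)
  have hne : a ≠ c := fun h => hn (h ▸ .refl)
  have hac1 : a * c ≠ c := fun h => ne_one (hD.orderOf_eq a ha) (mul_eq_right.1 h)
  have hodd := he.2.2.2
  have heD := he.2.1
  have hea : ¬ Commute a e := fun h => by
    have h1 : (a * e) ^ 2 = 1 := by rw [h.mul_pow, pow_two, pow_two, sa, mul_self (hD.orderOf_eq e heD), one_mul]
    have h2 := orderOf_dvd_of_pow_eq_one h1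
    rcases (Nat.dvd_prime Nat.prime_two).1 h2 with h3 | h3
    · rw [orderOf_eq_one_iff] at h3
      exact he.2.2.1 (by rw [eq_inv_of_mul_eq_one_left h3, inv_self (hD.orderOf_eq e heD)])
    · rw [h3] at hodd; exact (by decide : ¬ Odd 2) hodd
  have hce : ¬ Commute c e := by
    intro h
    have hcom : Commute (a * e) c := hac.mul_left h.symm
    have hord : orderOf (a * c * e) = orderOf (a * e) * 2 := by
      rw [show a * c * e = (a * e) * c by rw [mul_assoc, h.eq, ← mul_assoc],
        hcom.orderOf_mul_eq_mul_orderOf_of_coprime (by rw [hD.orderOf_eq c hc]; exact Nat.coprime_two_right.2 hodd),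
        hD.orderOf_eq c hc]
    have hpos : 1 < orderOf (a * e) := by
      rcases Nat.lt_or_ge 1 (orderOf (a * e)) with h1 | h1
      · exact h1
      · exfalso
        interval_cases hh : orderOf (a * e)
        · exact (by decide : ¬ Odd 0) hodd
        · rw [orderOf_eq_one_iff] at hh
          exact he.2.2.1 (by rw [eq_inv_of_mul_eq_one_left hh, inv_self (hD.orderOf_eq e heD)])
    rcases hD.pair _ hacD e heD with h1 | h1 | h1
    · have h2 : (a * c * e) ^ 2 = 1 := by
        rw [(show Commute (a * c) e from h1).mul_pow, pow_two, pow_two, mul_self (hD.orderOf_eq _ hacD),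
          mul_self (hD.orderOf_eq e heD), one_mul]
      have := Nat.le_of_dvd (by norm_num) (orderOf_dvd_of_pow_eq_one h2)
      omega
    · rw [hord, Nat.odd_mul] at h1
      exact (by decide : ¬ Odd 2) h1.2
    · rw [hord] at h1
      rw [show orderOf (a * e) = 2 by omega] at hodd
      exact (by decide : ¬ Odd 2) hodd
  have hne' : c ≠ e := fun h => hce (h ▸ Commute.refl c)
  have hce4 : Commute (c * e * c) e := by
    refine (cases_pair hD heD hc (fun h => hce h.symm) fun h => hn ?_).2
    exact .tail (.single he) ⟨heD, hc, hne'.symm, h⟩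
  have hnot : ¬ Commute ((a * c) * e * (a * c)) e := by
    intro h
    have h' : Commute (c * e * c) (a * e * a) := by
      have h1 := (Commute.map h (MulAut.conj a).toMonoidHom)
      simp only [MulEquiv.coe_toMonoidHom, MulAut.conj_apply, inv_self (hD.orderOf_eq a ha)] at h1
      rwa [show a * (a * c * e * (a * c)) * a = c * e * c by
        calc a * (a * c * e * (a * c)) * a = (a * a) * (c * e * ((a * c) * a)) := by group
          _ = c * e * c := by rw [sa, one_mul, hac.eq, mul_assoc c a a, sa, mul_one]] at h1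
    -- generate `a`
    have h2 : Commute (c * e * c) ((a * e) ^ 2) := by
      rw [show (a * e) ^ 2 = a * e * a * e by rw [pow_two]; group]
      exact h'.mul_right hce4
    have h3 : Commute (c * e * c) a := by
      obtain ⟨k, hk⟩ := hodd
      have h4 : ((a * e) ^ 2) ^ (k + 1) = a * e := by
        rw [← pow_mul, show 2 * (k + 1) = orderOf (a * e) + 1 by omega, pow_succ, pow_orderOf_eq_one, one_mul]
      have h5 : Commute (c * e * c) (a * e) := h4 ▸ h2.pow_right _
      have := h5.mul_right hce4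
      rw [show a * e * e = a by rw [mul_assoc, mul_self (hD.orderOf_eq e heD), mul_one]] at this
      exact this
    apply hea
    have h6 := Commute.map h3 (MulAut.conj c).toMonoidHom
    simp only [MulEquiv.coe_toMonoidHom, MulAut.conj_apply, inv_self (hD.orderOf_eq c hc)] at h6
    rw [show c * (c * e * c) * c = e by simp only [← mul_assoc, sc, one_mul]; rw [mul_assoc, sc, mul_one],
      show c * a * c = a by rw [← hac.eq, mul_assoc, sc, mul_one]] at h6
    exact h6.symm
  have hne2 : e ≠ a * c := fun h => hea (h ▸ (Commute.refl a).mul_right hac)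
  by_cases h4 : Commute e (a * c)
  · refine absurd ?_ hnot
    rw [← h4.eq, mul_assoc, mul_self (hD.orderOf_eq _ hacD), mul_one]
  by_cases h5 : Odd (orderOf (e * (a * c)))
  · exact .tail (.single he) ⟨heD, hacD, hne2, h5⟩
  · exact absurd (cases_pair hD heD hacD h4 h5).2 hnot

theorem same_comp {a c : G} (ha : a ∈ D) (hc : c ∈ D) (hac : Commute a c) (hacD : a * c ∈ D)
    (hna : ¬ IsIsolatedElem (OddAdj D) D a) (hnc : ¬ IsIsolatedElem (OddAdj D) D c) :
    Relation.ReflTransGen (OddAdj D) a c := by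
  have hex : ∀ x ∈ D, ¬ IsIsolatedElem (OddAdj D) D x → ∃ e, OddAdj D x e := by
    intro x hx h
    by_contra hcon
    push Not at hcon
    refine h ⟨hx, fun b => ⟨hcon b, fun hb => ?_⟩⟩
    cases Relation.ReflTransGen.cases_head (reach_symm (Relation.ReflTransGen.single hb)) with
    | inl e => exact hb.2.2.1 e.symm
    | inr e => obtain ⟨y, hy, -⟩ := e; exact hcon y hy
  by_contra hn
  obtain ⟨e, he⟩ := hex a ha hna
  obtain ⟨f, hf⟩ := hex c hc hnc
  have h1 := reach_prod hD ha hc hac hacD hn he
  have h2 := reach_prod hD hc ha hac.symm (hac.eq ▸ hacD) (fun h => hn (reach_symm h)) hf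
  rw [hac.eq] at h1
  exact hn (h1.trans (reach_symm h2))

omit hD in
theorem not_isolated_of_comp {a : G} (h : ∃ a' ∈ elemComponentOf (OddAdj D) D a, a' ≠ a) :
    ¬ IsIsolatedElem (OddAdj D) D a := by
  obtain ⟨a', ⟨-, hr⟩, hne⟩ := h
  intro hi
  rcases Relation.ReflTransGen.cases_head hr with e | ⟨y, hy, -⟩
  · exact hne e.symm
  · exact (hi.2 y).1 hy

omit hD in
theorem comp_eq {a b : G} (h : Relation.ReflTransGen (OddAdj D) a b) :
    elemComponentOf (OddAdj D) D a = elemComponentOf (OddAdj D) D b := by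
  ext x
  exact ⟨fun hx => ⟨hx.1, (reach_symm h).trans hx.2⟩, fun hx => ⟨hx.1, h.trans hx.2⟩⟩

end


/-- Let G be a finite group generated by a set D of root involutions, and W the set of members of D whose product with every other member of D has even order or is trivial (the isolated vertices of the odd-order-product graph on D). Then W is conjugation-invariant and generates a normal 2-subgroup of G meeting D in exactly W; the commutator of two members of D lying in different connected components of that graph, each with more than one member, lies in the subgroup generated by W; and for a in such a component, every member of D commuting with a, different from a and with product with a in D, lies in that component or in W. -/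
theorem result {G : Type*} [Group G] [Finite G] {D : Set G} (hD : Cfsg.IsRootInvolutionSet D) :
    (∀ w ∈ {w | Cfsg.IsIsolatedElem (Cfsg.OddAdj D) D w}, ∀ g : G, g * w * g⁻¹ ∈ {w | Cfsg.IsIsolatedElem (Cfsg.OddAdj D) D w}) ∧
    (Subgroup.closure {w | Cfsg.IsIsolatedElem (Cfsg.OddAdj D) D w}).Normal ∧
    IsPGroup 2 ↥(Subgroup.closure {w | Cfsg.IsIsolatedElem (Cfsg.OddAdj D) D w}) ∧
    (Subgroup.closure {w | Cfsg.IsIsolatedElem (Cfsg.OddAdj D) D w} : Set G) ∩ D = {w | Cfsg.IsIsolatedElem (Cfsg.OddAdj D) D w} ∧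
    (∀ a ∈ D, ∀ b ∈ D, (∃ a' ∈ Cfsg.elemComponentOf (Cfsg.OddAdj D) D a, a' ≠ a) →
      (∃ b' ∈ Cfsg.elemComponentOf (Cfsg.OddAdj D) D b, b' ≠ b) →
      Cfsg.elemComponentOf (Cfsg.OddAdj D) D a ≠ Cfsg.elemComponentOf (Cfsg.OddAdj D) D b →
        a * b * a⁻¹ * b⁻¹ ∈ Subgroup.closure {w | Cfsg.IsIsolatedElem (Cfsg.OddAdj D) D w}) ∧
    (∀ a ∈ D, (∃ a' ∈ Cfsg.elemComponentOf (Cfsg.OddAdj D) D a, a' ≠ a) →
      Cfsg.productPartners D a ⊆ Cfsg.elemComponentOf (Cfsg.OddAdj D) D a ∪ {w | Cfsg.IsIsolatedElem (Cfsg.OddAdj D) D w}) := by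
  set W := {w | Cfsg.IsIsolatedElem (Cfsg.OddAdj D) D w} with hW
  haveI : Fact (Nat.Prime 2) := ⟨Nat.prime_two⟩
  have hconjAdj : ∀ (g : G) {x y : G}, Cfsg.OddAdj D x y → Cfsg.OddAdj D (g * x * g⁻¹) (g * y * g⁻¹) := by
    intro g x y h
    refine ⟨hD.conj_mem x h.1 g, hD.conj_mem y h.2.1 g, fun e => h.2.2.1 (by simpa using e), ?_⟩
    rw [show g * x * g⁻¹ * (g * y * g⁻¹) = g * (x * y) * g⁻¹ by group, orderOf_conj]
    exact h.2.2.2
  have hWc : ∀ w ∈ W, ∀ g : G, g * w * g⁻¹ ∈ W := by
    intro w hw g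
    refine ⟨hD.conj_mem w hw.1 g, fun b => ⟨fun h => (hw.2 (g⁻¹ * b * g)).1 ?_, fun h => (hw.2 (g⁻¹ * b * g)).2 ?_⟩⟩
    · simpa [mul_assoc] using hconjAdj g⁻¹ h
    · simpa [mul_assoc] using hconjAdj g⁻¹ h
  have hNormal : (Subgroup.closure W).Normal := by
    refine ⟨fun x hx g => ?_⟩
    have hle : Subgroup.closure W ≤ (Subgroup.closure W).comap (MulAut.conj g).toMonoidHom := by
      rw [Subgroup.closure_le]
      exact fun w hw => Subgroup.subset_closure (hWc w hw g)
    exact hle hx
  have hpair : ∀ w ∈ W, ∀ v ∈ D, ∃ k, orderOf (w * v) = 2 ^ k := by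
    intro w hw v hv
    by_cases hwv : w = v
    · exact ⟨0, by rw [← hwv, mul_self (hD.orderOf_eq w hw.1), orderOf_one, pow_zero]⟩
    rcases hD.pair w hw.1 v hv with h | h | h
    · have h2 : (w * v) ^ 2 = 1 := by
        rw [(show Commute w v from h).mul_pow, pow_two, pow_two, mul_self (hD.orderOf_eq w hw.1),
          mul_self (hD.orderOf_eq v hv), one_mul]
      obtain ⟨k, -, hk⟩ := (Nat.dvd_prime_pow Nat.prime_two).1
        (show orderOf (w * v) ∣ 2 ^ 1 by simpa using orderOf_dvd_of_pow_eq_one h2)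
      exact ⟨k, hk⟩
    · exact absurd ⟨hw.1, hv, hwv, h⟩ (hw.2 v).1
    · exact ⟨2, by rw [h.1]; norm_num⟩
  have hP : IsPGroup 2 ↥(Subgroup.closure W) := by
    have hle : Subgroup.closure W ≤ Cfsg.pCore 2 G := by
      rw [Subgroup.closure_le]
      intro w hw
      have ow := hD.orderOf_eq w hw.1
      obtain ⟨N, hN, hNp, hwN⟩ := baerSuzuki (p := 2) (Subgroup.zpowers w) (fun g => by
        have ov := hD.orderOf_eq _ (hD.conj_mem w hw.1 g)
        obtain ⟨k, hk⟩ := hpair w hw _ (hD.conj_mem w hw.1 g)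
        rw [MonoidHom.map_zpowers, Subgroup.zpowers_eq_closure, Subgroup.zpowers_eq_closure, ← Subgroup.closure_union,
          show (MulAut.conj g).toMonoidHom w = g * w * g⁻¹ from rfl, Set.singleton_union]
        rintro ⟨d, hd⟩
        obtain ⟨l, rfl | rfl⟩ := mem_closure_pair ow ov hd
        · refine ⟨k, Subtype.ext ?_⟩
          show ((w * (g * w * g⁻¹)) ^ l) ^ (2 ^ k) = 1
          rw [← zpow_natCast, ← zpow_mul, mul_comm, zpow_mul, zpow_natCast, ← hk, pow_orderOf_eq_one, one_zpow]
        · refine ⟨1, Subtype.ext ?_⟩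
          show (w * (w * (g * w * g⁻¹)) ^ l) ^ (2 ^ 1) = 1
          rw [pow_one, pow_two, mul_assoc, ← mul_assoc ((w * (g * w * g⁻¹)) ^ l) w, prod_zpow_mul_left ow ov, mul_assoc w,
            mul_mul_self_left ow, ← zpow_add, neg_add_cancel, zpow_zero])
      exact Cfsg.Agent.Lib.LocalChar.le_pCore hN hNp (hwN (Subgroup.mem_zpowers w))
    exact (Cfsg.Agent.Lib.LocalChar.pCore_isPGroup).to_le hle
  refine ⟨hWc, hNormal, hP, ?_, ?_, ?_⟩
  · refine Set.Subset.antisymm ?_ (fun w hw => ⟨Subgroup.subset_closure hw, hw.1⟩)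
    rintro d ⟨hd, hdD⟩
    have key : ∀ b, ¬ Cfsg.OddAdj D d b := by
      intro b h
      have hq : d * (b * d * b⁻¹) ∈ Subgroup.closure W := mul_mem hd (hNormal.conj_mem d hd b)
      rw [show d * (b * d * b⁻¹) = (d * b) ^ 2 by
        rw [inv_self (hD.orderOf_eq b h.2.1), pow_two]; group] at hq
      obtain ⟨k, hk⟩ := hP ⟨_, hq⟩
      have hk' : ((d * b) ^ 2) ^ (2 ^ k) = 1 := congrArg Subtype.val hk
      rw [← pow_mul, ← pow_succ'] at hk'
      have hg := Nat.Coprime.eq_one_of_dvd (Nat.Coprime.pow_right (k + 1) (Nat.coprime_two_right.2 h.2.2.2))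
        (orderOf_dvd_of_pow_eq_one hk')
      rw [orderOf_eq_one_iff] at hg
      exact h.2.2.1 (by rw [eq_inv_of_mul_eq_one_left hg, inv_self (hD.orderOf_eq b h.2.1)])
    refine ⟨hdD, fun b => ⟨key b, fun h => ?_⟩⟩
    cases Relation.ReflTransGen.cases_head (reach_symm (Relation.ReflTransGen.single h)) with
    | inl e => exact h.2.2.1 e.symm
    | inr e => obtain ⟨y, hy, -⟩ := e; exact key y hy
  · intro a ha b hb hA hB hne
    have hcomm1 : a * b = b * a → a * b * a⁻¹ * b⁻¹ = 1 := fun h => by rw [h]; group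
    rcases hD.pair a ha b hb with h | h | ⟨h4, hc⟩
    · rw [hcomm1 h]; exact one_mem _
    · by_cases e : a = b
      · rw [hcomm1 (by rw [e])]; exact one_mem _
      · exact absurd (comp_eq (.single ⟨ha, hb, e, h⟩)) hne
    have ia := inv_self (hD.orderOf_eq a ha)
    have ib := inv_self (hD.orderOf_eq b hb)
    have sa := mul_self (hD.orderOf_eq a ha)
    have sb := mul_self (hD.orderOf_eq b hb)
    rw [show a * b * a⁻¹ * b⁻¹ = (a * b) ^ 2 by rw [ia, ib, pow_two]; group]
    refine Subgroup.subset_closure ?_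
    by_contra hcn
    apply hne
    have h44 : (a * b) ^ 4 = 1 := h4 ▸ pow_orderOf_eq_one _
    have hsw : (a * b) ^ 2 = (b * a) ^ 2 := by
      rw [show b * a = (a * b)⁻¹ by rw [mul_inv_rev, ia, ib], inv_pow]
      exact eq_inv_of_mul_eq_one_left (by rw [← pow_add]; exact h44)
    have hca : Commute a ((a * b) ^ 2) := by
      show _ = _
      rw [pow_two]
      calc a * (a * b * (a * b)) = b * a * b := by simp only [← mul_assoc, sa, one_mul]
        _ = (b * a) ^ 2 * a := by rw [pow_two]; simp only [mul_assoc, sa, mul_one]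
        _ = _ := by rw [← hsw, pow_two]
    have hcb : Commute b ((a * b) ^ 2) := by
      show _ = _
      rw [hsw, pow_two]
      calc b * (b * a * (b * a)) = a * b * a := by simp only [← mul_assoc, sb, one_mul]
        _ = (a * b) ^ 2 * b := by rw [pow_two]; simp only [mul_assoc, sb, mul_one]
        _ = _ := by rw [hsw, pow_two]
    refine comp_eq ((same_comp hD ha hc hca ?_ (not_isolated_of_comp hA) hcn).trans
      (reach_symm (same_comp hD hb hc hcb ?_ (not_isolated_of_comp hB) hcn)))
    · have := hD.conj_mem a ha b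
      rw [ib] at this
      rwa [show a * (a * b) ^ 2 = b * a * b by rw [pow_two]; simp only [← mul_assoc, sa, one_mul]]
    · have := hD.conj_mem b hb a
      rw [ia] at this
      rwa [show b * (a * b) ^ 2 = a * b * a by rw [hsw, pow_two]; simp only [← mul_assoc, sb, one_mul]]
  · intro a ha hA e he
    by_cases hi : Cfsg.IsIsolatedElem (Cfsg.OddAdj D) D e
    · exact Or.inr hi
    refine Or.inl ⟨he.1.1, ?_⟩
    have hec : Commute a e := (he.1.2.1).symm
    exact same_comp hD ha he.1.1 hec (hec.eq ▸ he.2) (not_isolated_of_comp hA) hi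

end Cfsg.Agent.S5045
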