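import Cfsg.Statements.S5046
import Cfsg.Agent.Lib.RootInvol.Twins

set_option autoImplicit false
open Cfsg

namespace Cfsg.Agent.S5046

theorem member_iff {G : Type*} [Group G] {D : Set G} (hD : Cfsg.IsRootInvolutionSet D) {d : G} (hd : d ∈ D) (x : G) :
    x ∈ commutingMembers D d ∪ fourPartners D d ↔ x ∈ D ∧ ¬ Lib.RootInvol.OddPair d x := by
  constructor
  · rintro (⟨hx, h⟩ | ⟨hx, h⟩)
    · exact ⟨hx, fun ho => Lib.RootInvol.oddPair_not_commute hD hd hx ho h.symm⟩
    · refine ⟨hx, fun ho => ?_⟩
      have := ho.2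
      rw [h] at this
      exact (by decide : ¬ Odd 4) this
  · rintro ⟨hx, h⟩
    by_cases hc : Commute d x
    · exact Or.inl ⟨hx, hc.eq.symm⟩
    · exact Or.inr ⟨hx, (Lib.RootInvol.four_case hD hd hx hc h).1⟩

/-- Let G be a finite group generated by a set D of root involutions whose odd-order-product graph is connected, and d ∈ D. Then the members e of D with the same commuting members as d are exactly those for which the union of the commuting members of d and the members whose product with d has order 4 equals the corresponding union for e. -/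
theorem result {G : Type*} [Group G] [Finite G] {D : Set G} (hD : Cfsg.IsRootInvolutionSet D)
    (hc : Cfsg.IsConnectedSet (Cfsg.OddAdj D) D) {d : G} (hd : d ∈ D) :
    Cfsg.sameCommutingClass D d =
      {e | e ∈ D ∧ Cfsg.commutingMembers D d ∪ Cfsg.fourPartners D d = Cfsg.commutingMembers D e ∪ Cfsg.fourPartners D e} := by
  have key : ∀ x : G, (x ∈ commutingMembers D d ∪ fourPartners D d ↔
      x ∈ D ∧ ¬ Lib.RootInvol.OddPair d x) := fun x => member_iff hD hd x
  ext e
  refine and_congr_right fun he => ?_
  constructor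
  · intro h
    have hde : ∀ x ∈ D, Commute x d ↔ Commute x e := fun x hx =>
      ⟨fun hh => ((Set.ext_iff.1 h x).1 ⟨hx, hh⟩).2, fun hh => ((Set.ext_iff.1 h x).2 ⟨hx, hh⟩).2⟩
    ext x
    rw [key, member_iff hD he]
    refine and_congr_right fun hx => not_congr
      ⟨Lib.RootInvol.sameCommuting_imp hD hd he hde hx,
        Lib.RootInvol.sameCommuting_imp hD he hd (fun y hy => (hde y hy).symm) hx⟩
  · intro h
    have htw : Lib.RootInvol.Twin D d e := fun x hx => by
      have := Set.ext_iff.1 h x
      rw [key, member_iff hD he] at this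
      exact not_iff_not.1 ⟨fun hh => (this.1 ⟨hx, hh⟩).2, fun hh => (this.2 ⟨hx, hh⟩).2⟩
    ext x
    exact ⟨fun hx => ⟨hx.1, Lib.RootInvol.twin_imp_sameCommuting hD hc he hd htw.symm hx.1 hx.2⟩,
      fun hx => ⟨hx.1, Lib.RootInvol.twin_imp_sameCommuting hD hc hd he htw hx.1 hx.2⟩⟩

end Cfsg.Agent.S5046
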