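import Cfsg.Statements.S5047
import Cfsg.Agent.Lib.RootInvol.Orbit

set_option autoImplicit false
open Cfsg

namespace Cfsg.Agent.S5047

open Cfsg.Agent.Lib.Involution Cfsg.Agent.Lib.RootInvol

section
variable {G : Type*} [Group G] [Finite G] {D : Set G} (hD : IsRootInvolutionSet D)
include hD

/-- `b` is the commutator of `a` and a suitable `g` commuting with `b` -/
theorem exists_comm {a b y : G} (ha : a ∈ D) (hb : b ∈ D) (hab : Commute a b) (habD : a * b ∈ D) (hy : y ∈ D)
    (hay : OddPair a y) (hby : ¬ OddPair b y) :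
    ∃ g ∈ D, Commute g b ∧ ¬ Commute g a ∧ ¬ OddPair g a ∧ g * (a * g * a) = b := by
  obtain ⟨-, hcomm, hone⟩ := orbit_facts hD ha hb hab habD hy hay hby
  set r := a * y with hr
  set n := orderOf r with hn
  have hnodd : Odd n := hay.2
  have hrn : r ^ n = 1 := pow_orderOf_eq_one r
  have hpos : 0 < n := orderOf_pos r
  have sa := d_sq hD ha
  have ia := d_inv hD ha
  have hy' : y = a * r := by rw [hr, ← mul_assoc, sa, one_mul]
  have hy'' : y = r⁻¹ * a := by
    have := congrArg (·⁻¹) hy'
    simpa [d_inv hD hy, ia] using this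
  have hcr : ∀ i : ℕ, a * r ^ i * a = (r ^ i)⁻¹ := by
    intro i
    calc a * r ^ i * a = a * r ^ i * a⁻¹ := by rw [ia]
      _ = (a * r * a⁻¹) ^ i := conj_pow.symm
      _ = (r⁻¹) ^ i := by
        congr 1
        exact conj_prod (hD.orderOf_eq a ha) (hD.orderOf_eq y hy)
      _ = (r ^ i)⁻¹ := inv_pow r i
  let bb : ℕ → G := fun i => (r ^ i)⁻¹ * b * r ^ i
  have hbbD : ∀ i, bb i ∈ D := fun i => by
    have := hD.conj_mem b hb (r ^ i)⁻¹
    rwa [inv_inv] at this
  set V := Subgroup.closure (Set.range bb) with hV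
  have hbV : b ∈ V := Subgroup.subset_closure ⟨0, by simp [bb]⟩
  have hgen : ∀ u ∈ V, ∀ l, Commute u (bb l) := by
    intro u hu l
    induction hu using Subgroup.closure_induction with
    | mem x hx => obtain ⟨k, rfl⟩ := hx; exact hcomm k l
    | one => exact Commute.one_left _
    | mul x z _ _ h1 h2 => exact h1.mul_left h2
    | inv x _ h1 => exact h1.inv_left
  have hVc : ∀ u ∈ V, ∀ v ∈ V, Commute u v := by
    intro u hu v hv
    induction hv using Subgroup.closure_induction with
    | mem x hx => obtain ⟨k, rfl⟩ := hx; exact hgen u hu k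
    | one => exact Commute.one_right _
    | mul x z _ _ h1 h2 => exact h1.mul_right h2
    | inv x _ h1 => exact h1.inv_right
  have hVsq : ∀ u ∈ V, u * u = 1 := by
    intro u hu
    induction hu using Subgroup.closure_induction with
    | mem x hx => obtain ⟨k, rfl⟩ := hx; exact d_sq hD (hbbD k)
    | one => simp
    | mul x z hx hz h1 h2 => rw [(hVc z hz x hx).mul_mul_mul_comm, h1, h2, one_mul]
    | inv x _ h1 => rw [← mul_inv_rev, h1, inv_one]
  have hVmap : ∀ (p q : G), (∀ l, ∃ k, p * bb l * q = bb k) → q * p = 1 → ∀ u ∈ V, p * u * q ∈ V := by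
    intro p q hl hqp u hu
    induction hu using Subgroup.closure_induction with
    | mem x hx =>
      obtain ⟨k, rfl⟩ := hx
      obtain ⟨k', hk'⟩ := hl k
      exact hk' ▸ Subgroup.subset_closure ⟨k', rfl⟩
    | one => rw [mul_one, mul_eq_one_comm.1 hqp]; exact one_mem _
    | mul x z _ _ h1 h2 =>
      rw [show p * (x * z) * q = (p * x * q) * (p * z * q) by
        rw [show p * x * q * (p * z * q) = p * x * (q * p) * z * q by group, hqp]; group]
      exact mul_mem h1 h2
    | inv x _ h1 =>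
      rw [show p * x⁻¹ * q = (q⁻¹ * x * p⁻¹)⁻¹ by group, eq_inv_of_mul_eq_one_right hqp, inv_inv,
        inv_eq_of_mul_eq_one_right hqp]
      exact inv_mem h1
  have hconjR : ∀ u ∈ V, r⁻¹ * u * r ∈ V := hVmap _ _ (fun l => ⟨l + 1, by
    show r⁻¹ * ((r ^ l)⁻¹ * b * r ^ l) * r = (r ^ (l + 1))⁻¹ * b * r ^ (l + 1)
    rw [pow_succ]; group⟩) (mul_inv_cancel r)
  have hconjR' : ∀ u ∈ V, r * u * r⁻¹ ∈ V := hVmap _ _ (fun l => ⟨l + (n - 1), by
    show r * ((r ^ l)⁻¹ * b * r ^ l) * r⁻¹ = (r ^ (l + (n - 1)))⁻¹ * b * r ^ (l + (n - 1))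
    have e : r ^ (n - 1) = r⁻¹ := eq_inv_of_mul_eq_one_left (by rw [← pow_succ, Nat.sub_add_cancel hpos, hrn])
    rw [pow_add, e]; group⟩) (inv_mul_cancel r)
  have hfix : ∀ u ∈ V, Commute u r → u = 1 := by
    have hN : ∀ i : ℕ, ∀ u ∈ V, (u * r) ^ i * (r ^ i)⁻¹ ∈ V ∧
        ∀ v ∈ V, (u * v * r) ^ i * (r ^ i)⁻¹ = (u * r) ^ i * (r ^ i)⁻¹ * ((v * r) ^ i * (r ^ i)⁻¹) := by
      intro i
      induction i with
      | zero => intro u _; simp [one_mem]
      | succ k ih =>
        intro u hu
        have step : ∀ w : G, (w * r) ^ (k + 1) * (r ^ (k + 1))⁻¹ =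
            ((w * r) ^ k * (r ^ k)⁻¹) * (r ^ k * w * (r ^ k)⁻¹) := by
          intro w; rw [pow_succ, pow_succ]; group
        have hk' : ∀ w ∈ V, r ^ k * w * (r ^ k)⁻¹ ∈ V := by
          clear ih step
          induction k with
          | zero => intro w hw; simpa using hw
          | succ j ihj =>
            intro w hw
            rw [show r ^ (j + 1) * w * (r ^ (j + 1))⁻¹ = r ^ j * (r * w * r⁻¹) * (r ^ j)⁻¹ by rw [pow_succ]; group]
            exact ihj _ (hconjR' w hw)
        refine ⟨?_, fun v hv => ?_⟩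
        · rw [step]; exact mul_mem (ih u hu).1 (hk' u hu)
        · rw [step, step, step, (ih u hu).2 v hv]
          have e : r ^ k * (u * v) * (r ^ k)⁻¹ = (r ^ k * u * (r ^ k)⁻¹) * (r ^ k * v * (r ^ k)⁻¹) := by group
          rw [e]
          exact (hVc _ (ih v hv).1 _ (hk' u hu)).mul_mul_mul_comm _ _
    have hNn : ∀ u ∈ V, (u * r) ^ n = 1 := by
      intro u hu
      induction hu using Subgroup.closure_induction with
      | mem x hx =>
        obtain ⟨k, rfl⟩ := hx
        rw [show bb k * r = (r ^ k)⁻¹ * (b * r) * (r ^ k)⁻¹⁻¹ by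
          show (r ^ k)⁻¹ * b * r ^ k * r = _
          rw [mul_assoc _ (r ^ k) r, (Commute.pow_self r k).eq]; group, conj_pow, hone]
        group
      | one => rw [one_mul, hrn]
      | mul x z hx hz h1 h2 =>
        have := (hN n x hx).2 z hz
        simpa [h1, h2, hrn] using this
      | inv x hx h1 => rwa [inv_eq_of_mul_eq_one_right (hVsq x hx)]
    intro u hu hc
    have h1 : u ^ n = 1 := by
      have := hNn u hu
      rwa [hc.mul_pow, hrn, mul_one] at this
    exact eq_one_of_mul_self_of_odd (hnodd.of_dvd_nat (orderOf_dvd_of_pow_eq_one h1)) (hVsq u hu)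
  let K : G → G := fun u => r⁻¹ * u * r * (r * u * r⁻¹)
  have hKinj : ∀ u ∈ V, ∀ v ∈ V, K u = K v → u = v := by
    intro u hu v hv h
    have hw : u * v ∈ V := mul_mem hu hv
    have hKm : K (u * v) = K u * K v := by
      show r⁻¹ * (u * v) * r * (r * (u * v) * r⁻¹) = _
      rw [show r⁻¹ * (u * v) * r = (r⁻¹ * u * r) * (r⁻¹ * v * r) by group,
        show r * (u * v) * r⁻¹ = (r * u * r⁻¹) * (r * v * r⁻¹) by group]
      exact (hVc _ (hconjR v hv) _ (hconjR' u hu)).mul_mul_mul_comm _ _
    have hK1 : K (u * v) = 1 := by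
      rw [hKm, h]
      exact hVsq _ (mul_mem (hconjR v hv) (hconjR' v hv))
    have e : r⁻¹ * (u * v) * r = r * (u * v) * r⁻¹ := by
      have h1 := eq_inv_of_mul_eq_one_left hK1
      rwa [inv_eq_of_mul_eq_one_right (hVsq _ (hconjR' _ hw))] at h1
    have h2 : Commute (u * v) (r ^ 2) := by
      show u * v * r ^ 2 = r ^ 2 * (u * v)
      calc u * v * r ^ 2 = r * (r⁻¹ * (u * v) * r) * r := by rw [pow_two]; group
        _ = r ^ 2 * (u * v) := by rw [e, pow_two]; group
    obtain ⟨h0, hh0⟩ := hnodd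
    have h3 : Commute (u * v) r := by
      have := h2.pow_right (h0 + 1)
      rwa [← pow_mul, show 2 * (h0 + 1) = n + 1 by omega, pow_succ, hrn, one_mul] at this
    rw [eq_inv_of_mul_eq_one_left (hfix _ hw h3), inv_eq_of_mul_eq_one_right (hVsq v hv)]
  have hstep : ∀ t, t ∈ D → t ∈ V → Commute a t → a * t ∈ D → ¬ OddPair y t →
      ∃ g ∈ D, g ∈ V ∧ ¬ Commute g a ∧ ¬ OddPair g a ∧ K t = g * (a * g * a) ∧ K t ∈ D ∧ Commute a (K t) ∧
        a * K t ∈ D ∧ ¬ OddPair y (K t) := by
    intro t htD htV hat hatD hyt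
    have htaD : t * a ∈ D := hat.eq ▸ hatD
    have nty : ¬ Commute t y := fun h =>
      not_odd_of_commute hD htD ha hat.symm htaD hy h.symm (hay.symm' hD ha hy)
    have nyt : ¬ OddPair t y := fun h => hyt (h.symm' hD htD hy)
    obtain ⟨-, -, cyt, -⟩ := four_case hD htD hy nty nyt
    have hgD : t * (y * t * y) ∈ D := (sq_eq hD htD hy nty nyt).1
    have eyty : y * t * y = r⁻¹ * t * r := by
      calc y * t * y = (r⁻¹ * a) * t * (a * r) := by nth_rw 1 [hy'']; rw [hy']
        _ = r⁻¹ * ((a * t) * a) * r := by group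
        _ = r⁻¹ * t * r := by rw [hat.eq, mul_assoc t a a, sa, mul_one]
    have hytyV : y * t * y ∈ V := eyty ▸ hconjR t htV
    set g := t * (y * t * y) with hg
    have hgV : g ∈ V := mul_mem htV hytyV
    have hgy : Commute y g := by
      show y * (t * (y * t * y)) = t * (y * t * y) * y
      rw [← cyt.eq]
      calc y * (y * t * y * t) = (y * y) * (t * y * t) := by group
        _ = (t * y * t) * (y * y) := by rw [d_sq hD hy, one_mul, mul_one]
        _ = (t * (y * t * y)) * y := by group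
        _ = _ := by rw [← cyt.eq]
    have hKg : K t = g * (a * g * a) := by
      have e2 : a * (y * t * y) * a = r * t * r⁻¹ := by
        rw [eyty]
        calc a * (r⁻¹ * t * r) * a = (a * r⁻¹) * t * (r * a) := by group
          _ = (r * a) * t * (a * r⁻¹) := by
            have h1 : a * r⁻¹ = r * a := by
              have := hcr 1; rw [pow_one] at this
              rw [← this, ← mul_assoc, ← mul_assoc, sa, one_mul]
            rw [h1, ← h1]
          _ = r * ((a * t) * a) * r⁻¹ := by group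
          _ = r * t * r⁻¹ := by rw [hat.eq, mul_assoc t a a, sa, mul_one]
      show r⁻¹ * t * r * (r * t * r⁻¹) = _
      rw [← e2, ← eyty]
      calc y * t * y * (a * (y * t * y) * a) = t * t * (y * t * y * (a * (y * t * y) * a)) := by
            rw [d_sq hD htD, one_mul]
        _ = t * (t * (y * t * y)) * (a * (y * t * y) * a) := by group
        _ = t * ((y * t * y) * t) * (a * (y * t * y) * a) := by rw [cyt.eq]
        _ = g * ((a * a) * t * (a * (y * t * y) * a)) := by rw [sa, one_mul, hg]; group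
        _ = g * (a * (t * (a * a)) * (y * t * y) * a) := by
            congr 1
            calc (a * a) * t * (a * (y * t * y) * a) = a * (a * t) * a * (y * t * y) * a := by group
              _ = _ := by rw [hat.eq]; group
        _ = g * (a * g * a) := by rw [sa, mul_one, hg]; group
    have hgt : Commute g t := (Commute.refl t).mul_left cyt
    have nga : ¬ Commute g a := fun h => by
      apply ne_one (hD.orderOf_eq t htD)
      refine hKinj t htV 1 (one_mem _) ?_
      rw [hKg, show a * g * a = g by rw [← h.eq, mul_assoc, sa, mul_one], d_sq hD hgD]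
      simp [K]
    have oga : ¬ OddPair g a := not_odd_of_commute hD htD ha hat.symm htaD hgD hgt
    obtain ⟨-, -, c1, c2⟩ := four_case hD hgD ha nga oga
    obtain ⟨m1, m2, m3⟩ := sq_eq hD hgD ha nga oga
    have e3 : a * (g * (a * g * a)) = g * a * g := by
      rw [m3, ← mul_assoc a (g * a * g) a, ← c2.eq, mul_assoc, sa, mul_one]
    refine ⟨g, hgD, hgV, nga, oga, hKg, hKg ▸ m1, ?_, ?_, ?_⟩
    · rw [hKg, m3]; exact c2.symm.mul_right (Commute.refl a)
    · rw [hKg, e3]; exact d_conj hD ha hgD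
    · rw [hKg]
      refine not_odd_of_commute hD hgD m1 ((Commute.refl g).mul_right c1.symm) ?_ hy hgy
      rw [← mul_assoc g g, d_sq hD hgD, one_mul]
      exact d_conj hD hgD ha
  let S := {t : G // t ∈ D ∧ t ∈ V ∧ Commute a t ∧ a * t ∈ D ∧ ¬ OddPair y t}
  have hmap : ∀ t : S, K t.1 ∈ D ∧ K t.1 ∈ V ∧ Commute a (K t.1) ∧ a * K t.1 ∈ D ∧ ¬ OddPair y (K t.1) := by
    rintro ⟨t, h1, h2, h3, h4, h5⟩
    obtain ⟨g, -, -, -, -, -, k1, k2, k3, k4⟩ := hstep t h1 h2 h3 h4 h5
    exact ⟨k1, mul_mem (hconjR t h2) (hconjR' t h2), k2, k3, k4⟩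
  let F : S → S := fun t => ⟨K t.1, hmap t⟩
  have hF : Function.Surjective F :=
    Finite.injective_iff_surjective.1 (fun u v h => Subtype.ext (hKinj _ u.2.2.1 _ v.2.2.1 (congrArg Subtype.val h)))
  obtain ⟨⟨t, h1, h2, h3, h4, h5⟩, ht⟩ := hF ⟨b, hb, hbV, hab, habD, fun h => hby (h.symm' hD hy hb)⟩
  obtain ⟨g, gD, gV, g1, g2, g3, -⟩ := hstep t h1 h2 h3 h4 h5
  exact ⟨g, gD, hVc g gV b hbV, g1, g2, g3.symm.trans (congrArg Subtype.val ht)⟩

/-- criterion for order three -/
theorem order_three {a b z g : G} (ha : a ∈ D) (hb : b ∈ D) (hab : Commute a b) (habD : a * b ∈ D) (hz : z ∈ D)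
    (haz : OddPair a z) (hg : z * b * z = b * g) (hgb : Commute g b) (hga : g * (a * g * a) = b) :
    orderOf (a * z) = 3 := by
  have sa := d_sq hD ha
  have sb := d_sq hD hb
  set r := a * z with hr
  have hz' : z = a * r := by rw [hr, ← mul_assoc, sa, one_mul]
  have hz'' : z = r⁻¹ * a := by
    have := congrArg (·⁻¹) hz'
    simpa [d_inv hD hz, d_inv hD ha] using this
  have haba : a * b * a = b := by rw [hab.eq, mul_assoc, sa, mul_one]
  have e1 : r⁻¹ * b * r = b * g := by
    rw [← hg]
    calc r⁻¹ * b * r = r⁻¹ * (a * b * a) * r := by rw [haba]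
      _ = (r⁻¹ * a) * b * (a * r) := by group
      _ = z * b * z := by rw [← hz'', ← hz']
  have e2 : r * b * r⁻¹ = b * (a * g * a) := by
    have h1 : r = a * z := hr
    rw [h1, mul_inv_rev, d_inv hD hz, d_inv hD ha, show a * z * b * (z * a) = a * (z * b * z) * a by group, hg]
    conv_rhs => rw [← haba]
    rw [show a * b * a * (a * g * a) = a * b * (a * a) * g * a by group, sa]
    group
  have e3 : (r⁻¹ * b * r) * (r * b * r⁻¹) = b := by
    rw [e1, e2, ← hgb.eq, mul_assoc g b, ← mul_assoc b b, sb, one_mul, hga]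
  have e5 : b * (r * (r * b * r⁻¹) * r⁻¹) = r * b * r⁻¹ := by
    calc b * (r * (r * b * r⁻¹) * r⁻¹) = r * ((r⁻¹ * b * r) * (r * b * r⁻¹)) * r⁻¹ := by group
      _ = r * b * r⁻¹ := by rw [e3]
  have e6 : r * (r * b * r⁻¹) * r⁻¹ = r⁻¹ * b * r := by
    have h1 : r * b * r⁻¹ = b * (a * g * a) := e2
    calc r * (r * b * r⁻¹) * r⁻¹ = b * (b * (r * (r * b * r⁻¹) * r⁻¹)) := by rw [← mul_assoc b b, sb, one_mul]
      _ = b * (b * (a * g * a)) := by rw [e5, h1]
      _ = b * g := by
        rw [← mul_assoc b b, sb, one_mul]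
        calc a * g * a = g * (g * (a * g * a)) := by
              have sgg : g * g = 1 := by
                have h2 : b * g * (b * g) = 1 := by
                  rw [← hg, show z * b * z * (z * b * z) = z * (b * ((z * z) * b)) * z by group,
                    d_sq hD hz, one_mul, sb, mul_one, d_sq hD hz]
                rwa [hgb.mul_mul_mul_comm, sb, one_mul] at h2
              rw [← mul_assoc, sgg, one_mul]
          _ = g * b := by rw [hga]
          _ = b * g := hgb.eq
      _ = r⁻¹ * b * r := e1.symm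
  have e7 : Commute (r ^ 3) b := by
    show r ^ 3 * b = b * r ^ 3
    calc r ^ 3 * b = r * (r * (r * b * r⁻¹) * r⁻¹) * r⁻¹ * r ^ 3 := by rw [pow_succ, pow_two]; group
      _ = b * r ^ 3 := by rw [e6]; group
  have hr3 : r ^ 3 = 1 := by
    by_contra hne
    have hodd : Odd (orderOf r) := haz.2
    obtain ⟨h0, hh0⟩ := hodd
    have hrn : r ^ orderOf r = 1 := pow_orderOf_eq_one r
    have hinv : a * r ^ (3 * (h0 + 1)) = (r ^ (3 * (h0 + 1)))⁻¹ * a := by
      have h1 : a * r * a⁻¹ = r⁻¹ := conj_prod (hD.orderOf_eq a ha) (hD.orderOf_eq z hz)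
      rw [← inv_pow, ← h1, conj_pow, inv_mul_cancel_right]
    have hwD : a * r ^ 3 ∈ D := by
      have := hD.conj_mem a ha (r ^ (3 * (h0 + 1)))⁻¹
      rwa [inv_inv, ← hinv, mul_assoc, ← pow_add, show 3 * (h0 + 1) + 3 * (h0 + 1) = orderOf r * 3 + 3 by omega,
        pow_add, pow_mul, hrn, one_pow, one_mul] at this
    have ho : OddPair a (a * r ^ 3) := by
      refine ⟨fun h => hne (by simpa using h), ?_⟩
      rw [← mul_assoc, sa, one_mul]
      exact haz.2.of_dvd_nat (orderOf_pow_dvd 3)
    exact not_odd_of_commute hD hb ha hab.symm (hab.eq ▸ habD) hwD (hab.mul_left e7) (ho.symm' hD ha hwD)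
  haveI : Fact (Nat.Prime 3) := ⟨Nat.prime_three⟩
  refine orderOf_eq_prime hr3 fun h => haz.1 ?_
  rw [eq_inv_of_mul_eq_one_left h, d_inv hD hz]

omit [Finite G] in
theorem not_odd_aux {a b z g : G} (ha : a ∈ D) (hb : b ∈ D) (hab : Commute a b) (hz : z ∈ D) (hg : g ∈ D)
    (hzg : Commute g z) (hgb : Commute g b) (hga : g * (a * g * a) = b) (hnga : ¬ Commute g a)
    (hzb : z * b * z = b * g) : OddPair a z := by
  by_contra ho
  have sa := d_sq hD ha
  have sb := d_sq hD hb
  have sz := d_sq hD hz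
  have sg := d_sq hD hg
  by_cases hc : Commute a z
  · -- then `z` centralizes `b`
    have hzag : Commute z (a * g * a) := (hc.symm.mul_right hzg.symm).mul_right hc.symm
    have hzb' : Commute z b := hga ▸ hzg.symm.mul_right hzag
    rw [hzb'.eq, mul_assoc, sz, mul_one] at hzb
    exact hnga ((mul_left_cancel (a := b) (show b * g = b * 1 by rw [← hzb, mul_one])) ▸ Commute.one_left a)
  obtain ⟨-, -, c1, c2⟩ := four_case hD ha hz hc ho
  obtain ⟨m1, -, m3⟩ := sq_eq hD ha hz hc ho
  set h := a * (z * a * z) with hh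
  have hha : Commute h a := (Commute.refl a).mul_left c1
  have hzaz : z * a * z = a * h := by rw [hh, ← mul_assoc a a, sa, one_mul]
  have hbg : g * b = a * g * a := by
    conv_lhs => rw [← hga, ← mul_assoc, sg, one_mul]
  have eab : g * a * g = a * b := by
    calc g * a * g = g * (a * g * a) * a := by rw [show g * (a * g * a) * a = g * a * g * (a * a) by group, sa, mul_one]
      _ = b * a := by rw [hga]
      _ = a * b := hab.eq.symm
  have e1 : z * (a * b) * z = (a * h) * (b * g) := by
    rw [← hzaz, ← hzb, show z * a * z * (z * b * z) = z * a * (z * z) * b * z by group, sz, mul_one, ← mul_assoc z a b]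
  have e2 : z * (a * b) * z = g * (a * h) * g := by
    rw [← eab, show z * (g * a * g) * z = (z * g) * a * (g * z) by group, ← hzg.eq, ← hzaz]
    nth_rw 2 [hzg.eq]
    group
  have e4 : h * b = b * g * h := by
    have h1 : a * (h * b) = g * a * h := by
      have h2 := congrArg (· * g) (e1.symm.trans e2)
      simp only [mul_assoc, sg, mul_one] at h2
      rw [mul_assoc g a h]
      exact h2
    calc h * b = (a * a) * (h * b) := by rw [sa, one_mul]
      _ = a * (g * a * h) := by rw [mul_assoc, h1]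
      _ = (a * g * a) * h := by group
      _ = g * b * h := by rw [hbg]
      _ = b * g * h := by rw [hgb.eq]
  have e5 : g = b * (h * b) * h := by
    calc g = (b * b) * g * (h * h) := by rw [sb, d_sq hD m1, one_mul, mul_one]
      _ = b * (b * g * h) * h := by group
      _ = b * (h * b) * h := by rw [e4]
  apply hnga
  rw [e5]
  exact (hab.symm.mul_left (hha.mul_left hab.symm)).mul_left hha

theorem exists_separating (hc : IsConnectedSet (OddAdj D) D) {a b : G} (ha : a ∈ D) (hb : b ∈ D)
    (h : ¬ Twin D a b) : ∃ y ∈ D, OddPair a y ∧ ¬ OddPair b y := by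
  by_contra hcon
  push Not at hcon
  obtain ⟨g, hg⟩ := isConj_of_connected hD hc ha hb
  let A : G → Set G := fun x => {z | z ∈ D ∧ OddPair x z}
  have himg : A b = (fun z => g * z * g⁻¹) '' A a := by
    ext z
    constructor
    · rintro ⟨hz, ho⟩
      refine ⟨g⁻¹ * z * g, ⟨by simpa using hD.conj_mem z hz g⁻¹, ?_⟩, by group⟩
      have := ho.conj g⁻¹
      rw [← hg] at this
      simpa [mul_assoc] using this
    · rintro ⟨w, ⟨hw, ho⟩, rfl⟩
      exact ⟨hD.conj_mem w hw g, hg ▸ ho.conj g⟩
  have heq : A a = A b := by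
    refine Set.eq_of_subset_of_ncard_le (fun z hz => ⟨hz.1, hcon z hz.1 hz.2⟩) ?_ (Set.toFinite _)
    rw [himg, Set.ncard_image_of_injective _ (fun u v e => by simpa using e)]
  refine h fun z hz => ?_
  have := Set.ext_iff.1 heq z
  exact ⟨fun ho => (this.1 ⟨hz, ho⟩).2, fun ho => (this.2 ⟨hz, ho⟩).2⟩

end

/-- Let G be a finite group generated by a set D of root involutions whose odd-order-product graph is connected, a ∈ D, and b a member of D different from a, commuting with a, with ab ∈ D, but not having the same commuting members as a. Then some member x of D with bx of order 4 has ax of order 3. -/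
theorem result {G : Type*} [Group G] [Finite G] {D : Set G} (hD : Cfsg.IsRootInvolutionSet D)
    (hc : Cfsg.IsConnectedSet (Cfsg.OddAdj D) D) {a b : G} (ha : a ∈ D) (hb : b ∈ Cfsg.productPartners D a)
    (hbE : b ∉ Cfsg.sameCommutingClass D a) : ∃ x ∈ Cfsg.fourPartners D b, orderOf (a * x) = 3 := by
  obtain ⟨⟨hbD, hba, hne⟩, hbaD⟩ := hb
  have hab : Commute a b := hba.symm
  have habD : a * b ∈ D := hba ▸ hbaD
  have hnt : ¬ Twin D a b := fun h => hbE ⟨hbD, Set.ext fun x =>
    ⟨fun hx => ⟨hx.1, twin_imp_sameCommuting hD hc hbD ha h.symm hx.1 hx.2⟩,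
      fun hx => ⟨hx.1, twin_imp_sameCommuting hD hc ha hbD h hx.1 hx.2⟩⟩⟩
  obtain ⟨y, hy, hay, hby⟩ := exists_separating hD hc ha hbD hnt
  obtain ⟨g, hg, hgb, hnga, hoga, hga⟩ := exists_comm hD ha hbD hab habD hy hay hby
  have hbg : g * b = a * g * a := by
    conv_lhs => rw [← hga, ← mul_assoc, d_sq hD hg, one_mul]
  have hbgD : b * g ∈ D := by rw [← hgb.eq, hbg]; exact d_conj hD hg ha
  have hnt2 : ¬ Twin D b g := fun h =>
    hnga (twin_imp_sameCommuting hD hc hg hbD h.symm ha hab).symm
  obtain ⟨y2, hy2, hby2, hgy2⟩ := exists_separating hD hc hbD hg hnt2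
  obtain ⟨z, hz, hzg, hnzb, hozb, hzb⟩ := exists_comm hD hbD hg hgb.symm hbgD hy2 hby2 hgy2
  have hzbz : z * b * z = b * g := by
    rw [← hgb.eq, ← hzb, show z * (b * z * b) * b = z * b * z * (b * b) by group, d_sq hD hbD, mul_one]
  have haz : OddPair a z := not_odd_aux hD ha hbD hab hz hg hzg.symm hgb hga hnga hzbz
  refine ⟨z, ⟨hz, ?_⟩, order_three hD ha hbD hab habD hz haz hzbz hgb hga⟩
  exact (four_case hD hbD hz (fun h => hnzb h.symm) (fun h => hozb (h.symm' hD hbD hz))).1

end Cfsg.Agent.S5047
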