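import Cfsg.Statements.S5048
import Cfsg.Agent.Lib.RootInv.Simple

set_option autoImplicit false
open Cfsg
open scoped commutatorElement

namespace Cfsg.Agent.S5048

/-- Let G be a finite group generated by a set D of root involutions whose odd-order-product graph is connected, with some product of two different commuting members of D again in D. Then the largest solvable normal subgroup of G is the preimage of the centre of G/O₂(G), and the quotient of G by it is a simple group. -/
theorem result {G : Type*} [Group G] [Finite G] {D : Set G} (hD : Cfsg.IsRootInvolutionSet D)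
    (hc : Cfsg.IsConnectedSet (Cfsg.OddAdj D) D) (hDD : (D ∩ Cfsg.commutingProducts D).Nonempty) :
    Cfsg.solvableRadical G = Cfsg.twoZCore G ∧ IsSimpleGroup (G ⧸ Cfsg.twoZCore G) := by
  haveI : (Cfsg.pCore 2 G).Normal := Lib.LocalChar.pCore_normal
  have hperf := Lib.RootInv.commutator_eq_top hD hc hDD
  have hnt : (⊤ : Subgroup G) ≠ ⊥ := by
    obtain ⟨c, hcD, -⟩ := hDD
    intro h
    exact Lib.RootInv.mem_ne_one hD hcD (Subgroup.mem_bot.1 (h ▸ Subgroup.mem_top c))
  have hnsol : ¬ Group.IsSolvable G := by
    intro h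
    obtain ⟨n, hn⟩ := (Group.isSolvable_def G).1 h
    have : ∀ m, derivedSeries G m = ⊤ := by
      intro m
      induction m with
      | zero => rfl
      | succ m ih => rw [derivedSeries_succ, ih]; exact hperf
    exact hnt ((this n).symm.trans hn)
  have hsolR : Group.IsSolvable ↥(Cfsg.twoZCore G) := by
    haveI h1 : Group.IsNilpotent ↥(Cfsg.pCore 2 G) :=
      (Lib.LocalChar.pCore_isPGroup (p := 2) (G := G)).isNilpotent
    haveI : Group.IsSolvable ↥(Cfsg.pCore 2 G) := inferInstance
    let f := ((QuotientGroup.mk' (Cfsg.pCore 2 G)).comp (Cfsg.twoZCore G).subtype).codRestrict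
      (Subgroup.center (G ⧸ Cfsg.pCore 2 G)) (fun x => x.2)
    haveI : Group.IsSolvable ↥(Subgroup.center (G ⧸ Cfsg.pCore 2 G)) :=
      Group.isSolvable_of_comm fun a b => Subtype.ext ((Subgroup.mem_center_iff.1 b.2) a.1)
    have hle : Cfsg.pCore 2 G ≤ Cfsg.twoZCore G := fun x hx => by
      show QuotientGroup.mk' _ x ∈ Subgroup.center _
      rw [QuotientGroup.mk'_apply, (QuotientGroup.eq_one_iff x).2 hx]
      exact one_mem _
    refine Group.isSolvable_of_ker_le_range (Subgroup.inclusion hle) f fun x hx => ?_
    have h2 : QuotientGroup.mk' (Cfsg.pCore 2 G) x.1 = 1 := congrArg Subtype.val hx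
    exact ⟨⟨x.1, (QuotientGroup.eq_one_iff _).1 h2⟩, rfl⟩
  have hne : Cfsg.twoZCore G ≠ ⊤ := by
    intro h
    rw [h] at hsolR
    exact hnsol (Group.isSolvable_of_surjective (f := (Subgroup.topEquiv : (⊤ : Subgroup G) ≃* G).toMonoidHom)
      (Subgroup.topEquiv : (⊤ : Subgroup G) ≃* G).surjective)
  constructor
  · refine le_antisymm (sSup_le ?_) (le_sSup ⟨inferInstance, hsolR⟩)
    rintro N ⟨hN, hs⟩
    haveI := hN
    rcases Lib.RootInv.normal_cases hD hc hDD N with h | h
    · subst h
      exact absurd (Group.isSolvable_of_surjective (f := (Subgroup.topEquiv : (⊤ : Subgroup G) ≃* G).toMonoidHom)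
        (Subgroup.topEquiv : (⊤ : Subgroup G) ≃* G).surjective) hnsol
    · exact h
  · haveI : Nontrivial (G ⧸ Cfsg.twoZCore G) := QuotientGroup.nontrivial_iff.2 hne
    refine IsSimpleGroup.mk fun M hM => ?_
    haveI : (M.comap (QuotientGroup.mk' (Cfsg.twoZCore G))).Normal := hM.comap _
    rcases Lib.RootInv.normal_cases hD hc hDD (M.comap (QuotientGroup.mk' (Cfsg.twoZCore G))) with h | h
    · right
      rw [← Subgroup.map_comap_eq_self_of_surjective (QuotientGroup.mk'_surjective _) M, h]
      exact Subgroup.map_top_of_surjective _ (QuotientGroup.mk'_surjective _)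
    · left
      rw [eq_bot_iff]
      intro x hx
      obtain ⟨z, rfl⟩ := QuotientGroup.mk'_surjective _ x
      rw [Subgroup.mem_bot, QuotientGroup.mk'_apply, QuotientGroup.eq_one_iff]
      exact h hx

end Cfsg.Agent.S5048
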