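import Cfsg.Statements.S5049
import Cfsg.Agent.Lib.Components.Cores
-- import your own Cfsg.Agent.* helpers here

set_option autoImplicit false
open Cfsg

namespace Cfsg.Agent.S5049

/-- Let G be a finite group generated by a set D of odd transpositions (root involutions with no product of order 4), Q = O₂(G), and for a ∈ D let Q_a be the commutator subgroup of Q with a. Then every member of D commuting with a centralizes Q_a; and for b ∈ D with ab of odd order greater than 1, the centralizer of ab in Q is the intersection of the centralizers of a and b in Q. -/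
theorem result {G : Type*} [Group G] [Finite G] {D : Set G} (hD : Cfsg.IsOddTranspositionSet D) {a : G} (ha : a ∈ D) :
    (∀ e ∈ Cfsg.commutingMembers D a, ∀ q ∈ ⁅Cfsg.pCore 2 G, Subgroup.zpowers a⁆, e * q = q * e) ∧
    (∀ b ∈ Cfsg.oddPartners D a,
      Cfsg.pCore 2 G ⊓ Subgroup.centralizer {a * b} = Cfsg.pCore 2 G ⊓ Subgroup.centralizer {a} ⊓ Subgroup.centralizer {b}) := by
  obtain ⟨hR, h4⟩ := hD
  set P := pCore 2 G with hP
  have hPn : P.Normal := pCore_normal 2 G
  have hP2 : IsPGroup 2 P := Lib.Components.pCore_isPGroup 2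
  have hinv : ∀ d ∈ D, d * d = 1 := fun d hd => by rw [← pow_two, ← hR.orderOf_eq d hd, pow_orderOf_eq_one]
  have hinv' : ∀ d ∈ D, d⁻¹ = d := fun d hd => inv_eq_of_mul_eq_one_right (hinv d hd)
  -- 2-elements are coprime to odd powers
  have two_odd : ∀ y : G, y ∈ P → ∀ n : ℕ, Odd n → y ^ n = 1 → y = 1 := by
    intro y hy n hn hyn
    obtain ⟨k, hk⟩ := hP2 ⟨y, hy⟩
    have h1 := orderOf_dvd_of_pow_eq_one hyn
    have h2 : orderOf y ∣ 2 ^ k := orderOf_dvd_of_pow_eq_one (congrArg Subtype.val hk)
    have h3 := Nat.dvd_gcd h2 h1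
    rw [((Nat.coprime_two_left.mpr hn).pow_left k).gcd_eq_one, Nat.dvd_one, orderOf_eq_one_iff] at h3
    exact h3
  -- two members whose product squares into `P` commute
  have hcomm : ∀ u ∈ D, ∀ v ∈ D, (u * v) ^ 2 ∈ P → u * v = v * u := by
    intro u hu v hv h
    rcases hR.pair u hu v hv with h' | h' | ⟨h', -⟩
    · exact h'
    · have h2 : (u * v) ^ 2 = 1 := two_odd _ h _ h' (by rw [← pow_mul, mul_comm, pow_mul, pow_orderOf_eq_one, one_pow])
      rw [pow_two] at h2
      rw [eq_inv_of_mul_eq_one_left h2, mul_inv_rev, hinv' u hu, hinv' v hv]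
    · exact absurd h' (h4 u hu v hv)
  have hcomm' : ∀ u ∈ D, ∀ v ∈ D, ∀ q ∈ P, u * v = v * u → u * (q * v * q⁻¹) = q * v * q⁻¹ * u := by
    intro u hu v hv q hq huv
    refine hcomm u hu _ (hR.conj_mem v hv q) ?_
    rw [← QuotientGroup.eq_one_iff (N := P), QuotientGroup.mk_pow, QuotientGroup.mk_mul, QuotientGroup.mk_mul,
      QuotientGroup.mk_mul, QuotientGroup.mk_inv, (QuotientGroup.eq_one_iff q).mpr hq, one_mul, inv_one, mul_one,
      ← QuotientGroup.mk_mul, ← QuotientGroup.mk_pow, pow_two,
      show u * v * (u * v) = u * v * (v * u) by rw [huv], show u * v * (v * u) = u * (v * v) * u by group,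
      hinv v hv, mul_one, hinv u hu]
    rfl
  refine ⟨?_, ?_⟩
  · rintro e ⟨he, hea⟩ x hx
    rw [Subgroup.commutator_def] at hx
    induction hx using Subgroup.closure_induction with
    | mem y hy =>
      obtain ⟨q, hq, w, hw, rfl⟩ := hy
      obtain ⟨n, rfl⟩ := Subgroup.mem_zpowers_iff.mp hw
      have hcase : a ^ n = 1 ∨ a ^ n = a := by
        rcases Int.even_or_odd n with ⟨m, rfl⟩ | ⟨m, rfl⟩
        · left; rw [← two_mul, zpow_mul, zpow_ofNat, pow_two, hinv a ha, one_zpow]
        · right; rw [zpow_add_one, zpow_mul, zpow_ofNat, pow_two, hinv a ha, one_zpow, one_mul]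
      rw [commutatorElement_def]
      rcases hcase with h | h <;> rw [h]
      · simp
      · rw [hinv' a ha]; exact ((show Commute e (q * a * q⁻¹) from hcomm' e he a ha q hq hea).mul_right hea).eq
    | one => simp
    | mul y z _ _ hy hz => exact ((show Commute e y from hy).mul_right hz).eq
    | inv y _ hy => exact (show Commute e y from hy).inv_right.eq
  · rintro b ⟨hb, hba, hodd⟩
    refine le_antisymm ?_ ?_
    · intro q hq
      obtain ⟨hqP, hqc⟩ := hq
      have hqc' : q * (a * b) = a * b * q := Subgroup.mem_centralizer_singleton_iff.mp hqc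
      set x := q * a * q⁻¹ * a⁻¹ with hx
      have hxa : a * x = x * a := by
        rw [hx, hinv' a ha, ← mul_assoc, hcomm' a ha a ha q hqP rfl]
      have hb' : q * b * q⁻¹ = x⁻¹ * b := by
        apply mul_left_cancel (a := a)
        calc a * (q * b * q⁻¹) = x⁻¹ * (q * (a * b) * q⁻¹) := by rw [hx]; group
          _ = x⁻¹ * (a * b) := by rw [hqc', mul_inv_cancel_right]
          _ = a * (x⁻¹ * b) := by rw [← mul_assoc, ← mul_assoc, ((show Commute a x from hxa).inv_right).eq]
      have hxb : Commute b x := by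
        have h := hcomm' b hb b hb q hqP rfl
        rw [hb', mul_assoc, hinv b hb, mul_one, ← mul_assoc] at h
        have h' : Commute b x⁻¹ := mul_right_cancel (b := b) (by rw [h, mul_assoc, hinv b hb, mul_one])
        simpa using h'.inv_right
      have hxP : x ∈ P := by
        rw [hx, show q * a * q⁻¹ * a⁻¹ = q * (a * q⁻¹ * a⁻¹) by group]
        exact mul_mem hqP (hPn.conj_mem _ (inv_mem hqP) a)
      have hxab : Commute x (a * b) := (show Commute x a from hxa.symm).mul_right hxb.symm
      have hpair : x = 1 := by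
        have ha' : q * a * q⁻¹ = x * a := by rw [hx]; group
        rcases hR.pair _ (hR.conj_mem a ha q) b hb with h | h | ⟨h, -⟩
        · exfalso
          rw [ha'] at h
          have hsq : (x * (a * b)) ^ 2 = 1 := by
            rw [pow_two, ← mul_assoc x a b]
            conv_lhs => arg 2; rw [h]
            rw [show x * a * b * (b * (x * a)) = x * a * (b * b) * (x * a) by group, hinv b hb, mul_one,
              ← ha', show q * a * q⁻¹ * (q * a * q⁻¹) = q * (a * a) * q⁻¹ by group, hinv a ha, mul_one, mul_inv_cancel]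
          rw [hxab.mul_pow] at hsq
          have h2 : (a * b) ^ 2 = (x ^ 2)⁻¹ := eq_inv_of_mul_eq_one_right hsq
          have h3 : (a * b) ^ 2 = 1 := two_odd _ (h2 ▸ inv_mem (pow_mem hxP 2)) _ hodd
            (by rw [← pow_mul, mul_comm, pow_mul, pow_orderOf_eq_one, one_pow])
          have h4' : orderOf (a * b) ∣ Nat.gcd 2 (orderOf (a * b)) := Nat.dvd_gcd (orderOf_dvd_of_pow_eq_one h3) dvd_rfl
          rw [(Nat.coprime_two_left.mpr hodd).gcd_eq_one, Nat.dvd_one, orderOf_eq_one_iff] at h4'
          exact hba (eq_inv_of_mul_eq_one_right h4' ▸ hinv' a ha)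
        · rw [ha', mul_assoc] at h
          have h1 := pow_orderOf_eq_one (x * (a * b))
          rw [hxab.mul_pow] at h1
          set n := orderOf (x * (a * b))
          refine two_odd x hxP (n * orderOf (a * b)) (h.mul hodd) ?_
          rw [pow_mul, eq_inv_of_mul_eq_one_left h1, inv_pow, ← pow_mul, mul_comm, pow_mul, pow_orderOf_eq_one, one_pow,
            inv_one]
        · exact absurd h (h4 _ (hR.conj_mem a ha q) b hb)
      refine ⟨⟨hqP, Subgroup.mem_centralizer_singleton_iff.mpr ?_⟩, Subgroup.mem_centralizer_singleton_iff.mpr ?_⟩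
      · rw [hx, mul_inv_eq_one] at hpair
        exact mul_inv_eq_iff_eq_mul.mp hpair
      · rw [hpair, inv_one, one_mul] at hb'
        exact mul_inv_eq_iff_eq_mul.mp hb'
    · rintro q ⟨⟨hq, hqa⟩, hqb⟩
      refine ⟨hq, Subgroup.mem_centralizer_singleton_iff.mpr ?_⟩
      exact ((show Commute q a from Subgroup.mem_centralizer_singleton_iff.mp hqa).mul_right
        (Subgroup.mem_centralizer_singleton_iff.mp hqb)).eq

end Cfsg.Agent.S5049
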