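import Cfsg.Statements.S5057
-- import your own Cfsg.Agent.* helpers here

set_option autoImplicit false
open Cfsg

namespace Cfsg.Agent.S5057

/-- The involutions of the alternating group of degree 6 form a class of root involutions (a single conjugacy class of involutions generating the group, any two of which commute, have product of odd order, or have product of order 4 whose square is again an involution of the class), and the product of any two of them has order at most 5. -/
theorem result :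
    Cfsg.IsRootInvolutionClass {g : ↥(alternatingGroup (Fin 6)) | orderOf g = 2} ∧
    ∀ d ∈ {g : ↥(alternatingGroup (Fin 6)) | orderOf g = 2}, ∀ e ∈ {g : ↥(alternatingGroup (Fin 6)) | orderOf g = 2},
      orderOf (d * e) ≤ 5 := by
  let a : ↥(alternatingGroup (Fin 6)) := ⟨Equiv.swap 0 1 * Equiv.swap 2 3, Equiv.Perm.mem_alternatingGroup.2 (by decide)⟩
  have ha : orderOf a = 2 := orderOf_eq_prime (by decide) (by decide)
  have hconj : ∀ b : Equiv.Perm (Fin 6), b * b = 1 → b ≠ 1 → Equiv.Perm.sign b = 1 →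
      ∃ g : Equiv.Perm (Fin 6), Equiv.Perm.sign g = 1 ∧ g * (Equiv.swap 0 1 * Equiv.swap 2 3) = b * g := by
    decide +kernel
  have hpair : ∀ b : Equiv.Perm (Fin 6), b * b = 1 → Equiv.Perm.sign b = 1 →
      ((Equiv.swap 0 1 * Equiv.swap 2 3) * b) ^ 2 = 1 ∨ ((Equiv.swap 0 1 * Equiv.swap 2 3) * b) ^ 3 = 1 ∨
      ((Equiv.swap 0 1 * Equiv.swap 2 3) * b) ^ 5 = 1 ∨
      (((Equiv.swap 0 1 * Equiv.swap 2 3) * b) ^ 4 = 1 ∧ ((Equiv.swap 0 1 * Equiv.swap 2 3) * b) ^ 2 ≠ 1) := by
    decide +kernel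
  have hsq : ∀ d : ↥(alternatingGroup (Fin 6)), orderOf d = 2 → d * d = 1 := fun d hd => by
    rw [← pow_two, ← hd, pow_orderOf_eq_one]
  have hto : ∀ d : ↥(alternatingGroup (Fin 6)), orderOf d = 2 → ∃ g, d = g * a * g⁻¹ := by
    intro d hd
    obtain ⟨g, hg, e⟩ := hconj d.1 (congrArg Subtype.val (hsq d hd))
      (fun e => by rw [show d = 1 from Subtype.ext e, orderOf_one] at hd; omega)
      (Equiv.Perm.mem_alternatingGroup.1 d.2)
    refine ⟨⟨g, Equiv.Perm.mem_alternatingGroup.2 hg⟩, eq_mul_inv_of_mul_eq (Subtype.ext e.symm)⟩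
  have hmove : ∀ (g d : ↥(alternatingGroup (Fin 6))), orderOf (g * d * g⁻¹) = orderOf d := fun g d =>
    (orderOf_injective (MulAut.conj g).toMonoidHom (MulAut.conj g).injective d)
  have hab : ∀ d e : ↥(alternatingGroup (Fin 6)), orderOf d = 2 → orderOf e = 2 →
      (d * e) ^ 2 = 1 ∨ Odd (orderOf (d * e)) ∧ orderOf (d * e) ≤ 5 ∨ (orderOf (d * e) = 4 ∧ orderOf ((d * e) ^ 2) = 2) := by
    intro d e hd he
    obtain ⟨g, rfl⟩ := hto d hd
    set f := g⁻¹ * e * g with hf
    have hfo : orderOf f = 2 := by rw [hf, ← hmove g (g⁻¹ * e * g)]; rw [← he]; congr 1; group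
    have hde : g * a * g⁻¹ * e = g * (a * f) * g⁻¹ := by rw [hf]; group
    have hpw : ∀ k : ℕ, (g * a * g⁻¹ * e) ^ k = g * (a * f) ^ k * g⁻¹ := fun k => by rw [hde, conj_pow]
    rw [hpw 2, hde, hmove, hmove]
    rcases hpair f.1 (congrArg Subtype.val (hsq f hfo)) (Equiv.Perm.mem_alternatingGroup.1 f.2) with h | h | h | ⟨h4, h2⟩
    · left
      rw [show (a * f) ^ 2 = 1 from Subtype.ext h]; group
    · right; left
      rcases (Nat.dvd_prime Nat.prime_three).1 (orderOf_dvd_of_pow_eq_one (show (a * f) ^ 3 = 1 from Subtype.ext h)) with k | k <;>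
        rw [k] <;> decide
    · right; left
      rcases (Nat.dvd_prime Nat.prime_five).1 (orderOf_dvd_of_pow_eq_one (show (a * f) ^ 5 = 1 from Subtype.ext h)) with k | k <;>
        rw [k] <;> decide
    · right; right
      refine ⟨orderOf_eq_prime_pow (p := 2) (n := 1) (fun k => h2 (congrArg Subtype.val (by simpa using k)))
        (by exact Subtype.ext h4), orderOf_eq_prime ?_ ?_⟩
      · rw [← pow_mul]; exact Subtype.ext h4
      · intro k; exact h2 (congrArg Subtype.val k)
  refine ⟨⟨⟨fun d hd => hd, ?_, fun d hd g => (hmove g d).trans hd, fun d hd e he => ?_⟩, ⟨a, ha⟩, ?_⟩, fun d hd e he => ?_⟩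
  · have hn : (Subgroup.closure {g : ↥(alternatingGroup (Fin 6)) | orderOf g = 2}).Normal := by
      refine ⟨fun x hx g => ?_⟩
      induction hx using Subgroup.closure_induction with
      | mem y hy => exact Subgroup.subset_closure ((hmove g y).trans hy)
      | one => simp
      | mul y z _ _ hy hz =>
        rw [show g * (y * z) * g⁻¹ = (g * y * g⁻¹) * (g * z * g⁻¹) by group]; exact mul_mem hy hz
      | inv y _ hy => rw [show g * y⁻¹ * g⁻¹ = (g * y * g⁻¹)⁻¹ by group]; exact inv_mem hy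
    haveI : IsSimpleGroup ↥(alternatingGroup (Fin 6)) := alternatingGroup.isSimpleGroup (by simp)
    rcases hn.eq_bot_or_eq_top with h | h
    · exfalso
      have : a ∈ (⊥ : Subgroup _) := h ▸ Subgroup.subset_closure ha
      rw [Subgroup.mem_bot.1 this, orderOf_one] at ha; omega
    · exact h
  · rcases hab d e hd he with h | ⟨h, -⟩ | ⟨h4, h2⟩
    · left
      rw [pow_two] at h
      rw [← inv_eq_of_mul_eq_one_right h, _root_.mul_inv_rev, inv_eq_of_mul_eq_one_right (hsq d hd),
        inv_eq_of_mul_eq_one_right (hsq e he)]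
    · exact Or.inr (Or.inl h)
    · exact Or.inr (Or.inr ⟨h4, h2⟩)
  · intro d hd e he
    obtain ⟨g, rfl⟩ := hto d hd
    obtain ⟨k, rfl⟩ := hto e he
    exact ⟨k * g⁻¹, by group⟩
  · rcases hab d e hd he with h | ⟨-, h⟩ | ⟨h4, -⟩
    · exact (Nat.le_of_dvd (by norm_num) (orderOf_dvd_of_pow_eq_one h)).trans (by norm_num)
    · exact h
    · omega

end Cfsg.Agent.S5057
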