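import Cfsg.Statements.S5059
-- import your own Cfsg.Agent.* helpers here

set_option autoImplicit false
universe u
open Cfsg

namespace Cfsg.Agent.S5059

variable {k : Type*} [Field k] {M : Type*} [AddCommGroup M] [Module k M]

/-- displacement -/
def dlt (σ : LinearMap.GeneralLinearGroup k M) : M →ₗ[k] M := (σ : M →ₗ[k] M) - 1

theorem eq_one_add (σ : LinearMap.GeneralLinearGroup k M) : (σ : M →ₗ[k] M) = 1 + dlt σ := by simp [dlt]

theorem dlt_mul_eq {σ τ : LinearMap.GeneralLinearGroup k M} (h : dlt σ * dlt τ = 0) : dlt (σ * τ) = dlt σ + dlt τ := by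
  rw [dlt, Units.val_mul, eq_one_add σ, eq_one_add τ, add_mul, one_mul, mul_add, mul_one, h, add_zero]; abel

theorem dlt_inv {σ : LinearMap.GeneralLinearGroup k M} (h : dlt σ * dlt σ = 0) : dlt σ⁻¹ = -dlt σ := by
  have h1 : ((σ⁻¹ : LinearMap.GeneralLinearGroup k M) : M →ₗ[k] M) = 1 - dlt σ := by
    refine (left_inv_eq_right_inv ?_ σ.mul_inv).symm
    rw [eq_one_add σ, sub_mul, one_mul, mul_add, mul_one, h, add_zero]; abel
  rw [dlt, h1]; abel

theorem dlt_injective {σ τ : LinearMap.GeneralLinearGroup k M} (h : dlt σ = dlt τ) : σ = τ :=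
  Units.ext (by rw [eq_one_add σ, h, ← eq_one_add τ])

theorem prod_zero {f g : M →ₗ[k] M} (hff : f * f = 0) (hk : LinearMap.ker g = LinearMap.ker f) : g * f = 0 := by
  ext m
  have h1 : f m ∈ LinearMap.ker f := LinearMap.mem_ker.mpr (LinearMap.congr_fun hff m)
  show g (f m) = 0
  exact LinearMap.mem_ker.mp (hk.ge h1)

variable [FiniteDimensional k M] {G : Subgroup (LinearMap.GeneralLinearGroup k M)} {σ : LinearMap.GeneralLinearGroup k M}

theorem mem_class (hσ : σ ∈ Cfsg.minimalQuadraticElements G) (ρ : LinearMap.GeneralLinearGroup k M) (hρ : ρ ∈ G)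
    (hsq : dlt ρ * dlt ρ = 0) (hne : ρ ≠ 1) (hfam : Cfsg.scalarFamily ρ ⊆ (G : Set _))
    (hker : LinearMap.ker (dlt σ) ≤ LinearMap.ker (dlt ρ)) (hran : LinearMap.range (dlt ρ) ≤ LinearMap.range (dlt σ)) :
    ρ ∈ Cfsg.sameActionClass G σ := by
  have hρq : ρ ∈ Cfsg.quadraticElements G := ⟨hρ, ⟨hsq, fun h => hne (Units.ext (sub_eq_zero.mp h))⟩, hfam⟩
  have hle : Cfsg.commutatorRank σ ≤ Cfsg.commutatorRank ρ := hσ.2 ρ hρq
  have hle2 : Cfsg.commutatorRank ρ ≤ Cfsg.commutatorRank σ := Submodule.finrank_mono hran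
  have hr : LinearMap.range (dlt ρ) = LinearMap.range (dlt σ) := Submodule.eq_of_le_of_finrank_le hran hle
  refine ⟨⟨hρq, fun τ hτ => hle2.trans (hσ.2 τ hτ)⟩, (Submodule.eq_of_le_of_finrank_le hker ?_).symm, hr⟩
  have e1 := LinearMap.finrank_range_add_finrank_ker (dlt σ)
  have e2 := LinearMap.finrank_range_add_finrank_ker (dlt ρ)
  rw [hr] at e2
  exact le_of_eq (by omega)

theorem class_sq (hσ : σ ∈ Cfsg.minimalQuadraticElements G) {τ τ' : LinearMap.GeneralLinearGroup k M}
    (h : τ ∈ Cfsg.sameActionClass G σ) (h' : τ' ∈ Cfsg.sameActionClass G σ) : dlt τ * dlt τ' = 0 :=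
  prod_zero h'.1.1.2.1.1 (h.2.1.trans h'.2.1.symm)

theorem mul_mem_class (hσ : σ ∈ Cfsg.minimalQuadraticElements G) {τ τ' : LinearMap.GeneralLinearGroup k M}
    (h : τ ∈ Cfsg.sameActionClass G σ) (h' : τ' ∈ Cfsg.sameActionClass G σ) :
    τ * τ' ∈ Cfsg.sameActionClass G σ ∪ {1} := by
  by_cases hne : τ * τ' = 1
  · exact Or.inr hne
  have hd := dlt_mul_eq (class_sq hσ h h')
  have hr : LinearMap.range (dlt (τ * τ')) ≤ LinearMap.range (dlt σ) := by
    rw [hd]
    rintro _ ⟨m, rfl⟩
    exact add_mem (h.2.2.le ⟨m, rfl⟩) (h'.2.2.le ⟨m, rfl⟩)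
  have hk : LinearMap.ker (dlt σ) ≤ LinearMap.ker (dlt (τ * τ')) := by
    rw [hd]
    intro m hm
    rw [LinearMap.mem_ker, LinearMap.add_apply, show dlt τ m = 0 from LinearMap.mem_ker.mp (h.2.1.ge hm),
      show dlt τ' m = 0 from LinearMap.mem_ker.mp (h'.2.1.ge hm), add_zero]
  refine Or.inl (mem_class hσ _ (mul_mem h.1.1.1 h'.1.1.1) ?_ hne ?_ hk hr)
  · rw [hd, add_mul, mul_add, mul_add, class_sq hσ h h, class_sq hσ h h', class_sq hσ h' h, class_sq hσ h' h']; simp
  · rintro ρ ⟨c, hc⟩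
    have hu : ∀ {t : LinearMap.GeneralLinearGroup k M}, t ∈ Cfsg.sameActionClass G σ →
        ∃ u ∈ G, dlt u = c • dlt t := by
      intro t ht
      have hsq : dlt t * dlt t = 0 := ht.1.1.2.1.1
      refine ⟨⟨1 + c • dlt t, 1 - c • dlt t, ?_, ?_⟩, ht.1.1.2.2 ⟨c, rfl⟩, ?_⟩
      · rw [add_mul, one_mul, mul_sub, mul_one, smul_mul_smul_comm, hsq, smul_zero]; abel
      · rw [sub_mul, one_mul, mul_add, mul_one, smul_mul_smul_comm, hsq, smul_zero]; abel
      · simp [dlt]
    obtain ⟨u, hu1, hu2⟩ := hu h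
    obtain ⟨v, hv1, hv2⟩ := hu h'
    have huv : dlt u * dlt v = 0 := by rw [hu2, hv2, smul_mul_smul_comm, class_sq hσ h h', smul_zero]
    have : ρ = u * v := dlt_injective (by
      rw [dlt_mul_eq huv, hu2, hv2, ← smul_add, ← hd]; simp [dlt, hc])
    rw [this]; exact mul_mem hu1 hv1

theorem inv_mem_class (hσ : σ ∈ Cfsg.minimalQuadraticElements G) {τ : LinearMap.GeneralLinearGroup k M}
    (h : τ ∈ Cfsg.sameActionClass G σ) : τ⁻¹ ∈ Cfsg.sameActionClass G σ := by
  have hd := dlt_inv (class_sq hσ h h)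
  refine mem_class hσ _ (inv_mem h.1.1.1) (by rw [hd, neg_mul_neg]; exact class_sq hσ h h) ?_ ?_ ?_ ?_
  · intro e
    exact h.1.1.2.1.2 (by rw [inv_eq_one.mp e]; simp)
  · rintro ρ ⟨c, hc⟩
    refine h.1.1.2.2 ⟨-c, ?_⟩
    rw [hc]
    show 1 + c • dlt τ⁻¹ = 1 + (-c) • dlt τ
    rw [hd, smul_neg, neg_smul]
  · rw [hd, LinearMap.ker_neg]; exact h.2.1.ge
  · rw [hd, LinearMap.range_neg]; exact h.2.2.le

theorem main (hσ : σ ∈ Cfsg.minimalQuadraticElements G) :
    (Cfsg.sameActionSubgroup G σ : Set (LinearMap.GeneralLinearGroup k M)) = Cfsg.sameActionClass G σ ∪ {1} ∧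
    IsMulCommutative ↥(Cfsg.sameActionSubgroup G σ) ∧
    (∀ p : ℕ, p.Prime → ringChar k = p → ∀ x ∈ Cfsg.sameActionSubgroup G σ, x ^ p = 1) := by
  let K : Subgroup (LinearMap.GeneralLinearGroup k M) :=
    { carrier := Cfsg.sameActionClass G σ ∪ {1}
      one_mem' := Or.inr rfl
      mul_mem' := by
        rintro x y (hx | hx) (hy | hy)
        · exact mul_mem_class hσ hx hy
        · rw [Set.mem_singleton_iff.mp hy, mul_one]; exact Or.inl hx
        · rw [Set.mem_singleton_iff.mp hx, one_mul]; exact Or.inl hy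
        · rw [Set.mem_singleton_iff.mp hx, Set.mem_singleton_iff.mp hy, mul_one]; exact Or.inr rfl
      inv_mem' := by
        rintro x (hx | hx)
        · exact Or.inl (inv_mem_class hσ hx)
        · rw [Set.mem_singleton_iff.mp hx, inv_one]; exact Or.inr rfl }
  have hK : Cfsg.sameActionSubgroup G σ = K :=
    le_antisymm ((Subgroup.closure_le K).mpr fun x hx => Or.inl hx) (fun x hx => by
      rcases hx with hx | hx
      · exact Subgroup.subset_closure hx
      · rw [Set.mem_singleton_iff.mp hx]; exact one_mem _)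
  rw [hK]
  refine ⟨rfl, ⟨⟨?_⟩⟩, ?_⟩
  · rintro ⟨x, hx⟩ ⟨y, hy⟩
    apply Subtype.ext
    show x * y = y * x
    rcases hx with hx | hx
    · rcases hy with hy | hy
      · apply dlt_injective
        rw [dlt_mul_eq (class_sq hσ hx hy), dlt_mul_eq (class_sq hσ hy hx), add_comm]
      · rw [Set.mem_singleton_iff.mp hy, mul_one, one_mul]
    · rw [Set.mem_singleton_iff.mp hx, mul_one, one_mul]
  · intro p _ hp x hx
    rcases hx with hx | hx
    · have hn : ∀ n : ℕ, ((x ^ n : LinearMap.GeneralLinearGroup k M) : M →ₗ[k] M) = 1 + n • dlt x := by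
        intro n
        induction n with
        | zero => simp
        | succ n ih =>
          rw [pow_succ, Units.val_mul, ih, eq_one_add x, add_mul, one_mul, mul_add, mul_one, smul_mul_assoc,
            class_sq hσ hx hx, smul_zero, add_zero, succ_nsmul]; abel
      apply Units.ext
      haveI : CharP k p := hp ▸ ringChar.charP k
      rw [hn p, ← Nat.cast_smul_eq_nsmul k, CharP.cast_eq_zero, zero_smul, add_zero, Units.val_one]
    · rw [Set.mem_singleton_iff.mp hx, one_pow]

/-- Let k be a field of characteristic not 2 with k not of order 3, M a finite-dimensional k-vector space and G ≤ GL(M) such that (G, M) is a quadratic pair (M irreducible for G, and G generated by its quadratically acting elements σ whose scalar family 1 + c(σ − 1), c ∈ k, lies in G). Write 𝒬_d for the quadratic elements of G of minimal commutator rank, E(σ) for the subgroup generated by the members of 𝒬_d with the same fixed space and commutator space as σ, and Σ for the set of these subgroups.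 Then for σ ∈ 𝒬_d the subgroup E(σ) consists exactly of those members together with the identity, it is abelian, and if k has prime characteristic p every element of E(σ) has order dividing p. -/
theorem result {k : Type u} [Field k] (hk2 : ringChar k ≠ 2) (hk3 : Nat.card k ≠ 3)
    {M : Type u} [AddCommGroup M] [Module k M] [FiniteDimensional k M]
    {G : Subgroup (LinearMap.GeneralLinearGroup k M)} (hG : Cfsg.IsQuadraticPair G)
    {σ : LinearMap.GeneralLinearGroup k M} (hσ : σ ∈ Cfsg.minimalQuadraticElements G) :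
    (Cfsg.sameActionSubgroup G σ : Set (LinearMap.GeneralLinearGroup k M)) = Cfsg.sameActionClass G σ ∪ {1} ∧
    IsMulCommutative ↥(Cfsg.sameActionSubgroup G σ) ∧
    (∀ p : ℕ, p.Prime → ringChar k = p → ∀ x ∈ Cfsg.sameActionSubgroup G σ, x ^ p = 1) := by
  exact main hσ

end Cfsg.Agent.S5059
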