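import Cfsg.Agent.Lib.PSLTwo.GenInfinite
import Cfsg.Agent.Lib.PSLTwo.SubfieldMax
import Cfsg.Agent.S0801
import Cfsg.Statements.S5060

set_option linter.style.longLine false
set_option linter.style.haveILetI false
set_option linter.unusedSectionVars false

open Matrix MulAction OnePoint
open scoped MatrixGroups
open Cfsg.Agent.Lib.PSLTwo

namespace Cfsg.Agent.S5060

open GenRoot

variable {k F : Type*} [Field k] [Field F] [Algebra k F]

/-- The finite case. -/
theorem gen_finite [Finite k] [Finite F] (h2k : ringChar k ≠ 2) (h3k : Nat.card k ≠ 3) {α : F} (hα : α ≠ 0)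
    (hgen : ∀ L : IntermediateField k F, α ∈ L → L = ⊤) {G : Subgroup SL(2, F)}
    (hU : ∀ c : k, up2 (algebraMap k F c) ∈ G) (hL : ∀ c : k, lo2 (algebraMap k F c * α) ∈ G) : G = ⊤ := by
  classical
  haveI := Fintype.ofFinite k
  haveI := Fintype.ofFinite F
  obtain ⟨p, hpk⟩ := CharP.exists k
  haveI : Fact p.Prime := ⟨CharP.char_is_prime k p⟩
  have hpp : p.Prime := Fact.out
  haveI : CharP F p := charP_of_injective_algebraMap (algebraMap k F).injective p
  obtain ⟨a, -, ha⟩ := FiniteField.card k p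
  obtain ⟨n, -, hn⟩ := FiniteField.card F p
  have hp2 : p ≠ 2 := fun e => h2k (by rw [ringChar.eq k p, e])
  have hodd : Odd (Fintype.card F) := hn ▸ (hpp.odd_of_ne_two hp2).pow
  have h2 : (2 : F) ≠ 0 := Ring.two_ne_zero (ringChar_ne_two hodd)
  have hq5 : 5 ≤ Fintype.card k := by
    have h1 : Odd (Fintype.card k) := ha ▸ (hpp.odd_of_ne_two hp2).pow
    rw [Nat.card_eq_fintype_card] at h3k
    have := Fintype.one_lt_card (α := k)
    obtain ⟨r, hr⟩ := h1
    omega
  obtain ⟨E, _, _, _, hE⟩ := exists_quadExt F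
  have P := poles (F := F) (E := E) (p := p) hE
  let π : SL(2, F) →* PGL(2, F) := ProjGenLinGroup.mk.comp SpecialLinearGroup.toGL
  have hπr : π.range = Lsub F := rfl
  have hπ1 : ∀ g, π g = 1 → g = 1 ∨ g = -1 := by
    intro g hg
    obtain ⟨e1, e2, e3⟩ := (mk_eq_one_iff _).mp hg
    simp only [SpecialLinearGroup.toGL, Units.val_mk, MonoidHom.coe_mk, OneHom.coe_mk] at e1 e2 e3
    have hd := g.2
    rw [det_fin_two] at hd
    have hsq : (g : Matrix (Fin 2) (Fin 2) F) 0 0 * (g : Matrix (Fin 2) (Fin 2) F) 0 0 = 1 := by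
      rw [e1, zero_mul, sub_zero, ← e3] at hd; exact hd
    rcases mul_self_eq_one_iff.mp hsq with h | h
    · left; ext i j; fin_cases i <;> fin_cases j <;> simp [e1, e2, h, ← e3]
    · right; ext i j; fin_cases i <;> fin_cases j <;> simp [e1, e2, h, ← e3]
  set X := G.map π with hX
  have hXL : X ≤ Lsub F := hπr ▸ Subgroup.map_le_range _ _
  have hfull : X = Lsub F → G = ⊤ := fun h => by
    have hneg : (-1 : SL(2, F)) ∈ G := by
      let R : SL(2, F) := ⟨!![0, 1; -1, 0], by simp [det_fin_two]⟩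
      obtain ⟨r, hr, hr'⟩ : π R ∈ X := h ▸ ⟨R, rfl⟩
      have h1 : π (r⁻¹ * R) = 1 := by rw [map_mul, map_inv, hr', inv_mul_cancel]
      have hRR : R * R = -1 := Subtype.ext (by
        show R.1 * R.1 = _
        ext i j; fin_cases i <;> fin_cases j <;> simp [R, Matrix.mul_apply, Fin.sum_univ_two])
      rcases hπ1 _ h1 with e | e
      · rw [inv_mul_eq_one.mp e] at hr; exact hRR ▸ mul_mem hr hr
      · have e' : R = -r := by rw [inv_mul_eq_iff_eq_mul.mp e, mul_neg, mul_one]
        have := mul_mem hr hr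
        rwa [← neg_mul_neg, ← e', hRR] at this
    refine eq_top_iff.mpr fun g _ => ?_
    obtain ⟨r, hr, hr'⟩ : π g ∈ X := h ▸ ⟨g, rfl⟩
    have h1 : π (r⁻¹ * g) = 1 := by rw [map_mul, map_inv, hr', inv_mul_cancel]
    rcases hπ1 _ h1 with e | e
    · rw [← inv_mul_eq_one.mp e]; exact hr
    · rw [inv_mul_eq_iff_eq_mul.mp e]; exact mul_mem hr hneg
  let ι : Multiplicative k →* PGL(2, F) :=
    { toFun := fun c => π (up2 (algebraMap k F c.toAdd))
      map_one' := by simp [up2_zero]
      map_mul' := fun c c' => by rw [toAdd_mul, map_add, up2_add, map_mul] }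
  have hιinj : Function.Injective ι := by
    rw [injective_iff_map_eq_one]
    intro c hc
    have h1 := ((mk_eq_one_iff _).mp hc).1
    have : algebraMap k F c.toAdd = 0 := by simpa [SpecialLinearGroup.toGL, up2] using h1
    rw [map_eq_zero_iff _ (algebraMap k F).injective] at this
    exact Multiplicative.toAdd.injective (by simpa using this)
  have hdvd : Fintype.card k ∣ Nat.card X := by
    have hle : ι.range ≤ X := by rintro _ ⟨c, rfl⟩; exact ⟨_, hU _, rfl⟩
    have := Subgroup.card_dvd_of_le hle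
    rwa [Nat.card_congr (MonoidHom.ofInjective hιinj).symm.toEquiv, Nat.card_eq_fintype_card,
      Fintype.card_multiplicative] at this
  have hpX : p ∣ Nat.card X := dvd_trans (ha ▸ dvd_pow_self _ a.pos.ne') hdvd
  have hWp : ι (Multiplicative.ofAdd 1) ^ p = 1 := by
    rw [← map_pow, ← ofAdd_nsmul, nsmul_one, CharP.cast_eq_zero k p, ofAdd_zero, map_one]
  have hW1 : ι (Multiplicative.ofAdd 1) ≠ 1 := fun e =>
    one_ne_zero (α := k) (Multiplicative.ofAdd.injective (hιinj (e.trans (map_one ι).symm)))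
  have hWi : ι (Multiplicative.ofAdd 1) • (∞ : OnePoint F) = ∞ := by
    show (ProjGenLinGroup.mk (SpecialLinearGroup.toGL (up2 (algebraMap k F 1))) : PGL(2, F)) • _ = _
    rw [mk_smul_self, OnePoint.smul_infty_def]
    simp [up2, SpecialLinearGroup.toGL]
  have hLi : π (lo2 α) • (∞ : OnePoint F) ≠ ∞ := by
    show (ProjGenLinGroup.mk (SpecialLinearGroup.toGL (lo2 α)) : PGL(2, F)) • _ ≠ _
    rw [mk_smul_self, OnePoint.smul_infty_def]
    simp [lo2, SpecialLinearGroup.toGL, hα]
  have hnofix : ∀ z : OnePoint E, ¬ ∀ g ∈ X, g • z = z := by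
    intro z hz
    have e := P.pElem_fix hW1 hWp (x := inc E (∞ : OnePoint F)) (by rw [← inc_smul, hWi]) (hz _ ⟨_, hU _, rfl⟩)
    subst e
    exact hLi (inc_injective (E := E) (by rw [inc_smul]; exact hz _ ⟨_, by simpa using hL 1, rfl⟩))
  rcases classify (p := p) hE X with ⟨c, hc⟩ | ⟨u, v, -, -, hc⟩ | ⟨u, v, huv, j, -, hjd, -, -, hc, -⟩ |
    ⟨hp', hc, -⟩ | ⟨hp', hc, -⟩ | ⟨hp', hc, -⟩ | ⟨K, γ, -, hK⟩
  · exact absurd (fun g hg => by rw [← inc_smul, hc hg]) (hnofix (inc E c))
  · exact absurd (fun g hg => (hc hg).1) (hnofix u)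
  · exfalso
    rw [hc] at hpX
    have h1 : p ∣ j := ((hpp.dvd_mul).mp hpX).resolve_left
      fun h => hp2 ((Nat.prime_dvd_prime_iff_eq hpp Nat.prime_two).mp h)
    have h3 : p ∣ Fintype.card F := hn ▸ dvd_pow_self _ n.pos.ne'
    have hpt := h1.trans hjd
    have hq := Fintype.card_pos (α := F)
    rcases card_torus_cases hE huv with e | e <;> rw [e] at hpt
    · have := Nat.dvd_sub h3 hpt
      rw [Nat.sub_sub_self hq] at this
      exact hpp.one_lt.ne' (Nat.dvd_one.mp this)
    · have := Nat.dvd_sub hpt h3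
      rw [Nat.add_sub_cancel_left] at this
      exact hpp.one_lt.ne' (Nat.dvd_one.mp this)
  · exact absurd (hc ▸ hpX) hp'
  · exact absurd (hc ▸ hpX) hp'
  · rcases hp' with h | h
    · exact absurd (hc ▸ hpX) h
    · exfalso
      subst h
      rw [hc] at hdvd
      have h2a : 2 ≤ (a : ℕ) := by
        by_contra hlt
        rw [ha, show (a : ℕ) = 1 by have := a.pos; omega, pow_one] at hq5
        omega
      have : 3 ^ 2 ∣ 60 := dvd_trans (ha ▸ Nat.pow_dvd_pow 3 h2a) hdvd
      norm_num at this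
  · refine hfull ?_
    by_cases hfK : Nat.card K = Fintype.card F
    · exact eq_Lsub_of_full hodd hXL hfK hK
    exfalso
    have hle : X.map (MulAut.conj γ).toMonoidHom ≤ subPGL K := by
      rcases hK with h | ⟨-, h⟩
      · exact h.le
      · exact h.le.trans (subPSL_le_subPGL K)
    have htr : ∀ c : k, (2 + algebraMap k F c * α) ^ 2 ∈ K := fun c => by
      have h := S0801.tr_mem (γ := γ) (g := lo2 (algebraMap k F c * α) * up2 1)
        (hle ⟨_, ⟨_, mul_mem (hL c) (by simpa using hU 1), rfl⟩, rfl⟩)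
      have ht : ((lo2 (algebraMap k F c * α) * up2 1 : SL(2, F)) : Matrix (Fin 2) (Fin 2) F).trace =
          2 + algebraMap k F c * α := by
        show ((lo2 (algebraMap k F c * α)).1 * (up2 (1 : F)).1).trace = _
        rw [trace_fin_two]
        simp [up2_val, lo2_val, Matrix.mul_apply, Fin.sum_univ_two]; ring
      rwa [ht] at h
    have h8 : (8 : F) ≠ 0 := by
      rw [show (8 : F) = 2 ^ 3 by norm_num]; exact pow_ne_zero 3 h2
    have hcα : ∀ c : k, algebraMap k F c * α ∈ K := fun c => by
      have e : algebraMap k F c * α = ((2 + algebraMap k F c * α) ^ 2 - (2 + algebraMap k F (-c) * α) ^ 2) / 8 := by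
        rw [map_neg]; field_simp; ring
      rw [e]
      exact div_mem (sub_mem (htr c) (htr (-c))) (natCast_mem K 8)
    have hαK : α ∈ K := by simpa using hcα 1
    have hkK : ∀ c : k, algebraMap k F c ∈ K := fun c => by
      have := div_mem (hcα c) hαK
      rwa [mul_div_assoc, div_self hα, mul_one] at this
    have htop := hgen (Subfield.toIntermediateField K hkK) hαK
    refine hfK ?_
    rw [← Nat.card_eq_fintype_card (α := F)]
    refine Nat.card_congr (Equiv.subtypeUnivEquiv fun z => ?_)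
    have : z ∈ Subfield.toIntermediateField K hkK := htop.symm ▸ IntermediateField.mem_top
    exact this

/-- Let k ⊆ K be fields with the characteristic of k not 2 and k not of order 3, and let α ∈ K be a non-zero element algebraic over k. Then the subgroup of SL₂(K) generated by the upper unitriangular matrices with entry c and the lower unitriangular matrices with entry cα, c ranging over k, is exactly the group of matrices of SL₂(K) with all entries in k(α). -/
theorem result {k K : Type*} [Field k] [Field K] [Algebra k K] (hk2 : ringChar k ≠ 2) (hk3 : Nat.card k ≠ 3)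
    (α : K) (hα : IsAlgebraic k α) (hα0 : α ≠ 0) :
    (Subgroup.closure ({g : Matrix.SpecialLinearGroup (Fin 2) K | ∃ c : k, (g : Matrix (Fin 2) (Fin 2) K) = !![1, algebraMap k K c; 0, 1]} ∪
        {g : Matrix.SpecialLinearGroup (Fin 2) K | ∃ c : k, (g : Matrix (Fin 2) (Fin 2) K) = !![1, 0; algebraMap k K c * α, 1]}) :
      Set (Matrix.SpecialLinearGroup (Fin 2) K)) =
    {g : Matrix.SpecialLinearGroup (Fin 2) K | ∀ i j : Fin 2, (g : Matrix (Fin 2) (Fin 2) K) i j ∈ IntermediateField.adjoin k ({α} : Set K)} := by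
  classical
  set F := IntermediateField.adjoin k ({α} : Set K) with hF
  set G := Subgroup.closure ({g : Matrix.SpecialLinearGroup (Fin 2) K | ∃ c : k, (g : Matrix (Fin 2) (Fin 2) K) = !![1, algebraMap k K c; 0, 1]} ∪
        {g : Matrix.SpecialLinearGroup (Fin 2) K | ∃ c : k, (g : Matrix (Fin 2) (Fin 2) K) = !![1, 0; algebraMap k K c * α, 1]}) with hG
  have hαF : α ∈ F := IntermediateField.mem_adjoin_simple_self k α
  let a' : F := ⟨α, hαF⟩
  let φ : SL(2, F) →* SL(2, K) := SpecialLinearGroup.map F.val.toRingHom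
  have hφ : ∀ (g : SL(2, F)) i j, (φ g : Matrix (Fin 2) (Fin 2) K) i j = ((g : Matrix (Fin 2) (Fin 2) F) i j : K) :=
    fun g i j => rfl
  have hU : ∀ c : k, up2 (algebraMap k F c) ∈ G.comap φ := fun c => Subgroup.subset_closure (Or.inl ⟨c, by
    ext i j; rw [hφ]; fin_cases i <;> fin_cases j <;> simp [up2_val]⟩)
  have hL : ∀ c : k, lo2 (algebraMap k F c * a') ∈ G.comap φ := fun c => Subgroup.subset_closure (Or.inr ⟨c, by
    ext i j; rw [hφ]; fin_cases i <;> fin_cases j <;> simp [lo2_val, a']⟩)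
  have hgen : ∀ L : IntermediateField k F, a' ∈ L → L = ⊤ := by
    intro L hLa
    refine eq_top_iff.mpr fun z _ => ?_
    have hle : F ≤ L.map F.val :=
      IntermediateField.adjoin_le_iff.mpr (Set.singleton_subset_iff.mpr ⟨a', hLa, rfl⟩)
    obtain ⟨w, hw, e⟩ := hle z.2
    rwa [show z = w from Subtype.ext e.symm]
  have ha0 : a' ≠ 0 := fun e => hα0 (congrArg Subtype.val e)
  have htop : G.comap φ = ⊤ := by
    rcases finite_or_infinite k with hfin | hinf
    · haveI : FiniteDimensional k F := IntermediateField.adjoin.finiteDimensional hα.isIntegral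
      haveI : Finite F := Module.finite_of_finite k
      exact gen_finite hk2 hk3 ha0 hgen hU hL
    · exact gen_infinite hU hL
        ((isAlgebraic_algHom_iff F.val Subtype.val_injective (a := a')).mp hα) ha0 hgen
  ext g
  constructor
  · intro hg
    show ∀ i j, _
    have key : g ∈ φ.range := by
      refine (Subgroup.closure_le φ.range).mpr ?_ hg
      rintro h (⟨c, hc⟩ | ⟨c, hc⟩)
      · exact ⟨up2 (algebraMap k F c), by ext i j; rw [hφ, hc]; fin_cases i <;> fin_cases j <;> simp [up2_val]⟩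
      · exact ⟨lo2 (algebraMap k F c * a'), by ext i j; rw [hφ, hc]; fin_cases i <;> fin_cases j <;> simp [lo2_val, a']⟩
    obtain ⟨g', rfl⟩ := key
    intro i j
    rw [hφ]; exact SetLike.coe_mem _
  · intro hg
    let M : Matrix (Fin 2) (Fin 2) F := Matrix.of fun i j => ⟨_, hg i j⟩
    have hM : M.det = 1 := Subtype.ext (by
      have := g.2
      rw [det_fin_two] at this ⊢
      simpa [M] using this)
    let g' : SL(2, F) := ⟨M, hM⟩
    have h : g' ∈ G.comap φ := htop ▸ Subgroup.mem_top _
    have e : φ g' = g := by ext i j; rw [hφ]; rfl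
    exact e ▸ (Subgroup.mem_comap.mp h)

end Cfsg.Agent.S5060
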