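import Cfsg.Statements.S5062
import Cfsg.Agent.Lib.QuadRoot.RootSet
-- import your own Cfsg.Agent.* helpers here

set_option autoImplicit false
universe u
open Cfsg
open Cfsg.Agent.Lib.QuadRoot

namespace Cfsg.Agent.S5062

/-- Let k be a field of characteristic not 2 with k not of order 3, M a finite-dimensional k-vector space and G ≤ GL(M) such that (G, M) is a quadratic pair (M irreducible for G, and G generated by its quadratically acting elements σ whose scalar family 1 + c(σ − 1), c ∈ k, lies in G). Write 𝒬_d for the quadratic elements of G of minimal commutator rank, E(σ) for the subgroup generated by the members of 𝒬_d with the same fixed space and commutator space as σ, and Σ for the set of these subgroups. Then, inside the subgroup G₀ generated by Σ, the members of Σ form a set of abstract root subgroups of G₀ in which every member has a rank one partner; and whenever a member A and a rank one partner B of A lie in a connected component of the rank-one-pair graph that is degenerate (no commutator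 case among its members), there are subgroups A₀ ≤ A, B₀ ≤ B generating an image of SL₂(k₁) with central kernel on unitriangular subgroups, for some field k₁ with at least four elements. -/
theorem result {k : Type u} [Field k] (hk2 : ringChar k ≠ 2) (hk3 : Nat.card k ≠ 3)
    {M : Type u} [AddCommGroup M] [Module k M] [FiniteDimensional k M]
    {G : Subgroup (LinearMap.GeneralLinearGroup k M)} (hG : Cfsg.IsQuadraticPair G) :
    Cfsg.IsRootSubgroupSet ((fun A : Subgroup (LinearMap.GeneralLinearGroup k M) => A.subgroupOf (⨆ B ∈ Cfsg.quadraticRootSubgroups G, B)) ''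
      Cfsg.quadraticRootSubgroups G) ∧
    (∀ A ∈ Cfsg.quadraticRootSubgroups G, ¬ Cfsg.IsIsolatedIn (Cfsg.FAdj (Cfsg.quadraticRootSubgroups G)) (Cfsg.quadraticRootSubgroups G) A) ∧
    (∀ A ∈ Cfsg.quadraticRootSubgroups G, ∀ B ∈ Cfsg.rankOnePartners (Cfsg.quadraticRootSubgroups G) A,
      (∀ C ∈ Cfsg.componentOf (Cfsg.FAdj (Cfsg.quadraticRootSubgroups G)) (Cfsg.quadraticRootSubgroups G) A,
        ∀ D ∈ Cfsg.componentOf (Cfsg.FAdj (Cfsg.quadraticRootSubgroups G)) (Cfsg.quadraticRootSubgroups G) A,
          ¬ Cfsg.RootCommutatorCase (Cfsg.quadraticRootSubgroups G) C D) →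
      ∃ A₀ B₀ : Subgroup (LinearMap.GeneralLinearGroup k M), A₀ ≤ A ∧ B₀ ≤ B ∧
        ∃ (k₁ : Type u) (_ : Field k₁), 3 < ENat.card k₁ ∧ Cfsg.IsPSL2PairOver k₁ A₀ B₀) := by
  have h2 : (2 : k) ≠ 0 := Ring.two_ne_zero hk2
  have hn := noUnip_of_irreducible hG.1
  have hGle : (⨆ B ∈ Cfsg.quadraticRootSubgroups G, B) ≤ G := iSup₂_le fun B hB => by
    obtain ⟨X, hX, rfl⟩ := mem_quadraticRootSubgroups.mp hB
    exact grp_le _
  refine ⟨isRootSubgroupSet_image ?_ ?_ ?_ ?_, ?_, ?_⟩
  · intro A hA
    obtain ⟨X, hX, rfl⟩ := mem_quadraticRootSubgroups.mp hA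
    exact grp_isMulCommutative h2 hX
  · intro A hA
    obtain ⟨X, hX, rfl⟩ := mem_quadraticRootSubgroups.mp hA
    exact grp_ne_bot hX
  · intro A hA g hg
    obtain ⟨X, hX, rfl⟩ := mem_quadraticRootSubgroups.mp hA
    exact mem_quadraticRootSubgroups.mpr ⟨_, hX.cj (hGle hg), conjBy_grp hX.1.1 (hGle hg) _⟩
  · intro A hA B hB
    obtain ⟨X, hX, rfl⟩ := mem_quadraticRootSubgroups.mp hA
    obtain ⟨Y, hY, rfl⟩ := mem_quadraticRootSubgroups.mp hB
    exact pair_cases hk2 hk3 hn hX hY _ fun h hne hc =>
      mem_quadraticRootSubgroups.mpr ⟨_, (class2 h2 hX hY h hne).1, rfl⟩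
  · intro A hA hiso
    obtain ⟨X, hX, rfl⟩ := mem_quadraticRootSubgroups.mp hA
    obtain ⟨Y, hY, h⟩ := exists_partner hn hX
    exact (hiso.2 (grp G Y hY.1.1)).1 ⟨hA, mem_quadraticRootSubgroups.mpr ⟨Y, hY, rfl⟩, isRankOnePair hk2 hk3 hX hY h⟩
  · intro A hA B hB _
    obtain ⟨X, hX, rfl⟩ := mem_quadraticRootSubgroups.mp hA
    obtain ⟨Y, hY, rfl⟩ := mem_quadraticRootSubgroups.mp hB.1
    exact psl_pair hk2 hk3 hX hY (sandwich_ne_of_rankOne hk2 hX hY hB.2)

end Cfsg.Agent.S5062
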