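import Cfsg.Statements.S5063
import Cfsg.Agent.Lib.QuadRoot.Components
-- import your own Cfsg.Agent.* helpers here

set_option autoImplicit false
universe u
open Cfsg
open Cfsg.Agent.Lib.QuadRoot

namespace Cfsg.Agent.S5063

/-- Let k be a field of characteristic not 2 with k not of order 3, M a finite-dimensional k-vector space and G ≤ GL(M) such that (G, M) is a quadratic pair (M irreducible for G, and G generated by its quadratically acting elements σ whose scalar family 1 + c(σ − 1), c ∈ k, lies in G). Write 𝒬_d for the quadratic elements of G of minimal commutator rank, E(σ) for the subgroup generated by the members of 𝒬_d with the same fixed space and commutator space as σ, and Σ for the set of these subgroups. Then G is a central product of finitely many quasisimple normal subgroups G₁, …, G_s (pairwise commuting and together generating G), each generated by the quadratic elements of G it contains, and every quadratic element of G lies in one of them. -/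
theorem result {k : Type u} [Field k] (hk2 : ringChar k ≠ 2) (hk3 : Nat.card k ≠ 3)
    {M : Type u} [AddCommGroup M] [Module k M] [FiniteDimensional k M]
    {G : Subgroup (LinearMap.GeneralLinearGroup k M)} (hG : Cfsg.IsQuadraticPair G) :
    ∃ (s : ℕ) (Gi : Fin s → Subgroup (LinearMap.GeneralLinearGroup k M)),
      (∀ i, Gi i ≤ G ∧ ∀ g ∈ G, Cfsg.conjBy (Gi i) g = Gi i) ∧ (∀ i j, i ≠ j → ⁅Gi i, Gi j⁆ = ⊥) ∧ (⨆ i, Gi i) = G ∧
      (∀ i, Cfsg.IsQuasisimple ↥(Gi i) ∧ Subgroup.closure (Cfsg.quadraticElements G ∩ (Gi i : Set (LinearMap.GeneralLinearGroup k M))) = Gi i) ∧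
      Cfsg.quadraticElements G ⊆ ⋃ i, (Gi i : Set (LinearMap.GeneralLinearGroup k M)) := by
  obtain ⟨S, hS⟩ := exists_comps hk2 hk3 _ G rfl (noUnip_of_irreducible hG.1) hG.2 (full_of_irreducible hG.1)
  haveI := hS.fin.fintype
  let e := Fintype.equivFin S
  have hle : ∀ K ∈ S, K ≤ G := fun K hK => (le_iSup₂ (f := fun K (_ : K ∈ S) => K) K hK).trans hS.sup.le
  have hsup : (⨆ i, ((e.symm i).1 : Subgroup (LinearMap.GeneralLinearGroup k M))) = G := by
    rw [e.symm.surjective.iSup_comp (fun K : S => (K.1 : Subgroup (LinearMap.GeneralLinearGroup k M))), ← hS.sup]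
    exact iSup_subtype'' S (fun K => K)
  refine ⟨Fintype.card S, fun i => (e.symm i).1, fun i => ⟨hle _ (e.symm i).2, fun g hg => ?_⟩,
    fun i j hij => hS.comm _ (e.symm i).2 _ (e.symm j).2 fun h => hij (e.symm.injective (Subtype.ext h)),
    hsup, fun i => ⟨hS.qs _ (e.symm i).2, hS.gen _ (e.symm i).2⟩, ?_⟩
  · show Cfsg.conjBy (e.symm i).1 g = (e.symm i).1
    generalize hK : (e.symm i).1 = K
    have hKS : K ∈ S := hK ▸ (e.symm i).2
    refine conjBy_eq_of_forall (fun g hg n hn => ?_) g hg
    have hnor : G ≤ Subgroup.normalizer (K : Set (LinearMap.GeneralLinearGroup k M)) := by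
      conv_lhs => rw [← hS.sup]
      refine iSup₂_le fun L hL => ?_
      by_cases h : L = K
      · exact h ▸ Subgroup.le_normalizer
      · have := hS.comm L hL K hKS h
        rw [Subgroup.commutator_eq_bot_iff_le_centralizer] at this
        exact this.trans (Subgroup.centralizer_le_normalizer _)
    exact (Subgroup.mem_normalizer_iff.mp (hnor hg) n).mp hn
  · intro σ hσ
    obtain ⟨K, hK, hmem⟩ := hS.cover σ hσ
    exact Set.mem_iUnion.mpr ⟨e ⟨K, hK⟩, by simpa using hmem⟩

end Cfsg.Agent.S5063
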