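import Cfsg.Statements.S5064
import Cfsg.Agent.Lib.QuadRoot.Sigma
-- import your own Cfsg.Agent.* helpers here

set_option autoImplicit false
universe u
open Cfsg
open Cfsg.Agent.Lib.QuadRoot

namespace Cfsg.Agent.S5064

/-- Let k be a field of characteristic not 2 with k not of order 3, M a finite-dimensional k-vector space and G ≤ GL(M) such that (G, M) is a quadratic pair (M irreducible for G, and G generated by its quadratically acting elements σ whose scalar family 1 + c(σ − 1), c ∈ k, lies in G). Write 𝒬_d for the quadratic elements of G of minimal commutator rank, E(σ) for the subgroup generated by the members of 𝒬_d with the same fixed space and commutator space as σ, and Σ for the set of these subgroups. If σ, τ ∈ 𝒬_d and the subgroup H generated by their two scalar families does not act unipotently on M, then H is isomorphic to SL₂ over a simple algebraic extension k(λ) of k. -/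
theorem result {k : Type u} [Field k] (hk2 : ringChar k ≠ 2) (hk3 : Nat.card k ≠ 3)
    {M : Type u} [AddCommGroup M] [Module k M] [FiniteDimensional k M]
    {G : Subgroup (LinearMap.GeneralLinearGroup k M)} (hG : Cfsg.IsQuadraticPair G)
    {σ τ : LinearMap.GeneralLinearGroup k M} (hσ : σ ∈ Cfsg.minimalQuadraticElements G) (hτ : τ ∈ Cfsg.minimalQuadraticElements G)
    (hH : ¬ Cfsg.IsUnipotentOn (Subgroup.closure (Cfsg.scalarFamily σ ∪ Cfsg.scalarFamily τ))) :
    ∃ (K : Type u) (_ : Field K) (_ : Algebra k K) (lam : K), IsAlgebraic k lam ∧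
      IntermediateField.adjoin k ({lam} : Set K) = ⊤ ∧
      Nonempty (↥(Subgroup.closure (Cfsg.scalarFamily σ ∪ Cfsg.scalarFamily τ)) ≃* Matrix.SpecialLinearGroup (Fin 2) K) := by
  have h2 : (2 : k) ≠ 0 := Ring.two_ne_zero hk2
  have hX := root_of_min hσ
  have hY := root_of_min hτ
  have h : nil σ * nil τ * nil σ ≠ 0 := by
    intro h
    refine hH (isUnipotentOn_of_triple ({Z | ∃ c : k, Z = c • nil σ} ∪ {Z | ∃ c : k, Z = c • nil τ}) ?_ _ ?_)
    · have h' := sandwich_symm h2 hY hX.1 h
      rintro a (⟨c1, rfl⟩ | ⟨c1, rfl⟩) b (⟨c2, rfl⟩ | ⟨c2, rfl⟩) c (⟨c3, rfl⟩ | ⟨c3, rfl⟩) <;>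
        simp [smul_mul_smul_comm, h, h', hX.1.1, hY.1.1, mul_assoc (nil σ) (nil τ) (nil τ),
          mul_assoc (nil τ) (nil σ) (nil σ)]
    · rintro g (⟨c, hc⟩ | ⟨c, hc⟩)
      · exact Or.inl ⟨c, by rw [hc, add_sub_cancel_left]⟩
      · exact Or.inr ⟨c, by rw [hc, add_sub_cancel_left]⟩
  obtain ⟨R, i1, i2, i3, C, hfield, hE, -, -, -, -, -, -, heq⟩ := exists_split hk2 hk3 hX hY.1 h
  letI : Field R := hfield.toField
  have hXX := hX.1.1
  have hYY := hY.1.1
  have up_eq : ∀ c : k, (C.rep hXX hYY (up (algebraMap k R c)) : Module.End k M) = 1 + c • nil σ := fun c => by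
    rw [C.rep_up, Algebra.algebraMap_eq_smul_one, map_smul, smul_mul_assoc, C.ι_one, C.e_E, hE]
  have lo_eq : ∀ c : k, (C.rep hXX hYY (lo (algebraMap k R c * C.α)) : Module.End k M) = 1 + c • nil τ := fun c => by
    rw [C.rep_lo, ← Algebra.smul_def, map_smul, smul_mul_assoc, ← C.eY, heq hY]
  have hrange : (C.rep hXX hYY).range = Subgroup.closure (Cfsg.scalarFamily σ ∪ Cfsg.scalarFamily τ) := by
    refine le_antisymm ?_ ((Subgroup.closure_le _).mpr ?_)
    · rintro _ ⟨g, rfl⟩
      have := gen_field (k := k) hk2 hk3 (α := C.α) C.unit.ne_zero C.gen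
        (H := (Subgroup.closure (Cfsg.scalarFamily σ ∪ Cfsg.scalarFamily τ)).comap (C.rep hXX hYY))
        (fun c => Subgroup.subset_closure (Or.inl ⟨c, up_eq c⟩))
        (fun c => Subgroup.subset_closure (Or.inr ⟨c, lo_eq c⟩))
      have hg : g ∈ (Subgroup.closure (Cfsg.scalarFamily σ ∪ Cfsg.scalarFamily τ)).comap (C.rep hXX hYY) :=
        this ▸ Subgroup.mem_top g
      exact hg
    · rintro g (⟨c, hc⟩ | ⟨c, hc⟩)
      · exact ⟨_, Units.ext ((up_eq c).trans hc.symm)⟩
      · exact ⟨_, Units.ext ((lo_eq c).trans hc.symm)⟩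
  have halg : IsAlgebraic k C.α := Algebra.IsAlgebraic.isAlgebraic C.α
  refine ⟨R, hfield.toField, i2, C.α, halg, ?_, ⟨?_⟩⟩
  · apply IntermediateField.toSubalgebra_injective
    rw [IntermediateField.adjoin_simple_toSubalgebra_of_isAlgebraic halg, C.gen, IntermediateField.top_toSubalgebra]
  · exact (MulEquiv.subgroupCongr hrange.symm).trans (MonoidHom.ofInjective (C.rep_injective hXX hYY)).symm

end Cfsg.Agent.S5064
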