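import Cfsg.Statements.S5067
-- import your own Cfsg.Agent.* helpers here

set_option autoImplicit false
open Cfsg

namespace Cfsg.Agent.S5067

theorem main {P : Type*} [Group P] [Group.IsNilpotent P] (hna : ¬ IsMulCommutative P) {E F : Subgroup P}
    (hE : IsMulCommutative ↥E) (_hgen : E ⊔ F = ⊤) :
    Group.nilpotencyClass ↥(Subgroup.normalClosure (E : Set P)) < Group.nilpotencyClass P := by
  set N' : Subgroup P := E ⊔ commutator P with hN'
  haveI hn : N'.Normal := Subgroup.Normal.of_commutator_le _ le_sup_right
  have hle : Subgroup.normalClosure (E : Set P) ≤ N' := Subgroup.normalClosure_le_normal (SetLike.coe_subset_coe.mpr le_sup_left)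
  set L : ℕ → Subgroup P := (⊤ : Subgroup P).lowerCentralSeries with hL
  have h1 : ⁅N', N'⁆ ≤ L 2 := by
    haveI : (L 2).Normal := Subgroup.lowerCentralSeries_normal ⊤ 2
    rw [← QuotientGroup.ker_mk' (L 2), ← Subgroup.map_eq_bot_iff, Subgroup.map_commutator, hN', Subgroup.map_sup]
    set π := QuotientGroup.mk' (L 2)
    have hc : ⁅(commutator P).map π, (⊤ : Subgroup P).map π⁆ = ⊥ := by
      rw [← Subgroup.map_commutator, Subgroup.map_eq_bot_iff, QuotientGroup.ker_mk']
      exact le_of_eq rfl
    have hEE : ⁅E.map π, E.map π⁆ = ⊥ := by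
      rw [← Subgroup.map_commutator]
      have : ⁅E, E⁆ = ⊥ := Subgroup.commutator_eq_bot_iff_le_centralizer.mpr
        fun a ha b hb => congrArg Subtype.val (hE.is_comm.comm ⟨b, hb⟩ ⟨a, ha⟩)
      rw [this, Subgroup.map_bot]
    rw [Subgroup.commutator_eq_bot_iff_le_centralizer] at hc hEE ⊢
    have hc' : (commutator P).map π ≤ Subgroup.centralizer (((E.map π ⊔ (commutator P).map π) : Subgroup _) : Set _) :=
      hc.trans (Subgroup.centralizer_le (SetLike.coe_subset_coe.mpr
        (sup_le (Subgroup.map_mono le_top) (Subgroup.map_mono le_top))))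
    refine sup_le ?_ hc'
    intro x hx y hy
    have : (E.map π ⊔ (commutator P).map π) ≤ Subgroup.centralizer ({x} : Set _) := sup_le
      (fun z hz => Subgroup.mem_centralizer_singleton_iff.mpr (hEE hx z hz))
      (fun z hz => Subgroup.mem_centralizer_singleton_iff.mpr (hc' hz x (Subgroup.mem_sup_left hx)).symm)
    exact Subgroup.mem_centralizer_singleton_iff.mp (this hy)
  have h2 : ∀ i, N'.lowerCentralSeries (i + 1) ≤ L (i + 2) := by
    intro i
    induction i with
    | zero => exact h1
    | succ i ih =>
      rw [Subgroup.lowerCentralSeries_succ, hL, Subgroup.lowerCentralSeries_succ]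
      exact Subgroup.commutator_mono ih le_top
  set c := Group.nilpotencyClass P with hc
  have hc2 : 2 ≤ c := by
    by_contra hlt
    have h : L 1 = ⊥ := Subgroup.lowerCentralSeries_eq_bot_iff_nilpotencyClass_le.mpr (by omega)
    refine hna ⟨⟨fun a b => ?_⟩⟩
    have : a * b * a⁻¹ * b⁻¹ ∈ L 1 := Subgroup.commutator_mem_commutator (Subgroup.mem_top a) (Subgroup.mem_top b)
    rw [h, Subgroup.mem_bot] at this
    exact mul_inv_eq_iff_eq_mul.mp (mul_inv_eq_one.mp this)
  obtain ⟨j, hj⟩ : ∃ j, c = j + 2 := ⟨c - 2, by omega⟩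
  have hbot : (Subgroup.normalClosure (E : Set P)).lowerCentralSeries (j + 1) = ⊥ := by
    rw [eq_bot_iff]
    refine (Subgroup.lowerCentralSeries_mono (j + 1) hle).trans ((h2 j).trans (le_of_eq ?_))
    rw [← hj]; exact Subgroup.lowerCentralSeries_nilpotencyClass
  have hle2 : Group.nilpotencyClass ↥(Subgroup.normalClosure (E : Set P)) ≤ j + 1 := by
    rw [← Subgroup.lowerCentralSeries_eq_bot_iff_nilpotencyClass_le, ← Subgroup.map_subtype_inj, Subgroup.map_bot,
      Subgroup.top_subtype_lowerCentralSeries]
    exact hbot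
  omega

/-- Let P be a non-abelian nilpotent p-group (every element of p-power order; P possibly infinite) generated by two abelian subgroups E and F. Then the normal closure of E in P, and likewise that of F, has nilpotency class strictly smaller than that of P. -/
theorem result {P : Type*} [Group P] {p : ℕ} [Fact p.Prime] (hP : IsPGroup p P) [Group.IsNilpotent P]
    (hna : ¬ IsMulCommutative P) {E F : Subgroup P} (hE : IsMulCommutative ↥E) (hF : IsMulCommutative ↥F) (hgen : E ⊔ F = ⊤) :
    Group.nilpotencyClass ↥(Subgroup.normalClosure (E : Set P)) < Group.nilpotencyClass P ∧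
    Group.nilpotencyClass ↥(Subgroup.normalClosure (F : Set P)) < Group.nilpotencyClass P := by
  exact ⟨main hna hE hgen, main hna hF (sup_comm E F ▸ hgen)⟩

end Cfsg.Agent.S5067
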