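import Cfsg.Statements.S5069
import Cfsg.Agent.Lib.QuadRoot.Simple
-- import your own Cfsg.Agent.* helpers here

set_option autoImplicit false
universe u
open Cfsg
open Cfsg.Agent.Lib.QuadRoot

namespace Cfsg.Agent.S5069

/-- Let k be a field of characteristic not 2 with k not of order 3, M a finite-dimensional k-vector space and G ≤ GL(M) such that (G, M) is a quadratic pair (M irreducible for G, and G generated by its quadratically acting elements σ whose scalar family 1 + c(σ − 1), c ∈ k, lies in G). Write 𝒬_d for the quadratic elements of G of minimal commutator rank, E(σ) for the subgroup generated by the members of 𝒬_d with the same fixed space and commutator space as σ, and Σ for the set of these subgroups. Then Σ is a disjoint union of finitely many parts Σ₁, …, Σ_r such that the subgroups G_i generated by the Σ_i commute pairwise, each G_i is quasisimple, and inside G_i the members of Σ_i form a class of abstract root subgroups in which every rank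 one pair A, B contains subgroups A₀ ≤ A, B₀ ≤ B generating an image of SL₂(k₁) with central kernel on unitriangular subgroups for some field k₁ with at least four elements. -/
theorem result {k : Type u} [Field k] (hk2 : ringChar k ≠ 2) (hk3 : Nat.card k ≠ 3)
    {M : Type u} [AddCommGroup M] [Module k M] [FiniteDimensional k M]
    {G : Subgroup (LinearMap.GeneralLinearGroup k M)} (hG : Cfsg.IsQuadraticPair G) :
    ∃ (r : ℕ) (part : Fin r → Set (Subgroup (LinearMap.GeneralLinearGroup k M))),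
      (⋃ i, part i) = Cfsg.quadraticRootSubgroups G ∧ (∀ i j, i ≠ j → Disjoint (part i) (part j)) ∧ (∀ i, (part i).Nonempty) ∧
      (∀ i j, i ≠ j → ⁅(⨆ A ∈ part i, A), (⨆ A ∈ part j, A)⁆ = ⊥) ∧
      (∀ i, Cfsg.IsQuasisimple ↥(⨆ A ∈ part i, A) ∧
        Cfsg.IsRootSubgroupClass ((fun A : Subgroup (LinearMap.GeneralLinearGroup k M) => A.subgroupOf (⨆ B ∈ part i, B)) '' (part i)) ∧
        ∀ A ∈ part i, ∀ B ∈ Cfsg.rankOnePartners (part i) A, ∃ A₀ B₀ : Subgroup (LinearMap.GeneralLinearGroup k M), A₀ ≤ A ∧ B₀ ≤ B ∧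
          ∃ (k₁ : Type u) (_ : Field k₁), 3 < ENat.card k₁ ∧ Cfsg.IsPSL2PairOver k₁ A₀ B₀) := by
  have h2 : (2 : k) ≠ 0 := Ring.two_ne_zero hk2
  have hn := noUnip_of_irreducible hG.1
  obtain ⟨reps, hfin, hroot, hcover, hsep⟩ := finite_parts (G := G) h2 hn
  haveI := hfin.fintype
  let e := Fintype.equivFin reps
  refine ⟨Fintype.card reps, fun i => part G (e.symm i).1, ?_, ?_, ?_, ?_, ?_⟩
  · ext A
    simp only [Set.mem_iUnion]
    constructor
    · rintro ⟨i, Y, hY, -, rfl⟩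
      exact mem_quadraticRootSubgroups.mpr ⟨Y, hY, rfl⟩
    · intro hA
      obtain ⟨Y, hY, rfl⟩ := mem_quadraticRootSubgroups.mp hA
      obtain ⟨X, hX, hc⟩ := hcover Y hY
      exact ⟨e ⟨X, hX⟩, Y, hY, by simpa using hc, rfl⟩
  · intro i j hij
    rw [Set.disjoint_left]
    rintro A ⟨Y, hY, hc, rfl⟩ ⟨Z, hZ, hc', he⟩
    refine hij (e.symm.injective (Subtype.ext (hsep _ (e.symm i).2 _ (e.symm j).2 ?_)))
    have hmem : nil (uni Y hY.1.1) ∈ cls G Z hZ.1.1 := mem_grp.mp (he ▸ uni_mem_grp hY.mem_cls)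
    rw [nil_uni] at hmem
    exact hc.trans ((conn_of_same hn h2 hY hZ (hZ.same_of_mem_cls hmem hY.2.1).2).trans hc'.symm)
  · intro i
    exact ⟨_, (e.symm i).1, hroot _ (e.symm i).2, Relation.ReflTransGen.refl, rfl⟩
  · intro i j hij
    refine partGrp_comm h2 fun hc => hij (e.symm.injective (Subtype.ext ?_))
    exact hsep _ (e.symm i).2 _ (e.symm j).2 hc
  · intro i
    set X := (e.symm i).1
    have hX : Root G X := hroot _ (e.symm i).2
    refine ⟨partGrp_quasisimple hk2 hk3 hn hG.2 hX, ⟨isRootSubgroupSet_image ?_ ?_ ?_ ?_, ?_⟩, ?_⟩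
    · rintro A ⟨Y, hY, -, rfl⟩
      exact grp_isMulCommutative h2 hY
    · rintro A ⟨Y, hY, -, rfl⟩
      exact grp_ne_bot hY
    · exact fun A hA g hg => part_conj hk2 hk3 hn hG.2 (partGrp_le hg) hA
    · rintro A ⟨Y, hY, hc, rfl⟩ B ⟨Z, hZ, hc', rfl⟩
      exact pair_cases hk2 hk3 hn hY hZ _ fun h hne hA =>
        ⟨_, (class2 h2 hY hZ h hne).1, hc.trans (conn_comm h2 hn hY hZ h hne), rfl⟩
    · refine ⟨⟨_, _, ⟨X, hX, Relation.ReflTransGen.refl, rfl⟩, rfl⟩, ?_⟩
      rintro _ ⟨A, ⟨Y, hY, hc, rfl⟩, rfl⟩ _ ⟨B, ⟨Z, hZ, hc', rfl⟩, rfl⟩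
      obtain ⟨g, hg, hs⟩ := rel_of_conn hk2 hk3 hn (hc.symm.trans hc')
      rw [← partGrp_eq_of_conn hc] at hg
      refine ⟨⟨g, hg⟩, ?_⟩
      rw [conjBy_subgroupOf (grp_le_partGrp hY hc), conjBy_grp hY.1.1 (partGrp_le hg) (hY.1.cj (partGrp_le hg)).1,
        grp_congr (hY := hZ.1.1) hs]
    · intro A hA B hB
      obtain ⟨Y, hY, -, rfl⟩ := hA
      obtain ⟨⟨Z, hZ, -, rfl⟩, hp⟩ := hB
      exact psl_pair hk2 hk3 hY hZ (sandwich_ne_of_rankOne hk2 hY hZ hp)

end Cfsg.Agent.S5069
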