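import Cfsg.Statements.S5072
import Cfsg.Agent.Lib.Root.SiegelTransvectionClass

set_option autoImplicit false
open Matrix
open Cfsg

open Cfsg Matrix
namespace Cfsg.Agent.S5072

/-- Let F be a field, m a natural number and V = F^{2(m+3)} with the hyperbolic quadratic form q(x, y) = Σ xᵢ yᵢ (non-degenerate, Witt index m + 3 ≥ 3). For a singular line ℓ (a 2-dimensional subspace on which q vanishes) let T(ℓ) be the group of isometries of q fixing every vector of ℓ^⊥ (the Siegel transvection group of ℓ), let Σ be the set of these groups and G₀ the subgroup they generate. Then, viewed inside G₀, the members of Σ form a set of abstract F-root subgroups of G₀ (any two commute, or are the unipotent subgroups of a rank one group that is an image of SL₂(F) with central kernel, or satisfy the commutator case), and their graph of rank one pairs is connected. -/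
theorem result (F : Type*) [Field F] (m : ℕ) :
    Cfsg.IsKRootSubgroupSet F ((fun A : Subgroup ↥(Cfsg.isometryGroup F (Cfsg.quadFormPlus (m + 3) F)) => A.subgroupOf (⨆ B ∈ {A : Subgroup ↥(Cfsg.isometryGroup F (Cfsg.quadFormPlus (m + 3) F)) | ∃ p r : Fin (m + 3) ⊕ Fin (m + 3) → F, LinearIndependent F ![p, r] ∧
          Cfsg.quadFormPlus (m + 3) F p = 0 ∧ Cfsg.quadFormPlus (m + 3) F r = 0 ∧
          Cfsg.quadFormPlus (m + 3) F (p + r) = 0 ∧
          A = Subgroup.closure {σ : ↥(Cfsg.isometryGroup F (Cfsg.quadFormPlus (m + 3) F)) | ∀ v : Fin (m + 3) ⊕ Fin (m + 3) → F,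
            Cfsg.quadFormPlus (m + 3) F (v + p) - Cfsg.quadFormPlus (m + 3) F v - Cfsg.quadFormPlus (m + 3) F p = 0 →
            Cfsg.quadFormPlus (m + 3) F (v + r) - Cfsg.quadFormPlus (m + 3) F v - Cfsg.quadFormPlus (m + 3) F r = 0 →
              ((σ : Matrix.GeneralLinearGroup (Fin (m + 3) ⊕ Fin (m + 3)) F) : Matrix (Fin (m + 3) ⊕ Fin (m + 3)) (Fin (m + 3) ⊕ Fin (m + 3)) F) *ᵥ v = v}}, B)) ''
      {A : Subgroup ↥(Cfsg.isometryGroup F (Cfsg.quadFormPlus (m + 3) F)) | ∃ p r : Fin (m + 3) ⊕ Fin (m + 3) → F, LinearIndependent F ![p, r] ∧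
          Cfsg.quadFormPlus (m + 3) F p = 0 ∧ Cfsg.quadFormPlus (m + 3) F r = 0 ∧
          Cfsg.quadFormPlus (m + 3) F (p + r) = 0 ∧
          A = Subgroup.closure {σ : ↥(Cfsg.isometryGroup F (Cfsg.quadFormPlus (m + 3) F)) | ∀ v : Fin (m + 3) ⊕ Fin (m + 3) → F,
            Cfsg.quadFormPlus (m + 3) F (v + p) - Cfsg.quadFormPlus (m + 3) F v - Cfsg.quadFormPlus (m + 3) F p = 0 →
            Cfsg.quadFormPlus (m + 3) F (v + r) - Cfsg.quadFormPlus (m + 3) F v - Cfsg.quadFormPlus (m + 3) F r = 0 →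
              ((σ : Matrix.GeneralLinearGroup (Fin (m + 3) ⊕ Fin (m + 3)) F) : Matrix (Fin (m + 3) ⊕ Fin (m + 3)) (Fin (m + 3) ⊕ Fin (m + 3)) F) *ᵥ v = v}}) ∧
    Cfsg.IsConnectedFamily (Cfsg.FAdj {A : Subgroup ↥(Cfsg.isometryGroup F (Cfsg.quadFormPlus (m + 3) F)) | ∃ p r : Fin (m + 3) ⊕ Fin (m + 3) → F, LinearIndependent F ![p, r] ∧
          Cfsg.quadFormPlus (m + 3) F p = 0 ∧ Cfsg.quadFormPlus (m + 3) F r = 0 ∧
          Cfsg.quadFormPlus (m + 3) F (p + r) = 0 ∧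
          A = Subgroup.closure {σ : ↥(Cfsg.isometryGroup F (Cfsg.quadFormPlus (m + 3) F)) | ∀ v : Fin (m + 3) ⊕ Fin (m + 3) → F,
            Cfsg.quadFormPlus (m + 3) F (v + p) - Cfsg.quadFormPlus (m + 3) F v - Cfsg.quadFormPlus (m + 3) F p = 0 →
            Cfsg.quadFormPlus (m + 3) F (v + r) - Cfsg.quadFormPlus (m + 3) F v - Cfsg.quadFormPlus (m + 3) F r = 0 →
              ((σ : Matrix.GeneralLinearGroup (Fin (m + 3) ⊕ Fin (m + 3)) F) : Matrix (Fin (m + 3) ⊕ Fin (m + 3)) (Fin (m + 3) ⊕ Fin (m + 3)) F) *ᵥ v = v}})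
      {A : Subgroup ↥(Cfsg.isometryGroup F (Cfsg.quadFormPlus (m + 3) F)) | ∃ p r : Fin (m + 3) ⊕ Fin (m + 3) → F, LinearIndependent F ![p, r] ∧
          Cfsg.quadFormPlus (m + 3) F p = 0 ∧ Cfsg.quadFormPlus (m + 3) F r = 0 ∧
          Cfsg.quadFormPlus (m + 3) F (p + r) = 0 ∧
          A = Subgroup.closure {σ : ↥(Cfsg.isometryGroup F (Cfsg.quadFormPlus (m + 3) F)) | ∀ v : Fin (m + 3) ⊕ Fin (m + 3) → F,
            Cfsg.quadFormPlus (m + 3) F (v + p) - Cfsg.quadFormPlus (m + 3) F v - Cfsg.quadFormPlus (m + 3) F p = 0 →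
            Cfsg.quadFormPlus (m + 3) F (v + r) - Cfsg.quadFormPlus (m + 3) F v - Cfsg.quadFormPlus (m + 3) F r = 0 →
              ((σ : Matrix.GeneralLinearGroup (Fin (m + 3) ⊕ Fin (m + 3)) F) : Matrix (Fin (m + 3) ⊕ Fin (m + 3)) (Fin (m + 3) ⊕ Fin (m + 3)) F) *ᵥ v = v}} := by
  have hset : {A : Subgroup ↥(Cfsg.isometryGroup F (Cfsg.quadFormPlus (m + 3) F)) | ∃ p r : Fin (m + 3) ⊕ Fin (m + 3) → F, LinearIndependent F ![p, r] ∧
          Cfsg.quadFormPlus (m + 3) F p = 0 ∧ Cfsg.quadFormPlus (m + 3) F r = 0 ∧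
          Cfsg.quadFormPlus (m + 3) F (p + r) = 0 ∧
          A = Subgroup.closure {σ : ↥(Cfsg.isometryGroup F (Cfsg.quadFormPlus (m + 3) F)) | ∀ v : Fin (m + 3) ⊕ Fin (m + 3) → F,
            Cfsg.quadFormPlus (m + 3) F (v + p) - Cfsg.quadFormPlus (m + 3) F v - Cfsg.quadFormPlus (m + 3) F p = 0 →
            Cfsg.quadFormPlus (m + 3) F (v + r) - Cfsg.quadFormPlus (m + 3) F v - Cfsg.quadFormPlus (m + 3) F r = 0 →
              ((σ : Matrix.GeneralLinearGroup (Fin (m + 3) ⊕ Fin (m + 3)) F) : Matrix (Fin (m + 3) ⊕ Fin (m + 3)) (Fin (m + 3) ⊕ Fin (m + 3)) F) *ᵥ v = v}} =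
      Lib.Root.Siegel.lineFamily m (Lib.Root.Siegel.G₁ F m).subtype := by
    ext A
    refine exists_congr fun p => exists_congr fun r => ?_
    constructor
    · rintro ⟨h1, h2, h3, h4, rfl⟩
      have h := (Lib.Root.Siegel.ln_iff F m p r).1 ⟨h1, h2, h3, h4⟩
      exact ⟨h, Lib.Root.Siegel.closure_eq F m h⟩
    · rintro ⟨h, rfl⟩
      obtain ⟨h1, h2, h3, h4⟩ := (Lib.Root.Siegel.ln_iff F m p r).2 h
      exact ⟨h1, h2, h3, h4, (Lib.Root.Siegel.closure_eq F m h).symm⟩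
  rw [hset]
  change IsKRootSubgroupSet F ((fun A : Subgroup (Lib.Root.Siegel.G₁ F m) => A.subgroupOf (Lib.Root.Siegel.G₀ F m)) '' _) ∧ _
  rw [Lib.Root.Siegel.image_eq]
  exact Lib.Root.Siegel.main F m

end Cfsg.Agent.S5072
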