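import Cfsg.Statements.S5073

set_option autoImplicit false
universe u
open Cfsg

namespace Cfsg.Agent.S5073


variable {k : Type u} [Field k] {M : Type u} [AddCommGroup M] [Module k M] [FiniteDimensional k M]


/-- The nilpotent part. -/
abbrev nil (e : (LinearMap.GeneralLinearGroup k M)) : M →ₗ[k] M := (e : M →ₗ[k] M) - 1

omit [FiniteDimensional k M] in
theorem coe_eq (e : (LinearMap.GeneralLinearGroup k M)) : (e : M →ₗ[k] M) = 1 + nil e := by simp [nil]

omit [FiniteDimensional k M] in
theorem mul_eq_zero_of_le {X Y : M →ₗ[k] M} (h : LinearMap.range Y ≤ LinearMap.ker X) : X * Y = 0 := by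
  ext m
  exact LinearMap.mem_ker.mp (h ⟨m, rfl⟩)

omit [FiniteDimensional k M] in
theorem inv_eq {e : (LinearMap.GeneralLinearGroup k M)} (h : nil e * nil e = 0) : ((e⁻¹ : (LinearMap.GeneralLinearGroup k M)) : M →ₗ[k] M) = 1 - nil e := by
  rw [Units.inv_eq_of_mul_eq_one_right]
  rw [coe_eq e]
  calc (1 + nil e) * (1 - nil e) = 1 - nil e * nil e := by noncomm_ring
    _ = 1 := by rw [h, sub_zero]

/-- The data shared by the members of a root subgroup. -/
structure Root (E : Subgroup (LinearMap.GeneralLinearGroup k M)) (I K : Submodule k M) : Prop where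
  ne : ∃ e ∈ E, e ≠ 1
  sq : I ≤ K
  range_le : ∀ e ∈ E, LinearMap.range (nil e) ≤ I
  le_ker : ∀ e ∈ E, K ≤ LinearMap.ker (nil e)
  scal : ∀ e ∈ E, ∀ c : k, ∃ e' ∈ E, nil e' = c • nil e
  full : ∀ e ∈ E, e ≠ 1 → LinearMap.range (nil e) = I ∧ LinearMap.ker (nil e) = K

variable {G : Subgroup (LinearMap.GeneralLinearGroup k M)} {E F : Subgroup (LinearMap.GeneralLinearGroup k M)} {I K J L : Submodule k M}

omit [FiniteDimensional k M] in
theorem Root.sq_zero (R : Root E I K) {e e' : (LinearMap.GeneralLinearGroup k M)} (he : e ∈ E) (he' : e' ∈ E) : nil e * nil e' = 0 :=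
  mul_eq_zero_of_le ((R.range_le e' he').trans (R.sq.trans (R.le_ker e he)))

omit [FiniteDimensional k M] in
theorem Root.add_mem (R : Root E I K) {e e' : (LinearMap.GeneralLinearGroup k M)} (he : e ∈ E) (he' : e' ∈ E) :
    nil (e * e') = nil e + nil e' := by
  show ((e * e' : (LinearMap.GeneralLinearGroup k M)) : M →ₗ[k] M) - 1 = _
  rw [Units.val_mul, coe_eq e, coe_eq e']
  calc (1 + nil e) * (1 + nil e') - 1 = nil e + nil e' + nil e * nil e' := by noncomm_ring
    _ = _ := by rw [R.sq_zero he he', add_zero]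

theorem root_of_minimal {σ : (LinearMap.GeneralLinearGroup k M)} (hσ : σ ∈ minimalQuadraticElements G) :
    Root (sameActionSubgroup G σ) (LinearMap.range (nil σ)) (LinearMap.ker (nil σ)) ∧
      sameActionSubgroup G σ ≤ G ∧
      ∀ e ∈ sameActionSubgroup G σ, e ≠ 1 → e ∈ sameActionClass G σ := by
  set I := LinearMap.range (nil σ)
  set K := LinearMap.ker (nil σ)
  have hsq : I ≤ K := by
    rintro _ ⟨m, rfl⟩
    exact LinearMap.mem_ker.mpr (LinearMap.congr_fun hσ.1.2.1.1 m)
  have hle : sameActionSubgroup G σ ≤ G := (Subgroup.closure_le _).mpr fun τ hτ => hτ.1.1.1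
  have hbounds : ∀ e ∈ sameActionSubgroup G σ,
      LinearMap.range (nil e) ≤ I ∧ K ≤ LinearMap.ker (nil e) := by
    intro e he
    induction he using Subgroup.closure_induction with
    | mem τ hτ => exact ⟨hτ.2.2.le, hτ.2.1.ge⟩
    | one => simp [nil]
    | mul x y _ _ hx hy =>
      have h0 : nil x * nil y = 0 := mul_eq_zero_of_le (hy.1.trans (hsq.trans hx.2))
      have e1 : nil (x * y) = nil x + nil y := by
        show ((x * y : (LinearMap.GeneralLinearGroup k M)) : M →ₗ[k] M) - 1 = _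
        rw [Units.val_mul, coe_eq x, coe_eq y]
        calc (1 + nil x) * (1 + nil y) - 1 = nil x + nil y + nil x * nil y := by noncomm_ring
          _ = _ := by rw [h0, add_zero]
      rw [e1]
      constructor
      · rintro _ ⟨m, rfl⟩
        exact I.add_mem (hx.1 ⟨m, rfl⟩) (hy.1 ⟨m, rfl⟩)
      · intro m hm
        rw [LinearMap.mem_ker, LinearMap.add_apply, LinearMap.mem_ker.mp (hx.2 hm),
          LinearMap.mem_ker.mp (hy.2 hm), add_zero]
    | inv x _ hx =>
      have e1 : nil x⁻¹ = -nil x := by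
        show ((x⁻¹ : (LinearMap.GeneralLinearGroup k M)) : M →ₗ[k] M) - 1 = _
        rw [inv_eq (mul_eq_zero_of_le (hx.1.trans (hsq.trans hx.2)))]
        abel
      rw [e1, LinearMap.range_neg, show LinearMap.ker (-nil x) = LinearMap.ker (nil x) by
        ext m; rw [LinearMap.mem_ker, LinearMap.mem_ker, LinearMap.neg_apply, neg_eq_zero]]
      exact hx
  have hscal : ∀ e ∈ sameActionSubgroup G σ, ∀ c : k, ∃ e' ∈ sameActionSubgroup G σ, nil e' = c • nil e := by
    intro e he
    induction he using Subgroup.closure_induction with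
    | mem τ hτ =>
      intro c
      by_cases hc : c = 0
      · exact ⟨1, one_mem _, by simp [hc, nil]⟩
      obtain ⟨⟨⟨hτG, ⟨hτ2, hτ0⟩, hτf⟩, hτmin⟩, hker, hran⟩ := hτ
      have key : ∀ N : M →ₗ[k] M, N * N = 0 → (1 + N) * (1 - N) = 1 ∧ (1 - N) * (1 + N) = 1 := fun N hN =>
        ⟨by calc (1 + N) * (1 - N) = 1 - N * N := by noncomm_ring
            _ = 1 := by rw [hN, sub_zero],
         by calc (1 - N) * (1 + N) = 1 - N * N := by noncomm_ring
            _ = 1 := by rw [hN, sub_zero]⟩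
      have h2 : (c • nil τ) * (c • nil τ) = 0 := by
        rw [smul_mul_smul_comm]; exact by rw [show nil τ * nil τ = 0 from hτ2, smul_zero]
      let τ' : (LinearMap.GeneralLinearGroup k M) :=
        ⟨1 + c • nil τ, 1 - c • nil τ, (key _ h2).1, (key _ h2).2⟩
      have hn : nil τ' = c • nil τ := by simp [nil, τ']
      refine ⟨τ', Subgroup.subset_closure ⟨⟨⟨hτf ⟨c, rfl⟩, ⟨?_, ?_⟩, ?_⟩, ?_⟩, ?_, ?_⟩, hn⟩
      · show nil τ' * nil τ' = 0
        rw [hn, h2]
      · show nil τ' ≠ 0
        rw [hn]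
        exact smul_ne_zero hc hτ0
      · rintro ρ ⟨d, hd⟩
        refine hτf ⟨d * c, ?_⟩
        rw [hd, ← smul_smul]
        exact congrArg (fun t => 1 + d • t) hn
      · intro ρ hρ
        refine le_trans (le_of_eq ?_) (hτmin ρ hρ)
        show Module.finrank k (LinearMap.range (nil τ')) = Module.finrank k (LinearMap.range (nil τ))
        rw [hn, LinearMap.range_smul _ _ hc]
      · show LinearMap.ker (nil τ') = _
        rw [hn, LinearMap.ker_smul _ _ hc]; exact hker
      · show LinearMap.range (nil τ') = _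
        rw [hn, LinearMap.range_smul _ _ hc]; exact hran
    | one => exact fun c => ⟨1, one_mem _, by simp [nil]⟩
    | mul x y hx' hy' hx hy =>
      intro c
      obtain ⟨x', hxm, hxe⟩ := hx c
      obtain ⟨y', hym, hye⟩ := hy c
      refine ⟨x' * y', mul_mem hxm hym, ?_⟩
      have hm : ∀ a ∈ sameActionSubgroup G σ, ∀ b ∈ sameActionSubgroup G σ, nil (a * b) = nil a + nil b := by
        intro a ha b hb
        show ((a * b : (LinearMap.GeneralLinearGroup k M)) : M →ₗ[k] M) - 1 = _
        rw [Units.val_mul, coe_eq a, coe_eq b]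
        calc (1 + nil a) * (1 + nil b) - 1 = nil a + nil b + nil a * nil b := by noncomm_ring
          _ = _ := by
            rw [mul_eq_zero_of_le ((hbounds b hb).1.trans (hsq.trans (hbounds a ha).2)), add_zero]
      rw [hm _ hxm _ hym, hm _ hx' _ hy', hxe, hye, smul_add]
    | inv x hx' hx =>
      intro c
      obtain ⟨x', hxm, hxe⟩ := hx c
      refine ⟨x'⁻¹, inv_mem hxm, ?_⟩
      have hm : ∀ a ∈ sameActionSubgroup G σ, nil a⁻¹ = -nil a := by
        intro a ha
        show ((a⁻¹ : (LinearMap.GeneralLinearGroup k M)) : M →ₗ[k] M) - 1 = _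
        rw [inv_eq (mul_eq_zero_of_le ((hbounds a ha).1.trans (hsq.trans (hbounds a ha).2)))]
        abel
      rw [hm _ hxm, hm _ hx', hxe, smul_neg]
  have hclass : ∀ e ∈ sameActionSubgroup G σ, e ≠ 1 → e ∈ sameActionClass G σ := by
    intro e he he1
    obtain ⟨hr, hk⟩ := hbounds e he
    have hne : nil e ≠ 0 := fun h => he1 (Units.ext (sub_eq_zero.mp h))
    have hq : e ∈ quadraticElements G := by
      refine ⟨hle he, ⟨mul_eq_zero_of_le (hr.trans (hsq.trans hk)), hne⟩, ?_⟩
      rintro ρ ⟨c, hc⟩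
      obtain ⟨e', he', hee⟩ := hscal e he c
      have : ρ = e' := Units.ext (by rw [hc, coe_eq e', hee])
      exact this ▸ hle he'
    have hd : Module.finrank k I ≤ Module.finrank k (LinearMap.range (nil e)) := hσ.2 e hq
    have hran : LinearMap.range (nil e) = I := Submodule.eq_of_le_of_finrank_le hr hd
    have hker : LinearMap.ker (nil e) = K := by
      refine (Submodule.eq_of_le_of_finrank_le hk ?_).symm
      have h1 := LinearMap.finrank_range_add_finrank_ker (nil e)
      have h2 := LinearMap.finrank_range_add_finrank_ker (nil σ)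
      rw [hran] at h1
      change Module.finrank k I + Module.finrank k K = _ at h2
      omega
    refine ⟨⟨hq, fun ρ hρ => ?_⟩, hker, hran⟩
    refine le_trans (le_of_eq ?_) (hσ.2 ρ hρ)
    show Module.finrank k (LinearMap.range (nil e)) = _
    rw [hran]
    rfl
  refine ⟨⟨⟨σ, Subgroup.subset_closure ⟨hσ, rfl, rfl⟩, fun h => hσ.1.2.1.2 (by simp [h])⟩, hsq,
    fun e he => (hbounds e he).1, fun e he => (hbounds e he).2, hscal,
    fun e he he1 => ⟨(hclass e he he1).2.2, (hclass e he he1).2.1⟩⟩, hle, hclass⟩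

omit [FiniteDimensional k M] in
/-- A quadratic element normalizing a root subgroup centralizes it. -/
theorem centralizes (h2 : (2 : k) ≠ 0) (R : Root E I K) {f : (LinearMap.GeneralLinearGroup k M)} (hY : nil f * nil f = 0)
    (hn : ∀ e ∈ E, f * e * f⁻¹ ∈ E) (hn' : ∀ e ∈ E, f⁻¹ * e * f ∈ E) :
    ∀ e ∈ E, f * e = e * f := by
  intro e he
  set X := nil e with hX
  set Y := nil f with hYdef
  have hfi : ((f⁻¹ : (LinearMap.GeneralLinearGroup k M)) : M →ₗ[k] M) = 1 - Y := inv_eq hY
  have hplus : nil (f * e * f⁻¹) = (1 + Y) * X * (1 - Y) := by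
    show ((f * e * f⁻¹ : (LinearMap.GeneralLinearGroup k M)) : M →ₗ[k] M) - 1 = _
    rw [Units.val_mul, Units.val_mul, hfi, coe_eq e, coe_eq f]
    calc (1 + Y) * (1 + X) * (1 - Y) - 1 = (1 + Y) * X * (1 - Y) - Y * Y := by noncomm_ring
      _ = _ := by rw [hY, sub_zero]
  have hminus : nil (f⁻¹ * e * f) = (1 - Y) * X * (1 + Y) := by
    show ((f⁻¹ * e * f : (LinearMap.GeneralLinearGroup k M)) : M →ₗ[k] M) - 1 = _
    rw [Units.val_mul, Units.val_mul, hfi, coe_eq e, coe_eq f]
    calc (1 - Y) * (1 + X) * (1 + Y) - 1 = (1 - Y) * X * (1 + Y) - Y * Y := by noncomm_ring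
      _ = _ := by rw [hY, sub_zero]
  -- the part of degree two
  have hP : ∃ p ∈ E, nil p = Y * X * Y := by
    have hm : f * e * f⁻¹ * (f⁻¹ * e * f) ∈ E := mul_mem (hn e he) (hn' e he)
    have hs : nil (f * e * f⁻¹ * (f⁻¹ * e * f) * (e * e)⁻¹) = (-2 : k) • (Y * X * Y) := by
      have hee : nil (e * e)⁻¹ = -(X + X) := by
        have hm' : e * e ∈ E := mul_mem he he
        show (((e * e)⁻¹ : (LinearMap.GeneralLinearGroup k M)) : M →ₗ[k] M) - 1 = _
        rw [inv_eq (R.sq_zero hm' hm'), R.add_mem he he]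
        abel
      rw [R.add_mem hm (inv_mem (mul_mem he he)), R.add_mem (hn e he) (hn' e he), hee, hplus, hminus]
      simp only [neg_smul, two_smul]
      noncomm_ring
    obtain ⟨p, hp, hpe⟩ := R.scal _ (mul_mem hm (inv_mem (mul_mem he he))) (-2 : k)⁻¹
    exact ⟨p, hp, by rw [hpe, hs, smul_smul, inv_mul_cancel₀ (neg_ne_zero.mpr h2), one_smul]⟩
  obtain ⟨p, hp, hpe⟩ := hP
  have hP0 : Y * X * Y = 0 := by
    by_contra hne
    have hp1 : p ≠ 1 := fun h => hne (by rw [← hpe, h]; simp [nil])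
    obtain ⟨hr, hk⟩ := R.full p hp hp1
    have h1 : LinearMap.range Y ≤ K := by
      rintro _ ⟨m, rfl⟩
      rw [← hk, hpe, LinearMap.mem_ker]
      show Y (X (Y (Y m))) = 0
      rw [show Y (Y m) = 0 from LinearMap.congr_fun hY m, map_zero, map_zero]
    exact hne (by rw [mul_assoc, mul_eq_zero_of_le (h1.trans (R.le_ker e he)), mul_zero])
  -- the part of degree one
  obtain ⟨w, hw, hwe⟩ : ∃ w ∈ E, nil w = Y * X - X * Y := by
    refine ⟨f * e * f⁻¹ * e⁻¹, mul_mem (hn e he) (inv_mem he), ?_⟩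
    rw [R.add_mem (hn e he) (inv_mem he), hplus]
    show _ + (((e⁻¹ : (LinearMap.GeneralLinearGroup k M)) : M →ₗ[k] M) - 1) = _
    rw [inv_eq (R.sq_zero he he)]
    calc (1 + Y) * X * (1 - Y) + (1 - X - 1) = Y * X - X * Y - Y * X * Y := by noncomm_ring
      _ = _ := by rw [hP0, sub_zero]
  have hW0 : Y * X - X * Y = 0 := by
    by_contra hne
    have hw1 : w ≠ 1 := fun h => hne (by rw [← hwe, h]; simp [nil])
    obtain ⟨hr, hk⟩ := R.full w hw hw1
    have h1 : LinearMap.range Y ≤ K := by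
      rintro _ ⟨m, rfl⟩
      rw [← hk, hwe, LinearMap.mem_ker]
      show Y (X (Y m)) - X (Y (Y m)) = 0
      rw [show Y (X (Y m)) = 0 from LinearMap.congr_fun hP0 m,
        show Y (Y m) = 0 from LinearMap.congr_fun hY m, map_zero, sub_zero]
    have h3 : I ≤ LinearMap.ker Y := by
      rw [← hr, hwe]
      rintro _ ⟨m, rfl⟩
      rw [LinearMap.mem_ker]
      show Y (Y (X m) - X (Y m)) = 0
      rw [map_sub, show Y (X (Y m)) = 0 from LinearMap.congr_fun hP0 m,
        show Y (Y (X m)) = 0 from LinearMap.congr_fun hY _, sub_zero]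
    exact hne (by rw [mul_eq_zero_of_le (h1.trans (R.le_ker e he)),
      mul_eq_zero_of_le ((R.range_le e he).trans h3), sub_zero])
  refine Units.ext ?_
  rw [Units.val_mul, Units.val_mul, coe_eq e, coe_eq f]
  have := sub_eq_zero.mp hW0
  calc (1 + Y) * (1 + X) = 1 + X + Y + Y * X := by noncomm_ring
    _ = 1 + X + Y + X * Y := by rw [this]
    _ = (1 + X) * (1 + Y) := by noncomm_ring

/-- An element of `G` commuting with a nontrivial member normalizes the root subgroup. -/
theorem normalizes {σ : (LinearMap.GeneralLinearGroup k M)} (hσ : σ ∈ minimalQuadraticElements G) {g e : (LinearMap.GeneralLinearGroup k M)} (hg : g ∈ G)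
    (he : e ∈ sameActionSubgroup G σ) (he1 : e ≠ 1) (hc : g * e = e * g) :
    ∀ x ∈ sameActionSubgroup G σ, g * x * g⁻¹ ∈ sameActionSubgroup G σ := by
  obtain ⟨-, -, hclass⟩ := root_of_minimal hσ
  obtain ⟨-, hek, her⟩ := hclass e he he1
  have hnil : ∀ t : (LinearMap.GeneralLinearGroup k M), nil (g * t * g⁻¹) = (g : M →ₗ[k] M) * nil t * ((g⁻¹ : (LinearMap.GeneralLinearGroup k M)) : M →ₗ[k] M) := fun t => by
    show ((g * t * g⁻¹ : (LinearMap.GeneralLinearGroup k M)) : M →ₗ[k] M) - 1 = _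
    simp only [nil, mul_sub, sub_mul, mul_one, Units.val_mul, Units.mul_inv]
  have hsurj : Function.Surjective ((g⁻¹ : (LinearMap.GeneralLinearGroup k M)) : M →ₗ[k] M) := fun m =>
    ⟨(g : M →ₗ[k] M) m, LinearMap.congr_fun (g.inv_mul : ((g⁻¹ : (LinearMap.GeneralLinearGroup k M)) : M →ₗ[k] M) * (g : M →ₗ[k] M) = 1) m⟩
  have hinj : Function.Injective (g : M →ₗ[k] M) := by
    intro m m' h
    have := congrArg ((g⁻¹ : (LinearMap.GeneralLinearGroup k M)) : M →ₗ[k] M) h
    rwa [show ((g⁻¹ : (LinearMap.GeneralLinearGroup k M)) : M →ₗ[k] M) ((g : M →ₗ[k] M) m) = m from LinearMap.congr_fun g.inv_mul m,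
      show ((g⁻¹ : (LinearMap.GeneralLinearGroup k M)) : M →ₗ[k] M) ((g : M →ₗ[k] M) m') = m' from LinearMap.congr_fun g.inv_mul m'] at this
  have hrange : ∀ t : (LinearMap.GeneralLinearGroup k M), LinearMap.range (nil (g * t * g⁻¹)) =
      (LinearMap.range (nil t)).map (g : M →ₗ[k] M) := fun t => by
    rw [hnil, Module.End.mul_eq_comp, Module.End.mul_eq_comp, LinearMap.range_comp,
      LinearMap.range_eq_top.mpr hsurj, Submodule.map_top, LinearMap.range_comp]
  have hker : ∀ t : (LinearMap.GeneralLinearGroup k M), LinearMap.ker (nil (g * t * g⁻¹)) =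
      (LinearMap.ker (nil t)).comap ((g⁻¹ : (LinearMap.GeneralLinearGroup k M)) : M →ₗ[k] M) := fun t => by
    ext m
    rw [hnil, LinearMap.mem_ker, Submodule.mem_comap, LinearMap.mem_ker]
    exact map_eq_zero_iff _ hinj
  have hge : g * e * g⁻¹ = e := by rw [hc, mul_assoc, mul_inv_cancel, mul_one]
  intro x hx
  induction hx using Subgroup.closure_induction with
  | mem τ hτ =>
    obtain ⟨⟨⟨hτG, ⟨hτ2, hτ0⟩, hτf⟩, hτmin⟩, hτk, hτr⟩ := hτ
    refine Subgroup.subset_closure ⟨⟨⟨mul_mem (mul_mem hg hτG) (inv_mem hg), ⟨?_, ?_⟩, ?_⟩, ?_⟩, ?_, ?_⟩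
    · show nil _ * nil _ = 0
      rw [hnil]
      calc _ = (g : M →ₗ[k] M) * nil τ * (((g⁻¹ : (LinearMap.GeneralLinearGroup k M)) : M →ₗ[k] M) * (g : M →ₗ[k] M)) * nil τ *
            ((g⁻¹ : (LinearMap.GeneralLinearGroup k M)) : M →ₗ[k] M) := by noncomm_ring
        _ = 0 := by rw [Units.inv_mul, mul_one, mul_assoc (g : M →ₗ[k] M), show nil τ * nil τ = 0 from hτ2]; simp
    · show nil _ ≠ 0
      intro h
      refine hτ0 (LinearMap.ker_eq_top.mp ?_)
      have := LinearMap.ker_eq_top.mpr h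
      rw [hker] at this
      refine Submodule.comap_injective_of_surjective hsurj ?_
      rw [Submodule.comap_top]; exact this
    · rintro ρ ⟨c, hc'⟩
      have hρ : g⁻¹ * ρ * g ∈ G := hτf ⟨c, by
        rw [Units.val_mul, Units.val_mul, hc']
        show _ * (1 + c • nil (g * τ * g⁻¹)) * _ = _
        rw [hnil, mul_add, add_mul, mul_one, Units.inv_mul, mul_smul_comm, smul_mul_assoc]
        congr 2
        calc _ = (((g⁻¹ : (LinearMap.GeneralLinearGroup k M)) : M →ₗ[k] M) * (g : M →ₗ[k] M)) * nil τ *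
              (((g⁻¹ : (LinearMap.GeneralLinearGroup k M)) : M →ₗ[k] M) * (g : M →ₗ[k] M)) := by noncomm_ring
          _ = _ := by rw [Units.inv_mul, one_mul, mul_one]⟩
      have := mul_mem (mul_mem hg hρ) (inv_mem hg)
      rwa [show g * (g⁻¹ * ρ * g) * g⁻¹ = ρ by group] at this
    · intro ρ hρ
      refine le_trans (le_of_eq ?_) (hτmin ρ hρ)
      show Module.finrank k (LinearMap.range (nil (g * τ * g⁻¹))) = Module.finrank k (LinearMap.range (nil τ))
      rw [hrange]
      exact (Submodule.equivMapOfInjective _ hinj _).finrank_eq.symm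
    · show LinearMap.ker (nil (g * τ * g⁻¹)) = _
      rw [hker, show LinearMap.ker (nil τ) = LinearMap.ker (nil e) from hτk.trans hek.symm, ← hker, hge]
      exact hek
    · show LinearMap.range (nil (g * τ * g⁻¹)) = _
      rw [hrange, show LinearMap.range (nil τ) = LinearMap.range (nil e) from hτr.trans her.symm, ← hrange, hge]
      exact her
  | one => simp
  | mul x y _ _ hx hy =>
    rw [show g * (x * y) * g⁻¹ = g * x * g⁻¹ * (g * y * g⁻¹) by group]; exact mul_mem hx hy
  | inv x _ hx =>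
    rw [show g * x⁻¹ * g⁻¹ = (g * x * g⁻¹)⁻¹ by group]; exact inv_mem hx

/-- One commuting pair forces centralization. -/
theorem centralizes_of_commute (h2 : (2 : k) ≠ 0) {σ τ : (LinearMap.GeneralLinearGroup k M)} (hσ : σ ∈ minimalQuadraticElements G)
    (hτ : τ ∈ minimalQuadraticElements G) {e f : (LinearMap.GeneralLinearGroup k M)} (he : e ∈ sameActionSubgroup G σ) (he1 : e ≠ 1)
    (hf : f ∈ sameActionSubgroup G τ) (hc : e * f = f * e) :
    ∀ x ∈ sameActionSubgroup G σ, f * x = x * f := by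
  obtain ⟨RE, -, -⟩ := root_of_minimal hσ
  obtain ⟨RF, hFG, -⟩ := root_of_minimal hτ
  refine centralizes h2 RE (RF.sq_zero hf hf) (normalizes hσ (hFG hf) he he1 hc.symm) ?_
  have h := normalizes hσ (inv_mem (hFG hf)) he he1 ((Commute.inv_left (hc.symm : Commute f e)).eq)
  intro x hx
  simpa using h x hx

/-- Let k be a field of characteristic not 2 with k not of order 3, M a finite-dimensional k-vector space and G ≤ GL(M) such that (G, M) is a quadratic pair (M irreducible for G, and G generated by its quadratically acting elements σ whose scalar family 1 + c(σ − 1), c ∈ k, lies in G). Write 𝒬_d for the quadratic elements of G of minimal commutator rank, E(σ) for the subgroup generated by the members of 𝒬_d with the same fixed space and commutator space as σ, and Σ for the set of these subgroups. Let E, F ∈ Σ. If some non-identity element of E commutes with some non-identity element of F, or some non-identity element of E normalizes F, then E and F commute elementwise. -/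
theorem result {k : Type u} [Field k] (hk2 : ringChar k ≠ 2) (hk3 : Nat.card k ≠ 3)
    {M : Type u} [AddCommGroup M] [Module k M] [FiniteDimensional k M]
    {G : Subgroup (LinearMap.GeneralLinearGroup k M)} (hG : Cfsg.IsQuadraticPair G)
    {E F : Subgroup (LinearMap.GeneralLinearGroup k M)} (hE : E ∈ Cfsg.quadraticRootSubgroups G) (hF : F ∈ Cfsg.quadraticRootSubgroups G)
    (h : (∃ e ∈ E, e ≠ 1 ∧ ∃ f ∈ F, f ≠ 1 ∧ e * f = f * e) ∨ E ⊓ Subgroup.normalizer (F : Set (LinearMap.GeneralLinearGroup k M)) ≠ ⊥) :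
    ⁅E, F⁆ = ⊥ := by
  obtain ⟨σ, hσ, rfl⟩ := hE
  obtain ⟨τ, hτ, rfl⟩ := hF
  have h2 : (2 : k) ≠ 0 := Ring.two_ne_zero hk2
  obtain ⟨RE, hEG, -⟩ := root_of_minimal hσ
  obtain ⟨RF, hFG, -⟩ := root_of_minimal hτ
  obtain ⟨e, he, he1, f, hf, hf1, hc⟩ : ∃ e ∈ sameActionSubgroup G σ, e ≠ 1 ∧
      ∃ f ∈ sameActionSubgroup G τ, f ≠ 1 ∧ e * f = f * e := by
    rcases h with h | h
    · exact h
    · obtain ⟨e, he, he1⟩ := Subgroup.bot_or_exists_ne_one _ |>.resolve_left h
      obtain ⟨heE, heN⟩ := Subgroup.mem_inf.mp he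
      have hcen := centralizes h2 RF (RE.sq_zero heE heE)
        (fun x hx => (Subgroup.mem_normalizer_iff.mp heN x).mp hx)
        (fun x hx => by
          have := (Subgroup.mem_normalizer_iff.mp (inv_mem heN) x).mp hx
          rwa [inv_inv] at this)
      obtain ⟨f, hf, hf1⟩ := RF.ne
      exact ⟨e, heE, he1, f, hf, hf1, hcen f hf⟩
  rw [Subgroup.commutator_eq_bot_iff_le_centralizer]
  intro x hx
  rw [Subgroup.mem_centralizer_iff]
  intro y hy
  have hxf : f * x = x * f := centralizes_of_commute h2 hσ hτ he he1 hf hc x hx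
  exact (centralizes_of_commute h2 hτ hσ hf hf1 hx hxf y hy).symm

end Cfsg.Agent.S5073
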