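import Cfsg.Statements.S5079
import Cfsg.Agent.Lib.Fusion.Saturated

set_option autoImplicit false
open Cfsg Cfsg.FusionSystem Cfsg.Agent.Lib.Fusion

namespace Cfsg.Agent.S5079

/-- In any fusion system over a finite p-group S: if P is fully automized and receptive and Q is conjugate to P in the system, then there is a map of the system with source N_S(Q) and values in N_S(P) carrying Q onto P. -/
theorem result {Ω : Type*} [Group Ω] {S : Subgroup Ω} [Finite S] (p : ℕ) [Fact p.Prime] (hS : IsPGroup p S) (F : Cfsg.FusionSystem S) (P Q : Subgroup Ω) (h₁ : F.IsFullyAutomized p P) (h₂ : F.IsReceptive P) (hQ : F.IsConj Q P) : ∃ φ ∈ F.Hom (Cfsg.FusionSystem.normalizerIn S Q), (∀ x, φ x ∈ Cfsg.FusionSystem.normalizerIn S P) ∧ (Q.subgroupOf (Cfsg.FusionSystem.normalizerIn S Q)).map φ = P := by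
  obtain ⟨e, he⟩ := isConj_iff_iso.1 hQ
  obtain ⟨γ, -, ψ, hψ, hψN, hψe⟩ := exists_extend_normalizer hS h₁ h₂ he
  refine ⟨ψ, hψ, hψN, ?_⟩
  ext y
  rw [mem_img]
  constructor
  · rintro ⟨x, hx, rfl⟩
    rw [show x = ⟨((⟨x, hx⟩ : Q) : Ω), x.2⟩ from rfl, hψe]
    exact ((γ : MulAut P) _).2
  · intro hy
    refine ⟨⟨(e.symm ((γ : MulAut P).symm ⟨y, hy⟩) : Ω), le_normalizerIn he.src_le (SetLike.coe_mem _)⟩, SetLike.coe_mem _, ?_⟩
    rw [hψe]
    simp

end Cfsg.Agent.S5079
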