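import Cfsg.Statements.S5083
import Cfsg.Agent.Lib.Fusion.Normal

set_option autoImplicit false
open Cfsg Cfsg.FusionSystem Cfsg.Agent.Lib.Fusion
open scoped commutatorElement

namespace Cfsg.Agent.S5083

/-- If F is a saturated fusion system over a finite p-group S in which Aut_F(P) is a p-group for every P ≤ S, then F is the inner fusion system of S (all its maps are conjugations by elements of S). -/
theorem result {Ω : Type*} [Group Ω] {S : Subgroup Ω} [Finite S] (p : ℕ) [Fact p.Prime] (hS : IsPGroup p S) (F : Cfsg.FusionSystem S) (hF : F.IsSaturated p) (h : ∀ P : Subgroup Ω, P ≤ S → IsPGroup p (F.autGroup P)) : F = Cfsg.innerFusionSystem S := by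
  refine system_antisymm ?_ ?_
  · refine alperin hS hF _ fun P hP => ?_
    rcases hP with rfl | hP
    · intro α hα
      have hsyl := fullyAutomized_inn hS hF
      have := finite_mulAut (le_refl P)
      have he : F.autGroup P = Cfsg.Inn P := hsyl.eq_of_le hsyl.1 le_rfl (h P le_rfl)
      rw [he] at hα
      obtain ⟨g, rfl⟩ := hα
      exact (mem_autGroup le_rfl).2 ⟨le_rfl, g, g.2, fun x => by simp⟩
    · obtain ⟨hc, -, hN, X, hX⟩ := hP
      have := finite_mulAut hc.1
      exact absurd hX (not_stronglyEmbedded_of_isPGroup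
        ((h P hc.1).of_surjective _ (QuotientGroup.mk'_surjective _)) X)
  · rintro P φ ⟨hP, g, hg, hφ⟩
    exact conj_map_mem hP hg hφ

end Cfsg.Agent.S5083
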