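import Cfsg.Statements.S5084
import Cfsg.Agent.Lib.Fusion.ExtSystem
import Cfsg.Agent.Lib.Fusion.Saturated

set_option autoImplicit false
open Cfsg Cfsg.FusionSystem Cfsg.Agent.Lib.Fusion
open scoped commutatorElement

namespace Cfsg.Agent.S5084

/-- In a saturated fusion system over a finite p-group S, a subgroup Q is central in the system if and only if Q ≤ S and no element of Q is conjugate in the system to any element other than itself. -/
theorem result {Ω : Type*} [Group Ω] {S : Subgroup Ω} [Finite S] (p : ℕ) [Fact p.Prime] (hS : IsPGroup p S) (F : Cfsg.FusionSystem S) (hF : F.IsSaturated p) (Q : Subgroup Ω) : F.IsCentral Q ↔ (Q ≤ S ∧ ∀ x ∈ Q, ∀ y : Ω, F.IsConjElt x y → y = x) := by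
  constructor
  · rintro ⟨hQS, h⟩
    refine ⟨hQS, fun x hx y hy => ?_⟩
    obtain ⟨φ, hφ, hxy⟩ := hy
    obtain ⟨ψ, -, hψP, hψQ⟩ := h _ φ hφ
    rw [← hxy, ← hψP ⟨x, Subgroup.mem_zpowers x⟩]
    exact hψQ ⟨x, hx⟩
  · rintro ⟨hQS, h⟩
    have hfix : ∀ {P : Subgroup Ω} {φ : P →* Ω}, φ ∈ F.Hom P → ∀ x : P, (x : Ω) ∈ Q → φ x = x :=
      fun {P φ} hφ x hx => h _ hx _ ⟨_, restrict_mem (Subgroup.zpowers_le.2 x.2) hφ, rfl⟩
    have hcent : ∀ {P : Subgroup Ω}, P ≤ S → Q ≤ centralizerIn S P := fun {P} hP q hq => by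
      refine mem_centralizerIn.2 ⟨hQS hq, fun x hx => ?_⟩
      have h1 := hfix (F.conj_mem le_rfl (hP hx)) ⟨q, hQS hq⟩ hq
      have h2 : x * q * x⁻¹ = q := h1
      calc x * q = x * q * x⁻¹ * x := by group
        _ = q * x := by rw [h2]
    refine isCentral_iff.2 ⟨hQS, fun P φ hφ => ?_⟩
    obtain ⟨R, hPR, hR⟩ := exists_fullyNormalized (F := F) (src_le hφ)
    have hrec := (fullyNormalized_props hS hF hR).2
    have hext : ∀ {A : Subgroup Ω} (e : A ≃* R), IsIso F e →
        ExtendsOver F Q ⊥ (R.subtype.comp e.toMonoidHom) := by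
      intro A e he
      obtain ⟨ψ, hψ, hψe⟩ := receptive_extend hrec he
      have hle := sup_le (le_extender he)
        ((hcent he.src_le).trans (centralizerIn_le_extender S A (R.subtype.comp e.toMonoidHom)))
      refine extendsOver_bot_iff.2 ⟨_, restrict_mem hle hψ, fun x => hψe x _, fun x => ?_⟩
      exact hfix hψ ⟨x, hle (le_sup_right (a := A) x.2)⟩ x.2
    obtain ⟨e₂, he₂⟩ := isConj_iff_iso.1 (isConj_trans (isConj_symm ⟨φ, hφ, rfl⟩) hPR)
    have hf := isIso_toIso φ hφ (rfl : φ.range = φ.range)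
    set e₁ := (toIso φ hφ (rfl : φ.range = φ.range)).trans e₂
    have h2 := (hext e₂ he₂).inv (ω := φ.range.subtype.comp
      ((e₂.symm.toMonoidHom).comp (Subgroup.inclusion (iso_range e₂).le)))
      (fun x => congrArg Subtype.val (e₂.symm_apply_apply x))
    refine (hext e₁ (hf.trans he₂)).comp h2 (fun x => ⟨toIso φ hφ rfl x, rfl⟩) fun x => ?_
    show φ x = ((e₂.symm (e₂ (toIso φ hφ rfl x)) : φ.range) : Ω)
    rw [e₂.symm_apply_apply]
    rfl

end Cfsg.Agent.S5084
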