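import Cfsg.Statements.S5087
import Cfsg.Agent.Lib.Fusion.Chain

set_option autoImplicit false
open Cfsg Cfsg.FusionSystem Cfsg.Agent.Lib.Fusion
open scoped commutatorElement

namespace Cfsg.Agent.S5087

/-- In a saturated fusion system over a finite p-group S, a subgroup Q is normal in the system if and only if every subgroup P that equals S or is essential contains Q and every element of Aut_F(P) maps Q onto itself. -/
theorem result {Ω : Type*} [Group Ω] {S : Subgroup Ω} [Finite S] (p : ℕ) [Fact p.Prime] (hS : IsPGroup p S) (F : Cfsg.FusionSystem S) (hF : F.IsSaturated p) (Q : Subgroup Ω) : F.IsNormal Q ↔ ∀ P : Subgroup Ω, (P = S ∨ F.IsEssential p P) → (Q ≤ P ∧ ∀ α ∈ F.autGroup P, (Q.subgroupOf P).map α.toMonoidHom = Q.subgroupOf P) := by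
  constructor
  · intro hQ P hP
    obtain ⟨hc, hr, -⟩ := centric_radical_of_top_or_essential hS hF hP
    refine ⟨le_of_isNormal hS hQ hc hr, fun α hα => ?_⟩
    have := finite_of_le hc.1
    refine eq_of_le_card ?_ ?_
    · rintro _ ⟨x, hx, rfl⟩
      exact map_mem_of_normal hQ ((mem_autGroup hc.1).1 hα) x hx
    · exact (Nat.card_congr ((Q.subgroupOf P).equivMapOfInjective _ α.injective).toEquiv).le
  · intro h
    refine isNormal_of_essential hS hF fun P hP => ⟨(h P hP).1, fun α hα x hx => ?_⟩
    have h1 : α x ∈ (Q.subgroupOf P).map α.toMonoidHom := ⟨x, hx, rfl⟩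
    rw [(h P hP).2 α hα] at h1
    exact h1

end Cfsg.Agent.S5087
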