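import Cfsg.Statements.S5088
import Cfsg.Agent.Lib.Fusion.Lcs

set_option autoImplicit false
open Cfsg Cfsg.FusionSystem Cfsg.Agent.Lib.Fusion
open scoped commutatorElement

namespace Cfsg.Agent.S5088

/-- In a saturated fusion system over a finite p-group, a subgroup Q is normal in the system if and only if there is a chain of subgroups 1 = Q₀ ≤ Q₁ ≤ ⋯ ≤ Qₙ = Q such that each Qᵢ with i ≥ 1 is strongly closed in the system and [Q, Qᵢ] ≤ Qᵢ₋₁. -/
theorem result {Ω : Type*} [Group Ω] {S : Subgroup Ω} [Finite S] (p : ℕ) [Fact p.Prime] (hS : IsPGroup p S) (F : Cfsg.FusionSystem S) (hF : F.IsSaturated p) (Q : Subgroup Ω) : F.IsNormal Q ↔ ∃ (n : ℕ) (Qs : Fin (n + 1) → Subgroup Ω), Qs 0 = ⊥ ∧ Qs (Fin.last n) = Q ∧ Monotone Qs ∧ ∀ i : Fin n, F.StronglyClosed (Qs i.succ) ∧ ⁅Q, Qs i.succ⁆ ≤ Qs (Fin.castSucc i) := by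
  constructor
  · intro hQ
    obtain ⟨n, hn⟩ := exists_lcs_bot hS hQ.1
    refine ⟨n, fun i => Q.lowerCentralSeries (n - i), ?_, ?_, ?_, fun i => ⟨?_, ?_⟩⟩
    · simpa using hn
    · simp
    · intro i j hij
      exact Q.lowerCentralSeries_antitone (Nat.sub_le_sub_left hij n)
    · exact stronglyClosed_of_isNormal (isNormal_lcs hQ _)
    · rw [Subgroup.commutator_le]
      intro g hg x hx
      have h1 := commutator_lcs hg hx
      rwa [show n - (i.succ : ℕ) + 1 = n - (i.castSucc : ℕ) by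
        simp only [Fin.val_succ, Fin.val_castSucc]; omega] at h1
  · rintro ⟨n, Qs, h0, hn, hmono, h⟩
    rcases Nat.eq_zero_or_pos n with rfl | hpos
    · have : Q = ⊥ := by rw [← hn, ← h0]; rfl
      exact this ▸ isNormal_bot
    have hQc : F.StronglyClosed Q := by
      have h1 := (h ⟨n - 1, by omega⟩).1
      rwa [show (⟨n - 1, by omega⟩ : Fin n).succ = Fin.last n by ext; simp; omega, hn] at h1
    refine isNormal_of_closed_chain hS hF hQc n
      (fun i => if hi : i ≤ n then Qs ⟨i, Nat.lt_succ_of_le hi⟩ else ⊥) ?_ ?_ ?_ ?_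
    · rw [dif_pos (Nat.zero_le n)]; exact h0
    · rw [dif_pos le_rfl]; exact hn
    · intro i hi
      rw [dif_pos (Nat.succ_le_of_lt hi)]
      exact (h ⟨i, hi⟩).1
    · intro i hi g hg x hx
      rw [dif_pos (Nat.succ_le_of_lt hi)] at hx
      rw [dif_pos hi.le]
      exact Subgroup.commutator_le.1 (h ⟨i, hi⟩).2 g hg x hx

end Cfsg.Agent.S5088
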