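import Cfsg.Statements.S5089
import Cfsg.Agent.Lib.Fusion.Lcs

set_option autoImplicit false
open Cfsg Cfsg.FusionSystem Cfsg.Agent.Lib.Fusion
open scoped commutatorElement

namespace Cfsg.Agent.S5089

/-- A saturated fusion system over a finite p-group has a nontrivial subgroup that is normal in the system (O_p(F) ≠ 1) if and only if some nontrivial abelian subgroup is strongly closed in the system. -/
theorem result {Ω : Type*} [Group Ω] {S : Subgroup Ω} [Finite S] (p : ℕ) [Fact p.Prime] (hS : IsPGroup p S) (F : Cfsg.FusionSystem S) (hF : F.IsSaturated p) : F.core ≠ ⊥ ↔ ∃ Q : Subgroup Ω, Q ≠ ⊥ ∧ IsMulCommutative Q ∧ F.StronglyClosed Q := by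
  constructor
  · intro h
    obtain ⟨R, hR, hR1⟩ : ∃ R, F.IsNormal R ∧ R ≠ ⊥ := by
      by_contra hc
      push Not at hc
      exact h (sSup_eq_bot.2 hc)
    obtain ⟨n, hn⟩ := exists_lcs_bot hS hR.1
    have hex : ∃ m, R.lowerCentralSeries m = ⊥ := ⟨n, hn⟩
    classical
    have hm := Nat.find_spec hex
    rcases hk : Nat.find hex with _ | k
    · rw [hk] at hm; exact absurd hm hR1
    rw [hk] at hm
    refine ⟨R.lowerCentralSeries k, Nat.find_min hex (by omega), ⟨⟨fun a b => ?_⟩⟩,
      stronglyClosed_of_isNormal (isNormal_lcs hR k)⟩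
    have h1 := commutator_lcs (R.lowerCentralSeries_le_self k a.2) b.2
    rw [hm, Subgroup.mem_bot, commutatorElement_eq_one_iff_mul_comm] at h1
    exact Subtype.ext h1
  · rintro ⟨Q, hQ1, hcomm, hQ⟩ h
    have hN : F.IsNormal Q := isNormal_of_abelian hS hF hQ fun x hx y hy =>
      congrArg Subtype.val (hcomm.is_comm.comm ⟨x, hx⟩ ⟨y, hy⟩)
    exact hQ1 (eq_bot_iff.2 (h ▸ le_sSup hN))

end Cfsg.Agent.S5089
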