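import Cfsg.Statements.S5094
import Cfsg.Agent.Lib.Involution.ZStarElement

set_option autoImplicit false
open Cfsg

namespace Cfsg.Agent.S5094

open Cfsg.Agent.Lib.Involution

/-- Glauberman's Z*-Theorem in fusion language: for a finite group G with Sylow 2-subgroup S, the centre of the fusion system of G on S is the set of elements of S whose image in G/O(G) is central, O(G) being the largest normal subgroup of odd order. -/
theorem result {G : Type*} [Group G] [Finite G] (S : Sylow 2 G) : (Cfsg.groupFusionSystem (S : Subgroup G)).center = (S : Subgroup G) ⊓ (Subgroup.center (G ⧸ Cfsg.oddCore G)).comap (QuotientGroup.mk' (Cfsg.oddCore G)) := by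
  haveI : Fact (Nat.Prime 2) := ⟨Nat.prime_two⟩
  haveI := oddCore_normal (G := G)
  set O := Cfsg.oddCore G with hO
  set R := (S : Subgroup G) ⊓ (Subgroup.center (G ⧸ O)).comap (QuotientGroup.mk' O) with hR
  have hodd : ∀ v ∈ (S : Subgroup G), v ∈ O → v = 1 := fun v hv hvO => by
    obtain ⟨k, hk⟩ := (IsPGroup.iff_orderOf.mp S.2) ⟨v, hv⟩
    rw [Subgroup.orderOf_mk] at hk
    exact eq_one_of_two_power_of_odd hk (odd_orderOf_of_mem_oddCore hvO)
  have hRmem : ∀ r : G, r ∈ R ↔ r ∈ (S : Subgroup G) ∧ ∀ g : G, g * r * g⁻¹ * r⁻¹ ∈ O := by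
    intro r
    simp only [hR, Subgroup.mem_inf, Subgroup.mem_comap, Subgroup.mem_center_iff]
    refine and_congr_right fun _ => ⟨fun h g => ?_, fun h q => ?_⟩
    · rw [← QuotientGroup.eq_one_iff]
      simp only [QuotientGroup.mk_mul, QuotientGroup.mk_inv]
      have := h (QuotientGroup.mk' O g)
      simp only [QuotientGroup.mk'_apply] at this
      rw [this, mul_inv_cancel_right, mul_inv_cancel]
    · obtain ⟨g, rfl⟩ := QuotientGroup.mk'_surjective O q
      have := (QuotientGroup.eq_one_iff _).mpr (h g)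
      simp only [QuotientGroup.mk_mul, QuotientGroup.mk_inv, mul_inv_eq_one] at this
      exact mul_inv_eq_iff_eq_mul.mp this
  have hconj : ∀ r ∈ R, ∀ g : G, g * r * g⁻¹ ∈ (S : Subgroup G) → g * r * g⁻¹ = r := fun r hr g hg =>
    mul_inv_eq_one.mp (hodd _ (mul_mem hg (inv_mem ((hRmem r).mp hr).1)) (((hRmem r).mp hr).2 g))
  apply le_antisymm
  · refine sSup_le fun Q hQ => ?_
    intro x hx
    have hxS : x ∈ (S : Subgroup G) := hQ.1 hx
    have hfix : FixedIn (S : Subgroup G) x := by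
      refine ⟨hxS, fun g hg => ?_⟩
      let φ : Subgroup.zpowers x →* G := (MulAut.conj g).toMonoidHom.comp (Subgroup.zpowers x).subtype
      have hφ : φ ∈ (Cfsg.groupFusionSystem (S : Subgroup G)).Hom (Subgroup.zpowers x) :=
        ⟨Subgroup.zpowers_le.mpr hxS, fun ⟨v, k, hk⟩ => by
          show g * v * g⁻¹ ∈ (S : Subgroup G)
          rw [← hk, ← conj_zpow]; exact zpow_mem hg k, g, fun v => rfl⟩
      obtain ⟨ψ, -, h1, h2⟩ := hQ.2 _ φ hφ
      have e1 := h1 ⟨x, Subgroup.mem_zpowers x⟩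
      have e2 := h2 ⟨x, hx⟩
      exact e1.symm.trans e2
    refine (hRmem x).mpr ⟨hxS, fun g => ?_⟩
    have := zstar_element S hfix g
    have h' := inv_mem this
    rwa [show (x * g * x⁻¹ * g⁻¹)⁻¹ = g * x * g⁻¹ * x⁻¹ by group] at h'
  · refine le_sSup ⟨inf_le_left, fun P φ hφ => ?_⟩
    obtain ⟨hPS, hφS, g, hg⟩ := hφ
    let M := Subgroup.centralizer ((P.map (MulAut.conj g).toMonoidHom : Subgroup G) : Set G) ⊓ (O ⊔ R)
    have hPg : ∀ v ∈ P.map (MulAut.conj g).toMonoidHom, v ∈ (S : Subgroup G) := by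
      rintro - ⟨v, hv, rfl⟩
      have := hφS ⟨v, hv⟩
      rwa [hg] at this
    have hRcomm : ∀ r ∈ R, ∀ v ∈ (S : Subgroup G), v * r = r * v := fun r hr v hv =>
      mul_inv_eq_iff_eq_mul.mp (hconj r hr v (mul_mem (mul_mem hv ((hRmem r).mp hr).1) (inv_mem hv)))
    have hRM : R ≤ M := fun r hr => ⟨Subgroup.mem_centralizer_iff.mpr fun v hv =>
      hRcomm r hr v (hPg v hv), Subgroup.mem_sup_right hr⟩
    have hgR : ∀ r ∈ R, g * r * g⁻¹ ∈ M := by
      refine fun r hr => ⟨Subgroup.mem_centralizer_iff.mpr ?_, ?_⟩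
      · rintro - ⟨v, hv, rfl⟩
        simp only [MulEquiv.coe_toMonoidHom, MulAut.conj_apply]
        calc g * v * g⁻¹ * (g * r * g⁻¹) = g * (v * r) * g⁻¹ := by group
          _ = g * (r * v) * g⁻¹ := by rw [hRcomm r hr v (hPS hv)]
          _ = g * r * g⁻¹ * (g * v * g⁻¹) := by group
      · rw [show g * r * g⁻¹ = (g * r * g⁻¹ * r⁻¹) * r by group]
        exact Subgroup.mul_mem_sup (((hRmem r).mp hr).2 g) hr
    have hR2 : IsPGroup 2 R := S.2.to_le inf_le_left
    have hodd' : ¬ 2 ∣ (R.subgroupOf M).index := by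
      intro h
      have h1 : R.relIndex M ∣ R.relIndex (O ⊔ R) :=
        Dvd.intro _ (Subgroup.relIndex_mul_relIndex R M (O ⊔ R) hRM inf_le_right)
      have h2 : R.relIndex (O ⊔ R) * Nat.card R = Nat.card (O ⊔ R : Subgroup G) := by
        rw [mul_comm, ← Subgroup.relIndex_bot_left, ← Subgroup.relIndex_bot_left,
          Subgroup.relIndex_mul_relIndex _ _ _ bot_le le_sup_right]
      have h3 : O.relIndex R * Nat.card O = Nat.card (O ⊔ R : Subgroup G) := by
        rw [← Subgroup.relIndex_sup_left R O, mul_comm, ← Subgroup.relIndex_bot_left,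
          ← Subgroup.relIndex_bot_left, Subgroup.relIndex_mul_relIndex _ _ _ bot_le le_sup_left]
      have h4 : R.relIndex (O ⊔ R) * Nat.card R ∣ Nat.card O * Nat.card R := by
        rw [h2, ← h3, mul_comm]
        exact mul_dvd_mul_left _ (Subgroup.relIndex_dvd_card O R)
      exact Nat.not_even_iff_odd.mpr odd_card_oddCore
        (even_iff_two_dvd.mpr ((h.trans h1).trans (Nat.dvd_of_mul_dvd_mul_right Nat.card_pos h4)))
    let TR : Sylow 2 M := (hR2.of_equiv (Subgroup.subgroupOfEquivOfLe hRM).symm).toSylow hodd'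
    have hgle : R.map (MulAut.conj g).toMonoidHom ≤ M := by rintro - ⟨r, hr, rfl⟩; exact hgR r hr
    obtain ⟨U, hU⟩ := ((hR2.map (MulAut.conj g).toMonoidHom).of_equiv
      (Subgroup.subgroupOfEquivOfLe hgle).symm).exists_le_sylow
    obtain ⟨e, he⟩ := MulAction.exists_smul_eq M U TR
    have hfixR : ∀ r ∈ R, ((e : G) * g) * r * ((e : G) * g)⁻¹ = r := by
      intro r hr
      refine hconj r hr _ ?_
      have h1 : MulAut.conj e • (⟨g * r * g⁻¹, hgR r hr⟩ : M) ∈ (TR : Subgroup M) := by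
        rw [← he]
        exact Subgroup.smul_mem_pointwise_smul _ _ _ (hU ⟨r, hr, rfl⟩)
      have h2 : (e : G) * (g * r * g⁻¹) * (e : G)⁻¹ ∈ R := h1
      rw [show (e : G) * g * r * ((e : G) * g)⁻¹ = (e : G) * (g * r * g⁻¹) * (e : G)⁻¹ by group]
      exact h2.1
    have hfixP : ∀ v : P, ((e : G) * g) * (v : G) * ((e : G) * g)⁻¹ = g * v * g⁻¹ := by
      intro v
      have hc : g * (v : G) * g⁻¹ * (e : G) = (e : G) * (g * v * g⁻¹) :=
        Subgroup.mem_centralizer_iff.mp e.2.1 _ ⟨v, v.2, rfl⟩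
      rw [show (e : G) * g * (v : G) * ((e : G) * g)⁻¹ = (e : G) * (g * v * g⁻¹) * (e : G)⁻¹ by group,
        ← hc, mul_inv_cancel_right]
    refine ⟨(MulAut.conj ((e : G) * g)).toMonoidHom.comp (P ⊔ R).subtype, ⟨sup_le hPS inf_le_left, ?_,
      (e : G) * g, fun v => rfl⟩, fun v => ?_, fun r => hfixR r r.2⟩
    · rintro ⟨v, hv⟩
      have hle : P ⊔ R ≤ (S : Subgroup G).comap (MulAut.conj ((e : G) * g)).toMonoidHom := by
        refine sup_le (fun p hp => ?_) (fun r hr => ?_)
        · show (e : G) * g * p * ((e : G) * g)⁻¹ ∈ (S : Subgroup G)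
          rw [hfixP ⟨p, hp⟩]; exact hPg _ ⟨p, hp, rfl⟩
        · show (e : G) * g * r * ((e : G) * g)⁻¹ ∈ (S : Subgroup G)
          rw [hfixR r hr]; exact ((hRmem r).mp hr).1
      exact hle hv
    · rw [hg]; exact hfixP v

end Cfsg.Agent.S5094
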