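import Cfsg.Statements.S5102
import Cfsg.Agent.Lib.Fusion.Realized
import Cfsg.Agent.Lib.Fusion.ExtSystem

set_option autoImplicit false
open Cfsg Cfsg.FusionSystem Cfsg.Agent.Lib.Fusion
open scoped commutatorElement

namespace Cfsg.Agent.S5102

/-- A normal p-subgroup of a finite group G is normal in the fusion system of G on a Sylow p-subgroup. -/
theorem result {G : Type*} [Group G] [Finite G] (p : ℕ) [Fact p.Prime] (S : Sylow p G) (R : Subgroup G) [R.Normal] (hR : IsPGroup p R) : (Cfsg.groupFusionSystem (S : Subgroup G)).IsNormal R := by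
  have hRS : R ≤ (S : Subgroup G) := IsPGroup.le_sylow_of_normal hR S
  refine isNormal_iff.2 ⟨hRS, fun P φ hφ => ?_⟩
  obtain ⟨hP, hval, g, hg⟩ := hφ
  have hgR : g ∈ Subgroup.normalizer (R : Set G) := by
    rw [Subgroup.normalizer_eq_top]; trivial
  refine ⟨conjHom (P ⊔ R) g, ⟨sup_le hP hRS, sup_map_le (fun x => ?_) (fun x => ?_), g,
    fun x => by simp [conjHom]⟩, fun x => ?_, conjAut R hgR, Subgroup.mem_top _,
    fun x => by simp [conjHom]⟩
  · have := hg x; simpa [conjHom, ← this] using hval x
  · simpa [conjHom] using hRS (conj_mem_of_mem_normalizer hgR x.2)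
  · rw [hg x]; simp [conjHom]

end Cfsg.Agent.S5102
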