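import Cfsg.Statements.S5106
import Cfsg.Agent.Lib.Fusion.Lcs

set_option autoImplicit false
open Cfsg Cfsg.FusionSystem Cfsg.Agent.Lib.Fusion
open scoped commutatorElement

namespace Cfsg.Agent.S5106

/-- In a saturated fusion system over a finite p-group S, a subgroup R ≤ S is normal in the system if and only if every map of the system whose source is a subgroup of R is the restriction of an element of Aut_F(R). -/
theorem result {Ω : Type*} [Group Ω] {S : Subgroup Ω} [Finite S] (p : ℕ) [Fact p.Prime] (hS : IsPGroup p S) (F : Cfsg.FusionSystem S) (hF : F.IsSaturated p) (R : Subgroup Ω) (hRS : R ≤ S) : F.IsNormal R ↔ ∀ (P : Subgroup Ω) (hPR : P ≤ R) (φ : P →* Ω), φ ∈ F.Hom P → ∃ α ∈ F.autGroup R, ∀ x : P, ((α (Subgroup.inclusion hPR x) : R) : Ω) = φ x := by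
  constructor
  · exact fun h P hPR φ hφ => extend_of_normal h hPR hφ
  · intro h
    have hclosed : ∀ U : Subgroup Ω, U ≤ R → (U.subgroupOf R).Characteristic →
        F.StronglyClosed U := by
      intro U hUR hU
      refine ⟨hUR.trans hRS, fun P hPU φ hφ x => ?_⟩
      obtain ⟨α, -, hα⟩ := h P (hPU.trans hUR) φ hφ
      rw [← hα x]
      have h1 := Subgroup.characteristic_iff_map_eq.1 hU α
      have h2 : α (Subgroup.inclusion (hPU.trans hUR) x) ∈
          (U.subgroupOf R).map α.toMonoidHom := ⟨_, hPU x.2, rfl⟩
      rw [h1] at h2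
      exact h2
    obtain ⟨n, hn⟩ := exists_lcs_bot hS hRS
    have hlc : ∀ k, F.StronglyClosed (R.lowerCentralSeries k) := fun k =>
      hclosed _ (R.lowerCentralSeries_le_self k) (lcs_characteristic R k)
    refine isNormal_of_closed_chain hS hF (by simpa using hlc 0) n
      (fun i => R.lowerCentralSeries (n - i)) (by simpa using hn) (by simp) (fun i _ => hlc _) ?_
    intro i hi g hg x hx
    have h1 := commutator_lcs hg hx
    rwa [show n - (i + 1) + 1 = n - i by omega] at h1

end Cfsg.Agent.S5106
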