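import Cfsg.Statements.S5107
import Cfsg.Agent.Lib.Fusion.Chain
import Cfsg.Agent.Lib.Fusion.Join
import Cfsg.Agent.Lib.Fusion.Realized

set_option autoImplicit false
open Cfsg

namespace Cfsg.Agent.S5107

open Cfsg.FusionSystem Cfsg.Agent.Lib.Fusion
open scoped commutatorElement


/-- If a Sylow p-subgroup S of a finite group G has nilpotency class at most two and its centre is strongly closed in S with respect to G, then every map of the fusion system of G on S is conjugation by an element of N_G(S), and S is the largest subgroup normal in that fusion system. -/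
theorem result {G : Type*} [Group G] [Finite G] (p : ℕ) [Fact p.Prime] (S : Sylow p G) (hcl : ⁅(S : Subgroup G), (S : Subgroup G)⁆ ≤ (S : Subgroup G) ⊓ Subgroup.centralizer ((S : Subgroup G) : Set G)) (hZ : Cfsg.IsStronglyClosed ((S : Subgroup G) ⊓ Subgroup.centralizer ((S : Subgroup G) : Set G)) (S : Subgroup G)) : (∀ (P : Subgroup G) (φ : P →* G), φ ∈ (Cfsg.groupFusionSystem (S : Subgroup G)).Hom P → ∃ g ∈ Subgroup.normalizer ((S : Subgroup G) : Set G), ∀ x : P, φ x = g * (x : G) * g⁻¹) ∧ (Cfsg.groupFusionSystem (S : Subgroup G)).core = S := by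
  have hS : IsPGroup p (S : Subgroup G) := S.isPGroup'
  have hF := groupFusionSystem_saturated S
  set Z : Subgroup G := (S : Subgroup G) ⊓ Subgroup.centralizer ((S : Subgroup G) : Set G)
  have hZc : (groupFusionSystem (S : Subgroup G)).StronglyClosed Z := by
    refine ⟨inf_le_left, fun R hR φ hφ x => ?_⟩
    obtain ⟨-, hval, g, hg⟩ := hφ
    rw [hg x]
    exact hZ.2 x (hR x.2) g (hg x ▸ hval x)
  have hSn : (groupFusionSystem (S : Subgroup G)).IsNormal (S : Subgroup G) := by
    refine isNormal_of_closed_chain hS hF ⟨le_rfl, fun R _ φ hφ x => val_mem hφ x⟩ 2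
      (fun i => if i = 0 then ⊥ else if i = 1 then Z else (S : Subgroup G)) rfl rfl ?_ ?_
    · intro j hj
      rcases show j = 0 ∨ j = 1 by omega with rfl | rfl
      · exact hZc
      · exact ⟨le_rfl, fun R _ φ hφ x => val_mem hφ x⟩
    · intro j hj g hg x hx
      rcases show j = 0 ∨ j = 1 by omega with rfl | rfl
      · simp only [zero_add, one_ne_zero, if_false, if_true] at hx ⊢
        rw [Subgroup.mem_bot, commutatorElement_eq_one_iff_mul_comm]
        exact hx.2 g hg
      · exact hcl (Subgroup.commutator_mem_commutator hg hx)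
  refine ⟨fun P φ hφ => ?_, le_antisymm isNormal_core.1 (le_core hSn)⟩
  obtain ⟨ψ, hψ, hψP, -⟩ := hSn.2 P φ hφ
  obtain ⟨hle, hval, g, hg⟩ := hψ
  refine ⟨g, mem_normalizer_of_conj_mem fun x hx => ?_, fun x => ?_⟩
  · have h := hg ⟨x, Subgroup.mem_sup_right hx⟩
    exact h ▸ hval _
  · rw [← hψP x]
    exact hg _

end Cfsg.Agent.S5107
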