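import Cfsg.Statements.S5112
import Cfsg.Agent.S3116
import Cfsg.Agent.Lib.Fusion.Alperin

set_option autoImplicit false
open Cfsg Cfsg.FusionSystem Cfsg.Agent.Lib.Fusion
open scoped commutatorElement

namespace Cfsg.Agent.S5112

/-- If S is a dihedral or generalized quaternion 2-group of order at least 16, then in every saturated fusion system over S (at the prime 2) the automorphism group Aut_F(S) consists of the inner automorphisms of S. -/
theorem result {Ω : Type*} [Group Ω] {S : Subgroup Ω} [Finite S] (n : ℕ) (hn : 4 ≤ n) (hshape : Nonempty (S ≃* DihedralGroup (2 ^ (n - 1))) ∨ Nonempty (S ≃* QuaternionGroup (2 ^ (n - 2)))) (F : Cfsg.FusionSystem S) (hF : F.IsSaturated 2) : F.autGroup S = Cfsg.Inn S := by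
  have h2 : Fact (Nat.Prime 2) := ⟨Nat.prime_two⟩
  have hS : IsPGroup 2 S := by
    rcases hshape with ⟨⟨e⟩⟩ | ⟨⟨e⟩⟩
    · refine IsPGroup.of_card (n := n) ?_
      rw [Nat.card_congr e.toEquiv, DihedralGroup.nat_card, ← pow_succ']
      congr 1
      omega
    · refine IsPGroup.of_card (n := n) ?_
      have : NeZero (2 ^ (n - 2)) := ⟨by positivity⟩
      rw [Nat.card_congr e.toEquiv, Nat.card_eq_fintype_card, QuaternionGroup.card,
        show (4 : ℕ) = 2 ^ 2 from rfl, ← pow_add]
      congr 1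
      omega
  have hA : IsPGroup 2 (MulAut S) := by
    rcases hshape with ⟨⟨e⟩⟩ | ⟨⟨e⟩⟩
    · refine Cfsg.Agent.S3116.result hS (Or.inl ⟨2 ^ (n - 1), ?_, ⟨e⟩⟩)
      calc 4 = 2 ^ 2 := rfl
        _ ≤ _ := Nat.pow_le_pow_right two_pos (by omega)
    · have : NeZero (2 ^ (n - 2)) := ⟨by positivity⟩
      have h4 : 4 ≤ 2 ^ (n - 2) := by
        calc 4 = 2 ^ 2 := rfl
          _ ≤ _ := Nat.pow_le_pow_right two_pos (by omega)
      have h21 : 2 * 2 ^ (n - 2) = 2 ^ (n - 1) := by
        rw [← pow_succ']; congr 1; omega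
      have ha : orderOf (e.symm (QuaternionGroup.a 1)) = 2 ^ (n - 1) := by
        rw [MulEquiv.orderOf_eq, QuaternionGroup.orderOf_a_one, h21]
      refine Cfsg.Agent.S3116.isPGroup_mulAut _ (n - 1) (by omega) ha ?_ ?_
      · have hc := (Subgroup.zpowers (e.symm (QuaternionGroup.a (1 : ZMod (2 * 2 ^ (n - 2)))))).card_mul_index
        rw [Nat.card_zpowers, ha, Nat.card_congr e.toEquiv, Nat.card_eq_fintype_card,
          QuaternionGroup.card, show 4 * 2 ^ (n - 2) = 2 ^ (n - 1) * 2 by rw [← h21]; ring] at hc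
        exact Nat.eq_of_mul_eq_mul_left (by positivity) hc
      · intro v hv
        obtain ⟨w, rfl⟩ := e.symm.surjective v
        rw [MulEquiv.orderOf_eq] at hv
        rcases w with i | i
        · refine Subgroup.mem_zpowers_iff.2 ⟨(i.val : ℤ), ?_⟩
          rw [zpow_natCast, ← map_pow, QuaternionGroup.a_one_pow, ZMod.natCast_zmod_val]
        · rw [QuaternionGroup.orderOf_xa] at hv
          omega
  have hsyl := fullyAutomized_inn hS hF
  refine le_antisymm ?_ (inn_le_autGroup le_rfl)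
  have := finite_mulAut (le_refl S)
  obtain ⟨k, hk⟩ := IsPGroup.iff_card.1 ((hA.to_subgroup (F.autGroup S)))
  have hr : (Cfsg.Inn S).relIndex (F.autGroup S) = 1 := by
    have hd : (Cfsg.Inn S).relIndex (F.autGroup S) ∣ 2 ^ k :=
      hk ▸ Subgroup.relIndex_dvd_card _ _
    obtain ⟨j, -, hj⟩ := (Nat.dvd_prime_pow Nat.prime_two).1 hd
    rcases j with _ | j
    · simpa using hj
    · exact absurd (hj ▸ dvd_pow_self 2 j.succ_ne_zero) hsyl.2.2
  exact Subgroup.relIndex_eq_one.1 hr

end Cfsg.Agent.S5112
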