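import Cfsg.Statements.S5119
import Cfsg.Agent.Lib.Fusion.Invariant

set_option autoImplicit false
open Cfsg Cfsg.FusionSystem Cfsg.Agent.Lib.Fusion
open scoped commutatorElement

namespace Cfsg.Agent.S5119

/-- Let F be a saturated fusion system over a finite p-group S and E a subsystem of F over a subgroup T that is strongly closed in F. Then E is invariant in F (invariance under Aut_F(T) plus the Frattini condition) if and only if the strong invariance condition holds: for P ≤ Q ≤ T, every map φ of E from P into Q and every map ψ of F with source Q, the transported map ψ φ ψ⁻¹ on ψ(P) is a map of E. -/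
theorem result {Ω : Type*} [Group Ω] {S : Subgroup Ω} [Finite S] (p : ℕ) [Fact p.Prime] (hS : IsPGroup p S) (F : Cfsg.FusionSystem S) (hF : F.IsSaturated p) {T : Subgroup Ω} (E : Cfsg.FusionSystem T) (hE : E.IsSubsystemOf F) (hT : F.StronglyClosed T) : E.IsInvariantIn F ↔ ∀ (P Q : Subgroup Ω) (hPQ : P ≤ Q) (_ : Q ≤ T) (φ : P →* Ω) (_ : φ ∈ E.Hom P) (hφQ : ∀ x : P, φ x ∈ Q) (ψ : Q →* Ω) (_ : ψ ∈ F.Hom Q), ∃ χ ∈ E.Hom ((P.subgroupOf Q).map ψ), ∀ (x : P) (hx : ψ (Subgroup.inclusion hPQ x) ∈ (P.subgroupOf Q).map ψ), χ ⟨ψ (Subgroup.inclusion hPQ x), hx⟩ = ψ ⟨φ x, hφQ x⟩ := by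
  constructor
  · intro h P Q hPQ hQT φ hφ hφQ ψ hψ
    obtain ⟨a, -, ha⟩ := exists_iso_restrict hPQ hψ
    refine ⟨ψ.comp ((φ.codRestrict Q hφQ).comp a.symm.toMonoidHom), ?_, fun x hx => ?_⟩
    · exact IsInvariantIn.strongInvariant h P Q _ hPQ hQT φ hφ hφQ ψ hψ a ha _
        fun x => congrArg (fun y => ψ ⟨φ y, hφQ y⟩) (a.symm_apply_apply x)
    · rw [show (⟨_, hx⟩ : (P.subgroupOf Q).map ψ) = a x from Subtype.ext (ha x).symm]
      exact congrArg (fun y => ψ ⟨φ y, hφQ y⟩) (a.symm_apply_apply x)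
  · intro h
    refine isInvariantIn_of_strongInvariant hS hF hE hT ?_
    intro P Q P' hPQ hQT φ hφ hφQ ψ hψ a ha χ hχ
    obtain rfl : (P.subgroupOf Q).map ψ = P' := by
      ext z
      constructor
      · rintro ⟨y, hy, rfl⟩
        exact (ha ⟨y, hy⟩) ▸ (a ⟨y, hy⟩).2
      · exact fun hz => ⟨Subgroup.inclusion hPQ (a.symm ⟨z, hz⟩), (a.symm ⟨z, hz⟩).2,
          (ha _).symm.trans (congrArg Subtype.val (a.apply_symm_apply ⟨z, hz⟩))⟩
    obtain ⟨χ', hχ', hχ'e⟩ := h P Q hPQ hQT φ hφ hφQ ψ hψ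
    convert hχ' using 1
    ext z
    obtain ⟨x, rfl⟩ := a.surjective z
    have hm := (a x).2
    simp only [ha x] at hm
    rw [hχ, show a x = ⟨_, hm⟩ from Subtype.ext (ha x)]
    exact (hχ'e x hm).symm

end Cfsg.Agent.S5119
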