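import Cfsg.Statements.S5122
import Cfsg.Agent.Lib.Fusion.Realized

set_option autoImplicit false
open Cfsg Cfsg.FusionSystem Cfsg.Agent.Lib.Fusion

namespace Cfsg.Agent.S5122

/-- Let G be a finite group with Sylow p-subgroup S. Every subgroup P of S has a G-conjugate Q ≤ S such that N_S(Q) is a Sylow p-subgroup of N_G(Q); and for any Q ≤ S with that property, C_S(Q) is a Sylow p-subgroup of C_G(Q) and the automorphisms of Q induced by N_S(Q) form a Sylow p-subgroup of those induced by N_G(Q). -/
theorem result {G : Type*} [Group G] [Finite G] (p : ℕ) [Fact p.Prime] (S : Sylow p G) : (∀ P : Subgroup G, P ≤ S → ∃ g : G, P.map (MulAut.conj g).toMonoidHom ≤ S ∧ (∃ R : Sylow p ↥(Subgroup.normalizer ((P.map (MulAut.conj g).toMonoidHom : Subgroup G) : Set G)), (R : Subgroup ↥(Subgroup.normalizer ((P.map (MulAut.conj g).toMonoidHom : Subgroup G) : Set G))) = (Cfsg.FusionSystem.normalizerIn (S : Subgroup G) (P.map (MulAut.conj g).toMonoidHom)).subgroupOf (Subgroup.normalizer ((P.map (MulAut.conj g).toMonoidHom : Subgroup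 G) : Set G)))) ∧ ∀ Q : Subgroup G, Q ≤ S → (∃ R : Sylow p ↥(Subgroup.normalizer (Q : Set G)), (R : Subgroup ↥(Subgroup.normalizer (Q : Set G))) = (Cfsg.FusionSystem.normalizerIn (S : Subgroup G) Q).subgroupOf (Subgroup.normalizer (Q : Set G))) → (∃ R : Sylow p ↥(Subgroup.centralizer (Q : Set G)), (R : Subgroup ↥(Subgroup.centralizer (Q : Set G))) = (Cfsg.FusionSystem.centralizerIn (S : Subgroup G) Q).subgroupOf (Subgroup.centralizer (Q : Set G))) ∧ (∃ R : Sylow p ↥(Cfsg.autInducedBy ⊤ Q), (R : Subgroup ↥(Cfsg.autInducedBy ⊤ Q)) = (Cfsg.autInducedBy (S : Subgroup G) Q).subgroupOf (Cfsg.autInducedBy ⊤ Q)) := by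
  refine ⟨fun P hP => ?_, fun Q hQ hR => ?_⟩
  · obtain ⟨g, hg, hs⟩ := exists_cj_isSylowIn equivariant_normalizer (isSylowIn_top S) hP
    exact ⟨g, hg, (isSylowIn_iff inf_le_right).1 hs⟩
  · have hN : IsSylowIn p ((S : Subgroup G).subtype.range ⊓
        Subgroup.normalizer (img (S : Subgroup G).subtype Q : Set G))
        (Subgroup.normalizer (img (S : Subgroup G).subtype Q : Set G)) := by
      rw [img_subtype hQ, Subgroup.range_subtype]
      exact (isSylowIn_iff inf_le_right).2 hR
    have hFN := (fullyNormalized_iff_sylow (realized_group _) (isSylowIn_range_subtype S) hQ).2 hN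
    have hFC := fullyNormalized_fullyCentralized (S.isPGroup') (groupFusionSystem_saturated S) hFN
    constructor
    · have h := (fullyCentralized_iff_sylow (realized_group _) (isSylowIn_range_subtype S) hQ).1 hFC
      rw [img_subtype hQ, Subgroup.range_subtype] at h
      exact (isSylowIn_iff inf_le_right).1 h
    · have hA := (fullyNormalized_props (S.isPGroup') (groupFusionSystem_saturated S) hFN).1
      have heq : (Cfsg.groupFusionSystem (S : Subgroup G)).autGroup Q = Cfsg.autInducedBy ⊤ Q := by
        ext α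
        rw [mem_autGroup hQ, mem_autInducedBy]
        constructor
        · rintro ⟨-, -, g, hg⟩
          exact ⟨g, Subgroup.mem_top g, hg⟩
        · rintro ⟨g, -, hg⟩
          exact ⟨hQ, fun x => hQ (α x).2, g, hg⟩
      have h2 := (isFullyAutomized_iff.1 hA).2
      rw [heq] at h2
      exact (isSylowIn_iff (autInducedBy_mono le_top Q)).1 h2

end Cfsg.Agent.S5122
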