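import Cfsg.Statements.S5123
import Cfsg.Agent.Lib.Fusion.Realized

set_option autoImplicit false
open Cfsg Cfsg.FusionSystem Cfsg.Agent.Lib.Fusion

namespace Cfsg.Agent.S5123

/-- Let G be a finite group with Sylow p-subgroup S, P, Q ≤ S and g ∈ G with gPg⁻¹ = Q, and suppose N_S(Q) is a Sylow p-subgroup of N_G(Q). Let N be the set of x ∈ N_S(P) with gxg⁻¹ ∈ N_S(Q)C_G(Q). Then some h ∈ C_G(Q) satisfies (hg)N(hg)⁻¹ ≤ S. -/
theorem result {G : Type*} [Group G] [Finite G] (p : ℕ) [Fact p.Prime] (S : Sylow p G) (P Q : Subgroup G) (hP : P ≤ S) (hQ : Q ≤ S) (g : G) (hg : P.map (MulAut.conj g).toMonoidHom = Q) (hN : (∃ R : Sylow p ↥(Subgroup.normalizer (Q : Set G)), (R : Subgroup ↥(Subgroup.normalizer (Q : Set G))) = (Cfsg.FusionSystem.normalizerIn (S : Subgroup G) Q).subgroupOf (Subgroup.normalizer (Q : Set G)))) : ∃ h ∈ Subgroup.centralizer (Q : Set G), ((Cfsg.FusionSystem.normalizerIn (S : Subgroup G) P) ⊓ (Cfsg.FusionSystem.normalizerIn (S : Subgroup G) Q ⊔ Subgroup.centralizer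 (Q : Set G)).comap (MulAut.conj g).toMonoidHom).map (MulAut.conj (h * g)).toMonoidHom ≤ S := by
  have hN' : IsSylowIn p ((S : Subgroup G).subtype.range ⊓
      Subgroup.normalizer (img (S : Subgroup G).subtype Q : Set G))
      (Subgroup.normalizer (img (S : Subgroup G).subtype Q : Set G)) := by
    rw [img_subtype hQ, Subgroup.range_subtype]
    exact (isSylowIn_iff inf_le_right).2 hN
  have hFN := (fullyNormalized_iff_sylow (realized_group _) (isSylowIn_range_subtype S) hQ).2 hN'
  have hFC := fullyNormalized_fullyCentralized (S.isPGroup') (groupFusionSystem_saturated S) hFN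
  have hC := (fullyCentralized_iff_sylow (realized_group _) (isSylowIn_range_subtype S) hQ).1 hFC
  rw [img_subtype hQ, Subgroup.range_subtype] at hC
  set M := Cfsg.FusionSystem.normalizerIn (S : Subgroup G) P ⊓
      (Cfsg.FusionSystem.normalizerIn (S : Subgroup G) Q ⊔ Subgroup.centralizer (Q : Set G)).comap
        (MulAut.conj g).toMonoidHom
  obtain ⟨c, hc, hcT⟩ := exists_centralizer_conj_le (M := M.map (MulAut.conj g).toMonoidHom)
    S.isPGroup' hC ((S.isPGroup'.to_le (inf_le_left.trans (normalizerIn_le _ _))).map _) (by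
      rintro _ ⟨x, hx, rfl⟩
      exact hx.2)
  refine ⟨c, hc, ?_⟩
  rintro _ ⟨x, hx, rfl⟩
  have h := hcT _ ⟨x, hx, rfl⟩
  simpa [mul_assoc] using h

end Cfsg.Agent.S5123
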