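import Cfsg.Statements.S5128
import Cfsg.Agent.Lib.Fusion.Factor

set_option autoImplicit false
open Cfsg Cfsg.FusionSystem Cfsg.Agent.Lib.Fusion
open scoped commutatorElement

namespace Cfsg.Agent.S5128

/-- In a saturated fusion system over a finite p-group S, the product of two strongly closed subgroups is strongly closed. -/
theorem result {Ω : Type*} [Group Ω] {S : Subgroup Ω} [Finite S] (p : ℕ) [Fact p.Prime] (hS : IsPGroup p S) (F : Cfsg.FusionSystem S) (hF : F.IsSaturated p) (T₁ T₂ : Subgroup Ω) (h₁ : F.StronglyClosed T₁) (h₂ : F.StronglyClosed T₂) : F.StronglyClosed (T₁ ⊔ T₂) := by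
  refine ⟨sup_le h₁.1 h₂.1, fun R hR φ hφ x => ?_⟩
  set R₁ := R ⊔ T₁
  obtain ⟨ψ, hψ, hψe⟩ := approxMod hS hF h₁ hφ
  obtain ⟨a, ha, b, hb, hab⟩ := mem_sup_of_normalizes
    (h₁.1.trans (le_normalizer_of_stronglyClosed h₂)) (hR x.2)
  let u : ↥R₁ := ⟨a, le_sup_right (a := R) ha⟩
  have hbR : b ∈ R₁ := by
    have h := R₁.mul_mem (R₁.inv_mem (le_sup_right (a := R) ha)) (le_sup_left (b := T₁) x.2)
    rw [← hab] at h
    simpa using h
  let v : ↥R₁ := ⟨b, hbR⟩
  have hdec : Subgroup.inclusion (le_sup_left : R ≤ R₁) x = u * v := Subtype.ext hab.symm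
  have h := hψe x
  rw [hdec, map_mul] at h
  have h3 := (T₁ ⊔ T₂).mul_mem ((T₁ ⊔ T₂).mul_mem
    (le_sup_left (b := T₂) (map_mem_of_stronglyClosed h₁ hψ u ha))
    (le_sup_right (a := T₁) (map_mem_of_stronglyClosed h₂ hψ v hb)))
    (le_sup_left (b := T₂) h)
  simpa [mul_assoc] using h3

end Cfsg.Agent.S5128
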