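import Cfsg.Statements.S5139
import Cfsg.Agent.Lib.Fusion.SmallExp
import Cfsg.Agent.Lib.Fusion.PPart
import Cfsg.Agent.Lib.Fusion.Realized
import Cfsg.Agent.Lib.Transfer.Basic
import Cfsg.Agent.S5093

set_option autoImplicit false
open Cfsg

namespace Cfsg.Agent.S5139

open Cfsg.FusionSystem Cfsg.Agent.Lib.Fusion

theorem ppower_le {Ω : Type*} [Group Ω] {S T : Subgroup Ω} [Finite S] {p : ℕ} [Fact p.Prime] (hS : IsPGroup p S)
    (hTS : T ≤ S) {F : FusionSystem S} {D E : FusionSystem T} (hD : D.HasPPowerIndexIn F p) (hEs : E.IsSaturated p)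
    (hE : E.HasPPowerIndexIn F p) : E ≤ D := by
  haveI := finite_of_le hTS
  refine alperin (hS.to_le hTS) hEs D fun P hP => ?_
  obtain ⟨-, -, hn⟩ := centric_radical_of_top_or_essential (hS.to_le hTS) hEs hP
  refine autGroup_le_of_coprime (hS.to_le hTS) hEs hn _ (autInducedBy_le_autGroup hn.1) fun α hα hcop => ?_
  have hF : α ∈ F.autGroup P := (mem_autGroup (hn.1.trans hTS)).2 (hE.1 P ((mem_autGroup hn.1).1 hα))
  exact hD.2.2 P hn.1 ⟨⟨α, hF⟩, coprime_mem_pResidual (α := ⟨α, hF⟩) hcop, rfl⟩

theorem main {G : Type*} [Group G] [Finite G] (p : ℕ) [Fact p.Prime] (S : Sylow p G) {T : Subgroup G}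
    (hT : T = (S : Subgroup G) ⊓ Cfsg.pResidual p G) (E : Cfsg.FusionSystem T)
    (hEs : E.IsSaturated p) (hE : E.HasPPowerIndexIn (Cfsg.groupFusionSystem (S : Subgroup G)) p)
    (hhyp : (Cfsg.groupFusionSystem (S : Subgroup G)).hyperfocalSubgroup p = T) :
    ∃ h : (S : Subgroup G) ⊓ Cfsg.pResidual p G ≤ Cfsg.pResidual p G, ∀ P : Subgroup G,
      E.Hom P = (Cfsg.fusionSystemOfSubgroup (Cfsg.pResidual p G) ((S : Subgroup G) ⊓ Cfsg.pResidual p G) h).Hom P := by
  subst hT
  refine ⟨inf_le_right, ?_⟩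
  set N := Cfsg.pResidual p G
  have : N.Normal := Cfsg.Agent.Lib.Transfer.pResidual_normal
  set D := Cfsg.fusionSystemOfSubgroup N ((S : Subgroup G) ⊓ N) inf_le_right
  have hDs : D.IsSaturated p := fusionSystemOfSubgroup_saturated inf_le_right
    (IsSylowIn.inf_of_normalizes (H := (S : Subgroup G)) (K := ⊤) (isSylowIn_top S) le_top
      (by rw [Subgroup.normalizer_eq_top]))
  have hD : D.HasPPowerIndexIn (Cfsg.groupFusionSystem (S : Subgroup G)) p := by
    refine ⟨fun P φ ⟨hP, hv, g, _, hg⟩ => ⟨hP.trans inf_le_left, fun x => (hv x).1, g, hg⟩, hhyp.le, fun P hP => ?_⟩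
    have hPS : P ≤ (S : Subgroup G) := hP.trans inf_le_left
    have := finite_mulAut hPS
    rintro _ ⟨α, hα, rfl⟩
    have key : Cfsg.pResidual p ((Cfsg.groupFusionSystem (S : Subgroup G)).autGroup P) ≤
        (D.autGroup P).comap ((Cfsg.groupFusionSystem (S : Subgroup G)).autGroup P).subtype := by
      refine (Subgroup.closure_le _).2 fun β hβ => ?_
      show (β : MulAut P) ∈ D.autGroup P
      obtain ⟨-, -, g, hg⟩ := (mem_autGroup hPS).1 β.2
      have hcop : (orderOf (β : MulAut P)).Coprime p := by rw [Subgroup.orderOf_coe]; exact hβ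
      obtain ⟨m, hm, hm1⟩ := exists_pPrime_exponent g (N := orderOf (β : MulAut P)) hcop
      have hgm : g ^ m ∈ N := Cfsg.Agent.Lib.Transfer.mem_pResidual hm
      have hpow : ∀ j : ℕ, ∀ y : P, ((((β : MulAut P) ^ j) y : P) : G) = g ^ j * (y : G) * (g ^ j)⁻¹ := by
        intro j
        induction j with
        | zero => intro y; simp
        | succ j ih =>
          intro y
          rw [pow_succ' (β : MulAut P), MulAut.mul_apply, pow_succ' g]
          refine (hg _).trans ?_
          rw [ih]
          group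
      refine (mem_autGroup hP).2 ⟨hP, fun x => hP ((β : MulAut P) x).2, g ^ m, hgm, fun x => ?_⟩
      have h1 := hpow m x
      rw [pow_eq_self_of_modEq hm1] at h1
      exact h1
    exact key hα
  intro P
  exact Set.Subset.antisymm (ppower_le S.isPGroup' inf_le_left hD hEs hE P) (ppower_le S.isPGroup' inf_le_left hE hDs hD P)


/-- Let G be a finite group with Sylow p-subgroup S and O^p(G) the subgroup generated by the elements of order prime to p. Then the p-residual subsystem of the fusion system of G on S — the saturated subsystem of p-power index over the hyperfocal subgroup — is the fusion system of O^p(G) on S ∩ O^p(G): its maps are exactly the conjugation maps by elements of O^p(G) between subgroups of S ∩ O^p(G). -/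
theorem result {G : Type*} [Group G] [Finite G] (p : ℕ) [Fact p.Prime] (S : Sylow p G) (E : Cfsg.FusionSystem ((Cfsg.groupFusionSystem (S : Subgroup G)).hyperfocalSubgroup p)) (hE : (Cfsg.groupFusionSystem (S : Subgroup G)).IsPResidual p E) : ∃ h : (S : Subgroup G) ⊓ Cfsg.pResidual p G ≤ Cfsg.pResidual p G, ∀ P : Subgroup G, E.Hom P = (Cfsg.fusionSystemOfSubgroup (Cfsg.pResidual p G) ((S : Subgroup G) ⊓ Cfsg.pResidual p G) h).Hom P := by
  exact main p S (S5093.result p S) E hE.1 hE.2 rfl

end Cfsg.Agent.S5139
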