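import Cfsg.Statements.S5159
import Cfsg.Agent.Lib.Fusion.Solvable

set_option autoImplicit false
open Cfsg Cfsg.FusionSystem Cfsg.Agent.Lib.Fusion
open scoped commutatorElement

namespace Cfsg.Agent.S5159

/-- Let F be a saturated fusion system over a finite p-group S, E a normal subsystem over T, and D the factor system of F modulo T (read through any homomorphism on S with kernel T). Then F is solvable if and only if E and D are solvable (solvable, for a system over a subgroup S: for every subgroup R other than S that is strongly closed in F, the factor system of F modulo R has a nontrivial subgroup normal in it). -/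
theorem result {Ω : Type*} [Group Ω] {S : Subgroup Ω} [Finite S] (p : ℕ) [Fact p.Prime] (hS : IsPGroup p S) (F : Cfsg.FusionSystem S) (hF : F.IsSaturated p) {T : Subgroup Ω} (E : Cfsg.FusionSystem T) (hE : E.IsNormalIn F p) {Ω' : Type*} [Group Ω'] {S' : Subgroup Ω'} (θ : S →* Ω') (D : Cfsg.FusionSystem S') (hD : F.IsFactorSystem T θ D) : F.IsSolvableSystem ↔ (E.IsSolvableSystem ∧ D.IsSolvableSystem) := by
  have hT := hE.1.2.2.2.1
  have hEsat := hE.1.1
  have : Finite T := finite_of_le hT.1
  have hTp := hS.to_le hT.1
  have := finite_of_factor hD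
  have hDsat := saturated_of_factor hS hF hT hD
  constructor
  · intro h
    obtain ⟨n, C, h0, hn, -, hsc, hstep⟩ := (abSeries_of_solvable hS hF h).exists_fin
    constructor
    · refine isSolvableSystem_of_chain hTp hEsat (C := fun i => C i ⊓ T) (by rw [h0, bot_inf_eq])
        (by rw [hn, inf_eq_right.2 hT.1]) (fun i => ⟨inf_le_right, fun Q hQ φ hφ x => ?_⟩)
        fun i => le_inf ((Subgroup.commutator_mono inf_le_left inf_le_left).trans (hstep i))
          ((Subgroup.commutator_mono inf_le_right inf_le_right).trans (Subgroup.commutator_le_self T))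
      exact ⟨(hsc i).2 Q (hQ.trans inf_le_left) φ (hE.1.2.2.1 Q hφ) x, val_mem hφ x⟩
    · refine isSolvableSystem_of_chain (isPGroup_of_factor hS hD) hDsat
        (C := fun i => imageAlong θ (C i)) ?_ ?_ (fun i => stronglyClosed_imageAlong hD (hsc i))
        fun i => commutator_imageAlong_le (hstep i)
      · rw [h0]
        show (Subgroup.subgroupOf ⊥ S).map θ = ⊥
        rw [Subgroup.bot_subgroupOf, Subgroup.map_bot]
      · rw [hn, ← hD.2.2.1]
        show (S.subgroupOf S).map θ = θ.range
        rw [Subgroup.subgroupOf_self, MonoidHom.range_eq_map]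
  · rintro ⟨hEs, hDs⟩
    have h1 : AbSeries F ⊥ T := abSeries_of_steps hT (fun R hR hRT hne =>
      exists_invariant_step hS hE.1 hEs hR hRT hne) stronglyClosed_bot bot_le
    have h2 := (abSeries_of_solvable (isPGroup_of_factor hS hD) hDsat hDs).preimage
      (isSurjectiveMorphism_of_factor hS hF hT hD).1
    have e1 : preimageAlong θ (⊥ : Subgroup Ω') = T := by
      ext x
      refine mem_preimageAlong.trans ⟨fun ⟨h, hx⟩ => (hD.2.1 _).1 (Subgroup.mem_bot.1 hx),
        fun hx => ⟨hT.1 hx, Subgroup.mem_bot.2 ((hD.2.1 _).2 hx)⟩⟩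
    have e2 : preimageAlong θ S' = S := by
      ext x
      exact mem_preimageAlong.trans ⟨fun ⟨h, _⟩ => h,
        fun h => ⟨h, hD.2.2.1.le ⟨⟨x, h⟩, rfl⟩⟩⟩
    rw [e1, e2] at h2
    obtain ⟨n, C, h0, hn, -, hsc, hstep⟩ := (h1.trans h2).exists_fin
    exact isSolvableSystem_of_chain hS hF h0 hn hsc hstep

end Cfsg.Agent.S5159
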