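import Cfsg.Statements.S5160
import Cfsg.Agent.Lib.Fusion.Simple
import Cfsg.Agent.Lib.Fusion.Criteria

set_option autoImplicit false
open Cfsg Cfsg.FusionSystem Cfsg.Agent.Lib.Fusion
open scoped commutatorElement

namespace Cfsg.Agent.S5160

/-- Let G be a finite group with nontrivial Sylow p-subgroup S and F its fusion system on S. Suppose (a) no nontrivial proper subgroup of S is strongly closed in F, and (b) the automorphisms of S induced by G are generated by those induced, for R running over the fully normalized radical centric subgroups of F, by the subgroup of N_G(R) generated by its elements of p-power order. Then F is simple. -/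
theorem result {G : Type*} [Group G] [Finite G] (p : ℕ) [Fact p.Prime] (S : Sylow p G) (hS1 : (S : Subgroup G) ≠ ⊥) (ha : ∀ T : Subgroup G, (Cfsg.groupFusionSystem (S : Subgroup G)).StronglyClosed T → T = ⊥ ∨ T = (S : Subgroup G)) (hb : Cfsg.autInducedBy ⊤ (S : Subgroup G) = ⨆ (R : Subgroup G) (_ : (Cfsg.groupFusionSystem (S : Subgroup G)).IsFullyNormalized R ∧ (Cfsg.groupFusionSystem (S : Subgroup G)).IsRadical p R ∧ (Cfsg.groupFusionSystem (S : Subgroup G)).IsCentric R), Cfsg.autInducedBy (Subgroup.closure {g : G | g ∈ Subgroup.normalizer (R : Set G) ∧ ∃ k : ℕ, orderOf g = p ^ k}) (S : Subgroup G)) : (Cfsg.groupFusionSystem (S : Subgroup G)).IsSimple p := by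
  have hpS : IsPGroup p (S : Subgroup G) := S.2
  have hF := groupFusionSystem_saturated S
  refine isSimple_of hF hS1 ha fun E hE => ?_
  obtain ⟨⟨hEs, -, hEi⟩, -⟩ := hE
  intro α hα
  have hα1 : α ∈ Cfsg.autInducedBy ⊤ (S : Subgroup G) := by
    obtain ⟨-, -, g, hg⟩ := (mem_autGroup le_rfl).1 hα
    exact mem_autInducedBy.2 ⟨g, Subgroup.mem_top g, hg⟩
  rw [hb] at hα1
  revert α
  suffices h : ∀ R : Subgroup G, (Cfsg.groupFusionSystem (S : Subgroup G)).IsFullyNormalized R ∧
      (Cfsg.groupFusionSystem (S : Subgroup G)).IsRadical p R ∧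
      (Cfsg.groupFusionSystem (S : Subgroup G)).IsCentric R →
      Cfsg.autInducedBy (Subgroup.closure {g : G | g ∈ Subgroup.normalizer (R : Set G) ∧
        ∃ k : ℕ, orderOf g = p ^ k}) (S : Subgroup G) ≤ E.autGroup (S : Subgroup G) from
    fun α _ hα => (iSup_le fun R => iSup_le (h R)) hα
  rintro R ⟨hFN, -, hRc⟩ β hβ
  obtain ⟨g, ⟨hgL, hgS⟩, hge⟩ := exists_of_mem_autInducedBy hβ
  obtain rfl : β = conjAut (S : Subgroup G) hgS := by ext x; rw [hge, conjAut_apply]
  have hL : ∀ g ∈ Subgroup.closure {g : G | g ∈ Subgroup.normalizer (R : Set G) ∧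
      ∃ k : ℕ, orderOf g = p ^ k},
      ∃ h : g ∈ Subgroup.normalizer (R : Set G), conjAut R h ∈ E.autGroup R := by
    intro g hg
    induction hg using Subgroup.closure_induction with
    | mem x hx =>
      obtain ⟨hxn, k, hk⟩ := hx
      refine ⟨hxn, pElement_mem_autGroup hpS hF hEi hFN ((mem_autGroup hFN.1).2
        ⟨hFN.1, fun y => hFN.1 (conjAut R hxn y).2, x, fun y => rfl⟩) ⟨k, ?_⟩⟩
      show R.normalizerMonoidHom ⟨x, hxn⟩ ^ p ^ k = 1
      rw [← map_pow, ← hk]
      convert map_one R.normalizerMonoidHom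
      exact Subtype.ext (pow_orderOf_eq_one x)
    | one => exact ⟨one_mem _, by convert Subgroup.one_mem _; ext; simp⟩
    | mul a b _ _ ha hb => exact ⟨mul_mem ha.1 hb.1, by
        convert Subgroup.mul_mem _ ha.2 hb.2 using 1; ext; simp [mul_assoc]⟩
    | inv a _ ha => exact ⟨inv_mem ha.1, by
        convert Subgroup.inv_mem _ ha.2 using 1
        apply eq_inv_of_mul_eq_one_left
        ext; simp [mul_assoc]⟩
  obtain ⟨hgR, hgc⟩ := hL g hgL
  exact conjAut_mem_of_centric hpS hF hEs hEi.1 hgS hRc hgR hgc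

end Cfsg.Agent.S5160
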