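import Cfsg.Statements.S5163
import Cfsg.Agent.Lib.Fusion.GroupSimple
import Cfsg.Agent.Lib.Fusion.SLUpper
import Cfsg.Agent.Lib.GenStruct.Basic
import Cfsg.Agent.Lib.Classical.Simple

set_option autoImplicit false
open Cfsg Cfsg.FusionSystem Cfsg.Agent.Lib.Fusion
open scoped commutatorElement

namespace Cfsg.Agent.S5163

open Matrix Cfsg.Agent.Lib.Fusion.SLUpper in
theorem simple_of_hom {K : Type*} [Field K] [Fintype K] {p : ℕ} [Fact p.Prime] [CharP K p] {n : ℕ}
    (hn : 3 ≤ n) {G : Type*} [Group G] [Finite G] (π : Matrix.SpecialLinearGroup (Fin n) K →* G)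
    (hπ : Function.Surjective π)
    (hker : π.ker = Subgroup.center (Matrix.SpecialLinearGroup (Fin n) K)) (S : Sylow p G)
    (hS : (S : Subgroup G) = (U n K).map π) :
    (Cfsg.groupFusionSystem (S : Subgroup G)).IsSimple p := by
  -- kernel facts
  have hkerU : ∀ z : Matrix.SpecialLinearGroup (Fin n) K, π z = 1 → z ∈ U n K → z = 1 := by
    intro z hz hzU
    obtain ⟨r, -, hr⟩ := Matrix.SpecialLinearGroup.mem_center_iff.1 (hker.le hz)
    have h0 : (z : Matrix (Fin n) (Fin n) K) ⟨0, by omega⟩ ⟨0, by omega⟩ = r := by rw [← hr]; simp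
    rw [hzU.2] at h0
    apply Subtype.ext
    rw [← hr, ← h0]; simp
  have hcenter : ∀ z : Matrix.SpecialLinearGroup (Fin n) K, π z = 1 →
      (z : Matrix (Fin n) (Fin n) K).BlockTriangular id ∧ ∀ g, z * g = g * z := fun z hz => by
    obtain ⟨r, -, hr⟩ := Matrix.SpecialLinearGroup.mem_center_iff.1 (hker.le hz)
    refine ⟨?_, fun g => (Subgroup.mem_center_iff.1 (hker.le hz) g).symm⟩
    rw [← hr]
    exact blockTriangular_diagonal _
  have hpow : ∀ u ∈ U n K, ∃ k : ℕ, u ^ p ^ k = 1 := fun u hu => by
    obtain ⟨k, hk⟩ := isPGroup_U (n := n) (K := K) p ⟨u, hu⟩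
    exact ⟨k, congrArg Subtype.val hk⟩
  -- an element commuting with a unipotent modulo the kernel commutes with it
  have hcomm : ∀ g u : Matrix.SpecialLinearGroup (Fin n) K, u ∈ U n K → π g * π u = π u * π g →
      g * u = u * g := by
    intro g u hu hgu
    set z := g * u * g⁻¹ * u⁻¹
    have hz : π z = 1 := by
      simp only [z, map_mul, map_inv, hgu]
      group
    have hzc := (hcenter z hz).2
    have hgug : g * u * g⁻¹ = z * u := by simp [z]
    obtain ⟨k, hk⟩ := hpow u hu
    have hzp : z ^ p ^ k = 1 := by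
      have h1 : (g * u * g⁻¹) ^ p ^ k = (z * u) ^ p ^ k := by rw [hgug]
      rw [conj_pow, hk, (show Commute z u from hzc u).mul_pow, hk, mul_one, mul_one,
        mul_inv_cancel] at h1
      exact h1.symm
    have hz1 : z = 1 := hkerU z hz (mem_U_of_triangular p (hcenter z hz).1 ⟨k, hzp⟩)
    rw [hz1, one_mul] at hgug
    calc g * u = g * u * g⁻¹ * g := by group
      _ = u * g := by rw [hgug]
  have hS1 : (S : Subgroup G) ≠ ⊥ := by
    intro h
    have hx := x_mem (K := K) (show (⟨0, by omega⟩ : Fin n) < ⟨1, by omega⟩ by simp [Fin.lt_def]) 1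
    have h1 : π _ = 1 := Subgroup.mem_bot.1 (h.le (hS.ge ⟨_, hx, rfl⟩))
    have h2 := hkerU _ h1 hx
    have h3 := congrArg (fun m : Matrix.SpecialLinearGroup (Fin n) K =>
      (m : Matrix (Fin n) (Fin n) K) ⟨0, by omega⟩ ⟨1, by omega⟩) h2
    simp [Matrix.SpecialLinearGroup.transvection_coe, Matrix.one_apply] at h3
  refine isSimple_group S hS1 (fun T hT => ?_) ?_
  · -- strongly closed subgroups
    by_cases hT1 : T = ⊥
    · exact Or.inl hT1
    refine Or.inr (le_antisymm hT.1 ?_)
    have : (T.subgroupOf (S : Subgroup G)).Normal :=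
      Subgroup.normal_subgroupOf_of_le_normalizer (le_normalizer_of_stronglyClosed hT)
    obtain ⟨z, hzT, hzc, hz1⟩ := Cfsg.Agent.Lib.GenStruct.exists_mem_center S.2
      (T.subgroupOf (S : Subgroup G))
      (fun h => hT1 ((Subgroup.subgroupOf_eq_bot.1 h).eq_bot_of_le hT.1))
    obtain ⟨u, hu, huz⟩ := hS.le z.2
    have hroot := eq_root_of_comm (by omega) hu fun i j hij => by
      refine hcomm u _ (x_mem hij 1) ?_
      have h1 := congrArg Subtype.val
        (Subgroup.mem_center_iff.1 hzc ⟨_, hS.ge ⟨_, x_mem hij 1, rfl⟩⟩)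
      simp only [Subgroup.coe_mul] at h1
      rw [huz]
      exact h1.symm
    have hij0 : (⟨0, by omega⟩ : Fin n) ≠ ⟨n - 1, by omega⟩ := by simp; omega
    set c := (u : Matrix (Fin n) (Fin n) K) ⟨0, by omega⟩ ⟨n - 1, by omega⟩
    have hc : c ≠ 0 := by
      intro h0
      rw [h0] at hroot
      simp [Matrix.SpecialLinearGroup.transvection_coeff_zero] at hroot
      exact hz1 (Subtype.ext (by rw [← huz, hroot, map_one]; rfl))
    rw [hS]
    refine (Subgroup.map_mono U_le_closure).trans ?_
    rw [MonoidHom.map_closure, Subgroup.closure_le]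
    rintro _ ⟨_, ⟨i, j, hij, d, rfl⟩, rfl⟩
    by_cases hd : d = 0
    · subst hd
      rw [SLUpper.x, Matrix.SpecialLinearGroup.transvection_coeff_zero, map_one]
      exact T.one_mem
    obtain ⟨g, hg⟩ := exists_conj_root hn hij0 hij.ne hc hd
    rw [← hroot] at hg
    have hmem : conjHom (Subgroup.zpowers (z : G)) (π g) ∈
        (Cfsg.groupFusionSystem (S : Subgroup G)).Hom (Subgroup.zpowers (z : G)) := by
      refine ⟨Subgroup.zpowers_le.2 z.2, fun w => ?_, π g, fun w => rfl⟩
      obtain ⟨w, m, rfl⟩ := w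
      show π g * (z : G) ^ m * (π g)⁻¹ ∈ (S : Subgroup G)
      rw [← conj_zpow, ← huz, ← map_inv, ← map_mul, ← map_mul, hg, mul_inv_cancel_right]
      exact zpow_mem (hS.ge ⟨_, x_mem hij d, rfl⟩) m
    have h2 := hT.2 (Subgroup.zpowers (z : G)) (Subgroup.zpowers_le.2 hzT) _ hmem
      ⟨z, Subgroup.mem_zpowers _⟩
    have h3 : π g * (z : G) * (π g)⁻¹ = π (x hij.ne d) := by
      rw [← huz, ← map_inv, ← map_mul, ← map_mul, hg, mul_inv_cancel_right]
    exact h3 ▸ h2
  · -- generation of the Sylow normalizer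
    intro g hg
    obtain ⟨M, rfl⟩ := hπ g
    have hnorm : ∀ u ∈ U n K, M * u * M⁻¹ ∈ U n K := by
      intro u hu
      obtain ⟨v, hv, hve⟩ := hS.le (conj_mem_of_mem_normalizer hg (hS.ge ⟨u, hu, rfl⟩))
      set z := v⁻¹ * (M * u * M⁻¹)
      have hz : π z = 1 := by rw [map_mul, map_inv, hve, map_mul, map_mul, map_inv, inv_mul_cancel]
      have hbt : ((M * u * M⁻¹ : Matrix.SpecialLinearGroup (Fin n) K) :
          Matrix (Fin n) (Fin n) K).BlockTriangular id := by
        rw [show M * u * M⁻¹ = v * z by simp [z]]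
        exact hv.1.mul (hcenter z hz).1
      obtain ⟨k, hk⟩ := hpow u hu
      exact mem_U_of_triangular p hbt ⟨k, by rw [conj_pow, hk]; group⟩
    have hMt := triangular_of_conj_mem hnorm
    set good := (S : Subgroup G) ⊔ Subgroup.closure {g : G |
      g ∈ Subgroup.normalizer ((S : Subgroup G) : Set G) ∧
        ∃ R : Subgroup G, (S : Subgroup G) ≤ Subgroup.normalizer (R : Set G) ∧
          (Cfsg.groupFusionSystem (S : Subgroup G)).IsCentric R ∧
          g ∈ Subgroup.closure {x : G | x ∈ Subgroup.normalizer (R : Set G) ∧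
            ∃ k : ℕ, x ^ p ^ k = 1}} with hgood
    -- torus generators
    have hgen : ∀ (i l : Fin n) (hil : i ≠ l) (a : K) (ha : a ≠ 0) (k : ℕ), 1 ≤ k → k < n →
        ((i : ℕ) < k ↔ (l : ℕ) < k) → π (Matrix.SpecialLinearGroup.diag2n hil a ha) ∈ good := by
      intro i l hil a ha k hk1 hkn hsame
      refine le_sup_right (a := (S : Subgroup G)) (Subgroup.subset_closure
        ⟨mem_normalizer_of_conj_mem ?_, (Rad n K k).map π, ?_, ?_, ?_⟩)
      · intro y hy
        obtain ⟨v, hv, rfl⟩ := hS.le hy
        rw [← map_inv, ← map_mul, ← map_mul]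
        refine hS.ge ⟨_, ?_, rfl⟩
        have hbt : ((Matrix.SpecialLinearGroup.diag2n hil a ha : Matrix.SpecialLinearGroup (Fin n) K) :
            Matrix (Fin n) (Fin n) K).BlockTriangular id := by
          rw [Matrix.SpecialLinearGroup.diag2n_coe]
          exact blockTriangular_diagonal _
        have hbt' : (((Matrix.SpecialLinearGroup.diag2n hil a ha)⁻¹ : Matrix.SpecialLinearGroup (Fin n) K) :
            Matrix (Fin n) (Fin n) K).BlockTriangular id := by
          rw [Matrix.SpecialLinearGroup.coe_inv, Matrix.SpecialLinearGroup.diag2n_coe, Matrix.adjugate_diagonal]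
          exact blockTriangular_diagonal _
        obtain ⟨e, he⟩ := hpow v hv
        refine mem_U_of_triangular p ?_ ⟨e, by rw [conj_pow, he]; group⟩
        rw [Matrix.SpecialLinearGroup.coe_mul, Matrix.SpecialLinearGroup.coe_mul]
        exact (hbt.mul hv.1).mul hbt'
      · rw [hS]
        intro y hy
        obtain ⟨v, hv, rfl⟩ := hy
        refine mem_normalizer_of_conj_mem ?_
        rintro _ ⟨r, hr, rfl⟩
        rw [← map_inv, ← map_mul, ← map_mul]
        refine ⟨_, conj_mem_rad (fun a b ha hb => hv.1 ?_)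
          (fun a b ha hb => ((U n K).inv_mem hv).1 ?_) hr, rfl⟩ <;>
        · simp only [id, Fin.lt_def]; omega
      · refine isCentric_of_centralizer_le (hS ▸ Subgroup.map_mono (rad_le k)) ?_
        intro y hy
        obtain ⟨N, rfl⟩ := hπ y
        obtain ⟨r, hr, hoff⟩ := mem_rad_of_comm hk1 hkn (g := N) fun a b hab ha hb => by
          refine hcomm N _ (rad_le k (x_mem_rad hab ha hb 1)) ?_
          exact (hy _ ⟨_, x_mem_rad hab ha hb 1, rfl⟩).symm
        have hr0 : r ≠ 0 := fun h0 => by simp [h0, zero_pow (show n ≠ 0 by omega)] at hr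
        set Z : Matrix.SpecialLinearGroup (Fin n) K :=
          ⟨Matrix.scalar (Fin n) r⁻¹, by simp [Matrix.det_diagonal, inv_pow, hr]⟩
        have hZ : Z ∈ Subgroup.center (Matrix.SpecialLinearGroup (Fin n) K) :=
          Matrix.SpecialLinearGroup.mem_center_iff.2 ⟨r⁻¹, by simp [inv_pow, hr], rfl⟩
        have hNR : Z * N ∈ Rad n K k := fun a b hab => by
          rw [Matrix.SpecialLinearGroup.coe_mul]
          show (Matrix.scalar (Fin n) r⁻¹ * (N : Matrix (Fin n) (Fin n) K)) a b = _
          rw [Matrix.scalar_apply, Matrix.diagonal_mul, hoff a b hab]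
          split_ifs <;> simp [inv_mul_cancel₀ hr0]
        -- `π Z` is a central element of `p'`-order inside a subgroup of the image, hence harmless
        have hZ1 : π Z = 1 := MonoidHom.mem_ker.1 (hker.ge hZ)
        refine ⟨Z * N, hNR, ?_⟩
        rw [map_mul, hZ1, one_mul]
      · rw [Cfsg.Agent.Lib.Classical.diag2n_decompose hil a ha]
        have hT : ∀ (u v : Fin n) (huv : u ≠ v) (c : K), ((u : ℕ) < k ↔ (v : ℕ) < k) →
            π (Matrix.SpecialLinearGroup.transvection huv c) ∈ Subgroup.closure {x : G |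
              x ∈ Subgroup.normalizer (((Rad n K k).map π : Subgroup G) : Set G) ∧
                ∃ e : ℕ, x ^ p ^ e = 1} := by
          intro u v huv c huvk
          have hp : ∀ c : K, InPara k (Matrix.SpecialLinearGroup.transvection huv c) := by
            intro c a b ha hb
            have h1 : ¬(u = a ∧ v = b) := fun ⟨e1, e2⟩ => by subst e1 e2; omega
            have h2 : a ≠ b := Fin.ne_of_val_ne (by omega)
            simp [Matrix.SpecialLinearGroup.transvection_coe, Matrix.single_apply, h1, h2]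
          refine Subgroup.subset_closure ⟨mem_normalizer_of_conj_mem ?_, 1, ?_⟩
          · rintro _ ⟨r, hr, rfl⟩
            rw [← map_inv, ← map_mul, ← map_mul]
            exact ⟨_, conj_mem_rad (hp c)
              (by rw [Matrix.SpecialLinearGroup.transvection_inv]; exact hp _) hr, rfl⟩
          · rw [pow_one, ← map_pow, x_pow p u v huv c, map_one]
        simp only [map_mul]
        exact mul_mem (mul_mem (mul_mem (mul_mem (mul_mem (hT i l hil a hsame)
          (hT l i hil.symm _ hsame.symm)) (hT i l hil a hsame)) (hT i l hil _ hsame))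
          (hT l i hil.symm _ hsame.symm)) (hT i l hil _ hsame)
    -- reduce the diagonal of `M` outside the pivot
    set one : Fin n := ⟨1, by omega⟩
    suffices hind : ∀ (s : Finset (Fin n)) (M : Matrix.SpecialLinearGroup (Fin n) K),
        one ∉ s → (M : Matrix (Fin n) (Fin n) K).BlockTriangular id →
        (∀ i, i ≠ one → i ∉ s → M i i = 1) → π M ∈ good from
      hind (Finset.univ.erase one) M (by simp) hMt (fun i hi hi' => by simp [hi] at hi')
    intro s
    induction s using Finset.induction_on with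
    | empty =>
      intro M _ hM h1
      refine le_sup_left (b := Subgroup.closure _) (hS.ge ⟨M, ⟨hM, fun i => ?_⟩, rfl⟩)
      by_cases hi : i = one
      · subst hi
        have hdet := M.2
        rw [Matrix.det_of_isUpperTriangular hM, Finset.prod_eq_single one
          (fun j _ hj => h1 j hj (by simp)) (by simp)] at hdet
        exact hdet
      · exact h1 i hi (by simp)
    | insert i s his ih =>
      intro M hone hM h1
      have hi : i ≠ one := fun h => hone (by simp [h])
      have hMi : M i i ≠ 0 := by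
        intro h0
        have hdet := M.2
        rw [Matrix.det_of_isUpperTriangular hM] at hdet
        exact zero_ne_one ((Finset.prod_eq_zero (f := fun l => M l l) (Finset.mem_univ i) h0).symm.trans hdet)
      set D := Matrix.SpecialLinearGroup.diag2n hi (M i i)⁻¹ (inv_ne_zero hMi) with hD
      have hDM : π (D * M) ∈ good := by
        refine ih (D * M) (fun h => hone (Finset.mem_insert_of_mem h)) ?_ fun j hj hjs => ?_
        · rw [Matrix.SpecialLinearGroup.coe_mul, hD, Matrix.SpecialLinearGroup.diag2n_coe]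
          exact (blockTriangular_diagonal _).mul hM
        · rw [Matrix.SpecialLinearGroup.coe_mul, hD, Matrix.SpecialLinearGroup.diag2n_coe, Matrix.diagonal_mul,
            if_neg hj]
          by_cases hji : j = i
          · subst hji; rw [if_pos rfl, inv_mul_cancel₀ hMi]
          · rw [if_neg hji, one_mul, h1 j hj (by simp [hji, hjs])]
      have hDg : π D ∈ good := by
        by_cases hi0 : (i : ℕ) = 0
        · exact hgen i one hi _ _ 2 (by omega) (by omega) (by simp [one, hi0])
        · exact hgen i one hi _ _ 1 le_rfl (by omega) (by simp [one]; omega)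
      have h2 := mul_mem (inv_mem hDg) hDM
      rwa [map_mul, inv_mul_cancel_left] at h2

open Matrix Cfsg.Agent.Lib.Fusion.SLUpper in
theorem psl_simple {K : Type*} [Field K] [Fintype K] (p : ℕ) [Fact p.Prime] [CharP K p] (n : ℕ)
    (hn : 3 ≤ n) (S : Sylow p (Matrix.ProjectiveSpecialLinearGroup (Fin n) K)) :
    (Cfsg.groupFusionSystem
      (S : Subgroup (Matrix.ProjectiveSpecialLinearGroup (Fin n) K))).IsSimple p := by
  set π₀ := QuotientGroup.mk' (Subgroup.center (Matrix.SpecialLinearGroup (Fin n) K))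
  have hker₀ : π₀.ker = Subgroup.center (Matrix.SpecialLinearGroup (Fin n) K) :=
    QuotientGroup.ker_mk' _
  have hU : IsPGroup p ((U n K).map π₀) := (isPGroup_U p).map π₀
  obtain ⟨P, hP⟩ := exists_sylow_of_normalizer hU fun g hg hgp => by
    obtain ⟨M, rfl⟩ := QuotientGroup.mk'_surjective _ g
    obtain ⟨k, hk⟩ := hgp
    have hz : M ^ p ^ k ∈ Subgroup.center (Matrix.SpecialLinearGroup (Fin n) K) := by
      rw [← hker₀]; exact MonoidHom.mem_ker.2 (by rw [map_pow]; exact hk)
    have hscal : ∀ z ∈ Subgroup.center (Matrix.SpecialLinearGroup (Fin n) K),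
        (z : Matrix (Fin n) (Fin n) K).BlockTriangular id := fun z hz => by
      obtain ⟨r, -, hr⟩ := Matrix.SpecialLinearGroup.mem_center_iff.1 hz
      rw [← hr]; exact blockTriangular_diagonal _
    have hMt := triangular_of_conj_mem (g := M) fun u hu => by
      obtain ⟨v, hv, hve⟩ := conj_mem_of_mem_normalizer hg ⟨u, hu, rfl⟩
      have hz' : v⁻¹ * (M * u * M⁻¹) ∈ Subgroup.center (Matrix.SpecialLinearGroup (Fin n) K) := by
        rw [← hker₀]; exact MonoidHom.mem_ker.2 (by rw [map_mul, map_inv, hve, map_mul, map_mul, map_inv, inv_mul_cancel])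
      obtain ⟨j, hj⟩ := isPGroup_U (n := n) (K := K) p ⟨u, hu⟩
      have hj' : u ^ p ^ j = 1 := congrArg Subtype.val hj
      refine mem_U_of_triangular p ?_ ⟨j, by rw [conj_pow, hj']; group⟩
      rw [show M * u * M⁻¹ = v * (v⁻¹ * (M * u * M⁻¹)) by simp]
      exact hv.1.mul (hscal _ hz')
    -- remove the scalar
    obtain ⟨r, -, hr⟩ := Matrix.SpecialLinearGroup.mem_center_iff.1 hz
    have hp : p.Prime := Fact.out
    set i₀ : Fin n := ⟨0, by omega⟩
    have hd : ∀ i, M i i = M i₀ i₀ := fun i => by
      refine (iterateFrobenius_inj K p k) ?_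
      have h1 : ∀ i, M i i ^ p ^ k = r := fun i => by
        rw [← (triangular_pow hMt i _).2, ← hr]; simp
      simp [iterateFrobenius_def, h1]
    set d := M i₀ i₀
    have hdn : d ^ n = 1 := by
      have hdet := M.2
      rw [Matrix.det_of_isUpperTriangular hMt, Finset.prod_congr rfl fun i _ => hd i] at hdet
      simpa using hdet
    have hd0 : d ≠ 0 := fun h0 => by simp [h0, zero_pow (show n ≠ 0 by omega)] at hdn
    set Z : Matrix.SpecialLinearGroup (Fin n) K :=
      ⟨Matrix.scalar (Fin n) d⁻¹, by simp [Matrix.det_diagonal, inv_pow, hdn]⟩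
    have hZ : π₀ Z = 1 := MonoidHom.mem_ker.1 (hker₀.ge
      (Matrix.SpecialLinearGroup.mem_center_iff.2 ⟨d⁻¹, by simp [inv_pow, hdn], rfl⟩))
    refine ⟨Z * M, ⟨?_, fun i => ?_⟩, by rw [map_mul, hZ, one_mul]⟩
    · rw [Matrix.SpecialLinearGroup.coe_mul]
      exact (blockTriangular_diagonal _).mul hMt
    · rw [Matrix.SpecialLinearGroup.coe_mul]
      show (Matrix.scalar (Fin n) d⁻¹ * (M : Matrix (Fin n) (Fin n) K)) i i = _
      rw [Matrix.scalar_apply, Matrix.diagonal_mul, hd i, inv_mul_cancel₀ hd0]
  obtain ⟨g, hg⟩ := MulAction.exists_smul_eq (Matrix.ProjectiveSpecialLinearGroup (Fin n) K) P S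
  refine simple_of_hom hn ((MulAut.conj g).toMonoidHom.comp π₀)
    ((MulAut.conj g).surjective.comp (QuotientGroup.mk'_surjective _)) ?_ S ?_
  · refine Eq.trans ?_ hker₀
    ext z
    simp [MonoidHom.mem_ker]
  · rw [← hg, Sylow.coe_subgroup_smul, ← Subgroup.map_map, ← hP]
    rfl

/-- For a finite field K of characteristic p and n ≥ 3, the p-fusion system of the projective special linear group PSL_n(K) on a Sylow p-subgroup is simple. -/
theorem result {K : Type*} [Field K] [Fintype K] (p : ℕ) [Fact p.Prime] [CharP K p] (n : ℕ) (hn : 3 ≤ n) (S : Sylow p (Matrix.ProjectiveSpecialLinearGroup (Fin n) K)) : (Cfsg.groupFusionSystem (S : Subgroup (Matrix.ProjectiveSpecialLinearGroup (Fin n) K))).IsSimple p := by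
  exact psl_simple p n hn S

end Cfsg.Agent.S5163
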