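import Cfsg.Statements.S5164
import Mathlib

set_option autoImplicit false
open Cfsg

namespace Cfsg.Agent.S5164

variable {p : ℕ} [Fact p.Prime]

/-- The wreath product of two cyclic groups of order `p`, on `p ^ 2` points. -/
def wr : Subgroup (Equiv.Perm (ZMod p × ZMod p)) where
  carrier := {σ | ∃ (s : ZMod p) (f : ZMod p → ZMod p), ∀ x, σ x = (x.1 + s, x.2 + f x.1)}
  one_mem' := ⟨0, fun _ => 0, fun x => by simp⟩
  mul_mem' := by
    rintro σ τ ⟨s, f, hσ⟩ ⟨u, g, hτ⟩
    exact ⟨u + s, fun i => g i + f (i + u), fun x => by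
      rw [Equiv.Perm.mul_apply, hτ, hσ]; simp only [add_assoc]⟩
  inv_mem' := by
    rintro σ ⟨s, f, hσ⟩
    refine ⟨-s, fun i => -f (i - s), fun x => σ.injective ?_⟩
    rw [Equiv.Perm.inv_def, Equiv.apply_symm_apply, hσ]
    simp [sub_eq_add_neg, add_assoc]

/-- Parameters to elements of `wr`. -/
def wrElem (q : ZMod p × (ZMod p → ZMod p)) : wr (p := p) :=
  ⟨⟨fun x => (x.1 + q.1, x.2 + q.2 x.1), fun x => (x.1 - q.1, x.2 - q.2 (x.1 - q.1)),
    fun x => by simp, fun x => by simp⟩, q.1, q.2, fun _ => rfl⟩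

theorem wr_pgroup : IsPGroup p (wr (p := p)) := by
  refine IsPGroup.of_card (n := p + 1) ?_
  have hb : Function.Bijective (wrElem (p := p)) := by
    refine ⟨fun q q' h => ?_, fun σ => ?_⟩
    · have h' : ∀ x : ZMod p × ZMod p, (x.1 + q.1, x.2 + q.2 x.1) = (x.1 + q'.1, x.2 + q'.2 x.1) :=
        fun x => congrArg (fun σ : wr (p := p) => (σ : Equiv.Perm (ZMod p × ZMod p)) x) h
      refine Prod.ext ?_ (funext fun i => ?_)
      · simpa using congrArg Prod.fst (h' (0, 0))
      · simpa using congrArg Prod.snd (h' (i, 0))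
    · obtain ⟨σ, s, f, h⟩ := σ
      exact ⟨(s, f), Subtype.ext (Equiv.ext fun x => (h x).symm)⟩
  rw [← Nat.card_congr (Equiv.ofBijective _ hb), Nat.card_prod, Nat.card_fun, Nat.card_zmod, pow_succ']

theorem wr_noncomm : ∃ a b : wr (p := p), a * b ≠ b * a := by
  refine ⟨wrElem (1, fun _ => 0), wrElem (0, fun i => if i = 0 then 1 else 0), fun h => ?_⟩
  have h' := congrArg (fun σ : wr (p := p) => ((σ : Equiv.Perm (ZMod p × ZMod p)) (0, 0)).2) h
  simp [wrElem] at h'

theorem sign_eq_one_of_isPGroup (hp : p ≠ 2) {α : Type*} [Fintype α] [DecidableEq α] {G : Type*} [Group G]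
    (hG : IsPGroup p G) (φ : G →* Equiv.Perm α) (g : G) : φ g ∈ alternatingGroup α := by
  rw [Equiv.Perm.mem_alternatingGroup]
  obtain ⟨k, hk⟩ := hG g
  have h1 : Equiv.Perm.sign (φ g) ^ (p ^ k) = 1 := by rw [← map_pow, ← map_pow, hk, map_one, map_one]
  rcases Int.units_eq_one_or (Equiv.Perm.sign (φ g)) with h | h
  · exact h
  · exfalso
    rw [h, Odd.neg_one_pow (((Fact.out : p.Prime).odd_of_ne_two hp).pow)] at h1
    exact absurd h1 (by decide)

/-- A nonabelian `p`-group inside the alternating group of degree `n`. -/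
theorem exists_nonabelian (n : ℕ) (hn : 6 ≤ n) (hp2 : p ^ 2 ≤ n) :
    ∃ φ : wr (p := p) →* alternatingGroup (Fin n), Function.Injective φ := by
  classical
  by_cases hp : p = 2
  · subst hp
    obtain ⟨ι⟩ : Nonempty ((ZMod 2 × ZMod 2) ⊕ Fin 2 ↪ Fin n) :=
      Function.Embedding.nonempty_of_card_le (by simpa using hn)
    let e : ℤˣ →* Equiv.Perm (Fin 2) :=
      { toFun := fun u => if u = 1 then 1 else Equiv.swap 0 1
        map_one' := by simp
        map_mul' := fun u v => by
          rcases Int.units_eq_one_or u with rfl | rfl <;> rcases Int.units_eq_one_or v with rfl | rfl <;>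
            simp }
    let ψ : wr (p := 2) →* Equiv.Perm ((ZMod 2 × ZMod 2) ⊕ Fin 2) :=
      (Equiv.Perm.sumCongrHom _ _).comp
        ((wr (p := 2)).subtype.prod (e.comp (Equiv.Perm.sign.comp (wr (p := 2)).subtype)))
    have hψs : ∀ g, Equiv.Perm.sign (ψ g) = 1 := by
      intro g
      show Equiv.Perm.sign (Equiv.Perm.sumCongr (g : Equiv.Perm (ZMod 2 × ZMod 2))
        (e (Equiv.Perm.sign (g : Equiv.Perm (ZMod 2 × ZMod 2))))) = 1
      rw [Equiv.Perm.sign_sumCongr]
      rcases Int.units_eq_one_or (Equiv.Perm.sign (g : Equiv.Perm (ZMod 2 × ZMod 2))) with h | h <;>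
        simp [e, h]
    have hψi : Function.Injective ψ := fun g g' h => by
      have h1 := congrArg Prod.fst (Equiv.Perm.sumCongrHom_injective h)
      exact Subtype.ext h1
    refine ⟨((Equiv.Perm.viaEmbeddingHom ι).comp ψ).codRestrict _ fun g => ?_, fun g g' h => ?_⟩
    · rw [Equiv.Perm.mem_alternatingGroup, MonoidHom.comp_apply, Equiv.Perm.viaEmbeddingHom_apply,
        Equiv.Perm.viaEmbedding, Equiv.Perm.sign_extendDomain, hψs]
    · exact hψi (Equiv.Perm.viaEmbeddingHom_injective ι (congrArg Subtype.val h))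
  · obtain ⟨ι⟩ : Nonempty ((ZMod p × ZMod p) ↪ Fin n) :=
      Function.Embedding.nonempty_of_card_le (by simpa [sq] using hp2)
    refine ⟨((Equiv.Perm.viaEmbeddingHom ι).comp (wr (p := p)).subtype).codRestrict _
      (sign_eq_one_of_isPGroup hp wr_pgroup _), fun g g' h => ?_⟩
    exact Subtype.ext (Equiv.Perm.viaEmbeddingHom_injective ι (congrArg Subtype.val h))

/-- An abelian subgroup of full `p`-power order when `n < p ^ 2`. -/
theorem exists_abelian (n : ℕ) (hn : 6 ≤ n) (hp2 : n < p ^ 2) :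
    ∃ A : Subgroup (alternatingGroup (Fin n)), IsMulCommutative A ∧
      Nat.card A = p ^ (Nat.card (alternatingGroup (Fin n))).factorization p := by
  classical
  have hp := (Fact.out : p.Prime)
  have hp' : p ≠ 2 := fun e => by subst e; omega
  let α := Fin (n / p) × ZMod p
  obtain ⟨ι⟩ : Nonempty (α ↪ Fin n) := Function.Embedding.nonempty_of_card_le (by
    simpa [α] using Nat.div_mul_le_self n p)
  let D := Multiplicative (Fin (n / p) → ZMod p)
  let ρ : D →* Equiv.Perm α :=
    { toFun := fun f => ⟨fun x => (x.1, x.2 + f.toAdd x.1), fun x => (x.1, x.2 - f.toAdd x.1),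
        fun x => by simp, fun x => by simp⟩
      map_one' := Equiv.ext fun x => by simp
      map_mul' := fun f g => Equiv.ext fun x => by
        show (x.1, x.2 + (f.toAdd + g.toAdd : Fin (n / p) → ZMod p) x.1) =
          (x.1, x.2 + g.toAdd x.1 + f.toAdd x.1)
        rw [Pi.add_apply, add_comm (f.toAdd x.1), add_assoc] }
  have hρ : Function.Injective ρ := fun f g h => by
    refine Multiplicative.toAdd.injective (funext fun i => ?_)
    simpa [ρ] using congrArg (fun σ : Equiv.Perm α => (σ (i, 0)).2) h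
  have hD : IsPGroup p D := fun f => ⟨1, by
    rw [pow_one]
    refine Multiplicative.toAdd.injective (funext fun i => ?_)
    show (p • f.toAdd : Fin (n / p) → ZMod p) i = 0
    simp⟩
  let φ : D →* alternatingGroup (Fin n) := ((Equiv.Perm.viaEmbeddingHom ι).comp ρ).codRestrict _
    (sign_eq_one_of_isPGroup hp' hD _)
  have hφ : Function.Injective φ := fun f g h =>
    hρ (Equiv.Perm.viaEmbeddingHom_injective ι (congrArg Subtype.val h))
  refine ⟨φ.range, ⟨⟨?_⟩⟩, ?_⟩
  · rintro ⟨_, a, rfl⟩ ⟨_, b, rfl⟩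
    exact Subtype.ext (by simp [← map_mul, mul_comm])
  · rw [← Nat.card_congr (MonoidHom.ofInjective hφ).toEquiv]
    have h1 : Nat.card D = p ^ (n / p) := by
      rw [Nat.card_congr Multiplicative.toAdd, Nat.card_fun, Nat.card_zmod, Nat.card_fin]
    haveI : Nontrivial (Fin n) := Fin.nontrivial_iff_two_le.2 (by omega)
    have h2 : 2 * Nat.card (alternatingGroup (Fin n)) = n.factorial := by
      have h := two_mul_card_alternatingGroup (α := Fin n)
      simpa [← Nat.card_eq_fintype_card, Nat.card_perm, Nat.card_fin] using h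
    have h3 : (Nat.card (alternatingGroup (Fin n))).factorization p = n / p := by
      have h4 : n.factorial.factorization p = n / p := by
        rw [Nat.factorization_factorial hp (b := 2) (Nat.log_lt_of_lt_pow (by omega) hp2)]
        simp [Finset.sum_Ico_eq_sum_range]
      rw [← h4, ← h2, Nat.factorization_mul (by norm_num) Nat.card_pos.ne', Finsupp.add_apply,
        Nat.Prime.factorization Nat.prime_two, Finsupp.single_eq_of_ne hp', zero_add]
    rw [h1, h3]

/-- For n ≥ 6 and a prime p, a nontrivial Sylow p-subgroup of the alternating group of degree n is abelian if and only if n < p². -/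
theorem result (n p : ℕ) (hn : 6 ≤ n) [Fact p.Prime] (S : Sylow p (alternatingGroup (Fin n))) (hS : (S : Subgroup (alternatingGroup (Fin n))) ≠ ⊥) : IsMulCommutative S ↔ n < p ^ 2 := by
  classical
  constructor
  · intro hS'
    by_contra hge
    obtain ⟨φ, hφ⟩ := exists_nonabelian (p := p) n hn (not_lt.1 hge)
    obtain ⟨T, hT⟩ := ((wr_pgroup (p := p)).of_surjective φ.rangeRestrict φ.rangeRestrict_surjective).exists_le_sylow
    let e := Sylow.equiv T S
    obtain ⟨a, b, hab⟩ := wr_noncomm (p := p)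
    refine hab (hφ ?_)
    have h := hS'.is_comm.comm (e ⟨φ a, hT ⟨a, rfl⟩⟩) (e ⟨φ b, hT ⟨b, rfl⟩⟩)
    rw [← map_mul, ← map_mul] at h
    rw [map_mul, map_mul]
    exact congrArg Subtype.val (e.injective h)
  · intro hlt
    obtain ⟨A, hA, hAc⟩ := exists_abelian (p := p) n hn hlt
    let T : Sylow p (alternatingGroup (Fin n)) := Sylow.ofCard A hAc
    let e := Sylow.equiv S T
    exact ⟨⟨fun a b => e.injective (by rw [map_mul, map_mul]; exact hA.is_comm.comm (e a) (e b))⟩⟩

end Cfsg.Agent.S5164
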