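import Cfsg.Statements.S5165
import Cfsg.Agent.Lib.Fusion.AltOdd
import Cfsg.Agent.Lib.Fusion.AltClosedTwo
import Cfsg.Agent.Lib.Fusion.GroupSimple
import Cfsg.Agent.Lib.Alt.AltSylow

set_option autoImplicit false
open Cfsg Cfsg.FusionSystem Cfsg.Agent.Lib.Fusion
open scoped commutatorElement

namespace Cfsg.Agent.S5165

/-- For n ≥ 6, a prime p with p² ≤ n, and n congruent to 0 or 1 modulo p, the p-fusion system of the alternating group of degree n on a Sylow p-subgroup is simple. -/
theorem result (n p : ℕ) (hn : 6 ≤ n) [Fact p.Prime] (hnp : p ^ 2 ≤ n) (hb : n % p ≤ 1) (S : Sylow p (alternatingGroup (Fin n))) : (Cfsg.groupFusionSystem (S : Subgroup (alternatingGroup (Fin n)))).IsSimple p := by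
  have hp := (Fact.out : p.Prime)
  have hcard : 6 ≤ Fintype.card (Fin n) := by rw [Fintype.card_fin]; exact hn
  have : Nontrivial (Fin n) := Fin.nontrivial_iff_two_le.2 (by omega)
  have hdvd : p ∣ Nat.card (alternatingGroup (Fin n)) := by
    rw [Nat.card_eq_fintype_card]
    have h2 : 2 * Fintype.card (alternatingGroup (Fin n)) = n.factorial := by
      rw [two_mul_card_alternatingGroup, Fintype.card_perm, Fintype.card_fin]
    rcases eq_or_ne p 2 with rfl | hp2
    · have h4 : 4 ∣ n.factorial := Nat.dvd_factorial (by norm_num) (by omega)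
      omega
    · have h3 : p ∣ n.factorial := hp.dvd_factorial.2 ((Nat.le_self_pow two_ne_zero p).trans hnp)
      rw [← h2] at h3
      exact (hp.dvd_mul.1 h3).resolve_left fun h =>
        hp2 ((Nat.prime_dvd_prime_iff_eq hp Nat.prime_two).1 h)
  have hS1 : (S : Subgroup (alternatingGroup (Fin n))) ≠ ⊥ := S.ne_bot_of_dvd_card hdvd
  have hsc : ∀ T, (groupFusionSystem (S : Subgroup (alternatingGroup (Fin n)))).StronglyClosed T →
      T = ⊥ ∨ T = (S : Subgroup (alternatingGroup (Fin n))) := by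
    intro T hT
    by_cases hT1 : T = ⊥
    · exact Or.inl hT1
    refine Or.inr (le_antisymm hT.1 fun x hx => AltClosed.mem_of_C hT hx ?_)
    obtain ⟨k, hk⟩ := S.2 ⟨x, hx⟩
    have hk' : (x : Equiv.Perm (Fin n)) ^ p ^ k = 1 :=
      congrArg (fun z : (S : Subgroup (alternatingGroup (Fin n))) =>
        ((z : alternatingGroup (Fin n)) : Equiv.Perm (Fin n))) hk
    rcases eq_or_ne p 2 with rfl | hp2
    · exact AltClosed.C_all_two hT hcard hT1 ⟨k, hk'⟩ x.2
    · exact AltClosed.C_all_odd hT hcard (by rw [Fintype.card_fin]; exact hnp) hp2 hT1 ⟨k, hk'⟩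
  rcases eq_or_ne p 2 with rfl | hp2
  · refine isSimple_group S hS1 hsc (le_sup_of_le_left ?_)
    rw [Cfsg.Agent.Lib.Alt.alt_sylow_normalizer_eq hcard S]
  · have hm : p ≤ n / p := (Nat.le_div_iff_mul_le hp.pos).2 (by rw [← sq]; exact hnp)
    have : NeZero p := ⟨hp.ne_zero⟩
    have e : AltBlocks.Pt (n / p) p (n % p) ≃ Fin n := Fintype.equivOfCardEq (by
      simp only [Fintype.card_sum, Fintype.card_prod, Fintype.card_fin, ZMod.card]
      rw [mul_comm]; exact Nat.div_add_mod n p)
    refine isSimple_of (groupFusionSystem_saturated S) hS1 hsc fun E hE => ?_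
    obtain ⟨⟨hEs, -, hEi⟩, -⟩ := hE
    exact AltBlocks.autS_le hp2 hm hb (Equiv.altCongrHom e) S hEs hEi

end Cfsg.Agent.S5165
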