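import Cfsg.Statements.S5171
import Cfsg.Agent.Lib.GS.SpBorel
import Cfsg.Agent.Lib.Fusion.GroupSimple
import Cfsg.Agent.Lib.GenStruct.Basic
import Cfsg.Agent.Lib.Classical.Symplectic

set_option autoImplicit false
open Cfsg

namespace Cfsg.Agent.S5171

open Matrix Cfsg.FusionSystem Cfsg.Agent.Lib.Fusion Cfsg.Agent.Lib.GS.SpBorel

theorem center_eq_scal {K : Type*} [Field K] {m : ℕ} (hm : 1 ≤ m) {z : Sp m K}
    (hz : z ∈ Subgroup.center (Sp m K)) : ∃ (a : K) (ha : a * a = 1), z = scal a ha := by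
  obtain ⟨a, ha, hx⟩ := Cfsg.Agent.Lib.Classical.exists_scalar_of_mem_center m hm hz
  refine ⟨a, ha, Cfsg.Agent.Lib.Classical.sp_ext fun x => ?_⟩
  rw [hx, show ((scal a ha : Sp m K) : Matrix (Fin m ⊕ Fin m) (Fin m ⊕ Fin m) K) =
    fromBlocks (a • (1 : Matrix (Fin m) (Fin m) K)) 0 0 (a • 1) from rfl, fromBlocks_mulVec]
  funext i
  rcases i with i | i <;> simp [Matrix.smul_mulVec]

theorem center_one {K : Type*} [Field K] (p : ℕ) [Fact p.Prime] [CharP K p] {m : ℕ} (hm : 1 ≤ m)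
    {z : Sp m K} (hz : z ∈ Subgroup.center (Sp m K)) (h : ∃ k : ℕ, z ^ p ^ k = 1) : z = 1 := by
  obtain ⟨a, ha, rfl⟩ := center_eq_scal hm hz
  obtain ⟨k, hk⟩ := h
  obtain ⟨s1, s2, s3, s4⟩ := scal_blocks (m := m) a ha
  have hA : (a • (1 : Matrix (Fin m) (Fin m) K)) ^ p ^ k = 1 := by
    rw [← s1, ← (pow_blocks s3 _).2, hk]; exact one_blocks.1
  have hak : a ^ p ^ k = 1 := by
    have := congrFun (congrFun hA ⟨0, hm⟩) ⟨0, hm⟩
    simpa [smul_pow] using this
  have h1 := Cfsg.Agent.Lib.Fusion.SLUpper.eq_one_of_pow_eq_one p hak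
  subst h1
  exact Subtype.ext (by simp [scal, fromBlocks_one])

section

variable {K : Type*} [Field K] [Fintype K] (p : ℕ) [Fact p.Prime] [CharP K p] {m : ℕ}
  {H : Type*} [Group H] [Finite H] (π : Sp m K →* H)

theorem lift_conj (hm : 1 ≤ m) (hker : π.ker = Subgroup.center (Sp m K)) {g u v : Sp m K}
    (hu : ∃ k : ℕ, u ^ p ^ k = 1) (hv : ∃ k : ℕ, v ^ p ^ k = 1)
    (h : π g * π u * (π g)⁻¹ = π v) : g * u * g⁻¹ = v := by
  set z := v⁻¹ * (g * u * g⁻¹) with hzdef
  have hz : z ∈ Subgroup.center (Sp m K) := by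
    rw [← hker, MonoidHom.mem_ker]
    simp only [z, map_mul, map_inv, h, inv_mul_cancel]
  have hgu : g * u * g⁻¹ = v * z := by simp [z]
  obtain ⟨a, ha⟩ := hu
  obtain ⟨b, hb⟩ := hv
  have hz1 : z = 1 := by
    refine center_one p hm hz ⟨a + b, ?_⟩
    have h1 : (g * u * g⁻¹) ^ p ^ (a + b) = (v * z) ^ p ^ (a + b) := by rw [hgu]
    rw [conj_pow, (show Commute v z from Subgroup.mem_center_iff.1 hz v).mul_pow,
      pow_add p a b, pow_mul u, ha, one_pow, mul_one, mul_inv_cancel, mul_comm (p ^ a) (p ^ b),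
      pow_mul v, hb, one_pow, one_mul] at h1
    rw [pow_add, mul_comm (p ^ a) (p ^ b)]
    exact h1.symm
  rw [hgu, hz1, mul_one]

theorem simple_of_hom (hm : 2 ≤ m) (hq : m = 2 → 3 ≤ Nat.card K) (hπ : Function.Surjective π)
    (hker : π.ker = Subgroup.center (Sp m K)) (S : Sylow p H) (hS : (S : Subgroup H) = (U m K).map π) :
    (Cfsg.groupFusionSystem (S : Subgroup H)).IsSimple p := by
  have hm1 : 1 ≤ m := le_trans one_le_two hm
  set l : Fin m := ⟨m - 1, by omega⟩
  have hl : ∀ i : Fin m, i ≤ l := fun i => Fin.le_def.2 (show i.1 ≤ m - 1 by omega)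
  have hpow : ∀ u ∈ U m K, ∃ k : ℕ, u ^ p ^ k = 1 := fun u hu => by
    obtain ⟨k, hk⟩ := isPGroup_U p (⟨u, hu⟩ : U m K)
    exact ⟨k, congrArg Subtype.val hk⟩
  have hkerU : ∀ z : Sp m K, π z = 1 → z ∈ U m K → z = 1 := fun z hz hzU =>
    center_one p hm1 (hker.le (MonoidHom.mem_ker.2 hz)) (hpow z hzU)
  have hscal : ∀ (a : K) (ha : a * a = 1), π (scal a ha : Sp m K) = 1 := fun a ha =>
    MonoidHom.mem_ker.1 (hker.ge (scal_center a ha))
  have hcomm : ∀ g : Sp m K, ∀ u ∈ U m K, π g * π u = π u * π g → g * u = u * g := by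
    intro g u hu h
    have h1 := lift_conj p π hm1 hker (hpow u hu) (hpow u hu)
      (mul_inv_eq_iff_eq_mul.2 h : π g * π u * (π g)⁻¹ = π u)
    exact mul_inv_eq_iff_eq_mul.1 h1
  have hS1 : (S : Subgroup H) ≠ ⊥ := by
    intro h
    have hx := nu_mem _ (E_symm (⟨0, hm1⟩ : Fin m) (1 : K))
    have h2 := hkerU _ (Subgroup.mem_bot.1 (h.le (hS.ge ⟨_, hx, rfl⟩))) hx
    have h3 := congrArg bB h2
    rw [(nu_blocks _ _).2.1, one_blocks.2.1] at h3
    simpa using congrFun (congrFun h3 ⟨0, hm1⟩) ⟨0, hm1⟩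
  refine isSimple_group S hS1 (fun T hT => ?_) ?_
  · by_cases hT1 : T = ⊥
    · exact Or.inl hT1
    refine Or.inr (le_antisymm hT.1 ?_)
    have : (T.subgroupOf (S : Subgroup H)).Normal :=
      Subgroup.normal_subgroupOf_of_le_normalizer (le_normalizer_of_stronglyClosed hT)
    obtain ⟨z, hzT, hzc, hz1⟩ := Cfsg.Agent.Lib.GenStruct.exists_mem_center S.2
      (T.subgroupOf (S : Subgroup H))
      (fun h => hT1 ((Subgroup.subgroupOf_eq_bot.1 h).eq_bot_of_le hT.1))
    obtain ⟨u, hu, huz⟩ := hS.le z.2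
    have hclosed : Closed (T.comap π ⊓ U m K) := by
      refine ⟨inf_le_right, fun v hv g hg => ⟨?_, hg⟩⟩
      have hvS : π v ∈ (S : Subgroup H) := hS.ge ⟨v, hv.2, rfl⟩
      have hmem : conjHom (Subgroup.zpowers (π v)) (π g) ∈
          (Cfsg.groupFusionSystem (S : Subgroup H)).Hom (Subgroup.zpowers (π v)) := by
        refine ⟨Subgroup.zpowers_le.2 hvS, fun w => ?_, π g, fun w => rfl⟩
        obtain ⟨w, k, rfl⟩ := w
        show π g * π v ^ k * (π g)⁻¹ ∈ (S : Subgroup H)
        rw [← conj_zpow, ← map_inv, ← map_mul, ← map_mul]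
        exact zpow_mem (hS.ge ⟨_, hg, rfl⟩) k
      have h2 := hT.2 (Subgroup.zpowers (π v)) (Subgroup.zpowers_le.2 hv.1) _ hmem
        ⟨π v, Subgroup.mem_zpowers _⟩
      show π (g * v * g⁻¹) ∈ T
      rw [map_mul, map_mul, map_inv]
      exact h2
    have hu1 : u ≠ 1 := fun h => hz1 (Subtype.ext (by rw [← huz, h, map_one]; rfl))
    have hTU := closed_eq hm hq hclosed (z := u)
      ⟨show π u ∈ T by rw [huz]; exact hzT, hu⟩ hu1 fun v hv => by
        refine hcomm u v hv ?_
        have h1 := congrArg Subtype.val (Subgroup.mem_center_iff.1 hzc ⟨_, hS.ge ⟨v, hv, rfl⟩⟩)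
        simp only [Subgroup.coe_mul] at h1
        rw [huz]
        exact h1.symm
    rw [hS]
    rintro _ ⟨v, hv, rfl⟩
    exact (hTU.ge hv).1
  · intro g hg
    obtain ⟨M, rfl⟩ := hπ g
    have hMB : InB M := inB_of_normalizes fun u hu => by
      obtain ⟨v, hv, hve⟩ := hS.le (conj_mem_of_mem_normalizer hg (hS.ge ⟨u, hu, rfl⟩))
      rw [lift_conj p π hm1 hker (hpow u hu) (hpow v hv) hve.symm]
      exact hv
    set good := (S : Subgroup H) ⊔ Subgroup.closure {g : H |
      g ∈ Subgroup.normalizer ((S : Subgroup H) : Set H) ∧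
        ∃ R : Subgroup H, (S : Subgroup H) ≤ Subgroup.normalizer (R : Set H) ∧
          (Cfsg.groupFusionSystem (S : Subgroup H)).IsCentric R ∧
          g ∈ Subgroup.closure {x : H | x ∈ Subgroup.normalizer (R : Set H) ∧
            ∃ k : ℕ, x ^ p ^ k = 1}} with hgood
    have hUB : ∀ b : Sp m K, InB b → InB b⁻¹ → ∀ u ∈ U m K, b * u * b⁻¹ ∈ U m K := by
      intro b hb hb' u hu
      refine mem_U_of p ((hb.mul (U_inB hu)).mul hb') ?_
      obtain ⟨k, hk⟩ := hpow u hu
      exact ⟨k, by rw [conj_pow, hk]; group⟩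
    have hτB : ∀ d : Fin m → Kˣ, InB (phi (diagGL d)) := fun d =>
      ⟨(phi_blocks _).2.2.1, by rw [(phi_blocks _).1, diagGL_val]; exact blockTriangular_diagonal _⟩
    have hnormR : ∀ (R' : Subgroup (Sp m K)) (x : Sp m K), (∀ r ∈ R', x * r * x⁻¹ ∈ R') →
        π x ∈ Subgroup.normalizer ((R'.map π : Subgroup H) : Set H) := by
      intro R' x hx
      refine mem_normalizer_of_conj_mem ?_
      rintro _ ⟨r, hr, rfl⟩
      rw [← map_inv, ← map_mul, ← map_mul]
      exact ⟨_, hx r hr, rfl⟩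
    have hgen : ∀ (R' : Subgroup (Sp m K)), R' ≤ U m K →
        (∀ u ∈ U m K, ∀ r ∈ R', u * r * u⁻¹ ∈ R') →
        (∀ g, (∀ r ∈ R', g * r = r * g) → ∃ (a : K) (ha : a * a = 1), scal a ha * g ∈ R') →
        ∀ d : Fin m → Kˣ, π (phi (diagGL d)) ∈ Subgroup.closure {x : H |
          x ∈ Subgroup.normalizer ((R'.map π : Subgroup H) : Set H) ∧ ∃ k : ℕ, x ^ p ^ k = 1} →
        π (phi (diagGL d)) ∈ good := by
      intro R' hR hn hc d hd
      refine le_sup_right (a := (S : Subgroup H)) (Subgroup.subset_closure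
        ⟨mem_normalizer_of_conj_mem ?_, R'.map π, ?_, ?_, hd⟩)
      · intro y hy
        obtain ⟨v, hv, rfl⟩ := hS.le hy
        rw [← map_inv, ← map_mul, ← map_mul]
        exact hS.ge ⟨_, hUB _ (hτB d) (by rw [← map_inv, ← map_inv]; exact hτB _) v hv, rfl⟩
      · rw [hS]
        rintro _ ⟨v, hv, rfl⟩
        exact hnormR R' v (hn v hv)
      · refine isCentric_of_centralizer_le (hS ▸ Subgroup.map_mono hR) ?_
        intro y hy
        obtain ⟨N, rfl⟩ := hπ y
        obtain ⟨a, ha, har⟩ := hc N fun r hr =>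
          hcomm N r (hR hr) (hy _ ⟨r, hr, rfl⟩).symm
        refine ⟨_, har, ?_⟩
        rw [map_mul, hscal, one_mul]
    have hq' : ∀ (i : Fin m) (hi : i ≠ l) (t : Kˣ),
        π (phi (diagGL (Pi.mulSingle i t * (Pi.mulSingle l t)⁻¹))) ∈ good := by
      intro i hi t
      refine hgen Q (fun r hr => hr.1) (fun u hu r hr => U_conj_Q hu hr)
        (fun g hg => cent_Q hm hg) _ ?_
      have e : phi (diagGL (Pi.mulSingle i t * (Pi.mulSingle l t)⁻¹)) =
          phiSL (Matrix.SpecialLinearGroup.diag2n hi (t : K) t.ne_zero) := by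
        show phi _ = phi _
        congr 1
        refine Units.ext ?_
        rw [diagGL_val]
        show _ = ((Matrix.SpecialLinearGroup.diag2n hi (t : K) t.ne_zero : Matrix.SpecialLinearGroup (Fin m) K) :
          Matrix (Fin m) (Fin m) K)
        rw [Matrix.SpecialLinearGroup.diag2n_coe]
        congr 1
        funext j
        by_cases h1 : j = i
        · subst h1; simp [hi]
        · by_cases h2 : j = l
          · subst h2; simp [hi, Ne.symm hi]
          · simp [h1, h2]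
      rw [e, Cfsg.Agent.Lib.Classical.diag2n_decompose hi (t : K) t.ne_zero]
      have hX : ∀ (u v : Fin m) (huv : u ≠ v) (c : K),
          π (phiSL (Matrix.SpecialLinearGroup.transvection huv c)) ∈ Subgroup.closure {x : H |
            x ∈ Subgroup.normalizer (((Q (m := m) (K := K)).map π : Subgroup H) : Set H) ∧
              ∃ k : ℕ, x ^ p ^ k = 1} := fun u v huv c => by
        refine Subgroup.subset_closure ⟨hnormR _ _ fun r hr => phi_conj_Q _ hr, 1, ?_⟩
        rw [pow_one, ← map_pow, ← map_pow, SLUpper.x_pow p u v huv c, map_one, map_one]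
      simp only [map_mul]
      exact mul_mem (mul_mem (mul_mem (mul_mem (mul_mem (hX _ _ hi _) (hX _ _ hi.symm _))
        (hX _ _ hi _)) (hX _ _ hi _)) (hX _ _ hi.symm _)) (hX _ _ hi _)
    have hlong : ∀ t : Kˣ, π (phi (diagGL (Pi.mulSingle l t))) ∈ good := by
      intro t
      refine hgen (R l hl) (fun r hr => hr.1) (fun u hu r hr => U_conj_R hl hu hr)
        (fun g hg => cent_R hm hl hg) _ ?_
      rw [long_torus]
      have hA : ∀ c : K, π (nu (single l l c) (E_symm l c)) ∈ Subgroup.closure {x : H |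
            x ∈ Subgroup.normalizer (((R l hl).map π : Subgroup H) : Set H) ∧
              ∃ k : ℕ, x ^ p ^ k = 1} := fun c => by
        refine Subgroup.subset_closure ⟨hnormR _ _ fun r hr => U_conj_R hl (nu_mem _ _) hr, 1, ?_⟩
        rw [pow_one, ← map_pow, nu_pow p, map_one]
      have hB : ∀ c : K, π (lw l c) ∈ Subgroup.closure {x : H |
            x ∈ Subgroup.normalizer (((R l hl).map π : Subgroup H) : Set H) ∧
              ∃ k : ℕ, x ^ p ^ k = 1} := fun c => by
        refine Subgroup.subset_closure ⟨hnormR _ _ fun r hr => lw_conj_R hl c hr, 1, ?_⟩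
        rw [pow_one, ← map_pow, lw_pow p, map_one]
      simp only [map_mul]
      exact mul_mem (mul_mem (mul_mem (mul_mem (mul_mem (hA _) (hB _)) (hA _)) (hA _)) (hB _)) (hA _)
    have hall : ∀ d : Fin m → Kˣ, π (phi (diagGL d)) ∈ good := by
      intro d
      let N : Subgroup (Fin m → Kˣ) := good.comap (π.comp (phi.comp diagGL))
      suffices h : d ∈ N from h
      rw [← Finset.univ_prod_mulSingle d]
      refine prod_mem fun i _ => ?_
      show π (phi (diagGL _)) ∈ good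
      by_cases hi : i = l
      · subst hi; exact hlong _
      · have h := mul_mem (hq' i hi (d i)) (hlong (d i))
        rwa [← map_mul, ← map_mul, ← map_mul, inv_mul_cancel_right] at h
    set d : Fin m → Kˣ := fun i => Units.mk0 (bA M i i) (hMB.diag_ne i)
    have hBd : InB ((phi (diagGL d))⁻¹ * M) := by
      refine InB.mul ?_ hMB
      rw [← map_inv, ← map_inv]; exact hτB _
    have hU : (phi (diagGL d))⁻¹ * M ∈ U m K := by
      refine ⟨hBd.1, hBd.2, fun i => ?_⟩
      rw [← map_inv, ← map_inv, (mul_blocks _ _).1, (phi_blocks _).1, (phi_blocks _).2.1, diagGL_val]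
      simp [d, Matrix.diagonal_mul, hMB.diag_ne i]
    have h1 := mul_mem (hall d) (le_sup_left (b := Subgroup.closure _) (hS.ge ⟨_, hU, rfl⟩) :
      π ((phi (diagGL d))⁻¹ * M) ∈ good)
    rwa [← map_mul, mul_inv_cancel_left] at h1

end


/-- For a finite field K of characteristic p and m ≥ 2, excluding the case m = 2 with K of two elements, the p-fusion system of the projective symplectic group PSp_{2m}(K) on a Sylow p-subgroup is simple. -/
theorem result {K : Type*} [Field K] [Fintype K] (p : ℕ) [Fact p.Prime] [CharP K p] (m : ℕ) (hm : 2 ≤ m) (hex : m = 2 → 3 ≤ Fintype.card K) (S : Sylow p (Cfsg.PSp m K)) : (Cfsg.groupFusionSystem (S : Subgroup (Cfsg.PSp m K))).IsSimple p := by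
  have hm1 : 1 ≤ m := le_trans one_le_two hm
  set π₀ := QuotientGroup.mk' (Subgroup.center (Sp m K))
  have hker₀ : π₀.ker = Subgroup.center (Sp m K) := QuotientGroup.ker_mk' _
  have hUp : IsPGroup p ((U m K).map π₀) := (isPGroup_U p).map π₀
  obtain ⟨P, hP⟩ := exists_sylow_of_normalizer hUp fun g hg hgp => by
    obtain ⟨M, rfl⟩ := QuotientGroup.mk'_surjective _ g
    obtain ⟨k, hk⟩ := hgp
    have hpow : ∀ u ∈ U m K, ∃ k : ℕ, u ^ p ^ k = 1 := fun u hu => by
      obtain ⟨j, hj⟩ := isPGroup_U p (⟨u, hu⟩ : U m K)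
      exact ⟨j, congrArg Subtype.val hj⟩
    have hMB : InB M := inB_of_normalizes fun u hu => by
      obtain ⟨v, hv, hve⟩ := conj_mem_of_mem_normalizer hg ⟨u, hu, rfl⟩
      rw [lift_conj p π₀ hm1 hker₀ (hpow u hu) (hpow v hv) hve.symm]
      exact hv
    have hz : M ^ p ^ k ∈ Subgroup.center (Sp m K) := by
      rw [← hker₀, MonoidHom.mem_ker, map_pow]; exact hk
    obtain ⟨s, hs, hse⟩ := center_eq_scal hm1 hz
    have hd : ∀ i, bA M i i ^ p ^ k = s := fun i => by
      rw [← (tri_pow_diag hMB.2 i _).2, ← (pow_blocks hMB.1 _).2, hse, (scal_blocks (m := m) s hs).1]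
      simp
    set a := bA M ⟨0, hm1⟩ ⟨0, hm1⟩
    have hda : ∀ i, bA M i i = a := fun i =>
      (iterateFrobenius_inj K p k) (by simp [iterateFrobenius_def, hd, a])
    have ha : a * a = 1 := by
      refine Cfsg.Agent.Lib.Fusion.SLUpper.eq_one_of_pow_eq_one p (k := k) ?_
      rw [mul_pow, hd, hs]
    refine ⟨scal a ha * M, mul_scal_mem_U hMB ha hda, ?_⟩
    rw [map_mul, MonoidHom.mem_ker.1 (hker₀.ge (scal_center a ha)), one_mul]
  obtain ⟨g, hg⟩ := MulAction.exists_smul_eq (Cfsg.PSp m K) P S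
  refine simple_of_hom p ((MulAut.conj g).toMonoidHom.comp π₀) hm
    (fun h => by rw [Nat.card_eq_fintype_card]; exact hex h)
    ((MulAut.conj g).surjective.comp (QuotientGroup.mk'_surjective _)) ?_ S ?_
  · refine Eq.trans ?_ hker₀
    ext z
    simp [MonoidHom.mem_ker]
  · rw [← hg, Sylow.coe_subgroup_smul, ← Subgroup.map_map, ← hP]
    rfl

end Cfsg.Agent.S5171
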