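import Cfsg.Statements.S5172
import Cfsg.Agent.Lib.GS.SuBorelTorus
import Cfsg.Agent.Lib.GS.SpBorel
import Cfsg.Agent.Lib.Fusion.GroupSimple
import Cfsg.Agent.Lib.GenStruct.Basic
import Cfsg.Agent.Lib.Classical.Unitary
import Cfsg.Agent.Lib.Classical.HermField

set_option autoImplicit false
set_option maxHeartbeats 1000000
open Cfsg

namespace Cfsg.Agent.S5172

open Matrix Cfsg.FusionSystem Cfsg.Agent.Lib.Fusion Cfsg.Agent.Lib.GS.SuBorel Cfsg.Agent.Lib.UnitaryConj
open Cfsg.Agent.Lib.Classical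

variable {n : ℕ} {K : Type*} [Field K] {σ : K →+* K} {κ τ θ : K}

local notation "Γ" => Matrix.SpecialLinearGroup (Fin n) K
local notation "M" => Matrix (Fin n) (Fin n) K

theorem x_symm_mem {i j : Fin n} (h : i ≠ j) (e : j = i.rev) {c : K} (hc : σ c = -c) :
    (SLUpper.x h c : Γ) ∈ Ga n σ := by
  subst e
  exact lg_mem σ h hc

theorem Para_of_pow {α : Type*} [LinearOrder α] {f : Fin n → α} {g : Γ}
    (hg : (g : M).BlockTriangular f) {N : ℕ} (hN : 0 < N) (h : g ^ N = 1) : g ∈ Para f := by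
  refine ⟨hg, ?_⟩
  rw [inv_eq_of_mul_eq_one_right (show g * g ^ (N - 1) = 1 by
    rw [← pow_succ', Nat.sub_add_cancel hN, h]), Matrix.SpecialLinearGroup.coe_pow]
  generalize N - 1 = k
  induction k with
  | zero => rw [pow_zero]; exact blockTriangular_one
  | succ k ih => rw [pow_succ]; exact ih.mul hg

theorem U_Para [Finite K] {α : Type*} [LinearOrder α] {f : Fin n → α} (hf : Monotone f) {u : Γ}
    (hu : u ∈ U n σ) : u ∈ Para f := by
  have h : ∀ v : Γ, v ∈ U n σ → (v : M).BlockTriangular f := fun v hv a b hab => by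
    have hba : b < a := not_le.1 fun e => absurd (hf e) (not_le.2 hab)
    rw [hv.2 a b hba.le, Matrix.one_apply_ne hba.ne']
  exact ⟨h u hu, h _ (inv_mem hu)⟩

theorem diag_pair {g : Γ} (hg : g ∈ Ga n σ) (ht : (g : M).BlockTriangular id) (a : Fin n) :
    σ ((g : M) a.rev a.rev) * (g : M) a a = 1 := by
  have e := congrFun (congrFun ((mem_Ga σ).1 hg) a) a
  rw [Matrix.mul_apply, Finset.sum_eq_single a (fun x _ hx => ?_) (by simp), Matrix.one_apply_eq] at e
  · simpa [st] using e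
  · rcases lt_or_gt_of_ne hx with h | h
    · simp only [st, Matrix.of_apply]
      rw [ht (i := x.rev) (j := a.rev) (Fin.rev_lt_rev.2 h), map_zero, zero_mul]
    · rw [ht (show a < x from h), mul_zero]

theorem exists_tor {g : Γ} (hg : g ∈ Ga n σ) {D : Fin n → K} (hD : (g : M) = Matrix.diagonal D) :
    ∃ d : Tor n σ, tor d = g ∧ ∀ x, ((d : Fin n → Kˣ) x : K) = D x := by
  have hdet : ∏ x, D x = 1 := by rw [← Matrix.det_diagonal, ← hD]; exact g.2
  have hne : ∀ x, D x ≠ 0 := fun x h =>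
    one_ne_zero (hdet ▸ Finset.prod_eq_zero (Finset.mem_univ x) h)
  have hpair : ∀ x, σ (D x.rev) * D x = 1 := fun x => by
    have := diag_pair hg (hD ▸ blockTriangular_diagonal D) x
    simpa [hD] using this
  refine ⟨⟨fun x => Units.mk0 (D x) (hne x), fun x => hpair x, hdet⟩, Subtype.ext ?_, fun x => rfl⟩
  rw [tor_val, hD]
  rfl

theorem scalar_one (p : ℕ) [Fact p.Prime] [CharP K p] (hn : 1 ≤ n) {z : Γ} {a : K}
    (hz : (z : M) = a • 1) (h : ∃ k : ℕ, z ^ p ^ k = 1) : z = 1 := by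
  obtain ⟨k, hk⟩ := h
  have h1 := congrArg (fun g : Γ => (g : M) ⟨0, hn⟩ ⟨0, hn⟩) hk
  simp only [Matrix.SpecialLinearGroup.coe_pow, Matrix.SpecialLinearGroup.coe_one, hz, smul_pow, one_pow,
    Matrix.smul_apply, Matrix.one_apply_eq, smul_eq_mul, mul_one] at h1
  have := SLUpper.eq_one_of_pow_eq_one p h1
  subst this
  exact Subtype.ext (by simp [hz])

theorem U_pow (p : ℕ) [Fact p.Prime] [CharP K p] [Finite K] {u : Γ} (hu : u ∈ U n σ) :
    ∃ k : ℕ, u ^ p ^ k = 1 := by
  obtain ⟨k, hk⟩ := SLUpper.isPGroup_U p (⟨u, ((mem_U σ).1 hu).2⟩ : SLUpper.U n K)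
  exact ⟨k, congrArg Subtype.val hk⟩

theorem hlpos {l x : Fin n} (hx : l ≤ x) (hx' : x ≤ l.rev) : f2 l x = l.1 := by
  simp only [f2, if_neg (not_lt.2 hx), if_pos hx']

section

variable [Finite K] (p : ℕ) [Fact p.Prime] [CharP K p]

variable (σ) in
/-- Subgroup generated by the `p`-elements of a parabolic. -/
def PGen (f : Fin n → ℕ) : Subgroup Γ :=
  Subgroup.closure {x : Γ | x ∈ Ga n σ ∧ x ∈ Para f ∧ ∃ k : ℕ, x ^ p ^ k = 1}

include p

omit [Finite K] in
theorem sh_PGen (hG : Good σ κ τ θ) {a b : Fin n} (hab : a ≠ b) (ha : a < a.rev) (hb : b < b.rev) (c : K) :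
    sh σ hab c ∈ PGen σ p (f1 (n := n)) := by
  refine Subgroup.subset_closure ⟨sh_mem σ hG.inv hab ha.ne hb.ne c, ?_, 1, ?_⟩
  · refine mul_mem (x_mem_Para _ ?_ _) (x_mem_Para _ ?_ _)
    · simp [f1, ha, hb]
    · simp [f1, lt_asymm ha, lt_asymm hb, ha.ne', hb.ne']
  · rw [pow_one]; exact sh_pow p hab ha.ne hb.ne c

theorem pair_gen (hG : Good σ κ τ θ) {i l : Fin n} (hi : i < i.rev) (hll : l < l.rev) (hil : i ≠ l)
    {t : K} (ht : t ≠ 0) : ∃ e : Tor n σ, tor e ∈ PGen σ p (f1 (n := n)) ∧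
      ((e : Fin n → Kˣ) i : K) = t ∧
        ∀ j : Fin n, j < j.rev → j ≠ i → j ≠ l → (e : Fin n → Kˣ) j = 1 := by
  have hmem : ∀ (a b : Fin n) (hab : a ≠ b), a < a.rev → b < b.rev → ∀ c : K,
      sh σ hab c ∈ Ga n σ := fun a b hab ha hb c => sh_mem σ hG.inv hab ha.ne hb.ne c
  obtain ⟨e, he, hed⟩ := exists_tor (mul_mem (mul_mem (mul_mem (mul_mem (mul_mem
    (hmem i l hil hi hll t) (hmem l i hil.symm hll hi (-t⁻¹))) (hmem i l hil hi hll t))
    (hmem i l hil hi hll (-1))) (hmem l i hil.symm hll hi 1)) (hmem i l hil hi hll (-1)))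
    (levi_torus hil hi hll ht)
  refine ⟨e, ?_, by simp [hed], fun j hj hji hjl => ?_⟩
  · rw [he]
    exact mul_mem (mul_mem (mul_mem (mul_mem (mul_mem (sh_PGen p hG hil hi hll _)
      (sh_PGen p hG hil.symm hll hi _)) (sh_PGen p hG hil hi hll _)) (sh_PGen p hG hil hi hll _))
      (sh_PGen p hG hil.symm hll hi _)) (sh_PGen p hG hil hi hll _)
  · refine Units.ext ?_
    rw [hed, if_neg hji, if_neg hjl, if_neg ?_, if_neg ?_, Units.val_one]
    · intro e'; subst e'; rw [Fin.rev_rev] at hj; exact lt_asymm hi hj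
    · intro e'; subst e'; rw [Fin.rev_rev] at hj; exact lt_asymm hll hj

theorem last_even (hG : Good σ κ τ θ) {l : Fin n} (hll : l < l.rev) {d : Tor n σ}
    (hfix : σ ((d : Fin n → Kˣ) l : K) = ((d : Fin n → Kˣ) l : K))
    (hrest : ∀ x : Fin n, x ≠ l → x ≠ l.rev → ((d : Fin n → Kˣ) x : K) = 1)
    (hDrev : ((d : Fin n → Kˣ) l.rev : K) = (σ ((d : Fin n → Kˣ) l : K))⁻¹) :
    tor d ∈ PGen σ p (f2 l) := by
  set a : K := ((d : Fin n → Kˣ) l : K) with haDef
  have ha : a ≠ 0 := Units.ne_zero _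
  set A := a * κ with hAdef
  have hA : σ A = -A := by simp [A, map_mul, hfix, hG.skew]
  have hA0 : A ≠ 0 := mul_ne_zero ha hG.ne
  have hB : σ (-κ) = -(-κ) := by rw [map_neg, hG.skew]
  have hinv : ∀ c : K, σ c = -c → σ (-c⁻¹) = -(-c⁻¹) := fun c hc => by
    rw [map_neg, map_inv₀, hc, inv_neg]
  have hblk : f2 l l = f2 l l.rev := by rw [hlpos le_rfl hll.le, hlpos hll.le le_rfl]
  have hup : ∀ c : K, σ c = -c → (SLUpper.x hll.ne c : Γ) ∈ PGen σ p (f2 l) := fun c hc =>
    Subgroup.subset_closure ⟨x_symm_mem _ rfl hc, x_mem_Para _ hblk.le _, 1, by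
      rw [pow_one]; exact SLUpper.x_pow p _ _ _ c⟩
  have hdn : ∀ c : K, σ c = -c → (SLUpper.x hll.ne.symm c : Γ) ∈ PGen σ p (f2 l) := fun c hc =>
    Subgroup.subset_closure ⟨x_symm_mem _ (Fin.rev_rev l).symm hc, x_mem_Para _ hblk.ge _, 1, by
      rw [pow_one]; exact SLUpper.x_pow p _ _ _ c⟩
  rw [show tor d = SLUpper.x hll.ne A * SLUpper.x hll.ne.symm (-A⁻¹) * SLUpper.x hll.ne A *
      SLUpper.x hll.ne (-κ) * SLUpper.x hll.ne.symm (-(-κ)⁻¹) * SLUpper.x hll.ne (-κ) from Subtype.ext (by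
    rw [tor_val, decompose_two hll.ne hA0 (neg_ne_zero.2 hG.ne)]
    congr 1
    funext x
    by_cases e1 : x = l
    · subst e1; rw [if_pos rfl, hAdef, ← haDef]; field_simp [hG.ne]
    by_cases e2 : x = l.rev
    · subst e2
      rw [hDrev, hfix, if_neg e1, if_pos rfl, hAdef]
      field_simp [hG.ne]
    rw [if_neg e1, if_neg e2, hrest x e1 e2])]
  exact mul_mem (mul_mem (mul_mem (mul_mem (mul_mem (hup _ hA) (hdn _ (hinv _ hA))) (hup _ hA))
    (hup _ hB)) (hdn _ (hinv _ hB))) (hup _ hB)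

theorem weyl_gen (hG : Good σ κ τ θ) {l k : Fin n} (hk : k.rev = k) (hlk : l < k) {s : K} (hs0 : s ≠ 0) :
    ∃ W ∈ PGen σ p (f2 l), (W : M) = Matrix.of fun x y =>
      if x = Equiv.swap l l.rev y then
        (if y = l then (σ s)⁻¹ else if y = l.rev then s else if y = k then -σ s / s else 1) else 0 := by
  have hkl : k < l.rev := lt_rev_of_lt_mid hk hlk
  have hll : l < l.rev := low_of_lt_mid hk hlk
  obtain ⟨t, ht⟩ := hG.norm (-(s + σ s)) (by simp only [map_neg, map_add, hG.inv]; ring)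
  have hs : s + σ s + t * σ t = 0 := by rw [ht]; ring
  have hss : σ s ≠ 0 := (map_ne_zero σ).2 hs0
  have hl' : l.rev ≠ l.rev.rev := by rw [Fin.rev_rev]; exact hll.ne'
  have hl3 : k ≠ l.rev.rev := by rw [Fin.rev_rev]; exact hlk.ne'
  have hW : ∀ {i : Fin n} (a1 : i ≠ i.rev) (a2 : i ≠ k) (a3 : k ≠ i.rev), l ≤ i → i ≤ l.rev →
      ∀ t s : K, s + σ s + t * σ t = 0 → md σ a1 a2 a3 t s ∈ PGen σ p (f2 l) := by
    intro i a1 a2 a3 h1 h2 t s hts
    refine Subgroup.subset_closure ⟨md_mem σ hG.inv a1 a2 a3 hk hts, ?_, 2, md_pow p a1 a2 a3 t s⟩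
    refine Para_of_pow ?_ (pow_pos (Fact.out : p.Prime).pos 2) (md_pow p a1 a2 a3 t s)
    intro x y hxy
    have h1' : l ≤ i.rev := by rw [← Fin.rev_rev l]; exact Fin.rev_le_rev.2 h2
    have h2' : i.rev ≤ l.rev := Fin.rev_le_rev.2 h1
    rw [md_val, Matrix.add_apply, Matrix.add_apply, Matrix.add_apply,
      Matrix.one_apply_ne (fun e => by subst e; exact lt_irrefl _ hxy),
      Matrix.single_apply, Matrix.single_apply, Matrix.single_apply]
    rw [if_neg, if_neg, if_neg]
    · simp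
    all_goals rintro ⟨rfl, rfl⟩
    all_goals simp [hlpos, h1, h2, h1', h2', hlk.le, hkl.le] at hxy
  refine ⟨_, mul_mem (mul_mem (hW hll.ne hlk.ne hkl.ne le_rfl hll.le t s hs)
    (hW hl' hkl.ne' hl3 hll.le le_rfl (-t / s) (σ s)⁻¹ ?_))
    (hW hll.ne hlk.ne hkl.ne le_rfl hll.le (t * σ s / s) s ?_),
    middle_weyl hk hlk hG.inv hs hs0 hl' hkl.ne' hl3⟩
  · simp only [map_neg, map_div₀, map_inv₀, hG.inv]
    field_simp
    linear_combination hs
  · simp only [map_mul, map_div₀, hG.inv]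
    field_simp
    linear_combination hs

theorem last_gen (hG : Good σ κ τ θ) (hn : 4 ≤ n) {l : Fin n} (hl1 : l.1 + 1 = n / 2) {d : Tor n σ}
    (hd : ∀ j : Fin n, j < j.rev → j ≠ l → (d : Fin n → Kˣ) j = 1) : tor d ∈ PGen σ p (f2 l) := by
  have hll : l < l.rev := by rw [Fin.lt_def, Fin.val_rev]; omega
  set D : Fin n → K := fun x => ((d : Fin n → Kˣ) x : K) with hDdef
  set a := D l
  have ha : a ≠ 0 := Units.ne_zero _
  have hsa : σ a ≠ 0 := (map_ne_zero σ).2 ha
  have hDrev : D l.rev = (σ a)⁻¹ := by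
    have := d.2.1 l.rev
    rw [Fin.rev_rev] at this
    exact eq_inv_of_mul_eq_one_right this
  have hrest : ∀ x : Fin n, x ≠ l → x ≠ l.rev → x ≠ x.rev → D x = 1 := by
    intro x hx hx' hxx
    rcases lt_or_gt_of_ne hxx with h | h
    · simp [D, hd x h hx]
    · have h1 : (d : Fin n → Kˣ) x.rev = 1 :=
        hd x.rev (by rw [Fin.rev_rev]; exact h) (fun e => hx' (by rw [← e, Fin.rev_rev]))
      have := d.2.1 x
      simpa [h1, D] using this
  have hprod : ∏ x, D x = 1 := d.2.2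
  rcases Nat.even_or_odd n with hev | hodd
  · have hnomid : ∀ x : Fin n, x ≠ x.rev := fun x e => by
      have := congrArg Fin.val e
      rw [Fin.val_rev] at this
      obtain ⟨r, hr⟩ := hev
      omega
    refine last_even p hG hll ?_ (fun x h1 h2 => hrest x h1 h2 (hnomid x)) hDrev
    rw [← Finset.prod_subset (Finset.subset_univ {l, l.rev}) (fun x _ hx => by
      simp only [Finset.mem_insert, Finset.mem_singleton, not_or] at hx
      exact hrest x hx.1 hx.2 (hnomid x)), Finset.prod_pair hll.ne, hDrev] at hprod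
    exact (eq_of_mul_inv_eq_one hprod).symm
  obtain ⟨r, hr⟩ := hodd
  set k : Fin n := ⟨r, by omega⟩ with hkdef
  have hk : k.rev = k := Fin.ext (by rw [Fin.val_rev]; simp [k]; omega)
  have hlk : l < k := by rw [Fin.lt_def]; simp [k]; omega
  have hkl : k < l.rev := lt_rev_of_lt_mid hk hlk
  have hmid : ∀ x : Fin n, x = x.rev → x = k := fun x e => Fin.ext (by
    have := congrArg Fin.val e
    rw [Fin.val_rev] at this
    simp [k]; omega)
  have hrest' : ∀ x : Fin n, x ≠ l → x ≠ l.rev → x ≠ k → D x = 1 := fun x h1 h2 h3 =>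
    hrest x h1 h2 fun e => h3 (hmid x e)
  have hDk : D k = σ a / a := by
    rw [← Finset.prod_subset (Finset.subset_univ {l, l.rev, k}) (fun x _ hx => by
      simp only [Finset.mem_insert, Finset.mem_singleton, not_or] at hx
      exact hrest' x hx.1 hx.2.1 hx.2.2),
      Finset.prod_insert (by simp [hll.ne, hlk.ne]), Finset.prod_pair hkl.ne', hDrev] at hprod
    rw [eq_div_iff ha]
    field_simp at hprod
    linear_combination hprod
  obtain ⟨W1, hW1, hV1⟩ := weyl_gen p hG hk hlk ha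
  obtain ⟨W2, hW2, hV2⟩ := weyl_gen p hG hk hlk (one_ne_zero (α := K))
  rw [show tor d = W1 * W2 from Subtype.ext (by
    rw [tor_val, Matrix.SpecialLinearGroup.coe_mul, hV1, hV2]
    ext x y
    rw [Matrix.mul_apply, Finset.sum_eq_single (Equiv.swap l l.rev y) (fun z _ hz => by
      simp [hz]) (by simp)]
    simp only [Matrix.of_apply, Equiv.swap_apply_self, if_pos, map_one, inv_one]
    rw [Matrix.diagonal_apply]
    by_cases exy : x = y
    · subst exy
      rw [if_pos rfl, if_pos rfl]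
      show D x = _
      by_cases e1 : x = l
      · subst e1; simp [hll.ne', a]
      by_cases e2 : x = l.rev
      · subst e2; simp [hll.ne', hDrev, a]
      rw [Equiv.swap_apply_of_ne_of_ne e1 e2]
      by_cases e3 : x = k
      · subst e3
        simp [e1, e2, hDk, neg_div, a]
      simp [e1, e2, e3, hrest' x e1 e2 e3]
    · simp [exy])]
  exact mul_mem hW1 hW2

end

theorem img {G H : Type*} [Group G] [Group H] {A : Subgroup G} (π : A →* H) {B : Subgroup G} (x : A)
    (hx : (x : G) ∈ B) : π x ∈ (B.subgroupOf A).map π :=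
  Subgroup.mem_map_of_mem π (Subgroup.mem_subgroupOf.2 hx)

section

variable [Fintype K] (p : ℕ) [Fact p.Prime] [CharP K p] {H : Type*} [Group H] [Finite H]
  (π : Ga n σ →* H)
include p

theorem lift_conj (hn : 1 ≤ n) (hker : ∀ g : Ga n σ, π g = 1 ↔ ∃ a : K, ((g : Γ) : M) = a • 1)
    {g u v : Ga n σ} (hu : (u : Γ) ∈ U n σ) (hv : (v : Γ) ∈ U n σ)
    (h : π g * π u * (π g)⁻¹ = π v) : g * u * g⁻¹ = v := by
  set z := v⁻¹ * (g * u * g⁻¹) with hzdef
  obtain ⟨a, ha⟩ := (hker z).1 (by simp only [z, map_mul, map_inv, h, inv_mul_cancel])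
  have hgu : g * u * g⁻¹ = v * z := by simp [z]
  have hvz : Commute (v : Γ) (z : Γ) := Subtype.ext (by simp [ha])
  obtain ⟨i, hi⟩ := U_pow p hu
  obtain ⟨j, hj⟩ := U_pow p hv
  have hgu' : (g : Γ) * u * (g : Γ)⁻¹ = v * z := congrArg Subtype.val hgu
  have hz1 : (z : Γ) = 1 := by
    refine scalar_one p hn ha ⟨i + j, ?_⟩
    have h1 : ((g : Γ) * u * (g : Γ)⁻¹) ^ p ^ (i + j) = ((v : Γ) * z) ^ p ^ (i + j) := by rw [hgu']
    rw [conj_pow, hvz.mul_pow, pow_add p i j, pow_mul (u : Γ), hi, one_pow, mul_one, mul_inv_cancel,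
      mul_comm (p ^ i) (p ^ j), pow_mul (v : Γ), hj, one_pow, one_mul] at h1
    rw [pow_add, mul_comm (p ^ i) (p ^ j)]
    exact h1.symm
  rw [hgu, show z = 1 from Subtype.ext hz1, mul_one]

theorem simple_of_hom (hG : Good σ κ τ θ) (hn : 4 ≤ n) (hπ : Function.Surjective π)
    (hker : ∀ g : Ga n σ, π g = 1 ↔ ∃ a : K, ((g : Γ) : M) = a • 1) (S : Sylow p H)
    (hS : (S : Subgroup H) = ((U n σ).subgroupOf (Ga n σ)).map π) :
    (Cfsg.groupFusionSystem (S : Subgroup H)).IsSimple p := by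
  have hn1 : 1 ≤ n := by omega
  have hUG : ∀ u ∈ U n σ, u ∈ Ga n σ := fun u hu => hu.1
  have hcomm : ∀ g u : Ga n σ, (u : Γ) ∈ U n σ → π g * π u = π u * π g →
      (g : Γ) * u = u * g := by
    intro g u hu h
    have h1 := lift_conj p π hn1 hker hu hu
      (mul_inv_eq_iff_eq_mul.2 h : π g * π u * (π g)⁻¹ = π u)
    exact congrArg Subtype.val (mul_inv_eq_iff_eq_mul.1 h1)
  set i0 : Fin n := ⟨0, hn1⟩
  have h0 : i0 < i0.rev := by rw [Fin.lt_def, Fin.val_rev]; simp [i0]; omega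
  have hS1 : (S : Subgroup H) ≠ ⊥ := by
    intro h
    have hx := lg_mem_U σ h0 hG.skew
    obtain ⟨a, ha⟩ := (hker ⟨_, hx.1⟩).1
      (Subgroup.mem_bot.1 (h.le (hS.ge ⟨⟨_, hx.1⟩, hx, rfl⟩)))
    have h2 := congrFun (congrFun ha i0) i0.rev
    simp [lg, SLUpper.x, SpecialLinearGroup.transvection_coe, h0.ne] at h2
    exact hG.ne h2
  refine isSimple_group S hS1 (fun T hT => ?_) ?_
  · by_cases hT1 : T = ⊥
    · exact Or.inl hT1
    refine Or.inr (le_antisymm hT.1 ?_)
    have : (T.subgroupOf (S : Subgroup H)).Normal :=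
      Subgroup.normal_subgroupOf_of_le_normalizer (le_normalizer_of_stronglyClosed hT)
    obtain ⟨z, hzT, hzc, hz1⟩ := Cfsg.Agent.Lib.GenStruct.exists_mem_center S.2
      (T.subgroupOf (S : Subgroup H))
      (fun h => hT1 ((Subgroup.subgroupOf_eq_bot.1 h).eq_bot_of_le hT.1))
    obtain ⟨u, hu, huz⟩ := hS.le z.2
    set T' : Subgroup Γ := (T.comap π).map (Ga n σ).subtype ⊓ U n σ with hT'
    have hclosed : Closed σ T' := by
      refine ⟨inf_le_right, fun v hv g hg hgv => ⟨?_, hgv⟩⟩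
      obtain ⟨⟨v, hvT, rfl⟩, hvU⟩ := hv
      set g' : Ga n σ := ⟨g, hg⟩
      refine ⟨g' * v * g'⁻¹, ?_, rfl⟩
      have hvS : π v ∈ (S : Subgroup H) := hS.ge ⟨v, hvU, rfl⟩
      have hmem : conjHom (Subgroup.zpowers (π v)) (π g') ∈
          (Cfsg.groupFusionSystem (S : Subgroup H)).Hom (Subgroup.zpowers (π v)) := by
        refine ⟨Subgroup.zpowers_le.2 hvS, fun w => ?_, π g', fun w => rfl⟩
        obtain ⟨w, k, rfl⟩ := w
        show π g' * π v ^ k * (π g')⁻¹ ∈ (S : Subgroup H)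
        rw [← conj_zpow, ← map_inv, ← map_mul, ← map_mul]
        exact zpow_mem (hS.ge (img π (g' * v * g'⁻¹) hgv)) k
      have h2 := hT.2 (Subgroup.zpowers (π v)) (Subgroup.zpowers_le.2 hvT) _ hmem
        ⟨π v, Subgroup.mem_zpowers _⟩
      show π (g' * v * g'⁻¹) ∈ T
      rw [map_mul, map_mul, map_inv]
      exact h2
    have hu1 : (u : Γ) ≠ 1 := fun h => hz1 (Subtype.ext (by
      rw [← huz, show u = 1 from Subtype.ext h, map_one]; rfl))
    have hTU := closed_eq hG hn hclosed (z := (u : Γ))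
      ⟨⟨u, show π u ∈ T by rw [huz]; exact hzT, rfl⟩, hu⟩ hu1 fun v hv => by
        refine hcomm u ⟨v, hv.1⟩ hv ?_
        have h1 := congrArg Subtype.val
          (Subgroup.mem_center_iff.1 hzc ⟨_, hS.ge ⟨⟨v, hv.1⟩, hv, rfl⟩⟩)
        simp only [Subgroup.coe_mul] at h1
        rw [huz]
        exact h1.symm
    rw [hS]
    rintro _ ⟨v, hv, rfl⟩
    obtain ⟨⟨w, hwT, hwv⟩, -⟩ := hTU.ge (show (v : Γ) ∈ U n σ from hv)
    rwa [← show w = v from Subtype.ext hwv]
  · intro g hg
    obtain ⟨N, rfl⟩ := hπ g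
    have htri : ((N : Γ) : M).BlockTriangular id := triangular_of_conj hG fun u hu => by
      obtain ⟨v, hv, hve⟩ := hS.le (conj_mem_of_mem_normalizer hg (hS.ge ⟨⟨u, hu.1⟩, hu, rfl⟩))
      have := congrArg Subtype.val (lift_conj p π hn1 hker (u := ⟨u, hu.1⟩) hu hv hve.symm)
      rw [show (N : Γ) * u * (N : Γ)⁻¹ = _ from this]; exact hv
    set good := (S : Subgroup H) ⊔ Subgroup.closure {g : H |
      g ∈ Subgroup.normalizer ((S : Subgroup H) : Set H) ∧
        ∃ R : Subgroup H, (S : Subgroup H) ≤ Subgroup.normalizer (R : Set H) ∧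
          (Cfsg.groupFusionSystem (S : Subgroup H)).IsCentric R ∧
          g ∈ Subgroup.closure {x : H | x ∈ Subgroup.normalizer (R : Set H) ∧
            ∃ k : ℕ, x ^ p ^ k = 1}} with hgood
    set τ' : Tor n σ →* Ga n σ := tor.codRestrict (Ga n σ) tor_mem with hτ'
    have hnormR : ∀ (R' : Subgroup Γ) (x : Ga n σ), (∀ r ∈ R', (x : Γ) * r * (x : Γ)⁻¹ ∈ R') →
        π x ∈ Subgroup.normalizer (((R'.subgroupOf (Ga n σ)).map π : Subgroup H) : Set H) := by
      intro R' x hx
      refine mem_normalizer_of_conj_mem ?_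
      rintro _ ⟨r, hr, rfl⟩
      rw [← map_inv, ← map_mul, ← map_mul]
      exact ⟨_, hx r hr, rfl⟩
    -- generation through a radical
    have hgen : ∀ (f : Fin n → ℕ), Monotone f →
        (∀ g : Γ, g ∈ Ga n σ → (∀ r ∈ Rad σ f, g * r = r * g) →
          ∃ (a : K) (z : Γ), (z : M) = a • (1 : M) ∧ z ∈ Ga n σ ∧ z * g ∈ Rad σ f) →
        ∀ d : Tor n σ, π (τ' d) ∈ Subgroup.closure {x : H |
          x ∈ Subgroup.normalizer ((((Rad σ f).subgroupOf (Ga n σ)).map π : Subgroup H) : Set H) ∧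
            ∃ k : ℕ, x ^ p ^ k = 1} →
        π (τ' d) ∈ good := by
      intro f hf hc d hd
      rw [hgood]
      refine Subgroup.mem_sup_right (Subgroup.subset_closure
        ⟨mem_normalizer_of_conj_mem ?_, ((Rad σ f).subgroupOf (Ga n σ)).map π, ?_, ?_, hd⟩)
      · intro y hy
        obtain ⟨v, hv, rfl⟩ := hS.le hy
        rw [← map_inv, ← map_mul, ← map_mul]
        have h1 : ((τ' d * v * (τ' d)⁻¹ : Ga n σ) : Γ) ∈ U n σ := by
          rw [Subgroup.coe_mul, Subgroup.coe_mul, Subgroup.coe_inv]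
          exact Para_conj (tor_mem d) (tor_Para id d) hv
        exact hS.ge (img π (τ' d * v * (τ' d)⁻¹) h1)
      · rw [hS]
        rintro _ ⟨v, hv, rfl⟩
        exact hnormR _ v fun r hr => Para_conj v.2 (U_Para hf hv) hr
      · refine isCentric_of_centralizer_le ?_ ?_
        · rw [hS]
          exact Subgroup.map_mono fun r hr => Rad_le_U σ hf hr
        intro y hy
        obtain ⟨g, rfl⟩ := hπ y
        obtain ⟨a, z, hza, hzG, hzg⟩ := hc (g : Γ) g.2 (fun r hr => by
          exact hcomm g ⟨r, hr.1⟩ (Rad_le_U σ hf hr)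
            (Subgroup.mem_centralizer_iff.1 hy (π ⟨r, hr.1⟩) (img π ⟨r, hr.1⟩ hr)).symm)
        have hzg' : ((⟨z, hzG⟩ * g : Ga n σ) : Γ) ∈ Rad σ f := by
          rw [Subgroup.coe_mul]; exact hzg
        have e : π (⟨z, hzG⟩ * g) = π g := by rw [map_mul, (hker ⟨z, hzG⟩).2 ⟨a, hza⟩, one_mul]
        rw [← e]
        exact img π _ hzg'
    have hPG : ∀ f : Fin n → ℕ, Monotone f →
        (∀ g : Γ, g ∈ Ga n σ → (∀ r ∈ Rad σ f, g * r = r * g) →
          ∃ (a : K) (z : Γ), (z : M) = a • (1 : M) ∧ z ∈ Ga n σ ∧ z * g ∈ Rad σ f) →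
        ∀ d : Tor n σ, tor d ∈ PGen σ p f → π (τ' d) ∈ good := by
      intro f hf hc d hd
      refine hgen f hf hc d ?_
      set C := Subgroup.closure {x : H |
          x ∈ Subgroup.normalizer ((((Rad σ f).subgroupOf (Ga n σ)).map π : Subgroup H) : Set H) ∧
            ∃ k : ℕ, x ^ p ^ k = 1}
      have hle : PGen σ p f ≤ (C.comap π).map (Ga n σ).subtype := by
        refine (Subgroup.closure_le _).2 ?_
        rintro x ⟨hxG, hxP, k, hk⟩
        refine ⟨⟨x, hxG⟩, Subgroup.subset_closure ⟨hnormR _ _ fun r hr => Para_conj hxG hxP hr, k, ?_⟩, rfl⟩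
        rw [← map_pow, show (⟨x, hxG⟩ : Ga n σ) ^ p ^ k = 1 from Subtype.ext hk, map_one]
      obtain ⟨w, hw, hwe⟩ := hle hd
      rwa [show τ' d = w from Subtype.ext hwe.symm]
    set l : Fin n := ⟨n / 2 - 1, by omega⟩ with hldef
    have hl1 : l.1 + 1 = n / 2 := by simp [l]; omega
    have hpairs : ∀ i : Fin n, i < i.rev → i ≠ l → ∀ t : K, t ≠ 0 → ∃ e : Tor n σ,
        π (τ' e) ∈ good ∧ ((e : Fin n → Kˣ) i : K) = t ∧
        ∀ j : Fin n, j < j.rev → j ≠ i → j ≠ l → (e : Fin n → Kˣ) j = 1 := by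
      intro i hi hil t ht
      obtain ⟨e, he, h2⟩ := pair_gen p hG hi (show l < l.rev by rw [Fin.lt_def, Fin.val_rev]; omega) hil ht
      exact ⟨e, hPG f1 f1_mono (fun g hg h => cent_R1 hG hn hg h) e he, h2⟩
    have hlast : ∀ d : Tor n σ, (∀ j : Fin n, j < j.rev → j ≠ l → (d : Fin n → Kˣ) j = 1) →
        π (τ' d) ∈ good := fun d hd =>
      hPG (f2 l) (f2_mono l) (fun g hg h => cent_R2 hG hn hl1 hg h) d (last_gen p hG hn hl1 hd)
    have hall : ∀ d : Tor n σ, π (τ' d) ∈ good := by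
      suffices h : ∀ (s : Finset (Fin n)) (d : Tor n σ),
          (∀ j : Fin n, j < j.rev → j ≠ l → j ∉ s → (d : Fin n → Kˣ) j = 1) → π (τ' d) ∈ good from
        fun d => h Finset.univ d fun j _ _ hj => absurd (Finset.mem_univ j) hj
      intro s
      induction s using Finset.induction_on with
      | empty => exact fun d hd => hlast d fun j h1 h2 => hd j h1 h2 (Finset.notMem_empty j)
      | insert i s his ih =>
        intro d hd
        by_cases hi : i < i.rev ∧ i ≠ l
        · obtain ⟨e, he, hei, hej⟩ := hpairs i hi.1 hi.2 _ ((d : Fin n → Kˣ) i).ne_zero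
          have h1 : π (τ' (e⁻¹ * d)) ∈ good := ih _ fun j hj hjl hjs => by
            by_cases hji : j = i
            · subst hji
              have : (e : Fin n → Kˣ) j = (d : Fin n → Kˣ) j := Units.ext hei
              simp [this]
            · simp [hej j hj hji hjl, hd j hj hjl (by simp [hji, hjs])]
          have := mul_mem he h1
          rwa [← map_mul, ← map_mul, mul_inv_cancel_left] at this
        · exact ih d fun j hj hjl hjs => hd j hj hjl (by
            simp only [Finset.mem_insert, not_or]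
            exact ⟨fun e => hi ⟨by subst e; exact hj, by subst e; exact hjl⟩, hjs⟩)
    have hdet : ∏ x, ((N : Γ) : M) x x = 1 := by
      rw [← Matrix.det_of_upperTriangular htri]; exact (N : Γ).2
    have hne : ∀ x, ((N : Γ) : M) x x ≠ 0 := fun x h => by
      rw [Finset.prod_eq_zero (f := fun y => ((N : Γ) : M) y y) (Finset.mem_univ x) h] at hdet; exact zero_ne_one hdet
    set d : Tor n σ := ⟨fun x => Units.mk0 _ (hne x), fun x => diag_pair N.2 htri x, hdet⟩
    have hU : (((τ' d)⁻¹ * N : Ga n σ) : Γ) ∈ U n σ := by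
      refine (mem_U σ).2 ⟨((τ' d)⁻¹ * N).2, ?_⟩
      have hv : ((((τ' d)⁻¹ * N : Ga n σ) : Γ) : M) =
          Matrix.diagonal (fun x => (((d⁻¹ : Tor n σ) : Fin n → Kˣ) x : K)) * ((N : Γ) : M) := by
        rw [← map_inv, ← tor_val]; rfl
      refine ⟨?_, fun i => ?_⟩
      · rw [hv]; exact (blockTriangular_diagonal _).mul htri
      · rw [hv, Matrix.diagonal_mul]
        simp [d, hne i]
    have h1 := mul_mem (hall d) (le_sup_left (b := Subgroup.closure _) (hS.ge ⟨_, hU, rfl⟩) :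
      π ((τ' d)⁻¹ * N) ∈ good)
    rwa [← map_mul, mul_inv_cancel_left] at h1

end

/-! ### Transport to the standard form -/

/-- First coefficient of the change of basis. -/
def c1 (η τ : K) (y : Fin n) : K := if y < y.rev then 1 else if y = y.rev then 1 else -τ * η

/-- Second coefficient of the change of basis. -/
def c2 (η τ : K) (y : Fin n) : K := if y < y.rev then η else if y = y.rev then 0 else 1 - τ

/-- Change of basis from the antidiagonal form. -/
def base (η τ : K) : M :=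
  Matrix.of fun x y => (if x = y then c1 η τ y else 0) + (if x = y.rev then c2 η τ y else 0)

theorem base_spec {η τ : K} (hη : η * σ η = -1) (hτ : τ + σ τ = 1) (a b : Fin n) :
    ∑ x, σ (base η τ x a) * base η τ x b = if b = a.rev then (1 : K) else 0 := by
  have e1 : (a = b.rev) ↔ b = a.rev :=
    ⟨fun h => by rw [h, Fin.rev_rev], fun h => by rw [h, Fin.rev_rev]⟩
  simp only [base, Matrix.of_apply, map_add, apply_ite σ, map_zero, add_mul, mul_add,
    Finset.sum_add_distrib, ite_mul, zero_mul, Finset.sum_ite_eq', Finset.mem_univ, if_true,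
    Fin.rev_inj, e1]
  by_cases hb : b = a
  · subst hb
    rcases lt_trichotomy b b.rev with h | h | h
    · simp only [c1, c2, if_pos h, h.ne, h.ne', if_true, if_false, map_one]
      linear_combination hη
    · simp [c1, c2, ← h]
    · simp only [c1, c2, if_neg (lt_asymm h), if_neg h.ne', h.ne, h.ne', if_true, if_false, map_sub,
        map_mul, map_neg, map_one]
      linear_combination (τ * σ τ) * hη - hτ
  by_cases hb' : b = a.rev
  · subst hb'
    have ha : a ≠ a.rev := Ne.symm hb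
    rcases lt_or_gt_of_ne ha with h | h
    · simp only [c1, c2, Fin.rev_rev, if_pos h, if_neg (lt_asymm h), if_neg h.ne', h.ne, h.ne', if_true,
        if_false, map_one]
      linear_combination (-τ) * hη
    · simp only [c1, c2, Fin.rev_rev, if_pos h, if_neg (lt_asymm h), if_neg h.ne', h.ne, h.ne', if_true,
        if_false, map_one, map_sub, map_mul, map_neg]
      linear_combination (-σ τ) * hη
  simp [hb, hb', Ne.symm hb, Ne.symm hb']

section

variable [Fintype K] {q : ℕ} (hK : Fintype.card K = q ^ 2)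

theorem mem_SU_iff' (g : Γ) : g ∈ Cfsg.SU n K q ↔ tstar hK (g : M) * (g : M) = 1 :=
  mem_GU_iff hK (SpecialLinearGroup.toGL g)

theorem st_eq {J : M} (hJ : J = Matrix.of fun a b => if b = a.rev then (1 : K) else 0) (g : M) :
    st (qHom hK) g = J * tstar hK g * J := by
  subst hJ
  ext a b
  simp [st, tstar, Matrix.mul_apply, Fin.rev_eq_iff, eq_comm (a := b)]

end

/-- For a finite field K with q² elements of characteristic p and n ≥ 4, the p-fusion system of the projective special unitary group PSU_n(q) (realised over K) on a Sylow p-subgroup is simple. -/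
theorem result {K : Type*} [Field K] [Fintype K] (p q : ℕ) [Fact p.Prime] [CharP K p] (hK : Fintype.card K = q ^ 2) (n : ℕ) (hn : 4 ≤ n) (S : Sylow p (Cfsg.PSU n K q)) : (Cfsg.groupFusionSystem (S : Subgroup (Cfsg.PSU n K q))).IsSimple p := by
  have hn1 : 1 ≤ n := by omega
  obtain ⟨θ, hθ⟩ := exists_moved hK
  set σ := qHom hK
  have hd : σ θ - θ ≠ 0 := sub_ne_zero.2 hθ
  set τ := σ θ / (σ θ - θ) with hτdef
  have hinv : ∀ x, σ (σ x) = x := qHom_qHom hK
  have hnorm : ∀ a : K, σ a = a → ∃ x : K, x * σ x = a := fun a ha => by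
    by_cases h0 : a = 0
    · exact ⟨0, by simp [h0]⟩
    obtain ⟨x, -, hx⟩ := Herm.exists_norm hK h0 ha
    exact ⟨x, by rw [← hx, pow_succ']; rfl⟩
  have hG : Good σ (θ - σ θ) τ θ := {
    inv := hinv
    skew := by rw [map_sub, hinv]; ring
    ne := sub_ne_zero.2 (Ne.symm hθ)
    tr := by
      rw [hτdef, map_div₀, map_sub, hinv, ← neg_sub (σ θ) θ, div_neg, ← sub_eq_add_neg, ← sub_div,
        div_self hd]
    moved := hθ
    norm := hnorm }
  obtain ⟨η, hη⟩ := hnorm (-1) (by rw [map_neg, map_one])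
  set B : Matrix (Fin n) (Fin n) K := base η τ with hBdef
  set J : Matrix (Fin n) (Fin n) K := Matrix.of fun a b => if b = a.rev then (1 : K) else 0 with hJdef
  have hB : tstar hK B * B = J := by
    ext a b
    rw [Matrix.mul_apply]
    exact base_spec hη hG.tr a b
  have hJ : J * J = 1 := by
    ext a b
    rw [Matrix.mul_apply, Finset.sum_eq_single a.rev (fun x _ hx => by simp [J, hx]) (by simp)]
    simp [J, Matrix.one_apply, eq_comm]
  have hBu : IsUnit B.det := by
    have := congrArg Matrix.det hJ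
    simp only [← hB, Matrix.det_mul, Matrix.det_one] at this
    exact IsUnit.of_mul_eq_one ((tstar hK B).det * B.det * (tstar hK B).det) (by linear_combination this)
  have hBi : B⁻¹ * B = 1 := Matrix.nonsing_inv_mul B hBu
  have hBi' : B * B⁻¹ = 1 := Matrix.mul_nonsing_inv B hBu
  have hBJ : tstar hK B⁻¹ * J * B⁻¹ = 1 := by
    rw [← hB, ← mul_assoc, ← tstar_mul, hBi', tstar_one, one_mul, hBi']
  have hmem : ∀ g : Matrix.SpecialLinearGroup (Fin n) K, g ∈ Ga n σ ↔
      tstar hK (g : Matrix (Fin n) (Fin n) K) * J * (g : Matrix (Fin n) (Fin n) K) = J := by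
    intro g
    rw [mem_Ga, st_eq hK hJdef]
    constructor
    · intro h
      calc _ = J * (J * tstar hK (g : Matrix (Fin n) (Fin n) K) * J * (g : Matrix (Fin n) (Fin n) K)) := by
            simp only [← mul_assoc, hJ, one_mul]
        _ = J := by rw [h, mul_one]
    · intro h
      simp only [mul_assoc] at h ⊢
      rw [h, hJ]
  have hdetc : ∀ g : Matrix (Fin n) (Fin n) K, (B * g * B⁻¹).det = g.det := fun g =>
    Matrix.det_conj ((Matrix.isUnit_iff_isUnit_det B).2 hBu) g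
  let ψ : Ga n σ →* Cfsg.SU n K q := {
    toFun := fun g => ⟨⟨B * ((g : Matrix.SpecialLinearGroup (Fin n) K) : Matrix (Fin n) (Fin n) K) * B⁻¹,
      by rw [hdetc]; exact (g : Matrix.SpecialLinearGroup (Fin n) K).2⟩, by
      refine (mem_SU_iff' hK _).2 ?_
      show tstar hK (B * ((g : Matrix.SpecialLinearGroup (Fin n) K) : Matrix (Fin n) (Fin n) K) * B⁻¹) *
        (B * ((g : Matrix.SpecialLinearGroup (Fin n) K) : Matrix (Fin n) (Fin n) K) * B⁻¹) = 1
      have h := (hmem _).1 g.2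
      generalize ((g : Matrix.SpecialLinearGroup (Fin n) K) : Matrix (Fin n) (Fin n) K) = A at h ⊢
      calc _ = tstar hK B⁻¹ * (tstar hK A * (tstar hK B * B) * A) * B⁻¹ := by
            simp only [tstar_mul, mul_assoc]
        _ = 1 := by rw [hB, h, hBJ]⟩
    map_one' := Subtype.ext (Subtype.ext (by
      show B * 1 * B⁻¹ = 1
      rw [mul_one, hBi']))
    map_mul' := fun g h => Subtype.ext (Subtype.ext (by
      show B * (_ * _) * B⁻¹ = B * _ * B⁻¹ * (B * _ * B⁻¹)
      simp only [mul_assoc]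
      rw [← mul_assoc B⁻¹ B, hBi, one_mul])) }
  have hψ : Function.Surjective ψ := by
    rintro ⟨⟨A, hA⟩, hA'⟩
    have h := (mem_SU_iff' hK _).1 hA'
    have hd' : (B⁻¹ * A * B).det = 1 := by
      rw [← hdetc, ← mul_assoc, ← mul_assoc, hBi', one_mul, mul_assoc, hBi', mul_one]; exact hA
    refine ⟨⟨⟨B⁻¹ * A * B, hd'⟩, (hmem _).2 ?_⟩, Subtype.ext (Subtype.ext ?_)⟩
    · show tstar hK (B⁻¹ * A * B) * J * (B⁻¹ * A * B) = J
      calc _ = tstar hK B * (tstar hK A * (tstar hK B⁻¹ * J * B⁻¹) * A) * B := by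
            simp only [tstar_mul, mul_assoc]
        _ = J := by rw [hBJ, mul_one, show tstar hK A * A = 1 from h, mul_one, hB]
    · show B * (B⁻¹ * A * B) * B⁻¹ = A
      rw [← mul_assoc, ← mul_assoc, hBi', one_mul, mul_assoc, hBi', mul_one]
  set π := (QuotientGroup.mk' (Subgroup.center (Cfsg.SU n K q))).comp ψ with hπdef
  have hπ : Function.Surjective π := (QuotientGroup.mk'_surjective _).comp hψ
  have hker : ∀ g : Ga n σ, π g = 1 ↔
      ∃ a : K, ((g : Matrix.SpecialLinearGroup (Fin n) K) : Matrix (Fin n) (Fin n) K) = a • 1 := by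
    intro g
    rw [hπdef, MonoidHom.comp_apply, QuotientGroup.mk'_apply, QuotientGroup.eq_one_iff]
    constructor
    · intro h
      obtain ⟨a, ha⟩ := Herm.scalar_of_mem_center_SU hK hn1 h
      refine ⟨a, ?_⟩
      have ha' : B * ((g : Matrix.SpecialLinearGroup (Fin n) K) : Matrix (Fin n) (Fin n) K) * B⁻¹ = a • 1 := ha
      have := congrArg (fun X => B⁻¹ * X * B) ha'
      simpa [← mul_assoc, hBi, mul_assoc _ B⁻¹ B, Matrix.mul_smul, Matrix.smul_mul] using this
    · rintro ⟨a, ha⟩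
      refine Subgroup.mem_center_iff.2 fun y => Subtype.ext (Subtype.ext ?_)
      show _ * (B * _ * B⁻¹) = B * _ * B⁻¹ * _
      simp [ha, Matrix.mul_smul, Matrix.smul_mul, hBi']
  clear hπdef
  clear_value π
  have hUp : IsPGroup p (((U n σ).subgroupOf (Ga n σ)).map π) := by
    refine IsPGroup.map (fun u => ?_) π
    obtain ⟨k, hk⟩ := U_pow p u.2
    exact ⟨k, Subtype.ext (Subtype.ext hk)⟩
  obtain ⟨P, hP⟩ := exists_sylow_of_normalizer hUp fun g hg hgp => by
    obtain ⟨A, rfl⟩ := hπ g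
    obtain ⟨k, hk⟩ := hgp
    have htri := triangular_of_conj hG fun u hu => by
      obtain ⟨v, hv, hve⟩ := conj_mem_of_mem_normalizer hg ⟨⟨u, hu.1⟩, hu, rfl⟩
      have := congrArg Subtype.val (lift_conj p π hn1 hker (u := ⟨u, hu.1⟩) hu hv hve.symm)
      rw [show (A : Matrix.SpecialLinearGroup (Fin n) K) * u * (A : Matrix.SpecialLinearGroup (Fin n) K)⁻¹ = _
        from this]
      exact hv
    obtain ⟨s, hs⟩ := (hker (A ^ p ^ k)).1 (by rw [map_pow]; exact hk)
    set g' := ((A : Matrix.SpecialLinearGroup (Fin n) K) : Matrix (Fin n) (Fin n) K) with hg'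
    have hd : ∀ i, g' i i ^ p ^ k = s := fun i => by
      rw [← (Cfsg.Agent.Lib.GS.SpBorel.tri_pow_diag htri i _).2]
      have := congrFun (congrFun hs i) i
      simpa [g', SubgroupClass.coe_pow, Matrix.SpecialLinearGroup.coe_pow] using this
    set a := g' ⟨0, hn1⟩ ⟨0, hn1⟩
    have hda : ∀ i, g' i i = a := fun i =>
      (iterateFrobenius_inj K p k) (by simp [iterateFrobenius_def, hd, a])
    obtain ⟨z, hz, hzG, hzA⟩ := exists_scalar monotone_id hn1 A.2 (a := a)
      (fun x y (hxy : y ≤ x) => by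
        rcases hxy.eq_or_lt with rfl | h
        · rw [Matrix.one_apply_eq, mul_one]; exact hda y
        · rw [Matrix.one_apply_ne h.ne', mul_zero]; exact htri h)
    have e : π (⟨z, hzG⟩ * A) = π A := by rw [map_mul, (hker ⟨z, hzG⟩).2 ⟨_, hz⟩, one_mul]
    rw [← e]
    exact img π (⟨z, hzG⟩ * A) hzA
  obtain ⟨g, hg⟩ := MulAction.exists_smul_eq (Cfsg.PSU n K q) P S
  refine simple_of_hom p ((MulAut.conj g).toMonoidHom.comp π) hG hn
    ((MulAut.conj g).surjective.comp hπ) (fun x => ?_) S ?_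
  · rw [← hker x]
    simp
  · rw [← hg, Sylow.coe_subgroup_smul, ← Subgroup.map_map, ← hP]
    rfl

end Cfsg.Agent.S5172
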