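import Cfsg.Statements.S5311
import Cfsg.Agent.Lib.Fusion.IsoTransport

set_option autoImplicit false
open Cfsg

namespace Cfsg.Agent.S5311

open Cfsg.FusionSystem Cfsg.Agent.Lib.Fusion

theorem layer_le {Ω : Type*} [Group Ω] {S : Subgroup Ω} [Finite S] (p : ℕ) [Fact p.Prime] (hS : IsPGroup p S)
    {F : FusionSystem S} (hF : F.IsSaturated p) (α : S ≃* S) (hα : SysIso α F F) {T : Subgroup Ω}
    {E : FusionSystem T} (hE : E.IsLayerOf F p) :
    ∃ hT : T ≤ S, E.IsSubsystemOf (pushSystem α E hT) := by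
  obtain ⟨hT, hN⟩ := pushSystem_isNormalIn (e := α) hS hα hF hE.1
  refine ⟨hT, hE.2.2 _ _ hN fun U C hC => ?_⟩
  have hUS : U ≤ S := subnormal_le' hC.1
  have := finite_of_le hUS
  let θ : U →* Ω := S.subtype.comp (α.symm.toMonoidHom.comp (Subgroup.inclusion hUS))
  have hθ : Function.Injective θ := fun a b hab =>
    Subgroup.inclusion_injective hUS (α.symm.injective (Subtype.ext hab))
  let eU : U ≃* θ.range := MonoidHom.ofInjective hθ
  obtain ⟨C', hC', -⟩ := exists_push (e := α.symm) C hUS eU (fun _ => rfl)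
  have hcomp := component_transport hS hα.symm hF hC eU hUS (fun _ => rfl) hC'
  have hsub := hE.2.1 _ C' hcomp
  intro P φ hφ
  obtain ⟨ψ, hψ, hc⟩ := exists_pull (e := eU.symm) (F := C') (F' := C) (by rw [MulEquiv.symm_symm]; exact hC'.1) hφ
  have hψE := hsub _ hψ
  have hconv : ∀ u : θ.range, ∀ h : (u : Ω) ∈ S, (α ⟨u, h⟩ : Ω) = (eU.symm u : Ω) := by
    intro u h
    obtain ⟨z, rfl⟩ := eU.surjective u
    rw [show (⟨(eU z : Ω), h⟩ : S) = α.symm ⟨(z : Ω), hUS z.2⟩ from Subtype.ext rfl, MulEquiv.apply_symm_apply,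
      MulEquiv.symm_apply_apply]
  have hrS : θ.range ≤ S := by rintro _ ⟨z, rfl⟩; exact (α.symm _).2
  refine ⟨fun y hy => ?_, _, ψ, hψE, fun y => ?_⟩
  · obtain ⟨x, s, hx, h1, -, -⟩ := hc ⟨y, hy⟩
    refine ⟨⟨x, hrS x.2⟩, src_le hψE hx, ?_⟩
    show (α ⟨(x : Ω), hrS x.2⟩ : Ω) = y
    rw [hconv]; exact h1
  · obtain ⟨x, s, hx, h1, h2, h3⟩ := hc y
    exact ⟨⟨x, hrS x.2⟩, ⟨s, hrS s.2⟩, hx, (hconv x _).trans h1, h2, h3.trans (hconv s _).symm⟩


/-- The layer of a saturated fusion system F over a finite p-group S is characteristic in F: for every automorphism α of S that is an automorphism of F (α and its inverse are morphisms from F to F) and every layer E of F over T, α carries T onto T and, for every map φ of E with source P, the map induced by α on α(P) (that is, α ∘ φ ∘ α⁻¹) is a map of E. -/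
theorem result {Ω : Type*} [Group Ω] {S : Subgroup Ω} [Finite S] (p : ℕ) [Fact p.Prime] (hS : IsPGroup p S) (F : Cfsg.FusionSystem S) (hF : F.IsSaturated p)
    (α : ↥S ≃* ↥S) (hα : F.IsMorphism F (S.subtype.comp α.toMonoidHom))
    (hα' : F.IsMorphism F (S.subtype.comp α.symm.toMonoidHom))
    {T : Subgroup Ω} (E : Cfsg.FusionSystem T) (hE : E.IsLayerOf F p) :
    Cfsg.FusionSystem.imageAlong (S.subtype.comp α.toMonoidHom) T = T ∧
      ∀ (P : Subgroup Ω) (φ : ↥P →* Ω), φ ∈ E.Hom P →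
        ∀ φ' : ↥(Cfsg.FusionSystem.imageAlong (S.subtype.comp α.toMonoidHom) P) →* Ω,
          Cfsg.FusionSystem.InducedAlong (S.subtype.comp α.toMonoidHom) φ φ' →
            φ' ∈ E.Hom (Cfsg.FusionSystem.imageAlong (S.subtype.comp α.toMonoidHom) P) := by
  have hiso := sysIso_of_morphism hα hα'
  obtain ⟨hT, h1⟩ := layer_le p hS hF α hiso hE
  obtain ⟨hT2, h2⟩ := layer_le p hS hF α.symm hiso.symm hE
  have hid : Subgroup.subtype T ∈ E.Hom T := by
    have h := (mem_autGroup (F := E) (le_refl T)).1 (one_mem _ : (1 : MulAut T) ∈ E.autGroup T)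
    exact h
  refine ⟨le_antisymm ?_ (h1 T hid).1, fun P φ hφ φ' hind => ?_⟩
  · rintro _ ⟨x, hx, rfl⟩
    obtain ⟨z, hz, hzx⟩ := (h2 T hid).1 hx
    show (α x : Ω) ∈ T
    rw [show x = α.symm z from Subtype.ext hzx.symm, MulEquiv.apply_symm_apply]
    exact hz
  · obtain ⟨-, P₀, φ₀, hφ₀, hc⟩ := h2 P hφ
    obtain ⟨a₁, a₂, a₃, hae⟩ := hind
    have hle : imageAlong (S.subtype.comp α.toMonoidHom) P ≤ P₀ := by
      rintro _ ⟨x, hx, rfl⟩
      obtain ⟨z, s, hz, g1, -, -⟩ := hc ⟨x, hx⟩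
      show (α x : Ω) ∈ P₀
      rw [show x = α.symm z from Subtype.ext g1.symm, MulEquiv.apply_symm_apply]
      exact hz
    refine mem_of_agree hle hφ₀ ?_
    rintro ⟨_, x, hx, rfl⟩
    obtain ⟨z, s, hz, g1, g2, g3⟩ := hc ⟨x, hx⟩
    have hzx : z = α x := by rw [← MulEquiv.symm_apply_eq]; exact Subtype.ext g1
    subst hzx
    refine (hae ⟨(x : Ω), hx⟩).trans ?_
    refine Eq.trans ?_ g2
    show (α ⟨φ ⟨(x : Ω), hx⟩, a₂ _⟩ : Ω) = s
    rw [show (⟨φ ⟨(x : Ω), hx⟩, a₂ _⟩ : S) = α.symm s from Subtype.ext g3, MulEquiv.apply_symm_apply]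

end Cfsg.Agent.S5311
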