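import Cfsg.Statements.S5345
import Cfsg.Agent.Lib.ThreeTransp.Basic
-- import your own Cfsg.Agent.* helpers here

set_option autoImplicit false
open Cfsg

namespace Cfsg.Agent.S5345

open Cfsg.Agent.Lib.ThreeTransp

theorem main {G : Type*} [Group G] [Finite G] {D : Set G} (hD : Cfsg.IsThreeTranspositionGroup D) (T : Sylow 2 G) :
    IsMulCommutative (Subgroup.closure {d : G | d ∈ D ∧ d ∈ T}) ∧ {d : G | d ∈ D ∧ d ∈ T}.ncard = Cfsg.commutingWidth D := by
  obtain ⟨hS, hconj, -⟩ := hD
  set E0 := {d : G | d ∈ D ∧ d ∈ T} with hE0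
  have hcomm : ∀ a ∈ E0, ∀ b ∈ E0, Commute a b := by
    rintro a ⟨ha, haT⟩ b ⟨hb, hbT⟩
    obtain ⟨k, hk⟩ := T.isPGroup' (⟨a, haT⟩ * ⟨b, hbT⟩)
    exact commute_of_two_pow hS ha hb (k := k) (by simpa using congrArg Subtype.val hk)
  have hc : IsMulCommutative (Subgroup.closure E0) :=
    Subgroup.isMulCommutative_closure fun x hx y hy => hcomm x hx y hy
  refine ⟨hc, ?_⟩
  have hbd : ∀ E : Set G, E ⊆ D → (∀ a ∈ E, ∀ b ∈ E, Commute a b) → E.ncard ≤ E0.ncard := by
    intro E hED hEc
    haveI : IsMulCommutative (Subgroup.closure E) := Subgroup.isMulCommutative_closure fun x hx y hy => hEc x hx y hy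
    have hsq : ∀ x ∈ Subgroup.closure E, x * x = 1 := by
      intro x hx
      induction hx using Subgroup.closure_induction with
      | mem y hy => exact mul_self (hS.1 y (hED hy))
      | one => exact one_mul 1
      | mul y z hy hz ey ez =>
        have hyz : y * z = z * y := congrArg Subtype.val
          ((inferInstance : IsMulCommutative (Subgroup.closure E)).is_comm.comm ⟨y, hy⟩ ⟨z, hz⟩)
        calc y * z * (y * z) = y * (z * y) * z := by group
          _ = (y * y) * (z * z) := by rw [← hyz]; group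
          _ = 1 := by rw [ey, ez, one_mul]
      | inv y _ ey => rw [← mul_inv_rev, ey, inv_one]
    have hP : IsPGroup 2 (Subgroup.closure E) := fun x => ⟨1, Subtype.ext (by simpa [pow_two] using hsq x x.2)⟩
    obtain ⟨Q, hQ⟩ := hP.exists_le_sylow
    obtain ⟨g, hg⟩ := MulAction.exists_smul_eq G Q T
    refine Set.ncard_le_ncard_of_injOn (fun x => g * x * g⁻¹) (fun x hx => ⟨hconj g x (hED hx), ?_⟩)
      (fun x _ y _ h => by simpa using h) (Set.toFinite _)
    rw [← hg]
    have : g • x = g • x := rfl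
    exact Subgroup.smul_mem_pointwise_smul x (MulAut.conj g) (Q : Subgroup G) (hQ (Subgroup.subset_closure hx))
  have hmem : E0.ncard ∈ {n : ℕ | ∃ E : Set G, E ⊆ D ∧ E.Finite ∧ (∀ a ∈ E, ∀ b ∈ E, Commute a b) ∧ E.ncard = n} :=
    ⟨E0, fun x hx => hx.1, Set.toFinite _, hcomm, rfl⟩
  refine le_antisymm (le_csSup ⟨E0.ncard, ?_⟩ hmem) (csSup_le ⟨_, hmem⟩ ?_)
  all_goals rintro n ⟨E, h1, -, h3, rfl⟩; exact hbd E h1 h3

/-- Let D be a conjugation-invariant generating set of 3-transpositions of a finite group G and T a Sylow 2-subgroup of G. Then the members of D lying in T generate an abelian subgroup, and their number is the width of D (the largest number of pairwise commuting members of D). -/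
theorem result {G : Type*} [Group G] [Finite G] {D : Set G} (hD : Cfsg.IsThreeTranspositionGroup D) (T : Sylow 2 G) : IsMulCommutative (Subgroup.closure {d : G | d ∈ D ∧ d ∈ T}) ∧ {d : G | d ∈ D ∧ d ∈ T}.ncard = Cfsg.commutingWidth D := by
  exact main hD T

end Cfsg.Agent.S5345
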