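import Cfsg.Statements.S5346
import Cfsg.Agent.Lib.ThreeTransp.WidthOne
-- import your own Cfsg.Agent.* helpers here

set_option autoImplicit false
open Cfsg

namespace Cfsg.Agent.S5346

/-- Let D be a conjugation-invariant generating set of 3-transpositions of a finite group G and d a member of D. Then D has width 1 (no two different members of D commute) if and only if G is the product of the subgroup generated by d with the largest normal 3-subgroup of G. -/
theorem result {G : Type*} [Group G] [Finite G] {D : Set G} (hD : Cfsg.IsThreeTranspositionGroup D) {d : G} (hd : d ∈ D) : Cfsg.commutingWidth D = 1 ↔ Subgroup.zpowers d ⊔ Cfsg.pCore 3 G = ⊤ := by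
  open Lib.ThreeTransp in
  obtain ⟨hT, hc, hgen⟩ := hD
  have hbdd : BddAbove {n : ℕ | ∃ E : Set G, E ⊆ D ∧ E.Finite ∧ (∀ a ∈ E, ∀ b ∈ E, Commute a b) ∧ E.ncard = n} := by
    refine ⟨Nat.card G, ?_⟩
    rintro n ⟨E, -, -, -, rfl⟩
    exact (Set.ncard_le_card E)
  have h1 : 1 ≤ Cfsg.commutingWidth D :=
    le_csSup hbdd ⟨{d}, by simpa using hd, Set.finite_singleton d, by simp, Set.ncard_singleton d⟩
  constructor
  · intro hw
    refine sup_pCore_eq_top (Sys.of_width_one hT hc ?_) hc hgen hd
    intro a ha b hb hab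
    by_contra hne
    have h2 : 2 ≤ Cfsg.commutingWidth D := by
      refine le_csSup hbdd ⟨{a, b}, by simp [Set.insert_subset_iff, ha, hb], Set.toFinite _, ?_, Set.ncard_pair hne⟩
      simp [hab, hab.symm]
    omega
  · intro htop
    refine le_antisymm (csSup_le ⟨1, {d}, by simpa using hd, Set.finite_singleton d, by simp, Set.ncard_singleton d⟩ ?_) h1
    rintro n ⟨E, hED, hEfin, hEc, rfl⟩
    rw [Set.ncard_le_one hEfin]
    intro a ha b hb
    haveI : (pCore 3 G).Normal := pCore_normal 3 G
    haveI : Fact (Nat.Prime 3) := ⟨Nat.prime_three⟩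
    have hP := Lib.Components.pCore_isPGroup (G := G) 3
    have hnot : ∀ v : G, v * v = 1 → v ∈ pCore 3 G → v = 1 := by
      intro v hv hvP
      obtain ⟨k, hk⟩ := hP ⟨v, hvP⟩
      have h1 : orderOf v ∣ 2 := orderOf_dvd_of_pow_eq_one (by rw [pow_two]; exact hv)
      have h2 : orderOf v ∣ 3 ^ k := orderOf_dvd_of_pow_eq_one (congrArg Subtype.val hk)
      have h3 := Nat.dvd_gcd h1 h2
      rw [(Nat.Coprime.pow_right k (by norm_num : Nat.Coprime 2 3)).gcd_eq_one, Nat.dvd_one, orderOf_eq_one_iff] at h3
      exact h3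
    have himg : ∀ v ∈ D, (QuotientGroup.mk v : G ⧸ pCore 3 G) = QuotientGroup.mk d := by
      intro v hv
      have hle : Subgroup.zpowers d ⊔ pCore 3 G ≤
          (Subgroup.zpowers (QuotientGroup.mk d : G ⧸ pCore 3 G)).comap (QuotientGroup.mk' (pCore 3 G)) := by
        refine sup_le ?_ ?_
        · rw [Subgroup.zpowers_le]; exact Subgroup.mem_zpowers _
        · intro q hq
          rw [Subgroup.mem_comap, QuotientGroup.mk'_apply, (QuotientGroup.eq_one_iff q).mpr hq]
          exact one_mem _
      rw [htop] at hle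
      obtain ⟨k, hk⟩ := Subgroup.mem_zpowers_iff.mp (hle (Subgroup.mem_top v))
      change _ = (QuotientGroup.mk v : G ⧸ pCore 3 G) at hk
      have hdd : (QuotientGroup.mk d : G ⧸ pCore 3 G) * QuotientGroup.mk d = 1 := by
        rw [← QuotientGroup.mk_mul, mul_self (hT.1 d hd)]; rfl
      rcases Int.even_or_odd k with ⟨m, rfl⟩ | ⟨m, rfl⟩
      · exfalso
        rw [← two_mul, zpow_mul, zpow_ofNat, pow_two, hdd, one_zpow] at hk
        have := hnot v (mul_self (hT.1 v hv)) ((QuotientGroup.eq_one_iff v).mp hk.symm)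
        exact ne_one (hT.1 v hv) this
      · rw [← hk, zpow_add_one, zpow_mul, zpow_ofNat, pow_two, hdd, one_zpow, one_mul]
    have hab := hEc a ha b hb
    have haa := mul_self (hT.1 a (hED ha))
    have hbb := mul_self (hT.1 b (hED hb))
    have h := hnot (a⁻¹ * b) (by
        rw [inv_eq (hT.1 a (hED ha)), ← pow_two, hab.mul_pow, pow_two, pow_two, haa, hbb, one_mul])
      (QuotientGroup.eq.mp ((himg a (hED ha)).trans (himg b (hED hb)).symm))
    exact inv_mul_eq_one.mp h

end Cfsg.Agent.S5346
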