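import Cfsg.Statements.S5347
import Cfsg.Agent.Lib.ThreeTransp.Basic
-- import your own Cfsg.Agent.* helpers here

set_option autoImplicit false
open Cfsg

namespace Cfsg.Agent.S5347

/-- Let D be a conjugation-invariant generating set of 3-transpositions of a finite group G, p a prime bigger than 3, and P a p-subgroup of G. If a member d of D normalizes P then d centralizes P. -/
theorem result {G : Type*} [Group G] [Finite G] {D : Set G} (hD : Cfsg.IsThreeTranspositionGroup D) {p : ℕ} (hp : p.Prime) (hp3 : 3 < p) (P : Subgroup G) (hP : IsPGroup p P) {d : G} (hd : d ∈ D) (hnorm : d ∈ Subgroup.normalizer (P : Set G)) : ∀ x ∈ P, Commute d x := by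
  open Lib.ThreeTransp in
  intro x hx
  obtain ⟨hS, hconj, -⟩ := hD
  have hdd := mul_self (hS.1 d hd)
  have he := hconj x d hd
  have hmem : d * (x * d * x⁻¹) ∈ P := by
    have h1 : d * x * d⁻¹ ∈ P := (Subgroup.mem_normalizer_iff.mp hnorm x).mp hx
    rw [inv_eq (hS.1 d hd)] at h1
    simpa [mul_assoc] using mul_mem h1 (inv_mem hx)
  obtain ⟨k, hk⟩ := hP ⟨_, hmem⟩
  have hk' : (d * (x * d * x⁻¹)) ^ (p ^ k) = 1 := by simpa using congrArg Subtype.val hk
  have h1 : orderOf (d * (x * d * x⁻¹)) = 1 := by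
    have ho := orderOf_dvd_of_pow_eq_one hk'
    have hcop : ∀ m, m = 2 ∨ m = 3 → (d * (x * d * x⁻¹)) ^ m = 1 → orderOf (d * (x * d * x⁻¹)) = 1 := by
      intro m hm h
      have hd' := Nat.dvd_gcd ho (orderOf_dvd_of_pow_eq_one h)
      have hco : Nat.Coprime (p ^ k) m := Nat.Coprime.pow_left k (by
        rcases hm with rfl | rfl
        · exact (Nat.coprime_primes hp Nat.prime_two).mpr (by omega)
        · exact (Nat.coprime_primes hp Nat.prime_three).mpr (by omega))
      rwa [hco.gcd_eq_one, Nat.dvd_one] at hd'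
    rcases hS.2 d hd _ he with h | h
    · exact hcop 2 (Or.inl rfl) h
    · exact hcop 3 (Or.inr rfl) h
  rw [orderOf_eq_one_iff] at h1
  have h2 : x * d * x⁻¹ = d := by
    calc x * d * x⁻¹ = d * (d * (x * d * x⁻¹)) := by rw [← mul_assoc, hdd, one_mul]
      _ = d := by rw [h1, mul_one]
  show d * x = x * d
  exact (mul_inv_eq_iff_eq_mul.mp h2).symm

end Cfsg.Agent.S5347
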