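import Cfsg.Statements.S5348
import Cfsg.Agent.Lib.ThreeTransp.Basic
-- import your own Cfsg.Agent.* helpers here

set_option autoImplicit false
open Cfsg

namespace Cfsg.Agent.S5348

/-- Let D be a conjugation-invariant generating set of 3-transpositions of a finite group G and d a member of D. Let V be the set of members of D commuting with exactly the same members of D as d, and W the set of members w of D such that the members of D other than w commuting with w are precisely the members of D other than d commuting with d. Then V = {d} or W = {d}. -/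
theorem result {G : Type*} [Group G] [Finite G] {D : Set G} (hD : Cfsg.IsThreeTranspositionGroup D) {d : G} (hd : d ∈ D) : {v : G | v ∈ D ∧ ∀ e ∈ D, Commute v e ↔ Commute d e} = {d} ∨ {w : G | w ∈ D ∧ {y : G | y ∈ D ∧ y ≠ d ∧ Commute d y} = {y : G | y ∈ D ∧ y ≠ w ∧ Commute w y}} = {d} := by
  refine or_iff_not_imp_left.mpr fun hV => ?_
  obtain ⟨v, ⟨hv, hvd⟩, hne⟩ : ∃ v, (v ∈ D ∧ ∀ e ∈ D, Commute v e ↔ Commute d e) ∧ v ≠ d := by
    by_contra hc
    push_neg at hc
    exact hV (Set.eq_singleton_iff_unique_mem.mpr ⟨⟨hd, fun e _ => Iff.rfl⟩, fun v hv => hc v hv⟩)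
  refine Set.eq_singleton_iff_unique_mem.mpr ⟨⟨hd, rfl⟩, ?_⟩
  rintro w ⟨hw, hwd⟩
  by_contra hwne
  have hdv : Commute d v := (hvd v hv).mp (Commute.refl v)
  have h1 : v ∈ {y : G | y ∈ D ∧ y ≠ w ∧ Commute w y} := hwd ▸ ⟨hv, hne, hdv⟩
  have h2 : Commute d w := (hvd w hw).mp h1.2.2.symm
  have h3 : w ∈ {y : G | y ∈ D ∧ y ≠ w ∧ Commute w y} := hwd ▸ ⟨hw, hwne, h2⟩
  exact h3.2.1 rfl

end Cfsg.Agent.S5348
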