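import Cfsg.Statements.S5349
import Cfsg.Agent.Lib.ThreeTransp.Same
-- import your own Cfsg.Agent.* helpers here

set_option autoImplicit false
open Cfsg

namespace Cfsg.Agent.S5349

/-- Let D be a conjugacy class of 3-transpositions generating the finite group G, with at least two members, and d a member of D. Then the set of members of D commuting with exactly the same members of D as d coincides with the set of members of D lying in the coset of d modulo the largest normal 2-subgroup of G, and also with the orbit of d under conjugation by that normal 2-subgroup. -/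
theorem result {G : Type*} [Group G] [Finite G] {D : Set G} (hD : Cfsg.IsThreeTranspositionClass D) (hD2 : ∃ a ∈ D, ∃ b ∈ D, a ≠ b) {d : G} (hd : d ∈ D) : {v : G | v ∈ D ∧ ∀ e ∈ D, Commute v e ↔ Commute d e} = {v : G | v ∈ D ∧ d⁻¹ * v ∈ Cfsg.pCore 2 G} ∧ {v : G | v ∈ D ∧ ∀ e ∈ D, Commute v e ↔ Commute d e} = {v : G | ∃ g ∈ Cfsg.pCore 2 G, v = g * d * g⁻¹} := by
  open Lib.ThreeTransp in
  obtain ⟨hT, ⟨d₀, -, hD₀⟩, hgen⟩ := hD
  have hc : ∀ g : G, ∀ x ∈ D, g * x * g⁻¹ ∈ D := fun g x hx => by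
    rw [hD₀] at hx ⊢; exact IsConj.trans hx (isConj_iff.mpr ⟨g, rfl⟩)
  obtain ⟨e, he, hde⟩ : ∃ e ∈ D, ¬ Commute d e := by
    by_contra h
    push Not at h
    obtain ⟨a, ha, b, hb, hab⟩ := hD2
    have hle : Subgroup.closure D ≤ Subgroup.centralizer {d} := by
      rw [Subgroup.closure_le]
      intro x hx
      rw [SetLike.mem_coe, Subgroup.mem_centralizer_singleton_iff]
      exact (h x hx).symm.eq
    rw [hgen] at hle
    have hall : ∀ x ∈ D, x = d := by
      intro x hx
      obtain ⟨g, hg⟩ := isConj_iff.mp (((show IsConj d₀ d by rw [hD₀] at hd; exact hd).symm).trans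
        (show IsConj d₀ x by rw [hD₀] at hx; exact hx))
      rw [← hg, Subgroup.mem_centralizer_singleton_iff.mp (hle (Subgroup.mem_top g)), mul_inv_cancel_right]
    exact hab ((hall a ha).trans (hall b hb).symm)
  have hdi := inv_eq (hT.1 d hd)
  change Same D d = _ ∧ Same D d = _
  have h1 : ∀ v, v ∈ Same D d ↔ v ∈ D ∧ d⁻¹ * v ∈ pCore 2 G := by
    intro v
    constructor
    · rintro ⟨hv, h⟩
      exact ⟨hv, by rw [hdi]; exact same_mul_mem_pCore hT hc hd hv fun x hx => (h x hx).symm⟩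
    · rintro ⟨hv, h⟩
      rw [hdi] at h
      have h' : v * d ∈ pCore 2 G := by
        have := inv_mem h; rwa [mul_inv_rev, inv_eq (hT.1 v hv), hdi] at this
      exact ⟨hv, fun x hx => ⟨commute_of_mem_two_coset hT hv hd hx h', commute_of_mem_two_coset hT hd hv hx h⟩⟩
  refine ⟨Set.ext h1, Set.ext fun v => ⟨fun hv => ?_, ?_⟩⟩
  · obtain ⟨g, hg, hgv⟩ := exists_conj_same hT hc hd hv.1 he (fun x hx => (hv.2 x hx).symm) hde
    exact ⟨g, hg, hgv.symm⟩
  · rintro ⟨g, hg, rfl⟩
    refine (h1 _).mpr ⟨hc g d hd, ?_⟩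
    rw [show d⁻¹ * (g * d * g⁻¹) = (d⁻¹ * g * d) * g⁻¹ by group]
    exact mul_mem (by simpa using (pCore_normal 2 G).conj_mem g hg d⁻¹) (inv_mem hg)

end Cfsg.Agent.S5349
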