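import Cfsg.Statements.S5350
import Cfsg.Agent.Lib.ThreeTransp.Twins
-- import your own Cfsg.Agent.* helpers here

set_option autoImplicit false
open Cfsg

namespace Cfsg.Agent.S5350

/-- Let D be a conjugacy class of 3-transpositions generating the finite group G, with at least two members, and d a member of D. Then the set of members w of D whose commuting partners in D (other than w) are exactly those of d (other than d) coincides with the set of members of D lying in the coset of d modulo the largest normal 3-subgroup of G, and also with the orbit of d under conjugation by that normal 3-subgroup. -/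
theorem result {G : Type*} [Group G] [Finite G] {D : Set G} (hD : Cfsg.IsThreeTranspositionClass D) (hD2 : ∃ a ∈ D, ∃ b ∈ D, a ≠ b) {d : G} (hd : d ∈ D) : {w : G | w ∈ D ∧ {y : G | y ∈ D ∧ y ≠ d ∧ Commute d y} = {y : G | y ∈ D ∧ y ≠ w ∧ Commute w y}} = {w : G | w ∈ D ∧ d⁻¹ * w ∈ Cfsg.pCore 3 G} ∧ {w : G | w ∈ D ∧ {y : G | y ∈ D ∧ y ≠ d ∧ Commute d y} = {y : G | y ∈ D ∧ y ≠ w ∧ Commute w y}} = {w : G | ∃ g ∈ Cfsg.pCore 3 G, w = g * d * g⁻¹} := by
  open Lib.ThreeTransp in
  obtain ⟨hT, ⟨d₀, -, hD₀⟩, -⟩ := hD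
  have hc : ∀ g : G, ∀ x ∈ D, g * x * g⁻¹ ∈ D := fun g x hx => by
    rw [hD₀] at hx ⊢; exact IsConj.trans hx (isConj_iff.mpr ⟨g, rfl⟩)
  haveI : (pCore 3 G).Normal := pCore_normal 3 G
  change Twin D d = _ ∧ Twin D d = _
  have hdi := inv_eq (hT.1 d hd)
  have h1 : ∀ w, w ∈ Twin D d ↔ w ∈ D ∧ d⁻¹ * w ∈ pCore 3 G := by
    intro w
    constructor
    · rintro ⟨hw, h⟩
      exact ⟨hw, by rw [hdi]; exact twin_mul_mem_pCore hT hc hd hw h⟩
    · rintro ⟨hw, h⟩
      rw [hdi] at h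
      have h' : w * d ∈ pCore 3 G := by
        have := inv_mem h; rwa [mul_inv_rev, inv_eq (hT.1 w hw), hdi] at this
      exact ⟨hw, Set.ext fun y => ⟨commute_of_mem_coset hT hc hd hw h, commute_of_mem_coset hT hc hw hd h'⟩⟩
  refine ⟨Set.ext h1, Set.ext fun w => ⟨fun hw => ?_, ?_⟩⟩
  · obtain ⟨hwD, hdw⟩ := (h1 w).mp hw
    by_cases hcm : Commute d w
    · exact ⟨1, one_mem _, by rw [twin_eq_of_commute hwD hw.2 hcm]; simp⟩
    · refine ⟨d * w, by rwa [hdi] at hdw, (conj_mem_of_braid (braid_of_not_commute hT hd hwD hcm) ?_).symm⟩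
      exact mul_self (hT.1 d hd)
  · rintro ⟨g, hg, rfl⟩
    refine (h1 _).mpr ⟨hc g d hd, ?_⟩
    rw [show d⁻¹ * (g * d * g⁻¹) = (d⁻¹ * g * d) * g⁻¹ by group]
    exact mul_mem (by simpa using (inferInstance : (pCore 3 G).Normal).conj_mem g hg d⁻¹) (inv_mem hg)

end Cfsg.Agent.S5350
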