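import Cfsg.Statements.S5351
import Cfsg.Agent.Lib.ThreeTransp.Radical
-- import your own Cfsg.Agent.* helpers here

set_option autoImplicit false
open Cfsg

namespace Cfsg.Agent.S5351

/-- Let D be a conjugacy class of 3-transpositions generating the finite group G, with at least two members. Then for every prime p > 3 the largest normal p-subgroup of G is central, and exactly one of the following holds: the largest normal 2-subgroup of G is not central; the largest normal 3-subgroup of G is not central; the layer of G (the product of its components) is non-trivial. -/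
theorem result {G : Type*} [Group G] [Finite G] {D : Set G} (hD : Cfsg.IsThreeTranspositionClass D) (hD2 : ∃ a ∈ D, ∃ b ∈ D, a ≠ b) : (∀ p : ℕ, p.Prime → 3 < p → Cfsg.pCore p G ≤ Subgroup.center G) ∧ ((¬ Cfsg.pCore 2 G ≤ Subgroup.center G ∧ Cfsg.pCore 3 G ≤ Subgroup.center G ∧ Cfsg.layer G = ⊥) ∨ (Cfsg.pCore 2 G ≤ Subgroup.center G ∧ ¬ Cfsg.pCore 3 G ≤ Subgroup.center G ∧ Cfsg.layer G = ⊥) ∨ (Cfsg.pCore 2 G ≤ Subgroup.center G ∧ Cfsg.pCore 3 G ≤ Subgroup.center G ∧ Cfsg.layer G ≠ ⊥)) := by
  open Lib.ThreeTransp in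
  obtain ⟨hT, ⟨d₀, hd₀o, hD₀⟩, hgen⟩ := hD
  have hd₀ : d₀ ∈ D := hd₀o
  have hc : ∀ g : G, ∀ x ∈ D, g * x * g⁻¹ ∈ D := fun g x hx => by
    rw [hD₀] at hx ⊢; exact IsConj.trans hx (isConj_iff.mpr ⟨g, rfl⟩)
  have hconj : ∀ a ∈ D, ∀ b ∈ D, ∃ g : G, g * a * g⁻¹ = b := fun a ha b hb => by
    rw [hD₀] at ha hb; exact isConj_iff.mp (ha.symm.trans hb)
  refine ⟨fun p hp h3 => pCore_le_center_of_three_lt hT hc hgen hp h3, ?_⟩
  by_cases h2 : pCore 2 G ≤ Subgroup.center G
  · by_cases h3 : pCore 3 G ≤ Subgroup.center G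
    · refine Or.inr (Or.inr ⟨h2, h3, fun hL => ?_⟩)
      -- otherwise the generalized Fitting subgroup is central and `G` is abelian
      have hF : fittingSubgroup G ≤ Subgroup.center G := by
        rw [Lib.Components.fittingSubgroup_eq_iSup]
        refine iSup_le fun p => ?_
        by_cases e2 : (p : ℕ) = 2
        · rw [e2]; exact h2
        by_cases e3 : (p : ℕ) = 3
        · rw [e3]; exact h3
        · refine pCore_le_center_of_three_lt hT hc hgen p.2 ?_
          have := p.2.two_le; omega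
      have hgf : generalizedFittingSubgroup G ≤ Subgroup.center G := by
        rw [generalizedFittingSubgroup, hL, bot_sup_eq]; exact hF
      have htop : ∀ g : G, g ∈ Subgroup.center G := fun g =>
        hgf (Lib.Components.centralizer_gfs_le (Subgroup.mem_centralizer_iff.mpr fun x hx =>
          (Subgroup.mem_center_iff.mp (hgf hx) g).symm))
      obtain ⟨a, ha, b, hb, hab⟩ := hD2
      obtain ⟨g, hg⟩ := hconj a ha b hb
      exact hab (by rw [← hg, (Subgroup.mem_center_iff.mp (htop g) a).symm, mul_inv_cancel_right])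
    · exact Or.inr (Or.inl ⟨h2, h3, layer_eq_bot_of_three hT hc hgen hconj hd₀ h3⟩)
  · exact Or.inl ⟨h2, not_both hT hc hgen hconj hd₀ h2, layer_eq_bot_of_two hT hc hgen hconj hd₀ h2⟩

end Cfsg.Agent.S5351
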