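import Cfsg.Statements.S5352
import Cfsg.Agent.Lib.ThreeTransp.Primitive
-- import your own Cfsg.Agent.* helpers here

set_option autoImplicit false
open Cfsg

namespace Cfsg.Agent.S5352

/-- Let D be a conjugacy class of 3-transpositions generating the finite group G, with at least two members, and suppose the largest normal 2-subgroup and the largest normal 3-subgroup of G are both central. Then G has a quasisimple normal subgroup L such that the generalized Fitting subgroup of G is the product of L and the centre; and either L = G or the image of D in G/L has width 1, in the sense that two members of D whose commutator lies in L have the same image modulo L. -/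
theorem result {G : Type*} [Group G] [Finite G] {D : Set G} (hD : Cfsg.IsThreeTranspositionClass D) (hD2 : ∃ a ∈ D, ∃ b ∈ D, a ≠ b) (h2 : Cfsg.pCore 2 G ≤ Subgroup.center G) (h3 : Cfsg.pCore 3 G ≤ Subgroup.center G) : ∃ L : Subgroup G, L.Normal ∧ Cfsg.IsQuasisimple L ∧ Cfsg.generalizedFittingSubgroup G = L ⊔ Subgroup.center G ∧ (L = ⊤ ∨ ∀ a ∈ D, ∀ b ∈ D, a * b * a⁻¹ * b⁻¹ ∈ L → a⁻¹ * b ∈ L) := by
  open Lib.ThreeTransp in
  obtain ⟨hT, ⟨d₀, hd₀, hD₀⟩, hgen⟩ := hD
  have hc : ∀ g : G, ∀ x ∈ D, g * x * g⁻¹ ∈ D := fun g x hx => by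
    rw [hD₀] at hx ⊢; exact IsConj.trans hx (isConj_iff.mpr ⟨g, rfl⟩)
  have hconj : ∀ a ∈ D, ∀ b ∈ D, ∃ g : G, g * a * g⁻¹ = b := fun a ha b hb => by
    rw [hD₀] at ha hb; exact isConj_iff.mp (ha.symm.trans hb)
  obtain ⟨p, hp, q, hq, hpq⟩ := hD2
  obtain ⟨L, hL⟩ := exists_qs hT hc hgen hconj hp hq hpq h2 h3
  refine ⟨L, hL.normal, hL.qs, hL.gfs, Or.inr fun a ha b hb hab => ?_⟩
  haveI := hL.normal
  rw [inv_eq (hT.1 a ha)]
  by_cases hcm : Commute a b
  · exact mul_mem_of_commute hT hc hgen hconj hL ha hb hcm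
  · rw [inv_eq (hT.1 a ha), inv_eq (hT.1 b hb)] at hab
    rw [← QuotientGroup.eq_one_iff]
    refine eq_one_of_sq_of_two_three ?_ ?_
    · rw [← QuotientGroup.mk_pow, QuotientGroup.eq_one_iff, pow_two, ← mul_assoc]
      exact hab
    · rw [← QuotientGroup.mk_pow, cube_of_not_commute hT ha hb hcm]; rfl

end Cfsg.Agent.S5352
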