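import Cfsg.Statements.S5354
import Cfsg.Agent.Lib.ThreeTransp.Blocks
-- import your own Cfsg.Agent.* helpers here

set_option autoImplicit false
open Cfsg

namespace Cfsg.Agent.S5354

/-- Let D be a conjugation-invariant generating set of 3-transpositions of the finite group G on which G acts primitively by conjugation, and suppose two different members of D commute (width at least 2). Then G has a quasisimple normal subgroup L of index at most 2 with the generalized Fitting subgroup of G equal to L times the centre, the commuting graph of D is connected, and for d in D the subgroup generated by the members of D commuting with d is a maximal D-subgroup: it is proper, and every subgroup generated by members of D that contains it is either it or G. -/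
theorem result {G : Type*} [Group G] [Finite G] {D : Set G} (hD : Cfsg.IsThreeTranspositionGroup D) (hprim : Cfsg.IsPrimitiveUnderConj D) (hw : ∃ a ∈ D, ∃ b ∈ D, a ≠ b ∧ Commute a b) : (∃ L : Subgroup G, L.Normal ∧ Cfsg.IsQuasisimple L ∧ L.index ≤ 2 ∧ Cfsg.generalizedFittingSubgroup G = L ⊔ Subgroup.center G) ∧ (Cfsg.commutingGraph D).Connected ∧ ∀ d ∈ D, Subgroup.closure {y : G | y ∈ D ∧ Commute d y} ≠ ⊤ ∧ ∀ H : Subgroup G, Cfsg.IsDSubgroup D H → Subgroup.closure {y : G | y ∈ D ∧ Commute d y} ≤ H → H = Subgroup.closure {y : G | y ∈ D ∧ Commute d y} ∨ H = ⊤ := by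
  open Lib.ThreeTransp in
  obtain ⟨hT, hc, hgen⟩ := hD
  obtain ⟨hconj, hD2, hblock⟩ := hprim
  obtain ⟨a, ha, b, hb, hab, hcab⟩ := hw
  obtain ⟨h2, h3⟩ := cores_central hT hc hgen hconj (fun B hBD hB => hblock B hBD hB) ha hb hab hcab
  have hconn : (commutingGraph D).Connected :=
    connected_of_primitive hc hconj (fun B hBD hB => hblock B hBD hB) ha hb hab hcab
  obtain ⟨L, hQ⟩ := exists_qs hT hc hgen hconj ha hb hab h2 h3
  refine ⟨⟨L, hQ.normal, hQ.qs, index_le_two_of_connected hT hc hgen hconj hQ hconn ha, hQ.gfs⟩, hconn,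
    fun d hd => ⟨?_, fun H hH hle => ?_⟩⟩
  · intro htop
    have hle : Subgroup.closure {y : G | y ∈ D ∧ Commute d y} ≤ Subgroup.centralizer {d} := by
      rw [Subgroup.closure_le]
      intro y hy
      rw [SetLike.mem_coe, Subgroup.mem_centralizer_singleton_iff]
      exact hy.2.symm.eq
    rw [htop] at hle
    have hall : ∀ x ∈ D, x = d := by
      intro x hx
      obtain ⟨g, hg⟩ := hconj d hd x hx
      rw [← hg, Subgroup.mem_centralizer_singleton_iff.mp (hle (Subgroup.mem_top g)), mul_inv_cancel_right]
    exact hab ((hall a ha).trans (hall b hb).symm)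
  · by_cases h : ∃ x ∈ D, x ∈ H ∧ ¬ Commute d x
    · obtain ⟨x, hx, hxH, hdx⟩ := h
      exact Or.inr (dsubgroup_maximal hT hc hgen hconj (fun B hBD hB => hblock B hBD hB) hconn hd hH
        (fun y hy hcm => hle (Subgroup.subset_closure ⟨hy, hcm⟩)) hx hxH hdx)
    · push Not at h
      refine Or.inl (le_antisymm ?_ hle)
      rw [← hH, Subgroup.closure_le]
      rintro x ⟨hx, hxH⟩
      exact Subgroup.subset_closure ⟨hx, h x hx hxH⟩

end Cfsg.Agent.S5354
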