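import Cfsg.Statements.S5355
import Cfsg.Agent.Lib.ThreeTransp.SymFour
-- import your own Cfsg.Agent.* helpers here

set_option autoImplicit false
open Cfsg

namespace Cfsg.Agent.S5355

/-- Let D be a conjugacy class of 3-transpositions generating the finite group G, with at least two members, and d a member of D. Suppose that every member of D commuting with d commutes with exactly the same members of D as d does, and that exactly one member of D other than d commutes with d. Then G is isomorphic to the symmetric group of degree 4. -/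
theorem result {G : Type*} [Group G] [Finite G] {D : Set G} (hD : Cfsg.IsThreeTranspositionClass D) (hD2 : ∃ a ∈ D, ∃ b ∈ D, a ≠ b) {d : G} (hd : d ∈ D) (hV : {y : G | y ∈ D ∧ Commute d y} = {v : G | v ∈ D ∧ ∀ e ∈ D, Commute v e ↔ Commute d e}) (hm : {y : G | y ∈ D ∧ Commute d y}.ncard = 2) : Nonempty (G ≃* Equiv.Perm (Fin 4)) := by
  open Lib.ThreeTransp in
  obtain ⟨hT, ⟨d₀, -, hD₀⟩, hgen⟩ := hD
  have hc : ∀ g : G, ∀ x ∈ D, g * x * g⁻¹ ∈ D := fun g x hx => by
    rw [hD₀] at hx ⊢; exact IsConj.trans hx (isConj_iff.mpr ⟨g, rfl⟩)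
  -- every member has exactly one mate
  have mate : ∀ x ∈ D, ∃ x' ∈ D, x' ≠ x ∧ Commute x x' ∧ ∀ y ∈ D, Commute x y → y = x ∨ y = x' := by
    obtain ⟨p, q, hpq, hset⟩ := Set.ncard_eq_two.mp hm
    have hdm : d ∈ ({p, q} : Set G) := hset ▸ (show d ∈ {y : G | y ∈ D ∧ Commute d y} from ⟨hd, Commute.refl d⟩)
    obtain ⟨v, hv⟩ : ∃ v, v ≠ d ∧ {y : G | y ∈ D ∧ Commute d y} = {d, v} := by
      rcases hdm with h | h
      · exact ⟨q, h ▸ hpq.symm, by rw [hset, h]⟩
      · rw [Set.mem_singleton_iff] at h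
        exact ⟨p, h ▸ hpq, by rw [hset, h, Set.pair_comm]⟩
    have hvD : v ∈ D ∧ Commute d v := by
      show v ∈ {y : G | y ∈ D ∧ Commute d y}
      rw [hv.2]; simp
    intro x hx
    obtain ⟨g, rfl⟩ : ∃ g, g * d * g⁻¹ = x :=
      isConj_iff.mp (((show IsConj d₀ d by rw [hD₀] at hd; exact hd).symm).trans
        (show IsConj d₀ x by rw [hD₀] at hx; exact hx))
    refine ⟨g * v * g⁻¹, hc g v hvD.1, fun h => hv.1 (mul_left_cancel (mul_right_cancel h)),
      (commute_conj_iff g d v).mpr hvD.2, fun y hy hxy => ?_⟩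
    have : g⁻¹ * y * g ∈ {y : G | y ∈ D ∧ Commute d y} := by
      refine ⟨by simpa using hc g⁻¹ y hy, ?_⟩
      have h := (commute_conj_iff g⁻¹ (g * d * g⁻¹) y).mpr hxy
      simpa [mul_assoc] using h
    rw [hv.2] at this
    rcases this with h | h
    · left; rw [← h]; group
    · right; rw [Set.mem_singleton_iff] at h; rw [← h]; group
  choose! m hmD hmne hmc hmu using mate
  -- two non-commuting members generate with their mates a symmetric group of degree 4
  have four : ∀ x ∈ D, ∀ y ∈ D, ¬ Commute x y → ∃ φ : Equiv.Perm (Fin 4) →* G, Function.Injective φ ∧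
      φ (Equiv.swap 0 1) = x ∧ φ (Equiv.swap 2 3) = m x ∧ φ (Equiv.swap 1 2) = y ∧ φ (Equiv.swap 0 3) = m y ∧
      φ (Equiv.swap 0 2) = x * y * x ∧ φ (Equiv.swap 1 3) = m (x * y * x) := by
    intro x hx y hy hxy
    have hx' := hmD x hx
    have hxy' : ¬ Commute y (m x) := by
      intro h
      rcases hmu (m x) hx' x hx (hmc x hx).symm with e | e
      · exact hmne x hx e.symm
      · rcases hmu (m x) hx' y hy h.symm with e' | e'
        · exact hxy (e' ▸ hmc x hx)
        · exact hxy (by rw [e', ← e])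
    obtain ⟨φ, hinj, ha, hb, hc'⟩ := SymFour.exists_hom x y (m x) (mul_self (hT.1 x hx)) (mul_self (hT.1 y hy))
      (mul_self (hT.1 _ hx')) (braid_of_not_commute hT hx hy hxy) (braid_of_not_commute hT hy hx' hxy') (hmc x hx)
      (fun h => hmne x hx (by
        rw [eq_inv_of_mul_eq_one_right h, inv_eq (hT.1 x hx)]))
    have hmem : ∀ σ, φ (σ * Equiv.swap 0 1 * σ⁻¹) ∈ D := fun σ => by
      rw [map_mul, map_mul, map_inv, ha]; exact hc _ x hx
    have hmatch : ∀ σ τ, φ σ ∈ D → φ τ ∈ D → σ * τ = τ * σ → σ ≠ τ → φ τ = m (φ σ) := by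
      intro σ τ hσ hτ hστ hne
      refine (hmu _ hσ _ hτ (show φ σ * φ τ = φ τ * φ σ by rw [← map_mul, ← map_mul, hστ])).resolve_left ?_
      exact fun e => hne (hinj e).symm
    have h02 : φ (Equiv.swap 0 2) = x * y * x := by
      rw [← ha, ← hb, ← map_mul, ← map_mul]; exact congrArg φ (by decide +kernel)
    have m03 : φ (Equiv.swap 0 3) ∈ D := by
      have := hmem (Equiv.swap 1 3)
      rwa [show Equiv.swap (1 : Fin 4) 3 * Equiv.swap 0 1 * (Equiv.swap 1 3)⁻¹ = Equiv.swap 0 3 by decide +kernel] at this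
    have m02 : φ (Equiv.swap 0 2) ∈ D := by
      have := hmem (Equiv.swap 1 2)
      rwa [show Equiv.swap (1 : Fin 4) 2 * Equiv.swap 0 1 * (Equiv.swap 1 2)⁻¹ = Equiv.swap 0 2 by decide +kernel] at this
    have m13 : φ (Equiv.swap 1 3) ∈ D := by
      have := hmem (Equiv.swap 0 3)
      rwa [show Equiv.swap (0 : Fin 4) 3 * Equiv.swap 0 1 * (Equiv.swap 0 3)⁻¹ = Equiv.swap 1 3 by decide +kernel] at this
    refine ⟨φ, hinj, ha, hc', hb, ?_, h02, ?_⟩
    · rw [hmatch _ _ (hb ▸ hy) m03 (by decide +kernel) (by decide +kernel), hb]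
    · rw [hmatch _ _ m02 m13 (by decide +kernel) (by decide +kernel), h02]
  let u : G → G := fun x => x * m x
  have line : ∀ x ∈ D, ∀ y ∈ D, ¬ Commute x y → u x * u y = u (x * y * x) ∧ u y * u x = u x * u y ∧ y * u x * y = u x * u y := by
    intro x hx y hy hxy
    obtain ⟨φ, -, h01, h23, h12, h03, h02, h13⟩ := four x hx y hy hxy
    refine ⟨?_, ?_, ?_⟩
    · show x * m x * (y * m y) = x * y * x * m (x * y * x)
      rw [← h13, ← h02, ← h23, ← h03, ← h01, ← h12]
      simp only [← map_mul]
      exact congrArg φ (by decide +kernel)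
    · show y * m y * (x * m x) = x * m x * (y * m y)
      rw [← h23, ← h03, ← h01, ← h12]
      simp only [← map_mul]
      exact congrArg φ (by decide +kernel)
    · show y * (x * m x) * y = x * m x * (y * m y)
      rw [← h23, ← h03, ← h01, ← h12]
      simp only [← map_mul]
      exact congrArg φ (by decide +kernel)
  obtain ⟨e, he, hde⟩ : ∃ e ∈ D, ¬ Commute d e := by
    by_contra h
    push Not at h
    have hsub : D ⊆ {y : G | y ∈ D ∧ Commute d y} := fun y hy => ⟨hy, h y hy⟩
    have hall : ∀ x ∈ D, x = d := by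
      intro x hx
      obtain ⟨g, hg⟩ := isConj_iff.mp (((show IsConj d₀ d by rw [hD₀] at hd; exact hd).symm).trans
        (show IsConj d₀ x by rw [hD₀] at hx; exact hx))
      have hle : Subgroup.closure D ≤ Subgroup.centralizer {d} := by
        rw [Subgroup.closure_le]
        intro x hx
        rw [SetLike.mem_coe, Subgroup.mem_centralizer_singleton_iff]
        exact (h x hx).symm.eq
      rw [hgen] at hle
      rw [← hg, Subgroup.mem_centralizer_singleton_iff.mp (hle (Subgroup.mem_top g)), mul_inv_cancel_right]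
    obtain ⟨a, ha, b, hb, hab⟩ := hD2
    exact hab ((hall a ha).trans (hall b hb).symm)
  obtain ⟨φ, hinj, h01, h23, h12, h03, h02, h13⟩ := four d hd e he hde
  set f := d * e * d with hf
  have hfD : f ∈ D := by have := hc d e he; rwa [inv_eq (hT.1 d hd)] at this
  have hall : ∀ y ∈ D, y ∈ φ.range := by
    intro y hy
    by_contra hyr
    have hcases : ∀ x ∈ D, x ∈ φ.range → m x ∈ φ.range → ¬ Commute x y := fun x hx h1 h2 h =>
      hyr (by rcases hmu x hx y hy h with e | e <;> rw [e] <;> assumption)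
    have hyd := hcases d hd ⟨_, h01⟩ ⟨_, h23⟩
    have hye := hcases e he ⟨_, h12⟩ ⟨_, h03⟩
    have hyf := hcases f hfD ⟨_, h02⟩ ⟨_, h13⟩
    obtain ⟨hdef, hed, -⟩ := line d hd e he hde
    obtain ⟨-, hyd', hd'⟩ := line d hd y hy hyd
    obtain ⟨-, hye', he'⟩ := line e he y hy hye
    obtain ⟨-, -, hf'⟩ := line f hfD y hy hyf
    rw [← hf] at hdef
    have hyy := mul_self (hT.1 y hy)
    have h : (u d * u y) * (u e * u y) = u f * u y := by
      rw [← hd', ← he', ← hf', ← hdef]
      calc y * u d * y * (y * u e * y) = y * u d * (y * y) * u e * y := by group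
        _ = _ := by rw [hyy]; group
    have hsq : u y * u y = 1 := by
      show y * m y * (y * m y) = 1
      rw [← pow_two, ← (commute_iff_sq hyy (mul_self (hT.1 _ (hmD y hy)))).mp (hmc y hy)]
    have h' : u d * u e = u d * u e * u y := by
      calc u d * u e = u d * u e * (u y * u y) := by rw [hsq, mul_one]
        _ = u d * (u e * u y) * u y := by group
        _ = u d * (u y * u e) * u y := by rw [hye']
        _ = (u d * u y) * (u e * u y) := by group
        _ = u f * u y := h
        _ = _ := by rw [hdef]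
    have h1 : y * m y = 1 := mul_eq_left.mp h'.symm
    exact hmne y hy (by rw [eq_inv_of_mul_eq_one_right h1, inv_eq (hT.1 y hy)])
  refine ⟨(MulEquiv.ofBijective φ ⟨hinj, ?_⟩).symm⟩
  rw [← MonoidHom.range_eq_top, eq_top_iff, ← hgen, Subgroup.closure_le]
  exact hall

end Cfsg.Agent.S5355
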