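import Cfsg.Statements.S5356
import Cfsg.Agent.Lib.ThreeTransp.Disjoint
-- import your own Cfsg.Agent.* helpers here

set_option autoImplicit false
open Cfsg

namespace Cfsg.Agent.S5356

/-- Let D be a conjugacy class of 3-transpositions generating the finite group G, with at least two members, and d a member of D such that every member of D commuting with d commutes with exactly the same members of D as d. Then there is a Sylow 3-subgroup P of G normalized by d such that G is generated by d, P and the largest normal 2-subgroup of G. -/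
theorem result {G : Type*} [Group G] [Finite G] {D : Set G} (hD : Cfsg.IsThreeTranspositionClass D) (hD2 : ∃ a ∈ D, ∃ b ∈ D, a ≠ b) {d : G} (hd : d ∈ D) (hV : {y : G | y ∈ D ∧ Commute d y} = {v : G | v ∈ D ∧ ∀ e ∈ D, Commute v e ↔ Commute d e}) : ∃ P : Sylow 3 G, d ∈ Subgroup.normalizer (P : Set G) ∧ Subgroup.zpowers d ⊔ (P : Subgroup G) ⊔ Cfsg.pCore 2 G = ⊤ := by
  obtain ⟨hT, ⟨d₀, -, hD₀⟩, hgen⟩ := hD
  have hc : ∀ g : G, ∀ x ∈ D, g * x * g⁻¹ ∈ D := fun g x hx => by
    rw [hD₀] at hx ⊢; exact IsConj.trans hx (isConj_iff.mpr ⟨g, rfl⟩)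
  have hconj : ∀ a ∈ D, ∀ b ∈ D, ∃ g : G, g * a * g⁻¹ = b := fun a ha b hb => by
    rw [hD₀] at ha hb; exact isConj_iff.mp (ha.symm.trans hb)
  refine Lib.ThreeTransp.exists_invariant_sylow (Nat.card G) hT hc hgen (fun a ha b hb hab => ?_) hd le_rfl
  obtain ⟨g, rfl⟩ := hconj d hd a ha
  have hy : g⁻¹ * b * g ∈ {y : G | y ∈ D ∧ Commute d y} := by
    refine ⟨by simpa using hc g⁻¹ b hb, ?_⟩
    have h := (Lib.ThreeTransp.commute_conj_iff g⁻¹ (g * d * g⁻¹) b).mpr hab
    simpa [mul_assoc] using h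
  rw [hV] at hy
  intro e he
  have h := hy.2 (g⁻¹ * e * g) (by simpa using hc g⁻¹ e he)
  rw [← Lib.ThreeTransp.commute_conj_iff g (g⁻¹ * b * g), ← Lib.ThreeTransp.commute_conj_iff g d] at h
  simp only [mul_assoc, mul_inv_cancel_left, mul_inv_cancel, mul_one] at h ⊢
  exact h.symm

end Cfsg.Agent.S5356
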