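import Cfsg.Statements.S5358
import Cfsg.Agent.Lib.ThreeTransp.Reflections
-- import your own Cfsg.Agent.* helpers here

set_option autoImplicit false
open scoped MatrixGroups
open Cfsg Matrix Agent Agent.Lib.ThreeTransp.Reflections

namespace Cfsg.Agent.S5358

/-- Let Q be a non-degenerate quadratic form on the n-dimensional coordinate space over the field with three elements and u, v vectors of the same non-zero norm Q(u) = Q(v) spanning different lines (v ≠ u and v ≠ −u). Then the reflection matrices of u and v commute if and only if u and v are orthogonal for the polar form of Q. -/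
theorem result (n : ℕ) (Q : QuadraticForm (ZMod 3) (Fin n → ZMod 3)) (hQ : (QuadraticMap.polarBilin Q).Nondegenerate) (u v : Fin n → ZMod 3) (hu : Q u ≠ 0) (huv : Q u = Q v) (h1 : v ≠ u) (h2 : v ≠ -u) : Commute (Cfsg.reflectionMatrix (⇑Q) u) (Cfsg.reflectionMatrix (⇑Q) v) ↔ QuadraticMap.polar (⇑Q) u v = 0 := by
  refine ⟨fun hcm => ?_, fun h => commute_of_orth Q h⟩
  by_contra h
  have hv : Q v ≠ 0 := huv ▸ hu
  obtain ⟨hw, e⟩ := conj_refl Q (refl Q hu) hv
  have hc' : Commute (refl Q hu) (refl Q hv) := Subtype.ext (Units.ext hcm.eq)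
  rw [hc'.eq, mul_inv_cancel_right] at e
  have e' : Cfsg.reflectionMatrix (⇑Q) (reflectionMatrix (⇑Q) u *ᵥ v) = Cfsg.reflectionMatrix (⇑Q) v :=
    (congrArg (fun g : isometryGroup (ZMod 3) ⇑Q => ((g : GL (Fin n) (ZMod 3)) : Matrix (Fin n) (Fin n) (ZMod 3))) e).symm
  have hm := refl_eq_iff Q hw hv e'
  simp only [coe_refl] at hm
  rw [refl_apply] at hm
  have hk : Q u * QuadraticMap.polar ⇑Q u v = 1 ∨ Q u * QuadraticMap.polar ⇑Q u v = -1 :=
    (three_cases _).resolve_left (mul_ne_zero hu h)
  have hu0 : u ≠ 0 := fun e0 => hu (by rw [e0, QuadraticMap.map_zero])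
  have t : ∀ a b : ZMod 3, (a - b = a → b = 0) ∧ (a + b = a → b = 0) ∧ (a - b = -a → a = -b) ∧ (a + b = -a → a = b) := by
    decide
  rcases hk with k | k <;> rw [k] at hm <;> rcases hm with m | m
  · rw [one_smul] at m
    exact hu0 (funext fun i => (t (v i) (u i)).1 (congrFun m i))
  · rw [one_smul] at m
    exact h2 (funext fun i => (t (v i) (u i)).2.2.1 (congrFun m i))
  · rw [neg_one_smul, sub_neg_eq_add] at m
    exact hu0 (funext fun i => (t (v i) (u i)).2.1 (congrFun m i))
  · rw [neg_one_smul, sub_neg_eq_add] at m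
    exact h1 (funext fun i => (t (v i) (u i)).2.2.2 (congrFun m i))

end Cfsg.Agent.S5358
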