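import Cfsg.Statements.S5361
import Cfsg.Agent.Lib.ThreeTransp.Blocks
-- import your own Cfsg.Agent.* helpers here

set_option autoImplicit false
open Cfsg

namespace Cfsg.Agent.S5361

/-- Let D be a conjugacy class of 3-transpositions generating the finite group G, and suppose the centre of G is trivial and some two different members of D commute. Then the following are equivalent: (1) the commutator subgroup of G is simple (possibly of prime order); (2) G acts primitively on D by conjugation; (3) the largest normal 2-subgroup and the largest normal 3-subgroup of G are trivial and the commuting graph of D is connected. -/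
theorem result {G : Type*} [Group G] [Finite G] {D : Set G} (hD : Cfsg.IsThreeTranspositionClass D) (hZ : Subgroup.center G = ⊥) (hw : ∃ a ∈ D, ∃ b ∈ D, a ≠ b ∧ Commute a b) : (IsSimpleGroup (commutator G) ↔ Cfsg.IsPrimitiveUnderConj D) ∧ (Cfsg.IsPrimitiveUnderConj D ↔ (Cfsg.pCore 2 G = ⊥ ∧ Cfsg.pCore 3 G = ⊥ ∧ (Cfsg.commutingGraph D).Connected)) := by
  open Lib.ThreeTransp in
  obtain ⟨hT, ⟨d₀, hd₀, hD₀⟩, hgen⟩ := hD
  have hc : ∀ g : G, ∀ x ∈ D, g * x * g⁻¹ ∈ D := fun g x hx => by
    rw [hD₀] at hx ⊢; exact IsConj.trans hx (isConj_iff.mpr ⟨g, rfl⟩)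
  have hconj : ∀ a ∈ D, ∀ b ∈ D, ∃ g : G, g * a * g⁻¹ = b := fun a ha b hb => by
    rw [hD₀] at ha hb; exact isConj_iff.mp (ha.symm.trans hb)
  obtain ⟨a, ha, b, hb, hab, hcab⟩ := hw
  -- primitivity gives trivial cores and a connected graph
  have hp1 : IsPrimitiveUnderConj D → pCore 2 G = ⊥ ∧ pCore 3 G = ⊥ ∧ (commutingGraph D).Connected := by
    rintro ⟨-, -, hblock⟩
    obtain ⟨h2, h3⟩ := cores_central hT hc hgen hconj (fun B hBD hB => hblock B hBD hB) ha hb hab hcab
    rw [hZ, le_bot_iff] at h2 h3
    exact ⟨h2, h3, connected_of_primitive hc hconj (fun B hBD hB => hblock B hBD hB) ha hb hab hcab⟩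
  -- trivial cores and a connected graph give primitivity and a simple derived subgroup
  have hp2 : pCore 2 G = ⊥ → pCore 3 G = ⊥ → (commutingGraph D).Connected →
      IsPrimitiveUnderConj D ∧ IsSimpleGroup (commutator G) := by
    intro h2 h3 hconn
    have h2' : pCore 2 G ≤ Subgroup.center G := by rw [h2]; exact bot_le
    have h3' : pCore 3 G ≤ Subgroup.center G := by rw [h3]; exact bot_le
    obtain ⟨L, hQ⟩ := exists_qs hT hc hgen hconj ha hb hab h2' h3'
    haveI := hQ.normal
    have hidx := index_le_two_of_connected hT hc hgen hconj hQ hconn ha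
    refine ⟨⟨hconj, ⟨a, ha, b, hb, hab⟩, fun B hBD hB => block_trivial hT hc hgen hconj hQ h2' h3' hidx hB hBD⟩, ?_⟩
    have hF : fittingSubgroup G = ⊥ := by
      rw [eq_bot_iff, ← hZ]; exact fitting_le_center hT hc hgen h2' h3'
    have hcom : commutator G = L := by
      refine le_antisymm ?_ ?_
      · haveI : Finite (G ⧸ L) := inferInstance
        refine (Subgroup.Normal.quotient_commutative_iff_commutator_le (N := L)).mp ⟨⟨fun x y => ?_⟩⟩
        have hcard : Nat.card (G ⧸ L) ≤ 2 := by rw [← Subgroup.index_eq_card]; exact hidx
        by_cases hx : x = 1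
        · rw [hx, one_mul, mul_one]
        by_cases hy : y = 1
        · rw [hy, one_mul, mul_one]
        have : x = y := by
          by_contra hne
          have h3c : 3 ≤ Nat.card (G ⧸ L) := by
            haveI := Fintype.ofFinite (G ⧸ L)
            classical
            rw [Nat.card_eq_fintype_card]
            calc 3 = ({1, x, y} : Finset (G ⧸ L)).card := by
                  rw [Finset.card_insert_of_notMem (by simp [Ne.symm hx, Ne.symm hy]),
                    Finset.card_insert_of_notMem (by simp [hne]), Finset.card_singleton]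
              _ ≤ _ := Finset.card_le_univ _
          omega
        rw [this]
      · rw [← Lib.Components.isQuasisimple_perfect hQ.qs]
        exact Subgroup.commutator_mono le_top le_top
    rw [hcom]
    have hcen : Subgroup.center L = ⊥ := by
      haveI : ((Subgroup.center L).map L.subtype).Normal := ConjAct.normal_of_characteristic_of_normal
      letI : CommGroup (Subgroup.center L) :=
        { (inferInstance : Group (Subgroup.center L)) with
          mul_comm := fun a b => Subtype.ext (Subgroup.mem_center_iff.mp b.2 a) }
      haveI : Group.IsNilpotent (Subgroup.center L) := inferInstance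
      have hle := Lib.Components.le_fittingSubgroup (N := (Subgroup.center L).map L.subtype)
        (Group.nilpotent_of_mulEquiv (Subgroup.equivMapOfInjective (Subgroup.center L) L.subtype L.subtype_injective))
      rw [hF, le_bot_iff, Subgroup.map_eq_bot_iff_of_injective _ L.subtype_injective] at hle
      exact hle
    haveI := hQ.qs.2
    exact ((QuotientGroup.quotientMulEquivOfEq hcen).trans QuotientGroup.quotientBot).symm.isSimpleGroup
  -- a simple derived subgroup gives primitivity
  have hp3 : IsSimpleGroup (commutator G) → IsPrimitiveUnderConj D := by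
    intro hs
    have hdL : ∀ x ∈ D, a * x ∈ commutator G := by
      intro x hx
      obtain ⟨g, hg⟩ := hconj a ha x hx
      rw [← hg, show a * (g * a * g⁻¹) = a * g * a⁻¹ * g⁻¹ by rw [inv_eq (hT.1 a ha)]; group]
      exact Subgroup.commutator_mem_commutator (Subgroup.mem_top _) (Subgroup.mem_top _)
    have hidx := index_le_two hT hgen ha hdL
    have hprod : a * b ≠ 1 := fun e => hab (by rw [eq_inv_of_mul_eq_one_left e, inv_eq (hT.1 b hb)])
    have hna : ¬ IsMulCommutative (commutator G) := by
      intro hcomm
      haveI := hcomm
      letI : CommGroup (commutator G) :=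
        { (inferInstance : Group (commutator G)) with mul_comm := fun x y => mul_comm' x y }
      obtain ⟨p, hp, hcard⟩ : ∃ p, p.Prime ∧ Nat.card (commutator G) = p := ⟨_, IsSimpleGroup.prime_card, rfl⟩
      have h2 : orderOf (⟨a * b, hdL b hb⟩ : commutator G) = 2 := by
        rw [Subgroup.orderOf_mk]
        exact orderOf_eq_prime ((commute_iff_sq (mul_self (hT.1 a ha)) (mul_self (hT.1 b hb))).mp hcab) hprod
      have hp2 : p = 2 := by
        have := hcard ▸ orderOf_dvd_natCard (⟨a * b, hdL b hb⟩ : commutator G)
        rw [h2] at this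
        exact ((Nat.prime_dvd_prime_iff_eq Nat.prime_two hp).mp this).symm
      have hcentral : commutator G ≤ Subgroup.center G := by
        intro y hy
        rw [Subgroup.mem_center_iff]
        intro g
        by_cases hy1 : y = 1
        · rw [hy1]; simp
        obtain ⟨z, hz, huniq⟩ := (Nat.card_eq_two_iff' (1 : commutator G)).mp (hcard.trans hp2)
        have e1 := huniq ⟨y, hy⟩ (fun e => hy1 (congrArg Subtype.val e))
        have hgy : g * y * g⁻¹ ∈ commutator G := (inferInstance : (commutator G).Normal).conj_mem y hy g
        have e2 := huniq ⟨_, hgy⟩ (fun e => hy1 (conj_eq_one_iff.mp (congrArg Subtype.val e)))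
        exact mul_inv_eq_iff_eq_mul.mp (congrArg Subtype.val (e2.trans e1.symm))
      exact hprod (by simpa [hZ] using hcentral (hdL b hb))
    have hperf : ⁅commutator G, commutator G⁆ = commutator G := by
      haveI := hs
      rcases (Subgroup.Normal.eq_bot_or_eq_top (inferInstance : (commutator (commutator G)).Normal)) with h | h
      · exfalso
        refine hna ⟨⟨fun x y => ?_⟩⟩
        open scoped commutatorElement in
        have := (Subgroup.eq_bot_iff_forall _).mp h ⁅x, y⁆
          (Subgroup.commutator_mem_commutator (Subgroup.mem_top _) (Subgroup.mem_top _))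
        exact commutatorElement_eq_one_iff_mul_comm.mp this
      · have h' := congrArg (Subgroup.map (commutator G).subtype) h
        rwa [Subgroup.map_subtype_commutator, ← MonoidHom.range_eq_map, Subgroup.range_subtype] at h'
    have hqs : IsQuasisimple (commutator G) := by
      haveI := hs
      exact Lib.Components.qs_of_simple hna
    have hcomp : IsComponent (commutator G) :=
      ⟨Subgroup.Normal.isSubnormal inferInstance, hqs⟩
    have hcore : ∀ p : ℕ, p.Prime → pCore p G ≤ Subgroup.center G := by
      intro p hp
      haveI : Fact p.Prime := ⟨hp⟩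
      haveI := pCore_normal p G
      rcases Lib.Components.comp_normal_dichotomy (M := pCore p G) hcomp with h | h
      · exfalso
        refine Lib.Components.comp_not_le_solvable hcomp ?_ h
        haveI := (Lib.Components.pCore_isPGroup (G := G) p).isNilpotent
        infer_instance
      · intro y hy
        rw [Subgroup.commutator_eq_bot_iff_le_centralizer] at h
        have hle : commutator G ⊔ Subgroup.center G ≤ Subgroup.centralizer {y} := by
          refine sup_le (fun l hl => ?_) (Subgroup.center_le_centralizer _)
          rw [Subgroup.mem_centralizer_singleton_iff]; exact (Subgroup.mem_centralizer_iff.mp (h hl) y hy).symm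
        have hmem : pCore p G ⊓ commutator G = ⊥ := by
          rw [Subgroup.eq_bot_iff_forall]
          rintro l ⟨hlp, hll⟩
          by_contra hl1
          have hlz : (⟨l, hll⟩ : commutator G) ∈ Subgroup.center (commutator G) :=
            Subgroup.mem_center_iff.mpr fun k => Subtype.ext (Subgroup.mem_centralizer_iff.mp (h k.2) l hlp).symm
          haveI := hs
          rcases Subgroup.Normal.eq_bot_or_eq_top (inferInstance : (Subgroup.center (commutator G)).Normal) with e | e
          · rw [e, Subgroup.mem_bot] at hlz; exact hl1 (congrArg Subtype.val hlz)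
          · exact hna ⟨⟨fun x y => (Subgroup.mem_center_iff.mp (e ▸ Subgroup.mem_top y) x)⟩⟩
        rw [Subgroup.mem_center_iff]
        intro g
        have hm : g * y * g⁻¹ * y⁻¹ ∈ pCore p G ⊓ commutator G := Subgroup.mem_inf.mpr
          ⟨mul_mem ((pCore_normal p G).conj_mem y hy g) (inv_mem hy),
            Subgroup.commutator_mem_commutator (Subgroup.mem_top _) (Subgroup.mem_top _)⟩
        rw [hmem, Subgroup.mem_bot] at hm
        exact mul_inv_eq_iff_eq_mul.mp (mul_inv_eq_one.mp hm)
    obtain ⟨L, hQ⟩ := exists_qs hT hc hgen hconj ha hb hab (hcore 2 Nat.prime_two) (hcore 3 Nat.prime_three)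
    have hLc : L = commutator G :=
      component_unique hT hc hgen hconj ⟨Subgroup.Normal.isSubnormal hQ.normal, hQ.qs⟩ hcomp ha
    exact ⟨hconj, ⟨a, ha, b, hb, hab⟩, fun B hBD hB =>
      block_trivial hT hc hgen hconj hQ (hcore 2 Nat.prime_two) (hcore 3 Nat.prime_three) (hLc ▸ hidx) hB hBD⟩
  refine ⟨⟨hp3, fun h => ?_⟩, hp1, fun h => (hp2 h.1 h.2.1 h.2.2).1⟩
  obtain ⟨h2, h3, hconn⟩ := hp1 h
  exact (hp2 h2 h3 hconn).2

end Cfsg.Agent.S5361
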