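import Cfsg.Statements.S5363
import Cfsg.Agent.Lib.ThreeTransp.Basic
-- import your own Cfsg.Agent.* helpers here

set_option autoImplicit false
open Cfsg

namespace Cfsg.Agent.S5363

open Cfsg.Agent.Lib.ThreeTransp

theorem main {G : Type*} [Group G] [Finite G] {D : Set G} (hinv : ∀ d ∈ D, orderOf d = 2) (hconj : ∀ g : G, ∀ d ∈ D, g * d * g⁻¹ ∈ D) : (∀ a ∈ D, ∀ b ∈ D, Odd (orderOf (a * b)) ∨ orderOf (a * b) = 2) ↔ ∀ a ∈ D, ∀ b ∈ D, b ≠ a → Commute a b → {y : G | y ∈ D ∧ Commute (a * b) y} = {y : G | y ∈ D ∧ Commute a y} ∩ {y : G | y ∈ D ∧ Commute b y} := by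
  constructor
  · intro h a ha b hb hne hab
    ext y
    constructor
    · rintro ⟨hy, hty⟩
      suffices Commute a y by
        refine ⟨⟨hy, this⟩, hy, ?_⟩
        have := (this.inv_left.mul_left hty)
        rwa [inv_mul_cancel_left] at this
      by_contra hay
      have h1 : Odd (orderOf (y * a)) := (h y hy a ha).resolve_right fun h2 =>
        hay ((commute_iff_sq (mul_self (hinv y hy)) (mul_self (hinv a ha))).mpr (by rw [← h2, pow_orderOf_eq_one])).symm
      have hcomm : Commute (y * a) (a * b) := (hty.symm).mul_left ((Commute.refl a).mul_right hab)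
      have ht2 : orderOf (a * b) = 2 := by
        refine orderOf_eq_prime ((commute_iff_sq (mul_self (hinv a ha)) (mul_self (hinv b hb))).mp hab) ?_
        exact fun e => hne (by
          have := eq_inv_of_mul_eq_one_left e
          rw [inv_eq (hinv b hb)] at this
          exact this.symm)
      have hord : orderOf (y * b) = orderOf (y * a) * 2 := by
        have e : y * b = (y * a) * (a * b) := by
          rw [mul_assoc y, ← mul_assoc a a, mul_self (hinv a ha), one_mul]
        rw [e, hcomm.orderOf_mul_eq_mul_orderOf_of_coprime (by rw [ht2]; exact Nat.coprime_two_right.mpr h1), ht2]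
      rcases h y hy b hb with h2 | h2
      · rw [hord] at h2
        exact absurd h2 (Nat.not_odd_iff_even.mpr ⟨orderOf (y * a), by ring⟩)
      · rw [hord] at h2
        have h3 : orderOf (y * a) = 1 := by omega
        have := eq_inv_of_mul_eq_one_left (orderOf_eq_one_iff.mp h3)
        rw [inv_eq (hinv a ha)] at this
        exact hay (this ▸ Commute.refl a)
    · rintro ⟨⟨hy, h1⟩, -, h2⟩
      exact ⟨hy, h1.mul_left h2⟩
  · intro h a ha b hb
    by_contra hcon
    rw [not_or] at hcon
    obtain ⟨m, hm⟩ := (Nat.not_odd_iff_even.mp hcon.1).two_dvd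
    set r := a * b with hr
    have hm0 : 0 < m := by have := orderOf_pos r; omega
    have hm1 : m ≠ 1 := fun e => hcon.2 (by omega)
    have haa := mul_self (hinv a ha)
    have hbb := mul_self (hinv b hb)
    have hra : a * r * a = r⁻¹ := by
      rw [hr, mul_inv_rev, inv_eq (hinv a ha), inv_eq (hinv b hb), ← mul_assoc, haa, one_mul]
    have hrpow : ∀ n : ℕ, a * r ^ n * a = (r ^ n)⁻¹ := by
      intro n
      have := map_pow (MulAut.conj a).toMonoidHom r n
      simp only [MulEquiv.coe_toMonoidHom, MulAut.conj_apply, inv_eq (hinv a ha), hra] at this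
      rw [this, inv_pow]
    set z := r ^ m with hz
    have hzz : z * z = 1 := by rw [hz, ← pow_add, ← two_mul, ← hm, pow_orderOf_eq_one]
    have hz1 : z ≠ 1 := fun e => by
      have := orderOf_le_of_pow_eq_one hm0 e; omega
    have hzi : z⁻¹ = z := inv_eq_of_mul_eq_one_right hzz
    have haz : Commute a z := by
      show a * z = z * a
      have := hrpow m
      rw [← hz, hzi] at this
      calc a * z = a * z * (a * a) := by rw [haa, mul_one]
        _ = (a * z * a) * a := by group
        _ = z * a := by rw [this]
    have hbz : Commute b z := by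
      have hb' : b = a * r := by rw [hr, ← mul_assoc, haa, one_mul]
      rw [hb']; exact haz.mul_left ((Commute.refl r).pow_right m)
    have hazD : a * z ∈ D := by
      rcases Nat.even_or_odd' m with ⟨n, hn | hn⟩
      · have := hconj (r ^ n)⁻¹ a ha
        convert this using 1
        calc a * z = a * r ^ n * (a * a) * r ^ n := by rw [haa, hz, hn, two_mul, pow_add]; group
          _ = (a * r ^ n * a) * a * r ^ n := by group
          _ = _ := by rw [hrpow]; group
      · have := hconj (r ^ n)⁻¹ b hb
        convert this using 1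
        have hb' : b = a * r := by rw [hr, ← mul_assoc, haa, one_mul]
        calc a * z = a * r ^ n * (a * a) * (r * r ^ n) := by
              rw [haa, hz, hn, ← pow_succ', mul_one, mul_assoc, ← pow_add]; congr 2; ring
          _ = (a * r ^ n * a) * (a * r) * r ^ n := by group
          _ = _ := by rw [hrpow, ← hb']; group
    have hne : a * z ≠ a := fun e => hz1 (by simpa using e)
    have hmem : b ∈ {y : G | y ∈ D ∧ Commute (a * (a * z)) y} := ⟨hb, by
      rw [← mul_assoc, haa, one_mul]; exact hbz.symm⟩
    rw [h a ha (a * z) hazD hne ((Commute.refl a).mul_right haz)] at hmem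
    have := (commute_iff_sq haa hbb).mp hmem.1.2
    have := orderOf_le_of_pow_eq_one (by norm_num) this
    rw [← hr] at this
    omega

/-- Let D be a conjugation-invariant set of involutions of a finite group G. Then every product of two members of D has odd order or order 2 if and only if, for every a in D and every b in D different from a and commuting with a, the members of D commuting with a b are exactly those commuting with both a and b. -/
theorem result {G : Type*} [Group G] [Finite G] {D : Set G} (hinv : ∀ d ∈ D, orderOf d = 2) (hconj : ∀ g : G, ∀ d ∈ D, g * d * g⁻¹ ∈ D) : (∀ a ∈ D, ∀ b ∈ D, Odd (orderOf (a * b)) ∨ orderOf (a * b) = 2) ↔ ∀ a ∈ D, ∀ b ∈ D, b ≠ a → Commute a b → {y : G | y ∈ D ∧ Commute (a * b) y} = {y : G | y ∈ D ∧ Commute a y} ∩ {y : G | y ∈ D ∧ Commute b y} := by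
  exact main hinv hconj

end Cfsg.Agent.S5363
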