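import Cfsg.Statements.S5364
import Cfsg.Agent.Lib.ThreeTransp.Basic
-- import your own Cfsg.Agent.* helpers here

set_option autoImplicit false
open Cfsg

namespace Cfsg.Agent.S5364

/-- Let D be a conjugation-invariant set of involutions of a finite group G and t an involution in the centre of G such that d t does not lie in D for any d in D. If the images of the members of D in G modulo the subgroup generated by t satisfy the 3-transposition order conditions (each has order 2 and any two have product of order at most 3), then so do the members of D. -/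
theorem result {G : Type*} [Group G] [Finite G] {D : Set G} (hinv : ∀ d ∈ D, orderOf d = 2) (hconj : ∀ g : G, ∀ d ∈ D, g * d * g⁻¹ ∈ D) (t : G) (ht : orderOf t = 2) (htZ : t ∈ Subgroup.center G) (hDt : ∀ d ∈ D, d * t ∉ D) [(Subgroup.zpowers t).Normal] (himg : Cfsg.IsThreeTranspositionSet ((QuotientGroup.mk : G → G ⧸ Subgroup.zpowers t) '' D)) : Cfsg.IsThreeTranspositionSet D := by
  open Lib.ThreeTransp in
  refine ⟨hinv, fun d hd e he => ?_⟩
  have htt : t * t = 1 := mul_self ht
  have hq : ∀ x : G, (QuotientGroup.mk x : G ⧸ Subgroup.zpowers t) = 1 → x = 1 ∨ x = t := by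
    intro x hx
    obtain ⟨n, rfl⟩ := Subgroup.mem_zpowers_iff.mp ((QuotientGroup.eq_one_iff x).mp hx)
    rcases Int.even_or_odd n with ⟨m, rfl⟩ | ⟨m, rfl⟩
    · left; rw [← two_mul, zpow_mul, zpow_ofNat, pow_two, htt, one_zpow]
    · right; rw [zpow_add_one, zpow_mul, zpow_ofNat, pow_two, htt, one_zpow, one_mul]
  have hde := himg.2 _ ⟨d, hd, rfl⟩ _ ⟨e, he, rfl⟩
  have hdd := mul_self (hinv d hd)
  have hee := mul_self (hinv e he)
  have htc : ∀ x, x * t = t * x := fun x => (Subgroup.mem_center_iff.mp htZ x)
  rcases hde with h | h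
  · rcases hq _ (by rw [QuotientGroup.mk_pow]; exact h) with h' | h'
    · exact Or.inl h'
    · exfalso
      have h1 : e * d * e = d * t := by
        rw [← h', pow_two, ← mul_assoc, ← mul_assoc, ← mul_assoc, hdd, one_mul]
      have := hconj e d hd
      rw [inv_eq (hinv e he), h1] at this
      exact hDt d hd this
  · rcases hq _ (by rw [QuotientGroup.mk_pow]; exact h) with h' | h'
    · exact Or.inr h'
    · exfalso
      have h1 : d * e * d * (d * e)⁻¹ = e * t := by
        rw [htc e, ← h', mul_inv_rev, inv_eq (hinv e he), inv_eq (hinv d hd), pow_succ, pow_succ, pow_one]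
        simp [mul_assoc, hee, hdd]
      have := hconj (d * e) d hd
      rw [h1] at this
      exact hDt e he this

end Cfsg.Agent.S5364
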