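import Cfsg.Statements.S5366
import Cfsg.Agent.Lib.ThreeTransp.LineMap
-- import your own Cfsg.Agent.* helpers here

set_option autoImplicit false
open Cfsg

namespace Cfsg.Agent.S5366

/-- Let L be a nondegenerate Fischer space on the point type X (every point on a line). Then for every point x the map t(x) — sending a point collinear with x to the third point of their common line and fixing every other point — is a permutation of X of order 2 and an automorphism of the line system; and the set of all t(x) satisfies the 3-transposition order conditions in the permutation group of X (any two have product of order at most 3). -/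
theorem result {X : Type*} (L : Set (Set X)) (hL : Cfsg.IsFischerSpace L) (hnd : Cfsg.LineSystem.IsNondegenerate L) : (∀ x : X, ∃ σ : Equiv.Perm X, ⇑σ = Cfsg.LineSystem.lineMap L x ∧ orderOf σ = 2 ∧ Cfsg.LineSystem.IsIso L L σ) ∧ Cfsg.IsThreeTranspositionSet {σ : Equiv.Perm X | ∃ x : X, ⇑σ = Cfsg.LineSystem.lineMap L x} := by
  open Lib.ThreeTransp.LineMap LineSystem in
  let σ : X → Equiv.Perm X := fun x =>
    { toFun := lineMap L x, invFun := lineMap L x, left_inv := lineMap_lineMap hL x, right_inv := lineMap_lineMap hL x }
  have hord : ∀ x, orderOf (σ x) = 2 := by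
    intro x
    obtain ⟨l, hl, hx⟩ := hnd x
    obtain ⟨u, hu, w, hw, huw⟩ := (Set.one_lt_ncard (Set.finite_of_ncard_ne_zero (by rw [hL.2.1 l hl]; omega))).mp
      (by rw [hL.2.1 l hl]; omega)
    refine orderOf_eq_prime (Equiv.ext fun y => ?_) fun h => ?_
    · rw [pow_two]; exact lineMap_lineMap hL x y
    · obtain ⟨y, hy, hxy⟩ : ∃ y ∈ l, x ≠ y := by
        by_cases e : x = u
        · exact ⟨w, hw, e ▸ huw⟩
        · exact ⟨u, hu, e⟩
      exact (lineMap_eq hL hl hx hy hxy).2.2.1 (congrFun (congrArg DFunLike.coe h) y)
  have hiso : ∀ x, IsIso L L (σ x) := by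
    intro x l
    constructor
    · exact lineMap_lines hL x
    · intro h
      have := lineMap_lines hL x h
      rw [Set.image_image] at this
      simpa [σ, lineMap_lineMap hL] using this
  refine ⟨fun x => ⟨σ x, rfl, hord x, hiso x⟩, ?_, ?_⟩
  · rintro s ⟨x, hs⟩
    rw [show s = σ x from DFunLike.coe_injective hs]
    exact hord x
  · rintro s ⟨x, hs⟩ t ⟨y, ht⟩
    rw [show s = σ x from DFunLike.coe_injective hs, show t = σ y from DFunLike.coe_injective ht]
    -- conjugation carries the map of a point to the map of its image
    have hnat : ∀ x y, σ x * σ y * σ x = σ (lineMap L x y) := by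
      intro x y
      refine Equiv.ext fun z => ?_
      show lineMap L x (lineMap L y (lineMap L x z)) = lineMap L (lineMap L x y) z
      set w := lineMap L x z with hw
      have hz : z = lineMap L x w := (lineMap_lineMap hL x z).symm
      rw [hz]
      by_cases h : ∀ l ∈ L, y ∈ l → w ∈ l → y = w
      · rw [lineMap_fix h]
        refine (lineMap_fix ?_).symm
        intro l hl hy hw'
        have hl' := lineMap_lines hL x hl
        rw [h _ hl' ⟨_, hy, lineMap_lineMap hL x y⟩ ⟨_, hw', lineMap_lineMap hL x w⟩]
      push Not at h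
      obtain ⟨l, hl, hy, hwl, hne⟩ := h
      obtain ⟨h1, h2, h3, el⟩ := lineMap_eq hL hl hy hwl hne
      have hne' : lineMap L x y ≠ lineMap L x w := fun e => hne (by
        rw [← lineMap_lineMap hL x y, e, lineMap_lineMap hL x w])
      obtain ⟨g1, g2, g3, -⟩ := lineMap_eq hL (lineMap_lines hL x hl) ⟨y, hy, rfl⟩ ⟨w, hwl, rfl⟩ hne'
      obtain ⟨v, hv, ev⟩ := g1
      rw [el] at hv
      rcases hv with e | e | e
      · exact absurd (e ▸ ev).symm g2
      · exact absurd (e ▸ ev).symm g3
      · exact e ▸ ev
    have hsq : ∀ v, σ v * σ v = 1 := fun v => by rw [← pow_two, ← hord v, pow_orderOf_eq_one]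
    by_cases h : ∀ l ∈ L, x ∈ l → y ∈ l → x = y
    · left
      have e := hnat x y
      rw [lineMap_fix h] at e
      rw [pow_two, ← mul_assoc, e, hsq]
    · right
      push Not at h
      obtain ⟨l, hl, hx, hy, hne⟩ := h
      obtain ⟨h1, -, -, el⟩ := lineMap_eq hL hl hx hy hne
      obtain ⟨g1, g2, g3, -⟩ := lineMap_eq hL hl hy hx (Ne.symm hne)
      have e : lineMap L y x = lineMap L x y := by
        rw [el] at g1
        rcases g1 with e | e | e
        · exact absurd e g3
        · exact absurd e g2
        · exact e
      have e1 : σ x * σ y * σ x = σ y * σ x * σ y := by rw [hnat x y, hnat y x, e]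
      calc (σ x * σ y) ^ 3 = (σ x * σ y * σ x) * (σ y * σ x * σ y) := by
            simp only [pow_succ, pow_zero, one_mul, mul_assoc]
        _ = 1 := by rw [e1]; rw [← e1, hnat x y]; exact hsq _

end Cfsg.Agent.S5366
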