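import Cfsg.Statements.S5373
import Cfsg.Agent.Lib.Involution.FischerOrder

set_option autoImplicit false
open Cfsg

namespace Cfsg.Agent.S5373

/-- Let G be a finite group with trivial centre generated by a conjugation-invariant set D of 3-transpositions on which it acts primitively, of type M(22), and suppose some finite primitive 3-transposition group of type M(24) exists. Then D has exactly 3510 members, G has order 2^17 · 3^9 · 5^2 · 7 · 11 · 13, the width of D (largest number of pairwise commuting members) is 22, and for every d in D the centralizer of d is generated by the members of D other than d commuting with d. -/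
theorem result {G : Type*} [Group G] [Finite G] {D : Set G} (hD : Cfsg.IsThreeTranspositionGroup D) (hprim : Cfsg.IsPrimitiveUnderConj D) (ht : Cfsg.IsOfTypeM22 G D) (hex : ∃ (X : Type) (_ : Group X) (_ : Finite X) (E : Set X), Cfsg.IsThreeTranspositionClass E ∧ Cfsg.IsPrimitiveUnderConj E ∧ Cfsg.IsOfTypeM24 X E) : D.ncard = 3510 ∧ Nat.card G = 2 ^ 17 * 3 ^ 9 * 5 ^ 2 * 7 * 11 * 13 ∧ Cfsg.commutingWidth D = 22 ∧ ∀ d ∈ D, Subgroup.closure {y : G | y ∈ D ∧ y ≠ d ∧ Commute d y} = Subgroup.centralizer ({d} : Set G) := by
  have M : Cfsg.Agent.Lib.Involution.FischerTwentyTwo.Hyp D := ⟨hD, hprim, ht⟩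
  obtain ⟨-, ⟨a, ha, -⟩, -⟩ := id hprim
  exact ⟨Cfsg.Agent.Lib.Involution.FischerTwentyTwo.card_members M ha,
    Cfsg.Agent.Lib.Involution.FischerTwentyTwo.card_group M ha,
    Cfsg.Agent.Lib.Involution.FischerTwentyTwo.width M ha,
    fun d hd => Cfsg.Agent.Lib.Involution.FischerTwentyTwo.centralizer_eq_link M hd⟩

end Cfsg.Agent.S5373
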