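import Cfsg.Statements.S5387
import Cfsg.Agent.Lib.L34.CoverBound

set_option autoImplicit false
open Cfsg

namespace Cfsg.Agent.S5387

open scoped commutatorElement

/-- Up to isomorphism there is at most one quasisimple group whose centre is elementary abelian of order 4 and whose central quotient is isomorphic to the projective special linear group of dimension 3 over the field with four elements: any two such groups are isomorphic. -/
theorem result {L₁ L₂ : Type*} [Group L₁] [Finite L₁] [Group L₂] [Finite L₂] (F : Type) [Field F] [Fintype F] (hF : Fintype.card F = 4) (h₁ : Cfsg.IsQuasisimple L₁) (h₂ : Cfsg.IsQuasisimple L₂) (hc₁ : Nat.card (Subgroup.center L₁) = 4) (hc₂ : Nat.card (Subgroup.center L₂) = 4) (he₁ : ∀ x ∈ Subgroup.center L₁, x * x = 1) (he₂ : ∀ x ∈ Subgroup.center L₂, x * x = 1) (e₁ : L₁ ⧸ Subgroup.center L₁ ≃* Matrix.ProjectiveSpecialLinearGroup (Fin 3) F) (e₂ : L₂ ⧸ Subgroup.center L₂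 ≃* Matrix.ProjectiveSpecialLinearGroup (Fin 3) F) : Nonempty (L₁ ≃* L₂) := by
  obtain ⟨q₁, hq₁s, hq₁k⟩ : ∃ q : L₁ →* Matrix.ProjectiveSpecialLinearGroup (Fin 3) F,
      Function.Surjective q ∧ q.ker = Subgroup.center L₁ := by
    refine ⟨e₁.toMonoidHom.comp (QuotientGroup.mk' _), e₁.surjective.comp (QuotientGroup.mk'_surjective _), ?_⟩
    ext x; simp
  obtain ⟨q₂, hq₂s, hq₂k⟩ : ∃ q : L₂ →* Matrix.ProjectiveSpecialLinearGroup (Fin 3) F,
      Function.Surjective q ∧ q.ker = Subgroup.center L₂ := by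
    refine ⟨e₂.toMonoidHom.comp (QuotientGroup.mk' _), e₂.surjective.comp (QuotientGroup.mk'_surjective _), ?_⟩
    ext x; simp
  haveI := h₁.1
  haveI := h₂.1
  haveI : Group.IsPerfect (Matrix.ProjectiveSpecialLinearGroup (Fin 3) F) :=
    Group.IsPerfect.ofSurjective hq₁s
  -- the fibre product and its derived group
  let K : Subgroup (L₁ × L₂) :=
    MonoidHom.eqLocus (q₁.comp (MonoidHom.fst L₁ L₂)) (q₂.comp (MonoidHom.snd L₁ L₂))
  let D : Subgroup (L₁ × L₂) := ⁅K, K⁆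
  have hDK : D ≤ K := Subgroup.commutator_le_self K
  have hKmem : ∀ x : L₁ × L₂, x ∈ K ↔ q₁ x.1 = q₂ x.2 := fun x => Iff.rfl
  have hfst : D.map (MonoidHom.fst L₁ L₂) = ⊤ := by
    have : K.map (MonoidHom.fst L₁ L₂) = ⊤ := by
      rw [eq_top_iff]; intro a _
      obtain ⟨b, hb⟩ := hq₂s (q₁ a)
      exact ⟨(a, b), hb.symm, rfl⟩
    rw [Subgroup.map_commutator, this]; exact Group.IsPerfect.commutator_eq_top
  have hsnd : D.map (MonoidHom.snd L₁ L₂) = ⊤ := by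
    have : K.map (MonoidHom.snd L₁ L₂) = ⊤ := by
      rw [eq_top_iff]; intro b _
      obtain ⟨a, ha⟩ := hq₁s (q₂ b)
      exact ⟨(a, b), ha, rfl⟩
    rw [Subgroup.map_commutator, this]; exact Group.IsPerfect.commutator_eq_top
  -- the projection to the simple group
  let π : D →* Matrix.ProjectiveSpecialLinearGroup (Fin 3) F :=
    (q₁.comp (MonoidHom.fst L₁ L₂)).comp D.subtype
  have hπs : Function.Surjective π := by
    intro g
    obtain ⟨a, rfl⟩ := hq₁s g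
    obtain ⟨x, hx, hxa⟩ : a ∈ D.map (MonoidHom.fst L₁ L₂) := hfst ▸ Subgroup.mem_top a
    exact ⟨⟨x, hx⟩, congrArg q₁ hxa⟩
  have hker : ∀ x : L₁ × L₂, x ∈ K → q₁ x.1 = 1 →
      x.1 ∈ Subgroup.center L₁ ∧ x.2 ∈ Subgroup.center L₂ := fun x hx h =>
    ⟨hq₁k ▸ MonoidHom.mem_ker.2 h, hq₂k ▸ MonoidHom.mem_ker.2 (((hKmem x).1 hx).symm.trans h)⟩
  have hc : π.ker ≤ Subgroup.center D := by
    intro x hx
    obtain ⟨c1, c2⟩ := hker x.1 (hDK x.2) hx
    exact Subgroup.mem_center_iff.2 fun y => Subtype.ext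
      (Prod.ext (Subgroup.mem_center_iff.1 c1 _) (Subgroup.mem_center_iff.1 c2 _))
  have h2 : ∀ a ∈ π.ker, a * a = 1 := by
    intro x hx
    obtain ⟨c1, c2⟩ := hker x.1 (hDK x.2) hx
    exact Subtype.ext (Prod.ext (he₁ _ c1) (he₂ _ c2))
  -- the derived group is perfect
  have hperf : D ≤ ⁅D, D⁆ := by
    refine Subgroup.commutator_le.2 fun a ha b hb => ?_
    obtain ⟨a', ha'⟩ := hπs (q₁ a.1)
    obtain ⟨b', hb'⟩ := hπs (q₁ b.1)
    have key : ∀ (a : L₁ × L₂) (a' : D), a ∈ K → π a' = q₁ a.1 →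
        ∃ z : L₁ × L₂, (∀ y, z * y = y * z) ∧ a = z * a' := by
      intro a a' ha h
      have h' : q₁ (a * (a' : L₁ × L₂)⁻¹).1 = 1 := by
        rw [Prod.fst_mul, map_mul, Prod.fst_inv, map_inv]
        exact mul_inv_eq_one.2 h.symm
      obtain ⟨c1, c2⟩ := hker _ (K.mul_mem ha (K.inv_mem (hDK a'.2))) h'
      refine ⟨a * (a' : L₁ × L₂)⁻¹, fun y => Prod.ext ?_ ?_, (inv_mul_cancel_right _ _).symm⟩
      · exact (Subgroup.mem_center_iff.1 c1 y.1).symm
      · exact (Subgroup.mem_center_iff.1 c2 y.2).symm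
    obtain ⟨z, hz, rfl⟩ := key a a' ha ha'
    obtain ⟨w, hw, rfl⟩ := key b b' hb hb'
    have : ⁅z * (a' : L₁ × L₂), w * (b' : L₁ × L₂)⁆ = ⁅(a' : L₁ × L₂), (b' : L₁ × L₂)⁆ := by
      simp only [commutatorElement_def, mul_inv_rev]
      calc z * ↑a' * (w * ↑b') * ((↑a' : L₁ × L₂)⁻¹ * z⁻¹) * ((↑b' : L₁ × L₂)⁻¹ * w⁻¹)
          = z * (↑a' * w) * ↑b' * (↑a' : L₁ × L₂)⁻¹ * (z⁻¹ * ((↑b' : L₁ × L₂)⁻¹ * w⁻¹)) := by group
        _ = z * (w * ↑a') * ↑b' * (↑a' : L₁ × L₂)⁻¹ * (((↑b' : L₁ × L₂)⁻¹ * w⁻¹) * z⁻¹) := by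
            rw [← hw, (show Commute z _ from hz ((↑b' : L₁ × L₂)⁻¹ * w⁻¹)).inv_left.eq]
        _ = (z * w) * (↑a' * ↑b' * (↑a' : L₁ × L₂)⁻¹ * (↑b' : L₁ × L₂)⁻¹) * (w⁻¹ * z⁻¹) := by group
        _ = (↑a' * ↑b' * (↑a' : L₁ × L₂)⁻¹ * (↑b' : L₁ × L₂)⁻¹) * (z * w) * (w⁻¹ * z⁻¹) := by
            rw [((show Commute z _ from hz _).mul_left (hw _)).eq]
        _ = ↑a' * ↑b' * (↑a' : L₁ × L₂)⁻¹ * (↑b' : L₁ × L₂)⁻¹ := by group
    rw [this]
    exact Subgroup.commutator_mem_commutator a'.2 b'.2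
  have hp : π.ker ≤ commutator D := fun x _ => by
    obtain ⟨y, hy, he⟩ : (x : L₁ × L₂) ∈ (commutator D).map D.subtype := by
      rw [Subgroup.map_subtype_commutator]; exact hperf x.2
    exact Subtype.ext he ▸ hy
  have hA := Lib.L34.ker_card_le π hπs hF hc h2 hp
  have hcardD : Nat.card D = Nat.card π.ker *
      Nat.card (Matrix.ProjectiveSpecialLinearGroup (Fin 3) F) := by
    have e := π.ker.card_mul_index
    rw [Subgroup.index_ker, MonoidHom.range_eq_top.2 hπs, Subgroup.card_top] at e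
    exact e.symm
  have hL : ∀ (L : Type _) [Group L] (q : L →* Matrix.ProjectiveSpecialLinearGroup (Fin 3) F),
      Function.Surjective q → Nat.card q.ker = 4 →
      Nat.card L = 4 * Nat.card (Matrix.ProjectiveSpecialLinearGroup (Fin 3) F) := by
    intro L _ q hq h4
    have e := q.ker.card_mul_index
    rw [Subgroup.index_ker, MonoidHom.range_eq_top.2 hq, Subgroup.card_top, h4] at e
    exact e.symm
  have hle : Nat.card D ≤ 4 * Nat.card (Matrix.ProjectiveSpecialLinearGroup (Fin 3) F) := by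
    rw [hcardD]; exact Nat.mul_le_mul_right _ hA
  let f₁ : D →* L₁ := (MonoidHom.fst L₁ L₂).comp D.subtype
  let f₂ : D →* L₂ := (MonoidHom.snd L₁ L₂).comp D.subtype
  have s₁ : Function.Surjective f₁ := fun a => by
    obtain ⟨x, hx, hxa⟩ : a ∈ D.map (MonoidHom.fst L₁ L₂) := hfst ▸ Subgroup.mem_top a
    exact ⟨⟨x, hx⟩, hxa⟩
  have s₂ : Function.Surjective f₂ := fun a => by
    obtain ⟨x, hx, hxa⟩ : a ∈ D.map (MonoidHom.snd L₁ L₂) := hsnd ▸ Subgroup.mem_top a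
    exact ⟨⟨x, hx⟩, hxa⟩
  have c₁ : Nat.card D = Nat.card L₁ := le_antisymm
    (hle.trans_eq (hL L₁ q₁ hq₁s (hq₁k ▸ hc₁)).symm) (Nat.card_le_card_of_surjective _ s₁)
  have n₂ : Nat.card L₂ = 4 * Nat.card (Matrix.ProjectiveSpecialLinearGroup (Fin 3) F) := by
    have e := q₂.ker.card_mul_index
    rw [Subgroup.index_ker, MonoidHom.range_eq_top.2 hq₂s, Subgroup.card_top, hq₂k, hc₂] at e
    exact e.symm
  have c₂ : Nat.card D = Nat.card L₂ := le_antisymm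
    (hle.trans_eq n₂.symm) (Nat.card_le_card_of_surjective _ s₂)
  exact ⟨(MulEquiv.ofBijective f₁ ((Nat.bijective_iff_surjective_and_card f₁).2 ⟨s₁, c₁⟩)).symm.trans
    (MulEquiv.ofBijective f₂ ((Nat.bijective_iff_surjective_and_card f₂).2 ⟨s₂, c₂⟩))⟩

end Cfsg.Agent.S5387
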