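import Cfsg.Statements.S5392
import Cfsg.Agent.Lib.Leech.Irreducible
-- import your own Cfsg.Agent.* helpers here

set_option autoImplicit false
open Cfsg Agent.Lib.Leech

namespace Cfsg.Agent.S5392

theorem frame_norms (i j : GolayPt) (h : i ≠ j) : sqNorm (frame i j) = 32 ∧ sqNorm (frame i i - frame i j) = 32 := by
  constructor <;>
  · simp only [sqNorm, frame, Pi.sub_apply]
    rw [Finset.sum_eq_add i j h (fun p _ hp => by simp [hp.1, hp.2]) (by simp) (by simp)]
    simp [h, h.symm]

theorem frame_dots (i j k : GolayPt) (hij : i ≠ j) (hik : i ≠ k) :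
    dotInt (frame i j) (frame i k) ≠ 0 ∧ dotInt (frame i j) (frame i i - frame i k) ≠ 0 ∨ j = k := by
  by_cases hjk : j = k
  · exact Or.inr hjk
  left
  constructor <;>
  · simp only [dotInt, frame, Pi.sub_apply]
    rw [Finset.sum_eq_add i j hij (fun p _ hp => by simp [hp.1, hp.2]) (by simp) (by simp)]
    simp [hij, hij.symm, hik, hik.symm, hjk, Ne.symm hjk]

theorem exists_third : ∀ i j : GolayPt, ∃ k, i ≠ k ∧ j ≠ k := by decide +kernel

/-- The Leech lattice modulo twice itself is a faithful irreducible module for the first Conway group: an automorphism of the rank-24 lattice built from the length-24 code that moves every lattice vector only by twice a lattice vector lies in the centre of the automorphism group (the centre consists of ±1, which act trivially there, so the kernel is exactly the centre), and an additive subgroup lying between twice the lattice and the lattice that is invariant under all lattice automorphisms is one of the two. -/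
theorem result : (∀ g : ↥Cfsg.Co0, (∀ v : ↥Cfsg.leechLattice, ∃ w : ↥Cfsg.leechLattice, ((g • v : ↥Cfsg.leechLattice) : Cfsg.GolayPt → ℤ) - (v : Cfsg.GolayPt → ℤ) = 2 • (w : Cfsg.GolayPt → ℤ)) → g ∈ Subgroup.center ↥Cfsg.Co0) ∧ ∀ M : AddSubgroup (Cfsg.GolayPt → ℤ), (∀ v ∈ Cfsg.leechLattice, (2 : ℤ) • v ∈ M) → M ≤ Cfsg.leechLattice → (∀ g : ↥Cfsg.Co0, ∀ v : ↥Cfsg.leechLattice, (v : Cfsg.GolayPt → ℤ) ∈ M → ((g • v : ↥Cfsg.leechLattice) : Cfsg.GolayPt → ℤ) ∈ M) → (∀ x ∈ M, ∃ w ∈ Cfsg.leechLattice, x = (2 : ℤ) • w) ∨ M = Cfsg.leechLattice := by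
  refine ⟨fun g hg => ?_, fun M h2 hle hinv => irreducible h2 hle hinv⟩
  -- every vector of minimal norm is fixed or negated
  let S : Cfsg.GolayPt → Cfsg.GolayPt → ↥Cfsg.leechLattice := fun i j => ⟨frame i j, frame_mem i j⟩
  have hmin : ∀ v : ↥Cfsg.leechLattice, Cfsg.sqNorm (v : Cfsg.GolayPt → ℤ) ≤ 32 → g • v = v ∨ g • v = -v := by
    intro v hv
    obtain ⟨w, hw⟩ := hg v
    have hn : Cfsg.sqNorm ((g • v : ↥Cfsg.leechLattice) : Cfsg.GolayPt → ℤ) = Cfsg.sqNorm (v : Cfsg.GolayPt → ℤ) := g.2.2 v
    rcases short_congr v.2 (by rw [hn]; omega) (by omega) ⟨w, w.2, hw⟩ with h | h | ⟨h, -⟩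
    · exact Or.inl (Subtype.ext h)
    · exact Or.inr (Subtype.ext h)
    · omega
  have hadd : ∀ v w : ↥Cfsg.leechLattice, g • (v + w) = g • v + g • w := g.2.1
  let φ : ↥Cfsg.leechLattice →+ ↥Cfsg.leechLattice := AddMonoidHom.mk' (fun v => g • v) hadd
  have hdot : ∀ v w : ↥Cfsg.leechLattice,
      Cfsg.dotInt ((g • v : ↥Cfsg.leechLattice) : Cfsg.GolayPt → ℤ) ((g • w : ↥Cfsg.leechLattice) : Cfsg.GolayPt → ℤ) =
        Cfsg.dotInt (v : Cfsg.GolayPt → ℤ) (w : Cfsg.GolayPt → ℤ) := by
    intro v w
    have h1 := sqNorm_sub_eq ((g • v : ↥Cfsg.leechLattice) : Cfsg.GolayPt → ℤ) ((g • w : ↥Cfsg.leechLattice) : Cfsg.GolayPt → ℤ)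
    have h2 := sqNorm_sub_eq (v : Cfsg.GolayPt → ℤ) (w : Cfsg.GolayPt → ℤ)
    rw [← AddSubgroup.coe_sub, show g • v - g • w = g • (v - w) from (map_sub φ v w).symm] at h1
    rw [← AddSubgroup.coe_sub] at h2
    have e1 : ∀ u : ↥Cfsg.leechLattice, Cfsg.sqNorm ((g • u : ↥Cfsg.leechLattice) : Cfsg.GolayPt → ℤ) = Cfsg.sqNorm (u : Cfsg.GolayPt → ℤ) := g.2.2
    rw [e1, e1, e1] at h1
    omega
  have hSn : ∀ i j, i ≠ j → Cfsg.sqNorm ((S i j : ↥Cfsg.leechLattice) : Cfsg.GolayPt → ℤ) ≤ 32 ∧
      Cfsg.sqNorm ((S i i - S i j : ↥Cfsg.leechLattice) : Cfsg.GolayPt → ℤ) ≤ 32 := by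
    intro i j h
    exact ⟨(frame_norms i j h).1.le, (frame_norms i j h).2.le⟩
  have hconn := frame_dots
  have hflat : ∀ v w : ↥Cfsg.leechLattice, Cfsg.dotInt (v : Cfsg.GolayPt → ℤ) (w : Cfsg.GolayPt → ℤ) ≠ 0 →
      g • v = v → (g • w = w ∨ g • w = -w) → g • w = w := by
    intro v w hne hv hw
    refine hw.resolve_right fun hw => hne ?_
    have h := hdot v w
    rw [hv, hw] at h
    simp only [Cfsg.dotInt, NegMemClass.coe_neg, Pi.neg_apply, mul_neg, Finset.sum_neg_distrib] at h ⊢
    omega
  have hflat' : ∀ v w : ↥Cfsg.leechLattice, Cfsg.dotInt (v : Cfsg.GolayPt → ℤ) (w : Cfsg.GolayPt → ℤ) ≠ 0 →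
      g • v = -v → (g • w = w ∨ g • w = -w) → g • w = -w := by
    intro v w hne hv hw
    refine hw.resolve_left fun hw => hne ?_
    have h := hdot v w
    rw [hv, hw] at h
    simp only [Cfsg.dotInt, NegMemClass.coe_neg, Pi.neg_apply, neg_mul, Finset.sum_neg_distrib] at h ⊢
    omega
  have scal : (∀ v : ↥Cfsg.leechLattice, g • v = v) ∨ (∀ v : ↥Cfsg.leechLattice, g • v = -v) := by
    have key : ∀ e : ℤ, (e = 1 ∨ e = -1) → (∀ i, g • S i i = e • S i i) → ∀ v : ↥Cfsg.leechLattice, g • v = e • v := by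
      intro e he h v
      apply Subtype.ext
      have hsum : (8 : ℤ) • v = ∑ i, ((v : Cfsg.GolayPt → ℤ) i) • S i i := by
        apply Subtype.ext
        funext p
        rcases p with _ | p <;>
          simp [S, frame, Finset.sum_apply, ite_add_ite, mul_ite] <;> ring
      have hφ : φ ((8 : ℤ) • v) = e • ((8 : ℤ) • v) := by
        rw [hsum, map_sum, Finset.smul_sum]
        refine Finset.sum_congr rfl fun i _ => ?_
        rw [map_zsmul, show φ (S i i) = e • S i i from h i, smul_comm]
      rw [map_zsmul, smul_comm e] at hφ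
      funext p
      have := congrArg (fun u : ↥Cfsg.leechLattice => (u : Cfsg.GolayPt → ℤ) p) hφ
      simp only [AddSubgroup.coe_zsmul, Pi.smul_apply, smul_eq_mul] at this ⊢
      exact mul_left_cancel₀ (by norm_num : (8 : ℤ) ≠ 0) this
    have h0 : (none : Cfsg.GolayPt) ≠ some 0 := by simp
    rcases hmin (S none (some 0)) (hSn _ _ h0).1 with h | h
    · left
      have hone : ∀ i j, i ≠ j → g • S i j = S i j → g • S i i = S i i ∧ ∀ k, i ≠ k → g • S i k = S i k := by
        intro i j hij hfix
        have hk : ∀ k, i ≠ k → g • S i k = S i k := fun k hik => by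
          rcases hconn i j k hij hik with hc | rfl
          · exact hflat _ _ hc.1 hfix (hmin _ (hSn i k hik).1)
          · exact hfix
        refine ⟨?_, hk⟩
        obtain ⟨k, hik, hjk⟩ := exists_third i j
        have hd := hflat _ (S i i - S i k) ((hconn i j k hij hik).resolve_right hjk).2 hfix (hmin _ (hSn i k hik).2)
        calc g • S i i = g • (S i i - S i k + S i k) := by rw [sub_add_cancel]
          _ = _ := by rw [hadd, hd, hk k hik, sub_add_cancel]
      intro v
      have := key 1 (Or.inl rfl) (fun i => by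
        rw [one_zsmul]
        by_cases hi : i = none
        · subst hi; exact (hone _ _ h0 h).1
        · have hni := (hone _ _ h0 h).2 i (Ne.symm hi)
          exact (hone i none hi (by
            rwa [show S i none = S none i from Subtype.ext (funext fun p => add_comm _ _)])).1) v
      rwa [one_zsmul] at this
    · right
      have hone : ∀ i j, i ≠ j → g • S i j = -S i j → g • S i i = -S i i ∧ ∀ k, i ≠ k → g • S i k = -S i k := by
        intro i j hij hfix
        have hk : ∀ k, i ≠ k → g • S i k = -S i k := fun k hik => by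
          rcases hconn i j k hij hik with hc | rfl
          · exact hflat' _ _ hc.1 hfix (hmin _ (hSn i k hik).1)
          · exact hfix
        refine ⟨?_, hk⟩
        obtain ⟨k, hik, hjk⟩ := exists_third i j
        have hd := hflat' _ (S i i - S i k) ((hconn i j k hij hik).resolve_right hjk).2 hfix (hmin _ (hSn i k hik).2)
        calc g • S i i = g • (S i i - S i k + S i k) := by rw [sub_add_cancel]
          _ = _ := by rw [hadd, hd, hk k hik]; abel
      intro v
      have := key (-1) (Or.inr rfl) (fun i => by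
        rw [neg_one_zsmul]
        by_cases hi : i = none
        · subst hi; exact (hone _ _ h0 h).1
        · have hni := (hone _ _ h0 h).2 i (Ne.symm hi)
          exact (hone i none hi (by
            rwa [show S i none = S none i from Subtype.ext (funext fun p => add_comm _ _)])).1) v
      rwa [neg_one_zsmul] at this
  rw [Subgroup.mem_center_iff]
  intro k
  refine Subtype.ext (Equiv.ext fun v => ?_)
  show k • (g • v) = g • (k • v)
  rcases scal with h | h
  · rw [h, h]
  · rw [h, h]
    exact map_neg (AddMonoidHom.mk' (fun v : ↥Cfsg.leechLattice => k • v) k.2.1) v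

end Cfsg.Agent.S5392
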