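import Cfsg.Statements.S5393
import Cfsg.Agent.Lib.Golay.Simple
-- import your own Cfsg.Agent.* helpers here

set_option autoImplicit false
open Cfsg

namespace Cfsg.Agent.S5393

open Cfsg
open Cfsg.Agent.Lib.Golay
open scoped Pointwise

theorem perm_word_mask (σ : Equiv.Perm GolayPt) (m : ℕ) :
    (fun p => word m (σ.symm p)) = word (mask (σ • toSet m)) := by
  funext p
  have h : p ∈ σ • toSet m ↔ σ.symm p ∈ toSet m := by
    rw [← Finset.inv_smul_mem_iff]; rfl
  simp only [word, testBit_mask, h, mem_toSet]
  cases m.testBit (ix (σ.symm p)) <;> simp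

theorem dod_pair : (dodList.filter fun m => pc (d0 ^^^ m) == 8).length > 0 := by decide +kernel

theorem span_basis : ∀ B ∈ basis, B ∈ octList := fun B hB => by
  have : ∀ B ∈ basis, isCode B = true ∧ pc B = 8 := by decide +kernel
  exact mem_octList.2 (this B hB)


/-- The length-24 code built from the squares modulo 23 contains the all-ones word, and the code modulo the all-ones word is an irreducible module over the field with two elements for the code's automorphism group: a subspace of the code that contains the all-ones word and is invariant under every coordinate permutation preserving the code is either the span of the all-ones word or the whole code. -/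
theorem result : (fun _ : Cfsg.GolayPt => (1 : ZMod 2)) ∈ Cfsg.golayCode ∧ ∀ W : Submodule (ZMod 2) (Cfsg.GolayPt → ZMod 2), (fun _ => (1 : ZMod 2)) ∈ W → W ≤ Cfsg.golayCode → (∀ σ ∈ Cfsg.M24, ∀ w ∈ W, (fun p => w (σ.symm p)) ∈ W) → W = Submodule.span (ZMod 2) {fun _ => (1 : ZMod 2)} ∨ W = Cfsg.golayCode := by
  have h1 : (fun _ : GolayPt => (1 : ZMod 2)) ∈ golayCode :=
    Submodule.subset_span (Or.inr rfl)
  refine ⟨h1, fun W hW hle hinv => ?_⟩
  have hone : word FULL = fun _ => (1 : ZMod 2) := by
    funext p; simp [word, testBit_full _ (ix_lt p)]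
  by_cases hspan : W = Submodule.span (ZMod 2) {fun _ => (1 : ZMod 2)}
  · exact Or.inl hspan
  refine Or.inr (le_antisymm hle ?_)
  have hoct : ∀ a ∈ octList, word a ∈ W → ∀ b ∈ octList, word b ∈ W := by
    intro a ha haW b hb
    obtain ⟨σ, hσ, he⟩ := M24_trans_octads (mem_octads.2 ⟨a, ha, rfl⟩) (mem_octads.2 ⟨b, hb, rfl⟩)
    have := hinv σ hσ _ haW
    rwa [perm_word_mask, he, mask_toSet (lt_octList hb)] at this
  suffices ∃ a ∈ octList, word a ∈ W by
    obtain ⟨a, ha, haW⟩ := this
    intro w hw
    obtain ⟨k, -, rfl⟩ := mem_code_iff.1 hw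
    have key : ∀ L : List ℕ, (∀ B ∈ L, word B ∈ W) → ∀ k, word (comb L k) ∈ W := by
      intro L
      induction L with
      | nil => intro _ k; rw [comb, word_zero]; exact W.zero_mem
      | cons B bs ih =>
        intro hL k
        rw [comb, word_xor]
        refine W.add_mem ?_ (ih (fun C hC => hL C (List.mem_cons_of_mem _ hC)) _)
        split_ifs
        · exact hL B (by simp)
        · rw [word_zero]; exact W.zero_mem
    exact key basis (fun B hB => hoct a ha haW B (span_basis B hB)) k
  obtain ⟨w, hw, hw'⟩ : ∃ w ∈ W, w ∉ Submodule.span (ZMod 2) {fun _ : GolayPt => (1 : ZMod 2)} := by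
    by_contra hcon
    push Not at hcon
    exact hspan (le_antisymm hcon (Submodule.span_le.2 (by simpa using hW)))
  obtain ⟨k, hk, rfl⟩ := mem_code_iff.1 (hle hw)
  have hc : isCode (enc k) = true := isCode_iff.2 ⟨k, hk, rfl⟩
  rcases pc_cases hc with h | h | h | h | h
  · have : enc k = 0 := by
      refine eq_of_toSet_eq (enc_lt k) (by norm_num) ?_
      rw [toSet_zero, ← Finset.card_eq_zero, card_toSet, h]
    rw [this, word_zero] at hw'
    exact absurd (Submodule.zero_mem _) hw'
  · exact ⟨_, mem_octList.2 ⟨hc, h⟩, hw⟩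
  · obtain ⟨m, hm⟩ := List.exists_mem_of_length_pos dod_pair
    rw [List.mem_filter, beq_iff_eq] at hm
    have hd : ∀ b ∈ dodList, word b ∈ W := by
      intro b hb
      obtain ⟨σ, hσ, he⟩ := M24_trans_dodecads
        (mem_dodecads.2 ⟨_, mem_dodList.2 ⟨hc, h⟩, rfl⟩) (mem_dodecads.2 ⟨b, hb, rfl⟩)
      have := hinv σ hσ _ hw
      rwa [perm_word_mask, he, mask_toSet (lt_dodList hb)] at this
    have hd0 : d0 ∈ dodList := mem_dodList.2 (by decide +kernel)
    refine ⟨d0 ^^^ m, mem_octList.2 ⟨isCode_xor (isCode_dodList hd0) (isCode_dodList hm.1), hm.2⟩, ?_⟩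
    rw [word_xor]
    exact W.add_mem (hd d0 hd0) (hd m hm.1)
  · refine ⟨FULL ^^^ enc k, mem_octList.2 ⟨isCode_xor (by decide) hc, ?_⟩, ?_⟩
    · rw [← card_toSet, toSet_compl, Finset.card_compl, card_toSet, h]; decide
    · rw [word_xor, hone]; exact W.add_mem hW hw
  · have : enc k = FULL := by
      refine eq_of_toSet_eq (enc_lt k) (by norm_num) ?_
      rw [toSet_full]
      exact Finset.eq_univ_of_card _ (by rw [card_toSet, h]; decide)
    rw [this, hone] at hw'
    exact absurd (Submodule.subset_span (Set.mem_singleton _)) hw'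

end Cfsg.Agent.S5393
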