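import Cfsg.Statements.S5394
import Cfsg.Agent.Lib.Golay.Classes
-- import your own Cfsg.Agent.* helpers here

set_option autoImplicit false
open Cfsg

namespace Cfsg.Agent.S5394

open Cfsg
open Cfsg.Agent.Lib.Golay
open scoped Pointwise


/-- The automorphism group of the length-24 code built from the squares modulo 23 has exactly two conjugacy classes of involutions: an involution either fixes exactly the eight points of an octad or has no fixed points, both kinds occur, and any two involutions of the same kind are conjugate in the group. -/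
theorem result : (∀ g ∈ Cfsg.M24, orderOf g = 2 → (Finset.univ.filter fun p => g p = p) ∈ Cfsg.octads ∨ ∀ p, g p ≠ p) ∧ (∃ g ∈ Cfsg.M24, orderOf g = 2 ∧ (Finset.univ.filter fun p => g p = p) ∈ Cfsg.octads) ∧ (∃ g ∈ Cfsg.M24, orderOf g = 2 ∧ ∀ p, g p ≠ p) ∧ ∀ g ∈ Cfsg.M24, ∀ h ∈ Cfsg.M24, orderOf g = 2 → orderOf h = 2 → ((∀ p, g p ≠ p) ↔ (∀ p, h p ≠ p)) → ∃ k ∈ Cfsg.M24, k * g * k⁻¹ = h := by
  obtain ⟨hall, hA, hA8, hB, -, -, p2A, p2B, -, -⟩ := rep_facts
  have : Fact (Nat.Prime 2) := ⟨Nat.prime_two⟩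
  have hfA : fixedPts (toPerm rep2A) ∈ octads := by
    rw [fixedPts_toPerm (rep_valid (by simp)).2]
    exact mem_octads.2 ⟨_, mem_octList.2 ⟨hA, hA8⟩, rfl⟩
  refine ⟨fun g hg ho => ?_, ⟨_, (rep_valid (r := rep2A) (by simp)).1, rep_order (rep_valid (by simp)).2 p2A (by rw [hA8]; decide), hfA⟩,
    ⟨_, (rep_valid (r := rep2B) (by simp)).1, rep_order (rep_valid (by simp)).2 p2B (by rw [hB]; decide), ?_⟩, ?_⟩
  · obtain ⟨c, hc, ⟨-, he⟩ | ⟨h, -⟩⟩ := inv_classes hg ho
    · refine Or.inl ?_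
      have h2 := smul_mem_octads (inv_mem hc) hfA
      rwa [← he, fixedPts_conj, inv_smul_smul] at h2
    · exact Or.inr (fixedPts_card_zero.1 h)
  · rw [← fixedPts_card_zero, fixedPts_toPerm (rep_valid (by simp)).2, card_toSet, hB]; rfl
  · intro g hg h hh hog hoh hiff
    rw [← fixedPts_card_zero, ← fixedPts_card_zero] at hiff
    obtain ⟨c, hc, ⟨f1, e1⟩ | ⟨f1, e1⟩⟩ := inv_classes hg hog <;>
      obtain ⟨d, hd, ⟨f2, e2⟩ | ⟨f2, e2⟩⟩ := inv_classes hh hoh
    · exact conj_of_conj hc hd e1 e2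
    · have := hiff.2 f2; omega
    · have := hiff.1 f1; omega
    · exact conj_of_conj hc hd e1 e2

end Cfsg.Agent.S5394
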