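import Cfsg.Statements.S5395
-- import your own Cfsg.Agent.* helpers here

set_option autoImplicit false
open Cfsg

namespace Cfsg.Agent.S5395

/-- For a finite extraspecial 2-group E, an automorphism of E that induces the identity on E modulo its centre is inner (so these automorphisms form exactly the inner automorphism group, an elementary abelian 2-group of order |E|/2). -/
theorem result {E : Type*} [Group E] [Finite E] (hE : Cfsg.IsExtraspecial 2 E) (φ : E ≃* E) (hφ : ∀ x : E, φ x * x⁻¹ ∈ Subgroup.center E) : ∃ g : E, ∀ x : E, φ x = g * x * g⁻¹ := by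
  classical
  haveI : Fintype E := Fintype.ofFinite E
  obtain ⟨z, hz1, hzu⟩ := (Nat.card_eq_two_iff' (1 : Subgroup.center E)).mp hE.2
  have hzall : ∀ x ∈ Subgroup.center E, x = 1 ∨ x = (z : E) := by
    intro x hx
    by_cases h : x = 1
    · exact Or.inl h
    · exact Or.inr (congrArg Subtype.val (hzu ⟨x, hx⟩ (fun e => h (congrArg Subtype.val e))))
  have hzne : (z : E) ≠ 1 := fun h => hz1 (Subtype.ext h)
  have hzz : (z : E) * z = 1 := by
    rcases hzall _ (mul_mem z.2 z.2) with h | h
    · exact h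
    · exact absurd (mul_eq_left.mp h) hzne
  open scoped commutatorElement in
  have hcm : ∀ g x : E, ⁅g, x⁆ ∈ Subgroup.center E := fun g x => hE.1.2.2 ▸
    Subgroup.commutator_mem_commutator (Subgroup.mem_top _) (Subgroup.mem_top _)
  let χ : E → E := fun x => φ x * x⁻¹
  let F : E → E → E := fun g x => χ x * (g * x * g⁻¹ * x⁻¹)
  have hcmC : ∀ g x : E, g * x * g⁻¹ * x⁻¹ ∈ Subgroup.center E := hcm
  have hFC : ∀ g x, F g x ∈ Subgroup.center E := fun g x => mul_mem (hφ x) (hcmC g x)
  have hFg : ∀ g h x, F (g * h) x = F g x * (h * x * h⁻¹ * x⁻¹) := by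
    intro g h x
    have hc := Subgroup.mem_center_iff.mp (hcmC h x)
    simp only [F]
    rw [mul_assoc (χ x)]
    congr 1
    calc g * h * x * (g * h)⁻¹ * x⁻¹ = (g * (h * x * h⁻¹ * x⁻¹)) * x * g⁻¹ * x⁻¹ := by group
      _ = (h * x * h⁻¹ * x⁻¹) * (g * x * g⁻¹ * x⁻¹) := by rw [hc g]; group
      _ = _ := (hc _).symm
  have hFx : ∀ g x y, F g (x * y) = F g x * F g y := by
    intro g x y
    have hχy : ∀ u, u * χ y = χ y * u := Subgroup.mem_center_iff.mp (hφ y)
    have hcy : ∀ u, u * (g * y * g⁻¹ * y⁻¹) = (g * y * g⁻¹ * y⁻¹) * u := Subgroup.mem_center_iff.mp (hcmC g y)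
    have h1 : χ (x * y) = χ x * χ y := by
      calc χ (x * y) = φ x * χ y * x⁻¹ := by simp only [χ, map_mul]; group
        _ = χ y * χ x := by rw [hχy]; simp only [χ]; group
        _ = χ x * χ y := (hχy _).symm
    have h2 : g * (x * y) * g⁻¹ * (x * y)⁻¹ = (g * x * g⁻¹ * x⁻¹) * (g * y * g⁻¹ * y⁻¹) := by
      calc g * (x * y) * g⁻¹ * (x * y)⁻¹ = (g * x * g⁻¹ * x⁻¹) * (x * (g * y * g⁻¹ * y⁻¹) * x⁻¹) := by group
        _ = _ := by rw [hcy x]; group
    simp only [F]
    rw [h1, h2, mul_assoc, ← mul_assoc (χ y), ← hχy]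
    simp only [mul_assoc]
  by_contra hne
  push Not at hne
  let ε : E → ℤ := fun v => if v = 1 then 1 else -1
  have hεz : ∀ v ∈ Subgroup.center E, ε (v * z) = - ε v := by
    intro v hv
    rcases hzall v hv with rfl | rfl
    · simp [ε, hzne]
    · simp [ε, hzne, hzz]
  have hrow : ∀ g : E, ∑ x, ε (F g x) = 0 := by
    intro g
    obtain ⟨x₀, hx₀⟩ := hne g
    have hval : F g x₀ = z := by
      refine (hzall _ (hFC g x₀)).resolve_left fun h => hx₀ ?_
      have hi : (g * x₀ * g⁻¹ * x₀⁻¹)⁻¹ = g * x₀ * g⁻¹ * x₀⁻¹ := by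
        rcases hzall _ (hcmC g x₀) with e | e <;> rw [e] <;> simp [inv_eq_of_mul_eq_one_right hzz]
      have := eq_inv_of_mul_eq_one_left (a := χ x₀) (b := g * x₀ * g⁻¹ * x₀⁻¹) h
      rw [hi] at this
      exact mul_right_cancel this
    have h := Equiv.sum_comp (Equiv.mulRight x₀) (fun x => ε (F g x))
    simp only [Equiv.coe_mulRight, hFx, hval, hεz _ (hFC g _), Finset.sum_neg_distrib] at h
    omega
  have hφz : φ (z : E) = z := by
    refine (hzall _ ?_).resolve_left (fun h => hzne (φ.injective (h.trans (map_one φ).symm)))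
    rw [Subgroup.mem_center_iff]
    intro u
    obtain ⟨w, rfl⟩ := φ.surjective u
    rw [← map_mul, ← map_mul, Subgroup.mem_center_iff.mp z.2 w]
  have hcol : ∀ x : E, ∑ g, ε (F g x) = if x ∈ Subgroup.center E then (Fintype.card E : ℤ) else 0 := by
    intro x
    split_ifs with hx
    · have : ∀ g, F g x = 1 := by
        intro g
        simp only [F, χ]
        rw [Subgroup.mem_center_iff.mp hx g, mul_inv_cancel_right, mul_inv_cancel, mul_one]
        rcases hzall x hx with rfl | rfl
        · simp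
        · rw [hφz, mul_inv_cancel]
      simp [this, ε]
    · rw [Subgroup.mem_center_iff] at hx
      push Not at hx
      obtain ⟨g₀, hg₀⟩ := hx
      have hval : g₀ * x * g₀⁻¹ * x⁻¹ = z := by
        refine (hzall _ (hcmC g₀ x)).resolve_left fun h => hg₀ ?_
        rwa [mul_inv_eq_one, mul_inv_eq_iff_eq_mul] at h
      have h := Equiv.sum_comp (Equiv.mulRight g₀) (fun g => ε (F g x))
      simp only [Equiv.coe_mulRight, hFg, hval, hεz _ (hFC _ x), Finset.sum_neg_distrib] at h
      omega
  have htot := Finset.sum_comm (s := (Finset.univ : Finset E)) (t := (Finset.univ : Finset E)) (f := fun g x => ε (F g x))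
  rw [Finset.sum_congr rfl (fun g _ => hrow g), Finset.sum_congr rfl (fun x _ => hcol x)] at htot
  simp only [Finset.sum_const_zero, ← Finset.sum_filter, Finset.sum_const, nsmul_eq_mul] at htot
  have hpos : 0 < (Finset.univ.filter (fun x : E => x ∈ Subgroup.center E)).card :=
    Finset.card_pos.mpr ⟨1, by simp [one_mem]⟩
  have hcard : 0 < Fintype.card E := Fintype.card_pos
  have := mul_pos (Int.ofNat_lt.mpr hpos) (Int.ofNat_lt.mpr hcard)
  simp at this htot
  simp_all

end Cfsg.Agent.S5395
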