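import Cfsg.Statements.S5396
import Cfsg.Agent.Lib.PGroupFrattini
-- import your own Cfsg.Agent.* helpers here

set_option autoImplicit false
open Cfsg

namespace Cfsg.Agent.S5396

open scoped commutatorElement

/-- The underlying space. -/
abbrev V (n : ℕ) : Type := Fin n → ZMod 2 × ZMod 2

/-- The cocycle on one coordinate. -/
def β₁ (minus : Bool) (a b : ZMod 2 × ZMod 2) : ZMod 2 :=
  a.1 * b.2 + if minus then a.1 * b.1 + a.2 * b.2 else 0

theorem β₁_left : ∀ (s : Bool) (a b c : ZMod 2 × ZMod 2), β₁ s (a + b) c = β₁ s a c + β₁ s b c := by decide +kernel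
theorem β₁_right : ∀ (s : Bool) (a b c : ZMod 2 × ZMod 2), β₁ s a (b + c) = β₁ s a b + β₁ s a c := by decide +kernel

theorem two_cases : ∀ x : ZMod 2, x = 0 ∨ x = 1 := by decide

theorem comm_val : ∀ s : Bool, (1 : ZMod 2) = 0 + 0 + β₁ s (1, 0) (0, 1) + (0 + β₁ s (1, 0) (1, 0)) + β₁ s ((1, 0) + (0, 1)) (1, 0) + (0 + β₁ s (0, 1) (0, 1)) + β₁ s ((1, 0) + (0, 1) + (1, 0)) (0, 1) := by
  decide +kernel

variable (n : ℕ) [NeZero n] (m : Bool)

/-- The cocycle. -/
def β (v w : V n) : ZMod 2 := ∑ i, β₁ (m && decide (i = 0)) (v i) (w i)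

theorem β_left (u v w : V n) : β n m (u + v) w = β n m u w + β n m v w := by
  simp only [β, Pi.add_apply, β₁_left, Finset.sum_add_distrib]

theorem β_right (u v w : V n) : β n m u (v + w) = β n m u v + β n m u w := by
  simp only [β, Pi.add_apply, β₁_right, Finset.sum_add_distrib]

theorem β_zero_left (w : V n) : β n m 0 w = 0 := by
  have := β_left n m 0 0 w; rw [add_zero] at this; exact left_eq_add.1 this

theorem β_zero_right (w : V n) : β n m w 0 = 0 := by
  have := β_right n m w 0 0; rw [add_zero] at this; exact left_eq_add.1 this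

theorem addV_self (v : V n) : v + v = 0 :=
  funext fun i => (by decide : ∀ a : ZMod 2 × ZMod 2, a + a = 0) (v i)

/-- The commutator form. -/
def bf (v w : V n) : ZMod 2 := β n m v w + β n m w v

theorem bf_left (u v w : V n) : bf n m (u + v) w = bf n m u w + bf n m v w := by
  simp only [bf, β_left, β_right]; ring

theorem bf_comm (v w : V n) : bf n m v w = bf n m w v := add_comm _ _

theorem bf_right (u v w : V n) : bf n m u (v + w) = bf n m u v + bf n m u w := by
  simp only [bf_comm n m u, bf_left]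

theorem β_single_right (v : V n) (i : Fin n) (a : ZMod 2 × ZMod 2) :
    β n m v (Pi.single i a) = β₁ (m && decide (i = 0)) (v i) a := by
  rw [β, Finset.sum_eq_single i]
  · simp
  · intro j _ hj
    rw [Pi.single_eq_of_ne hj]
    exact (by decide +kernel : ∀ (s : Bool) (x : ZMod 2 × ZMod 2), β₁ s x 0 = 0) _ _
  · simp

theorem β_single_left (v : V n) (i : Fin n) (a : ZMod 2 × ZMod 2) :
    β n m (Pi.single i a) v = β₁ (m && decide (i = 0)) a (v i) := by
  rw [β, Finset.sum_eq_single i]
  · simp
  · intro j _ hj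
    rw [Pi.single_eq_of_ne hj]
    exact (by decide +kernel : ∀ (s : Bool) (x : ZMod 2 × ZMod 2), β₁ s 0 x = 0) _ _
  · simp

theorem bf_nondeg (v : V n) (h : ∀ w, bf n m v w = 0) : v = 0 := by
  funext i
  refine (by decide +kernel : ∀ (s : Bool) (x : ZMod 2 × ZMod 2), (∀ a, β₁ s x a + β₁ s a x = 0) → x = 0)
    (m && decide (i = 0)) (v i) fun a => ?_
  rw [← β_single_right, ← β_single_left]
  exact h _

/-- The group. -/
@[ext]
structure X (k : ℕ) (_sign : Bool) : Type where
  v : V k
  c : ZMod 2

instance : Mul (X n m) := ⟨fun p q => ⟨p.v + q.v, p.c + q.c + β n m p.v q.v⟩⟩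
instance : One (X n m) := ⟨⟨0, 0⟩⟩
instance : Inv (X n m) := ⟨fun p => ⟨p.v, p.c + β n m p.v p.v⟩⟩

theorem mul_v (p q : X n m) : (p * q).v = p.v + q.v := rfl
theorem mul_c (p q : X n m) : (p * q).c = p.c + q.c + β n m p.v q.v := rfl
theorem one_v : (1 : X n m).v = 0 := rfl
theorem one_c : (1 : X n m).c = 0 := rfl
theorem inv_v (p : X n m) : p⁻¹.v = p.v := rfl
theorem inv_c (p : X n m) : p⁻¹.c = p.c + β n m p.v p.v := rfl

instance : Group (X n m) := Group.ofLeftAxioms
  (fun a b c => by
    ext1
    · simp only [mul_v, add_assoc]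
    · simp only [mul_c, mul_v, β_left, β_right]; ring)
  (fun a => by
    ext1
    · simp only [mul_v, one_v, zero_add]
    · simp only [mul_c, one_c, one_v, β_zero_left, zero_add, add_zero])
  (fun a => by
    ext1
    · simp only [mul_v, inv_v, one_v, addV_self]
    · simp only [mul_c, inv_c, inv_v, one_c]
      exact (by decide : ∀ x y : ZMod 2, x + y + x + y = 0) _ _)

/-- The evident bijection. -/
def equivProd : X n m ≃ V n × ZMod 2 := ⟨fun p => (p.v, p.c), fun p => ⟨p.1, p.2⟩, fun _ => rfl, fun _ => rfl⟩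

instance : Finite (X n m) := Finite.of_equiv _ (equivProd n m).symm

theorem card_V : Fintype.card (V n) = 2 ^ (2 * n) := by
  rw [Fintype.card_fun, Fintype.card_prod, ZMod.card, Fintype.card_fin, pow_mul]; norm_num

theorem card_X : Nat.card (X n m) = 2 ^ (2 * n + 1) := by
  rw [Nat.card_congr (equivProd n m), Nat.card_prod, Nat.card_eq_fintype_card, card_V, Nat.card_zmod, pow_succ]

theorem commute_iff (p q : X n m) : p * q = q * p ↔ bf n m p.v q.v = 0 := by
  constructor
  · intro h
    have := congrArg X.c h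
    simp only [mul_c] at this
    exact (by decide : ∀ a b x y : ZMod 2, a + b + x = b + a + y → x + y = 0) _ _ _ _ this
  · intro h
    ext1
    · simp only [mul_v, add_comm]
    · simp only [mul_c]
      exact (by decide : ∀ a b x y : ZMod 2, x + y = 0 → a + b + x = b + a + y) _ _ _ _ h

theorem center_iff (p : X n m) : p ∈ Subgroup.center (X n m) ↔ p.v = 0 := by
  rw [Subgroup.mem_center_iff]
  constructor
  · intro h
    refine bf_nondeg n m _ fun w => ?_
    rw [bf_comm]
    exact (commute_iff n m ⟨w, 0⟩ p).1 (h _)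
  · intro h g
    rw [commute_iff, h, bf, β_zero_left, β_zero_right, add_zero]

theorem commutator_v (p q : X n m) : (p * q * p⁻¹ * q⁻¹).v = 0 := by
  simp only [mul_v, inv_v]
  exact funext fun i => (by decide : ∀ a b : ZMod 2 × ZMod 2, a + b + a + b = 0) (p.v i) (q.v i)

theorem extraspecial : Cfsg.IsExtraspecial 2 (X n m) := by
  haveI : Fact (Nat.Prime 2) := ⟨Nat.prime_two⟩
  have hp : IsPGroup 2 (X n m) := IsPGroup.of_card (card_X n m)
  have hle : commutator (X n m) ≤ Subgroup.center (X n m) := by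
    rw [commutator_def, Subgroup.commutator_le]
    intro a _ b _
    rw [center_iff, commutatorElement_def, commutator_v]
  have hge : Subgroup.center (X n m) ≤ commutator (X n m) := by
    intro p hp
    rw [center_iff] at hp
    let a : X n m := ⟨Pi.single 0 (1, 0), 0⟩
    let b : X n m := ⟨Pi.single 0 (0, 1), 0⟩
    have hm : (⟨0, 1⟩ : X n m) ∈ commutator (X n m) := by
      have : (⟨0, 1⟩ : X n m) = a * b * a⁻¹ * b⁻¹ := by
        ext1
        · exact (commutator_v n m a b).symm
        · simp only [mul_c, inv_c, mul_v, inv_v, β_left, a, b, β_single_right, Pi.single_eq_same]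
          simp only [Pi.add_apply, Pi.single_eq_same]
          exact comm_val _
      rw [this, ← commutatorElement_def, commutator_def]
      exact Subgroup.commutator_mem_commutator (Subgroup.mem_top _) (Subgroup.mem_top _)
    rcases two_cases p.c with h | h
    · rw [show p = 1 from X.ext hp h]; exact one_mem _
    · rw [show p = ⟨0, 1⟩ from X.ext hp h]; exact hm
  have heq := le_antisymm hle hge
  refine ⟨⟨hp, le_antisymm ?_ ?_, heq⟩, ?_⟩
  · refine Lib.PGroupFrattini.frattini_le Nat.prime_two _ hle fun x => ?_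
    rw [center_iff, pow_two, mul_v, addV_self]
  · exact hge.trans (Lib.PGroupFrattini.commutator_le_frattini hp)
  · let e : Subgroup.center (X n m) ≃ ZMod 2 :=
      { toFun := fun p => p.1.c
        invFun := fun c => ⟨⟨0, c⟩, (center_iff n m _).2 rfl⟩
        left_inv := fun p => Subtype.ext (X.ext ((center_iff n m _).1 p.2).symm rfl)
        right_inv := fun c => rfl }
    rw [Nat.card_congr e, Nat.card_zmod]

/-- The sign character. -/
def sg (x : ZMod 2) : ℤ := if x = 0 then 1 else -1

theorem sum_shift (W : Finset (V n)) (hadd : ∀ a ∈ W, ∀ b ∈ W, a + b ∈ W) (f : V n → ZMod 2)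
    (hf : ∀ a b, f (a + b) = f a + f b) (w₀ : V n) (hw₀ : w₀ ∈ W) (h1 : f w₀ = 1) : ∑ w ∈ W, sg (f w) = 0 := by
  have h : ∑ w ∈ W, sg (f w) = ∑ w ∈ W, -sg (f w) := by
    refine Finset.sum_bij' (fun w _ => w + w₀) (fun w _ => w + w₀) (fun w hw => hadd w hw _ hw₀)
      (fun w hw => hadd w hw _ hw₀) (fun w _ => by rw [add_assoc, addV_self, add_zero])
      (fun w _ => by rw [add_assoc, addV_self, add_zero]) (fun w _ => ?_)
    rw [hf, h1]
    exact (by decide : ∀ x : ZMod 2, sg x = -sg (x + 1)) _
  rw [Finset.sum_neg_distrib] at h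
  omega

theorem singular_bound (W : Finset (V n)) (h0 : 0 ∈ W) (hadd : ∀ a ∈ W, ∀ b ∈ W, a + b ∈ W)
    (hq : ∀ a ∈ W, β n m a a = 0) (hb : ∀ a ∈ W, ∀ b ∈ W, bf n m a b = 0) :
    W.card ≤ 2 ^ n ∧ (m = true → W.card < 2 ^ n) := by
  set P := Finset.univ.filter fun v => ∀ w ∈ W, bf n m v w = 0 with hP
  have hWP : W ⊆ P := fun v hv => Finset.mem_filter.2 ⟨Finset.mem_univ _, fun w hw => hb v hv w hw⟩
  have hone : ∀ x : ZMod 2, x ≠ 0 → x = 1 := by decide
  have e1 : (∑ v, ∑ w ∈ W, sg (bf n m v w)) = (P.card : ℤ) * W.card := by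
    rw [← Finset.sum_add_sum_compl P, Finset.sum_eq_zero (s := Pᶜ), add_zero,
      Finset.sum_congr rfl (g := fun _ => (W.card : ℤ))]
    · simp
    · intro v hv
      rw [Finset.sum_congr rfl (g := fun _ => (1 : ℤ)) (fun w hw => by rw [(Finset.mem_filter.1 hv).2 w hw]; rfl)]
      simp
    · intro v hv
      simp only [hP, Finset.mem_compl, Finset.mem_filter, Finset.mem_univ, true_and, not_forall] at hv
      obtain ⟨w, hw, hne⟩ := hv
      exact sum_shift n W hadd (fun w => bf n m v w) (fun a b => bf_right n m v a b) w hw (hone _ hne)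
  have e2 : (∑ v, ∑ w ∈ W, sg (bf n m v w)) = (Fintype.card (V n) : ℤ) := by
    rw [Finset.sum_comm, Finset.sum_eq_single_of_mem 0 h0]
    · simp [bf, β_zero_left, β_zero_right, sg]
    · intro w _ hne
      obtain ⟨v, hv⟩ : ∃ v, bf n m w v ≠ 0 := by
        by_contra h
        push Not at h
        exact hne (bf_nondeg n m w h)
      exact sum_shift n Finset.univ (fun _ _ _ _ => Finset.mem_univ _) (fun v => bf n m v w)
        (fun a b => bf_left n m a b w) v (Finset.mem_univ _) (hone _ (bf_comm n m v w ▸ hv))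
  have e3 : P.card * W.card = 2 ^ n * 2 ^ n := by
    rw [← pow_add, ← two_mul, ← card_V]
    exact_mod_cast e1.symm.trans e2
  have hle : W.card ≤ 2 ^ n := by
    by_contra hlt
    push Not at hlt
    have := Finset.card_le_card hWP
    exact absurd e3 (Nat.mul_lt_mul'' (hlt.trans_le this) hlt).ne'
  refine ⟨hle, fun hm => lt_of_le_of_ne hle fun heq => ?_⟩
  have hPW : P = W := by
    refine (Finset.eq_of_subset_of_card_le hWP ?_).symm
    rw [heq] at e3 ⊢
    exact (Nat.eq_of_mul_eq_mul_right (by positivity) e3).le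
  -- the sum of signs of the quadratic form
  have g1 : (∑ v, sg (β n m v v)) = ∏ i : Fin n, ∑ a, sg (β₁ (m && decide (i = 0)) a a) := by
    rw [Fintype.prod_sum]
    refine Finset.sum_congr rfl fun v _ => ?_
    rw [β]
    induction (Finset.univ : Finset (Fin n)) using Finset.induction_on with
    | empty => rfl
    | insert i s hi ih =>
      rw [Finset.sum_insert hi, Finset.prod_insert hi, ← ih]
      exact (by decide : ∀ x y : ZMod 2, sg (x + y) = sg x * sg y) _ _
  have gneg : (∑ v, sg (β n m v v)) < 0 := by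
    rw [g1, hm, ← Finset.mul_prod_erase _ _ (Finset.mem_univ (0 : Fin n))]
    refine mul_neg_of_neg_of_pos ?_ (Finset.prod_pos fun i hi => ?_)
    · rw [show (true && decide ((0 : Fin n) = 0)) = true by simp]; decide
    · rw [show (true && decide (i = 0)) = false by simp [Finset.ne_of_mem_erase hi]]; decide
  have gW : (W.card : ℤ) * (∑ v, sg (β n m v v)) = (W.card : ℤ) * W.card := by
    calc (W.card : ℤ) * (∑ v, sg (β n m v v)) = ∑ w ∈ W, ∑ v, sg (β n m (v + w) (v + w)) := by
          rw [Finset.sum_congr rfl (g := fun _ => ∑ v, sg (β n m v v)) (fun w _ =>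
            show ∑ v, sg (β n m (v + w) (v + w)) = _ from
              Equiv.sum_comp (Equiv.addRight w) (fun v => sg (β n m v v)))]
          simp
      _ = ∑ v, sg (β n m v v) * ∑ w ∈ W, sg (bf n m v w) := by
          rw [Finset.sum_comm]
          refine Finset.sum_congr rfl fun v _ => ?_
          rw [Finset.mul_sum]
          refine Finset.sum_congr rfl fun w hw => ?_
          rw [β_left, β_right, β_right, hq w hw, add_zero, bf]
          exact (by decide : ∀ x y z : ZMod 2, sg (x + y + z) = sg x * sg (y + z)) _ _ _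
      _ = ∑ v ∈ W, sg (β n m v v) * ∑ w ∈ W, sg (bf n m v w) := by
          refine (Finset.sum_subset (Finset.subset_univ W) fun v _ hv => ?_).symm
          rw [← hPW, hP, Finset.mem_filter] at hv
          simp only [Finset.mem_univ, true_and, not_forall] at hv
          obtain ⟨w, hw, hne⟩ := hv
          rw [sum_shift n W hadd (fun w => bf n m v w) (fun a b => bf_right n m v a b) w hw (hone _ hne), mul_zero]
      _ = _ := by
          rw [Finset.sum_congr rfl (g := fun _ => (W.card : ℤ)) fun v hv => ?_]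
          · simp
          rw [hq v hv, Finset.sum_congr rfl (g := fun _ => (1 : ℤ)) (fun w hw => by rw [hb v hv w hw]; rfl)]
          simp [sg]
  have hpos : (0 : ℤ) < W.card := by exact_mod_cast Finset.card_pos.2 ⟨0, h0⟩
  nlinarith

theorem upper (k : ℕ) (hk : k ∈ {k : ℕ | ∃ A : Subgroup (X n m), Cfsg.IsElementaryAbelian 2 A ∧ Nat.card A = 2 ^ k}) :
    k ≤ if m then n else n + 1 := by
  obtain ⟨A, ⟨hcomm, hexp⟩, hcard⟩ := hk
  haveI := Fintype.ofFinite A
  let W : Finset (V n) := Finset.univ.image fun a : A => a.1.v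
  have hb := singular_bound n m W (Finset.mem_image.2 ⟨1, Finset.mem_univ _, rfl⟩)
    (by
      intro a ha b hb
      simp only [W, Finset.mem_image, Finset.mem_univ, true_and] at ha hb ⊢
      obtain ⟨a, rfl⟩ := ha; obtain ⟨b, rfl⟩ := hb
      exact ⟨a * b, rfl⟩)
    (by
      intro a ha
      simp only [W, Finset.mem_image, Finset.mem_univ, true_and] at ha
      obtain ⟨a, rfl⟩ := ha
      have := congrArg X.c (hexp a.1 a.2)
      rw [pow_two, mul_c, one_c] at this
      exact (by decide : ∀ c x : ZMod 2, c + c + x = 0 → x = 0) _ _ this)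
    (by
      intro a ha b hb
      simp only [W, Finset.mem_image, Finset.mem_univ, true_and] at ha hb
      obtain ⟨a, rfl⟩ := ha; obtain ⟨b, rfl⟩ := hb
      exact (commute_iff n m a.1 b.1).1 (congrArg Subtype.val (hcomm.is_comm.comm a b)))
  have hle : Nat.card A ≤ W.card * 2 := by
    rw [Nat.card_eq_fintype_card, ← Finset.card_univ, show W.card * 2 = (W ×ˢ (Finset.univ : Finset (ZMod 2))).card by simp]
    refine Finset.card_le_card_of_injOn (fun a => (a.1.v, a.1.c)) (fun a _ => by simp [W]) ?_
    intro a _ b _ e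
    simp only [Prod.mk.injEq] at e
    exact Subtype.ext (X.ext e.1 e.2)
  rw [hcard] at hle
  cases m
  · simp only [Bool.false_eq_true, if_false]
    refine (Nat.pow_le_pow_iff_right (by norm_num : 1 < 2)).1 ?_
    rw [pow_succ]; omega
  · simp only [if_true]
    have := hb.2 rfl
    have h2 : 2 ^ k < 2 ^ (n + 1) := by rw [pow_succ]; omega
    have := (Nat.pow_lt_pow_iff_right (by norm_num : 1 < 2)).1 h2
    omega

theorem lower : (if m then n else n + 1) ∈ {k : ℕ | ∃ A : Subgroup (X n m), Cfsg.IsElementaryAbelian 2 A ∧ Nat.card A = 2 ^ k} := by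
  let S : Fin n → ZMod 2 × ZMod 2 → Prop := fun i a => a.2 = 0 ∧ (m = true → i = 0 → a.1 = 0)
  have hS : ∀ v w : V n, (∀ i, S i (v i)) → (∀ i, S i (w i)) → β n m v w = 0 := by
    intro v w hv hw
    refine Finset.sum_eq_zero fun i _ => ?_
    obtain ⟨a2, a1⟩ := hv i
    obtain ⟨b2, b1⟩ := hw i
    by_cases h : m = true ∧ i = 0
    · simp [β₁, a2, b2, a1 h.1 h.2]
    · rw [show (m && decide (i = 0)) = false by simpa [not_and] using h]
      simp [β₁, a2, b2]
  let A : Subgroup (X n m) :=
    { carrier := {p | ∀ i, S i (p.v i)}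
      one_mem' := fun i => ⟨rfl, fun _ _ => rfl⟩
      mul_mem' := fun {a b} ha hb i => ⟨by rw [mul_v, Pi.add_apply, Prod.snd_add, (ha i).1, (hb i).1, add_zero],
        fun h h' => by rw [mul_v, Pi.add_apply, Prod.fst_add, (ha i).2 h h', (hb i).2 h h', add_zero]⟩
      inv_mem' := fun {a} ha => ha }
  refine ⟨A, ⟨⟨⟨fun a b => Subtype.ext ((commute_iff n m _ _).2 ?_)⟩⟩, fun a ha => ?_⟩, ?_⟩
  · rw [bf, hS _ _ a.2 b.2, hS _ _ b.2 a.2, add_zero]
  · rw [pow_two]
    refine X.ext (by rw [mul_v, addV_self, one_v]) ?_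
    rw [mul_c, hS _ _ ha ha, one_c, add_zero]
    exact CharTwo.add_self_eq_zero _
  · let T : Fin n → Finset (ZMod 2) := fun i => if m = true ∧ i = 0 then {0} else Finset.univ
    let e : A ≃ (∀ i, T i) × ZMod 2 :=
      { toFun := fun a => (fun i => ⟨(a.1.v i).1, by
          by_cases h : m = true ∧ i = 0
          · simp only [T, if_pos h, Finset.mem_singleton]; exact (a.2 i).2 h.1 h.2
          · simp [T, h]⟩, a.1.c)
        invFun := fun p => ⟨⟨fun i => ((p.1 i).1, 0), p.2⟩, fun i => ⟨rfl, fun hm hi => by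
          have : ∀ x ∈ T i, x = 0 := fun x hx => by simpa [T, hm, hi] using hx
          exact this _ (p.1 i).2⟩⟩
        left_inv := fun a => Subtype.ext (X.ext (funext fun i => Prod.ext rfl (a.2 i).1.symm) rfl)
        right_inv := fun p => rfl }
    rw [Nat.card_congr e, Nat.card_prod, Nat.card_pi, Nat.card_zmod,
      ← Finset.mul_prod_erase _ _ (Finset.mem_univ (0 : Fin n)),
      Finset.prod_congr rfl (g := fun _ => 2) (fun i hi => by
        rw [Nat.card_eq_fintype_card, Fintype.card_coe]
        simp [T, Finset.ne_of_mem_erase hi]),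
      Finset.prod_const, Finset.card_erase_of_mem (Finset.mem_univ _), Finset.card_univ, Fintype.card_fin,
      Nat.card_eq_fintype_card, Fintype.card_coe]
    obtain ⟨k, hk⟩ : ∃ k, n = k + 1 := ⟨n - 1, by have := NeZero.ne n; omega⟩
    cases m <;> simp [T, hk, pow_succ] <;> ring

/-- For every n ≥ 1 there exist finite extraspecial 2-groups of order 2^(2n+1) whose 2-rank (the largest rank of an elementary abelian subgroup) is n, and ones whose 2-rank is n + 1 (so for each such order there are two non-isomorphic extraspecial 2-groups, told apart by their 2-rank). -/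
theorem result (n : ℕ) (hn : 1 ≤ n) : ∀ r ∈ ({n, n + 1} : Set ℕ), ∃ (E : Type) (_ : Group E) (_ : Finite E), Cfsg.IsExtraspecial 2 E ∧ Nat.card E = 2 ^ (2 * n + 1) ∧ sSup {k : ℕ | ∃ A : Subgroup E, Cfsg.IsElementaryAbelian 2 A ∧ Nat.card A = 2 ^ k} = r := by
  classical
  intro r hr
  -- `m = true` selects minus type on coordinate zero
  suffices key : ∀ m : Bool, ∃ (E : Type) (_ : Group E) (_ : Finite E), Cfsg.IsExtraspecial 2 E ∧ Nat.card E = 2 ^ (2 * n + 1) ∧
      sSup {k : ℕ | ∃ A : Subgroup E, Cfsg.IsElementaryAbelian 2 A ∧ Nat.card A = 2 ^ k} = if m then n else n + 1 by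
    rcases hr with rfl | hr
    · simpa using key true
    · rw [Set.mem_singleton_iff] at hr; subst hr; simpa using key false
  intro m
  haveI : NeZero n := ⟨by omega⟩
  refine ⟨X n m, inferInstance, inferInstance, extraspecial n m, card_X n m, ?_⟩
  refine IsGreatest.csSup_eq ⟨?_, ?_⟩
  · exact lower n m
  · exact fun k hk => upper n m k hk

end Cfsg.Agent.S5396
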