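import Cfsg.Statements.S5398
import Cfsg.Agent.Lib.Involution.FischerClasses

set_option autoImplicit false
open Cfsg

namespace Cfsg.Agent.S5398

/-- Let G be a finite group with trivial centre generated by a conjugation-invariant set D of 3-transpositions on which it acts primitively, such that for some d in D the subgroup generated by the members of D other than d commuting with d has central largest normal 2- and 3-subgroups, and suppose G with D is of type M(22). Then G has exactly 3 conjugacy classes of involutions: every involution is a product of m distinct pairwise commuting members of D for some m between 1 and 3; for each such m these products form one non-empty conjugacy class; and the value of m is determined by the involution. -/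
theorem result {G : Type*} [Group G] [Finite G] {D : Set G} (hD : Cfsg.IsThreeTranspositionGroup D) (hprim : Cfsg.IsPrimitiveUnderConj D) (d : G) (hd : d ∈ D) (h3 : Cfsg.pCore 3 ↥(Subgroup.closure {y : G | y ∈ D ∧ y ≠ d ∧ Commute d y}) ≤ Subgroup.center ↥(Subgroup.closure {y : G | y ∈ D ∧ y ≠ d ∧ Commute d y})) (h2 : Cfsg.pCore 2 ↥(Subgroup.closure {y : G | y ∈ D ∧ y ≠ d ∧ Commute d y}) ≤ Subgroup.center ↥(Subgroup.closure {y : G | y ∈ D ∧ y ≠ d ∧ Commute d y})) (ht : Cfsg.IsOfTypeM22 G D) : (∀ x : G, orderOf x = 2 → ∃ m : ℕ, 1 ≤ m ∧ m ≤ 3 ∧ (∃ l : List G, l.Nodup ∧ l.length = m ∧ (∀ a ∈ l, a ∈ D) ∧ (∀ a ∈ l, ∀ b ∈ l, Commute a b) ∧ l.prod = x)) ∧ (∀ m : ℕ, 1 ≤ m → m ≤ 3 → (∃ x : G, orderOf x = 2 ∧ (∃ l : List G, l.Nodup ∧ l.length = m ∧ (∀ a ∈ l, a ∈ D) ∧ (∀ a ∈ l, ∀ b ∈ l, Commute a b) ∧ l.prod = x)) ∧ ∀ x y : G, (∃ l : List G, l.Nodup ∧ l.length = m ∧ (∀ a ∈ l, a ∈ D) ∧ (∀ a ∈ l, ∀ b ∈ l, Commute a b) ∧ l.prod = x) → (∃ l : List G, l.Nodup ∧ l.length = m ∧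 (∀ a ∈ l, a ∈ D) ∧ (∀ a ∈ l, ∀ b ∈ l, Commute a b) ∧ l.prod = y) → IsConj x y) ∧ ∀ (m m' : ℕ) (x : G), 1 ≤ m → m ≤ 3 → 1 ≤ m' → m' ≤ 3 → (∃ l : List G, l.Nodup ∧ l.length = m ∧ (∀ a ∈ l, a ∈ D) ∧ (∀ a ∈ l, ∀ b ∈ l, Commute a b) ∧ l.prod = x) → (∃ l : List G, l.Nodup ∧ l.length = m' ∧ (∀ a ∈ l, a ∈ D) ∧ (∀ a ∈ l, ∀ b ∈ l, Commute a b) ∧ l.prod = x) → m = m' := by
  open Cfsg.Agent.Lib.Involution.FischerTwentyTwo Cfsg.Agent.Lib.ThreeTransp in
  exact
    have M : Hyp D := ⟨hD, hprim, ht⟩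
    ⟨fun x hx => involution_prod M hx,
      fun m h1 h3' => ⟨by
        obtain ⟨x, l, hn, hl, hm, hc, hp⟩ := isProd_exists M hd m h1 h3'
        refine ⟨x, ?_, l, hn, hl, hm, hc, hp⟩
        have hxx : x * x = 1 := hp ▸ prod_mul_self' M.tr l hm hc
        refine orderOf_eq_prime (by rw [pow_two, hxx]) fun e => ?_
        have hx : IsProd D m x := ⟨l, hn, hl, hm, hc, hp⟩
        have h1c : conjugatesOf (1 : G) = {1} := Set.ext fun y => by simp [conjugatesOf, isConj_one_right]
        interval_cases m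
        · have := M.tr.1 x hx.one_elim
          rw [e, orderOf_one] at this
          omega
        · have := class_two M hx
          rw [e, h1c, Set.ncard_singleton] at this
          omega
        · have := class_three M hx
          rw [e, h1c, Set.ncard_singleton] at this
          omega, fun x y hx hy => isConj_of_isProd M h1 h3' hx hy⟩,
      fun m m' x h1 h3' h1' h3'' hx hx' => isProd_unique M h1 h3' h1' h3'' hx hx'⟩

end Cfsg.Agent.S5398
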