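import Cfsg.Statements.S5405
import Cfsg.Agent.Lib.OrthCocycle.Eight
import Cfsg.Agent.Lib.OrthCocycle.EightRel
import Cfsg.Agent.Lib.OrthCocycle.IsoFour
import Cfsg.Agent.Lib.Classical.QuadF2
-- import your own Cfsg.Agent.* helpers here

set_option autoImplicit false
open scoped MatrixGroups
open Cfsg

namespace Cfsg.Agent.S5405

open Agent.Lib.OrthCocycle Agent.Lib.Classical.Quad Agent.Lib.Classical.QuadOmega Agent.Lib.Classical.QuadF2

theorem gen_of_reg {ι : Type} [Fintype ι] [DecidableEq ι] {n : ℕ} (e : Fin n ≃ ι) (R : QuadraticForm (ZMod 2) (ι → ZMod 2))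
    (hR : Nd R) (hreg : Reg (ZMod 2) (ι → ZMod 2)) (q : ℕ → Bool) (hq : ∀ m < 2 ^ n, R (vec e m) = if q m then 1 else 0) :
    Subgroup.closure {g : Cfsg.isometryGroup (ZMod 2) ⇑R | ∃ v < 2 ^ n, q v = true ∧ g = (matEquiv R).symm (refl R (vec e v))} = ⊤ := by
  rw [eq_top_iff, ← closure_reflection_eq_top R hR hreg]
  refine Subgroup.closure_mono ?_
  rintro g ⟨v, hv, hg⟩
  obtain ⟨m, hm, rfl⟩ := vec_surj e v
  refine ⟨m, hm, ?_, ?_⟩
  · cases h : q m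
    · rw [hq m hm, h] at hv; exact absurd rfl hv
    · rfl
  · exact ((MulEquiv.symm_apply_eq _).2 ((coe_eq_reflection_iff R hv g).1 hg).symm).symm

theorem aniso : Aniso (1 : ZMod 2) 1 := by
  unfold Aniso; decide

theorem six (f : ↥(commutator ↥(Cfsg.isometryGroup (ZMod 2) ⇑(minusQ 2 (1 : ZMod 2) 1))) → ((Fin 2 ⊕ Fin 2) ⊕ Fin 2 → ZMod 2))
    (hf : ∀ g h, f (g * h) = f g + Matrix.mulVec (mat (minusQ 2 (1 : ZMod 2) 1) g) (f h)) :
    ∃ v, ∀ g, f g = Matrix.mulVec (mat (minusQ 2 (1 : ZMod 2) 1) g) v - v := by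
  have hq : ∀ m < 2 ^ 6, minusQ 2 (1 : ZMod 2) 1 (vec (eMin 2) m) = if qSix m then 1 else 0 := fun m hm => by
    rw [minusQ_apply]; exact q_six ⟨m, hm⟩
  have h := pairs_ok
  have h' := cert_six
  simp only [Bool.and_eq_true] at h h'
  exact principal hq laSix lbSix baseSix genSix relSix h.1.1.1.2 h.1.1.2 h'.1 h'.2
    (gen_of_reg _ _ (nd_minusQ aniso 2) (Or.inr (by simp [Module.finrank_fintype_fun_eq_card])) _ hq) f hf

theorem eight (f : ↥(commutator ↥(Cfsg.isometryGroup (ZMod 2) ⇑(plusQ 4 (ZMod 2)))) → (Fin 4 ⊕ Fin 4 → ZMod 2))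
    (hf : ∀ g h, f (g * h) = f g + Matrix.mulVec (mat (plusQ 4 (ZMod 2)) g) (f h)) :
    ∃ v, ∀ g, f g = Matrix.mulVec (mat (plusQ 4 (ZMod 2)) g) v - v := by
  have hq : ∀ m < 2 ^ 8, plusQ 4 (ZMod 2) (vec (ePl 4) m) = if qEight m then 1 else 0 := fun m hm => by
    rw [plusQ_apply]; exact q_eight ⟨m, hm⟩
  have h := pairs_ok
  simp only [Bool.and_eq_true] at h
  exact principal hq laEight lbEight baseEight genEight relEight h.1.2 h.2 gen_eight rel_eight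
    (gen_of_reg _ _ (nd_plusQ 4) (Or.inr (by simp [Module.finrank_fintype_fun_eq_card])) _ hq) f hf

theorem gen_four (e : Fin 4 ≃ (Fin 1 ⊕ Fin 1) ⊕ Fin 2) (R : QuadraticForm (ZMod 2) ((Fin 1 ⊕ Fin 1) ⊕ Fin 2 → ZMod 2))
    (hq : ∀ m < 2 ^ 4, R (vec e m) = if qFour m then 1 else 0) :
    Subgroup.closure {g : Cfsg.isometryGroup (ZMod 2) ⇑R | ∃ v < 2 ^ 4, qFour v = true ∧ g = (matEquiv R).symm (refl R (vec e v))} = ⊤ := by
  rw [eq_top_iff]
  intro g _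
  choose L hLlt hL using fun m : ℕ => vec_surj e (Matrix.mulVec (mat R g) (vec e m))
  have hcomb : ∀ x < 2 ^ 4, L x = combFour (L 1) (L 2) (L 4) (L 8) x := by
    intro x hx
    have hlt : ∀ (b : Bool) (a : ℕ), a < 2 ^ 4 → (if b then a else 0) < 2 ^ 4 := fun b a ha => by
      cases b
      · simp
      · exact ha
    refine vec_inj e (hLlt x) ?_ ?_
    · exact Nat.xor_lt_two_pow (Nat.xor_lt_two_pow (Nat.xor_lt_two_pow (hlt _ _ (hLlt 1)) (hlt _ _ (hLlt 2))) (hlt _ _ (hLlt 4))) (hlt _ _ (hLlt 8))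
    · have key : ∀ (b : Bool) (a : ℕ), vec e (if b then L a else 0) = Matrix.mulVec (mat R g) (vec e (if b then a else 0)) := fun b a => by
        cases b
        · simp [vec_zero]
        · exact hL a
      have hdec : ∀ y < 16, y = (if y.testBit 0 then 1 else 0) ^^^ (if y.testBit 1 then 2 else 0) ^^^ (if y.testBit 2 then 4 else 0) ^^^
          (if y.testBit 3 then 8 else 0) := by decide
      unfold combFour
      rw [hL, vec_xor, vec_xor, vec_xor, key, key, key, key, ← Matrix.mulVec_add, ← Matrix.mulVec_add, ← Matrix.mulVec_add,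
        ← vec_xor, ← vec_xor, ← vec_xor, ← hdec x hx]
  have hqL : ∀ x < 2 ^ 4, qFour (L x) = qFour x := by
    intro x hx
    have h1 : R (vec e (L x)) = R (vec e x) := by rw [hL]; exact g.2 (vec e x) (vec e x)
    rw [hq _ (hLlt x), hq x hx] at h1
    cases h2 : qFour (L x) <;> cases h3 : qFour x <;> rw [h2, h3] at h1 <;> first | rfl | exact absurd h1 (by decide)
  have hpair : ∀ a b : ℕ, a < 2 ^ 4 → b < 2 ^ 4 → pairOk (L a) (L b) a b = true := by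
    intro a b ha hb
    have hab := Nat.xor_lt_two_pow ha hb
    have : L (a ^^^ b) = L a ^^^ L b := vec_inj e (hLlt _) (Nat.xor_lt_two_pow (hLlt a) (hLlt b))
      (by rw [vec_xor, hL, hL, hL, vec_xor, Matrix.mulVec_add])
    simp only [pairOk, Bool.and_eq_true, beq_iff_eq]
    exact ⟨hqL a ha, this ▸ hqL _ hab⟩
  have hiso := iso_four
  simp only [List.all_eq_true, List.mem_range, Bool.or_eq_true, Bool.not_eq_true', Bool.and_eq_false_iff, List.contains_iff_mem] at hiso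
  have hp' : ∀ a b : ℕ, a < 2 ^ 4 → b < 2 ^ 4 → ¬ pairOk (L a) (L b) a b = false := fun a b ha hb => by simp [hpair a b ha hb]
  have hmem : [L 1, L 2, L 4, L 8] ∈ imgFour := by
    rcases hiso (L 1) (hLlt 1) (L 2) (hLlt 2) with (h | h) | h
    · exact absurd h (hp' 1 2 (by norm_num) (by norm_num))
    · exact absurd h (hp' 2 1 (by norm_num) (by norm_num))
    rcases h (L 4) (hLlt 4) with (h | h) | h
    · exact absurd h (hp' 4 1 (by norm_num) (by norm_num))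
    · exact absurd h (hp' 4 2 (by norm_num) (by norm_num))
    rcases h (L 8) (hLlt 8) with ((h | h) | h) | h
    · exact absurd h (hp' 8 1 (by norm_num) (by norm_num))
    · exact absurd h (hp' 8 2 (by norm_num) (by norm_num))
    · exact absurd h (hp' 8 4 (by norm_num) (by norm_num))
    · exact h
  obtain ⟨i, hi, hie⟩ := List.getElem_of_mem hmem
  have hok := img_ok
  simp only [List.all_eq_true, Bool.and_eq_true, beq_iff_eq, Nat.blt_eq] at hok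
  obtain ⟨hok1, hok2⟩ := hok (imgFour[i], tableFour[i]'(img_length ▸ hi)) (List.mem_iff_getElem.2 ⟨i, by simpa [img_length] using hi, by simp⟩)
  rw [hie] at hok2
  set w := tableFour[i]'(img_length ▸ hi)
  set P := (w.map fun v => (matEquiv R).symm (refl R (vec e v))).prod
  have hP : ∀ l : List ℕ, (∀ v ∈ l, v < 16 ∧ qFour v = true) →
      Act e R (l.map fun v => (matEquiv R).symm (refl R (vec e v))).prod (fun x => l.foldr (rfl' qFour) x) := by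
    intro l
    induction l with
    | nil => exact fun _ => Act.one
    | cons a l ih =>
      intro hl
      exact (refl_act hq (hl a List.mem_cons_self).1 (hl a List.mem_cons_self).2).mul (ih fun v hv => hl v (List.mem_cons_of_mem _ hv))
  have hg : Act e R g L := fun m _ => ⟨hLlt m, (hL m).symm⟩
  have heq : g = P := hg.eq (hP w hok1) fun j hj => by
    have := hok2
    simp only [List.map_cons, List.map_nil, List.cons.injEq, and_true] at this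
    obtain ⟨e1, e2, e3, e4⟩ := this
    interval_cases j
    · exact e1.symm
    · exact e2.symm
    · exact e3.symm
    · exact e4.symm
  rw [heq]
  refine list_prod_mem fun x hx => ?_
  obtain ⟨v, hv, rfl⟩ := List.mem_map.1 hx
  exact Subgroup.subset_closure ⟨v, (hok1 v hv).1, (hok1 v hv).2, rfl⟩

theorem four (f : ↥(commutator ↥(Cfsg.isometryGroup (ZMod 2) ⇑(minusQ 1 (1 : ZMod 2) 1))) → ((Fin 1 ⊕ Fin 1) ⊕ Fin 2 → ZMod 2))
    (hf : ∀ g h, f (g * h) = f g + Matrix.mulVec (mat (minusQ 1 (1 : ZMod 2) 1) g) (f h)) :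
    ∃ v, ∀ g, f g = Matrix.mulVec (mat (minusQ 1 (1 : ZMod 2) 1) g) v - v := by
  have hq : ∀ m < 2 ^ 4, minusQ 1 (1 : ZMod 2) 1 (vec (eMin 1) m) = if qFour m then 1 else 0 := fun m hm => by
    rw [minusQ_apply]; exact q_four ⟨m, hm⟩
  have h := pairs_ok
  have h' := cert_four
  simp only [Bool.and_eq_true] at h h'
  exact principal hq laFour lbFour baseFour genFour relFour h.1.1.1.1.1 h.1.1.1.1.2 h'.1 h'.2 (gen_four _ _ hq) f hf

/-- Vanishing of first cohomology on the natural module for three small orthogonal groups over the field with two elements: for the commutator subgroup of the isometry group of the elliptic quadratic form in dimension 4, of the elliptic form in dimension 6, and of the hyperbolic form in dimension 8, every crossed homomorphism into the natural module (a map f with f(gh) = f(g) + g·f(h)) is principal (of the form g ↦ g·v − v). -/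
theorem result : (∀ f : ↥(Cfsg.Omega (ZMod 2) (Cfsg.quadFormMinus 1 (ZMod 2) 1 1)) → ((Fin 1 ⊕ Fin 1) ⊕ Fin 2 → ZMod 2), (∀ g h : ↥(Cfsg.Omega (ZMod 2) (Cfsg.quadFormMinus 1 (ZMod 2) 1 1)), f (g * h) = f g + Matrix.mulVec (((g : ↥(Cfsg.isometryGroup (ZMod 2) (Cfsg.quadFormMinus 1 (ZMod 2) 1 1))) : GL ((Fin 1 ⊕ Fin 1) ⊕ Fin 2) (ZMod 2)) : Matrix ((Fin 1 ⊕ Fin 1) ⊕ Fin 2) ((Fin 1 ⊕ Fin 1) ⊕ Fin 2) (ZMod 2)) (f h)) → ∃ v : (Fin 1 ⊕ Fin 1) ⊕ Fin 2 → ZMod 2, ∀ g : ↥(Cfsg.Omega (ZMod 2) (Cfsg.quadFormMinus 1 (ZMod 2) 1 1)), f g = Matrix.mulVec (((g : ↥(Cfsg.isometryGroup (ZMod 2) (Cfsg.quadFormMinus 1 (ZMod 2) 1 1))) : GL ((Fin 1 ⊕ Fin 1) ⊕ Fin 2) (ZMod 2)) : Matrix ((Fin 1 ⊕ Fin 1) ⊕ Fin 2) ((Fin 1 ⊕ Fin 1) ⊕ Fin 2) (ZMod 2)) v - v) ∧ (∀ f : ↥(Cfsg.Omega (ZMod 2) (Cfsg.quadFormMinus 2 (ZMod 2) 1 1)) → ((Fin 2 ⊕ Fin 2) ⊕ Fin 2 → ZMod 2), (∀ g h : ↥(Cfsg.Omega (ZMod 2) (Cfsg.quadFormMinus 2 (ZMod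 2) 1 1)), f (g * h) = f g + Matrix.mulVec (((g : ↥(Cfsg.isometryGroup (ZMod 2) (Cfsg.quadFormMinus 2 (ZMod 2) 1 1))) : GL ((Fin 2 ⊕ Fin 2) ⊕ Fin 2) (ZMod 2)) : Matrix ((Fin 2 ⊕ Fin 2) ⊕ Fin 2) ((Fin 2 ⊕ Fin 2) ⊕ Fin 2) (ZMod 2)) (f h)) → ∃ v : (Fin 2 ⊕ Fin 2) ⊕ Fin 2 → ZMod 2, ∀ g : ↥(Cfsg.Omega (ZMod 2) (Cfsg.quadFormMinus 2 (ZMod 2) 1 1)), f g = Matrix.mulVec (((g : ↥(Cfsg.isometryGroup (ZMod 2) (Cfsg.quadFormMinus 2 (ZMod 2) 1 1))) : GL ((Fin 2 ⊕ Fin 2) ⊕ Fin 2) (ZMod 2)) : Matrix ((Fin 2 ⊕ Fin 2) ⊕ Fin 2) ((Fin 2 ⊕ Fin 2) ⊕ Fin 2) (ZMod 2)) v - v) ∧ (∀ f : ↥(Cfsg.Omega (ZMod 2) (Cfsg.quadFormPlus 4 (ZMod 2))) → (Fin 4 ⊕ Fin 4 → ZMod 2), (∀ g h : ↥(Cfsg.Omega (ZMod 2) (Cfsg.quadFormPlus 4 (ZMod 2))), f (g * h) = f g + Matrix.mulVec (((g : ↥(Cfsg.isometryGroup (ZMod 2) (Cfsg.quadFormPlus 4 (ZMod 2)))) : GL (Fin 4 ⊕ Fin 4) (ZMod 2)) : Matrix (Fin 4 ⊕ Fin 4) (Fin 4 ⊕ Fin 4) (ZMod 2)) (f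 h)) → ∃ v : Fin 4 ⊕ Fin 4 → ZMod 2, ∀ g : ↥(Cfsg.Omega (ZMod 2) (Cfsg.quadFormPlus 4 (ZMod 2))), f g = Matrix.mulVec (((g : ↥(Cfsg.isometryGroup (ZMod 2) (Cfsg.quadFormPlus 4 (ZMod 2)))) : GL (Fin 4 ⊕ Fin 4) (ZMod 2)) : Matrix (Fin 4 ⊕ Fin 4) (Fin 4 ⊕ Fin 4) (ZMod 2)) v - v) := by
  open Agent.Lib.OrthCocycle Agent.Lib.Classical.Quad Agent.Lib.Classical.QuadOmega Agent.Lib.Classical.QuadF2 in
  rw [show Cfsg.quadFormMinus 1 (ZMod 2) 1 1 = ⇑(minusQ 1 (1 : ZMod 2) 1) from funext fun v => (minusQ_apply 1 1 1 v).symm,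
    show Cfsg.quadFormMinus 2 (ZMod 2) 1 1 = ⇑(minusQ 2 (1 : ZMod 2) 1) from funext fun v => (minusQ_apply 2 1 1 v).symm,
    show Cfsg.quadFormPlus 4 (ZMod 2) = ⇑(plusQ 4 (ZMod 2)) from funext fun v => (plusQ_apply 4 v).symm]
  open Agent.Lib.OrthCocycle Agent.Lib.Classical.Quad Agent.Lib.Classical.QuadOmega Agent.Lib.Classical.QuadF2 in
  exact ⟨four, six, eight⟩

end Cfsg.Agent.S5405
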