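import Cfsg.Statements.S5406
import Cfsg.Agent.Lib.Monster.Classes
-- import your own Cfsg.Agent.* helpers here

set_option autoImplicit false
open Cfsg

namespace Cfsg.Agent.S5406

/-- Let G be a finite group of Monster type at the involution z with Q the extraspecial normal subgroup of order 2^25 of C = C_G(z) (so C/Q is identified with the first Conway group with Q modulo its centre the Leech lattice modulo 2, and z is not weakly closed in Q). Then C acts transitively by conjugation on the conjugates of z that lie in Q and differ from z. -/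
theorem result {G : Type*} [Group G] [Finite G] (z : G) (Q : Subgroup (Subgroup.centralizer ({z} : Set G))) [Q.Normal] (hM : Cfsg.IsOfMonsterType z Q) (s t : G) (hsQ : ∃ hsc : s ∈ Subgroup.centralizer ({z} : Set G), (⟨s, hsc⟩ : Subgroup.centralizer ({z} : Set G)) ∈ Q) (htQ : ∃ htc : t ∈ Subgroup.centralizer ({z} : Set G), (⟨t, htc⟩ : Subgroup.centralizer ({z} : Set G)) ∈ Q) (hs : IsConj z s) (ht : IsConj z t) (hs1 : s ≠ z) (ht1 : t ≠ z) : ∃ h ∈ Subgroup.centralizer ({z} : Set G), h * s * h⁻¹ = t := by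
  obtain ⟨hS, e, ψ, hψ⟩ := hM
  obtain ⟨hsc, hsq⟩ := hsQ
  obtain ⟨htc, htq⟩ := htQ
  obtain ⟨g1, hg1⟩ := isConj_iff.1 hs
  obtain ⟨g2, hg2⟩ := isConj_iff.1 ht
  obtain ⟨v, hv, hva⟩ := Lib.Monster.conj_rep hS hψ (a := ⟨_, hsq⟩) hg1 hs1
  obtain ⟨w, hw, hwb⟩ := Lib.Monster.conj_rep hS hψ (a := ⟨_, htq⟩) hg2 ht1
  obtain ⟨h1, h2⟩ := Lib.Monster.four_ne hS hψ hw hwb
  obtain ⟨h, hh⟩ := Lib.Monster.conj_four hS hψ hv hw hva hwb h1 h2
  exact ⟨h, h.2, hh⟩

end Cfsg.Agent.S5406
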