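import Cfsg.Statements.S5410
import Cfsg.Agent.Lib.Monster.Meet
-- import your own Cfsg.Agent.* helpers here

set_option autoImplicit false
open Cfsg
open scoped Pointwise

namespace Cfsg.Agent.S5410

/-- Let G be a finite group of Monster type at the involution z with Q the extraspecial normal subgroup of order 2^25 of C = C_G(z) (so C/Q is identified with the first Conway group with Q modulo its centre the Leech lattice modulo 2, and z is not weakly closed in Q). Let g in G with s = g z g⁻¹ a member of Q other than z, let X be the image in C/Q of the centralizer of s in C, and let E be the image in C/Q of the intersection of g Q g⁻¹ with C. Then E is a normal subgroup of X, elementary abelian of order 2^11, and it has a complement in X isomorphic to the Mathieu group of degree 24 (the automorphism group of the length-24 binary Golay code). -/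
theorem result {G : Type*} [Group G] [Finite G] (z : G) (Q : Subgroup (Subgroup.centralizer ({z} : Set G))) [Q.Normal] (hM : Cfsg.IsOfMonsterType z Q) (s : G) (hsQ : ∃ hsc : s ∈ Subgroup.centralizer ({z} : Set G), (⟨s, hsc⟩ : Subgroup.centralizer ({z} : Set G)) ∈ Q) (hs : IsConj z s) (hs1 : s ≠ z) (g : G) (hg : g * z * g⁻¹ = s) (X E : Subgroup ((Subgroup.centralizer ({z} : Set G)) ⧸ Q)) (hX : X = ((Subgroup.centralizer ({z} : Set G) ⊓ Subgroup.centralizer ({s} : Set G)).subgroupOf (Subgroup.centralizer ({z} : Set G))).map (QuotientGroup.mk' Q)) (hE : E = (((Q.map (Subgroup.centralizer ({z} : Set G)).subtype).map (MulAut.conj g).toMonoidHom ⊓ Subgroup.centralizer ({z} : Set G)).subgroupOf (Subgroup.centralizer ({z} : Set G))).map (QuotientGroup.mk' Q)) : E ≤ X ∧ (∀ x ∈ X, ∀ y ∈ E, x * y * x⁻¹ ∈ E) ∧ Cfsg.IsElementaryAbelian 2 E ∧ Nat.card E = 2 ^ 11 ∧ ∃ K : Subgroup ((Subgroup.centralizer ({z} : Set G)) ⧸ Q), K ≤ X ∧ E ⊓ K = ⊥ ∧ E ⊔ K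 = X ∧ Nonempty (K ≃* Cfsg.M24) := by
  obtain ⟨hsc, hsq⟩ := hsQ
  obtain ⟨-, hcard, Φ, hrange, hflips, hker⟩ := Lib.Monster.meet hM (a := ⟨_, hsq⟩) hg hs1 X E hX hE
  let M := MulAction.stabilizer ↥Cfsg.Co0 Lib.Leech.cross0
  let p : ↥Cfsg.M24 →* ↥M := Lib.Leech.permHom.codRestrict M fun σ => Lib.Leech.moves_stab (Lib.Leech.moves_permHom σ)
  have hEX : E ≤ X := by rw [← hflips, ← hrange]; exact Subgroup.map_le_range _ _
  refine ⟨hEX, ?_, ?_, hcard, (Φ.comp p).range, ?_, ?_, ?_, ⟨(MonoidHom.ofInjective ?_).symm⟩⟩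
  · rw [← hrange, ← hflips]
    rintro _ ⟨x, rfl⟩ _ ⟨y, hy, rfl⟩
    have hn : (Lib.Leech.flips.subgroupOf M).Normal := by
      refine ⟨fun n hn m => ?_⟩
      obtain ⟨σ, hσ, -⟩ := Lib.Leech.split (g := (m : ↥Cfsg.Co0)) m.2
      show Lib.Leech.Moves ((m : ↥Cfsg.Co0) * (n : ↥Cfsg.Co0) * (m : ↥Cfsg.Co0)⁻¹) 1
      have h := (hσ.mul hn).mul hσ.inv
      rwa [mul_one, mul_inv_cancel] at h
    exact ⟨x * y * x⁻¹, hn.conj_mem y hy x, by simp⟩
  · have hsq : ∀ y ∈ E, y * y = 1 := by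
      rw [← hflips]
      rintro _ ⟨n, hn, rfl⟩
      rw [← map_mul, show n * n = 1 from Subtype.ext (Lib.Leech.flips_sq hn), map_one]
    refine ⟨⟨⟨fun a b => Subtype.ext ?_⟩⟩, fun a ha => by rw [pow_two]; exact hsq a ha⟩
    have ha := inv_eq_of_mul_eq_one_right (hsq _ a.2)
    have hb := inv_eq_of_mul_eq_one_right (hsq _ b.2)
    have hab := inv_eq_of_mul_eq_one_right (hsq _ (mul_mem a.2 b.2))
    show (a : (Subgroup.centralizer ({z} : Set G)) ⧸ Q) * b = b * a
    rw [← hab, mul_inv_rev, ha, hb]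
  · rw [← hrange, MonoidHom.range_comp]
    exact Subgroup.map_le_range _ _
  · rw [eq_bot_iff, ← hflips]
    rintro _ ⟨⟨n, hn, rfl⟩, σ, hσ⟩
    have h1 : Φ ((p σ)⁻¹ * n) = 1 := by rw [map_mul, map_inv, show Φ (p σ) = Φ n from hσ, inv_mul_cancel]
    have h2 := mul_mem hn (inv_mem (hker _ h1))
    have h3 : Lib.Leech.permHom σ ∈ Lib.Leech.flips := by
      have h2' : (n : ↥Cfsg.Co0) * ((Lib.Leech.permHom σ)⁻¹ * (n : ↥Cfsg.Co0))⁻¹ ∈ Lib.Leech.flips := h2
      rwa [show (n : ↥Cfsg.Co0) * ((Lib.Leech.permHom σ)⁻¹ * (n : ↥Cfsg.Co0))⁻¹ = Lib.Leech.permHom σ by group] at h2'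
    rw [Subgroup.mem_bot, ← hσ, Lib.Leech.permHom_flips h3, map_one]
  · refine le_antisymm (sup_le hEX ?_) fun x hx => ?_
    · rw [← hrange, MonoidHom.range_comp]
      exact Subgroup.map_le_range _ _
    · rw [← hrange] at hx
      obtain ⟨m, rfl⟩ := hx
      obtain ⟨σ, -, hσ⟩ := Lib.Leech.split (g := (m : ↥Cfsg.Co0)) m.2
      rw [← mul_inv_cancel_left (p σ) m, map_mul]
      exact mul_mem (Subgroup.mem_sup_right ⟨σ, rfl⟩) (Subgroup.mem_sup_left (hflips ▸ ⟨_, hσ, rfl⟩))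
  · rw [← MonoidHom.ker_eq_bot_iff, eq_bot_iff]
    intro σ hσ
    exact Subgroup.mem_bot.2 (Lib.Leech.permHom_flips (hker _ hσ))

end Cfsg.Agent.S5410
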