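import Cfsg.Statements.S5411
import Cfsg.Agent.Lib.Monster.Classes
-- import your own Cfsg.Agent.* helpers here

set_option autoImplicit false
open Cfsg

namespace Cfsg.Agent.S5411

/-- Let G be a finite group of Monster type at the involution z with Q the extraspecial normal subgroup of order 2^25 of C = C_G(z) (so C/Q is identified with the first Conway group with Q modulo its centre the Leech lattice modulo 2, and z is not weakly closed in Q). Then C acts transitively by conjugation on the involutions of Q that are not conjugate to z in G. -/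
theorem result {G : Type*} [Group G] [Finite G] (z : G) (Q : Subgroup (Subgroup.centralizer ({z} : Set G))) [Q.Normal] (hM : Cfsg.IsOfMonsterType z Q) (s t : G) (hsQ : ∃ hsc : s ∈ Subgroup.centralizer ({z} : Set G), (⟨s, hsc⟩ : Subgroup.centralizer ({z} : Set G)) ∈ Q) (htQ : ∃ htc : t ∈ Subgroup.centralizer ({z} : Set G), (⟨t, htc⟩ : Subgroup.centralizer ({z} : Set G)) ∈ Q) (hs2 : orderOf s = 2) (ht2 : orderOf t = 2) (hs : ¬ IsConj z s) (ht : ¬ IsConj z t) : ∃ h ∈ Subgroup.centralizer ({z} : Set G), h * s * h⁻¹ = t := by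
  obtain ⟨hS, e, ψ, hψ⟩ := hM
  obtain ⟨hsc, hsq⟩ := hsQ
  obtain ⟨htc, htq⟩ := htQ
  have key : ∀ u, orderOf u = 2 → ¬ IsConj z u → ∀ (hc : u ∈ Subgroup.centralizer ({z} : Set G))
      (hq : (⟨u, hc⟩ : Subgroup.centralizer ({z} : Set G)) ∈ Q), u ≠ 1 ∧ u ≠ z ∧
      ∃ v : ↥leechLattice, sqNorm (v : GolayPt → ℤ) = 32 ∧ ψ v = QuotientGroup.mk ⟨_, hq⟩ := by
    intro u hu hnc hc hq
    have h2 : u * u = 1 := by rw [← pow_two, ← hu, pow_orderOf_eq_one]
    have h1 : u ≠ 1 := fun e0 => by rw [e0, orderOf_one] at hu; omega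
    have hz : u ≠ z := fun e0 => hnc (e0 ▸ IsConj.refl u)
    obtain ⟨v, hv | hv, hva⟩ := Lib.Monster.short_rep hS hψ (a := ⟨_, hq⟩) h2 h1 hz
    · exact ⟨h1, hz, v, hv, hva⟩
    · exact absurd (Lib.Monster.four_isConj hS hψ hv hva).1 hnc
  obtain ⟨-, -, v, hv, hva⟩ := key s hs2 hs hsc hsq
  obtain ⟨h1, h2, w, hw, hwb⟩ := key t ht2 ht htc htq
  obtain ⟨g, hg⟩ := Lib.Leech.trans_min hv hw
  obtain ⟨h, -, hh⟩ := Lib.Monster.lift_eq hS hψ hva hwb (congrArg ψ hg) h1 h2
  exact ⟨h, h.2, hh⟩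

end Cfsg.Agent.S5411
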