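import Cfsg.Statements.S5412
import Cfsg.Agent.Lib.Monster.Baby
-- import your own Cfsg.Agent.* helpers here

set_option autoImplicit false
open Cfsg

namespace Cfsg.Agent.S5412

/-- Let G be a finite group of Monster type at the involution z with Q the extraspecial normal subgroup of order 2^25 of C = C_G(z) (so C/Q is identified with the first Conway group with Q modulo its centre the Leech lattice modulo 2, and z is not weakly closed in Q). Let t be an involution of Q not conjugate to z in G. Then the centralizer of t modulo the subgroup generated by t is a group of Baby Monster type (an involution whose centralizer D has generalized Fitting subgroup R extraspecial of order 2^23 with D/R identified with the second Conway group acting on R modulo its centre as on the vectors of the Leech lattice modulo 2 orthogonal to a short vector, modulo that vector; the involution not weakly closed in R). -/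
theorem result {G : Type*} [Group G] [Finite G] (z : G) (Q : Subgroup (Subgroup.centralizer ({z} : Set G))) [Q.Normal] (hM : Cfsg.IsOfMonsterType z Q) (t : G) (htQ : ∃ htc : t ∈ Subgroup.centralizer ({z} : Set G), (⟨t, htc⟩ : Subgroup.centralizer ({z} : Set G)) ∈ Q) (ht2 : orderOf t = 2) (ht : ¬ IsConj z t) [hn : ((Subgroup.zpowers t).subgroupOf (Subgroup.centralizer ({t} : Set G))).Normal] : Cfsg.IsOfBabyMonsterType (↥(Subgroup.centralizer ({t} : Set G)) ⧸ (Subgroup.zpowers t).subgroupOf (Subgroup.centralizer ({t} : Set G))) := by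
  classical
  obtain ⟨hS, e, ψ, hψ⟩ := hM
  obtain ⟨htc, htq⟩ := htQ
  let b : ↥Q := ⟨⟨t, htc⟩, htq⟩
  have htt : t * t = 1 := by rw [← pow_two, ← ht2, pow_orderOf_eq_one]
  have ht1 : t ≠ 1 := fun e0 => by rw [e0, orderOf_one] at ht2; omega
  have S := Lib.Monster.psi_of hS hψ
  obtain ⟨-, -, hcardP, hcen, hmem⟩ := Lib.Monster.base hS
  have hg := Lib.Monster.good hS
  obtain ⟨w, hw, hwb⟩ := Lib.Monster.min_rep hS hψ (b := b) htt ht1 ht
  have htz : t ≠ z := (Lib.Monster.min_not_conj hS hψ hw hwb).2.1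
  have htP : t ∈ Q.map (Subgroup.centralizer ({z} : Set G)).subtype := ⟨_, htq, rfl⟩
  have hzt : z * t = t * z := (hg.le t htP).symm
  have hcq : ∀ c, (∀ q ∈ Q.map (Subgroup.centralizer ({z} : Set G)).subtype, c * q = q * c) →
      c ∈ Q.map (Subgroup.centralizer ({z} : Set G)).subtype := fun c hc => by
    rcases hg.cent c hc with r | r <;> rw [r]
    exacts [one_mem _, hg.mem]
  -- `z t` is not conjugate to `z`
  have hztc : ¬ IsConj z (z * t) := by
    obtain ⟨zq, hzq⟩ := (hmem z).1 hg.mem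
    have hzc : ψ w = QuotientGroup.mk (zq * b) := by
      rw [QuotientGroup.mk_mul, (QuotientGroup.eq_one_iff zq).2 ((hcen zq).2 (Or.inr hzq)), one_mul, hwb]
    have h3 := (Lib.Monster.min_not_conj hS hψ hw hzc).2.2
    have e3 : Lib.Monster.val (zq * b) = z * t := by
      show Lib.Monster.val zq * t = z * t
      rw [hzq]
    rwa [e3] at h3
  let T := (Subgroup.zpowers t).subgroupOf (Subgroup.centralizer ({t} : Set G))
  have hT : ∀ x : ↥(Subgroup.centralizer ({t} : Set G)), x ∈ T ↔ (x : G) = 1 ∨ (x : G) = t := fun x => by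
    rw [Subgroup.mem_subgroupOf, mem_zpowers_iff_mem_range_orderOf, ht2]
    simp [Finset.mem_image, Finset.range_add_one, eq_comm, or_comm]
  let zt : ↥(Subgroup.centralizer ({t} : Set G)) := ⟨z, Subgroup.mem_centralizer_singleton_iff.2 hzt⟩
  let zb : ↥(Subgroup.centralizer ({t} : Set G)) ⧸ T := QuotientGroup.mk zt
  let D := Subgroup.centralizer ({zb} : Set (↥(Subgroup.centralizer ({t} : Set G)) ⧸ T))
  let K := Subgroup.centralizer ({z} : Set G) ⊓ Subgroup.centralizer ({t} : Set G)
  let h : ↥K →* ↥D := ((QuotientGroup.mk' T).comp (Subgroup.inclusion inf_le_right)).codRestrict D fun x =>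
    Subgroup.mem_centralizer_singleton_iff.2 (congrArg QuotientGroup.mk
      (Subtype.ext (Subgroup.mem_centralizer_singleton_iff.1 x.2.1) :
        (Subgroup.inclusion inf_le_right x : ↥(Subgroup.centralizer ({t} : Set G))) * zt = zt * Subgroup.inclusion inf_le_right x))
  have hsurj : Function.Surjective h := by
    rintro ⟨d, hd⟩
    obtain ⟨x, rfl⟩ := QuotientGroup.mk_surjective d
    have h1 := QuotientGroup.eq.1 (show QuotientGroup.mk (zt * x) = (QuotientGroup.mk (x * zt) : _ ⧸ T) from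
      (Subgroup.mem_centralizer_singleton_iff.1 hd).symm)
    rw [hT] at h1
    have hxt : (x : G) * t = t * x := Subgroup.mem_centralizer_singleton_iff.1 x.2
    rcases h1 with r | r
    · refine ⟨⟨x, Subgroup.mem_centralizer_singleton_iff.2 ?_, x.2⟩, rfl⟩
      exact (inv_mul_eq_one.1 (show (z * (x : G))⁻¹ * ((x : G) * z) = 1 from r)).symm
    · exfalso
      have r' : (x : G) * z = z * x * t :=
        inv_mul_eq_iff_eq_mul.1 (show (z * (x : G))⁻¹ * ((x : G) * z) = t from r)
      refine hztc (isConj_iff.2 ⟨x, ?_⟩)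
      rw [r', mul_assoc z (x : G) t, hxt]
      group
  have hker : ∀ x : ↥K, h x = 1 ↔ (x : G) = 1 ∨ (x : G) = t := fun x => by
    exact ⟨fun e0 => (hT (Subgroup.inclusion inf_le_right x)).1 ((QuotientGroup.eq_one_iff _).1 (congrArg Subtype.val e0)),
      fun e0 => Subtype.ext ((QuotientGroup.eq_one_iff _).2 ((hT (Subgroup.inclusion inf_le_right x)).2 e0))⟩
  let RK := (Q.map (Subgroup.centralizer ({z} : Set G)).subtype).subgroupOf K
  haveI hRKn : RK.Normal := ⟨fun u hu x => hg.norm (x : G) (Subgroup.mem_centralizer_singleton_iff.1 x.2.1) _ hu⟩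
  let R : Subgroup ↥D := RK.map h
  haveI hRn : R.Normal := hRKn.map h hsurj
  have hmemR : ∀ x : ↥K, h x ∈ R ↔ (x : G) ∈ Q.map (Subgroup.centralizer ({z} : Set G)).subtype := by
    intro x
    constructor
    · rintro ⟨u, hu, hux⟩
      have h1 : h (u⁻¹ * x) = 1 := by rw [map_mul, map_inv, hux, inv_mul_cancel]
      have h2 : ((u⁻¹ * x : ↥K) : G) ∈ Q.map (Subgroup.centralizer ({z} : Set G)).subtype := by
        rcases (hker _).1 h1 with r | r <;> rw [r]
        exacts [one_mem _, htP]
      have := mul_mem (show (u : G) ∈ _ from hu) h2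
      simpa using this
    · exact fun hx => ⟨x, hx, rfl⟩
  let xz : ↥K := ⟨z, Subgroup.mem_centralizer_singleton_iff.2 rfl, Subgroup.mem_centralizer_singleton_iff.2 hzt⟩
  let zR : ↥R := ⟨h xz, (hmemR xz).2 hg.mem⟩
  have hzsq : z * z = 1 := hg.sq
  have hxz1 : h xz ≠ 1 := fun e0 => by
    rcases (hker xz).1 e0 with r | r
    · exact hg.ne r
    · exact htz r.symm
  -- the card of `R`
  have hRcard : Nat.card R = 2 ^ 23 := by
    have h1 := Subgroup.card_mul_index (h.comp RK.subtype).ker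
    rw [Subgroup.index_ker, MonoidHom.range_comp, Subgroup.range_subtype] at h1
    have h2 : Nat.card (h.comp RK.subtype).ker = 2 := by
      rw [← ht2, ← Nat.card_zpowers]
      refine Nat.card_eq_of_bijective (fun x => ⟨((x.1 : ↥K) : G), ?_⟩) ⟨?_, ?_⟩
      · rcases (hker (x.1 : ↥K)).1 x.2 with r | r <;> rw [r]
        exacts [one_mem _, Subgroup.mem_zpowers _]
      · exact fun x y e0 => Subtype.ext (Subtype.ext (Subtype.ext (congrArg (Subtype.val : ↥(Subgroup.zpowers t) → G) e0)))
      · rintro ⟨u, hu⟩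
        have hu' : u = 1 ∨ u = t := by
          rw [mem_zpowers_iff_mem_range_orderOf, ht2] at hu
          simpa [Finset.mem_image, Finset.range_add_one, eq_comm, or_comm] using hu
        have huK : u ∈ K := by
          rcases hu' with r | r <;> rw [r]
          exacts [one_mem _, ⟨htc, Subgroup.mem_centralizer_singleton_iff.2 rfl⟩]
        have huP : u ∈ Q.map (Subgroup.centralizer ({z} : Set G)).subtype := by
          rcases hu' with r | r <;> rw [r]
          exacts [one_mem _, htP]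
        exact ⟨⟨⟨⟨u, huK⟩, huP⟩, (hker _).2 hu'⟩, rfl⟩
    have h3 : Nat.card RK * 2 = 2 ^ 25 := by
      rw [← hcardP, ← Lib.Monster.card_cent hg htP ht1 htz]
      congr 1
      refine Nat.card_eq_of_bijective (fun x => ⟨((x.1 : ↥K) : G), x.2, x.1.2.2⟩) ⟨?_, ?_⟩
      · exact fun x y e0 => Subtype.ext (Subtype.ext (congrArg (Subtype.val : ↥(Q.map (Subgroup.centralizer ({z} : Set G)).subtype ⊓ Subgroup.centralizer ({t} : Set G)) → G) e0))
      · rintro ⟨u, hu, hu'⟩
        exact ⟨⟨⟨u, Subgroup.map_subtype_le Q hu, hu'⟩, hu⟩, rfl⟩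
    rw [h2] at h1
    show Nat.card (RK.map h) = _
    omega
  -- commutation modulo `t`
  have hmod : ∀ x u : ↥K, h x * h u = h u * h x → (x : G) * u * (x : G)⁻¹ = u ∨ (x : G) * u * (x : G)⁻¹ = u * t := by
    intro x u e0
    have h1 : h (u⁻¹ * x * u * x⁻¹) = 1 := by
      rw [map_mul, map_mul, map_mul, map_inv, map_inv, mul_assoc (h u)⁻¹ (h x) (h u), e0]; group
    rcases (hker _).1 h1 with r | r
    · left
      change (u : G)⁻¹ * x * u * (x : G)⁻¹ = 1 at r
      calc (x : G) * u * (x : G)⁻¹ = u * ((u : G)⁻¹ * x * u * (x : G)⁻¹) := by group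
        _ = u := by rw [r, mul_one]
    · right
      change (u : G)⁻¹ * x * u * (x : G)⁻¹ = t at r
      rw [← r]; group
  -- the centre
  have hcenR : ∀ x : ↥K, (x : G) ∈ Q.map (Subgroup.centralizer ({z} : Set G)).subtype →
      (∀ u : ↥K, (u : G) ∈ Q.map (Subgroup.centralizer ({z} : Set G)).subtype → h x * h u = h u * h x) →
      h x = 1 ∨ h x = h xz := by
    intro x hx hc
    have hcl : (x : G) ∈ Subgroup.closure (insert z ({t} : Set G)) := by
      refine Lib.Singular.closure_of_centralizers hg (Set.finite_singleton t) (Set.singleton_subset_iff.2 htP) hx fun u hu hut => ?_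
      let u' : ↥K := ⟨u, Subgroup.map_subtype_le Q hu, Subgroup.mem_centralizer_singleton_iff.2 (hut t rfl)⟩
      rcases hmod x u' (hc u' hu) with r | r
      · exact (mul_inv_eq_iff_eq_mul.1 r).symm
      · exfalso
        rcases hg.comm _ hx u hu with f | f
        · change (x : G) * u * (x : G)⁻¹ = u * t at r
          rw [r, hut t rfl, mul_inv_cancel_right] at f
          exact ht1 f
        · change (x : G) * u * (x : G)⁻¹ = u * t at r
          rw [r, hut t rfl, mul_inv_cancel_right] at f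
          exact htz f
    have hle : Subgroup.closure (insert z ({t} : Set G)) ≤ ((Subgroup.zpowers (h xz)).comap h).map K.subtype := by
      rw [Subgroup.closure_le]
      rintro u (hu | hu)
      · exact ⟨xz, Subgroup.mem_zpowers _, hu.symm⟩
      · refine ⟨⟨t, htc, Subgroup.mem_centralizer_singleton_iff.2 rfl⟩, ?_, (show u = t from hu).symm⟩
        show h ⟨t, htc, Subgroup.mem_centralizer_singleton_iff.2 rfl⟩ ∈ Subgroup.zpowers (h xz)
        rw [(hker ⟨t, htc, Subgroup.mem_centralizer_singleton_iff.2 rfl⟩).2 (Or.inr rfl)]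
        exact one_mem _
    obtain ⟨x', hx', hxx⟩ := hle hcl
    rw [← show x' = x from Subtype.ext hxx]
    obtain ⟨n, hn⟩ := Subgroup.mem_zpowers_iff.1 hx'
    have h2 : h xz * h xz = 1 := by
      rw [← map_mul, show xz * xz = 1 from Subtype.ext hzsq, map_one]
    rcases Int.even_or_odd' n with ⟨m, rfl | rfl⟩
    · left; rw [← hn, zpow_mul, show (h xz) ^ (2 : ℤ) = 1 by rw [show (2 : ℤ) = ((2 : ℕ) : ℤ) from rfl, zpow_natCast, pow_two, h2], one_zpow]
    · right; rw [← hn, zpow_add, zpow_mul, show (h xz) ^ (2 : ℤ) = 1 by rw [show (2 : ℤ) = ((2 : ℕ) : ℤ) from rfl, zpow_natCast, pow_two, h2], one_zpow, one_mul, zpow_one]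
  have hpair : ∀ a : ↥R, ∃ x : ↥K, (x : G) ∈ Q.map (Subgroup.centralizer ({z} : Set G)).subtype ∧ h x = (a : ↥D) :=
    fun ⟨a, x, hx, hxa⟩ => ⟨x, hx, hxa⟩
  have hcenR' : ∀ a : ↥R, a ∈ Subgroup.center ↥R → a = 1 ∨ a = zR := by
    intro a ha
    obtain ⟨x, hx, hxa⟩ := hpair a
    refine (hcenR x hx fun u hu => ?_).imp (fun e0 => Subtype.ext (hxa.symm.trans e0)) (fun e0 => Subtype.ext (hxa.symm.trans e0))
    rw [hxa]
    exact (congrArg Subtype.val (Subgroup.mem_center_iff.1 ha ⟨h u, (hmemR u).2 hu⟩)).symm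
  have hzR : zR ∈ Subgroup.center ↥R := by
    refine Subgroup.mem_center_iff.2 fun a => ?_
    obtain ⟨x, hx, hxa⟩ := hpair a
    apply Subtype.ext
    show (a : ↥D) * h xz = h xz * (a : ↥D)
    rw [← hxa, ← map_mul, ← map_mul]
    exact congrArg h (Subtype.ext (hg.le _ hx))
  have hext : Cfsg.IsExtraspecial 2 ↥R := by
    refine Lib.Monster.extraspecial_of (IsPGroup.of_card hRcard) zR (fun e0 => hxz1 (congrArg Subtype.val e0))
      (Subgroup.mem_center_iff.1 hzR) (fun a c => ?_) (fun a => ?_) (fun a ha => hcenR' a (Subgroup.mem_center_iff.2 ha)) ?_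
    · obtain ⟨x, hx, hxa⟩ := hpair a
      obtain ⟨y, hy, hyc⟩ := hpair c
      rcases hg.comm _ hx _ hy with r | r
      · left; apply Subtype.ext
        show (a : ↥D) * c * (a : ↥D)⁻¹ * (c : ↥D)⁻¹ = 1
        rw [← hxa, ← hyc, ← map_inv, ← map_inv, ← map_mul, ← map_mul, ← map_mul, show x * y * x⁻¹ * y⁻¹ = 1 from Subtype.ext r, map_one]
      · right; apply Subtype.ext
        show (a : ↥D) * c * (a : ↥D)⁻¹ * (c : ↥D)⁻¹ = h xz
        rw [← hxa, ← hyc, ← map_inv, ← map_inv, ← map_mul, ← map_mul, ← map_mul, show x * y * x⁻¹ * y⁻¹ = xz from Subtype.ext r]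
    · obtain ⟨x, hx, hxa⟩ := hpair a
      rcases hg.sqr _ hx with r | r
      · left; apply Subtype.ext
        show (a : ↥D) * a = 1
        rw [← hxa, ← map_mul, show x * x = 1 from Subtype.ext r, map_one]
      · right; apply Subtype.ext
        show (a : ↥D) * a = h xz
        rw [← hxa, ← map_mul, show x * x = xz from Subtype.ext r]
    · by_contra hab
      push Not at hab
      have hle2 : Nat.card ↥R ≤ 2 := by
        refine le_trans (Nat.card_le_card_of_injective (fun a : ↥R => if a = 1 then (0 : Fin 2) else 1) ?_) (le_of_eq (Nat.card_fin 2))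
        intro a c e0
        rcases hcenR' a (Subgroup.mem_center_iff.2 fun v => hab v a) with r | r <;>
          rcases hcenR' c (Subgroup.mem_center_iff.2 fun v => hab v c) with r' | r' <;> subst r <;> subst r'
        · rfl
        · simp only [if_pos, if_neg (show zR ≠ 1 from fun e1 => hxz1 (congrArg Subtype.val e1))] at e0; exact absurd e0 (by decide)
        · simp only [if_pos, if_neg (show zR ≠ 1 from fun e1 => hxz1 (congrArg Subtype.val e1))] at e0; exact absurd e0 (by decide)
        · rfl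
      rw [hRcard] at hle2
      norm_num at hle2
  -- projection to the second group
  obtain ⟨k, hk⟩ := Lib.Leech.trans_min hw Lib.Monster.sqNorm_leechU
  obtain ⟨F, hFs, hFe, hFk⟩ := Lib.Monster.kproj hS hψ hw hwb hk
  have hFker : h.ker ≤ F.ker := fun x hx => (hFk x).2 (by
    rcases (hker x).1 hx with r | r <;> rw [r]
    exacts [one_mem _, htP])
  let G2 : ↥D →* ↥Cfsg.Spor.Co2 := MonoidHom.liftOfSurjective h hsurj ⟨F, hFker⟩
  have hG2 : ∀ x : ↥K, G2 (h x) = F x := fun x => MonoidHom.liftOfRightInverse_comp_apply h _ _ ⟨F, hFker⟩ x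
  have hG2s : Function.Surjective G2 := fun g => by
    obtain ⟨x, hx⟩ := hFs g
    exact ⟨h x, (hG2 x).trans hx⟩
  have hG2k : G2.ker = R := by
    ext d
    obtain ⟨x, rfl⟩ := hsurj d
    rw [MonoidHom.mem_ker, hG2]
    exact (hFk x).trans (hmemR x).symm
  let e' : ↥D ⧸ R ≃* ↥Cfsg.Spor.Co2 :=
    (QuotientGroup.quotientMulEquivOfEq hG2k.symm).trans (QuotientGroup.quotientKerEquivOfSurjective G2 hG2s)
  -- generalized Fitting subgroup
  haveI : Fact (Nat.Prime 2) := ⟨Nat.prime_two⟩
  have hpR : IsPGroup 2 ↥R := IsPGroup.of_card hRcard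
  have hcore : Cfsg.pCore 2 ↥D = R := by
    refine le_antisymm ?_ (Lib.Components.le_pCore hpR)
    haveI := Lib.Singular.core_normal (H := ↥D) 2
    haveI : ((Cfsg.pCore 2 ↥D).map G2).Normal := Subgroup.Normal.map inferInstance G2 hG2s
    have h1 := Lib.Monster.co2_two_normal ((Cfsg.pCore 2 ↥D).map G2) ((Lib.Components.pCore_isPGroup 2).map G2)
    rw [Subgroup.map_eq_bot_iff, hG2k] at h1
    exact h1
  have hcentR : Subgroup.centralizer (R : Set ↥D) ≤ R := by
    haveI : ((Subgroup.centralizer (R : Set ↥D)).map G2).Normal := Subgroup.Normal.map inferInstance G2 hG2s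
    have h1 := Lib.Monster.co2_two_normal ((Subgroup.centralizer (R : Set ↥D)).map G2) (by
      rintro ⟨_, d, hd, rfl⟩
      refine ⟨2, Subtype.ext ?_⟩
      show G2 d ^ 2 ^ 2 = 1
      obtain ⟨x, rfl⟩ := hsurj d
      rw [hG2, ← map_pow, hFk]
      have h4 := Lib.Monster.inner_four hg hcq htP ht1 htz htt
        (Subgroup.mem_centralizer_singleton_iff.1 x.2.1) (Subgroup.mem_centralizer_singleton_iff.1 x.2.2)
        (fun u hu hut => hmod x ⟨u, Subgroup.map_subtype_le Q hu, Subgroup.mem_centralizer_singleton_iff.2 hut⟩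
          (Subgroup.mem_centralizer_iff.1 hd _ ((hmemR _).2 hu)).symm)
      rw [SubgroupClass.coe_pow, show (2 : ℕ) ^ 2 = 2 + 2 from rfl, pow_add, pow_two]
      exact h4)
    rw [Subgroup.map_eq_bot_iff, hG2k] at h1
    exact h1
  have hgf : Cfsg.generalizedFittingSubgroup ↥D = R :=
    (Lib.Components.gfs_eq_pCore_iff.2 (by rw [hcore]; exact hcentR)).trans hcore
  -- the module
  let BQ : Subgroup ↥Q := (Subgroup.centralizer ({t} : Set G)).comap ((Subgroup.centralizer ({z} : Set G)).subtype.comp Q.subtype)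
  let toK : ↥BQ →* ↥K :=
    { toFun := fun a => ⟨Lib.Monster.val a.1, (a.1 : Subgroup.centralizer ({z} : Set G)).2, a.2⟩
      map_one' := rfl
      map_mul' := fun a c => rfl }
  let θ : ↥BQ →* ↥R ⧸ Subgroup.center ↥R :=
    (QuotientGroup.mk' _).comp ((h.comp toK).codRestrict R fun a => (hmemR _).2 ⟨_, a.1.2, rfl⟩)
  have hθcongr : ∀ a c : ↥BQ, (QuotientGroup.mk a.1 : ↥Q ⧸ Subgroup.center ↥Q) = QuotientGroup.mk c.1 → θ a = θ c := by
    intro a c e0
    rw [QuotientGroup.eq, hcen] at e0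
    refine inv_mul_eq_one.1 ?_
    rw [← map_inv, ← map_mul]
    refine (QuotientGroup.eq_one_iff _).2 ?_
    rcases e0 with r | r
    · have : a⁻¹ * c = 1 := Subtype.ext (Subtype.ext (Subtype.ext r))
      rw [this, map_one]; exact one_mem _
    · convert hzR using 1
      apply Subtype.ext
      show h (toK (a⁻¹ * c)) = h xz
      exact congrArg h (Subtype.ext r)
  have hθker : ∀ a : ↥BQ, θ a = 1 ↔ (QuotientGroup.mk a.1 : ↥Q ⧸ Subgroup.center ↥Q) = 1 ∨
      (QuotientGroup.mk a.1 : ↥Q ⧸ Subgroup.center ↥Q) = QuotientGroup.mk b := by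
    intro a
    constructor
    · intro e0
      have h1 : (⟨h (toK a), (hmemR _).2 ⟨_, a.1.2, rfl⟩⟩ : ↥R) ∈ Subgroup.center ↥R := (QuotientGroup.eq_one_iff _).1 e0
      have h2 : h (toK a) = 1 ∨ h (toK a) = h xz := (hcenR' _ h1).imp (congrArg Subtype.val) (congrArg Subtype.val)
      rcases h2 with r | r
      · rcases (hker _).1 r with s | s
        · left; rw [QuotientGroup.eq_one_iff, hcen]; exact Or.inl s
        · right; exact congrArg _ (Subtype.ext (Subtype.ext s))
      · have r2 : h (xz⁻¹ * toK a) = 1 := by rw [map_mul, map_inv, r, inv_mul_cancel]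
        rcases (hker _).1 r2 with s | s
        · left; rw [QuotientGroup.eq_one_iff, hcen]; right
          exact (inv_mul_eq_one.1 (show z⁻¹ * Lib.Monster.val a.1 = 1 from s)).symm
        · right
          change z⁻¹ * Lib.Monster.val a.1 = t at s
          rw [QuotientGroup.eq, hcen]; right
          show (Lib.Monster.val a.1)⁻¹ * t = z
          rw [inv_mul_eq_iff_eq_mul, hg.le _ ((hmem _).2 ⟨a.1, rfl⟩), ← s,
            show z⁻¹ = z from inv_eq_of_mul_eq_one_right hzsq]
    · intro e0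
      rcases e0 with r | r
      · rw [hθcongr a 1 (r.trans (QuotientGroup.mk_one _).symm), map_one]
      · rw [hθcongr a ⟨b, Subgroup.mem_centralizer_singleton_iff.2 rfl⟩ r]
        refine (QuotientGroup.eq_one_iff _).2 ?_
        convert Subgroup.one_mem _ using 1
        exact Subtype.ext ((hker _).2 (Or.inr rfl))
  -- lifts
  have hperp : ∀ a : ↥Q, ∀ x : ↥Cfsg.leechLattice, ψ (k⁻¹ • x) = QuotientGroup.mk a →
      ((16 : ℤ) ∣ Cfsg.dotInt (x : Cfsg.GolayPt → ℤ) Cfsg.Spor.vecU ↔ a ∈ BQ) := by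
    intro a x ha
    rw [Lib.Monster.perp_iff hS hψ x, ← S.bform_inv k⁻¹ x Cfsg.Spor.leechU]
    rw [show k⁻¹ • Cfsg.Spor.leechU = w by rw [← hk, inv_smul_smul]]
    rw [Lib.Monster.Psi.bform, ha, hwb, Lib.Monster.commF_mk, Lib.Monster.chi_eq_zero]
    refine ⟨fun e0 => Subgroup.mem_centralizer_singleton_iff.2 ?_, fun e0 => Subtype.ext (Subtype.ext ?_)⟩
    · exact (Lib.Singular.comm_iff _ _).1 (congrArg (fun q : ↥Q => Lib.Monster.val q) e0)
    · exact (Lib.Singular.comm_iff (Lib.Monster.val a) t).2 (Subgroup.mem_centralizer_singleton_iff.1 e0)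
  have hlift : ∀ x : ↥Cfsg.leechPerpU, ∃ a : ↥BQ, (QuotientGroup.mk a.1 : ↥Q ⧸ Subgroup.center ↥Q) = ψ (k⁻¹ • (x : ↥Cfsg.leechLattice)) := by
    intro x
    obtain ⟨a, ha⟩ := QuotientGroup.mk_surjective (ψ (k⁻¹ • (x : ↥Cfsg.leechLattice)))
    exact ⟨⟨a, (hperp a _ ha.symm).1 x.2⟩, ha⟩
  choose lft hlft using hlift
  have hkadd : ∀ p q : ↥Cfsg.leechLattice, ψ (k⁻¹ • (p + q)) = ψ (k⁻¹ • p) * ψ (k⁻¹ • q) := fun p q => by
    rw [Lib.Leech.smul_add', S.add]
  have hequiv : Cfsg.IsLeechPerpModTwoIso R e' fun x => θ (lft x) := by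
    refine ⟨fun x y => ?_, fun r => ?_, fun x => ?_, fun d g hd x y hxy r hr => ?_⟩
    · show θ (lft (x + y)) = θ (lft x) * θ (lft y)
      rw [← map_mul]
      refine hθcongr _ _ ?_
      rw [hlft, Subgroup.coe_mul, QuotientGroup.mk_mul, hlft, hlft, AddSubgroup.coe_add, hkadd]
    · obtain ⟨a, rfl⟩ := QuotientGroup.mk_surjective r
      obtain ⟨x, hx, hxa⟩ := hpair a
      obtain ⟨q, hq⟩ := (hmem _).1 hx
      have hqB : q ∈ BQ := show Lib.Monster.val q ∈ Subgroup.centralizer ({t} : Set G) from hq.symm ▸ x.2.2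
      obtain ⟨v, hv⟩ := S.surj (QuotientGroup.mk q)
      have hv' : ψ (k⁻¹ • (k • v)) = QuotientGroup.mk q := by rw [inv_smul_smul, hv]
      refine ⟨⟨k • v, (hperp q _ hv').2 hqB⟩, ?_⟩
      show θ (lft _) = _
      rw [hθcongr _ ⟨q, hqB⟩ ((hlft _).trans hv')]
      show QuotientGroup.mk _ = QuotientGroup.mk a
      congr 1
      apply Subtype.ext
      show h (toK ⟨q, hqB⟩) = (a : ↥D)
      rw [← hxa]
      exact congrArg h (Subtype.ext hq)
    · show θ (lft x) = 1 ↔ _
      rw [hθker, hlft]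
      refine or_congr ?_ ?_
      · rw [S.ker]
        constructor
        · rintro ⟨u, hu⟩
          exact ⟨k • u, by rw [← Lib.Leech.smul_add', ← hu, smul_inv_smul]⟩
        · rintro ⟨u, hu⟩
          exact ⟨k⁻¹ • u, by rw [hu, Lib.Leech.smul_add']⟩
      · rw [← hwb]
        constructor
        · intro e0
          obtain ⟨u, hu⟩ := (S.ker (k⁻¹ • (x : ↥Cfsg.leechLattice) + -w)).1 (by
            rw [S.add, S.map_neg, e0, ← S.add]; exact (S.ker _).2 ⟨w, rfl⟩)
          refine ⟨k • u, ?_⟩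
          rw [← Lib.Leech.smul_add', ← hu, Lib.Leech.smul_add', smul_inv_smul, Lib.Leech.smul_neg', hk]
          abel
        · rintro ⟨u, hu⟩
          rw [hu, show k⁻¹ • (Cfsg.Spor.leechU + (u + u)) = w + (k⁻¹ • u + k⁻¹ • u) by
            rw [Lib.Leech.smul_add', Lib.Leech.smul_add', ← hk, inv_smul_smul]]
          exact S.congr_two _ _ _ rfl
    · obtain ⟨c, rfl⟩ := hsurj d
      have hFc : F c = g := by rw [← hd]; exact (hG2 c).symm
      change θ (lft x) = QuotientGroup.mk r at hr
      show θ (lft y) = _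
      have he := hFe c
      rw [hFc] at he
      let c' : ↥(Subgroup.centralizer ({z} : Set G)) := Subgroup.inclusion inf_le_left c
      let a' : ↥Q := ⟨c' * (lft x).1 * c'⁻¹, (inferInstance : Q.Normal).conj_mem ((lft x).1 : Subgroup.centralizer ({z} : Set G)) (lft x).1.2 c'⟩
      have hca : a' ∈ BQ := show (c : G) * Lib.Monster.val (lft x).1 * (c : G)⁻¹ ∈ Subgroup.centralizer ({t} : Set G) from
        mul_mem (mul_mem c.2.2 (lft x).2) (inv_mem c.2.2)
      have hy : (QuotientGroup.mk (lft y).1 : ↥Q ⧸ Subgroup.center ↥Q) = QuotientGroup.mk a' := by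
        rw [hlft, ← hψ.2.2.2 c' _ he (k⁻¹ • (x : ↥Cfsg.leechLattice)) (lft x).1 (hlft x).symm]
        rw [mul_smul, mul_smul, smul_inv_smul, ← hxy]
        rfl
      rw [hθcongr _ ⟨a', hca⟩ hy]
      -- conjugation commutes with `θ`
      let σ := MulAut.conjNormal (H := R) (h c)
      have hcenσ : ∀ u ∈ Subgroup.center ↥R, σ u ∈ Subgroup.center ↥R := fun u hu => by
        refine Subgroup.mem_center_iff.2 fun p => ?_
        obtain ⟨p, rfl⟩ := σ.surjective p
        rw [← map_mul, ← map_mul, Subgroup.mem_center_iff.1 hu p]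
      have hr' := (QuotientGroup.eq.1 (show QuotientGroup.mk (⟨h (toK (lft x)), (hmemR _).2 ⟨_, (lft x).1.2, rfl⟩⟩ : ↥R) = QuotientGroup.mk r from hr))
      refine QuotientGroup.eq.2 ?_
      have h5 := hcenσ _ hr'
      rw [map_mul, map_inv] at h5
      convert h5 using 1
      congr 2
  refine ⟨zb, R, hRn, ⟨?_, hgf, hext, by rw [hRcard], ?_⟩, e', _, hequiv⟩
  · refine orderOf_eq_prime ?_ ?_
    · rw [pow_two, ← QuotientGroup.mk_mul, show zt * zt = 1 from Subtype.ext hzsq, QuotientGroup.mk_one]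
    · exact fun e0 => hxz1 (Subtype.ext e0)
  · obtain ⟨g, hgt, ⟨c, hc⟩, hgz, hgzt⟩ := Lib.Monster.exists_move hS hψ (b := b) htt ht1 ht
    let g' : ↥(Subgroup.centralizer ({t} : Set G)) := ⟨g, Subgroup.mem_centralizer_singleton_iff.2 (mul_inv_eq_iff_eq_mul.1 hgt)⟩
    have hcP : g * z * g⁻¹ ∈ Q.map (Subgroup.centralizer ({z} : Set G)).subtype := (hmem _).2 ⟨c, hc⟩
    let x : ↥K := ⟨g * z * g⁻¹, Subgroup.map_subtype_le Q hcP, (g' * zt * g'⁻¹).2⟩
    refine ⟨QuotientGroup.mk g', ⟨(h x).2, (hmemR x).2 hcP⟩, fun e0 => ?_⟩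
    have h1 : h x = h xz := Subtype.ext e0
    have h2 : h (xz⁻¹ * x) = 1 := by rw [map_mul, map_inv, h1, inv_mul_cancel]
    rcases (hker _).1 h2 with r | r
    · exact hgz (inv_mul_eq_one.1 (show z⁻¹ * (g * z * g⁻¹) = 1 from r)).symm
    · exact hgzt (inv_mul_eq_iff_eq_mul.1 (show z⁻¹ * (g * z * g⁻¹) = t from r))

end Cfsg.Agent.S5412
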