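import Cfsg.Statements.S5420
import Cfsg.Agent.Lib.LargeExtra.Basic
import Cfsg.Agent.Lib.Components.Cores
-- import your own Cfsg.Agent.* helpers here

set_option autoImplicit false
open Cfsg

namespace Cfsg.Agent.S5420

/-- Let Q be an extraspecial 2-subgroup of the finite group G whose centralizer in G is its centre Z and which is normal in the centralizer of Z. If Z lies in the largest normal 2-subgroup of G, then Q is a large extraspecial 2-subgroup of G: it normalizes no non-trivial subgroup of G of odd order. -/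
theorem result {G : Type*} [Group G] [Finite G] (Q : Subgroup G) (hL1 : Cfsg.IsExtraspecial 2 ↥Q) (hL2 : Subgroup.centralizer (Q : Set G) = ((Subgroup.center ↥Q).map Q.subtype)) (hL3 : Subgroup.centralizer (((Subgroup.center ↥Q).map Q.subtype) : Set G) ≤ Subgroup.normalizer (Q : Set G)) (hZ : ((Subgroup.center ↥Q).map Q.subtype) ≤ Cfsg.pCore 2 G) : Cfsg.IsLargeExtraspecial Q := by
  open Lib.LargeExtra in
  refine ⟨hL1, hL2, hL3, fun K hK hQK => ?_⟩
  obtain ⟨z, hzZ, -, hzall⟩ := exists_z hL1
  rw [Subgroup.eq_bot_iff_forall]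
  intro k hk
  have hzP := hZ hzZ
  have hkP : k * z⁻¹ * k⁻¹ ∈ pCore 2 G :=
    (pCore_normal 2 _).conj_mem _ (inv_mem hzP) k
  exact eq_one_of_commute hL1 hL2 hL3 hK hQK hk hzall
    (commute_of_mem_two_group hK (Lib.Components.pCore_isPGroup 2) (hQK (Z_le Q hzZ)) hk hzP hkP)

end Cfsg.Agent.S5420
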