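import Cfsg.Statements.S5424
import Cfsg.Agent.Lib.LargeExtra.Affine
import Cfsg.Agent.S5422
-- import your own Cfsg.Agent.* helpers here

set_option autoImplicit false
open Cfsg

namespace Cfsg.Agent.S5424

section Matrices
open Matrix Lib.LargeExtra.Affine

/-- Block form: first row `(1, r)`, first column zero below, lower block `B`. -/
def blk {m : ℕ} (r : Fin m → ZMod 2) (B : Matrix (Fin m) (Fin m) (ZMod 2)) : Matrix (Fin (m + 1)) (Fin (m + 1)) (ZMod 2) :=
  Matrix.of (Fin.cons (Fin.cons 1 r : Fin (m + 1) → ZMod 2) fun i => (Fin.cons 0 (B i) : Fin (m + 1) → ZMod 2))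

theorem blk_mul {m : ℕ} (r s : Fin m → ZMod 2) (B C : Matrix (Fin m) (Fin m) (ZMod 2)) :
    blk r B * blk s C = blk (s + r ᵥ* C) (B * C) := by
  ext i j
  cases i using Fin.cases <;> cases j using Fin.cases <;>
    simp [blk, Matrix.mul_apply, Fin.sum_univ_succ, Matrix.vecMul, dotProduct]

theorem blk_one {m : ℕ} : blk (0 : Fin m → ZMod 2) 1 = 1 := by
  ext i j
  cases i using Fin.cases <;> cases j using Fin.cases <;>
    simp [blk, Matrix.one_apply, Fin.succ_ne_zero, eq_comm]

theorem det_one {m : ℕ} {A B : Matrix (Fin m) (Fin m) (ZMod 2)} (h : A * B = 1) : A.det = 1 := by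
  rcases two_cases A.det with e | e
  · have := congrArg Matrix.det h
    rw [Matrix.det_mul, e, zero_mul, Matrix.det_one] at this
    exact absurd this zero_ne_one
  · exact e

theorem blk_inj {m : ℕ} {r s : Fin m → ZMod 2} {B C : Matrix (Fin m) (Fin m) (ZMod 2)} (h : blk r B = blk s C) :
    r = s ∧ B = C := by
  refine ⟨funext fun j => ?_, Matrix.ext fun i j => ?_⟩
  · simpa [blk] using congrFun (congrFun h 0) j.succ
  · simpa [blk] using congrFun (congrFun h i.succ) j.succ

theorem gl_iso_sl (n : ℕ) : Nonempty (Matrix.GeneralLinearGroup (Fin n) (ZMod 2) ≃* Matrix.SpecialLinearGroup (Fin n) (ZMod 2)) := by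
  refine ⟨(MulEquiv.ofBijective (Matrix.SpecialLinearGroup.toGL (n := Fin n) (R := ZMod 2)) ⟨?_, fun g => ?_⟩).symm⟩
  · intro a b h
    exact Subtype.ext (congrArg Units.val h)
  · exact ⟨⟨(g : Matrix (Fin n) (Fin n) (ZMod 2)), det_one (Units.mul_inv g)⟩, Units.ext rfl⟩

theorem exists_D (n : ℕ) (z : Matrix.SpecialLinearGroup (Fin (n + 2)) (ZMod 2))
    (hz : (z : Matrix (Fin (n + 2)) (Fin (n + 2)) (ZMod 2)) = Matrix.transvection 0 1 1) :
    ∃ D : Data (Matrix.SpecialLinearGroup (Fin (n + 2)) (ZMod 2)) n, D.z = z := by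
  let e := pairCoord n
  let F (f : P n ≃ₗ[ZMod 2] P n) : Matrix (Fin (n + 1)) (Fin (n + 1)) (ZMod 2) :=
    LinearMap.toMatrix' (((e.symm.trans f).trans e).toLinearMap)
  have hF : ∀ f g, F (f * g) = F f * F g := fun f g => by
    simp only [F]
    rw [← LinearMap.toMatrix'_comp]
    congr 1
  have hF1 : F 1 = 1 := by
    simp only [F]
    rw [show ((e.symm.trans (1 : P n ≃ₗ[ZMod 2] P n)).trans e).toLinearMap = LinearMap.id from
      LinearMap.ext fun x => e.apply_symm_apply x, LinearMap.toMatrix'_id]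
  have hFx : ∀ f v, F f *ᵥ e v = e (f v) := fun f v => by
    simp only [F]
    rw [LinearMap.toMatrix'_mulVec]
    show e (f (e.symm (e v))) = _
    rw [e.symm_apply_apply]
  let B (f : P n ≃ₗ[ZMod 2] P n) := (F f⁻¹)ᵀ
  have hB : ∀ f g, B (f * g) = B f * B g := fun f g => by
    simp only [B]
    rw [_root_.mul_inv_rev, hF, Matrix.transpose_mul]
  have hB1 : B 1 = 1 := by simp only [B]; rw [inv_one, hF1, Matrix.transpose_one]
  let mkT (x : P n) : Matrix.SpecialLinearGroup (Fin (n + 2)) (ZMod 2) := ⟨blk (e x) 1, det_one (B := blk (e x) 1) (by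
    rw [blk_mul, Matrix.vecMul_one, one_mul, ← map_add, Lib.LargeExtra.Affine.add_self, map_zero, blk_one])⟩
  let mkI (f : P n ≃ₗ[ZMod 2] P n) : Matrix.SpecialLinearGroup (Fin (n + 2)) (ZMod 2) := ⟨blk 0 (B f), det_one (B := blk 0 (B f⁻¹)) (by
    rw [blk_mul, Matrix.zero_vecMul, zero_add, ← hB, mul_inv_cancel, hB1, blk_one])⟩
  let T : Multiplicative (P n) →* Matrix.SpecialLinearGroup (Fin (n + 2)) (ZMod 2) :=
    MonoidHom.mk' (fun x => mkT x.toAdd) fun x y => Subtype.ext (by
      show blk (e (x.toAdd + y.toAdd)) 1 = blk (e x.toAdd) 1 * blk (e y.toAdd) 1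
      rw [blk_mul, Matrix.vecMul_one, one_mul, map_add]
      exact congrArg (fun r => blk r 1) (add_comm _ _))
  let ι : (P n ≃ₗ[ZMod 2] P n) →* Matrix.SpecialLinearGroup (Fin (n + 2)) (ZMod 2) :=
    MonoidHom.mk' mkI fun f g => Subtype.ext (by
      show blk 0 (B (f * g)) = blk 0 (B f) * blk 0 (B g)
      rw [blk_mul, Matrix.zero_vecMul, zero_add, hB])
  have hz' : T (Multiplicative.ofAdd ((1, 0) : P n)) = z := by
    apply Subtype.ext
    rw [hz]
    show blk (e (1, 0)) 1 = _
    ext i j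
    have he : e ((1, 0) : P n) = (Fin.cons 1 0 : Fin (n + 1) → ZMod 2) := rfl
    rw [he]
    cases i using Fin.cases <;> cases j using Fin.cases <;>
      simp [blk, Matrix.transvection, Matrix.single_apply, Matrix.one_apply, Fin.succ_ne_zero, eq_comm]
    rename_i j
    cases j using Fin.cases <;> simp [Fin.ext_iff]
  refine ⟨⟨T, ι, ?_, ?_, ?_, ?_, ?_⟩, hz'⟩
  · intro x y h
    exact Multiplicative.toAdd.injective (e.injective (blk_inj (congrArg Subtype.val h)).1)
  · intro f g h
    have h1 : F f⁻¹ = F g⁻¹ := Matrix.transpose_injective (blk_inj (congrArg Subtype.val h)).2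
    refine inv_injective (LinearEquiv.ext fun v => e.injective ?_)
    rw [← hFx, ← hFx, h1]
  · intro f x
    refine mul_inv_eq_iff_eq_mul.2 (Subtype.ext ?_)
    show blk 0 (B f) * blk (e x) 1 = blk (e (f x)) 1 * blk 0 (B f)
    rw [blk_mul, blk_mul, Matrix.vecMul_one, Matrix.mul_one, Matrix.one_mul, zero_add, add_zero]
    congr 1
    simp only [B]
    rw [Matrix.vecMul_transpose, hFx]
    show e x = e ((f⁻¹ * f) x)
    rw [inv_mul_cancel]; rfl
  · intro g hg
    rw [hz'] at hg
    have hcol : ∀ h : Matrix.SpecialLinearGroup (Fin (n + 2)) (ZMod 2), h * z = z * h →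
        ∃ r C, (h : Matrix (Fin (n + 2)) (Fin (n + 2)) (ZMod 2)) = blk r C := by
      intro h hh
      have hm : (h : Matrix (Fin (n + 2)) (Fin (n + 2)) (ZMod 2)) * Matrix.transvection 0 1 1 = Matrix.transvection 0 1 1 * (h : Matrix (Fin (n + 2)) (Fin (n + 2)) (ZMod 2)) := by
        rw [← hz]; exact congrArg Subtype.val hh
      have h0 : ∀ i, i ≠ 0 → (h : Matrix (Fin (n + 2)) (Fin (n + 2)) (ZMod 2)) i 0 = 0 := by
        intro i hi
        have := congrFun (congrFun hm i) 1
        rw [Matrix.mul_transvection_apply_same, Matrix.transvection_mul_apply_of_ne _ _ _ _ hi, one_mul] at this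
        simpa using this
      have h00 : (h : Matrix (Fin (n + 2)) (Fin (n + 2)) (ZMod 2)) 0 0 = 1 := by
        rcases two_cases ((h : Matrix (Fin (n + 2)) (Fin (n + 2)) (ZMod 2)) 0 0) with e0 | e0
        · have := h.2
          rw [Matrix.det_eq_zero_of_column_eq_zero 0 (fun i => by
            by_cases hi : i = 0
            · rw [hi]; exact e0
            · exact h0 i hi)] at this
          exact absurd this zero_ne_one
        · exact e0
      refine ⟨fun j => (h : Matrix (Fin (n + 2)) (Fin (n + 2)) (ZMod 2)) 0 j.succ,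
        Matrix.of fun i j => (h : Matrix (Fin (n + 2)) (Fin (n + 2)) (ZMod 2)) i.succ j.succ, ?_⟩
      ext i j
      cases i using Fin.cases <;> cases j using Fin.cases <;>
        simp [blk, h00, h0 _ (Fin.succ_ne_zero _)]
    obtain ⟨r, C, hg1⟩ := hcol g hg
    obtain ⟨s, C', hg2⟩ := hcol g⁻¹ (Commute.inv_left (show Commute g z from hg)).eq
    have hCC : C * C' = 1 ∧ C' * C = 1 := by
      have a1 : blk r C * blk s C' = blk 0 1 := by
        rw [← hg1, ← hg2, blk_one]
        exact congrArg Subtype.val (mul_inv_cancel g)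
      have a2 : blk s C' * blk r C = blk 0 1 := by
        rw [← hg1, ← hg2, blk_one]
        exact congrArg Subtype.val (inv_mul_cancel g)
      rw [blk_mul] at a1 a2
      exact ⟨(blk_inj a1).2, (blk_inj a2).2⟩
    let L : (Fin (n + 1) → ZMod 2) ≃ₗ[ZMod 2] (Fin (n + 1) → ZMod 2) :=
      LinearEquiv.ofLinearMap (Matrix.toLin' C'ᵀ) (Matrix.toLin' Cᵀ)
        (by rw [← Matrix.toLin'_mul, ← Matrix.transpose_mul, hCC.1, Matrix.transpose_one, Matrix.toLin'_one])
        (by rw [← Matrix.toLin'_mul, ← Matrix.transpose_mul, hCC.2, Matrix.transpose_one, Matrix.toLin'_one])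
    let f0 : P n ≃ₗ[ZMod 2] P n := (e.trans L).trans e.symm
    have hBC : B f0 = C := by
      simp only [B]
      rw [← Matrix.transpose_transpose C]
      congr 1
      simp only [F]
      rw [show ((e.symm.trans f0⁻¹).trans e).toLinearMap = Matrix.toLin' Cᵀ from LinearMap.ext fun x => by
        show e (f0.symm (e.symm x)) = _
        simp [f0, L], LinearMap.toMatrix'_toLin']
    refine ⟨e.symm (r ᵥ* C'), f0, Subtype.ext ?_⟩
    show (g : Matrix (Fin (n + 2)) (Fin (n + 2)) (ZMod 2)) = blk (e (e.symm (r ᵥ* C'))) 1 * blk 0 (B f0)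
    rw [hg1, blk_mul, hBC, e.apply_symm_apply, Matrix.one_mul, Matrix.vecMul_vecMul, hCC.2, Matrix.vecMul_one, zero_add]
  · intro x f h
    have := (blk_inj (congrArg Subtype.val h)).1
    exact e.map_eq_zero_iff.1 this

end Matrices

/-- Let G be the special linear group of degree n + 2 over the field with two elements, n ≥ 2, let z be a transvection, and let Q be the largest normal 2-subgroup of the centralizer C of z. Then Q is extraspecial of order 2^(2n+1) with an elementary abelian subgroup of order 2^(n+1) (plus type), Q is a large extraspecial 2-subgroup of G, and C is the split extension of Q by the special linear group of degree n over the field with two elements. -/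
theorem result (n : ℕ) (hn : 2 ≤ n) (z : Matrix.SpecialLinearGroup (Fin (n + 2)) (ZMod 2)) (hz : (z : Matrix (Fin (n + 2)) (Fin (n + 2)) (ZMod 2)) = Matrix.transvection 0 1 1) (Q : Subgroup (Matrix.SpecialLinearGroup (Fin (n + 2)) (ZMod 2))) (hQ : Q = (Cfsg.pCore 2 ↥(Subgroup.centralizer ({z} : Set (Matrix.SpecialLinearGroup (Fin (n + 2)) (ZMod 2))))).map (Subgroup.centralizer ({z} : Set (Matrix.SpecialLinearGroup (Fin (n + 2)) (ZMod 2)))).subtype) : Cfsg.IsExtraspecial 2 ↥Q ∧ Nat.card ↥Q = 2 ^ (2 * n + 1) ∧ (∃ E : Subgroup (Matrix.SpecialLinearGroup (Fin (n + 2)) (ZMod 2)), E ≤ Q ∧ Cfsg.IsElementaryAbelian 2 E ∧ Nat.card ↥E = 2 ^ (n + 1)) ∧ Cfsg.IsLargeExtraspecial Q ∧ ∃ K : Subgroup (Matrix.SpecialLinearGroup (Fin (n + 2)) (ZMod 2)), K ≤ Subgroup.centralizer ({z} : Set (Matrix.SpecialLinearGroup (Fin (n + 2)) (ZMod 2))) ∧ Q ⊓ K = ⊥ ∧ Q ⊔ K = Subgroup.centralizer ({z} : Set (Matrix.SpecialLinearGroup (Fin (n + 2)) (ZMod 2))) ∧ Nonempty (↥K ≃* Matrix.SpecialLinearGroup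 (Fin n) (ZMod 2)) := by
  open Lib.LargeExtra in
  obtain ⟨D, hDz⟩ := exists_D n z hz
  subst hDz
  rw [D.pCore_eq] at hQ
  subst hQ
  have hn1 : 1 ≤ n := by omega
  obtain ⟨hE, hC, hN, hcentre, hzc⟩ := D.hyps hn1
  obtain ⟨f, hf⟩ := Lib.LargeExtra.Affine.transitive (Lib.LargeExtra.Affine.pairCoord n)
    (v := ((1, 0) : Lib.LargeExtra.Affine.P n)) (w := (0, Pi.single ⟨0, hn1⟩ 1)) (by simp) (by
      intro h
      have := congrFun (congrArg Prod.snd h) ⟨0, hn1⟩
      simp at this)
  have hfz : D.ι f * D.z * (D.ι f)⁻¹ = D.t (0, Pi.single ⟨0, hn1⟩ 1) := by rw [D.conj_t, hf]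
  have hne : D.ι f * D.z * (D.ι f)⁻¹ ≠ D.z := by
    rw [hfz]
    intro h
    have := congrArg Prod.fst (D.t_inj h)
    simp at this
  have hgN : D.ι f ∉ Subgroup.normalizer ((((Subgroup.center ↥D.Q).map D.Q.subtype) : Subgroup _) : Set _) := fun h => by
    rcases hcentre _ ((Subgroup.mem_normalizer_iff.1 h D.z).1 hzc) with e | e
    · exact D.z_ne (conj_eq_one_iff.1 e)
    · exact hne e
  have hle : (((Subgroup.center ↥D.Q).map D.Q.subtype)).map (MulAut.conj (D.ι f)).toMonoidHom ≤ D.Q := by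
    rintro _ ⟨a, ha, rfl⟩
    rcases hcentre a ha with rfl | rfl
    · simp
    · show D.ι f * D.z * (D.ι f)⁻¹ ∈ D.Q
      rw [hfz]; exact D.t_mem_Q _
  have hlarge := (S5422.result D.Q hE hC hN n hn D.card_Q (D.ι f) hgN hle).2.2
  obtain ⟨e⟩ := D.K_iso
  obtain ⟨e'⟩ := gl_iso_sl n
  exact ⟨hE, D.card_Q, D.elementary, hlarge, D.K, D.K_le, D.disjoint, D.sup_eq, ⟨e.trans e'⟩⟩

end Cfsg.Agent.S5424
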