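import Cfsg.Statements.S5425
import Cfsg.Agent.Lib.Golay.OctadCentralizer
-- import your own Cfsg.Agent.* helpers here

set_option autoImplicit false
open Cfsg

namespace Cfsg.Agent.S5425

/-- In the Mathieu group of degree 24 (the automorphism group of the length-24 binary Golay code, acting on the 24 coordinates), let z be an involution whose fixed points form an octad (the support of a code word of weight 8), and let Q be the largest normal 2-subgroup of the centralizer C of z. Then Q is extraspecial of order 2^7 with an elementary abelian subgroup of order 16 (plus type), Q is a large extraspecial 2-subgroup, and C is the split extension of Q by the special linear group of degree 3 over the field with two elements. -/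
theorem result (z : ↥Cfsg.M24) (hz : orderOf z = 2) (hfix : (Finset.univ.filter fun p : Cfsg.GolayPt => (z : Equiv.Perm Cfsg.GolayPt) p = p) ∈ Cfsg.octads) (Q : Subgroup ↥Cfsg.M24) (hQ : Q = (Cfsg.pCore 2 ↥(Subgroup.centralizer ({z} : Set ↥Cfsg.M24))).map (Subgroup.centralizer ({z} : Set ↥Cfsg.M24)).subtype) : Cfsg.IsExtraspecial 2 ↥Q ∧ Nat.card ↥Q = 2 ^ 7 ∧ (∃ E : Subgroup ↥Cfsg.M24, E ≤ Q ∧ Cfsg.IsElementaryAbelian 2 E ∧ Nat.card ↥E = 2 ^ 4) ∧ Cfsg.IsLargeExtraspecial Q ∧ ∃ K : Subgroup ↥Cfsg.M24, K ≤ Subgroup.centralizer ({z} : Set ↥Cfsg.M24) ∧ Q ⊓ K = ⊥ ∧ Q ⊔ K = Subgroup.centralizer ({z} : Set ↥Cfsg.M24) ∧ Nonempty (↥K ≃* Matrix.SpecialLinearGroup (Fin 3) (ZMod 2)) := by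
  set o := Finset.univ.filter fun p : GolayPt => (z : Equiv.Perm GolayPt) p = p with ho
  have hpt : (z : Equiv.Perm GolayPt) ∈ Lib.Golay.ptFix o :=
    Lib.Golay.mem_ptFix.2 ⟨z.2, fun p hp => (Finset.mem_filter.1 hp).2⟩
  let n : ↥(Lib.Golay.stSet o) := ⟨z, Lib.Golay.stSet_of_ptFix hpt⟩
  have hn1 : n ≠ 1 := fun h => by
    rw [show z = 1 from Subtype.ext (congrArg Subtype.val h :), orderOf_one] at hz
    omega
  obtain ⟨D, hD, hT⟩ := Lib.Golay.octad_data hfix (z := n) hpt hn1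
  have hinj := Lib.Golay.octIncl_injective o
  have hzi : Lib.Golay.octIncl o n = z := rfl
  have hQ' : Q = D.Q.map (Lib.Golay.octIncl o) := by
    rw [hQ, ← hzi]
    exact Lib.Golay.octad_pCore hfix hpt hn1 D hD
  have hC := Lib.Golay.map_centralizer_octIncl hfix (n := n) hpt hn1
  rw [hzi] at hC
  subst hQ'
  have hL := Lib.Golay.octad_large hfix hpt hn1 D hD hT
  obtain ⟨E, hEQ, hEel, hEcard⟩ := D.elementary
  obtain ⟨f⟩ := D.K_iso
  refine ⟨hL.1, ?_, ⟨E.map (Lib.Golay.octIncl o), Subgroup.map_mono hEQ, ⟨?_, ?_⟩, ?_⟩, hL, D.K.map (Lib.Golay.octIncl o), ?_, ?_, ?_, ?_⟩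
  · rw [Subgroup.card_map_of_injective hinj, D.card_Q]
  · refine ⟨⟨fun a b => Subtype.ext ?_⟩⟩
    obtain ⟨a', ha, ea⟩ := a.2
    obtain ⟨b', hb, eb⟩ := b.2
    show (a : ↥M24) * b = b * a
    rw [← ea, ← eb, ← map_mul, ← map_mul]
    exact congrArg _ (congrArg Subtype.val (hEel.1.is_comm.comm ⟨a', ha⟩ ⟨b', hb⟩))
  · rintro _ ⟨a, ha, rfl⟩
    rw [← map_pow, hEel.2 a ha, map_one]
  · rw [Subgroup.card_map_of_injective hinj, hEcard]
  · rw [← hC, ← hD]; exact Subgroup.map_mono D.K_le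
  · rw [← Subgroup.map_inf _ _ _ hinj, D.disjoint, Subgroup.map_bot]
  · rw [← Subgroup.map_sup, D.sup_eq, hD, hC]
  · exact ⟨((D.K.equivMapOfInjective _ hinj).symm.trans f).trans (Lib.Golay.glSl 3)⟩

end Cfsg.Agent.S5425
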