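import Cfsg.Statements.S5426
import Cfsg.Agent.Lib.LargeExtra.Structure
import Cfsg.Agent.Lib.LocalFusion.Basic
-- import your own Cfsg.Agent.* helpers here

set_option autoImplicit false
open Cfsg
open scoped commutatorElement

namespace Cfsg.Agent.S5426

open Cfsg Lib.LargeExtra.Structure in
theorem main {G : Type*} [Group G] [Finite G] {Q : Subgroup G} {z : G} (S : Setup Q z) (hzo : orderOf z = 2) (M : Subgroup G)
    (hM : M = Subgroup.normalClosure ({z} : Set G)) :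
    (IsMulCommutative ↥M ∧ Cfsg.generalizedFittingSubgroup G = Cfsg.pCore 2 G) ∨ (M = Cfsg.generalizedFittingSubgroup G ∧ IsSimpleGroup ↥M ∧ ¬ IsMulCommutative ↥M) ∨ (M = Cfsg.generalizedFittingSubgroup G ∧ ∃ (L : Subgroup G) (u : G), u ∈ Q ∧ IsSimpleGroup ↥L ∧ ¬ IsMulCommutative ↥L ∧ L ⊓ (L).map (MulAut.conj u).toMonoidHom = ⊥ ∧ (∀ x ∈ L, ∀ y ∈ (L).map (MulAut.conj u).toMonoidHom, x * y = y * x) ∧ L ⊔ (L).map (MulAut.conj u).toMonoidHom = M ∧ ∃ z₁ ∈ L, z = z₁ * (u * z₁ * u⁻¹) ∧ (∃ R : Sylow 2 ↥L, (R : Subgroup ↥L) = (Subgroup.centralizer ({z₁} : Set G)).subgroupOf L ∧ (frattini ↥(R : Subgroup ↥L)).map ((L.subtype).comp (R : Subgroup ↥L).subtype) ≤ Subgroup.zpowers z₁) ∧ Q ≠ (Cfsg.pCore 2 ↥(Subgroup.centralizer ({z} : Set G))).map (Subgroup.centralizer ({z} : Set G)).subtype) := by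
  classical
  haveI : Fact (Nat.Prime 2) := ⟨Nat.prime_two⟩
  by_cases hO : Cfsg.pCore 2 G = ⊥
  swap
  · exact Or.inl (hM ▸ S.two_core hO)
  right
  have hF := S.fitting_bot hO
  have hgfs : Cfsg.generalizedFittingSubgroup G = Cfsg.layer G := by rw [generalizedFittingSubgroup, hF, sup_bot_eq]
  rw [hgfs]
  have hzz : z * z = 1 := S.good.sq
  have hz1 : z ≠ 1 := S.good.ne
  have hqz : ∀ q ∈ Q, q * z = z * q := S.good.le
  haveI hEn : (Cfsg.layer G).Normal := inferInstance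
  have hEbot : Cfsg.layer G ≠ ⊥ := by
    intro h
    have h0 := Lib.Components.centralizer_gfs_le (G := G) (x := z)
    rw [hgfs, h] at h0
    exact hz1 (Subgroup.mem_bot.1 (h0 (Subgroup.mem_centralizer_iff.2 fun x hx => by
      rw [Subgroup.mem_bot.1 hx]; simp)))
  have hzE : z ∈ Cfsg.layer G := S.mem_of_normalized hEbot fun q _ x hx => hEn.conj_mem x hx q
  -- every component has a nontrivial part of `z`
  have hzrest : ∀ L, Cfsg.IsComponent L → z ∉ rest L := by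
    intro L hL hzr
    have hzL : ∀ x ∈ L, x * z = z * x := fun x hx => commute_rest hL hx hzr
    let T := ⨆ q : ↥Q, L.map (MulAut.conj (q : G)).toMonoidHom
    have hcomp : ∀ q : ↥Q, Cfsg.IsComponent (L.map (MulAut.conj (q : G)).toMonoidHom) := fun q => conj_comp hL q
    have hzT : z ∈ T := by
      refine S.mem_of_normalized ?_ ?_
      · intro h
        refine Lib.Components.comp_ne_bot hL (le_bot_iff.1 ?_)
        intro x hx
        rw [← h]
        exact le_iSup (fun q : ↥Q => L.map (MulAut.conj (q : G)).toMonoidHom) 1 (by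
          rw [mem_map_conj]; simpa using hx)
      · intro q hq x hx
        have hle : T.map (MulAut.conj q).toMonoidHom ≤ T := by
          simp only [T, Subgroup.map_iSup]
          refine iSup_le fun r => le_iSup_of_le (⟨q, hq⟩ * r) ?_
          rintro _ ⟨_, ⟨a, ha, rfl⟩, rfl⟩
          exact ⟨a, ha, by simp [mul_assoc]⟩
        exact hle ⟨x, hx, rfl⟩
    have hcT : ∀ x ∈ T, x * z = z * x := by
      intro x hx
      have hle : T ≤ Subgroup.centralizer ({z} : Set G) := iSup_le fun q => by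
        rintro _ ⟨a, ha, rfl⟩
        rw [Subgroup.mem_centralizer_singleton_iff]
        show (q : G) * a * (q : G)⁻¹ * z = z * ((q : G) * a * (q : G)⁻¹)
        exact (Commute.mul_left (Commute.mul_left (show Commute (q : G) z from hqz q q.2) (hzL a ha))
          (Commute.inv_left (show Commute (q : G) z from hqz q q.2))).eq
      exact Subgroup.mem_centralizer_singleton_iff.1 (hle hx)
    -- `z` is central in the layer
    have hcE : ∀ x ∈ Cfsg.layer G, x * z = z * x := by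
      intro x hx
      have hle : Cfsg.layer G ≤ Subgroup.centralizer ({z} : Set G) := Lib.Components.layer_le_iff.2 fun K hK k hk => by
        rw [Subgroup.mem_centralizer_singleton_iff]
        by_cases h : ∃ q : ↥Q, K = L.map (MulAut.conj (q : G)).toMonoidHom
        · obtain ⟨q, rfl⟩ := h
          exact hcT k (le_iSup (fun q : ↥Q => L.map (MulAut.conj (q : G)).toMonoidHom) q hk)
        · push Not at h
          exact commute_rest hK hk ((iSup_le fun q => comp_le_rest (hcomp q) (h q).symm : T ≤ rest K) hzT)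
      exact Subgroup.mem_centralizer_singleton_iff.1 (hle hx)
    haveI hcn : ((Subgroup.center ↥(Cfsg.layer G)).map (Cfsg.layer G).subtype).Normal := inferInstance
    have hnil : Group.IsNilpotent ↥((Subgroup.center ↥(Cfsg.layer G)).map (Cfsg.layer G).subtype) :=
      (Group.isNilpotent_congr (Subgroup.equivMapOfInjective _ _ (Cfsg.layer G).subtype_injective)).1
        (by open scoped IsMulCommutative in infer_instance)
    have hle := Lib.Components.le_fittingSubgroup_of_subnormal hcn.isSubnormal hnil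
    rw [hF] at hle
    exact hz1 (Subgroup.mem_bot.1 (hle ⟨⟨z, hzE⟩, Subgroup.mem_center_iff.2 fun x => Subtype.ext (hcE x x.2), rfl⟩))
  -- transitivity
  have htrans : ∀ L K, Cfsg.IsComponent L → Cfsg.IsComponent K → ∃ q ∈ Q, K = L.map (MulAut.conj q).toMonoidHom := by
    intro L K hL hK
    by_contra h
    push Not at h
    let T := ⨆ q : ↥Q, L.map (MulAut.conj (q : G)).toMonoidHom
    have hzT : z ∈ T := by
      refine S.mem_of_normalized ?_ ?_
      · intro h'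
        refine Lib.Components.comp_ne_bot hL (le_bot_iff.1 ?_)
        intro x hx
        rw [← h']
        exact le_iSup (fun q : ↥Q => L.map (MulAut.conj (q : G)).toMonoidHom) 1 (by
          rw [mem_map_conj]; simpa using hx)
      · intro q hq x hx
        have hle : T.map (MulAut.conj q).toMonoidHom ≤ T := by
          simp only [T, Subgroup.map_iSup]
          refine iSup_le fun r => le_iSup_of_le (⟨q, hq⟩ * r) ?_
          rintro _ ⟨_, ⟨a, ha, rfl⟩, rfl⟩
          exact ⟨a, ha, by simp [mul_assoc]⟩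
        exact hle ⟨x, hx, rfl⟩
    exact hzrest K hK ((iSup_le fun q => comp_le_rest (conj_comp hL q) (fun e => h q q.2 e.symm) : T ≤ rest K) hzT)
  have hME : M = Cfsg.layer G := by
    refine le_antisymm (hM ▸ Subgroup.normalClosure_le_normal (Set.singleton_subset_iff.2 hzE)) ?_
    rw [Lib.Components.layer_le_iff]
    intro L hL
    haveI : M.Normal := hM ▸ Subgroup.normalClosure_normal
    rcases Lib.Components.comp_normal_dichotomy (M := M) hL with h | h
    · exact h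
    · exfalso
      obtain ⟨a, ha, r, hr, e⟩ := split hL hzE
      rw [Subgroup.commutator_eq_bot_iff_le_centralizer] at h
      have hzM : z ∈ M := hM ▸ Subgroup.subset_normalClosure rfl
      have ha1 : a = 1 := (comp_simple hF hL).2.2 a ha fun y hy => by
        have c1 : Commute y z := (Subgroup.mem_centralizer_iff.1 (h hy) z hzM).symm
        have c2 : Commute y r := commute_rest hL hy hr
        have := (c1.mul_right c2.inv_right).eq
        rw [e] at this
        simpa using this.symm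
      rw [ha1, one_mul] at e
      exact hzrest L hL (e ▸ hr)
  obtain ⟨L, hL⟩ : ∃ L : Subgroup G, Cfsg.IsComponent L := by
    by_contra h
    push Not at h
    exact hEbot (Lib.Components.layer_eq_bot_iff.2 h)
  obtain ⟨hLs, hLna, hLc⟩ := comp_simple hF hL
  by_cases hall : ∀ K, Cfsg.IsComponent K → K = L
  · left
    have hEL : Cfsg.layer G = L := le_antisymm (Lib.Components.layer_le_iff.2 fun K hK => (hall K hK).le) (Lib.Components.comp_le_layer hL)
    refine ⟨hME, ?_, ?_⟩ <;> rw [hME, hEL]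
    exacts [hLs, hLna]
  push Not at hall
  obtain ⟨L', hL', hne⟩ := hall
  obtain ⟨u, hu, rfl⟩ := htrans L L' hL hL'
  set L' := L.map (MulAut.conj u).toMonoidHom with hL'd
  obtain ⟨z₁, hz₁, r, hr, hzdec⟩ := split hL hzE
  have huL : ∀ x ∈ L, u * x * u⁻¹ ∈ L' := fun x hx => ⟨x, hx, rfl⟩
  have hLL' : ∀ x ∈ L, ∀ y ∈ L', x * y = y * x := fun x hx y hy => commute_rest hL hx (comp_le_rest hL' hne hy)
  have hCz : ∀ c ∈ L, c * z₁ = z₁ * c → c * z = z * c := fun c hc h => by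
    rw [hzdec]
    exact (Commute.mul_right (show Commute c z₁ from h) (commute_rest hL hc hr)).eq
  -- the element `d`
  have hd : ∀ c ∈ L, c * z₁ = z₁ * c → c * (u * c⁻¹ * u⁻¹) ∈ Q := fun c hc h => by
    rw [show c * (u * c⁻¹ * u⁻¹) = (c * u * c⁻¹) * u⁻¹ by group]
    exact mul_mem (S.good.norm c (hCz c hc h) u hu) (inv_mem hu)
  have hsep : ∀ a ∈ L, ∀ b ∈ L', a * b = 1 → a = 1 ∧ b = 1 := fun a ha b hb h => by
    have := inter_rest hF hL ha (by rw [eq_inv_of_mul_eq_one_left h]; exact inv_mem (comp_le_rest hL' hne hb))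
    exact ⟨this, by rwa [this, one_mul] at h⟩
  have hmulLL' : ∀ a ∈ L, ∀ b ∈ L', ∀ a' ∈ L, ∀ b' ∈ L', (a * b) * (a' * b') = (a * a') * (b * b') := fun a _ b hb a' ha' b' _ => by
    rw [mul_assoc, ← mul_assoc b a', ← hLL' a' ha' b hb, mul_assoc, mul_assoc]
  have hinvc : ∀ c ∈ L, u * c⁻¹ * u⁻¹ ∈ L' := fun c hc => huL _ (inv_mem hc)
  -- squares and commutators
  have hsq : ∀ c ∈ L, c * z₁ = z₁ * c → c * c * (u * (c * c)⁻¹ * u⁻¹) = 1 ∨ c * c * (u * (c * c)⁻¹ * u⁻¹) = z := fun c hc h => by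
    have := S.good.sqr _ (hd c hc h)
    rwa [hmulLL' c hc _ (hinvc c hc) c hc _ (hinvc c hc),
      show u * c⁻¹ * u⁻¹ * (u * c⁻¹ * u⁻¹) = u * (c * c)⁻¹ * u⁻¹ by group] at this
  have hcm : ∀ c ∈ L, c * z₁ = z₁ * c → ∀ e ∈ L, e * z₁ = z₁ * e →
      (c * e * c⁻¹ * e⁻¹) * (u * (c⁻¹ * e⁻¹ * c * e) * u⁻¹) = 1 ∨ (c * e * c⁻¹ * e⁻¹) * (u * (c⁻¹ * e⁻¹ * c * e) * u⁻¹) = z := by
    intro c hc h e he h'
    have := S.good.comm _ (hd c hc h) _ (hd e he h')
    have hinv : ∀ a ∈ L, ∀ b ∈ L', (a * b)⁻¹ = a⁻¹ * b⁻¹ := fun a ha b hb => by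
      rw [mul_inv_rev]
      exact (hLL' a⁻¹ (inv_mem ha) b⁻¹ (inv_mem hb)).symm
    rw [hinv c hc _ (hinvc c hc), hinv e he _ (hinvc e he),
      hmulLL' c hc _ (hinvc c hc) e he _ (hinvc e he),
      hmulLL' _ (mul_mem hc he) _ (mul_mem (hinvc c hc) (hinvc e he)) _ (inv_mem hc) _ (inv_mem (hinvc c hc)),
      hmulLL' _ (mul_mem (mul_mem hc he) (inv_mem hc)) _ (mul_mem (mul_mem (hinvc c hc) (hinvc e he)) (inv_mem (hinvc c hc))) _ (inv_mem he) _ (inv_mem (hinvc e he)),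
      show u * c⁻¹ * u⁻¹ * (u * e⁻¹ * u⁻¹) * (u * c⁻¹ * u⁻¹)⁻¹ * (u * e⁻¹ * u⁻¹)⁻¹ = u * (c⁻¹ * e⁻¹ * c * e) * u⁻¹ by group] at this
    exact this
  have hz₁1 : z₁ ≠ 1 := fun e => hzrest L hL (by rw [hzdec, e, one_mul]; exact hr)
  have hz₁sq : z₁ * z₁ = 1 := by
    have h1 : (z₁ * z₁) * (r * r) = 1 := by
      rw [← hzz, hzdec, mul_assoc z₁ r, ← mul_assoc r z₁ r, ← commute_rest hL hz₁ hr]
      simp only [mul_assoc]
    exact (split_unique hF hL (mul_mem hz₁ hz₁) (mul_mem hr hr) (one_mem _) (one_mem _) (h1.trans (mul_one 1).symm)).1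
  have hz₁o : orderOf z₁ = 2 := orderOf_eq_prime (by rw [pow_two, hz₁sq]) hz₁1
  -- at most two components
  by_cases hthree : ∃ K, Cfsg.IsComponent K ∧ K ≠ L ∧ K ≠ L'
  · exfalso
    obtain ⟨K, hK, hKL, hKL'⟩ := hthree
    have hnz : ∀ a ∈ L, ∀ b ∈ L', a * b ≠ z := fun a ha b hb e =>
      hzrest K hK (e ▸ mul_mem (comp_le_rest hL hKL.symm ha) (comp_le_rest hL' hKL'.symm hb))
    have hel : ∀ c ∈ L, c * z₁ = z₁ * c → c * c = 1 := fun c hc h => by
      rcases hsq c hc h with e | e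
      · exact (hsep _ (mul_mem hc hc) _ (huL _ (inv_mem (mul_mem hc hc))) e).1
      · exact absurd e (hnz _ (mul_mem hc hc) _ (huL _ (inv_mem (mul_mem hc hc))))
    obtain ⟨v, hv, rfl⟩ := htrans L K hL hK
    refine not_selfCentralizing hLs hLna (a := (⟨z₁, hz₁⟩ : ↥L)) (by rw [Subgroup.orderOf_mk]; exact hz₁o) fun ⟨c, hc⟩ h => ?_
    have hcz : c * z₁ = z₁ * c := congrArg Subtype.val h
    have hcomp2 := conj_comp hL' v
    set K' := L'.map (MulAut.conj v).toMonoidHom with hK'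
    set K := L.map (MulAut.conj v).toMonoidHom with hKd
    set d := c * (u * c⁻¹ * u⁻¹) with hdd
    have hm1 : v * c⁻¹ * v⁻¹ ∈ K := ⟨c⁻¹, inv_mem hc, rfl⟩
    have hm2 : v * (u * c⁻¹ * u⁻¹)⁻¹ * v⁻¹ ∈ K' := ⟨_, inv_mem (hinvc c hc), rfl⟩
    have hcomm : c⁻¹ * (u * c⁻¹ * u⁻¹)⁻¹ = (u * c⁻¹ * u⁻¹)⁻¹ * c⁻¹ := hLL' _ (inv_mem hc) _ (inv_mem (hinvc c hc))
    have hexp : d * v * d⁻¹ * v⁻¹⁻¹⁻¹ = c * ((u * c⁻¹ * u⁻¹) * (v * c⁻¹ * v⁻¹) * (v * (u * c⁻¹ * u⁻¹)⁻¹ * v⁻¹)) := by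
      rw [hdd, mul_inv_rev, ← hcomm]; group
    rw [inv_inv] at hexp
    rcases S.good.comm d (hd c hc hcz) v hv with e | e <;> rw [hexp] at e
    · -- compare the parts in `L`
      by_cases hK'L : K' = L
      · left
        -- then `K` is the third component
        have hKK : ∀ x ∈ L, ∀ y ∈ K, x * y = y * x := fun x hx y hy => commute_rest hL hx (comp_le_rest hK hKL hy)
        have h2 : v * (u * c⁻¹ * u⁻¹)⁻¹ * v⁻¹ ∈ L := hK'L ▸ hm2
        have e' : (v * c⁻¹ * v⁻¹) * ((u * c⁻¹ * u⁻¹) * (c * (v * (u * c⁻¹ * u⁻¹)⁻¹ * v⁻¹))) = 1 := by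
          have key : ∀ V U W : G, Commute V U → Commute c U → Commute c V → V * (U * (c * W)) = c * (U * V * W) := fun V U W h1 h2 h3 => by
            rw [← mul_assoc U c, ← h2.eq, mul_assoc c U, ← mul_assoc V c, ← h3.eq, mul_assoc c V, ← mul_assoc V U, h1.eq]
          exact (key _ _ _ (commute_rest hK hm1 (comp_le_rest hL' hKL'.symm (hinvc c hc))) (hLL' c hc _ (hinvc c hc))
            (hKK c hc _ hm1)).trans e
        have hin : (u * c⁻¹ * u⁻¹) * (c * (v * (u * c⁻¹ * u⁻¹)⁻¹ * v⁻¹)) ∈ rest K :=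
          mul_mem (comp_le_rest hL' hKL'.symm (hinvc c hc)) (comp_le_rest hL hKL.symm (mul_mem hc h2))
        have h3 := (split_unique hF hK hm1 hin (one_mem _) (one_mem _) (e'.trans (mul_one 1).symm)).1
        exact Subtype.ext (inv_eq_one.1 (conj_eq_one_iff.1 h3))
      · left
        have hin : (u * c⁻¹ * u⁻¹) * (v * c⁻¹ * v⁻¹) * (v * (u * c⁻¹ * u⁻¹)⁻¹ * v⁻¹) ∈ rest L :=
          mul_mem (mul_mem (comp_le_rest hL' hne (hinvc c hc)) (comp_le_rest hK hKL hm1)) (comp_le_rest hcomp2 hK'L hm2)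
        exact Subtype.ext (split_unique hF hL hc hin (one_mem _) (one_mem _) (e.trans (mul_one 1).symm)).1
    · by_cases hK'L : K' = L
      · -- compare the parts in `L'`
        right
        have h2 : v * (u * c⁻¹ * u⁻¹)⁻¹ * v⁻¹ ∈ L := hK'L ▸ hm2
        have hin : c * (v * c⁻¹ * v⁻¹) * (v * (u * c⁻¹ * u⁻¹)⁻¹ * v⁻¹) ∈ rest L' :=
          mul_mem (mul_mem (comp_le_rest hL (Ne.symm hne) hc) (comp_le_rest hK hKL' hm1)) (comp_le_rest hL (Ne.symm hne) h2)
        have e' : (u * c⁻¹ * u⁻¹) * (c * (v * c⁻¹ * v⁻¹) * (v * (u * c⁻¹ * u⁻¹)⁻¹ * v⁻¹)) = z := by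
          have key : ∀ U V W : G, Commute c U → U * (c * V * W) = c * (U * V * W) := fun U V W h => by
            rw [mul_assoc c V, ← mul_assoc U c, ← h.eq, mul_assoc c U, ← mul_assoc U V]
          exact (key _ _ _ (hLL' c hc _ (hinvc c hc))).trans e
        have hz' : (u * z₁ * u⁻¹) * (u * r * u⁻¹) = z := by
          rw [show u * z₁ * u⁻¹ * (u * r * u⁻¹) = u * (z₁ * r) * u⁻¹ by group, ← hzdec, hqz u hu]; group
        have hr' : u * r * u⁻¹ ∈ rest L' := by
          have hle : (rest L).map (MulAut.conj u).toMonoidHom ≤ rest L' := by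
            simp only [rest, Subgroup.map_le_iff_le_comap, sSup_le_iff]
            intro A hA
            rw [← Subgroup.map_le_iff_le_comap]
            refine comp_le_rest (conj_comp hA.1 u) fun q => hA.2 ?_
            exact Subgroup.map_injective (MulAut.conj u).injective q
          exact hle ⟨r, hr, rfl⟩
        have h3 := (split_unique hF hL' (hinvc c hc) hin (huL _ hz₁) hr' (e'.trans hz'.symm)).1
        have h4 : c⁻¹ = z₁ := mul_left_cancel (mul_right_cancel h3)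
        exact Subtype.ext (inv_injective (h4.trans (inv_eq_of_mul_eq_one_right hz₁sq).symm))
      · right
        have hin : (u * c⁻¹ * u⁻¹) * (v * c⁻¹ * v⁻¹) * (v * (u * c⁻¹ * u⁻¹)⁻¹ * v⁻¹) ∈ rest L :=
          mul_mem (mul_mem (comp_le_rest hL' hne (hinvc c hc)) (comp_le_rest hK hKL hm1)) (comp_le_rest hcomp2 hK'L hm2)
        exact Subtype.ext (split_unique hF hL hc hin hz₁ hr (e.trans hzdec)).1
  push Not at hthree
  right
  have hrestL : rest L ≤ L' := sSup_le fun K hK => by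
    rw [hthree K hK.1 hK.2]
  have hEsup : L ⊔ L' = Cfsg.layer G := le_antisymm (sup_le (Lib.Components.comp_le_layer hL) (Lib.Components.comp_le_layer hL'))
    (Lib.Components.layer_le_iff.2 fun K hK => by
      by_cases h : K = L
      · exact h ▸ le_sup_left
      · exact (hthree K hK h).le.trans le_sup_right)
  have hinter : L ⊓ L' = ⊥ := (Subgroup.eq_bot_iff_forall _).2 fun x hx =>
    inter_rest hF hL hx.1 (comp_le_rest hL' hne hx.2)
  have huL'L : L'.map (MulAut.conj u).toMonoidHom = L := by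
    by_contra h
    have h' := hthree _ (conj_comp hL' u) h
    exact hne (Subgroup.map_injective (MulAut.conj u).injective h')
  have hzu : z = z₁ * (u * z₁ * u⁻¹) := by
    have hr' : u * r * u⁻¹ ∈ L := huL'L.le ⟨r, hrestL hr, rfl⟩
    have e1 : (u * r * u⁻¹) * (u * z₁ * u⁻¹) = z₁ * r := by
      rw [hLL' _ hr' _ (huL _ hz₁), show u * z₁ * u⁻¹ * (u * r * u⁻¹) = u * (z₁ * r) * u⁻¹ by group, ← hzdec, hqz u hu]
      group
    obtain ⟨-, h2⟩ := split_unique hF hL hr' (comp_le_rest hL' hne (huL _ hz₁)) hz₁ hr e1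
    rw [h2, ← hzdec]
  have huu : u * u = 1 ∨ u * u = z := S.good.sqr u hu
  have hval : ∀ a ∈ L, ∀ b ∈ L', a * b = 1 ∨ a * b = z → a = 1 ∨ a = z₁ := by
    intro a ha b hb h
    rcases h with e | e
    · exact Or.inl (hsep a ha b hb e).1
    · exact Or.inr (split_unique hF hL ha (comp_le_rest hL' hne hb) hz₁ hr (e.trans hzdec)).1
  have hsq' : ∀ c ∈ L, c * z₁ = z₁ * c → c * c = 1 ∨ c * c = z₁ := fun c hc h =>
    hval _ (mul_mem hc hc) _ (huL _ (inv_mem (mul_mem hc hc))) (hsq c hc h)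
  have hcm' : ∀ c ∈ L, c * z₁ = z₁ * c → ∀ e ∈ L, e * z₁ = z₁ * e → c * e * c⁻¹ * e⁻¹ = 1 ∨ c * e * c⁻¹ * e⁻¹ = z₁ :=
    fun c hc h e he h' => hval _ (mul_mem (mul_mem (mul_mem hc he) (inv_mem hc)) (inv_mem he)) _
      (huL _ (mul_mem (mul_mem (mul_mem (inv_mem hc) (inv_mem he)) hc) he)) (hcm c hc h e he h')
  set R := (Subgroup.centralizer ({z₁} : Set G)).subgroupOf L with hRd
  have hRmem : ∀ x : ↥L, x ∈ R ↔ (x : G) * z₁ = z₁ * x := fun x =>
    Subgroup.mem_subgroupOf.trans Subgroup.mem_centralizer_singleton_iff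
  have hRp : IsPGroup 2 ↥R := by
    intro c
    refine ⟨2, ?_⟩
    apply Subtype.ext; apply Subtype.ext
    show (((c : ↥L) : G)) ^ 2 ^ 2 = 1
    have hc := (hRmem c).1 c.2
    rcases hsq' _ (c : ↥L).2 hc with e | e
    · rw [show (2 : ℕ) ^ 2 = 2 * 2 by norm_num, pow_mul, pow_two ((c : ↥L) : G), e, one_pow]
    · rw [show (2 : ℕ) ^ 2 = 2 * 2 by norm_num, pow_mul, pow_two ((c : ↥L) : G), e, pow_two, hz₁sq]
  obtain ⟨P, hP⟩ := hRp.exists_le_sylow
  have hPR : (P : Subgroup ↥L) = R := by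
    by_contra hne'
    have hlt : R < (P : Subgroup ↥L) := lt_of_le_of_ne hP fun e => hne' e.symm
    haveI := P.isPGroup'.isNilpotent
    obtain ⟨n, hnP, hnR, hnN⟩ := Lib.LocalFusion.exists_mem_normalizer_not_mem (inferInstance : Group.IsNilpotent ↥(P : Subgroup ↥L)) hlt
    have hnR' : (n : G) * z₁ ≠ z₁ * n := fun e => hnR ((hRmem n).2 e)
    have hnconj : ∀ c ∈ L, c * z₁ = z₁ * c → (n : G) * c * (n : G)⁻¹ ∈ L ∧ (n : G) * c * (n : G)⁻¹ * z₁ = z₁ * ((n : G) * c * (n : G)⁻¹) := by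
      intro c hc h
      exact ⟨mul_mem (mul_mem n.2 hc) (inv_mem n.2), (hRmem _).1 ((Subgroup.mem_normalizer_iff.1 hnN ⟨c, hc⟩).1 ((hRmem ⟨c, hc⟩).2 h))⟩
    have hn1 : (n : G) * z₁ * (n : G)⁻¹ ≠ 1 := fun e => hz₁1 (conj_eq_one_iff.1 e)
    -- `R` is elementary abelian
    have hel : ∀ c ∈ L, c * z₁ = z₁ * c → c * c = 1 := by
      intro c hc h
      refine (hsq' c hc h).resolve_right fun e => hnR' (mul_inv_eq_iff_eq_mul.1 ?_)
      obtain ⟨h1, h2⟩ := hnconj c hc h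
      have h3 : (n : G) * z₁ * (n : G)⁻¹ = (n : G) * c * (n : G)⁻¹ * ((n : G) * c * (n : G)⁻¹) := by rw [← e]; group
      rw [h3] at hn1 ⊢
      exact (hsq' _ h1 h2).resolve_left hn1
    have hab : ∀ c ∈ L, c * z₁ = z₁ * c → ∀ e ∈ L, e * z₁ = z₁ * e → c * e = e * c := by
      intro c hc h e he h'
      have h3 := hel _ (mul_mem hc he) (Commute.mul_left (show Commute c z₁ from h) h').eq
      calc c * e = (c * e)⁻¹ := (inv_eq_of_mul_eq_one_right h3).symm
        _ = e * c := by rw [mul_inv_rev, inv_eq_of_mul_eq_one_right (hel c hc h), inv_eq_of_mul_eq_one_right (hel e he h')]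
    -- the involutions `d` and the action of `Q` on them
    have hdu : ∀ c ∈ L, c * z₁ = z₁ * c → u * (c * (u * c⁻¹ * u⁻¹)) * u⁻¹ = c * (u * c⁻¹ * u⁻¹) := by
      intro c hc h
      have hci : c⁻¹ = c := inv_eq_of_mul_eq_one_right (hel c hc h)
      have huu' : u * u * c * (u * u)⁻¹ = c := by
        rcases huu with e | e <;> rw [e]
        · simp
        · rw [← hCz c hc h, mul_inv_cancel_right]
      rw [hci, show u * (c * (u * c * u⁻¹)) * u⁻¹ = u * c * u⁻¹ * (u * u * c * (u * u)⁻¹) by group, huu']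
      exact (hLL' c hc _ (huL c hc)).symm
    set y := (n : G) * z₁ * (n : G)⁻¹ with hyd
    obtain ⟨hyL, hyz⟩ := hnconj z₁ hz₁ rfl
    have hvfind : ∀ x ∈ L, x * z₁ = z₁ * x → ∀ V : Subgroup G, V ≤ Q → z ∈ V → x * (u * x⁻¹ * u⁻¹) ∉ V →
        ∃ v : G, (∀ a ∈ L, v * a * v⁻¹ ∈ L) ∧ v * z₁ * v⁻¹ = z₁ ∧ v * x * v⁻¹ = z₁ * x ∧
          (∀ c ∈ L, c * z₁ = z₁ * c → v * c * v⁻¹ = c ∨ v * c * v⁻¹ = z₁ * c) ∧
          (∀ c ∈ L, c * z₁ = z₁ * c → c * (u * c⁻¹ * u⁻¹) ∈ V → v * c * v⁻¹ = c) := by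
      intro x hxL hxz V hVQ hzV hxV
      obtain ⟨q, hq, hqV, hqx⟩ := Lib.Singular.exists_separator S.good hVQ hzV (hd x hxL hxz) hxV
      obtain ⟨v, hvQ, hvL, hvV, hvx⟩ : ∃ v ∈ Q, L.map (MulAut.conj v).toMonoidHom = L ∧
          (∀ c ∈ L, c * z₁ = z₁ * c → c * (u * c⁻¹ * u⁻¹) ∈ V → v * (c * (u * c⁻¹ * u⁻¹)) * v⁻¹ = c * (u * c⁻¹ * u⁻¹)) ∧
          v * (x * (u * x⁻¹ * u⁻¹)) * v⁻¹ = z * (x * (u * x⁻¹ * u⁻¹)) := by
        have hqV' : ∀ c ∈ L, c * (u * c⁻¹ * u⁻¹) ∈ V → q * (c * (u * c⁻¹ * u⁻¹)) * q⁻¹ = c * (u * c⁻¹ * u⁻¹) :=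
          fun c _ hcV => mul_inv_eq_iff_eq_mul.2 (hqV _ hcV)
        by_cases hqL : L.map (MulAut.conj q).toMonoidHom = L
        · exact ⟨q, hq, hqL, fun c hc _ hcV => hqV' c hc hcV, hqx⟩
        · have hqL' := hthree _ (conj_comp hL q) hqL
          refine ⟨u * q, mul_mem hu hq, ?_, fun c hc hcz hcV => ?_, ?_⟩
          · have hmm : (L.map (MulAut.conj q).toMonoidHom).map (MulAut.conj u).toMonoidHom = L.map (MulAut.conj (u * q)).toMonoidHom := by
              rw [Subgroup.map_map]; congr 1; ext a; simp [mul_assoc]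
            rw [← hmm, hqL', huL'L]
          · rw [show u * q * (c * (u * c⁻¹ * u⁻¹)) * (u * q)⁻¹ = u * (q * (c * (u * c⁻¹ * u⁻¹)) * q⁻¹) * u⁻¹ by group,
              hqV' c hc hcV, hdu c hc hcz]
          · rw [show u * q * (x * (u * x⁻¹ * u⁻¹)) * (u * q)⁻¹ = u * (q * (x * (u * x⁻¹ * u⁻¹)) * q⁻¹) * u⁻¹ by group, hqx,
              show u * (z * (x * (u * x⁻¹ * u⁻¹))) * u⁻¹ = (u * z * u⁻¹) * (u * (x * (u * x⁻¹ * u⁻¹)) * u⁻¹) by group,
              hdu x hxL hxz, mul_inv_eq_iff_eq_mul.2 (hqz u hu)]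
      have hvmem : ∀ a ∈ L, v * a * v⁻¹ ∈ L := fun a ha => hvL.le ⟨a, ha, rfl⟩
      have hvmem' : ∀ a ∈ L', v * a * v⁻¹ ∈ L' := by
        intro a ha
        have hh : L'.map (MulAut.conj v).toMonoidHom = L' := by
          refine hthree _ (conj_comp hL' v) fun e => hne ?_
          exact Subgroup.map_injective (MulAut.conj v).injective (e.trans hvL.symm)
        exact hh.le ⟨a, ha, rfl⟩
      have hproj : ∀ c ∈ L, ∀ a ∈ L, ∀ b ∈ L', v * (c * (u * c⁻¹ * u⁻¹)) * v⁻¹ = a * b → v * c * v⁻¹ = a := by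
        intro c hc a ha b hb e
        refine (split_unique hF hL (hvmem c hc) (comp_le_rest hL' hne (hvmem' _ (hinvc c hc))) ha (comp_le_rest hL' hne hb) ?_).1
        rw [← e]; group
      have hz₁v : v * z₁ * v⁻¹ = z₁ := by
        have hzd : z₁ * (u * z₁⁻¹ * u⁻¹) = z := by rw [inv_eq_of_mul_eq_one_right hz₁sq, ← hzu]
        refine hproj z₁ hz₁ z₁ hz₁ _ (huL _ (inv_mem hz₁)) ?_
        rw [hzd, hqz v hvQ]; group
      have hzx : z * (x * (u * x⁻¹ * u⁻¹)) = (z₁ * x) * ((u * z₁ * u⁻¹) * (u * x⁻¹ * u⁻¹)) := by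
        rw [hzu]
        exact hmulLL' _ hz₁ _ (huL _ hz₁) _ hxL _ (hinvc x hxL)
      refine ⟨v, hvmem, hz₁v, hproj x hxL _ (mul_mem hz₁ hxL) _ (mul_mem (huL _ hz₁) (hinvc x hxL)) (hvx.trans hzx),
        fun c hc hcz => ?_, fun c hc hcz hcV => hproj c hc c hc _ (hinvc c hc) (hvV c hc hcz hcV)⟩
      rcases S.good.comm v hvQ _ (hd c hc hcz) with e | e
      · left
        exact hproj c hc c hc _ (hinvc c hc) (mul_inv_eq_iff_eq_mul.2 ((Lib.Singular.comm_iff _ _).1 e))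
      · right
        refine hproj c hc _ (mul_mem hz₁ hc) ((u * z₁ * u⁻¹) * (u * c⁻¹ * u⁻¹)) (mul_mem (huL _ hz₁) (hinvc c hc)) ?_
        rw [show v * (c * (u * c⁻¹ * u⁻¹)) * v⁻¹ = (v * (c * (u * c⁻¹ * u⁻¹)) * v⁻¹ * (c * (u * c⁻¹ * u⁻¹))⁻¹) * (c * (u * c⁻¹ * u⁻¹)) by group, e, hzu]
        exact hmulLL' _ hz₁ _ (huL _ hz₁) _ hc _ (hinvc c hc)
    have hyy : y * y = 1 := hel y hyL hyz
    have hy1 : y ≠ z₁ := fun e => hnR' (mul_inv_eq_iff_eq_mul.1 e)
    -- `R` has order four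
    have hfour : ∀ x ∈ L, x * z₁ = z₁ * x → x = 1 ∨ x = z₁ ∨ x = y ∨ x = z₁ * y := by
      intro x hxL hxz
      by_contra hcon
      push Not at hcon
      have hV : x * (u * x⁻¹ * u⁻¹) ∉ Subgroup.closure ({z, y * (u * y⁻¹ * u⁻¹)} : Set G) := by
        intro hm
        have hsub : ∀ w ∈ Subgroup.closure ({z, y * (u * y⁻¹ * u⁻¹)} : Set G), ∃ a, (a = 1 ∨ a = z₁ ∨ a = y ∨ a = z₁ * y) ∧ ∃ b ∈ L', w = a * b := by
          intro w hw
          have b1 : ∀ t, z₁ * (z₁ * t) = t := fun t => by rw [← mul_assoc, hz₁sq, one_mul]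
          have b2 : ∀ t, y * (y * t) = t := fun t => by rw [← mul_assoc, hyy, one_mul]
          have b3 : ∀ t, y * (z₁ * t) = z₁ * (y * t) := fun t => by rw [← mul_assoc, hyz, mul_assoc]
          have hin : ∀ a, (a = 1 ∨ a = z₁ ∨ a = y ∨ a = z₁ * y) → a ∈ L := by
            rintro a (rfl | rfl | rfl | rfl)
            exacts [one_mem _, hz₁, hyL, mul_mem hz₁ hyL]
          induction hw using Subgroup.closure_induction with
          | mem w hw =>
            rcases hw with rfl | rfl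
            · exact ⟨z₁, Or.inr (Or.inl rfl), _, huL _ hz₁, hzu⟩
            · exact ⟨y, Or.inr (Or.inr (Or.inl rfl)), _, hinvc y hyL, rfl⟩
          | one => exact ⟨1, Or.inl rfl, 1, one_mem _, by simp⟩
          | mul p q _ _ ip iq =>
            obtain ⟨a, ha, b, hb, rfl⟩ := ip
            obtain ⟨a', ha', b', hb', rfl⟩ := iq
            refine ⟨a * a', ?_, b * b', mul_mem hb hb', hmulLL' a (hin a ha) b hb a' (hin a' ha') b' hb'⟩
            clear hb hb'
            rcases ha with e | e | e | e <;> rcases ha' with e' | e' | e' | e' <;> rw [e, e'] <;>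
              simp [mul_assoc, b1, b2, b3, hz₁sq, hyy, hyz]
            all_goals first | exact Or.inr (Or.inr (Or.inr hyz)) | exact Or.inr (Or.inr (Or.inl (by rw [hyz, b1])))
          | inv p _ ip =>
            obtain ⟨a, ha, b, hb, rfl⟩ := ip
            refine ⟨a⁻¹, ?_, b⁻¹, inv_mem hb, by rw [mul_inv_rev, hLL' _ (inv_mem (hin a ha)) _ (inv_mem hb)]⟩
            clear hb
            rcases ha with e | e | e | e <;> rw [e] <;>
              simp [inv_eq_of_mul_eq_one_right hz₁sq, inv_eq_of_mul_eq_one_right hyy, hyz]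
            all_goals exact Or.inr (Or.inr (Or.inr hyz))
        obtain ⟨a, ha, b, hb, e⟩ := hsub _ hm
        have hain : a ∈ L := by
          rcases ha with rfl | rfl | rfl | rfl
          exacts [one_mem _, hz₁, hyL, mul_mem hz₁ hyL]
        have h5 := (split_unique hF hL hxL (comp_le_rest hL' hne (hinvc x hxL)) hain (comp_le_rest hL' hne hb) e).1
        rcases ha with rfl | rfl | rfl | rfl
        exacts [hcon.1 h5, hcon.2.1 h5, hcon.2.2.1 h5, hcon.2.2.2 h5]
      have hVQ : Subgroup.closure ({z, y * (u * y⁻¹ * u⁻¹)} : Set G) ≤ Q :=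
        (Subgroup.closure_le _).2 (Set.insert_subset S.good.mem (Set.singleton_subset_iff.2 (hd y hyL hyz)))
      obtain ⟨v, hvmem, hvz, hvx, hvc, hvfix⟩ := hvfind x hxL hxz _ hVQ (Subgroup.subset_closure (by simp)) hV
      have hvy : v * y * v⁻¹ = y := hvfix y hyL hyz (Subgroup.subset_closure (by simp))
      -- `v n v⁻¹` agrees with `n` on `R`
      have hmL : v * (n : G) * v⁻¹ ∈ L := hvmem n n.2
      have hτ : ((n : G)⁻¹ * (v * (n : G) * v⁻¹)) * z₁ = z₁ * ((n : G)⁻¹ * (v * (n : G) * v⁻¹)) := by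
        apply mul_inv_eq_iff_eq_mul.1
        calc (n : G)⁻¹ * (v * n * v⁻¹) * z₁ * ((n : G)⁻¹ * (v * n * v⁻¹))⁻¹
            = (n : G)⁻¹ * (v * (n * (v⁻¹ * z₁ * v) * (n : G)⁻¹) * v⁻¹) * n := by group
          _ = (n : G)⁻¹ * (v * (n * z₁ * (n : G)⁻¹) * v⁻¹) * n := by
            rw [show v⁻¹ * z₁ * v = z₁ by
              calc v⁻¹ * z₁ * v = v⁻¹ * (v * z₁ * v⁻¹) * v := by rw [hvz]
                _ = z₁ := by group]
          _ = z₁ := by rw [← hyd, hvy, hyd]; group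
      -- choose the preimage of `x`
      have hninv : (n : G)⁻¹ * x * n * z₁ = z₁ * ((n : G)⁻¹ * x * n) := by
        have := (hRmem _).1 ((Subgroup.mem_normalizer_iff.1 (inv_mem hnN) ⟨x, hxL⟩).1 ((hRmem ⟨x, hxL⟩).2 hxz))
        simpa using this
      set s := (n : G)⁻¹ * x * n with hsd
      have hsL : s ∈ L := mul_mem (mul_mem (inv_mem n.2) hxL) n.2
      have hτs : ((n : G)⁻¹ * (v * (n : G) * v⁻¹)) * (v * s * v⁻¹) = (v * s * v⁻¹) * ((n : G)⁻¹ * (v * (n : G) * v⁻¹)) := by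
        refine hab _ (mul_mem (inv_mem n.2) hmL) hτ _ (hvmem s hsL) ?_
        calc v * s * v⁻¹ * z₁ = v * s * v⁻¹ * (v * z₁ * v⁻¹) := by rw [hvz]
          _ = v * (s * z₁) * v⁻¹ := by group
          _ = v * (z₁ * s) * v⁻¹ := by rw [hninv]
          _ = (v * z₁ * v⁻¹) * (v * s * v⁻¹) := by group
          _ = _ := by rw [hvz]
      have key : v * x * v⁻¹ = (n : G) * (v * s * v⁻¹) * (n : G)⁻¹ := by
        calc v * x * v⁻¹ = (n : G) * (((n : G)⁻¹ * (v * (n : G) * v⁻¹)) * (v * s * v⁻¹) * ((n : G)⁻¹ * (v * (n : G) * v⁻¹))⁻¹) * (n : G)⁻¹ := by rw [hsd]; group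
          _ = _ := by rw [hτs, mul_inv_cancel_right]
      rw [hvx] at key
      rcases hvc s hsL hninv with e | e <;> rw [e] at key
      · rw [hsd, show (n : G) * ((n : G)⁻¹ * x * n) * (n : G)⁻¹ = x by group] at key
        exact hz₁1 (mul_right_cancel (key.trans (one_mul x).symm))
      · rw [show (n : G) * (z₁ * s) * (n : G)⁻¹ = ((n : G) * z₁ * (n : G)⁻¹) * ((n : G) * s * (n : G)⁻¹) by group,
          hsd, show (n : G) * ((n : G)⁻¹ * x * n) * (n : G)⁻¹ = x by group, ← hyd] at key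
        exact hy1 (mul_right_cancel key).symm
    -- `n` interchanges `z₁` and `y`
    obtain ⟨hnyL, hnyz⟩ := hnconj y hyL hyz
    have hny : (n : G) * y * (n : G)⁻¹ = z₁ := by
      rcases hfour _ hnyL hnyz with e | e | e | e
      · exfalso; exact hn1 (conj_eq_one_iff.1 e)
      · exact e
      · exact absurd (mul_left_cancel (mul_right_cancel (e.trans hyd))) hy1
      · -- `n` would have order three on `R`
        exfalso
        have hfix3 : (n : G) ^ 3 * z₁ * ((n : G) ^ 3)⁻¹ = z₁ := by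
          rw [show (n : G) ^ 3 * z₁ * ((n : G) ^ 3)⁻¹ = n * (n * (n * z₁ * (n : G)⁻¹) * (n : G)⁻¹) * (n : G)⁻¹ by
              rw [pow_succ, pow_succ, pow_one]; group,
            ← hyd, e, show (n : G) * (z₁ * y) * (n : G)⁻¹ = (n * z₁ * (n : G)⁻¹) * (n * y * (n : G)⁻¹) by group, ← hyd, e,
            ← mul_assoc, hyz, mul_assoc, hyy, mul_one]
        obtain ⟨k, hk⟩ := P.isPGroup' ⟨n, hnP⟩
        have hk' : (n : G) ^ 2 ^ k = 1 := by
          have := congrArg (fun t : ↥(P : Subgroup ↥L) => ((t : ↥L) : G)) hk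
          simpa using this
        have hcop : (orderOf (n : G)).Coprime 3 :=
          Nat.Coprime.coprime_dvd_left (orderOf_dvd_of_pow_eq_one hk') ((by norm_num : Nat.Coprime 2 3).pow_left k)
        obtain ⟨m, hm⟩ := exists_pow_eq_self_of_coprime (x := (n : G)) (n := 3) hcop.symm
        apply hnR'
        rw [← hm]
        exact ((show Commute ((n : G) ^ 3) z₁ from mul_inv_eq_iff_eq_mul.1 hfix3).pow_left m).eq
    have hdy : y * (u * y⁻¹ * u⁻¹) ∉ Subgroup.zpowers z := by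
      intro hm
      obtain ⟨k, hk⟩ := Subgroup.mem_zpowers_iff.1 hm
      have hzk : y * (u * y⁻¹ * u⁻¹) = 1 ∨ y * (u * y⁻¹ * u⁻¹) = z := by
        rcases Int.even_or_odd k with ⟨j, rfl⟩ | ⟨j, rfl⟩
        · left; rw [← hk, ← two_mul, zpow_mul, zpow_two, hzz, one_zpow]
        · right; rw [← hk, zpow_add, zpow_mul, zpow_two, hzz, one_zpow, one_mul, zpow_one]
      rcases hval y hyL _ (hinvc y hyL) hzk with e | e
      exacts [hn1 e, hy1 e]
    obtain ⟨v, hvmem, hvz, hvy, -, -⟩ := hvfind y hyL hyz _ (Subgroup.zpowers_le.2 S.good.mem) (Subgroup.mem_zpowers z) hdy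
    have hvzy : v * (z₁ * y) * v⁻¹ = y := by
      rw [show v * (z₁ * y) * v⁻¹ = (v * z₁ * v⁻¹) * (v * y * v⁻¹) by group, hvz, hvy, ← mul_assoc, hz₁sq, one_mul]
    have hvinv : v⁻¹ * z₁ * v = z₁ ∧ v⁻¹ * y * v = z₁ * y := by
      constructor
      · calc v⁻¹ * z₁ * v = v⁻¹ * (v * z₁ * v⁻¹) * v := by rw [hvz]
          _ = z₁ := by group
      · calc v⁻¹ * y * v = v⁻¹ * (v * (z₁ * y) * v⁻¹) * v := by rw [hvzy]
          _ = z₁ * y := by group
    have hnzy : (n : G) * (z₁ * y) * (n : G)⁻¹ = y * z₁ := by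
      rw [show (n : G) * (z₁ * y) * (n : G)⁻¹ = (n * z₁ * (n : G)⁻¹) * (n * y * (n : G)⁻¹) by group, ← hyd, hny]
    set m := v * (n : G) * v⁻¹ with hmd
    have hmL : m ∈ L := hvmem n n.2
    have hmy : m * y * m⁻¹ = y := by
      calc m * y * m⁻¹ = v * (n * (v⁻¹ * y * v) * (n : G)⁻¹) * v⁻¹ := by rw [hmd]; group
        _ = v * (z₁ * y) * v⁻¹ := by rw [hvinv.2, hnzy, hyz]
        _ = y := hvzy
    have hmz : m * z₁ * m⁻¹ = z₁ * y := by
      calc m * z₁ * m⁻¹ = v * (n * (v⁻¹ * z₁ * v) * (n : G)⁻¹) * v⁻¹ := by rw [hmd]; group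
        _ = z₁ * y := by rw [hvinv.1, ← hyd, hvy]
    have hτ' : ((n : G)⁻¹ * m * n) * z₁ = z₁ * ((n : G)⁻¹ * m * n) := by
      apply mul_inv_eq_iff_eq_mul.1
      calc (n : G)⁻¹ * m * n * z₁ * ((n : G)⁻¹ * m * n)⁻¹ = (n : G)⁻¹ * (m * (n * z₁ * (n : G)⁻¹) * m⁻¹) * n := by group
        _ = z₁ := by rw [← hyd, hmy, hyd]; group
    have hyc : ((n : G)⁻¹ * m * n) * y = y * ((n : G)⁻¹ * m * n) :=
      hab _ (mul_mem (mul_mem (inv_mem n.2) hmL) n.2) hτ' y hyL hyz
    have hmz' : m * z₁ * m⁻¹ = z₁ := by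
      calc m * z₁ * m⁻¹ = m * (n * y * (n : G)⁻¹) * m⁻¹ := by rw [hny]
        _ = n * (((n : G)⁻¹ * m * n) * y * ((n : G)⁻¹ * m * n)⁻¹) * (n : G)⁻¹ := by group
        _ = n * y * (n : G)⁻¹ := by rw [hyc, mul_inv_cancel_right]
        _ = z₁ := hny
    exact hn1 (mul_left_cancel ((hmz.symm.trans hmz').trans (mul_one z₁).symm))
  refine ⟨hME, L, u, hu, hLs, hLna, hinter, hLL', hEsup.trans hME.symm, z₁, hz₁, hzu, ⟨P, hPR, ?_⟩, ?_⟩
  · -- the Frattini subgroup
    rw [Subgroup.map_le_iff_le_comap]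
    refine Lib.PGroupFrattini.frattini_le Nat.prime_two _ ?_ fun a => ?_
    · rw [commutator_def, Subgroup.commutator_le]
      intro a _ b _
      rw [Subgroup.mem_comap]
      have ha : (((a : ↥L)) : G) * z₁ = z₁ * ((a : ↥L) : G) := (hRmem _).1 (hPR ▸ a.2)
      have hb : (((b : ↥L)) : G) * z₁ = z₁ * ((b : ↥L) : G) := (hRmem _).1 (hPR ▸ b.2)
      rcases hcm' _ (a : ↥L).2 ha _ (b : ↥L).2 hb with e | e
      · simp only [commutatorElement_def, map_mul, map_inv, MonoidHom.comp_apply, Subgroup.coe_subtype]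
        rw [e]; exact one_mem _
      · simp only [commutatorElement_def, map_mul, map_inv, MonoidHom.comp_apply, Subgroup.coe_subtype]
        rw [e]; exact Subgroup.mem_zpowers _
    · rw [Subgroup.mem_comap, map_pow, pow_two]
      have ha : (((a : ↥L)) : G) * z₁ = z₁ * ((a : ↥L) : G) := (hRmem _).1 (hPR ▸ a.2)
      rcases hsq' _ (a : ↥L).2 ha with e | e
      · simp only [MonoidHom.comp_apply, Subgroup.coe_subtype]; rw [e]; exact one_mem _
      · simp only [MonoidHom.comp_apply, Subgroup.coe_subtype]; rw [e]; exact Subgroup.mem_zpowers _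
  · intro hQeq
    set C := Subgroup.centralizer ({z} : Set G) with hCd
    haveI hnC : ((Cfsg.layer G).subgroupOf C).Normal := inferInstance
    have hEC : ∀ x ∈ Cfsg.layer G, x * z = z * x → ∃ a ∈ L, ∃ b ∈ L', x = a * b ∧ a * z₁ = z₁ * a ∧ b * (u * z₁ * u⁻¹) = u * z₁ * u⁻¹ * b := by
      intro x hx hxz
      obtain ⟨a, ha, b, hb, rfl⟩ := split hL hx
      refine ⟨a, ha, b, hrestL hb, rfl, ?_⟩
      have e1 : (a * z₁) * (b * (u * z₁ * u⁻¹)) = (z₁ * a) * ((u * z₁ * u⁻¹) * b) := by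
        rw [← hmulLL' a ha b (hrestL hb) z₁ hz₁ _ (huL _ hz₁), ← hmulLL' z₁ hz₁ _ (huL _ hz₁) a ha b (hrestL hb), ← hzu]
        exact hxz
      exact split_unique hF hL (mul_mem ha hz₁) (mul_mem hb (comp_le_rest hL' hne (huL _ hz₁))) (mul_mem hz₁ ha)
        (mul_mem (comp_le_rest hL' hne (huL _ hz₁)) hb) e1
    have hp : IsPGroup 2 ↥((Cfsg.layer G).subgroupOf C) := by
      intro x
      refine ⟨2, ?_⟩
      apply Subtype.ext; apply Subtype.ext
      show (((x : ↥C) : G)) ^ 2 ^ 2 = 1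
      obtain ⟨a, ha, b, hb, e, haz, hbz⟩ := hEC _ x.2 (Subgroup.mem_centralizer_singleton_iff.1 (x : ↥C).2)
      rw [show ((x : ↥C) : G) = a * b from e, (show Commute a b from hLL' a ha b hb).mul_pow]
      have h4 : ∀ c ∈ L, c * z₁ = z₁ * c → c ^ 2 ^ 2 = 1 := fun c hc h => by
        rcases hsq' c hc h with e | e
        · rw [show (2 : ℕ) ^ 2 = 2 * 2 by norm_num, pow_mul, pow_two c, e, one_pow]
        · rw [show (2 : ℕ) ^ 2 = 2 * 2 by norm_num, pow_mul, pow_two c, e, pow_two, hz₁sq]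
      obtain ⟨c, hc, rfl⟩ := hb
      have hcz : c * z₁ = z₁ * c := mul_left_cancel (mul_right_cancel (
        show u * (c * z₁) * u⁻¹ = u * (z₁ * c) * u⁻¹ by
          calc u * (c * z₁) * u⁻¹ = u * c * u⁻¹ * (u * z₁ * u⁻¹) := by group
            _ = u * z₁ * u⁻¹ * (u * c * u⁻¹) := hbz
            _ = _ := by group))
      rw [h4 a ha haz, one_mul]
      show (u * c * u⁻¹) ^ 2 ^ 2 = 1
      rw [conj_pow, h4 c hc hcz, mul_one, mul_inv_cancel]
    have hle : (Cfsg.layer G).subgroupOf C ≤ Cfsg.pCore 2 ↥C := le_sSup ⟨hnC, hp⟩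
    have hLQ : ∀ c ∈ L, c * z₁ = z₁ * c → c ∈ Q := fun c hc h => by
      rw [hQeq]
      exact ⟨⟨c, Subgroup.mem_centralizer_singleton_iff.2 (hCz c hc h)⟩, hle (Lib.Components.comp_le_layer hL hc), rfl⟩
    refine not_selfCentralizing hLs hLna (a := (⟨z₁, hz₁⟩ : ↥L)) (by rw [Subgroup.orderOf_mk]; exact hz₁o) fun ⟨c, hc⟩ h => ?_
    have hcz : c * z₁ = z₁ * c := congrArg Subtype.val h
    have := S.good.comm c (hLQ c hc hcz) u hu
    rw [show c * u * c⁻¹ * u⁻¹ = c * (u * c⁻¹ * u⁻¹) by group] at this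
    rcases hval c hc _ (hinvc c hc) this with e | e
    · exact Or.inl (Subtype.ext e)
    · exact Or.inr (Subtype.ext e)

/-- Let Q be a large extraspecial 2-subgroup of the finite group G (extraspecial; centralizer equal to its centre; normal in the centralizer of its centre; normalizing no non-trivial subgroup of odd order) with centre generated by z, and let M be the normal closure of z in G. Then one of the following holds: Q is normal in G; or M is abelian and the generalized Fitting subgroup of G is its largest normal 2-subgroup; or M is the generalized Fitting subgroup of G and is a non-abelian simple group; or M is the generalized Fitting subgroup of G and is the direct product of a non-abelian simple subgroup L and its conjugate u L u⁻¹ by some u in Q (the two meet trivially and commute elementwise), with z = z₁ (u z₁ u⁻¹) for some z₁ in L whose centralizer in L is a Sylow 2-subgroup of L with Frattini subgroup inside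 the subgroup generated by z₁, and Q is not the largest normal 2-subgroup of the centralizer of z. -/
theorem result {G : Type*} [Group G] [Finite G] (Q : Subgroup G) (hQ : Cfsg.IsLargeExtraspecial Q) (z : G) (hz : ((Subgroup.center ↥Q).map Q.subtype) = Subgroup.zpowers z) (M : Subgroup G) (hM : M = Subgroup.normalClosure ({z} : Set G)) : Q.Normal ∨ (IsMulCommutative ↥M ∧ Cfsg.generalizedFittingSubgroup G = Cfsg.pCore 2 G) ∨ (M = Cfsg.generalizedFittingSubgroup G ∧ IsSimpleGroup ↥M ∧ ¬ IsMulCommutative ↥M) ∨ (M = Cfsg.generalizedFittingSubgroup G ∧ ∃ (L : Subgroup G) (u : G), u ∈ Q ∧ IsSimpleGroup ↥L ∧ ¬ IsMulCommutative ↥L ∧ L ⊓ (L).map (MulAut.conj u).toMonoidHom = ⊥ ∧ (∀ x ∈ L, ∀ y ∈ (L).map (MulAut.conj u).toMonoidHom, x * y = y * x) ∧ L ⊔ (L).map (MulAut.conj u).toMonoidHom = M ∧ ∃ z₁ ∈ L, z = z₁ * (u * z₁ * u⁻¹) ∧ (∃ R : Sylow 2 ↥L, (R : Subgroup ↥L) = (Subgroup.centralizer ({z₁} : Set G)).subgroupOf L ∧ (frattini ↥(R : Subgroup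 ↥L)).map ((L.subtype).comp (R : Subgroup ↥L).subtype) ≤ Subgroup.zpowers z₁) ∧ Q ≠ (Cfsg.pCore 2 ↥(Subgroup.centralizer ({z} : Set G))).map (Subgroup.centralizer ({z} : Set G)).subtype) := by
  classical
  obtain ⟨hE, hC, hN, hodd⟩ := hQ
  obtain ⟨z', hz', hzo, hzall⟩ := Lib.LargeExtra.exists_z hE
  have hzz' : z' = z := by
    have h1 : z' ∈ Subgroup.zpowers z := hz ▸ hz'
    have h2 : z ∈ Lib.LargeExtra.Z Q := by rw [Lib.LargeExtra.Z, hz]; exact Subgroup.mem_zpowers z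
    rcases hzall z h2 with e | e
    · rw [e, Subgroup.zpowers_one_eq_bot, Subgroup.mem_bot] at h1
      rw [h1, orderOf_one] at hzo
      omega
    · exact e.symm
  subst hzz'
  have hleZ : ∀ a ∈ Q, a * z' = z' * a := fun a ha => by
    have ha' : a ∈ Q := ha
    obtain ⟨c, hc, rfl⟩ := hz'
    exact congrArg Subtype.val (Subgroup.mem_center_iff.1 hc ⟨a, ha'⟩)
  have hG : Lib.Singular.Good Q z' := Lib.Singular.good_of hzo hE (hC.le.trans (Lib.LargeExtra.Z_le Q)) hleZ fun c hc a ha => by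
    refine Lib.LargeExtra.conj_mem (hN ?_) ha
    rw [Subgroup.mem_centralizer_iff]
    intro x hx
    rcases hzall x hx with rfl | rfl
    · simp
    · exact hc.symm
  have S : Lib.LargeExtra.Structure.Setup Q z' := ⟨hG, hE.1.1, fun c hc => hzall c (hC.le (Subgroup.mem_centralizer_iff.2 fun q hq => (hc q hq).symm)), hodd⟩
  exact Or.inr (main S hzo M hM)

end Cfsg.Agent.S5426
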