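import Cfsg.Statements.S5427
import Cfsg.Agent.Lib.LargeExtra.Simple
import Cfsg.Agent.S5421
import Cfsg.Agent.S5422
-- import your own Cfsg.Agent.* helpers here

set_option autoImplicit false
open Cfsg

namespace Cfsg.Agent.S5427

/-- Let z be an involution of the finite group G whose centralizer C has generalized Fitting subgroup Q, an extraspecial 2-group of width at least 2 (order 2^(2w+1), w ≥ 2). Let K be a subgroup of G such that the subgroup U generated by the K-conjugates of z is abelian and C is generated by the C-conjugates of U. Suppose that either some K-conjugate of z other than z lies in Q, or some element u of U ∩ Q outside the subgroup generated by z has z in the largest normal 2-subgroup of its centralizer. Then G is simple and Q is a large extraspecial 2-subgroup of G. -/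
theorem result {G : Type*} [Group G] [Finite G] (z : G) (hz : orderOf z = 2) (Q : Subgroup G) (hQC : Q ≤ Subgroup.centralizer ({z} : Set G)) (hF : (Cfsg.generalizedFittingSubgroup ↥(Subgroup.centralizer ({z} : Set G))).map (Subgroup.centralizer ({z} : Set G)).subtype = Q) (hQ : Cfsg.IsExtraspecial 2 ↥Q) (w : ℕ) (hw : 2 ≤ w) (hcard : Nat.card ↥Q = 2 ^ (2 * w + 1)) (K U : Subgroup G) (hU : U = Subgroup.closure {x : G | ∃ k ∈ K, x = k * z * k⁻¹}) (hUab : IsMulCommutative ↥U) (hgen : Subgroup.closure {x : G | ∃ c ∈ Subgroup.centralizer ({z} : Set G), ∃ u ∈ U, x = c * u * c⁻¹} = Subgroup.centralizer ({z} : Set G)) (h3 : (∃ k ∈ K, k * z * k⁻¹ ∈ Q ∧ k * z * k⁻¹ ≠ z) ∨ ∃ u ∈ U ⊓ Q, u ∉ Subgroup.zpowers z ∧ (∃ hz' : z ∈ Subgroup.centralizer ({u} : Set G), (⟨z, hz'⟩ : ↥(Subgroup.centralizer ({u} : Set G))) ∈ Cfsg.pCore 2 ↥(Subgroup.centralizer ({u} : Set G)))) : IsSimpleGroup G ∧ Cfsg.IsLargeExtraspecial Q := by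
  obtain ⟨hC, hN, hzQ, hZ, hn⟩ := Lib.LargeExtra.of_fstar hz hF hQ
  have hz1 : z ≠ 1 := fun e => by rw [e, orderOf_one] at hz; omega
  have hzz : z * z = 1 := by rw [← pow_two, ← hz, pow_orderOf_eq_one]
  have hUk : ∀ k ∈ K, k * z * k⁻¹ ∈ U := fun k hk => hU ▸ Subgroup.subset_closure ⟨k, hk, rfl⟩
  have hlarge : Cfsg.IsLargeExtraspecial Q := by
    rcases h3 with ⟨k, -, hkQ, hkz⟩ | ⟨u, hu, huz, hz', hzc⟩
    · obtain ⟨hg1, hg2⟩ := Lib.LargeExtra.good_conj_centre hZ hz1 hkQ hkz
      exact (S5422.result Q hQ hC hN w hw hcard k hg1 hg2).2.2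
    · have huu : ∀ x ∈ U, x * x = 1 := by
        intro x hx
        have hc : ∀ a ∈ U, ∀ b ∈ U, a * b = b * a := fun a ha b hb =>
          congrArg Subtype.val (hUab.is_comm.comm ⟨a, ha⟩ ⟨b, hb⟩)
        rw [hU] at hx
        induction hx using Subgroup.closure_induction with
        | mem x hx =>
          obtain ⟨k, -, rfl⟩ := hx
          rw [show k * z * k⁻¹ * (k * z * k⁻¹) = k * (z * z) * k⁻¹ by group, hzz]; group
        | one => simp
        | mul a b ha hb ia ib =>
          rw [← hU] at ha hb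
          rw [show a * b * (a * b) = a * (b * a) * b by group, hc b hb a ha,
            show a * (a * b) * b = (a * a) * (b * b) by group, ia, ib, one_mul]
        | inv a _ ia => rw [← mul_inv_rev, ia, inv_one]
      have hu2 : orderOf u = 2 := orderOf_eq_prime (by rw [pow_two]; exact huu u hu.1) (fun e => huz (e ▸ one_mem _))
      have hub : u ∉ (Subgroup.center ↥Q).map Q.subtype := fun h => by
        rcases (hZ u).1 h with e | e
        · exact huz (e ▸ one_mem _)
        · exact huz (e ▸ Subgroup.mem_zpowers z)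
      refine S5421.result Q hQ hC hN u hu.2 hub hu2 fun x hx => ?_
      rcases (hZ x).1 hx with rfl | rfl
      · exact one_mem _
      · exact ⟨_, hzc, rfl⟩
  refine ⟨Lib.LargeExtra.isSimpleGroup_of_large hz hlarge hZ hn fun N hNn hzN => ?_, hlarge⟩
  rw [← hgen, Subgroup.closure_le]
  rintro _ ⟨c, -, u, hu, rfl⟩
  refine hNn.conj_mem u ?_ c
  have hUN : U ≤ N := by
    rw [hU, Subgroup.closure_le]
    rintro _ ⟨k, -, rfl⟩
    exact hNn.conj_mem z hzN k
  exact hUN hu

end Cfsg.Agent.S5427
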