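import Cfsg.Statements.S5434
import Cfsg.Agent.Lib.Singular.Sub
import Cfsg.Agent.Lib.Coprime.Action
import Cfsg.Agent.Lib.LargeExtra.Basic
-- import your own Cfsg.Agent.* helpers here

set_option autoImplicit false
open Cfsg Agent Agent.Lib.Singular
open scoped commutatorElement

namespace Cfsg.Agent.S5434

/-- Let Q be a large extraspecial 2-subgroup of the finite group G (extraspecial; centralizer equal to its centre; normal in the centralizer of its centre; normalizing no non-trivial subgroup of odd order), and A a non-trivial subgroup of odd order of the normalizer of Q. Then Q is the central product of the centralizer of A in Q and the commutator subgroup [Q, A] (they generate Q and commute elementwise), [Q, A] is extraspecial, and the centralizer of A in Q is either the centre of Q or extraspecial. -/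
theorem result {G : Type*} [Group G] [Finite G] (Q : Subgroup G) (hQ : Cfsg.IsLargeExtraspecial Q) (A : Subgroup G) (hA : A ≤ Subgroup.normalizer (Q : Set G)) (hAodd : Odd (Nat.card ↥A)) (hA1 : A ≠ ⊥) : (Q ⊓ Subgroup.centralizer (A : Set G)) ⊔ ⁅Q, A⁆ = Q ∧ (∀ x ∈ Q ⊓ Subgroup.centralizer (A : Set G), ∀ y ∈ ⁅Q, A⁆, x * y = y * x) ∧ Cfsg.IsExtraspecial 2 ↥⁅Q, A⁆ ∧ (Q ⊓ Subgroup.centralizer (A : Set G) = ((Subgroup.center ↥Q).map Q.subtype) ∨ Cfsg.IsExtraspecial 2 ↥(Q ⊓ Subgroup.centralizer (A : Set G))) := by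
  classical
  obtain ⟨hE, hC, hN, -⟩ := hQ
  obtain ⟨z, hzZ, hz2, hzall⟩ := Lib.LargeExtra.exists_z hE
  have hleZ : ∀ a ∈ Q, a * z = z * a := fun a ha => by
    have ha' : a ∈ Q := ha
    obtain ⟨z', hz', rfl⟩ := hzZ
    exact congrArg Subtype.val (Subgroup.mem_center_iff.1 hz' ⟨a, ha'⟩)
  have hG : Good Q z := good_of hz2 hE (hC.le.trans (Lib.LargeExtra.Z_le Q)) hleZ fun c hc a ha => by
    refine Lib.LargeExtra.conj_mem (hN ?_) ha
    rw [Subgroup.mem_centralizer_iff]
    intro x hx
    rcases hzall x hx with rfl | rfl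
    · simp
    · exact hc.symm
  have hQp : IsPGroup 2 ↥Q := hE.1.1
  haveI : Fact (Nat.Prime 2) := ⟨Nat.prime_two⟩
  have hsolv : Group.IsSolvable ↥Q := by
    haveI := hQp.isNilpotent
    infer_instance
  have hcop : (Nat.card ↥A).Coprime (Nat.card ↥Q) := by
    obtain ⟨k, hk⟩ := IsPGroup.iff_card.1 hQp
    rw [hk]
    exact ((Nat.coprime_two_left.2 hAodd).pow_left k).symm
  set C := Q ⊓ Subgroup.centralizer (A : Set G) with hCdef
  set K := (⁅Q, A⁆ : Subgroup G) with hKdef
  have hsup : K ⊔ C = Q := Lib.Coprime.commutator_sup_centralizer hA hcop (Or.inr hsolv)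
  have hKQ : K ≤ Q := Lib.Coprime.commutator_le_of_le_normalizer' hA
  -- `A` fixes `z`
  have hzA : ∀ a ∈ A, a * z = z * a := by
    intro a ha
    have hcl : ∀ t ∈ Q, a * t * a⁻¹ ∈ Q := fun t ht => Lib.LargeExtra.conj_mem (hA ha) ht
    have h1 : a * z * a⁻¹ = 1 ∨ a * z * a⁻¹ = z := by
      refine hG.cent _ fun t ht => ?_
      have e := hG.le (a⁻¹ * t * a) (by simpa using Lib.LargeExtra.conj_mem (hA (inv_mem ha)) ht)
      have := congrArg (fun s => a * s * a⁻¹) e
      simpa [mul_assoc] using this.symm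
    rcases h1 with h | h
    · exact absurd (conj_eq_one_iff.1 h) hG.ne
    · exact mul_inv_eq_iff_eq_mul.1 h
  have hzC : z ∈ C := ⟨hG.mem, Subgroup.mem_centralizer_iff.2 fun a ha => hzA a ha⟩
  have hcomm : ∀ x ∈ C, ∀ y ∈ K, x * y = y * x := by
    intro c hc y hy
    rw [hKdef, Subgroup.commutator_def] at hy
    induction hy using Subgroup.closure_induction with
    | mem y hy =>
      obtain ⟨q, hq, a, ha, rfl⟩ := hy
      have hca : a * c = c * a := Subgroup.mem_centralizer_iff.1 hc.2 a ha
      rw [commutatorElement_def]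
      apply mul_inv_eq_iff_eq_mul.1
      calc c * (q * a * q⁻¹ * a⁻¹) * c⁻¹
          = (c * q * c⁻¹) * (c * a * c⁻¹) * (c * q * c⁻¹)⁻¹ * (c * a * c⁻¹)⁻¹ := by group
        _ = (c * q * c⁻¹) * a * (c * q * c⁻¹)⁻¹ * a⁻¹ := by rw [← hca, mul_inv_cancel_right]
        _ = _ := by
          rcases hG.comm c hc.1 q hq with e | e
          · rw [show c * q * c⁻¹ = (c * q * c⁻¹ * q⁻¹) * q by group, e, one_mul]
          · rw [show c * q * c⁻¹ = (c * q * c⁻¹ * q⁻¹) * q by group, e]
            have h2 : Commute z (q * a * q⁻¹) := by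
              refine Commute.mul_right (Commute.mul_right ?_ ?_) (Commute.inv_right ?_)
              exacts [(hG.le q hq).symm, (hzA a ha).symm, (hG.le q hq).symm]
            calc z * q * a * (z * q)⁻¹ * a⁻¹ = z * (q * a * q⁻¹) * z⁻¹ * a⁻¹ := by group
              _ = _ := by rw [h2.eq]; group
    | one => simp
    | mul a b _ _ ha hb => exact (Commute.mul_right (show Commute c a from ha) hb).eq
    | inv a _ ha => exact (Commute.inv_right (show Commute c a from ha)).eq
  -- a central element of either factor is central in `Q`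
  have hdbl : ∀ c, (∀ k ∈ K, k * c = c * k) → (∀ k ∈ C, k * c = c * k) → c = 1 ∨ c = z := by
    intro c h1 h2
    refine hG.cent c fun t ht => ?_
    have htm : t ∈ K ⊔ C := hsup.symm ▸ ht
    clear ht
    rw [Subgroup.sup_eq_closure] at htm
    induction htm using Subgroup.closure_induction with
    | mem t ht => exact ht.elim (fun h => (h1 t h).symm) (fun h => (h2 t h).symm)
    | one => simp
    | mul a b _ _ ha hb => exact (Commute.mul_right (show Commute c a from ha) (hb)).eq
    | inv a _ ha => exact (Commute.inv_right (show Commute c a from ha)).eq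
  have hK1 : K ≠ ⊥ := by
    intro e
    rw [hKdef, Subgroup.commutator_eq_bot_iff_le_centralizer] at e
    have hAQ : A ≤ Subgroup.centralizer (Q : Set G) := Subgroup.le_centralizer_iff.1 e
    refine hA1 ((Subgroup.eq_bot_iff_forall _).2 fun a ha => ?_)
    have hm : a ∈ Q := Lib.LargeExtra.Z_le Q (hC.le (hAQ ha))
    exact Lib.LargeExtra.eq_one_of_mem_odd hAodd hQp ha hm
  have hKcent : ∀ c ∈ K, (∀ k ∈ K, k * c = c * k) → c = 1 ∨ c = z :=
    fun c hc h => hdbl c h fun k hk => hcomm k hk c hc
  have hzK : z ∈ K := by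
    haveI : Nontrivial ↥K := (Subgroup.nontrivial_iff_ne_bot K).2 hK1
    obtain ⟨c, hc, hc1⟩ := (Subgroup.bot_or_exists_ne_one (Subgroup.center ↥K)).resolve_left
      (hQp.to_le hKQ).bot_lt_center.ne'
    rcases hKcent c c.2 fun k hk => congrArg Subtype.val (Subgroup.mem_center_iff.1 hc ⟨k, hk⟩) with e | e
    · exact absurd (Subtype.ext e) hc1
    · exact e ▸ c.2
  refine ⟨by rw [sup_comm]; exact hsup, hcomm, ?_, ?_⟩
  · refine isExtraspecial_sub hG hQp hKQ hzK hKcent ?_
    by_contra h
    push Not at h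
    have hKz : ∀ k ∈ K, k = 1 ∨ k = z := fun k hk => hKcent k hk fun t ht => h t ht k hk
    apply hK1
    rw [hKdef, ← Lib.Coprime.commutator_commutator hA hcop (Or.inr hsolv), eq_bot_iff, Subgroup.commutator_le]
    intro k hk a ha
    rw [Subgroup.mem_bot, commutatorElement_def]
    rcases hKz k hk with rfl | rfl
    · simp
    · rw [← hzA a ha]; group
  · by_cases hab : ∃ a ∈ C, ∃ b ∈ C, a * b ≠ b * a
    · refine Or.inr (isExtraspecial_sub hG hQp inf_le_left hzC (fun c hc h => hdbl c (fun k hk => (hcomm c hc k hk).symm) h) hab)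
    · left
      push Not at hab
      apply le_antisymm
      · intro c hc
        rcases hdbl c (fun k hk => (hcomm c hc k hk).symm) (fun k hk => hab k hk c hc) with rfl | rfl
        exacts [one_mem _, hzZ]
      · intro c hc
        rcases hzall c hc with rfl | rfl
        exacts [one_mem _, hzC]

end Cfsg.Agent.S5434
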