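import Cfsg.Statements.S5428
import Cfsg.Agent.Lib.LargeExtra.Width
import Cfsg.Agent.Lib.Singular.Sub
import Cfsg.Agent.Lib.Coprime.Action
import Cfsg.Agent.S5434
import Cfsg.Agent.Lib.LargeExtra.Pair
-- import your own Cfsg.Agent.* helpers here

set_option autoImplicit false
open Cfsg
open scoped commutatorElement

namespace Cfsg.Agent.S5428

/-- Let z be an involution of the finite group G whose centralizer C has generalized Fitting subgroup Q extraspecial (as a 2-group), let A be a subgroup of C of odd order, and let R be the centralizer of A in Q; suppose R has order at least 32, the largest normal subgroup of odd order of the centralizer of the subgroup generated by A and R lies in A, the order of that centralizer is not divisible by 4, and g is an element of G with g z g⁻¹ in R but outside the centre Z of Q. Let M be the subgroup generated by A and the centralizer of A (A is normal in it). Then: the centralizer in M of the subgroup generated by R and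 A, joined with A, equals the subgroup generated by A and Z; the image of R in M/A is a large extraspecial 2-subgroup of M/A; and g z g⁻¹ is conjugate to z inside the subgroup generated by R and the centralizer of A in g Q g⁻¹. -/
theorem result {G : Type*} [Group G] [Finite G] (z : G) (hz : orderOf z = 2) (Q : Subgroup G) (hQC : Q ≤ Subgroup.centralizer ({z} : Set G)) (hF : (Cfsg.generalizedFittingSubgroup ↥(Subgroup.centralizer ({z} : Set G))).map (Subgroup.centralizer ({z} : Set G)).subtype = Q) (hQ : Cfsg.IsExtraspecial 2 ↥Q) (A : Subgroup G) (hA : A ≤ Subgroup.centralizer ({z} : Set G)) (hAodd : Odd (Nat.card ↥A)) (R : Subgroup G) (hR : R = Q ⊓ Subgroup.centralizer (A : Set G)) (hR32 : 32 ≤ Nat.card ↥R) (hO : (Cfsg.oddCore ↥(Subgroup.centralizer ((A ⊔ R : Subgroup G) : Set G))).map (Subgroup.centralizer ((A ⊔ R : Subgroup G) : Set G)).subtype ≤ A) (h4 : ¬ 4 ∣ Nat.card ↥(Subgroup.centralizer ((A ⊔ R : Subgroup G) : Set G))) (g : G) (hgR : g * z * g⁻¹ ∈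 R) (hgZ : g * z * g⁻¹ ∉ ((Subgroup.center ↥Q).map Q.subtype)) (M : Subgroup G) (hM : M = Subgroup.centralizer (A : Set G) ⊔ A) [hn : (A.subgroupOf M).Normal] : (M ⊓ Subgroup.centralizer ((R ⊔ A : Subgroup G) : Set G)) ⊔ A = A ⊔ ((Subgroup.center ↥Q).map Q.subtype) ∧ Cfsg.IsLargeExtraspecial ((R.subgroupOf M).map (QuotientGroup.mk' (A.subgroupOf M))) ∧ ∃ x ∈ R ⊔ ((Q).map (MulAut.conj g).toMonoidHom ⊓ Subgroup.centralizer (A : Set G)), x * (g * z * g⁻¹) * x⁻¹ = z := by
  classical
  obtain ⟨hC, hN, hzQ, hZ, hnC⟩ := Lib.LargeExtra.of_fstar hz hF hQ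
  have hz1 : z ≠ 1 := fun e => by rw [e, orderOf_one] at hz; omega
  have hzz : z * z = 1 := by rw [← pow_two, ← hz, pow_orderOf_eq_one]
  haveI : Fact (Nat.Prime 2) := ⟨Nat.prime_two⟩
  have hQp : IsPGroup 2 ↥Q := hQ.1.1
  have hqz : ∀ q ∈ Q, q * z = z * q := fun q hq => Subgroup.mem_centralizer_singleton_iff.1 (hQC hq)
  have hGQ : Lib.Singular.Good Q z := Lib.Singular.good_of hz hQ (hC.le.trans (Subgroup.map_subtype_le _)) hqz hnC
  have haz : ∀ a ∈ A, a * z = z * a := fun a ha => Subgroup.mem_centralizer_singleton_iff.1 (hA ha)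
  have hRmem : ∀ r, r ∈ R ↔ r ∈ Q ∧ ∀ a ∈ A, a * r = r * a := fun r => by
    rw [hR, Subgroup.mem_inf, Subgroup.mem_centralizer_iff]; rfl
  have hRQ : R ≤ Q := fun r hr => ((hRmem r).1 hr).1
  have hzR : z ∈ R := (hRmem z).2 ⟨hzQ, haz⟩
  have hy : g * z * g⁻¹ ∈ Q := hRQ hgR
  have hyz : g * z * g⁻¹ ≠ z := fun e => hgZ (by rw [e]; exact (hZ z).2 (Or.inr rfl))
  have hQ32 : 32 ≤ Nat.card ↥Q := hR32.trans (Subgroup.card_le_of_le hRQ)
  have hlarge := Lib.LargeExtra.large_of_conj hQ hC hN hQ32 hZ hz1 hy hyz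
  have hRE : Cfsg.IsExtraspecial 2 ↥R := by
    by_cases hA1 : A = ⊥
    · have e : R = Q := le_antisymm hRQ fun q hq => (hRmem q).2 ⟨hq, fun a ha => by
        rw [hA1, Subgroup.mem_bot] at ha; subst ha; simp⟩
      exact e ▸ hQ
    · have hAN : A ≤ Subgroup.normalizer (Q : Set G) := fun a ha => by
        rw [Subgroup.mem_normalizer_iff]
        refine fun q => ⟨hnC a (haz a ha) q, fun h => ?_⟩
        have := hnC a⁻¹ (haz _ (inv_mem ha)) _ h
        simpa [mul_assoc] using this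
      rcases (S5434.result Q hlarge A hAN hAodd hA1).2.2.2 with e | e
      · exfalso
        rw [← hR] at e
        rw [e, Subgroup.card_map_of_injective Q.subtype_injective, hQ.2] at hR32
        omega
      · exact hR ▸ e
  have hRcen : ∀ c ∈ R, (∀ r ∈ R, r * c = c * r) → c = 1 ∨ c = z := by
    intro c hc h
    obtain ⟨u, hu, huu⟩ := (Nat.card_eq_two_iff' (1 : Subgroup.center ↥R)).1 hRE.2
    have hzc : (⟨z, hzR⟩ : ↥R) ∈ Subgroup.center ↥R :=
      Subgroup.mem_center_iff.2 fun r => Subtype.ext (hqz r (hRQ r.2))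
    have hcc : (⟨c, hc⟩ : ↥R) ∈ Subgroup.center ↥R := Subgroup.mem_center_iff.2 fun r => Subtype.ext (h r r.2)
    by_cases hc1 : c = 1
    · exact Or.inl hc1
    · right
      exact congrArg (fun t : Subgroup.center ↥R => ((t : ↥R) : G))
        ((huu ⟨_, hcc⟩ fun e => hc1 (congrArg (fun t : Subgroup.center ↥R => ((t : ↥R) : G)) e)).trans
          (huu ⟨_, hzc⟩ fun e => hz1 (congrArg (fun t : Subgroup.center ↥R => ((t : ↥R) : G)) e)).symm)
  set y := g * z * g⁻¹ with hyd
  have hay : ∀ a ∈ A, a * y = y * a := ((hRmem y).1 hgR).2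
  -- the two movers
  obtain ⟨r, hrR, hry⟩ : ∃ r ∈ R, r * y * r⁻¹ = z * y := by
    by_contra h
    push Not at h
    rcases hRcen y hgR fun r hr => by
      rcases hGQ.comm r (hRQ hr) y hy with e | e
      · exact commutatorElement_eq_one_iff_mul_comm.1 e
      · exact absurd (by rw [← e]; group) (h r hr) with e | e
    · exact hz1 (conj_eq_one_iff.1 e)
    · exact hyz e
  set P := Q.map (MulAut.conj g).toMonoidHom with hPd
  have hPmem : ∀ x, x ∈ P ↔ g⁻¹ * x * g ∈ Q := fun x => by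
    refine ⟨?_, fun h => ⟨_, h, by simp [mul_assoc]⟩⟩
    rintro ⟨q, hq, rfl⟩; simpa [mul_assoc] using hq
  have hPn : ∀ c, c * y = y * c → ∀ x ∈ P, c * x * c⁻¹ ∈ P := by
    intro c hc x hx
    rw [hPmem] at hx ⊢
    have hc' : g⁻¹ * c * g * z = z * (g⁻¹ * c * g) := by
      calc g⁻¹ * c * g * z = g⁻¹ * (c * y) * g := by rw [hyd]; group
        _ = g⁻¹ * (y * c) * g := by rw [hc]
        _ = _ := by rw [hyd]; group
    have := hnC _ hc' _ hx
    simpa [mul_assoc] using this
  have hPy : ∀ x ∈ P, x * y = y * x := by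
    intro x hx
    have := hqz _ ((hPmem x).1 hx)
    calc x * y = g * (g⁻¹ * x * g * z) * g⁻¹ := by rw [hyd]; group
      _ = g * (z * (g⁻¹ * x * g)) * g⁻¹ := by rw [this]
      _ = _ := by rw [hyd]; group
  have hzP : z ∈ P := by
    rw [hPmem]
    by_contra hzp
    obtain ⟨hp, h1, h2⟩ := Lib.LargeExtra.pair_of Q hlarge z (by
      ext x
      rw [hZ]
      constructor
      · rintro (rfl | rfl)
        exacts [one_mem _, Subgroup.mem_zpowers _]
      · intro hx
        obtain ⟨k, rfl⟩ := Subgroup.mem_zpowers_iff.1 hx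
        exact (hZ _).1 (zpow_mem ((hZ z).2 (Or.inr rfl)) k)) hz g
        (fun h => hyz (mul_inv_eq_iff_eq_mul.2 (Subgroup.mem_centralizer_singleton_iff.1 h))) hy
    have := hp.memz
    rw [h2] at this
    exact hzp ((hPmem z).1 this)
  have hzy : z * y = y * z := (hqz y hy).symm
  obtain ⟨p, hp, hpz⟩ : ∃ p ∈ P, p * z * p⁻¹ = y * z := by
    have hGz : g⁻¹ * z * g ∈ Q := (hPmem z).1 hzP
    obtain ⟨q, hq, hqv⟩ := Lib.Singular.exists_mover hGQ hGz
      (fun e => hz1 (conj_eq_one_iff.1 (by rw [inv_inv]; exact e : g⁻¹ * z * g⁻¹⁻¹ = 1)))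
      (fun e => hyz (show g * z * g⁻¹ = z from
        calc g * z * g⁻¹ = g * (g⁻¹ * z * g) * g⁻¹ := by rw [e]
          _ = z := by group))
    refine ⟨g * q * g⁻¹, ⟨q, hq, rfl⟩, ?_⟩
    calc g * q * g⁻¹ * z * (g * q * g⁻¹)⁻¹ = g * (q * (g⁻¹ * z * g) * q⁻¹) * g⁻¹ := by group
      _ = g * (z * (g⁻¹ * z * g)) * g⁻¹ := by rw [hqv]
      _ = _ := by rw [hyd]; group
  let K := P ⊓ Subgroup.centralizer ({z} : Set G)
  have hKmem : ∀ x, x ∈ K ↔ x ∈ P ∧ x * z = z * x := fun x => by
    rw [Subgroup.mem_inf, Subgroup.mem_centralizer_singleton_iff]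
  have hKp : IsPGroup 2 ↥K := (hQp.map (MulAut.conj g).toMonoidHom).to_le inf_le_left
  have hcopA : ∀ N : Subgroup G, IsPGroup 2 ↥N → (Nat.card ↥A).Coprime (Nat.card ↥N) := by
    intro N hNp
    obtain ⟨k, hk⟩ := IsPGroup.iff_card.1 hNp
    rw [hk]
    exact ((Nat.coprime_two_left.2 hAodd).pow_left k).symm
  obtain ⟨c, hcA, hcK⟩ := Lib.Coprime.exists_centralizer_mem_coset (A := A) (N := K) (k := p)
    (fun a ha => by
      have key : ∀ b, b * z = z * b → b * y = y * b → ∀ x ∈ K, b * x * b⁻¹ ∈ K := fun b hbz hby x hx =>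
        (hKmem _).2 ⟨hPn b hby x ((hKmem x).1 hx).1,
          (Commute.mul_left (Commute.mul_left hbz ((hKmem x).1 hx).2) (Commute.inv_left (show Commute b z from hbz))).eq⟩
      rw [Subgroup.mem_normalizer_iff]
      refine fun x => ⟨key a (haz a ha) (hay a ha) x, fun h => ?_⟩
      have := key a⁻¹ (haz _ (inv_mem ha)) (hay _ (inv_mem ha)) _ h
      simpa [mul_assoc] using this)
    (hcopA K hKp) (Or.inr (by haveI := hKp.isNilpotent; infer_instance)) (fun a ha => (hKmem _).2 ⟨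
      mul_mem (inv_mem hp) (hPn a (hay a ha) p hp), by
        apply mul_inv_eq_iff_eq_mul.1
        have e1 : a * (y * z) * a⁻¹ = y * z :=
          mul_inv_eq_iff_eq_mul.2 (Commute.mul_right (show Commute a y from hay a ha) (haz a ha)).eq
        calc p⁻¹ * (a * p * a⁻¹) * z * (p⁻¹ * (a * p * a⁻¹))⁻¹
            = p⁻¹ * (a * (p * (a⁻¹ * z * a) * p⁻¹) * a⁻¹) * p := by group
          _ = p⁻¹ * (p * z * p⁻¹) * p := by
            rw [show a⁻¹ * z * a = z by rw [mul_assoc, ← haz a ha]; group, hpz, e1]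
          _ = z := by group⟩)
  obtain ⟨hkP, hkz⟩ := (hKmem _).1 hcK
  have hcP : c ∈ P := by have := mul_mem hp hkP; simpa using this
  have hcz : c * z * c⁻¹ = y * z := by
    calc c * z * c⁻¹ = p * ((p⁻¹ * c) * z * (p⁻¹ * c)⁻¹) * p⁻¹ := by group
      _ = p * z * p⁻¹ := by rw [mul_inv_eq_iff_eq_mul.2 hkz]
      _ = _ := hpz
  have hyy : y * y = 1 := by rw [hyd, show g * z * g⁻¹ * (g * z * g⁻¹) = g * (z * z) * g⁻¹ by group, hzz]; group
  have hx : c * r * y * (c * r)⁻¹ = z := by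
    calc c * r * y * (c * r)⁻¹ = c * (r * y * r⁻¹) * c⁻¹ := by group
      _ = (c * z * c⁻¹) * (c * y * c⁻¹) := by rw [hry]; group
      _ = (y * z) * y := by rw [hcz, mul_inv_eq_iff_eq_mul.2 (hPy c hcP)]
      _ = z := by rw [← hzy, mul_assoc, hyy, mul_one]
  have hxmem : c * r ∈ R ⊔ (P ⊓ Subgroup.centralizer (A : Set G)) :=
    mul_mem (Subgroup.mem_sup_right ⟨hcP, hcA⟩) (Subgroup.mem_sup_left hrR)
  -- the centralizer of `R` and `A`
  set D := Subgroup.centralizer ((A ⊔ R : Subgroup G) : Set G) with hD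
  have hDmem : ∀ x, x ∈ D ↔ (∀ a ∈ A, a * x = x * a) ∧ ∀ r ∈ R, r * x = x * r := by
    intro x
    rw [hD, Subgroup.sup_eq_closure, Subgroup.centralizer_closure, Subgroup.mem_centralizer_iff]
    exact ⟨fun h => ⟨fun a ha => h a (Or.inl ha), fun r hr => h r (Or.inr hr)⟩, fun h t ht => ht.elim (h.1 t) (h.2 t)⟩
  have hzD : z ∈ D := (hDmem z).2 ⟨haz, fun r hr => hqz r (hRQ hr)⟩
  have hDsplit : ∀ d ∈ D, d ∈ A ∨ z * d ∈ A := by
    intro d hd
    have hzo : orderOf (⟨z, hzD⟩ : ↥D) = 2 := by rw [Subgroup.orderOf_mk]; exact hz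
    have hzc : ∀ a : ↥D, a * ⟨z, hzD⟩ = ⟨z, hzD⟩ * a := fun a => Subtype.ext (((hDmem a).1 a.2).2 z hzR).symm
    rcases Lib.LargeExtra.oddCore_or hzo hzc h4 ⟨d, hd⟩ with h | h
    · exact Or.inl (hO ⟨_, h, rfl⟩)
    · exact Or.inr (hO ⟨_, h, rfl⟩)
  have hCAM : Subgroup.centralizer (A : Set G) ≤ M := hM ▸ le_sup_left
  have hAM : A ≤ M := hM ▸ le_sup_right
  have hRM : R ≤ M := fun r hr => hCAM (Subgroup.mem_centralizer_iff.2 ((hRmem r).1 hr).2)
  have hzM : z ∈ M := hRM hzR
  have hRA : ∀ x ∈ R, x ∈ A → x = 1 := fun x hx hxa =>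
    Lib.LargeExtra.eq_one_of_mem_odd hAodd (hQp.to_le hRQ) hxa hx
  refine ⟨?_, ?_, c * r, hxmem, hx⟩
  · apply le_antisymm
    · refine sup_le ?_ le_sup_left
      rintro d ⟨-, hd⟩
      have hd' : d ∈ D := by rw [hD, sup_comm]; exact hd
      rcases hDsplit d hd' with h | h
      · exact Subgroup.mem_sup_left h
      · have hm := mul_mem (Subgroup.mem_sup_right (S := A) ((hZ z).2 (Or.inr rfl))) (Subgroup.mem_sup_left (T := (Subgroup.center ↥Q).map Q.subtype) h)
        rwa [← mul_assoc, hzz, one_mul] at hm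
    · refine sup_le le_sup_right fun x hx => Subgroup.mem_sup_left ?_
      rcases (hZ x).1 hx with rfl | rfl
      · exact one_mem _
      · exact ⟨hzM, by rw [sup_comm]; exact hzD⟩
  · set π := QuotientGroup.mk' (A.subgroupOf M) with hπ
    set Rb := (R.subgroupOf M).map π with hRb
    have hπA : ∀ x : ↥M, π x = 1 ↔ (x : G) ∈ A := fun x => (QuotientGroup.eq_one_iff x).trans Iff.rfl
    have hinj : Function.Injective (π.comp (Subgroup.inclusion hRM)) := by
      refine (injective_iff_map_eq_one _).2 fun x hx => Subtype.ext ?_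
      exact hRA x x.2 ((hπA _).1 hx)
    have hrange : (π.comp (Subgroup.inclusion hRM)).range = Rb := by
      rw [MonoidHom.range_comp, hRb]
      congr 1
      ext x
      exact ⟨fun ⟨a, e⟩ => e ▸ a.2, fun h => ⟨⟨x, h⟩, rfl⟩⟩
    have hRbE : Cfsg.IsExtraspecial 2 ↥Rb := by
      have e := (MonoidHom.ofInjective hinj).trans (MulEquiv.subgroupCongr hrange)
      exact Lib.LargeExtra.isExtraspecial_equiv e hRE
    have hRb_mem : ∀ x, x ∈ Rb ↔ ∃ r, ∃ hr : r ∈ R, π ⟨r, hRM hr⟩ = x := by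
      intro x
      constructor
      · rintro ⟨m, hm, rfl⟩; exact ⟨m, hm, rfl⟩
      · rintro ⟨r, hr, rfl⟩; exact ⟨_, hr, rfl⟩
    have hZb : ∀ x, x ∈ (Subgroup.center ↥Rb).map Rb.subtype ↔ x = 1 ∨ x = π ⟨z, hzM⟩ := by
      intro x
      constructor
      · rintro ⟨⟨x, hx⟩, hcx, rfl⟩
        obtain ⟨s, hs, rfl⟩ := (hRb_mem x).1 hx
        rcases hRcen s hs fun t ht => by
          have h1 : π (⟨t, hRM ht⟩ * ⟨s, hRM hs⟩) = π (⟨s, hRM hs⟩ * ⟨t, hRM ht⟩) := by
            rw [map_mul, map_mul]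
            exact congrArg Subtype.val (Subgroup.mem_center_iff.1 hcx ⟨_, (hRb_mem _).2 ⟨t, ht, rfl⟩⟩)
          exact congrArg (fun u : ↥R => (u : G)) (hinj (a₁ := ⟨t * s, mul_mem ht hs⟩) (a₂ := ⟨s * t, mul_mem hs ht⟩) h1) with e | e
        · exact Or.inl ((hπA _).2 (e ▸ one_mem A))
        · exact Or.inr (congrArg π (Subtype.ext e))
      · rintro (rfl | rfl)
        · exact one_mem _
        · refine ⟨⟨_, (hRb_mem _).2 ⟨z, hzR, rfl⟩⟩, Subgroup.mem_center_iff.2 ?_, rfl⟩
          rintro ⟨x, hx⟩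
          obtain ⟨t, ht, rfl⟩ := (hRb_mem x).1 hx
          refine Subtype.ext ?_
          show π ⟨t, hRM ht⟩ * π ⟨z, hzM⟩ = π ⟨z, hzM⟩ * π ⟨t, hRM ht⟩
          rw [← map_mul, ← map_mul]
          exact congrArg π (Subtype.ext (hqz t (hRQ ht)))
    have hAn : ∀ m ∈ M, ∀ a ∈ A, m * a * m⁻¹ ∈ A := fun m hm a ha => hn.conj_mem ⟨a, hAM ha⟩ ha ⟨m, hm⟩
    have hCb : Subgroup.centralizer (Rb : Set (↥M ⧸ A.subgroupOf M)) = (Subgroup.center ↥Rb).map Rb.subtype := by
      apply le_antisymm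
      · intro x hx
        obtain ⟨m, rfl⟩ := (show Function.Surjective π from QuotientGroup.mk'_surjective _) x
        rw [hZb]
        have hRp : IsPGroup 2 ↥R := hQp.to_le hRQ
        obtain ⟨d, hd, hmd⟩ := Lib.Coprime.exists_centralizer_mem_coset (A := R) (N := A) (k := (m : G))
          (fun t ht => by
            rw [Subgroup.mem_normalizer_iff]
            refine fun a => ⟨hAn t (hRM ht) a, fun h => ?_⟩
            have := hAn t⁻¹ (inv_mem (hRM ht)) _ h
            simpa [mul_assoc] using this)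
          (hcopA R hRp).symm (Or.inl (by haveI := hRp.isNilpotent; infer_instance)) (fun t ht => by
            have h1 : π (m⁻¹ * (⟨t, hRM ht⟩ * m * ⟨t, hRM ht⟩⁻¹)) = 1 := by
              rw [map_mul, map_mul, map_mul, map_inv, map_inv,
                Subgroup.mem_centralizer_iff.1 hx _ ((hRb_mem _).2 ⟨t, ht, rfl⟩)]
              group
            exact (hπA _).1 h1)
        have hdM : d ∈ M := by have := mul_mem m.2 (hAM hmd); simpa using this
        -- split off the part in `A`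
        have hd' : d ∈ Subgroup.centralizer (A : Set G) ⊔ A := hM ▸ hdM
        have hAN : Subgroup.centralizer (A : Set G) ≤ Subgroup.normalizer (A : Set G) := fun t ht => by
          rw [Subgroup.mem_normalizer_iff]
          refine fun a => ⟨hAn t (hCAM ht) a, fun h => ?_⟩
          have := hAn t⁻¹ (inv_mem (hCAM ht)) _ h
          simpa [mul_assoc] using this
        have hd'' : d ∈ (↑(Subgroup.centralizer (A : Set G) ⊔ A) : Set G) := hd'
        rw [Subgroup.coe_mul_of_left_le_normalizer_right _ _ hAN, Set.mem_mul] at hd''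
        obtain ⟨e, he, a, ha, rfl⟩ := hd''
        have heD : e ∈ D := (hDmem e).2 ⟨Subgroup.mem_centralizer_iff.1 he, fun t ht => by
          have h1 : Commute t (e * a) := Subgroup.mem_centralizer_iff.1 hd t ht
          have h2 : Commute t a := (((hRmem t).1 ht).2 a ha).symm
          have := (h1.mul_right h2.inv_right).eq
          simpa using this⟩
        have hm_eq : π m = π ⟨e, hCAM he⟩ := by
          rw [← mul_inv_eq_one, ← map_inv, ← map_mul, hπA]
          show (m : G) * e⁻¹ ∈ A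
          rw [show (m : G) * e⁻¹ = (e * (a * ((m : G)⁻¹ * (e * a))⁻¹) * e⁻¹) by group]
          exact hAn e (hCAM he) _ (mul_mem ha (inv_mem hmd))
        rw [hm_eq]
        rcases hDsplit e heD with h | h
        · exact Or.inl ((hπA _).2 h)
        · right
          rw [← mul_inv_eq_one, ← map_inv, ← map_mul, hπA]
          show e * z⁻¹ ∈ A
          have := hAn z hzM _ h
          rwa [show z * (z * e) * z⁻¹ = (z * z) * (e * z⁻¹) by group, hzz, one_mul] at this
      · rintro _ ⟨a, ha, rfl⟩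
        exact Subgroup.mem_centralizer_iff.2 fun t ht => congrArg Subtype.val (Subgroup.mem_center_iff.1 ha ⟨t, ht⟩)
    have hNb : Subgroup.centralizer ((((Subgroup.center ↥Rb).map Rb.subtype) : Subgroup _) : Set (↥M ⧸ A.subgroupOf M)) ≤
        Subgroup.normalizer (Rb : Set (↥M ⧸ A.subgroupOf M)) := by
      have key : ∀ m : ↥M, π m * π ⟨z, hzM⟩ = π ⟨z, hzM⟩ * π m → ∀ t ∈ Rb, π m * t * (π m)⁻¹ ∈ Rb := by
        intro m hm t ht
        obtain ⟨s, hs, rfl⟩ := (hRb_mem t).1 ht
        have h1 : π (m * ⟨z, hzM⟩ * m⁻¹ * ⟨z, hzM⟩⁻¹) = 1 := by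
          rw [map_mul, map_mul, map_mul, map_inv, map_inv, hm]; group
        have h1' : (m : G) * z * (m : G)⁻¹ * z⁻¹ ∈ A := (hπA _).1 h1
        have hmz : (m : G) * z = z * m := by
          apply commutatorElement_eq_one_iff_mul_comm.1
          rw [commutatorElement_def]
          set a0 := (m : G) * z * (m : G)⁻¹ * z⁻¹ with ha0
          have e1 : (a0 * z) * (a0 * z) = 1 := by
            rw [ha0, show (m : G) * z * (m : G)⁻¹ * z⁻¹ * z * ((m : G) * z * (m : G)⁻¹ * z⁻¹ * z) = (m : G) * (z * z) * (m : G)⁻¹ by group, hzz]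
            group
          have e2 : a0 * a0 = 1 := by
            calc a0 * a0 = a0 * a0 * (z * z) := by rw [hzz, mul_one]
              _ = a0 * (a0 * z) * z := by group
              _ = a0 * (z * a0) * z := by rw [haz a0 h1']
              _ = 1 := by rw [← e1]; group
          have hord : orderOf a0 ∣ 2 := orderOf_dvd_of_pow_eq_one (by rw [pow_two]; exact e2)
          have hord2 : orderOf a0 ∣ Nat.card ↥A := Subgroup.orderOf_mk a0 h1' ▸ orderOf_dvd_natCard (⟨a0, h1'⟩ : ↥A)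
          have := Nat.dvd_gcd hord hord2
          rwa [(Nat.coprime_two_left.2 hAodd).gcd_eq_one, Nat.dvd_one, orderOf_eq_one_iff] at this
        have hms : (m : G) * s * (m : G)⁻¹ ∈ R := by
          refine (hRmem _).2 ⟨hnC _ hmz s (hRQ hs), fun a ha => ?_⟩
          have h' := ((hRmem s).1 hs).2 _ (hAn _ (inv_mem m.2) a ha)
          rw [inv_inv] at h'
          calc a * ((m : G) * s * (m : G)⁻¹) = m * (((m : G)⁻¹ * a * m) * s) * (m : G)⁻¹ := by group
            _ = m * (s * ((m : G)⁻¹ * a * m)) * (m : G)⁻¹ := by rw [h']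
            _ = _ := by group
        exact (hRb_mem _).2 ⟨_, hms, by rw [← map_inv, ← map_mul, ← map_mul]; rfl⟩
      intro x hx
      obtain ⟨m, rfl⟩ := (show Function.Surjective π from QuotientGroup.mk'_surjective _) x
      have hm := (Subgroup.mem_centralizer_iff.1 hx _ ((hZb _).2 (Or.inr rfl))).symm
      rw [Subgroup.mem_normalizer_iff]
      refine fun t => ⟨key m hm t, fun h => ?_⟩
      have := key m⁻¹ (by rw [map_inv]; exact (Commute.inv_left (show Commute (π m) _ from hm)).eq) _ h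
      rw [map_inv] at this
      simpa [mul_assoc] using this
    have hxM : c * r ∈ M := mul_mem (hCAM hcA) (hRM hrR)
    have hy' : π ⟨c * r, hxM⟩⁻¹ * π ⟨z, hzM⟩ * (π ⟨c * r, hxM⟩⁻¹)⁻¹ = π ⟨y, hRM hgR⟩ := by
      rw [← map_inv, ← map_mul, ← map_mul]
      refine congrArg π (Subtype.ext ?_)
      show (c * r)⁻¹ * z * (c * r)⁻¹⁻¹ = y
      rw [← hx]; group
    refine Lib.LargeExtra.large_of_conj hRbE hCb hNb ?_ hZb ?_ (g := π ⟨c * r, hxM⟩⁻¹) ?_ ?_
    · rw [← hrange, ← Nat.card_congr (MonoidHom.ofInjective hinj).toEquiv]; exact hR32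
    · exact fun e => hz1 (hRA z hzR ((hπA _).1 e))
    · rw [hy']; exact (hRb_mem _).2 ⟨y, hgR, rfl⟩
    · rw [hy']
      intro e
      exact hyz (congrArg (fun u : ↥R => (u : G)) (hinj (a₁ := ⟨y, hgR⟩) (a₂ := ⟨z, hzR⟩) e))

end Cfsg.Agent.S5428
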