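import Cfsg.Statements.S5429
import Cfsg.Agent.Lib.LargeExtra.Width
import Cfsg.Agent.Lib.LargeExtra.Pair
-- import your own Cfsg.Agent.* helpers here

set_option autoImplicit false
open Cfsg
open scoped commutatorElement Pointwise

namespace Cfsg.Agent.S5429

theorem isExtraspecial_of_centre {E : Type*} [Group E] [Finite E] (hp : IsPGroup 2 E) {a b : E} (hab : a * b ≠ b * a) {z : E}
    (hc : ∀ x : E, x ∈ Subgroup.center E ↔ x = 1 ∨ x = z)
    (hcomm : ∀ x y : E, x * y * x⁻¹ * y⁻¹ = 1 ∨ x * y * x⁻¹ * y⁻¹ = z) (hsq : ∀ x : E, x * x = 1 ∨ x * x = z) :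
    Cfsg.IsExtraspecial 2 E := by
  haveI : Fact (Nat.Prime 2) := ⟨Nat.prime_two⟩
  have hge : commutator E ≤ Subgroup.center E := by
    rw [commutator_def, Subgroup.commutator_le]
    intro x _ y _
    rw [hc, commutatorElement_def]
    exact hcomm x y
  have hz : z ∈ commutator E := by
    have e := (hcomm a b).resolve_left fun e => hab (commutatorElement_eq_one_iff_mul_comm.1 e)
    rw [← e, ← commutatorElement_def, commutator_def]
    exact Subgroup.commutator_mem_commutator (Subgroup.mem_top _) (Subgroup.mem_top _)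
  have hle : Subgroup.center E ≤ commutator E := fun x hx => by
    rcases (hc x).1 hx with rfl | rfl
    exacts [one_mem _, hz]
  have hz1 : z ≠ 1 := fun e => hab (by
    rcases hcomm a b with q | q
    · exact commutatorElement_eq_one_iff_mul_comm.1 q
    · exact commutatorElement_eq_one_iff_mul_comm.1 (q.trans e))
  refine ⟨⟨hp, le_antisymm (Lib.PGroupFrattini.frattini_le Nat.prime_two _ hge fun x => ?_)
    (hle.trans (Lib.PGroupFrattini.commutator_le_frattini hp)), le_antisymm hge hle⟩, ?_⟩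
  · rw [hc, pow_two]; exact hsq x
  · rw [Nat.card_eq_two_iff]
    refine ⟨1, ⟨z, (hc z).2 (Or.inr rfl)⟩, fun e => hz1 (congrArg Subtype.val e).symm, ?_⟩
    refine Set.eq_univ_of_forall fun x => ?_
    rcases (hc _).1 x.2 with e | e
    · exact Or.inl (Subtype.ext e)
    · exact Or.inr (Subtype.ext e)

theorem mover {G : Type*} [Group G] [Finite G] {Q : Subgroup G} {z t u : G} (hQ : Lib.Singular.Good Q z)
    (ht : t ∈ Q) (htt : t * t = 1) (htz : ¬ IsConj z t) (ht1 : t ≠ 1) (hu : u ∈ Q) (hut : u * t = t * u)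
    (huz : IsConj z u) (hune : u ≠ z) : ∃ r ∈ Q, r * t = t * r ∧ r * u * r⁻¹ = z * u := by
  have hztc : z * t = t * z := (hQ.le t ht).symm
  obtain ⟨q, hq, hqt⟩ := Lib.Singular.exists_mover hQ ht ht1 (fun e => htz (e ▸ IsConj.refl z))
  have huV : u ∉ Subgroup.closure ({z, t} : Set G) := by
    intro hm
    have hcases : u = 1 ∨ u = z ∨ u = t ∨ u = z * t := by
      have a1 : ∀ v, z * (z * v) = v := fun v => by rw [← mul_assoc, hQ.sq, one_mul]
      have a2 : ∀ v, t * (z * v) = z * (t * v) := fun v => by rw [← mul_assoc, ← hztc, mul_assoc]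
      have a3 : ∀ v, t * (t * v) = v := fun v => by rw [← mul_assoc, htt, one_mul]
      clear hu hut huz hune
      induction hm using Subgroup.closure_induction with
      | mem v hv => rcases hv with rfl | rfl <;> simp
      | one => simp
      | mul v w _ _ iv iw =>
        rcases iv with rfl | rfl | rfl | rfl <;> rcases iw with rfl | rfl | rfl | rfl <;>
          simp [mul_assoc, a1, a2, a3, hQ.sq, htt, ← hztc]
      | inv v _ iv =>
        rcases iv with rfl | rfl | rfl | rfl <;>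
          simp [inv_eq_of_mul_eq_one_right hQ.sq, inv_eq_of_mul_eq_one_right htt, ← hztc]
    rcases hcases with rfl | rfl | rfl | rfl
    · obtain ⟨c, hc⟩ := isConj_iff.1 huz
      exact hQ.ne (conj_eq_one_iff.1 hc)
    · exact hune rfl
    · exact htz huz
    · exact htz (huz.trans (isConj_iff.2 ⟨q⁻¹, by rw [← hqt]; group⟩))
  obtain ⟨r, hr, hrV, hru⟩ := Lib.Singular.exists_separator hQ (V := Subgroup.closure ({z, t} : Set G))
    ((Subgroup.closure_le _).2 (Set.insert_subset hQ.mem (Set.singleton_subset_iff.2 ht)))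
    (Subgroup.subset_closure (by simp)) hu huV
  exact ⟨r, hr, hrV t (Subgroup.subset_closure (by simp)), hru⟩

theorem main {G : Type*} [Group G] [Finite G] (z : G) (hz : orderOf z = 2) (Q : Subgroup G) (hQC : Q ≤ Subgroup.centralizer ({z} : Set G)) (hF : (Cfsg.generalizedFittingSubgroup ↥(Subgroup.centralizer ({z} : Set G))).map (Subgroup.centralizer ({z} : Set G)).subtype = Q) (hQ : Cfsg.IsExtraspecial 2 ↥Q) (w : ℕ) (hw : 3 ≤ w) (hcard : Nat.card ↥Q = 2 ^ (2 * w + 1)) (g : G) (hgQ : g * z * g⁻¹ ∈ Q) (hgZ : g * z * g⁻¹ ∉ ((Subgroup.center ↥Q).map Q.subtype)) (t : G) (ht : orderOf t = 2) (htQ : t ∈ Q ⊓ (Q).map (MulAut.conj g).toMonoidHom) (htz : ¬ IsConj z t) (P : Subgroup G) (hP : P = Q ⊓ Subgroup.centralizer ({t} : Set G)) (hCP : ∀ c ∈ Subgroup.centralizer ({z} : Set G), (∀ x ∈ P, ∃ y ∈ Subgroup.closure ({t, z} : Set G), c * x * c⁻¹ = x * y) ↔ c ∈ Q) [hn : ((Subgroup.zpowers t).subgroupOf (Subgroup.centralizer ({t} : Set G))).Normal]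 : Cfsg.IsLargeExtraspecial ((P.subgroupOf (Subgroup.centralizer ({t} : Set G))).map (QuotientGroup.mk' ((Subgroup.zpowers t).subgroupOf (Subgroup.centralizer ({t} : Set G))))) ∧ ∃ x ∈ P ⊔ ((Q).map (MulAut.conj g).toMonoidHom ⊓ Subgroup.centralizer ({t} : Set G)), x * (g * z * g⁻¹) * x⁻¹ = z := by
  obtain ⟨hC, hN, hzQ, hZ, hnC⟩ := Lib.LargeExtra.of_fstar hz hF hQ
  have hz1 : z ≠ 1 := fun e => by rw [e, orderOf_one] at hz; omega
  have ht1 : t ≠ 1 := fun e => by rw [e, orderOf_one] at ht; omega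
  have htt : t * t = 1 := by rw [← pow_two, ← ht, pow_orderOf_eq_one]
  have hzz : z * z = 1 := by rw [← pow_two, ← hz, pow_orderOf_eq_one]
  haveI : Fact (Nat.Prime 2) := ⟨Nat.prime_two⟩
  have hQp : IsPGroup 2 ↥Q := hQ.1.1
  have hqz : ∀ q ∈ Q, q * z = z * q := fun q hq => Subgroup.mem_centralizer_singleton_iff.1 (hQC hq)
  have hGQ : Lib.Singular.Good Q z := Lib.Singular.good_of hz hQ (hC.le.trans (Subgroup.map_subtype_le _)) hqz hnC
  have hQ32 : 32 ≤ Nat.card ↥Q := by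
    rw [hcard]
    exact le_trans (by norm_num) (Nat.pow_le_pow_right (n := 2) two_pos (show 5 ≤ 2 * w + 1 by omega))
  have hyz : g * z * g⁻¹ ≠ z := fun e => hgZ (by rw [e]; exact (hZ z).2 (Or.inr rfl))
  have hlarge := Lib.LargeExtra.large_of_conj hQ hC hN hQ32 hZ hz1 hgQ hyz
  obtain ⟨hp, h1, h2⟩ := Lib.LargeExtra.pair_of Q hlarge z (by
      ext x
      rw [hZ]
      constructor
      · rintro (rfl | rfl)
        exacts [one_mem _, Subgroup.mem_zpowers _]
      · intro hx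
        obtain ⟨k, rfl⟩ := Subgroup.mem_zpowers_iff.1 hx
        exact (hZ _).1 (zpow_mem ((hZ z).2 (Or.inr rfl)) k)) hz g
    (fun h => hyz (mul_inv_eq_iff_eq_mul.2 (Subgroup.mem_centralizer_singleton_iff.1 h))) hgQ
  set y := g * z * g⁻¹ with hyd
  obtain ⟨htq, htp⟩ := htQ
  have hty : t * y = y * t := hp.goody.le t (by rw [h2]; exact htp)
  have hzP' : z ∈ Q.map (MulAut.conj g).toMonoidHom := h2 ▸ hp.memz
  obtain ⟨r, hr, hrt, hry⟩ := mover hGQ htq htt htz ht1 hgQ hty.symm (isConj_iff.2 ⟨g, rfl⟩) hyz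
  have htq' : g⁻¹ * t * g ∈ Q := by
    obtain ⟨q, hq, e⟩ := htp
    rw [← e]; simpa [mul_assoc] using hq
  have hzq' : g⁻¹ * z * g ∈ Q := by
    obtain ⟨q, hq, e⟩ := hzP'
    rw [← e]; simpa [mul_assoc] using hq
  have htzc : t * z = z * t := hqz t htq
  obtain ⟨q₁, hq₁, hq₁t, hq₁z⟩ := mover hGQ htq'
    (by rw [show g⁻¹ * t * g * (g⁻¹ * t * g) = g⁻¹ * (t * t) * g by group, htt]; group)
    (fun h => htz (h.trans (isConj_iff.2 ⟨g, by group⟩)))
    (fun e => ht1 (conj_eq_one_iff.1 (by rw [inv_inv]; exact e : g⁻¹ * t * g⁻¹⁻¹ = 1)))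
    hzq' (by calc g⁻¹ * z * g * (g⁻¹ * t * g) = g⁻¹ * (z * t) * g := by group
              _ = g⁻¹ * (t * z) * g := by rw [htzc]
              _ = _ := by group)
    (isConj_iff.2 ⟨g⁻¹, by group⟩) (fun e => hyz (show g * z * g⁻¹ = z from
      calc g * z * g⁻¹ = g * (g⁻¹ * z * g) * g⁻¹ := by rw [e]
        _ = z := by group))
  set p := g * q₁ * g⁻¹ with hpd
  have hpP : p ∈ Q.map (MulAut.conj g).toMonoidHom := ⟨q₁, hq₁, rfl⟩
  have hpt : p * t = t * p := by
    calc p * t = g * (q₁ * (g⁻¹ * t * g)) * g⁻¹ := by rw [hpd]; group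
      _ = g * (g⁻¹ * t * g * q₁) * g⁻¹ := by rw [hq₁t]
      _ = _ := by rw [hpd]; group
  have hpz : p * z * p⁻¹ = y * z := by
    calc p * z * p⁻¹ = g * (q₁ * (g⁻¹ * z * g) * q₁⁻¹) * g⁻¹ := by rw [hpd]; group
      _ = g * (z * (g⁻¹ * z * g)) * g⁻¹ := by rw [hq₁z]
      _ = _ := by rw [hyd]; group
  have hpy : p * y * p⁻¹ = y := mul_inv_eq_iff_eq_mul.2 (hp.goody.le p (by rw [h2]; exact hpP))
  have hx : p * r * y * (p * r)⁻¹ = z := by
    calc p * r * y * (p * r)⁻¹ = p * (r * y * r⁻¹) * p⁻¹ := by group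
      _ = (p * z * p⁻¹) * (p * y * p⁻¹) := by rw [hry]; group
      _ = (y * z) * y := by rw [hpz, hpy]
      _ = z := by rw [← hp.zy, mul_assoc, hp.goody.sq, mul_one]
  set C := Subgroup.centralizer ({t} : Set G) with hCd
  have hCmem : ∀ x, x ∈ C ↔ x * t = t * x := fun x => Subgroup.mem_centralizer_singleton_iff
  have hPmem : ∀ x, x ∈ P ↔ x ∈ Q ∧ x * t = t * x := fun x => by rw [hP, Subgroup.mem_inf, hCmem]
  have hPC : P ≤ C := fun x hx => (hCmem x).2 ((hPmem x).1 hx).2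
  have hrP : r ∈ P := (hPmem r).2 ⟨hr, hrt⟩
  have hzP : z ∈ P := (hPmem z).2 ⟨hzQ, (hqz t htq).symm⟩
  have hxmem : p * r ∈ P ⊔ (Q.map (MulAut.conj g).toMonoidHom ⊓ C) :=
    mul_mem (Subgroup.mem_sup_right ⟨hpP, (hCmem p).2 hpt⟩) (Subgroup.mem_sup_left hrP)
  refine ⟨?_, p * r, hxmem, hx⟩
  have hxC : p * r ∈ C := mul_mem ((hCmem p).2 hpt) (hPC hrP)
  set π := QuotientGroup.mk' ((Subgroup.zpowers t).subgroupOf C) with hπ
  set Pb := (P.subgroupOf C).map π with hPb
  have htpow : ∀ u ∈ Subgroup.zpowers t, u = 1 ∨ u = t := by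
    intro u hu
    obtain ⟨k, rfl⟩ := Subgroup.mem_zpowers_iff.1 hu
    rcases Int.even_or_odd k with ⟨m, rfl⟩ | ⟨m, rfl⟩
    · left; rw [← two_mul, zpow_mul, zpow_two, htt, one_zpow]
    · right; rw [zpow_add, zpow_mul, zpow_two, htt, one_zpow, one_mul, zpow_one]
  have hπ1 : ∀ x : ↥C, π x = 1 ↔ (x : G) = 1 ∨ (x : G) = t := fun x =>
    (QuotientGroup.eq_one_iff x).trans ⟨fun h => htpow _ h, fun h => by
      rcases h with e | e
      · exact (show (x : G) ∈ Subgroup.zpowers t from e ▸ one_mem _)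
      · exact (show (x : G) ∈ Subgroup.zpowers t from e ▸ Subgroup.mem_zpowers t)⟩
  have hzt : z ≠ t := fun e => htz (e ▸ IsConj.refl z)
  obtain ⟨q, hq, hqt⟩ := Lib.Singular.exists_mover hGQ htq ht1 hzt.symm
  have hnzt : ∀ u : G, IsConj z u → u ≠ z * t := fun u hu e => htz ((e ▸ hu).trans (isConj_iff.2 ⟨q⁻¹, by rw [← hqt]; group⟩))
  have hPb_mem : ∀ v, v ∈ Pb ↔ ∃ x, ∃ hx : x ∈ P, π ⟨x, hPC hx⟩ = v := by
    intro v
    constructor
    · rintro ⟨m, hm, rfl⟩; exact ⟨m, hm, rfl⟩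
    · rintro ⟨x, hx, rfl⟩; exact ⟨_, hx, rfl⟩
  have hcomm_t : ∀ a, ∀ ha : a ∈ P, ∀ b, ∀ hb : b ∈ P, π ⟨a, hPC ha⟩ * π ⟨b, hPC hb⟩ = π ⟨b, hPC hb⟩ * π ⟨a, hPC ha⟩ → a * b = b * a := by
    intro a ha b hb h
    have h' : π (⟨a, hPC ha⟩ * ⟨b, hPC hb⟩ * ⟨a, hPC ha⟩⁻¹ * ⟨b, hPC hb⟩⁻¹) = 1 := by
      rw [map_mul, map_mul, map_mul, map_inv, map_inv, h]; group
    have h'' : a * b * a⁻¹ * b⁻¹ = 1 ∨ a * b * a⁻¹ * b⁻¹ = t := (hπ1 _).1 h'
    rcases hGQ.comm a ((hPmem a).1 ha).1 b ((hPmem b).1 hb).1 with e | e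
    · exact commutatorElement_eq_one_iff_mul_comm.1 e
    · rcases h'' with e' | e'
      · exact commutatorElement_eq_one_iff_mul_comm.1 e'
      · exact absurd (e.symm.trans e') hzt
  have hPcen : ∀ c, ∀ hc : c ∈ P, (∀ x ∈ P, c * x = x * c) → π ⟨c, hPC hc⟩ = 1 ∨ π ⟨c, hPC hc⟩ = π ⟨z, hPC hzP⟩ := by
    intro c hc h
    have hcV : c ∈ Subgroup.closure (insert z ({t} : Set G)) :=
      Lib.Singular.closure_of_centralizers hGQ (Set.finite_singleton t) (Set.singleton_subset_iff.2 htq)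
        ((hPmem c).1 hc).1 fun u hu hut => (h u ((hPmem u).2 ⟨hu, hut t rfl⟩)).symm
    have hcl : ∀ v ∈ Subgroup.closure (insert z ({t} : Set G)), ∀ hv : v ∈ C, π ⟨v, hv⟩ = 1 ∨ π ⟨v, hv⟩ = π ⟨z, hPC hzP⟩ := by
      intro v hv
      have hcc : ∀ v ∈ Subgroup.closure (insert z ({t} : Set G)), v ∈ C := fun v hv =>
        (Subgroup.closure_le _).2 (Set.insert_subset (hPC hzP) (Set.singleton_subset_iff.2 ((hCmem t).2 rfl))) hv
      induction hv using Subgroup.closure_induction with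
      | mem v hv =>
        intro hvC
        rcases hv with rfl | rfl
        · exact Or.inr rfl
        · exact Or.inl ((hπ1 _).2 (Or.inr rfl))
      | one => exact fun _ => Or.inl (map_one π)
      | mul a b ha hb ia ib =>
        intro hab
        rw [show (⟨a * b, hab⟩ : ↥C) = ⟨a, hcc a ha⟩ * ⟨b, hcc b hb⟩ from rfl, map_mul]
        rcases ia (hcc a ha) with ea | ea <;> rcases ib (hcc b hb) with eb | eb <;> rw [ea, eb]
        · simp
        · simp
        · simp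
        · left
          rw [← map_mul, hπ1]
          exact Or.inl hzz
      | inv a ha ia =>
        intro haC
        rw [show (⟨a⁻¹, haC⟩ : ↥C) = ⟨a, hcc a ha⟩⁻¹ from rfl, map_inv]
        rcases ia (hcc a ha) with ea | ea <;> rw [ea]
        · simp
        · right
          exact inv_eq_of_mul_eq_one_right (by rw [← map_mul, hπ1]; exact Or.inl hzz)
    exact hcl c hcV (hPC hc)
  have hyP : y ∈ P := (hPmem y).2 ⟨hgQ, hty.symm⟩
  have hy' : π ⟨y, hPC hyP⟩ ≠ π ⟨z, hPC hzP⟩ := fun h => by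
    rw [← mul_inv_eq_one, ← map_inv, ← map_mul, hπ1] at h
    rcases h with e | e
    · exact hyz (mul_inv_eq_one.1 (show y * z⁻¹ = 1 from e))
    · refine hnzt y (isConj_iff.2 ⟨g, rfl⟩) ?_
      have e' : y * z⁻¹ = t := e
      rw [← (hqz t htq), ← e']; group
  have hzb1 : π ⟨z, hPC hzP⟩ ≠ 1 := fun h => by
    rcases (hπ1 _).1 h with e | e
    exacts [hz1 e, hzt e]
  have hPE : Cfsg.IsExtraspecial 2 ↥Pb := by
    refine isExtraspecial_of_centre ((((hQp.to_le (hP ▸ inf_le_left : P ≤ Q)).of_equiv (Subgroup.subgroupOfEquivOfLe hPC).symm).map π) : IsPGroup 2 ↥Pb)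
      (a := ⟨_, (hPb_mem _).2 ⟨r, hrP, rfl⟩⟩) (b := ⟨_, (hPb_mem _).2 ⟨y, hyP, rfl⟩⟩) (z := ⟨_, (hPb_mem _).2 ⟨z, hzP, rfl⟩⟩) ?_ ?_ ?_ ?_
    · intro h
      have h' := hcomm_t r hrP y hyP (congrArg Subtype.val h)
      have : z * y = y := by rw [← hry, h']; group
      exact hz1 (mul_right_cancel (this.trans (one_mul y).symm))
    · rintro ⟨v, hv⟩
      constructor
      · intro hc
        obtain ⟨x, hxP, rfl⟩ := (hPb_mem v).1 hv
        rcases hPcen x hxP fun u hu => (hcomm_t u hu x hxP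
            (congrArg Subtype.val (Subgroup.mem_center_iff.1 hc ⟨_, (hPb_mem _).2 ⟨u, hu, rfl⟩⟩))).symm with e | e
        · exact Or.inl (Subtype.ext e)
        · exact Or.inr (Subtype.ext e)
      · intro h
        rw [Subgroup.mem_center_iff]
        rintro ⟨u, hu⟩
        obtain ⟨x, hxP, rfl⟩ := (hPb_mem u).1 hu
        rcases h with e | e <;> rw [e]
        · simp
        · apply Subtype.ext
          show π ⟨x, hPC hxP⟩ * π ⟨z, hPC hzP⟩ = π ⟨z, hPC hzP⟩ * π ⟨x, hPC hxP⟩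
          rw [← map_mul, ← map_mul]
          exact congrArg π (Subtype.ext (hqz x ((hPmem x).1 hxP).1))
    · rintro ⟨u, hu⟩ ⟨v, hv⟩
      obtain ⟨a, ha, rfl⟩ := (hPb_mem u).1 hu
      obtain ⟨b, hb, rfl⟩ := (hPb_mem v).1 hv
      rcases hGQ.comm a ((hPmem a).1 ha).1 b ((hPmem b).1 hb).1 with e | e
      · left
        apply Subtype.ext
        show π ⟨a, _⟩ * π ⟨b, _⟩ * (π ⟨a, _⟩)⁻¹ * (π ⟨b, _⟩)⁻¹ = 1
        rw [← map_inv, ← map_inv, ← map_mul, ← map_mul, ← map_mul, hπ1]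
        exact Or.inl e
      · right
        apply Subtype.ext
        show π ⟨a, _⟩ * π ⟨b, _⟩ * (π ⟨a, _⟩)⁻¹ * (π ⟨b, _⟩)⁻¹ = π ⟨z, _⟩
        rw [← map_inv, ← map_inv, ← map_mul, ← map_mul, ← map_mul]
        exact congrArg π (Subtype.ext e)
    · rintro ⟨u, hu⟩
      obtain ⟨a, ha, rfl⟩ := (hPb_mem u).1 hu
      rcases hGQ.sqr a ((hPmem a).1 ha).1 with e | e
      · left
        apply Subtype.ext
        show π ⟨a, _⟩ * π ⟨a, _⟩ = 1
        rw [← map_mul, hπ1]
        exact Or.inl e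
      · right
        apply Subtype.ext
        show π ⟨a, _⟩ * π ⟨a, _⟩ = π ⟨z, _⟩
        rw [← map_mul]
        exact congrArg π (Subtype.ext e)
  have hzbc : ∀ v, v ∈ (Subgroup.center ↥Pb).map Pb.subtype ↔ v = 1 ∨ v = π ⟨z, hPC hzP⟩ := by
    intro v
    constructor
    · rintro ⟨⟨v, hv⟩, hc, rfl⟩
      obtain ⟨x, hxP, rfl⟩ := (hPb_mem v).1 hv
      exact hPcen x hxP fun u hu => (hcomm_t u hu x hxP
        (congrArg Subtype.val (Subgroup.mem_center_iff.1 hc ⟨_, (hPb_mem _).2 ⟨u, hu, rfl⟩⟩))).symm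
    · rintro (rfl | rfl)
      · exact one_mem _
      · refine ⟨⟨_, (hPb_mem _).2 ⟨z, hzP, rfl⟩⟩, Subgroup.mem_center_iff.2 ?_, rfl⟩
        rintro ⟨u, hu⟩
        obtain ⟨x, hxP, rfl⟩ := (hPb_mem u).1 hu
        apply Subtype.ext
        show π ⟨x, hPC hxP⟩ * π ⟨z, hPC hzP⟩ = π ⟨z, hPC hzP⟩ * π ⟨x, hPC hxP⟩
        rw [← map_mul, ← map_mul]
        exact congrArg π (Subtype.ext (hqz x ((hPmem x).1 hxP).1))
  have hcz : ∀ c : ↥C, π c * π ⟨z, hPC hzP⟩ = π ⟨z, hPC hzP⟩ * π c → (c : G) * z = z * c := by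
    intro c hc
    have h' : π (c * ⟨z, hPC hzP⟩ * c⁻¹ * ⟨z, hPC hzP⟩⁻¹) = 1 := by
      rw [map_mul, map_mul, map_mul, map_inv, map_inv, hc]; group
    rcases (hπ1 _).1 h' with e | e
    · exact commutatorElement_eq_one_iff_mul_comm.1 (show (c : G) * z * (c : G)⁻¹ * z⁻¹ = 1 from e)
    · have e' : (c : G) * z * (c : G)⁻¹ * z⁻¹ = t := e
      exact absurd (show (c : G) * z * (c : G)⁻¹ = z * t by rw [← hqz t htq, ← e']; group) (hnzt _ (isConj_iff.2 ⟨c, rfl⟩))
  have hCb : Subgroup.centralizer (Pb : Set (↥C ⧸ (Subgroup.zpowers t).subgroupOf C)) = (Subgroup.center ↥Pb).map Pb.subtype := by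
    apply le_antisymm
    · intro v hv
      obtain ⟨c, rfl⟩ := (show Function.Surjective π from QuotientGroup.mk'_surjective _) v
      have hv' : ∀ x, ∀ hx : x ∈ P, π c * π ⟨x, hPC hx⟩ = π ⟨x, hPC hx⟩ * π c := fun x hx =>
        (Subgroup.mem_centralizer_iff.1 hv _ ((hPb_mem _).2 ⟨x, hx, rfl⟩)).symm
      have hcZ := hcz c (hv' z hzP)
      have hcQ : (c : G) ∈ Q := by
        refine (hCP c (Subgroup.mem_centralizer_singleton_iff.2 hcZ)).1 fun x hx => ⟨x⁻¹ * ((c : G) * x * (c : G)⁻¹), ?_, by group⟩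
        have h' : π (⟨x, hPC hx⟩⁻¹ * (c * ⟨x, hPC hx⟩ * c⁻¹)) = 1 := by
          rw [map_mul, map_mul, map_mul, map_inv, map_inv, hv' x hx]; group
        rcases (hπ1 _).1 h' with e | e
        · rw [show x⁻¹ * ((c : G) * x * (c : G)⁻¹) = 1 from e]; exact one_mem _
        · rw [show x⁻¹ * ((c : G) * x * (c : G)⁻¹) = t from e]; exact Subgroup.subset_closure (by simp)
      have hcP : (c : G) ∈ P := (hPmem _).2 ⟨hcQ, (hCmem _).1 c.2⟩
      rw [hzbc]
      exact hPcen _ hcP fun x hx => hcomm_t _ hcP x hx (hv' x hx)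
    · rintro _ ⟨a, ha, rfl⟩
      exact Subgroup.mem_centralizer_iff.2 fun u hu => congrArg Subtype.val (Subgroup.mem_center_iff.1 ha ⟨u, hu⟩)
  have hNb : Subgroup.centralizer ((((Subgroup.center ↥Pb).map Pb.subtype) : Subgroup _) : Set (↥C ⧸ (Subgroup.zpowers t).subgroupOf C)) ≤
      Subgroup.normalizer (Pb : Set (↥C ⧸ (Subgroup.zpowers t).subgroupOf C)) := by
    have key : ∀ c : ↥C, π c * π ⟨z, hPC hzP⟩ = π ⟨z, hPC hzP⟩ * π c → ∀ v ∈ Pb, π c * v * (π c)⁻¹ ∈ Pb := by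
      intro c hc v hv
      obtain ⟨x, hxP, rfl⟩ := (hPb_mem v).1 hv
      have hm : (c : G) * x * (c : G)⁻¹ ∈ P := (hPmem _).2 ⟨hnC _ (hcz c hc) x ((hPmem x).1 hxP).1, by
        have h1 : Commute (c : G) t := (hCmem _).1 c.2
        exact (Commute.mul_left (Commute.mul_left h1 ((hPmem x).1 hxP).2) h1.inv_left).eq⟩
      exact (hPb_mem _).2 ⟨_, hm, by rw [← map_inv, ← map_mul, ← map_mul]; rfl⟩
    intro v hv
    obtain ⟨c, rfl⟩ := (show Function.Surjective π from QuotientGroup.mk'_surjective _) v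
    have hm := (Subgroup.mem_centralizer_iff.1 hv _ ((hzbc _).2 (Or.inr rfl))).symm
    rw [Subgroup.mem_normalizer_iff]
    refine fun u => ⟨key c hm u, fun h => ?_⟩
    have := key c⁻¹ (by rw [map_inv]; exact (Commute.inv_left (show Commute (π c) _ from hm)).eq) _ h
    rw [map_inv] at this
    simpa [mul_assoc] using this
  have hcardP : 32 ≤ Nat.card ↥Pb := by
    have hidx : Q ≤ P ⊔ Subgroup.zpowers q := by
      intro u hu
      rcases hGQ.comm u hu t htq with e | e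
      · exact Subgroup.mem_sup_left ((hPmem u).2 ⟨hu, commutatorElement_eq_one_iff_mul_comm.1 e⟩)
      · have hm : u * q⁻¹ ∈ P := by
          refine (hPmem _).2 ⟨mul_mem hu (inv_mem hq), ?_⟩
          apply mul_inv_eq_iff_eq_mul.1
          have e1 : u * (z * t) * u⁻¹ = t := by
            calc u * (z * t) * u⁻¹ = (u * z * u⁻¹) * (u * t * u⁻¹ * t⁻¹) * t := by group
              _ = z * z * t := by rw [mul_inv_eq_iff_eq_mul.2 (hqz u hu), e]
              _ = t := by rw [hzz, one_mul]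
          have e2 : q⁻¹ * t * q = z * t := by
            calc q⁻¹ * t * q = q⁻¹ * ((z * z) * t) * q := by rw [hzz, one_mul]
              _ = (q⁻¹ * z * q) * (q⁻¹ * (z * t) * q) := by group
              _ = z * t := by
                rw [show q⁻¹ * z * q = z by rw [mul_assoc, ← hqz q hq]; group,
                  show q⁻¹ * (z * t) * q = t by rw [← hqt]; group]
          calc u * q⁻¹ * t * (u * q⁻¹)⁻¹ = u * (q⁻¹ * t * q) * u⁻¹ := by group
            _ = t := by rw [e2, e1]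
        have := mul_mem (Subgroup.mem_sup_left (T := Subgroup.zpowers q) hm) (Subgroup.mem_sup_right (S := P) (Subgroup.mem_zpowers q))
        simpa using this
    have hqN : Subgroup.zpowers q ≤ Subgroup.normalizer (P : Set G) := by
      rw [Subgroup.zpowers_le, Subgroup.mem_normalizer_iff]
      have key : ∀ s ∈ Q, ∀ x ∈ P, s * x * s⁻¹ ∈ P := fun s hs x hx => by
        rw [show s * x * s⁻¹ = (s * x * s⁻¹ * x⁻¹) * x by group]
        rcases hGQ.comm s hs x ((hPmem x).1 hx).1 with e | e <;> rw [e]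
        · rwa [one_mul]
        · exact mul_mem hzP hx
      refine fun x => ⟨key q hq x, fun h => ?_⟩
      have := key q⁻¹ (inv_mem hq) _ h
      simpa [mul_assoc] using this
    have h1 := Subgroup.card_le_of_le hidx
    have h2 : Nat.card ↥(P ⊔ Subgroup.zpowers q) ≤ Nat.card ↥P * 4 := by
      have hh : (↑(Subgroup.zpowers q ⊔ P) : Set G) = Subgroup.zpowers q * (P : Set G) :=
        Subgroup.coe_mul_of_left_le_normalizer_right _ _ hqN
      rw [sup_comm, mul_comm, show Nat.card ↥(Subgroup.zpowers q ⊔ P) = ((Subgroup.zpowers q ⊔ P : Subgroup G) : Set G).ncard from Nat.card_coe_set_eq _, hh]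
      refine le_trans Set.natCard_mul_le ?_
      gcongr
      · show Nat.card ↥(Subgroup.zpowers q) ≤ 4
        rw [Nat.card_zpowers]
        refine Nat.le_of_dvd (by norm_num) (orderOf_dvd_of_pow_eq_one ?_)
        rcases hGQ.sqr q hq with e | e
        · rw [show (4 : ℕ) = 2 * 2 by norm_num, pow_mul, pow_two q, e, one_pow]
        · rw [show (4 : ℕ) = 2 * 2 by norm_num, pow_mul, pow_two q, e, pow_two, hzz]
      · exact le_rfl
    let f : ↥P →* ↥Pb := (π.comp (Subgroup.inclusion hPC)).codRestrict Pb fun x => (hPb_mem _).2 ⟨x, x.2, rfl⟩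
    have hf : Function.Surjective f := fun ⟨v, hv⟩ => by
      obtain ⟨x, hxP, rfl⟩ := (hPb_mem v).1 hv
      exact ⟨⟨x, hxP⟩, rfl⟩
    have h3 := Subgroup.card_mul_index f.ker
    rw [Subgroup.index_ker, MonoidHom.range_eq_top.2 hf, Subgroup.card_top] at h3
    have h4 : Nat.card ↥f.ker ≤ 2 := by
      have hle : f.ker.map P.subtype ≤ Subgroup.zpowers t := by
        rintro _ ⟨x, hxk, rfl⟩
        have : π (Subgroup.inclusion hPC x) = 1 := congrArg Subtype.val (MonoidHom.mem_ker.1 hxk)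
        rcases (hπ1 _).1 this with e | e
        · exact (show (x : G) ∈ Subgroup.zpowers t from e ▸ one_mem _)
        · exact (show (x : G) ∈ Subgroup.zpowers t from e ▸ Subgroup.mem_zpowers t)
      have := Subgroup.card_le_of_le hle
      rwa [Subgroup.card_map_of_injective P.subtype_injective, Nat.card_zpowers, ht] at this
    have h5 : Nat.card ↥P ≤ 2 * Nat.card ↥Pb := by rw [← h3]; exact Nat.mul_le_mul_right _ h4
    have h6 : 2 ^ 7 ≤ 2 ^ (2 * w + 1) := Nat.pow_le_pow_right two_pos (by omega)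
    have h7 : Nat.card ↥Pb * 8 ≥ 128 := by omega
    obtain ⟨v, hv⟩ := IsPGroup.iff_card.1 (hPE.1.1)
    obtain ⟨k, hk⟩ := Lib.LargeExtra.exists_width hPE
    rw [hk] at h7 ⊢
    have hk2 : 2 ≤ k := by
      by_contra hlt
      have := Nat.pow_le_pow_right (n := 2) two_pos (show 2 * k + 1 ≤ 3 by omega)
      omega
    exact le_trans (by norm_num) (Nat.pow_le_pow_right (n := 2) two_pos (show 5 ≤ 2 * k + 1 by omega))
  have hxy : π ⟨p * r, hxC⟩⁻¹ * π ⟨z, hPC hzP⟩ * (π ⟨p * r, hxC⟩⁻¹)⁻¹ = π ⟨y, hPC hyP⟩ := by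
    rw [← map_inv, ← map_mul, ← map_mul]
    refine congrArg π (Subtype.ext ?_)
    show (p * r)⁻¹ * z * (p * r)⁻¹⁻¹ = y
    rw [← hx]; group
  refine Lib.LargeExtra.large_of_conj hPE hCb hNb hcardP hzbc hzb1 (g := π ⟨p * r, hxC⟩⁻¹) ?_ ?_
  · rw [hxy]; exact (hPb_mem _).2 ⟨y, hyP, rfl⟩
  · rw [hxy]; exact hy'

/-- Let z be an involution of the finite group G with centralizer C whose generalized Fitting subgroup Q is extraspecial of width at least 3 (order 2^(2w+1), w ≥ 3); let g be an element of G with g z g⁻¹ in Q but outside the centre Z of Q, and t an involution lying in both Q and g Q g⁻¹ that is not conjugate to z; write P for the centralizer of t in Q and suppose that the elements of C acting trivially by conjugation on P modulo the subgroup generated by t and z are exactly the elements of Q. Then the image of P in the centralizer of t modulo the subgroup generated by t is a large extraspecial 2-subgroup there, and g z g⁻¹ is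 conjugate to z inside the subgroup generated by P and the centralizer of t in g Q g⁻¹. -/
theorem result {G : Type*} [Group G] [Finite G] (z : G) (hz : orderOf z = 2) (Q : Subgroup G) (hQC : Q ≤ Subgroup.centralizer ({z} : Set G)) (hF : (Cfsg.generalizedFittingSubgroup ↥(Subgroup.centralizer ({z} : Set G))).map (Subgroup.centralizer ({z} : Set G)).subtype = Q) (hQ : Cfsg.IsExtraspecial 2 ↥Q) (w : ℕ) (hw : 3 ≤ w) (hcard : Nat.card ↥Q = 2 ^ (2 * w + 1)) (g : G) (hgQ : g * z * g⁻¹ ∈ Q) (hgZ : g * z * g⁻¹ ∉ ((Subgroup.center ↥Q).map Q.subtype)) (t : G) (ht : orderOf t = 2) (htQ : t ∈ Q ⊓ (Q).map (MulAut.conj g).toMonoidHom) (htz : ¬ IsConj z t) (P : Subgroup G) (hP : P = Q ⊓ Subgroup.centralizer ({t} : Set G)) (hCP : ∀ c ∈ Subgroup.centralizer ({z} : Set G), (∀ x ∈ P, ∃ y ∈ Subgroup.closure ({t, z} : Set G), c * x * c⁻¹ = x * y) ↔ c ∈ Q) [hn : ((Subgroup.zpowers t).subgroupOf (Subgroup.centralizer ({t} : Set G))).Normal] : Cfsg.IsLargeExtraspecial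 ((P.subgroupOf (Subgroup.centralizer ({t} : Set G))).map (QuotientGroup.mk' ((Subgroup.zpowers t).subgroupOf (Subgroup.centralizer ({t} : Set G))))) ∧ ∃ x ∈ P ⊔ ((Q).map (MulAut.conj g).toMonoidHom ⊓ Subgroup.centralizer ({t} : Set G)), x * (g * z * g⁻¹) * x⁻¹ = z := by
  classical
  exact main z hz Q hQC hF hQ w hw hcard g hgQ hgZ t ht htQ htz P hP hCP

end Cfsg.Agent.S5429
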