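import Cfsg.Statements.S5430
import Cfsg.Agent.Lib.LargeExtra.Pair
-- import your own Cfsg.Agent.* helpers here

set_option autoImplicit false
open Cfsg

namespace Cfsg.Agent.S5430

theorem mem_norm {G : Type*} [Group G] [Finite G] {V : Subgroup G} {u : G} (hu : ∀ v ∈ V, u * v * u⁻¹ ∈ V) :
    u ∈ Subgroup.normalizer (V : Set G) := by
  have he : V.map (MulAut.conj u).toMonoidHom = V := by
    apply Subgroup.eq_of_le_of_card_ge
    · rintro _ ⟨v, hv, rfl⟩; exact hu v hv
    · exact (Subgroup.card_map_of_injective (MulAut.conj u).injective).ge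
  rw [Subgroup.mem_normalizer_iff]
  refine fun v => ⟨hu v, fun hv => ?_⟩
  rw [← he] at hv
  obtain ⟨w, hw, e⟩ := hv
  have : w = v := mul_left_cancel (mul_right_cancel (e : u * w * u⁻¹ = u * v * u⁻¹))
  exact this ▸ hw

open Cfsg.Agent.Lib.LargeExtra Cfsg.Agent.Lib.Singular in
theorem six {H : Type*} [Group H] {a b : H} (ha : a * a = 1) (hb : b * b = 1) (hab : a * b * a = b * a * b)
    (hgen : Subgroup.closure ({a, b} : Set H) = ⊤) (x : H) :
    x = 1 ∨ x = a ∨ x = b ∨ x = a * b ∨ x = b * a ∨ x = a * b * a := by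
  have a1 : ∀ u, a * (a * u) = u := fun u => by rw [← mul_assoc, ha, one_mul]
  have a2 : ∀ u, b * (b * u) = u := fun u => by rw [← mul_assoc, hb, one_mul]
  have a3 : b * (a * b) = a * (b * a) := by rw [← mul_assoc, ← hab, mul_assoc]
  have a4 : ∀ u, b * (a * (b * u)) = a * (b * (a * u)) := fun u => by
    rw [← mul_assoc, ← mul_assoc, ← hab, mul_assoc, mul_assoc]
  have hai : a⁻¹ = a := inv_eq_of_mul_eq_one_right ha
  have hbi : b⁻¹ = b := inv_eq_of_mul_eq_one_right hb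
  have hx : x ∈ Subgroup.closure ({a, b} : Set H) := hgen ▸ Subgroup.mem_top x
  induction hx using Subgroup.closure_induction_left with
  | one => simp
  | mul_left u hu v _ ih =>
    rcases hu with rfl | rfl <;> rcases ih with rfl | rfl | rfl | rfl | rfl | rfl <;>
      simp [mul_assoc, a1, a2, a3, a4, ha, hb]
  | inv_mul_cancel u hu v _ ih =>
    rcases hu with rfl | rfl <;> rcases ih with rfl | rfl | rfl | rfl | rfl | rfl <;>
      simp [mul_assoc, a1, a2, a3, a4, ha, hb, hai, hbi]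

set_option maxRecDepth 4000 in
open Cfsg.Agent.Lib.LargeExtra Cfsg.Agent.Lib.Singular in
theorem core {G : Type*} [Group G] [Finite G] {Qf : G → Subgroup G} {z y : G} (h : Pair Qf z y) (V X R : Subgroup G)
    (hV : V = Subgroup.closure ({z, y} : Set G)) (hX : X = Qf z ⊔ Qf y) (hR : R = Pair.R Qf z y) :
    R = X ⊓ Subgroup.centralizer (V : Set G) ∧ R = (Cfsg.pCore 2 ↥X).map X.subtype ∧
    (∃ h : (R.subgroupOf X).Normal, Nonempty (↥X ⧸ R.subgroupOf X ≃* Equiv.Perm (Fin 3))) ∧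
    Subgroup.normalizer (V : Set G) = X ⊔ (Subgroup.centralizer ({z} : Set G) ⊓ Subgroup.centralizer (V : Set G)) ∧
    (∀ u ∈ Subgroup.normalizer (V : Set G), ∀ x ∈ X, u * x * u⁻¹ ∈ X) ∧
    R ≤ Subgroup.centralizer ({z} : Set G) ⊓ Subgroup.centralizer (V : Set G) ∧
    (∀ x ∈ X, ∀ c ∈ Subgroup.centralizer ({z} : Set G) ⊓ Subgroup.centralizer (V : Set G), x * c * x⁻¹ * c⁻¹ ∈ R) ∧
    X ⊓ (Subgroup.centralizer ({z} : Set G) ⊓ Subgroup.centralizer (V : Set G)) = R := by
  classical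
  -- the three involutions
  let f : Fin 3 → G := ![z, y, z * y]
  have hfinj : Function.Injective f := by
    have n1 : z * y ≠ z := fun e => h.goody.ne (mul_left_cancel (e.trans (mul_one z).symm))
    have n2 : z * y ≠ y := fun e => h.goodz.ne (mul_right_cancel (e.trans (one_mul y).symm))
    intro i j e
    fin_cases i <;> fin_cases j <;> simp_all [f, h.ne, h.ne.symm, n1.symm, n2.symm]
  have hVmem : ∀ v, v ∈ V ↔ v = 1 ∨ ∃ i, v = f i := by
    intro v
    rw [hV, h.mem_V, Fin.exists_fin_succ, Fin.exists_fin_succ, Fin.exists_fin_succ]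
    simp [f]
  have hf1 : ∀ i, f i ≠ 1 := by
    intro i
    fin_cases i
    · exact h.goodz.ne
    · exact h.goody.ne
    · intro e
      exact h.ne (by rw [← inv_eq_of_mul_eq_one_right e, inv_eq_of_mul_eq_one_right h.goodz.sq])
  let N := Subgroup.normalizer (V : Set G)
  have hperm : ∀ u : ↥N, ∀ i, ∃ j, (u : G) * f i * (u : G)⁻¹ = f j := by
    intro u i
    rcases (hVmem _).1 ((Subgroup.mem_normalizer_iff.1 u.2 (f i)).1 ((hVmem _).2 (Or.inr ⟨i, rfl⟩))) with e | e
    · exact absurd (conj_eq_one_iff.1 e) (hf1 i)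
    · exact e
  choose σ hσ using hperm
  let φ : ↥N →* Equiv.Perm (Fin 3) :=
    { toFun := fun u => Equiv.ofBijective (σ u) (Finite.injective_iff_bijective.1 fun i j e => by
        have := (hσ u i).trans ((congrArg f e).trans (hσ u j).symm)
        exact hfinj (mul_left_cancel (mul_right_cancel this)))
      map_one' := by
        ext i : 1
        apply hfinj
        have := hσ 1 i
        simp only [OneMemClass.coe_one, one_mul, inv_one, mul_one] at this
        exact this.symm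
      map_mul' := fun u v => by
        ext i : 1
        apply hfinj
        show f (σ (u * v) i) = f (σ u (σ v i))
        rw [← hσ, ← hσ, ← hσ, Subgroup.coe_mul]; group }
  have hφ : ∀ (u : ↥N) (i j : Fin 3), φ u i = j ↔ (u : G) * f i * (u : G)⁻¹ = f j := by
    intro u i j
    rw [show φ u i = σ u i from rfl, hσ]
    exact ⟨fun e => e ▸ rfl, fun e => hfinj e⟩
  have hφ1 : ∀ u : ↥N, φ u = 1 ↔ (u : G) ∈ Subgroup.centralizer (V : Set G) := by
    intro u
    constructor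
    · intro e
      rw [Subgroup.mem_centralizer_iff]
      intro v hv
      rcases (hVmem v).1 hv with rfl | ⟨i, rfl⟩
      · simp
      · exact (mul_inv_eq_iff_eq_mul.1 ((hφ u i i).1 (by rw [e]; rfl))).symm
    · intro e
      ext i : 1
      exact (hφ u i i).2 (mul_inv_eq_iff_eq_mul.2 (Subgroup.mem_centralizer_iff.1 e _ ((hVmem _).2 (Or.inr ⟨i, rfl⟩))).symm)
  -- X normalizes V
  have hQN : ∀ q ∈ Qf z, q ∈ N := by
    intro q hq
    refine mem_norm ?_
    intro v hv
    have hvQ : v ∈ Qf z := by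
      rw [hV] at hv
      exact (Subgroup.closure_le _).2 (Set.insert_subset h.goodz.mem (Set.singleton_subset_iff.2 h.memy)) hv
    rw [show q * v * q⁻¹ = (q * v * q⁻¹ * v⁻¹) * v by group]
    rcases h.goodz.comm q hq v hvQ with e | e <;> rw [e]
    · rwa [one_mul]
    · exact mul_mem (hV ▸ Subgroup.subset_closure (by simp)) hv
  have hPN : ∀ q ∈ Qf y, q ∈ N := by
    intro q hq
    refine mem_norm ?_
    intro v hv
    have hvQ : v ∈ Qf y := by
      rw [hV] at hv
      exact (Subgroup.closure_le _).2 (Set.insert_subset h.memz (Set.singleton_subset_iff.2 h.goody.mem)) hv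
    rw [show q * v * q⁻¹ = (q * v * q⁻¹ * v⁻¹) * v by group]
    rcases h.goody.comm q hq v hvQ with e | e <;> rw [e]
    · rwa [one_mul]
    · exact mul_mem (hV ▸ Subgroup.subset_closure (by simp)) hv
  have hXN : X ≤ N := hX ▸ sup_le hQN hPN
  have hQX : Qf z ≤ X := hX ▸ le_sup_left
  have hPX : Qf y ≤ X := hX ▸ le_sup_right
  have hRX : R ≤ X := hR ▸ sup_le (inf_le_left.trans hPX) (inf_le_left.trans hQX)
  have hRV : R ≤ Subgroup.centralizer (V : Set G) := fun x hx => Subgroup.mem_centralizer_iff.2 fun v hv =>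
    (h.R_cent_V (hR ▸ hx) (hV ▸ hv)).symm
  have hRn : X ≤ Subgroup.normalizer (R : Set G) := by
    rw [hX]
    refine sup_le ?_ ?_ <;> intro q hq <;> refine mem_norm fun x hx => ?_
    · exact hR ▸ h.R_conj hq (hR ▸ hx)
    · rw [hR, ← h.R_symm] at hx ⊢
      exact h.symm.R_conj hq hx
  haveI hN : (R.subgroupOf X).Normal := Subgroup.normal_subgroupOf_of_le_normalizer hRn
  let ψ : ↥X →* Equiv.Perm (Fin 3) := φ.comp (Subgroup.inclusion hXN)
  have hker : R.subgroupOf X ≤ ψ.ker := fun x hx => MonoidHom.mem_ker.2 ((hφ1 _).2 (hRV hx))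
  let χ := QuotientGroup.lift (R.subgroupOf X) ψ hker
  obtain ⟨q, hq, hqy⟩ := h.exists_q0
  obtain ⟨p, hp, hpz⟩ := h.symm.exists_q0
  have hq' : q * z * q⁻¹ = z := mul_inv_eq_iff_eq_mul.2 (h.goodz.le q hq)
  have hp' : p * y * p⁻¹ = y := mul_inv_eq_iff_eq_mul.2 (h.goody.le p hp)
  have hqz : q * (z * y) * q⁻¹ = y := by
    rw [show q * (z * y) * q⁻¹ = (q * z * q⁻¹) * (q * y * q⁻¹) by group, hq', hqy, ← mul_assoc, h.goodz.sq, one_mul]
  have hpy : p * (z * y) * p⁻¹ = z := by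
    rw [show p * (z * y) * p⁻¹ = (p * z * p⁻¹) * (p * y * p⁻¹) by group, hpz, hp', ← h.zy, mul_assoc, h.goody.sq, mul_one]
  have hqB : ∀ u ∈ Qf z, u * y = y * u → u ∈ R := fun u hu huy => hR ▸ Subgroup.mem_sup_right (h.mem_B.2 ⟨hu, huy⟩)
  have hpA : ∀ u ∈ Qf y, u * z = z * u → u ∈ R := fun u hu huy => hR ▸ Subgroup.mem_sup_left (h.symm.mem_B.2 ⟨hu, huy⟩)
  have hqq : q * q ∈ R := hqB _ (mul_mem hq hq) (by
    rcases h.goodz.sqr q hq with e | e <;> rw [e]
    · simp
    · exact h.zy)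
  have hpp : p * p ∈ R := hpA _ (mul_mem hp hp) (by
    rcases h.goody.sqr p hp with e | e <;> rw [e]
    · simp
    · exact h.zy.symm)
  let π := QuotientGroup.mk' (R.subgroupOf X)
  let a : ↥X ⧸ R.subgroupOf X := π ⟨q, hQX hq⟩
  let b : ↥X ⧸ R.subgroupOf X := π ⟨p, hPX hp⟩
  have one_of : ∀ (x : ↥X), (x : G) ∈ R → π x = 1 := fun x hx => (QuotientGroup.eq_one_iff x).2 hx
  have ha : a * a = 1 := one_of ⟨q * q, mul_mem (hQX hq) (hQX hq)⟩ hqq
  have hb : b * b = 1 := one_of ⟨p * p, mul_mem (hPX hp) (hPX hp)⟩ hpp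
  have hgenQ : ∀ u (hu : u ∈ Qf z), π ⟨u, hQX hu⟩ ∈ Subgroup.closure ({a, b} : Set (↥X ⧸ R.subgroupOf X)) := by
    intro u hu
    rcases h.goodz.comm u hu y h.memy with e | e
    · rw [one_of _ (hqB u hu ((comm_iff _ _).1 e))]; exact one_mem _
    · have hu' : (q⁻¹ * u) * y = y * (q⁻¹ * u) := by
        have a1 : u * y = z * y * u := by rw [← e]; group
        calc (q⁻¹ * u) * y = q⁻¹ * (z * y * u) := by rw [mul_assoc, a1]
          _ = q⁻¹ * (q * y * q⁻¹) * u := by rw [hqy]; group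
          _ = _ := by group
      have h1 := one_of ⟨q⁻¹ * u, mul_mem (inv_mem (hQX hq)) (hQX hu)⟩ (hqB _ (mul_mem (inv_mem hq) hu) hu')
      rw [show (⟨u, hQX hu⟩ : ↥X) = ⟨q, hQX hq⟩ * ⟨q⁻¹ * u, mul_mem (inv_mem (hQX hq)) (hQX hu)⟩ from Subtype.ext (by simp), map_mul, h1, mul_one]
      exact Subgroup.subset_closure (by simp [a])
  have hgenP : ∀ u (hu : u ∈ Qf y), π ⟨u, hPX hu⟩ ∈ Subgroup.closure ({a, b} : Set (↥X ⧸ R.subgroupOf X)) := by
    intro u hu
    rcases h.goody.comm u hu z h.memz with e | e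
    · rw [one_of _ (hpA u hu ((comm_iff _ _).1 e))]; exact one_mem _
    · have hu' : (p⁻¹ * u) * z = z * (p⁻¹ * u) := by
        have a1 : u * z = y * z * u := by rw [← e]; group
        calc (p⁻¹ * u) * z = p⁻¹ * (y * z * u) := by rw [mul_assoc, a1]
          _ = p⁻¹ * (p * z * p⁻¹) * u := by rw [hpz]; group
          _ = _ := by group
      have h1 := one_of ⟨p⁻¹ * u, mul_mem (inv_mem (hPX hp)) (hPX hu)⟩ (hpA _ (mul_mem (inv_mem hp) hu) hu')
      rw [show (⟨u, hPX hu⟩ : ↥X) = ⟨p, hPX hp⟩ * ⟨p⁻¹ * u, mul_mem (inv_mem (hPX hp)) (hPX hu)⟩ from Subtype.ext (by simp), map_mul, h1, mul_one]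
      exact Subgroup.subset_closure (by simp [b])
  have hgen : Subgroup.closure ({a, b} : Set (↥X ⧸ R.subgroupOf X)) = ⊤ := by
    refine eq_top_iff.2 fun t htop => ?_
    clear htop
    obtain ⟨⟨x, hx⟩, rfl⟩ := QuotientGroup.mk'_surjective _ t
    have hx' : x ∈ Subgroup.closure ((Qf z : Set G) ∪ Qf y) := by
      rw [Subgroup.closure_union, Subgroup.closure_eq, Subgroup.closure_eq, ← hX]; exact hx
    induction hx' using Subgroup.closure_induction'' with
    | mem u hu => exact hu.elim (hgenQ u) (hgenP u)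
    | inv_mem u hu =>
      have hu' : u ∈ X := inv_mem_iff.1 hx
      rw [show (⟨u⁻¹, hx⟩ : ↥X) = ⟨u, hu'⟩⁻¹ from rfl, map_inv]
      exact inv_mem (hu.elim (hgenQ u) (hgenP u))
    | one => rw [show (⟨1, hx⟩ : ↥X) = 1 from rfl, map_one]; exact one_mem _
    | mul u w hu hw iu iw =>
      have hle : Subgroup.closure ((Qf z : Set G) ∪ Qf y) ≤ X := by
        rw [Subgroup.closure_union, Subgroup.closure_eq, Subgroup.closure_eq, ← hX]
      rw [show (⟨u * w, hx⟩ : ↥X) = ⟨u, hle hu⟩ * ⟨w, hle hw⟩ from rfl, map_mul]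
      exact mul_mem (iu _) (iw _)
  have hab : a * b * a = b * a * b := by
    -- `q p q⁻¹` lies in the subgroup of `z * y`, as does a conjugate of `q` by `p`
    have hn : q * p * q⁻¹ ∈ Qf (z * y) := hqy ▸ h.conj q y p hp
    have hzy : p * z * p⁻¹ = z * y := hpz.trans h.zy.symm
    have hu : p⁻¹ * (q * p * q⁻¹) * p ∈ Qf z := by
      have := h.conj p⁻¹ (z * y) _ hn
      rwa [inv_inv, ← hzy, show p⁻¹ * (p * z * p⁻¹) * p = z by group] at this
    have hact : (p⁻¹ * (q * p * q⁻¹) * p) * y * (p⁻¹ * (q * p * q⁻¹) * p)⁻¹ = z * y := by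
      have q1 : q⁻¹ * y * q = z * y := by
        calc q⁻¹ * y * q = q⁻¹ * (q * (z * y) * q⁻¹) * q := by rw [hqz]
          _ = _ := by group
      have p1 : p⁻¹ * z * p = z * y := by
        calc p⁻¹ * z * p = p⁻¹ * (p * (z * y) * p⁻¹) * p := by rw [hpy]
          _ = _ := by group
      calc (p⁻¹ * (q * p * q⁻¹) * p) * y * (p⁻¹ * (q * p * q⁻¹) * p)⁻¹
          = p⁻¹ * (q * (p * (q⁻¹ * (p * y * p⁻¹) * q) * p⁻¹) * q⁻¹) * p := by group
        _ = z * y := by rw [hp', q1, hpy, hq', p1]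
    have hu' : (q⁻¹ * (p⁻¹ * (q * p * q⁻¹) * p)) * y = y * (q⁻¹ * (p⁻¹ * (q * p * q⁻¹) * p)) := by
      apply mul_inv_eq_iff_eq_mul.1
      calc (q⁻¹ * (p⁻¹ * (q * p * q⁻¹) * p)) * y * (q⁻¹ * (p⁻¹ * (q * p * q⁻¹) * p))⁻¹
          = q⁻¹ * ((p⁻¹ * (q * p * q⁻¹) * p) * y * (p⁻¹ * (q * p * q⁻¹) * p)⁻¹) * q := by group
        _ = q⁻¹ * (z * y) * q := by rw [hact]
        _ = q⁻¹ * (q * y * q⁻¹) * q := by rw [hqy]
        _ = y := by group
    have h1 : a⁻¹ * (b⁻¹ * (a * b * a⁻¹) * b) = 1 :=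
      one_of ⟨q⁻¹ * (p⁻¹ * (q * p * q⁻¹) * p), hQX (mul_mem (inv_mem hq) hu)⟩ (hqB _ (mul_mem (inv_mem hq) hu) hu')
    rw [inv_eq_of_mul_eq_one_right ha, inv_eq_of_mul_eq_one_right hb] at h1
    have h2 : b * (a * b * a) * b = a := by
      exact (eq_inv_of_mul_eq_one_right h1).trans (inv_eq_of_mul_eq_one_right ha)
    calc a * b * a = b * b * (a * b * a) * (b * b) := by rw [hb, one_mul, mul_one]
      _ = b * (b * (a * b * a) * b) * b := by group
      _ = _ := by rw [h2]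
  have hψq : χ a = Equiv.swap 1 2 := by
    ext i : 1
    refine (hφ (Subgroup.inclusion hXN ⟨q, hQX hq⟩) i _).2 ?_
    fin_cases i
    · exact hq'
    · exact hqy
    · exact hqz
  have hψp : χ b = Equiv.swap 0 2 := by
    ext i : 1
    refine (hφ (Subgroup.inclusion hXN ⟨p, hPX hp⟩) i _).2 ?_
    fin_cases i
    · show p * z * p⁻¹ = z * y
      rw [hpz, h.zy]
    · exact hp'
    · exact hpy
  have hinj : Function.Injective χ := by
    refine (injective_iff_map_eq_one χ).2 fun t ht => ?_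
    rcases six ha hb hab hgen t with rfl | rfl | rfl | rfl | rfl | rfl
    · rfl
    all_goals
      simp only [map_mul, hψq, hψp] at ht
      exact absurd ht (by decide)
  have hsurj : Function.Surjective χ := by
    have key : ∀ σ : Equiv.Perm (Fin 3), σ = 1 ∨ σ = Equiv.swap 1 2 ∨ σ = Equiv.swap 0 2 ∨
        σ = Equiv.swap 1 2 * Equiv.swap 0 2 ∨ σ = Equiv.swap 0 2 * Equiv.swap 1 2 ∨
        σ = Equiv.swap 1 2 * Equiv.swap 0 2 * Equiv.swap 1 2 := by decide
    intro σ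
    rcases key σ with rfl | rfl | rfl | rfl | rfl | rfl
    exacts [⟨1, map_one χ⟩, ⟨a, hψq⟩, ⟨b, hψp⟩, ⟨a * b, by rw [map_mul, hψq, hψp]⟩,
      ⟨b * a, by rw [map_mul, hψq, hψp]⟩, ⟨a * b * a, by rw [map_mul, map_mul, hψq, hψp]⟩]
  have hkerR : ∀ x : ↥X, ψ x = 1 → (x : G) ∈ R := fun x hx =>
    (QuotientGroup.eq_one_iff x).1 (hinj (show χ (π x) = χ 1 by rw [map_one]; exact hx))
  have hRint : R = X ⊓ Subgroup.centralizer (V : Set G) :=
    le_antisymm (le_inf hRX hRV) fun x hx => hkerR ⟨x, hx.1⟩ ((hφ1 _).2 hx.2)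
  have hCz : Subgroup.centralizer (V : Set G) ≤ Subgroup.centralizer ({z} : Set G) :=
    Subgroup.centralizer_le (Set.singleton_subset_iff.2 (hV ▸ Subgroup.subset_closure (by simp)))
  rw [inf_eq_right.2 hCz]
  have hcX : ∀ c ∈ Subgroup.centralizer (V : Set G), c ∈ Subgroup.normalizer (X : Set G) := by
    intro c hc
    refine mem_norm ?_
    intro x hx
    have hcz : c * z * c⁻¹ = z :=
      mul_inv_eq_iff_eq_mul.2 (Subgroup.mem_centralizer_iff.1 hc z (hV ▸ Subgroup.subset_closure (by simp))).symm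
    have hcy : c * y * c⁻¹ = y :=
      mul_inv_eq_iff_eq_mul.2 (Subgroup.mem_centralizer_iff.1 hc y (hV ▸ Subgroup.subset_closure (by simp))).symm
    have hmap : X.map (MulAut.conj c).toMonoidHom ≤ X := by
      rw [hX, Subgroup.map_sup]
      refine sup_le_sup ?_ ?_ <;> rintro _ ⟨u, hu, rfl⟩
      · have := h.conj c z u hu; rw [hcz] at this; exact this
      · have := h.conj c y u hu; rw [hcy] at this; exact this
    exact hmap ⟨x, hx, rfl⟩
  have hsup : N = X ⊔ Subgroup.centralizer (V : Set G) := by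
    refine le_antisymm (fun u hu => ?_) (sup_le hXN ?_)
    · obtain ⟨t, ht⟩ := hsurj (φ ⟨u, hu⟩)
      obtain ⟨x, rfl⟩ := QuotientGroup.mk'_surjective _ t
      have h1 : φ ((Subgroup.inclusion hXN x)⁻¹ * ⟨u, hu⟩) = 1 := by
        have ht' : φ (Subgroup.inclusion hXN x) = φ ⟨u, hu⟩ := ht
        rw [map_mul, map_inv, ht', inv_mul_cancel]
      have h2 := (hφ1 _).1 h1
      have h3 : (x : G) * ((x : G)⁻¹ * u) ∈ X ⊔ Subgroup.centralizer (V : Set G) :=
        mul_mem (Subgroup.mem_sup_left x.2) (Subgroup.mem_sup_right h2)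
      simpa using h3
    · intro c hc
      show c ∈ N
      refine mem_norm ?_
      intro v hv
      rwa [← Subgroup.mem_centralizer_iff.1 hc v hv, mul_inv_cancel_right]
  have hNX : N ≤ Subgroup.normalizer (X : Set G) := hsup ▸ sup_le Subgroup.le_normalizer hcX
  have hmemX : ∀ u ∈ N, ∀ x ∈ X, u * x * u⁻¹ ∈ X := fun u hu x hx => (Subgroup.mem_normalizer_iff.1 (hNX hu) x).1 hx
  refine ⟨hRint, ?_, ⟨hN, ⟨MulEquiv.ofBijective χ ⟨hinj, hsurj⟩⟩⟩, hsup, hmemX, hRV, ?_, hRint.symm⟩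
  · apply le_antisymm
    · intro x hx
      have hp2 : IsPGroup 2 ↥(R.subgroupOf X) :=
        (hR ▸ h.R_isPGroup : IsPGroup 2 ↥R).of_equiv (Subgroup.subgroupOfEquivOfLe hRX).symm
      have hle : R.subgroupOf X ≤ Cfsg.pCore 2 ↥X := le_sSup ⟨hN, hp2⟩
      exact ⟨⟨x, hRX hx⟩, hle hx, rfl⟩
    · rintro _ ⟨x, hx, rfl⟩
      have hall : ∀ S : Subgroup ↥X, S.Normal → IsPGroup 2 ↥S → S ≤ R.subgroupOf X := by
        intro S hS hS2 s hs
        refine hkerR s ?_
        by_contra hne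
        have key : ∀ σ : Equiv.Perm (Fin 3), σ ≠ 1 → ∃ τ : Equiv.Perm (Fin 3),
            τ * σ * τ⁻¹ * σ⁻¹ ≠ 1 ∧ (τ * σ * τ⁻¹ * σ⁻¹) ^ 3 = 1 := by decide
        obtain ⟨τ, h1, h3⟩ := key _ hne
        obtain ⟨t, ht⟩ := hsurj τ
        obtain ⟨t, rfl⟩ := QuotientGroup.mk'_surjective _ t
        have ht' : ψ t = τ := ht
        have hm : t * s * t⁻¹ * s⁻¹ ∈ S := mul_mem (hS.conj_mem s hs t) (inv_mem hs)
        obtain ⟨k, hk⟩ := hS2 ⟨_, hm⟩
        have hk' := congrArg ψ (congrArg Subtype.val hk)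
        simp only [SubgroupClass.coe_pow, map_pow, map_mul, map_inv, OneMemClass.coe_one, map_one, ht'] at hk'
        have d1 := orderOf_dvd_of_pow_eq_one hk'
        have d2 := orderOf_dvd_of_pow_eq_one h3
        have d3 := Nat.dvd_gcd d1 d2
        rw [((by norm_num : Nat.Coprime 2 3).pow_left k).gcd_eq_one, Nat.dvd_one, orderOf_eq_one_iff] at d3
        exact h1 d3
      exact (sSup_le fun S hS => hall S hS.1 hS.2 : Cfsg.pCore 2 ↥X ≤ _) hx
  · intro x hx c hc
    have hcN : c ∈ N := hsup ▸ Subgroup.mem_sup_right hc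
    rw [hRint]
    refine ⟨?_, ?_⟩
    · rw [show x * c * x⁻¹ * c⁻¹ = x * (c * x⁻¹ * c⁻¹) by group]
      exact mul_mem hx (hmemX c hcN _ (inv_mem hx))
    · have h1 : φ (⟨x, hXN hx⟩ * ⟨c, hcN⟩ * ⟨x, hXN hx⟩⁻¹ * ⟨c, hcN⟩⁻¹) = 1 := by
        rw [map_mul, map_mul, map_mul, map_inv, map_inv, (hφ1 ⟨c, hcN⟩).2 hc]
        simp
      exact (hφ1 _).1 h1

/-- Let Q be a large extraspecial 2-subgroup of the finite group G (extraspecial; centralizer equal to its centre; normal in the centralizer of its centre; normalizing no non-trivial subgroup of odd order) with centre generated by z, an involution, of width w ≥ 2 (order 2^(2w+1)); let g be an element outside the centralizer H of z with g z g⁻¹ in Q; write V for the subgroup generated by z and g z g⁻¹, X for the subgroup generated by Q and g Q g⁻¹, R for the subgroup generated by the centralizer of z in g Q g⁻¹ and the centralizer of g z g⁻¹ in Q, and E for the intersection of Q and g Q g⁻¹. Then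 R is the centralizer of V in X and is the largest normal 2-subgroup of X, and X/R is isomorphic to the symmetric group of degree 3; moreover the normalizer of V is the product of X and the centralizer of V in H, X is normal in it, and modulo R it is the direct product of X/R and of the centralizer of V in H modulo R. -/
theorem result {G : Type*} [Group G] [Finite G] (Q : Subgroup G) (hQ : Cfsg.IsLargeExtraspecial Q) (z : G) (hz : ((Subgroup.center ↥Q).map Q.subtype) = Subgroup.zpowers z) (hz2 : orderOf z = 2) (w : ℕ) (hw : 2 ≤ w) (hcard : Nat.card ↥Q = 2 ^ (2 * w + 1)) (g : G) (hgH : g ∉ Subgroup.centralizer ({z} : Set G)) (hgQ : g * z * g⁻¹ ∈ Q) (V X R E : Subgroup G) (hV : V = Subgroup.closure ({z, g * z * g⁻¹} : Set G)) (hX : X = Q ⊔ (Q).map (MulAut.conj g).toMonoidHom) (hR : R = ((Q).map (MulAut.conj g).toMonoidHom ⊓ Subgroup.centralizer ({z} : Set G)) ⊔ (Q ⊓ Subgroup.centralizer ({g * z * g⁻¹} : Set G))) (hE : E = Q ⊓ (Q).map (MulAut.conj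 g).toMonoidHom) : R = X ⊓ Subgroup.centralizer (V : Set G) ∧ R = (Cfsg.pCore 2 ↥X).map X.subtype ∧ (∃ h : (R.subgroupOf X).Normal, Nonempty (↥X ⧸ R.subgroupOf X ≃* Equiv.Perm (Fin 3))) ∧ Subgroup.normalizer (V : Set G) = X ⊔ (Subgroup.centralizer ({z} : Set G) ⊓ Subgroup.centralizer (V : Set G)) ∧ (∀ y ∈ Subgroup.normalizer (V : Set G), ∀ x ∈ X, y * x * y⁻¹ ∈ X) ∧ R ≤ Subgroup.centralizer ({z} : Set G) ⊓ Subgroup.centralizer (V : Set G) ∧ (∀ x ∈ X, ∀ c ∈ Subgroup.centralizer ({z} : Set G) ⊓ Subgroup.centralizer (V : Set G), x * c * x⁻¹ * c⁻¹ ∈ R) ∧ X ⊓ (Subgroup.centralizer ({z} : Set G) ⊓ Subgroup.centralizer (V : Set G)) = R := by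
  obtain ⟨h, e1, e2⟩ := Lib.LargeExtra.pair_of Q hQ z hz hz2 g hgH hgQ
  rw [← e2] at hX hR hE
  revert hX hR hE h
  generalize Lib.LargeExtra.conjFun Q z = Qf at e1 ⊢
  generalize g * z * g⁻¹ = y at hV ⊢
  subst e1
  intro hX hR hE h
  change R = Lib.LargeExtra.Pair.R Qf z y at hR
  exact core h V X R hV hX hR

end Cfsg.Agent.S5430
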