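import Cfsg.Statements.S5431
import Cfsg.Agent.Lib.LargeExtra.Pair
-- import your own Cfsg.Agent.* helpers here

set_option autoImplicit false
open Cfsg
open scoped commutatorElement

namespace Cfsg.Agent.S5431

/-- Let Q be a large extraspecial 2-subgroup of the finite group G (extraspecial; centralizer equal to its centre; normal in the centralizer of its centre; normalizing no non-trivial subgroup of odd order) with centre generated by z, an involution, of width w ≥ 2 (order 2^(2w+1)); let g be an element outside the centralizer H of z with g z g⁻¹ in Q; write V for the subgroup generated by z and g z g⁻¹, X for the subgroup generated by Q and g Q g⁻¹, R for the subgroup generated by the centralizer of z in g Q g⁻¹ and the centralizer of g z g⁻¹ in Q, and E for the intersection of Q and g Q g⁻¹. Then V is the centre of R, E lies in the second centre of R, R is nilpotent of class at most 3, E and R/E are elementary abelian, R/E is the direct product of the images of the centralizer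 of g z g⁻¹ in Q and of the centralizer of z in g Q g⁻¹ (R is their product and they meet in E), and the commutator subgroup of X and E lies in V. -/
theorem result {G : Type*} [Group G] [Finite G] (Q : Subgroup G) (hQ : Cfsg.IsLargeExtraspecial Q) (z : G) (hz : ((Subgroup.center ↥Q).map Q.subtype) = Subgroup.zpowers z) (hz2 : orderOf z = 2) (w : ℕ) (hw : 2 ≤ w) (hcard : Nat.card ↥Q = 2 ^ (2 * w + 1)) (g : G) (hgH : g ∉ Subgroup.centralizer ({z} : Set G)) (hgQ : g * z * g⁻¹ ∈ Q) (V X R E : Subgroup G) (hV : V = Subgroup.closure ({z, g * z * g⁻¹} : Set G)) (hX : X = Q ⊔ (Q).map (MulAut.conj g).toMonoidHom) (hR : R = ((Q).map (MulAut.conj g).toMonoidHom ⊓ Subgroup.centralizer ({z} : Set G)) ⊔ (Q ⊓ Subgroup.centralizer ({g * z * g⁻¹} : Set G))) (hE : E = Q ⊓ (Q).map (MulAut.conj g).toMonoidHom) : (Subgroup.center ↥R).map R.subtype = V ∧ E ≤ (Subgroup.upperCentralSeries ↥R 2).map R.subtype ∧ Subgroup.upperCentralSeries ↥R 3 = ⊤ ∧ Cfsg.IsElementaryAbelian 2 E ∧ (∀ x ∈ R, ∀ y ∈ R, x *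 y * x⁻¹ * y⁻¹ ∈ E ∧ x ^ 2 ∈ E) ∧ ((Q).map (MulAut.conj g).toMonoidHom ⊓ Subgroup.centralizer ({z} : Set G)) ⊓ (Q ⊓ Subgroup.centralizer ({g * z * g⁻¹} : Set G)) = E ∧ ⁅X, E⁆ ≤ V := by
  obtain ⟨h, e1, e2⟩ := Lib.LargeExtra.pair_of Q hQ z hz hz2 g hgH hgQ
  rw [← e2] at hX hR hE ⊢
  revert hX hR hE h
  generalize Lib.LargeExtra.conjFun Q z = Qf at e1 ⊢
  generalize g * z * g⁻¹ = y at hV ⊢
  subst e1
  intro hX hR hE h
  subst hV hX hE
  change R = Lib.LargeExtra.Pair.R Qf z y at hR
  subst hR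
  have hVR := h.V_le_R
  have hEV : ∀ x ∈ Qf z ⊔ Qf y, ∀ v ∈ Subgroup.closure ({z, y} : Set G), x * v * x⁻¹ ∈ Subgroup.closure ({z, y} : Set G) := by
    have key : ∀ q ∈ Qf z, ∀ v ∈ Subgroup.closure ({z, y} : Set G), q * v * q⁻¹ ∈ Subgroup.closure ({z, y} : Set G) := by
      intro q hq v hv
      have hvQ : v ∈ Qf z := (Subgroup.closure_le _).2 (Set.insert_subset h.goodz.mem (Set.singleton_subset_iff.2 h.memy)) hv
      rw [show q * v * q⁻¹ = (q * v * q⁻¹ * v⁻¹) * v by group]
      rcases h.goodz.comm q hq v hvQ with e | e <;> rw [e]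
      · rwa [one_mul]
      · exact mul_mem (Subgroup.subset_closure (by simp)) hv
    have key' : ∀ q ∈ Qf y, ∀ v ∈ Subgroup.closure ({z, y} : Set G), q * v * q⁻¹ ∈ Subgroup.closure ({z, y} : Set G) := by
      intro q hq v hv
      have hvQ : v ∈ Qf y := (Subgroup.closure_le _).2 (Set.insert_subset h.memz (Set.singleton_subset_iff.2 h.goody.mem)) hv
      rw [show q * v * q⁻¹ = (q * v * q⁻¹ * v⁻¹) * v by group]
      rcases h.goody.comm q hq v hvQ with e | e <;> rw [e]
      · rwa [one_mul]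
      · exact mul_mem (Subgroup.subset_closure (by simp)) hv
    intro x hx
    have hle : Qf z ⊔ Qf y ≤ Subgroup.closure ((Qf z : Set G) ∪ Qf y) := by
      rw [Subgroup.closure_union, Subgroup.closure_eq, Subgroup.closure_eq]
    have hx' := hle hx
    induction hx' using Subgroup.closure_induction'' with
    | mem u hu => exact fun v hv => hu.elim (key u · v hv) (key' u · v hv)
    | inv_mem u hu => exact fun v hv => hu.elim (fun m => key _ (inv_mem m) v hv) (fun m => key' _ (inv_mem m) v hv)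
    | one => simp
    | mul u w hu hw iu iw =>
      intro v hv
      have hu' : u ∈ Qf z ⊔ Qf y := (Subgroup.closure_le _).2 (Set.union_subset (fun _ m => Subgroup.mem_sup_left m) fun _ m => Subgroup.mem_sup_right m) hu
      have hw' : w ∈ Qf z ⊔ Qf y := (Subgroup.closure_le _).2 (Set.union_subset (fun _ m => Subgroup.mem_sup_left m) fun _ m => Subgroup.mem_sup_right m) hw
      rw [show u * w * v * (u * w)⁻¹ = u * (w * v * w⁻¹) * u⁻¹ by group]
      exact iu hu' _ (iw hw' v hv)
  have hZ : (Subgroup.center ↥(Lib.LargeExtra.Pair.R Qf z y)).map (Lib.LargeExtra.Pair.R Qf z y).subtype = Subgroup.closure ({z, y} : Set G) := by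
    ext c
    constructor
    · rintro ⟨c, hc, rfl⟩
      exact h.center_R c.2 fun x hx => congrArg Subtype.val (Subgroup.mem_center_iff.1 hc ⟨x, hx⟩)
    · intro hc
      exact ⟨⟨c, hVR hc⟩, Subgroup.mem_center_iff.2 fun x => Subtype.ext (h.R_cent_V x.2 hc), rfl⟩
  have hER : ∀ e ∈ Lib.LargeExtra.Pair.E Qf z y, e ∈ Lib.LargeExtra.Pair.R Qf z y := fun e he => Subgroup.mem_sup_right (h.E_le_B he)
  have hXE : ⁅Qf z ⊔ Qf y, Qf z ⊓ Qf y⁆ ≤ Subgroup.closure ({z, y} : Set G) := by
    rw [Subgroup.commutator_le]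
    intro x hx e he
    rw [commutatorElement_def]
    have hle : Qf z ⊔ Qf y ≤ Subgroup.closure ((Qf z : Set G) ∪ Qf y) := by
      rw [Subgroup.closure_union, Subgroup.closure_eq, Subgroup.closure_eq]
    have key : ∀ q, (q ∈ Qf z ∨ q ∈ Qf y) → q * e * q⁻¹ * e⁻¹ ∈ Subgroup.closure ({z, y} : Set G) := by
      rintro q (hq | hq)
      · rcases h.goodz.comm q hq e he.1 with e' | e' <;> rw [e']
        exacts [one_mem _, Subgroup.subset_closure (by simp)]
      · rcases h.goody.comm q hq e he.2 with e' | e' <;> rw [e']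
        exacts [one_mem _, Subgroup.subset_closure (by simp)]
    have hle' : Subgroup.closure ((Qf z : Set G) ∪ Qf y) ≤ Qf z ⊔ Qf y :=
      (Subgroup.closure_le _).2 (Set.union_subset (fun _ m => Subgroup.mem_sup_left m) fun _ m => Subgroup.mem_sup_right m)
    have hx' := hle hx
    clear hx
    induction hx' using Subgroup.closure_induction'' with
    | mem u hu => exact key u hu
    | inv_mem u hu => exact key _ (hu.imp inv_mem inv_mem)
    | one => simp
    | mul u w hu hw iu iw =>
      rw [show u * w * e * (u * w)⁻¹ * e⁻¹ = (u * (w * e * w⁻¹ * e⁻¹) * u⁻¹) * (u * e * u⁻¹ * e⁻¹) by group]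
      exact mul_mem (hEV u (hle' hu) _ iw) iu
  have h1 : ∀ e : ↥(Lib.LargeExtra.Pair.R Qf z y), (e : G) ∈ Lib.LargeExtra.Pair.E Qf z y →
      e ∈ Subgroup.upperCentralSeries ↥(Lib.LargeExtra.Pair.R Qf z y) 2 := by
    intro e he
    rw [Subgroup.mem_upperCentralSeries_succ_iff]
    intro x
    rw [Subgroup.upperCentralSeries_one]
    have hX : (x : G) ∈ Qf z ⊔ Qf y := by
      refine (sup_le ?_ ?_ : Lib.LargeExtra.Pair.R Qf z y ≤ _) x.2
      · exact fun _ m => Subgroup.mem_sup_right m.1
      · exact fun _ m => Subgroup.mem_sup_left m.1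
    have hv : ((⁅e, x⁆ : ↥(Lib.LargeExtra.Pair.R Qf z y)) : G) ∈ Subgroup.closure ({z, y} : Set G) := by
      have := inv_mem (hXE (Subgroup.commutator_mem_commutator hX he))
      rw [← commutatorElement_inv]
      simpa [commutatorElement_def] using this
    rw [← hZ] at hv
    obtain ⟨c, hc, ec⟩ := hv
    rwa [Subtype.ext ec] at hc
  refine ⟨hZ, fun e he => ⟨⟨e, hER e he⟩, h1 _ he, rfl⟩, ?_, ⟨⟨⟨fun a b => Subtype.ext (h.E_comm a.2 b.2)⟩⟩, fun a ha => by rw [pow_two]; exact h.E_sq ha⟩, fun x hx u hu => ⟨h.R_comm hx hu, by rw [pow_two]; exact h.R_sq hx⟩, ?_, hXE⟩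
  · refine eq_top_iff.2 fun x _ => ?_
    rw [Subgroup.mem_upperCentralSeries_succ_iff]
    exact fun u => h1 _ (by simpa [commutatorElement_def] using h.R_comm x.2 u.2)
  · refine le_antisymm (fun x hx => ⟨hx.2.1, hx.1.1⟩) fun x hx => ⟨(h.symm.mem_B.2 ⟨hx.2, h.goodz.le x hx.1⟩), h.E_le_B hx⟩

end Cfsg.Agent.S5431
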