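import Cfsg.Statements.S5436
import Cfsg.Agent.Lib.LargeExtra.Centralizer
import Cfsg.Agent.S5422
import Cfsg.Agent.S5433
-- import your own Cfsg.Agent.* helpers here

set_option autoImplicit false
open Cfsg

namespace Cfsg.Agent.S5436

/-- Let z be an involution of the finite group G with centralizer H whose generalized Fitting subgroup Q is extraspecial of width at least 2 (order 2^(2w+1), w ≥ 2); suppose some conjugate of z other than z lies in Q, H/Q is a non-abelian simple group, H acts irreducibly by conjugation on Q modulo the subgroup generated by z (the only H-invariant subgroups of Q containing z are that subgroup and Q), and Q is not the subgroup generated by the conjugates of z lying in H. Then G is simple. -/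
theorem result {G : Type*} [Group G] [Finite G] (z : G) (hz : orderOf z = 2) (Q : Subgroup (Subgroup.centralizer ({z} : Set G))) [Q.Normal] (hF : Cfsg.generalizedFittingSubgroup ↥(Subgroup.centralizer ({z} : Set G)) = Q) (hQ : Cfsg.IsExtraspecial 2 ↥Q) (w : ℕ) (hw : 2 ≤ w) (hcard : Nat.card ↥Q = 2 ^ (2 * w + 1)) (hnwc : ∃ g : G, (∃ hq : g * z * g⁻¹ ∈ Subgroup.centralizer ({z} : Set G), (⟨g * z * g⁻¹, hq⟩ : Subgroup.centralizer ({z} : Set G)) ∈ Q) ∧ g * z * g⁻¹ ≠ z) (hsimp : IsSimpleGroup (↥(Subgroup.centralizer ({z} : Set G)) ⧸ Q)) (hna : ¬ IsMulCommutative (↥(Subgroup.centralizer ({z} : Set G)) ⧸ Q)) (hirr : ∀ W : Subgroup (Subgroup.centralizer ({z} : Set G)), W.Normal → W ≤ Q → (W = Q ∨ ∀ x ∈ W, (x : G) ∈ Subgroup.zpowers z)) (hwcl : Subgroup.closure {x : Subgroup.centralizer ({z} : Set G) | IsConj z (x : G)} ≠ Q) : IsSimpleGroup G := by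
  classical
  let H := Subgroup.centralizer ({z} : Set G)
  have hP : IsExtraspecial 2 ↥(Q.map H.subtype) :=
    Lib.LargeExtra.isExtraspecial_equiv (Subgroup.equivMapOfInjective Q H.subtype H.subtype_injective) hQ
  set P := Q.map H.subtype with hPdef
  have hmem : ∀ x : ↥H, (x : G) ∈ P ↔ x ∈ Q := fun x => Subgroup.mem_map_iff_mem H.subtype_injective
  obtain ⟨hC, hN, hzP, hZ, hn⟩ := Lib.LargeExtra.of_fstar (Q := P) hz (by rw [hF]) hP
  obtain ⟨g, ⟨hgH, hgQ⟩, hgz⟩ := hnwc
  have hz1 : z ≠ 1 := fun e => by rw [e, orderOf_one] at hz; omega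
  have hgP : g * z * g⁻¹ ∈ P := (hmem ⟨_, hgH⟩).2 hgQ
  obtain ⟨hg1, hg2⟩ := Lib.LargeExtra.good_conj_centre hZ hz1 hgP hgz
  have hPcard : Nat.card ↥P = 2 ^ (2 * w + 1) := by rw [Subgroup.card_map_of_injective H.subtype_injective, hcard]
  have hlarge := (S5422.result P hP hC hN w hw hPcard g hg1 hg2).2.2
  haveI : Nontrivial G := ⟨⟨z, 1, hz1⟩⟩
  refine ⟨fun N hNn => ?_⟩
  by_cases hNb : N = ⊥
  · exact Or.inl hNb
  right
  haveI := hNn
  -- `N` meets `Q` nontrivially
  have hNHn : (N.subgroupOf H).Normal := inferInstance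
  have hzN : z ∈ N := by
    by_contra hzN
    -- then `N` meets `H` trivially
    have htriv : ∀ x ∈ N, x * z = z * x → x = 1 := by
      intro x hx hxz
      have hdis : ∀ a ∈ N, a ∈ P → a = 1 := by
        intro a haN haP
        by_contra ha1
        by_cases hac : ∀ q ∈ P, a * q = q * a
        · rcases (hZ a).1 (hC ▸ Subgroup.mem_centralizer_iff.2 fun q hq => (hac q hq).symm) with e | e
          exacts [ha1 e, hzN (e ▸ haN)]
        · push Not at hac
          obtain ⟨q, hq, hqa⟩ := hac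
          have h1 : a * q * a⁻¹ * q⁻¹ ∈ (Subgroup.center ↥P).map P.subtype := by
            refine ⟨⟨a, haP⟩ * ⟨q, hq⟩ * (⟨a, haP⟩ : ↥P)⁻¹ * (⟨q, hq⟩ : ↥P)⁻¹, ?_, rfl⟩
            rw [← commutatorElement_def, ← hP.1.2.2, commutator_def]
            exact Subgroup.commutator_mem_commutator (Subgroup.mem_top _) (Subgroup.mem_top _)
          rcases (hZ _).1 h1 with e | e
          · exact hqa (commutatorElement_eq_one_iff_mul_comm.1 e)
          · apply hzN
            rw [← e, show a * q * a⁻¹ * q⁻¹ = a * (q * a⁻¹ * q⁻¹) by group]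
            exact mul_mem haN (hNn.conj_mem _ (inv_mem haN) q)
      have hcP : ∀ q ∈ P, x * q = q * x := fun q hq => by
        refine commutatorElement_eq_one_iff_mul_comm.1 (hdis _ ?_ ?_)
        · rw [commutatorElement_def, show x * q * x⁻¹ * q⁻¹ = x * (q * x⁻¹ * q⁻¹) by group]
          exact mul_mem hx (hNn.conj_mem _ (inv_mem hx) q)
        · exact mul_mem (hn x hxz q hq) (inv_mem hq)
      rcases (hZ x).1 (hC ▸ Subgroup.mem_centralizer_iff.2 fun q hq => (hcP q hq).symm) with e | e
      exacts [e, absurd (e ▸ hx) hzN]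
    have hodd : Odd (Nat.card ↥N) := by
      rw [← Nat.not_even_iff_odd]
      intro hev
      haveI : Fact (Nat.Prime 2) := ⟨Nat.prime_two⟩
      -- fixed points of conjugation by `z`
      let Zg := Subgroup.zpowers z
      letI : MulAction ↥Zg ↥N := MulAction.compHom ↥N
        ((MulAut.conjNormal (H := N)).comp Zg.subtype)
      have hp : IsPGroup 2 ↥Zg := IsPGroup.of_card (n := 1) (by rw [Nat.card_zpowers, hz, pow_one])
      obtain ⟨b, hb, hb1⟩ := hp.exists_fixed_point_of_prime_dvd_card_of_fixed_point (↥N) (even_iff_two_dvd.1 hev)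
        (a := (1 : ↥N)) (fun u => map_one (MulAut.conjNormal (H := N) (u : G)))
      refine hb1 (Subtype.ext ?_).symm
      refine htriv b b.2 ?_
      have := congrArg Subtype.val (hb ⟨z, Subgroup.mem_zpowers z⟩)
      have h2 : z * (b : G) * z⁻¹ = b := this
      exact (mul_inv_eq_iff_eq_mul.1 h2).symm
    exact hNb (hlarge.2.2.2 N hodd (fun q _ => Subgroup.mem_normalizer_iff.2 fun a =>
      ⟨fun ha => hNn.conj_mem a ha q, fun ha => by simpa [mul_assoc] using hNn.conj_mem _ ha q⁻¹⟩))
  have hxN : g * z * g⁻¹ ∈ N := hNn.conj_mem z hzN g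
  -- hence contains `Q`
  have hWn : ((N.subgroupOf H) ⊓ Q).Normal := inferInstance
  have hQN : Q ≤ N.subgroupOf H := by
    rcases hirr _ hWn inf_le_right with e | e
    · exact inf_eq_right.1 e
    · exfalso
      have h1 : g * z * g⁻¹ ∈ (Subgroup.center ↥P).map P.subtype := by
        obtain ⟨k, hk⟩ := Subgroup.mem_zpowers_iff.1 (e ⟨_, hgH⟩ ⟨hxN, hgQ⟩)
        exact (show z ^ k = g * z * g⁻¹ from hk) ▸ zpow_mem ((hZ z).2 (Or.inr rfl)) k
      rcases (hZ _).1 h1 with e' | e'
      exacts [hz1 (conj_eq_one_iff.1 e'), hgz e']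
  have hHN : H ≤ N := by
    haveI := hsimp
    rcases hsimp.eq_bot_or_eq_top_of_normal ((N.subgroupOf H).map (QuotientGroup.mk' Q))
        (hNHn.map _ (QuotientGroup.mk'_surjective Q)) with e | e
    · exfalso
      have hle : N.subgroupOf H ≤ Q := fun a ha => (QuotientGroup.eq_one_iff a).1 (by
        have := Subgroup.mem_map_of_mem (QuotientGroup.mk' Q) ha
        rw [e, Subgroup.mem_bot] at this
        exact this)
      apply hwcl
      have hWQ : Subgroup.closure {x : ↥H | IsConj z (x : G)} ≤ Q := by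
        rw [Subgroup.closure_le]
        intro x hx
        obtain ⟨c, hc⟩ := isConj_iff.1 hx
        exact hle (show (x : G) ∈ N from hc ▸ hNn.conj_mem z hzN c)
      have hWnn : (Subgroup.closure {x : ↥H | IsConj z (x : G)}).Normal := by
        refine ⟨fun a ha c => ?_⟩
        induction ha using Subgroup.closure_induction with
        | mem a ha =>
          refine Subgroup.subset_closure ?_
          obtain ⟨d, hd⟩ := isConj_iff.1 (show IsConj z (a : G) from ha)
          refine isConj_iff.2 ⟨(c : G) * d, ?_⟩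
          rw [Subgroup.coe_mul, Subgroup.coe_mul, Subgroup.coe_inv, ← hd]
          group
        | one => simp
        | mul a b _ _ ia ib => rw [show c * (a * b) * c⁻¹ = c * a * c⁻¹ * (c * b * c⁻¹) by group]; exact mul_mem ia ib
        | inv a _ ia => rw [show c * a⁻¹ * c⁻¹ = (c * a * c⁻¹)⁻¹ by group]; exact inv_mem ia
      refine (hirr _ hWnn hWQ).resolve_right fun e' => ?_
      have h1 : g * z * g⁻¹ ∈ Subgroup.zpowers z :=
        e' ⟨_, hgH⟩ (Subgroup.subset_closure (isConj_iff.2 ⟨g, rfl⟩))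
      obtain ⟨k, hk⟩ := Subgroup.mem_zpowers_iff.1 h1
      have h2 : g * z * g⁻¹ ∈ (Subgroup.center ↥P).map P.subtype := hk ▸ zpow_mem ((hZ z).2 (Or.inr rfl)) k
      rcases (hZ _).1 h2 with q | q
      exacts [hz1 (conj_eq_one_iff.1 q), hgz q]
    · intro a ha
      have : QuotientGroup.mk' Q ⟨a, ha⟩ ∈ (N.subgroupOf H).map (QuotientGroup.mk' Q) := e ▸ Subgroup.mem_top _
      obtain ⟨b, hb, hbe⟩ := this
      have h1 : b⁻¹ * ⟨a, ha⟩ ∈ N.subgroupOf H := hQN (QuotientGroup.eq.1 hbe)
      have h2 := mul_mem hb h1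
      rw [mul_inv_cancel_left] at h2
      exact h2
  have hPN : P ≤ N := (Subgroup.map_subtype_le Q).trans hHN
  haveI : N.Normal := hNn
  have hsup := S5433.result P hlarge N hPN
  rw [← hsup]
  refine (sup_eq_left.2 ?_).symm
  intro a ha
  apply hHN
  have h1 : a * z * a⁻¹ ∈ (Subgroup.center ↥P).map P.subtype := by
    rw [← hC, Subgroup.mem_centralizer_iff]
    intro q hq
    have hq' : a⁻¹ * q * a ∈ P := by
      simpa using (Subgroup.mem_normalizer_iff.1 (inv_mem ha) q).1 hq
    have hz' : z ∈ Subgroup.centralizer (P : Set G) := hC ▸ (hZ z).2 (Or.inr rfl)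
    have := Subgroup.mem_centralizer_iff.1 hz' _ hq'
    calc q * (a * z * a⁻¹) = a * ((a⁻¹ * q * a) * z) * a⁻¹ := by group
      _ = a * (z * (a⁻¹ * q * a)) * a⁻¹ := by rw [this]
      _ = _ := by group
  rcases (hZ _).1 h1 with e | e
  · exact absurd (conj_eq_one_iff.1 e) hz1
  · exact Subgroup.mem_centralizer_singleton_iff.2 (mul_inv_eq_iff_eq_mul.1 e)

end Cfsg.Agent.S5436
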