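import Cfsg.Statements.S5437
-- import your own Cfsg.Agent.* helpers here

set_option autoImplicit false
open Cfsg

namespace Cfsg.Agent.S5437

/-- Let I be a set of involutions of the finite group G closed under conjugation, and H a subgroup of G. The following are equivalent: (1) for every member x of I lying in H, the conjugates of x lying in H form a single H-class and the centralizer of x lies in H; (2) for every g outside H, no member of I lies in both H and g H g⁻¹; (3) every member of I lying in H fixes exactly one coset in the action of G on the cosets of H. -/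
theorem result {G : Type*} [Group G] [Finite G] (I : Set G) (hI : ∀ x ∈ I, orderOf x = 2) (hIc : ∀ g : G, ∀ x ∈ I, g * x * g⁻¹ ∈ I) (H : Subgroup G) : ((∀ x ∈ I, x ∈ H → (∀ g : G, g * x * g⁻¹ ∈ H → ∃ h ∈ H, h * x * h⁻¹ = g * x * g⁻¹) ∧ Subgroup.centralizer ({x} : Set G) ≤ H) ↔ (∀ g : G, g ∉ H → ∀ x ∈ I, ¬ (x ∈ H ∧ x ∈ (H : Subgroup G).map (MulAut.conj g).toMonoidHom))) ∧ ((∀ g : G, g ∉ H → ∀ x ∈ I, ¬ (x ∈ H ∧ x ∈ (H : Subgroup G).map (MulAut.conj g).toMonoidHom)) ↔ ∀ x ∈ I, x ∈ H → ∃! c : G ⧸ H, x • c = c) := by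
  have hmap : ∀ (g x : G), x ∈ H.map (MulAut.conj g).toMonoidHom ↔ g⁻¹ * x * g ∈ H := by
    intro g x
    constructor
    · rintro ⟨y, hy, rfl⟩; simpa [mul_assoc] using hy
    · intro h; exact ⟨_, h, by simp [mul_assoc]⟩
  have hfix : ∀ (g x : G), x • (g : G ⧸ H) = (g : G ⧸ H) ↔ g⁻¹ * x * g ∈ H := by
    intro g x
    rw [MulAction.Quotient.smul_coe, smul_eq_mul, eq_comm, QuotientGroup.eq, mul_assoc]
  refine ⟨⟨fun h g hg x hx ⟨hxH, hxg⟩ => ?_, fun h x hx hxH => ⟨fun g hgx => ?_, fun c hc => ?_⟩⟩,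
    ⟨fun h x hx hxH => ?_, fun h g hg x hx ⟨hxH, hxg⟩ => ?_⟩⟩
  · rw [hmap] at hxg
    obtain ⟨k, hk, hk'⟩ := (h x hx hxH).1 g⁻¹ (by simpa using hxg)
    have hgk : g * k ∈ H := (h x hx hxH).2 (by
      rw [Subgroup.mem_centralizer_singleton_iff, ← mul_inv_eq_iff_eq_mul]
      calc g * k * x * (g * k)⁻¹ = g * (k * x * k⁻¹) * g⁻¹ := by group
        _ = x := by rw [hk']; group)
    exact hg ((Subgroup.mul_mem_cancel_right H hk).mp hgk)
  · by_cases hg : g ∈ H
    · exact ⟨g, hg, rfl⟩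
    · refine absurd ⟨hxH, (hmap g⁻¹ x).mpr (by simpa using hgx)⟩ (h g⁻¹ (by simpa using hg) x hx)
  · rw [Subgroup.mem_centralizer_singleton_iff] at hc
    by_contra hcH
    exact h c hcH x hx ⟨hxH, (hmap c x).mpr (by rw [mul_assoc, ← hc]; simpa using hxH)⟩
  · refine ⟨((1 : G) : G ⧸ H), (hfix 1 x).mpr (by simpa using hxH), fun c hc => ?_⟩
    induction c using QuotientGroup.induction_on with
    | _ g =>
      rw [hfix] at hc
      by_contra hne
      refine h g (fun hg => hne (QuotientGroup.eq.mpr (by simpa using hg))) x hx ⟨hxH, (hmap g x).mpr hc⟩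
  · rw [hmap] at hxg
    obtain ⟨c, -, huniq⟩ := h x hx hxH
    have h1 := huniq _ ((hfix 1 x).mpr (by simpa using hxH))
    have h2 := huniq _ ((hfix g x).mpr hxg)
    exact hg (by simpa using QuotientGroup.eq.mp (h1.trans h2.symm))

end Cfsg.Agent.S5437
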