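import Cfsg.Statements.S5438
-- import your own Cfsg.Agent.* helpers here

set_option autoImplicit false
open Cfsg

namespace Cfsg.Agent.S5438

theorem involution_parity {X : Type*} [Finite X] (s : Set X) (f : X → X) (hf : ∀ c ∈ s, f c ∈ s)
    (hff : ∀ c, f (f c) = c) : s.ncard % 2 = {c ∈ s | f c = c}.ncard % 2 := by
  classical
  haveI : Fintype X := Fintype.ofFinite X
  haveI : Fact (Nat.Prime 2) := ⟨Nat.prime_two⟩
  let F : Function.End s := fun c => ⟨f c.1, hf c.1 c.2⟩
  have h : F ^ 2 ^ 1 = 1 := by funext c; exact Subtype.ext (hff c.1)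
  have := Equiv.Perm.card_fixedPoints_modEq h
  rw [← Nat.card_eq_fintype_card, ← Nat.card_eq_fintype_card, Nat.card_coe_set_eq] at this
  rw [this, ← Nat.card_coe_set_eq]
  congr 1
  exact Nat.card_congr
    { toFun := fun c => ⟨c.1.1, c.1.2, congrArg Subtype.val c.2⟩
      invFun := fun c => ⟨⟨c.1, c.2.1⟩, Subtype.ext c.2.2⟩
      left_inv := fun c => rfl
      right_inv := fun c => rfl }

/-- Let z be a 2-central involution of the finite group G (an involution central in some Sylow 2-subgroup) and H a subgroup containing z such that the coset H is the only coset of H fixed by z (in the action of G on the cosets of H). Then H has odd index in G, and for every 2-element x of H the conjugates of x lying in H form a single H-class. -/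
theorem result {G : Type*} [Group G] [Finite G] (z : G) (hz : Cfsg.IsTwoCentralInvolution z) (H : Subgroup G) (hzH : z ∈ H) (hfix : ∀ g : G, g⁻¹ * z * g ∈ H → g ∈ H) : Odd H.index ∧ ∀ x ∈ H, (∃ k : ℕ, orderOf x = 2 ^ k) → ∀ g : G, g * x * g⁻¹ ∈ H → ∃ h ∈ H, h * x * h⁻¹ = g * x * g⁻¹ := by
  obtain ⟨hz2, P, hzP, hPz⟩ := hz
  have hzz : z * z = 1 := by rw [← pow_two, ← hz2, pow_orderOf_eq_one]
  have hPH : (P : Subgroup G) ≤ H := fun g hg => hfix g (by
    rw [mul_assoc, ← hPz g hg, inv_mul_cancel_left]; exact hzH)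
  haveI : Fact (Nat.Prime 2) := ⟨Nat.prime_two⟩
  refine ⟨?_, ?_⟩
  · have h2 := P.not_dvd_index
    rw [Nat.odd_iff]
    by_contra hne
    exact h2 ((Nat.dvd_of_mod_eq_zero (by omega : H.index % 2 = 0)).trans (Subgroup.index_dvd_of_le hPH))
  -- every 2-element `y` of `H` commutes with a conjugate of `z` fixing only the coset `H`
  have key : ∀ y ∈ H, (∃ k : ℕ, orderOf y = 2 ^ k) → ∃ w : G, w * w = 1 ∧ w * y = y * w ∧ w ∈ H ∧
      ∀ g : G, g⁻¹ * w * g ∈ H → g ∈ H := by
    intro y hyH hy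
    obtain ⟨k, hk⟩ := hy
    obtain ⟨S, hS⟩ := (show IsPGroup 2 (Subgroup.zpowers (⟨y, hyH⟩ : H)) from
      IsPGroup.of_card (n := k) (by rw [Nat.card_zpowers, Subgroup.orderOf_mk]; exact hk)).exists_le_sylow
    obtain ⟨h, hh⟩ := MulAction.exists_smul_eq H (P.subtype hPH) S
    have hmem : (h : G)⁻¹ * y * h ∈ (P : Subgroup G) := by
      have hyS := hS (Subgroup.mem_zpowers (⟨y, hyH⟩ : H))
      rw [← hh, Sylow.coe_subgroup_smul, Subgroup.mem_pointwise_smul_iff_inv_smul_mem] at hyS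
      simpa [Sylow.coe_subtype, Subgroup.mem_subgroupOf, mul_assoc] using hyS
    refine ⟨h * z * (h : G)⁻¹, ?_, ?_, mul_mem (mul_mem h.2 hzH) (inv_mem h.2), fun g hg => ?_⟩
    · calc h * z * (h : G)⁻¹ * (h * z * (h : G)⁻¹) = h * (z * z) * (h : G)⁻¹ := by group
        _ = 1 := by rw [hzz]; group
    · calc h * z * (h : G)⁻¹ * y = h * (z * ((h : G)⁻¹ * y * h)) * (h : G)⁻¹ := by group
        _ = h * (((h : G)⁻¹ * y * h) * z) * (h : G)⁻¹ := by rw [hPz _ hmem]
        _ = _ := by group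
    · have := hfix ((h : G)⁻¹ * g) (by simpa [mul_assoc] using hg)
      simpa using mul_mem h.2 this
  intro x hxH hx g hgx
  -- the two orbits
  let A : G → G → Set (G ⧸ H) := fun y a => {c | ∃ k : G, k * y = y * k ∧ ((k * a : G) : G ⧸ H) = c}
  have hx' : ∃ k : ℕ, orderOf (g * x * g⁻¹) = 2 ^ k := by
    rw [show g * x * g⁻¹ = MulAut.conj g x from rfl, MulEquiv.orderOf_eq]; exact hx
  obtain ⟨w, hww, hwx, hwH, hwfix⟩ := key x hxH hx
  obtain ⟨w', hww', hwx', hwH', hwfix'⟩ := key _ hgx hx'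
  have inv_maps : ∀ (y a v : G), v * y = y * v → ∀ c ∈ A y a, v • c ∈ A y a := by
    rintro y a v hv c ⟨k, hk, rfl⟩
    exact ⟨v * k, by rw [mul_assoc, hk, ← mul_assoc, hv, mul_assoc], by
      rw [mul_assoc]; exact (MulAction.Quotient.smul_coe H v (k * a)).symm⟩
  have fix_eq : ∀ v : G, (∀ g : G, g⁻¹ * v * g ∈ H → g ∈ H) → ∀ c : G ⧸ H, v • c = c → c = ((1 : G) : G ⧸ H) := by
    intro v hv c hc
    induction c using QuotientGroup.induction_on with
    | _ a =>
      rw [MulAction.Quotient.smul_coe, smul_eq_mul, eq_comm, QuotientGroup.eq, ← mul_assoc] at hc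
      exact QuotientGroup.eq.mpr (by simpa using hv a hc)
  -- the orbit of `H` under the centralizer of the conjugate is odd
  have hcard : (A (g * x * g⁻¹) 1).ncard % 2 = 1 :=
    (involution_parity _ (fun c => w' • c) (inv_maps _ _ _ hwx') (fun c => by rw [smul_smul, hww', one_smul])).trans
      (by
        rw [show {c ∈ A (g * x * g⁻¹) 1 | w' • c = c} = {((1 : G) : G ⧸ H)} from Set.ext fun c =>
          ⟨fun h => fix_eq w' hwfix' c h.2, fun h => by
            rw [Set.mem_singleton_iff] at h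
            subst h
            refine ⟨⟨1, by simp, by simp⟩, ?_⟩
            rw [MulAction.Quotient.smul_coe, smul_eq_mul, eq_comm, QuotientGroup.eq]; simpa using hwH'⟩]
        simp)
  have himg : A x g⁻¹ = (fun c : G ⧸ H => g⁻¹ • c) '' A (g * x * g⁻¹) 1 := by
    ext c
    constructor
    · rintro ⟨k, hk, rfl⟩
      refine ⟨_, ⟨g * k * g⁻¹, ?_, rfl⟩, ?_⟩
      · calc g * k * g⁻¹ * (g * x * g⁻¹) = g * (k * x) * g⁻¹ := by group
          _ = _ := by rw [hk]; group
      · dsimp only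
        rw [MulAction.Quotient.smul_coe, smul_eq_mul, mul_one, show g⁻¹ * (g * k * g⁻¹) = k * g⁻¹ by group]
    · rintro ⟨_, ⟨k, hk, rfl⟩, rfl⟩
      refine ⟨g⁻¹ * k * g, ?_, ?_⟩
      · calc g⁻¹ * k * g * x = g⁻¹ * (k * (g * x * g⁻¹)) * g := by group
          _ = _ := by rw [hk]; group
      · dsimp only
        rw [MulAction.Quotient.smul_coe, smul_eq_mul, mul_one, show g⁻¹ * k * g * g⁻¹ = g⁻¹ * k by group]
  have hcard' : (A x g⁻¹).ncard % 2 = 1 := by
    rw [himg, Set.ncard_image_of_injective _ (MulAction.injective g⁻¹)]; exact hcard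
  rw [involution_parity _ (fun c => w • c) (inv_maps _ _ _ hwx) (fun c => by rw [smul_smul, hww, one_smul])] at hcard'
  obtain ⟨c, hc, hwc⟩ : {c ∈ A x g⁻¹ | w • c = c}.Nonempty := Set.nonempty_of_ncard_ne_zero (by omega)
  obtain ⟨k, hk, rfl⟩ := hc
  have hkg : g * k⁻¹ ∈ H := by simpa using QuotientGroup.eq.mp (fix_eq w hwfix _ hwc)
  refine ⟨g * k⁻¹, hkg, ?_⟩
  calc g * k⁻¹ * x * (g * k⁻¹)⁻¹ = g * (k⁻¹ * (x * k)) * g⁻¹ := by group
    _ = _ := by rw [← hk]; group

end Cfsg.Agent.S5438
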