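import Cfsg.Statements.S5439
-- import your own Cfsg.Agent.* helpers here

set_option autoImplicit false
open Cfsg

namespace Cfsg.Agent.S5439

/-- Let I and J be two different conjugacy classes of involutions of the finite group G and H a subgroup such that every member of I ∪ J fixes exactly one coset in the action on the cosets of H, and such that for every a in I ∩ H and every b in (I ∪ J) ∩ H different from a and commuting with it, the centralizer of a b lies in H. Then H = G. -/
theorem result {G : Type*} [Group G] [Finite G] (I J : Set G) (a₀ b₀ : G) (ha₀ : orderOf a₀ = 2) (hb₀ : orderOf b₀ = 2) (hI : I = {x | IsConj a₀ x}) (hJ : J = {x | IsConj b₀ x}) (hIJ : I ≠ J) (H : Subgroup G) (hfix : ∀ x ∈ I ∪ J, ∃! c : G ⧸ H, x • c = c) (hcent : ∀ a ∈ I, a ∈ H → ∀ b ∈ I ∪ J, b ∈ H → a ≠ b → a * b = b * a → Subgroup.centralizer ({a * b} : Set G) ≤ H) : H = ⊤ := by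
  open MulAction in
  have hmem : ∀ x ∈ I ∪ J, orderOf x = 2 := by
    intro x hx
    rcases hx with hx | hx
    · rw [hI] at hx; obtain ⟨c, rfl⟩ := isConj_iff.mp hx
      rw [show c * a₀ * c⁻¹ = MulAut.conj c a₀ from rfl, MulEquiv.orderOf_eq]; exact ha₀
    · rw [hJ] at hx; obtain ⟨c, rfl⟩ := isConj_iff.mp hx
      rw [show c * b₀ * c⁻¹ = MulAut.conj c b₀ from rfl, MulEquiv.orderOf_eq]; exact hb₀
  have hinv : ∀ x ∈ I ∪ J, x * x = 1 := fun x hx => by rw [← pow_two, ← hmem x hx, pow_orderOf_eq_one]
  have hIc : ∀ g : G, ∀ x ∈ I, g * x * g⁻¹ ∈ I := fun g x hx => by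
    rw [hI] at hx ⊢; exact hx.trans (isConj_iff.mpr ⟨g, rfl⟩)
  have hJc : ∀ g : G, ∀ x ∈ J, g * x * g⁻¹ ∈ J := fun g x hx => by
    rw [hJ] at hx ⊢; exact hx.trans (isConj_iff.mpr ⟨g, rfl⟩)
  have hUc : ∀ g : G, ∀ x ∈ I ∪ J, g * x * g⁻¹ ∈ I ∪ J := fun g x hx =>
    hx.imp (hIc g x) (hJc g x)
  have hfixiff : ∀ (g x : G), x • (g : G ⧸ H) = (g : G ⧸ H) ↔ g⁻¹ * x * g ∈ H := by
    intro g x
    rw [MulAction.Quotient.smul_coe, smul_eq_mul, eq_comm, QuotientGroup.eq, mul_assoc]
  -- commuting members have their centralizer of the product fixing the same coset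
  have key : ∀ a ∈ I, ∀ b ∈ I ∪ J, a * b = b * a → a ≠ b → ∀ c : G ⧸ H, a • c = c →
      ∀ k : G, k * (a * b) = a * b * k → k • c = c := by
    intro a ha b hb hab hne c hc k hk
    induction c using QuotientGroup.induction_on with
    | _ g =>
      have hbc : b • (g : G ⧸ H) = (g : G ⧸ H) := by
        obtain ⟨d, -, hd⟩ := hfix a (Or.inl ha)
        rw [hd _ hc]
        refine hd _ ?_
        show a • (b • d) = b • d
        have hd' : a • d = d := by rw [← hd _ hc]; exact hc
        rw [smul_smul, hab, ← smul_smul, hd']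
      rw [hfixiff] at hc hbc ⊢
      have e : ∀ u v : G, g⁻¹ * u * g * (g⁻¹ * v * g) = g⁻¹ * (u * v) * g := fun u v => by group
      have := hcent _ (by simpa using hIc g⁻¹ a ha) hc _ (by simpa using hUc g⁻¹ b hb) hbc
        (fun h => hne (mul_left_cancel (mul_right_cancel h))) (by rw [e, e, hab])
      exact this (Subgroup.mem_centralizer_singleton_iff.mpr (by rw [e, e, e, hk]))
  -- the class `I` and the class `J` fix the same coset
  have hsame : ∀ a ∈ I, ∀ b ∈ J, ∀ c : G ⧸ H, a • c = c → b • c = c := by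
    intro a ha b hb c hc
    have haa := hinv a (Or.inl ha)
    have hbb := hinv b (Or.inr hb)
    have hwalk : ∀ m : ℕ, a * (a * b) ^ m ∈ I ∪ J ∧ a * (a * b) ^ (m + 1) ∈ I ∪ J := by
      intro m
      induction m with
      | zero =>
        refine ⟨by simpa using Or.inl ha, ?_⟩
        rw [zero_add, pow_one, ← mul_assoc, haa, one_mul]
        exact Or.inr hb
      | succ m ih =>
        refine ⟨ih.2, ?_⟩
        have := hUc (b * a) _ ih.1
        rw [mul_inv_rev, inv_eq_of_mul_eq_one_right haa, inv_eq_of_mul_eq_one_right hbb] at this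
        convert this using 1
        rw [pow_succ, pow_succ', mul_assoc b a (a * (a * b) ^ m), ← mul_assoc a a, haa, one_mul]
        simp only [← mul_assoc]
        rw [haa, one_mul]
    have hconj : a * (a * b) * a = (a * b)⁻¹ := by
      rw [mul_inv_rev, inv_eq_of_mul_eq_one_right haa, inv_eq_of_mul_eq_one_right hbb, ← mul_assoc, haa, one_mul]
    rcases Nat.even_or_odd (orderOf (a * b)) with ⟨m, hm⟩ | ⟨m, hm⟩
    · have hm0 : 0 < m := by have := orderOf_pos (a * b); omega
      set t := (a * b) ^ m with ht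
      have htt : t * t = 1 := by rw [ht, ← pow_add, ← hm, pow_orderOf_eq_one]
      have ht1 : t ≠ 1 := by
        intro e
        have := Nat.le_of_dvd hm0 (orderOf_dvd_of_pow_eq_one e)
        omega
      have hat : a * t * a = t := by
        have h := map_pow (MulAut.conj a).toMonoidHom (a * b) m
        simp only [MulEquiv.coe_toMonoidHom, MulAut.conj_apply, inv_eq_of_mul_eq_one_right haa, hconj] at h
        rw [ht, h, inv_pow]
        exact inv_eq_of_mul_eq_one_right (ht ▸ htt)
      have hat' : a * t = t * a := by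
        conv_rhs => rw [← hat, mul_assoc, haa, mul_one]
      have hbt : b * t = t * b := by
        have hct : (a * b) * t = t * (a * b) := (Commute.self_pow (a * b) m).eq
        calc b * t = a * ((a * b) * t) := by rw [← mul_assoc, ← mul_assoc, haa, one_mul]
          _ = a * t * a * b := by rw [hct]; group
          _ = t * b := by rw [hat]
      refine key a ha _ (hwalk m).1 ?_ ?_ c hc b ?_
      · rw [← ht, mul_assoc a t a, ← hat']
      · intro e
        rw [← ht] at e
        exact ht1 (left_eq_mul.mp e)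
      · rw [← ht, ← mul_assoc a a, haa, one_mul, hbt]
    · exfalso
      have hcj : IsConj a b := by
        refine isConj_iff.mpr ⟨(a * b) ^ m, ?_⟩
        have h := map_pow (MulAut.conj a).toMonoidHom (a * b) m
        simp only [MulEquiv.coe_toMonoidHom, MulAut.conj_apply, inv_eq_of_mul_eq_one_right haa, hconj] at h
        rw [inv_pow] at h
        calc (a * b) ^ m * a * ((a * b) ^ m)⁻¹ = (a * b) ^ m * (a * a) * ((a * b) ^ m * a) := by rw [← h]; group
          _ = (a * b) ^ (2 * m) * a := by rw [haa, mul_one, ← mul_assoc, ← pow_add, two_mul]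
          _ = (a * b)⁻¹ * a := by
            congr 1
            refine (inv_eq_of_mul_eq_one_right ?_).symm
            rw [← pow_succ', ← hm, pow_orderOf_eq_one]
          _ = b := by
            rw [mul_inv_rev, inv_eq_of_mul_eq_one_right haa, inv_eq_of_mul_eq_one_right hbb, mul_assoc, haa, mul_one]
      apply hIJ
      rw [hI, hJ]
      have h1 : IsConj a₀ a := by rw [hI] at ha; exact ha
      have h2 : IsConj b₀ b := by rw [hJ] at hb; exact hb
      ext x
      exact ⟨fun h => h2.trans (hcj.symm.trans (h1.symm.trans h)), fun h => h1.trans (hcj.trans (h2.symm.trans h))⟩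
  have hb0 : b₀ ∈ J := by rw [hJ]; exact IsConj.refl _
  have ha0 : a₀ ∈ I := by rw [hI]; exact IsConj.refl _
  obtain ⟨c, hc, huniq⟩ := hfix b₀ (Or.inr hb0)
  -- every member of `I` fixes the coset `c`
  have hIfix : ∀ a ∈ I, a • c = c := by
    intro a ha
    obtain ⟨d, hd, -⟩ := hfix a (Or.inl ha)
    rw [← huniq d (hsame a ha b₀ hb0 d hd)]
    exact hd
  have htriv : ∀ g : G, g • c = c := by
    intro g
    obtain ⟨d, -, hd⟩ := hfix a₀ (Or.inl ha0)
    rw [hd c (hIfix _ ha0)]
    refine hd _ ?_
    rw [← hd c (hIfix _ ha0)]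
    have := hIfix _ (hIc g⁻¹ a₀ ha0)
    rw [inv_inv, mul_smul, mul_smul, inv_smul_eq_iff] at this
    exact this
  rw [eq_top_iff]
  intro x _
  induction c using QuotientGroup.induction_on with
  | _ g =>
    have := (hfixiff g _).mp (htriv (g * x * g⁻¹))
    simpa [mul_assoc] using this

end Cfsg.Agent.S5439
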