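import Cfsg.Statements.S5452
import Cfsg.Agent.Lib.Involution.UnitaryCoverLifts

set_option autoImplicit false
open Cfsg

namespace Cfsg.Agent.S5452

/-- Let G be a finite group with an involution d whose centralizer C is quasisimple with C modulo the subgroup generated by d isomorphic to the projective special unitary group of dimension 6 over the field with four elements, and suppose some conjugate of d other than d commutes with d. Then every involution of C modulo the subgroup generated by d is the image of an involution of C, and d is not a square in G. -/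
theorem result {G : Type*} [Group G] [Finite G] (d : G) (hd : orderOf d = 2) (hq : Cfsg.IsQuasisimple ↥(Subgroup.centralizer ({d} : Set G))) [hzn : ((Subgroup.zpowers d).subgroupOf (Subgroup.centralizer ({d} : Set G))).Normal] (K : Type) [Field K] [Fintype K] (hK : Fintype.card K = 4) (e : ↥(Subgroup.centralizer ({d} : Set G)) ⧸ (Subgroup.zpowers d).subgroupOf (Subgroup.centralizer ({d} : Set G)) ≃* Cfsg.PSU 6 K 2) (hnwc : ∃ g : G, g * d * g⁻¹ ∈ Subgroup.centralizer ({d} : Set G) ∧ g * d * g⁻¹ ≠ d) : (∀ x : ↥(Subgroup.centralizer ({d} : Set G)) ⧸ (Subgroup.zpowers d).subgroupOf (Subgroup.centralizer ({d} : Set G)), orderOf x = 2 → ∃ y : ↥(Subgroup.centralizer ({d} : Set G)), orderOf y = 2 ∧ (QuotientGroup.mk y : ↥(Subgroup.centralizer ({d} : Set G)) ⧸ (Subgroup.zpowers d).subgroupOf (Subgroup.centralizer ({d} : Set G))) = x) ∧ ¬ ∃ g : G, g ^ 2 = d := by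
  classical
  set C := Subgroup.centralizer ({d} : Set G) with hC
  set Z := (Subgroup.zpowers d).subgroupOf C with hZ
  have hdC : d ∈ C := Subgroup.mem_centralizer_singleton_iff.2 rfl
  set d' : ↥C := ⟨d, hdC⟩ with hd'
  have hdd : d * d = 1 := by rw [← pow_two, ← hd, pow_orderOf_eq_one]
  set f : ↥C →* Cfsg.PSU 6 K 2 := e.toMonoidHom.comp (QuotientGroup.mk' Z) with hf
  have hsurj : Function.Surjective f := e.surjective.comp (QuotientGroup.mk'_surjective Z)
  have hker : ∀ x, f x = 1 ↔ x = 1 ∨ x = d' := by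
    intro x
    rw [show f x = e (QuotientGroup.mk' Z x) from rfl, map_eq_one_iff e e.injective, QuotientGroup.mk'_apply,
      QuotientGroup.eq_one_iff, hZ, Subgroup.mem_subgroupOf]
    constructor
    · intro h
      obtain ⟨k, hk⟩ := Subgroup.mem_zpowers_iff.1 h
      rcases Int.even_or_odd k with ⟨i, rfl⟩ | ⟨i, rfl⟩
      · left; apply Subtype.ext; rw [← hk, ← two_mul, zpow_mul, zpow_two, hdd, one_zpow]; rfl
      · right; apply Subtype.ext; rw [← hk, zpow_add, zpow_one, zpow_mul, zpow_two, hdd, one_zpow, one_mul]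
    · rintro (rfl | rfl)
      · exact one_mem _
      · exact Subgroup.mem_zpowers d
  have hdc : ∀ x : ↥C, Commute d' x := fun x =>
    Subtype.ext (Subgroup.mem_centralizer_singleton_iff.1 x.2).symm
  have hlift : ∀ x : ↥C ⧸ Z, orderOf x = 2 → ∃ y : ↥C, orderOf y = 2 ∧ (QuotientGroup.mk y : ↥C ⧸ Z) = x := by
    intro x hx
    obtain ⟨y, hy, hfy⟩ := Cfsg.Agent.Lib.Involution.UnitaryCover.involution_lifts hK f hsurj hker hdc
      (Subtype.ext hdd) (z := e x) (by rw [MulEquiv.orderOf_eq, hx])
    exact ⟨y, hy, e.injective hfy⟩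
  refine ⟨hlift, ?_⟩
  rintro ⟨g, hg⟩
  have hgC : g ∈ C := Subgroup.mem_centralizer_singleton_iff.2 (by rw [← hg, ← pow_succ, ← pow_succ'])
  set g' : ↥C := ⟨g, hgC⟩
  have hg' : g' ^ 2 = d' := Subtype.ext hg
  have hd1 : d ≠ 1 := fun h => by rw [h, orderOf_one] at hd; omega
  have hsq : ∀ z : ↥C, f z = 1 → z * z = 1 := fun z hz => by
    rcases (hker z).1 hz with rfl | rfl
    exacts [mul_one 1, Subtype.ext hdd]
  by_cases h1 : (QuotientGroup.mk g' : ↥C ⧸ Z) = 1
  · refine hd1 (congrArg Subtype.val (show d' = 1 from ?_))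
    rw [← hg', pow_two]
    exact hsq g' (by show e _ = 1; rw [QuotientGroup.mk'_apply, h1, map_one])
  · have h2 : orderOf (QuotientGroup.mk g' : ↥C ⧸ Z) = 2 := orderOf_eq_prime (by
      rw [← QuotientGroup.mk_pow, hg', QuotientGroup.eq_one_iff, hZ, Subgroup.mem_subgroupOf]
      exact Subgroup.mem_zpowers d) h1
    obtain ⟨y, hy, hyx⟩ := hlift _ h2
    have hz : f (y⁻¹ * g') = 1 := by
      show e (QuotientGroup.mk' Z _) = 1
      rw [QuotientGroup.mk'_apply, QuotientGroup.mk_mul, QuotientGroup.mk_inv, hyx, inv_mul_cancel, map_one]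
    have hy2 : y * y = 1 := by rw [← pow_two, ← hy, pow_orderOf_eq_one]
    refine hd1 (congrArg Subtype.val (show d' = 1 from ?_))
    rw [← hg', show g' = y * (y⁻¹ * g') by group, pow_two]
    rcases (hker _).1 hz with h | h <;> rw [h]
    · rw [mul_one, hy2]
    · rw [(hdc y).mul_mul_mul_comm y d', hy2, one_mul]
      exact Subtype.ext hdd

end Cfsg.Agent.S5452
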