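import Cfsg.Statements.S5455
import Cfsg.Agent.Lib.Involution.FischerCoverCount

set_option autoImplicit false
open Cfsg

namespace Cfsg.Agent.S5455

open Subgroup
open Cfsg.Agent.Lib.Involution Cfsg.Agent.Lib.ThreeTransp Cfsg.Agent.Lib.Involution.FischerRel

/-- The number of fused elements is prime to the primes outside `GL(11,2)`. -/
theorem not_dvd_orbit {G : Type*} [Group G] [Finite G] (A : Subgroup G) (hA : Nat.card A = 2 ^ 11) {d : G}
    (hdA : d ∈ A) (htr : ∀ x ∈ A, IsConj d x → ∃ n ∈ normalizer (A : Set G), n * x * n⁻¹ = d) {p : ℕ}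
    (hp : p.Prime) (hj : ∀ j < 11, ¬ p ∣ 2 ^ 11 - 2 ^ j) : ¬ p ∣ {x | x ∈ A ∧ IsConj d x}.ncard := by
  intro hdvd
  set R := A.normalizerMonoidHom.range
  have horb : Subtype.val '' MulAction.orbit ↥R (⟨d, hdA⟩ : ↥A) = {x | x ∈ A ∧ IsConj d x} := by
    ext x
    constructor
    · rintro ⟨_, ⟨⟨_, n, rfl⟩, rfl⟩, rfl⟩
      exact ⟨Subtype.coe_prop _, isConj_iff.2 ⟨n, rfl⟩⟩
    · rintro ⟨hx, hc⟩
      obtain ⟨n, hn, e⟩ := htr x hx hc
      refine ⟨⟨x, hx⟩, ⟨⟨_, ⟨⟨n, hn⟩⁻¹, rfl⟩⟩, Subtype.ext ?_⟩, rfl⟩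
      show n⁻¹ * d * n⁻¹⁻¹ = x
      rw [← e]; group
  rw [← horb, Set.ncard_image_of_injective _ Subtype.val_injective, ← MulAction.index_stabilizer] at hdvd
  obtain ⟨j, hj', h⟩ := FischerCover.prime_dvd_aut hA hp
    (hdvd.trans ((Subgroup.index_dvd_card _).trans R.card_subgroup_dvd_card))
  exact hj j hj' h

/-- Let G be a finite group with an involution d whose centralizer C is quasisimple, such that C modulo the subgroup generated by d is of type M(22) with respect to some conjugacy class of 3-transpositions generating it and also has an involution whose own centralizer is quasisimple with quotient by it isomorphic to the projective special unitary group of dimension 6 over the field with four elements and which is not weakly closed in that centralizer; and suppose some conjugate of d other than d commutes with d. Let S be a Sylow 2-subgroup of C and A the Thompson subgroup of S, regarded as a subgroup of G. Then A is elementary abelian of order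 2^11, exactly 23 conjugates of d lie in A, and the normalizer of A permutes them transitively. -/
theorem result {G : Type*} [Group G] [Finite G] (d : G) (hd : orderOf d = 2) (hq : Cfsg.IsQuasisimple ↥(Subgroup.centralizer ({d} : Set G))) [hzn : ((Subgroup.zpowers d).subgroupOf (Subgroup.centralizer ({d} : Set G))).Normal] (htype : ∃ E : Set (↥(Subgroup.centralizer ({d} : Set G)) ⧸ (Subgroup.zpowers d).subgroupOf (Subgroup.centralizer ({d} : Set G))), Cfsg.IsThreeTranspositionClass E ∧ Cfsg.IsOfTypeM22 _ E) (hinvol : ∃ d' : ↥(Subgroup.centralizer ({d} : Set G)) ⧸ (Subgroup.zpowers d).subgroupOf (Subgroup.centralizer ({d} : Set G)), orderOf d' = 2 ∧ Cfsg.IsQuasisimple ↥(Subgroup.centralizer ({d'} : Set _)) ∧ (∃ (K : Type) (_ : Field K) (_ : Fintype K), Fintype.card K = 4 ∧ ∃ _ : ((Subgroup.zpowers d').subgroupOf (Subgroup.centralizer ({d'} : Set _))).Normal, Nonempty (↥(Subgroup.centralizer ({d'} : Set _)) ⧸ (Subgroup.zpowers d').subgroupOf (Subgroup.centralizer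 ({d'} : Set _)) ≃* Cfsg.PSU 6 K 2)) ∧ ∃ g, g * d' * g⁻¹ ∈ Subgroup.centralizer ({d'} : Set _) ∧ g * d' * g⁻¹ ≠ d') (hnwc : ∃ g : G, g * d * g⁻¹ ∈ Subgroup.centralizer ({d} : Set G) ∧ g * d * g⁻¹ ≠ d) (S : Sylow 2 ↥(Subgroup.centralizer ({d} : Set G))) (A : Subgroup G) (hA : A = (Cfsg.thompsonSubgroupOf 2 (S : Subgroup ↥(Subgroup.centralizer ({d} : Set G)))).map (Subgroup.centralizer ({d} : Set G)).subtype) : Cfsg.IsElementaryAbelian 2 A ∧ Nat.card A = 2 ^ 11 ∧ Set.ncard {x : G | x ∈ A ∧ IsConj d x} = 23 ∧ ∀ x ∈ A, ∀ y ∈ A, IsConj d x → IsConj d y → ∃ n ∈ Subgroup.normalizer (A : Set G), n * x * n⁻¹ = y := by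
  classical
  obtain ⟨E, ⟨hT, ⟨e₀, he₀, hEc⟩, hgen⟩, hM⟩ := htype
  have M : FischerTwentyTwo.Hyp E := FischerBlocks.hyp ⟨⟨hT, fun g e he => by
    rw [hEc] at he ⊢
    exact (show IsConj e₀ e from he).trans (isConj_iff.2 ⟨g, rfl⟩), hgen⟩, hM⟩
  have hd2 : d * d = 1 := by rw [← pow_two, ← hd, pow_orderOf_eq_one]
  have hd1 : d ≠ 1 := fun e => by rw [e, orderOf_one] at hd; norm_num at hd
  set π := QuotientGroup.mk' ((Subgroup.zpowers d).subgroupOf (centralizer ({d} : Set G))) with hπ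
  set z : ↥(centralizer ({d} : Set G)) := ⟨d, mem_centralizer_singleton_iff.2 rfl⟩ with hzdef
  have cov : FischerCover.Cov π z E := by
    refine ⟨QuotientGroup.mk'_surjective _, fun x => Subtype.ext (mem_centralizer_singleton_iff.1 x.2).symm,
      Subtype.ext hd2, fun e => hd1 (congrArg Subtype.val e),
      (QuotientGroup.eq_one_iff _).2 (mem_subgroupOf.2 (mem_zpowers d)), ?_, M⟩
    intro x hx
    rw [hπ, QuotientGroup.mk'_apply, QuotientGroup.eq_one_iff, mem_subgroupOf,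
      mem_zpowers_iff_mem_range_orderOf, hd, Finset.mem_image] at hx
    obtain ⟨i, hi, e⟩ := hx
    rw [Finset.mem_range] at hi
    interval_cases i
    · exact Or.inl (Subtype.ext (by simpa using e.symm))
    · exact Or.inr (Subtype.ext (by simpa [hzdef] using e.symm))
  obtain ⟨L, c⟩ := cov.exists_cls
  have hperf : commutator ↥(centralizer ({d} : Set G)) = ⊤ := hq.1.commutator_eq_top
  obtain ⟨F, K, hJ, hbig⟩ := c.exists_thompson S
  set A₀ := (Subgroup.closure F).comap π with hA₀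
  have hA' : A = A₀.map (centralizer ({d} : Set G)).subtype := by rw [hA, hJ]
  have hcard : Nat.card A = 2 ^ 11 := by rw [hA', card_subtype, c.card_span_cover K]
  have hmemA : ∀ x : ↥(centralizer ({d} : Set G)), (x : G) ∈ A ↔ x ∈ A₀ := fun x => by
    rw [hA']
    exact ⟨fun ⟨y, hy, e⟩ => (Subtype.ext e : y = x) ▸ hy, fun h => ⟨x, h, rfl⟩⟩
  have hAC : ∀ a ∈ A, a ∈ centralizer ({d} : Set G) := fun a ha => by
    rw [hA'] at ha
    exact map_subtype_le A₀ ha
  have hAc : ∀ a ∈ A, ∀ b ∈ A, a * b = b * a := fun a ha b hb => congrArg Subtype.val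
    (c.span_comm K ⟨a, hAC a ha⟩ ((hmemA _).1 ha) ⟨b, hAC b hb⟩ ((hmemA _).1 hb))
  have hA2 : ∀ a ∈ A, a * a = 1 := fun a ha => congrArg Subtype.val
    (c.span_sq K ⟨a, hAC a ha⟩ ((hmemA _).1 ha))
  have hdA : d ∈ A := (hmemA z).2 (mem_comap.2 (cov.piz ▸ one_mem _))
  -- transitivity
  have htr : ∀ x ∈ A, IsConj d x → ∃ n ∈ normalizer (A : Set G), n * x * n⁻¹ = d := by
    intro x hx hc
    obtain ⟨n₀, e⟩ := isConj_iff.1 hc.symm
    have hleC : A.map (MulAut.conj n₀).toMonoidHom ≤ centralizer ({d} : Set G) := by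
      rintro _ ⟨a, ha, rfl⟩
      refine mem_centralizer_singleton_iff.2 ?_
      show n₀ * a * n₀⁻¹ * d = d * (n₀ * a * n₀⁻¹)
      rw [← e, show n₀ * a * n₀⁻¹ * (n₀ * x * n₀⁻¹) = n₀ * (a * x) * n₀⁻¹ by group, hAc a ha x hx]
      group
    set B := (A.map (MulAut.conj n₀).toMonoidHom).subgroupOf (centralizer ({d} : Set G)) with hB
    obtain ⟨g, hg⟩ := hbig B ⟨fun u hu v hv => Subtype.ext (by
        obtain ⟨a, ha, ea⟩ := mem_subgroupOf.1 hu
        obtain ⟨b, hb, eb⟩ := mem_subgroupOf.1 hv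
        show (u : G) * v = v * u
        rw [← ea, ← eb, ← map_mul, hAc a ha b hb, map_mul]), fun u hu => Subtype.ext (by
        obtain ⟨a, ha, ea⟩ := mem_subgroupOf.1 hu
        show (u : G) * u = 1
        rw [← ea, ← map_mul, hA2 a ha, map_one]), by
      rw [hB, Nat.card_congr (subgroupOfEquivOfLe hleC).toEquiv, card_map_of_injective (MulAut.conj n₀).injective,
        hcard]⟩
    refine ⟨(g : G) * n₀, ?_, ?_⟩
    · have hle : A.map (MulAut.conj ((g : G) * n₀)).toMonoidHom ≤ A := by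
        rintro _ ⟨a, ha, rfl⟩
        have h1 : n₀ * a * n₀⁻¹ ∈ centralizer ({d} : Set G) := hleC ⟨a, ha, rfl⟩
        have h2 := (hmemA _).2 ((hg ⟨_, h1⟩).1 ⟨a, ha, rfl⟩)
        show (g : G) * n₀ * a * ((g : G) * n₀)⁻¹ ∈ A
        rw [show (g : G) * n₀ * a * ((g : G) * n₀)⁻¹ = g * (n₀ * a * n₀⁻¹) * (g : G)⁻¹ by group]
        exact h2
      have heq := eq_of_le_of_card_ge hle (by rw [card_map_of_injective (MulAut.conj _).injective])
      refine mem_normalizer_iff.2 fun a => ⟨fun ha => hle ⟨a, ha, rfl⟩, fun h => ?_⟩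
      change (g : G) * n₀ * a * ((g : G) * n₀)⁻¹ ∈ A at h
      rw [← heq] at h
      obtain ⟨b, hb, e'⟩ := h
      exact (MulAut.conj ((g : G) * n₀)).injective e' ▸ hb
    · rw [show (g : G) * n₀ * x * ((g : G) * n₀)⁻¹ = g * (n₀ * x * n₀⁻¹) * (g : G)⁻¹ by group, e,
        mem_centralizer_singleton_iff.1 g.2, mul_inv_cancel_right]
  refine ⟨⟨⟨⟨fun a b => Subtype.ext (hAc a a.2 b b.2)⟩⟩, fun a ha => by rw [pow_two, hA2 a ha]⟩, hcard, ?_, ?_⟩
  swap
  · intro x hx y hy hcx hcy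
    obtain ⟨n, hn, e⟩ := htr x hx hcx
    obtain ⟨m, hm, e'⟩ := htr y hy hcy
    refine ⟨m⁻¹ * n, mul_mem (inv_mem hm) hn, ?_⟩
    rw [show m⁻¹ * n * x * (m⁻¹ * n)⁻¹ = m⁻¹ * (n * x * n⁻¹) * m by group, e, ← e']
    group
  -- the count
  let P : ↥(centralizer ({d} : Set G)) → Prop := fun a => IsConj d (a : G)
  have himg : Subtype.val '' {a | a ∈ A₀ ∧ P a} = {x : G | x ∈ A ∧ IsConj d x} := by
    ext x
    exact ⟨by rintro ⟨a, ⟨ha, hP⟩, rfl⟩; exact ⟨(hmemA a).2 ha, hP⟩,
      fun ⟨hx, hP⟩ => ⟨⟨x, hAC x hx⟩, ⟨(hmemA _).1 hx, hP⟩, rfl⟩⟩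
  rw [← himg, Set.ncard_image_of_injective _ Subtype.val_injective]
  refine c.count hperf K P (fun g a h => h.trans (isConj_iff.2 ⟨g, by simp⟩)) (IsConj.refl d)
    (fun h => hd1 (isConj_one_left.1 h)) ?_ ?_ ?_
  · obtain ⟨g, hgC, hgne⟩ := hnwc
    set y : ↥(centralizer ({d} : Set G)) := ⟨g * d * g⁻¹, hgC⟩ with hy
    have hy2 : y * y = 1 := Subtype.ext (by
      show g * d * g⁻¹ * (g * d * g⁻¹) = 1
      rw [show g * d * g⁻¹ * (g * d * g⁻¹) = g * (d * d) * g⁻¹ by group, hd2, mul_one, mul_inv_cancel])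
    have hPy : P y := isConj_iff.2 ⟨g, rfl⟩
    have hyne : y ≠ z := fun e => hgne (congrArg Subtype.val e)
    have hπy : π y ≠ 1 := fun h => by
      rcases cov.ker y h with e | e
      · exact hd1 (isConj_one_left.1 (show IsConj d (1 : G) by simpa [P, e] using hPy))
      · exact hyne e
    obtain ⟨m, h1, h3, hm⟩ := FischerTwentyTwo.involution_prod M (orderOf_eq_prime (by rw [pow_two, ← map_mul, hy2,
      map_one]) hπy)
    obtain ⟨l, -, -, hl, hlc, hlp⟩ := hm
    obtain ⟨F', K', hsub⟩ := FischerTwentyTwo.exists_maxComm (D := E) (E := {w | w ∈ l}) hl hlc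
    have hyF : y ∈ (Subgroup.closure F').comap π := by
      rw [mem_comap, ← hlp]
      exact list_prod_mem fun w hw => subset_closure (hsub hw)
    obtain ⟨k, hk⟩ := hbig _ ⟨c.span_comm K', c.span_sq K', (c.card_span_cover K').ge⟩
    refine ⟨k * y * k⁻¹, (hk y).1 hyF, hPy.trans (isConj_iff.2 ⟨k, by simp⟩), fun e => hyne ?_⟩
    rw [show y = k⁻¹ * (k * y * k⁻¹) * k by group, e, ← (cov.hz k⁻¹).eq, inv_mul_cancel_right]
  · intro x hx hPx
    obtain ⟨n, hn, e⟩ := htr x ((hmemA x).2 hx) hPx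
    let θ : ↥(centralizer ({d} : Set G)) → ↥(centralizer ({d} : Set G)) := fun a =>
      if h : n * (a : G) * n⁻¹ ∈ centralizer ({d} : Set G) then ⟨_, h⟩ else 1
    have hval : ∀ a, Commute a x → ((θ a : ↥(centralizer ({d} : Set G))) : G) = n * a * n⁻¹ := by
      intro a ha
      have h : n * (a : G) * n⁻¹ ∈ centralizer ({d} : Set G) := by
        refine mem_centralizer_singleton_iff.2 ?_
        have key : n * (a : G) * n⁻¹ * (n * (x : G) * n⁻¹) = n * (x : G) * n⁻¹ * (n * (a : G) * n⁻¹) := by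
          rw [show n * (a : G) * n⁻¹ * (n * (x : G) * n⁻¹) = n * ((a : G) * x) * n⁻¹ by group,
            show (a : G) * x = x * a from congrArg Subtype.val ha.eq]
          group
        rwa [e] at key
      simp only [θ, dif_pos h]
    have hA₀x : ∀ a ∈ A₀, Commute a x := fun a ha => c.span_comm K a ha x hx
    have hnA : ∀ a ∈ A₀, n * (a : G) * n⁻¹ ∈ A := fun a ha =>
      (mem_normalizer_iff.1 hn _).1 ((hmemA a).2 ha)
    refine ⟨θ, θ, ?_, fun a ha => ?_, fun a ha => ?_, fun a ha b hb => ?_, fun a ha b hb h => ?_, fun b hb => ?_,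
      fun s t hs ht h => ?_, fun s hs a ha b hb h => ?_⟩
    · exact Subtype.ext ((hval x (Commute.refl x)).trans e)
    · rw [← hmemA, hval a (hA₀x a ha)]; exact hnA a ha
    · show IsConj d _ ↔ IsConj d _
      rw [hval a (hA₀x a ha)]
      have hc : IsConj (a : G) (n * a * n⁻¹) := isConj_iff.2 ⟨n, rfl⟩
      exact ⟨fun h => h.trans hc.symm, fun h => h.trans hc⟩
    · refine Subtype.ext ?_
      rw [Subgroup.coe_mul, hval a (hA₀x a ha), hval b (hA₀x b hb), hval _ (hA₀x _ (mul_mem ha hb)), Subgroup.coe_mul]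
      group
    · have h' := congrArg Subtype.val h
      rw [hval a (hA₀x a ha), hval b (hA₀x b hb)] at h'
      exact Subtype.ext (mul_left_cancel (mul_right_cancel h'))
    · have h' : n⁻¹ * (b : G) * n ∈ A := by
        have := (mem_normalizer_iff.1 (inv_mem hn) _).1 ((hmemA b).2 hb)
        rwa [inv_inv] at this
      refine ⟨⟨_, hAC _ h'⟩, (hmemA _).1 h', Subtype.ext ?_⟩
      rw [hval _ (hA₀x _ ((hmemA _).1 h'))]
      show n * (n⁻¹ * (b : G) * n) * n⁻¹ = b
      group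
    · have h' := congrArg Subtype.val h
      rw [hval s hs, hval t ht] at h'
      exact Subtype.ext (mul_left_cancel (mul_right_cancel h'))
    · refine Subtype.ext ?_
      rw [Subgroup.coe_mul, Subgroup.coe_mul, Subgroup.coe_inv, hval s hs, hval a (hA₀x a ha), hval b (hA₀x b hb), ← h,
        Subgroup.coe_mul, Subgroup.coe_mul, Subgroup.coe_inv]
      group
  · intro p hp
    rw [← Set.ncard_image_of_injective {a | a ∈ A₀ ∧ P a} Subtype.val_injective, himg]
    simp only [List.mem_cons, List.not_mem_nil, or_false] at hp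
    rcases hp with rfl | rfl | rfl | rfl | rfl | rfl | rfl | rfl | rfl <;>
      refine not_dvd_orbit A hcard hdA htr (by norm_num) fun j hj => ?_ <;>
      interval_cases j <;> norm_num

end Cfsg.Agent.S5455
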