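import Cfsg.Statements.S5456
import Cfsg.Agent.Lib.Involution.FischerUnique

set_option autoImplicit false
open Cfsg

namespace Cfsg.Agent.S5456

/-- Let G be a finite group with trivial centre generated by a conjugation-invariant set D of 3-transpositions on which it acts primitively, of type M(22), and suppose G also has an involution whose centralizer is quasisimple with quotient by it the projective special unitary group of dimension 6 over the field with four elements and which is not weakly closed in that centralizer. Then D is the only conjugacy class of 3-transpositions generating G. -/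
theorem result {G : Type*} [Group G] [Finite G] {D : Set G} (hD : Cfsg.IsThreeTranspositionGroup D) (hprim : Cfsg.IsPrimitiveUnderConj D) (h22 : Cfsg.IsOfTypeM22 G D) (hM : ∃ d : G, orderOf d = 2 ∧ Cfsg.IsQuasisimple ↥(Subgroup.centralizer ({d} : Set G)) ∧ (∃ (_ : ((Subgroup.zpowers d).subgroupOf (Subgroup.centralizer ({d} : Set G))).Normal) (K : Type) (_ : Field K) (_ : Fintype K), Fintype.card K = 4 ∧ Nonempty (↥(Subgroup.centralizer ({d} : Set G)) ⧸ (Subgroup.zpowers d).subgroupOf (Subgroup.centralizer ({d} : Set G)) ≃* Cfsg.PSU 6 K 2)) ∧ ∃ g : G, g * d * g⁻¹ ∈ Subgroup.centralizer ({d} : Set G) ∧ g * d * g⁻¹ ≠ d) (D' : Set G) (hD' : Cfsg.IsThreeTranspositionClass D') : D' = D := by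
  exact Cfsg.Agent.Lib.Involution.FischerTwentyTwo.class_unique ⟨hD, hprim, h22⟩ hD'

end Cfsg.Agent.S5456
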