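import Cfsg.Statements.S5459
-- import your own Cfsg.Agent.* helpers here

set_option autoImplicit false
open Cfsg

namespace Cfsg.Agent.S5459

/-- Let G be a finite group with a quasisimple normal subgroup L and an involution d such that G is generated by L and d, the centre of L has odd order, and d inverts every element of the centre of L. If the commuting graph on the conjugacy class of the image of d in G modulo the centre of L is connected, then the commuting graph on the conjugacy class of d is connected. -/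
theorem result {G : Type*} [Group G] [Finite G] (L : Subgroup G) [L.Normal] (hL : Cfsg.IsQuasisimple ↥L) (d : G) (hd : orderOf d = 2) (hgen : L ⊔ Subgroup.zpowers d = ⊤) (hodd : Odd (Nat.card ↥(Subgroup.center ↥L))) (hinv : ∀ c ∈ (Subgroup.center ↥L).map L.subtype, d * c * d⁻¹ = c⁻¹) [hn : ((Subgroup.center ↥L).map L.subtype).Normal] (hconn : (Cfsg.commutingGraph (conjugatesOf (QuotientGroup.mk d : G ⧸ (Subgroup.center ↥L).map L.subtype))).Connected) : (Cfsg.commutingGraph (conjugatesOf d)).Connected := by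
  classical
  set Z := (Subgroup.center ↥L).map L.subtype with hZ
  have hZL : ∀ z ∈ Z, z ∈ L ∧ ∀ l ∈ L, z * l = l * z := by
    rintro _ ⟨⟨z, hz⟩, hzc, rfl⟩
    exact ⟨hz, fun l hl => (congrArg Subtype.val (Subgroup.mem_center_iff.1 hzc ⟨l, hl⟩)).symm⟩
  have hhalf : ∀ c ∈ Z, ∃ z ∈ Z, z * z = c := by
    intro c hc
    obtain ⟨m, hm⟩ := hodd
    refine ⟨c ^ (m + 1), pow_mem hc _, ?_⟩
    have h1 : c ^ (2 * m + 1) = 1 := by
      rw [← hm, show Nat.card ↥(Subgroup.center ↥L) = Nat.card ↥Z from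
        Nat.card_congr ((Subgroup.center ↥L).equivMapOfInjective L.subtype Subtype.val_injective).toEquiv]
      exact congrArg Subtype.val (pow_card_eq_one' (x := (⟨c, hc⟩ : ↥Z)))
    rw [← pow_add, show m + 1 + (m + 1) = (2 * m + 1) + 1 by omega, pow_succ, h1, one_mul]
  set π : G →* G ⧸ Z := QuotientGroup.mk' Z with hπ
  set D := conjugatesOf d with hD
  have hdd : ∀ x ∈ D, x * x = 1 := fun x hx => by
    obtain ⟨g, rfl⟩ := isConj_iff.1 hx
    rw [show g * d * g⁻¹ * (g * d * g⁻¹) = g * (d * d) * g⁻¹ by group, ← pow_two d, ← hd, pow_orderOf_eq_one]; group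
  have hconjD : ∀ g : G, ∀ x ∈ D, g * x * g⁻¹ ∈ D := fun g x hx => hx.trans (isConj_iff.2 ⟨g, rfl⟩)
  have hxinv : ∀ x ∈ D, ∀ z ∈ Z, x * z * x⁻¹ = z⁻¹ := by
    intro x hx z hz
    obtain ⟨g, rfl⟩ := isConj_iff.1 hx
    have h2 := hinv (g⁻¹ * z * g) (by simpa using hn.conj_mem z hz g⁻¹)
    calc g * d * g⁻¹ * z * (g * d * g⁻¹)⁻¹ = g * (d * (g⁻¹ * z * g) * d⁻¹) * g⁻¹ := by group
      _ = g * (g⁻¹ * z * g)⁻¹ * g⁻¹ := by rw [h2]
      _ = z⁻¹ := by group
  have hshift : ∀ x ∈ D, ∀ z ∈ Z, z * x ∈ D := by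
    intro x hx z hz
    obtain ⟨w, hw, rfl⟩ := hhalf z hz
    convert hconjD w x hx using 1
    have := hxinv x hx w hw
    calc w * w * x = w * (x * w * x⁻¹)⁻¹ * x := by rw [this, inv_inv]
      _ = w * x * w⁻¹ := by group
  -- the commuting relation and the component of d
  let R : G → G → Prop := fun x y => x ∈ D ∧ y ∈ D ∧ Commute x y
  let K : Set G := {x | Relation.ReflTransGen R d x}
  have hdD : d ∈ D := IsConj.refl d
  have hKD : ∀ x ∈ K, x ∈ D := fun x hx => by
    induction hx with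
    | refl => exact hdD
    | tail _ h _ => exact h.2.1
  have hsurj : ∀ y ∈ D, ∃ k ∈ K, π k = π y := by
    intro y hy
    have hmem : ∀ {x}, x ∈ D → π x ∈ conjugatesOf (QuotientGroup.mk d : G ⧸ Z) := fun {x} hx =>
      π.map_isConj hx
    have hr := SimpleGraph.reachable_iff_reflTransGen _ _ |>.1 (hconn.preconnected ⟨_, hmem hdD⟩ ⟨_, hmem hy⟩)
    suffices ∀ q, Relation.ReflTransGen (Cfsg.commutingGraph (conjugatesOf (QuotientGroup.mk d : G ⧸ Z))).Adj ⟨_, hmem hdD⟩ q →
        ∃ k ∈ K, π k = q.1 from this _ hr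
    intro q hq
    induction hq with
    | refl => exact ⟨d, Relation.ReflTransGen.refl, rfl⟩
    | @tail p q _ hpq ih =>
      obtain ⟨x, hxK, hx⟩ := ih
      obtain ⟨y₀, hy₀⟩ := QuotientGroup.mk'_surjective Z q.1
      have hcm : Commute (π x) q.1 := by
        rw [hx]
        rcases (SimpleGraph.fromRel_adj _ _ _).1 hpq with ⟨-, h | h⟩
        exacts [h, h.symm]
      obtain ⟨gq, hgq⟩ := isConj_iff.1 q.2
      obtain ⟨g, rfl⟩ := QuotientGroup.mk'_surjective Z gq
      have hy : g * d * g⁻¹ ∈ D := hconjD g d hdD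
      have hπy : π (g * d * g⁻¹) = q.1 := by rw [← hgq]; rfl
      set y := g * d * g⁻¹
      have hc : x * y * x⁻¹ * y⁻¹ ∈ Z := by
        rw [← QuotientGroup.eq_one_iff]
        show π (x * y * x⁻¹ * y⁻¹) = 1
        rw [map_mul, map_mul, map_mul, map_inv, map_inv, hπy, hcm.eq]; group
      obtain ⟨z, hz, hzz⟩ := hhalf _ hc
      refine ⟨z * y, hxK.tail ⟨hKD x hxK, hshift y hy z hz, ?_⟩, ?_⟩
      · have h1 := hxinv x (hKD x hxK) z hz
        show x * (z * y) = z * y * x
        calc x * (z * y) = (x * z * x⁻¹) * (x * y * x⁻¹ * y⁻¹) * y * x := by group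
          _ = z * y * x := by rw [h1, ← hzz]; group
      · rw [map_mul, hπy, show π z = 1 from (QuotientGroup.eq_one_iff z).2 hz, one_mul]
  have hRconj : ∀ g a b, Relation.ReflTransGen R a b → Relation.ReflTransGen R (g * a * g⁻¹) (g * b * g⁻¹) := by
    intro g a b h
    refine Relation.ReflTransGen.lift (fun x => g * x * g⁻¹) (fun x y hxy => ⟨hconjD g x hxy.1, hconjD g y hxy.2.1, ?_⟩) _ _ h
    show g * x * g⁻¹ * (g * y * g⁻¹) = g * y * g⁻¹ * (g * x * g⁻¹)
    rw [show g * x * g⁻¹ * (g * y * g⁻¹) = g * (x * y) * g⁻¹ by group, hxy.2.2.eq]; group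
  have hsymm : ∀ a b, Relation.ReflTransGen R a b → Relation.ReflTransGen R b a :=
    fun a b h => by
      induction h with
      | refl => exact Relation.ReflTransGen.refl
      | tail _ k ih => exact Relation.ReflTransGen.head (⟨k.2.1, k.1, k.2.2.symm⟩ : R _ _) ih
  have hKK : ∀ k ∈ K, ∀ x ∈ K, k * x * k⁻¹ ∈ K := by
    intro k hk x hx
    have h1 := hRconj k d k hk
    rw [mul_inv_cancel_right] at h1
    exact (Relation.ReflTransGen.trans hk (hsymm _ _ h1)).trans (hRconj k d x hx)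
  set H := Subgroup.closure K with hH
  have hstab : ∀ g ∈ H, ∀ x ∈ K, g * x * g⁻¹ ∈ K ∧ g⁻¹ * x * g ∈ K := by
    intro g hg
    induction hg using Subgroup.closure_induction with
    | mem k hk =>
      intro x hx
      refine ⟨hKK k hk x hx, ?_⟩
      have hki : k⁻¹ = k := inv_eq_of_mul_eq_one_right (hdd k (hKD k hk))
      have h := hKK k hk x hx
      rw [hki] at h ⊢
      exact h
    | one => intro x hx; simpa using hx
    | mul a b _ _ ha hb =>
      intro x hx
      exact ⟨by convert (ha _ (hb x hx).1).1 using 1; group, by convert (hb _ (ha x hx).2).2 using 1; group⟩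
    | inv a _ ha => intro x hx; simpa using (ha x hx).symm
  -- the centre lies in H
  have hZH : Z ≤ H := by
    haveI : Z.Normal := hn
    have hNn : (H ⊔ Z).Normal := by
      refine ⟨fun x hx g => ?_⟩
      have hxm : x ∈ Subgroup.closure (K ∪ (Z : Set G)) := by rwa [Subgroup.closure_union, Subgroup.closure_eq]
      clear hx
      induction hxm using Subgroup.closure_induction with
      | mem y hy =>
        rcases hy with hy | hy
        · obtain ⟨k, hk, hkk⟩ := hsurj _ (hconjD g y (hKD y hy))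
          have hz : (g * y * g⁻¹) * k⁻¹ ∈ Z := by
            rw [← QuotientGroup.eq_one_iff]
            show π _ = 1
            rw [map_mul, map_inv, hkk, mul_inv_cancel]
          rw [show g * y * g⁻¹ = (g * y * g⁻¹ * k⁻¹) * k by group]
          exact mul_mem (Subgroup.mem_sup_right hz) (Subgroup.mem_sup_left (Subgroup.subset_closure hk))
        · exact Subgroup.mem_sup_right (hn.conj_mem y hy g)
      | one => simp
      | mul a b _ _ ha hb => rw [show g * (a * b) * g⁻¹ = g * a * g⁻¹ * (g * b * g⁻¹) by group]; exact mul_mem ha hb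
      | inv a _ ha => rw [show g * a⁻¹ * g⁻¹ = (g * a * g⁻¹)⁻¹ by group]; exact inv_mem ha
    haveI := hL.2
    haveI : ((H ⊔ Z).subgroupOf L).Normal := Subgroup.Normal.comap hNn L.subtype
    have hm : (((H ⊔ Z).subgroupOf L).map (QuotientGroup.mk' (Subgroup.center ↥L))).Normal :=
      Subgroup.Normal.map inferInstance _ (QuotientGroup.mk'_surjective _)
    have hcomm : commutator ↥L = ⊤ := hL.1.commutator_eq_top
    have hgen' : ∀ S : Subgroup ↥L, (∀ a b : ↥L, a * b * a⁻¹ * b⁻¹ ∈ S) → S = ⊤ := fun S h => by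
      rw [eq_top_iff, ← hcomm, commutator_def, Subgroup.commutator_le]
      intro a _ b _
      rw [commutatorElement_def]; exact h a b
    rcases hm.eq_bot_or_eq_top with hb | ht
    · have hc : ∀ l : ↥L, d * l * d⁻¹ * (l : G)⁻¹ ∈ Z := by
        intro l
        have hl : d * l * d⁻¹ * (l : G)⁻¹ ∈ L :=
          mul_mem ((inferInstance : L.Normal).conj_mem _ l.2 d) (inv_mem l.2)
        have hl2 : d * l * d⁻¹ * (l : G)⁻¹ ∈ H ⊔ Z := by
          have hd' : d ∈ H ⊔ Z := Subgroup.mem_sup_left (Subgroup.subset_closure Relation.ReflTransGen.refl)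
          rw [show d * l * d⁻¹ * (l : G)⁻¹ = d * ((l : G) * d⁻¹ * (l : G)⁻¹) by group]
          exact mul_mem hd' (hNn.conj_mem _ (inv_mem hd') _)
        have : (⟨_, hl⟩ : ↥L) ∈ Subgroup.center ↥L := by
          rw [← QuotientGroup.eq_one_iff]
          exact Subgroup.mem_bot.1 (hb ▸ Subgroup.mem_map_of_mem _ (show (⟨_, hl⟩ : ↥L) ∈ (H ⊔ Z).subgroupOf L from hl2))
        exact ⟨_, this, rfl⟩
      have hfix : ((Subgroup.centralizer ({d} : Set G)).subgroupOf L) = ⊤ := hgen' _ fun a b => by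
        rw [Subgroup.mem_subgroupOf, Subgroup.mem_centralizer_singleton_iff]
        set u := d * a * d⁻¹ * (a : G)⁻¹ with hu
        set v := d * b * d⁻¹ * (b : G)⁻¹ with hv
        have hu' := hZL u (hc a); have hv' := hZL v (hc b)
        have ea : d * a * d⁻¹ = u * a := by rw [hu]; group
        have eb : d * b * d⁻¹ = v * b := by rw [hv]; group
        have : d * ((a : G) * b * (a : G)⁻¹ * (b : G)⁻¹) * d⁻¹ = (a : G) * b * (a : G)⁻¹ * (b : G)⁻¹ := by
          calc _ = (d * a * d⁻¹) * (d * b * d⁻¹) * (d * a * d⁻¹)⁻¹ * (d * b * d⁻¹)⁻¹ := by group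
            _ = u * a * (v * b) * (u * a)⁻¹ * (v * b)⁻¹ := by rw [ea, eb]
            _ = u * ((a : G) * v) * b * (a : G)⁻¹ * u⁻¹ * (b : G)⁻¹ * v⁻¹ := by group
            _ = u * v * ((a : G) * b * (a : G)⁻¹) * u⁻¹ * ((b : G)⁻¹ * v⁻¹) := by rw [← hv'.2 a a.2]; group
            _ = u * v * (u⁻¹ * ((a : G) * b * (a : G)⁻¹ * (b : G)⁻¹)) * v⁻¹ := by
                have h1 : u⁻¹ * ((a : G) * b * (a : G)⁻¹) = (a : G) * b * (a : G)⁻¹ * u⁻¹ :=
                  (Commute.inv_left (hu'.2 _ (mul_mem (mul_mem a.2 b.2) (inv_mem a.2)))).eq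
                rw [← mul_assoc u⁻¹, h1]; group
            _ = u * v * u⁻¹ * (v⁻¹ * ((a : G) * b * (a : G)⁻¹ * (b : G)⁻¹)) := by
                have h1 : v⁻¹ * ((a : G) * b * (a : G)⁻¹ * (b : G)⁻¹) = (a : G) * b * (a : G)⁻¹ * (b : G)⁻¹ * v⁻¹ :=
                  (Commute.inv_left (hv'.2 _ (mul_mem (mul_mem (mul_mem a.2 b.2) (inv_mem a.2)) (inv_mem b.2)))).eq
                rw [h1]; group
            _ = _ := by
                rw [show u * v = v * u from hu'.2 v hv'.1]; group
        simp only [Subgroup.coe_mul, Subgroup.coe_inv]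
        exact (mul_inv_eq_iff_eq_mul.1 this).symm
      intro z hz
      have h1 : (⟨z, (hZL z hz).1⟩ : ↥L) ∈ (Subgroup.centralizer ({d} : Set G)).subgroupOf L := hfix ▸ Subgroup.mem_top _
      have h2 := hinv z hz
      rw [Subgroup.mem_subgroupOf, Subgroup.mem_centralizer_singleton_iff] at h1
      rw [show d * z = z * d from h1.symm, mul_inv_cancel_right] at h2
      obtain ⟨m, hm⟩ := hodd
      have hz2 : z * z = 1 := by nth_rewrite 1 [h2]; exact inv_mul_cancel z
      have h3 : z ^ (2 * m + 1) = 1 := by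
        rw [← hm, show Nat.card ↥(Subgroup.center ↥L) = Nat.card ↥Z from
          Nat.card_congr ((Subgroup.center ↥L).equivMapOfInjective L.subtype Subtype.val_injective).toEquiv]
        exact congrArg Subtype.val (pow_card_eq_one' (x := (⟨z, hz⟩ : ↥Z)))
      rw [pow_succ, pow_mul, pow_two, hz2, one_pow, one_mul] at h3
      rw [h3]; exact one_mem _
    · have hLH : H.subgroupOf L = ⊤ := hgen' _ fun a b => by
        have key : ∀ l : ↥L, ∃ h : G, h ∈ H ∧ h ∈ L ∧ ∃ z ∈ Z, (l : G) = h * z := by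
          intro l
          obtain ⟨m, hm, e⟩ := (ht ▸ Subgroup.mem_top _ : (l : ↥L ⧸ Subgroup.center ↥L) ∈ ((H ⊔ Z).subgroupOf L).map (QuotientGroup.mk' (Subgroup.center ↥L)))
          have hc : m⁻¹ * l ∈ Subgroup.center ↥L := (QuotientGroup.eq).1 e
          obtain ⟨h, hh, z, hz, e'⟩ := Subgroup.mem_sup_of_normal_right.1 (show (m : G) ∈ H ⊔ Z from hm)
          refine ⟨h, hh, ?_, z * ((m⁻¹ * l : ↥L) : G), mul_mem hz ⟨_, hc, rfl⟩, ?_⟩
          · have := mul_mem m.2 (inv_mem (hZL z hz).1)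
            rwa [← e', mul_inv_cancel_right] at this
          · rw [← mul_assoc, e']; simp
        obtain ⟨h, hh, hhL, z, hz, ea⟩ := key a
        obtain ⟨k, hk, hkL, w, hw, eb⟩ := key b
        rw [Subgroup.mem_subgroupOf]
        simp only [Subgroup.coe_mul, Subgroup.coe_inv, ea, eb]
        have c1 : z * (k * w) = k * w * z := (hZL z hz).2 _ (mul_mem hkL (hZL w hw).1)
        have c2 : w * h⁻¹ = h⁻¹ * w := (hZL w hw).2 _ (inv_mem hhL)
        have : h * z * (k * w) * (h * z)⁻¹ * (k * w)⁻¹ = h * k * h⁻¹ * k⁻¹ := by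
          calc _ = h * (z * (k * w)) * z⁻¹ * h⁻¹ * (k * w)⁻¹ := by group
            _ = h * (k * w * z) * z⁻¹ * h⁻¹ * (k * w)⁻¹ := by rw [c1]
            _ = h * k * (w * h⁻¹) * w⁻¹ * k⁻¹ := by group
            _ = h * k * (h⁻¹ * w) * w⁻¹ * k⁻¹ := by rw [c2]
            _ = _ := by group
        rw [this]
        exact mul_mem (mul_mem (mul_mem hh hk) (inv_mem hh)) (inv_mem hk)
      intro z hz
      exact (hLH ▸ Subgroup.mem_top (⟨z, (hZL z hz).1⟩ : ↥L) : (⟨z, (hZL z hz).1⟩ : ↥L) ∈ H.subgroupOf L)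
  have hall : ∀ y ∈ D, y ∈ K := by
    intro y hy
    obtain ⟨k, hk, e⟩ := hsurj y hy
    have hz : y * k⁻¹ ∈ Z := by
      rw [← QuotientGroup.eq_one_iff]; show π _ = 1; rw [map_mul, map_inv, e, mul_inv_cancel]
    obtain ⟨w, hw, hww⟩ := hhalf _ hz
    have := (hstab w (hZH hw) k hk).1
    convert this using 1
    have h1 := hxinv k (hKD k hk) w hw
    calc y = w * w * k := by rw [hww]; group
      _ = w * (k * w * k⁻¹)⁻¹ * k := by rw [h1, inv_inv]
      _ = w * k * w⁻¹ := by group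
  haveI : Nonempty D := ⟨⟨d, hdD⟩⟩
  refine SimpleGraph.Connected.mk fun a b => ?_
  suffices ∀ x, Relation.ReflTransGen R d x → ∀ hx : x ∈ D, (Cfsg.commutingGraph D).Reachable ⟨d, hdD⟩ ⟨x, hx⟩ from
    ((this a.1 (hall a.1 a.2) a.2).symm).trans (this b.1 (hall b.1 b.2) b.2)
  intro x hx
  induction hx with
  | refl => intro _; exact SimpleGraph.Reachable.refl _
  | @tail p q _ hpq ih =>
    intro hq
    refine (ih hpq.1).trans ?_
    by_cases he : p = q
    · subst he; exact SimpleGraph.Reachable.refl _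
    · exact SimpleGraph.Adj.reachable ((SimpleGraph.fromRel_adj _ _ _).2 ⟨fun e => he (congrArg Subtype.val e), Or.inl hpq.2.2⟩)

end Cfsg.Agent.S5459
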