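import Cfsg.Statements.S5462
import Cfsg.Agent.Lib.Involution.FischerAutFixed

set_option autoImplicit false
open Cfsg

namespace Cfsg.Agent.S5462

/-- Let G be a finite group with trivial centre generated by a conjugation-invariant set D of 3-transpositions on which it acts primitively, such that for some d in D the subgroup generated by the members of D other than d commuting with d has central largest normal 2- and 3-subgroups, and suppose G with D is of type M(22). Then every automorphism of G of order 2 fixes some member of D. -/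
theorem result {G : Type*} [Group G] [Finite G] {D : Set G} (hD : Cfsg.IsThreeTranspositionGroup D) (hprim : Cfsg.IsPrimitiveUnderConj D) (d₀ : G) (hd₀ : d₀ ∈ D) (h3 : Cfsg.pCore 3 ↥(Subgroup.closure {y : G | y ∈ D ∧ y ≠ d₀ ∧ Commute d₀ y}) ≤ Subgroup.center ↥(Subgroup.closure {y : G | y ∈ D ∧ y ≠ d₀ ∧ Commute d₀ y})) (h2 : Cfsg.pCore 2 ↥(Subgroup.closure {y : G | y ∈ D ∧ y ≠ d₀ ∧ Commute d₀ y}) ≤ Subgroup.center ↥(Subgroup.closure {y : G | y ∈ D ∧ y ≠ d₀ ∧ Commute d₀ y})) (h22 : Cfsg.IsOfTypeM22 G D) (φ : MulAut G) (hφ : orderOf φ = 2) : ∃ d ∈ D, φ d = d := by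
  exact Cfsg.Agent.Lib.Involution.FischerTwentyTwo.aut_fixes ⟨hD, hprim, h22⟩ φ hφ

end Cfsg.Agent.S5462
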