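import Cfsg.Statements.S5468
import Cfsg.Agent.Lib.Involution.FischerPairsM23

set_option autoImplicit false
open Cfsg

namespace Cfsg.Agent.S5468

/-- Let G be a finite group with trivial centre generated by a conjugation-invariant set D of 3-transpositions on which it acts primitively, such that for some d in D the subgroup generated by the members of D other than d commuting with d has central largest normal 2- and 3-subgroups, and suppose G with D is of type M(23). Let d₁, d₂ be distinct commuting members of D, j = d₁ d₂, K the joint centralizer of d₁ and d₂ and C the centralizer of j. Then K has index 2 in C, the centre of K is the subgroup generated by d₁ and d₂, K is quasisimple with K modulo its centre isomorphic to the projective special unitary group of dimension 6 over the field with four elements, and C modulo the subgroup generated by d₁ and d₂ has trivial centre (so it is that unitary group extended by an outer involution). -/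
theorem result {G : Type*} [Group G] [Finite G] {D : Set G} (hD : Cfsg.IsThreeTranspositionGroup D) (hprim : Cfsg.IsPrimitiveUnderConj D) (d₀ : G) (hd₀ : d₀ ∈ D) (h3 : Cfsg.pCore 3 ↥(Subgroup.closure {y : G | y ∈ D ∧ y ≠ d₀ ∧ Commute d₀ y}) ≤ Subgroup.center ↥(Subgroup.closure {y : G | y ∈ D ∧ y ≠ d₀ ∧ Commute d₀ y})) (h2 : Cfsg.pCore 2 ↥(Subgroup.closure {y : G | y ∈ D ∧ y ≠ d₀ ∧ Commute d₀ y}) ≤ Subgroup.center ↥(Subgroup.closure {y : G | y ∈ D ∧ y ≠ d₀ ∧ Commute d₀ y})) (h23 : Cfsg.IsOfTypeM23 G D) (d₁ d₂ : G) (h₁ : d₁ ∈ D) (h₂ : d₂ ∈ D) (hne : d₁ ≠ d₂) (hc : Commute d₁ d₂) (K C V : Subgroup G) (hK : K = Subgroup.centralizer ({d₁, d₂} : Set G)) (hC : C = Subgroup.centralizer ({d₁ * d₂} : Set G)) (hV : V = Subgroup.closure ({d₁, d₂} : Set G)) [hn : (V.subgroupOf C).Normal] : K ≤ C ∧ (K.subgroupOf C).index = 2 ∧ (Subgroup.center ↥K).map K.subtype = V ∧ Cfsg.IsQuasisimple ↥K ∧ (∃ (F : Type) (_ : Field F) (_ : Fintype F), Fintype.card F = 4 ∧ Nonempty (↥K ⧸ Subgroup.center ↥K ≃* Cfsg.PSU 6 F 2)) ∧ Subgroup.center (↥C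 ⧸ V.subgroupOf C) = ⊥ := by
  exact Cfsg.Agent.Lib.Involution.FischerTwentyThree.pair_centralizer ⟨hD, hprim, h23⟩ h₁ h₂ hne hc K C V hK hC hV

end Cfsg.Agent.S5468
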