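import Cfsg.Statements.S5471
import Cfsg.Agent.S5464

set_option autoImplicit false
open Cfsg

namespace Cfsg.Agent.S5471

open Cfsg.Agent.Lib.ThreeTransp Cfsg.Agent.Lib.Involution.FischerLocal Cfsg.Agent.Lib.Involution.FischerRel

section
variable {G : Type*} [Group G] {D : Set G}

theorem near (hT : IsThreeTranspositionSet D) (hc : ∀ g : G, ∀ d ∈ D, g * d * g⁻¹ ∈ D) {w u v : G}
    (hu : u ∈ D ∧ u ≠ w ∧ Commute w u) (h : Reach D w u v) :
    v = u ∨ Adj D w u v ∨ ∃ e, Adj D w u e ∧ Adj D w e v := by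
  induction h with
  | refl => exact Or.inl rfl
  | @tail v t hv hvt ih =>
    rcases ih with rfl | h1 | ⟨e, hue, hev⟩
    · exact Or.inr (Or.inl hvt)
    · exact Or.inr (Or.inr ⟨v, h1, hvt⟩)
    by_cases h1 : Commute u v
    swap; · exact Or.inr (Or.inr ⟨v, ⟨hu, hev.2.1, h1⟩, hvt⟩)
    by_cases h2 : Commute e t
    swap; · exact Or.inr (Or.inr ⟨e, hue, ⟨hue.2.1, hvt.2.1, h2⟩⟩)
    have ee := Lib.ThreeTransp.mul_self (hT.1 e hue.2.1.1)
    have uu := Lib.ThreeTransp.mul_self (hT.1 u hu.1)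
    have hfu : ¬ Commute (e * v * e) u := by
      intro h3
      have h4 := (cjc ee).1 h3
      rw [braid_of_not_commute hT hue.2.1.1 hu.1 (fun x => hue.2.2 x.symm)] at h4
      have h5 := (cjc uu).2 h4
      rw [fix uu h1] at h5
      exact hev.2.2 h5.symm
    have hft : ¬ Commute (e * v * e) t := by
      intro h3
      have h4 := (cjc ee).1 h3
      rw [fix ee h2] at h4
      exact hvt.2.2 h4
    have hf : e * v * e ∈ D ∧ e * v * e ≠ w ∧ Commute w (e * v * e) :=
      ⟨conj2_mem hT hc hue.2.1.1 hev.2.1.1, fun h3 => hfu (h3.symm ▸ hu.2.2),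
        (hue.2.1.2.2.mul_right hev.2.1.2.2).mul_right hue.2.1.2.2⟩
    exact Or.inr (Or.inr ⟨e * v * e, ⟨hu, hf, fun x => hfu x.symm⟩, ⟨hf, hvt.2.1, hft⟩⟩)

theorem swap_elem (hT : IsThreeTranspositionSet D) {u v e : G} (hu : u ∈ D) (hv : v ∈ D) (he : e ∈ D)
    (huv : Commute u v) (ue : ¬ Commute u e) (ev : ¬ Commute e v) :
    e * (u * v) * e * u * (e * (u * v) * e)⁻¹ = v := by
  have b1 := braid_of_not_commute hT he hu (fun x => ue x.symm)
  have b2 := braid_of_not_commute hT he hv ev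
  rw [mul_inv_rev, mul_inv_rev, mul_inv_rev, Lib.ThreeTransp.inv_eq (hT.1 e he), Lib.ThreeTransp.inv_eq (hT.1 u hu),
    Lib.ThreeTransp.inv_eq (hT.1 v hv)]
  calc e * (u * v) * e * u * (e * (v * u * e)) = e * (u * v) * (e * u * e) * (v * u) * e := by group
    _ = e * (v * u) * (u * e * u) * (u * v) * e := by rw [b1, huv.eq]
    _ = (e * v) * (u * u) * e * (u * u) * v * e := by group
    _ = (e * v * e) * v * e := by simp only [Lib.ThreeTransp.mul_self (hT.1 u hu), mul_one]
    _ = v * e * (v * v) * e := by rw [b2]; group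
    _ = v := by rw [Lib.ThreeTransp.mul_self (hT.1 v hv), mul_one, mul_assoc, Lib.ThreeTransp.mul_self (hT.1 e he), mul_one]

end
/-- Let G be a finite group with trivial centre generated by a conjugation-invariant set D of 3-transpositions on which it acts primitively, such that for some d in D the subgroup generated by the members of D other than d commuting with d has central largest normal 2- and 3-subgroups, and suppose G with D is of type M(23). Let d₁, d₂, d₃ be distinct pairwise commuting members of D and j their product. Then the joint centralizer of d₁, d₂, d₃ is normal in the centralizer of j with quotient isomorphic to the symmetric group of degree 3. -/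
theorem result {G : Type*} [Group G] [Finite G] {D : Set G} (hD : Cfsg.IsThreeTranspositionGroup D) (hprim : Cfsg.IsPrimitiveUnderConj D) (d₀ : G) (hd₀ : d₀ ∈ D) (h3 : Cfsg.pCore 3 ↥(Subgroup.closure {y : G | y ∈ D ∧ y ≠ d₀ ∧ Commute d₀ y}) ≤ Subgroup.center ↥(Subgroup.closure {y : G | y ∈ D ∧ y ≠ d₀ ∧ Commute d₀ y})) (h2 : Cfsg.pCore 2 ↥(Subgroup.closure {y : G | y ∈ D ∧ y ≠ d₀ ∧ Commute d₀ y}) ≤ Subgroup.center ↥(Subgroup.closure {y : G | y ∈ D ∧ y ≠ d₀ ∧ Commute d₀ y})) (h23 : Cfsg.IsOfTypeM23 G D) (d₁ d₂ d₃ : G) (h₁ : d₁ ∈ D) (h₂ : d₂ ∈ D) (h₃ : d₃ ∈ D) (h12 : d₁ ≠ d₂) (h13 : d₁ ≠ d₃) (h23 : d₂ ≠ d₃) (c12 : Commute d₁ d₂) (c13 : Commute d₁ d₃) (c23 : Commute d₂ d₃) (K C : Subgroup G) (hK : K = Subgroup.centralizer ({d₁, d₂, d₃} : Set G)) (hC : C = Subgroup.centralizer ({d₁ * d₂ * d₃} : Set G)) : K ≤ C ∧ ∃ _ : (K.subgroupOf C).Normal, Nonempty (↥C ⧸ K.subgroupOf C ≃* Equiv.Perm (Fin 3)) := by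
  classical
  have hM := ‹Cfsg.IsOfTypeM23 G D›
  have hdet := fun (l l' : List G) (j : G) => Cfsg.Agent.S5464.result hD hprim d₀ hd₀ h3 h2 (Or.inl hM) 3 le_rfl j l l'
  obtain ⟨hT, hc, hgen⟩ := hD
  obtain ⟨hconj, -, hblock⟩ := hprim
  have hZ : Subgroup.center G = ⊥ := hM.1
  have hcore := (cores_central hT hc hgen hconj hblock h₁ h₂ h12 c12).1
  rw [hZ, le_bot_iff] at hcore
  have htw : TwinFree D := fun a ha b hb hab => by
    have := same_mul_mem_pCore hT hc ha hb hab
    rw [hcore, Subgroup.mem_bot] at this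
    rw [eq_inv_of_mul_eq_one_left this, Lib.ThreeTransp.inv_eq (hT.1 b hb)]
  have hconn := connected_of_primitive hc hconj hblock h₁ h₂ h12 c12
  set d : Fin 3 → G := ![d₁, d₂, d₃] with hd
  have hdm : ∀ i, d i ∈ D := by intro i; fin_cases i <;> assumption
  have hdi : Function.Injective d := by
    intro i k e
    fin_cases i <;> fin_cases k <;> first | rfl | exact absurd e h12 | exact absurd e h13 | exact absurd e h23 | exact absurd e h12.symm | exact absurd e h13.symm | exact absurd e h23.symm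
  have hdc : ∀ i k, Commute (d i) (d k) := by
    intro i k
    fin_cases i <;> fin_cases k <;> first | exact Commute.refl _ | assumption | exact c12.symm | exact c13.symm | exact c23.symm
  have hswap : ∀ i k l : Fin 3, i ≠ k → i ≠ l → k ≠ l →
      ∃ g, g * d i * g⁻¹ = d k ∧ g * d k * g⁻¹ = d i ∧ g * d l * g⁻¹ = d l := by
    intro i k l hik hil hkl
    have hu : d i ∈ D ∧ d i ≠ d l ∧ Commute (d l) (d i) := ⟨hdm i, fun e => hil (hdi e), hdc l i⟩
    have hv : d k ∈ D ∧ d k ≠ d l ∧ Commute (d l) (d k) := ⟨hdm k, fun e => hkl (hdi e), hdc l k⟩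
    rcases near hT hc hu (reach_of_mem hT hc hgen hconj
      (fun e he H hH hle z hz hzH hn => dsubgroup_maximal hT hc hgen hconj hblock hconn he hH hle hz hzH hn)
      htw hZ (hdm l) hu hv) with h | h | ⟨e, h1, h2'⟩
    · exact absurd (hdi h).symm hik
    · exact absurd (hdc i k) h.2.2
    refine ⟨e * (d i * d k) * e, swap_elem hT (hdm i) (hdm k) h1.2.1.1 (hdc i k) h1.2.2 h2'.2.2, ?_, ?_⟩
    · rw [(hdc i k).eq]
      exact swap_elem hT (hdm k) (hdm i) h1.2.1.1 (hdc k i) (fun x => h2'.2.2 x.symm) (fun x => h1.2.2 x.symm)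
    · have : Commute (d l) (e * (d i * d k) * e) :=
        (h1.2.1.2.2.mul_right (hu.2.2.mul_right hv.2.2)).mul_right h1.2.1.2.2
      rw [← this.eq, mul_inv_cancel_right]
  have hKmem : ∀ g, g ∈ K ↔ ∀ i, g * d i * g⁻¹ = d i := by
    intro g
    rw [hK, Subgroup.mem_centralizer_iff]
    constructor
    · intro h i
      have h' := h (d i) (by fin_cases i <;> simp [hd])
      rw [← h', mul_inv_cancel_right]
    · intro h x hx
      simp only [Set.mem_insert_iff, Set.mem_singleton_iff] at hx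
      rcases hx with rfl | rfl | rfl
      · exact (mul_inv_eq_iff_eq_mul.1 (h 0)).symm
      · exact (mul_inv_eq_iff_eq_mul.1 (h 1)).symm
      · exact (mul_inv_eq_iff_eq_mul.1 (h 2)).symm
  have hKC : K ≤ C := by
    intro g hg
    rw [hC, Subgroup.mem_centralizer_singleton_iff]
    rw [hK, Subgroup.mem_centralizer_iff] at hg
    have k : ∀ x ∈ ({d₁, d₂, d₃} : Set G), Commute g x := fun x hx => (hg x hx).symm
    exact ((k d₁ (by simp)).mul_right (k d₂ (by simp))).mul_right (k d₃ (by simp))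
  have hperm : ∀ c : ↥C, ∃ σ : Equiv.Perm (Fin 3), ∀ i, (c : G) * d i * (c : G)⁻¹ = d (σ i) := by
    rintro ⟨c, hcC⟩
    rw [hC, Subgroup.mem_centralizer_singleton_iff] at hcC
    have key := hdet [c * d 0 * c⁻¹, c * d 1 * c⁻¹, c * d 2 * c⁻¹] [d 0, d 1, d 2] (d₁ * d₂ * d₃)
      ⟨by simp only [List.nodup_cons, List.mem_cons, List.not_mem_nil, or_false, mul_left_inj, mul_right_inj,
            hdi.eq_iff, List.nodup_nil, and_true, not_false_eq_true]; decide, rfl,
        by simp only [List.mem_cons, List.not_mem_nil, or_false, forall_eq_or_imp, forall_eq];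
           exact ⟨hc _ _ (hdm 0), hc _ _ (hdm 1), hc _ _ (hdm 2)⟩,
        by simp only [List.mem_cons, List.not_mem_nil, or_false, forall_eq_or_imp, forall_eq];
           simp only [commute_conj_iff]
           exact ⟨⟨hdc _ _, hdc _ _, hdc _ _⟩, ⟨hdc _ _, hdc _ _, hdc _ _⟩, hdc _ _, hdc _ _, hdc _ _⟩,
        by
          simp only [List.prod_cons, List.prod_nil, mul_one, hd]
          calc c * d₁ * c⁻¹ * (c * d₂ * c⁻¹ * (c * d₃ * c⁻¹)) = c * (d₁ * d₂ * d₃) * c⁻¹ := by group
            _ = _ := by rw [hcC, mul_inv_cancel_right]⟩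
      ⟨by simp only [List.nodup_cons, List.mem_cons, List.not_mem_nil, or_false,
            hdi.eq_iff, List.nodup_nil, and_true, not_false_eq_true]; decide, rfl,
        by simp only [List.mem_cons, List.not_mem_nil, or_false, forall_eq_or_imp, forall_eq];
           exact ⟨hdm 0, hdm 1, hdm 2⟩,
        by simp only [List.mem_cons, List.not_mem_nil, or_false, forall_eq_or_imp, forall_eq];
           exact ⟨⟨hdc _ _, hdc _ _, hdc _ _⟩, ⟨hdc _ _, hdc _ _, hdc _ _⟩, hdc _ _, hdc _ _, hdc _ _⟩,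
        by simp [hd, mul_assoc]⟩
    have hex : ∀ i, ∃ k, c * d i * c⁻¹ = d k := by
      intro i
      have h1 := (key (c * d i * c⁻¹)).1 (by fin_cases i <;> simp)
      simp only [List.mem_cons, List.not_mem_nil, or_false] at h1
      rcases h1 with h | h | h
      exacts [⟨0, h⟩, ⟨1, h⟩, ⟨2, h⟩]
    choose f hf using hex
    have hfi : Function.Injective f := fun a b e => hdi (by
      have := (hf a).trans (e ▸ (hf b).symm)
      simpa using this)
    exact ⟨Equiv.ofBijective f (Finite.injective_iff_bijective.1 hfi), hf⟩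
  choose σ hσ using hperm
  have huniq : ∀ (c : ↥C) (τ : Equiv.Perm (Fin 3)), (∀ i, (c : G) * d i * (c : G)⁻¹ = d (τ i)) → σ c = τ :=
    fun c τ h => Equiv.ext fun i => hdi ((hσ c i).symm.trans (h i))
  let φ : ↥C →* Equiv.Perm (Fin 3) := MonoidHom.mk' σ fun a b => huniq _ _ fun i => by
    rw [Equiv.Perm.mul_apply, ← hσ a, ← hσ b, Subgroup.coe_mul]; group
  have hker : φ.ker = K.subgroupOf C := by
    ext c
    rw [MonoidHom.mem_ker, Subgroup.mem_subgroupOf, hKmem]
    constructor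
    · intro h i
      rw [hσ c i, show σ c = 1 from h, Equiv.Perm.one_apply]
    · exact fun h => huniq c 1 h
  have hsurj : Function.Surjective φ := by
    rw [← MonoidHom.range_eq_top, eq_top_iff, ← Equiv.Perm.closure_isSwap, Subgroup.closure_le]
    rintro _ ⟨i, k, hik, rfl⟩
    obtain ⟨l, hil, hkl⟩ : ∃ l : Fin 3, i ≠ l ∧ k ≠ l := (by decide : ∀ i k : Fin 3, ∃ l, i ≠ l ∧ k ≠ l) i k
    obtain ⟨g, g1, g2, g3⟩ := hswap i k l hik hil hkl
    have hall : ∀ n, g * d n * g⁻¹ = d (Equiv.swap i k n) := by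
      intro n
      rcases (by decide : ∀ i k l n : Fin 3, i ≠ k → i ≠ l → k ≠ l → n = i ∨ n = k ∨ n = l) i k l n hik hil hkl with
        rfl | rfl | rfl
      · rw [Equiv.swap_apply_left]; exact g1
      · rw [Equiv.swap_apply_right]; exact g2
      · rw [Equiv.swap_apply_of_ne_of_ne hil.symm hkl.symm]; exact g3
    have hgC : g ∈ C := by
      rw [hC, Subgroup.mem_centralizer_singleton_iff]
      refine mul_inv_eq_iff_eq_mul.1 ?_
      rw [show g * (d₁ * d₂ * d₃) * g⁻¹ = (g * d 0 * g⁻¹) * (g * d 1 * g⁻¹) * (g * d 2 * g⁻¹) by simp [hd, mul_assoc],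
        hall, hall, hall]
      have hp := (((by decide : ∀ i k : Fin 3, List.Perm [Equiv.swap i k 0, Equiv.swap i k 1, Equiv.swap i k 2] [0, 1, 2])
        i k).map d).prod_eq' (List.pairwise_of_forall_mem_list fun a ha b hb => by
          obtain ⟨a', -, rfl⟩ := List.mem_map.1 ha
          obtain ⟨b', -, rfl⟩ := List.mem_map.1 hb
          exact hdc a' b')
      simpa [hd, mul_assoc] using hp
    exact ⟨⟨g, hgC⟩, huniq _ _ hall⟩
  haveI hn : (K.subgroupOf C).Normal := hker ▸ φ.normal_ker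
  exact ⟨hKC, hn, ⟨(QuotientGroup.quotientMulEquivOfEq hker.symm).trans
    (QuotientGroup.quotientKerEquivOfSurjective φ hsurj)⟩⟩

end Cfsg.Agent.S5471
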