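import Cfsg.Statements.S5519
import Cfsg.Agent.Lib.Involution.FischerPairFitting
import Cfsg.Agent.Lib.Involution.UnitaryOrthogonalSix
import Cfsg.Agent.Lib.LargeExtra.Centralizer

set_option autoImplicit false
open Cfsg

namespace Cfsg.Agent.S5519

/-- Let G be a finite group with trivial centre generated by a conjugation-invariant set D of 3-transpositions on which it acts primitively, such that for some d in D the subgroup generated by the members of D other than d commuting with d has central largest normal 2- and 3-subgroups, and suppose G with D is of type M(22). Let d₁, d₂ be distinct commuting members of D and C the centralizer of their product. Then the generalized Fitting subgroup of C is the direct product of a group of order 2 and an extraspecial 2-group of order 2^9, and C modulo it is isomorphic to the full isometry group of the elliptic quadratic form in dimension 6 over the field with two elements. -/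
theorem result {G : Type*} [Group G] [Finite G] {D : Set G} (hD : Cfsg.IsThreeTranspositionGroup D) (hprim : Cfsg.IsPrimitiveUnderConj D) (d₀ : G) (hd₀ : d₀ ∈ D) (h3 : Cfsg.pCore 3 ↥(Subgroup.closure {y : G | y ∈ D ∧ y ≠ d₀ ∧ Commute d₀ y}) ≤ Subgroup.center ↥(Subgroup.closure {y : G | y ∈ D ∧ y ≠ d₀ ∧ Commute d₀ y})) (h2 : Cfsg.pCore 2 ↥(Subgroup.closure {y : G | y ∈ D ∧ y ≠ d₀ ∧ Commute d₀ y}) ≤ Subgroup.center ↥(Subgroup.closure {y : G | y ∈ D ∧ y ≠ d₀ ∧ Commute d₀ y})) (h22 : Cfsg.IsOfTypeM22 G D) (d₁ d₂ : G) (h₁ : d₁ ∈ D) (h₂ : d₂ ∈ D) (hne : d₁ ≠ d₂) (hc : Commute d₁ d₂) (C : Subgroup G) (hC : C = Subgroup.centralizer ({d₁ * d₂} : Set G)) [hn : (Cfsg.generalizedFittingSubgroup ↥C).Normal] : (∃ (E : Type) (_ : Group E) (_ : Finite E), Cfsg.IsExtraspecial 2 E ∧ Nat.card E = 2 ^ 9 ∧ Nonempty (↥(Cfsg.generalizedFittingSubgroup ↥C) ≃* Multiplicative (ZMod 2) × E)) ∧ Nonempty (↥C ⧸ Cfsg.generalizedFittingSubgroup ↥C ≃* Cfsg.isometryGroup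 (ZMod 2) (Cfsg.quadFormMinus 2 (ZMod 2) 1 1)) := by
  subst hC
  have M : Cfsg.Agent.Lib.Involution.FischerTwentyTwo.Hyp D := ⟨hD, hprim, h22⟩
  have he : d₂ ∈ Cfsg.Agent.Lib.Involution.FischerTwentyTwo.Nb D d₁ := ⟨h₂, hne.symm, hc⟩
  obtain ⟨E, hEC, hgfs, ⟨M₀, hM₀, hcard, ⟨e₁⟩⟩, hnorm, F, fF, fT, hF, ⟨e₂⟩⟩ :=
    Cfsg.Agent.Lib.Involution.FischerTwentyTwo.pair_fitting M h₁ he
  obtain ⟨e₃⟩ := Cfsg.Agent.Lib.Involution.FischerTwentyTwo.mulAut_psu_equiv_osix hF
  obtain ⟨ρ⟩ : Nonempty (↥M₀ ≃* Shrink.{0} ↥M₀) := ⟨(Shrink.mulEquiv).symm⟩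
  refine ⟨⟨Shrink.{0} ↥M₀, inferInstance, inferInstance, ?_, ?_, ⟨?_⟩⟩, ⟨?_⟩⟩
  · exact Cfsg.Agent.Lib.LargeExtra.isExtraspecial_equiv ρ hM₀
  · rw [← hcard]; exact (Nat.card_congr ρ.toEquiv).symm
  · exact ((MulEquiv.subgroupCongr hgfs).trans (Subgroup.subgroupOfEquivOfLe hEC)).trans
      (e₁.trans (MulEquiv.prodCongr (MulEquiv.refl _) ρ))
  · haveI := hnorm
    exact (QuotientGroup.quotientMulEquivOfEq hgfs).trans (e₂.trans e₃)

end Cfsg.Agent.S5519
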