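import Cfsg.Statements.S5541
-- import your own Cfsg.Agent.* helpers here

set_option autoImplicit false
open Cfsg

namespace Cfsg.Agent.S5541

/-- Let ρ be a representation of a group H on a finite-dimensional real vector space U whose only ρ-invariant subspaces are the zero subspace and U, and suppose U carries a non-zero ρ-invariant symmetric bilinear form. Then the following are equivalent: (1) there is a non-zero ρ-equivariant commutative bilinear product on U of which every ρ-equivariant bilinear product is a scalar multiple; (2) there is a non-zero ρ-invariant trilinear form on U that is symmetric under all permutations of its arguments and of which every ρ-invariant trilinear form is a scalar multiple. -/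
theorem result {H : Type*} [Group H] {U : Type*} [AddCommGroup U] [Module ℝ U] [FiniteDimensional ℝ U] (ρ : Representation ℝ H U) (hirr : ∀ W : Submodule ℝ U, (∀ g : H, W.map (ρ g) ≤ W) → W = ⊥ ∨ W = ⊤) (B : LinearMap.BilinForm ℝ U) (hB0 : B ≠ 0) (hBs : ∀ u v, B u v = B v u) (hBi : ∀ (g : H) (u v : U), B (ρ g u) (ρ g v) = B u v) : (∃ m : U →ₗ[ℝ] U →ₗ[ℝ] U, m ≠ 0 ∧ (∀ u v, m u v = m v u) ∧ (∀ (g : H) (u v : U), m (ρ g u) (ρ g v) = ρ g (m u v)) ∧ ∀ m' : U →ₗ[ℝ] U →ₗ[ℝ] U, (∀ (g : H) (u v : U), m' (ρ g u) (ρ g v) = ρ g (m' u v)) → ∃ c : ℝ, m' = c • m) ↔ (∃ t : U →ₗ[ℝ] U →ₗ[ℝ] U →ₗ[ℝ] ℝ, t ≠ 0 ∧ (∀ u v w, t u v w = t v u w ∧ t u v w = t u w v) ∧ (∀ (g : H) (u v w : U), t (ρ g u) (ρ g v) (ρ g w) = t u v w) ∧ ∀ t' : U →ₗ[ℝ] U →ₗ[ℝ] U →ₗ[ℝ] ℝ, (∀ (g : H) (u v w : U), t' (ρ g u) (ρ g v) (ρ g w) = t' u v w) → ∃ c : ℝ, t' = c • t) := by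
  have hker : LinearMap.ker B = ⊥ := by
    refine (hirr _ fun g => ?_).resolve_right fun h => hB0 (LinearMap.ker_eq_top.mp h)
    rintro _ ⟨u, hu, rfl⟩
    have hu' : B u = 0 := hu
    show B (ρ g u) = 0
    ext v
    have := hBi g u (ρ g⁻¹ v)
    rw [← Module.End.mul_apply, ← map_mul, mul_inv_cancel, map_one, Module.End.one_apply, hu'] at this
    simpa using this
  have hnd : LinearMap.BilinForm.Nondegenerate B := by
    refine ⟨fun u hu => ?_, fun v hv => ?_⟩
    · have : u ∈ LinearMap.ker B := LinearMap.ext hu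
      rw [hker] at this; exact (Submodule.mem_bot ℝ).mp this
    · have : v ∈ LinearMap.ker B := LinearMap.ext (fun u => (hBs v u).trans (hv u))
      rw [hker] at this; exact (Submodule.mem_bot ℝ).mp this
  have hext : ∀ x y : U, (∀ w, B x w = B y w) → x = y := by
    intro x y h
    have : x - y ∈ LinearMap.ker B := by
      rw [LinearMap.mem_ker, map_sub, sub_eq_zero]
      exact LinearMap.ext h
    rw [hker, Submodule.mem_bot, sub_eq_zero] at this
    exact this
  let D := LinearMap.BilinForm.toDual B hnd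
  have hD : ∀ (f : U →ₗ[ℝ] ℝ) (w : U), B (D.symm f) w = f w := fun f w =>
    LinearMap.BilinForm.apply_toDual_symm_apply (hB := hnd) f w
  let toT : (U →ₗ[ℝ] U →ₗ[ℝ] U) → (U →ₗ[ℝ] U →ₗ[ℝ] U →ₗ[ℝ] ℝ) := fun m => m.compr₂ B
  let toM : (U →ₗ[ℝ] U →ₗ[ℝ] U →ₗ[ℝ] ℝ) → (U →ₗ[ℝ] U →ₗ[ℝ] U) := fun t => t.compr₂ D.symm.toLinearMap
  have hinvm : ∀ g : H, ∀ w : U, ρ g (ρ g⁻¹ w) = w := fun g w => by
    rw [← Module.End.mul_apply, ← map_mul, mul_inv_cancel, map_one, Module.End.one_apply]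
  have htoT : ∀ m : U →ₗ[ℝ] U →ₗ[ℝ] U, (∀ (g : H) (u v : U), m (ρ g u) (ρ g v) = ρ g (m u v)) →
      ∀ (g : H) (u v w : U), toT m (ρ g u) (ρ g v) (ρ g w) = toT m u v w := by
    intro m hm g u v w
    show B (m (ρ g u) (ρ g v)) (ρ g w) = B (m u v) w
    rw [hm, hBi]
  have htoM : ∀ t : U →ₗ[ℝ] U →ₗ[ℝ] U →ₗ[ℝ] ℝ, (∀ (g : H) (u v w : U), t (ρ g u) (ρ g v) (ρ g w) = t u v w) →
      ∀ (g : H) (u v : U), toM t (ρ g u) (ρ g v) = ρ g (toM t u v) := by
    intro t ht g u v
    refine hext _ _ fun w => ?_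
    conv_rhs => rw [← hinvm g w, hBi]
    show B (D.symm (t (ρ g u) (ρ g v))) w = B (D.symm (t u v)) (ρ g⁻¹ w)
    rw [hD, hD, ← ht g u v (ρ g⁻¹ w), hinvm]
  have hTM : ∀ t, toT (toM t) = t := fun t => by
    refine LinearMap.ext fun u => LinearMap.ext fun v => LinearMap.ext fun w => ?_
    exact hD (t u v) w
  have hMT : ∀ m, toM (toT m) = m := fun m => by
    refine LinearMap.ext fun u => LinearMap.ext fun v => ?_
    refine hext _ _ fun w => ?_
    exact hD (B (m u v)) w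
  constructor
  · rintro ⟨m, hm0, hms, hme, hmu⟩
    set t := toT m with ht
    have huniq : ∀ t' : U →ₗ[ℝ] U →ₗ[ℝ] U →ₗ[ℝ] ℝ,
        (∀ (g : H) (u v w : U), t' (ρ g u) (ρ g v) (ρ g w) = t' u v w) → ∃ c : ℝ, t' = c • t := by
      intro t' ht'
      obtain ⟨c, hc⟩ := hmu _ (htoM t' ht')
      refine ⟨c, ?_⟩
      rw [← hTM t', hc]
      exact LinearMap.ext fun u => LinearMap.ext fun v => LinearMap.ext fun w => by simp [toT, ht]
    have ht0 : t ≠ 0 := by
      intro h
      apply hm0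
      rw [← hMT m, ← ht, h]
      exact LinearMap.ext fun u => LinearMap.ext fun v => by simp [toM]
    have h12 : ∀ u v w, t u v w = t v u w := fun u v w => by
      show B (m u v) w = B (m v u) w
      rw [hms]
    obtain ⟨u₀, v₀, w₀, h0⟩ : ∃ u v w, t u v w ≠ 0 := by
      by_contra h
      push Not at h
      exact ht0 (LinearMap.ext fun u => LinearMap.ext fun v => LinearMap.ext fun w => by simp [h u v w])
    let s : U →ₗ[ℝ] U →ₗ[ℝ] U →ₗ[ℝ] ℝ := LinearMap.lflip.toLinearMap.comp t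
    have hs : ∀ u v w, s u v w = t u w v := fun u v w => rfl
    obtain ⟨c, hc⟩ := huniq s fun g u v w => by rw [hs, hs, ht, htoT m hme]
    have hc' : ∀ u v w, t u w v = c * t u v w := fun u v w => by
      rw [← hs, hc]; simp
    refine ⟨t, ht0, fun u v w => ⟨h12 u v w, ?_⟩, htoT m hme, huniq⟩
    have hcc : c * c = 1 := by
      have h1 := hc' u₀ w₀ v₀
      rw [hc' u₀ v₀ w₀, ← mul_assoc] at h1
      exact mul_right_cancel₀ h0 (h1.symm.trans (one_mul _).symm)
    rcases mul_self_eq_one_iff.mp hcc with h | h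
    · rw [hc' u v w, h, one_mul]
    · exfalso
      apply h0
      have a1 := hc' u₀ v₀ w₀
      have a2 := hc' w₀ u₀ v₀
      have a3 := hc' v₀ w₀ u₀
      have b1 := h12 u₀ w₀ v₀
      have b2 := h12 w₀ v₀ u₀
      have b3 := h12 v₀ u₀ w₀
      rw [h] at a1 a2 a3
      linarith
  · rintro ⟨t, ht0, hts, hti, htu⟩
    refine ⟨toM t, ?_, fun u v => ?_, htoM t hti, fun m' hm' => ?_⟩
    · intro h
      apply ht0
      rw [← hTM t, h]
      exact LinearMap.ext fun u => LinearMap.ext fun v => LinearMap.ext fun w => by simp [toT]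
    · exact congrArg D.symm (LinearMap.ext fun w => (hts u v w).1)
    · obtain ⟨c, hc⟩ := htu _ (htoT m' hm')
      refine ⟨c, ?_⟩
      rw [← hMT m', hc]
      exact LinearMap.ext fun u => LinearMap.ext fun v => by simp [toM]

end Cfsg.Agent.S5541
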