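import Cfsg.Statements.S5543
-- import your own Cfsg.Agent.* helpers here

set_option autoImplicit false
open Cfsg

namespace Cfsg.Agent.S5543

/-- Let V be a finite-dimensional real vector space with a commutative bilinear product and a positive-definite symmetric bilinear form that associates with the product and satisfies the Norton inequality (the Majorana setting of the definitions). Let X be a group of linear automorphisms of V in which every element squares to the identity, and suppose every non-identity element x of X is a Majorana involution with an axial vector a(x) of squared length 1, such that for any two distinct non-identity x, y the product a(x) ∘ a(y) equals (1/8)(a(x) + a(y) − a(xy)) (the dihedral subalgebra of type 2A whose third axis belongs to the involution xy). Then X has order at most 4. -/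
theorem result {V : Type*} [AddCommGroup V] [Module ℝ V] [FiniteDimensional ℝ V] (mul : V →ₗ[ℝ] V →ₗ[ℝ] V) (B : LinearMap.BilinForm ℝ V) (hV : Cfsg.Axial.IsMajoranaAmbient mul B) (X : Subgroup (V ≃ₗ[ℝ] V)) (hX : ∀ x ∈ X, x * x = 1) (ax : (V ≃ₗ[ℝ] V) → V) (hax : ∀ x ∈ X, x ≠ 1 → Cfsg.Axial.IsMajoranaPair mul B x (ax x)) (h1 : ∀ x ∈ X, x ≠ 1 → B (ax x) (ax x) = 1) (h2A : ∀ x ∈ X, ∀ y ∈ X, x ≠ 1 → y ≠ 1 → x ≠ y → mul (ax x) (ax y) = (1 / 8 : ℝ) • (ax x + ax y - ax (x * y))) : Nat.card ↥X ≤ 4 := by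
  classical
  by_contra hcard
  push Not at hcard
  have hfin : Finite ↥X := Nat.finite_of_card_ne_zero (by omega)
  have hinvX : ∀ p ∈ X, p⁻¹ = p := fun p hp => inv_eq_of_mul_eq_one_right (hX p hp)
  have hcomm : ∀ p ∈ X, ∀ q ∈ X, p * q = q * p := fun p hp q hq => by
    have := hinvX _ (mul_mem hp hq)
    rw [_root_.mul_inv_rev, hinvX p hp, hinvX q hq] at this
    exact this.symm
  have hex : ∀ s : Finset ↥X, s.card ≤ 4 → ∃ g : ↥X, g ∉ s := fun s hs => by
    by_contra h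
    push Not at h
    haveI := Fintype.ofFinite ↥X
    have h2 := Finset.card_le_card (s := Finset.univ) (t := s) (fun g _ => h g)
    rw [Finset.card_univ, ← Nat.card_eq_fintype_card] at h2
    omega
  obtain ⟨⟨x, hx⟩, hx1⟩ := hex {1} (by simp)
  obtain ⟨⟨y, hy⟩, hy1⟩ := hex {1, ⟨x, hx⟩} (le_trans Finset.card_le_two (by norm_num))
  obtain ⟨⟨z, hz⟩, hz1⟩ := hex {1, ⟨x, hx⟩, ⟨y, hy⟩, ⟨x * y, mul_mem hx hy⟩}
    (by refine le_trans (Finset.card_insert_le _ _) ?_; have := Finset.card_le_three (a := (⟨x, hx⟩ : ↥X)) (b := ⟨y, hy⟩) (c := ⟨x * y, mul_mem hx hy⟩); omega)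
  simp only [Finset.mem_insert, Finset.mem_singleton, ← Subtype.coe_inj, OneMemClass.coe_one, not_or] at hx1 hy1 hz1
  obtain ⟨hy1, hyx⟩ := hy1
  obtain ⟨hz1, hzx, hzy, hzxy⟩ := hz1
  have hne : ∀ {p q : V ≃ₗ[ℝ] V}, p ∈ X → q ∈ X → p ≠ 1 → q ≠ 1 → p ≠ q → p * q ≠ 1 := fun {p q} hp hq _ _ hpq e =>
    hpq (by rw [← hinvX q hq]; exact mul_eq_one_iff_eq_inv.1 e)
  have hform : ∀ p ∈ X, ∀ q ∈ X, p ≠ 1 → q ≠ 1 → p ≠ q → B (ax p) (ax q) = 1 / 8 := by
    intro p hp q hq p1 q1 hpq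
    obtain ⟨-, -, -, hassoc, -⟩ := hV
    have hid : mul (ax p) (ax p) = ax p := (hax p hp p1).2.2.1.1.2.1
    have key : ∀ r ∈ X, r ≠ 1 → p ≠ r → 7 * B (ax p) (ax r) + B (ax p) (ax (p * r)) = 1 := by
      intro r hr r1 hpr
      have e := hassoc (ax p) (ax p) (ax r)
      rw [hid, h2A p hp r hr p1 r1 hpr, map_smul, map_sub, map_add, h1 p hp p1, smul_eq_mul] at e
      linarith
    have k1 := key q hq q1 hpq
    have k2 := key (p * q) (mul_mem hp hq) (hne hp hq p1 q1 hpq) (fun e => q1 (by simpa using e.symm))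
    rw [← mul_assoc, hX p hp, one_mul] at k2
    linarith
  -- the product of two differences
  have hxy : x * y ∈ X := mul_mem hx hy
  have hxz : x * z ∈ X := mul_mem hx hz
  have hyz : y * z ∈ X := mul_mem hy hz
  have x1 := hx1
  have hxy1 := hne hx hy x1 hy1 (Ne.symm hyx)
  have hxz1 := hne hx hz x1 hz1 (Ne.symm hzx)
  have hyz1 := hne hy hz hy1 hz1 (Ne.symm hzy)
  have hxyz : x * (y * z) ∈ X := mul_mem hx hyz
  have hxyz1 : x * (y * z) ≠ 1 := fun e => hzxy (by
    rw [← mul_assoc] at e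
    rw [← hinvX _ hxy]
    exact eq_inv_of_mul_eq_one_right e)
  have hd3 : y * z ≠ x * (y * z) := fun e => x1 (by simpa using e.symm)
  have hyxz : y ≠ x * z := fun e => hzxy (by rw [e, ← mul_assoc, hX x hx, one_mul])
  have hxyne : x * y ≠ z := Ne.symm hzxy
  have hxyxz : x * y ≠ x * z := fun e => hzy (mul_left_cancel e).symm
  have p1 : y * (x * z) = x * (y * z) := by rw [← mul_assoc, hcomm y hy x hx, mul_assoc]
  have p2 : x * y * z = x * (y * z) := mul_assoc _ _ _
  have p3 : x * y * (x * z) = y * z := by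
    rw [hcomm x hx y hy, mul_assoc, ← mul_assoc x x z, hX x hx, one_mul]
  have hprod : mul (ax y - ax (x * y)) (ax z - ax (x * z)) = (-(1 / 4) : ℝ) • (ax (y * z) - ax (x * (y * z))) := by
    rw [map_sub, map_sub, LinearMap.sub_apply, LinearMap.sub_apply, h2A y hy z hz hy1 hz1 (Ne.symm hzy),
      h2A y hy _ hxz hy1 hxz1 hyxz, h2A _ hxy z hz hxy1 hz1 hxyne, h2A _ hxy _ hxz hxy1 hxz1 hxyxz, p1, p2, p3]
    module
  -- eigenvectors of eigenvalue 1/4
  have heig : ∀ q ∈ X, q ≠ 1 → x ≠ q → mul (ax x) (ax q - ax (x * q)) = (1 / 4 : ℝ) • (ax q - ax (x * q)) := by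
    intro q hq q1 hxq
    rw [map_sub, h2A x hx q hq x1 q1 hxq, h2A x hx _ (mul_mem hx hq) x1 (hne hx hq x1 q1 hxq) (fun e => q1 (by simpa using e.symm)),
      ← mul_assoc, hX x hx, one_mul]
    module
  have hmemeig : ∀ q ∈ X, q ≠ 1 → x ≠ q → ax q - ax (x * q) ∈ Cfsg.Axial.eigen mul (ax x) (1 / 4 : ℝ) :=
    fun q hq q1 hxq => Module.End.mem_eigenspace_iff.2 (heig q hq q1 hxq)
  have hfus := (hax x hx x1).2.2.1.1.2.2.2 (1 / 4) (by simp [Cfsg.Axial.majoranaSpectrum]) (1 / 4)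
    (by simp [Cfsg.Axial.majoranaSpectrum]) _ (hmemeig y hy hy1 (Ne.symm hyx)) _ (hmemeig z hz hz1 (Ne.symm hzx))
  have hlaw : Cfsg.Axial.monsterLaw (1 / 4 : ℝ) (1 / 32) (1 / 4) (1 / 4) = {1, 0} := by
    norm_num [Cfsg.Axial.monsterLaw]
  rw [hlaw, hprod] at hfus
  have hle : Cfsg.Axial.eigenSum mul (ax x) {1, 0} ≤ LinearMap.ker ((mul (ax x)) ∘ₗ (mul (ax x)) - mul (ax x)) := by
    refine iSup₂_le fun c hc v hv => ?_
    rw [Cfsg.Axial.eigen, Module.End.mem_eigenspace_iff] at hv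
    rw [LinearMap.mem_ker, LinearMap.sub_apply, LinearMap.comp_apply, hv, map_smul, hv, smul_smul]
    rcases hc with rfl | rfl <;> simp
  have h0 := hle hfus
  have hyzx : x ≠ y * z := fun e => hzxy (by rw [e, hcomm y hy z hz, mul_assoc, hX y hy, mul_one])
  have e3 := heig (y * z) hyz hyz1 hyzx
  rw [LinearMap.mem_ker, LinearMap.sub_apply, LinearMap.comp_apply, map_smul, e3, map_smul, map_smul, e3] at h0
  have hzero : ax (y * z) - ax (x * (y * z)) = 0 := by
    have : (3 / 64 : ℝ) • (ax (y * z) - ax (x * (y * z))) = 0 := by rw [← h0]; module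
    exact (smul_eq_zero.1 this).resolve_left (by norm_num)
  have := hform (y * z) hyz (x * (y * z)) hxyz hyz1 hxyz1 hd3
  rw [← sub_eq_zero.1 hzero, h1 _ hyz hyz1] at this
  norm_num at this

end Cfsg.Agent.S5543
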