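import Cfsg.Statements.S5545
-- import your own Cfsg.Agent.* helpers here

set_option autoImplicit false
open Cfsg

namespace Cfsg.Agent.S5545

/-- Let V be a finite-dimensional real vector space with a commutative bilinear product and a positive-definite symmetric bilinear form that associates with the product and satisfies the Norton inequality (the Majorana setting of the definitions). Let μ₀, μ₁ be commuting Majorana involutions with distinct axial vectors a₀ ≠ a₁ of squared length 1, each involution having no other axial vector. Then either a₀ and a₁ are orthogonal with a₀ ∘ a₁ = 0 (type 2B), or their inner product is 1/8 and, with a₂ = a₀ + a₁ − 8 a₀ ∘ a₁, the vector a₂ is an idempotent and a₀ ∘ a₂ = (1/8)(a₀ + a₂ − a₁), a₁ ∘ a₂ = (1/8)(a₁ + a₂ − a₀) (type 2A: the three idempotents span a subalgebra with aᵢ ∘ aⱼ = (1/8)(aᵢ + aⱼ − aₖ)). -/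
theorem result {V : Type*} [AddCommGroup V] [Module ℝ V] [FiniteDimensional ℝ V] (mul : V →ₗ[ℝ] V →ₗ[ℝ] V) (B : LinearMap.BilinForm ℝ V) (hV : Cfsg.Axial.IsMajoranaAmbient mul B) (μ₀ μ₁ : V ≃ₗ[ℝ] V) (a₀ a₁ : V) (h₀ : Cfsg.Axial.IsMajoranaPair mul B μ₀ a₀) (h₁ : Cfsg.Axial.IsMajoranaPair mul B μ₁ a₁) (hu₀ : ∀ a : V, Cfsg.Axial.IsMajoranaPair mul B μ₀ a → a = a₀) (hu₁ : ∀ a : V, Cfsg.Axial.IsMajoranaPair mul B μ₁ a → a = a₁) (hn₀ : B a₀ a₀ = 1) (hn₁ : B a₁ a₁ = 1) (hc : μ₀ * μ₁ = μ₁ * μ₀) (hne : a₀ ≠ a₁) : (B a₀ a₁ = 0 ∧ mul a₀ a₁ = 0) ∨ (B a₀ a₁ = 1 / 8 ∧ mul (a₀ + a₁ - (8 : ℝ) • mul a₀ a₁) (a₀ + a₁ - (8 : ℝ) • mul a₀ a₁) = a₀ + a₁ - (8 : ℝ) • mul a₀ a₁ ∧ mul a₀ (a₀ + a₁ - (8 : ℝ) • mul a₀ a₁) = (1 / 8 : ℝ) • (a₀ + (a₀ + a₁ - (8 : ℝ) • mul a₀ a₁) - a₁) ∧ mul a₁ (a₀ + a₁ - (8 : ℝ) • mul a₀ a₁) = (1 / 8 : ℝ) • (a₁ + (a₀ + a₁ - (8 : ℝ) • mul a₀ a₁) - a₀)) := by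
  classical
  obtain ⟨hC, hsymB, hpos, hassoc, -⟩ := hV
  -- the basic package attached to an axis
  have split : ∀ (μ : V ≃ₗ[ℝ] V) (a v : V), Cfsg.Axial.IsMajoranaPair mul B μ a → B a a = 1 → μ v = v →
      ∃ u w : V, mul a u = 0 ∧ mul a w = (1 / 4 : ℝ) • w ∧ v = B a v • a + u + w ∧ B a u = 0 ∧ B a w = 0 := by
    intro μ a v hp hn hv
    obtain ⟨-, -, ⟨⟨-, hid, htop, -⟩, hprim⟩, hfix, hneg⟩ := hp
    have hmem : v ∈ Cfsg.Axial.eigenSum mul a Cfsg.Axial.majoranaSpectrum := htop ▸ Submodule.mem_top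
    have hsum : Cfsg.Axial.eigenSum mul a Cfsg.Axial.majoranaSpectrum =
        Cfsg.Axial.eigen mul a 1 ⊔ (Cfsg.Axial.eigen mul a 0 ⊔ (Cfsg.Axial.eigen mul a (1 / 4) ⊔ Cfsg.Axial.eigen mul a (1 / 32))) := by
      simp only [Cfsg.Axial.eigenSum, Cfsg.Axial.majoranaSpectrum, iSup_insert, iSup_singleton]
    rw [hsum] at hmem
    obtain ⟨p, hp1, q, hq, rfl⟩ := Submodule.mem_sup.1 hmem
    obtain ⟨u, hu, r, hr, rfl⟩ := Submodule.mem_sup.1 hq
    obtain ⟨w, hw, m, hm, rfl⟩ := Submodule.mem_sup.1 hr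
    have hin : ∀ {c : ℝ} {x : V}, c ∈ ({1, 0, 1 / 4} : Set ℝ) → x ∈ Cfsg.Axial.eigen mul a c → μ x = x :=
      fun {c x} hc hx => hfix x (Submodule.mem_iSup_of_mem c (Submodule.mem_iSup_of_mem hc hx))
    have hmneg : μ m = -m := hneg m hm
    rw [map_add, map_add, map_add, hin (by simp) hp1, hin (by simp) hu, hin (by simp) hw, hmneg] at hv
    have hm0 : m = 0 := by
      have : (2 : ℝ) • m = 0 := by
        rw [two_smul]
        have := add_left_cancel (add_left_cancel (add_left_cancel hv))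
        exact eq_neg_iff_add_eq_zero.1 this.symm
      exact (smul_eq_zero.1 this).resolve_left (by norm_num)
    rw [hprim, Submodule.mem_span_singleton] at hp1
    obtain ⟨s, rfl⟩ := hp1
    rw [Cfsg.Axial.eigen, Module.End.mem_eigenspace_iff] at hu hw
    rw [zero_smul] at hu
    have bu : B a u = 0 := by
      have := hassoc a a u; rw [hid, hu, map_zero] at this; exact this.symm
    have bw : B a w = 0 := by
      have := hassoc a a w; rw [hid, hw, map_smul, smul_eq_mul] at this; linarith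
    refine ⟨u, w, hu, hw, ?_, bu, bw⟩
    subst hm0
    have : B a (s • a + (u + (w + 0))) = s := by
      rw [add_zero, map_add, map_add, map_smul, bu, bw, hn, smul_eq_mul]; ring
    rw [this, add_zero, add_assoc]
  have hfix1 : μ₀ a₁ = a₁ := by
    apply hu₁
    obtain ⟨m0, b0, -, -⟩ := h₀
    obtain ⟨m1, b1, ⟨⟨hne1, hid, htop, hfus⟩, hprim⟩, hfix, hneg⟩ := h₁
    have hev : ∀ c, Cfsg.Axial.eigen mul (μ₀ a₁) c = (Cfsg.Axial.eigen mul a₁ c).map (μ₀ : V →ₗ[ℝ] V) := by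
      intro c
      ext v
      simp only [Submodule.mem_map, Cfsg.Axial.eigen, Module.End.mem_eigenspace_iff]
      constructor
      · intro hv
        refine ⟨μ₀.symm v, μ₀.injective ?_, μ₀.apply_symm_apply v⟩
        rw [m0, μ₀.apply_symm_apply, map_smul, μ₀.apply_symm_apply, hv]
      · rintro ⟨x, hx, rfl⟩
        show mul (μ₀ a₁) (μ₀ x) = c • μ₀ x
        rw [← m0, hx, map_smul]
    have hes : ∀ S, Cfsg.Axial.eigenSum mul (μ₀ a₁) S = (Cfsg.Axial.eigenSum mul a₁ S).map (μ₀ : V →ₗ[ℝ] V) := by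
      intro S
      simp only [Cfsg.Axial.eigenSum, Submodule.map_iSup, hev]
    have hcm : ∀ x, μ₁ (μ₀ x) = μ₀ (μ₁ x) := fun x => (LinearEquiv.congr_fun hc x).symm
    refine ⟨m1, b1, ⟨⟨?_, ?_, ?_, ?_⟩, ?_⟩, ?_, ?_⟩
    · simpa using hne1
    · rw [← m0, hid]
    · rw [hes, htop, Submodule.map_top, LinearMap.range_eq_top]; exact μ₀.surjective
    · intro c hc' d hd x hx y hy
      rw [hev] at hx hy
      obtain ⟨x, hx, rfl⟩ := hx
      obtain ⟨y, hy, rfl⟩ := hy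
      show mul (μ₀ x) (μ₀ y) ∈ _
      rw [← m0, hes]
      exact Submodule.mem_map_of_mem (hfus c hc' d hd x hx y hy)
    · rw [hev, hprim, Submodule.map_span, Set.image_singleton]; rfl
    · intro v hv
      rw [hes] at hv
      obtain ⟨x, hx, rfl⟩ := hv
      show μ₁ (μ₀ x) = μ₀ x
      rw [hcm]; exact congrArg μ₀ (hfix x hx)
    · intro v hv
      rw [hev] at hv
      obtain ⟨x, hx, rfl⟩ := hv
      show μ₁ (μ₀ x) = -μ₀ x
      rw [hcm, ← map_neg]; exact congrArg μ₀ (hneg x hx)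
  have hfix0 : μ₁ a₀ = a₀ := by
    apply hu₀
    obtain ⟨m1, b1, -, -⟩ := h₁
    obtain ⟨m0, b0, ⟨⟨hne0, hid, htop, hfus⟩, hprim⟩, hfix, hneg⟩ := h₀
    have hev : ∀ c, Cfsg.Axial.eigen mul (μ₁ a₀) c = (Cfsg.Axial.eigen mul a₀ c).map (μ₁ : V →ₗ[ℝ] V) := by
      intro c
      ext v
      simp only [Submodule.mem_map, Cfsg.Axial.eigen, Module.End.mem_eigenspace_iff]
      constructor
      · intro hv
        refine ⟨μ₁.symm v, μ₁.injective ?_, μ₁.apply_symm_apply v⟩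
        rw [m1, μ₁.apply_symm_apply, map_smul, μ₁.apply_symm_apply, hv]
      · rintro ⟨x, hx, rfl⟩
        show mul (μ₁ a₀) (μ₁ x) = c • μ₁ x
        rw [← m1, hx, map_smul]
    have hes : ∀ S, Cfsg.Axial.eigenSum mul (μ₁ a₀) S = (Cfsg.Axial.eigenSum mul a₀ S).map (μ₁ : V →ₗ[ℝ] V) := by
      intro S
      simp only [Cfsg.Axial.eigenSum, Submodule.map_iSup, hev]
    have hcm : ∀ x, μ₀ (μ₁ x) = μ₁ (μ₀ x) := fun x => LinearEquiv.congr_fun hc x
    refine ⟨m0, b0, ⟨⟨?_, ?_, ?_, ?_⟩, ?_⟩, ?_, ?_⟩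
    · simpa using hne0
    · rw [← m1, hid]
    · rw [hes, htop, Submodule.map_top, LinearMap.range_eq_top]; exact μ₁.surjective
    · intro c hc' d hd x hx y hy
      rw [hev] at hx hy
      obtain ⟨x, hx, rfl⟩ := hx
      obtain ⟨y, hy, rfl⟩ := hy
      show mul (μ₁ x) (μ₁ y) ∈ _
      rw [← m1, hes]
      exact Submodule.mem_map_of_mem (hfus c hc' d hd x hx y hy)
    · rw [hev, hprim, Submodule.map_span, Set.image_singleton]; rfl
    · intro v hv
      rw [hes] at hv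
      obtain ⟨x, hx, rfl⟩ := hv
      show μ₀ (μ₁ x) = μ₁ x
      rw [hcm]; exact congrArg μ₁ (hfix x hx)
    · intro v hv
      rw [hev] at hv
      obtain ⟨x, hx, rfl⟩ := hv
      show μ₀ (μ₁ x) = -μ₁ x
      rw [hcm, ← map_neg]; exact congrArg μ₁ (hneg x hx)
  obtain ⟨u, w, hu, hw, he, bu, bw⟩ := split μ₀ a₀ a₁ h₀ hn₀ hfix1
  obtain ⟨u', w', hu', hw', he', bu', bw'⟩ := split μ₁ a₁ a₀ h₁ hn₁ hfix0
  rw [hsymB a₁ a₀] at he'
  set t := B a₀ a₁ with ht
  obtain ⟨-, -, ⟨⟨ha0, hid, -, hfus⟩, hprim⟩, -⟩ := h₀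
  obtain ⟨-, -, ⟨⟨-, hid1, -⟩, -⟩, -⟩ := h₁
  have mu : u ∈ Cfsg.Axial.eigen mul a₀ 0 := Module.End.mem_eigenspace_iff.2 (by rw [hu, zero_smul])
  have mw : w ∈ Cfsg.Axial.eigen mul a₀ (1 / 4) := Module.End.mem_eigenspace_iff.2 hw
  have huu : mul a₀ (mul u u) = 0 := by
    have h := hfus 0 (by simp [Cfsg.Axial.majoranaSpectrum]) 0 (by simp [Cfsg.Axial.majoranaSpectrum]) u mu u mu
    rw [show Cfsg.Axial.monsterLaw (1 / 4 : ℝ) (1 / 32) 0 0 = {0} by norm_num [Cfsg.Axial.monsterLaw],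
      Cfsg.Axial.eigenSum, iSup_singleton, Cfsg.Axial.eigen, Module.End.mem_eigenspace_iff, zero_smul] at h
    exact h
  have huw : mul a₀ (mul u w) = (1 / 4 : ℝ) • mul u w := by
    have h := hfus 0 (by simp [Cfsg.Axial.majoranaSpectrum]) (1 / 4) (by simp [Cfsg.Axial.majoranaSpectrum]) u mu w mw
    rw [show Cfsg.Axial.monsterLaw (1 / 4 : ℝ) (1 / 32) 0 (1 / 4) = {1 / 4} by norm_num [Cfsg.Axial.monsterLaw],
      Cfsg.Axial.eigenSum, iSup_singleton, Cfsg.Axial.eigen, Module.End.mem_eigenspace_iff] at h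
    exact h
  obtain ⟨s, r, hr, hww⟩ : ∃ (s : ℝ) (r : V), mul a₀ r = 0 ∧ mul w w = s • a₀ + r := by
    have h := hfus (1 / 4) (by simp [Cfsg.Axial.majoranaSpectrum]) (1 / 4) (by simp [Cfsg.Axial.majoranaSpectrum]) w mw w mw
    rw [show Cfsg.Axial.monsterLaw (1 / 4 : ℝ) (1 / 32) (1 / 4) (1 / 4) = {1, 0} by norm_num [Cfsg.Axial.monsterLaw],
      Cfsg.Axial.eigenSum, iSup_insert, iSup_singleton, Submodule.mem_sup] at h
    obtain ⟨p, hp, r, hr, e⟩ := h
    rw [hprim, Submodule.mem_span_singleton] at hp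
    obtain ⟨s, rfl⟩ := hp
    rw [Cfsg.Axial.eigen, Module.End.mem_eigenspace_iff, zero_smul] at hr
    exact ⟨s, r, hr, e.symm⟩
  -- uniqueness of the three components
  have comp : ∀ (x : ℝ) (y z : V), mul a₀ y = 0 → mul a₀ z = (1 / 4 : ℝ) • z → x • a₀ + y + z = 0 →
      x = 0 ∧ y = 0 ∧ z = 0 := by
    intro x y z hy hz h
    have e1 := congrArg (mul a₀) h
    rw [map_add, map_add, map_smul, hid, hy, hz, map_zero, add_zero] at e1
    have e2 := congrArg (mul a₀) e1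
    rw [map_add, map_smul, map_smul, hid, hz, map_zero] at e2
    have z0 : z = 0 := by
      have : (3 / 16 : ℝ) • z = (x • a₀ + (1 / 4 : ℝ) • z) - (x • a₀ + (1 / 4 : ℝ) • ((1 / 4 : ℝ) • z)) := by module
      rw [e1, e2, sub_zero] at this
      exact (smul_eq_zero.1 this).resolve_left (by norm_num)
    rw [z0, smul_zero, add_zero] at e1
    have x0 := (smul_eq_zero.1 e1).resolve_right ha0
    refine ⟨x0, ?_, z0⟩
    rw [x0, z0, zero_smul, zero_add, add_zero] at h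
    exact h
  have hu2 : mul u a₀ = 0 := (hC _ _).trans hu
  have hw2 : mul w a₀ = (1 / 4 : ℝ) • w := (hC _ _).trans hw
  have ex : ∀ p q p' q' p'' q'' : ℝ, mul (p • a₀ + p' • u + p'' • w) (q • a₀ + q' • u + q'' • w) =
      (p * q) • a₀ + ((p * q'' + p'' * q) / 4) • w + (p' * q') • mul u u + (p' * q'' + p'' * q') • mul u w +
        (p'' * q'') • (s • a₀ + r) := by
    intro p q p' q' p'' q''
    simp only [map_add, map_smul, LinearMap.add_apply, LinearMap.smul_apply, hid, hu, hw, hu2, hw2, hww, hC w u]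
    module
  have hea : a₁ = t • a₀ + (1 : ℝ) • u + (1 : ℝ) • w := by rw [one_smul, one_smul]; exact he
  have key1 : mul a₁ a₁ = a₁ := hid1
  rw [hea, ex] at key1
  obtain ⟨c1, c2, c3⟩ := comp (t * t + s - t) (mul u u + r - u) ((t / 2 - 1) • w + (2 : ℝ) • mul u w)
    (by rw [map_sub, map_add, huu, hr, hu, add_zero, sub_zero])
    (by rw [map_add, map_smul, map_smul, hw, huw]; module)
    (by rw [← sub_eq_zero] at key1; rw [← key1]; module)
  have h01 : mul a₀ a₁ = t • a₀ + (1 / 4 : ℝ) • w := by rw [he, map_add, map_add, map_smul, hid, hu, hw, add_zero]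
  have hw'e : w' = (4 * t) • (a₀ - a₁) + w := by
    have e : mul a₁ a₀ = t • a₁ + (1 / 4 : ℝ) • w' := by
      conv_lhs => rw [he']
      rw [map_add, map_add, map_smul, hid1, hu', hw', add_zero]
    rw [hC a₁ a₀, h01] at e
    calc w' = (4 : ℝ) • ((t • a₁ + (1 / 4 : ℝ) • w') - t • a₁) := by module
      _ = (4 : ℝ) • ((t • a₀ + (1 / 4 : ℝ) • w) - t • a₁) := by rw [e]
      _ = _ := by module
  have hw'e2 : w' = (4 * t * (1 - t)) • a₀ + (-(4 * t)) • u + (1 - 4 * t) • w := by rw [hw'e, he]; module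
  rw [hea, hw'e2, ex] at hw'
  have huw' : mul u w = ((1 - t / 2) / 2) • w := by
    calc mul u w = (1 / 2 : ℝ) • ((t / 2 - 1) • w + (2 : ℝ) • mul u w) + ((1 - t / 2) / 2) • w := by module
      _ = _ := by rw [c3, smul_zero, zero_add]
  have huu' : mul u u = u - r := by rw [← sub_eq_zero, ← c2]; abel
  rw [huw', huu'] at hw'
  obtain ⟨d1, d2, d3⟩ := comp (t * (4 * t * (1 - t)) + (1 - 4 * t) * s - t * (1 - t)) (r - (3 * t) • u) ((1 / 4 - 2 * t) • w)
    (by rw [map_sub, map_smul, hr, hu, smul_zero, sub_zero])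
    (by rw [map_smul, hw, smul_comm])
    (by rw [← sub_eq_zero] at hw'; rw [← hw']; module)
  rcases smul_eq_zero.1 d3 with ht8 | hw0
  · right
    have t8 : t = 1 / 8 := by linarith
    have hρ : a₀ + a₁ - (8 : ℝ) • mul a₀ a₁ = (1 / 8 : ℝ) • a₀ + (1 : ℝ) • u + (-1 : ℝ) • w := by
      rw [h01, he, t8]; module
    have hs : s = 7 / 64 := by rw [t8] at c1; linarith
    have hr' : r = (3 / 8 : ℝ) • u := by rw [sub_eq_zero.1 d2, t8]; norm_num
    refine ⟨t8, ?_, ?_, ?_⟩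
    · rw [hρ, ex, huw', huu', hr', hs, t8]; module
    · rw [hρ, map_add, map_add, map_smul, map_smul, map_smul, hid, hu, hw, hea, t8]; module
    · rw [hρ, hea, ex, huw', huu', hr', hs, t8]; module
  · left
    subst hw0
    rw [map_zero] at hww
    obtain ⟨hs0, -, -⟩ := comp s r 0 hr (by rw [map_zero, smul_zero]) (by rw [add_zero, ← hww])
    rcases mul_eq_zero.1 (show t * (t - 1) = 0 by rw [hs0] at c1; linarith) with h0 | h1
    · exact ⟨h0, by rw [h01, h0, smul_zero, zero_smul, add_zero]⟩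
    · exfalso
      have t1 : t = 1 := by linarith
      rw [add_zero, t1, one_smul] at he
      have := hn₁
      simp only [he, map_add, LinearMap.add_apply, hn₀, bu, hsymB u a₀] at this
      rcases eq_or_ne u 0 with u0 | u0
      · exact hne (by rw [he, u0, add_zero])
      · have := hpos u u0; linarith

end Cfsg.Agent.S5545
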