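import Cfsg.Statements.S5546
import Cfsg.Agent.Lib.Leech.Basic
-- import your own Cfsg.Agent.* helpers here

set_option autoImplicit false
open Cfsg

namespace Cfsg.Agent.S5546

open Cfsg Cfsg.Spor

instance : Fact (Nat.Prime 13) := ⟨by norm_num⟩

/-- The vector with `8` at one point. -/
def eight (i : GolayPt) : GolayPt → ℤ := Pi.single i 8

theorem eight_mem (i : GolayPt) : eight i ∈ leechLattice :=
  AddSubgroup.subset_closure (mem_leechSet_of_const_mod_four _ 0 0 (Int.ModEq.refl 0)
    (fun j => by rcases eq_or_ne i j with rfl | h <;> simp [eight, *, Int.ModEq])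
    (by simp [eight, Int.ModEq]))

def eightL (i : GolayPt) : ↥leechLattice := ⟨eight i, eight_mem i⟩

/-- Reduction modulo 13. -/
def red : ↥leechLattice →+ (GolayPt → ZMod 13) where
  toFun x p := (((x : GolayPt → ℤ) p : ℤ) : ZMod 13)
  map_zero' := by funext p; simp
  map_add' x y := by funext p; simp

theorem red_apply (x : ↥leechLattice) (p : GolayPt) : red x p = (((x : GolayPt → ℤ) p : ℤ) : ZMod 13) := rfl

theorem eight_smul (x : ↥leechLattice) : (8 : ℤ) • x = ∑ i, (x : GolayPt → ℤ) i • eightL i := by
  apply Subtype.ext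
  rw [AddSubgroup.coe_zsmul, AddSubgroup.val_finset_sum]
  funext p
  simp [eightL, eight, Pi.single_apply, Finset.sum_apply, mul_comm]

theorem red_surjective : Function.Surjective red := fun y => by
  refine ⟨∑ i, (5 * ((y i).val : ℤ)) • eightL i, ?_⟩
  funext p
  rw [map_sum, Finset.sum_apply, Finset.sum_eq_single p]
  · rw [map_zsmul, Pi.smul_apply, red_apply, zsmul_eq_mul, Int.cast_mul, Int.cast_natCast, ZMod.natCast_zmod_val]
    simp only [eightL, eight, Pi.single_eq_same]
    rw [mul_right_comm, show ((5 : ℤ) : ZMod 13) * ((8 : ℤ) : ZMod 13) = 1 by decide, one_mul]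
  · intro b _ hb; simp [red_apply, eightL, eight, Ne.symm hb]
  · simp

theorem red_eq_zero {x : ↥leechLattice} (h : red x = 0) : ∃ y : ↥leechLattice, x = (13 : ℤ) • y := by
  have hd : ∀ p, (13 : ℤ) ∣ (x : GolayPt → ℤ) p := fun p => (ZMod.intCast_zmod_eq_zero_iff_dvd _ 13).1 (congrFun h p)
  choose z hz using hd
  have hz8 : (fun p => 8 * z p) ∈ leechLattice := by
    have : (fun p => 8 * z p) = ((∑ i, z i • eightL i : ↥leechLattice) : GolayPt → ℤ) := by
      funext p
      rw [AddSubgroup.val_finset_sum, Finset.sum_apply, Finset.sum_eq_single p]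
      · simp [eightL, eight, mul_comm]
      · intro b _ hb; simp [eightL, eight, Ne.symm hb]
      · simp
    rw [this]
    exact Subtype.property _
  refine ⟨(5 : ℤ) • x - (8 : ℤ) • ⟨_, hz8⟩, Subtype.ext (funext fun p => ?_)⟩
  simp [hz p]
  ring

theorem co2_add (g : ↥Co2) : ∀ v w : ↥leechLattice, (g : Equiv.Perm _) (v + w) = (g : Equiv.Perm _) v + (g : Equiv.Perm _) w := g.2.1.1

/-- An element of `Co2` as an additive map. -/
def addHom (g : ↥Co2) : ↥leechLattice →+ ↥leechLattice := AddMonoidHom.mk' (g : Equiv.Perm _) (co2_add g)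

/-- The action on vectors modulo 13. -/
def rep (g : ↥Co2) : Module.End (ZMod 13) (GolayPt → ZMod 13) where
  toFun x := (5 : ZMod 13) • ∑ i, x i • red (addHom g (eightL i))
  map_add' x y := by simp [add_smul, Finset.sum_add_distrib]
  map_smul' c x := by simp [Finset.smul_sum, smul_smul, mul_left_comm, mul_assoc]

theorem rep_red (g : ↥Co2) (x : ↥leechLattice) : rep g (red x) = red (addHom g x) := by
  have h : (8 : ℤ) • red (addHom g x) = ∑ i, (x : GolayPt → ℤ) i • red (addHom g (eightL i)) := by
    rw [← map_zsmul, ← map_zsmul, eight_smul, map_sum, map_sum]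
    simp only [map_zsmul]
  show (5 : ZMod 13) • ∑ i, red x i • red (addHom g (eightL i)) = _
  simp only [red_apply, Int.cast_smul_eq_zsmul]
  rw [← h, ← Int.cast_smul_eq_zsmul (ZMod 13), smul_smul,
    show (5 : ZMod 13) * ((8 : ℤ) : ZMod 13) = 1 by decide, one_smul]

theorem rep_eq {g : ↥Co2} {f : Module.End (ZMod 13) (GolayPt → ZMod 13)} (h : ∀ x, f (red x) = red (addHom g x)) :
    rep g = f := LinearMap.ext fun y => by
  obtain ⟨x, rfl⟩ := red_surjective y
  rw [rep_red, h]

/-- The line of the fixed vector. -/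
def line : Submodule (ZMod 13) (GolayPt → ZMod 13) := Submodule.span (ZMod 13) {red leechU}

theorem red_U_ne : red leechU ≠ 0 := fun h => absurd (congrFun h none) (by decide)

theorem fix_U (g : ↥Co2) : addHom g leechU = leechU := g.2.2

theorem line_le (g : ↥Co2) : line ≤ line.comap (rep g) := by
  rw [line, Submodule.span_le, Set.singleton_subset_iff, SetLike.mem_coe, Submodule.mem_comap, rep_red, fix_U]
  exact Submodule.subset_span rfl

/-- The action on the quotient by the fixed line. -/
def quotRep : ↥Co2 →* Module.End (ZMod 13) ((GolayPt → ZMod 13) ⧸ line) where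
  toFun g := line.mapQ line (rep g) (line_le g)
  map_one' := by
    apply Submodule.linearMap_qext
    refine LinearMap.ext fun x => ?_
    show Submodule.Quotient.mk (rep 1 x) = Submodule.Quotient.mk (p := line) x
    rw [rep_eq (g := 1) (f := 1) fun x => rfl]
    rfl
  map_mul' g h := by
    apply Submodule.linearMap_qext
    refine LinearMap.ext fun x => ?_
    show Submodule.Quotient.mk (rep (g * h) x) = Submodule.Quotient.mk (p := line) (rep g (rep h x))
    rw [rep_eq (g := g * h) (f := rep g * rep h) fun x => by rw [Module.End.mul_apply, rep_red, rep_red]; rfl]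
    rfl

theorem dot_preserved (g : ↥Co2) (x y : ↥leechLattice) :
    dotInt (addHom g x : GolayPt → ℤ) (addHom g y : GolayPt → ℤ) = dotInt (x : GolayPt → ℤ) (y : GolayPt → ℤ) := by
  have h1 := g.2.1.2 (x - y)
  have h2 : ((g : Equiv.Perm _) (x - y)) = addHom g x - addHom g y := map_sub (addHom g) x y
  rw [h2, AddSubgroup.coe_sub, AddSubgroup.coe_sub, Lib.Leech.sqNorm_sub_eq, Lib.Leech.sqNorm_sub_eq,
    show sqNorm (addHom g x : GolayPt → ℤ) = _ from g.2.1.2 x, show sqNorm (addHom g y : GolayPt → ℤ) = _ from g.2.1.2 y] at h1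
  omega

theorem fix_short (g : ↥Co2) (hg : quotRep g = 1) (x : ↥leechLattice)
    (hn : sqNorm (x : GolayPt → ℤ) ≤ 64) (hd : dotInt (x : GolayPt → ℤ) (leechU : GolayPt → ℤ) = 0) : addHom g x = x := by
  have h : rep g (red x) - red x ∈ line := by
    have := LinearMap.congr_fun hg (Submodule.Quotient.mk (red x))
    exact (Submodule.Quotient.eq line).1 this
  obtain ⟨c, hc⟩ := Submodule.mem_span_singleton.1 h
  have h0 : red (addHom g x - x - (c.val : ℤ) • leechU) = 0 := by
    rw [map_sub, map_sub, map_zsmul, ← rep_red, ← hc, ← Int.cast_smul_eq_zsmul (ZMod 13)]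
    simp
  obtain ⟨y, hy⟩ := red_eq_zero h0
  have hp : ∀ p, (addHom g x : GolayPt → ℤ) p - (x : GolayPt → ℤ) p - (c.val : ℤ) * (leechU : GolayPt → ℤ) p = 13 * (y : GolayPt → ℤ) p :=
    fun p => by
      have := congrArg (fun t : ↥leechLattice => (t : GolayPt → ℤ) p) hy
      simpa only [AddSubgroup.coe_sub, AddSubgroup.coe_zsmul, Pi.sub_apply, Pi.smul_apply, smul_eq_mul] using this
  have hdg : dotInt (addHom g x : GolayPt → ℤ) (leechU : GolayPt → ℤ) = 0 := by
    have := dot_preserved g x leechU
    rwa [fix_U, hd] at this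
  have hUU : dotInt (leechU : GolayPt → ℤ) (leechU : GolayPt → ℤ) = 32 := by decide
  have hsum : - (c.val : ℤ) * 32 = 13 * dotInt (y : GolayPt → ℤ) (leechU : GolayPt → ℤ) := by
    have e : ∑ p, ((addHom g x : GolayPt → ℤ) p - (x : GolayPt → ℤ) p - (c.val : ℤ) * (leechU : GolayPt → ℤ) p) * (leechU : GolayPt → ℤ) p
        = ∑ p, 13 * (y : GolayPt → ℤ) p * (leechU : GolayPt → ℤ) p := Finset.sum_congr rfl fun p _ => by rw [hp p]
    simp only [sub_mul, mul_assoc, Finset.sum_sub_distrib, ← Finset.mul_sum] at e
    simp only [dotInt] at hdg hd hUU ⊢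
    rw [hdg, hd, hUU] at e
    omega
  have hcv : c.val < 13 := ZMod.val_lt c
  have hc0 : c.val = 0 := by omega
  have hxy : addHom g x - x = (13 : ℤ) • y := by simpa [hc0] using hy
  by_contra hne
  have hy0 : (y : GolayPt → ℤ) ≠ 0 := fun e => hne (sub_eq_zero.1 (by rw [hxy, show y = 0 from Subtype.ext e, smul_zero]))
  have h1 := Lib.Leech.min_norm y.2 hy0
  have h2 : sqNorm ((addHom g x - x : ↥leechLattice) : GolayPt → ℤ) = 169 * sqNorm (y : GolayPt → ℤ) := by
    rw [hxy]
    simp only [sqNorm, AddSubgroup.coe_zsmul, Pi.smul_apply, smul_eq_mul, mul_pow, Finset.mul_sum]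
    norm_num
  have h3 : sqNorm ((addHom g x - x : ↥leechLattice) : GolayPt → ℤ) ≤ 2 * sqNorm (addHom g x : GolayPt → ℤ) + 2 * sqNorm (x : GolayPt → ℤ) := by
    simp only [sqNorm, Finset.mul_sum, ← Finset.sum_add_distrib, AddSubgroup.coe_sub, Pi.sub_apply]
    refine Finset.sum_le_sum fun i _ => ?_
    nlinarith [sq_nonneg ((addHom g x : GolayPt → ℤ) i + (x : GolayPt → ℤ) i)]
  have h4 : sqNorm (addHom g x : GolayPt → ℤ) = sqNorm (x : GolayPt → ℤ) := g.2.1.2 x
  omega

theorem faithful (g : ↥Co2) (hg : quotRep g = 1) : g = 1 := by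
  have hU' : addHom g leechU' = leechU' := fix_short g hg _ (by decide) (by decide)
  have h8 : ∀ i, addHom g (eightL i) = eightL i := by
    intro i
    by_cases h0 : i = none
    · subst h0
      have : eightL none = leechU + leechU' := Subtype.ext (by decide)
      rw [this, map_add, fix_U, hU']
    · by_cases h1 : i = some 0
      · subst h1
        have : eightL (some 0) = leechU - leechU' := Subtype.ext (by decide)
        rw [this, map_sub, fix_U, hU']
      · apply fix_short g hg
        · simp [eightL, eight, sqNorm, Pi.single_apply]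
        · rw [dotInt, Finset.sum_eq_single i]
          · simp [eightL, eight, leechU, vecU, h0, h1]
          · intro b _ hb; simp [eightL, eight, hb]
          · simp
  apply Subtype.ext
  apply Equiv.ext
  intro x
  have h := congrArg (addHom g) (eight_smul x)
  rw [map_zsmul, map_sum] at h
  simp only [map_zsmul, h8] at h
  rw [← eight_smul] at h
  apply Subtype.ext
  funext p
  have := congrArg (fun t : ↥leechLattice => (t : GolayPt → ℤ) p) h
  simp only [AddSubgroup.coe_zsmul, Pi.smul_apply, smul_eq_mul] at this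
  have : (addHom g x : GolayPt → ℤ) p = (x : GolayPt → ℤ) p := by omega
  exact this

/-- The second Conway group (the stabilizer in the Leech lattice automorphism group of the short vector fixed in the definitions) is isomorphic to a subgroup of the general linear group of degree 23 over the field with 13 elements: there is an injective homomorphism into it. -/
theorem result : ∃ f : ↥Cfsg.Spor.Co2 →* GL (Fin 23) (ZMod 13), Function.Injective f := by
  classical
  have hWr : Module.finrank (ZMod 13) ((GolayPt → ZMod 13) ⧸ line) = 23 := by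
    have h := Submodule.finrank_quotient_add_finrank line
    rw [line, finrank_span_singleton red_U_ne, Module.finrank_pi] at h
    have : Fintype.card GolayPt = 24 := by decide
    rw [line]
    omega
  let b := Module.finBasisOfFinrankEq (ZMod 13) ((GolayPt → ZMod 13) ⧸ line) hWr
  let ψ : ↥Cfsg.Spor.Co2 →* Matrix (Fin 23) (Fin 23) (ZMod 13) :=
    (LinearMap.toMatrixAlgEquiv b).toMonoidHom.comp quotRep
  refine ⟨ψ.toHomUnits, fun g h e => ?_⟩
  have e' : quotRep g = quotRep h := (LinearMap.toMatrixAlgEquiv b).injective (congrArg Units.val e)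
  have e2 : quotRep (h⁻¹ * g) = 1 := by rw [map_mul, e', ← map_mul, inv_mul_cancel, map_one]
  exact (inv_mul_eq_one.1 (faithful _ e2)).symm

end Cfsg.Agent.S5546
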