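import Cfsg.Statements.S5548
import Cfsg.Agent.Lib.Golay.Cosets
import Cfsg.Agent.S5393
-- import your own Cfsg.Agent.* helpers here

set_option autoImplicit false
open Cfsg

namespace Cfsg.Agent.S5548

open Cfsg
open Cfsg.Agent.Lib.Golay
open scoped Pointwise

/-- The permuted word. -/
def pm (σ : Equiv.Perm GolayPt) (w : GolayPt → ZMod 2) : GolayPt → ZMod 2 := fun p => w (σ.symm p)

theorem pm_word (σ : Equiv.Perm GolayPt) (m : ℕ) : pm σ (word m) = word (mask (σ • toSet m)) :=
  perm_word σ m

theorem pm_add (σ : Equiv.Perm GolayPt) (v w : GolayPt → ZMod 2) :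
    pm σ (v + w) = pm σ v + pm σ w := rfl

theorem pm_code {σ : Equiv.Perm GolayPt} (hσ : σ ∈ M24) {w : GolayPt → ZMod 2}
    (hw : w ∈ golayCode) : pm σ w ∈ golayCode := by
  obtain ⟨k, hk, rfl⟩ := mem_code_iff.1 hw
  rw [pm_word, word_mem_iff (mask_lt _), ← toSet_mem_codeSets (mask_lt _), toSet_mask]
  exact mem_codeSets_smul hσ (mem_codeSets.2 ⟨_, isCode_iff.2 ⟨k, hk, rfl⟩, rfl⟩)

theorem word_full : word FULL = fun _ => (1 : ZMod 2) := by
  funext p; simp [word, testBit_full _ (ix_lt p)]

theorem add_self (v : GolayPt → ZMod 2) : v + v = 0 := funext fun _ => CharTwo.add_self_eq_zero _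

theorem octad_pair : (octList.filter fun m => pc (octList.getD 0 0 ^^^ m) == 8).length > 0 := by
  decide +kernel

theorem mem_span_one {w : GolayPt → ZMod 2} :
    w ∈ Submodule.span (ZMod 2) {fun _ : GolayPt => (1 : ZMod 2)} ↔
      w = 0 ∨ w = word FULL := by
  rw [Submodule.mem_span_singleton, word_full]
  constructor
  · rintro ⟨c, rfl⟩
    rcases (show ∀ z : ZMod 2, z = 0 ∨ z = 1 by decide) c with rfl | rfl
    · exact Or.inl (zero_smul _ _)
    · exact Or.inr (one_smul _ _)
  · rintro (rfl | rfl)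
    · exact ⟨0, zero_smul _ _⟩
    · exact ⟨1, one_smul _ _⟩

theorem code_part {W : Submodule (ZMod 2) (GolayPt → ZMod 2)}
    (hW : ∀ σ ∈ M24, ∀ w ∈ W, pm σ w ∈ W) (hle : W ≤ golayCode) :
    W = ⊥ ∨ W = Submodule.span (ZMod 2) {fun _ => (1 : ZMod 2)} ∨ W = golayCode := by
  set one := Submodule.span (ZMod 2) {fun _ : GolayPt => (1 : ZMod 2)} with hone
  have h1 : one ≤ golayCode := Submodule.span_le.2 (by simpa using Cfsg.Agent.S5393.result.1)
  rcases Cfsg.Agent.S5393.result.2 (W ⊔ one) (Submodule.mem_sup_right (Submodule.subset_span rfl))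
      (sup_le hle h1) (fun σ hσ w hw => by
        obtain ⟨a, ha, b, hb, rfl⟩ := Submodule.mem_sup.1 hw
        refine Submodule.mem_sup.2 ⟨pm σ a, hW σ hσ a ha, b, hb, ?_⟩
        funext p
        rcases mem_span_one.1 hb with rfl | rfl
        · rfl
        · simp [pm, word_full]) with h | h
  · have hW1 : W ≤ one := le_sup_left.trans h.le
    by_cases h0 : W = ⊥
    · exact Or.inl h0
    refine Or.inr (Or.inl (le_antisymm hW1 (Submodule.span_le.2 ?_)))
    obtain ⟨w, hw, hne⟩ := Submodule.exists_mem_ne_zero_of_ne_bot h0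
    rcases mem_span_one.1 (hW1 hw) with e | e
    · exact absurd e hne
    · rw [e, word_full] at hw; simpa using hw
  refine Or.inr (Or.inr (le_antisymm hle ?_))
  have htrans : ∀ c : GolayPt → ZMod 2, (∀ σ ∈ M24, pm σ c = c) → ∀ a ∈ octList, word a + c ∈ W →
      ∀ b ∈ octList, word b + c ∈ W := by
    intro c hc a ha haW b hb
    obtain ⟨σ, hσ, he⟩ := M24_trans_octads (mem_octads.2 ⟨a, ha, rfl⟩) (mem_octads.2 ⟨b, hb, rfl⟩)
    have := hW σ hσ _ haW
    rwa [pm_add, hc σ hσ, pm_word, he, mask_toSet (lt_octList hb)] at this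
  have o0c : octList.getD 0 0 ∈ octList := baseOctad_ok.1
  have hall : ∀ b ∈ octList, word b ∈ W := by
    have hz : ∀ σ ∈ M24, pm σ (0 : GolayPt → ZMod 2) = 0 := fun σ _ => rfl
    obtain ⟨a, ha, c, hc, he⟩ := Submodule.mem_sup.1
      (show word (octList.getD 0 0) ∈ W ⊔ one from h ▸ (word_mem_iff (lt_octList o0c)).2
        (isCode_octList o0c))
    rcases mem_span_one.1 hc with rfl | rfl
    · rw [add_zero] at he
      intro b hb
      have := htrans 0 hz _ o0c (by rw [add_zero, ← he]; exact ha) b hb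
      rwa [add_zero] at this
    · have hbase : word (octList.getD 0 0) + word FULL ∈ W := by
        rw [← he, add_assoc, add_self, add_zero]; exact ha
      have hall' := htrans (word FULL) (fun σ _ => by funext p; simp [pm, word_full]) _ o0c hbase
      obtain ⟨m, hm⟩ := List.exists_mem_of_length_pos octad_pair
      rw [List.mem_filter, beq_iff_eq] at hm
      have hsum : word (octList.getD 0 0 ^^^ m) ∈ W := by
        have := W.add_mem hbase (hall' m hm.1)
        rw [word_xor]
        rwa [add_add_add_comm, add_self, add_zero] at this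
      have hx := mem_octList.2 ⟨isCode_xor (isCode_octList o0c) (isCode_octList hm.1), hm.2⟩
      intro b hb
      have := htrans 0 hz _ hx (by rw [add_zero]; exact hsum) b hb
      rwa [add_zero] at this
  intro w hw
  obtain ⟨k, -, rfl⟩ := mem_code_iff.1 hw
  have key : ∀ L : List ℕ, (∀ B ∈ L, word B ∈ W) → ∀ k, word (comb L k) ∈ W := by
    intro L
    induction L with
    | nil => intro _ k; rw [comb, word_zero]; exact W.zero_mem
    | cons B bs ih =>
      intro hL k
      rw [comb, word_xor]
      refine W.add_mem ?_ (ih (fun C hC => hL C (List.mem_cons_of_mem _ hC)) _)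
      split_ifs
      · exact hL B (by simp)
      · rw [word_zero]; exact W.zero_mem
  refine key basis (fun B hB => hall B ?_) k
  have : ∀ B ∈ basis, isCode B = true ∧ pc B = 8 := by decide +kernel
  exact mem_octList.2 (this B hB)

theorem word_add_eq (a b : ℕ) : word a + word b = word (a ^^^ b) := (word_xor a b).symm

/-- A pair occurs in any invariant space outside the code. -/
theorem pair_mem {W : Submodule (ZMod 2) (GolayPt → ZMod 2)}
    (hW : ∀ σ ∈ M24, ∀ w ∈ W, pm σ w ∈ W) (hle : ¬ W ≤ golayCode) :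
    ∃ u < 16777216, pc u = 2 ∧ word u ∈ W := by
  obtain ⟨w, hw, hwc⟩ := SetLike.not_le_iff_exists.1 hle
  obtain ⟨m, hm, rfl⟩ := exists_word w
  obtain ⟨u, hu, hu4, hmu⟩ := exists_light hm
  -- classes modulo the code meeting `W`
  let P : ℕ → Prop := fun t => ∃ c ∈ golayCode, word t + c ∈ W
  have hP : P u := ⟨word (m ^^^ u), (word_mem_iff (Nat.xor_lt_two_pow (n := 24) hm hu)).2 hmu, by
    rw [word_add_eq, Nat.xor_comm m, ← Nat.xor_assoc, Nat.xor_self, Nat.zero_xor]; exact hw⟩
  have hmove : ∀ a b, a < 16777216 → b < 16777216 → pc a ≤ 5 → pc a = pc b → P a → P b := by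
    rintro a b ha hb h5 he ⟨c, hc, hcW⟩
    obtain ⟨σ, hσ, hσe⟩ := M24_trans_sets (s := toSet a) (t := toSet b)
      (by rw [card_toSet]; exact h5) (by rw [card_toSet, card_toSet, he])
    have := hW σ hσ _ hcW
    rw [pm_add, pm_word, hσe, mask_toSet hb] at this
    exact ⟨_, pm_code hσ hc, this⟩
  have hadd : ∀ a b, P a → P b → P (a ^^^ b) := by
    rintro a b ⟨c, hc, hcW⟩ ⟨d, hd, hdW⟩
    refine ⟨c + d, golayCode.add_mem hc hd, ?_⟩
    have := W.add_mem hcW hdW
    rwa [add_add_add_comm, word_add_eq] at this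
  have hu0 : pc u ≠ 0 := by
    intro h
    rw [show u = 0 from eq_of_toSet_eq hu (by norm_num)
      (by rw [toSet_zero, ← Finset.card_eq_zero, card_toSet, h]), Nat.xor_zero] at hmu
    exact hwc ((word_mem_iff hm).2 hmu)
  have hsteps : ∀ k ≤ 4, 0 < k → pc u = k → P 3 := by
    intro k hk hk0 he
    have hval : pc 1 = 1 ∧ pc 2 = 1 ∧ pc 3 = 2 ∧ pc 7 = 3 ∧ pc 11 = 3 ∧ pc 12 = 2 ∧ pc 15 = 4 ∧
        pc 23 = 4 ∧ pc 24 = 2 := by decide
    interval_cases k
    · exact hadd 1 2 (hmove u 1 hu (by norm_num) (by omega) (by omega) hP)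
        (hmove u 2 hu (by norm_num) (by omega) (by omega) hP)
    · exact hmove u 3 hu (by norm_num) (by omega) (by omega) hP
    · exact hmove 12 3 (by norm_num) (by norm_num) (by omega) (by omega)
        (hadd 7 11 (hmove u 7 hu (by norm_num) (by omega) (by omega) hP)
          (hmove u 11 hu (by norm_num) (by omega) (by omega) hP))
    · exact hmove 24 3 (by norm_num) (by norm_num) (by omega) (by omega)
        (hadd 15 23 (hmove u 15 hu (by norm_num) (by omega) (by omega) hP)
          (hmove u 23 hu (by norm_num) (by omega) (by omega) hP))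
  obtain ⟨c, hc, hcW⟩ := hsteps _ hu4 (Nat.pos_of_ne_zero hu0) rfl
  have hinf : ∀ σ ∈ M24, ∀ w ∈ W ⊓ golayCode, pm σ w ∈ W ⊓ golayCode := fun σ hσ w hw =>
    ⟨hW σ hσ w hw.1, pm_code hσ hw.2⟩
  by_cases hall : golayCode ≤ W
  · refine ⟨3, by norm_num, by decide, ?_⟩
    have := W.add_mem hcW (hall hc)
    rwa [add_assoc, add_self, add_zero] at this
  have hsmall : ∀ v ∈ W, v ∈ golayCode → v = 0 ∨ v = word FULL := by
    intro v hvW hvc
    rcases code_part hinf inf_le_right with h | h | h
    · exact Or.inl ((Submodule.mem_bot (R := ZMod 2)).1 (h ▸ Submodule.mem_inf.2 ⟨hvW, hvc⟩))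
    · exact mem_span_one.1 (h ▸ Submodule.mem_inf.2 ⟨hvW, hvc⟩)
    · exact absurd (h.ge.trans inf_le_left) hall
  obtain ⟨k, hk, rfl⟩ := mem_code_iff.1 hc
  have hk2 : enc k = 0 ∨ enc k = FULL := by
    have ht := List.all_eq_true.1 m22Two_ok.2 k (List.mem_range.2 hk)
    simp only [Bool.or_eq_true, beq_iff_eq, List.any_eq_true, Bool.and_eq_true, bne_iff_ne,
      ne_eq] at ht
    rcases ht with (h | h) | ⟨g, hg, hg1, hg2⟩
    · exact Or.inl h
    · exact Or.inr h
    exfalso
    have hok := List.all_eq_true.1 m22Two_ok.1 g hg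
    simp only [Bool.and_eq_true] at hok
    have hv := valid_of_inM24 hok.1
    have h3 : toPerm g • toSet 3 = toSet 3 := by
      refine Finset.eq_of_subset_of_card_le ?_ (by rw [Finset.card_smul_finset])
      intro q hq
      obtain ⟨p, hp, rfl⟩ := Finset.mem_smul_finset.1 hq
      rw [Equiv.Perm.smul_def, fixesMask_spec hv hok.2 hp]; exact hp
    have h4 := W.add_mem (hW _ (toPerm_mem_M24 hok.1) _ hcW) hcW
    rw [pm_add, pm_word, pm_word, h3, mask_toSet (by norm_num), ← act_eq hv,
      add_add_add_comm, add_self, zero_add, word_add_eq] at h4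
    have hcode : isCode (act g (enc k)) = true := by
      have := pm_code (toPerm_mem_M24 hok.1) ((mem_code_iff).2 ⟨k, hk, rfl⟩)
      rwa [pm_word, ← act_eq hv, word_mem_iff (act_lt hv _)] at this
    have hlt := Nat.xor_lt_two_pow (n := 24) (act_lt hv (enc k)) (enc_lt k)
    rcases hsmall _ h4 ((word_mem_iff hlt).2 (isCode_xor hcode (isCode_iff.2 ⟨k, hk, rfl⟩)))
      with e | e
    · exact hg1 (Nat.xor_eq_zero_iff.1 (word_inj hlt (by norm_num) (e.trans word_zero.symm)))
    · refine hg2 ?_
      rw [← word_inj hlt (by norm_num) e, Nat.xor_assoc, Nat.xor_self, Nat.xor_zero]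
  rcases hk2 with e | e <;> rw [e] at hcW
  · rw [word_zero, add_zero] at hcW
    exact ⟨3, by norm_num, by decide, hcW⟩
  · obtain ⟨σ, hσ, hσe⟩ := M24_trans_sets (s := toSet 3) (t := toSet 6)
      (by rw [card_toSet]; decide) (by rw [card_toSet, card_toSet]; decide)
    have h6 := hW σ hσ _ hcW
    rw [pm_add, pm_word, hσe, mask_toSet (by norm_num),
      show pm σ (word FULL) = word FULL by funext p; simp [pm, word_full]] at h6
    refine ⟨5, by norm_num, by decide, ?_⟩
    have := W.add_mem hcW h6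
    rwa [add_add_add_comm, add_self, add_zero, word_add_eq] at this


/-- For the automorphism group of the length-24 binary Golay code of the definitions (the Mathieu group of degree 24) acting on binary words of length 24 by permuting coordinates, the only invariant subspaces of the space of all words are: zero, the span of the all-ones word, the code itself, the even-weight words, and the whole space. (So the permutation module has a unique composition series.) -/
theorem result (W : Submodule (ZMod 2) (Cfsg.GolayPt → ZMod 2)) (hW : ∀ σ ∈ Cfsg.M24, ∀ w ∈ W, (fun p => w (σ.symm p)) ∈ W) : W = ⊥ ∨ W = Submodule.span (ZMod 2) {fun _ => (1 : ZMod 2)} ∨ W = Cfsg.golayCode ∨ (W : Set (Cfsg.GolayPt → ZMod 2)) = {w | ∑ p, w p = 0} ∨ W = ⊤ := by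
  by_cases hle : W ≤ golayCode
  · rcases code_part hW hle with h | h | h
    exacts [Or.inl h, Or.inr (Or.inl h), Or.inr (Or.inr (Or.inl h))]
  obtain ⟨u, hu, hu2, huW⟩ := pair_mem hW hle
  have hpairs : ∀ a b : GolayPt, a ≠ b → word (mask {a, b}) ∈ W := by
    intro a b hab
    obtain ⟨σ, hσ, he⟩ := M24_trans_sets (s := toSet u) (t := {a, b})
      (by rw [card_toSet]; omega) (by rw [card_toSet, hu2, Finset.card_pair hab])
    have := hW σ hσ _ huW
    rwa [perm_word, he] at this
  have hgen : ∀ p : GolayPt, (Pi.single p 1 + Pi.single none 1 : GolayPt → ZMod 2) ∈ W := by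
    intro p
    by_cases hp : p = none
    · subst hp; rw [add_self]; exact W.zero_mem
    · convert hpairs p none hp using 1
      funext q
      simp only [word, testBit_mask, Finset.mem_insert, Finset.mem_singleton, Pi.add_apply,
        Pi.single_apply]
      by_cases h1 : q = p
      · subst h1; simp [hp]
      · by_cases h2 : q = none
        · subst h2; simp [Ne.symm hp]
        · simp [h1, h2]
  have heven : ∀ w : GolayPt → ZMod 2, ∑ p, w p = 0 → w ∈ W := by
    intro w hw
    have e : w = ∑ p, w p • (Pi.single p 1 + Pi.single none 1 : GolayPt → ZMod 2) := by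
      simp only [smul_add, Finset.sum_add_distrib, ← Finset.sum_smul, hw, zero_smul, add_zero]
      funext q
      simp [Finset.sum_apply, Pi.single_apply]
    rw [e]
    exact W.sum_mem fun p _ => W.smul_mem _ (hgen p)
  by_cases hodd : ∀ w ∈ W, ∑ p, w p = 0
  · exact Or.inr (Or.inr (Or.inr (Or.inl (Set.ext fun w => ⟨hodd w, heven w⟩))))
  · push Not at hodd
    obtain ⟨v, hv, hv1⟩ := hodd
    refine Or.inr (Or.inr (Or.inr (Or.inr (eq_top_iff.2 fun w _ => ?_))))
    by_cases hw : ∑ p, w p = 0
    · exact heven w hw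
    · have h1 : ∀ z : ZMod 2, z ≠ 0 → z = 1 := by decide
      have := W.add_mem (heven (w + v) (by
        rw [Finset.sum_congr rfl (fun p _ => Pi.add_apply w v p), Finset.sum_add_distrib,
          h1 _ hw, h1 _ hv1]; decide)) hv
      rwa [add_assoc, add_self, add_zero] at this

end Cfsg.Agent.S5548
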