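import Cfsg.Statements.S5549
import Cfsg.Agent.Lib.Golay.Rigid

set_option autoImplicit false
open Cfsg

namespace Cfsg.Agent.S5549

open Cfsg.Agent.Lib.Golay
open scoped Pointwise

/-- Let X be a group of linear automorphisms of the length-24 binary Golay code of the definitions that fix the all-ones word, containing the coordinate-permutation action of every element of the code's automorphism group (the Mathieu group of degree 24), and such that every element of X sends each codeword into its orbit under that Mathieu group up to adding the all-ones word (X has the same orbits as the Mathieu group on the code modulo the all-ones word). Then every element of X agrees, modulo the all-ones word, with the action of a single element of the Mathieu group: X induces exactly the Mathieu group on the code modulo the all-ones word. -/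
theorem result (X : Subgroup (↥Cfsg.golayCode ≃ₗ[ZMod 2] ↥Cfsg.golayCode)) (h1 : ∀ x ∈ X, ∀ e : ↥Cfsg.golayCode, (e : (Cfsg.GolayPt → ZMod 2)) = (fun _ => (1 : ZMod 2)) → x e = e) (hM : ∀ σ ∈ Cfsg.M24, ∃ x ∈ X, ∀ c : ↥Cfsg.golayCode, ((x c : ↥Cfsg.golayCode) : (Cfsg.GolayPt → ZMod 2)) = fun p => (c : (Cfsg.GolayPt → ZMod 2)) (σ.symm p)) (horb : ∀ x ∈ X, ∀ c : ↥Cfsg.golayCode, ∃ σ ∈ Cfsg.M24, ((x c : ↥Cfsg.golayCode) : (Cfsg.GolayPt → ZMod 2)) = (fun p => (c : (Cfsg.GolayPt → ZMod 2)) (σ.symm p)) ∨ ((x c : ↥Cfsg.golayCode) : (Cfsg.GolayPt → ZMod 2)) = (fun p => (c : (Cfsg.GolayPt → ZMod 2)) (σ.symm p)) + fun _ => (1 : ZMod 2)) (x : ↥Cfsg.golayCode ≃ₗ[ZMod 2] ↥Cfsg.golayCode) (hx : x ∈ X) : ∃ σ ∈ Cfsg.M24, ∀ c : ↥Cfsg.golayCode, ((x c : ↥Cfsg.golayCode) : (Cfsg.GolayPt → ZMod 2)) = (fun p => (c : (Cfsg.GolayPt → ZMod 2)) (σ.symm p)) ∨ ((x c : ↥Cfsg.golayCode) : (Cfsg.GolayPt → ZMod 2)) = (fun p => (c : (Cfsg.GolayPt → ZMod 2)) (σ.symm p)) + fun _ => (1 : ZMod 2) := by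
  classical
  have hlow : ∀ {m : ℕ}, isCode m = true → word m ∈ golayCode := fun {m} h =>
    (word_mem_iff (lt_of_isCode h)).2 h
  let f : ℕ → ℕ := fun m => if h : isCode m = true then
    mask (support₂ ((x ⟨word m, hlow h⟩ : ↥golayCode) : GolayPt → ZMod 2)) else 0
  have fw : ∀ {m : ℕ} (h : isCode m = true),
      word (f m) = ((x ⟨word m, hlow h⟩ : ↥golayCode) : GolayPt → ZMod 2) := fun {m} h => by
    simp only [f, dif_pos h, word_mask]
  have fc : ∀ {m : ℕ}, isCode m = true → isCode (f m) = true := fun {m} h => by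
    refine (word_mem_iff ?_).1 ?_
    · simp only [f, dif_pos h]; exact mask_lt _
    · rw [fw h]; exact (x ⟨word m, hlow h⟩).2
  have hpm : ∀ (σ : Equiv.Perm GolayPt) (m : ℕ),
      word (pm σ m) = fun p => word m (σ.symm p) := by
    intro σ m
    funext p
    have hiff : (pm σ m).testBit (ix p) = true ↔ m.testBit (ix (σ.symm p)) = true := by
      rw [← mem_toSet, pm, toSet_mask, ← Finset.inv_smul_mem_iff, mem_toSet]
      rfl
    simp only [word, Bool.eq_iff_iff.2 hiff]
  have hF : word FULL = fun _ => (1 : ZMod 2) := by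
    funext p
    simp [word, testBit_full _ (ix_lt p)]
  have hFc : isCode FULL = true := by decide
  have hgood : Good f := by
    refine ⟨fun a ha => fc ha, fun a b ha hb => ?_, ?_, fun a ha => ?_⟩
    · refine word_inj (lt_of_isCode (fc (isCode_xor ha hb)))
        (lt_of_isCode (isCode_xor (fc ha) (fc hb))) ?_
      rw [fw (isCode_xor ha hb), word_xor (f a) (f b), fw ha, fw hb, ← Submodule.coe_add, ← map_add]
      exact congrArg (fun c : ↥golayCode => ((x c : ↥golayCode) : GolayPt → ZMod 2))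
        (Subtype.ext (word_xor a b))
    · refine word_inj (lt_of_isCode (fc hFc)) (by norm_num) ?_
      rw [fw hFc, h1 x hx ⟨word FULL, hlow hFc⟩ hF]
    · obtain ⟨σ, -, h | h⟩ := horb x hx ⟨word a, hlow ha⟩
      · have e : f a = pm σ a := word_inj (lt_of_isCode (fc ha)) (mask_lt _)
          (by rw [fw ha, h, hpm])
        rw [e]; simp [sameType, pm_pc]
      · have e : f a = pm σ a ^^^ FULL := word_inj (lt_of_isCode (fc ha))
          (Nat.xor_lt_two_pow (n := 24) (mask_lt _) (by norm_num))
          (by rw [fw ha, h, word_xor, hpm, hF])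
        rw [e]
        exact sameType_trans (sameType_of_eqFull (Or.inr rfl)) (by simp [sameType, pm_pc])
  obtain ⟨σ, hσ, hall⟩ := good_eq_perm hgood
  refine ⟨σ, hσ, fun c => ?_⟩
  obtain ⟨k, hk, hkw⟩ := mem_code_iff.1 c.2
  have hm : isCode (enc k) = true := isCode_iff.2 ⟨k, hk, rfl⟩
  obtain rfl : c = ⟨word (enc k), hlow hm⟩ := Subtype.ext hkw.symm
  rcases hall _ hm with h | h
  · exact Or.inl (by rw [← fw hm, h, hpm])
  · exact Or.inr (by rw [← fw hm, h, word_xor, hpm, hF])

end Cfsg.Agent.S5549
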