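import Cfsg.Statements.S5550
import Cfsg.Agent.Lib.Golay.Cosets
-- import your own Cfsg.Agent.* helpers here

set_option autoImplicit false
open Cfsg

namespace Cfsg.Agent.S5550

open Cfsg
open Cfsg.Agent.Lib.Golay
open scoped Pointwise

theorem test_full : ((List.range 4096).all fun h => h == 0 ||
    [genT, genS, genC].any fun g => !isCode (act g (h <<< 12) ^^^ h <<< 12)) = true := by
  decide +kernel

theorem test_oct : octTwo.all (fun g => inM24 g && act g (octList.getD 0 0) == octList.getD 0 0) = true ∧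
    ((List.range 4096).all fun h => h == 0 ||
      octTwo.any fun g => !isCode (act g (h <<< 12) ^^^ h <<< 12)) = true := by
  constructor <;> decide +kernel

theorem test_dod : dodTwo.all (fun g => inM24 g && act g d0 == d0) = true ∧
    ((List.range 4096).all fun h => h == 0 ||
      dodTwo.any fun g => !isCode (act g (h <<< 12) ^^^ h <<< 12)) = true := by
  constructor <;> decide +kernel

/-- The conclusion for one code word. -/
def Moves (u : GolayPt → ZMod 2) : Prop :=
  ∀ w, w ∉ golayCode → ∃ σ ∈ M24, (fun p => u (σ.symm p)) = u ∧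
    (fun p => w (σ.symm p)) - w ∉ golayCode

theorem perm_code {σ : Equiv.Perm GolayPt} (hσ : σ ∈ M24) {m : ℕ} (hm : isCode m = true) :
    isCode (mask (σ • toSet m)) = true := by
  rw [← toSet_mem_codeSets (mask_lt _), toSet_mask]
  exact mem_codeSets_smul hσ (mem_codeSets.2 ⟨m, hm, rfl⟩)

theorem moves_of_test {gs : List ℕ} {u : ℕ} (hM : ∀ g ∈ gs, inM24 g = true)
    (hu : ∀ g ∈ gs, act g u = u)
    (ht : ((List.range 4096).all fun h => h == 0 ||
      gs.any fun g => !isCode (act g (h <<< 12) ^^^ h <<< 12)) = true) : Moves (word u) := by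
  intro w hw
  obtain ⟨m, hm, rfl⟩ := exists_word w
  obtain ⟨hn, hc⟩ := nf_spec hm
  have hn0 : nf m ≠ 0 := fun e => by
    rw [e, Nat.zero_shiftLeft, Nat.xor_zero] at hc
    exact hw ((word_mem_iff hm).2 hc)
  have := List.all_eq_true.1 ht (nf m) (List.mem_range.2 hn)
  simp only [Bool.or_eq_true, beq_iff_eq, hn0, false_or, List.any_eq_true, Bool.not_eq_true',
    ] at this
  obtain ⟨g, hg, hgc⟩ := this
  have hv := valid_of_inM24 (hM g hg)
  refine ⟨toPerm g, toPerm_mem_M24 (hM g hg), by rw [perm_word_eq hv, hu g hg], ?_⟩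
  rw [perm_word_eq hv, sub_eq_add_neg, neg_eq_self, ← word_xor,
    word_mem_iff (Nat.xor_lt_two_pow (n := 24) (act_lt hv m) hm)]
  intro hcon
  set h := nf m <<< 12 with hh
  have hc2 := perm_code (toPerm_mem_M24 (hM g hg)) hc
  rw [← act_eq hv] at hc2
  have hx : act g (m ^^^ h) = act g m ^^^ act g h := by
    rw [act_eq hv, act_eq hv m, act_eq hv h, toSet_xor, smul_symmDiff']
    exact eq_of_toSet_eq (mask_lt _) (Nat.xor_lt_two_pow (n := 24) (mask_lt _) (mask_lt _))
      (by rw [toSet_mask, toSet_xor, toSet_mask, toSet_mask])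
  rw [hx] at hc2
  have e : act g h ^^^ h = (act g m ^^^ act g h) ^^^ (m ^^^ h) ^^^ (act g m ^^^ m) := by
    apply Nat.eq_of_testBit_eq
    intro i
    simp only [Nat.testBit_xor]
    cases (act g h).testBit i <;> cases h.testBit i <;> cases (act g m).testBit i <;>
      cases m.testBit i <;> rfl
  rw [e, isCode_xor (isCode_xor hc2 hc) hcon] at hgc
  exact Bool.noConfusion hgc

theorem Moves.smul {u : GolayPt → ZMod 2} (h : Moves u) {τ : Equiv.Perm GolayPt} (hτ : τ ∈ M24) :
    Moves (fun p => u (τ.symm p)) := by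
  intro w hw
  obtain ⟨m, hm, rfl⟩ := exists_word w
  have hw' : (fun p => word m (τ p)) ∉ golayCode := by
    intro hc
    obtain ⟨k, hk, he⟩ := mem_code_iff.1 hc
    apply hw
    have e2 : (fun p => word (enc k) (τ.symm p)) = word m := by
      funext p; rw [congrFun he]; simp
    rw [← e2, perm_word, word_mem_iff (mask_lt _)]
    exact perm_code hτ (isCode_iff.2 ⟨k, hk, rfl⟩)
  obtain ⟨σ, hσ, h1, h2⟩ := h _ hw'
  refine ⟨τ * σ * τ⁻¹, mul_mem (mul_mem hτ hσ) (inv_mem hτ), ?_, ?_⟩
  · funext p
    have := congrFun h1 (τ.symm p)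
    simpa [Equiv.Perm.mul_def, Equiv.Perm.inv_def] using this
  · intro hc
    apply h2
    obtain ⟨k, hk, he⟩ := mem_code_iff.1 hc
    have e2 : (fun p => word m (τ (σ.symm p))) - (fun p => word m (τ p)) =
        fun p => word (enc k) ((τ⁻¹).symm p) := by
      funext p
      have := congrFun he (τ p)
      simp [Equiv.Perm.mul_def, Equiv.Perm.inv_def] at this ⊢
      rw [this]
    rw [e2, perm_word, word_mem_iff (mask_lt _)]
    exact perm_code (inv_mem hτ) (isCode_iff.2 ⟨k, hk, rfl⟩)


/-- Let u be a word of the length-24 binary Golay code of the definitions (possibly zero or all-ones) and w any binary word of length 24 outside the code. Then some automorphism of the code (a coordinate permutation preserving it) fixes u but moves w to a word not congruent to w modulo the code: the stabilizer of a codeword fixes no non-zero element of the quotient of the space of all words by the code. -/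
theorem result (u : (Cfsg.GolayPt → ZMod 2)) (hu : u ∈ Cfsg.golayCode) (w : (Cfsg.GolayPt → ZMod 2)) (hw : w ∉ Cfsg.golayCode) : ∃ σ ∈ Cfsg.M24, (fun p => u (σ.symm p)) = u ∧ (fun p => w (σ.symm p)) - w ∉ Cfsg.golayCode := by
  suffices Moves u from this w hw
  obtain ⟨k, hk, rfl⟩ := mem_code_iff.1 hu
  have hc : isCode (enc k) = true := isCode_iff.2 ⟨k, hk, rfl⟩
  have hgens := List.all_eq_true.1 inM24_gens
  have hfix0 : ∀ g, inM24 g = true → act g 0 = 0 ∧ act g FULL = FULL := fun g hg =>
    ⟨by rw [act_eq (valid_of_inM24 hg), toSet_zero, Finset.smul_finset_empty]; decide,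
     beq_iff_eq.1 (valid_of_inM24 hg)⟩
  have hfull0 : Moves (word 0) := moves_of_test hgens (fun g hg => (hfix0 g (hgens g hg)).1) test_full
  have hfull1 : Moves (word FULL) := moves_of_test hgens (fun g hg => (hfix0 g (hgens g hg)).2) test_full
  have hO := test_oct.1
  have hD := test_dod.1
  simp only [List.all_eq_true, Bool.and_eq_true, beq_iff_eq] at hO hD
  have o0c : octList.getD 0 0 ∈ octList := baseOctad_ok.1
  rcases pc_cases hc with h | h | h | h | h
  · rwa [show enc k = 0 from eq_of_toSet_eq (enc_lt k) (by norm_num)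
      (by rw [toSet_zero, ← Finset.card_eq_zero, card_toSet, h])]
  · obtain ⟨σ, hσ, he⟩ := M24_trans_octads (mem_octads.2 ⟨_, o0c, rfl⟩)
      (mem_octads.2 ⟨_, mem_octList.2 ⟨hc, h⟩, rfl⟩)
    have := (moves_of_test (fun g hg => (hO g hg).1) (fun g hg => (hO g hg).2) test_oct.2).smul hσ
    rwa [perm_word, he, mask_toSet (enc_lt k)] at this
  · have hd0 : d0 ∈ dodList := mem_dodList.2 (by decide +kernel)
    obtain ⟨σ, hσ, he⟩ := M24_trans_dodecads (mem_dodecads.2 ⟨_, hd0, rfl⟩)
      (mem_dodecads.2 ⟨_, mem_dodList.2 ⟨hc, h⟩, rfl⟩)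
    have := (moves_of_test (fun g hg => (hD g hg).1) (fun g hg => (hD g hg).2) test_dod.2).smul hσ
    rwa [perm_word, he, mask_toSet (enc_lt k)] at this
  · have h8 : pc (FULL ^^^ enc k) = 8 := by
      rw [← card_toSet, toSet_compl, Finset.card_compl, card_toSet, h]; decide
    have hc8 := mem_octList.2 ⟨isCode_xor (show isCode FULL = true by decide) hc, h8⟩
    obtain ⟨σ, hσ, he⟩ := M24_trans_octads (mem_octads.2 ⟨_, o0c, rfl⟩)
      (mem_octads.2 ⟨_, hc8, rfl⟩)
    have hfx : ∀ g ∈ octTwo, act g (FULL ^^^ octList.getD 0 0) = FULL ^^^ octList.getD 0 0 := by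
      intro g hg
      have hv := valid_of_inM24 (hO g hg).1
      refine eq_of_toSet_eq (act_lt hv _)
        (Nat.xor_lt_two_pow (n := 24) (by norm_num) (lt_octList o0c)) ?_
      rw [← smul_toSet hv, toSet_compl, Finset.compl_eq_univ_sdiff, Finset.smul_finset_sdiff,
        Finset.smul_finset_univ, smul_toSet hv, (hO g hg).2]
    have := (moves_of_test (fun g hg => (hO g hg).1) hfx test_oct.2).smul hσ
    rwa [perm_word, toSet_compl, Finset.compl_eq_univ_sdiff, Finset.smul_finset_sdiff,
      Finset.smul_finset_univ, he, ← Finset.compl_eq_univ_sdiff, ← toSet_compl, ← Nat.xor_assoc,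
      Nat.xor_self, Nat.zero_xor, mask_toSet (enc_lt k)] at this
  · rwa [show enc k = FULL from eq_of_toSet_eq (enc_lt k) (by norm_num) (by
      rw [toSet_full]; exact Finset.eq_univ_of_card _ (by rw [card_toSet, h]; decide))]

end Cfsg.Agent.S5550
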