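import Cfsg.Statements.S5553
import Cfsg.Agent.Lib.Leech.Basic
-- import your own Cfsg.Agent.* helpers here

set_option autoImplicit false
open Cfsg Agent.Lib.Golay Agent.Lib.Leech

namespace Cfsg.Agent.S5553

/-- The Leech lattice of the definitions has an additive subgroup A containing twice the lattice, of index 2^12 in the lattice, all of whose vectors have squared length divisible by 32: the invariant quadratic form 'squared length over 16 modulo 2' on the lattice modulo twice the lattice (a 24-dimensional space over the field with two elements) vanishes on a 12-dimensional subspace, so it is of plus type. -/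
theorem result : ∃ A : AddSubgroup (Cfsg.GolayPt → ℤ), A ≤ Cfsg.leechLattice ∧ (∀ v ∈ Cfsg.leechLattice, (2 : ℤ) • v ∈ A) ∧ (A.addSubgroupOf Cfsg.leechLattice).index = 2 ^ 12 ∧ ∀ v ∈ A, (32 : ℤ) ∣ Cfsg.sqNorm v := by
  classical
  let φ : ↥Cfsg.leechLattice →+ ZMod 2 × (Cfsg.GolayPt → ZMod 2) :=
    { toFun := fun x => (((x.1 none : ℤ) : ZMod 2), fun i => (((x.1 i - x.1 none) / 2 : ℤ) : ZMod 2))
      map_zero' := by ext <;> simp
      map_add' := fun x x' => by
        obtain ⟨m, y, -, hy, -⟩ := mem_iff.1 x.2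
        obtain ⟨m', y', -, hy', -⟩ := mem_iff.1 x'.2
        refine Prod.ext (by simp) (funext fun i => ?_)
        simp only [AddSubgroup.coe_add, Pi.add_apply, Prod.mk_add_mk, hy, hy']
        rw [← Int.cast_add]; congr 1; omega }
  refine ⟨φ.ker.map Cfsg.leechLattice.subtype, ?_, ?_, ?_, ?_⟩
  · rintro _ ⟨v, -, rfl⟩; exact v.2
  · intro v hv
    refine ⟨(2 : ℤ) • ⟨v, hv⟩, ?_, rfl⟩
    rw [SetLike.mem_coe, AddMonoidHom.mem_ker, map_zsmul]
    exact (by decide : ∀ a : ZMod 2, (2 : ℤ) • a = 0) |> fun h => Prod.ext (h _) (funext fun i => h _)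
  · rw [show (φ.ker.map Cfsg.leechLattice.subtype).addSubgroupOf Cfsg.leechLattice = φ.ker from
      AddSubgroup.comap_map_eq_self_of_injective Subtype.val_injective φ.ker, AddSubgroup.index_ker]
    have hr : (φ.range : Set (ZMod 2 × (Cfsg.GolayPt → ZMod 2))) = Set.univ ×ˢ {w | w ∈ Cfsg.golayCode ∧ w none = 0} := by
      ext ⟨p, w⟩
      simp only [SetLike.mem_coe, AddMonoidHom.mem_range, Set.mem_prod, Set.mem_univ, true_and, Set.mem_setOf_eq]
      constructor
      · rintro ⟨x, hx⟩
        obtain ⟨m, y, -, hy, -, hw⟩ := mem_iff.1 x.2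
        obtain rfl : (fun i => (((x.1 i - x.1 none) / 2 : ℤ) : ZMod 2)) = w := congrArg Prod.snd hx
        refine ⟨?_, by simp⟩
        convert Submodule.add_mem _ hw (Submodule.smul_mem Cfsg.golayCode ((y none : ℤ) : ZMod 2) one_mem) using 1
        funext i
        have : (x.1 i - x.1 none) / 2 = y i - y none := by rw [hy, hy]; omega
        simp [this, CharTwo.sub_eq_add]
      · rintro ⟨hw, hw0⟩
        let yv : Cfsg.GolayPt → ℤ := fun i => ((w i).val : ℤ)
        have hyc : (fun i => ((yv i : ℤ) : ZMod 2)) = w := funext fun i => by simp [yv]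
        have hsum : (4 : ℤ) ∣ ∑ i, yv i := by
          have hc := card_cases (support_mem hw)
          have : ∑ i, yv i = ((Cfsg.support₂ w).card : ℤ) := by
            rw [Cfsg.support₂, ← Finset.sum_boole]
            exact Finset.sum_congr rfl fun i _ => (by decide : ∀ a : ZMod 2, ((a.val : ℤ)) = if a ≠ 0 then 1 else 0) _
          omega
        rcases (by decide : ∀ a : ZMod 2, a = 0 ∨ a = 1) p with rfl | rfl
        · refine ⟨⟨fun i => 2 * yv i, mem_iff.2 ⟨0, yv, Or.inl rfl, fun i => by ring, ?_, by rwa [hyc]⟩⟩, Prod.ext ?_ (funext fun i => ?_)⟩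
          · rw [← Finset.mul_sum]; omega
          · simp [φ, yv, hw0]
          · simp [φ, yv, hw0]
        · let y' : Cfsg.GolayPt → ℤ := fun i => yv i + if i = none then 2 else 0
          have hyc' : (fun i => ((y' i : ℤ) : ZMod 2)) = w := funext fun i => by
            simp only [y', Int.cast_add, ← congrFun hyc i, Int.cast_ite]
            split_ifs <;> simp [show (2 : ZMod 2) = 0 from rfl]
          refine ⟨⟨fun i => 1 + 2 * y' i, mem_iff.2 ⟨1, y', Or.inr rfl, fun i => rfl, ?_, by rwa [hyc']⟩⟩, Prod.ext ?_ (funext fun i => ?_)⟩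
          · simp only [y', Finset.sum_add_distrib, mul_add, ← Finset.mul_sum, Finset.sum_ite_eq', Finset.mem_univ, if_true, Finset.sum_const, nsmul_one]
            simp only [Finset.card_univ, show Fintype.card Cfsg.GolayPt = 24 from rfl, Nat.cast_ofNat]
            omega
          · simp only [φ, AddMonoidHom.coe_mk, ZeroHom.coe_mk, y', yv, hw0, ZMod.val_zero]
            decide
          · show (((1 + 2 * y' i - (1 + 2 * y' none)) / 2 : ℤ) : ZMod 2) = w i
            rw [show (1 + 2 * y' i - (1 + 2 * y' none)) / 2 = y' i - y' none by omega, Int.cast_sub,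
              congrFun hyc' i, congrFun hyc' none, hw0, sub_zero]
    rw [show Nat.card φ.range = Nat.card ↥(φ.range : Set (ZMod 2 × (Cfsg.GolayPt → ZMod 2))) from rfl, hr,
      Nat.card_congr (Equiv.Set.prod _ _), Nat.card_prod, Nat.card_congr (Equiv.Set.univ (ZMod 2)), Nat.card_zmod]
    have hS : Nat.card ({w | w ∈ Cfsg.golayCode ∧ w none = 0} : Set (Cfsg.GolayPt → ZMod 2)) * 2 = 4096 := by
      rw [show Nat.card ({w | w ∈ Cfsg.golayCode ∧ w none = 0} : Set (Cfsg.GolayPt → ZMod 2)) * 2 =
        Nat.card (({w | w ∈ Cfsg.golayCode ∧ w none = 0} : Set (Cfsg.GolayPt → ZMod 2)) × ZMod 2) by rw [Nat.card_prod, Nat.card_zmod]]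
      let e : ({w | w ∈ Cfsg.golayCode ∧ w none = 0} : Set (Cfsg.GolayPt → ZMod 2)) × ZMod 2 ≃ ↥Cfsg.golayCode :=
        { toFun := fun p => ⟨p.1.1 + p.2 • 1, Submodule.add_mem _ p.1.2.1 (Submodule.smul_mem _ _ one_mem)⟩
          invFun := fun w => (⟨w.1 + (w.1 none) • 1, Submodule.add_mem _ w.2 (Submodule.smul_mem _ _ one_mem),
            by simp [CharTwo.add_self_eq_zero]⟩, w.1 none)
          left_inv := fun p => by
            have h := p.1.2.2
            refine Prod.ext (Subtype.ext (funext fun i => ?_)) ?_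
            · simp [h, add_assoc, CharTwo.add_self_eq_zero]
            · simp [h]
          right_inv := fun w => Subtype.ext (funext fun i => by simp [add_assoc, CharTwo.add_self_eq_zero]) }
      rw [Nat.card_congr e, show Nat.card ↥Cfsg.golayCode = (Cfsg.golayCode : Set (Cfsg.GolayPt → ZMod 2)).ncard from rfl,
        show (Cfsg.golayCode : Set (Cfsg.GolayPt → ZMod 2)) = ↑((Finset.range 4096).image fun k => word (enc k)) by
          ext w; rw [SetLike.mem_coe, mem_code_iff]; simp,
        Set.ncard_coe_finset, Finset.card_image_of_injOn ?_, Finset.card_range]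
      intro a ha b hb e'
      simp only [Finset.coe_range, Set.mem_Iio] at ha hb
      rw [← enc_mod a ha, ← enc_mod b hb, word_inj (enc_lt a) (enc_lt b) e']
    omega
  · rintro _ ⟨x, hx, rfl⟩
    obtain ⟨m, y, hm, hy, hs, -⟩ := mem_iff.1 x.2
    rw [SetLike.mem_coe, AddMonoidHom.mem_ker, Prod.ext_iff] at hx
    have hm0 : m = 0 := by
      have : (((x.1 none : ℤ)) : ZMod 2) = 0 := hx.1
      rw [ZMod.intCast_zmod_eq_zero_iff_dvd, hy] at this
      omega
    subst hm0
    have hpar : ∀ i, (2 : ℤ) ∣ y i - y none := fun i => by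
      have : ((((x.1 i - x.1 none) / 2 : ℤ)) : ZMod 2) = 0 := congrFun hx.2 i
      rw [ZMod.intCast_zmod_eq_zero_iff_dvd, hy, hy] at this
      omega
    have e1 : Cfsg.sqNorm (x.1) = 4 * ∑ i, y i ^ 2 := by
      rw [Cfsg.sqNorm, Finset.mul_sum]; exact Finset.sum_congr rfl fun i _ => by rw [hy]; ring
    have e2 : ∑ i, x.1 i = 2 * ∑ i, y i := by
      rw [Finset.mul_sum]; exact Finset.sum_congr rfl fun i _ => by rw [hy]; ring
    have hbound : (8 : ℤ) ∣ ∑ i, y i ^ 2 := by
      rcases Int.emod_two_eq_zero_or_one (y none) with h | h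
      · choose z hz using fun i => (show (2 : ℤ) ∣ y i by have := hpar i; omega)
        have a1 : ∑ i, y i ^ 2 = 4 * ∑ i, z i ^ 2 := by
          rw [Finset.mul_sum]; exact Finset.sum_congr rfl fun i _ => by rw [hz]; ring
        have a2 : ∑ i, y i = 2 * ∑ i, z i := by
          rw [Finset.mul_sum]; exact Finset.sum_congr rfl fun i _ => hz i
        have a3 : (2 : ℤ) ∣ ∑ i, (z i ^ 2 - z i) := Finset.dvd_sum fun i _ => by
          rw [show z i ^ 2 - z i = z i * (z i - 1) by ring]; exact even_iff_two_dvd.1 (Int.even_mul_pred_self _)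
        rw [Finset.sum_sub_distrib] at a3
        omega
      · have a3 : (8 : ℤ) ∣ ∑ i, (y i ^ 2 - 1) := Finset.dvd_sum fun i _ => by
          obtain ⟨t, ht⟩ : ∃ t, y i = 2 * t + 1 := ⟨y i / 2, by have := hpar i; omega⟩
          rw [ht, show (2 * t + 1) ^ 2 - 1 = 4 * (t * (t + 1)) by ring]
          obtain ⟨u, hu⟩ := even_iff_two_dvd.1 (Int.even_mul_succ_self t)
          rw [hu]; exact ⟨u, by ring⟩
        rw [Finset.sum_sub_distrib, Finset.sum_const, Finset.card_univ, show Fintype.card Cfsg.GolayPt = 24 from rfl, nsmul_eq_mul, mul_one] at a3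
        omega
    show (32 : ℤ) ∣ Cfsg.sqNorm (x.1)
    omega

end Cfsg.Agent.S5553
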