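import Cfsg.Statements.S5594
import Cfsg.Agent.Lib.Leech.Basic
-- import your own Cfsg.Agent.* helpers here

set_option autoImplicit false
open Cfsg Agent.Lib.Golay Agent.Lib.Leech

namespace Cfsg.Agent.S5594

/-- The automorphism group of the Leech lattice contains the negation map, and the subgroup of order 2 it generates has no complement: the automorphism group is a non-split extension of its quotient by that subgroup (it is not the direct product of a group of order 2 with the first Conway group). -/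
theorem result :
    ∃ n : ↥Cfsg.Co0, (∀ v : ↥Cfsg.leechLattice, ((n • v : ↥Cfsg.leechLattice) : Cfsg.GolayPt → ℤ) = -(v : Cfsg.GolayPt → ℤ)) ∧
    ∀ K : Subgroup ↥Cfsg.Co0, ¬ (Subgroup.zpowers n).IsComplement' K := by
  classical
  let n₀ : Equiv.Perm ↥Cfsg.leechLattice := Equiv.neg _
  have hn : n₀ ∈ Cfsg.Co0 := ⟨fun v w => neg_add v w, fun v => by
    simp [n₀, Cfsg.sqNorm]⟩
  have hsq : ∀ i, projInv (projInv i) = i := projInv.left_inv
  have hC : ∀ i, projInv i ∈ toSet 0xf9e034 ↔ i ∉ toSet 0xf9e034 := by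
    simp only [mem_toSet]; decide +kernel
  have hCc : toSet 0xf9e034 ∈ codeSets :=
    (toSet_mem_codeSets (by norm_num)).2 (by decide +kernel)
  let F : ↥Cfsg.leechLattice → ↥Cfsg.leechLattice := fun v =>
    ⟨_, flip_mem hCc (perm_mem projInv_mem v.2)⟩
  have hF : ∀ v, F (F v) = -v := fun v => by
    apply Subtype.ext
    funext i
    simp only [F, NegMemClass.coe_neg, Pi.neg_apply, hC i, hsq]
    by_cases hi : i ∈ toSet 0xf9e034 <;> simp [hi]
  have hFneg : ∀ v, F (-v) = -F v := fun v => by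
    apply Subtype.ext
    funext i
    simp only [F, NegMemClass.coe_neg, Pi.neg_apply]
    split_ifs <;> rfl
  let g : Equiv.Perm ↥Cfsg.leechLattice :=
    ⟨F, fun v => -F v, fun v => by simp only [hF, neg_neg], fun v => by
      show F (-F v) = v
      rw [hFneg, hF, neg_neg]⟩
  have hg : g ∈ Cfsg.Co0 := by
    refine ⟨fun v w => Subtype.ext (funext fun i => ?_), fun v => ?_⟩
    · simp only [g, Equiv.coe_fn_mk, F, AddSubgroup.coe_add, Pi.add_apply]
      split_ifs <;> ring
    · simp only [g, Equiv.coe_fn_mk, F, Cfsg.sqNorm]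
      rw [← Equiv.sum_comp projInv fun i => ((v : Cfsg.GolayPt → ℤ) i) ^ 2]
      exact Finset.sum_congr rfl fun i _ => by split_ifs <;> ring
  let N : ↥Cfsg.Co0 := ⟨n₀, hn⟩
  let S : ↥Cfsg.Co0 := ⟨g, hg⟩
  have hSS : S * S = N := Subtype.ext (Equiv.ext fun v => hF v)
  have hNN : N * N = 1 := Subtype.ext (Equiv.ext fun v => neg_neg v)
  refine ⟨N, fun v => rfl, fun K hK => ?_⟩
  have hNK : N ∉ K := fun h => by
    have h1 := (Subgroup.disjoint_def.1 hK.disjoint) (Subgroup.mem_zpowers N) h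
    obtain ⟨v, hv⟩ : ∃ v : ↥Cfsg.leechLattice, v ≠ 0 := by
      refine ⟨⟨fun _ => 2, Cfsg.Agent.Lib.Leech.mem_iff.2 ⟨0, fun _ => 1, Or.inl rfl, fun i => by norm_num, ?_, ?_⟩⟩, ?_⟩
      · norm_num
      · convert Cfsg.Agent.Lib.Leech.one_mem using 1
        funext i; simp
      · intro e
        have := congrArg (fun v : ↥Cfsg.leechLattice => (v : Cfsg.GolayPt → ℤ) none) e
        simp at this
    have h2 : -v = v := congrArg (fun h : ↥Cfsg.Co0 => (h : Equiv.Perm ↥Cfsg.leechLattice) v) h1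
    apply hv
    apply Subtype.ext
    funext i
    have := congrArg (fun v : ↥Cfsg.leechLattice => (v : Cfsg.GolayPt → ℤ) i) h2
    simp only [NegMemClass.coe_neg, Pi.neg_apply, ZeroMemClass.coe_zero, Pi.zero_apply] at this ⊢
    omega
  obtain ⟨⟨z, k⟩, e⟩ := hK.2 S
  simp only at e
  have hz : z.1 * z.1 = 1 := by
    obtain ⟨j, hj⟩ := Subgroup.mem_zpowers_iff.1 z.2
    rw [← hj, ← (Commute.refl N).mul_zpow, hNN, one_zpow]
  have hc : Commute z.1 S := by
    obtain ⟨j, hj⟩ := Subgroup.mem_zpowers_iff.1 z.2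
    rw [← hj, ← hSS]
    exact ((Commute.refl S).mul_left (Commute.refl S)).zpow_left j
  have hk : k.1 = z.1 * S := by rw [← e, ← mul_assoc, hz, one_mul]
  apply hNK
  have h2 : k.1 * k.1 = N := by
    rw [hk, hc.symm.mul_mul_mul_comm, hz, one_mul, hSS]
  rw [← h2]; exact K.mul_mem k.2 k.2

end Cfsg.Agent.S5594
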