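import Cfsg.Statements.S5600
import Cfsg.Agent.Lib.Golay.Action
import Cfsg.Agent.Lib.Golay.Subgroups
-- import your own Cfsg.Agent.* helpers here

set_option autoImplicit false
open scoped Pointwise
open Cfsg

namespace Cfsg.Agent.S5600

open Cfsg
open Cfsg.Agent.Lib.Golay
open scoped Pointwise

def swapsIn : List ℕ := [
    476626026817462605003823666830608385,
    350859608458209689963878838268166178,
    550638847310434913236239439299086371,
    479582316716546470872667329587677220,
    388659476057317061261806766185875495,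
    358987604433636957913629618432214080,
    548738657762206402785383972253763680,
    569420341246414282789501369976981632,
    482256345453983557248055017994291424,
    879140236599877914832287806815013920,
    935439055450360491976895627241033760,
    731204030099156317311793769243319328,
    469283793516597023287824361234499616,
    479904884594083568807429383798360096,
    932690933910365186704865067915118624]

def swapsOut : List ℕ := [
    592790562009131377257278574663141377,
    984284525137426110706786460229533730,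
    975731401803090368440380524540725283,
    568819288823060141115086919639861284,
    735581646151834478568078236836792357,
    734312727911735380586804810015147072,
    731691358918902897888372871990904928,
    943965630382078435804797996752799872,
    969231174250762110498729277811427488,
    735500604421669808992593446508235808,
    693759316912009311426731137545900064,
    610519923311516637246277765738632224,
    774329860015205609549212298664609824,
    726298281821961352374893642824976416,
    317002149892226809164728472370776096]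

/-- A certificate that every transposition of the set is induced. -/
def swapsOK (six : List ℕ) (L : List ℕ) : Bool :=
  L.all inM24 && six.all fun a => six.all fun b => (a == b) || L.any fun g =>
    (img g a == b) && (img g b == a) && six.all fun c => (c == a) || (c == b) || (img g c == c)

theorem swapsIn_ok : swapsOK [0, 1, 2, 3, 4, 7] swapsIn = true := by decide +kernel

theorem swapsOut_ok : swapsOK [0, 1, 2, 3, 4, 5] swapsOut = true := by decide +kernel

/-- All transpositions of the set are induced by the group. -/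
def Swaps (E : Finset GolayPt) : Prop :=
  ∀ a ∈ E, ∀ b ∈ E, a ≠ b → ∃ g ∈ M24, g a = b ∧ g b = a ∧ ∀ c ∈ E, c ≠ a → c ≠ b → g c = c

theorem swaps_of_ok {six L : List ℕ} {F : ℕ} (h : swapsOK six L = true)
    (hF : ∀ p, p ∈ toSet F → ix p ∈ six) (hsix : ∀ i ∈ six, i < 24) : Swaps (toSet F) := by
  intro a ha b hb hne
  simp only [swapsOK, Bool.and_eq_true, List.all_eq_true, List.any_eq_true, Bool.or_eq_true,
    beq_iff_eq] at h
  rcases h.2 _ (hF a ha) _ (hF b hb) with h2 | ⟨g, hg, ⟨hab, hba⟩, hrest⟩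
  · exact absurd (ix_inj h2) hne
  have hv := valid_of_inM24 (h.1 g hg)
  refine ⟨toPerm g, toPerm_mem_M24 (h.1 g hg), ?_, ?_, fun c hc hca hcb => ?_⟩
  · rw [toPerm_apply hv, hab, pt_ix]
  · rw [toPerm_apply hv, hba, pt_ix]
  · rcases hrest _ (hF c hc) with (h3 | h3) | h3
    · exact absurd (ix_inj h3) hca
    · exact absurd (ix_inj h3) hcb
    · rw [toPerm_apply hv, h3, pt_ix]

theorem Swaps.smul {E : Finset GolayPt} (h : Swaps E) {σ : Equiv.Perm GolayPt} (hσ : σ ∈ M24) :
    Swaps (σ • E) := by
  intro a ha b hb hne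
  obtain ⟨a, ha', rfl⟩ := Finset.mem_smul_finset.1 ha
  obtain ⟨b, hb', rfl⟩ := Finset.mem_smul_finset.1 hb
  obtain ⟨g, hg, h1, h2, h3⟩ := h a ha' b hb' (fun e => hne (by rw [e]))
  refine ⟨σ * g * σ⁻¹, mul_mem (mul_mem hσ hg) (inv_mem hσ), ?_, ?_, fun c hc hca hcb => ?_⟩
  · simp [Equiv.Perm.smul_def, h1]
  · simp [Equiv.Perm.smul_def, h2]
  · obtain ⟨c, hc', rfl⟩ := Finset.mem_smul_finset.1 hc
    simp [Equiv.Perm.smul_def, h3 c hc' (fun e => hca (by rw [e])) (fun e => hcb (by rw [e]))]

/-- The pointwise stabiliser. -/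
def fixes (E : Finset GolayPt) : Subgroup (Equiv.Perm GolayPt) :=
  M24 ⊓ fixingSubgroup (Equiv.Perm GolayPt) (E : Set GolayPt)

theorem mem_fixes {E : Finset GolayPt} {g : Equiv.Perm GolayPt} :
    g ∈ fixes E ↔ g ∈ M24 ∧ ∀ p ∈ E, g p = p := by
  simp [fixes, Subgroup.mem_inf, mem_fixingSubgroup_iff]

theorem fixes_conj {σ : Equiv.Perm GolayPt} (hσ : σ ∈ M24) (E : Finset GolayPt)
    (g : Equiv.Perm GolayPt) : g ∈ fixes E ↔ σ * g * σ⁻¹ ∈ fixes (σ • E) := by
  simp only [mem_fixes, ← mem_M24_conj hσ]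
  refine and_congr_right fun _ => ⟨fun h p hp => ?_, fun h p hp => ?_⟩
  · obtain ⟨q, hq, rfl⟩ := Finset.mem_smul_finset.1 hp
    simp [Equiv.Perm.smul_def, h q hq]
  · have := h _ (Finset.smul_mem_smul_finset (a := σ) hp)
    simpa [Equiv.Perm.smul_def] using this

theorem mask_facts : toSet (baseMask 5) = toSet 31 ∧ (baseMask 6 = 159 ∧ baseMask 5 = 31) ∧
    pc (levelOrbit 5) = 3 ∧ pc (levelOrbit 6) = 16 ∧ levelOrbit 6 = FULL ^^^ octList.getD 0 0 ∧
    levelOrbit 5 = octList.getD 0 0 ^^^ baseMask 5 ∧ basePts.getD 5 0 = 7 ∧ basePts.getD 6 0 = 5 := by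
  decide +kernel

theorem card_in : Nat.card (fixes (toSet 159)) = 16 := by
  show Nat.card (fixes (toSet 159)) = 16
  have e : fixes (toSet 159) = level 6 := by rw [← mask_facts.2.1.1]; rfl
  rw [e, (level_step 6 (by norm_num)).1, level_seven, Subgroup.card_bot, mask_facts.2.2.2.1]

theorem base_octad_out {σ : Equiv.Perm GolayPt} (hσ : σ ∈ level 5) :
    σ (pt 5) ∈ toSet (levelOrbit 6) := by
  obtain ⟨ho, -, h6, hc, -, -, -, -⟩ := baseOctad_ok
  rw [h6, toSet_compl, Finset.mem_compl, mem_toSet_smul (octad_fixed_level ho hc hσ), mem_toSet]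
  decide +kernel

theorem level6_le5 : level 6 ≤ level 5 := by
  rw [← level_succ 5 (by norm_num)]; exact inf_le_left

theorem card_out : Nat.card (fixes (toSet 63)) = 3 := by
  have h := card_eq_orbit_mul (level 5) (pt 5) (toSet (levelOrbit 6) : Set GolayPt)
    (fun σ hσ => base_octad_out hσ) (fun y hy => by
      obtain ⟨σ, hσ, he⟩ := (level_step 6 (by norm_num)).2.2 y hy
      rw [mask_facts.2.2.2.2.2.2.2] at he
      exact ⟨σ, level6_le5 hσ, he⟩)
  rw [Set.ncard_coe_finset, card_toSet, mask_facts.2.2.2.1, (level_step 5 (by norm_num)).1,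
    (level_step 6 (by norm_num)).1, level_seven, Subgroup.card_bot, mask_facts.2.2.1,
    mask_facts.2.2.2.1] at h
  have e : fixes (toSet 63) = level 5 ⊓ MulAction.stabilizer (Equiv.Perm GolayPt) (pt 5) := by
    ext g
    simp only [mem_fixes, Subgroup.mem_inf, mem_level, MulAction.mem_stabilizer_iff,
      Equiv.Perm.smul_def, mask_facts.2.1.2]
    have hdec : ∀ p, p ∈ toSet 63 ↔ p ∈ toSet 31 ∨ p = pt 5 := by decide +kernel
    simp only [hdec]
    constructor
    · rintro ⟨h1, h2⟩; exact ⟨⟨h1, fun p hp => h2 p (Or.inl hp)⟩, h2 _ (Or.inr rfl)⟩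
    · rintro ⟨⟨h1, h2⟩, h3⟩
      refine ⟨h1, fun p hp => ?_⟩
      rcases hp with hp | rfl
      exacts [h2 p hp, h3]
  rw [e]
  omega

theorem six_cases {E : Finset GolayPt} (hE : E.card = 6) :
    ∃ σ ∈ M24, σ • toSet 159 = E ∨ σ • toSet 63 = E := by
  let e := (E.equivFinOfCardEq hE).symm
  obtain ⟨σ, hσ, he⟩ := exists_to_base 5 le_rfl
    (fun i => if h : i < 6 then (e ⟨i, h⟩ : GolayPt) else none) (fun i hi j hj h => by
      simp only [show i < 6 by omega, show j < 6 by omega, dif_pos] at h
      exact congrArg Fin.val (e.injective (Subtype.ext h)))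
  set y : GolayPt := σ⁻¹ (e ⟨5, by norm_num⟩) with hy
  have hb : ∀ i < 5, basePts.getD i 0 = i := by decide
  have hy5 : y ∉ toSet (baseMask 5) := by
    rw [mask_facts.1]
    intro hmem
    have : ∀ p ∈ toSet 31, ∃ i < 5, p = pt i := by decide +kernel
    obtain ⟨i, hi, hpi⟩ := this y hmem
    have h2 : σ y = e ⟨5, by norm_num⟩ := by rw [hy]; simp
    rw [hpi] at h2
    have h3 := he i hi
    rw [hb i hi, h2, dif_pos (show i < 6 by omega)] at h3
    have := congrArg Fin.val (e.injective (Subtype.ext h3))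
    simp at this
    omega
  have hsub : ∀ τ ∈ level 5, ∀ z, τ z = y → ∀ F, (∀ p ∈ toSet F, p ∈ toSet 31 ∨ p = z) →
      (toSet F).card = 6 → (σ * τ) • toSet F = E := by
    intro τ hτ z hz F hF hc
    refine Finset.eq_of_subset_of_card_le ?_ (by rw [Finset.card_smul_finset, hc, hE])
    intro q hq
    obtain ⟨p, hp, rfl⟩ := Finset.mem_smul_finset.1 hq
    rcases hF p hp with h31 | rfl
    · have : ∀ p ∈ toSet 31, ∃ i < 5, p = pt i := by decide +kernel
      obtain ⟨i, hi, rfl⟩ := this p h31
      rw [Equiv.Perm.smul_def, Equiv.Perm.mul_apply,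
        (mem_level.1 hτ).2 _ (by rw [mask_facts.1]; exact h31)]
      have h3 := he i hi
      rw [hb i hi, dif_pos (show i < 6 by omega)] at h3
      rw [h3]; exact Finset.coe_mem _
    · rw [Equiv.Perm.smul_def, Equiv.Perm.mul_apply, hz, hy]
      simp
  by_cases hin : y ∈ toSet (levelOrbit 5)
  · obtain ⟨τ, hτ, hτy⟩ := (level_step 5 (by norm_num)).2.2 y hin
    rw [mask_facts.2.2.2.2.2.2.1] at hτy
    refine ⟨σ * τ, mul_mem hσ (mem_level.1 hτ).1, Or.inl (hsub τ hτ _ hτy 159 ?_ ?_)⟩
    · decide +kernel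
    · decide +kernel
  · obtain ⟨τ, hτ, hτy⟩ := (level_step 6 (by norm_num)).2.2 y (by
      rw [mask_facts.2.2.2.2.1, toSet_compl, Finset.mem_compl]
      rw [mask_facts.2.2.2.2.2.1, toSet_xor, Finset.mem_symmDiff] at hin
      exact fun h => hin (Or.inl ⟨h, hy5⟩))
    rw [mask_facts.2.2.2.2.2.2.2] at hτy
    refine ⟨σ * τ, mul_mem hσ (mem_level.1 hτ).1, Or.inr (hsub τ (level6_le5 hτ) _ hτy 63 ?_ ?_)⟩
    · decide +kernel
    · decide +kernel

theorem in_octad_iff {σ : Equiv.Perm GolayPt} (hσ : σ ∈ M24) (s : Finset GolayPt) :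
    (∃ o ∈ octads, σ • s ⊆ o) ↔ ∃ o ∈ octads, s ⊆ o := by
  constructor
  · rintro ⟨o, ho, h⟩
    refine ⟨σ⁻¹ • o, smul_mem_octads (inv_mem hσ) ho, ?_⟩
    have := Finset.smul_finset_subset_smul_finset (a := σ⁻¹) h
    rwa [inv_smul_smul] at this
  · rintro ⟨o, ho, h⟩
    exact ⟨σ • o, smul_mem_octads hσ ho, Finset.smul_finset_subset_smul_finset h⟩

theorem in_octad_std : (∃ o ∈ octads, toSet 159 ⊆ o) ∧ ¬ ∃ o ∈ octads, toSet 63 ⊆ o := by
  constructor
  · exact ⟨toSet (octList.getD 0 0), mem_octads.2 ⟨_, baseOctad_ok.1, rfl⟩,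
      (toSet_subset (by norm_num)).2 (by decide +kernel)⟩
  · rintro ⟨o, ho, h⟩
    obtain ⟨m, hm, rfl⟩ := mem_octads.1 ho
    have key : (octList.all fun m => 63 &&& m != 63) = true := by decide +kernel
    have := List.all_eq_true.1 key m hm
    rw [(toSet_subset (by norm_num)).1 h] at this
    simp at this

theorem stab_card {E : Finset GolayPt} (h : ∀ σ : Equiv.Perm E, ∃ g ∈ M24, ∀ p : E, g p = σ p) :
    Nat.card (MulAction.stabilizer M24 E) = Nat.factorial E.card * Nat.card (fixes E) := by
  have hmap : ∀ g : MulAction.stabilizer M24 E, ∀ p : GolayPt,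
      ((g : M24) : Equiv.Perm GolayPt) p ∈ E ↔ p ∈ E := by
    intro g p
    have hg : ((g : M24) : Equiv.Perm GolayPt) • E = E := g.2
    have h2 : ((g : M24) : Equiv.Perm GolayPt) • p ∈ ((g : M24) : Equiv.Perm GolayPt) • E ↔ p ∈ E :=
      Finset.smul_mem_smul_finset_iff _
    simpa only [hg, Equiv.Perm.smul_def] using h2
  let f : MulAction.stabilizer M24 E →* Equiv.Perm E :=
    MonoidHom.mk' (fun g => ((g : M24) : Equiv.Perm GolayPt).subtypePerm (hmap g))
      (fun a b => Equiv.ext fun p => Subtype.ext rfl)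
  have hsurj : Function.Surjective f := by
    intro σ
    obtain ⟨g, hg, he⟩ := h σ
    have hgE : g • E = E := by
      refine Finset.eq_of_subset_of_card_le ?_ (by rw [Finset.card_smul_finset])
      intro q hq
      obtain ⟨p, hp, rfl⟩ := Finset.mem_smul_finset.1 hq
      rw [Equiv.Perm.smul_def, he ⟨p, hp⟩]
      exact Finset.coe_mem _
    exact ⟨⟨⟨g, hg⟩, hgE⟩, Equiv.ext fun p => Subtype.ext (he p)⟩
  have h1 := f.ker.card_mul_index
  rw [Subgroup.index_ker, MonoidHom.range_eq_top.2 hsurj, Subgroup.card_top] at h1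
  rw [← h1, Nat.card_eq_fintype_card (α := Equiv.Perm E), Fintype.card_perm, Fintype.card_coe,
    mul_comm]
  congr 1
  refine Nat.card_congr
    { toFun := fun g => ⟨((g : MulAction.stabilizer M24 E) : M24), mem_fixes.2 ⟨(g.1.1).2, fun p hp =>
        congrArg Subtype.val (Equiv.congr_fun (MonoidHom.mem_ker.1 g.2) ⟨p, hp⟩)⟩⟩
      invFun := fun g => ⟨⟨⟨g, (mem_fixes.1 g.2).1⟩, by
        show (g : Equiv.Perm GolayPt) • E = E
        refine Finset.eq_of_subset_of_card_le ?_ (by rw [Finset.card_smul_finset])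
        intro q hq
        obtain ⟨p, hp, rfl⟩ := Finset.mem_smul_finset.1 hq
        rw [Equiv.Perm.smul_def, (mem_fixes.1 g.2).2 p hp]; exact hp⟩,
        MonoidHom.mem_ker.2 (Equiv.ext fun p => Subtype.ext ((mem_fixes.1 g.2).2 p p.2))⟩
      left_inv := fun g => rfl
      right_inv := fun g => rfl }

theorem all_perms {E : Finset GolayPt} (h : Swaps E) (σ : Equiv.Perm E) :
    ∃ g ∈ M24, ∀ p : E, g p = σ p := by
  induction σ using Equiv.Perm.swap_induction_on with
  | one => exact ⟨1, one_mem _, fun p => rfl⟩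
  | swap_mul f x y hxy ih =>
    obtain ⟨g, hg, he⟩ := ih
    obtain ⟨s, hs, h1, h2, h3⟩ := h x x.2 y y.2 (fun e => hxy (Subtype.ext e))
    refine ⟨s * g, mul_mem hs hg, fun p => ?_⟩
    rw [Equiv.Perm.mul_apply, he p, Equiv.Perm.mul_apply]
    rcases eq_or_ne (f p) x with e | e
    · rw [e, Equiv.swap_apply_left, h1]
    rcases eq_or_ne (f p) y with e' | e'
    · rw [e', Equiv.swap_apply_right, h2]
    · rw [Equiv.swap_apply_of_ne_of_ne e e']
      exact h3 _ (f p).2 (fun c => e (Subtype.ext c)) (fun c => e' (Subtype.ext c))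


/-- Although the group of the length-24 code is only 5-transitive on the 24 points, it induces the full symmetric group on every 6-element subset: every permutation of a 6-set E is the restriction of an element of the group mapping E to itself. The pointwise stabiliser of E has order 16 when E lies in an octad and order 3 otherwise; in the latter case the setwise stabiliser of E has order 2160. -/
theorem result (E : Finset Cfsg.GolayPt) (hE : E.card = 6) : (∀ σ : Equiv.Perm ↥E, ∃ g ∈ Cfsg.M24, ∀ p : ↥E, g p = σ p) ∧ ((∃ o ∈ Cfsg.octads, E ⊆ o) → Nat.card {g : Equiv.Perm Cfsg.GolayPt // g ∈ Cfsg.M24 ∧ ∀ p ∈ E, g p = p} = 16) ∧ ((¬ ∃ o ∈ Cfsg.octads, E ⊆ o) → Nat.card {g : Equiv.Perm Cfsg.GolayPt // g ∈ Cfsg.M24 ∧ ∀ p ∈ E, g p = p} = 3 ∧ Nat.card ↥(MulAction.stabilizer Cfsg.M24 E) = 2160) := by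
  obtain ⟨σ, hσ, h⟩ := six_cases hE
  obtain ⟨hin, hout⟩ := in_octad_std
  have hcard : ∀ F, σ • toSet F = E → Nat.card (fixes E) = Nat.card (fixes (toSet F)) := by
    rintro F rfl
    exact (Nat.card_congr (conjEquiv σ (fixes_conj hσ (toSet F))).toEquiv).symm
  have hsub : Nat.card {g : Equiv.Perm GolayPt // g ∈ M24 ∧ ∀ p ∈ E, g p = p} =
      Nat.card (fixes E) :=
    Nat.card_congr (Equiv.subtypeEquivRight fun g => mem_fixes.symm)
  have hsw : Swaps E := by
    rcases h with h | h <;> subst h
    · exact (swaps_of_ok swapsIn_ok (by decide +kernel) (by decide)).smul hσ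
    · exact (swaps_of_ok swapsOut_ok (by decide +kernel) (by decide)).smul hσ
  have hperm := all_perms hsw
  refine ⟨hperm, fun hE' => ?_, fun hE' => ?_⟩
  · rcases h with h | h
    · rw [hsub, hcard _ h, card_in]
    · rw [← h, in_octad_iff hσ] at hE'
      exact absurd hE' hout
  · rcases h with h | h
    · rw [← h, in_octad_iff hσ] at hE'
      exact absurd hin hE'
    · refine ⟨by rw [hsub, hcard _ h, card_out], ?_⟩
      rw [stab_card hperm, hE, hcard _ h, card_out]
      rfl

end Cfsg.Agent.S5600
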