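import Cfsg.Statements.S5601
import Cfsg.Agent.Lib.Golay.Classes
-- import your own Cfsg.Agent.* helpers here

set_option autoImplicit false
open scoped Pointwise
open Cfsg

namespace Cfsg.Agent.S5601

open Cfsg
open Cfsg.Agent.Lib.Golay
open scoped Pointwise

theorem gen_of_card_three {X : Subgroup M24} (hX : Nat.card X = 3) :
    ∃ x : M24, orderOf x = 3 ∧ orderOf (x : Equiv.Perm GolayPt) = 3 ∧ X = Subgroup.zpowers x ∧
      {p : GolayPt | ∀ y ∈ X, ((y : M24) : Equiv.Perm GolayPt) p = p}.ncard =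
        (fixedPts (x : Equiv.Perm GolayPt)).card := by
  have : Fact (Nat.Prime 3) := ⟨Nat.prime_three⟩
  obtain ⟨⟨x, hx⟩, ho⟩ := exists_prime_orderOf_dvd_card' (G := X) 3 (by rw [hX])
  rw [← Subgroup.orderOf_coe] at ho
  have hXe : X = Subgroup.zpowers x := (Subgroup.eq_of_le_of_card_ge
    (Subgroup.zpowers_le.2 hx) (by rw [Nat.card_zpowers, ho, hX])).symm
  refine ⟨x, ho, by rw [Subgroup.orderOf_coe]; exact ho, hXe, ?_⟩
  rw [← Set.ncard_coe_finset]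
  congr 1
  ext p
  simp only [Set.mem_ofPred_eq, Finset.mem_coe, mem_fixedPts]
  constructor
  · intro h; exact h x hx
  · intro h y hy
    rw [hXe] at hy
    obtain ⟨i, rfl⟩ := Subgroup.mem_zpowers_iff.1 hy
    rw [Subgroup.coe_zpow]
    exact Equiv.Perm.zpow_apply_eq_self_of_apply_eq_self h i

theorem exists_three (r : ℕ) (hr : r ∈ [rep2A, rep2B, rep3A, rep3B]) (hp : powId 3 r = true)
    (hne : pc (fixMask r) ≠ 24) :
    ∃ X : Subgroup M24, Nat.card X = 3 ∧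
      {p : GolayPt | ∀ x ∈ X, ((x : M24) : Equiv.Perm GolayPt) p = p}.ncard = pc (fixMask r) := by
  have : Fact (Nat.Prime 3) := ⟨Nat.prime_three⟩
  have ho := rep_order (rep_valid hr).2 hp hne
  let x : M24 := ⟨toPerm r, (rep_valid hr).1⟩
  have hox : orderOf x = 3 := by rw [← Subgroup.orderOf_coe]; exact ho
  refine ⟨Subgroup.zpowers x, by rw [Nat.card_zpowers, hox], ?_⟩
  rw [← card_toSet, ← fixedPts_toPerm (rep_valid hr).2, ← Set.ncard_coe_finset]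
  congr 1
  ext p
  simp only [Set.mem_ofPred_eq, Finset.mem_coe, mem_fixedPts]
  constructor
  · intro h; exact h x (Subgroup.mem_zpowers x)
  · intro h y hy
    obtain ⟨i, rfl⟩ := Subgroup.mem_zpowers_iff.1 hy
    rw [Subgroup.coe_zpow]
    exact Equiv.Perm.zpow_apply_eq_self_of_apply_eq_self h i


/-- The group of the length-24 code has exactly two conjugacy classes of subgroups of order 3: a subgroup of order 3 fixes either exactly 6 of the 24 points or none of them, both cases occur, and two subgroups of order 3 with the same number of fixed points are conjugate. -/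
theorem result : (∀ X : Subgroup ↥Cfsg.M24, Nat.card X = 3 → {p : Cfsg.GolayPt | ∀ x ∈ X, ((x : ↥Cfsg.M24) : Equiv.Perm Cfsg.GolayPt) p = p}.ncard = 6 ∨ {p : Cfsg.GolayPt | ∀ x ∈ X, ((x : ↥Cfsg.M24) : Equiv.Perm Cfsg.GolayPt) p = p}.ncard = 0) ∧ (∃ X : Subgroup ↥Cfsg.M24, Nat.card X = 3 ∧ {p : Cfsg.GolayPt | ∀ x ∈ X, ((x : ↥Cfsg.M24) : Equiv.Perm Cfsg.GolayPt) p = p}.ncard = 6) ∧ (∃ X : Subgroup ↥Cfsg.M24, Nat.card X = 3 ∧ {p : Cfsg.GolayPt | ∀ x ∈ X, ((x : ↥Cfsg.M24) : Equiv.Perm Cfsg.GolayPt) p = p}.ncard = 0) ∧ ∀ X Y : Subgroup ↥Cfsg.M24, Nat.card X = 3 → Nat.card Y = 3 → {p : Cfsg.GolayPt | ∀ x ∈ X, ((x : ↥Cfsg.M24) : Equiv.Perm Cfsg.GolayPt) p = p}.ncard = {p : Cfsg.GolayPt | ∀ x ∈ Y, ((x : ↥Cfsg.M24) : Equiv.Perm Cfsg.GolayPt) p = p}.ncard → ∃ k : ↥Cfsg.M24, MulAut.conj k • X = Y := by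
  obtain ⟨-, -, -, -, h6, h0, -, -, p3A, p3B⟩ := rep_facts
  refine ⟨fun X hX => ?_, ?_, ?_, fun X Y hX hY he => ?_⟩
  · obtain ⟨x, -, hx, -, hn⟩ := gen_of_card_three hX
    rw [hn]
    obtain ⟨c, -, ⟨h, -⟩ | ⟨h, -⟩⟩ := three_classes x.2 hx
    exacts [Or.inl h, Or.inr h]
  · obtain ⟨X, h1, h2⟩ := exists_three rep3A (by simp) p3A (by omega)
    exact ⟨X, h1, h2.trans h6⟩
  · obtain ⟨X, h1, h2⟩ := exists_three rep3B (by simp) p3B (by rw [h0]; decide)
    exact ⟨X, h1, h2.trans (by rw [h0]; rfl)⟩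
  · obtain ⟨x, -, hx, hXe, hnx⟩ := gen_of_card_three hX
    obtain ⟨y, -, hy, hYe, hny⟩ := gen_of_card_three hY
    rw [hnx, hny] at he
    obtain ⟨k, hk, hkxy⟩ : ∃ k ∈ M24, k * (x : Equiv.Perm GolayPt) * k⁻¹ = y := by
      obtain ⟨c, hc, ⟨f1, e1⟩ | ⟨f1, e1⟩⟩ := three_classes x.2 hx <;>
        obtain ⟨d, hd, ⟨f2, e2⟩ | ⟨f2, e2⟩⟩ := three_classes y.2 hy
      · exact conj_of_conj hc hd e1 e2
      · omega
      · omega
      · exact conj_of_conj hc hd e1 e2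
    refine ⟨⟨k, hk⟩, ?_⟩
    rw [hYe]
    refine (Subgroup.eq_of_le_of_card_ge (Subgroup.zpowers_le.2 ?_) ?_).symm
    · have hmem := Subgroup.smul_mem_pointwise_smul x (MulAut.conj (⟨k, hk⟩ : M24)) X
        (hXe ▸ Subgroup.mem_zpowers x)
      convert hmem using 1
      exact Subtype.ext hkxy.symm
    · rw [← Nat.card_congr (Subgroup.equivSMul (MulAut.conj (⟨k, hk⟩ : M24)) X).toEquiv, hX,
        ← hYe, hY]

end Cfsg.Agent.S5601
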