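import Cfsg.Statements.S5602
import Cfsg.Agent.Lib.Golay.FixCounts
-- import your own Cfsg.Agent.* helpers here

set_option autoImplicit false
open scoped Pointwise
open Cfsg

namespace Cfsg.Agent.S5602

open Cfsg
open Cfsg.Agent.Lib.Golay
open scoped Pointwise


/-- An element of order 3 of the group of the length-24 code having exactly 6 fixed points maps to themselves exactly 21 octads, exactly 15 trios, exactly 16 sextets and exactly 20 dodecads. -/
theorem result (g : Equiv.Perm Cfsg.GolayPt) (hg : g ∈ Cfsg.M24) (h₃ : orderOf g = 3) (h₆ : (Finset.univ.filter fun p => g p = p).card = 6) : {o : Finset Cfsg.GolayPt | o ∈ Cfsg.octads ∧ g • o = o}.ncard = 21 ∧ {T : Finset (Finset Cfsg.GolayPt) | T ∈ Cfsg.trios ∧ g • T = T}.ncard = 15 ∧ {S : Finset (Finset Cfsg.GolayPt) | S ∈ Cfsg.sextets ∧ g • S = S}.ncard = 16 ∧ {d : Finset Cfsg.GolayPt | d ∈ Cfsg.dodecads ∧ g • d = d}.ncard = 20 := by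
  obtain ⟨c, hc, ⟨-, he⟩ | ⟨h, -⟩⟩ := three_classes hg h₃
  · have hv := (rep_valid (r := rep3A) (by simp)).2
    refine ⟨?_, ?_, ?_, ?_⟩
    · rw [fixed_conj (fun σ hσ a ha => smul_mem_octads hσ ha) hc he, fixed_octads hv]
      exact counts3A.1
    · rw [fixed_conj trio_model.inv hc he, trio_model.fixed hv]; exact counts3A.2.1
    · rw [fixed_conj sextet_model.inv hc he, sextet_model.fixed hv]; exact counts3A.2.2.1
    · rw [fixed_conj (fun σ hσ a ha => smul_mem_dodecads hσ ha) hc he, fixed_dodecads hv]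
      exact counts3A.2.2.2
  · exact absurd (h₆.symm.trans h) (by decide)

end Cfsg.Agent.S5602
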