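import Cfsg.Statements.S5603
import Cfsg.Agent.Lib.Golay.FixCounts
-- import your own Cfsg.Agent.* helpers here

set_option autoImplicit false
open scoped Pointwise
open Cfsg

namespace Cfsg.Agent.S5603

open Cfsg
open Cfsg.Agent.Lib.Golay
open scoped Pointwise


/-- A fixed-point-free element of order 3 of the group of the length-24 code maps to themselves exactly 7 sextets and exactly 15 trios. -/
theorem result (g : Equiv.Perm Cfsg.GolayPt) (hg : g ∈ Cfsg.M24) (h₃ : orderOf g = 3) (h₀ : ∀ p, g p ≠ p) : {S : Finset (Finset Cfsg.GolayPt) | S ∈ Cfsg.sextets ∧ g • S = S}.ncard = 7 ∧ {T : Finset (Finset Cfsg.GolayPt) | T ∈ Cfsg.trios ∧ g • T = T}.ncard = 15 := by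
  obtain ⟨c, hc, ⟨h, -⟩ | ⟨-, he⟩⟩ := three_classes hg h₃
  · exact absurd (h.symm.trans (fixedPts_card_zero.2 h₀)) (by decide)
  · have hv := (rep_valid (r := rep3B) (by simp)).2
    refine ⟨?_, ?_⟩
    · rw [fixed_conj sextet_model.inv hc he, sextet_model.fixed hv]; exact counts3B.1
    · rw [fixed_conj trio_model.inv hc he, trio_model.fixed hv]; exact counts3B.2

end Cfsg.Agent.S5603
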