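import Cfsg.Statements.S5604
import Cfsg.Agent.Lib.Golay.Search
import Cfsg.Agent.Lib.Golay.CentData
import Cfsg.Agent.Lib.Golay.FixCounts
-- import your own Cfsg.Agent.* helpers here

set_option autoImplicit false
open scoped Pointwise
open Cfsg

namespace Cfsg.Agent.S5604

open Cfsg
open Cfsg.Agent.Lib.Golay
open scoped Pointwise

theorem norm7_search : search rep7 rep7Pows 7 0 idCode = norm7List := by decide +kernel

theorem norm7_facts :
    norm7List.all (fun p => inM24 p && fixesMask (baseMask 0) p && commJ rep7 rep7Pows p) = true ∧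
      codedOK norm7List = true ∧ norm7List.length = 126 ∧
      codedOK (norm7List.filter (commJ rep7 [rep7])) = true ∧
      (norm7List.filter (commJ rep7 [rep7])).length = 42 ∧
      inM24 rep7 = true ∧ rep7Pows.all valid = true ∧ powId 7 rep7 = true ∧ img rep7 0 = 1 ∧
      norm7List.all (fun c => famFix c norm7Trio) = true ∧ isTrioList norm7Trio = true := by
  refine ⟨?_, ?_, ?_, ?_, ?_, ?_, ?_, ?_, ?_, ?_, ?_⟩ <;> decide +kernel

theorem rep7_pows : rep7Pows.head? = some rep7 ∧ rep7Pows.length = 6 ∧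
    ((List.range 5).all fun i => isComp rep7 (rep7Pows.getD i 0) (rep7Pows.getD (i + 1) 0)) = true ∧
    cent7Pair.all (fun p => inM24 p && commJ rep7 [rep7] p) = true ∧ cent7Pair.length = 2 ∧
    ((idx.all fun i => img (cent7Pair.getD 0 0) (img (cent7Pair.getD 1 0) i) ==
      img (cent7Pair.getD 1 0) (img (cent7Pair.getD 0 0) i)) = false) := by
  refine ⟨?_, ?_, ?_, ?_, ?_, ?_⟩ <;> decide +kernel

theorem famFix_spec {c : ℕ} {a : List ℕ} (hv : valid c = true) (h : famFix c a = true) :
    toPerm c • fam a = fam a := by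
  simp only [famFix, List.all_eq_true, List.elem_eq_mem, decide_eq_true_eq] at h
  refine Finset.eq_of_subset_of_card_le ?_ (by rw [Finset.card_smul_finset])
  intro s hs
  obtain ⟨_, hu, rfl⟩ := Finset.mem_smul_finset.1 hs
  obtain ⟨t, ht, rfl⟩ := mem_fam.1 hu
  exact mem_fam.2 ⟨_, h t ht, (smul_toSet hv t).symm⟩

/-- The standard element of order seven. -/
noncomputable def g7 : M24 := ⟨toPerm rep7, toPerm_mem_M24 norm7_facts.2.2.2.2.2.1⟩

theorem hv7 : valid rep7 = true := valid_of_inM24 norm7_facts.2.2.2.2.2.1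

theorem g7_order : orderOf g7 = 7 := by
  have : Fact (Nat.Prime 7) := ⟨by norm_num⟩
  obtain ⟨-, -, -, -, -, -, -, hp, h01, -, -⟩ := norm7_facts
  rw [← Subgroup.orderOf_coe]
  refine orderOf_eq_prime (pow_eq_one_of_img hv7 fun i hi => ?_) fun e => ?_
  · simp only [powId, List.all_eq_true, beq_iff_eq] at hp
    exact hp i (mem_idx.2 hi)
  · have : toPerm rep7 (pt 0) = pt 0 := by
      show ((g7 : M24) : Equiv.Perm GolayPt) (pt 0) = pt 0
      rw [e]; rfl
    rw [toPerm_pt hv7 (by norm_num : 0 < 24), h01] at this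
    exact absurd this (by decide)

/-- The standard subgroup of order seven. -/
noncomputable def S0 : Subgroup M24 := Subgroup.zpowers g7

theorem S0_card : Nat.card S0 = 7 := by rw [S0, Nat.card_zpowers, g7_order]

theorem pows_eq : ∀ i < 6, toPerm (rep7Pows.getD i 0) = toPerm rep7 ^ (i + 1) := by
  obtain ⟨hh, hl, hc, -, -, -⟩ := rep7_pows
  intro i hi
  induction i with
  | zero =>
    rw [pow_one]
    congr 1
  | succ i ih =>
    have h := List.all_eq_true.1 hc i (List.mem_range.2 (by omega))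
    rw [toPerm_isComp h, ih (by omega), ← pow_succ']

theorem mem_pows {j : ℕ} (hj : j ∈ rep7Pows) : ∃ i < 6, toPerm j = toPerm rep7 ^ (i + 1) := by
  obtain ⟨i, hi, rfl⟩ := List.mem_iff_getElem.1 hj
  rw [rep7_pows.2.1] at hi
  refine ⟨i, hi, ?_⟩
  rw [← pows_eq i hi, List.getD_eq_getElem]

theorem mem_list_iff (x : Equiv.Perm GolayPt) :
    (x ∈ M24 ∧ Twines rep7 rep7Pows x) ↔ ∃ p ∈ norm7List, toPerm p = x := by
  rw [← search_exact hv7 (List.all_eq_true.1 norm7_facts.2.2.2.2.2.2.1) (n := 7) (k := 0) rfl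
    norm7_search norm7_facts.1 x, level_zero]

theorem mem_cent_iff (x : Equiv.Perm GolayPt) :
    (x ∈ M24 ∧ x * toPerm rep7 = toPerm rep7 * x) ↔
      ∃ p ∈ norm7List.filter (commJ rep7 [rep7]), toPerm p = x := by
  have h1 : ∀ p, valid p = true → (commJ rep7 [rep7] p = true ↔
      toPerm p * toPerm rep7 = toPerm rep7 * toPerm p) := fun p hp => by
    rw [commJ_iff hv7 hp (by simpa using hv7)]
    simp [Twines]
  constructor
  · rintro ⟨hx, hc⟩
    obtain ⟨hh, -⟩ := rep7_pows
    obtain ⟨p, hp, rfl⟩ := (mem_list_iff x).1 ⟨hx, rep7, List.mem_of_mem_head? (by rw [hh]; simp), hc⟩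
    have := List.all_eq_true.1 norm7_facts.1 p hp
    simp only [Bool.and_eq_true] at this
    exact ⟨p, List.mem_filter.2 ⟨hp, (h1 p (valid_of_inM24 this.1.1)).2 hc⟩, rfl⟩
  · rintro ⟨p, hp, rfl⟩
    rw [List.mem_filter] at hp
    have := List.all_eq_true.1 norm7_facts.1 p hp.1
    simp only [Bool.and_eq_true] at this
    exact ⟨toPerm_mem_M24 this.1.1, (h1 p (valid_of_inM24 this.1.1)).1 hp.2⟩

theorem norm_iff (n : M24) : n ∈ Subgroup.normalizer (S0 : Set M24) ↔
    ∃ p ∈ norm7List, toPerm p = (n : Equiv.Perm GolayPt) := by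
  have hg : g7 ∈ S0 := Subgroup.mem_zpowers g7
  rw [← mem_list_iff]
  constructor
  · intro hn
    refine ⟨n.2, ?_⟩
    have h := (Subgroup.mem_normalizer_iff.1 hn g7).1 hg
    obtain ⟨i, hi⟩ := (IsOfFinOrder.mem_powers_iff_mem_zpowers (isOfFinOrder_of_finite g7)).2 h
    have hi7 : g7 ^ (i % 7) = n * g7 * n⁻¹ := by rw [← hi, ← g7_order, pow_mod_orderOf]
    have hne : i % 7 ≠ 0 := fun e => by
      rw [e, pow_zero] at hi7
      have := g7_order
      rw [conj_eq_one_iff.1 hi7.symm, orderOf_one] at this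
      omega
    refine ⟨rep7Pows.getD (i % 7 - 1) 0, ?_, ?_⟩
    · rw [List.getD_eq_getElem _ _ (by rw [rep7_pows.2.1]; omega)]
      exact List.getElem_mem _
    · rw [pows_eq _ (by omega), show i % 7 - 1 + 1 = i % 7 by omega]
      have := congrArg Subtype.val hi7
      simp only [SubmonoidClass.coe_pow, Subgroup.coe_mul, Subgroup.coe_inv] at this
      show _ = (g7 : Equiv.Perm GolayPt) ^ _ * _
      rw [this]
      simp [g7, mul_assoc]
  · rintro ⟨-, j, hj, he⟩
    obtain ⟨i, hi, hji⟩ := mem_pows hj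
    have hconj : n * g7 * n⁻¹ = g7 ^ (i + 1) := by
      apply Subtype.ext
      simp only [SubmonoidClass.coe_pow, Subgroup.coe_mul, Subgroup.coe_inv]
      show _ = toPerm rep7 ^ (i + 1)
      rw [← hji]
      show (n : Equiv.Perm GolayPt) * toPerm rep7 * _ = _
      rw [he]; group
    refine Subgroup.mem_normalizer_fintype fun h hh => ?_
    obtain ⟨z, rfl⟩ := Subgroup.mem_zpowers_iff.1 hh
    show n * g7 ^ z * n⁻¹ ∈ S0
    rw [← conj_zpow, hconj]
    exact zpow_mem (pow_mem hg _) z

theorem cent_iff (n : M24) : n ∈ Subgroup.centralizer (S0 : Set M24) ↔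
    ∃ p ∈ norm7List.filter (commJ rep7 [rep7]), toPerm p = (n : Equiv.Perm GolayPt) := by
  rw [← mem_cent_iff, Subgroup.mem_centralizer_iff]
  constructor
  · intro h
    refine ⟨n.2, ?_⟩
    exact (congrArg Subtype.val (h g7 (Subgroup.mem_zpowers g7))).symm
  · rintro ⟨-, h⟩ y hy
    obtain ⟨z, rfl⟩ := Subgroup.mem_zpowers_iff.1 hy
    exact (Commute.zpow_left (show Commute g7 n from Subtype.ext h.symm) z).eq

theorem card_of_iff {H : Subgroup M24} {L : List ℕ} (hL : codedOK L = true)
    (hin : ∀ p ∈ L, toPerm p ∈ M24)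
    (h : ∀ n : M24, n ∈ H ↔ ∃ p ∈ L, toPerm p = (n : Equiv.Perm GolayPt)) :
    Nat.card H = L.length := by
  rw [← ncard_coded hL (S := Subtype.val '' (H : Set M24)) ?_,
    Set.ncard_image_of_injective _ Subtype.val_injective, ← Nat.card_coe_set_eq]
  · rfl
  intro x
  constructor
  · rintro ⟨n, hn, rfl⟩; exact (h n).1 hn
  · rintro ⟨p, hp, rfl⟩
    exact ⟨⟨_, hin p hp⟩, (h _).2 ⟨p, hp, rfl⟩, rfl⟩

theorem exists_conj_S0 (S : Subgroup M24) (hS : Nat.card S = 7) :
    ∃ k : M24, S0.map (MulAut.conj k).toMonoidHom = S := by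
  have : Fact (Nat.Prime 7) := ⟨by norm_num⟩
  have hfac : (Nat.card M24).factorization 7 = 1 := by
    have hp : Nat.Prime 7 := by norm_num
    have h1 := (hp.pow_dvd_iff_le_factorization (k := 1) (Nat.card_pos (α := M24)).ne').1
      (by rw [M24_card]; decide)
    have h2 := mt (hp.pow_dvd_iff_le_factorization (k := 2) (Nat.card_pos (α := M24)).ne').2
      (by rw [M24_card]; decide)
    omega
  obtain ⟨k, hk⟩ := MulAction.exists_smul_eq M24
    (Sylow.ofCard S0 (by rw [S0_card, hfac]; rfl) : Sylow 7 M24)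
    (Sylow.ofCard S (by rw [hS, hfac]; rfl))
  refine ⟨k, ?_⟩
  have := congrArg Sylow.toSubgroup hk
  rw [Sylow.coe_subgroup_smul, Subgroup.pointwise_smul_def] at this
  exact this


/-- For a subgroup S of order 7 of the group of the length-24 code (a Sylow 7-subgroup): the normaliser of S has order 126, the centraliser of S has order 42 and is non-abelian, and the whole normaliser leaves some trio invariant. (These are the orders of a Frobenius group of order 21 times a symmetric group of degree 3; the isomorphism type itself is not asserted here.) -/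
theorem result (S : Subgroup ↥Cfsg.M24) (hS : Nat.card S = 7) : Nat.card ↥(Subgroup.normalizer (S : Set ↥Cfsg.M24)) = 126 ∧ Nat.card ↥(Subgroup.centralizer (S : Set ↥Cfsg.M24)) = 42 ∧ (∃ x ∈ Subgroup.centralizer (S : Set ↥Cfsg.M24), ∃ y ∈ Subgroup.centralizer (S : Set ↥Cfsg.M24), x * y ≠ y * x) ∧ ∃ T ∈ Cfsg.trios, ∀ n ∈ Subgroup.normalizer (S : Set ↥Cfsg.M24), ((n : ↥Cfsg.M24) : Equiv.Perm Cfsg.GolayPt) • T = T := by
  obtain ⟨k, rfl⟩ := exists_conj_S0 S hS
  have hN : Subgroup.normalizer (S0.map (MulAut.conj k).toMonoidHom : Set M24) =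
      (Subgroup.normalizer (S0 : Set M24)).map (MulAut.conj k).toMonoidHom :=
    (Subgroup.map_equiv_normalizer_eq S0 (MulAut.conj k)).symm
  have hC : ∀ n : M24, n ∈ Subgroup.centralizer (S0.map (MulAut.conj k).toMonoidHom : Set M24) ↔
      k⁻¹ * n * k ∈ Subgroup.centralizer (S0 : Set M24) := by
    intro n
    simp only [Subgroup.mem_centralizer_iff, SetLike.mem_coe, Subgroup.mem_map,
      MulEquiv.coe_toMonoidHom, MulAut.conj_apply, forall_exists_index, and_imp,
      forall_apply_eq_imp_iff₂]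
    refine forall_congr' fun y => imp_congr_right fun _ => ?_
    constructor
    · intro h
      calc y * (k⁻¹ * n * k) = k⁻¹ * (k * y * k⁻¹ * n) * k := by group
        _ = _ := by rw [h]; group
    · intro h
      calc k * y * k⁻¹ * n = k * (y * (k⁻¹ * n * k)) * k⁻¹ := by group
        _ = _ := by rw [h]; group
  obtain ⟨hall, hok, hlen, hokc, hlenc, -, -, -, -, htrio, hisT⟩ := norm7_facts
  have hin : ∀ p ∈ norm7List, toPerm p ∈ M24 := fun p hp => by
    have := List.all_eq_true.1 hall p hp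
    simp only [Bool.and_eq_true] at this
    exact toPerm_mem_M24 this.1.1
  refine ⟨?_, ?_, ?_, ?_⟩
  · rw [hN, ← Nat.card_congr (Subgroup.equivMapOfInjective _ _
      (MulAut.conj k).injective).toEquiv, card_of_iff hok hin norm_iff, hlen]
  · rw [← hlenc, ← card_of_iff (H := Subgroup.centralizer (S0 : Set M24)) hokc
      (fun p hp => hin p (List.mem_filter.1 hp).1) cent_iff]
    exact Nat.card_congr
      { toFun := fun n => ⟨k⁻¹ * n * k, (hC n).1 n.2⟩
        invFun := fun m => ⟨k * m * k⁻¹, (hC _).2 (by simp [mul_assoc])⟩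
        left_inv := fun n => Subtype.ext (by simp [mul_assoc])
        right_inv := fun m => Subtype.ext (by simp [mul_assoc]) }
  · obtain ⟨-, -, -, hp, hl, hnc⟩ := rep7_pows
    have hg : ∀ i < 2, inM24 (cent7Pair.getD i 0) = true ∧
        ∃ x : M24, (x : Equiv.Perm GolayPt) = toPerm (cent7Pair.getD i 0) ∧
          x ∈ Subgroup.centralizer (S0 : Set M24) := by
      intro i hi
      have hmem : cent7Pair.getD i 0 ∈ cent7Pair := by
        rw [List.getD_eq_getElem _ _ (by rw [hl]; exact hi)]; exact List.getElem_mem _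
      have := List.all_eq_true.1 hp _ hmem
      simp only [Bool.and_eq_true] at this
      refine ⟨this.1, ⟨_, toPerm_mem_M24 this.1⟩, rfl, (cent_iff _).2 ((mem_cent_iff _).1
        ⟨toPerm_mem_M24 this.1, ?_⟩)⟩
      have h := (commJ_iff hv7 (valid_of_inM24 this.1) (by simpa using hv7)).1 this.2
      simpa [Twines] using h
    obtain ⟨hia, a, hae, ha⟩ := hg 0 (by norm_num)
    obtain ⟨hib, b, hbe, hb⟩ := hg 1 (by norm_num)
    refine ⟨k * a * k⁻¹, (hC _).2 (by simpa [mul_assoc] using ha), k * b * k⁻¹,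
      (hC _).2 (by simpa [mul_assoc] using hb), fun e => ?_⟩
    have e2 : a * b = b * a := by
      calc a * b = k⁻¹ * (k * a * k⁻¹ * (k * b * k⁻¹)) * k := by group
        _ = _ := by rw [e]; group
    have e3 := congrArg Subtype.val e2
    simp only [Subgroup.coe_mul, hae, hbe] at e3
    have hva := valid_of_inM24 hia
    have hvb := valid_of_inM24 hib
    rw [← Bool.not_eq_true, List.all_eq_true] at hnc
    refine hnc fun i hi => ?_
    have hi' := mem_idx.1 hi
    have := DFunLike.congr_fun e3 (pt i)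
    simp only [Equiv.Perm.mul_apply] at this
    rw [toPerm_pt hvb hi', toPerm_pt hva (img_lt hvb hi'), toPerm_pt hva hi',
      toPerm_pt hvb (img_lt hva hi')] at this
    rw [beq_iff_eq, ← ix_pt (img_lt hva (img_lt hvb hi')), this,
      ix_pt (img_lt hvb (img_lt hva hi'))]
  · refine ⟨(k : Equiv.Perm GolayPt) • fam norm7Trio,
      smul_mem_trios k.2 (trio_model.mem _ hisT).2, ?_⟩
    intro n hn
    rw [hN] at hn
    obtain ⟨m, hm, rfl⟩ := Subgroup.mem_map.1 hn
    obtain ⟨p, hp, hpe⟩ := (norm_iff m).1 hm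
    have := List.all_eq_true.1 hall p hp
    simp only [Bool.and_eq_true] at this
    have h1 := famFix_spec (valid_of_inM24 this.1.1) (List.all_eq_true.1 htrio p hp)
    rw [hpe] at h1
    simp only [MulEquiv.coe_toMonoidHom, MulAut.conj_apply, Subgroup.coe_mul, Subgroup.coe_inv,
      mul_smul, inv_smul_smul, h1]

end Cfsg.Agent.S5604
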