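import Cfsg.Statements.S5608
import Cfsg.Agent.Lib.Golay.Cent
-- import your own Cfsg.Agent.* helpers here

set_option autoImplicit false
open scoped Pointwise
open Cfsg

namespace Cfsg.Agent.S5608

open Cfsg
open Cfsg.Agent.Lib.Golay
open scoped Pointwise

theorem fix_three {x s : Equiv.Perm GolayPt} (hx3 : x ^ 3 = 1) (hc : Commute x s)
    (h8 : (fixedPts s).card = 8) : (fixedPts x).card ≠ 0 := by
  intro h0
  have hinv : ∀ p, x p ∈ fixedPts s ↔ p ∈ fixedPts s := by
    intro p
    have e : s (x p) = x (s p) := (DFunLike.congr_fun hc.eq p).symm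
    rw [mem_fixedPts, mem_fixedPts, e, x.injective.eq_iff]
  let τ : Equiv.Perm {p // p ∈ fixedPts s} := x.subtypePerm hinv
  have : Fact (Nat.Prime 3) := ⟨Nat.prime_three⟩
  obtain ⟨p, hp⟩ := Equiv.Perm.exists_fixed_point_of_prime (p := 3) (n := 1) (σ := τ)
    (by rw [Fintype.card_coe, h8]; decide) (by
      ext q
      rw [pow_one, Equiv.Perm.subtypePerm_pow]
      simp [hx3])
  exact fixedPts_card_zero.1 h0 p (congrArg Subtype.val hp)


/-- If an element of order 3 and an involution of the group of the length-24 code commute, then either the element of order 3 has exactly 6 fixed points and the involution exactly 8, or both are fixed-point-free. -/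
theorem result (x s : Equiv.Perm Cfsg.GolayPt) (hx : x ∈ Cfsg.M24) (hs : s ∈ Cfsg.M24) (h₃ : orderOf x = 3) (h₂ : orderOf s = 2) (hc : Commute x s) : ((Finset.univ.filter fun p => x p = p).card = 6 ∧ (Finset.univ.filter fun p => s p = p).card = 8) ∨ ((Finset.univ.filter fun p => x p = p).card = 0 ∧ (Finset.univ.filter fun p => s p = p).card = 0) := by
  show ((fixedPts x).card = 6 ∧ (fixedPts s).card = 8) ∨ ((fixedPts x).card = 0 ∧ (fixedPts s).card = 0)
  have hx3 : x ^ 3 = 1 := by rw [← h₃]; exact pow_orderOf_eq_one x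
  obtain ⟨c, hcM, ⟨h8, -⟩ | ⟨h0, he⟩⟩ := inv_classes hs h₂
  · obtain ⟨-, -, ⟨h6, -⟩ | ⟨hx0, -⟩⟩ := three_classes hx h₃
    · exact Or.inl ⟨h6, h8⟩
    · exact absurd hx0 (fix_three hx3 hc h8)
  · refine Or.inr ⟨?_, h0⟩
    obtain ⟨-, -, ⟨h6, -⟩ | ⟨hx0, -⟩⟩ := three_classes hx h₃
    swap
    · exact hx0
    exfalso
    obtain ⟨q, hq⟩ := Finset.card_pos.1 (show 0 < (fixedPts (c * x * c⁻¹)).card by
      rw [fixedPts_card_conj, h6]; norm_num)
    have hC : Commute (c * x * c⁻¹) (toPerm rep2B) := by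
      rw [← he]
      show c * x * c⁻¹ * (c * s * c⁻¹) = c * s * c⁻¹ * (c * x * c⁻¹)
      calc c * x * c⁻¹ * (c * s * c⁻¹) = c * (x * s) * c⁻¹ := by group
        _ = _ := by rw [hc.eq]; group
    let x' : ↥(cent2B ⊓ MulAction.stabilizer (Equiv.Perm GolayPt) q) := ⟨c * x * c⁻¹,
      Subgroup.mem_inf.2 ⟨mem_cent2B.2 ⟨mul_mem (mul_mem hcM hx) (inv_mem hcM), hC⟩, mem_fixedPts.1 hq⟩⟩
    have ho : orderOf x' = 3 := by
      rw [← Subgroup.orderOf_coe]
      show orderOf (c * x * c⁻¹) = 3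
      rw [← h₃]; exact orderOf_injective (MulAut.conj c).toMonoidHom (MulEquiv.injective _) x
    have := orderOf_dvd_natCard x'
    rw [ho, cent2B_point] at this
    omega

end Cfsg.Agent.S5608
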