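import Cfsg.Statements.S5609
import Cfsg.Agent.Lib.Golay.Families
-- import your own Cfsg.Agent.* helpers here

set_option autoImplicit false
open scoped Pointwise
open Cfsg

namespace Cfsg.Agent.S5609

open Cfsg
open Cfsg.Agent.Lib.Golay
open scoped Pointwise

/-- The octads disjoint from the standard one. -/
def disj0 : List ℕ := octList.filter fun x => x &&& o0 == 0

/-- Facts about an octad relative to the standard one. -/
def distTest (m : ℕ) : Bool :=
  if pc (o0 &&& m) == 4 then disj0.any fun x => x &&& m == 0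
  else if pc (o0 &&& m) == 2 then
    (disj0.all fun x => x &&& m != 0) && disj0.any fun x => pc (x &&& m) == 4
  else true

theorem distTest_ok : octList.all distTest = true := by decide +kernel

/-- An octad is disjoint from two given ones. -/
def Common (o o' : Finset GolayPt) : Prop := ∃ x ∈ octads, (o ∩ x).card = 0 ∧ (x ∩ o').card = 0

theorem facts {o o' : Finset GolayPt} (ho : o ∈ octads) (ho' : o' ∈ octads) :
    ((o ∩ o').card = 4 → Common o o') ∧
    ((o ∩ o').card = 2 → ¬ Common o o' ∧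
      ∃ x ∈ octads, (o ∩ x).card = 0 ∧ (x ∩ o').card = 4) := by
  obtain ⟨σ, hσ, rfl⟩ := M24_trans_octads o0_octad ho
  obtain ⟨y, hy, rfl⟩ : ∃ y ∈ octads, σ • y = o' :=
    ⟨σ⁻¹ • o', smul_mem_octads (inv_mem hσ) ho', smul_inv_smul σ o'⟩
  obtain ⟨m, hm, rfl⟩ := mem_octads.1 hy
  have ht := List.all_eq_true.1 distTest_ok m hm
  have hd : ∀ x, x ∈ disj0 ↔ x ∈ octList ∧ o0 &&& x = 0 := by
    intro x; simp [disj0, Nat.and_comm]
  have hmv : ∀ x ∈ octads, ∀ b : Finset GolayPt, (σ • toSet o0 ∩ σ • x).card = (toSet o0 ∩ x).card ∧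
      (σ • x ∩ σ • b).card = (x ∩ b).card := fun x _ b => ⟨smul_inter_card .., smul_inter_card ..⟩
  have hz : ∀ a b : ℕ, (toSet a ∩ toSet b).card = 0 → a < 16777216 → a &&& b = 0 := by
    intro a b h ha
    rw [Finset.card_eq_zero, ← toSet_and, ← toSet_zero] at h
    exact eq_of_toSet_eq (lt_of_le_of_lt Nat.and_le_left ha) (by norm_num) h
  rw [smul_inter_card, inter_eq]
  refine ⟨fun h => ?_, fun h => ?_⟩
  · simp only [distTest, h, beq_self_eq_true, if_true, List.any_eq_true, beq_iff_eq] at ht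
    obtain ⟨x, hx, hxm⟩ := ht
    obtain ⟨hxl, hx0⟩ := (hd x).1 hx
    refine ⟨σ • toSet x, smul_mem_octads hσ (mem_octads.2 ⟨x, hxl, rfl⟩), ?_, ?_⟩
    · rw [smul_inter_card, inter_eq, hx0]; rfl
    · rw [smul_inter_card, inter_eq, hxm]; rfl
  · simp only [distTest, h, show ((2 : ℕ) == 4) = false from rfl, beq_self_eq_true, if_true,
      Bool.false_eq_true, if_false, List.any_eq_true, List.all_eq_true, Bool.and_eq_true,
      beq_iff_eq, bne_iff_ne, ne_eq] at ht
    obtain ⟨hnone, x, hx, hx4⟩ := ht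
    obtain ⟨hxl, hx0⟩ := (hd x).1 hx
    refine ⟨?_, σ • toSet x, smul_mem_octads hσ (mem_octads.2 ⟨x, hxl, rfl⟩), ?_, ?_⟩
    · rintro ⟨z, hzo, h1, h2⟩
      obtain ⟨z', hz', rfl⟩ : ∃ z' ∈ octads, σ • z' = z :=
        ⟨σ⁻¹ • z, smul_mem_octads (inv_mem hσ) hzo, smul_inv_smul σ z⟩
      obtain ⟨a, ha, rfl⟩ := mem_octads.1 hz'
      rw [smul_inter_card] at h1 h2
      exact hnone a ((hd a).2 ⟨ha, hz _ _ h1 (by decide)⟩) (hz _ _ h2 (lt_octList ha))
    · rw [smul_inter_card, inter_eq, hx0]; rfl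
    · rw [smul_inter_card, inter_eq, hx4]

theorem adj_iff {o o' : octads} :
    (blockGraph octads).Adj o o' ↔ ((o : Finset GolayPt) ∩ o').card = 0 := by
  simp only [blockGraph, SimpleGraph.fromRel_adj, Finset.card_eq_zero,
    ← Finset.disjoint_iff_inter_eq_empty]
  constructor
  · rintro ⟨-, h | h⟩
    exacts [h, h.symm]
  · intro h
    refine ⟨fun e => ?_, Or.inl h⟩
    subst e
    have := octads_card o.2
    rw [Finset.disjoint_self_iff_empty] at h
    simp [h] at this

theorem walk_two {o o' : octads} (h : Common (o : Finset GolayPt) o') :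
    ∃ w : (blockGraph octads).Walk o o', w.length = 2 := by
  obtain ⟨x, hx, h1, h2⟩ := h
  exact ⟨.cons (v := ⟨x, hx⟩) (adj_iff.2 h1) (.cons (adj_iff.2 h2) .nil), rfl⟩

theorem dist_facts {o o' : octads} (hne : o ≠ o') :
    (blockGraph octads).Reachable o o' ∧
    (((o : Finset GolayPt) ∩ o').card = 0 → (blockGraph octads).dist o o' = 1) ∧
    (((o : Finset GolayPt) ∩ o').card = 4 → (blockGraph octads).dist o o' = 2) ∧
    (((o : Finset GolayPt) ∩ o').card = 2 → (blockGraph octads).dist o o' = 3) := by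
  obtain ⟨f4, f2⟩ := facts o.2 o'.2
  have h0 : ((o : Finset GolayPt) ∩ o').card = 0 → (blockGraph octads).dist o o' = 1 := fun h =>
    SimpleGraph.dist_eq_one_iff_adj.2 (adj_iff.2 h)
  have h4 : ((o : Finset GolayPt) ∩ o').card = 4 → (blockGraph octads).dist o o' = 2 := by
    intro h
    obtain ⟨w, hw⟩ := walk_two (f4 h)
    have hle := SimpleGraph.dist_le w
    have hpos := w.reachable.pos_dist_of_ne hne
    have h1 : (blockGraph octads).dist o o' ≠ 1 := fun e => by
      rw [adj_iff.1 (SimpleGraph.dist_eq_one_iff_adj.1 e)] at h; omega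
    omega
  have h2 : ((o : Finset GolayPt) ∩ o').card = 2 →
      (blockGraph octads).dist o o' = 3 ∧ (blockGraph octads).Reachable o o' := by
    intro h
    obtain ⟨hno, x, hx, hox, hxo⟩ := f2 h
    obtain ⟨w, hw⟩ := walk_two (o := ⟨x, hx⟩) ((facts hx o'.2).1 hxo)
    let w' : (blockGraph octads).Walk o o' := .cons (v := ⟨x, hx⟩) (adj_iff.2 hox) w
    have hw' : w'.length = 3 := by simp [w', hw]
    have hle := SimpleGraph.dist_le w'
    have hpos := w'.reachable.pos_dist_of_ne hne
    have h1 : (blockGraph octads).dist o o' ≠ 1 := fun e => by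
      rw [adj_iff.1 (SimpleGraph.dist_eq_one_iff_adj.1 e)] at h; omega
    have hd2 : (blockGraph octads).dist o o' ≠ 2 := fun e => by
      obtain ⟨v, hv⟩ := w'.reachable.exists_walk_length_eq_dist
      rw [e] at hv
      cases v with
      | nil => simp at hv
      | cons a q =>
        cases q with
        | nil => simp at hv
        | cons b r =>
          cases r with
          | nil => exact hno ⟨_, (Subtype.coe_prop _), adj_iff.1 a, adj_iff.1 b⟩
          | cons c s => simp at hv
    exact ⟨by omega, w'.reachable⟩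
  refine ⟨?_, h0, h4, fun h => (h2 h).1⟩
  rcases octad_inter_cases o'.2 o.2 with h | h | h | ⟨h, h'⟩
  · exact (adj_iff.2 h).reachable
  · exact (h2 h).2
  · exact (walk_two (f4 h)).choose.reachable
  · exact absurd (Subtype.ext h') hne


/-- In the graph on the 759 octads of the length-24 code in which two octads are adjacent when they are disjoint, the graph is connected (of diameter 3) and two distinct octads are at distance 1, 2 or 3 exactly when they meet in 0, 4 or 2 points respectively. -/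
theorem result (o o' : Finset Cfsg.GolayPt) (ho : o ∈ Cfsg.octads) (ho' : o' ∈ Cfsg.octads) (hne : o ≠ o') : (Cfsg.blockGraph Cfsg.octads).Connected ∧ ((Cfsg.blockGraph Cfsg.octads).dist ⟨o, ho⟩ ⟨o', ho'⟩ = 1 ↔ (o ∩ o').card = 0) ∧ ((Cfsg.blockGraph Cfsg.octads).dist ⟨o, ho⟩ ⟨o', ho'⟩ = 2 ↔ (o ∩ o').card = 4) ∧ ((Cfsg.blockGraph Cfsg.octads).dist ⟨o, ho⟩ ⟨o', ho'⟩ = 3 ↔ (o ∩ o').card = 2) := by
  have hconn : (blockGraph octads).Connected :=
    { preconnected := fun a b => by
        by_cases e : a = b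
        · subst e; rfl
        · exact (dist_facts e).1
      nonempty := ⟨⟨o, ho⟩⟩ }
  have hne' : (⟨o, ho⟩ : octads) ≠ ⟨o', ho'⟩ := fun e => hne (congrArg Subtype.val e)
  obtain ⟨-, h0, h4, h2⟩ := dist_facts hne'
  simp only at h0 h4 h2
  refine ⟨hconn, ⟨fun e => ?_, h0⟩, ⟨fun e => ?_, h4⟩, ⟨fun e => ?_, h2⟩⟩ <;>
  · rcases octad_inter_cases ho' ho with h | h | h | ⟨h, h'⟩
    · rw [h0 h] at e; omega
    · rw [h2 h] at e; omega
    · rw [h4 h] at e; omega
    · exact absurd h' hne

end Cfsg.Agent.S5609
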