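import Cfsg.Statements.S5610
import Cfsg.Agent.Lib.Golay.FamOrbits

set_option autoImplicit false
open scoped Pointwise
open Cfsg
open Cfsg.Agent.Lib.Golay

namespace Cfsg.Agent.S5610

/-- The stabiliser of an octad in the group of the length-24 code has exactly three orbits on the 3795 trios, of sizes 15, 420 and 3360, and exactly three orbits on the 1771 sextets, of sizes 35, 840 and 896. -/
theorem result (o : Finset Cfsg.GolayPt) (ho : o ∈ Cfsg.octads) : (∃ X₁ ∈ Cfsg.trios, ∃ X₂ ∈ Cfsg.trios, ∃ X₃ ∈ Cfsg.trios, (MulAction.orbit ↥(MulAction.stabilizer Cfsg.M24 o) X₁).ncard = 15 ∧ (MulAction.orbit ↥(MulAction.stabilizer Cfsg.M24 o) X₂).ncard = 420 ∧ (MulAction.orbit ↥(MulAction.stabilizer Cfsg.M24 o) X₃).ncard = 3360 ∧ Cfsg.trios = MulAction.orbit ↥(MulAction.stabilizer Cfsg.M24 o) X₁ ∪ MulAction.orbit ↥(MulAction.stabilizer Cfsg.M24 o) X₂ ∪ MulAction.orbit ↥(MulAction.stabilizer Cfsg.M24 o) X₃) ∧ (∃ Y₁ ∈ Cfsg.sextets,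 ∃ Y₂ ∈ Cfsg.sextets, ∃ Y₃ ∈ Cfsg.sextets, (MulAction.orbit ↥(MulAction.stabilizer Cfsg.M24 o) Y₁).ncard = 35 ∧ (MulAction.orbit ↥(MulAction.stabilizer Cfsg.M24 o) Y₂).ncard = 840 ∧ (MulAction.orbit ↥(MulAction.stabilizer Cfsg.M24 o) Y₃).ncard = 896 ∧ Cfsg.sextets = MulAction.orbit ↥(MulAction.stabilizer Cfsg.M24 o) Y₁ ∪ MulAction.orbit ↥(MulAction.stabilizer Cfsg.M24 o) Y₂ ∪ MulAction.orbit ↥(MulAction.stabilizer Cfsg.M24 o) Y₃) := by
  rw [← stabilizer_singleton_family o]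
  obtain ⟨Y1, hY1, eY1, nY1⟩ := class_orbit trio_model oT15_cover (oBase_move ho)
  obtain ⟨Y2, hY2, eY2, nY2⟩ := class_orbit trio_model oT420_cover (oBase_move ho)
  obtain ⟨Y3, hY3, eY3, nY3⟩ := class_orbit trio_model oT3360_cover (oBase_move ho)
  obtain ⟨Z1, hZ1, eZ1, nZ1⟩ := class_orbit sextet_model oS35_cover (oBase_move ho)
  obtain ⟨Z2, hZ2, eZ2, nZ2⟩ := class_orbit sextet_model oS840_cover (oBase_move ho)
  obtain ⟨Z3, hZ3, eZ3, nZ3⟩ := class_orbit sextet_model oS896_cover (oBase_move ho)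
  refine ⟨⟨Y1, hY1, Y2, hY2, Y3, hY3, nY1, nY2, nY3, ?_⟩, Z1, hZ1, Z2, hZ2, Z3, hZ3, nZ1, nZ2, nZ3, ?_⟩
  · ext A
    simp only [eY1, eY2, eY3, Set.mem_union, Set.mem_ofPred_eq]
    constructor
    · intro hA
      have hk := kinds_cover' trio_model (B := oBase) (by decide +kernel) oT_all (oBase_move ho) (A := A) hA
      simp only [List.mem_cons, List.not_mem_nil, or_false] at hk
      tauto
    · tauto
  · ext A
    simp only [eZ1, eZ2, eZ3, Set.mem_union, Set.mem_ofPred_eq]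
    constructor
    · intro hA
      have hk := kinds_cover' sextet_model (B := oBase) (by decide +kernel) oS_all (oBase_move ho) (A := A) hA
      simp only [List.mem_cons, List.not_mem_nil, or_false] at hk
      tauto
    · tauto

end Cfsg.Agent.S5610
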