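import Cfsg.Statements.S5611
import Cfsg.Agent.Lib.Golay.FamOrbits

set_option autoImplicit false
open scoped Pointwise
open Cfsg
open Cfsg.Agent.Lib.Golay

namespace Cfsg.Agent.S5611

/-- The stabiliser of a sextet in the group of the length-24 code has exactly three orbits on the 759 octads, of sizes 15, 360 and 384, and exactly four orbits on the 3795 trios, of sizes 15, 180, 720 and 2880. -/
theorem result (S : Finset (Finset Cfsg.GolayPt)) (hS : S ∈ Cfsg.sextets) : (∃ X₁ ∈ Cfsg.octads, ∃ X₂ ∈ Cfsg.octads, ∃ X₃ ∈ Cfsg.octads, (MulAction.orbit ↥(MulAction.stabilizer Cfsg.M24 S) X₁).ncard = 15 ∧ (MulAction.orbit ↥(MulAction.stabilizer Cfsg.M24 S) X₂).ncard = 360 ∧ (MulAction.orbit ↥(MulAction.stabilizer Cfsg.M24 S) X₃).ncard = 384 ∧ Cfsg.octads = MulAction.orbit ↥(MulAction.stabilizer Cfsg.M24 S) X₁ ∪ MulAction.orbit ↥(MulAction.stabilizer Cfsg.M24 S) X₂ ∪ MulAction.orbit ↥(MulAction.stabilizer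 Cfsg.M24 S) X₃) ∧ (∃ Y₁ ∈ Cfsg.trios, ∃ Y₂ ∈ Cfsg.trios, ∃ Y₃ ∈ Cfsg.trios, ∃ Y₄ ∈ Cfsg.trios, (MulAction.orbit ↥(MulAction.stabilizer Cfsg.M24 S) Y₁).ncard = 15 ∧ (MulAction.orbit ↥(MulAction.stabilizer Cfsg.M24 S) Y₂).ncard = 180 ∧ (MulAction.orbit ↥(MulAction.stabilizer Cfsg.M24 S) Y₃).ncard = 720 ∧ (MulAction.orbit ↥(MulAction.stabilizer Cfsg.M24 S) Y₄).ncard = 2880 ∧ Cfsg.trios = MulAction.orbit ↥(MulAction.stabilizer Cfsg.M24 S) Y₁ ∪ MulAction.orbit ↥(MulAction.stabilizer Cfsg.M24 S) Y₂ ∪ MulAction.orbit ↥(MulAction.stabilizer Cfsg.M24 S) Y₃ ∪ MulAction.orbit ↥(MulAction.stabilizer Cfsg.M24 S) Y₄) := by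
  obtain ⟨Q1, hQ1, eQ1, nQ1⟩ := class_orbit oct_model sO15_cover (sBase_move hS)
  obtain ⟨x1, hx1, ex1, nx1⟩ := octFams_orbit hQ1 eQ1
  obtain ⟨Q2, hQ2, eQ2, nQ2⟩ := class_orbit oct_model sO360_cover (sBase_move hS)
  obtain ⟨x2, hx2, ex2, nx2⟩ := octFams_orbit hQ2 eQ2
  obtain ⟨Q3, hQ3, eQ3, nQ3⟩ := class_orbit oct_model sO384_cover (sBase_move hS)
  obtain ⟨x3, hx3, ex3, nx3⟩ := octFams_orbit hQ3 eQ3
  obtain ⟨Z1, hZ1, eZ1, nZ1⟩ := class_orbit trio_model sT15_cover (sBase_move hS)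
  obtain ⟨Z2, hZ2, eZ2, nZ2⟩ := class_orbit trio_model sT180_cover (sBase_move hS)
  obtain ⟨Z3, hZ3, eZ3, nZ3⟩ := class_orbit trio_model sT720_cover (sBase_move hS)
  obtain ⟨Z4, hZ4, eZ4, nZ4⟩ := class_orbit trio_model sT2880_cover (sBase_move hS)
  refine ⟨⟨x1, hx1, x2, hx2, x3, hx3, nx1.trans nQ1, nx2.trans nQ2, nx3.trans nQ3, ?_⟩, Z1, hZ1, Z2, hZ2, Z3, hZ3, Z4, hZ4, nZ1, nZ2, nZ3, nZ4, ?_⟩
  · ext A
    simp only [ex1, ex2, ex3, Set.mem_union, Set.mem_ofPred_eq]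
    constructor
    · intro hA
      have hk := kinds_cover' oct_model (B := sBase) (by decide +kernel) sO_all (sBase_move hS) (A := ({A} : Finset (Finset GolayPt))) ⟨A, hA, rfl⟩
      simp only [List.mem_cons, List.not_mem_nil, or_false] at hk
      tauto
    · tauto
  · ext A
    simp only [eZ1, eZ2, eZ3, eZ4, Set.mem_union, Set.mem_ofPred_eq]
    constructor
    · intro hA
      have hk := kinds_cover' trio_model (B := sBase) (by decide +kernel) sT_all (sBase_move hS) (A := A) hA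
      simp only [List.mem_cons, List.not_mem_nil, or_false] at hk
      tauto
    · tauto

end Cfsg.Agent.S5611
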