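import Cfsg.Statements.S5612
import Cfsg.Agent.Lib.Golay.FamOrbits

set_option autoImplicit false
open scoped Pointwise
open Cfsg
open Cfsg.Agent.Lib.Golay

namespace Cfsg.Agent.S5612

/-- The stabiliser of a trio in the group of the length-24 code has exactly three orbits on the 759 octads, of sizes 3, 84 and 672, and exactly four orbits on the 1771 sextets, of sizes 7, 84, 336 and 1344. -/
theorem result (T : Finset (Finset Cfsg.GolayPt)) (hT : T ∈ Cfsg.trios) : (∃ X₁ ∈ Cfsg.octads, ∃ X₂ ∈ Cfsg.octads, ∃ X₃ ∈ Cfsg.octads, (MulAction.orbit ↥(MulAction.stabilizer Cfsg.M24 T) X₁).ncard = 3 ∧ (MulAction.orbit ↥(MulAction.stabilizer Cfsg.M24 T) X₂).ncard = 84 ∧ (MulAction.orbit ↥(MulAction.stabilizer Cfsg.M24 T) X₃).ncard = 672 ∧ Cfsg.octads = MulAction.orbit ↥(MulAction.stabilizer Cfsg.M24 T) X₁ ∪ MulAction.orbit ↥(MulAction.stabilizer Cfsg.M24 T) X₂ ∪ MulAction.orbit ↥(MulAction.stabilizer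 Cfsg.M24 T) X₃) ∧ (∃ Y₁ ∈ Cfsg.sextets, ∃ Y₂ ∈ Cfsg.sextets, ∃ Y₃ ∈ Cfsg.sextets, ∃ Y₄ ∈ Cfsg.sextets, (MulAction.orbit ↥(MulAction.stabilizer Cfsg.M24 T) Y₁).ncard = 7 ∧ (MulAction.orbit ↥(MulAction.stabilizer Cfsg.M24 T) Y₂).ncard = 84 ∧ (MulAction.orbit ↥(MulAction.stabilizer Cfsg.M24 T) Y₃).ncard = 336 ∧ (MulAction.orbit ↥(MulAction.stabilizer Cfsg.M24 T) Y₄).ncard = 1344 ∧ Cfsg.sextets = MulAction.orbit ↥(MulAction.stabilizer Cfsg.M24 T) Y₁ ∪ MulAction.orbit ↥(MulAction.stabilizer Cfsg.M24 T) Y₂ ∪ MulAction.orbit ↥(MulAction.stabilizer Cfsg.M24 T) Y₃ ∪ MulAction.orbit ↥(MulAction.stabilizer Cfsg.M24 T) Y₄) := by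
  obtain ⟨Q1, hQ1, eQ1, nQ1⟩ := class_orbit oct_model tO3_cover (tBase_move hT)
  obtain ⟨x1, hx1, ex1, nx1⟩ := octFams_orbit hQ1 eQ1
  obtain ⟨Q2, hQ2, eQ2, nQ2⟩ := class_orbit oct_model tO84_cover (tBase_move hT)
  obtain ⟨x2, hx2, ex2, nx2⟩ := octFams_orbit hQ2 eQ2
  obtain ⟨Q3, hQ3, eQ3, nQ3⟩ := class_orbit oct_model tO672_cover (tBase_move hT)
  obtain ⟨x3, hx3, ex3, nx3⟩ := octFams_orbit hQ3 eQ3
  obtain ⟨Z1, hZ1, eZ1, nZ1⟩ := class_orbit sextet_model tS7_cover (tBase_move hT)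
  obtain ⟨Z2, hZ2, eZ2, nZ2⟩ := class_orbit sextet_model tS84_cover (tBase_move hT)
  obtain ⟨Z3, hZ3, eZ3, nZ3⟩ := class_orbit sextet_model tS336_cover (tBase_move hT)
  obtain ⟨Z4, hZ4, eZ4, nZ4⟩ := class_orbit sextet_model tS1344_cover (tBase_move hT)
  refine ⟨⟨x1, hx1, x2, hx2, x3, hx3, nx1.trans nQ1, nx2.trans nQ2, nx3.trans nQ3, ?_⟩, Z1, hZ1, Z2, hZ2, Z3, hZ3, Z4, hZ4, nZ1, nZ2, nZ3, nZ4, ?_⟩
  · ext A
    simp only [ex1, ex2, ex3, Set.mem_union, Set.mem_ofPred_eq]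
    constructor
    · intro hA
      have hk := kinds_cover' oct_model (B := tBase) (by decide +kernel) tO_all (tBase_move hT) (A := ({A} : Finset (Finset GolayPt))) ⟨A, hA, rfl⟩
      simp only [List.mem_cons, List.not_mem_nil, or_false] at hk
      tauto
    · tauto
  · ext A
    simp only [eZ1, eZ2, eZ3, eZ4, Set.mem_union, Set.mem_ofPred_eq]
    constructor
    · intro hA
      have hk := kinds_cover' sextet_model (B := tBase) (by decide +kernel) tS_all (tBase_move hT) (A := A) hA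
      simp only [List.mem_cons, List.not_mem_nil, or_false] at hk
      tauto
    · tauto

end Cfsg.Agent.S5612
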