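import Cfsg.Statements.S5613
import Cfsg.Agent.Lib.Golay.Maximal

set_option autoImplicit false
open scoped Pointwise
open Cfsg
open Cfsg.Agent.Lib.Golay

namespace Cfsg.Agent.S5613

/-- In the group of the length-24 code, the joint stabiliser of two octads has order 10752, 1152 or 720 according as the octads meet in 0, 4 or 2 points. -/
theorem result (o o' : Finset Cfsg.GolayPt) (ho : o ∈ Cfsg.octads) (ho' : o' ∈ Cfsg.octads) : ((o ∩ o').card = 0 → Nat.card ↥(MulAction.stabilizer Cfsg.M24 o ⊓ MulAction.stabilizer Cfsg.M24 o') = 10752) ∧ ((o ∩ o').card = 4 → Nat.card ↥(MulAction.stabilizer Cfsg.M24 o ⊓ MulAction.stabilizer Cfsg.M24 o') = 1152) ∧ ((o ∩ o').card = 2 → Nat.card ↥(MulAction.stabilizer Cfsg.M24 o ⊓ MulAction.stabilizer Cfsg.M24 o') = 720) := by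
  have key : ∀ k n : ℕ, (o ∩ o').card = k →
      (octList.filter (octClass o0 k 0 0)).length = n →
      n * Nat.card ↥(MulAction.stabilizer M24 o ⊓ MulAction.stabilizer M24 o') = 322560 := by
    intro k n hk hn
    have h := card_eq_orbit_mul (stSet o) o' {b | b ∈ octads ∧ (b ∩ o).card = k}
      (fun σ hσ => ⟨smul_mem_octads hσ.1 ho', by
        have hfix : σ • o = o := hσ.2
        conv_lhs => rw [← hfix]
        rw [smul_inter_card, Finset.inter_comm, hk]⟩)
      (fun b hb => by
        obtain ⟨σ, hσ, h1, h2⟩ := octad_pairs ho ho' hb.1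
          (by rw [hk, Finset.inter_comm]; exact hb.2.symm)
        exact ⟨σ, ⟨hσ, h1⟩, h2⟩)
    have hc : {b : Finset GolayPt | b ∈ octads ∧ (b ∩ o).card = k}.ncard = n := by
      rw [← hn, ncard_transfer (M24_trans_octads o0_octad ho)
        (P := fun o b => b ∈ octads ∧ (b ∩ o).card = k)]
      · exact ncard_octClass o0 k 0 0 _ fun m _ => by simp [Finset.inter_comm (toSet m)]
      · rintro σ hσ a b ⟨h1, h2⟩
        exact ⟨smul_mem_octads hσ h1, by rw [smul_inter_card, h2]⟩
    rw [stSet_octad_card ho, hc] at h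
    rw [h]
    congr 1
    exact (Nat.card_congr (subEquiv (MulAction.stabilizer M24 o ⊓ MulAction.stabilizer M24 o')
      (stSet o ⊓ MulAction.stabilizer (Equiv.Perm GolayPt) o') (fun _ h => h.1.1) fun g => by
      simp [stSet, Subgroup.smul_def]).toEquiv)
  refine ⟨fun h => ?_, fun h => ?_, fun h => ?_⟩
  · have := key 0 30 h (by decide +kernel); omega
  · have := key 4 280 h (by decide +kernel); omega
  · have := key 2 448 h (by decide +kernel); omega

end Cfsg.Agent.S5613
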