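import Cfsg.Statements.S5614
import Cfsg.Agent.Lib.Golay.SymSix
-- import your own Cfsg.Agent.* helpers here

set_option autoImplicit false
open scoped Pointwise
open Cfsg

namespace Cfsg.Agent.S5614

open Cfsg
open Cfsg.Agent.Lib.Golay
open scoped Pointwise


/-- In the group of the length-24 code, the joint stabiliser of two octads meeting in exactly two points is isomorphic to the symmetric group of degree 6. -/
theorem result (o o' : Finset Cfsg.GolayPt) (ho : o ∈ Cfsg.octads) (ho' : o' ∈ Cfsg.octads) (h₂ : (o ∩ o').card = 2) : Nonempty (↥(MulAction.stabilizer Cfsg.M24 o ⊓ MulAction.stabilizer Cfsg.M24 o') ≃* Equiv.Perm (Fin 6)) := by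
  obtain ⟨e⟩ := iso_sym_six (octad_two_card ho ho' h₂) (D := o \ o')
    (by rw [Finset.card_sdiff, Finset.inter_comm o' o, octads_card ho, h₂])
    (fun g hg => smul_sdiff_fix hg.1.2 hg.2)
    (fun g hg hf => octad_two_faith ho ho' h₂ hg.1.1 hg.2 hf)
  exact ⟨(subEquiv _ (stSet o ⊓ MulAction.stabilizer (Equiv.Perm GolayPt) o') (fun _ h => h.1.1)
    fun g => by simp [stSet, Subgroup.smul_def]).trans e⟩

end Cfsg.Agent.S5614
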