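import Cfsg.Statements.S5615
import Cfsg.Agent.Lib.Golay.OctadTrios

set_option autoImplicit false
open scoped Pointwise
open Cfsg
open Cfsg.Agent.Lib.Golay

namespace Cfsg.Agent.S5615

/-- An octad of the length-24 code lies in exactly 15 trios; the stabiliser of the octad in the code's group acts doubly transitively on these 15 trios, and the kernel of this action is the pointwise stabiliser of the octad. -/
theorem result (o : Finset Cfsg.GolayPt) (ho : o ∈ Cfsg.octads) : {T : Finset (Finset Cfsg.GolayPt) | T ∈ Cfsg.trios ∧ o ∈ T}.ncard = 15 ∧ (∀ T₁ T₂ T₁' T₂' : Finset (Finset Cfsg.GolayPt), T₁ ∈ Cfsg.trios → T₂ ∈ Cfsg.trios → T₁' ∈ Cfsg.trios → T₂' ∈ Cfsg.trios → o ∈ T₁ → o ∈ T₂ → o ∈ T₁' → o ∈ T₂' → T₁ ≠ T₂ → T₁' ≠ T₂' → ∃ g ∈ Cfsg.M24, g • o = o ∧ g • T₁ = T₁' ∧ g • T₂ = T₂') ∧ ∀ g ∈ Cfsg.M24, g • o = o → ((∀ T ∈ Cfsg.trios, o ∈ T → g • T = T) ↔ ∀ p ∈ o, g p = p) := by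
  refine ⟨?_, fun T₁ T₂ T₁' T₂' h1 h2 h1' h2' m1 m2 m1' m2' hne hne' =>
    trios_through_two ho h1 h2 h1' h2' m1 m2 m1' m2' hne hne', fun g hg hgo => ?_⟩
  · rw [ncard_transfer (M24_trans_octads o0_octad ho) (P := fun o T => T ∈ trios ∧ o ∈ T)
      (fun σ hσ a T h => ⟨smul_mem_trios hσ h.1, Finset.smul_mem_smul_finset h.2⟩)]
    exact trios15_count
  · obtain ⟨σ, hσ, rfl⟩ := M24_trans_octads o0_octad ho
    have hb := trios_kernel_std (g := σ⁻¹ * g * σ) (mul_mem (mul_mem (inv_mem hσ) hg) hσ)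
      (by rw [mul_smul, mul_smul, hgo, inv_smul_smul])
    constructor
    · intro h p hp
      obtain ⟨q, hq, rfl⟩ := Finset.mem_smul_finset.1 hp
      have hfix := hb.1 (fun T hT hoT => by
        rw [mul_smul, mul_smul, h _ (smul_mem_trios hσ hT) (Finset.smul_mem_smul_finset hoT),
          inv_smul_smul]) q hq
      have := congrArg σ hfix
      simpa using this
    · intro h T hT hoT
      have := hb.2 (fun q hq => by
        have := h (σ • q) (Finset.smul_mem_smul_finset hq)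
        rw [Equiv.Perm.smul_def] at this
        simp [this]) (σ⁻¹ • T) (smul_mem_trios (inv_mem hσ) hT)
        (by rw [← inv_smul_smul σ (toSet o0)]; exact Finset.smul_mem_smul_finset hoT)
      rw [mul_smul, mul_smul, smul_inv_smul] at this
      exact MulAction.injective σ⁻¹ this

end Cfsg.Agent.S5615
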