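import Cfsg.Statements.S5616
import Cfsg.Agent.Lib.Golay.FamOrbits

set_option autoImplicit false
open scoped Pointwise
open Cfsg
open Cfsg.Agent.Lib.Golay

namespace Cfsg.Agent.S5616

theorem met_table : sextetList.all (fun a =>
    (((a.map fun t => if pc (t &&& 7) == 0 then 0 else 1).sum, kindL yBase a) : ℕ × ℕ) == (1, 9) ||
    (((a.map fun t => if pc (t &&& 7) == 0 then 0 else 1).sum, kindL yBase a) : ℕ × ℕ) == (2, 5) ||
    (((a.map fun t => if pc (t &&& 7) == 0 then 0 else 1).sum, kindL yBase a) : ℕ × ℕ) == (3, 3))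
      = true := by
  decide +kernel

theorem met_eq (Y : Finset GolayPt) (A : Finset (Finset GolayPt)) :
    (A.filter fun t => (t ∩ Y).Nonempty).card = ∑ t ∈ A, (if (t ∩ Y).card = 0 then 0 else 1) := by
  rw [Finset.card_filter]
  refine Finset.sum_congr rfl fun t _ => ?_
  by_cases h : (t ∩ Y).card = 0
  · simp [Finset.card_eq_zero.1 h]
  · simp [h, Finset.card_pos.1 (Nat.pos_of_ne_zero h)]

/-- The number of tetrads met determines the kind. -/
theorem met_kind {Y : Finset GolayPt} (hY : Y.card = 3) {S : Finset (Finset GolayPt)}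
    (hS : S ∈ sextets) :
    ((S.filter fun t => (t ∩ Y).Nonempty).card = 1 ↔ kindF {Y} S = 9) ∧
    ((S.filter fun t => (t ∩ Y).Nonempty).card = 2 ↔ kindF {Y} S = 5) ∧
    ((S.filter fun t => (t ∩ Y).Nonempty).card = 3 ↔ kindF {Y} S = 3) ∧
    kindF {Y} S ∈ [9, 5, 3] := by
  have hY0 : canon yBase = true := by decide +kernel
  obtain ⟨σ, hσ, he⟩ := yBase_move hY
  obtain ⟨a, ha, hfa⟩ := sextet_model.surj (smul_mem_sextets (inv_mem hσ) hS)
  have hS' : σ • fam a = S := by rw [hfa, smul_inv_smul]
  have hY' : σ • toSet 7 = Y := by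
    rw [show fam yBase = {toSet 7} from rfl, Finset.smul_finset_singleton] at he
    exact Finset.singleton_injective he
  have h1 : kindF {Y} S = kindL yBase a := by
    rw [← he, ← hS', kindF_smul, kindF_fam hY0 (sextet_model.canon_of ha)]
  have h2 : (S.filter fun t => (t ∩ Y).Nonempty).card =
      (a.map fun t => if pc (t &&& 7) == 0 then 0 else 1).sum := by
    rw [met_eq, ← hS', ← hY']
    change ∑ t ∈ Finset.image (fun x => σ • x) (fam a), _ = _
    rw [Finset.sum_image (MulAction.injective σ).injOn, sum_fam (sextet_model.canon_of ha)]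
    refine congrArg List.sum (List.map_congr_left fun t _ => ?_)
    rw [smul_inter_card, inter_eq]
    simp
  have := List.all_eq_true.1 met_table a ha
  simp only [Bool.or_eq_true, beq_iff_eq, Prod.mk.injEq] at this
  rw [h1, h2]
  rcases this with (⟨e1, e2⟩ | ⟨e1, e2⟩) | ⟨e1, e2⟩ <;> simp [e1, e2]

/-- Let Y be a set of 3 of the 24 points. The sextets of the length-24 code whose tetrads meeting Y number 1, 2 or 3 are respectively 21, 630 and 1120 in number, and two sextets with the same number of tetrads meeting Y are conjugate under the setwise stabiliser of Y in the code's group. -/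
theorem result (Y : Finset Cfsg.GolayPt) (hY : Y.card = 3) : {S : Finset (Finset Cfsg.GolayPt) | S ∈ Cfsg.sextets ∧ (S.filter fun t => (t ∩ Y).Nonempty).card = 1}.ncard = 21 ∧ {S : Finset (Finset Cfsg.GolayPt) | S ∈ Cfsg.sextets ∧ (S.filter fun t => (t ∩ Y).Nonempty).card = 2}.ncard = 630 ∧ {S : Finset (Finset Cfsg.GolayPt) | S ∈ Cfsg.sextets ∧ (S.filter fun t => (t ∩ Y).Nonempty).card = 3}.ncard = 1120 ∧ ∀ S S' : Finset (Finset Cfsg.GolayPt), S ∈ Cfsg.sextets → S' ∈ Cfsg.sextets → (S.filter fun t => (t ∩ Y).Nonempty).card = (S'.filter fun t => (t ∩ Y).Nonempty).card → ∃ g ∈ Cfsg.M24, g • Y = Y ∧ g • S = S' := by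
  have mv := yBase_move hY
  refine ⟨?_, ?_, ?_, ?_⟩
  · rw [← (class_transfer sextet_model yS21_cover mv).1]
    exact congrArg Set.ncard (Set.ext fun S => and_congr_right fun hS => (met_kind hY hS).1)
  · rw [← (class_transfer sextet_model yS630_cover mv).1]
    exact congrArg Set.ncard (Set.ext fun S => and_congr_right fun hS => (met_kind hY hS).2.1)
  · rw [← (class_transfer sextet_model yS1120_cover mv).1]
    exact congrArg Set.ncard (Set.ext fun S => and_congr_right fun hS => (met_kind hY hS).2.2.1)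
  · intro S S' hS hS' he
    obtain ⟨a1, a2, a3, am⟩ := met_kind hY hS
    obtain ⟨b1, b2, b3, -⟩ := met_kind hY hS'
    simp only [List.mem_cons, List.not_mem_nil, or_false] at am
    have key : ∃ σ ∈ M24, σ • ({Y} : Finset (Finset GolayPt)) = {Y} ∧ σ • S = S' := by
      rcases am with h | h | h
      · exact (class_transfer sextet_model yS21_cover mv).2.1 S hS h S' hS' (b1.1 (he ▸ a1.2 h))
      · exact (class_transfer sextet_model yS630_cover mv).2.1 S hS h S' hS' (b2.1 (he ▸ a2.2 h))
      · exact (class_transfer sextet_model yS1120_cover mv).2.1 S hS h S' hS' (b3.1 (he ▸ a3.2 h))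
    obtain ⟨σ, hσ, h1, h2⟩ := key
    rw [Finset.smul_finset_singleton] at h1
    exact ⟨σ, hσ, Finset.singleton_injective h1, h2⟩

end Cfsg.Agent.S5616
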