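import Cfsg.Statements.S5617
import Cfsg.Agent.Lib.Golay.FamOrbits

set_option autoImplicit false
open scoped Pointwise
open Cfsg
open Cfsg.Agent.Lib.Golay

namespace Cfsg.Agent.S5617

/-- The setwise stabiliser, in the group of the length-24 code, of a complementary pair of dodecads has exactly three orbits on the 1771 sextets, of sizes 396, 495 and 880. -/
theorem result (d : Finset Cfsg.GolayPt) (hd : d ∈ Cfsg.dodecads) : ∃ X₁ ∈ Cfsg.sextets, ∃ X₂ ∈ Cfsg.sextets, ∃ X₃ ∈ Cfsg.sextets, (MulAction.orbit ↥(MulAction.stabilizer Cfsg.M24 ({d, Finset.univ \ d} : Finset (Finset Cfsg.GolayPt))) X₁).ncard = 396 ∧ (MulAction.orbit ↥(MulAction.stabilizer Cfsg.M24 ({d, Finset.univ \ d} : Finset (Finset Cfsg.GolayPt))) X₂).ncard = 495 ∧ (MulAction.orbit ↥(MulAction.stabilizer Cfsg.M24 ({d, Finset.univ \ d} : Finset (Finset Cfsg.GolayPt))) X₃).ncard = 880 ∧ Cfsg.sextets = MulAction.orbit ↥(MulAction.stabilizer Cfsg.M24 ({d, Finset.univ \ d} : Finset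 (Finset Cfsg.GolayPt))) X₁ ∪ MulAction.orbit ↥(MulAction.stabilizer Cfsg.M24 ({d, Finset.univ \ d} : Finset (Finset Cfsg.GolayPt))) X₂ ∪ MulAction.orbit ↥(MulAction.stabilizer Cfsg.M24 ({d, Finset.univ \ d} : Finset (Finset Cfsg.GolayPt))) X₃ := by
  obtain ⟨Z1, hZ1, eZ1, nZ1⟩ := class_orbit sextet_model dS396_cover (dBase_move hd)
  obtain ⟨Z2, hZ2, eZ2, nZ2⟩ := class_orbit sextet_model dS495_cover (dBase_move hd)
  obtain ⟨Z3, hZ3, eZ3, nZ3⟩ := class_orbit sextet_model dS880_cover (dBase_move hd)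
  refine ⟨Z1, hZ1, Z2, hZ2, Z3, hZ3, nZ1, nZ2, nZ3, ?_⟩
  · ext A
    simp only [eZ1, eZ2, eZ3, Set.mem_union, Set.mem_ofPred_eq]
    constructor
    · intro hA
      have hk := kinds_cover' sextet_model (B := dBase) (by decide +kernel) dS_all (dBase_move hd) (A := A) hA
      simp only [List.mem_cons, List.not_mem_nil, or_false] at hk
      tauto
    · tauto

end Cfsg.Agent.S5617
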