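import Cfsg.Statements.S5618
import Cfsg.Agent.Lib.Golay.SymSix
-- import your own Cfsg.Agent.* helpers here

set_option autoImplicit false
open scoped Pointwise
open Cfsg

namespace Cfsg.Agent.S5618

open Cfsg
open Cfsg.Agent.Lib.Golay
open scoped Pointwise


/-- For a dodecad d of the length-24 code and a hexad C on it (a 6-point intersection of d with an octad): the joint stabiliser of d and C in the code's group is isomorphic to the symmetric group of degree 6, and it acts faithfully both on the six points of C and on the six points of d outside C. -/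
theorem result (d : Finset Cfsg.GolayPt) (hd : d ∈ Cfsg.dodecads) (C : Finset Cfsg.GolayPt) (hC : C ∈ Cfsg.hexadsOn d) : Nonempty (↥(MulAction.stabilizer Cfsg.M24 d ⊓ MulAction.stabilizer Cfsg.M24 C) ≃* Equiv.Perm (Fin 6)) ∧ (∀ g ∈ MulAction.stabilizer Cfsg.M24 d ⊓ MulAction.stabilizer Cfsg.M24 C, (∀ p ∈ C, ((g : ↥Cfsg.M24) : Equiv.Perm Cfsg.GolayPt) p = p) → g = 1) ∧ ∀ g ∈ MulAction.stabilizer Cfsg.M24 d ⊓ MulAction.stabilizer Cfsg.M24 C, (∀ p ∈ d \ C, ((g : ↥Cfsg.M24) : Equiv.Perm Cfsg.GolayPt) p = p) → g = 1 := by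
  have hcompl := hexad_compl hd hC
  refine ⟨?_, fun g hg hfix => ?_, fun g hg hfix => ?_⟩
  · obtain ⟨e⟩ := iso_sym_six (hexad_card hd hC) hC.1 (fun g hg => hg.2)
      (fun g hg hf => hexad_faith hd hC hg.1 hf)
    exact ⟨(subEquiv _ (stSet d ⊓ MulAction.stabilizer (Equiv.Perm GolayPt) C) (fun _ h => h.1.1)
      fun g => by simp [stSet, Subgroup.smul_def]).trans e⟩
  · exact Subtype.ext (hexad_faith hd hC ⟨g.2, hg.1⟩ hfix)
  · exact Subtype.ext (hexad_faith hd hcompl ⟨g.2, hg.1⟩ hfix)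

end Cfsg.Agent.S5618
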