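import Cfsg.Statements.S5625
-- import your own Cfsg.Agent.* helpers here

set_option autoImplicit false
open Cfsg

namespace Cfsg.Agent.S5625

/-- In any Steiner system S(5, 8, 24) and for any set Y of three points, the blocks meeting Y in exactly 3, 2, 1 and 0 points number 21, 168, 360 and 210 respectively (so there are 759 blocks in all). -/
theorem result (α : Type*) [Fintype α] [DecidableEq α] (hα : Fintype.card α = 24) (B : Set (Finset α)) (hB : Cfsg.IsSteinerSystem 5 8 B) (Y : Finset α) (hY : Y.card = 3) : {b : Finset α | b ∈ B ∧ (b ∩ Y).card = 3}.ncard = 21 ∧ {b : Finset α | b ∈ B ∧ (b ∩ Y).card = 2}.ncard = 168 ∧ {b : Finset α | b ∈ B ∧ (b ∩ Y).card = 1}.ncard = 360 ∧ {b : Finset α | b ∈ B ∧ (b ∩ Y).card = 0}.ncard = 210 := by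
  obtain ⟨hblk, huniq⟩ := hB
  set F := B.toFinite.toFinset with hF
  have hmemF : ∀ b, b ∈ F ↔ b ∈ B := fun b => Set.Finite.mem_toFinset _
  -- members of size five of the interval between two sets
  have hint : ∀ J U : Finset α, J ⊆ U →
      ((U.powersetCard 5).filter fun T => J ⊆ T).card = if J.card ≤ 5 then (U.card - J.card).choose (5 - J.card) else 0 := by
    intro J U hJU
    split_ifs with h5
    · rw [← Finset.card_sdiff_of_subset hJU, ← Finset.card_powersetCard]
      refine Finset.card_bij' (fun T _ => T \ J) (fun T _ => T ∪ J) ?_ ?_ ?_ ?_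
      · intro T hT
        simp only [Finset.mem_filter, Finset.mem_powersetCard] at hT ⊢
        exact ⟨Finset.sdiff_subset_sdiff hT.1.1 le_rfl, by rw [Finset.card_sdiff_of_subset hT.2, hT.1.2]⟩
      · intro T hT
        simp only [Finset.mem_filter, Finset.mem_powersetCard] at hT ⊢
        refine ⟨⟨Finset.union_subset (hT.1.trans Finset.sdiff_subset) hJU, ?_⟩, Finset.subset_union_right⟩
        rw [Finset.card_union_of_disjoint (Finset.disjoint_of_subset_left hT.1 Finset.sdiff_disjoint), hT.2]; omega
      · intro T hT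
        simp only [Finset.mem_filter, Finset.mem_powersetCard] at hT
        exact Finset.sdiff_union_of_subset hT.2
      · intro T hT
        simp only [Finset.mem_powersetCard] at hT
        exact Finset.union_sdiff_cancel_right (Finset.disjoint_of_subset_left hT.1 Finset.sdiff_disjoint)
    · rw [Finset.card_eq_zero, Finset.filter_eq_empty_iff]
      intro T hT hJT
      have := Finset.card_le_card hJT
      rw [(Finset.mem_powersetCard.1 hT).2] at this
      omega
  -- number of blocks through a given set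
  have hlam : ∀ J : Finset α, J.card ≤ 5 →
      (F.filter fun b => J ⊆ b).card * (8 - J.card).choose (5 - J.card) = (24 - J.card).choose (5 - J.card) := by
    intro J hJ
    have hd : ((F.filter fun b => J ⊆ b : Finset (Finset α)) : Set (Finset α)).PairwiseDisjoint
        fun b => (b.powersetCard 5).filter fun T => J ⊆ T := by
      intro a ha b hb hab
      simp only [Finset.coe_filter, Set.mem_setOf_eq, hmemF] at ha hb
      simp only [Function.onFun, Finset.disjoint_left, Finset.mem_filter, Finset.mem_powersetCard]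
      rintro T ⟨⟨hTa, hT5⟩, -⟩ ⟨⟨hTb, -⟩, -⟩
      exact hab ((huniq T hT5).unique ⟨ha.1, hTa⟩ ⟨hb.1, hTb⟩)
    have heq : (F.filter fun b => J ⊆ b).biUnion (fun b => (b.powersetCard 5).filter fun T => J ⊆ T) =
        ((Finset.univ : Finset α).powersetCard 5).filter fun T => J ⊆ T := by
      ext T
      simp only [Finset.mem_biUnion, Finset.mem_filter, Finset.mem_powersetCard, hmemF]
      constructor
      · rintro ⟨b, -, ⟨-, hT5⟩, hJT⟩; exact ⟨⟨Finset.subset_univ _, hT5⟩, hJT⟩
      · rintro ⟨⟨-, hT5⟩, hJT⟩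
        obtain ⟨b, ⟨hb, hTb⟩, -⟩ := huniq T hT5
        exact ⟨b, ⟨hb, hJT.trans hTb⟩, ⟨hTb, hT5⟩, hJT⟩
    have := congrArg Finset.card heq
    rw [Finset.card_biUnion hd, hint J _ (Finset.subset_univ _), if_pos hJ, Finset.card_univ, hα,
      Finset.sum_congr rfl (g := fun _ => (8 - J.card).choose (5 - J.card)) (fun b hb => by
        rw [Finset.mem_filter, hmemF] at hb
        rw [hint J b hb.2, if_pos hJ, hblk b hb.1]), Finset.sum_const, smul_eq_mul] at this
    exact this
  obtain ⟨x, y, z, hxy, hxz, hyz, rfl⟩ := Finset.card_eq_three.1 hY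
  have l0 := hlam ∅ (by simp)
  have l1 : ∀ u, _ := fun u => hlam {u} (by simp)
  have l2 : ∀ u v, u ≠ v → (F.filter fun b => {u, v} ⊆ b).card = 77 := fun u v huv => by
    have := hlam {u, v} (by rw [Finset.card_pair huv]; omega)
    rw [Finset.card_pair huv] at this
    norm_num [Nat.choose_eq_factorial_div_factorial, Nat.factorial] at this
    omega
  have l3 := hlam {x, y, z} (by rw [hY]; omega)
  rw [hY] at l3
  simp only [Finset.empty_subset, Finset.filter_true, Finset.card_empty] at l0
  simp only [Finset.singleton_subset_iff, Finset.card_singleton] at l1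
  norm_num [Nat.choose_eq_factorial_div_factorial, Nat.factorial] at l0 l1 l3
  have pxy := l2 x y hxy
  have pxz := l2 x z hxz
  have pyz := l2 y z hyz
  have hx := l1 x
  have hy := l1 y
  have hz := l1 z
  simp only [Finset.insert_subset_iff, Finset.singleton_subset_iff] at l3 pxy pxz pyz
  -- indicator sums
  have key : ∀ k, {b : Finset α | b ∈ B ∧ (b ∩ {x, y, z}).card = k}.ncard = ∑ b ∈ F,
      if (if x ∈ b then 1 else 0) + (if y ∈ b then 1 else 0) + (if z ∈ b then 1 else 0) = k then 1 else 0 := by
    intro k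
    rw [← Finset.card_filter, ← Set.ncard_coe_finset]
    congr 1
    ext b
    simp only [Set.mem_setOf_eq, Finset.coe_filter, hmemF]
    rw [Finset.inter_comm, ← Finset.filter_mem_eq_inter, Finset.card_filter,
      Finset.sum_insert (by simp [hxy, hxz]), Finset.sum_insert (by simp [hyz]), Finset.sum_singleton, add_assoc]
  rw [key, key, key, key]
  rw [Finset.card_filter] at hx hy hz pxy pxz pyz l3
  rw [Finset.card_eq_sum_ones] at l0
  have e : ∀ (f : Finset α → ℕ) (cs : List (ℤ × (Finset α → ℕ))), (∀ b, (f b : ℤ) = (cs.map fun p => p.1 * (p.2 b : ℤ)).sum) →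
      ((∑ b ∈ F, f b : ℕ) : ℤ) = (cs.map fun p => p.1 * ((∑ b ∈ F, p.2 b : ℕ) : ℤ)).sum := by
    intro f cs hf
    rw [Nat.cast_sum, Finset.sum_congr rfl fun b _ => hf b]
    clear hf
    induction cs with
    | nil => simp
    | cons c cs ih => simp [Finset.sum_add_distrib, ih, Finset.mul_sum]
  let S1 := fun b : Finset α => (if x ∈ b then 1 else 0)
  let S2 := fun b : Finset α => (if y ∈ b then 1 else 0)
  let S3 := fun b : Finset α => (if z ∈ b then 1 else 0)
  let S4 := fun b : Finset α => (if x ∈ b ∧ y ∈ b then 1 else 0)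
  let S5 := fun b : Finset α => (if x ∈ b ∧ z ∈ b then 1 else 0)
  let S6 := fun b : Finset α => (if y ∈ b ∧ z ∈ b then 1 else 0)
  let S7 := fun b : Finset α => (if x ∈ b ∧ y ∈ b ∧ z ∈ b then 1 else 0)
  have e3 := e (fun b => if S1 b + S2 b + S3 b = 3 then 1 else 0) [(1, S7)] fun b => by
    by_cases a : x ∈ b <;> by_cases c : y ∈ b <;> by_cases d : z ∈ b <;> simp [S1, S2, S3, S7, a, c, d]
  have e2 := e (fun b => if S1 b + S2 b + S3 b = 2 then 1 else 0) [(1, S4), (1, S5), (1, S6), (-3, S7)] fun b => by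
    by_cases a : x ∈ b <;> by_cases c : y ∈ b <;> by_cases d : z ∈ b <;> simp [S1, S2, S3, S4, S5, S6, S7, a, c, d]
  have e1 := e (fun b => if S1 b + S2 b + S3 b = 1 then 1 else 0)
      [(1, S1), (1, S2), (1, S3), (-2, S4), (-2, S5), (-2, S6), (3, S7)] fun b => by
    by_cases a : x ∈ b <;> by_cases c : y ∈ b <;> by_cases d : z ∈ b <;> simp [S1, S2, S3, S4, S5, S6, S7, a, c, d]
  have e0 := e (fun b => if S1 b + S2 b + S3 b = 0 then 1 else 0)
      [(1, fun _ => 1), (-1, S1), (-1, S2), (-1, S3), (1, S4), (1, S5), (1, S6), (-1, S7)] fun b => by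
    by_cases a : x ∈ b <;> by_cases c : y ∈ b <;> by_cases d : z ∈ b <;> simp [S1, S2, S3, S4, S5, S6, S7, a, c, d]
  simp only [List.map_cons, List.map_nil, List.sum_cons, List.sum_nil, S1, S2, S3, S4, S5, S6, S7] at e0 e1 e2 e3
  refine ⟨?_, ?_, ?_, ?_⟩ <;> omega

end Cfsg.Agent.S5625
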