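import Cfsg.Statements.S5626
import Cfsg.Agent.Lib.Plane4.Model
import Cfsg.Agent.Lib.Plane4.Count
-- import your own Cfsg.Agent.* helpers here

set_option autoImplicit false
open Cfsg

namespace Cfsg.Agent.S5626

/-- Uniqueness of the projective plane of order 4: any two Steiner systems S(2, 5, 21) (21 points, lines of 5 points, two points on exactly one line) are isomorphic. -/
theorem result {α β : Type*} [Fintype α] [DecidableEq α] [Fintype β] [DecidableEq β] (hα : Fintype.card α = 21) (hβ : Fintype.card β = 21) {L : Set (Finset α)} {L' : Set (Finset β)} (hL : Cfsg.IsSteinerSystem 2 5 L) (hL' : Cfsg.IsSteinerSystem 2 5 L') : Cfsg.SetSystemIso L L' := by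
  classical
  have P : Lib.Plane4.IsPlane L := ⟨hα, hL⟩
  have P' : Lib.Plane4.IsPlane L' := ⟨hβ, hL'⟩
  obtain ⟨H, hc, hH⟩ := P.exists_hyperoval
  obtain ⟨H', hc', hH'⟩ := P'.exists_hyperoval
  obtain ⟨e, F, -⟩ := Lib.Plane4.exists_frame P hc hH
  obtain ⟨e', F', -⟩ := Lib.Plane4.exists_frame P' hc' hH'
  obtain ⟨g, hg, -⟩ := Lib.Plane4.exists_iso F F'
  exact ⟨g, hg⟩

end Cfsg.Agent.S5626
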