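import Cfsg.Statements.S5628
import Cfsg.Agent.Lib.Plane4.Model
-- import your own Cfsg.Agent.* helpers here

set_option autoImplicit false
open Cfsg
open scoped Pointwise

namespace Cfsg.Agent.S5628

/-- In a projective plane of order 4 (a Steiner system S(2, 5, 21)), every permutation of the six points of a hyperoval (a 6-set met by no line in more than two points) is the restriction of exactly one automorphism of the plane. In particular the stabiliser of a hyperoval in the automorphism group is isomorphic to the symmetric group of degree 6 acting faithfully on the hyperoval. -/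
theorem result {α : Type*} [Fintype α] [DecidableEq α] (hα : Fintype.card α = 21) (L : Set (Finset α)) (hL : Cfsg.IsSteinerSystem 2 5 L) (H : Finset α) (hH : (H.card = 6 ∧ ∀ l ∈ L, (l ∩ H).card ≤ 2)) (σ : Equiv.Perm ↥H) : ∃! g : Equiv.Perm α, g ∈ Cfsg.setSystemAut L ∧ ∀ p : ↥H, g p = σ p := by
  classical
  have P : Lib.Plane4.IsPlane L := ⟨hα, hL⟩
  obtain ⟨e, F, he⟩ := Lib.Plane4.exists_frame P hH.1 hH.2
  have hmem : ∀ i, e i ∈ H := fun i => he ▸ Finset.mem_image_of_mem e (Finset.mem_univ i)
  let e' : Fin 6 → α := fun i => (σ ⟨e i, hmem i⟩ : α)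
  have hinj : Function.Injective e' := fun i j h => F.inj (congrArg Subtype.val (σ.injective (Subtype.ext h)))
  have him : Finset.univ.image e' = H := by
    refine Finset.eq_of_subset_of_card_le (fun p hp => ?_) ?_
    · obtain ⟨i, -, rfl⟩ := Finset.mem_image.1 hp
      exact (σ _).2
    · rw [Finset.card_image_of_injective _ hinj, hH.1]; rfl
  have F' : Lib.Plane4.Frame L e' := ⟨P, hinj, him.symm ▸ hH.2⟩
  obtain ⟨g, hg, hge⟩ := Lib.Plane4.exists_iso F F'
  have hsurj : ∀ p : ↥H, ∃ i, p = ⟨e i, hmem i⟩ := fun ⟨p, hp⟩ => by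
    obtain ⟨i, -, hi⟩ := Finset.mem_image.1 (he.symm ▸ hp : p ∈ Finset.univ.image e)
    exact ⟨i, Subtype.ext hi.symm⟩
  refine ⟨g, ⟨?_, fun p => ?_⟩, ?_⟩
  · rw [MulAction.mem_stabilizer_iff]
    exact hg
  · obtain ⟨i, rfl⟩ := hsurj p
    exact hge i
  · rintro k ⟨hk, hk'⟩
    rw [MulAction.mem_stabilizer_iff] at hk
    have hk2 : ∀ l ∈ L, l.image k ∈ L := fun l hl => hk.le (Set.mem_image_of_mem _ hl)
    have hg2 : ∀ l ∈ L, l.image g.symm ∈ L := by
      intro l hl
      obtain ⟨m, hm, hml⟩ := hg.symm.le hl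
      rw [← hml, Finset.image_image]
      simpa using hm
    have := Lib.Plane4.iso_unique F (g := k.trans g.symm) (fun l hl => by
      have h := hg2 _ (hk2 l hl)
      rwa [Finset.image_image] at h) (fun i => by
      show g.symm (k (e i)) = e i
      rw [show k (e i) = e' i from hk' ⟨e i, hmem i⟩, ← hge i, g.symm_apply_apply])
    refine Equiv.ext fun p => ?_
    have h := congrArg g (Equiv.ext_iff.1 this p)
    simpa using h

end Cfsg.Agent.S5628
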