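import Cfsg.Statements.S5632
import Cfsg.Agent.Lib.Forms.Parabolic

set_option autoImplicit false
open Cfsg Cfsg.Agent.Lib.Forms

namespace Cfsg.Agent.S5632

/-- For a finite field F and subspaces 0 < W < U of F^n with dim W + dim U = n, the elements of SL_n(F) stabilising both W and U form a subgroup that is not maximal in SL_n(F): some subgroup lies strictly between it and SL_n(F). -/
theorem result {F : Type*} [Field F] [Fintype F] (n : ℕ) (W U : Submodule F (Fin n → F)) (hW0 : W ≠ ⊥) (hWU : W < U) (hdim : Module.finrank F W + Module.finrank F U = n) : ∃ K : Subgroup (Matrix.GeneralLinearGroup (Fin n) F), Cfsg.Geo.subspaceStabilizer W ⊓ Cfsg.Geo.subspaceStabilizer U ⊓ Cfsg.Geo.specialLinear (Fin n) F < K ∧ K < Cfsg.Geo.specialLinear (Fin n) F := by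
  have hU : U ≠ ⊤ := by
    rintro rfl
    rw [finrank_top, Module.finrank_fin_fun] at hdim
    exact hW0 (Submodule.finrank_eq_zero.1 (by omega))
  have hW1 : W ≠ ⊤ := fun h => not_top_lt (h ▸ hWU)
  refine ⟨Geo.subspaceStabilizer W ⊓ Geo.specialLinear (Fin n) F,
    lt_of_le_not_ge (le_inf (inf_le_left.trans inf_le_left) inf_le_right) ?_,
    (subspaceStabilizer_isMaximalIn hW0 hW1).1⟩
  intro hle
  obtain ⟨u, hu, huW⟩ := SetLike.exists_of_lt hWU
  obtain ⟨a, ha⟩ := exists_notMem_of_ne_top hU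
  have hx : u ∉ W ⊔ Submodule.span F {a} := by
    intro h
    obtain ⟨w, hw, z, hz, rfl⟩ := Submodule.mem_sup.1 h
    obtain ⟨c, rfl⟩ := Submodule.mem_span_singleton.1 hz
    rcases eq_or_ne c 0 with rfl | hc
    · exact huW (by simpa using hw)
    · have : c • a ∈ U := by simpa using U.sub_mem hu (hWU.le hw)
      exact ha (by simpa [hc] using U.smul_mem c⁻¹ this)
  obtain ⟨φ, h1, h2, h3⟩ := exists_tv_moving hx
  have := mem_subspaceStabilizer.1
    (hle ⟨tv_mem_subspaceStabilizer h1 (Or.inr h3), tv_mem_specialLinear a φ⟩).1.2 u hu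
  rw [tv_mulVec h1, h2, one_smul] at this
  exact ha (by simpa using U.sub_mem this hu)

end Cfsg.Agent.S5632
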