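import Cfsg.Statements.S5633
import Cfsg.Agent.Lib.Forms.Parabolic

set_option autoImplicit false
open Cfsg Cfsg.Agent.Lib.Forms

namespace Cfsg.Agent.S5633

/-- For a finite field F and complementary non-zero subspaces W ⊕ U = F^n with dim W < dim U, the elements of SL_n(F) stabilising both W and U form a subgroup that is not maximal in SL_n(F): some subgroup lies strictly between it and SL_n(F). -/
theorem result {F : Type*} [Field F] [Fintype F] (n : ℕ) (W U : Submodule F (Fin n → F)) (hW0 : W ≠ ⊥) (hWU : W ⊓ U = ⊥) (hWU' : W ⊔ U = ⊤) (hdim : Module.finrank F W < Module.finrank F U) : ∃ K : Subgroup (Matrix.GeneralLinearGroup (Fin n) F), Cfsg.Geo.subspaceStabilizer W ⊓ Cfsg.Geo.subspaceStabilizer U ⊓ Cfsg.Geo.specialLinear (Fin n) F < K ∧ K < Cfsg.Geo.specialLinear (Fin n) F := by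
  have hW1 : W ≠ ⊤ := by
    rintro rfl
    have := Submodule.finrank_le U
    rw [finrank_top] at hdim
    omega
  refine ⟨Geo.subspaceStabilizer W ⊓ Geo.specialLinear (Fin n) F,
    lt_of_le_not_ge (le_inf (inf_le_left.trans inf_le_left) inf_le_right) ?_,
    (subspaceStabilizer_isMaximalIn hW0 hW1).1⟩
  intro hle
  obtain ⟨a, haW, ha0⟩ := Submodule.exists_mem_ne_zero_of_ne_bot hW0
  obtain ⟨u, hu, hu0⟩ := Submodule.exists_mem_ne_zero_of_ne_bot (show U ≠ ⊥ by
    rintro rfl
    simp at hdim)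
  have hx : u ∉ W ⊔ Submodule.span F {a} := by
    rw [sup_eq_left.2 ((Submodule.span_singleton_le_iff_mem _ _).2 haW)]
    intro h
    exact hu0 ((Submodule.mem_bot F).1 (hWU ▸ Submodule.mem_inf.2 ⟨h, hu⟩))
  obtain ⟨φ, h1, h2, h3⟩ := exists_tv_moving hx
  have := mem_subspaceStabilizer.1
    (hle ⟨tv_mem_subspaceStabilizer h1 (Or.inl haW), tv_mem_specialLinear a φ⟩).1.2 u hu
  rw [tv_mulVec h1, h2, one_smul] at this
  exact ha0 ((Submodule.mem_bot F).1 (hWU ▸ Submodule.mem_inf.2
    ⟨haW, by simpa using U.sub_mem this hu⟩))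

end Cfsg.Agent.S5633
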