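import Cfsg.Statements.S5634
import Cfsg.Agent.Lib.Forms.BlockMax

set_option autoImplicit false
open Cfsg Matrix Cfsg.Agent.Lib.Forms

namespace Cfsg.Agent.S5634

/-- For a finite field F with q elements and n ≥ 13, let D be a decomposition of F^n into t ≥ 2 independent subspaces of equal dimension m ≥ 1 spanning F^n. Unless m = 1 and q ≤ 4, or m = 2 and q = 2, the elements of SL_n(F) permuting the members of D form a maximal subgroup of SL_n(F). -/
theorem result {F : Type*} [Field F] [Fintype F] (n : ℕ) (hn : 13 ≤ n) {t : ℕ} (m : ℕ) (D : Fin t → Submodule F (Fin n → F)) (hD : Cfsg.Geo.IsMDecomposition m D) (h1 : ¬ (m = 1 ∧ Fintype.card F ≤ 4)) (h2 : ¬ (m = 2 ∧ Fintype.card F = 2)) : Cfsg.Geo.IsMaximalIn (Cfsg.Geo.specialLinear (Fin n) F) (Cfsg.Geo.decompositionStabilizer D ⊓ Cfsg.Geo.specialLinear (Fin n) F) := by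
  obtain ⟨ht, hm, hdim, hind, htop⟩ := hD
  have hint : DirectSum.IsInternal D :=
    DirectSum.isInternal_submodule_of_iSupIndep_of_iSup_eq_top hind htop
  let bas : ∀ i, Module.Basis (Fin m) F (D i) := fun i => Module.finBasisOfFinrankEq F (D i) (hdim i)
  let B := (hint.collectedBasis bas).reindex (Equiv.sigmaEquivProd (Fin t) (Fin m))
  let e : Fin n ≃ Fin t × Fin m := (Pi.basisFun F (Fin n)).indexEquiv B
  let L : (Fin n → F) ≃ₗ[F] (Fin n → F) := (B.reindex e.symm).equivFun
  let P : GL (Fin n) F :=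
    { val := LinearMap.toMatrix' L.toLinearMap
      inv := LinearMap.toMatrix' L.symm.toLinearMap
      val_inv := by rw [← LinearMap.toMatrix'_comp]; simp
      inv_val := by rw [← LinearMap.toMatrix'_comp]; simp }
  let D' : Fin t → Submodule F (Fin n → F) := fun i => (D i).map L.toLinearMap
  have hP : ∀ x, (P : Matrix (Fin n) (Fin n) F) *ᵥ x = L x := fun x => by
    simp [P, LinearMap.toMatrix'_mulVec]
  have hPmap : ∀ i, D' i = (D i).map (Matrix.toLin' (P : Matrix (Fin n) (Fin n) F)) := fun i => by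
    simp [D', P, Matrix.toLin'_toMatrix']
  have hbasis : ∀ l, (B.reindex e.symm) l ∈ D (e l).1 := fun l => by
    simp only [B, Module.Basis.reindex_apply, Equiv.symm_symm]
    exact DirectSum.IsInternal.collectedBasis_mem hint bas ((Equiv.sigmaEquivProd (Fin t) (Fin m)).symm (e l))
  have hb : Blocks e D' := by
    refine ⟨fun i x => ⟨?_, fun hx => ?_⟩, fun i => ?_⟩
    · rintro ⟨y, hy, rfl⟩ l hl
      show (B.reindex e.symm).equivFun y l = 0
      rw [Module.Basis.equivFun_apply, Module.Basis.repr_reindex_apply, Module.Basis.repr_reindex_apply,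
        Equiv.symm_symm]
      exact hint.collectedBasis_repr_of_mem_ne bas (show (e l).1 ≠ i from hl).symm hy
    · refine ⟨L.symm x, ?_, L.apply_symm_apply x⟩
      show (B.reindex e.symm).equivFun.symm x ∈ D i
      rw [Module.Basis.equivFun_symm_apply]
      refine Submodule.sum_mem _ fun l _ => ?_
      by_cases hl : (e l).1 = i
      · exact (D i).smul_mem _ (hl ▸ hbasis l)
      · rw [hx l hl, zero_smul]; exact (D i).zero_mem
    · rw [show D' i = (D i).map L.toLinearMap from rfl, ← hdim i]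
      exact LinearEquiv.finrank_map_eq L (D i)
  have key := hb.isMaximal ht hm (by simp; omega) h1 h2
  let f : GL (Fin n) F ≃* GL (Fin n) F := MulAut.conj P⁻¹
  have hstab : ∀ (E : Fin t → Submodule F (Fin n → F)) (Q g : GL (Fin n) F),
      g ∈ Cfsg.Geo.decompositionStabilizer E → Q * g * Q⁻¹ ∈ Cfsg.Geo.decompositionStabilizer
        (fun i => (E i).map (Matrix.toLin' (Q : Matrix (Fin n) (Fin n) F))) := by
    intro E Q g hg
    obtain ⟨σ, hσ⟩ := hg
    refine ⟨σ, fun i => ?_⟩
    simp only [← hσ i, ← Submodule.map_comp, ← Matrix.toLin'_mul, ← Units.val_mul,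
      inv_mul_cancel_right]
  have hN : (Cfsg.Geo.specialLinear (Fin n) F).Normal := MonoidHom.normal_ker _
  have hSL : (Cfsg.Geo.specialLinear (Fin n) F).map f.toMonoidHom =
      Cfsg.Geo.specialLinear (Fin n) F := by
    ext g
    rw [Subgroup.mem_map]
    constructor
    · rintro ⟨x, hx, rfl⟩
      show P⁻¹ * x * P⁻¹⁻¹ ∈ Cfsg.Geo.specialLinear (Fin n) F
      exact hN.conj_mem x hx _
    · intro hg
      exact ⟨P * g * P⁻¹,
        hN.conj_mem g hg P,
        show P⁻¹ * (P * g * P⁻¹) * P⁻¹⁻¹ = g by group⟩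
  have hS : (Cfsg.Geo.decompositionStabilizer D').map f.toMonoidHom =
      Cfsg.Geo.decompositionStabilizer D := by
    have hback : (fun i => (D' i).map
        (Matrix.toLin' ((P⁻¹ : GL (Fin n) F) : Matrix (Fin n) (Fin n) F))) = D := funext fun i => by
      show (D' i).map _ = D i
      rw [hPmap, ← Submodule.map_comp, ← Matrix.toLin'_mul, ← Units.val_mul, inv_mul_cancel,
        Units.val_one, Matrix.toLin'_one, Submodule.map_id]
    ext g
    rw [Subgroup.mem_map]
    constructor
    · rintro ⟨x, hx, rfl⟩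
      show P⁻¹ * x * P⁻¹⁻¹ ∈ Cfsg.Geo.decompositionStabilizer D
      simpa only [hback] using hstab D' P⁻¹ x hx
    · intro hg
      refine ⟨P * g * P⁻¹, ?_, show P⁻¹ * (P * g * P⁻¹) * P⁻¹⁻¹ = g by group⟩
      have := hstab D P g hg
      rwa [← funext hPmap] at this
  exact isMaximalIn_map f key hSL (by rw [Subgroup.map_inf _ _ f.toMonoidHom f.injective, hS, hSL])


end Cfsg.Agent.S5634
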