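import Cfsg.Statements.S5635
import Cfsg.Agent.Lib.Forms.BlockCountLinear

set_option autoImplicit false
open Cfsg Matrix Cfsg.Agent.Lib.Forms

namespace Cfsg.Agent.S5635

/-- For a finite field F with q elements and n ≥ 13, let D be a decomposition of F^n into t ≥ 2 independent subspaces of equal dimension m spanning F^n, where m = 1 and q ≤ 4, or m = 2 and q = 2. Then the elements of SL_n(F) permuting the members of D form a subgroup that is not maximal: some subgroup lies strictly between it and SL_n(F). -/
theorem result {F : Type*} [Field F] [Fintype F] (n : ℕ) (hn : 13 ≤ n) {t : ℕ} (m : ℕ) (D : Fin t → Submodule F (Fin n → F)) (hD : Cfsg.Geo.IsMDecomposition m D) (h : (m = 1 ∧ Fintype.card F ≤ 4) ∨ (m = 2 ∧ Fintype.card F = 2)) : ∃ K : Subgroup (Matrix.GeneralLinearGroup (Fin n) F), Cfsg.Geo.decompositionStabilizer D ⊓ Cfsg.Geo.specialLinear (Fin n) F < K ∧ K < Cfsg.Geo.specialLinear (Fin n) F := by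
  obtain ⟨ht, hm, hdim, hind, htop⟩ := hD
  have hint : DirectSum.IsInternal D :=
    DirectSum.isInternal_submodule_of_iSupIndep_of_iSup_eq_top hind htop
  let bas : ∀ i, Module.Basis (Fin m) F (D i) := fun i => Module.finBasisOfFinrankEq F (D i) (hdim i)
  let B := (hint.collectedBasis bas).reindex (Equiv.sigmaEquivProd (Fin t) (Fin m))
  have hB : ∀ l, B l ∈ D l.1 := fun l => by
    simp only [B, Module.Basis.reindex_apply]
    exact DirectSum.IsInternal.collectedBasis_mem hint bas
      ((Equiv.sigmaEquivProd (Fin t) (Fin m)).symm l)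
  have hcard : n = t * m := by
    have := Module.finrank_eq_card_basis B
    simpa using this
  have h3 : 3 ≤ t := by rcases h with ⟨rfl, -⟩ | ⟨rfl, -⟩ <;> omega
  exact exists_between_linear B hind hB h (by omega) h3


end Cfsg.Agent.S5635
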