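import Cfsg.Statements.S5637
import Cfsg.Agent.Lib.Forms.TensorProdMax

set_option autoImplicit false
open Cfsg

namespace Cfsg.Agent.S5637

/-- For a finite field F with q elements and n = n₁ n₂ ≥ 13 with 2 ≤ n₁ < n₂, excluding n₁ = q = 2, the stabiliser in SL_n(F) of a tensor decomposition F^n ≅ F^(n₁) ⊗ F^(n₂) (the conjugate by any P of the Kronecker-product subgroup transported along any bijection Fin n ≃ Fin n₁ × Fin n₂, intersected with SL_n(F)) is a maximal subgroup of SL_n(F). -/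
theorem result {F : Type*} [Field F] [Fintype F] (n : ℕ) (hn : 13 ≤ n) (n₁ n₂ : ℕ) (h1 : 2 ≤ n₁) (h12 : n₁ < n₂) (hex : ¬ (n₁ = 2 ∧ Fintype.card F = 2)) (e : Fin n ≃ Fin n₁ × Fin n₂) (P : Matrix.GeneralLinearGroup (Fin n) F) : Cfsg.Geo.IsMaximalIn (Cfsg.Geo.specialLinear (Fin n) F) (Cfsg.Geo.tensorProductSubgroup n₁ n₂ e P ⊓ Cfsg.Geo.specialLinear (Fin n) F) := by
  classical
  have hq : n₁ = 2 → ∃ u : F, u ≠ 0 ∧ u ≠ 1 := by
    intro h
    by_contra hcon
    push Not at hcon
    have h' : (Finset.univ : Finset F) ⊆ {0, 1} := fun x _ => by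
      by_cases hx : x = 0
      · simp [hx]
      · simp [hcon x hx]
    have := Finset.card_le_card h'
    have := Finset.card_le_two (a := (0 : F)) (b := 1)
    have := Fintype.one_lt_card (α := F)
    have : Fintype.card F ≠ 2 := fun h2 => hex ⟨h, h2⟩
    simp only [Finset.card_univ] at *
    omega
  let f := (Cfsg.Geo.glReindex (F := F) e.symm).trans (MulAut.conj P)
  have hdet : ∀ g, ((Cfsg.Geo.glReindex (F := F) e.symm g : Matrix.GeneralLinearGroup (Fin n) F) :
      Matrix (Fin n) (Fin n) F).det = (g : Matrix (Fin n₁ × Fin n₂) (Fin n₁ × Fin n₂) F).det :=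
    fun g => Matrix.det_reindex_self _ _
  have hf : ∀ g, f g = P * Cfsg.Geo.glReindex e.symm g * P⁻¹ := fun g => rfl
  have hsl : (Cfsg.Geo.specialLinear (Fin n₁ × Fin n₂) F).map f.toMonoidHom =
      Cfsg.Geo.specialLinear (Fin n) F := by
    ext x
    obtain ⟨g, rfl⟩ := f.surjective x
    rw [show f g = f.toMonoidHom g from rfl, Subgroup.mem_map_iff_mem f.injective]
    show g ∈ _ ↔ f g ∈ _
    rw [Cfsg.Agent.Lib.Forms.mem_specialLinear, Cfsg.Agent.Lib.Forms.mem_specialLinear, hf,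
      Units.val_mul, Units.val_mul, Matrix.det_mul, Matrix.det_mul, hdet, mul_right_comm,
      ← Matrix.det_mul, ← Units.val_mul, mul_inv_cancel, Units.val_one, Matrix.det_one, one_mul]
  refine Cfsg.Agent.Lib.Forms.isMaximalIn_map f
    (Cfsg.Agent.Lib.Forms.TProd.prodGroup_isMaximal h1 h12 hq) hsl ?_
  rw [Cfsg.Agent.Lib.Forms.TProd.prodGroup, Subgroup.map_inf _ _ _ f.injective, hsl,
    Cfsg.Geo.tensorProductSubgroup, Subgroup.map_map]
  rfl

end Cfsg.Agent.S5637
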