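import Cfsg.Statements.S5638
import Cfsg.Agent.Lib.Forms.TensorTwo

set_option autoImplicit false
open Cfsg Matrix Cfsg.Agent.Lib.Forms

namespace Cfsg.Agent.S5638

/-- Over the field with 2 elements, for n = 2 n₂ ≥ 13, the stabiliser in SL_n of a tensor decomposition with factors of dimensions 2 and n₂ (the conjugate by any P of the Kronecker-product subgroup transported along any bijection Fin n ≃ Fin 2 × Fin n₂, intersected with SL_n) is not a maximal subgroup: some subgroup lies strictly between it and SL_n. -/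
theorem result {F : Type*} [Field F] [Fintype F] (n : ℕ) (hn : 13 ≤ n) (hq : Fintype.card F = 2) (n₂ : ℕ) (e : Fin n ≃ Fin 2 × Fin n₂) (P : Matrix.GeneralLinearGroup (Fin n) F) : ∃ K : Subgroup (Matrix.GeneralLinearGroup (Fin n) F), Cfsg.Geo.tensorProductSubgroup 2 n₂ e P ⊓ Cfsg.Geo.specialLinear (Fin n) F < K ∧ K < Cfsg.Geo.specialLinear (Fin n) F := by
  have hn2 : 2 ≤ n₂ := by
    have := Fintype.card_congr e
    simp at this
    omega
  obtain ⟨K, h1, h2⟩ := exists_between_kronecker hq n₂ hn2
  have hSL : Cfsg.Geo.specialLinear (Fin n) F = ⊤ := eq_top_iff.2 fun g _ => by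
    rw [mem_specialLinear]
    rcases field_two_cases hq (g : Matrix (Fin n) (Fin n) F).det with h | h
    · exact absurd h ((Matrix.isUnit_iff_isUnit_det _).1 g.isUnit).ne_zero
    · exact h
  rw [hSL, inf_top_eq, Cfsg.Geo.tensorProductSubgroup]
  set f := ((MulAut.conj P).toMonoidHom.comp (Cfsg.Geo.glReindex (F := F) e.symm).toMonoidHom)
  have hinj : Function.Injective f :=
    (MulAut.conj P).injective.comp (Cfsg.Geo.glReindex (F := F) e.symm).injective
  refine ⟨K.map f, ?_, ?_⟩
  · rw [Subgroup.map_map]
    exact (Subgroup.map_lt_map_iff_of_injective hinj).2 h1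
  · refine lt_of_lt_of_le ((Subgroup.map_lt_map_iff_of_injective hinj).2 h2) le_top


end Cfsg.Agent.S5638
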