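import Cfsg.Statements.S5642
import Cfsg.Agent.Lib.Forms.SympSimilitude

set_option autoImplicit false
open Cfsg Cfsg.Agent.Lib.Forms

namespace Cfsg.Agent.S5642

/-- For a finite field F and n ≥ 13, let f be a non-degenerate symplectic form on F^n (so n is even). Then the elements of SL_n(F) that are similarities of f (f(gu, gv) = c f(u, v) for a non-zero scalar c depending on g) form a maximal subgroup of SL_n(F). -/
theorem result {F : Type*} [Field F] [Fintype F] (n : ℕ) (hn : 13 ≤ n) (f : (Fin n → F) → (Fin n → F) → F) (hf : Cfsg.Geo.IsSymplecticForm f) : Cfsg.Geo.IsMaximalIn (Cfsg.Geo.specialLinear (Fin n) F) (Cfsg.Geo.similarityGroup f ⊓ Cfsg.Geo.specialLinear (Fin n) F) := by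
  let B : LinearMap.BilinForm F (Fin n → F) :=
    LinearMap.mk₂ F f hf.bilinear.add_left (fun c x y => hf.bilinear.smul_left c x y)
      hf.bilinear.add_right (fun c x y => hf.bilinear.smul_right c x y)
  have hA : B.IsAlt := hf.alternating
  have hnd : B.Nondegenerate := by
    constructor <;> intro v hv <;> by_contra hv0
    · obtain ⟨x, hx⟩ := (hf.nondegenerate v hv0).2
      exact hx (hv x)
    · obtain ⟨x, hx⟩ := (hf.nondegenerate v hv0).1
      exact hx (hv x)
  exact similarityGroup_isMaximalIn (B := B) hA hnd (by simp; omega)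

end Cfsg.Agent.S5642
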