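import Cfsg.Statements.S5644
import Cfsg.Agent.Lib.Forms.OrthSimilitude

set_option autoImplicit false
open Cfsg Matrix Cfsg.Agent.Lib.Forms

namespace Cfsg.Agent.S5644

/-- For a finite field F of odd order and n ≥ 13, let Q be a non-degenerate quadratic form on F^n (its polar form is non-degenerate). Then the elements of SL_n(F) that are similarities of Q (Q(gv) = c Q(v) for a non-zero scalar c depending on g) form a maximal subgroup of SL_n(F). -/
theorem result {F : Type*} [Field F] [Fintype F] (n : ℕ) (hn : 13 ≤ n) (hodd : Odd (Fintype.card F)) (Q : (Fin n → F) → F) (hQ : Cfsg.Geo.IsNondegenerateQuadraticForm Q) : Cfsg.Geo.IsMaximalIn (Cfsg.Geo.specialLinear (Fin n) F) (Cfsg.Geo.quadSimilarityGroup Q ⊓ Cfsg.Geo.specialLinear (Fin n) F) := by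
  classical
  have hbl := hQ.polar_bilinear
  let B : LinearMap.BilinForm F (Fin n → F) := LinearMap.mk₂ F (QuadraticMap.polar Q)
    (fun x y v => hbl.add_left x y v) (fun c x v => hbl.smul_left c x v)
    (fun v x y => hbl.add_right v x y) (fun c v x => hbl.smul_right c v x)
  have hBp : ∀ x y, B x y = QuadraticMap.polar Q x y := fun x y => rfl
  have h2 : (2 : F) ≠ 0 := Ring.two_ne_zero fun e => by
    have := FiniteField.even_card_of_char_two (F := F) e
    rw [Nat.odd_iff] at hodd
    omega
  have hBQ : ∀ x, B x x = 2 * Q x := fun x => by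
    rw [hBp, QuadraticMap.polar, show x + x = (2 : F) • x by rw [two_smul], hQ.smul]; ring
  have O : OddForm B :=
    { two := h2
      symm := fun x y => by rw [hBp, hBp, QuadraticMap.polar_comm]
      nd := ⟨fun x hx => by
          by_contra hne
          obtain ⟨y, hy⟩ := (hQ.nondegenerate x hne).2
          exact hy (hx y), fun y hy => by
          by_contra hne
          obtain ⟨x, hx⟩ := (hQ.nondegenerate y hne).1
          exact hx (hy x)⟩ }
  have hmem : ∀ g : GL (Fin n) F, g ∈ Cfsg.Geo.quadSimilarityGroup Q ↔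
      ∃ c : F, c ≠ 0 ∧ ∀ x y, B ((g : Matrix (Fin n) (Fin n) F) *ᵥ x)
        ((g : Matrix (Fin n) (Fin n) F) *ᵥ y) = c * B x y := fun g => by
    constructor
    · rintro ⟨c, hc⟩
      refine ⟨c, c.ne_zero, fun x y => ?_⟩
      simp only [hBp, QuadraticMap.polar, ← Matrix.mulVec_add, hc]
      ring
    · rintro ⟨c, hc0, hc⟩
      refine ⟨Units.mk0 c hc0, fun v => mul_left_cancel₀ h2 ?_⟩
      have := hc v v
      rw [hBQ, hBQ] at this
      rw [Units.val_mk0, this]; ring
  have hN : 13 ≤ Fintype.card (Fin n) := by simpa using hn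
  refine isMaximalIn_of inf_le_right ?_ fun M hle hM g hg hgn => ?_
  · obtain ⟨u, hu, -, hu0⟩ := O.exists_sing_notMem (![] : Fin 0 → (Fin n → F)) (by omega)
    obtain ⟨v, hv, hvp, hvout⟩ := O.exists_sing_notMem ![u] (by omega)
    have huv : B u v = 0 := by simpa using hvp 0
    have hune : u ≠ 0 := fun e => hu0 (e ▸ Submodule.zero_mem _)
    refine ⟨tb B v u, tv_mem_specialLinear _ _, fun hs => ?_⟩
    obtain ⟨c, hc0, hc⟩ := (hmem _).1 hs.1
    obtain ⟨z, hz, hzu⟩ := O.exists_functional_ne (u := (![] : Fin 0 → (Fin n → F))) (a := u) hu0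
    obtain ⟨w, hw, hwv⟩ := O.exists_functional_ne (u := ![u]) (a := v) hvout
    have huw : B u w = 0 := by simpa using hw 0
    have e1 := hc z w
    rw [tb_mulVec (by rw [O.symm]; exact huv), tb_mulVec (by rw [O.symm]; exact huv), O.symm w u,
      huw, zero_smul, add_zero] at e1
    simp only [map_add, map_smul, LinearMap.add_apply, LinearMap.smul_apply, smul_eq_mul] at e1
    have e2 := hc u v
    rw [tb_mulVec (by rw [O.symm]; exact huv), tb_mulVec (by rw [O.symm]; exact huv)] at e2
    simp only [O.symm v u, huv, show B u u = 0 from hu, zero_smul, add_zero] at e2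
    -- the scalar is one
    obtain ⟨p, hp, hpu⟩ : ∃ p, (B v p = 0) ∧ B u p ≠ 0 := by
      obtain ⟨p, hp, hup⟩ := O.exists_functional_ne (u := ![v]) (a := u) (fun h => hvout (by
        rw [Matrix.range_cons, Matrix.range_empty, Set.union_empty,
          Submodule.mem_span_singleton] at h ⊢
        obtain ⟨r, hr⟩ := h
        have hr0 : r ≠ 0 := fun e => hune (by rw [← hr, e, zero_smul])
        exact ⟨r⁻¹, by rw [← hr, smul_smul, inv_mul_cancel₀ hr0, one_smul]⟩))
      exact ⟨p, by simpa using hp 0, hup⟩
    have e3 := hc u p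
    rw [tb_mulVec (by rw [O.symm]; exact huv), tb_mulVec (by rw [O.symm]; exact huv)] at e3
    simp only [show B u u = 0 from hu, zero_smul, add_zero, map_add, map_smul, huv, smul_eq_mul,
      mul_zero] at e3
    have hc1 : c = 1 := mul_right_cancel₀ hpu (by linear_combination -e3)
    rw [hc1, one_mul] at e1
    have : B z u * B v w = 0 := by linear_combination e1
    rcases mul_eq_zero.1 this with e | e
    · exact hzu (by rw [O.symm]; exact e)
    · exact hwv e
  · refine O.specialLinear_le_of_not_similitude hN (fun u v P c => hle ⟨(hmem _).2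
      ⟨1, one_ne_zero, fun x y => by rw [O.sieg_isometry P, one_mul]⟩,
      O.sieg_mem_specialLinear u v c⟩) hg fun h => hgn ⟨(hmem g).2 h, hM hg⟩

end Cfsg.Agent.S5644
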