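import Cfsg.Statements.S5647
import Cfsg.Agent.Lib.Forms.SympWreath

set_option autoImplicit false
open Cfsg Cfsg.Agent.Lib.Forms

namespace Cfsg.Agent.S5647

/-- For a finite field F with q elements and m ≥ 7, let D be a decomposition of F^(2m) into t ≥ 2 pairwise orthogonal subspaces of equal dimension k on each of which the standard alternating form is non-degenerate, spanning F^(2m). Unless k = 2 and q = 2, the elements of Sp_2m(F) permuting the members of D form a maximal subgroup of Sp_2m(F). -/
theorem result {F : Type*} [Field F] [Fintype F] (m : ℕ) (hm : 7 ≤ m) {t : ℕ} (k : ℕ) (D : Fin t → Submodule F (Fin m ⊕ Fin m → F)) (hD : Cfsg.Geo.IsNondegenerateMDecomposition (Cfsg.sympForm m F) k D) (hex : ¬ (k = 2 ∧ Fintype.card F = 2)) : Cfsg.Geo.IsMaximalIn (Cfsg.spGL m F) (Cfsg.Geo.decompositionStabilizer D ⊓ Cfsg.spGL m F) := by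
  classical
  rw [spGL_eq]
  have h : OrthDec (stdB m F) k D :=
    { rank := hD.decomp.finrank_eq
      pos := hD.decomp.pos
      spans := hD.decomp.iSup_eq_top
      nd := fun i a ha ha0 => by
        obtain ⟨z, hz, hz'⟩ := (hD.nondegenerate i a ha ha0).2
        exact ⟨z, hz, by rw [stdB_apply]; exact hz'⟩
      orth := fun i j hij a ha b hb => by rw [stdB_apply]; exact hD.orthogonal i j hij a ha b hb }
  refine decomposition_stab_isMaximalIn (stdB_isAlt m) (stdB_nondegenerate m) hD.decomp.two_le h ?_
  rcases Nat.lt_or_ge k 3 with hk | hk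
  · right
    have hk2 : k = 2 := by
      rcases (show k = 1 ∨ k = 2 by have := hD.decomp.pos; omega) with rfl | rfl
      · exfalso
        let i0 : Fin t := ⟨0, by have := hD.decomp.two_le; omega⟩
        obtain ⟨v, hv, hv0⟩ := Submodule.exists_mem_ne_zero_of_ne_bot
          (show D i0 ≠ ⊥ from fun h0 => by have := h.rank i0; rw [h0] at this; simp at this)
        obtain ⟨z, hz, hvz⟩ := h.nd i0 v hv hv0
        obtain ⟨c, hc⟩ := exists_smul_eq_of_finrank_eq_one (h.rank i0) (x := ⟨v, hv⟩)
          (by simpa using hv0) ⟨z, hz⟩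
        have hcv : z = c • v := (congrArg Subtype.val hc).symm
        rw [hcv, map_smul, (stdB_isAlt m).self_eq_zero, smul_zero] at hvz
        exact hvz rfl
      · rfl
    by_contra hcon
    push Not at hcon
    apply hex ⟨hk2, ?_⟩
    have hsub : (Finset.univ : Finset F) ⊆ {0, -1} := fun x _ => by
      by_cases hx : x = 0
      · simp [hx]
      · simp [hcon x hx]
    refine le_antisymm ?_ Fintype.one_lt_card
    calc Fintype.card F ≤ ({0, -1} : Finset F).card := Finset.card_le_card hsub
      _ ≤ 2 := Finset.card_le_two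
  · exact Or.inl hk

end Cfsg.Agent.S5647
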