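import Cfsg.Statements.S5648
import Cfsg.Agent.Lib.Forms.BlockCount

set_option autoImplicit false
open Cfsg Matrix Cfsg.Agent.Lib.Forms

namespace Cfsg.Agent.S5648

/-- Over the field with 2 elements and for m ≥ 7, let D be a decomposition of F^(2m) into t pairwise orthogonal non-degenerate 2-dimensional subspaces for the standard alternating form (t = m ≥ 2). Then the elements of Sp_2m(2) permuting the members of D form a subgroup that is not maximal: some subgroup lies strictly between it and Sp_2m(2). -/
theorem result {F : Type*} [Field F] [Fintype F] (m : ℕ) (hm : 7 ≤ m) (hq : Fintype.card F = 2) {t : ℕ} (D : Fin t → Submodule F (Fin m ⊕ Fin m → F)) (hD : Cfsg.Geo.IsNondegenerateMDecomposition (Cfsg.sympForm m F) 2 D) : ∃ K : Subgroup (Matrix.GeneralLinearGroup (Fin m ⊕ Fin m) F), Cfsg.Geo.decompositionStabilizer D ⊓ Cfsg.spGL m F < K ∧ K < Cfsg.spGL m F := by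
  classical
  rw [spGL_eq]
  have hA := stdB_isAlt (F := F) m
  have h : OrthDec (stdB m F) 2 D :=
    { rank := hD.decomp.finrank_eq
      pos := hD.decomp.pos
      spans := hD.decomp.iSup_eq_top
      nd := fun i a ha ha0 => by
        obtain ⟨z, hz, hz'⟩ := (hD.nondegenerate i a ha ha0).2
        exact ⟨z, hz, by rw [stdB_apply]; exact hz'⟩
      orth := fun i j hij a ha b hb => by rw [stdB_apply]; exact hD.orthogonal i j hij a ha b hb }
  have hind := hD.decomp.indep
  have h2 : ∀ c : F, c = 0 ∨ c = 1 := fun c => by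
    by_contra hc
    push Not at hc
    have := Finset.card_le_card (Finset.subset_univ ({0, 1, c} : Finset F))
    rw [Finset.card_univ, hq, Finset.card_insert_of_notMem (by simp [Ne.symm hc.1]),
      Finset.card_pair (Ne.symm hc.2)] at this
    omega
  have ht : 3 ≤ t := by
    have h1 : Module.finrank F (Fin m ⊕ Fin m → F) = 2 * m := by simp [two_mul]
    have hint : DirectSum.IsInternal D :=
      DirectSum.isInternal_submodule_of_iSupIndep_of_iSup_eq_top hind hD.decomp.iSup_eq_top
    have := Module.finrank_eq_card_basis (hint.collectedBasis fun i =>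
      Module.finBasisOfFinrankEq F (D i) (h.rank i))
    simp at this
    omega
  have hne : ∀ i, ∃ a ∈ D i, a ≠ 0 := fun i =>
    Submodule.exists_mem_ne_zero_of_ne_bot (show D i ≠ ⊥ from fun h0 => by
      have := h.rank i; rw [h0] at this; simp at this)
  choose a ha ha0 using hne
  choose z hz hz0 using fun i => h.nd i (a i) (ha i) (ha0 i)
  have hza : ∀ i, stdB m F (z i) (a i) ≠ 0 := fun i e => hz0 i (by
    rw [← hA.neg_eq (z i) (a i), e, neg_zero])
  let i0 : Fin t := ⟨0, by omega⟩
  let i1 : Fin t := ⟨1, by omega⟩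
  let i2 : Fin t := ⟨2, by omega⟩
  have h01 : i0 ≠ i1 := by simp [i0, i1]
  have h02 : i0 ≠ i2 := by simp [i0, i2]
  have h12 : i1 ≠ i2 := by simp [i1, i2]
  refine ⟨fixFun (countFun D) ⊓ isoGroup (stdB m F), lt_of_le_not_ge
    (inf_le_inf_right _ (stab_le_fixFun D)) fun hle => ?_, lt_of_le_not_ge inf_le_right fun hle => ?_⟩
  · let S : Finset (Fin t) := {i0, i1, i2}
    have hS : S.card = 3 := by simp [S, h01, h02, h12]
    have htwo : (2 : F) = 0 := by
      rcases h2 2 with e | e
      · exact e
      · exact absurd (show (1 : F) = 0 by linear_combination e) one_ne_zero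
    have hS1 : (S.card : F) = 1 := by rw [hS]; push_cast; linear_combination htwo
    set v := ∑ i ∈ S, a i with hv
    obtain ⟨σ, hσ⟩ := (hle ⟨sympT_mem_fixFun hA h hind h2 S hS1 a ha (fun i _ => ha0 i),
      sympT_mem hA v 1⟩).1
    have hw := Submodule.mem_map_of_mem (f := Matrix.toLin'
      ((sympT (stdB m F) v 1 : GL _ F) : Matrix (Fin m ⊕ Fin m) (Fin m ⊕ Fin m) F)) (hz i0)
    rw [hσ, Matrix.toLin'_apply, sympT_mulVec hA] at hw
    have hva : ∀ k ∈ S, ∀ y ∈ D k, stdB m F v y = stdB m F (a k) y := fun k hk y hy => by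
      rw [hv, map_sum, LinearMap.sum_apply, Finset.sum_eq_single k
        (fun j _ hj => h.orth j k hj _ (ha j) _ hy) (fun h' => absurd hk h')]
    have hzv : stdB m F (z i0) v = stdB m F (z i0) (a i0) := by
      rw [← hA.neg_eq v (z i0), hva i0 (by simp [S]) _ (hz i0), hA.neg_eq]
    have hc : stdB m F (z i0) (a i0) = 1 := (h2 _).resolve_left (hza i0)
    rw [hzv, hc, one_mul, one_smul] at hw
    have key : ∀ k ∈ S, k ≠ i0 → σ i0 = k := fun k hk hk0 => by
      by_contra hne
      have := h.orth _ k hne _ hw _ (hz k)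
      rw [map_add, LinearMap.add_apply, h.orth i0 k hk0.symm _ (hz i0) _ (hz k), zero_add,
        hva k hk _ (hz k)] at this
      exact hz0 k this
    exact h12 ((key i1 (by simp [S]) h01.symm).symm.trans (key i2 (by simp [S]) h02.symm))
  · have hg := (hle (sympT_mem hA (a i0 + a i1) 1)).1 (z i0)
    have hc : stdB m F (z i0) (a i0 + a i1) = 1 := by
      rw [map_add, h.orth i0 i1 h01 _ (hz i0) _ (ha i1), add_zero]
      exact (h2 _).resolve_left (hza i0)
    have hne : z i0 + a i0 ≠ 0 := fun e => hza i0 (by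
      rw [eq_neg_of_add_eq_zero_left e]; simp [hA.self_eq_zero])
    have hz00 : z i0 ≠ 0 := fun e => hza i0 (by simp [e])
    rw [sympT_mulVec hA, hc, one_mul, one_smul, ← add_assoc, countFun_of_mem hind (hz i0) hz00,
      countFun_add hind h01 ((D i0).add_mem (hz i0) (ha i0)) (ha i1) hne (ha0 i1)] at hg
    exact one_ne_zero (α := F) (by linear_combination hg)


end Cfsg.Agent.S5648
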