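import Cfsg.Statements.S5649
import Cfsg.Agent.Lib.Forms.LagrangePair

set_option autoImplicit false
open Cfsg Matrix Cfsg.Agent.Lib.Forms

namespace Cfsg.Agent.S5649

/-- For a finite field F of odd order and m ≥ 7, let D be a decomposition of F^(2m) into two complementary subspaces of dimension m on each of which the standard alternating form vanishes identically. Then the elements of Sp_2m(F) preserving or interchanging the two subspaces form a maximal subgroup of Sp_2m(F). -/
theorem result {F : Type*} [Field F] [Fintype F] (m : ℕ) (hm : 7 ≤ m) (hodd : Odd (Fintype.card F)) (D : Fin 2 → Submodule F (Fin m ⊕ Fin m → F)) (hD : Cfsg.Geo.IsMDecomposition m D) (hts : ∀ i, Cfsg.Geo.IsTotallySingularFor (Cfsg.sympForm m F) (D i)) : Cfsg.Geo.IsMaximalIn (Cfsg.spGL m F) (Cfsg.Geo.decompositionStabilizer D ⊓ Cfsg.spGL m F) := by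
  have h01 : (0 : Fin 2) ≠ 1 := by decide
  have h2 : (2 : F) ≠ 0 := Ring.two_ne_zero fun e => by
    have := FiniteField.even_card_of_char_two (F := F) e
    rw [Nat.odd_iff] at hodd
    omega
  have P : LagPair (stdB m F) D m :=
    { alt := stdB_isAlt m
      nd := stdB_nondegenerate m
      two := h2
      rank := hD.finrank_eq
      large := hm
      total := by simp [two_mul]
      singular := fun i u hu v hv => by rw [stdB_apply]; exact hts i u hu v hv
      spans := fun x => by
        have hx : x ∈ iSup D := hD.iSup_eq_top ▸ Submodule.mem_top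
        obtain ⟨μ, hμ⟩ := (Submodule.mem_iSup_iff_exists_finsupp D x).1 hx
        refine ⟨μ, hμ.1, ?_⟩
        rw [← hμ.2, Finsupp.sum_fintype _ _ (fun _ => rfl), Fin.sum_univ_two] }
  rw [spGL_eq]
  refine isMaximalIn_of inf_le_right ?_ fun M hle hM g hg hgn =>
    P.isoGroup_le hle hg (hM hg) fun h => hgn ⟨h, hM hg⟩
  obtain ⟨a, ha, ha0⟩ : ∃ a ∈ D 0, a ≠ 0 := Submodule.exists_mem_ne_zero_of_ne_bot fun e => by
    have h := hD.finrank_eq 0; rw [e, finrank_bot] at h; omega
  obtain ⟨b, hb, hab⟩ := P.exists_pairing h01 ha ha0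
  refine ⟨sympT (stdB m F) (a + b) 1, sympT_mem P.alt _ _, fun hs => ?_⟩
  obtain ⟨⟨σ, hσ⟩, -⟩ := hs
  have hmem : a + (stdB m F a (a + b)) • (a + b) ∈ D (σ 0) := by
    rw [← hσ 0]
    exact ⟨a, ha, by rw [Matrix.toLin'_apply, sympT_mulVec P.alt, one_mul]⟩
  rw [map_add, hab, P.alt.self_eq_zero, zero_add, one_smul] at hmem
  have hboth : ∀ i, a + (a + b) ∉ D i := fun i hi => by
    fin_cases i
    · have hb0 : b ∈ D 0 := by
        have := (D 0).sub_mem hi ((D 0).add_mem ha ha)
        rwa [show a + (a + b) - (a + a) = b by abel] at this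
      simp [P.singular 0 a ha b hb0] at hab
    · have ha1 : a + a ∈ D 1 := by
        have := (D 1).sub_mem hi hb
        rwa [show a + (a + b) - b = a + a by abel] at this
      rw [← two_smul F a] at ha1
      have := P.singular 1 _ ha1 b hb
      rw [map_smul, LinearMap.smul_apply, hab, smul_eq_mul, mul_one] at this
      exact h2 this
  exact hboth _ hmem

end Cfsg.Agent.S5649
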