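import Cfsg.Statements.S5652
import Cfsg.Agent.Lib.Forms.OrthInSymp

set_option autoImplicit false
open Cfsg Cfsg.Agent.Lib.Forms

namespace Cfsg.Agent.S5652

/-- For a finite field F of characteristic two and m ≥ 7, let Q be a non-degenerate quadratic form on F^(2m) whose polar form is the standard alternating form. Then the elements of Sp_2m(F) that are similarities of Q (they are exactly the isometries of Q) form a maximal subgroup of Sp_2m(F). -/
theorem result {F : Type*} [Field F] [Fintype F] (m : ℕ) (hm : 7 ≤ m) (heven : ¬ Odd (Fintype.card F)) (Q : (Fin m ⊕ Fin m → F) → F) (hQ : Cfsg.Geo.IsNondegenerateQuadraticForm Q) (hpol : ∀ u v, QuadraticMap.polar Q u v = Cfsg.sympForm m F u v) : Cfsg.Geo.IsMaximalIn (Cfsg.spGL m F) (Cfsg.Geo.quadSimilarityGroup Q ⊓ Cfsg.spGL m F) := by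
  have h2 : ringChar F = 2 := by
    by_contra h
    exact heven (Nat.odd_iff.2 (FiniteField.odd_card_of_char_ne_two h))
  haveI : CharP F 2 := ringChar.of_eq h2
  have P : PolarQuad (stdB m F) Q :=
    { alt := stdB_isAlt m
      nd := stdB_nondegenerate m
      two := CharTwo.two_eq_zero
      smul := hQ.smul
      add := fun x y => by rw [stdB_apply, ← hpol, QuadraticMap.polar]; ring
      sqrt := fun a => by
        obtain ⟨r, hr⟩ := isSquare_iff_exists_sq a |>.1 (FiniteField.isSquare_of_char_two h2 a)
        exact ⟨r, hr.symm⟩ }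
  rw [spGL_eq]
  exact P.isMaximalIn (by simp; omega)

end Cfsg.Agent.S5652
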