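import Cfsg.Statements.S5656
import Cfsg.Agent.Lib.Forms.TensorFrameMain
import Cfsg.Agent.Lib.Forms.UnitaryTI

set_option autoImplicit false
open Cfsg Matrix

namespace Cfsg.Agent.S5656

/-- Let F be the field with 4 elements (q = 2) and n ≥ 13. Let D be a decomposition of F^n into t pairwise orthogonal 2-dimensional subspaces, each non-degenerate for the standard unitary form Σ u_i v_i². Then the elements of SU_n(2) permuting the members of D form a subgroup that is not maximal: some subgroup lies strictly between it and SU_n(2). -/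
theorem result {F : Type*} [Field F] [Fintype F] (n : ℕ) (hF : Fintype.card F = 4) (hn : 13 ≤ n) {t : ℕ} (D : Fin t → Submodule F (Fin n → F)) (hD : Cfsg.Geo.IsNondegenerateMDecomposition (Cfsg.hermForm n F 2) 2 D) : ∃ K : Subgroup (Matrix.GeneralLinearGroup (Fin n) F), Cfsg.Geo.decompositionStabilizer D ⊓ (Cfsg.GU n F 2 ⊓ Cfsg.Geo.specialLinear (Fin n) F) < K ∧ K < (Cfsg.GU n F 2 ⊓ Cfsg.Geo.specialLinear (Fin n) F) := by
  classical
  have hq : Fintype.card F = 2 ^ 2 := by rw [hF]; norm_num
  have H := Lib.Forms.hermData hq n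
  set h := Cfsg.hermForm n F 2 with hh
  set σ := Lib.Forms.conjQ hq with hσdef
  have S : Lib.Forms.Sesq σ.toRingHom h := ⟨H.add_left, H.smul_left, fun v x y => H.add_right v x y,
    fun c v x => H.smul_right c v x⟩
  haveI : CharP F 2 := charP_of_card_eq_prime_pow (f := 2) (p := 2) hq
  have h2 : (2 : F) = 0 := CharP.cast_eq_zero F 2
  have hsep : ∀ x, (∀ y, h x y = 0) → x = 0 := fun x hx => by
    by_contra h0
    obtain ⟨y, hy⟩ := H.sep x h0
    exact hy (hx y)
  -- the orthonormal frame of each block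
  have hfr : ∀ i, ∃ u : Fin 2 → (Fin n → F), (∀ a, u a ∈ D i) ∧
      (∀ a b, h (u a) (u b) = if a = b then 1 else 0) := fun i => by
    obtain ⟨u, hu⟩ := Lib.Forms.exists_orthonormal_family σ H.ne_refl H.involutive 2 (D i)
      (fun x y => h x y) (fun x y z => H.add_left _ _ _) (fun c x z => H.smul_left _ _ _)
      (fun x y => H.herm _ _) (fun x hx => by
        obtain ⟨y, hy, hxy⟩ := (hD.nondegenerate i x x.2 (by simpa using hx)).2
        exact ⟨⟨y, hy⟩, hxy⟩) (hD.decomp.finrank_eq i)
    exact ⟨fun a => u a, fun a => (u a).2, hu⟩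
  choose u hmem hu using hfr
  have horth : ∀ i j a b, i ≠ j → h (u i a) (u j b) = 0 := fun i j a b hij =>
    hD.orthogonal i j hij _ (hmem i a) _ (hmem j b)
  have huu : ∀ p q : Fin t × Fin 2, h (u p.1 p.2) (u q.1 q.2) = if p = q then 1 else 0 := by
    rintro ⟨i, a⟩ ⟨j, b⟩
    by_cases hij : i = j
    · subst hij; simp [hu]
    · simp [horth i j a b hij, hij]
  have hcoef : ∀ (c : Fin t × Fin 2 → F) q, h (∑ p, c p • u p.1 p.2) (u q.1 q.2) = c q := by
    intro c q
    simp [S.sum_left, H.smul_left, huu]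
  have hli : LinearIndependent F fun p : Fin t × Fin 2 => u p.1 p.2 := by
    rw [Fintype.linearIndependent_iff]
    intro c hc q
    rw [← hcoef c q, hc, H.zero_left]
  have hne : ∀ p : Fin t × Fin 2, u p.1 p.2 ≠ 0 := hli.ne_zero
  -- a norm-one vector of a block is on a frame line
  have hline : ∀ i v, v ∈ D i → h v v = 1 → ∃ b, ∃ d : F, v = d • u i b := by
    intro i v hv hv1
    have hli' : LinearIndependent F (u i) := hli.comp (Prod.mk i) (Prod.mk_right_injective i)
    have hsp : Submodule.span F (Set.range (u i)) = D i :=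
      Submodule.eq_of_le_of_finrank_eq (Submodule.span_le.2 (Set.range_subset_iff.2 (hmem i)))
        (by rw [finrank_span_eq_card hli', hD.decomp.finrank_eq, Fintype.card_fin])
    obtain ⟨c, hc⟩ := (Submodule.mem_span_range_iff_exists_fun F).1 (hsp.symm ▸ hv)
    rw [← hc, Fin.sum_univ_two] at hv1
    simp only [H.add_left, H.add_right, H.smul_left, H.smul_right, hu] at hv1
    have hcube : ∀ a : F, a = 0 ∨ a * σ a = 1 := fun a => by
      rcases eq_or_ne a 0 with e | e
      · exact Or.inl e
      · right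
        rw [Lib.Forms.conjQ_apply, ← pow_succ']
        have := FiniteField.pow_card_sub_one_eq_one a e
        rwa [hF] at this
    rw [← hc, Fin.sum_univ_two]
    simp only [Fin.zero_eq_one_iff, Fin.one_eq_zero_iff, OfNat.ofNat_ne_one, if_true, if_false,
      mul_one, mul_zero, add_zero, zero_add] at hv1
    rcases hcube (c 0) with e0 | e0
    · exact ⟨1, c 1, by rw [e0, zero_smul, zero_add]⟩
    rcases hcube (c 1) with e1 | e1
    · exact ⟨0, c 0, by rw [e1, zero_smul, add_zero]⟩
    exfalso
    exact one_ne_zero (show (1 : F) = 0 by linear_combination h2 - hv1 + e0 + e1)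
  let e := (finProdFinEquiv : Fin t × Fin 2 ≃ Fin (t * 2))
  let D' : Fin (t * 2) → Submodule F (Fin n → F) := fun j =>
    Submodule.span F {u (e.symm j).1 (e.symm j).2}
  set G := Cfsg.GU n F 2 ⊓ Cfsg.Geo.specialLinear (Fin n) F with hG
  have hrank : ∀ v, h v v = 0 → ∃ g ∈ G, ∀ x, (g : Matrix (Fin n) (Fin n) F) *ᵥ x = x + h x v • v := by
    intro v hv
    obtain ⟨g, hg, hgx⟩ := Lib.Forms.exists_pref S hsep (fun x y => H.herm x y) (κ := (1 : F)) (v := v)
      (by rw [hv, mul_zero, add_zero, map_one]; linear_combination h2)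
    have hdet := Lib.Forms.det_rankOne S hgx
    rw [hv, mul_zero, add_zero] at hdet
    exact ⟨g, ⟨hg, Units.ext hdet⟩, fun x => by rw [hgx, one_mul]⟩
  obtain ⟨i₀, i₁, i₂, i₃, h01, h02, h03, h12, h13, h23⟩ : ∃ a b c d : Fin t,
      a ≠ b ∧ a ≠ c ∧ a ≠ d ∧ b ≠ c ∧ b ≠ d ∧ c ≠ d := by
    have hcard : Fintype.card (Fin t × Fin 2) = n := by
      refine le_antisymm (by simpa using hli.fintype_card_le_finrank) ?_
      calc n = Module.finrank F (⊤ : Submodule F (Fin n → F)) := by simp
        _ ≤ Module.finrank F (Submodule.span F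
            (Set.range fun p : Fin t × Fin 2 => u p.1 p.2)) := by
          refine Submodule.finrank_mono ?_
          rw [← hD.decomp.iSup_eq_top]
          refine iSup_le fun i v hv => ?_
          have hli' : LinearIndependent F (u i) := hli.comp (Prod.mk i) (Prod.mk_right_injective i)
          have hsp : Submodule.span F (Set.range (u i)) = D i :=
            Submodule.eq_of_le_of_finrank_eq (Submodule.span_le.2 (Set.range_subset_iff.2 (hmem i)))
              (by rw [finrank_span_eq_card hli', hD.decomp.finrank_eq, Fintype.card_fin])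
          exact Submodule.span_mono (by rintro _ ⟨a, rfl⟩; exact ⟨(i, a), rfl⟩) (hsp.symm ▸ hv)
        _ = _ := finrank_span_eq_card hli
    have ht : 4 ≤ t := by simp at hcard; omega
    exact ⟨⟨0, by omega⟩, ⟨1, by omega⟩, ⟨2, by omega⟩, ⟨3, by omega⟩, by simp, by simp, by simp,
      by simp, by simp, by simp⟩
  refine ⟨Cfsg.Geo.decompositionStabilizer D' ⊓ G, lt_of_le_of_ne ?_ fun eq => ?_,
    lt_of_le_of_ne inf_le_right fun eq => ?_⟩
  · rintro g ⟨⟨π, hπ⟩, hgG⟩
    refine ⟨?_, hgG⟩
    have him : ∀ p : Fin t × Fin 2, ∃ q : Fin t × Fin 2, ∃ d : F,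
        (g : Matrix (Fin n) (Fin n) F) *ᵥ u p.1 p.2 = d • u q.1 q.2 := fun p => by
      obtain ⟨b, d, hd⟩ := hline (π p.1) ((g : Matrix (Fin n) (Fin n) F) *ᵥ u p.1 p.2)
        (by rw [← hπ, ← Matrix.toLin'_apply]; exact Submodule.mem_map_of_mem (hmem _ _))
        ((hgG.1 _ _).trans (by simpa using huu p p))
      exact ⟨(π p.1, b), d, hd⟩
    choose q d hd using him
    have hd0 : ∀ p, d p ≠ 0 := fun p e0 => by
      have := hgG.1 (u p.1 p.2) (u p.1 p.2)
      simp only [Units.coeHom_apply] at this
      rw [hd, e0, zero_smul] at this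
      exact zero_ne_one ((H.zero_left _).symm.trans (this.trans (by simpa using huu p p)))
    have hq' : Function.Injective q := fun a b hab => by
      by_contra hne'
      have := hgG.1 (u a.1 a.2) (u b.1 b.2)
      simp only [Units.coeHom_apply] at this
      rw [← hh, hd, hd, hab, H.smul_left, H.smul_right, huu, huu, if_pos rfl, if_neg hne', mul_one,
        mul_eq_zero, map_eq_zero] at this
      exact this.elim (hd0 a) (hd0 b)
    refine ⟨(e.symm.trans (Equiv.ofBijective q (Finite.injective_iff_bijective.1 hq'))).trans e,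
      fun j => ?_⟩
    simp only [D', Submodule.map_span, Set.image_singleton, Matrix.toLin'_apply, hd,
      Equiv.trans_apply, Equiv.symm_apply_apply, Equiv.ofBijective_apply]
    exact Submodule.span_singleton_smul_eq (hd0 _).isUnit _
  · set v := u i₀ 0 + u i₁ 0 with hv
    obtain ⟨g, hgG, hgx⟩ := hrank v (by
      simp only [hv, H.add_left, H.add_right, horth _ _ _ _ h01, horth _ _ _ _ h01.symm, hu]
      simp
      linear_combination h2)
    have hg' : g ∈ Cfsg.Geo.decompositionStabilizer D' := by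
      let s : Fin t × Fin 2 → Fin t × Fin 2 := Equiv.swap (i₀, 0) (i₁, 0)
      have hs : ∀ p : Fin t × Fin 2,
          (g : Matrix (Fin n) (Fin n) F) *ᵥ u p.1 p.2 = u (s p).1 (s p).2 := fun p => by
        rw [hgx, hv, H.add_right]
        rw [show h (u p.1 p.2) (u i₀ 0) = _ from huu p (i₀, 0),
          show h (u p.1 p.2) (u i₁ 0) = _ from huu p (i₁, 0)]
        rcases eq_or_ne p (i₀, 0) with rfl | hp0
        · simp [s, h01]
          rw [← add_assoc, ← two_smul F, h2, zero_smul, zero_add]
        rcases eq_or_ne p (i₁, 0) with rfl | hp1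
        · simp [s, h01.symm]
          rw [add_left_comm, ← two_smul F, h2, zero_smul, add_zero]
        simp [s, hp0, hp1, Equiv.swap_apply_of_ne_of_ne]
      refine ⟨(e.symm.trans (Equiv.swap (i₀, 0) (i₁, 0))).trans e, fun j => ?_⟩
      simp only [D', Submodule.map_span, Set.image_singleton, Matrix.toLin'_apply, hs,
        Equiv.trans_apply, Equiv.symm_apply_apply, s]
    have : g ∈ Cfsg.Geo.decompositionStabilizer D ⊓ G := by rw [eq]; exact ⟨hg', hgG⟩
    obtain ⟨π, hπ⟩ := this.1
    have h0 : ∀ a, (g : Matrix (Fin n) (Fin n) F) *ᵥ u i₀ a ∈ D (π i₀) := fun a => by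
      rw [← hπ, ← Matrix.toLin'_apply]; exact Submodule.mem_map_of_mem (hmem _ _)
    have hin : ∀ i w, w ∈ D (π i₀) → π i₀ ≠ i → ∀ a, h w (u i a) = 0 := fun i w hw hne' a =>
      hD.orthogonal _ _ hne' _ hw _ (hmem i a)
    by_cases hp : π i₀ = i₀
    · have := hin i₁ _ (h0 0) (by rw [hp]; exact h01) 0
      rw [hgx, hv, H.add_right, H.add_left, H.smul_left, H.add_left] at this
      simp [hu, horth _ _ _ _ h01] at this
    · have := hin i₀ _ (h0 1) hp 1
      rw [hgx, hv, H.add_right] at this
      simp [hu, horth _ _ _ _ h01] at this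
  · set v := u i₀ 0 + u i₁ 0 + (u i₂ 0 + u i₃ 0) with hv
    have hpair : ∀ i, h (u i 0) v = (if i = i₀ then 1 else 0) + (if i = i₁ then 1 else 0) +
        ((if i = i₂ then 1 else 0) + (if i = i₃ then 1 else 0)) := fun i => by
      rw [hv, H.add_right, H.add_right, H.add_right]
      simp only [fun j => show h (u i 0) (u j 0) = _ from huu (i, 0) (j, 0), Prod.mk.injEq, and_true]
    obtain ⟨g, hgG, hgx⟩ := hrank v (by
      nth_rw 1 [hv]
      rw [H.add_left, H.add_left, H.add_left, hpair, hpair, hpair, hpair]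
      simp [h01, h02, h03, h12, h13, h23, h01.symm, h02.symm, h03.symm, h12.symm, h13.symm, h23.symm]
      linear_combination (2 : F) * h2)
    have : g ∈ Cfsg.Geo.decompositionStabilizer D' ⊓ G := by rw [eq]; exact hgG
    obtain ⟨π, hπ⟩ := this.1
    have hm : (g : Matrix (Fin n) (Fin n) F) *ᵥ u i₀ 0 ∈ D' (π (e (i₀, 0))) := by
      rw [← hπ, ← Matrix.toLin'_apply]
      exact Submodule.mem_map_of_mem (by simp [D', Submodule.mem_span_singleton_self])
    obtain ⟨c, hc⟩ := Submodule.mem_span_singleton.1 hm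
    have h1 : ∀ i, i = i₁ ∨ i = i₂ → e.symm (π (e (i₀, 0))) = (i, 0) := fun i hi => by
      by_contra hne'
      have hval := congrArg (fun x => h x (u i 0)) hc
      simp only [H.smul_left] at hval
      rw [show h (u _ _) (u i 0) = _ from huu _ (i, 0), if_neg hne', mul_zero, hgx, H.add_left,
        H.smul_left, hpair, hv, H.add_left, H.add_left, H.add_left] at hval
      rcases hi with rfl | rfl <;>
        simp [hu, horth, h01, h02, h03, h12, h13, h23, h01.symm, h02.symm, h03.symm, h12.symm,
          h13.symm, h23.symm] at hval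
    exact h12 (congrArg Prod.fst ((h1 i₁ (Or.inl rfl)).symm.trans (h1 i₂ (Or.inr rfl))))

end Cfsg.Agent.S5656
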