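import Cfsg.Statements.S5657
import Cfsg.Agent.Lib.Forms.UnitaryStd
import Cfsg.Agent.Lib.Forms.UnitaryPair
import Cfsg.Agent.Lib.Forms.UnitaryNondeg

set_option autoImplicit false
open Cfsg Matrix Cfsg.Agent.Lib.Forms

namespace Cfsg.Agent.S5657

/-- Let F be the field with q² elements and n = 2k ≥ 13. Let D be a decomposition of F^n into two complementary subspaces of dimension k on each of which the standard unitary form vanishes identically. Then the elements of SU_n(q) preserving or interchanging the two subspaces form a maximal subgroup of SU_n(q). -/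
theorem result {F : Type*} [Field F] [Fintype F] (n q : ℕ) (hF : Fintype.card F = q ^ 2) (hn : 13 ≤ n) (k : ℕ) (hk : 2 * k = n) (D : Fin 2 → Submodule F (Fin n → F)) (hD : Cfsg.Geo.IsMDecomposition k D) (hts : ∀ i, Cfsg.Geo.IsTotallySingularFor (Cfsg.hermForm n F q) (D i)) : Cfsg.Geo.IsMaximalIn (Cfsg.GU n F q ⊓ Cfsg.Geo.specialLinear (Fin n) F) (Cfsg.Geo.decompositionStabilizer D ⊓ (Cfsg.GU n F q ⊓ Cfsg.Geo.specialLinear (Fin n) F)) := by
  have H := isUnitary_hermForm hF n
  have h01 : (0 : Fin 2) ≠ 1 := by decide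
  have P : UPair (Cfsg.hermForm n F q) D k :=
    { rank := hD.finrank_eq
      large := by omega
      total := by simp [hk]
      singular := fun i u hu v hv' => hts i u hu v hv'
      spans := fun x => by
        have hx : x ∈ iSup D := hD.iSup_eq_top ▸ Submodule.mem_top
        obtain ⟨μ, hμ⟩ := (Submodule.mem_iSup_iff_exists_finsupp D x).1 hx
        refine ⟨μ, hμ.1, ?_⟩
        rw [← hμ.2, Finsupp.sum_fintype _ _ (fun _ => rfl), Fin.sum_univ_two] }
  rw [GU_eq_isoH]
  refine isMaximalIn_of inf_le_right ?_ fun M hle hM g hg hgn =>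
    P.iso_sl_le H hle hg (hM hg).1 fun h' => hgn ⟨h', hM hg⟩
  obtain ⟨a, ha, ha0⟩ : ∃ a ∈ D 0, a ≠ 0 := Submodule.exists_mem_ne_zero_of_ne_bot fun e => by
    have h' := hD.finrank_eq 0; rw [e, finrank_bot] at h'; omega
  obtain ⟨a', ha', hind⟩ : ∃ a' ∈ D 0, a' ∉ Submodule.span F {a} := by
    refine SetLike.not_le_iff_exists.1 fun hle => ?_
    have := Submodule.finrank_mono hle
    rw [hD.finrank_eq, finrank_span_singleton ha0] at this
    omega
  have hind' : a ∉ Submodule.span F {a'} := fun h' => hind (by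
    obtain ⟨c, hc⟩ := Submodule.mem_span_singleton.1 h'
    refine Submodule.mem_span_singleton.2 ⟨c⁻¹, ?_⟩
    have hc0 : c ≠ 0 := fun e => ha0 (by rw [← hc, e, zero_smul])
    rw [← hc, smul_smul, inv_mul_cancel₀ hc0, one_smul])
  obtain ⟨b, hb, hab, ha'b⟩ := P.exists_sep H h01 ha ha' hind'
  obtain ⟨κ, hκ0, hκ⟩ := exists_skew H
  have hσκ0 : conjQ hF κ ≠ 0 := by simpa using hκ0
  have hab' : Cfsg.hermForm n F q a (κ • b) = conjQ hF κ := by
    rw [herm_smul_right H, hab, mul_one]
  have hv0 : Cfsg.hermForm n F q (a + κ • b) (a + κ • b) = 0 := by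
    rw [herm_add_smul_self H, P.iso ha, P.iso hb, hab, map_one]
    linear_combination hκ
  refine ⟨tv (a + κ • b) (κ • hv (Cfsg.hermForm n F q) (a + κ • b)),
    utvGroup_le H (utv_mem_utvGroup hv0 hκ), fun hs => ?_⟩
  obtain ⟨⟨π, hπ⟩, -⟩ := hs
  have m1 : a + (κ * conjQ hF κ) • (a + κ • b) ∈ D (π 0) := by
    rw [← hπ 0]
    refine ⟨a, ha, ?_⟩
    rw [Matrix.toLin'_apply, utv_mulVec H hv0, herm_add_right H, P.iso ha, hab', zero_add]
  have m2 : a' ∈ D (π 0) := by
    rw [← hπ 0]
    refine ⟨a', ha', ?_⟩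
    rw [Matrix.toLin'_apply, utv_mulVec H hv0, herm_add_right H, P.singular 0 a' ha' a ha,
      herm_smul_right H, ha'b, mul_zero, add_zero, mul_zero, zero_smul, add_zero]
  rcases fin2_or h01 (π 0) with e | e <;> rw [e] at m1 m2
  · have h1 := (D 0).sub_mem m1 ((D 0).add_mem ha ((D 0).smul_mem (κ * conjQ hF κ) ha))
    rw [smul_add, show a + ((κ * conjQ hF κ) • a + (κ * conjQ hF κ) • κ • b) -
      (a + (κ * conjQ hF κ) • a) = (κ * conjQ hF κ) • κ • b by abel, smul_smul] at h1
    have h2 := P.singular 0 a ha _ h1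
    rw [herm_smul_right H, hab, mul_one] at h2
    simp [hκ0, hσκ0] at h2
  · have ha'0 : a' ≠ 0 := fun e => hind (e ▸ Submodule.zero_mem _)
    refine ha'0 (P.eq_zero_of_perp H h01 ha' fun y hy => ?_)
    exact P.singular 1 a' m2 y hy

end Cfsg.Agent.S5657
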