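import Cfsg.Statements.S5658
import Cfsg.Agent.Lib.Forms.UnitaryStd
import Cfsg.Agent.Lib.Forms.UnitarySubfieldClosure

set_option autoImplicit false
open Cfsg Matrix Cfsg.Agent.Lib.Forms

namespace Cfsg.Agent.S5658

/-- Let F be the field with q² elements, n ≥ 13, and F₀ a subfield with |F| = |F₀| ^ r for an odd prime r. Let P be an invertible matrix such that the standard unitary form takes values in F₀ on the F₀-span of the columns of P. Then the elements of SU_n(q) lying in the subfield group of P (the conjugate by P of the product of GL_n(F₀) with the scalars) form a maximal subgroup of SU_n(q). -/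
theorem result {F : Type*} [Field F] [Fintype F] (n q : ℕ) (hF : Fintype.card F = q ^ 2) (hn : 13 ≤ n) (F₀ : Subfield F) (r : ℕ) (hr : r.Prime) (hro : Odd r) (hcard : Fintype.card F = Nat.card F₀ ^ r) (P : Matrix.GeneralLinearGroup (Fin n) F) (hP : Cfsg.Geo.IsFormRationalStructure (Cfsg.hermForm n F q) F₀ 1 P) : Cfsg.Geo.IsMaximalIn (Cfsg.GU n F q ⊓ Cfsg.Geo.specialLinear (Fin n) F) (Cfsg.Geo.subfieldSubgroup F₀ P ⊓ (Cfsg.GU n F q ⊓ Cfsg.Geo.specialLinear (Fin n) F)) := by
  classical
  have H := isUnitary_hermForm hF n
  obtain ⟨m, hm⟩ := hro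
  have hS : ∀ c ∈ F₀, conjQ hF c ∈ F₀ := fun c hc => by
    show c ^ q ∈ F₀
    exact pow_mem hc q
  have hmoved : ∃ ε ∈ F₀, conjQ hF ε ≠ ε := by
    by_contra hcon
    push Not at hcon
    -- the subfield would lie in the fixed field
    have hle : F₀ ≤ fixF (conjQ hF) := fun c hc => hcon c hc
    letI : Algebra F₀ (fixF (conjQ hF)) := (Subfield.inclusion hle).toAlgebra
    haveI : Fintype F₀ := Fintype.ofFinite F₀
    haveI : Fintype (fixF (conjQ hF)) := Fintype.ofFinite _
    have h1 := Cfsg.Agent.Lib.Classical.Herm.card_fixed hF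
    have h2 : Nat.card (fixF (conjQ hF)) = q := by
      exact (Nat.card_congr (Equiv.subtypeEquivRight (fun c => Iff.rfl))).trans h1
    have h3 := Module.card_eq_pow_finrank (K := F₀) (V := fixF (conjQ hF))
    rw [← Nat.card_eq_fintype_card, ← Nat.card_eq_fintype_card, h2] at h3
    rw [hF, h3, ← pow_mul] at hcard
    have := Nat.pow_right_injective (a := Nat.card F₀) Finite.one_lt_card hcard
    omega
  have S : UnitRat (conjQ hF) (Cfsg.hermForm n F q) F₀ P r :=
    { herm := H
      rat := fun u v => by
        have := hP _ _ (fun i => (u i).2) (fun i => (v i).2)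
        rwa [one_mul] at this
      stable := hS
      moved := hmoved
      prime := hr
      three := by
        rcases Nat.lt_or_ge r 3 with h | h
        · have := hr.two_le
          omega
        · exact h
      card := by rw [Nat.card_eq_fintype_card (α := F)]; exact hcard }
  rw [GU_eq_isoH]
  exact S.isMaximalIn (by simpa using hn) ⟨m, hm⟩

end Cfsg.Agent.S5658
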