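import Cfsg.Statements.S5659
import Cfsg.Agent.Lib.Forms.UnitaryStd
import Cfsg.Agent.Lib.Forms.UnitaryOrthSubfield

set_option autoImplicit false
open Cfsg Matrix Cfsg.Agent.Lib.Forms

namespace Cfsg.Agent.S5659

/-- Let F be the field with q² elements, q odd, n ≥ 13, and F₀ the subfield with q elements. Let P be an invertible matrix such that the standard unitary form takes values in F₀ on the F₀-span of the columns of P (so it restricts to a non-degenerate symmetric bilinear form there). Then the elements of SU_n(q) lying in the subfield group of P form a maximal subgroup of SU_n(q). -/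
theorem result {F : Type*} [Field F] [Fintype F] (n q : ℕ) (hF : Fintype.card F = q ^ 2) (hn : 13 ≤ n) (hodd : Odd q) (F₀ : Subfield F) (hcard : Fintype.card F = Nat.card F₀ ^ 2) (P : Matrix.GeneralLinearGroup (Fin n) F) (hP : Cfsg.Geo.IsFormRationalStructure (Cfsg.hermForm n F q) F₀ 1 P) : Cfsg.Geo.IsMaximalIn (Cfsg.GU n F q ⊓ Cfsg.Geo.specialLinear (Fin n) F) (Cfsg.Geo.subfieldSubgroup F₀ P ⊓ (Cfsg.GU n F q ⊓ Cfsg.Geo.specialLinear (Fin n) F)) := by
  classical
  have H := isUnitary_hermForm hF n
  haveI : Fintype F₀ := Fintype.ofFinite F₀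
  have hcard₀ : Fintype.card F₀ = q := by
    have := hcard
    rw [hF, Nat.card_eq_fintype_card] at this
    exact (Nat.pow_left_injective (by norm_num) this).symm
  have hfix : ∀ c : F, conjQ hF c = c ↔ c ∈ F₀ := by
    have h1 : ∀ c : F, c ∈ F₀ → c ^ q = c := fun c hc => by
      have := congrArg Subtype.val (FiniteField.pow_card (⟨c, hc⟩ : F₀))
      rw [hcard₀] at this
      simpa using this
    let S : Finset F := Finset.univ.filter fun c => c ^ q = c
    let T : Finset F := Finset.univ.map ⟨((↑) : F₀ → F), Subtype.val_injective⟩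
    have hTS : T ⊆ S := fun c hc => by
      obtain ⟨y, -, rfl⟩ := Finset.mem_map.1 hc
      exact Finset.mem_filter.2 ⟨Finset.mem_univ _, h1 _ y.2⟩
    have hSc : S.card = q := by
      have := Cfsg.Agent.Lib.Classical.Herm.card_fixed hF
      rwa [Nat.card_eq_fintype_card, Fintype.card_subtype] at this
    have hTeq := Finset.eq_of_subset_of_card_le hTS (by
      rw [hSc, Finset.card_map, Finset.card_univ, hcard₀])
    refine fun c => ⟨fun hc => ?_, fun hc => h1 c hc⟩
    have : c ∈ T := hTeq ▸ Finset.mem_filter.2 ⟨Finset.mem_univ _, hc⟩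
    obtain ⟨y, -, rfl⟩ := Finset.mem_map.1 this
    exact y.2
  obtain ⟨δ, hδ0, hδ⟩ := exists_skew H
  have hδ' : δ + conjQ hF δ = 0 := hδ
  have h2 : (2 : F) ≠ 0 := fun e => by
    have hchar : ringChar F = 2 := by
      have h1 : ringChar F ∣ 2 := (ringChar.spec F 2).1 (by exact_mod_cast e)
      rcases (Nat.dvd_prime Nat.prime_two).1 h1 with h | h
      · exact absurd h CharP.ringChar_ne_one
      · exact h
    have h3 := FiniteField.even_card_of_char_two hchar
    rw [hF, Nat.pow_mod, Nat.odd_iff.1 hodd] at h3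
    simp at h3
  have S : OrthRat (conjQ hF) (Cfsg.hermForm n F q) F₀ P δ :=
    { herm := H
      fixed := hfix
      δ0 := hδ0
      δskew := hδ'
      two := h2
      rat := fun u v => by
        have := hP _ _ (fun i => (u i).2) (fun i => (v i).2)
        rwa [one_mul] at this }
  rw [GU_eq_isoH]
  refine isMaximalIn_of inf_le_right ?_ fun M hle hM g hg hgn => ?_
  · obtain ⟨s, hs, -, hsout⟩ := S.oddForm.exists_sing_notMem (![] : Fin 0 → (Fin n → F₀)) (by simp; omega)
    have hs0 : s ≠ 0 := fun e => hsout (e ▸ Submodule.zero_mem _)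
    obtain ⟨x, hx⟩ : ∃ x, S.form x s ≠ 0 := by
      by_contra hcon; push Not at hcon; exact hs0 (S.oddForm.nd.2 s hcon)
    have hvv : Cfsg.hermForm n F q (ratVec P s) (ratVec P s) = 0 := by
      rw [← S.form_coe, hs]; rfl
    refine ⟨tv (ratVec P s) (δ • hv (Cfsg.hermForm n F q) (ratVec P s)),
      utvGroup_le H (utv_mem_utvGroup hvv hδ'), fun hsub => ?_⟩
    obtain ⟨g₀, c, hgc⟩ := mem_subfieldSubgroup_iff.1 hsub.1
    obtain ⟨i, hi⟩ := Function.ne_iff.1 hs0
    have e1 := hgc s
    rw [utv_mulVec H hvv, hvv, mul_zero, zero_smul, add_zero] at e1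
    simp only [ratVec, ← mulVec_smul] at e1
    have e1' := congrFun (gl_mulVec_injective P e1) i
    have hc : (c : F) ∈ F₀ := by
      simp only [Pi.smul_apply, smul_eq_mul] at e1'
      have hne : (((g₀ : Matrix (Fin n) (Fin n) F₀) *ᵥ s) i : F) ≠ 0 := fun e => by
        rw [e, mul_zero] at e1'
        exact hi (Subtype.ext e1')
      rw [show (c : F) = (s i : F) / (((g₀ : Matrix (Fin n) (Fin n) F₀) *ᵥ s) i : F) by
        rw [eq_div_iff hne]; exact e1'.symm]
      exact div_mem (SetLike.coe_mem _) (SetLike.coe_mem _)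
    have e2 := hgc x
    rw [utv_mulVec H hvv, ← S.form_coe] at e2
    simp only [ratVec, ← mulVec_smul, ← mulVec_add] at e2
    have e2' := congrFun (gl_mulVec_injective P e2) i
    simp only [Pi.add_apply, Pi.smul_apply, smul_eq_mul] at e2'
    have hmem : δ * (S.form x s : F) * (s i : F) ∈ F₀ := by
      rw [show δ * (S.form x s : F) * (s i : F) =
        (c : F) * (((g₀ : Matrix (Fin n) (Fin n) F₀) *ᵥ x) i : F) - (x i : F) by
        linear_combination e2']
      exact sub_mem (mul_mem hc (SetLike.coe_mem _)) (SetLike.coe_mem _)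
    have hne : (S.form x s : F) * (s i : F) ≠ 0 := mul_ne_zero (fun e => hx (Subtype.ext e))
      (fun e => hi (Subtype.ext e))
    have hδmem : δ ∈ F₀ := by
      rw [show δ = δ * (S.form x s : F) * (s i : F) / ((S.form x s : F) * (s i : F)) by
        rw [mul_assoc, mul_div_cancel_right₀ _ hne]]
      exact div_mem hmem (mul_mem (SetLike.coe_mem _) (SetLike.coe_mem _))
    have := (hfix δ).2 hδmem
    rw [this] at hδ'
    exact hδ0 ((mul_eq_zero.1 (show (2 : F) * δ = 0 by linear_combination hδ')).resolve_left h2)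
  · obtain ⟨s, hs0, hs, hC⟩ := S.exists_centre hle (by simp; omega) hg (hM hg).1
      (fun e => hgn ⟨e, hM hg⟩)
    exact S.iso_sl_le hle (by simp; omega) hs0 hs hC

end Cfsg.Agent.S5659
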