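import Cfsg.Statements.S5660
import Cfsg.Agent.Lib.Forms.UnitaryStd
import Cfsg.Agent.Lib.Forms.UnitarySympSubfield

set_option autoImplicit false
open Cfsg Matrix Cfsg.Agent.Lib.Forms

namespace Cfsg.Agent.S5660

/-- Let F be the field with q² elements, n ≥ 13 even, and F₀ the subfield with q elements. Let ζ be a non-zero element with ζ + ζ^q = 0 and P an invertible matrix such that ζ times the standard unitary form takes values in F₀ on the F₀-span of the columns of P and the form vanishes on every pair (u, u) of that span (so ζ times the form restricts to a non-degenerate alternating form there). Then the elements of SU_n(q) lying in the subfield group of P form a maximal subgroup of SU_n(q). -/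
theorem result {F : Type*} [Field F] [Fintype F] (n q : ℕ) (hF : Fintype.card F = q ^ 2) (hn : 13 ≤ n) (heven : Even n) (F₀ : Subfield F) (hcard : Fintype.card F = Nat.card F₀ ^ 2) (ζ : F) (hζ0 : ζ ≠ 0) (hζ : ζ + ζ ^ q = 0) (P : Matrix.GeneralLinearGroup (Fin n) F) (hP : Cfsg.Geo.IsFormRationalStructure (Cfsg.hermForm n F q) F₀ ζ P) (halt : ∀ u : Fin n → F, (∀ i, u i ∈ F₀) → Cfsg.hermForm n F q (Matrix.mulVec (P : Matrix (Fin n) (Fin n) F) u) (Matrix.mulVec (P : Matrix (Fin n) (Fin n) F) u) = 0) : Cfsg.Geo.IsMaximalIn (Cfsg.GU n F q ⊓ Cfsg.Geo.specialLinear (Fin n) F) (Cfsg.Geo.subfieldSubgroup F₀ P ⊓ (Cfsg.GU n F q ⊓ Cfsg.Geo.specialLinear (Fin n) F)) := by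
  classical
  have H := isUnitary_hermForm hF n
  haveI : Fintype F₀ := Fintype.ofFinite F₀
  have hcard₀ : Fintype.card F₀ = q := by
    have := hcard
    rw [hF, Nat.card_eq_fintype_card] at this
    exact (Nat.pow_left_injective (by norm_num) this).symm
  have hfix : ∀ c : F, conjQ hF c = c ↔ c ∈ F₀ := by
    have h1 : ∀ c : F, c ∈ F₀ → c ^ q = c := fun c hc => by
      have := congrArg Subtype.val (FiniteField.pow_card (⟨c, hc⟩ : F₀))
      rw [hcard₀] at this
      simpa using this
    let S : Finset F := Finset.univ.filter fun c => c ^ q = c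
    let T : Finset F := Finset.univ.map ⟨((↑) : F₀ → F), Subtype.val_injective⟩
    have hTS : T ⊆ S := fun c hc => by
      obtain ⟨y, -, rfl⟩ := Finset.mem_map.1 hc
      exact Finset.mem_filter.2 ⟨Finset.mem_univ _, h1 _ y.2⟩
    have hSc : S.card = q := by
      have := Cfsg.Agent.Lib.Classical.Herm.card_fixed hF
      rwa [Nat.card_eq_fintype_card, Fintype.card_subtype] at this
    have hTeq := Finset.eq_of_subset_of_card_le hTS (by
      rw [hSc, Finset.card_map, Finset.card_univ, hcard₀])
    refine fun c => ⟨fun hc => ?_, fun hc => h1 c hc⟩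
    have : c ∈ T := hTeq ▸ Finset.mem_filter.2 ⟨Finset.mem_univ _, hc⟩
    obtain ⟨y, -, rfl⟩ := Finset.mem_map.1 this
    exact y.2
  obtain ⟨ε, hε⟩ : ∃ ε : F, conjQ hF ε ≠ ε := by
    by_contra hcon; push Not at hcon
    exact H.ne_refl (RingEquiv.ext hcon)
  have hε' : ε ∉ F₀ := fun h => hε ((hfix ε).2 h)
  have hbij : Function.Bijective (fun p : F₀ × F₀ => (p.1 : F) + (p.2 : F) * ε) := by
    rw [Fintype.bijective_iff_injective_and_card]
    refine ⟨fun p p' e => ?_, by rw [Fintype.card_prod, hcard₀, hF, sq]⟩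
    simp only at e
    rcases eq_or_ne p.2 p'.2 with h2 | h2
    · rw [h2] at e
      exact Prod.ext (Subtype.ext (add_right_cancel e)) h2
    · exfalso
      apply hε'
      have h2' : ((p.2 : F) - (p'.2 : F)) ≠ 0 := sub_ne_zero.2 (fun e' => h2 (Subtype.ext e'))
      have : ε = ((p'.1 : F) - (p.1 : F)) / ((p.2 : F) - (p'.2 : F)) := by
        field_simp
        linear_combination e
      rw [this]
      exact div_mem (sub_mem p'.1.2 p.1.2) (sub_mem p.2.2 p'.2.2)
  have S : SympRat (conjQ hF) (Cfsg.hermForm n F q) F₀ P ζ :=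
    { herm := H
      fixed := hfix
      split := ⟨ε, hε', fun c => by
        obtain ⟨⟨a, b⟩, hab⟩ := hbij.2 c
        exact ⟨a, b, hab⟩⟩
      ζ0 := hζ0
      ζskew := hζ
      rat := fun u v => hP _ _ (fun i => (u i).2) (fun i => (v i).2)
      alt := fun u => halt _ fun i => (u i).2 }
  rw [GU_eq_isoH]
  exact S.isMaximalIn (by simp; omega)

end Cfsg.Agent.S5660
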