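import Cfsg.Statements.S5664
import Cfsg.Agent.Lib.Forms.SympExtFieldMax
import Cfsg.Agent.Lib.Forms.FieldSubalg

set_option autoImplicit false
open Cfsg

namespace Cfsg.Agent.S5664
open Cfsg Matrix Cfsg.Agent.Lib.Forms

/-- For a finite field F and m ≥ 7, let K be a subfield of the algebra of 2m × 2m matrices over F containing the scalars, of prime degree r over F, whose elements k are self-adjoint for the standard alternating form f on F^(2m) (f(k u, v) = f(u, k v)) and satisfy f(k v, v) = 0 for all v. Then the elements of Sp_2m(F) normalising K form a maximal subgroup of Sp_2m(F). -/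
theorem result {F : Type*} [Field F] [Fintype F] (m : ℕ) (hm : 7 ≤ m) (r : ℕ) (hr : r.Prime) (K : Subalgebra F (Matrix (Fin m ⊕ Fin m) (Fin m ⊕ Fin m) F)) (hK : Cfsg.Geo.IsFieldSubalgebra r K) (hsa : Cfsg.Geo.IsSelfAdjointFor (Cfsg.sympForm m F) K) (halt : ∀ k ∈ K, ∀ v : (Fin m ⊕ Fin m → F), Cfsg.sympForm m F (Matrix.mulVec k v) v = 0) : Cfsg.Geo.IsMaximalIn (Cfsg.spGL m F) (Cfsg.Geo.subalgebraNormalizer K ⊓ Cfsg.spGL m F) := by
  classical
  haveI : Nonempty (Fin m ⊕ Fin m) := ⟨Sum.inl ⟨0, by omega⟩⟩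
  have hfield := isField_fieldSubalg hK
  letI : Field K := hfield.toField
  have hf : ∀ u v, Cfsg.sympForm m F u v = stdB m F u v := fun u v => (stdB_apply m u v).symm
  obtain ⟨h2, hmax⟩ := sympExtField_maximal (L := K) K.val
    (by rw [show Module.finrank F K = r from hK.finrank_eq]; exact hr) (stdB_isAlt m)
    (stdB_nondegenerate m) (fun k x y => by rw [← hf, ← hf]; exact hsa k k.2 x y)
    (fun k v => by rw [← hf]; exact halt k k.2 v) (Or.inr (Or.inr (by simp; omega)))
  rw [spGL_eq]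
  refine hmax _ inf_le_right fun g hg => ?_
  rw [Subgroup.mem_inf, and_iff_left hg, normalizer_iff_lines (fun a => ?_) hfield]
  · constructor
    · intro h a k
      obtain ⟨l, hl, e⟩ := h a k k.2
      exact ⟨⟨l, hl⟩, e⟩
    · intro h a k hk
      obtain ⟨l, e⟩ := h a ⟨k, hk⟩
      exact ⟨l, l.2, e⟩
  · obtain ⟨b, hb⟩ := h2 a
    exact ⟨b, fun k hk => hb ⟨k, hk⟩⟩

end Cfsg.Agent.S5664
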