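import Cfsg.Statements.S5665
import Cfsg.Agent.Lib.Forms.SympUnitaryField
import Cfsg.Agent.Lib.Forms.QuadFieldAlg

set_option autoImplicit false
open Cfsg

namespace Cfsg.Agent.S5665
open Cfsg Matrix Cfsg.Agent.Lib.Forms

/-- For a finite field F of odd order and m ≥ 7, let K be a subfield of the algebra of 2m × 2m matrices over F containing the scalars, of degree 2 over F, that is closed under adjoints for the standard alternating form on F^(2m) but whose elements are not all self-adjoint (so the adjoint map induces the automorphism of order two of K). Then the elements of Sp_2m(F) normalising K form a maximal subgroup of Sp_2m(F). -/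
theorem result {F : Type*} [Field F] [Fintype F] (m : ℕ) (hm : 7 ≤ m) (hodd : Odd (Fintype.card F)) (K : Subalgebra F (Matrix (Fin m ⊕ Fin m) (Fin m ⊕ Fin m) F)) (hK : Cfsg.Geo.IsFieldSubalgebra 2 K) (hac : Cfsg.Geo.IsAdjointClosedFor (Cfsg.sympForm m F) K) (hnsa : ¬ Cfsg.Geo.IsSelfAdjointFor (Cfsg.sympForm m F) K) : Cfsg.Geo.IsMaximalIn (Cfsg.spGL m F) (Cfsg.Geo.subalgebraNormalizer K ⊓ Cfsg.spGL m F) := by
  classical
  haveI : Nonempty (Fin m ⊕ Fin m) := ⟨Sum.inl ⟨0, by omega⟩⟩
  obtain ⟨J, hJK, -, hspan, t, N, hJJ, hirr⟩ := quadField_gen hK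
  have hf : Cfsg.sympForm m F = fun u v => stdB m F u v := by
    funext u v; rw [stdB_apply]
  rw [hf] at hac hnsa
  have hadj := quadField_adjoint hK (stdB m F) (stdB_nondegenerate m).2 hJK hspan hJJ hac hnsa
  have two : (2 : F) ≠ 0 := Ring.two_ne_zero fun h => by
    have := FiniteField.even_card_of_char_two h
    obtain ⟨r, hr⟩ := hodd
    omega
  let j : (Fin m ⊕ Fin m → F) →ₗ[F] (Fin m ⊕ Fin m → F) :=
    Matrix.toLin' J - (t / 2) • LinearMap.id
  have hj : ∀ v, j v = J *ᵥ v - (t / 2) • v := fun v => by simp [j]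
  let S : SpU (stdB m F) :=
    { alt := stdB_isAlt m
      nd := stdB_nondegenerate m
      two := two
      j := j
      δ := t * t / 4 - N
      sq := fun v => by
        rw [hj, hj, Matrix.mulVec_sub, Matrix.mulVec_smul, Matrix.mulVec_mulVec, hJJ,
          Matrix.sub_mulVec, Matrix.smul_mulVec, Matrix.smul_mulVec, Matrix.one_mulVec]
        have h4 : (4 : F) ≠ 0 := by
          rw [show (4 : F) = 2 * 2 by norm_num]; exact mul_ne_zero two two
        match_scalars <;> field_simp <;> ring
      skew := fun u v => by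
        rw [hj, hj, map_sub, map_smul, map_sub, map_smul, LinearMap.sub_apply,
          LinearMap.smul_apply, hadj, smul_eq_mul]
        field_simp
        ring
      irr := fun a b h => by
        obtain ⟨h1, h2⟩ := hirr (a - b * t / 2) b (by
          rw [← h]
          have h4 : (4 : F) = 2 * 2 := by norm_num
          rw [h4]
          field_simp
          ring)
        rw [h2, zero_mul, zero_div, sub_zero] at h1
        exact ⟨h1, h2⟩ }
  rw [spGL_eq]
  refine S.maximal (by simp; omega) inf_le_right fun g hg => ?_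
  rw [Subgroup.mem_inf, and_iff_left hg, quadField_normalizer hJK hspan]
  simp only [S, hj, Matrix.mulVec_sub, Matrix.mulVec_smul]
  constructor
  · rintro ⟨a, b, h⟩
    refine ⟨a + b * (t / 2) - t / 2, b, fun v => ?_⟩
    rw [h]
    module
  · rintro ⟨a, b, h⟩
    refine ⟨a - b * (t / 2) + t / 2, b, fun v => ?_⟩
    linear_combination (norm := module) h v

end Cfsg.Agent.S5665
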