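import Cfsg.Statements.S5667
import Cfsg.Agent.Lib.Forms.TensorFrameMain
import Cfsg.Agent.Lib.Forms.SympStd

set_option autoImplicit false
open Cfsg

namespace Cfsg.Agent.S5667

/-- Over the field with 3 elements and for m ≥ 7, suppose the standard alternating form on F^(2m) is similar, through P and e, to the tensor product of a non-degenerate symplectic form f₁ on F^(n₁) and a non-degenerate symmetric bilinear form f₂ on F^3. Then the elements of Sp_2m(3) in the stabiliser of this tensor decomposition form a subgroup that is not maximal: some subgroup lies strictly between it and Sp_2m(3). -/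
theorem result {F : Type*} [Field F] [Fintype F] (m : ℕ) (hm : 7 ≤ m) (hq : Fintype.card F = 3) (n₁ : ℕ) (e : (Fin m ⊕ Fin m) ≃ Fin n₁ × Fin 3) (P : Matrix.GeneralLinearGroup (Fin m ⊕ Fin m) F) (f₁ : (Fin n₁ → F) → (Fin n₁ → F) → F) (f₂ : (Fin 3 → F) → (Fin 3 → F) → F) (hf₁ : Cfsg.Geo.IsSymplecticForm f₁) (hf₂ : Cfsg.Geo.IsSymmetricForm f₂) (hT : Cfsg.Geo.IsTensorFormStructure id (Cfsg.sympForm m F) f₁ f₂ e P) : ∃ K : Subgroup (Matrix.GeneralLinearGroup (Fin m ⊕ Fin m) F), Cfsg.Geo.tensorProductSubgroup n₁ 3 e P ⊓ Cfsg.spGL m F < K ∧ K < Cfsg.spGL m F := by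
  classical
  obtain ⟨u, ε, hε, hli, hnorm, hframe⟩ := Cfsg.Agent.Lib.Forms.exists_frame_three hq f₂ hf₂
  have hsp : Cfsg.Geo.IsSymplecticForm (Cfsg.sympForm m F) := by
    have hB : ∀ a b, Cfsg.sympForm m F a b = Cfsg.Agent.Lib.Forms.stdB m F a b :=
      fun a b => (Cfsg.Agent.Lib.Forms.stdB_apply m a b).symm
    have hA := Cfsg.Agent.Lib.Forms.stdB_isAlt (F := F) m
    have hN := Cfsg.Agent.Lib.Forms.stdB_nondegenerate (F := F) m
    refine ⟨⟨fun x y v => by simp [hB], fun c x v => by simp [hB], fun v x y => by simp [hB],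
      fun c v x => by simp [hB]⟩, fun v w => by rw [hB, hB]; exact (hA.neg_eq w v).symm,
      fun v => by rw [hB]; exact hA v, fun v hv => ⟨?_, ?_⟩⟩
    · by_contra h; push Not at h; exact hv (hN.2 v fun x => (hB x v).symm.trans (h x))
    · by_contra h; push Not at h; exact hv (hN.1 v fun x => (hB v x).symm.trans (h x))
  have hn₁ : 5 ≤ n₁ := by
    have := Fintype.card_congr e
    simp at this
    omega
  have hne : ∃ p q, f₁ p q ≠ 0 := by
    let a : Fin n₁ := ⟨0, by omega⟩
    obtain ⟨y, hy⟩ := (hf₁.nondegenerate (Pi.single a 1) (by simp)).2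
    exact ⟨_, y, hy⟩
  let T := Cfsg.Agent.Lib.Forms.TData.ofStructure (σ := RingHom.id F)
    (Cfsg.Agent.Lib.Forms.Sesq.of_bilinear hsp.bilinear)
    (Cfsg.Agent.Lib.Forms.Sesq.of_bilinear hf₁.bilinear)
    (Cfsg.Agent.Lib.Forms.Sesq.of_bilinear hf₂.bilinear) e P hT
  let S : Cfsg.Agent.Lib.Forms.TFrame T 3 :=
    { u := u, li := hli, hr := by simp, ε := ε, ε_ne := hε, norm := hnorm, nondeg := hne,
      frame := hframe }
  exact Cfsg.Agent.Lib.Forms.symp_tensor_overgroup S hsp hf₁ (by norm_num) (by simp; omega) _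
    (fun g hg => Cfsg.Agent.Lib.Forms.acts_ofStructure _ _ _ e P hT hg) (Cfsg.spGL m F)
    (fun g => Iff.rfl)

end Cfsg.Agent.S5667
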