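import Cfsg.Statements.S5670
import Cfsg.Agent.Lib.Forms.TensorUnitMax
import Cfsg.Agent.Lib.Forms.TensorFrameData
import Cfsg.Agent.Lib.Forms.UnitaryStd

set_option autoImplicit false
open Cfsg

namespace Cfsg.Agent.S5670

/-- Let F be the field with q² elements and n = n₁ n₂ ≥ 13 with 2 ≤ n₁ < n₂ and (n₁, q) ≠ (2, 2). Suppose the standard unitary form on F^n is similar, through a change of basis P and a bijection of index sets e, to the tensor product of non-degenerate unitary forms f₁ on F^(n₁) and f₂ on F^(n₂) (forms linear in the first argument with f_i(v, w) = f_i(w, v)^q). Then the elements of SU_n(q) in the stabiliser of this tensor decomposition form a maximal subgroup of SU_n(q). -/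
theorem result {F : Type*} [Field F] [Fintype F] (n q : ℕ) (hF : Fintype.card F = q ^ 2) (hn : 13 ≤ n) (n₁ n₂ : ℕ) (h1 : 2 ≤ n₁) (h12 : n₁ < n₂) (hex : ¬ (n₁ = 2 ∧ q = 2)) (e : Fin n ≃ Fin n₁ × Fin n₂) (P : Matrix.GeneralLinearGroup (Fin n) F) (f₁ : (Fin n₁ → F) → (Fin n₁ → F) → F) (f₂ : (Fin n₂ → F) → (Fin n₂ → F) → F) (hf₁ : Cfsg.Geo.IsUnitaryFormPow q f₁) (hf₂ : Cfsg.Geo.IsUnitaryFormPow q f₂) (hT : Cfsg.Geo.IsTensorFormStructure (fun x : F => x ^ q) (Cfsg.hermForm n F q) f₁ f₂ e P) : Cfsg.Geo.IsMaximalIn (Cfsg.GU n F q ⊓ Cfsg.Geo.specialLinear (Fin n) F) (Cfsg.Geo.tensorProductSubgroup n₁ n₂ e P ⊓ (Cfsg.GU n F q ⊓ Cfsg.Geo.specialLinear (Fin n) F)) := by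
  classical
  have H := Cfsg.Agent.Lib.Forms.isUnitary_hermForm hF n
  set σ := Cfsg.Agent.Lib.Forms.conjQ hF with hσ
  have hσq : ((σ : F →+* F) : F → F) = fun x => x ^ q := rfl
  have mk : ∀ {r : ℕ} {f : (Fin r → F) → (Fin r → F) → F}, Cfsg.Geo.IsUnitaryFormPow q f →
      Cfsg.Geo.IsUnitaryForm σ f := fun hf =>
    ⟨H.ne_refl, H.involutive, hf.add_left, hf.smul_left, fun v w => hf.herm v w, hf.nondegenerate⟩
  have mkS : ∀ {r : ℕ} {f : (Fin r → F) → (Fin r → F) → F}, Cfsg.Geo.IsUnitaryForm σ f →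
      Cfsg.Agent.Lib.Forms.Sesq (σ : F →+* F) f := fun hf =>
    ⟨hf.add_left, hf.smul_left, fun v x y => Cfsg.Agent.Lib.Forms.herm_add_right hf v x y,
      fun c v x => Cfsg.Agent.Lib.Forms.herm_smul_right hf c v x⟩
  obtain ⟨c, hc, hpair⟩ := hT
  let L : (Fin n₁ × Fin n₂ → F) → (Fin n → F) := fun X =>
    (P : Matrix (Fin n) (Fin n) F).mulVec (X ∘ e)
  have hLadd : ∀ X Y, L (X + Y) = L X + L Y := fun X Y => by
    show Matrix.mulVec _ ((X + Y) ∘ e) = _
    rw [show (X + Y) ∘ e = X ∘ e + Y ∘ e from rfl, Matrix.mulVec_add]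
  have hLsmul : ∀ (a : F) X, L (a • X) = a • L X := fun a X => by
    show Matrix.mulVec _ ((a • X) ∘ e) = _
    rw [show (a • X) ∘ e = a • (X ∘ e) from rfl, Matrix.mulVec_smul]
  have hLsurj : Function.Surjective L := fun w =>
    ⟨((P⁻¹ : Matrix.GeneralLinearGroup (Fin n) F) : Matrix (Fin n) (Fin n) F).mulVec w ∘ e.symm, by
      show Matrix.mulVec _ ((Matrix.mulVec _ w ∘ e.symm) ∘ e) = w
      rw [Function.comp_assoc, Equiv.symm_comp_self, Function.comp_id, Matrix.mulVec_mulVec,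
        ← Units.val_mul, mul_inv_cancel, Units.val_one, Matrix.one_mulVec]⟩
  have hLinj : ∀ X, L X = 0 → X = 0 := fun X h => by
    have h' : X ∘ e = 0 := Cfsg.Agent.Lib.Forms.gl_mulVec_injective P (h.trans (Matrix.mulVec_zero _).symm)
    funext q
    simpa using congrFun h' (e.symm q)
  let h : (Fin n₁ × Fin n₂ → F) → (Fin n₁ × Fin n₂ → F) → F := fun X Y =>
    Cfsg.hermForm n F q (L X) (L Y)
  have Hh : Cfsg.Geo.IsUnitaryForm σ h := by
    refine ⟨H.ne_refl, H.involutive, fun X Y V => ?_, fun a X V => ?_, fun X Y => H.herm _ _,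
      fun X hX => ?_⟩
    · show Cfsg.hermForm n F q (L (X + Y)) _ = _
      rw [hLadd]; exact H.add_left _ _ _
    · show Cfsg.hermForm n F q (L (a • X)) _ = _
      rw [hLsmul]; exact H.smul_left _ _ _
    · obtain ⟨⟨u, hu⟩, v, hv⟩ := H.nondegenerate (L X) fun e => hX (hLinj X e)
      obtain ⟨U, rfl⟩ := hLsurj u
      obtain ⟨V, rfl⟩ := hLsurj v
      exact ⟨⟨U, hu⟩, V, hv⟩
  let T : Cfsg.Agent.Lib.Forms.TProd.UT F n₁ n₂ :=
    { σ := σ, f := f₁, g := f₂, h := h, c₀ := c, Hf := mk hf₁, Hg := mk hf₂, Hh := Hh, c₀_ne := hc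
      pair := fun v z w y => by
        have k := Cfsg.Agent.Lib.Forms.formOfGram_kron (σ : F →+* F) (Cfsg.Geo.gramMatrix f₁)
          (Cfsg.Geo.gramMatrix f₂) v w z y
        rw [(mkS (mk hf₁)).formOfGram_eq, (mkS (mk hf₂)).formOfGram_eq] at k
        have e0 := hpair (fun p => v p.1 * z p.2) (fun p => w p.1 * y p.2)
        rw [← hσq, k, ← mul_assoc] at e0
        exact e0 }
  have hmk : 13 ≤ n₁ * n₂ := by
    have := Fintype.card_congr e
    simp only [Fintype.card_fin, Fintype.card_prod] at this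
    omega
  have hq : n₁ = 2 → ∃ s, T.σ s = s ∧ s ≠ 0 ∧ s ≠ 1 := fun h2 => by
    refine Cfsg.Agent.Lib.Forms.exists_fixed_extra hF ?_
    have := Cfsg.Agent.Lib.Classical.Herm.two_le_q hF
    by_contra h3
    exact hex ⟨h2, by omega⟩
  let f := (Cfsg.Geo.glReindex (F := F) e.symm).trans (MulAut.conj P)
  have hdet : ∀ g, ((Cfsg.Geo.glReindex (F := F) e.symm g : Matrix.GeneralLinearGroup (Fin n) F) :
      Matrix (Fin n) (Fin n) F).det = (g : Matrix (Fin n₁ × Fin n₂) (Fin n₁ × Fin n₂) F).det :=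
    fun g => Matrix.det_reindex_self _ _
  have hf : ∀ g, f g = P * Cfsg.Geo.glReindex e.symm g * P⁻¹ := fun g => rfl
  have hsl : (Cfsg.Geo.specialLinear (Fin n₁ × Fin n₂) F).map f.toMonoidHom =
      Cfsg.Geo.specialLinear (Fin n) F := by
    ext x
    obtain ⟨g, rfl⟩ := f.surjective x
    rw [show f g = f.toMonoidHom g from rfl, Subgroup.mem_map_iff_mem f.injective]
    show g ∈ _ ↔ f g ∈ _
    rw [Cfsg.Agent.Lib.Forms.mem_specialLinear, Cfsg.Agent.Lib.Forms.mem_specialLinear, hf,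
      Units.val_mul, Units.val_mul, Matrix.det_mul, Matrix.det_mul, hdet, mul_right_comm,
      ← Matrix.det_mul, ← Units.val_mul, mul_inv_cancel, Units.val_one, Matrix.det_one, one_mul]
  have hact : ∀ g X, (f g : Matrix (Fin n) (Fin n) F).mulVec (L X) =
      L ((g : Matrix (Fin n₁ × Fin n₂) (Fin n₁ × Fin n₂) F).mulVec X) := by
    intro g X
    show ((f g : Matrix.GeneralLinearGroup (Fin n) F) : Matrix (Fin n) (Fin n) F).mulVec
      (Matrix.mulVec _ (X ∘ e)) = Matrix.mulVec _ (_ ∘ e)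
    rw [hf, Matrix.mulVec_mulVec, ← Units.val_mul, inv_mul_cancel_right, Units.val_mul,
      ← Matrix.mulVec_mulVec]
    congr 1
    have e1 : ((Cfsg.Geo.glReindex (F := F) e.symm g : Matrix.GeneralLinearGroup (Fin n) F) :
        Matrix (Fin n) (Fin n) F) =
        (g : Matrix (Fin n₁ × Fin n₂) (Fin n₁ × Fin n₂) F).submatrix e e := by
      show Matrix.reindexAlgEquiv F F e.symm (g : Matrix (Fin n₁ × Fin n₂) (Fin n₁ × Fin n₂) F) = _
      rw [Matrix.reindexAlgEquiv_apply, Matrix.reindex_apply]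
      simp
    rw [e1, Matrix.submatrix_mulVec_equiv, Function.comp_assoc, Equiv.self_comp_symm,
      Function.comp_id]
  have hiso : (Cfsg.Agent.Lib.Forms.isoH h).map f.toMonoidHom = Cfsg.GU n F q := by
    rw [Cfsg.Agent.Lib.Forms.GU_eq_isoH]
    ext x
    obtain ⟨g, rfl⟩ := f.surjective x
    rw [show f g = f.toMonoidHom g from rfl, Subgroup.mem_map_iff_mem f.injective]
    show g ∈ _ ↔ f g ∈ _
    constructor
    · intro hg a b
      obtain ⟨A, rfl⟩ := hLsurj a
      obtain ⟨B, rfl⟩ := hLsurj b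
      rw [hact, hact]
      exact hg A B
    · intro hg A B
      have := hg (L A) (L B)
      rw [hact, hact] at this
      exact this
  refine Cfsg.Agent.Lib.Forms.isMaximalIn_map f (T.grp_isMaximal h1 h12 hmk hq) ?_ ?_
  · rw [Subgroup.map_inf _ _ _ f.injective, hsl]
    exact congrArg (· ⊓ _) hiso
  · show (Cfsg.Geo.kroneckerSubgroup n₁ n₂ F ⊓ (Cfsg.Agent.Lib.Forms.isoH h ⊓
      Cfsg.Geo.specialLinear (Fin n₁ × Fin n₂) F)).map f.toMonoidHom = _
    rw [Subgroup.map_inf _ _ _ f.injective, Subgroup.map_inf _ _ _ f.injective, hsl, hiso,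
      Cfsg.Geo.tensorProductSubgroup, Subgroup.map_map]
    rfl

end Cfsg.Agent.S5670
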