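import Cfsg.Statements.S5671
import Cfsg.Agent.Lib.Forms.TensorFrameMain

set_option autoImplicit false
open Cfsg

namespace Cfsg.Agent.S5671

/-- Let F be the field with 4 elements (q = 2) and n = 2 n₂ ≥ 13. Suppose the standard unitary form Σ u_i v_i² on F^n is similar, through P and e, to the tensor product of non-degenerate unitary forms f₁ on F^2 and f₂ on F^(n₂). Then the elements of SU_n(2) in the stabiliser of this tensor decomposition form a subgroup that is not maximal: some subgroup lies strictly between it and SU_n(2). -/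
theorem result {F : Type*} [Field F] [Fintype F] (n : ℕ) (hF : Fintype.card F = 4) (hn : 13 ≤ n) (n₂ : ℕ) (e : Fin n ≃ Fin 2 × Fin n₂) (P : Matrix.GeneralLinearGroup (Fin n) F) (f₁ : (Fin 2 → F) → (Fin 2 → F) → F) (f₂ : (Fin n₂ → F) → (Fin n₂ → F) → F) (hf₁ : Cfsg.Geo.IsUnitaryFormPow 2 f₁) (hf₂ : Cfsg.Geo.IsUnitaryFormPow 2 f₂) (hT : Cfsg.Geo.IsTensorFormStructure (fun x : F => x ^ 2) (Cfsg.hermForm n F 2) f₁ f₂ e P) : ∃ K : Subgroup (Matrix.GeneralLinearGroup (Fin n) F), Cfsg.Geo.tensorProductSubgroup 2 n₂ e P ⊓ (Cfsg.GU n F 2 ⊓ Cfsg.Geo.specialLinear (Fin n) F) < K ∧ K < (Cfsg.GU n F 2 ⊓ Cfsg.Geo.specialLinear (Fin n) F) := by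
  classical
  have hF' : Fintype.card F = 2 ^ 2 := hF.trans (by norm_num)
  have H := Cfsg.Agent.Lib.Forms.isUnitary_hermForm hF' n
  have hσ : ∀ x, Cfsg.Agent.Lib.Forms.conjQ hF' x = x ^ 2 := Cfsg.Agent.Lib.Forms.conjQ_apply hF'
  have hh : Cfsg.Geo.IsUnitaryFormPow 2 (Cfsg.hermForm n F 2) :=
    ⟨H.add_left, H.smul_left, fun v w => (H.herm v w).trans (hσ _), H.nondegenerate⟩
  obtain ⟨u, hli, hnorm, hframe⟩ :=
    Cfsg.Agent.Lib.Forms.exists_frame_four hF _ hσ H.ne_refl f₁ hf₁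
  have hn₂ : 7 ≤ n₂ := by
    have := Fintype.card_congr e
    simp at this
    omega
  have hne : ∃ p q, f₂ p q ≠ 0 := by
    let a : Fin n₂ := ⟨0, by omega⟩
    obtain ⟨y, hy⟩ := (hf₂.nondegenerate (Pi.single a 1) (by simp)).2
    exact ⟨_, y, hy⟩
  have hT' : Cfsg.Geo.IsTensorFormStructure (⇑(Cfsg.Agent.Lib.Forms.conjQ hF').toRingHom)
      (Cfsg.hermForm n F 2) f₁ f₂ e P := by
    rw [show (⇑(Cfsg.Agent.Lib.Forms.conjQ hF').toRingHom) = fun x : F => x ^ 2 from funext hσ]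
    exact hT
  let T := Cfsg.Agent.Lib.Forms.TData.ofStructureFlip
    (σ := (Cfsg.Agent.Lib.Forms.conjQ hF').toRingHom)
    (Cfsg.Agent.Lib.Forms.Sesq.of_unitary hσ hh) (Cfsg.Agent.Lib.Forms.Sesq.of_unitary hσ hf₁)
    (Cfsg.Agent.Lib.Forms.Sesq.of_unitary hσ hf₂) e P hT'
  let S : Cfsg.Agent.Lib.Forms.TFrame T 2 :=
    { u := u, li := hli, hr := by simp, ε := 1, ε_ne := one_ne_zero, norm := hnorm, nondeg := hne,
      frame := hframe }
  exact Cfsg.Agent.Lib.Forms.unitary_tensor_overgroup hF _ hσ H.ne_refl hh S hf₂ (by omega) le_rfl _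
    (fun g hg => Cfsg.Agent.Lib.Forms.acts_ofStructureFlip _ _ _ e P hT' hg) _
    (fun g => Iff.rfl)

end Cfsg.Agent.S5671
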