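import Cfsg.Statements.S5676
import Cfsg.Agent.Lib.Forms.OrthOddStd
-- import your own Cfsg.Agent.* helpers here

set_option autoImplicit false
open Cfsg

namespace Cfsg.Agent.S5676

/-- Let F be the field with 3 elements, m ≥ 6, Q the standard quadratic form on F^(2m+1) and Ω the commutator subgroup of its isometry group. Let W be a 2-dimensional subspace on which the polar form is non-degenerate and which contains a line on which Q vanishes. Then the elements of Ω stabilising W form a subgroup that is not maximal: some subgroup lies strictly between it and Ω. -/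
theorem result {F : Type*} [Field F] [Fintype F] (hq : Fintype.card F = 3) (m : ℕ) (hm : 6 ≤ m) (W : Submodule F (Unit ⊕ (Fin m ⊕ Fin m) → F)) (hdim : Module.finrank F W = 2) (hW : Cfsg.Geo.IsNondegenerateOn (QuadraticMap.polar (Cfsg.quadFormOdd m F)) W) (hplus : Cfsg.Geo.IsPlusTypeOn (Cfsg.quadFormOdd m F) W) : ∃ K : Subgroup (Matrix.GeneralLinearGroup (Unit ⊕ (Fin m ⊕ Fin m)) F), Cfsg.Geo.subspaceStabilizer W ⊓ Cfsg.Geo.omegaGL (Cfsg.quadFormOdd m F) < K ∧ K < Cfsg.Geo.omegaGL (Cfsg.quadFormOdd m F) := by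
  have hodd : Odd (Fintype.card F) := by rw [hq]; decide
  have hQ := Cfsg.Agent.Lib.Forms.oddQ_coe (F := F) m
  rw [← hQ] at hW hplus ⊢
  obtain ⟨U, hUW, hU, hUd⟩ := hplus
  obtain ⟨e, he, he0⟩ := U.exists_mem_ne_zero_of_ne_bot fun h => by
    rw [h, finrank_bot, hdim] at hUd; omega
  exact Cfsg.Agent.Lib.Forms.smallPlane_overgroup (Cfsg.Agent.Lib.Forms.oddQ_nd hodd m) (by simp; omega) hq.le hdim
    (fun x hx h => by_contra fun h0 => (hW x hx h0).2.elim fun y hy => hy.2 (h y hy.1))
    ⟨e, hUW he, he0, hU e he⟩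

end Cfsg.Agent.S5676
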