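import Cfsg.Statements.S5682
import Cfsg.Agent.Lib.Forms.TensorFrameMain
import Cfsg.Agent.Lib.Forms.OrthOddStd

set_option autoImplicit false
open Cfsg

namespace Cfsg.Agent.S5682

/-- Let F be the field with 3 elements, m ≥ 6, Q the standard quadratic form on F^(2m+1) and Ω the commutator subgroup of its isometry group. Suppose the polar form of Q is similar, through P and e, to the tensor product of non-degenerate symmetric bilinear forms f₁ on F^3 and f₂ on F^(n₂) with 3 < n₂. Then the elements of Ω in the stabiliser of this tensor decomposition form a subgroup that is not maximal: some subgroup lies strictly between it and Ω. -/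
theorem result {F : Type*} [Field F] [Fintype F] (hq : Fintype.card F = 3) (m : ℕ) (hm : 6 ≤ m) (n₂ : ℕ) (h2 : 3 < n₂) (e : (Unit ⊕ (Fin m ⊕ Fin m)) ≃ Fin 3 × Fin n₂) (P : Matrix.GeneralLinearGroup (Unit ⊕ (Fin m ⊕ Fin m)) F) (f₁ : (Fin 3 → F) → (Fin 3 → F) → F) (f₂ : (Fin n₂ → F) → (Fin n₂ → F) → F) (hf₁ : Cfsg.Geo.IsSymmetricForm f₁) (hf₂ : Cfsg.Geo.IsSymmetricForm f₂) (hT : Cfsg.Geo.IsTensorFormStructure id (QuadraticMap.polar (Cfsg.quadFormOdd m F)) f₁ f₂ e P) : ∃ K : Subgroup (Matrix.GeneralLinearGroup (Unit ⊕ (Fin m ⊕ Fin m)) F), Cfsg.Geo.tensorProductSubgroup 3 n₂ e P ⊓ Cfsg.Geo.omegaGL (Cfsg.quadFormOdd m F) < K ∧ K < Cfsg.Geo.omegaGL (Cfsg.quadFormOdd m F) := by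
  classical
  rw [← Cfsg.Agent.Lib.Forms.oddQ_coe] at hT ⊢
  obtain ⟨u, ε, hε, hli, hnorm, hframe⟩ := Cfsg.Agent.Lib.Forms.exists_frame_three hq f₁ hf₁
  have hS : Cfsg.Agent.Lib.Forms.Sesq (RingHom.id F) (QuadraticMap.polar ⇑(Cfsg.Agent.Lib.Forms.oddQ m F)) :=
    ⟨fun x y v => QuadraticMap.polar_add_left _ _ _ _, fun c x v => QuadraticMap.polar_smul_left _ _ _ _,
      fun v x y => QuadraticMap.polar_add_right _ _ _ _, fun c v x => QuadraticMap.polar_smul_right _ _ _ _⟩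
  have hne : ∃ p q, f₂ p q ≠ 0 := by
    let a : Fin n₂ := ⟨0, by omega⟩
    obtain ⟨y, hy⟩ := (hf₂.nondegenerate (Pi.single a 1) (by simp)).2
    exact ⟨_, y, hy⟩
  let T := Cfsg.Agent.Lib.Forms.TData.ofStructureFlip (σ := RingHom.id F) hS
    (Cfsg.Agent.Lib.Forms.Sesq.of_bilinear hf₁.bilinear)
    (Cfsg.Agent.Lib.Forms.Sesq.of_bilinear hf₂.bilinear) e P hT
  let S : Cfsg.Agent.Lib.Forms.TFrame T 3 :=
    { u := u, li := hli, hr := by simp, ε := ε, ε_ne := hε, norm := hnorm, nondeg := hne,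
      frame := hframe }
  exact Cfsg.Agent.Lib.Forms.orth_tensor_overgroup hq (Cfsg.Agent.Lib.Forms.oddQ_nd (by rw [hq]; decide) m) (by simp; omega) S hf₂ (by omega) (by norm_num) _
    (fun g hg => Cfsg.Agent.Lib.Forms.acts_ofStructureFlip _ _ _ e P hT hg)

end Cfsg.Agent.S5682
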