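import Cfsg.Statements.S5683
import Cfsg.Agent.Lib.Forms.OrthSubfieldStd
import Cfsg.Agent.Lib.Classical.QuadOmega.Diag
-- import your own Cfsg.Agent.* helpers here

set_option autoImplicit false
open Cfsg

namespace Cfsg.Agent.S5683

/-- Let F be a finite field of odd order, m ≥ 6, Q the standard quadratic form on F^(2m+1) and Ω the commutator subgroup of its isometry group. Let F₀ be a subfield with |F| = |F₀| ^ r for a prime r and P an invertible matrix such that Q takes values in F₀ on the F₀-span of the columns of P. Then the elements of Ω lying in the subfield group of P (the conjugate by P of the product of GL_(2m+1)(F₀) with the scalars) form a maximal subgroup of Ω. -/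
theorem result {F : Type*} [Field F] [Fintype F] (hodd : Odd (Fintype.card F)) (m : ℕ) (hm : 6 ≤ m) (F₀ : Subfield F) (r : ℕ) (hr : r.Prime) (hcard : Fintype.card F = Nat.card F₀ ^ r) (P : Matrix.GeneralLinearGroup (Unit ⊕ (Fin m ⊕ Fin m)) F) (hP : Cfsg.Geo.IsQuadFormRationalStructure (Cfsg.quadFormOdd m F) F₀ P) : Cfsg.Geo.IsMaximalIn (Cfsg.Geo.omegaGL (Cfsg.quadFormOdd m F)) (Cfsg.Geo.subfieldSubgroup F₀ P ⊓ Cfsg.Geo.omegaGL (Cfsg.quadFormOdd m F)) := by
  open Cfsg.Agent.Lib.Classical.Quad Cfsg.Agent.Lib.Classical.QuadOmega QuadraticMap in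
  let Q : QuadraticForm F (Unit ⊕ (Fin m ⊕ Fin m) → F) :=
    (splitQ m (sqQ F)).comp (eOdd m).symm.toLinearMap
  have hQ : (⇑Q) = Cfsg.quadFormOdd m F := by
    funext v
    have h := Cfsg.Agent.Lib.Classical.Quad.odd_apply m
      ((Cfsg.Agent.Lib.Classical.Quad.eOdd m).symm v)
    rw [LinearEquiv.apply_symm_apply] at h
    exact h.symm
  rw [← hQ] at hP ⊢
  refine Cfsg.Agent.Lib.Forms.subfield_maximal_of_qrat (⇑Q) F₀ P 1 one_ne_zero
    (fun c v => by rw [QuadraticMap.map_smul, smul_eq_mul, pow_two])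
    ⟨fun x y v => QuadraticMap.polar_add_left (Q := Q) x y v, fun c x v => QuadraticMap.polar_smul_left (Q := Q) c x v,
      fun v x y => QuadraticMap.polar_add_right (Q := Q) v x y,
      fun c v x => QuadraticMap.polar_smul_right (Q := Q) c v x⟩
    (fun v hv => ?_) (by simp; omega) hr hcard (fun u hu => by simpa using hP u hu)
  refine (Cfsg.Agent.Lib.Classical.Quad.eOdd m).symm.map_eq_zero_iff.1
    (Cfsg.Agent.Lib.Classical.QuadOmega.nd_splitQ (Cfsg.Agent.Lib.Classical.QuadOmega.nd_sqQ
      (Cfsg.Agent.Lib.Classical.QuadOmega.two_ne_zero_of_odd hodd)) m _ fun y => ?_)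
  have h := hv (Cfsg.Agent.Lib.Classical.Quad.eOdd m y)
  simpa [Q, QuadraticMap.polar] using h

end Cfsg.Agent.S5683
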