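import Cfsg.Statements.S5692
import Cfsg.Agent.Lib.Forms.OrthDecPlaneTheorem
import Cfsg.Agent.Lib.Forms.OrthDecTheorem
import Cfsg.Agent.Lib.Forms.OrthStab

set_option autoImplicit false
open Cfsg

namespace Cfsg.Agent.S5692
open Cfsg.Agent.Lib.Forms


/-- Let F be a finite field with q elements, n ≥ 13 even, Q a non-degenerate quadratic form on F^n of plus type (some subspace of dimension n/2 is totally singular), and Ω the commutator subgroup of the isometry group of Q, viewed inside GL_n(F). Let D be a decomposition of F^n into t ≥ 2 pairwise orthogonal, pairwise Q-isometric subspaces of equal dimension k ≥ 2 on which the polar form is non-degenerate, such that: if k is even, either every member is of plus type or t is even; if k is odd, q is odd and the discriminant of Q is a square. Exclude the cases k = 2 with q = 3, k = 2 with plus-type members and q ∈ {2, 4, 5}, k = 3 with q = 3, and k = 4 with plus-type members and q = 2. Then the elements of Ω permuting the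 members of D form a maximal subgroup of Ω. -/
theorem result {F : Type*} [Field F] [Fintype F] {n : ℕ} (hn : 13 ≤ n) (heven : Even n) (Q : (Fin n → F) → F) (hQ : Cfsg.Geo.IsNondegenerateQuadraticForm Q) (hplus : Cfsg.Geo.IsPlusTypeOn Q ⊤) {t : ℕ} (k : ℕ) (hk : 2 ≤ k) (D : Fin t → Submodule F (Fin n → F)) (hD : Cfsg.Geo.IsOrthogonalMDecomposition Q k D) (hke : Even k → ((∀ i, Cfsg.Geo.IsPlusTypeOn Q (D i)) ∨ Even t)) (hko : Odd k → (Odd (Fintype.card F) ∧ Cfsg.Geo.HasSquareDiscriminant Q)) (hex : ¬ ((k = 2 ∧ (Fintype.card F = 3 ∨ ((∀ i, Cfsg.Geo.IsPlusTypeOn Q (D i)) ∧ (Fintype.card F = 2 ∨ Fintype.card F = 4 ∨ Fintype.card F = 5)))) ∨ (k = 3 ∧ Fintype.card F = 3) ∨ (k = 4 ∧ Fintype.card F = 2 ∧ ∀ i, Cfsg.Geo.IsPlusTypeOn Q (D i)))) : Cfsg.Geo.IsMaximalIn (Cfsg.Geo.omegaGL Q) (Cfsg.Geo.decompositionStabilizer D ⊓ Cfsg.Geo.omegaGL Q) := by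
  let Q' := quadOf hQ
  have hq1 := Fintype.one_lt_card (α := F)
  have h2 : Odd (Fintype.card F) → (2 : F) ≠ 0 := fun ho h => by
    haveI : CharP F 2 := CharTwo.of_one_ne_zero_of_two_eq_zero one_ne_zero h
    exact Nat.not_even_iff_odd.2 ho (even_iff_two_dvd.2 ((CharP.cast_eq_zero_iff F 2 _).1 (Nat.cast_card_eq_zero F)))
  have hall : ∀ i, Cfsg.Geo.IsPlusTypeOn Q (D i) → ∀ j, Cfsg.Geo.IsPlusTypeOn Q (D j) := fun i hp j =>
    isPlusTypeOn_of_isometric (Q := Q') (hD.isometric i j) hp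
  have h6 : Fintype.card F ≠ 6 := fun e => by
    have h := Fintype.isPrimePow_card_of_field (α := F)
    rw [e, isPrimePow_nat_iff] at h
    obtain ⟨p, k, hp, hk, hpk⟩ := h
    have h2 : 2 = p := (Nat.prime_dvd_prime_iff_eq Nat.prime_two hp).1
      (Nat.prime_two.dvd_of_dvd_pow (hpk ▸ (by norm_num : 2 ∣ 6)))
    have h3 : 3 = p := (Nat.prime_dvd_prime_iff_eq Nat.prime_three hp).1
      (Nat.prime_three.dvd_of_dvd_pow (hpk ▸ (by norm_num : 3 ∣ 6)))
    omega
  rcases eq_or_lt_of_le hk with rfl | hk3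
  · refine decompStab_maximal_two (Q := Q') (quadOf_nd hQ) (by simpa using hn) hD fun i => ?_
    by_cases hp : Cfsg.Geo.IsPlusTypeOn Q (D i)
    · left
      have h := fun j => hex (Or.inl ⟨rfl, j⟩)
      have := fun e => h (Or.inl e)
      have := fun e => h (Or.inr ⟨hall i hp, e⟩)
      have a2 : Fintype.card F ≠ 2 := fun e => this (Or.inl e)
      have a4 : Fintype.card F ≠ 4 := fun e => this (Or.inr (Or.inl e))
      have a5 : Fintype.card F ≠ 5 := fun e => this (Or.inr (Or.inr e))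
      have a3 : Fintype.card F ≠ 3 := fun e => h (Or.inl e)
      omega
    · exact Or.inr ⟨hp, fun e => hex (Or.inl ⟨rfl, Or.inl e⟩)⟩
  · refine decompStab_maximal (Q := Q') (quadOf_nd hQ) (by simpa using hn) hk3 hD (fun e => ?_) fun e hq2 i hp => ?_
    · have ho := (hko (by rw [e]; decide)).1
      refine ⟨?_, h2 ho⟩
      have : Fintype.card F ≠ 3 := fun e3 => hex (Or.inr (Or.inl ⟨e, e3⟩))
      obtain ⟨r, hr⟩ := ho
      omega
    · exact hex (Or.inr (Or.inr ⟨e, hq2, hall i hp⟩))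

end Cfsg.Agent.S5692
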