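import Cfsg.Statements.S5694
import Cfsg.Agent.Lib.Forms.OrthDecPlaneTheorem
import Cfsg.Agent.Lib.Forms.OrthDecTheorem
import Cfsg.Agent.Lib.Forms.OrthStab

set_option autoImplicit false
open Cfsg

namespace Cfsg.Agent.S5694
open Cfsg.Agent.Lib.Forms


/-- Let F be a finite field with q elements, n ≥ 13 even, Q a non-degenerate quadratic form on F^n of minus type (no subspace of dimension n/2 is totally singular), and Ω the commutator subgroup of the isometry group of Q, viewed inside GL_n(F). Let D be a decomposition of F^n into t ≥ 2 pairwise orthogonal, pairwise Q-isometric subspaces of equal dimension k ≥ 2 on which the polar form is non-degenerate, such that: if k is odd, q is odd and the discriminant of Q is a square; if k is even, t is odd and no member is of plus type. Unless q = 3 and k ∈ {2, 3}, the elements of Ω permuting the members of D form a maximal subgroup of Ω. -/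
theorem result {F : Type*} [Field F] [Fintype F] {n : ℕ} (hn : 13 ≤ n) (heven : Even n) (Q : (Fin n → F) → F) (hQ : Cfsg.Geo.IsNondegenerateQuadraticForm Q) (hminus : ¬ Cfsg.Geo.IsPlusTypeOn Q ⊤) {t : ℕ} (k : ℕ) (hk : 2 ≤ k) (D : Fin t → Submodule F (Fin n → F)) (hD : Cfsg.Geo.IsOrthogonalMDecomposition Q k D) (hko : Odd k → (Odd (Fintype.card F) ∧ Cfsg.Geo.HasSquareDiscriminant Q)) (hke : Even k → (Odd t ∧ ∀ i, ¬ Cfsg.Geo.IsPlusTypeOn Q (D i))) (hex : ¬ (Fintype.card F = 3 ∧ (k = 2 ∨ k = 3))) : Cfsg.Geo.IsMaximalIn (Cfsg.Geo.omegaGL Q) (Cfsg.Geo.decompositionStabilizer D ⊓ Cfsg.Geo.omegaGL Q) := by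
  let Q' := quadOf hQ
  have hq1 := Fintype.one_lt_card (α := F)
  have h2 : Odd (Fintype.card F) → (2 : F) ≠ 0 := fun ho h => by
    haveI : CharP F 2 := CharTwo.of_one_ne_zero_of_two_eq_zero one_ne_zero h
    exact Nat.not_even_iff_odd.2 ho (even_iff_two_dvd.2 ((CharP.cast_eq_zero_iff F 2 _).1 (Nat.cast_card_eq_zero F)))
  rcases eq_or_lt_of_le hk with rfl | hk3
  · exact decompStab_maximal_two (Q := Q') (quadOf_nd hQ) (by simpa using hn) hD fun i =>
      Or.inr ⟨(hke even_two).2 i, fun e => hex ⟨e, Or.inl rfl⟩⟩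
  · refine decompStab_maximal (Q := Q') (quadOf_nd hQ) (by simpa using hn) hk3 hD (fun e => ?_) fun e _ i =>
      (hke (by rw [e]; decide)).2 i
    have ho := (hko (by rw [e]; decide)).1
    refine ⟨?_, h2 ho⟩
    have : Fintype.card F ≠ 3 := fun e3 => hex ⟨e3, Or.inr e⟩
    obtain ⟨r, hr⟩ := ho
    omega

end Cfsg.Agent.S5694
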