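import Cfsg.Statements.S5697
import Cfsg.Agent.Lib.Forms.OrthLagPair
-- import your own Cfsg.Agent.* helpers here

set_option autoImplicit false
open Cfsg

namespace Cfsg.Agent.S5697

/-- Let F be a finite field with q elements, n ≥ 13 even, Q a non-degenerate quadratic form on F^n of plus type (some subspace of dimension n/2 is totally singular), and Ω the commutator subgroup of the isometry group of Q, viewed inside GL_n(F). Suppose n/2 is even and let D be a decomposition of F^n into two complementary subspaces of dimension n/2 on each of which Q vanishes. Then the elements of Ω preserving or interchanging the two subspaces form a maximal subgroup of Ω. -/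
theorem result {F : Type*} [Field F] [Fintype F] {n : ℕ} (hn : 13 ≤ n) (heven : Even n) (Q : (Fin n → F) → F) (hQ : Cfsg.Geo.IsNondegenerateQuadraticForm Q) (hplus : Cfsg.Geo.IsPlusTypeOn Q ⊤) (k : ℕ) (hk : 2 * k = n) (hke : Even k) (D : Fin 2 → Submodule F (Fin n → F)) (hD : Cfsg.Geo.IsMDecomposition k D) (hts : ∀ i, Cfsg.Geo.IsTotallySingularQuad Q (D i)) : Cfsg.Geo.IsMaximalIn (Cfsg.Geo.omegaGL Q) (Cfsg.Geo.decompositionStabilizer D ⊓ Cfsg.Geo.omegaGL Q) := by
  let Q' : QuadraticForm F (Fin n → F) := QuadraticMap.ofPolar Q
    (fun c v => by rw [hQ.smul, pow_two, smul_eq_mul])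
    (fun x y v => hQ.polar_bilinear.add_left x y v)
    (fun c x v => by rw [hQ.polar_bilinear.smul_left, smul_eq_mul])
  have P : Cfsg.Agent.Lib.Forms.QPair Q' D k :=
    { nd := fun v hv => by_contra fun h => (hQ.nondegenerate v h).2.elim fun y hy => hy (hv y)
      large := by omega
      rank := hD.finrank_eq
      total := by rw [Fintype.card_fin]; omega
      sing := fun i u hu => hts i u hu
      spans := fun x => by
        have hx : x ∈ iSup D := hD.iSup_eq_top ▸ Submodule.mem_top
        obtain ⟨μ, hμ⟩ := (Submodule.mem_iSup_iff_exists_finsupp D x).1 hx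
        refine ⟨μ, hμ.1, ?_⟩
        rw [← hμ.2, Finsupp.sum_fintype _ _ (fun _ => rfl), Fin.sum_univ_two] }
  exact P.isMaximalIn hke

end Cfsg.Agent.S5697
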