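import Cfsg.Statements.S5699
import Cfsg.Agent.Lib.Forms.OrthNondeg
-- import your own Cfsg.Agent.* helpers here

set_option autoImplicit false
open Cfsg

namespace Cfsg.Agent.S5699

/-- Let F be a finite field with q elements, n ≥ 13 even, Q a non-degenerate quadratic form on F^n (of either type), and Ω the commutator subgroup of the isometry group of Q, viewed inside GL_n(F). Let D be a decomposition of F^n into two orthogonal subspaces of odd dimension n/2 on which the polar form is non-degenerate and which are not Q-isometric to each other. Then the elements of Ω permuting (necessarily fixing) the two subspaces form a maximal subgroup of Ω. -/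
theorem result {F : Type*} [Field F] [Fintype F] {n : ℕ} (hn : 13 ≤ n) (heven : Even n) (Q : (Fin n → F) → F) (hQ : Cfsg.Geo.IsNondegenerateQuadraticForm Q) (k : ℕ) (hk : 2 * k = n) (hko : Odd k) (D : Fin 2 → Submodule F (Fin n → F)) (hD : Cfsg.Geo.IsNondegenerateMDecomposition (QuadraticMap.polar Q) k D) (hni : ¬ Cfsg.Geo.AreIsometricFor Q (D 0) (D 1)) : Cfsg.Geo.IsMaximalIn (Cfsg.Geo.omegaGL Q) (Cfsg.Geo.decompositionStabilizer D ⊓ Cfsg.Geo.omegaGL Q) := by
  classical
  let Q' := Cfsg.Agent.Lib.Forms.quadOf hQ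
  have hd0 := hD.decomp.finrank_eq 0
  have hd1 := hD.decomp.finrank_eq 1
  have hst : Cfsg.Geo.decompositionStabilizer D ⊓ Cfsg.Geo.omegaGL Q =
      Cfsg.Geo.subspaceStabilizer (D 0) ⊓ Cfsg.Geo.omegaGL Q := by
    ext g
    simp only [Subgroup.mem_inf, and_congr_left_iff]
    intro hgΩ
    have hgi : ∀ v, Q ((g : Matrix (Fin n) (Fin n) F).mulVec v) = Q v :=
      Cfsg.Agent.Lib.Forms.mem_isometryGroup_of_omega hgΩ
    constructor
    · rintro ⟨σ, hσ⟩
      have h0 := hσ 0
      rcases (by omega : (σ 0 : Fin 2) = 0 ∨ (σ 0 : Fin 2) = 1) with h | h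
      · rw [h] at h0
        exact Cfsg.Agent.Lib.Forms.mem_stab_of_le fun w hw => by
          rw [← Matrix.toLin'_apply]
          exact h0.le (Submodule.mem_map_of_mem hw)
      · rw [h] at h0
        refine absurd ?_ hni
        refine ⟨((Submodule.equivMapOfInjective (Matrix.toLin' (g : Matrix (Fin n) (Fin n) F))
          (fun a b hab => Cfsg.Agent.Lib.Forms.gl_mulVec_injective g
            (by simpa using hab)) (D 0)).trans (LinearEquiv.ofEq _ _ h0)), fun w => ?_⟩
        exact hgi w
    · intro hg
      have h0 : (D 0).map (Matrix.toLin' (g : Matrix (Fin n) (Fin n) F)) = D 0 :=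
        Submodule.eq_of_le_of_finrank_eq (Cfsg.Agent.Lib.Forms.map_le_of_mulVec_mem
          (Cfsg.Agent.Lib.Forms.mem_subspaceStabilizer.1 hg)) (Cfsg.Agent.Lib.Forms.finrank_map_gl _ g)
      have hS : Cfsg.Agent.Lib.Forms.Split Q' (D 0) (D 1) := by
        refine ⟨Cfsg.Agent.Lib.Forms.quadOf_nd hQ, by simpa using hn, hD.orthogonal 0 1 (by simp),
          ?_, fun e => by rw [e, finrank_bot] at hd0; omega, by simp; omega, by omega, fun _ h => by omega⟩
        rw [eq_top_iff, ← hD.decomp.iSup_eq_top]
        exact iSup_le fun i => by fin_cases i <;> simp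
      have h1 : (D 1).map (Matrix.toLin' (g : Matrix (Fin n) (Fin n) F)) = D 1 :=
        Submodule.eq_of_le_of_finrank_eq (Cfsg.Agent.Lib.Forms.map_le_of_mulVec_mem fun b hb =>
          hS.B_of_stab hgi hg hb) (Cfsg.Agent.Lib.Forms.finrank_map_gl _ g)
      exact ⟨1, fun i => by fin_cases i <;> simpa using by assumption⟩
  rw [hst]
  refine Cfsg.Agent.Lib.Forms.nondegStab_maximal (Q := Q') (Cfsg.Agent.Lib.Forms.quadOf_nd hQ)
    (by simpa using hn) (fun e => by rw [e, finrank_bot] at hd0; omega)
    (fun e => by rw [e, finrank_top, Module.finrank_fin_fun] at hd0; omega) (hD.nondegenerate 0) ?_ ?_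
  · intro W' horth _ _ hnd ht he φ hφA
    by_contra h
    push Not at h
    have horth1 := hD.orthogonal 1 0 (by simp)
    have hle : D 1 ≤ W' := by
      intro v hv
      obtain ⟨u, hu, w, hw, rfl⟩ := Submodule.mem_sup.1
        (show v ∈ D 0 ⊔ W' by rw [‹D 0 ⊔ W' = ⊤›]; trivial)
      have hu0 : u = 0 := by
        by_contra hu0
        obtain ⟨y, hy, hne⟩ := (hD.nondegenerate 0 u hu hu0).2
        refine hne ?_
        have h1 : QuadraticMap.polar Q' (u + w) y = 0 := horth1 _ hv y hy
        rwa [QuadraticMap.polar_add_left, QuadraticMap.polar_comm Q' w y, horth y hy w hw,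
          add_zero] at h1
      rwa [hu0, zero_add]
    have hW' : D 1 = W' := Submodule.eq_of_le_of_finrank_eq hle (by omega)
    subst hW'
    have hinj : Function.Injective φ := by
      rw [← LinearMap.ker_eq_bot]
      refine LinearMap.ker_eq_bot'.2 fun b hb => Subtype.ext (hnd b b.2 fun y hy => ?_)
      have := h (b + ⟨y, hy⟩)
      rw [map_add, hb, zero_add, h ⟨y, hy⟩, Submodule.coe_add, QuadraticMap.map_add ⇑Q',
        ← h b, hb, map_zero, zero_add] at this
      linear_combination -this
    let ψ : (D 1) →ₗ[F] (D 0) := φ.codRestrict (D 0) hφA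
    have hψ : Function.Injective ψ := fun a b hab => hinj (congrArg Subtype.val hab)
    let E := LinearEquiv.ofBijective ψ
      ⟨hψ, (LinearMap.injective_iff_surjective_of_finrank_eq_finrank (by omega)).1 hψ⟩
    refine hni ⟨E.symm, fun w => ?_⟩
    have e : φ (E.symm w) = (w : Fin n → F) := congrArg Subtype.val (E.apply_symm_apply w)
    rw [← e]
    exact (h (E.symm w)).symm
  · intro _ U hd _ hU
    rcases hU with rfl | ⟨-, hU⟩
    · omega
    · simp at hU; omega

end Cfsg.Agent.S5699
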