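import Cfsg.Statements.S5700
import Cfsg.Agent.Lib.Forms.OrthUnitaryField

set_option autoImplicit false
open Cfsg

namespace Cfsg.Agent.S5700
open Cfsg Matrix

/-- Let F be a finite field with q elements, n ≥ 13 even, Q a non-degenerate quadratic form on F^n (of either type), and Ω the commutator subgroup of the isometry group of Q, viewed inside GL_n(F). Let K be a subfield of the algebra of n × n matrices over F containing the scalars, of degree 2 over F, closed under adjoints for the polar form of Q but not consisting of self-adjoint elements, and such that every k in K rescales Q (Q(k v) = c Q(v) for a constant c depending on k). Then the elements of Ω normalising K form a maximal subgroup of Ω. -/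
theorem result {F : Type*} [Field F] [Fintype F] {n : ℕ} (hn : 13 ≤ n) (heven : Even n) (Q : (Fin n → F) → F) (hQ : Cfsg.Geo.IsNondegenerateQuadraticForm Q) (K : Subalgebra F (Matrix (Fin n) (Fin n) F)) (hK : Cfsg.Geo.IsFieldSubalgebra 2 K) (hac : Cfsg.Geo.IsAdjointClosedFor (QuadraticMap.polar Q) K) (hnsa : ¬ Cfsg.Geo.IsSelfAdjointFor (QuadraticMap.polar Q) K) (hsc : ∀ k ∈ K, ∃ c : F, ∀ v : (Fin n → F), Q (Matrix.mulVec k v) = c * Q v) : Cfsg.Geo.IsMaximalIn (Cfsg.Geo.omegaGL Q) (Cfsg.Geo.subalgebraNormalizer K ⊓ Cfsg.Geo.omegaGL Q) := by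
  classical
  set q : QuadraticForm F (Fin n → F) := Agent.Lib.Forms.quadOf hQ with hq
  have hQq : Q = ⇑q := rfl
  have hnd : Agent.Lib.Classical.QuadOmega.Nd q := Agent.Lib.Forms.quadOf_nd hQ
  -- a generator
  obtain ⟨J, hJK, hJ⟩ : ∃ J ∈ K, ∀ a b : F, a • (1 : Matrix (Fin n) (Fin n) F) + b • J = 0 →
      a = 0 ∧ b = 0 := by
    by_contra hcon
    push Not at hcon
    have h1 : Subalgebra.toSubmodule K ≤
        Submodule.span F {(1 : Matrix (Fin n) (Fin n) F)} := by
      intro k hk
      obtain ⟨a, b, e, hne⟩ := hcon k hk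
      have hb : b ≠ 0 := by
        intro hb
        rw [hb, zero_smul, add_zero] at e
        refine hne ?_ hb
        rcases smul_eq_zero.1 e with h | h
        · exact h
        · exact absurd (congrFun (congrFun h ⟨0, by omega⟩) ⟨0, by omega⟩) (by simp)
      refine Submodule.mem_span_singleton.2 ⟨-a / b, ?_⟩
      calc (-a / b) • (1 : Matrix (Fin n) (Fin n) F) = b⁻¹ • ((-a) • 1) := by
            rw [smul_smul, div_eq_inv_mul]
        _ = b⁻¹ • (b • k) := by rw [eq_neg_of_add_eq_zero_right e, neg_smul]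
        _ = k := by rw [smul_smul, inv_mul_cancel₀ hb, one_smul]
    have h2 := Submodule.finrank_mono h1
    have h3 := finrank_range_le_card (R := F) (fun _ : Fin 1 => (1 : Matrix (Fin n) (Fin n) F))
    rw [Subalgebra.finrank_toSubmodule, hK.finrank_eq] at h2
    rw [Set.range_const, Set.finrank, Fintype.card_fin] at h3
    omega
  have hspan : ∀ k ∈ K, ∃ a b : F, k = a • (1 : Matrix (Fin n) (Fin n) F) + b • J := by
    intro k hk
    set P := Submodule.span F (Set.range ![(1 : Matrix (Fin n) (Fin n) F), J]) with hP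
    have hli : LinearIndependent F ![(1 : Matrix (Fin n) (Fin n) F), J] :=
      LinearIndependent.pair_iff.2 hJ
    have hle : P ≤ Subalgebra.toSubmodule K := Submodule.span_le.2 (by
      rintro _ ⟨i, rfl⟩; fin_cases i <;> simp [hJK, K.one_mem])
    have e : P = Subalgebra.toSubmodule K := Submodule.eq_of_le_of_finrank_le hle (by
      rw [Subalgebra.finrank_toSubmodule, hK.finrank_eq, hP, finrank_span_eq_card hli,
        Fintype.card_fin])
    have hk' : k ∈ P := by rw [e]; exact hk
    obtain ⟨c, hc⟩ := (Submodule.mem_span_range_iff_exists_fun F).1 hk'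
    exact ⟨c 0, c 1, by rw [← hc, Fin.sum_univ_two]; simp⟩
  obtain ⟨m, t, hJJ⟩ := hspan _ (K.mul_mem hJK hJK)
  have sq : ∀ v : Fin n → F, J *ᵥ (J *ᵥ v) = t • (J *ᵥ v) - (-m) • v := fun v => by
    rw [Matrix.mulVec_mulVec, hJJ, Matrix.add_mulVec, Matrix.smul_mulVec, Matrix.smul_mulVec,
      Matrix.one_mulVec]
    module
  have irr : ∀ a b : F, a * a + t * a * b + -m * b * b = 0 → a = 0 ∧ b = 0 := by
    intro a b hab
    set x := a • (1 : Matrix (Fin n) (Fin n) F) + b • J with hx
    set y := (a + b * t) • (1 : Matrix (Fin n) (Fin n) F) + (-b) • J with hy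
    have hxy : x * y = 0 := by
      rw [hx, hy]
      simp only [add_mul, mul_add, Matrix.smul_mul, Matrix.mul_smul, one_mul, mul_one, hJJ]
      linear_combination (norm := module)
        (congrArg (fun z : F => z • (1 : Matrix (Fin n) (Fin n) F)) hab)
    by_cases hx0 : x = 0
    · exact hJ a b hx0
    · obtain ⟨w, -, hw⟩ := hK.inv x (K.add_mem (K.smul_mem K.one_mem a) (K.smul_mem hJK b)) hx0
      have hwx : w * x = 1 := mul_eq_one_comm.1 hw
      have hy0 : y = 0 := by rw [← one_mul y, ← hwx, mul_assoc, hxy, mul_zero]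
      obtain ⟨h1, h2⟩ := hJ _ _ hy0
      rw [neg_eq_zero] at h2
      rw [h2, zero_mul, add_zero] at h1
      exact ⟨h1, h2⟩
  -- the adjoint of the generator
  have pl_add : ∀ u v w, QuadraticMap.polar Q (u + v) w =
      QuadraticMap.polar Q u w + QuadraticMap.polar Q v w := hQ.polar_bilinear.add_left
  have pl_sm : ∀ (c : F) u w, QuadraticMap.polar Q (c • u) w = c * QuadraticMap.polar Q u w :=
    hQ.polar_bilinear.smul_left
  obtain ⟨J', hJ'K, hJ'⟩ := hac J hJK
  have ext' : ∀ {A B : Matrix (Fin n) (Fin n) F},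
      (∀ u v, QuadraticMap.polar Q u (A *ᵥ v) = QuadraticMap.polar Q u (B *ᵥ v)) → A = B := by
    intro A B h
    refine Matrix.ext_of_mulVec_single fun i => sub_eq_zero.1 (hnd _ fun u => ?_)
    rw [← hQq, QuadraticMap.polar_comm, hQq, QuadraticMap.polar_sub_right, ← hQq, h, sub_self]
  have hsq' : J' * J' = m • (1 : Matrix (Fin n) (Fin n) F) + t • J' := ext' fun u v => by
    rw [← Matrix.mulVec_mulVec, ← hJ', ← hJ', Matrix.mulVec_mulVec, hJJ, Matrix.add_mulVec,
      Matrix.smul_mulVec, Matrix.smul_mulVec, Matrix.one_mulVec, Matrix.add_mulVec,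
      Matrix.smul_mulVec, Matrix.smul_mulVec, Matrix.one_mulVec, pl_add, pl_sm, pl_sm, hJ', hQq,
      QuadraticMap.polar_add_right, QuadraticMap.polar_smul_right, QuadraticMap.polar_smul_right,
      smul_eq_mul, smul_eq_mul]
  have hJ't : J' = t • (1 : Matrix (Fin n) (Fin n) F) - J := by
    by_cases hx0 : J' - J = 0
    · refine absurd (fun k hk => ?_) hnsa
      obtain ⟨a, b, rfl⟩ := hspan k hk
      intro u v
      rw [Matrix.add_mulVec, Matrix.smul_mulVec, Matrix.smul_mulVec, Matrix.one_mulVec,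
        Matrix.add_mulVec, Matrix.smul_mulVec, Matrix.smul_mulVec, Matrix.one_mulVec, pl_add,
        pl_sm, pl_sm, hJ', sub_eq_zero.1 hx0, hQq, QuadraticMap.polar_add_right,
        QuadraticMap.polar_smul_right, QuadraticMap.polar_smul_right, smul_eq_mul, smul_eq_mul]
    · obtain ⟨w, -, hw⟩ := hK.inv _ (K.sub_mem hJ'K hJK) hx0
      have hwx : w * (J' - J) = 1 := mul_eq_one_comm.1 hw
      have h0 : (J' - J) * (J' + J - t • 1) = 0 := by
        simp only [sub_mul, mul_sub, mul_add, hsq', hJJ, hK.comm J hJK J' hJ'K, Matrix.mul_smul,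
          mul_one]
        module
      have : J' + J - t • (1 : Matrix (Fin n) (Fin n) F) = 0 := by
        have e := congrArg (w * ·) h0
        simpa [← mul_assoc, hwx] using e
      linear_combination (norm := module) this
  have adj : ∀ u v, QuadraticMap.polar q (J *ᵥ u) v + QuadraticMap.polar q u (J *ᵥ v) =
      t * QuadraticMap.polar q u v := fun u v => by
    rw [← hQq, hJ', hJ't, Matrix.sub_mulVec, Matrix.smul_mulVec, Matrix.one_mulVec, hQq,
      QuadraticMap.polar_sub_right, QuadraticMap.polar_smul_right, smul_eq_mul]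
    ring
  have JJ : ∀ u v, QuadraticMap.polar q (J *ᵥ u) (J *ᵥ v) = -m * QuadraticMap.polar q u v := by
    intro u v
    have h := adj u (J *ᵥ v)
    rw [sq, QuadraticMap.polar_sub_right, QuadraticMap.polar_smul_right,
      QuadraticMap.polar_smul_right, smul_eq_mul, smul_eq_mul] at h
    linear_combination h
  obtain ⟨x₀, y₀, hxy⟩ : ∃ x y, QuadraticMap.polar q x y ≠ 0 := by
    by_contra h
    push Not at h
    exact (by intro e; simpa using congrFun e ⟨0, by omega⟩ :
      (Pi.single ⟨0, by omega⟩ 1 : Fin n → F) ≠ 0) (hnd _ (h _))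
  have scal : ∀ k ∈ K, ∀ c : F, (∀ v, Q (k *ᵥ v) = c * Q v) → ∀ u v,
      QuadraticMap.polar q (k *ᵥ u) (k *ᵥ v) = c * QuadraticMap.polar q u v := by
    intro k hk c hc u v
    rw [← hQq]
    simp only [QuadraticMap.polar, ← Matrix.mulVec_add, hc]
    ring
  have qJ : ∀ v, q (J *ᵥ v) = -m * q v := by
    obtain ⟨c, hc⟩ := hsc J hJK
    have e := scal J hJK c hc x₀ y₀
    rw [JJ] at e
    rw [mul_right_cancel₀ hxy e]
    exact hc
  have self : ∀ v, QuadraticMap.polar q v (J *ᵥ v) = t * q v := by
    obtain ⟨c, hc⟩ := hsc (J + 1) (K.add_mem hJK K.one_mem)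
    have e := scal (J + 1) (K.add_mem hJK K.one_mem) c hc x₀ y₀
    simp only [Matrix.add_mulVec, Matrix.one_mulVec, QuadraticMap.polar_add_left,
      QuadraticMap.polar_add_right, JJ] at e
    have ec : c = -m + t + 1 := mul_right_cancel₀ hxy (by linear_combination -e + adj x₀ y₀)
    intro v
    have h := hc v
    rw [hQq, Matrix.add_mulVec, Matrix.one_mulVec, QuadraticMap.map_add ⇑q, qJ, ec,
      QuadraticMap.polar_comm q (J *ᵥ v) v] at h
    linear_combination h
  let S : Agent.Lib.Forms.UField q :=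
    ⟨Matrix.toLin' J, t, -m, fun v => by simpa using sq v, irr,
      fun u v => by simpa using adj u v, fun v => by simpa using qJ v,
      fun v => by simpa using self v⟩
  rw [hQq]
  refine S.maximal hnd (by simpa using hn) inf_le_right fun g hg => ?_
  have conj : ∀ a b : F, (∀ v : Fin n → F, (g : Matrix (Fin n) (Fin n) F) *ᵥ (J *ᵥ v) =
      a • ((g : Matrix (Fin n) (Fin n) F) *ᵥ v) +
        b • (J *ᵥ ((g : Matrix (Fin n) (Fin n) F) *ᵥ v))) ↔
      (g : Matrix (Fin n) (Fin n) F) * J * ((g⁻¹ : GL (Fin n) F) : Matrix (Fin n) (Fin n) F) =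
        a • 1 + b • J := by
    intro a b
    constructor
    · intro h
      refine Matrix.ext_of_mulVec_single fun i => ?_
      rw [← Matrix.mulVec_mulVec, ← Matrix.mulVec_mulVec, h, Matrix.mulVec_mulVec,
        Units.mul_inv, Matrix.one_mulVec, Matrix.add_mulVec, Matrix.smul_mulVec,
        Matrix.smul_mulVec, Matrix.one_mulVec]
    · intro h v
      have := congrArg (fun A => A *ᵥ ((g : Matrix (Fin n) (Fin n) F) *ᵥ v)) h
      simpa [Matrix.mulVec_mulVec, mul_assoc, Matrix.add_mulVec, Matrix.smul_mulVec, add_mul] using this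
  rw [Subgroup.mem_inf, and_iff_left hg]
  simp only [S, Matrix.toLin'_apply, conj]
  constructor
  · intro h
    exact hspan _ ((h J).1 hJK)
  · rintro ⟨a, b, h⟩ k
    have into : ∀ k ∈ K, (g : Matrix (Fin n) (Fin n) F) * k *
        ((g⁻¹ : GL (Fin n) F) : Matrix (Fin n) (Fin n) F) ∈ K := by
      intro k hk
      obtain ⟨x, y, rfl⟩ := hspan k hk
      rw [mul_add, Matrix.mul_smul, Matrix.mul_smul, add_mul, Matrix.smul_mul, Matrix.smul_mul,
        h, mul_one, Units.mul_inv]
      exact K.add_mem (K.smul_mem K.one_mem _)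
        (K.smul_mem (K.add_mem (K.smul_mem K.one_mem _) (K.smul_mem hJK _)) _)
    refine ⟨into k, fun hk => ?_⟩
    let f : Subalgebra.toSubmodule K →ₗ[F] Subalgebra.toSubmodule K :=
      { toFun := fun z => ⟨_, into z.1 z.2⟩
        map_add' := fun z z' => Subtype.ext (by simp [mul_add, add_mul])
        map_smul' := fun c z => Subtype.ext (by simp) }
    obtain ⟨⟨z, hz⟩, e⟩ := (f.injective_iff_surjective.1 fun z z' e => Subtype.ext
      ((Units.mul_right_inj g).1 ((Units.mul_left_inj g⁻¹).1 (congrArg Subtype.val e)))) ⟨_, hk⟩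
    have e' : z = k := (Units.mul_right_inj g).1 ((Units.mul_left_inj g⁻¹).1 (congrArg Subtype.val e))
    exact e' ▸ hz

end Cfsg.Agent.S5700
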