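import Cfsg.Statements.S5701
import Cfsg.Agent.Lib.Forms.OrExtMax
-- import your own Cfsg.Agent.* helpers here

set_option autoImplicit false
open Cfsg

namespace Cfsg.Agent.S5701

/-- Let F be a finite field with q elements, n ≥ 13 even, Q a non-degenerate quadratic form on F^n (of either type), and Ω the commutator subgroup of the isometry group of Q, viewed inside GL_n(F). Suppose q is odd. Let K be a subfield of the algebra of n × n matrices over F containing the scalars, of prime degree r over F with n/r ≥ 3, whose elements are self-adjoint for the polar form of Q. Then the elements of Ω normalising K form a maximal subgroup of Ω. -/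
theorem result {F : Type*} [Field F] [Fintype F] {n : ℕ} (hn : 13 ≤ n) (heven : Even n) (Q : (Fin n → F) → F) (hQ : Cfsg.Geo.IsNondegenerateQuadraticForm Q) (hodd : Odd (Fintype.card F)) (r : ℕ) (hr : r.Prime) (hnr : 3 * r ≤ n) (K : Subalgebra F (Matrix (Fin n) (Fin n) F)) (hK : Cfsg.Geo.IsFieldSubalgebra r K) (hsa : Cfsg.Geo.IsSelfAdjointFor (QuadraticMap.polar Q) K) : Cfsg.Geo.IsMaximalIn (Cfsg.Geo.omegaGL Q) (Cfsg.Geo.subalgebraNormalizer K ⊓ Cfsg.Geo.omegaGL Q) := by
  classical
  haveI : Nonempty (Fin n) := ⟨⟨0, by omega⟩⟩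
  have hfield := Cfsg.Agent.Lib.Forms.isField_fieldSubalg hK
  letI : Field K := hfield.toField
  obtain ⟨w, hmul⟩ := Cfsg.Agent.Lib.Forms.exists_card_eq_mul (L := K) K.val
  rw [Fintype.card_fin, show Module.finrank F K = r from hK.finrank_eq] at hmul
  have h4 : 4 * r ≤ n := by
    rcases hr.eq_two_or_odd' with h | h
    · omega
    · have hev : Even w := by
        rw [hmul, Nat.even_mul] at heven
        exact heven.resolve_left (Nat.not_even_iff_odd.2 h)
      obtain ⟨j, hj⟩ := hev
      rw [hj] at hmul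
      have : 2 ≤ j := by
        by_contra hlt
        have : r * (j + j) ≤ r * 2 := Nat.mul_le_mul_left _ (by omega)
        have := hr.two_le
        omega
      have : r * 4 ≤ r * (j + j) := Nat.mul_le_mul_left _ (by omega)
      omega
  obtain ⟨h2, hmax⟩ := Cfsg.Agent.Lib.Forms.orExtField_maximal
    (Q := Cfsg.Agent.Lib.Forms.quadOf hQ) K.val hK.finrank_eq hr
    (Cfsg.Agent.Lib.Forms.quadOf_nd hQ)
    (Cfsg.Agent.Lib.Classical.QuadOmega.two_ne_zero_of_odd hodd)
    (fun k x y => hsa k k.2 x y) (by simpa using hn) (by simpa using h4)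
  refine hmax _ inf_le_right fun g hg => ?_
  have e := Cfsg.Agent.Lib.Forms.normalizer_iff_lines (K := K)
    (fun a => let ⟨b, hb⟩ := h2 a; ⟨b, fun k hk => hb ⟨k, hk⟩⟩) hfield g
  constructor
  · intro h a k
    obtain ⟨l, hl, he⟩ := e.1 h.1 a k k.2
    exact ⟨⟨l, hl⟩, he⟩
  · intro h
    exact ⟨e.2 fun a k hk => let ⟨l, hl⟩ := h a ⟨k, hk⟩; ⟨l, l.2, hl⟩, hg⟩

end Cfsg.Agent.S5701
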