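import Cfsg.Statements.S5704
import Cfsg.Agent.Lib.Forms.TensorOrthMax
import Cfsg.Agent.Lib.Forms.TensorFrameData

set_option autoImplicit false
open Cfsg

namespace Cfsg.Agent.S5704

/-- Let F be a finite field with q elements, n ≥ 13 even, Q a non-degenerate quadratic form on F^n of plus type (some subspace of dimension n/2 is totally singular), and Ω the commutator subgroup of the isometry group of Q, viewed inside GL_n(F). Suppose that, through a change of basis P and a bijection of index sets e, the polar form of Q is similar to the tensor product of non-degenerate symplectic forms f₁ on F^(n₁) and f₂ on F^(n₂) with n₁ < n₂, and Q vanishes on the images of all pure tensors. Unless q = 2 and n₁ = 2, the elements of Ω in the stabiliser of this tensor decomposition form a maximal subgroup of Ω. -/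
theorem result {F : Type*} [Field F] [Fintype F] {n : ℕ} (hn : 13 ≤ n) (heven : Even n) (Q : (Fin n → F) → F) (hQ : Cfsg.Geo.IsNondegenerateQuadraticForm Q) (hplus : Cfsg.Geo.IsPlusTypeOn Q ⊤) (n₁ n₂ : ℕ) (h12 : n₁ < n₂) (hex : ¬ (Fintype.card F = 2 ∧ n₁ = 2)) (e : (Fin n) ≃ Fin n₁ × Fin n₂) (P : Matrix.GeneralLinearGroup (Fin n) F) (f₁ : (Fin n₁ → F) → (Fin n₁ → F) → F) (f₂ : (Fin n₂ → F) → (Fin n₂ → F) → F) (hf₁ : Cfsg.Geo.IsSymplecticForm f₁) (hf₂ : Cfsg.Geo.IsSymplecticForm f₂) (hT : Cfsg.Geo.IsTensorFormStructure id (QuadraticMap.polar Q) f₁ f₂ e P) (hpure : (∀ (x₁ : Fin n₁ → F) (x₂ : Fin n₂ → F), Q (Matrix.mulVec (P : Matrix (Fin n) (Fin n) F) ((fun a : Fin n₁ × Fin n₂ => x₁ a.1 * x₂ a.2) ∘ e)) = 0)) : Cfsg.Geo.IsMaximalIn (Cfsg.Geo.omegaGL Q) (Cfsg.Geo.tensorProductSubgroup n₁ n₂ e P ⊓ Cfsg.Geo.omegaGL Q) := by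
  classical
  obtain ⟨c, hc, hpair⟩ := hT
  let L : (Fin n₁ × Fin n₂ → F) →ₗ[F] (Fin n → F) :=
    { toFun := fun X => (P : Matrix (Fin n) (Fin n) F).mulVec (X ∘ e)
      map_add' := fun X Y => by
        rw [show (X + Y) ∘ e = X ∘ e + Y ∘ e from rfl, Matrix.mulVec_add]
      map_smul' := fun a X => by
        rw [show (a • X) ∘ e = a • (X ∘ e) from rfl, Matrix.mulVec_smul, RingHom.id_apply] }
  have hL : ∀ X, L X = (P : Matrix (Fin n) (Fin n) F).mulVec (X ∘ e) := fun X => rfl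
  have hLsurj : Function.Surjective L := fun w =>
    ⟨((P⁻¹ : Matrix.GeneralLinearGroup (Fin n) F) : Matrix (Fin n) (Fin n) F).mulVec w ∘ e.symm, by
      rw [hL, Function.comp_assoc, Equiv.symm_comp_self, Function.comp_id, Matrix.mulVec_mulVec,
        ← Units.val_mul, mul_inv_cancel, Units.val_one, Matrix.one_mulVec]⟩
  have hLinj : ∀ X, L X = 0 → X = 0 := fun X h => by
    have h' : X ∘ e = 0 := Cfsg.Agent.Lib.Forms.gl_mulVec_injective P (h.trans (Matrix.mulVec_zero _).symm)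
    funext q
    simpa using congrFun h' (e.symm q)
  let Q' : QuadraticForm F (Fin n₁ × Fin n₂ → F) := (Cfsg.Agent.Lib.Forms.quadOf hQ).comp L
  have hQ' : ∀ X, Q' X = Q (L X) := fun X => rfl
  have hpol : ∀ X Y, QuadraticMap.polar Q' X Y = QuadraticMap.polar Q (L X) (L Y) := fun X Y => by
    simp only [QuadraticMap.polar, hQ', map_add]
  have mkB : ∀ {r : ℕ} {f : (Fin r → F) → (Fin r → F) → F}, Cfsg.Geo.IsSymplecticForm f →
      ∃ B : LinearMap.BilinForm F (Fin r → F), B.IsAlt ∧ B.Nondegenerate ∧ ∀ x y, B x y = f x y := by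
    intro r f hf
    refine ⟨LinearMap.mk₂ F f hf.bilinear.add_left (fun a x y => by rw [hf.bilinear.smul_left, smul_eq_mul])
      (fun x y z => hf.bilinear.add_right x y z) (fun a x y => by rw [hf.bilinear.smul_right, smul_eq_mul]),
      fun x => hf.alternating x, ⟨fun x hx => ?_, fun y hy => ?_⟩, fun x y => rfl⟩
    · by_contra h
      obtain ⟨-, w, hw⟩ := hf.nondegenerate x h
      exact hw (hx w)
    · by_contra h
      obtain ⟨⟨w, hw⟩, -⟩ := hf.nondegenerate y h
      exact hw (hy w)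
  obtain ⟨B₁, hB₁A, hB₁N, hB₁⟩ := mkB hf₁
  obtain ⟨B₂, hB₂A, hB₂N, hB₂⟩ := mkB hf₂
  have mkS : ∀ {r : ℕ} {f : (Fin r → F) → (Fin r → F) → F}, Cfsg.Geo.IsSymplecticForm f →
      Cfsg.Agent.Lib.Forms.Sesq (RingHom.id F) f := fun hf =>
    ⟨hf.bilinear.add_left, hf.bilinear.smul_left, fun v x y => hf.bilinear.add_right v x y,
      fun a v x => hf.bilinear.smul_right a v x⟩
  have pairQ : ∀ v z w y, QuadraticMap.polar Q' (Cfsg.Agent.Lib.Forms.TProd.vt v z)
      (Cfsg.Agent.Lib.Forms.TProd.vt w y) = c * B₁ v w * B₂ z y := fun v z w y => by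
    have k := Cfsg.Agent.Lib.Forms.formOfGram_kron (RingHom.id F) (Cfsg.Geo.gramMatrix f₁)
      (Cfsg.Geo.gramMatrix f₂) v w z y
    rw [(mkS hf₁).formOfGram_eq, (mkS hf₂).formOfGram_eq] at k
    have e0 := hpair (fun p => v p.1 * z p.2) (fun p => w p.1 * y p.2)
    rw [show (id : F → F) = ((RingHom.id F : F →+* F) : F → F) from rfl, k, ← mul_assoc] at e0
    rw [hpol, hB₁, hB₂]
    exact e0
  let T : Cfsg.Agent.Lib.Forms.TProd.OT F n₁ n₂ :=
    { Q := Q', f := B₁, g := B₂, c₀ := c, hfA := hB₁A, hgA := hB₂A, hfN := hB₁N, hgN := hB₂N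
      c₀_ne := hc
      hQ := fun X hX => hLinj X (Cfsg.Agent.Lib.Forms.quadOf_nd hQ (L X) fun y => by
        obtain ⟨Y, rfl⟩ := hLsurj y
        exact (hpol X Y).symm.trans (hX Y))
      pure := fun v z => hpure v z
      pair := pairQ }
  have hn12 : n₁ * n₂ = n := by
    have := Fintype.card_congr e
    simp only [Fintype.card_fin, Fintype.card_prod] at this
    omega
  have h1 : 2 ≤ n₁ := by
    by_contra h
    rcases Nat.lt_or_ge n₁ 1 with h0 | h0
    · rw [show n₁ = 0 by omega, zero_mul] at hn12; omega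
    · exact T.m_ne_one (by omega)
  have heven₁ : Even n₁ := by
    simpa using Cfsg.Agent.Lib.Forms.even_of_alt hB₁A hB₁N
  let f := (Cfsg.Geo.glReindex (F := F) e.symm).trans (MulAut.conj P)
  have hf : ∀ g, f g = P * Cfsg.Geo.glReindex e.symm g * P⁻¹ := fun g => rfl
  have hact : ∀ g X, (f g : Matrix (Fin n) (Fin n) F).mulVec (L X) =
      L ((g : Matrix (Fin n₁ × Fin n₂) (Fin n₁ × Fin n₂) F).mulVec X) := by
    intro g X
    rw [hL, hL, hf, Matrix.mulVec_mulVec, ← Units.val_mul, inv_mul_cancel_right, Units.val_mul,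
      ← Matrix.mulVec_mulVec]
    congr 1
    have e1 : ((Cfsg.Geo.glReindex (F := F) e.symm g : Matrix.GeneralLinearGroup (Fin n) F) :
        Matrix (Fin n) (Fin n) F) =
        (g : Matrix (Fin n₁ × Fin n₂) (Fin n₁ × Fin n₂) F).submatrix e e := by
      show Matrix.reindexAlgEquiv F F e.symm (g : Matrix (Fin n₁ × Fin n₂) (Fin n₁ × Fin n₂) F) = _
      rw [Matrix.reindexAlgEquiv_apply, Matrix.reindex_apply]
      simp
    rw [e1, Matrix.submatrix_mulVec_equiv, Function.comp_assoc, Equiv.self_comp_symm,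
      Function.comp_id]
  have hiso : (Cfsg.isometryGroup F ⇑Q').map f.toMonoidHom = Cfsg.isometryGroup F Q := by
    ext x
    obtain ⟨g, rfl⟩ := f.surjective x
    rw [show f g = f.toMonoidHom g from rfl, Subgroup.mem_map_iff_mem f.injective]
    show g ∈ _ ↔ f g ∈ _
    constructor
    · intro hg a b
      obtain ⟨A, rfl⟩ := hLsurj a
      show Q ((f g : Matrix (Fin n) (Fin n) F).mulVec (L A)) = Q (L A)
      rw [hact]
      exact hg A A
    · intro hg A B
      have := hg (L A) (L A)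
      change Q ((f g : Matrix (Fin n) (Fin n) F).mulVec (L A)) = Q (L A) at this
      rw [hact] at this
      exact this
  have hom : (Cfsg.Geo.omegaGL ⇑Q').map f.toMonoidHom = Cfsg.Geo.omegaGL Q := by
    rw [Cfsg.Agent.Lib.Forms.omegaGL_eq, Cfsg.Agent.Lib.Forms.omegaGL_eq, Subgroup.map_commutator,
      hiso]
  refine Cfsg.Agent.Lib.Forms.isMaximalIn_map f
    (T.grp_isMaximal h1 h12 (by omega) heven₁ hex) hom ?_
  show (Cfsg.Geo.kroneckerSubgroup n₁ n₂ F ⊓ Cfsg.Geo.omegaGL ⇑Q').map f.toMonoidHom = _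
  rw [Subgroup.map_inf _ _ _ f.injective, hom, Cfsg.Geo.tensorProductSubgroup, Subgroup.map_map]
  rfl

end Cfsg.Agent.S5704
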