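import Cfsg.Statements.S5705
import Cfsg.Agent.Lib.Forms.TensorFrameData

set_option autoImplicit false
open Cfsg Matrix
open scoped commutatorElement

namespace Cfsg.Agent.S5705

/-- Let F be the field with 2 elements, n = 2 n₂ ≥ 13 even, Q a non-degenerate quadratic form on F^n of plus type and Ω the commutator subgroup of its isometry group. Suppose that, through P and e, the polar form of Q is similar to the tensor product of non-degenerate symplectic forms f₁ on F^2 and f₂ on F^(n₂), and Q vanishes on the images of all pure tensors. Then the elements of Ω in the stabiliser of this tensor decomposition form a subgroup that is not maximal: some subgroup lies strictly between it and Ω. -/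
theorem result {F : Type*} [Field F] [Fintype F] {n : ℕ} (hn : 13 ≤ n) (heven : Even n) (Q : (Fin n → F) → F) (hQ : Cfsg.Geo.IsNondegenerateQuadraticForm Q) (hplus : Cfsg.Geo.IsPlusTypeOn Q ⊤) (hq : Fintype.card F = 2) (n₂ : ℕ) (h2 : 2 < n₂) (e : (Fin n) ≃ Fin 2 × Fin n₂) (P : Matrix.GeneralLinearGroup (Fin n) F) (f₁ : (Fin 2 → F) → (Fin 2 → F) → F) (f₂ : (Fin n₂ → F) → (Fin n₂ → F) → F) (hf₁ : Cfsg.Geo.IsSymplecticForm f₁) (hf₂ : Cfsg.Geo.IsSymplecticForm f₂) (hT : Cfsg.Geo.IsTensorFormStructure id (QuadraticMap.polar Q) f₁ f₂ e P) (hpure : (∀ (x₁ : Fin 2 → F) (x₂ : Fin n₂ → F), Q (Matrix.mulVec (P : Matrix (Fin n) (Fin n) F) ((fun a : Fin 2 × Fin n₂ => x₁ a.1 * x₂ a.2) ∘ e)) = 0)) : ∃ K : Subgroup (Matrix.GeneralLinearGroup (Fin n) F), Cfsg.Geo.tensorProductSubgroup 2 n₂ e P ⊓ Cfsg.Geo.omegaGL Q < K ∧ K < Cfsg.Geo.omegaGL Q := by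
  classical
  have h01 : ∀ a : F, a = 0 ∨ a = 1 := fun a => by
    by_contra hcon
    push Not at hcon
    have := Finset.card_le_univ ({0, 1, a} : Finset F)
    rw [Finset.card_insert_of_notMem (by simp [hcon.1.symm]),
      Finset.card_insert_of_notMem (by simp [hcon.2.symm]), Finset.card_singleton, hq] at this
    omega
  haveI : CharP F 2 := charP_of_card_eq_prime_pow (f := 1) (p := 2) (by simpa using hq)
  have h2 : (2 : F) = 0 := CharP.cast_eq_zero F 2
  have hvv : ∀ v : Fin n₂ → F, v + v = 0 := fun v => by rw [← two_smul F, h2, zero_smul]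
  have hvv2 : ∀ v w : Fin n₂ → F, v + (v + w) = w := fun v w => by rw [← add_assoc, hvv, zero_add]
  set τ := Lib.Forms.tauMap e P with hτ
  obtain ⟨c, hc, hform⟩ := hT
  have S₁ : Lib.Forms.Sesq (RingHom.id F) f₁ :=
    ⟨hf₁.bilinear.add_left, hf₁.bilinear.smul_left, hf₁.bilinear.add_right, hf₁.bilinear.smul_right⟩
  have S₂ : Lib.Forms.Sesq (RingHom.id F) f₂ :=
    ⟨hf₂.bilinear.add_left, hf₂.bilinear.smul_left, hf₂.bilinear.add_right, hf₂.bilinear.smul_right⟩
  have hpair : ∀ p q v w, QuadraticMap.polar Q (τ p v) (τ q w) = c * (f₁ p q * f₂ v w) := fun p q v w => by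
    rw [hτ, Lib.Forms.tauMap_apply, Lib.Forms.tauMap_apply, hform]
    congr 1
    exact (Lib.Forms.formOfGram_kron (RingHom.id F) _ _ p q v w).trans
      (congrArg₂ (· * ·) (S₁.formOfGram_eq p q) (S₂.formOfGram_eq v w))
  set e₀ : Fin 2 → F := ![1, 0] with he₀
  set e₁ : Fin 2 → F := ![0, 1] with he₁
  have hf1 : f₁ e₀ e₁ = 1 := by
    rcases h01 (f₁ e₀ e₁) with h | h
    swap; · exact h
    exfalso
    obtain ⟨y, hy⟩ := (hf₁.nondegenerate e₀ (fun h0 => by simpa [he₀] using congrFun h0 0)).2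
    refine hy ?_
    have : y = y 0 • e₀ + y 1 • e₁ := by funext i; fin_cases i <;> simp [he₀, he₁]
    rw [this, hf₁.bilinear.add_right, hf₁.bilinear.smul_right, hf₁.bilinear.smul_right,
      hf₁.alternating, h, mul_zero, mul_zero, add_zero]
  have hc1 : c = 1 := (h01 c).resolve_left hc
  let Φ₀ : ((Fin n₂ → F) × (Fin n₂ → F)) →ₗ[F] (Fin n → F) :=
    (τ e₀).coprod (τ e₁)
  have hn2 : n = 2 * n₂ := by
    simpa using Fintype.card_congr e
  have hΦcomp : ∀ x, ((P⁻¹ : Matrix.GeneralLinearGroup (Fin n) F) : Matrix (Fin n) (Fin n) F) *ᵥ Φ₀ x =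
      (fun z : Fin 2 × Fin n₂ => ![x.1, x.2] z.1 z.2) ∘ e := fun x => by
    simp only [Φ₀, LinearMap.coprod_apply, hτ, Lib.Forms.tauMap_apply, mulVec_add, mulVec_mulVec,
      ← Units.val_mul, inv_mul_cancel, Units.val_one, one_mulVec]
    funext i
    simp only [Pi.add_apply, Function.comp_apply]
    generalize e i = z
    obtain ⟨a, b⟩ := z
    fin_cases a <;> simp [he₀, he₁]
  have hΦinj : Function.Injective Φ₀ := fun x y hxy => by
    have h := congrArg (fun w => ((P⁻¹ : Matrix.GeneralLinearGroup (Fin n) F) : Matrix (Fin n) (Fin n) F) *ᵥ w) hxy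
    simp only [hΦcomp] at h
    have h' := fun a b => congrFun h (e.symm (a, b))
    refine Prod.ext (funext fun b => ?_) (funext fun b => ?_)
    · simpa using h' 0 b
    · simpa using h' 1 b
  let Φ : ((Fin n₂ → F) × (Fin n₂ → F)) ≃ₗ[F] (Fin n → F) :=
    LinearEquiv.ofBijective Φ₀ ⟨hΦinj, (LinearMap.injective_iff_surjective_of_finrank_eq_finrank
      (by simp [hn2, two_mul])).1 hΦinj⟩
  have hΦ : ∀ a b, Φ (a, b) = τ e₀ a + τ e₁ b := fun a b => rfl
  have hQΦ : ∀ a b, Q (Φ (a, b)) = f₂ a b := fun a b => by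
    have hp : ∀ p v, Q (τ p v) = 0 := fun p v => hpure p v
    have h := hpair e₀ e₁ a b
    rw [QuadraticMap.polar, hp, hp, sub_zero, sub_zero, hc1, hf1, one_mul, one_mul] at h
    rw [hΦ, h]
  let hom : ((((Fin n₂ → F) × (Fin n₂ → F))) ≃ₗ[F] ((Fin n₂ → F) × (Fin n₂ → F))) →*
      Matrix.GeneralLinearGroup (Fin n) F := MonoidHom.toHomUnits
    { toFun := fun h => LinearMap.toMatrix' (Φ.toLinearMap ∘ₗ h.toLinearMap ∘ₗ Φ.symm.toLinearMap)
      map_one' := by
        refine Matrix.ext_iff_mulVec.2 fun x => ?_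
        simp [LinearMap.toMatrix'_mulVec]
      map_mul' := fun A B => by
        refine Matrix.ext_iff_mulVec.2 fun x => ?_
        simp [LinearMap.toMatrix'_mulVec, ← mulVec_mulVec] }
  have hhom : ∀ h x, (hom h : Matrix (Fin n) (Fin n) F) *ᵥ Φ x = Φ (h x) := fun h x => by
    simp [hom, LinearMap.toMatrix'_mulVec]
  have hiso : ∀ h, (∀ a b, f₂ (h (a, b)).1 (h (a, b)).2 = f₂ a b) →
      hom h ∈ Cfsg.isometryGroup F Q := fun h hh x _ => by
    obtain ⟨⟨a, b⟩, rfl⟩ := Φ.surjective x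
    show Q ((hom h : Matrix (Fin n) (Fin n) F) *ᵥ Φ (a, b)) = Q (Φ (a, b))
    rw [hhom, hQΦ a b, ← Prod.mk.eta (p := h (a, b)), hQΦ, hh]
  have hcomm : ∀ g h, (∀ a b, f₂ (g (a, b)).1 (g (a, b)).2 = f₂ a b) →
      (∀ a b, f₂ (h (a, b)).1 (h (a, b)).2 = f₂ a b) →
      hom (g * h * g⁻¹ * h⁻¹) ∈ Cfsg.Geo.omegaGL Q := fun g h hg hh => by
    refine ⟨⁅(⟨_, hiso g hg⟩ : ↥(Cfsg.isometryGroup F Q)), ⟨_, hiso h hh⟩⁆,
      Subgroup.commutator_mem_commutator (Subgroup.mem_top _) (Subgroup.mem_top _), ?_⟩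
    simp [commutatorElement_def, ← map_inv, ← map_mul]
  have hneg : ∀ x : F, -x = x := fun x => by linear_combination (-x) * h2
  have hsymm : ∀ x y, f₂ x y = f₂ y x := fun x y => by rw [hf₂.skew, hneg]
  -- the two elements attached to an orthogonal projection
  have helts : ∀ p : (Fin n₂ → F) →ₗ[F] (Fin n₂ → F), (∀ x, p (p x) = p x) →
      (∀ x y, f₂ (p x) y = f₂ x (p y)) →
      ∃ z : ((Fin n₂ → F) × (Fin n₂ → F)) ≃ₗ[F] ((Fin n₂ → F) × (Fin n₂ → F)),
        (∀ a b, z (a, b) = (a + p a + p b, b + p a)) ∧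
        (∀ a b, z⁻¹ (a, b) = (a + p b, b + p a + p b)) ∧ hom z ∈ Cfsg.Geo.omegaGL Q := by
    intro p hp hpa
    have hpp : ∀ x, p x + p x = 0 := fun x => hvv _
    have halt : ∀ x, f₂ x (p x) = 0 := fun x => by
      rw [← hp x, ← hpa, hf₂.alternating]
    let z : ((Fin n₂ → F) × (Fin n₂ → F)) ≃ₗ[F] ((Fin n₂ → F) × (Fin n₂ → F)) :=
      LinearEquiv.ofLinear
        ((LinearMap.fst F _ _ + p ∘ₗ LinearMap.fst F _ _ + p ∘ₗ LinearMap.snd F _ _).prod
          (LinearMap.snd F _ _ + p ∘ₗ LinearMap.fst F _ _))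
        ((LinearMap.fst F _ _ + p ∘ₗ LinearMap.snd F _ _).prod
          (LinearMap.snd F _ _ + p ∘ₗ LinearMap.fst F _ _ + p ∘ₗ LinearMap.snd F _ _))
        (LinearMap.ext fun ⟨a, b⟩ => Prod.ext
          (by simp [map_add, hp]; linear_combination (norm := module) hpp a + hpp b + hpp b)
          (by simp [map_add, hp]; linear_combination (norm := module) hpp a + hpp b))
        (LinearMap.ext fun ⟨a, b⟩ => Prod.ext
          (by simp [map_add, hp]; linear_combination (norm := module) hpp a + hpp b)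
          (by simp [map_add, hp]; linear_combination (norm := module) hpp a + hpp a + hpp b))
    let s : ((Fin n₂ → F) × (Fin n₂ → F)) →ₗ[F] ((Fin n₂ → F) × (Fin n₂ → F)) :=
      (LinearMap.fst F _ _ + p ∘ₗ LinearMap.fst F _ _ + p ∘ₗ LinearMap.snd F _ _).prod
          (LinearMap.snd F _ _ + p ∘ₗ LinearMap.fst F _ _ + p ∘ₗ LinearMap.snd F _ _)
    have hs : s ∘ₗ s = LinearMap.id := LinearMap.ext fun ⟨a, b⟩ => Prod.ext
      (by simp [s, map_add, hp]; linear_combination (norm := module) hpp a + hpp a + hpp b + hpp b)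
      (by simp [s, map_add, hp]; linear_combination (norm := module) hpp a + hpp a + hpp b + hpp b)
    let σ : ((Fin n₂ → F) × (Fin n₂ → F)) ≃ₗ[F] ((Fin n₂ → F) × (Fin n₂ → F)) :=
      LinearEquiv.ofLinear s s hs hs
    have hz : ∀ a b, z (a, b) = (a + p a + p b, b + p a) := fun a b => rfl
    have hz' : ∀ a b, z⁻¹ (a, b) = (a + p b, b + p a + p b) := fun a b => rfl
    have hσ : ∀ a b, σ (a, b) = (a + p a + p b, b + p a + p b) := fun a b => rfl
    refine ⟨z, hz, hz', ?_⟩
    have key : σ * z * σ⁻¹ * z⁻¹ = z := by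
      refine LinearEquiv.ext fun ⟨a, b⟩ => ?_
      have hσ' : ∀ a b, σ⁻¹ (a, b) = (a + p a + p b, b + p a + p b) := fun a b => rfl
      simp only [LinearEquiv.mul_apply, hz, hz', hσ, hσ']
      refine Prod.ext ?_ ?_
      · simp [map_add, hp, add_comm, add_left_comm, hvv, hvv2]
      · simp [map_add, hp, add_comm, add_left_comm, hvv, hvv2]
    rw [← key]
    refine hcomm σ z (fun a b => ?_) (fun a b => ?_)
    · rw [hσ]
      simp only [hf₂.bilinear.add_left, hf₂.bilinear.add_right, hpa, hp]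
      have e1 := halt a
      have e2 := halt b
      have e3 := hsymm b (p a)
      rw [hpa] at e3
      linear_combination (2 : F) * e1 + (2 : F) * e2 + (f₂ a (p b) + f₂ b (p a)) * h2 - e3
    · rw [hz]
      simp only [hf₂.bilinear.add_left, hf₂.bilinear.add_right, hpa, hp]
      have e1 := halt a
      have e2 := halt b
      have e3 := hsymm b (p a)
      rw [hpa] at e3
      linear_combination (2 : F) * e1 + e2 + e3 + (f₂ a (p b)) * h2
  obtain ⟨zz, hzz, hzz', hzzΩ⟩ := helts LinearMap.id (fun _ => rfl) (fun _ _ => rfl)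
  replace hzz : ∀ a b, zz (a, b) = (b, b + a) := fun a b => by
    rw [hzz]; simp [hvv]
  replace hzz' : ∀ a b, zz⁻¹ (a, b) = (a + b, a) := fun a b => by
    rw [hzz']; simp [add_right_comm b a b, hvv]
  set z := hom zz with hzdef
  let N : Subgroup (Matrix.GeneralLinearGroup (Fin n) F) :=
    Subgroup.normalizer (Subgroup.zpowers z : Set (Matrix.GeneralLinearGroup (Fin n) F))
  have hN : ∀ g : Matrix.GeneralLinearGroup (Fin n) F, g * z * g⁻¹ ∈ Subgroup.zpowers z → g ∈ N := by
    intro g hg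
    have hfin : Set.Finite (Subgroup.zpowers z : Set (Matrix.GeneralLinearGroup (Fin n) F)) :=
      Set.toFinite _
    have hmaps : Set.MapsTo (MulAut.conj g) (Subgroup.zpowers z : Set _) (Subgroup.zpowers z : Set _) := by
      rintro _ ⟨k, rfl⟩
      simp only [SetLike.mem_coe, map_zpow]
      exact Subgroup.zpow_mem _ hg k
    have hbij := hfin.injOn_iff_bijOn_of_mapsTo hmaps |>.1 (MulAut.conj g).injective.injOn
    intro h
    refine ⟨fun hh => hmaps hh, fun hh => ?_⟩
    obtain ⟨h', hh', he⟩ := hbij.surjOn hh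
    rwa [← (MulAut.conj g).injective he]
  have hzsq : zz * zz = zz⁻¹ := by
    refine LinearEquiv.ext fun ⟨a, b⟩ => ?_
    rw [LinearEquiv.mul_apply, hzz, hzz, hzz']
    exact Prod.ext (add_comm _ _) (by simp [← add_assoc, add_right_comm b a b, hvv])
  have hzmem : ∀ k ∈ Subgroup.zpowers z, k = 1 ∨ k = z ∨ k = z⁻¹ := by
    rintro _ ⟨k, rfl⟩
    have h3 : z ^ (3 : ℤ) = 1 := by
      rw [show (3 : ℤ) = ((3 : ℕ) : ℤ) from rfl, zpow_natCast, hzdef, ← map_pow, pow_succ, pow_two,
        hzsq, inv_mul_cancel, map_one]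
    have hk : (fun k => z ^ k) k = z ^ (k % 3) := by
      simp only
      conv_lhs => rw [show k = k % 3 + 3 * (k / 3) by omega, _root_.zpow_add, _root_.zpow_mul, h3, _root_.one_zpow, mul_one]
    rw [hk]
    rcases (show k % 3 = 0 ∨ k % 3 = 1 ∨ k % 3 = 2 by omega) with h | h | h <;> rw [h]
    · simp
    · simp
    · right; right
      rw [show (2 : ℤ) = ((2 : ℕ) : ℤ) from rfl, zpow_natCast, hzdef, ← map_pow, pow_two, hzsq, map_inv]
  obtain ⟨u, hu0⟩ : ∃ u : Fin n₂ → F, u ≠ 0 := ⟨Pi.single ⟨0, by omega⟩ 1, by simp⟩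
  obtain ⟨d, hd⟩ := (hf₂.nondegenerate u hu0).2
  replace hd : f₂ u d = 1 := (h01 _).resolve_left hd
  let p : (Fin n₂ → F) →ₗ[F] (Fin n₂ → F) :=
    { toFun := fun x => f₂ x d • u + f₂ x u • d
      map_add' := fun x y => by rw [hf₂.bilinear.add_left, hf₂.bilinear.add_left]; module
      map_smul' := fun k x => by
        rw [hf₂.bilinear.smul_left, hf₂.bilinear.smul_left, RingHom.id_apply]; module }
  have hpx : ∀ x, p x = f₂ x d • u + f₂ x u • d := fun x => rfl
  have hpu : p u = u := by rw [hpx, hd, hf₂.alternating]; simp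
  have hpd : p d = d := by rw [hpx, hsymm d u, hd, hf₂.alternating]; simp
  have hp : ∀ x, p (p x) = p x := fun x => by
    conv_lhs => rw [hpx x, map_add, map_smul, map_smul, hpu, hpd]
    rw [hpx]
  have hpa : ∀ x y, f₂ (p x) y = f₂ x (p y) := fun x y => by
    rw [hpx, hpx, hf₂.bilinear.add_left, hf₂.bilinear.smul_left, hf₂.bilinear.smul_left,
      hf₂.bilinear.add_right, hf₂.bilinear.smul_right, hf₂.bilinear.smul_right, hsymm u y, hsymm d y]
    ring
  obtain ⟨u', hu'0, hu'p⟩ : ∃ u', u' ≠ 0 ∧ p u' = 0 := by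
    by_contra hcon
    push Not at hcon
    have hinj : LinearMap.ker p = ⊥ := (Submodule.eq_bot_iff _).2 fun x hx => by_contra fun h => hcon x h hx
    have hle := LinearMap.finrank_range_of_inj (LinearMap.ker_eq_bot.1 hinj)
    have hsub : LinearMap.range p ≤ Submodule.span F (({u, d} : Finset (Fin n₂ → F)) : Set (Fin n₂ → F)) := by
      rintro _ ⟨x, rfl⟩
      rw [hpx]
      exact add_mem (Submodule.smul_mem _ _ (Submodule.subset_span (by simp)))
        (Submodule.smul_mem _ _ (Submodule.subset_span (by simp)))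
    have := (Submodule.finrank_mono hsub).trans (finrank_span_finset_le_card _)
    rw [hle, Module.finrank_fintype_fun_eq_card, Fintype.card_fin] at this
    have := this.trans Finset.card_le_two
    omega
  obtain ⟨zp, hzp, -, hzpΩ⟩ := helts p hp hpa
  refine ⟨N ⊓ Cfsg.Geo.omegaGL Q, lt_of_le_of_ne ?_ fun eq => ?_,
    lt_of_le_of_ne inf_le_right fun eq => ?_⟩
  · rintro g ⟨hg, hgΩ⟩
    refine ⟨hN g ?_, hgΩ⟩
    obtain ⟨A, B, hAB⟩ := Lib.Forms.tensor_acts e P hg
    let w : Matrix (Fin 2) (Fin 2) F := !![0, 1; 1, 1]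
    have hw : ∀ q v, (z : Matrix (Fin n) (Fin n) F) *ᵥ τ q v = τ (w *ᵥ q) v := by
      intro q v
      have hq' : q = q 0 • e₀ + q 1 • e₁ := by funext i; fin_cases i <;> simp [he₀, he₁]
      have hwq : w *ᵥ q = q 1 • e₀ + (q 0 + q 1) • e₁ := by
        funext i; fin_cases i <;> simp [w, he₀, he₁, Matrix.mulVec, dotProduct, Fin.sum_univ_two]
      have h1 : τ q v = Φ (q 0 • v, q 1 • v) := by
        conv_lhs => rw [hq']
        simp [hΦ]
      rw [h1, hzdef, hhom, hzz, hwq]
      simp [hΦ, add_smul, add_comm]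
    have hA : (A : Matrix (Fin 2) (Fin 2) F) * w = w * A ∨
        (A : Matrix (Fin 2) (Fin 2) F) * w = w * w * A := by
      have hdet : (A : Matrix (Fin 2) (Fin 2) F).det ≠ 0 :=
        ((Matrix.isUnit_iff_isUnit_det _).1 A.isUnit).ne_zero
      rw [Matrix.det_fin_two] at hdet
      have h11 : (1 : F) + 1 = 0 := by linear_combination h2
      rcases h01 ((A : Matrix (Fin 2) (Fin 2) F) 0 0) with a | a <;>
      rcases h01 ((A : Matrix (Fin 2) (Fin 2) F) 0 1) with b | b <;>
      rcases h01 ((A : Matrix (Fin 2) (Fin 2) F) 1 0) with c | c <;>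
      rcases h01 ((A : Matrix (Fin 2) (Fin 2) F) 1 1) with d | d <;>
      simp [a, b, c, d, w, ← Matrix.ext_iff, Fin.forall_fin_two, Matrix.mul_apply, Fin.sum_univ_two,
        Matrix.vecMul, dotProduct, h11] at hdet ⊢
    have hext : ∀ X Y : Matrix.GeneralLinearGroup (Fin n) F,
        (∀ q v, (X : Matrix (Fin n) (Fin n) F) *ᵥ τ q v = (Y : Matrix (Fin n) (Fin n) F) *ᵥ τ q v) →
        X = Y := fun X Y hXY => Units.ext (Matrix.ext_iff_mulVec.2 fun x => by
      obtain ⟨⟨a, b⟩, rfl⟩ := Φ.surjective x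
      rw [hΦ, mulVec_add, mulVec_add, hXY, hXY])
    replace hAB : ∀ q v, (g : Matrix (Fin n) (Fin n) F) *ᵥ τ q v =
        τ ((A : Matrix (Fin 2) (Fin 2) F) *ᵥ q) ((B : Matrix (Fin n₂) (Fin n₂) F) *ᵥ v) := hAB
    rcases hA with hA | hA
    · have : g * z = z * g := hext _ _ fun q v => by
        simp only [Units.val_mul, ← mulVec_mulVec]
        rw [hw, hAB, hAB, hw, mulVec_mulVec, hA, ← mulVec_mulVec]
      rw [this, mul_inv_cancel_right]
      exact Subgroup.mem_zpowers z
    · have : g * z = z * z * g := hext _ _ fun q v => by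
        simp only [Units.val_mul, ← mulVec_mulVec]
        rw [hw, hAB, hAB, hw, hw, mulVec_mulVec, hA, ← mulVec_mulVec, ← mulVec_mulVec]
      rw [this, mul_inv_cancel_right]
      exact mul_mem (Subgroup.mem_zpowers z) (Subgroup.mem_zpowers z)
  · have hcz : zp * zz = zz * zp := by
      refine LinearEquiv.ext fun ⟨a, b⟩ => ?_
      simp only [LinearEquiv.mul_apply, hzz, hzp, map_add]
      exact Prod.ext (by linear_combination (norm := module) hvv (p b))
        (by linear_combination (norm := module) hvv (-p a))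
    have hmem : hom zp ∈ Cfsg.Geo.tensorProductSubgroup 2 n₂ e P ⊓ Cfsg.Geo.omegaGL Q := by
      rw [eq]
      refine ⟨hN _ ?_, hzpΩ⟩
      rw [hzdef, ← map_mul, hcz, map_mul, mul_inv_cancel_right]
      exact Subgroup.mem_zpowers _
    obtain ⟨A, B, hAB⟩ := Lib.Forms.tensor_acts e P hmem.1
    set al := (A : Matrix (Fin 2) (Fin 2) F) *ᵥ e₀ with hal
    set y := (B : Matrix (Fin n₂) (Fin n₂) F) *ᵥ (u + u') with hy
    have h0 : Φ (u', u) = Φ (al 0 • y, al 1 • y) := by
      have h1 : Φ (u + u', 0) = τ e₀ (u + u') := by simp [hΦ]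
      have h2' : τ al y = Φ (al 0 • y, al 1 • y) := by
        have : al = al 0 • e₀ + al 1 • e₁ := by funext i; fin_cases i <;> simp [he₀, he₁]
        conv_lhs => rw [this]
        simp [hΦ]
      rw [← h2', hal, hy, hτ, ← hAB, ← hτ, ← h1, hhom, hzp, map_zero, map_add, hu'p, hpu]
      simp [hvv, add_right_comm u u' u]
    obtain ⟨ea, eb⟩ := Prod.ext_iff.1 (Φ.injective h0)
    simp only at ea eb
    rcases h01 (al 0) with h | h
    · exact hu'0 (by rw [ea, h, zero_smul])
    rcases h01 (al 1) with h' | h'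
    · exact hu0 (by rw [eb, h', zero_smul])
    rw [h, one_smul] at ea
    rw [h', one_smul, ← ea] at eb
    exact hu0 (by rw [← hpu, eb, hu'p])
  · obtain ⟨d₀, hd₀⟩ := (hf₂.nondegenerate u' hu'0).2
    replace hd₀ : f₂ u' d₀ = 1 := (h01 _).resolve_left hd₀
    set d' := d₀ + p d₀ with hd'
    have hd'p : p d' = 0 := by rw [hd', map_add, hp, hvv]
    have hu'd' : f₂ u' d' = 1 := by
      rw [hd', hf₂.bilinear.add_right, ← hpa, hu'p, S₂.zero_left, hd₀, add_zero]
    have hperp : ∀ x y, p x = x → p y = 0 → f₂ x y = 0 := fun x y hx hy => by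
      rw [← hx, hpa, hy, S₂.zero_right]
    have f1 := hperp u u' hpu hu'p
    have f2' := hperp u d' hpu hd'p
    have f3 := hperp d u' hpd hu'p
    have f4 := hperp d d' hpd hd'p
    have refl : ∀ v : (Fin n₂ → F) × (Fin n₂ → F), f₂ v.1 v.2 = 1 →
        ∃ r : ((Fin n₂ → F) × (Fin n₂ → F)) ≃ₗ[F] ((Fin n₂ → F) × (Fin n₂ → F)),
          (∀ x, r x = x + (f₂ x.1 v.2 + f₂ v.1 x.2) • v) ∧
          (∀ x, r⁻¹ x = x + (f₂ x.1 v.2 + f₂ v.1 x.2) • v) ∧
          ∀ a b, f₂ (r (a, b)).1 (r (a, b)).2 = f₂ a b := by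
      intro v hv
      let l : ((Fin n₂ → F) × (Fin n₂ → F)) →ₗ[F] ((Fin n₂ → F) × (Fin n₂ → F)) :=
        { toFun := fun x => x + (f₂ x.1 v.2 + f₂ v.1 x.2) • v
          map_add' := fun x y => by
            simp only [Prod.fst_add, Prod.snd_add, hf₂.bilinear.add_left, hf₂.bilinear.add_right]
            module
          map_smul' := fun k x => by
            simp only [Prod.smul_fst, Prod.smul_snd, hf₂.bilinear.smul_left, hf₂.bilinear.smul_right,
              RingHom.id_apply]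
            module }
      have hl : l ∘ₗ l = LinearMap.id := LinearMap.ext fun x => by
        show x + (f₂ x.1 v.2 + f₂ v.1 x.2) • v +
          (f₂ (x + (f₂ x.1 v.2 + f₂ v.1 x.2) • v).1 v.2 + f₂ v.1 (x + (f₂ x.1 v.2 + f₂ v.1 x.2) • v).2) • v = x
        simp only [Prod.fst_add, Prod.snd_add, Prod.smul_fst, Prod.smul_snd, hf₂.bilinear.add_left,
          hf₂.bilinear.add_right, hf₂.bilinear.smul_left, hf₂.bilinear.smul_right, hv]
        match_scalars <;> first | ring1 | linear_combination (f₂ x.1 v.2 + f₂ v.1 x.2) * (2 : F) * h2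
      refine ⟨LinearEquiv.ofLinear l l hl hl, fun x => rfl, fun x => rfl, fun a b => ?_⟩
      show f₂ ((a, b) + (f₂ a v.2 + f₂ v.1 b) • v).1 ((a, b) + (f₂ a v.2 + f₂ v.1 b) • v).2 = _
      simp only [Prod.fst_add, Prod.snd_add, Prod.smul_fst, Prod.smul_snd, hf₂.bilinear.add_left,
          hf₂.bilinear.add_right, hf₂.bilinear.smul_left, hf₂.bilinear.smul_right, hv]
      linear_combination ((f₂ a v.2 + f₂ v.1 b) ^ 2) * h2
    obtain ⟨r₁, hr₁, hr₁', hr₁i⟩ := refl (u, d) hd
    obtain ⟨r₂, hr₂, hr₂', hr₂i⟩ := refl (u + u', d') (by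
      rw [hf₂.bilinear.add_left, f2', hu'd', zero_add])
    set x := r₁ * r₂ * r₁⁻¹ * r₂⁻¹ with hx
    have hxΩ : hom x ∈ N ⊓ Cfsg.Geo.omegaGL Q := by rw [eq]; exact hcomm r₁ r₂ hr₁i hr₂i
    have g1 := hsymm d u
    have g2 := hsymm u' u
    have g3 := hsymm d' u
    have g4 := hsymm u' d
    have g5 := hsymm d' d
    have g6 := hsymm d' u'
    rw [hd] at g1; rw [f1] at g2; rw [f2'] at g3; rw [f3] at g4; rw [f4] at g5; rw [hu'd'] at g6
    have h11 : (1 : F) + 1 = 0 := by linear_combination h2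
    have hxv : x (u, d) = (u', d + d') := by
      rw [hx]
      simp [LinearEquiv.mul_apply, hr₁, hr₂, hr₁', hr₂', hf₂.bilinear.add_left, hf₂.bilinear.add_right,
        hd, f1, f2', f3, f4, hu'd', hf₂.alternating, g1, g2, g3, g4, g5, g6, h11]
      exact ⟨by linear_combination (norm := module) (2 : F) • hvv u,
        by linear_combination (norm := module) hvv d⟩
    have hxz : x (d, d + u) = (u + d, u) := by
      rw [hx]
      simp [LinearEquiv.mul_apply, hr₁, hr₂, hr₁', hr₂', hf₂.bilinear.add_left, hf₂.bilinear.add_right,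
        hd, f1, f2', f3, f4, hu'd', hf₂.alternating, g1, g2, g3, g4, g5, g6, h11]
      exact ⟨by linear_combination (norm := module) hvv u + hvv u',
        by linear_combination (norm := module) hvv d + hvv d'⟩
    have hconj : hom x * z * (hom x)⁻¹ ∈ Subgroup.zpowers z := (hxΩ.1 z).1 (Subgroup.mem_zpowers z)
    have happ : ∀ y, hom x * z = hom y * hom x → (u + d, u) = y (u', d + d') := fun y hy => by
      have h := congrArg (fun g : Matrix.GeneralLinearGroup (Fin n) F =>
        (g : Matrix (Fin n) (Fin n) F) *ᵥ Φ (u, d)) hy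
      simp only [hzdef, ← map_mul, hhom, LinearEquiv.mul_apply, hzz, hxz, hxv] at h
      exact Φ.injective h
    rcases hzmem _ hconj with h | h | h
    · rw [conj_eq_one_iff, hzdef] at h
      have h' := congrArg (fun g : Matrix.GeneralLinearGroup (Fin n) F =>
        (g : Matrix (Fin n) (Fin n) F) *ᵥ Φ (u, 0)) h
      simp only [hhom, Units.val_one, one_mulVec] at h'
      have := congrArg Prod.fst (Φ.injective h')
      rw [hzz] at this
      exact hu0 this.symm
    · rw [mul_inv_eq_iff_eq_mul, hzdef] at h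
      have h' := congrArg Prod.snd (happ zz h)
      rw [hzz] at h'
      have := congrArg (fun w => f₂ w d) h'
      simp [hf₂.bilinear.add_left, hd, hf₂.alternating, g4, g5] at this
    · rw [mul_inv_eq_iff_eq_mul, hzdef, ← map_inv] at h
      have h' := congrArg Prod.fst (happ zz⁻¹ h)
      rw [hzz'] at h'
      have := congrArg (fun w => f₂ w d) h'
      simp [hf₂.bilinear.add_left, hd, hf₂.alternating, g4, g5] at this

end Cfsg.Agent.S5705
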