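import Cfsg.Statements.S5707
import Cfsg.Agent.Lib.Forms.TensorPowerData

set_option autoImplicit false
open Cfsg Matrix

namespace Cfsg.Agent.S5707

/-- Let F be a finite field with q elements, n ≥ 13 even, Q a non-degenerate quadratic form on F^n of plus type (some subspace of dimension n/2 is totally singular), and Ω the commutator subgroup of the isometry group of Q, viewed inside GL_n(F). Suppose q is even and that, through P and e, the polar form of Q is similar to the t-fold tensor power (t ≥ 2) of a non-degenerate symplectic form f₁ on F^k with k ≤ 4 and (q, k) ≠ (2, 2), Q vanishing on the images of all pure tensors. Then the elements of Ω in the stabiliser of this decomposition form a subgroup that is not maximal: some subgroup lies strictly between it and Ω. -/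
theorem result {F : Type*} [Field F] [Fintype F] {n : ℕ} (hn : 13 ≤ n) (heven : Even n) (Q : (Fin n → F) → F) (hQ : Cfsg.Geo.IsNondegenerateQuadraticForm Q) (hplus : Cfsg.Geo.IsPlusTypeOn Q ⊤) (hchar : ¬ Odd (Fintype.card F)) (k t : ℕ) (ht : 2 ≤ t) (hk : k ≤ 4) (hex1 : ¬ (Fintype.card F = 2 ∧ k = 2)) (e : (Fin n) ≃ (Fin t → Fin k)) (P : Matrix.GeneralLinearGroup (Fin n) F) (f₁ : (Fin k → F) → (Fin k → F) → F) (hf₁ : Cfsg.Geo.IsSymplecticForm f₁) (hT : Cfsg.Geo.IsTensorPowerFormStructure id (QuadraticMap.polar Q) f₁ e P) (hpure : (∀ xs : Fin t → (Fin k → F), Q (Matrix.mulVec (P : Matrix (Fin n) (Fin n) F) ((fun a : Fin t → Fin k => ∏ i, xs i (a i)) ∘ e)) = 0)) : ∃ K : Subgroup (Matrix.GeneralLinearGroup (Fin n) F), Cfsg.Geo.tensorWreathSubgroup k t e P ⊓ Cfsg.Geo.omegaGL Q < K ∧ K < Cfsg.Geo.omegaGL Q := by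
  classical
  haveI : CharP F 2 := by
    obtain ⟨p, hp⟩ := CharP.exists F
    haveI := hp
    obtain ⟨m, hpp, hpm⟩ := FiniteField.card F p
    by_cases h : p = 2
    · subst h; exact hp
    · exact absurd (by rw [hpm]; exact (hpp.odd_of_ne_two h).pow) hchar
  let Qf : QuadraticForm F (Fin n → F) := QuadraticMap.ofPolar Q
    (fun c v => by rw [hQ.smul, pow_two, smul_eq_mul]) hQ.polar_bilinear.add_left
    (fun c x v => by rw [hQ.polar_bilinear.smul_left, smul_eq_mul])
  have hQf : ⇑Qf = Q := rfl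
  have hnd : Lib.Classical.QuadOmega.Nd Qf := fun x hx => by
    by_contra h0
    obtain ⟨y, hy⟩ := (hQ.nondegenerate x h0).2
    exact hy (hx y)
  have hgood := Lib.Forms.good_of_finrank hnd (by simp; omega)
  obtain ⟨c, hc, hform⟩ := hT
  have S₁ : Lib.Forms.Sesq (RingHom.id F) f₁ :=
    ⟨hf₁.bilinear.add_left, hf₁.bilinear.smul_left, hf₁.bilinear.add_right, hf₁.bilinear.smul_right⟩
  set Φ := Lib.Forms.powerEquiv e P with hΦ
  have hpol : ∀ xs ys, QuadraticMap.polar ⇑Qf (Φ (Lib.Forms.pureT xs)) (Φ (Lib.Forms.pureT ys)) =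
      c * ∏ i, f₁ (xs i) (ys i) := fun xs ys => by
    rw [hQf, hΦ, Lib.Forms.powerEquiv_apply, Lib.Forms.powerEquiv_apply, hform]
    congr 1
    simp only [Lib.Forms.pureT, id_eq, ← Finset.prod_mul_distrib]
    rw [Finset.prod_congr rfl fun i _ => (S₁.formOfGram_eq (xs i) (ys i)).symm]
    simp only [Cfsg.Geo.formOfGram, RingHom.id_apply, Fintype.prod_sum]
  have hQ0 : ∀ xs, Qf (Φ (Lib.Forms.pureT xs)) = 0 := hpure
  have hcard : n = k ^ t := by simpa using Fintype.card_congr e
  have hk2 : 2 ≤ k := by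
    by_contra hk'
    have : k ^ t ≤ 1 := by
      rcases (show k = 0 ∨ k = 1 by omega) with rfl | rfl
      · rw [zero_pow (by omega)]; omega
      · simp
    omega
  have hTg : ∀ g ∈ Cfsg.Geo.tensorWreathSubgroup k t e P, Lib.Forms.WreathForm Φ g :=
    fun g hg => Lib.Forms.wreath_form e P hg
  rw [← hQf]
  let i : Fin t := ⟨0, by omega⟩
  let j : Fin t := ⟨1, by omega⟩
  have hij : i ≠ j := by simp [i, j]
  have hsymm := Lib.Forms.symm_of_alt hf₁
  rcases (show k = 2 ∨ k = 4 from (Nat.eq_or_lt_of_le hk2).imp Eq.symm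
      (fun h => Lib.Forms.eq_four h hk hf₁)) with hk' | hk'
  · have ht4 : 4 ≤ t := by
      by_contra ht'
      have : k ^ t ≤ 2 ^ 3 := by rw [hk']; exact Nat.pow_le_pow_right (by norm_num) (by omega)
      omega
    obtain ⟨e', d', R, E, h, hed, D, hE⟩ := Lib.Forms.exists_rootData_two hk' hf₁
    let l₂ : Fin t := ⟨2, by omega⟩
    let l₃ : Fin t := ⟨3, by omega⟩
    refine Lib.Forms.power_overgroup hgood Φ hf₁ hc hpol hQ0 _ hTg D hij
      (Or.inl ⟨l₂, by simp [i, l₂], by simp [j, l₂]⟩) (fun _ => e')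
      (fun l => if l = i ∨ l = j then d' else e') (fun l => if l = j then e' else d') (fun _ => d')
      ?_ ?_ ?_ ?_ ?_ ?_ ⟨l₂, l₃, by simp [l₂, l₃], ?_, ?_⟩
    · rw [hE, hf₁.alternating, zero_smul]
    · exact Finset.prod_eq_zero (Finset.mem_univ l₂) (by simp [i, j, l₂, hf₁.alternating])
    · exact Finset.prod_eq_zero (Finset.mem_univ j) (by simp [hij.symm, hf₁.alternating])
    · rw [Finset.prod_ne_zero_iff]
      intro l _
      rcases eq_or_ne l i with rfl | hli
      · simp [hij, hE, hsymm d' e', hed]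
      rcases eq_or_ne l j with rfl | hlj
      · simp [hli, hed]
      · simp [hli, hlj, hsymm d' e', hed]
    · simp [hed]
    · exact Finset.prod_eq_zero (Finset.mem_univ j) (by simp [hf₁.alternating])
    · simp [i, j, l₂, hf₁.alternating]
    · simp [i, j, l₃, hf₁.alternating]
  · obtain ⟨e₁, e₂, d₁, d₂, R, E, h, p1, p2, p3, p4, p5, p6, D, hE⟩ :=
      Lib.Forms.exists_rootData_four hk' hf₁
    refine Lib.Forms.power_overgroup hgood Φ hf₁ hc hpol hQ0 _ hTg D hij (Or.inr fun x => ?_)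
      (fun _ => e₁) (fun l => if l = i then d₁ else e₁) (fun l => if l = i then d₂ else d₁) (fun _ => d₁)
      ?_ ?_ ?_ ?_ ?_ ?_ ⟨i, j, hij, ?_, ?_⟩
    · rw [hE, hf₁.bilinear.add_right, hf₁.bilinear.smul_right, hf₁.bilinear.smul_right]
      linear_combination (f₁ x e₁ * f₁ x e₂) * (CharP.cast_eq_zero F 2)
    · simp [hE, hf₁.alternating, p3]
    · exact Finset.prod_eq_zero (Finset.mem_univ j) (by simp [hij.symm, hf₁.alternating])
    · exact Finset.prod_eq_zero (Finset.mem_univ j) (by simp [hij.symm, hf₁.alternating])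
    · rw [Finset.prod_ne_zero_iff]
      intro l _
      rcases eq_or_ne l i with rfl | hli
      · simp [hE, hsymm d₁ e₁, p1, p5, hsymm d₂ e₂, p2, hsymm d₂ e₁, p4]
      · simp [hli, hsymm d₁ e₁, p1]
    · simp [p1]
    · exact Finset.prod_eq_zero (Finset.mem_univ i) (by simp [hsymm d₂ e₁, p4])
    · simp [hsymm d₂ d₁, p6]
    · simp [hij.symm, hf₁.alternating]

end Cfsg.Agent.S5707
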