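import Cfsg.Statements.S5710
import Cfsg.Agent.Lib.Forms.TensorFrameMain
import Cfsg.Agent.Lib.Forms.OrthOddStd

set_option autoImplicit false
open Cfsg

namespace Cfsg.Agent.S5710

/-- Let F be the field with 3 elements, n = 3 n₂ ≥ 13 even, Q a non-degenerate quadratic form on F^n of minus type and Ω the commutator subgroup of its isometry group. Suppose that, through P and e, the polar form of Q is similar to the tensor product of non-degenerate symmetric bilinear forms f₁ on F^3 and f₂ on F^(n₂), n₂ even and at least 4, of minus type. Then the elements of Ω in the stabiliser of this tensor decomposition form a subgroup that is not maximal: some subgroup lies strictly between it and Ω. -/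
theorem result {F : Type*} [Field F] [Fintype F] {n : ℕ} (hn : 13 ≤ n) (heven : Even n) (Q : (Fin n → F) → F) (hQ : Cfsg.Geo.IsNondegenerateQuadraticForm Q) (hminus : ¬ Cfsg.Geo.IsPlusTypeOn Q ⊤) (hq : Fintype.card F = 3) (n₂ : ℕ) (h2 : 4 ≤ n₂) (h2e : Even n₂) (e : (Fin n) ≃ Fin 3 × Fin n₂) (P : Matrix.GeneralLinearGroup (Fin n) F) (f₁ : (Fin 3 → F) → (Fin 3 → F) → F) (f₂ : (Fin n₂ → F) → (Fin n₂ → F) → F) (hf₁ : Cfsg.Geo.IsSymmetricForm f₁) (hf₂ : Cfsg.Geo.IsSymmetricForm f₂) (hf₂m : ¬ Cfsg.Geo.IsPlusTypeOn (fun v : Fin n₂ → F => f₂ v v) ⊤) (hT : Cfsg.Geo.IsTensorFormStructure id (QuadraticMap.polar Q) f₁ f₂ e P) : ∃ K : Subgroup (Matrix.GeneralLinearGroup (Fin n) F), Cfsg.Geo.tensorProductSubgroup 3 n₂ e P ⊓ Cfsg.Geo.omegaGL Q < K ∧ K < Cfsg.Geo.omegaGL Q := by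
  classical
  obtain ⟨u, ε, hε, hli, hnorm, hframe⟩ := Cfsg.Agent.Lib.Forms.exists_frame_three hq f₁ hf₁
  have hS : Cfsg.Agent.Lib.Forms.Sesq (RingHom.id F) (QuadraticMap.polar ⇑(Cfsg.Agent.Lib.Forms.quadOf hQ)) :=
    ⟨fun x y v => QuadraticMap.polar_add_left _ _ _ _, fun c x v => QuadraticMap.polar_smul_left _ _ _ _,
      fun v x y => QuadraticMap.polar_add_right _ _ _ _, fun c v x => QuadraticMap.polar_smul_right _ _ _ _⟩
  have hne : ∃ p q, f₂ p q ≠ 0 := by
    let a : Fin n₂ := ⟨0, by omega⟩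
    obtain ⟨y, hy⟩ := (hf₂.nondegenerate (Pi.single a 1) (by simp)).2
    exact ⟨_, y, hy⟩
  let T := Cfsg.Agent.Lib.Forms.TData.ofStructureFlip (σ := RingHom.id F) hS
    (Cfsg.Agent.Lib.Forms.Sesq.of_bilinear hf₁.bilinear)
    (Cfsg.Agent.Lib.Forms.Sesq.of_bilinear hf₂.bilinear) e P hT
  let S : Cfsg.Agent.Lib.Forms.TFrame T 3 :=
    { u := u, li := hli, hr := by simp, ε := ε, ε_ne := hε, norm := hnorm, nondeg := hne,
      frame := hframe }
  exact Cfsg.Agent.Lib.Forms.orth_tensor_overgroup hq (Cfsg.Agent.Lib.Forms.quadOf_nd hQ) (by simpa using hn) S hf₂ (by omega) (by norm_num) _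
    (fun g hg => Cfsg.Agent.Lib.Forms.acts_ofStructureFlip _ _ _ e P hT hg)

end Cfsg.Agent.S5710
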