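import Cfsg.Statements.S5789
import Cfsg.Agent.Lib.Forms.SympMaximal
import Cfsg.Agent.Lib.Forms.SympWreath
import Cfsg.Agent.Lib.Forms.SympSubfield
import Cfsg.Agent.Lib.Forms.SympExtFieldMax
import Cfsg.Agent.Lib.Forms.FieldSubalg
import Cfsg.Agent.Lib.Forms.OrthInSympSmall

set_option autoImplicit false
open Cfsg

namespace Cfsg.Agent.S5789
open Matrix Cfsg.Agent.Lib.Forms

/-- Maximal subgroups of Sp_4(q) of geometric type, q ≥ 4 even. Let F be a finite field of even order q ≥ 4, f the standard alternating form on F^4 (coordinates Fin 2 ⊕ Fin 2) and Sp_4(F) its isometry group inside GL_4(F). Each of the following, intersected with Sp_4(F), is a maximal subgroup of Sp_4(F): (1) the stabiliser of any non-zero totally isotropic subspace (totally isotropic 1-spaces and 2-spaces); (2) the stabiliser of any decomposition of F^4 into two mutually orthogonal non-degenerate 2-spaces; (3) the normaliser of any degree-2 subfield K of the matrix algebra whose elements are self-adjoint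 for f with f(k v, v) = 0 for all k in K and all v; (4) every subfield group for a subfield F₀ with |F| = |F₀|^r, r prime, whose F₀-structure carries a non-zero scalar multiple of f; (5) the similarity group of any non-degenerate quadratic form whose polar form is f (either Witt type); its intersection with Sp_4(F) is the orthogonal group of that form. -/
theorem result {F : Type*} [Field F] [Fintype F] (heven : ¬ Odd (Fintype.card F)) (h4 : 4 ≤ Fintype.card F) :
    (∀ W : Submodule F (Fin 2 ⊕ Fin 2 → F), W ≠ ⊥ → Cfsg.Geo.IsTotallySingularFor (Cfsg.sympForm 2 F) W → Cfsg.Geo.IsMaximalIn (Cfsg.spGL 2 F) (Cfsg.Geo.subspaceStabilizer W ⊓ Cfsg.spGL 2 F)) ∧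
    (∀ D : Fin 2 → Submodule F (Fin 2 ⊕ Fin 2 → F), Cfsg.Geo.IsNondegenerateMDecomposition (Cfsg.sympForm 2 F) 2 D → Cfsg.Geo.IsMaximalIn (Cfsg.spGL 2 F) (Cfsg.Geo.decompositionStabilizer D ⊓ Cfsg.spGL 2 F)) ∧
    (∀ K : Subalgebra F (Matrix (Fin 2 ⊕ Fin 2) (Fin 2 ⊕ Fin 2) F), Cfsg.Geo.IsFieldSubalgebra 2 K → Cfsg.Geo.IsSelfAdjointFor (Cfsg.sympForm 2 F) K → (∀ k ∈ K, ∀ v : (Fin 2 ⊕ Fin 2 → F), (Cfsg.sympForm 2 F) (Matrix.mulVec k v) v = 0) → Cfsg.Geo.IsMaximalIn (Cfsg.spGL 2 F) (Cfsg.Geo.subalgebraNormalizer K ⊓ Cfsg.spGL 2 F)) ∧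
    (∀ (F₀ : Subfield F) (r : ℕ) (P : Matrix.GeneralLinearGroup (Fin 2 ⊕ Fin 2) F) (ζ : F), r.Prime → Fintype.card F = Nat.card F₀ ^ r → ζ ≠ 0 → Cfsg.Geo.IsFormRationalStructure (Cfsg.sympForm 2 F) F₀ ζ P → Cfsg.Geo.IsMaximalIn (Cfsg.spGL 2 F) (Cfsg.Geo.subfieldSubgroup F₀ P ⊓ Cfsg.spGL 2 F)) ∧
    (∀ Q : (Fin 2 ⊕ Fin 2 → F) → F, Cfsg.Geo.IsNondegenerateQuadraticForm Q → (∀ u v : (Fin 2 ⊕ Fin 2 → F), QuadraticMap.polar Q u v = (Cfsg.sympForm 2 F) u v) → Cfsg.Geo.IsMaximalIn (Cfsg.spGL 2 F) (Cfsg.Geo.quadSimilarityGroup Q ⊓ Cfsg.spGL 2 F)) := by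
  classical
  have h2 : ringChar F = 2 := by
    by_contra h
    exact heven (Nat.odd_iff.2 (FiniteField.odd_card_of_char_ne_two h))
  haveI : CharP F 2 := ringChar.of_eq h2
  obtain ⟨s, hs0, hs1⟩ : ∃ s : F, s ≠ 0 ∧ s ≠ 1 := by
    by_contra hcon
    push Not at hcon
    have : (Finset.univ : Finset F).card ≤ ({0, 1} : Finset F).card := Finset.card_le_card fun x _ => by
      by_cases hx : x = 0
      · simp [hx]
      · simp [hcon x hx]
    have := this.trans Finset.card_le_two
    rw [Finset.card_univ] at this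
    omega
  have hA := stdB_isAlt (F := F) 2
  have hB := stdB_nondegenerate (F := F) 2
  have hf : ∀ u v, Cfsg.sympForm 2 F u v = stdB 2 F u v := fun u v => (stdB_apply 2 u v).symm
  rw [spGL_eq]
  refine ⟨fun W hW0 hW => isotropic_stab_isMaximalIn hA hB hW0
    fun u hu v hv => by rw [← hf]; exact hW u hu v hv, fun D hD => ?_, fun K hK hsa halt => ?_,
    fun F₀ r P ζ hr hcard hζ hP => ?_, fun Q hQ hpol => ?_⟩
  · have h : OrthDec (stdB 2 F) 2 D :=
      { rank := hD.decomp.finrank_eq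
        pos := hD.decomp.pos
        spans := hD.decomp.iSup_eq_top
        nd := fun i a ha ha0 => by
          obtain ⟨z, hz, hz'⟩ := (hD.nondegenerate i a ha ha0).2
          exact ⟨z, hz, by rw [← hf]; exact hz'⟩
        orth := fun i j hij a ha b hb => by rw [← hf]; exact hD.orthogonal i j hij a ha b hb }
    refine decomposition_stab_isMaximalIn hA hB le_rfl h (Or.inr ⟨s, hs0, ?_⟩)
    rw [CharTwo.neg_eq]
    exact hs1
  · haveI : Nonempty (Fin 2 ⊕ Fin 2) := ⟨Sum.inl 0⟩
    have hfield := isField_fieldSubalg hK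
    letI : Field K := hfield.toField
    obtain ⟨h2', hmax⟩ := sympExtField_maximal (L := K) K.val
      (by rw [show Module.finrank F K = 2 from hK.finrank_eq]; exact Nat.prime_two) hA hB
      (fun k x y => by rw [← hf, ← hf]; exact hsa k k.2 x y)
      (fun k v => by rw [← hf]; exact halt k k.2 v) (Or.inr (Or.inl ⟨s, hs0, hs1⟩))
    refine hmax _ inf_le_right fun g hg => ?_
    rw [Subgroup.mem_inf, and_iff_left hg, normalizer_iff_lines (fun a => ?_) hfield]
    · constructor
      · intro h a k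
        obtain ⟨l, hl, e⟩ := h a k k.2
        exact ⟨⟨l, hl⟩, e⟩
      · intro h a k hk
        obtain ⟨l, e⟩ := h a ⟨k, hk⟩
        exact ⟨l, l.2, e⟩
    · obtain ⟨b, hb⟩ := h2' a
      exact ⟨b, fun k hk => hb ⟨k, hk⟩⟩
  · have S : AltRat (stdB 2 F) F₀ P ζ :=
      { alt := hA
        nd := hB
        ζ0 := hζ
        rat := fun u v => by
          rw [← hf]
          exact hP _ _ (fun i => (u i).2) (fun i => (v i).2) }
    exact S.isMaximalIn (by simp) hr (by rw [Nat.card_eq_fintype_card (α := F)]; exact hcard)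
  · have P : PolarQuad (stdB 2 F) Q :=
      { alt := hA
        nd := hB
        two := CharTwo.two_eq_zero
        smul := hQ.smul
        add := fun x y => by rw [← hf, ← hpol, QuadraticMap.polar]; ring
        sqrt := fun a => by
          obtain ⟨r, hr⟩ := isSquare_iff_exists_sq a |>.1 (FiniteField.isSquare_of_char_two h2 a)
          exact ⟨r, hr.symm⟩ }
    obtain ⟨v, -, hv, hv0⟩ := P.exists_value (Fin.elim0 : Fin 0 → _) (by simp) 0
    exact P.isMaximalIn_of_singular hv0 hv

end Cfsg.Agent.S5789
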