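import Cfsg.Statements.S5876
import Cfsg.Agent.Lib.FixSpace.Bound
-- import your own Cfsg.Agent.* helpers here

set_option autoImplicit false
open Cfsg

namespace Cfsg.Agent.S5876

/-- Fixed-point spaces in primitive soluble linear groups. Let F be a finite field and G a soluble subgroup of GL_n(F) that acts irreducibly on F^n and primitively (G preserves no decomposition of F^n into two or more independent subspaces of equal dimension). Then every non-identity element g of G has fixed-point space {v : g v = v} of dimension at most 3n/4. -/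
theorem result {F : Type*} [Field F] [Fintype F] {n : ℕ} (G : Subgroup (Matrix.GeneralLinearGroup (Fin n) F)) (hsol : IsSolvable G) (hirr : Cfsg.Geo.ActsIrreducibly (Cfsg.Geo.matrixSet G)) (hprim : ∀ (m t : ℕ) (D : Fin t → Submodule F (Fin n → F)), 2 ≤ t → Cfsg.Geo.IsMDecomposition m D → ¬ G ≤ Cfsg.Geo.decompositionStabilizer D) (g : Matrix.GeneralLinearGroup (Fin n) F) (hg : g ∈ G) (hg1 : g ≠ 1) :
    4 * Module.finrank F (Module.End.eigenspace (Matrix.toLin' (g : Matrix (Fin n) (Fin n) F)) 1) ≤ 3 * n := by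
  let ρ : G →* Module.End F (Fin n → F) :=
    (Matrix.toLinAlgEquiv' : Matrix (Fin n) (Fin n) F ≃ₐ[F] _).toMulEquiv.toMonoidHom.comp
      ((Units.coeHom _).comp G.subtype)
  have hρ : ∀ x : G, ρ x = Matrix.toLin' ((x : Matrix.GeneralLinearGroup (Fin n) F) : Matrix (Fin n) (Fin n) F) :=
    fun _ => rfl
  have hinj : Function.Injective ρ := fun x y h => by
    rw [hρ, hρ] at h
    exact Subtype.ext (Units.ext (Matrix.toLin'.injective h))
  have hI : Lib.FixSpace.Irred ρ := fun W hW => hirr W (by
    rintro _ ⟨x, hx, rfl⟩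
    rw [← hρ ⟨x, hx⟩]
    exact hW _)
  have hP : Lib.FixSpace.Primitive ρ := fun t D ht hne heq hind htop hperm => by
    refine hprim (Module.finrank F (D ⟨0, by omega⟩)) t D ht
      ⟨ht, ?_, fun i => heq i _, hind, htop⟩ (fun x hx => ?_)
    · exact Nat.pos_of_ne_zero fun h => hne _ (Submodule.finrank_eq_zero.mp h)
    · obtain ⟨σ, hσ⟩ := hperm ⟨x, hx⟩
      exact ⟨σ, fun i => by rw [← hσ i, hρ]⟩
  have key := Lib.FixSpace.four_mul_fixDim_le (ρ := ρ) hsol hI hP hinj (g := ⟨g, hg⟩)
    (fun h => hg1 (congrArg Subtype.val h))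
  rw [Module.finrank_pi, Fintype.card_fin] at key
  rw [Module.End.eigenspace_def, one_smul]
  exact key

end Cfsg.Agent.S5876
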