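import Cfsg.Statements.S5877
import Mathlib.LinearAlgebra.Eigenspace.Basic
import Mathlib.LinearAlgebra.Dimension.Finite
import Mathlib.GroupTheory.Commutator.Basic
import Mathlib.NumberTheory.LegendreSymbol.AddCharacter

set_option autoImplicit false
set_option linter.unusedSectionVars false
open Cfsg

namespace Cfsg.Agent.S5877

open Matrix Module
open scoped commutatorElement

variable {F : Type*} [Field F] {n : ℕ}


/-- The operator of an element of GL. -/
noncomputable def T (g : (Matrix.GeneralLinearGroup (Fin n) F)) : Module.End F (Fin n → F) := Matrix.toLin' (g : Matrix (Fin n) (Fin n) F)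

theorem T_mul (g h : (Matrix.GeneralLinearGroup (Fin n) F)) (v : Fin n → F) : T (g * h) v = T g (T h v) := by
  simp [T, Matrix.mulVec_mulVec]

theorem T_one (v : Fin n → F) : T (1 : (Matrix.GeneralLinearGroup (Fin n) F)) v = v := by simp [T]

theorem T_inj (g : (Matrix.GeneralLinearGroup (Fin n) F)) : Function.Injective (T g) := fun a b h => by
  have h2 := congrArg (T g⁻¹) h
  rwa [← T_mul, ← T_mul, inv_mul_cancel, T_one, T_one] at h2

theorem scalar_comm {z : (Matrix.GeneralLinearGroup (Fin n) F)} (hz : z ∈ Cfsg.Geo.scalars (Fin n) F) (g : (Matrix.GeneralLinearGroup (Fin n) F)) : z * g = g * z := by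
  obtain ⟨a, ha⟩ := (Cfsg.Geo.mem_scalars_iff z).1 hz
  refine Units.ext ?_
  simp [ha]

theorem T_scalar {z : (Matrix.GeneralLinearGroup (Fin n) F)} (hz : z ∈ Cfsg.Geo.scalars (Fin n) F) :
    ∃ a : F, a ≠ 0 ∧ (z : Matrix (Fin n) (Fin n) F) = a • 1 ∧ ∀ v, T z v = a • v := by
  obtain ⟨a, ha⟩ := (Cfsg.Geo.mem_scalars_iff z).1 hz
  exact ⟨a, a.ne_zero, ha, fun v => by simp [T, ha, Matrix.smul_mulVec, Pi.smul_def]⟩

instance scalars_normal : (Cfsg.Geo.scalars (Fin n) F).Normal :=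
  ⟨fun z hz g => by rwa [← scalar_comm hz g, mul_inv_cancel_right]⟩

/-- Dimension of an eigenspace intersected with a submodule. -/
noncomputable def dimEig (g : (Matrix.GeneralLinearGroup (Fin n) F)) (a : F) (E : Submodule F (Fin n → F)) : ℕ :=
  finrank F ↥((T g).eigenspace a ⊓ E)

theorem sum_dimEig_le (g : (Matrix.GeneralLinearGroup (Fin n) F)) (E : Submodule F (Fin n → F)) (A : Finset F) :
    ∑ a ∈ A, dimEig g a E ≤ finrank F E := by
  classical
  suffices h : finrank F ↥(A.sup fun a => (T g).eigenspace a ⊓ E) = ∑ a ∈ A, dimEig g a E by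
    rw [← h]
    exact Submodule.finrank_mono (Finset.sup_le fun a _ => inf_le_right)
  induction A using Finset.induction with
  | empty => simp
  | @insert a A ha ih =>
    rw [Finset.sum_insert ha, Finset.sup_insert, ← ih]
    have hd : Disjoint ((T g).eigenspace a ⊓ E) (A.sup fun a => (T g).eigenspace a ⊓ E) := by
      refine Disjoint.mono inf_le_left ?_ ((Module.End.eigenspaces_iSupIndep (T g)).disjoint_biSup
        (y := (A : Set F)) (x := a) (by simpa using ha))
      refine Finset.sup_le fun b hb => ?_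
      exact inf_le_left.trans (le_biSup (fun i => (T g).eigenspace i) (by simpa using hb))
    have h2 := Submodule.finrank_sup_add_finrank_inf_eq ((T g).eigenspace a ⊓ E)
      (A.sup fun a => (T g).eigenspace a ⊓ E)
    rw [hd.eq_bot, finrank_bot, add_zero] at h2
    exact h2

theorem finrank_top_le (P : Submodule F (Fin n → F)) : finrank F P ≤ n :=
  (Submodule.finrank_le P).trans_eq (Module.finrank_fin_fun F)

theorem finrank_le_of_map {g : (Matrix.GeneralLinearGroup (Fin n) F)} {P Q : Submodule F (Fin n → F)} (h : ∀ v ∈ P, T g v ∈ Q) :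
    finrank F P ≤ finrank F Q := by
  rw [(Submodule.equivMapOfInjective (T g) (T_inj g) P).finrank_eq]
  exact Submodule.finrank_mono (by rintro _ ⟨v, hv, rfl⟩; exact h v hv)

section

variable {r : ℕ} {R : Subgroup (Matrix.GeneralLinearGroup (Fin n) F)}

/-- The hypotheses on the group. -/
structure Ctx (R : Subgroup (Matrix.GeneralLinearGroup (Fin n) F)) (r : ℕ) (g : (Matrix.GeneralLinearGroup (Fin n) F)) : Prop where
  hr : r.Prime
  hz : ∀ x ∈ R, ∀ y ∈ R, x * y * x⁻¹ * y⁻¹ ∈ Cfsg.Geo.scalars (Fin n) F ∧ (x * y * x⁻¹ * y⁻¹) ^ r = 1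
  hcent : ∀ x : (Matrix.GeneralLinearGroup (Fin n) F), (∀ y ∈ R, x * y = y * x) → x ∈ Cfsg.Geo.scalars (Fin n) F
  hpow : Odd r → ∀ x ∈ R, x ^ r = 1
  hg : ∀ x, x ∈ R ⊔ Cfsg.Geo.scalars (Fin n) F ↔ g * x * g⁻¹ ∈ R ⊔ Cfsg.Geo.scalars (Fin n) F
  hns : g ∉ Cfsg.Geo.scalars (Fin n) F


variable {g : Matrix.GeneralLinearGroup (Fin n) F}
variable (C : Ctx R r g)

include C

theorem decomp {s : (Matrix.GeneralLinearGroup (Fin n) F)} (hs : s ∈ R ⊔ Cfsg.Geo.scalars (Fin n) F) : ∃ x ∈ R, ∃ a ∈ Cfsg.Geo.scalars (Fin n) F, s = x * a := by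
  rw [← SetLike.mem_coe, Subgroup.coe_mul_of_right_le_normalizer_left] at hs
  · obtain ⟨x, hx, a, ha, rfl⟩ := hs
    exact ⟨x, hx, a, ha, rfl⟩
  · intro a ha
    rw [Subgroup.mem_normalizer_iff]
    intro h
    rw [scalar_comm ha h, mul_inv_cancel_right]

theorem comm_mem {s t : (Matrix.GeneralLinearGroup (Fin n) F)} (hs : s ∈ R ⊔ Cfsg.Geo.scalars (Fin n) F) (ht : t ∈ R ⊔ Cfsg.Geo.scalars (Fin n) F) : ⁅s, t⁆ ∈ Cfsg.Geo.scalars (Fin n) F ∧ ⁅s, t⁆ ^ r = 1 := by
  obtain ⟨x, hx, a, ha, rfl⟩ := decomp C hs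
  obtain ⟨y, hy, b, hb, rfl⟩ := decomp C ht
  have h : ⁅x * a, y * b⁆ = x * y * x⁻¹ * y⁻¹ := by
    rw [commutatorElement_def]
    calc x * a * (y * b) * (x * a)⁻¹ * (y * b)⁻¹ = x * (a * y) * (b * a⁻¹) * x⁻¹ * b⁻¹ * y⁻¹ := by group
      _ = x * (y * a) * (a⁻¹ * b) * x⁻¹ * b⁻¹ * y⁻¹ := by
          rw [scalar_comm ha y, scalar_comm hb a⁻¹]
      _ = x * y * (b * x⁻¹) * b⁻¹ * y⁻¹ := by group
      _ = x * y * (x⁻¹ * b) * b⁻¹ * y⁻¹ := by rw [scalar_comm hb x⁻¹]
      _ = _ := by group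
  rw [h]
  exact C.hz x hx y hy

theorem comm_mul_left {a b c : (Matrix.GeneralLinearGroup (Fin n) F)} (hb : b ∈ R ⊔ Cfsg.Geo.scalars (Fin n) F) (hc : c ∈ R ⊔ Cfsg.Geo.scalars (Fin n) F) : ⁅a * b, c⁆ = ⁅a, c⁆ * ⁅b, c⁆ := by
  have hz := scalar_comm (comm_mem C hb hc).1
  have h1 : ⁅a * b, c⁆ = a * ⁅b, c⁆ * (c * a⁻¹ * c⁻¹) := by
    rw [commutatorElement_def, commutatorElement_def]; group
  rw [h1, ← hz a, mul_assoc, hz, commutatorElement_def a c]
  group

theorem comm_mul_right {a b c : (Matrix.GeneralLinearGroup (Fin n) F)} (ha : a ∈ R ⊔ Cfsg.Geo.scalars (Fin n) F) (hb : b ∈ R ⊔ Cfsg.Geo.scalars (Fin n) F) (hc : c ∈ R ⊔ Cfsg.Geo.scalars (Fin n) F) :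
    ⁅a, b * c⁆ = ⁅a, b⁆ * ⁅a, c⁆ := by
  have hz := scalar_comm (comm_mem C ha hc).1
  have h1 : ⁅a, b * c⁆ = a * b * a⁻¹ * ⁅a, c⁆ * b⁻¹ := by
    rw [commutatorElement_def, commutatorElement_def]; group
  rw [h1, mul_assoc _ ⁅a, c⁆, hz b⁻¹, commutatorElement_def a b]
  group

theorem conj_mem {s : (Matrix.GeneralLinearGroup (Fin n) F)} (hs : s ∈ R ⊔ Cfsg.Geo.scalars (Fin n) F) : g * s * g⁻¹ ∈ R ⊔ Cfsg.Geo.scalars (Fin n) F := (C.hg s).1 hs

theorem conj_inv_mem {s : (Matrix.GeneralLinearGroup (Fin n) F)} (hs : s ∈ R ⊔ Cfsg.Geo.scalars (Fin n) F) : g⁻¹ * s * g ∈ R ⊔ Cfsg.Geo.scalars (Fin n) F :=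
  (C.hg _).2 (by rwa [show g * (g⁻¹ * s * g) * g⁻¹ = s by group])

theorem comm_conj {s t : (Matrix.GeneralLinearGroup (Fin n) F)} (hs : s ∈ R ⊔ Cfsg.Geo.scalars (Fin n) F) (ht : t ∈ R ⊔ Cfsg.Geo.scalars (Fin n) F) : ⁅g * s * g⁻¹, g * t * g⁻¹⁆ = ⁅s, t⁆ := by
  have h : ⁅g * s * g⁻¹, g * t * g⁻¹⁆ = g * ⁅s, t⁆ * g⁻¹ := by
    rw [commutatorElement_def, commutatorElement_def]; group
  rw [h, ← scalar_comm (comm_mem C hs ht).1 g, mul_inv_cancel_right]

theorem scalar_of_comm {s : (Matrix.GeneralLinearGroup (Fin n) F)} (hs : s ∈ R ⊔ Cfsg.Geo.scalars (Fin n) F) (h : ∀ y ∈ R, ⁅s, y⁆ = 1) : s ∈ Cfsg.Geo.scalars (Fin n) F :=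
  C.hcent s fun y hy => commutatorElement_eq_one_iff_mul_comm.1 (h y hy)

theorem exists_shift {h : (Matrix.GeneralLinearGroup (Fin n) F)} (hh : h ∈ R ⊔ Cfsg.Geo.scalars (Fin n) F) (hne : h ∉ Cfsg.Geo.scalars (Fin n) F) :
    ∃ t ∈ R, ∃ μ : F, IsPrimitiveRoot μ r ∧ ∀ v, T h (T t v) = μ • T t (T h v) := by
  obtain ⟨t, ht, hne'⟩ : ∃ t ∈ R, ⁅h, t⁆ ≠ 1 := by
    by_contra hall
    push Not at hall
    exact hne (scalar_of_comm C hh hall)
  obtain ⟨hs, hp⟩ := comm_mem C hh (Subgroup.mem_sup_left ht)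
  obtain ⟨μ, hμ0, hμ, hTμ⟩ := T_scalar hs
  refine ⟨t, ht, μ, ?_, fun v => ?_⟩
  · have hgood : μ ^ r = 1 := by
      by_contra hμr
      refine hne' (Units.ext ?_)
      have h1 := congrArg (fun z : (Matrix.GeneralLinearGroup (Fin n) F) => (z : Matrix (Fin n) (Fin n) F)) hp
      simp only [Units.val_pow_eq_pow_val, hμ, smul_pow, one_pow, Units.val_one] at h1
      have h2 : (1 : Matrix (Fin n) (Fin n) F) = 0 := by
        have h3 : (μ ^ r - 1) • (1 : Matrix (Fin n) (Fin n) F) = 0 := by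
          rw [sub_smul, h1, one_smul, sub_self]
        exact (smul_eq_zero.1 h3).resolve_left (sub_ne_zero.2 hμr)
      rw [hμ, Units.val_one, h2, smul_zero]
    have hne1 : μ ≠ 1 := fun h1 => hne' (Units.ext (by rw [hμ, h1, one_smul, Units.val_one]))
    haveI : Fact r.Prime := ⟨C.hr⟩
    exact IsPrimitiveRoot.iff_orderOf.2 (orderOf_eq_prime hgood hne1)
  · rw [← hTμ, ← T_mul, ← T_mul, ← T_mul]
    congr 1
    rw [commutatorElement_def]
    group

theorem eig_bound {h : (Matrix.GeneralLinearGroup (Fin n) F)} (hh : h ∈ R ⊔ Cfsg.Geo.scalars (Fin n) F) (hne : h ∉ Cfsg.Geo.scalars (Fin n) F) (e : F) : r * finrank F ((T h).eigenspace e) ≤ n := by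
  classical
  rcases eq_or_ne e 0 with rfl | he
  · have : (T h).eigenspace 0 = ⊥ := by
      rw [eq_bot_iff]
      intro v hv
      rw [Module.End.mem_eigenspace_iff, zero_smul] at hv
      exact T_inj h (by rw [hv, map_zero])
    rw [this, finrank_bot, mul_zero]
    exact Nat.zero_le n
  obtain ⟨t, -, μ, hμ, hT⟩ := exists_shift C hh hne
  have hk : ∀ k, finrank F ((T h).eigenspace e) ≤ finrank F ((T h).eigenspace (μ ^ k * e)) := by
    intro k
    induction k with
    | zero => rw [pow_zero, one_mul]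
    | succ k ih =>
      refine ih.trans (finrank_le_of_map (g := t) fun v hv => ?_)
      rw [Module.End.mem_eigenspace_iff] at hv ⊢
      rw [hT, hv, map_smul, smul_smul]
      ring_nf
  have h1 := sum_dimEig_le h ⊤ ((Finset.range r).image fun k => μ ^ k * e)
  rw [Finset.sum_image fun a ha b hb hab =>
    hμ.pow_inj (Finset.mem_range.1 ha) (Finset.mem_range.1 hb) (mul_right_cancel₀ he hab)] at h1
  rw [finrank_top, Module.finrank_fin_fun] at h1
  refine le_trans ?_ h1
  calc r * finrank F ((T h).eigenspace e) = ∑ _k ∈ Finset.range r, finrank F ((T h).eigenspace e) := by simp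
    _ ≤ _ := Finset.sum_le_sum fun k _ => (hk k).trans_eq (by rw [dimEig, inf_top_eq])

theorem r_dvd {h : (Matrix.GeneralLinearGroup (Fin n) F)} (hh : h ∈ R ⊔ Cfsg.Geo.scalars (Fin n) F) (hne : h ∉ Cfsg.Geo.scalars (Fin n) F) : r ∣ n := by
  obtain ⟨t, -, μ, hμ, hT⟩ := exists_shift C hh hne
  have hm : ((h * t : (Matrix.GeneralLinearGroup (Fin n) F)) : Matrix (Fin n) (Fin n) F) = μ • ((t * h : (Matrix.GeneralLinearGroup (Fin n) F)) : Matrix (Fin n) (Fin n) F) := by
    apply Matrix.toLin'.injective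
    refine LinearMap.ext fun v => ?_
    rw [map_smul, LinearMap.smul_apply]
    show T (h * t) v = μ • T (t * h) v
    rw [T_mul, T_mul, hT]
  have hd := congrArg Matrix.det hm
  rw [Matrix.det_smul, Units.val_mul, Units.val_mul, Matrix.det_mul, Matrix.det_mul, Fintype.card_fin,
    mul_comm (Matrix.det (t : Matrix (Fin n) (Fin n) F))] at hd
  refine hμ.dvd_of_pow_eq_one n ?_
  have h0 : Matrix.det (h : Matrix (Fin n) (Fin n) F) * Matrix.det (t : Matrix (Fin n) (Fin n) F) ≠ 0 := by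
    rw [← Matrix.det_mul, ← Units.val_mul]
    exact (Matrix.isUnit_iff_isUnit_det _).1 (h * t).isUnit |>.ne_zero
  exact mul_right_cancel₀ h0 (by rw [one_mul]; exact hd.symm)

/-- The commutator map with `g`. -/
def H (g t : Matrix.GeneralLinearGroup (Fin n) F) : Matrix.GeneralLinearGroup (Fin n) F := g * t * g⁻¹ * t⁻¹

theorem H_mem {t : Matrix.GeneralLinearGroup (Fin n) F} (ht : t ∈ R ⊔ Cfsg.Geo.scalars (Fin n) F) :
    H g t ∈ R ⊔ Cfsg.Geo.scalars (Fin n) F := mul_mem (conj_mem C ht) (inv_mem ht)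

theorem exists_H_ne : ∃ t ∈ R, H g t ≠ 1 := by
  by_contra hall
  push Not at hall
  refine C.hns (C.hcent g fun y hy => ?_)
  have h := hall y hy
  rw [H, mul_inv_eq_one, mul_inv_eq_iff_eq_mul] at h
  exact h

theorem pow_scalar {x : Matrix.GeneralLinearGroup (Fin n) F} (hx : x ∈ R ⊔ Cfsg.Geo.scalars (Fin n) F) :
    x ^ r ∈ Cfsg.Geo.scalars (Fin n) F := by
  refine scalar_of_comm C (pow_mem hx r) fun y hy => ?_
  have hy' : y ∈ R ⊔ Cfsg.Geo.scalars (Fin n) F := Subgroup.mem_sup_left hy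
  have h : ∀ k : ℕ, ⁅x ^ k, y⁆ = ⁅x, y⁆ ^ k := by
    intro k
    induction k with
    | zero => rw [pow_zero, pow_zero, commutatorElement_def]; group
    | succ k ih => rw [pow_succ, comm_mul_left C hx hy', ih, pow_succ]
  rw [h, (comm_mem C hx hy').2]

/-- Consequences of a large eigenspace. -/
structure Big (R : Subgroup (Matrix.GeneralLinearGroup (Fin n) F)) (g : Matrix.GeneralLinearGroup (Fin n) F) : Prop where
  one_of_scalar : ∀ t ∈ R ⊔ Cfsg.Geo.scalars (Fin n) F, H g t ∈ Cfsg.Geo.scalars (Fin n) F → H g t = 1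
  comm : ∀ t ∈ R ⊔ Cfsg.Geo.scalars (Fin n) F, ⁅H g t, g * H g t * g⁻¹⁆ = 1

theorem c_ne_zero {c : F} (hd : 0 < finrank F ((T g).eigenspace c)) : c ≠ 0 := by
  rintro rfl
  have : (T g).eigenspace 0 = ⊥ := by
    rw [eq_bot_iff]
    intro v hv
    rw [Module.End.mem_eigenspace_iff, zero_smul] at hv
    exact T_inj g (by rw [hv, map_zero])
  rw [this, finrank_bot] at hd
  exact lt_irrefl 0 hd

theorem inter_bound {c : F} (hd : 0 < finrank F ((T g).eigenspace c))
    (t : Matrix.GeneralLinearGroup (Fin n) F) :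
    2 * finrank F ((T g).eigenspace c) ≤
      n + finrank F ↥((T (H g t)).eigenspace 1 ⊓ (T g).eigenspace c) := by
  have hc := c_ne_zero C hd
  let W := (T g).eigenspace c
  have h1 := Submodule.finrank_sup_add_finrank_inf_eq W (W.map (T t))
  have h2 : finrank F (W.map (T t)) = finrank F W := (Submodule.equivMapOfInjective (T t) (T_inj t) W).finrank_eq.symm
  have h3 : finrank F ↥(W ⊓ W.map (T t)) ≤ finrank F ↥((T (H g t)).eigenspace 1 ⊓ W) := by
    refine Submodule.finrank_mono fun v hv => ⟨?_, hv.1⟩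
    obtain ⟨hvW, w, hw, rfl⟩ := hv
    have hgv : T g (T t w) = c • T t w := Module.End.mem_eigenspace_iff.1 hvW
    have hgw : T g w = c • w := Module.End.mem_eigenspace_iff.1 hw
    have hiw : T g⁻¹ w = c⁻¹ • w := by
      have h := congrArg (T g⁻¹) hgw
      rw [← T_mul, inv_mul_cancel, T_one, map_smul] at h
      rw [show c⁻¹ • w = c⁻¹ • c • T g⁻¹ w by rw [← h], smul_smul, inv_mul_cancel₀ hc, one_smul]
    refine Module.End.mem_eigenspace_iff.2 ?_
    rw [one_smul, ← T_mul, H, inv_mul_cancel_right, T_mul, T_mul, hiw, map_smul, map_smul, hgv, smul_smul,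
      inv_mul_cancel₀ hc, one_smul]
  have h4 := finrank_top_le (W ⊔ W.map (T t))
  simp only [W] at *
  omega

theorem big_of {c : F} (hd : n < 2 * finrank F ((T g).eigenspace c)) : Big R g := by
  have hd0 : 0 < finrank F ((T g).eigenspace c) := by omega
  have hc := c_ne_zero C hd0
  have hv : ∀ t : Matrix.GeneralLinearGroup (Fin n) F, ∃ v, v ≠ 0 ∧ T (H g t) v = v ∧ T g v = c • v := by
    intro t
    have h := inter_bound C hd0 t
    have hne : (T (H g t)).eigenspace 1 ⊓ (T g).eigenspace c ≠ ⊥ := fun e => by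
      rw [e, finrank_bot] at h; omega
    obtain ⟨v, ⟨hv1, hv2⟩, hv0⟩ := Submodule.exists_mem_ne_zero_of_ne_bot hne
    exact ⟨v, hv0, by rw [Module.End.mem_eigenspace_iff.1 hv1, one_smul], Module.End.mem_eigenspace_iff.1 hv2⟩
  have key : ∀ z ∈ Cfsg.Geo.scalars (Fin n) F, ∀ v : Fin n → F, v ≠ 0 → T z v = v → z = 1 := by
    intro z hz v hv0 hzv
    obtain ⟨a, -, ha, hTa⟩ := T_scalar hz
    rw [hTa] at hzv
    have ha1 : a = 1 := smul_left_injective F hv0 (by simpa using hzv)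
    exact Units.ext (by rw [ha, ha1, one_smul, Units.val_one])
  refine ⟨fun t _ hs => ?_, fun t ht => ?_⟩
  · obtain ⟨v, hv0, hh, -⟩ := hv t
    exact key _ hs v hv0 hh
  · obtain ⟨v, hv0, hh, hgv⟩ := hv t
    have hh' : T (g * H g t * g⁻¹) v = v := by
      have hiv : T g⁻¹ v = c⁻¹ • v := by
        have h := congrArg (T g⁻¹) hgv
        rw [← T_mul, inv_mul_cancel, T_one, map_smul] at h
        rw [show c⁻¹ • v = c⁻¹ • c • T g⁻¹ v by rw [← h], smul_smul, inv_mul_cancel₀ hc, one_smul]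
      rw [T_mul, T_mul, hiv, map_smul, map_smul, hh, hgv, smul_smul, inv_mul_cancel₀ hc, one_smul]
    have hi : ∀ x : Matrix.GeneralLinearGroup (Fin n) F, T x v = v → T x⁻¹ v = v := fun x hx => by
      conv_lhs => rw [← hx]
      rw [← T_mul, inv_mul_cancel, T_one]
    refine key _ (comm_mem C (H_mem C ht) (conj_mem C (H_mem C ht))).1 v hv0 ?_
    rw [commutatorElement_def, T_mul, T_mul, T_mul, hi _ hh', hi _ hh, hh', hh]

variable (B : Big R g)

include B

theorem polar {s t : Matrix.GeneralLinearGroup (Fin n) F} (hs : s ∈ R ⊔ Cfsg.Geo.scalars (Fin n) F)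
    (ht : t ∈ R ⊔ Cfsg.Geo.scalars (Fin n) F) :
    ⁅H g s, g * H g t * g⁻¹⁆ = ⁅H g s, g⁻¹ * H g t * g⁆ := by
  have hHs := H_mem C hs
  have hHt := H_mem C ht
  have hz := (comm_mem C (inv_mem hHt) hs).1
  have hst : H g (s * t) = H g s * H g t * ⁅(H g t)⁻¹, s⁆ := by
    simp only [H, commutatorElement_def]; group
  have h := B.comm _ (mul_mem hs ht)
  rw [hst] at h
  set z := ⁅(H g t)⁻¹, s⁆ with hzdef
  have hzmem : z ∈ R ⊔ Cfsg.Geo.scalars (Fin n) F := Subgroup.mem_sup_right hz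
  have h2 : ⁅z, g * (H g s * H g t * z) * g⁻¹⁆ = 1 :=
    commutatorElement_eq_one_iff_mul_comm.2 (scalar_comm hz _)
  rw [comm_mul_left C hzmem (conj_mem C (mul_mem (mul_mem hHs hHt) hzmem)), h2, mul_one,
    show g * (H g s * H g t * z) * g⁻¹ = g * H g s * g⁻¹ * (g * H g t * g⁻¹) * (g * z * g⁻¹) by group,
    show g * z * g⁻¹ = z by rw [← scalar_comm hz g, mul_inv_cancel_right],
    comm_mul_right C (mul_mem hHs hHt) (mul_mem (conj_mem C hHs) (conj_mem C hHt)) hzmem,
    commutatorElement_eq_one_iff_mul_comm.2 (scalar_comm hz _).symm, mul_one,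
    comm_mul_left C hHt (mul_mem (conj_mem C hHs) (conj_mem C hHt)),
    comm_mul_right C hHs (conj_mem C hHs) (conj_mem C hHt),
    comm_mul_right C hHt (conj_mem C hHs) (conj_mem C hHt), B.comm _ hs, B.comm _ ht, one_mul, mul_one] at h
  have h3 : ⁅H g t, g * H g s * g⁻¹⁆ = ⁅g⁻¹ * H g t * g, H g s⁆ := by
    rw [← comm_conj C (conj_inv_mem C hHt) hHs, show g * (g⁻¹ * H g t * g) * g⁻¹ = H g t by group]
  rw [h3, ← commutatorElement_inv (H g s) (g⁻¹ * H g t * g), mul_inv_eq_one] at h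
  exact h

theorem cubic {t : Matrix.GeneralLinearGroup (Fin n) F} (ht : t ∈ R ⊔ Cfsg.Geo.scalars (Fin n) F) :
    Commute (QuotientGroup.mk' (Cfsg.Geo.scalars (Fin n) F) g)
      (QuotientGroup.mk' (Cfsg.Geo.scalars (Fin n) F) (g * H g t * g⁻¹ * (g⁻¹ * H g t * g)⁻¹)) := by
  set y := g * H g t * g⁻¹ * (g⁻¹ * H g t * g)⁻¹ with hy
  have hyS : y ∈ R ⊔ Cfsg.Geo.scalars (Fin n) F :=
    mul_mem (conj_mem C (H_mem C ht)) (inv_mem (conj_inv_mem C (H_mem C ht)))
  have h1 : ∀ s ∈ R, ⁅s, g⁻¹ * y * g⁆ = ⁅s, y⁆ := by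
    intro s hs
    have hs' : s ∈ R ⊔ Cfsg.Geo.scalars (Fin n) F := Subgroup.mem_sup_left hs
    have hHs := H_mem C hs'
    have e1 : ⁅H g s, y⁆ * ⁅H g s, g⁻¹ * H g t * g⁆ = ⁅H g s, g⁻¹ * H g t * g⁆ := by
      rw [← comm_mul_right C hHs hyS (conj_inv_mem C (H_mem C ht)), hy, inv_mul_cancel_right,
        polar C B hs' ht]
    have e2 : ⁅g * s * g⁻¹, y⁆ * ⁅s⁻¹, y⁆ = 1 := by
      rw [← comm_mul_left C (inv_mem hs') hyS]
      exact mul_eq_right.1 e1
    have e3 : ⁅s, y⁆ * ⁅s⁻¹, y⁆ = 1 := by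
      rw [← comm_mul_left C (inv_mem hs') hyS, mul_inv_cancel, commutatorElement_def]
      group
    have e4 := mul_right_cancel (e2.trans e3.symm)
    rw [← e4, ← comm_conj C hs' (conj_inv_mem C hyS), show g * (g⁻¹ * y * g) * g⁻¹ = y by group]
  have h2 : y⁻¹ * (g⁻¹ * y * g) ∈ Cfsg.Geo.scalars (Fin n) F := by
    refine scalar_of_comm C (mul_mem (inv_mem hyS) (conj_inv_mem C hyS)) fun s hs => ?_
    have hs' : s ∈ R ⊔ Cfsg.Geo.scalars (Fin n) F := Subgroup.mem_sup_left hs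
    rw [← inv_eq_one, commutatorElement_inv, comm_mul_right C hs' (inv_mem hyS) (conj_inv_mem C hyS),
      h1 s hs, ← comm_mul_right C hs' (inv_mem hyS) hyS, inv_mul_cancel, commutatorElement_def]
    group
  rw [← QuotientGroup.eq_one_iff] at h2
  simp only [QuotientGroup.mk_mul, QuotientGroup.mk_inv] at h2
  rw [inv_mul_eq_one] at h2
  show (g : _ ⧸ Cfsg.Geo.scalars (Fin n) F) * y = y * g
  conv_lhs => rw [h2]
  group

theorem HH_comm {ϖ : ℕ} (hodd : Odd ϖ) (hgp : g ^ ϖ = 1) {t : Matrix.GeneralLinearGroup (Fin n) F}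
    (ht : t ∈ R ⊔ Cfsg.Geo.scalars (Fin n) F) : H g (H g (H g t)) ∈ Cfsg.Geo.scalars (Fin n) F := by
  set π := QuotientGroup.mk' (Cfsg.Geo.scalars (Fin n) F) with hπ
  have hcomm : ∀ a b, a ∈ R ⊔ Cfsg.Geo.scalars (Fin n) F → b ∈ R ⊔ Cfsg.Geo.scalars (Fin n) F →
      Commute (π a) (π b) := fun a b ha hb => by
    rw [← commutatorElement_eq_one_iff_commute, ← map_commutatorElement]
    exact (QuotientGroup.eq_one_iff _).2 (comm_mem C ha hb).1
  have hS := H_mem C ht
  set a := H g t with ha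
  have hY := cubic C B ht
  simp only [← ha, map_mul, map_inv] at hY
  set G := π g with hG
  have hc1 := hcomm _ _ (conj_mem C (conj_mem C hS)) (inv_mem hS)
  have hc2 := hcomm _ _ (mul_mem (conj_mem C (conj_mem C hS)) (inv_mem hS)) (conj_mem C hS)
  simp only [map_mul, map_inv] at hc1 hc2
  set A := π a with hA
  have e1 : G * (G * A * G⁻¹) * G⁻¹ * A⁻¹ = G * A * G⁻¹ * (G⁻¹ * A⁻¹ * G) := by
    have h := congrArg (fun x => x * G⁻¹) hY.eq
    calc G * (G * A * G⁻¹) * G⁻¹ * A⁻¹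
        = G * (G * A * G⁻¹ * (G⁻¹ * A * G)⁻¹) * G⁻¹ := by group
      _ = G * A * G⁻¹ * (G⁻¹ * A * G)⁻¹ * G * G⁻¹ := h
      _ = _ := by group
  have e2 : G * (G * (G * A * G⁻¹) * G⁻¹) * G⁻¹ * (G * A⁻¹ * G⁻¹) = G * (G * A * G⁻¹) * G⁻¹ * A⁻¹ := by
    calc _ = G * (G * (G * A * G⁻¹) * G⁻¹ * A⁻¹) * G⁻¹ := by group
      _ = _ := by conv_lhs => rw [e1]
                  group
  have e3 : Commute (G * G) (G * A * G⁻¹ * A⁻¹) := by
    show _ = _
    calc G * G * (G * A * G⁻¹ * A⁻¹)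
        = G * (G * (G * A * G⁻¹) * G⁻¹) * G⁻¹ * (G * A⁻¹ * G⁻¹) * (G * A * G⁻¹) *
            (G * (G * A * G⁻¹) * G⁻¹)⁻¹ * (G * G) := by group
      _ = G * (G * A * G⁻¹) * G⁻¹ * A⁻¹ * (G * A * G⁻¹) * (G * (G * A * G⁻¹) * G⁻¹)⁻¹ * (G * G) := by rw [e2]
      _ = G * A * G⁻¹ * (G * (G * A * G⁻¹) * G⁻¹ * A⁻¹) * (G * (G * A * G⁻¹) * G⁻¹)⁻¹ * (G * G) := by
          rw [hc2.eq]
      _ = G * A * G⁻¹ * (A⁻¹ * (G * (G * A * G⁻¹) * G⁻¹)) * (G * (G * A * G⁻¹) * G⁻¹)⁻¹ * (G * G) := by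
          rw [hc1.eq]
      _ = _ := by simp [mul_assoc]
  obtain ⟨k, rfl⟩ := hodd
  have e4 : G = (G * G) ^ (k + 1) := by
    rw [← pow_two, ← pow_mul, show 2 * (k + 1) = (2 * k + 1) + 1 by ring, pow_succ, hG, ← map_pow, hgp,
      map_one, one_mul]
  have e5 : Commute G (G * A * G⁻¹ * A⁻¹) := by
    conv => arg 1; rw [e4]
    exact e3.pow_left _
  rw [← QuotientGroup.eq_one_iff]
  show π _ = 1
  simp only [H, map_mul, map_inv, ← hG, ← hA]
  rw [mul_inv_eq_one, mul_inv_eq_iff_eq_mul]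
  exact e5.eq

theorem eq_prime {ϖ : ℕ} [Fact ϖ.Prime] (hϖ : ϖ ≠ 2) (hgp : g ^ ϖ = 1) : ϖ = r := by
  by_contra hne
  have hodd : Odd ϖ := (Nat.Prime.eq_two_or_odd' Fact.out).resolve_left hϖ
  set π := QuotientGroup.mk' (Cfsg.Geo.scalars (Fin n) F) with hπ
  have step : ∀ v, v ∈ R ⊔ Cfsg.Geo.scalars (Fin n) F → H g (H g v) ∈ Cfsg.Geo.scalars (Fin n) F →
      H g v ∈ Cfsg.Geo.scalars (Fin n) F := by
    intro v hv hHH
    have hw := H_mem C hv
    have hGw : Commute (π g) (π (H g v)) := by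
      have h1 : π (H g (H g v)) = 1 := (QuotientGroup.eq_one_iff _).2 hHH
      simp only [H, map_mul, map_inv] at h1 ⊢
      rwa [mul_inv_eq_one, mul_inv_eq_iff_eq_mul] at h1
    have hk : ∀ k : ℕ, π g ^ k * π v * (π g ^ k)⁻¹ = π (H g v) ^ k * π v := by
      intro k
      induction k with
      | zero => simp
      | succ k ih =>
        calc π g ^ (k + 1) * π v * (π g ^ (k + 1))⁻¹ = π g * (π g ^ k * π v * (π g ^ k)⁻¹) * (π g)⁻¹ := by
              rw [pow_succ']; group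
          _ = π g * π (H g v) ^ k * π v * (π g)⁻¹ := by rw [ih]; group
          _ = π (H g v) ^ k * (π g * π v * (π g)⁻¹ * (π v)⁻¹) * π v := by
              rw [(hGw.pow_right k).eq]; group
          _ = _ := by
              rw [show π g * π v * (π g)⁻¹ * (π v)⁻¹ = π (H g v) by simp only [H, map_mul, map_inv],
                ← pow_succ]
    have h1 := hk ϖ
    rw [← map_pow, hgp, map_one, one_mul, inv_one, mul_one, right_eq_mul] at h1
    have h2 : π (H g v) ^ r = 1 := by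
      rw [← map_pow]; exact (QuotientGroup.eq_one_iff _).2 (pow_scalar C hw)
    have h3 : π (H g v) ^ Nat.gcd r ϖ = 1 := pow_gcd_eq_one.2 ⟨h2, h1⟩
    rw [(Nat.coprime_primes C.hr Fact.out).2 (Ne.symm hne), pow_one] at h3
    exact (QuotientGroup.eq_one_iff _).1 h3
  obtain ⟨t, ht, hne1⟩ := exists_H_ne C
  have ht' : t ∈ R ⊔ Cfsg.Geo.scalars (Fin n) F := Subgroup.mem_sup_left ht
  refine hne1 (B.one_of_scalar t ht' (step t ht' (step _ (H_mem C ht') ?_)))
  exact HH_comm C B hodd hgp ht'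

theorem exists_pair (hodd : Odd r) (hgp : g ^ r = 1) :
    ∃ u ∈ R, ∃ ρ ∈ R, ρ ∉ Cfsg.Geo.scalars (Fin n) F ∧ g * ρ = ρ * g ∧
      ∃ z ∈ Cfsg.Geo.scalars (Fin n) F, z ^ r = 1 ∧ g * u * g⁻¹ = z * (ρ * u) := by
  obtain ⟨t, ht, hne1⟩ := exists_H_ne C
  have ht' : t ∈ R ⊔ Cfsg.Geo.scalars (Fin n) F := Subgroup.mem_sup_left ht
  obtain ⟨v, hv, hv1, hv2⟩ : ∃ v ∈ R ⊔ Cfsg.Geo.scalars (Fin n) F, H g v ≠ 1 ∧
      H g (H g v) ∈ Cfsg.Geo.scalars (Fin n) F := by
    by_cases hc : H g (H g t) ∈ Cfsg.Geo.scalars (Fin n) F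
    · exact ⟨t, ht', hne1, hc⟩
    · refine ⟨H g t, H_mem C ht', fun e => hc ?_, HH_comm C B hodd hgp ht'⟩
      rw [e]; exact one_mem _
  obtain ⟨u, hu, a, ha, rfl⟩ := decomp C hv
  have hu' : u ∈ R ⊔ Cfsg.Geo.scalars (Fin n) F := Subgroup.mem_sup_left hu
  have hHu : H g (u * a) = H g u := by
    simp only [H]
    calc g * (u * a) * g⁻¹ * (u * a)⁻¹ = g * u * (a * g⁻¹) * a⁻¹ * u⁻¹ := by group
      _ = _ := by rw [scalar_comm ha g⁻¹]; group
  rw [hHu] at hv1 hv2
  have h1 := B.one_of_scalar _ (H_mem C hu') hv2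
  obtain ⟨ρ, hρ, z, hz, he⟩ := decomp C (H_mem C hu')
  refine ⟨u, hu, ρ, hρ, fun hs => hv1 (B.one_of_scalar u hu' (he ▸ mul_mem hs hz)), ?_, z, hz, ?_, ?_⟩
  · have h2 : g * (ρ * z) * g⁻¹ * (ρ * z)⁻¹ = 1 := by rw [← he]; exact h1
    rw [mul_inv_eq_one, mul_inv_eq_iff_eq_mul] at h2
    rw [← mul_right_cancel_iff (a := z), mul_assoc, h2, mul_assoc, scalar_comm hz g, ← mul_assoc]
  · have h3 : (g * u * g⁻¹) ^ r = 1 := by rw [conj_pow, C.hpow hodd u hu]; group
    rw [show g * u * g⁻¹ = H g u * u by simp [H], he,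
      show ρ * z * u = z * (ρ * u) by rw [← scalar_comm hz ρ, mul_assoc],
      Commute.mul_pow (scalar_comm hz _), C.hpow hodd _ (mul_mem hρ hu), mul_one] at h3
    exact h3
  · rw [show g * u * g⁻¹ = H g u * u by simp [H], he, ← scalar_comm hz ρ, mul_assoc]

theorem bound_r (hr5 : 5 ≤ r) (hgp : g ^ r = 1) {c : F} (hd : 0 < finrank F ((T g).eigenspace c)) :
    2 * finrank F ((T g).eigenspace c) ≤ n := by
  classical
  haveI : Fact r.Prime := ⟨C.hr⟩
  have hodd : Odd r := C.hr.odd_of_ne_two (by omega)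
  obtain ⟨u, hu, ρ, hρ, hρn, hgρ, z, hz, hzr, hgu⟩ := exists_pair C B hodd hgp
  have hρ' : ρ ∈ R ⊔ Cfsg.Geo.scalars (Fin n) F := Subgroup.mem_sup_left hρ
  have hu' : u ∈ R ⊔ Cfsg.Geo.scalars (Fin n) F := Subgroup.mem_sup_left hu
  obtain ⟨t0, -, μ, hμ, -⟩ := exists_shift C hρ' hρn
  let ψ : AddChar (ZMod r) F := AddChar.zmodChar r hμ.pow_eq_one
  have hψ : ∀ j : ZMod r, ψ j = μ ^ j.val := fun j => rfl
  have hψinj : Function.Injective ψ := fun i j h => by
    rw [hψ, hψ] at h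
    exact ZMod.val_injective _ (hμ.pow_inj (ZMod.val_lt i) (ZMod.val_lt j) h)
  have hψsurj : ∀ x : F, x ^ r = 1 → ∃ j, ψ j = x := fun x hx => by
    obtain ⟨i, hi, rfl⟩ := hμ.eq_pow_of_pow_eq_one hx
    exact ⟨i, by rw [hψ, ZMod.val_cast_of_lt hi]⟩
  have hpow : ∀ (x : Matrix.GeneralLinearGroup (Fin n) F) (a : F) (v : Fin n → F),
      T x v = a • v → ∀ k : ℕ, T (x ^ k) v = a ^ k • v := by
    intro x a v h k
    induction k with
    | zero => rw [pow_zero, T_one, pow_zero, one_smul]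
    | succ k ih => rw [pow_succ, T_mul, h, map_smul, ih, smul_smul, pow_succ']
  obtain ⟨κ, -, hκm, hTκ⟩ := T_scalar hz
  obtain ⟨hbs, hbr⟩ := comm_mem C hρ' hu'
  obtain ⟨β, -, hβm, hTβ⟩ := T_scalar hbs
  obtain ⟨v0, hv0, hv0ne⟩ := Submodule.exists_mem_ne_zero_of_ne_bot
    (p := (T g).eigenspace c) (fun e => by rw [e, finrank_bot] at hd; exact lt_irrefl 0 hd)
  have root : ∀ (x : Matrix.GeneralLinearGroup (Fin n) F) (a : F), x ^ r = 1 → T x v0 = a • v0 → a ^ r = 1 := by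
    intro x a hx hv
    have h := hpow x a v0 hv r
    rw [hx, T_one] at h
    exact smul_left_injective F hv0ne (by simpa using h.symm)
  obtain ⟨c0, hc0⟩ := hψsurj c (root g c hgp (Module.End.mem_eigenspace_iff.1 hv0))
  obtain ⟨p, hp⟩ := hψsurj κ (root z κ hzr (hTκ v0))
  obtain ⟨b, hb⟩ := hψsurj β (root _ β hbr (hTβ v0))
  subst hc0; subst hp; subst hb
  let E : ZMod r → Submodule F (Fin n → F) := fun j => (T ρ).eigenspace (ψ j)
  let P : ZMod r → ZMod r → ℕ := fun a j => dimEig g (ψ a) (E j)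
  have step : ∀ a j, P a j ≤ P (a + (p + b + j)) (j + b) := by
    intro a j
    refine finrank_le_of_map (g := u) fun v hv => ?_
    obtain ⟨hv1, hv2⟩ := hv
    have hv1' := Module.End.mem_eigenspace_iff.1 hv1
    have hv2' := Module.End.mem_eigenspace_iff.1 hv2
    have hρu : T ρ (T u v) = ψ (j + b) • T u v := by
      have : ρ * u = ⁅ρ, u⁆ * (u * ρ) := by rw [commutatorElement_def]; group
      rw [← T_mul, this, T_mul, T_mul, hv2', map_smul, hTβ, smul_smul, AddChar.map_add_eq_mul, mul_comm (ψ j)]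
    refine ⟨Module.End.mem_eigenspace_iff.2 ?_, Module.End.mem_eigenspace_iff.2 hρu⟩
    have : g * u = z * (ρ * u) * g := by rw [← hgu]; group
    rw [← T_mul, this, T_mul, T_mul, hv1', map_smul, hTκ, smul_smul, T_mul, hρu, smul_smul]
    congr 1
    simp only [AddChar.map_add_eq_mul]
    ring
  let hf : ZMod r := (2 : ZMod r)⁻¹
  have h2 : (2 : ZMod r) ≠ 0 := by
    intro h
    have h' : ((2 : ℕ) : ZMod r) = 0 := by exact_mod_cast h
    rw [ZMod.natCast_eq_zero_iff] at h'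
    have := Nat.le_of_dvd two_pos h'
    omega
  have hhf : (2 : ZMod r) * hf = 1 := mul_inv_cancel₀ h2
  have iter : ∀ (k : ℕ) a j, P a j ≤ P (a + ((k : ZMod r) * (p + b + j) + b * k * (k - 1) * hf)) (j + k * b) := by
    intro k
    induction k with
    | zero => intro a j; simp
    | succ k ih =>
      intro a j
      refine ((ih a j).trans (step _ _)).trans_eq ?_
      congr 1
      · push_cast
        linear_combination (-(k : ZMod r) * b) * hhf
      · push_cast; ring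
  let A : ZMod r → ZMod r → ZMod r := fun k j => c0 + (k * (p + b + (j - k * b)) + b * k * (k - 1) * hf)
  have main1 : ∀ k, ∑ j, P c0 j ≤ ∑ j, P (A k j) j := by
    intro k
    rw [← Equiv.sum_comp (Equiv.subRight (k * b)) (fun j => P c0 j)]
    refine Finset.sum_le_sum fun j _ => ?_
    have h := iter k.val c0 (j - k * b)
    rw [ZMod.natCast_zmod_val, sub_add_cancel] at h
    exact h
  have hE : ∀ j, r * finrank F (E j) ≤ n := fun j => eig_bound C hρ' hρn (ψ j)
  have hP : ∀ j a, P a j ≤ finrank F (E j) := fun j a => Submodule.finrank_mono inf_le_right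
  have hsumP : ∀ j, ∑ a, P a j ≤ finrank F (E j) := fun j => by
    have h := sum_dimEig_le g (E j) (Finset.univ.image ψ)
    rwa [Finset.sum_image fun x _ y _ hxy => hψinj hxy] at h
  have hsumE : ∑ j, finrank F (E j) ≤ n := by
    have h := sum_dimEig_le ρ ⊤ (Finset.univ.image ψ)
    rw [Finset.sum_image fun x _ y _ hxy => hψinj hxy, finrank_top, Module.finrank_fin_fun] at h
    exact le_trans (Finset.sum_le_sum fun j _ => le_of_eq (by rw [dimEig, inf_top_eq])) h
  have hcomp : finrank F ((T g).eigenspace (ψ c0)) ≤ ∑ j, P c0 j := by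
    have hr0 : (r : F) ≠ 0 := by
      haveI := hμ.neZero'
      exact NeZero.ne _
    have hle : (T g).eigenspace (ψ c0) ≤ Finset.univ.sup fun j => (T g).eigenspace (ψ c0) ⊓ E j := by
      intro v hv
      have hv' := Module.End.mem_eigenspace_iff.1 hv
      have hρr : ρ ^ r = 1 := C.hpow hodd ρ hρ
      let w : ZMod r → Fin n → F := fun j => ∑ i : ZMod r, ψ (-(i * j)) • T (ρ ^ i.val) v
      have hwE : ∀ j, w j ∈ (T g).eigenspace (ψ c0) ⊓ E j := by
        intro j
        refine ⟨sum_mem fun i _ => Submodule.smul_mem _ _ (Module.End.mem_eigenspace_iff.2 ?_),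
          Module.End.mem_eigenspace_iff.2 ?_⟩
        · rw [← T_mul, ((show Commute g ρ from hgρ).pow_right i.val).eq, T_mul, hv', map_smul]
        · simp only [w, map_sum, map_smul, Finset.smul_sum, smul_smul, ← AddChar.map_add_eq_mul]
          refine Fintype.sum_equiv (Equiv.addRight (1 : ZMod r)) _ _ fun i => ?_
          simp only [Equiv.coe_addRight]
          rw [← T_mul, ← pow_succ',
            show ρ ^ (i + 1).val = ρ ^ (i.val + 1) by
              rw [ZMod.val_add, ZMod.val_one, ← pow_eq_pow_mod _ hρr]]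
          congr 2
          ring
      have hsum : ∑ j, w j = (r : F) • v := by
        simp only [w]
        rw [Finset.sum_comm, Finset.sum_eq_single (0 : ZMod r)]
        · rw [← Finset.sum_smul, ZMod.val_zero, pow_zero, T_one]
          simp [ZMod.card]
        · intro i _ hi
          rw [← Finset.sum_smul]
          have : ∑ j : ZMod r, ψ (-(i * j)) = 0 := by
            rw [Fintype.sum_equiv ((Equiv.mulLeft₀ i hi).trans (Equiv.neg _)) (fun j => ψ (-(i * j))) ψ
              (fun j => by simp)]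
            refine AddChar.sum_eq_zero_of_ne_one fun h => ?_
            exact one_ne_zero (hψinj (show ψ 1 = ψ 0 by rw [h, AddChar.one_apply, AddChar.one_apply]))
          rw [this, zero_smul]
        · simp
      have hmem : (r : F) • v ∈ Finset.univ.sup fun j => (T g).eigenspace (ψ c0) ⊓ E j :=
        hsum ▸ sum_mem fun j _ => Finset.le_sup (f := fun j => (T g).eigenspace (ψ c0) ⊓ E j) (Finset.mem_univ j) (hwE j)
      have := Submodule.smul_mem _ (r : F)⁻¹ hmem
      rwa [smul_smul, inv_mul_cancel₀ hr0, one_smul] at this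
    refine (Submodule.finrank_mono hle).trans ?_
    generalize (Finset.univ : Finset (ZMod r)) = S
    induction S using Finset.induction with
    | empty => simp
    | @insert x S hx ih =>
      rw [Finset.sup_insert, Finset.sum_insert hx]
      exact (Submodule.finrank_add_le_finrank_add_finrank _ _).trans (Nat.add_le_add_left ih _)
  suffices h : ∑ k, ∑ j, P (A k j) j ≤ 2 * n by
    have h1 : r * finrank F ((T g).eigenspace (ψ c0)) ≤ 2 * n := by
      refine le_trans ?_ h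
      calc r * finrank F ((T g).eigenspace (ψ c0)) ≤ ∑ _k : ZMod r, ∑ j, P c0 j := by
            simp only [Finset.sum_const, Finset.card_univ, ZMod.card, smul_eq_mul]
            exact Nat.mul_le_mul_left r hcomp
        _ ≤ _ := Finset.sum_le_sum fun k _ => main1 k
    nlinarith
  rw [Finset.sum_comm]
  rcases eq_or_ne b 0 with rfl | hb0
  · have hA : ∀ k j, A k j = c0 + k * (p + j) := fun k j => by simp [A]
    calc ∑ j, ∑ k, P (A k j) j ≤ ∑ j, (finrank F (E j) + if j = -p then n else 0) := by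
          refine Finset.sum_le_sum fun j _ => ?_
          by_cases hj : j = -p
          · rw [if_pos hj]
            refine le_add_left ((Finset.sum_le_sum fun k _ => hP j _).trans ?_)
            simpa [ZMod.card] using hE j
          · rw [if_neg hj, add_zero]
            refine le_trans (le_of_eq ?_) (hsumP j)
            refine Fintype.sum_equiv ((Equiv.mulRight₀ (p + j) (fun e => hj (eq_neg_of_add_eq_zero_right e))).trans
              (Equiv.addLeft c0)) _ _ fun k => ?_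
            simp [hA]
      _ ≤ 2 * n := by
          rw [Finset.sum_add_distrib, Finset.sum_ite_eq' Finset.univ (-p) (fun _ => n),
            if_pos (Finset.mem_univ _)]
          omega
  · calc ∑ j, ∑ k, P (A k j) j ≤ ∑ j, 2 * finrank F (E j) := by
          refine Finset.sum_le_sum fun j _ => ?_
          refine le_trans ?_ (Nat.mul_le_mul_left 2 (hsumP j))
          rw [← Finset.sum_fiberwise (Finset.univ : Finset (ZMod r)) (fun k => A k j), Finset.mul_sum]
          refine Finset.sum_le_sum fun a _ => ?_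
          rw [Finset.sum_congr rfl (fun k hk => by rw [(Finset.mem_filter.1 hk).2]), Finset.sum_const,
            smul_eq_mul]
          refine Nat.mul_le_mul_right _ ?_
          rcases (Finset.univ.filter fun k => A k j = a).eq_empty_or_nonempty with he | ⟨k₁, hk₁⟩
          · rw [he]; simp
          · have hd0 : b * (hf - 1) ≠ 0 := by
              refine mul_ne_zero hb0 fun e => ?_
              rw [sub_eq_zero] at e
              rw [e, mul_one] at hhf
              exact one_ne_zero (by linear_combination hhf : (1 : ZMod r) = 0)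
            have hsub : (Finset.univ.filter fun k => A k j = a) ⊆
                {k₁, -(p + b + j - b * hf) * (b * (hf - 1))⁻¹ - k₁} := by
              intro k hk
              rw [Finset.mem_insert, Finset.mem_singleton]
              rcases eq_or_ne k k₁ with h | h
              · exact Or.inl h
              · right
                have e : A k j = A k₁ j := (Finset.mem_filter.1 hk).2.trans (Finset.mem_filter.1 hk₁).2.symm
                have e2 : (k - k₁) * ((k + k₁) * (b * (hf - 1)) + (p + b + j - b * hf)) = 0 := by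
                  simp only [A] at e
                  linear_combination e
                have e3 := (mul_eq_zero.1 e2).resolve_left (sub_ne_zero.2 h)
                rw [eq_sub_iff_add_eq, neg_mul, ← neg_mul, eq_mul_inv_iff_mul_eq₀ hd0]
                linear_combination e3
            exact (Finset.card_le_card hsub).trans Finset.card_le_two
      _ ≤ 2 * n := by rw [← Finset.mul_sum]; omega

end

/-- Let F be a finite field, r a prime, and R an absolutely irreducible extraspecial r-group of exponent r or 4: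
eigenspace bounds for prime order elements of the normaliser. -/
theorem result {F : Type*} [Field F] [Fintype F] {n r ϖ : ℕ} (R : Subgroup (Matrix.GeneralLinearGroup (Fin n) F)) (hr : r.Prime) (hR : IsPGroup r R) (hZ : Nat.card (Subgroup.center R) = r) (hext : commutator R = Subgroup.center R) (hexp : Monoid.exponent R = r ∨ Monoid.exponent R = 4) (hirr : Cfsg.Geo.ActsAbsolutelyIrreducibly (Cfsg.Geo.matrixSet R)) (g : Matrix.GeneralLinearGroup (Fin n) F) (hg : g ∈ Cfsg.Geo.subgroupNormalizer (R ⊔ Cfsg.Geo.scalars (Fin n) F)) (hϖ : ϖ.Prime) (hord : orderOf g = ϖ) (hns : g ∉ Cfsg.Geo.scalars (Fin n) F) (c : F) :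
    (ϖ = 2 → 4 * Module.finrank F (Module.End.eigenspace (Matrix.toLin' (g : Matrix (Fin n) (Fin n) F)) c) ≤ 3 * n) ∧
    (ϖ = 3 → 3 * Module.finrank F (Module.End.eigenspace (Matrix.toLin' (g : Matrix (Fin n) (Fin n) F)) c) ≤ 2 * n) ∧
    (3 < ϖ → 2 * Module.finrank F (Module.End.eigenspace (Matrix.toLin' (g : Matrix (Fin n) (Fin n) F)) c) ≤ n) ∧
    (ϖ = 3 → ¬ 3 ∣ n → 2 * Module.finrank F (Module.End.eigenspace (Matrix.toLin' (g : Matrix (Fin n) (Fin n) F)) c) ≤ n) := by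
  haveI : Fact ϖ.Prime := ⟨hϖ⟩
  change (ϖ = 2 → 4 * finrank F ((T g).eigenspace c) ≤ 3 * n) ∧
    (ϖ = 3 → 3 * finrank F ((T g).eigenspace c) ≤ 2 * n) ∧
    (3 < ϖ → 2 * finrank F ((T g).eigenspace c) ≤ n) ∧
    (ϖ = 3 → ¬ 3 ∣ n → 2 * finrank F ((T g).eigenspace c) ≤ n)
  by_cases hd : 2 * finrank F ((T g).eigenspace c) ≤ n
  · exact ⟨fun _ => by omega, fun _ => by omega, fun _ => hd, fun _ _ => hd⟩
  rw [not_le] at hd
  have hcent : ∀ x : Matrix.GeneralLinearGroup (Fin n) F, (∀ y ∈ R, x * y = y * x) →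
      x ∈ Cfsg.Geo.scalars (Fin n) F := by
    intro x hx
    obtain ⟨a, ha⟩ := hirr.2 (x : Matrix (Fin n) (Fin n) F) (by
      rintro _ ⟨y, hy, rfl⟩
      exact congrArg Units.val (hx y hy))
    rcases eq_or_ne a 0 with rfl | ha0
    · exfalso
      refine hns ((Cfsg.Geo.mem_scalars_iff g).2 ⟨1, ?_⟩)
      rw [zero_smul] at ha
      have h0 : (1 : Matrix (Fin n) (Fin n) F) = 0 := by
        rw [← Units.val_one (α := Matrix (Fin n) (Fin n) F), ← mul_inv_cancel x, Units.val_mul, ha, zero_mul]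
      rw [← mul_one (g : Matrix (Fin n) (Fin n) F), h0, mul_zero, smul_zero]
    · exact (Cfsg.Geo.mem_scalars_iff x).2 ⟨Units.mk0 a ha0, ha⟩
  have hz : ∀ x ∈ R, ∀ y ∈ R, x * y * x⁻¹ * y⁻¹ ∈ Cfsg.Geo.scalars (Fin n) F ∧ (x * y * x⁻¹ * y⁻¹) ^ r = 1 := by
    intro x hx y hy
    have hm : ⁅(⟨x, hx⟩ : R), ⟨y, hy⟩⁆ ∈ commutator R :=
      Subgroup.commutator_mem_commutator (Subgroup.mem_top _) (Subgroup.mem_top _)
    rw [hext] at hm
    refine ⟨hcent _ fun w hw => ?_, ?_⟩
    · exact (congrArg Subtype.val (Subgroup.mem_center_iff.1 hm ⟨w, hw⟩)).symm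
    · have h := pow_card_eq_one' (G := Subgroup.center R) (x := ⟨_, hm⟩)
      rw [hZ] at h
      exact congrArg (fun q : Subgroup.center R => ((q : R) : Matrix.GeneralLinearGroup (Fin n) F)) h
  have hpow : Odd r → ∀ x ∈ R, x ^ r = 1 := by
    intro hodd x hx
    have hexp' : Monoid.exponent R = r := by
      refine hexp.resolve_right fun h4 => ?_
      obtain ⟨k, hk⟩ := Monoid.exponent_dvd_of_forall_pow_eq_one (G := R) (n := Nat.card R)
        (fun a => pow_card_eq_one') |> fun h => h4 ▸ h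
      haveI : Fact r.Prime := ⟨hr⟩
      obtain ⟨l, hl⟩ := IsPGroup.iff_card.1 hR
      have h2 : 2 ∣ r ^ l := hl ▸ hk ▸ ⟨2 * k, by ring⟩
      exact Nat.not_even_iff_odd.2 (hodd.pow (n := l)) (even_iff_two_dvd.2 h2)
    have h := Monoid.pow_exponent_eq_one (⟨x, hx⟩ : R)
    rw [hexp'] at h
    exact congrArg Subtype.val h
  have C : Ctx R r g := ⟨hr, hz, hcent, hpow, fun x => Subgroup.mem_normalizer_iff.1 hg x, hns⟩
  have B := big_of C hd
  obtain ⟨t, ht, hne⟩ := exists_H_ne C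
  have htS : t ∈ R ⊔ Cfsg.Geo.scalars (Fin n) F := Subgroup.mem_sup_left ht
  have hHns : H g t ∉ Cfsg.Geo.scalars (Fin n) F := fun hs => hne (B.one_of_scalar t htS hs)
  have hb := eig_bound C (H_mem C htS) hHns 1
  have hi := (inter_bound C (c := c) (by omega) t).trans
    (Nat.add_le_add_left (Submodule.finrank_mono inf_le_left) n)
  have hr2 := hr.two_le
  have hgp : g ^ ϖ = 1 := hord ▸ pow_orderOf_eq_one g
  have h34 : 4 * finrank F ((T g).eigenspace c) ≤ 3 * n := by nlinarith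
  refine ⟨fun _ => h34, fun h3 => ?_, fun h5 => ?_, fun h3 hn3 => ?_⟩
  · have := eq_prime C B (ϖ := ϖ) (by omega) hgp
    subst this
    subst h3
    omega
  · have := eq_prime C B (ϖ := ϖ) (by omega) hgp
    subst this
    have h4 : 5 ≤ ϖ := by
      rcases Nat.lt_or_ge ϖ 5 with h | h
      · interval_cases ϖ; exact absurd hr (by norm_num)
      · exact h
    exact bound_r C B h4 hgp (by omega)
  · have := eq_prime C B (ϖ := ϖ) (by omega) hgp
    subst this
    subst h3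
    exact absurd (r_dvd C (H_mem C htS) hHns) hn3

end Cfsg.Agent.S5877

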