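import Cfsg.Agent.Lib.PSLTwo.Over
import Cfsg.Statements.S5938

set_option linter.style.longLine false

open Matrix MulAction OnePoint
open scoped MatrixGroups
open Cfsg.Agent.Lib.PSLTwo

namespace Cfsg.Agent.S5938

/-- Let p be a prime with p ≡ ±1 (mod 8) and F a field with p elements. Then PSL_2(F) has a maximal subgroup isomorphic to the symmetric group S_4. -/
theorem result {F : Type*} [Field F] [Fintype F] (p : ℕ) [Fact p.Prime] (hF : Fintype.card F = p) (hp : p % 8 = 1 ∨ p % 8 = 7) : ∃ H : Subgroup (Matrix.ProjectiveSpecialLinearGroup (Fin 2) F), IsCoatom H ∧ Nonempty (H ≃* Equiv.Perm (Fin 4)) := by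
  classical
  haveI : CharP F p := charP_of_card_eq_prime hF
  have hpp : p.Prime := Fact.out
  have hodd : Odd (Fintype.card F) := by rw [hF, Nat.odd_iff]; omega
  have h7 : 7 ≤ p := by have := hpp.two_le; omega
  have h2 : (2 : F) ≠ 0 := Ring.two_ne_zero (ringChar_ne_two hodd)
  obtain ⟨a, b, hxy⟩ := exists_sum_sq_neg_one F
  obtain ⟨E, _, _, _, hE⟩ := exists_quadExt F
  have hsq : IsSquare (2 : F) := by rw [FiniteField.isSquare_two_iff, hF]; omega
  have hle : qN hxy ≤ Lsub F := (qN_le_Lsub_iff hxy h2).mpr hsq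
  have hno : NoFix E (qN hxy) := qA_no_fix hE hxy h2 (qA_le_qN hxy h2)
  have hL := two_card_L hodd
  rw [hF] at hL
  have h336 : 7 * (7 ^ 2 - 1) ≤ p * (p ^ 2 - 1) := nat_cube_mono h7
  have hM : MaxIn (qN hxy) (Lsub F) := by
    refine ⟨lt_of_le_of_ne hle fun e => ?_, fun X hX1 hX2 => ?_⟩
    · rw [← e, card_qN hxy h2] at hL
      norm_num at h336
      omega
    have hdvd : 24 ∣ Nat.card X := card_qN hxy h2 ▸ Subgroup.card_dvd_of_le hX1
    rcases big_of_noFix (p := p) hE (hno.mono hX1) with ⟨-, hc, -⟩ | ⟨-, hc, -⟩ | ⟨-, hc, -⟩ | ⟨K, γ, hq, h⟩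
    · rw [hc] at hdvd; norm_num at hdvd
    · exact Or.inl (Subgroup.eq_of_le_of_card_ge hX1 (le_of_eq (by rw [hc, card_qN hxy h2]))).symm
    · rw [hc] at hdvd; norm_num at hdvd
    · obtain ⟨m, hm, hm'⟩ := exists_card_pow K
      rw [hF] at hm'
      have : Nat.card K = Fintype.card F := by
        rcases (Nat.dvd_prime hpp).mp (hm' ▸ dvd_pow_self (Nat.card K) (by omega)) with e | e
        · omega
        · rw [hF, e]
      exact Or.inr (eq_Lsub_of_full hodd hX2 this h)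
  obtain ⟨H, hH, ⟨e⟩⟩ := exists_psl_subgroup hle
  obtain ⟨e'⟩ := qN_iso hxy h2
  exact ⟨H, (isCoatom_iff_maxIn H).mpr (hH ▸ hM), ⟨e.trans e'⟩⟩

end Cfsg.Agent.S5938
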