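import Cfsg.Agent.Lib.PSLTwo.SubfieldMax
import Cfsg.Statements.S5941

set_option linter.style.longLine false

open Matrix MulAction OnePoint
open scoped MatrixGroups
open Cfsg.Agent.Lib.PSLTwo

namespace Cfsg.Agent.S5941

/-- Let K and F be finite fields of odd characteristic with #F = (#K)². Then PSL_2(F) has a maximal subgroup isomorphic to PGL_2(K). -/
theorem result {F K : Type*} [Field F] [Fintype F] [Field K] [Fintype K] (q : ℕ) (hK : Fintype.card K = q) (hF : Fintype.card F = q ^ 2) (hq : Odd q) : ∃ H : Subgroup (Matrix.ProjectiveSpecialLinearGroup (Fin 2) F), IsCoatom H ∧ Nonempty (H ≃* Matrix.ProjGenLinGroup (Fin 2) K) := by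
  classical
  obtain ⟨p, _, _, a, K', ha, hqa, hK', hF', ⟨eK⟩⟩ := subfield_setup hK hF two_ne_zero
  have hodd : Odd (Fintype.card F) := hF ▸ hq.pow
  have hq3 : 3 ≤ q := by
    have := Fintype.one_lt_card (α := K); obtain ⟨k, rfl⟩ := hq; omega
  have hq' : q < Fintype.card F := by rw [hF, sq]; exact lt_mul_self (by omega)
  have h2 : (2 : F) ≠ 0 := Ring.two_ne_zero (ringChar_ne_two hodd)
  obtain ⟨x, y, hxy⟩ := exists_sum_sq_neg_one F
  obtain ⟨E, _, _, _, hE⟩ := exists_quadExt F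
  have hle : subPGL K' ≤ Lsub F := (subPGL_le_Lsub_iff K').mpr
    ((forall_square_iff hodd K' (m := 2) (by rw [hK', hF])).mpr even_two)
  have hno : NoFix E (subPGL K') :=
    qA_no_fix hE hxy h2 (qA_le_subPGL hxy h2 (natCast_mem K' x) (natCast_mem K' y))
  have hL := two_card_L hodd
  have hcK : Nat.card (subPGL K') = q * (q ^ 2 - 1) := by rw [card_subPGL, hK']
  have h24 : 3 * (3 ^ 2 - 1) ≤ q * (q ^ 2 - 1) := nat_cube_mono hq3
  norm_num at h24
  have hbig : 2 * (q * (q ^ 2 - 1)) < Fintype.card F * (Fintype.card F ^ 2 - 1) := by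
    obtain ⟨t, ht⟩ : ∃ t, q ^ 2 = t + 1 := ⟨q ^ 2 - 1, by have := Nat.one_le_pow 2 q (by omega); omega⟩
    have ht8 : 8 ≤ t := by have := Nat.pow_le_pow_left hq3 2; omega
    rw [hF, ht, Nat.add_sub_cancel, show (t + 1) ^ 2 = t * (t + 2) + 1 by ring, Nat.add_sub_cancel]
    have h1 : q ≤ t + 1 := ht ▸ Nat.le_self_pow two_ne_zero q
    calc 2 * (q * t) ≤ 2 * ((t + 1) * t) := by gcongr
      _ < (t + 2) * ((t + 1) * t) := Nat.mul_lt_mul_of_pos_right (by omega) (Nat.mul_pos (by omega) (by omega))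
      _ = (t + 1) * (t * (t + 2)) := by ring
  have hM : MaxIn (subPGL K') (Lsub F) := by
    refine ⟨lt_of_le_of_ne hle fun e => ?_, fun X hX1 hX2 => ?_⟩
    · rw [← e, hcK] at hL; omega
    have hdvd : q * (q ^ 2 - 1) ∣ Nat.card X := hcK ▸ Subgroup.card_dvd_of_le hX1
    rcases big_of_noFix (p := p) hE (hno.mono hX1) with ⟨-, hc, -⟩ | ⟨-, hc, -⟩ | ⟨-, hc, -⟩ | ⟨K₁, γ, -, h⟩
    · rw [hc] at hdvd; have := Nat.le_of_dvd (by norm_num) hdvd; omega
    · rw [hc] at hdvd; have := Nat.le_of_dvd (by norm_num) hdvd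
      exact Or.inl (Subgroup.eq_of_le_of_card_ge hX1 (by omega)).symm
    · exfalso
      rw [hc] at hdvd
      have := Nat.le_of_dvd (by norm_num) hdvd
      by_cases h5 : 5 ≤ q
      · have : 5 * (5 ^ 2 - 1) ≤ q * (q ^ 2 - 1) := nat_cube_mono h5
        omega
      · obtain rfl : q = 3 := by obtain ⟨k, rfl⟩ := hq; omega
        norm_num at hdvd
    · by_cases hfull : Nat.card K₁ = Fintype.card F
      · exact Or.inr (eq_Lsub_of_full hodd hX2 hfull h)
      left
      refine (Subgroup.eq_of_le_of_card_ge hX1 ?_).symm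
      rcases card_of_subfield h with c | ⟨-, c⟩
      · rcases exponent_dvd ha hF' Nat.prime_two K₁ (one_dvd 2) (by rw [← hqa, one_mul, ← c]; exact hdvd) with e | e
        · rw [hcK, c, e, ← hqa]
        · exact absurd e hfull
      · rcases exponent_dvd ha hF' Nat.prime_two K₁ (dvd_refl 2)
          (by rw [← hqa, ← c]; exact (hdvd.mul_left 2).mul_left 2) with e | e
        · rw [hcK]; rw [e, ← hqa] at c; omega
        · exact absurd e hfull
  obtain ⟨H, hH, ⟨e⟩⟩ := exists_psl_subgroup hle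
  exact ⟨H, (isCoatom_iff_maxIn H).mpr (hH ▸ hM), ⟨e.trans ((subPGLEquiv K').symm.trans (pglCongr eK.symm))⟩⟩

end Cfsg.Agent.S5941
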