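import Cfsg.Agent.Lib.PSLTwo.SubfieldMax
import Cfsg.Statements.S5942

set_option linter.style.longLine false

open Matrix MulAction OnePoint
open scoped MatrixGroups
open Cfsg.Agent.Lib.PSLTwo

namespace Cfsg.Agent.S5942

/-- Let K and F be finite fields of odd characteristic with #F = (#K)^r for an odd prime r. Then PSL_2(F) has a maximal subgroup isomorphic to PSL_2(K). -/
theorem result {F K : Type*} [Field F] [Fintype F] [Field K] [Fintype K] (q r : ℕ) (hK : Fintype.card K = q) (hF : Fintype.card F = q ^ r) (hq : Odd q) (hr : r.Prime) (hr2 : r ≠ 2) : ∃ H : Subgroup (Matrix.ProjectiveSpecialLinearGroup (Fin 2) F), IsCoatom H ∧ Nonempty (H ≃* Matrix.ProjectiveSpecialLinearGroup (Fin 2) K) := by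
  classical
  obtain ⟨p, _, _, a, K', ha, hqa, hK', hF', ⟨eK⟩⟩ := subfield_setup hK hF hr.ne_zero
  have hodd : Odd (Fintype.card F) := hF ▸ hq.pow
  have hrodd : Odd r := hr.odd_of_ne_two hr2
  have hq3 : 3 ≤ q := by
    have := Fintype.one_lt_card (α := K); obtain ⟨k, rfl⟩ := hq; omega
  have hqF : q < Fintype.card F := by
    rw [hF]; exact lt_self_pow₀ (show 1 < q by omega) hr.one_lt
  have h2 : (2 : F) ≠ 0 := Ring.two_ne_zero (ringChar_ne_two hodd)
  obtain ⟨x, y, hxy⟩ := exists_sum_sq_neg_one F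
  obtain ⟨E, _, _, _, hE⟩ := exists_quadExt F
  have hnle : ¬ subPGL K' ≤ Lsub F := by
    rw [subPGL_le_Lsub_iff, forall_square_iff hodd K' (m := r) (by rw [hK', hF]), Nat.not_even_iff_odd]
    exact hrodd
  have hle : subPSL K' ≤ Lsub F := subPSL_le_Lsub K'
  have hqA : qA hxy h2 ≤ subPSL K' := by
    rw [← subPGL_inf_Lsub hodd K' hnle]
    exact le_inf (qA_le_subPGL hxy h2 (natCast_mem K' x) (natCast_mem K' y)) (qA_le_Lsub hxy h2)
  have hno : NoFix E (subPSL K') := qA_no_fix hE hxy h2 hqA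
  have hL := two_card_L hodd
  have hcK : 2 * Nat.card (subPSL K') = q * (q ^ 2 - 1) := by
    rw [two_mul_card_subPSL K' (hK' ▸ hq), hK']
  have hlt := nat_cube_lt hqF Fintype.one_lt_card
  have hsq3 : q = 3 → ¬ IsSquare (2 : F) := fun h => by
    obtain ⟨j, rfl⟩ := hrodd
    rw [FiniteField.isSquare_two_iff, hF, h, pow_succ, pow_mul, Nat.mul_mod, Nat.pow_mod]
    norm_num
  have h5 : q = 3 → ¬ 5 ∣ Fintype.card F * (Fintype.card F ^ 2 - 1) := fun h hd => by
    rcases (Nat.Prime.dvd_mul (by norm_num : Nat.Prime 5)).mp hd with d | d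
    · rw [hF, h] at d
      have := (Nat.prime_dvd_prime_iff_eq (by norm_num) (by norm_num)).mp
        ((by norm_num : Nat.Prime 5).dvd_of_dvd_pow d)
      omega
    · have : Fintype.card F ^ 2 % 5 = 4 := by
        obtain ⟨j, rfl⟩ := hrodd
        rw [hF, h, ← pow_mul, mul_comm, pow_mul, Nat.pow_mod]
        norm_num
        rw [pow_succ, pow_mul, Nat.mul_mod, Nat.pow_mod]
        norm_num
      omega
  have hM : MaxIn (subPSL K') (Lsub F) := by
    refine ⟨lt_of_le_of_ne hle fun e => ?_, fun X hX1 hX2 => ?_⟩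
    · rw [← e, hcK] at hL; omega
    have hdvd : q * (q ^ 2 - 1) ∣ 2 * Nat.card X := hcK ▸ Nat.mul_dvd_mul_left 2 (Subgroup.card_dvd_of_le hX1)
    have hq5 : ∀ m, q * (q ^ 2 - 1) ∣ 2 * m → 0 < m → m ≤ 60 → q = 3 ∨ (q = 5 ∧ m = 60) := by
      intro m hd hm0 hm
      have hle2 := Nat.le_of_dvd (by omega) hd
      by_cases h7 : 7 ≤ q
      · have : 7 * (7 ^ 2 - 1) ≤ q * (q ^ 2 - 1) := nat_cube_mono h7
        omega
      · rcases (show q = 3 ∨ q = 5 by obtain ⟨k, rfl⟩ := hq; omega) with rfl | rfl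
        · exact Or.inl rfl
        · refine Or.inr ⟨rfl, ?_⟩
          norm_num at hd
          omega
    rcases big_of_noFix (p := p) hE (hno.mono hX1) with ⟨-, hc, -⟩ | ⟨-, hc, -⟩ | ⟨-, hc, -⟩ | ⟨K₁, γ, -, h⟩
    · rcases hq5 12 (hc ▸ hdvd) (by norm_num) (by norm_num) with rfl | ⟨-, h⟩
      · exact Or.inl (Subgroup.eq_of_le_of_card_ge hX1 (by norm_num at hcK; omega)).symm
      · norm_num at h
    · rcases hq5 24 (hc ▸ hdvd) (by norm_num) (by norm_num) with e | ⟨-, h⟩
      · exact absurd ((qN_le_Lsub_iff hxy h2).mp (eq_qN_of_card hxy h2 (hqA.trans hX1) hc ▸ hX2)) (hsq3 e)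
      · norm_num at h
    · rcases hq5 60 (hc ▸ hdvd) (by norm_num) (by norm_num) with e | ⟨rfl, -⟩
      · refine absurd ?_ (h5 e)
        rw [← hL]
        exact ((by norm_num : 5 ∣ 60).trans (hc ▸ Subgroup.card_dvd_of_le hX2)).mul_left 2
      · exact Or.inl (Subgroup.eq_of_le_of_card_ge hX1 (by norm_num at hcK; omega)).symm
    · by_cases hfull : Nat.card K₁ = Fintype.card F
      · exact Or.inr (eq_Lsub_of_full hodd hX2 hfull h)
      left
      have hK₁ : Nat.card K₁ = q := by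
        rcases card_of_subfield h with c | ⟨-, c⟩
        · rcases exponent_dvd ha hF' hr K₁ (dvd_refl 2) (by rw [← hqa, ← c]; exact hdvd) with e | e
          · rw [e, hqa]
          · exact absurd e hfull
        · rcases exponent_dvd ha hF' hr K₁ (one_dvd 2) (by rw [← hqa, one_mul, ← c]; exact hdvd) with e | e
          · rw [e, hqa]
          · exact absurd e hfull
      obtain rfl : K₁ = K' := subfield_eq_of_card (hK₁.trans hK'.symm)
      rcases h with h | ⟨-, h⟩
      · exact absurd (h ▸ conj_le_Lsub hX2 γ) hnle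
      · exact (Subgroup.eq_of_le_of_card_ge hX1 (by rw [← card_conj_map X γ, h])).symm
  obtain ⟨H, hH, ⟨e⟩⟩ := exists_psl_subgroup hle
  exact ⟨H, (isCoatom_iff_maxIn H).mpr (hH ▸ hM), ⟨e.trans ((subPSLEquiv K').symm.trans (pslCongr eK.symm))⟩⟩

end Cfsg.Agent.S5942
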