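import Cfsg.Agent.Lib.PSLTwo.SubfieldMax
import Cfsg.Statements.S5943

set_option linter.style.longLine false

open Matrix MulAction OnePoint
open scoped MatrixGroups
open Cfsg.Agent.Lib.PSLTwo

namespace Cfsg.Agent.S5943

/-- Let K and F be finite fields of characteristic 2 with #K = q > 2 and #F = q^r for a prime r. Then PSL_2(F) has a maximal subgroup isomorphic to PSL_2(K) (which equals PGL_2(K) in characteristic 2). -/
theorem result {F K : Type*} [Field F] [Fintype F] [Field K] [Fintype K] (q r : ℕ) (hK : Fintype.card K = q) (hF : Fintype.card F = q ^ r) (hq : Even q) (hq2 : q ≠ 2) (hr : r.Prime) : ∃ H : Subgroup (Matrix.ProjectiveSpecialLinearGroup (Fin 2) F), IsCoatom H ∧ Nonempty (H ≃* Matrix.ProjectiveSpecialLinearGroup (Fin 2) K) := by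
  classical
  obtain ⟨p, _, _, a, K', ha, hqa, hK', hF', ⟨eK⟩⟩ := subfield_setup hK hF hr.ne_zero
  have hpp : p.Prime := Fact.out
  have hp2 : p = 2 := ((Nat.prime_dvd_prime_iff_eq Nat.prime_two hpp).mp
    (Nat.prime_two.dvd_of_dvd_pow (n := a) (hqa ▸ hq.two_dvd))).symm
  have heven : Even (Fintype.card F) := hF ▸ hq.pow_of_ne_zero hr.ne_zero
  have hLtop := Lsub_eq_top_of_even (F := F) heven
  have hq4 : 4 ≤ q := by
    have := Fintype.one_lt_card (α := K); obtain ⟨k, rfl⟩ := hq; omega
  have hqF : q < Fintype.card F := by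
    rw [hF]; exact lt_self_pow₀ (show 1 < q by omega) hr.one_lt
  obtain ⟨E, _, _, _, hE⟩ := exists_quadExt F
  have hKe : subPSL K' = subPGL K' := subPSL_eq_subPGL_of_even K' (hK' ▸ hq)
  have hcK : Nat.card (subPGL K') = q * (q ^ 2 - 1) := by rw [card_subPGL, hK']
  have hpgl := card_pgl (F := F)
  have hlt := nat_cube_lt hqF Fintype.one_lt_card
  have hM : MaxIn (subPGL K') (Lsub F) := by
    refine ⟨?_, fun X hX1 _ => ?_⟩
    · rw [hLtop]
      refine lt_top_iff_ne_top.mpr fun e => ?_
      rw [e, Subgroup.card_top] at hcK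
      omega
    have ht : trans' (1 : F) ∈ X := hX1 (trans'_mem_subPGL (one_mem K'))
    have hw : winv (1 : F) one_ne_zero ∈ X := hX1 (winv_mem_subPGL one_ne_zero (one_mem K'))
    have hdvd : q * (q ^ 2 - 1) ∣ Nat.card X := hcK ▸ Subgroup.card_dvd_of_le hX1
    have h60 : 4 * (4 ^ 2 - 1) ≤ q * (q ^ 2 - 1) := nat_cube_mono hq4
    have tne : trans' (1 : F) ≠ 1 := fun e => by
      have := trans'_smul (1 : F) 0
      rw [e, one_smul, zero_add] at this
      exact zero_ne_one (OnePoint.coe_injective this)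
    have hp1 : trans' (1 : F) ^ p = 1 := by
      rw [hp2, pow_two, ← trans'_add]
      haveI : CharP F 2 := hp2 ▸ inferInstance
      rw [CharTwo.add_self_eq_zero, trans'_zero]
    have hfix : ∀ z : OnePoint E, ¬ ∀ g ∈ X, g • z = z := by
      intro z hz
      obtain ⟨b, rfl⟩ := pElem_isRat hE tne hp1 (hz _ ht)
      have e1 : trans' (1 : F) • b = b := inc_injective (E := E) (by rw [inc_smul]; exact hz _ ht)
      have e2 : winv (1 : F) one_ne_zero • b = b := inc_injective (E := E) (by rw [inc_smul]; exact hz _ hw)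
      induction b using OnePoint.rec with
      | infty =>
        rw [winv, mk_smul_self, OnePoint.smul_infty_def] at e2
        simp at e2
      | coe c =>
        rw [trans'_smul] at e1
        exact one_ne_zero (add_eq_left.mp (OnePoint.coe_injective e1))
    have hpair : ∀ u v : OnePoint E, IsTorusPair F u v → ¬ X ≤ pairStab F u v := by
      intro u v huv hXP
      obtain ⟨hc, -⟩ := pairStab_spec hE huv
      have hd : 4 ∣ Nat.card (pairStab F u v) := by
        refine dvd_trans ?_ (hdvd.trans (Subgroup.card_dvd_of_le hXP))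
        refine Dvd.dvd.mul_right ?_ _
        rw [hqa, hp2]
        have : a ≠ 1 := fun e => hq2 (by rw [hqa, hp2, e, pow_one])
        exact pow_dvd_pow 2 (show 2 ≤ a by omega)
      obtain ⟨k, hk⟩ := heven
      rcases card_torus_cases hE huv with e | e <;> rw [hc, e] at hd <;> omega
    rcases big_of_noFix (p := p) hE (⟨hfix, hpair⟩ : NoFix E X) with
      ⟨hp, -, -⟩ | ⟨hp, -, -⟩ | ⟨hp, -, -⟩ | ⟨K₁, γ, -, h⟩
    · exact absurd (hp2 ▸ by norm_num) hp
    · exact absurd (hp2 ▸ by norm_num) hp
    · rcases hp with hp | hp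
      · exact absurd (hp2 ▸ by norm_num) hp
      · omega
    · have hKev : Even (Nat.card K₁) := by
        obtain ⟨b, hb, e⟩ := card_subfield_eq_pow p K₁
        rw [e, hp2]; exact even_two.pow_of_ne_zero (by omega)
      rcases card_of_subfield h with c | ⟨ho, -⟩
      · rcases exponent_dvd ha hF' hr K₁ (one_dvd 2) (by rw [← hqa, one_mul, ← c]; exact hdvd) with e | e
        · exact Or.inl (Subgroup.eq_of_le_of_card_ge hX1 (by rw [hcK, c, e, hqa])).symm
        · refine Or.inr ?_
          rw [hLtop]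
          exact Subgroup.eq_top_of_card_eq _ (by rw [c, e, hpgl])
      · exact absurd hKev (Nat.not_even_iff_odd.mpr ho)
  obtain ⟨H, hH, ⟨e⟩⟩ := exists_psl_subgroup (X := subPGL K') (hLtop ▸ le_top)
  exact ⟨H, (isCoatom_iff_maxIn H).mpr (hH ▸ hM),
    ⟨e.trans ((MulEquiv.subgroupCongr hKe.symm).trans ((subPSLEquiv K').symm.trans (pslCongr eK.symm)))⟩⟩

end Cfsg.Agent.S5943
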