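import Cfsg.Statements.S5944
import Mathlib

set_option autoImplicit false
open Cfsg

namespace Cfsg.Agent.S5944

/-- For n ≠ 4, every proper subgroup of the symmetric group S_n other than the alternating group A_n has index at least n. -/
theorem result (n : ℕ) (hn : n ≠ 4) (H : Subgroup (Equiv.Perm (Fin n))) (hH : H ≠ ⊤) (hA : H ≠ alternatingGroup (Fin n)) : n ≤ H.index := by
  classical
  by_contra hlt
  push_neg at hlt
  have h2 : 2 ≤ H.index := by
    have := H.index_ne_zero_of_finite
    have : H.index ≠ 1 := fun h => hH (Subgroup.index_eq_one.1 h)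
    omega
  by_cases h5 : 5 ≤ n
  · let f := MulAction.toPermHom (Equiv.Perm (Fin n)) (Equiv.Perm (Fin n) ⧸ H)
    have hker : f.ker ≠ ⊥ := by
      intro hb
      have h := Nat.card_le_card_of_injective f ((MonoidHom.ker_eq_bot_iff f).1 hb)
      rw [Nat.card_perm, Nat.card_perm, Nat.card_fin, ← Subgroup.index_eq_card] at h
      exact absurd h (not_le.2 ((Nat.factorial_lt (by omega)).2 hlt))
    have hle : alternatingGroup (Fin n) ≤ f.ker :=
      Equiv.Perm.alternatingGroup_le_of_normal (by simpa using h5) ((Subgroup.nontrivial_iff_ne_bot _).2 hker)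
    have hAH : alternatingGroup (Fin n) ≤ H := hle.trans (by
      rw [← Subgroup.normalCore_eq_ker]; exact Subgroup.normalCore_le H)
    have : Nontrivial (Fin n) := Fin.nontrivial_iff_two_le.2 (by omega)
    have h3 := Subgroup.relIndex_mul_index hAH
    rw [alternatingGroup.index_eq_two] at h3
    rcases (Nat.dvd_prime Nat.prime_two).1 (Dvd.intro_left _ h3) with h | h
    · omega
    · exact hA (Equiv.Perm.eq_alternatingGroup_of_index_eq_two h)
  · have h3 : n = 3 ∧ H.index = 2 := by omega
    exact hA (Equiv.Perm.eq_alternatingGroup_of_index_eq_two h3.2)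

end Cfsg.Agent.S5944
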