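import Cfsg.Statements.S5945
import Cfsg.Agent.Lib.SymmIndex

set_option autoImplicit false
open Cfsg

namespace Cfsg.Agent.S5945

/-- The symmetric group S_6 has exactly 12 subgroups of index 6; each of them is isomorphic to S_5, and at least one of them is not the stabilizer of any point. -/
theorem result : Nat.card {H : Subgroup (Equiv.Perm (Fin 6)) // H.index = 6} = 12 ∧ (∀ H : Subgroup (Equiv.Perm (Fin 6)), H.index = 6 → Nonempty (H ≃* Equiv.Perm (Fin 5))) ∧ ∃ H : Subgroup (Equiv.Perm (Fin 6)), H.index = 6 ∧ ∀ a : Fin 6, H ≠ MulAction.stabilizer (Equiv.Perm (Fin 6)) a := by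
  obtain ⟨ψ, hψ⟩ := Cfsg.Agent.Lib.SymmIndex.index_six_cases (Ω := Fin 6) (Fintype.card_fin 6)
  have hne := Cfsg.Agent.Lib.SymmIndex.transitive_of_map (Ω := Fin 6) (Fintype.card_fin 6) hψ
  refine ⟨?_, fun H hH => ?_, ?_⟩
  · rw [show (12 : ℕ) = Nat.card (Fin 6 ⊕ Fin 6) by simp]
    refine (Nat.card_eq_of_bijective (Sum.elim
      (fun x => (⟨_, (hψ _).2 (Or.inl ⟨x, rfl⟩)⟩ : {H : Subgroup (Equiv.Perm (Fin 6)) // H.index = 6}))
      (fun x => ⟨_, (hψ _).2 (Or.inr ⟨x, rfl⟩)⟩)) ⟨?_, ?_⟩).symm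
    · rintro (a | a) (b | b) h <;> simp only [Sum.elim_inl, Sum.elim_inr, Subtype.mk.injEq] at h
      · exact congrArg Sum.inl (Cfsg.Agent.Lib.SymmIndex.stab_injective (by simp) h)
      · exact absurd h.symm (hne b a)
      · exact absurd h (hne a b)
      · exact congrArg Sum.inr (Cfsg.Agent.Lib.SymmIndex.stab_injective (by simp)
          (Subgroup.map_injective ψ.injective h))
    · rintro ⟨H, hH⟩
      rcases (hψ H).1 hH with ⟨y, rfl⟩ | ⟨y, rfl⟩
      · exact ⟨Sum.inl y, rfl⟩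
      · exact ⟨Sum.inr y, rfl⟩
  · rcases (hψ H).1 hH with ⟨y, rfl⟩ | ⟨y, rfl⟩
    · exact Cfsg.Agent.Lib.SymmIndex.stab_equiv (Fintype.card_fin 6) y
    · obtain ⟨e⟩ := Cfsg.Agent.Lib.SymmIndex.stab_equiv (Fintype.card_fin 6) y
      exact ⟨((MulAction.stabilizer (Equiv.Perm (Fin 6)) y).equivMapOfInjective _ ψ.injective).symm.trans e⟩
  · exact ⟨_, (hψ _).2 (Or.inr ⟨0, rfl⟩), fun a => hne 0 a⟩

end Cfsg.Agent.S5945
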