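import Cfsg.Statements.S5950
import Cfsg.Agent.Lib.Elusive.Criterion
import Cfsg.Agent.Lib.Elusive.Count
import Cfsg.Agent.Lib.Elusive.Unipotent

set_option autoImplicit false
open scoped MatrixGroups
open Cfsg
open Cfsg.Agent.Lib.Elusive Cfsg.Agent.Lib.Jordan

namespace Cfsg.Agent.S5950

theorem two_parts {n m : ℕ} (hm : m ≤ n) (h : Odd n ∨ Even m) (μ : Multiset ℕ)
    (hμ : ∀ a ∈ μ, 0 < a ∧ a ≤ 2) (hs : μ.sum = n) : ∃ ν : Multiset ℕ, ν ≤ μ ∧ ν.sum = m := by
  have he : μ = Multiset.replicate (μ.count 2) 2 + Multiset.replicate (μ.count 1) 1 := by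
    ext a
    rw [Multiset.count_add, Multiset.count_replicate, Multiset.count_replicate]
    by_cases h2 : a = 2
    · subst h2; simp
    by_cases h1 : a = 1
    · subst h1; simp
    rw [if_neg (Ne.symm h2), if_neg (Ne.symm h1), add_zero, Multiset.count_eq_zero]
    intro ha
    have := hμ a ha
    omega
  have hs' : μ.count 2 * 2 + μ.count 1 = n := by
    have h' := congrArg Multiset.sum he
    rw [hs, Multiset.sum_add, Multiset.sum_replicate, Multiset.sum_replicate, smul_eq_mul,
      smul_eq_mul, mul_one] at h'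
    exact h'.symm
  refine ⟨Multiset.replicate (min (μ.count 2) (m / 2)) 2 +
    Multiset.replicate (m - 2 * min (μ.count 2) (m / 2)) 1, ?_, ?_⟩
  · conv_rhs => rw [he]
    refine add_le_add ((Multiset.replicate_mono 2 (min_le_left _ _)))
      ((Multiset.replicate_mono 1 ?_))
    rw [Nat.odd_iff, Nat.even_iff] at h
    omega
  · rw [Multiset.sum_add, Multiset.sum_replicate, Multiset.sum_replicate, smul_eq_mul, smul_eq_mul]
    omega

/-- Elements of prime order of PSL_n(q) fixing no decomposition `F^n = U ⊕ W` with `dim U = m`. Here `T = PSL_n(F)` for a field `F` with `q = p^f` elements (`n ≥ 2`, `(n, q) ≠ (2, 2), (2, 3)`); an element of `T` of prime order `r` is represented by a matrix `x` of determinant 1 with `x^r` scalar and `x` not scalar; `i` denotes the multiplicative order of `q` modulo `r` (when `r ≠ p`), and `(a)_r` the `r`-part of `a`. Let `n ≥ 3`, `1 ≤ m < n/2`, and let `r` be a prime dividing the number of such decompositions (unordered pairs `{U, W}` of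 complementary subspaces with `dim U = m`; since `m ≠ n − m` these are the ordered pairs with `dim U = m`). Then every element of `T` of order `r` fixes such a pair (fixes both `U` and `W` for some complementary `U, W` with `dim U = m`) if and only if one of: (i) `r = p > 2` and every partition of `n` into parts of size at most `p` contains, as a sub-multiset, a partition of `m`; (ii) `r = p = 2` and `n` is odd or `m` is even; (iii) `r ≠ p`, `i = 1`, and `r ∣ m` or `(q−1)_r ≥ (n)_r` (with `q ≡ 1 (mod 4)` required when `r = 2` and `n` is even); (iv) `r ≠ p`, `2 ≤ i ≤ m` and `n mod i ≥ m mod i`. -/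
theorem result {F : Type*} [Field F] [Fintype F] {p : ℕ} [Fact p.Prime] [CharP F p] {q : ℕ} (hq : Fintype.card F = q)
    (n m : ℕ) (hn : 3 ≤ n) (hm : 1 ≤ m) (hmn : 2 * m < n)
    (r : ℕ) [Fact r.Prime]
    (hrΩ : r ∣ Nat.card {P : Submodule F (Fin n → F) × Submodule F (Fin n → F) // IsCompl P.1 P.2 ∧ Module.finrank F ↥P.1 = m}) :
    (∀ x : Matrix.SpecialLinearGroup (Fin n) F,
      (∃ c : F, ((x ^ r : Matrix.SpecialLinearGroup (Fin n) F) : Matrix (Fin n) (Fin n) F) = c • (1 : Matrix (Fin n) (Fin n) F)) →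
      (∀ c : F, (x : Matrix (Fin n) (Fin n) F) ≠ c • (1 : Matrix (Fin n) (Fin n) F)) →
      ∃ U W : Submodule F (Fin n → F), IsCompl U W ∧ Module.finrank F ↥U = m ∧
        U.map (Matrix.toLin' (x : Matrix (Fin n) (Fin n) F)) ≤ U ∧ W.map (Matrix.toLin' (x : Matrix (Fin n) (Fin n) F)) ≤ W) ↔
    ((r = p ∧ 2 < p ∧ (∀ μ : Multiset ℕ, (∀ a ∈ μ, 0 < a ∧ a ≤ p) → μ.sum = n → ∃ ν : Multiset ℕ, ν ≤ μ ∧ ν.sum = m)) ∨
     (r = p ∧ p = 2 ∧ (Odd n ∨ Even m)) ∨
     (r ≠ p ∧
      ((orderOf (q : ZMod r) = 1 ∧ (r ∣ m ∨ (padicValNat r n ≤ padicValNat r (q - 1) ∧ (r = 2 → Even n → q % 4 = 1)))) ∨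
       (2 ≤ orderOf (q : ZMod r) ∧ orderOf (q : ZMod r) ≤ m ∧ m % orderOf (q : ZMod r) ≤ n % orderOf (q : ZMod r))))) := by
  classical
  subst hq
  have hn0 : n ≠ 0 := by omega
  have hfin : Module.finrank F (Fin n → F) = n := Module.finrank_fin_fun F
  by_cases hrp : r = p
  · subst hrp
    have key : (∀ μ : Multiset ℕ, (∀ a ∈ μ, 0 < a ∧ a ≤ r) → μ.sum = n →
        ∃ ν : Multiset ℕ, ν ≤ μ ∧ ν.sum = m) ↔
        (∀ x : Matrix.SpecialLinearGroup (Fin n) F,
          (∃ c : F, ((x ^ r : Matrix.SpecialLinearGroup (Fin n) F) : Matrix (Fin n) (Fin n) F) = c • (1 : Matrix (Fin n) (Fin n) F)) →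
          (∀ c : F, (x : Matrix (Fin n) (Fin n) F) ≠ c • (1 : Matrix (Fin n) (Fin n) F)) →
          ∃ U W : Submodule F (Fin n → F), IsCompl U W ∧ Module.finrank F ↥U = m ∧
            U.map (Matrix.toLin' (x : Matrix (Fin n) (Fin n) F)) ≤ U ∧
            W.map (Matrix.toLin' (x : Matrix (Fin n) (Fin n) F)) ≤ W) := by
      constructor
      · rintro h x hx -
        obtain ⟨l, N, μ, hxN, hN, hμ, hsum⟩ := exists_nilpotent hn0 hx
        obtain ⟨ν, hν, hνm⟩ := h μ hμ hsum
        obtain ⟨ν', rfl⟩ := Multiset.le_iff_exists_add.1 hν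
        obtain ⟨U, W, hUW, hU, hW, hdU⟩ := exists_split hN
        refine ⟨U, W, hUW, hdU.trans hνm, inv_iff_map_le.1 fun v hv => ?_,
          inv_iff_map_le.1 fun v hv => ?_⟩
        · rw [hxN]; exact U.smul_mem l (inv_add_one.2 hU v hv)
        · rw [hxN]; exact W.smul_mem l (inv_add_one.2 hW v hv)
      · intro h μ hμ hsum
        by_cases hne : μ = Multiset.replicate n 1
        · refine ⟨Multiset.replicate m 1, hne ▸ Multiset.replicate_mono 1 (by omega), by simp⟩
        obtain ⟨A, N, hN, hA, -, hAc, hns⟩ := exists_unipotent (F := F) hμ hsum hne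
        obtain ⟨U, W, hUW, hdU, hU, hW⟩ := h A hAc hns
        rw [← inv_iff_map_le, hA, inv_add_one] at hU hW
        obtain ⟨ν, hν, hs⟩ := exists_type_le hN hUW hU hW
        exact ⟨ν, hν, hs.trans hdU⟩
    rw [← key]
    constructor
    · intro h
      rcases eq_or_ne r 2 with rfl | h2
      · refine Or.inr (Or.inl ⟨rfl, rfl, ?_⟩)
        by_contra hne
        rw [Nat.odd_iff, Nat.even_iff] at hne
        obtain ⟨ν, hν, hs⟩ := h (Multiset.replicate (n / 2) 2)
          (fun a ha => by rw [Multiset.eq_of_mem_replicate ha]; omega)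
          (by rw [Multiset.sum_replicate, smul_eq_mul]; omega)
        obtain ⟨k, -, rfl⟩ := Multiset.le_replicate_iff.1 hν
        rw [Multiset.sum_replicate, smul_eq_mul] at hs
        omega
      · have := (Fact.out : r.Prime).two_le
        exact Or.inl ⟨rfl, by omega, h⟩
    · rintro (⟨-, -, h⟩ | ⟨-, h2, h⟩ | ⟨h, -⟩)
      · exact h
      · intro μ hμ hs
        exact two_parts (by omega) h μ (h2 ▸ hμ) hs
      · exact absurd rfl h
  constructor
  · intro h
    refine Or.inr (Or.inr ⟨hrp, ?_⟩)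
    by_contra hne
    have hcond : ¬ Cond (Fintype.card F) n m 0 r := fun hc => hne (by
      unfold Cond at hc; simpa using hc)
    obtain ⟨j, hj, hij⟩ := card_pairs_dvd hrp (by omega) hrΩ
    rw [hfin, Nat.card_eq_fintype_card] at hij
    obtain ⟨A, hA, hns, hno⟩ := exists_counterexample hrp hn0 hm (Or.inl rfl) (by omega)
      ⟨j, by omega, hij⟩ hcond
    obtain ⟨U, W, -, hU, hUi, -⟩ := h A hA hns
    exact hno U ⊤ (inv_iff_map_le.2 hUi) (fun _ _ => trivial) le_top hU
      (by rw [finrank_top, hfin, Nat.sub_zero])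
  · rintro (⟨h, -⟩ | ⟨h, -⟩ | ⟨-, hc⟩)
    · exact absurd h hrp
    · exact absurd h hrp
    rintro x hx -
    obtain ⟨X, Y, Z, hX, hY, hZ, htop, dX, dY, dsum⟩ := exists_config hrp hn0 (m := m) (m₂ := 0)
      (Or.inl rfl) (by omega) (by unfold Cond; simpa using hc) x hx
    refine ⟨X, Y ⊔ Z, ⟨?_, codisjoint_iff.2 (by rw [← sup_assoc, htop])⟩, dX, inv_iff_map_le.1 hX,
      inv_iff_map_le.1 (hY.sup hZ)⟩
    have h1 := Submodule.finrank_sup_add_finrank_inf_eq X (Y ⊔ Z)
    have h2 := Submodule.finrank_add_le_finrank_add_finrank Y Z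
    rw [← sup_assoc, htop, finrank_top, hfin] at h1
    rw [disjoint_iff]
    exact Submodule.finrank_eq_zero.1 (by omega)

end Cfsg.Agent.S5950
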