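import Cfsg.Statements.S5951
import Cfsg.Agent.Lib.Elusive.Criterion
import Cfsg.Agent.Lib.Elusive.Count

set_option autoImplicit false
open scoped MatrixGroups
open Cfsg
open Cfsg.Agent.Lib.Elusive

namespace Cfsg.Agent.S5951

/-- Elements of prime order of PSL_n(q) fixing no pair of subspaces `U < W` with `dim U = m`, `dim W = n − m`. Here `T = PSL_n(F)` for a field `F` with `q = p^f` elements (`n ≥ 2`, `(n, q) ≠ (2, 2), (2, 3)`); an element of `T` of prime order `r` is represented by a matrix `x` of determinant 1 with `x^r` scalar and `x` not scalar; `i` denotes the multiplicative order of `q` modulo `r` (when `r ≠ p`), and `(a)_r` the `r`-part of `a`. Let `1 ≤ m < n/2` and let `r` be a prime dividing the number of such pairs. Then every element of `T` of order `r` fixes such a pair (both `U` and `W`) if and only if `r ≠ p` and either (i) `i = 1` and (`r ∣ m`, or `(q−1)_r ≥ (n)_r` with `q ≡ 1 (mod 4)` required when `r = 2` and `n` is even), or (ii)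 `2 ≤ i ≤ m` and `n mod i ≥ 2 (m mod i)`. -/
theorem result {F : Type*} [Field F] [Fintype F] {p : ℕ} [Fact p.Prime] [CharP F p] {q : ℕ} (hq : Fintype.card F = q)
    (n m : ℕ) (hn : 2 ≤ n) (hT : (n, q) ≠ (2, 2) ∧ (n, q) ≠ (2, 3)) (hm : 1 ≤ m) (hmn : 2 * m < n)
    (r : ℕ) [Fact r.Prime]
    (hrΩ : r ∣ Nat.card {P : Submodule F (Fin n → F) × Submodule F (Fin n → F) //
        P.1 ≤ P.2 ∧ Module.finrank F ↥P.1 = m ∧ Module.finrank F ↥P.2 = n - m}) :
    (∀ x : Matrix.SpecialLinearGroup (Fin n) F,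
      (∃ c : F, ((x ^ r : Matrix.SpecialLinearGroup (Fin n) F) : Matrix (Fin n) (Fin n) F) = c • (1 : Matrix (Fin n) (Fin n) F)) →
      (∀ c : F, (x : Matrix (Fin n) (Fin n) F) ≠ c • (1 : Matrix (Fin n) (Fin n) F)) →
      ∃ U W : Submodule F (Fin n → F), U ≤ W ∧ Module.finrank F ↥U = m ∧ Module.finrank F ↥W = n - m ∧
        U.map (Matrix.toLin' (x : Matrix (Fin n) (Fin n) F)) ≤ U ∧ W.map (Matrix.toLin' (x : Matrix (Fin n) (Fin n) F)) ≤ W) ↔
    (r ≠ p ∧
      ((orderOf (q : ZMod r) = 1 ∧ (r ∣ m ∨ (padicValNat r n ≤ padicValNat r (q - 1) ∧ (r = 2 → Even n → q % 4 = 1)))) ∨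
       (2 ≤ orderOf (q : ZMod r) ∧ orderOf (q : ZMod r) ≤ m ∧ 2 * (m % orderOf (q : ZMod r)) ≤ n % orderOf (q : ZMod r)))) := by
  classical
  subst hq
  have hn0 : n ≠ 0 := by omega
  have hfin : Module.finrank F (Fin n → F) = n := Module.finrank_fin_fun F
  have hmn' : 2 * m ≤ Module.finrank F (Fin n → F) := by omega
  rw [← congrArg (· - m) hfin] at hrΩ
  have hrp : r ≠ p := fun h => card_flags_not_dvd_char (p := p) hmn' (h ▸ hrΩ)
  constructor
  · intro h
    refine ⟨hrp, ?_⟩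
    by_contra hne
    have hcond : ¬ Cond (Fintype.card F) n m m r := fun hc => hne (by
      unfold Cond at hc; simpa [two_mul] using hc)
    obtain ⟨j, hj, hij⟩ := card_flags_dvd hrp hmn' hrΩ
    rw [hfin, Nat.card_eq_fintype_card] at hij
    obtain ⟨A, hA, hns, hno⟩ := exists_counterexample hrp hn0 hm (Or.inr rfl) (by omega)
      ⟨j, by omega, hij⟩ hcond
    obtain ⟨U, W, hUW, hU, hW, hUi, hWi⟩ := h A hA hns
    exact hno U W (inv_iff_map_le.2 hUi) (inv_iff_map_le.2 hWi) hUW hU hW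
  · rintro ⟨-, hc⟩ x hx -
    obtain ⟨X, Y, Z, hX, hY, hZ, htop, dX, dY, dsum⟩ := exists_config hrp hn0 (m := m) (m₂ := m)
      (Or.inr rfl) (by omega) (by unfold Cond; simpa [two_mul] using hc) x hx
    refine ⟨X, X ⊔ Z, le_sup_left, dX, ?_, inv_iff_map_le.1 hX, inv_iff_map_le.1 (hX.sup hZ)⟩
    have h1 := Submodule.finrank_add_le_finrank_add_finrank X Z
    have h2 := Submodule.finrank_add_le_finrank_add_finrank (X ⊔ Z) Y
    rw [show X ⊔ Z ⊔ Y = ⊤ by rw [sup_right_comm, htop], finrank_top, hfin] at h2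
    omega

end Cfsg.Agent.S5951
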