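import Cfsg.Statements.S5952
import Mathlib.LinearAlgebra.FiniteDimensional.Basic
import Mathlib.Algebra.DirectSum.Module

set_option autoImplicit false
open Cfsg

namespace Cfsg.Agent.S5952

open Module in
/-- An invariant subspace containing the fixed space has dimension congruent to it. -/
theorem finrank_of_le {F V : Type*} [Field F] [AddCommGroup V] [Module F V]
    [FiniteDimensional F V] (f : V →ₗ[F] V) (a : ℕ) :
    ∀ (l : List (Submodule F V)), (∀ U ∈ l, U.map f ≤ U ∧ finrank F U = a ∧
        ∀ W : Submodule F V, W ≤ U → W.map f ≤ W → W = ⊥ ∨ W = U) →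
      ∀ M : Submodule F V, M.map f ≤ M → ∃ t, t ≤ l.length ∧
        finrank F (l.foldl (· ⊔ ·) M : Submodule F V) = finrank F M + a * t := by
  intro l
  induction l with
  | nil => exact fun _ M _ => ⟨0, le_rfl, by rw [mul_zero, add_zero]; rfl⟩
  | cons U l ih =>
    intro hl M hM
    obtain ⟨hU1, hU2, hU3⟩ := hl U List.mem_cons_self
    obtain ⟨t, ht, he⟩ := ih (fun W hW => hl W (List.mem_cons_of_mem _ hW)) (M ⊔ U)
      (by rw [Submodule.map_sup]; exact sup_le_sup hM hU1)
    have hinter : (M ⊓ U).map f ≤ M ⊓ U :=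
      le_inf ((Submodule.map_mono inf_le_left).trans hM) ((Submodule.map_mono inf_le_right).trans hU1)
    have key := Submodule.finrank_sup_add_finrank_inf_eq M U
    rcases hU3 _ inf_le_right hinter with h | h
    · refine ⟨t + 1, by simpa using Nat.succ_le_succ ht, ?_⟩
      rw [h, finrank_bot, add_zero, hU2] at key
      rw [List.foldl_cons, he, key]; ring
    · refine ⟨t, ht.trans (by simp), ?_⟩
      rw [h] at key
      rw [List.foldl_cons, he]; omega

/-- Which dimensions of invariant subspaces a semisimple linear map has. Let `V` be a finite-dimensional vector space over a field `F` and `f` an invertible semisimple linear map of `V`. Suppose `V` is the internal direct sum of the fixed space `C_V(f)` (the eigenspace for 1) and subspaces `U_1, …, U_s`, each `f`-invariant of dimension `a ≥ 1` on which `f` acts irreducibly (no `f`-invariant subspaces other than 0 and `U_j`). Let `0 < m < dim V` and `ℓ = m mod a`. Then `f` leaves some `m`-dimensional subspace invariant if and only if `dim C_V(f) ≥ m`, or `a ≤ m` and `dim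 C_V(f) ≥ ℓ`. -/
theorem result {F V : Type*} [Field F] [AddCommGroup V] [Module F V]
    [FiniteDimensional F V] (f : V →ₗ[F] V) (hf : Function.Bijective f) (hss : Module.End.IsSemisimple f)
    {s a : ℕ} (ha : 1 ≤ a) (U : Fin s → Submodule F V)
    (hUinv : ∀ j, (U j).map f ≤ U j) (hUdim : ∀ j, Module.finrank F ↥(U j) = a)
    (hUirr : ∀ j, ∀ W : Submodule F V, W ≤ U j → W.map f ≤ W → W = ⊥ ∨ W = U j)
    (hdec : DirectSum.IsInternal (fun o : Option (Fin s) => o.elim (Module.End.eigenspace f 1) U))
    (m : ℕ) (hm : 0 < m) (hmV : m < Module.finrank F V) :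
    (∃ W : Submodule F V, Module.finrank F ↥W = m ∧ W.map f ≤ W) ↔
    (m ≤ Module.finrank F ↥(Module.End.eigenspace f 1) ∨
      (a ≤ m ∧ m % a ≤ Module.finrank F ↥(Module.End.eigenspace f 1))) := by
  classical
  open Module in
  set C := Module.End.eigenspace f 1 with hC
  set D := fun o : Option (Fin s) => o.elim C U with hD
  have hind := hdec.submodule_iSupIndep
  have htop := hdec.submodule_iSup_eq_top
  have hCinv : ∀ C' : Submodule F V, C' ≤ C → C'.map f ≤ C' := by
    intro C' hle
    rintro _ ⟨x, hx, rfl⟩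
    have := Module.End.mem_eigenspace_iff.mp (hle hx)
    rw [this, one_smul]; exact hx
  let P : ℕ → Submodule F V := fun k => ⨆ (i : Fin s) (_ : (i : ℕ) < k), U i
  have hPle : ∀ k, P k ≤ ⨆ o ∈ {o : Option (Fin s) | ∃ i : Fin s, o = some i ∧ (i : ℕ) < k}, D o :=
    fun k => iSup₂_le fun i hi => le_biSup D
      (show some i ∈ {o : Option (Fin s) | ∃ j : Fin s, o = some j ∧ (j : ℕ) < k} from ⟨i, rfl, hi⟩)
  have hPinv : ∀ k, (P k).map f ≤ P k := by
    intro k
    simp only [P, Submodule.map_iSup]
    exact iSup₂_mono fun i _ => hUinv i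
  have hdim : ∀ (C' : Submodule F V), C' ≤ C → ∀ k, k ≤ s →
      finrank F (C' ⊔ P k : Submodule F V) = finrank F C' + a * k := by
    intro C' hle k
    induction k with
    | zero =>
      intro _
      have : P 0 = ⊥ := by simp [P]
      rw [this, sup_bot_eq, mul_zero, add_zero]
    | succ k ih =>
      intro hk
      have hsplit : C' ⊔ P (k + 1) = (C' ⊔ P k) ⊔ U ⟨k, hk⟩ := by
        rw [sup_assoc]
        congr 1
        refine le_antisymm (iSup₂_le fun i hi => ?_) (sup_le (iSup₂_le fun i hi => ?_) ?_)
        · rcases Nat.lt_succ_iff_lt_or_eq.mp hi with h | h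
          · exact (le_iSup₂ (f := fun (i : Fin s) (_ : (i : ℕ) < k) => U i) i h).trans le_sup_left
          · rw [show i = ⟨k, hk⟩ from Fin.ext h]; exact le_sup_right
        · exact le_iSup₂ (f := fun (i : Fin s) (_ : (i : ℕ) < k + 1) => U i) i (Nat.lt_succ_of_lt hi)
        · exact le_iSup₂ (f := fun (i : Fin s) (_ : (i : ℕ) < k + 1) => U i) ⟨k, hk⟩ (Nat.lt_succ_self k)
      have hdis : (C' ⊔ P k) ⊓ U ⟨k, hk⟩ = ⊥ := by
        refine disjoint_iff.mp ((hind.disjoint_biSup (x := some ⟨k, hk⟩)
          (y := {o | o ≠ some ⟨k, hk⟩}) (by simp)).symm.mono ?_ le_rfl)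
        refine sup_le (hle.trans (le_biSup D (show none ∈ {o : Option (Fin s) | o ≠ some ⟨k, hk⟩} by simp))) ?_
        exact iSup₂_le fun i hi => le_biSup D (show some i ∈ {o : Option (Fin s) | o ≠ some ⟨k, hk⟩} by
          simp [Fin.ext_iff, hi.ne])
      have key := Submodule.finrank_sup_add_finrank_inf_eq (C' ⊔ P k) (U ⟨k, hk⟩)
      rw [hdis, finrank_bot, add_zero, ih (Nat.le_of_succ_le hk), hUdim] at key
      rw [hsplit, key]; ring
  have hall : C ⊔ P s = ⊤ := by
    refine top_le_iff.mp (htop ▸ iSup_le fun o => ?_)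
    rcases o with _ | i
    · exact le_sup_left
    · exact (le_iSup₂ (f := fun (i : Fin s) (_ : (i : ℕ) < s) => U i) i i.2).trans le_sup_right
  have hV : finrank F V = finrank F C + a * s := by
    rw [← hdim C le_rfl s le_rfl, hall, finrank_top]
  constructor
  · rintro ⟨W, hWm, hW⟩
    obtain ⟨t, ht, he⟩ := finrank_of_le f a (List.ofFn U)
      (fun X hX => by
        obtain ⟨j, rfl⟩ := List.mem_ofFn.mp hX
        exact ⟨hUinv j, hUdim j, hUirr j⟩)
      (W ⊔ C) (by rw [Submodule.map_sup]; exact sup_le_sup hW (hCinv C le_rfl))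
    have hfold : ∀ (l : List (Submodule F V)) (M X : Submodule F V),
        (X ≤ M ∨ X ∈ l) → X ≤ l.foldl (· ⊔ ·) M := by
      intro l
      induction l with
      | nil => intro M X h; simpa using h
      | cons Y l ih =>
        intro M X h
        rw [List.foldl_cons]
        apply ih
        rcases h with h | h
        · exact Or.inl (h.trans le_sup_left)
        · rcases List.mem_cons.mp h with rfl | h
          · exact Or.inl le_sup_right
          · exact Or.inr h
    have htop' : (List.ofFn U).foldl (· ⊔ ·) (W ⊔ C) = ⊤ := by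
      refine top_le_iff.mp (hall ▸ sup_le (hfold _ _ _ (Or.inl le_sup_right))
        (iSup₂_le fun i _ => hfold _ _ _ (Or.inr (List.mem_ofFn.mpr ⟨i, rfl⟩))))
    rw [htop', finrank_top, hV] at he
    rw [List.length_ofFn] at ht
    have key := Submodule.finrank_sup_add_finrank_inf_eq W C
    rw [hWm] at key
    have hcle := Submodule.finrank_mono (inf_le_right : W ⊓ C ≤ C)
    set c' := finrank F (W ⊓ C : Submodule F V)
    have hm' : m = c' + a * (s - t) := by
      have h1 : a * s = a * (s - t) + a * t := by rw [← Nat.mul_add, Nat.sub_add_cancel ht]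
      omega
    rcases Nat.eq_zero_or_pos (s - t) with h0 | h0
    · left; rw [hm', h0, mul_zero, add_zero]; exact hcle
    · right
      refine ⟨by rw [hm']; exact le_add_left (Nat.le_mul_of_pos_right a h0), ?_⟩
      rw [hm', Nat.add_mul_mod_self_left]
      exact (Nat.mod_le _ _).trans hcle
  · intro hcond
    obtain ⟨c', k, hc', hk, hsum⟩ : ∃ c' k, c' ≤ finrank F C ∧ k ≤ s ∧ m = c' + a * k := by
      rcases hcond with h | ⟨-, h2⟩
      · exact ⟨m, 0, h, Nat.zero_le _, by simp⟩
      · rcases le_or_gt (m / a) s with hle | hgt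
        · exact ⟨m % a, m / a, h2, hle, (Nat.mod_add_div m a).symm⟩
        · have h3 : a * s ≤ m := by
            have := Nat.mul_div_le m a
            have := Nat.mul_le_mul_left a hgt.le
            omega
          exact ⟨m - a * s, s, by omega, le_rfl, by omega⟩
    obtain ⟨b, hb⟩ := exists_linearIndependent_of_le_finrank hc'
    let C' : Submodule F V := (Submodule.span F (Set.range b)).map C.subtype
    have hC'le : C' ≤ C := Submodule.map_subtype_le _ _
    have hC'dim : finrank F C' = c' := by
      rw [Submodule.finrank_map_subtype_eq, finrank_span_eq_card hb, Fintype.card_fin]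
    refine ⟨C' ⊔ P k, by rw [hdim C' hC'le k hk, hC'dim, hsum], ?_⟩
    rw [Submodule.map_sup]
    exact sup_le_sup (hCinv C' hC'le) (hPinv k)

end Cfsg.Agent.S5952
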