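import Cfsg.Statements.S5954
import Cfsg.Agent.S2587
import Cfsg.Agent.Lib.Elusive.UnitModels
import Cfsg.Agent.Lib.Elusive.UnitCount
import Cfsg.Agent.Lib.Elusive.UnitPieces
import Cfsg.Agent.Lib.Elusive.Unipotent

set_option autoImplicit false
set_option maxHeartbeats 1600000
open scoped MatrixGroups
open Cfsg

namespace Cfsg.Agent.S5954

open Module
open scoped Matrix
open Cfsg.Agent.Lib.Forms Cfsg.Agent.Lib.Classical Cfsg.Agent.Lib.Elusive Cfsg.Agent.Lib.Jordan
open Cfsg.Agent.Lib.Elusive.UnitInv (Nd perpIn mem_perpIn nd_split nd_top nd_sup nd_bot perp_inv fixSub mem_fixSub)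

section Arith

variable {F : Type*} [Field F] [Fintype F] {q : ℕ} {r : ℕ} [Fact r.Prime]

/-- A generator of the elements of norm one. -/
theorem exists_mu_gen (hF : Fintype.card F = q ^ 2) : ∃ w : F, IsPrimitiveRoot w (q + 1) := by
  obtain ⟨g, hg, -⟩ := exists_gen F
  have hN : Fintype.card F - 1 = (q - 1) * (q + 1) := by rw [hF, mul_comm, ← Nat.sq_sub_sq, one_pow]
  have hpos : 0 < Fintype.card F - 1 := Nat.sub_pos_of_lt Fintype.one_lt_card
  exact ⟨((g ^ (q - 1) : Fˣ) : F), IsPrimitiveRoot.coe_units_iff.2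
    ((hg ▸ IsPrimitiveRoot.orderOf g).pow hpos hN)⟩

/-- There are `q + 1` scalars of norm one. -/
theorem card_roots (hF : Fintype.card F = q ^ 2) : Nat.card (rootsOfUnity (q + 1) F) = q + 1 := by
  obtain ⟨g, hg⟩ := exists_mu_gen hF
  exact hg.card_rootsOfUnity

/-- A power which is an `r`-th power of a norm-one scalar. -/
theorem power_of_pow {z : F} (hz : ∀ w : F, w ^ (q + 1) = 1 → w ^ r ≠ z) {d : F} {m : ℕ} (hzn : z ^ (q + 1) = 1)
    (hd : d ^ (q + 1) = 1) (h : d ^ r = z ^ m) : r ∣ m := by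
  by_contra hnd
  obtain ⟨a, b, hab⟩ : ∃ a b : ℤ, a * m + b * r = 1 :=
    Int.isCoprime_iff_nat_coprime.2 (by simpa using ((Fact.out : r.Prime).coprime_iff_not_dvd.2 hnd).symm)
  have hz0 : z ≠ 0 := fun e => by simp [e] at hzn
  refine hz (d ^ a * z ^ b) ?_ ?_
  · rw [mul_pow, ← zpow_natCast, ← zpow_mul, mul_comm a, zpow_mul, zpow_natCast, hd, one_zpow,
      ← zpow_natCast (z ^ b), ← zpow_mul, mul_comm b, zpow_mul, zpow_natCast, hzn, one_zpow, one_mul]
  · rw [mul_pow, ← zpow_natCast, ← zpow_mul, mul_comm a, zpow_mul, zpow_natCast, h,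
      ← zpow_natCast, ← zpow_mul, ← zpow_natCast, ← zpow_mul, ← zpow_add₀ hz0,
      mul_comm (m : ℤ) a, hab, zpow_one]

theorem sign_eq (hr2 : r ≠ 2) : ((-1 : F)) ^ (r + 1) = 1 :=
  ((Fact.out : r.Prime).odd_of_ne_two hr2).add_one.neg_one_pow

/-- A square root of `-1` of norm one. -/
theorem exists_sqrt_neg_one (hF : Fintype.card F = q ^ 2) (h4 : q % 4 = 3) : ∃ s : F, s ^ (q + 1) = 1 ∧ s * s = -1 := by
  obtain ⟨g, hg⟩ := exists_mu_gen hF
  obtain ⟨l, hl⟩ : 4 ∣ q + 1 := by omega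
  have h2 : IsPrimitiveRoot (g ^ (2 * l)) 2 := hg.pow (Nat.succ_pos q) (by omega)
  refine ⟨g ^ l, by rw [← pow_mul, mul_comm, pow_mul, hg.pow_eq_one, one_pow], ?_⟩
  rw [← pow_add, ← two_mul, h2.eq_neg_one_of_two_right]

/-- A norm-one scalar that is no power, with the determinant condition. -/
theorem exists_z (hF : Fintype.card F = q ^ 2) (hr : r ∣ q + 1) {t : ℕ}
    (h : padicValNat r (q + 1) < padicValNat r (r * t) ∨ (r = 2 ∧ q % 4 = 1)) :
    ∃ z : F, z ^ (q + 1) = 1 ∧ ((-1) ^ (r + 1) * z) ^ t = 1 ∧ ∀ w : F, w ^ (q + 1) = 1 → w ^ r ≠ z := by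
  have hrp : r.Prime := Fact.out
  by_cases hq1 : r = 2 ∧ q % 4 = 1
  · obtain ⟨rfl, h4⟩ := hq1
    have hneg : (-1 : F) ^ (q + 1) = 1 := (show Odd q by exact Nat.odd_iff.2 (by omega)).add_one.neg_one_pow
    refine ⟨-1, hneg, by norm_num, fun w hw hw2 => ?_⟩
    obtain ⟨l, hl⟩ : ∃ l, q + 1 = 4 * l + 2 := ⟨q / 4, by omega⟩
    rw [hl, pow_add, show 4 * l = 2 * (2 * l) by ring, pow_mul, hw2, pow_mul, neg_one_sq, one_pow, one_mul] at hw
    have h2 : (2 : F) ≠ 0 := fun h0 => by
      haveI : CharP F 2 := CharTwo.of_one_ne_zero_of_two_eq_zero one_ne_zero h0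
      obtain ⟨e, -, he⟩ := FiniteField.card F 2
      have h5 : 2 ∣ q := Nat.prime_two.dvd_of_dvd_pow (hF ▸ he ▸ dvd_pow_self 2 e.ne_zero)
      omega
    exact h2 (by linear_combination -hw)
  have hv : padicValNat r (q + 1) < padicValNat r (r * t) := h.resolve_right hq1
  rcases Nat.eq_zero_or_pos t with rfl | ht
  · simp at hv
  obtain ⟨M, hM⟩ : r ^ padicValNat r (q + 1) ∣ q + 1 := pow_padicValNat_dvd
  set v := padicValNat r (q + 1) with hvdef
  obtain ⟨g, hg⟩ := exists_mu_gen hF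
  have hw : IsPrimitiveRoot (g ^ M) (r ^ v) := hg.pow (Nat.succ_pos q) (by show q + 1 = M * r ^ v; rw [hM, mul_comm])
  have hwn : (g ^ M) ^ (q + 1) = 1 := by rw [← pow_mul, mul_comm, pow_mul, hg.pow_eq_one, one_pow]
  have htd : r ^ v ∣ t := by
    have h1 : r ^ (v + 1) ∣ r * t := (pow_dvd_pow r hv).trans pow_padicValNat_dvd
    rw [pow_succ'] at h1
    exact Nat.dvd_of_mul_dvd_mul_left hrp.pos h1
  have hwt : (g ^ M) ^ t = 1 := (hw.pow_eq_one_iff_dvd t).2 htd
  have hMr : ¬ r ∣ M := fun ⟨l, hl⟩ => pow_succ_padicValNat_not_dvd (p := r) (n := q + 1) (by omega)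
    ⟨l, by rw [← hvdef, pow_succ, hM, hl, mul_assoc]⟩
  have hnp : ∀ x : F, x ^ (q + 1) = 1 → x ^ r ≠ g ^ M := fun x hx hxr => by
    obtain ⟨k, -, rfl⟩ := hg.eq_pow_of_pow_eq_one hx
    rw [← pow_mul] at hxr
    have hgu : IsPrimitiveRoot (hg.isUnit (Nat.succ_ne_zero q)).unit (q + 1) := hg.isUnit_unit (Nat.succ_ne_zero q)
    have h1 := (pow_eq_pow_iff_modEq (x := (hg.isUnit (Nat.succ_ne_zero q)).unit) (n := k * r) (m := M)).1
      (Units.ext (by rw [Units.val_pow_eq_pow_val, Units.val_pow_eq_pow_val, IsUnit.unit_spec]; exact hxr))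
    rw [← hgu.eq_orderOf] at h1
    exact hMr (Nat.modEq_zero_iff_dvd.1 ((h1.of_dvd hr).symm.trans (Nat.modEq_zero_iff_dvd.2 (dvd_mul_left r k : r ∣ k * r))))
  by_cases hr2 : r = 2
  · subst hr2
    have h3 : q % 4 = 3 := by
      have : ¬ q % 4 = 1 := fun h4 => hq1 ⟨rfl, h4⟩
      omega
    obtain ⟨s, hs, hs2⟩ := exists_sqrt_neg_one hF h3
    refine ⟨-(g ^ M), ?_, by rw [show ((-1 : F) ^ (2 + 1)) * -(g ^ M) = g ^ M by ring]; exact hwt, fun x hx hx2 => ?_⟩
    · rw [(show Odd q from Nat.odd_iff.2 (by omega)).add_one.neg_pow, hwn]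
    · exact hnp (s * x) (by rw [mul_pow, hs, hx, one_mul]) (by linear_combination (x * x) * hs2 - hx2)
  · exact ⟨g ^ M, hwn, by rw [sign_eq hr2, one_mul, hwt], hnp⟩

/-- The determinant condition excludes norm-one scalars that are no powers. -/
theorem z_false (hF : Fintype.card F = q ^ 2) {t : ℕ} {z : F} (hz : z ^ (q + 1) = 1)
    (hnp : ∀ w : F, w ^ (q + 1) = 1 → w ^ r ≠ z) (hdet : ((-1) ^ (r + 1) * z) ^ t = 1) (ht : t ≠ 0)
    (hv : padicValNat r (r * t) ≤ padicValNat r (q + 1)) (h2 : r = 2 → q % 4 = 3) : False := by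
  have hrp : r.Prime := Fact.out
  obtain ⟨d, hd, hdn, hdt⟩ : ∃ d : F, d ^ (q + 1) = 1 ∧ (∀ w : F, w ^ (q + 1) = 1 → w ^ r ≠ d) ∧ d ^ t = 1 := by
    by_cases hr2 : r = 2
    · subst hr2
      obtain ⟨s, hs, hs2⟩ := exists_sqrt_neg_one hF (h2 rfl)
      refine ⟨-z, ?_, fun w hw hw2 => hnp (s * w) (by rw [mul_pow, hs, hw, one_mul]) (by linear_combination (w * w) * hs2 - hw2), ?_⟩
      · rw [(show Odd q from Nat.odd_iff.2 (by have := h2 rfl; omega)).add_one.neg_pow, hz]
      · rwa [show ((-1 : F) ^ (2 + 1)) * z = -z by ring] at hdet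
    · exact ⟨z, hz, hnp, by rwa [sign_eq hr2, one_mul] at hdet⟩
  obtain ⟨g, hg⟩ := exists_mu_gen hF
  obtain ⟨k, -, rfl⟩ := hg.eq_pow_of_pow_eq_one hd
  have hrk : ¬ r ∣ k := fun ⟨l, hl⟩ => hdn (g ^ l) (by rw [← pow_mul, mul_comm, pow_mul, hg.pow_eq_one, one_pow])
    (by rw [← pow_mul, mul_comm, ← hl])
  rw [← pow_mul, hg.pow_eq_one_iff_dvd] at hdt
  set v := padicValNat r (q + 1)
  have het : r ^ v ∣ t := ((hrp.coprime_iff_not_dvd.2 hrk).pow_left v).dvd_of_dvd_mul_left (pow_padicValNat_dvd.trans hdt)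
  have : v + 1 ≤ padicValNat r (r * t) := (padicValNat_dvd_iff_le (Nat.mul_ne_zero hrp.ne_zero ht)).1 (by
    rw [pow_succ']; exact Nat.mul_dvd_mul_left r het)
  omega

/-- The order of `-q`. -/
theorem orderOf_neg {i c : ℕ} (hr2 : r ≠ 2) (hq : (q : ZMod r) ≠ 0) (hi : i = orderOf (q : ZMod r))
    (hc : c = if i % 4 = 0 then i else if i % 4 = 2 then i / 2 else 2 * i) : orderOf (-(q : ZMod r)) = c := by
  haveI : Fact (2 < r) := ⟨lt_of_le_of_ne (Fact.out : r.Prime).two_le (Ne.symm hr2)⟩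
  have hne : (-1 : ZMod r) ≠ 1 := ZMod.neg_one_ne_one
  set Q := (q : ZMod r)
  have hi0 : 0 < i := hi ▸ orderOf_pos_iff.2 (isOfFinOrder_iff_pow_eq_one.2
    ⟨r - 1, by have := (Fact.out : r.Prime).two_le; omega, ZMod.pow_card_sub_one_eq_one hq⟩)
  have hdvd : ∀ k, Q ^ k = 1 ↔ i ∣ k := fun k => by rw [hi]; exact orderOf_dvd_iff_pow_eq_one.symm
  have hm1 : ∀ k, Q ^ k = -1 ↔ i ∣ 2 * k ∧ ¬ i ∣ k := fun k => by
    rw [← hdvd, ← hdvd, mul_comm, pow_mul, sq_eq_one_iff]
    constructor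
    · intro h; exact ⟨Or.inr h, fun h1 => hne (h.symm.trans h1)⟩
    · rintro ⟨h | h, h1⟩
      · exact absurd h h1
      · exact h
  have key : ∀ k, (-Q) ^ k = 1 ↔ (k % 2 = 0 ∧ i ∣ k) ∨ (k % 2 = 1 ∧ i ∣ 2 * k ∧ ¬ i ∣ k) := fun k => by
    rcases Nat.even_or_odd k with h | h
    · rw [h.neg_pow, hdvd]
      have := Nat.even_iff.1 h
      omega
    · rw [h.neg_pow, neg_eq_iff_eq_neg, hm1]
      have := Nat.odd_iff.1 h
      omega
  have hc0 : 0 < c := by rw [hc]; split_ifs <;> omega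
  refine (orderOf_eq_iff hc0).2 ⟨(key c).2 ?_, fun k hk hk0 h => ?_⟩
  · rw [hc]
    split_ifs with h1 h2
    · exact Or.inl ⟨by omega, dvd_rfl⟩
    · refine Or.inr ⟨by omega, ⟨1, by omega⟩, fun h3 => ?_⟩
      have := Nat.le_of_dvd (by omega) h3
      omega
    · exact Or.inl ⟨by omega, dvd_mul_left _ _⟩
  · rcases (key k).1 h with ⟨h1, l, hl⟩ | ⟨h1, ⟨l, hl⟩, h3⟩
    · rcases Nat.lt_or_ge l 2 with hl2 | hl2
      · interval_cases l <;> (rw [hc] at hk; split_ifs at hk <;> omega)
      · have := Nat.mul_le_mul_left i hl2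
        rw [hc] at hk
        split_ifs at hk <;> omega
    · have hl' : ¬ 2 ∣ l := fun ⟨e, he⟩ => h3 ⟨e, by rw [he, mul_left_comm] at hl; omega⟩
      rcases Nat.lt_or_ge l 3 with hl2 | hl2
      · interval_cases l <;> first | omega | (rw [hc] at hk; split_ifs at hk <;> omega)
      · have := Nat.mul_le_mul_left i hl2
        have hodd : i % 2 ≠ 1 := fun ho => h3
          ((Nat.coprime_two_right.2 (Nat.odd_iff.2 ho)).dvd_of_dvd_mul_left ⟨l, hl⟩)
        rw [hc] at hk
        split_ifs at hk <;> omega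

end Arith

section Sub

variable {F : Type*} [Field F] [Fintype F] {q n : ℕ}

local notation "ℍ" => Cfsg.hermForm n F q

variable (hF : Fintype.card F = q ^ 2)

include hF in
/-- Combining fixed and moved parts. -/
theorem fix_generic {r : ℕ} [Fact r.Prime] {p : ℕ} [Fact p.Prime] [CharP F p] (hrp : r ≠ p)
    {y : Module.End F (Fin n → F)} (hy : ∀ v, (y ^ r) v = v) (hiso : ∀ u v, ℍ (y u) (y v) = ℍ u v) {m : ℕ}
    (h : ∀ s u, s + u * orderOf (-(q : ZMod r)) = n → ∃ s' e, s' ≤ s ∧ e ≤ u ∧ s' + e * orderOf (-(q : ZMod r)) = m) :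
    ∃ W : Submodule F (Fin n → F), finrank F W = m ∧ Nd ℍ W ∧ Inv y W := by
  have H := hermData hF n
  obtain ⟨p', k₀, hp', hc', -, hqk⟩ := Cfsg.Agent.Lib.UnitaryConj.q_eq_pow hF
  obtain rfl : p = p' := CharP.eq F (by assumption) hc'
  have hr : r.Prime := Fact.out
  have hrq : ¬ r ∣ q := fun hd => hrp ((Nat.prime_dvd_prime_iff_eq hr Fact.out).1 (hr.dvd_of_dvd_pow (hqk ▸ hd)))
  have hrF : (r : F) ≠ 0 := fun h0 =>
    hrp ((Nat.prime_dvd_prime_iff_eq Fact.out hr).1 ((CharP.cast_eq_zero_iff F p r).1 h0)).symm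
  obtain ⟨hCn, M, -, hMn, hMi, hMf, ho, hMd⟩ :=
    UnitInv.exists_parts H hrF hy hiso (nd_top H) (fun _ _ => trivial)
  obtain ⟨u, hu⟩ := UnitInv.dvd_finrank H hF (fun a => rfl) hrq hy hiso hMn hMi hMf
  rw [finrank_top, finrank_fin_fun] at hMd
  obtain ⟨s', e, hs', he, hm⟩ := h (finrank F ↥(⊤ ⊓ fixSub y : Submodule F (Fin n → F))) u (by rw [mul_comm u, ← hu, hMd])
  obtain ⟨S, hSC, hS, hSd⟩ := UnitInv.exists_nd_sub H hCn s' hs'
  obtain ⟨T, hTM, hT, hTi, hTd⟩ := UnitInv.exists_pieces H hF (fun a => rfl) hrp hy hiso e hMn hMi hMf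
    (by rw [hu, mul_comm _ u]; exact Nat.mul_le_mul_right _ he)
  have hST : ∀ a ∈ S, ∀ b ∈ T, ℍ a b = 0 := fun a ha b hb => ho a (hSC ha) b (hTM hb)
  refine ⟨S ⊔ T, ?_, nd_sup H hS hT hST, (UnitInv.fixSub_inv (hSC.trans inf_le_right)).sup hTi⟩
  have h5 := Submodule.finrank_sup_add_finrank_inf_eq S T
  rw [show S ⊓ T = ⊥ from eq_bot_iff.2 fun z ⟨hz, hz'⟩ => hT z hz' fun v hv => hST z hz v hv, finrank_bot,
    hSd, hTd] at h5
  omega

include hF in
/-- Invariant subspaces of dimension a multiple of the block size. -/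
theorem fix_blocks {X : Module.End F (Fin n → F)} (hiso : ∀ u v, ℍ (X u) (X v) = ℍ u v)
    (hinj : Function.Injective X) {r : ℕ}
    (hpiece : ∀ W : Submodule F (Fin n → F), Nd ℍ W → Inv X W → W ≠ ⊥ → ∃ U ≤ W, Nd ℍ U ∧ Inv X U ∧ finrank F U = r) :
    ∀ (e : ℕ) {W : Submodule F (Fin n → F)}, Nd ℍ W → Inv X W → r * e ≤ finrank F W →
      ∃ U ≤ W, Nd ℍ U ∧ Inv X U ∧ finrank F U = r * e := by
  have H := hermData hF n
  intro e
  induction e with
  | zero => exact fun {W} _ _ _ => ⟨⊥, bot_le, nd_bot, fun v hv => by simp [(Submodule.mem_bot F).1 hv], by simp⟩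
  | succ e ih =>
    intro W hW hI hle
    rw [mul_add, mul_one] at hle ⊢
    rcases Nat.eq_zero_or_pos r with rfl | hr0
    · exact ⟨⊥, bot_le, nd_bot, fun v hv => by simp [(Submodule.mem_bot F).1 hv], by simp⟩
    obtain ⟨U, hUW, hU, hUI, hUd⟩ := hpiece W hW hI fun e' => by rw [e', finrank_bot] at hle; omega
    obtain ⟨hP, -, hinf, hdim⟩ := nd_split H hU hW hUW
    obtain ⟨T, hTP, hT, hTI, hTd⟩ := ih hP (perp_inv H hiso hinj hUI hI) (by omega)
    refine ⟨U ⊔ T, sup_le hUW (hTP.trans inf_le_left), nd_sup H hU hT fun u hu w hw =>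
      H.eq_zero_comm.1 (((mem_perpIn H).1 (hTP hw)).2 u hu), hUI.sup hTI, ?_⟩
    have h1 := Submodule.finrank_sup_add_finrank_inf_eq U T
    rw [show U ⊓ T = ⊥ from eq_bot_iff.2 (hinf ▸ inf_le_inf_left _ hTP), finrank_bot] at h1
    omega

include hF in
/-- Unipotent isometries have invariant non-degenerate subspaces for every part of the type. -/
theorem fix_unipotent {p : ℕ} [Fact p.Prime] [CharP F p] {y : GL (Fin n) F} (hy : y ∈ Cfsg.GU n F q)
    {μ ν : Multiset ℕ} (hμ : HasType (Matrix.toLin' (y : Matrix (Fin n) (Fin n) F) - 1) μ)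
    (hle : ν ≤ μ) (hp : ∀ a ∈ μ, a ≤ p) :
    ∃ W : Submodule F (Fin n → F), finrank F W = ν.sum ∧ Nd ℍ W ∧ Inv (Matrix.toLin' (y : Matrix (Fin n) (Fin n) F)) W := by
  classical
  obtain ⟨ν', rfl⟩ := exists_add_of_le hle
  have hpos : ∀ a ∈ ν + ν', 0 < a ∧ a ≤ p := fun a ha => ⟨hμ.pos ha, hp a ha⟩
  obtain ⟨N₁, hN₁, R₁, hR₁, hI₁⟩ := UnitModels.exists_unip_model (p := p) hF ν fun a ha => hpos a (Multiset.mem_add.2 (Or.inl ha))
  obtain ⟨N₂, hN₂, R₂, hR₂, hI₂⟩ := UnitModels.exists_unip_model (p := p) hF ν' fun a ha => hpos a (Multiset.mem_add.2 (Or.inr ha))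
  obtain ⟨e₁, he₁⟩ := UnitSim.exists_std hF hR₁
  obtain ⟨e₂, he₂⟩ := UnitSim.exists_std hF hR₂
  have hn : ν.sum + ν'.sum = n := by rw [← Multiset.sum_add, hμ.sum_eq, finrank_fin_fun]
  subst hn
  let ε : ((Fin ν.sum → F) × (Fin ν'.sum → F)) ≃ₗ[F] (Fin (ν.sum + ν'.sum) → F) :=
    (LinearEquiv.sumArrowLequivProdArrow _ _ F F).symm.trans (LinearEquiv.funCongrLeft F F finSumFinEquiv.symm)
  have hε : ∀ z w, Cfsg.hermForm (ν.sum + ν'.sum) F q (ε z) (ε w) =
      Cfsg.hermForm ν.sum F q z.1 w.1 + Cfsg.hermForm ν'.sum F q z.2 w.2 := fun z w => by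
    simp [Cfsg.hermForm, Fin.sum_univ_add, ε, LinearEquiv.funCongrLeft_apply, LinearMap.funLeft_apply]
    rfl
  let M := ε.conj ((e₁.symm.conj (1 + N₁)).prodMap (e₂.symm.conj (1 + N₂)))
  have hM : ∀ z, M (ε z) = ε (e₁.symm ((1 + N₁) (e₁ z.1)), e₂.symm ((1 + N₂) (e₂ z.2))) := fun z => by
    simp [M, LinearEquiv.conj_apply]
  have hMiso : ∀ u v, Cfsg.hermForm (ν.sum + ν'.sum) F q (M u) (M v) = Cfsg.hermForm (ν.sum + ν'.sum) F q u v := by
    intro u v
    obtain ⟨z, rfl⟩ := ε.surjective u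
    obtain ⟨w, rfl⟩ := ε.surjective v
    rw [hM, hM, hε, hε]
    simp only [← he₁, ← he₂, LinearEquiv.apply_symm_apply, hI₁, hI₂]
  have hd : (LinearMap.toMatrix' M).det ≠ 0 := fun e0 => by
    obtain ⟨u, hu0, hu⟩ := Matrix.exists_mulVec_eq_zero_iff.2 e0
    rw [← Matrix.toLin'_apply, Matrix.toLin'_toMatrix'] at hu
    refine hu0 (funext fun i => ?_)
    have := hMiso u (Pi.single i 1)
    rw [hu, Herm.herm_single_right hF] at this
    simp only [Cfsg.hermForm, Pi.zero_apply, zero_mul, Finset.sum_const_zero] at this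
    exact this.symm
  let g₀ : GL (Fin (ν.sum + ν'.sum)) F := Matrix.GeneralLinearGroup.mkOfDetNeZero _ hd
  have hg₀ : Matrix.toLin' (g₀ : Matrix (Fin (ν.sum + ν'.sum)) (Fin (ν.sum + ν'.sum)) F) = M := Matrix.toLin'_toMatrix' M
  have hg₀U : g₀ ∈ Cfsg.GU (ν.sum + ν'.sum) F q := Herm.mem_GU.2 fun u v => by
    rw [← Matrix.toLin'_apply, ← Matrix.toLin'_apply, hg₀, hMiso]
  have hM1 : HasType (M - 1) (ν + ν') := (hN₁.prod hN₂).transport ((e₁.symm.prodCongr e₂.symm).trans ε) fun z => by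
    show ε ((e₁.symm.prodCongr e₂.symm) ((LinearMap.prodMap N₁ N₂) z)) =
      M (ε ((e₁.symm.prodCongr e₂.symm) z)) - ε ((e₁.symm.prodCongr e₂.symm) z)
    rw [hM, ← map_sub]
    congr 1
    refine Prod.ext ?_ ?_ <;> simp
  obtain ⟨T, hT⟩ := hM1.exists_equiv hμ
  let τ : GL (Fin (ν.sum + ν'.sum)) F :=
    Matrix.GeneralLinearGroup.toLin.symm (LinearMap.GeneralLinearGroup.ofLinearEquiv T)
  have hτ : Matrix.toLin' (τ : Matrix (Fin (ν.sum + ν'.sum)) (Fin (ν.sum + ν'.sum)) F) = T.toLinearMap := by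
    have h1 : ((Matrix.GeneralLinearGroup.toLin τ : LinearMap.GeneralLinearGroup F _) :
        Module.End F (Fin (ν.sum + ν'.sum) → F)) = T.toLinearMap := by rw [MulEquiv.apply_symm_apply]; rfl
    exact h1
  have hconj : IsConj (⟨g₀, hg₀U⟩ : Cfsg.GU (ν.sum + ν'.sum) F q) ⟨y, hy⟩ := by
    refine (Cfsg.Agent.S2587.result hF _ _).2 (isConj_iff.2 ⟨τ, ?_⟩)
    rw [mul_inv_eq_iff_eq_mul]
    refine Units.ext (Matrix.toLin'.injective (LinearMap.ext fun v => ?_))
    rw [Units.val_mul, Units.val_mul, Matrix.toLin'_mul, Matrix.toLin'_mul, hτ, LinearMap.comp_apply,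
      LinearMap.comp_apply, LinearEquiv.coe_coe, hg₀]
    have := hT v
    simp only [LinearMap.sub_apply, Module.End.one_apply, map_sub] at this
    exact sub_left_inj.1 this
  obtain ⟨γ, hγ⟩ := isConj_iff.1 hconj
  set Γ := Matrix.toLin' ((γ : GL (Fin (ν.sum + ν'.sum)) F) : Matrix (Fin (ν.sum + ν'.sum)) (Fin (ν.sum + ν'.sum)) F) with hΓ
  have hΓiso : ∀ u v, Cfsg.hermForm (ν.sum + ν'.sum) F q (Γ u) (Γ v) = Cfsg.hermForm (ν.sum + ν'.sum) F q u v :=
    fun u v => by rw [hΓ, Matrix.toLin'_apply, Matrix.toLin'_apply]; exact Herm.mem_GU.1 γ.2 u v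
  have hΓy : ∀ v, Matrix.toLin' (y : Matrix (Fin (ν.sum + ν'.sum)) (Fin (ν.sum + ν'.sum)) F) (Γ v) = Γ (M v) := fun v => by
    have h1 : y * (γ : GL (Fin (ν.sum + ν'.sum)) F) = γ * g₀ := by
      have := congrArg Subtype.val (mul_inv_eq_iff_eq_mul.1 hγ)
      exact this.symm
    rw [hΓ, ← hg₀, ← LinearMap.comp_apply, ← Matrix.toLin'_mul, ← LinearMap.comp_apply, ← Matrix.toLin'_mul,
      ← Units.val_mul, ← Units.val_mul, h1]
  let L : (Fin ν.sum → F) →ₗ[F] (Fin (ν.sum + ν'.sum) → F) := Γ ∘ₗ (ε.toLinearMap ∘ₗ LinearMap.inl F _ _)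
  have hL : ∀ a, L a = Γ (ε (a, 0)) := fun a => rfl
  have hLform : ∀ a b, Cfsg.hermForm (ν.sum + ν'.sum) F q (L a) (L b) = Cfsg.hermForm ν.sum F q a b := fun a b => by
    rw [hL, hL, hΓiso, hε]
    simp [Cfsg.hermForm]
  have hsep : ∀ a : Fin ν.sum → F, (∀ b, Cfsg.hermForm ν.sum F q a b = 0) → a = 0 := fun a ha => funext fun i => by
    have := ha (Pi.single i 1)
    rwa [Herm.herm_single_right hF] at this
  refine ⟨LinearMap.range L, ?_, ?_, ?_⟩
  · rw [LinearMap.finrank_range_of_inj ((injective_iff_map_eq_zero L).2 fun a ha => hsep a fun b => ?_), finrank_fin_fun]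
    rw [← hLform, ha]
    simp [Cfsg.hermForm]
  · rintro _ ⟨a, rfl⟩ hall
    rw [hsep a fun b => by rw [← hLform]; exact hall _ ⟨b, rfl⟩, map_zero]
  · rintro _ ⟨a, rfl⟩
    refine ⟨e₁.symm ((1 + N₁) (e₁ a)), ?_⟩
    rw [hL, hL, hΓy, hM]
    simp

end Sub

/-- Elements of prime order of PSU_n(q) with no fixed nondegenerate `m`-space. Here `T = PSU_n(q)` (`n ≥ 3`, `(n, q) ≠ (3, 2)`), realised through the matrices of determinant 1 over the field `F` with `q²` elements preserving the Hermitian form `h(u, v) = Σ u_i v_i^q`; an element of `T` of prime order `r` is such a matrix `x` with `x^r` scalar and `x` not scalar. For `r ≠ p` let `i` be the multiplicative order of `q` modulo `r`, `b = i/2` for `i` even and `b = i` for `i` odd, `c = i, i/2, 2i` according as `i ≡ 0, 2 (mod 4)` or `i` odd, and write `k = n mod c`, `ℓ = m mod b`, `ℓ' = m mod c`, `n' = ⌊n/b⌋`, `m' = ⌊m/b⌋`, `s = (r−1)/b`; `(a)_r` is the `r`-part of `a`. Let `1 ≤ m < n/2` and let `r` be a prime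 dividing the number of nondegenerate `m`-spaces. Then every element of `T` of order `r` fixes a nondegenerate `m`-space if and only if one of: (i) `r = p > 2` and every partition of `n` into parts of size at most `p` contains (as a sub-multiset) a partition of `m`; (ii) `r = p = 2` and (`n` is odd or `m` is even); (iii) `r = 2 ≠ p` and (`n` is odd, or `m` is even, or `(q+1)_2 ≥ (n)_2` and `q ≡ 3 (mod 4)`); (iv) `r ≠ p`, `r > 2`, and either `i ≠ 2`, `c ≤ m` and `k ≥ ℓ'`, or `i = 2` and (`r ∣ m` or `(q+1)_r ≥ (n)_r`). -/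
theorem result {F : Type*} [Field F] [Fintype F] {p : ℕ} [Fact p.Prime] [CharP F p] {q : ℕ} (hq : Fintype.card F = q ^ 2)
    (n m : ℕ) (hn : 3 ≤ n) (hT : (n, q) ≠ (3, 2)) (hm : 1 ≤ m) (hmn : 2 * m < n)
    (r : ℕ) [Fact r.Prime]
    (hrΩ : r ∣ Nat.card {W : Submodule F (Fin n → F) // Module.finrank F ↥W = m ∧ (∀ u ∈ W, u ≠ 0 → ∃ v ∈ W, Cfsg.hermForm n F q u v ≠ 0)})
    (i b c : ℕ) (hi : i = orderOf (q : ZMod r)) (hb : b = if Even i then i / 2 else i)
    (hc : c = if i % 4 = 0 then i else if i % 4 = 2 then i / 2 else 2 * i) :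
    (∀ x : Matrix.SpecialLinearGroup (Fin n) F, x ∈ Cfsg.SU n F q →
      (∃ z : F, ((x ^ r : Matrix.SpecialLinearGroup (Fin n) F) : Matrix (Fin n) (Fin n) F) = z • (1 : Matrix (Fin n) (Fin n) F)) →
      (∀ z : F, (x : Matrix (Fin n) (Fin n) F) ≠ z • (1 : Matrix (Fin n) (Fin n) F)) →
      ∃ W : Submodule F (Fin n → F), Module.finrank F ↥W = m ∧ (∀ u ∈ W, u ≠ 0 → ∃ v ∈ W, Cfsg.hermForm n F q u v ≠ 0) ∧
        W.map (Matrix.toLin' (x : Matrix (Fin n) (Fin n) F)) ≤ W) ↔
    ((r = p ∧ 2 < p ∧ (∀ μ : Multiset ℕ, (∀ a ∈ μ, 0 < a ∧ a ≤ p) → μ.sum = n → ∃ ν : Multiset ℕ, ν ≤ μ ∧ ν.sum = m)) ∨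
     (r = p ∧ p = 2 ∧ (Odd n ∨ Even m)) ∨
     (r = 2 ∧ p ≠ 2 ∧ (Odd n ∨ Even m ∨ (padicValNat 2 n ≤ padicValNat 2 (q + 1) ∧ q % 4 = 3))) ∨
     (r ≠ p ∧ 2 < r ∧ ((i ≠ 2 ∧ c ≤ m ∧ m % c ≤ n % c) ∨ (i = 2 ∧ (r ∣ m ∨ padicValNat r n ≤ padicValNat r (q + 1)))))) := by
  classical
  have hF : Fintype.card F = q ^ 2 := hq
  have hq2 := Herm.two_le_q hF
  have hr : r.Prime := Fact.out
  have hn0 : n ≠ 0 := by omega
  haveI : Nonempty (Fin n) := ⟨⟨0, by omega⟩⟩
  have H := hermData hF n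
  set h := Cfsg.hermForm n F q with hh
  have hσ : ∀ a, conjQ hF a = a ^ q := fun a => rfl
  have hfinish : ∀ {x : Matrix.SpecialLinearGroup (Fin n) F},
      (∃ W : Submodule F (Fin n → F), finrank F W = m ∧ Nd h W ∧ Inv (Matrix.toLin' (x : Matrix (Fin n) (Fin n) F)) W) →
      ∃ W : Submodule F (Fin n → F), Module.finrank F ↥W = m ∧ (∀ u ∈ W, u ≠ 0 → ∃ v ∈ W, h u v ≠ 0) ∧
        W.map (Matrix.toLin' (x : Matrix (Fin n) (Fin n) F)) ≤ W := fun ⟨W, h1, h2, h3⟩ =>
    ⟨W, h1, UnitInv.nd_iff.1 h2, inv_iff_map_le.1 h3⟩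
  have hinj : ∀ {X : Module.End F (Fin n → F)}, (∀ u v, h (X u) (X v) = h u v) → Function.Injective X :=
    fun hX => (injective_iff_map_eq_zero _).2 fun u hu => (nd_top H) u trivial fun v _ => by rw [← hX, hu, H.zero_left]
  have hzfacts : ∀ (x : Matrix.SpecialLinearGroup (Fin n) F) (z : F), x ∈ Cfsg.SU n F q →
      ((x ^ r : Matrix.SpecialLinearGroup (Fin n) F) : Matrix (Fin n) (Fin n) F) = z • (1 : Matrix (Fin n) (Fin n) F) →
      (∀ u v, h (Matrix.toLin' (x : Matrix (Fin n) (Fin n) F) u) (Matrix.toLin' (x : Matrix (Fin n) (Fin n) F) v) = h u v) ∧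
      (∀ v, ((Matrix.toLin' (x : Matrix (Fin n) (Fin n) F)) ^ r) v = z • v) ∧ z ^ (q + 1) = 1 ∧
      LinearMap.det (Matrix.toLin' (x : Matrix (Fin n) (Fin n) F)) = 1 := by
    intro x z hx hxz
    have hiso : ∀ u v, h (Matrix.toLin' (x : Matrix (Fin n) (Fin n) F) u) (Matrix.toLin' (x : Matrix (Fin n) (Fin n) F) v) = h u v :=
      fun u v => by rw [Matrix.toLin'_apply, Matrix.toLin'_apply]; exact Herm.mem_SU.1 hx u v
    set X := Matrix.toLin' (x : Matrix (Fin n) (Fin n) F) with hX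
    have hXr : ∀ v, (X ^ r) v = z • v := sl_pow_eq_smul_iff.1 hxz
    refine ⟨hiso, hXr, ?_, by rw [hX, LinearMap.det_toLin', x.det_coe]⟩
    have hpow : ∀ (j : ℕ) u v, h ((X ^ j) u) ((X ^ j) v) = h u v := by
      intro j
      induction j with
      | zero => intro u v; rfl
      | succ j ih => intro u v; rw [pow_succ', Module.End.mul_apply, Module.End.mul_apply, hiso, ih]
    have h1 := hpow r (Pi.single ⟨0, by omega⟩ 1) (Pi.single ⟨0, by omega⟩ 1)
    rw [hXr, H.smul_left, H.smul_right, hσ, hh, Herm.herm_single_right hF, Pi.single_eq_same, mul_one,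
      ← pow_succ'] at h1
    exact h1
  -- the models give test elements
  have test : (∀ x : Matrix.SpecialLinearGroup (Fin n) F, x ∈ Cfsg.SU n F q →
      (∃ z : F, ((x ^ r : Matrix.SpecialLinearGroup (Fin n) F) : Matrix (Fin n) (Fin n) F) = z • (1 : Matrix (Fin n) (Fin n) F)) →
      (∀ z : F, (x : Matrix (Fin n) (Fin n) F) ≠ z • (1 : Matrix (Fin n) (Fin n) F)) →
      ∃ W : Submodule F (Fin n → F), Module.finrank F ↥W = m ∧ (∀ u ∈ W, u ≠ 0 → ∃ v ∈ W, h u v ≠ 0) ∧
        W.map (Matrix.toLin' (x : Matrix (Fin n) (Fin n) F)) ≤ W) →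
      ∀ {M : Module.End F (Fin n → F)}, UnitModels.IsModel q M → LinearMap.det M = 1 → ∀ z : F,
      (∀ v, (M ^ r) v = z • v) → (∀ w : F, M ≠ w • 1) →
      ∃ (X : Module.End F (Fin n → F)) (e : (Fin n → F) ≃ₗ[F] (Fin n → F)) (W : Submodule F (Fin n → F)),
        X = e.conj M ∧ (∀ v, (X ^ r) v = z • v) ∧ (∀ u v, h (X u) (X v) = h u v) ∧
          finrank F W = m ∧ Nd h W ∧ Inv X W := by
    intro hall M hM hMd z hMz hMns
    obtain ⟨A, e, hA, hAX⟩ := UnitModels.to_SU hF hM hMd
    have hXz : ∀ v, ((e.conj M) ^ r) v = z • v := fun v => by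
      rw [pow_eq_of_conj, hMz, map_smul, LinearEquiv.apply_symm_apply]
    have hz' : ((A ^ r : Matrix.SpecialLinearGroup (Fin n) F) : Matrix (Fin n) (Fin n) F) = z • 1 :=
      sl_pow_eq_smul_iff.2 fun v => by rw [hAX, hXz]
    obtain ⟨W, hWd, hWn, hWi⟩ := hall A hA ⟨z, hz'⟩ fun w hw => hMns w (e.conj.injective (by
      rw [← hAX, hw, map_smul, Matrix.toLin'_one, map_smul]
      exact congrArg (w • ·) (LinearMap.ext fun v => by simp [LinearEquiv.conj_apply])))
    exact ⟨_, e, W, hAX, fun v => by rw [hAX]; exact hXz v, (hzfacts A z hA hz').1, hWd, UnitInv.nd_iff.2 hWn,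
      inv_iff_map_le.2 hWi⟩
  have smul_data : ∀ {X : Module.End F (Fin n → F)} {z w : F}, (∀ v, (X ^ r) v = z • v) →
      (∀ u v, h (X u) (X v) = h u v) → w ^ (q + 1) = 1 → w ^ r = z →
      (∀ v, ((w⁻¹ • X) ^ r) v = v) ∧ (∀ u v, h ((w⁻¹ • X) u) ((w⁻¹ • X) v) = h u v) ∧
        ∀ W : Submodule F (Fin n → F), Inv (w⁻¹ • X) W → Inv X W := by
    intro X z w hX hiso hw hwr
    have hw0 : w ≠ 0 := fun e => by simp [e] at hw
    refine ⟨fun v => ?_, fun u v => ?_, fun W hW v hv => ?_⟩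
    · rw [_root_.smul_pow, LinearMap.smul_apply, hX, smul_smul, ← hwr, inv_pow,
        inv_mul_cancel₀ (pow_ne_zero r hw0), one_smul]
    · rw [LinearMap.smul_apply, LinearMap.smul_apply, H.smul_left, H.smul_right, hiso, hσ, ← mul_assoc,
        ← pow_succ', inv_pow, hw, inv_one, one_mul]
    · have := W.smul_mem w (hW v hv)
      rwa [LinearMap.smul_apply, smul_inv_smul₀ hw0] at this
  by_cases hrp : r = p
  · -- unipotent elements
    subst hrp
    have hcrit : (∀ μ : Multiset ℕ, (∀ a ∈ μ, 0 < a ∧ a ≤ r) → μ.sum = n → ∃ ν : Multiset ℕ, ν ≤ μ ∧ ν.sum = m) ↔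
        ((r = r ∧ 2 < r ∧ (∀ μ : Multiset ℕ, (∀ a ∈ μ, 0 < a ∧ a ≤ r) → μ.sum = n → ∃ ν : Multiset ℕ, ν ≤ μ ∧ ν.sum = m)) ∨
          (r = r ∧ r = 2 ∧ (Odd n ∨ Even m))) := by
      rcases eq_or_lt_of_le hr.two_le with h2 | h2
      · subst h2
        constructor
        · intro hall
          refine Or.inr ⟨rfl, rfl, ?_⟩
          by_contra hcon
          push Not at hcon
          obtain ⟨hn', hm'⟩ := hcon
          rw [Nat.odd_iff] at hn'
          rw [Nat.even_iff] at hm'
          obtain ⟨ν, hν, hνs⟩ := hall (Multiset.replicate (n / 2) 2)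
            (fun a ha => by rw [Multiset.eq_of_mem_replicate ha]; omega)
            (by rw [Multiset.sum_replicate, smul_eq_mul]; omega)
          obtain ⟨d, -, rfl⟩ := Multiset.le_replicate_iff.1 hν
          rw [Multiset.sum_replicate, smul_eq_mul] at hνs
          omega
        · rintro (⟨-, h3, -⟩ | ⟨-, -, hcase⟩)
          · omega
          intro μ hμ hs
          have hμe : μ = Multiset.replicate (μ.count 2) 2 + Multiset.replicate (μ.count 1) 1 := by
            ext a
            rw [Multiset.count_add, Multiset.count_replicate, Multiset.count_replicate]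
            by_cases e2 : a = 2
            · subst e2; simp
            by_cases e1 : a = 1
            · subst e1; simp
            rw [if_neg (Ne.symm e2), if_neg (Ne.symm e1), add_zero, Multiset.count_eq_zero]
            intro ha
            have := hμ a ha
            omega
          rw [hμe] at hs
          simp only [Multiset.sum_add, Multiset.sum_replicate, smul_eq_mul] at hs
          set a := μ.count 2
          set b := μ.count 1
          refine ⟨Multiset.replicate (min a (m / 2)) 2 + Multiset.replicate (m - 2 * min a (m / 2)) 1, ?_, ?_⟩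
          · rw [hμe]
            refine add_le_add (Multiset.replicate_mono _ (min_le_left _ _)) (Multiset.replicate_mono _ ?_)
            rcases hcase with hc' | hc'
            · rw [Nat.odd_iff] at hc'; omega
            · rw [Nat.even_iff] at hc'; omega
          · simp only [Multiset.sum_add, Multiset.sum_replicate, smul_eq_mul]
            omega
      · exact ⟨fun hh => Or.inl ⟨rfl, h2, hh⟩, fun hh => by
          rcases hh with ⟨-, -, hh⟩ | ⟨-, hh, -⟩
          · exact hh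
          · omega⟩
    constructor
    · intro hall
      have hgoal : ∀ μ : Multiset ℕ, (∀ a ∈ μ, 0 < a ∧ a ≤ r) → μ.sum = n → ∃ ν : Multiset ℕ, ν ≤ μ ∧ ν.sum = m := by
        intro μ hμ hs
        by_cases h1 : ∀ a ∈ μ, a = 1
        · have hμe : μ = Multiset.replicate μ.card 1 := Multiset.eq_replicate_card.2 h1
          refine ⟨Multiset.replicate m 1, ?_, by simp⟩
          rw [hμe, Multiset.sum_replicate, smul_eq_mul, mul_one] at hs
          rw [hμe]
          exact Multiset.replicate_mono _ (by omega)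
        subst hs
        obtain ⟨N, hN, hM⟩ := UnitModels.exists_unip_model (p := r) hF μ hμ
        have hNr : N ^ r = 0 := (hN.pow_eq_zero_iff r).2 fun a ha => (hμ a ha).2
        have hpow : (1 + N) ^ r = 1 := by rw [add_one_pow, hNr, add_zero]
        have hdet : LinearMap.det (1 + N) = 1 := by
          refine frobenius_inj F r ?_
          simp only [frobenius_def, one_pow]
          rw [← map_pow, hpow, map_one]
        obtain ⟨X, e, W, hXe, -, hXiso, hWd, hWn, hWi⟩ := test hall hM hdet 1 (fun v => by rw [hpow, one_smul]; rfl)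
          fun w hw => by
            have hN' : N = (w - 1) • (1 : Module.End F (Fin μ.sum → F)) := by
              refine LinearMap.ext fun v => ?_
              have h5 := LinearMap.congr_fun hw v
              simp only [LinearMap.add_apply, LinearMap.smul_apply, Module.End.one_apply] at h5 ⊢
              rw [sub_smul, one_smul, ← h5, add_sub_cancel_left]
            have := congrFun (LinearMap.congr_fun hNr (Pi.single ⟨0, by omega⟩ 1)) ⟨0, by omega⟩
            rw [hN', _root_.smul_pow, one_pow] at this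
            simp [pow_eq_zero_iff hr.ne_zero] at this
            exact h1 (hN.eq_zero_iff.1 (by rw [hN', this, zero_smul]))
        have hT : HasType (X - 1) μ := hN.transport e fun v => by simp [hXe, LinearEquiv.conj_apply]
        have hInv : ∀ S : Submodule F (Fin μ.sum → F), Inv X S → Inv (X - 1) S := fun S hS v hv => by
          simpa using S.sub_mem (hS v hv) hv
        obtain ⟨-, hsup, hinf, -⟩ := nd_split H hWn (nd_top H) le_top
        obtain ⟨ν, hν, hνs⟩ := exists_type_le hT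
          (U := W) (W := perpIn H W ⊤) ⟨disjoint_iff.2 hinf, codisjoint_iff.2 hsup⟩ (hInv W hWi)
          (hInv _ (perp_inv H hXiso (hinj hXiso) hWi fun _ _ => trivial))
        exact ⟨ν, hν, hνs.trans hWd⟩
      rcases hcrit.1 hgoal with h | h
      · exact Or.inl h
      · exact Or.inr (Or.inl h)
    · intro hrhs x hx ⟨z, hz⟩ _
      have hgood := hcrit.2 (by
        rcases hrhs with h | h | ⟨h1, h2, -⟩ | ⟨h1, -⟩
        · exact Or.inl h
        · exact Or.inr h
        · exact absurd h1 h2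
        · exact absurd rfl h1)
      obtain ⟨hiso, hXr, hzn, -⟩ := hzfacts x z hx hz
      obtain ⟨l, hl⟩ := exists_root_char (p := r) z
      have hln : l ^ (q + 1) = 1 := by
        refine frobenius_inj F r ?_
        simp only [frobenius_def, one_pow]
        rw [← pow_mul, mul_comm, pow_mul, hl, hzn]
      obtain ⟨hy, hyiso, hyX⟩ := smul_data hXr hiso hln hl
      set y := l⁻¹ • Matrix.toLin' (x : Matrix (Fin n) (Fin n) F)
      have hd : (LinearMap.toMatrix' y).det ≠ 0 := fun e0 => by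
        obtain ⟨u, hu0, hu⟩ := Matrix.exists_mulVec_eq_zero_iff.2 e0
        rw [← Matrix.toLin'_apply, Matrix.toLin'_toMatrix'] at hu
        exact hu0 (hinj hyiso (hu.trans (map_zero y).symm))
      let g : GL (Fin n) F := Matrix.GeneralLinearGroup.mkOfDetNeZero _ hd
      have hg : Matrix.toLin' (g : Matrix (Fin n) (Fin n) F) = y := Matrix.toLin'_toMatrix' y
      have hgU : g ∈ Cfsg.GU n F q := Herm.mem_GU.2 fun u v => by
        rw [← Matrix.toLin'_apply, ← Matrix.toLin'_apply, hg]; exact hyiso u v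
      have hyp : (y - 1) ^ r = 0 := by rw [aeval_sub_one_pow, show y ^ r = 1 from LinearMap.ext hy, sub_self]
      obtain ⟨μ, hμ⟩ := exists_type (f := y - 1) ⟨r, hyp⟩
      have hle : ∀ a ∈ μ, a ≤ r := (hμ.pow_eq_zero_iff r).1 hyp
      obtain ⟨ν, hν, hνs⟩ := hgood μ (fun a ha => ⟨hμ.pos ha, hle a ha⟩) (by rw [hμ.sum_eq, finrank_fin_fun])
      obtain ⟨W, hWd, hWn, hWi⟩ := fix_unipotent hF (p := r) hgU (μ := μ) (ν := ν) (by rw [hg]; exact hμ) hν hle
      exact hfinish ⟨W, hWd.trans hνs, hWn, hyX W (hg ▸ hWi)⟩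
  have hrF : (r : F) ≠ 0 := fun h0 =>
    hrp ((Nat.prime_dvd_prime_iff_eq Fact.out hr).1 ((CharP.cast_eq_zero_iff F p r).1 h0)).symm
  obtain ⟨p', k₀, hp', hc', hk₀, hqk⟩ := Cfsg.Agent.Lib.UnitaryConj.q_eq_pow hF
  obtain rfl : p = p' := CharP.eq F (by assumption) hc'
  have hrq : ¬ r ∣ q := fun hd => hrp ((Nat.prime_dvd_prime_iff_eq hr Fact.out).1 (hr.dvd_of_dvd_pow (hqk ▸ hd)))
  -- scalars that are no powers
  have nonpow_test : ∀ (z : F) (t : ℕ), n = r * t → z ^ (q + 1) = 1 → ((-1) ^ (r + 1) * z) ^ t = 1 →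
      (∀ w : F, w ^ (q + 1) = 1 → w ^ r ≠ z) →
      (∀ x : Matrix.SpecialLinearGroup (Fin n) F, x ∈ Cfsg.SU n F q →
        (∃ z : F, ((x ^ r : Matrix.SpecialLinearGroup (Fin n) F) : Matrix (Fin n) (Fin n) F) = z • (1 : Matrix (Fin n) (Fin n) F)) →
        (∀ z : F, (x : Matrix (Fin n) (Fin n) F) ≠ z • (1 : Matrix (Fin n) (Fin n) F)) →
        ∃ W : Submodule F (Fin n → F), Module.finrank F ↥W = m ∧ (∀ u ∈ W, u ≠ 0 → ∃ v ∈ W, h u v ≠ 0) ∧
          W.map (Matrix.toLin' (x : Matrix (Fin n) (Fin n) F)) ≤ W) → r ∣ m := by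
    intro z t hnt hzn hdet hnp hall
    subst hnt
    have hc : r ≠ 2 → ∀ w : F, w ^ r ≠ z := fun hr2 w hw => by
      refine hnp w ?_ hw
      have h0 : w ≠ 0 := fun e => by rw [← hw, e, zero_pow hr.ne_zero, zero_pow (Nat.succ_ne_zero q)] at hzn; exact zero_ne_one hzn
      have h1 : (w ^ (q + 1)) ^ (q - 1) = 1 := by
        rw [← pow_mul, ← Nat.sq_sub_sq, one_pow, ← hF, FiniteField.pow_card_sub_one_eq_one w h0]
      have h2 : (w ^ (q + 1)) ^ r = 1 := by rw [← pow_mul, mul_comm, pow_mul, hw, hzn]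
      have hcop : r.Coprime (q - 1) ∨ r ∣ q - 1 := Nat.coprime_or_dvd_of_prime hr _
      rcases hcop with hcop | hd
      · simpa [hcop.gcd_eq_one] using pow_gcd_eq_one.2 ⟨h2, h1⟩
      · exfalso
        by_cases hr1 : r ∣ q + 1
        · have h3 := Nat.dvd_sub hr1 hd
          rw [show q + 1 - (q - 1) = 2 by omega, Nat.prime_dvd_prime_iff_eq hr Nat.prime_two] at h3
          exact hr2 h3
        · obtain ⟨y, hy⟩ := (powCoprime (G := rootsOfUnity (q + 1) F) (n := r) (by
            refine (hr.coprime_iff_not_dvd.2 fun h4 => hr1 ?_).symm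
            rwa [card_roots hF] at h4)).surjective ⟨Units.mk0 z (fun e => by simp [e] at hzn), (mem_rootsOfUnity _ _).2 (Units.ext (by simpa using hzn))⟩
          refine hnp ((y : Fˣ) : F) ?_ (by simpa [powCoprime] using congrArg (fun u : rootsOfUnity (q + 1) F => ((u : Fˣ) : F)) hy)
          simpa using congrArg Units.val ((mem_rootsOfUnity _ _).1 y.2)
    obtain ⟨M, hM, hMz, hMd⟩ := UnitModels.exists_nonpow_model hF hrp hzn hc t
    obtain ⟨X, e, W, -, hXz, hXiso, hWd, hWn, hWi⟩ := test hall hM (hMd.trans hdet) z hMz fun w hw => by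
      have h1 := congrFun (hMz (Pi.single ⟨0, by omega⟩ 1)) ⟨0, by omega⟩
      rw [hw, _root_.smul_pow, one_pow] at h1
      have hwz : w ^ r = z := by simpa using h1
      refine hnp w ?_ hwz
      obtain ⟨R, hR, hRi⟩ := hM
      obtain ⟨v, hv⟩ := (hR.nondegenerate (Pi.single ⟨0, by omega⟩ 1) (by simp)).2
      have h2 := hRi (Pi.single ⟨0, by omega⟩ 1) v
      rw [hw, LinearMap.smul_apply, LinearMap.smul_apply, Module.End.one_apply, Module.End.one_apply, hR.smul_left,
        UnitSim.smul_right hR, ← mul_assoc, ← pow_succ'] at h2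
      exact mul_right_cancel₀ hv (h2.trans (one_mul _).symm)
    have hd := UnitInv.det_restrict H hF hσ hXiso hWn hWi
    have hres : (X.restrict hWi) ^ r = z • LinearMap.id := by
      refine LinearMap.ext fun v => Subtype.ext ?_
      rw [Module.End.pow_restrict r hWi (fun a ha => (Inv.pow hWi r) a ha)]
      simp [hXz]
    refine power_of_pow hnp hzn hd ?_
    rw [← map_pow, hres, LinearMap.det_smul, LinearMap.det_id, mul_one, hWd]
  -- elements whose power is the power of a scalar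
  have pow_case : ∀ {X : Module.End F (Fin n → F)} {z w : F}, (∀ v, (X ^ r) v = z • v) →
      (∀ u v, h (X u) (X v) = h u v) → w ^ (q + 1) = 1 → w ^ r = z →
      (∀ s u, s + u * orderOf (-(q : ZMod r)) = n → ∃ s' e, s' ≤ s ∧ e ≤ u ∧ s' + e * orderOf (-(q : ZMod r)) = m) →
      ∃ W : Submodule F (Fin n → F), finrank F W = m ∧ Nd h W ∧ Inv X W := by
    intro X z w hX hiso hw hwr hsu
    obtain ⟨hy, hyiso, hyX⟩ := smul_data hX hiso hw hwr
    obtain ⟨W, h1, h2, h3⟩ := fix_generic hF hrp hy hyiso hsu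
    exact ⟨W, h1, h2, hyX W h3⟩
  have hany : orderOf (-(q : ZMod r)) = 1 → ∀ s u, s + u * orderOf (-(q : ZMod r)) = n →
      ∃ s' e, s' ≤ s ∧ e ≤ u ∧ s' + e * orderOf (-(q : ZMod r)) = m := fun h1 s u hsu => by
    rw [h1] at hsu ⊢
    exact ⟨min s m, m - min s m, min_le_left _ _, by omega, by omega⟩
  have hone : r ∣ q + 1 → orderOf (-(q : ZMod r)) = 1 := fun hd => by
    rw [orderOf_eq_one_iff, neg_eq_iff_eq_neg, eq_neg_iff_add_eq_zero]
    rw [← ZMod.natCast_eq_zero_iff] at hd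
    exact_mod_cast hd
  by_cases hr2 : r = 2
  · -- involutions
    subst hr2
    have h2 : (2 : F) ≠ 0 := by exact_mod_cast hrF
    have hqo : q % 2 = 1 := by omega
    constructor
    · intro hall
      refine Or.inr (Or.inr (Or.inl ⟨rfl, Ne.symm hrp, ?_⟩))
      by_contra hcon
      push Not at hcon
      obtain ⟨hn', hm', hcon⟩ := hcon
      rw [Nat.odd_iff] at hn'
      rw [Nat.even_iff] at hm'
      obtain ⟨t, ht⟩ : 2 ∣ n := by omega
      obtain ⟨z, hzn, hdet, hnp⟩ := exists_z (F := F) (r := 2) hF (by omega) (t := t) (by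
        rw [← ht]
        by_cases hv : padicValNat 2 n ≤ padicValNat 2 (q + 1)
        · have := hcon hv
          exact Or.inr ⟨rfl, by omega⟩
        · exact Or.inl (by omega))
      have := nonpow_test z t ht hzn hdet hnp hall
      omega
    · intro hrhs x hx ⟨z, hz⟩ _
      obtain ⟨hiso, hXr, hzn, hdX⟩ := hzfacts x z hx hz
      refine hfinish ?_
      set X := Matrix.toLin' (x : Matrix (Fin n) (Fin n) F)
      have hcond : Odd n ∨ Even m ∨ (padicValNat 2 n ≤ padicValNat 2 (q + 1) ∧ q % 4 = 3) := by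
        rcases hrhs with ⟨h1, -⟩ | ⟨h1, -⟩ | ⟨-, -, h1⟩ | ⟨-, h1, -⟩
        · exact absurd h1 hrp
        · exact absurd h1 hrp
        · exact h1
        · omega
      by_cases hw : ∃ w : F, w ^ (q + 1) = 1 ∧ w ^ 2 = z
      · obtain ⟨w, hw1, hw2⟩ := hw
        exact pow_case hXr hiso hw1 hw2 (hany (hone (by omega)))
      push Not at hw
      have hz0 : z ≠ 0 := fun e => by simp [e] at hzn
      have hring : ringChar F ≠ 2 := fun e => h2 (by
        have := ringChar.spec F 2
        simpa using this.2 (e ▸ dvd_rfl))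
      obtain ⟨l, hl⟩ := (FiniteField.isSquare_iff hring hz0).2 (by
        obtain ⟨j, hj⟩ : ∃ j, q = 2 * j + 1 := ⟨q / 2, by omega⟩
        rw [hF, hj, show (2 * j + 1) ^ 2 / 2 = (2 * j + 1 + 1) * j by
          rw [show (2 * j + 1) ^ 2 = 2 * ((2 * j + 1 + 1) * j) + 1 by ring]; omega, ← hj, pow_mul, hzn, one_pow])
      have hl0 : l ≠ 0 := fun e => hz0 (by rw [hl, e, mul_zero])
      have hln : l ^ (q + 1) = -1 := by
        refine (sq_eq_one_iff.1 ?_).resolve_left fun h1 => hw l h1 (by rw [sq, ← hl])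
        rw [← pow_mul, mul_comm, pow_mul, sq, ← hl, hzn]
      have hX2 : ∀ v, X (X v) = z • v := fun v => by rw [← hXr v, pow_two, Module.End.mul_apply]
      have hXl : ∀ v, X (X v) = (l * l) • v := fun v => by rw [hX2, hl]
      have hcompl := isCompl_eigen h2 hl0 hXl
      have hhalf : ∀ (μ : F) (E : Submodule F (Fin n → F)), μ * μ ^ q = -1 → (∀ v ∈ E, X v = μ • v) →
          2 * finrank F E ≤ n := by
        intro μ E hμ hE
        have hle : E ≤ H.perp' E := fun u hu v hv => by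
          have h1 := hiso u v
          rw [hE u hu, hE v hv, H.smul_left, H.smul_right, ← mul_assoc, hσ, hμ] at h1
          have : (2 : F) * h u v = 0 := by linear_combination -h1
          exact (mul_eq_zero.1 this).resolve_left h2
        have h1 := Submodule.finrank_mono hle
        have h3 := H.finrank_perp'_eq E
        rw [finrank_fin_fun] at h3
        omega
      have hE₁ := hhalf l _ (by rw [← pow_succ', hln]) (fun v hv => eig_pos hv)
      have hE₂ := hhalf (-l) _ (by rw [← pow_succ', (show Odd q from Nat.odd_iff.2 hqo).add_one.neg_pow, hln])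
        (fun v hv => eig_neg hv)
      have hsum := Submodule.finrank_add_eq_of_isCompl hcompl
      rw [finrank_fin_fun] at hsum
      obtain ⟨t, rfl⟩ : 2 ∣ n := by omega
      have hm : Even m := by
        rcases hcond with h | h | ⟨hv, h4⟩
        · rw [Nat.odd_iff] at h; omega
        · exact h
        exfalso
        refine z_false (r := 2) hF hzn hw (t := t) ?_ (by omega) hv fun _ => h4
        refine Eq.trans ?_ hdX
        rw [eigen_det h2 hl0 hXl, hl, finrank_fin_fun,
          show finrank F (LinearMap.ker (X + l • LinearMap.id)) = t by omega, pow_mul, ← mul_pow]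
        congr 1
        ring
      obtain ⟨e, he⟩ := hm.two_dvd
      obtain ⟨U, -, hU, hUi, hUd⟩ := fix_blocks hF hiso (hinj hiso) (r := 2) (fun W hW hI hne => by
        obtain ⟨v, hv, hvv⟩ := UnitInv.exists_aniso H hW hne
        set b := h v (X v)
        have hXv : h (X v) v = z * b := by
          conv_lhs => rw [← hiso, hX2, H.smul_left]
        have hb : b ^ q = z * b := by rw [← hXv, H.herm (X v) v, hσ]
        have hXX : h (X v) (X v) = h v v := hiso v v
        have hdd : h v v * h v v - b * (z * b) ≠ 0 := fun h0 => by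
          have hb0 : b ≠ 0 := fun e => hvv (by
            rw [e, zero_mul, sub_zero] at h0
            exact mul_self_eq_zero.1 h0)
          have ha : h v v ^ q = h v v := by
            conv_rhs => rw [H.herm v v, hσ]
          refine hw (h v v / b) ?_ ?_
          · rw [pow_succ, div_pow, ha, hb]
            field_simp
            linear_combination h0
          · rw [div_pow]
            field_simp
            linear_combination h0
        have hgen : ∀ a c : F, (∀ u ∈ Submodule.span F ({v, X v} : Set (Fin (2 * t) → F)), h (a • v + c • X v) u = 0) →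
            a = 0 ∧ c = 0 := by
          intro a c hall
          have e1 := hall v (Submodule.subset_span (by simp))
          have e2 := hall (X v) (Submodule.subset_span (by simp))
          rw [H.add_left, H.smul_left, H.smul_left, hXv] at e1
          rw [H.add_left, H.smul_left, H.smul_left, hXX] at e2
          exact ⟨(mul_eq_zero.1 (show a * (h v v * h v v - b * (z * b)) = 0 by
            linear_combination (h v v) * e1 - (z * b) * e2)).resolve_right hdd,
            (mul_eq_zero.1 (show c * (h v v * h v v - b * (z * b)) = 0 by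
            linear_combination (h v v) * e2 - b * e1)).resolve_right hdd⟩
        refine ⟨Submodule.span F {v, X v}, ?_, fun u hu hall => ?_, ?_, ?_⟩
        · rw [Submodule.span_le]
          rintro _ (rfl | rfl)
          · exact hv
          · exact hI v hv
        · obtain ⟨a, c, rfl⟩ := Submodule.mem_span_pair.1 hu
          obtain ⟨rfl, rfl⟩ := hgen a c hall
          simp
        · rintro u hu
          obtain ⟨a, c, rfl⟩ := Submodule.mem_span_pair.1 hu
          refine Submodule.mem_span_pair.2 ⟨c * z, a, ?_⟩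
          rw [map_add, map_smul, map_smul, hX2, smul_smul, add_comm]
        · have hli : LinearIndependent F ![v, X v] := LinearIndependent.pair_iff.2 fun a c hac =>
            hgen a c fun u _ => by rw [hac, H.zero_left]
          have := finrank_span_eq_card hli
          rwa [Matrix.range_cons_cons_empty, Fintype.card_fin] at this)
        e (W := ⊤) (nd_top H) (fun _ _ => trivial) (by rw [finrank_top, finrank_fin_fun]; omega)
      exact ⟨U, by omega, hU, hUi⟩
  -- odd primes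
  have hr3 : 2 < r := lt_of_le_of_ne hr.two_le (Ne.symm hr2)
  have hq0 : (q : ZMod r) ≠ 0 := fun e => hrq ((ZMod.natCast_eq_zero_iff q r).1 e)
  have hoc := orderOf_neg hr2 hq0 hi hc
  haveI : Fact (2 < r) := ⟨hr3⟩
  have hi2 : i = 2 ↔ r ∣ q + 1 := by
    rw [hi, ← ZMod.natCast_eq_zero_iff, Nat.cast_succ, ← eq_neg_iff_add_eq_zero, orderOf_eq_prime_iff, sq_eq_one_iff]
    constructor
    · rintro ⟨h1 | h1, h2⟩
      · exact absurd h1 h2
      · exact h1
    · intro h1
      exact ⟨Or.inr h1, by rw [h1]; exact ZMod.neg_one_ne_one⟩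
  have hc0 : 0 < orderOf (-(q : ZMod r)) := orderOf_pos_iff.2 (isOfFinOrder_iff_pow_eq_one.2
    ⟨r - 1, by omega, ZMod.pow_card_sub_one_eq_one (neg_ne_zero.2 hq0)⟩)
  have hk : n % c < m := by
    obtain ⟨j, hj1, hj2, hj⟩ := UnitInv.exists_pow_eq_one H hF hσ hrq (m := m) (by rw [finrank_fin_fun]; omega)
      (by
        refine hrΩ.trans (dvd_of_eq (Nat.card_congr (Equiv.subtypeEquivRight fun W => ?_)))
        rw [UnitInv.nd_iff])
    rw [finrank_fin_fun] at hj1 hj2
    obtain ⟨l, hl⟩ := orderOf_dvd_of_pow_eq_one hj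
    rw [hoc] at hl
    have h1 : n % c = (n - j) % c := by
      conv_lhs => rw [show n = n - j + c * l by omega, Nat.add_mul_mod_self_left]
    have := Nat.mod_le (n - j) c
    omega
  constructor
  · intro hall
    refine Or.inr (Or.inr (Or.inr ⟨hrp, hr3, ?_⟩))
    by_cases h2i : i = 2
    · refine Or.inr ⟨h2i, ?_⟩
      by_contra hcon
      push Not at hcon
      obtain ⟨t, ht⟩ : r ∣ n := dvd_of_one_le_padicValNat (by omega)
      obtain ⟨z, hzn, hdet, hnp⟩ := exists_z (F := F) hF (hi2.1 h2i) (t := t) (Or.inl (by rw [← ht]; exact hcon.2))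
      exact hcon.1 (nonpow_test z t ht hzn hdet hnp hall)
    · refine Or.inl ⟨h2i, ?_⟩
      have hsplit : ¬ r ∣ q + 1 := fun hd => h2i (hi2.2 hd)
      set o := orderOf (-(q : ZMod r)) with ho
      subst hoc
      obtain ⟨M, hM, hMr, hMf, hMd⟩ := UnitModels.exists_fix_model hF hrp hsplit (n % o) (n / o)
      have hdm : n / o * o + n % o = n := by rw [mul_comm]; exact Nat.div_add_mod n o
      obtain ⟨n', hn'⟩ : ∃ n', n' = n / o * o + n % o := ⟨_, rfl⟩
      obtain ⟨M', hM', hMr', hMd', hMf'⟩ : ∃ M' : Module.End F (Fin n → F), UnitModels.IsModel q M' ∧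
          (∀ v, (M' ^ r) v = v) ∧ LinearMap.det M' = 1 ∧ finrank F (fixSub M') ≤ n % o := by
        have : ∀ (a : ℕ), a = n → ∀ M : Module.End F (Fin a → F), UnitModels.IsModel q M → (∀ v, (M ^ r) v = v) →
            LinearMap.det M = 1 → finrank F (fixSub M) ≤ n % o → ∃ M' : Module.End F (Fin n → F),
            UnitModels.IsModel q M' ∧ (∀ v, (M' ^ r) v = v) ∧ LinearMap.det M' = 1 ∧ finrank F (fixSub M') ≤ n % o := by
          rintro a rfl M h1 h2 h3 h4
          exact ⟨M, h1, h2, h3, h4⟩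
        exact this _ hdm M hM hMr hMd hMf
      obtain ⟨X, e, W, hXe, hXr, hXiso, hWd, hWn, hWi⟩ := test hall hM' hMd' 1 (fun v => by rw [hMr', one_smul])
        fun w hw => by
          have hw0 : w ^ r = 1 := by
            have := congrFun (hMr' (Pi.single ⟨0, by omega⟩ 1)) ⟨0, by omega⟩
            rw [hw, _root_.smul_pow, one_pow] at this
            simpa using this
          obtain ⟨R, hR, hRi⟩ := hM'
          obtain ⟨v, hv⟩ := (hR.nondegenerate (Pi.single ⟨0, by omega⟩ 1) (by simp)).2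
          have h1 := hRi (Pi.single ⟨0, by omega⟩ 1) v
          rw [hw, LinearMap.smul_apply, LinearMap.smul_apply, Module.End.one_apply, Module.End.one_apply, hR.smul_left,
            UnitSim.smul_right hR, ← mul_assoc, ← pow_succ'] at h1
          have hw1 : w ^ (q + 1) = 1 := mul_right_cancel₀ hv (h1.trans (one_mul _).symm)
          have hw2 : w = 1 := by simpa [(hr.coprime_iff_not_dvd.2 hsplit).gcd_eq_one] using pow_gcd_eq_one.2 ⟨hw0, hw1⟩
          rw [hw, hw2, one_smul, show fixSub (1 : Module.End F (Fin n → F)) = ⊤ from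
            eq_top_iff.2 fun v _ => mem_fixSub.2 rfl, finrank_top, finrank_fin_fun] at hMf'
          have := Nat.mod_lt n hc0
          omega
      have hXr' : ∀ v, (X ^ r) v = v := fun v => by rw [hXr, one_smul]
      have hfixX : finrank F (fixSub X) ≤ n % o := by
        refine le_trans (le_of_eq ?_) hMf'
        rw [fixSub, fixSub, ← finrank_ker_conj e (M' - (1 : F) • LinearMap.id), map_sub, map_smul, ← hXe,
          show e.conj (LinearMap.id : Module.End F (Fin n → F)) = LinearMap.id from LinearEquiv.conj_id e]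
      obtain ⟨-, N, -, hNn, hNi, hNf, -, hNd⟩ := UnitInv.exists_parts H hrF hXr' hXiso hWn hWi
      obtain ⟨e', he'⟩ := UnitInv.dvd_finrank H hF hσ hrq hXr' hXiso hNn hNi hNf
      rw [← ho] at he'
      have hs : finrank F ↥(W ⊓ fixSub X) ≤ n % o := (Submodule.finrank_mono inf_le_right).trans hfixX
      rw [he', hWd] at hNd
      have hlt := Nat.mod_lt n hc0
      refine ⟨?_, ?_⟩
      · rcases Nat.eq_zero_or_pos e' with rfl | hpos
        · omega
        · have := Nat.le_mul_of_pos_right o hpos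
          omega
      · rw [← hNd, Nat.add_mul_mod_self_left]
        exact (Nat.mod_le _ _).trans hs
  · intro hrhs x hx ⟨z, hz⟩ _
    obtain ⟨hiso, hXr, hzn, hdX⟩ := hzfacts x z hx hz
    refine hfinish ?_
    set X := Matrix.toLin' (x : Matrix (Fin n) (Fin n) F)
    have hcond : (i ≠ 2 ∧ c ≤ m ∧ m % c ≤ n % c) ∨ (i = 2 ∧ (r ∣ m ∨ padicValNat r n ≤ padicValNat r (q + 1))) := by
      rcases hrhs with ⟨h1, -⟩ | ⟨h1, -⟩ | ⟨h1, -⟩ | ⟨-, -, h1⟩
      · exact absurd h1 hrp
      · exact absurd h1 hrp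
      · exact absurd h1 hr2
      · exact h1
    rcases hcond with ⟨h2i, hcm, hmod⟩ | ⟨h2i, hcase⟩
    · have hsplit : ¬ r ∣ q + 1 := fun hd => h2i (hi2.2 hd)
      obtain ⟨w, hw⟩ := (powCoprime (G := rootsOfUnity (q + 1) F) (n := r) (by
        refine (hr.coprime_iff_not_dvd.2 fun h4 => hsplit ?_).symm
        rwa [card_roots hF] at h4)).surjective
          ⟨Units.mk0 z (fun e => by simp [e] at hzn), (mem_rootsOfUnity _ _).2 (Units.ext (by simpa using hzn))⟩
      refine pow_case hXr hiso (w := ((w : Fˣ) : F)) (by simpa using congrArg Units.val ((mem_rootsOfUnity _ _).1 w.2))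
        (by simpa [powCoprime] using congrArg (fun u : rootsOfUnity (q + 1) F => ((u : Fˣ) : F)) hw) fun s u hsu => ?_
      rw [hoc] at hsu ⊢
      refine ⟨m - min u (m / c) * c, min u (m / c), ?_, min_le_left _ _, ?_⟩
      · have hks : n % c ≤ s := by rw [← hsu, Nat.add_mul_mod_self_right]; exact Nat.mod_le _ _
        have hmd : m / c * c + m % c = m := by rw [mul_comm]; exact Nat.div_add_mod m c
        rcases le_total u (m / c) with hu | hu
        · rw [min_eq_left hu]; omega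
        · rw [min_eq_right hu]; omega
      · have : min u (m / c) * c ≤ m := (Nat.mul_le_mul_right c (min_le_right _ _)).trans (Nat.div_mul_le_self m c)
        omega
    · have hd := hi2.1 h2i
      by_cases hw : ∃ w : F, w ^ (q + 1) = 1 ∧ w ^ r = z
      · obtain ⟨w, hw1, hw2⟩ := hw
        exact pow_case hXr hiso hw1 hw2 (hany (hone hd))
      push Not at hw
      have hz0 : z ≠ 0 := fun e => by simp [e] at hzn
      have hnp : ∀ w : F, w ^ r ≠ z := fun w hwz => by
        refine hw w ?_ hwz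
        have h0 : w ≠ 0 := fun e => hz0 (by rw [← hwz, e, zero_pow hr.ne_zero])
        have hnd : ¬ r ∣ q - 1 := fun h1 => by
          have h3 := Nat.dvd_sub hd h1
          rw [show q + 1 - (q - 1) = 2 by omega, Nat.prime_dvd_prime_iff_eq hr Nat.prime_two] at h3
          exact hr2 h3
        have h1 : (w ^ (q + 1)) ^ (q - 1) = 1 := by
          rw [← pow_mul, ← Nat.sq_sub_sq, one_pow, ← hF, FiniteField.pow_card_sub_one_eq_one w h0]
        have h2 : (w ^ (q + 1)) ^ r = 1 := by rw [← pow_mul, mul_comm, pow_mul, hwz, hzn]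
        simpa [(hr.coprime_iff_not_dvd.2 hnd).gcd_eq_one] using pow_gcd_eq_one.2 ⟨h2, h1⟩
      obtain ⟨t, ht, hdet⟩ := det_nonpow (p := p) hrp hnp n X (finrank_fin_fun F) hXr
      rcases hcase with hrm | hv
      · obtain ⟨e, he⟩ := hrm
        have hS := step_nonpow hrp hnp hXr
        have hdvd : ∀ S : Submodule F (Fin n → F), Inv X S → r ∣ finrank F S := fun S hS' => by
          obtain ⟨t', ht', -⟩ := det_nonpow (p := p) hrp hnp (finrank F S) (X.restrict hS') rfl fun v => by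
            refine Subtype.ext ?_
            rw [Module.End.pow_restrict r hS' (fun a ha => (Inv.pow hS' r) a ha)]
            exact hXr v
          exact ⟨t', ht'⟩
        obtain ⟨U, -, hU, hUi, hUd⟩ := fix_blocks hF hiso (hinj hiso) (r := r) (fun W hW hI hne => by
          obtain ⟨v, hv, hvv⟩ := UnitInv.exists_aniso H hW hne
          have hg1 : (Polynomial.X ^ r - Polynomial.C z : Polynomial F) ≠ 1 := fun e => by
            have := congrArg Polynomial.natDegree e
            rw [Polynomial.natDegree_X_pow_sub_C, Polynomial.natDegree_one] at this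
            exact hr.ne_zero this
          obtain ⟨U, hU, hUW, hvU, hUd⟩ := exists_cyclic hI (Polynomial.monic_X_pow_sub_C z hr.ne_zero) hv
            (by simp [hXr])
          rw [Polynomial.natDegree_X_pow_sub_C] at hUd
          have hUd' : finrank F U = r := le_antisymm hUd (Nat.le_of_dvd (Nat.pos_of_ne_zero fun h0 => hvv (by
            have := hvU hg1
            rw [Submodule.finrank_eq_zero.1 h0, Submodule.mem_bot] at this
            rw [this, H.zero_left])) (hdvd U hU))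
          refine ⟨U, hUW, fun u hu hall => ?_, hU, hUd'⟩
          rcases Nat.eq_zero_or_pos (finrank F (perpIn H U U)) with h0 | h0
          · exact (Submodule.mem_bot F).1 (Submodule.finrank_eq_zero.1 h0 ▸ ((mem_perpIn H).2 ⟨hu, hall⟩))
          · have h1 := Nat.le_of_dvd h0 (hdvd _ (perp_inv H hiso (hinj hiso) hU hU))
            have h2 : perpIn H U U = U := Submodule.eq_of_le_of_finrank_le inf_le_left (by omega)
            exact absurd (((mem_perpIn H).1 (h2.symm ▸ hvU hg1)).2 v (hvU hg1)) hvv)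
          e (W := ⊤) (nd_top H) (fun _ _ => trivial) (by rw [finrank_top, finrank_fin_fun]; omega)
        exact ⟨U, by omega, hU, hUi⟩
      · exfalso
        refine z_false hF hzn (fun w _ => hnp w) (t := t) (hdet.symm.trans hdX) ?_ (ht ▸ hv) fun h2 => absurd h2 hr2
        rintro rfl
        omega

end Cfsg.Agent.S5954
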