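import Cfsg.Statements.S5953
import Cfsg.Agent.S5954
import Cfsg.Agent.Lib.Elusive.UnitTI
import Cfsg.Agent.Lib.Elusive.UnitBad

set_option autoImplicit false
set_option maxHeartbeats 1600000
open scoped MatrixGroups
open Cfsg

namespace Cfsg.Agent.S5953

open Module
open scoped Matrix
open Cfsg.Agent.Lib.Forms Cfsg.Agent.Lib.Classical Cfsg.Agent.Lib.Elusive
open Cfsg.Agent.Lib.Elusive.UnitInv (Nd Ti perpIn mem_perpIn nd_split nd_top perp_inv fixSub mem_fixSub ti_dim)
open Cfsg.Agent.S5954 (exists_mu_gen exists_z z_false orderOf_neg card_roots)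

/-- Exponents of paired eigenvalues. -/
def pairExp (r J l : ℕ) : ℕ := if l < 2 * J then (if l % 2 = 0 then l / 2 + 1 else r - (l / 2 + 1)) else 0

theorem sum_pairExp {r J : ℕ} (hJ : J < r) : ∀ n, 2 * J ≤ n → ∑ l ∈ Finset.range n, pairExp r J l = J * r := by
  have h1 : ∀ t ≤ J, ∑ l ∈ Finset.range (2 * t), pairExp r J l = t * r := by
    intro t
    induction t with
    | zero => simp
    | succ t ih =>
      intro ht
      rw [show 2 * (t + 1) = 2 * t + 1 + 1 by ring, Finset.sum_range_succ, Finset.sum_range_succ, ih (by omega),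
        add_mul, one_mul]
      unfold pairExp
      rw [if_pos (by omega), if_pos (by omega), if_pos (by omega), if_neg (by omega)]
      omega
  intro n hn
  induction n, hn using Nat.le_induction with
  | base => exact h1 J le_rfl
  | succ n hn ih => rw [Finset.sum_range_succ, ih]; simp [pairExp, show ¬ n < 2 * J by omega]

/-- Elements of prime order of PSU_n(q) with no fixed totally isotropic `m`-space. Here `T = PSU_n(q)` (`n ≥ 3`, `(n, q) ≠ (3, 2)`), realised through the matrices of determinant 1 over the field `F` with `q²` elements preserving the Hermitian form `h(u, v) = Σ u_i v_i^q`; an element of `T` of prime order `r` is such a matrix `x` with `x^r` scalar and `x` not scalar. For `r ≠ p` let `i` be the multiplicative order of `q` modulo `r`, `b = i/2` for `i` even and `b = i` for `i` odd, `c = i, i/2, 2i` according as `i ≡ 0, 2 (mod 4)` or `i` odd, and write `k = n mod c`, `ℓ = m mod b`, `ℓ' = m mod c`, `n' = ⌊n/b⌋`, `m' = ⌊m/b⌋`, `s = (r−1)/b`; `(a)_r` is the `r`-part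 of `a`. Let `1 ≤ m ≤ n/2` and let `r` be a prime dividing the number of totally isotropic `m`-spaces. Then every element of `T` of order `r` fixes a totally isotropic `m`-space if and only if either (i) `r = 2`, `p ≠ 2`, and (`m < n/2` or `(q+1)_2 ≤ (n)_2`); or (ii) `r ≠ p`, `r > 2`, `b ≤ m`, `k ≥ 2ℓ`, and either `i ≢ 2 (mod 4)`, or `i ≡ 2 (mod 4)`, `n' − 2m' ≥ s` and (`i > 2`, or `i = 2` and (`r ∣ m` or `(q+1)_r ≥ (n)_r`)). -/
theorem result {F : Type*} [Field F] [Fintype F] {p : ℕ} [Fact p.Prime] [CharP F p] {q : ℕ} (hq : Fintype.card F = q ^ 2)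
    (n m : ℕ) (hn : 3 ≤ n) (hT : (n, q) ≠ (3, 2)) (hm : 1 ≤ m) (hmn : 2 * m ≤ n)
    (r : ℕ) [Fact r.Prime]
    (hrΩ : r ∣ Nat.card {W : Submodule F (Fin n → F) // Module.finrank F ↥W = m ∧ (∀ u ∈ W, ∀ v ∈ W, Cfsg.hermForm n F q u v = 0)})
    (i b c : ℕ) (hi : i = orderOf (q : ZMod r)) (hb : b = if Even i then i / 2 else i)
    (hc : c = if i % 4 = 0 then i else if i % 4 = 2 then i / 2 else 2 * i) :
    (∀ x : Matrix.SpecialLinearGroup (Fin n) F, x ∈ Cfsg.SU n F q →
      (∃ z : F, ((x ^ r : Matrix.SpecialLinearGroup (Fin n) F) : Matrix (Fin n) (Fin n) F) = z • (1 : Matrix (Fin n) (Fin n) F)) →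
      (∀ z : F, (x : Matrix (Fin n) (Fin n) F) ≠ z • (1 : Matrix (Fin n) (Fin n) F)) →
      ∃ W : Submodule F (Fin n → F), Module.finrank F ↥W = m ∧ (∀ u ∈ W, ∀ v ∈ W, Cfsg.hermForm n F q u v = 0) ∧
        W.map (Matrix.toLin' (x : Matrix (Fin n) (Fin n) F)) ≤ W) ↔
    ((r = 2 ∧ p ≠ 2 ∧ (2 * m < n ∨ padicValNat 2 (q + 1) ≤ padicValNat 2 n)) ∨
     (r ≠ p ∧ 2 < r ∧ b ≤ m ∧ 2 * (m % b) ≤ n % c ∧
       (i % 4 ≠ 2 ∨ (i % 4 = 2 ∧ (r - 1) / b + 2 * (m / b) ≤ n / b ∧
         (2 < i ∨ (i = 2 ∧ (r ∣ m ∨ padicValNat r n ≤ padicValNat r (q + 1)))))))) := by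
  classical
  have hF : Fintype.card F = q ^ 2 := hq
  have hq2 := Herm.two_le_q hF
  have hr : r.Prime := Fact.out
  haveI : Nonempty (Fin n) := ⟨⟨0, by omega⟩⟩
  have H := hermData hF n
  set h := Cfsg.hermForm n F q with hh
  have hσ : ∀ a, conjQ hF a = a ^ q := fun a => rfl
  obtain ⟨p', k₀, hp', hc', hk₀, hqk⟩ := Cfsg.Agent.Lib.UnitaryConj.q_eq_pow hF
  obtain rfl : p = p' := CharP.eq F (by assumption) hc'
  obtain ⟨j, hj1, hj2, hj⟩ := UnitBad.exists_pow_ti hF hmn hrΩ
  have hrp : r ≠ p := fun e => by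
    rw [show (q : ZMod r) = 0 from (ZMod.natCast_eq_zero_iff q r).2 (by rw [e, hqk]; exact dvd_pow_self p (by omega)),
      neg_zero, zero_pow (by omega)] at hj
    exact zero_ne_one hj
  have hrF : (r : F) ≠ 0 := fun h0 =>
    hrp ((Nat.prime_dvd_prime_iff_eq Fact.out hr).1 ((CharP.cast_eq_zero_iff F p r).1 h0)).symm
  have hrq : ¬ r ∣ q := fun hd => hrp ((Nat.prime_dvd_prime_iff_eq hr Fact.out).1 (hr.dvd_of_dvd_pow (hqk ▸ hd)))
  have hinj : ∀ {X : Module.End F (Fin n → F)}, (∀ u v, h (X u) (X v) = h u v) → Function.Injective X :=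
    fun hX => (injective_iff_map_eq_zero _).2 fun u hu => (nd_top H) u trivial fun v _ => by rw [← hX, hu, H.zero_left]
  have hfinish : ∀ {x : Matrix.SpecialLinearGroup (Fin n) F},
      (∃ W : Submodule F (Fin n → F), finrank F W = m ∧ Ti h W ∧ Inv (Matrix.toLin' (x : Matrix (Fin n) (Fin n) F)) W) →
      ∃ W : Submodule F (Fin n → F), Module.finrank F ↥W = m ∧ (∀ u ∈ W, ∀ v ∈ W, h u v = 0) ∧
        W.map (Matrix.toLin' (x : Matrix (Fin n) (Fin n) F)) ≤ W := fun ⟨W, h1, h2, h3⟩ =>
    ⟨W, h1, h2, inv_iff_map_le.1 h3⟩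
  have hzfacts : ∀ (x : Matrix.SpecialLinearGroup (Fin n) F) (z : F), x ∈ Cfsg.SU n F q →
      ((x ^ r : Matrix.SpecialLinearGroup (Fin n) F) : Matrix (Fin n) (Fin n) F) = z • (1 : Matrix (Fin n) (Fin n) F) →
      (∀ u v, h (Matrix.toLin' (x : Matrix (Fin n) (Fin n) F) u) (Matrix.toLin' (x : Matrix (Fin n) (Fin n) F) v) = h u v) ∧
      (∀ v, ((Matrix.toLin' (x : Matrix (Fin n) (Fin n) F)) ^ r) v = z • v) ∧ z ^ (q + 1) = 1 ∧
      LinearMap.det (Matrix.toLin' (x : Matrix (Fin n) (Fin n) F)) = 1 := by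
    intro x z hx hxz
    have hiso : ∀ u v, h (Matrix.toLin' (x : Matrix (Fin n) (Fin n) F) u) (Matrix.toLin' (x : Matrix (Fin n) (Fin n) F) v) = h u v :=
      fun u v => by rw [Matrix.toLin'_apply, Matrix.toLin'_apply]; exact Herm.mem_SU.1 hx u v
    set X := Matrix.toLin' (x : Matrix (Fin n) (Fin n) F) with hX
    have hXr : ∀ v, (X ^ r) v = z • v := sl_pow_eq_smul_iff.1 hxz
    refine ⟨hiso, hXr, ?_, by rw [hX, LinearMap.det_toLin', x.det_coe]⟩
    have hpow : ∀ (j : ℕ) u v, h ((X ^ j) u) ((X ^ j) v) = h u v := by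
      intro j
      induction j with
      | zero => intro u v; rfl
      | succ j ih => intro u v; rw [pow_succ', Module.End.mul_apply, Module.End.mul_apply, hiso, ih]
    have h1 := hpow r (Pi.single ⟨0, by omega⟩ 1) (Pi.single ⟨0, by omega⟩ 1)
    rw [hXr, H.smul_left, H.smul_right, hσ, hh, Herm.herm_single_right hF, Pi.single_eq_same, mul_one,
      ← pow_succ'] at h1
    exact h1
  have smul_data : ∀ {X : Module.End F (Fin n → F)} {z w : F}, (∀ v, (X ^ r) v = z • v) →
      (∀ u v, h (X u) (X v) = h u v) → w ^ (q + 1) = 1 → w ^ r = z →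
      (∀ v, ((w⁻¹ • X) ^ r) v = v) ∧ (∀ u v, h ((w⁻¹ • X) u) ((w⁻¹ • X) v) = h u v) ∧
        ∀ W : Submodule F (Fin n → F), Inv (w⁻¹ • X) W → Inv X W := by
    intro X z w hX hiso hw hwr
    have hw0 : w ≠ 0 := fun e => by simp [e] at hw
    refine ⟨fun v => ?_, fun u v => ?_, fun W hW v hv => ?_⟩
    · rw [_root_.smul_pow, LinearMap.smul_apply, hX, smul_smul, ← hwr, inv_pow,
        inv_mul_cancel₀ (pow_ne_zero r hw0), one_smul]
    · rw [LinearMap.smul_apply, LinearMap.smul_apply, H.smul_left, H.smul_right, hiso, hσ, ← mul_assoc,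
        ← pow_succ', inv_pow, hw, inv_one, one_mul]
    · have := W.smul_mem w (hW v hv)
      rwa [LinearMap.smul_apply, smul_inv_smul₀ hw0] at this
  have hsub : ∀ (E : Submodule F (Fin n → F)) {s : ℕ}, s ≤ finrank F E → ∃ T ≤ E, finrank F T = s := by
    intro E s hs
    obtain ⟨f, hf⟩ := exists_linearIndependent_of_le_finrank hs
    have hli : LinearIndependent F fun i => (f i : Fin n → F) := hf.map' E.subtype E.ker_subtype
    refine ⟨Submodule.span F (Set.range fun i => (f i : Fin n → F)), ?_, by rw [finrank_span_eq_card hli, Fintype.card_fin]⟩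
    rw [Submodule.span_le]
    rintro _ ⟨i, rfl⟩
    exact (f i).2
  by_cases hr2 : r = 2
  · -- involutions
    subst hr2
    have h2 : (2 : F) ≠ 0 := by exact_mod_cast hrF
    have hqo : q % 2 = 1 := by omega
    constructor
    · intro hall
      refine Or.inl ⟨rfl, Ne.symm hrp, ?_⟩
      by_contra hcon
      push Not at hcon
      obtain ⟨hnm, hv⟩ := hcon
      obtain ⟨g, hg⟩ := exists_mu_gen hF
      set a := padicValNat 2 n with ha
      obtain ⟨M, hM⟩ : 2 ^ (a + 1) ∣ q + 1 := (pow_dvd_pow 2 hv).trans pow_padicValNat_dvd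
      obtain ⟨N, hN⟩ : 2 ^ a ∣ n := pow_padicValNat_dvd
      have hNo : Odd N := Nat.odd_iff.2 (by
        by_contra hNe
        obtain ⟨N', hN'⟩ : 2 ∣ N := by omega
        exact pow_succ_padicValNat_not_dvd (p := 2) (n := n) (by omega)
          ⟨N', by rw [← ha, pow_succ, hN, hN', mul_assoc]⟩)
      have hw2 : IsPrimitiveRoot ((g ^ M) ^ 2 ^ a) 2 := by
        rw [← pow_mul]
        exact hg.pow (Nat.succ_pos q) (by show q + 1 = M * 2 ^ a * 2; rw [hM, pow_succ]; ring)
      have hwn : (g ^ M) ^ (q + 1) = 1 := by rw [← pow_mul, mul_comm, pow_mul, hg.pow_eq_one, one_pow]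
      set w := g ^ M
      have hwn' : w ^ n = -1 := by rw [hN, pow_mul, hw2.eq_neg_one_of_two_right, hNo.neg_one_pow]
      have hw0 : w ≠ 0 := fun e => by rw [e, zero_pow (Nat.succ_ne_zero q)] at hwn; exact zero_ne_one hwn
      let i₀ : Fin n := ⟨0, by omega⟩
      have hd : ∀ l : Fin n, ((if l = i₀ then (-1 : F) else 1) * w) ^ (q + 1) = 1 := fun l => by
        rw [mul_pow, hwn, mul_one]
        split_ifs
        · exact (show Odd q from Nat.odd_iff.2 hqo).add_one.neg_one_pow
        · exact one_pow _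
      obtain ⟨x, hx, hxd, hxbad⟩ := UnitBad.diag_bad hF (fun l => (if l = i₀ then (-1 : F) else 1) * w) hd
        (by rw [Finset.prod_mul_distrib, Finset.prod_ite_eq' Finset.univ i₀ (fun _ => (-1 : F)), if_pos (Finset.mem_univ _),
          Finset.prod_const, Finset.card_univ, Fintype.card_fin, hwn', neg_mul_neg, one_mul])
        {i₀} (fun l hl k hk => by
          rw [Finset.mem_singleton] at hl
          subst hl
          rw [if_neg hk, if_pos rfl, one_mul, neg_one_mul]
          intro e
          exact h2 (by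
            have : (2 : F) * w = 0 := by linear_combination e
            exact (mul_eq_zero.1 this).resolve_right hw0))
      obtain ⟨W, hWd, hWt, hWi⟩ := hall x hx ⟨w ^ 2, by
          rw [Matrix.SpecialLinearGroup.coe_pow, hxd, Matrix.diagonal_pow]
          refine Matrix.ext fun k l => ?_
          rcases eq_or_ne k l with rfl | hkl
          · simp [mul_pow]
          · simp [hkl]⟩
        (fun z hz => by
          rw [hxd] at hz
          have e0 := congrFun (congrFun hz i₀) i₀
          have e1 := congrFun (congrFun hz ⟨1, by omega⟩) ⟨1, by omega⟩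
          simp [i₀] at e0 e1
          exact h2 ((mul_eq_zero.1 (show (2 : F) * w = 0 by linear_combination e1 - e0)).resolve_right hw0))
      have := hxbad W hWt hWi
      rw [hWd, Finset.card_singleton] at this
      omega
    · intro hrhs x hx ⟨z, hz⟩ _
      obtain ⟨hiso, hXr, hzn, hdX⟩ := hzfacts x z hx hz
      refine hfinish ?_
      set X := Matrix.toLin' (x : Matrix (Fin n) (Fin n) F)
      have hcond : 2 * m < n ∨ padicValNat 2 (q + 1) ≤ padicValNat 2 n := by
        rcases hrhs with ⟨-, -, h1⟩ | ⟨-, h1, -⟩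
        · exact h1
        · omega
      by_cases hw : ∃ w : F, w ^ (q + 1) = 1 ∧ w ^ 2 = z
      · obtain ⟨w, hw1, hw2⟩ := hw
        obtain ⟨hy, hyiso, hyX⟩ := smul_data hXr hiso hw1 hw2
        set y := w⁻¹ • X with hydef
        obtain ⟨hCn, M, -, hMn, hMi, hMf, ho, hMd⟩ :=
          UnitInv.exists_parts H hrF hy hyiso (nd_top H) (fun _ _ => trivial)
        rw [finrank_top, finrank_fin_fun] at hMd
        have hy2 : ∀ v, y (y v) = v := fun v => by rw [← Module.End.mul_apply, ← pow_two, hy]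
        have hneg : ∀ v ∈ M, y v = -v := fun v hv => by
          have h1 := hMf (y v + v) (M.add_mem (hMi v hv) hv) (by rw [map_add, hy2, add_comm])
          exact eq_neg_of_add_eq_zero_left h1
        have hpar : 2 * m = n → finrank F M % 2 = 0 := fun h2m => by
          have hy1 : ∀ v, y (y v) = ((1 : F) * 1) • v := fun v => by rw [hy2, one_mul, one_smul]
          have hMle : M ≤ LinearMap.ker (y + (1 : F) • LinearMap.id) := fun v hv => by
            rw [LinearMap.mem_ker, LinearMap.add_apply, one_smul, LinearMap.id_apply, hneg v hv, neg_add_cancel]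
          have hs := Submodule.finrank_add_eq_of_isCompl (isCompl_eigen h2 one_ne_zero hy1)
          rw [finrank_fin_fun] at hs
          have hMeq : finrank F M = finrank F (LinearMap.ker (y + (1 : F) • LinearMap.id)) := by
            have hC : finrank F ↥(⊤ ⊓ fixSub y : Submodule F (Fin n → F)) =
                finrank F (LinearMap.ker (y - (1 : F) • LinearMap.id)) := by rw [top_inf_eq]; rfl
            omega
          by_contra hodd
          have hdy : LinearMap.det y = -1 := by
            rw [eigen_det h2 one_ne_zero hy1, one_pow, one_mul, ← hMeq,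
              (show Odd (finrank F M) from Nat.odd_iff.2 (by omega)).neg_one_pow]
          have hwn : w ^ n = -1 := by
            have h1 : LinearMap.det y = (w⁻¹) ^ n := by rw [hydef, LinearMap.det_smul, hdX, mul_one, finrank_fin_fun]
            rw [hdy, inv_pow] at h1
            rw [← inv_inv (w ^ n), ← h1, inv_neg, inv_one]
          have hv := hcond.resolve_left (by omega)
          obtain ⟨N, hN⟩ : 2 ^ padicValNat 2 (q + 1) ∣ q + 1 := pow_padicValNat_dvd
          have hNo : Odd N := Nat.odd_iff.2 (by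
            by_contra hNe
            obtain ⟨N', hN'⟩ : 2 ∣ N := by omega
            exact pow_succ_padicValNat_not_dvd (p := 2) (n := q + 1) (by omega)
              ⟨N', by rw [pow_succ, mul_assoc, ← hN', ← hN]⟩)
          obtain ⟨e, he⟩ : q + 1 ∣ n * N := by
            rw [hN]
            exact Nat.mul_dvd_mul_right ((pow_dvd_pow 2 hv).trans pow_padicValNat_dvd) N
          have h1 : (w ^ n) ^ N = 1 := by rw [← pow_mul, he, pow_mul, hw1, one_pow]
          rw [hwn, hNo.neg_one_pow] at h1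
          exact h2 (by linear_combination -h1)
        set a := finrank F ↥(⊤ ⊓ fixSub y : Submodule F (Fin n → F))
        obtain ⟨U₁, hU₁, hU₁t, hU₁d⟩ := UnitInv.exists_ti_sub H hF hσ hCn (s := min m (a / 2))
          (show 2 * min m (a / 2) ≤ a by omega)
        obtain ⟨U₂, hU₂, hU₂t, hU₂d⟩ := UnitInv.exists_ti_sub H hF hσ hMn (s := m - min m (a / 2)) (by
          rcases Nat.lt_or_ge (2 * m) n with hlt | hge
          · omega
          · have := hpar (by omega); omega)
        have hoo : ∀ u ∈ U₁, ∀ v ∈ U₂, h u v = 0 := fun u hu v hv => ho u (hU₁ hu) v (hU₂ hv)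
        refine ⟨U₁ ⊔ U₂, ?_, UnitInv.ti_sup H hU₁t hU₂t hoo,
          hyX _ ((UnitInv.fixSub_inv (hU₁.trans inf_le_right)).sup fun v hv => ?_)⟩
        · have h5 := Submodule.finrank_sup_add_finrank_inf_eq U₁ U₂
          rw [show U₁ ⊓ U₂ = ⊥ from eq_bot_iff.2 fun v ⟨hv, hv'⟩ => (Submodule.mem_bot F).2
            (hMf v (hU₂ hv') (mem_fixSub.1 (hU₁ hv).2)), finrank_bot, hU₁d, hU₂d] at h5
          omega
        · rw [hneg v (hU₂ hv)]
          exact U₂.neg_mem hv
      push Not at hw
      have hz0 : z ≠ 0 := fun e => by simp [e] at hzn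
      have hring : ringChar F ≠ 2 := fun e => h2 (by
        have := ringChar.spec F 2
        simpa using this.2 (e ▸ dvd_rfl))
      obtain ⟨l, hl⟩ := (FiniteField.isSquare_iff hring hz0).2 (by
        obtain ⟨j, hj⟩ : ∃ j, q = 2 * j + 1 := ⟨q / 2, by omega⟩
        rw [hF, hj, show (2 * j + 1) ^ 2 / 2 = (2 * j + 1 + 1) * j by
          rw [show (2 * j + 1) ^ 2 = 2 * ((2 * j + 1 + 1) * j) + 1 by ring]; omega, ← hj, pow_mul, hzn, one_pow])
      have hl0 : l ≠ 0 := fun e => hz0 (by rw [hl, e, mul_zero])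
      have hln : l ^ (q + 1) = -1 := by
        refine (sq_eq_one_iff.1 ?_).resolve_left fun h1 => hw l h1 (by rw [sq, ← hl])
        rw [← pow_mul, mul_comm, pow_mul, sq, ← hl, hzn]
      have hXl : ∀ v, X (X v) = (l * l) • v := fun v => by rw [← hl, ← hXr v, pow_two, Module.End.mul_apply]
      have hcompl := isCompl_eigen h2 hl0 hXl
      have hhalf : ∀ (μ : F) (E : Submodule F (Fin n → F)), μ * μ ^ q = -1 → (∀ v ∈ E, X v = μ • v) →
          Ti h E ∧ 2 * finrank F E ≤ n := by
        intro μ E hμ hE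
        have hti : Ti h E := fun u hu v hv => by
          have h1 := hiso u v
          rw [hE u hu, hE v hv, H.smul_left, H.smul_right, ← mul_assoc, hσ, hμ] at h1
          have : (2 : F) * h u v = 0 := by linear_combination -h1
          exact (mul_eq_zero.1 this).resolve_left h2
        have h1 := ti_dim H (nd_top H) (le_top : E ≤ ⊤) hti
        rw [finrank_top, finrank_fin_fun] at h1
        exact ⟨hti, h1⟩
      obtain ⟨hT₁, hE₁⟩ := hhalf l _ (by rw [← pow_succ', hln]) (fun v hv => eig_pos hv)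
      obtain ⟨-, hE₂⟩ := hhalf (-l) _ (by rw [← pow_succ', (show Odd q from Nat.odd_iff.2 hqo).add_one.neg_pow, hln])
        (fun v hv => eig_neg hv)
      have hsum := Submodule.finrank_add_eq_of_isCompl hcompl
      rw [finrank_fin_fun] at hsum
      obtain ⟨T, hTE, hTd⟩ := hsub (LinearMap.ker (X - l • LinearMap.id)) (s := m) (by omega)
      exact ⟨T, hTd, hT₁.mono hTE, fun v hv => by rw [eig_pos (hTE hv)]; exact T.smul_mem l hv⟩
  -- odd primes
  have hr3 : 2 < r := lt_of_le_of_ne hr.two_le (Ne.symm hr2)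
  have hq0 : (q : ZMod r) ≠ 0 := fun e => hrq ((ZMod.natCast_eq_zero_iff q r).1 e)
  have hoc := orderOf_neg hr2 hq0 hi hc
  haveI : Fact (2 < r) := ⟨hr3⟩
  have hi2 : i = 2 ↔ r ∣ q + 1 := by
    rw [hi, ← ZMod.natCast_eq_zero_iff, Nat.cast_succ, ← eq_neg_iff_add_eq_zero, orderOf_eq_prime_iff, sq_eq_one_iff]
    constructor
    · rintro ⟨h1 | h1, h2⟩
      · exact absurd h1 h2
      · exact h1
    · intro h1
      exact ⟨Or.inr h1, by rw [h1]; exact ZMod.neg_one_ne_one⟩
  have hfo : IsOfFinOrder (q : ZMod r) :=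
    isOfFinOrder_iff_pow_eq_one.2 ⟨r - 1, by omega, ZMod.pow_card_sub_one_eq_one hq0⟩
  have hi0 : 0 < i := hi ▸ hfo.orderOf_pos
  have hir : i ∣ r - 1 := hi ▸ orderOf_dvd_of_pow_eq_one (ZMod.pow_card_sub_one_eq_one hq0)
  have hob : orderOf (Nat.card F : ZMod r) = b := by
    rw [Nat.card_eq_fintype_card, hF, Nat.cast_pow, hfo.orderOf_pow, ← hi, hb]
    split_ifs with he
    · rw [Nat.gcd_eq_right he.two_dvd]
    · rw [(Nat.coprime_two_right.2 (Nat.not_even_iff_odd.1 he)).gcd_eq_one, Nat.div_one]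
  have hb0 : 0 < b := by
    rw [hb]
    split_ifs with he
    · rw [Nat.even_iff] at he; omega
    · exact hi0
  have hbr : b ∣ r - 1 := by
    refine dvd_trans ?_ hir
    rw [hb]
    split_ifs with he
    · exact Nat.div_dvd_of_dvd he.two_dvd
    · exact dvd_rfl
  have hcb1 : i % 4 = 2 → c = b := fun h4 => by
    rw [hc, hb, if_neg (by omega), if_pos h4, if_pos (Nat.even_iff.2 (by omega))]
  have hcb2 : i % 4 ≠ 2 → c = 2 * b := fun h4 => by
    rw [hc, hb]
    by_cases h0 : i % 4 = 0
    · rw [if_pos h0, if_pos (Nat.even_iff.2 (by omega))]; omega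
    · rw [if_neg h0, if_neg h4, if_neg (by rw [Nat.even_iff]; omega)]
  have hcpos : 0 < c := by
    by_cases h4 : i % 4 = 2
    · have := hcb1 h4; omega
    · have := hcb2 h4; omega
  have hdm : n / c * c + n % c = n := by rw [mul_comm]; exact Nat.div_add_mod n c
  have hmb : m / b * b + m % b = m := by rw [mul_comm]; exact Nat.div_add_mod m b
  obtain ⟨hk, hcn⟩ : n % c < 2 * m ∧ c ≤ n := by
    obtain ⟨l, hl⟩ := orderOf_dvd_of_pow_eq_one hj
    rw [hoc] at hl
    have h1 : n % c = (n - j) % c := by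
      conv_lhs => rw [show n = n - j + c * l by omega, Nat.add_mul_mod_self_left]
    have h2 := Nat.mod_le (n - j) c
    have h3 := Nat.le_of_dvd (show 0 < j by omega) ⟨l, hl⟩
    omega
  -- elements whose power is the power of a scalar
  have pow_ti : ∀ {X : Module.End F (Fin n → F)} {z w : F}, (∀ v, (X ^ r) v = z • v) →
      (∀ u v, h (X u) (X v) = h u v) → w ^ (q + 1) = 1 → w ^ r = z →
      (∀ s u, s + u * c = n → ∃ e, e * b ≤ m ∧ 2 * (m - e * b) ≤ s ∧
        ((c = 2 * b ∧ e ≤ u) ∨ (c = b ∧ (e = 0 ∨ r - 1 + 2 * (e * b) ≤ u * b + b)))) →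
      ∃ W : Submodule F (Fin n → F), finrank F W = m ∧ Ti h W ∧ Inv X W := by
    intro X z w hX hiso hw hwr hsu
    obtain ⟨hy, hyiso, hyX⟩ := smul_data hX hiso hw hwr
    set y := w⁻¹ • X
    obtain ⟨hCn, M, -, hMn, hMi, hMf, ho, hMd⟩ :=
      UnitInv.exists_parts H hrF hy hyiso (nd_top H) (fun _ _ => trivial)
    obtain ⟨u, hu⟩ := UnitInv.dvd_finrank H hF hσ hrq hy hyiso hMn hMi hMf
    rw [hoc] at hu
    rw [finrank_top, finrank_fin_fun] at hMd
    obtain ⟨e, heb, hes, hgood⟩ := hsu (finrank F ↥(⊤ ⊓ fixSub y : Submodule F (Fin n → F))) u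
      (by rw [mul_comm u, ← hu, hMd])
    obtain ⟨U, hUM, hUi, hUt, hUd⟩ : ∃ U ≤ M, Inv y U ∧ Ti h U ∧ finrank F U = e * b := by
      rcases hgood with ⟨hcb, heu⟩ | ⟨hcb, he0 | hbig⟩
      · refine UnitInv.ti_rec H hyiso (UnitInv.inj_of_pow hy) (b := b) (D₀ := 1) (P₀ := M) (fun P hP hPn hPi hPd => ?_) e
          le_rfl hMn hMi ?_
        · have h1 := UnitInv.find_double H hF hσ hrp hy hyiso (by rw [hoc, hob, hcb]) hPn hPi
            (fun v hv => hMf v (hP hv)) (fun e' => by rw [e', finrank_bot] at hPd; omega)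
          rwa [hob] at h1
        · rw [hu, hcb, mul_assoc, mul_comm b u]
          have := Nat.mul_le_mul_right b heu
          omega
      · subst he0
        exact ⟨⊥, bot_le, fun v hv => by simp [(Submodule.mem_bot F).1 hv], UnitInv.ti_bot H, by simp⟩
      · refine UnitInv.ti_rec H hyiso (UnitInv.inj_of_pow hy) (b := b) (D₀ := r - 1 + b) (P₀ := M)
          (fun P hP hPn hPi hPd => ?_) e le_rfl hMn hMi ?_
        · have h1 := UnitInv.find_self H hF hσ hrp hy hyiso (by rw [hoc, hob, hcb]) hPn hPi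
            (fun v hv => hMf v (hP hv)) (by rw [hob]; exact hPd)
          rwa [hob] at h1
        · rw [hu, hcb, mul_comm b u]
          omega
    obtain ⟨T, hT, hTt, hTd⟩ := UnitInv.exists_ti_sub H hF hσ hCn hes
    have hoo : ∀ a ∈ T, ∀ a' ∈ U, h a a' = 0 := fun a ha a' ha' => ho a (hT ha) a' (hUM ha')
    refine ⟨T ⊔ U, ?_, UnitInv.ti_sup H hTt hUt hoo,
      hyX _ ((UnitInv.fixSub_inv (hT.trans inf_le_right)).sup hUi)⟩
    have h5 := Submodule.finrank_sup_add_finrank_inf_eq T U
    rw [show T ⊓ U = ⊥ from eq_bot_iff.2 fun v ⟨hv, hv'⟩ => (Submodule.mem_bot F).2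
      (hMf v (hUM hv') (mem_fixSub.1 (hT hv).2)), finrank_bot, hTd, hUd] at h5
    omega
  constructor
  · intro hall
    refine Or.inr ⟨hrp, hr3, ?_⟩
    have test : ∀ {M : Module.End F (Fin n → F)}, UnitModels.IsModel q M → LinearMap.det M = 1 → ∀ z : F,
        (∀ v, (M ^ r) v = z • v) → (∀ w : F, M ≠ w • 1) →
        ∃ (X : Module.End F (Fin n → F)) (e : (Fin n → F) ≃ₗ[F] (Fin n → F)) (W : Submodule F (Fin n → F)),
          X = e.conj M ∧ (∀ v, (X ^ r) v = z • v) ∧ (∀ u v, h (X u) (X v) = h u v) ∧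
            finrank F W = m ∧ Ti h W ∧ Inv X W := by
      intro M hM hMd z hMz hMns
      obtain ⟨A, e, hA, hAX⟩ := UnitModels.to_SU hF hM hMd
      have hXz : ∀ v, ((e.conj M) ^ r) v = z • v := fun v => by
        rw [pow_eq_of_conj, hMz, map_smul, LinearEquiv.apply_symm_apply]
      have hz' : ((A ^ r : Matrix.SpecialLinearGroup (Fin n) F) : Matrix (Fin n) (Fin n) F) = z • 1 :=
        sl_pow_eq_smul_iff.2 fun v => by rw [hAX, hXz]
      obtain ⟨W, hWd, hWt, hWi⟩ := hall A hA ⟨z, hz'⟩ fun w hw => hMns w (e.conj.injective (by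
        rw [← hAX, hw, map_smul, Matrix.toLin'_one, map_smul]
        exact congrArg (w • ·) (LinearMap.ext fun v => by simp [LinearEquiv.conj_apply])))
      exact ⟨_, e, W, hAX, fun v => by rw [hAX]; exact hXz v, (hzfacts A z hA hz').1, hWd, hWt, inv_iff_map_le.2 hWi⟩
    obtain ⟨hbm, hkl⟩ : b ≤ m ∧ 2 * (m % b) ≤ n % c := by
      by_cases h2i : i = 2
      · have hb1 : b = 1 := by rw [hb, if_pos (Nat.even_iff.2 (by omega)), h2i]
        rw [hb1, Nat.mod_one]
        exact ⟨hm, by omega⟩
      have hsplit : ¬ r ∣ q + 1 := fun hd => h2i (hi2.2 hd)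
      set o := orderOf (-(q : ZMod r)) with ho
      subst hoc
      obtain ⟨M, hM, hMr, hMf, hMd⟩ := UnitModels.exists_fix_model hF hrp hsplit (n % o) (n / o)
      obtain ⟨M', hM', hMr', hMd', hMf'⟩ : ∃ M' : Module.End F (Fin n → F), UnitModels.IsModel q M' ∧
          (∀ v, (M' ^ r) v = v) ∧ LinearMap.det M' = 1 ∧ finrank F (fixSub M') ≤ n % o := by
        have : ∀ (a : ℕ), a = n → ∀ M : Module.End F (Fin a → F), UnitModels.IsModel q M → (∀ v, (M ^ r) v = v) →
            LinearMap.det M = 1 → finrank F (fixSub M) ≤ n % o → ∃ M' : Module.End F (Fin n → F),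
            UnitModels.IsModel q M' ∧ (∀ v, (M' ^ r) v = v) ∧ LinearMap.det M' = 1 ∧ finrank F (fixSub M') ≤ n % o := by
          rintro a rfl M h1 h2 h3 h4
          exact ⟨M, h1, h2, h3, h4⟩
        exact this _ hdm M hM hMr hMd hMf
      obtain ⟨X, e, W, hXe, hXr, hXiso, hWd, hWt, hWi⟩ := test hM' hMd' 1 (fun v => by rw [hMr', one_smul])
        fun w hw => by
          have hw0 : w ^ r = 1 := by
            have := congrFun (hMr' (Pi.single ⟨0, by omega⟩ 1)) ⟨0, by omega⟩
            rw [hw, _root_.smul_pow, one_pow] at this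
            simpa using this
          obtain ⟨R, hR, hRi⟩ := hM'
          obtain ⟨v, hv⟩ := (hR.nondegenerate (Pi.single ⟨0, by omega⟩ 1) (by simp)).2
          have h1 := hRi (Pi.single ⟨0, by omega⟩ 1) v
          rw [hw, LinearMap.smul_apply, LinearMap.smul_apply, Module.End.one_apply, Module.End.one_apply, hR.smul_left,
            UnitSim.smul_right hR, ← mul_assoc, ← pow_succ'] at h1
          have hw1 : w ^ (q + 1) = 1 := mul_right_cancel₀ hv (h1.trans (one_mul _).symm)
          have hw2 : w = 1 := by simpa [(hr.coprime_iff_not_dvd.2 hsplit).gcd_eq_one] using pow_gcd_eq_one.2 ⟨hw0, hw1⟩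
          rw [hw, hw2, one_smul, show fixSub (1 : Module.End F (Fin n → F)) = ⊤ from
            eq_top_iff.2 fun v _ => mem_fixSub.2 rfl, finrank_top, finrank_fin_fun] at hMf'
          have := Nat.mod_lt n hcpos
          omega
      have hfixX : finrank F (fixSub X) ≤ n % o := by
        refine le_trans (le_of_eq ?_) hMf'
        rw [fixSub, fixSub, ← finrank_ker_conj e (M' - (1 : F) • LinearMap.id), map_sub, map_smul, ← hXe,
          show e.conj (LinearMap.id : Module.End F (Fin n → F)) = LinearMap.id from LinearEquiv.conj_id e]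
      have hCn := (UnitInv.exists_parts H hrF (fun v => by rw [hXr, one_smul]) hXiso (nd_top H) (fun _ _ => trivial)).1
      rw [top_inf_eq] at hCn
      have hf := ti_dim H hCn (inf_le_right : W ⊓ fixSub X ≤ fixSub X) (hWt.mono inf_le_left)
      obtain ⟨R₀, hstep⟩ := step_pow (F := F) (p := p) hrp (x := X) (l := 1) one_ne_zero
        (fun v => by rw [hXr, one_pow])
      rw [hob] at hstep
      obtain ⟨e', he'⟩ := hstep.exists_eq hWi
      rw [hWd] at he'
      change m = finrank F ↥(W ⊓ fixSub X) + e' * b at he'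
      rcases Nat.eq_zero_or_pos e' with rfl | hpos
      · omega
      · refine ⟨by have := Nat.le_mul_of_pos_left b hpos; omega, ?_⟩
        have : m % b ≤ finrank F ↥(W ⊓ fixSub X) := by
          rw [he', Nat.add_mul_mod_self_right]; exact Nat.mod_le _ _
        omega
    refine ⟨hbm, hkl, ?_⟩
    by_cases h4 : i % 4 = 2
    swap
    · exact Or.inl h4
    have hcb := hcb1 h4
    refine Or.inr ⟨h4, ?_, ?_⟩
    · by_contra hlt
      push Not at hlt
      by_cases h2i : i = 2
      · have hb1 : b = 1 := by rw [hb, if_pos (Nat.even_iff.2 (by omega)), h2i]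
        rw [hb1, Nat.div_one, Nat.div_one, Nat.div_one] at hlt
        obtain ⟨R, hR⟩ := hi2.1 h2i
        obtain ⟨g, hg⟩ := exists_mu_gen hF
        have hζ : IsPrimitiveRoot (g ^ R) r := hg.pow (Nat.succ_pos q) (by show q + 1 = R * r; rw [hR, mul_comm])
        obtain ⟨r', hr'⟩ := hr.odd_of_ne_two hr2
        set J := (n - 2 * m) / 2 + 1 with hJ
        have hJn : 2 * J ≤ n := by omega
        have hJr : J ≤ r' := by omega
        have ha : ∀ l, pairExp r J l < r := fun l => by unfold pairExp; split_ifs <;> omega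
        have hζn : ∀ l : ℕ, ((g ^ R) ^ l) ^ (q + 1) = 1 := fun l => by
          rw [← pow_mul, ← pow_mul, show R * (l * (q + 1)) = (q + 1) * (R * l) by ring, pow_mul, hg.pow_eq_one, one_pow]
        obtain ⟨x, hx, hxd, hxbad⟩ := UnitBad.diag_bad hF (fun l : Fin n => (g ^ R) ^ pairExp r J l)
          (fun l => hζn _) (by
            rw [Finset.prod_pow_eq_pow_sum, Fin.sum_univ_eq_sum_range (fun l => pairExp r J l) n,
              sum_pairExp (by omega) n hJn, mul_comm, pow_mul, hζ.pow_eq_one, one_pow])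
          (Finset.univ.map (Fin.castLEEmb hJn)) (fun l hl k hk e => hk (by
            obtain ⟨l', -, rfl⟩ := Finset.mem_map.1 hl
            have h1 := hζ.pow_inj (ha _) (ha _) e
            have h3 : ((Fin.castLEEmb hJn l' : Fin n) : ℕ) = l' := rfl
            have := l'.2
            refine Fin.ext ?_
            rw [h3] at h1 ⊢
            unfold pairExp at h1
            split_ifs at h1 <;> omega))
        obtain ⟨W, hWd, hWt, hWi⟩ := hall x hx ⟨1, by
            rw [Matrix.SpecialLinearGroup.coe_pow, hxd, Matrix.diagonal_pow, one_smul, ← Matrix.diagonal_one]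
            congr 1
            funext l
            rw [Pi.pow_apply, ← pow_mul, mul_comm, pow_mul, hζ.pow_eq_one, one_pow]⟩
          (fun z hz => by
            rw [hxd] at hz
            have e0 := congrFun (congrFun hz ⟨0, by omega⟩) ⟨0, by omega⟩
            have e1 := congrFun (congrFun hz ⟨1, by omega⟩) ⟨1, by omega⟩
            simp at e0 e1
            have h5 := hζ.pow_inj (ha 0) (ha 1) (e0.trans e1.symm)
            unfold pairExp at h5
            rw [if_pos (by omega), if_pos (by omega), if_pos (by omega), if_neg (by omega)] at h5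
            omega)
        have := hxbad W hWt hWi
        rw [hWd, Finset.card_map, Finset.card_univ, Fintype.card_fin] at this
        omega
      · have hsplit : ¬ r ∣ q + 1 := fun hd => h2i (hi2.2 hd)
        have hs : (r - 1) / b * b = r - 1 := Nat.div_mul_cancel hbr
        set P := min ((r - 1) / b) (n / b) with hP
        have hP1 : 1 ≤ P := by
          refine le_min ?_ ((Nat.one_le_div_iff hb0).2 (by omega))
          exact (Nat.one_le_div_iff hb0).2 (Nat.le_of_dvd (by omega) hbr)
        obtain ⟨x, hx, hxr, hxns, hxbad⟩ := UnitBad.exists_bad_elt (n := n) hF hrp hsplit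
          (by rw [hoc, hob, hcb]) hP1 (by rw [hob]; exact (Nat.mul_le_mul_right b (min_le_left _ _)).trans hs.le)
          (by rw [hob]; exact (Nat.mul_le_mul_right b (min_le_right _ _)).trans (Nat.div_mul_le_self n b))
        obtain ⟨W, hWd, hWt, hWi⟩ := hall x hx ⟨1, sl_pow_eq_smul_iff.2 fun v => by rw [hxr, one_smul]⟩ hxns
        have h1 := hxbad W hWt hWi
        rw [hob, hWd] at h1
        rw [hcb] at hdm hk hkl
        rcases le_total ((r - 1) / b) (n / b) with hle | hle
        · rw [hP, min_eq_left hle] at h1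
          have h3 := Nat.mul_le_mul_right b (Nat.succ_le_of_lt hlt)
          rw [Nat.succ_mul, add_mul, mul_assoc] at h3
          have := Nat.mod_lt n hb0
          omega
        · rw [hP, min_eq_right hle] at h1
          omega
    · by_cases h2i : i = 2
      swap
      · exact Or.inl (by omega)
      refine Or.inr ⟨h2i, ?_⟩
      by_contra hcon
      push Not at hcon
      obtain ⟨t, ht⟩ : r ∣ n := dvd_of_one_le_padicValNat (by omega)
      obtain ⟨z, hzn, hdet, hnp'⟩ := exists_z (F := F) hF (hi2.1 h2i) (t := t) (Or.inl (by rw [← ht]; exact hcon.2))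
      have hnp : ∀ w : F, w ^ r ≠ z := fun w hwz => by
        refine hnp' w ?_ hwz
        have h0 : w ≠ 0 := fun e => by
          rw [← hwz, e, zero_pow hr.ne_zero, zero_pow (Nat.succ_ne_zero q)] at hzn; exact zero_ne_one hzn
        have hnd : ¬ r ∣ q - 1 := fun h1 => by
          have h3 := Nat.dvd_sub (hi2.1 h2i) h1
          rw [show q + 1 - (q - 1) = 2 by omega, Nat.prime_dvd_prime_iff_eq hr Nat.prime_two] at h3
          exact hr2 h3
        have h1 : (w ^ (q + 1)) ^ (q - 1) = 1 := by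
          rw [← pow_mul, ← Nat.sq_sub_sq, one_pow, ← hF, FiniteField.pow_card_sub_one_eq_one w h0]
        have h2 : (w ^ (q + 1)) ^ r = 1 := by rw [← pow_mul, mul_comm, pow_mul, hwz, hzn]
        simpa [(hr.coprime_iff_not_dvd.2 hnd).gcd_eq_one] using pow_gcd_eq_one.2 ⟨h2, h1⟩
      subst ht
      obtain ⟨M, hM, hMz, hMd⟩ := UnitModels.exists_nonpow_model hF hrp hzn (fun _ => hnp) t
      obtain ⟨X, e, W, -, hXz, -, hWd, -, hWi⟩ := test hM (hMd.trans hdet) z hMz fun w hw => by
        have h1 := congrFun (hMz (Pi.single ⟨0, by omega⟩ 1)) ⟨0, by omega⟩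
        rw [hw, _root_.smul_pow, one_pow] at h1
        exact hnp w (by simpa using h1)
      have h1 := (step_nonpow hrp hnp hXz).dvd W hWi (by rw [inf_bot_eq])
      rw [hWd] at h1
      exact hcon.1 h1
  · intro hrhs x hx ⟨z, hz⟩ _
    obtain ⟨hiso, hXr, hzn, hdX⟩ := hzfacts x z hx hz
    refine hfinish ?_
    set X := Matrix.toLin' (x : Matrix (Fin n) (Fin n) F)
    obtain ⟨hbm, hkl, hrest⟩ := (hrhs.resolve_left fun h1 => hr2 h1.1).2.2
    have hks : ∀ s u, s + u * c = n → n % c ≤ s := fun s u hsu => by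
      rw [← hsu, Nat.add_mul_mod_self_right]; exact Nat.mod_le _ _
    have hgood : ∀ s u, s + u * c = n → ∃ e, e * b ≤ m ∧ 2 * (m - e * b) ≤ s ∧
        ((c = 2 * b ∧ e ≤ u) ∨ (c = b ∧ (e = 0 ∨ r - 1 + 2 * (e * b) ≤ u * b + b))) := fun s u hsu => by
      have hks' := hks s u hsu
      rcases hrest with h4 | ⟨h4, hsn, -⟩
      · have hcb := hcb2 h4
        have hsu' : s + 2 * (u * b) = n := by rw [← hsu, hcb]; ring
        refine ⟨min u (m / b), (Nat.mul_le_mul_right b (min_le_right _ _)).trans (Nat.div_mul_le_self m b), ?_,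
          Or.inl ⟨hcb, min_le_left _ _⟩⟩
        rcases le_total u (m / b) with hu | hu
        · rw [min_eq_left hu]; omega
        · rw [min_eq_right hu]; omega
      · have hcb := hcb1 h4
        rw [hcb] at hsu hks' hkl hdm
        set S := (r - 1) / b
        have hS : S * b = r - 1 := Nat.div_mul_cancel hbr
        have hS1 : 1 ≤ S := (Nat.one_le_div_iff hb0).2 (Nat.le_of_dvd (by omega) hbr)
        have hun : u ≤ n / b := (Nat.le_div_iff_mul_le hb0).2 (by omega)
        refine ⟨min (m / b) ((u + 1 - S) / 2), (Nat.mul_le_mul_right b (min_le_left _ _)).trans (Nat.div_mul_le_self m b),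
          ?_, Or.inr ⟨hcb, ?_⟩⟩
        · rcases le_total (m / b) ((u + 1 - S) / 2) with hu | hu
          · rw [min_eq_left hu]; omega
          · rw [min_eq_right hu]
            set e := (u + 1 - S) / 2
            have h3 := Nat.mul_le_mul_right b (show 2 * (m / b) + u ≤ n / b + 2 * e by omega)
            rw [add_mul, add_mul, mul_assoc, mul_assoc] at h3
            omega
        · rcases Nat.eq_zero_or_pos (min (m / b) ((u + 1 - S) / 2)) with h0 | hpos
          · exact Or.inl h0
          · refine Or.inr ?_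
            have h3 := Nat.mul_le_mul_right b (show S + 2 * min (m / b) ((u + 1 - S) / 2) ≤ u + 1 by omega)
            rw [add_mul, add_mul, mul_assoc, one_mul, hS] at h3
            exact h3
    by_cases hw : ∃ w : F, w ^ (q + 1) = 1 ∧ w ^ r = z
    · obtain ⟨w, hw1, hw2⟩ := hw
      exact pow_ti hXr hiso hw1 hw2 hgood
    have h2i : i = 2 := by
      by_contra h2i
      refine hw ?_
      obtain ⟨w, hw'⟩ := (powCoprime (G := rootsOfUnity (q + 1) F) (n := r) (by
        refine (hr.coprime_iff_not_dvd.2 fun h4 => h2i (hi2.2 ?_)).symm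
        rwa [card_roots hF] at h4)).surjective
          ⟨Units.mk0 z (fun e => by simp [e] at hzn), (mem_rootsOfUnity _ _).2 (Units.ext (by simpa using hzn))⟩
      exact ⟨((w : Fˣ) : F), by simpa using congrArg Units.val ((mem_rootsOfUnity _ _).1 w.2),
        by simpa [powCoprime] using congrArg (fun u : rootsOfUnity (q + 1) F => ((u : Fˣ) : F)) hw'⟩
    push Not at hw
    obtain ⟨-, -, h3⟩ := hrest.resolve_left (by omega)
    obtain ⟨-, hcase⟩ := h3.resolve_left (by omega)
    have hd := hi2.1 h2i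
    have hz0 : z ≠ 0 := fun e => by simp [e] at hzn
    have hnp : ∀ w : F, w ^ r ≠ z := fun w hwz => by
      refine hw w ?_ hwz
      have h0 : w ≠ 0 := fun e => hz0 (by rw [← hwz, e, zero_pow hr.ne_zero])
      have hnd : ¬ r ∣ q - 1 := fun h1 => by
        have h3 := Nat.dvd_sub hd h1
        rw [show q + 1 - (q - 1) = 2 by omega, Nat.prime_dvd_prime_iff_eq hr Nat.prime_two] at h3
        exact hr2 h3
      have h1 : (w ^ (q + 1)) ^ (q - 1) = 1 := by
        rw [← pow_mul, ← Nat.sq_sub_sq, one_pow, ← hF, FiniteField.pow_card_sub_one_eq_one w h0]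
      have h2 : (w ^ (q + 1)) ^ r = 1 := by rw [← pow_mul, mul_comm, pow_mul, hwz, hzn]
      simpa [(hr.coprime_iff_not_dvd.2 hnd).gcd_eq_one] using pow_gcd_eq_one.2 ⟨h2, h1⟩
    obtain ⟨t, ht, hdet⟩ := det_nonpow (p := p) hrp hnp n X (finrank_fin_fun F) hXr
    rcases hcase with hrm | hv
    · obtain ⟨e, he⟩ := hrm
      set g : Polynomial F := Polynomial.X ^ r - Polynomial.C z with hg
      have hgm : g.Monic := Polynomial.monic_X_pow_sub_C z hr.ne_zero
      have hgd : g.natDegree = r := Polynomial.natDegree_X_pow_sub_C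
      have hgi : Irreducible g := X_pow_sub_C_irreducible_of_prime hr hnp
      have hgv : ∀ v, Polynomial.aeval X g v = 0 := fun v => by simp [hg, hXr]
      have hdvd : ∀ S : Submodule F (Fin n → F), Inv X S → r ∣ finrank F S := fun S hS =>
        (step_nonpow hrp hnp hXr).dvd S hS (by rw [inf_bot_eq])
      have piece : ∀ P : Submodule F (Fin n → F), Nd h P → Inv X P → P ≠ ⊥ →
          ∃ U ≤ P, Nd h U ∧ Inv X U ∧ finrank F U = r := by
        intro P hP hI hne
        obtain ⟨v, hv, hvv⟩ := UnitInv.exists_aniso H hP hne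
        obtain ⟨U, hU, hUP, hvU, hUd⟩ := exists_cyclic hI hgm hv (hgv v)
        rw [hgd] at hUd
        have hUd' : finrank F U = r := le_antisymm hUd (Nat.le_of_dvd (Nat.pos_of_ne_zero fun h0 => hvv (by
          have := hvU hgi.ne_one
          rw [Submodule.finrank_eq_zero.1 h0, Submodule.mem_bot] at this
          rw [this, H.zero_left])) (hdvd U hU))
        refine ⟨U, hUP, fun u hu hall => ?_, hU, hUd'⟩
        rcases Nat.eq_zero_or_pos (finrank F (perpIn H U U)) with h0 | h0
        · exact (Submodule.mem_bot F).1 (Submodule.finrank_eq_zero.1 h0 ▸ ((mem_perpIn H).2 ⟨hu, hall⟩))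
        · have h1 := Nat.le_of_dvd h0 (hdvd _ (perp_inv H hiso (hinj hiso) hU hU))
          have h2 : perpIn H U U = U := Submodule.eq_of_le_of_finrank_le inf_le_left (by omega)
          exact absurd (((mem_perpIn H).1 (h2.symm ▸ hvU hgi.ne_one : v ∈ perpIn H U U)).2 v (hvU hgi.ne_one)) hvv
      obtain ⟨U, -, hUi, hUt, hUd⟩ := UnitInv.ti_rec H hiso (hinj hiso) (b := r) (D₀ := 2 * r) (P₀ := ⊤)
        (fun P _ hP hI hPd => by
          obtain ⟨U₁, h1P, h1n, h1i, h1d⟩ := piece P hP hI fun e' => by rw [e', finrank_bot] at hPd; omega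
          obtain ⟨hP', -, -, hdim⟩ := nd_split H h1n hP h1P
          obtain ⟨U₂, h2P, h2n, h2i, h2d⟩ := piece (perpIn H U₁ P) hP' (perp_inv H hiso (hinj hiso) h1i hI)
            fun e' => by rw [e', finrank_bot] at hdim; omega
          have ho : ∀ u ∈ U₁, ∀ v ∈ U₂, h u v = 0 := fun u hu v hv =>
            H.eq_zero_comm.1 (((mem_perpIn H).1 (h2P hv)).2 u hu)
          obtain ⟨U, hU, hUi, hUt, hUd⟩ := UnitInv.pair_ti H hF hσ hiso h1n h2n h1i h2i ho hgm hgi
            (h1d.trans hgd.symm) (h2d.trans hgd.symm) (fun v _ => hgv v) (fun v _ => hgv v)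
          exact ⟨U₁ ⊔ U₂, sup_le h1P (h2P.trans inf_le_left), UnitInv.nd_sup H h1n h2n ho, h1i.sup h2i,
            by rw [UnitInv.finrank_sup_orth H h1n ho, h1d, h2d]; omega, U, hU, hUi, hUt, hUd.trans hgd⟩)
        e (P := ⊤) le_rfl (nd_top H) (fun _ _ => trivial)
        (by rw [finrank_top, finrank_fin_fun, mul_comm e r, ← he]; omega)
      exact ⟨U, by rw [hUd, he, mul_comm], hUt, hUi⟩
    · exfalso
      subst ht
      refine z_false (r := r) hF hzn hw (t := t) (by rw [← hdet, hdX]) (fun e => by subst e; omega) hv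
        fun e => absurd e hr2

end Cfsg.Agent.S5953
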