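import Cfsg.Statements.S5955
import Cfsg.Agent.Lib.Elusive.SympBad
import Cfsg.Agent.Lib.Forms.SympTI

set_option autoImplicit false
set_option maxHeartbeats 1600000
open scoped MatrixGroups
open Cfsg

open Cfsg.Agent.Lib.Elusive Cfsg.Agent.Lib.Forms
open scoped Matrix

namespace Cfsg.Agent.S5955

open Module

universe u

variable {F : Type u} [Field F] {d : ℕ}

theorem stdB_mulVec (A : Matrix.symplecticGroup (Fin d) F) (u v : Fin d ⊕ Fin d → F) :
    stdB d F ((A : Matrix (Fin d ⊕ Fin d) (Fin d ⊕ Fin d) F) *ᵥ u)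
      ((A : Matrix (Fin d ⊕ Fin d) (Fin d ⊕ Fin d) F) *ᵥ v) = stdB d F u v :=
  (stdB_iff_matrix d _).2 A.2 u v

/-- A scalar symplectic map squares to one. -/
theorem sq_eq_one (hd : 0 < d) {A : Matrix.symplecticGroup (Fin d) F} {z : F}
    (hz : (A : Matrix (Fin d ⊕ Fin d) (Fin d ⊕ Fin d) F) = z • (1 : Matrix (Fin d ⊕ Fin d) (Fin d ⊕ Fin d) F)) :
    z * z = 1 := by
  obtain ⟨v, hv⟩ : ∃ v, stdB d F (Pi.single (Sum.inl ⟨0, hd⟩) 1) v ≠ 0 := by
    by_contra h
    push Not at h
    have := (stdB_nondegenerate d (F := F)).1 _ h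
    simpa using congrFun this (Sum.inl ⟨0, hd⟩)
  have h := stdB_mulVec A (Pi.single (Sum.inl ⟨0, hd⟩) 1) v
  simp only [hz, Matrix.smul_mulVec, Matrix.one_mulVec, map_smul, LinearMap.smul_apply, smul_eq_mul] at h
  exact mul_right_cancel₀ hv ((mul_assoc _ _ _).trans (h.trans (one_mul _).symm))

/-- Counting. -/
theorem exists_dvd [Fintype F] {p : ℕ} [Fact p.Prime] [CharP F p] {m r : ℕ} (hmd : m ≤ d) [Fact r.Prime]
    (h : r ∣ Nat.card {W : Submodule F (Fin d ⊕ Fin d → F) // Module.finrank F ↥W = m ∧ (∀ u ∈ W, ∀ v ∈ W, Cfsg.sympForm d F u v = 0)}) :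
    r ≠ p ∧ ∃ j < m, r ∣ Fintype.card F ^ (2 * (d - j)) - 1 := by
  have hr : r.Prime := Fact.out
  have hN := card_ti_mul (F := F) (V := Fin d ⊕ Fin d → F) (h := Cfsg.sympForm d F) sympForm_span_zero m
  rw [card_symp_frame, Nat.card_eq_fintype_card (α := F),
    Fin.prod_univ_eq_prod_range (fun i => Fintype.card F ^ m - Fintype.card F ^ i) m] at hN
  have e1 : ∀ i ∈ Finset.range m, Fintype.card F ^ m - Fintype.card F ^ i =
      Fintype.card F ^ i * (Fintype.card F ^ (m - i) - 1) := fun i hi => by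
    rw [Nat.mul_sub, mul_one, ← pow_add, Nat.add_sub_cancel' (Finset.mem_range.1 hi).le]
  have e2 : ∀ i ∈ Finset.range m, Fintype.card F ^ (2 * d - i) - Fintype.card F ^ i =
      Fintype.card F ^ i * (Fintype.card F ^ (2 * (d - i)) - 1) := fun i hi => by
    have := Finset.mem_range.1 hi
    rw [Nat.mul_sub (Fintype.card F ^ i), mul_one, ← pow_add]
    congr 2
    omega
  rw [Finset.prod_congr rfl e1, Finset.prod_congr rfl e2, Finset.prod_mul_distrib, Finset.prod_mul_distrib,
    mul_left_comm] at hN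
  have hN' := Nat.eq_of_mul_eq_mul_left (Finset.prod_pos fun i _ => pow_pos Fintype.card_pos i) hN
  obtain ⟨j, hj, hjd⟩ := (Prime.dvd_finsetProd_iff (Nat.prime_iff.1 hr) _).1
    (hN' ▸ h.mul_right _ : r ∣ ∏ i ∈ Finset.range m, (Fintype.card F ^ (2 * (d - i)) - 1))
  rw [Finset.mem_range] at hj
  refine ⟨fun hrp => ?_, j, hj, hjd⟩
  obtain ⟨e, -, he⟩ := FiniteField.card F p
  have hq : r ∣ Fintype.card F ^ (2 * (d - j)) := by
    rw [he, ← hrp, ← pow_mul]
    exact dvd_pow_self r (Nat.mul_pos e.pos (by omega)).ne'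
  have h1 := Nat.dvd_sub hq hjd
  rw [Nat.sub_sub_self (Nat.one_le_pow _ _ Fintype.card_pos)] at h1
  exact hr.not_dvd_one h1

/-- A subspace of prescribed dimension. -/
theorem exists_sub {V : Type u} [AddCommGroup V] [Module F V] [FiniteDimensional F V] (W : Submodule F V) {s : ℕ}
    (hs : s ≤ finrank F W) : ∃ U ≤ W, finrank F U = s := by
  have hli : LinearIndependent F (fun j : Fin s => (Module.finBasis F W (j.castLE hs) : V)) :=
    ((Module.finBasis F W).linearIndependent.comp _ (Fin.castLE_injective hs)).map'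
      W.subtype (Submodule.ker_subtype W)
  refine ⟨Submodule.span F (Set.range fun j : Fin s => (Module.finBasis F W (j.castLE hs) : V)),
    ?_, by rw [finrank_span_eq_card hli, Fintype.card_fin]⟩
  rw [Submodule.span_le]; rintro _ ⟨j, rfl⟩; exact (Module.finBasis F W _).2

/-- Elements of prime order of PSp_n(q) with no fixed totally isotropic `m`-space. Here `T = PSp_n(q)` with `n = 2d ≥ 4`, `(n, q) ≠ (4, 2)`, realised through the symplectic matrices over the field `F` with `q` elements (preserving the standard alternating form); an element of `T` of prime order `r` is such a matrix `x` with `x^r` scalar and `x` not scalar. For `r ≠ p` let `i` be the multiplicative order of `q` modulo `r`, `c = i` for `i` even and `c = 2i` for `i` odd, and write `k = n mod c`, `ℓ = m mod i`, `ℓ' = m mod c`, `n' = ⌊n/i⌋`, `m' = ⌊m/i⌋`, `t = (r−1)/i`. Let `1 ≤ m ≤ n/2` and let `r` be a prime dividing the number of totally isotropic `m`-spaces. Then every element of `T` of order `r` fixes a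 totally isotropic `m`-space if and only if either (i) `r = 2 ≠ p` and (`m` is even or `q ≡ 1 (mod 4)`); or (ii) `r ≠ p`, `r > 2`, `i ≤ m`, `k ≥ 2ℓ`, and (`i` is odd or `n' − 2m' ≥ t`). -/
theorem result {F : Type*} [Field F] [Fintype F] {p : ℕ} [Fact p.Prime] [CharP F p] {q : ℕ} (hq : Fintype.card F = q)
    (d m : ℕ) (hd : 2 ≤ d) (hT : (d, q) ≠ (2, 2)) (hm : 1 ≤ m) (hmd : m ≤ d)
    (r : ℕ) [Fact r.Prime]
    (hrΩ : r ∣ Nat.card {W : Submodule F (Fin d ⊕ Fin d → F) // Module.finrank F ↥W = m ∧ (∀ u ∈ W, ∀ v ∈ W, Cfsg.sympForm d F u v = 0)})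
    (i c : ℕ) (hi : i = orderOf (q : ZMod r)) (hc : c = if Even i then i else 2 * i) :
    (∀ x : ↥(Matrix.symplecticGroup (Fin d) F),
      (∃ z : F, ((x ^ r : ↥(Matrix.symplecticGroup (Fin d) F)) : Matrix (Fin d ⊕ Fin d) (Fin d ⊕ Fin d) F) = z • (1 : Matrix (Fin d ⊕ Fin d) (Fin d ⊕ Fin d) F)) →
      (∀ z : F, (x : Matrix (Fin d ⊕ Fin d) (Fin d ⊕ Fin d) F) ≠ z • (1 : Matrix (Fin d ⊕ Fin d) (Fin d ⊕ Fin d) F)) →
      ∃ W : Submodule F (Fin d ⊕ Fin d → F), Module.finrank F ↥W = m ∧ (∀ u ∈ W, ∀ v ∈ W, Cfsg.sympForm d F u v = 0) ∧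
        W.map (Matrix.toLin' (x : Matrix (Fin d ⊕ Fin d) (Fin d ⊕ Fin d) F)) ≤ W) ↔
    ((r = 2 ∧ p ≠ 2 ∧ (Even m ∨ q % 4 = 1)) ∨
     (r ≠ p ∧ 2 < r ∧ i ≤ m ∧ 2 * (m % i) ≤ (2 * d) % c ∧ (Odd i ∨ (r - 1) / i + 2 * (m / i) ≤ (2 * d) / i))) := by
  classical
  subst hq
  have hr : r.Prime := Fact.out
  obtain ⟨hrp, j₀, hj₀, hj₀d⟩ := exists_dvd (p := p) hmd hrΩ
  set B := stdB d F with hBdef
  have hBA : B.IsAlt := stdB_isAlt d
  have hBS : B.SeparatingLeft := (stdB_nondegenerate d).1
  have hfin : finrank F (Fin d ⊕ Fin d → F) = 2 * d := by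
    rw [finrank_pi, Fintype.card_sum, Fintype.card_fin, two_mul]
  have hti : ∀ W : Submodule F (Fin d ⊕ Fin d → F), (∀ u ∈ W, ∀ v ∈ W, Cfsg.sympForm d F u v = 0) ↔ SympTI.Ti B W := fun W => by
    simp only [SympTI.Ti, hBdef, stdB_apply]
  have hrF : (r : F) ≠ 0 := fun h =>
    hrp ((Nat.prime_dvd_prime_iff_eq Fact.out hr).1 ((CharP.cast_eq_zero_iff F p r).1 h)).symm
  by_cases hr2 : r = 2
  · subst hr2
    have hp2 : p ≠ 2 := fun h => hrp h.symm
    have h2 : (2 : F) ≠ 0 := by exact_mod_cast hrF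
    have hodd : Fintype.card F % 2 = 1 := FiniteField.odd_card_of_char_ne_two fun h => by
      haveI := ringChar.of_eq h
      exact h2 CharTwo.two_eq_zero
    have heven : ∀ {W : Submodule F (Fin d ⊕ Fin d → F)} {X : Module.End F (Fin d ⊕ Fin d → F)}, Inv X W →
        (∀ v, X (X v) = (-1 : F) • v) → (∀ l : F, l ^ 2 ≠ -1) → 2 ∣ finrank F W := by
      intro W X hW hX hl
      obtain ⟨t, ht, -⟩ := det_nonpow hrp hl (finrank F W) (X.restrict hW) rfl fun v => by
        rw [pow_two, Module.End.mul_apply]; exact Subtype.ext (hX v)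
      exact ⟨t, ht⟩
    constructor
    · intro hall
      left
      refine ⟨rfl, hp2, ?_⟩
      by_contra hcon
      push Not at hcon
      have hl : ∀ l : F, l ^ 2 ≠ -1 := fun l hl => by
        have := FiniteField.isSquare_neg_one_iff.1 (⟨l, by rw [← hl, sq]⟩ : IsSquare (-1 : F))
        omega
      let A : Matrix.symplecticGroup (Fin d) F := ⟨Matrix.J (Fin d) F, SymplecticGroup.J_mem (Fin d) F⟩
      obtain ⟨W, hWd, -, hWm⟩ := hall A ⟨-1, by
        rw [SubmonoidClass.coe_pow]
        show Matrix.J (Fin d) F ^ 2 = _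
        rw [pow_two, Matrix.J_squared, neg_one_smul]⟩ fun z hz => by
          have := congrFun (congrFun hz (Sum.inl ⟨0, by omega⟩)) (Sum.inr ⟨0, by omega⟩)
          simp [A, Matrix.J] at this
      have := heven (inv_iff_map_le.2 hWm) (fun v => by
        rw [Matrix.toLin'_apply, Matrix.toLin'_apply, Matrix.mulVec_mulVec]
        show (Matrix.J (Fin d) F * Matrix.J (Fin d) F) *ᵥ v = _
        rw [Matrix.J_squared, Matrix.neg_mulVec, Matrix.one_mulVec, neg_one_smul]) hl
      rw [hWd] at this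
      exact hcon.1 (even_iff_two_dvd.2 this)
    · intro hrhs x ⟨z, hz⟩ _
      have hrhs' : Even m ∨ Fintype.card F % 4 = 1 := by
        rcases hrhs with ⟨-, -, h⟩ | ⟨-, h, -⟩
        · exact h
        · omega
      set X := Matrix.toLin' (x : Matrix (Fin d ⊕ Fin d) (Fin d ⊕ Fin d) F) with hX
      have hiso : ∀ u v, B (X u) (X v) = B u v := fun u v => by
        rw [hX, Matrix.toLin'_apply, Matrix.toLin'_apply]
        exact stdB_mulVec x u v
      have hX2 : ∀ v, X (X v) = z • v := fun v => by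
        rw [hX, ← Module.End.mul_apply, ← pow_two, ← Matrix.toLin'_pow, ← SubmonoidClass.coe_pow, hz, map_smul,
          Matrix.toLin'_one]
        rfl
      have finish : ∀ W : Submodule F (Fin d ⊕ Fin d → F), finrank F W = m → SympTI.Ti B W → Inv X W →
          ∃ W : Submodule F (Fin d ⊕ Fin d → F), Module.finrank F ↥W = m ∧ (∀ u ∈ W, ∀ v ∈ W, Cfsg.sympForm d F u v = 0) ∧
            W.map X ≤ W :=
        fun W h1 h2 h3 => ⟨W, h1, (hti W).2 h2, inv_iff_map_le.1 h3⟩
      have hscal : ∀ (l : F) (U : Submodule F (Fin d ⊕ Fin d → F)), (∀ v ∈ U, X v = l • v) → Inv X U :=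
        fun l U hU v hv => by rw [hU v hv]; exact U.smul_mem l hv
      rcases mul_self_eq_one_iff.1 (sq_eq_one (by omega) hz) with rfl | rfl
      · have hXl : ∀ v, X (X v) = ((1 : F) * 1) • v := fun v => by rw [hX2, one_mul]
        have hc := isCompl_eigen h2 one_ne_zero hXl
        set E := LinearMap.ker (X - (1 : F) • LinearMap.id)
        set E' := LinearMap.ker (X + (1 : F) • LinearMap.id)
        have ho : ∀ u ∈ E, ∀ v ∈ E', B u v = 0 := fun u hu v hv => by
          have h := hiso u v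
          rw [eig_pos hu, eig_neg hv, one_smul, neg_one_smul, map_neg] at h
          have : (2 : F) * B u v = 0 := by linear_combination -h
          exact (mul_eq_zero.1 this).resolve_left h2
        have hn : SympStep.Nd B E := fun u hu h => hBS u fun w => by
          obtain ⟨a, ha, b, hb, rfl⟩ := Submodule.mem_sup.1 (hc.sup_eq_top ▸ Submodule.mem_top (x := w))
          rw [map_add, h a ha, ho u hu b hb, add_zero]
        have hn' : SympStep.Nd B E' := fun u hu h => hBS u fun w => by
          obtain ⟨a, ha, b, hb, rfl⟩ := Submodule.mem_sup.1 (hc.sup_eq_top ▸ Submodule.mem_top (x := w))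
          rw [map_add, h b hb, hBA.isRefl a u (ho a ha u hu), add_zero]
        obtain ⟨e, he⟩ := (SympStep.nd_even hBA hn).two_dvd
        obtain ⟨e', he'⟩ := (SympStep.nd_even hBA hn').two_dvd
        have hsum := Submodule.finrank_add_eq_of_isCompl hc
        rw [hfin, he, he'] at hsum
        obtain ⟨U, hUE, hU, hUd⟩ := SympTI.exists_ti_sub hBA hn (s := min m e) (by omega)
        obtain ⟨U', hU'E, hU', hU'd⟩ := SympTI.exists_ti_sub hBA hn' (s := m - min m e) (by omega)
        refine finish (U ⊔ U') ?_ (SympTI.ti_sup hBA hU hU' fun u hu v hv => ho u (hUE hu) v (hU'E hv))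
          ((hscal 1 U fun v hv => eig_pos (hUE hv)).sup (hscal (-1) U' fun v hv => eig_neg (hU'E hv)))
        have h5 := Submodule.finrank_sup_add_finrank_inf_eq U U'
        rw [show U ⊓ U' = ⊥ from eq_bot_iff.2 (hc.inf_eq_bot ▸ inf_le_inf hUE hU'E), finrank_bot, hUd, hU'd] at h5
        omega
      by_cases hl : ∃ l : F, l ^ 2 = -1
      · obtain ⟨l, hl⟩ := hl
        have hl0 : l ≠ 0 := fun h => by rw [h] at hl; simp at hl
        have hXl : ∀ v, X (X v) = (l * l) • v := fun v => by rw [hX2, ← sq, hl]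
        have hc := isCompl_eigen h2 hl0 hXl
        have hsum := Submodule.finrank_add_eq_of_isCompl hc
        rw [hfin] at hsum
        have htiE : ∀ (μ : F) (E : Submodule F (Fin d ⊕ Fin d → F)), μ * μ = -1 → (∀ v ∈ E, X v = μ • v) →
            SympTI.Ti B E := fun μ E hμ hE u hu v hv => by
          have h := hiso u v
          rw [hE u hu, hE v hv, map_smul, map_smul, LinearMap.smul_apply, smul_eq_mul, smul_eq_mul, ← mul_assoc, hμ] at h
          have : (2 : F) * B u v = 0 := by linear_combination -h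
          exact (mul_eq_zero.1 this).resolve_left h2
        rcases (show m ≤ finrank F (LinearMap.ker (X - l • LinearMap.id)) ∨
          m ≤ finrank F (LinearMap.ker (X + l • LinearMap.id)) by omega) with h | h
        · obtain ⟨U, hU, hUd⟩ := exists_sub _ h
          exact finish U hUd ((htiE l _ (by rw [← sq, hl]) fun v hv => eig_pos hv).mono hU)
            (hscal l U fun v hv => eig_pos (hU hv))
        · obtain ⟨U, hU, hUd⟩ := exists_sub _ h
          exact finish U hUd ((htiE (-l) _ (by rw [neg_mul_neg, ← sq, hl]) fun v hv => eig_neg hv).mono hU)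
            (hscal (-l) U fun v hv => eig_neg (hU hv))
      push Not at hl
      obtain ⟨w, hw⟩ : Even m := hrhs'.resolve_right fun h => by
        obtain ⟨l, hl'⟩ := FiniteField.isSquare_neg_one_iff.2 (show Fintype.card F % 4 ≠ 3 by omega)
        exact hl l (by rw [sq, ← hl'])
      obtain ⟨U, -, hUi, hU, hUd⟩ := SympTI.exists_ti_inv (c := (-1 : F)) (n := 2) hBA hiso (by simp) (by exact_mod_cast h2)
        (fun v => by rw [pow_two, Module.End.mul_apply, hX2]) (P₀ := ⊤) (i := 2) (D₀ := 4)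
        (fun P _ hPi hP hPd => by
          have hg : ((Polynomial.X : Polynomial F) ^ 2 + Polynomial.C 1).Monic := Polynomial.monic_X_pow_add_C 1 two_ne_zero
          have hgd : ((Polynomial.X : Polynomial F) ^ 2 + Polynomial.C 1).natDegree = 2 := Polynomial.natDegree_X_pow_add_C
          obtain ⟨U, hUP, hUi, hU, hU0, hUd⟩ := SympTI.exists_cyclic_ti (p := p) hBA hiso hg (by rw [hgd]; norm_num) hPi
            (fun v _ => by
              rw [map_add, map_pow, Polynomial.aeval_X, Polynomial.aeval_C, LinearMap.add_apply, pow_two,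
                Module.End.mul_apply, hX2, Module.algebraMap_end_apply, neg_one_smul, one_smul, neg_add_cancel])
            (by rw [hgd]; omega)
          refine ⟨U, hUP, hUi, hU, le_antisymm (hUd.trans_eq hgd) ?_⟩
          obtain ⟨e, he⟩ := heven hUi hX2 hl
          rcases Nat.eq_zero_or_pos e with rfl | he0
          · exact absurd (Submodule.finrank_eq_zero.1 (by rw [he])) hU0
          · omega)
        w (P := ⊤) le_rfl (fun _ _ => trivial) (SympStep.nd_top hBS) (by rw [finrank_top, hfin]; omega)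
      exact finish U (by rw [hUd]; omega) hU hUi
  -- odd primes
  have hr3 : 3 ≤ r := by have := hr.two_le; omega
  have hc' : SympStep.cOf (orderOf (Fintype.card F : ZMod r)) = c := by rw [hc, SympStep.cOf, hi]
  have hrq : ¬ r ∣ Fintype.card F := fun h => by
    obtain ⟨e, -, he⟩ := FiniteField.card F p
    rw [he] at h
    exact hrp ((Nat.prime_dvd_prime_iff_eq hr Fact.out).1 (hr.dvd_of_dvd_pow h))
  have hq0 : (Fintype.card F : ZMod r) ≠ 0 := fun h => hrq ((ZMod.natCast_eq_zero_iff _ r).1 h)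
  have hidvd : i ∣ r - 1 := hi ▸ orderOf_dvd_of_pow_eq_one (ZMod.pow_card_sub_one_eq_one hq0)
  have hi0 : 0 < i := Nat.pos_of_dvd_of_pos hidvd (by omega)
  have hci : Even i ∧ c = i ∨ ¬ Even i ∧ c = 2 * i := by
    rcases Nat.even_or_odd i with h | h
    · exact Or.inl ⟨h, by rw [hc, if_pos h]⟩
    · exact Or.inr ⟨Nat.not_even_iff_odd.2 h, by rw [hc, if_neg (Nat.not_even_iff_odd.2 h)]⟩
  have hc0 : 0 < c := by omega
  obtain ⟨mc, hmc⟩ : ∃ mc, c = 2 * mc := (hc' ▸ SympStep.cOf_even _ : Even c).two_dvd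
  obtain ⟨κ, hκ⟩ : ∃ κ, 2 * d % c = 2 * κ := by
    refine (?_ : 2 ∣ 2 * d % c)
    rw [Nat.dvd_mod_iff ⟨mc, hmc⟩]
    exact dvd_mul_right 2 d
  have hndm : 2 * d = c * (2 * d / c) + 2 * d % c := (Nat.div_add_mod _ c).symm
  have hmdm : i * (m / i) + m % i = m := Nat.div_add_mod m i
  have hk2m : κ < m := by
    have h1 : i ∣ 2 * (d - j₀) := by
      rw [hi]
      refine orderOf_dvd_of_pow_eq_one ?_
      rw [← ZMod.natCast_eq_zero_iff, Nat.cast_sub (Nat.one_le_pow _ _ Fintype.card_pos), sub_eq_zero,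
        Nat.cast_pow, Nat.cast_one] at hj₀d
      exact hj₀d
    have hcd : c ∣ 2 * (d - j₀) := by
      rcases hci with ⟨-, h⟩ | ⟨ho, h⟩
      · rw [h]; exact h1
      · rw [h]
        exact (Nat.coprime_two_left.2 (Nat.not_even_iff_odd.1 ho)).mul_dvd_of_dvd_of_dvd (dvd_mul_right 2 _) h1
    obtain ⟨e, he⟩ := hcd
    have h3 : 2 * d % c = 2 * j₀ % c := by
      rw [show 2 * d = 2 * j₀ + c * e by omega, Nat.add_mul_mod_self_left]
    have := Nat.mod_le (2 * j₀) c
    omega
  constructor
  · intro hall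
    right
    -- elements give invariant spaces
    have test : ∀ (A : Matrix.symplecticGroup (Fin d) F) (s : ℕ), s < d →
        (∀ v, ((Matrix.toLin' (A : Matrix (Fin d ⊕ Fin d) (Fin d ⊕ Fin d) F)) ^ r) v = v) →
        finrank F (LinearMap.ker (Matrix.toLin' (A : Matrix (Fin d ⊕ Fin d) (Fin d ⊕ Fin d) F) - (1 : F) • LinearMap.id)) = 2 * s →
        ∃ (U : Submodule F (Fin d ⊕ Fin d → F)) (w : ℕ), Inv (Matrix.toLin' (A : Matrix (Fin d ⊕ Fin d) (Fin d ⊕ Fin d) F)) U ∧
          SympTI.Ti B U ∧ U ⊓ LinearMap.ker (Matrix.toLin' (A : Matrix (Fin d ⊕ Fin d) (Fin d ⊕ Fin d) F) - (1 : F) • LinearMap.id) = ⊥ ∧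
          finrank F U = w * i ∧ w * i ≤ m ∧ m ≤ s + w * i := by
      intro A s hsd hA hAk
      have hA' : Matrix.toLin' (A : Matrix (Fin d ⊕ Fin d) (Fin d ⊕ Fin d) F) ^ r = 1 := LinearMap.ext hA
      have hAr : A ^ r = 1 := Subtype.ext (Matrix.toLin'.injective (by
        rw [SubmonoidClass.coe_pow, Matrix.toLin'_pow, hA', Submonoid.coe_one, Matrix.toLin'_one]; rfl))
      obtain ⟨W, hWd, hWt, hWm⟩ := hall A ⟨1, by rw [hAr, one_smul]; rfl⟩ fun z hz => by
        have hz2 := sq_eq_one (by omega) hz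
        have hzr : z ^ r = 1 := by
          have := congrArg (fun T : Matrix (Fin d ⊕ Fin d) (Fin d ⊕ Fin d) F => T (Sum.inl ⟨0, by omega⟩) (Sum.inl ⟨0, by omega⟩))
            (congrArg Subtype.val hAr)
          simpa [hz, Matrix.one_apply, _root_.smul_pow] using this
        obtain ⟨r', hr'⟩ := hr.odd_of_ne_two hr2
        have hz1 : z = 1 := by
          rwa [hr', pow_add, pow_mul, pow_two, hz2, one_pow, pow_one, one_mul] at hzr
        rw [hz, hz1, one_smul, Matrix.toLin'_one, one_smul, sub_self, LinearMap.ker_zero, finrank_top, hfin] at hAk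
        omega
      set y := Matrix.toLin' (A : Matrix (Fin d ⊕ Fin d) (Fin d ⊕ Fin d) F) with hy
      have S : SympStep.Setting B y r p := ⟨hBA, hBS, fun u v => by
        rw [hy, Matrix.toLin'_apply, Matrix.toLin'_apply]; exact stdB_mulVec A u v, hA, hrp, hr2⟩
      obtain ⟨R, hstep⟩ := SympStep.exists_step S
      rw [← hi] at hstep
      have hW : Inv y W := inv_iff_map_le.2 hWm
      obtain ⟨U, hU, hUW, hsup, hdim⟩ := hstep.compl_in (SympStep.fixed_inv (y := y) _ (inf_le_right : W ⊓ (SympStep.fixedSpace y) ≤ (SympStep.fixedSpace y))) hW inf_le_left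
      have hUC : U ⊓ (SympStep.fixedSpace y) = ⊥ := by
        have h1 := Submodule.finrank_sup_add_finrank_inf_eq (W ⊓ (SympStep.fixedSpace y)) U
        rw [hsup] at h1
        have h2 : (W ⊓ (SympStep.fixedSpace y)) ⊓ U = ⊥ := Submodule.finrank_eq_zero.1 (by omega)
        rw [eq_bot_iff, ← h2]
        exact le_inf (le_inf (inf_le_left.trans hUW) inf_le_right) inf_le_left
      obtain ⟨w, hw⟩ := hstep.dvd U hU hUC
      have hTi := (hti W).1 hWt
      obtain ⟨hCn, -⟩ := SympStep.exists_nd_eq S (W := ⊤) (fun _ _ => trivial) (SympStep.nd_top hBS)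
      rw [top_inf_eq] at hCn
      have h3 := SympTI.ti_dim hBA hCn inf_le_right (hTi.mono (inf_le_left : W ⊓ (SympStep.fixedSpace y) ≤ W))
      change finrank F (SympStep.fixedSpace y) = 2 * s at hAk
      rw [mul_comm] at hw
      exact ⟨U, w, hU, hTi.mono hUW, hUC, hw, by omega, by omega⟩
    obtain ⟨A, hA, hAk⟩ := SympStep.exists_elt (F := F) (r := r) hrp hr2 (d := d) (u := 2 * d / c) (s := κ)
      (by rw [hc', mul_comm (2 * d / c), ← hκ]; exact hndm)
    obtain ⟨-, w, -, -, -, -, hw1, hw2⟩ := test A κ (by omega) hA hAk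
    have hw0 : w ≠ 0 := by rintro rfl; omega
    have him : i ≤ m := le_trans (Nat.le_mul_of_pos_left i (Nat.pos_of_ne_zero hw0)) hw1
    have hmod : m % i ≤ κ := by
      have h : w ≤ m / i := (Nat.le_div_iff_mul_le hi0).2 hw1
      have := Nat.mul_le_mul_right i h
      rw [mul_comm i (m / i)] at hmdm
      omega
    refine ⟨hrp, by omega, him, by omega, ?_⟩
    rcases hci with ⟨hie, hci'⟩ | ⟨hio, -⟩
    swap
    · exact Or.inl (Nat.not_even_iff_odd.1 hio)
    right
    by_contra hlt
    obtain ⟨b, hb⟩ := hie.two_dvd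
    set n' := 2 * d / i with hn'
    set t := (r - 1) / i with ht
    set m' := m / i
    have hd2 : 2 * d = n' * (2 * b) + 2 * κ := by
      rw [← hκ, hci', hn', ← hb, mul_comm (2 * d / i)]; exact (Nat.div_add_mod _ i).symm
    have hmm : m' * (2 * b) + m % i = m := by rw [← hb, mul_comm]; exact hmdm
    have hti' : t * (2 * b) ≤ r - 1 := by rw [← hb]; exact Nat.div_mul_le_self _ _
    have hn1 : 1 ≤ n' := (Nat.one_le_div_iff hi0).2 (by omega)
    have ht1 : 1 ≤ t := (Nat.one_le_div_iff hi0).2 (Nat.le_of_dvd (by omega) hidvd)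
    have bad : ∀ (u o s : ℕ), 1 ≤ o → o ≤ u → o ≤ t → d = u * b + s → s < d →
        ∃ w, w * (2 * b) ≤ m ∧ m ≤ s + w * (2 * b) ∧ 2 * w ≤ u - o + 1 := by
      intro u o s ho hou hot hd hsd
      obtain ⟨A, hA, hAk, hAbad⟩ := SympTI.exists_bad_elt (F := F) (r := r) (p := p) hrp hr2 (b := b)
        (by rw [← hi]; exact hb) ho hou ((Nat.mul_le_mul_right _ hot).trans hti') hd
      obtain ⟨U, w, hU, hUt, hUC, hUd, hw1, hw2⟩ := test A s hsd hA hAk
      have h := hAbad U hU hUt hUC
      rw [hUd, hb, ← mul_assoc] at h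
      exact ⟨w, hb ▸ hw1, hb ▸ hw2, Nat.le_of_mul_le_mul_right h (by omega)⟩
    have hκb : κ < b := by
      have := Nat.mod_lt (2 * d) hc0
      omega
    rcases Nat.lt_or_ge n' t with hnt | hnt
    · obtain ⟨w, -, h2, h3⟩ := bad n' n' κ hn1 le_rfl hnt.le (by
        have : n' * (2 * b) = 2 * (n' * b) := by ring
        omega) (by omega)
      obtain rfl : w = 0 := by omega
      omega
    rcases Nat.even_or_odd (n' - t) with ⟨e, he⟩ | ⟨e, he⟩
    · obtain ⟨w, h1, h2, h3⟩ := bad n' t κ ht1 hnt le_rfl (by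
        have : n' * (2 * b) = 2 * (n' * b) := by ring
        omega) (by omega)
      have hle : w + 1 ≤ m' := by omega
      have := Nat.mul_le_mul_right (2 * b) hle
      rw [add_mul, one_mul] at this
      omega
    · obtain ⟨n'', hn''⟩ : ∃ n'', n' = n'' + 1 := ⟨n' - 1, by omega⟩
      obtain ⟨w, h1, h2, h3⟩ := bad n'' t (κ + b) ht1 (by omega) le_rfl (by
        have : n' * (2 * b) = 2 * (n'' * b) + 2 * b := by rw [hn'']; ring
        omega) (by
        have : n' * (2 * b) = 2 * (n'' * b) + 2 * b := by rw [hn'']; ring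
        have : 0 < n'' * b := Nat.mul_pos (by omega) (by omega)
        omega)
      have hle : w + 1 ≤ m' := by omega
      have := Nat.mul_le_mul_right (2 * b) hle
      rw [add_mul, one_mul] at this
      omega
  · intro hrhs x ⟨z, hz⟩ _
    obtain ⟨-, -, him, hmodk, hcase⟩ := hrhs.resolve_left fun h => hr2 h.1
    set X := Matrix.toLin' (x : Matrix (Fin d ⊕ Fin d) (Fin d ⊕ Fin d) F) with hX
    have hz2 := sq_eq_one (by omega) hz
    have hXr : ∀ v, (X ^ r) v = z • v := fun v => by
      rw [hX, ← Matrix.toLin'_pow, ← SubmonoidClass.coe_pow, hz, map_smul, Matrix.toLin'_one]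
      rfl
    obtain ⟨r', hr'⟩ := hr.odd_of_ne_two hr2
    set y : Module.End F (Fin d ⊕ Fin d → F) := z • X with hy
    have hyv : ∀ v, y v = z • X v := fun v => rfl
    have hXy : ∀ v, X v = z • y v := fun v => by rw [hyv, smul_smul, hz2, one_smul]
    have S : SympStep.Setting B y r p := ⟨hBA, hBS, fun u v => by
        rw [hyv, hyv, map_smul, map_smul, LinearMap.smul_apply, smul_eq_mul, smul_eq_mul, ← mul_assoc, hz2, one_mul,
          hX, Matrix.toLin'_apply, Matrix.toLin'_apply]
        exact stdB_mulVec x u v,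
      fun v => by
        rw [hy, _root_.smul_pow, LinearMap.smul_apply, hXr, smul_smul, ← pow_succ, hr',
          show 2 * r' + 1 + 1 = 2 * (r' + 1) by ring, pow_mul, pow_two, hz2, one_pow, one_smul], hrp, hr2⟩
    obtain ⟨hCn, R, u, hR, -, hRC, hRn, -, hRd, hdim⟩ :=
      SympStep.exists_nd_eq S (W := ⊤) (fun _ _ => trivial) (SympStep.nd_top hBS)
    rw [hc'] at hRd
    rw [finrank_top, hfin, hRd] at hdim
    obtain ⟨s, hs⟩ := (SympStep.nd_even hBA hCn).two_dvd
    rw [hs] at hdim
    have hks : κ ≤ s := by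
      have : 2 * d % c = 2 * s % c := by rw [hdim, Nat.add_mul_mod_self_right]
      have := Nat.mod_le (2 * s) c
      omega
    have hhy : ∀ v, (y ^ r) v = (1 : F) • v := fun v => by rw [S.pow, one_smul]
    have finish : ∀ (w : ℕ) (U : Submodule F (Fin d ⊕ Fin d → F)), U ≤ R → Inv y U → SympTI.Ti B U →
        finrank F U = w * i → w * i ≤ m → m ≤ s + w * i →
        ∃ W : Submodule F (Fin d ⊕ Fin d → F), Module.finrank F ↥W = m ∧ (∀ u ∈ W, ∀ v ∈ W, Cfsg.sympForm d F u v = 0) ∧
          W.map X ≤ W := by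
      intro w U hUR hU hUt hUd h1 h2
      obtain ⟨T, hTC, hT, hTd⟩ := SympTI.exists_ti_sub hBA hCn (s := m - w * i) (by rw [hs]; omega)
      have hTF : T ≤ SympStep.fixedSpace y := hTC.trans inf_le_right
      have hUC : U ⊓ SympStep.fixedSpace y = ⊥ := eq_bot_iff.2 (hRC ▸ inf_le_inf_right _ hUR)
      refine ⟨T ⊔ U, ?_, (hti _).2 (SympTI.ti_sup hBA hT hUt fun a ha b hb => SympStep.fixed_orth S hU hUC (hTF ha) hb),
        inv_iff_map_le.1 fun v hv => ?_⟩
      · have h5 := Submodule.finrank_sup_add_finrank_inf_eq T U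
        rw [show T ⊓ U = ⊥ from eq_bot_iff.2 (hUC ▸ le_inf inf_le_right (inf_le_left.trans hTF)), finrank_bot,
          hTd, hUd] at h5
        omega
      · rw [hXy]
        exact Submodule.smul_mem _ z (((SympStep.fixed_inv (y := y) T hTF).sup hU) v hv)
    have hmdm' : m / i * i + m % i = m := by rw [mul_comm]; exact hmdm
    rcases hci with ⟨hie, hci'⟩ | ⟨hio, hci'⟩
    · -- even
      have hcase' := hcase.resolve_left (Nat.not_odd_iff_even.2 hie)
      rw [hci'] at hdim
      set t := (r - 1) / i with ht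
      set n' := 2 * d / i with hn'
      have hd2 : n' * i + 2 * κ = 2 * d := by rw [← hκ, hci', hn', mul_comm]; exact Nat.div_add_mod _ i
      have hti' : t * i = r - 1 := Nat.div_mul_cancel hidvd
      set w := min (m / i) ((u + 1 - t) / 2) with hw
      have hwm : w * i ≤ m := (Nat.mul_le_mul_right i (min_le_left _ _)).trans (Nat.div_mul_le_self m i)
      have hws : m ≤ s + w * i := by
        rcases le_total (m / i) ((u + 1 - t) / 2) with h | h
        · rw [hw, min_eq_left h]; omega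
        · rw [hw, min_eq_right h]
          have h1 : (t + 2 * (m / i)) * i ≤ n' * i := Nat.mul_le_mul_right i hcase'
          have h2 : u ≤ 2 * ((u + 1 - t) / 2) + t := by omega
          have h3 := Nat.mul_le_mul_right i h2
          rw [add_mul, mul_assoc] at h1 h3
          omega
      obtain ⟨U, hUR, hU, hUt, hUd⟩ : ∃ U ≤ R, Inv y U ∧ SympTI.Ti B U ∧ finrank F U = w * i := by
        rcases Nat.eq_zero_or_pos w with hw0 | hw0
        · exact ⟨⊥, bot_le, fun v hv => by simp [(Submodule.mem_bot F).1 hv], SympTI.ti_bot, by simp [hw0]⟩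
        refine SympTI.exists_ti_inv hBA S.iso one_ne_zero hrF hhy (P₀ := R) (i := i) (D₀ := r - 1 + 1)
          (fun P hPR hPi hPn hPd => ?_) w le_rfl hR hRn ?_
        · rw [hi]
          exact SympTI.find_even S hPi (eq_bot_iff.2 (hRC ▸ inf_le_inf_right _ hPR)) hPd
        · rw [hRd, hci']
          have h2 : t + 2 * w ≤ u + 1 := by
            have := min_le_right (m / i) ((u + 1 - t) / 2)
            omega
          have h3 := Nat.mul_le_mul_right i h2
          rw [add_mul, add_mul, one_mul, mul_assoc] at h3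
          omega
      exact finish w U hUR hU hUt hUd hwm hws
    · -- odd
      rw [hci'] at hdim
      have he : u * (2 * i) = 2 * (u * i) := by ring
      set w := min (m / i) u with hw
      have hwm : w * i ≤ m := (Nat.mul_le_mul_right i (min_le_left _ _)).trans (Nat.div_mul_le_self m i)
      have hws : m ≤ s + w * i := by
        rcases le_total (m / i) u with h | h
        · rw [hw, min_eq_left h]; omega
        · rw [hw, min_eq_right h]; omega
      obtain ⟨U, hUR, hU, hUt, hUd⟩ := SympTI.exists_ti_inv hBA S.iso one_ne_zero hrF hhy (P₀ := R) (i := i) (D₀ := 1)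
        (fun P hPR hPi hPn hPd => by
          rw [hi]
          exact SympTI.find_odd S (hi ▸ hio) hPi (eq_bot_iff.2 (hRC ▸ inf_le_inf_right _ hPR))
            fun h => by rw [h, finrank_bot] at hPd; omega) w le_rfl hR hRn (by
          rw [hRd, hci']
          have : w * i ≤ u * i := Nat.mul_le_mul_right i (min_le_right _ _)
          omega)
      exact finish w U hUR hU hUt hUd hwm hws

end Cfsg.Agent.S5955
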