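import Cfsg.Statements.S5956
import Cfsg.Agent.Lib.Elusive.SympUnip
import Cfsg.Agent.Lib.Elusive.Unipotent
import Cfsg.Agent.Lib.Classical.SympOrder

set_option autoImplicit false
set_option maxHeartbeats 1600000
open scoped MatrixGroups
open Cfsg

open Cfsg.Agent.Lib.Elusive Cfsg.Agent.Lib.Forms Cfsg.Agent.Lib.Jordan
open scoped Matrix

namespace Cfsg.Agent.S5956

open Module

universe u

variable {F : Type u} [Field F] {d : ℕ}

theorem stdB_mulVec (A : Matrix.symplecticGroup (Fin d) F) (u v : Fin d ⊕ Fin d → F) :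
    stdB d F ((A : Matrix (Fin d ⊕ Fin d) (Fin d ⊕ Fin d) F) *ᵥ u)
      ((A : Matrix (Fin d ⊕ Fin d) (Fin d ⊕ Fin d) F) *ᵥ v) = stdB d F u v :=
  (stdB_iff_matrix d _).2 A.2 u v

/-- A scalar symplectic map squares to one. -/
theorem sq_eq_one (hd : 0 < d) {A : Matrix.symplecticGroup (Fin d) F} {z : F}
    (hz : (A : Matrix (Fin d ⊕ Fin d) (Fin d ⊕ Fin d) F) = z • (1 : Matrix (Fin d ⊕ Fin d) (Fin d ⊕ Fin d) F)) :
    z * z = 1 := by
  obtain ⟨v, hv⟩ : ∃ v, stdB d F (Pi.single (Sum.inl ⟨0, hd⟩) 1) v ≠ 0 := by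
    by_contra h
    push Not at h
    have := (stdB_nondegenerate d (F := F)).1 _ h
    simpa using congrFun this (Sum.inl ⟨0, hd⟩)
  have h := stdB_mulVec A (Pi.single (Sum.inl ⟨0, hd⟩) 1) v
  simp only [hz, Matrix.smul_mulVec, Matrix.one_mulVec, map_smul, LinearMap.smul_apply, smul_eq_mul] at h
  exact mul_right_cancel₀ hv ((mul_assoc _ _ _).trans (h.trans (one_mul _).symm))

theorem finrank_std (d : ℕ) : finrank F (Fin d ⊕ Fin d → F) = 2 * d := by
  rw [finrank_pi, Fintype.card_sum, Fintype.card_fin, two_mul]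

theorem inv_smul {V : Type u} [AddCommGroup V] [Module F V] {x y : Module.End F V} {z : F} (h : ∀ v, x v = z • y v)
    {U : Submodule F V} (hU : Inv y U) : Inv x U := fun v hv => by
  rw [h]; exact U.smul_mem z (hU v hv)

/-- The number of non-degenerate subspaces divides a quotient of orders. -/
theorem card_dvd [Fintype F] {m m' : ℕ} (hm : m = 2 * m') (hmd : m ≤ 2 * d) :
    Nat.card {W : Submodule F (Fin d ⊕ Fin d → F) // Module.finrank F ↥W = m ∧ SympStep.Nd (stdB d F) W} ∣
      ∏ i ∈ Finset.Ico (d - m') d, ((Fintype.card F ^ (2 * (i + 1)) - 1) * Fintype.card F ^ (2 * i + 1)) := by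
  classical
  set B := stdB d F
  set Ω := {W : Submodule F (Fin d ⊕ Fin d → F) // Module.finrank F ↥W = m ∧ SympStep.Nd B W}
  have hBA : B.IsAlt := stdB_isAlt d
  have hBn : B.Nondegenerate := stdB_nondegenerate d
  have hinj : ∀ g : GL (Fin d ⊕ Fin d) F, Function.Injective (Matrix.toLin' (g : Matrix (Fin d ⊕ Fin d) (Fin d ⊕ Fin d) F)) :=
    fun g u v h => by
      have := congrArg (fun w => ((g⁻¹ : GL (Fin d ⊕ Fin d) F) : Matrix (Fin d ⊕ Fin d) (Fin d ⊕ Fin d) F) *ᵥ w) h
      simpa [Matrix.toLin'_apply, Matrix.mulVec_mulVec] using this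
  have hmv : ∀ (g : isoGroup B) (u v : Fin d ⊕ Fin d → F),
      B ((g : GL (Fin d ⊕ Fin d) F).1 *ᵥ u) ((g : GL (Fin d ⊕ Fin d) F).1 *ᵥ v) = B u v :=
    fun g u v => mem_isoGroup.1 g.2 u v
  letI A : MulAction (isoGroup B) Ω :=
    { smul := fun g W => ⟨W.1.map (Matrix.toLin' ((g : GL (Fin d ⊕ Fin d) F) : Matrix (Fin d ⊕ Fin d) (Fin d ⊕ Fin d) F)),
        by rw [← (Submodule.equivMapOfInjective _ (hinj g) W.1).finrank_eq, W.2.1],
        fun u hu hrad => by
          obtain ⟨a, ha, rfl⟩ := hu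
          have h0 : a = 0 := W.2.2 a ha fun b hb => by
            rw [← hmv g a b]
            exact hrad _ (Submodule.mem_map_of_mem hb)
          rw [h0, map_zero]⟩
      one_smul := fun W => Subtype.ext (by
        show W.1.map _ = W.1
        rw [OneMemClass.coe_one, Units.val_one, Matrix.toLin'_one]; exact Submodule.map_id _)
      mul_smul := fun g h W => Subtype.ext (by
        show W.1.map _ = (W.1.map _).map _
        rw [Subgroup.coe_mul, Units.val_mul, Matrix.toLin'_mul, Submodule.map_comp]) }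
  obtain ⟨W₀, -, hW₀, hW₀d⟩ := SympStep.exists_nd_sub hBA m' (SympStep.nd_top hBn.1) (by rw [finrank_top, finrank_std]; omega)
  let w₀ : Ω := ⟨W₀, by rw [hW₀d, hm], hW₀⟩
  haveI : MulAction.IsPretransitive (isoGroup B) Ω := by
    refine ⟨fun W W' => ?_⟩
    have hsplit : ∀ W : Ω, IsCompl W.1 (SympStep.perpIn B W.1 ⊤) ∧ SympStep.Nd B (SympStep.perpIn B W.1 ⊤) ∧
        finrank F (SympStep.perpIn B W.1 ⊤) + m = 2 * d := fun W => by
      obtain ⟨h1, h2, h3⟩ := SympStep.nd_split hBA W.2.2 (SympStep.nd_top hBn.1) le_top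
      rw [finrank_top, finrank_std, W.2.1] at h3
      refine ⟨⟨Submodule.disjoint_def.2 fun z hz hz' => W.2.2 z hz fun v hv =>
        hBA.isRefl v z ((SympStep.mem_perpIn.1 hz').2 v hv), codisjoint_iff.2 h2⟩, h1, by omega⟩
    have hres : ∀ (U : Submodule F (Fin d ⊕ Fin d → F)), SympStep.Nd B U →
        (B.compl₁₂ U.subtype U.subtype).SeparatingLeft := fun U hU u hu =>
      Subtype.ext (hU _ u.2 fun v hv => hu ⟨v, hv⟩)
    obtain ⟨hc, hP, hPd⟩ := hsplit W
    obtain ⟨hc', hP', hPd'⟩ := hsplit W'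
    obtain ⟨e₁, he₁⟩ := exists_alt_isometry (B.compl₁₂ W.1.subtype W.1.subtype) (fun v => hBA (v : Fin d ⊕ Fin d → F)) (hres _ W.2.2)
      (B.compl₁₂ W'.1.subtype W'.1.subtype) (fun v => hBA (v : Fin d ⊕ Fin d → F)) (hres _ W'.2.2) (by rw [W.2.1, W'.2.1])
    obtain ⟨e₂, he₂⟩ := exists_alt_isometry (B.compl₁₂ (SympStep.perpIn B W.1 ⊤).subtype (SympStep.perpIn B W.1 ⊤).subtype)
      (fun v => hBA (v : Fin d ⊕ Fin d → F)) (hres _ hP)
      (B.compl₁₂ (SympStep.perpIn B W'.1 ⊤).subtype (SympStep.perpIn B W'.1 ⊤).subtype)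
      (fun v => hBA (v : Fin d ⊕ Fin d → F)) (hres _ hP') (by omega)
    let g := ((Submodule.prodEquivOfIsCompl _ _ hc).symm.trans (e₁.prodCongr e₂)).trans
      (Submodule.prodEquivOfIsCompl _ _ hc')
    have hg : ∀ (a : W.1) (b : SympStep.perpIn B W.1 ⊤), g ((a : Fin d ⊕ Fin d → F) + b) =
        (e₁ a : Fin d ⊕ Fin d → F) + e₂ b := fun a b => by
      have : (a : Fin d ⊕ Fin d → F) + b = Submodule.prodEquivOfIsCompl _ _ hc (a, b) := by simp
      rw [this]
      simp [g]
    have hdec : ∀ v, ∃ (a : W.1) (b : SympStep.perpIn B W.1 ⊤), v = (a : Fin d ⊕ Fin d → F) + b := fun v => by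
      obtain ⟨a, ha, b, hb, rfl⟩ := Submodule.mem_sup.1 (hc.sup_eq_top ▸ Submodule.mem_top (x := v))
      exact ⟨⟨a, ha⟩, ⟨b, hb⟩, rfl⟩
    have hiso : ∀ u v, B (g u) (g v) = B u v := fun u v => by
      obtain ⟨a, b, rfl⟩ := hdec u
      obtain ⟨a', b', rfl⟩ := hdec v
      rw [hg, hg]
      simp only [map_add, LinearMap.add_apply]
      have h1 := he₁ a a'
      have h2 := he₂ b b'
      simp only [LinearMap.compl₁₂_apply, Submodule.subtype_apply] at h1 h2
      rw [h1, h2, (SympStep.mem_perpIn.1 (e₂ b').2).2 _ (e₁ a).2,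
        hBA.isRefl _ _ ((SympStep.mem_perpIn.1 (e₂ b).2).2 _ (e₁ a').2), (SympStep.mem_perpIn.1 b'.2).2 _ a.2,
        hBA.isRefl _ _ ((SympStep.mem_perpIn.1 b.2).2 _ a'.2)]
    let G : GL (Fin d ⊕ Fin d) F := ⟨LinearMap.toMatrix' g.toLinearMap, LinearMap.toMatrix' g.symm.toLinearMap,
      by rw [← LinearMap.toMatrix'_comp]; simp, by rw [← LinearMap.toMatrix'_comp]; simp⟩
    refine ⟨⟨G, mem_isoGroup.2 fun u v => ?_⟩, Subtype.ext ?_⟩
    · show B (LinearMap.toMatrix' g.toLinearMap *ᵥ u) (LinearMap.toMatrix' g.toLinearMap *ᵥ v) = _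
      rw [LinearMap.toMatrix'_mulVec, LinearMap.toMatrix'_mulVec]
      exact hiso u v
    · show W.1.map (Matrix.toLin' (LinearMap.toMatrix' g.toLinearMap)) = W'.1
      rw [Matrix.toLin'_toMatrix']
      refine Submodule.eq_of_le_of_finrank_le ?_ (by rw [LinearEquiv.finrank_map_eq, W.2.1, W'.2.1])
      rintro _ ⟨a, ha, rfl⟩
      have := hg ⟨a, ha⟩ 0
      simp only [Submodule.coe_zero, add_zero, map_zero] at this
      show g a ∈ W'.1
      rw [this]
      exact (e₁ _).2
  set W' := SympStep.perpIn B W₀ ⊤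
  obtain ⟨hW'n, hW'sup, hW'd⟩ := SympStep.nd_split hBA hW₀ (SympStep.nd_top hBn.1) le_top
  rw [finrank_top, finrank_std, hW₀d] at hW'd
  have hle : (Cfsg.Agent.Lib.Classical.fixG B W').subgroupOf (isoGroup B) ≤ MulAction.stabilizer (isoGroup B) w₀ := by
    intro g hg
    rw [Subgroup.mem_subgroupOf] at hg
    refine MulAction.mem_stabilizer_iff.2 (Subtype.ext ?_)
    show W₀.map _ = W₀
    refine le_antisymm ?_ fun v hv => ⟨v, hv, ?_⟩
    · rintro _ ⟨v, hv, rfl⟩
      rw [Matrix.toLin'_apply, hg.2 v fun w hw => (SympStep.mem_perpIn.1 hw).2 v hv]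
      exact hv
    · rw [Matrix.toLin'_apply, hg.2 v fun w hw => (SympStep.mem_perpIn.1 hw).2 v hv]
  have h1 := Subgroup.card_mul_index (MulAction.stabilizer (isoGroup B) w₀)
  rw [MulAction.index_stabilizer_of_transitive] at h1
  have h2 := Subgroup.card_dvd_of_le hle
  rw [Nat.card_congr (Subgroup.subgroupOfEquivOfLe
    (show Cfsg.Agent.Lib.Classical.fixG B W' ≤ isoGroup B from fun g hg => hg.1)).toEquiv] at h2
  have h3 : Nat.card (Cfsg.Agent.Lib.Classical.fixG B W') * Nat.card Ω ∣ Nat.card (isoGroup B) :=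
    h1 ▸ Nat.mul_dvd_mul_right h2 _
  obtain ⟨k, hk, hkc⟩ := Cfsg.Agent.Lib.Classical.card_fixG hBA hBn W' hW'n
  obtain ⟨k', hk', hkc'⟩ := Cfsg.Agent.Lib.Classical.card_fixG hBA hBn ⊤ (SympStep.nd_top hBn.1)
  rw [finrank_top, finrank_std] at hk'
  rw [show k' = d by omega] at hkc'
  simp only [W'] at hk
  rw [show k = d - m' by omega] at hkc
  rw [Cfsg.Agent.Lib.Classical.fixG_top hBn] at hkc'
  rw [hkc, hkc', ← Finset.prod_range_mul_prod_Ico _ (show d - m' ≤ d from Nat.sub_le _ _)] at h3
  refine Nat.dvd_of_mul_dvd_mul_left (Finset.prod_pos fun i _ => Nat.mul_pos ?_ (pow_pos Fintype.card_pos _)) h3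
  exact Nat.sub_pos_of_lt (Nat.one_lt_pow (by omega) Fintype.one_lt_card)

/-- Elements of prime order of PSp_n(q) with no fixed nondegenerate `m`-space. Here `T = PSp_n(q)` with `n = 2d ≥ 4`, `(n, q) ≠ (4, 2)`, realised through the symplectic matrices over the field `F` with `q` elements (preserving the standard alternating form); an element of `T` of prime order `r` is such a matrix `x` with `x^r` scalar and `x` not scalar. For `r ≠ p` let `i` be the multiplicative order of `q` modulo `r`, `c = i` for `i` even and `c = 2i` for `i` odd, and write `k = n mod c`, `ℓ = m mod i`, `ℓ' = m mod c`, `n' = ⌊n/i⌋`, `m' = ⌊m/i⌋`, `t = (r−1)/i`. Let `m` be even with `2 ≤ m < n/2` and let `r` be a prime dividing the number of nondegenerate `m`-spaces. Then every element of `T` of order `r` fixes a nondegenerate `m`-space if and only if one of: (i) `r = p > 2` and every partition of `n` into parts of size at most `p` in which every odd part has even multiplicity contains (as a sub-multiset) a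 partition of `m` in which every odd part has even multiplicity; (ii) `r = p = 2` and (`n ≡ 2 (mod 4)` or `m ≡ 0 (mod 4)`); (iii) `r = 2 ≠ p`; (iv) `r ≠ p`, `r > 2`, `c ≤ m` and `k ≥ ℓ'`. -/
theorem result {F : Type*} [Field F] [Fintype F] {p : ℕ} [Fact p.Prime] [CharP F p] {q : ℕ} (hq : Fintype.card F = q)
    (d m : ℕ) (hd : 2 ≤ d) (hT : (d, q) ≠ (2, 2)) (hm : 2 ≤ m) (hme : Even m) (hmd : m < d)
    (r : ℕ) [Fact r.Prime]
    (hrΩ : r ∣ Nat.card {W : Submodule F (Fin d ⊕ Fin d → F) // Module.finrank F ↥W = m ∧ (∀ u ∈ W, u ≠ 0 → ∃ v ∈ W, Cfsg.sympForm d F u v ≠ 0)})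
    (i c : ℕ) (hi : i = orderOf (q : ZMod r)) (hc : c = if Even i then i else 2 * i) :
    (∀ x : ↥(Matrix.symplecticGroup (Fin d) F),
      (∃ z : F, ((x ^ r : ↥(Matrix.symplecticGroup (Fin d) F)) : Matrix (Fin d ⊕ Fin d) (Fin d ⊕ Fin d) F) = z • (1 : Matrix (Fin d ⊕ Fin d) (Fin d ⊕ Fin d) F)) →
      (∀ z : F, (x : Matrix (Fin d ⊕ Fin d) (Fin d ⊕ Fin d) F) ≠ z • (1 : Matrix (Fin d ⊕ Fin d) (Fin d ⊕ Fin d) F)) →
      ∃ W : Submodule F (Fin d ⊕ Fin d → F), Module.finrank F ↥W = m ∧ (∀ u ∈ W, u ≠ 0 → ∃ v ∈ W, Cfsg.sympForm d F u v ≠ 0) ∧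
        W.map (Matrix.toLin' (x : Matrix (Fin d ⊕ Fin d) (Fin d ⊕ Fin d) F)) ≤ W) ↔
    ((r = p ∧ 2 < p ∧ (∀ μ : Multiset ℕ, (∀ a ∈ μ, 0 < a ∧ a ≤ p) → (∀ a : ℕ, Odd a → Even (μ.count a)) → μ.sum = 2 * d →
        ∃ ν : Multiset ℕ, ν ≤ μ ∧ ν.sum = m ∧ ∀ a : ℕ, Odd a → Even (ν.count a))) ∨
     (r = p ∧ p = 2 ∧ ((2 * d) % 4 = 2 ∨ m % 4 = 0)) ∨
     (r = 2 ∧ p ≠ 2) ∨
     (r ≠ p ∧ 2 < r ∧ c ≤ m ∧ m % c ≤ (2 * d) % c)) := by
  classical
  subst hq
  have hr : r.Prime := Fact.out
  set B := stdB d F with hBdef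
  have hBA : B.IsAlt := stdB_isAlt d
  have hBS : B.SeparatingLeft := (stdB_nondegenerate d).1
  have hfin : finrank F (Fin d ⊕ Fin d → F) = 2 * d := finrank_std d
  have hnd : ∀ W : Submodule F (Fin d ⊕ Fin d → F), (∀ u ∈ W, u ≠ 0 → ∃ v ∈ W, Cfsg.sympForm d F u v ≠ 0) ↔ SympStep.Nd B W := fun W => by
    simp only [SympStep.Nd.iff, hBdef, stdB_apply]
  obtain ⟨m', hm'⟩ := hme.two_dvd
  have hisoA : ∀ (A : Matrix.symplecticGroup (Fin d) F) u v,
      B (Matrix.toLin' (A : Matrix (Fin d ⊕ Fin d) (Fin d ⊕ Fin d) F) u) (Matrix.toLin' (A : Matrix (Fin d ⊕ Fin d) (Fin d ⊕ Fin d) F) v) = B u v :=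
    fun A u v => by rw [Matrix.toLin'_apply, Matrix.toLin'_apply]; exact stdB_mulVec A u v
  have finish : ∀ (x : Matrix.symplecticGroup (Fin d) F) (W : Submodule F (Fin d ⊕ Fin d → F)), finrank F W = m →
      SympStep.Nd B W → Inv (Matrix.toLin' (x : Matrix (Fin d ⊕ Fin d) (Fin d ⊕ Fin d) F)) W →
      ∃ W : Submodule F (Fin d ⊕ Fin d → F), Module.finrank F ↥W = m ∧ (∀ u ∈ W, u ≠ 0 → ∃ v ∈ W, Cfsg.sympForm d F u v ≠ 0) ∧
        W.map (Matrix.toLin' (x : Matrix (Fin d ⊕ Fin d) (Fin d ⊕ Fin d) F)) ≤ W :=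
    fun x W h1 h2 h3 => ⟨W, h1, (hnd W).2 h2, inv_iff_map_le.1 h3⟩
  have hXr : ∀ (x : Matrix.symplecticGroup (Fin d) F) (z : F),
      ((x ^ r : ↥(Matrix.symplecticGroup (Fin d) F)) : Matrix (Fin d ⊕ Fin d) (Fin d ⊕ Fin d) F) = z • 1 →
      ∀ v, (Matrix.toLin' (x : Matrix (Fin d ⊕ Fin d) (Fin d ⊕ Fin d) F) ^ r) v = z • v := fun x z hz v => by
    rw [← Matrix.toLin'_pow, ← SubmonoidClass.coe_pow, hz, map_smul, Matrix.toLin'_one]
    rfl
  by_cases hrp : r = p
  · subst hrp
    by_cases hp2 : r = 2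
    · subst hp2
      haveI : CharP F 2 := inferInstance
      have h20 : (2 : F) = 0 := CharTwo.two_eq_zero
      constructor
      · intro hall
        refine Or.inr (Or.inl ⟨rfl, rfl, ?_⟩)
        by_contra hcon
        push Not at hcon
        obtain ⟨e, he⟩ : ∃ e, d = e + e := ⟨d / 2, by omega⟩
        let f : Fin d ≃ Fin e ⊕ Fin e := (finCongr he).trans finSumFinEquiv.symm
        let S : Matrix (Fin d) (Fin d) F := (Matrix.J (Fin e) F).submatrix f f
        have hneg : ∀ {ι κ : Type} (M : Matrix ι κ F), -M = M := fun M => by ext i j; exact CharTwo.neg_eq _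
        have hST : Sᵀ = S := by rw [Matrix.transpose_submatrix, Matrix.J_transpose, hneg]
        have hSS : S + S = 0 := by ext i j; exact CharTwo.add_self_eq_zero _
        let M : Matrix (Fin d ⊕ Fin d) (Fin d ⊕ Fin d) F := Matrix.fromBlocks 1 S 0 1
        have hM : M ∈ Matrix.symplecticGroup (Fin d) F := by
          rw [SymplecticGroup.mem_iff]
          simp [M, Matrix.J, Matrix.fromBlocks_transpose, Matrix.fromBlocks_multiply, hST]
        have hM2 : M * M = 1 := by
          simp [M, Matrix.fromBlocks_multiply, hSS, Matrix.fromBlocks_one]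
        obtain ⟨W, hWd, hWn, hWm⟩ := hall ⟨M, hM⟩ ⟨1, by rw [SubmonoidClass.coe_pow, pow_two, one_smul]; exact hM2⟩
          fun z hz => by
            have hz' : M = z • (1 : Matrix (Fin d ⊕ Fin d) (Fin d ⊕ Fin d) F) := hz
            have hJ : S = 0 := by
              ext a b
              have := congrFun (congrFun hz' (Sum.inl a)) (Sum.inr b)
              simpa [M] using this
            have h00 : Matrix.J (Fin e) F = 0 := by
              ext a b
              have := congrFun (congrFun hJ (f.symm a)) (f.symm b)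
              simpa [S] using this
            have hu := Matrix.isUnit_det_J (Fin e) F
            haveI : Nonempty (Fin e ⊕ Fin e) := ⟨Sum.inl ⟨0, by omega⟩⟩
            rw [h00, Matrix.det_zero] at hu
            exact not_isUnit_zero hu
        set X := Matrix.toLin' M with hX
        set N : Module.End F (Fin d ⊕ Fin d → F) := X - 1 with hN
        have hNv : ∀ v, N v = Sum.elim (S *ᵥ (v ∘ Sum.inr)) 0 := fun v => by
          rw [hN, LinearMap.sub_apply, Module.End.one_apply, hX, Matrix.toLin'_apply, Matrix.fromBlocks_mulVec]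
          funext i
          cases i <;> simp
        have hN2 : ∀ v, N (N v) = 0 := fun v => by
          rw [hNv, hNv]
          funext i
          cases i <;> simp
        have h1N : (1 + N : Module.End F (Fin d ⊕ Fin d → F)) = X := by rw [hN]; abel
        have hiso : ∀ u v, B ((1 + N) u) ((1 + N) v) = B u v := fun u v => by rw [h1N]; exact hisoA ⟨M, hM⟩ u v
        have halt : ∀ v, B (N v) v = 0 := fun v => by
          rw [hNv, stdB_apply, Cfsg.sympForm]
          simp only [Matrix.J, Matrix.fromBlocks_mulVec, sumElim_dotProduct_sumElim, zero_dotProduct, add_zero,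
            Matrix.zero_mulVec, zero_add, Matrix.neg_mulVec, Matrix.one_mulVec]
          rw [dotProduct_neg, dotProduct_comm, Matrix.submatrix_mulVec_equiv, neg_eq_zero]
          have := alt_J (F := F) ((v ∘ Sum.inr) ∘ f.symm)
          rw [← this]
          exact (comp_equiv_symm_dotProduct _ _ f).symm.trans (by rw [dotProduct_comm])
        have hU : Inv N W := fun v hv => by
          rw [hN, LinearMap.sub_apply, Module.End.one_apply]
          exact W.sub_mem (inv_iff_map_le.2 hWm v hv) hv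
        have hWn' := (hnd W).1 hWn
        have hP := SympUnip.perp_inv_two hBA hiso hN2 hU (fun v _ => trivial : Inv N ⊤)
        obtain ⟨hPn, hsup, hdim⟩ := SympStep.nd_split hBA hWn' (SympStep.nd_top hBS) le_top
        rw [finrank_top, hfin, hWd] at hdim
        set P := SympStep.perpIn B W ⊤
        have hle : ∀ (U : Submodule F (Fin d ⊕ Fin d → F)), Inv N U → 2 * finrank F (U.map N) ≤ finrank F U ∧
            finrank F (U.map N) + finrank F (U ⊓ LinearMap.ker N : Submodule F (Fin d ⊕ Fin d → F)) = finrank F U := by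
          intro U hU
          have h1 := LinearMap.finrank_range_add_finrank_ker (N.comp U.subtype)
          rw [LinearMap.range_comp, Submodule.range_subtype] at h1
          have h2 : finrank F (LinearMap.ker (N.comp U.subtype)) = finrank F (U ⊓ LinearMap.ker N : Submodule F (Fin d ⊕ Fin d → F)) := by
            rw [← Submodule.finrank_map_subtype_eq U (LinearMap.ker (N.comp U.subtype)), LinearMap.ker_comp,
              Submodule.map_comap_subtype]
          have h3 : U.map N ≤ U ⊓ LinearMap.ker N := by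
            rintro _ ⟨v, hv, rfl⟩
            exact ⟨hU v hv, hN2 v⟩
          have := Submodule.finrank_mono h3
          omega
        obtain ⟨hW1, hW2⟩ := hle W hU
        obtain ⟨hP1, -⟩ := hle P hP
        have hrange : d ≤ finrank F (LinearMap.range N) := by
          let L : (Fin d → F) →ₗ[F] (Fin d ⊕ Fin d → F) :=
            { toFun := fun w => Sum.elim w 0
              map_add' := fun a b => funext fun i => by cases i <;> simp
              map_smul' := fun a b => funext fun i => by cases i <;> simp }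
          have hsub : LinearMap.range L ≤ LinearMap.range N := by
            rintro _ ⟨w, rfl⟩
            have hdet : IsUnit S.det := by rw [Matrix.det_submatrix_equiv_self]; exact Matrix.isUnit_det_J _ _
            refine ⟨Sum.elim 0 (S⁻¹ *ᵥ w), ?_⟩
            rw [hNv, Sum.elim_comp_inr, Matrix.mulVec_mulVec, Matrix.mul_nonsing_inv _ hdet, Matrix.one_mulVec]
            rfl
          have := Submodule.finrank_mono hsub
          rwa [LinearMap.finrank_range_of_inj (fun a b h => funext fun i => congrFun h (Sum.inl i)), finrank_fin_fun] at this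
        have hsplit : finrank F (LinearMap.range N) ≤ finrank F (W.map N) + finrank F (P.map N) := by
          rw [← Submodule.map_top, ← hsup, Submodule.map_sup]
          exact Submodule.finrank_add_le_finrank_add_finrank _ _
        have hrk : finrank F (W.map N) = m' := by omega
        -- the pairing is alternating on a complement of the kernel
        obtain ⟨Q₀, hQ₀⟩ := Submodule.exists_isCompl (W ⊓ LinearMap.ker N)
        set Q := Q₀ ⊓ W
        have hQsup : (W ⊓ LinearMap.ker N) ⊔ Q = W := by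
          rw [← sup_inf_assoc_of_le Q₀ (show W ⊓ LinearMap.ker N ≤ W from inf_le_left), hQ₀.sup_eq_top, top_inf_eq]
        have hQinf : (W ⊓ LinearMap.ker N) ⊓ Q = ⊥ :=
          eq_bot_iff.2 (hQ₀.inf_eq_bot ▸ inf_le_inf_left _ inf_le_left)
        have hQd : finrank F Q = m' := by
          have h := Submodule.finrank_sup_add_finrank_inf_eq (W ⊓ LinearMap.ker N) Q
          rw [hQsup, hQinf, finrank_bot] at h
          omega
        have hQn : SympStep.Nd (B.comp N LinearMap.id) Q := fun u hu hrad => by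
          have h0 : N u = 0 := hWn' (N u) (hU u hu.2) fun v hv => by
            rw [← hQsup] at hv
            obtain ⟨a, ha, b, hb, rfl⟩ := Submodule.mem_sup.1 hv
            rw [map_add]
            have hb' : B (N u) b = 0 := hrad b hb
            have ha' : B (N u) a = 0 := by
              have := SympUnip.adj hiso u a
              rw [LinearMap.mem_ker.1 ha.2, map_zero, map_zero] at this
              linear_combination this
            rw [ha', hb', add_zero]
          exact (Submodule.mem_bot F).1 (hQinf ▸ ⟨⟨hu.2, LinearMap.mem_ker.2 h0⟩, hu⟩)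
        obtain ⟨j, hj⟩ := SympStep.nd_even (B := B.comp N LinearMap.id) (fun v => halt v) hQn
        omega
      · intro hrhs x ⟨z, hz⟩ _
        have hrhs' : (2 * d) % 4 = 2 ∨ m % 4 = 0 := by
          rcases hrhs with ⟨-, h, -⟩ | ⟨-, -, h⟩ | ⟨-, h⟩ | ⟨h, -⟩
          · omega
          · exact h
          · exact absurd rfl h
          · exact absurd rfl h
        obtain rfl : z = 1 := by
          have h := sq_eq_one (by omega) hz
          rcases mul_self_eq_one_iff.1 h with h | h
          · exact h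
          · rw [h]; exact CharTwo.neg_eq 1
        set X := Matrix.toLin' (x : Matrix (Fin d ⊕ Fin d) (Fin d ⊕ Fin d) F) with hX
        have hX2 : ∀ v, X (X v) = v := fun v => by
          have := hXr x 1 hz v
          rwa [pow_two, Module.End.mul_apply, one_smul] at this
        set N : Module.End F (Fin d ⊕ Fin d → F) := X - 1 with hN
        have hN2 : ∀ v, N (N v) = 0 := fun v => by
          simp only [hN, LinearMap.sub_apply, Module.End.one_apply, map_sub, hX2]
          rw [show v - X v - (X v - v) = (2 : F) • (v - X v) by module, h20, zero_smul]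
        have h1N : (1 + N : Module.End F (Fin d ⊕ Fin d → F)) = X := by rw [hN]; abel
        have hiso : ∀ u v, B ((1 + N) u) ((1 + N) v) = B u v := fun u v => by rw [h1N]; exact hisoA x u v
        have hinv : ∀ {U : Submodule F (Fin d ⊕ Fin d → F)}, Inv N U → Inv X U := fun hU v hv => by
          rw [← h1N, LinearMap.add_apply, Module.End.one_apply]
          exact Submodule.add_mem _ hv (hU v hv)
        have htop : Inv N (⊤ : Submodule F (Fin d ⊕ Fin d → F)) := fun _ _ => trivial
        rcases (show m % 4 = 0 ∨ m % 4 = 2 by omega) with h0 | h2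
        · obtain ⟨U, -, hU, hUn, hUd⟩ := SympUnip.exists_fours hBA hiso hN2 (m / 4) htop (SympStep.nd_top hBS)
            (by rw [finrank_top, hfin]; omega)
          exact finish x U (by omega) hUn (hinv hU)
        · obtain ⟨P, hPT, hP, hPn, hPd⟩ := SympUnip.exists_plane hBA hiso hN2 htop (SympStep.nd_top hBS)
            (by rw [finrank_top, hfin]; omega)
          obtain ⟨hQn, -, hdim⟩ := SympStep.nd_split hBA hPn (SympStep.nd_top hBS) hPT
          rw [finrank_top, hfin, hPd] at hdim
          obtain ⟨T, hTQ, hT, hTn, hTd⟩ := SympUnip.exists_fours hBA hiso hN2 (m / 4)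
            (SympUnip.perp_inv_two hBA hiso hN2 hP htop) hQn (by omega)
          obtain ⟨U, -, hU, hUn, hUd⟩ := SympUnip.sup_pieces hBA hiso hN2 hPT hP hPn hPd hTQ hT hTn hTd
          exact finish x U (by omega) hUn (hinv hU)
    -- odd characteristic
    have hr3 : 2 < r := by have := hr.two_le; omega
    have h2F : (2 : F) ≠ 0 := fun h => by
      have : ((2 : ℕ) : F) = 0 := by exact_mod_cast h
      exact hp2 ((Nat.prime_dvd_prime_iff_eq hr Nat.prime_two).1 ((CharP.cast_eq_zero_iff F r 2).1 this))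
    obtain ⟨r', hr'⟩ := hr.odd_of_ne_two hp2
    have htype : ∀ {N : Module.End F (Fin d ⊕ Fin d → F)} {μ : Multiset ℕ}, HasType N μ →
        SympUnip.TypeOn N ⊤ μ := fun {N μ} h => ⟨fun _ _ => trivial, h.transport Submodule.topEquiv.symm fun _ => rfl⟩
    constructor
    · intro hall
      refine Or.inl ⟨rfl, hr3, fun μ hμ hpar hsum => ?_⟩
      by_cases hones : μ = Multiset.replicate (2 * d) 1
      · refine ⟨Multiset.replicate m 1, ?_, by simp, fun a _ => ?_⟩
        · rw [hones]; exact (Multiset.replicate_le_replicate 1).2 (by omega)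
        · rw [Multiset.count_replicate]; split_ifs <;> simp [hme]
      obtain ⟨d', A, hA, hAt⟩ := spReal_of_even_counts (F := F) μ (fun a ha => (hμ a ha).1) hpar
      obtain rfl : d' = d := by
        have := hAt.sum_eq
        simp only [hsum, finrank_std] at this
        simp at this
        omega
      set N := Matrix.toLin' (A - 1) with hN
      have hNt : HasType N μ := hAt
      have h1N : (1 + N : Module.End F (Fin d' ⊕ Fin d' → F)) = Matrix.toLin' A := by
        rw [hN, map_sub, Matrix.toLin'_one]; exact add_sub_cancel _ _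
      have hNp : N ^ r = 0 := (hNt.pow_eq_zero_iff r).2 fun a ha => (hμ a ha).2
      have hAr : Matrix.toLin' A ^ r = 1 := by rw [← h1N, add_one_pow, hNp, add_zero]
      have hns : ∀ z : F, ((⟨A, hA⟩ : Matrix.symplecticGroup (Fin d') F) : Matrix (Fin d' ⊕ Fin d') (Fin d' ⊕ Fin d') F) ≠ z • 1 := by
        intro z hz
        refine hones ?_
        have hz' : A = z • (1 : Matrix (Fin d' ⊕ Fin d') (Fin d' ⊕ Fin d') F) := hz
        have hz2 := sq_eq_one (A := ⟨A, hA⟩) (by omega) hz
        have hzr : z ^ r = 1 := by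
          rw [hz', map_smul, Matrix.toLin'_one, _root_.smul_pow] at hAr
          have := congrFun (LinearMap.congr_fun hAr (Pi.single (Sum.inl ⟨0, by omega⟩) 1)) (Sum.inl ⟨0, by omega⟩)
          simpa [Module.End.pow_apply] using this
        have hz1 : z = 1 := by
          rwa [hr', pow_add, pow_mul, pow_two, hz2, one_pow, pow_one, one_mul] at hzr
        have hN0 : N = 0 := by rw [hN, hz', hz1, one_smul, sub_self, map_zero]
        have h := hNt.eq_zero_iff.1 hN0
        rw [Multiset.eq_replicate_card.2 h] at hsum ⊢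
        simp only [Multiset.sum_replicate, smul_eq_mul, mul_one] at hsum
        rw [hsum]
      obtain ⟨W, hWd, hWn, hWm⟩ := hall ⟨A, hA⟩ ⟨1, by
          refine Matrix.toLin'.injective ?_
          rw [SubmonoidClass.coe_pow, one_smul, Matrix.toLin'_pow, Matrix.toLin'_one]
          exact hAr⟩ hns
      have hN0 : IsNilpotent N := ⟨r, hNp⟩
      have hxi : Function.Injective (1 + N : Module.End F (Fin d' ⊕ Fin d' → F)) :=
        SympUnip.inj_of_pow hr.pos one_ne_zero fun v => by rw [h1N, hAr, one_smul]; rfl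
      have hiso : ∀ u v, B ((1 + N) u) ((1 + N) v) = B u v := fun u v => by rw [h1N]; exact hisoA ⟨A, hA⟩ u v
      have hWi : Inv (1 + N : Module.End F (Fin d' ⊕ Fin d' → F)) W := by rw [h1N]; exact inv_iff_map_le.2 hWm
      have hWn' := (hnd W).1 hWn
      have hPi1 := SympUnip.perp_inv_iso hiso hxi hWi (fun v _ => trivial : Inv (1 + N) ⊤)
      obtain ⟨-, hsup, -⟩ := SympStep.nd_split hBA hWn' (SympStep.nd_top hBS) le_top
      obtain ⟨ν, hν⟩ := SympUnip.exists_typeOn hN0 (inv_add_one.1 hWi)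
      obtain ⟨ν', hν'⟩ := SympUnip.exists_typeOn hN0 (inv_add_one.1 hPi1)
      have hinf : W ⊓ SympStep.perpIn B W ⊤ = ⊥ := eq_bot_iff.2 fun z ⟨hz, hz'⟩ =>
        hWn' z hz fun b hb => hBA.isRefl b z ((SympStep.mem_perpIn.1 hz').2 b hb)
      have heq : μ = ν + ν' := (htype hNt).unique (hsup ▸ SympUnip.typeOn_add hν hν' hinf)
      refine ⟨ν, heq ▸ Multiset.le_add_right ν ν', ?_, fun a ha => SympUnip.parity hBA hiso hWn' hν a ha⟩
      obtain ⟨_, hν2⟩ := hν
      rw [hν2.sum_eq, hWd]
    · intro hrhs x ⟨z, hz⟩ _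
      obtain ⟨-, -, hμall⟩ := hrhs.resolve_right (by
        rintro (⟨-, h, -⟩ | ⟨h, -⟩ | ⟨h, -⟩)
        · exact hp2 h
        · exact hp2 h
        · exact h rfl)
      set X := Matrix.toLin' (x : Matrix (Fin d ⊕ Fin d) (Fin d ⊕ Fin d) F) with hX
      have hz2 := sq_eq_one (by omega) hz
      set y : Module.End F (Fin d ⊕ Fin d → F) := z • X with hy
      have hyv : ∀ v, y v = z • X v := fun v => rfl
      have hXy : ∀ v, X v = z • y v := fun v => by rw [hyv, smul_smul, hz2, one_smul]
      have hyr : y ^ r = 1 := LinearMap.ext fun v => by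
        rw [hy, _root_.smul_pow, LinearMap.smul_apply, hXr x z hz, smul_smul, ← pow_succ, hr',
          show 2 * r' + 1 + 1 = 2 * (r' + 1) by ring, pow_mul, pow_two, hz2, one_pow, one_smul]
        rfl
      set N : Module.End F (Fin d ⊕ Fin d → F) := y - 1 with hN
      have h1N : (1 + N : Module.End F (Fin d ⊕ Fin d → F)) = y := by rw [hN]; abel
      have hNp : N ^ r = 0 := by rw [hN, aeval_sub_one_pow, hyr, sub_self]
      have hiso : ∀ u v, B ((1 + N) u) ((1 + N) v) = B u v := fun u v => by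
        rw [h1N, hyv, hyv, map_smul, map_smul, LinearMap.smul_apply, smul_eq_mul, smul_eq_mul, ← mul_assoc, hz2, one_mul]
        exact hisoA x u v
      have hxi : Function.Injective (1 + N : Module.End F (Fin d ⊕ Fin d → F)) :=
        SympUnip.inj_of_pow hr.pos one_ne_zero fun v => by rw [h1N, hyr, one_smul]; rfl
      obtain ⟨μ, hμ⟩ := exists_type (f := N) ⟨r, hNp⟩
      obtain ⟨ν, hνμ, hνs, hνp⟩ := hμall μ (fun a ha => ⟨hμ.pos ha, (hμ.pow_eq_zero_iff r).1 hNp a ha⟩)
        (fun a ha => SympUnip.parity hBA hiso (SympStep.nd_top hBS) (htype hμ) a ha) (by rw [hμ.sum_eq, hfin])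
      obtain ⟨U, -, hU, hUn, hUd⟩ := SympUnip.exists_sub hBA h2F hiso hxi ⟨r, hNp⟩ ⊤ μ ν (fun _ _ => trivial)
        (SympStep.nd_top hBS) (htype hμ) hνμ hνp
      refine finish x U (hUd.trans hνs) hUn (inv_smul hXy ?_)
      rw [← h1N]
      exact inv_add_one.2 hU
  by_cases hr2 : r = 2
  · subst hr2
    refine iff_of_true ?_ (Or.inr (Or.inr (Or.inl ⟨rfl, fun h => hrp h.symm⟩)))
    intro x ⟨z, hz⟩ _
    set X := Matrix.toLin' (x : Matrix (Fin d ⊕ Fin d) (Fin d ⊕ Fin d) F) with hX
    have h2 : (2 : F) ≠ 0 := fun h => by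
      have : ((2 : ℕ) : F) = 0 := by exact_mod_cast h
      exact hrp ((Nat.prime_dvd_prime_iff_eq Fact.out Nat.prime_two).1 ((CharP.cast_eq_zero_iff F p 2).1 this)).symm
    have hz0 : z ≠ 0 := fun h => by
      have := sq_eq_one (by omega) hz
      rw [h, zero_mul] at this
      exact zero_ne_one this
    have hX2 : ∀ v, X (X v) = z • v := fun v => by
      have := hXr x z hz v
      rwa [pow_two, Module.End.mul_apply] at this
    have hxi : Function.Injective X := SympUnip.inj_of_pow (n := 2) (by norm_num) hz0 (hXr x z hz)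
    have hiso := hisoA x
    have hplane : ∀ W, Inv X W → SympStep.Nd B W → W ≠ ⊥ →
        ∃ U ≤ W, Inv X U ∧ SympStep.Nd B U ∧ finrank F U = 2 := by
      intro W hW hn hne
      obtain ⟨u₀, hu₀, hu₀0⟩ := Submodule.exists_mem_ne_zero_of_ne_bot hne
      rcases mul_self_eq_one_iff.1 (sq_eq_one (by omega) hz) with hz1 | hz1
      · have hXl : ∀ v, X (X v) = v := fun v => by rw [hX2, hz1, one_smul]
        have hside : ∀ (ε : F), ε * ε = 1 → (∃ v ∈ W, X v = ε • v ∧ v ≠ 0) →
            ∃ U ≤ W, Inv X U ∧ SympStep.Nd B U ∧ finrank F U = 2 := by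
          intro ε hε ⟨v, hv, hXv, hv0⟩
          set E := W ⊓ LinearMap.ker (X - ε • LinearMap.id)
          have hEm : ∀ {w}, w ∈ E ↔ w ∈ W ∧ X w = ε • w := fun {w} => by simp [E, sub_eq_zero]
          have hEn : SympStep.Nd B E := fun a ha hrad => hn a (hEm.1 ha).1 fun w hw => by
            obtain ⟨haW, haX⟩ := hEm.1 ha
            have hp : w + ε • X w ∈ E := hEm.2 ⟨W.add_mem hw (W.smul_mem _ (hW w hw)), by
              rw [map_add, map_smul, hXl, smul_add, smul_smul, hε, one_smul, add_comm]⟩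
            have h0 := hrad _ hp
            have h1 := hiso a w
            rw [haX, map_smul, LinearMap.smul_apply] at h1
            rw [map_add, map_smul, h1, ← two_mul] at h0
            exact (mul_eq_zero.1 h0).resolve_left h2
          obtain ⟨U, hUE, hUn, hUd⟩ := SympStep.exists_nd_sub hBA 1 hEn (by
            obtain ⟨e, he⟩ := SympStep.nd_even hBA hEn
            have : finrank F E ≠ 0 := fun h => hv0 (by
              have hmem : v ∈ E := hEm.2 ⟨hv, hXv⟩
              rwa [Submodule.finrank_eq_zero.1 h, Submodule.mem_bot] at hmem)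
            omega)
          exact ⟨U, hUE.trans inf_le_left, fun w hw => by rw [(hEm.1 (hUE hw)).2]; exact U.smul_mem ε hw, hUn, hUd⟩
        by_cases hp : u₀ + X u₀ = 0
        · exact hside (-1) (by norm_num) ⟨u₀, hu₀, by rw [neg_one_smul]; exact eq_neg_of_add_eq_zero_right hp, hu₀0⟩
        · exact hside 1 (one_mul 1) ⟨u₀ + X u₀, W.add_mem hu₀ (hW _ hu₀), by rw [map_add, hXl, one_smul, add_comm], hp⟩
      · have hXl : ∀ v, X (X v) = -v := fun v => by rw [hX2, hz1, neg_one_smul]
        obtain ⟨v, hv, hvv⟩ : ∃ v ∈ W, B v (X v) ≠ 0 := by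
          by_contra hcon
          push Not at hcon
          refine hu₀0 (hn u₀ hu₀ fun w hw => ?_)
          have hXw : X w ∈ W := hW w hw
          have h := hcon (u₀ + X w) (W.add_mem hu₀ hXw)
          simp only [map_add, LinearMap.add_apply, hXl, hcon u₀ hu₀, map_neg, hiso] at h
          rw [hiso w u₀, ← hBA.neg_eq w (X w), hcon w hw, ← hBA.neg_eq u₀ w] at h
          have : (2 : F) * B u₀ w = 0 := by linear_combination -h
          exact (mul_eq_zero.1 this).resolve_left h2
        refine ⟨Submodule.span F (Set.range ![v, X v]), ?_, ?_, ?_, ?_⟩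
        · rw [Submodule.span_le]
          rintro _ ⟨k, rfl⟩
          fin_cases k
          · exact hv
          · exact hW v hv
        · rw [inv_iff_map_le, Submodule.map_span, Submodule.span_le]
          rintro _ ⟨_, ⟨k, rfl⟩, rfl⟩
          fin_cases k
          · exact Submodule.subset_span ⟨1, rfl⟩
          · show X (X v) ∈ _
            rw [hXl]
            exact Submodule.neg_mem _ (Submodule.subset_span ⟨0, rfl⟩)
        · intro a ha hrad
          obtain ⟨c, rfl⟩ := Submodule.mem_span_range_iff_exists_fun (R := F) |>.1 ha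
          have h0 := hrad v (Submodule.subset_span ⟨0, rfl⟩)
          have h1 := hrad (X v) (Submodule.subset_span ⟨1, rfl⟩)
          simp [Fin.sum_univ_two, hBA.self_eq_zero, hvv] at h0 h1
          have hvv' : B (X v) v ≠ 0 := fun h => hvv (hBA.isRefl _ _ h)
          simp [hvv'] at h0
          simp [Fin.sum_univ_two, h0, h1]
        · rw [finrank_span_eq_card]
          · rfl
          rw [Fintype.linearIndependent_iff]
          intro c hc
          rw [Fin.sum_univ_two] at hc
          have h0 := congrArg (fun w => B w (X v)) hc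
          have h1 := congrArg (fun w => B v w) hc
          simp [hBA.self_eq_zero, hvv] at h0 h1
          intro k
          fin_cases k <;> assumption
    obtain ⟨U, -, hU, hUn, hUd⟩ := SympUnip.exists_dims hBA hiso hxi hplane m' (fun _ _ => trivial : Inv X ⊤)
      (SympStep.nd_top hBS) (by rw [finrank_top, hfin]; omega)
    exact finish x U (by omega) hUn hU
  -- odd primes
  have hr3 : 2 < r := by have := hr.two_le; omega
  have hc' : SympStep.cOf (orderOf (Fintype.card F : ZMod r)) = c := by rw [hc, SympStep.cOf, hi]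
  have hrq : ¬ r ∣ Fintype.card F := fun h => by
    obtain ⟨e, -, he⟩ := FiniteField.card F p
    rw [he] at h
    exact hrp ((Nat.prime_dvd_prime_iff_eq hr Fact.out).1 (hr.dvd_of_dvd_pow h))
  have hq0 : (Fintype.card F : ZMod r) ≠ 0 := fun h => hrq ((ZMod.natCast_eq_zero_iff _ r).1 h)
  have hidvd : i ∣ r - 1 := hi ▸ orderOf_dvd_of_pow_eq_one (ZMod.pow_card_sub_one_eq_one hq0)
  have hi0 : 0 < i := Nat.pos_of_dvd_of_pos hidvd (by omega)
  have hc0 : 0 < c := by rw [hc]; split_ifs <;> omega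
  obtain ⟨mc, hmc⟩ : ∃ mc, c = 2 * mc := (hc' ▸ SympStep.cOf_even _ : Even c).two_dvd
  obtain ⟨κ, hκ⟩ : ∃ κ, 2 * d % c = 2 * κ := by
    refine (?_ : 2 ∣ 2 * d % c)
    rw [Nat.dvd_mod_iff ⟨mc, hmc⟩]
    exact dvd_mul_right 2 d
  have hndm : 2 * d = c * (2 * d / c) + 2 * d % c := (Nat.div_add_mod _ c).symm
  have hkm : 2 * κ < m := by
    have hΩ : r ∣ Nat.card {W : Submodule F (Fin d ⊕ Fin d → F) // Module.finrank F ↥W = m ∧ SympStep.Nd B W} := by
      simpa only [hnd] using hrΩ
    obtain ⟨j, hj, hjd⟩ := (Prime.dvd_finsetProd_iff (Nat.prime_iff.1 hr) _).1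
      (hΩ.trans (card_dvd hm' (by omega)))
    rw [Finset.mem_Ico] at hj
    have hdvd : r ∣ Fintype.card F ^ (2 * (j + 1)) - 1 :=
      (hr.dvd_mul.1 hjd).resolve_right fun h => hrq (hr.dvd_of_dvd_pow h)
    rw [← ZMod.natCast_eq_zero_iff, Nat.cast_sub (Nat.one_le_pow _ _ Fintype.card_pos), sub_eq_zero,
      Nat.cast_pow, Nat.cast_one] at hdvd
    have h1 : i ∣ 2 * (j + 1) := hi ▸ orderOf_dvd_of_pow_eq_one hdvd
    have hcd : c ∣ 2 * (j + 1) := by
      rw [hc]
      split_ifs with he
      · exact h1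
      · exact (Nat.coprime_two_left.2 (Nat.not_even_iff_odd.1 he)).mul_dvd_of_dvd_of_dvd (dvd_mul_right 2 _) h1
    obtain ⟨e, he⟩ := hcd
    have h3 : 2 * d % c = 2 * (d - (j + 1)) % c := by
      rw [show 2 * d = 2 * (d - (j + 1)) + c * e by omega, Nat.add_mul_mod_self_left]
    have := Nat.mod_le (2 * (d - (j + 1))) c
    omega
  constructor
  · intro hall
    obtain ⟨A, hA, hAk⟩ := SympStep.exists_elt (F := F) (r := r) hrp hr2 (d := d) (u := 2 * d / c) (s := κ)
      (by rw [hc', mul_comm (2 * d / c), ← hκ]; exact hndm)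
    have hA' : Matrix.toLin' (A : Matrix (Fin d ⊕ Fin d) (Fin d ⊕ Fin d) F) ^ r = 1 := LinearMap.ext hA
    have hAr : A ^ r = 1 := Subtype.ext (Matrix.toLin'.injective (by
      rw [SubmonoidClass.coe_pow, Matrix.toLin'_pow, hA', Submonoid.coe_one, Matrix.toLin'_one]; rfl))
    obtain ⟨W, hWd, hWn, hWm⟩ := hall A ⟨1, by rw [hAr, one_smul]; rfl⟩ fun z hz => by
      have hz2 := sq_eq_one (by omega) hz
      have hzr : z ^ r = 1 := by
        have := congrArg (fun T : Matrix (Fin d ⊕ Fin d) (Fin d ⊕ Fin d) F => T (Sum.inl ⟨0, by omega⟩) (Sum.inl ⟨0, by omega⟩))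
          (congrArg Subtype.val hAr)
        simpa [hz, Matrix.one_apply, _root_.smul_pow] using this
      obtain ⟨r', hr'⟩ := hr.odd_of_ne_two hr2
      have hz1 : z = 1 := by
        rwa [hr', pow_add, pow_mul, pow_two, hz2, one_pow, pow_one, one_mul] at hzr
      rw [hz, hz1, one_smul, Matrix.toLin'_one, one_smul, sub_self, LinearMap.ker_zero, finrank_top, hfin] at hAk
      omega
    set y := Matrix.toLin' (A : Matrix (Fin d ⊕ Fin d) (Fin d ⊕ Fin d) F) with hy
    have S : SympStep.Setting B y r p := ⟨hBA, hBS, hisoA A, hA, hrp, hr2⟩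
    obtain ⟨-, X, w, -, -, -, -, -, hXd, hdim⟩ := SympStep.exists_nd_eq S (inv_iff_map_le.2 hWm) ((hnd W).1 hWn)
    have hle := Submodule.finrank_mono (inf_le_right : W ⊓ SympStep.fixedSpace y ≤ SympStep.fixedSpace y)
    rw [hWd, hXd, hc'] at hdim
    change finrank F (SympStep.fixedSpace y) = 2 * κ at hAk
    have hw0 : w ≠ 0 := by rintro rfl; omega
    have hcm : c ≤ m := by
      have := Nat.le_mul_of_pos_left c (Nat.pos_of_ne_zero hw0)
      omega
    refine Or.inr (Or.inr (Or.inr ⟨hrp, hr3, hcm, ?_⟩))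
    rw [hdim, Nat.add_mul_mod_self_right]
    exact (Nat.mod_le _ _).trans (by omega)
  · intro hrhs x ⟨z, hz⟩ _
    obtain ⟨-, -, hcm, hmk⟩ : r ≠ p ∧ 2 < r ∧ c ≤ m ∧ m % c ≤ (2 * d) % c := by
      rcases hrhs with ⟨h, -⟩ | ⟨h, -⟩ | ⟨h, -⟩ | h
      · exact absurd h hrp
      · exact absurd h hrp
      · exact absurd h hr2
      · exact h
    set X := Matrix.toLin' (x : Matrix (Fin d ⊕ Fin d) (Fin d ⊕ Fin d) F) with hX
    have hz2 := sq_eq_one (by omega) hz
    obtain ⟨r', hr'⟩ := hr.odd_of_ne_two hr2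
    set y : Module.End F (Fin d ⊕ Fin d → F) := z • X with hy
    have hyv : ∀ v, y v = z • X v := fun v => rfl
    have hXy : ∀ v, X v = z • y v := fun v => by rw [hyv, smul_smul, hz2, one_smul]
    have S : SympStep.Setting B y r p := ⟨hBA, hBS, fun u v => by
        rw [hyv, hyv, map_smul, map_smul, LinearMap.smul_apply, smul_eq_mul, smul_eq_mul, ← mul_assoc, hz2, one_mul]
        exact hisoA x u v,
      fun v => by
        rw [hy, _root_.smul_pow, LinearMap.smul_apply, hXr x z hz, smul_smul, ← pow_succ, hr',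
          show 2 * r' + 1 + 1 = 2 * (r' + 1) by ring, pow_mul, pow_two, hz2, one_pow, one_smul], hrp, hr2⟩
    obtain ⟨hCn, R, u, hR, -, hRC, hRn, -, hRd, hdim⟩ :=
      SympStep.exists_nd_eq S (W := ⊤) (fun _ _ => trivial) (SympStep.nd_top hBS)
    rw [hc'] at hRd
    rw [finrank_top, hfin, hRd] at hdim
    set C := ⊤ ⊓ SympStep.fixedSpace y
    obtain ⟨s, hs⟩ := (SympStep.nd_even hBA hCn).two_dvd
    rw [hs] at hdim
    have hks : 2 * κ ≤ 2 * s := by
      have : 2 * d % c = 2 * s % c := by rw [hdim, Nat.add_mul_mod_self_right]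
      have := Nat.mod_le (2 * s) c
      omega
    set w := min (m / c) u with hw
    have hwm : w * c ≤ m := (Nat.mul_le_mul_right c (min_le_left _ _)).trans (Nat.div_mul_le_self m c)
    have hwe : w * c = 2 * (w * mc) := by rw [hmc]; ring
    have hmdm : m / c * c + m % c = m := by rw [mul_comm]; exact Nat.div_add_mod m c
    have hws : m ≤ 2 * s + w * c := by
      rcases le_total (m / c) u with h | h
      · rw [hw, min_eq_left h]; omega
      · rw [hw, min_eq_right h]; omega
    obtain ⟨U, hUR, hU, hUn, hUd⟩ := SympStep.exists_take S w hR hRn hRC (by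
      rw [hRd, hc']; exact Nat.mul_le_mul_right c (min_le_right _ _))
    rw [hc'] at hUd
    obtain ⟨T, hTC, hTn, hTd⟩ := SympStep.exists_nd_sub hBA ((m - w * c) / 2) hCn (by rw [hs]; omega)
    have hTF : T ≤ SympStep.fixedSpace y := hTC.trans inf_le_right
    have hUC : U ⊓ SympStep.fixedSpace y = ⊥ := eq_bot_iff.2 (hRC ▸ inf_le_inf_right _ hUR)
    refine finish x (T ⊔ U) ?_ (SympStep.nd_sup hBA hTn hUn fun a ha b hb => SympStep.fixed_orth S hU hUC (hTF ha) hb)
      (inv_smul hXy ((SympStep.fixed_inv (y := y) T hTF).sup hU))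
    have h5 := Submodule.finrank_sup_add_finrank_inf_eq T U
    rw [show T ⊓ U = ⊥ from eq_bot_iff.2 (hUC ▸ le_inf inf_le_right (inf_le_left.trans hTF)), finrank_bot,
      hTd, hUd] at h5
    omega

end Cfsg.Agent.S5956
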