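import Cfsg.Statements.S5957
import Cfsg.Agent.Lib.Perm.InvolBlocks

set_option autoImplicit false
open Cfsg

namespace Cfsg.Agent.S5957

open Cfsg.Agent.Lib.Perm.InvolDecomp

/-- Involutions of PSL_n(q) and imprimitive subgroups. Here `T = PSL_n(F)` for a field `F` with `q = p^f` elements (`n ≥ 2`, `(n, q) ≠ (2, 2), (2, 3)`), `n = a·t` with `t ≥ 2`, and Ω is the set of direct-sum decompositions of `F^n` into `t` subspaces of dimension `a` (unordered; their number is the number of ordered ones divided by `t!`), whose stabilizers are the imprimitive subgroups of type GL_a(q) ≀ S_t (maximal except in some small cases; maximality is not assumed); an element of `T` of prime order `r` (a matrix `x` of determinant 1 with `x^r` scalar, `x` not scalar) fixes a point of Ω when it permutes the summands of some such decomposition. If the number of such decompositions is even, then every involution of `T` stabilizes one of them (the action is 2-elusive). -/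
theorem result {F : Type*} [Field F] [Fintype F] {p : ℕ} [Fact p.Prime] [CharP F p] {q : ℕ} (hq : Fintype.card F = q)
    (n a t : ℕ) (hn : 2 ≤ n) (hT : (n, q) ≠ (2, 2) ∧ (n, q) ≠ (2, 3)) (hat : n = a * t) (ha : 1 ≤ a) (ht : 2 ≤ t)
    (hΩ : 2 ∣ Nat.card {D : Fin t → Submodule F (Fin n → F) // Cfsg.Geo.IsMDecomposition a D} / Nat.factorial t)
    (x : Matrix.SpecialLinearGroup (Fin n) F)
    (hx1 : ∃ z : F, ((x ^ 2 : Matrix.SpecialLinearGroup (Fin n) F) : Matrix (Fin n) (Fin n) F) = z • (1 : Matrix (Fin n) (Fin n) F))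
    (hx2 : ∀ z : F, (x : Matrix (Fin n) (Fin n) F) ≠ z • (1 : Matrix (Fin n) (Fin n) F)) :
    ∃ D : Fin t → Submodule F (Fin n → F), Cfsg.Geo.IsMDecomposition a D ∧
        ∃ σ : Equiv.Perm (Fin t), ∀ j, (D j).map (Matrix.toLin' (x : Matrix (Fin n) (Fin n) F)) = D (σ j) := by
  classical
  obtain ⟨z, hz⟩ := hx1
  set g : (Fin n → F) →ₗ[F] (Fin n → F) := Matrix.toLin' (x : Matrix (Fin n) (Fin n) F) with hgdef
  have hg : ∀ v, g (g v) = z • v := fun v => by
    rw [hgdef, ← LinearMap.comp_apply, ← Matrix.toLin'_mul, ← pow_two,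
      ← Matrix.SpecialLinearGroup.coe_pow, hz, map_smul, Matrix.toLin'_one,
      LinearMap.smul_apply, LinearMap.id_apply]
  have hz0 : z ≠ 0 := by
    intro h
    have hdet := (x ^ 2 : Matrix.SpecialLinearGroup (Fin n) F).det_coe
    have : Nonempty (Fin n) := ⟨⟨0, by omega⟩⟩
    rw [hz, h, zero_smul, Matrix.det_zero] at hdet
    exact zero_ne_one hdet
  have hginj : Function.Injective g := fun u v huv => by
    have := congrArg g huv
    rw [hg, hg] at this
    exact smul_right_injective _ hz0 this
  obtain ⟨m, b, π, hπ, hb⟩ := exists_monomial_basis g hz0 hg (fun h2 => isSquare_of_two_eq_zero h2 z)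
  have hm : Fintype.card (Fin m) = a * t := by
    rw [← Module.finrank_eq_card_basis b, Module.finrank_fin_fun, hat]
  obtain ⟨f, σ, hfσ, hf⟩ := exists_blocks hπ (show 0 < a by omega) hm
  have hD := decomposition_of_blocks b b.linearIndependent b.span_eq (show 0 < a by omega) ht f hf
  refine ⟨_, hD, σ, fun j => map_eq_of_decomposition hD g hginj ?_⟩
  rw [Submodule.map_span, Submodule.span_le]
  rintro _ ⟨_, ⟨i, hi, rfl⟩, rfl⟩
  obtain ⟨c, hc⟩ := hb i
  rw [SetLike.mem_coe, hc]
  refine Submodule.smul_mem _ c (Submodule.subset_span ⟨π i, ?_, rfl⟩)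
  show f (π i) = σ j
  rw [hfσ, show f i = j from hi]

end Cfsg.Agent.S5957
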