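import Cfsg.Statements.S5958
import Cfsg.Agent.Lib.Elusive.Decomp

set_option autoImplicit false
open scoped MatrixGroups
open Cfsg
open Cfsg.Agent.Lib.Elusive
open scoped Matrix

namespace Cfsg.Agent.S5958

open Module Cfsg.Geo

variable {F : Type*} [Field F] {n a t : ℕ}

/-- Spanning subspaces of dimension at most `a` form a decomposition. -/
theorem of_span_le (ht : 2 ≤ t) (ha : 0 < a) (hn : n = a * t) {D : Fin t → Submodule F (Fin n → F)}
    (hd : ∀ j, finrank F (D j) ≤ a) (htop : ⊤ ≤ iSup D) : IsMDecomposition a D := by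
  refine Decomp.of_span ht ha (fun j => le_antisymm (hd j) ?_) (by rw [Fintype.card_fin, hn]) (top_unique htop)
  have hsup : (⊤ : Submodule F (Fin n → F)) ≤ D j ⊔ (Finset.univ.erase j).sup D := by
    refine htop.trans (iSup_le fun i => ?_)
    rcases eq_or_ne i j with rfl | hi
    · exact le_sup_left
    · exact le_sup_of_le_right (Finset.le_sup (f := D) (Finset.mem_erase.2 ⟨hi, Finset.mem_univ i⟩))
  have h1 := (Submodule.finrank_mono hsup).trans (Submodule.finrank_add_le_finrank_add_finrank _ _)
  have h2 := (Decomp.finrank_sup_le D (Finset.univ.erase j)).trans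
    (Finset.sum_le_card_nsmul _ _ a fun i _ => hd i)
  rw [Finset.card_erase_of_mem (Finset.mem_univ j), Finset.card_univ, Fintype.card_fin, smul_eq_mul] at h2
  rw [finrank_top, finrank_fin_fun] at h1
  have h3 : (t - 1) * a + a = n := by
    rw [hn]
    conv_rhs => rw [show t = t - 1 + 1 by omega]
    ring
  omega

/-- A decomposition exists. -/
theorem exists_decomp (ht : 2 ≤ t) (ha : 0 < a) (hn : n = a * t) :
    ∃ D : Fin t → Submodule F (Fin n → F), IsMDecomposition a D := by
  classical
  let e : Fin t × Fin a ≃ Fin n := finProdFinEquiv.trans (finCongr (by rw [hn, mul_comm]))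
  refine ⟨fun j => Submodule.span F (Set.range fun i => Pi.single (e (j, i)) 1),
    of_span_le ht ha hn (fun j => ?_) fun v _ => ?_⟩
  · exact (finrank_range_le_card _).trans (Fintype.card_fin a).le
  · rw [pi_eq_sum_univ' v]
    refine Submodule.sum_mem _ fun k _ => Submodule.smul_mem _ _ (Submodule.mem_iSup_of_mem (e.symm k).1 ?_)
    exact Submodule.subset_span ⟨(e.symm k).2, by simp⟩

/-- Scaling does not change the permutation. -/
theorem map_smul_iff {D : Fin t → Submodule F (Fin n → F)} {X y : Module.End F (Fin n → F)} {l : F}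
    (hl : l ≠ 0) (hXy : X = l • y) (σ : Equiv.Perm (Fin t)) :
    (∀ j, (D j).map X = D (σ j)) ↔ ∀ j, (D j).map y = D (σ j) := by
  subst hXy
  simp only [Submodule.map_smul _ _ l hl]

/-- A map sending each summand into another one permutes them. -/
theorem map_eq_of_le {D : Fin t → Submodule F (Fin n → F)} (hD : IsMDecomposition a D)
    {X : Module.End F (Fin n → F)} (hX : Function.Injective X) {σ : Equiv.Perm (Fin t)}
    (h : ∀ j, ∀ v ∈ D j, X v ∈ D (σ j)) (j : Fin t) : (D j).map X = D (σ j) :=
  Submodule.eq_of_le_of_finrank_le (Submodule.map_le_iff_le_comap.2 (h j))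
    (by rw [← (Submodule.equivMapOfInjective X hX (D j)).finrank_eq, hD.finrank_eq, hD.finrank_eq])

/-- Elements of odd prime order of PSL_n(q) and imprimitive subgroups. Here `T = PSL_n(F)` for a field `F` with `q = p^f` elements (`n ≥ 2`, `(n, q) ≠ (2, 2), (2, 3)`), `n = a·t` with `t ≥ 2`, and Ω is the set of direct-sum decompositions of `F^n` into `t` subspaces of dimension `a` (unordered; their number is the number of ordered ones divided by `t!`), whose stabilizers are the imprimitive subgroups of type GL_a(q) ≀ S_t (maximal except in some small cases; maximality is not assumed); an element of `T` of prime order `r` (a matrix `x` of determinant 1 with `x^r` scalar, `x` not scalar) fixes a point of Ω when it permutes the summands of some such decomposition. Let `r ≠ p` be an odd prime dividing the number of such decompositions, let `c` be the multiplicative order of `q` modulo `r`, and write `k = n mod c`, `ℓ = a mod c`. Then every element of `T` of order `r` stabilizes such a decomposition if and only if either `a = 1`,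 `c = r − 1 > 1` and `n ≤ k·r`, or `c ≤ a` and `k = t·ℓ`. -/
theorem result {F : Type*} [Field F] [Fintype F] {p : ℕ} [Fact p.Prime] [CharP F p] {q : ℕ} (hq : Fintype.card F = q)
    (n a t : ℕ) (hn : 2 ≤ n) (hT : (n, q) ≠ (2, 2) ∧ (n, q) ≠ (2, 3)) (hat : n = a * t) (ha : 1 ≤ a) (ht : 2 ≤ t)
    (r : ℕ) [Fact r.Prime] (hr2 : r ≠ 2) (hrp : r ≠ p) (hΩ : r ∣ Nat.card {D : Fin t → Submodule F (Fin n → F) // Cfsg.Geo.IsMDecomposition a D} / Nat.factorial t)
    (c : ℕ) (hc : c = orderOf (q : ZMod r)) :
    (∀ x : Matrix.SpecialLinearGroup (Fin n) F,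
      (∃ z : F, ((x ^ r : Matrix.SpecialLinearGroup (Fin n) F) : Matrix (Fin n) (Fin n) F) = z • (1 : Matrix (Fin n) (Fin n) F)) →
      (∀ z : F, (x : Matrix (Fin n) (Fin n) F) ≠ z • (1 : Matrix (Fin n) (Fin n) F)) →
      ∃ D : Fin t → Submodule F (Fin n → F), Cfsg.Geo.IsMDecomposition a D ∧
        ∃ σ : Equiv.Perm (Fin t), ∀ j, (D j).map (Matrix.toLin' (x : Matrix (Fin n) (Fin n) F)) = D (σ j)) ↔
    ((a = 1 ∧ 1 < c ∧ c = r - 1 ∧ n ≤ (n % c) * r) ∨ (c ≤ a ∧ n % c = t * (a % c))) := by
  classical
  subst hq
  have hr : r.Prime := Fact.out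
  have hfin : finrank F (Fin n → F) = n := finrank_fin_fun F
  have hrq : ¬ r ∣ Fintype.card F := fun h => by
    obtain ⟨e, -, he⟩ := FiniteField.card F p
    rw [he] at h
    exact hrp ((Nat.prime_dvd_prime_iff_eq hr Fact.out).1 (hr.dvd_of_dvd_pow h))
  have hq0 : (Fintype.card F : ZMod r) ≠ 0 := fun h => hrq ((ZMod.natCast_eq_zero_iff _ r).1 h)
  have hcdvd : c ∣ r - 1 := hc ▸ orderOf_dvd_of_pow_eq_one (ZMod.pow_card_sub_one_eq_one hq0)
  have hr3 : 3 ≤ r := by have := hr.two_le; omega
  have hcr : c ≤ r - 1 := Nat.le_of_dvd (by omega) hcdvd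
  have hc0 : 0 < c := Nat.pos_of_dvd_of_pos hcdvd (by omega)
  have hndm : n = c * (n / c) + n % c := (Nat.div_add_mod n c).symm
  have hadm : a = c * (a / c) + a % c := (Nat.div_add_mod a c).symm
  have hkc : n % c < c := Nat.mod_lt n hc0
  have hinj : ∀ x : Matrix.SpecialLinearGroup (Fin n) F,
      Function.Injective (Matrix.toLin' (x : Matrix (Fin n) (Fin n) F)) := fun x u v h => by
    have := congrArg (fun w => ((x⁻¹ : Matrix.SpecialLinearGroup (Fin n) F) : Matrix (Fin n) (Fin n) F) *ᵥ w) h
    simp only [Matrix.toLin'_apply, Matrix.mulVec_mulVec, ← Matrix.SpecialLinearGroup.coe_mul, inv_mul_cancel,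
      Matrix.SpecialLinearGroup.coe_one, Matrix.one_mulVec] at this
    exact this
  constructor
  · intro hall
    rcases Nat.lt_or_ge 1 c with hc1 | hc1
    swap
    · obtain rfl : c = 1 := by omega
      exact Or.inr ⟨ha, by simp [Nat.mod_one]⟩
    have hnd : ¬ r ∣ Fintype.card F - 1 := fun h => by
      rw [hc, dvd_card_sub_one_iff.1 h] at hc1; omega
    -- `r` divides the order of `GL`
    have hcn : c ≤ n := by
      let φ : GL (Fin n) F →* ((Fin n → F) ≃ₗ[F] (Fin n → F)) :=
        { toFun := fun g => LinearEquiv.ofLinear (Matrix.toLin' (g : Matrix (Fin n) (Fin n) F))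
            (Matrix.toLin' ((g⁻¹ : GL (Fin n) F) : Matrix (Fin n) (Fin n) F))
            (by rw [← Matrix.toLin'_mul, Units.mul_inv, Matrix.toLin'_one])
            (by rw [← Matrix.toLin'_mul, Units.inv_mul, Matrix.toLin'_one])
          map_one' := LinearEquiv.ext fun v => by simp
          map_mul' := fun g h => LinearEquiv.ext fun v => by simp [Matrix.mulVec_mulVec] }
      have hG : r ∣ Nat.card (GL (Fin n) F) := by
        refine Decomp.dvd_card_group φ (fun D => IsMDecomposition a D) (fun _ h => h)
          (fun D π h => Decomp.comp_perm h π) (fun D g h => Decomp.map h (φ g))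
          (fun D D' h h' => ?_) (exists_decomp ht ha hat) hΩ
        obtain ⟨g, hg, -⟩ := Decomp.exists_map D D' h h'
          fun j => LinearEquiv.ofFinrankEq _ _ (by rw [h.finrank_eq, h'.finrank_eq])
        refine ⟨⟨LinearMap.toMatrix' g.toLinearMap, LinearMap.toMatrix' g.symm.toLinearMap,
          by rw [← LinearMap.toMatrix'_comp]; simp, by rw [← LinearMap.toMatrix'_comp]; simp⟩, fun j => ?_⟩
        rw [← hg j]
        congr 1
        exact Matrix.toLin'_toMatrix' _
      rw [Matrix.card_GL_field] at hG
      obtain ⟨j, -, hj⟩ := (Prime.dvd_finsetProd_iff (Nat.prime_iff.1 hr) _).1 hG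
      have hdiff : Fintype.card F ^ n - Fintype.card F ^ (j : ℕ) =
          Fintype.card F ^ (j : ℕ) * (Fintype.card F ^ (n - j) - 1) := by
        rw [Nat.mul_sub, mul_one, ← pow_add, Nat.add_sub_cancel' j.2.le]
      rw [hdiff] at hj
      rcases hr.dvd_mul.1 hj with h | h
      · exact absurd (hr.dvd_of_dvd_pow h) hrq
      · rw [← ZMod.natCast_eq_zero_iff, Nat.cast_sub (Nat.one_le_pow _ _ Fintype.card_pos), sub_eq_zero,
          Nat.cast_pow, Nat.cast_one] at h
        exact (Nat.le_of_dvd (by omega) (hc ▸ orderOf_dvd_of_pow_eq_one h)).trans (Nat.sub_le _ _)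
    -- test elements
    have test : ∀ u k : ℕ, n = u * c + k → k < n →
        ∃ (y : Module.End F (Fin n → F)) (D : Fin t → Submodule F (Fin n → F)) (σ : Equiv.Perm (Fin t)),
          y ^ r = 1 ∧ IsMDecomposition a D ∧ (∀ j, (D j).map y = D (σ j)) ∧
          finrank F (LinearMap.ker (y - (1 : F) • LinearMap.id)) = k := by
      intro u k huk hk
      obtain ⟨A, hA, hAk⟩ := exists_root_elt (F := F) (r := r) hrp (hc ▸ hc1) (t := u) (k := k) (hc ▸ huk)
      have hA' : Matrix.toLin' (A : Matrix (Fin n) (Fin n) F) ^ r = 1 := LinearMap.ext hA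
      obtain ⟨D, hD, σ, hσ⟩ := hall A ⟨1, Matrix.toLin'.injective (by
        rw [Matrix.SpecialLinearGroup.coe_pow, Matrix.toLin'_pow, hA', one_smul, Matrix.toLin'_one]; rfl)⟩
        fun z hz => by
          have hz0 : z ^ r = 1 := by
            have := congrFun (hA (Pi.single ⟨0, by omega⟩ 1)) ⟨0, by omega⟩
            rw [hz, map_smul, Matrix.toLin'_one, _root_.smul_pow,
              show (LinearMap.id : Module.End F (Fin n → F)) = 1 from rfl, one_pow] at this
            simpa using this
          have hz1 : z = 1 := by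
            have hne : z ≠ 0 := fun h => by rw [h, zero_pow hr.ne_zero] at hz0; exact zero_ne_one hz0
            simpa [(hr.coprime_iff_not_dvd.2 hnd).gcd_eq_one] using
              pow_gcd_eq_one.2 ⟨hz0, FiniteField.pow_card_sub_one_eq_one z hne⟩
          rw [hz, hz1, one_smul, Matrix.toLin'_one, one_smul, sub_self, LinearMap.ker_zero, finrank_top, hfin] at hAk
          omega
      exact ⟨_, D, σ, hA', hD, hσ, hAk⟩
    -- fixed summands
    have fixdim : ∀ {y : Module.End F (Fin n → F)} {D : Fin t → Submodule F (Fin n → F)} {σ : Equiv.Perm (Fin t)},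
        y ^ r = 1 → IsMDecomposition a D → (∀ j, (D j).map y = D (σ j)) → ∀ j, σ j = j →
          ∃ u, a = finrank F (D j ⊓ LinearMap.ker (y - (1 : F) • LinearMap.id) : Submodule F (Fin n → F)) + u * c := by
      intro y D σ hy hD hσ j hj
      obtain ⟨R, hs⟩ := step_pow (r := r) (x := y) hrp (one_ne_zero : (1 : F) ≠ 0)
        (fun v => by rw [hy, Module.End.one_apply, one_pow, one_smul])
      rw [Nat.card_eq_fintype_card, ← hc] at hs
      obtain ⟨u, hu⟩ := hs.exists_eq (W := D j) fun v hv => by
        have := Submodule.mem_map_of_mem (f := y) hv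
        rwa [hσ, hj] at this
      exact ⟨u, by rw [← hu, hD.finrank_eq]⟩
    rcases Nat.lt_or_ge a c with hac | hac
    · left
      have hfixC : ∀ {y : Module.End F (Fin n → F)} {D : Fin t → Submodule F (Fin n → F)} {σ : Equiv.Perm (Fin t)},
          y ^ r = 1 → IsMDecomposition a D → (∀ j, (D j).map y = D (σ j)) → ∀ j, σ j = j → ∀ v ∈ D j, y v = v := by
        intro y D σ hy hD hσ j hj v hv
        obtain ⟨u, hu⟩ := fixdim hy hD hσ j hj
        obtain rfl : u = 0 := by
          by_contra hu0
          have := Nat.le_mul_of_pos_left c (Nat.pos_of_ne_zero hu0)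
          omega
        have heq := Submodule.eq_of_le_of_finrank_le
          (inf_le_left : D j ⊓ LinearMap.ker (y - (1 : F) • LinearMap.id) ≤ D j) (by rw [hD.finrank_eq]; omega)
        rw [← heq] at hv
        exact (eig_pos hv.2).trans (one_smul F v)
      obtain ⟨y, D, σ, hy, hD, hσ, hk⟩ := test 1 (n - c) (by omega) (by omega)
      obtain ⟨j, hj⟩ : ∃ j, σ j ≠ j := by
        by_contra hcon
        push Not at hcon
        have htop : (⊤ : Submodule F (Fin n → F)) ≤ LinearMap.ker (y - (1 : F) • LinearMap.id) := by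
          rw [← hD.iSup_eq_top]
          exact iSup_le fun j v hv => by simp [hfixC hy hD hσ j (hcon j) v hv]
        have := Submodule.finrank_mono htop
        rw [finrank_top, hfin, hk] at this
        omega
      obtain ⟨-, h2⟩ := Decomp.moved_bound hD hσ hy hj
      rw [hk, Fintype.card_fin] at h2
      have ha1 : a = 1 := by
        by_contra hne
        have : 2 * (r - 1) ≤ a * (r - 1) := Nat.mul_le_mul_right _ (by omega)
        omega
      subst ha1
      refine ⟨rfl, hc1, by omega, ?_⟩
      obtain ⟨y, D, σ, hy, hD, hσ, hk⟩ := test (n / c) (n % c) (by rw [mul_comm]; exact hndm) (by omega)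
      have := Decomp.card_le_mul hD hσ hy (hfixC hy hD hσ)
      rw [hk] at this
      rw [hat, one_mul] at this ⊢
      rwa [mul_comm] at this
    · right
      refine ⟨hac, ?_⟩
      obtain ⟨y, D, σ, hy, hD, hσ, hk⟩ := test (n / c) (n % c) (by rw [mul_comm]; exact hndm) (by omega)
      have hfixed : ∀ j, σ j = j := fun j => by
        by_contra hj
        obtain ⟨h1, -⟩ := Decomp.moved_bound hD hσ hy hj
        omega
      have hsum := Decomp.sum_inf_le hD (LinearMap.ker (y - (1 : F) • LinearMap.id))
      have hge : t * (a % c) ≤ n % c := by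
        rw [← hk]
        refine le_trans ?_ hsum
        rw [← show ∑ _j : Fin t, a % c = t * (a % c) by simp]
        refine Finset.sum_le_sum fun j _ => ?_
        obtain ⟨u, hu⟩ := fixdim hy hD hσ j (hfixed j)
        conv_lhs => rw [hu, Nat.add_mul_mod_self_right]
        exact Nat.mod_le _ _
      have hn' : n = t * (a % c) + c * (t * (a / c)) := by
        rw [hat]
        conv_lhs => rw [hadm]
        ring
      conv_lhs => rw [hn', Nat.add_mul_mod_self_left, Nat.mod_eq_of_lt (lt_of_le_of_lt hge hkc)]
  · intro hrhs x hx hns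
    set X := Matrix.toLin' (x : Matrix (Fin n) (Fin n) F) with hXdef
    obtain ⟨z, hz⟩ := hx
    have hX : ∀ v, (X ^ r) v = z • v := fun v => by
      rw [hXdef, ← Matrix.toLin'_pow, ← Matrix.SpecialLinearGroup.coe_pow, hz, map_smul, Matrix.toLin'_one]
      rfl
    have hXinj : Function.Injective X := hinj x
    -- invariant pieces
    have hblocks : ∀ {T : Module.End F (Fin n → F)} {C R : Submodule F (Fin n → F)} {i : ℕ},
        Step T C R i → n % i = t * (a % i) → ∃ D : Fin t → Submodule F (Fin n → F),
          IsMDecomposition a D ∧ ∀ j, ∀ v ∈ D j, T v ∈ D j := by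
      intro T C R i hs hmod
      obtain ⟨u, hu⟩ := hs.dvd R hs.invR (by rw [inf_comm]; exact hs.isCompl.inf_eq_bot)
      have hsum := hs.finrank_add
      rw [hfin] at hsum
      have hu' : u ≤ t * (a / i) := by
        have h1 : i * u ≤ n := by rw [← hu]; omega
        have h2 : n = i * (t * (a / i)) + n % i := by
          rw [hmod, hat]
          conv_lhs => rw [← Nat.div_add_mod a i]
          ring
        by_contra hlt
        have h3 : i * (t * (a / i) + 1) ≤ i * u := Nat.mul_le_mul_left i (by omega)
        have h4 := Nat.mod_lt n hs.pos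
        rw [mul_add, mul_one] at h3
        omega
      obtain ⟨D, hD, hDs⟩ := Decomp.exists_blocks hs a t C R u le_rfl le_rfl hs.invR (by rw [hu, mul_comm])
        (by rw [hsum, hat, mul_comm]) hu'
      exact ⟨D, of_span_le ht ha hat (fun j => (hD j).2.le) (hs.isCompl.sup_eq_top ▸ hDs), fun j => (hD j).1⟩
    by_cases hz' : ∀ w : F, w ^ r ≠ z
    · -- no root
      have hs := step_nonpow hrp hz' hX
      obtain ⟨t', ht', -⟩ := det_nonpow hrp hz' n X hfin hX
      by_cases hra : r ∣ a
      · obtain ⟨D, hD, hDi⟩ := hblocks hs (by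
          rw [Nat.dvd_iff_mod_eq_zero.1 hra, mul_zero, ← Nat.dvd_iff_mod_eq_zero, hat]
          exact hra.mul_right t)
        exact ⟨D, hD, 1, map_eq_of_le hD hXinj (σ := 1) hDi⟩
      obtain ⟨t'', rfl⟩ : r ∣ t := (hr.dvd_mul.1 (hat ▸ ⟨t', ht'⟩)).resolve_left hra
      haveI : NeZero r := ⟨hr.ne_zero⟩
      obtain ⟨U, hU, hUs⟩ := Decomp.exists_pieces hs (t'' * a) ⊤ le_rfl (fun _ _ => trivial)
        (by rw [finrank_top, hfin, hat]; ring)
      have hw : ∀ k, ∃ w ∈ U k, w ≠ 0 := fun k => Submodule.exists_mem_ne_zero_of_ne_bot fun h => by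
        have := (hU k).2.2
        rw [h, finrank_bot] at this
        exact hr.ne_zero this.symm
      choose w hwU hw0 using hw
      let e : Fin (r * t'') ≃ Fin t'' × Fin r :=
        (finCongr (mul_comm r t'')).trans finProdFinEquiv.symm
      let v : Fin (r * t'') → Fin a → (Fin n → F) := fun j i => (X ^ ((e j).2 : ℕ)) (w (finProdFinEquiv ((e j).1, i)))
      let D : Fin (r * t'') → Submodule F (Fin n → F) := fun j => Submodule.span F (Set.range (v j))
      have hD : IsMDecomposition a D := by
        refine of_span_le ht ha hat (fun j => (finrank_range_le_card _).trans (Fintype.card_fin a).le)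
          (hUs.trans (iSup_le fun k => ?_))
        rw [← Decomp.span_orbit hs (hU k).1 (inf_bot_eq _) (hU k).2.2 (hwU k) (hw0 k) (hX _) hr.pos, Submodule.span_le]
        rintro _ ⟨s, rfl⟩
        refine Submodule.mem_iSup_of_mem (e.symm ((finProdFinEquiv.symm k).1, s)) (Submodule.subset_span
          ⟨(finProdFinEquiv.symm k).2, ?_⟩)
        simp only [v, Equiv.apply_symm_apply, Prod.mk.eta]
      let π : Equiv.Perm (Fin (r * t'')) := e.trans (((Equiv.refl _).prodCongr (Equiv.addRight (1 : Fin r))).trans e.symm)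
      refine ⟨D, hD, π, map_eq_of_le hD hXinj fun j u hu => ?_⟩
      induction hu using Submodule.span_induction with
      | mem u hu =>
        obtain ⟨i, rfl⟩ := hu
        have he : e (π j) = ((e j).1, (e j).2 + 1) := by simp [π, Prod.map]
        show X (v j i) ∈ D (π j)
        have hkey : X (v j i) = (if ((e j).2 : ℕ) + 1 < r then (1 : F) else z) • v (π j) i := by
          simp only [v, he]
          rw [← Module.End.mul_apply, ← pow_succ']
          by_cases hlt : ((e j).2 : ℕ) + 1 < r
          · rw [if_pos hlt, one_smul, Fin.val_add_one_of_lt' hlt]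
          · have heq : ((e j).2 : ℕ) + 1 = r := by have := (e j).2.2; omega
            have hzero : (((e j).2 + 1 : Fin r) : ℕ) = 0 := by
              rw [Fin.val_add, Fin.val_one', Nat.add_mod_mod, heq, Nat.mod_self]
            rw [if_neg hlt, heq, hX, hzero, pow_zero, Module.End.one_apply]
        rw [hkey]
        exact (D (π j)).smul_mem _ (Submodule.subset_span ⟨i, rfl⟩)
      | zero => simp
      | add u u' _ _ hu hu' => rw [map_add]; exact (D (π j)).add_mem hu hu'
      | smul k u _ hu => rw [map_smul]; exact (D (π j)).smul_mem k hu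
    push Not at hz'
    obtain ⟨l, hl⟩ := hz'
    have hl0 : l ≠ 0 := fun h => by
      have hz0 : z = 0 := by rw [← hl, h, zero_pow hr.ne_zero]
      rw [hz0, zero_smul] at hz
      have hdet := congrArg Matrix.det hz
      haveI : Nonempty (Fin n) := ⟨⟨0, by omega⟩⟩
      rw [Matrix.SpecialLinearGroup.det_coe, Matrix.det_zero] at hdet
      exact one_ne_zero hdet
    set y : Module.End F (Fin n → F) := l⁻¹ • X with hydef
    have hXy : X = l • y := by rw [hydef, smul_inv_smul₀ hl0]
    have hy : ∀ v, (y ^ r) v = v := fun v => by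
      rw [hydef, _root_.smul_pow, LinearMap.smul_apply, hX, ← hl, smul_smul, inv_pow,
        inv_mul_cancel₀ (pow_ne_zero r hl0), one_smul]
    have hyinj : Function.Injective y := fun u v h => hXinj (by simp [hXy, h])
    obtain ⟨R, hs⟩ := step_pow (r := r) (x := y) hrp (one_ne_zero : (1 : F) ≠ 0)
      (fun v => by rw [hy, one_pow, one_smul])
    rw [Nat.card_eq_fintype_card, ← hc] at hs
    suffices h : ∃ D : Fin t → Submodule F (Fin n → F), IsMDecomposition a D ∧
        ∃ σ : Equiv.Perm (Fin t), ∀ j, (D j).map y = D (σ j) by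
      obtain ⟨D, hD, σ, hσ⟩ := h
      exact ⟨D, hD, σ, (map_smul_iff hl0 hXy σ).2 hσ⟩
    rcases hrhs with ⟨rfl, hc1, hcr', hnk⟩ | ⟨-, hk⟩
    swap
    · obtain ⟨D, hD, hDi⟩ := hblocks hs hk
      exact ⟨D, hD, 1, map_eq_of_le hD hyinj (σ := 1) hDi⟩
    -- lines
    set C := LinearMap.ker (y - (1 : F) • LinearMap.id) with hC
    obtain ⟨u, hu⟩ := hs.dvd R hs.invR (by rw [inf_comm]; exact hs.isCompl.inf_eq_bot)
    have hsum := hs.finrank_add
    rw [hfin, hu] at hsum
    have huf : u ≤ finrank F C := by
      have h1 : c * u ≤ n := by omega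
      have h2 : u ≤ n / c := (Nat.le_div_iff_mul_le hc0).2 (by rw [mul_comm]; exact h1)
      have h3 : n / c * r ≤ n := by
        refine Nat.le_of_mul_le_mul_left ?_ hc0
        have h4 : c * (n / c) * r ≤ c * n := by
          have : (c * (n / c) + n % c) * r ≤ n % c * r + c * n := by
            rw [← hndm]
            calc n * r = n + c * n := by rw [hcr']; conv_lhs => rw [show r = r - 1 + 1 by omega]
                                         ring
              _ ≤ _ := Nat.add_le_add_right hnk _
          rw [add_mul] at this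
          omega
        rw [← mul_assoc]
        exact h4
      have h5 : u * r ≤ n := (Nat.mul_le_mul_right r h2).trans h3
      have h6 : u * r = c * u + u := by
        rw [hcr']; conv_lhs => rw [show r = r - 1 + 1 by omega]
        ring
      omega
    haveI : NeZero r := ⟨hr.ne_zero⟩
    obtain ⟨U, hU, hUs⟩ := Decomp.exists_pieces hs u R le_rfl hs.invR (by rw [hu, mul_comm])
    have hUC : ∀ g, U g ⊓ C = ⊥ := fun g => eq_bot_iff.2
      (hs.isCompl.inf_eq_bot ▸ le_inf inf_le_right (inf_le_left.trans (hU g).2.1))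
    have hw : ∀ g, ∃ w ∈ U g, w ≠ 0 := fun g => Submodule.exists_mem_ne_zero_of_ne_bot fun h => by
      have := (hU g).2.2
      rw [h, finrank_bot] at this
      omega
    choose w hwU hw0 using hw
    let bC := Module.finBasis F C
    let κ := (Fin u × Fin r) ⊕ Fin (finrank F C - u)
    let cv : Fin u → (Fin n → F) := fun g => (bC (Fin.castLE huf g) : Fin n → F)
    let zv : κ → (Fin n → F) := Sum.elim (fun gs => (y ^ (gs.2 : ℕ)) (cv gs.1 + w gs.1))
      (fun j => (bC ⟨u + j, by omega⟩ : Fin n → F))
    let e : Fin t ≃ κ := Fintype.equivOfCardEq (by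
      rw [Fintype.card_fin, Fintype.card_sum, Fintype.card_prod, Fintype.card_fin, Fintype.card_fin, Fintype.card_fin]
      have h6 : u * r = c * u + u := by
        rw [hcr']; conv_lhs => rw [show r = r - 1 + 1 by omega]
        ring
      omega)
    let D : Fin t → Submodule F (Fin n → F) := fun j => Submodule.span F {zv (e j)}
    have hyC : ∀ v ∈ C, y v = v := fun v hv => (eig_pos hv).trans (one_smul F v)
    have hyCp : ∀ v ∈ C, ∀ s : ℕ, (y ^ s) v = v := fun v hv s => by
      induction s with
      | zero => rfl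
      | succ s ih => rw [pow_succ', Module.End.mul_apply, ih, hyC v hv]
    have hmem : ∀ q : κ, zv q ∈ iSup D := fun q =>
      Submodule.mem_iSup_of_mem (e.symm q) (by simp only [D, Equiv.apply_symm_apply]; exact Submodule.subset_span rfl)
    have hcv : ∀ g, cv g ∈ iSup D := fun g => by
      have h0 : ∑ s : Fin r, (y ^ (s : ℕ)) (w g) = 0 := by
        refine (Submodule.mem_bot F).1 (hUC g ▸ ⟨(U g).sum_mem fun s _ => Inv.pow (hU g).1 s _ (hwU g), ?_⟩)
        rw [Fin.sum_univ_eq_sum_range (fun s => (y ^ s) (w g))]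
        show _ ∈ C
        rw [hC, LinearMap.mem_ker, one_smul, LinearMap.sub_apply, LinearMap.id_apply,
          sub_eq_zero, map_sum, Finset.sum_congr rfl fun s _ => show y ((y ^ s) (w g)) = (y ^ (s + 1)) (w g) by
            rw [pow_succ', Module.End.mul_apply]]
        have h1 := Finset.sum_range_succ' (fun s => (y ^ s) (w g)) r
        rw [Finset.sum_range_succ, hy, pow_zero] at h1
        exact (add_right_cancel h1).symm
      have h1 : (r : F) • cv g = ∑ s : Fin r, zv (Sum.inl (g, s)) := by
        simp only [zv, Sum.elim_inl, map_add, Finset.sum_add_distrib, h0, add_zero, hyCp _ (bC _).2, cv,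
          Finset.sum_const, Finset.card_univ, Fintype.card_fin, Nat.cast_smul_eq_nsmul]
      have hrF : (r : F) ≠ 0 := fun h =>
        hrp ((Nat.prime_dvd_prime_iff_eq Fact.out hr).1 ((CharP.cast_eq_zero_iff F p r).1 h)).symm
      rw [← inv_smul_smul₀ hrF (cv g), h1]
      exact (iSup D).smul_mem _ ((iSup D).sum_mem fun s _ => hmem _)
    have hD : IsMDecomposition 1 D := by
      refine of_span_le ht one_pos hat (fun j => ?_) ?_
      · exact (finrank_span_le_card ({zv (e j)} : Set (Fin n → F))).trans (by simp)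
      rw [← hs.isCompl.sup_eq_top]
      refine sup_le ?_ (hUs.trans (iSup_le fun g => ?_))
      · have : LinearMap.range C.subtype ≤ iSup D := by
          rw [← Submodule.map_top, ← bC.span_eq, Submodule.map_span, Submodule.span_le]
          rintro _ ⟨_, ⟨j, rfl⟩, rfl⟩
          by_cases hj : (j : ℕ) < u
          · exact hcv ⟨j, hj⟩
          · have := hmem (Sum.inr ⟨(j : ℕ) - u, by omega⟩)
            simp only [zv, Sum.elim_inr] at this
            have hj' : (⟨u + ((j : ℕ) - u), by omega⟩ : Fin (finrank F C)) = j := Fin.ext (show u + ((j : ℕ) - u) = j by omega)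
            rw [hj'] at this
            exact this
        rwa [Submodule.range_subtype] at this
      · rw [← Decomp.span_orbit hs (hU g).1 (hUC g) (hU g).2.2 (hwU g) (hw0 g) (c := (1 : F))
          (by rw [hy, one_smul]) hr.pos, Submodule.span_le]
        rintro _ ⟨s, rfl⟩
        have := (iSup D).sub_mem (hmem (Sum.inl (g, s))) (hcv g)
        simpa [zv, map_add, hyCp _ (bC _).2, cv] using this
    let π : Equiv.Perm (Fin t) := e.trans ((Equiv.sumCongr
      ((Equiv.refl _).prodCongr (Equiv.addRight (1 : Fin r))) (Equiv.refl _)).trans e.symm)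
    refine ⟨D, hD, π, fun j => map_eq_of_le hD hyinj (fun j v hv => ?_) j⟩
    obtain ⟨k, rfl⟩ := Submodule.mem_span_singleton.1 hv
    rw [map_smul]
    refine (D (π j)).smul_mem k ?_
    have hkey : y (zv (e j)) = zv (e (π j)) := by
      have he : e (π j) = Sum.map (fun gs : Fin u × Fin r => (gs.1, gs.2 + 1)) id (e j) := by
        simp only [π, Equiv.trans_apply, Equiv.apply_symm_apply]
        rcases e j with ⟨g, s⟩ | q <;> rfl
      rw [he]
      rcases e j with ⟨g, s⟩ | q
      · simp only [zv, Sum.elim_inl, Sum.map_inl]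
        rw [← Module.End.mul_apply, ← pow_succ']
        by_cases hlt : (s : ℕ) + 1 < r
        · rw [Fin.val_add_one_of_lt' hlt]
        · have heq : (s : ℕ) + 1 = r := by have := s.2; omega
          have hzero : ((s + 1 : Fin r) : ℕ) = 0 := by
            rw [Fin.val_add, Fin.val_one', Nat.add_mod_mod, heq, Nat.mod_self]
          rw [heq, hy, hzero, pow_zero, Module.End.one_apply]
      · simp only [zv, Sum.elim_inr, Sum.map_inr, id_eq]
        exact hyC _ (bC _).2
    rw [hkey]
    exact Submodule.subset_span rfl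

end Cfsg.Agent.S5958
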