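import Cfsg.Statements.S5959
import Cfsg.Agent.Lib.Elusive.Unipotent

set_option autoImplicit false
open scoped MatrixGroups
open Cfsg
open Cfsg.Agent.Lib.Elusive Cfsg.Agent.Lib.Jordan

namespace Cfsg.Agent.S5959

/-- Elements of order `p` of PSL_n(q) and imprimitive subgroups: a necessary condition. Here `T = PSL_n(F)` for a field `F` with `q = p^f` elements (`n ≥ 2`, `(n, q) ≠ (2, 2), (2, 3)`), `n = a·t` with `t ≥ 2`, and Ω is the set of direct-sum decompositions of `F^n` into `t` subspaces of dimension `a` (unordered; their number is the number of ordered ones divided by `t!`), whose stabilizers are the imprimitive subgroups of type GL_a(q) ≀ S_t (maximal except in some small cases; maximality is not assumed); an element of `T` of prime order `r` (a matrix `x` of determinant 1 with `x^r` scalar, `x` not scalar) fixes a point of Ω when it permutes the summands of some such decomposition. Suppose `p > 2` divides the number of such decompositions. If every element of `T` of order `p` stabilizes such a decomposition, then every partition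 of `n` into parts of size at most `p` in which the part `p` occurs fewer than `a` times contains (as a sub-multiset) a partition of `a`. -/
theorem result {F : Type*} [Field F] [Fintype F] {p : ℕ} [Fact p.Prime] [CharP F p] {q : ℕ} (hq : Fintype.card F = q)
    (n a t : ℕ) (hn : 2 ≤ n) (hT : (n, q) ≠ (2, 2) ∧ (n, q) ≠ (2, 3)) (hat : n = a * t) (ha : 1 ≤ a) (ht : 2 ≤ t)
    (hp : 2 < p) (hΩ : p ∣ Nat.card {D : Fin t → Submodule F (Fin n → F) // Cfsg.Geo.IsMDecomposition a D} / Nat.factorial t)
    (h : ∀ x : Matrix.SpecialLinearGroup (Fin n) F,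
      (∃ z : F, ((x ^ p : Matrix.SpecialLinearGroup (Fin n) F) : Matrix (Fin n) (Fin n) F) = z • (1 : Matrix (Fin n) (Fin n) F)) →
      (∀ z : F, (x : Matrix (Fin n) (Fin n) F) ≠ z • (1 : Matrix (Fin n) (Fin n) F)) →
      ∃ D : Fin t → Submodule F (Fin n → F), Cfsg.Geo.IsMDecomposition a D ∧
        ∃ σ : Equiv.Perm (Fin t), ∀ j, (D j).map (Matrix.toLin' (x : Matrix (Fin n) (Fin n) F)) = D (σ j)) :
    (∀ μ : Multiset ℕ, (∀ b ∈ μ, 0 < b ∧ b ≤ p) → μ.sum = n → μ.count p < a → ∃ ν : Multiset ℕ, ν ≤ μ ∧ ν.sum = a) := by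
  classical
  intro μ hμ hsum hcount
  by_cases hne : μ = Multiset.replicate n 1
  · refine ⟨Multiset.replicate a 1, hne ▸ Multiset.replicate_mono 1 ?_, by simp⟩
    rw [hat]; exact Nat.le_mul_of_pos_right a (by omega)
  obtain ⟨A, N, hN, hA, hAp, hAc, hns⟩ := exists_unipotent (F := F) hμ hsum hne
  obtain ⟨D, hD, σ, hσ⟩ := h A hAc hns
  rw [hA] at hσ
  have hpow : ∀ (l : ℕ) (j : Fin t), (D j).map ((1 + N) ^ l) = D (σ^[l] j) := by
    intro l
    induction l with
    | zero => intro j; simp [Module.End.one_eq_id]
    | succ l ih =>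
      intro j
      rw [pow_succ', Module.End.mul_eq_comp, Submodule.map_comp, ih, hσ, Function.iterate_succ_apply']
  have hDinj : Function.Injective D := hD.indep.injective fun j hj => by
    have := hD.finrank_eq j
    rw [hj, finrank_bot] at this
    omega
  have hfix : ∀ j, σ j = j := by
    intro j
    by_contra hj
    have hper : ∀ l, 1 ≤ l → l < p → σ^[l] j ≠ j := by
      intro l hl hlp hlj
      have hp' : Function.IsPeriodicPt σ p j := hDinj (by
        rw [← hpow, hAp, Module.End.one_eq_id, Submodule.map_id])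
      have hg : Function.IsPeriodicPt σ (Nat.gcd l p) j :=
        Function.IsPeriodicPt.gcd (show Function.IsPeriodicPt σ l j from hlj) hp'
      rw [((Fact.out : p.Prime).coprime_iff_not_dvd.2 fun hd => by
        have := Nat.le_of_dvd (by omega) hd; omega).symm.gcd_eq_one] at hg
      exact hj hg
    have hinj : Function.Injective ((N ^ (p - 1)).domRestrict (D j)) := by
      rw [← LinearMap.ker_eq_bot, LinearMap.ker_eq_bot']
      rintro ⟨v, hv⟩ h0
      rw [LinearMap.domRestrict_apply, pow_pred_eq_sum, LinearMap.sum_apply,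
        ← Finset.add_sum_erase _ _ (Finset.mem_range.2 (Fact.out : p.Prime).pos), pow_zero,
        Module.End.one_apply] at h0
      have hmem : v ∈ ⨆ (k) (_ : k ≠ j), D k := by
        rw [show v = _ from eq_neg_of_add_eq_zero_left h0]
        refine Submodule.neg_mem _ (Submodule.sum_mem _ fun l hl => ?_)
        rw [Finset.mem_erase, Finset.mem_range] at hl
        refine Submodule.mem_iSup_of_mem (σ^[l] j)
          (Submodule.mem_iSup_of_mem (hper l (Nat.pos_of_ne_zero hl.1) hl.2) ?_)
        rw [← hpow]
        exact Submodule.mem_map_of_mem hv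
      exact Subtype.ext (Submodule.disjoint_def.1 (hD.indep j) v hv hmem)
    have hle := (LinearMap.finrank_range_of_inj hinj).symm.trans_le
      (Submodule.finrank_mono (show LinearMap.range ((N ^ (p - 1)).domRestrict (D j)) ≤
        LinearMap.range (N ^ (p - 1)) from LinearMap.range_comp_le_range _ _))
    rw [hD.finrank_eq, hN.finrank_range_pow, sum_sub_pred fun b hb => (hμ b hb).2] at hle
    omega
  let j : Fin t := ⟨0, by omega⟩
  have hU : ∀ k, Inv N (D k) := fun k =>
    inv_add_one.1 (inv_iff_map_le.2 ((hσ k).trans (congrArg D (hfix k))).le)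
  have hW : Inv N (⨆ (k) (_ : k ≠ j), D k) := by
    rw [inv_iff_map_le, Submodule.map_iSup]
    refine iSup_mono fun k => ?_
    rw [Submodule.map_iSup]
    exact iSup_mono fun _ => inv_iff_map_le.1 (hU k)
  have hc : IsCompl (D j) (⨆ (k) (_ : k ≠ j), D k) :=
    ⟨hD.indep j, codisjoint_iff.2 (by rw [← hD.iSup_eq_top, iSup_split_single D j])⟩
  obtain ⟨ν, hν, hs⟩ := exists_type_le hN hc (hU j) hW
  exact ⟨ν, hν, hs.trans (hD.finrank_eq j)⟩

end Cfsg.Agent.S5959
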