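import Cfsg.Statements.S5960
import Cfsg.Agent.Lib.Perm.InvolBlocks
import Cfsg.Agent.Lib.Forms.Symplectic

set_option autoImplicit false
open Cfsg

namespace Cfsg.Agent.S5960

open Cfsg.Agent.Lib.Perm.InvolDecomp

/-- The bilinear form and the linear map of a symplectic matrix. -/
theorem setup {F : Type*} [Field F] {d : ℕ} (hd : 0 < d) (x : ↥(Matrix.symplecticGroup (Fin d) F)) {z : F}
    (hx1 : ((x ^ 2 : ↥(Matrix.symplecticGroup (Fin d) F)) : Matrix (Fin d ⊕ Fin d) (Fin d ⊕ Fin d) F) = z • (1 : Matrix (Fin d ⊕ Fin d) (Fin d ⊕ Fin d) F)) :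
    let g := Matrix.toLin' (x : Matrix (Fin d ⊕ Fin d) (Fin d ⊕ Fin d) F)
    let B := Cfsg.Agent.Lib.Forms.stdB d F
    (∀ v, g (g v) = z • v) ∧ (z = 1 ∨ z = -1) ∧ Function.Injective g ∧
      ∀ u v, B (g u) (g v) = B u v := by
  intro g B
  have hg : ∀ v, g (g v) = z • v := fun v => by
    show Matrix.toLin' _ (Matrix.toLin' _ v) = _
    rw [← LinearMap.comp_apply, ← Matrix.toLin'_mul, ← pow_two,
      show (x : Matrix (Fin d ⊕ Fin d) (Fin d ⊕ Fin d) F) ^ 2 = _ from hx1, map_smul,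
      Matrix.toLin'_one, LinearMap.smul_apply, LinearMap.id_apply]
  have hiso : ∀ u v, B (g u) (g v) = B u v := fun u v => by
    have h : (x : Matrix (Fin d ⊕ Fin d) (Fin d ⊕ Fin d) F) ∈ Matrix.symplecticGroup (Fin d) F := x.2
    have h' := (SymplecticGroup.mem_iff'.1 h)
    simp only [B, g, Cfsg.Agent.Lib.Forms.stdB_apply, Cfsg.sympForm, Matrix.toLin'_apply]
    rw [Matrix.mulVec_mulVec, Matrix.dotProduct_mulVec, Matrix.vecMul_mulVec, ← mul_assoc, h',
      ← Matrix.dotProduct_mulVec]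
  obtain ⟨u, hu⟩ : ∃ u : Fin d ⊕ Fin d → F, u ≠ 0 :=
    ⟨Pi.single (Sum.inl ⟨0, hd⟩) 1, fun h => by
      have := congrFun h (Sum.inl ⟨0, hd⟩)
      simp at this⟩
  obtain ⟨v, hv⟩ : ∃ v, B u v ≠ 0 := by
    by_contra h
    push Not at h
    exact hu ((Cfsg.Agent.Lib.Forms.stdB_nondegenerate d).1 u h)
  have hzz : z * z = 1 := by
    have h := (hiso (g u) (g v)).trans (hiso u v)
    simp only [hg, map_smul, LinearMap.smul_apply, smul_eq_mul, ← mul_assoc] at h
    exact mul_eq_right₀ hv |>.1 h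
  refine ⟨hg, mul_self_eq_one_iff.1 hzz, fun p q hpq => ?_, hiso⟩
  have := congrArg g hpq
  rw [hg, hg] at this
  exact smul_right_injective _ (fun h : z = 0 => by simp [h] at hzz) this

/-- Involutions of PSp_n(q) and imprimitive subgroups. Here `T = PSp_n(q)`, `n = 2d ≥ 4`, `(n, q) ≠ (4, 2)`, realised through the symplectic matrices over the field `F` with `q` elements and the standard alternating form; `n = a·t` with `a` even and `t ≥ 2`, and Ω is the (nonempty) set of orthogonal decompositions of `F^n` into `t` nondegenerate subspaces of dimension `a` (unordered; counted as ordered ones divided by `t!`), whose stabilizers are the imprimitive subgroups of type Sp_a(q) ≀ S_t (maximality is not assumed); an element of `T` of prime order `r` (a symplectic matrix `x` with `x^r` scalar, `x` not scalar) fixes a point of Ω when it permutes the summands of some such decomposition. If the number of such decompositions is even, then every involution of `T`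 stabilizes one of them (the action is 2-elusive). -/
theorem result {F : Type*} [Field F] [Fintype F] {p : ℕ} [Fact p.Prime] [CharP F p] {q : ℕ} (hq : Fintype.card F = q)
    (d : ℕ) (hd : 2 ≤ d) (hT : (d, q) ≠ (2, 2))
    (a t : ℕ) (hat : 2 * d = a * t) (ha : 2 ≤ a) (hae : Even a) (ht : 2 ≤ t) (hΩ : 2 ∣ Nat.card {D : Fin t → Submodule F (Fin d ⊕ Fin d → F) // (Cfsg.Geo.IsMDecomposition a D ∧ (∀ j, ∀ u ∈ D j, u ≠ 0 → ∃ v ∈ D j, Cfsg.sympForm d F u v ≠ 0) ∧
          (∀ j j', j ≠ j' → ∀ u ∈ D j, ∀ v ∈ D j', Cfsg.sympForm d F u v = 0))} / Nat.factorial t)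
    (x : ↥(Matrix.symplecticGroup (Fin d) F))
    (hx1 : ∃ z : F, ((x ^ 2 : ↥(Matrix.symplecticGroup (Fin d) F)) : Matrix (Fin d ⊕ Fin d) (Fin d ⊕ Fin d) F) = z • (1 : Matrix (Fin d ⊕ Fin d) (Fin d ⊕ Fin d) F))
    (hx2 : ∀ z : F, (x : Matrix (Fin d ⊕ Fin d) (Fin d ⊕ Fin d) F) ≠ z • (1 : Matrix (Fin d ⊕ Fin d) (Fin d ⊕ Fin d) F)) :
    ∃ D : Fin t → Submodule F (Fin d ⊕ Fin d → F), (Cfsg.Geo.IsMDecomposition a D ∧ (∀ j, ∀ u ∈ D j, u ≠ 0 → ∃ v ∈ D j, Cfsg.sympForm d F u v ≠ 0) ∧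
          (∀ j j', j ≠ j' → ∀ u ∈ D j, ∀ v ∈ D j', Cfsg.sympForm d F u v = 0)) ∧
        ∃ σ : Equiv.Perm (Fin t), ∀ j, (D j).map (Matrix.toLin' (x : Matrix (Fin d ⊕ Fin d) (Fin d ⊕ Fin d) F)) = D (σ j) := by
  classical
  obtain ⟨z, hz⟩ := hx1
  obtain ⟨hg, hz1, hinj, hiso⟩ := setup (show 0 < d by omega) x hz
  set g : (Fin d ⊕ Fin d → F) →ₗ[F] (Fin d ⊕ Fin d → F) :=
    Matrix.toLin' (x : Matrix (Fin d ⊕ Fin d) (Fin d ⊕ Fin d) F) with hgdef
  set B := Cfsg.Agent.Lib.Forms.stdB d F with hB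
  have hA : B.IsAlt := Cfsg.Agent.Lib.Forms.stdB_isAlt d
  have hnd : B.Nondegenerate := Cfsg.Agent.Lib.Forms.stdB_nondegenerate d
  obtain ⟨E, hstep⟩ : ∃ E, HasStep B g E := by
    by_cases h2 : (2 : F) = 0
    · refine ⟨_, hasStep_even hA h2 (fun v => ?_) hiso⟩
      rcases hz1 with rfl | rfl
      · rw [hg, one_smul]
      · rw [hg, show (-1 : F) = 1 by linear_combination -h2, one_smul]
    · by_cases hs : IsSquare z
      · exact ⟨_, (hasStep_odd hA h2 hg hz1 hiso).1 hs⟩
      · exact ⟨_, (hasStep_odd hA h2 hg hz1 hiso).2 hs⟩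
  obtain ⟨k, P, htop, hk⟩ := exists_planes hA hnd hinj hiso hstep
  obtain ⟨e, he⟩ := hae
  have hk' : Fintype.card (Fin k) = e * t := by
    rw [Module.finrank_fintype_fun_eq_card, Fintype.card_sum, Fintype.card_fin] at hk
    rw [Fintype.card_fin]
    have : 2 * k = 2 * (e * t) := by rw [hk, ← two_mul, hat, he]; ring
    omega
  obtain ⟨f, σ, hfσ, hf⟩ := exists_blocks P.invol (show 0 < e by omega) hk'
  let b : Fin k ⊕ Fin k → Fin d ⊕ Fin d → F := Sum.elim P.u P.v
  let f' : Fin k ⊕ Fin k → Fin t := Sum.elim f f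
  have hf' : ∀ j, (Finset.univ.filter fun i => f' i = j).card = a := fun j => by
    rw [show (Finset.univ.filter fun i => f' i = j) =
      (Finset.univ.filter fun i => f i = j).disjSum (Finset.univ.filter fun i => f i = j) by
        ext (i | i) <;> simp [f'], Finset.card_disjSum, hf, he]
  have hD := decomposition_of_blocks b (P.linearIndependent hA)
    (by rw [Set.Sum.elim_range]; exact htop) (show 0 < a by omega) ht f' hf'
  have hzero : ∀ j, ∀ u ∈ Submodule.span F (b '' {i | f' i = j}), ∀ i, f' i ≠ j → B u (b i) = 0 := by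
    intro j u hu i hi
    refine Submodule.span_induction ?_ (by simp) (fun a b _ _ ha hb => by simp [ha, hb])
      (fun r a _ ha => by simp [ha]) hu
    rintro _ ⟨l, hl, rfl⟩
    rcases l with l | l <;> rcases i with i | i <;>
      (have hne : l ≠ i := fun h => hi (by subst h; exact hl)
       simp [b, P.orth l i hne])
  refine ⟨_, ⟨hD, fun j u hu hu0 => ?_, fun j j' hjj u hu v hv => ?_⟩, σ,
    fun j => map_eq_of_decomposition hD g hinj ?_⟩
  · by_contra h
    push Not at h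
    refine hu0 (hnd.1 u fun y => ?_)
    have hy : y ∈ P.sp := htop ▸ Submodule.mem_top
    refine P.orth_sp (w := u) (fun i => ?_) y hy
    by_cases hi : f i = j
    · constructor <;> rw [Cfsg.Agent.Lib.Forms.stdB_apply]
      · exact h _ (Submodule.subset_span ⟨Sum.inl i, hi, rfl⟩)
      · exact h _ (Submodule.subset_span ⟨Sum.inr i, hi, rfl⟩)
    · exact ⟨hzero j u hu (Sum.inl i) hi, hzero j u hu (Sum.inr i) hi⟩
  · rw [← Cfsg.Agent.Lib.Forms.stdB_apply]
    refine Submodule.span_induction ?_ (by simp) (fun a b _ _ ha hb => by simp [ha, hb])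
      (fun r a _ ha => by simp [ha]) hv
    rintro _ ⟨i, hi, rfl⟩
    exact hzero j u hu i (fun h => hjj (h.symm.trans hi))
  · rw [Submodule.map_span, Submodule.span_le]
    rintro _ ⟨_, ⟨i, hi, rfl⟩, rfl⟩
    have hle : ∀ l : Fin k, f l = j → Submodule.span F ({P.u (P.π l), P.v (P.π l)} : Set (Fin d ⊕ Fin d → F)) ≤
        Submodule.span F (b '' {i | f' i = σ j}) := fun l hl => by
      have h : f (P.π l) = σ j := by rw [hfσ, hl]
      rw [Submodule.span_le]
      rintro _ (rfl | rfl)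
      · exact Submodule.subset_span ⟨Sum.inl (P.π l), h, rfl⟩
      · exact Submodule.subset_span ⟨Sum.inr (P.π l), h, rfl⟩
    rcases i with l | l
    · exact hle l hi (P.map_u l)
    · exact hle l hi (P.map_v l)

end Cfsg.Agent.S5960
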