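import Cfsg.Statements.S5961
import Cfsg.Agent.Lib.Elusive.Decomp
import Cfsg.Agent.Lib.Elusive.SympStep
import Cfsg.Agent.Lib.Classical.SympOrder

set_option autoImplicit false
set_option maxHeartbeats 1600000
open scoped MatrixGroups
open Cfsg

open Cfsg.Agent.Lib.Elusive Cfsg.Agent.Lib.Forms
open scoped Matrix

namespace Cfsg.Agent.S5961

open Module Cfsg.Geo

universe u

variable {F : Type u} [Field F] {d a t : ℕ}

/-- Orthogonal decompositions. -/
def IsOrth (d a : ℕ) (D : Fin t → Submodule F (Fin d ⊕ Fin d → F)) : Prop :=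
  IsMDecomposition a D ∧ (∀ j, ∀ u ∈ D j, u ≠ 0 → ∃ v ∈ D j, Cfsg.sympForm d F u v ≠ 0) ∧
    (∀ j j', j ≠ j' → ∀ u ∈ D j, ∀ v ∈ D j', Cfsg.sympForm d F u v = 0)

theorem isOrth_iff {D : Fin t → Submodule F (Fin d ⊕ Fin d → F)} :
    IsOrth d a D ↔ IsMDecomposition a D ∧ (∀ j, SympStep.Nd (stdB d F) (D j)) ∧
      ∀ j j', j ≠ j' → ∀ u ∈ D j, ∀ v ∈ D j', stdB d F u v = 0 := by
  simp only [IsOrth, SympStep.Nd.iff, stdB_apply]

theorem card_sum_fin (d : ℕ) : Fintype.card (Fin d ⊕ Fin d) = 2 * d := by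
  rw [Fintype.card_sum, Fintype.card_fin, two_mul]

theorem stdB_mulVec (A : Matrix.symplecticGroup (Fin d) F) (u v : Fin d ⊕ Fin d → F) :
    stdB d F ((A : Matrix (Fin d ⊕ Fin d) (Fin d ⊕ Fin d) F) *ᵥ u)
      ((A : Matrix (Fin d ⊕ Fin d) (Fin d ⊕ Fin d) F) *ᵥ v) = stdB d F u v :=
  (stdB_iff_matrix d _).2 A.2 u v

/-- A scalar symplectic map squares to one. -/
theorem sq_eq_one (hd : 0 < d) {A : Matrix.symplecticGroup (Fin d) F} {z : F}
    (hz : (A : Matrix (Fin d ⊕ Fin d) (Fin d ⊕ Fin d) F) = z • (1 : Matrix (Fin d ⊕ Fin d) (Fin d ⊕ Fin d) F)) :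
    z * z = 1 := by
  obtain ⟨v, hv⟩ : ∃ v, stdB d F (Pi.single (Sum.inl ⟨0, hd⟩) 1) v ≠ 0 := by
    by_contra h
    push Not at h
    have := (stdB_nondegenerate d (F := F)).1 _ h
    simpa using congrFun this (Sum.inl ⟨0, hd⟩)
  have h := stdB_mulVec A (Pi.single (Sum.inl ⟨0, hd⟩) 1) v
  simp only [hz, Matrix.smul_mulVec, Matrix.one_mulVec, map_smul, LinearMap.smul_apply, smul_eq_mul] at h
  exact mul_right_cancel₀ hv ((mul_assoc _ _ _).trans (h.trans (one_mul _).symm))

/-- The map of a symplectic matrix. -/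
def toEquiv (d : ℕ) (F : Type u) [Field F] :
    Matrix.symplecticGroup (Fin d) F →* ((Fin d ⊕ Fin d → F) ≃ₗ[F] (Fin d ⊕ Fin d → F)) where
  toFun A := LinearEquiv.ofLinear (Matrix.toLin' (A : Matrix (Fin d ⊕ Fin d) (Fin d ⊕ Fin d) F))
    (Matrix.toLin' ((A⁻¹ : Matrix.symplecticGroup (Fin d) F) : Matrix (Fin d ⊕ Fin d) (Fin d ⊕ Fin d) F))
    (by rw [← Matrix.toLin'_mul, ← Submonoid.coe_mul, mul_inv_cancel, Submonoid.coe_one, Matrix.toLin'_one])
    (by rw [← Matrix.toLin'_mul, ← Submonoid.coe_mul, inv_mul_cancel, Submonoid.coe_one, Matrix.toLin'_one])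
  map_one' := LinearEquiv.ext fun v => by simp
  map_mul' A B := LinearEquiv.ext fun v => by simp [Matrix.mulVec_mulVec]

theorem isOrth_map {D : Fin t → Submodule F (Fin d ⊕ Fin d → F)} (A : Matrix.symplecticGroup (Fin d) F)
    (h : IsOrth d a D) : IsOrth d a fun j => (D j).map (toEquiv d F A : _ →ₗ[F] _) := by
  rw [isOrth_iff] at h ⊢
  refine ⟨Decomp.map h.1 _, fun j u hu hrad => ?_, fun j j' hne u hu v hv => ?_⟩
  · obtain ⟨u, hu', rfl⟩ := hu
    rw [h.2.1 j u hu' fun v hv => ?_, map_zero]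
    rw [← stdB_mulVec A]
    exact hrad _ (Submodule.mem_map_of_mem hv)
  · obtain ⟨u, hu, rfl⟩ := hu
    obtain ⟨v, hv, rfl⟩ := hv
    exact (stdB_mulVec A u v).trans (h.2.2 j j' hne u hu v hv)

/-- Transitivity on orthogonal decompositions. -/
theorem exists_move [Fintype F] (D D' : Fin t → Submodule F (Fin d ⊕ Fin d → F)) (h : IsOrth d a D) (h' : IsOrth d a D') :
    ∃ A : Matrix.symplecticGroup (Fin d) F, ∀ j, (D j).map (toEquiv d F A : _ →ₗ[F] _) = D' j := by
  classical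
  rw [isOrth_iff] at h h'
  set B := stdB d F
  have hres : ∀ (W : Submodule F (Fin d ⊕ Fin d → F)), SympStep.Nd B W →
      (B.compl₁₂ W.subtype W.subtype).SeparatingLeft := fun W hW u hu =>
    Subtype.ext (hW _ u.2 fun v hv => hu ⟨v, hv⟩)
  have he : ∀ j, ∃ e : D j ≃ₗ[F] D' j, ∀ x y, B (e x : Fin d ⊕ Fin d → F) (e y) = B x y := fun j =>
    exists_alt_isometry (B.compl₁₂ (D j).subtype (D j).subtype) (fun v => stdB_isAlt d _) (hres _ (h.2.1 j))
      (B.compl₁₂ (D' j).subtype (D' j).subtype) (fun v => stdB_isAlt d _) (hres _ (h'.2.1 j))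
      (by rw [h.1.finrank_eq, h'.1.finrank_eq])
  choose e he using he
  obtain ⟨g, hg, hgs⟩ := Decomp.exists_map D D' h.1 h'.1 e
  have hB : ∀ {E : Fin t → Submodule F (Fin d ⊕ Fin d → F)} (v w : (j : Fin t) → E j),
      (∀ j j', j ≠ j' → ∀ u ∈ E j, ∀ x ∈ E j', B u x = 0) →
        B (Decomp.sumMap E v) (Decomp.sumMap E w) = ∑ j, B (v j : Fin d ⊕ Fin d → F) (w j) := by
    intro E v w ho
    simp only [Decomp.sumMap_apply, map_sum, LinearMap.sum_apply]
    exact Finset.sum_congr rfl fun j _ => Finset.sum_eq_single j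
      (fun k _ hk => ho k j hk _ (v k).2 _ (w j).2) (by simp)
  have hiso : ∀ u v, B (g u) (g v) = B u v := fun u v => by
    obtain ⟨v', rfl⟩ := (Decomp.sumMap_bijective h.1).2 u
    obtain ⟨w', rfl⟩ := (Decomp.sumMap_bijective h.1).2 v
    rw [hgs, hgs, hB _ _ h'.2.2, hB _ _ h.2.2]
    exact Finset.sum_congr rfl fun j _ => he j _ _
  refine ⟨⟨LinearMap.toMatrix' g.toLinearMap, (stdB_iff_matrix d _).1 fun u v => ?_⟩, fun j => ?_⟩
  · rw [LinearMap.toMatrix'_mulVec, LinearMap.toMatrix'_mulVec]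
    exact hiso u v
  · rw [← hg j]
    congr 1
    exact Matrix.toLin'_toMatrix' _

/-- A map sending each summand into itself. -/
theorem map_eq_of_le {D : Fin t → Submodule F (Fin d ⊕ Fin d → F)} (hD : IsMDecomposition a D)
    {X : Module.End F (Fin d ⊕ Fin d → F)} (hX : Function.Injective X)
    (h : ∀ j, ∀ v ∈ D j, X v ∈ D j) (j : Fin t) : (D j).map X = D j :=
  Submodule.eq_of_le_of_finrank_le (Submodule.map_le_iff_le_comap.2 (h j))
    (by rw [← (Submodule.equivMapOfInjective X hX (D j)).finrank_eq])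

/-- Elements of odd prime order of PSp_n(q) and imprimitive subgroups. Here `T = PSp_n(q)`, `n = 2d ≥ 4`, `(n, q) ≠ (4, 2)`, realised through the symplectic matrices over the field `F` with `q` elements and the standard alternating form; `n = a·t` with `a` even and `t ≥ 2`, and Ω is the (nonempty) set of orthogonal decompositions of `F^n` into `t` nondegenerate subspaces of dimension `a` (unordered; counted as ordered ones divided by `t!`), whose stabilizers are the imprimitive subgroups of type Sp_a(q) ≀ S_t (maximality is not assumed); an element of `T` of prime order `r` (a symplectic matrix `x` with `x^r` scalar, `x` not scalar) fixes a point of Ω when it permutes the summands of some such decomposition. Let `r ≠ p` be an odd prime dividing the number of such decompositions, let `i` be the multiplicative order of `q` modulo `r`, `c = i` if `i` is even and `c = 2i` if `i` is odd, and write `k = n mod c`, `ℓ = a mod c`. Then every element of `T`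 of order `r` stabilizes such a decomposition if and only if `c ≤ a` and `k = t·ℓ`. -/
theorem result {F : Type*} [Field F] [Fintype F] {p : ℕ} [Fact p.Prime] [CharP F p] {q : ℕ} (hq : Fintype.card F = q)
    (d : ℕ) (hd : 2 ≤ d) (hT : (d, q) ≠ (2, 2))
    (a t : ℕ) (hat : 2 * d = a * t) (ha : 2 ≤ a) (hae : Even a) (ht : 2 ≤ t)
    (r : ℕ) [Fact r.Prime] (hr2 : r ≠ 2) (hrp : r ≠ p) (hΩ : r ∣ Nat.card {D : Fin t → Submodule F (Fin d ⊕ Fin d → F) // (Cfsg.Geo.IsMDecomposition a D ∧ (∀ j, ∀ u ∈ D j, u ≠ 0 → ∃ v ∈ D j, Cfsg.sympForm d F u v ≠ 0) ∧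
          (∀ j j', j ≠ j' → ∀ u ∈ D j, ∀ v ∈ D j', Cfsg.sympForm d F u v = 0))} / Nat.factorial t)
    (i c : ℕ) (hi : i = orderOf (q : ZMod r)) (hc : c = if Even i then i else 2 * i) :
    (∀ x : ↥(Matrix.symplecticGroup (Fin d) F),
      (∃ z : F, ((x ^ r : ↥(Matrix.symplecticGroup (Fin d) F)) : Matrix (Fin d ⊕ Fin d) (Fin d ⊕ Fin d) F) = z • (1 : Matrix (Fin d ⊕ Fin d) (Fin d ⊕ Fin d) F)) →
      (∀ z : F, (x : Matrix (Fin d ⊕ Fin d) (Fin d ⊕ Fin d) F) ≠ z • (1 : Matrix (Fin d ⊕ Fin d) (Fin d ⊕ Fin d) F)) →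
      ∃ D : Fin t → Submodule F (Fin d ⊕ Fin d → F), (Cfsg.Geo.IsMDecomposition a D ∧ (∀ j, ∀ u ∈ D j, u ≠ 0 → ∃ v ∈ D j, Cfsg.sympForm d F u v ≠ 0) ∧
          (∀ j j', j ≠ j' → ∀ u ∈ D j, ∀ v ∈ D j', Cfsg.sympForm d F u v = 0)) ∧
        ∃ σ : Equiv.Perm (Fin t), ∀ j, (D j).map (Matrix.toLin' (x : Matrix (Fin d ⊕ Fin d) (Fin d ⊕ Fin d) F)) = D (σ j)) ↔
    (c ≤ a ∧ (2 * d) % c = t * (a % c)) := by
  classical
  subst hq
  have hr : r.Prime := Fact.out
  set B := stdB d F with hBdef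
  have hBA : B.IsAlt := stdB_isAlt d
  have hBS : B.SeparatingLeft := (stdB_nondegenerate d).1
  have hfin : finrank F (Fin d ⊕ Fin d → F) = 2 * d := by rw [finrank_pi, card_sum_fin]
  obtain ⟨b, hb⟩ := hae.two_dvd
  have hc' : SympStep.cOf (orderOf (Fintype.card F : ZMod r)) = c := by rw [hc, SympStep.cOf, hi]
  have hrq : ¬ r ∣ Fintype.card F := fun h => by
    obtain ⟨e, -, he⟩ := FiniteField.card F p
    rw [he] at h
    exact hrp ((Nat.prime_dvd_prime_iff_eq hr Fact.out).1 (hr.dvd_of_dvd_pow h))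
  have hq0 : (Fintype.card F : ZMod r) ≠ 0 := fun h => hrq ((ZMod.natCast_eq_zero_iff _ r).1 h)
  have hidvd : i ∣ r - 1 := hi ▸ orderOf_dvd_of_pow_eq_one (ZMod.pow_card_sub_one_eq_one hq0)
  obtain ⟨r', hr'⟩ := hr.odd_of_ne_two hr2
  have hlift : ∀ m, Even m → i ∣ m → c ∣ m := fun m hm him => by
    rw [hc]
    split_ifs with he
    · exact him
    · exact (Nat.coprime_two_left.2 (Nat.not_even_iff_odd.1 he)).mul_dvd_of_dvd_of_dvd hm.two_dvd him
  have hcr : c ∣ r - 1 := hlift _ ⟨r', by omega⟩ hidvd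
  have hr3 : 3 ≤ r := by have := hr.two_le; omega
  have hc0 : 0 < c := Nat.pos_of_dvd_of_pos hcr (by omega)
  have hcle : c ≤ r - 1 := Nat.le_of_dvd (by omega) hcr
  obtain ⟨m, hm⟩ : ∃ m, c = 2 * m := (hc' ▸ SympStep.cOf_even _ : Even c).two_dvd
  have hndm : 2 * d = c * (2 * d / c) + 2 * d % c := (Nat.div_add_mod _ c).symm
  have hadm : a = c * (a / c) + a % c := (Nat.div_add_mod a c).symm
  have hkc : 2 * d % c < c := Nat.mod_lt _ hc0
  have hsplit : 2 * d = t * (a % c) + c * (t * (a / c)) := by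
    rw [hat]
    conv_lhs => rw [hadm]
    ring
  -- invariant blocks
  have hblocks : ∀ {y : Module.End F (Fin d ⊕ Fin d → F)}, SympStep.Setting B y r p →
      ∀ (C₀ R₀ : Submodule F (Fin d ⊕ Fin d → F)) (u : ℕ), C₀ ≤ SympStep.fixedSpace y → SympStep.Nd B C₀ →
      Inv y R₀ → SympStep.Nd B R₀ → R₀ ⊓ SympStep.fixedSpace y = ⊥ → finrank F R₀ = u * c →
      finrank F C₀ + finrank F R₀ = 2 * d → C₀ ⊔ R₀ = ⊤ → u ≤ t * (a / c) →
      ∃ D : Fin t → Submodule F (Fin d ⊕ Fin d → F), IsOrth d a D ∧ ∀ j, ∀ v ∈ D j, y v ∈ D j := by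
    intro y S C₀ R₀ u h1 h2 h3 h4 h5 h6 h7 h8 h9
    obtain ⟨D, hD, hDo, hDs⟩ := SympStep.exists_blocks S b t C₀ R₀ u h1 h2 h3 h4 h5 (by rw [hc', h6])
      (by rw [h7, hat, hb, mul_comm]) (by rw [hc', ← hb]; exact h9)
    refine ⟨D, isOrth_iff.2 ⟨Decomp.of_span ht (by omega) (fun j => by rw [(hD j).2.2.2, ← hb])
      (by rw [card_sum_fin, hat]) (eq_top_iff.2 (h8 ▸ hDs)), fun j => (hD j).2.2.1, hDo⟩, fun j => (hD j).2.1⟩
  constructor
  · intro hall
    -- the symplectic group moves decompositions transitively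
    have hcn : c ≤ 2 * d := by
      have hne : ∃ D : Fin t → Submodule F (Fin d ⊕ Fin d → F), IsOrth d a D := by
        have hfix : (⊤ : Submodule F (Fin d ⊕ Fin d → F)) ≤ SympStep.fixedSpace (1 : Module.End F (Fin d ⊕ Fin d → F)) :=
          fun v _ => SympStep.mem_fixed.2 rfl
        obtain ⟨D, hD, -⟩ := hblocks (y := 1) ⟨hBA, hBS, fun _ _ => rfl, fun v => by rw [one_pow]; rfl, hrp, hr2⟩
          ⊤ ⊥ 0 hfix (SympStep.nd_top hBS) (fun v hv => by simpa using hv) SympStep.nd_bot (bot_inf_eq _)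
          (by simp) (by simp [hfin]) (by simp) (Nat.zero_le _)
        exact ⟨D, hD⟩
      have hG : r ∣ Nat.card (Matrix.symplecticGroup (Fin d) F) := by
        refine Decomp.dvd_card_group (toEquiv d F) (IsOrth d a) (fun _ h => h.1)
          (fun D π h => ⟨Decomp.comp_perm h.1 π, fun j => h.2.1 (π j), fun j j' hne => h.2.2 _ _ fun he => hne (π.injective he)⟩)
          (fun D g h => isOrth_map g h) exists_move hne hΩ
      rw [Cfsg.Agent.Lib.Classical.card_symplecticGroup] at hG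
      rcases hr.dvd_mul.1 hG with h | h
      · exact absurd (hr.dvd_of_dvd_pow h) hrq
      obtain ⟨j, hjd, hj⟩ := (Prime.dvd_finsetProd_iff (Nat.prime_iff.1 hr) _).1 h
      rw [← ZMod.natCast_eq_zero_iff, Nat.cast_sub (Nat.one_le_pow _ _ Fintype.card_pos), sub_eq_zero,
        Nat.cast_pow, Nat.cast_one] at hj
      have := Nat.le_of_dvd (by omega) (hlift _ (even_two_mul _) (hi ▸ orderOf_dvd_of_pow_eq_one hj))
      rw [Finset.mem_range] at hjd
      omega
    -- test elements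
    have test : ∀ u k : ℕ, 2 * d = u * c + k → k < 2 * d →
        ∃ (y : Module.End F (Fin d ⊕ Fin d → F)) (D : Fin t → Submodule F (Fin d ⊕ Fin d → F)) (σ : Equiv.Perm (Fin t)),
          SympStep.Setting B y r p ∧ IsOrth d a D ∧ (∀ j, (D j).map y = D (σ j)) ∧
          finrank F (SympStep.fixedSpace y) = k := by
      intro u k huk hk
      obtain ⟨s, hs⟩ : ∃ s, k = 2 * s := by
        refine ⟨d - u * m, ?_⟩
        rw [hm, ← mul_assoc, mul_comm u 2, mul_assoc] at huk
        omega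
      obtain ⟨A, hA, hAk⟩ := SympStep.exists_elt (F := F) (r := r) hrp hr2 (d := d) (u := u) (s := s)
        (by rw [hc', ← hs]; exact huk)
      have hA' : Matrix.toLin' (A : Matrix (Fin d ⊕ Fin d) (Fin d ⊕ Fin d) F) ^ r = 1 := LinearMap.ext hA
      have hAr : A ^ r = 1 := Subtype.ext (Matrix.toLin'.injective (by
        rw [SubmonoidClass.coe_pow, Matrix.toLin'_pow, hA', Submonoid.coe_one, Matrix.toLin'_one]; rfl))
      obtain ⟨D, hD, σ, hσ⟩ := hall A ⟨1, by rw [hAr, one_smul]; rfl⟩ fun z hz => by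
        have hz2 := sq_eq_one (by omega) hz
        have hzr : z ^ r = 1 := by
          have := congrArg (fun T : Matrix (Fin d ⊕ Fin d) (Fin d ⊕ Fin d) F => T (Sum.inl ⟨0, by omega⟩) (Sum.inl ⟨0, by omega⟩))
            (congrArg Subtype.val hAr)
          simpa [hz, Matrix.one_apply, _root_.smul_pow] using this
        have hz1 : z = 1 := by
          rwa [hr', pow_add, pow_mul, pow_two, hz2, one_pow, pow_one, one_mul] at hzr
        rw [hz, hz1, one_smul, Matrix.toLin'_one, one_smul, sub_self, LinearMap.ker_zero, finrank_top, hfin] at hAk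
        omega
      refine ⟨Matrix.toLin' (A : Matrix (Fin d ⊕ Fin d) (Fin d ⊕ Fin d) F), D, σ,
        ⟨hBA, hBS, fun u v => ?_, hA, hrp, hr2⟩, hD, hσ, ?_⟩
      · rw [Matrix.toLin'_apply, Matrix.toLin'_apply]
        exact stdB_mulVec A u v
      · rw [hs]
        exact hAk
    -- fixed summands
    have fixdim : ∀ {y : Module.End F (Fin d ⊕ Fin d → F)} {D : Fin t → Submodule F (Fin d ⊕ Fin d → F)} {σ : Equiv.Perm (Fin t)},
        SympStep.Setting B y r p → IsOrth d a D → (∀ j, (D j).map y = D (σ j)) → ∀ j, σ j = j →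
          ∃ u, a = finrank F (D j ⊓ SympStep.fixedSpace y : Submodule F (Fin d ⊕ Fin d → F)) + u * c := by
      intro y D σ S hD hσ j hj
      obtain ⟨-, X, u, -, -, -, -, -, hXd, hWd⟩ := SympStep.exists_nd_eq S (W := D j) (fun v hv => by
        have := Submodule.mem_map_of_mem (f := y) hv
        rwa [hσ, hj] at this) ((isOrth_iff.1 hD).2.1 j)
      rw [hD.1.finrank_eq, hXd, hc'] at hWd
      exact ⟨u, hWd⟩
    obtain ⟨y, D, σ, S, hD, hσ, hk⟩ := test 1 (2 * d - c) (by omega) (by omega)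
    have hyr : y ^ r = 1 := LinearMap.ext S.pow
    have hfixed : ∀ j, σ j = j := fun j => by
      by_contra hj
      obtain ⟨-, h2⟩ := Decomp.moved_bound hD.1 hσ hyr hj
      change finrank F (SympStep.fixedSpace y) + _ ≤ _ at h2
      rw [hk, card_sum_fin] at h2
      have : 2 * (r - 1) ≤ a * (r - 1) := Nat.mul_le_mul_right _ ha
      omega
    have hca : c ≤ a := by
      by_contra hac
      have htop : (⊤ : Submodule F (Fin d ⊕ Fin d → F)) ≤ SympStep.fixedSpace y := by
        rw [← hD.1.iSup_eq_top]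
        refine iSup_le fun j => ?_
        obtain ⟨u, hu⟩ := fixdim S hD hσ j (hfixed j)
        obtain rfl : u = 0 := by
          by_contra hu0
          have := Nat.le_mul_of_pos_left c (Nat.pos_of_ne_zero hu0)
          omega
        exact inf_eq_left.1 (Submodule.eq_of_le_of_finrank_le inf_le_left (by rw [hD.1.finrank_eq]; omega))
      have := Submodule.finrank_mono htop
      rw [finrank_top, hfin, hk] at this
      omega
    refine ⟨hca, ?_⟩
    obtain ⟨y, D, σ, S, hD, hσ, hk⟩ := test (2 * d / c) (2 * d % c) (by rw [mul_comm (2 * d / c)]; exact hndm) (by omega)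
    have hyr : y ^ r = 1 := LinearMap.ext S.pow
    have hfixed : ∀ j, σ j = j := fun j => by
      by_contra hj
      obtain ⟨h1, -⟩ := Decomp.moved_bound hD.1 hσ hyr hj
      change _ ≤ finrank F (SympStep.fixedSpace y) at h1
      omega
    have hge : t * (a % c) ≤ 2 * d % c := by
      rw [← hk]
      refine le_trans ?_ (Decomp.sum_inf_le hD.1 _)
      rw [← show ∑ _j : Fin t, a % c = t * (a % c) by simp]
      refine Finset.sum_le_sum fun j _ => ?_
      obtain ⟨u, hu⟩ := fixdim S hD hσ j (hfixed j)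
      conv_lhs => rw [hu, Nat.add_mul_mod_self_right]
      exact Nat.mod_le _ _
    conv_lhs => rw [hsplit, Nat.add_mul_mod_self_left, Nat.mod_eq_of_lt (lt_of_le_of_lt hge hkc)]
  · rintro ⟨-, hk⟩ x ⟨z, hz⟩ -
    set X := Matrix.toLin' (x : Matrix (Fin d ⊕ Fin d) (Fin d ⊕ Fin d) F) with hX
    have hz2 := sq_eq_one (by omega) hz
    have hXr : ∀ v, (X ^ r) v = z • v := fun v => by
      rw [hX, ← Matrix.toLin'_pow, ← SubmonoidClass.coe_pow, hz, map_smul, Matrix.toLin'_one]
      rfl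
    set y : Module.End F (Fin d ⊕ Fin d → F) := z • X with hy
    have hyv : ∀ v, y v = z • X v := fun v => rfl
    have hXy : ∀ v, X v = z • y v := fun v => by rw [hyv, smul_smul, hz2, one_smul]
    have S : SympStep.Setting B y r p := ⟨hBA, hBS, fun u v => by
        rw [hyv, hyv, map_smul, map_smul, LinearMap.smul_apply, smul_eq_mul, smul_eq_mul, ← mul_assoc, hz2, one_mul]
        exact stdB_mulVec x u v,
      fun v => by
        rw [hy, _root_.smul_pow, LinearMap.smul_apply, hXr, smul_smul, ← pow_succ, hr',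
          show 2 * r' + 1 + 1 = 2 * (r' + 1) by ring, pow_mul, pow_two, hz2, one_pow, one_smul], hrp, hr2⟩
    obtain ⟨hCn, R, u, hR, -, hRC, hRn, hsup, hRd, hdim⟩ :=
      SympStep.exists_nd_eq S (W := ⊤) (fun _ _ => trivial) (SympStep.nd_top hBS)
    rw [hc'] at hRd
    rw [finrank_top, hfin] at hdim
    have hu : u ≤ t * (a / c) := by
      by_contra hlt
      have h3 : c * (t * (a / c) + 1) ≤ c * u := Nat.mul_le_mul_left c (by omega)
      rw [mul_add, mul_one, mul_comm c u] at h3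
      omega
    obtain ⟨D, hD, hDi⟩ := hblocks S _ R u inf_le_right hCn hR hRn hRC hRd hdim.symm hsup hu
    refine ⟨D, hD, 1, map_eq_of_le hD.1 (fun u v h => ?_) fun j v hv => ?_⟩
    · have := congrArg (Matrix.toLin' ((x⁻¹ : Matrix.symplecticGroup (Fin d) F) : Matrix (Fin d ⊕ Fin d) (Fin d ⊕ Fin d) F)) h
      rwa [hX, ← LinearMap.comp_apply, ← LinearMap.comp_apply, ← Matrix.toLin'_mul, ← Submonoid.coe_mul,
        inv_mul_cancel, Submonoid.coe_one, Matrix.toLin'_one] at this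
    · rw [hXy]
      exact (D j).smul_mem z (hDi j v hv)

end Cfsg.Agent.S5961
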