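import Cfsg.Statements.S5962
import Cfsg.Agent.Lib.Perm.InvolBlocks
import Cfsg.Agent.Lib.Forms.Symplectic

set_option autoImplicit false
open Cfsg

namespace Cfsg.Agent.S5962

open Cfsg.Agent.Lib.Perm.InvolDecomp

/-- The bilinear form and the linear map of a symplectic matrix. -/
theorem setup {F : Type*} [Field F] {d : ℕ} (hd : 0 < d) (x : ↥(Matrix.symplecticGroup (Fin d) F)) {z : F}
    (hx1 : ((x ^ 2 : ↥(Matrix.symplecticGroup (Fin d) F)) : Matrix (Fin d ⊕ Fin d) (Fin d ⊕ Fin d) F) = z • (1 : Matrix (Fin d ⊕ Fin d) (Fin d ⊕ Fin d) F)) :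
    let g := Matrix.toLin' (x : Matrix (Fin d ⊕ Fin d) (Fin d ⊕ Fin d) F)
    let B := Cfsg.Agent.Lib.Forms.stdB d F
    (∀ v, g (g v) = z • v) ∧ (z = 1 ∨ z = -1) ∧ Function.Injective g ∧
      ∀ u v, B (g u) (g v) = B u v := by
  intro g B
  have hg : ∀ v, g (g v) = z • v := fun v => by
    show Matrix.toLin' _ (Matrix.toLin' _ v) = _
    rw [← LinearMap.comp_apply, ← Matrix.toLin'_mul, ← pow_two,
      show (x : Matrix (Fin d ⊕ Fin d) (Fin d ⊕ Fin d) F) ^ 2 = _ from hx1, map_smul,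
      Matrix.toLin'_one, LinearMap.smul_apply, LinearMap.id_apply]
  have hiso : ∀ u v, B (g u) (g v) = B u v := fun u v => by
    have h : (x : Matrix (Fin d ⊕ Fin d) (Fin d ⊕ Fin d) F) ∈ Matrix.symplecticGroup (Fin d) F := x.2
    have h' := (SymplecticGroup.mem_iff'.1 h)
    simp only [B, g, Cfsg.Agent.Lib.Forms.stdB_apply, Cfsg.sympForm, Matrix.toLin'_apply]
    rw [Matrix.mulVec_mulVec, Matrix.dotProduct_mulVec, Matrix.vecMul_mulVec, ← mul_assoc, h',
      ← Matrix.dotProduct_mulVec]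
  obtain ⟨u, hu⟩ : ∃ u : Fin d ⊕ Fin d → F, u ≠ 0 :=
    ⟨Pi.single (Sum.inl ⟨0, hd⟩) 1, fun h => by
      have := congrFun h (Sum.inl ⟨0, hd⟩)
      simp at this⟩
  obtain ⟨v, hv⟩ : ∃ v, B u v ≠ 0 := by
    by_contra h
    push Not at h
    exact hu ((Cfsg.Agent.Lib.Forms.stdB_nondegenerate d).1 u h)
  have hzz : z * z = 1 := by
    have h := (hiso (g u) (g v)).trans (hiso u v)
    simp only [hg, map_smul, LinearMap.smul_apply, smul_eq_mul, ← mul_assoc] at h
    exact mul_eq_right₀ hv |>.1 h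
  refine ⟨hg, mul_self_eq_one_iff.1 hzz, fun p q hpq => ?_, hiso⟩
  have := congrArg g hpq
  rw [hg, hg] at this
  exact smul_right_injective _ (fun h : z = 0 => by simp [h] at hzz) this

/-- Involutions of PSp_n(q), q odd, and the subgroups GL_{n/2}(q).2. Here `T = PSp_n(q)`, `n = 2d ≥ 4`, `q` odd, realised through the symplectic matrices over the field `F` with `q` elements; Ω is the set of unordered pairs `{U, W}` of complementary totally isotropic `d`-spaces (`F^n = U ⊕ W`), whose stabilizers are the subgroups of type GL_d(q).2 (maximal except in some small cases; maximality is not assumed); an element of `T` of prime order `r` (a symplectic matrix `x` with `x^r` scalar, `x` not scalar) fixes such a pair when it fixes or interchanges `U` and `W`. If the number of such pairs is even, every involution of `T` fixes one of them (the action is 2-elusive). -/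
theorem result {F : Type*} [Field F] [Fintype F] {p : ℕ} [Fact p.Prime] [CharP F p] {q : ℕ} (hq : Fintype.card F = q)
    (d : ℕ) (hd : 2 ≤ d) (hT : (d, q) ≠ (2, 2)) (hodd : Odd q)
    (hΩ : 2 ∣ Nat.card {P : Submodule F (Fin d ⊕ Fin d → F) × Submodule F (Fin d ⊕ Fin d → F) // IsCompl P.1 P.2 ∧ (∀ u ∈ P.1, ∀ v ∈ P.1, Cfsg.sympForm d F u v = 0) ∧ (∀ u ∈ P.2, ∀ v ∈ P.2, Cfsg.sympForm d F u v = 0)} / 2)
    (x : ↥(Matrix.symplecticGroup (Fin d) F))
    (hx1 : ∃ z : F, ((x ^ 2 : ↥(Matrix.symplecticGroup (Fin d) F)) : Matrix (Fin d ⊕ Fin d) (Fin d ⊕ Fin d) F) = z • (1 : Matrix (Fin d ⊕ Fin d) (Fin d ⊕ Fin d) F))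
    (hx2 : ∀ z : F, (x : Matrix (Fin d ⊕ Fin d) (Fin d ⊕ Fin d) F) ≠ z • (1 : Matrix (Fin d ⊕ Fin d) (Fin d ⊕ Fin d) F)) :
    ∃ U W : Submodule F (Fin d ⊕ Fin d → F), IsCompl U W ∧ (∀ u ∈ U, ∀ v ∈ U, Cfsg.sympForm d F u v = 0) ∧ (∀ u ∈ W, ∀ v ∈ W, Cfsg.sympForm d F u v = 0) ∧
        ((U.map (Matrix.toLin' (x : Matrix (Fin d ⊕ Fin d) (Fin d ⊕ Fin d) F)) = U ∧ W.map (Matrix.toLin' (x : Matrix (Fin d ⊕ Fin d) (Fin d ⊕ Fin d) F)) = W) ∨
         (U.map (Matrix.toLin' (x : Matrix (Fin d ⊕ Fin d) (Fin d ⊕ Fin d) F)) = W ∧ W.map (Matrix.toLin' (x : Matrix (Fin d ⊕ Fin d) (Fin d ⊕ Fin d) F)) = U)) := by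
  classical
  have hqc := FiniteField.card F p
  obtain ⟨z, hz⟩ := hx1
  obtain ⟨hg, hz1, hinj, hiso⟩ := setup (show 0 < d by omega) x hz
  set g : (Fin d ⊕ Fin d → F) →ₗ[F] (Fin d ⊕ Fin d → F) :=
    Matrix.toLin' (x : Matrix (Fin d ⊕ Fin d) (Fin d ⊕ Fin d) F) with hgdef
  set B := Cfsg.Agent.Lib.Forms.stdB d F with hB
  have hA : B.IsAlt := Cfsg.Agent.Lib.Forms.stdB_isAlt d
  have hnd : B.Nondegenerate := Cfsg.Agent.Lib.Forms.stdB_nondegenerate d
  have h2 : (2 : F) ≠ 0 := by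
    intro h2
    have : CharP F 2 := CharTwo.of_one_ne_zero_of_two_eq_zero one_ne_zero h2
    have hp2 : p = 2 := CharP.eq F ‹CharP F p› this
    obtain ⟨k, -, hk⟩ := hqc
    rw [hq, hp2] at hk
    rw [hk] at hodd
    exact absurd hodd (Nat.not_odd_iff_even.2 ((Nat.even_pow).2 ⟨even_two, k.2.ne'⟩))
  obtain ⟨hsq, hnsq⟩ := hasStep_odd hA h2 hg hz1 hiso
  obtain ⟨E, hE, hstep⟩ : ∃ E : (Fin d ⊕ Fin d → F) → (Fin d ⊕ Fin d → F) → Prop,
      ((∀ u v, E u v → g u ∈ Submodule.span F {u} ∧ g v ∈ Submodule.span F {v}) ∨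
       (∀ u v, E u v → g u ∈ Submodule.span F {v} ∧ g v ∈ Submodule.span F {u})) ∧
      HasStep B g E := by
    by_cases hs : IsSquare z
    · exact ⟨_, Or.inl fun _ _ h => h, hsq hs⟩
    · exact ⟨_, Or.inr fun _ _ h => h, hnsq hs⟩
  obtain ⟨k, P, htop, hk⟩ := exists_planes hA hnd hinj hiso hstep
  set U := Submodule.span F (Set.range P.u)
  set W := Submodule.span F (Set.range P.v)
  have hli := P.linearIndependent hA
  have hliu : LinearIndependent F P.u ∧ LinearIndependent F P.v ∧ Disjoint U W := by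
    have h := linearIndependent_sum.1 hli
    exact h
  have hcompl : IsCompl U W := by
    refine ⟨hliu.2.2, codisjoint_iff.2 ?_⟩
    rw [← htop, Planes.sp, Submodule.span_union]
  have hiso0 : ∀ (w : Fin k → Fin d ⊕ Fin d → F), (∀ i j, B (w i) (w j) = 0) →
      ∀ u ∈ Submodule.span F (Set.range w), ∀ v ∈ Submodule.span F (Set.range w),
        Cfsg.sympForm d F u v = 0 := by
    intro w hw u hu v hv
    rw [← Cfsg.Agent.Lib.Forms.stdB_apply]
    refine Submodule.span_induction ?_ (by simp) (fun a b _ _ ha hb => by simp [ha, hb])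
      (fun r a _ ha => by simp [ha]) hu
    rintro _ ⟨i, rfl⟩
    refine Submodule.span_induction ?_ (by simp) (fun a b _ _ ha hb => by simp [ha, hb])
      (fun r a _ ha => by simp [ha]) hv
    rintro _ ⟨j, rfl⟩
    exact hw i j
  have hU := hiso0 P.u fun i j => by
    rcases eq_or_ne i j with rfl | h
    · exact hA.self_eq_zero _
    · exact (P.orth i j h).1
  have hW := hiso0 P.v fun i j => by
    rcases eq_or_ne i j with rfl | h
    · exact hA.self_eq_zero _
    · exact (P.orth i j h).2.2.2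
  have hmap : ∀ (w w' : Fin k → Fin d ⊕ Fin d → F), (∀ i, g (w i) ∈ Submodule.span F {w' i}) →
      (Submodule.span F (Set.range w)).map g ≤ Submodule.span F (Set.range w') := by
    intro w w' h
    rw [Submodule.map_span, Submodule.span_le]
    rintro _ ⟨_, ⟨i, rfl⟩, rfl⟩
    exact Submodule.span_mono (Set.singleton_subset_iff.2 (show w' i ∈ Set.range w' from ⟨i, rfl⟩)) (h i)
  have hdim : ∀ {X Y : Submodule F (Fin d ⊕ Fin d → F)}, X.map g ≤ Y →
      Module.finrank F X = Module.finrank F Y → X.map g = Y := fun {X Y} h h' =>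
    Submodule.eq_of_le_of_finrank_le h (by
      rw [← h']; exact le_of_eq (LinearEquiv.finrank_eq (Submodule.equivMapOfInjective g hinj X)))
  have hUW : Module.finrank F U = Module.finrank F W := by
    exact (finrank_span_eq_card hliu.1).trans (finrank_span_eq_card hliu.2.1).symm
  refine ⟨U, W, hcompl, hU, hW, ?_⟩
  rcases hE with hE | hE
  · exact Or.inl ⟨hdim (hmap _ _ fun i => (hE _ _ (P.prop i)).1) rfl,
      hdim (hmap _ _ fun i => (hE _ _ (P.prop i)).2) rfl⟩
  · exact Or.inr ⟨hdim (hmap _ _ fun i => (hE _ _ (P.prop i)).1) hUW,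
      hdim (hmap _ _ fun i => (hE _ _ (P.prop i)).2) hUW.symm⟩

end Cfsg.Agent.S5962
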