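import Cfsg.Statements.S5963
import Cfsg.Agent.Lib.Elusive.SympModels
import Cfsg.Agent.Lib.Elusive.LagrangeCount

set_option autoImplicit false
open scoped MatrixGroups
open Cfsg
open Cfsg.Agent.Lib.Elusive

namespace Cfsg.Agent.S5963

/-- Derangements of odd prime order of PSp_n(q), q odd, on pairs of complementary totally isotropic subspaces. Here `T = PSp_n(q)`, `n = 2d ≥ 4`, `q` odd, realised through the symplectic matrices over the field `F` with `q` elements; Ω is the set of unordered pairs `{U, W}` of complementary totally isotropic `d`-spaces (`F^n = U ⊕ W`), whose stabilizers are the subgroups of type GL_d(q).2 (maximal except in some small cases; maximality is not assumed); an element of `T` of prime order `r` (a symplectic matrix `x` with `x^r` scalar, `x` not scalar) fixes such a pair when it fixes or interchanges `U` and `W`. For every odd prime `r ≠ p` dividing the number of such pairs, some element of `T` of order `r` fixes no such pair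 (the action is never `r`-elusive for odd `r ≠ p`). -/
theorem result {F : Type*} [Field F] [Fintype F] {p : ℕ} [Fact p.Prime] [CharP F p] {q : ℕ} (hq : Fintype.card F = q)
    (d : ℕ) (hd : 2 ≤ d) (hT : (d, q) ≠ (2, 2)) (hodd : Odd q)
    (r : ℕ) [Fact r.Prime] (hr2 : r ≠ 2) (hrp : r ≠ p) (hΩ : r ∣ Nat.card {P : Submodule F (Fin d ⊕ Fin d → F) × Submodule F (Fin d ⊕ Fin d → F) // IsCompl P.1 P.2 ∧ (∀ u ∈ P.1, ∀ v ∈ P.1, Cfsg.sympForm d F u v = 0) ∧ (∀ u ∈ P.2, ∀ v ∈ P.2, Cfsg.sympForm d F u v = 0)} / 2) :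
    ∃ x : ↥(Matrix.symplecticGroup (Fin d) F),
      (∃ z : F, ((x ^ r : ↥(Matrix.symplecticGroup (Fin d) F)) : Matrix (Fin d ⊕ Fin d) (Fin d ⊕ Fin d) F) = z • (1 : Matrix (Fin d ⊕ Fin d) (Fin d ⊕ Fin d) F)) ∧
      (∀ z : F, (x : Matrix (Fin d ⊕ Fin d) (Fin d ⊕ Fin d) F) ≠ z • (1 : Matrix (Fin d ⊕ Fin d) (Fin d ⊕ Fin d) F)) ∧
      ¬ (∃ U W : Submodule F (Fin d ⊕ Fin d → F), IsCompl U W ∧ (∀ u ∈ U, ∀ v ∈ U, Cfsg.sympForm d F u v = 0) ∧ (∀ u ∈ W, ∀ v ∈ W, Cfsg.sympForm d F u v = 0) ∧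
        ((U.map (Matrix.toLin' (x : Matrix (Fin d ⊕ Fin d) (Fin d ⊕ Fin d) F)) = U ∧ W.map (Matrix.toLin' (x : Matrix (Fin d ⊕ Fin d) (Fin d ⊕ Fin d) F)) = W) ∨
         (U.map (Matrix.toLin' (x : Matrix (Fin d ⊕ Fin d) (Fin d ⊕ Fin d) F)) = W ∧ W.map (Matrix.toLin' (x : Matrix (Fin d ⊕ Fin d) (Fin d ⊕ Fin d) F)) = U))) := by
  classical
  subst hq
  obtain ⟨s, hs⟩ := card_lagrange_pairs (F := F) (d := d)
  have hdvd : r ∣ Nat.card {P : Submodule F (Fin d ⊕ Fin d → F) × Submodule F (Fin d ⊕ Fin d → F) //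
      IsCompl P.1 P.2 ∧ TI P.1 ∧ TI P.2} := by
    refine dvd_trans hΩ (Nat.div_dvd_of_dvd ?_)
    show 2 ∣ Nat.card {P : Submodule F (Fin d ⊕ Fin d → F) × Submodule F (Fin d ⊕ Fin d → F) //
      IsCompl P.1 P.2 ∧ TI P.1 ∧ TI P.2}
    rw [hs]
    refine dvd_mul_of_dvd_left ((dvd_trans ?_ (Finset.dvd_prod_of_mem _ (Finset.mem_range.2 (show 0 < d by omega))))) _
    exact (Odd.add_odd hodd.pow odd_one).two_dvd
  have hr : r.Prime := Fact.out
  obtain ⟨f, -, hf⟩ := FiniteField.card F p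
  have hq0 : (Fintype.card F : ZMod r) ≠ 0 := by
    rw [hf, Nat.cast_pow]
    refine pow_ne_zero _ fun h => hrp ?_
    exact (Nat.prime_dvd_prime_iff_eq hr Fact.out).1 ((ZMod.natCast_eq_zero_iff p r).1 h)
  rw [hs] at hdvd
  obtain ⟨j, hj, hjd⟩ : ∃ j < d, r ∣ Fintype.card F ^ (d - j) + 1 := by
    rcases hr.dvd_mul.1 hdvd with h | h
    · obtain ⟨j, hj, hjd⟩ := (Prime.dvd_finsetProd_iff (Nat.prime_iff.1 hr) _).1 h
      exact ⟨j, Finset.mem_range.1 hj, hjd⟩
    · exact absurd ((ZMod.natCast_eq_zero_iff _ _).2 (hr.dvd_of_dvd_pow h)) hq0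
  set m := d - j
  have hneg : (Fintype.card F : ZMod r) ^ m = -1 := by
    have h := (ZMod.natCast_eq_zero_iff _ _).2 hjd
    push_cast at h
    exact eq_neg_of_add_eq_zero_left h
  obtain ⟨b, hb, hbd⟩ : ∃ b, orderOf (Fintype.card F : ZMod r) = 2 * b ∧ b ≤ d := by
    set i := orderOf (Fintype.card F : ZMod r)
    have hdvd2 : i ∣ 2 * m := orderOf_dvd_of_pow_eq_one (by rw [mul_comm, pow_mul, hneg, neg_one_sq])
    have hev : Even i := by
      by_contra hno
      rw [Nat.not_even_iff_odd] at hno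
      have hco : Nat.Coprime i 2 := Nat.coprime_two_right.2 hno
      have h1 : (Fintype.card F : ZMod r) ^ m = 1 := orderOf_dvd_iff_pow_eq_one.1 (hco.dvd_of_dvd_mul_left hdvd2)
      rw [hneg] at h1
      haveI : Fact (2 < r) := ⟨lt_of_le_of_ne hr.two_le (Ne.symm hr2)⟩
      exact ZMod.neg_one_ne_one h1
    obtain ⟨b, hb⟩ := hev
    refine ⟨b, by omega, ?_⟩
    have := Nat.le_of_dvd (by omega) hdvd2
    omega
  obtain ⟨A, hA, hk⟩ := exists_symp_elt (F := F) hrp hr2 hb (d := d) (t := 1) (s := d - b) (by omega)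
  set X : Module.End F (Fin d ⊕ Fin d → F) := Matrix.toLin' (A : Matrix (Fin d ⊕ Fin d) (Fin d ⊕ Fin d) F) with hX
  have hApow : ∀ (l : ℕ), Matrix.toLin' ((A ^ l : ↥(Matrix.symplecticGroup (Fin d) F)) : Matrix (Fin d ⊕ Fin d) (Fin d ⊕ Fin d) F) = X ^ l := fun l => by
    rw [SubmonoidClass.coe_pow, Matrix.toLin'_pow]
  have hbpos : 0 < b := by
    have := orderOf_pos_iff.2 (isOfFinOrder_iff_pow_eq_one.2 ⟨r - 1, by have := hr.two_le; omega,
      ZMod.pow_card_sub_one_eq_one hq0⟩)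
    omega
  refine ⟨A, ⟨1, ?_⟩, fun z hz => ?_, ?_⟩
  · refine Matrix.toLin'.injective (LinearMap.ext fun v => ?_)
    rw [hApow, hA, one_smul, Matrix.toLin'_one]
    rfl
  · have hXz : X = z • LinearMap.id := by rw [hX, hz, map_smul, Matrix.toLin'_one]
    by_cases h1 : z = 1
    · rw [hXz, h1, sub_self, LinearMap.ker_zero, finrank_top, Module.finrank_pi, Fintype.card_sum,
        Fintype.card_fin] at hk
      omega
    · let e₀ : Fin d ⊕ Fin d → F := Pi.single (Sum.inl ⟨0, by omega⟩) 1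
      let e₁ : Fin d ⊕ Fin d → F := Pi.single (Sum.inr ⟨0, by omega⟩) 1
      have h := Cfsg.Agent.Lib.Classical.sp_iso d A e₀ e₁
      rw [← Matrix.toLin'_apply, ← Matrix.toLin'_apply, ← hX, hXz] at h
      simp only [LinearMap.smul_apply, LinearMap.id_apply, map_smul, smul_eq_mul] at h
      have hne : Cfsg.Agent.Lib.Forms.stdB d F e₀ e₁ ≠ 0 := by
        rw [Cfsg.Agent.Lib.Forms.stdB_apply]
        simp [e₀, e₁, Cfsg.sympForm, Matrix.J, Matrix.mulVec_single_one]
      rw [← mul_assoc] at h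
      have hz2 : z ^ 2 = 1 := by rw [sq]; exact mul_right_cancel₀ hne (h.trans (one_mul _).symm)
      have hzr : z ^ r = 1 := by
        have h' := congrFun (hA e₀) (Sum.inl ⟨0, by omega⟩)
        rw [hXz, _root_.smul_pow, ← Module.End.one_eq_id, one_pow] at h'
        simpa [e₀] using h'
      have := pow_gcd_eq_one.2 ⟨hz2, hzr⟩
      rw [((Nat.coprime_primes Nat.prime_two hr).2 (Ne.symm hr2)).gcd_eq_one, pow_one] at this
      exact h1 this
  rintro ⟨U, W, hc, hU, hW, hcase⟩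
  obtain ⟨hUi, hWi⟩ : Inv X U ∧ Inv X W := by
    rcases hcase with ⟨h1, h2⟩ | ⟨h1, h2⟩
    · exact ⟨inv_iff_map_le.2 h1.le, inv_iff_map_le.2 h2.le⟩
    · exfalso
      have key : ∀ l, (U.map (X ^ (2 * l + 1))) = W := by
        intro l
        induction l with
        | zero => rw [mul_zero, zero_add, pow_one, hX, h1]
        | succ l ih =>
          rw [show 2 * (l + 1) + 1 = (2 * l + 1) + 1 + 1 by ring, pow_succ', pow_succ',
            Module.End.mul_eq_comp, Module.End.mul_eq_comp, Submodule.map_comp, Submodule.map_comp, ih,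
            hX, h2, h1]
      obtain ⟨l, hl⟩ := hr.odd_of_ne_two hr2
      have h := key l
      rw [← hl, show X ^ r = 1 from LinearMap.ext hA, Module.End.one_eq_id, Submodule.map_id] at h
      have hbot := hc.inf_eq_bot
      have htop := hc.sup_eq_top
      rw [← h, inf_idem] at hbot
      rw [← h, sup_idem, hbot] at htop
      haveI : Nonempty (Fin d ⊕ Fin d) := ⟨Sum.inl ⟨0, by omega⟩⟩
      exact bot_ne_top htop
  obtain ⟨R, hS⟩ := step_pow (x := X) (r := r) hrp (one_ne_zero (α := F)) (by simpa using hA)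
  rw [Nat.card_eq_fintype_card, hb] at hS
  set C := LinearMap.ker (X - (1 : F) • LinearMap.id) with hC
  have key : ∀ T : Submodule F (Fin d ⊕ Fin d → F), Inv X T → TI T → T ≤ C := by
    intro T hT hTI
    obtain ⟨T', hT', hT'T, hsup, hdim⟩ := hS.compl_in (hS.eig _ (inf_le_right : T ⊓ C ≤ C)) hT inf_le_left
    have hT'C : T' ⊓ C = ⊥ := by
      have h1 := Submodule.finrank_sup_add_finrank_inf_eq (T ⊓ C) T'
      rw [hsup] at h1
      have h2 : (T ⊓ C) ⊓ T' = ⊥ := Submodule.finrank_eq_zero.1 (by omega)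
      rw [eq_bot_iff, ← h2]
      exact le_inf (le_inf (inf_le_left.trans hT'T) inf_le_right) inf_le_left
    rcases eq_or_ne T' ⊥ with hbot | hne
    · rw [← hsup, hbot, sup_bot_eq]; exact inf_le_right
    exfalso
    obtain ⟨L, -, hLT', hLd⟩ := hS.small T' hT' hT'C hne
    have hfull : T' ⊔ C = ⊤ := by
      refine Submodule.eq_top_of_finrank_eq ?_
      have h1 := Submodule.finrank_sup_add_finrank_inf_eq T' C
      rw [hT'C, finrank_bot, add_zero, hk] at h1
      have h2 := Submodule.finrank_le (T' ⊔ C)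
      have h3 := Submodule.finrank_mono hLT'
      rw [hLd] at h3
      rw [Module.finrank_pi, Fintype.card_sum, Fintype.card_fin] at h2 ⊢
      omega
    have hT'TI : TI T' := fun u hu v hv => hTI u (hT'T hu) v (hT'T hv)
    -- `T'` is orthogonal to the fixed space
    let y : T' →ₗ[F] T' := X.restrict hT' - LinearMap.id
    have hy : Function.Surjective y := by
      refine LinearMap.injective_iff_surjective.1 ?_
      rw [← LinearMap.ker_eq_bot, LinearMap.ker_eq_bot']
      intro v hv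
      have hvC : (v : Fin d ⊕ Fin d → F) ∈ C := by
        rw [hC, LinearMap.mem_ker, LinearMap.sub_apply, one_smul, LinearMap.id_apply]
        exact congrArg Subtype.val hv
      exact Subtype.ext ((Submodule.mem_bot F).1 (hT'C ▸ ⟨v.2, hvC⟩))
    have horth : ∀ t ∈ T', ∀ c ∈ C, Cfsg.Agent.Lib.Forms.stdB d F c t = 0 := by
      intro t ht c hc'
      obtain ⟨u, hu⟩ := hy ⟨t, ht⟩
      have hu' : X u - (u : Fin d ⊕ Fin d → F) = t := congrArg Subtype.val hu
      have hcX : X c = c := by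
        have := hc'
        rwa [hC, LinearMap.mem_ker, LinearMap.sub_apply, one_smul, LinearMap.id_apply, sub_eq_zero] at this
      have hiso := Cfsg.Agent.Lib.Classical.sp_iso d A c u
      rw [← Matrix.toLin'_apply, ← Matrix.toLin'_apply, ← hX, hcX] at hiso
      rw [← hu', map_sub, hiso, sub_self]
    obtain ⟨t, ht, ht0⟩ := Submodule.exists_mem_ne_zero_of_ne_bot hne
    refine ht0 ((Cfsg.Agent.Lib.Forms.stdB_nondegenerate d).2 t fun v => ?_)
    obtain ⟨a, ha, c, hc', rfl⟩ := Submodule.mem_sup.1 (hfull ▸ Submodule.mem_top (x := v))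
    rw [map_add, LinearMap.add_apply, horth t ht c hc', add_zero, Cfsg.Agent.Lib.Forms.stdB_apply]
    exact hT'TI a ha t ht
  have htop : C = ⊤ := top_le_iff.1 (hc.sup_eq_top ▸ sup_le (key U hUi hU) (key W hWi hW))
  rw [htop, finrank_top, Module.finrank_pi, Fintype.card_sum, Fintype.card_fin] at hk
  omega

end Cfsg.Agent.S5963
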