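import Cfsg.Statements.S5964
import Cfsg.Agent.Lib.Elusive.SubfieldModel
import Cfsg.Agent.Lib.Elusive.SubfieldArith
import Cfsg.Agent.Lib.Classical.Order

set_option autoImplicit false
open scoped MatrixGroups
open Cfsg
open Cfsg.Agent.Lib.Elusive Cfsg.Agent.Lib.Jordan

namespace Cfsg.Agent.S5964

open Module
open scoped Matrix

variable {F : Type*} [Field F] [Fintype F] {F₀ : Subfield F}

theorem index_odd {n k : ℕ} (hn : 0 < n) (hk : Odd k) (hqk : Fintype.card F = Nat.card F₀ ^ k)
    (hodd : Odd (Nat.card F₀)) :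
    ¬ 2 ∣ ((Cfsg.Geo.subfieldSubgroup F₀ 1).comap (Matrix.SpecialLinearGroup.toGL : Matrix.SpecialLinearGroup (Fin n) F →* GL (Fin n) F)).index := by
  classical
  haveI : Nonempty (Fin n) := ⟨⟨0, hn⟩⟩
  haveI := Fintype.ofFinite F₀
  set H := (Cfsg.Geo.subfieldSubgroup F₀ 1).comap (Matrix.SpecialLinearGroup.toGL : Matrix.SpecialLinearGroup (Fin n) F →* GL (Fin n) F)
  let φ : Matrix.SpecialLinearGroup (Fin n) F₀ →* Matrix.SpecialLinearGroup (Fin n) F :=
    Matrix.SpecialLinearGroup.map F₀.subtype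
  have hφ : Function.Injective φ := fun a b h => by
    refine Subtype.ext (Matrix.map_injective Subtype.val_injective ?_)
    exact congrArg Subtype.val h
  have hle : φ.range ≤ H := by
    rintro _ ⟨g, rfl⟩
    refine mem_subfield_of_map one_ne_zero (M := (g : Matrix (Fin n) (Fin n) F₀)) ?_
    rw [one_smul]; rfl
  intro h2
  obtain ⟨w, hw⟩ := h2.trans (Subgroup.index_dvd_of_le hle)
  have hcard := Subgroup.card_mul_index φ.range
  rw [← Nat.card_congr (MonoidHom.ofInjective hφ).toEquiv, hw] at hcard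
  have hG := Cfsg.Agent.Lib.Classical.card_GL_eq_units_mul_card_SL (ι := Fin n) (R := F)
  have hG₀ := Cfsg.Agent.Lib.Classical.card_GL_eq_units_mul_card_SL (ι := Fin n) (R := F₀)
  obtain ⟨S, hS, -⟩ := exists_sub_one_eq hqk
  rw [Matrix.card_GL_field, Nat.card_units, Nat.card_eq_fintype_card (α := F), hS, ← hcard] at hG
  rw [Matrix.card_GL_field, Nat.card_units] at hG₀
  set q₀ := Nat.card F₀ with hq₀
  rw [← Nat.card_eq_fintype_card, ← hq₀] at hG₀
  have hpt : ∀ i : Fin n, ∃ O, Odd O ∧
      Fintype.card F ^ n - Fintype.card F ^ (i : ℕ) = (q₀ ^ n - q₀ ^ (i : ℕ)) * O := by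
    intro i
    have hkpos : 1 ≤ k := hk.pos
    have hin : (i : ℕ) ≤ n := i.2.le
    refine ⟨q₀ ^ ((k - 1) * i) * ∑ l ∈ Finset.range k, (q₀ ^ (n - i)) ^ l, hodd.pow.mul ?_, ?_⟩
    · rw [Finset.odd_sum_iff_odd_card_odd, Finset.filter_true_of_mem (fun j _ => hodd.pow.pow),
        Finset.card_range]
      exact hk
    · have e1 : q₀ ^ n - q₀ ^ (i : ℕ) = q₀ ^ (i : ℕ) * (q₀ ^ (n - i) - 1) := by
        rw [Nat.mul_sub, mul_one, ← pow_add, Nat.add_sub_cancel' hin]
      have e2 : Fintype.card F ^ n - Fintype.card F ^ (i : ℕ) =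
          Fintype.card F ^ (i : ℕ) * (Fintype.card F ^ (n - i) - 1) := by
        rw [Nat.mul_sub, mul_one, ← pow_add, Nat.add_sub_cancel' hin]
      have e3 : Fintype.card F ^ (n - i) - 1 =
          (q₀ ^ (n - i) - 1) * ∑ l ∈ Finset.range k, (q₀ ^ (n - i)) ^ l := by
        rw [mul_comm (q₀ ^ (n - i) - 1), geom_sum_mul_of_one_le (Nat.one_le_pow _ _ Nat.card_pos),
          ← pow_mul, hqk, ← pow_mul, mul_comm k]
      have e4 : Fintype.card F ^ (i : ℕ) = q₀ ^ (i : ℕ) * q₀ ^ ((k - 1) * i) := by
        rw [hqk, ← pow_mul, ← pow_add]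
        congr 1
        have h1 : k * (i : ℕ) = (k - 1 + 1) * i := by rw [Nat.sub_add_cancel hkpos]
        rw [h1, add_mul, one_mul]
        omega
      rw [e1, e2, e3, e4]
      ring
  choose O hO hOe using hpt
  rw [Finset.prod_congr rfl fun i _ => hOe i, Finset.prod_mul_distrib] at hG
  have hpos : 0 < ∏ i : Fin n, (q₀ ^ n - q₀ ^ (i : ℕ)) := Finset.prod_pos fun i _ =>
    Nat.sub_pos_of_lt (Nat.pow_lt_pow_right (by rw [hq₀, Nat.card_eq_fintype_card]; exact Fintype.one_lt_card) i.2)
  have hprod : ∏ i, O i = S * (2 * w) := by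
    refine Nat.eq_of_mul_eq_mul_left hpos (hG.trans ?_)
    rw [hG₀]; ring
  have hoddP : Odd (∏ i, O i) := Finset.prod_induction _ Odd (fun a b => Odd.mul) odd_one fun i _ => hO i
  rw [hprod] at hoddP
  exact Nat.not_even_iff_odd.2 hoddP ⟨S * w, by ring⟩

/-- Involutions of PSL_n(q) and subfield subgroups. Here `T = PSL_n(F)` for a field `F` with `q = p^f` elements (`n ≥ 2`, `(n, q) ≠ (2, 2), (2, 3)`), `F₀` is the subfield with `q₀` elements where `q = q₀^k` for a prime `k`, and `H` is the subgroup of matrices of determinant 1 lying in the subfield group of `F₀` (invertible matrices over `F₀` times scalars) — a maximal subgroup of type GL_n(q₀) (the case `n = 2`, `q₀ = 2` is excluded); Ω is the set of `T`-conjugates of `H` (cosets of `H`), so an element of `T` of prime order `r` (a matrix `x` of determinant 1 with `x^r` scalar, `x` not scalar) fixes a point of Ω when some conjugate of `x` by a matrix of determinant 1 lies in `H`. Suppose the index of `H` is even. Then every involution of `T`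 is conjugate in `T` into `H` if and only if either `q` is even, or `k = 2` and `(n)_2 ≤ (q − 1)_2`. (For `q` odd and `k` odd the index of `H` is odd, so that case does not arise.) -/
theorem result {F : Type*} [Field F] [Fintype F] {p : ℕ} [Fact p.Prime] [CharP F p] {q : ℕ} (hq : Fintype.card F = q)
    (n : ℕ) (hn : 2 ≤ n) (hT : (n, q) ≠ (2, 2) ∧ (n, q) ≠ (2, 3))
    (F₀ : Subfield F) (k q₀ : ℕ) (hk : k.Prime) (hF₀ : Nat.card ↥F₀ = q₀) (hqk : q = q₀ ^ k) (hC5 : ¬ (n = 2 ∧ q₀ = 2)) (hΩ : 2 ∣ ((Cfsg.Geo.subfieldSubgroup F₀ 1).comap (Matrix.SpecialLinearGroup.toGL : Matrix.SpecialLinearGroup (Fin n) F →* GL (Fin n) F)).index) :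
    (∀ x : Matrix.SpecialLinearGroup (Fin n) F,
      (∃ z : F, ((x ^ 2 : Matrix.SpecialLinearGroup (Fin n) F) : Matrix (Fin n) (Fin n) F) = z • (1 : Matrix (Fin n) (Fin n) F)) →
      (∀ z : F, (x : Matrix (Fin n) (Fin n) F) ≠ z • (1 : Matrix (Fin n) (Fin n) F)) →
      ∃ P : Matrix.SpecialLinearGroup (Fin n) F, P⁻¹ * x * P ∈ ((Cfsg.Geo.subfieldSubgroup F₀ 1).comap (Matrix.SpecialLinearGroup.toGL : Matrix.SpecialLinearGroup (Fin n) F →* GL (Fin n) F))) ↔
    (Odd q → (k = 2 ∧ padicValNat 2 n ≤ padicValNat 2 (q - 1))) := by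
  classical
  subst hq hF₀
  have hn0 : n ≠ 0 := by omega
  have hfin : finrank F (Fin n → F) = n := finrank_fin_fun F
  have hodd0 : Odd (Fintype.card F) → Odd (Nat.card F₀) := fun h => by
    rw [hqk] at h
    exact (Nat.odd_pow_iff hk.ne_zero).1 h
  constructor
  · intro h hodd
    have h2 := two_ne_zero_of_odd rfl hodd
    have hk2 : k = 2 := hk.eq_two_or_odd'.resolve_right fun hko =>
      index_odd (by omega) hko hqk (hodd0 hodd) hΩ
    refine ⟨hk2, ?_⟩
    by_contra hv
    obtain ⟨c, t, hcn, hnt, hdet⟩ := exists_nonpow (r := 2) (dvd_card_sub_one h2) hn0 (fun hh => hv hh.1)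
    have hp2 : 2 ≠ p := fun hp => h2 (by
      have := CharP.cast_eq_zero F p
      rw [← hp] at this
      exact_mod_cast this)
    obtain ⟨A, hA⟩ := exists_nonpow_elt hp2 hcn hnt hdet
    have hAmat : ((A ^ 2 : Matrix.SpecialLinearGroup (Fin n) F) : Matrix (Fin n) (Fin n) F) =
        c • (1 : Matrix (Fin n) (Fin n) F) := by
      refine Matrix.toLin'.injective (LinearMap.ext fun v => ?_)
      rw [Matrix.SpecialLinearGroup.coe_pow, Matrix.toLin'_pow, hA, map_smul, Matrix.toLin'_one]
      rfl
    obtain ⟨P, hP⟩ := h A ⟨c, hAmat⟩ (fun z hz => hcn z (by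
      have h' := congrFun (congrFun hAmat ⟨0, by omega⟩) ⟨0, by omega⟩
      rw [Matrix.SpecialLinearGroup.coe_pow, hz, smul_pow, one_pow] at h'
      simpa using h'))
    obtain ⟨a, M, ha, hM⟩ := exists_map_of_mem hP
    have h2' : ((P⁻¹ * A * P) ^ 2 : Matrix.SpecialLinearGroup (Fin n) F) = P⁻¹ * A ^ 2 * P := by
      simp [pow_two, mul_assoc]
    have hsq := congrArg (fun g : Matrix.SpecialLinearGroup (Fin n) F => (g : Matrix (Fin n) (Fin n) F)) h2'
    rw [Matrix.SpecialLinearGroup.coe_pow, hM, Matrix.SpecialLinearGroup.coe_mul,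
      Matrix.SpecialLinearGroup.coe_mul, hAmat, mul_smul_comm, mul_one, smul_mul_assoc,
      ← Matrix.SpecialLinearGroup.coe_mul, inv_mul_cancel, Matrix.SpecialLinearGroup.coe_one,
      smul_pow, ← RingHom.mapMatrix_apply, ← map_pow] at hsq
    have h00 := congrFun (congrFun hsq ⟨0, by omega⟩) ⟨0, by omega⟩
    simp only [Matrix.smul_apply, RingHom.mapMatrix_apply, Matrix.map_apply, Matrix.one_apply_eq,
      smul_eq_mul, mul_one] at h00
    obtain ⟨s, hs⟩ := isSquare_of_mem hqk hk2 (hodd0 hodd) (fun e => h2 (by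
      have := ringChar.spec F 2
      simpa using this.2 (e ▸ dvd_rfl))) ((M ^ 2) ⟨0, by omega⟩ ⟨0, by omega⟩).2
    refine hcn (a * s) ?_
    rw [← h00, Subfield.coe_subtype, hs]
    ring
  · intro hrhs x hx hns
    rcases invol_cases hn0 hx with ⟨h2, l, hl, hx2⟩ | ⟨h2, c, hc, hx2⟩ | ⟨h2, l, N, hl, hN, hxN⟩
    · set X : Module.End F (Fin n → F) := Matrix.toLin' (x : Matrix (Fin n) (Fin n) F) with hX
      set j := finrank F (LinearMap.ker (X + l • LinearMap.id)) with hj
      have hcompl := Submodule.finrank_add_eq_of_isCompl (isCompl_eigen h2 hl hx2)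
      rw [hfin] at hcompl
      let d : Fin n → F₀ := fun i => if (i : ℕ) < j then -1 else 1
      have hmap : (Matrix.diagonal d).map F₀.subtype =
          Matrix.diagonal fun i : Fin n => if (i : ℕ) < j then (-1 : F) else 1 := by
        rw [Matrix.diagonal_map (map_zero _)]
        congr 1
        funext i
        simp only [d]
        split_ifs <;> simp
      obtain ⟨P, hP⟩ := sl_conj_semisimple (y := l • Matrix.toLin' ((Matrix.diagonal d).map F₀.subtype))
        hn0 h2 hl hx2 (fun v => by
          rw [hmap]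
          funext i
          simp [Matrix.toLin'_apply, Matrix.mulVec_diagonal]
          split_ifs <;> ring) (by
          have hsub : l • Matrix.toLin' ((Matrix.diagonal d).map F₀.subtype) - l • LinearMap.id =
              Matrix.toLin' (Matrix.diagonal fun i : Fin n => if (i : ℕ) < j then -2 * l else 0) := by
            rw [hmap]
            refine LinearMap.ext fun v => funext fun i => ?_
            simp [Matrix.toLin'_apply, Matrix.mulVec_diagonal]
            split_ifs <;> ring
          have hr := Matrix.rank_diagonal (fun i : Fin n => if (i : ℕ) < j then -2 * l else 0)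
          have hcount : Fintype.card {i : Fin n // (if (i : ℕ) < j then -2 * l else 0) ≠ 0} = j := by
            rw [Fintype.card_subtype, Finset.filter_congr (q := fun i : Fin n => (i : ℕ) < j)
              (fun i _ => by split_ifs with h <;> simp [h, h2, hl]), Fin.card_filter_val_lt]
            omega
          rw [hcount] at hr
          rw [hsub]
          have h := LinearMap.finrank_range_add_finrank_ker
            (Matrix.toLin' (Matrix.diagonal fun i : Fin n => if (i : ℕ) < j then -2 * l else 0))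
          rw [hfin] at h
          have hr' : finrank F (LinearMap.range (Matrix.toLin'
              (Matrix.diagonal fun i : Fin n => if (i : ℕ) < j then -2 * l else 0))) = j := hr
          have : finrank F (LinearMap.ker (Matrix.toLin' (x : Matrix (Fin n) (Fin n) F) - l • LinearMap.id)) + j = n := hcompl
          omega)
      exact ⟨P, mem_subfield_of_map hl (coe_eq_of_toLin' hP)⟩
    · exfalso
      have hodd := odd_card h2
      obtain ⟨hk2, hv⟩ := hrhs hodd
      have hp2 : 2 ≠ p := fun hp => h2 (by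
        have := CharP.cast_eq_zero F p
        rw [← hp] at this
        exact_mod_cast this)
      obtain ⟨t, ht, hdet⟩ := det_nonpow hp2 hc n (Matrix.toLin' (x : Matrix (Fin n) (Fin n) F)) hfin
        (fun v => by rw [pow_two, Module.End.mul_apply]; exact hx2 v)
      rw [LinearMap.det_toLin', x.det_coe] at hdet
      refine nonpow_false (r := 2) (dvd_card_sub_one h2) hn0 ht hc hdet.symm ⟨hv, fun _ _ => ?_⟩
      obtain ⟨w, hw⟩ := hodd0 hodd
      rw [hqk, hk2, hw]
      have : (2 * w + 1) ^ 2 = 4 * (w * (w + 1)) + 1 := by ring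
      omega
    · set a := finrank F (LinearMap.range N) with ha
      have hμ := type_sq_zero hN
      rw [← ha, hfin] at hμ
      have hs := hμ.sum_eq
      rw [hfin] at hs
      obtain ⟨J, -, hJ⟩ := exists_model_mat (F₀.subtype)
        (Multiset.replicate a 2 + Multiset.replicate (n - 2 * a) 1) (fun b hb => hμ.pos hb) hs
      have hy : l • Matrix.toLin' ((1 + J).map F₀.subtype) = l • (1 + Matrix.toLin' (J.map F₀.subtype)) := by
        rw [← RingHom.mapMatrix_apply, map_add, map_one, RingHom.mapMatrix_apply, map_add, Matrix.toLin'_one]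
        rfl
      have hJ2 : Matrix.toLin' (J.map F₀.subtype) ^ 2 = 0 := (hJ.pow_eq_zero_iff 2).2 fun b hb => by
        rcases Multiset.mem_add.1 hb with h | h <;> rw [Multiset.eq_of_mem_replicate h] <;> omega
      obtain ⟨P, hP⟩ := sl_conj_char_two hn0 h2 hxN hN hJ2 (by
        rw [← pow_one (Matrix.toLin' (J.map F₀.subtype)), hJ.finrank_range_pow 1, ← ha]
        simp) hy
      exact ⟨P, mem_subfield_of_map hl (coe_eq_of_toLin' hP)⟩

end Cfsg.Agent.S5964
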