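import Cfsg.Statements.S5965
import Cfsg.Agent.Lib.Elusive.SubfieldTests

set_option autoImplicit false
set_option maxHeartbeats 1600000
open scoped MatrixGroups
open Cfsg

open Cfsg.Agent.Lib.Elusive
open scoped Matrix

namespace Cfsg.Agent.S5965

open Module Polynomial

variable {F : Type*} [Field F]

theorem ker_rank {K : Type*} [Field K] {n : ℕ} (T : Matrix (Fin n) (Fin n) K) :
    finrank K (LinearMap.ker (Matrix.toLin' T - (1 : K) • LinearMap.id)) + (T - 1).rank = n := by
  have h := LinearMap.finrank_range_add_finrank_ker (T - 1).mulVecLin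
  rw [finrank_fin_fun] at h
  rw [show Matrix.toLin' T - (1 : K) • LinearMap.id = (T - 1).mulVecLin from LinearMap.ext fun v => by
    simp [Matrix.sub_mulVec]]
  rw [Matrix.rank]
  omega

/-- An eigenvector gives a one-element family. -/
theorem fam_line {A : Prop → Set F} {V : Type*} [AddCommGroup V] [Module F V] [FiniteDimensional F V]
    {y : Module.End F V} {b : V} (hb : b ≠ 0) {a : F} (hy : y b = a • b) (ha : a ∈ A True) :
    SubfieldOdd.Fam A y (Submodule.span F {b}) := by
  refine ⟨1, fun _ => b, linearIndependent_unique_iff.2 hb, by simp, fun j => ⟨fun _ => a, by simp [hy], fun l => ?_⟩⟩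
  have : (j = l) = True := eq_true (Subsingleton.elim j l)
  rw [this]
  exact ha

/-- A pair of inverse eigenvalues swapped by the Frobenius gives a rational family. -/
theorem fam_pair {F₀ : Subfield F} [Fintype F] {V : Type*} [AddCommGroup V] [Module F V] [FiniteDimensional F V]
    {y : Module.End F V} {b b' : V} (hli : LinearIndependent F ![b, b']) {α α' : F} (hy : y b = α • b)
    (hy' : y b' = α' • b') (hαα : α * α' = 1) (hadd : α + α' ∈ F₀) (h1 : α = α' → α = 1) :
    SubfieldOdd.Fam (fun _ => (F₀ : Set F)) y (Submodule.span F {b, b'}) := by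
  classical
  by_cases he : α = α'
  · subst he
    rw [h1 rfl] at hy hy'
    refine ⟨2, ![b, b'], hli, by simp [Matrix.range_cons, Matrix.range_empty, Set.pair_comm b b'],
      fun j => ⟨fun l => if j = l then 1 else 0, ?_, fun l => ?_⟩⟩
    · fin_cases j <;> simp [hy, hy']
    · dsimp only
      split_ifs
      · exact F₀.one_mem
      · exact F₀.zero_mem
  · have hne : α' - α ≠ 0 := sub_ne_zero.2 (Ne.symm he)
    refine ⟨2, ![b + b', α • b + α' • b'], ?_, ?_,
      fun j => ⟨if j = 0 then ![0, 1] else ![-1, α + α'], ?_, fun l => ?_⟩⟩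
    · rw [LinearIndependent.pair_iff] at hli ⊢
      intro s t h
      have := hli (s + t * α) (s + t * α') (by rw [← h]; module)
      have ht : t = 0 := (mul_eq_zero.1 (by linear_combination this.2 - this.1 : t * (α' - α) = 0)).resolve_right hne
      exact ⟨by simpa [ht] using this.1, ht⟩
    · refine le_antisymm (Submodule.span_le.2 ?_) (Submodule.span_le.2 ?_)
      · rintro _ ⟨j, rfl⟩
        fin_cases j
        · exact Submodule.add_mem _ (Submodule.subset_span (Or.inl rfl)) (Submodule.subset_span (Or.inr rfl))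
        · exact Submodule.add_mem _ (Submodule.smul_mem _ _ (Submodule.subset_span (Or.inl rfl)))
            (Submodule.smul_mem _ _ (Submodule.subset_span (Or.inr rfl)))
      · set u := b + b'
        set u' := α • b + α' • b'
        have hu : u ∈ Submodule.span F (Set.range ![u, u']) := Submodule.subset_span ⟨0, rfl⟩
        have hu' : u' ∈ Submodule.span F (Set.range ![u, u']) := Submodule.subset_span ⟨1, rfl⟩
        refine Set.insert_subset ?_ (Set.singleton_subset_iff.2 ?_)
        · have : b = (α' - α)⁻¹ • (α' • u - u') := by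
            rw [show α' • u - u' = (α' - α) • b by simp only [u, u']; module, inv_smul_smul₀ hne]
          rw [this]
          exact Submodule.smul_mem _ _ (Submodule.sub_mem _ (Submodule.smul_mem _ _ hu) hu')
        · have : b' = (α' - α)⁻¹ • (u' - α • u) := by
            rw [show u' - α • u = (α' - α) • b' by simp only [u, u']; module, inv_smul_smul₀ hne]
          rw [this]
          exact Submodule.smul_mem _ _ (Submodule.sub_mem _ hu' (Submodule.smul_mem _ _ hu))
    · fin_cases j
      · simp [Fin.sum_univ_two, hy, hy']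
      · simp [Fin.sum_univ_two, hy, hy', smul_smul]
        rw [show α * α = (α + α') * α - 1 by linear_combination -hαα,
          show α' * α' = (α + α') * α' - 1 by linear_combination -hαα]
        module
    · fin_cases j <;> fin_cases l <;> first | exact F₀.zero_mem | exact F₀.one_mem | exact F₀.neg_mem F₀.one_mem | exact hadd

/-- Elements of odd prime order r ≠ p of PSL_n(q) and subfield subgroups. Here `T = PSL_n(F)` for a field `F` with `q = p^f` elements (`n ≥ 2`, `(n, q) ≠ (2, 2), (2, 3)`), `F₀` is the subfield with `q₀` elements where `q = q₀^k` for a prime `k`, and `H` is the subgroup of matrices of determinant 1 lying in the subfield group of `F₀` (invertible matrices over `F₀` times scalars) — a maximal subgroup of type GL_n(q₀) (the case `n = 2`, `q₀ = 2` is excluded); Ω is the set of `T`-conjugates of `H` (cosets of `H`), so an element of `T` of prime order `r` (a matrix `x` of determinant 1 with `x^r` scalar, `x` not scalar) fixes a point of Ω when some conjugate of `x` by a matrix of determinant 1 lies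 in `H`. Let `r ≠ p` be an odd prime dividing the index of `H`, with `(n, r) ≠ (6, 3)` and, when `r = k` divides `q₀ − 1`, with `(n)_r ≤ (q − 1)_r`. Then every element of `T` of order `r` is conjugate in `T` into `H` if and only if `r = k`, or `k = 2`, `r = n ∈ {3, 5}` and `(q₀ + 1)_r = r`. The two excluded cases, `(n, r) = (6, 3)` and `r = k ∣ q₀ − 1` with `(n)_r > (q − 1)_r`, are ones where this criterion can fail, so they are left out. -/
theorem result {F : Type*} [Field F] [Fintype F] {p : ℕ} [Fact p.Prime] [CharP F p] {q : ℕ} (hq : Fintype.card F = q)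
    (n : ℕ) (hn : 2 ≤ n) (hT : (n, q) ≠ (2, 2) ∧ (n, q) ≠ (2, 3))
    (F₀ : Subfield F) (k q₀ : ℕ) (hk : k.Prime) (hF₀ : Nat.card ↥F₀ = q₀) (hqk : q = q₀ ^ k) (hC5 : ¬ (n = 2 ∧ q₀ = 2)) (r : ℕ) [Fact r.Prime] (hr2 : r ≠ 2) (hrp : r ≠ p) (hgap : ¬ (n = 6 ∧ r = 3)) (hgapk : r = k → r ∣ q₀ - 1 → padicValNat r n ≤ padicValNat r (q - 1)) (hΩ : r ∣ ((Cfsg.Geo.subfieldSubgroup F₀ 1).comap (Matrix.SpecialLinearGroup.toGL : Matrix.SpecialLinearGroup (Fin n) F →* GL (Fin n) F)).index) :
    (∀ x : Matrix.SpecialLinearGroup (Fin n) F,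
      (∃ z : F, ((x ^ r : Matrix.SpecialLinearGroup (Fin n) F) : Matrix (Fin n) (Fin n) F) = z • (1 : Matrix (Fin n) (Fin n) F)) →
      (∀ z : F, (x : Matrix (Fin n) (Fin n) F) ≠ z • (1 : Matrix (Fin n) (Fin n) F)) →
      ∃ P : Matrix.SpecialLinearGroup (Fin n) F, P⁻¹ * x * P ∈ ((Cfsg.Geo.subfieldSubgroup F₀ 1).comap (Matrix.SpecialLinearGroup.toGL : Matrix.SpecialLinearGroup (Fin n) F →* GL (Fin n) F))) ↔
    (r = k ∨ (k = 2 ∧ r = n ∧ (n = 3 ∨ n = 5) ∧ padicValNat r (q₀ + 1) = 1)) := by
  classical
  subst hq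
  subst hF₀
  have hr : r.Prime := Fact.out
  haveI := Fintype.ofFinite F₀
  haveI : CharP F₀ p := RingHom.charP F₀.subtype Subtype.val_injective p
  have hfin : finrank F (Fin n → F) = n := finrank_fin_fun F
  have hrF : (r : F) ≠ 0 := SubfieldOdd.natCast_ne_zero hrp
  have hrq : ¬ r ∣ Nat.card F₀ := fun h => by
    obtain ⟨e, -, he⟩ := FiniteField.card F p
    have : r ∣ p ^ (e : ℕ) := by rw [← he, hqk]; exact h.trans (dvd_pow_self _ hk.ne_zero)
    exact hrp ((Nat.prime_dvd_prime_iff_eq hr Fact.out).1 (hr.dvd_of_dvd_pow this))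
  set s : ZMod r := (Nat.card F₀ : ZMod r) with hsdef
  set i := orderOf (Fintype.card F : ZMod r) with hidef
  have hs0 : s ≠ 0 := fun h => hrq ((ZMod.natCast_eq_zero_iff _ r).1 h)
  have hqs : (Fintype.card F : ZMod r) = s ^ k := by rw [hqk, Nat.cast_pow]
  have hi₀r : orderOf s ∣ r - 1 := orderOf_dvd_of_pow_eq_one (ZMod.pow_card_sub_one_eq_one hs0)
  have hi₀ : 0 < orderOf s := Nat.pos_of_dvd_of_pos hi₀r (by have := hr.two_le; omega)
  have hord : i = orderOf s / Nat.gcd (orderOf s) k := by rw [hidef, hqs, orderOf_pow' s hk.ne_zero]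
  have hcast1 : ∀ {a : ℕ} (j : ℕ), 0 < a → (r ∣ a ^ j - 1 ↔ (a : ZMod r) ^ j = 1) := fun j ha => by
    rw [← ZMod.natCast_eq_zero_iff, Nat.cast_sub (Nat.one_le_pow _ _ ha), sub_eq_zero, Nat.cast_pow, Nat.cast_one]
  have hgeti : r ∣ Fintype.card F - 1 ↔ i = 1 := dvd_card_sub_one_iff
  constructor
  · intro hall
    by_contra hrhs
    have hrk : r ≠ k := fun h => hrhs (Or.inl h)
    have hrk' : ¬ r ∣ k := fun h => hrk ((Nat.prime_dvd_prime_iff_eq hr hk).1 h)
    have hkd : k ∣ orderOf s := by
      by_contra hkd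
      have hio : i = orderOf s := by
        rw [hord, (Nat.coprime_comm.1 (hk.coprime_iff_not_dvd.2 hkd)).gcd_eq_one, Nat.div_one]
      refine SubfieldTests.not_dvd_index hn hqk hrk' hrq (fun j _ _ h => ?_) hΩ
      rw [hcast1 j Fintype.card_pos, ← orderOf_dvd_iff_pow_eq_one, ← hidef, hio] at h
      rw [hcast1 j Nat.card_pos, ← orderOf_dvd_iff_pow_eq_one]
      exact h
    have hik : orderOf s = k * i := by
      rw [hord, Nat.gcd_eq_right hkd, Nat.mul_div_cancel' hkd]
    rcases (show 2 ≤ i ∨ i = 1 by
        have : 0 < i := Nat.pos_of_ne_zero fun h => by rw [h, mul_zero] at hik; omega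
        omega) with hi2 | hi1
    · have hnd : ¬ r ∣ Fintype.card F - 1 := fun h => by rw [hgeti.1 h] at hi2; omega
      have hin : i ≤ n := by
        have hT' := hΩ.trans (Subgroup.index_dvd_card _)
        have hG : r ∣ Nat.card (GL (Fin n) F) := by
          haveI : Nonempty (Fin n) := ⟨⟨0, by omega⟩⟩
          rw [Cfsg.Agent.Lib.Classical.card_GL_eq_units_mul_card_SL (ι := Fin n) (R := F)]
          exact hT'.trans (dvd_mul_left _ _)
        rw [Matrix.card_GL_field] at hG
        obtain ⟨j, -, hj⟩ := (Prime.dvd_finsetProd_iff (Nat.prime_iff.1 hr) _).1 hG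
        rw [show Fintype.card F ^ n - Fintype.card F ^ (j : ℕ) = Fintype.card F ^ (j : ℕ) * (Fintype.card F ^ (n - j) - 1) by
          rw [Nat.mul_sub, mul_one, ← pow_add, Nat.add_sub_cancel' j.2.le]] at hj
        rcases hr.dvd_mul.1 hj with h | h
        · rw [hqk, ← pow_mul] at h
          exact absurd (hr.dvd_of_dvd_pow h) hrq
        · rw [hcast1 _ Fintype.card_pos, ← orderOf_dvd_iff_pow_eq_one] at h
          exact (Nat.le_of_dvd (by have := j.2; omega) h).trans (Nat.sub_le _ _)
      obtain ⟨A, hA, hAk⟩ := exists_root_elt (F := F) (r := r) hrp hi2 (t := 1) (k := n - i)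
        (show n = 1 * i + (n - i) by omega)
      have hAr : ((A ^ r : Matrix.SpecialLinearGroup (Fin n) F) : Matrix (Fin n) (Fin n) F) = 1 := by
        refine Matrix.toLin'.injective (LinearMap.ext fun v => ?_)
        rw [Matrix.SpecialLinearGroup.coe_pow, Matrix.toLin'_pow, hA, Matrix.toLin'_one]
        rfl
      obtain ⟨P, hP⟩ := hall A ⟨1, by rw [hAr, one_smul]⟩ fun z hz => by
        have hz0 : z ^ r = 1 := by
          have := congrFun (congrFun hAr ⟨0, by omega⟩) ⟨0, by omega⟩
          rw [Matrix.SpecialLinearGroup.coe_pow, hz, _root_.smul_pow, one_pow] at this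
          simpa using this
        have hz1 : z = 1 := by
          have hne : z ≠ 0 := fun h => by rw [h, zero_pow hr.ne_zero] at hz0; exact zero_ne_one hz0
          simpa [(hr.coprime_iff_not_dvd.2 hnd).gcd_eq_one] using
            pow_gcd_eq_one.2 ⟨hz0, FiniteField.pow_card_sub_one_eq_one z hne⟩
        rw [hz, hz1, one_smul, Matrix.toLin'_one, one_smul, sub_self, LinearMap.ker_zero, finrank_top, hfin] at hAk
        omega
      obtain ⟨c, M, hc, hM⟩ := exists_map_of_mem hP
      have hgr : (c • M.map F₀.subtype) ^ r = 1 := by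
        rw [← hM, ← Matrix.SpecialLinearGroup.coe_pow]
        have : (P⁻¹ * A * P) ^ r = P⁻¹ * A ^ r * P := by
          have h := conj_pow (i := r) (a := P⁻¹) (b := A)
          rwa [inv_inv] at h
        rw [this, show A ^ r = 1 from Subtype.ext hAr, mul_one, inv_mul_cancel]
        rfl
      set μ : F₀ := (M ^ r) ⟨0, by omega⟩ ⟨0, by omega⟩ with hμ
      have hcμ : c ^ r * (μ : F) = 1 := by
        have := congrFun (congrFun hgr ⟨0, by omega⟩) ⟨0, by omega⟩
        rw [_root_.smul_pow, ← RingHom.mapMatrix_apply, ← map_pow] at this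
        simpa [hμ] using this
      have hcmem : c ∈ F₀ := by
        have hcr : c ^ r ∈ F₀ := by
          rw [eq_inv_of_mul_eq_one_left hcμ]
          exact F₀.inv_mem μ.2
        refine mem_of_pow_natCard ?_
        have h1 : (c ^ r) ^ (Nat.card F₀ - 1) = 1 := by
          have h := congrArg Subtype.val (FiniteField.pow_card_sub_one_eq_one (⟨c ^ r, hcr⟩ : F₀)
            fun h => pow_ne_zero r hc (congrArg Subtype.val h))
          rw [SubmonoidClass.coe_pow, ← Nat.card_eq_fintype_card] at h
          exact h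
        rw [← pow_mul, mul_comm, pow_mul] at h1
        have h2 : c ^ (Nat.card F₀ - 1) = 1 := by
          simpa [(hr.coprime_iff_not_dvd.2 hnd).gcd_eq_one] using
            pow_gcd_eq_one.2 ⟨h1, FiniteField.pow_card_sub_one_eq_one _ (pow_ne_zero _ hc)⟩
        conv_lhs => rw [← Nat.sub_add_cancel (Nat.card_pos (α := F₀)), pow_succ, h2, one_mul]
      set M' : Matrix (Fin n) (Fin n) F₀ := (⟨c, hcmem⟩ : F₀) • M with hM'
      have hM'map : M'.map F₀.subtype = c • M.map F₀.subtype := by ext a b; simp [hM']
      have hM'r : M' ^ r = 1 := by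
        refine Matrix.map_injective Subtype.val_injective ?_
        show (M' ^ r).map F₀.subtype = (1 : Matrix (Fin n) (Fin n) F₀).map F₀.subtype
        rw [← RingHom.mapMatrix_apply, map_pow, RingHom.mapMatrix_apply, hM'map, hgr, ← RingHom.mapMatrix_apply, map_one]
      obtain ⟨R, hstep⟩ := step_pow (F := F₀) (r := r) (p := p) (x := Matrix.toLin' M') hrp (one_ne_zero : (1 : F₀) ≠ 0)
        (fun v => by rw [← Matrix.toLin'_pow, hM'r, Matrix.toLin'_one, one_pow, one_smul]; rfl)
      obtain ⟨u, hu⟩ := hstep.exists_eq (W := ⊤) fun _ _ => trivial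
      rw [finrank_top, finrank_fin_fun, top_inf_eq, ← hsdef, hik] at hu
      have h1 := ker_rank (A : Matrix (Fin n) (Fin n) F)
      have h2 := ker_rank M'
      have hrk2 : (M' - 1).rank = ((A : Matrix (Fin n) (Fin n) F) - 1).rank := by
        rw [← SubfieldOdd.rank_map F₀.subtype, ← RingHom.mapMatrix_apply, map_sub, map_one, RingHom.mapMatrix_apply,
          hM'map, ← hM]
        have hconj : ((P⁻¹ * A * P : Matrix.SpecialLinearGroup (Fin n) F) : Matrix (Fin n) (Fin n) F) - 1 =
            ((P⁻¹ : Matrix.SpecialLinearGroup (Fin n) F) : Matrix (Fin n) (Fin n) F) * ((A : Matrix (Fin n) (Fin n) F) - 1) * (P : Matrix (Fin n) (Fin n) F) := by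
          rw [mul_sub, sub_mul, mul_one, ← Matrix.SpecialLinearGroup.coe_mul, ← Matrix.SpecialLinearGroup.coe_mul,
            ← Matrix.SpecialLinearGroup.coe_mul, inv_mul_cancel, Matrix.SpecialLinearGroup.coe_one]
        rw [hconj, Matrix.rank_mul_eq_left_of_isUnit_det _ _ (by rw [Matrix.SpecialLinearGroup.det_coe]; exact isUnit_one),
          Matrix.rank_mul_eq_right_of_isUnit_det _ _ (by rw [Matrix.SpecialLinearGroup.det_coe]; exact isUnit_one)]
      rw [hAk] at h1
      have h3 : u * (k * i) = i := by omega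
      have h4 : u * k = 1 := by
        refine Nat.eq_of_mul_eq_mul_right (show 0 < i by omega) ?_
        rw [mul_assoc, one_mul]; exact h3
      exact hk.one_lt.ne' (Nat.eq_one_of_mul_eq_one_left h4)
    · -- the split case
      obtain ⟨ζ₀, hζ₀⟩ := exists_prime_orderOf_dvd_card' (G := Fˣ) r (by
        rw [Nat.card_units, Nat.card_eq_fintype_card]; exact hgeti.2 hi1)
      set ζ : F := (ζ₀ : F) with hζdef
      have hζ : orderOf ζ = r := orderOf_units.trans hζ₀
      have hζr : ζ ^ r = 1 := hζ ▸ pow_orderOf_eq_one ζ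
      let zp : ZMod r → F := fun a => ζ ^ a.val
      haveI : NeZero r := ⟨hr.ne_zero⟩
      have zp_add : ∀ a b, zp (a + b) = zp a * zp b := fun a b => by
        simp only [zp, ← pow_add, ZMod.val_add]
        exact (pow_eq_pow_mod _ hζr).symm
      have zp_inj : Function.Injective zp := fun a b h => ZMod.val_injective r
        (pow_injOn_Iio_orderOf (by rw [hζ]; exact a.val_lt) (by rw [hζ]; exact b.val_lt) h)
      have zp_pow : ∀ (a : ZMod r) (m : ℕ), zp a ^ m = zp ((m : ZMod r) * a) := fun a m => by
        induction m with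
        | zero => simp [zp]
        | succ m ih => rw [pow_succ, ih, ← zp_add]; push_cast; ring_nf
      have zp_prod : ∀ (f : Fin n → ZMod r), ∏ j, zp (f j) = zp (∑ j, f j) := fun f => by
        induction (Finset.univ : Finset (Fin n)) using Finset.induction with
        | empty => simp [zp]
        | insert j S hj ih => rw [Finset.prod_insert hj, Finset.sum_insert hj, ih, zp_add]
      have test : ∀ (f : Fin n → ZMod r) (l : F), l ^ n * zp (∑ j, f j) = 1 → (∃ j j', f j ≠ f j') →
          ∃ w, (Finset.univ.val.map f).map (fun a => s * a + w) = Finset.univ.val.map f := by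
        intro f l hl hne
        have hl0 : l ≠ 0 := fun h => by rw [h, zero_pow (by omega), zero_mul] at hl; exact zero_ne_one hl
        let A : Matrix.SpecialLinearGroup (Fin n) F := ⟨Matrix.diagonal fun j => l * zp (f j), by
          rw [Matrix.det_diagonal, Finset.prod_mul_distrib, Finset.prod_const, Finset.card_univ, Fintype.card_fin,
            zp_prod, hl]⟩
        obtain ⟨P, hP⟩ := hall A ⟨l ^ r, by
            rw [Matrix.SpecialLinearGroup.coe_pow]
            show Matrix.diagonal _ ^ r = _
            rw [Matrix.diagonal_pow, ← Matrix.diagonal_one, ← Matrix.diagonal_smul]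
            congr 1
            funext j
            simp only [Pi.pow_apply, Pi.smul_apply, smul_eq_mul, mul_one, mul_pow, zp_pow, ZMod.natCast_self, zero_mul]
            simp [zp]⟩ fun z hz => by
          obtain ⟨j, j', hjj⟩ := hne
          have e1 := congrFun (congrFun hz j) j
          have e2 := congrFun (congrFun hz j') j'
          simp [A] at e1 e2
          exact hjj (zp_inj (mul_left_cancel₀ hl0 (e1.trans e2.symm)))
        obtain ⟨c, M, hc, hM⟩ := exists_map_of_mem hP
        have hst := SubfieldTests.roots_stable p (d := fun j => c⁻¹ * l * zp (f j)) (M := M)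
          (Matrix.SpecialLinearGroup.toGL P) (by
            rw [show M.map F₀.subtype = c⁻¹ • (c • M.map F₀.subtype) by rw [inv_smul_smul₀ hc], ← hM,
              ← map_inv]
            simp only [Matrix.SpecialLinearGroup.coe_mul]
            show c⁻¹ • (_ * Matrix.diagonal _ * _) = _ * Matrix.diagonal _ * _
            rw [show (fun j => c⁻¹ * l * zp (f j)) = c⁻¹ • fun j => l * zp (f j) from
              funext fun j => by simp [mul_assoc], Matrix.diagonal_smul, mul_smul_comm, smul_mul_assoc]
            rfl)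
        set ν := c⁻¹ * l
        have hν : ν ≠ 0 := mul_ne_zero (inv_ne_zero hc) hl0
        let j0 : Fin n := ⟨0, by omega⟩
        have hmem0 : (ν * zp (f j0)) ^ Nat.card F₀ ∈ Finset.univ.val.map fun j => ν * zp (f j) :=
          hst ▸ Multiset.mem_map_of_mem _ (Finset.mem_univ j0)
        obtain ⟨j', -, hj'⟩ := Multiset.mem_map.1 hmem0
        refine ⟨f j' - s * f j0, ?_⟩
        have hφ : ∀ a, (ν * zp a) ^ Nat.card F₀ = ν * zp (s * a + (f j' - s * f j0)) := fun a => by
          have hne0 : zp (s * f j0) ≠ 0 := pow_ne_zero _ ζ₀.ne_zero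
          rw [mul_pow, zp_pow] at hj'
          refine mul_right_cancel₀ hne0 ?_
          rw [mul_pow, zp_pow, mul_assoc, mul_assoc, ← zp_add, ← zp_add,
            show s * a + (f j' - s * f j0) + s * f j0 = f j' + s * a by ring,
            show (Nat.card F₀ : ZMod r) * a + s * f j0 = s * f j0 + s * a by rw [← hsdef]; ring,
            zp_add, zp_add, ← mul_assoc, ← mul_assoc, hj']
        refine Multiset.map_injective (f := fun a => ν * zp a) (fun a b h => zp_inj (mul_left_cancel₀ hν h)) ?_
        rw [Multiset.map_map, Multiset.map_map, Multiset.map_map]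
        refine (Multiset.map_congr rfl fun j _ => ?_).trans hst
        exact (hφ (f j)).symm
      have hsk : orderOf s = k := by rw [hik, hi1, mul_one]
      have hk1 : k ∣ r - 1 := hsk ▸ hi₀r
      have hs1 : s ≠ 1 := fun h => by rw [h, orderOf_one] at hsk; exact hk.one_lt.ne hsk
      by_cases hk2 : k = 2
      swap
      · have hs2 : s ≠ -1 := fun h => by
          have h' : orderOf s ∣ 2 := orderOf_dvd_of_pow_eq_one (by rw [h]; ring)
          rw [hsk] at h'
          exact hk2 ((Nat.prime_dvd_prime_iff_eq hk Nat.prime_two).1 h')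
        obtain ⟨m, rfl⟩ : ∃ m, n = m + 2 := ⟨n - 2, by omega⟩
        obtain ⟨w, hw⟩ := test (Fin.cons 1 (Fin.cons (-1) fun _ => 0)) 1
          (by simp [Fin.sum_univ_succ, zp]) ⟨0, 1, by
            simp only [Fin.cons_zero, Fin.cons_one]
            exact fun h => SubfieldTests.two_ne hr2 (by linear_combination h)⟩
        simp only [Fin.univ_val_map, List.ofFn_succ, Fin.cons_zero, Fin.cons_succ, List.ofFn_const,
          ← Multiset.cons_coe, ← Multiset.coe_replicate] at hw
        exact SubfieldTests.ms_three hr2 hs0 hs1 hs2 m hw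
      subst hk2
      have hsm : s = -1 := by
        have := pow_orderOf_eq_one s
        rw [hsk] at this
        exact (sq_eq_one_iff.1 this).resolve_left hs1
      have hn3 : 3 ≤ n := by
        by_contra hn3
        refine SubfieldTests.not_dvd_index hn hqk hrk' hrq (fun j hj2 hjn _ => ?_) hΩ
        rw [hcast1 j Nat.card_pos, ← hsdef, show j = 2 by omega, hsm]
        ring
      by_cases hex : (r = 3 ∧ n = 3) ∨ (r = 5 ∧ n = 5)
      swap
      · obtain ⟨m, rfl⟩ : ∃ m, n = m + 3 := ⟨n - 3, by omega⟩
        have hne : ∃ j j', (Fin.cons 1 (Fin.cons 1 (Fin.cons (-2) fun _ => 0)) : Fin (m + 3) → ZMod r) j ≠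
            (Fin.cons 1 (Fin.cons 1 (Fin.cons (-2) fun _ => 0)) : Fin (m + 3) → ZMod r) j' := by
          by_cases h3 : r = 3
          · have hm : 0 < m := Nat.pos_of_ne_zero fun h => hex (Or.inl ⟨h3, by omega⟩)
            refine ⟨0, (⟨0, hm⟩ : Fin m).succ.succ.succ, ?_⟩
            simp only [Fin.cons_zero, Fin.cons_succ]
            exact one_ne_zero
          · refine ⟨0, (0 : Fin (m + 1)).succ.succ, ?_⟩
            simp only [Fin.cons_zero, Fin.cons_succ]
            exact fun h => SubfieldTests.three_ne h3 (by linear_combination h)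
        obtain ⟨w, hw⟩ := test (Fin.cons 1 (Fin.cons 1 (Fin.cons (-2) fun _ => 0))) 1
          (by simp [Fin.sum_univ_succ, zp]; norm_num) hne
        simp only [Fin.univ_val_map, List.ofFn_succ, Fin.cons_zero, Fin.cons_succ, List.ofFn_const,
          ← Multiset.cons_coe, ← Multiset.coe_replicate, hsm] at hw
        refine SubfieldTests.ms_two hr2 m (fun h => hgap ⟨by omega, h.1⟩) (fun h => hex (Or.inl ⟨h.1, by omega⟩))
          (fun h => hex (Or.inr ⟨h.1, by omega⟩)) hw
      have hrn : r = n ∧ (n = 3 ∨ n = 5) := by omega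
      have hd1 : r ∣ Nat.card F₀ + 1 := by
        rw [← ZMod.natCast_eq_zero_iff]; push_cast; rw [← hsdef, hsm, neg_add_cancel]
      have hd2 : r ^ 2 ∣ Fintype.card F - 1 := by
        have hv : 2 ≤ padicValNat r (Nat.card F₀ + 1) := by
          have h1 : padicValNat r (Nat.card F₀ + 1) ≠ 1 := fun h => hrhs (Or.inr ⟨rfl, hrn.1, hrn.2, h⟩)
          have h2 : 1 ≤ padicValNat r (Nat.card F₀ + 1) := one_le_padicValNat_of_dvd (by omega) hd1
          omega
        have := (padicValNat_dvd_iff_le (p := r) (Nat.succ_ne_zero (Nat.card F₀))).2 hv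
        refine this.trans ⟨Nat.card F₀ - 1, ?_⟩
        rw [hqk, Nat.succ_eq_add_one, ← Nat.sq_sub_sq, one_pow]
      obtain ⟨g, hg, -⟩ := exists_gen F
      obtain ⟨N, hN⟩ := hd2
      have hNne : N ≠ 0 := fun h => by
        have := Fintype.one_lt_card (α := F)
        rw [h, mul_zero] at hN; omega
      obtain ⟨a, har, hal⟩ : ∃ a : ℕ, a < r ∧ ((g : F) ^ N) ^ r = ζ ^ a := by
        haveI : NeZero r := ⟨hr.ne_zero⟩
        have hζp : IsPrimitiveRoot ζ r := by rw [IsPrimitiveRoot.iff_orderOf]; exact hζ
        obtain ⟨a, ha, he⟩ := hζp.eq_pow_of_pow_eq_one (ξ := ((g : F) ^ N) ^ r) (by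
          rw [← pow_mul, ← pow_mul, show N * (r * r) = r ^ 2 * N by ring, ← hN, ← hg,
            ← Units.val_pow_eq_pow_val, pow_orderOf_eq_one, Units.val_one])
        exact ⟨a, ha, he.symm⟩
      have ha0 : a ≠ 0 := fun h => by
        rw [h, pow_zero, ← pow_mul, ← Units.val_pow_eq_pow_val, Units.val_eq_one] at hal
        have hd := hg ▸ orderOf_dvd_of_pow_eq_one hal
        rw [hN, show r ^ 2 * N = N * r * r by ring] at hd
        have hle := Nat.le_of_dvd (Nat.mul_pos (Nat.pos_of_ne_zero hNne) hr.pos) hd
        have hlt : N * r * 1 < N * r * r :=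
          Nat.mul_lt_mul_of_pos_left hr.one_lt (Nat.mul_pos (Nat.pos_of_ne_zero hNne) hr.pos)
        omega
      obtain ⟨m, rfl⟩ : ∃ m, n = m + 1 := ⟨n - 1, by omega⟩
      obtain ⟨b, hb⟩ : ∃ b : ZMod r, (a : ZMod r) * b = -1 := by
        have : (a : ZMod r) ≠ 0 := SubfieldTests.natCast_ne (Nat.pos_of_ne_zero ha0) fun h => by
          have := Nat.le_of_dvd (Nat.pos_of_ne_zero ha0) h; omega
        exact ⟨-(a : ZMod r)⁻¹, by rw [mul_neg, mul_inv_cancel₀ this]⟩
      obtain ⟨w, hw⟩ := test (Fin.cons 1 fun _ => 0) (((g : F) ^ N) ^ b.val) (by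
        rw [show ((((g : F) ^ N) ^ b.val) ^ (m + 1)) = (((g : F) ^ N) ^ r) ^ b.val by
          rw [← hrn.1, ← pow_mul, ← pow_mul, ← pow_mul, ← pow_mul]; ring_nf]
        rw [hal, Fin.sum_univ_succ]
        simp only [Fin.cons_zero, Fin.cons_succ, Finset.sum_const_zero, add_zero]
        have ha' : ζ ^ a = zp (a : ZMod r) := by simp only [zp, ZMod.val_natCast, Nat.mod_eq_of_lt har]
        rw [ha', zp_pow, ← zp_add, ZMod.natCast_zmod_val, mul_comm, hb, neg_add_cancel]
        simp [zp]) ⟨0, (⟨0, by omega⟩ : Fin m).succ, by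
          simp only [Fin.cons_zero, Fin.cons_succ]; exact one_ne_zero⟩
      simp only [Fin.univ_val_map, List.ofFn_succ, Fin.cons_zero, Fin.cons_succ, List.ofFn_const,
        ← Multiset.cons_coe, ← Multiset.coe_replicate, hsm] at hw
      exact SubfieldTests.ms_one hr2 (show 2 ≤ m by omega) hw
  · intro hrhs x hx hns
    obtain ⟨z, hz⟩ := hx
    set X := Matrix.toLin' (x : Matrix (Fin n) (Fin n) F) with hXdef
    have hX : ∀ v, (X ^ r) v = z • v := fun v => by
      rw [hXdef, ← Matrix.toLin'_pow, ← Matrix.SpecialLinearGroup.coe_pow, hz, map_smul, Matrix.toLin'_one]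
      rfl
    have hz0 : z ≠ 0 := fun h => by
      haveI : Nonempty (Fin n) := ⟨⟨0, by omega⟩⟩
      rw [h, zero_smul] at hz
      have hdet := congrArg Matrix.det hz
      rw [Matrix.SpecialLinearGroup.det_coe, Matrix.det_zero] at hdet
      exact one_ne_zero hdet
    have finish : ∀ (l : F), l ≠ 0 → ∀ (T : (Fin n → F) ≃ₗ[F] (Fin n → F)) (M : Matrix (Fin n) (Fin n) F₀),
        (∀ v, X (T v) = l • T (Matrix.toLin' (M.map F₀.subtype) v)) →
        ∃ P : Matrix.SpecialLinearGroup (Fin n) F, P⁻¹ * x * P ∈ ((Cfsg.Geo.subfieldSubgroup F₀ 1).comap (Matrix.SpecialLinearGroup.toGL : Matrix.SpecialLinearGroup (Fin n) F →* GL (Fin n) F)) := by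
      intro l hl T M hTM
      set y' := l • Matrix.toLin' (M.map F₀.subtype) with hy'
      have hT : ∀ v, T (y' v) = X (T v) := fun v => by rw [hTM, hy', LinearMap.smul_apply, map_smul]
      have hTp : ∀ (j : ℕ) v, T ((y' ^ j) v) = (X ^ j) (T v) := by
        intro j
        induction j with
        | zero => intro v; rfl
        | succ j ih => intro v; rw [pow_succ', Module.End.mul_apply, hT, ih, pow_succ', Module.End.mul_apply]
      obtain ⟨P, hP⟩ := exists_sl_conj (A := x) T hT fun δ hδ =>
        SubfieldOdd.cent_det hrp hz0 (fun v => T.injective (by rw [hTp, hX, map_smul])) (by rw [hfin]; omega) hδ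
      exact ⟨P, mem_subfield_of_map hl (coe_eq_of_toLin' hP)⟩
    by_cases hroot : ∀ w : F, w ^ r ≠ z
    · exfalso
      obtain ⟨t, ht, hdet⟩ := det_nonpow hrp hroot n X hfin hX
      rw [hXdef, LinearMap.det_toLin', x.det_coe] at hdet
      have hd : r ∣ Fintype.card F - 1 := by
        by_contra h
        obtain ⟨w, -, hw⟩ := exists_root h hz0
        exact hroot w hw
      refine nonpow_false hd (by omega) ht hroot hdet.symm ⟨?_, fun h => absurd h hr2⟩
      rcases hrhs with rfl | ⟨-, hrn, -, -⟩
      · refine hgapk rfl ?_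
        have h1 := hgeti.1 hd
        rw [hidef, hqs, ZMod.pow_card] at h1
        rw [← pow_one (Nat.card F₀), hcast1 1 Nat.card_pos, ← orderOf_dvd_iff_pow_eq_one, ← hsdef, h1]
      · rw [← hrn, padicValNat.self hr.one_lt]
        exact one_le_padicValNat_of_dvd (by have := Fintype.one_lt_card (α := F); omega) hd
    push Not at hroot
    obtain ⟨l, hl⟩ := hroot
    have hl0 : l ≠ 0 := fun h => hz0 (by rw [← hl, h, zero_pow hr.ne_zero])
    set y : Module.End F (Fin n → F) := l⁻¹ • X with hydef
    have hXy : ∀ v, X v = l • y v := fun v => by rw [hydef, LinearMap.smul_apply, smul_inv_smul₀ hl0]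
    have hy : ∀ v, (y ^ r) v = v := fun v => by
      rw [hydef, _root_.smul_pow, LinearMap.smul_apply, hX, ← hl, smul_smul, inv_pow,
        inv_mul_cancel₀ (pow_ne_zero r hl0), one_smul]
    have hy1 : ∀ v, (y ^ r) v = (1 : F) • v := fun v => by rw [hy, one_smul]
    -- a vector killed by a factor
    have hkill : ∀ (K : Type _) [Field K] [Fintype K] [DecidableEq K] (φ : K →+* F), ∀ W : Submodule F (Fin n → F), Inv y W → W ≠ ⊥ →
        ∃ g : Polynomial K, (g = Polynomial.X - 1 ∨ g ∈ UniqueFactorizationMonoid.normalizedFactors (cyclotomic r K)) ∧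
          ∃ w ∈ W, w ≠ 0 ∧ Polynomial.aeval y (g.map φ) w = 0 := by
      intro K _ _ _ φ W hW hne
      obtain ⟨v, hv, hv0⟩ := Submodule.exists_mem_ne_zero_of_ne_bot hne
      obtain ⟨u, hu⟩ := UniqueFactorizationMonoid.prod_normalizedFactors (cyclotomic_ne_zero r K)
      have hS : Polynomial.aeval y ((((Polynomial.X - 1 : Polynomial K) ::ₘ
          UniqueFactorizationMonoid.normalizedFactors (cyclotomic r K))).map (fun g => g.map φ)).prod v = 0 := by
        have h : Polynomial.aeval y ((((u⁻¹ : (Polynomial K)ˣ) : Polynomial K)).map φ *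
            (Polynomial.X ^ r - 1)) v = 0 := by
          rw [map_mul, Module.End.mul_apply, map_sub, map_pow, aeval_X, map_one, LinearMap.sub_apply, hy,
            Module.End.one_apply, sub_self, map_zero]
        have heq : ((((u⁻¹ : (Polynomial K)ˣ) : Polynomial K)).map φ * (Polynomial.X ^ r - 1)) =
            (((Polynomial.X - 1 : Polynomial K) ::ₘ UniqueFactorizationMonoid.normalizedFactors (cyclotomic r K)).map
              (fun g => g.map φ)).prod := by
          rw [← Polynomial.map_multiset_prod, Multiset.prod_cons,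
            show (Polynomial.X ^ r - 1 : Polynomial F) = (Polynomial.X ^ r - 1 : Polynomial K).map φ by simp,
            ← Polynomial.map_mul]
          congr 1
          generalize UniqueFactorizationMonoid.normalizedFactors (cyclotomic r K) = nf at hu ⊢
          rw [← cyclotomic_prime_mul_X_sub_one K r, ← hu]
          rw [show ∀ a b c d : Polynomial K, a * (b * c * d) = b * d * (a * c) from fun a b c d => by ring,
            Units.inv_mul, mul_one, mul_comm]
        rwa [heq] at h
      obtain ⟨g', hg', w, hw, hw0, hgw⟩ := SubfieldOdd.exists_killed (y := y) hW _ v hv hv0 hS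
      obtain ⟨g, hg, rfl⟩ := Multiset.mem_map.1 hg'
      exact ⟨g, Multiset.mem_cons.1 hg, w, hw, hw0, hgw⟩
    rcases hrhs with rfl | ⟨rfl, hrn, hn35, hval⟩
    · -- `r = k`
      have hqs' : (Fintype.card F : ZMod r) = s := by rw [hqs, ZMod.pow_card]
      have hfam : SubfieldOdd.Fam (fun _ => (F₀ : Set F)) y ⊤ := by
        refine SubfieldOdd.fam_of_small F₀.zero_mem one_ne_zero hrF hy1 (fun W hW hne => ?_) ⊤ fun _ _ => trivial
        obtain ⟨g, hg, w, hw, hw0, hgw⟩ := hkill F₀ F₀.subtype W hW hne
        have hmi : (g.map F₀.subtype).Monic ∧ Irreducible (g.map F₀.subtype) := by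
          rcases hg with rfl | hg
          · rw [Polynomial.map_sub, Polynomial.map_X, Polynomial.map_one, ← Polynomial.C_1]
            exact ⟨monic_X_sub_C 1, irreducible_X_sub_C 1⟩
          obtain ⟨hgm, hgirr, hgd⟩ := factor_cyclotomic hrp hg
          refine ⟨hgm.map _, ?_⟩
          have hdeg : (g.map F₀.subtype).natDegree = orderOf s := by
            rw [hgm.natDegree_map, hgd]
          have hnu : ¬ IsUnit (g.map F₀.subtype) := fun h => by
            have := Polynomial.natDegree_eq_zero_of_isUnit h
            omega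
          obtain ⟨f, hf⟩ := UniqueFactorizationMonoid.exists_mem_normalizedFactors (hgm.map F₀.subtype).ne_zero hnu
          have hfd : f ∣ g.map F₀.subtype := UniqueFactorizationMonoid.dvd_of_mem_normalizedFactors hf
          have hfi := UniqueFactorizationMonoid.irreducible_of_normalized_factor f hf
          have hfc : f ∣ cyclotomic r F := hfd.trans (by
            rw [← map_cyclotomic r F₀.subtype]
            exact Polynomial.map_dvd _ (UniqueFactorizationMonoid.dvd_of_mem_normalizedFactors hg))
          obtain ⟨f', hf', hff'⟩ := UniqueFactorizationMonoid.exists_mem_normalizedFactors_of_dvd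
            (cyclotomic_ne_zero r F) hfi hfc
          have hfdeg : f.natDegree = orderOf s := by
            rw [Polynomial.natDegree_eq_of_degree_eq (Polynomial.degree_eq_degree_of_associated hff'),
              (factor_cyclotomic hrp hf').2.2, Nat.card_eq_fintype_card, hqs']
          exact (Polynomial.associated_of_dvd_of_natDegree_le hfd (hgm.map F₀.subtype).ne_zero
            (by rw [hdeg, hfdeg])).irreducible hfi
        exact SubfieldOdd.fam_cyclic hmi.1 hmi.2
          (fun j _ _ => by rw [Polynomial.coeff_map]; exact F₀.neg_mem (g.coeff j).2)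
          (fun _ => Or.inl F₀.one_mem) (fun _ => Or.inl F₀.zero_mem) hW hw hw0 hgw
      obtain ⟨T, M, hTM⟩ := SubfieldOdd.exists_matrix hfam
      exact finish l hl0 T M fun v => by rw [hXy, hTM]
    -- the exceptional case
    subst hrn
    have hd1 : r ∣ Nat.card F₀ + 1 := by
      have := pow_padicValNat_dvd (p := r) (n := Nat.card F₀ + 1)
      rwa [hval, pow_one] at this
    have hsm : s = -1 := by
      rw [← ZMod.natCast_eq_zero_iff, Nat.cast_add, Nat.cast_one, ← hsdef] at hd1
      exact eq_neg_of_add_eq_zero_left hd1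
    have hi1 : i = 1 := by rw [hidef, hqs, hsm, neg_one_sq, orderOf_one]
    have hfac : Fintype.card F - 1 = (Nat.card F₀ + 1) * (Nat.card F₀ - 1) := by
      rw [hqk, ← Nat.sq_sub_sq, one_pow]
    have hnr : ¬ r ∣ Nat.card F₀ - 1 := fun h => by
      rw [← pow_one (Nat.card F₀), hcast1 1 Nat.card_pos, pow_one, ← hsdef, hsm] at h
      exact SubfieldTests.two_ne hr2 (by linear_combination -h)
    have hd2 : ¬ r ^ 2 ∣ Fintype.card F - 1 := fun h => by
      rw [hfac] at h
      have := (((hr.coprime_iff_not_dvd.2 hnr).pow_left 2)).dvd_of_dvd_mul_right h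
      have := (padicValNat_dvd_iff_le (p := r) (Nat.succ_ne_zero (Nat.card F₀))).1 this
      rw [Nat.succ_eq_add_one, hval] at this
      omega
    have hlr : l ^ r = 1 := by
      have hdet : LinearMap.det y = (l⁻¹) ^ r := by
        rw [hydef, LinearMap.det_smul, hXdef, LinearMap.det_toLin', x.det_coe, mul_one, hfin]
      have hpow : ((l⁻¹) ^ r) ^ r = 1 := by
        rw [← hdet, ← map_pow, show y ^ r = LinearMap.id from LinearMap.ext hy, LinearMap.det_id]
      have h1 := pow_gcd_eq_one.2 ⟨((pow_mul (l⁻¹) r r).trans hpow), FiniteField.pow_card_sub_one_eq_one _ (inv_ne_zero hl0)⟩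
      obtain ⟨j, hj, hje⟩ := (Nat.dvd_prime_pow hr (i := Nat.gcd (r * r) (Fintype.card F - 1)) (m := 2)).1
        (by rw [pow_two]; exact Nat.gcd_dvd_left _ _)
      have hj1 : j ≤ 1 := by
        by_contra h
        obtain rfl : j = 2 := by omega
        exact hd2 (hje ▸ Nat.gcd_dvd_right _ _)
      obtain ⟨e, he⟩ : r ^ j ∣ r := by
        conv_rhs => rw [← pow_one r]
        exact pow_dvd_pow r hj1
      have : (l⁻¹) ^ r = 1 := by
        conv_lhs => rw [he, pow_mul, ← hje, h1, one_pow]
      rwa [inv_pow, inv_eq_one] at this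
    have hz1 : z = 1 := hl.symm.trans hlr
    have hdety : LinearMap.det y = 1 := by
      rw [hydef, LinearMap.det_smul, hXdef, LinearMap.det_toLin', x.det_coe, mul_one, hfin, inv_pow, hlr, inv_one]
    have hfam : SubfieldOdd.Fam (fun (P : Prop) => {a : F | P ∨ a = 0}) y ⊤ := by
      refine SubfieldOdd.fam_of_small (A := fun (P : Prop) => {a : F | P ∨ a = 0}) (Or.inr rfl) one_ne_zero hrF hy1 (fun W hW hne => ?_) ⊤ fun _ _ => trivial
      obtain ⟨g, hg, w, hw, hw0, hgw⟩ := hkill F (RingHom.id F) W hW hne
      rw [Polynomial.map_id] at hgw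
      have hmi : g.Monic ∧ Irreducible g ∧ g.natDegree = 1 := by
        rcases hg with rfl | hg
        · rw [← Polynomial.C_1]
          exact ⟨monic_X_sub_C 1, irreducible_X_sub_C 1, natDegree_X_sub_C 1⟩
        obtain ⟨hgm, hgirr, hgd⟩ := factor_cyclotomic hrp hg
        exact ⟨hgm, hgirr, by rw [hgd, Nat.card_eq_fintype_card, ← hidef, hi1]⟩
      exact SubfieldOdd.fam_cyclic (A := fun (P : Prop) => {a : F | P ∨ a = 0}) hmi.1 hmi.2.1 (fun j P h => Or.inl (h.resolve_right (not_not.2 hmi.2.2)))
        (fun _ => Or.inr hmi.2.2) (fun _ => Or.inr hmi.2.2) hW hw hw0 hgw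
    obtain ⟨m, b, hbli, hbsp, hbc⟩ := hfam
    obtain rfl : r = m := by
      have := finrank_span_eq_card hbli
      rw [hbsp, finrank_top, hfin, Fintype.card_fin] at this
      exact this
    choose cc hcc hccA using hbc
    have hyb : ∀ j, y (b j) = cc j j • b j := fun j => by
      rw [hcc j, Finset.sum_eq_single j (fun l _ hl => by
        rw [(hccA j l).resolve_left (Ne.symm hl), zero_smul]) (by simp)]
    have hb0 : ∀ j, b j ≠ 0 := fun j => hbli.ne_zero j
    obtain ⟨ζ₀, hζ₀⟩ := exists_prime_orderOf_dvd_card' (G := Fˣ) r (by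
      rw [Nat.card_units, Nat.card_eq_fintype_card]; exact hgeti.2 hi1)
    set ζ : F := (ζ₀ : F) with hζdef
    have hζ : orderOf ζ = r := orderOf_units.trans hζ₀
    have hζr : ζ ^ r = 1 := hζ ▸ pow_orderOf_eq_one ζ
    haveI : NeZero r := ⟨hr.ne_zero⟩
    have hζp : IsPrimitiveRoot ζ r := by rw [IsPrimitiveRoot.iff_orderOf]; exact hζ
    let zp : ZMod r → F := fun a => ζ ^ a.val
    have zp_add : ∀ a c, zp (a + c) = zp a * zp c := fun a c => by
      simp only [zp, ← pow_add, ZMod.val_add]
      exact (pow_eq_pow_mod _ hζr).symm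
    have zp0 : zp 0 = 1 := by simp [zp]
    have hpowb : ∀ (j : Fin r) (e : ℕ), (y ^ e) (b j) = (cc j j) ^ e • b j := fun j e => by
      induction e with
      | zero => simp
      | succ e ih => rw [pow_succ', Module.End.mul_apply, ih, map_smul, hyb, smul_smul, pow_succ]
    have hcr : ∀ j, ∃ a : ZMod r, cc j j = zp a := fun j => by
      obtain ⟨a, ha, he⟩ := hζp.eq_pow_of_pow_eq_one (ξ := cc j j) (by
        have h := hpowb j r
        rw [hy] at h
        exact (smul_left_injective F (hb0 j) ((one_smul F _).trans h)).symm)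
      exact ⟨(a : ZMod r), by simp only [zp, ZMod.val_natCast, Nat.mod_eq_of_lt ha, he]⟩
    choose f hf using hcr
    let B : Basis (Fin r) F (Fin r → F) := Basis.mk hbli (hbsp ▸ le_rfl)
    have hBb : ∀ j, B j = b j := fun j => congrFun (Basis.coe_mk _ _) j
    have hsum : ∑ j, f j = 0 := by
      have hmat : LinearMap.toMatrix B B y = Matrix.diagonal fun j => zp (f j) := by
        ext a c
        rw [LinearMap.toMatrix_apply, hBb, hyb, ← hBb, map_smul, B.repr_self, hf]
        rcases eq_or_ne a c with rfl | h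
        · simp
        · simp [h, Ne.symm h]
      have h1 := LinearMap.det_toMatrix B y
      rw [hmat, Matrix.det_diagonal, hdety] at h1
      have h2 : ∀ S : Finset (Fin r), ∏ j ∈ S, zp (f j) = zp (∑ j ∈ S, f j) := fun S => by
        induction S using Finset.induction with
        | empty => simp [zp]
        | insert j S hj ih => rw [Finset.prod_insert hj, Finset.sum_insert hj, ih, zp_add]
      rw [h2] at h1
      refine ZMod.val_injective r (pow_injOn_Iio_orderOf (x := ζ) (by rw [hζ]; exact ZMod.val_lt _)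
        (by rw [hζ]; exact ZMod.val_lt _) ?_)
      simpa [zp] using h1
    -- centre and pairs
    have pairs : ∀ (ctr : ZMod r) (y' : Module.End F (Fin r → F)), (∀ j, y' (b j) = zp (f j - ctr) • b j) →
        ∀ u v : Fin r, u ≠ v → f u + f v = 2 * ctr →
          SubfieldOdd.Fam (fun _ => (F₀ : Set F)) y' (Submodule.span F {b u, b v}) := by
      intro ctr y' hy' u v huv hs2
      have hαα : zp (f u - ctr) * zp (f v - ctr) = 1 := by
        rw [← zp_add, show f u - ctr + (f v - ctr) = 0 by linear_combination hs2, zp0]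
      refine fam_pair ?_ (hy' u) (hy' v) hαα ?_ fun he => ?_
      · have hinj : Function.Injective ![u, v] := by
          intro a c h; fin_cases a <;> fin_cases c <;>
            first | rfl | exact absurd h huv | exact absurd h.symm huv
        convert hbli.comp _ hinj using 1
        funext a; fin_cases a <;> rfl
      · have hzq : ∀ a, zp a ^ Nat.card F₀ = zp (-a) := fun a => by
          simp only [zp, ← pow_mul]
          rw [pow_eq_pow_mod _ hζr, show (-a).val = (-a).val % r from (Nat.mod_eq_of_lt (ZMod.val_lt _)).symm]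
          congr 1
          refine (ZMod.natCast_eq_natCast_iff' _ _ r).1 ?_
          rw [Nat.cast_mul, ZMod.natCast_zmod_val, ZMod.natCast_zmod_val, ← hsdef, hsm]
          ring
        refine mem_of_pow_natCard ?_
        obtain ⟨e, -, he⟩ := FiniteField.card F₀ p
        rw [Nat.card_eq_fintype_card, he, add_pow_char_pow, ← he, ← Nat.card_eq_fintype_card, hzq, hzq, add_comm]
        rw [show -(f v - ctr) = f u - ctr by linear_combination -hs2,
          show -(f u - ctr) = f v - ctr by linear_combination -hs2]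
      · have h2 : f u - ctr = f v - ctr := by
          refine ZMod.val_injective r (pow_injOn_Iio_orderOf (x := ζ) (by rw [hζ]; exact ZMod.val_lt _)
            (by rw [hζ]; exact ZMod.val_lt _) he)
        have : f u - ctr = 0 := (mul_eq_zero.1 (by linear_combination h2 + hs2 : (2 : ZMod r) * (f u - ctr) = 0)).resolve_left
          (SubfieldTests.two_ne hr2)
        rw [this, zp0]
    have hcentred : ∀ ctr : ZMod r, SubfieldOdd.Fam (fun _ => (F₀ : Set F)) ((zp (-ctr)) • y) ⊤ →
        ∃ P : Matrix.SpecialLinearGroup (Fin r) F, P⁻¹ * x * P ∈ ((Cfsg.Geo.subfieldSubgroup F₀ 1).comap (Matrix.SpecialLinearGroup.toGL : Matrix.SpecialLinearGroup (Fin r) F →* GL (Fin r) F)) := by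
      intro ctr hF
      obtain ⟨T, M, hTM⟩ := SubfieldOdd.exists_matrix hF
      refine finish (l * zp ctr) (mul_ne_zero hl0 (pow_ne_zero _ ζ₀.ne_zero)) T M fun v => ?_
      rw [hTM, LinearMap.smul_apply, smul_smul, mul_assoc, ← zp_add, add_neg_cancel, zp0, mul_one, hXy]
    have hy'b : ∀ (ctr : ZMod r) (j : Fin r), ((zp (-ctr)) • y) (b j) = zp (f j - ctr) • b j := fun ctr j => by
      rw [LinearMap.smul_apply, hyb, hf, smul_smul, ← zp_add, neg_add_eq_sub]
    have hline : ∀ (ctr : ZMod r) (j : Fin r), f j = ctr →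
        SubfieldOdd.Fam (fun _ => (F₀ : Set F)) ((zp (-ctr)) • y) (Submodule.span F {b j}) := fun ctr j hj =>
      fam_line (hb0 j) (hy'b ctr j) (by rw [hj, sub_self, zp0]; exact F₀.one_mem)
    have hdisj : ∀ S S' : Set (Fin r), Disjoint S S' →
        Disjoint (Submodule.span F (b '' S)) (Submodule.span F (b '' S')) := fun S S' h =>
      hbli.disjoint_span_image h
    rcases hn35 with rfl | rfl
    · have hf2 : f = ![f 0, f 1, -(f 0 + f 1)] := by
        rw [Fin.sum_univ_three] at hsum
        funext j
        fin_cases j <;> simp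
        linear_combination hsum
      obtain ⟨e, -, hbij, he⟩ := SubfieldTests.sym_three (f 0) (f 1)
      rw [← hf2] at he
      refine hcentred (f (e 0)) ?_
      have h := (hline _ (e 0) rfl).sup (pairs _ _ (hy'b _) (e 1) (e 2) (fun h => by have := hbij.1 h; simp at this) he)
        (by
          rw [← Set.image_singleton, show ({b (e 1), b (e 2)} : Set _) = b '' {e 1, e 2} by rw [Set.image_pair]]
          refine hdisj _ _ ?_
          simp [hbij.1.eq_iff])
        F₀.zero_mem
      rw [← Submodule.span_union] at h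
      convert h using 1
      rw [← hbsp]
      congr 1
      ext v
      simp only [Set.mem_range, Set.mem_union, Set.mem_insert_iff, Set.mem_singleton_iff]
      constructor
      · rintro ⟨j, rfl⟩
        obtain ⟨a, rfl⟩ := hbij.2 j
        fin_cases a <;> simp
      · rintro (rfl | rfl | rfl) <;> exact ⟨_, rfl⟩
    · have hf2 : f = ![f 0, f 1, f 2, f 3, -(f 0 + f 1 + f 2 + f 3)] := by
        rw [Fin.sum_univ_five] at hsum
        funext j
        fin_cases j <;> simp
        linear_combination hsum
      obtain ⟨e, -, hbij, he, he'⟩ := SubfieldTests.sym_five (f 0) (f 1) (f 2) (f 3)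
      rw [← hf2] at he he'
      refine hcentred (f (e 0)) ?_
      have h2 := (pairs _ _ (hy'b (f (e 0))) (e 1) (e 2) (fun h => by have := hbij.1 h; simp at this) he).sup
        (pairs _ _ (hy'b (f (e 0))) (e 3) (e 4) (fun h => by have := hbij.1 h; simp at this) he')
        (by
          rw [show ({b (e 1), b (e 2)} : Set _) = b '' {e 1, e 2} by rw [Set.image_pair],
            show ({b (e 3), b (e 4)} : Set _) = b '' {e 3, e 4} by rw [Set.image_pair]]
          refine hdisj _ _ ?_
          simp [hbij.1.eq_iff])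
        F₀.zero_mem
      have h := (hline _ (e 0) rfl).sup h2
        (by
          rw [← Submodule.span_union, ← Set.image_singleton,
            show (({b (e 1), b (e 2)} : Set _) ∪ {b (e 3), b (e 4)}) = b '' ({e 1, e 2} ∪ {e 3, e 4}) by
              rw [Set.image_union, Set.image_pair, Set.image_pair]]
          refine hdisj _ _ ?_
          simp [hbij.1.eq_iff])
        F₀.zero_mem
      rw [← Submodule.span_union, ← Submodule.span_union] at h
      convert h using 1
      rw [← hbsp]
      congr 1
      ext v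
      simp only [Set.mem_range, Set.mem_union, Set.mem_insert_iff, Set.mem_singleton_iff]
      constructor
      · rintro ⟨j, rfl⟩
        obtain ⟨a, rfl⟩ := hbij.2 j
        fin_cases a <;> simp
      · rintro (rfl | (rfl | rfl) | (rfl | rfl)) <;> exact ⟨_, rfl⟩

end Cfsg.Agent.S5965
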