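import Cfsg.Statements.S5966
import Cfsg.Agent.Lib.Elusive.SubfieldModel
import Cfsg.Agent.Lib.Elusive.SubfieldArith

set_option autoImplicit false
set_option maxHeartbeats 1600000
open scoped MatrixGroups
open Cfsg
open Cfsg.Agent.Lib.Elusive Cfsg.Agent.Lib.Jordan

namespace Cfsg.Agent.S5966

open Module
open scoped Matrix

variable {F : Type*} [Field F]

/-- Maps commuting with a square-zero map of half rank have square determinant. -/
theorem det_square_of_commute {t : ℕ} {V : Type*} [AddCommGroup V] [Module F V] [FiniteDimensional F V]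
    {N : Module.End F V} (hN : HasType N (Multiset.replicate t 2)) {C : Module.End F V}
    (hC : ∀ v, C (N v) = N (C v)) : ∃ s : F, LinearMap.det C = s ^ 2 := by
  classical
  let J : Matrix (Fin t ⊕ Fin t) (Fin t ⊕ Fin t) F := Matrix.fromBlocks 0 0 1 0
  have hJ2 : Matrix.toLin' J ^ 2 = 0 := by
    rw [← Matrix.toLin'_pow, pow_two, Matrix.fromBlocks_multiply]
    simp
  have hJr : finrank F (LinearMap.range (Matrix.toLin' J)) = t := by
    let g : (Fin t → F) →ₗ[F] (Fin t ⊕ Fin t → F) :=
      { toFun := fun v => Sum.elim 0 v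
        map_add' := fun a b => funext fun i => by cases i <;> simp
        map_smul' := fun a b => funext fun i => by cases i <;> simp }
    have hr : LinearMap.range (Matrix.toLin' J) = LinearMap.range g := by
      ext w
      constructor
      · rintro ⟨v, rfl⟩
        exact ⟨v ∘ Sum.inl, by
          simp [g, J, Matrix.toLin'_apply, Matrix.fromBlocks_mulVec]⟩
      · rintro ⟨v, rfl⟩
        exact ⟨Sum.elim v 0, by simp [g, J, Matrix.toLin'_apply, Matrix.fromBlocks_mulVec]⟩
    rw [hr, LinearMap.finrank_range_of_inj (fun a b h => funext fun i => congrFun h (Sum.inr i)),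
      finrank_fin_fun]
  have hJ := type_sq_zero hJ2
  rw [hJr, Module.finrank_pi, Fintype.card_sum, Fintype.card_fin, show t + t - 2 * t = 0 by omega,
    Multiset.replicate_zero, add_zero] at hJ
  obtain ⟨T, hT⟩ := hJ.exists_equiv hN
  let M := LinearMap.toMatrix' (T.symm.conj C)
  have hM : M * J = J * M := by
    apply Matrix.toLin'.injective
    rw [Matrix.toLin'_mul, Matrix.toLin'_mul, Matrix.toLin'_toMatrix']
    refine LinearMap.ext fun v => T.injective ?_
    simp only [LinearMap.comp_apply, LinearEquiv.conj_apply, LinearEquiv.symm_symm, LinearEquiv.coe_coe, LinearEquiv.apply_symm_apply, hT, hC]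
  have hdet : LinearMap.det C = M.det := by
    rw [LinearMap.det_toMatrix', LinearEquiv.conj_apply, LinearMap.comp_assoc, LinearMap.det_conj]
  rw [← Matrix.fromBlocks_toBlocks M, Matrix.fromBlocks_multiply, Matrix.fromBlocks_multiply] at hM
  simp only [Matrix.mul_zero, Matrix.zero_mul, Matrix.mul_one, Matrix.one_mul, add_zero, zero_add,
    Matrix.fromBlocks_inj] at hM
  obtain ⟨h12, -, h21, -⟩ := hM
  refine ⟨M.toBlocks₁₁.det, ?_⟩
  rw [hdet]
  conv_lhs => rw [← Matrix.fromBlocks_toBlocks M, h12, h21]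
  rw [Matrix.det_fromBlocks_zero₁₂, pow_two]

/-- Elements of order 3 of PSL_n(q) in characteristic 3 and subfield subgroups. Here `T = PSL_n(F)` for a field `F` with `q` elements, `q` a power of 3 (`n ≥ 2`, `(n, q) ≠ (2, 2), (2, 3)`), `F₀` is the subfield with `q₀` elements where `q = q₀^k` for a prime `k`, and `H` is the subgroup of matrices of determinant 1 lying in the subfield group of `F₀` (invertible matrices over `F₀` times scalars) — a maximal subgroup of type GL_n(q₀) (the case `n = 2`, `q₀ = 2` is excluded); Ω is the set of `T`-conjugates of `H` (cosets of `H`), so an element of `T` of prime order `r` (a matrix `x` of determinant 1 with `x^r` scalar, `x` not scalar) fixes a point of Ω when some conjugate of `x` by a matrix of determinant 1 lies in `H`. Suppose 3 divides the index of `H`. Then every element of `T` of order 3 is conjugate in `T` into `H` if and only if `n` is odd, or `n` is even and `k > 2`. -/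
theorem result {F : Type*} [Field F] [Fintype F] [CharP F 3] {q : ℕ} (hq : Fintype.card F = q)
    (n : ℕ) (hn : 2 ≤ n) (hT : (n, q) ≠ (2, 3))
    (F₀ : Subfield F) (k q₀ : ℕ) (hk : k.Prime) (hF₀ : Nat.card ↥F₀ = q₀) (hqk : q = q₀ ^ k) (hC5 : ¬ (n = 2 ∧ q₀ = 2)) (hΩ : 3 ∣ ((Cfsg.Geo.subfieldSubgroup F₀ 1).comap (Matrix.SpecialLinearGroup.toGL : Matrix.SpecialLinearGroup (Fin n) F →* GL (Fin n) F)).index) :
    (∀ x : Matrix.SpecialLinearGroup (Fin n) F,
      (∃ z : F, ((x ^ 3 : Matrix.SpecialLinearGroup (Fin n) F) : Matrix (Fin n) (Fin n) F) = z • (1 : Matrix (Fin n) (Fin n) F)) →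
      (∀ z : F, (x : Matrix (Fin n) (Fin n) F) ≠ z • (1 : Matrix (Fin n) (Fin n) F)) →
      ∃ P : Matrix.SpecialLinearGroup (Fin n) F, P⁻¹ * x * P ∈ ((Cfsg.Geo.subfieldSubgroup F₀ 1).comap (Matrix.SpecialLinearGroup.toGL : Matrix.SpecialLinearGroup (Fin n) F →* GL (Fin n) F))) ↔
    (Odd n ∨ (Even n ∧ 2 < k)) := by
  classical
  subst hq hF₀
  have hn0 : n ≠ 0 := by omega
  have h2 : (2 : F) ≠ 0 := fun h => by
    have h3 : (3 : F) = 0 := by exact_mod_cast CharP.cast_eq_zero F 3
    exact one_ne_zero (show (1 : F) = 0 by linear_combination h3 - h)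
  haveI : CharP F₀ 3 := F₀.subtype.charP Subtype.val_injective 3
  haveI : Finite F₀ := inferInstance
  have hodd : Odd (Nat.card F₀) := by
    have := odd_card h2
    rw [hqk] at this
    exact (Nat.odd_pow_iff hk.ne_zero).1 this
  constructor
  · intro h
    by_contra hne
    push Not at hne
    obtain ⟨hnodd, hk'⟩ := hne
    have hnev : Even n := Nat.not_odd_iff_even.1 hnodd
    have hk2 : k = 2 := le_antisymm (hk' hnev) hk.two_le
    obtain ⟨t, rfl⟩ := hnev.two_dvd
    have hsum : (Multiset.replicate t 2).sum = 2 * t := by simp [mul_comm]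
    obtain ⟨J, hJ0, hJ⟩ := exists_model_mat F₀.subtype (Multiset.replicate t 2)
      (fun a ha => by rw [Multiset.eq_of_mem_replicate ha]; omega) hsum
    set N := Matrix.toLin' (J.map F₀.subtype) with hN
    obtain ⟨δ, hδ⟩ := FiniteField.exists_nonsquare (F := F) (fun e => h2 (by
      have := ringChar.spec F 2
      simpa using this.2 (e ▸ dvd_rfl)))
    have hδ0 : δ ≠ 0 := fun e => hδ (e ▸ IsSquare.zero)
    let D : Matrix (Fin (2 * t)) (Fin (2 * t)) F :=
      Matrix.diagonal fun i => if (i : ℕ) = 0 then δ else 1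
    have hD : D.det = δ := by
      rw [Matrix.det_diagonal, Finset.prod_eq_single (⟨0, by omega⟩ : Fin (2 * t))]
      · simp
      · intro j _ hj
        rw [if_neg fun h => hj (Fin.ext h)]
      · simp
    let T : (Fin (2 * t) → F) ≃ₗ[F] (Fin (2 * t) → F) :=
      Matrix.toLinearEquiv' D (D.invertibleOfIsUnitDet (by rw [hD]; exact hδ0.isUnit))
    have hT : (T : (Fin (2 * t) → F) →ₗ[F] (Fin (2 * t) → F)) = Matrix.toLin' D := rfl
    have hx3 : (T.conj (1 + N)) ^ 3 = 1 := by
      refine LinearMap.ext fun v => ?_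
      rw [pow_eq_of_conj, add_one_pow (p := 3),
        (hJ.pow_eq_zero_iff 3).2 fun a ha => by rw [Multiset.eq_of_mem_replicate ha]; omega]
      simp
    have hdet : LinearMap.det (T.conj (1 + N)) = 1 := by
      refine frobenius_inj F 3 ?_
      simp only [frobenius_def, one_pow]
      rw [← map_pow, hx3]
      exact LinearMap.det_id
    let A : Matrix.SpecialLinearGroup (Fin (2 * t)) F :=
      ⟨LinearMap.toMatrix' (T.conj (1 + N)), by rw [LinearMap.det_toMatrix', hdet]⟩
    have hA : Matrix.toLin' (A : Matrix (Fin (2 * t)) (Fin (2 * t)) F) = T.conj (1 + N) :=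
      Matrix.toLin'_toMatrix' _
    have hA3 : A ^ 3 = 1 := by
      refine Subtype.ext (Matrix.toLin'.injective ?_)
      show Matrix.toLin' ((A ^ 3 : Matrix.SpecialLinearGroup (Fin (2 * t)) F) : Matrix (Fin (2 * t)) (Fin (2 * t)) F) = _
      rw [Matrix.SpecialLinearGroup.coe_pow, Matrix.toLin'_pow, hA, hx3, Matrix.SpecialLinearGroup.coe_one,
        Matrix.toLin'_one]
      rfl
    obtain ⟨P, hP⟩ := h A ⟨1, by rw [hA3, one_smul]; rfl⟩ (fun z hz => by
      have hN0 : N = (z - 1) • (1 : Module.End F (Fin (2 * t) → F)) := by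
        refine LinearMap.ext fun v => T.injective ?_
        have := LinearMap.congr_fun hA (T v)
        rw [hz, map_smul, Matrix.toLin'_one] at this
        simp [LinearEquiv.conj_apply] at this
        simp only [sub_smul, one_smul, LinearMap.sub_apply, LinearMap.smul_apply, Module.End.one_apply,
          map_sub, map_smul, this]
        abel
      have h3 := (hJ.pow_eq_zero_iff 3).2 fun a ha => by rw [Multiset.eq_of_mem_replicate ha]; omega
      rw [hN0, _root_.smul_pow, one_pow, smul_eq_zero] at h3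
      haveI : Nonempty (Fin (2 * t)) := ⟨⟨0, by omega⟩⟩
      have hz1 : z - 1 = 0 := eq_zero_of_pow_eq_zero (h3.resolve_right one_ne_zero)
      rw [hz1, zero_smul] at hN0
      have := hJ.eq_zero_iff.1 hN0 2 (Multiset.mem_replicate.2 ⟨by omega, rfl⟩)
      omega)
    obtain ⟨a, M, ha, hM⟩ := exists_map_of_mem hP
    -- the scalar lies in the subfield
    have hh3 : (P⁻¹ * A * P) ^ 3 = 1 := by
      have : (P⁻¹ * A * P) ^ 3 = P⁻¹ * A ^ 3 * P := by simp [pow_succ, mul_assoc]
      rw [this, hA3, mul_one, inv_mul_cancel]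
    have ha3 : (a ^ 3) • (M ^ 3).map F₀.subtype = (1 : Matrix (Fin (2 * t)) (Fin (2 * t)) F) := by
      have := congrArg (fun g : Matrix.SpecialLinearGroup (Fin (2 * t)) F => (g : Matrix (Fin (2 * t)) (Fin (2 * t)) F)) hh3
      simp only [Matrix.SpecialLinearGroup.coe_pow, hM, smul_pow, Matrix.SpecialLinearGroup.coe_one,
        ← RingHom.mapMatrix_apply, ← map_pow] at this
      exact this
    have h00 := congrFun (congrFun ha3 ⟨0, by omega⟩) ⟨0, by omega⟩
    simp only [Matrix.smul_apply, Matrix.map_apply, Matrix.one_apply_eq, smul_eq_mul,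
      Subfield.coe_subtype] at h00
    obtain ⟨b, hb⟩ := exists_root_char (p := 3) ((M ^ 3) ⟨0, by omega⟩ ⟨0, by omega⟩)⁻¹
    have hab : a = (b : F) := by
      refine frobenius_inj F 3 ?_
      simp only [frobenius_def]
      rw [← SubmonoidClass.coe_pow, hb, Subfield.coe_inv, eq_inv_of_mul_eq_one_left h00]
    set M' : Matrix (Fin (2 * t)) (Fin (2 * t)) F₀ := b • M with hM'
    have hg : ((P⁻¹ * A * P : Matrix.SpecialLinearGroup (Fin (2 * t)) F) : Matrix (Fin (2 * t)) (Fin (2 * t)) F) =
        M'.map F₀.subtype := by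
      rw [hM, hM', hab]
      ext i j
      simp
    -- its Jordan type over the subfield
    have hN1 : (Matrix.toLin' (M' - 1)) ^ 3 = 0 := by
      rw [← Matrix.toLin'_pow, show (M' - 1) ^ 3 = 0 from ?_, map_zero]
      refine Matrix.map_injective Subtype.val_injective ?_
      have h' := congrArg (fun g : Matrix.SpecialLinearGroup (Fin (2 * t)) F => (g : Matrix (Fin (2 * t)) (Fin (2 * t)) F)) hh3
      simp only [Matrix.SpecialLinearGroup.coe_pow, hg, Matrix.SpecialLinearGroup.coe_one,
        ← RingHom.mapMatrix_apply] at h'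
      show F₀.subtype.mapMatrix ((M' - 1) ^ 3) = F₀.subtype.mapMatrix 0
      apply Matrix.toLin'.injective
      rw [map_pow, map_sub, map_one, map_zero, Matrix.toLin'_pow, map_sub, Matrix.toLin'_one,
        ← Module.End.one_eq_id, aeval_sub_one_pow (p := 3), ← Matrix.toLin'_pow, h', Matrix.toLin'_one,
        ← Module.End.one_eq_id, sub_self, map_zero]
    obtain ⟨μ, hμ⟩ := exists_type (f := Matrix.toLin' (M' - 1)) ⟨3, hN1⟩
    obtain ⟨J', hJ', hJ'F⟩ := exists_model_mat F₀.subtype μ (fun a ha => hμ.pos ha)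
      (hμ.sum_eq.trans (finrank_fin_fun F₀))
    obtain ⟨T₀, hT₀⟩ := hJ'.exists_equiv hμ
    set G := LinearMap.toMatrix' (T₀ : (Fin (2 * t) → F₀) →ₗ[F₀] (Fin (2 * t) → F₀)) with hG
    have hGJ : G * J' = (M' - 1) * G := by
      apply Matrix.toLin'.injective
      rw [Matrix.toLin'_mul, Matrix.toLin'_mul, hG, Matrix.toLin'_toMatrix']
      exact LinearMap.ext hT₀
    have hGdet : G.det ≠ 0 := by
      rw [hG, LinearMap.det_toMatrix']
      exact T₀.isUnit_det'.ne_zero
    have hGF := congrArg (fun W : Matrix (Fin (2 * t)) (Fin (2 * t)) F₀ => F₀.subtype.mapMatrix W) hGJ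
    simp only [map_mul, map_sub, map_one, RingHom.mapMatrix_apply, ← hg] at hGF
    let TG : (Fin (2 * t) → F) ≃ₗ[F] (Fin (2 * t) → F) :=
      Matrix.toLinearEquiv' (G.map F₀.subtype) ((G.map F₀.subtype).invertibleOfIsUnitDet (by
        rw [← RingHom.mapMatrix_apply, ← RingHom.map_det]; exact ((map_ne_zero _).2 hGdet).isUnit))
    let TP : (Fin (2 * t) → F) ≃ₗ[F] (Fin (2 * t) → F) :=
      Matrix.toLinearEquiv' (P : Matrix (Fin (2 * t)) (Fin (2 * t)) F)
        ((P : Matrix (Fin (2 * t)) (Fin (2 * t)) F).invertibleOfIsUnitDet (by rw [P.det_coe]; exact isUnit_one))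
    let U := (TG.trans TP).trans T.symm
    have hU : ∀ v, U (Matrix.toLin' (J'.map F₀.subtype) v) = N (U v) := by
      intro v
      have e1 : TG (Matrix.toLin' (J'.map F₀.subtype) v) =
          Matrix.toLin' ((P⁻¹ * A * P : Matrix.SpecialLinearGroup (Fin (2 * t)) F) : Matrix (Fin (2 * t)) (Fin (2 * t)) F) (TG v) - TG v := by
        show Matrix.toLin' (G.map F₀.subtype) (Matrix.toLin' (J'.map F₀.subtype) v) = _
        rw [← LinearMap.comp_apply, ← Matrix.toLin'_mul, hGF, Matrix.toLin'_mul, map_sub,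
          Matrix.toLin'_one]
        rfl
      have e2 : ∀ w, TP (Matrix.toLin' ((P⁻¹ * A * P : Matrix.SpecialLinearGroup (Fin (2 * t)) F) : Matrix (Fin (2 * t)) (Fin (2 * t)) F) w) =
          T.conj (1 + N) (TP w) := by
        intro w
        show Matrix.toLin' (P : Matrix (Fin (2 * t)) (Fin (2 * t)) F) _ = _
        rw [← LinearMap.comp_apply, ← Matrix.toLin'_mul, ← Matrix.SpecialLinearGroup.coe_mul,
          show P * (P⁻¹ * A * P) = A * P by group, Matrix.SpecialLinearGroup.coe_mul, Matrix.toLin'_mul,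
          LinearMap.comp_apply, hA]
        rfl
      show T.symm (TP (TG _)) = _
      rw [e1, map_sub, e2, LinearEquiv.conj_apply]
      simp [U]
    have hμ' : μ = Multiset.replicate t 2 :=
      (hJ'F.transport U hU).unique hJ
    rw [hμ'] at hJ' hJ'F
    obtain ⟨T₁, hT₁⟩ := hJ0.exists_equiv hJ'
    set G₁ := LinearMap.toMatrix' (T₁ : (Fin (2 * t) → F₀) →ₗ[F₀] (Fin (2 * t) → F₀)) with hG₁
    have hG₁J : G₁ * J = J' * G₁ := by
      apply Matrix.toLin'.injective
      rw [Matrix.toLin'_mul, Matrix.toLin'_mul, hG₁, Matrix.toLin'_toMatrix']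
      exact LinearMap.ext hT₁
    have hG₁det : G₁.det ≠ 0 := by
      rw [hG₁, LinearMap.det_toMatrix']
      exact T₁.isUnit_det'.ne_zero
    have hG₁F := congrArg (fun W : Matrix (Fin (2 * t)) (Fin (2 * t)) F₀ => F₀.subtype.mapMatrix W) hG₁J
    simp only [map_mul, RingHom.mapMatrix_apply] at hG₁F
    let C : Module.End F (Fin (2 * t) → F) :=
      (U : (Fin (2 * t) → F) →ₗ[F] (Fin (2 * t) → F)) ∘ₗ Matrix.toLin' (G₁.map F₀.subtype)
    obtain ⟨s, hs⟩ := det_square_of_commute hJ (C := C) (fun v => by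
      show U (Matrix.toLin' (G₁.map F₀.subtype) (N v)) = N (U _)
      rw [← hU, hN, ← LinearMap.comp_apply, ← Matrix.toLin'_mul, hG₁F, Matrix.toLin'_mul]
      rfl)
    have hTsymm : LinearMap.det (T.symm : (Fin (2 * t) → F) →ₗ[F] (Fin (2 * t) → F)) = δ⁻¹ := by
      have hdetT : LinearMap.det (T : (Fin (2 * t) → F) →ₗ[F] (Fin (2 * t) → F)) = δ := by
        rw [hT, LinearMap.det_toLin', hD]
      have h := congrArg LinearMap.det (LinearEquiv.symm_comp T)
      rw [LinearMap.det_comp, LinearMap.det_id, hdetT] at h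
      exact eq_inv_of_mul_eq_one_left h
    have hdC : LinearMap.det C = δ⁻¹ * ((G.det : F) * (G₁.det : F)) := by
      show LinearMap.det ((T.symm.toLinearMap ∘ₗ (TP.toLinearMap ∘ₗ TG.toLinearMap)) ∘ₗ
        Matrix.toLin' (G₁.map F₀.subtype)) = _
      rw [LinearMap.det_comp, LinearMap.det_comp, LinearMap.det_comp]
      rw [show TP.toLinearMap = Matrix.toLin' (P : Matrix (Fin (2 * t)) (Fin (2 * t)) F) from rfl,
        show TG.toLinearMap = Matrix.toLin' (G.map F₀.subtype) from rfl]
      rw [LinearMap.det_toLin', LinearMap.det_toLin', LinearMap.det_toLin', P.det_coe,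
        ← RingHom.mapMatrix_apply, ← RingHom.map_det, ← RingHom.mapMatrix_apply, ← RingHom.map_det]
      rw [hTsymm]
      simp [mul_assoc]
    have hd0 : (G.det : F) * (G₁.det : F) ≠ 0 :=
      mul_ne_zero ((map_ne_zero F₀.subtype).2 hGdet) ((map_ne_zero F₀.subtype).2 hG₁det)
    obtain ⟨r, hr⟩ := isSquare_of_mem hqk hk2 hodd (fun e => h2 (by
      have := ringChar.spec F 2
      simpa using this.2 (e ▸ dvd_rfl))) (F₀.mul_mem G.det.2 G₁.det.2)
    refine hδ ⟨r / s, ?_⟩
    have hs0 : s ≠ 0 := fun e => by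
      rw [e, zero_pow two_ne_zero] at hs
      rw [hs] at hdC
      exact mul_ne_zero (inv_ne_zero hδ0) hd0 hdC.symm
    rw [hdC, hr] at hs
    field_simp at hs ⊢
    linear_combination -hs
  · intro hrhs x hx hns
    obtain ⟨l, N, μ, hxN, hN, hμ, hsum⟩ := exists_nilpotent (p := 3) hn0 hx
    have hl : l ≠ 0 := fun e => by
      have h := LinearMap.det_toLin' (x : Matrix (Fin n) (Fin n) F)
      rw [hxN, x.det_coe, e, zero_smul, LinearMap.det_zero, finrank_fin_fun, zero_pow hn0] at h
      exact zero_ne_one h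
    obtain ⟨J, -, hJ⟩ := exists_model_mat F₀.subtype μ (fun a ha => (hμ a ha).1) hsum
    set y : Module.End F (Fin n → F) := Matrix.toLin' (J.map F₀.subtype) with hy
    obtain ⟨T, hT⟩ := hJ.exists_equiv hN
    -- enough determinants
    obtain ⟨d, C, hd, hC, hdC⟩ : ∃ (d : F₀) (C : Module.End F (Fin n → F)), d ≠ 0 ∧
        (∀ v, C (y v) = y (C v)) ∧
        LinearMap.det C = (d : F) * (LinearMap.det (T : (Fin n → F) →ₗ[F] (Fin n → F)))⁻¹ := by
      set δ := (LinearMap.det (T : (Fin n → F) →ₗ[F] (Fin n → F)))⁻¹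
      have hδ : δ ≠ 0 := inv_ne_zero T.isUnit_det'.ne_zero
      by_cases hodd' : ∃ a ∈ μ, a ≠ 2
      · obtain ⟨a, ha, ha2⟩ := hodd'
        obtain ⟨s, hs⟩ : ∃ s : F, s ^ a = δ := by
          have := hμ a ha
          rcases (show a = 1 ∨ a = 3 by omega) with rfl | rfl
          · exact ⟨δ, pow_one δ⟩
          · exact exists_root_char δ
        obtain ⟨C, hC, hd⟩ := exists_comm_det_part hJ ha s
        exact ⟨1, C, one_ne_zero, hC, by rw [hd, hs]; simp⟩
      · push Not at hodd'
        have he : Even n := ⟨μ.card, by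
          rw [← hsum, Multiset.eq_replicate_card.2 hodd', Multiset.sum_replicate, Multiset.card_replicate]
          simp [mul_two]⟩
        have hko : Odd k := hk.eq_two_or_odd'.resolve_left fun h => by
          rcases hrhs with h' | ⟨-, h'⟩
          · exact Nat.not_even_iff_odd.2 h' he
          · omega
        obtain ⟨d, s, hd, hds⟩ := exists_mul_sq hqk hko hδ hodd
        obtain ⟨a, ha⟩ := Multiset.exists_mem_of_ne_zero (s := μ) (fun e => hn0 (by rw [← hsum, e]; simp))
        obtain ⟨C, hC, hdet⟩ := exists_comm_det_part hJ ha s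
        refine ⟨d⁻¹, C, inv_ne_zero hd, hC, ?_⟩
        rw [hdet, hodd' a ha, hds, Subfield.coe_inv, ← mul_assoc,
          inv_mul_cancel₀ (fun e => hd (Subtype.ext e)), one_mul]
    let G₀ : Matrix (Fin n) (Fin n) F₀ := Matrix.diagonal fun i => if (i : ℕ) = 0 then d⁻¹ else 1
    have hG₀ : G₀.det = d⁻¹ := by
      rw [Matrix.det_diagonal, Finset.prod_eq_single (⟨0, by omega⟩ : Fin n)]
      · simp
      · intro j _ hj
        rw [if_neg fun h => hj (Fin.ext h)]
      · simp
    haveI := G₀.invertibleOfIsUnitDet (by rw [hG₀]; exact (inv_ne_zero hd).isUnit)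
    let P : Matrix.SpecialLinearGroup (Fin n) F :=
      ⟨LinearMap.toMatrix' ((T.toLinearMap ∘ₗ C) ∘ₗ Matrix.toLin' (G₀.map F₀.subtype)), by
        rw [LinearMap.det_toMatrix', LinearMap.det_comp, LinearMap.det_comp, hdC, LinearMap.det_toLin',
          ← RingHom.mapMatrix_apply, ← RingHom.map_det, hG₀, Subfield.coe_subtype, Subfield.coe_inv]
        have h0 : (d : F) ≠ 0 := fun e => hd (Subtype.ext e)
        have h1 : LinearMap.det (T : (Fin n → F) →ₗ[F] (Fin n → F)) ≠ 0 := T.isUnit_det'.ne_zero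
        field_simp⟩
    refine ⟨P, mem_subfield_of_map hl (M := ⅟ G₀ * ((1 + J) * G₀)) ?_⟩
    apply coe_eq_of_toLin'
    have hP : Matrix.toLin' (P : Matrix (Fin n) (Fin n) F) =
        (T.toLinearMap ∘ₗ C) ∘ₗ Matrix.toLin' (G₀.map F₀.subtype) := Matrix.toLin'_toMatrix' _
    have hPinj : Function.Injective (Matrix.toLin' (P : Matrix (Fin n) (Fin n) F)) := fun u v huv => by
      have := congrArg (Matrix.toLin' ((P⁻¹ : Matrix.SpecialLinearGroup (Fin n) F) : Matrix (Fin n) (Fin n) F)) huv
      rwa [← LinearMap.comp_apply, ← LinearMap.comp_apply, ← Matrix.toLin'_mul,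
        ← Matrix.SpecialLinearGroup.coe_mul, inv_mul_cancel, Matrix.SpecialLinearGroup.coe_one,
        Matrix.toLin'_one] at this
    refine LinearMap.ext fun v => hPinj ?_
    rw [← LinearMap.comp_apply, ← Matrix.toLin'_mul, ← Matrix.SpecialLinearGroup.coe_mul,
      show P * (P⁻¹ * x * P) = x * P by group, Matrix.SpecialLinearGroup.coe_mul, Matrix.toLin'_mul,
      LinearMap.comp_apply, hxN, LinearMap.smul_apply, LinearMap.smul_apply, map_smul]
    congr 1
    rw [hP, show (⅟ G₀ * ((1 + J) * G₀)).map F₀.subtype =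
      (⅟ G₀).map F₀.subtype * ((1 + J.map F₀.subtype) * G₀.map F₀.subtype) by
        simp only [← RingHom.mapMatrix_apply, map_mul, map_add, map_one]]
    simp only [LinearMap.comp_apply]
    rw [← LinearMap.comp_apply (Matrix.toLin' (G₀.map F₀.subtype)), ← Matrix.toLin'_mul, ← mul_assoc,
      show G₀.map F₀.subtype * (⅟ G₀).map F₀.subtype = 1 by
        rw [← RingHom.mapMatrix_apply, ← RingHom.mapMatrix_apply, ← map_mul, mul_invOf_self, map_one],
      one_mul, Matrix.toLin'_mul, LinearMap.comp_apply, map_add, Matrix.toLin'_one]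
    simp only [Matrix.toLin'_mul, ← hy, LinearMap.comp_apply, LinearEquiv.coe_coe, LinearMap.add_apply,
      LinearMap.id_apply, Module.End.one_apply, map_add, hC, hT]

end Cfsg.Agent.S5966
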