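import Cfsg.Statements.S5967
import Cfsg.Agent.Lib.Elusive.Involution
import Cfsg.Agent.Lib.Forms.Alternating

set_option autoImplicit false
set_option maxHeartbeats 1000000
open scoped MatrixGroups
open Cfsg
open Cfsg.Agent.Lib.Elusive Cfsg.Agent.Lib.Forms
open scoped Matrix

namespace Cfsg.Agent.S5967

open Module

variable {F : Type*} [Field F]

/-- The standard form on `t` hyperbolic planes. -/
def planeForm (t : ℕ) : LinearMap.BilinForm F (Fin t → F × F) :=
  LinearMap.mk₂ F (fun u v => ∑ k, ((u k).1 * (v k).2 - (u k).2 * (v k).1))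
    (fun a b c => by
      rw [← Finset.sum_add_distrib]
      exact Finset.sum_congr rfl fun k _ => by simp; ring)
    (fun s a b => by
      rw [smul_eq_mul, Finset.mul_sum]
      exact Finset.sum_congr rfl fun k _ => by simp; ring)
    (fun a b c => by
      rw [← Finset.sum_add_distrib]
      exact Finset.sum_congr rfl fun k _ => by simp; ring)
    (fun s a b => by
      rw [smul_eq_mul, Finset.mul_sum]
      exact Finset.sum_congr rfl fun k _ => by simp; ring)

theorem planeForm_apply {t : ℕ} (u v : Fin t → F × F) :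
    planeForm t u v = ∑ k, ((u k).1 * (v k).2 - (u k).2 * (v k).1) := rfl

theorem exists_coords {n t : ℕ} (hnt : n = 2 * t) {f : (Fin n → F) → (Fin n → F) → F}
    (hf : Cfsg.Geo.IsSymplecticForm f) :
    ∃ e : (Fin n → F) ≃ₗ[F] (Fin t → F × F), ∀ u v, f u v = planeForm t (e u) (e v) := by
  let B : LinearMap.BilinForm F (Fin n → F) := LinearMap.mk₂ F f hf.bilinear.add_left
    (fun c a b => hf.bilinear.smul_left c a b) hf.bilinear.add_right
    (fun c a b => hf.bilinear.smul_right c a b)
  obtain ⟨e, he⟩ := exists_alt_isometry B hf.alternating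
    (fun v hv => by
      by_contra h
      obtain ⟨x, hx⟩ := (hf.nondegenerate v h).2
      exact hx (hv x))
    (planeForm t) (fun v => by rw [planeForm_apply]; exact Finset.sum_eq_zero fun k _ => by ring)
    (fun v hv => funext fun k => by
      classical
      have h := hv (Pi.single k ((0, 1) : F × F))
      have h' := hv (Pi.single k ((1, 0) : F × F))
      rw [planeForm_apply, Finset.sum_eq_single k (fun b _ hb => by simp [hb]) (by simp)] at h h'
      exact Prod.ext (by simpa using h) (by simpa using h'))
    (by rw [Module.finrank_fin_fun, Module.finrank_pi_fintype F, Finset.sum_const, Finset.card_univ,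
      Fintype.card_fin, Module.finrank_prod, Module.finrank_self, smul_eq_mul, hnt, mul_comm])
  exact ⟨e, fun u v => (he u v).symm⟩

theorem mem_of_blocks {n t : ℕ} {f : (Fin n → F) → (Fin n → F) → F}
    (e : (Fin n → F) ≃ₗ[F] (Fin t → F × F)) (he : ∀ u v, f u v = planeForm t (e u) (e v))
    {g : Matrix.SpecialLinearGroup (Fin n) F} {L : Fin t → Module.End F (F × F)} {c : F} (hc : c ≠ 0)
    (hg : Matrix.toLin' (g : Matrix (Fin n) (Fin n) F) = e.symm.conj (blockMap L))
    (hL : ∀ k a b, (L k a).1 * (L k b).2 - (L k a).2 * (L k b).1 = c * (a.1 * b.2 - a.2 * b.1)) :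
    g ∈ (Cfsg.Geo.similarityGroup f).comap (Matrix.SpecialLinearGroup.toGL : Matrix.SpecialLinearGroup (Fin n) F →* GL (Fin n) F) := by
  refine ⟨Units.mk0 c hc, fun u v => ?_⟩
  show f ((g : Matrix (Fin n) (Fin n) F) *ᵥ u) ((g : Matrix (Fin n) (Fin n) F) *ᵥ v) = c * f u v
  rw [← Matrix.toLin'_apply, ← Matrix.toLin'_apply, hg, he, he, planeForm_apply, planeForm_apply,
    Finset.mul_sum]
  refine Finset.sum_congr rfl fun k _ => ?_
  simpa [LinearEquiv.conj_apply, blockMap_apply] using hL k (e u k) (e v k)

theorem conj_sub {n t : ℕ} (e : (Fin n → F) ≃ₗ[F] (Fin t → F × F)) (L : Fin t → Module.End F (F × F)) (l : F) :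
    e.symm.conj (blockMap L) - l • LinearMap.id = e.symm.conj (blockMap fun k => L k - l • LinearMap.id) := by
  refine LinearMap.ext fun v => e.injective (funext fun k => ?_)
  simp [LinearEquiv.conj_apply, blockMap_apply]

theorem ker_zero_finrank : finrank F (LinearMap.ker (0 : Module.End F (F × F))) = 2 := by
  rw [LinearMap.ker_zero, finrank_top, Module.finrank_prod, Module.finrank_self]

/-- The shear. -/
def shear : Module.End F (F × F) := (LinearMap.inl F F F).comp (LinearMap.snd F F F)

theorem ker_shear_finrank : finrank F (LinearMap.ker (shear (F := F))) = 1 := by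
  rw [shear, LinearMap.ker_comp, LinearMap.ker_eq_bot.2 LinearMap.inl_injective, Submodule.comap_bot,
    LinearMap.ker_snd, LinearMap.finrank_range_of_inj LinearMap.inl_injective, Module.finrank_self]

/-- Involutions of PSL_n(q) and the symplectic-type subgroups. Here `T = PSL_n(F)` for a field `F` with `q` elements, `n ≥ 4` even, `f` is a nondegenerate alternating form on `F^n`, and `H` is the subgroup of matrices of determinant 1 preserving `f` up to a scalar — a maximal subgroup of type Sp_n(q); Ω is the set of `T`-conjugates of `H` (cosets of `H`), so an element of `T` of prime order `r` (a matrix `x` of determinant 1 with `x^r` scalar, `x` not scalar) fixes a point of Ω when some conjugate of `x` by a matrix of determinant 1 preserves `f` up to a scalar. Suppose the index of `H` is even. Then every involution of `T` is conjugate in `T` into `H` if and only if `(q − 1)_2 ≤ (n)_2`. -/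
theorem result {F : Type*} [Field F] [Fintype F] {p : ℕ} [Fact p.Prime] [CharP F p] {q : ℕ} (hq : Fintype.card F = q)
    (n : ℕ) (hn : 4 ≤ n) (he : Even n) (f : (Fin n → F) → (Fin n → F) → F) (hf : Cfsg.Geo.IsSymplecticForm f)
    (hΩ : 2 ∣ ((Cfsg.Geo.similarityGroup f).comap (Matrix.SpecialLinearGroup.toGL : Matrix.SpecialLinearGroup (Fin n) F →* GL (Fin n) F)).index) :
    (∀ x : Matrix.SpecialLinearGroup (Fin n) F,
      (∃ z : F, ((x ^ 2 : Matrix.SpecialLinearGroup (Fin n) F) : Matrix (Fin n) (Fin n) F) = z • (1 : Matrix (Fin n) (Fin n) F)) →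
      (∀ z : F, (x : Matrix (Fin n) (Fin n) F) ≠ z • (1 : Matrix (Fin n) (Fin n) F)) →
      ∃ P : Matrix.SpecialLinearGroup (Fin n) F, P⁻¹ * x * P ∈ ((Cfsg.Geo.similarityGroup f).comap (Matrix.SpecialLinearGroup.toGL : Matrix.SpecialLinearGroup (Fin n) F →* GL (Fin n) F))) ↔
    padicValNat 2 (q - 1) ≤ padicValNat 2 n := by
  classical
  subst hq
  constructor
  · intro h
    by_contra hv
    push Not at hv
    have h2 : (2 : F) ≠ 0 := fun h0 => by
      haveI : CharP F 2 := CharTwo.of_one_ne_zero_of_two_eq_zero one_ne_zero h0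
      obtain ⟨e, -, he'⟩ := FiniteField.card F 2
      rw [padicValNat.eq_zero_of_not_dvd (n := Fintype.card F - 1)] at hv
      · omega
      · rw [he']
        have : 2 ∣ 2 ^ (e : ℕ) := dvd_pow_self 2 e.ne_zero
        have := Nat.one_le_two_pow (n := (e : ℕ))
        omega
    obtain ⟨l, hl, hln⟩ := exists_npow_neg_one h2 (show n ≠ 0 by omega) hv
    let d : Fin n → F := fun i => if (i : ℕ) = 0 then -l else l
    have hd : ∏ i, d i = 1 := by
      obtain ⟨n', rfl⟩ : ∃ n', n = n' + 1 := ⟨n - 1, by omega⟩
      rw [Fin.prod_univ_succ]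
      simp only [d, Fin.val_zero, if_pos trivial, Fin.val_succ, Nat.succ_ne_zero, if_false,
        Finset.prod_const, Finset.card_univ, Fintype.card_fin]
      rw [neg_mul, ← pow_succ', hln, neg_neg]
    let A : Matrix.SpecialLinearGroup (Fin n) F := ⟨Matrix.diagonal d, by rw [Matrix.det_diagonal, hd]⟩
    have hA2 : ((A ^ 2 : Matrix.SpecialLinearGroup (Fin n) F) : Matrix (Fin n) (Fin n) F) =
        (l * l) • (1 : Matrix (Fin n) (Fin n) F) := by
      rw [Matrix.SpecialLinearGroup.coe_pow]
      show Matrix.diagonal d ^ 2 = _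
      rw [Matrix.diagonal_pow, Matrix.smul_one_eq_diagonal]
      congr 1
      funext i
      simp only [Pi.pow_apply, d]
      split_ifs <;> ring
    obtain ⟨P, hP⟩ := h A ⟨_, hA2⟩ (fun z hz => h2 (by
      have e0 := congrFun (congrFun hz ⟨0, by omega⟩) ⟨0, by omega⟩
      have e1 := congrFun (congrFun hz ⟨1, by omega⟩) ⟨1, by omega⟩
      simp [A, d] at e0 e1
      have : (2 : F) * l = 0 := by linear_combination e1 - e0
      exact (mul_eq_zero.1 this).resolve_right hl))
    obtain ⟨c, hc⟩ := hP
    let Q := Matrix.toLin' ((P⁻¹ : Matrix.SpecialLinearGroup (Fin n) F) : Matrix (Fin n) (Fin n) F)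
    let B : LinearMap.BilinForm F (Fin n → F) := LinearMap.mk₂ F f hf.bilinear.add_left
      (fun c a b => hf.bilinear.smul_left c a b) hf.bilinear.add_right
      (fun c a b => hf.bilinear.smul_right c a b)
    let B' := B.compl₁₂ Q Q
    have hQ : Function.Surjective Q := fun w => ⟨Matrix.toLin' (P : Matrix (Fin n) (Fin n) F) w, by
      rw [← LinearMap.comp_apply, ← Matrix.toLin'_mul, ← Matrix.SpecialLinearGroup.coe_mul,
        inv_mul_cancel, Matrix.SpecialLinearGroup.coe_one, Matrix.toLin'_one, LinearMap.id_apply]⟩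
    have hQi : Function.Injective Q := LinearMap.injective_iff_surjective.2 hQ
    have hnd : ∀ w, (∀ v, B' w v = 0) → w = 0 := fun w hw => by
      by_contra hw0
      obtain ⟨x, hx⟩ := (hf.nondegenerate (Q w) (fun h0 => hw0 (hQi (by rw [h0, map_zero])))).2
      obtain ⟨v, rfl⟩ := hQ x
      exact hx (hw v)
    have hsim : ∀ i j, d i * d j * B' (Pi.single i 1) (Pi.single j 1) =
        (c : F) * B' (Pi.single i 1) (Pi.single j 1) := by
      intro i j
      have hx : ∀ i, Q (d i • Pi.single i 1) =
          ((P⁻¹ * A * P : Matrix.SpecialLinearGroup (Fin n) F) : Matrix (Fin n) (Fin n) F) *ᵥ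
            Q (Pi.single i 1) := by
        intro i
        simp only [Q, Matrix.toLin'_apply, Matrix.SpecialLinearGroup.coe_mul, Matrix.mulVec_mulVec]
        rw [mul_assoc, mul_assoc, ← Matrix.SpecialLinearGroup.coe_mul P, mul_inv_cancel,
          Matrix.SpecialLinearGroup.coe_one, mul_one, ← Matrix.mulVec_mulVec]
        congr 1
        show _ = Matrix.diagonal d *ᵥ _
        ext k
        rw [Matrix.mulVec_diagonal]
        rcases eq_or_ne k i with rfl | hk <;> simp [*]
      have h1 : B' (d i • Pi.single i 1) (d j • Pi.single j 1) =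
          (c : F) * B' (Pi.single i 1) (Pi.single j 1) := by
        simp only [B', LinearMap.compl₁₂_apply, hx]
        exact hc _ _
      rw [← h1]
      simp [mul_assoc, mul_left_comm]
    let i₀ : Fin n := ⟨0, by omega⟩
    let i₁ : Fin n := ⟨1, by omega⟩
    let i₂ : Fin n := ⟨2, by omega⟩
    have hd0 : d i₀ = -l := by simp [d, i₀]
    have hd' : ∀ i, i ≠ i₀ → d i = l := fun i hi => by
      simp only [d]
      rw [if_neg fun h => hi (Fin.ext h)]
    have hB'alt : ∀ v, B' v v = 0 := fun v => hf.alternating _
    obtain ⟨j, hj⟩ : ∃ j, B' (Pi.single i₀ 1) (Pi.single j 1) ≠ 0 := by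
      by_contra hall
      push Not at hall
      have h0 := hnd (Pi.single i₀ 1) fun v => by
        rw [show v = ∑ j, v j • Pi.single j 1 from pi_eq_sum_univ' v]
        simp [hall]
      simpa using congrFun h0 i₀
    have hj0 : j ≠ i₀ := fun h => hj (by rw [h]; exact hB'alt _)
    have hc' : (c : F) = -(l * l) := by
      have := mul_right_cancel₀ hj (hsim i₀ j)
      rw [← this, hd0, hd' j hj0, neg_mul]
    have hzero : ∀ i k, i ≠ i₀ → k ≠ i₀ → B' (Pi.single i 1) (Pi.single k 1) = 0 := by
      intro i k hi hk
      have := hsim i k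
      rw [hd' i hi, hd' k hk, hc', neg_mul, ← add_eq_zero_iff_eq_neg, ← two_mul, ← mul_assoc,
        ← mul_assoc] at this
      exact (mul_eq_zero.1 this).resolve_left (mul_ne_zero (mul_ne_zero h2 hl) hl)
    have h10 : i₁ ≠ i₀ := by simp [i₀, i₁, Fin.ext_iff]
    have h20 : i₂ ≠ i₀ := by simp [i₀, i₂, Fin.ext_iff]
    have h12 : i₁ ≠ i₂ := by simp [i₁, i₂, Fin.ext_iff]
    set a := B' (Pi.single i₁ 1) (Pi.single i₀ 1) with ha
    set b := B' (Pi.single i₂ 1) (Pi.single i₀ 1) with hb
    have hw : ∀ (s u : F), s * a + u * b = 0 → s • (Pi.single i₁ 1 : Fin n → F) + u • Pi.single i₂ 1 = 0 := by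
      intro s u hsu
      refine hnd _ fun v => ?_
      rw [pi_eq_sum_univ' v]
      simp only [map_add, map_smul, LinearMap.add_apply, LinearMap.smul_apply, map_sum, smul_eq_mul]
      refine Finset.sum_eq_zero fun k _ => ?_
      rcases eq_or_ne k i₀ with rfl | hk
      · rw [← ha, ← hb, hsu, mul_zero]
      · rw [hzero i₁ k h10 hk, hzero i₂ k h20 hk]; ring
    have := congrFun (hw b (-a) (by ring)) i₂
    simp [h12.symm] at this
    have := congrFun (hw 1 0 (by rw [this]; ring)) i₁
    simp [h12] at this
  · intro hv x hx hns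
    obtain ⟨t, rfl⟩ := he.two_dvd
    obtain ⟨e, he'⟩ := exists_coords rfl hf
    have hn0 : 2 * t ≠ 0 := by omega
    have hfin : finrank F (Fin (2 * t) → F) = 2 * t := finrank_fin_fun F
    have key : ∀ (L : Fin t → Module.End F (F × F)) (c : F), c ≠ 0 →
        (∀ k a b, (L k a).1 * (L k b).2 - (L k a).2 * (L k b).1 = c * (a.1 * b.2 - a.2 * b.1)) →
        (∃ P : Matrix.SpecialLinearGroup (Fin (2 * t)) F,
          Matrix.toLin' ((P⁻¹ * x * P : Matrix.SpecialLinearGroup (Fin (2 * t)) F) : Matrix _ _ F) =
            e.symm.conj (blockMap L)) →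
        ∃ P : Matrix.SpecialLinearGroup (Fin (2 * t)) F, P⁻¹ * x * P ∈
          (Cfsg.Geo.similarityGroup f).comap (Matrix.SpecialLinearGroup.toGL : Matrix.SpecialLinearGroup (Fin (2 * t)) F →* GL (Fin (2 * t)) F) := by
      rintro L c hc hL ⟨P, hP⟩
      exact ⟨P, mem_of_blocks e he' hc hP hL⟩
    rcases invol_cases hn0 hx with ⟨h2, l, hl, hx2⟩ | ⟨h2, c, hc, hx2⟩ | ⟨h2, l, N, hl, hN, hxN⟩
    · set X : Module.End F (Fin (2 * t) → F) := Matrix.toLin' (x : Matrix _ _ F) with hX
      have hdet : LinearMap.det X = 1 := by rw [hX, LinearMap.det_toLin', x.det_coe]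
      rw [eigen_det h2 hl hx2, hfin] at hdet
      have hcompl := Submodule.finrank_add_eq_of_isCompl (isCompl_eigen h2 hl hx2)
      rw [hfin] at hcompl
      obtain ⟨a, ha⟩ : Even (finrank F (LinearMap.ker (X + l • LinearMap.id))) :=
        Nat.not_odd_iff_even.1 fun hodd => npow_ne_neg_one h2 hv hl (by
          rw [hodd.neg_one_pow, mul_neg, mul_one, neg_eq_iff_eq_neg] at hdet
          exact hdet)
      let L : Fin t → Module.End F (F × F) := fun k => (if (k : ℕ) < a then -l else l) • LinearMap.id
      refine key L (l * l) (mul_ne_zero hl hl) (fun k u v => by simp only [L]; split_ifs <;> simp <;> ring)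
        (sl_conj_semisimple hn0 h2 hl hx2 (fun v => e.injective (funext fun k => ?_)) ?_)
      · simp [LinearEquiv.conj_apply, blockMap_apply, L, smul_smul]
        split_ifs <;> simp [smul_smul]
      · rw [conj_sub, finrank_ker_conj, finrank_ker_blockMap,
          Finset.sum_congr rfl (g := fun k : Fin t => if (k : ℕ) < a then 0 else 2) fun k _ => ?_,
          sum_two_blocks a (by omega) 0 2]
        · have : finrank F (LinearMap.ker (Matrix.toLin' (x : Matrix (Fin (2 * t)) (Fin (2 * t)) F) - l • LinearMap.id)) + (a + a) = 2 * t := by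
            rw [← ha]; exact hcompl
          omega
        by_cases hk : (k : ℕ) < a
        · rw [if_pos hk, Submodule.finrank_eq_zero, LinearMap.ker_eq_bot']
          intro v hv'
          simp only [L, if_pos hk, LinearMap.sub_apply, LinearMap.smul_apply, LinearMap.id_apply,
            ← sub_smul, smul_eq_zero] at hv'
          refine hv'.resolve_left fun h0 => mul_ne_zero h2 hl ?_
          linear_combination -h0
        · rw [if_neg hk, show L k - l • LinearMap.id = 0 by simp [L, hk], ker_zero_finrank]
    · let C : Module.End F (F × F) :=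
        (c • LinearMap.snd F F F).prod (LinearMap.fst F F F)
      have hc0 : c ≠ 0 := fun h => hc 0 (by rw [h]; ring)
      refine key (fun _ => C) (-c) (neg_ne_zero.2 hc0) (fun k u v => by simp [C]; ring)
        (sl_conj_nonsquare hn0 hc hx2 fun v => e.injective (funext fun k => ?_))
      simp [LinearEquiv.conj_apply, blockMap_apply, C]
      ext <;> simp
    · set a := finrank F (LinearMap.range N)
      have ha : 2 * a ≤ 2 * t := by
        have := (type_sq_zero hN).sum_eq
        simp [hfin] at this
        omega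
      let E : Fin t → Module.End F (F × F) := fun k => if (k : ℕ) < a then shear else 0
      have hE : e.symm.conj (blockMap fun k => l • (1 + E k)) = l • (1 + e.symm.conj (blockMap E)) :=
        LinearMap.ext fun v => e.injective (funext fun k => by
          simp [LinearEquiv.conj_apply, blockMap_apply])
      refine key (fun k => l • (1 + E k)) (l * l) (mul_ne_zero hl hl)
        (fun k u v => by simp only [E]; split_ifs <;> simp [shear] <;> ring)
        (sl_conj_char_two hn0 h2 hxN hN (LinearMap.ext fun v => e.injective (funext fun k => ?_)) ?_ hE)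
      · have hEE : ∀ k u, E k (E k u) = 0 := fun k u => by
          simp only [E]; split_ifs <;> simp [shear]
        rw [pow_two, Module.End.mul_apply]
        simp [LinearEquiv.conj_apply, blockMap_apply, hEE]
      · have h := LinearMap.finrank_range_add_finrank_ker (e.symm.conj (blockMap E))
        have hk : ∀ k : Fin t, finrank F (LinearMap.ker (E k)) = if (k : ℕ) < a then 1 else 2 := by
          intro k
          by_cases hka : (k : ℕ) < a
          · rw [if_pos hka, show E k = shear from if_pos hka]
            exact ker_shear_finrank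
          · rw [if_neg hka, show E k = 0 from if_neg hka]
            exact ker_zero_finrank
        rw [finrank_ker_conj, finrank_ker_blockMap, Finset.sum_congr rfl (fun k _ => hk k),
          sum_two_blocks a (by omega) 1 2, hfin] at h
        omega

end Cfsg.Agent.S5967
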