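import Cfsg.Statements.S5968
import Cfsg.Agent.Lib.Elusive.NotSimilitude
import Cfsg.Agent.Lib.Classical.Order
import Cfsg.Agent.Lib.Classical.SympOrder
import Cfsg.Agent.Lib.Forms.Alternating
import Cfsg.Agent.Lib.Forms.SympStd

set_option autoImplicit false
open scoped MatrixGroups
open Cfsg
open Cfsg.Agent.Lib.Elusive Cfsg.Agent.Lib.Forms
open scoped Matrix

namespace Cfsg.Agent.S5968

open Module

variable {F : Type*} [Field F]

theorem prod_parity (a : ℕ → ℕ) (t : ℕ) : ∏ j ∈ Finset.range (2 * t), a (j + 1) =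
    (∏ i ∈ Finset.range t, a (2 * i + 1)) * ∏ i ∈ Finset.range t, a (2 * (i + 1)) := by
  induction t with
  | zero => simp
  | succ t ih =>
    rw [Nat.mul_succ, Finset.prod_range_succ, Finset.prod_range_succ, ih, Finset.prod_range_succ,
      Finset.prod_range_succ, show 2 * (t + 1) = 2 * t + 1 + 1 by ring]
    ring

/-- The index is only divisible by primes dividing some `q ^ j - 1` with `j` odd. -/
theorem exists_odd_exp [Fintype F] {t : ℕ} (ht : 0 < t) {B : LinearMap.BilinForm F (Fin (2 * t) → F)}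
    (hA : B.IsAlt) (hB : B.SeparatingLeft) {H : Subgroup (Matrix.SpecialLinearGroup (Fin (2 * t)) F)}
    (hH : ∀ g : Matrix.SpecialLinearGroup (Fin (2 * t)) F,
      (∀ u v, B ((g : Matrix (Fin (2 * t)) (Fin (2 * t)) F) *ᵥ u) ((g : Matrix (Fin (2 * t)) (Fin (2 * t)) F) *ᵥ v) = B u v) → g ∈ H)
    {r : ℕ} [Fact r.Prime] (hrq : ¬ r ∣ Fintype.card F) (hr : r ∣ H.index) :
    ∃ i < t, r ∣ Fintype.card F ^ (2 * i + 1) - 1 := by
  classical
  obtain ⟨e, he⟩ := exists_alt_isometry (stdB t F) (stdB_isAlt t) (stdB_nondegenerate t).1 B hA hB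
    (by rw [Module.finrank_pi, finrank_fin_fun, Fintype.card_sum, Fintype.card_fin, two_mul])
  let ψ : Matrix.symplecticGroup (Fin t) F →* Matrix.SpecialLinearGroup (Fin (2 * t)) F :=
    { toFun := fun M => ⟨LinearMap.toMatrix' (e.conj (Matrix.toLin' (M : Matrix (Fin t ⊕ Fin t) (Fin t ⊕ Fin t) F))), by
        rw [LinearMap.det_toMatrix', LinearEquiv.conj_apply, LinearMap.comp_assoc, LinearMap.det_conj,
          LinearMap.det_toLin', SymplecticGroup.det_eq_one M.2]⟩
      map_one' := Subtype.ext (Matrix.toLin'.injective (LinearMap.ext fun v => by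
        simp [LinearEquiv.conj_apply]))
      map_mul' := fun M N => Subtype.ext (Matrix.toLin'.injective (by
        show _ = Matrix.toLin' (LinearMap.toMatrix' _ * LinearMap.toMatrix' _)
        rw [Matrix.toLin'_mul, Matrix.toLin'_toMatrix', Matrix.toLin'_toMatrix', Matrix.toLin'_toMatrix']
        refine LinearMap.ext fun v => ?_
        simp [LinearEquiv.conj_apply, Matrix.toLin'_mul, -Matrix.toLin'_apply])) }
  have hψ : Function.Injective ψ := fun M N h => Subtype.ext (Matrix.toLin'.injective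
    (e.conj.injective (LinearMap.toMatrix'.injective (congrArg Subtype.val h))))
  have hle : ψ.range ≤ H := by
    rintro _ ⟨M, rfl⟩
    refine hH _ fun u v => ?_
    rw [← Matrix.toLin'_apply, ← Matrix.toLin'_apply]
    show B (Matrix.toLin' (LinearMap.toMatrix' _) u) (Matrix.toLin' (LinearMap.toMatrix' _) v) = _
    rw [Matrix.toLin'_toMatrix', LinearEquiv.conj_apply]
    simp only [LinearMap.comp_apply, LinearEquiv.coe_coe, Matrix.toLin'_apply]
    rw [he, (stdB_iff_matrix t _).2 M.2, ← he, e.apply_symm_apply, e.apply_symm_apply]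
  have hdvd : r * Nat.card (Matrix.symplecticGroup (Fin t) F) ∣
      Nat.card (GL (Fin (2 * t)) F) := by
    haveI : Nonempty (Fin (2 * t)) := ⟨⟨0, by omega⟩⟩
    rw [Cfsg.Agent.Lib.Classical.card_GL_eq_units_mul_card_SL, Nat.card_congr (MonoidHom.ofInjective hψ).toEquiv]
    refine Dvd.dvd.mul_left ?_ _
    rw [← Subgroup.card_mul_index H, mul_comm]
    exact mul_dvd_mul (Subgroup.card_dvd_of_le hle) hr
  have hGL : ∏ i ∈ Finset.range (2 * t), (Fintype.card F ^ (2 * t) - Fintype.card F ^ i) =
      ∏ i ∈ Finset.range (2 * t), Fintype.card F ^ i * (Fintype.card F ^ (2 * t - 1 - i + 1) - 1) :=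
    Finset.prod_congr rfl fun i hi => by
      rw [Finset.mem_range] at hi
      rw [Nat.mul_sub, mul_one, ← pow_add, show i + (2 * t - 1 - i + 1) = 2 * t by omega]
  rw [Cfsg.Agent.Lib.Classical.card_symplecticGroup, Matrix.card_GL_field,
    Fin.prod_univ_eq_prod_range (fun i => Fintype.card F ^ (2 * t) - Fintype.card F ^ i) (2 * t), hGL,
    Finset.prod_mul_distrib, Finset.prod_range_reflect (fun j => Fintype.card F ^ (j + 1) - 1) (2 * t),
    prod_parity (fun j => Fintype.card F ^ j - 1), ← mul_assoc, ← mul_assoc] at hdvd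
  have hpos : 0 < ∏ i ∈ Finset.range t, (Fintype.card F ^ (2 * (i + 1)) - 1) := Finset.prod_pos fun i _ => by
    have := Nat.one_lt_pow (show 2 * (i + 1) ≠ 0 by omega) (Fintype.one_lt_card (α := F))
    omega
  have h := Nat.dvd_of_mul_dvd_mul_right hpos hdvd
  replace h := dvd_trans (dvd_mul_right r _) h
  have hrp : Prime r := Nat.prime_iff.1 Fact.out
  rcases hrp.dvd_mul.1 h with h1 | h1
  · rw [Finset.prod_pow_eq_pow_sum] at h1
    exact absurd (hrp.dvd_of_dvd_pow h1) hrq
  · obtain ⟨i, hi, h2⟩ := (Prime.dvd_finsetProd_iff hrp _).1 h1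
    exact ⟨i, Finset.mem_range.1 hi, h2⟩

/-- Derangements of odd prime order of PSL_n(q) on the cosets of a symplectic-type subgroup. Here `T = PSL_n(F)` for a field `F` with `q` elements, `n ≥ 4` even, `f` is a nondegenerate alternating form on `F^n`, and `H` is the subgroup of matrices of determinant 1 preserving `f` up to a scalar — a maximal subgroup of type Sp_n(q); Ω is the set of `T`-conjugates of `H` (cosets of `H`), so an element of `T` of prime order `r` (a matrix `x` of determinant 1 with `x^r` scalar, `x` not scalar) fixes a point of Ω when some conjugate of `x` by a matrix of determinant 1 preserves `f` up to a scalar. For every odd prime `r` dividing the index of `H`, with `(n, r) ≠ (6, 3)`, there is an element of `T` of order `r` with no conjugate in `H`. (For `n = 6`, `r = 3` this can fail: when `(q − 1)_3 = 3` every element of order 3 is conjugate into `H`.) -/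
theorem result {F : Type*} [Field F] [Fintype F] {p : ℕ} [Fact p.Prime] [CharP F p] {q : ℕ} (hq : Fintype.card F = q)
    (n : ℕ) (hn : 4 ≤ n) (he : Even n) (f : (Fin n → F) → (Fin n → F) → F) (hf : Cfsg.Geo.IsSymplecticForm f)
    (r : ℕ) [Fact r.Prime] (hr2 : r ≠ 2) (hgap : ¬ (n = 6 ∧ r = 3)) (hΩ : r ∣ ((Cfsg.Geo.similarityGroup f).comap (Matrix.SpecialLinearGroup.toGL : Matrix.SpecialLinearGroup (Fin n) F →* GL (Fin n) F)).index) :
    ∃ x : Matrix.SpecialLinearGroup (Fin n) F,
      (∃ z : F, ((x ^ r : Matrix.SpecialLinearGroup (Fin n) F) : Matrix (Fin n) (Fin n) F) = z • (1 : Matrix (Fin n) (Fin n) F)) ∧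
      (∀ z : F, (x : Matrix (Fin n) (Fin n) F) ≠ z • (1 : Matrix (Fin n) (Fin n) F)) ∧
      ∀ P : Matrix.SpecialLinearGroup (Fin n) F, P⁻¹ * x * P ∉ ((Cfsg.Geo.similarityGroup f).comap (Matrix.SpecialLinearGroup.toGL : Matrix.SpecialLinearGroup (Fin n) F →* GL (Fin n) F)) := by
  classical
  subst hq
  obtain ⟨t, rfl⟩ := he.two_dvd
  have hr : r.Prime := Fact.out
  have hr3 : 3 ≤ r := by have := hr.two_le; omega
  let B : LinearMap.BilinForm F (Fin (2 * t) → F) := LinearMap.mk₂ F f hf.bilinear.add_left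
    (fun c a b => hf.bilinear.smul_left c a b) hf.bilinear.add_right
    (fun c a b => hf.bilinear.smul_right c a b)
  have hBA : B.IsAlt := hf.alternating
  have hBS : B.SeparatingLeft := fun v hv => by
    by_contra h
    obtain ⟨x, hx⟩ := (hf.nondegenerate v h).2
    exact hx (hv x)
  set H := (Cfsg.Geo.similarityGroup f).comap (Matrix.SpecialLinearGroup.toGL : Matrix.SpecialLinearGroup (Fin (2 * t)) F →* GL (Fin (2 * t)) F)
  -- the pulled back form
  have key : ∀ (A P : Matrix.SpecialLinearGroup (Fin (2 * t)) F), P⁻¹ * A * P ∈ H →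
      ∃ (B' : LinearMap.BilinForm F (Fin (2 * t) → F)) (c : F), B'.IsAlt ∧ B'.SeparatingLeft ∧
        (∀ u v, B' (Matrix.toLin' (A : Matrix (Fin (2 * t)) (Fin (2 * t)) F) u) (Matrix.toLin' (A : Matrix (Fin (2 * t)) (Fin (2 * t)) F) v) = c * B' u v) := by
    intro A P hP
    obtain ⟨c, hc⟩ := hP
    let Q := Matrix.toLin' ((P⁻¹ : Matrix.SpecialLinearGroup (Fin (2 * t)) F) : Matrix (Fin (2 * t)) (Fin (2 * t)) F)
    let R := Matrix.toLin' (P : Matrix (Fin (2 * t)) (Fin (2 * t)) F)
    have hQR : ∀ w, Q (R w) = w := fun w => by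
      show Matrix.toLin' _ (Matrix.toLin' _ w) = w
      rw [← LinearMap.comp_apply, ← Matrix.toLin'_mul, ← Matrix.SpecialLinearGroup.coe_mul,
        inv_mul_cancel, Matrix.SpecialLinearGroup.coe_one, Matrix.toLin'_one, LinearMap.id_apply]
    have hRQ : ∀ w, R (Q w) = w := fun w => by
      show Matrix.toLin' _ (Matrix.toLin' _ w) = w
      rw [← LinearMap.comp_apply, ← Matrix.toLin'_mul, ← Matrix.SpecialLinearGroup.coe_mul,
        mul_inv_cancel, Matrix.SpecialLinearGroup.coe_one, Matrix.toLin'_one, LinearMap.id_apply]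
    refine ⟨B.compl₁₂ Q Q, c, fun v => hBA _, fun w hw => ?_, fun u v => ?_⟩
    · rw [← hRQ w, hBS (Q w) fun v => by rw [← hQR v]; exact hw (R v), map_zero]
    · have hx : ∀ w, Q (Matrix.toLin' (A : Matrix (Fin (2 * t)) (Fin (2 * t)) F) w) =
          ((P⁻¹ * A * P : Matrix.SpecialLinearGroup (Fin (2 * t)) F) : Matrix (Fin (2 * t)) (Fin (2 * t)) F) *ᵥ Q w := fun w => by
        rw [← Matrix.toLin'_apply, Matrix.SpecialLinearGroup.coe_mul, Matrix.SpecialLinearGroup.coe_mul,
          Matrix.toLin'_mul, Matrix.toLin'_mul, LinearMap.comp_apply, LinearMap.comp_apply]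
        exact congrArg (fun z => Q (Matrix.toLin' (A : Matrix (Fin (2 * t)) (Fin (2 * t)) F) z)) (hRQ w).symm
      simp only [LinearMap.compl₁₂_apply, hx]
      exact hc (Q u) (Q v)
  -- multipliers of maps of order `r`
  have hiso : ∀ (B' : LinearMap.BilinForm F (Fin (2 * t) → F)) (c : F), B'.SeparatingLeft →
      ∀ X : Module.End F (Fin (2 * t) → F), (∀ v, (X ^ r) v = v) →
        (∀ u v, B' (X u) (X v) = c * B' u v) → c ^ r = 1 := by
    intro B' c hS X hX hc
    have hpow : ∀ (j : ℕ) u v, B' ((X ^ j) u) ((X ^ j) v) = c ^ j * B' u v := by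
      intro j
      induction j with
      | zero => simp
      | succ j ih =>
        intro u v
        rw [pow_succ', Module.End.mul_apply, Module.End.mul_apply, hc, ih, pow_succ', mul_assoc]
    let u : Fin (2 * t) → F := Pi.single ⟨0, by omega⟩ 1
    have hu : u ≠ 0 := fun h => by simpa [u] using congrFun h ⟨0, by omega⟩
    obtain ⟨v, hv⟩ : ∃ v, B' u v ≠ 0 := by
      by_contra h
      push Not at h
      exact hu (hS u h)
    have := hpow r u v
    rw [hX, hX] at this
    exact mul_right_cancel₀ hv (this.symm.trans (one_mul _).symm)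
  by_cases hrp : r = p
  · subst hrp
    obtain ⟨A, N, hN, hA, hAr, hAc, hns⟩ := exists_unipotent (F := F) (p := r) (n := 2 * t)
      (μ := 3 ::ₘ Multiset.replicate (2 * t - 3) 1)
      (fun a ha => by
        rcases Multiset.mem_cons.1 ha with rfl | ha
        · omega
        · rw [Multiset.eq_of_mem_replicate ha]; omega)
      (by simp; omega)
      (fun h => by
        have := h ▸ Multiset.mem_cons_self 3 (Multiset.replicate (2 * t - 3) 1)
        have := Multiset.eq_of_mem_replicate this
        omega)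
    refine ⟨A, hAc, hns, fun P hP => ?_⟩
    obtain ⟨B', c, hA', hS', hc⟩ := key A P hP
    rw [hA] at hc
    have hc1 : c = 1 := by
      have h := hiso B' c hS' _ (fun v => by rw [hAr]; rfl) hc
      have : (c - 1) ^ r = 0 := by rw [sub_pow_char, h, one_pow, sub_self]
      exact sub_eq_zero.1 (pow_eq_zero_iff hr.ne_zero |>.1 this)
    refine NotSimilitude.not_rank_one hA' hS' ((hN.pow_eq_zero_iff 3).2 fun a ha => ?_)
      (fun u v => by simpa [hc1] using hc u v) ?_
    · rcases Multiset.mem_cons.1 ha with rfl | ha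
      · exact le_rfl
      · rw [Multiset.eq_of_mem_replicate ha]; omega
    · rw [hN.finrank_range_pow 2]; simp
  have hrq : ¬ r ∣ Fintype.card F := fun h => by
    obtain ⟨e, -, he'⟩ := FiniteField.card F p
    rw [he'] at h
    exact hrp ((Nat.prime_dvd_prime_iff_eq hr Fact.out).1 (hr.dvd_of_dvd_pow h))
  obtain ⟨i₀, hi₀, hdiv⟩ := exists_odd_exp (t := t) (by omega) hBA hBS (H := H)
    (fun g hg => ⟨1, fun u v => by rw [Units.val_one, one_mul]; exact hg u v⟩) hrq hΩ
  have hord : orderOf (Fintype.card F : ZMod r) ∣ 2 * i₀ + 1 := by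
    apply orderOf_dvd_of_pow_eq_one
    rw [← ZMod.natCast_eq_zero_iff, Nat.cast_sub (Nat.one_le_pow _ _ Fintype.card_pos), sub_eq_zero,
      Nat.cast_pow, Nat.cast_one] at hdiv
    exact hdiv
  rcases Nat.lt_or_ge 1 (orderOf (Fintype.card F : ZMod r)) with hi | hi
  · have hnd : ¬ r ∣ Fintype.card F - 1 := fun h => by
      rw [dvd_card_sub_one_iff.1 h] at hi; omega
    have hroot : ∀ c : F, c ^ r = 1 → c = 1 := fun c hc0 => by
      have hne : c ≠ 0 := fun h => by rw [h, zero_pow hr.ne_zero] at hc0; exact zero_ne_one hc0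
      simpa [(hr.coprime_iff_not_dvd.2 hnd).gcd_eq_one] using
        pow_gcd_eq_one.2 ⟨hc0, FiniteField.pow_card_sub_one_eq_one c hne⟩
    obtain ⟨A, hA, hno⟩ := NotSimilitude.exists_odd_elt (n := 2 * t) hrp hr2 hi
      ((odd_two_mul_add_one i₀).of_dvd_nat hord) ((Nat.le_of_dvd (by omega) hord).trans (by omega))
    refine ⟨A, ⟨1, Matrix.toLin'.injective ?_⟩, fun z hz => ?_, fun P hP => ?_⟩
    · rw [Matrix.SpecialLinearGroup.coe_pow, Matrix.toLin'_pow, one_smul, Matrix.toLin'_one]
      exact LinearMap.ext hA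
    · have hz0 : z ^ r = 1 := by
        have := congrFun (hA (Pi.single ⟨0, by omega⟩ 1)) ⟨0, by omega⟩
        rw [hz, map_smul, Matrix.toLin'_one, _root_.smul_pow] at this
        simpa [show (LinearMap.id : Module.End F (Fin (2 * t) → F)) = 1 from rfl] using this
      exact hno B hBS fun u v => by simp [hz, hroot z hz0]
    · obtain ⟨B', c, hA', hS', hc⟩ := key A P hP
      exact hno B' hS' fun u v => by rw [hc, hroot c (hiso B' c hS' _ hA hc), one_mul]
  -- the split case
  have hi1 : orderOf (Fintype.card F : ZMod r) = 1 := by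
    have := Nat.pos_of_dvd_of_pos hord (by omega)
    omega
  obtain ⟨a₀, ha₀⟩ := exists_prime_orderOf_dvd_card' (G := Fˣ) r (by
    rw [Nat.card_units, Nat.card_eq_fintype_card]; exact dvd_card_sub_one_iff.2 hi1)
  set a : F := (a₀ : F) with ha
  have hao : orderOf a = r := orderOf_units.trans ha₀
  have har : a ^ r = 1 := hao ▸ pow_orderOf_eq_one a
  have ha0 : a ≠ 0 := a₀.ne_zero
  have hak : ∀ j : ℕ, 0 < j → j < r → a ^ j ≠ 1 := fun j h0 h1 h => by
    have := Nat.le_of_dvd h0 (hao ▸ orderOf_dvd_of_pow_eq_one h)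
    omega
  have mk : ∀ (d : Fin (2 * t) → F) (S : Finset (Fin (2 * t))) (s : F) (i : Fin (2 * t)),
      ∏ j, d j = 1 → (∀ j, d j ^ r = 1) → (∀ j ∈ S, d j = s) → 2 * t < 2 * S.card →
      (∀ j, d i * d j ≠ s * s) →
      ∃ x : Matrix.SpecialLinearGroup (Fin (2 * t)) F,
        (∃ z : F, ((x ^ r : Matrix.SpecialLinearGroup (Fin (2 * t)) F) : Matrix (Fin (2 * t)) (Fin (2 * t)) F) = z • (1 : Matrix (Fin (2 * t)) (Fin (2 * t)) F)) ∧
        (∀ z : F, (x : Matrix (Fin (2 * t)) (Fin (2 * t)) F) ≠ z • (1 : Matrix (Fin (2 * t)) (Fin (2 * t)) F)) ∧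
        ∀ P : Matrix.SpecialLinearGroup (Fin (2 * t)) F, P⁻¹ * x * P ∉ H := by
    intro d S s i hd hdr hS hcard hi'
    refine ⟨⟨Matrix.diagonal d, by rw [Matrix.det_diagonal, hd]⟩, ⟨1, ?_⟩, fun z hz => ?_, fun P hP => ?_⟩
    · refine (Matrix.SpecialLinearGroup.coe_pow _ r).trans ?_
      show Matrix.diagonal d ^ r = _
      rw [Matrix.diagonal_pow, one_smul, show d ^ r = 1 from funext hdr, ← Matrix.diagonal_one]
      rfl
    · have hdz : ∀ j, d j = z := fun j => by simpa using congrFun (congrFun hz j) j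
      obtain ⟨j, hj⟩ := Finset.card_pos.1 (show 0 < S.card by omega)
      exact hi' j (by rw [hdz i, hdz j, ← hS j hj, hdz j])
    · obtain ⟨B', c, hA', hS', hc⟩ := key _ P hP
      have hd' : ∀ k l, d k * d l * B' (Pi.single k 1) (Pi.single l 1) = c * B' (Pi.single k 1) (Pi.single l 1) := by
        intro k l
        rw [← hc]
        have e : ∀ k, Matrix.toLin' (Matrix.diagonal d) (Pi.single k 1) = d k • Pi.single k 1 := fun k => by
          rw [Matrix.toLin'_apply]; ext j
          rw [Matrix.mulVec_diagonal]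
          rcases eq_or_ne j k with rfl | hj <;> simp [*]
        simp [e, mul_assoc, mul_left_comm]
      obtain ⟨j, hj⟩ := (NotSimilitude.diag_pairs hA' hS' hd' hS (by rw [Fintype.card_fin]; omega)).2 i
      exact hi' j hj
  by_cases hrn : r ∣ 2 * t
  · have h7 : 7 ≤ 2 * t := by
      obtain ⟨k, hk⟩ := hrn
      rcases (show k = 0 ∨ k = 1 ∨ k = 2 ∨ 3 ≤ k by omega) with rfl | rfl | rfl | h
      · omega
      · have := hr.eq_two_or_odd; omega
      · by_contra hlt
        exact hgap ⟨by omega, by omega⟩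
      · have := Nat.mul_le_mul hr3 h
        omega
    let d : Fin (2 * t) → F := fun j =>
      if (j : ℕ) < 2 then a else if (j : ℕ) = 2 then a ^ (r - 2) else 1
    let S : Finset (Fin (2 * t)) := Finset.univ.filter fun j => 3 ≤ (j : ℕ)
    have hcardS : 2 * t < 2 * S.card := by
      have : (Finset.univ.filter fun j : Fin (2 * t) => ¬ 3 ≤ (j : ℕ)).card ≤ 3 :=
        (Finset.card_le_card_of_injOn (fun j : Fin (2 * t) => (j : ℕ))
          (fun j hj => by simpa using hj) Fin.val_injective.injOn).trans (Finset.card_range 3).le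
      have h2 := Finset.card_filter_add_card_filter_not (s := Finset.univ) fun j : Fin (2 * t) => 3 ≤ (j : ℕ)
      rw [Finset.card_univ, Fintype.card_fin] at h2
      simp only [S]
      omega
    refine mk d S 1 ⟨0, by omega⟩ ?_ (fun j => ?_) (fun j hj => ?_) hcardS (fun j => ?_)
    · obtain ⟨m, hm⟩ : ∃ m, 2 * t = m + 3 := ⟨2 * t - 3, by omega⟩
      rw [← Equiv.prod_comp (finCongr hm.symm), Fin.prod_univ_succ, Fin.prod_univ_succ, Fin.prod_univ_succ]
      have h2 : 2 % (m + 3) = 2 := Nat.mod_eq_of_lt (by omega)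
      simp [d, h2]
      rw [← mul_assoc, ← pow_two, ← pow_add, show 2 + (r - 2) = r by omega, har]
    · simp only [d]
      split_ifs
      · exact har
      · rw [← pow_mul, mul_comm, pow_mul, har, one_pow]
      · exact one_pow r
    · simp only [S, Finset.mem_filter] at hj
      simp only [d]
      rw [if_neg (by omega), if_neg (by omega)]
    · simp only [d, Nat.ofNat_pos, if_true, one_mul]
      split_ifs
      · rw [← pow_two]; exact hak 2 (by omega) (by omega)
      · rw [← pow_succ']; exact hak _ (by omega) (by omega)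
      · rw [mul_one]; simpa using hak 1 (by omega) (by omega)
  · let i : Fin (2 * t) := ⟨0, by omega⟩
    set b : F := a⁻¹ ^ (2 * t - 1) with hb
    let d : Fin (2 * t) → F := fun j => if (j : ℕ) = 0 then b else a
    let S : Finset (Fin (2 * t)) := Finset.univ.erase i
    have hbr : b ^ r = 1 := by rw [hb, ← pow_mul, mul_comm, pow_mul, inv_pow, har, inv_one, one_pow]
    have hba : b ≠ a := fun h => hrn (by
      rw [← hao]
      apply orderOf_dvd_of_pow_eq_one
      rw [hb, inv_pow, inv_eq_iff_eq_inv] at h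
      rw [show 2 * t = 2 * t - 1 + 1 by omega, pow_succ, h, inv_mul_cancel₀ ha0])
    refine mk d S a i ?_ (fun j => ?_) (fun j hj => ?_) (by simp [S]; omega) (fun j => ?_)
    · obtain ⟨m, hm⟩ : ∃ m, 2 * t = m + 1 := ⟨2 * t - 1, by omega⟩
      rw [← Equiv.prod_comp (finCongr hm.symm), Fin.prod_univ_succ]
      simp [d, hb, hm, inv_pow, inv_mul_cancel₀ (pow_ne_zero m ha0)]
    · simp only [d]
      split_ifs
      · exact hbr
      · exact har
    · simp only [S, Finset.mem_erase, ne_eq, Fin.ext_iff, i] at hj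
      simp only [d]
      rw [if_neg hj.1]
    · simp only [d, i, if_true]
      split_ifs
      · intro h
        have h1 : (b / a) ^ 2 = 1 := by rw [div_pow, pow_two, h, pow_two, div_self (mul_ne_zero ha0 ha0)]
        have h2 : (b / a) ^ r = 1 := by rw [div_pow, hbr, har, div_one]
        have := pow_gcd_eq_one.2 ⟨h1, h2⟩
        rw [((Nat.coprime_primes Nat.prime_two hr).2 hr2.symm).gcd_eq_one, pow_one, div_eq_one_iff_eq ha0] at this
        exact hba this
      · exact fun h => hba (mul_right_cancel₀ ha0 h)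

end Cfsg.Agent.S5968
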