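import Cfsg.Statements.S5969
import Cfsg.Agent.Lib.Elusive.Involution

set_option autoImplicit false
open scoped MatrixGroups
open Cfsg
open Cfsg.Agent.Lib.Elusive

namespace Cfsg.Agent.S5969

open Module
open scoped Matrix

universe u

variable {F : Type u} [Field F]

theorem coords_of_field {n t : ℕ} {E : Type*} [Field E] [Algebra F E]
    (φ : E →ₐ[F] Module.End F (Fin n → F)) (hE : finrank F E = 2) (hnt : n = 2 * t) :
    ∃ e : (Fin n → F) ≃ₗ[F] (Fin t → E), ∀ a v j, e (φ a v) j = a * e v j := by
  letI : Module E (Fin n → F) := Module.compHom _ φ.toRingHom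
  haveI : IsScalarTower F E (Fin n → F) := IsScalarTower.of_algebraMap_smul fun a v => by
    show φ (algebraMap F E a) v = a • v
    rw [AlgHom.commutes]; rfl
  haveI : FiniteDimensional E (Fin n → F) := Module.Finite.of_restrictScalars_finite F _ _
  have ht : finrank E (Fin n → F) = t := by
    have h := Module.finrank_mul_finrank F E (Fin n → F)
    rw [hE, finrank_fin_fun] at h
    omega
  let e : (Fin n → F) ≃ₗ[E] (Fin t → E) :=
    LinearEquiv.ofFinrankEq _ _ (by rw [ht, finrank_fin_fun])
  exact ⟨e.restrictScalars F, fun a v j => congrFun (e.map_smul a v) j⟩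

theorem exists_field_coords {n t : ℕ} {K : Subalgebra F (Matrix (Fin n) (Fin n) F)}
    (hK : Cfsg.Geo.IsFieldSubalgebra 2 K) (hnt : n = 2 * t) :
    ∃ (E : Type u) (_ : Field E) (_ : Algebra F E), finrank F E = 2 ∧
      ∃ (ι : E →ₐ[F] Matrix (Fin n) (Fin n) F) (e : (Fin n → F) ≃ₗ[F] (Fin t → E)),
        (∀ k, k ∈ K ↔ ∃ a, ι a = k) ∧ ∀ a v j, e (ι a *ᵥ v) j = a * e v j := by
  haveI : Nontrivial K := Module.nontrivial_of_finrank_pos (R := F) (by rw [hK.finrank_eq]; omega)
  letI : CommRing K := { (inferInstance : Ring K) with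
    mul_comm := fun a b => Subtype.ext (hK.comm a a.2 b b.2) }
  have hfield : IsField K := by
    refine ⟨exists_pair_ne K, mul_comm, @fun a ha => ?_⟩
    obtain ⟨b, hb, hab⟩ := hK.inv a a.2 (fun h => ha (Subtype.ext h))
    exact ⟨⟨b, hb⟩, Subtype.ext hab⟩
  letI : Field K := hfield.toField
  let φ : K →ₐ[F] Module.End F (Fin n → F) :=
    (Matrix.toLinAlgEquiv' : Matrix (Fin n) (Fin n) F ≃ₐ[F] _).toAlgHom.comp K.val
  obtain ⟨e, he⟩ := coords_of_field φ hK.finrank_eq hnt
  exact ⟨K, inferInstance, inferInstance, hK.finrank_eq, K.val, e,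
    fun k => ⟨fun h => ⟨⟨k, h⟩, rfl⟩, fun ⟨a, ha⟩ => ha ▸ a.2⟩,
    fun a v j => he a v j⟩

theorem exists_sqrt [Fintype F] {E : Type*} [Field E] [Algebra F E] [FiniteDimensional F E]
    (hE : finrank F E = 2) (h2 : (2 : F) ≠ 0) {c : F} (hc : c ≠ 0) :
    ∃ θ : E, θ * θ = algebraMap F E c := by
  haveI : Finite E := Module.finite_of_finite F
  haveI := Fintype.ofFinite E
  have hE2 : (2 : E) ≠ 0 := by
    rw [← map_ofNat (algebraMap F E) 2]
    exact (map_ne_zero _).2 h2
  have hodd := odd_card h2
  have hcard : Fintype.card E = Fintype.card F ^ 2 := by rw [Module.card_eq_pow_finrank (K := F), hE]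
  have hring : ringChar E ≠ 2 := fun e => hE2 (by
    have := ringChar.spec E 2
    simpa using this.2 (e ▸ dvd_rfl))
  obtain ⟨θ, hθ⟩ : IsSquare (algebraMap F E c) := by
    rw [FiniteField.isSquare_iff hring ((map_ne_zero _).2 hc), hcard, ← map_pow]
    obtain ⟨w, hw⟩ := hodd
    rw [show Fintype.card F ^ 2 / 2 = (Fintype.card F - 1) * (w + 1) by
      rw [hw, Nat.add_sub_cancel]
      have : (2 * w + 1) ^ 2 = 2 * (2 * w * (w + 1)) + 1 := by ring
      omega,
      pow_mul, FiniteField.pow_card_sub_one_eq_one c hc, one_pow, map_one]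
  exact ⟨θ, hθ.symm⟩

theorem mem_normalizer_of_blocks {n t : ℕ} {K : Subalgebra F (Matrix (Fin n) (Fin n) F)} {E : Type*}
    [Field E] [Algebra F E] {ι : E →ₐ[F] Matrix (Fin n) (Fin n) F} {e : (Fin n → F) ≃ₗ[F] (Fin t → E)}
    (hι : ∀ k, k ∈ K ↔ ∃ a, ι a = k) (he : ∀ a v j, e (ι a *ᵥ v) j = a * e v j)
    {g : Matrix.SpecialLinearGroup (Fin n) F} {L : Fin t → Module.End F E}
    (hg : Matrix.toLin' (g : Matrix (Fin n) (Fin n) F) = e.symm.conj (blockMap L))
    (τ : E → E) (hτ : Function.Surjective τ) (hL : ∀ k a z, L k (a * z) = τ a * L k z) :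
    g ∈ (Cfsg.Geo.subalgebraNormalizer K).comap (Matrix.SpecialLinearGroup.toGL : Matrix.SpecialLinearGroup (Fin n) F →* GL (Fin n) F) := by
  have hga : ∀ a, (g : Matrix (Fin n) (Fin n) F) * ι a = ι (τ a) * g := by
    intro a
    apply Matrix.toLin'.injective
    rw [Matrix.toLin'_mul, Matrix.toLin'_mul, hg]
    refine LinearMap.ext fun v => e.injective (funext fun j => ?_)
    simp only [LinearMap.comp_apply, Matrix.toLin'_apply, he, LinearEquiv.conj_apply,
      LinearEquiv.coe_coe, LinearEquiv.symm_symm, LinearEquiv.apply_symm_apply, blockMap_apply, hL]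
  intro k
  constructor
  · intro hk
    obtain ⟨a, rfl⟩ := (hι k).1 hk
    refine (hι _).2 ⟨τ a, ?_⟩
    change ι (τ a) = (g : Matrix (Fin n) (Fin n) F) * ι a * ((Matrix.SpecialLinearGroup.toGL g)⁻¹ : GL (Fin n) F)
    rw [hga, mul_assoc]
    exact ((mul_one _).symm.trans (congrArg (ι (τ a) * ·) (Units.mul_inv (Matrix.SpecialLinearGroup.toGL g)).symm))
  · intro hk
    obtain ⟨b, hb⟩ := (hι _).1 hk
    obtain ⟨a, rfl⟩ := hτ b
    refine (hι k).2 ⟨a, ?_⟩
    have h1 : ι (τ a) * (g : Matrix (Fin n) (Fin n) F) = (g : Matrix (Fin n) (Fin n) F) * k := by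
      rw [hb]
      exact Units.inv_mul_cancel_right _ (Matrix.SpecialLinearGroup.toGL g)
    rw [← hga] at h1
    exact (Matrix.SpecialLinearGroup.toGL g).isUnit.mul_left_cancel h1

theorem dim_eigen_two {n : ℕ} (hn : n = 2) (h2 : (2 : F) ≠ 0) {x : Module.End F (Fin n → F)} {l : F}
    (hl : l ≠ 0) (hx : ∀ v, x (x v) = (l * l) • v) (hns : ∀ z : F, x ≠ z • LinearMap.id) :
    finrank F (LinearMap.ker (x - l • LinearMap.id)) = 1 := by
  have hs := Submodule.finrank_add_eq_of_isCompl (isCompl_eigen h2 hl hx)
  simp only [finrank_fin_fun] at hs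
  have h0 : finrank F (LinearMap.ker (x - l • LinearMap.id)) ≠ 0 := fun h => hns (-l) (by
    have htop : LinearMap.ker (x + l • LinearMap.id) = ⊤ :=
      Submodule.eq_top_of_finrank_eq (by simp only [finrank_fin_fun]; omega)
    rw [eq_neg_iff_add_eq_zero.2 (LinearMap.ker_eq_top.1 htop)]
    exact (neg_smul _ _).symm)
  have h1 : finrank F (LinearMap.ker (x - l • LinearMap.id)) ≠ 2 := fun h => hns l (by
    exact sub_eq_zero.1 (LinearMap.ker_eq_top.1 (Submodule.eq_top_of_finrank_eq (by
      simp only [finrank_fin_fun]; omega))))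
  omega

/-- An element `l (1 + s E_{0 j})` has no conjugate normalising `K`. -/
theorem no_conj {n : ℕ} (hn : 4 ≤ n) {K : Subalgebra F (Matrix (Fin n) (Fin n) F)}
    (hK : Cfsg.Geo.IsFieldSubalgebra 2 K) {A P : Matrix.SpecialLinearGroup (Fin n) F} {l s : F}
    (hl : l ≠ 0) (hs : s ≠ 0) (j₀ : Fin n) (i₀ : Fin n)
    (hA : (A : Matrix (Fin n) (Fin n) F) = l • (1 + Matrix.single i₀ j₀ s)) :
    P⁻¹ * A * P ∉ (Cfsg.Geo.subalgebraNormalizer K).comap (Matrix.SpecialLinearGroup.toGL : Matrix.SpecialLinearGroup (Fin n) F →* GL (Fin n) F) := by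
  classical
  intro hmem
  set E : Matrix (Fin n) (Fin n) F := Matrix.single i₀ j₀ s with hE
  haveI : Nontrivial K := Module.nontrivial_of_finrank_pos (R := F) (by rw [hK.finrank_eq]; omega)
  have hscal : ∀ k ∈ K, ∃ c : F, k = c • (1 : Matrix (Fin n) (Fin n) F) := by
    intro k hk
    set g := (P⁻¹ * A * P : Matrix.SpecialLinearGroup (Fin n) F) with hg
    have hk' := (hmem k).1 hk
    set k' : Matrix (Fin n) (Fin n) F := (g : Matrix (Fin n) (Fin n) F) * k *
      ((g⁻¹ : Matrix.SpecialLinearGroup (Fin n) F) : Matrix (Fin n) (Fin n) F) with hk'def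
    have hk'K : k' ∈ K := by
      have : ((Matrix.SpecialLinearGroup.toGL g)⁻¹ : GL (Fin n) F) = Matrix.SpecialLinearGroup.toGL g⁻¹ :=
        (map_inv _ g).symm
      rw [this] at hk'
      exact hk'
    have key : ∀ Q R : Matrix.SpecialLinearGroup (Fin n) F,
        (Q : Matrix (Fin n) (Fin n) F) * (R : Matrix (Fin n) (Fin n) F) = ((Q * R : Matrix.SpecialLinearGroup (Fin n) F) : Matrix (Fin n) (Fin n) F) :=
      fun Q R => rfl
    set k₁ := (P : Matrix (Fin n) (Fin n) F) * k * ((P⁻¹ : Matrix.SpecialLinearGroup (Fin n) F) : Matrix _ _ F) with hk1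
    set k₂ := (P : Matrix (Fin n) (Fin n) F) * k' * ((P⁻¹ : Matrix.SpecialLinearGroup (Fin n) F) : Matrix _ _ F) with hk2
    have hxk : k₂ * A = (A : Matrix (Fin n) (Fin n) F) * k₁ := by
      rw [hk1, hk2, hk'def, hg]
      simp only [mul_assoc, key]
      rw [show (P⁻¹ * (A * P))⁻¹ * (P⁻¹ * A) = P⁻¹ by group]
      simp only [← mul_assoc, key]
      rw [show P * P⁻¹ * A * P = A * P by group]
    rw [hA, mul_smul_comm, smul_mul_assoc, mul_add, add_mul, mul_one, one_mul] at hxk
    have hD : k₂ - k₁ = E * k₁ - k₂ * E := by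
      have := smul_right_injective _ hl hxk
      rw [sub_eq_sub_iff_add_eq_add, this, add_comm]
    have hentry : ∀ a b, a ≠ i₀ → b ≠ j₀ → (k₂ - k₁) a b = 0 := fun a b ha hb => by
      rw [hD, Matrix.sub_apply, hE, Matrix.single_mul_apply_of_ne _ _ _ _ _ ha,
        Matrix.mul_single_apply_of_ne _ _ _ _ _ hb, sub_zero]
    have hkk : k' = k := by
      by_contra hne
      obtain ⟨w, -, hw⟩ := hK.inv (k' - k) (K.sub_mem hk'K hk) (sub_ne_zero.2 hne)
      have hinv : (P : Matrix (Fin n) (Fin n) F) * w * ((P⁻¹ : Matrix.SpecialLinearGroup (Fin n) F) : Matrix _ _ F) *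
          (k₂ - k₁) = 1 := by
        rw [hk1, hk2, ← sub_mul, ← mul_sub]
        have hw' : w * (k' - k) = 1 := mul_eq_one_comm.1 hw
        have hQP : ((P⁻¹ : Matrix.SpecialLinearGroup (Fin n) F) : Matrix (Fin n) (Fin n) F) * (P : Matrix (Fin n) (Fin n) F) = 1 := by
          rw [key, inv_mul_cancel, Matrix.SpecialLinearGroup.coe_one]
        have hPQ : (P : Matrix (Fin n) (Fin n) F) * ((P⁻¹ : Matrix.SpecialLinearGroup (Fin n) F) : Matrix (Fin n) (Fin n) F) = 1 := by
          rw [key, mul_inv_cancel, Matrix.SpecialLinearGroup.coe_one]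
        generalize ((P⁻¹ : Matrix.SpecialLinearGroup (Fin n) F) : Matrix (Fin n) (Fin n) F) = Qm at hQP hPQ ⊢
        generalize (P : Matrix (Fin n) (Fin n) F) = Pm at hQP hPQ ⊢
        rw [show Pm * w * Qm * (Pm * (k' - k) * Qm) = Pm * (w * ((Qm * Pm) * ((k' - k) * Qm))) by
          simp only [mul_assoc], hQP, one_mul, ← mul_assoc w, hw', one_mul, hPQ]
      obtain ⟨a, ha, b, hb, hab⟩ : ∃ a, a ≠ j₀ ∧ ∃ b, b ≠ j₀ ∧ a ≠ b := by
        obtain ⟨a, ha, b, hb, hab⟩ := Finset.one_lt_card.1
          (show 1 < (Finset.univ.erase j₀).card by simp; omega)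
        exact ⟨a, (Finset.mem_erase.1 ha).1, b, (Finset.mem_erase.1 hb).1, hab⟩
      set D := k₂ - k₁
      have hinj : ∀ v, D *ᵥ v = 0 → v = 0 := fun v hv => by
        have := congrArg (fun z => ((P : Matrix (Fin n) (Fin n) F) * w * ((P⁻¹ : Matrix.SpecialLinearGroup (Fin n) F) : Matrix _ _ F)) *ᵥ z) hv
        simp only [Matrix.mulVec_mulVec, hinv, Matrix.one_mulVec, Matrix.mulVec_zero] at this
        exact this
      have hz : ∀ s t : F, s * D i₀ a + t * D i₀ b = 0 →
          s • (Pi.single a 1 : Fin n → F) + t • Pi.single b 1 = 0 := by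
        intro s t hst
        refine hinj _ (funext fun i => ?_)
        simp only [Matrix.mulVec_add, Matrix.mulVec_smul, Matrix.mulVec_single_one, Pi.add_apply,
          Pi.smul_apply, Matrix.col_apply, Pi.zero_apply, smul_eq_mul]
        rcases eq_or_ne i i₀ with rfl | hi
        · exact hst
        · rw [hentry i a hi ha, hentry i b hi hb]; ring
      have h1 := congrFun (hz (D i₀ b) (-(D i₀ a)) (by ring)) b
      simp [hab.symm] at h1
      have h2 := congrFun (hz 1 0 (by rw [h1]; ring)) a
      simp [hab] at h2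
    have hcomm : E * k₁ = k₁ * E := by
      rw [hk2, hkk, ← hk1, sub_self] at hD
      exact (sub_eq_zero.1 hD.symm)
    have hcol : ∀ i, i ≠ i₀ → k₁ i i₀ = 0 := fun i hi => by
      have h := congrFun (congrFun hcomm i) j₀
      rw [hE, Matrix.single_mul_apply_of_ne _ _ _ _ _ hi, Matrix.mul_single_apply_same] at h
      exact (mul_eq_zero.1 h.symm).resolve_right hs
    refine ⟨k₁ i₀ i₀, ?_⟩
    by_contra hne
    obtain ⟨w, -, hw⟩ := hK.inv (k - k₁ i₀ i₀ • 1) (K.sub_mem hk (K.smul_mem K.one_mem _)) (sub_ne_zero.2 hne)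
    have hz : (k₁ - k₁ i₀ i₀ • 1) *ᵥ Pi.single i₀ 1 = 0 := funext fun i => by
      rcases eq_or_ne i i₀ with rfl | hi
      · simp [Matrix.mulVec_single_one]
      · simp [Matrix.mulVec_single_one, hcol i hi, hi]
    have hdet : (k₁ - k₁ i₀ i₀ • 1).det ≠ 0 := by
      have h : k₁ - k₁ i₀ i₀ • 1 = (P : Matrix (Fin n) (Fin n) F) * (k - k₁ i₀ i₀ • 1) *
          ((P⁻¹ : Matrix.SpecialLinearGroup (Fin n) F) : Matrix _ _ F) := by
        rw [mul_sub, sub_mul, ← hk1, mul_smul_comm, mul_one, smul_mul_assoc, key, mul_inv_cancel,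
          Matrix.SpecialLinearGroup.coe_one]
      rw [h, Matrix.det_mul, Matrix.det_mul, P.det_coe, (P⁻¹).det_coe, one_mul, mul_one]
      intro h0
      have := congrArg Matrix.det hw
      rw [Matrix.det_mul, h0, zero_mul, Matrix.det_one] at this
      exact zero_ne_one this
    have h0 := congrFun (Matrix.eq_zero_of_mulVec_eq_zero hdet hz) i₀
    simp at h0
  have h1 : finrank F K ≤ 1 := finrank_le_one ⟨1, K.one_mem⟩ fun k => by
    obtain ⟨c, hc⟩ := hscal k k.2
    exact ⟨c, Subtype.ext hc.symm⟩
  rw [hK.finrank_eq] at h1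
  omega

/-- Involutions of PSL_n(q) and extension-field subgroups of degree 2. Here `T = PSL_n(F)` for a field `F` with `q = p^f` elements (`n ≥ 2`, `(n, q) ≠ (2, 2), (2, 3)`), `k` is a prime dividing `n`, `K` is a subalgebra of the `n × n` matrices that is a field of degree `k` over `F` (an extension-field structure F_{q^k} on `F^n`), and `H` is the subgroup of matrices of determinant 1 normalizing `K` — a subgroup of type GL_{n/k}(q^k) (maximal except in some small cases; maximality is not assumed); Ω is the set of cosets of `H` in `T`, so an element of `T` of prime order `r` (a matrix `x` of determinant 1 with `x^r` scalar, `x` not scalar) fixes a point of Ω when some conjugate of `x` by a matrix of determinant 1 normalizes `K`. Take `k = 2` and suppose the index of `H` is even. Then every involution of `T` is conjugate in `T` into `H` if and only if `n = 2`, or `q` is odd and `(q − 1)_2 ≤ (n)_2`. -/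
theorem result {F : Type*} [Field F] [Fintype F] {p : ℕ} [Fact p.Prime] [CharP F p] {q : ℕ} (hq : Fintype.card F = q)
    (n : ℕ) (hn : 2 ≤ n) (hT : (n, q) ≠ (2, 2) ∧ (n, q) ≠ (2, 3))
    (k : ℕ) (hk : k.Prime) (hkn : k ∣ n) (K : Subalgebra F (Matrix (Fin n) (Fin n) F)) (hK : Cfsg.Geo.IsFieldSubalgebra k K) (hk2 : k = 2) (hΩ : 2 ∣ ((Cfsg.Geo.subalgebraNormalizer K).comap (Matrix.SpecialLinearGroup.toGL : Matrix.SpecialLinearGroup (Fin n) F →* GL (Fin n) F)).index) :
    (∀ x : Matrix.SpecialLinearGroup (Fin n) F,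
      (∃ z : F, ((x ^ 2 : Matrix.SpecialLinearGroup (Fin n) F) : Matrix (Fin n) (Fin n) F) = z • (1 : Matrix (Fin n) (Fin n) F)) →
      (∀ z : F, (x : Matrix (Fin n) (Fin n) F) ≠ z • (1 : Matrix (Fin n) (Fin n) F)) →
      ∃ P : Matrix.SpecialLinearGroup (Fin n) F, P⁻¹ * x * P ∈ ((Cfsg.Geo.subalgebraNormalizer K).comap (Matrix.SpecialLinearGroup.toGL : Matrix.SpecialLinearGroup (Fin n) F →* GL (Fin n) F))) ↔
    (n = 2 ∨ (Odd q ∧ padicValNat 2 (q - 1) ≤ padicValNat 2 n)) := by
  classical
  subst hq hk2
  obtain ⟨t, hnt⟩ := hkn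
  have hfin : finrank F (Fin n → F) = n := finrank_fin_fun F
  constructor
  · intro h
    by_contra hne
    push Not at hne
    obtain ⟨hn2, hq'⟩ := hne
    have hn4 : 4 ≤ n := by omega
    let i₀ : Fin n := ⟨0, by omega⟩
    let i₁ : Fin n := ⟨1, by omega⟩
    have h01 : i₀ ≠ i₁ := by simp [i₀, i₁, Fin.ext_iff]
    by_cases h2 : (2 : F) = 0
    · let A : Matrix.SpecialLinearGroup (Fin n) F :=
        ⟨Matrix.transvection i₀ i₁ 1, Matrix.det_transvection_of_ne _ _ h01 _⟩
      obtain ⟨P, hP⟩ := h A ⟨1, by
        rw [Matrix.SpecialLinearGroup.coe_pow, pow_two, one_smul]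
        show Matrix.transvection i₀ i₁ (1 : F) * Matrix.transvection i₀ i₁ 1 = 1
        rw [Matrix.transvection_mul_transvection_same _ _ h01, show (1 : F) + 1 = 0 by rw [← h2]; norm_num,
          Matrix.transvection_zero]⟩ (fun z hz => by
        have h' := congrFun (congrFun hz i₀) i₁
        simp [A, Matrix.transvection, h01] at h')
      exact no_conj hn4 hK one_ne_zero one_ne_zero i₁ i₀ (by rw [one_smul]; rfl) hP
    · obtain ⟨l, hl, hln⟩ := exists_npow_neg_one h2 (show n ≠ 0 by omega)
        (hq' (odd_card h2))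
      let d : Fin n → F := fun i => if i = i₀ then -l else l
      have hd : ∏ i, d i = 1 := by
        rw [Finset.prod_eq_mul_prod_sdiff_singleton_of_mem (Finset.mem_univ i₀),
          Finset.prod_congr rfl (g := fun _ => l) fun i hi => by
            simp only [d]; rw [if_neg]; simpa using hi]
        rw [Finset.prod_const, Finset.card_sdiff_of_subset (by simp), Finset.card_univ, Fintype.card_fin,
          Finset.card_singleton]
        simp only [d, if_pos trivial]
        rw [neg_mul, ← pow_succ', show n - 1 + 1 = n by omega, hln, neg_neg]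
      let A : Matrix.SpecialLinearGroup (Fin n) F := ⟨Matrix.diagonal d, by rw [Matrix.det_diagonal, hd]⟩
      obtain ⟨P, hP⟩ := h A ⟨l * l, by
        rw [Matrix.SpecialLinearGroup.coe_pow]
        show Matrix.diagonal d ^ 2 = _
        rw [Matrix.diagonal_pow, Matrix.smul_one_eq_diagonal]
        congr 1
        funext i
        simp only [Pi.pow_apply, d]
        split_ifs <;> ring⟩ (fun z hz => h2 (by
          have e0 := congrFun (congrFun hz i₀) i₀
          have e1 := congrFun (congrFun hz i₁) i₁
          simp [A, d, h01.symm] at e0 e1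
          have : (2 : F) * l = 0 := by linear_combination e1 - e0
          exact (mul_eq_zero.1 this).resolve_right hl))
      refine no_conj hn4 hK hl (neg_ne_zero.2 h2) i₀ i₀ ?_ hP
      show Matrix.diagonal d = _
      ext a b
      simp only [Matrix.smul_apply, Matrix.add_apply, Matrix.one_apply, Matrix.single_apply, smul_eq_mul,
        Matrix.diagonal_apply, d]
      rcases eq_or_ne a b with rfl | hab
      · rcases eq_or_ne a i₀ with rfl | ha
        · simp; ring
        · simp [ha, ha.symm]
      · have : ¬(i₀ = a ∧ i₀ = b) := fun hh => hab (hh.1.symm.trans hh.2)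
        simp [hab, this]
  · intro hrhs x hx hns
    obtain ⟨E, _, _, hE, ι, e, hι, he⟩ := exists_field_coords hK hnt
    haveI : FiniteDimensional F E := Module.finite_of_finrank_eq_succ hE
    haveI : Finite E := Module.finite_of_finite F
    have hn0 : n ≠ 0 := by omega
    have hns' : ∀ z : F, Matrix.toLin' (x : Matrix (Fin n) (Fin n) F) ≠ z • LinearMap.id := fun z hz =>
      hns z (Matrix.toLin'.injective (by rw [hz, map_smul, Matrix.toLin'_one]))
    have hsub : ∀ (L : Fin t → Module.End F E) (l : F),
        e.symm.conj (blockMap L) - l • LinearMap.id = e.symm.conj (blockMap fun k => L k - l • LinearMap.id) := by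
      intro L l
      refine LinearMap.ext fun v => e.injective (funext fun k => ?_)
      simp [LinearEquiv.conj_apply, blockMap_apply]
    let σ : E →ₐ[F] E := FiniteField.frobeniusAlgHom F E
    have hσσ : ∀ z, σ (σ z) = z := fun z => by
      have h : σ ^ 2 = 1 := by rw [← hE, ← FiniteField.orderOf_frobeniusAlgHom F E]; exact pow_orderOf_eq_one _
      exact DFunLike.congr_fun h z
    have hσ1 : ¬ ∀ z, σ z = z := fun h => by
      have h1 : σ = 1 := AlgHom.ext h
      have h2 := FiniteField.orderOf_frobeniusAlgHom F E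
      rw [show FiniteField.frobeniusAlgHom F E = σ from rfl, h1, orderOf_one, hE] at h2
      omega
    have hσsurj : Function.Surjective σ := fun z => ⟨σ z, hσσ z⟩
    have key : ∀ (L : Fin t → Module.End F E) (τ : E → E), Function.Surjective τ →
        (∀ k a z, L k (a * z) = τ a * L k z) →
        (∃ P : Matrix.SpecialLinearGroup (Fin n) F,
          Matrix.toLin' ((P⁻¹ * x * P : Matrix.SpecialLinearGroup (Fin n) F) : Matrix (Fin n) (Fin n) F) =
            e.symm.conj (blockMap L)) →
        ∃ P : Matrix.SpecialLinearGroup (Fin n) F, P⁻¹ * x * P ∈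
          (Cfsg.Geo.subalgebraNormalizer K).comap (Matrix.SpecialLinearGroup.toGL : Matrix.SpecialLinearGroup (Fin n) F →* GL (Fin n) F) := by
      rintro L τ hτ hL ⟨P, hP⟩
      exact ⟨P, mem_normalizer_of_blocks hι he hP τ hτ hL⟩
    rcases invol_cases hn0 hx with ⟨h2, l, hl, hx2⟩ | ⟨h2, c, hc, hx2⟩ | ⟨h2, l, N, hl, hN, hxN⟩
    · by_cases hn2 : n = 2
      · have ht1 : t = 1 := by omega
        subst ht1
        refine key (fun _ => l • σ.toLinearMap) σ hσsurj
          (fun k a z => by simp [mul_left_comm])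
          (sl_conj_semisimple hn0 h2 hl hx2 (fun v => e.injective (funext fun k => ?_)) ?_)
        · simp [LinearEquiv.conj_apply, blockMap_apply, hσσ, smul_smul]
        · rw [dim_eigen_two hn2 h2 hl (fun v => e.injective (funext fun k => by
            simp [LinearEquiv.conj_apply, blockMap_apply, hσσ, smul_smul])) ?_,
            dim_eigen_two hn2 h2 hl hx2 hns']
          intro z hz
          have hz' : ∀ w : E, l • σ w = z • w := fun w => by
            have := congrFun (congrArg e (LinearMap.congr_fun hz (e.symm fun _ => w))) 0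
            simpa [LinearEquiv.conj_apply, blockMap_apply] using this
          have hzl : z = l := by
            have h1 := hz' 1
            rw [map_one] at h1
            exact (smul_left_injective F one_ne_zero h1).symm
          refine hσ1 fun w => ?_
          have := hz' w
          rw [hzl] at this
          exact smul_right_injective E hl this
      · obtain ⟨hq, hv⟩ := hrhs.resolve_left hn2
        set X : Module.End F (Fin n → F) := Matrix.toLin' (x : Matrix (Fin n) (Fin n) F) with hX
        have hdet : LinearMap.det X = 1 := by rw [hX, LinearMap.det_toLin', x.det_coe]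
        rw [eigen_det h2 hl hx2, hfin] at hdet
        have hcompl := Submodule.finrank_add_eq_of_isCompl (isCompl_eigen h2 hl hx2)
        rw [hfin] at hcompl
        obtain ⟨a, ha⟩ : Even (finrank F (LinearMap.ker (X + l • LinearMap.id))) :=
          Nat.not_odd_iff_even.1 fun hodd => npow_ne_neg_one h2 hv hl (by
            rw [hodd.neg_one_pow, mul_neg, mul_one, neg_eq_iff_eq_neg] at hdet
            exact hdet)
        let L : Fin t → Module.End F E := fun k => (if (k : ℕ) < a then -l else l) • LinearMap.id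
        refine key L id Function.surjective_id
          (fun k a z => by simp only [L]; split_ifs <;> simp)
          (sl_conj_semisimple hn0 h2 hl hx2 (fun v => e.injective (funext fun k => ?_)) ?_)
        · simp [LinearEquiv.conj_apply, blockMap_apply, L]
          split_ifs <;> simp [smul_smul]
        · rw [hsub, finrank_ker_conj, finrank_ker_blockMap,
            Finset.sum_congr rfl (g := fun k : Fin t => if (k : ℕ) < a then 0 else 2) fun k _ => ?_,
            sum_two_blocks a (by omega) 0 2]
          · have : finrank F (LinearMap.ker (Matrix.toLin' (x : Matrix (Fin n) (Fin n) F) - l • LinearMap.id)) +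
                (a + a) = n := by
              rw [← ha]; exact hcompl
            omega
          by_cases hk : (k : ℕ) < a
          · rw [if_pos hk, Submodule.finrank_eq_zero, LinearMap.ker_eq_bot']
            intro v hv'
            simp only [L, if_pos hk, LinearMap.sub_apply, LinearMap.smul_apply, LinearMap.id_apply,
              ← sub_smul, smul_eq_zero] at hv'
            refine hv'.resolve_left fun h0 => mul_ne_zero h2 hl ?_
            linear_combination -h0
          · rw [if_neg hk, show L k - l • LinearMap.id = 0 by simp [L, hk], LinearMap.ker_zero,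
              finrank_top, hE]
    · have hc0 : c ≠ 0 := fun h => hc 0 (by rw [h]; ring)
      obtain ⟨θ, hθ⟩ := exists_sqrt (F := F) (E := E) hE h2 hc0
      refine key (fun _ => LinearMap.mulLeft F θ) id Function.surjective_id
        (fun k a z => by simp [mul_left_comm])
        (sl_conj_nonsquare hn0 hc hx2 fun v => e.injective (funext fun k => ?_))
      simp [LinearEquiv.conj_apply, blockMap_apply, ← mul_assoc, hθ]
      rw [Algebra.smul_def]
    · have hn2 : n = 2 := by
        refine hrhs.resolve_right fun hh => ?_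
        exact absurd h2 (two_ne_zero_of_odd rfl hh.1)
      have ht1 : t = 1 := by omega
      subst ht1
      set E' : Fin 1 → Module.End F E := fun _ => σ.toLinearMap - LinearMap.id with hE'
      have hconj : e.symm.conj (blockMap fun _ : Fin 1 => l • σ.toLinearMap) = l • (1 + e.symm.conj (blockMap E')) :=
        LinearMap.ext fun v => e.injective (funext fun k => by
          simp [LinearEquiv.conj_apply, blockMap_apply, E', smul_sub])
      have hEE : ∀ (k : Fin 1) (z : E), E' k (E' k z) = 0 := fun k z => by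
        have h2E : (2 : E) = 0 := by rw [← map_ofNat (algebraMap F E) 2, h2, map_zero]
        simp only [E', LinearMap.sub_apply, LinearMap.id_apply, AlgHom.toLinearMap_apply, map_sub, hσσ]
        linear_combination (z - σ z) * h2E
      refine key (fun _ => l • σ.toLinearMap) σ hσsurj (fun k a z => by simp [mul_left_comm])
        (sl_conj_char_two hn0 h2 hxN hN (LinearMap.ext fun v => e.injective (funext fun k => ?_)) ?_ hconj)
      · rw [pow_two, Module.End.mul_apply]
        simp [LinearEquiv.conj_apply, blockMap_apply, hEE]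
      · have hone : ∀ M : Module.End F (Fin n → F), M ^ 2 = 0 → M ≠ 0 →
            finrank F (LinearMap.range M) = 1 := by
          intro M hM hM0
          have h := (type_sq_zero hM).sum_eq
          have hne : finrank F (LinearMap.range M) ≠ 0 := fun h0 =>
            hM0 (LinearMap.range_eq_bot.1 (Submodule.finrank_eq_zero.1 h0))
          simp [hfin, hn2] at h
          omega
        rw [hone _ (LinearMap.ext fun v => e.injective (funext fun k => by
              rw [pow_two, Module.End.mul_apply]
              simp [LinearEquiv.conj_apply, blockMap_apply, hEE])) ?_,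
          hone N hN fun h0 => hns' l (by rw [hxN, h0, add_zero]; rfl)]
        intro h0
        refine hσ1 fun w => ?_
        have := congrFun (congrArg e (LinearMap.congr_fun h0 (e.symm fun _ => w))) 0
        simpa [LinearEquiv.conj_apply, blockMap_apply, E', sub_eq_zero] using this

end Cfsg.Agent.S5969
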