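import Cfsg.Statements.S5970
import Cfsg.Agent.Lib.Elusive.Singer
import Cfsg.Agent.Lib.Classical.Order

set_option autoImplicit false
open scoped MatrixGroups
open Cfsg
open Cfsg.Agent.Lib.Elusive

namespace Cfsg.Agent.S5970

section
open Module Cfsg.Agent.Lib.Elusive
open scoped Matrix

variable {F : Type*} [Field F] [Fintype F]

theorem exists_fixing {p : ℕ} [Fact p.Prime] [CharP F p] {n : ℕ} [Fact n.Prime] (hn3 : 3 < n) (hnp : n ≠ p)
    (hi : orderOf (Fintype.card F : ZMod n) ≠ n - 1) :
    ∃ x : Matrix.SpecialLinearGroup (Fin n) F, x ^ n = 1 ∧ x ≠ 1 ∧ ∃ v w : Fin n → F, v ≠ 0 ∧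
      (∀ c : F, c • v ≠ w) ∧ (x : Matrix (Fin n) (Fin n) F) *ᵥ v = v ∧ (x : Matrix (Fin n) (Fin n) F) *ᵥ w = w := by
  classical
  have hn : n.Prime := Fact.out
  set i := orderOf (Fintype.card F : ZMod n) with hidef
  have hq0 : (Fintype.card F : ZMod n) ≠ 0 := by
    obtain ⟨f, -, hf⟩ := FiniteField.card F p
    rw [hf, Nat.cast_pow]
    refine pow_ne_zero _ fun h => hnp ?_
    exact (Nat.prime_dvd_prime_iff_eq hn Fact.out).1 ((ZMod.natCast_eq_zero_iff p n).1 h)
  have hidvd : i ∣ n - 1 := ZMod.orderOf_dvd_card_sub_one hq0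
  have hile : i + 2 ≤ n := by
    obtain ⟨m, hm⟩ := hidvd
    rcases m with _ | _ | m
    · omega
    · exact absurd (by simpa using hm.symm) hi
    · have : i * (m + 1 + 1) = i * m + i + i := by ring
      omega
  have hipos : 0 < i := Nat.pos_of_dvd_of_pos hidvd (by omega)
  -- a small special linear group with an element of order `n`
  obtain ⟨m, hm2, hmn, y, hy⟩ : ∃ m, 2 ≤ m ∧ m + 2 ≤ n ∧ ∃ y : Matrix.SpecialLinearGroup (Fin m) F, orderOf y = n := by
    have key : ∀ m, 2 ≤ m → n ∣ Nat.card (Matrix.SpecialLinearGroup (Fin m) F) →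
        ∃ y : Matrix.SpecialLinearGroup (Fin m) F, orderOf y = n := fun m _ h => exists_prime_orderOf_dvd_card' n h
    by_cases h1 : i = 1
    · refine ⟨2, le_rfl, by omega, key 2 le_rfl ?_⟩
      rw [Cfsg.Agent.Lib.Classical.card_SL_two]
      have : n ∣ Fintype.card F - 1 := (dvd_card_sub_one_iff (r := n)).2 h1
      obtain ⟨c, hc⟩ := this
      have hq1 : Fintype.card F = n * c + 1 := by have := Fintype.card_pos (α := F); omega
      rw [hq1]
      refine dvd_mul_of_dvd_right ?_ _
      exact ⟨c * (n * c + 2), by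
        have : (n * c + 1) ^ 2 = n * (c * (n * c + 2)) + 1 := by ring
        omega⟩
    · haveI : Nonempty (Fin i) := ⟨⟨0, hipos⟩⟩
      refine ⟨i, by omega, hile, key i (by omega) ?_⟩
      have hco : n.Coprime (Nat.card Fˣ) := (Nat.Prime.coprime_iff_not_dvd hn).2 fun h => h1
        ((dvd_card_sub_one_iff (r := n)).1 (by rwa [Nat.card_units, Nat.card_eq_fintype_card] at h))
      refine hco.dvd_of_dvd_mul_left ?_
      rw [← Cfsg.Agent.Lib.Classical.card_GL_eq_units_mul_card_SL, Matrix.card_GL_field]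
      refine dvd_trans ?_ (Finset.dvd_prod_of_mem _ (Finset.mem_univ (⟨0, hipos⟩ : Fin i)))
      rw [pow_zero, ← ZMod.natCast_eq_zero_iff, Nat.cast_sub (Nat.one_le_pow _ _ Fintype.card_pos),
        Nat.cast_pow, Nat.cast_one, hidef, pow_orderOf_eq_one, sub_self]
  obtain ⟨k, rfl⟩ : ∃ k, n = m + k := ⟨n - m, by omega⟩
  let M : Matrix (Fin m) (Fin m) F →* Matrix (Fin (m + k)) (Fin (m + k)) F :=
    { toFun := fun A => Matrix.reindex finSumFinEquiv finSumFinEquiv (Matrix.fromBlocks A 0 0 1)
      map_one' := by simp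
      map_mul' := fun A B => by
        simp only [Matrix.reindex_apply, Matrix.submatrix_mul_equiv, Matrix.fromBlocks_multiply]
        simp }
  have hMdet : ∀ A, (M A).det = A.det := fun A => by
    show (Matrix.reindex _ _ _).det = _
    rw [Matrix.det_reindex_self, Matrix.det_fromBlocks_zero₂₁, Matrix.det_one, mul_one]
  have hMapp : ∀ A (a b : Fin m), M A (finSumFinEquiv (Sum.inl a)) (finSumFinEquiv (Sum.inl b)) = A a b :=
    fun A a b => by simp [M]
  have hfix : ∀ A (j : Fin k),
      M A *ᵥ Pi.single (finSumFinEquiv (Sum.inr j)) 1 = Pi.single (finSumFinEquiv (Sum.inr j)) 1 := by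
    intro A j
    funext a
    obtain ⟨a, rfl⟩ := finSumFinEquiv.surjective a
    rw [Matrix.mulVec_single_one, Matrix.col_apply, Pi.single_apply]
    rcases a with a | a <;>
      simp [M, Matrix.one_apply, finSumFinEquiv.injective.eq_iff, -finSumFinEquiv_apply_left, -finSumFinEquiv_apply_right]
  let x : Matrix.SpecialLinearGroup (Fin (m + k)) F := ⟨M y, by rw [hMdet, y.det_coe]⟩
  refine ⟨x, Subtype.ext ?_, fun h => ?_, Pi.single (finSumFinEquiv (Sum.inr ⟨0, by omega⟩)) 1,
    Pi.single (finSumFinEquiv (Sum.inr ⟨1, by omega⟩)) 1, by simp, fun c hc => ?_, hfix _ _, hfix _ _⟩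
  · rw [Matrix.SpecialLinearGroup.coe_pow]
    show (M y) ^ (m + k) = _
    rw [← map_pow, ← Matrix.SpecialLinearGroup.coe_pow,
      show y ^ (m + k) = 1 from orderOf_dvd_iff_pow_eq_one.1 hy.dvd, Matrix.SpecialLinearGroup.coe_one,
      map_one, Matrix.SpecialLinearGroup.coe_one]
  · have : y = 1 := Subtype.ext (Matrix.ext fun a b => by
      rw [Matrix.SpecialLinearGroup.coe_one, ← hMapp (y : Matrix (Fin m) (Fin m) F) a b,
        show M (y : Matrix (Fin m) (Fin m) F) = 1 from congrArg Subtype.val h]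
      simp [Matrix.one_apply, finSumFinEquiv.injective.eq_iff, -finSumFinEquiv_apply_left])
    rw [this, orderOf_one] at hy
    omega
  · have := congrFun hc (finSumFinEquiv (Sum.inr ⟨1, by omega⟩))
    simp at this

end


/-- Elements of order `n` of PSL_n(q), `n` prime, and the normalizer of a Singer cycle. Here `T = PSL_n(F)` for a field `F` with `q = p^f` elements (`n ≥ 2`, `(n, q) ≠ (2, 2), (2, 3)`), `k` is a prime dividing `n`, `K` is a subalgebra of the `n × n` matrices that is a field of degree `k` over `F` (an extension-field structure F_{q^k} on `F^n`), and `H` is the subgroup of matrices of determinant 1 normalizing `K` — a subgroup of type GL_{n/k}(q^k) (maximal except in some small cases; maximality is not assumed); Ω is the set of cosets of `H` in `T`, so an element of `T` of prime order `r` (a matrix `x` of determinant 1 with `x^r` scalar, `x` not scalar) fixes a point of Ω when some conjugate of `x` by a matrix of determinant 1 normalizes `K`. Take `k = n > 3` prime with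 `n ≠ p` (so `H` is the normalizer of a Singer cycle), and suppose `n` divides the index of `H`. Then every element of `T` of order `n` is conjugate in `T` into `H` if and only if the multiplicative order of `q` modulo `n` is `n − 1`. -/
theorem result {F : Type*} [Field F] [Fintype F] {p : ℕ} [Fact p.Prime] [CharP F p] {q : ℕ} (hq : Fintype.card F = q)
    (n : ℕ) (hn : 2 ≤ n) (hT : (n, q) ≠ (2, 2) ∧ (n, q) ≠ (2, 3))
    (k : ℕ) (hk : k.Prime) (hkn : k ∣ n) (K : Subalgebra F (Matrix (Fin n) (Fin n) F)) (hK : Cfsg.Geo.IsFieldSubalgebra k K) (hkn' : k = n) (hn3 : 3 < n) (hnp : n ≠ p) (hΩ : n ∣ ((Cfsg.Geo.subalgebraNormalizer K).comap (Matrix.SpecialLinearGroup.toGL : Matrix.SpecialLinearGroup (Fin n) F →* GL (Fin n) F)).index) :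
    (∀ x : Matrix.SpecialLinearGroup (Fin n) F,
      (∃ z : F, ((x ^ n : Matrix.SpecialLinearGroup (Fin n) F) : Matrix (Fin n) (Fin n) F) = z • (1 : Matrix (Fin n) (Fin n) F)) →
      (∀ z : F, (x : Matrix (Fin n) (Fin n) F) ≠ z • (1 : Matrix (Fin n) (Fin n) F)) →
      ∃ P : Matrix.SpecialLinearGroup (Fin n) F, P⁻¹ * x * P ∈ ((Cfsg.Geo.subalgebraNormalizer K).comap (Matrix.SpecialLinearGroup.toGL : Matrix.SpecialLinearGroup (Fin n) F →* GL (Fin n) F))) ↔
    orderOf (q : ZMod n) = n - 1 := by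
  classical
  subst hkn' hq
  haveI : Fact k.Prime := ⟨hk⟩
  constructor
  · intro h
    by_contra hi
    obtain ⟨x, hx, hne, v, w, hv0, hvw, hv, hw⟩ := exists_fixing (F := F) hn3 hnp hi
    have hns : ∀ z : F, (x : Matrix (Fin k) (Fin k) F) ≠ z • (1 : Matrix (Fin k) (Fin k) F) := fun z hz => by
      rw [hz, Matrix.smul_mulVec, Matrix.one_mulVec] at hv
      have hz1 : z = 1 := smul_left_injective F hv0 (hv.trans (one_smul F v).symm)
      exact hne (Subtype.ext (by rw [hz, hz1, one_smul]; rfl))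
    obtain ⟨P, hP⟩ := h x ⟨1, by rw [hx, one_smul]; rfl⟩ hns
    set Q : Matrix (Fin k) (Fin k) F := ((P⁻¹ : Matrix.SpecialLinearGroup (Fin k) F) : Matrix (Fin k) (Fin k) F)
    have hPQ : (P : Matrix (Fin k) (Fin k) F) * Q = 1 := by
      rw [← Matrix.SpecialLinearGroup.coe_mul, mul_inv_cancel, Matrix.SpecialLinearGroup.coe_one]
    have hg : ∀ z, (x : Matrix (Fin k) (Fin k) F).mulVec z = z →
        ((P⁻¹ * x * P : Matrix.SpecialLinearGroup (Fin k) F) : Matrix (Fin k) (Fin k) F).mulVec (Q.mulVec z) = Q.mulVec z :=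
      fun z hz => by
        rw [Matrix.SpecialLinearGroup.coe_mul, Matrix.SpecialLinearGroup.coe_mul, Matrix.mulVec_mulVec,
          mul_assoc, hPQ, mul_one, ← Matrix.mulVec_mulVec, hz]
    have hQinj : ∀ z z', Q.mulVec z = Q.mulVec z' → z = z' := fun z z' e => by
      have := congrArg (fun a => (P : Matrix (Fin k) (Fin k) F).mulVec a) e
      simpa [Matrix.mulVec_mulVec, hPQ] using this
    have := Singer.eq_one_of_fixed hk hK hP (hg v hv) (hg w hw)
      (fun e => hv0 (hQinj _ _ (by rw [e, Matrix.mulVec_zero])))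
      (fun c e => hvw c (hQinj _ _ (by rw [Matrix.mulVec_smul, e])))
    have h1 : P⁻¹ * x * P = 1 := Matrix.SpecialLinearGroup.toGL_injective (this.trans (map_one _).symm)
    exact hne (by simpa [mul_assoc, inv_mul_eq_one, mul_eq_left] using h1)
  · intro hi x ⟨z, hz⟩ hns
    exact Singer.forall_conj (by omega) hnp hi hK x hz hns

end Cfsg.Agent.S5970
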