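import Cfsg.Statements.S5971
import Cfsg.Agent.Lib.Elusive.Singer
import Cfsg.Agent.Lib.Classical.Order

set_option autoImplicit false
open scoped MatrixGroups
open Cfsg
open Cfsg.Agent.Lib.Elusive

namespace Cfsg.Agent.S5971

section
open Module Cfsg.Agent.Lib.Elusive Polynomial
open scoped Matrix

variable {F : Type*} [Field F]

theorem exists_omega [Fintype F] (h : 3 ∣ Fintype.card F - 1) : ∃ w : F, w ≠ 1 ∧ w ^ 3 = 1 ∧ w ^ 2 + w + 1 = 0 := by
  haveI : Fact (Nat.Prime 3) := ⟨Nat.prime_three⟩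
  obtain ⟨g, hg⟩ := exists_prime_orderOf_dvd_card' (G := Fˣ) 3 (by
    rwa [Nat.card_units, Nat.card_eq_fintype_card])
  have h1 : (g : F) ≠ 1 := fun e => by
    have e' : g = 1 := Units.ext e
    rw [e', orderOf_one] at hg
    omega
  have h3 : (g : F) ^ 3 = 1 := by
    rw [← Units.val_pow_eq_pow_val, ← hg, pow_orderOf_eq_one, Units.val_one]
  refine ⟨g, h1, h3, ?_⟩
  have : ((g : F) - 1) * ((g : F) ^ 2 + g + 1) = 0 := by linear_combination h3
  exact (mul_eq_zero.1 this).resolve_left (sub_ne_zero.2 h1)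

theorem scalar_of_quad {w : F} (hw1 : w ≠ 1) (hw : w ^ 2 + w + 1 = 0) {Y : Module.End F (Fin 3 → F)}
    (hY : ∀ v, Y (Y v) + Y v + v = 0) (hd : LinearMap.det Y = 1) : ∃ c : F, ∀ v, Y v = c • v := by
  have hw0 : w ≠ 0 := fun h => by rw [h] at hw; simp at hw
  have hw3 : w ^ 3 = 1 := by linear_combination (w - 1) * hw
  have hne : w - w * w ≠ 0 := by
    rw [show w - w * w = w * (1 - w) by ring]
    exact mul_ne_zero hw0 (sub_ne_zero.2 hw1.symm)
  set U := LinearMap.ker (Y - w • LinearMap.id) with hU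
  set W := LinearMap.ker (Y - (w * w) • LinearMap.id) with hW
  have hUm : ∀ v, v ∈ U ↔ Y v = w • v := fun v => by simp [U, sub_eq_zero]
  have hWm : ∀ v, v ∈ W ↔ Y v = (w * w) • v := fun v => by simp [W, sub_eq_zero]
  have hYY : ∀ v, Y (Y v) = -(Y v) - v := fun v => by
    rw [eq_sub_iff_add_eq, eq_neg_iff_add_eq_zero, ← hY v]; abel
  have hc1 : w + w * w = -1 := by linear_combination hw
  have hc2 : w * (w * w) = 1 := by linear_combination hw3
  have hcompl : IsCompl U W := by
    refine ⟨?_, ?_⟩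
    · rw [Submodule.disjoint_def]
      intro v hv hv'
      have h := ((hUm v).1 hv).symm.trans ((hWm v).1 hv')
      rw [← sub_eq_zero, ← sub_smul, smul_eq_zero] at h
      exact h.resolve_left hne
    · rw [codisjoint_iff, eq_top_iff]
      intro v _
      refine Submodule.mem_sup.2 ⟨(w - w * w)⁻¹ • (Y v - (w * w) • v), ?_,
        (w - w * w)⁻¹ • (w • v - Y v), ?_, ?_⟩
      · rw [hUm, map_smul, map_sub, map_smul, hYY, smul_comm w]
        congr 1
        rw [smul_sub, smul_smul, hc2, one_smul]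
        match_scalars <;> first | ring1 | linear_combination -hw
      · rw [hWm, map_smul, map_sub, map_smul, hYY, smul_comm (w * w)]
        congr 1
        rw [smul_sub (w * w), smul_smul, mul_comm (w * w), hc2, one_smul]
        match_scalars <;> first | ring1 | linear_combination hw | linear_combination -hw
      · rw [← smul_add, show Y v - (w * w) • v + (w • v - Y v) = (w - w * w) • v by module,
          inv_smul_smul₀ hne]
  have hUi : Inv Y U := fun v hv => by rw [(hUm v).1 hv]; exact U.smul_mem _ hv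
  have hWi : Inv Y W := fun v hv => by rw [(hWm v).1 hv]; exact W.smul_mem _ hv
  have hsum := Submodule.finrank_add_eq_of_isCompl hcompl
  rw [finrank_fin_fun] at hsum
  rw [prod_conj hcompl hUi hWi, LinearEquiv.conj_apply, LinearMap.comp_assoc, LinearMap.det_conj,
    LinearMap.det_prodMap,
    show Y.restrict hUi = w • LinearMap.id from LinearMap.ext fun v => Subtype.ext ((hUm _).1 v.2),
    show Y.restrict hWi = (w * w) • LinearMap.id from LinearMap.ext fun v => Subtype.ext ((hWm _).1 v.2),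
    LinearMap.det_smul, LinearMap.det_smul, LinearMap.det_id, LinearMap.det_id, mul_one, mul_one] at hd
  have hcases : finrank F U = 0 ∧ finrank F W = 3 ∨ finrank F U = 1 ∧ finrank F W = 2 ∨
      finrank F U = 2 ∧ finrank F W = 1 ∨ finrank F U = 3 ∧ finrank F W = 0 := by omega
  rcases hcases with ⟨-, h⟩ | ⟨hu, hv⟩ | ⟨hu, hv⟩ | ⟨h, -⟩
  · have hT : W = ⊤ := Submodule.eq_top_of_finrank_eq (by rw [h, finrank_fin_fun])
    exact ⟨w * w, fun v => (hWm v).1 (by rw [hT]; trivial)⟩
  · rw [hu, hv] at hd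
    exact absurd (by linear_combination hd - (w ^ 2) * hw3 : w ^ 2 = 1) fun h => hw1 (by linear_combination hw3 - w * h)
  · rw [hu, hv] at hd
    exact absurd (by linear_combination hd - w * hw3 : w = 1) hw1
  · have hT : U = ⊤ := Submodule.eq_top_of_finrank_eq (by rw [h, finrank_fin_fun])
    exact ⟨w, fun v => (hUm v).1 (by rw [hT]; trivial)⟩

theorem eigen_basis {w : F} (hw1 : w ≠ 1) (hw3 : w ^ 3 = 1) {X : Module.End F (Fin 3 → F)}
    (hX : ∀ v, X (X (X v)) = v)
    (hP : ∀ a : Fin 3, ∃ v, v + (w ^ (a : ℕ))⁻¹ • X v + ((w ^ (a : ℕ))⁻¹) ^ 2 • X (X v) ≠ 0) :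
    ∃ b : Basis (Fin 3) F (Fin 3 → F), (∀ a : Fin 3, X (b a) = w ^ (a : ℕ) • b a) ∧ LinearMap.det X = 1 ∧
      ∀ δ : F, ∃ C : Module.End F (Fin 3 → F), (∀ v, C (X v) = X (C v)) ∧ LinearMap.det C = δ := by
  classical
  have hw0 : w ≠ 0 := fun h => by simp [h] at hw3
  choose v hv using hP
  let f : Fin 3 → (Fin 3 → F) := fun a =>
    v a + (w ^ (a : ℕ))⁻¹ • X (v a) + ((w ^ (a : ℕ))⁻¹) ^ 2 • X (X (v a))
  have hf : ∀ a : Fin 3, X (f a) = w ^ (a : ℕ) • f a := fun a => by
    have ha : w ^ (a : ℕ) ≠ 0 := pow_ne_zero _ hw0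
    have h3 : (w ^ (a : ℕ)) ^ 3 = 1 := by rw [← pow_mul, mul_comm, pow_mul, hw3, one_pow]
    simp only [f, map_add, map_smul, hX]
    set u := w ^ (a : ℕ)
    match_scalars <;> field_simp <;> first
      | linear_combination h3
      | linear_combination -h3
      | linear_combination u * h3
      | linear_combination -u * h3
  have hinj : Function.Injective fun a : Fin 3 => w ^ (a : ℕ) := by
    intro a b h
    have h' : w ^ (a : ℕ) = w ^ (b : ℕ) := h
    have hord : orderOf w = 3 := by
      haveI : Fact (Nat.Prime 3) := ⟨Nat.prime_three⟩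
      exact orderOf_eq_prime hw3 hw1
    exact Fin.ext (pow_injOn_Iio_orderOf (show (a : ℕ) ∈ Set.Iio (orderOf w) by rw [Set.mem_Iio, hord]; exact a.2)
      (show (b : ℕ) ∈ Set.Iio (orderOf w) by rw [Set.mem_Iio, hord]; exact b.2) h')
  have hli : LinearIndependent F f := Module.End.eigenvectors_linearIndependent' X _ hinj f
    fun a => ⟨Module.End.mem_eigenspace_iff.2 (hf a), hv a⟩
  let b := basisOfLinearIndependentOfCardEqFinrank hli (by simp)
  have hb : ∀ a, X (b a) = w ^ (a : ℕ) • b a := fun a => by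
    simp only [b, coe_basisOfLinearIndependentOfCardEqFinrank]; exact hf a
  have hdiag : X = Matrix.toLin b b (Matrix.diagonal fun a : Fin 3 => w ^ (a : ℕ)) := b.ext fun a => by
    rw [hb, Matrix.toLin_self, Finset.sum_eq_single a (fun j _ hj => by simp [hj]) (by simp)]
    simp
  refine ⟨b, hb, ?_, fun δ => ⟨Matrix.toLin b b (Matrix.diagonal fun a : Fin 3 => if a = 0 then δ else 1),
    fun z => ?_, by simp [LinearMap.det_toLin, Fin.prod_univ_three]⟩⟩
  · rw [hdiag, LinearMap.det_toLin, Matrix.det_diagonal, Fin.prod_univ_three]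
    simp only [Fin.val_zero, Fin.val_one, Fin.val_two]
    linear_combination hw3
  · rw [hdiag, ← Matrix.toLin_mul_apply b b b, ← Matrix.toLin_mul_apply b b b, Matrix.diagonal_mul_diagonal,
      Matrix.diagonal_mul_diagonal]
    simp_rw [mul_comm]

theorem eigen_basis_of_det [Fintype F] {w : F} (hw1 : w ≠ 1) (hw : w ^ 2 + w + 1 = 0)
    {X : Module.End F (Fin 3 → F)} (hX : ∀ v, X (X (X v)) = v) (hd : LinearMap.det X = 1)
    (hns : ∀ c : F, ∃ v, X v ≠ c • v) (a : Fin 3) :
    ∃ v, v + (w ^ (a : ℕ))⁻¹ • X v + ((w ^ (a : ℕ))⁻¹) ^ 2 • X (X v) ≠ 0 := by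
  have hw3 : w ^ 3 = 1 := by linear_combination (w - 1) * hw
  by_contra h
  push Not at h
  set u := (w ^ (a : ℕ))⁻¹ with hu
  have hu3 : u ^ 3 = 1 := by rw [hu, inv_pow, ← pow_mul, mul_comm, pow_mul, hw3, one_pow, inv_one]
  have hu0 : u ≠ 0 := fun e => by simp [e] at hu3
  obtain ⟨c, hc⟩ := scalar_of_quad hw1 hw (Y := u • X) (fun v => by
      rw [← h v]
      simp only [LinearMap.smul_apply, map_smul, smul_smul]
      module) (by rw [LinearMap.det_smul, hd, finrank_fin_fun, hu3, mul_one])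
  obtain ⟨v, hv⟩ := hns (u⁻¹ * c)
  exact hv (by rw [mul_smul, ← hc v, LinearMap.smul_apply, inv_smul_smul₀ hu0])

theorem exists_cube_field [Fintype F] {E : Type*} [Field E] [Algebra F E] [Finite E] (hE : finrank F E = 3)
    {z : F} (hz : ∀ y : F, y ^ 3 ≠ z) : ∃ θ : E, θ ^ 3 = algebraMap F E z := by
  have hirr : Irreducible (X ^ 3 - C z) := X_pow_sub_C_irreducible_of_prime Nat.prime_three hz
  haveI := Fact.mk hirr
  haveI : Finite (AdjoinRoot (X ^ 3 - C z)) := by
    haveI : FiniteDimensional F (AdjoinRoot (X ^ 3 - C z)) := (AdjoinRoot.powerBasis hirr.ne_zero).finite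
    exact Module.finite_of_finite F
  obtain ⟨φ⟩ := FiniteField.nonempty_algHom_of_finrank_dvd (F := F) (K := AdjoinRoot (X ^ 3 - C z)) (L := E) (by
    rw [hE, (AdjoinRoot.powerBasis hirr.ne_zero).finrank, AdjoinRoot.powerBasis_dim, natDegree_X_pow_sub_C])
  refine ⟨φ (AdjoinRoot.root _), ?_⟩
  have h := AdjoinRoot.eval₂_root (X ^ 3 - C z)
  rw [eval₂_sub, eval₂_X_pow, eval₂_C, sub_eq_zero] at h
  rw [← map_pow, h, ← AdjoinRoot.algebraMap_eq, AlgHom.commutes]

theorem card_GL3_mod_nine [Fintype F] (h : Fintype.card F % 9 = 2 ∨ Fintype.card F % 9 = 5) :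
    ¬ 9 ∣ Nat.card (GL (Fin 3) F) := by
  rw [Matrix.card_GL_field, Fin.prod_univ_three]
  set q := Fintype.card F
  have hq : (q : ZMod 9) = ((q % 9 : ℕ) : ZMod 9) := (ZMod.natCast_mod q 9).symm
  have hpos : 1 ≤ q := Fintype.card_pos
  rw [← ZMod.natCast_eq_zero_iff, Nat.cast_mul, Nat.cast_mul,
    Nat.cast_sub (Nat.pow_le_pow_right hpos (by simp)), Nat.cast_sub (Nat.pow_le_pow_right hpos (by simp)),
    Nat.cast_sub (Nat.pow_le_pow_right hpos (by simp))]
  simp only [Nat.cast_pow, hq]
  rcases h with h | h <;> rw [h] <;> decide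

theorem no_conj_two_fixed {K : Subalgebra F (Matrix (Fin 3) (Fin 3) F)}
    (hK : Cfsg.Geo.IsFieldSubalgebra 3 K) {x : Matrix.SpecialLinearGroup (Fin 3) F} {l : F} (hl : l ≠ 0)
    {v w : Fin 3 → F} (hv : (x : Matrix (Fin 3) (Fin 3) F) *ᵥ v = l • v)
    (hw : (x : Matrix (Fin 3) (Fin 3) F) *ᵥ w = l • w) (hv0 : v ≠ 0) (hvw : ∀ c : F, c • v ≠ w)
    (hns : ∀ z : F, (x : Matrix (Fin 3) (Fin 3) F) ≠ z • (1 : Matrix (Fin 3) (Fin 3) F))
    (P : Matrix.SpecialLinearGroup (Fin 3) F) :
    Matrix.SpecialLinearGroup.toGL (P⁻¹ * x * P) ∉ Cfsg.Geo.subalgebraNormalizer K := by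
  intro hP
  let s : GL (Fin 3) F := Units.map (algebraMap F (Matrix (Fin 3) (Fin 3) F)).toMonoidHom (Units.mk0 l⁻¹ (inv_ne_zero hl))
  have hs : (s : Matrix (Fin 3) (Fin 3) F) = l⁻¹ • (1 : Matrix (Fin 3) (Fin 3) F) := Algebra.algebraMap_eq_smul_one _
  have hsK : s ∈ Cfsg.Geo.subalgebraNormalizer K := fun k => by
    have : (s : Matrix (Fin 3) (Fin 3) F) * k * ((s⁻¹ : GL (Fin 3) F) : Matrix (Fin 3) (Fin 3) F) = k := by
      rw [show (s : Matrix (Fin 3) (Fin 3) F) * k = k * s by simp [hs], mul_assoc, Units.mul_inv, mul_one]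
    rw [this]
  set Q : Matrix (Fin 3) (Fin 3) F := ((P⁻¹ : Matrix.SpecialLinearGroup (Fin 3) F) : Matrix (Fin 3) (Fin 3) F)
  have hPQ : (P : Matrix (Fin 3) (Fin 3) F) * Q = 1 := by
    rw [← Matrix.SpecialLinearGroup.coe_mul, mul_inv_cancel, Matrix.SpecialLinearGroup.coe_one]
  have hg : ∀ u, (x : Matrix (Fin 3) (Fin 3) F) *ᵥ u = l • u →
      ((s * Matrix.SpecialLinearGroup.toGL (P⁻¹ * x * P) : GL (Fin 3) F) : Matrix (Fin 3) (Fin 3) F) *ᵥ (Q *ᵥ u) = Q *ᵥ u := by
    intro u hu
    rw [Units.val_mul, hs, smul_mul_assoc, one_mul, Matrix.smul_mulVec]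
    change l⁻¹ • ((((P⁻¹ * x * P : Matrix.SpecialLinearGroup (Fin 3) F)) : Matrix (Fin 3) (Fin 3) F) *ᵥ (Q *ᵥ u)) = _
    rw [Matrix.SpecialLinearGroup.coe_mul, Matrix.SpecialLinearGroup.coe_mul, Matrix.mulVec_mulVec,
      mul_assoc, hPQ, mul_one, ← Matrix.mulVec_mulVec, hu, Matrix.mulVec_smul, inv_smul_smul₀ hl]
  have hQinj : ∀ z z', Q *ᵥ z = Q *ᵥ z' → z = z' := fun z z' e => by
    have := congrArg (fun a => (P : Matrix (Fin 3) (Fin 3) F) *ᵥ a) e
    simpa [Matrix.mulVec_mulVec, hPQ] using this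
  have h1 := Singer.eq_one_of_fixed Nat.prime_three hK (mul_mem hsK hP) (hg v hv) (hg w hw)
    (fun e => hv0 (hQinj _ _ (by rw [e, Matrix.mulVec_zero])))
    (fun c e => hvw c (hQinj _ _ (by rw [Matrix.mulVec_smul, e])))
  refine hns l (Matrix.toLin'.injective (LinearMap.ext fun z => ?_))
  have h2 := congrArg (fun g : GL (Fin 3) F => (g : Matrix (Fin 3) (Fin 3) F) *ᵥ (Q *ᵥ z)) h1
  simp only [Units.val_mul, hs, smul_mul_assoc, one_mul, Matrix.smul_mulVec, Units.val_one, Matrix.one_mulVec] at h2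
  change l⁻¹ • ((((P⁻¹ * x * P : Matrix.SpecialLinearGroup (Fin 3) F)) : Matrix (Fin 3) (Fin 3) F) *ᵥ (Q *ᵥ z)) = _ at h2
  rw [Matrix.SpecialLinearGroup.coe_mul, Matrix.SpecialLinearGroup.coe_mul, Matrix.mulVec_mulVec,
    mul_assoc, hPQ, mul_one, ← Matrix.mulVec_mulVec, inv_smul_eq_iff₀ hl, ← Matrix.mulVec_smul] at h2
  rw [Matrix.toLin'_apply, map_smul, Matrix.toLin'_one]
  exact hQinj _ _ h2

end


/-- Elements of order 3 of PSL_3(q) and the normalizer of a Singer cycle. Here `T = PSL_n(F)` for a field `F` with `q = p^f` elements (`n ≥ 2`, `(n, q) ≠ (2, 2), (2, 3)`), `k` is a prime dividing `n`, `K` is a subalgebra of the `n × n` matrices that is a field of degree `k` over `F` (an extension-field structure F_{q^k} on `F^n`), and `H` is the subgroup of matrices of determinant 1 normalizing `K` — a subgroup of type GL_{n/k}(q^k) (maximal except in some small cases; maximality is not assumed); Ω is the set of cosets of `H` in `T`, so an element of `T` of prime order `r` (a matrix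 `x` of determinant 1 with `x^r` scalar, `x` not scalar) fixes a point of Ω when some conjugate of `x` by a matrix of determinant 1 normalizes `K`. Take `n = k = 3` and suppose 3 divides the index of `H`. Then every element of `T` of order 3 is conjugate in `T` into `H` if and only if `q ≡ 4, 7` or `8 (mod 9)`. -/
theorem result {F : Type*} [Field F] [Fintype F] {p : ℕ} [Fact p.Prime] [CharP F p] {q : ℕ} (hq : Fintype.card F = q)
    (n : ℕ) (hn : n = 3) (k : ℕ) (hk : k.Prime) (hkn : k ∣ n) (K : Subalgebra F (Matrix (Fin n) (Fin n) F)) (hK : Cfsg.Geo.IsFieldSubalgebra k K) (hk3 : k = 3) (hΩ : 3 ∣ ((Cfsg.Geo.subalgebraNormalizer K).comap (Matrix.SpecialLinearGroup.toGL : Matrix.SpecialLinearGroup (Fin n) F →* GL (Fin n) F)).index) :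
    (∀ x : Matrix.SpecialLinearGroup (Fin n) F,
      (∃ z : F, ((x ^ 3 : Matrix.SpecialLinearGroup (Fin n) F) : Matrix (Fin n) (Fin n) F) = z • (1 : Matrix (Fin n) (Fin n) F)) →
      (∀ z : F, (x : Matrix (Fin n) (Fin n) F) ≠ z • (1 : Matrix (Fin n) (Fin n) F)) →
      ∃ P : Matrix.SpecialLinearGroup (Fin n) F, P⁻¹ * x * P ∈ ((Cfsg.Geo.subalgebraNormalizer K).comap (Matrix.SpecialLinearGroup.toGL : Matrix.SpecialLinearGroup (Fin n) F →* GL (Fin n) F))) ↔
    (q % 9 = 4 ∨ q % 9 = 7 ∨ q % 9 = 8) := by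
  classical
  subst hk3 hn hq
  haveI : Fact (Nat.Prime 3) := ⟨Nat.prime_three⟩
  constructor
  · intro h
    by_contra hc
    have hc' : 3 ∣ Fintype.card F ∨ Fintype.card F % 9 = 1 ∨ (Fintype.card F % 9 = 2 ∨ Fintype.card F % 9 = 5) := by
      omega
    rcases hc' with h3 | h1 | h25
    · -- characteristic three: a transvection
      obtain ⟨f, -, hf⟩ := FiniteField.card F p
      have hp3 : 3 = p := (Nat.prime_dvd_prime_iff_eq Nat.prime_three Fact.out).1
        (Nat.prime_three.dvd_of_dvd_pow (hf ▸ h3))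
      have h30 : (3 : F) = 0 := by exact_mod_cast hp3 ▸ CharP.cast_eq_zero F p
      have h01 : (0 : Fin 3) ≠ 1 := by decide
      let A : Matrix.SpecialLinearGroup (Fin 3) F :=
        ⟨Matrix.transvection 0 1 1, Matrix.det_transvection_of_ne _ _ h01 _⟩
      have hns : ∀ z : F, (A : Matrix (Fin 3) (Fin 3) F) ≠ z • (1 : Matrix (Fin 3) (Fin 3) F) := fun z hz => by
        have := congrFun (congrFun hz 0) 1
        simp [A, Matrix.transvection] at this
      obtain ⟨P, hP⟩ := h A ⟨1, by
        rw [Matrix.SpecialLinearGroup.coe_pow, pow_succ, pow_two, one_smul]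
        show Matrix.transvection 0 1 (1 : F) * Matrix.transvection 0 1 1 * Matrix.transvection 0 1 1 = 1
        rw [Matrix.transvection_mul_transvection_same _ _ h01, Matrix.transvection_mul_transvection_same _ _ h01,
          show (1 : F) + 1 + 1 = 0 by linear_combination h30, Matrix.transvection_zero]⟩ hns
      refine no_conj_two_fixed hK one_ne_zero (v := Pi.single 0 1) (w := Pi.single 2 1) ?_ ?_ (by simp)
        (fun c hc => by simpa using congrFun hc 2) hns P hP <;>
      · funext i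
        fin_cases i <;> simp [A, Matrix.transvection, Matrix.mulVec_single_one]
    · -- an element of order nine in the field
      obtain ⟨g, hg, -⟩ := Cfsg.Agent.Lib.Elusive.exists_gen F
      obtain ⟨c, hcq⟩ : 9 ∣ Fintype.card F - 1 := by omega
      have hc0 : 0 < c := by have := Fintype.one_lt_card (α := F); omega
      have hord : orderOf (g ^ c) = 9 := by
        rw [orderOf_pow' g hc0.ne', hg, hcq, Nat.gcd_eq_right (dvd_mul_left c 9), Nat.mul_div_cancel _ hc0]
      set l : F := ((g ^ c : Fˣ) : F) with hl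
      have hl0 : l ≠ 0 := Units.ne_zero _
      have hl9 : l ^ 9 = 1 := by rw [hl, ← Units.val_pow_eq_pow_val, ← hord, pow_orderOf_eq_one, Units.val_one]
      have hl3 : l ^ 3 ≠ 1 := fun e => by
        have h' : orderOf (g ^ c) ∣ 3 := orderOf_dvd_of_pow_eq_one
          (Units.ext (by rw [Units.val_pow_eq_pow_val, ← hl, e, Units.val_one]))
        rw [hord] at h'
        omega
      let A : Matrix.SpecialLinearGroup (Fin 3) F := ⟨Matrix.diagonal ![l, l, (l * l)⁻¹], by
        rw [Matrix.det_diagonal, Fin.prod_univ_three]; simp; field_simp⟩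
      have hns : ∀ z : F, (A : Matrix (Fin 3) (Fin 3) F) ≠ z • (1 : Matrix (Fin 3) (Fin 3) F) := fun z hz => by
        have e0 := congrFun (congrFun hz 0) 0
        have e2 := congrFun (congrFun hz 2) 2
        simp [A] at e0 e2
        refine hl3 ?_
        rw [← e0] at e2
        field_simp at e2
        linear_combination -e2
      obtain ⟨P, hP⟩ := h A ⟨l ^ 3, by
        rw [Matrix.SpecialLinearGroup.coe_pow]
        show Matrix.diagonal ![l, l, (l * l)⁻¹] ^ 3 = _
        rw [Matrix.diagonal_pow, Matrix.smul_one_eq_diagonal]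
        congr 1
        funext i
        fin_cases i <;> simp
        field_simp
        linear_combination -hl9⟩ hns
      refine no_conj_two_fixed hK hl0 (v := Pi.single 0 1) (w := Pi.single 1 1) ?_ ?_ (by simp)
        (fun c hc => by simpa using congrFun hc 1) hns P hP <;>
      · funext i
        fin_cases i <;> simp [A, Matrix.mulVec_single_one]
    · -- the index would be prime to three
      have hndvd : ¬ 3 ∣ Fintype.card F - 1 := by omega
      have hroot : ∀ d : F, d ^ 3 = 1 → d = 1 := fun d hd => by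
        have hd0 : d ≠ 0 := fun h => by simp [h] at hd
        have h1 : orderOf d ∣ Fintype.card F - 1 :=
          orderOf_dvd_of_pow_eq_one (FiniteField.pow_card_sub_one_eq_one d hd0)
        rcases (Nat.dvd_prime Nat.prime_three).1 (orderOf_dvd_of_pow_eq_one hd) with h | h
        · exact orderOf_eq_one_iff.1 h
        · exact absurd (h ▸ h1) hndvd
      obtain ⟨G, hG3, hG1, hGmem, -⟩ := Singer.exists_frobenius Nat.prime_three hK
      obtain ⟨g, hg, hgv⟩ := Singer.exists_sl_of_map (hroot _ (Singer.det_pow_self_eq_one hG3))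
      set H := (Cfsg.Geo.subalgebraNormalizer K).comap
        (Matrix.SpecialLinearGroup.toGL : Matrix.SpecialLinearGroup (Fin 3) F →* GL (Fin 3) F)
      have hord : orderOf g = 3 := orderOf_eq_prime (Subtype.ext (Matrix.toLin'.injective (by
          rw [Matrix.SpecialLinearGroup.coe_pow, Matrix.toLin'_pow, hg, Matrix.SpecialLinearGroup.coe_one,
            Matrix.toLin'_one]
          exact LinearMap.ext hG3)))
        (fun e => hG1 (by rw [← hg, e, Matrix.SpecialLinearGroup.coe_one, Matrix.toLin'_one]; rfl))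
      have h3H : 3 ∣ Nat.card H := by
        have := orderOf_dvd_natCard (⟨g, hGmem _ hgv⟩ : H)
        rwa [← Subgroup.orderOf_coe, hord] at this
      have h9 : 9 ∣ Nat.card (GL (Fin 3) F) := by
        rw [Cfsg.Agent.Lib.Classical.card_GL_eq_units_mul_card_SL, ← Subgroup.card_mul_index H]
        exact dvd_mul_of_dvd_right (mul_dvd_mul h3H hΩ) _
      exact card_GL3_mod_nine h25 h9
  · intro hrhs x ⟨z, hz⟩ hns
    by_cases h8 : Fintype.card F % 9 = 8
    · have hp3 : 3 ≠ p := fun e => by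
        obtain ⟨f, -, hf⟩ := FiniteField.card F p
        have : 3 ∣ Fintype.card F := by rw [hf, ← e]; exact dvd_pow_self _ f.ne_zero
        omega
      refine Singer.forall_conj le_rfl hp3 ?_ hK x hz hns
      rw [show ((Fintype.card F : ZMod 3)) = 2 by
        rw [← ZMod.natCast_mod, show Fintype.card F % 3 = 2 by omega]; rfl]
      exact orderOf_eq_prime (p := 2) rfl (by simp; decide +revert)
    have h3 : 3 ∣ Fintype.card F - 1 := by omega
    have h9 : ¬ 9 ∣ Fintype.card F - 1 := by omega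
    obtain ⟨w, hw1, hw3, hw⟩ := exists_omega h3
    set X' := Matrix.toLin' (x : Matrix (Fin 3) (Fin 3) F) with hX
    have hXz : ∀ v, X' (X' (X' v)) = z • v := fun v => by
      have e : Matrix.toLin' ((x : Matrix (Fin 3) (Fin 3) F) ^ 3) v = z • v := by
        rw [← Matrix.SpecialLinearGroup.coe_pow, hz, map_smul, Matrix.toLin'_one]; rfl
      rw [Matrix.toLin'_pow] at e
      exact e
    have hz0 : z ≠ 0 := fun h => by
      have hd := congrArg Matrix.det hz
      rw [Matrix.SpecialLinearGroup.det_coe, h, zero_smul, Matrix.det_zero] at hd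
      exact one_ne_zero hd
    obtain ⟨E, _, _, hE, ι, e, hι, he⟩ := Singer.exists_coords (by norm_num) hK
    haveI : FiniteDimensional F E := Module.finite_of_finrank_pos (by rw [hE]; norm_num)
    haveI : Finite E := Module.finite_of_finite F
    by_cases hcube : ∃ l : F, l ^ 3 = z
    · obtain ⟨l, hl⟩ := hcube
      have hl0 : l ≠ 0 := fun h => hz0 (by rw [← hl, h]; norm_num)
      have hY3 : ∀ v, (l⁻¹ • X') ((l⁻¹ • X') ((l⁻¹ • X') v)) = v := fun v => by
        simp only [LinearMap.smul_apply, map_smul, hXz, smul_smul, ← hl]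
        rw [show l⁻¹ * l⁻¹ * (l⁻¹ * l ^ 3) = 1 by field_simp, one_smul]
      have hdY : LinearMap.det (l⁻¹ • X') = (l⁻¹) ^ 3 := by
        rw [LinearMap.det_smul, hX, LinearMap.det_toLin', x.det_coe, mul_one, Module.finrank_fin_fun]
      have hl9 : l ^ 9 = 1 := by
        have h := congrArg LinearMap.det (show (l⁻¹ • X') ^ 3 = 1 from LinearMap.ext hY3)
        rw [map_pow, hdY, map_one, ← pow_mul, inv_pow, inv_eq_one] at h
        exact h
      have hl3 : l ^ 3 = 1 := by
        have h1 : orderOf l ∣ 9 := orderOf_dvd_of_pow_eq_one hl9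
        have h2 : orderOf l ∣ Fintype.card F - 1 :=
          orderOf_dvd_of_pow_eq_one (FiniteField.pow_card_sub_one_eq_one l hl0)
        refine orderOf_dvd_iff_pow_eq_one.1 ?_
        obtain ⟨i, hi, he'⟩ := (Nat.dvd_prime_pow Nat.prime_three).1 (show orderOf l ∣ 3 ^ 2 from h1)
        interval_cases i
        · rw [he']; norm_num
        · rw [he']; norm_num
        · rw [he'] at h2; exact absurd h2 h9
      have hz1 : z = 1 := hl ▸ hl3
      have hX3 : ∀ v, X' (X' (X' v)) = v := fun v => by rw [hXz, hz1, one_smul]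
      have hXns : ∀ c : F, ∃ v, X' v ≠ c • v := fun c => by
        by_contra h
        push Not at h
        exact hns c (Matrix.toLin'.injective (LinearMap.ext fun v => by rw [← hX, h, map_smul, Matrix.toLin'_one]; rfl))
      obtain ⟨b, hb, -, -⟩ := eigen_basis hw1 hw3 hX3
        (eigen_basis_of_det hw1 hw hX3 (by rw [hX, LinearMap.det_toLin', x.det_coe]) hXns)
      obtain ⟨G, hG3, -, hGmem, hGind⟩ := Singer.exists_frobenius Nat.prime_three hK
      obtain ⟨b', hb', hdG, hcent⟩ := eigen_basis (X := G) hw1 hw3 (fun v => hG3 v) (fun a => by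
        by_contra h
        push Not at h
        have := congrFun (hGind ![1, (w ^ (a : ℕ))⁻¹, ((w ^ (a : ℕ))⁻¹) ^ 2] fun v => by
          rw [Fin.sum_univ_three]
          simpa [pow_two] using h v) 0
        simp at this)
      obtain ⟨g, hg, hgv⟩ := Singer.exists_sl_of_map hdG
      let T := b'.equiv b (Equiv.refl _)
      obtain ⟨P, hP⟩ := exists_sl_conj (A := x) (y := G) T (fun v => by
        suffices h : T.toLinearMap ∘ₗ G = X' ∘ₗ T.toLinearMap from LinearMap.congr_fun h v
        refine b'.ext fun j => ?_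
        simp only [LinearMap.comp_apply, LinearEquiv.coe_coe, T, hb' j, map_smul, Module.Basis.equiv_apply,
          Equiv.refl_apply, hb j]) (fun δ _ => hcent δ)
      exact ⟨P, (Subtype.ext (Matrix.toLin'.injective (hP.trans hg.symm)) : P⁻¹ * x * P = g) ▸ hGmem _ hgv⟩
    · push Not at hcube
      obtain ⟨θ, hθ⟩ := exists_cube_field (F := F) hE hcube
      set Θ : Module.End F (Fin 3 → F) := Matrix.toLin' (ι θ) with hΘ
      have hirr : Irreducible (Polynomial.X ^ 3 - Polynomial.C z) := X_pow_sub_C_irreducible_of_prime Nat.prime_three hcube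
      have hax : Polynomial.aeval X' (Polynomial.X ^ 3 - Polynomial.C z) = 0 := LinearMap.ext fun v => by
        simp [Algebra.algebraMap_eq_smul_one]
        show (X' ^ 3) v - z • v = 0
        rw [show (X' ^ 3) v = X' (X' (X' v)) from rfl, hXz, sub_self]
      have haΘ : Polynomial.aeval Θ (Polynomial.X ^ 3 - Polynomial.C z) = 0 := by
        rw [hΘ, map_sub, map_pow, Polynomial.aeval_X, Polynomial.aeval_C, ← Matrix.toLin'_pow, ← map_pow, hθ,
          AlgHom.commutes, Algebra.algebraMap_eq_smul_one, Algebra.algebraMap_eq_smul_one, map_smul,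
          Matrix.toLin'_one]
        exact sub_self _
      obtain ⟨T, hT⟩ := conj_irreducible hirr haΘ hax rfl
      have hdΘ : LinearMap.det Θ = 1 := by
        have h := LinearMap.det_conj Θ T
        have hTT : (T : (Fin 3 → F) →ₗ[F] Fin 3 → F) ∘ₗ Θ ∘ₗ (T.symm : (Fin 3 → F) →ₗ[F] Fin 3 → F) = X' :=
          LinearMap.ext fun v => by simp [hT]
        rw [hTT, hX, LinearMap.det_toLin', x.det_coe] at h
        exact h.symm
      obtain ⟨g, hg, hgv⟩ := Singer.exists_sl_of_map hdΘ
      obtain ⟨P, hP⟩ := exists_sl_conj (A := x) (y := Θ) T hT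
        fun δ hδ => cent_irreducible hirr haΘ (by simp) hδ
      refine ⟨P, (Subtype.ext (Matrix.toLin'.injective (hP.trans hg.symm)) : P⁻¹ * x * P = g) ▸
        Singer.mem_normalizer hι he id Function.surjective_id fun a v => ?_⟩
      simp only [hgv, hΘ, Matrix.toLin'_apply, he, id]
      ring

end Cfsg.Agent.S5971
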