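import Cfsg.Statements.S5972
import Cfsg.Agent.Lib.Elusive.OrthSingMain
import Cfsg.Agent.Lib.Elusive.OrthSingTwo

set_option autoImplicit false
open scoped MatrixGroups
open Cfsg

namespace Cfsg.Agent.S5972
open Cfsg.Agent.Lib.Elusive Cfsg.Agent.Lib.Elusive.OrthType Cfsg.Agent.Lib.Elusive.OrthSingTS
open Cfsg.Agent.Lib.Classical.QuadF2 Cfsg.Agent.Lib.Classical.Quad Cfsg.Agent.Lib.Classical.QuadOmega Cfsg.Agent.Lib.Classical.OrthTorsion

/-- Elements of prime order of Ω_n(q), n = 2d+1 ≥ 7, q odd, with no fixed totally singular `m`-space. Here `T = Ω_n(q)` is realised as the commutator subgroup of the isometry group of the quadratic form `x₀² + Σ xᵢyᵢ` over the field `F` with `q` elements (it has trivial centre, so its elements of prime order `r` are used directly); let `1 ≤ m ≤ d` and let `r` be a prime dividing the number of totally singular `m`-spaces. For `r ≠ p` let `i` be the multiplicative order of `q` modulo `r`, `c = i`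 for `i` even and `c = 2i` for `i` odd, and write `k = n mod c`, `ℓ = m mod i`, `n' = ⌊n/i⌋`, `m' = ⌊m/i⌋`, `t = (r−1)/i`. Then every element of `T` of order `r` fixes some totally singular `m`-space if and only if either (i) `r = 2` and (`m < (n−1)/2` or `q ≡ 1 (mod 4)`); or (ii) `r ≠ p` is odd, `i ≤ m`, `k > 2ℓ`, and (`i` is odd or `n' − 2m' ≥ t`). -/
theorem result {F : Type*} [Field F] [Fintype F] {p : ℕ} [Fact p.Prime] [CharP F p] {q : ℕ} (hq : Fintype.card F = q) (hqodd : Odd q)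
    (d m : ℕ) (hd : 3 ≤ d) (hm : 1 ≤ m) (hmd : m ≤ d)
    (r : ℕ) [Fact r.Prime]
    (hrΩ : r ∣ Nat.card {W : Submodule F (Unit ⊕ (Fin d ⊕ Fin d) → F) // Module.finrank F ↥W = m ∧ (∀ w ∈ W, Cfsg.quadFormOdd d F w = 0)})
    (i c : ℕ) (hi : i = orderOf (q : ZMod r)) (hc : c = if Even i then i else 2 * i) :
    (∀ x : GL (Unit ⊕ (Fin d ⊕ Fin d)) F, x ∈ Cfsg.Geo.omegaGL (Cfsg.quadFormOdd d F) → orderOf x = r →
      ∃ W : Submodule F (Unit ⊕ (Fin d ⊕ Fin d) → F), Module.finrank F ↥W = m ∧ (∀ w ∈ W, Cfsg.quadFormOdd d F w = 0) ∧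
        W.map (Matrix.toLin' (x : Matrix (Unit ⊕ (Fin d ⊕ Fin d)) (Unit ⊕ (Fin d ⊕ Fin d)) F)) ≤ W) ↔
    ((r = 2 ∧ (m < d ∨ q % 4 = 1)) ∨
     (r ≠ p ∧ 2 < r ∧ i ≤ m ∧ 2 * (m % i) < (2 * d + 1) % c ∧ (Odd i ∨ (r - 1) / i + 2 * (m / i) ≤ (2 * d + 1) / i))) := by
  classical
  subst hq
  have h2 : (2 : F) ≠ 0 := two_ne_zero_of_odd hqodd
  have hr : r.Prime := Fact.out
  have hc' : c = SympStep.cOf i := by rw [hc, SympStep.cOf]
  have hco : ⇑(oddQ d F) = Cfsg.quadFormOdd d F := OrthOdd.coe_oddQ d F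
  have hconv : ∀ W : Submodule F (Unit ⊕ (Fin d ⊕ Fin d) → F),
      (∀ w ∈ W, Cfsg.quadFormOdd d F w = 0) ↔ TSing (oddQ d F) W := fun W => by rw [← hco]; rfl
  have hL : (∀ x : GL (Unit ⊕ (Fin d ⊕ Fin d)) F, x ∈ Cfsg.Geo.omegaGL (Cfsg.quadFormOdd d F) → orderOf x = r →
      ∃ W : Submodule F (Unit ⊕ (Fin d ⊕ Fin d) → F), Module.finrank F ↥W = m ∧ (∀ w ∈ W, Cfsg.quadFormOdd d F w = 0) ∧
        W.map (Matrix.toLin' (x : Matrix (Unit ⊕ (Fin d ⊕ Fin d)) (Unit ⊕ (Fin d ⊕ Fin d)) F)) ≤ W) ↔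
      (∀ x : GL (Unit ⊕ (Fin d ⊕ Fin d)) F, x ∈ Cfsg.Geo.omegaGL (Cfsg.quadFormOdd d F) → orderOf x = r →
        ∃ W : Submodule F (Unit ⊕ (Fin d ⊕ Fin d) → F), (Module.finrank F ↥W = m ∧ TSing (oddQ d F) W) ∧
          Inv (Matrix.toLin' (x : Matrix (Unit ⊕ (Fin d ⊕ Fin d)) (Unit ⊕ (Fin d ⊕ Fin d)) F)) W) := by
    simp only [hconv, inv_iff_map_le, and_assoc]
  rw [hL]
  have hp2 : p ≠ 2 := fun h => h2 ((OrthRows.two_iff (p := p)).2 h)
  by_cases hr2 : r = 2
  · subst hr2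
    rw [OrthSingTwo.main_odd h2 (by omega) hmd, (OrthInvol.card_facts (F := F) h2).1]
    simp
  have hr3 : 2 < r := by have := hr.two_le; omega
  obtain ⟨hrp, u₀, s₀, hu₀, hsum₀, hs₀⟩ := witness_odd (p := p) h2 hmd hi hc' (by simpa only [hco] using hrΩ)
  rw [main_odd h2 hrp hr2 m hi hc' (fun u => if Even i then Even u else False)]
  simp only [hr2, false_and, false_or, ne_eq, hrp, not_false_eq_true, hr3, true_and]
  rcases Nat.lt_or_ge m i with hmi | him
  · refine iff_of_false (fun H => ?_) fun h => by omega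
    exact not_good_small hmi hs₀.le (fun h => absurd h hs₀.ne) (H u₀ s₀ hu₀ hsum₀)
  have hi0 : 0 < i := i_pos (p := p) (q := Fintype.card F) (r := r) rfl hr hrp hi
  have hidvd : i ∣ r - 1 := hi ▸ orderOf_dvd_of_pow_eq_one (ZMod.pow_card_sub_one_eq_one fun h =>
    OrthOdd.cast_q_ne hrp ((ZMod.natCast_eq_zero_iff _ r).1 h))
  have ht : 1 ≤ (r - 1) / i := (Nat.one_le_div_iff hi0).2 (Nat.le_of_dvd (by omega) hidvd)
  obtain ⟨c', hcc⟩ : ∃ c', c = 2 * c' := (hc' ▸ SympStep.cOf_even _ : Even c).two_dvd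
  have hne : ∀ u s, 2 * d + 1 = u * c + s → s ≠ 0 := fun u s h h0 => by
    rw [h0, hcc, mul_left_comm] at h; omega
  have hkodd : (2 * d + 1) % c % 2 = 1 := by
    rw [Nat.mod_mod_of_dvd _ ⟨c', hcc⟩]; omega
  rcases Nat.even_or_odd i with hie | hio
  · obtain rfl : i = c := ((if_pos hie).symm.trans hc.symm)
    simp only [hie, if_true, Nat.not_odd_iff_even.2 hie, false_or]
    have key := even_iff' (i := i) (m := m) (n := 2 * d + 1) (t := (r - 1) / i) (fun u => Even u)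
      (fun u => Nat.even_add_one) hie (by have := Nat.even_iff.1 hie; omega) him (by omega) ht
    refine Iff.trans ?_ (key.trans ?_)
    · exact ⟨fun H u s hu hs _ => H u s hu hs, fun H u s hu hs => H u s hu hs fun h => absurd h (hne u s hs)⟩
    simp only [Nat.even_iff]
    omega
  · have hio' : ¬ Even i := Nat.not_even_iff_odd.2 hio
    obtain rfl : c = 2 * i := by rw [hc, if_neg hio']
    simp only [hio', hio, if_false, true_or, and_true]
    have key := odd_iff' (i := i) (m := m) (n := 2 * d + 1) (t := (r - 1) / i) False hio' him (by omega) (by omega)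
    refine Iff.trans ?_ (key.trans ?_)
    · exact ⟨fun H u s hu hs _ => H u s hu hs, fun H u s hu hs => H u s hu hs fun h => absurd h (hne u s hs)⟩
    simp only [false_and, false_or, not_false_eq_true, true_and]
    omega

end Cfsg.Agent.S5972
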