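import Cfsg.Statements.S5973
import Cfsg.Agent.Lib.Elusive.OrthSingMain
import Cfsg.Agent.Lib.Elusive.OrthSingTwo
import Cfsg.Agent.Lib.Classical.QuadOmega.SingularApply

set_option autoImplicit false
open scoped MatrixGroups
open Cfsg

namespace Cfsg.Agent.S5973
open Cfsg.Agent.Lib.Elusive Cfsg.Agent.Lib.Elusive.OrthType Cfsg.Agent.Lib.Elusive.OrthSingTS
open Cfsg.Agent.Lib.Classical.QuadF2 Cfsg.Agent.Lib.Classical.Quad Cfsg.Agent.Lib.Classical.QuadOmega Cfsg.Agent.Lib.Classical.OrthTorsion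

/-- Elements of prime order of PΩ⁺_n(q), n = 2d ≥ 8, with no fixed totally singular `m`-space, `m < n/2`. Here `T = PΩ⁺_n(q)` is realised through `Ω⁺_n(q)`, the commutator subgroup of the isometry group of the quadratic form `Σ xᵢyᵢ` over the field `F` with `q` elements; an element of `T` of prime order `r` is an element `x` of `Ω⁺_n(q)` with `x^r` scalar and `x` not scalar. Let `1 ≤ m < d` and let `r` be a prime dividing the number of totally singular `m`-spaces. For `r ≠ p` let `i` be the multiplicative order of `q` modulo `r`, `c = i` for `i` even and `c = 2i` for `i` odd, and write `k = n mod c`, `ℓ = m mod i`, `n' = ⌊n/i⌋`, `m' = ⌊m/i⌋`, `t = (r−1)/i`. Then every element of `T` of order `r` fixes some totally singular `m`-space if and only if one of: (i) `r = 2 ≠ p` and either `q ≡ 1 (mod 4)`, or `q ≡ 3 (mod 4)`, `m ≤ n/2 − 2` and (`m` even or `n ≡ 2 (mod 4)`); (ii) `r ≠ p` odd, `i` odd, `i ≤ m` and `k ≥ 2ℓ`; (iii)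 `r ≠ p` odd, `i` even, `i ≤ m`, `n' − 2m' ≥ t`, and one of: `i ≥ 2ℓ`, `k = 0`, `n/i` odd and `n' − 2m' > t`; or `k ≥ 2ℓ` and `n'` even; or `k > 2ℓ` and `n'` odd. -/
theorem result {F : Type*} [Field F] [Fintype F] {p : ℕ} [Fact p.Prime] [CharP F p] {q : ℕ} (hq : Fintype.card F = q)
    (d m : ℕ) (hd : 4 ≤ d) (hm : 1 ≤ m) (hmd : m < d)
    (r : ℕ) [Fact r.Prime]
    (hrΩ : r ∣ Nat.card {W : Submodule F (Fin d ⊕ Fin d → F) // Module.finrank F ↥W = m ∧ (∀ w ∈ W, Cfsg.quadFormPlus d F w = 0)})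
    (i c : ℕ) (hi : i = orderOf (q : ZMod r)) (hc : c = if Even i then i else 2 * i) :
    (∀ x : GL (Fin d ⊕ Fin d) F, x ∈ Cfsg.Geo.omegaGL (Cfsg.quadFormPlus d F) →
      (∃ z : F, ((x ^ r : GL (Fin d ⊕ Fin d) F) : Matrix (Fin d ⊕ Fin d) (Fin d ⊕ Fin d) F) = z • (1 : Matrix (Fin d ⊕ Fin d) (Fin d ⊕ Fin d) F)) →
      (∀ z : F, (x : Matrix (Fin d ⊕ Fin d) (Fin d ⊕ Fin d) F) ≠ z • (1 : Matrix (Fin d ⊕ Fin d) (Fin d ⊕ Fin d) F)) →
      ∃ W : Submodule F (Fin d ⊕ Fin d → F), Module.finrank F ↥W = m ∧ (∀ w ∈ W, Cfsg.quadFormPlus d F w = 0) ∧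
        W.map (Matrix.toLin' (x : Matrix (Fin d ⊕ Fin d) (Fin d ⊕ Fin d) F)) ≤ W) ↔
    ((r = 2 ∧ p ≠ 2 ∧ (q % 4 = 1 ∨ (q % 4 = 3 ∧ m + 2 ≤ d ∧ (Even m ∨ (2 * d) % 4 = 2)))) ∨
     (r ≠ p ∧ 2 < r ∧ Odd i ∧ i ≤ m ∧ 2 * (m % i) ≤ (2 * d) % c) ∨
     (r ≠ p ∧ 2 < r ∧ Even i ∧ i ≤ m ∧ (r - 1) / i + 2 * (m / i) ≤ (2 * d) / i ∧
       ((2 * (m % i) ≤ i ∧ (2 * d) % c = 0 ∧ Odd ((2 * d) / i) ∧ (r - 1) / i + 2 * (m / i) < (2 * d) / i) ∨
        (2 * (m % i) ≤ (2 * d) % c ∧ Even ((2 * d) / i)) ∨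
        (2 * (m % i) < (2 * d) % c ∧ Odd ((2 * d) / i))))) := by
  classical
  subst hq
  have hr : r.Prime := Fact.out
  have hc' : c = SympStep.cOf i := by rw [hc, SympStep.cOf]
  have hQ : Nd (plusQ d F) := nd_plusQ d
  have hV : Plus (plusQ d F) ⊤ := OrthRows.plus_top d
  have hι : Fintype.card (Fin d ⊕ Fin d) = 2 * d := by simp [two_mul]
  have hreg : Reg F (Fin d ⊕ Fin d → F) := reg_plus (Or.inr (by omega))
  have hco := OrthRows.coe_plusQ (F := F) d
  have hconv : ∀ W : Submodule F (Fin d ⊕ Fin d → F),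
      (∀ w ∈ W, Cfsg.quadFormPlus d F w = 0) ↔ TSing (plusQ d F) W := fun W => by rw [← hco]; rfl
  obtain ⟨hp2, hdiv⟩ : True ∧ r ∣ Nat.card {W : Submodule F (Fin d ⊕ Fin d → F) //
      Module.finrank F ↥W = m ∧ (∀ w ∈ W, plusQ d F w = 0)} := ⟨trivial, by simpa only [hco] using hrΩ⟩
  simp only [hconv, ← inv_iff_map_le, ← and_assoc]
  rw [← hco]
  have hrp : r ≠ p := (OrthSingCount.dvd_even (p := p) hQ (d := d) (by rw [Module.finrank_pi, hι]) (by omega) hdiv).1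
  by_cases hr2 : r = 2
  · subst hr2
    have h2 : (2 : F) ≠ 0 := fun h => hrp ((OrthRows.two_iff (p := p)).1 h).symm
    have hodd : Fintype.card F % 2 = 1 := FiniteField.odd_card_of_char_ne_two fun h => h2 (by
      haveI := ringChar.of_eq h; exact CharTwo.two_eq_zero)
    rw [OrthSingTwo.main_even hQ h2 hι (by omega) (by omega), OrthInvol.HasRot]
    obtain ⟨hs1, hs2⟩ := OrthInvol.card_facts (F := F) h2
    simp only [hV, true_iff, true_implies, hs1, hs2, Nat.even_iff, true_and, ne_eq, Ne.symm hrp, not_false_eq_true,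
      lt_irrefl, false_and, and_false, or_false]
    omega
  have hr3 : 2 < r := by have := hr.two_le; omega
  obtain ⟨-, u₀, s₀, hu₀, hsum₀, htype₀, hle₀, heq₀⟩ := witness_even (p := p) hι hQ (by omega) hr2 hi hc' hdiv
  rw [main_even hι (by omega) hQ hreg hrp hr2 m hi hc']
  simp only [hr2, false_and, false_or, ne_eq, hrp, not_false_eq_true, hr3, true_and]
  rcases Nat.lt_or_ge m i with hmi | him
  · refine iff_of_false (fun H => ?_) fun h => by omega
    exact not_good_small hmi hle₀ heq₀ (H u₀ s₀ hu₀ hsum₀ htype₀)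
  have hi0 : 0 < i := i_pos (p := p) (q := Fintype.card F) (r := r) rfl hr hrp hi
  have hidvd : i ∣ r - 1 := hi ▸ orderOf_dvd_of_pow_eq_one (ZMod.pow_card_sub_one_eq_one fun h =>
    OrthOdd.cast_q_ne hrp ((ZMod.natCast_eq_zero_iff _ r).1 h))
  have ht : 1 ≤ (r - 1) / i := (Nat.one_le_div_iff hi0).2 (Nat.le_of_dvd (by omega) hidvd)
  obtain ⟨c', hcc⟩ : ∃ c', c = 2 * c' := (hc' ▸ SympStep.cOf_even _ : Even c).two_dvd
  have hkeven : (2 * d) % c % 2 = 0 := by
    rw [Nat.mod_mod_of_dvd _ ⟨c', hcc⟩]; omega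
  rcases Nat.even_or_odd i with hie | hio
  · obtain rfl : i = c := ((if_pos hie).symm.trans hc.symm)
    have hRP : ∀ u, (Plus (plusQ d F) ⊤ ↔ OrthEven.RPlus i u) ↔ Even u := fun u => by
      rw [OrthRows.rPlus_iff hie]; simp [hV]
    simp only [hRP, hie, Nat.not_odd_iff_even.2 hie, false_and, false_or, true_and]
    refine (even_iff' (i := i) (m := m) (n := 2 * d) (t := (r - 1) / i) (fun u => Even u) (fun u => Nat.even_add_one)
      hie (by have := Nat.even_iff.1 hie; omega) him (by omega) ht).trans ?_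
    have := Nat.mod_lt (2 * d) hi0
    simp only [Nat.even_iff, Nat.odd_iff]
    omega
  · have hio' : ¬ Even i := Nat.not_even_iff_odd.2 hio
    obtain rfl : c = 2 * i := by rw [hc, if_neg hio']
    have hRP : ∀ u, (Plus (plusQ d F) ⊤ ↔ OrthEven.RPlus i u) ↔ True := fun u => by
      simp [hV, OrthRows.rPlus_odd hio']
    simp only [hRP, hio', hio, false_and, or_false, true_and]
    refine (odd_iff' (i := i) (m := m) (n := 2 * d) (t := (r - 1) / i) True hio' him (by omega)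
      fun _ => trivial).trans ?_
    simp only [true_and, not_true_eq_false, false_and, or_false]
    omega

end Cfsg.Agent.S5973
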