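import Cfsg.Statements.S5974
import Cfsg.Agent.Lib.Elusive.OrthRows
import Cfsg.Agent.Lib.Classical.QuadOmega.SingularApply

set_option autoImplicit false
open scoped MatrixGroups
open Cfsg

namespace Cfsg.Agent.S5974
open Cfsg.Agent.Lib.Elusive Cfsg.Agent.Lib.Elusive.OrthType Cfsg.Agent.Lib.Elusive.OrthRows
open Cfsg.Agent.Lib.Classical.Quad Cfsg.Agent.Lib.Classical.QuadOmega Cfsg.Agent.Lib.Classical.OrthTorsion

/-- Elements of prime order of PΩ⁺_n(q), n = 2d ≥ 8, with no fixed nondegenerate hyperbolic `m`-space. Here `T = PΩ⁺_n(q)` is realised through `Ω⁺_n(q)`, the commutator subgroup of the isometry group of `Q = Σ xᵢyᵢ` over the field `F` with `q` elements; an element of `T` of prime order `r` is an element `x` of `Ω⁺_n(q)` with `x^r` scalar and `x` not scalar. A hyperbolic `m`-space is a subspace `W` of even dimension `m` on which the polar form of `Q` is nondegenerate and which contains a totally singular subspace of dimension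 `m/2`. Let `m` be even with `2 ≤ m < n/2`, and let `r` be a prime dividing the number of hyperbolic `m`-spaces, with `r = 2` or `r ≠ p`. For `r ≠ p` let `i` be the multiplicative order of `q` modulo `r`, `c = i` for `i` even and `c = 2i` for `i` odd, and write `k = n mod c`, `ℓ' = m mod c`. Then every element of `T` of order `r` fixes some hyperbolic `m`-space if and only if one of: (i) `r = 2` and (`n ≡ 2 (mod 4)`, or `m ≡ 0 (mod 4)`, or `q ≡ 1 (mod 4)`); (ii) `r ≠ p` odd, `i` odd, `c ≤ m` and `k ≥ ℓ'`; (iii) `r ≠ p` odd, `i` even, and either `k = 0` and (`n/i` odd, or `ℓ' = 0` and `m/i` even), or `i ≤ m` and (`k > ℓ' > 0`, or `k = ℓ' > 0` and `(n + m − 2k)/i` even, or `k > ℓ' = 0` and `m/i` even). -/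
theorem result {F : Type*} [Field F] [Fintype F] {p : ℕ} [Fact p.Prime] [CharP F p] {q : ℕ} (hq : Fintype.card F = q)
    (d m : ℕ) (hd : 4 ≤ d) (hm : 2 ≤ m) (hme : Even m) (hmd : m < d)
    (r : ℕ) [Fact r.Prime] (hr : r = 2 ∨ r ≠ p)
    (hrΩ : r ∣ Nat.card {W : Submodule F (Fin d ⊕ Fin d → F) // (Module.finrank F ↥W = m ∧ (∀ u ∈ W, u ≠ 0 → ∃ v ∈ W, QuadraticMap.polar (Cfsg.quadFormPlus d F) u v ≠ 0) ∧
          ∃ U : Submodule F (Fin d ⊕ Fin d → F), U ≤ W ∧ 2 * Module.finrank F ↥U = m ∧ ∀ u ∈ U, Cfsg.quadFormPlus d F u = 0)})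
    (i c : ℕ) (hi : i = orderOf (q : ZMod r)) (hc : c = if Even i then i else 2 * i) :
    (∀ x : GL (Fin d ⊕ Fin d) F, x ∈ Cfsg.Geo.omegaGL (Cfsg.quadFormPlus d F) →
      (∃ z : F, ((x ^ r : GL (Fin d ⊕ Fin d) F) : Matrix (Fin d ⊕ Fin d) (Fin d ⊕ Fin d) F) = z • (1 : Matrix (Fin d ⊕ Fin d) (Fin d ⊕ Fin d) F)) →
      (∀ z : F, (x : Matrix (Fin d ⊕ Fin d) (Fin d ⊕ Fin d) F) ≠ z • (1 : Matrix (Fin d ⊕ Fin d) (Fin d ⊕ Fin d) F)) →
      ∃ W : Submodule F (Fin d ⊕ Fin d → F), (Module.finrank F ↥W = m ∧ (∀ u ∈ W, u ≠ 0 → ∃ v ∈ W, QuadraticMap.polar (Cfsg.quadFormPlus d F) u v ≠ 0) ∧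
          ∃ U : Submodule F (Fin d ⊕ Fin d → F), U ≤ W ∧ 2 * Module.finrank F ↥U = m ∧ ∀ u ∈ U, Cfsg.quadFormPlus d F u = 0) ∧
        W.map (Matrix.toLin' (x : Matrix (Fin d ⊕ Fin d) (Fin d ⊕ Fin d) F)) ≤ W) ↔
    ((r = 2 ∧ ((2 * d) % 4 = 2 ∨ m % 4 = 0 ∨ q % 4 = 1)) ∨
     (r ≠ p ∧ 2 < r ∧ Odd i ∧ c ≤ m ∧ m % c ≤ (2 * d) % c) ∨
     (r ≠ p ∧ 2 < r ∧ Even i ∧
       (((2 * d) % c = 0 ∧ (Odd ((2 * d) / i) ∨ (m % c = 0 ∧ Even (m / i)))) ∨
        (i ≤ m ∧ ((m % c < (2 * d) % c ∧ 0 < m % c) ∨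
                  ((2 * d) % c = m % c ∧ 0 < m % c ∧ Even ((2 * d + m - 2 * ((2 * d) % c)) / i)) ∨
                  (0 < (2 * d) % c ∧ m % c = 0 ∧ Even (m / i))))))) := by
  classical
  subst hq
  obtain ⟨a, rfl⟩ := hme.two_dvd
  have hQ : Nd (plusQ d F) := nd_plusQ d
  have hV : Plus (plusQ d F) ⊤ := plus_top d
  have hι : Fintype.card (Fin d ⊕ Fin d) = 2 * d := by simp [two_mul]
  have hfin : Module.finrank F (Fin d ⊕ Fin d → F) = 2 * d := finrank_plus d
  have hreg : Reg F (Fin d ⊕ Fin d → F) := reg_plus (Or.inr (by omega))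
  have hconv : ∀ W : Submodule F (Fin d ⊕ Fin d → F),
      (Module.finrank F ↥W = 2 * a ∧ (∀ u ∈ W, u ≠ 0 → ∃ v ∈ W, QuadraticMap.polar (Cfsg.quadFormPlus d F) u v ≠ 0) ∧
        ∃ U : Submodule F (Fin d ⊕ Fin d → F), U ≤ W ∧ 2 * Module.finrank F ↥U = 2 * a ∧ ∀ u ∈ U, Cfsg.quadFormPlus d F u = 0) ↔
      (Module.finrank F W = 2 * a ∧ NdOn (plusQ d F) W ∧ (Plus (plusQ d F) W ↔ True)) := fun W => by
    rw [iff_true, ← coe_plusQ]
    constructor
    · rintro ⟨h1, h3, U, h4, h5, h6⟩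
      exact ⟨h1, fun x hx hall => by_contra fun hx0 => by
        obtain ⟨v, hv, hne⟩ := h3 x hx hx0
        exact hne (hall v hv), U, h4, h6, h5.trans h1.symm⟩
    · rintro ⟨h1, h3, U, h4, h6, h5⟩
      exact ⟨h1, fun x hx hx0 => by
        by_contra! hall
        exact hx0 (h3 x hx hall), U, h4, h5.trans h1, h6⟩
  have hdiv : r ∣ Nat.card {W : Submodule F (Fin d ⊕ Fin d → F) //
      Module.finrank F W = 2 * a ∧ NdOn (plusQ d F) W ∧ (Plus (plusQ d F) W ↔ True)} := by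
    simpa only [hconv] using hrΩ
  simp only [hconv, ← inv_iff_map_le]
  rw [← coe_plusQ]
  by_cases hr2 : r = 2
  · subst hr2
    have hrhs : ∀ P Q : Prop, (P ↔ ((2 * d) % 4 = 2 ∨ 2 * a % 4 = 0 ∨ Fintype.card F % 4 = 1)) →
        (P ↔ ((2 = 2 ∧ ((2 * d) % 4 = 2 ∨ 2 * a % 4 = 0 ∨ Fintype.card F % 4 = 1)) ∨
          (2 ≠ p ∧ 2 < 2 ∧ Q) ∨ (2 ≠ p ∧ 2 < 2 ∧ Q))) := fun P Q h => by simp [h]
    refine Iff.trans ?_ (or_iff_left ?_).symm
    swap
    · rintro (⟨-, h, -⟩ | ⟨-, h, -⟩) <;> omega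
    simp only [true_and]
    by_cases hp2 : (2 : F) = 0
    · haveI : CharP F 2 := CharTwo.of_one_ne_zero_of_two_eq_zero one_ne_zero hp2
      have hq : ¬ Fintype.card F % 4 = 1 := by
        have h := FiniteField.even_card_iff_char_two.1 (ringChar.eq F 2)
        omega
      constructor
      · intro hall
        by_contra hcon
        have hd2 : d % 2 = 0 ∧ a % 2 = 1 := by omega
        obtain ⟨x, hx, hx2, hne, S, hal, hrk⟩ := OrthInvolTwo.exists_alt_elt hp2 hQ hreg hι (j := d / 2) (by omega)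
          (Or.inr ⟨by omega, hV⟩)
        obtain ⟨W, ⟨hWd, hWn, -⟩, hWi⟩ := hall x hx ⟨_, hx2⟩ hne
        obtain ⟨r₁, r₂, h, h1, h3, h4, h5, -⟩ := OrthInvolTwo.alt_split S hQ hal hfin hWn hWi hWd
        rw [hrk] at h
        rw [Nat.even_iff] at h1 h3
        omega
      · intro hc x hx ⟨z, hz⟩ _
        have S := OrthInvolTwo.setting_of hp2 hQ (by omega) (fun v => OrthOdd.iso_of_omega hx v) hz
        obtain ⟨W, hW, hWi⟩ := OrthInvolTwo.exists_type_top S hQ hfin (by omega) (a := a) (by omega) (by omega) (by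
          rcases Nat.even_or_odd a with ha | ha
          · exact Or.inl ⟨ha, hV⟩
          · refine Or.inr (Or.inl ?_)
            rw [Nat.odd_iff] at ha
            rw [Nat.even_iff]
            omega)
        exact ⟨W, ⟨hW.1, hW.2.1, hW.2.2.trans (iff_of_true hV trivial)⟩, hWi⟩
    · rw [OrthInvol.main_even hQ hp2 hι (by omega) (by omega) True, OrthInvol.HasRot]
      obtain ⟨hs1, hs2⟩ := OrthInvol.card_facts (F := F) hp2
      have hodd : Fintype.card F % 2 = 1 := FiniteField.odd_card_of_char_ne_two fun h => hp2 (by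
        haveI := ringChar.of_eq h; exact CharTwo.two_eq_zero)
      simp only [hV, true_iff, hs1, hs2, Nat.even_iff]
      omega
  have hrp : r ≠ p := hr.resolve_left hr2
  have hr3 : 2 < r := by have := (Fact.out : r.Prime).two_le; omega
  rw [OrthEven.main hι (by omega) hQ hreg hrp hr2 a True hi (c := c) (by rw [hc, SympStep.cOf])]
  obtain ⟨hb1, hb2, hb3⟩ := OrthEven.bound hι hQ hrp hr2 (by omega) (by omega) True hi (c := c) (by rw [hc, SympStep.cOf]) hdiv
  have hi0 : 0 < i := i_pos (p := p) (q := Fintype.card F) (r := r) rfl Fact.out hrp hi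
  have hc0 : 0 < c := by rw [hc]; split_ifs <;> omega
  rw [good_iff hc0 (by omega) (by omega) hb2]
  have hlm := Nat.mod_le (2 * a) c
  have hsmall : 2 * a < c → 2 * a % c = 2 * a ∧ 2 * a / c = 0 := fun h => ⟨Nat.mod_eq_of_lt h, Nat.div_eq_of_lt h⟩
  have hsum := sum_div (d := d) (m := 2 * a) hc0
  have hwu : 2 * a / c ≤ 2 * d / c := Nat.div_le_div_right (by omega)
  simp only [hV, true_iff, hr2, false_and, false_or, ne_eq, hrp, not_false_eq_true, hr3, true_and] at hb3 ⊢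
  rcases Nat.even_or_odd i with he | ho
  · obtain rfl : c = i := by rw [hc, if_pos he]
    simp only [rPlus_iff he, he, Nat.not_odd_iff_even.2 he, false_and, false_or, true_and, Nat.even_iff, Nat.odd_iff] at hb3 ⊢
    constructor
    · rintro ⟨H0, H1⟩
      rcases Nat.eq_zero_or_pos ((2 * d) % c) with h0 | h0
      · clear hsum
        omega
      · by_cases hl : 2 * a % c = (2 * d) % c
        · have := hsum hl.symm
          omega
        · omega
    · intro H
      by_cases hl : 2 * a % c = (2 * d) % c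
      · have := hsum hl.symm
        omega
      · omega
  · have hne : ¬ Even i := Nat.not_even_iff_odd.2 ho
    simp only [rPlus_odd hne, hne, ho, false_and, or_false, true_and, implies_true, and_true, forall_const, not_true_eq_false, imp_false] at hb3 ⊢
    omega

end Cfsg.Agent.S5974
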