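import Cfsg.Statements.S5975
import Cfsg.Agent.Lib.Elusive.SympFieldModels
import Cfsg.Agent.Lib.Elusive.SLConj
import Cfsg.Agent.Lib.Classical.SympOrder

set_option autoImplicit false
set_option maxHeartbeats 1600000
open scoped MatrixGroups
open scoped Matrix
open Cfsg
open Cfsg.Agent.Lib.Elusive Cfsg.Agent.Lib.Forms Cfsg.Agent.Lib.Elusive.SympField

namespace Cfsg.Agent.S5975

open Module

universe u

variable {F : Type u} [Field F]

theorem prod_split (a : ℕ → ℕ) {k : ℕ} (hk : 0 < k) (d' : ℕ) :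
    ∏ j ∈ Finset.range (k * d'), a (j + 1) =
      (∏ j ∈ (Finset.range (k * d')).filter (fun j => ¬ k ∣ j + 1), a (j + 1)) *
        ∏ i ∈ Finset.range d', a (k * (i + 1)) := by
  rw [← Finset.prod_filter_mul_prod_filter_not _ (fun j => ¬ k ∣ j + 1)]
  congr 1
  refine (Finset.prod_bij (fun i _ => k * (i + 1) - 1) (fun i hi => ?_) (fun i _ j _ h => ?_) (fun b hb => ?_)
    (fun i _ => ?_)).symm
  · rw [Finset.mem_range] at hi
    have h1 : k * (i + 1) ≤ k * d' := Nat.mul_le_mul_left k hi
    have h2 : 0 < k * (i + 1) := Nat.mul_pos hk (by omega)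
    simp only [Finset.mem_filter, Finset.mem_range, not_not]
    rw [Nat.sub_add_cancel h2]
    exact ⟨by omega, dvd_mul_right _ _⟩
  · have := Nat.mul_pos hk (show 0 < i + 1 by omega)
    have := Nat.mul_pos hk (show 0 < j + 1 by omega)
    have := Nat.eq_of_mul_eq_mul_left hk (show k * (i + 1) = k * (j + 1) by omega)
    omega
  · simp only [Finset.mem_filter, Finset.mem_range, not_not] at hb
    obtain ⟨hb1, c, hc⟩ := hb
    have hc0 : c ≠ 0 := fun h => by simp [h] at hc
    refine ⟨c - 1, Finset.mem_range.2 ?_, ?_⟩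
    · have : k * c ≤ k * d' := by omega
      have := Nat.le_of_mul_le_mul_left this hk
      omega
    · rw [Nat.sub_add_cancel (Nat.one_le_iff_ne_zero.2 hc0)]; omega
  · rw [Nat.sub_add_cancel (Nat.mul_pos hk (by omega))]

theorem stdB_spGL {d : ℕ} {g : GL (Fin d ⊕ Fin d) F} (hg : g ∈ Cfsg.spGL d F) (u v : Fin d ⊕ Fin d → F) :
    stdB d F ((g : Matrix (Fin d ⊕ Fin d) (Fin d ⊕ Fin d) F) *ᵥ u) ((g : Matrix (Fin d ⊕ Fin d) (Fin d ⊕ Fin d) F) *ᵥ v) =
      stdB d F u v := by
  rw [stdB_apply, stdB_apply]; exact hg u v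

theorem mem_spGL {d : ℕ} {g : GL (Fin d ⊕ Fin d) F}
    (h : ∀ u v, stdB d F ((g : Matrix (Fin d ⊕ Fin d) (Fin d ⊕ Fin d) F) *ᵥ u)
      ((g : Matrix (Fin d ⊕ Fin d) (Fin d ⊕ Fin d) F) *ᵥ v) = stdB d F u v) : g ∈ Cfsg.spGL d F :=
  fun u v => by
    have := h u v
    rwa [stdB_apply, stdB_apply] at this

theorem card_spGL [Fintype F] (d : ℕ) : Nat.card (Cfsg.spGL d F) = Fintype.card F ^ (d ^ 2) *
    ∏ i ∈ Finset.range d, (Fintype.card F ^ (2 * (i + 1)) - 1) := by
  rw [← Cfsg.Agent.Lib.Classical.card_symplecticGroup]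
  refine (Nat.card_eq_of_bijective
    (fun A => (⟨spToGL d F A, mem_spGL (g := spToGL d F A) fun u v => (stdB_iff_matrix d _).2 A.2 u v⟩ : Cfsg.spGL d F)) ⟨?_, ?_⟩).symm
  · exact fun a b h => spToGL_injective d (congrArg Subtype.val h)
  · rintro ⟨g, hg⟩
    obtain ⟨A, rfl⟩ := exists_spToGL_eq (stdB_spGL hg)
    exact ⟨A, rfl⟩

theorem stdB_single {d : ℕ} (i : Fin d) :
    stdB d F (Pi.single (Sum.inr i) 1) (Pi.single (Sum.inl i) 1) ≠ 0 := by
  rw [stdB_apply, Cfsg.sympForm, single_dotProduct, one_mul]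
  simp [Matrix.J]

/-- If conjugation maps a finite subalgebra into itself it normalises it. -/
theorem mem_normalizer [Finite F] {ι : Type} [Fintype ι] [DecidableEq ι] {K : Subalgebra F (Matrix ι ι F)}
    {g : GL ι F} (h : ∀ k ∈ K, (g : Matrix ι ι F) * k * ((g⁻¹ : GL ι F) : Matrix ι ι F) ∈ K) :
    g ∈ Cfsg.Geo.subalgebraNormalizer K := by
  intro k
  refine ⟨h k, fun hk => ?_⟩
  let φ : K → K := fun x => ⟨_, h x x.2⟩
  have hφ : Function.Injective φ := fun x y hxy => Subtype.ext (by
    have := congrArg (fun z : K => ((g⁻¹ : GL ι F) : Matrix ι ι F) * z * (g : Matrix ι ι F)) hxy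
    simpa [φ, mul_assoc] using this)
  obtain ⟨x, hx⟩ := Finite.surjective_of_injective hφ ⟨_, hk⟩
  have hx' : (g : Matrix ι ι F) * (x : Matrix ι ι F) * ((g⁻¹ : GL ι F) : Matrix ι ι F) =
      (g : Matrix ι ι F) * k * ((g⁻¹ : GL ι F) : Matrix ι ι F) := congrArg Subtype.val hx
  have := congrArg (fun z => ((g⁻¹ : GL ι F) : Matrix ι ι F) * z * (g : Matrix ι ι F)) hx'
  simp [mul_assoc] at this
  exact this ▸ x.2

theorem exists_sq_add_sq [Fintype F] (h2 : (2 : F) ≠ 0) (c : F) : ∃ s t : F, s ^ 2 + t ^ 2 = c := by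
  open Polynomial in
  have hodd : Fintype.card F % 2 = 1 := by
    refine FiniteField.odd_card_of_char_ne_two fun h => ?_
    haveI := ringChar.of_eq h
    exact h2 CharTwo.two_eq_zero
  obtain ⟨s, t, hst⟩ := FiniteField.exists_root_sum_quadratic (f := (Polynomial.X ^ 2 : Polynomial F))
    (g := (Polynomial.X ^ 2 - Polynomial.C c)) (Polynomial.degree_X_pow 2)
    (Polynomial.degree_X_pow_sub_C (by norm_num) c) hodd
  refine ⟨s, t, ?_⟩
  simp at hst
  linear_combination hst

/-- A basis adapted to `x` and a scalar `ε`. -/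
theorem exists_frame [Fintype F] (h2 : (2 : F) ≠ 0) {V : Type u} [AddCommGroup V] [Module F V]
    [FiniteDimensional F V] (hV : finrank F V = 4) {B : LinearMap.BilinForm F V} (hA : B.IsAlt)
    (hB : B.SeparatingLeft) {X : Module.End F V} (hX : ∀ u v, B (X u) (X v) = B u v) {z : F} (hz : z ≠ 0)
    (hXz : ∀ v, X (X v) = z • v) (hns : ∀ c : F, ∃ v, X v ≠ c • v) {ε : F} (hε : ε ≠ 0) :
    ∃ e : Fin 4 → V, (∀ i j, B (e i) (e j) = !![0, 1, 0, 0; -1, 0, 0, 0; 0, 0, 0, ε; 0, 0, -ε, 0] i j) ∧
      ((∀ i, X (e i) = ![e 0, e 1, -e 2, -e 3] i) ∨ (∀ i, X (e i) = ![e 1, -e 0, e 3, -e 2] i)) := by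
  have hz2 : z * z = 1 := by
    obtain ⟨v, hv⟩ := hns 0
    have hv0 : v ≠ 0 := fun h => hv (by simp [h])
    obtain ⟨w, hw⟩ : ∃ w, B v w ≠ 0 := by
      by_contra h
      push Not at h
      exact hv0 (hB v h)
    have := hX (X v) (X w)
    rw [hXz, hXz, hX, map_smul, map_smul, LinearMap.smul_apply, smul_eq_mul, smul_eq_mul, ← mul_assoc] at this
    exact mul_right_cancel₀ hw (this.trans (one_mul _).symm)
  have hneg : ∀ u v, B v u = -B u v := fun u v => (hA.neg_eq u v).symm
  have hgram : ∀ e : Fin 4 → V, B (e 0) (e 1) = 1 → B (e 2) (e 3) = ε → B (e 0) (e 2) = 0 → B (e 0) (e 3) = 0 →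
      B (e 1) (e 2) = 0 → B (e 1) (e 3) = 0 →
      ∀ i j, B (e i) (e j) = !![0, 1, 0, 0; -1, 0, 0, 0; 0, 0, 0, ε; 0, 0, -ε, 0] i j := by
    intro e h01 h23 h02 h03 h12 h13 i j
    fin_cases i <;> fin_cases j <;>
      simp [hA.self_eq_zero, h01, h23, h02, h03, h12, h13, hneg (e 0) (e 1), hneg (e 0) (e 2),
        hneg (e 0) (e 3), hneg (e 1) (e 2), hneg (e 1) (e 3), hneg (e 2) (e 3)]
  rcases mul_self_eq_one_iff.1 hz2 with rfl | rfl
  · -- reflections
    have hsq : ∀ v, X (X v) = ((1 : F) * 1) • v := fun v => by rw [hXz, one_mul]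
    have hc := isCompl_eigen h2 one_ne_zero hsq
    have horth : ∀ u ∈ LinearMap.ker (X - (1 : F) • LinearMap.id),
        ∀ v ∈ LinearMap.ker (X + (1 : F) • LinearMap.id), B u v = 0 ∧ B v u = 0 := by
      intro u hu v hv
      have h := hX u v
      rw [eig_pos hu, eig_neg hv, one_smul, neg_one_smul, map_neg] at h
      have h0 : B u v = 0 := by
        have : (2 : F) * B u v = 0 := by linear_combination -h
        exact (mul_eq_zero.1 this).resolve_left h2
      exact ⟨h0, by rw [hneg, h0, neg_zero]⟩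
    have key : ∀ (U W : Submodule F V), IsCompl U W → (∀ u ∈ U, ∀ v ∈ W, B u v = 0) → U ≠ ⊥ →
        ∀ c : F, c ≠ 0 → ∃ u ∈ U, ∃ v ∈ U, B u v = c := by
      intro U W hUW ho hU c hc0
      obtain ⟨u, hu, hu0⟩ := Submodule.exists_mem_ne_zero_of_ne_bot hU
      obtain ⟨w, hw⟩ : ∃ w, B u w ≠ 0 := by
        by_contra h
        push Not at h
        exact hu0 (hB u h)
      obtain ⟨a, ha, b, hb, rfl⟩ := Submodule.mem_sup.1 (hUW.sup_eq_top ▸ Submodule.mem_top (x := w))
      rw [map_add, ho u hu b hb, add_zero] at hw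
      exact ⟨u, hu, (c * (B u a)⁻¹) • a, U.smul_mem _ ha, by
        rw [map_smul, smul_eq_mul, inv_mul_cancel_right₀ hw]⟩
    have hb1 : LinearMap.ker (X - (1 : F) • LinearMap.id) ≠ ⊥ := fun h => by
      obtain ⟨v, hv⟩ := hns (-1)
      have := hc.sup_eq_top
      rw [h, bot_sup_eq] at this
      exact hv (eig_neg (this ▸ Submodule.mem_top))
    have hb2 : LinearMap.ker (X + (1 : F) • LinearMap.id) ≠ ⊥ := fun h => by
      obtain ⟨v, hv⟩ := hns 1
      have := hc.sup_eq_top
      rw [h, sup_bot_eq] at this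
      exact hv (eig_pos (this ▸ Submodule.mem_top))
    obtain ⟨a, ha, b, hb, hab⟩ := key _ _ hc (fun u hu v hv => (horth u hu v hv).1) hb1 1 one_ne_zero
    obtain ⟨a', ha', b', hb', hab'⟩ := key _ _ hc.symm (fun u hu v hv => (horth v hv u hu).2) hb2 ε hε
    refine ⟨![a, b, a', b'], hgram _ hab hab' (horth a ha a' ha').1 (horth a ha b' hb').1
      (horth b hb a' ha').1 (horth b hb b' hb').1, Or.inl fun i => ?_⟩
    fin_cases i <;> simp [eig_pos ha, eig_pos hb, eig_neg ha', eig_neg hb']
  · -- square roots of minus one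
    have hsk : ∀ u v, B (X u) v = -B u (X v) := fun u v => by
      have := hX u (X v)
      rw [hXz, map_smul, smul_eq_mul] at this
      linear_combination -this
    have hrep : ∀ (P : Submodule F V), (∀ v ∈ P, X v ∈ P) → P ≠ ⊥ →
        (∀ u ∈ P, (∀ w ∈ P, B u w = 0) → u = 0) → ∀ c : F, ∃ u ∈ P, B u (X u) = c := by
      intro P hP hP0 hnd c
      obtain ⟨w, hw, hw0⟩ : ∃ w ∈ P, B w (X w) ≠ 0 := by
        by_contra h
        push Not at h
        obtain ⟨u, hu, hu0⟩ := Submodule.exists_mem_ne_zero_of_ne_bot hP0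
        refine hu0 (hnd u hu fun v hv => ?_)
        have h1 := h (u + X v) (P.add_mem hu (hP v hv))
        have h3 := h u hu
        have h4 := h (X v) (hP v hv)
        simp only [map_add, LinearMap.add_apply, hXz, neg_one_smul, map_neg] at h1 h4
        rw [h3, hX v u] at h1
        have : (2 : F) * B u v = 0 := by
          have h5 := hneg u v
          linear_combination -h1 + h4 + h5
        exact (mul_eq_zero.1 this).resolve_left h2
      obtain ⟨s, t, hst⟩ := exists_sq_add_sq h2 (c / B w (X w))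
      refine ⟨s • w + t • X w, P.add_mem (P.smul_mem s hw) (P.smul_mem t (hP w hw)), ?_⟩
      have h' : (s ^ 2 + t ^ 2) * B w (X w) = c := by rw [hst, div_mul_cancel₀ _ hw0]
      simp only [map_add, map_smul, hXz, LinearMap.add_apply, LinearMap.smul_apply, smul_eq_mul,
        hA.self_eq_zero, hneg w (X w)]
      linear_combination h'
    obtain ⟨a, -, ha⟩ := hrep ⊤ (fun _ _ => trivial) (fun h => by
      rw [← finrank_top F V, h, finrank_bot] at hV; omega) (fun u _ hu => hB u fun w => hu w trivial) 1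
    let P := LinearMap.ker ((B a).prod (B (X a)))
    have hPmem : ∀ {v}, v ∈ P ↔ B a v = 0 ∧ B (X a) v = 0 := fun {v} => by
      simp [P, LinearMap.mem_ker, Prod.ext_iff]
    obtain ⟨a', ha'P, ha'⟩ := hrep P (fun v hv => by
        rw [hPmem] at hv ⊢
        refine ⟨?_, by rw [hX]; exact hv.1⟩
        have := hsk a v
        linear_combination this - hv.2)
      (fun h => by
        have h1 := LinearMap.finrank_range_add_finrank_ker ((B a).prod (B (X a)))
        have h2' := Submodule.finrank_le (LinearMap.range ((B a).prod (B (X a))))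
        rw [Module.finrank_prod, Module.finrank_self] at h2'
        change _ + finrank F P = _ at h1
        rw [h, finrank_bot, hV] at h1
        omega)
      (fun u hu h => hB u fun w => by
        rw [hPmem] at hu
        have hw' : w - B a w • X a + B (X a) w • a ∈ P := by
          rw [hPmem]
          simp only [map_add, map_sub, map_smul, smul_eq_mul, ha, hA.self_eq_zero, hneg a (X a)]
          constructor <;> ring
        have := h _ hw'
        simp only [map_add, map_sub, map_smul, smul_eq_mul] at this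
        rw [hneg a u, hneg (X a) u, hu.1, hu.2] at this
        simpa using this) ε
    obtain ⟨h1, h2'⟩ := hPmem.1 ha'P
    refine ⟨![a, X a, a', X a'], hgram _ ha ha' h1 ?_ h2' ?_, Or.inr fun i => ?_⟩
    · show B a (X a') = 0
      have := hsk a a'
      linear_combination this - h2'
    · show B (X a) (X a') = 0
      rw [hX]; exact h1
    · fin_cases i <;> simp [hXz]

/-- Elements of prime order of PSp_n(q) and the field-extension subgroups of type Sp_{n/k}(q^k). Here `T = PSp_{2d}(F)` for a field `F` with `q` elements (`d ≥ 2`, `(d, q) ≠ (2, 2)`), realised through the matrices preserving the standard alternating form `f`; `k` is a prime and `K` is a subalgebra of the `2d × 2d` matrices that is a field of degree `k` over `F` whose elements are self-adjoint for `f` and satisfy `f(a v, v) = 0` (so `F^{2d}` becomes a vector space over `K ≅ F_{q^k}` on which `f` is the trace of a `K`-bilinear alternating form); `H` is the subgroup of `T` normalizing `K` — the symplectic maps that are `K`-linear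 or `K`-semilinear, a subgroup of type Sp_{2d/k}(q^k) (maximality is not assumed). Ω is the set of cosets of `H` in `T`, so an element of `T` of prime order `r` (`x ∈ T` with `x^r` scalar, `x` not scalar) fixes a point of Ω exactly when some `T`-conjugate of `x` normalizes `K`. Let `r` be a prime dividing the index of `H`. Then every element of `T` of order `r` fixes a point of Ω if and only if `r = 2`, `d = 2`, `k = 2` and `q` is odd. -/
theorem result {F : Type*} [Field F] [Fintype F] {p : ℕ} [Fact p.Prime] [CharP F p] {q : ℕ} (hq : Fintype.card F = q)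
    (d : ℕ) (hd : 2 ≤ d) (hT : (d, q) ≠ (2, 2)) (k : ℕ) (hk : k.Prime)
    (K : Subalgebra F (Matrix (Fin d ⊕ Fin d) (Fin d ⊕ Fin d) F)) (hK : Cfsg.Geo.IsFieldSubalgebra k K)
    (hKf : Cfsg.Geo.IsSelfAdjointFor (Cfsg.sympForm d F) K) (hKalt : ∀ a ∈ K, ∀ v : Fin d ⊕ Fin d → F, Cfsg.sympForm d F (a *ᵥ v) v = 0)
    (r : ℕ) [Fact r.Prime]
    (hΩ : r ∣ (Cfsg.Geo.subalgebraNormalizer K).relIndex (Cfsg.spGL d F)) :
    (∀ x ∈ Cfsg.spGL d F, (∃ z : F, ((x ^ r : GL (Fin d ⊕ Fin d) F) : Matrix (Fin d ⊕ Fin d) (Fin d ⊕ Fin d) F) = z • (1 : Matrix (Fin d ⊕ Fin d) (Fin d ⊕ Fin d) F)) →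
      (∀ z : F, (x : Matrix (Fin d ⊕ Fin d) (Fin d ⊕ Fin d) F) ≠ z • (1 : Matrix (Fin d ⊕ Fin d) (Fin d ⊕ Fin d) F)) →
      ∃ g ∈ Cfsg.spGL d F, g⁻¹ * x * g ∈ Cfsg.Geo.subalgebraNormalizer K) ↔
    (r = 2 ∧ d = 2 ∧ k = 2 ∧ Odd q) := by
  classical
  subst hq
  set B := stdB d F with hBdef
  have hBA : B.IsAlt := stdB_isAlt d
  have hBS : B.SeparatingLeft := (stdB_nondegenerate d).1
  haveI : Nontrivial K := Module.nontrivial_of_finrank_pos (R := F) (by rw [hK.finrank_eq]; exact hk.pos)
  letI : CommRing K := { (inferInstance : Ring K) with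
    mul_comm := fun a b => Subtype.ext (hK.comm a a.2 b b.2) }
  have hfield : IsField K := by
    refine ⟨exists_pair_ne K, mul_comm, @fun a ha => ?_⟩
    obtain ⟨b, hb, hab⟩ := hK.inv a a.2 (fun h => ha (Subtype.ext h))
    exact ⟨⟨b, hb⟩, Subtype.ext hab⟩
  letI : Field K := hfield.toField
  haveI : FiniteDimensional F K := Module.finite_of_finrank_pos (by rw [hK.finrank_eq]; exact hk.pos)
  haveI : Finite K := Module.finite_of_finite F
  have hfinV : finrank F (Fin d ⊕ Fin d → F) = 2 * d := by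
    rw [Module.finrank_pi, Fintype.card_sum, Fintype.card_fin, two_mul]
  haveI : Nontrivial (Fin d ⊕ Fin d → F) := Module.nontrivial_of_finrank_pos (R := F) (by rw [hfinV]; omega)
  let ρ₀ : K →ₐ[F] Module.End F (Fin d ⊕ Fin d → F) :=
    (Matrix.toLinAlgEquiv' (R := F) (n := Fin d ⊕ Fin d)).toAlgHom.comp K.val
  have hρ₀ : ∀ a v, ρ₀ a v = (a : Matrix (Fin d ⊕ Fin d) (Fin d ⊕ Fin d) F) *ᵥ v := fun _ _ => rfl
  have hsa : ∀ a u v, B (ρ₀ a u) v = B u (ρ₀ a v) := fun a u v => by
    rw [hρ₀, hρ₀, hBdef, stdB_apply, stdB_apply]; exact hKf _ a.2 u v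
  have halt : ∀ a v, B (ρ₀ a v) v = 0 := fun a v => by
    rw [hρ₀, hBdef, stdB_apply]; exact hKalt _ a.2 v
  obtain ⟨d', e₁, he₁, heB⟩ := exists_std hBA hBS ρ₀ hsa halt
  have hdk : d = k * d' := by
    have h := e₁.finrank_eq
    rw [hfinV, Module.finrank_pi_fintype F, Finset.sum_const, Finset.card_univ, Fintype.card_sum,
      Fintype.card_fin, hK.finrank_eq, smul_eq_mul] at h
    nlinarith
  have hd' : 0 < d' := Nat.pos_of_ne_zero fun h => by rw [h, mul_zero] at hdk; omega
  have hkd : k ≤ d := by rw [hdk]; exact Nat.le_mul_of_pos_right k hd'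
  have hr : r.Prime := Fact.out
  -- exclusion
  have key : ∀ x ∈ Cfsg.spGL d F, (∃ z : F, ((x ^ r : GL (Fin d ⊕ Fin d) F) : Matrix (Fin d ⊕ Fin d) (Fin d ⊕ Fin d) F) = z • (1 : Matrix (Fin d ⊕ Fin d) (Fin d ⊕ Fin d) F)) →
      (∀ z : F, (x : Matrix (Fin d ⊕ Fin d) (Fin d ⊕ Fin d) F) ≠ z • (1 : Matrix (Fin d ⊕ Fin d) (Fin d ⊕ Fin d) F)) →
      ((r ≠ k ∧ ∀ v, (Matrix.toLin' (x : Matrix (Fin d ⊕ Fin d) (Fin d ⊕ Fin d) F) ^ r) v = v) ∨
        ∃ (W : Submodule F (Fin d ⊕ Fin d → F)) (μ : F), (∀ v ∈ W, Matrix.toLin' (x : Matrix (Fin d ⊕ Fin d) (Fin d ⊕ Fin d) F) v = μ • v) ∧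
          finrank F (Fin d ⊕ Fin d → F) < 2 * finrank F W) →
      (∀ ρ : K →ₐ[F] Module.End F (Fin d ⊕ Fin d → F), (∀ a u v, B (ρ a u) v = B u (ρ a v)) → (∀ a v, B (ρ a v) v = 0) →
        (∀ a, Commute (ρ a) (Matrix.toLin' (x : Matrix (Fin d ⊕ Fin d) (Fin d ⊕ Fin d) F))) → False) →
      ¬ (∀ x ∈ Cfsg.spGL d F, (∃ z : F, ((x ^ r : GL (Fin d ⊕ Fin d) F) : Matrix (Fin d ⊕ Fin d) (Fin d ⊕ Fin d) F) = z • (1 : Matrix (Fin d ⊕ Fin d) (Fin d ⊕ Fin d) F)) →
        (∀ z : F, (x : Matrix (Fin d ⊕ Fin d) (Fin d ⊕ Fin d) F) ≠ z • (1 : Matrix (Fin d ⊕ Fin d) (Fin d ⊕ Fin d) F)) →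
        ∃ g ∈ Cfsg.spGL d F, g⁻¹ * x * g ∈ Cfsg.Geo.subalgebraNormalizer K) := by
    intro x hx hxr hxs hsemi hlin hall
    obtain ⟨g, hg, hgx⟩ := hall x hx hxr hxs
    set G := (g : Matrix (Fin d ⊕ Fin d) (Fin d ⊕ Fin d) F) with hG
    set G' := ((g⁻¹ : GL (Fin d ⊕ Fin d) F) : Matrix (Fin d ⊕ Fin d) (Fin d ⊕ Fin d) F) with hG'
    have hGG : G' * G = 1 := Units.inv_mul g
    have hGG' : G * G' = 1 := Units.mul_inv g
    let ρ : K →ₐ[F] Module.End F (Fin d ⊕ Fin d → F) :=
      { toFun := fun a => Matrix.toLinAlgEquiv' (G * (a : Matrix (Fin d ⊕ Fin d) (Fin d ⊕ Fin d) F) * G')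
        map_one' := by rw [OneMemClass.coe_one, mul_one, hGG', map_one]
        map_mul' := fun a b => by
          rw [← map_mul, Subalgebra.coe_mul]
          congr 1
          simp only [mul_assoc]
          rw [← mul_assoc G' G, hGG, one_mul]
        map_zero' := by simp
        map_add' := fun a b => by simp [mul_add, add_mul]
        commutes' := fun c => by
          rw [Subalgebra.coe_algebraMap, Algebra.algebraMap_eq_smul_one, mul_smul_comm, smul_mul_assoc,
            mul_one, hGG', map_smul, map_one, Algebra.algebraMap_eq_smul_one] }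
    have hρ : ∀ a v, ρ a v = G *ᵥ (ρ₀ a (G' *ᵥ v)) := fun a v => by
      show (G * (a : Matrix (Fin d ⊕ Fin d) (Fin d ⊕ Fin d) F) * G') *ᵥ v = _
      rw [hρ₀, Matrix.mulVec_mulVec, Matrix.mulVec_mulVec, mul_assoc]
    have hGB : ∀ u v, B (G *ᵥ u) v = B u (G' *ᵥ v) := fun u v => by
      conv_lhs => rw [show v = G *ᵥ (G' *ᵥ v) by rw [Matrix.mulVec_mulVec, hGG', Matrix.one_mulVec]]
      exact stdB_spGL hg _ _
    have hGB' : ∀ u v, B u (G *ᵥ v) = B (G' *ᵥ u) v := fun u v => by
      conv_lhs => rw [show u = G *ᵥ (G' *ᵥ u) by rw [Matrix.mulVec_mulVec, hGG', Matrix.one_mulVec]]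
      exact stdB_spGL hg _ _
    have hρsa : ∀ a u v, B (ρ a u) v = B u (ρ a v) := fun a u v => by rw [hρ, hρ, hGB, hsa, hGB']
    have hρalt : ∀ a v, B (ρ a v) v = 0 := fun a v => by rw [hρ, hGB, halt]
    set Xm := (x : Matrix (Fin d ⊕ Fin d) (Fin d ⊕ Fin d) F) with hXm
    have hnorm : ∀ a : K, ∃ b : K, Matrix.toLin' Xm * ρ a = ρ b * Matrix.toLin' Xm := fun a => by
      refine ⟨⟨_, (hgx a).1 a.2⟩, ?_⟩
      show Matrix.toLinAlgEquiv' Xm * Matrix.toLinAlgEquiv' _ = Matrix.toLinAlgEquiv' _ * Matrix.toLinAlgEquiv' Xm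
      rw [← map_mul, ← map_mul]
      congr 1
      show Xm * (G * (a : Matrix (Fin d ⊕ Fin d) (Fin d ⊕ Fin d) F) * G') =
        G * (((g⁻¹ * x * g : GL (Fin d ⊕ Fin d) F) : Matrix (Fin d ⊕ Fin d) (Fin d ⊕ Fin d) F) * a *
          (((g⁻¹ * x * g)⁻¹ : GL (Fin d ⊕ Fin d) F) : Matrix (Fin d ⊕ Fin d) (Fin d ⊕ Fin d) F)) * G' * Xm
      simp only [mul_inv_rev, inv_inv, Units.val_mul, ← hG, ← hG', ← hXm, ← mul_assoc, hGG', one_mul]
      simp only [mul_assoc]
      rw [← mul_assoc G G', hGG', one_mul, hXm, Units.inv_mul, mul_one]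
    have hXinj : Function.Injective (Matrix.toLin' Xm) := fun u v h => by
      have := congrArg (fun w => ((x⁻¹ : GL (Fin d ⊕ Fin d) F) : Matrix (Fin d ⊕ Fin d) (Fin d ⊕ Fin d) F) *ᵥ w) h
      simpa [Matrix.toLin'_apply, Matrix.mulVec_mulVec, hXm] using this
    refine hlin ρ hρsa hρalt fun a => (commute_of_normalize ρ hXinj hnorm ?_ a).symm
    rcases hsemi with ⟨hrk, hr1⟩ | h
    · exact Or.inl ⟨r, by rw [hK.finrank_eq]; exact (Nat.coprime_primes hr hk).2 hrk, 1, one_ne_zero,
        fun v => by rw [hr1, one_smul]⟩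
    · exact Or.inr h
  by_cases hrp : r = p
  · subst hrp
    have hrhs : ¬ (r = 2 ∧ d = 2 ∧ k = 2 ∧ Odd (Fintype.card F)) := fun ⟨h2, _, _, hodd⟩ => by
      obtain ⟨e, -, he⟩ := FiniteField.card F r
      rw [he, h2, Nat.odd_pow_iff e.ne_zero] at hodd
      exact (by decide : ¬ Odd 2) hodd
    let v₀ : (Fin d ⊕ Fin d → F) := Pi.single (Sum.inl ⟨0, by omega⟩) 1
    let x := sympT B v₀ 1
    have hxv : ∀ w, (x : Matrix (Fin d ⊕ Fin d) (Fin d ⊕ Fin d) F) *ᵥ w = w + B w v₀ • v₀ := fun w => by
      rw [sympT_mulVec hBA, one_mul]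
    have hker : ∀ w, w ∈ LinearMap.ker (B.flip v₀) ↔ (x : Matrix (Fin d ⊕ Fin d) (Fin d ⊕ Fin d) F) *ᵥ w = w :=
      fun w => by
        rw [LinearMap.mem_ker]
        show B w v₀ = 0 ↔ _
        rw [hxv]
        refine ⟨fun h => by rw [h, zero_smul, add_zero], fun h => ?_⟩
        exact (smul_eq_zero.1 (add_eq_left.1 h)).resolve_right fun h0 => by
          simpa [v₀] using congrFun h0 (Sum.inl ⟨0, by omega⟩)
    have hne : B.flip v₀ ≠ 0 := fun h => stdB_single (F := F) (d := d) ⟨0, by omega⟩
      (LinearMap.congr_fun h (Pi.single (Sum.inr ⟨0, by omega⟩) 1))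
    have hfinW : finrank F (LinearMap.ker (B.flip v₀)) + 1 = 2 * d := by
      rw [← hfinV, Module.Dual.finrank_ker_add_one_of_ne_zero hne]
    refine iff_of_false (key x (mem_spGL fun u v => (mem_isoGroup.1 (sympT_mem hBA v₀ 1)) u v) ⟨1, ?_⟩
      (fun z hz => ?_) (Or.inr ⟨LinearMap.ker (B.flip v₀), 1, fun w hw => by
        rw [one_smul, Matrix.toLin'_apply]; exact (hker w).1 hw, by rw [hfinV]; omega⟩)
      fun ρ hρsa hρalt hρ => ?_) hrhs
    · have hpow : ∀ (j : ℕ) w, ((x : Matrix (Fin d ⊕ Fin d) (Fin d ⊕ Fin d) F) ^ j) *ᵥ w = w + (j : F) • (B w v₀ • v₀) := by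
        intro j
        induction j with
        | zero => intro w; simp
        | succ j ih =>
          intro w
          rw [pow_succ, ← Matrix.mulVec_mulVec, ih, hxv]
          simp [hBA.self_eq_zero, add_smul]
          abel
      rw [one_smul, Units.val_pow_eq_pow_val]
      refine Matrix.toLin'.injective (LinearMap.ext fun w => ?_)
      rw [Matrix.toLin'_apply, hpow, CharP.cast_eq_zero, zero_smul, add_zero, Matrix.toLin'_one]
      rfl
    · by_cases hz1 : z = 1
      · refine hne (LinearMap.ext fun w => ?_)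
        exact (hker w).2 (by rw [hz, hz1, one_smul, Matrix.one_mulVec])
      · have hbot : LinearMap.ker (B.flip v₀) = ⊥ := by
          rw [eq_bot_iff]
          intro w hw
          have h := (hker w).1 hw
          rw [hz, Matrix.smul_mulVec, Matrix.one_mulVec] at h
          by_contra hw0
          exact hz1 (smul_left_injective F hw0 (h.trans (one_smul F w).symm))
        rw [hbot, finrank_bot] at hfinW
        omega
    · have hdvd := finrank_dvd ρ (W := LinearMap.ker (B.flip v₀)) fun a w hw => by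
        rw [hker, ← Matrix.toLin'_apply, ← Module.End.mul_apply, ← (hρ a).eq, Module.End.mul_apply,
          Matrix.toLin'_apply, (hker w).1 hw]
      rw [hK.finrank_eq] at hdvd
      have h1 : k ∣ 2 * d := ⟨2 * d', by rw [hdk]; ring⟩
      have h2 := Nat.dvd_sub h1 hdvd
      rw [← hfinW, Nat.add_sub_cancel_left] at h2
      exact hk.not_dvd_one h2
  have hrF : (r : F) ≠ 0 := fun h =>
    hrp ((Nat.prime_dvd_prime_iff_eq Fact.out hr).1 ((CharP.cast_eq_zero_iff F p r).1 h)).symm
  by_cases hr2 : r = 2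
  · subst hr2
    have h2 : (2 : F) ≠ 0 := by exact_mod_cast hrF
    have hodd : Odd (Fintype.card F) := by
      obtain ⟨e, -, he⟩ := FiniteField.card F p
      rw [he]
      exact ((Fact.out : p.Prime).odd_of_ne_two (fun h => hrp h.symm)).pow
    by_cases hd2 : d = 2
    · subst hd2
      have hk2 : k = 2 := le_antisymm hkd hk.two_le
      refine iff_of_true (fun x hx hxr hxs => ?_) ⟨rfl, rfl, hk2, hodd⟩
      subst hk2
      obtain rfl : d' = 1 := by omega
      obtain ⟨z, hz⟩ := hxr
      set X := Matrix.toLin' (x : Matrix (Fin 2 ⊕ Fin 2) (Fin 2 ⊕ Fin 2) F) with hXdef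
      have hXiso : ∀ u v, B (X u) (X v) = B u v := fun u v => stdB_spGL hx u v
      have hXX : ∀ v, X (X v) = z • v := fun v => by
        show (x : Matrix (Fin 2 ⊕ Fin 2) (Fin 2 ⊕ Fin 2) F) *ᵥ ((x : Matrix (Fin 2 ⊕ Fin 2) (Fin 2 ⊕ Fin 2) F) *ᵥ v) = _
        rw [Matrix.mulVec_mulVec, ← pow_two, ← Units.val_pow_eq_pow_val, hz, Matrix.smul_mulVec,
          Matrix.one_mulVec]
      have hz0 : z ≠ 0 := fun h => by
        rw [h, zero_smul] at hz
        exact (x ^ 2).ne_zero hz
      obtain ⟨ε, hε⟩ := FiniteField.exists_nonsquare (F := F) fun h => by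
        haveI := ringChar.of_eq h
        exact h2 CharTwo.two_eq_zero
      have hε0 : ε ≠ 0 := fun h => hε (h ▸ IsSquare.zero)
      obtain ⟨α, hα⟩ : ∃ α : K, α ^ 2 = algebraMap F K ε := by
        haveI := Fintype.ofFinite K
        have hsq : IsSquare (algebraMap F K ε) := by
          refine (FiniteField.isSquare_iff (fun h => ?_) ((map_ne_zero _).2 hε0)).2 ?_
          · haveI := ringChar.of_eq h
            exact h2 ((map_eq_zero (algebraMap F K)).1 (by rw [map_ofNat]; exact CharTwo.two_eq_zero))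
          · obtain ⟨m, hm⟩ := hodd
            have h1 : ε ^ (2 * m) = 1 := by
              have := FiniteField.pow_card_sub_one_eq_one ε hε0
              rwa [hm, Nat.add_sub_cancel] at this
            rw [Module.card_eq_pow_finrank (K := F) (V := K), hK.finrank_eq, hm, ← map_pow,
              show (2 * m + 1) ^ 2 / 2 = 2 * m * (m + 1) by
                rw [show (2 * m + 1) ^ 2 = 2 * (2 * m * (m + 1)) + 1 by ring]; omega,
              pow_mul, h1, one_pow, map_one]
        obtain ⟨β, hβ⟩ := hsq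
        exact ⟨β, by rw [pow_two, ← hβ]⟩
      obtain ⟨e, hgram, hXe⟩ := exists_frame h2 hfinV hBA hBS hXiso hz0 hXX
        (fun c => by
          by_contra h
          push Not at h
          exact hxs c (Matrix.toLin'.injective (LinearMap.ext fun v => by
            rw [← hXdef, h, map_smul, Matrix.toLin'_one]; rfl))) hε0
      have hli : LinearIndependent F e := by
        rw [Fintype.linearIndependent_iff]
        intro c hc
        have h := fun j => congrArg (fun w => B w (e j)) hc
        simp only [map_sum, map_smul, LinearMap.sum_apply, LinearMap.smul_apply, smul_eq_mul, hgram,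
          Fin.sum_univ_four, map_zero, LinearMap.zero_apply] at h
        have e0 := h 0; have e1 := h 1; have e2 := h 2; have e3 := h 3
        simp [hgram, hε0] at e0 e1 e2 e3
        intro i
        fin_cases i <;> first | exact e0 | exact e1 | exact e2 | exact e3
      let b := basisOfLinearIndependentOfCardEqFinrank hli (by rw [Fintype.card_fin, hfinV])
      have hb : ∀ i, b i = e i := fun i => by simp [b]
      let T : Module.End F (Fin 2 ⊕ Fin 2 → F) := b.constr F ![e 2, e 3, ε • e 0, ε • e 1]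
      have hTe : ∀ i, T (e i) = ![e 2, e 3, ε • e 0, ε • e 1] i := fun i => by
        rw [← hb i]; exact b.constr_basis F _ i
      have hTsa : ∀ u v, B (T u) v = B u (T v) := by
        have h : B.compLeft T = B.compRight T := LinearMap.BilinForm.ext_basis b fun i j => by
          rw [LinearMap.BilinForm.compLeft_apply, LinearMap.BilinForm.compRight_apply, hb, hb, hTe, hTe]
          fin_cases i <;> fin_cases j <;> simp [hgram, mul_comm]
        exact fun u v => LinearMap.congr_fun₂ h u v
      have hTT : T * T = algebraMap F (Module.End F (Fin 2 ⊕ Fin 2 → F)) ε := b.ext fun i => by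
        rw [Module.End.mul_apply, Module.algebraMap_end_apply, hb, hTe]
        fin_cases i <;> simp [hTe]
      have hXT : ∃ s : F, X * T = s • (T * X) := by
        rcases hXe with h | h
        · refine ⟨-1, b.ext fun i => ?_⟩
          rw [LinearMap.smul_apply, Module.End.mul_apply, Module.End.mul_apply, hb, hTe, h i]
          fin_cases i <;> simp [h, hTe] <;> exact (neg_neg _).symm
        · refine ⟨1, b.ext fun i => ?_⟩
          rw [LinearMap.smul_apply, Module.End.mul_apply, Module.End.mul_apply, hb, hTe, h i]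
          fin_cases i <;> simp [h, hTe]
      let g : Polynomial F := Polynomial.X ^ 2 - Polynomial.C ε
      have hgm : g.Monic := Polynomial.monic_X_pow_sub_C ε two_ne_zero
      haveI : Fact (Irreducible g) :=
        ⟨X_pow_sub_C_irreducible_of_prime Nat.prime_two fun y hy => hε ⟨y, by rw [← hy, pow_two]⟩⟩
      let pb := AdjoinRoot.powerBasis' hgm
      haveI : FiniteDimensional F (AdjoinRoot g) := pb.finite
      have hEg : finrank F (AdjoinRoot g) = 2 := by
        rw [pb.finrank, AdjoinRoot.powerBasis'_dim, Polynomial.natDegree_X_pow_sub_C]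
      let ψ : AdjoinRoot g →ₐ[F] K := AdjoinRoot.liftAlgHom g (Algebra.ofId F K) α (by
        show Polynomial.aeval α g = 0
        simp [g, hα])
      let ψe : AdjoinRoot g ≃ₐ[F] K := AlgEquiv.ofBijective ψ
        ⟨ψ.toRingHom.injective, (LinearMap.injective_iff_surjective_of_finrank_eq_finrank
          (hEg.trans hK.finrank_eq.symm)).1 (show Function.Injective ψ.toLinearMap from ψ.toRingHom.injective)⟩
      obtain ⟨φ, hφ⟩ := exists_field_action (g := g) (x := T) (by simp [g, pow_two, hTT])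
      let ρ : K →ₐ[F] Module.End F (Fin 2 ⊕ Fin 2 → F) := φ.comp ψe.symm.toAlgHom
      have hρα : ρ α = T := by
        have h : ψe (AdjoinRoot.root g) = α := by
          show ψ (AdjoinRoot.root g) = α
          exact AdjoinRoot.liftAlgHom_root ..
        show φ (ψe.symm α) = T
        rw [← h, AlgEquiv.symm_apply_apply]
        exact hφ
      have hgen : ∀ a : K, ∃ h : Polynomial F, a = Polynomial.aeval α h := fun a => by
        obtain ⟨w, rfl⟩ := ψe.surjective a
        induction w using AdjoinRoot.induction_on with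
        | ih h =>
          refine ⟨h, ?_⟩
          show ψ (AdjoinRoot.mk g h) = _
          exact AdjoinRoot.liftAlgHom_mk ..
      have hρsa : ∀ a u v, B (ρ a u) v = B u (ρ a v) := by
        intro a
        obtain ⟨h, rfl⟩ := hgen a
        rw [← Polynomial.aeval_algHom_apply, hρα]
        have hpow : ∀ (j : ℕ) u v, B ((T ^ j) u) v = B u ((T ^ j) v) := by
          intro j
          induction j with
          | zero => intro u v; rfl
          | succ j ih =>
            intro u v
            conv_lhs => rw [pow_succ, Module.End.mul_apply, ih, hTsa, ← Module.End.mul_apply, ← pow_succ']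
        induction h using Polynomial.induction_on' with
        | add p q hp hq => intro u v; simp only [map_add, LinearMap.add_apply, hp, hq]
        | monomial j c =>
          intro u v
          simp only [Polynomial.aeval_monomial, Module.End.mul_apply, Module.algebraMap_end_apply, map_smul,
            LinearMap.smul_apply, hpow]
      have hρalt : ∀ a v, B (ρ a v) v = 0 := fun a v => by
        have h := hρsa a v v
        rw [← hBA.neg_eq (ρ a v) v] at h
        have : (2 : F) * B (ρ a v) v = 0 := by linear_combination h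
        exact (mul_eq_zero.1 this).resolve_left h2
      obtain ⟨d'', e₂, he₂, heB₂⟩ := exists_std hBA hBS ρ hρsa hρalt
      obtain rfl : d'' = 1 := by
        have h := e₂.finrank_eq
        rw [hfinV, Module.finrank_pi_fintype F, Finset.sum_const, Finset.card_univ, Fintype.card_sum,
          Fintype.card_fin, hK.finrank_eq, smul_eq_mul] at h
        omega
      let L : (Fin 2 ⊕ Fin 2 → F) ≃ₗ[F] (Fin 2 ⊕ Fin 2 → F) := e₂.symm.trans e₁
      have hLiso : ∀ u v, B (L u) (L v) = B u v := fun u v => by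
        obtain ⟨u, rfl⟩ := e₂.surjective u
        obtain ⟨v, rfl⟩ := e₂.surjective v
        simp [L, heB, heB₂]
      have hLρ : ∀ a v, L (ρ a v) = ρ₀ a (L v) := fun a v => by
        obtain ⟨v, rfl⟩ := e₂.surjective v
        simp [L, he₁, he₂]
      let G : GL (Fin 2 ⊕ Fin 2) F := ⟨LinearMap.toMatrix' L.toLinearMap, LinearMap.toMatrix' L.symm.toLinearMap,
        by rw [← LinearMap.toMatrix'_comp]; simp, by rw [← LinearMap.toMatrix'_comp]; simp⟩
      have hGv : ∀ v, (G : Matrix (Fin 2 ⊕ Fin 2) (Fin 2 ⊕ Fin 2) F) *ᵥ v = L v :=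
        fun v => LinearMap.toMatrix'_mulVec _ v
      have hGv' : ∀ v, ((G⁻¹ : GL (Fin 2 ⊕ Fin 2) F) : Matrix (Fin 2 ⊕ Fin 2) (Fin 2 ⊕ Fin 2) F) *ᵥ v = L.symm v :=
        fun v => LinearMap.toMatrix'_mulVec _ v
      have hG : G ∈ Cfsg.spGL 2 F := mem_spGL fun u v => by rw [hGv, hGv]; exact hLiso u v
      refine ⟨G⁻¹, inv_mem hG, mem_normalizer fun m hm => ?_⟩
      obtain ⟨h, hh⟩ := hgen ⟨m, hm⟩
      obtain ⟨s, hs⟩ := hXT
      set Y := (G⁻¹)⁻¹ * x * G⁻¹ with hY
      set α' : Matrix (Fin 2 ⊕ Fin 2) (Fin 2 ⊕ Fin 2) F := (α : Matrix (Fin 2 ⊕ Fin 2) (Fin 2 ⊕ Fin 2) F) with hα'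
      have hYa : (Y : Matrix (Fin 2 ⊕ Fin 2) (Fin 2 ⊕ Fin 2) F) * α' = s • α' * (Y : Matrix (Fin 2 ⊕ Fin 2) (Fin 2 ⊕ Fin 2) F) := by
        have hYv : ∀ w, (Y : Matrix (Fin 2 ⊕ Fin 2) (Fin 2 ⊕ Fin 2) F) *ᵥ w = L (X (L.symm w)) := fun w => by
          rw [hY, inv_inv, Units.val_mul, Units.val_mul, ← Matrix.mulVec_mulVec, ← Matrix.mulVec_mulVec, hGv', hGv]
          rfl
        refine Matrix.toLin'.injective (LinearMap.ext fun v => ?_)
        rw [Matrix.toLin'_apply, Matrix.toLin'_apply, smul_mul_assoc, Matrix.smul_mulVec,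
          ← Matrix.mulVec_mulVec, ← Matrix.mulVec_mulVec, hYv, hYv, hα', ← hρ₀, ← hρ₀]
        obtain ⟨w, rfl⟩ := L.surjective v
        rw [← hLρ, L.symm_apply_apply, L.symm_apply_apply, hρα, ← hLρ, hρα, ← map_smul]
        exact congrArg L (LinearMap.congr_fun hs w)
      let c : Matrix (Fin 2 ⊕ Fin 2) (Fin 2 ⊕ Fin 2) F →ₐ[F] Matrix (Fin 2 ⊕ Fin 2) (Fin 2 ⊕ Fin 2) F :=
        { toFun := fun z => (Y : Matrix (Fin 2 ⊕ Fin 2) (Fin 2 ⊕ Fin 2) F) * z * ((Y⁻¹ : GL (Fin 2 ⊕ Fin 2) F) : Matrix (Fin 2 ⊕ Fin 2) (Fin 2 ⊕ Fin 2) F)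
          map_one' := by rw [mul_one, Units.mul_inv]
          map_mul' := fun a b => by simp [mul_assoc]
          map_zero' := by simp
          map_add' := fun a b => by simp [mul_add, add_mul]
          commutes' := fun t => by
            rw [Algebra.algebraMap_eq_smul_one, mul_smul_comm, smul_mul_assoc, mul_one, Units.mul_inv] }
      have hca : c α' = ((s • α : K) : Matrix (Fin 2 ⊕ Fin 2) (Fin 2 ⊕ Fin 2) F) := by
        show (Y : Matrix (Fin 2 ⊕ Fin 2) (Fin 2 ⊕ Fin 2) F) * α' * _ = _
        rw [hYa, mul_assoc, Units.mul_inv, mul_one, Subalgebra.coe_smul]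
      show c m ∈ K
      have hm' : m = Polynomial.aeval α' h := by
        have := congrArg K.val hh
        rw [← Polynomial.aeval_algHom_apply] at this
        exact this
      rw [hm', ← Polynomial.aeval_algHom_apply, hca,
        show ((s • α : K) : Matrix (Fin 2 ⊕ Fin 2) (Fin 2 ⊕ Fin 2) F) = K.val (s • α) from rfl, Polynomial.aeval_algHom_apply]
      exact (Polynomial.aeval (s • α) h).2
    · let i₀ : Fin d := ⟨0, by omega⟩
      let dd : Fin d ⊕ Fin d → F := fun i => if i = Sum.inl i₀ ∨ i = Sum.inr i₀ then -1 else 1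
      have hdd : ∀ i, dd i * dd i = 1 := fun i => by simp only [dd]; split_ifs <;> ring
      let M : Matrix (Fin d ⊕ Fin d) (Fin d ⊕ Fin d) F := Matrix.diagonal dd
      have hMM : M * M = 1 := by
        rw [Matrix.diagonal_mul_diagonal, ← Matrix.diagonal_one]
        exact congrArg _ (funext hdd)
      let x : GL (Fin d ⊕ Fin d) F := ⟨M, M, hMM, hMM⟩
      have hMv : ∀ v i, (M *ᵥ v) i = dd i * v i := fun v i => Matrix.mulVec_diagonal _ _ _
      have hx : x ∈ Cfsg.spGL d F := by
        intro u v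
        show Cfsg.sympForm d F (M *ᵥ u) (M *ᵥ v) = Cfsg.sympForm d F u v
        simp only [Cfsg.sympForm, dotProduct, Fintype.sum_sum_type]
        congr 1 <;> refine Finset.sum_congr rfl fun i _ => ?_ <;>
          simp [Matrix.J, Matrix.fromBlocks_mulVec, Matrix.neg_mulVec, ← Matrix.mulVec_mulVec, hMv, dd,
            -Matrix.mulVec_mulVec] <;>
          split_ifs <;> ring
      let W := LinearMap.ker (Matrix.toLin' M + (1 : F) • LinearMap.id)
      have hW : ∀ v, v ∈ W ↔ ∀ i, i ≠ Sum.inl i₀ → i ≠ Sum.inr i₀ → v i = 0 := fun v => by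
        rw [LinearMap.mem_ker, LinearMap.add_apply, Matrix.toLin'_apply, LinearMap.smul_apply,
          LinearMap.id_apply, one_smul, funext_iff]
        refine forall_congr' fun i => ?_
        rw [Pi.add_apply, hMv, Pi.zero_apply]
        by_cases h : i = Sum.inl i₀ ∨ i = Sum.inr i₀
        · simp [dd, h]
          rcases h with h | h <;> simp [h]
        · push Not at h
          simp [dd, h, ← two_mul, h2]
      have hWd : finrank F W = 2 := by
        let j : F × F →ₗ[F] (Fin d ⊕ Fin d → F) := (LinearMap.single F (fun _ : Fin d ⊕ Fin d => F) (Sum.inl i₀)).coprod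
          (LinearMap.single F (fun _ : Fin d ⊕ Fin d => F) (Sum.inr i₀))
        have hj : Function.Injective j := fun a b h => Prod.ext
          (by simpa [j] using congrFun h (Sum.inl i₀)) (by simpa [j] using congrFun h (Sum.inr i₀))
        have : W = LinearMap.range j := by
          ext v
          rw [hW]
          refine ⟨fun h => ⟨(v (Sum.inl i₀), v (Sum.inr i₀)), funext fun i => ?_⟩, ?_⟩
          · rcases eq_or_ne i (Sum.inl i₀) with rfl | h1
            · simp [j]
            rcases eq_or_ne i (Sum.inr i₀) with rfl | h2'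
            · simp [j]
            simp [j, h1, h2', h i h1 h2']
          · rintro ⟨⟨a, b⟩, rfl⟩ i h1 h2'
            simp [j, h1, h2']
        rw [this, LinearMap.finrank_range_of_inj hj, Module.finrank_prod, Module.finrank_self]
      let Wp := LinearMap.ker (Matrix.toLin' M - (1 : F) • LinearMap.id)
      have hsum : finrank F Wp + finrank F W = 2 * d := by
        rw [← hfinV]
        refine Submodule.finrank_add_eq_of_isCompl (isCompl_eigen h2 one_ne_zero fun v => ?_)
        rw [Matrix.toLin'_apply, Matrix.toLin'_apply, Matrix.mulVec_mulVec, hMM, Matrix.one_mulVec, one_mul, one_smul]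
      refine iff_of_false (key x hx ⟨1, by rw [Units.val_pow_eq_pow_val, pow_two, one_smul]; exact hMM⟩
        (fun z hz => ?_) (Or.inr ⟨Wp, 1, fun v hv => eig_pos hv, by omega⟩) fun ρ hρsa hρalt hρ => ?_)
        fun h => hd2 h.2.1
      · have e0 := congrFun (congrFun hz (Sum.inl i₀)) (Sum.inl i₀)
        have e1 := congrFun (congrFun hz (Sum.inl ⟨1, by omega⟩)) (Sum.inl ⟨1, by omega⟩)
        simp [x, M, dd, i₀, Fin.ext_iff] at e0 e1
        exact h2 (by linear_combination e1 - e0)
      · have hinv : ∀ a, ∀ v ∈ W, ρ a v ∈ W := fun a v hv => by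
          rw [LinearMap.mem_ker, LinearMap.add_apply, LinearMap.smul_apply, LinearMap.id_apply, one_smul] at hv ⊢
          have := LinearMap.congr_fun (hρ a).eq v
          rw [Module.End.mul_apply, Module.End.mul_apply] at this
          show Matrix.toLin' (x : Matrix (Fin d ⊕ Fin d) (Fin d ⊕ Fin d) F) (ρ a v) + ρ a v = 0
          rw [← this, ← map_add]
          exact (congrArg (ρ a) hv).trans (map_zero _)
        have hdvd := finrank_dvd ρ hinv
        rw [hK.finrank_eq, hWd] at hdvd
        have hk2 : k = 2 := (Nat.prime_dvd_prime_iff_eq hk Nat.prime_two).1 hdvd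
        obtain ⟨w, hw, hw0⟩ := Submodule.exists_mem_ne_zero_of_ne_bot (p := W) fun h => by
          rw [h, finrank_bot] at hWd; omega
        let L : K →ₗ[F] W :=
          { toFun := fun a => ⟨ρ a w, hinv a w hw⟩
            map_add' := fun a b => Subtype.ext (by simp)
            map_smul' := fun c a => Subtype.ext (by simp) }
        have hL : Function.Injective L := (injective_iff_map_eq_zero _).2 fun a ha =>
          eq_zero_of_apply (congrArg Subtype.val ha) hw0
        have hLs := (LinearMap.injective_iff_surjective_of_finrank_eq_finrank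
          (by rw [hK.finrank_eq, hWd, hk2])).1 hL
        obtain ⟨a, ha⟩ := hLs ⟨Pi.single (Sum.inr i₀) 1, (hW _).2 fun i _ h => Pi.single_eq_of_ne h _⟩
        obtain ⟨b, hb⟩ := hLs ⟨Pi.single (Sum.inl i₀) 1, (hW _).2 fun i h _ => Pi.single_eq_of_ne h _⟩
        refine stdB_single (F := F) i₀ ?_
        have ha' : ρ a w = Pi.single (Sum.inr i₀) 1 := congrArg Subtype.val ha
        have hb' : ρ b w = Pi.single (Sum.inl i₀) 1 := congrArg Subtype.val hb
        rw [← ha', ← hb', ← hρsa, ← Module.End.mul_apply, ← map_mul]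
        exact hρalt _ _
  -- odd order prime to `p`
  refine iff_of_false ?_ fun h => hr2 h.1
  have hrq : ¬ r ∣ Fintype.card F := fun h => by
    obtain ⟨e, -, he⟩ := FiniteField.card F p
    rw [he] at h
    exact hrp ((Nat.prime_dvd_prime_iff_eq hr Fact.out).1 (hr.dvd_of_dvd_pow h))
  obtain ⟨j₀, hj₀, hj₀k, hdiv⟩ : ∃ j, j < d ∧ ¬ k ∣ j + 1 ∧ r ∣ Fintype.card F ^ (2 * (j + 1)) - 1 := by
    haveI := Fintype.ofFinite K
    let ψ : Matrix.symplecticGroup (Fin d') K →* GL (Fin d ⊕ Fin d) F :=
      MonoidHom.toHomUnits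
        { toFun := fun M => LinearMap.toMatrix'
            (e₁.conj ((Matrix.toLin' (M : Matrix (Fin d' ⊕ Fin d') (Fin d' ⊕ Fin d') K)).restrictScalars F))
          map_one' := Matrix.toLin'.injective (LinearMap.ext fun v => by
            rw [Matrix.toLin'_toMatrix', Matrix.toLin'_one]
            simp [LinearEquiv.conj_apply])
          map_mul' := fun M N => Matrix.toLin'.injective (by
            rw [Matrix.toLin'_mul, Matrix.toLin'_toMatrix', Matrix.toLin'_toMatrix', Matrix.toLin'_toMatrix']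
            refine LinearMap.ext fun v => ?_
            simp [LinearEquiv.conj_apply, Matrix.toLin'_mul, -Matrix.toLin'_apply]) }
    have hψv : ∀ M v, (ψ M : Matrix (Fin d ⊕ Fin d) (Fin d ⊕ Fin d) F) *ᵥ v =
        e₁ ((M : Matrix (Fin d' ⊕ Fin d') (Fin d' ⊕ Fin d') K) *ᵥ e₁.symm v) := fun M v =>
      LinearMap.toMatrix'_mulVec _ v
    have hψ : Function.Injective ψ := fun M N h => Subtype.ext (Matrix.toLin'.injective (LinearMap.ext fun w => by
      have := congrArg (fun A : GL (Fin d ⊕ Fin d) F => (A : Matrix (Fin d ⊕ Fin d) (Fin d ⊕ Fin d) F) *ᵥ e₁ w) h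
      simp only [hψv, e₁.symm_apply_apply] at this
      exact e₁.injective this))
    have hmem : ∀ M, ψ M ∈ Cfsg.spGL d F ∧ ψ M ∈ Cfsg.Geo.subalgebraNormalizer K := fun M => by
      refine ⟨mem_spGL fun u v => ?_, mem_normalizer fun m hm => ?_⟩
      · rw [hψv, hψv, ← hBdef, heB, (stdB_iff_matrix d' _).2 M.2, ← heB, e₁.apply_symm_apply, e₁.apply_symm_apply]
      · have hc : (ψ M : Matrix (Fin d ⊕ Fin d) (Fin d ⊕ Fin d) F) * m =
            m * (ψ M : Matrix (Fin d ⊕ Fin d) (Fin d ⊕ Fin d) F) :=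
          Matrix.toLin'.injective (LinearMap.ext fun v => by
            rw [Matrix.toLin'_apply, Matrix.toLin'_apply, ← Matrix.mulVec_mulVec, ← Matrix.mulVec_mulVec]
            show (ψ M : Matrix (Fin d ⊕ Fin d) (Fin d ⊕ Fin d) F) *ᵥ (ρ₀ ⟨m, hm⟩ v) = ρ₀ ⟨m, hm⟩ _
            rw [hψv, hψv, he₁]
            conv_lhs => rw [← e₁.apply_symm_apply v, he₁, e₁.symm_apply_apply, Matrix.mulVec_smul])
        rw [hc, mul_assoc, Units.mul_inv, mul_one]
        exact hm
    let ψ' := ψ.codRestrict (Cfsg.spGL d F) fun M => (hmem M).1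
    have hψ' : Function.Injective ψ' := fun M N h => hψ (congrArg Subtype.val h)
    have hle : ψ'.range ≤ (Cfsg.Geo.subalgebraNormalizer K).subgroupOf (Cfsg.spGL d F) := by
      rintro _ ⟨M, rfl⟩
      exact (hmem M).2
    have hdvd : r * Nat.card (Matrix.symplecticGroup (Fin d') K) ∣ Nat.card (Cfsg.spGL d F) := by
      rw [Nat.card_congr (MonoidHom.ofInjective hψ').toEquiv,
        ← Subgroup.card_mul_index ((Cfsg.Geo.subalgebraNormalizer K).subgroupOf (Cfsg.spGL d F)), mul_comm]
      exact mul_dvd_mul (Subgroup.card_dvd_of_le hle) hΩ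
    rw [card_spGL, Cfsg.Agent.Lib.Classical.card_symplecticGroup, Module.card_eq_pow_finrank (K := F) (V := K),
      hK.finrank_eq, hdk, prod_split (fun j => Fintype.card F ^ (2 * j) - 1) hk.pos, ← mul_assoc, ← mul_assoc,
      Finset.prod_congr rfl (g := fun i => Fintype.card F ^ (2 * (k * (i + 1))) - 1)
        (fun i _ => by rw [← pow_mul, mul_left_comm])] at hdvd
    have hpos : 0 < ∏ i ∈ Finset.range d', (Fintype.card F ^ (2 * (k * (i + 1))) - 1) := Finset.prod_pos fun i _ => by
      have := Nat.one_lt_pow (show 2 * (k * (i + 1)) ≠ 0 by simp [hk.ne_zero]) (Fintype.one_lt_card (α := F))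
      omega
    have h := dvd_trans (dvd_mul_right r _) (Nat.dvd_of_mul_dvd_mul_right hpos hdvd)
    have hrp' : Prime r := Nat.prime_iff.1 hr
    rcases hrp'.dvd_mul.1 h with h1 | h1
    · exact absurd (hrp'.dvd_of_dvd_pow h1) hrq
    · obtain ⟨j, hj, h2'⟩ := (Prime.dvd_finsetProd_iff hrp' _).1 h1
      rw [Finset.mem_filter, Finset.mem_range, ← hdk] at hj
      exact ⟨j, hj.1, hj.2, h2'⟩
  set i := orderOf (Fintype.card F : ZMod r) with hi
  have hord : i ∣ 2 * (j₀ + 1) := by
    apply orderOf_dvd_of_pow_eq_one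
    rw [← ZMod.natCast_eq_zero_iff, Nat.cast_sub (Nat.one_le_pow _ _ Fintype.card_pos), sub_eq_zero,
      Nat.cast_pow, Nat.cast_one] at hdiv
    exact hdiv
  have hq0 : (Fintype.card F : ZMod r) ≠ 0 := fun h => hrq ((ZMod.natCast_eq_zero_iff _ r).1 h)
  have hir : i ∣ r - 1 := orderOf_dvd_of_pow_eq_one (ZMod.pow_card_sub_one_eq_one hq0)
  have hr3 : 3 ≤ r := by have := hr.two_le; omega
  have hrodd : r % 2 = 1 := hr.eq_two_or_odd.resolve_left hr2
  have hmk : ∀ {A : Matrix.symplecticGroup (Fin d) F}, Matrix.toLin' (A : Matrix (Fin d ⊕ Fin d) (Fin d ⊕ Fin d) F) ^ r = 1 →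
      ∃ z : F, ((spToGL d F A ^ r : GL (Fin d ⊕ Fin d) F) : Matrix (Fin d ⊕ Fin d) (Fin d ⊕ Fin d) F) = z • (1 : Matrix (Fin d ⊕ Fin d) (Fin d ⊕ Fin d) F) := by
    intro A hA
    refine ⟨1, Matrix.toLin'.injective ?_⟩
    rw [Units.val_pow_eq_pow_val, spToGL_val, Matrix.toLin'_pow, hA, one_smul, Matrix.toLin'_one]
    rfl
  have hscal : ∀ {A : Matrix.symplecticGroup (Fin d) F} {z : F},
      Matrix.toLin' (A : Matrix (Fin d ⊕ Fin d) (Fin d ⊕ Fin d) F) ^ r = 1 →
      (A : Matrix (Fin d ⊕ Fin d) (Fin d ⊕ Fin d) F) = z • (1 : Matrix (Fin d ⊕ Fin d) (Fin d ⊕ Fin d) F) →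
      Matrix.toLin' (A : Matrix (Fin d ⊕ Fin d) (Fin d ⊕ Fin d) F) = 1 := by
    intro A z hA hz
    let u : (Fin d ⊕ Fin d → F) := Pi.single (Sum.inr ⟨0, by omega⟩) 1
    let w : (Fin d ⊕ Fin d → F) := Pi.single (Sum.inl ⟨0, by omega⟩) 1
    have hiso := (stdB_iff_matrix d _).2 A.2 u w
    rw [hz, Matrix.smul_mulVec, Matrix.smul_mulVec, Matrix.one_mulVec, Matrix.one_mulVec, map_smul,
      map_smul, LinearMap.smul_apply, smul_eq_mul, smul_eq_mul, ← mul_assoc] at hiso
    have hz2 : z ^ 2 = 1 := by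
      rw [pow_two]; exact mul_right_cancel₀ (stdB_single (F := F) _) (hiso.trans (one_mul _).symm)
    have hzr : z ^ r = 1 := by
      have := congrFun (LinearMap.congr_fun hA u) (Sum.inr ⟨0, by omega⟩)
      rw [hz, map_smul, Matrix.toLin'_one, _root_.smul_pow,
        show (LinearMap.id : Module.End F (Fin d ⊕ Fin d → F)) = 1 from rfl, one_pow] at this
      simpa [u] using this
    have := pow_gcd_eq_one.2 ⟨hz2, hzr⟩
    rw [((Nat.coprime_primes Nat.prime_two hr).2 (Ne.symm hr2)).gcd_eq_one, pow_one] at this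
    rw [hz, this, one_smul, Matrix.toLin'_one]; rfl
  rcases Nat.even_or_odd i with hev | hodd
  · obtain ⟨b, hb⟩ := hev.two_dvd
    have hb0 : 0 < b := Nat.pos_of_ne_zero fun h => by
      rw [h, mul_zero] at hb
      exact (orderOf_pos (Units.mk0 _ hq0)).ne' (by rw [← orderOf_units]; exact hb)
    have hbd : b ∣ j₀ + 1 := Nat.dvd_of_mul_dvd_mul_left (by norm_num) (hb ▸ hord)
    have hkb : ¬ k ∣ b := fun h => hj₀k (h.trans hbd)
    have hb1 : b ≤ d := (Nat.le_of_dvd (by omega) hbd).trans (by omega)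
    obtain ⟨A, hAr', hAk⟩ := exists_symp_elt (F := F) hrp hr2 (hi.symm.trans hb) (d := d) (t := 1)
      (s := d - b) (by omega)
    have hAr : Matrix.toLin' (A : Matrix (Fin d ⊕ Fin d) (Fin d ⊕ Fin d) F) ^ r = 1 := LinearMap.ext hAr'
    set X := Matrix.toLin' (A : Matrix (Fin d ⊕ Fin d) (Fin d ⊕ Fin d) F) with hX
    set R := LinearMap.range (X - (1 : F) • LinearMap.id) with hR
    have hRd : finrank F R = 2 * b := by
      have h := LinearMap.finrank_range_add_finrank_ker (X - (1 : F) • LinearMap.id)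
      rw [hfinV, hAk] at h
      rw [hR]
      omega
    refine key (spToGL d F A) (mem_spGL (g := spToGL d F A) fun u v => (stdB_iff_matrix d _).2 A.2 u v) (hmk hAr) (fun z hz => ?_) ?_
      fun ρ hρsa hρalt hρ => ?_
    · rw [hX, hscal hAr hz, one_smul, show (LinearMap.id : Module.End F (Fin d ⊕ Fin d → F)) = 1 from rfl, sub_self,
        LinearMap.ker_zero, finrank_top, hfinV] at hAk
      omega
    · by_cases hrk : r = k
      · refine Or.inr ⟨_, 1, fun v hv => eig_pos hv, ?_⟩
        rw [spToGL_val, ← hX, hAk, hfinV]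
        have := Nat.le_of_dvd (by omega) (hb ▸ hir)
        omega
      · exact Or.inl ⟨hrk, fun v => hAr' v⟩
    · replace hρ : ∀ a, Commute (ρ a) X := hρ
      have hRinv : ∀ a, ∀ v ∈ R, ρ a v ∈ R := by
        rintro a _ ⟨w, rfl⟩
        refine ⟨ρ a w, ?_⟩
        have := LinearMap.congr_fun (hρ a).eq w
        simp only [Module.End.mul_apply] at this
        simp [this]
      have hdvd := finrank_dvd ρ hRinv
      rw [hK.finrank_eq, hRd] at hdvd
      have hk2 : k = 2 := ((Nat.prime_dvd_prime_iff_eq hk Nat.prime_two).1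
        ((hk.dvd_mul.1 hdvd).resolve_right hkb))
      obtain ⟨R', hstep⟩ := step_pow (r := r) (x := X) hrp (one_ne_zero : (1 : F) ≠ 0)
        (fun v => by rw [hAr' v, one_pow, one_smul])
      rw [Nat.card_eq_fintype_card, ← hi, hb] at hstep
      have hXR : Inv X R := by
        rintro _ ⟨w, rfl⟩
        exact ⟨X w, by simp⟩
      have hRC : R ⊓ LinearMap.ker (X - (1 : F) • LinearMap.id) = ⊥ := by
        rw [eq_bot_iff]
        rintro v ⟨⟨w, rfl⟩, hw⟩
        obtain ⟨c, hc, r', hr', rfl⟩ := Submodule.mem_sup.1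
          (hstep.isCompl.sup_eq_top ▸ Submodule.mem_top (x := w))
        rw [LinearMap.mem_ker] at hc
        rw [map_add, hc, zero_add] at hw ⊢
        exact hstep.isCompl.inf_eq_bot ▸ ⟨hw, by
          rw [LinearMap.sub_apply, LinearMap.smul_apply, LinearMap.id_apply, one_smul]
          exact R'.sub_mem (hstep.invR r' hr') hr'⟩
      -- orthogonality of the fixed space and `R`
      have hiso : ∀ u v, B (X u) (X v) = B u v := (stdB_iff_matrix d _).2 A.2
      have horth : ∀ u ∈ LinearMap.ker (X - (1 : F) • LinearMap.id), ∀ v ∈ R, B u v = 0 := by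
        rintro u hu _ ⟨w, rfl⟩
        have hu' : X u = u := (eig_pos hu).trans (one_smul _ _)
        rw [LinearMap.sub_apply, map_sub, LinearMap.smul_apply, LinearMap.id_apply, one_smul]
        conv_lhs => rw [← hu', hiso, hu', sub_self]
      have hqb : (Fintype.card F : ZMod r) ^ b = -1 := by
        refine (sq_eq_one_iff.1 ?_).resolve_left ?_
        · rw [← pow_mul, mul_comm, ← hb, hi, pow_orderOf_eq_one]
        · intro h
          have := Nat.le_of_dvd hb0 (orderOf_dvd_of_pow_eq_one h)
          omega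
      have hXinv : ∀ v, X ((X ^ (Fintype.card F ^ b)) v) = v := fun v => by
        obtain ⟨c, hc⟩ : r ∣ Fintype.card F ^ b + 1 := by
          rw [← ZMod.natCast_eq_zero_iff]; push_cast; rw [hqb, neg_add_cancel]
        rw [← Module.End.mul_apply, ← pow_succ', hc, pow_mul, hAr, one_pow, Module.End.one_apply]
      have hadj : ∀ (j : ℕ) u v, B ((X ^ j) u) v = B u (((X ^ (Fintype.card F ^ b)) ^ j) v) := by
        intro j
        induction j with
        | zero => intro u v; rfl
        | succ j ih =>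
          intro u v
          conv_lhs => rw [pow_succ', Module.End.mul_apply, ← hXinv v, hiso, ih, ← Module.End.mul_apply, ← pow_succ]
      obtain ⟨v₁, hv₁, hv₁0⟩ := Submodule.exists_mem_ne_zero_of_ne_bot (p := R) fun h => by
        rw [h, finrank_bot] at hRd; omega
      have hgenR : ∀ v ∈ R, ∃ h : Polynomial F, Polynomial.aeval X h v₁ = v := by
        let Lh : Polynomial F →ₗ[F] (Fin d ⊕ Fin d → F) :=
          (LinearMap.applyₗ v₁).comp (Polynomial.aeval X).toLinearMap
        have hUle : LinearMap.range Lh ≤ R := by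
          rintro _ ⟨h, rfl⟩; exact hXR.aeval h v₁ hv₁
        have hUinv : Inv X (LinearMap.range Lh) := by
          rintro _ ⟨h, rfl⟩
          exact ⟨Polynomial.X * h, by simp [Lh]⟩
        have h1 : 2 * b ∣ finrank F (LinearMap.range Lh) := hstep.dvd _ hUinv (eq_bot_iff.2 (hRC ▸ inf_le_inf_right _ hUle))
        have h2' : LinearMap.range Lh = R := Submodule.eq_of_le_of_finrank_le hUle (by
          rw [hRd]
          refine Nat.le_of_dvd (Nat.pos_of_ne_zero fun h0 => hv₁0 ?_) h1
          have hm : v₁ ∈ LinearMap.range Lh := ⟨1, by simp [Lh]⟩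
          rwa [Submodule.finrank_eq_zero.1 h0, Submodule.mem_bot] at hm)
        intro v hv
        rw [← h2'] at hv
        exact hv
      haveI := Fintype.ofFinite K
      have hcard : Fintype.card K = Fintype.card F ^ 2 := by
        rw [Module.card_eq_pow_finrank (K := F) (V := K), hK.finrank_eq, hk2]
      have hall : ∀ a : K, a ^ Fintype.card F = a := by
        intro a
        obtain ⟨h, hh⟩ := hgenR _ (hRinv a v₁ hv₁)
        set Z := Polynomial.aeval X h with hZ
        have hcomm : ∀ v ∈ R, ρ a v = Z v := by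
          intro v hv
          obtain ⟨h', rfl⟩ := hgenR v hv
          have hc : Commute (ρ a) (Polynomial.aeval X h') := by
            clear hv
            induction h' using Polynomial.induction_on' with
            | add p q hp hq => rw [map_add]; exact hp.add_right hq
            | monomial j c =>
              rw [Polynomial.aeval_monomial]
              exact (Commute.symm (Algebra.commutes c (ρ a))).mul_right ((hρ a).pow_right j) 
          rw [← Module.End.mul_apply, hc.eq, Module.End.mul_apply, ← hh, ← Module.End.mul_apply,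
            ← Module.End.mul_apply, ← map_mul, ← map_mul, mul_comm]
        have hZ2 : ∀ v ∈ R, (Z ^ (Fintype.card F ^ b)) v = Z v := by
          intro v hv
          have e : Z ^ (Fintype.card F ^ b) = Polynomial.aeval (X ^ (Fintype.card F ^ b)) h := by
            rw [hZ, ← map_pow, ← expand_pow_card, Polynomial.expand_aeval]
          have hmem : (Z ^ (Fintype.card F ^ b)) v - Z v ∈ R := R.sub_mem
            (by rw [hZ, ← map_pow]; exact hXR.aeval _ v hv) (hXR.aeval _ v hv)
          refine sub_eq_zero.1 (hBS _ fun u => ?_)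
          obtain ⟨c, hc, u', hu', rfl⟩ : ∃ c ∈ LinearMap.ker (X - (1 : F) • LinearMap.id), ∃ u' ∈ R, c + u' = u := by
            have htop : LinearMap.ker (X - (1 : F) • LinearMap.id) ⊔ R = ⊤ := by
              refine Submodule.eq_top_of_finrank_eq ?_
              have hs := Submodule.finrank_sup_add_finrank_inf_eq (LinearMap.ker (X - (1 : F) • LinearMap.id)) R
              rw [inf_comm, hRC, finrank_bot, hRd, hAk] at hs
              rw [hfinV]; omega
            exact Submodule.mem_sup.1 (htop ▸ Submodule.mem_top)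
          rw [map_add, show B _ c = 0 from hBA.isRefl _ _ (horth c hc _ hmem), zero_add, ← neg_eq_zero, hBA.neg_eq]
          rw [map_sub, sub_eq_zero, ← hcomm v hv, ← hρsa, hcomm u' hu', e]
          have hadj' : ∀ (h : Polynomial F) u w, B (Polynomial.aeval X h u) w =
              B u (Polynomial.aeval (X ^ (Fintype.card F ^ b)) h w) := by
            intro h
            induction h using Polynomial.induction_on' with
            | add p q hp hq => intro u w; simp only [map_add, LinearMap.add_apply, hp, hq]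
            | monomial j c =>
              intro u w
              simp only [Polynomial.aeval_monomial, Module.End.mul_apply, Module.algebraMap_end_apply,
                map_smul, LinearMap.smul_apply, hadj]
          exact (hadj' h u' v).symm
        have hpow : ∀ j : ℕ, ∀ v ∈ R, ρ (a ^ j) v = (Z ^ j) v := by
          intro j
          induction j with
          | zero => intro v _; simp
          | succ j ih =>
            intro v hv
            rw [pow_succ, map_mul, Module.End.mul_apply, pow_succ, Module.End.mul_apply, ← hcomm v hv, ih _ (hRinv a v hv)]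
        have h1 : a ^ (Fintype.card F ^ b) = a := sub_eq_zero.1 (eq_zero_of_apply (ρ := ρ) (v := v₁) (by
          rw [map_sub, LinearMap.sub_apply, hpow _ v₁ hv₁, hZ2 v₁ hv₁, hcomm v₁ hv₁, sub_self]) hv₁0)
        obtain ⟨c, hc⟩ : Odd b := Nat.not_even_iff_odd.1 fun h => hkb (hk2 ▸ h.two_dvd)
        have hq2 : ∀ (m : ℕ), a ^ (Fintype.card F ^ (2 * m)) = a := by
          intro m
          induction m with
          | zero => simp
          | succ m ih =>
            rw [Nat.mul_succ, pow_add, pow_mul, ih, ← hcard, FiniteField.pow_card]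
        rwa [hc, pow_succ, pow_mul, hq2] at h1
      have hle : Fintype.card K ≤ Fintype.card F := by
        calc Fintype.card K ≤ (Polynomial.X ^ Fintype.card F - Polynomial.X : Polynomial K).roots.toFinset.card := by
              refine Finset.card_le_card fun a _ => ?_
              rw [Multiset.mem_toFinset, Polynomial.mem_roots (FiniteField.X_pow_card_sub_X_ne_zero K Fintype.one_lt_card)]
              simp [Polynomial.IsRoot, hall a]
          _ ≤ _ := (Multiset.toFinset_card_le _).trans (Polynomial.card_roots' _)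
          _ = Fintype.card F := FiniteField.X_pow_card_sub_X_natDegree_eq K Fintype.one_lt_card
      rw [hcard, pow_two] at hle
      have := Fintype.one_lt_card (α := F)
      nlinarith
  · have hij : i ∣ j₀ + 1 :=
      (Nat.Coprime.dvd_of_dvd_mul_left ((Nat.coprime_two_right).2 hodd) hord)
    have hki : ¬ k ∣ i := fun h => hj₀k (h.trans hij)
    have hid : i ≤ d := (Nat.le_of_dvd (by omega) hij).trans (by omega)
    obtain ⟨A, g, W, hAr, hker, hW, hWd⟩ := exists_pair_elt (F := F) hrp hr2 hodd hid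
    rw [← hi] at hker hWd
    have hi0 : 0 < i := hodd.pos
    set X := Matrix.toLin' (A : Matrix (Fin d ⊕ Fin d) (Fin d ⊕ Fin d) F) with hX
    refine key (spToGL d F A) (mem_spGL (g := spToGL d F A) fun u v => (stdB_iff_matrix d _).2 A.2 u v) (hmk hAr) (fun z hz => ?_) ?_
      fun ρ hρsa hρalt hρ => ?_
    · have e : Polynomial.aeval (1 : Module.End F (Fin d ⊕ Fin d → F)) g = (Polynomial.aeval (1 : F) g) • (1 : Module.End F (Fin d ⊕ Fin d → F)) := by
        rw [← map_one (algebraMap F (Module.End F (Fin d ⊕ Fin d → F))), Polynomial.aeval_algebraMap_apply,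
          Algebra.algebraMap_eq_smul_one, map_one]
      rw [hX, hscal hAr hz, e] at hker
      rcases eq_or_ne (Polynomial.aeval (1 : F) g) 0 with h0 | h0
      · rw [h0, zero_smul, LinearMap.ker_zero, finrank_top, hfinV] at hker
        omega
      · rw [LinearMap.ker_smul _ _ h0, Module.End.one_eq_id, LinearMap.ker_id, finrank_bot] at hker
        omega
    · by_cases hrk : r = k
      · refine Or.inr ⟨W, 1, hW, ?_⟩
        have h2i : 2 * i ∣ r - 1 := Nat.Coprime.mul_dvd_of_dvd_of_dvd ((Nat.coprime_two_left).2 hodd) (by omega) hir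
        have := Nat.le_of_dvd (by omega) h2i
        rw [hfinV]
        omega
      · exact Or.inl ⟨hrk, fun v => LinearMap.congr_fun hAr v⟩
    · replace hρ : ∀ a, Commute (ρ a) X := hρ
      have hinv : ∀ a, ∀ v ∈ LinearMap.ker (Polynomial.aeval X g), ρ a v ∈ LinearMap.ker (Polynomial.aeval X g) := by
        intro a v hv
        have hc : ∀ h : Polynomial F, Commute (ρ a) (Polynomial.aeval X h) := by
          intro h
          induction h using Polynomial.induction_on' with
          | add p q hp hq => rw [map_add]; exact hp.add_right hq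
          | monomial j c =>
            rw [Polynomial.aeval_monomial]
            exact (Commute.symm (Algebra.commutes c (ρ a))).mul_right ((hρ a).pow_right j)
        rw [LinearMap.mem_ker] at hv ⊢
        rw [← Module.End.mul_apply, ← (hc g).eq, Module.End.mul_apply, hv, map_zero]
      have hdvd := finrank_dvd ρ hinv
      rw [hK.finrank_eq, hker] at hdvd
      exact hki hdvd

end Cfsg.Agent.S5975
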