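import Cfsg.Statements.S5976
import Cfsg.Agent.S5975
import Cfsg.Agent.Lib.Elusive.SkewRoot
import Cfsg.Agent.Lib.Classical.Unitary

set_option autoImplicit false
open scoped MatrixGroups
open Cfsg
open Module Cfsg.Agent.Lib.Elusive Cfsg.Agent.Lib.Forms Cfsg.Agent.Lib.Elusive.SympField
open scoped Matrix

namespace Cfsg.Agent.S5976

section

universe u

variable {F : Type u} [Field F] [Fintype F] {d : ℕ}

local notation "V'" => (Fin d ⊕ Fin d → F)

theorem gl_of_equiv (L : V' ≃ₗ[F] V') :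
    ∃ G : GL (Fin d ⊕ Fin d) F, (∀ v, (G : Matrix (Fin d ⊕ Fin d) (Fin d ⊕ Fin d) F) *ᵥ v = L v) ∧
      ∀ v, ((G⁻¹ : GL (Fin d ⊕ Fin d) F) : Matrix (Fin d ⊕ Fin d) (Fin d ⊕ Fin d) F) *ᵥ v = L.symm v :=
  ⟨⟨LinearMap.toMatrix' L.toLinearMap, LinearMap.toMatrix' L.symm.toLinearMap,
    by rw [← LinearMap.toMatrix'_comp]; simp, by rw [← LinearMap.toMatrix'_comp]; simp⟩,
    fun v => LinearMap.toMatrix'_mulVec _ v, fun v => LinearMap.toMatrix'_mulVec _ v⟩

omit [Fintype F] in
theorem finrank_V : finrank F V' = 2 * d := by simp [two_mul]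

omit [Fintype F] in
theorem exists_pairing (hd : 0 < d) : ∃ a b : V', stdB d F a b ≠ 0 :=
  ⟨_, _, S5975.stdB_single (F := F) (⟨0, hd⟩ : Fin d)⟩

theorem exists_gen (hodd : Odd (Fintype.card F)) (hd : 0 < d)
    {K : Subalgebra F (Matrix (Fin d ⊕ Fin d) (Fin d ⊕ Fin d) F)} (hK : Cfsg.Geo.IsFieldSubalgebra 2 K)
    (hKf : Cfsg.Geo.IsAdjointClosedFor (Cfsg.sympForm d F) K)
    (hKns : ¬ Cfsg.Geo.IsSelfAdjointFor (Cfsg.sympForm d F) K) :
    ∃ k₀ ∈ K, ∃ ν : F, ¬ IsSquare ν ∧ k₀ * k₀ = ν • 1 ∧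
      (∀ u v, stdB d F (k₀ *ᵥ u) v = - stdB d F u (k₀ *ᵥ v)) ∧
      ∀ m ∈ K, ∃ a b : F, m = a • 1 + b • k₀ := by
  have hA : (stdB d F).IsAlt := stdB_isAlt d
  have hB := (stdB_nondegenerate (F := F) d).1
  have h2 := two_ne hodd
  obtain ⟨k, hk, u₀, v₀, hne⟩ : ∃ k ∈ K, ∃ u v, Cfsg.sympForm d F (k *ᵥ u) v ≠ Cfsg.sympForm d F u (k *ᵥ v) := by
    simpa [Cfsg.Geo.IsSelfAdjointFor] using hKns
  obtain ⟨k', hk', hadj⟩ := hKf k hk
  simp only [← stdB_apply] at hne hadj
  have hadj' : ∀ u v, stdB d F (k' *ᵥ u) v = stdB d F u (k *ᵥ v) := fun u v => by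
    rw [← hA.neg_eq, ← hadj, hA.neg_eq]
  set k₀ := k - k' with hk₀
  have hk₀K : k₀ ∈ K := sub_mem hk hk'
  have hskew : ∀ u v, stdB d F (k₀ *ᵥ u) v = - stdB d F u (k₀ *ᵥ v) := fun u v => by
    simp only [hk₀, Matrix.sub_mulVec, map_sub, LinearMap.sub_apply, hadj, hadj']
    ring
  have hk0 : k₀ ≠ 0 := fun h => hne (by
    rw [hk₀, sub_eq_zero] at h
    rw [hadj, ← h])
  have hscal : ∀ a : F, (∀ u v, stdB d F (a • u) v = - stdB d F u (a • v)) → a = 0 := by
    intro a h
    obtain ⟨u, v, huv⟩ := exists_pairing (F := F) hd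
    have := h u v
    simp only [map_smul, LinearMap.smul_apply, smul_eq_mul] at this
    have h' : (2 * stdB d F u v) * a = 0 := by linear_combination this
    exact (mul_eq_zero.1 h').resolve_left (mul_ne_zero h2 huv)
  have hnscal : ∀ c : F, k₀ ≠ c • 1 := fun c hc => hk0 (by
    have := hscal c fun u v => by
      have h := hskew u v
      rwa [hc, Matrix.smul_mulVec, Matrix.smul_mulVec, Matrix.one_mulVec, Matrix.one_mulVec] at h
    rw [hc, this, zero_smul])
  let L : F × F →ₗ[F] K :=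
    { toFun := fun p => ⟨p.1 • 1 + p.2 • k₀, add_mem (K.smul_mem (one_mem K) _) (K.smul_mem hk₀K _)⟩
      map_add' := fun p q => Subtype.ext (by simp [add_smul]; abel)
      map_smul' := fun c p => Subtype.ext (by simp [mul_smul]) }
  have hL : Function.Injective L := (injective_iff_map_eq_zero _).2 fun p hp => by
    have h : p.1 • (1 : Matrix (Fin d ⊕ Fin d) (Fin d ⊕ Fin d) F) + p.2 • k₀ = 0 := congrArg Subtype.val hp
    by_cases hp2 : p.2 = 0
    · rw [hp2, zero_smul, add_zero] at h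
      haveI : Nonempty (Fin d ⊕ Fin d) := ⟨Sum.inl ⟨0, hd⟩⟩
      exact Prod.ext ((smul_eq_zero.1 h).resolve_right one_ne_zero) hp2
    · exfalso
      refine hnscal (-p.1 / p.2) ?_
      have h' : p.2 • k₀ = p.2 • ((-p.1 / p.2) • (1 : Matrix (Fin d ⊕ Fin d) (Fin d ⊕ Fin d) F)) := by
        rw [smul_smul, mul_div_cancel₀ _ hp2, neg_smul]; exact eq_neg_of_add_eq_zero_right h
      exact smul_right_injective _ hp2 h'
  haveI : FiniteDimensional F K := Module.finite_of_finrank_pos (by rw [hK.finrank_eq]; norm_num)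
  have hsurj := (LinearMap.injective_iff_surjective_of_finrank_eq_finrank (f := L) (by
    rw [Module.finrank_prod, Module.finrank_self, hK.finrank_eq])).1 hL
  have hgen : ∀ m ∈ K, ∃ a b : F, m = a • 1 + b • k₀ := fun m hm => by
    obtain ⟨⟨a, b⟩, h⟩ := hsurj ⟨m, hm⟩
    exact ⟨a, b, (congrArg Subtype.val h).symm⟩
  obtain ⟨ν, b, hν⟩ := hgen _ (mul_mem hk₀K hk₀K)
  have hb : b = 0 := by
    by_contra hb
    obtain ⟨u, v, huv⟩ : ∃ u v, stdB d F (k₀ *ᵥ u) v ≠ 0 := by
      by_contra h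
      push Not at h
      refine hk0 (Matrix.ext_iff_mulVec.2 fun u => ?_)
      rw [Matrix.zero_mulVec]
      exact hB _ (h u)
    have h1 : stdB d F ((k₀ * k₀) *ᵥ u) v = stdB d F u ((k₀ * k₀) *ᵥ v) := by
      rw [← Matrix.mulVec_mulVec, ← Matrix.mulVec_mulVec, hskew, hskew, neg_neg]
    simp only [hν, Matrix.add_mulVec, Matrix.smul_mulVec, Matrix.one_mulVec, map_add, map_smul,
      LinearMap.add_apply, LinearMap.smul_apply, smul_eq_mul] at h1
    have h' : (2 * b) * stdB d F (k₀ *ᵥ u) v = 0 := by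
      have := hskew u v
      linear_combination h1 + b * this
    exact huv ((mul_eq_zero.1 h').resolve_left (mul_ne_zero h2 hb))
  rw [hb, zero_smul, add_zero] at hν
  refine ⟨k₀, hk₀K, ν, ?_, hν, hskew, hgen⟩
  rintro ⟨c, rfl⟩
  obtain ⟨y, -, hy⟩ := hK.inv (k₀ - c • 1) (sub_mem hk₀K (K.smul_mem (one_mem K) c))
    (fun h => hnscal c (sub_eq_zero.1 h))
  have hprod : (k₀ + c • 1) * (k₀ - c • 1) = 0 := by
    simp only [add_mul, mul_sub, smul_mul_assoc, one_mul, mul_smul_comm, mul_one, hν, smul_add, smul_smul]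
    abel
  have := congrArg (· * y) hprod
  simp only [mul_assoc, hy, mul_one, zero_mul] at this
  exact hnscal (-c) (by rw [neg_smul]; exact eq_neg_of_add_eq_zero_left this)

/-- Fixing a point means centralising or inverting a skew square root of `ν`. -/
theorem conj_iff (hodd : Odd (Fintype.card F)) (hd : 0 < d)
    {K : Subalgebra F (Matrix (Fin d ⊕ Fin d) (Fin d ⊕ Fin d) F)}
    {k₀ : Matrix (Fin d ⊕ Fin d) (Fin d ⊕ Fin d) F} (hk₀K : k₀ ∈ K) {ν : F} (hν0 : ν ≠ 0)
    (hν : k₀ * k₀ = ν • 1) (hskew : ∀ u v, stdB d F (k₀ *ᵥ u) v = - stdB d F u (k₀ *ᵥ v))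
    (hgen : ∀ m ∈ K, ∃ a b : F, m = a • 1 + b • k₀)
    {x : GL (Fin d ⊕ Fin d) F} (hx : x ∈ Cfsg.spGL d F) :
    (∃ g ∈ Cfsg.spGL d F, g⁻¹ * x * g ∈ Cfsg.Geo.subalgebraNormalizer K) ↔
      ∃ (J : V' →ₗ[F] V') (s : F), s ^ 2 = 1 ∧ (∀ u v, stdB d F (J u) v = - stdB d F u (J v)) ∧
        (∀ v, J (J v) = ν • v) ∧
        ∀ v, (x : Matrix (Fin d ⊕ Fin d) (Fin d ⊕ Fin d) F) *ᵥ J v =
          s • J ((x : Matrix (Fin d ⊕ Fin d) (Fin d ⊕ Fin d) F) *ᵥ v) := by
  have hA : (stdB d F).IsAlt := stdB_isAlt d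
  have hB := (stdB_nondegenerate (F := F) d).1
  have h2 := two_ne hodd
  constructor
  · rintro ⟨g, hg, hgx⟩
    set y := g⁻¹ * x * g with hy
    have hys : y ∈ Cfsg.spGL d F := mul_mem (mul_mem (inv_mem hg) hx) hg
    obtain ⟨a, b, hab⟩ := hgen _ ((hgx k₀).1 hk₀K)
    have hyk : (y : Matrix (Fin d ⊕ Fin d) (Fin d ⊕ Fin d) F) * k₀ =
        (a • 1 + b • k₀) * (y : Matrix (Fin d ⊕ Fin d) (Fin d ⊕ Fin d) F) := by
      rw [← hab, mul_assoc, Units.inv_mul, mul_one]
    have hyv : ∀ v, (y : Matrix (Fin d ⊕ Fin d) (Fin d ⊕ Fin d) F) *ᵥ (k₀ *ᵥ v) =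
        a • ((y : Matrix (Fin d ⊕ Fin d) (Fin d ⊕ Fin d) F) *ᵥ v) +
          b • (k₀ *ᵥ ((y : Matrix (Fin d ⊕ Fin d) (Fin d ⊕ Fin d) F) *ᵥ v)) := fun v => by
      rw [Matrix.mulVec_mulVec, hyk, ← Matrix.mulVec_mulVec, Matrix.add_mulVec, Matrix.smul_mulVec,
        Matrix.smul_mulVec, Matrix.one_mulVec]
    have ha : a = 0 := by
      obtain ⟨u, v, huv⟩ := exists_pairing (F := F) hd
      have h1 : stdB d F ((y : Matrix (Fin d ⊕ Fin d) (Fin d ⊕ Fin d) F) *ᵥ (k₀ *ᵥ u))
          ((y : Matrix (Fin d ⊕ Fin d) (Fin d ⊕ Fin d) F) *ᵥ v) =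
          - stdB d F ((y : Matrix (Fin d ⊕ Fin d) (Fin d ⊕ Fin d) F) *ᵥ u)
            ((y : Matrix (Fin d ⊕ Fin d) (Fin d ⊕ Fin d) F) *ᵥ (k₀ *ᵥ v)) := by
        rw [S5975.stdB_spGL hys, S5975.stdB_spGL hys, hskew]
      have hs := hskew ((y : Matrix (Fin d ⊕ Fin d) (Fin d ⊕ Fin d) F) *ᵥ u)
        ((y : Matrix (Fin d ⊕ Fin d) (Fin d ⊕ Fin d) F) *ᵥ v)
      rw [hyv, hyv] at h1
      simp only [map_add, map_smul, LinearMap.add_apply, LinearMap.smul_apply, smul_eq_mul,
        S5975.stdB_spGL hys] at h1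
      have h' : (2 * stdB d F u v) * a = 0 := by linear_combination h1 - b * hs
      exact (mul_eq_zero.1 h').resolve_left (mul_ne_zero h2 huv)
    subst ha
    have hb : b ^ 2 = 1 := by
      obtain ⟨u, v, huv⟩ := exists_pairing (F := F) hd
      have hsq : ∀ w, k₀ *ᵥ (k₀ *ᵥ w) = ν • w := fun w => by
        rw [Matrix.mulVec_mulVec, hν, Matrix.smul_mulVec, Matrix.one_mulVec]
      have h1 : ν • ((y : Matrix (Fin d ⊕ Fin d) (Fin d ⊕ Fin d) F) *ᵥ u) =
          (b * b * ν) • ((y : Matrix (Fin d ⊕ Fin d) (Fin d ⊕ Fin d) F) *ᵥ u) := by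
        conv_lhs => rw [← Matrix.mulVec_smul, ← hsq, hyv, hyv]
        simp only [zero_smul, zero_mul, zero_add, Matrix.mulVec_smul, hsq, smul_smul, mul_assoc]
      have h3 := congrArg (fun w => stdB d F w ((y : Matrix (Fin d ⊕ Fin d) (Fin d ⊕ Fin d) F) *ᵥ v)) h1
      simp only [map_smul, LinearMap.smul_apply, smul_eq_mul, S5975.stdB_spGL hys] at h3
      have h4 : ν * stdB d F u v * (b ^ 2 - 1) = 0 := by linear_combination -h3
      exact sub_eq_zero.1 ((mul_eq_zero.1 h4).resolve_left (mul_ne_zero hν0 huv))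
    set G := (g : Matrix (Fin d ⊕ Fin d) (Fin d ⊕ Fin d) F) with hG
    set G' := ((g⁻¹ : GL (Fin d ⊕ Fin d) F) : Matrix (Fin d ⊕ Fin d) (Fin d ⊕ Fin d) F) with hG'
    have hGG : ∀ v, G' *ᵥ (G *ᵥ v) = v := fun v => by simp [G, G', Matrix.mulVec_mulVec]
    have hGG' : ∀ v, G *ᵥ (G' *ᵥ v) = v := fun v => by simp [G, G', Matrix.mulVec_mulVec]
    have hxy : ∀ v, (x : Matrix (Fin d ⊕ Fin d) (Fin d ⊕ Fin d) F) *ᵥ (G *ᵥ v) =
        G *ᵥ ((y : Matrix (Fin d ⊕ Fin d) (Fin d ⊕ Fin d) F) *ᵥ v) := fun v => by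
      rw [Matrix.mulVec_mulVec, Matrix.mulVec_mulVec, hG, ← Units.val_mul, ← Units.val_mul, hy,
        mul_assoc g⁻¹, mul_inv_cancel_left]
    refine ⟨(Matrix.toLin' G) ∘ₗ (Matrix.toLin' k₀) ∘ₗ (Matrix.toLin' G'), b, hb, fun u v => ?_,
      fun v => ?_, fun v => ?_⟩
    · simp only [LinearMap.comp_apply, Matrix.toLin'_apply]
      conv_lhs => rw [← hGG' v]
      conv_rhs => rw [← hGG' u]
      rw [hG, S5975.stdB_spGL hg, S5975.stdB_spGL hg, hskew]
    · simp only [LinearMap.comp_apply, Matrix.toLin'_apply]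
      rw [hGG, Matrix.mulVec_mulVec (M := k₀) (N := k₀), hν, Matrix.smul_mulVec, Matrix.one_mulVec,
        Matrix.mulVec_smul, hGG']
    · simp only [LinearMap.comp_apply, Matrix.toLin'_apply]
      obtain ⟨w, rfl⟩ : ∃ w, G *ᵥ w = v := ⟨G' *ᵥ v, hGG' v⟩
      rw [hGG, hxy, hyv, hxy, hGG, zero_smul, zero_add, Matrix.mulVec_smul]
  · rintro ⟨J, s, hs, hJ, hJJ, hJx⟩
    let κ := Matrix.toLin' k₀
    have hκκ : ∀ v, κ (κ v) = ν • v := fun v => by
      simp only [κ, Matrix.toLin'_apply]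
      rw [Matrix.mulVec_mulVec, hν, Matrix.smul_mulVec, Matrix.one_mulVec]
    obtain ⟨m, e₁, he₁, hek⟩ := exists_root_frame (B := stdB d F) (J := κ) hodd hA hB hν0 hskew hκκ
    obtain ⟨m', e₂, he₂, heJ⟩ := exists_root_frame (B := stdB d F) hodd hA hB hν0 hJ hJJ
    obtain rfl : m = m' := by
      have h1 := e₁.finrank_eq
      have h2 := e₂.finrank_eq
      simp at h1 h2
      omega
    obtain ⟨G, hG, hG'⟩ := gl_of_equiv (e₁.symm.trans e₂)
    have hGs : G ∈ Cfsg.spGL d F := S5975.mem_spGL fun u v => by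
      rw [hG, hG]
      simp only [LinearEquiv.trans_apply]
      rw [he₂, ← he₁, e₁.apply_symm_apply, e₁.apply_symm_apply]
    have hGk : ∀ v, (G : Matrix (Fin d ⊕ Fin d) (Fin d ⊕ Fin d) F) *ᵥ (k₀ *ᵥ v) =
        J ((G : Matrix (Fin d ⊕ Fin d) (Fin d ⊕ Fin d) F) *ᵥ v) := fun v => by
      obtain ⟨v, rfl⟩ := e₁.surjective v
      rw [hG, hG, ← Matrix.toLin'_apply, show Matrix.toLin' k₀ (e₁ v) = e₁ (rootStd ν m v) from hek v]
      simp [heJ]
    refine ⟨G, hGs, S5975.mem_normalizer fun k hk => ?_⟩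
    set Y := G⁻¹ * x * G with hY
    have hYk : (Y : Matrix (Fin d ⊕ Fin d) (Fin d ⊕ Fin d) F) * k₀ =
        s • k₀ * (Y : Matrix (Fin d ⊕ Fin d) (Fin d ⊕ Fin d) F) := Matrix.ext_iff_mulVec.2 fun v => by
      have hinj : Function.Injective fun w => (G : Matrix (Fin d ⊕ Fin d) (Fin d ⊕ Fin d) F) *ᵥ w :=
        fun a b h => by
          have := congrArg (fun w => ((G⁻¹ : GL (Fin d ⊕ Fin d) F) : Matrix (Fin d ⊕ Fin d) (Fin d ⊕ Fin d) F) *ᵥ w) h
          simpa [Matrix.mulVec_mulVec] using this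
      apply hinj
      show (G : Matrix (Fin d ⊕ Fin d) (Fin d ⊕ Fin d) F) *ᵥ _ = (G : Matrix (Fin d ⊕ Fin d) (Fin d ⊕ Fin d) F) *ᵥ _
      have hGY : ∀ w, (G : Matrix (Fin d ⊕ Fin d) (Fin d ⊕ Fin d) F) *ᵥ ((Y : Matrix (Fin d ⊕ Fin d) (Fin d ⊕ Fin d) F) *ᵥ w) =
          (x : Matrix (Fin d ⊕ Fin d) (Fin d ⊕ Fin d) F) *ᵥ ((G : Matrix (Fin d ⊕ Fin d) (Fin d ⊕ Fin d) F) *ᵥ w) := fun w => by
        rw [Matrix.mulVec_mulVec, Matrix.mulVec_mulVec, ← Units.val_mul, ← Units.val_mul, hY, mul_assoc G⁻¹,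
          mul_inv_cancel_left]
      rw [← Matrix.mulVec_mulVec, ← Matrix.mulVec_mulVec, hGY, hGk, hJx, Matrix.smul_mulVec,
        Matrix.mulVec_smul, hGk, hGY]
    obtain ⟨a, b, rfl⟩ := hgen k hk
    rw [mul_add, add_mul, mul_smul_comm, mul_smul_comm, mul_one, smul_mul_assoc, smul_mul_assoc,
      Units.mul_inv, hYk, mul_assoc, Units.mul_inv, mul_one]
    exact add_mem (K.smul_mem (one_mem K) _) (K.smul_mem (K.smul_mem hk₀K _) _)

/-- An involution centralises a skew square root. -/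
theorem two_case (hodd : Odd (Fintype.card F)) (ν : F) {x : GL (Fin d ⊕ Fin d) F} (hx : x ∈ Cfsg.spGL d F)
    {z : F} (hz : z ^ 2 = 1)
    (hxx : ∀ v, (x : Matrix (Fin d ⊕ Fin d) (Fin d ⊕ Fin d) F) *ᵥ ((x : Matrix (Fin d ⊕ Fin d) (Fin d ⊕ Fin d) F) *ᵥ v) = z • v) :
    ∃ (J : V' →ₗ[F] V') (s : F), s ^ 2 = 1 ∧ (∀ u v, stdB d F (J u) v = - stdB d F u (J v)) ∧
      (∀ v, J (J v) = ν • v) ∧
      ∀ v, (x : Matrix (Fin d ⊕ Fin d) (Fin d ⊕ Fin d) F) *ᵥ J v =
        s • J ((x : Matrix (Fin d ⊕ Fin d) (Fin d ⊕ Fin d) F) *ᵥ v) := by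
  have hA : (stdB d F).IsAlt := stdB_isAlt d
  have hB := (stdB_nondegenerate (F := F) d).1
  have h2 := two_ne hodd
  set B := stdB d F with hBdef
  set X := Matrix.toLin' (x : Matrix (Fin d ⊕ Fin d) (Fin d ⊕ Fin d) F) with hX
  simp only [← Matrix.toLin'_apply, ← hX] at hxx ⊢
  have hXi : ∀ u v, B (X u) (X v) = B u v := fun u v => by
    simp only [hX, Matrix.toLin'_apply]; exact S5975.stdB_spGL hx u v
  rcases sq_eq_one_iff.1 hz with rfl | rfl
  · let Wp := LinearMap.ker (X - LinearMap.id)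
    let Wm := LinearMap.ker (X + LinearMap.id)
    have hmp : ∀ {v}, v ∈ Wp ↔ X v = v := fun {v} => by simp [Wp, sub_eq_zero]
    have hmm : ∀ {v}, v ∈ Wm ↔ X v = -v := fun {v} => by simp [Wm, eq_neg_iff_add_eq_zero]
    let πp : V' →ₗ[F] Wp := LinearMap.codRestrict Wp ((2 : F)⁻¹ • (LinearMap.id + X)) fun v => hmp.2 (by
      simp [hxx, add_comm])
    let πm : V' →ₗ[F] Wm := LinearMap.codRestrict Wm ((2 : F)⁻¹ • (LinearMap.id - X)) fun v => hmm.2 (by
      simp only [LinearMap.smul_apply, LinearMap.sub_apply, LinearMap.id_apply, map_smul, map_sub, hxx, one_smul]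
      rw [← smul_neg, neg_sub])
    have hdec : ∀ v, (πp v : V') + πm v = v := fun v => by
      simp only [πp, πm, LinearMap.codRestrict_apply, LinearMap.smul_apply, LinearMap.add_apply,
        LinearMap.sub_apply, LinearMap.id_apply]
      rw [← smul_add, add_add_sub_cancel, ← two_smul F v, smul_smul, inv_mul_cancel₀ h2, one_smul]
    have horth : ∀ u ∈ Wp, ∀ v ∈ Wm, B u v = 0 ∧ B v u = 0 := fun u hu v hv => by
      have h := hXi u v
      rw [hmp.1 hu, hmm.1 hv, map_neg, neg_eq_iff_add_eq_zero, ← two_mul] at h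
      have h0 : B u v = 0 := (mul_eq_zero.1 h).resolve_left h2
      exact ⟨h0, by rw [← hA.neg_eq, h0, neg_zero]⟩
    have key : ∀ u v, B u v = B (πp u : V') (πp v) + B (πm u : V') (πm v) := fun u v => by
      conv_lhs => rw [← hdec u, ← hdec v]
      simp only [map_add, LinearMap.add_apply, (horth _ (πp u).2 _ (πm v).2).1,
        (horth _ (πp v).2 _ (πm u).2).2]
      ring
    let Bp : LinearMap.BilinForm F Wp := B.compl₁₂ Wp.subtype Wp.subtype
    let Bm : LinearMap.BilinForm F Wm := B.compl₁₂ Wm.subtype Wm.subtype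
    obtain ⟨Jp, hJp, hJpp⟩ := exists_skew_root (B := Bp) (fun u => hA.self_eq_zero _)
      (fun u hu => Subtype.ext (hB _ fun v => by
        rw [← hdec v, map_add, (horth _ u.2 _ (πm v).2).1, add_zero]; exact hu (πp v))) ν
    obtain ⟨Jm, hJm, hJmm⟩ := exists_skew_root (B := Bm) (fun u => hA.self_eq_zero _)
      (fun u hu => Subtype.ext (hB _ fun v => by
        rw [← hdec v, map_add, (horth _ (πp v).2 _ u.2).2, zero_add]; exact hu (πm v))) ν
    let J : V' →ₗ[F] V' := Wp.subtype ∘ₗ Jp ∘ₗ πp + Wm.subtype ∘ₗ Jm ∘ₗ πm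
    have hJ : ∀ v, J v = (Jp (πp v) : V') + Jm (πm v) := fun v => rfl
    have hπ : ∀ (a : Wp) (b : Wm), πp ((a : V') + b) = a ∧ πm ((a : V') + b) = b := fun a b => by
      constructor <;> refine Subtype.ext ?_
      · show ((2 : F)⁻¹ • (LinearMap.id + X : V' →ₗ[F] V')) ((a : V') + b) = a
        simp only [LinearMap.smul_apply, LinearMap.add_apply,
          LinearMap.id_apply, map_add, hmp.1 a.2, hmm.1 b.2]
        rw [← two_smul F (a : V'), smul_smul, inv_mul_cancel₀ h2, one_smul, add_neg_cancel, smul_zero, add_zero]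
      · show ((2 : F)⁻¹ • (LinearMap.id - X : V' →ₗ[F] V')) ((a : V') + b) = b
        simp only [LinearMap.smul_apply, LinearMap.sub_apply,
          LinearMap.id_apply, map_add, hmp.1 a.2, hmm.1 b.2]
        rw [sub_self, smul_zero, zero_add, sub_neg_eq_add, ← two_smul F (b : V'), smul_smul, inv_mul_cancel₀ h2,
          one_smul]
    refine ⟨J, 1, one_pow 2, fun u v => ?_, fun v => ?_, fun v => ?_⟩
    · rw [key (J u) v, key u (J v), hJ u, hJ v, (hπ _ _).1, (hπ _ _).2, (hπ _ _).1, (hπ _ _).2]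
      have e1 : B (Jp (πp u) : V') (πp v) = - B (πp u : V') (Jp (πp v)) := hJp (πp u) (πp v)
      have e2 : B (Jm (πm u) : V') (πm v) = - B (πm u : V') (Jm (πm v)) := hJm (πm u) (πm v)
      rw [e1, e2]; ring
    · rw [hJ (J v), hJ v, (hπ _ _).1, (hπ _ _).2, hJpp, hJmm, Submodule.coe_smul, Submodule.coe_smul,
        ← smul_add, hdec]
    · have hXv : X v = ((πp v : V')) + ((-πm v : Wm) : V') := by
        conv_lhs => rw [← hdec v, map_add, hmp.1 (πp v).2, hmm.1 (πm v).2]
        rfl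
      rw [one_smul, hJ (X v), hXv, (hπ _ _).1, (hπ _ _).2, map_neg, hJ v, map_add, hmp.1 (Jp _).2,
        hmm.1 (Jm _).2]
      rfl
  · have hskew : ∀ u v, B (X u) v = - B u (X v) := fun u v => by
      have h := hXi u (X v)
      rw [hxx, neg_one_smul, map_neg] at h
      linear_combination -h
    obtain ⟨m, e, he, heX⟩ := exists_root_frame (B := B) (J := X) hodd hA hB
      (neg_ne_zero.2 one_ne_zero) hskew hxx
    obtain ⟨α, β, hαβ⟩ := exists_norm hodd (μ := (-1 : F)) (neg_ne_zero.2 one_ne_zero) ν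
    let A : (Fin m ⊕ Fin m → F) →ₗ[F] (Fin m ⊕ Fin m → F) :=
      { toFun := fun v => Sum.elim (fun i => α * v (.inl i) + β * v (.inr i))
          (fun i => β * v (.inl i) - α * v (.inr i))
        map_add' := fun a b => by ext (i | i) <;> simp <;> ring
        map_smul' := fun c a => by ext (i | i) <;> simp <;> ring }
    have hAl : ∀ v i, A v (.inl i) = α * v (.inl i) + β * v (.inr i) := fun _ _ => rfl
    have hAr : ∀ v i, A v (.inr i) = β * v (.inl i) - α * v (.inr i) := fun _ _ => rfl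
    refine ⟨e.conj A, -1, by ring, fun u v => ?_, fun v => ?_, fun v => ?_⟩
    · obtain ⟨u, rfl⟩ := e.surjective u
      obtain ⟨v, rfl⟩ := e.surjective v
      simp only [LinearEquiv.conj_apply, LinearMap.comp_apply, LinearEquiv.coe_coe, e.symm_apply_apply, he]
      rw [stdB_sum, stdB_sum, ← Finset.sum_neg_distrib]
      exact Finset.sum_congr rfl fun i _ => by rw [hAl, hAl, hAr, hAr]; ring
    · obtain ⟨v, rfl⟩ := e.surjective v
      simp only [LinearEquiv.conj_apply, LinearMap.comp_apply, LinearEquiv.coe_coe, e.symm_apply_apply]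
      rw [← map_smul]
      congr 1
      ext (i | i)
      · rw [hAl, hAl, hAr, Pi.smul_apply, smul_eq_mul]; linear_combination v (.inl i) * hαβ
      · rw [hAr, hAl, hAr, Pi.smul_apply, smul_eq_mul]; linear_combination v (.inr i) * hαβ
    · obtain ⟨v, rfl⟩ := e.surjective v
      simp only [LinearEquiv.conj_apply, LinearMap.comp_apply, LinearEquiv.coe_coe, e.symm_apply_apply, heX]
      rw [← map_smul]
      congr 1
      ext (i | i)
      · rw [rootStd_inl, hAr, Pi.smul_apply, smul_eq_mul, hAl, rootStd_inl, rootStd_inr]; ring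
      · rw [rootStd_inr, hAl, Pi.smul_apply, smul_eq_mul, hAr, rootStd_inl, rootStd_inr]; ring

/-- The order of the subgroup divides out a unitary group. -/
theorem dvd_index (hd : 0 < d) {K : Subalgebra F (Matrix (Fin d ⊕ Fin d) (Fin d ⊕ Fin d) F)}
    (hodd : Odd (Fintype.card F))
    {k₀ : Matrix (Fin d ⊕ Fin d) (Fin d ⊕ Fin d) F} (hk₀K : k₀ ∈ K) {ν : F} (hns : ¬ IsSquare ν)
    (hν : k₀ * k₀ = ν • 1) (hskew : ∀ u v, stdB d F (k₀ *ᵥ u) v = - stdB d F u (k₀ *ᵥ v))
    (hgen : ∀ m ∈ K, ∃ a b : F, m = a • 1 + b • k₀) {r : ℕ} [Fact r.Prime]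
    (hrq : ¬ r ∣ Fintype.card F)
    (hΩ : r ∣ (Cfsg.Geo.subalgebraNormalizer K).relIndex (Cfsg.spGL d F)) :
    ∃ j, 0 < j ∧ j ≤ d ∧ ((Odd j ∧ (Fintype.card F : ZMod r) ^ j = 1) ∨
      (Even j ∧ (Fintype.card F : ZMod r) ^ j = -1)) := by
  classical
  have hr : r.Prime := Fact.out
  set q := Fintype.card F with hq
  have hν0 : ν ≠ 0 := fun h => hns (h ▸ IsSquare.zero)
  let g : Polynomial F := Polynomial.X ^ 2 - Polynomial.C ν
  have hgm : g.Monic := Polynomial.monic_X_pow_sub_C ν two_ne_zero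
  haveI : Fact (Irreducible g) :=
    ⟨X_pow_sub_C_irreducible_of_prime Nat.prime_two fun y hy => hns ⟨y, by rw [← hy, pow_two]⟩⟩
  let pb := AdjoinRoot.powerBasis' hgm
  haveI : FiniteDimensional F (AdjoinRoot g) := pb.finite
  have hfE : finrank F (AdjoinRoot g) = 2 := by
    rw [pb.finrank, AdjoinRoot.powerBasis'_dim, Polynomial.natDegree_X_pow_sub_C]
  haveI : Finite (AdjoinRoot g) := Module.finite_of_finite F
  haveI := Fintype.ofFinite (AdjoinRoot g)
  have hE : Fintype.card (AdjoinRoot g) = q ^ 2 := by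
    rw [Module.card_eq_pow_finrank (K := F) (V := AdjoinRoot g), hfE]
  set ι := algebraMap F (AdjoinRoot g) with hι
  set ω := AdjoinRoot.root g with hω
  have hω2 : ω ^ 2 = ι ν := by
    have h : Polynomial.aeval ω g = 0 := by rw [AdjoinRoot.aeval_eq]; exact AdjoinRoot.mk_self
    simpa [g, sub_eq_zero, hι, AdjoinRoot.algebraMap_eq] using h
  have hωq : ω ^ q = -ω := by
    obtain ⟨t, ht⟩ := hodd
    have hring : ringChar F ≠ 2 := fun h => by
      rw [FiniteField.even_card_iff_char_two] at h; omega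
    have heu : ν ^ (q / 2) = -1 := (FiniteField.pow_dichotomy hring hν0).resolve_left fun h =>
      hns ((FiniteField.isSquare_iff hring hν0).2 h)
    have hq' : q = 2 * t + 1 := ht
    rw [hq', pow_succ, pow_mul, hω2, ← map_pow, show t = q / 2 by omega, heu, map_neg, map_one, neg_one_mul]
  have huniq : ∀ {a b a' b' : F}, ι a + ω * ι b = ι a' + ω * ι b' → a = a' ∧ b = b' := by
    intro a b a' b' h
    by_cases hb : b = b'
    · subst hb; exact ⟨ι.injective (add_right_cancel h), rfl⟩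
    · exfalso
      have hne : ι (b - b') ≠ 0 := (map_ne_zero ι).2 (sub_ne_zero.2 hb)
      have hω' : ω = ι ((a' - a) / (b - b')) := by
        rw [map_div₀, eq_div_iff hne, map_sub, map_sub]
        linear_combination h
      refine hns ⟨(a' - a) / (b - b'), ι.injective ?_⟩
      rw [map_mul, ← hω', ← sq, hω2]
  obtain ⟨m, e, he, hek⟩ := exists_root_frame (B := stdB d F) (J := Matrix.toLin' k₀) hodd (stdB_isAlt d)
    (stdB_nondegenerate d).1 hν0 (fun u v => by simpa [Matrix.toLin'_apply] using hskew u v) (fun v => by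
      rw [Matrix.toLin'_apply, Matrix.toLin'_apply, Matrix.mulVec_mulVec, hν, Matrix.smul_mulVec, Matrix.one_mulVec])
  obtain rfl : d = m := by
    have h1 := e.finrank_eq
    simp at h1
    omega
  let φ₀ : V' →ₗ[F] (Fin d → AdjoinRoot g) :=
    { toFun := fun v i => ι (v (.inl i)) + ω * ι (v (.inr i))
      map_add' := fun a b => funext fun i => by simp [mul_add]; abel
      map_smul' := fun c a => funext fun i => by simp [Algebra.smul_def, hι]; ring }
  have hinj : Function.Injective φ₀ := fun u v h => funext fun i => by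
    rcases i with i | i
    · exact (huniq (congrFun h i)).1
    · exact (huniq (congrFun h i)).2
  let φ₁ : V' ≃ₗ[F] (Fin d → AdjoinRoot g) := LinearEquiv.ofBijective φ₀
    ⟨hinj, (LinearMap.injective_iff_surjective_of_finrank_eq_finrank (by
      rw [finrank_V, Module.finrank_pi_fintype F, Finset.sum_const, Finset.card_univ, Fintype.card_fin, hfE,
        smul_eq_mul, mul_comm])).1 hinj⟩
  let φ : V' ≃ₗ[F] (Fin d → AdjoinRoot g) := e.symm.trans φ₁
  have hφk : ∀ v, φ (k₀ *ᵥ v) = ω • φ v := fun v => by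
    obtain ⟨v, rfl⟩ := e.surjective v
    rw [← Matrix.toLin'_apply, hek]
    simp only [φ, LinearEquiv.trans_apply, e.symm_apply_apply]
    funext i
    show ι (rootStd ν d v (.inl i)) + ω * ι (rootStd ν d v (.inr i)) = ω * (ι (v (.inl i)) + ω * ι (v (.inr i)))
    rw [rootStd_inl, rootStd_inr, map_mul]
    linear_combination -ι (v (.inr i)) * hω2
  have hherm : ∀ u v, Cfsg.hermForm d (AdjoinRoot g) q (φ u) (φ v) =
      ι (∑ i, ((e.symm u) (.inl i) * (e.symm v) (.inl i) - ν * (e.symm u) (.inr i) * (e.symm v) (.inr i))) +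
        ω * ι (stdB d F u v) := fun u v => by
    conv_rhs => rw [← e.apply_symm_apply u, ← e.apply_symm_apply v, he, e.symm_apply_apply, e.symm_apply_apply,
      stdB_sum, map_sum, map_sum, Finset.mul_sum, ← Finset.sum_add_distrib]
    refine Finset.sum_congr rfl fun i _ => ?_
    show (ι ((e.symm u) (.inl i)) + ω * ι ((e.symm u) (.inr i))) *
      (ι ((e.symm v) (.inl i)) + ω * ι ((e.symm v) (.inr i))) ^ q = _
    have hfr : (ι ((e.symm v) (.inl i)) + ω * ι ((e.symm v) (.inr i))) ^ q =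
        ι ((e.symm v) (.inl i)) - ω * ι ((e.symm v) (.inr i)) := by
      have := map_add (FiniteField.frobeniusAlgHom F (AdjoinRoot g)) (ι ((e.symm v) (.inl i))) (ω * ι ((e.symm v) (.inr i)))
      rw [map_mul, hι, AlgHom.commutes, AlgHom.commutes] at this
      simp only [FiniteField.frobeniusAlgHom_apply] at this
      rw [hι, this, ← hq, hωq, neg_mul, ← sub_eq_add_neg]
    rw [hfr, map_sub, map_sub, map_mul, map_mul, map_mul, map_mul, map_mul]
    linear_combination -ι ((e.symm u) (.inr i)) * ι ((e.symm v) (.inr i)) * hω2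
  let T : GL (Fin d) (AdjoinRoot g) → (V' →ₗ[F] V') := fun M =>
    { toFun := fun v => φ.symm ((M : Matrix (Fin d) (Fin d) (AdjoinRoot g)) *ᵥ φ v)
      map_add' := fun a b => by simp [Matrix.mulVec_add]
      map_smul' := fun c a => by simp [Matrix.mulVec_smul] }
  let ψ : ↥(Cfsg.GU d (AdjoinRoot g) q) →* GL (Fin d ⊕ Fin d) F :=
    MonoidHom.toHomUnits
      { toFun := fun M => LinearMap.toMatrix' (T M)
        map_one' := Matrix.toLin'.injective (LinearMap.ext fun v => by
          rw [Matrix.toLin'_toMatrix', Matrix.toLin'_one]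
          simp [T])
        map_mul' := fun M N => Matrix.toLin'.injective (by
          rw [Matrix.toLin'_mul, Matrix.toLin'_toMatrix', Matrix.toLin'_toMatrix', Matrix.toLin'_toMatrix']
          refine LinearMap.ext fun v => ?_
          simp [T, Matrix.mulVec_mulVec]) }
  have hψv : ∀ (M : ↥(Cfsg.GU d (AdjoinRoot g) q)) v, φ ((ψ M : Matrix (Fin d ⊕ Fin d) (Fin d ⊕ Fin d) F) *ᵥ v) =
      ((M : GL (Fin d) (AdjoinRoot g)) : Matrix (Fin d) (Fin d) (AdjoinRoot g)) *ᵥ φ v := fun M v => by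
    show φ (LinearMap.toMatrix' (T M) *ᵥ v) = _
    rw [LinearMap.toMatrix'_mulVec]
    exact φ.apply_symm_apply _
  have hψ : Function.Injective ψ := fun M N h => Subtype.ext (Units.ext (Matrix.ext_iff_mulVec.2 fun w => by
    obtain ⟨v, rfl⟩ := φ.surjective w
    rw [← hψv, ← hψv, h]))
  have hmem : ∀ M, ψ M ∈ Cfsg.spGL d F ∧ ψ M ∈ Cfsg.Geo.subalgebraNormalizer K := fun M => by
    refine ⟨S5975.mem_spGL fun u v => ?_, S5975.mem_normalizer fun k hk => ?_⟩
    · have h := Cfsg.Agent.Lib.Classical.Herm.mem_GU.1 M.2 (φ u) (φ v)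
      rw [← hψv, ← hψv, hherm, hherm] at h
      exact (huniq h).2
    · have hc : (ψ M : Matrix (Fin d ⊕ Fin d) (Fin d ⊕ Fin d) F) * k₀ =
          k₀ * (ψ M : Matrix (Fin d ⊕ Fin d) (Fin d ⊕ Fin d) F) := Matrix.ext_iff_mulVec.2 fun v => φ.injective (by
        rw [← Matrix.mulVec_mulVec, ← Matrix.mulVec_mulVec, hψv, hφk, hφk, hψv, Matrix.mulVec_smul])
      obtain ⟨a, b, rfl⟩ := hgen k hk
      rw [mul_add, add_mul, mul_smul_comm, mul_smul_comm, mul_one, smul_mul_assoc, smul_mul_assoc,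
        Units.mul_inv, hc, mul_assoc, Units.mul_inv, mul_one]
      exact hk
  let ψ' := ψ.codRestrict (Cfsg.spGL d F) fun M => (hmem M).1
  have hψ' : Function.Injective ψ' := fun M N h => hψ (congrArg Subtype.val h)
  have hle : ψ'.range ≤ (Cfsg.Geo.subalgebraNormalizer K).subgroupOf (Cfsg.spGL d F) := by
    rintro _ ⟨M, rfl⟩
    exact (hmem M).2
  have hdvd : r * Nat.card (Cfsg.GU d (AdjoinRoot g) q) ∣ Nat.card (Cfsg.spGL d F) := by
    rw [Nat.card_congr (MonoidHom.ofInjective hψ').toEquiv,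
      ← Subgroup.card_mul_index ((Cfsg.Geo.subalgebraNormalizer K).subgroupOf (Cfsg.spGL d F)), mul_comm]
    exact mul_dvd_mul (Subgroup.card_dvd_of_le hle) hΩ
  let c : ℕ → ℕ := fun i => if Even i then q ^ (i + 1) - 1 else q ^ (i + 1) + 1
  let a : ℕ → ℕ := fun i => if Even i then q ^ (i + 1) + 1 else q ^ (i + 1) - 1
  have hfac : ∀ i, q ^ (2 * (i + 1)) - 1 = a i * c i := fun i => by
    have h : q ^ (2 * (i + 1)) - 1 = (q ^ (i + 1) + 1) * (q ^ (i + 1) - 1) := by
      rw [mul_comm 2, pow_mul, ← Nat.sq_sub_sq, one_pow]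
    simp only [a, c]; split_ifs
    · exact h
    · rw [h, mul_comm]
  have hexp : q ^ (d ^ 2) = q ^ (d * (d - 1) / 2) * q ^ (d ^ 2 - d * (d - 1) / 2) := by
    rw [← pow_add, Nat.add_sub_cancel']
    exact (Nat.div_le_self _ _).trans (by rw [sq]; exact Nat.mul_le_mul_left d (Nat.sub_le d 1))
  rw [S5975.card_spGL, Cfsg.Agent.Lib.Classical.Herm.card_GU hE, Finset.prod_congr rfl fun i _ => hfac i,
    Finset.prod_mul_distrib, hexp] at hdvd
  have hpos : 0 < q ^ (d * (d - 1) / 2) * ∏ i ∈ Finset.range d, a i := by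
    refine Nat.mul_pos (Nat.pow_pos Fintype.card_pos) (Finset.prod_pos fun i _ => ?_)
    have := Nat.one_lt_pow (show i + 1 ≠ 0 by omega) (Fintype.one_lt_card (α := F))
    rw [← hq] at this
    simp only [a]; split_ifs <;> omega
  have h : r ∣ q ^ (d ^ 2 - d * (d - 1) / 2) * ∏ i ∈ Finset.range d, c i := by
    refine Nat.dvd_of_mul_dvd_mul_right hpos ?_
    refine hdvd.trans (dvd_of_eq ?_)
    ring
  have hrp' : Prime r := Nat.prime_iff.1 hr
  rcases hrp'.dvd_mul.1 h with h1 | h1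
  · exact absurd (hrp'.dvd_of_dvd_pow h1) hrq
  obtain ⟨j, hj, h2⟩ := (Prime.dvd_finsetProd_iff hrp' _).1 h1
  rw [Finset.mem_range] at hj
  refine ⟨j + 1, by omega, by omega, ?_⟩
  simp only [c] at h2
  split_ifs at h2 with hev
  · left
    rw [← ZMod.natCast_eq_zero_iff, Nat.cast_sub (Nat.one_le_pow _ _ Fintype.card_pos), sub_eq_zero,
      Nat.cast_pow, Nat.cast_one] at h2
    exact ⟨hev.add_one, h2⟩
  · right
    rw [← ZMod.natCast_eq_zero_iff] at h2
    push_cast at h2
    exact ⟨Nat.even_add_one.2 hev, eq_neg_of_add_eq_zero_left h2⟩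

theorem derangement (hd : 2 ≤ d) (hodd : Odd (Fintype.card F)) {p : ℕ} [Fact p.Prime] [CharP F p]
    {ν : F} (hns : ¬ IsSquare ν) {r : ℕ} [Fact r.Prime] (hr2 : r ≠ 2)
    (hj : r ≠ p → ∃ j, 0 < j ∧ j ≤ d ∧ ((Odd j ∧ (Fintype.card F : ZMod r) ^ j = 1) ∨
      (Even j ∧ (Fintype.card F : ZMod r) ^ j = -1))) :
    ∃ x ∈ Cfsg.spGL d F, (∀ v, (Matrix.toLin' (x : Matrix (Fin d ⊕ Fin d) (Fin d ⊕ Fin d) F) ^ r) v = v) ∧
      ¬ ∃ J : V' →ₗ[F] V', (∀ u v, stdB d F (J u) v = - stdB d F u (J v)) ∧ (∀ v, J (J v) = ν • v) ∧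
        ∀ v, (x : Matrix (Fin d ⊕ Fin d) (Fin d ⊕ Fin d) F) *ᵥ J v =
          J ((x : Matrix (Fin d ⊕ Fin d) (Fin d ⊕ Fin d) F) *ᵥ v) := by
  classical
  have hr : r.Prime := Fact.out
  have hA : (stdB d F).IsAlt := stdB_isAlt d
  have hB := (stdB_nondegenerate (F := F) d).1
  have h2 := two_ne hodd
  have hν0 : ν ≠ 0 := fun h => hns (h ▸ IsSquare.zero)
  by_cases hrp : r = p
  · subst hrp
    set B := stdB d F with hBdef
    let v₀ : V' := Pi.single (Sum.inl ⟨0, by omega⟩) 1
    let w₀ : V' := Pi.single (Sum.inr ⟨0, by omega⟩) 1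
    refine ⟨sympT B v₀ 1, S5975.mem_spGL fun u v => (mem_isoGroup.1 (sympT_mem hA v₀ 1)) u v, ?_, ?_⟩
    · have hpow : ∀ (j : ℕ) w, (Matrix.toLin' (sympT B v₀ 1 : Matrix (Fin d ⊕ Fin d) (Fin d ⊕ Fin d) F) ^ j) w =
          w + (j : F) • (B w v₀ • v₀) := by
        intro j
        induction j with
        | zero => intro w; simp
        | succ j ih =>
          intro w
          rw [pow_succ, Module.End.mul_apply, ih, Matrix.toLin'_apply, sympT_mulVec hA, one_mul]
          simp [hA.self_eq_zero, add_smul]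
          abel
      intro v
      rw [hpow, CharP.cast_eq_zero, zero_smul, add_zero]
    · rintro ⟨J, hJ, hJJ, hc⟩
      have h0 : B w₀ v₀ ≠ 0 := S5975.stdB_single (F := F) _
      have h := hc w₀
      simp only [sympT_mulVec hA, one_mul, map_add, map_smul, add_right_inj] at h
      have hv0 : v₀ ≠ 0 := fun h => h0 (by rw [h, map_zero])
      have hJv : J v₀ = (B (J w₀) v₀ / B w₀ v₀) • v₀ := by
        rw [div_eq_inv_mul, mul_smul, h, inv_smul_smul₀ h0]
      set c := B (J w₀) v₀ / B w₀ v₀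
      have hcc := hJJ v₀
      rw [hJv, map_smul, hJv, smul_smul] at hcc
      exact hns ⟨c, (smul_left_injective F hv0 hcc).symm⟩
  set i := orderOf (Fintype.card F : ZMod r) with hi
  obtain ⟨j, hj0, hjd, hjc⟩ := hj hrp
  have hrq : ¬ r ∣ Fintype.card F := fun h => by
    obtain ⟨e, -, he⟩ := FiniteField.card F p
    rw [he] at h
    exact hrp ((Nat.prime_dvd_prime_iff_eq hr Fact.out).1 (hr.dvd_of_dvd_pow h))
  have hneg : (-1 : ZMod r) ≠ 1 := fun h => by
    haveI : Fact (2 < r) := ⟨lt_of_le_of_ne hr.two_le (Ne.symm hr2)⟩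
    exact ZMod.neg_one_ne_one h
  rcases hjc with ⟨hjo, hjq⟩ | ⟨hje, hjq⟩
  · have hij : i ∣ j := orderOf_dvd_of_pow_eq_one hjq
    have hio : Odd i := hjo.of_dvd_nat hij
    obtain ⟨A, g, W, hAr, hker, -, -⟩ := exists_pair_elt (F := F) hrp hr2 hio
      ((Nat.le_of_dvd hj0 hij).trans hjd)
    refine ⟨spToGL d F A, S5975.mem_spGL (g := spToGL d F A) fun u v => (stdB_iff_matrix d _).2 A.2 u v,
      fun v => by rw [spToGL_val, hAr]; rfl, ?_⟩
    rintro ⟨J, hJ, hJJ, hc⟩
    set X := Matrix.toLin' (A : Matrix (Fin d ⊕ Fin d) (Fin d ⊕ Fin d) F) with hX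
    have hJX : Commute J X := LinearMap.ext fun v => by
      simp only [Module.End.mul_apply, hX, Matrix.toLin'_apply]
      exact (hc v).symm
    have hJg : Commute J (Polynomial.aeval X g) := by
      clear hker
      induction g using Polynomial.induction_on' with
      | add a b ha hb => rw [map_add]; exact ha.add_right hb
      | monomial k c =>
        rw [Polynomial.aeval_monomial]
        exact (Commute.symm (Algebra.commutes c J)).mul_right (hJX.pow_right k)
    set Z := LinearMap.ker (Polynomial.aeval X g) with hZ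
    have hJZ : ∀ v ∈ Z, J v ∈ Z := fun v hv => by
      rw [hZ, LinearMap.mem_ker] at hv ⊢
      rw [← Module.End.mul_apply, ← hJg.eq, Module.End.mul_apply, hv, map_zero]
    have hsq : J.restrict hJZ * J.restrict hJZ = ν • (1 : Module.End F Z) :=
      LinearMap.ext fun v => Subtype.ext (hJJ v)
    have hdet := congrArg LinearMap.det hsq
    rw [map_mul, LinearMap.det_smul, map_one, mul_one, hker] at hdet
    obtain ⟨t, ht⟩ := hio
    refine hns ⟨LinearMap.det (J.restrict hJZ) / ν ^ t, ?_⟩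
    rw [← hi, ht, pow_succ, pow_mul] at hdet
    field_simp
    linear_combination -hdet
  · have hq1 : (Fintype.card F : ZMod r) ^ (2 * j) = 1 := by rw [two_mul, pow_add, hjq]; ring
    have hij : ¬ i ∣ j := fun h => hneg (hjq.symm.trans (orderOf_dvd_iff_pow_eq_one.1 h))
    have hi2j : i ∣ 2 * j := orderOf_dvd_of_pow_eq_one hq1
    have hie : Even i := Nat.not_odd_iff_even.1 fun ho =>
      hij (((Nat.coprime_two_right).2 ho).dvd_of_dvd_mul_left hi2j)
    obtain ⟨b, hb⟩ := hie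
    rw [← two_mul] at hb
    have hbj : b ∣ j := Nat.dvd_of_mul_dvd_mul_left two_pos (hb ▸ hi2j)
    have hbe : Even b := by
      by_contra hbo
      rw [Nat.not_even_iff_odd] at hbo
      exact hij (hb ▸ Nat.Coprime.mul_dvd_of_dvd_of_dvd ((Nat.coprime_two_left).2 hbo) hje.two_dvd hbj)
    have hb0 : 0 < b := Nat.pos_of_dvd_of_pos hbj hj0
    have hbd : b ≤ d := (Nat.le_of_dvd hj0 hbj).trans hjd
    obtain ⟨A, hAr, hker⟩ := exists_symp_elt (F := F) hrp hr2 (b := b) hb (d := d) (t := 1) (s := d - b)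
      (by omega)
    refine ⟨spToGL d F A, S5975.mem_spGL (g := spToGL d F A) fun u v => (stdB_iff_matrix d _).2 A.2 u v,
      fun v => by rw [spToGL_val]; exact hAr v, ?_⟩
    rintro ⟨J, hJ, hJJ, hc⟩
    set X := Matrix.toLin' (A : Matrix (Fin d ⊕ Fin d) (Fin d ⊕ Fin d) F) with hX
    set B := stdB d F with hBdef
    have hXi : ∀ u v, B (X u) (X v) = B u v := fun u v => by
      simp only [hX, Matrix.toLin'_apply]; exact (stdB_iff_matrix d _).2 A.2 u v
    have hJX : Commute J X := LinearMap.ext fun v => by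
      simp only [Module.End.mul_apply, hX, Matrix.toLin'_apply]
      exact (hc v).symm
    have hJp : ∀ h : Polynomial F, Commute J (Polynomial.aeval X h) := by
      intro h
      induction h using Polynomial.induction_on' with
      | add a b ha hb => rw [map_add]; exact ha.add_right hb
      | monomial k c =>
        rw [Polynomial.aeval_monomial]
        exact (Commute.symm (Algebra.commutes c J)).mul_right (hJX.pow_right k)
    set C := LinearMap.ker (X - (1 : F) • LinearMap.id) with hC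
    set R := LinearMap.range (X - (1 : F) • LinearMap.id) with hR
    have hfix : ∀ {v}, v ∈ C ↔ X v = v := fun {v} => by
      rw [hC, LinearMap.mem_ker, LinearMap.sub_apply, LinearMap.smul_apply, LinearMap.id_apply, one_smul, sub_eq_zero]
    have hRmem : ∀ {v}, v ∈ R ↔ ∃ w, X w - w = v := fun {v} => by
      simp [hR, LinearMap.mem_range, sub_eq_iff_eq_add]
    have hRd : finrank F R = 2 * b := by
      have h := LinearMap.finrank_range_add_finrank_ker (X - (1 : F) • LinearMap.id)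
      rw [← hR, hker, finrank_V] at h
      omega
    have hrF : (r : F) ≠ 0 := fun h =>
      hrp ((Nat.prime_dvd_prime_iff_eq Fact.out hr).1 ((CharP.cast_eq_zero_iff F p r).1 h)).symm
    have hRC : ∀ v ∈ R, X v = v → v = 0 := by
      intro v hv hXv
      obtain ⟨w, rfl⟩ := hRmem.1 hv
      have hpow : ∀ k : ℕ, (X ^ k) w = w + (k : F) • (X w - w) := by
        intro k
        induction k with
        | zero => simp
        | succ k ih =>
          rw [pow_succ', Module.End.mul_apply, ih, map_add, map_smul, hXv, Nat.cast_succ, add_smul, one_smul]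
          abel
      have := hpow r
      rw [hAr, left_eq_add] at this
      exact (smul_eq_zero.1 this).resolve_left hrF
    have horth : ∀ c ∈ C, ∀ v ∈ R, B c v = 0 := by
      intro c hcC v hv
      obtain ⟨w, rfl⟩ := hRmem.1 hv
      rw [map_sub, sub_eq_zero]
      conv_lhs => rw [← hfix.1 hcC]
      exact hXi c w
    have hXR : Inv X R := fun v hv => by
      obtain ⟨w, rfl⟩ := hRmem.1 hv
      exact hRmem.2 ⟨X w, by rw [map_sub]⟩
    have hJR : ∀ v ∈ R, J v ∈ R := fun v hv => by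
      obtain ⟨w, rfl⟩ := hRmem.1 hv
      exact hRmem.2 ⟨J w, by rw [map_sub, ← Module.End.mul_apply, ← hJX.eq, Module.End.mul_apply]⟩
    obtain ⟨v₁, hv₁, hv₁0⟩ := Submodule.exists_mem_ne_zero_of_ne_bot (p := R) fun h => by
      rw [h, finrank_bot] at hRd; omega
    let Lh : Polynomial F →ₗ[F] V' :=
      { toFun := fun h => Polynomial.aeval X h v₁
        map_add' := fun a b => by simp
        map_smul' := fun c a => by simp }
    have hU : LinearMap.range Lh = R := by
      have hle : LinearMap.range Lh ≤ R := by rintro _ ⟨h, rfl⟩; exact hXR.aeval h v₁ hv₁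
      refine Submodule.eq_of_le_of_finrank_le hle ?_
      have hinv : Inv X (LinearMap.range Lh) := by
        rintro _ ⟨h, rfl⟩
        exact ⟨Polynomial.X * h, by simp [Lh]⟩
      have h1 := orderOf_dvd_finrank (y := X) (fun v => hAr v) hinv fun v hv => hRC v (hle hv)
      rw [Nat.card_eq_fintype_card, ← hi, hb] at h1
      rw [hRd]
      refine Nat.le_of_dvd (Nat.pos_of_ne_zero fun h0 => hv₁0 ?_) h1
      have hm : v₁ ∈ LinearMap.range Lh := ⟨1, by simp [Lh]⟩
      rwa [Submodule.finrank_eq_zero.1 h0, Submodule.mem_bot] at hm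
    obtain ⟨Q, hQ⟩ : J v₁ ∈ LinearMap.range Lh := by rw [hU]; exact hJR v₁ hv₁
    replace hQ : Polynomial.aeval X Q v₁ = J v₁ := hQ
    have hJQ : ∀ v ∈ R, J v = Polynomial.aeval X Q v := by
      intro v hv
      obtain ⟨h, rfl⟩ : v ∈ LinearMap.range Lh := by rw [hU]; exact hv
      show J (Polynomial.aeval X h v₁) = Polynomial.aeval X Q (Polynomial.aeval X h v₁)
      rw [← Module.End.mul_apply, (hJp h).eq, Module.End.mul_apply, ← hQ, ← Module.End.mul_apply,
        ← Module.End.mul_apply, ← map_mul, ← map_mul, mul_comm]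
    set mm := Fintype.card F ^ b with hmm
    obtain ⟨t, ht⟩ : Odd mm := hodd.pow
    have hmr : r ∣ mm + 1 := by
      rw [← ZMod.natCast_eq_zero_iff, hmm]
      push_cast
      have hb1 : (Fintype.card F : ZMod r) ^ b ≠ 1 := fun h => by
        have := Nat.le_of_dvd hb0 (hi ▸ orderOf_dvd_of_pow_eq_one h)
        omega
      have hb2 : ((Fintype.card F : ZMod r) ^ b) ^ 2 = 1 := by
        rw [← pow_mul, mul_comm, ← hb, hi, pow_orderOf_eq_one]
      rw [(sq_eq_one_iff.1 hb2).resolve_left hb1, neg_add_cancel]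
    have hXr : X ^ r = 1 := LinearMap.ext hAr
    have hXm : ∀ v, X ((X ^ mm) v) = v := fun v => by
      obtain ⟨k, hk⟩ := hmr
      rw [← Module.End.mul_apply, ← pow_succ', hk, pow_mul, hXr, one_pow, Module.End.one_apply]
    have hadj : ∀ (h : Polynomial F) u w, B (Polynomial.aeval X h u) w = B u (Polynomial.aeval (X ^ mm) h w) := by
      have h1 : ∀ u w, B (X u) w = B u ((X ^ mm) w) := fun u w => by
        conv_lhs => rw [← hXm w]
        exact hXi _ _
      have hpow : ∀ (k : ℕ) u w, B ((X ^ k) u) w = B u (((X ^ mm) ^ k) w) := by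
        intro k
        induction k with
        | zero => intro u w; simp
        | succ k ih =>
          intro u w
          rw [pow_succ, Module.End.mul_apply, ih, h1, pow_succ' (X ^ mm), Module.End.mul_apply]
      intro h
      induction h using Polynomial.induction_on' with
      | add a b ha hb => intro u w; simp only [map_add, LinearMap.add_apply, ha, hb]
      | monomial k c =>
        intro u w
        simp only [Polynomial.aeval_monomial, Module.End.mul_apply, Module.algebraMap_end_apply, map_smul,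
          LinearMap.smul_apply, hpow]
    have hJm : ∀ v ∈ R, (Polynomial.aeval X Q ^ mm) v = J v := by
      have hpow : ∀ k : ℕ, ∀ v ∈ R, (Polynomial.aeval X Q ^ k) v = (J ^ k) v := by
        intro k
        induction k with
        | zero => intro v _; rfl
        | succ k ih =>
          intro v hv
          rw [pow_succ, pow_succ, Module.End.mul_apply, Module.End.mul_apply, ← hJQ v hv, ih _ (hJR v hv)]
      have hJ2 : J ^ 2 = ν • (1 : Module.End F V') :=
        LinearMap.ext fun v => by rw [sq, Module.End.mul_apply, hJJ]; rfl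
      intro v hv
      rw [hpow mm v hv, ht, pow_succ, pow_mul, hJ2, Module.End.mul_apply, smul_pow, one_pow,
        LinearMap.smul_apply, Module.End.one_apply]
      have hνt : ν ^ t = 1 := by
        obtain ⟨k, hk⟩ := hbe
        obtain ⟨c, hc'⟩ : Fintype.card F ^ 2 - 1 ∣ mm - 1 := by
          rw [hmm, hk, ← two_mul, pow_mul]
          simpa using Nat.sub_dvd_pow_sub_pow (Fintype.card F ^ 2) 1 k
        obtain ⟨s, hs⟩ : 2 ∣ Fintype.card F + 1 := hodd.add_one.two_dvd
        have hts : t = (Fintype.card F - 1) * (s * c) := by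
          have e : Fintype.card F ^ 2 - 1 = (Fintype.card F + 1) * (Fintype.card F - 1) := by
            rw [← Nat.sq_sub_sq, one_pow]
          rw [e, hs, ht, Nat.add_sub_cancel] at hc'
          refine Nat.eq_of_mul_eq_mul_left two_pos (hc'.trans ?_)
          ring
        rw [hts, pow_mul, FiniteField.pow_card_sub_one_eq_one ν hν0, one_pow]
      rw [hνt, one_smul]
    have hzero : ∀ u ∈ R, ∀ w ∈ R, B (J u) w = 0 := fun u hu w hw => by
      have h := hadj Q u w
      rw [← hJQ u hu, ← Polynomial.expand_aeval, hmm, expand_pow_card, ← hmm, map_pow, hJm w hw] at h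
      have h' : (2 : F) * B (J u) w = 0 := by linear_combination h + hJ u w
      exact (mul_eq_zero.1 h').resolve_left h2
    have htop : C ⊔ R = ⊤ := by
      refine Submodule.eq_top_of_finrank_eq ?_
      have hs := Submodule.finrank_sup_add_finrank_inf_eq C R
      have hinf : C ⊓ R = ⊥ := eq_bot_iff.2 fun v hv => (Submodule.mem_bot F).2 (hRC v hv.2 (hfix.1 hv.1))
      rw [hinf, finrank_bot, hRd, hker] at hs
      rw [finrank_V]; omega
    have hJv : J v₁ = 0 := hB _ fun w => by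
      obtain ⟨c, hcC, w', hw', rfl⟩ := Submodule.mem_sup.1 (htop ▸ Submodule.mem_top : w ∈ C ⊔ R)
      rw [map_add, ← hA.neg_eq c (J v₁), horth c hcC _ (hJR v₁ hv₁), hzero v₁ hv₁ w' hw', neg_zero, zero_add]
    have := hJJ v₁
    rw [hJv, map_zero, eq_comm, smul_eq_zero] at this
    exact this.elim hν0 hv₁0

end


/-- Elements of prime order of PSp_n(q), q odd, and the subgroups of type GU_{n/2}(q). Here `T = PSp_{2d}(F)` for a field `F` with `q` elements, `q` odd, `d ≥ 2`, realised through the matrices preserving the standard alternating form `f`; `K` is a subalgebra of the `2d × 2d` matrices that is a field of degree 2 over `F`, closed under taking adjoints for `f` but not consisting of self-adjoint elements (so `F^{2d}` becomes a `d`-dimensional space over `K ≅ F_{q²}` on which `f` is the trace of a multiple of a non-degenerate hermitian form); `H` is the subgroup of `T` normalizing `K` — the symplectic maps that are `K`-linear or `K`-semilinear,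 a subgroup of type GU_d(q) (maximality is not assumed). Ω is the set of cosets of `H` in `T`, so an element of `T` of prime order `r` (`x ∈ T` with `x^r` scalar, `x` not scalar) fixes a point of Ω exactly when some `T`-conjugate of `x` normalizes `K`. Let `r` be a prime dividing the index of `H`. Then every element of `T` of order `r` fixes a point of Ω if and only if `r = 2`. -/
theorem result {F : Type*} [Field F] [Fintype F] {p : ℕ} [Fact p.Prime] [CharP F p] {q : ℕ} (hq : Fintype.card F = q)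
    (hodd : Odd q) (d : ℕ) (hd : 2 ≤ d)
    (K : Subalgebra F (Matrix (Fin d ⊕ Fin d) (Fin d ⊕ Fin d) F)) (hK : Cfsg.Geo.IsFieldSubalgebra 2 K)
    (hKf : Cfsg.Geo.IsAdjointClosedFor (Cfsg.sympForm d F) K) (hKns : ¬ Cfsg.Geo.IsSelfAdjointFor (Cfsg.sympForm d F) K)
    (r : ℕ) [Fact r.Prime]
    (hΩ : r ∣ (Cfsg.Geo.subalgebraNormalizer K).relIndex (Cfsg.spGL d F)) :
    (∀ x ∈ Cfsg.spGL d F, (∃ z : F, ((x ^ r : GL (Fin d ⊕ Fin d) F) : Matrix (Fin d ⊕ Fin d) (Fin d ⊕ Fin d) F) = z • (1 : Matrix (Fin d ⊕ Fin d) (Fin d ⊕ Fin d) F)) →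
      (∀ z : F, (x : Matrix (Fin d ⊕ Fin d) (Fin d ⊕ Fin d) F) ≠ z • (1 : Matrix (Fin d ⊕ Fin d) (Fin d ⊕ Fin d) F)) →
      ∃ g ∈ Cfsg.spGL d F, g⁻¹ * x * g ∈ Cfsg.Geo.subalgebraNormalizer K) ↔ r = 2 := by
  classical
  subst hq
  obtain ⟨k₀, hk₀K, ν, hns, hν, hskew, hgen⟩ := exists_gen hodd (by omega) hK hKf hKns
  have hν0 : ν ≠ 0 := fun h => hns (h ▸ IsSquare.zero)
  have hiff := fun {x : GL (Fin d ⊕ Fin d) F} (hx : x ∈ Cfsg.spGL d F) =>
    conj_iff hodd (by omega) hk₀K hν0 hν hskew hgen hx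
  have hr : r.Prime := Fact.out
  constructor
  · intro h
    by_contra hr2
    obtain ⟨x, hx, hxr, hno⟩ := derangement (d := d) hd hodd (p := p) hns hr2 fun hrp => by
      refine dvd_index (by omega) hodd hk₀K hns hν hskew hgen (fun hq => ?_) hΩ
      obtain ⟨e, -, he⟩ := FiniteField.card F p
      rw [he] at hq
      exact hrp ((Nat.prime_dvd_prime_iff_eq hr Fact.out).1 (hr.dvd_of_dvd_pow hq))
    have hxr' : ((x ^ r : GL (Fin d ⊕ Fin d) F) : Matrix (Fin d ⊕ Fin d) (Fin d ⊕ Fin d) F) =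
        (1 : F) • (1 : Matrix (Fin d ⊕ Fin d) (Fin d ⊕ Fin d) F) := by
      rw [one_smul, Units.val_pow_eq_pow_val]
      refine Matrix.toLin'.injective (LinearMap.ext fun v => ?_)
      rw [Matrix.toLin'_pow, hxr, Matrix.toLin'_one]; rfl
    have hxs : ∀ z : F, (x : Matrix (Fin d ⊕ Fin d) (Fin d ⊕ Fin d) F) ≠ z • 1 := fun z hz => by
      refine hno ⟨Matrix.toLin' k₀, fun u v => by simpa [Matrix.toLin'_apply] using hskew u v,
        fun v => by rw [Matrix.toLin'_apply, Matrix.toLin'_apply, Matrix.mulVec_mulVec, hν, Matrix.smul_mulVec,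
          Matrix.one_mulVec], fun v => ?_⟩
      simp only [hz, Matrix.smul_mulVec, Matrix.one_mulVec, map_smul]
    obtain ⟨J, s, hs, hJ, hJJ, hc⟩ := (hiff hx).1 (h x hx ⟨1, hxr'⟩ hxs)
    rcases sq_eq_one_iff.1 hs with rfl | rfl
    · exact hno ⟨J, hJ, hJJ, fun v => by rw [hc, one_smul]⟩
    · set X := Matrix.toLin' (x : Matrix (Fin d ⊕ Fin d) (Fin d ⊕ Fin d) F) with hX
      have hpow : ∀ (k : ℕ) v, (X ^ k) (J v) = (-1 : F) ^ k • J ((X ^ k) v) := by
        intro k
        induction k with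
        | zero => intro v; simp
        | succ k ih =>
          intro v
          have e : X (J v) = (-1 : F) • J (X v) := by simp only [hX, Matrix.toLin'_apply]; exact hc v
          rw [pow_succ, Module.End.mul_apply, e, map_smul, ih, smul_smul, Module.End.mul_apply, pow_succ']
      obtain ⟨w, w', hw⟩ := exists_pairing (F := F) (show 0 < d by omega)
      have hJw := hpow r w
      rw [hxr, hxr, (hr.odd_of_ne_two hr2).neg_one_pow, neg_one_smul] at hJw
      have hJ0 : J w = 0 := by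
        have : (2 : F) • J w = 0 := by rw [two_smul]; exact eq_neg_iff_add_eq_zero.1 hJw
        exact (smul_eq_zero.1 this).resolve_left (two_ne hodd)
      have h0 := hJJ w
      rw [hJ0, map_zero, eq_comm, smul_eq_zero] at h0
      refine h0.elim hν0 fun h0 => hw ?_
      rw [h0, map_zero, LinearMap.zero_apply]
  · rintro rfl x hx ⟨z, hz⟩ -
    refine (hiff hx).2 (two_case hodd ν hx (z := z) ?_ fun v => ?_)
    · obtain ⟨u, v, huv⟩ := exists_pairing (F := F) (show 0 < d by omega)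
      have h := S5975.stdB_spGL (pow_mem hx 2) u v
      rw [hz, Matrix.smul_mulVec, Matrix.smul_mulVec, Matrix.one_mulVec, Matrix.one_mulVec, map_smul, map_smul,
        LinearMap.smul_apply, smul_eq_mul, smul_eq_mul, ← mul_assoc] at h
      exact (sq z).trans (mul_right_cancel₀ huv (h.trans (one_mul _).symm))
    · rw [Matrix.mulVec_mulVec, ← pow_two, ← Units.val_pow_eq_pow_val, hz, Matrix.smul_mulVec, Matrix.one_mulVec]

end Cfsg.Agent.S5976
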