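import Cfsg.Statements.S5978
import Cfsg.Agent.Lib.Elusive.OrthFieldExtMain
import Cfsg.Agent.Lib.Classical.QuadOmega.SingularApply

set_option autoImplicit false
open scoped MatrixGroups
open Cfsg

namespace Cfsg.Agent.S5978
open Cfsg.Agent.Lib.Elusive Cfsg.Agent.Lib.Classical.Quad Cfsg.Agent.Lib.Classical.QuadOmega Cfsg.Agent.Lib.Classical.QuadF2

/-- Elements of prime order of PΩ⁻_n(q), q odd, and the field-extension subgroups of degree 2 (orthogonal type over F_{q²}). Here `T = PΩ⁻_{2d}(F)` for a field `F` with `q` elements, `q` odd, `d ≥ 4`, realised through `Ω⁻_{2d}(q)`, the commutator subgroup of the isometry group of `Q = Σ_{i<d−1} xᵢyᵢ + z₁² + a z₁z₂ + b z₂²` with `z₁² + a z₁z₂ + b z₂²` anisotropic, with polar form `B`; `K` is a subalgebra of the `2d × 2d` matrices that is a field of degree 2 over `F` whose elements are self-adjoint for `B` (so `F^{2d}` becomes a `d`-dimensional space over `K ≅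 F_{q²}` on which `B` is the trace of a `K`-bilinear symmetric form); `H` is the subgroup of `Ω⁻_{2d}(q)` normalizing `K` — the elements of `Ω⁻_{2d}(q)` that are `K`-linear or `K`-semilinear, a subgroup of orthogonal type over the quadratic extension (maximality is not assumed). Ω is the set of cosets of `H`, so an element of `T` of prime order `r` (`x ∈ Ω⁻_{2d}(q)` with `x^r` scalar, `x` not scalar) fixes a point of Ω exactly when some `Ω⁻_{2d}(q)`-conjugate of `x` normalizes `K`. Let `r` be a prime dividing the index of `H`. Then every element of `T` of order `r` fixes a point of Ω if and only if `r = 2`. -/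
theorem result {F : Type*} [Field F] [Fintype F] {p : ℕ} [Fact p.Prime] [CharP F p] {q : ℕ} (hq : Fintype.card F = q)
    (hodd : Odd q) (d : ℕ) (hd : 4 ≤ d) (a b : F) (hab : ∀ x y : F, x ^ 2 + a * x * y + b * y ^ 2 = 0 → x = 0 ∧ y = 0)
    (K : Subalgebra F (Matrix ((Fin (d - 1) ⊕ Fin (d - 1)) ⊕ Fin 2) ((Fin (d - 1) ⊕ Fin (d - 1)) ⊕ Fin 2) F)) (hK : Cfsg.Geo.IsFieldSubalgebra 2 K)
    (hKf : Cfsg.Geo.IsSelfAdjointFor (QuadraticMap.polar (Cfsg.quadFormMinus (d - 1) F a b)) K)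
    (r : ℕ) [Fact r.Prime]
    (hΩ : r ∣ (Cfsg.Geo.subalgebraNormalizer K).relIndex (Cfsg.Geo.omegaGL (Cfsg.quadFormMinus (d - 1) F a b))) :
    (∀ x ∈ Cfsg.Geo.omegaGL (Cfsg.quadFormMinus (d - 1) F a b), (∃ z : F, ((x ^ r : GL ((Fin (d - 1) ⊕ Fin (d - 1)) ⊕ Fin 2) F) : Matrix ((Fin (d - 1) ⊕ Fin (d - 1)) ⊕ Fin 2) ((Fin (d - 1) ⊕ Fin (d - 1)) ⊕ Fin 2) F) = z • (1 : Matrix ((Fin (d - 1) ⊕ Fin (d - 1)) ⊕ Fin 2) ((Fin (d - 1) ⊕ Fin (d - 1)) ⊕ Fin 2) F)) →
      (∀ z : F, (x : Matrix ((Fin (d - 1) ⊕ Fin (d - 1)) ⊕ Fin 2) ((Fin (d - 1) ⊕ Fin (d - 1)) ⊕ Fin 2) F) ≠ z • (1 : Matrix ((Fin (d - 1) ⊕ Fin (d - 1)) ⊕ Fin 2) ((Fin (d - 1) ⊕ Fin (d - 1)) ⊕ Fin 2) F)) →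
      ∃ g ∈ Cfsg.Geo.omegaGL (Cfsg.quadFormMinus (d - 1) F a b), g⁻¹ * x * g ∈ Cfsg.Geo.subalgebraNormalizer K) ↔ r = 2 := by
  subst hq
  have h2 : (2 : F) ≠ 0 := two_ne_zero_of_odd hodd
  have hco := OrthRows.coe_minusQ (F := F) (d - 1) a b
  rw [← hco] at hΩ hKf ⊢
  exact OrthFieldExt.main h2 (by simp; omega) hd (nd_minusQ (fun x y h => hab x y h) (d - 1)) hK hKf (p := p) hΩ

end Cfsg.Agent.S5978
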