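import Cfsg.Statements.S5980
import Cfsg.Agent.S5976
import Cfsg.Agent.Lib.Elusive.TensorSymp

set_option autoImplicit false
open scoped MatrixGroups
open Cfsg
open Module Cfsg.Agent.Lib.Elusive Cfsg.Agent.Lib.Elusive.SympField Cfsg.Agent.Lib.Forms Cfsg.Agent.S5979 Cfsg.Agent.Lib.Elusive.TensorSymp
open scoped Kronecker Matrix

namespace Cfsg.Agent.S5980

section

universe u

variable {F : Type u} [Field F] [Fintype F] {a b d : ℕ}

local notation "V'" => (Fin d ⊕ Fin d → F)

/-- Coordinates for a conjugate of a Kronecker product. -/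
theorem model {e : (Fin d ⊕ Fin d) ≃ Fin a × Fin b} {P : GL (Fin d ⊕ Fin d) F}
    {f₁ : (Fin a → F) → (Fin a → F) → F} {f₂ : (Fin b → F) → (Fin b → F) → F}
    (hS : Cfsg.Geo.IsTensorFormStructure id (Cfsg.sympForm d F) f₁ f₂ e P)
    {x g : GL (Fin d ⊕ Fin d) F} (hx : x ∈ Cfsg.spGL d F) (hg : g ∈ Cfsg.spGL d F)
    (h : g⁻¹ * x * g ∈ Cfsg.Geo.tensorProductSubgroup a b e P) :
    ∃ (A : Matrix (Fin a) (Fin a) F) (B : Matrix (Fin b) (Fin b) F) (L : (Fin a × Fin b → F) ≃ₗ[F] V'),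
      (∀ v, L.symm (Matrix.toLin' (x : Matrix (Fin d ⊕ Fin d) (Fin d ⊕ Fin d) F) v) = Matrix.toLin' (A ⊗ₖ B) (L.symm v)) ∧
      (A ⊗ₖ B)ᵀ * (Cfsg.Geo.gramMatrix f₁ ⊗ₖ Cfsg.Geo.gramMatrix f₂) * (A ⊗ₖ B) =
        Cfsg.Geo.gramMatrix f₁ ⊗ₖ Cfsg.Geo.gramMatrix f₂ := by
  obtain ⟨c, hc0, hc⟩ := hS
  obtain ⟨_, ⟨k, ⟨A, B, hk⟩, rfl⟩, hP⟩ := h
  have hP' : P * Cfsg.Geo.glReindex e.symm k * P⁻¹ = g⁻¹ * x * g := hP
  have hx' : x * (g * P) = g * P * Cfsg.Geo.glReindex e.symm k := by
    have : g * (P * Cfsg.Geo.glReindex e.symm k * P⁻¹) = g * (g⁻¹ * x * g) := by rw [hP']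
    calc x * (g * P) = g * (g⁻¹ * x * g) * P := by group
      _ = _ := by rw [← this]; group
  set Q := g * P with hQ
  let M : V' ≃ₗ[F] V' :=
    { Matrix.toLin' (Q : Matrix (Fin d ⊕ Fin d) (Fin d ⊕ Fin d) F) with
      invFun := fun v => ((Q⁻¹ : GL (Fin d ⊕ Fin d) F) : Matrix (Fin d ⊕ Fin d) (Fin d ⊕ Fin d) F) *ᵥ v
      left_inv := fun v => by simp [Matrix.mulVec_mulVec]
      right_inv := fun v => by simp [Matrix.mulVec_mulVec] }
  let L := (LinearEquiv.funCongrLeft F F e).trans M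
  have hL : ∀ z, L z = (Q : Matrix (Fin d ⊕ Fin d) (Fin d ⊕ Fin d) F) *ᵥ (z ∘ e) := fun z => rfl
  have hR : ∀ z : Fin a × Fin b → F,
      ((Cfsg.Geo.glReindex e.symm k : GL (Fin d ⊕ Fin d) F) : Matrix (Fin d ⊕ Fin d) (Fin d ⊕ Fin d) F) *ᵥ (z ∘ e) =
        ((k : Matrix (Fin a × Fin b) (Fin a × Fin b) F) *ᵥ z) ∘ e := fun z => by
    show (k : Matrix (Fin a × Fin b) (Fin a × Fin b) F).submatrix e e *ᵥ (z ∘ e) = _
    rw [Matrix.submatrix_mulVec_equiv, Function.comp_assoc, Equiv.self_comp_symm, Function.comp_id]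
  have hxL : ∀ z, (x : Matrix (Fin d ⊕ Fin d) (Fin d ⊕ Fin d) F) *ᵥ L z =
      L ((k : Matrix (Fin a × Fin b) (Fin a × Fin b) F) *ᵥ z) := fun z => by
    rw [hL, hL, Matrix.mulVec_mulVec, ← Units.val_mul, hx', Units.val_mul, ← Matrix.mulVec_mulVec, hR]
  have hform : ∀ z w, stdB d F (L z) (L w) =
      c * Cfsg.Geo.formOfGram id (Cfsg.Geo.gramMatrix f₁ ⊗ₖ Cfsg.Geo.gramMatrix f₂) z w := fun z w => by
    rw [hL, hL, hQ, Units.val_mul, ← Matrix.mulVec_mulVec, ← Matrix.mulVec_mulVec, S5975.stdB_spGL hg,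
      stdB_apply, hc]
  refine ⟨(A : Matrix (Fin a) (Fin a) F), (B : Matrix (Fin b) (Fin b) F), L, fun v => ?_, gram_preserve.2 fun z w => mul_left_cancel₀ hc0 ?_⟩
  · obtain ⟨z, rfl⟩ := L.surjective v
    rw [Matrix.toLin'_apply, hxL, L.symm_apply_apply, L.symm_apply_apply, hk, Matrix.toLin'_apply]
  · rw [← hform, ← hform, ← hk, ← hxL, ← hxL, S5975.stdB_spGL hx]

/-- A test element with small moved space has no tensor conjugate. -/
theorem small_moved {e : (Fin d ⊕ Fin d) ≃ Fin a × Fin b} {P : GL (Fin d ⊕ Fin d) F}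
    {f₁ : (Fin a → F) → (Fin a → F) → F} {f₂ : (Fin b → F) → (Fin b → F) → F}
    (hS : Cfsg.Geo.IsTensorFormStructure id (Cfsg.sympForm d F) f₁ f₂ e P) (hab : 2 * d = a * b)
    {x g : GL (Fin d ⊕ Fin d) F} (hx : x ∈ Cfsg.spGL d F) (hg : g ∈ Cfsg.spGL d F)
    (h : g⁻¹ * x * g ∈ Cfsg.Geo.tensorProductSubgroup a b e P) {c : ℕ} (hcb : c < b)
    (hc : finrank F (LinearMap.ker (Matrix.toLin' (x : Matrix (Fin d ⊕ Fin d) (Fin d ⊕ Fin d) F) - (1 : F) • LinearMap.id)) +
      c = 2 * d) : a ∣ c := by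
  obtain ⟨A, B, L, hL, -⟩ := model hS hx hg h
  rw [ker_conj_eq hL] at hc
  exact not_dvd_of_fixed one_ne_zero (hc.trans hab) hcb

theorem not_scalar {x : GL (Fin d ⊕ Fin d) F} {c : ℕ} (hc0 : 0 < c) (hcd : c < 2 * d)
    (hc : finrank F (LinearMap.ker (Matrix.toLin' (x : Matrix (Fin d ⊕ Fin d) (Fin d ⊕ Fin d) F) - (1 : F) • LinearMap.id)) +
      c = 2 * d) (z : F) : (x : Matrix (Fin d ⊕ Fin d) (Fin d ⊕ Fin d) F) ≠ z • 1 := by
  intro hz
  have hk : Matrix.toLin' (x : Matrix (Fin d ⊕ Fin d) (Fin d ⊕ Fin d) F) - (1 : F) • LinearMap.id =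
      (z - 1) • (LinearMap.id : V' →ₗ[F] V') := by
    rw [hz, map_smul, Matrix.toLin'_one]; exact (sub_smul _ _ _).symm
  rw [hk] at hc
  have hn : finrank F V' = 2 * d := by simp [two_mul]
  rcases eq_or_ne z 1 with rfl | hz1
  · rw [sub_self, zero_smul, LinearMap.ker_zero, finrank_top, hn] at hc
    omega
  · rw [LinearMap.ker_smul _ _ (sub_ne_zero.2 hz1), LinearMap.ker_id, finrank_bot] at hc
    omega

theorem exists_flip (hodd : Odd (Fintype.card F)) (hd : 0 < d) :
    ∃ x ∈ Cfsg.spGL d F, (x : Matrix (Fin d ⊕ Fin d) (Fin d ⊕ Fin d) F) * (x : Matrix (Fin d ⊕ Fin d) (Fin d ⊕ Fin d) F) = 1 ∧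
      finrank F (LinearMap.ker (Matrix.toLin' (x : Matrix (Fin d ⊕ Fin d) (Fin d ⊕ Fin d) F) - (1 : F) • LinearMap.id)) + 2 =
        2 * d := by
  classical
  let i₀ : Fin d := ⟨0, hd⟩
  let s : Fin d ⊕ Fin d → F := fun z => if z.elim id id = i₀ then -1 else 1
  have hs : ∀ z, s z * s z = 1 := fun z => by simp only [s]; split_ifs <;> ring
  have hss : Matrix.diagonal s * Matrix.diagonal s = (1 : Matrix (Fin d ⊕ Fin d) (Fin d ⊕ Fin d) F) := by
    rw [Matrix.diagonal_mul_diagonal, ← Matrix.diagonal_one]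
    exact congrArg _ (funext hs)
  refine ⟨⟨Matrix.diagonal s, Matrix.diagonal s, hss, hss⟩, S5975.mem_spGL fun u v => ?_, hss, ?_⟩
  · rw [stdB_sum, stdB_sum]
    refine Finset.sum_congr rfl fun i _ => ?_
    rcases eq_or_ne i i₀ with hz | hz <;> simp [Matrix.mulVec_diagonal, s, hz]
  · show finrank F (LinearMap.ker (Matrix.toLin' (Matrix.diagonal s) - (1 : F) • LinearMap.id)) + 2 = 2 * d
    have hsub : Matrix.toLin' (Matrix.diagonal s) - (1 : F) • LinearMap.id = Matrix.toLin' (Matrix.diagonal fun i => s i - 1) := by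
      rw [← Matrix.diagonal_sub, map_sub, Matrix.diagonal_one, Matrix.toLin'_one, one_smul]
    have h := LinearMap.finrank_range_add_finrank_ker (Matrix.toLin' (Matrix.diagonal fun i => s i - 1))
    have hr := Matrix.rank_diagonal (fun i => s i - 1)
    have hr' : finrank F (LinearMap.range (Matrix.toLin' (Matrix.diagonal fun i => s i - 1))) =
        Fintype.card {i // s i - 1 ≠ 0} := hr
    have hcard : Fintype.card {i // s i - 1 ≠ 0} = 2 := by
      rw [Fintype.card_of_subtype ({Sum.inl i₀, Sum.inr i₀} : Finset (Fin d ⊕ Fin d)) fun z => by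
        have hne : (-1 : F) - 1 ≠ 0 := fun e => two_ne hodd (by linear_combination -e)
        rcases z with z | z <;> simp [s] <;> split_ifs with hz <;> simp [hz, hne]]
      simp
    rw [hr', hcard] at h
    rw [hsub]
    simp only [Module.finrank_pi, Fintype.card_sum, Fintype.card_fin] at h
    omega

theorem exists_transvection (hd : 0 < d) {p : ℕ} [CharP F p] :
    ∃ x ∈ Cfsg.spGL d F, ((x ^ p : GL (Fin d ⊕ Fin d) F) : Matrix (Fin d ⊕ Fin d) (Fin d ⊕ Fin d) F) = 1 ∧
      finrank F (LinearMap.ker (Matrix.toLin' (x : Matrix (Fin d ⊕ Fin d) (Fin d ⊕ Fin d) F) - (1 : F) • LinearMap.id)) + 1 =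
        2 * d := by
  classical
  set B := stdB d F with hBdef
  have hA : B.IsAlt := stdB_isAlt d
  let v₀ : V' := Pi.single (Sum.inl ⟨0, hd⟩) 1
  let w₀ : V' := Pi.single (Sum.inr ⟨0, hd⟩) 1
  have h0 : B w₀ v₀ ≠ 0 := S5975.stdB_single (F := F) _
  have hv0 : v₀ ≠ 0 := fun h => h0 (by rw [h, map_zero])
  refine ⟨sympT B v₀ 1, S5975.mem_spGL fun u v => (mem_isoGroup.1 (sympT_mem hA v₀ 1)) u v, ?_, ?_⟩
  · have hpow : ∀ (j : ℕ) w, (Matrix.toLin' (sympT B v₀ 1 : Matrix (Fin d ⊕ Fin d) (Fin d ⊕ Fin d) F) ^ j) w =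
        w + (j : F) • (B w v₀ • v₀) := by
      intro j
      induction j with
      | zero => intro w; simp
      | succ j ih =>
        intro w
        rw [pow_succ, Module.End.mul_apply, ih, Matrix.toLin'_apply, sympT_mulVec hA, one_mul]
        simp [hA.self_eq_zero, add_smul]
        abel
    refine Matrix.toLin'.injective (LinearMap.ext fun v => ?_)
    rw [Units.val_pow_eq_pow_val, Matrix.toLin'_pow, hpow, CharP.cast_eq_zero, zero_smul, add_zero, Matrix.toLin'_one,
      LinearMap.id_apply]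
  · have hk : LinearMap.ker (Matrix.toLin' (sympT B v₀ 1 : Matrix (Fin d ⊕ Fin d) (Fin d ⊕ Fin d) F) - (1 : F) • LinearMap.id) =
        LinearMap.ker (B.flip v₀) := by
      ext w
      simp [sympT_mulVec hA, hv0]
    have hsum := LinearMap.finrank_range_add_finrank_ker (B.flip v₀)
    rw [LinearMap.range_eq_top.2 (LinearMap.surjective (fun h => h0 (LinearMap.congr_fun h w₀))), finrank_top,
      Module.finrank_self] at hsum
    simp only [Module.finrank_pi, Fintype.card_sum, Fintype.card_fin] at hsum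
    rw [hk]; omega

end

/-- Elements of prime order of PSp_n(q), q odd, and the stabilizers of tensor decompositions Sp_a(q) ⊗ O_b(q). Here `T = PSp_{2d}(F)` for a field `F` with `q` elements, `q` odd, `d ≥ 2`, realised through the matrices preserving the standard alternating form `f`; `2d = a·b` with `a` even, `b ≥ 3`, and the bijection `e` and change of basis `P` exhibit `f` as a non-zero scalar multiple of the tensor product of a non-degenerate alternating form `f₁` on `F^a` and a non-degenerate symmetric bilinear form `f₂` on `F^b`; `H` is the subgroup of `T` stabilizing this tensor decomposition (the elements of `T` in the conjugate by `P` of the group of Kronecker products) — a subgroup of type Sp_a(q) ⊗ O^ε_b(q) (maximality is not assumed). Ω is the set of cosets of `H` in `T`, so an element of `T` of prime order `r` (`x ∈ T` with `x^r` scalar, `x` not scalar) fixes a point of Ω exactly when some `T`-conjugate of `x` lies in `H`. Let `r` be a prime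 dividing the index of `H`. Then every element of `T` of order `r` fixes a point of Ω if and only if `r = 2` and `a = 2`. -/
theorem result {F : Type*} [Field F] [Fintype F] {p : ℕ} [Fact p.Prime] [CharP F p] {q : ℕ} (hq : Fintype.card F = q)
    (hodd : Odd q) (d : ℕ) (hd : 2 ≤ d) (a b : ℕ) (hab : 2 * d = a * b) (ha : Even a) (ha2 : 2 ≤ a) (hb : 3 ≤ b)
    (e : (Fin d ⊕ Fin d) ≃ Fin a × Fin b) (P : GL (Fin d ⊕ Fin d) F)
    (f₁ : (Fin a → F) → (Fin a → F) → F) (f₂ : (Fin b → F) → (Fin b → F) → F)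
    (hf₁ : Cfsg.Geo.IsSymplecticForm f₁) (hf₂ : Cfsg.Geo.IsSymmetricForm f₂)
    (hS : Cfsg.Geo.IsTensorFormStructure id (Cfsg.sympForm d F) f₁ f₂ e P)
    (r : ℕ) [Fact r.Prime]
    (hΩ : r ∣ (Cfsg.Geo.tensorProductSubgroup a b e P).relIndex (Cfsg.spGL d F)) :
    (∀ x ∈ Cfsg.spGL d F, (∃ z : F, ((x ^ r : GL (Fin d ⊕ Fin d) F) : Matrix (Fin d ⊕ Fin d) (Fin d ⊕ Fin d) F) = z • (1 : Matrix (Fin d ⊕ Fin d) (Fin d ⊕ Fin d) F)) →
      (∀ z : F, (x : Matrix (Fin d ⊕ Fin d) (Fin d ⊕ Fin d) F) ≠ z • (1 : Matrix (Fin d ⊕ Fin d) (Fin d ⊕ Fin d) F)) →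
      ∃ g ∈ Cfsg.spGL d F, g⁻¹ * x * g ∈ Cfsg.Geo.tensorProductSubgroup a b e P) ↔ (r = 2 ∧ a = 2) := by
  classical
  subst hq
  have hr : r.Prime := Fact.out
  have h2 : (2 : F) ≠ 0 := two_ne hodd
  have hA : (stdB d F).IsAlt := stdB_isAlt d
  have hB := (stdB_nondegenerate (F := F) d).1
  have hp2 : p ≠ 2 := fun h => by
    subst h
    exact h2 (by exact_mod_cast CharP.cast_eq_zero F 2)
  constructor
  · intro h
    have hpow1 : ∀ {x : GL (Fin d ⊕ Fin d) F}, ((x ^ r : GL (Fin d ⊕ Fin d) F) : Matrix (Fin d ⊕ Fin d) (Fin d ⊕ Fin d) F) = 1 →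
        ∃ z : F, ((x ^ r : GL (Fin d ⊕ Fin d) F) : Matrix (Fin d ⊕ Fin d) (Fin d ⊕ Fin d) F) = z • 1 :=
      fun hx => ⟨1, by rw [hx, one_smul]⟩
    have hbad : ∀ (x : GL (Fin d ⊕ Fin d) F) (c : ℕ), x ∈ Cfsg.spGL d F →
        ((x ^ r : GL (Fin d ⊕ Fin d) F) : Matrix (Fin d ⊕ Fin d) (Fin d ⊕ Fin d) F) = 1 → 0 < c → c < b →
        finrank F (LinearMap.ker (Matrix.toLin' (x : Matrix (Fin d ⊕ Fin d) (Fin d ⊕ Fin d) F) - (1 : F) • LinearMap.id)) +
          c = 2 * d → a ∣ c := by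
      intro x c hx hxr hc0 hcb hc
      obtain ⟨g, hg, hgx⟩ := h x hx (hpow1 hxr) (not_scalar hc0 (by
        have : 1 * b ≤ a * b := Nat.mul_le_mul_right b (by omega)
        omega) hc)
      exact small_moved hS hab hx hg hgx hcb hc
    by_cases hrp : r = p
    · exfalso
      subst hrp
      obtain ⟨x, hx, hxr, hc⟩ := exists_transvection (F := F) (d := d) (p := r) (by omega)
      have := Nat.le_of_dvd one_pos (hbad x 1 hx hxr one_pos (by omega) hc)
      omega
    rcases eq_or_ne r 2 with hr2 | hr2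
    · subst hr2
      refine ⟨rfl, ?_⟩
      obtain ⟨x, hx, hxx, hc⟩ := exists_flip (F := F) (d := d) hodd (by omega)
      have := Nat.le_of_dvd two_pos (hbad x 2 hx (by rw [Units.val_pow_eq_pow_val, pow_two, hxx]) two_pos (by omega) hc)
      omega
    exfalso
    set i := orderOf (Fintype.card F : ZMod r) with hi
    obtain ⟨f, -, hf⟩ := FiniteField.card F p
    have hrq : ¬ r ∣ Fintype.card F := fun h => by
      rw [hf] at h
      exact hrp ((Nat.prime_dvd_prime_iff_eq hr Fact.out).1 (hr.dvd_of_dvd_pow h))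
    have hdvd := hΩ.trans (Subgroup.relIndex_dvd_card _ _)
    rw [S5975.card_spGL] at hdvd
    obtain ⟨j, hj, hjd⟩ := ((hr.prime.dvd_finsetProd_iff _).1 ((hr.dvd_mul.1 hdvd).resolve_left fun h =>
      hrq (hr.dvd_of_dvd_pow h)))
    rw [Finset.mem_range] at hj
    have hij : i ∣ 2 * (j + 1) := by
      refine orderOf_dvd_of_pow_eq_one ?_
      rw [← ZMod.natCast_eq_zero_iff, Nat.cast_sub (Nat.one_le_pow _ _ Fintype.card_pos), sub_eq_zero,
        Nat.cast_pow, Nat.cast_one] at hjd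
      exact hjd
    have hi0 : 0 < i := Nat.pos_of_dvd_of_pos hij (by omega)
    obtain ⟨x, hx, hxr, c, hc0, hc, hc2, hce, hcd⟩ : ∃ x ∈ Cfsg.spGL d F,
        (∀ v, (Matrix.toLin' (x : Matrix (Fin d ⊕ Fin d) (Fin d ⊕ Fin d) F) ^ r) v = v) ∧ ∃ c, 0 < c ∧
        finrank F (LinearMap.ker (Matrix.toLin' (x : Matrix (Fin d ⊕ Fin d) (Fin d ⊕ Fin d) F) - (1 : F) • LinearMap.id)) +
          c = 2 * d ∧ c ≤ 2 * i ∧ (Even i → c ≤ i) ∧ (i = 1 → c < 2 * d) := by
      rcases Nat.even_or_odd i with hev | hio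
      · obtain ⟨b', hb'⟩ := hev
        rw [← two_mul] at hb'
        have hbd : b' ≤ d := (Nat.le_of_dvd (by omega) (Nat.dvd_of_mul_dvd_mul_left two_pos (hb' ▸ hij))).trans hj
        obtain ⟨A, hAr, hk⟩ := exists_symp_elt (F := F) hrp hr2 (b := b') (hi ▸ hb') (d := d) (t := 1) (s := d - b')
          (by omega)
        exact ⟨spToGL d F A, S5975.mem_spGL (g := spToGL d F A) fun u v => (stdB_iff_matrix d _).2 A.2 u v, hAr, i, hi0,
          by rw [spToGL_val, hk]; omega, by omega, fun _ => le_rfl, fun h => by omega⟩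
      · have hid : i ≤ d := (Nat.le_of_dvd (by omega) (((Nat.coprime_two_right).2 hio).dvd_of_dvd_mul_left hij)).trans hj
        obtain ⟨A, g, W, hAr, hker, hW, hWd⟩ := exists_pair_elt (F := F) hrp hr2 (hi ▸ hio) (hi ▸ hid)
        rw [← hi] at hker hWd
        set X := Matrix.toLin' (A : Matrix (Fin d ⊕ Fin d) (Fin d ⊕ Fin d) F)
        have hle : W ≤ LinearMap.ker (X - (1 : F) • LinearMap.id) := fun v hv => by
          simp [hW v hv]
        have hWk := (Submodule.finrank_mono hle)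
        have hfin : finrank F (Fin d ⊕ Fin d → F) = 2 * d := by simp [two_mul]
        have hkle := (LinearMap.ker (X - (1 : F) • LinearMap.id)).finrank_le
        rw [hfin] at hkle
        have hne : finrank F (LinearMap.ker (X - (1 : F) • LinearMap.id)) ≠ 2 * d := fun hfull => by
          have hX1 : X = 1 := by
            have := Submodule.eq_top_of_finrank_eq (hfull.trans hfin.symm)
            rw [sub_eq_zero.1 (LinearMap.ker_eq_top.1 this), one_smul]; rfl
          rw [hX1, ← map_one (algebraMap F (Module.End F (Fin d ⊕ Fin d → F))), Polynomial.aeval_algebraMap_apply,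
            Algebra.algebraMap_eq_smul_one] at hker
          by_cases h0 : Polynomial.aeval (1 : F) g = 0
          · rw [h0, zero_smul, LinearMap.ker_zero, finrank_top, hfin] at hker
            obtain ⟨t, ht⟩ := hio
            omega
          · rw [LinearMap.ker_smul _ _ h0, Module.End.one_eq_id, LinearMap.ker_id, finrank_bot] at hker
            omega
        refine ⟨spToGL d F A, S5975.mem_spGL (g := spToGL d F A) fun u v => (stdB_iff_matrix d _).2 A.2 u v,
          fun v => by rw [spToGL_val]; exact LinearMap.congr_fun hAr v,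
          2 * d - finrank F (LinearMap.ker (X - (1 : F) • LinearMap.id)), by omega, by
            exact Nat.add_sub_cancel' hkle,
          by omega, fun he => absurd he (Nat.not_even_iff_odd.2 hio), fun h => by omega⟩
    have hxr' : ((x ^ r : GL (Fin d ⊕ Fin d) F) : Matrix (Fin d ⊕ Fin d) (Fin d ⊕ Fin d) F) = 1 := by
      rw [Units.val_pow_eq_pow_val]
      refine Matrix.toLin'.injective (LinearMap.ext fun v => ?_)
      rw [Matrix.toLin'_pow, hxr, Matrix.toLin'_one, LinearMap.id_apply]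
    have hxs : ∀ z : F, (x : Matrix (Fin d ⊕ Fin d) (Fin d ⊕ Fin d) F) ≠ z • 1 := by
      rcases lt_or_ge c (2 * d) with hlt | hge
      · exact not_scalar hc0 hlt hc
      intro z hz
      have hi2 : i ≠ 1 := fun h => by have := hcd h; omega
      rw [Units.val_pow_eq_pow_val, hz, smul_pow, one_pow] at hxr'
      have hzr : z ^ r = 1 := by
        have := congrFun (congrFun hxr' (Sum.inl ⟨0, by omega⟩)) (Sum.inl ⟨0, by omega⟩)
        simpa using this
      have hz0 : z ≠ 0 := fun e => by rw [e, zero_pow hr.ne_zero] at hzr; exact zero_ne_one hzr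
      have hz1 : z ≠ 1 := fun e => by
        rw [hz, e, map_smul, Matrix.toLin'_one, sub_self, LinearMap.ker_zero, finrank_top] at hc
        simp at hc; omega
      have h3 : orderOf z = r := ((Nat.dvd_prime hr).1 (orderOf_dvd_of_pow_eq_one hzr)).resolve_left fun e =>
        hz1 (orderOf_eq_one_iff.1 e)
      refine hi2 (dvd_card_sub_one_iff.1 ?_)
      exact h3 ▸ orderOf_dvd_of_pow_eq_one (FiniteField.pow_card_sub_one_eq_one z hz0)
    obtain ⟨g, hg, hgx⟩ := h x hx (hpow1 hxr') hxs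
    obtain ⟨A, B, L, hL, hgram⟩ := model hS hx hg hgx
    rw [ker_conj_eq hL] at hc
    refine no_kron hr2 hrp h2 ha ha2 hb hf₁ hf₂ hgram ?_ hc0 (hc.trans hab) hc2 hce
    apply Matrix.toLin'.injective
    rw [Matrix.toLin'_one, Matrix.toLin'_pow]
    refine LinearMap.ext fun w => ?_
    obtain ⟨v, rfl⟩ := L.symm.surjective w
    have hp' := pow_conj hL r v
    rw [hxr] at hp'
    exact hp'.symm
  · rintro ⟨rfl, rfl⟩ x hx ⟨z, hz⟩ -
    obtain rfl : d = b := by omega
    obtain ⟨c, hc0, hc⟩ := hS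
    set G₁ := Cfsg.Geo.gramMatrix f₁ with hG₁
    set G₂ := Cfsg.Geo.gramMatrix f₂ with hG₂
    have member : ∀ (A : GL (Fin 2) F) (B : GL (Fin d) F),
        (A : Matrix (Fin 2) (Fin 2) F)ᵀ * G₁ * A = G₁ → (B : Matrix (Fin d) (Fin d) F)ᵀ * G₂ * B = G₂ →
        ∃ y ∈ Cfsg.spGL d F, y ∈ Cfsg.Geo.tensorProductSubgroup 2 d e P ∧
          ∃ T : (Fin 2 × Fin d → F) ≃ₗ[F] (Fin d ⊕ Fin d → F), ∀ w,
            Matrix.toLin' (y : Matrix (Fin d ⊕ Fin d) (Fin d ⊕ Fin d) F) (T w) =
              T (Matrix.toLin' ((A : Matrix (Fin 2) (Fin 2) F) ⊗ₖ (B : Matrix (Fin d) (Fin d) F)) w) := by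
      intro A B hA1 hB1
      let M : (Fin d ⊕ Fin d → F) ≃ₗ[F] (Fin d ⊕ Fin d → F) :=
        { Matrix.toLin' (P : Matrix (Fin d ⊕ Fin d) (Fin d ⊕ Fin d) F) with
          invFun := fun v => ((P⁻¹ : GL (Fin d ⊕ Fin d) F) : Matrix (Fin d ⊕ Fin d) (Fin d ⊕ Fin d) F) *ᵥ v
          left_inv := fun v => by simp [Matrix.mulVec_mulVec]
          right_inv := fun v => by simp [Matrix.mulVec_mulVec] }
      let T := (LinearEquiv.funCongrLeft F F e).trans M
      have hT : ∀ w, T w = (P : Matrix (Fin d ⊕ Fin d) (Fin d ⊕ Fin d) F) *ᵥ (w ∘ e) := fun w => rfl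
      set y := P * Cfsg.Geo.glReindex e.symm (kronGL A B) * P⁻¹ with hy
      have hyT : ∀ w, (y : Matrix (Fin d ⊕ Fin d) (Fin d ⊕ Fin d) F) *ᵥ T w =
          T (((A : Matrix (Fin 2) (Fin 2) F) ⊗ₖ (B : Matrix (Fin d) (Fin d) F)) *ᵥ w) := fun w => by
        rw [hT, hT, Matrix.mulVec_mulVec, ← Units.val_mul, hy, inv_mul_cancel_right, Units.val_mul, ← Matrix.mulVec_mulVec]
        congr 1
        show ((A : Matrix (Fin 2) (Fin 2) F) ⊗ₖ (B : Matrix (Fin d) (Fin d) F)).submatrix e e *ᵥ (w ∘ e) = _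
        rw [Matrix.submatrix_mulVec_equiv, Function.comp_assoc, Equiv.self_comp_symm, Function.comp_id]
      refine ⟨y, S5975.mem_spGL fun u v => ?_, ⟨_, ⟨kronGL A B, ⟨A, B, rfl⟩, rfl⟩, rfl⟩, T, fun w => ?_⟩
      · obtain ⟨u, rfl⟩ := T.surjective u
        obtain ⟨v, rfl⟩ := T.surjective v
        rw [hyT, hyT, hT, hT, hT, hT, stdB_apply, stdB_apply, hc, hc, gram_preserve.1 (kron_gram hA1 hB1)]
      · rw [Matrix.toLin'_apply, Matrix.toLin'_apply, hyT]
    have conj : ∀ (y : GL (Fin d ⊕ Fin d) F), y ∈ Cfsg.spGL d F → y ∈ Cfsg.Geo.tensorProductSubgroup 2 d e P →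
        (∃ L : (Fin d ⊕ Fin d → F) ≃ₗ[F] (Fin d ⊕ Fin d → F), (∀ u v, stdB d F (L u) (L v) = stdB d F u v) ∧
          ∀ v, L ((y : Matrix (Fin d ⊕ Fin d) (Fin d ⊕ Fin d) F) *ᵥ v) = (x : Matrix (Fin d ⊕ Fin d) (Fin d ⊕ Fin d) F) *ᵥ L v) →
        ∃ g ∈ Cfsg.spGL d F, g⁻¹ * x * g ∈ Cfsg.Geo.tensorProductSubgroup 2 d e P := by
      rintro y hy hymem ⟨L, hL, hLy⟩
      obtain ⟨G, hG, -⟩ := S5976.gl_of_equiv L
      refine ⟨G, S5975.mem_spGL fun u v => by rw [hG, hG, hL], ?_⟩
      have hGy : x * G = G * y := Units.ext (Matrix.ext_iff_mulVec.2 fun v => by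
        rw [Units.val_mul, Units.val_mul, ← Matrix.mulVec_mulVec, ← Matrix.mulVec_mulVec, hG, hG, hLy])
      rw [mul_assoc, hGy, inv_mul_cancel_left]
      exact hymem
    have hXi : ∀ u v, stdB d F ((x : Matrix (Fin d ⊕ Fin d) (Fin d ⊕ Fin d) F) *ᵥ u)
        ((x : Matrix (Fin d ⊕ Fin d) (Fin d ⊕ Fin d) F) *ᵥ v) = stdB d F u v := S5975.stdB_spGL hx
    have hxx : ∀ v, (x : Matrix (Fin d ⊕ Fin d) (Fin d ⊕ Fin d) F) *ᵥ ((x : Matrix (Fin d ⊕ Fin d) (Fin d ⊕ Fin d) F) *ᵥ v) = z • v :=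
      fun v => by rw [Matrix.mulVec_mulVec, ← pow_two, ← Units.val_pow_eq_pow_val, hz, Matrix.smul_mulVec, Matrix.one_mulVec]
    have hz1 : z ^ 2 = 1 := by
      obtain ⟨u, v, huv⟩ := S5976.exists_pairing (F := F) (show 0 < d by omega)
      have h := hXi ((x : Matrix (Fin d ⊕ Fin d) (Fin d ⊕ Fin d) F) *ᵥ u) ((x : Matrix (Fin d ⊕ Fin d) (Fin d ⊕ Fin d) F) *ᵥ v)
      rw [hxx, hxx, hXi, map_smul, map_smul, LinearMap.smul_apply, smul_eq_mul, smul_eq_mul, ← mul_assoc] at h
      exact (sq z).trans (mul_right_cancel₀ huv (h.trans (one_mul _).symm))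
    rcases sq_eq_one_iff.1 hz1 with rfl | rfl
    · -- involutions
      have S₂ := hf₂.bilinear
      let B₂ : LinearMap.BilinForm F (Fin d → F) := LinearMap.mk₂ F f₂ S₂.add_left S₂.smul_left S₂.add_right S₂.smul_right
      haveI : Invertible (2 : F) := invertibleOfNonzero h2
      obtain ⟨v, hv⟩ := LinearMap.BilinForm.exists_orthogonal_basis (B := B₂) (LinearMap.isSymm_def.2 fun u w => hf₂.symm u w)
      have hfin : finrank F (Fin d → F) = d := finrank_fin_fun F
      let w : Module.Basis (Fin d) F (Fin d → F) := v.reindex (finCongr hfin)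
      set X := Matrix.toLin' (x : Matrix (Fin d ⊕ Fin d) (Fin d ⊕ Fin d) F) with hX
      obtain ⟨m, hm⟩ : ∃ m, finrank F (LinearMap.ker (X + (1 : F) • LinearMap.id)) = 2 * m := by
        have hsq : ∀ v, X (X v) = ((1 : F) * 1) • v := fun v => by rw [one_mul, hX, Matrix.toLin'_apply, Matrix.toLin'_apply, hxx]
        have hc' := isCompl_eigen h2 one_ne_zero hsq
        refine exists_alt_frame (B := (stdB d F).compl₁₂ (LinearMap.ker (X + (1 : F) • LinearMap.id)).subtype
          (LinearMap.ker (X + (1 : F) • LinearMap.id)).subtype) (fun u => hA.self_eq_zero _) fun u hu => Subtype.ext (hB _ fun v => ?_)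
        obtain ⟨c', hc'', v', hv', rfl⟩ := Submodule.mem_sup.1 (hc'.sup_eq_top ▸ Submodule.mem_top (x := v))
        have h0 : stdB d F (u : Fin d ⊕ Fin d → F) c' = 0 := by
          have h := hXi u c'
          rw [← Matrix.toLin'_apply, ← Matrix.toLin'_apply, ← hX, eig_neg u.2, eig_pos hc'', one_smul F c', neg_one_smul F (u : Fin d ⊕ Fin d → F),
            map_neg, LinearMap.neg_apply, neg_eq_iff_add_eq_zero, ← two_mul] at h
          exact (mul_eq_zero.1 h).resolve_left h2
        rw [map_add, h0, zero_add]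
        exact hu ⟨v', hv'⟩
      let s : Fin d → F := fun i => if (i : ℕ) < m then -1 else 1
      let R : Module.End F (Fin d → F) := w.constr F fun i => s i • w i
      have hRw : ∀ i, R (w i) = s i • w i := fun i => w.constr_basis F _ i
      have hRR : R * R = 1 := w.ext fun i => by
        rw [Module.End.mul_apply, hRw, map_smul, hRw, smul_smul]
        simp only [s]; split_ifs <;> simp
      let Bm : GL (Fin d) F := ⟨LinearMap.toMatrix' R, LinearMap.toMatrix' R,
        by rw [← LinearMap.toMatrix'_comp, ← Module.End.mul_eq_comp, hRR]; exact LinearMap.toMatrix'_one,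
        by rw [← LinearMap.toMatrix'_comp, ← Module.End.mul_eq_comp, hRR]; exact LinearMap.toMatrix'_one⟩
      have hBgram : (Bm : Matrix (Fin d) (Fin d) F)ᵀ * G₂ * Bm = G₂ := by
        rw [gram_preserve]
        have S : Sesq (RingHom.id F) f₂ := ⟨S₂.add_left, S₂.smul_left, S₂.add_right, S₂.smul_right⟩
        intro u u'
        have hB2 : B₂.compl₁₂ R R = B₂ := w.ext fun i => w.ext fun j => by
          rw [LinearMap.compl₁₂_apply, hRw, hRw, map_smul, map_smul, LinearMap.smul_apply, smul_eq_mul, smul_eq_mul]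
          rcases eq_or_ne i j with rfl | hij
          · simp only [s]; split_ifs <;> ring
          · have h0 : B₂ (w i) (w j) = 0 := by
              simp only [w, Module.Basis.reindex_apply]
              exact hv (fun h => hij ((finCongr hfin).symm.injective h))
            rw [h0, mul_zero, mul_zero]
        rw [show (id : F → F) = ⇑(RingHom.id F) from rfl, hG₂, S.formOfGram_eq, S.formOfGram_eq]
        show f₂ (LinearMap.toMatrix' R *ᵥ u) (LinearMap.toMatrix' R *ᵥ u') = f₂ u u'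
        rw [LinearMap.toMatrix'_mulVec, LinearMap.toMatrix'_mulVec]
        exact LinearMap.congr_fun₂ hB2 u u'
      obtain ⟨y, hy, hymem, T, hT⟩ := member 1 Bm (by simp) hBgram
      refine conj y hy hymem ?_
      set Y := Matrix.toLin' (y : Matrix (Fin d ⊕ Fin d) (Fin d ⊕ Fin d) F) with hY
      have hYY : ∀ u, Y (Y u) = u := fun u => by
        obtain ⟨u, rfl⟩ := T.surjective u
        rw [hT, hT, ← Matrix.toLin'_mul_apply, ← Matrix.mul_kronecker_mul, Units.val_one, one_mul,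
          show (Bm : Matrix (Fin d) (Fin d) F) * Bm = 1 from Bm.val_inv, Matrix.one_kronecker_one, Matrix.toLin'_one,
          LinearMap.id_apply]
      have hfix : finrank F (LinearMap.ker (Y - (1 : F) • LinearMap.id)) = 2 * (d - min d m) := by
        rw [ker_conj_eq (T := T.symm) (Y := Matrix.toLin' (((1 : GL (Fin 2) F) : Matrix (Fin 2) (Fin 2) F) ⊗ₖ (Bm : Matrix (Fin d) (Fin d) F)))
          (fun u => by obtain ⟨u, rfl⟩ := T.surjective u; rw [hT, T.symm_apply_apply, T.symm_apply_apply]) 1,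
          Units.val_one, ← one_smul F (1 : Matrix (Fin 2) (Fin 2) F), finrank_scalar, one_smul]
        congr 1
        rw [show (Bm : Matrix (Fin d) (Fin d) F) = LinearMap.toMatrix' R from rfl, Matrix.toLin'_toMatrix',
          ker_conj_eq (T := w.equivFun) (Y := Matrix.toLin' (Matrix.diagonal s)) (fun u => by
            show w.equivFun.toLinearMap (R u) = _
            refine LinearMap.congr_fun (w.ext (f₁ := w.equivFun.toLinearMap ∘ₗ R)
              (f₂ := Matrix.toLin' (Matrix.diagonal s) ∘ₗ w.equivFun.toLinearMap) fun i => ?_) u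
            funext j
            simp only [LinearMap.comp_apply, LinearEquiv.coe_coe, hRw, map_smul, Pi.smul_apply, Matrix.toLin'_apply,
              Matrix.mulVec_diagonal, Module.Basis.equivFun_self]
            split_ifs with hij
            · subst hij; simp
            · simp) 1]
        have h' := diag_fixed s 1
        have hne : (-1 : F) - 1 ≠ 0 := fun e => h2 (by linear_combination -e)
        have hcnt : Fintype.card {i : Fin d // s i - 1 ≠ 0} = min d m := by
          rw [Fintype.card_subtype, Finset.filter_congr (q := fun i : Fin d => (i : ℕ) < m) fun i _ => by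
            simp only [s]; split_ifs with hi <;> simp [hi, hne], Fin.card_filter_val_lt]
        omega
      have hsum := Submodule.finrank_add_eq_of_isCompl (isCompl_eigen h2 one_ne_zero (x := X) (fun v => by
        rw [one_mul, hX, Matrix.toLin'_apply, Matrix.toLin'_apply, hxx]))
      rw [hm, Module.finrank_pi, Fintype.card_sum, Fintype.card_fin] at hsum
      obtain ⟨L, hL, hLy⟩ := conj_invol h2 hA hB (X := X) (Y := Y) (fun u v => hXi u v)
        (fun v => by rw [hX, Matrix.toLin'_apply, Matrix.toLin'_apply, hxx, one_smul])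
        (fun u v => S5975.stdB_spGL hy u v) hYY (by rw [hfix]; omega)
      exact ⟨L, hL, hLy⟩
    · -- square roots of minus one
      let A : GL (Fin 2) F := ⟨!![0, -1; 1, 0], !![0, 1; -1, 0],
        by ext i j; fin_cases i <;> fin_cases j <;> simp,
        by ext i j; fin_cases i <;> fin_cases j <;> simp⟩
      have hAgram : (A : Matrix (Fin 2) (Fin 2) F)ᵀ * G₁ * A = G₁ := by
        ext i j
        fin_cases i <;> fin_cases j <;>
          simp [A, hG₁, Cfsg.Geo.gramMatrix, Matrix.mul_apply, Fin.sum_univ_two, hf₁.alternating,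
            ← hf₁.skew]
      obtain ⟨y, hy, hymem, T, hT⟩ := member A 1 hAgram (by simp)
      refine conj y hy hymem ?_
      have hyy : ∀ u, (y : Matrix (Fin d ⊕ Fin d) (Fin d ⊕ Fin d) F) *ᵥ ((y : Matrix (Fin d ⊕ Fin d) (Fin d ⊕ Fin d) F) *ᵥ u) =
          (-1 : F) • u := fun u => by
        obtain ⟨u, rfl⟩ := T.surjective u
        rw [← Matrix.toLin'_apply, ← Matrix.toLin'_apply, hT, hT, ← Matrix.toLin'_mul_apply,
          ← Matrix.mul_kronecker_mul, Units.val_one, one_mul,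
          show (A : Matrix (Fin 2) (Fin 2) F) * A = (-1 : F) • 1 by
            ext i j; fin_cases i <;> fin_cases j <;> simp [A],
          Matrix.smul_kronecker, Matrix.one_kronecker_one, map_smul, Matrix.toLin'_one, LinearMap.smul_apply,
          LinearMap.id_apply, map_smul]
      have hsk : ∀ {w : GL (Fin d ⊕ Fin d) F}, w ∈ Cfsg.spGL d F →
          (∀ u, (w : Matrix (Fin d ⊕ Fin d) (Fin d ⊕ Fin d) F) *ᵥ ((w : Matrix (Fin d ⊕ Fin d) (Fin d ⊕ Fin d) F) *ᵥ u) = (-1 : F) • u) →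
          ∀ u v, stdB d F (Matrix.toLin' (w : Matrix (Fin d ⊕ Fin d) (Fin d ⊕ Fin d) F) u) v =
            - stdB d F u (Matrix.toLin' (w : Matrix (Fin d ⊕ Fin d) (Fin d ⊕ Fin d) F) v) := fun {w} hw hww u v => by
        have h := S5975.stdB_spGL hw u ((w : Matrix (Fin d ⊕ Fin d) (Fin d ⊕ Fin d) F) *ᵥ v)
        rw [hww, neg_one_smul, map_neg] at h
        rw [Matrix.toLin'_apply, Matrix.toLin'_apply]
        linear_combination -h
      obtain ⟨m, e₁, he₁, hek⟩ := exists_root_frame (B := stdB d F) hodd hA hB (neg_ne_zero.2 one_ne_zero)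
        (hsk hy hyy) (fun v => by simp only [Matrix.toLin'_apply]; exact hyy v)
      obtain ⟨m', e₂, he₂, hel⟩ := exists_root_frame (B := stdB d F) hodd hA hB (neg_ne_zero.2 one_ne_zero)
        (hsk hx hxx) (fun v => by simp only [Matrix.toLin'_apply]; exact hxx v)
      obtain rfl : m = m' := by
        have h1 := e₁.finrank_eq
        have h2 := e₂.finrank_eq
        simp at h1 h2
        omega
      refine ⟨e₁.symm.trans e₂, fun u v => by
        simp only [LinearEquiv.trans_apply]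
        rw [he₂, ← he₁, e₁.apply_symm_apply, e₁.apply_symm_apply], fun v => ?_⟩
      obtain ⟨v, rfl⟩ := e₁.surjective v
      simp only [LinearEquiv.trans_apply, ← Matrix.toLin'_apply, hek, e₁.symm_apply_apply, hel]

end Cfsg.Agent.S5980
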