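import Cfsg.Statements.S5981
import Cfsg.Agent.Lib.Elusive.NotOrth
import Cfsg.Agent.Lib.Elusive.OrthIndex
import Cfsg.Agent.Lib.Elusive.Involution
import Cfsg.Agent.Lib.Elusive.SubfieldTests
import Cfsg.Agent.Lib.Elusive.Criterion

set_option autoImplicit false
open scoped MatrixGroups
open Cfsg

namespace Cfsg.Agent.S5981

open Module Cfsg.Agent.Lib.Elusive
open scoped Matrix
open Cfsg.Agent.Lib.Classical.Quad Cfsg.Agent.Lib.Classical.QuadOmega

section
variable {F : Type*} [Field F] {n : ℕ}

/-- The form as a quadratic map. -/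
def qf {Q : (Fin n → F) → F} (hQ : Cfsg.Geo.IsNondegenerateQuadraticForm Q) : QuadraticForm F (Fin n → F) :=
  QuadraticMap.ofPolar Q (fun a x => by rw [hQ.smul, sq, smul_eq_mul]) hQ.polar_bilinear.add_left
    (fun a x y => by rw [hQ.polar_bilinear.smul_left, smul_eq_mul])

theorem qf_apply {Q : (Fin n → F) → F} (hQ : Cfsg.Geo.IsNondegenerateQuadraticForm Q) (v : Fin n → F) :
    qf hQ v = Q v := rfl

theorem qf_nd {Q : (Fin n → F) → F} (hQ : Cfsg.Geo.IsNondegenerateQuadraticForm Q) : Nd (qf hQ) := fun v hv => by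
  by_contra h
  obtain ⟨x, hx⟩ := (hQ.nondegenerate v h).2
  exact hx (hv x)

theorem mul_nonsquare [Fintype F] {a b : F} (h2 : (2 : F) ≠ 0) (ha : ¬ IsSquare a) (hb : ¬ IsSquare b) :
    IsSquare (a * b) := by
  classical
  have hc : ringChar F ≠ 2 := fun e => h2 (by
    have := ringChar.spec F 2
    simpa using this.2 (e ▸ dvd_rfl))
  have ha' := (quadraticChar_neg_one_iff_not_isSquare (F := F)).2 ha
  have hb' := (quadraticChar_neg_one_iff_not_isSquare (F := F)).2 hb
  have hab : a * b ≠ 0 := mul_ne_zero (fun e => ha (e ▸ IsSquare.zero)) (fun e => hb (e ▸ IsSquare.zero))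
  refine (quadraticChar_one_iff_isSquare hab).1 ?_
  rw [map_mul, ha', hb']
  norm_num

theorem toLin_pow (A : Matrix.SpecialLinearGroup (Fin n) F) (r : ℕ) :
    Matrix.toLin' ((A ^ r : Matrix.SpecialLinearGroup (Fin n) F) : Matrix (Fin n) (Fin n) F) =
      Matrix.toLin' (A : Matrix (Fin n) (Fin n) F) ^ r := by
  rw [Matrix.SpecialLinearGroup.coe_pow, Matrix.toLin'_pow]

/-- Diagonal test elements without conjugates preserving a form up to a scalar. -/
theorem exists_diag_test {r : ℕ} (hr : 3 ≤ r) (hn : 3 ≤ n) {a : F} (ha : orderOf (a ^ n) = r ∧ (a ^ r) ^ n = 1 ∨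
    (a ^ r = 1 ∧ orderOf a = r ∧ r ∣ n ∧ 7 ≤ n)) :
    ∃ (d : Fin n → F) (S : Finset (Fin n)) (i : Fin n) (s z : F), ∏ j, d j = 1 ∧ (∀ j, d j ^ r = z) ∧
      (∀ j ∈ S, d j = s) ∧ n < 2 * S.card ∧ ∀ j, d i * d j ≠ s * s := by
  classical
  rcases ha with ⟨hord, hrn⟩ | ⟨har, hao, hdvd, h7⟩
  · have ha0 : a ≠ 0 := fun h => by
      rw [h, zero_pow (by omega : n ≠ 0), orderOf_zero] at hord
      omega
    set b : F := a⁻¹ ^ (n - 1) with hb
    obtain ⟨m, rfl⟩ : ∃ m, n = m + 1 := ⟨n - 1, by omega⟩
    simp only [Nat.add_sub_cancel] at hb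
    let d : Fin (m + 1) → F := fun j => if (j : ℕ) = 0 then b else a
    have hba : b * a ^ m = 1 := by rw [hb, inv_pow, inv_mul_cancel₀ (pow_ne_zero _ ha0)]
    have hbr : b ^ r = a ^ r := by
      refine mul_right_cancel₀ (pow_ne_zero r (pow_ne_zero m ha0)) ?_
      rw [← mul_pow, hba, one_pow, ← mul_pow, ← pow_succ', ← pow_mul, mul_comm, pow_mul, hrn]
    have hne : ∀ k, 0 < k → k < r → (a ^ (m + 1)) ^ k ≠ 1 := fun k h1 h2 h =>
      absurd (Nat.le_of_dvd h1 (hord ▸ orderOf_dvd_of_pow_eq_one h)) (by omega)
    refine ⟨d, Finset.univ.erase 0, 0, a, a ^ r, ?_, fun j => ?_, fun j hj => ?_, ?_, fun j => ?_⟩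
    · rw [Fin.prod_univ_succ]
      simp [d, hba]
    · simp only [d]
      split_ifs
      · exact hbr
      · rfl
    · simp only [d]
      exact if_neg fun h => (Finset.mem_erase.1 hj).1 (Fin.ext h)
    · rw [Finset.card_erase_of_mem (Finset.mem_univ _), Finset.card_univ, Fintype.card_fin]
      omega
    · simp only [d, Fin.val_zero, if_true]
      split_ifs
      · intro h
        refine hne 2 two_pos (by omega) ?_
        calc (a ^ (m + 1)) ^ 2 = (a * a) * (a ^ m * a ^ m) := by ring
          _ = b * b * (a ^ m * a ^ m) := by rw [h]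
          _ = b * a ^ m * (b * a ^ m) := by ring
          _ = 1 := by rw [hba, one_mul]
      · intro h
        refine hne 1 one_pos (by omega) ?_
        rw [pow_one, pow_succ']
        exact (congrArg (· * a ^ m) (mul_right_cancel₀ ha0 h).symm).trans hba
  · have hak : ∀ k, 0 < k → k < r → a ^ k ≠ 1 := fun k h1 h2 h =>
      absurd (Nat.le_of_dvd h1 (hao ▸ orderOf_dvd_of_pow_eq_one h)) (by omega)
    let d : Fin n → F := fun j => if (j : ℕ) < 2 then a else if (j : ℕ) = 2 then a ^ (r - 2) else 1
    let S : Finset (Fin n) := Finset.univ.filter fun j => 3 ≤ (j : ℕ)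
    refine ⟨d, S, ⟨0, by omega⟩, 1, 1, ?_, fun j => ?_, fun j hj => ?_, ?_, fun j => ?_⟩
    · obtain ⟨m, rfl⟩ : ∃ m, n = m + 3 := ⟨n - 3, by omega⟩
      rw [Fin.prod_univ_succ, Fin.prod_univ_succ, Fin.prod_univ_succ]
      have h2 : 2 % (m + 3) = 2 := Nat.mod_eq_of_lt (by omega)
      simp [d, h2]
      rw [← mul_assoc, ← pow_two, ← pow_add, show 2 + (r - 2) = r by omega, har]
    · simp only [d]
      split_ifs
      · exact har
      · rw [← pow_mul, mul_comm, pow_mul, har, one_pow]
      · exact one_pow r
    · simp only [S, Finset.mem_filter] at hj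
      simp only [d]
      rw [if_neg (by omega), if_neg (by omega)]
    · have : (Finset.univ.filter fun j : Fin n => ¬ 3 ≤ (j : ℕ)).card ≤ 3 :=
        (Finset.card_le_card_of_injOn (fun j : Fin n => (j : ℕ))
          (fun j hj => by simpa using hj) Fin.val_injective.injOn).trans (Finset.card_range 3).le
      have h2 := Finset.card_filter_add_card_filter_not (s := Finset.univ) fun j : Fin n => 3 ≤ (j : ℕ)
      rw [Finset.card_univ, Fintype.card_fin] at h2
      simp only [S]
      omega
    · simp only [d, Nat.ofNat_pos, if_true, one_mul]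
      split_ifs
      · rw [← pow_two]; exact hak 2 (by omega) (by omega)
      · rw [← pow_succ']; exact hak _ (by omega) (by omega)
      · rw [mul_one]; simpa using hak 1 (by omega) (by omega)

/-- Elements with pairing eigenvalues: an involution of the eigenvectors. -/
theorem exists_pairing {r : ℕ} (hr : r = 3 ∨ r = 5) (f : Fin r → ZMod r) (hf : ∑ i, f i = 0) :
    ∃ σ : Equiv.Perm (Fin r), (∀ i, σ (σ i) = i) ∧ ∃ c : ZMod r, ∀ i, f i + f (σ i) = c := by
  rcases hr with rfl | rfl
  · obtain ⟨e, -, hbij, he⟩ := SubfieldTests.sym_three (f 0) (f 1)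
    rw [Fin.sum_univ_three] at hf
    have hf2 : ![f 0, f 1, -(f 0 + f 1)] = f := by
      funext i
      fin_cases i
      · rfl
      · rfl
      · show -(f 0 + f 1) = f 2
        linear_combination -hf
    rw [hf2] at he
    let ε := Equiv.ofBijective e hbij
    refine ⟨ε.permCongr (Equiv.swap 1 2), fun i => ?_, 2 * f (e 0), fun i => ?_⟩
    · simp
    · obtain ⟨k, rfl⟩ := ε.surjective i
      simp only [Equiv.permCongr_apply, Equiv.symm_apply_apply]
      show f (e k) + f (e (Equiv.swap 1 2 k)) = _
      fin_cases k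
      · show f (e 0) + f (e 0) = _
        ring
      · exact he
      · show f (e 2) + f (e 1) = _
        rw [add_comm]; exact he
  · obtain ⟨e, -, hbij, he, he'⟩ := SubfieldTests.sym_five (f 0) (f 1) (f 2) (f 3)
    rw [Fin.sum_univ_five] at hf
    have hf2 : ![f 0, f 1, f 2, f 3, -(f 0 + f 1 + f 2 + f 3)] = f := by
      funext i
      fin_cases i
      · rfl
      · rfl
      · rfl
      · rfl
      · show -(f 0 + f 1 + f 2 + f 3) = f 4
        linear_combination -hf
    rw [hf2] at he he'
    let ε := Equiv.ofBijective e hbij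
    refine ⟨ε.permCongr (Equiv.swap 1 2 * Equiv.swap 3 4), fun i => ?_, 2 * f (e 0), fun i => ?_⟩
    · obtain ⟨k, rfl⟩ := ε.surjective i
      simp only [Equiv.permCongr_apply, Equiv.symm_apply_apply]
      congr 1
      revert k
      decide
    · obtain ⟨k, rfl⟩ := ε.surjective i
      simp only [Equiv.permCongr_apply, Equiv.symm_apply_apply]
      show f (e k) + f (e ((Equiv.swap 1 2 * Equiv.swap 3 4 : Equiv.Perm (Fin 5)) k)) = _
      fin_cases k
      · show f (e 0) + f (e 0) = _
        ring
      · exact he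
      · show f (e 2) + f (e 1) = _
        rw [add_comm]; exact he
      · exact he'
      · show f (e 4) + f (e 3) = _
        rw [add_comm]; exact he'

/-- With `(q - 1)_r = r = n` the scalar `x ^ r` is one. -/
theorem pow_eq_one_of_exact [Fintype F] {r : ℕ} [Fact r.Prime] (hr2 : r ≠ 2) (hv : padicValNat r (Fintype.card F - 1) = 1)
    {X : Module.End F (Fin r → F)} (hdet : LinearMap.det X = 1) {z : F} (hX : ∀ v, (X ^ r) v = z • v) : z = 1 := by
  have hr : r.Prime := Fact.out
  have hzr : z ^ r = 1 := by
    have hXz : X ^ r = z • (1 : Module.End F (Fin r → F)) := LinearMap.ext hX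
    have h := congrArg LinearMap.det hXz
    rw [map_pow, hdet, one_pow, LinearMap.det_smul, map_one, mul_one, finrank_fin_fun] at h
    exact h.symm
  by_contra hz
  have hnp : ∀ b : F, b ^ r ≠ z := fun b hb => by
    have hb0 : b ≠ 0 := fun h => by
      rw [← hb, h, zero_pow hr.ne_zero, zero_pow hr.ne_zero] at hzr
      exact zero_ne_one hzr
    have hord : orderOf b = r ^ (1 + 1) := orderOf_eq_prime_pow (by rwa [pow_one, hb])
      (by rw [pow_succ, pow_one, pow_mul, hb, hzr])
    have h1 : orderOf b ∣ Fintype.card F - 1 := orderOf_dvd_of_pow_eq_one (FiniteField.pow_card_sub_one_eq_one b hb0)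
    rw [hord] at h1
    have h2 : Fintype.card F - 1 ≠ 0 := by have := Fintype.one_lt_card (α := F); omega
    have := (padicValNat_dvd_iff_le (p := r) h2).1 h1
    omega
  have hirr : Irreducible (Polynomial.X ^ r - Polynomial.C z) := X_pow_sub_C_irreducible_of_prime hr hnp
  have haev : Polynomial.aeval X (Polynomial.X ^ r - Polynomial.C z) = 0 := LinearMap.ext fun v => by
    simp [hX, Module.algebraMap_end_apply]
  have hmin : minpoly F X = Polynomial.X ^ r - Polynomial.C z :=
    (minpoly.eq_of_irreducible_of_monic hirr haev (Polynomial.monic_X_pow_sub_C z hr.ne_zero)).symm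
  have hchar : X.charpoly = Polynomial.X ^ r - Polynomial.C z := by
    rw [← hmin]
    refine (Polynomial.eq_of_monic_of_dvd_of_natDegree_le (minpoly.monic (Algebra.IsIntegral.isIntegral X))
      (LinearMap.charpoly_monic X) (LinearMap.minpoly_dvd_charpoly X) ?_)
    rw [LinearMap.charpoly_natDegree, finrank_fin_fun, hmin, Polynomial.natDegree_X_pow_sub_C]
  have h := LinearMap.det_eq_sign_charpoly_coeff X
  rw [hdet, hchar, finrank_fin_fun] at h
  simp [Polynomial.coeff_sub, hr.ne_zero.symm, (hr.odd_of_ne_two hr2).neg_one_pow] at h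
  exact hz h.symm

end


/-- Elements of prime order of PSL_n(q), q odd, and the subgroups of orthogonal type. Here `T = PSL_n(F)` for a field `F` with `q` elements, `q` odd, `n ≥ 3`; `Q` is a non-degenerate quadratic form on `F^n` (of either type when `n` is even) and `H` is the subgroup of matrices of determinant 1 that preserve `Q` up to a scalar — a subgroup of type O^ε_n(q) (maximality is not assumed); Ω is the set of cosets of `H` in `T`, so an element of `T` of prime order `r` (a matrix `x` of determinant 1 with `x^r` scalar, `x` not scalar) fixes a point of Ω exactly when some conjugate of `x` by a matrix of determinant 1 preserves `Q` up to a scalar. Let `r` be a prime dividing the index of `H`, with `(n, r) ≠ (6, 3)`. Then every element of `T` of order `r` fixes a point of Ω if and only if `r = 2`, or `r ∈ {3, 5}`, `n = r` and `(q − 1)_r = r` (the `r`-part of `q − 1` is exactly `r`). The case `(n, r) = (6, 3)` is not covered by this statement. -/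
theorem result {F : Type*} [Field F] [Fintype F] {p : ℕ} [Fact p.Prime] [CharP F p] {q : ℕ} (hq : Fintype.card F = q)
    (hodd : Odd q) (n : ℕ) (hn : 3 ≤ n) (Q : (Fin n → F) → F) (hQ : Cfsg.Geo.IsNondegenerateQuadraticForm Q)
    (r : ℕ) [Fact r.Prime] (hgap : ¬ (n = 6 ∧ r = 3))
    (hΩ : r ∣ (Cfsg.Geo.quadSimilarityGroup Q).relIndex (Cfsg.Geo.specialLinear (Fin n) F)) :
    (∀ x ∈ Cfsg.Geo.specialLinear (Fin n) F, (∃ z : F, ((x ^ r : GL (Fin n) F) : Matrix (Fin n) (Fin n) F) = z • (1 : Matrix (Fin n) (Fin n) F)) →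
      (∀ z : F, (x : Matrix (Fin n) (Fin n) F) ≠ z • (1 : Matrix (Fin n) (Fin n) F)) →
      ∃ g ∈ Cfsg.Geo.specialLinear (Fin n) F, g⁻¹ * x * g ∈ Cfsg.Geo.quadSimilarityGroup Q) ↔
    (r = 2 ∨ ((r = 3 ∨ r = 5) ∧ n = r ∧ padicValNat r (q - 1) = 1)) := by
  classical
  subst hq
  have hr : r.Prime := Fact.out
  have h2 : (2 : F) ≠ 0 := two_ne_zero_of_odd rfl hodd
  set Qf := qf hQ
  have hQnd : Nd Qf := qf_nd hQ
  set B := QuadraticMap.polarBilin Qf with hB
  have hBS : B.SeparatingLeft := fun v hv => hQnd v fun y => hv y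
  have hBsym : ∀ u v, B u v = B v u := fun u v => QuadraticMap.polar_comm _ u v
  have hBQ : ∀ v, B v v = 2 * Qf v := fun v => by
    show QuadraticMap.polar Qf v v = _
    rw [QuadraticMap.polar_self, two_nsmul, two_mul]
  obtain ⟨bB, dB, hdB, hbB⟩ := Cfsg.Agent.Lib.Forms.exists_diag_basis h2 B ⟨hBsym⟩
    ((LinearMap.IsRefl.nondegenerate_iff_separatingLeft (fun u v h => by rw [hBsym]; exact h)).2 hBS)
  -- rename the index type of the diagonal basis
  obtain ⟨b, d, hd, hb⟩ : ∃ (b : Basis (Fin n) F (Fin n → F)) (d : Fin n → F), (∀ i, d i ≠ 0) ∧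
      ∀ i j, B (b i) (b j) = if i = j then d i else 0 :=
    ⟨bB.reindex (finCongr (finrank_fin_fun F)), dB ∘ (finCongr (finrank_fin_fun F)).symm, fun i => hdB _,
      fun i j => by simp [Basis.reindex_apply, hbB]⟩
  clear hdB hbB bB dB
  -- membership
  have hmemSL : ∀ A : Matrix.SpecialLinearGroup (Fin n) F,
      Matrix.SpecialLinearGroup.toGL A ∈ Cfsg.Geo.specialLinear (Fin n) F := fun A =>
    MonoidHom.mem_ker.2 (Units.ext A.2)
  have hfromSL : ∀ g ∈ Cfsg.Geo.specialLinear (Fin n) F, ∃ A : Matrix.SpecialLinearGroup (Fin n) F,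
      Matrix.SpecialLinearGroup.toGL A = g := fun g hg =>
    ⟨⟨g.1, by simpa using congrArg Units.val (MonoidHom.mem_ker.1 hg)⟩, Units.ext rfl⟩
  have hmemH : ∀ (A : Matrix.SpecialLinearGroup (Fin n) F) (Y : Module.End F (Fin n → F)) (c : F), c ≠ 0 →
      Matrix.toLin' (A : Matrix (Fin n) (Fin n) F) = Y → (∀ u v, B (Y u) (Y v) = c * B u v) →
      Matrix.SpecialLinearGroup.toGL A ∈ Cfsg.Geo.quadSimilarityGroup Q := by
    intro A Y c hc hA hY
    refine ⟨Units.mk0 c hc, fun v => ?_⟩
    have := hY v v
    rw [hBQ, hBQ, ← hA, Matrix.toLin'_apply, mul_left_comm] at this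
    exact mul_left_cancel₀ h2 this
  -- the pulled back form
  have key : ∀ A : Matrix.SpecialLinearGroup (Fin n) F,
      (∃ g ∈ Cfsg.Geo.specialLinear (Fin n) F, g⁻¹ * Matrix.SpecialLinearGroup.toGL A * g ∈ Cfsg.Geo.quadSimilarityGroup Q) →
      ∃ (R : QuadraticForm F (Fin n → F)) (e : (Fin n → F) ≃ₗ[F] (Fin n → F)) (c : F), c ≠ 0 ∧
        (∀ v, R v = Qf (e v)) ∧ Nd R ∧
        ∀ v, R (Matrix.toLin' (A : Matrix (Fin n) (Fin n) F) v) = c * R v := by
    rintro A ⟨g, hg, c, hc⟩
    obtain ⟨P, rfl⟩ := hfromSL g hg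
    let R' := Matrix.toLin' ((P⁻¹ : Matrix.SpecialLinearGroup (Fin n) F) : Matrix (Fin n) (Fin n) F)
    let e : (Fin n → F) ≃ₗ[F] (Fin n → F) := LinearEquiv.ofLinearMap R' (Matrix.toLin' (P : Matrix (Fin n) (Fin n) F))
      (by rw [← Matrix.toLin'_mul, ← Matrix.SpecialLinearGroup.coe_mul, inv_mul_cancel, Matrix.SpecialLinearGroup.coe_one, Matrix.toLin'_one])
      (by rw [← Matrix.toLin'_mul, ← Matrix.SpecialLinearGroup.coe_mul, mul_inv_cancel, Matrix.SpecialLinearGroup.coe_one, Matrix.toLin'_one])
    refine ⟨Qf.comp e.toLinearMap, e, c, c.ne_zero, fun v => rfl, fun v hv => e.injective ?_, fun v => ?_⟩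
    · rw [map_zero]
      refine hQnd _ fun y => ?_
      obtain ⟨w, rfl⟩ := e.surjective y
      simpa [QuadraticMap.polar, map_add] using hv w
    · have := hc (R' v)
      rw [show Q (R' v) = (Qf.comp e.toLinearMap) v from rfl] at this
      rw [← this]
      show Q (R' (Matrix.toLin' (A : Matrix (Fin n) (Fin n) F) v)) = _
      congr 1
      simp only [R', ← Matrix.toLin'_apply]
      rw [← map_inv, ← map_mul, ← map_mul, Matrix.SpecialLinearGroup.coe_GL_coe_matrix,
        Matrix.SpecialLinearGroup.coe_mul, Matrix.SpecialLinearGroup.coe_mul, Matrix.toLin'_apply,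
        Matrix.toLin'_apply, Matrix.toLin'_apply, Matrix.toLin'_apply, Matrix.mulVec_mulVec, Matrix.mulVec_mulVec,
        mul_assoc, mul_assoc, ← Matrix.SpecialLinearGroup.coe_mul P P⁻¹, mul_inv_cancel,
        Matrix.SpecialLinearGroup.coe_one, mul_one]
  constructor
  · -- elements of order `r` without fixed points
    intro hall
    by_contra hcon
    push Not at hcon
    obtain ⟨hr2, hex⟩ := hcon
    have hr3 : 3 ≤ r := by have := hr.two_le; omega
    have test : ∀ A : Matrix.SpecialLinearGroup (Fin n) F,
        (∃ z : F, ((A ^ r : Matrix.SpecialLinearGroup (Fin n) F) : Matrix (Fin n) (Fin n) F) = z • (1 : Matrix (Fin n) (Fin n) F)) →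
        (∀ z : F, (A : Matrix (Fin n) (Fin n) F) ≠ z • (1 : Matrix (Fin n) (Fin n) F)) →
        ∃ (R : QuadraticForm F (Fin n → F)) (e : (Fin n → F) ≃ₗ[F] (Fin n → F)) (c : F), c ≠ 0 ∧
          (∀ v, R v = Qf (e v)) ∧ Nd R ∧
          ∀ v, R (Matrix.toLin' (A : Matrix (Fin n) (Fin n) F) v) = c * R v := fun A hz hns =>
      key A (hall _ (hmemSL A) (by rw [← map_pow]; exact hz) hns)
    have hpol : ∀ (R : QuadraticForm F (Fin n → F)) (X : Module.End F (Fin n → F)) (c : F), (∀ v, R (X v) = c * R v) →
        ∀ u v, QuadraticMap.polarBilin R (X u) (X v) = c * QuadraticMap.polarBilin R u v := fun R X c h u v => by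
      simp only [QuadraticMap.polarBilin_apply_apply, QuadraticMap.polar, ← map_add, h]
      ring
    have hiso : ∀ (R : QuadraticForm F (Fin n → F)) (X : Module.End F (Fin n → F)) (c : F), Nd R →
        (∀ v, (X ^ r) v = v) → (∀ v, R (X v) = c * R v) → c ^ r = 1 := by
      intro R X c hR hX hc
      have hpow : ∀ (j : ℕ) v, R ((X ^ j) v) = c ^ j * R v := by
        intro j
        induction j with
        | zero => simp
        | succ j ih => intro v; rw [pow_succ', Module.End.mul_apply, hc, ih, pow_succ', mul_assoc]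
      obtain ⟨v, hv⟩ : ∃ v, R v ≠ 0 := by
        by_contra h
        push Not at h
        have h0 : (Pi.single ⟨0, by omega⟩ 1 : Fin n → F) = 0 := hR _ fun y => by simp [QuadraticMap.polar, h]
        simpa using congrFun h0 ⟨0, by omega⟩
      have := hpow r v
      rw [hX] at this
      exact mul_right_cancel₀ hv (this.symm.trans (one_mul _).symm)
    by_cases hrp : r = p
    · subst hrp
      obtain ⟨A, N, hN, hA, hAr, hAc, hns⟩ := exists_unipotent (F := F) (p := r) (n := n)
        (μ := 2 ::ₘ Multiset.replicate (n - 2) 1)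
        (fun a ha => by
          rcases Multiset.mem_cons.1 ha with rfl | ha
          · omega
          · rw [Multiset.eq_of_mem_replicate ha]; omega)
        (by simp; omega)
        (fun h => by
          have := h ▸ Multiset.mem_cons_self 2 (Multiset.replicate (n - 2) 1)
          have := Multiset.eq_of_mem_replicate this
          omega)
      obtain ⟨R, e, c, hc0, -, hR, hc⟩ := test A hAc hns
      rw [hA] at hc
      have hc1 : c = 1 := by
        have h := hiso R _ c hR (fun v => by rw [hAr]; rfl) hc
        have : (c - 1) ^ r = 0 := by rw [sub_pow_char, h, one_pow, sub_self]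
        exact sub_eq_zero.1 (pow_eq_zero_iff hr.ne_zero |>.1 this)
      subst hc1
      have hN2 : N ^ 2 = 0 := (hN.pow_eq_zero_iff 2).2 fun a ha => by
        rcases Multiset.mem_cons.1 ha with rfl | ha
        · exact le_rfl
        · rw [Multiset.eq_of_mem_replicate ha]; omega
      refine NotOrth.not_transvection (B := QuadraticMap.polarBilin R) h2 (fun u v => QuadraticMap.polar_comm _ u v)
        (fun v hv => hR v fun y => hv y) (N := N)
        (fun v => by rw [← Module.End.mul_apply, ← pow_two, hN2]; rfl) (fun u v => ?_) ?_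
      · have := hpol R _ 1 hc u v
        rw [one_mul] at this
        simpa using this
      · have := hN.finrank_range_pow 1
        rw [pow_one] at this
        rw [this]
        simp
    have hrq : ¬ r ∣ Fintype.card F := fun h => by
      obtain ⟨e, -, he'⟩ := FiniteField.card F p
      rw [he'] at h
      exact hrp ((Nat.prime_dvd_prime_iff_eq hr Fact.out).1 (hr.dvd_of_dvd_pow h))
    by_cases hsplit : r ∣ Fintype.card F - 1
    · obtain ⟨a, ha⟩ : ∃ a : F, orderOf (a ^ n) = r ∧ (a ^ r) ^ n = 1 ∨
          (a ^ r = 1 ∧ orderOf a = r ∧ r ∣ n ∧ 7 ≤ n) := by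
        obtain ⟨a₀, ha₀⟩ := exists_prime_orderOf_dvd_card' (G := Fˣ) r (by
          rw [Nat.card_units, Nat.card_eq_fintype_card]; exact hsplit)
        have hao : orderOf (a₀ : F) = r := orderOf_units.trans ha₀
        have har : (a₀ : F) ^ r = 1 := hao ▸ pow_orderOf_eq_one _
        by_cases hrn : r ∣ n
        swap
        · refine ⟨a₀, Or.inl ⟨orderOf_eq_prime ?_ fun h => hrn (hao ▸ orderOf_dvd_of_pow_eq_one h), ?_⟩⟩
          · rw [← pow_mul, mul_comm, pow_mul, har, one_pow]
          · rw [har, one_pow]
        by_cases h7 : 7 ≤ n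
        · exact ⟨a₀, Or.inr ⟨har, hao, hrn, h7⟩⟩
        have hnr : n = r ∧ (r = 3 ∨ r = 5) := by
          obtain ⟨k, rfl⟩ := hrn
          rcases Nat.lt_or_ge k 2 with h | h
          · obtain rfl : k = 1 := by
              rcases Nat.eq_zero_or_pos k with rfl | h0
              · omega
              · omega
            refine ⟨mul_one r, ?_⟩
            have hr6 : r ≤ 6 := by omega
            interval_cases r <;> first | omega | (norm_num at hr)
          · exfalso
            have h6 : r * 2 ≤ r * k := Nat.mul_le_mul_left r h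
            exact hgap ⟨by omega, by omega⟩
        have hv : 2 ≤ padicValNat r (Fintype.card F - 1) := by
          have h1 := hex hnr.2 hnr.1
          have h3 : 1 ≤ padicValNat r (Fintype.card F - 1) :=
            one_le_padicValNat_of_dvd (by have := Fintype.one_lt_card (α := F); omega) hsplit
          omega
        have hd2 : r ^ 2 ∣ Nat.card Fˣ := by
          rw [Nat.card_units, Nat.card_eq_fintype_card]
          exact (Nat.pow_dvd_pow r hv).trans pow_padicValNat_dvd
        obtain ⟨w, hw⟩ := IsCyclic.exists_ofOrder_eq_natCard (α := Fˣ)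
        obtain ⟨k, hk⟩ := hd2
        have hk0 : k ≠ 0 := fun h => by
          rw [h, mul_zero] at hk
          exact absurd hk Nat.card_pos.ne'
        have hbo : orderOf ((w ^ k : Fˣ) : F) = r ^ 2 := by
          rw [orderOf_units, orderOf_pow_of_dvd hk0 (by rw [hw, hk]; exact dvd_mul_left _ _), hw, hk,
            Nat.mul_div_cancel _ (Nat.pos_of_ne_zero hk0)]
        refine ⟨((w ^ k : Fˣ) : F), Or.inl ⟨?_, ?_⟩⟩
        · rw [hnr.1, orderOf_pow_of_dvd hr.ne_zero (by rw [hbo]; exact dvd_pow_self r two_ne_zero), hbo,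
            pow_two, Nat.mul_div_cancel _ hr.pos]
        · rw [hnr.1, ← pow_mul, ← pow_two, ← hbo, pow_orderOf_eq_one]
      obtain ⟨d', S, i, s, z, hd1, hdr, hS, hcard, hi⟩ := exists_diag_test hr3 hn ha
      obtain ⟨R, e, c, -, -, hR, hc⟩ := test ⟨Matrix.diagonal d', by rw [Matrix.det_diagonal, hd1]⟩
        ⟨z, by
          refine (Matrix.SpecialLinearGroup.coe_pow _ r).trans ?_
          show Matrix.diagonal d' ^ r = _
          rw [Matrix.diagonal_pow, Matrix.smul_one_eq_diagonal]
          exact congrArg _ (funext hdr)⟩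
        (fun w hw => by
          have hdz : ∀ j, d' j = w := fun j => by simpa using congrFun (congrFun hw j) j
          obtain ⟨j, hj⟩ := Finset.card_pos.1 (show 0 < S.card by omega)
          exact hi j (by rw [hdz i, hdz j, ← hS j hj, hdz j]))
      have hd' : ∀ k l, d' k * d' l * QuadraticMap.polarBilin R (Pi.single k 1) (Pi.single l 1) =
          c * QuadraticMap.polarBilin R (Pi.single k 1) (Pi.single l 1) := by
        intro k l
        rw [← hpol R _ c hc]
        have e : ∀ k, Matrix.toLin' (Matrix.diagonal d') (Pi.single k 1) = d' k • Pi.single k 1 := fun k => by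
          rw [Matrix.toLin'_apply]; ext j
          rw [Matrix.mulVec_diagonal]
          rcases eq_or_ne j k with rfl | hj <;> simp [*]
        show _ = QuadraticMap.polarBilin R (Matrix.toLin' (Matrix.diagonal d') _) (Matrix.toLin' (Matrix.diagonal d') _)
        rw [e, e, map_smul, map_smul, LinearMap.smul_apply, smul_eq_mul, smul_eq_mul]
        ring
      obtain ⟨j, hj⟩ := NotOrth.diag_pairs (B := QuadraticMap.polarBilin R)
        (fun u v h => by rw [QuadraticMap.polarBilin_apply_apply, QuadraticMap.polar_comm]; exact h)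
        (fun v hv => hR v fun y => hv y) hd' hS (by rw [Fintype.card_fin]; exact hcard) i
      exact hi j hj
    have hroot : ∀ c : F, c ^ r = 1 → c = 1 := fun c hc0 => by
      have hne : c ≠ 0 := fun h => by rw [h, zero_pow hr.ne_zero] at hc0; exact zero_ne_one hc0
      simpa [(hr.coprime_iff_not_dvd.2 hsplit).gcd_eq_one] using
        pow_gcd_eq_one.2 ⟨hc0, FiniteField.pow_card_sub_one_eq_one c hne⟩
    have hzns : ∀ A : Matrix.SpecialLinearGroup (Fin n) F,
        (∀ v, (Matrix.toLin' (A : Matrix (Fin n) (Fin n) F) ^ r) v = v) →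
        Matrix.toLin' (A : Matrix (Fin n) (Fin n) F) ≠ 1 →
        ∀ z : F, (A : Matrix (Fin n) (Fin n) F) ≠ z • (1 : Matrix (Fin n) (Fin n) F) := by
      intro A hA hA1 z hz
      have hzl : Matrix.toLin' (A : Matrix (Fin n) (Fin n) F) = z • 1 := by
        rw [hz, map_smul, Matrix.toLin'_one]; rfl
      have hz0 : z ^ r = 1 := by
        have := congrFun (hA (Pi.single ⟨0, by omega⟩ 1)) ⟨0, by omega⟩
        rw [hzl, _root_.smul_pow, one_pow] at this
        simpa using this
      exact hA1 (by rw [hzl, hroot z hz0, one_smul])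
    have hi2 : 2 ≤ orderOf (Fintype.card F : ZMod r) := by
      have h0 : (Fintype.card F : ZMod r) ≠ 0 := fun h => hrq ((ZMod.natCast_eq_zero_iff _ _).1 h)
      have h1 : 0 < orderOf (Fintype.card F : ZMod r) :=
        orderOf_pos_iff.2 (isOfFinOrder_iff_pow_eq_one.2 ⟨r - 1, by omega, ZMod.pow_card_sub_one_eq_one h0⟩)
      have h3 : orderOf (Fintype.card F : ZMod r) ≠ 1 := fun h => hsplit (dvd_card_sub_one_iff.2 h)
      omega
    have hcast : ∀ g ∈ Cfsg.Geo.specialLinear (Fin n) F, (∀ v, Qf ((g : Matrix (Fin n) (Fin n) F) *ᵥ v) = Qf v) →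
        g ∈ Cfsg.Geo.quadSimilarityGroup Q := fun g _ h => ⟨1, fun v => by rw [Units.val_one, one_mul]; exact h v⟩
    rcases OrthIndex.index_cases (H := Cfsg.Geo.quadSimilarityGroup Q) (Q := Qf) hr2 hn hrq h2 hQnd hcast hΩ with
      ⟨j, hj, hjn, hjq⟩ | ⟨k, hnk, hk⟩
    · have hord := orderOf_dvd_of_pow_eq_one hjq
      obtain ⟨A, hA, hno⟩ := NotSimilitude.exists_odd_elt (F := F) (p := p) (r := r) (n := n) hrp hr2 hi2
        (hj.of_dvd_nat hord) ((Nat.le_of_dvd hj.pos hord).trans hjn)
      have hA1 : Matrix.toLin' (A : Matrix (Fin n) (Fin n) F) ≠ 1 := fun h =>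
        hno (QuadraticMap.polarBilin Qf) hBS fun u v => by rw [h]; rfl
      obtain ⟨R, e, c, -, -, hR, hc⟩ := test A ⟨1, Matrix.toLin'.injective (by
        rw [toLin_pow, one_smul, Matrix.toLin'_one]; exact LinearMap.ext hA)⟩ (hzns A hA hA1)
      exact hno (QuadraticMap.polarBilin R) (fun v hv => hR v fun y => hv y) fun u v => by
        rw [hpol R _ c hc, hroot c (hiso R _ c hR hA hc), one_mul]
    · subst hnk
      set w := orderOf (Fintype.card F : ZMod r) with hw
      have hne : (-1 : ZMod r) ≠ 1 := Cfsg.Agent.Lib.Classical.OrthTorsion.neg_one_ne_one hr hr2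
      have hdvd : w ∣ 2 * (k + 1) := orderOf_dvd_of_pow_eq_one (by
        rcases hk with ⟨-, h⟩ | ⟨-, h⟩ <;> rw [mul_comm, pow_mul, h] <;> ring)
      obtain ⟨t, ht⟩ := hdvd
      obtain ⟨A, hA, hfix⟩ := exists_root_elt (F := F) (p := p) (r := r) (n := 2 * (k + 1)) hrp hi2 (t := t) (k := 0)
        (by rw [add_zero, mul_comm t, ← hw, ← ht])
      have hfix' : ∀ v, Matrix.toLin' (A : Matrix (Fin (2 * (k + 1))) (Fin (2 * (k + 1))) F) v = v → v = 0 := fun v hv =>
        (Submodule.eq_bot_iff _).1 (Submodule.finrank_eq_zero.1 hfix) v (by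
          rw [LinearMap.mem_ker, LinearMap.sub_apply, LinearMap.smul_apply, one_smul, LinearMap.id_apply, hv, sub_self])
      set X := Matrix.toLin' (A : Matrix (Fin (2 * (k + 1))) (Fin (2 * (k + 1))) F) with hX
      have hA1 : X ≠ 1 := fun h => by
        have h0 := hfix' (Pi.single ⟨0, by omega⟩ 1) (by rw [h]; rfl)
        simpa using congrFun h0 ⟨0, by omega⟩
      obtain ⟨R, e, c, -, hRe, hR, hc⟩ := test A ⟨1, Matrix.toLin'.injective (by
        rw [toLin_pow, one_smul, Matrix.toLin'_one]; exact LinearMap.ext hA)⟩ (hzns A hA hA1)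
      have hc1 := hroot c (hiso R X c hR hA hc)
      subst hc1
      have hinj : Function.Injective X := fun u v h => by
        have h' := congrArg (X ^ (r - 1)) h
        rwa [← Module.End.mul_apply, ← Module.End.mul_apply, ← pow_succ, Nat.sub_add_cancel hr.one_le, hA, hA] at h'
      let g : (Fin (2 * (k + 1)) → F) ≃ₗ[F] (Fin (2 * (k + 1)) → F) := LinearEquiv.ofInjectiveEndo X hinj
      have hgi : g ∈ isoG R := fun v => by
        show R (X v) = R v
        rw [hc, one_mul]
      have hgr : g ^ r = 1 := by
        have hpow : ∀ (j : ℕ) v, (g ^ j) v = (X ^ j) v := fun j => by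
          induction j with
          | zero => exact fun v => rfl
          | succ j ih => intro v; rw [pow_succ', pow_succ', LinearEquiv.mul_apply, Module.End.mul_apply, ih]; rfl
        exact LinearEquiv.ext fun v => (hpow r v).trans (hA v)
      have h1 : g.toLinearMap.charpoly.eval 1 ≠ 0 := fun h => by
        obtain ⟨a, ha⟩ := ((Module.End.hasEigenvalue_iff_isRoot_charpoly g.toLinearMap 1).2 h).exists_hasEigenvector
        refine ha.2 (hfix' a ?_)
        have h' := Module.End.mem_eigenspace_iff.1 ha.1
        rw [one_smul] at h'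
        exact h'
      have hReal : Cfsg.Agent.Lib.Classical.OrthTorsion.Real R r g.toLinearMap.charpoly := ⟨g, hgi, hgr, rfl⟩
      have heven : Even w := by
        by_contra hodd'
        have hd' : w ∣ k + 1 := (Nat.coprime_two_right.2 (Nat.not_even_iff_odd.1 hodd')).dvd_of_dvd_mul_left ⟨t, ht⟩
        have h1' := orderOf_dvd_iff_pow_eq_one.1 hd'
        rcases hk with ⟨⟨e', he'⟩, h⟩ | ⟨⟨ζ, hζ, e', he'⟩, h⟩
        · exact hne (h.symm.trans h1')
        · exact hodd' (Cfsg.Agent.Lib.Classical.OrthTorsion.real_minus_cond (p := p) (q := Fintype.card F) rfl hr hr2 hrp rfl hζ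
            (hReal.map (R := Cfsg.Agent.Lib.Classical.QuadF2.minusQ k 1 ζ) (e.trans e'.symm) fun a => by
              rw [hRe, ← he']; simp) h1).1
      rcases hk with ⟨⟨e', he'⟩, h⟩ | ⟨⟨ζ, hζ, e', he'⟩, h⟩
      · have := Cfsg.Agent.Lib.Classical.OrthTorsion.real_plus_cond (p := p) (q := Fintype.card F) rfl hr hr2 hrp rfl heven
          (hReal.map (R := plusQ (k + 1) F) (e.trans e'.symm) fun a => by
            rw [hRe, ← he']; simp) h1
        exact hne (h.symm.trans this)
      · have := (Cfsg.Agent.Lib.Classical.OrthTorsion.real_minus_cond (p := p) (q := Fintype.card F) rfl hr hr2 hrp rfl hζ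
            (hReal.map (R := Cfsg.Agent.Lib.Classical.QuadF2.minusQ k 1 ζ) (e.trans e'.symm) fun a => by
              rw [hRe, ← he']; simp) h1).2
        exact hne (this.symm.trans h)
  · -- every element fixes a point
    intro hcase x hx hz hns
    obtain ⟨A, rfl⟩ := hfromSL x hx
    obtain ⟨z, hz⟩ := hz
    rw [← map_pow] at hz
    have hz' : ((A ^ r : Matrix.SpecialLinearGroup (Fin n) F) : Matrix (Fin n) (Fin n) F) = z • 1 := hz
    set X := Matrix.toLin' (A : Matrix (Fin n) (Fin n) F) with hX
    have finish : ∀ (P : Matrix.SpecialLinearGroup (Fin n) F) (Y : Module.End F (Fin n → F)) (c : F), c ≠ 0 →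
        Matrix.toLin' ((P⁻¹ * A * P : Matrix.SpecialLinearGroup (Fin n) F) : Matrix (Fin n) (Fin n) F) = Y →
        (∀ u v, B (Y u) (Y v) = c * B u v) →
        ∃ g ∈ Cfsg.Geo.specialLinear (Fin n) F,
          g⁻¹ * Matrix.SpecialLinearGroup.toGL A * g ∈ Cfsg.Geo.quadSimilarityGroup Q := by
      intro P Y c hc hP hY
      refine ⟨Matrix.SpecialLinearGroup.toGL P, hmemSL P, ?_⟩
      rw [← map_inv, ← map_mul, ← map_mul]
      exact hmemH _ Y c hc hP hY
    -- forms given in coordinates of a basis
    have mkForm : ∀ (b' : Basis (Fin n) F (Fin n → F)) (M : Matrix (Fin n) (Fin n) F),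
        ∃ B' : LinearMap.BilinForm F (Fin n → F), ∀ i j, B' (b' i) (b' j) = M i j := fun b' M =>
      ⟨Matrix.toBilin b' M, fun i j => by
        rw [← LinearMap.BilinForm.toMatrix_apply b', LinearMap.BilinForm.toMatrix_toBilin]⟩
    rcases hcase with rfl | ⟨hr35, hnr, hv⟩
    · have hz2 : ∀ v, X (X v) = z • v := fun v => by
        have := sl_pow_eq_smul_iff.1 hz' v
        rwa [pow_two, Module.End.mul_apply] at this
      rcases invol_cases (n := n) (A := A) (by omega) ⟨z, hz'⟩ with ⟨-, l, hl, hl2⟩ | ⟨-, c, hc, hc2⟩ | ⟨h20, -⟩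
      · obtain ⟨b', ε, hε⟩ := NotOrth.eigen_basis (X := l⁻¹ • X) (finrank_fin_fun F) (r := 2)
          (by simpa using h2) (IsPrimitiveRoot.neg_one p fun e => h2 (by
            have := (CharP.cast_eq_zero_iff F p 2).2 (e ▸ dvd_rfl)
            simpa using this))
          (fun v => by
            rw [pow_two, Module.End.mul_apply, LinearMap.smul_apply, LinearMap.smul_apply, map_smul, hl2, smul_smul,
              smul_smul]
            rw [show l⁻¹ * l⁻¹ * (l * l) = 1 by field_simp, one_smul])
        obtain ⟨B', hB'⟩ := mkForm b' (Matrix.diagonal d)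
        have hB'' : ∀ i j, B' (b' i) (b' j) = if i = j then d i else 0 := fun i j => by
          rw [hB', Matrix.diagonal_apply]
        have hXb : ∀ i, X (b' i) = (l * (-1 : F) ^ (ε i).val) • b' i := fun i => by
          rw [mul_smul, ← hε i, LinearMap.smul_apply, smul_inv_smul₀ hl]
        have hsim : B'.compl₁₂ X X = (l * l) • B' := b'.ext fun i => b'.ext fun j => by
          simp only [LinearMap.compl₁₂_apply, hXb, map_smul, LinearMap.smul_apply, hB'', smul_eq_mul]
          split_ifs with hij
          · subst hij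
            have h1 : ((-1 : F) ^ (ε i).val) * (-1 : F) ^ (ε i).val = 1 := by rw [← mul_pow]; simp
            linear_combination (l * l * d i) * h1
          · ring
        obtain ⟨T, hT⟩ := NotOrth.exists_similitude h2 hb hB'' hd hd one_ne_zero
          ⟨∏ i, d i, by simp⟩ (X := X) (c := l * l)
          (fun u v => by simpa using LinearMap.congr_fun (LinearMap.congr_fun hsim u) v)
        obtain ⟨P, hP⟩ := sl_conj_semisimple (n := n) (A := A) (y := T.symm.conj X) (by omega) h2 hl hl2
          (fun v => by simp [LinearEquiv.conj_apply, X, ← Matrix.toLin'_apply, hl2])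
          (by
            have : T.symm.conj X - l • LinearMap.id = T.symm.conj (X - l • LinearMap.id) := by
              refine LinearMap.ext fun v => ?_
              simp [LinearEquiv.conj_apply]
            rw [this, finrank_ker_conj])
        exact finish P _ (l * l) (mul_ne_zero hl hl) hP fun u v => by simpa [LinearEquiv.conj_apply] using hT u v
      · have hcn : ¬ IsSquare c := fun ⟨y, hy⟩ => hc y (by rw [hy, sq])
        have hc0 : c ≠ 0 := fun h => hc 0 (by rw [h]; ring)
        obtain ⟨t, ht⟩ : 2 ∣ n := by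
          rw [← even_iff_two_dvd]
          by_contra hev
          obtain ⟨m, hm⟩ := Nat.not_even_iff_odd.1 hev
          have hdet : c ^ n = 1 := by
            have hXc : X * X = c • (1 : Module.End F (Fin n → F)) := LinearMap.ext hc2
            have := congrArg LinearMap.det hXc
            rw [map_mul, LinearMap.det_smul, map_one, mul_one, finrank_fin_fun,
              LinearMap.det_toLin', A.det_coe, one_mul] at this
            exact this.symm
          refine hc (c ^ (m + 1)) ?_
          calc (c ^ (m + 1)) ^ 2 = c ^ n * c := by rw [hm]; ring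
            _ = c := by rw [hdet, one_mul]
        have ht0 : 0 < t := by omega
        obtain ⟨s₀, hs₀⟩ : ∃ s₀ : F, IsSquare ((∏ i, d i) * ((c - s₀ ^ 2) * c ^ (t - 1))) := by
          by_cases hsq : IsSquare ((∏ i, d i) * (c * c ^ (t - 1)))
          · exact ⟨0, by simpa using hsq⟩
          obtain ⟨u, w, huw⟩ := Cfsg.Agent.Lib.Forms.exists_sq_add_sq (a := c⁻¹) (b := c⁻¹) h2
            (inv_ne_zero hc0) (inv_ne_zero hc0)
          refine ⟨u, ?_⟩
          have hw : c - u ^ 2 = w ^ 2 := by
            field_simp at huw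
            linear_combination -huw
          rw [hw]
          have h1 : IsSquare (((∏ i, d i) * (c * c ^ (t - 1))) * c) := mul_nonsquare h2 hsq hcn
          obtain ⟨y, hy⟩ := h1
          refine ⟨y * w / c, ?_⟩
          field_simp
          linear_combination (w ^ 2) * hy
        let sf : Fin t → F := fun k => if (k : ℕ) = 0 then s₀ else 0
        let bs : Basis (Fin t × Fin 2) F (Fin n → F) := (Pi.basisFun F (Fin n)).reindex
          ((finCongr (by omega : n = t * 2)).trans finProdFinEquiv.symm)
        let M : Matrix (Fin t × Fin 2) (Fin t × Fin 2) F := fun i j =>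
          if i.1 = j.1 then (if i.2 = 0 then (if j.2 = 0 then 1 else sf i.1) else (if j.2 = 0 then sf i.1 else c)) else 0
        let B' : LinearMap.BilinForm F (Fin n → F) := Matrix.toBilin bs M
        have hB' : ∀ i j, B' (bs i) (bs j) = M i j := fun i j => by
          rw [← LinearMap.BilinForm.toMatrix_apply bs, LinearMap.BilinForm.toMatrix_toBilin]
        let Y : Module.End F (Fin n → F) := bs.constr F fun i =>
          if i.2 = 0 then bs (i.1, 1) else c • bs (i.1, 0)
        have hY0 : ∀ k, Y (bs (k, 0)) = bs (k, 1) := fun k => (bs.constr_basis F _ _).trans (if_pos rfl)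
        have hY1 : ∀ k, Y (bs (k, 1)) = c • bs (k, 0) := fun k => (bs.constr_basis F _ _).trans (if_neg (show (1 : Fin 2) ≠ 0 by decide))
        have hsim : B'.compl₁₂ Y Y = c • B' := bs.ext fun ⟨i, a⟩ => bs.ext fun ⟨j, a'⟩ => by
          simp only [LinearMap.compl₁₂_apply, LinearMap.smul_apply, hB', smul_eq_mul]
          fin_cases a <;> fin_cases a' <;>
            simp [hY0, hY1, hB', M] <;> split_ifs <;> first | (subst_vars; ring) | rfl | simp_all
        have hYY : Y ∘ₗ Y = c • LinearMap.id := bs.ext fun ⟨i, a⟩ => by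
          fin_cases a <;> simp [hY0, hY1]
        let v' : Fin t × Fin 2 → (Fin n → F) := fun i =>
          if i.2 = 0 then bs i else bs i - sf i.1 • bs (i.1, 0)
        let d' : Fin t × Fin 2 → F := fun i => if i.2 = 0 then 1 else c - sf i.1 ^ 2
        have hd' : ∀ i, d' i ≠ 0 := fun i => by
          simp only [d']
          split_ifs
          · exact one_ne_zero
          · exact fun h => hc (sf i.1) (sub_eq_zero.1 h).symm
        have hv' : ∀ i j, B' (v' i) (v' j) = if i = j then d' i else 0 := by
          rintro ⟨i, a⟩ ⟨j, a'⟩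
          fin_cases a <;> fin_cases a' <;>
            simp [v', d', hB', M] <;> split_ifs <;> first | (subst_vars; ring) | rfl | simp_all
        have hli : LinearIndependent F v' := LinearMap.BilinForm.linearIndependent_of_iIsOrtho (B := B')
          (fun i j hij => show B' (v' i) (v' j) = 0 by rw [hv', if_neg hij])
          (fun i h => hd' i (by
            have h' : B' (v' i) (v' i) = 0 := h
            rwa [hv', if_pos rfl] at h'))
        let bv := basisOfLinearIndependentOfCardEqFinrank' v' hli (by
          rw [Fintype.card_prod, Fintype.card_fin, Fintype.card_fin, finrank_fin_fun]; omega)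
        let η : Fin t × Fin 2 ≃ Fin n := finProdFinEquiv.trans (finCongr (by omega : t * 2 = n))
        let b' := bv.reindex η
        have hb' : ∀ i j, B' (b' i) (b' j) = if i = j then d' (η.symm i) else 0 := fun i j => by
          simp [b', bv, hv']
        have hprod : ∏ i, d' (η.symm i) = (c - s₀ ^ 2) * c ^ (t - 1) := by
          rw [Equiv.prod_comp η.symm d', Fintype.prod_prod_type]
          obtain ⟨t', rfl⟩ : ∃ t', t = t' + 1 := ⟨t - 1, by omega⟩
          rw [Fin.prod_univ_succ]
          simp [d', sf, Fin.prod_univ_two]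
        obtain ⟨T, hT⟩ := NotOrth.exists_similitude h2 hb hb' hd (fun i => hd' _) one_ne_zero
          (by simpa [hprod] using hs₀) (X := Y) (c := c)
          (fun u v => by simpa using LinearMap.congr_fun (LinearMap.congr_fun hsim u) v)
        obtain ⟨P, hP⟩ := sl_conj_nonsquare (n := n) (A := A) (y := T.symm.conj Y) (by omega) hc hc2
          (fun v => by
            have hYv : ∀ w, Y (Y w) = c • w := fun w => LinearMap.congr_fun hYY w
            simp [LinearEquiv.conj_apply, hYv])
        exact finish P _ c hc0 hP fun u v => by simpa [LinearEquiv.conj_apply] using hT u v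
      · exact absurd h20 h2
    · subst hnr
      have hr2 : n ≠ 2 := by omega
      have hrF : (n : F) ≠ 0 := fun h => by
        have hpn : p = n := (Nat.prime_dvd_prime_iff_eq Fact.out hr).1 ((CharP.cast_eq_zero_iff F p n).1 h)
        obtain ⟨e, -, he⟩ := FiniteField.card F p
        have h1 : n ∣ Fintype.card F - 1 := dvd_of_one_le_padicValNat (by omega)
        have h3 : n ∣ Fintype.card F := by rw [he, hpn]; exact dvd_pow_self n e.ne_zero
        have h4 := Nat.dvd_sub h3 h1
        rw [show Fintype.card F - (Fintype.card F - 1) = 1 by have := Fintype.card_pos (α := F); omega, Nat.dvd_one] at h4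
        exact hr.ne_one h4
      have hdet : LinearMap.det X = 1 := by rw [LinearMap.det_toLin', A.det_coe]
      have hz1 := pow_eq_one_of_exact hr2 hv hdet (sl_pow_eq_smul_iff.1 hz')
      subst hz1
      have hX1 : ∀ v, (X ^ n) v = v := fun v => by rw [sl_pow_eq_smul_iff.1 hz' v, one_smul]
      obtain ⟨a₀, ha₀⟩ := exists_prime_orderOf_dvd_card' (G := Fˣ) n (by
        rw [Nat.card_units, Nat.card_eq_fintype_card]; exact dvd_of_one_le_padicValNat (by omega))
      have hζ : IsPrimitiveRoot (a₀ : F) n := IsPrimitiveRoot.iff_orderOf.2 (orderOf_units.trans ha₀)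
      haveI : NeZero n := ⟨hr.ne_zero⟩
      obtain ⟨be, ε, hε⟩ := NotOrth.eigen_basis (X := X) (finrank_fin_fun F) hrF hζ hX1
      have hsum : ∑ i, ε i = 0 := by
        have hM : LinearMap.toMatrix be be X = Matrix.diagonal fun i => (a₀ : F) ^ (ε i).val := by
          ext i j
          rw [LinearMap.toMatrix_apply, hε, map_smul, Basis.repr_self, Finsupp.smul_single, Finsupp.single_apply,
            Matrix.diagonal_apply, smul_eq_mul, mul_one]
          by_cases hij : i = j
          · subst hij; simp
          · rw [if_neg (Ne.symm hij), if_neg hij]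
        have h := LinearMap.det_toMatrix be X
        rw [hM, Matrix.det_diagonal, hdet, Finset.prod_pow_eq_pow_sum, hζ.pow_eq_one_iff_dvd,
          ← ZMod.natCast_eq_zero_iff, Nat.cast_sum] at h
        simpa [ZMod.natCast_zmod_val] using h
      obtain ⟨σ, hσ, κ, hκ⟩ := exists_pairing hr35 ε hsum
      let M : Matrix (Fin n) (Fin n) F := fun i j => if σ i = j then 1 else 0
      obtain ⟨B', hB'⟩ := mkForm be M
      have hMsym : ∀ i j, M i j = M j i := fun i j => by
        simp only [M]
        by_cases h : σ i = j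
        · rw [if_pos h, if_pos (by rw [← h, hσ])]
        · rw [if_neg h, if_neg fun h' => h (by rw [← h', hσ])]
      have hB'sym : ∀ u v, B' u v = B' v u := by
        have hfl : LinearMap.flip B' = B' := be.ext fun i => be.ext fun j => by
          rw [LinearMap.flip_apply, hB', hB', hMsym]
        exact fun u v => LinearMap.congr_fun (LinearMap.congr_fun hfl v) u
      have hB'nd : B'.SeparatingLeft := fun u hu => be.ext_elem fun i => by
        have := hu (be (σ i))
        rw [← be.sum_repr u] at this
        simp only [map_sum, LinearMap.sum_apply, map_smul, LinearMap.smul_apply, hB', M, smul_eq_mul,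
          σ.injective.eq_iff, mul_ite, mul_one, mul_zero, Finset.sum_ite_eq', Finset.mem_univ, if_true] at this
        simpa using this
      obtain ⟨b₁, d₁, hd₁, hb₁⟩ := Cfsg.Agent.Lib.Forms.exists_diag_basis h2 B' ⟨hB'sym⟩
        ((LinearMap.IsRefl.nondegenerate_iff_separatingLeft (fun u v h => by rw [hB'sym]; exact h)).2 hB'nd)
      let η := finCongr (finrank_fin_fun (n := n) F)
      have hb' : ∀ i j, B' (b₁.reindex η i) (b₁.reindex η j) = if i = j then (d₁ ∘ η.symm) i else 0 := fun i j => by
        simp [hb₁]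
      have hsim : B'.compl₁₂ X X = ((a₀ : F) ^ κ.val) • B' := be.ext fun i => be.ext fun j => by
        simp only [LinearMap.compl₁₂_apply, LinearMap.smul_apply, hε, map_smul, hB', M, smul_eq_mul]
        split_ifs with hij
        · subst hij
          rw [mul_one, mul_one, ← pow_add]
          have hmod : ((ε i).val + (ε (σ i)).val) % n = κ.val := by rw [← ZMod.val_add, hκ]
          rw [add_comm ((ε (σ i)).val), ← Nat.mod_add_div ((ε i).val + (ε (σ i)).val) n, hmod, pow_add, pow_mul,
            hζ.pow_eq_one, one_pow, mul_one]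
        · ring
      set s : F := (∏ i, d i) * ∏ i, (d₁ ∘ η.symm) i with hs
      have hs0 : s ≠ 0 := mul_ne_zero (Finset.prod_ne_zero_iff.2 fun i _ => hd i)
        (Finset.prod_ne_zero_iff.2 fun i _ => hd₁ _)
      have hsq : IsSquare ((∏ i, s * d i) * ∏ i, (d₁ ∘ η.symm) i) := by
        obtain ⟨m, hm⟩ := hr.odd_of_ne_two hr2
        refine ⟨s ^ (m + 1), ?_⟩
        rw [Finset.prod_mul_distrib, Finset.prod_const, Finset.card_univ, Fintype.card_fin, mul_assoc, ← hs]
        calc s ^ n * s = s ^ (2 * m + 1) * s := by rw [← hm]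
          _ = _ := by ring
      obtain ⟨T, hT⟩ := NotOrth.exists_similitude h2 hb hb' hd (fun i => hd₁ _) hs0 hsq (X := X)
        (c := (a₀ : F) ^ κ.val) (fun u v => by simpa using LinearMap.congr_fun (LinearMap.congr_fun hsim u) v)
      obtain ⟨P, hP⟩ := exists_sl_conj (A := A) (y := T.symm.conj X) T
        (fun v => by simp [LinearEquiv.conj_apply, X]) fun δ _ => by
          let i₀ : Fin n := ⟨0, by omega⟩
          let C₀ : Module.End F (Fin n → F) := be.constr F fun i => (if i = i₀ then δ else 1) • be i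
          have hC₀ : ∀ i, C₀ (be i) = (if i = i₀ then δ else 1) • be i := fun i => be.constr_basis F _ i
          refine ⟨T.symm.conj C₀, fun v => ?_, ?_⟩
          · have hcomm : C₀ ∘ₗ X = X ∘ₗ C₀ := be.ext fun i => by
              rw [LinearMap.comp_apply, LinearMap.comp_apply, hε, map_smul, hC₀, map_smul, hε]
              exact smul_comm _ _ _
            simp [LinearEquiv.conj_apply]
            exact LinearMap.congr_fun hcomm (T v)
          · have hd0 : LinearMap.det C₀ = δ := by
              have hC : LinearMap.toMatrix be be C₀ = Matrix.diagonal fun i => if i = i₀ then δ else 1 := by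
                ext i j
                rw [LinearMap.toMatrix_apply, Basis.constr_basis, map_smul, Basis.repr_self, Finsupp.smul_single,
                  Finsupp.single_apply, Matrix.diagonal_apply, smul_eq_mul, mul_one]
                by_cases hij : i = j
                · subst hij; simp
                · rw [if_neg (Ne.symm hij), if_neg hij]
              rw [← LinearMap.det_toMatrix be, hC, Matrix.det_diagonal, Finset.prod_ite_eq' Finset.univ i₀,
                if_pos (Finset.mem_univ _)]
            rw [LinearEquiv.conj_apply, LinearMap.comp_assoc]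
            exact (LinearMap.det_conj C₀ T.symm).trans hd0
      exact finish P _ _ (pow_ne_zero _ a₀.ne_zero) hP fun u v => by simpa [LinearEquiv.conj_apply] using hT u v

end Cfsg.Agent.S5981
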