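import Cfsg.Statements.S5982
import Cfsg.Agent.S5981
import Cfsg.Agent.Lib.Elusive.UnitTests

set_option autoImplicit false
open scoped MatrixGroups
open Cfsg

namespace Cfsg.Agent.S5982

open Module Cfsg.Agent.Lib.Elusive
open scoped Matrix
open Cfsg.Agent.Lib.Classical


/-- Elements of prime order of PSL_n(q), q = q₀², and the subgroups of unitary type. Here `T = PSL_n(F)` for a field `F` with `q = q₀²` elements (`n ≥ 3`), `f` is a non-degenerate unitary form on `F^n` for the involutory automorphism `x ↦ x^{q₀}`, and `H` is the subgroup of matrices of determinant 1 that preserve `f` up to a scalar — a subgroup of type GU_n(q₀) (maximality is not assumed); Ω is the set of cosets of `H` in `T`, so an element of `T` of prime order `r` (a matrix `x` of determinant 1 with `x^r` scalar, `x` not scalar) fixes a point of Ω exactly when some conjugate of `x` by a matrix of determinant 1 preserves `f` up to a scalar. Let `r` be a prime dividing the index of `H`, with `r = 2` or `r` different from the characteristic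 `p`, and with `(n, r) ≠ (6, 3)`. Then every element of `T` of order `r` fixes a point of Ω if and only if either `r = 2` and (`p = 2` or `(n)_2 ≤ (q − 1)_2`), or `r ∈ {3, 5}`, `n = r` and `(q₀ − 1)_r = r`. (Odd `r = p` and the case `(n, r) = (6, 3)` are not covered by this statement.) -/
theorem result {F : Type*} [Field F] [Fintype F] {p : ℕ} [Fact p.Prime] [CharP F p] {q : ℕ} (hq : Fintype.card F = q)
    (q₀ : ℕ) (hq₀ : q = q₀ ^ 2) (n : ℕ) (hn : 3 ≤ n) (f : (Fin n → F) → (Fin n → F) → F) (hf : Cfsg.Geo.IsUnitaryFormPow q₀ f)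
    (r : ℕ) [Fact r.Prime] (hr : r = 2 ∨ r ≠ p) (hgap : ¬ (n = 6 ∧ r = 3))
    (hΩ : r ∣ (Cfsg.Geo.similarityGroup f).relIndex (Cfsg.Geo.specialLinear (Fin n) F)) :
    (∀ x ∈ Cfsg.Geo.specialLinear (Fin n) F, (∃ z : F, ((x ^ r : GL (Fin n) F) : Matrix (Fin n) (Fin n) F) = z • (1 : Matrix (Fin n) (Fin n) F)) →
      (∀ z : F, (x : Matrix (Fin n) (Fin n) F) ≠ z • (1 : Matrix (Fin n) (Fin n) F)) →
      ∃ g ∈ Cfsg.Geo.specialLinear (Fin n) F, g⁻¹ * x * g ∈ Cfsg.Geo.similarityGroup f) ↔
    ((r = 2 ∧ (p = 2 ∨ padicValNat 2 n ≤ padicValNat 2 (q - 1))) ∨ ((r = 3 ∨ r = 5) ∧ n = r ∧ padicValNat r (q₀ - 1) = 1)) := by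
  classical
  subst hq
  have hF : Fintype.card F = q₀ ^ 2 := hq₀
  have hq2 := Herm.two_le_q hF
  have hr0 : r.Prime := Fact.out
  have hn0 : n ≠ 0 := by omega
  haveI : Nonempty (Fin n) := ⟨⟨0, by omega⟩⟩
  have hmemSL : ∀ A : Matrix.SpecialLinearGroup (Fin n) F,
      Matrix.SpecialLinearGroup.toGL A ∈ Cfsg.Geo.specialLinear (Fin n) F := fun A =>
    MonoidHom.mem_ker.2 (Units.ext A.2)
  have hfromSL : ∀ g ∈ Cfsg.Geo.specialLinear (Fin n) F, ∃ A : Matrix.SpecialLinearGroup (Fin n) F,
      Matrix.SpecialLinearGroup.toGL A = g := fun g hg =>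
    ⟨⟨g.1, by simpa using congrArg Units.val (MonoidHom.mem_ker.1 hg)⟩, Units.ext rfl⟩
  have hpq : ∀ {s : ℕ}, s.Prime → s ∣ q₀ → s = p := fun hs h => by
    obtain ⟨e, -, he'⟩ := FiniteField.card F p
    have h1 : _ ∣ Fintype.card F := hF ▸ h.trans (dvd_pow_self q₀ two_ne_zero)
    rw [he'] at h1
    exact (Nat.prime_dvd_prime_iff_eq hs Fact.out).1 (hs.dvd_of_dvd_pow h1)
  constructor
  · -- elements of order `r` without fixed points
    intro hall
    have test : ∀ A : Matrix.SpecialLinearGroup (Fin n) F,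
        (∃ z : F, ((A ^ r : Matrix.SpecialLinearGroup (Fin n) F) : Matrix (Fin n) (Fin n) F) = z • (1 : Matrix (Fin n) (Fin n) F)) →
        (∀ z : F, (A : Matrix (Fin n) (Fin n) F) ≠ z • (1 : Matrix (Fin n) (Fin n) F)) →
        ∃ (R : (Fin n → F) → (Fin n → F) → F) (c : F), Cfsg.Geo.IsUnitaryFormPow q₀ R ∧ c ≠ 0 ∧
          ∀ u v, R (Matrix.toLin' (A : Matrix (Fin n) (Fin n) F) u) (Matrix.toLin' (A : Matrix (Fin n) (Fin n) F) v) =
            c * R u v := fun A hz hns =>
      UnitSim.exists_form hf (hall _ (hmemSL A) (by rw [← map_pow]; exact hz) hns)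
    by_cases hr2 : r = 2
    · subst hr2
      refine Or.inl ⟨rfl, ?_⟩
      by_contra hcon
      push Not at hcon
      obtain ⟨hp2, hv⟩ := hcon
      have h2 : (2 : F) ≠ 0 := fun h => hp2 ((Nat.prime_dvd_prime_iff_eq Fact.out Nat.prime_two).1
        ((CharP.cast_eq_zero_iff F p 2).1 (by exact_mod_cast h)))
      obtain ⟨c, t, hc, hnt, hdet⟩ := exists_nonpow (F := F) (r := 2) (dvd_card_sub_one h2) hn0
        (fun h => absurd h.1 (by omega))
      obtain ⟨A, hA⟩ := exists_nonpow_elt (F := F) (p := p) (r := 2) (Ne.symm hp2) hc hnt hdet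
      have hns : ∀ z : F, (A : Matrix (Fin n) (Fin n) F) ≠ z • (1 : Matrix (Fin n) (Fin n) F) := fun z hz =>
        hc z (by
          have h := congrFun (hA (Pi.single ⟨0, by omega⟩ 1)) ⟨0, by omega⟩
          rw [hz, map_smul, Matrix.toLin'_one, ← Module.End.one_eq_id, _root_.smul_pow, one_pow] at h
          simpa using h)
      obtain ⟨R, c', hR, hc', hX⟩ := test A ⟨c, sl_pow_eq_smul_iff.2 hA⟩ hns
      obtain ⟨hfix, hsq⟩ := UnitSim.mult_facts hF hn0 hR hX hA
      have hc0 : c ≠ 0 := fun h => hc 0 (by rw [h]; ring)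
      have hring : ringChar F ≠ 2 := fun e => h2 (by
        have := ringChar.spec F 2
        simpa using this.2 (e ▸ dvd_rfl))
      have hq1 : c' ^ (q₀ - 1) = 1 := mul_right_cancel₀ hc' (by
        rw [← pow_succ, Nat.sub_add_cancel (by omega), hfix, one_mul])
      obtain ⟨y, hy⟩ := (FiniteField.isSquare_iff hring hc0).2 (by
        obtain ⟨m, hm⟩ : 2 ∣ q₀ - 1 := by
          rcases Nat.even_or_odd q₀ with he | ho
          · exact absurd (hpq Nat.prime_two he.two_dvd).symm hp2
          · obtain ⟨m, hm⟩ := ho; exact ⟨m, by omega⟩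
        have e : Fintype.card F / 2 = (q₀ + 1) * m := by
          have hm' : q₀ = 2 * m + 1 := by omega
          rw [hF, hm', show (2 * m + 1) ^ 2 = 2 * ((2 * m + 1 + 1) * m) + 1 by ring]
          omega
        rw [e, pow_mul, ← hsq, ← pow_mul, ← hm, hq1])
      exact hc y (by rw [hy, sq])
    have hrp : r ≠ p := hr.resolve_left hr2
    have hrq : ¬ r ∣ q₀ := fun h => hrp (hpq hr0 h)
    have hr3 : 3 ≤ r := by have := hr0.two_le; omega
    refine Or.inr ?_
    obtain ⟨j, hj2, hjn, hj⟩ := UnitTests.index_cases hF hrq (by omega) hf hΩ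
    have hne : (-1 : ZMod r) ≠ 1 := UnitTests.neg_one_ne hr2
    by_cases hsplit : r ∣ Fintype.card F - 1
    · -- the split case
      have hQ2 : (q₀ : ZMod r) ^ 2 = 1 := by
        have := (ZMod.natCast_eq_zero_iff _ _).2 hsplit
        rw [Nat.cast_sub Fintype.card_pos, sub_eq_zero, Nat.cast_one, hF, Nat.cast_pow] at this
        exact this
      have hdq : r ∣ q₀ - 1 := by
        rw [← ZMod.natCast_eq_zero_iff, Nat.cast_sub (by omega), Nat.cast_one, sub_eq_zero]
        rcases sq_eq_one_iff.1 hQ2 with h | h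
        · exact h
        · rw [h, neg_neg, one_pow] at hj
          exact absurd hj.symm hne
      by_contra hex
      let K : Subfield F := RingHom.eqLocusField (Cfsg.Agent.Lib.UnitaryConj.qHom hF) (RingHom.id F)
      have hmem : ∀ (x : Fˣ), orderOf x ∣ q₀ - 1 → (x : F) ∈ K := fun x hx => by
        show (x : F) ^ q₀ = (x : F)
        obtain ⟨k, hk⟩ := hx
        rw [show q₀ = (q₀ - 1) + 1 by omega, pow_succ, hk, pow_mul, ← Units.val_pow_eq_pow_val, pow_orderOf_eq_one,
          Units.val_one, one_pow, one_mul]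
      have hordK : ∀ x : K, orderOf x = orderOf (x : F) := fun x =>
        (orderOf_injective K.subtype.toMonoidHom Subtype.coe_injective x).symm
      obtain ⟨g, hg, -⟩ := exists_gen F
      have hgen : ∀ k, k ∣ q₀ - 1 → ∃ x : K, orderOf x = k := fun k hk => by
        have hk' : k ∣ Fintype.card F - 1 := hk.trans (by
          rw [hF, ← one_pow 2, Nat.sq_sub_sq]; exact dvd_mul_left _ _)
        obtain ⟨m, hm⟩ := hk'
        have hpos : 0 < Fintype.card F - 1 := Nat.sub_pos_of_lt Fintype.one_lt_card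
        have hm0 : m ≠ 0 := fun h => by rw [h, mul_zero] at hm; omega
        have hk0 : 0 < k := Nat.pos_of_dvd_of_pos hk (by omega)
        have ho : orderOf (g ^ m) = k := by
          rw [orderOf_pow_of_dvd hm0 (by rw [hg, hm]; exact dvd_mul_left _ _), hg, hm, Nat.mul_div_cancel _ (by omega)]
        exact ⟨⟨_, hmem _ (ho.symm ▸ hk)⟩, by rw [hordK, orderOf_units, ho]⟩
      obtain ⟨a, ha⟩ : ∃ a : K, orderOf (a ^ n) = r ∧ (a ^ r) ^ n = 1 ∨
          (a ^ r = 1 ∧ orderOf a = r ∧ r ∣ n ∧ 7 ≤ n) := by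
        obtain ⟨a₀, hao⟩ := hgen r hdq
        have har : a₀ ^ r = 1 := hao ▸ pow_orderOf_eq_one _
        by_cases hrn : r ∣ n
        swap
        · refine ⟨a₀, Or.inl ⟨orderOf_eq_prime ?_ fun h => hrn (hao ▸ orderOf_dvd_of_pow_eq_one h), ?_⟩⟩
          · rw [← pow_mul, mul_comm, pow_mul, har, one_pow]
          · rw [har, one_pow]
        by_cases h7 : 7 ≤ n
        · exact ⟨a₀, Or.inr ⟨har, hao, hrn, h7⟩⟩
        have hnr : n = r ∧ (r = 3 ∨ r = 5) := by
          obtain ⟨k, rfl⟩ := hrn
          rcases Nat.lt_or_ge k 2 with h | h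
          · obtain rfl : k = 1 := by
              rcases Nat.eq_zero_or_pos k with rfl | h0
              · omega
              · omega
            refine ⟨mul_one r, ?_⟩
            have hr6 : r ≤ 6 := by omega
            interval_cases r <;> first | omega | (norm_num at hr0)
          · exfalso
            have h6 : r * 2 ≤ r * k := Nat.mul_le_mul_left r h
            exact hgap ⟨by omega, by omega⟩
        have hv : 2 ≤ padicValNat r (q₀ - 1) := by
          have h1 : padicValNat r (q₀ - 1) ≠ 1 := fun h => hex ⟨hnr.2, hnr.1, h⟩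
          have h3 : 1 ≤ padicValNat r (q₀ - 1) := one_le_padicValNat_of_dvd (by omega) hdq
          omega
        obtain ⟨b, hb⟩ := hgen (r ^ 2) ((Nat.pow_dvd_pow r hv).trans pow_padicValNat_dvd)
        refine ⟨b, Or.inl ⟨?_, ?_⟩⟩
        · rw [hnr.1, orderOf_pow_of_dvd hr0.ne_zero (by rw [hb]; exact dvd_pow_self r two_ne_zero), hb,
            pow_two, Nat.mul_div_cancel _ hr0.pos]
        · rw [hnr.1, ← pow_mul, ← pow_two, ← hb, pow_orderOf_eq_one]
      obtain ⟨d, S, i, s, z, hd1, hdr, hS, hcard, hi⟩ := Cfsg.Agent.S5981.exists_diag_test hr3 hn ha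
      have hd1' : ∏ j, (d j : F) = 1 := by
        have h := congrArg Subtype.val hd1
        rw [SubmonoidClass.coe_finset_prod] at h
        exact h
      obtain ⟨R, c, hR, -, hc⟩ := test ⟨Matrix.diagonal fun j => (d j : F), by rw [Matrix.det_diagonal, hd1']⟩
        ⟨z, by
          refine (Matrix.SpecialLinearGroup.coe_pow _ r).trans ?_
          show Matrix.diagonal (fun j => (d j : F)) ^ r = _
          rw [Matrix.diagonal_pow, Matrix.smul_one_eq_diagonal]
          refine congrArg _ (funext fun j => ?_)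
          have h := congrArg Subtype.val (hdr j)
          simpa using h⟩
        (fun w hw => by
          have hdz : ∀ j, (d j : F) = w := fun j => by simpa using congrFun (congrFun hw j) j
          obtain ⟨j, hj⟩ := Finset.card_pos.1 (show 0 < S.card by omega)
          refine hi j (Subtype.ext ?_)
          show (d i : F) * (d j : F) = (s : F) * (s : F)
          rw [← hS j hj, hdz i, hdz j])
      have e : ∀ k, Matrix.toLin' (Matrix.diagonal fun j => (d j : F)) (Pi.single k 1) = (d k : F) • Pi.single k 1 := fun k => by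
        rw [Matrix.toLin'_apply]; ext j
        rw [Matrix.mulVec_diagonal]
        rcases eq_or_ne j k with rfl | hj <;> simp [*]
      obtain ⟨j, hj⟩ := UnitTests.diag_pairs hF hR (d := fun j => (d j : F)) (c := c)
        (fun k l => by
          rw [← hc]
          show _ = R (Matrix.toLin' (Matrix.diagonal fun j => (d j : F)) _) (Matrix.toLin' (Matrix.diagonal fun j => (d j : F)) _)
          rw [e, e, hR.smul_left, UnitSim.smul_right hR, mul_assoc])
        (S := S) (s := (s : F)) (fun j hj => congrArg Subtype.val (hS j hj)) hcard i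
      have hKfix : ∀ x : K, (x : F) ^ q₀ = x := fun x => x.2
      simp only [hKfix] at hj
      exact hi j (Subtype.ext hj)
    · -- the non-split case
      exfalso
      have hroot : ∀ c : F, c ^ r = 1 → c = 1 := fun c hc0 => by
        have hne : c ≠ 0 := fun h => by rw [h, zero_pow hr0.ne_zero] at hc0; exact zero_ne_one hc0
        simpa [(hr0.coprime_iff_not_dvd.2 hsplit).gcd_eq_one] using
          pow_gcd_eq_one.2 ⟨hc0, FiniteField.pow_card_sub_one_eq_one c hne⟩
      have hpow : (Fintype.card F : ZMod r) ^ j = 1 := by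
        rw [hF, Nat.cast_pow, ← neg_pow_two, ← pow_mul, mul_comm, pow_mul, hj, neg_one_sq]
      have hi2 : 2 ≤ orderOf (Fintype.card F : ZMod r) := by
        have h0 : (Fintype.card F : ZMod r) ≠ 0 := fun h => hrq (hr0.dvd_of_dvd_pow (hF ▸ (ZMod.natCast_eq_zero_iff _ _).1 h))
        have h1 : 0 < orderOf (Fintype.card F : ZMod r) :=
          orderOf_pos_iff.2 (isOfFinOrder_iff_pow_eq_one.2 ⟨r - 1, by omega, ZMod.pow_card_sub_one_eq_one h0⟩)
        have h3 : orderOf (Fintype.card F : ZMod r) ≠ 1 := fun h => hsplit (dvd_card_sub_one_iff.2 h)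
        omega
      obtain ⟨A, hA, hno⟩ := UnitTests.exists_elt (F := F) (p := p) (r := r) (n := n) hrp hr2 hF hi2
        ((Nat.le_of_dvd (by omega) (orderOf_dvd_of_pow_eq_one hpow)).trans hjn) hj
      obtain ⟨R, c, hR, -, hc⟩ := test A ⟨1, sl_pow_eq_smul_iff.2 fun v => by rw [hA v, one_smul]⟩ fun z hz => by
        have hzr : z = 1 := hroot z (by
          have h := congrFun (hA (Pi.single ⟨0, by omega⟩ 1)) ⟨0, by omega⟩
          rw [hz, map_smul, Matrix.toLin'_one, ← Module.End.one_eq_id, _root_.smul_pow, one_pow] at h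
          simpa using h)
        refine hno f hf fun u v => ?_
        rw [hz, hzr, one_smul, Matrix.toLin'_one]
        rfl
      have hc1 : c = 1 := hroot c (by
        rw [(UnitSim.mult_facts hF hn0 hR hc (r := r) (z := 1) fun v => by rw [hA v, one_smul]).2, one_pow])
      exact hno R hR fun u v => by rw [hc, hc1, one_mul]
  · -- every element fixes a point
    intro hcase x hx hz hns
    obtain ⟨A, rfl⟩ := hfromSL x hx
    obtain ⟨z, hz⟩ := hz
    rw [← map_pow] at hz
    have hz' : ((A ^ r : Matrix.SpecialLinearGroup (Fin n) F) : Matrix (Fin n) (Fin n) F) = z • 1 := hz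
    set X := Matrix.toLin' (A : Matrix (Fin n) (Fin n) F) with hX
    rcases hcase with ⟨rfl, hv⟩ | ⟨hr35, hnr, hv⟩
    · rcases invol_cases (n := n) (A := A) hn0 ⟨z, hz'⟩ with ⟨h2, l, hl, hl2⟩ | ⟨h2, c, hc, hc2⟩ | ⟨h20, l, N, hl, hN, hA⟩
      · obtain ⟨b, ε, hε⟩ := NotOrth.eigen_basis (X := l⁻¹ • X) (finrank_fin_fun F) (r := 2)
          (by simpa using h2) (IsPrimitiveRoot.neg_one p fun e => h2 (by
            have := (CharP.cast_eq_zero_iff F p 2).2 (e ▸ dvd_rfl)
            simpa using this))
          (fun v => by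
            rw [pow_two, Module.End.mul_apply, LinearMap.smul_apply, LinearMap.smul_apply, map_smul, hl2, smul_smul,
              smul_smul]
            rw [show l⁻¹ * l⁻¹ * (l * l) = 1 by field_simp, one_smul])
        refine UnitSim.fix_diag hF hn0 hf b (d := fun i => l * (-1 : F) ^ (ε i).val) (fun i => ?_)
          (τ := Equiv.refl _) (fun i => rfl) (c := l * l ^ q₀) (mul_ne_zero hl (pow_ne_zero _ hl)) fun i => ?_
        · rw [mul_smul, ← hε i, LinearMap.smul_apply, smul_inv_smul₀ hl]
        · have hodd : Odd q₀ := by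
            by_contra he
            exact h2 (by
              have := hpq Nat.prime_two (Nat.not_odd_iff_even.1 he).two_dvd
              have h0 := CharP.cast_eq_zero F p
              rw [← this] at h0
              exact_mod_cast h0)
          rw [Equiv.refl_apply, mul_pow, ← pow_mul (-1 : F) _ q₀, mul_comm (ε i).val q₀, pow_mul, hodd.neg_one_pow]
          have : ((-1 : F) ^ (ε i).val) * (-1 : F) ^ (ε i).val = 1 := by rw [← mul_pow]; simp
          linear_combination (l * l ^ q₀) * this
      · exfalso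
        have hp2 : p ≠ 2 := fun e => h2 (by
          have := (CharP.cast_eq_zero_iff F p 2).2 (e ▸ dvd_rfl)
          simpa using this)
        obtain ⟨t, hnt, hdet⟩ := det_nonpow (F := F) (p := p) (r := 2) hp2.symm hc n X (finrank_fin_fun F)
          fun v => by rw [pow_two, Module.End.mul_apply, hc2]
        rw [LinearMap.det_toLin', A.det_coe] at hdet
        refine nonpow_false (F := F) (r := 2) (dvd_card_sub_one h2) hn0 hnt hc hdet.symm ⟨hv.resolve_left hp2, fun _ _ => ?_⟩
        obtain ⟨m, hm⟩ : Odd q₀ := by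
          by_contra he
          exact hp2 (hpq Nat.prime_two (Nat.not_odd_iff_even.1 he).two_dvd).symm
        rw [hF, hm, show (2 * m + 1) ^ 2 = 4 * (m * (m + 1)) + 1 by ring]
        omega
      · exact UnitSim.fix_char_two hF hn0 h20 hf hl hA hN
    · subst hnr
      have hr2 : n ≠ 2 := by omega
      have hdq : n ∣ q₀ - 1 := dvd_of_one_le_padicValNat (by omega)
      have hrF : (n : F) ≠ 0 := fun h => by
        have hpn : p = n := (Nat.prime_dvd_prime_iff_eq Fact.out hr0).1 ((CharP.cast_eq_zero_iff F p n).1 h)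
        exact hr.resolve_left hr2 hpn.symm
      have hv2 : padicValNat n (Fintype.card F - 1) = 1 := by
        have hnd : ¬ n ∣ q₀ + 1 := fun h => by
          have h4 := Nat.dvd_sub h hdq
          rw [show q₀ + 1 - (q₀ - 1) = 2 by omega, Nat.prime_dvd_prime_iff_eq hr0 Nat.prime_two] at h4
          exact hr2 h4
        rw [hF, show q₀ ^ 2 - 1 = (q₀ + 1) * (q₀ - 1) by rw [← Nat.sq_sub_sq, one_pow], padicValNat.mul (by omega) (by omega), hv,
          padicValNat.eq_zero_of_not_dvd hnd, zero_add]
      have hdet : LinearMap.det X = 1 := by rw [LinearMap.det_toLin', A.det_coe]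
      have hz1 := Cfsg.Agent.S5981.pow_eq_one_of_exact hr2 hv2 hdet (sl_pow_eq_smul_iff.1 hz')
      subst hz1
      have hX1 : ∀ v, (X ^ n) v = v := fun v => by rw [sl_pow_eq_smul_iff.1 hz' v, one_smul]
      obtain ⟨a₀, ha₀⟩ := exists_prime_orderOf_dvd_card' (G := Fˣ) n (by
        rw [Nat.card_units, Nat.card_eq_fintype_card]; exact dvd_of_one_le_padicValNat (by omega))
      have hζ : IsPrimitiveRoot (a₀ : F) n := IsPrimitiveRoot.iff_orderOf.2 (orderOf_units.trans ha₀)
      have hafix : (a₀ : F) ^ q₀ = a₀ := by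
        obtain ⟨k, hk⟩ := hdq
        rw [show q₀ = (q₀ - 1) + 1 by omega, pow_succ, hk, pow_mul, hζ.pow_eq_one, one_pow, one_mul]
      haveI : NeZero n := ⟨hr0.ne_zero⟩
      obtain ⟨be, ε, hε⟩ := NotOrth.eigen_basis (X := X) (finrank_fin_fun F) hrF hζ hX1
      have hsum : ∑ i, ε i = 0 := by
        have hM : LinearMap.toMatrix be be X = Matrix.diagonal fun i => (a₀ : F) ^ (ε i).val := by
          ext i j
          rw [LinearMap.toMatrix_apply, hε, map_smul, Basis.repr_self, Finsupp.smul_single, Finsupp.single_apply,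
            Matrix.diagonal_apply, smul_eq_mul, mul_one]
          by_cases hij : i = j
          · subst hij; simp
          · rw [if_neg (Ne.symm hij), if_neg hij]
        have h := LinearMap.det_toMatrix be X
        rw [hM, Matrix.det_diagonal, hdet, Finset.prod_pow_eq_pow_sum, hζ.pow_eq_one_iff_dvd,
          ← ZMod.natCast_eq_zero_iff, Nat.cast_sum] at h
        simpa [ZMod.natCast_zmod_val] using h
      obtain ⟨σ, hσ, κ, hκ⟩ := Cfsg.Agent.S5981.exists_pairing hr35 ε hsum
      refine UnitSim.fix_diag hF hn0 hf be hε hσ (c := (a₀ : F) ^ κ.val) (pow_ne_zero _ a₀.ne_zero) fun i => ?_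
      rw [← pow_mul (a₀ : F) _ q₀, mul_comm _ q₀, pow_mul, hafix, ← pow_add]
      have hmod : ((ε i).val + (ε (σ i)).val) % n = κ.val := by rw [← ZMod.val_add, hκ]
      rw [← Nat.mod_add_div ((ε i).val + (ε (σ i)).val) n, hmod, pow_add, pow_mul, hζ.pow_eq_one, one_pow, mul_one]

end Cfsg.Agent.S5982
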