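import Cfsg.Statements.S5983
import Cfsg.Agent.Lib.OrthSympTwo.Gauss
import Cfsg.Agent.Lib.Elusive.SympModels
import Cfsg.Agent.Lib.Elusive.Models

set_option autoImplicit false
open scoped MatrixGroups
open Cfsg
open Matrix Cfsg.Agent.Lib.Forms Cfsg.Agent.Lib.OrthSympTwo Cfsg.Agent.Lib.Elusive

namespace Cfsg.Agent.S5983

section
variable {F : Type*} [Field F] [Fintype F] [CharP F 2] {d : ℕ}

theorem scalar_eq_one (hd : 0 < d) {g : GL (Fin d ⊕ Fin d) F} (hg : g ∈ Cfsg.spGL d F) {z : F}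
    (h : g.val = z • (1 : Matrix (Fin d ⊕ Fin d) (Fin d ⊕ Fin d) F)) : z = 1 := by
  haveI : NeZero d := ⟨hd.ne'⟩
  obtain ⟨v, hv⟩ : ∃ v, stdB d F (Pi.single (.inl 0) 1) v ≠ 0 := by
    by_contra h
    push Not at h
    have := congrFun ((stdB_nondegenerate d).1 _ h) (.inl 0)
    simp at this
  have h1 := mem_spGL.1 hg (Pi.single (.inl 0) 1) v
  rw [h, Matrix.smul_mulVec, Matrix.smul_mulVec, Matrix.one_mulVec, Matrix.one_mulVec, map_smul,
    map_smul, LinearMap.smul_apply, smul_eq_mul, smul_eq_mul, ← mul_assoc, ← sq] at h1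
  have : z ^ 2 = 1 := mul_right_cancel₀ hv (by rw [one_mul]; exact h1)
  exact sq_inj (by rw [this, one_pow])

theorem gl_ext' {g h : GL (Fin d ⊕ Fin d) F} (e : ∀ v, g.val *ᵥ v = h.val *ᵥ v) : g = h :=
  Units.ext (Matrix.ext_iff_mulVec.2 e)

theorem card_pos_modEq_one {r : ℕ} [Fact r.Prime] {Q : (Fin d ⊕ Fin d → F) → F} (hQ : IsQ d Q)
    {x : GL (Fin d ⊕ Fin d) F} (hxr : x ^ r = 1) (hfix : ∀ v, x.val *ᵥ v = v → v = 0)
    (hxQ : ∀ v, Q (x.val *ᵥ v) = Q v) : Nat.card {w // chi (Q w) = 1} ≡ 1 [MOD r] := by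
  classical
  let f : Function.End {w // chi (Q w) = 1} := fun w => ⟨x.val *ᵥ w.1, by rw [hxQ]; exact w.2⟩
  have hpow : ∀ (n : ℕ) w, ((f ^ n) w).1 = (x ^ n).val *ᵥ w.1 := by
    intro n
    induction n with
    | zero => intro w; show w.1 = _; simp
    | succ n ih =>
      intro w
      rw [pow_succ', pow_succ', Units.val_mul, ← Matrix.mulVec_mulVec, ← ih]
      rfl
  have hf : f ^ r ^ 1 = 1 := by
    funext w
    refine Subtype.ext ?_
    rw [pow_one, hpow, hxr, Units.val_one, Matrix.one_mulVec]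
    rfl
  rw [Nat.card_eq_fintype_card]
  convert Equiv.Perm.card_fixedPoints_modEq hf
  refine (Fintype.card_eq_one_iff.2 ⟨⟨⟨0, by rw [hQ.zero, chi_zero]⟩, ?_⟩, fun w => ?_⟩).symm
  · exact Subtype.ext (Subtype.ext (hfix _ (congrArg Subtype.val w.2)))
  · refine Subtype.ext ?_
    show x.val *ᵥ 0 = 0
    exact Matrix.mulVec_zero _

theorem card_congr' {Q : (Fin d ⊕ Fin d → F) → F} (g : GL (Fin d ⊕ Fin d) F) :
    Nat.card {w // chi (Q (g.val *ᵥ w)) = 1} = Nat.card {w // chi (Q w) = 1} :=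
  Nat.card_congr (Equiv.subtypeEquiv
    { toFun := fun v => g.val *ᵥ v
      invFun := fun v => (g⁻¹).val *ᵥ v
      left_inv := fun v => by simp [Matrix.mulVec_mulVec]
      right_inv := fun v => by simp [Matrix.mulVec_mulVec] } fun v => Iff.rfl)

theorem exists_fpf (hd : 2 ≤ d) {r : ℕ} [Fact r.Prime] (hr2 : r ≠ 2)
    (hq : (Fintype.card F : ZMod r) ^ (2 * d) = 1) :
    ∃ x ∈ Cfsg.spGL d F, x ^ r = 1 ∧ ∀ v, x.val *ᵥ v = v → v = 0 := by
  classical
  have hr : r.Prime := Fact.out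
  haveI : Fact (Nat.Prime 2) := ⟨Nat.prime_two⟩
  have hdvd : orderOf (Fintype.card F : ZMod r) ∣ 2 * d := orderOf_dvd_of_pow_eq_one hq
  have hpos : 0 < orderOf (Fintype.card F : ZMod r) := Nat.pos_of_dvd_of_pos hdvd (by omega)
  rcases Nat.even_or_odd (orderOf (Fintype.card F : ZMod r)) with ⟨b, hb⟩ | hodd
  · rw [hb, ← two_mul] at hdvd
    obtain ⟨t, ht⟩ := Nat.dvd_of_mul_dvd_mul_left two_pos hdvd
    obtain ⟨A, hA, hk⟩ := exists_symp_elt (F := F) (p := 2) hr2 hr2 (b := b) (d := d) (t := t)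
      (s := 0) (by omega) (by rw [ht, mul_comm]; rfl)
    refine ⟨spToGL d F A, by rw [spGL_eq, mem_iso_stdB_iff]; exact A.2, gl_ext' fun v => ?_, fun v hv => ?_⟩
    · have := hA v
      rw [← Matrix.toLin'_pow, Matrix.toLin'_apply] at this
      simpa [spToGL_val] using this
    · rw [mul_zero, Submodule.finrank_eq_zero] at hk
      have hv' : A.1 *ᵥ v = v := hv
      exact (Submodule.eq_bot_iff _).1 hk v (by simp [hv'])
  · have hid : orderOf (Fintype.card F : ZMod r) ∣ d :=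
      (Nat.coprime_two_right.2 hodd).dvd_of_dvd_mul_left hdvd
    obtain ⟨g, hgr, hgd⟩ : ∃ g : Matrix (Fin d) (Fin d) F, g ^ r = 1 ∧ (g - 1).det ≠ 0 := by
      rcases eq_or_lt_of_le (Nat.one_le_iff_ne_zero.2 hpos.ne') with h1 | h1
      · have hc : (Fintype.card F : ZMod r) = 1 := orderOf_eq_one_iff.1 h1.symm
        have hdv : r ∣ Fintype.card Fˣ := by
          rw [Fintype.card_units, ← ZMod.natCast_eq_zero_iff, Nat.cast_sub Fintype.card_pos, hc]
          simp
        obtain ⟨z, hz⟩ := exists_prime_orderOf_dvd_card r hdv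
        have hz1 : (z : F) ≠ 1 := fun h => hr.one_lt.ne' (by
          rw [← hz, Units.val_eq_one.1 h, orderOf_one])
        refine ⟨(z : F) • 1, ?_, ?_⟩
        · rw [smul_pow, one_pow, ← Units.val_pow_eq_pow_val, ← hz, pow_orderOf_eq_one, Units.val_one,
            one_smul]
        · rw [show (z : F) • (1 : Matrix (Fin d) (Fin d) F) - 1 = ((z : F) - 1) • 1 by
            rw [sub_smul, one_smul], Matrix.det_smul, Matrix.det_one, mul_one]
          exact pow_ne_zero _ (sub_ne_zero.2 hz1)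
      · obtain ⟨t, ht⟩ := hid
        obtain ⟨A, hA, hk⟩ := exists_root_elt (F := F) (p := 2) (n := d) hr2 h1 (t := t) (k := 0)
          (by rw [add_zero, mul_comm]; exact ht)
        refine ⟨A.1, Matrix.ext_iff_mulVec.2 fun v => ?_, fun h0 => ?_⟩
        · have := hA v
          rw [← Matrix.toLin'_pow, Matrix.toLin'_apply] at this
          simpa using this
        · obtain ⟨v, hv0, hv⟩ := Matrix.exists_mulVec_eq_zero_iff.2 h0
          rw [Submodule.finrank_eq_zero] at hk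
          exact hv0 ((Submodule.eq_bot_iff _).1 hk v (by simpa [Matrix.sub_mulVec] using hv))
    have hr1 : r - 1 + 1 = r := Nat.sub_add_cancel hr.pos
    have hg1 : g * g ^ (r - 1) = 1 := by rw [← pow_succ', hr1, hgr]
    have hg2 : g ^ (r - 1) * g = 1 := by rw [← pow_succ, hr1, hgr]
    have hgT : gᵀ ^ r = 1 := by rw [← Matrix.transpose_pow, hgr, Matrix.transpose_one]
    let M : Matrix (Fin d ⊕ Fin d) (Fin d ⊕ Fin d) F := Matrix.fromBlocks g 0 0 (g ^ (r - 1))ᵀ
    have hM : M ∈ Matrix.symplecticGroup (Fin d) F := by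
      rw [SymplecticGroup.mem_iff]
      have hg1' : (gᵀ) ^ (r - 1) * gᵀ = 1 := by
        rw [← Matrix.transpose_pow, ← Matrix.transpose_mul, hg1, Matrix.transpose_one]
      simp [M, Matrix.J, Matrix.fromBlocks_transpose, Matrix.fromBlocks_multiply, hg1, hg1',
        Matrix.transpose_pow]
    refine ⟨spToGL d F ⟨M, hM⟩, by rw [spGL_eq, mem_iso_stdB_iff]; exact hM, Units.ext ?_, fun v hv => ?_⟩
    · rw [Units.val_pow_eq_pow_val]
      show M ^ r = 1
      rw [Matrix.fromBlocks_diagonal_pow, hgr, Matrix.transpose_pow, ← pow_mul, mul_comm, pow_mul, hgT,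
        one_pow, Matrix.fromBlocks_one]
    · have hv' : M *ᵥ v = v := hv
      rw [Matrix.fromBlocks_mulVec] at hv'
      simp only [Matrix.zero_mulVec, add_zero, zero_add] at hv'
      have hl : g *ᵥ (v ∘ Sum.inl) = v ∘ Sum.inl := funext fun i => congrFun hv' (.inl i)
      have hr' : (g ^ (r - 1))ᵀ *ᵥ (v ∘ Sum.inr) = v ∘ Sum.inr := funext fun i => congrFun hv' (.inr i)
      have hr'' : gᵀ *ᵥ (v ∘ Sum.inr) = v ∘ Sum.inr := by
        conv_lhs => rw [← hr']
        rw [Matrix.mulVec_mulVec, ← Matrix.transpose_mul, hg2, Matrix.transpose_one, Matrix.one_mulVec]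
      have z1 : v ∘ Sum.inl = 0 := Matrix.eq_zero_of_mulVec_eq_zero hgd (by
        rw [Matrix.sub_mulVec, hl, Matrix.one_mulVec, sub_self])
      have z2 : v ∘ Sum.inr = 0 := Matrix.eq_zero_of_mulVec_eq_zero (M := (g - 1)ᵀ)
        (by rwa [Matrix.det_transpose]) (by
        rw [Matrix.transpose_sub, Matrix.transpose_one, Matrix.sub_mulVec, hr'', Matrix.one_mulVec,
          sub_self])
      funext i
      rcases i with i | i
      exacts [congrFun z1 i, congrFun z2 i]

theorem odd_case (hd : 2 ≤ d) {Q : (Fin d ⊕ Fin d → F) → F} (hQ : IsQ d Q) {r : ℕ} [Fact r.Prime]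
    (hr2 : r ≠ 2) (hdvd : r ∣ Nat.card {w // chi (Q w) = 1}) :
    ∃ x ∈ Cfsg.spGL d F, x ^ r = 1 ∧ (∀ z : F, x.val ≠ z • 1) ∧
      ∀ g ∈ Cfsg.spGL d F, g⁻¹ * x * g ∉ Cfsg.Geo.quadSimilarityGroup Q := by
  have hr : r.Prime := Fact.out
  have hcast : ((Fintype.card F : ZMod r)) ^ (2 * d) = 1 := by
    have h := congrArg (Int.cast : ℤ → ZMod r) (two_mul_card_pos hQ)
    have h0 : (Nat.card {w // chi (Q w) = 1} : ZMod r) = 0 := (ZMod.natCast_eq_zero_iff _ _).2 hdvd
    push_cast at h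
    rw [h0, mul_zero] at h
    have hq0 : ((Fintype.card F : ZMod r)) ^ d ≠ 0 := by
      refine pow_ne_zero _ fun h0 => ?_
      rw [ZMod.natCast_eq_zero_iff] at h0
      obtain ⟨f, -, hf⟩ := FiniteField.card F 2
      rw [hf] at h0
      exact hr2 ((Nat.prime_dvd_prime_iff_eq hr Nat.prime_two).1 (hr.dvd_of_dvd_pow h0))
    rw [two_mul, pow_add] at h ⊢
    set Y := (Fintype.card F : ZMod r) ^ d
    rcases hQ.gauss_cases with hg | hg <;> rw [hg] at h <;> push_cast at h
    · have : Y = -1 := mul_left_cancel₀ hq0 (by linear_combination -h)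
      rw [this]; ring
    · have : Y = 1 := mul_left_cancel₀ hq0 (by linear_combination -h)
      rw [this]; ring
  obtain ⟨x, hx, hxr, hfix⟩ := exists_fpf hd hr2 hcast
  refine ⟨x, hx, hxr, fun z hz => ?_, fun g hg hmem => ?_⟩
  · rw [scalar_eq_one (by omega) hx hz, one_smul] at hz
    haveI : NeZero d := ⟨by omega⟩
    have := congrFun (hfix (Pi.single (.inl 0) 1) (by rw [hz, Matrix.one_mulVec])) (.inl 0)
    simp at this
  · have hpres := (hQ.sim_iff (by omega) (mul_mem (mul_mem (inv_mem hg) hx) hg)).1 hmem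
    have h1 := card_pos_modEq_one (hQ.comp (inv_mem hg)) hxr hfix (fun v => by
      show Q ((g⁻¹).val *ᵥ (x.val *ᵥ v)) = Q ((g⁻¹).val *ᵥ v)
      have := hpres ((g⁻¹).val *ᵥ v)
      simpa [Matrix.mulVec_mulVec, mul_assoc] using this)
    rw [card_congr'] at h1
    have h2 := h1.symm.trans (Nat.modEq_zero_iff_dvd.2 hdvd)
    exact hr.one_lt.ne' (Nat.dvd_one.1 (Nat.modEq_zero_iff_dvd.1 h2))

theorem minus_even_case (hd : 2 ≤ d) {Q : (Fin d ⊕ Fin d → F) → F} (hQ : IsQ d Q)
    (hnp : gauss Q ≠ (Fintype.card F : ℤ) ^ d) (hev : Even d) :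
    ∃ x ∈ Cfsg.spGL d F, x ^ 2 = 1 ∧ (∀ z : F, x.val ≠ z • 1) ∧
      ∀ g ∈ Cfsg.spGL d F, g⁻¹ * x * g ∉ Cfsg.Geo.quadSimilarityGroup Q := by
  classical
  obtain ⟨σ, hσ, hσn⟩ : ∃ σ : Fin d → Fin d, (∀ i, σ (σ i) = i) ∧ ∀ i, σ i ≠ i := by
    obtain ⟨k, rfl⟩ := hev
    refine ⟨fun i => finSumFinEquiv (finSumFinEquiv.symm i).swap, fun i => by simp, fun i h => ?_⟩
    have h' := congrArg finSumFinEquiv.symm h
    simp only [Equiv.symm_apply_apply] at h'
    rcases hc : finSumFinEquiv.symm i with j | j <;> simp [hc] at h'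
  have hzero : ∀ b : Fin d → F, ∑ i, b i * b (σ i) = 0 := fun b =>
    Finset.sum_involution (fun i _ => σ i)
      (fun i _ => by rw [hσ, mul_comm (b (σ i))]; exact CharTwo.add_self_eq_zero _)
      (fun i _ _ => hσn i) (fun _ _ => Finset.mem_univ _) (fun i _ => hσ i)
  let u : (Fin d ⊕ Fin d → F) →ₗ[F] (Fin d ⊕ Fin d → F) :=
    { toFun := fun v => Sum.elim (fun i => v (.inr (σ i))) 0
      map_add' := fun a b => by ext (i | i) <;> simp
      map_smul' := fun c a => by ext (i | i) <;> simp }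
  let X : (Fin d ⊕ Fin d → F) →ₗ[F] (Fin d ⊕ Fin d → F) := LinearMap.id + u
  have huu : ∀ v, u (u v) = 0 := fun v => by ext (i | i) <;> simp [u]
  have hXX : ∀ v, X (X v) = v := fun v => by
    simp only [X, LinearMap.add_apply, LinearMap.id_apply, map_add, huu, add_zero]
    funext i
    simp [add_assoc, CharTwo.add_self_eq_zero]
  have hmm : LinearMap.toMatrix' X * LinearMap.toMatrix' X = 1 := by
    rw [← LinearMap.toMatrix'_comp, show X ∘ₗ X = LinearMap.id from LinearMap.ext hXX,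
      LinearMap.toMatrix'_id]
  let x : GL (Fin d ⊕ Fin d) F := ⟨LinearMap.toMatrix' X, LinearMap.toMatrix' X, hmm, hmm⟩
  have hxv : ∀ v, x.val *ᵥ v = v + u v := fun v => by
    show LinearMap.toMatrix' X *ᵥ v = _
    rw [LinearMap.toMatrix'_mulVec]
    rfl
  have hsym : ∀ a b, stdB d F (u a) b = stdB d F a (u b) := fun a b => by
    simp only [stdB_apply, Cfsg.sympForm, dotProduct, Fintype.sum_sum_type, Matrix.mulVec, Matrix.J,
      Matrix.fromBlocks_apply₁₁, Matrix.fromBlocks_apply₁₂,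
      Matrix.fromBlocks_apply₂₁, Matrix.fromBlocks_apply₂₂, Matrix.zero_apply, Matrix.neg_apply,
      Matrix.one_apply, zero_mul, Finset.sum_const_zero, zero_add, add_zero, ite_mul, one_mul,
      CharTwo.neg_eq, Finset.sum_ite_eq, Finset.mem_univ, if_true, u, LinearMap.coe_mk, AddHom.coe_mk,
      Sum.elim_inl, Sum.elim_inr, Pi.zero_apply, mul_zero]
    exact Fintype.sum_equiv ⟨σ, σ, hσ, hσ⟩ _ _ fun i => by simp [hσ, mul_comm]
  have hxmem : x ∈ Cfsg.spGL d F := mem_spGL.2 fun a b => by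
    rw [hxv, hxv, map_add, map_add, LinearMap.add_apply, LinearMap.add_apply, hsym a (u b), huu,
      map_zero, add_zero, hsym, add_assoc, CharTwo.add_self_eq_zero, add_zero]
  have hfixQ : ∀ v, Cfsg.quadFormPlus d F (x.val *ᵥ v) = Cfsg.quadFormPlus d F v := fun v => by
    rw [hxv]
    simp only [Cfsg.quadFormPlus, Pi.add_apply, u, LinearMap.coe_mk, AddHom.coe_mk, Sum.elim_inl,
      Sum.elim_inr, Pi.zero_apply, add_zero, add_mul, Finset.sum_add_distrib]
    rw [show ∑ i, v (.inr (σ i)) * v (.inr i) = 0 by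
      simpa [mul_comm] using hzero fun i => v (.inr i), add_zero]
  refine ⟨x, hxmem, ?_, fun z hz => ?_, fun g hg hmem => hnp ?_⟩
  · rw [sq]; exact Units.ext hmm
  · rw [scalar_eq_one (by omega) hxmem hz, one_smul] at hz
    haveI : NeZero d := ⟨by omega⟩
    have h := congrFun (hxv (Pi.single (.inr (σ 0)) 1)) (.inl 0)
    rw [hz, Matrix.one_mulVec] at h
    simp [u] at h
  · have hpres := (hQ.sim_iff (by omega) (mul_mem (mul_mem (inv_mem hg) hxmem) hg)).1 hmem
    obtain ⟨w, hw⟩ := isQ_plus.exists_shift (hQ.comp (inv_mem hg))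
    have hinv : ∀ v, stdB d F w (x.val *ᵥ v) = stdB d F w v := fun v => by
      have h := hpres ((g⁻¹).val *ᵥ v)
      simp [Matrix.mulVec_mulVec, mul_assoc] at h
      have h1 := hw (x.val *ᵥ v)
      rw [show Q ((g⁻¹).val *ᵥ (x.val *ᵥ v)) = Q ((g⁻¹).val *ᵥ v) by
        simpa [Matrix.mulVec_mulVec] using h, hw, shift, shift, hfixQ] at h1
      exact (sq_inj (add_left_cancel h1)).symm
    have hu : u w = 0 := (stdB_nondegenerate d).1 _ fun v => by
      have h := hinv v
      rw [hxv, map_add, add_eq_left] at h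
      rw [hsym]; exact h
    have hw0 : Cfsg.quadFormPlus d F w = 0 := by
      refine Finset.sum_eq_zero fun i _ => ?_
      have := congrFun hu (.inl (σ i))
      simp [u, hσ] at this
      rw [this, mul_zero]
    rw [← gauss_comp (Q := Q) g⁻¹, funext hw, isQ_plus.gauss_shift, hw0, chi_zero, one_mul, gauss_plus]

theorem exists_fixed_form (hd : 2 ≤ d) {Q : (Fin d ⊕ Fin d → F) → F} (hQ : IsQ d Q)
    (hdisj : gauss Q = (Fintype.card F : ℤ) ^ d ∨ Odd d)
    {x : GL (Fin d ⊕ Fin d) F} (hx : x ∈ Cfsg.spGL d F) (hx2 : x ^ 2 = 1) :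
    ∃ g ∈ Cfsg.spGL d F, g⁻¹ * x * g ∈ Cfsg.Geo.quadSimilarityGroup Q := by
  classical
  have hxx : ∀ v, x.val *ᵥ (x.val *ᵥ v) = v := fun v => by
    rw [Matrix.mulVec_mulVec, ← Units.val_mul, ← sq, hx2, Units.val_one, Matrix.one_mulVec]
  have hsym : ∀ a b, stdB d F (x.val *ᵥ a) b = stdB d F a (x.val *ᵥ b) := fun a b => by
    conv_lhs => rw [← hxx b]
    exact mem_spGL.1 hx _ _
  obtain ⟨u, hu⟩ := hQ.exists_shift (hQ.comp hx)
  simp only [shift] at hu
  have hxu : x.val *ᵥ u = u := by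
    refine sub_eq_zero.1 ((stdB_nondegenerate d).1 _ fun v => ?_)
    rw [map_sub, LinearMap.sub_apply, hsym, sub_eq_zero]
    have h := hu (x.val *ᵥ v)
    rw [hxx, hu v, add_assoc, left_eq_add] at h
    exact sq_inj (CharTwo.add_eq_zero.1 h).symm
  let N : (Fin d ⊕ Fin d → F) →ₗ[F] (Fin d ⊕ Fin d → F) := x.val.mulVecLin + LinearMap.id
  have hN : ∀ v, N v = x.val *ᵥ v + v := fun v => rfl
  have hkerN : ∀ v, v ∈ LinearMap.ker N ↔ x.val *ᵥ v = v := fun v => by
    rw [LinearMap.mem_ker, hN]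
    constructor
    · intro h; funext i; exact CharTwo.add_eq_zero.1 (congrFun h i)
    · intro h; funext i; rw [Pi.add_apply, h]; exact CharTwo.add_self_eq_zero _
  have hdim := LinearMap.finrank_range_add_finrank_ker N
  rw [finrank_V] at hdim
  have hperp : (stdB d F).orthogonal (LinearMap.ker N) = LinearMap.range N := by
    have hle : LinearMap.range N ≤ (stdB d F).orthogonal (LinearMap.ker N) := by
      rintro _ ⟨v, rfl⟩
      rw [LinearMap.BilinForm.mem_orthogonal_iff]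
      intro c hc
      rw [hN, map_add, ← hsym, (hkerN c).1 hc]
      exact CharTwo.add_self_eq_zero _
    refine (Submodule.eq_of_le_of_finrank_eq hle ?_).symm
    rw [LinearMap.BilinForm.finrank_orthogonal (stdB_nondegenerate d), finrank_V]
    omega
  obtain ⟨w, hw⟩ : u ∈ LinearMap.range N := by
    rw [← hperp, LinearMap.BilinForm.mem_orthogonal_iff]
    intro c hc
    have h := hu c
    rw [(hkerN c).1 hc, left_eq_add, sq_eq_zero_iff] at h
    rw [stdB_symm]; exact h
  rw [hN] at hw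
  let Q₁ := shift Q w
  have hQ₁ : IsQ d Q₁ := hQ.shift w
  have hfix₁ : ∀ v, Q₁ (x.val *ᵥ v) = Q₁ v := fun v => by
    simp only [Q₁, shift]
    rw [hu v, ← hsym, add_assoc, ← CharTwo.add_sq, ← LinearMap.add_apply, ← map_add, ← hw,
      add_comm (x.val *ᵥ w) w, add_assoc, show x.val *ᵥ w + x.val *ᵥ w = 0 from
        funext fun i => CharTwo.add_self_eq_zero _, add_zero]
  suffices h : ∃ Q₂, IsQ d Q₂ ∧ gauss Q₂ = gauss Q ∧ ∀ v, Q₂ (x.val *ᵥ v) = Q₂ v by
    obtain ⟨Q₂, hQ₂, hg₂, hf₂⟩ := h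
    obtain ⟨g, hg, hgQ⟩ := hQ.exists_conj hQ₂ hg₂.symm
    refine ⟨g⁻¹, inv_mem hg, (hQ.sim_iff (by omega)
      (mul_mem (mul_mem (inv_mem (inv_mem hg)) hx) (inv_mem hg))).2 fun v => ?_⟩
    simp only [inv_inv, Units.val_mul, ← Matrix.mulVec_mulVec]
    rw [hgQ, hf₂, ← hgQ, Matrix.mulVec_mulVec, ← Units.val_mul, mul_inv_cancel, Units.val_one,
      Matrix.one_mulVec]
  by_cases hsame : gauss Q₁ = gauss Q
  · exact ⟨Q₁, hQ₁, hsame, hfix₁⟩
  have hneg : gauss Q₁ = -gauss Q := by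
    rcases hQ₁.gauss_cases with h | h <;> rcases hQ.gauss_cases with h' | h' <;>
      first
      | exact absurd (h.trans h'.symm) hsame
      | (simp [h, h'])
  by_cases hc : ∃ c ∈ LinearMap.ker N, chi (Q₁ c) = -1
  · obtain ⟨c, hc, hc1⟩ := hc
    refine ⟨shift Q₁ c, hQ₁.shift c, ?_, fun v => ?_⟩
    · rw [hQ₁.gauss_shift, hc1, hneg]; ring
    · simp only [shift]
      rw [hfix₁, ← hsym, (hkerN c).1 hc]
  exfalso
  have hsing : ∀ c ∈ LinearMap.ker N, Q₁ c = 0 := by
    intro c hcm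
    by_contra hne
    obtain ⟨a, ha⟩ := exists_chi (x := Q₁ c) hne
    obtain ⟨b, rfl⟩ := exists_sq a
    exact hc ⟨b • c, Submodule.smul_mem _ _ hcm, by rw [hQ₁.smul]; exact ha⟩
  have hiso : ∀ a ∈ LinearMap.ker N, ∀ b ∈ LinearMap.ker N, stdB d F a b = 0 := fun a ha b hb => by
    have := hQ₁.add a b
    rw [hsing _ (add_mem ha hb), hsing _ ha, hsing _ hb, zero_add, zero_add] at this
    exact this.symm
  have hNN : ∀ v, N v ∈ LinearMap.ker N := fun v => by
    rw [hkerN, hN, Matrix.mulVec_add, hxx]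
    exact add_comm _ _
  have hle1 : LinearMap.range N ≤ LinearMap.ker N := by rintro _ ⟨v, rfl⟩; exact hNN v
  have hle2 : LinearMap.ker N ≤ LinearMap.range N := by
    rw [← hperp]
    intro b hb
    rw [LinearMap.BilinForm.mem_orthogonal_iff]
    exact fun a ha => hiso a ha b hb
  have heq := le_antisymm hle1 hle2
  rw [heq] at hdim
  have hdimC : Module.finrank F (LinearMap.ker N) = d := by omega
  have hplus : gauss Q₁ = (Fintype.card F : ℤ) ^ d :=
    hQ₁.isPlus_iff.1 ⟨LinearMap.ker N, le_top, hsing, by rw [finrank_top, finrank_V, hdimC]⟩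
  have hodd : Odd d := hdisj.resolve_left fun h => hsame (hplus.trans h.symm)
  -- an alternating non-degenerate form on a complement of the fixed space
  obtain ⟨W, hW⟩ := (LinearMap.ker N).exists_isCompl
  have hWd : Module.finrank F W = d := by
    have := Submodule.finrank_add_eq_of_isCompl hW
    rw [finrank_V] at this
    omega
  let B : LinearMap.BilinForm F W := (stdB d F).compl₁₂ (N ∘ₗ W.subtype) W.subtype
  have hB : ∀ a b, B a b = stdB d F (N a) b := fun a b => rfl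
  have hBalt : B.IsAlt := fun a => by
    rw [hB, hN, map_add, LinearMap.add_apply, (stdB_isAlt d).self_eq_zero, add_zero]
    have := hQ₁.add (x.val *ᵥ a.1) a.1
    rw [show Q₁ (x.val *ᵥ a.1 + a.1) = 0 from hsing _ (hNN _), hfix₁, CharTwo.add_self_eq_zero,
      zero_add] at this
    exact this.symm
  have hBsep : B.SeparatingLeft := fun a ha => by
    have hNa : N a = 0 := (stdB_nondegenerate d).1 _ fun v => by
      obtain ⟨c, hc, b, hb, rfl⟩ := Submodule.mem_sup.1 (hW.sup_eq_top ▸ Submodule.mem_top : v ∈ _)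
      rw [map_add, hiso _ (hNN _) _ hc, zero_add]
      exact ha ⟨b, hb⟩
    have : (a : Fin d ⊕ Fin d → F) ∈ LinearMap.ker N ⊓ W := ⟨hNa, a.2⟩
    rw [hW.inf_eq_bot] at this
    exact Subtype.ext ((Submodule.mem_bot _).1 this)
  obtain ⟨m, k, b, -, -, -, h4⟩ := exists_altBasis B hBalt
  obtain rfl : k = 0 := by
    by_contra hk
    exact b.ne_zero (Sum.inr ⟨0, Nat.pos_of_ne_zero hk⟩) (hBsep _ fun v => h4 _ v)
  have hm := Module.finrank_eq_card_basis b
  rw [hWd] at hm
  simp at hm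
  obtain ⟨l, hl⟩ := hodd
  omega

end


/-- Elements of prime order of PSp_n(q), q even, and the subgroups of orthogonal type. Here `T = Sp_{2d}(F)` for a field `F` of characteristic 2 with `q` elements (`d ≥ 2`, `(d, q) ≠ (2, 2)`), realised as the invertible matrices preserving the standard alternating form; `Q` is a non-degenerate quadratic form on `F^{2d}` whose polar form is that alternating form, and `H` is the subgroup of `T` preserving `Q` up to a scalar (equivalently preserving `Q`) — a subgroup of type O^±_{2d}(q) (maximality is not assumed); `Q` is of plus type when `F^{2d}` contains a `d`-dimensional subspace on which `Q` vanishes, of minus type otherwise. Ω is the set of cosets of `H` in `T`, so an element of `T` of prime order `r` (`x ∈ T` with `x^r` scalar, `x` not scalar) fixes a point of Ω exactly when some `T`-conjugate of `x` preserves `Q`. Let `r` be a prime dividing the index of `H`. Then every element of `T` of order `r`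 fixes a point of Ω if and only if `r = 2` and either `Q` is of plus type or `d` is odd. -/
theorem result {F : Type*} [Field F] [Fintype F] {p : ℕ} [Fact p.Prime] [CharP F p] {q : ℕ} (hq : Fintype.card F = q)
    (hp : p = 2) (d : ℕ) (hd : 2 ≤ d) (hT : (d, q) ≠ (2, 2)) (Q : (Fin d ⊕ Fin d → F) → F) (hQ : Cfsg.Geo.IsNondegenerateQuadraticForm Q)
    (hQf : ∀ u v, QuadraticMap.polar Q u v = Cfsg.sympForm d F u v)
    (r : ℕ) [Fact r.Prime]
    (hΩ : r ∣ (Cfsg.Geo.quadSimilarityGroup Q).relIndex (Cfsg.spGL d F)) :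
    (∀ x ∈ Cfsg.spGL d F, (∃ z : F, ((x ^ r : GL (Fin d ⊕ Fin d) F) : Matrix (Fin d ⊕ Fin d) (Fin d ⊕ Fin d) F) = z • (1 : Matrix (Fin d ⊕ Fin d) (Fin d ⊕ Fin d) F)) →
      (∀ z : F, (x : Matrix (Fin d ⊕ Fin d) (Fin d ⊕ Fin d) F) ≠ z • (1 : Matrix (Fin d ⊕ Fin d) (Fin d ⊕ Fin d) F)) →
      ∃ g ∈ Cfsg.spGL d F, g⁻¹ * x * g ∈ Cfsg.Geo.quadSimilarityGroup Q) ↔
    (r = 2 ∧ (Cfsg.Geo.IsPlusTypeOn Q ⊤ ∨ Odd d)) := by
  subst hp
  haveI : CharP F 2 := inferInstance
  have hQq : IsQ d Q := IsQ.of_quad hQ hQf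
  have hd0 : 0 < d := by omega
  rw [hQq.relIndex_eq hd0] at hΩ
  constructor
  · intro h
    by_cases hr : r = 2
    · refine ⟨hr, ?_⟩
      by_contra hcon
      push Not at hcon
      obtain ⟨x, hx, hx2, hns, hno⟩ := minus_even_case hd hQq (fun e => hcon.1 (hQq.isPlus_iff.2 e))
        (Nat.not_odd_iff_even.1 hcon.2)
      obtain ⟨g, hg, hgm⟩ := h x hx ⟨1, by rw [hr, hx2, one_smul]; rfl⟩ hns
      exact hno g hg hgm
    · obtain ⟨x, hx, hxr, hns, hno⟩ := odd_case hd hQq hr hΩ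
      obtain ⟨g, hg, hgm⟩ := h x hx ⟨1, by rw [hxr, one_smul]; rfl⟩ hns
      exact absurd hgm (hno g hg)
  · rintro ⟨rfl, hdisj⟩ x hx ⟨z, hz⟩ -
    have hz1 := scalar_eq_one hd0 (pow_mem hx 2) hz
    rw [hz1, one_smul] at hz
    exact exists_fixed_form hd hQq (hdisj.imp_left hQq.isPlus_iff.1) hx (Units.ext hz)

end Cfsg.Agent.S5983
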