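import Cfsg.Statements.S5984
import Cfsg.Agent.S2587
import Cfsg.Agent.Lib.Elusive.PolarPair

set_option autoImplicit false
open scoped MatrixGroups
open Cfsg
open Module Cfsg.Agent.Lib.Elusive Cfsg.Agent.Lib.Forms Cfsg.Agent.Lib.Elusive.PolarPair Cfsg.Agent.Lib.Classical
open scoped Matrix

namespace Cfsg.Agent.S5984

section

universe u

variable {F : Type u} [Field F] [Fintype F] {q n m : ℕ}

theorem exists_root_of_dvd {k : ℕ} (hk : k ∣ Fintype.card F - 1) : ∃ w : F, IsPrimitiveRoot w k := by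
  obtain ⟨g, hg⟩ := IsCyclic.exists_generator (α := Fˣ)
  have hog : orderOf g = Fintype.card F - 1 := by
    rw [orderOf_eq_card_of_forall_mem_zpowers hg, Nat.card_units, Nat.card_eq_fintype_card]
  have hpos : 0 < Fintype.card F - 1 := Nat.sub_pos_of_lt Fintype.one_lt_card
  exact ⟨((g ^ ((Fintype.card F - 1) / k) : Fˣ) : F), IsPrimitiveRoot.coe_units_iff.2
    ((hog ▸ IsPrimitiveRoot.orderOf g).pow hpos (Nat.div_mul_cancel hk).symm)⟩

theorem succ_dvd (hF : Fintype.card F = q ^ 2) : q + 1 ∣ Fintype.card F - 1 := by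
  rw [hF, ← one_pow 2, Nat.sq_sub_sq]
  exact dvd_mul_right _ _

theorem two_le_q (hF : Fintype.card F = q ^ 2) : 2 ≤ q := by
  by_contra h
  have := Fintype.one_lt_card (α := F)
  rw [hF] at this
  interval_cases q <;> simp at this

/-- Norm-one elements are quotients `α / α ^ q`. -/
theorem hilbert (hF : Fintype.card F = q ^ 2) {w : F} (hw : w ^ (q + 1) = 1) :
    ∃ α : F, α ≠ 0 ∧ α * (α ^ q)⁻¹ = w := by
  obtain ⟨g, hg⟩ := IsCyclic.exists_generator (α := Fˣ)
  have hog : orderOf g = (q + 1) * (q - 1) := by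
    rw [orderOf_eq_card_of_forall_mem_zpowers hg, Nat.card_units, Nat.card_eq_fintype_card, hF, ← Nat.sq_sub_sq,
      one_pow]
  have hw0 : w ≠ 0 := fun h => by simp [h] at hw
  obtain ⟨k, hk⟩ := Subgroup.mem_zpowers_iff.1 (hg (Units.mk0 w hw0))
  have h1 : (Units.mk0 w hw0) ^ (q + 1) = 1 := Units.ext (by simpa using hw)
  rw [← hk, ← zpow_natCast, ← _root_.zpow_mul, ← orderOf_dvd_iff_zpow_eq_one, hog] at h1
  push_cast at h1
  rw [mul_comm k] at h1
  obtain ⟨j, hj⟩ := (mul_dvd_mul_iff_left (by omega : ((q : ℤ) + 1) ≠ 0)).1 h1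
  refine ⟨((g ^ (-j) : Fˣ) : F), Units.ne_zero _, ?_⟩
  rw [← Units.val_pow_eq_pow_val, ← Units.val_inv_eq_inv_val, ← Units.val_mul,
    show w = ((Units.mk0 w hw0 : Fˣ) : F) from rfl, ← hk]
  congr 1
  rw [← zpow_natCast, ← _root_.zpow_mul, ← zpow_neg, ← zpow_add, hj, Nat.cast_sub (by have := two_le_q hF; omega)]
  congr 1
  push_cast
  ring

theorem mem_S {x : GL (Fin n) F} :
    x ∈ Cfsg.GU n F q ⊓ Cfsg.Geo.specialLinear (Fin n) F ↔ x ∈ Cfsg.GU n F q ∧ (x : Matrix (Fin n) (Fin n) F).det = 1 := by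
  rw [Subgroup.mem_inf, Cfsg.Geo.specialLinear, MonoidHom.mem_ker, ← Units.val_eq_one,
    Matrix.GeneralLinearGroup.val_det_apply]

/-- The linear equivalence of an invertible matrix. -/
def glEquiv (g : GL (Fin n) F) : (Fin n → F) ≃ₗ[F] (Fin n → F) :=
  { Matrix.toLin' (g : Matrix (Fin n) (Fin n) F) with
    invFun := fun v => ((g⁻¹ : GL (Fin n) F) : Matrix (Fin n) (Fin n) F) *ᵥ v
    left_inv := fun v => by simp [Matrix.mulVec_mulVec]
    right_inv := fun v => by simp [Matrix.mulVec_mulVec] }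

/-- The derangement criterion. -/
theorem no_fix {D : Fin 2 → Submodule F (Fin n → F)} (P : Pair n m q (D 0) (D 1)) (hm : 0 < m) {r : ℕ}
    {x g : GL (Fin n) F} (hx : x ∈ Cfsg.GU n F q) (hg : g ∈ Cfsg.GU n F q)
    (h : g⁻¹ * x * g ∈ Cfsg.Geo.decompositionStabilizer D) {z : F} (hz : z ^ (q + 1) = 1)
    (hodd : Odd (finrank F (LinearMap.ker (Matrix.toLin' (x : Matrix (Fin n) (Fin n) F) - z • LinearMap.id))))
    (hbig : m < finrank F (LinearMap.ker (Matrix.toLin' (x : Matrix (Fin n) (Fin n) F) - z • LinearMap.id)) ∨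
      (Odd r ∧ (x : Matrix (Fin n) (Fin n) F) ^ r = 1)) : False := by
  classical
  set y := g⁻¹ * x * g with hy
  have hyU : y ∈ Cfsg.GU n F q := mul_mem (mul_mem (inv_mem hg) hx) hg
  set Y := Matrix.toLin' (y : Matrix (Fin n) (Fin n) F) with hY
  have hT : ∀ v, glEquiv g⁻¹ (Matrix.toLin' (x : Matrix (Fin n) (Fin n) F) v) = Y (glEquiv g⁻¹ v) := fun v => by
    show ((g⁻¹ : GL (Fin n) F) : Matrix (Fin n) (Fin n) F) *ᵥ ((x : Matrix (Fin n) (Fin n) F) *ᵥ v) =
      (y : Matrix (Fin n) (Fin n) F) *ᵥ (((g⁻¹ : GL (Fin n) F) : Matrix (Fin n) (Fin n) F) *ᵥ v)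
    rw [Matrix.mulVec_mulVec, Matrix.mulVec_mulVec, ← Units.val_mul, ← Units.val_mul, hy, mul_inv_cancel_right]
  rw [Cfsg.Agent.S5979.ker_conj_eq hT z] at hodd hbig
  have hz0 : z ≠ 0 := fun e => by simp [e] at hz
  obtain ⟨σ, hσ⟩ := h
  have hmap : ∀ i, ∀ v ∈ D i, Y v ∈ D (σ i) := fun i v hv => by rw [← hσ i]; exact ⟨v, hv, rfl⟩
  rcases eq_or_ne (σ 0) 0 with h0 | h0
  · have h1 : σ 1 = 1 := by
      have : σ 1 ≠ σ 0 := fun e => by simpa using σ.injective e
      rw [h0] at this
      exact Fin.eq_one_of_ne_zero _ this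
    refine Nat.not_even_iff_odd.2 hodd (ker_even P (fun u v => ?_) (fun v hv => ?_) (fun v hv => ?_) hz)
    · simp only [hY, Matrix.toLin'_apply]; exact Herm.mem_GU.1 hyU u v
    · simpa [h0] using hmap 0 v hv
    · simpa [h1] using hmap 1 v hv
  · have h0' : σ 0 = 1 := Fin.eq_one_of_ne_zero _ h0
    have h1 : σ 1 = 0 := by
      have : σ 1 ≠ σ 0 := fun e => by simpa using σ.injective e
      rw [h0'] at this
      by_contra hne
      exact this (Fin.eq_one_of_ne_zero _ hne)
    rcases hbig with hbig | ⟨hro, hxr⟩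
    · exact absurd hbig (not_lt.2 (ker_le_swap P (fun v hv => by simpa [h0'] using hmap 0 v hv) hz0))
    · obtain ⟨l, hl⟩ := hro
      have key : ∀ (l : ℕ), ∀ v ∈ D 0, (Y ^ (2 * l + 1)) v ∈ D 1 := by
        intro l
        induction l with
        | zero => intro v hv; simpa [h0'] using hmap 0 v hv
        | succ l ih =>
          intro v hv
          rw [show 2 * (l + 1) + 1 = (2 * l + 1) + 1 + 1 by ring, pow_succ', pow_succ', Module.End.mul_apply,
            Module.End.mul_apply]
          have := hmap 0 _ (by simpa [h1] using hmap 1 _ (ih v hv))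
          simpa [h0'] using this
      have hyr : Y ^ r = 1 := by
        have e : y ^ r = 1 := by
          rw [hy, show g⁻¹ * x * g = MulAut.conj g⁻¹ x by simp [MulAut.conj_apply], ← map_pow,
            show x ^ r = 1 from Units.ext (by rw [Units.val_pow_eq_pow_val, hxr, Units.val_one]), map_one]
        rw [hY, ← Matrix.toLin'_pow, ← Units.val_pow_eq_pow_val, e, Units.val_one, Matrix.toLin'_one]; rfl
      have hbot : D 0 = ⊥ := eq_bot_iff.2 fun v hv => by
        have := key l v hv
        rw [← hl, hyr, Module.End.one_apply] at this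
        exact (Submodule.mem_bot F).2 (Submodule.disjoint_def.1 P.compl.disjoint v hv this)
      have := P.dimU
      rw [hbot, finrank_bot] at this
      omega

/-- The index forces a unitary torus. -/
theorem dvd_index {D : Fin 2 → Submodule F (Fin n → F)} (P : Pair n m q (D 0) (D 1)) (hm : 0 < m) {r : ℕ}
    [Fact r.Prime] (hrq : ¬ r ∣ q)
    (hΩ : r ∣ (Cfsg.Geo.decompositionStabilizer D).relIndex (Cfsg.GU n F q ⊓ Cfsg.Geo.specialLinear (Fin n) F)) :
    ∃ t, t < m ∧ r ∣ q ^ (2 * t + 1) + 1 := by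
  classical
  have hF := P.card
  have hr : r.Prime := Fact.out
  have hq2 := two_le_q hF
  obtain ⟨e, he, heU, heW⟩ := exists_frame P
  let N : GL (Fin m) F → Matrix (Fin m) (Fin m) F := fun M =>
    (((M⁻¹ : GL (Fin m) F) : Matrix (Fin m) (Fin m) F).map (Cfsg.Agent.Lib.UnitaryConj.qHom hF))ᵀ
  have hN1 : N 1 = 1 := by simp [N]
  have hNmul : ∀ M M', N (M * M') = N M * N M' := fun M M' => by
    simp only [N, _root_.mul_inv_rev, Units.val_mul, Matrix.map_mul, Matrix.transpose_mul]
  let T : GL (Fin m) F → Module.End F (Fin n → F) := fun M =>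
    e.conj (Matrix.toLin' (Matrix.fromBlocks (M : Matrix (Fin m) (Fin m) F) 0 0 (N M)))
  let ψ : GL (Fin m) F →* GL (Fin n) F :=
    MonoidHom.toHomUnits
      { toFun := fun M => LinearMap.toMatrix' (T M)
        map_one' := by
          simp only [T, hN1, Units.val_one, Matrix.fromBlocks_one, Matrix.toLin'_one, LinearEquiv.conj_id,
            LinearMap.toMatrix'_id]
        map_mul' := fun M M' => Matrix.toLin'.injective (by
          rw [Matrix.toLin'_mul, Matrix.toLin'_toMatrix', Matrix.toLin'_toMatrix', Matrix.toLin'_toMatrix']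
          simp only [T]
          rw [← LinearEquiv.conj_comp, ← Matrix.toLin'_mul, Matrix.fromBlocks_multiply, hNmul, Units.val_mul]
          simp) }
  have hψv : ∀ M x, (ψ M : Matrix (Fin n) (Fin n) F) *ᵥ e x =
      e (Sum.elim ((M : Matrix (Fin m) (Fin m) F) *ᵥ (x ∘ Sum.inl)) (N M *ᵥ (x ∘ Sum.inr))) := fun M x => by
    show LinearMap.toMatrix' (T M) *ᵥ e x = _
    rw [LinearMap.toMatrix'_mulVec]
    show e (Matrix.fromBlocks (M : Matrix (Fin m) (Fin m) F) 0 0 (N M) *ᵥ e.symm (e x)) = _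
    rw [e.symm_apply_apply, Matrix.fromBlocks_mulVec]
    simp
  have hψinj : Function.Injective ψ := fun M M' h => Units.ext (Matrix.ext_iff_mulVec.2 fun v => funext fun i => by
    have h1 := hψv M (Sum.elim v 0)
    rw [h, hψv] at h1
    have := congrFun (e.injective h1) (Sum.inl i)
    simpa using this.symm)
  have hψU : ∀ M, ψ M ∈ Cfsg.GU n F q := fun M => Herm.mem_GU.2 fun u v => by
    obtain ⟨u, rfl⟩ := e.surjective u
    obtain ⟨v, rfl⟩ := e.surjective v
    rw [hψv, hψv, he, he, Finset.sum_add_distrib, Finset.sum_add_distrib]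
    have hpow : ∀ (A : Matrix (Fin m) (Fin m) F) (w : Fin m → F) i, (A *ᵥ w) i ^ q =
        (A.map (Cfsg.Agent.Lib.UnitaryConj.qHom hF) *ᵥ fun j => w j ^ q) i := fun A w i =>
      RingHom.map_mulVec (Cfsg.Agent.Lib.UnitaryConj.qHom hF) A w i
    have hNq : (N M).map (Cfsg.Agent.Lib.UnitaryConj.qHom hF) = ((M⁻¹ : GL (Fin m) F) : Matrix (Fin m) (Fin m) F)ᵀ := by
      ext i j
      exact Cfsg.Agent.Lib.UnitaryConj.qHom_qHom hF _
    congr 1
    · show ∑ i, ((M : Matrix (Fin m) (Fin m) F) *ᵥ (u ∘ Sum.inl)) i * ((N M *ᵥ (v ∘ Sum.inr)) i) ^ q = _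
      simp only [hpow, hNq]
      show ((M : Matrix (Fin m) (Fin m) F) *ᵥ (u ∘ Sum.inl)) ⬝ᵥ (_ *ᵥ _) = (u ∘ Sum.inl) ⬝ᵥ fun j => v (.inr j) ^ q
      rw [Matrix.dotProduct_mulVec, Matrix.vecMul_transpose, Matrix.mulVec_mulVec, Units.inv_mul, Matrix.one_mulVec]
      rfl
    · show ∑ i, (N M *ᵥ (u ∘ Sum.inr)) i * (((M : Matrix (Fin m) (Fin m) F) *ᵥ (v ∘ Sum.inl)) i) ^ q = _
      simp only [hpow]
      show (N M *ᵥ (u ∘ Sum.inr)) ⬝ᵥ (_ *ᵥ _) = (u ∘ Sum.inr) ⬝ᵥ fun j => v (.inl j) ^ q
      rw [dotProduct_comm, Matrix.dotProduct_mulVec, ← Matrix.mulVec_transpose]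
      simp only [N, Matrix.transpose_transpose]
      rw [Matrix.mulVec_mulVec, ← Matrix.map_mul, Units.inv_mul, Matrix.map_one _ (map_zero _) (map_one _),
        Matrix.one_mulVec, dotProduct_comm]
      rfl
  have hψD : ∀ M, ψ M ∈ Cfsg.Geo.decompositionStabilizer D := fun M => by
    refine ⟨1, fun i => ?_⟩
    rw [Equiv.Perm.one_apply]
    refine Submodule.eq_of_le_of_finrank_eq ?_ (LinearEquiv.finrank_eq (Submodule.equivMapOfInjective _
      (glEquiv (ψ M)).injective (D i)).symm)
    rintro _ ⟨w, hw, rfl⟩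
    obtain ⟨w, rfl⟩ := e.surjective w
    rw [Matrix.toLin'_apply, hψv]
    fin_cases i
    · refine (heU _).2 fun j => ?_
      rw [Sum.elim_inr, show w ∘ Sum.inr = 0 from funext ((heU w).1 hw), Matrix.mulVec_zero]; rfl
    · refine (heW _).2 fun j => ?_
      rw [Sum.elim_inl, show w ∘ Sum.inl = 0 from funext ((heW w).1 hw), Matrix.mulVec_zero]; rfl
  set S := Cfsg.GU n F q ⊓ Cfsg.Geo.specialLinear (Fin n) F with hS
  set Dt := Cfsg.Geo.decompositionStabilizer D
  let δ : GL (Fin m) F →* Fˣ := Matrix.GeneralLinearGroup.det.comp ψ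
  have hrange : Nat.card δ.range ∣ q + 1 := by
    rw [← IsCyclic.exponent_eq_card]
    refine Monoid.exponent_dvd_of_forall_pow_eq_one ?_
    rintro ⟨_, M, rfl⟩
    refine Subtype.ext (Units.ext ?_)
    simp only [SubgroupClass.coe_pow, Units.val_pow_eq_pow_val, OneMemClass.coe_one, Units.val_one, δ,
      MonoidHom.comp_apply, Matrix.GeneralLinearGroup.val_det_apply]
    exact Herm.det_norm hF (hψU M)
  have hker : Nat.card δ.ker ∣ Nat.card (Dt.subgroupOf S) := by
    let f : δ.ker →* Dt.subgroupOf S :=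
      { toFun := fun M => ⟨⟨ψ M.1, mem_S.2 ⟨hψU _, by
          rw [← Matrix.GeneralLinearGroup.val_det_apply]; exact congrArg Units.val M.2⟩⟩, hψD _⟩
        map_one' := Subtype.ext (Subtype.ext (map_one ψ))
        map_mul' := fun a b => Subtype.ext (Subtype.ext (map_mul ψ _ _)) }
    exact Subgroup.card_dvd_of_injective f fun a b h =>
      Subtype.ext (hψinj (congrArg (fun z : Dt.subgroupOf S => ((z : S) : GL (Fin n) F)) h))
  have hSU : (q + 1) * Nat.card S = Nat.card (Cfsg.GU n F q) := by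
    rw [← Herm.card_SU hF (show 1 ≤ n by have := P.dim; omega)]
    congr 1
    rw [← Herm.card_ker_detGU, show (Herm.detGU n F q).ker =
        (Cfsg.Geo.specialLinear (Fin n) F).subgroupOf (Cfsg.GU n F q) from rfl, hS, inf_comm,
      ← Nat.card_congr (Subgroup.subgroupOfEquivOfLe (inf_le_right :
        Cfsg.Geo.specialLinear (Fin n) F ⊓ Cfsg.GU n F q ≤ Cfsg.GU n F q)).toEquiv,
      Subgroup.inf_subgroupOf_right]
  have hdvd : r * Nat.card (GL (Fin m) F) ∣ Nat.card (Cfsg.GU n F q) := by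
    rw [← hSU, ← Subgroup.card_mul_index δ.ker, Subgroup.index_ker, ← Subgroup.card_mul_index (Dt.subgroupOf S)]
    calc r * (Nat.card δ.ker * Nat.card δ.range) = Nat.card δ.range * (Nat.card δ.ker * r) := by ring
      _ ∣ (q + 1) * (Nat.card (Dt.subgroupOf S) * (Dt.subgroupOf S).index) :=
        mul_dvd_mul hrange (mul_dvd_mul hker hΩ)
  let A := fun k => ∏ t ∈ Finset.range k, (q ^ (2 * t + 1) + 1)
  let C := fun k => ∏ t ∈ Finset.range k, (q ^ (2 * (t + 1)) - 1)
  have hsplit : ∀ k, (∏ i ∈ Finset.range (2 * k), (if Even i then q ^ (i + 1) + 1 else q ^ (i + 1) - 1)) = A k * C k := by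
    intro k
    induction k with
    | zero => simp [A, C]
    | succ k ih =>
      rw [show 2 * (k + 1) = 2 * k + 1 + 1 by ring, Finset.prod_range_succ, Finset.prod_range_succ, ih,
        if_pos (even_two_mul k), if_neg (Nat.not_even_iff_odd.2 (odd_two_mul_add_one k))]
      simp only [A, C, Finset.prod_range_succ]
      rw [show 2 * k + 1 + 1 = 2 * (k + 1) by ring]
      ring
  have hGL : C m ∣ Nat.card (GL (Fin m) F) := by
    rw [Matrix.card_GL_field, Fin.prod_univ_eq_prod_range (fun i => Fintype.card F ^ m - Fintype.card F ^ i) m,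
      ← Finset.prod_range_reflect]
    refine Finset.prod_dvd_prod_of_dvd _ _ fun t ht => ?_
    rw [Finset.mem_range] at ht
    refine ⟨Fintype.card F ^ (m - 1 - t), ?_⟩
    rw [Nat.sub_mul, one_mul, hF, pow_mul, ← pow_add]
    congr 2
    omega
  rw [Herm.card_GU hF, P.dim, hsplit] at hdvd
  have hC : 0 < C m := Finset.prod_pos fun t _ =>
    Nat.sub_pos_of_lt (Nat.one_lt_pow (by omega) (by omega))
  have h' : r ∣ q ^ (2 * m * (2 * m - 1) / 2) * A m := by
    refine Nat.dvd_of_mul_dvd_mul_right hC ?_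
    rw [mul_assoc]
    exact (mul_dvd_mul_left r hGL).trans hdvd
  rcases hr.dvd_mul.1 h' with h' | h'
  · exact absurd (hr.dvd_of_dvd_pow h') hrq
  obtain ⟨t, ht, h''⟩ := (hr.prime.dvd_finsetProd_iff _).1 h'
  exact ⟨t, Finset.mem_range.1 ht, h''⟩

theorem diag_elt (hF : Fintype.card F = q ^ 2) (s : Fin n → F) (hs : ∀ i, s i ^ (q + 1) = 1) (hd : ∏ i, s i = 1) :
    ∃ x ∈ Cfsg.GU n F q ⊓ Cfsg.Geo.specialLinear (Fin n) F, (x : Matrix (Fin n) (Fin n) F) = Matrix.diagonal s := by
  obtain ⟨g, hg, hgd⟩ := Herm.exists_diag hF s hs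
  exact ⟨g, mem_S.2 ⟨hg, by rw [hgd, Matrix.det_diagonal, hd]⟩, hgd⟩

end

/-- Elements of prime order of PSU_n(q) and the stabilizers of pairs of complementary totally singular subspaces. Here `T = PSU_n(q)` is realised through `SU_n(q)`, the matrices of determinant 1 over the field `F` with `q²` elements preserving the hermitian form `Σ uᵢ vᵢ^q`, with `n ≥ 4` even; `D` is a pair of complementary subspaces of dimension `n/2` on each of which the form vanishes identically, and `H` is the subgroup of `SU_n(q)` fixing or interchanging the two members — a subgroup of type GL_{n/2}(q²).2 (maximality is not assumed). Ω is the set of cosets of `H`, so an element of `T` of prime order `r` (`x ∈ SU_n(q)` with `x^r` scalar, `x` not scalar) fixes a point of Ω exactly when some `SU_n(q)`-conjugate of `x` lies in `H`. Let `r` be a prime dividing the index of `H`. Then every element of `T` of order `r` fixes a point of Ω if and only if `r = 2`, `q` is odd and `(q + 1)_2 ≤ (n)_2` (2-parts).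 -/
theorem result {F : Type*} [Field F] [Fintype F] {p : ℕ} [Fact p.Prime] [CharP F p] {q : ℕ} (hq : Fintype.card F = q ^ 2)
    (n : ℕ) (hn : 4 ≤ n) (he : Even n) (D : Fin 2 → Submodule F (Fin n → F)) (hD : Cfsg.Geo.IsMDecomposition (n / 2) D)
    (hDs : ∀ i, Cfsg.Geo.IsTotallySingularFor (Cfsg.hermForm n F q) (D i))
    (r : ℕ) [Fact r.Prime]
    (hΩ : r ∣ (Cfsg.Geo.decompositionStabilizer D).relIndex (Cfsg.GU n F q ⊓ Cfsg.Geo.specialLinear (Fin n) F)) :
    (∀ x ∈ Cfsg.GU n F q ⊓ Cfsg.Geo.specialLinear (Fin n) F, (∃ z : F, ((x ^ r : GL (Fin n) F) : Matrix (Fin n) (Fin n) F) = z • (1 : Matrix (Fin n) (Fin n) F)) →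
      (∀ z : F, (x : Matrix (Fin n) (Fin n) F) ≠ z • (1 : Matrix (Fin n) (Fin n) F)) →
      ∃ g ∈ Cfsg.GU n F q ⊓ Cfsg.Geo.specialLinear (Fin n) F, g⁻¹ * x * g ∈ Cfsg.Geo.decompositionStabilizer D) ↔
    (r = 2 ∧ Odd q ∧ padicValNat 2 (q + 1) ≤ padicValNat 2 n) := by
  classical
  set m := n / 2 with hm
  have hnm : n = 2 * m := by obtain ⟨k, rfl⟩ := he; omega
  have hm2 : 2 ≤ m := by omega
  have hq2 := two_le_q hq
  have hr : r.Prime := Fact.out
  have P : Pair n m q (D 0) (D 1) :=
    { card := hq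
      dim := hnm
      dimU := hD.finrank_eq 0
      dimW := hD.finrank_eq 1
      tsU := hDs 0
      tsW := hDs 1
      compl := ⟨hD.indep.pairwiseDisjoint (by decide), codisjoint_iff.2 (by
        rw [eq_top_iff, ← hD.iSup_eq_top]
        exact iSup_le fun i => by fin_cases i <;> simp)⟩ }
  set S := Cfsg.GU n F q ⊓ Cfsg.Geo.specialLinear (Fin n) F
  have hker : ∀ (s : Fin n → F) (z : F) (J : Finset (Fin n)), (∀ i, s i ≠ z ↔ i ∈ J) →
      finrank F (LinearMap.ker (Matrix.toLin' (Matrix.diagonal s) - z • LinearMap.id)) + J.card = n := by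
    intro s z J hJ
    rw [← Fintype.card_of_subtype J (p := fun i => s i - z ≠ 0) fun i => by rw [sub_ne_zero, hJ]]
    exact Cfsg.Agent.S5979.diag_fixed s z
  constructor
  · intro h
    have hbad : ∀ (x : GL (Fin n) F) (c z : F), x ∈ S → (x : Matrix (Fin n) (Fin n) F) ^ r = c • 1 → z ^ (q + 1) = 1 →
        Odd (finrank F (LinearMap.ker (Matrix.toLin' (x : Matrix (Fin n) (Fin n) F) - z • LinearMap.id))) →
        (m < finrank F (LinearMap.ker (Matrix.toLin' (x : Matrix (Fin n) (Fin n) F) - z • LinearMap.id)) ∨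
          (Odd r ∧ (x : Matrix (Fin n) (Fin n) F) ^ r = 1)) → False := by
      intro x c z hx hxc hz hodd hbig
      obtain ⟨g, hg, hgx⟩ := h x hx ⟨c, by rw [Units.val_pow_eq_pow_val]; exact hxc⟩ fun w hw => by
        rw [hw, map_smul, Matrix.toLin'_one, show w • (LinearMap.id : (Fin n → F) →ₗ[F] Fin n → F) - z • LinearMap.id =
          (w - z) • LinearMap.id from (sub_smul _ _ _).symm] at hodd
        rcases eq_or_ne w z with rfl | hwz
        · rw [sub_self, zero_smul, LinearMap.ker_zero, finrank_top, finrank_fin_fun] at hodd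
          exact Nat.not_even_iff_odd.2 hodd he
        · rw [LinearMap.ker_smul _ _ (sub_ne_zero.2 hwz), LinearMap.ker_id, finrank_bot] at hodd
          exact Nat.not_odd_zero hodd
      exact no_fix P (by omega) (mem_S.1 hx).1 (mem_S.1 hg).1 hgx hz hodd hbig
    let i₀ : Fin n := ⟨0, by omega⟩
    let i₁ : Fin n := ⟨1, by omega⟩
    have h01 : i₀ ≠ i₁ := by simp [i₀, i₁]
    by_cases hrp : r = p
    · exfalso
      subst hrp
      obtain ⟨x, hx, hxd, hxp, hxk⟩ := exists_transvection (p := r) P (by omega)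
      refine hbad x 1 1 (mem_S.2 ⟨hx, hxd⟩) (by rw [hxp, one_smul]) (one_pow _) ?_ (Or.inl (by omega))
      obtain ⟨k, hk⟩ := he
      exact ⟨k - 1, by omega⟩
    obtain ⟨f, -, hf⟩ := FiniteField.card F p
    have hrq : ¬ r ∣ q := fun hd => by
      have : r ∣ p ^ (f : ℕ) := by rw [← hf, hq]; exact dvd_pow hd two_ne_zero
      exact hrp ((Nat.prime_dvd_prime_iff_eq hr Fact.out).1 (hr.dvd_of_dvd_pow this))
    rcases eq_or_ne r 2 with hr2 | hr2
    · subst hr2
      have hqo : Odd q := Nat.not_even_iff_odd.1 fun h' => hrq h'.two_dvd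
      refine ⟨rfl, hqo, ?_⟩
      by_contra hlt
      push Not at hlt
      set a := padicValNat 2 n
      have h2a : 2 ^ (a + 1) ∣ q + 1 := (pow_dvd_pow 2 hlt).trans pow_padicValNat_dvd
      obtain ⟨l, hl⟩ := exists_root_of_dvd (F := F) (h2a.trans (succ_dvd hq))
      have hl2 : l ^ 2 ^ a = -1 :=
        (hl.pow (by positivity) (pow_succ 2 a)).eq_neg_one_of_two_right
      obtain ⟨o, ho⟩ : 2 ^ a ∣ n := pow_padicValNat_dvd
      have hodd : Odd o := Nat.not_even_iff_odd.1 fun ⟨k, hk⟩ => by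
        haveI : Fact (Nat.Prime 2) := ⟨Nat.prime_two⟩
        exact pow_succ_padicValNat_not_dvd (p := 2) (show n ≠ 0 by omega) ⟨k, by rw [pow_succ, mul_assoc, two_mul, ← hk]; exact ho⟩
      have hln : l ^ n = -1 := by rw [ho, pow_mul, hl2, hodd.neg_one_pow]
      have hl1 : l ^ (q + 1) = 1 := by
        obtain ⟨k, hk⟩ := h2a
        rw [hk, pow_mul, hl.pow_eq_one, one_pow]
      have hl0 : l ≠ 0 := fun e => by simp [e] at hl1
      have h2F : (2 : F) ≠ 0 := Ring.two_ne_zero fun hc => by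
        rw [FiniteField.even_card_iff_char_two, hq, ← Nat.even_iff, Nat.even_pow' two_ne_zero] at hc
        exact Nat.not_odd_iff_even.2 hc hqo
      let s : Fin n → F := fun i => if i = i₀ then -l else l
      obtain ⟨x, hx, hxs⟩ := diag_elt hq s (fun i => by
        simp only [s]; split_ifs <;> [rw [hqo.add_one.neg_pow, hl1]; exact hl1]) (by
        have : ∀ i, s i = l * (if i = i₀ then -1 else 1) := fun i => by simp only [s]; split_ifs <;> ring
        simp only [this, Finset.prod_mul_distrib, Finset.prod_const, Finset.card_univ, Fintype.card_fin, hln,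
          Fintype.prod_ite_eq']
        ring)
      have hk := hker s l {i₀} (fun i => by
        simp only [s, Finset.mem_singleton]
        split_ifs with hi
        · simp [hi]; exact fun e => mul_ne_zero h2F hl0 (by linear_combination -e)
        · simp [hi])
      rw [Finset.card_singleton] at hk
      refine hbad x (l * l) l hx (by
        rw [hxs, Matrix.diagonal_pow, Matrix.smul_one_eq_diagonal]
        exact congrArg Matrix.diagonal (funext fun i => by simp only [Pi.pow_apply, s]; split_ifs <;> ring)) hl1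
        ?_ (Or.inl ?_)
      · rw [hxs]; obtain ⟨k, hk'⟩ := he; exact ⟨k - 1, by omega⟩
      · rw [hxs]; omega
    exfalso
    have hro : Odd r := hr.odd_of_ne_two hr2
    obtain ⟨t, ht, htd⟩ := dvd_index P (by omega) hrq hΩ
    set b := orderOf (-(q : ZMod r)) with hb
    have hbt : b ∣ 2 * t + 1 := orderOf_dvd_of_pow_eq_one (by
      rw [(odd_two_mul_add_one t).neg_pow]
      rw [← ZMod.natCast_eq_zero_iff] at htd
      push_cast at htd
      linear_combination -htd)
    have hbo : Odd b := (odd_two_mul_add_one t).of_dvd_nat hbt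
    have hbn : b ≤ n := (Nat.le_of_dvd (by omega) hbt).trans (by omega)
    by_cases hb1 : b = 1
    · have hq1 : r ∣ q + 1 := by
        rw [← ZMod.natCast_eq_zero_iff]
        push_cast
        have : -(q : ZMod r) = 1 := orderOf_eq_one_iff.1 (hb ▸ hb1)
        linear_combination -this
      obtain ⟨w, hw⟩ := exists_root_of_dvd (F := F) (hq1.trans (succ_dvd hq))
      have hw0 : w ≠ 0 := hw.ne_zero hr.ne_zero
      have hwq : w ^ (q + 1) = 1 := by obtain ⟨k, hk⟩ := hq1; rw [hk, pow_mul, hw.pow_eq_one, one_pow]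
      have hw1 : w ≠ 1 := hw.ne_one hr.one_lt
      have hwi : w⁻¹ ≠ w := fun e => by
        have h2 : w ^ 2 = 1 := by rw [sq]; nth_rewrite 1 [← e]; exact inv_mul_cancel₀ hw0
        exact hr2 ((Nat.prime_dvd_prime_iff_eq hr Nat.prime_two).1 (hw.dvd_of_pow_eq_one 2 h2))
      let s : Fin n → F := fun i => if i = i₀ then w else if i = i₁ then w⁻¹ else 1
      obtain ⟨x, hx, hxs⟩ := diag_elt hq s (fun i => by
        simp only [s]; split_ifs <;> simp [hwq]) (by
        rw [← Finset.prod_subset (Finset.subset_univ ({i₀, i₁} : Finset (Fin n))) fun i _ hi => by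
          simp only [Finset.mem_insert, Finset.mem_singleton, not_or] at hi
          simp [s, hi.1, hi.2], Finset.prod_pair h01]
        simp [s, h01.symm, hw0])
      have hk := hker s w (Finset.univ.erase i₀) (fun i => by
        simp only [s, Finset.mem_erase, Finset.mem_univ, and_true]
        split_ifs with hi hj
        · simp [hi]
        · simp [hi, hwi]
        · simp [hi, hw1.symm])
      rw [Finset.card_erase_of_mem (Finset.mem_univ _), Finset.card_univ, Fintype.card_fin] at hk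
      have hxr : (x : Matrix (Fin n) (Fin n) F) ^ r = 1 := by
        rw [hxs, Matrix.diagonal_pow, ← Matrix.diagonal_one]
        exact congrArg Matrix.diagonal (funext fun i => by
          simp only [Pi.pow_apply, s]; split_ifs <;> simp [hw.pow_eq_one])
      refine hbad x 1 w hx (by rw [hxr, one_smul]) hwq ?_ (Or.inr ⟨hro, hxr⟩)
      rw [hxs]
      exact ⟨0, by omega⟩
    · obtain ⟨k, hk⟩ := hbo
      obtain ⟨x, hx, hxd, hxr, hxk⟩ := exists_moved (n := n) (p := p) (r := r) hrp hq ⟨k, hk⟩ (by omega) hbn hb.symm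
      refine hbad x 1 1 (mem_S.2 ⟨hx, hxd⟩) (by rw [hxr, one_smul]) (one_pow _) ?_ (Or.inr ⟨hro, hxr⟩)
      exact ⟨m - k - 1, by omega⟩
  · rintro ⟨rfl, hqo, hv⟩ x hx ⟨z, hz⟩ -
    obtain ⟨hxU, hxd⟩ := mem_S.1 hx
    have h2F : (2 : F) ≠ 0 := Ring.two_ne_zero fun hc => by
      rw [FiniteField.even_card_iff_char_two, hq, ← Nat.even_iff, Nat.even_pow' two_ne_zero] at hc
      exact Nat.not_odd_iff_even.2 hc hqo
    have H := hermData hq n
    set X := Matrix.toLin' (x : Matrix (Fin n) (Fin n) F) with hX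
    have hXi : ∀ u v, Cfsg.hermForm n F q (X u) (X v) = Cfsg.hermForm n F q u v := fun u v => by
      simp only [hX, Matrix.toLin'_apply]; exact Herm.mem_GU.1 hxU u v
    have hXX : ∀ v, X (X v) = z • v := fun v => by
      rw [hX, Matrix.toLin'_apply, Matrix.toLin'_apply, Matrix.mulVec_mulVec, ← pow_two, ← Units.val_pow_eq_pow_val, hz,
        Matrix.smul_mulVec, Matrix.one_mulVec]
    have hz1 : z ^ (q + 1) = 1 := by
      obtain ⟨w, hw⟩ := H.sep (Pi.single ⟨0, by omega⟩ 1) (Pi.single_ne_zero_iff.2 one_ne_zero)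
      have h1 := hXi (X (Pi.single ⟨0, by omega⟩ 1)) (X w)
      rw [hXX, hXX, hXi, H.smul_left, H.smul_right, conjQ_apply, ← mul_assoc, ← pow_succ'] at h1
      exact mul_right_cancel₀ hw (h1.trans (one_mul _).symm)
    obtain ⟨l, hl⟩ : IsSquare z := by
      have hz0 : z ≠ 0 := fun e => by simp [e] at hz1
      rw [FiniteField.isSquare_iff (fun e => h2F (by
        haveI := ringChar.of_eq e; exact CharTwo.two_eq_zero)) hz0, hq]
      obtain ⟨k, hk⟩ := hqo
      rw [show q ^ 2 / 2 = (q + 1) * k by rw [hk]; ring_nf; omega, pow_mul, hz1, one_pow]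
    subst hl
    have hl0 : l ≠ 0 := fun e => by simp [e] at hz1
    set k := finrank F (LinearMap.ker (X + l • LinearMap.id)) with hkdef
    have hsum := Submodule.finrank_add_eq_of_isCompl (isCompl_eigen h2F hl0 hXX)
    rw [finrank_fin_fun, ← hkdef] at hsum
    -- a member with the same eigenspace
    obtain ⟨a, ha, hd2, hcount⟩ : ∃ a : Fin m → F, (∀ i, a i ≠ 0) ∧
        (∀ i, a i ^ 2 = l * l ∧ ((a i ^ q)⁻¹) ^ 2 = l * l) ∧
        Fintype.card {i : Fin m ⊕ Fin m // Sum.elim a (fun j => (a j ^ q)⁻¹) i - l ≠ 0} = k := by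
      have hll : (l ^ (q + 1)) ^ 2 = 1 := by rw [← hz1, ← pow_mul, ← sq, ← pow_mul, mul_comm]
      have hne : -l ≠ l := fun e => mul_ne_zero h2F hl0 (by linear_combination -e)
      rcases sq_eq_one_iff.1 hll with hl1 | hl1
      · have hinv : ∀ c : F, c ^ (q + 1) = 1 → (c ^ q)⁻¹ = c := fun c hc => inv_eq_of_mul_eq_one_right (by rw [← pow_succ, hc])
        have hdet : LinearMap.det X = 1 := by rw [hX, LinearMap.det_toLin', hxd]
        rw [eigen_det h2F hl0 hXX, finrank_fin_fun, ← hkdef] at hdet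
        obtain ⟨j, hj⟩ : Even k := Nat.not_odd_iff_even.1 fun hko => by
          rw [hko.neg_one_pow, mul_neg, mul_one, neg_eq_iff_eq_neg] at hdet
          haveI : Fact (Nat.Prime 2) := ⟨Nat.prime_two⟩
          obtain ⟨o, ho⟩ : 2 ^ padicValNat 2 (q + 1) ∣ q + 1 := pow_padicValNat_dvd
          have hoo : Odd o := Nat.not_even_iff_odd.1 fun ⟨c, hc⟩ =>
            pow_succ_padicValNat_not_dvd (p := 2) (show q + 1 ≠ 0 by omega) ⟨c, by rw [pow_succ, mul_assoc, two_mul, ← hc]; exact ho⟩
          obtain ⟨c, hc⟩ : q + 1 ∣ n * o := by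
            rw [ho]; exact mul_dvd_mul_right ((pow_dvd_pow 2 hv).trans pow_padicValNat_dvd) o
          have h1 : (l ^ n) ^ o = 1 := by rw [← pow_mul, hc, pow_mul, hl1, one_pow]
          rw [hdet, hoo.neg_one_pow] at h1
          exact h2F (by linear_combination -h1)
        refine ⟨fun i => if (i : ℕ) < j then -l else l, fun i => by dsimp only; split_ifs <;> simp [hl0],
          fun i => ?_, ?_⟩
        · dsimp only
          split_ifs
          · rw [hinv _ (by rw [hqo.add_one.neg_pow, hl1])]; constructor <;> ring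
          · rw [hinv _ hl1]; constructor <;> ring
        · have e : ∀ i : Fin m ⊕ Fin m, Sum.elim (fun i : Fin m => if (i : ℕ) < j then -l else l)
              (fun i : Fin m => ((if (i : ℕ) < j then -l else l) ^ q)⁻¹) i - l ≠ 0 ↔ (Sum.elim id id i : Fin m).val < j := by
            rintro (i | i) <;> simp only [Sum.elim_inl, Sum.elim_inr, id_eq, sub_ne_zero]
            · split_ifs with hi <;> simp [hi, hne]
            · split_ifs with hi
              · rw [hinv _ (by rw [hqo.add_one.neg_pow, hl1])]; simp [hi, hne]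
              · rw [hinv _ hl1]; simp [hi]
          rw [Fintype.card_congr (Equiv.subtypeEquivRight e), Fintype.card_congr (Equiv.subtypeSum), Fintype.card_sum]
          have hc : Fintype.card {i : Fin m // (i : ℕ) < j} = min m j := by
            rw [Fintype.card_subtype, Fin.card_filter_val_lt]
          show Fintype.card {i : Fin m // (i : ℕ) < j} + Fintype.card {i : Fin m // (i : ℕ) < j} = _
          rw [hc]
          omega
      · have hinv : (l ^ q)⁻¹ = -l := inv_eq_of_mul_eq_one_right (by rw [mul_neg, ← pow_succ, hl1, neg_neg])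
        refine ⟨fun _ => l, fun _ => hl0, fun _ => by rw [hinv]; constructor <;> ring, ?_⟩
        have e : ∀ i : Fin m ⊕ Fin m, Sum.elim (fun _ : Fin m => l) (fun _ => (l ^ q)⁻¹) i - l ≠ 0 ↔ i.isRight = true := by
          rintro (i | i) <;> simp [hinv, sub_ne_zero, hne]
        rw [Fintype.card_congr (Equiv.subtypeEquivRight e), Fintype.card_congr (Equiv.subtypeSum), Fintype.card_sum]
        have hts : ∀ c : F, c ^ (q + 1) = -1 → ∀ u, X u = c • u → ∀ v, X v = c • v → Cfsg.hermForm n F q u v = 0 := by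
          intro c hc u hu v hv'
          have h1 := hXi u v
          rw [hu, hv', H.smul_left, H.smul_right, conjQ_apply, ← mul_assoc, ← pow_succ', hc] at h1
          have : (2 : F) * Cfsg.hermForm n F q u v = 0 := by linear_combination -h1
          exact (mul_eq_zero.1 this).resolve_left h2F
        have h1 := ts_le hq (S := LinearMap.ker (X - l • LinearMap.id)) fun u hu v hv' =>
          hts l hl1 u (eig_pos hu) v (eig_pos hv')
        have h2 := ts_le hq (S := LinearMap.ker (X + l • LinearMap.id)) fun u hu v hv' =>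
          hts (-l) (by rw [hqo.add_one.neg_pow, hl1]) u (eig_neg hu) v (eig_neg hv')
        simp
        omega
    obtain ⟨y, hyU, hy0, hy1, -, T, hT⟩ := exists_member P a ha
    have hyD : y ∈ Cfsg.Geo.decompositionStabilizer D :=
      ⟨1, fun i => by fin_cases i <;> assumption⟩
    set Y := Matrix.toLin' (y : Matrix (Fin n) (Fin n) F) with hY
    have hYY : ∀ v, Y (Y v) = (l * l) • v := fun v => by
      obtain ⟨v, rfl⟩ := T.surjective v
      rw [hT, hT, ← map_smul]
      congr 1
      funext i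
      simp only [Matrix.toLin'_apply, Matrix.mulVec_diagonal, Pi.smul_apply, smul_eq_mul]
      rcases i with i | i <;> simp only [Sum.elim_inl, Sum.elim_inr]
      · linear_combination v (.inl i) * (hd2 i).1
      · linear_combination v (.inr i) * (hd2 i).2
    have hkY : finrank F (LinearMap.ker (Y - l • LinearMap.id)) + k = n := by
      rw [Cfsg.Agent.S5979.ker_conj_eq (T := T.symm)
        (Y := Matrix.toLin' (Matrix.diagonal (Sum.elim a fun i => (a i ^ q)⁻¹)))
        (fun v => by obtain ⟨v, rfl⟩ := T.surjective v; rw [hT, T.symm_apply_apply, T.symm_apply_apply]) l]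
      set s := Sum.elim a fun i => (a i ^ q)⁻¹
      have hsub : Matrix.toLin' (Matrix.diagonal s) - l • LinearMap.id = Matrix.toLin' (Matrix.diagonal fun i => s i - l) := by
        rw [← Matrix.diagonal_sub, map_sub, ← Matrix.smul_one_eq_diagonal, map_smul, Matrix.toLin'_one]
      have h1 := LinearMap.finrank_range_add_finrank_ker (Matrix.toLin' (Matrix.diagonal fun i => s i - l))
      have hr1 : finrank F (LinearMap.range (Matrix.toLin' (Matrix.diagonal fun i => s i - l))) =
          Fintype.card {i // s i - l ≠ 0} := Matrix.rank_diagonal _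
      rw [hr1, hcount, Module.finrank_pi, Fintype.card_sum, Fintype.card_fin] at h1
      rw [hsub]
      omega
    obtain ⟨L, hL⟩ := conj_semisimple h2F hl0 hXX hYY rfl (by omega)
    obtain ⟨G, hG, -⟩ : ∃ G : GL (Fin n) F, (∀ v, (G : Matrix (Fin n) (Fin n) F) *ᵥ v = L v) ∧ True :=
      ⟨⟨LinearMap.toMatrix' L.toLinearMap, LinearMap.toMatrix' L.symm.toLinearMap,
        by rw [← LinearMap.toMatrix'_comp]; simp, by rw [← LinearMap.toMatrix'_comp]; simp⟩,
        fun v => LinearMap.toMatrix'_mulVec _ v, trivial⟩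
    obtain ⟨c, hc⟩ := isConj_iff.1 ((Cfsg.Agent.S2587.result hq ⟨x, hxU⟩ ⟨y, hyU⟩).2 (isConj_iff.2 ⟨G, by
      rw [mul_inv_eq_iff_eq_mul]
      refine Units.ext (Matrix.ext_iff_mulVec.2 fun v => ?_)
      rw [Units.val_mul, Units.val_mul, ← Matrix.mulVec_mulVec, ← Matrix.mulVec_mulVec, hG, hG]
      exact hL v⟩))
    set g0 : GL (Fin n) F := ((c⁻¹ : Cfsg.GU n F q) : GL (Fin n) F) with hg0
    have hg0U : g0 ∈ Cfsg.GU n F q := (c⁻¹).2
    have h0 : g0⁻¹ * x * g0 = y := by
      have := congrArg Subtype.val hc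
      simpa [hg0] using this
    set δ := (g0 : Matrix (Fin n) (Fin n) F).det with hδ
    have hδn : δ ^ (q + 1) = 1 := Herm.det_norm hq hg0U
    obtain ⟨α, hα0, hα⟩ := hilbert hq (w := δ⁻¹) (by rw [inv_pow, hδn, inv_one])
    obtain ⟨t, htU, ht0, ht1, htd, -⟩ := exists_member P (Function.update 1 (⟨0, by omega⟩ : Fin m) α) fun i => by
      rcases eq_or_ne i ⟨0, by omega⟩ with rfl | hi
      · simp [hα0]
      · simp [hi]
    have htD : t ∈ Cfsg.Geo.decompositionStabilizer D :=
      ⟨1, fun i => by fin_cases i <;> assumption⟩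
    refine ⟨g0 * t, mem_S.2 ⟨mul_mem hg0U htU, ?_⟩, ?_⟩
    · rw [Units.val_mul, Matrix.det_mul, htd, Finset.prod_eq_single (⟨0, by omega⟩ : Fin m) (fun i _ hi => by simp [hi])
        (fun h => absurd (Finset.mem_univ _) h), Function.update_self, hα, ← hδ,
        mul_inv_cancel₀ (fun e => by simp [e] at hδn)]
    · rw [show (g0 * t)⁻¹ * x * (g0 * t) = t⁻¹ * (g0⁻¹ * x * g0) * t by group, h0]
      exact mul_mem (mul_mem (inv_mem htD) hyD) htD

end Cfsg.Agent.S5984
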