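import Cfsg.Statements.S5985
import Cfsg.Agent.Lib.Classical.OrthTorsionOmega
import Cfsg.Agent.Lib.GLn.ReciprocalFull
import Cfsg.Agent.Lib.Forms.OrthStab

set_option autoImplicit false
open scoped MatrixGroups
open Cfsg

namespace Cfsg.Agent.S5985
open QuadraticMap Matrix Cfsg.Agent.Lib.Classical.OrthTorsion Cfsg.Agent.Lib.Classical.Quad Cfsg.Agent.Lib.Classical.QuadOmega Cfsg.Agent.Lib.Forms
open Cfsg.Agent.Lib.GLn.ReciprocalTorsion


/-- Elements of prime order of Ω⁺_n(q), q even, with no fixed nonsingular 1-space. Here `T = PΩ⁺_n(F)`, `n = 2d ≥ 8`, realised through `Ω⁺_n(q)`, the commutator subgroup of the isometry group of `Q = Σ xᵢyᵢ` over the field `F` with `q` elements; an element of `T` of prime order `r` is an element `x` of `Ω⁺_n(q)` with `x^r` scalar and `x` not scalar; `q` is even (so the centre is trivial). Let Ω be the set of 1-dimensional subspaces spanned by a vector `v` with `Q(v) ≠ 0`, and let `r` be a prime dividing their number. Then every element of `T` of order `r` fixes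 some nonsingular 1-space if and only if `r = 2` and `n ≡ 2 (mod 4)` (that is, `d` is odd). -/
theorem result {F : Type*} [Field F] [Fintype F] {p : ℕ} [Fact p.Prime] [CharP F p] {q : ℕ} (hq : Fintype.card F = q)
    (hp : p = 2) (d : ℕ) (hd : 4 ≤ d) (r : ℕ) [Fact r.Prime]
    (hrΩ : r ∣ Nat.card {W : Submodule F (Fin d ⊕ Fin d → F) // Module.finrank F ↥W = 1 ∧ ∃ v ∈ W, Cfsg.quadFormPlus d F v ≠ 0}) :
    (∀ x : GL (Fin d ⊕ Fin d) F, x ∈ Cfsg.Geo.omegaGL (Cfsg.quadFormPlus d F) →
      (∃ z : F, ((x ^ r : GL (Fin d ⊕ Fin d) F) : Matrix (Fin d ⊕ Fin d) (Fin d ⊕ Fin d) F) = z • (1 : Matrix (Fin d ⊕ Fin d) (Fin d ⊕ Fin d) F)) →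
      (∀ z : F, (x : Matrix (Fin d ⊕ Fin d) (Fin d ⊕ Fin d) F) ≠ z • (1 : Matrix (Fin d ⊕ Fin d) (Fin d ⊕ Fin d) F)) →
      ∃ W : Submodule F (Fin d ⊕ Fin d → F), (Module.finrank F ↥W = 1 ∧ ∃ v ∈ W, Cfsg.quadFormPlus d F v ≠ 0) ∧ W.map (Matrix.toLin' (x : Matrix (Fin d ⊕ Fin d) (Fin d ⊕ Fin d) F)) ≤ W) ↔ (r = 2 ∧ Odd d) := by
  classical
  subst hq hp
  have hrP : r.Prime := Fact.out
  haveI : Fact r.Prime := ⟨hrP⟩
  have h2 : (2 : F) = 0 := CharTwo.two_eq_zero
  have hcast : ((Fintype.card F : ℕ) : F) = 0 := FiniteField.cast_card_eq_zero F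
  set q := Fintype.card F with hqdef
  have hq1 : 1 < q := Fintype.one_lt_card
  have hneg : ∀ c : F, c * c = 1 → c = 1 := fun c hc => by
    have : (c - 1) * (c - 1) = 0 := by linear_combination hc + (1 - c) * h2
    exact sub_eq_zero.1 (mul_self_eq_zero.1 this)
  have hfQ : (⇑(plusQ d F) : (Fin d ⊕ Fin d → F) → F) = Cfsg.quadFormPlus d F := funext fun v => plusQ_apply d v
  have hreg : Reg F (Fin d ⊕ Fin d → F) := reg_plus (Or.inr (by omega))
  have key : ∀ P : Polynomial F, Real (plusQ d F) r P → P.eval 1 ≠ 0 → Odd r →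
      ∃ x : GL (Fin d ⊕ Fin d) F, x ∈ Cfsg.Geo.omegaGL (Cfsg.quadFormPlus d F) ∧ x ^ r = 1 ∧
        (x : Matrix (Fin d ⊕ Fin d) (Fin d ⊕ Fin d) F).charpoly = P ∧ ∀ v, (x : Matrix (Fin d ⊕ Fin d) (Fin d ⊕ Fin d) F) *ᵥ v = v → v = 0 := by
    intro P hP h1 hodd
    obtain ⟨x, hx, hxr, hxc⟩ := hP.exists_omega (nd_plusQ d) hreg hodd
    rw [hfQ] at hx
    exact ⟨x, hx, hxr, hxc, fun v hv => by_contra fun hv0 => h1 (hxc ▸ eval_one_of_fixed hv0 hv)⟩
  have hiso : ∀ x : GL (Fin d ⊕ Fin d) F, x ∈ Cfsg.Geo.omegaGL (Cfsg.quadFormPlus d F) → ∀ v,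
      plusQ d F ((x : Matrix (Fin d ⊕ Fin d) (Fin d ⊕ Fin d) F) *ᵥ v) = plusQ d F v := fun x hx v => by
    rw [plusQ_apply, plusQ_apply]
    exact mem_isometryGroup_of_omega hx v
  constructor
  · intro hall
    by_contra hcon
    rcases eq_or_ne r 2 with hr2 | hr2
    · subst hr2
      have hde : Even d := Nat.not_odd_iff_even.1 fun h => hcon ⟨rfl, h⟩
      let τ : Fin d → Fin d := fun j => if hj : Even (j : ℕ) then ⟨(j : ℕ) + 1, by
          rcases hde with ⟨e, he⟩
          rcases hj with ⟨e', he'⟩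
          omega⟩ else ⟨(j : ℕ) - 1, by omega⟩
      have hτ : ∀ j, τ (τ j) = j := fun j => by
        by_cases h : Even (j : ℕ)
        · simp [τ, h, parity_simps]
        · obtain ⟨e, he⟩ := Nat.not_even_iff_odd.1 h
          ext
          simp [τ, h, he, parity_simps]
      have hτne : ∀ j, τ j ≠ j := fun j h => by
        by_cases hj : Even (j : ℕ)
        · simp [τ, hj, Fin.ext_iff] at h
        · obtain ⟨e, he⟩ := Nat.not_even_iff_odd.1 hj
          simp [τ, hj, Fin.ext_iff] at h
          omega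
      let L : (Fin d ⊕ Fin d → F) →ₗ[F] (Fin d ⊕ Fin d → F) :=
        {toFun := fun v => Sum.elim (fun j => v (.inl j) + v (.inr (τ j))) fun j => v (.inr j)
         map_add' := fun v v' => by ext (j | j) <;> simp [add_add_add_comm]
         map_smul' := fun k v => by ext (j | j) <;> simp [mul_add] }
      have hLL : ∀ v, L (L v) = v := fun v => by
        ext (j | j)
        · simp [L]; linear_combination v (.inr (τ j)) * h2
        · simp [L]
      have hLQ : ∀ v, plusQ d F (L v) = plusQ d F v := fun v => by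
        simp only [plusQ_apply, Cfsg.quadFormPlus, L, LinearMap.coe_mk, AddHom.coe_mk, Sum.elim_inl,
          Sum.elim_inr, add_mul, Finset.sum_add_distrib]
        rw [show ∑ j, v (.inr (τ j)) * v (.inr j) = 0 from ?_, add_zero]
        exact Finset.sum_involution (fun j _ => τ j)
          (fun j _ => by rw [hτ]; linear_combination (v (.inr (τ j)) * v (.inr j)) * h2)
          (fun j _ _ => hτne j) (fun j _ => Finset.mem_univ _) fun j _ => hτ j
      let g : isoG (plusQ d F) := ⟨LinearEquiv.ofLinear L L (LinearMap.ext hLL) (LinearMap.ext hLL), hLQ⟩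
      have hfix : fixS g = LinearMap.ker (LinearMap.funLeft F F (Sum.inr : Fin d → Fin d ⊕ Fin d)) := by
        ext v
        rw [mem_fixS, LinearMap.mem_ker]
        show L v = v ↔ _
        refine ⟨fun h => funext fun j => ?_, fun h => ?_⟩
        · have := congrFun h (.inl (τ j))
          simpa [L, hτ, LinearMap.funLeft] using this
        · ext (j | j)
          · have := congrFun h (τ j)
            simpa [L, LinearMap.funLeft] using this
          · simp [L]
      have hgc : g ∈ commutator (isoG (plusQ d F)) := by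
        rw [mem_commutator_iff_two (nd_plusQ d) hreg h2, dick_eq, hfix]
        have h := (LinearMap.funLeft F F (Sum.inr : Fin d → Fin d ⊕ Fin d)).finrank_range_add_finrank_ker
        rw [LinearMap.range_eq_top.2 (LinearMap.funLeft_surjective_of_injective _ _ _ Sum.inr_injective),
          finrank_top, Module.finrank_fin_fun, finrank_plus] at h
        rw [finrank_plus]
        exact Even.neg_one_pow (by obtain ⟨e, he⟩ := hde; exact ⟨3 * e, by omega⟩)
      set x := isoMat (plusQ d F) g with hx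
      have hxv : ∀ v, (x : Matrix (Fin d ⊕ Fin d) (Fin d ⊕ Fin d) F) *ᵥ v = L v := fun v => isoMat_mulVec g v
      obtain ⟨W, ⟨hW1, v, hv, hQv⟩, hmap⟩ := hall x (hfQ ▸ isoMat_mem_omega hgc)
        ⟨1, by
          rw [one_smul, hx, isoMat_pow, show g ^ 2 = 1 from Subtype.ext (LinearEquiv.ext fun v => by
            rw [Subgroup.coe_pow, pow_two, LinearEquiv.mul_apply]; exact hLL v), isoMat_one, Units.val_one]⟩
        (fun z hz => by
          have h := hxv (Pi.single (.inr ⟨0, by omega⟩) 1)
          rw [hz, Matrix.smul_mulVec, Matrix.one_mulVec] at h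
          have h' := congrFun h (.inl (τ ⟨0, by omega⟩))
          simp [L, hτ] at h')
      rw [← plusQ_apply] at hQv
      obtain ⟨c, hc⟩ : ∃ c : F, (x : Matrix (Fin d ⊕ Fin d) (Fin d ⊕ Fin d) F) *ᵥ v = c • v := by
        have hspan : W = Submodule.span F {v} := (Submodule.eq_of_le_of_finrank_le
          ((Submodule.span_singleton_le_iff_mem _ _).2 hv)
          (by rw [hW1, finrank_span_singleton fun e : v = 0 => hQv (by rw [e, map_zero])])).symm
        have := hmap (Submodule.mem_map_of_mem hv)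
        rw [hspan, Matrix.toLin'_apply] at this
        obtain ⟨c, hc⟩ := Submodule.mem_span_singleton.1 this
        exact ⟨c, hc.symm⟩
      have hc1 := hneg c (sq_eq_one_of_eigen (fun w => by rw [hxv]; exact hLQ w) hQv hc)
      rw [hc1, one_smul, hxv] at hc
      refine hQv ?_
      rw [plusQ_apply, Cfsg.quadFormPlus]
      refine Finset.sum_eq_zero fun j _ => ?_
      have := congrFun hc (.inl (τ j))
      simp [L, hτ] at this
      rw [this, mul_zero]
    · have hodd : Odd r := hrP.odd_of_ne_two hr2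
      have hd0 : r ∣ q ^ (d - 1) * (q ^ d - 1) := by
        have hl := card_nonsing_lines (F := F) (ι := Fin d ⊕ Fin d) (f := Cfsg.quadFormPlus d F) (fun c v => by
          rw [← plusQ_apply, ← plusQ_apply, QuadraticMap.map_smul, smul_eq_mul])
        rw [card_sing_plus d (by omega), Fintype.card_sum, Fintype.card_fin, ← hqdef] at hl
        have hQ : Nat.card {W : Submodule F (Fin d ⊕ Fin d → F) // Module.finrank F W = 1 ∧ ∃ v ∈ W, Cfsg.quadFormPlus d F v ≠ 0} =
            q ^ (d - 1) * (q ^ d - 1) := by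
          obtain ⟨k, rfl⟩ : ∃ k, d = k + 1 := ⟨d - 1, by omega⟩
          rw [show 2 * (k + 1) - 1 = 2 * k + 1 by omega, Nat.add_sub_cancel] at hl
          rw [Nat.add_sub_cancel]
          have e1 : q ^ k ≤ q ^ (2 * k + 1) + q ^ (k + 1) :=
            (Nat.pow_le_pow_right hq1.le (by omega)).trans (Nat.le_add_right _ _)
          have e2 : 1 ≤ q ^ (k + 1) := Nat.one_le_pow _ _ (by omega)
          refine Nat.eq_of_mul_eq_mul_right (show 0 < q - 1 by omega) ?_
          zify [e1, e2, hq1.le] at hl ⊢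
          linear_combination hl
        rw [← hQ]; exact hrΩ
      have hrp2 : r ≠ 2 := hr2
      have hrd : r ∣ q ^ d - 1 := by
        refine (hrP.dvd_mul.1 hd0).resolve_left fun h => hr2 ?_
        obtain ⟨k, hp2, hk⟩ := FiniteField.card F 2
        have h' := hrP.dvd_of_dvd_pow h
        rw [hqdef, hk] at h'
        exact (Nat.prime_dvd_prime_iff_eq hrP hp2).1 (hrP.dvd_of_dvd_pow h')
      have hqd : (q : ZMod r) ^ d = 1 := by
        have := (ZMod.natCast_eq_zero_iff _ _).2 hrd
        rw [Nat.cast_sub (Nat.one_le_pow _ _ (by omega)), sub_eq_zero] at this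
        push_cast at this
        exact this
      have hid : orderOf (q : ZMod r) ∣ d := orderOf_dvd_of_pow_eq_one hqd
      obtain ⟨P, hP, h1⟩ := exists_full (p := 2) (F := F) hqdef.symm r _ hrP hr2 hr2 rfl
        (dvd_mul_of_dvd_right hid 2)
      obtain ⟨x, hx, hxr, -, hfix⟩ := key P
        (real_plus_exists (p := 2) hqdef.symm hrP hr2 hr2 rfl hP fun _ _ => hqd) h1 hodd
      obtain ⟨W, ⟨hW1, v, hv, hQv⟩, hmap⟩ := hall x hx ⟨1, by rw [one_smul, hxr, Units.val_one]⟩ (fun z hz => by
        have hxz : ∀ v, (x : Matrix (Fin d ⊕ Fin d) (Fin d ⊕ Fin d) F) *ᵥ v = z • v := fun v => by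
          rw [hz, Matrix.smul_mulVec, Matrix.one_mulVec]
        set u : Fin d ⊕ Fin d → F := Pi.single (.inl ⟨0, by omega⟩) 1 + Pi.single (.inr ⟨0, by omega⟩) 1 with hu
        have hQu : plusQ d F u ≠ 0 := by
          rw [plusQ_apply, Cfsg.quadFormPlus, Finset.sum_eq_single ⟨0, by omega⟩ (fun b _ hb => by
            simp [hu, Pi.single_apply, hb]) (by simp)]
          simp [hu]
        have := hfix u (by rw [hxz, hneg z (sq_eq_one_of_eigen (hiso x hx) hQu (hxz u)), one_smul])
        exact hQu (by rw [this, map_zero]))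
      rw [← plusQ_apply] at hQv
      have hspan : W = Submodule.span F {v} := (Submodule.eq_of_le_of_finrank_le
        ((Submodule.span_singleton_le_iff_mem _ _).2 hv)
        (by rw [hW1, finrank_span_singleton fun e : v = 0 => hQv (by rw [e, map_zero])])).symm
      have := hmap (Submodule.mem_map_of_mem hv)
      rw [hspan, Matrix.toLin'_apply] at this
      obtain ⟨c, hc⟩ := Submodule.mem_span_singleton.1 this
      refine hQv ?_
      rw [hfix v (by rw [← hc, hneg c (sq_eq_one_of_eigen (hiso x hx) hQv hc.symm), one_smul]), map_zero]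
  · rintro ⟨rfl, hdodd⟩ x hx ⟨z, hz⟩ -
    obtain ⟨g, hgΩ, hgv⟩ := omega_iso (Q := plusQ d F) (hfQ ▸ hx)
    have hx2 : ∀ v, g.1 (g.1 v) = v := fun v => by
      have h : ∀ v, g.1 (g.1 v) = z • v := fun v => by
        rw [hgv, hgv, Matrix.mulVec_mulVec, ← Units.val_mul, ← pow_two, hz, Matrix.smul_mulVec, Matrix.one_mulVec]
      set u : Fin d ⊕ Fin d → F := Pi.single (.inl ⟨0, by omega⟩) 1 + Pi.single (.inr ⟨0, by omega⟩) 1 with hu
      have hQu : plusQ d F u ≠ 0 := by
        rw [plusQ_apply, Cfsg.quadFormPlus, Finset.sum_eq_single ⟨0, by omega⟩ (fun b _ hb => by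
          simp [hu, Pi.single_apply, hb]) (by simp)]
        simp [hu]
      have h' := iso_Q g (g.1 u)
      rw [iso_Q g u, h u, QuadraticMap.map_smul, smul_eq_mul] at h'
      rw [h v, hneg z (mul_right_cancel₀ hQu (by rw [one_mul]; exact h')), one_smul]
    set D : (Fin d ⊕ Fin d → F) →ₗ[F] (Fin d ⊕ Fin d → F) := g.1.toLinearMap + LinearMap.id with hD
    have hDD : LinearMap.range D ≤ fixS g := by
      rintro _ ⟨v, rfl⟩
      rw [mem_fixS]
      simp [hD, map_add, hx2, add_comm]
    have hker : LinearMap.ker D = fixS g := by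
      ext v
      rw [LinearMap.mem_ker, mem_fixS]
      simp only [hD, LinearMap.add_apply, LinearEquiv.coe_coe, LinearMap.id_coe, id_eq]
      exact ⟨fun e => by linear_combination (norm := module) e - h2 • v, fun e => by
        rw [e]; linear_combination (norm := module) h2 • v⟩
    have hrk := D.finrank_range_add_finrank_ker
    rw [hker, finrank_plus] at hrk
    have hle := Submodule.finrank_mono hDD
    by_contra hno
    push Not at hno
    have hTS : ∀ v ∈ fixS g, plusQ d F v = 0 := fun v hv => by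
      by_contra hv0
      refine hno (Submodule.span F {v}) ⟨finrank_span_singleton fun e : v = 0 => hv0 (by rw [e, map_zero]),
        v, Submodule.mem_span_singleton_self v, by rwa [← plusQ_apply]⟩ ?_
      rw [Submodule.map_span, Set.image_singleton, Submodule.span_singleton_le_iff_mem]
      exact Submodule.mem_span_singleton.2 ⟨1, by rw [one_smul, Matrix.toLin'_apply, ← hgv, mem_fixS.1 hv]⟩
    have hdim := (nd_plusQ (F := F) d).two_mul_finrank_le (fixS g) fun a ha b hb => by
      rw [polar, hTS _ (add_mem ha hb), hTS _ ha, hTS _ hb]; simp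
    rw [finrank_plus] at hdim
    rw [mem_commutator_iff_two (nd_plusQ d) hreg h2, dick_eq, finrank_plus,
      show Module.finrank F (fixS g) = d by omega] at hgΩ
    rw [(show Odd (2 * d + d) by obtain ⟨e, he⟩ := hdodd; exact ⟨3 * e + 1, by omega⟩).neg_one_pow] at hgΩ
    exact absurd hgΩ (by decide)

end Cfsg.Agent.S5985
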