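import Cfsg.Statements.S5986
import Cfsg.Agent.Lib.Classical.OrthTorsionOmega
import Cfsg.Agent.Lib.GLn.ReciprocalFull
import Cfsg.Agent.Lib.Forms.OrthStab
import Cfsg.Agent.Lib.Classical.QuadF2

set_option autoImplicit false
open scoped MatrixGroups
open Cfsg

namespace Cfsg.Agent.S5986
open QuadraticMap Cfsg.Agent.Lib.Classical.QuadF2 Matrix Cfsg.Agent.Lib.Classical.OrthTorsion Cfsg.Agent.Lib.Classical.Quad Cfsg.Agent.Lib.Classical.QuadOmega Cfsg.Agent.Lib.Forms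
open Cfsg.Agent.Lib.GLn.ReciprocalTorsion


/-- Elements of prime order of Ω⁻_n(q), q even, with no fixed nonsingular 1-space. Here `T = PΩ⁻_n(F)`, `n = 2d ≥ 8`, realised through `Ω⁻_n(q)`, the commutator subgroup of the isometry group of `Q = Σ_{i<d−1} xᵢyᵢ + z₁² + a z₁z₂ + b z₂²` with `z₁² + a z₁z₂ + b z₂²` anisotropic, over the field `F` with `q` elements; an element of `T` of prime order `r` is an element `x` of `Ω⁻_n(q)` with `x^r` scalar and `x` not scalar; `q` is even (so the centre is trivial). Let Ω be the set of 1-dimensional subspaces spanned by a vector `v` with `Q(v) ≠ 0`, and let `r` be a prime dividing their number. Then every element of `T` of order `r` fixes some nonsingular 1-space if and only if `r = 2`. -/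
theorem result {F : Type*} [Field F] [Fintype F] {p : ℕ} [Fact p.Prime] [CharP F p] {q : ℕ} (hq : Fintype.card F = q)
    (hp : p = 2) (d : ℕ) (hd : 4 ≤ d) (a b : F) (hab : ∀ x y : F, x ^ 2 + a * x * y + b * y ^ 2 = 0 → x = 0 ∧ y = 0) (r : ℕ) [Fact r.Prime]
    (hrΩ : r ∣ Nat.card {W : Submodule F ((Fin (d - 1) ⊕ Fin (d - 1)) ⊕ Fin 2 → F) // Module.finrank F ↥W = 1 ∧ ∃ v ∈ W, Cfsg.quadFormMinus (d - 1) F a b v ≠ 0}) :
    (∀ x : GL ((Fin (d - 1) ⊕ Fin (d - 1)) ⊕ Fin 2) F, x ∈ Cfsg.Geo.omegaGL (Cfsg.quadFormMinus (d - 1) F a b) →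
      (∃ z : F, ((x ^ r : GL ((Fin (d - 1) ⊕ Fin (d - 1)) ⊕ Fin 2) F) : Matrix ((Fin (d - 1) ⊕ Fin (d - 1)) ⊕ Fin 2) ((Fin (d - 1) ⊕ Fin (d - 1)) ⊕ Fin 2) F) = z • (1 : Matrix ((Fin (d - 1) ⊕ Fin (d - 1)) ⊕ Fin 2) ((Fin (d - 1) ⊕ Fin (d - 1)) ⊕ Fin 2) F)) →
      (∀ z : F, (x : Matrix ((Fin (d - 1) ⊕ Fin (d - 1)) ⊕ Fin 2) ((Fin (d - 1) ⊕ Fin (d - 1)) ⊕ Fin 2) F) ≠ z • (1 : Matrix ((Fin (d - 1) ⊕ Fin (d - 1)) ⊕ Fin 2) ((Fin (d - 1) ⊕ Fin (d - 1)) ⊕ Fin 2) F)) →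
      ∃ W : Submodule F ((Fin (d - 1) ⊕ Fin (d - 1)) ⊕ Fin 2 → F), (Module.finrank F ↥W = 1 ∧ ∃ v ∈ W, Cfsg.quadFormMinus (d - 1) F a b v ≠ 0) ∧ W.map (Matrix.toLin' (x : Matrix ((Fin (d - 1) ⊕ Fin (d - 1)) ⊕ Fin 2) ((Fin (d - 1) ⊕ Fin (d - 1)) ⊕ Fin 2) F)) ≤ W) ↔ r = 2 := by
  classical
  subst hq hp
  obtain ⟨m, rfl⟩ : ∃ m, d = m + 1 := ⟨d - 1, by omega⟩
  change r ∣ Nat.card {W : Submodule F ((Fin m ⊕ Fin m) ⊕ Fin 2 → F) // Module.finrank F ↥W = 1 ∧ ∃ v ∈ W, Cfsg.quadFormMinus m F a b v ≠ 0} at hrΩ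
  change (∀ x : GL ((Fin m ⊕ Fin m) ⊕ Fin 2) F, x ∈ Cfsg.Geo.omegaGL (Cfsg.quadFormMinus m F a b) → _ → _ → ∃ W : Submodule F ((Fin m ⊕ Fin m) ⊕ Fin 2 → F), (Module.finrank F ↥W = 1 ∧ ∃ v ∈ W, Cfsg.quadFormMinus m F a b v ≠ 0) ∧ W.map (Matrix.toLin' (x : Matrix ((Fin m ⊕ Fin m) ⊕ Fin 2) ((Fin m ⊕ Fin m) ⊕ Fin 2) F)) ≤ W) ↔ _
  have hrP : r.Prime := Fact.out
  haveI : Fact r.Prime := ⟨hrP⟩
  have h2 : (2 : F) = 0 := CharTwo.two_eq_zero
  have hcast : ((Fintype.card F : ℕ) : F) = 0 := FiniteField.cast_card_eq_zero F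
  set q := Fintype.card F with hqdef
  have hq1 : 1 < q := Fintype.one_lt_card
  have hneg : ∀ c : F, c * c = 1 → c = 1 := fun c hc => by
    have : (c - 1) * (c - 1) = 0 := by linear_combination hc + (1 - c) * h2
    exact sub_eq_zero.1 (mul_self_eq_zero.1 this)
  have hfQ : (⇑(minusQ m a b) : ((Fin m ⊕ Fin m) ⊕ Fin 2 → F) → F) = Cfsg.quadFormMinus m F a b := funext fun v => minusQ_apply m a b v
  have hreg : Reg F ((Fin m ⊕ Fin m) ⊕ Fin 2 → F) := Or.inr (by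
    rw [Module.finrank_pi, Fintype.card_sum, Fintype.card_sum, Fintype.card_fin, Fintype.card_fin]
    omega)
  have key : ∀ P : Polynomial F, Real (minusQ m a b) r P → P.eval 1 ≠ 0 → Odd r →
      ∃ x : GL ((Fin m ⊕ Fin m) ⊕ Fin 2) F, x ∈ Cfsg.Geo.omegaGL (Cfsg.quadFormMinus m F a b) ∧ x ^ r = 1 ∧
        (x : Matrix ((Fin m ⊕ Fin m) ⊕ Fin 2) ((Fin m ⊕ Fin m) ⊕ Fin 2) F).charpoly = P ∧ ∀ v, (x : Matrix ((Fin m ⊕ Fin m) ⊕ Fin 2) ((Fin m ⊕ Fin m) ⊕ Fin 2) F) *ᵥ v = v → v = 0 := by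
    intro P hP h1 hodd
    obtain ⟨x, hx, hxr, hxc⟩ := hP.exists_omega (nd_minusQ hab m) hreg hodd
    rw [hfQ] at hx
    exact ⟨x, hx, hxr, hxc, fun v hv => by_contra fun hv0 => h1 (hxc ▸ eval_one_of_fixed hv0 hv)⟩
  have hiso : ∀ x : GL ((Fin m ⊕ Fin m) ⊕ Fin 2) F, x ∈ Cfsg.Geo.omegaGL (Cfsg.quadFormMinus m F a b) → ∀ v,
      minusQ m a b ((x : Matrix ((Fin m ⊕ Fin m) ⊕ Fin 2) ((Fin m ⊕ Fin m) ⊕ Fin 2) F) *ᵥ v) = minusQ m a b v := fun x hx v => by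
    rw [minusQ_apply, minusQ_apply]
    exact mem_isometryGroup_of_omega hx v
  set u : (Fin m ⊕ Fin m) ⊕ Fin 2 → F := Pi.single (.inr 0) 1 with hu
  have hQu : minusQ m a b u ≠ 0 := by
    simp [hu, minusQ_apply, Cfsg.quadFormMinus]
  have hline : ∀ (x : GL ((Fin m ⊕ Fin m) ⊕ Fin 2) F) (v : (Fin m ⊕ Fin m) ⊕ Fin 2 → F) (W : Submodule F ((Fin m ⊕ Fin m) ⊕ Fin 2 → F)),
      Module.finrank F W = 1 → v ∈ W → minusQ m a b v ≠ 0 →
      W.map (Matrix.toLin' (x : Matrix ((Fin m ⊕ Fin m) ⊕ Fin 2) ((Fin m ⊕ Fin m) ⊕ Fin 2) F)) ≤ W →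
      ∃ c : F, (x : Matrix ((Fin m ⊕ Fin m) ⊕ Fin 2) ((Fin m ⊕ Fin m) ⊕ Fin 2) F) *ᵥ v = c • v := fun x v W hW1 hv hQv hmap => by
    have hspan : W = Submodule.span F {v} := (Submodule.eq_of_le_of_finrank_le
      ((Submodule.span_singleton_le_iff_mem _ _).2 hv)
      (by rw [hW1, finrank_span_singleton fun e : v = 0 => hQv (by rw [e, map_zero])])).symm
    have := hmap (Submodule.mem_map_of_mem hv)
    rw [hspan, Matrix.toLin'_apply] at this
    obtain ⟨c, hc⟩ := Submodule.mem_span_singleton.1 this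
    exact ⟨c, hc.symm⟩
  constructor
  · intro hall
    by_contra hr2
    have hodd : Odd r := hrP.odd_of_ne_two hr2
    have hd0 : r ∣ q ^ m * (q ^ (m + 1) + 1) := by
      have hl := card_nonsing_lines (F := F) (ι := (Fin m ⊕ Fin m) ⊕ Fin 2) (f := Cfsg.quadFormMinus m F a b) (fun c v => by
        rw [← minusQ_apply, ← minusQ_apply, QuadraticMap.map_smul, smul_eq_mul])
      rw [card_sing_minus hab m, Fintype.card_sum, Fintype.card_sum, Fintype.card_fin, Fintype.card_fin,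
        ← hqdef] at hl
      have hQ : Nat.card {W : Submodule F ((Fin m ⊕ Fin m) ⊕ Fin 2 → F) // Module.finrank F W = 1 ∧ ∃ v ∈ W, Cfsg.quadFormMinus m F a b v ≠ 0} =
          q ^ m * (q ^ (m + 1) + 1) := by
        have e1 : q ^ (m + 1) ≤ q ^ (2 * m + 1) + q ^ m :=
          (Nat.pow_le_pow_right hq1.le (by omega)).trans (Nat.le_add_right _ _)
        refine Nat.eq_of_mul_eq_mul_right (show 0 < q - 1 by omega) ?_
        zify [e1, hq1.le] at hl ⊢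
        linear_combination hl
      rw [← hQ]; exact hrΩ
    have hrd : r ∣ q ^ (m + 1) + 1 := by
      refine (hrP.dvd_mul.1 hd0).resolve_left fun h => hr2 ?_
      obtain ⟨k, hp2, hk⟩ := FiniteField.card F 2
      have h' := hrP.dvd_of_dvd_pow h
      rw [hqdef, hk] at h'
      exact (Nat.prime_dvd_prime_iff_eq hrP hp2).1 (hrP.dvd_of_dvd_pow h')
    have hqd : (q : ZMod r) ^ (m + 1) = -1 := by
      have := (ZMod.natCast_eq_zero_iff _ _).2 hrd
      push_cast at this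
      exact eq_neg_of_add_eq_zero_left this
    have hid : orderOf (q : ZMod r) ∣ 2 * (m + 1) := orderOf_dvd_of_pow_eq_one (by
      rw [pow_mul', hqd, neg_one_sq])
    have hie : Even (orderOf (q : ZMod r)) := Nat.not_odd_iff_even.1 fun ho => by
      have h1 := orderOf_dvd_iff_pow_eq_one.1 ((Nat.coprime_two_right.2 ho).dvd_of_dvd_mul_left hid)
      rw [hqd] at h1
      haveI : Fact (2 < r) := ⟨by have := hrP.two_le; omega⟩
      exact ZMod.neg_one_ne_one h1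
    obtain ⟨P, hP, h1⟩ := exists_full (p := 2) (F := F) hqdef.symm r _ hrP hr2 hr2 rfl hid
    obtain ⟨x, hx, hxr, -, hfix⟩ := key P
      (real_minus_exists (p := 2) hqdef.symm hrP hr2 hr2 rfl hab hP fun _ => ⟨hie, hqd⟩) h1 hodd
    obtain ⟨W, ⟨hW1, v, hv, hQv⟩, hmap⟩ := hall x hx ⟨1, by rw [one_smul, hxr, Units.val_one]⟩ (fun z hz => by
      have hxz : (x : Matrix ((Fin m ⊕ Fin m) ⊕ Fin 2) ((Fin m ⊕ Fin m) ⊕ Fin 2) F) *ᵥ u = z • u := by
        rw [hz, Matrix.smul_mulVec, Matrix.one_mulVec]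
      have := hfix u (by rw [hxz, hneg z (sq_eq_one_of_eigen (hiso x hx) hQu hxz), one_smul])
      exact hQu (by rw [this, map_zero]))
    rw [← minusQ_apply] at hQv
    obtain ⟨c, hc⟩ := hline x v W hW1 hv hQv hmap
    refine hQv ?_
    rw [hfix v (by rw [hc, hneg c (sq_eq_one_of_eigen (hiso x hx) hQv hc), one_smul]), map_zero]
  · rintro rfl x hx ⟨z, hz⟩ -
    have hQx := hiso x hx
    set M := (x : Matrix ((Fin m ⊕ Fin m) ⊕ Fin 2) ((Fin m ⊕ Fin m) ⊕ Fin 2) F) with hM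
    have h : ∀ v, M *ᵥ (M *ᵥ v) = z • v := fun v => by
      rw [hM, Matrix.mulVec_mulVec, ← Units.val_mul, ← pow_two, hz, Matrix.smul_mulVec, Matrix.one_mulVec]
    have hz1 : z = 1 := hneg z (by
      have h' := hQx (M *ᵥ u)
      rw [hQx u, h u, QuadraticMap.map_smul, smul_eq_mul] at h'
      exact mul_right_cancel₀ hQu (by rw [one_mul]; exact h'))
    set D : ((Fin m ⊕ Fin m) ⊕ Fin 2 → F) →ₗ[F] ((Fin m ⊕ Fin m) ⊕ Fin 2 → F) := Matrix.toLin' M + LinearMap.id with hD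
    have hDa : ∀ v, D v = M *ᵥ v + v := fun v => by simp [hD, Matrix.toLin'_apply]
    have hDD : LinearMap.range D ≤ LinearMap.ker D := by
      rintro _ ⟨v, rfl⟩
      rw [LinearMap.mem_ker, hDa, hDa, Matrix.mulVec_add, h, hz1, one_smul]
      linear_combination (norm := module) h2 • (M *ᵥ v) + h2 • v
    have hrk := D.finrank_range_add_finrank_ker
    rw [Module.finrank_pi, Fintype.card_sum, Fintype.card_sum, Fintype.card_fin, Fintype.card_fin] at hrk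
    have hle := Submodule.finrank_mono hDD
    by_contra hno
    push Not at hno
    have hk := finrank_le_of_minus hab m (LinearMap.ker D) fun v hv => by
      by_contra hv0
      refine hno (Submodule.span F {v}) ⟨finrank_span_singleton fun e : v = 0 => hv0 (by
        rw [← minusQ_apply, e, map_zero]), v, Submodule.mem_span_singleton_self v, hv0⟩ ?_
      rw [Submodule.map_span, Set.image_singleton, Submodule.span_singleton_le_iff_mem]
      refine Submodule.mem_span_singleton.2 ⟨1, ?_⟩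
      rw [LinearMap.mem_ker, hDa] at hv
      rw [one_smul, Matrix.toLin'_apply]
      linear_combination (norm := module) h2 • v - hv
    omega

end Cfsg.Agent.S5986
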