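import Cfsg.Statements.S5987
import Cfsg.Agent.Lib.Elusive.OrthSingMain
import Cfsg.Agent.Lib.Elusive.OrthSingTwo
import Cfsg.Agent.Lib.AutOmega.Parity

set_option autoImplicit false
open scoped MatrixGroups
open Cfsg

namespace Cfsg.Agent.S5987
open Cfsg.Agent.Lib.Elusive Cfsg.Agent.Lib.Elusive.OrthType Cfsg.Agent.Lib.Elusive.OrthSingTS
open Cfsg.Agent.Lib.Classical.QuadF2 Cfsg.Agent.Lib.Classical.Quad Cfsg.Agent.Lib.Classical.QuadOmega Cfsg.Agent.Lib.Classical.OrthTorsion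

/-- Elements of prime order of PΩ⁻_n(q) with no fixed totally singular `m`-space. Here `T = PΩ⁻_n(F)`, `n = 2d ≥ 8`, realised through `Ω⁻_n(q)`, the commutator subgroup of the isometry group of `Q = Σ_{i<d−1} xᵢyᵢ + z₁² + a z₁z₂ + b z₂²` with `z₁² + a z₁z₂ + b z₂²` anisotropic, over the field `F` with `q` elements; an element of `T` of prime order `r` is an element `x` of `Ω⁻_n(q)` with `x^r` scalar and `x` not scalar. Let `1 ≤ m ≤ d − 1` and let `r` be a prime dividing the number of totally singular `m`-spaces (subspaces of dimension `m` on which `Q` vanishes); for `r ≠ p` let `i` be the multiplicative order of `q` modulo `r`, `c = i` for `i` even and `c = 2i` for `i` odd, and write `k = n mod c`, `ℓ = m mod i`, `n' = ⌊n/i⌋`, `m' = ⌊m/i⌋`, `t = (r−1)/i`. Then every element of `T` of order `r` fixes some totally singular `m`-space if and only if one of: (i) `r = 2 ≠ p` and (`n ≡ 0 (mod 4)`, or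 `m` is even, or `q ≢ 7 (mod 8)`); (ii) `r ≠ p` odd, `i` odd, `i ≤ m` and (`k = 0` or `k > 2ℓ`); (iii) `r ≠ p` odd, `i` even, `i ≤ m`, `n' − 2m' ≥ t`, and one of: (a) `i ≥ 2ℓ`, `k = 0`, `n/i` even and `n' − 2m' > t` (all four); (b) `k ≥ 2ℓ` and `n'` odd; (c) `k > 2ℓ` and `n'` even. -/
theorem result {F : Type*} [Field F] [Fintype F] {p : ℕ} [Fact p.Prime] [CharP F p] {q : ℕ} (hq : Fintype.card F = q)
    (d m : ℕ) (hd : 4 ≤ d) (hm : 1 ≤ m) (hmd : m + 1 ≤ d) (a b : F) (hab : ∀ x y : F, x ^ 2 + a * x * y + b * y ^ 2 = 0 → x = 0 ∧ y = 0)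
    (r : ℕ) [Fact r.Prime]
    (hrΩ : r ∣ Nat.card {W : Submodule F ((Fin (d - 1) ⊕ Fin (d - 1)) ⊕ Fin 2 → F) // Module.finrank F ↥W = m ∧ Cfsg.Geo.IsTotallySingularQuad (Cfsg.quadFormMinus (d - 1) F a b) W})
    (i c : ℕ) (hi : i = orderOf (q : ZMod r)) (hc : c = if Even i then i else 2 * i) :
    (∀ x : GL ((Fin (d - 1) ⊕ Fin (d - 1)) ⊕ Fin 2) F, x ∈ Cfsg.Geo.omegaGL (Cfsg.quadFormMinus (d - 1) F a b) →
      (∃ z : F, ((x ^ r : GL ((Fin (d - 1) ⊕ Fin (d - 1)) ⊕ Fin 2) F) : Matrix ((Fin (d - 1) ⊕ Fin (d - 1)) ⊕ Fin 2) ((Fin (d - 1) ⊕ Fin (d - 1)) ⊕ Fin 2) F) = z • (1 : Matrix ((Fin (d - 1) ⊕ Fin (d - 1)) ⊕ Fin 2) ((Fin (d - 1) ⊕ Fin (d - 1)) ⊕ Fin 2) F)) →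
      (∀ z : F, (x : Matrix ((Fin (d - 1) ⊕ Fin (d - 1)) ⊕ Fin 2) ((Fin (d - 1) ⊕ Fin (d - 1)) ⊕ Fin 2) F) ≠ z • (1 : Matrix ((Fin (d - 1) ⊕ Fin (d - 1)) ⊕ Fin 2) ((Fin (d - 1) ⊕ Fin (d - 1)) ⊕ Fin 2) F)) →
      ∃ W : Submodule F ((Fin (d - 1) ⊕ Fin (d - 1)) ⊕ Fin 2 → F), (Module.finrank F ↥W = m ∧ Cfsg.Geo.IsTotallySingularQuad (Cfsg.quadFormMinus (d - 1) F a b) W) ∧ W.map (Matrix.toLin' (x : Matrix ((Fin (d - 1) ⊕ Fin (d - 1)) ⊕ Fin 2) ((Fin (d - 1) ⊕ Fin (d - 1)) ⊕ Fin 2) F)) ≤ W) ↔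
    ((r = 2 ∧ p ≠ 2 ∧ (Even d ∨ Even m ∨ q % 8 ≠ 7)) ∨
     (r ≠ p ∧ 2 < r ∧ Odd i ∧ i ≤ m ∧ ((2 * d) % c = 0 ∨ 2 * (m % i) < (2 * d) % c)) ∨
     (r ≠ p ∧ 2 < r ∧ Even i ∧ i ≤ m ∧ (r - 1) / i + 2 * (m / i) ≤ (2 * d) / i ∧
       ((2 * (m % i) ≤ i ∧ (2 * d) % c = 0 ∧ Even ((2 * d) / i) ∧ (r - 1) / i + 2 * (m / i) < (2 * d) / i) ∨
        (2 * (m % i) ≤ (2 * d) % c ∧ Odd ((2 * d) / i)) ∨
        (2 * (m % i) < (2 * d) % c ∧ Even ((2 * d) / i))))) := by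
  classical
  subst hq
  have hr : r.Prime := Fact.out
  have hc' : c = SympStep.cOf i := by rw [hc, SympStep.cOf]
  have hab' : Aniso a b := hab
  have hQ : Nd (minusQ (d - 1) a b) := nd_minusQ hab' _
  have hV : ¬ Plus (minusQ (d - 1) a b) ⊤ := OrthRows.not_plus_top hab' _
  have hι : Fintype.card ((Fin (d - 1) ⊕ Fin (d - 1)) ⊕ Fin 2) = 2 * d := by simp; omega
  have hreg : Reg F ((Fin (d - 1) ⊕ Fin (d - 1)) ⊕ Fin 2 → F) := Cfsg.Agent.Lib.AutOmega.reg_minus (by omega)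
  have hco := OrthRows.coe_minusQ (d - 1) a b
  have hconv : ∀ W : Submodule F ((Fin (d - 1) ⊕ Fin (d - 1)) ⊕ Fin 2 → F),
      Cfsg.Geo.IsTotallySingularQuad (Cfsg.quadFormMinus (d - 1) F a b) W ↔ TSing (minusQ (d - 1) a b) W := fun W => by
    rw [← hco]; rfl
  have hdiv : r ∣ Nat.card {W : Submodule F ((Fin (d - 1) ⊕ Fin (d - 1)) ⊕ Fin 2 → F) //
      Module.finrank F ↥W = m ∧ (∀ w ∈ W, minusQ (d - 1) a b w = 0)} := by
    simpa only [hconv, TSing] using hrΩ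
  simp only [hconv, ← inv_iff_map_le]
  rw [← hco]
  have hrp : r ≠ p := (OrthSingCount.dvd_even (p := p) hQ (d := d) (by rw [Module.finrank_pi, hι]) (by omega) hdiv).1
  by_cases hr2 : r = 2
  · subst hr2
    have h2 : (2 : F) ≠ 0 := fun h => hrp ((OrthRows.two_iff (p := p)).1 h).symm
    have hodd : Fintype.card F % 2 = 1 := FiniteField.odd_card_of_char_ne_two fun h => h2 (by
      haveI := ringChar.of_eq h; exact CharTwo.two_eq_zero)
    rw [OrthSingTwo.main_even hQ h2 hι (by omega) (by omega), OrthInvol.HasRot]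
    obtain ⟨hs1, hs2⟩ := OrthInvol.card_facts (F := F) h2
    simp only [hV, false_iff, false_implies, hs1, hs2, Nat.even_iff, true_and, ne_eq, Ne.symm hrp, not_false_eq_true,
      lt_irrefl, false_and, and_false, or_false]
    omega
  have hr3 : 2 < r := by have := hr.two_le; omega
  obtain ⟨-, u₀, s₀, hu₀, hsum₀, htype₀, hle₀, heq₀⟩ := witness_even (p := p) hι hQ (by omega) hr2 hi hc' hdiv
  rw [main_even hι (by omega) hQ hreg hrp hr2 m hi hc']
  simp only [hr2, false_and, false_or, ne_eq, hrp, not_false_eq_true, hr3, true_and]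
  rcases Nat.lt_or_ge m i with hmi | him
  · refine iff_of_false (fun H => ?_) fun h => by omega
    exact not_good_small hmi hle₀ heq₀ (H u₀ s₀ hu₀ hsum₀ htype₀)
  have hi0 : 0 < i := i_pos (p := p) (q := Fintype.card F) (r := r) rfl hr hrp hi
  have hidvd : i ∣ r - 1 := hi ▸ orderOf_dvd_of_pow_eq_one (ZMod.pow_card_sub_one_eq_one fun h =>
    OrthOdd.cast_q_ne hrp ((ZMod.natCast_eq_zero_iff _ r).1 h))
  have ht : 1 ≤ (r - 1) / i := (Nat.one_le_div_iff hi0).2 (Nat.le_of_dvd (by omega) hidvd)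
  obtain ⟨c', hcc⟩ : ∃ c', c = 2 * c' := (hc' ▸ SympStep.cOf_even _ : Even c).two_dvd
  have hkeven : (2 * d) % c % 2 = 0 := by
    rw [Nat.mod_mod_of_dvd _ ⟨c', hcc⟩]; omega
  rcases Nat.even_or_odd i with hie | hio
  · obtain rfl : i = c := ((if_pos hie).symm.trans hc.symm)
    have hRP : ∀ u, (Plus (minusQ (d - 1) a b) ⊤ ↔ OrthEven.RPlus i u) ↔ ¬ Even u := fun u => by
      rw [OrthRows.rPlus_iff hie]; simp [hV]
    simp only [hRP, hie, Nat.not_odd_iff_even.2 hie, false_and, false_or, true_and]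
    refine (even_iff' (i := i) (m := m) (n := 2 * d) (t := (r - 1) / i) (fun u => ¬ Even u)
      (fun u => not_congr Nat.even_add_one) hie (by have := Nat.even_iff.1 hie; omega) him (by omega) ht).trans ?_
    have := Nat.mod_lt (2 * d) hi0
    simp only [Nat.even_iff, Nat.odd_iff]
    omega
  · have hio' : ¬ Even i := Nat.not_even_iff_odd.2 hio
    obtain rfl : c = 2 * i := by rw [hc, if_neg hio']
    have hRP : ∀ u, (Plus (minusQ (d - 1) a b) ⊤ ↔ OrthEven.RPlus i u) ↔ False := fun u => by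
      simp [hV, OrthRows.rPlus_odd hio']
    simp only [hRP, hio', hio, false_and, or_false, true_and]
    refine (odd_iff' (i := i) (m := m) (n := 2 * d) (t := (r - 1) / i) False hio' him (by omega)
      fun h => by omega).trans ?_
    simp only [false_and, false_or, not_false_eq_true, true_and]
    omega

end Cfsg.Agent.S5987
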