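import Cfsg.Statements.S5988
import Cfsg.Agent.Lib.Elusive.OrthRows
import Cfsg.Agent.Lib.Classical.QuadOmega.SingularApply

set_option autoImplicit false
open scoped MatrixGroups
open Cfsg

namespace Cfsg.Agent.S5988
open Cfsg.Agent.Lib.Elusive Cfsg.Agent.Lib.Elusive.OrthType Cfsg.Agent.Lib.Elusive.OrthRows
open Cfsg.Agent.Lib.Classical.Quad Cfsg.Agent.Lib.Classical.QuadOmega Cfsg.Agent.Lib.Classical.OrthTorsion

/-- Elements of prime order of PΩ⁺_n(q) with no fixed elliptic `m`-space. Here `T = PΩ⁺_n(F)`, `n = 2d ≥ 8`, realised through `Ω⁺_n(q)`, the commutator subgroup of the isometry group of `Q = Σ xᵢyᵢ` over the field `F` with `q` elements; an element of `T` of prime order `r` is an element `x` of `Ω⁺_n(q)` with `x^r` scalar and `x` not scalar; a nondegenerate `m`-space (even `m`) is a subspace on which the polar form of `Q` is nondegenerate; it is hyperbolic if it contains an `m/2`-dimensional subspace on which `Q` vanishes,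 elliptic otherwise. Let `m` be even with `2 ≤ m < n/2` and let `r` be a prime dividing the number of elliptic `m`-spaces; for `r ≠ p` let `i` be the multiplicative order of `q` modulo `r`, `c = i` for `i` even and `c = 2i` for `i` odd, and write `k = n mod c`, `ℓ = m mod i`, `ℓ' = m mod c`, `n' = ⌊n/i⌋`, `m' = ⌊m/i⌋`, `t = (r−1)/i`. Then every element of `T` of order `r` fixes some elliptic `m`-space if and only if one of: (i) `r = 2 ≠ p` and either `n ≡ 0 (mod 4)`, `q ≡ 3 (mod 4)` and `m ≡ 2 (mod 4)`, or `n ≡ 2 (mod 4)` and `q ≢ 1 (mod 8)`; (ii) `r ≠ p` odd, `i` odd, `c ≤ m` and `k > ℓ' > 0`; (iii) `r ≠ p` odd, `i` even, and either `k = 0` and (`n/i` odd, or `ℓ' = 0` and `m/i` odd), or `i ≤ m` and (`k > ℓ' > 0`, or `k = ℓ' > 0` and `(n + m − 2k)/i` odd, or `k > ℓ' = 0` and `m/i` odd). (For `r = p` there is always an element of order `p` fixing no elliptic `m`-space.) -/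
theorem result {F : Type*} [Field F] [Fintype F] {p : ℕ} [Fact p.Prime] [CharP F p] {q : ℕ} (hq : Fintype.card F = q)
    (d m : ℕ) (hd : 4 ≤ d) (hm : 2 ≤ m) (hme : Even m) (hmd : m < d)
    (r : ℕ) [Fact r.Prime]
    (hrΩ : r ∣ Nat.card {W : Submodule F (Fin d ⊕ Fin d → F) // Module.finrank F ↥W = m ∧ Cfsg.Geo.IsNondegenerateOn (QuadraticMap.polar (Cfsg.quadFormPlus d F)) W ∧ ¬ Cfsg.Geo.IsPlusTypeOn (Cfsg.quadFormPlus d F) W})
    (i c : ℕ) (hi : i = orderOf (q : ZMod r)) (hc : c = if Even i then i else 2 * i) :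
    (∀ x : GL (Fin d ⊕ Fin d) F, x ∈ Cfsg.Geo.omegaGL (Cfsg.quadFormPlus d F) →
      (∃ z : F, ((x ^ r : GL (Fin d ⊕ Fin d) F) : Matrix (Fin d ⊕ Fin d) (Fin d ⊕ Fin d) F) = z • (1 : Matrix (Fin d ⊕ Fin d) (Fin d ⊕ Fin d) F)) →
      (∀ z : F, (x : Matrix (Fin d ⊕ Fin d) (Fin d ⊕ Fin d) F) ≠ z • (1 : Matrix (Fin d ⊕ Fin d) (Fin d ⊕ Fin d) F)) →
      ∃ W : Submodule F (Fin d ⊕ Fin d → F), (Module.finrank F ↥W = m ∧ Cfsg.Geo.IsNondegenerateOn (QuadraticMap.polar (Cfsg.quadFormPlus d F)) W ∧ ¬ Cfsg.Geo.IsPlusTypeOn (Cfsg.quadFormPlus d F) W) ∧ W.map (Matrix.toLin' (x : Matrix (Fin d ⊕ Fin d) (Fin d ⊕ Fin d) F)) ≤ W) ↔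
    ((r = 2 ∧ p ≠ 2 ∧ ((Even d ∧ q % 4 = 3 ∧ m % 4 = 2) ∨ (Odd d ∧ q % 8 ≠ 1))) ∨
     (r ≠ p ∧ 2 < r ∧ Odd i ∧ c ≤ m ∧ 0 < m % c ∧ m % c < (2 * d) % c) ∨
     (r ≠ p ∧ 2 < r ∧ Even i ∧
       (((2 * d) % c = 0 ∧ (Odd ((2 * d) / i) ∨ (m % c = 0 ∧ Odd (m / i)))) ∨
        (i ≤ m ∧ ((0 < m % c ∧ m % c < (2 * d) % c) ∨
                  (0 < m % c ∧ m % c = (2 * d) % c ∧ Odd ((2 * d + m - 2 * ((2 * d) % c)) / i)) ∨
                  (m % c = 0 ∧ 0 < (2 * d) % c ∧ Odd (m / i))))))) := by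
  classical
  subst hq
  obtain ⟨a, rfl⟩ := hme.two_dvd
  have hQ : Nd (plusQ d F) := nd_plusQ d
  have hV : Plus (plusQ d F) ⊤ := plus_top d
  have hι : Fintype.card (Fin d ⊕ Fin d) = 2 * d := by simp [two_mul]
  have hfin : Module.finrank F (Fin d ⊕ Fin d → F) = 2 * d := finrank_plus d
  have hreg : Reg F (Fin d ⊕ Fin d → F) := reg_plus (Or.inr (by omega))
  have hconv : ∀ W : Submodule F (Fin d ⊕ Fin d → F),
      (Module.finrank F ↥W = 2 * a ∧ Cfsg.Geo.IsNondegenerateOn (QuadraticMap.polar (Cfsg.quadFormPlus d F)) W ∧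
        ¬ Cfsg.Geo.IsPlusTypeOn (Cfsg.quadFormPlus d F) W) ↔
      (Module.finrank F W = 2 * a ∧ NdOn (plusQ d F) W ∧ (Plus (plusQ d F) W ↔ False)) := fun W => by
    rw [iff_false, ← coe_plusQ, OrthOdd.geo_iff]
    exact Iff.rfl
  have hdiv : r ∣ Nat.card {W : Submodule F (Fin d ⊕ Fin d → F) //
      Module.finrank F W = 2 * a ∧ NdOn (plusQ d F) W ∧ (Plus (plusQ d F) W ↔ False)} := by
    simpa only [hconv] using hrΩ
  simp only [hconv, ← inv_iff_map_le]
  rw [← coe_plusQ]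
  by_cases hrp : r = p
  · subst hrp
    refine iff_of_false (fun hall => ?_) (by rintro (⟨h1, h2, -⟩ | ⟨h, -⟩ | ⟨h, -⟩) <;> first | exact h2 h1 | exact h rfl)
    by_cases hp2 : r = 2
    · subst hp2
      have h2 : (2 : F) = 0 := two_iff.2 rfl
      obtain ⟨x, hx, hx2, hne, S, hal, hrk⟩ := OrthInvolTwo.exists_alt_elt h2 hQ hreg hι (j := d / 2) (by omega)
        (if h : 2 * (d / 2) = d then Or.inr ⟨h, hV⟩ else Or.inl (by omega))
      obtain ⟨W, ⟨hWd, hWn, hWp⟩, hWi⟩ := hall x hx ⟨_, hx2⟩ hne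
      obtain ⟨r₁, r₂, h, h1, h3, h4, h5, h6, h7⟩ := OrthInvolTwo.alt_split S hQ hal hfin hWn hWi hWd
      rw [hrk] at h
      rw [Nat.even_iff] at h1 h3
      have e1 : r₁ ≠ a := fun e => hWp.1 (h6 e)
      have e2 : r₂ ≠ d - a := fun e => hWp.1 ((h7 e).1 hV)
      omega
    · obtain ⟨x, hx, hz, hne, hno⟩ := OrthUnipEven.no_minus hQ (odd_of_ne hp2) hι (a := a) hd hV
      obtain ⟨W, ⟨hWd, hWn, hWp⟩, hWi⟩ := hall x hx hz hne
      exact hWp.1 (hno W hWd hWn hWi)
  by_cases hr2 : r = 2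
  · subst hr2
    refine Iff.trans ?_ (or_iff_left ?_).symm
    swap
    · rintro (⟨-, h, -⟩ | ⟨-, h, -⟩) <;> omega
    have hp2 : (2 : F) ≠ 0 := fun h => hrp (two_iff.1 h).symm
    rw [OrthInvol.main_even hQ hp2 hι (by omega) (by omega) False, OrthInvol.HasRot]
    obtain ⟨hs1, hs2⟩ := OrthInvol.card_facts (F := F) hp2
    have hodd : Fintype.card F % 2 = 1 := FiniteField.odd_card_of_char_ne_two fun h => hp2 (by
      haveI := ringChar.of_eq h; exact CharTwo.two_eq_zero)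
    simp only [hV, true_iff, false_iff, hs1, hs2, Nat.even_iff, Nat.odd_iff, ne_eq, Ne.symm hrp, not_false_eq_true,
      true_and]
    omega
  have hr3 : 2 < r := by have := (Fact.out : r.Prime).two_le; omega
  rw [OrthEven.main hι (by omega) hQ hreg hrp hr2 a False hi (c := c) (by rw [hc, SympStep.cOf])]
  obtain ⟨hb1, hb2, hb3⟩ := OrthEven.bound hι hQ hrp hr2 (by omega) (by omega) False hi (c := c) (by rw [hc, SympStep.cOf]) hdiv
  have hi0 : 0 < i := i_pos (p := p) (q := Fintype.card F) (r := r) rfl Fact.out hrp hi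
  have hc0 : 0 < c := by rw [hc]; split_ifs <;> omega
  rw [good_iff hc0 (by omega) (by omega) hb2]
  have hlm := Nat.mod_le (2 * a) c
  have hsmall : 2 * a < c → 2 * a % c = 2 * a ∧ 2 * a / c = 0 := fun h => ⟨Nat.mod_eq_of_lt h, Nat.div_eq_of_lt h⟩
  have hsum := sum_div (d := d) (m := 2 * a) hc0
  have hwu : 2 * a / c ≤ 2 * d / c := Nat.div_le_div_right (by omega)
  simp only [hV, true_iff, false_iff, hr2, false_and, false_or, ne_eq, hrp, not_false_eq_true, hr3, true_and, not_not] at hb3 ⊢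
  rcases Nat.even_or_odd i with he | ho
  · obtain rfl : c = i := by rw [hc, if_pos he]
    simp only [rPlus_iff he, he, Nat.not_odd_iff_even.2 he, false_and, false_or, true_and, Nat.even_iff, Nat.odd_iff] at hb3 ⊢
    constructor
    · rintro ⟨H0, H1⟩
      by_cases hl : 2 * a % c = (2 * d) % c
      · have := hsum hl.symm
        omega
      · omega
    · intro H
      by_cases hl : 2 * a % c = (2 * d) % c
      · have := hsum hl.symm
        omega
      · omega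
  · have hne : ¬ Even i := Nat.not_even_iff_odd.2 ho
    simp only [rPlus_odd hne, hne, ho, false_and, or_false, true_and, implies_true, and_true, forall_const,
      not_true_eq_false, imp_false, and_false] at hb3 ⊢
    omega

end Cfsg.Agent.S5988
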