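import Cfsg.Statements.S5989
import Cfsg.Agent.Lib.Elusive.OrthRows

set_option autoImplicit false
open scoped MatrixGroups
open Cfsg

namespace Cfsg.Agent.S5989
open Cfsg.Agent.Lib.Elusive Cfsg.Agent.Lib.Elusive.OrthType Cfsg.Agent.Lib.Elusive.OrthRows
open Cfsg.Agent.Lib.Classical.Quad Cfsg.Agent.Lib.Classical.QuadOmega Cfsg.Agent.Lib.Classical.OrthTorsion

/-- Elements of prime order of PΩ⁺_n(q), q odd, with no fixed nondegenerate `m`-space of odd dimension. Here `T = PΩ⁺_n(F)`, `n = 2d ≥ 8`, realised through `Ω⁺_n(q)`, the commutator subgroup of the isometry group of `Q = Σ xᵢyᵢ` over the field `F` with `q` elements; an element of `T` of prime order `r` is an element `x` of `Ω⁺_n(q)` with `x^r` scalar and `x` not scalar; `q` and `m` are odd, `1 ≤ m < n/2`. The nondegenerate `m`-spaces (subspaces on which the polar form is nondegenerate) fall into two isometry classes, each an orbit of `T`, and the two actions are equivalent;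 fix one such space `W₀` and let Ω be the set of nondegenerate `m`-spaces isometric to `W₀` (some linear isomorphism preserves `Q`). Let `r` be a prime dividing the size of Ω; for `r ≠ p` let `i` be the multiplicative order of `q` modulo `r`, `c = i` for `i` even and `c = 2i` for `i` odd, and write `k = n mod c`, `ℓ = m mod i`, `ℓ' = m mod c`, `n' = ⌊n/i⌋`, `m' = ⌊m/i⌋`, `t = (r−1)/i`. Then every element of `T` of order `r` fixes a member of Ω if and only if one of: (i) `r = 2`, `n ≡ 2 (mod 4)` and `q ≢ 1 (mod 8)`; (ii) `r ≠ p` odd, `i` odd, `c ≤ m` and `k > ℓ' > 0`; (iii) `r ≠ p` odd, `i` even, and either `k = 0` and `n/i` odd, or `i ≤ m` and `k > ℓ' > 0`. (For `r = p` there is always an element of order `p` fixing no member of Ω.) -/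
theorem result {F : Type*} [Field F] [Fintype F] {p : ℕ} [Fact p.Prime] [CharP F p] {q : ℕ} (hq : Fintype.card F = q)
    (hodd : Odd q) (d m : ℕ) (hd : 4 ≤ d) (hm : Odd m) (hmd : m < d)
    (W₀ : Submodule F (Fin d ⊕ Fin d → F)) (hW₀ : Module.finrank F ↥W₀ = m ∧ Cfsg.Geo.IsNondegenerateOn (QuadraticMap.polar (Cfsg.quadFormPlus d F)) W₀)
    (r : ℕ) [Fact r.Prime]
    (hrΩ : r ∣ Nat.card {W : Submodule F (Fin d ⊕ Fin d → F) // Module.finrank F ↥W = m ∧ Cfsg.Geo.IsNondegenerateOn (QuadraticMap.polar (Cfsg.quadFormPlus d F)) W ∧ Cfsg.Geo.AreIsometricFor (Cfsg.quadFormPlus d F) W W₀})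
    (i c : ℕ) (hi : i = orderOf (q : ZMod r)) (hc : c = if Even i then i else 2 * i) :
    (∀ x : GL (Fin d ⊕ Fin d) F, x ∈ Cfsg.Geo.omegaGL (Cfsg.quadFormPlus d F) →
      (∃ z : F, ((x ^ r : GL (Fin d ⊕ Fin d) F) : Matrix (Fin d ⊕ Fin d) (Fin d ⊕ Fin d) F) = z • (1 : Matrix (Fin d ⊕ Fin d) (Fin d ⊕ Fin d) F)) →
      (∀ z : F, (x : Matrix (Fin d ⊕ Fin d) (Fin d ⊕ Fin d) F) ≠ z • (1 : Matrix (Fin d ⊕ Fin d) (Fin d ⊕ Fin d) F)) →
      ∃ W : Submodule F (Fin d ⊕ Fin d → F), (Module.finrank F ↥W = m ∧ Cfsg.Geo.IsNondegenerateOn (QuadraticMap.polar (Cfsg.quadFormPlus d F)) W ∧ Cfsg.Geo.AreIsometricFor (Cfsg.quadFormPlus d F) W W₀) ∧ W.map (Matrix.toLin' (x : Matrix (Fin d ⊕ Fin d) (Fin d ⊕ Fin d) F)) ≤ W) ↔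
    ((r = 2 ∧ Odd d ∧ q % 8 ≠ 1) ∨
     (r ≠ p ∧ 2 < r ∧ Odd i ∧ c ≤ m ∧ 0 < m % c ∧ m % c < (2 * d) % c) ∨
     (r ≠ p ∧ 2 < r ∧ Even i ∧ (((2 * d) % c = 0 ∧ Odd ((2 * d) / i)) ∨ (i ≤ m ∧ 0 < m % c ∧ m % c < (2 * d) % c)))) := by
  classical
  subst hq
  obtain ⟨hW₀d, hW₀n⟩ := hW₀
  have hQ : Nd (plusQ d F) := nd_plusQ d
  have hV : Plus (plusQ d F) ⊤ := plus_top d
  have hι : Fintype.card (Fin d ⊕ Fin d) = 2 * d := by simp [two_mul]
  have h2 : (2 : F) ≠ 0 := two_ne_zero_of_odd hodd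
  have hreg : Reg F (Fin d ⊕ Fin d → F) := reg_of_two_ne_zero h2
  have hn₀ : NdOn (plusQ d F) W₀ := by rw [← OrthOdd.geo_iff, coe_plusQ]; exact hW₀n
  have hconv : ∀ W : Submodule F (Fin d ⊕ Fin d → F),
      (Module.finrank F ↥W = m ∧ Cfsg.Geo.IsNondegenerateOn (QuadraticMap.polar (Cfsg.quadFormPlus d F)) W ∧
        Cfsg.Geo.AreIsometricFor (Cfsg.quadFormPlus d F) W W₀) ↔
      (Module.finrank F W = m ∧ NdOn (plusQ d F) W ∧ IsomOn (plusQ d F) W W₀) := fun W => by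
    rw [← coe_plusQ, OrthOdd.geo_iff]
    exact Iff.rfl
  have hdiv : r ∣ Nat.card {W : Submodule F (Fin d ⊕ Fin d → F) //
      Module.finrank F W = m ∧ NdOn (plusQ d F) W ∧ IsomOn (plusQ d F) W W₀} := by
    simpa only [hconv] using hrΩ
  simp only [hconv, ← inv_iff_map_le]
  rw [← coe_plusQ]
  have hpodd : Odd p := odd_of_ne fun h => h2 (two_iff.2 h)
  by_cases hrp : r = p
  · subst hrp
    refine iff_of_false (fun hall => ?_) (by
      rintro (⟨h, -⟩ | ⟨h, -⟩ | ⟨h, -⟩) <;> first | exact h rfl | exact absurd h (fun e => h2 (two_iff.2 e)))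
    rcases Nat.even_or_odd d with hde | hdo
    · obtain ⟨x, hx, hz, hne, hno⟩ := OrthUnipEven.no_class hQ hpodd hι hd hde hm (by omega) hW₀d hn₀
      obtain ⟨W, ⟨hWd, hWn, hWi'⟩, hWi⟩ := hall x hx hz hne
      exact hno W hWd hWn hWi' hWi
    · obtain ⟨x, hx, hz, hne, hno⟩ := OrthUnipEven.no_odd hQ hpodd hι hd hdo hm
      obtain ⟨W, ⟨hWd, hWn, -⟩, hWi⟩ := hall x hx hz hne
      exact hno W hWd hWn hWi
  by_cases hr2 : r = 2
  · subst hr2
    refine Iff.trans ?_ (or_iff_left ?_).symm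
    swap
    · rintro (⟨-, h, -⟩ | ⟨-, h, -⟩) <;> omega
    rw [OrthInvol.main_odd hQ h2 hι hm hmd hW₀d hn₀, OrthInvol.HasRot]
    obtain ⟨hs1, hs2⟩ := OrthInvol.card_facts (F := F) h2
    rw [Nat.odd_iff] at hodd
    simp only [hV, true_iff, hs1, hs2, Nat.even_iff, Nat.odd_iff, true_and]
    omega
  have hr3 : 2 < r := by have := (Fact.out : r.Prime).two_le; omega
  rw [OrthEven.main_cls h2 hι (by omega) hQ hrp hr2 hm hW₀d hn₀ hi (c := c) (by rw [hc, SympStep.cOf])]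
  obtain ⟨hb1, hb2⟩ := OrthEven.bound_cls h2 hι hQ hrp hr2 hm (by omega) hW₀d hn₀ hi (c := c) (by rw [hc, SympStep.cOf]) hdiv
  have hi0 : 0 < i := i_pos (p := p) (q := Fintype.card F) (r := r) rfl Fact.out hrp hi
  have hc0 : 0 < c := by rw [hc]; split_ifs <;> omega
  rw [cls_iff hc0 (by omega) hb2]
  have hlm := Nat.mod_le m c
  have hsmall : m < c → m % c = m := fun h => Nat.mod_eq_of_lt h
  have hce : c % 2 = 0 := by
    rw [hc]; split_ifs with h
    · rwa [Nat.even_iff] at h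
    · omega
  have hmodd : m % c % 2 = 1 := by
    rw [Nat.odd_iff] at hm
    rw [Nat.mod_mod_of_dvd m (Nat.dvd_of_mod_eq_zero hce)]
    exact hm
  simp only [hV, true_iff, hr2, false_and, false_or, ne_eq, hrp, not_false_eq_true, hr3, true_and]
  rcases Nat.even_or_odd i with he | ho
  · obtain rfl : c = i := by rw [hc, if_pos he]
    simp only [rPlus_iff he, he, Nat.not_odd_iff_even.2 he, false_and, false_or, true_and, Nat.even_iff, Nat.odd_iff]
    omega
  · have hne : ¬ Even i := Nat.not_even_iff_odd.2 ho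
    simp only [rPlus_odd hne, hne, ho, false_and, or_false, true_and, not_true_eq_false, imp_false]
    omega

end Cfsg.Agent.S5989
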