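import Cfsg.Statements.S5990
import Cfsg.Agent.Lib.Elusive.OrthRows
import Cfsg.Agent.Lib.AutOmega.Parity

set_option autoImplicit false
open scoped MatrixGroups
open Cfsg

namespace Cfsg.Agent.S5990
open Cfsg.Agent.Lib.Elusive Cfsg.Agent.Lib.Elusive.OrthType Cfsg.Agent.Lib.Elusive.OrthRows
open Cfsg.Agent.Lib Cfsg.Agent.Lib.Classical.QuadF2
open Cfsg.Agent.Lib.Classical.Quad Cfsg.Agent.Lib.Classical.QuadOmega Cfsg.Agent.Lib.Classical.OrthTorsion

/-- Elements of prime order of PΩ⁻_n(q) with no fixed elliptic `m`-space. Here `T = PΩ⁻_n(F)`, `n = 2d ≥ 8`, realised through `Ω⁻_n(q)`, the commutator subgroup of the isometry group of `Q = Σ_{i<d−1} xᵢyᵢ + z₁² + a z₁z₂ + b z₂²` with `z₁² + a z₁z₂ + b z₂²` anisotropic, over the field `F` with `q` elements; an element of `T` of prime order `r` is an element `x` of `Ω⁻_n(q)` with `x^r` scalar and `x` not scalar; a nondegenerate `m`-space (even `m`) is a subspace on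 which the polar form of `Q` is nondegenerate; it is hyperbolic if it contains an `m/2`-dimensional subspace on which `Q` vanishes, elliptic otherwise. Let `m` be even with `2 ≤ m ≤ n − 2` (no restriction `m < n/2`: fixing an elliptic `m`-space is the same as fixing its hyperbolic orthogonal complement) and let `r` be a prime dividing the number of elliptic `m`-spaces, with `r = 2` or `r ≠ p`; for `r ≠ p` let `i` be the multiplicative order of `q` modulo `r`, `c = i` for `i` even and `c = 2i` for `i` odd, and write `k = n mod c`, `ℓ = m mod i`, `ℓ' = m mod c`, `n' = ⌊n/i⌋`, `m' = ⌊m/i⌋`, `t = (r−1)/i`. Then every element of `T` of order `r` fixes some elliptic `m`-space if and only if one of: (i) `r = p = 2` and (`n ≡ 0 (mod 4)` or `m ≡ 2 (mod 4)`); (ii) `r = 2 ≠ p` and (`n ≡ 0 (mod 4)`, or `q ≢ 7 (mod 8)`, or `m ≡ 2 (mod 4)`); (iii) `r ≠ p` odd, `i` odd, and `k = 0` or (`c ≤ m` and `k ≥ ℓ' > 0`); (iv) `r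 ≠ p` odd, `i` even, and either `k = 0` and (`n/i` even, or `ℓ' = 0` and `m/i` odd), or `k > 0`, `i ≤ m` and (`k > ℓ' > 0`, or `ℓ' = 0` and `m/i` odd, or `k = ℓ'` and `(n + m − 2k)/i` even). (Odd `r = p` is not covered by this statement.) -/
theorem result {F : Type*} [Field F] [Fintype F] {p : ℕ} [Fact p.Prime] [CharP F p] {q : ℕ} (hq : Fintype.card F = q)
    (d m : ℕ) (hd : 4 ≤ d) (hm : 2 ≤ m) (hme : Even m) (hmn : m + 2 ≤ 2 * d) (a b : F) (hab : ∀ x y : F, x ^ 2 + a * x * y + b * y ^ 2 = 0 → x = 0 ∧ y = 0)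
    (r : ℕ) [Fact r.Prime] (hr : r = 2 ∨ r ≠ p)
    (hrΩ : r ∣ Nat.card {W : Submodule F ((Fin (d - 1) ⊕ Fin (d - 1)) ⊕ Fin 2 → F) // Module.finrank F ↥W = m ∧ Cfsg.Geo.IsNondegenerateOn (QuadraticMap.polar (Cfsg.quadFormMinus (d - 1) F a b)) W ∧ ¬ Cfsg.Geo.IsPlusTypeOn (Cfsg.quadFormMinus (d - 1) F a b) W})
    (i c : ℕ) (hi : i = orderOf (q : ZMod r)) (hc : c = if Even i then i else 2 * i) :
    (∀ x : GL ((Fin (d - 1) ⊕ Fin (d - 1)) ⊕ Fin 2) F, x ∈ Cfsg.Geo.omegaGL (Cfsg.quadFormMinus (d - 1) F a b) →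
      (∃ z : F, ((x ^ r : GL ((Fin (d - 1) ⊕ Fin (d - 1)) ⊕ Fin 2) F) : Matrix ((Fin (d - 1) ⊕ Fin (d - 1)) ⊕ Fin 2) ((Fin (d - 1) ⊕ Fin (d - 1)) ⊕ Fin 2) F) = z • (1 : Matrix ((Fin (d - 1) ⊕ Fin (d - 1)) ⊕ Fin 2) ((Fin (d - 1) ⊕ Fin (d - 1)) ⊕ Fin 2) F)) →
      (∀ z : F, (x : Matrix ((Fin (d - 1) ⊕ Fin (d - 1)) ⊕ Fin 2) ((Fin (d - 1) ⊕ Fin (d - 1)) ⊕ Fin 2) F) ≠ z • (1 : Matrix ((Fin (d - 1) ⊕ Fin (d - 1)) ⊕ Fin 2) ((Fin (d - 1) ⊕ Fin (d - 1)) ⊕ Fin 2) F)) →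
      ∃ W : Submodule F ((Fin (d - 1) ⊕ Fin (d - 1)) ⊕ Fin 2 → F), (Module.finrank F ↥W = m ∧ Cfsg.Geo.IsNondegenerateOn (QuadraticMap.polar (Cfsg.quadFormMinus (d - 1) F a b)) W ∧ ¬ Cfsg.Geo.IsPlusTypeOn (Cfsg.quadFormMinus (d - 1) F a b) W) ∧ W.map (Matrix.toLin' (x : Matrix ((Fin (d - 1) ⊕ Fin (d - 1)) ⊕ Fin 2) ((Fin (d - 1) ⊕ Fin (d - 1)) ⊕ Fin 2) F)) ≤ W) ↔
    ((r = 2 ∧ p = 2 ∧ (Even d ∨ m % 4 = 2)) ∨
     (r = 2 ∧ p ≠ 2 ∧ (Even d ∨ q % 8 ≠ 7 ∨ m % 4 = 2)) ∨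
     (r ≠ p ∧ 2 < r ∧ Odd i ∧ ((2 * d) % c = 0 ∨ (c ≤ m ∧ 0 < m % c ∧ m % c ≤ (2 * d) % c))) ∨
     (r ≠ p ∧ 2 < r ∧ Even i ∧
       (((2 * d) % c = 0 ∧ (Even ((2 * d) / i) ∨ (m % c = 0 ∧ Odd (m / i)))) ∨
        (0 < (2 * d) % c ∧ i ≤ m ∧ ((0 < m % c ∧ m % c < (2 * d) % c) ∨ (m % c = 0 ∧ Odd (m / i)) ∨
                                    (m % c = (2 * d) % c ∧ Even ((2 * d + m - 2 * ((2 * d) % c)) / i))))))) := by
  classical
  subst hq
  obtain ⟨a₀, ha₀⟩ : ∃ t, t = a := ⟨a, rfl⟩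
  obtain ⟨b₀, hb₀⟩ : ∃ t, t = b := ⟨b, rfl⟩
  subst ha₀ hb₀
  obtain ⟨a, rfl⟩ := hme.two_dvd
  have hQ : Nd (minusQ (d - 1) a₀ b₀) := nd_minusQ hab (d - 1)
  have hV : ¬ Plus (minusQ (d - 1) a₀ b₀) ⊤ := not_plus_top hab (d - 1)
  have hι : Fintype.card ((Fin (d - 1) ⊕ Fin (d - 1)) ⊕ Fin 2) = 2 * d := by simp; omega
  have hfin : Module.finrank F (((Fin (d - 1) ⊕ Fin (d - 1)) ⊕ Fin 2) → F) = 2 * d := by rw [Module.finrank_pi, hι]
  have hreg : Reg F (((Fin (d - 1) ⊕ Fin (d - 1)) ⊕ Fin 2) → F) := AutOmega.reg_minus (by omega)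
  have hconv : ∀ W : Submodule F (((Fin (d - 1) ⊕ Fin (d - 1)) ⊕ Fin 2) → F),
      (Module.finrank F ↥W = 2 * a ∧ Cfsg.Geo.IsNondegenerateOn (QuadraticMap.polar (Cfsg.quadFormMinus (d - 1) F a₀ b₀)) W ∧
        ¬ Cfsg.Geo.IsPlusTypeOn (Cfsg.quadFormMinus (d - 1) F a₀ b₀) W) ↔
      (Module.finrank F W = 2 * a ∧ NdOn (minusQ (d - 1) a₀ b₀) W ∧ (Plus (minusQ (d - 1) a₀ b₀) W ↔ False)) := fun W => by
    rw [iff_false, ← coe_minusQ, OrthOdd.geo_iff]
    exact Iff.rfl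
  have hdiv : r ∣ Nat.card {W : Submodule F (((Fin (d - 1) ⊕ Fin (d - 1)) ⊕ Fin 2) → F) //
      Module.finrank F W = 2 * a ∧ NdOn (minusQ (d - 1) a₀ b₀) W ∧ (Plus (minusQ (d - 1) a₀ b₀) W ↔ False)} := by
    simpa only [hconv] using hrΩ
  simp only [hconv, ← inv_iff_map_le]
  rw [← coe_minusQ]
  by_cases hr2 : r = 2
  · subst hr2
    by_cases h2 : (2 : F) = 0
    · have hp : p = 2 := two_iff.1 h2
      subst hp
      refine Iff.trans ?_ (or_iff_left ?_).symm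
      swap
      · rintro (⟨-, h, -⟩ | ⟨h, -⟩ | ⟨h, -⟩) <;> exact h rfl
      simp only [true_and]
      constructor
      · intro hall
        by_contra hcon
        rw [not_or, Nat.not_even_iff_odd, Nat.odd_iff] at hcon
        obtain ⟨x, hx, hx2, hne, S, hal, hrk⟩ := OrthInvolTwo.exists_alt_elt h2 hQ hreg hι (j := (d - 1) / 2) (by omega)
          (Or.inl (by omega))
        obtain ⟨W, ⟨hWd, hWn, hWp⟩, hWi⟩ := hall x hx ⟨_, hx2⟩ hne
        obtain ⟨r₁, r₂, h, h1, h3, h4, h5, h6, h7⟩ := OrthInvolTwo.alt_split S hQ hal hfin hWn hWi hWd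
        rw [hrk] at h
        rw [Nat.even_iff] at h1 h3
        have e1 : r₁ ≠ a := fun e => hWp.1 (h6 e)
        omega
      · intro hcnd x hx ⟨z, hz⟩ _
        have S := OrthInvolTwo.setting_of h2 hQ (by omega) (fun v => OrthOdd.iso_of_omega hx v) hz
        obtain ⟨W, hW, hWi⟩ := OrthInvolTwo.exists_type_top S hQ hfin (by omega) (a := a) (by omega) (by omega) (by
          rcases Nat.even_or_odd d with hd' | hd'
          · exact Or.inr (Or.inr ⟨hd', hV⟩)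
          · refine Or.inr (Or.inl ?_)
            have := hcnd.resolve_left (Nat.not_even_iff_odd.2 hd')
            rw [Nat.odd_iff] at hd'
            rw [Nat.even_iff]
            omega)
        exact ⟨W, ⟨hW.1, hW.2.1, hW.2.2.trans (iff_of_false hV id)⟩, hWi⟩
    · have hp : p ≠ 2 := fun h => h2 (two_iff.2 h)
      rw [OrthInvol.main_even hQ h2 hι (by omega) (by omega) False, OrthInvol.HasRot]
      obtain ⟨hs1, hs2⟩ := OrthInvol.card_facts (F := F) h2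
      have hodd : Fintype.card F % 2 = 1 := FiniteField.odd_card_of_char_ne_two fun h => h2 (by
        haveI := ringChar.of_eq h; exact CharTwo.two_eq_zero)
      simp only [hV, false_iff, hs1, hs2, Nat.even_iff, Nat.odd_iff, ne_eq, hp, not_false_eq_true,
        true_and, false_and, false_or, Nat.lt_irrefl, and_false, or_false]
      omega
  have hrp : r ≠ p := hr.resolve_left hr2
  have hr3 : 2 < r := by have := (Fact.out : r.Prime).two_le; omega
  rw [OrthEven.main hι (by omega) hQ hreg hrp hr2 a False hi (c := c) (by rw [hc, SympStep.cOf])]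
  obtain ⟨hb1, hb2, hb3⟩ := OrthEven.bound hι hQ hrp hr2 (by omega) (by omega) False hi (c := c) (by rw [hc, SympStep.cOf]) hdiv
  have hi0 : 0 < i := i_pos (p := p) (q := Fintype.card F) (r := r) rfl Fact.out hrp hi
  have hc0 : 0 < c := by rw [hc]; split_ifs <;> omega
  rw [good_iff hc0 (by omega) (by omega) hb2]
  have hlm := Nat.mod_le (2 * a) c
  have hsmall : 2 * a < c → 2 * a % c = 2 * a ∧ 2 * a / c = 0 := fun h => ⟨Nat.mod_eq_of_lt h, Nat.div_eq_of_lt h⟩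
  have hsum := sum_div (d := d) (m := 2 * a) hc0
  have hwu : 2 * a / c ≤ 2 * d / c := Nat.div_le_div_right (by omega)
  simp only [hV, false_iff, hr2, false_and, false_or, ne_eq, hrp, not_false_eq_true, hr3, true_and, not_not] at hb3 ⊢
  rcases Nat.even_or_odd i with he | ho
  · obtain rfl : c = i := by rw [hc, if_pos he]
    simp only [rPlus_iff he, he, Nat.not_odd_iff_even.2 he, false_and, false_or, true_and, Nat.even_iff, Nat.odd_iff] at hb3 ⊢
    constructor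
    · rintro ⟨H0, H1⟩
      by_cases hl : 2 * a % c = (2 * d) % c
      · have := hsum hl.symm
        omega
      · omega
    · intro H
      by_cases hl : 2 * a % c = (2 * d) % c
      · have := hsum hl.symm
        omega
      · omega
  · have hne : ¬ Even i := Nat.not_even_iff_odd.2 ho
    simp only [rPlus_odd hne, hne, ho, false_and, or_false, true_and, implies_true, and_true, forall_const,
      not_true_eq_false, imp_false, and_false, not_false_eq_true] at hb3 ⊢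
    omega

end Cfsg.Agent.S5990
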