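import Cfsg.Statements.S5992
import Cfsg.Agent.Lib.Elusive.OrthOdd

set_option autoImplicit false
open scoped MatrixGroups
open Cfsg

namespace Cfsg.Agent.S5992
open Cfsg.Agent.Lib.Elusive Cfsg.Agent.Lib.Elusive.OrthType Cfsg.Agent.Lib.Elusive.OrthOdd
open Cfsg.Agent.Lib.Classical.OrthTorsion Cfsg.Agent.Lib.Classical.QuadOmega

/-- Elements of prime order r ≠ p of Ω_n(q), nq odd, with no fixed hyperbolic `m`-space. Here `T = Ω_n(F)`, `n = 2d+1 ≥ 7`, `q` odd, realised as the commutator subgroup of the isometry group of `Q = x₀² + Σ xᵢyᵢ` over the field `F` with `q` elements (trivial centre, so its elements of prime order `r` are used directly); a nondegenerate `m`-space (even `m`) is a subspace on which the polar form of `Q` is nondegenerate; it is hyperbolic if it contains an `m/2`-dimensional subspace on which `Q` vanishes, elliptic otherwise. Let `m` be even with `2 ≤ m ≤ n − 1` (no restriction `m < n/2`) and let `r ≠ p`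 be a prime dividing the number of hyperbolic `m`-spaces; for `r ≠ p` let `i` be the multiplicative order of `q` modulo `r`, `c = i` for `i` even and `c = 2i` for `i` odd, and write `k = n mod c`, `ℓ' = m mod c`. Then every element of `T` of order `r` fixes some hyperbolic `m`-space if and only if `r = 2`, or `r` is odd and one of: (i) `i` odd, `c ≤ m` and either `k > ℓ' > 0` or `ℓ' = 0`; (ii) `i` even, `i ≤ m`, `k > ℓ'`, and `m/i` even whenever `ℓ' = 0`. (`r = p` is not covered by this statement.) -/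
theorem result {F : Type*} [Field F] [Fintype F] {p : ℕ} [Fact p.Prime] [CharP F p] {q : ℕ} (hq : Fintype.card F = q) (hqodd : Odd q)
    (d m : ℕ) (hd : 3 ≤ d) (hm : 2 ≤ m) (hme : Even m) (hmn : m ≤ 2 * d)
    (r : ℕ) [Fact r.Prime] (hrp : r ≠ p)
    (hrΩ : r ∣ Nat.card {W : Submodule F (Unit ⊕ (Fin d ⊕ Fin d) → F) // Module.finrank F ↥W = m ∧ Cfsg.Geo.IsNondegenerateOn (QuadraticMap.polar (Cfsg.quadFormOdd d F)) W ∧ Cfsg.Geo.IsPlusTypeOn (Cfsg.quadFormOdd d F) W})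
    (i c : ℕ) (hi : i = orderOf (q : ZMod r)) (hc : c = if Even i then i else 2 * i) :
    (∀ x : GL (Unit ⊕ (Fin d ⊕ Fin d)) F, x ∈ Cfsg.Geo.omegaGL (Cfsg.quadFormOdd d F) → orderOf x = r →
      ∃ W : Submodule F (Unit ⊕ (Fin d ⊕ Fin d) → F), (Module.finrank F ↥W = m ∧ Cfsg.Geo.IsNondegenerateOn (QuadraticMap.polar (Cfsg.quadFormOdd d F)) W ∧ Cfsg.Geo.IsPlusTypeOn (Cfsg.quadFormOdd d F) W) ∧ W.map (Matrix.toLin' (x : Matrix (Unit ⊕ (Fin d ⊕ Fin d)) (Unit ⊕ (Fin d ⊕ Fin d)) F)) ≤ W) ↔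
    (r = 2 ∨
     (2 < r ∧ Odd i ∧ c ≤ m ∧ (m % c = 0 ∨ (0 < m % c ∧ m % c < (2 * d + 1) % c))) ∨
     (2 < r ∧ Even i ∧ i ≤ m ∧ m % c < (2 * d + 1) % c ∧ (0 < m % c ∨ Even (m / i)))) := by
  classical
  subst hq
  have h2 : (2 : F) ≠ 0 := two_ne_zero_of_odd hqodd
  obtain ⟨a, rfl⟩ := hme.two_dvd
  have hp2 : p ≠ 2 := by
    rintro rfl
    exact h2 (by exact_mod_cast CharP.cast_eq_zero F 2)
  have hgeo : ∀ W : Submodule F (Unit ⊕ (Fin d ⊕ Fin d) → F),
      Cfsg.Geo.IsNondegenerateOn (QuadraticMap.polar (Cfsg.quadFormOdd d F)) W ↔ NdOn (oddQ d F) W := fun W => by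
    rw [← coe_oddQ]; exact geo_iff _ W
  have hpl : ∀ W : Submodule F (Unit ⊕ (Fin d ⊕ Fin d) → F),
      Cfsg.Geo.IsPlusTypeOn (Cfsg.quadFormOdd d F) W ↔ Plus (oddQ d F) W := fun W => by
    rw [← coe_oddQ]; exact Iff.rfl
  have hc' : c = SympStep.cOf i := by rw [hc, SympStep.cOf]
  have conv : ∀ x : GL (Unit ⊕ (Fin d ⊕ Fin d)) F,
      (∃ W : Submodule F (Unit ⊕ (Fin d ⊕ Fin d) → F), (Module.finrank F W = 2 * a ∧ NdOn (oddQ d F) W ∧ (Plus (oddQ d F) W ↔ True)) ∧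
        Inv (Matrix.toLin' (x : Matrix (Unit ⊕ (Fin d ⊕ Fin d)) (Unit ⊕ (Fin d ⊕ Fin d)) F)) W) ↔
      (∃ W : Submodule F (Unit ⊕ (Fin d ⊕ Fin d) → F), (Module.finrank F W = 2 * a ∧ Cfsg.Geo.IsNondegenerateOn (QuadraticMap.polar (Cfsg.quadFormOdd d F)) W ∧ Cfsg.Geo.IsPlusTypeOn (Cfsg.quadFormOdd d F) W) ∧
        W.map (Matrix.toLin' (x : Matrix (Unit ⊕ (Fin d ⊕ Fin d)) (Unit ⊕ (Fin d ⊕ Fin d)) F)) ≤ W) := fun x => by
    simp only [hgeo, hpl, iff_true, inv_iff_map_le]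
  by_cases hr2 : r = 2
  · subst hr2
    refine iff_of_true (fun x hx hxo => ?_) (Or.inl rfl)
    exact (conv x).1 (main_two h2 (by omega) (by omega) True x hx hxo)
  have hr3 : 2 < r := by have := (Fact.out : r.Prime).two_le; omega
  have hdiv : r ∣ Nat.card {W : Submodule F (Unit ⊕ (Fin d ⊕ Fin d) → F) //
      Module.finrank F W = 2 * a ∧ NdOn (oddQ d F) W ∧ (Plus (oddQ d F) W ↔ True)} := by
    simpa only [hgeo, hpl, iff_true] using hrΩ
  have key := main h2 hrp hr2 (by omega) (by omega) True hi hc' hdiv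
  simp only [conv] at key
  rw [key]
  have hc2 : Even c := hc' ▸ SympStep.cOf_even i
  have hk0 : 0 < (2 * d + 1) % c := Nat.pos_of_ne_zero fun h =>
    Nat.not_even_bit1 d (even_iff_two_dvd.2 (hc2.two_dvd.trans (Nat.dvd_of_mod_eq_zero h)))
  rcases Nat.even_or_odd i with he | ho
  · obtain rfl : c = i := by rw [hc, if_pos he]
    have hno : ¬ Odd c := Nat.not_odd_iff_even.2 he
    constructor
    · rintro ⟨h1, h3, h4⟩
      refine Or.inr (Or.inr ⟨hr3, he, h1, h3, ?_⟩)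
      rcases Nat.eq_zero_or_pos (2 * a % c) with h0 | h0
      · exact Or.inr (((h4 h0).1 trivial).resolve_left (not_not.2 he))
      · exact Or.inl h0
    · rintro (h | ⟨-, h, -⟩ | ⟨-, -, h1, h3, h4⟩)
      · exact absurd h hr2
      · exact absurd h hno
      · exact ⟨h1, h3, fun h0 => iff_of_true trivial (Or.inr (h4.resolve_left (by omega)))⟩
  · have hne : ¬ Even i := Nat.not_even_iff_odd.2 ho
    constructor
    · rintro ⟨h1, h3, -⟩
      refine Or.inr (Or.inl ⟨hr3, ho, h1, ?_⟩)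
      rcases Nat.eq_zero_or_pos (2 * a % c) with h0 | h0
      · exact Or.inl h0
      · exact Or.inr ⟨h0, h3⟩
    · rintro (h | ⟨-, -, h1, h3⟩ | ⟨-, h, -⟩)
      · exact absurd h hr2
      · exact ⟨h1, by omega, fun _ => iff_of_true trivial (Or.inl hne)⟩
      · exact absurd h hne

end Cfsg.Agent.S5992
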