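import Cfsg.Statements.S5993
import Cfsg.Agent.Lib.Elusive.OrthOdd
import Cfsg.Agent.Lib.Elusive.OrthUnipotent

set_option autoImplicit false
open scoped MatrixGroups
open Cfsg

namespace Cfsg.Agent.S5993
open Cfsg.Agent.Lib.Elusive Cfsg.Agent.Lib.Elusive.OrthType Cfsg.Agent.Lib.Elusive.OrthOdd
open Cfsg.Agent.Lib.Classical.OrthTorsion Cfsg.Agent.Lib.Classical.QuadOmega

/-- Elements of prime order of Ω_n(q), nq odd, with no fixed elliptic `m`-space. Here `T = Ω_n(F)`, `n = 2d+1 ≥ 7`, `q` odd, realised as the commutator subgroup of the isometry group of `Q = x₀² + Σ xᵢyᵢ` over the field `F` with `q` elements (trivial centre, so its elements of prime order `r` are used directly); a nondegenerate `m`-space (even `m`) is a subspace on which the polar form of `Q` is nondegenerate; it is hyperbolic if it contains an `m/2`-dimensional subspace on which `Q` vanishes, elliptic otherwise. Let `m` be even with `2 ≤ m ≤ n − 1` (no restriction `m < n/2`)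 and let `r` be a prime dividing the number of elliptic `m`-spaces; for `r ≠ p` let `i` be the multiplicative order of `q` modulo `r`, `c = i` for `i` even and `c = 2i` for `i` odd, and write `k = n mod c`, `ℓ' = m mod c`. Then every element of `T` of order `r` fixes some elliptic `m`-space if and only if `r = 2`, or `r ≠ p` is odd and one of: (i) `i` odd, `c ≤ m` and `k > ℓ' > 0`; (ii) `i` even, `i ≤ m`, `k > ℓ'`, and `m/i` odd whenever `ℓ' = 0`. (For `r = p` there is always an element of order `p` fixing no elliptic `m`-space.) -/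
theorem result {F : Type*} [Field F] [Fintype F] {p : ℕ} [Fact p.Prime] [CharP F p] {q : ℕ} (hq : Fintype.card F = q) (hqodd : Odd q)
    (d m : ℕ) (hd : 3 ≤ d) (hm : 2 ≤ m) (hme : Even m) (hmn : m ≤ 2 * d)
    (r : ℕ) [Fact r.Prime]
    (hrΩ : r ∣ Nat.card {W : Submodule F (Unit ⊕ (Fin d ⊕ Fin d) → F) // Module.finrank F ↥W = m ∧ Cfsg.Geo.IsNondegenerateOn (QuadraticMap.polar (Cfsg.quadFormOdd d F)) W ∧ ¬ Cfsg.Geo.IsPlusTypeOn (Cfsg.quadFormOdd d F) W})
    (i c : ℕ) (hi : i = orderOf (q : ZMod r)) (hc : c = if Even i then i else 2 * i) :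
    (∀ x : GL (Unit ⊕ (Fin d ⊕ Fin d)) F, x ∈ Cfsg.Geo.omegaGL (Cfsg.quadFormOdd d F) → orderOf x = r →
      ∃ W : Submodule F (Unit ⊕ (Fin d ⊕ Fin d) → F), (Module.finrank F ↥W = m ∧ Cfsg.Geo.IsNondegenerateOn (QuadraticMap.polar (Cfsg.quadFormOdd d F)) W ∧ ¬ Cfsg.Geo.IsPlusTypeOn (Cfsg.quadFormOdd d F) W) ∧ W.map (Matrix.toLin' (x : Matrix (Unit ⊕ (Fin d ⊕ Fin d)) (Unit ⊕ (Fin d ⊕ Fin d)) F)) ≤ W) ↔
    (r = 2 ∨
     (r ≠ p ∧ 2 < r ∧ Odd i ∧ c ≤ m ∧ 0 < m % c ∧ m % c < (2 * d + 1) % c) ∨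
     (r ≠ p ∧ 2 < r ∧ Even i ∧ i ≤ m ∧ m % c < (2 * d + 1) % c ∧ (0 < m % c ∨ Odd (m / i)))) := by
  classical
  subst hq
  have h2 : (2 : F) ≠ 0 := two_ne_zero_of_odd hqodd
  obtain ⟨a, rfl⟩ := hme.two_dvd
  have hp2 : p ≠ 2 := by
    rintro rfl
    exact h2 (by exact_mod_cast CharP.cast_eq_zero F 2)
  have hgeo : ∀ W : Submodule F (Unit ⊕ (Fin d ⊕ Fin d) → F),
      Cfsg.Geo.IsNondegenerateOn (QuadraticMap.polar (Cfsg.quadFormOdd d F)) W ↔ NdOn (oddQ d F) W := fun W => by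
    rw [← coe_oddQ]; exact geo_iff _ W
  have hpl : ∀ W : Submodule F (Unit ⊕ (Fin d ⊕ Fin d) → F),
      Cfsg.Geo.IsPlusTypeOn (Cfsg.quadFormOdd d F) W ↔ Plus (oddQ d F) W := fun W => by
    rw [← coe_oddQ]; exact Iff.rfl
  have hc' : c = SympStep.cOf i := by rw [hc, SympStep.cOf]
  have conv : ∀ x : GL (Unit ⊕ (Fin d ⊕ Fin d)) F,
      (∃ W : Submodule F (Unit ⊕ (Fin d ⊕ Fin d) → F), (Module.finrank F W = 2 * a ∧ NdOn (oddQ d F) W ∧ (Plus (oddQ d F) W ↔ False)) ∧
        Inv (Matrix.toLin' (x : Matrix (Unit ⊕ (Fin d ⊕ Fin d)) (Unit ⊕ (Fin d ⊕ Fin d)) F)) W) ↔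
      (∃ W : Submodule F (Unit ⊕ (Fin d ⊕ Fin d) → F), (Module.finrank F W = 2 * a ∧ Cfsg.Geo.IsNondegenerateOn (QuadraticMap.polar (Cfsg.quadFormOdd d F)) W ∧ ¬ Cfsg.Geo.IsPlusTypeOn (Cfsg.quadFormOdd d F) W) ∧
        W.map (Matrix.toLin' (x : Matrix (Unit ⊕ (Fin d ⊕ Fin d)) (Unit ⊕ (Fin d ⊕ Fin d)) F)) ≤ W) := fun x => by
    simp only [hgeo, hpl, iff_false, inv_iff_map_le]
  by_cases hr2 : r = 2
  · subst hr2
    refine iff_of_true (fun x hx hxo => ?_) (Or.inl rfl)
    exact (conv x).1 (main_two h2 (by omega) (by omega) False x hx hxo)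
  have hr3 : 2 < r := by have := (Fact.out : r.Prime).two_le; omega
  by_cases hrp : r = p
  · subst hrp
    refine iff_of_false (fun hall => ?_) (by rintro (h | ⟨h, -⟩ | ⟨h, -⟩) <;> first | exact hr2 h | exact h rfl)
    obtain ⟨μ, hμ, hev, hsum, hodd, hne, hone⟩ : ∃ μ : Multiset ℕ, (∀ e ∈ μ, 0 < e ∧ e ≤ r) ∧
        (∀ e : ℕ, Even e → Even (μ.count e)) ∧ μ.sum = 2 * d + 1 ∧ (∃ e ∈ μ, Odd e) ∧ (∃ e ∈ μ, e ≠ 1) ∧
        ∀ ν : Multiset ℕ, ν ≤ μ → Even ν.sum → ∀ e ∈ ν, Even e := by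
      have key : ∀ (o t : ℕ), Odd o → o ≤ r → Even t → 1 ≤ t → o + 2 * t = 2 * d + 1 →
          ∃ μ : Multiset ℕ, (∀ e ∈ μ, 0 < e ∧ e ≤ r) ∧ (∀ e : ℕ, Even e → Even (μ.count e)) ∧
            μ.sum = 2 * d + 1 ∧ (∃ e ∈ μ, Odd e) ∧ (∃ e ∈ μ, e ≠ 1) ∧
            ∀ ν : Multiset ℕ, ν ≤ μ → Even ν.sum → ∀ e ∈ ν, Even e := by
        intro o t ho hor ht ht1 hsum
        refine ⟨o ::ₘ Multiset.replicate t 2, fun e he => ?_, fun e he => ?_, by simp; omega,
          ⟨o, by simp, ho⟩, ⟨2, Multiset.mem_cons_of_mem (Multiset.mem_replicate.2 ⟨by omega, rfl⟩), by omega⟩,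
          fun ν hν hνe e he => ?_⟩
        · rcases Multiset.mem_cons.1 he with rfl | he
          · exact ⟨ho.pos, hor⟩
          · rw [Multiset.eq_of_mem_replicate he]; omega
        · rw [Multiset.count_cons_of_ne (fun h => Nat.not_even_iff_odd.2 ho (by rw [← h]; exact he)), Multiset.count_replicate]
          split_ifs
          · exact ht
          · exact Even.zero
        · by_cases hoν : o ∈ ν
          · exfalso
            obtain ⟨ν', rfl⟩ := Multiset.exists_cons_of_mem hoν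
            rw [Multiset.cons_le_cons_iff] at hν
            have hs : Even ν'.sum := Multiset.sum_induction (p := Even) _ (fun _ _ h h' => h.add h') Even.zero
              fun x hx => by rw [Multiset.eq_of_mem_replicate (Multiset.mem_of_le hν hx)]; exact even_two
            rw [Multiset.sum_cons] at hνe
            exact Nat.not_even_iff_odd.2 (ho.add_even hs) hνe
          · have := (Multiset.le_cons_of_notMem hoν).1 hν
            rw [Multiset.eq_of_mem_replicate (Multiset.mem_of_le this he)]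
            exact even_two
      rcases Nat.even_or_odd d with hd' | hd'
      · exact key 1 d odd_one (by omega) hd' (by omega) (by ring)
      · obtain ⟨j, hj⟩ := hd'
        exact key 3 (2 * j) (by decide) (by omega) (even_two_mul j) (by omega) (by omega)
    obtain ⟨h1, -⟩ := OrthUnipotent.partition (Q := oddQ d F) (nd_oddQ h2) ((Fact.out : r.Prime).odd_of_ne_two hr2)
      (m := 2 * a) (even_two_mul a) (by simp only [Fintype.card_sum, Fintype.card_unit, Fintype.card_fin]; omega)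
      (fun W => Module.finrank F W = 2 * a ∧ Cfsg.Geo.IsNondegenerateOn (QuadraticMap.polar ⇑(oddQ d F)) W ∧
        ¬ Cfsg.Geo.IsPlusTypeOn (⇑(oddQ d F)) W)
      (fun W hW => ⟨hW.1, hW.2.1⟩) (fun x hx hxp hxs => by
        have hxo : orderOf x = r := orderOf_eq_prime (Units.ext (by rw [Units.val_pow_eq_pow_val, hxp, Units.val_one]))
          fun e => hxs 1 (by rw [e, one_smul, Units.val_one])
        rw [coe_oddQ] at hx ⊢
        exact hall x hx hxo)
    obtain ⟨ν, hν, hνs, -, hνp⟩ := h1 μ hμ hev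
      (by rw [hsum]; simp only [Fintype.card_sum, Fintype.card_unit, Fintype.card_fin]; omega) hodd hne
    obtain ⟨W, hW, hWp⟩ := hνp (hone ν hν (hνs ▸ even_two_mul a))
    exact hW.2.2 hWp
  have hdiv : r ∣ Nat.card {W : Submodule F (Unit ⊕ (Fin d ⊕ Fin d) → F) //
      Module.finrank F W = 2 * a ∧ NdOn (oddQ d F) W ∧ (Plus (oddQ d F) W ↔ False)} := by
    simpa only [hgeo, hpl, iff_false] using hrΩ
  have key := main h2 hrp hr2 (by omega) (by omega) False hi hc' hdiv
  simp only [conv] at key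
  rw [key]
  rcases Nat.even_or_odd i with he | ho
  · obtain rfl : c = i := by rw [hc, if_pos he]
    have hno : ¬ Odd c := Nat.not_odd_iff_even.2 he
    constructor
    · rintro ⟨h1, h3, h4⟩
      refine Or.inr (Or.inr ⟨hrp, hr3, he, h1, h3, ?_⟩)
      rcases Nat.eq_zero_or_pos (2 * a % c) with h0 | h0
      · exact Or.inr (Nat.not_even_iff_odd.1 fun h => (h4 h0).2 (Or.inr h))
      · exact Or.inl h0
    · rintro (h | ⟨-, -, h, -⟩ | ⟨-, -, -, h1, h3, h4⟩)
      · exact absurd h hr2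
      · exact absurd h hno
      · exact ⟨h1, h3, fun h0 => iff_of_false id (not_or_intro (not_not.2 he)
          (Nat.not_even_iff_odd.2 (h4.resolve_left (by omega))))⟩
  · have hne : ¬ Even i := Nat.not_even_iff_odd.2 ho
    constructor
    · rintro ⟨h1, h3, h4⟩
      exact Or.inr (Or.inl ⟨hrp, hr3, ho, h1, Nat.pos_of_ne_zero fun h0 => (h4 h0).2 (Or.inl hne), h3⟩)
    · rintro (h | ⟨-, -, -, h1, h0, h3⟩ | ⟨-, -, h, -⟩)
      · exact absurd h hr2
      · exact ⟨h1, h3, fun h => absurd h (by omega)⟩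
      · exact absurd h hne

end Cfsg.Agent.S5993
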