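import Cfsg.Statements.S5994
import Cfsg.Agent.Lib.Elusive.OrthUnipotent
import Cfsg.Agent.Lib.Classical.QuadF2

set_option autoImplicit false
open scoped MatrixGroups
open Cfsg
open Cfsg.Agent.Lib.Elusive.OrthUnipotent

namespace Cfsg.Agent.S5994

set_option maxHeartbeats 400000 in
theorem sum_formula (ν : Multiset ℕ) (h : ∀ x ∈ ν, x = 1 ∨ x = 2 ∨ x = 3) :
    ν.sum = ν.count 1 + 2 * ν.count 2 + 3 * ν.count 3 := by
  induction ν using Multiset.induction_on with
  | empty => simp
  | cons a s ih =>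
    have := ih fun x hx => h x (Multiset.mem_cons_of_mem hx)
    rcases h a (Multiset.mem_cons_self a s) with rfl | rfl | rfl <;> simp <;> omega


/-- A necessary condition for every element of order p of PΩ⁻_n(q), q odd, to fix an elliptic `m`-space. Here `T = PΩ⁻_n(F)`, `n = 2d ≥ 8`, realised through `Ω⁻_n(q)`, the commutator subgroup of the isometry group of `Q = Σ_{i<d−1} xᵢyᵢ + z₁² + a z₁z₂ + b z₂²` with `z₁² + a z₁z₂ + b z₂²` anisotropic, over the field `F` with `q` elements; an element of `T` of prime order `r` is an element `x` of `Ω⁻_n(q)` with `x^r` scalar and `x` not scalar; `q` is odd; a nondegenerate `m`-space (even `m`) is a subspace on which the polar form of `Q` is nondegenerate; it is hyperbolic if it contains an `m/2`-dimensional subspace on which `Q` vanishes, elliptic otherwise. Let `m` be even with `2 ≤ m ≤ n − 2` and suppose `p` divides the number of elliptic `m`-spaces. If every element of `T` of order `p` fixes some elliptic `m`-space, then `n ≡ m (mod 4)` and every partition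 of `n` into parts of size at most `p` in which every even part has even multiplicity contains (as a sub-multiset) a partition of `m` in which every even part has even multiplicity. -/
theorem result {F : Type*} [Field F] [Fintype F] {p : ℕ} [Fact p.Prime] [CharP F p] {q : ℕ} (hq : Fintype.card F = q) (hqodd : Odd q)
    (d m : ℕ) (hd : 4 ≤ d) (hm : 2 ≤ m) (hme : Even m) (hmn : m + 2 ≤ 2 * d) (a b : F) (hab : ∀ x y : F, x ^ 2 + a * x * y + b * y ^ 2 = 0 → x = 0 ∧ y = 0)
    (hpΩ : p ∣ Nat.card {W : Submodule F ((Fin (d - 1) ⊕ Fin (d - 1)) ⊕ Fin 2 → F) // Module.finrank F ↥W = m ∧ Cfsg.Geo.IsNondegenerateOn (QuadraticMap.polar (Cfsg.quadFormMinus (d - 1) F a b)) W ∧ ¬ Cfsg.Geo.IsPlusTypeOn (Cfsg.quadFormMinus (d - 1) F a b) W}) :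
    (∀ x : GL ((Fin (d - 1) ⊕ Fin (d - 1)) ⊕ Fin 2) F, x ∈ Cfsg.Geo.omegaGL (Cfsg.quadFormMinus (d - 1) F a b) →
      (∃ z : F, ((x ^ p : GL ((Fin (d - 1) ⊕ Fin (d - 1)) ⊕ Fin 2) F) : Matrix ((Fin (d - 1) ⊕ Fin (d - 1)) ⊕ Fin 2) ((Fin (d - 1) ⊕ Fin (d - 1)) ⊕ Fin 2) F) = z • (1 : Matrix ((Fin (d - 1) ⊕ Fin (d - 1)) ⊕ Fin 2) ((Fin (d - 1) ⊕ Fin (d - 1)) ⊕ Fin 2) F)) →
      (∀ z : F, (x : Matrix ((Fin (d - 1) ⊕ Fin (d - 1)) ⊕ Fin 2) ((Fin (d - 1) ⊕ Fin (d - 1)) ⊕ Fin 2) F) ≠ z • (1 : Matrix ((Fin (d - 1) ⊕ Fin (d - 1)) ⊕ Fin 2) ((Fin (d - 1) ⊕ Fin (d - 1)) ⊕ Fin 2) F)) →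
      ∃ W : Submodule F ((Fin (d - 1) ⊕ Fin (d - 1)) ⊕ Fin 2 → F), (Module.finrank F ↥W = m ∧ Cfsg.Geo.IsNondegenerateOn (QuadraticMap.polar (Cfsg.quadFormMinus (d - 1) F a b)) W ∧ ¬ Cfsg.Geo.IsPlusTypeOn (Cfsg.quadFormMinus (d - 1) F a b) W) ∧ W.map (Matrix.toLin' (x : Matrix ((Fin (d - 1) ⊕ Fin (d - 1)) ⊕ Fin 2) ((Fin (d - 1) ⊕ Fin (d - 1)) ⊕ Fin 2) F)) ≤ W) →
    ((2 * d) % 4 = m % 4 ∧ (∀ μ : Multiset ℕ, (∀ e ∈ μ, 0 < e ∧ e ≤ p) → (∀ e : ℕ, Even e → Even (μ.count e)) → μ.sum = 2 * d →
        ∃ ν : Multiset ℕ, ν ≤ μ ∧ ν.sum = m ∧ ∀ e : ℕ, Even e → Even (ν.count e))) := by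
  intro H
  classical
  have hp2 : Odd p := by
    obtain ⟨k, -, hk⟩ := FiniteField.card F p
    rw [← hq, hk] at hqodd
    exact (Nat.odd_pow_iff k.pos.ne').1 hqodd
  have hp3 : 3 ≤ p := by
    obtain ⟨k, rfl⟩ := hp2
    have := (Fact.out : (2 * k + 1).Prime).two_le
    omega
  have hcoe : (⇑(Cfsg.Agent.Lib.Classical.QuadF2.minusQ (d - 1) a b)) = Cfsg.quadFormMinus (d - 1) F a b :=
    funext (Cfsg.Agent.Lib.Classical.QuadF2.minusQ_apply (d - 1) a b)
  obtain ⟨hmain, hall⟩ := partition (p := p) (Q := Cfsg.Agent.Lib.Classical.QuadF2.minusQ (d - 1) a b)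
    (Cfsg.Agent.Lib.Classical.QuadF2.nd_minusQ hab (d - 1)) hp2 hme
    (by simp; omega)
    (fun W => Module.finrank F ↥W = m ∧ Cfsg.Geo.IsNondegenerateOn (QuadraticMap.polar (Cfsg.quadFormMinus (d - 1) F a b)) W ∧
      ¬ Cfsg.Geo.IsPlusTypeOn (Cfsg.quadFormMinus (d - 1) F a b) W)
    (fun W hW => ⟨hW.1, by rw [hcoe]; exact hW.2.1⟩) fun x hx hxp hns => by
      rw [hcoe] at hx
      exact H x hx ⟨1, by rw [Units.val_pow_eq_pow_val, hxp, one_smul]⟩ hns
  refine ⟨?_, fun μ h1 h2 h3 => hall μ h1 h2 (by simp; omega)⟩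
  rcases Nat.even_or_odd d with hde | hdo
  · rw [Nat.even_iff] at hde
    obtain ⟨ν, hν, hνm, hνe, hplus⟩ := hmain (Multiset.replicate (d - 2) 2 + {3, 1}) (fun e he => by
        simp only [Multiset.mem_add, Multiset.insert_eq_cons, Multiset.mem_cons, Multiset.mem_singleton,
          Multiset.mem_replicate] at he
        omega)
      (fun e he => by
        rw [Nat.even_iff] at he
        rcases eq_or_ne e 2 with rfl | hne
        · simp [Multiset.count_replicate, Multiset.count_cons, Multiset.count_singleton, Nat.even_iff]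
          all_goals (simp only [Nat.even_iff, Nat.odd_iff] at *; omega)
        · rw [Multiset.count_eq_zero.2 fun hmem => by
            simp only [Multiset.mem_add, Multiset.insert_eq_cons, Multiset.mem_cons, Multiset.mem_singleton,
              Multiset.mem_replicate] at hmem
            omega]
          exact Even.zero)
      (by simp [Multiset.sum_replicate]; omega) ⟨1, by simp, odd_one⟩ ⟨3, by simp, by omega⟩
    have hc : ∀ e, ν.count e ≤ (Multiset.replicate (d - 2) 2 + {3, 1}).count e := fun e => Multiset.count_le_of_le e hν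
    have h1 := hc 1
    have h3 := hc 3
    simp only [Multiset.count_add, Multiset.count_replicate, Multiset.insert_eq_cons, Multiset.count_cons,
      Multiset.count_singleton, Nat.reduceEqDiff, reduceIte] at h1 h3
    have hmem : ∀ x ∈ ν, x = 1 ∨ x = 2 ∨ x = 3 := fun x hx => by
      have := Multiset.mem_of_le hν hx
      simp only [Multiset.mem_add, Multiset.insert_eq_cons, Multiset.mem_cons, Multiset.mem_singleton,
        Multiset.mem_replicate] at this
      omega
    have hs := sum_formula ν hmem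
    have hodd : 0 < ν.count 1 ∨ 0 < ν.count 3 := by
      by_contra hcon
      obtain ⟨W, hW, hP⟩ := hplus fun a ha => by
        rcases hmem a ha with rfl | rfl | rfl
        · exact absurd (Multiset.count_pos.2 ha) (by omega)
        · exact even_two
        · exact absurd (Multiset.count_pos.2 ha) (by omega)
      rw [hcoe] at hP
      exact hW.2.2 hP
    have h2 := hνe 2 even_two
    rw [Nat.even_iff] at h2 hme
    omega
  · rw [Nat.odd_iff] at hdo
    obtain ⟨ν, hν, hνm, hνe, hplus⟩ := hmain (Multiset.replicate (d - 1) 2 + {1, 1}) (fun e he => by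
        simp only [Multiset.mem_add, Multiset.insert_eq_cons, Multiset.mem_cons, Multiset.mem_singleton,
          Multiset.mem_replicate] at he
        omega)
      (fun e he => by
        rw [Nat.even_iff] at he
        rcases eq_or_ne e 2 with rfl | hne
        · simp [Multiset.count_replicate, Multiset.count_cons, Multiset.count_singleton, Nat.even_iff]
          all_goals (simp only [Nat.even_iff, Nat.odd_iff] at *; omega)
        · rw [Multiset.count_eq_zero.2 fun hmem => by
            simp only [Multiset.mem_add, Multiset.insert_eq_cons, Multiset.mem_cons, Multiset.mem_singleton,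
              Multiset.mem_replicate] at hmem
            omega]
          exact Even.zero)
      (by simp [Multiset.sum_replicate]; omega) ⟨1, by simp, odd_one⟩ ⟨2, Multiset.mem_add.2 (Or.inl (Multiset.mem_replicate.2 ⟨by omega, rfl⟩)), by omega⟩
    have hc : ∀ e, ν.count e ≤ (Multiset.replicate (d - 1) 2 + {1, 1}).count e := fun e => Multiset.count_le_of_le e hν
    have h1 := hc 1
    have h3 := hc 3
    simp only [Multiset.count_add, Multiset.count_replicate, Multiset.insert_eq_cons, Multiset.count_cons,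
      Multiset.count_singleton, Nat.reduceEqDiff, reduceIte] at h1 h3
    have hmem : ∀ x ∈ ν, x = 1 ∨ x = 2 ∨ x = 3 := fun x hx => by
      have := Multiset.mem_of_le hν hx
      simp only [Multiset.mem_add, Multiset.insert_eq_cons, Multiset.mem_cons, Multiset.mem_singleton,
        Multiset.mem_replicate] at this
      omega
    have hs := sum_formula ν hmem
    have hodd : 0 < ν.count 1 := by
      by_contra hcon
      obtain ⟨W, hW, hP⟩ := hplus fun a ha => by
        rcases hmem a ha with rfl | rfl | rfl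
        · exact absurd (Multiset.count_pos.2 ha) hcon
        · exact even_two
        · exact absurd (Multiset.count_pos.2 ha) (by simp [h3])
      rw [hcoe] at hP
      exact hW.2.2 hP
    have h2 := hνe 2 even_two
    rw [Nat.even_iff] at h2 hme
    omega

end Cfsg.Agent.S5994
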