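import Cfsg.Statements.S5995
import Cfsg.Agent.Lib.Elusive.OrthUnipotent
import Cfsg.Agent.Lib.Forms.OrthOddStd

set_option autoImplicit false
open scoped MatrixGroups
open Cfsg
open Cfsg.Agent.Lib.Elusive.OrthUnipotent

namespace Cfsg.Agent.S5995

set_option maxHeartbeats 400000 in
theorem sum_formula (ν : Multiset ℕ) (h : ∀ x ∈ ν, x = 1 ∨ x = 2 ∨ x = 3) :
    ν.sum = ν.count 1 + 2 * ν.count 2 + 3 * ν.count 3 := by
  induction ν using Multiset.induction_on with
  | empty => simp
  | cons a s ih =>
    have := ih fun x hx => h x (Multiset.mem_cons_of_mem hx)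
    rcases h a (Multiset.mem_cons_self a s) with rfl | rfl | rfl <;> simp <;> omega


/-- A necessary condition for every element of order p of Ω_n(q), nq odd, to fix a hyperbolic `m`-space. Here `T = Ω_n(F)`, `n = 2d+1 ≥ 7`, `q` odd, realised as the commutator subgroup of the isometry group of `Q = x₀² + Σ xᵢyᵢ` over the field `F` with `q` elements (trivial centre, so its elements of prime order `r` are used directly); a nondegenerate `m`-space (even `m`) is a subspace on which the polar form of `Q` is nondegenerate; it is hyperbolic if it contains an `m/2`-dimensional subspace on which `Q` vanishes, elliptic otherwise. Let `m` be even with `2 ≤ m ≤ n − 1` and suppose `p` divides the number of hyperbolic `m`-spaces. If every element of `T` of order `p` fixes some hyperbolic `m`-space, then `m ≡ 0 (mod 4)` and every partition of `n` into parts of size at most `p` in which every even part has even multiplicity contains (as a sub-multiset) a partition of `m` in which every even part has even multiplicity. -/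
theorem result {F : Type*} [Field F] [Fintype F] {p : ℕ} [Fact p.Prime] [CharP F p] {q : ℕ} (hq : Fintype.card F = q) (hqodd : Odd q)
    (d m : ℕ) (hd : 3 ≤ d) (hm : 2 ≤ m) (hme : Even m) (hmn : m ≤ 2 * d)
    (hpΩ : p ∣ Nat.card {W : Submodule F (Unit ⊕ (Fin d ⊕ Fin d) → F) // Module.finrank F ↥W = m ∧ Cfsg.Geo.IsNondegenerateOn (QuadraticMap.polar (Cfsg.quadFormOdd d F)) W ∧ Cfsg.Geo.IsPlusTypeOn (Cfsg.quadFormOdd d F) W}) :
    (∀ x : GL (Unit ⊕ (Fin d ⊕ Fin d)) F, x ∈ Cfsg.Geo.omegaGL (Cfsg.quadFormOdd d F) → orderOf x = p →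
      ∃ W : Submodule F (Unit ⊕ (Fin d ⊕ Fin d) → F), (Module.finrank F ↥W = m ∧ Cfsg.Geo.IsNondegenerateOn (QuadraticMap.polar (Cfsg.quadFormOdd d F)) W ∧ Cfsg.Geo.IsPlusTypeOn (Cfsg.quadFormOdd d F) W) ∧ W.map (Matrix.toLin' (x : Matrix (Unit ⊕ (Fin d ⊕ Fin d)) (Unit ⊕ (Fin d ⊕ Fin d)) F)) ≤ W) →
    (m % 4 = 0 ∧ (∀ μ : Multiset ℕ, (∀ e ∈ μ, 0 < e ∧ e ≤ p) → (∀ e : ℕ, Even e → Even (μ.count e)) → μ.sum = 2 * d + 1 →
        ∃ ν : Multiset ℕ, ν ≤ μ ∧ ν.sum = m ∧ ∀ e : ℕ, Even e → Even (ν.count e))) := by
  intro H
  classical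
  have hp2 : Odd p := by
    obtain ⟨k, -, hk⟩ := FiniteField.card F p
    rw [← hq, hk] at hqodd
    exact (Nat.odd_pow_iff k.pos.ne').1 hqodd
  have hp3 : 3 ≤ p := by
    obtain ⟨k, rfl⟩ := hp2
    have := (Fact.out : (2 * k + 1).Prime).two_le
    omega
  have hcoe : (⇑(Cfsg.Agent.Lib.Forms.oddQ d F)) = Cfsg.quadFormOdd d F := Cfsg.Agent.Lib.Forms.oddQ_coe d
  obtain ⟨hmain, hall⟩ := partition (p := p) (Q := Cfsg.Agent.Lib.Forms.oddQ d F)
    (Cfsg.Agent.Lib.Forms.oddQ_nd (hq.symm ▸ hqodd) d) hp2 hme
    (by simp; omega)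
    (fun W => Module.finrank F ↥W = m ∧ Cfsg.Geo.IsNondegenerateOn (QuadraticMap.polar (Cfsg.quadFormOdd d F)) W ∧
      Cfsg.Geo.IsPlusTypeOn (Cfsg.quadFormOdd d F) W)
    (fun W hW => ⟨hW.1, by rw [hcoe]; exact hW.2.1⟩) fun x hx hxp hns => by
      rw [hcoe] at hx
      refine H x hx (orderOf_eq_prime (Units.ext (by rw [Units.val_pow_eq_pow_val, hxp, Units.val_one])) ?_)
      intro h1
      exact hns 1 (by rw [h1, Units.val_one, one_smul])
  refine ⟨?_, fun μ h1 h2 h3 => hall μ h1 h2 (by simp; omega)⟩
  rcases Nat.even_or_odd d with hde | hdo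
  · obtain ⟨ν, hν, hνm, hνe, -⟩ := hmain (Multiset.replicate d 2 + {1}) (fun e he => by
        simp only [Multiset.mem_add, Multiset.insert_eq_cons, Multiset.mem_cons, Multiset.mem_singleton,
          Multiset.mem_replicate] at he
        omega)
      (fun e he => by
        rw [Nat.even_iff] at he
        rcases eq_or_ne e 2 with rfl | hne
        · simp [Multiset.count_replicate, Multiset.count_cons, Multiset.count_singleton, Nat.even_iff]
          all_goals (simp only [Nat.even_iff, Nat.odd_iff] at *; omega)
        · rw [Multiset.count_eq_zero.2 fun hmem => by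
            simp only [Multiset.mem_add, Multiset.insert_eq_cons, Multiset.mem_cons, Multiset.mem_singleton,
              Multiset.mem_replicate] at hmem
            omega]
          exact Even.zero)
      (by simp [Multiset.sum_replicate]; omega) ⟨1, by simp, odd_one⟩ ⟨2, Multiset.mem_add.2 (Or.inl (Multiset.mem_replicate.2 ⟨by omega, rfl⟩)), by omega⟩
    have hc : ∀ e, ν.count e ≤ (Multiset.replicate d 2 + {1}).count e := fun e => Multiset.count_le_of_le e hν
    have h1 := hc 1
    have h3 := hc 3
    simp only [Multiset.count_add, Multiset.count_replicate, Multiset.insert_eq_cons, Multiset.count_cons,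
      Multiset.count_singleton, Nat.reduceEqDiff, reduceIte] at h1 h3
    have hs := sum_formula ν fun x hx => by
      have := Multiset.mem_of_le hν hx
      simp only [Multiset.mem_add, Multiset.insert_eq_cons, Multiset.mem_cons, Multiset.mem_singleton,
        Multiset.mem_replicate] at this
      omega
    have h2 := hνe 2 even_two
    rw [Nat.even_iff] at h2 hme
    omega
  · obtain ⟨ν, hν, hνm, hνe, -⟩ := hmain (Multiset.replicate (d - 1) 2 + {3}) (fun e he => by
        simp only [Multiset.mem_add, Multiset.insert_eq_cons, Multiset.mem_cons, Multiset.mem_singleton,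
          Multiset.mem_replicate] at he
        omega)
      (fun e he => by
        rw [Nat.even_iff] at he
        rcases eq_or_ne e 2 with rfl | hne
        · simp [Multiset.count_replicate, Multiset.count_cons, Multiset.count_singleton, Nat.even_iff]
          all_goals (simp only [Nat.even_iff, Nat.odd_iff] at *; omega)
        · rw [Multiset.count_eq_zero.2 fun hmem => by
            simp only [Multiset.mem_add, Multiset.insert_eq_cons, Multiset.mem_cons, Multiset.mem_singleton,
              Multiset.mem_replicate] at hmem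
            omega]
          exact Even.zero)
      (by simp [Multiset.sum_replicate]; rw [Nat.odd_iff] at hdo; omega) ⟨3, by simp, by decide⟩ ⟨3, by simp, by omega⟩
    have hc : ∀ e, ν.count e ≤ (Multiset.replicate (d - 1) 2 + {3}).count e := fun e => Multiset.count_le_of_le e hν
    have h1 := hc 1
    have h3 := hc 3
    simp only [Multiset.count_add, Multiset.count_replicate, Multiset.insert_eq_cons, Multiset.count_cons,
      Multiset.count_singleton, Nat.reduceEqDiff, reduceIte] at h1 h3
    have hs := sum_formula ν fun x hx => by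
      have := Multiset.mem_of_le hν hx
      simp only [Multiset.mem_add, Multiset.insert_eq_cons, Multiset.mem_cons, Multiset.mem_singleton,
        Multiset.mem_replicate] at this
      omega
    have h2 := hνe 2 even_two
    rw [Nat.even_iff] at h2 hme
    omega

end Cfsg.Agent.S5995
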