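import Cfsg.Statements.S5996
import Cfsg.Agent.Lib.Elusive.OrthUnipotent
import Cfsg.Agent.Lib.Classical.QuadOmega.SingularPlus

set_option autoImplicit false
open scoped MatrixGroups
open Cfsg
open Cfsg.Agent.Lib.Elusive.OrthUnipotent

namespace Cfsg.Agent.S5996

/-- A necessary condition for every element of order p of PΩ⁺_n(q), q odd, to fix a hyperbolic `m`-space. Here `T = PΩ⁺_n(F)`, `n = 2d ≥ 8`, realised through `Ω⁺_n(q)`, the commutator subgroup of the isometry group of `Q = Σ xᵢyᵢ` over the field `F` with `q` elements; an element of `T` of prime order `r` is an element `x` of `Ω⁺_n(q)` with `x^r` scalar and `x` not scalar; `q` is odd; a nondegenerate `m`-space (even `m`) is a subspace on which the polar form of `Q` is nondegenerate; it is hyperbolic if it contains an `m/2`-dimensional subspace on which `Q` vanishes, elliptic otherwise. Let `m` be even with `2 ≤ m < n/2` and suppose `p` divides the number of hyperbolic `m`-spaces. If every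 element of `T` of order `p` fixes some hyperbolic `m`-space, then every partition of `n` into parts of size at most `p` in which every even part has even multiplicity contains (as a sub-multiset) a partition of `m` in which every even part has even multiplicity. -/
theorem result {F : Type*} [Field F] [Fintype F] {p : ℕ} [Fact p.Prime] [CharP F p] {q : ℕ} (hq : Fintype.card F = q) (hqodd : Odd q)
    (d m : ℕ) (hd : 4 ≤ d) (hm : 2 ≤ m) (hme : Even m) (hmd : m < d)
    (hpΩ : p ∣ Nat.card {W : Submodule F (Fin d ⊕ Fin d → F) // Module.finrank F ↥W = m ∧ Cfsg.Geo.IsNondegenerateOn (QuadraticMap.polar (Cfsg.quadFormPlus d F)) W ∧ Cfsg.Geo.IsPlusTypeOn (Cfsg.quadFormPlus d F) W}) :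
    (∀ x : GL (Fin d ⊕ Fin d) F, x ∈ Cfsg.Geo.omegaGL (Cfsg.quadFormPlus d F) →
      (∃ z : F, ((x ^ p : GL (Fin d ⊕ Fin d) F) : Matrix (Fin d ⊕ Fin d) (Fin d ⊕ Fin d) F) = z • (1 : Matrix (Fin d ⊕ Fin d) (Fin d ⊕ Fin d) F)) →
      (∀ z : F, (x : Matrix (Fin d ⊕ Fin d) (Fin d ⊕ Fin d) F) ≠ z • (1 : Matrix (Fin d ⊕ Fin d) (Fin d ⊕ Fin d) F)) →
      ∃ W : Submodule F (Fin d ⊕ Fin d → F), (Module.finrank F ↥W = m ∧ Cfsg.Geo.IsNondegenerateOn (QuadraticMap.polar (Cfsg.quadFormPlus d F)) W ∧ Cfsg.Geo.IsPlusTypeOn (Cfsg.quadFormPlus d F) W) ∧ W.map (Matrix.toLin' (x : Matrix (Fin d ⊕ Fin d) (Fin d ⊕ Fin d) F)) ≤ W) →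
    (∀ μ : Multiset ℕ, (∀ e ∈ μ, 0 < e ∧ e ≤ p) → (∀ e : ℕ, Even e → Even (μ.count e)) → μ.sum = 2 * d →
        ∃ ν : Multiset ℕ, ν ≤ μ ∧ ν.sum = m ∧ ∀ e : ℕ, Even e → Even (ν.count e)) := by
  intro H
  classical
  have hp2 : Odd p := by
    obtain ⟨k, -, hk⟩ := FiniteField.card F p
    rw [← hq, hk] at hqodd
    exact (Nat.odd_pow_iff k.pos.ne').1 hqodd
  have hp3 : 3 ≤ p := by
    obtain ⟨k, rfl⟩ := hp2
    have := (Fact.out : (2 * k + 1).Prime).two_le
    omega
  have hcoe : (⇑(Cfsg.Agent.Lib.Classical.QuadOmega.plusQ d F)) = Cfsg.quadFormPlus d F :=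
    funext (Cfsg.Agent.Lib.Classical.QuadOmega.plusQ_apply d)
  intro μ h1 h2 h3
  refine (partition (p := p) (Q := Cfsg.Agent.Lib.Classical.QuadOmega.plusQ d F) (Cfsg.Agent.Lib.Classical.QuadOmega.nd_plusQ d) hp2 hme
    (by simp; omega)
    (fun W => Module.finrank F ↥W = m ∧ Cfsg.Geo.IsNondegenerateOn (QuadraticMap.polar (Cfsg.quadFormPlus d F)) W ∧
      Cfsg.Geo.IsPlusTypeOn (Cfsg.quadFormPlus d F) W)
    (fun W hW => ⟨hW.1, by rw [hcoe]; exact hW.2.1⟩) fun x hx hxp hns => ?_).2 μ h1 h2 (by simp; omega)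
  rw [hcoe] at hx
  exact H x hx ⟨1, by rw [Units.val_pow_eq_pow_val, hxp, one_smul]⟩ hns

end Cfsg.Agent.S5996
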