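import Cfsg.Statements.S5997
import Cfsg.Agent.Lib.Two.QuatNorm

set_option autoImplicit false
open scoped MatrixGroups
open Cfsg

namespace Cfsg.Agent.S5997

open Cfsg.Agent.Lib.Two Cfsg.Agent.Lib.Two.QN

/-- Elements of prime order of PSL_2(p) and the normalizer of a quaternion subgroup. Here `T = PSL_2(F)` for the field `F` with `p` elements, `p ≥ 5` prime; `R` is a subgroup of GL_2(F) isomorphic to the quaternion group of order 8 (an absolutely irreducible 2-group of symplectic type), and `H` is the subgroup of matrices of determinant 1 normalizing `R` — a subgroup of type 2^{1+2}.O₂⁻(2), isomorphic modulo scalars to A₄ or S₄ (maximality is not assumed). Ω is the set of cosets of `H` in `T`, so an element of `T` of prime order `r` (a matrix `x` of determinant 1 with `x^r` scalar, `x` not scalar) fixes a point of Ω exactly when some conjugate of `x` by a matrix of determinant 1 normalizes `R`. Let `r` be a prime dividing the index of `H`. Then every element of `T` of order `r` fixes a point of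 Ω if and only if `r = 2` or `r = 3`. -/
theorem result {F : Type*} [Field F] [Fintype F] {p : ℕ} [Fact p.Prime] [CharP F p] (hF : Fintype.card F = p) (hp : 5 ≤ p)
    (R : Subgroup (GL (Fin 2) F)) (hR : Nonempty (↥R ≃* QuaternionGroup 2))
    (r : ℕ) [Fact r.Prime]
    (hΩ : r ∣ (Cfsg.Geo.subgroupNormalizer R).relIndex (Cfsg.Geo.specialLinear (Fin 2) F)) :
    (∀ x ∈ Cfsg.Geo.specialLinear (Fin 2) F, (∃ z : F, ((x ^ r : GL (Fin 2) F) : Matrix (Fin 2) (Fin 2) F) = z • (1 : Matrix (Fin 2) (Fin 2) F)) →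
      (∀ z : F, (x : Matrix (Fin 2) (Fin 2) F) ≠ z • (1 : Matrix (Fin 2) (Fin 2) F)) →
      ∃ g ∈ Cfsg.Geo.specialLinear (Fin 2) F, g⁻¹ * x * g ∈ Cfsg.Geo.subgroupNormalizer R) ↔ (r = 2 ∨ r = 3) := by
  classical
  have hp2 : (2 : F) ≠ 0 := by
    intro h
    rw [show (2 : F) = ((2 : ℕ) : F) by norm_num, CharP.cast_eq_zero_iff F p] at h
    have := Nat.le_of_dvd two_pos h; omega
  have hp3 : (3 : F) ≠ 0 := by
    intro h
    rw [show (3 : F) = ((3 : ℕ) : F) by norm_num, CharP.cast_eq_zero_iff F p] at h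
    have := Nat.le_of_dvd three_pos h; omega
  have hodd : Odd (Fintype.card F) := by
    rw [hF]; exact (Fact.out : p.Prime).odd_of_ne_two (by omega)
  have hsc : ∀ A : Matrix (Fin 2) (Fin 2) F, (∀ z : F, A ≠ z • (1 : Matrix (Fin 2) (Fin 2) F)) →
      ¬ IsScalar2 A := fun A h hs => by
    obtain ⟨c, hc⟩ := (isScalar2_iff A).1 hs
    exact h c hc
  constructor
  · intro H
    by_contra hcon
    push Not at hcon
    have hrp : r.Prime := Fact.out
    have h5 : 5 ≤ r := by
      have := hrp.two_le
      rcases eq_or_ne r 4 with rfl | h4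
      · exact absurd hrp (by norm_num)
      · omega
    set S := Cfsg.Geo.specialLinear (Fin 2) F
    have hdvd : r ∣ Nat.card S :=
      hΩ.trans (Subgroup.index_dvd_card ((Cfsg.Geo.subgroupNormalizer R).subgroupOf S))
    obtain ⟨x, hx⟩ := exists_prime_orderOf_dvd_card' r hdvd
    have hxr : ((x : GL (Fin 2) F)) ^ r = 1 := by
      rw [← Subgroup.coe_pow, ← hx, pow_orderOf_eq_one, Subgroup.coe_one]
    have hns : ∀ z : F, ((x : GL (Fin 2) F) : Matrix (Fin 2) (Fin 2) F) ≠ z • (1 : Matrix (Fin 2) (Fin 2) F) := by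
      intro z hz
      have hd : ((x : GL (Fin 2) F) : Matrix (Fin 2) (Fin 2) F).det = 1 := by
        rw [← Matrix.GeneralLinearGroup.val_det_apply, (MonoidHom.mem_ker).1 x.2, Units.val_one]
      rw [hz] at hd
      rw [Matrix.det_smul, Matrix.det_one, Fintype.card_fin, mul_one, pow_two] at hd
      have h2 : x ^ 2 = 1 := by
        apply Subtype.ext
        apply Units.ext
        simp [pow_two, hz, smul_smul, hd]
      have := Nat.le_of_dvd two_pos (hx ▸ orderOf_dvd_of_pow_eq_one h2)
      omega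
    obtain ⟨g, hg, hgN⟩ := H x x.2 ⟨1, by rw [hxr]; simp⟩ hns
    have hxr' : (g⁻¹ * (x : GL (Fin 2) F) * g) ^ r = 1 := by
      rw [show g⁻¹ * (x : GL (Fin 2) F) * g = g⁻¹ * (x : GL (Fin 2) F) * g⁻¹⁻¹ by rw [inv_inv],
        conj_pow, hxr]
      simp
    have hs := no_large_prime hp2 R hR h5 _ hgN 1 (by rw [hxr']; simp)
    obtain ⟨c, hc⟩ := (isScalar2_iff _).1 hs
    apply hns c
    have hcg := congrArg (fun M : Matrix (Fin 2) (Fin 2) F =>
      (g : Matrix (Fin 2) (Fin 2) F) * M * ((g⁻¹ : GL (Fin 2) F) : Matrix (Fin 2) (Fin 2) F)) hc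
    try beta_reduce at hcg
    rw [← Units.val_mul, ← Units.val_mul,
      show g * (g⁻¹ * (x : GL (Fin 2) F) * g) * g⁻¹ = x by group, Matrix.mul_smul, Matrix.mul_one,
      Matrix.smul_mul, Units.mul_inv] at hcg
    exact hcg
  · obtain ⟨-, a, b, ha, hb, q, hgen⟩ := exists_gens hp2 R hR
    rintro (rfl | rfl) x hx ⟨z, hz⟩ hns <;> have hxs := hsc _ hns <;>
      have hxd : ((x : GL (Fin 2) F) : Matrix (Fin 2) (Fin 2) F).det = 1 := by
        rw [← Matrix.GeneralLinearGroup.val_det_apply, (MonoidHom.mem_ker).1 hx, Units.val_one]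
    · have hcx := cayley (x : Matrix (Fin 2) (Fin 2) F)
      rw [Units.val_pow_eq_pow_val, pow_two, hcx, hxd] at hz
      have htx : (x : Matrix (Fin 2) (Fin 2) F).trace = 0 := by
        have := combo_inj _ hxs (-1) (x : Matrix (Fin 2) (Fin 2) F).trace z 0
          (by rw [zero_smul, add_zero, neg_smul, neg_add_eq_sub]; exact hz)
        exact this.2
      obtain ⟨hat, had⟩ := inv_of_sq (q.notScalar hp2) (t := 0) (d := 1) (by simp [q.ii])
      obtain ⟨g, hg, hgc⟩ := exists_conj hodd x a hx hxs had (q.notScalar hp2) (htx.trans hat.symm)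
        (by rw [htx]; intro h; exact hp2 (by
          have : (2 : F) * 2 = 0 := by linear_combination -h
          simpa using this))
      exact ⟨g, hg, hgc ▸ Subgroup.le_normalizer ha⟩
    · have hcx := cayley (x : Matrix (Fin 2) (Fin 2) F)
      rw [hxd] at hcx
      set X := (x : Matrix (Fin 2) (Fin 2) F)
      set t := X.trace
      have h3 : X * X * X = (t * t - 1) • X - t • (1 : Matrix (Fin 2) (Fin 2) F) := by
        rw [hcx, sub_mul, Matrix.smul_mul, hcx]
        simp [smul_sub, smul_smul, sub_smul]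
        abel
      rw [Units.val_pow_eq_pow_val, show X ^ 3 = X * X * X by noncomm_ring, h3] at hz
      have htt := (combo_inj X hxs (-t) (t * t - 1) z 0
        (by rw [zero_smul, add_zero, neg_smul, neg_add_eq_sub]; exact hz)).2
      rw [sub_eq_zero] at htt
      have ht0 : t ≠ 0 := fun h => by simp [h] at htt
      obtain ⟨hM1, hM2, hMs, hMt, hMd⟩ := q.cyc_props hp2
      set M := cyc (a : Matrix (Fin 2) (Fin 2) F) (b : Matrix (Fin 2) (Fin 2) F)
      set G : GL (Fin 2) F := Matrix.GeneralLinearGroup.mkOfDetNeZero ((t / 2) • M)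
        (by rw [Matrix.det_smul, hMd]; simp [hp2, ht0, show (4 : F) = 2 * 2 by norm_num]) with hG
      have hGv : (G : Matrix (Fin 2) (Fin 2) F) = (t / 2) • M := rfl
      have hGs : ¬ IsScalar2 (G : Matrix (Fin 2) (Fin 2) F) := by
        rw [hGv]
        intro h
        apply hMs
        obtain ⟨c, hc⟩ := (isScalar2_iff _).1 h
        refine (isScalar2_iff _).2 ⟨(t / 2)⁻¹ * c, ?_⟩
        rw [← smul_smul, ← hc, inv_smul_smul₀ (div_ne_zero ht0 hp2)]
      have hGt : t = (G : Matrix (Fin 2) (Fin 2) F).trace := by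
        rw [hGv, Matrix.trace_smul, hMt, smul_eq_mul, div_mul_cancel₀ _ hp2]
      have hGd : (G : Matrix (Fin 2) (Fin 2) F).det = 1 := by
        rw [hGv, Matrix.det_smul, hMd, Fintype.card_fin, div_pow]
        field_simp
        linear_combination 4 * htt
      have hGa : G * a * G⁻¹ = b := by
        rw [mul_inv_eq_iff_eq_mul]
        apply Units.ext
        simp [Units.val_mul, hGv, hM1]
      have hGb : G * b * G⁻¹ = a * b := by
        rw [mul_inv_eq_iff_eq_mul]
        apply Units.ext
        simp [Units.val_mul, hGv, hM2]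
      have hGN : G ∈ Cfsg.Geo.subgroupNormalizer R := by
        haveI : Finite (R : Set (GL (Fin 2) F)) := Subtype.finite
        refine Subgroup.mem_normalizer_fintype fun u hu => ?_
        obtain ⟨k, rfl | rfl⟩ := hgen u hu
        · rw [← conj_pow, hGa]; exact pow_mem hb k
        · rw [show G * (b * a ^ k) * G⁻¹ = (G * b * G⁻¹) * (G * a ^ k * G⁻¹) by group, ← conj_pow, hGa, hGb]
          exact mul_mem (mul_mem ha hb) (pow_mem hb k)
      obtain ⟨g, hg, hgc⟩ := exists_conj hodd x G hx hxs hGd hGs hGt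
        (by
          show t ^ 2 ≠ 4
          intro h; exact hp3 (by linear_combination htt - h))
      exact ⟨g, hg, hgc ▸ hGN⟩

end Cfsg.Agent.S5997
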