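import Cfsg.Statements.S5998
import Cfsg.Agent.Lib.Three.Extraspecial

set_option autoImplicit false
open scoped MatrixGroups
open Cfsg

namespace Cfsg.Agent.S5998

open Matrix Cfsg.Agent.Lib.Three

universe v
variable {F : Type v} [Field F]

local notation "M3" => Matrix (Fin 3) (Fin 3) F

theorem pow_congr3 {ν : F} (hν : IsPrimitiveRoot ν 3) {a b : ℕ} (h : a % 3 = b % 3) : ν ^ a = ν ^ b := by
  rw [pow_eq_pow_mod a hν.pow_eq_one, pow_eq_pow_mod b hν.pow_eq_one, h]

theorem mem_conj_normalizer (R : Subgroup (GL (Fin 3) F)) (P g : GL (Fin 3) F) :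
    MulAut.conj P⁻¹ g ∈ Subgroup.normalizer
        ((R.map (MulAut.conj P⁻¹).toMonoidHom : Subgroup (GL (Fin 3) F)) : Set (GL (Fin 3) F)) ↔
      g ∈ Subgroup.normalizer (R : Set (GL (Fin 3) F)) := by
  have key : ∀ u, MulAut.conj P⁻¹ u ∈ R.map (MulAut.conj P⁻¹).toMonoidHom ↔ u ∈ R := fun u =>
    ⟨fun ⟨w, hw, he⟩ => (MulAut.conj P⁻¹).injective he ▸ hw, fun h => ⟨u, h, rfl⟩⟩
  rw [Subgroup.mem_normalizer_iff, Subgroup.mem_normalizer_iff]
  constructor
  · intro h u
    have := h (MulAut.conj P⁻¹ u)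
    rwa [← map_mul, ← map_inv, ← map_mul, key, key] at this
  · intro h w
    obtain ⟨u, rfl⟩ := (MulAut.conj P⁻¹).surjective w
    rw [← map_mul, ← map_inv, ← map_mul, key, key]
    exact h u

theorem scalar_of_prime_pow [Finite F] {R : Subgroup (GL (Fin 3) F)} (hR : Nat.card R = 27) {ν : F}
    (hν : IsPrimitiveRoot ν 3) (s : Std R ν) {r : ℕ} [hr : Fact r.Prime] (h5 : 5 ≤ r)
    (g : GL (Fin 3) F) (hg : g ∈ Subgroup.normalizer (R : Set (GL (Fin 3) F))) (hgr : g ^ r = 1) :
    (g : M3) = (g : M3) 0 0 • (1 : M3) := by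
  classical
  let σ : Equiv.Perm R :=
    { toFun := fun u => ⟨g * u * g⁻¹, (Subgroup.mem_normalizer_iff.1 hg u).1 u.2⟩
      invFun := fun u => ⟨g⁻¹ * u * g, by
        have := (Subgroup.mem_normalizer_iff.1 (inv_mem hg) (u : GL (Fin 3) F)).1 u.2
        rwa [inv_inv] at this⟩
      left_inv := fun u => by ext1; simp [mul_assoc]
      right_inv := fun u => by ext1; simp [mul_assoc] }
  have hpow : ∀ (k : ℕ) (u : R), ((σ ^ k) u : GL (Fin 3) F) = g ^ k * u * (g ^ k)⁻¹ := by
    intro k
    induction k with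
    | zero => intro u; simp
    | succ k ih =>
      intro u
      rw [pow_succ', Equiv.Perm.mul_apply]
      show g * _ * g⁻¹ = _
      rw [ih, pow_succ']; group
  have hσr : σ ^ r = 1 := by
    ext u : 2
    rw [hpow, Equiv.Perm.one_apply, hgr, one_mul, inv_one, mul_one]
  by_cases hσ : σ = 1
  · have fix : ∀ u : R, g * (u : GL (Fin 3) F) = u * g := by
      intro u
      have := congrArg (fun s : Equiv.Perm R => ((s u : R) : GL (Fin 3) F)) hσ
      simp only [Equiv.Perm.one_apply] at this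
      exact mul_inv_eq_iff_eq_mul.1 this
    have hA := congrArg Units.val (fix ⟨s.A, s.mA⟩)
    have hB := congrArg Units.val (fix ⟨s.B, s.mB⟩)
    simp only [Units.val_mul, s.hA, s.hB] at hA hB
    exact scalar_of_comm hν _ hA hB
  exfalso
  have hord : orderOf σ = r := orderOf_eq_prime hσr hσ
  haveI : Fintype R := Fintype.ofFinite R
  obtain ⟨n, hn⟩ := Equiv.Perm.cycleType_prime_order (hord.symm ▸ hr.out)
  have hsupp : σ.support.card = (n + 1) * r := by
    rw [← Equiv.Perm.sum_cycleType, hn, Multiset.sum_replicate, smul_eq_mul, hord]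
  let C : Subgroup R := (Subgroup.centralizer ({g} : Set (GL (Fin 3) F))).subgroupOf R
  have hC : ∀ u : R, u ∈ C ↔ σ u = u := by
    intro u
    rw [Subgroup.mem_subgroupOf, Subgroup.mem_centralizer_singleton_iff, ← Subtype.coe_inj]
    show _ ↔ g * u * g⁻¹ = u
    rw [mul_inv_eq_iff_eq_mul, eq_comm]
  have hcard : Nat.card C + σ.support.card = 27 := by
    rw [← hR, Nat.card_eq_fintype_card (α := R), Nat.card_eq_fintype_card (α := C),
      ← Finset.card_add_card_compl σ.support, add_comm]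
    congr 1
    rw [Fintype.card_subtype]
    congr 1
    ext u
    simp [hC]
  have hC1 : Nat.card C ≠ 1 := by
    rw [Ne, Subgroup.card_eq_one]
    intro hbot
    have hm : (⟨s.Z, s.mZ⟩ : R) ∈ C := by
      rw [Subgroup.mem_subgroupOf, Subgroup.mem_centralizer_singleton_iff]
      apply Units.ext
      simp [Units.val_mul, s.hZ]
    rw [hbot, Subgroup.mem_bot, Subtype.ext_iff] at hm
    have hm' : (s.Z : M3) = 1 := by
      have hm2 : s.Z = 1 := hm
      rw [hm2, Units.val_one]
    have h00 := congrFun (congrFun hm' 0) 0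
    simp [s.hZ] at h00
    exact hν.ne_one (by norm_num) h00
  obtain ⟨k, hk, hkc⟩ := (Nat.dvd_prime_pow Nat.prime_three (m := 3)).1
    (show Nat.card C ∣ 3 ^ 3 by
      rw [show 3 ^ 3 = Nat.card R by rw [hR]; norm_num]; exact C.card_subgroup_dvd_card)
  have hdr : r ∣ σ.support.card := ⟨n + 1, by rw [hsupp]; ring⟩
  have hp0 : 0 < σ.support.card := by rw [hsupp]; exact Nat.mul_pos n.succ_pos (by omega)
  interval_cases k
  · exact hC1 hkc
  · rw [show σ.support.card = 2 ^ 3 * 3 by omega] at hdr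
    rcases hr.out.dvd_mul.1 hdr with h | h
    · have := Nat.le_of_dvd two_pos (hr.out.dvd_of_dvd_pow h); omega
    · have := Nat.le_of_dvd three_pos h; omega
  · rw [show σ.support.card = 2 * 3 ^ 2 by omega] at hdr
    rcases hr.out.dvd_mul.1 hdr with h | h
    · have := Nat.le_of_dvd two_pos h; omega
    · have := Nat.le_of_dvd three_pos (hr.out.dvd_of_dvd_pow h); omega
  · omega

theorem diag_mem_normalizer [Finite F] {R : Subgroup (GL (Fin 3) F)} {ν : F}
    (hν : IsPrimitiveRoot ν 3) (s : Std R ν) (D : GL (Fin 3) F) (ζ : F) (d : Fin 3 → F)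
    (hd : ∀ i, d i ^ 3 = 1) (hD : (D : M3) = Matrix.diagonal (fun i => ζ * d i)) :
    D ∈ Subgroup.normalizer (R : Set (GL (Fin 3) F)) := by
  choose a ha ha' using fun i => hν.eq_pow_of_pow_eq_one (hd i)
  refine s.mem_normalizer D ?_ ?_
  · have : D * s.A * D⁻¹ = s.A := by
      rw [mul_inv_eq_iff_eq_mul]
      apply Units.ext
      rw [Units.val_mul, Units.val_mul, hD, s.hA, pows, Matrix.diagonal_mul_diagonal,
        Matrix.diagonal_mul_diagonal]
      simp [mul_comm]
    rw [this]; exact s.mA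
  · let u := a 0 + 2 * a 2
    let w := a 1 + 2 * a 0 + 2 * u
    have : D * s.B * D⁻¹ = s.Z ^ u * s.A ^ w * s.B := by
      rw [mul_inv_eq_iff_eq_mul]
      apply Units.ext
      have hAw : ((pows ν : M3)) ^ w = Matrix.diagonal (fun i : Fin 3 => (ν ^ (i : ℕ)) ^ w) := by
        rw [pows, Matrix.diagonal_pow]; rfl
      simp only [Units.val_mul, Units.val_pow_eq_pow_val, hD, s.hA, s.hB, s.hZ, hAw,
        smul_pow, one_pow, Matrix.smul_mul, one_mul]
      rw [mul_assoc, shift_diag, ← mul_assoc, Matrix.diagonal_mul_diagonal, ← Matrix.smul_mul,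
        ← Matrix.diagonal_smul]
      congr 2
      funext i
      simp only [Pi.smul_apply, smul_eq_mul, ← ha']
      rw [← pow_mul, ← mul_assoc, ← pow_add]
      have key : ν ^ (a i) = ν ^ (u + (i : ℕ) * w) * ν ^ (a (i + 2)) := by
        rw [← pow_add]
        apply pow_congr3 hν
        simp only [u, w]
        fin_cases i
        · simp; omega
        · show a 1 % 3 = (_ + 1 * _ + a 0) % 3
          omega
        · show a 2 % 3 = (_ + 2 * _ + a 1) % 3
          omega
      rw [key]; ring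
    rw [this]
    exact mul_mem (mul_mem (pow_mem s.mZ _) (pow_mem s.mA _)) s.mB

theorem swap_mem_normalizer [Finite F] {R : Subgroup (GL (Fin 3) F)} {ν : F}
    (hν : IsPrimitiveRoot ν 3) (s : Std R ν) (D : GL (Fin 3) F) (c : F)
    (hD : (D : M3) = c • !![-1, 0, 0; 0, 0, -1; 0, -1, 0]) :
    D ∈ Subgroup.normalizer (R : Set (GL (Fin 3) F)) := by
  have h3 := hν.pow_eq_one
  refine s.mem_normalizer D ?_ ?_
  · have : D * s.A * D⁻¹ = s.A * s.A := by
      rw [mul_inv_eq_iff_eq_mul]
      apply Units.ext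
      simp only [Units.val_mul, hD, s.hA, Matrix.smul_mul, Matrix.mul_smul]
      congr 1
      ext i j
      fin_cases i <;> fin_cases j <;> simp [pows, Matrix.mul_apply, Fin.sum_univ_three] <;> grind
    rw [this]; exact mul_mem s.mA s.mA
  · have : D * s.B * D⁻¹ = s.B * s.B := by
      rw [mul_inv_eq_iff_eq_mul]
      apply Units.ext
      simp only [Units.val_mul, hD, s.hB, Matrix.smul_mul, Matrix.mul_smul]
      congr 1
      ext i j
      fin_cases i <;> fin_cases j <;> simp [shift, Matrix.mul_apply, Fin.sum_univ_three]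
    rw [this]; exact mul_mem s.mB s.mB

theorem gl3_arith : ∀ p : ZMod 243, (p.val % 9 = 4 ∨ p.val % 9 = 7) →
    (p ^ 3 - 1) * (p ^ 3 - p) * (p ^ 3 - p ^ 2) ≠ 0 := by
  decide +kernel

theorem nine_of_index [Fintype F] {p : ℕ} (hF : Fintype.card F = p) (hp3 : p % 3 = 1)
    (R : Subgroup (GL (Fin 3) F)) (hR : Nat.card R = 27) (hdet : R ≤ Cfsg.Geo.specialLinear (Fin 3) F)
    (hdvd : 3 ∣ (Cfsg.Geo.subgroupNormalizer R).relIndex (Cfsg.Geo.specialLinear (Fin 3) F)) :
    p % 9 = 1 := by
  classical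
  by_contra hne
  set S := Cfsg.Geo.specialLinear (Fin 3) F
  set N := Cfsg.Geo.subgroupNormalizer R
  have h81 : 81 ∣ Nat.card S := by
    rw [← Subgroup.card_mul_index (N.subgroupOf S), mul_comm]
    have h27 : 27 ∣ Nat.card (N.subgroupOf S) := by
      rw [← hR, ← Nat.card_congr (Subgroup.subgroupOfEquivOfLe hdet).toEquiv]
      exact Subgroup.card_dvd_of_le fun u hu =>
        Subgroup.mem_subgroupOf.2 (Subgroup.le_normalizer (Subgroup.mem_subgroupOf.1 hu))
    exact (show 81 = 3 * 27 by norm_num) ▸ Nat.mul_dvd_mul hdvd h27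
  have hGL : Nat.card (GL (Fin 3) F) = Nat.card S * (p - 1) := by
    have hsurj : Function.Surjective (Matrix.GeneralLinearGroup.det : GL (Fin 3) F →* Fˣ) := fun u => by
      refine ⟨Matrix.GeneralLinearGroup.mkOfDetNeZero (Matrix.diagonal ![(u : F), 1, 1]) ?_, ?_⟩
      · simp [Matrix.det_diagonal, Fin.prod_univ_three]
      · apply Units.ext
        simp [Matrix.GeneralLinearGroup.mkOfDetNeZero, Matrix.det_diagonal, Fin.prod_univ_three]
    rw [← Subgroup.card_mul_index S, show S = (Matrix.GeneralLinearGroup.det : GL (Fin 3) F →* Fˣ).ker from rfl,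
      Subgroup.index_ker, MonoidHom.range_eq_top.2 hsurj, Subgroup.card_top, Nat.card_units,
      Nat.card_eq_fintype_card (α := F), hF]
  have h243 : 243 ∣ Nat.card (GL (Fin 3) F) := by
    rw [hGL, show 243 = 81 * 3 from rfl]
    exact Nat.mul_dvd_mul h81 (by omega)
  rw [Matrix.card_GL_field, Fin.prod_univ_three] at h243
  simp only [Fintype.card_fin, hF] at h243
  have hp1 : 1 ≤ p := by omega
  have hz : ((p : ZMod 243) ^ 3 - 1) * ((p : ZMod 243) ^ 3 - p) * ((p : ZMod 243) ^ 3 - (p : ZMod 243) ^ 2) = 0 := by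
    have := (ZMod.natCast_eq_zero_iff _ 243).2 h243
    simpa [Nat.cast_sub, Nat.one_le_pow _ _ hp1, Nat.pow_le_pow_right hp1 (by norm_num : 2 ≤ 3),
      Nat.le_self_pow] using this
  refine gl3_arith (p : ZMod 243) ?_ hz
  rw [ZMod.val_natCast, Nat.mod_mod_of_dvd p (by norm_num : 9 ∣ 243)]
  omega



/-- Elements of prime order of PSL_3(p), p ≡ 1 (mod 3), and the normalizer of an extraspecial subgroup of order 27. Here `T = PSL_3(F)` for the field `F` with `p` elements, `p` a prime with `p ≡ 1 (mod 3)`; `R` is a non-abelian subgroup of GL_3(F) of order 27 and exponent 3 (an extraspecial group 3^{1+2}, acting absolutely irreducibly), and `H` is the subgroup of matrices of determinant 1 normalizing `R` — a subgroup of type 3^{1+2}.Sp₂(3) (maximality is not assumed). Ω is the set of cosets of `H` in `T`, so an element of `T` of prime order `r` (a matrix `x` of determinant 1 with `x^r` scalar, `x` not scalar) fixes a point of Ω exactly when some conjugate of `x` by a matrix of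 determinant 1 normalizes `R`. Let `r` be a prime dividing the index of `H`. Then every element of `T` of order `r` fixes a point of Ω if and only if `r = 2`, or `r = 3` and `p ≡ 1 (mod 9)`. -/
theorem result {F : Type*} [Field F] [Fintype F] {p : ℕ} [Fact p.Prime] [CharP F p] (hF : Fintype.card F = p) (hp3 : p % 3 = 1)
    (R : Subgroup (GL (Fin 3) F)) (hR : Nat.card R = 27) (hRe : Monoid.exponent R = 3) (hRna : ¬ IsMulCommutative R)
    (r : ℕ) [Fact r.Prime]
    (hΩ : r ∣ (Cfsg.Geo.subgroupNormalizer R).relIndex (Cfsg.Geo.specialLinear (Fin 3) F)) :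
    (∀ x ∈ Cfsg.Geo.specialLinear (Fin 3) F, (∃ z : F, ((x ^ r : GL (Fin 3) F) : Matrix (Fin 3) (Fin 3) F) = z • (1 : Matrix (Fin 3) (Fin 3) F)) →
      (∀ z : F, (x : Matrix (Fin 3) (Fin 3) F) ≠ z • (1 : Matrix (Fin 3) (Fin 3) F)) →
      ∃ g ∈ Cfsg.Geo.specialLinear (Fin 3) F, g⁻¹ * x * g ∈ Cfsg.Geo.subgroupNormalizer R) ↔ (r = 2 ∨ (r = 3 ∧ p % 9 = 1)) := by
  classical
  have hp5 : 5 ≤ p := by
    have h2 := (Fact.out : p.Prime).two_le
    rcases Nat.lt_or_ge p 5 with h | h
    · interval_cases p <;> first | omega | exact absurd (Fact.out : Nat.Prime 4) (by norm_num)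
    · exact h
  have hcast : ∀ k : ℕ, 0 < k → k < p → (k : F) ≠ 0 := fun k h0 h1 h => by
    rw [CharP.cast_eq_zero_iff F p] at h
    have := Nat.le_of_dvd h0 h; omega
  have h2 : (2 : F) ≠ 0 := by exact_mod_cast hcast 2 two_pos (by omega)
  have h3 : (3 : F) ≠ 0 := by exact_mod_cast hcast 3 three_pos (by omega)
  have hun : Nat.card Fˣ = p - 1 := by rw [Nat.card_units, Nat.card_eq_fintype_card, hF]
  obtain ⟨μ, hμ⟩ : ∃ μ : F, IsPrimitiveRoot μ 3 := by
    haveI : Fact (Nat.Prime 3) := ⟨Nat.prime_three⟩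
    obtain ⟨u, hu⟩ := exists_prime_orderOf_dvd_card' (G := Fˣ) 3 (by rw [hun]; omega)
    exact ⟨u, IsPrimitiveRoot.coe_units_iff.2 (hu ▸ IsPrimitiveRoot.orderOf u)⟩
  obtain ⟨ν, P, hν, ⟨s⟩⟩ := exists_std hμ h3 R hR hRe hRna
  set R' := R.map (MulAut.conj P⁻¹).toMonoidHom with hR'def
  have hR' : Nat.card R' = 27 := by
    rw [← hR]; exact (Nat.card_congr (R.equivMapOfInjective _ (MulAut.conj P⁻¹).injective).toEquiv).symm
  set S := Cfsg.Geo.specialLinear (Fin 3) F with hSdef
  haveI hSn : S.Normal := by rw [hSdef]; exact MonoidHom.normal_ker _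
  have hRS : R ≤ S := by
    have h' : R' ≤ S := by
      rw [s.gen, Subgroup.closure_le]
      rintro u (rfl | rfl)
      · rw [SetLike.mem_coe, hSdef, Cfsg.Geo.specialLinear, MonoidHom.mem_ker]
        apply Units.ext
        rw [Matrix.GeneralLinearGroup.val_det_apply, s.hA]
        simp [pows, Matrix.det_diagonal, Fin.prod_univ_three, ← pow_succ, hν.pow_eq_one, ← pow_succ']
      · rw [SetLike.mem_coe, hSdef, Cfsg.Geo.specialLinear, MonoidHom.mem_ker]
        apply Units.ext
        rw [Matrix.GeneralLinearGroup.val_det_apply, s.hB]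
        simp [shift, Matrix.det_fin_three]
    intro u hu
    have hh := h' ⟨u, hu, rfl⟩
    have := hSn.conj_mem _ hh P
    simpa [MulAut.conj_apply, mul_assoc] using this
  have hdet : ∀ x ∈ S, ((x : GL (Fin 3) F) : Matrix (Fin 3) (Fin 3) F).det = 1 := fun x hx => by
    rw [← Matrix.GeneralLinearGroup.val_det_apply, (MonoidHom.mem_ker).1 hx, Units.val_one]
  constructor
  · intro H
    rcases eq_or_ne r 2 with rfl | hr2
    · exact Or.inl rfl
    rcases eq_or_ne r 3 with rfl | hr3
    · exact Or.inr ⟨rfl, nine_of_index hF hp3 R hR hRS hΩ⟩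
    exfalso
    have hrp : r.Prime := Fact.out
    have h5 : 5 ≤ r := by
      have := hrp.two_le
      rcases eq_or_ne r 4 with rfl | h4
      · exact absurd hrp (by norm_num)
      · omega
    have hdvd : r ∣ Nat.card S := hΩ.trans (Subgroup.index_dvd_card _)
    obtain ⟨x, hx⟩ := exists_prime_orderOf_dvd_card' r hdvd
    have hxr : ((x : GL (Fin 3) F)) ^ r = 1 := by
      rw [← Subgroup.coe_pow, ← hx, pow_orderOf_eq_one, Subgroup.coe_one]
    have hns : ∀ z : F, ((x : GL (Fin 3) F) : Matrix (Fin 3) (Fin 3) F) ≠ z • (1 : Matrix (Fin 3) (Fin 3) F) := by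
      intro z hz
      have hd := hdet _ x.2
      rw [hz, Matrix.det_smul, Matrix.det_one, Fintype.card_fin, mul_one] at hd
      have hx3 : x ^ 3 = 1 := by
        apply Subtype.ext
        apply Units.ext
        rw [Subgroup.coe_pow, Units.val_pow_eq_pow_val, hz, smul_pow, hd, one_pow, one_smul]
        rfl
      have := Nat.le_of_dvd three_pos (hx ▸ orderOf_dvd_of_pow_eq_one hx3)
      omega
    obtain ⟨g, hg, hgN⟩ := H x x.2 ⟨1, by rw [hxr]; simp⟩ hns
    set y := MulAut.conj P⁻¹ (g⁻¹ * (x : GL (Fin 3) F) * g) with hy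
    have hyN : y ∈ Subgroup.normalizer (R' : Set (GL (Fin 3) F)) := (mem_conj_normalizer R P _).2 hgN
    have hyr : y ^ r = 1 := by
      rw [hy, ← map_pow, show g⁻¹ * (x : GL (Fin 3) F) * g = g⁻¹ * (x : GL (Fin 3) F) * g⁻¹⁻¹ by rw [inv_inv],
        conj_pow, hxr]
      simp
    have hs := scalar_of_prime_pow hR' hν s h5 y hyN hyr
    apply hns ((y : Matrix (Fin 3) (Fin 3) F) 0 0)
    have hxy : (x : GL (Fin 3) F) = g * P * y * (g * P)⁻¹ := by
      rw [hy, MulAut.conj_apply]; group
    conv_lhs => rw [hxy, Units.val_mul, Units.val_mul (g * P) y, hs, Matrix.mul_smul, mul_one, Matrix.smul_mul,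
      Units.mul_inv]
  · intro hr x hx ⟨z, hz⟩ hns
    suffices ∃ g ∈ S, g⁻¹ * MulAut.conj P⁻¹ x * g ∈ Subgroup.normalizer (R' : Set (GL (Fin 3) F)) by
      obtain ⟨g, hg, hgN⟩ := this
      refine ⟨P * g * P⁻¹, hSn.conj_mem g hg P, (mem_conj_normalizer R P _).1 ?_⟩
      convert hgN using 1
      simp only [MulAut.conj_apply]; group
    set x' := MulAut.conj P⁻¹ x with hx'
    have hx'S : x' ∈ S := by
      rw [hx', MulAut.conj_apply]; exact hSn.conj_mem x hx _
    have hz' : ((x' ^ r : GL (Fin 3) F) : Matrix (Fin 3) (Fin 3) F) = z • (1 : Matrix (Fin 3) (Fin 3) F) := by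
      rw [hx', ← map_pow, MulAut.conj_apply, Units.val_mul, Units.val_mul, hz, Matrix.mul_smul, Matrix.smul_mul,
        mul_one, Units.mul_inv]
    have hns' : ∀ t : F, (x' : Matrix (Fin 3) (Fin 3) F) ≠ t • (1 : Matrix (Fin 3) (Fin 3) F) := by
      intro t ht
      apply hns t
      have : x = P * x' * P⁻¹ := by rw [hx', MulAut.conj_apply]; group
      rw [this, Units.val_mul, Units.val_mul, ht, Matrix.mul_smul, mul_one, Matrix.smul_mul, Units.mul_inv]
    rw [Units.val_pow_eq_pow_val] at hz'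
    have hz3 : z ^ 3 = 1 := by
      have := congrArg Matrix.det hz'
      rw [Matrix.det_pow, hdet _ hx'S, one_pow, Matrix.det_smul, Matrix.det_one, Fintype.card_fin, mul_one] at this
      exact this.symm
    rcases hr with rfl | ⟨rfl, hp9⟩
    · -- involutions modulo scalars
      set M : Matrix (Fin 3) (Fin 3) F := z • (x' : Matrix (Fin 3) (Fin 3) F) with hM
      have hM2 : M ^ 2 = 1 := by
        rw [hM, smul_pow, hz', smul_smul, ← pow_succ, hz3, one_smul]
      obtain ⟨Q, d, hd, hQ⟩ := exists_diagonal (n := 2) (by exact_mod_cast h2)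
        (IsPrimitiveRoot.mk_of_lt (-1 : F) two_pos (by ring)
          (fun l hl0 hl2 => by
            obtain rfl : l = 1 := by omega
            rw [pow_one]
            intro h
            exact h2 (by linear_combination -h))) M hM2
      have hxM : (x' : Matrix (Fin 3) (Fin 3) F) = z ^ 2 • M := by
        rw [hM, smul_smul, ← pow_succ, hz3, one_smul]
      have hprod : d 0 * d 1 * d 2 = 1 := by
        have hdM : M.det = 1 := by
          rw [hM, Matrix.det_smul, hdet _ hx'S, Fintype.card_fin, hz3, mul_one]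
        have := congrArg Matrix.det hQ
        rw [Matrix.det_mul, Matrix.det_mul, hdM, one_mul, Matrix.det_diagonal, Fin.prod_univ_three] at this
        exact (mul_left_cancel₀ ((Matrix.isUnit_iff_isUnit_det _).1 Q.isUnit).ne_zero
          (by rw [mul_one]; exact this)).symm
      have hd' : ∀ i, d i = 1 ∨ d i = -1 := fun i => sq_eq_one_iff.1 (hd i)
      obtain ⟨σ, hσ⟩ : ∃ σ : Equiv.Perm (Fin 3), d ∘ σ = ![1, -1, -1] := by
        have hne : ¬ (d 0 = 1 ∧ d 1 = 1 ∧ d 2 = 1) := by
          rintro ⟨e0, e1, e2⟩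
          apply hns' (z ^ 2)
          have : Matrix.diagonal d = (1 : Matrix (Fin 3) (Fin 3) F) := by
            rw [show d = fun _ => 1 by funext i; fin_cases i <;> assumption]; exact Matrix.diagonal_one
          rw [this, mul_one] at hQ
          rw [hxM]
          congr 1
          calc M = M * ((Q : Matrix (Fin 3) (Fin 3) F) * ((Q⁻¹ : GL (Fin 3) F) : Matrix (Fin 3) (Fin 3) F)) := by
                rw [Units.mul_inv, mul_one]
            _ = 1 := by rw [← mul_assoc, hQ, Units.mul_inv]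
        rcases hd' 0 with e0 | e0 <;> rcases hd' 1 with e1 | e1 <;> rcases hd' 2 with e2 | e2
        all_goals first
          | (refine absurd ?_ hne; refine ⟨?_, ?_, ?_⟩ <;> assumption)
          | (exfalso; rw [e0, e1, e2] at hprod; exact h2 (by linear_combination -hprod))
          | (refine ⟨Equiv.refl _, ?_⟩; funext i; fin_cases i <;> simp [e0, e1, e2] <;> done)
          | (refine ⟨Equiv.swap 0 1, ?_⟩; funext i; fin_cases i <;> simp [e0, e1, e2, Equiv.swap_apply_def] <;> done)
          | (refine ⟨Equiv.swap 0 2, ?_⟩; funext i; fin_cases i <;> simp [e0, e1, e2, Equiv.swap_apply_def] <;> done)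
      obtain ⟨Q1, hQ1⟩ := diag_perm Q hQ σ
      rw [hσ] at hQ1
      have hz0 : z ≠ 0 := fun h => by simp [h] at hz3
      let Δv : Fin 3 → F := fun i => z ^ 2 * ![1, -1, -1] i
      let Δ : GL (Fin 3) F := Matrix.GeneralLinearGroup.mkOfDetNeZero (Matrix.diagonal Δv)
        (by simp [Δv, Matrix.det_diagonal, Fin.prod_univ_three, hz0])
      have hzd : z ^ 2 • Matrix.diagonal ![(1 : F), -1, -1] = Matrix.diagonal Δv := by
        rw [← Matrix.diagonal_smul]; rfl
      obtain ⟨g1, hg1, hg1'⟩ := exists_sl_conj_diag x' Δ Δv rfl Q1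
        (by rw [hxM, Matrix.smul_mul, hQ1, ← Matrix.mul_smul, hzd])
      let Tm : Matrix (Fin 3) (Fin 3) F := !![-1, 0, 0; 0, 0, -1; 0, -1, 0]
      let D : GL (Fin 3) F := Matrix.GeneralLinearGroup.mkOfDetNeZero (z ^ 2 • Tm)
        (by simp [Tm, Matrix.det_smul, Matrix.det_fin_three, hz0])
      let P2 : GL (Fin 3) F := Matrix.GeneralLinearGroup.mkOfDetNeZero !![0, 1, 0; 1, 0, 1; -1, 0, 1]
        (by
          simp [Matrix.det_fin_three]
          intro h
          exact h2 (by linear_combination -h))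
      obtain ⟨g2, hg2, hg2'⟩ := exists_sl_conj_diag D Δ Δv rfl P2
        (by
          show (z ^ 2 • Tm) * _ = _
          rw [Matrix.smul_mul, ← hzd, Matrix.mul_smul]
          congr 1
          ext i j
          fin_cases i <;> fin_cases j <;>
            simp [Tm, P2, Matrix.GeneralLinearGroup.mkOfDetNeZero, Matrix.mul_apply, Fin.sum_univ_three])
      refine ⟨g1 * g2⁻¹, mul_mem hg1 (inv_mem hg2), ?_⟩
      have : (g1 * g2⁻¹)⁻¹ * x' * (g1 * g2⁻¹) = D := by
        calc _ = g2 * (g1⁻¹ * x' * g1) * g2⁻¹ := by group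
          _ = D := by rw [hg1', ← hg2']; group
      rw [this]
      exact swap_mem_normalizer hν s D (z ^ 2) rfl
    · -- elements of order three modulo scalars
      obtain ⟨ε, hε⟩ : ∃ ε : F, IsPrimitiveRoot ε 9 := by
        obtain ⟨g, hg⟩ := IsCyclic.exists_generator (α := Fˣ)
        have hog : orderOf g = p - 1 := by
          rw [← hun]; exact orderOf_eq_card_of_forall_mem_zpowers hg
        have hd9 : 9 ∣ p - 1 := by omega
        exact ⟨((g ^ ((p - 1) / 9) : Fˣ) : F), IsPrimitiveRoot.coe_units_iff.2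
          ((hog ▸ IsPrimitiveRoot.orderOf g).pow (by omega) (Nat.div_mul_cancel hd9).symm)⟩
      have hε3 : IsPrimitiveRoot (ε ^ 3) 3 := hε.pow (by norm_num) (by norm_num)
      obtain ⟨k, -, hk⟩ := hε3.eq_pow_of_pow_eq_one hz3
      set ζ := ε ^ k with hζ
      have hζ3 : ζ ^ 3 = z := by rw [hζ, ← pow_mul, mul_comm, pow_mul, hk]
      have hζ0 : ζ ≠ 0 := pow_ne_zero _ (hε.ne_zero (by norm_num))
      have hy : (ζ⁻¹ • (x' : Matrix (Fin 3) (Fin 3) F)) ^ 3 = 1 := by
        rw [smul_pow, hz', smul_smul, inv_pow, hζ3, inv_mul_cancel₀ (by rw [← hζ3]; exact pow_ne_zero _ hζ0),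
          one_smul]
      obtain ⟨Q, d, hd, hQ⟩ := exists_diagonal (n := 3) (by exact_mod_cast h3) hμ _ hy
      have hd0 : ∀ i, d i ≠ 0 := fun i h => by simpa [h] using hd i
      let D : GL (Fin 3) F := Matrix.GeneralLinearGroup.mkOfDetNeZero (Matrix.diagonal fun i => ζ * d i)
        (by simp [Matrix.det_diagonal, Fin.prod_univ_three, hζ0, hd0])
      obtain ⟨g, hg, hg'⟩ := exists_sl_conj_diag x' D _ rfl Q (by
        rw [show (fun i => ζ * d i) = ζ • d from rfl, Matrix.diagonal_smul, Matrix.mul_smul, ← hQ,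
          ← Matrix.smul_mul, smul_smul, mul_inv_cancel₀ hζ0, one_smul])
      exact ⟨g, hg, hg' ▸ diag_mem_normalizer hν s D ζ d hd rfl⟩

end Cfsg.Agent.S5998
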