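import Cfsg.Statements.S5999
import Cfsg.Agent.S5998
import Cfsg.Agent.S2587
import Cfsg.Agent.Lib.Classical.Unitary
import Cfsg.Agent.Lib.UnitaryConj

set_option autoImplicit false
open scoped MatrixGroups
open Cfsg

namespace Cfsg.Agent.S5999

open Matrix Cfsg.Agent.Lib.Three
open Cfsg.Agent.Lib.UnitaryConj (qHom tstar tstar_mul tstar_smul tstar_one tstar_tstar mem_GU_iff)

universe v
variable {F : Type v} [Field F] [Fintype F] {p : ℕ}

local notation "M3" => Matrix (Fin 3) (Fin 3) F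

theorem gu_arith : ∀ p : ZMod 243, (p.val % 9 = 2 ∨ p.val % 9 = 5) →
    p ^ 3 * ((p + 1) * (p ^ 2 - 1) * (p ^ 3 + 1)) ≠ 0 := by
  decide +kernel

theorem mem_SU_iff {g : GL (Fin 3) F} (q : ℕ) :
    g ∈ Cfsg.GU 3 F q ⊓ Cfsg.Geo.specialLinear (Fin 3) F ↔ g ∈ Cfsg.GU 3 F q ∧ (g : M3).det = 1 := by
  rw [Subgroup.mem_inf, Cfsg.Geo.specialLinear, MonoidHom.mem_ker, ← Units.val_eq_one,
    Matrix.GeneralLinearGroup.val_det_apply]

theorem nine_of_index (hF : Fintype.card F = p ^ 2) (hp : 5 ≤ p) (hp3 : p % 3 = 2)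
    (R : Subgroup (GL (Fin 3) F)) (hR : Nat.card R = 27)
    (hRS : R ≤ Cfsg.GU 3 F p ⊓ Cfsg.Geo.specialLinear (Fin 3) F)
    (hdvd : 3 ∣ (Cfsg.Geo.subgroupNormalizer R).relIndex (Cfsg.GU 3 F p ⊓ Cfsg.Geo.specialLinear (Fin 3) F)) :
    p % 9 = 8 := by
  classical
  by_contra hne
  set S := Cfsg.GU 3 F p ⊓ Cfsg.Geo.specialLinear (Fin 3) F with hS
  set N := Cfsg.Geo.subgroupNormalizer R
  have h81 : 81 ∣ Nat.card S := by
    rw [← Subgroup.card_mul_index (N.subgroupOf S), mul_comm]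
    have h27 : 27 ∣ Nat.card (N.subgroupOf S) := by
      rw [← hR, ← Nat.card_congr (Subgroup.subgroupOfEquivOfLe hRS).toEquiv]
      exact Subgroup.card_dvd_of_le fun u hu =>
        Subgroup.mem_subgroupOf.2 (Subgroup.le_normalizer (Subgroup.mem_subgroupOf.1 hu))
    exact (show 81 = 3 * 27 by norm_num) ▸ Nat.mul_dvd_mul hdvd h27
  have hSU : Nat.card S = Nat.card (Cfsg.SU 3 F p) := by
    rw [← Cfsg.Agent.Lib.Classical.Herm.card_ker_detGU,
      show (Cfsg.Agent.Lib.Classical.Herm.detGU 3 F p).ker =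
        (Cfsg.Geo.specialLinear (Fin 3) F).subgroupOf (Cfsg.GU 3 F p) from rfl, hS, inf_comm,
      ← Nat.card_congr (Subgroup.subgroupOfEquivOfLe (inf_le_right :
        Cfsg.Geo.specialLinear (Fin 3) F ⊓ Cfsg.GU 3 F p ≤ Cfsg.GU 3 F p)).toEquiv,
      Subgroup.inf_subgroupOf_right]
  have h243 : 243 ∣ Nat.card (Cfsg.GU 3 F p) := by
    rw [← Cfsg.Agent.Lib.Classical.Herm.card_SU hF (by norm_num : 1 ≤ 3), ← hSU, show 243 = 3 * 81 from rfl]
    exact Nat.mul_dvd_mul (by omega) h81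
  rw [Cfsg.Agent.Lib.Classical.Herm.card_GU hF 3] at h243
  have h243' : 243 ∣ p ^ 3 * ((p + 1) * (p ^ 2 - 1) * (p ^ 3 + 1)) := by
    simpa [Finset.prod_range_succ, Nat.even_iff] using h243
  have hp1 : 1 ≤ p := by omega
  have hz : (p : ZMod 243) ^ 3 * (((p : ZMod 243) + 1) * ((p : ZMod 243) ^ 2 - 1) * ((p : ZMod 243) ^ 3 + 1)) = 0 := by
    have := (ZMod.natCast_eq_zero_iff _ 243).2 h243'
    simpa [Nat.cast_sub, Nat.one_le_pow _ _ hp1] using this
  refine gu_arith (p : ZMod 243) ?_ hz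
  rw [ZMod.val_natCast, Nat.mod_mod_of_dvd p (by norm_num : 9 ∣ 243)]
  omega

theorem exists_norm (hF : Fintype.card F = p ^ 2) (hp : 5 ≤ p) {c : F} (hc : c ≠ 0) (hcp : c ^ p = c) :
    ∃ s : F, s ^ (p + 1) = c := by
  obtain ⟨g, hg⟩ := IsCyclic.exists_generator (α := Fˣ)
  have hog : orderOf g = (p + 1) * (p - 1) := by
    rw [orderOf_eq_card_of_forall_mem_zpowers hg, Nat.card_units, Nat.card_eq_fintype_card, hF,
      ← Nat.sq_sub_sq p 1, one_pow]
  obtain ⟨k, hk⟩ := Subgroup.mem_zpowers_iff.1 (hg (Units.mk0 c hc))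
  have h1 : (Units.mk0 c hc) ^ (p - 1) = 1 := by
    apply Units.ext
    rw [Units.val_pow_eq_pow_val, Units.val_mk0, Units.val_one]
    apply mul_left_cancel₀ hc
    rw [← pow_succ', Nat.sub_add_cancel (by omega : 1 ≤ p), hcp, mul_one]
  rw [← hk, ← zpow_natCast, ← _root_.zpow_mul, ← orderOf_dvd_iff_zpow_eq_one, hog] at h1
  push_cast at h1
  obtain ⟨j, hj⟩ := (mul_dvd_mul_iff_right (by omega : ((p - 1 : ℕ) : ℤ) ≠ 0)).1 h1
  refine ⟨((g ^ j : Fˣ) : F), ?_⟩
  rw [← Units.val_pow_eq_pow_val, ← zpow_natCast, ← _root_.zpow_mul, mul_comm, Nat.cast_add, Nat.cast_one, ← hj,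
    hk, Units.val_mk0]

theorem exists_su_conj_diag (hF : Fintype.card F = p ^ 2) (x D : GL (Fin 3) F) (d : Fin 3 → F)
    (hx : x ∈ Cfsg.GU 3 F p) (hd : ∀ i, d i ^ (p + 1) = 1)
    (hD : (D : M3) = Matrix.diagonal d) (P : GL (Fin 3) F)
    (hP : (x : M3) * P = P * Matrix.diagonal d) :
    ∃ g ∈ Cfsg.GU 3 F p ⊓ Cfsg.Geo.specialLinear (Fin 3) F, g⁻¹ * x * g = D := by
  have hDU : D ∈ Cfsg.GU 3 F p := by
    obtain ⟨D', hD', hDd⟩ := Cfsg.Agent.Lib.Classical.Herm.exists_diag hF d hd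
    rwa [show D = D' from Units.ext (hD.trans hDd.symm)]
  have hgl : IsConj x D := by
    rw [isConj_iff]
    refine ⟨P⁻¹, ?_⟩
    rw [inv_inv, mul_assoc, inv_mul_eq_iff_eq_mul]
    apply Units.ext
    rw [Units.val_mul, Units.val_mul, hD, hP]
  obtain ⟨c, hc⟩ := isConj_iff.1 ((Cfsg.Agent.S2587.result hF ⟨x, hx⟩ ⟨D, hDU⟩).2 hgl)
  set g0 : GL (Fin 3) F := ((c⁻¹ : Cfsg.GU 3 F p) : GL (Fin 3) F) with hg0
  have hg0U : g0 ∈ Cfsg.GU 3 F p := (c⁻¹).2
  have h0 : g0⁻¹ * x * g0 = D := by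
    have := congrArg Subtype.val hc
    simpa [hg0] using this
  set δ := (g0 : M3).det with hδ
  have hδn : δ ^ (p + 1) = 1 := Cfsg.Agent.Lib.Classical.Herm.det_norm hF hg0U
  obtain ⟨U, hU, hUd⟩ := Cfsg.Agent.Lib.Classical.Herm.exists_diag hF
    (Function.update 1 (0 : Fin 3) δ⁻¹) (fun i => by
      rcases eq_or_ne i 0 with rfl | h
      · rw [Function.update_self, inv_pow, hδn, inv_one]
      · simp [h])
  refine ⟨g0 * U, (mem_SU_iff p).2 ⟨mul_mem hg0U hU, ?_⟩, ?_⟩
  · have hδ0 : δ ≠ 0 := fun h => by simp [h] at hδn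
    rw [Units.val_mul, Matrix.det_mul, hUd, Matrix.det_diagonal,
      Finset.prod_update_of_mem (Finset.mem_univ _), ← hδ]
    simp [hδ0]
  · rw [show (g0 * U)⁻¹ * x * (g0 * U) = U⁻¹ * (g0⁻¹ * x * g0) * U by group, h0, mul_assoc,
      inv_mul_eq_iff_eq_mul]
    apply Units.ext
    rw [Units.val_mul, Units.val_mul, hD, hUd, Matrix.diagonal_mul_diagonal, Matrix.diagonal_mul_diagonal]
    simp [mul_comm]



/-- Elements of prime order of PSU_3(p), p ≡ 2 (mod 3), and the normalizer of an extraspecial subgroup of order 27. Here `T = PSU_3(p)` for a prime `p ≥ 5` with `p ≡ 2 (mod 3)`, realised through `SU_3(p)`, the matrices of determinant 1 over the field `F` with `p²` elements preserving the hermitian form `Σ uᵢvᵢ^p`; `R` is a non-abelian subgroup of order 27 and exponent 3 of the full unitary group of that form (an extraspecial group 3^{1+2}, acting absolutely irreducibly), and `H` is the subgroup of `SU_3(p)` normalizing `R` — a subgroup of type 3^{1+2}.Sp₂(3)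 (maximality is not assumed). Ω is the set of cosets of `H`, so an element of `T` of prime order `r` (`x ∈ SU_3(p)` with `x^r` scalar, `x` not scalar) fixes a point of Ω exactly when some `SU_3(p)`-conjugate of `x` normalizes `R`. Let `r` be a prime dividing the index of `H`. Then every element of `T` of order `r` fixes a point of Ω if and only if `r = 2`, or `r = 3` and `p ≡ 8 (mod 9)`. -/
theorem result {F : Type*} [Field F] [Fintype F] {p : ℕ} [Fact p.Prime] [CharP F p] (hF : Fintype.card F = p ^ 2) (hp : 5 ≤ p) (hp3 : p % 3 = 2)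
    (R : Subgroup (GL (Fin 3) F)) (hRU : R ≤ Cfsg.GU 3 F p) (hR : Nat.card R = 27) (hRe : Monoid.exponent R = 3) (hRna : ¬ IsMulCommutative R)
    (r : ℕ) [Fact r.Prime]
    (hΩ : r ∣ (Cfsg.Geo.subgroupNormalizer R).relIndex (Cfsg.GU 3 F p ⊓ Cfsg.Geo.specialLinear (Fin 3) F)) :
    (∀ x ∈ Cfsg.GU 3 F p ⊓ Cfsg.Geo.specialLinear (Fin 3) F, (∃ z : F, ((x ^ r : GL (Fin 3) F) : Matrix (Fin 3) (Fin 3) F) = z • (1 : Matrix (Fin 3) (Fin 3) F)) →
      (∀ z : F, (x : Matrix (Fin 3) (Fin 3) F) ≠ z • (1 : Matrix (Fin 3) (Fin 3) F)) →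
      ∃ g ∈ Cfsg.GU 3 F p ⊓ Cfsg.Geo.specialLinear (Fin 3) F, g⁻¹ * x * g ∈ Cfsg.Geo.subgroupNormalizer R) ↔ (r = 2 ∨ (r = 3 ∧ p % 9 = 8)) := by
  classical
  have hcast : ∀ k : ℕ, 0 < k → k < p → (k : F) ≠ 0 := fun k h0 h1 h => by
    rw [CharP.cast_eq_zero_iff F p] at h
    have := Nat.le_of_dvd h0 h; omega
  have h2 : (2 : F) ≠ 0 := by exact_mod_cast hcast 2 two_pos (by omega)
  have h3 : (3 : F) ≠ 0 := by exact_mod_cast hcast 3 three_pos (by omega)
  have heven : Even (p + 1) := by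
    have := (Fact.out : p.Prime).odd_of_ne_two (by omega)
    rw [Nat.odd_iff] at this
    rw [Nat.even_iff]; omega
  have hun : Nat.card Fˣ = p ^ 2 - 1 := by rw [Nat.card_units, Nat.card_eq_fintype_card, hF]
  have hsq : p ^ 2 - 1 = (p + 1) * (p - 1) := by rw [← Nat.sq_sub_sq p 1, one_pow]
  obtain ⟨μ, hμ⟩ : ∃ μ : F, IsPrimitiveRoot μ 3 := by
    haveI : Fact (Nat.Prime 3) := ⟨Nat.prime_three⟩
    obtain ⟨u, hu⟩ := exists_prime_orderOf_dvd_card' (G := Fˣ) 3
      (by rw [hun, hsq]; exact Dvd.dvd.mul_right (by omega) _)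
    exact ⟨u, IsPrimitiveRoot.coe_units_iff.2 (hu ▸ IsPrimitiveRoot.orderOf u)⟩
  obtain ⟨ν, P, hν, ⟨s⟩⟩ := exists_std hμ h3 R hR hRe hRna
  set R' := R.map (MulAut.conj P⁻¹).toMonoidHom with hR'def
  set U := Cfsg.GU 3 F p with hU
  set S := U ⊓ Cfsg.Geo.specialLinear (Fin 3) F with hSdef
  -- scale the change of coordinates to a unitary one
  obtain ⟨P', hP'U, hPP⟩ : ∃ P' ∈ U, ∀ u, MulAut.conj P'⁻¹ u = MulAut.conj P⁻¹ u := by
    set G := tstar hF (P : Matrix (Fin 3) (Fin 3) F) * (P : Matrix (Fin 3) (Fin 3) F) with hG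
    have hfix : ∀ u ∈ R', tstar hF ((u : GL (Fin 3) F) : Matrix (Fin 3) (Fin 3) F) * G *
        ((u : GL (Fin 3) F) : Matrix (Fin 3) (Fin 3) F) = G := by
      rintro _ ⟨w, hw, rfl⟩
      have hwU := (mem_GU_iff hF w).1 (hRU hw)
      have e : (P : Matrix (Fin 3) (Fin 3) F) * (((MulAut.conj P⁻¹).toMonoidHom w : GL (Fin 3) F) :
          Matrix (Fin 3) (Fin 3) F) = (w : Matrix (Fin 3) (Fin 3) F) * (P : Matrix (Fin 3) (Fin 3) F) := by
        simp [MulAut.conj_apply, ← mul_assoc]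
      set W : Matrix (Fin 3) (Fin 3) F := (((MulAut.conj P⁻¹).toMonoidHom w : GL (Fin 3) F) :
          Matrix (Fin 3) (Fin 3) F)
      calc tstar hF W * G * W
          = tstar hF ((P : Matrix (Fin 3) (Fin 3) F) * W) * ((P : Matrix (Fin 3) (Fin 3) F) * W) := by
            rw [hG, tstar_mul]; simp only [mul_assoc]
        _ = tstar hF (P : Matrix (Fin 3) (Fin 3) F) * (tstar hF (w : Matrix (Fin 3) (Fin 3) F) * w) * P := by
            rw [e, tstar_mul]; simp only [mul_assoc]
        _ = G := by rw [hwU, mul_one]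
    have hνp : ν ^ p = ν ^ 2 := Cfsg.Agent.S5998.pow_congr3 hν (by omega)
    have hA2 : tstar hF (pows ν) = pows ν * pows ν := by
      rw [tstar, pows, Matrix.diagonal_map (map_zero _), Matrix.diagonal_transpose, Matrix.diagonal_mul_diagonal]
      congr 1
      funext i
      show (ν ^ (i : ℕ)) ^ p = ν ^ (i : ℕ) * ν ^ (i : ℕ)
      rw [← pow_mul, mul_comm, pow_mul, hνp, ← pow_mul, ← pow_add, two_mul]
    have hB2 : tstar hF (shift : Matrix (Fin 3) (Fin 3) F) = shift * shift := by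
      ext i j
      fin_cases i <;> fin_cases j <;> simp [tstar, shift, Matrix.mul_apply, Fin.sum_univ_three]
    have hA3 : pows ν * (pows ν * pows ν) = 1 := by
      rw [pows, Matrix.diagonal_mul_diagonal, Matrix.diagonal_mul_diagonal, ← Matrix.diagonal_one]
      congr 1
      funext i
      rw [← pow_add, ← pow_add, hν.pow_eq_one_iff_dvd]
      omega
    have hB3 : (shift : Matrix (Fin 3) (Fin 3) F) * (shift * shift) = 1 := by
      ext i j
      fin_cases i <;> fin_cases j <;> simp [shift, Matrix.mul_apply, Fin.sum_univ_three]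
    have hsc : G = G 0 0 • (1 : Matrix (Fin 3) (Fin 3) F) := by
      apply scalar_of_comm hν
      · have h := hfix _ s.mA
        rw [s.hA, hA2] at h
        calc G * pows ν = (pows ν * (pows ν * pows ν)) * (G * pows ν) := by rw [hA3, one_mul]
          _ = pows ν * ((pows ν * pows ν) * G * pows ν) := by simp only [mul_assoc]
          _ = pows ν * G := by rw [h]
      · have h := hfix _ s.mB
        rw [s.hB, hB2] at h
        calc G * shift = (shift * (shift * shift)) * (G * shift) := by rw [hB3, one_mul]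
          _ = shift * ((shift * shift) * G * shift) := by simp only [mul_assoc]
          _ = shift * G := by rw [h]
    set n := G 0 0 with hn
    have hn0 : n ≠ 0 := by
      intro h0
      have hd : G.det = 0 := by rw [hsc, h0, zero_smul, Matrix.det_zero]
      rw [hG, Matrix.det_mul, tstar, Matrix.det_transpose, ← RingHom.mapMatrix_apply, ← RingHom.map_det] at hd
      have := ((Matrix.isUnit_iff_isUnit_det _).1 P.isUnit).ne_zero
      rcases mul_eq_zero.1 hd with h | h
      · exact this ((map_eq_zero _).1 h)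
      · exact this h
    have hnp : n ^ p = n := by
      have hh : tstar hF G = G := by rw [hG, tstar_mul, tstar_tstar]
      exact congrFun (congrFun hh 0) 0
    obtain ⟨t, ht⟩ := exists_norm hF hp (inv_ne_zero hn0) (by rw [inv_pow, hnp])
    have ht0 : t ≠ 0 := fun h => hn0 (inv_eq_zero.1 (by rw [← ht, h]; simp))
    let T : GL (Fin 3) F := Matrix.GeneralLinearGroup.mkOfDetNeZero (t • 1)
      (by simp [Matrix.det_smul, ht0])
    have hT : (T : Matrix (Fin 3) (Fin 3) F) = t • 1 := rfl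
    refine ⟨P * T, (mem_GU_iff hF _).2 ?_, fun u => ?_⟩
    · rw [Units.val_mul, hT, Matrix.mul_smul, mul_one, tstar_smul, Matrix.smul_mul, Matrix.mul_smul, ← hG, hsc,
        smul_smul, smul_smul]
      show ((t ^ p * t * n) • (1 : Matrix (Fin 3) (Fin 3) F)) = 1
      rw [← pow_succ, ht, inv_mul_cancel₀ hn0, one_smul]
    · have hc : T * (P⁻¹ * u * P) = (P⁻¹ * u * P) * T := by
        apply Units.ext
        rw [Units.val_mul T, Units.val_mul _ T, hT, Matrix.smul_mul, one_mul, Matrix.mul_smul, mul_one]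
      simp only [MulAut.conj_apply, inv_inv]
      calc (P * T)⁻¹ * u * (P * T) = T⁻¹ * ((P⁻¹ * u * P) * T) := by group
        _ = P⁻¹ * u * P := by rw [← hc, inv_mul_cancel_left]
  have hR'eq : R' = R.map (MulAut.conj P'⁻¹).toMonoidHom := by
    rw [hR'def]; congr 1; ext1 u; exact (hPP u).symm
  have hR' : Nat.card R' = 27 := by
    rw [← hR]; exact (Nat.card_congr (R.equivMapOfInjective _ (MulAut.conj P⁻¹).injective).toEquiv).symm
  have hSconj : ∀ g ∈ U, ∀ y ∈ S, g * y * g⁻¹ ∈ S := fun g hg y hy =>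
    Subgroup.mem_inf.2 ⟨mul_mem (mul_mem hg hy.1) (inv_mem hg), (MonoidHom.normal_ker _).conj_mem y hy.2 g⟩
  have hRS : R ≤ S := by
    refine le_inf hRU ?_
    intro u hu
    have h' : R' ≤ Cfsg.Geo.specialLinear (Fin 3) F := by
      rw [s.gen, Subgroup.closure_le]
      rintro u (rfl | rfl)
      · rw [SetLike.mem_coe, Cfsg.Geo.specialLinear, MonoidHom.mem_ker]
        apply Units.ext
        rw [Matrix.GeneralLinearGroup.val_det_apply, s.hA]
        simp [pows, Matrix.det_diagonal, Fin.prod_univ_three, ← pow_succ, hν.pow_eq_one, ← pow_succ']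
      · rw [SetLike.mem_coe, Cfsg.Geo.specialLinear, MonoidHom.mem_ker]
        apply Units.ext
        rw [Matrix.GeneralLinearGroup.val_det_apply, s.hB]
        simp [shift, Matrix.det_fin_three]
    have hh : MulAut.conj P⁻¹ u ∈ Cfsg.Geo.specialLinear (Fin 3) F := h' ⟨u, hu, rfl⟩
    have := (MonoidHom.normal_ker _).conj_mem _ hh P
    simpa [MulAut.conj_apply, mul_assoc, Cfsg.Geo.specialLinear] using this
  have hdet : ∀ x ∈ S, ((x : GL (Fin 3) F) : Matrix (Fin 3) (Fin 3) F).det = 1 := fun x hx =>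
    ((mem_SU_iff p).1 hx).2
  constructor
  · intro H
    rcases eq_or_ne r 2 with rfl | hr2
    · exact Or.inl rfl
    rcases eq_or_ne r 3 with rfl | hr3
    · exact Or.inr ⟨rfl, nine_of_index hF hp hp3 R hR hRS hΩ⟩
    exfalso
    have hrp : r.Prime := Fact.out
    have h5 : 5 ≤ r := by
      have := hrp.two_le
      rcases eq_or_ne r 4 with rfl | h4
      · exact absurd hrp (by norm_num)
      · omega
    have hdvd : r ∣ Nat.card S := hΩ.trans (Subgroup.index_dvd_card _)
    obtain ⟨x, hx⟩ := exists_prime_orderOf_dvd_card' r hdvd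
    have hxr : ((x : GL (Fin 3) F)) ^ r = 1 := by
      rw [← Subgroup.coe_pow, ← hx, pow_orderOf_eq_one, Subgroup.coe_one]
    have hns : ∀ z : F, ((x : GL (Fin 3) F) : Matrix (Fin 3) (Fin 3) F) ≠ z • (1 : Matrix (Fin 3) (Fin 3) F) := by
      intro z hz
      have hd := hdet _ x.2
      rw [hz, Matrix.det_smul, Matrix.det_one, Fintype.card_fin, mul_one] at hd
      have hx3 : x ^ 3 = 1 := by
        apply Subtype.ext
        apply Units.ext
        rw [Subgroup.coe_pow, Units.val_pow_eq_pow_val, hz, smul_pow, hd, one_pow, one_smul]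
        rfl
      have := Nat.le_of_dvd three_pos (hx ▸ orderOf_dvd_of_pow_eq_one hx3)
      omega
    obtain ⟨g, hg, hgN⟩ := H x x.2 ⟨1, by rw [hxr]; simp⟩ hns
    set y := MulAut.conj P⁻¹ (g⁻¹ * (x : GL (Fin 3) F) * g) with hy
    have hyN : y ∈ Subgroup.normalizer (R' : Set (GL (Fin 3) F)) :=
      (Cfsg.Agent.S5998.mem_conj_normalizer R P _).2 hgN
    have hyr : y ^ r = 1 := by
      rw [hy, ← map_pow, show g⁻¹ * (x : GL (Fin 3) F) * g = g⁻¹ * (x : GL (Fin 3) F) * g⁻¹⁻¹ by rw [inv_inv],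
        conj_pow, hxr]
      simp
    have hs := Cfsg.Agent.S5998.scalar_of_prime_pow hR' hν s h5 y hyN hyr
    apply hns ((y : Matrix (Fin 3) (Fin 3) F) 0 0)
    have hxy : (x : GL (Fin 3) F) = g * P * y * (g * P)⁻¹ := by
      rw [hy, MulAut.conj_apply]; group
    conv_lhs => rw [hxy, Units.val_mul, Units.val_mul (g * P) y, hs, Matrix.mul_smul, mul_one, Matrix.smul_mul,
      Units.mul_inv]
  · intro hr x hx ⟨z, hz⟩ hns
    suffices ∃ g ∈ S, g⁻¹ * MulAut.conj P'⁻¹ x * g ∈ Subgroup.normalizer (R' : Set (GL (Fin 3) F)) by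
      obtain ⟨g, hg, hgN⟩ := this
      refine ⟨P' * g * P'⁻¹, hSconj P' hP'U g hg, (Cfsg.Agent.S5998.mem_conj_normalizer R P' _).1 ?_⟩
      rw [← hR'eq]
      convert hgN using 1
      simp only [MulAut.conj_apply]; group
    set x' := MulAut.conj P'⁻¹ x with hx'
    have hx'S : x' ∈ S := by
      rw [hx', MulAut.conj_apply]; exact hSconj _ (inv_mem hP'U) x hx
    have hz' : ((x' ^ r : GL (Fin 3) F) : Matrix (Fin 3) (Fin 3) F) = z • (1 : Matrix (Fin 3) (Fin 3) F) := by
      rw [hx', ← map_pow, MulAut.conj_apply, Units.val_mul, Units.val_mul, hz, Matrix.mul_smul, Matrix.smul_mul,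
        mul_one, Units.mul_inv]
    have hns' : ∀ t : F, (x' : Matrix (Fin 3) (Fin 3) F) ≠ t • (1 : Matrix (Fin 3) (Fin 3) F) := by
      intro t ht
      apply hns t
      have : x = P' * x' * P'⁻¹ := by rw [hx', MulAut.conj_apply]; group
      rw [this, Units.val_mul, Units.val_mul, ht, Matrix.mul_smul, mul_one, Matrix.smul_mul, Units.mul_inv]
    rw [Units.val_pow_eq_pow_val] at hz'
    have hz3 : z ^ 3 = 1 := by
      have := congrArg Matrix.det hz'
      rw [Matrix.det_pow, hdet _ hx'S, one_pow, Matrix.det_smul, Matrix.det_one, Fintype.card_fin, mul_one] at this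
      exact this.symm
    have cube_norm : ∀ a : F, a ^ 3 = 1 → a ^ (p + 1) = 1 := fun a ha => by
      obtain ⟨k, hk⟩ : 3 ∣ p + 1 := by omega
      rw [hk, pow_mul, ha, one_pow]
    rcases hr with rfl | ⟨rfl, hp9⟩
    · set M : Matrix (Fin 3) (Fin 3) F := z • (x' : Matrix (Fin 3) (Fin 3) F) with hM
      have hM2 : M ^ 2 = 1 := by
        rw [hM, smul_pow, hz', smul_smul, ← pow_succ, hz3, one_smul]
      obtain ⟨Q, d, hd, hQ⟩ := exists_diagonal (n := 2) (by exact_mod_cast h2)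
        (IsPrimitiveRoot.mk_of_lt (-1 : F) two_pos (by ring)
          (fun l hl0 hl2 => by
            obtain rfl : l = 1 := by omega
            rw [pow_one]
            intro h
            exact h2 (by linear_combination -h))) M hM2
      have hxM : (x' : Matrix (Fin 3) (Fin 3) F) = z ^ 2 • M := by
        rw [hM, smul_smul, ← pow_succ, hz3, one_smul]
      have hprod : d 0 * d 1 * d 2 = 1 := by
        have hdM : M.det = 1 := by
          rw [hM, Matrix.det_smul, hdet _ hx'S, Fintype.card_fin, hz3, mul_one]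
        have := congrArg Matrix.det hQ
        rw [Matrix.det_mul, Matrix.det_mul, hdM, one_mul, Matrix.det_diagonal, Fin.prod_univ_three] at this
        exact (mul_left_cancel₀ ((Matrix.isUnit_iff_isUnit_det _).1 Q.isUnit).ne_zero
          (by rw [mul_one]; exact this)).symm
      have hd' : ∀ i, d i = 1 ∨ d i = -1 := fun i => sq_eq_one_iff.1 (hd i)
      obtain ⟨σ, hσ⟩ : ∃ σ : Equiv.Perm (Fin 3), d ∘ σ = ![1, -1, -1] := by
        have hne : ¬ (d 0 = 1 ∧ d 1 = 1 ∧ d 2 = 1) := by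
          rintro ⟨e0, e1, e2⟩
          apply hns' (z ^ 2)
          have : Matrix.diagonal d = (1 : Matrix (Fin 3) (Fin 3) F) := by
            rw [show d = fun _ => 1 by funext i; fin_cases i <;> assumption]; exact Matrix.diagonal_one
          rw [this, mul_one] at hQ
          rw [hxM]
          congr 1
          calc M = M * ((Q : Matrix (Fin 3) (Fin 3) F) * ((Q⁻¹ : GL (Fin 3) F) : Matrix (Fin 3) (Fin 3) F)) := by
                rw [Units.mul_inv, mul_one]
            _ = 1 := by rw [← mul_assoc, hQ, Units.mul_inv]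
        rcases hd' 0 with e0 | e0 <;> rcases hd' 1 with e1 | e1 <;> rcases hd' 2 with e2 | e2
        all_goals first
          | (refine absurd ?_ hne; refine ⟨?_, ?_, ?_⟩ <;> assumption)
          | (exfalso; rw [e0, e1, e2] at hprod; exact h2 (by linear_combination -hprod))
          | (refine ⟨Equiv.refl _, ?_⟩; funext i; fin_cases i <;> simp [e0, e1, e2] <;> done)
          | (refine ⟨Equiv.swap 0 1, ?_⟩; funext i; fin_cases i <;> simp [e0, e1, e2, Equiv.swap_apply_def] <;> done)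
          | (refine ⟨Equiv.swap 0 2, ?_⟩; funext i; fin_cases i <;> simp [e0, e1, e2, Equiv.swap_apply_def] <;> done)
      obtain ⟨Q1, hQ1⟩ := diag_perm Q hQ σ
      rw [hσ] at hQ1
      have hz0 : z ≠ 0 := fun h => by simp [h] at hz3
      let Δv : Fin 3 → F := fun i => z ^ 2 * ![1, -1, -1] i
      have hΔn : ∀ i, Δv i ^ (p + 1) = 1 := fun i => by
        have hzn := cube_norm (z ^ 2) (by rw [← pow_mul, mul_comm, pow_mul, hz3, one_pow])
        fin_cases i <;> simp [Δv, mul_pow, hzn, heven.neg_one_pow, heven.neg_pow]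
      let Δ : GL (Fin 3) F := Matrix.GeneralLinearGroup.mkOfDetNeZero (Matrix.diagonal Δv)
        (by simp [Δv, Matrix.det_diagonal, Fin.prod_univ_three, hz0])
      have hzd : z ^ 2 • Matrix.diagonal ![(1 : F), -1, -1] = Matrix.diagonal Δv := by
        rw [← Matrix.diagonal_smul]; rfl
      obtain ⟨g1, hg1, hg1'⟩ := exists_su_conj_diag hF x' Δ Δv hx'S.1 hΔn rfl Q1
        (by rw [hxM, Matrix.smul_mul, hQ1, ← Matrix.mul_smul, hzd])
      let Tm : Matrix (Fin 3) (Fin 3) F := !![-1, 0, 0; 0, 0, -1; 0, -1, 0]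
      let D : GL (Fin 3) F := Matrix.GeneralLinearGroup.mkOfDetNeZero (z ^ 2 • Tm)
        (by simp [Tm, Matrix.det_smul, Matrix.det_fin_three, hz0])
      have hDU : D ∈ U := by
        rw [hU, mem_GU_iff hF]
        show tstar hF (z ^ 2 • Tm) * (z ^ 2 • Tm) = 1
        have hT : tstar hF Tm * Tm = 1 := by
          ext i j
          fin_cases i <;> fin_cases j <;>
            simp [Tm, tstar, Matrix.mul_apply, Fin.sum_univ_three]
        rw [tstar_smul, Matrix.smul_mul, Matrix.mul_smul, hT, smul_smul]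
        show ((z ^ 2) ^ p * z ^ 2) • (1 : Matrix (Fin 3) (Fin 3) F) = 1
        rw [← pow_succ, cube_norm _ (by rw [← pow_mul, mul_comm, pow_mul, hz3, one_pow]), one_smul]
      let P2 : GL (Fin 3) F := Matrix.GeneralLinearGroup.mkOfDetNeZero !![0, 1, 0; 1, 0, 1; -1, 0, 1]
        (by
          simp [Matrix.det_fin_three]
          intro h
          exact h2 (by linear_combination -h))
      obtain ⟨g2, hg2, hg2'⟩ := exists_su_conj_diag hF D Δ Δv hDU hΔn rfl P2
        (by
          show (z ^ 2 • Tm) * _ = _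
          rw [Matrix.smul_mul, ← hzd, Matrix.mul_smul]
          congr 1
          ext i j
          fin_cases i <;> fin_cases j <;>
            simp [Tm, P2, Matrix.GeneralLinearGroup.mkOfDetNeZero, Matrix.mul_apply, Fin.sum_univ_three])
      refine ⟨g1 * g2⁻¹, mul_mem hg1 (inv_mem hg2), ?_⟩
      have : (g1 * g2⁻¹)⁻¹ * x' * (g1 * g2⁻¹) = D := by
        calc _ = g2 * (g1⁻¹ * x' * g1) * g2⁻¹ := by group
          _ = D := by rw [hg1', ← hg2']; group
      rw [this]
      exact Cfsg.Agent.S5998.swap_mem_normalizer hν s D (z ^ 2) rfl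
    · obtain ⟨ε, hε⟩ : ∃ ε : F, IsPrimitiveRoot ε 9 := by
        obtain ⟨g, hg⟩ := IsCyclic.exists_generator (α := Fˣ)
        have hog : orderOf g = p ^ 2 - 1 := by
          rw [← hun]; exact orderOf_eq_card_of_forall_mem_zpowers hg
        have hd9 : 9 ∣ p ^ 2 - 1 := by rw [hsq]; exact Dvd.dvd.mul_right (by omega) _
        have hpos : 0 < p ^ 2 - 1 := by
          have := Nat.pow_le_pow_left hp 2
          omega
        exact ⟨((g ^ ((p ^ 2 - 1) / 9) : Fˣ) : F), IsPrimitiveRoot.coe_units_iff.2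
          ((hog ▸ IsPrimitiveRoot.orderOf g).pow hpos (Nat.div_mul_cancel hd9).symm)⟩
      have hε3 : IsPrimitiveRoot (ε ^ 3) 3 := hε.pow (by norm_num) (by norm_num)
      obtain ⟨k, -, hk⟩ := hε3.eq_pow_of_pow_eq_one hz3
      set ζ := ε ^ k with hζ
      have hζ3 : ζ ^ 3 = z := by rw [hζ, ← pow_mul, mul_comm, pow_mul, hk]
      have hζ0 : ζ ≠ 0 := pow_ne_zero _ (hε.ne_zero (by norm_num))
      have hζn : ζ ^ (p + 1) = 1 := by
        obtain ⟨j, hj⟩ : 9 ∣ p + 1 := by omega
        rw [hζ, ← pow_mul, mul_comm, hj, mul_assoc, pow_mul, hε.pow_eq_one, one_pow]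
      have hy : (ζ⁻¹ • (x' : Matrix (Fin 3) (Fin 3) F)) ^ 3 = 1 := by
        rw [smul_pow, hz', smul_smul, inv_pow, hζ3, inv_mul_cancel₀ (by rw [← hζ3]; exact pow_ne_zero _ hζ0),
          one_smul]
      obtain ⟨Q, d, hd, hQ⟩ := exists_diagonal (n := 3) (by exact_mod_cast h3) hμ _ hy
      have hd0 : ∀ i, d i ≠ 0 := fun i h => by simpa [h] using hd i
      let D : GL (Fin 3) F := Matrix.GeneralLinearGroup.mkOfDetNeZero (Matrix.diagonal fun i => ζ * d i)
        (by simp [Matrix.det_diagonal, Fin.prod_univ_three, hζ0, hd0])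
      obtain ⟨g, hg, hg'⟩ := exists_su_conj_diag hF x' D _ hx'S.1
        (fun i => by rw [mul_pow, hζn, cube_norm _ (hd i), one_mul]) rfl Q (by
        rw [show (fun i => ζ * d i) = ζ • d from rfl, Matrix.diagonal_smul, Matrix.mul_smul, ← hQ,
          ← Matrix.smul_mul, smul_smul, mul_inv_cancel₀ hζ0, one_smul])
      exact ⟨g, hg, hg' ▸ Cfsg.Agent.S5998.diag_mem_normalizer hν s D ζ d hd rfl⟩

end Cfsg.Agent.S5999
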