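import Cfsg.Statements.S6000
import Cfsg.Agent.Lib.SympFour.Normal
import Cfsg.Agent.Lib.SympFour.Conj
import Cfsg.Agent.Lib.Three.Extraspecial

set_option autoImplicit false
open scoped MatrixGroups
open Cfsg

namespace Cfsg.Agent.S6000

open Matrix Module Cfsg.Agent.Lib.SympFour

universe v
variable {F : Type v} [Field F]

local notation "M4" => Matrix (Fin 4) (Fin 4) F
local notation "V4" => Fin 4 → F

theorem mem_conj_normalizer (R : Subgroup (GL (Fin 4) F)) (P g : GL (Fin 4) F) :
    MulAut.conj P⁻¹ g ∈ Subgroup.normalizer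
        ((R.map (MulAut.conj P⁻¹).toMonoidHom : Subgroup (GL (Fin 4) F)) : Set (GL (Fin 4) F)) ↔
      g ∈ Subgroup.normalizer (R : Set (GL (Fin 4) F)) := by
  have key : ∀ u, MulAut.conj P⁻¹ u ∈ R.map (MulAut.conj P⁻¹).toMonoidHom ↔ u ∈ R := fun u =>
    ⟨fun ⟨w, hw, he⟩ => (MulAut.conj P⁻¹).injective he ▸ hw, fun h => ⟨u, h, rfl⟩⟩
  rw [Subgroup.mem_normalizer_iff, Subgroup.mem_normalizer_iff]
  constructor
  · intro h u
    have := h (MulAut.conj P⁻¹ u)
    rwa [← map_mul, ← map_inv, ← map_mul, key, key] at this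
  · intro h w
    obtain ⟨u, rfl⟩ := (MulAut.conj P⁻¹).surjective w
    rw [← map_mul, ← map_inv, ← map_mul, key, key]
    exact h u

theorem bad_three (ω : F) [Finite F] :
    Nat.card F ^ 10 ≤ Nat.card (commSet (Matrix.diagonal ![ω, ω, ω, 1] : M4)) := by
  let f : (Fin 10 → F) → commSet (Matrix.diagonal ![ω, ω, ω, 1] : M4) := fun a =>
    ⟨!![a 0, a 1, a 2, 0; a 3, a 4, a 5, 0; a 6, a 7, a 8, 0; 0, 0, 0, a 9], by
      show _ = _
      ext i j
      rw [Matrix.diagonal_mul, Matrix.mul_diagonal]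
      fin_cases i <;> fin_cases j <;> simp [mul_comm]⟩
  refine le_of_eq_of_le ?_ (Nat.card_le_card_of_injective f ?_)
  · rw [Nat.card_fun, Nat.card_eq_fintype_card (α := Fin 10), Fintype.card_fin]
  · intro a b h
    have h' : ∀ i j, (f a).1 i j = (f b).1 i j := fun i j => by rw [h]
    funext k
    fin_cases k
    · exact h' 0 0
    · exact h' 0 1
    · exact h' 0 2
    · exact h' 1 0
    · exact h' 1 1
    · exact h' 1 2
    · exact h' 2 0
    · exact h' 2 1
    · exact h' 2 2
    · exact h' 3 3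

/-- A block of order five. -/
def blockFive (a : F) : Matrix (Fin 4) (Fin 4) F := !![0, -1, 0, 0; 1, a, 0, 0; 0, 0, 1, 0; 0, 0, 0, 1]

theorem blockFive_pow {a : F} (ha : a * a + a - 1 = 0) : blockFive a ^ 5 = 1 := by
  ext i j
  fin_cases i <;> fin_cases j <;>
    simp [blockFive, pow_succ, Matrix.mul_apply, Fin.sum_univ_four] <;> grind

theorem bad_five (a : F) [Finite F] : Nat.card F ^ 6 ≤ Nat.card (commSet (blockFive a)) := by
  let f : (Fin 6 → F) → commSet (blockFive a) := fun c =>
    ⟨!![c 0, -c 1, 0, 0; c 1, c 0 + c 1 * a, 0, 0; 0, 0, c 2, c 3; 0, 0, c 4, c 5], by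
      show _ = _
      ext i j
      fin_cases i <;> fin_cases j <;> simp [blockFive, Matrix.mul_apply, Fin.sum_univ_four] <;> ring⟩
  refine le_of_eq_of_le ?_ (Nat.card_le_card_of_injective f ?_)
  · rw [Nat.card_fun, Nat.card_eq_fintype_card (α := Fin 6), Fintype.card_fin]
  · intro c d h
    have h' : ∀ i j, (f c).1 i j = (f d).1 i j := fun i j => by rw [h]
    funext k
    fin_cases k
    · exact h' 0 0
    · exact h' 1 0
    · exact h' 2 2
    · exact h' 2 3
    · exact h' 3 2
    · exact h' 3 3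

theorem commSet_conj [Finite F] (x Q : GL (Fin 4) F) :
    Nat.card (commSet (x : M4)) ≤ Nat.card (commSet ((Q⁻¹ * x * Q : GL (Fin 4) F) : M4)) := by
  let f : commSet (x : M4) → commSet ((Q⁻¹ * x * Q : GL (Fin 4) F) : M4) := fun N =>
    ⟨((Q⁻¹ : GL (Fin 4) F) : M4) * N.1 * (Q : M4), by
      show _ = _
      have hN : (x : M4) * N.1 = N.1 * (x : M4) := N.2
      simp only [Units.val_mul, mul_assoc, Units.mul_inv_cancel_left]
      rw [← mul_assoc (x : M4), hN, mul_assoc]⟩
  refine Nat.card_le_card_of_injective f fun N N' h => Subtype.ext ?_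
  have h' : ((Q⁻¹ : GL (Fin 4) F) : M4) * N.1 * (Q : M4) = ((Q⁻¹ : GL (Fin 4) F) : M4) * N'.1 * (Q : M4) :=
    congrArg Subtype.val h
  exact Q⁻¹.isUnit.mul_right_injective (Q.isUnit.mul_left_injective h')

theorem order_two_mod_three : orderOf ((2 : ℕ) : ZMod 3) = 2 := orderOf_eq_prime (by decide) (by decide)

theorem four_sq_mod_five : ((4 : ℕ) : ZMod 5) ^ 2 = 1 := by decide

theorem squares_mod_five : IsSquare ((1 : ℕ) : ZMod 5) ∧ IsSquare ((4 : ℕ) : ZMod 5) :=
  ⟨⟨1, by decide⟩, ⟨2, by decide⟩⟩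

theorem order_four_mod_five : orderOf ((2 : ℕ) : ZMod 5) = 4 ∧ orderOf ((3 : ℕ) : ZMod 5) = 4 :=
  ⟨orderOf_eq_prime_pow (p := 2) (n := 1) (by decide) (by decide),
    orderOf_eq_prime_pow (p := 2) (n := 1) (by decide) (by decide)⟩

theorem bool_patterns : ∀ b : Fin 4 → Bool, (∀ i, b i = b 0) ∨ ∃ σ : Equiv.Perm (Fin 4),
    b ∘ σ = ![false, false, true, true] ∨ b ∘ σ = ![false, false, false, true] ∨
      b ∘ σ = ![true, true, true, false] := by
  decide +kernel

theorem exists_root [Finite F] {r : ℕ} (hco : (Nat.card Fˣ).Coprime r) {z : F} (hz : z ≠ 0) :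
    ∃ ζ : F, ζ ≠ 0 ∧ ζ ^ r = z := by
  obtain ⟨u, hu⟩ := (powCoprime hco).surjective (Units.mk0 z hz)
  exact ⟨u, u.ne_zero, by simpa using congrArg Units.val hu⟩

theorem isUnit_of_pow {M : M4} {n : ℕ} {c : F} (hc : c ≠ 0) (h : M ^ (n + 1) = c • 1) : IsUnit M :=
  IsUnit.of_mul_eq_one (c⁻¹ • M ^ n) (by
    rw [Matrix.mul_smul, ← pow_succ', h, smul_smul, inv_mul_cancel₀ hc, one_smul])

/-- The linear map of a matrix. -/
noncomputable def lmap (M : Matrix (Fin 4) (Fin 4) F) : Module.End F (Fin 4 → F) := Matrix.toLinAlgEquiv' M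

theorem fixed_dim [Finite F] {p : ℕ} [Fact p.Prime] [CharP F p] {r : ℕ} [Fact r.Prime] (hrp : r ≠ p)
    (hord : orderOf (Nat.card F : ZMod r) = r - 1) {M : M4} (hM : M ^ r = 1) (hM1 : M ≠ 1) :
    finrank F (LinearMap.ker (lmap M - 1)) < 4 ∧
      r - 1 ∣ 4 - finrank F (LinearMap.ker (lmap M - 1)) := by
  obtain ⟨R, hR, hCR, -, hdvd⟩ := split_prime hrp hord (lmap M) (by rw [lmap, ← map_pow, hM, map_one])
  have h := Submodule.finrank_add_eq_of_isCompl hCR
  rw [Module.finrank_fin_fun] at h
  refine ⟨?_, by rwa [show 4 - finrank F (LinearMap.ker (lmap M - 1)) = finrank F R by omega]⟩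
  by_contra hlt
  have hbot : R = ⊥ := Submodule.finrank_eq_zero.1 (by omega)
  have htop := hCR.sup_eq_top
  rw [hbot, sup_bot_eq, LinearMap.ker_eq_top, sub_eq_zero] at htop
  exact hM1 (Matrix.toLinAlgEquiv'.injective (htop.trans (map_one _).symm))

theorem conj_model [Finite F] {p : ℕ} [Fact p.Prime] [CharP F p] {r : ℕ} [Fact r.Prime] (hrp : r ≠ p)
    (hord : orderOf (Nat.card F : ZMod r) = r - 1) (x m : GL (Fin 4) F)
    (hx : x ∈ Cfsg.Geo.specialLinear (Fin 4) F) {M N : M4} {ζ : F}
    (hxN : (x : M4) = ζ • N) (hmM : (m : M4) = ζ • M) (hN : N ^ r = 1) (hM : M ^ r = 1) (hM1 : M ≠ 1)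
    (hk : finrank F (LinearMap.ker (lmap M - 1)) = finrank F (LinearMap.ker (lmap N - 1))) :
    ∃ g ∈ Cfsg.Geo.specialLinear (Fin 4) F, g⁻¹ * x * g = m := by
  obtain ⟨⟨T, hT⟩, hcent⟩ := conj_prime hrp hord (lmap M) (lmap N) (by rw [lmap, ← map_pow, hM, map_one])
    (by rw [lmap, ← map_pow, hN, map_one])
    (fun h => hM1 (Matrix.toLinAlgEquiv'.injective (h.trans (map_one _).symm))) rfl hk
  have hm : ∀ v, Matrix.toLin' (m : M4) v = ζ • lmap M v := fun v => by
    rw [hmM, map_smul, LinearMap.smul_apply]; rfl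
  have hxv : ∀ v, Matrix.toLin' (x : M4) v = ζ • lmap N v := fun v => by
    rw [hxN, map_smul, LinearMap.smul_apply]; rfl
  refine sl_conj x m hx T (fun v => by rw [hm, hxv, map_smul, hT]) fun δ hδ => ?_
  obtain ⟨C, hC, hdC⟩ := hcent δ hδ
  exact ⟨C, fun v => by rw [hm, hm, map_smul, hC], hdC⟩

/-- Elements of prime order of PSL_4(p), p ≡ 1 (mod 4), and the normalizer of a 2-group of symplectic type of order 2⁶. Here `T = PSL_4(F)` for the field `F` with `p` elements, `p` a prime with `p ≡ 1 (mod 4)`; `R` is an absolutely irreducible subgroup of GL_4(F) of order 2⁶ that is a 2-group of symplectic type of exponent 4 with centre of order 4 (the central product of the scalars of order 4 with an extraspecial group 2^{1+4}), and `H` is the subgroup of matrices of determinant 1 normalizing `R` — a subgroup of type 2⁴.Sp₄(2) (maximality is not assumed). Ω is the set of cosets of `H` in `T`, so an element of `T` of prime order `r` (a matrix `x` of determinant 1 with `x^r` scalar, `x` not scalar)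 fixes a point of Ω exactly when some conjugate of `x` by a matrix of determinant 1 normalizes `R`. Let `r` be a prime dividing the index of `H`. Then every element of `T` of order `r` fixes a point of Ω if and only if `r = 2`, or `r = 3` and `p ≡ 2 (mod 3)`, or `r = 5` and `p ≡ ±2 (mod 5)` (`p` has multiplicative order 4 modulo 5). -/
theorem result {F : Type*} [Field F] [Fintype F] {p : ℕ} [Fact p.Prime] [CharP F p] (hF : Fintype.card F = p) (hp4 : p % 4 = 1)
    (R : Subgroup (GL (Fin 4) F)) (hR : Cfsg.Geo.IsLinearSymplecticTypeData 2 R) (hR6 : Nat.card R = 2 ^ 6)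
    (r : ℕ) [Fact r.Prime]
    (hΩ : r ∣ (Cfsg.Geo.subgroupNormalizer R).relIndex (Cfsg.Geo.specialLinear (Fin 4) F)) :
    (∀ x ∈ Cfsg.Geo.specialLinear (Fin 4) F, (∃ z : F, ((x ^ r : GL (Fin 4) F) : Matrix (Fin 4) (Fin 4) F) = z • (1 : Matrix (Fin 4) (Fin 4) F)) →
      (∀ z : F, (x : Matrix (Fin 4) (Fin 4) F) ≠ z • (1 : Matrix (Fin 4) (Fin 4) F)) →
      ∃ g ∈ Cfsg.Geo.specialLinear (Fin 4) F, g⁻¹ * x * g ∈ Cfsg.Geo.subgroupNormalizer R) ↔ (r = 2 ∨ (r = 3 ∧ p % 3 = 2) ∨ (r = 5 ∧ orderOf (p : ZMod 5) = 4)) := by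
  classical
  have hpp : p.Prime := Fact.out
  have hp5 : 5 ≤ p := by have := hpp.two_le; omega
  have hcast : ∀ k : ℕ, 0 < k → k < p → (k : F) ≠ 0 := fun k h0 h1 h => by
    rw [CharP.cast_eq_zero_iff F p] at h
    have := Nat.le_of_dvd h0 h; omega
  have h2 : (2 : F) ≠ 0 := by exact_mod_cast hcast 2 two_pos (by omega)
  have h3 : (3 : F) ≠ 0 := by exact_mod_cast hcast 3 three_pos (by omega)
  have hNF : Nat.card F = p := by rw [Nat.card_eq_fintype_card, hF]
  have hun : Nat.card Fˣ = p - 1 := by rw [Nat.card_units, hNF]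
  obtain ⟨I, hI⟩ : ∃ I : F, I * I = -1 := by
    obtain ⟨I, hI⟩ := FiniteField.isSquare_neg_one_iff.2 (show Fintype.card F % 4 ≠ 3 by omega)
    exact ⟨I, hI.symm⟩
  obtain ⟨P, hP⟩ := exists_std h2 ⟨I, hI⟩ R hR hR6
  set R' := R.map (MulAut.conj P⁻¹).toMonoidHom with hR'def
  have hR' : IsStd R' := fun u => by
    rw [← hP u]
    constructor
    · rintro ⟨w, hw, rfl⟩
      simpa [MulAut.conj_apply, mul_assoc] using hw
    · intro h
      exact ⟨_, h, by simp [MulAut.conj_apply, mul_assoc]⟩
  set S := Cfsg.Geo.specialLinear (Fin 4) F with hSdef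
  haveI hSn : S.Normal := by rw [hSdef]; exact MonoidHom.normal_ker _
  have hdet : ∀ x ∈ S, ((x : GL (Fin 4) F) : (Matrix (Fin 4) (Fin 4) F)).det = 1 := fun x hx => by
    rw [← Matrix.GeneralLinearGroup.val_det_apply, (MonoidHom.mem_ker).1 hx, Units.val_one]
  have hmemS : ∀ x : GL (Fin 4) F, (x : (Matrix (Fin 4) (Fin 4) F)).det = 1 → x ∈ S := fun x hx => by
    rw [hSdef, Cfsg.Geo.specialLinear, MonoidHom.mem_ker]
    exact Units.ext ((Matrix.GeneralLinearGroup.val_det_apply x).trans hx)
  constructor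
  · intro H
    rcases eq_or_ne r 2 with rfl | hr2
    · exact Or.inl rfl
    have key : ∀ x : GL (Fin 4) F, x ∈ S → x ^ r = 1 → (∀ z : F, (x : (Matrix (Fin 4) (Fin 4) F)) ≠ z • 1) →
        (r = 3 ∧ Nat.card (commSet (x : (Matrix (Fin 4) (Fin 4) F))) ≤ p ^ 8) ∨ (r = 5 ∧ Nat.card (commSet (x : (Matrix (Fin 4) (Fin 4) F))) ≤ p ^ 4) := by
      intro x hx hxr hns
      obtain ⟨g, hg, hgN⟩ := H x hx ⟨1, by rw [hxr, one_smul, Units.val_one]⟩ hns
      set y := MulAut.conj P⁻¹ (g⁻¹ * x * g) with hy
      have hyN : y ∈ Subgroup.normalizer (R' : Set (GL (Fin 4) F)) := (mem_conj_normalizer R P _).2 hgN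
      have hyQ : y = (g * P)⁻¹ * x * (g * P) := by rw [hy, MulAut.conj_apply]; group
      have hyr : y ^ r = 1 := by
        rw [hy, ← map_pow, show g⁻¹ * x * g = g⁻¹ * x * g⁻¹⁻¹ by rw [inv_inv], conj_pow, hxr]
        simp
      have hle : Nat.card (commSet (x : (Matrix (Fin 4) (Fin 4) F))) ≤ Nat.card (commSet (y : (Matrix (Fin 4) (Fin 4) F))) := by
        rw [hyQ]; exact commSet_conj x (g * P)
      rcases normal_odd hR' h2 hr2 y hyN hyr with ⟨z, hz⟩ | ⟨e, hb⟩ | ⟨e, hb⟩
      · exfalso
        apply hns z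
        have hxy : x = g * P * y * (g * P)⁻¹ := by rw [hyQ]; group
        conv_lhs => rw [hxy, Units.val_mul, Units.val_mul (g * P) y, hz, Matrix.mul_smul, mul_one,
          Matrix.smul_mul, Units.mul_inv]
      · exact Or.inl ⟨e, hle.trans (hF ▸ hb)⟩
      · exact Or.inr ⟨e, hle.trans (hF ▸ hb)⟩
    rcases eq_or_ne r 3 with rfl | hr3
    · refine Or.inr (Or.inl ⟨rfl, ?_⟩)
      by_contra hne
      have hp3 : p % 3 ≠ 0 := fun h => by
        have := (Nat.prime_dvd_prime_iff_eq Nat.prime_three hpp).1 (Nat.dvd_of_mod_eq_zero h); omega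
      obtain ⟨ω, hω⟩ : ∃ ω : F, IsPrimitiveRoot ω 3 := by
        obtain ⟨u, hu⟩ := exists_prime_orderOf_dvd_card' (G := Fˣ) 3 (by rw [hun]; omega)
        exact ⟨u, IsPrimitiveRoot.coe_units_iff.2 (hu ▸ IsPrimitiveRoot.orderOf u)⟩
      have hω1 := hω.ne_one (by norm_num)
      have hω3 := hω.pow_eq_one
      let x : GL (Fin 4) F := Matrix.GeneralLinearGroup.mkOfDetNeZero (Matrix.diagonal ![ω, ω, ω, 1])
        (by simp [Matrix.det_diagonal, Fin.prod_univ_four, hω.ne_zero (by norm_num)])
      have hxm : (x : (Matrix (Fin 4) (Fin 4) F)) = Matrix.diagonal ![ω, ω, ω, 1] := rfl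
      have hx : x ∈ S := hmemS x (by
        rw [hxm, Matrix.det_diagonal, Fin.prod_univ_four]
        simp [← pow_three', hω3, ← pow_succ, ← pow_two])
      have hxr : x ^ 3 = 1 := by
        apply Units.ext
        rw [Units.val_pow_eq_pow_val, hxm, Matrix.diagonal_pow, Units.val_one, ← Matrix.diagonal_one]
        congr 1
        funext i
        fin_cases i <;> simp [hω3]
      have hns : ∀ z : F, (x : (Matrix (Fin 4) (Fin 4) F)) ≠ z • 1 := fun z hz => by
        have a := congrFun (congrFun (hxm.symm.trans hz) 0) 0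
        have b := congrFun (congrFun (hxm.symm.trans hz) 3) 3
        simp at a b
        exact hω1 (a.trans b.symm)
      rcases key x hx hxr hns with ⟨-, h⟩ | ⟨h, -⟩
      · have hb := bad_three ω
        rw [hNF, ← hxm] at hb
        have := Nat.pow_lt_pow_right (show 1 < p by omega) (show 8 < 10 by norm_num)
        omega
      · omega
    rcases eq_or_ne r 5 with rfl | hr5
    · refine Or.inr (Or.inr ⟨rfl, ?_⟩)
      by_contra hne
      have hp : p % 5 = 0 ∨ p % 5 = 1 ∨ p % 5 = 4 := by
        by_contra hcon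
        apply hne
        have hmod : p % 5 = 2 ∨ p % 5 = 3 := by omega
        rw [← ZMod.natCast_mod]
        rcases hmod with h | h <;> rw [h]
        · exact order_four_mod_five.1
        · exact order_four_mod_five.2
      obtain ⟨a, ha⟩ : ∃ a : F, a * a + a - 1 = 0 := by
        rcases hp with h | h
        · have h5 : (5 : F) = 0 := by
            have := (CharP.cast_eq_zero_iff F p 5).2 (by
              rw [(Nat.prime_dvd_prime_iff_eq Nat.prime_five hpp).1 (Nat.dvd_of_mod_eq_zero h)])
            exact_mod_cast this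
          exact ⟨2, by linear_combination h5⟩
        · have hsq : IsSquare ((5 : ℕ) : ZMod p) :=
            (ZMod.exists_sq_eq_prime_iff_of_mod_four_eq_one hp4 (q := 5) (by norm_num)).2 (by
              rw [← ZMod.natCast_mod]
              rcases h with h | h <;> rw [h]
              · exact squares_mod_five.1
              · exact squares_mod_five.2)
          obtain ⟨s, hs⟩ := hsq
          have hs' : (5 : F) = ZMod.castHom dvd_rfl F s * ZMod.castHom dvd_rfl F s := by
            have := congrArg (ZMod.castHom dvd_rfl F) hs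
            rw [map_mul, map_natCast] at this
            exact_mod_cast this
          refine ⟨(ZMod.castHom dvd_rfl F s - 1) / 2, ?_⟩
          field_simp
          linear_combination -hs'
      let x : GL (Fin 4) F := (isUnit_of_pow (n := 4) (one_ne_zero (α := F))
        (by rw [one_smul]; exact blockFive_pow ha)).unit
      have hxm : (x : (Matrix (Fin 4) (Fin 4) F)) = blockFive a := rfl
      have hx : x ∈ S := hmemS x (by
        rw [hxm, Matrix.det_succ_row_zero, Fin.sum_univ_four]
        simp [blockFive, Matrix.det_fin_three, Fin.succAbove])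
      have hxr : x ^ 5 = 1 := Units.ext (by rw [Units.val_pow_eq_pow_val, hxm, blockFive_pow ha, Units.val_one])
      have hns : ∀ z : F, (x : (Matrix (Fin 4) (Fin 4) F)) ≠ z • 1 := fun z hz => by
        have a' := congrFun (congrFun (hxm.symm.trans hz) 1) 0
        simp [blockFive] at a'
      rcases key x hx hxr hns with ⟨h, -⟩ | ⟨-, h⟩
      · omega
      · have hb := bad_five a
        rw [hNF, ← hxm] at hb
        have := Nat.pow_lt_pow_right (show 1 < p by omega) (show 4 < 6 by norm_num)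
        omega
    exfalso
    have hrp : r.Prime := Fact.out
    have hdvd : r ∣ Nat.card S := hΩ.trans (Subgroup.index_dvd_card _)
    obtain ⟨x, hx⟩ := exists_prime_orderOf_dvd_card' r hdvd
    have hxr : ((x : GL (Fin 4) F)) ^ r = 1 := by
      rw [← Subgroup.coe_pow, ← hx, pow_orderOf_eq_one, Subgroup.coe_one]
    have hns : ∀ z : F, ((x : GL (Fin 4) F) : (Matrix (Fin 4) (Fin 4) F)) ≠ z • (1 : (Matrix (Fin 4) (Fin 4) F)) := by
      intro z hz
      have hd := hdet _ x.2
      rw [hz, Matrix.det_smul, Matrix.det_one, Fintype.card_fin, mul_one] at hd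
      have hx4 : x ^ 4 = 1 := by
        apply Subtype.ext
        apply Units.ext
        rw [Subgroup.coe_pow, Units.val_pow_eq_pow_val, hz, smul_pow, hd, one_pow, one_smul]
        rfl
      have hle := Nat.le_of_dvd four_pos (hx ▸ orderOf_dvd_of_pow_eq_one hx4)
      have := hrp.two_le
      have : r ≠ 4 := fun h => absurd (h ▸ hrp) (by norm_num)
      omega
    rcases key _ x.2 hxr hns with ⟨e, -⟩ | ⟨e, -⟩
    · exact hr3 e
    · exact hr5 e
  · intro hr x hx ⟨z, hz⟩ hns
    suffices ∃ g ∈ S, g⁻¹ * MulAut.conj P⁻¹ x * g ∈ Subgroup.normalizer (R' : Set (GL (Fin 4) F)) by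
      obtain ⟨g, hg, hgN⟩ := this
      refine ⟨P * g * P⁻¹, hSn.conj_mem g hg P, (mem_conj_normalizer R P _).1 ?_⟩
      convert hgN using 1
      simp only [MulAut.conj_apply]; group
    set x' := MulAut.conj P⁻¹ x with hx'
    have hx'S : x' ∈ S := by
      rw [hx', MulAut.conj_apply]; exact hSn.conj_mem x hx _
    have hz' : ((x' ^ r : GL (Fin 4) F) : (Matrix (Fin 4) (Fin 4) F)) = z • (1 : (Matrix (Fin 4) (Fin 4) F)) := by
      rw [hx', ← map_pow, MulAut.conj_apply, Units.val_mul, Units.val_mul, hz, Matrix.mul_smul, Matrix.smul_mul,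
        mul_one, Units.mul_inv]
    have hns' : ∀ t : F, (x' : (Matrix (Fin 4) (Fin 4) F)) ≠ t • (1 : (Matrix (Fin 4) (Fin 4) F)) := by
      intro t ht
      apply hns t
      have : x = P * x' * P⁻¹ := by rw [hx', MulAut.conj_apply]; group
      rw [this, Units.val_mul, Units.val_mul, ht, Matrix.mul_smul, mul_one, Matrix.smul_mul, Units.mul_inv]
    rw [Units.val_pow_eq_pow_val] at hz'
    have hz4 : z ^ 4 = 1 := by
      have := congrArg Matrix.det hz'
      rw [Matrix.det_pow, hdet _ hx'S, one_pow, Matrix.det_smul, Matrix.det_one, Fintype.card_fin, mul_one] at this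
      exact this.symm
    have hz0 : z ≠ 0 := fun h => by simp [h] at hz4
    -- reduce to an element of order `r` times a scalar
    have odd : ∀ (ζ : F), ζ ≠ 0 → ζ ^ r = z → (ζ⁻¹ • (x' : (Matrix (Fin 4) (Fin 4) F))) ^ r = 1 ∧ ζ⁻¹ • (x' : (Matrix (Fin 4) (Fin 4) F)) ≠ 1 ∧
        (x' : (Matrix (Fin 4) (Fin 4) F)) = ζ • (ζ⁻¹ • (x' : (Matrix (Fin 4) (Fin 4) F))) := by
      intro ζ hζ hζr
      refine ⟨?_, fun h => hns' ζ ?_, (smul_inv_smul₀ hζ _).symm⟩
      · rw [smul_pow, hz', smul_smul, inv_pow, hζr, inv_mul_cancel₀ hz0, one_smul]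
      · rw [← h, smul_inv_smul₀ hζ]
    have finish : ∀ (ζ : F) (M : (Matrix (Fin 4) (Fin 4) F)) (_ : ζ ≠ 0) (hMu : IsUnit M),
        hMu.unit ∈ Subgroup.normalizer (R' : Set (GL (Fin 4) F)) →
        ∃ m : GL (Fin 4) F, m ∈ Subgroup.normalizer (R' : Set (GL (Fin 4) F)) ∧ (m : (Matrix (Fin 4) (Fin 4) F)) = ζ • M := by
      intro ζ M hζ hMu hmem
      have hu : IsUnit (ζ • (1 : (Matrix (Fin 4) (Fin 4) F))) :=
        IsUnit.of_mul_eq_one (ζ⁻¹ • (1 : (Matrix (Fin 4) (Fin 4) F))) (by rw [smul_one_mul, smul_smul, mul_inv_cancel₀ hζ, one_smul])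
      exact ⟨hu.unit * hMu.unit, mul_mem (scalar_mem hR' _ ζ rfl) hmem, by
        rw [Units.val_mul, IsUnit.unit_spec, IsUnit.unit_spec, smul_one_mul]⟩
    rcases hr with rfl | ⟨rfl, hp3⟩ | ⟨rfl, hord⟩
    · -- involutions modulo scalars
      obtain ⟨lam, hlam⟩ : ∃ lam : F, lam ^ 2 = z := by
        by_contra hno
        push Not at hno
        have hv : ∀ v, ((Matrix.toLinAlgEquiv' (x' : (Matrix (Fin 4) (Fin 4) F)) : Module.End F (Fin 4 → F)) ^ 2) v = z • v := fun v => by
          rw [← map_pow, hz', map_smul, map_one, LinearMap.smul_apply, Module.End.one_apply]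
        obtain ⟨t, ht, hd⟩ := Cfsg.Agent.Lib.Elusive.det_nonpow (p := p) (r := 2) (by omega) hno 4
          (Matrix.toLinAlgEquiv' (x' : (Matrix (Fin 4) (Fin 4) F)) : Module.End F (Fin 4 → F)) (Module.finrank_fin_fun F) hv
        obtain rfl : t = 2 := by omega
        rw [show LinearMap.det (Matrix.toLinAlgEquiv' (x' : (Matrix (Fin 4) (Fin 4) F)) : Module.End F (Fin 4 → F)) = (x' : (Matrix (Fin 4) (Fin 4) F)).det from
          LinearMap.det_toLin' _, hdet _ hx'S] at hd
        rcases mul_self_eq_one_iff.1 (show z * z = 1 by linear_combination -hd) with h | h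
        · exact hno 1 (by rw [h, one_pow])
        · exact hno I (by rw [h, pow_two, hI])
      have hl0 : lam ≠ 0 := fun h => hz0 (by rw [← hlam, h]; norm_num)
      obtain ⟨hy, -, hxy⟩ := odd lam hl0 hlam
      obtain ⟨Q, d, hd, hQ⟩ := Cfsg.Agent.Lib.Three.exists_diagonal (n := 2) (by exact_mod_cast h2)
        (IsPrimitiveRoot.mk_of_lt (-1 : F) two_pos (by ring)
          (fun l hl0 hl2 => by
            obtain rfl : l = 1 := by omega
            rw [pow_one]
            intro h
            exact h2 (by linear_combination -h))) _ hy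
      let b : Fin 4 → Bool := fun i => decide (d i = -1)
      have hdb : ∀ i, d i = if b i then -1 else 1 := fun i => by
        simp only [b, decide_eq_true_eq]
        split_ifs with h
        · exact h
        · exact (sq_eq_one_iff.1 (hd i)).resolve_right h
      rcases bool_patterns b with hcst | ⟨σ, hσ⟩
      · exfalso
        apply hns' (lam * d 0)
        have hdd : Matrix.diagonal d = d 0 • (1 : (Matrix (Fin 4) (Fin 4) F)) := by
          rw [show d = fun _ => d 0 by funext i; rw [hdb i, hcst i, ← hdb 0], Matrix.smul_one_eq_diagonal]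
        rw [hdd, Matrix.mul_smul, mul_one] at hQ
        have hy1 : lam⁻¹ • (x' : (Matrix (Fin 4) (Fin 4) F)) = d 0 • 1 := by
          refine Q.isUnit.mul_left_injective ?_
          show lam⁻¹ • (x' : (Matrix (Fin 4) (Fin 4) F)) * (Q : (Matrix (Fin 4) (Fin 4) F)) = d 0 • (1 : (Matrix (Fin 4) (Fin 4) F)) * (Q : (Matrix (Fin 4) (Fin 4) F))
          rw [hQ, Matrix.smul_mul, one_mul]
        rw [hxy, hy1, smul_smul]
      obtain ⟨Q1, hQ1⟩ := Cfsg.Agent.Lib.Three.diag_perm Q hQ σ
      let dv : Fin 4 → F := fun i => lam * d (σ i)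
      let D : GL (Fin 4) F := Matrix.GeneralLinearGroup.mkOfDetNeZero (Matrix.diagonal dv) (by
        rw [Matrix.det_diagonal]
        refine Finset.prod_ne_zero_iff.2 fun i _ => mul_ne_zero hl0 fun h => ?_
        simpa [h] using hd (σ i))
      obtain ⟨g, hg, hg'⟩ := Cfsg.Agent.Lib.Three.exists_sl_conj_diag x' D dv rfl Q1 (by
        rw [hxy, Matrix.smul_mul, hQ1, ← Matrix.mul_smul, ← Matrix.diagonal_smul]
        rfl)
      refine ⟨g, hg, hg' ▸ ?_⟩
      have hD : ∀ i j, (D : (Matrix (Fin 4) (Fin 4) F)) i j = if i = j then lam * (if b (σ i) then -1 else 1) else 0 := fun i j => by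
        show Matrix.diagonal dv i j = _
        rw [Matrix.diagonal_apply]
        simp only [dv, hdb]
      rcases hσ with hσ | hσ | hσ <;>
        (have hb : ∀ i, b (σ i) = _ := fun i => congrFun hσ i)
      · refine mem_normalizer hR' D lam (pm 1) ?_ sign_rel
        ext i j
        rw [hD, hb]
        fin_cases i <;> fin_cases j <;> simp [pm, zm, sgnOf, flipOf, bit]
      · refine mem_normalizer hR' D lam oneSign ?_ oneSign_rel
        ext i j
        rw [hD, hb]
        fin_cases i <;> fin_cases j <;> simp [oneSign]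
      · refine mem_normalizer hR' D (-lam) oneSign ?_ oneSign_rel
        ext i j
        rw [hD, hb]
        fin_cases i <;> fin_cases j <;> simp [oneSign]
    · -- elements of order three modulo scalars
      have hrp : 3 ≠ p := by omega
      have hord : orderOf (Nat.card F : ZMod 3) = 3 - 1 := by
        rw [hNF, ← ZMod.natCast_mod, hp3]
        exact order_two_mod_three
      obtain ⟨ζ, hζ, hζr⟩ := exists_root (r := 3) (by
        rw [hun, Nat.Coprime, Nat.gcd_comm]
        exact (Nat.prime_three.coprime_iff_not_dvd.2 (by omega))) hz0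
      obtain ⟨hy, hy1, hxy⟩ := odd ζ hζ hζr
      obtain ⟨hlt, hdv⟩ := fixed_dim hrp hord hy hy1
      set k := finrank F (LinearMap.ker (lmap (ζ⁻¹ • (x' : (Matrix (Fin 4) (Fin 4) F))) - 1))
      have hk : k = 0 ∨ k = 2 := by
        rcases hdv with ⟨w, hw⟩
        omega
      rcases hk with hk | hk
      · set h : F := 2⁻¹ with hh
        have hh' : 2 * h = 1 := mul_inv_cancel₀ h2
        have hq := three_quad hI hh'
        have hM3 : three I h ^ 3 = 1 := by
          have e : three I h ^ 3 - 1 =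
              (three I h * three I h + three I h + 1) * (three I h - 1) := by noncomm_ring
          rw [hq, zero_mul, sub_eq_zero] at e
          exact e
        have hMu : IsUnit (three I h) := isUnit_of_pow (n := 2) (one_ne_zero (α := F)) (by rw [one_smul]; exact hM3)
        obtain ⟨m, hmN, hm⟩ := finish ζ _ hζ hMu
          (mem_normalizer hR' _ 1 _ (by rw [one_smul]; rfl) (three_rel hI h))
        have hbot : LinearMap.ker (lmap (three I h) - 1) = ⊥ := by
          refine (Submodule.eq_bot_iff _).2 fun v hv => ?_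
          have hv' : lmap (three I h) v = v := by
            simpa [sub_eq_zero] using LinearMap.mem_ker.1 hv
          have hq' : lmap (three I h) (lmap (three I h) v) + lmap (three I h) v + v = 0 := by
            have := congrArg (fun N : (Matrix (Fin 4) (Fin 4) F) => lmap N v) hq
            simpa [lmap] using this
          rw [hv', hv'] at hq'
          have : (3 : F) • v = 0 := by rw [← hq']; module
          exact (smul_eq_zero.1 this).resolve_left h3
        have hM1 : three I h ≠ 1 := fun e => by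
          rw [e, one_mul] at hq
          have := congrFun (congrFun hq 0) 0
          simp at this
          exact h3 (by linear_combination this)
        obtain ⟨g, hg, hg'⟩ := conj_model hrp hord x' m hx'S hxy hm hy hM3 hM1
          (by rw [hbot, finrank_bot]; exact hk.symm)
        exact ⟨g, hg, hg' ▸ hmN⟩
      · have hMu : IsUnit (cyc : (Matrix (Fin 4) (Fin 4) F)) := isUnit_of_pow (n := 2) (one_ne_zero (α := F)) (by rw [one_smul]; exact cyc_cube)
        obtain ⟨m, hmN, hm⟩ := finish ζ _ hζ hMu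
          (mem_normalizer hR' _ 1 _ (by rw [one_smul]; rfl) cyc_rel)
        have hM1 : (cyc : (Matrix (Fin 4) (Fin 4) F)) ≠ 1 := fun e => by
          have := congrFun (congrFun e 1) 1
          simp [cyc] at this
        obtain ⟨hlt', hdv'⟩ := fixed_dim hrp hord cyc_cube hM1
        set k' := finrank F (LinearMap.ker (lmap (cyc : (Matrix (Fin 4) (Fin 4) F)) - 1))
        have hpos : k' ≠ 0 := by
          intro h0
          have hbot := Submodule.finrank_eq_zero.1 h0
          have he : (Pi.single 0 1 : (Fin 4 → F)) ∈ LinearMap.ker (lmap (cyc : (Matrix (Fin 4) (Fin 4) F)) - 1) := by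
            rw [LinearMap.mem_ker]
            ext i
            fin_cases i <;> simp [lmap, cyc]
          rw [hbot, Submodule.mem_bot] at he
          exact one_ne_zero (α := F) (by simpa using congrFun he 0)
        have hk' : k' = 2 := by
          rcases hdv' with ⟨w, hw⟩
          omega
        obtain ⟨g, hg, hg'⟩ := conj_model hrp hord x' m hx'S hxy hm hy cyc_cube hM1 (hk'.trans hk.symm)
        exact ⟨g, hg, hg' ▸ hmN⟩
    · -- elements of order five modulo scalars
      have hp5' : p % 5 = 2 ∨ p % 5 = 3 := by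
        have h' : orderOf ((p % 5 : ℕ) : ZMod 5) = 4 := by rw [ZMod.natCast_mod]; exact hord
        by_contra hcon
        have : p % 5 = 0 ∨ p % 5 = 1 ∨ p % 5 = 4 := by omega
        rcases this with h | h | h <;> rw [h] at h'
        · simp at h'
        · simp at h'
        · have := orderOf_dvd_of_pow_eq_one four_sq_mod_five
          rw [h'] at this
          omega
      have hrp : 5 ≠ p := by omega
      have hord' : orderOf (Nat.card F : ZMod 5) = 5 - 1 := by rw [hNF]; exact hord
      have hco : (Nat.card Fˣ).Coprime 5 := by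
        rw [hun, Nat.Coprime, Nat.gcd_comm]
        exact (Nat.prime_five.coprime_iff_not_dvd.2 (by omega))
      obtain ⟨ζ, hζ, hζr⟩ := exists_root hco hz0
      obtain ⟨hy, hy1, hxy⟩ := odd ζ hζ hζr
      obtain ⟨hlt, hdv⟩ := fixed_dim hrp hord' hy hy1
      have h4 : (4 : F) ≠ 0 := by rw [show (4 : F) = 2 * 2 by norm_num]; exact mul_ne_zero h2 h2
      have hI1 : (1 : F) + I ≠ 0 := fun h => h2 (by linear_combination (1 - I) * h + hI)
      have hc : (4 : F) * (1 + I) ≠ 0 := mul_ne_zero h4 hI1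
      obtain ⟨μ, hμ, hμc⟩ := exists_root hco (inv_ne_zero hc)
      have hM5 : (μ • five I) ^ 5 = 1 := by
        rw [smul_pow, five_pow hI, smul_smul, hμc, inv_mul_cancel₀ hc, one_smul]
      have hM1 : μ • five I ≠ 1 := fun e => by
        have := congrFun (congrFun e 2) 0
        simp [five, hμ] at this
      obtain ⟨hlt', hdv'⟩ := fixed_dim hrp hord' hM5 hM1
      have hunit : IsUnit (five I).det :=
        (Matrix.isUnit_iff_isUnit_det _).1 (isUnit_of_pow (n := 4) hc (five_pow hI))
      rw [← five_eq, Matrix.det_mul, Matrix.det_mul, IsUnit.mul_iff, IsUnit.mul_iff] at hunit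
      obtain ⟨⟨uH, uS⟩, uP⟩ := hunit
      rw [← Matrix.isUnit_iff_isUnit_det] at uH uS uP
      have hMu : IsUnit (five I) := by rw [← five_eq]; exact (uH.mul uS).mul uP
      have hmem : hMu.unit ∈ Subgroup.normalizer (R' : Set (GL (Fin 4) F)) := by
        rw [show hMu.unit = uH.unit * uS.unit * uP.unit from Units.ext (five_eq I).symm]
        exact mul_mem (mul_mem (mem_normalizer hR' _ 1 _ (by rw [one_smul]; rfl) mixH_rel)
          (mem_normalizer hR' _ 1 _ (by rw [one_smul]; rfl) (phase_rel hI)))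
          (mem_normalizer hR' _ 1 _ (by rw [one_smul]; rfl) cyc_rel)
      obtain ⟨m, hmN, hm⟩ := finish (ζ * μ) _ (mul_ne_zero hζ hμ) hMu hmem
      rw [mul_smul] at hm
      obtain ⟨g, hg, hg'⟩ := conj_model hrp hord' x' m hx'S hxy hm hy hM5 hM1 (by
        rcases hdv with ⟨w, hw⟩
        rcases hdv' with ⟨w', hw'⟩
        omega)
      exact ⟨g, hg, hg' ▸ hmN⟩

end Cfsg.Agent.S6000
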